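import Cfsg.Statements.S0038
import Cfsg.Agent.Solvable.FrobeniusInvariant
import Cfsg.Agent.S0035
import Cfsg.Agent.S0037
set_option linter.all false

set_option autoImplicit false
open Pointwise
open Cfsg

namespace Cfsg.Agent.S0038

/-- A conjugate of a Frobenius complement is a Frobenius complement. -/
theorem conj_smul {G : Type*} [Group G] {H : Subgroup G} (hH : Cfsg.IsFrobeniusComplement H)
    (g : G) : Cfsg.IsFrobeniusComplement (MulAut.conj g • H) := by
  refine ⟨?_, ?_, ?_⟩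
  · intro h0
    apply hH.1
    have : MulAut.conj g⁻¹ • (MulAut.conj g • H) = MulAut.conj g⁻¹ • (⊥ : Subgroup G) := by rw [h0]
    rwa [map_inv, inv_smul_smul, Subgroup.smul_bot] at this
  · intro h0
    apply hH.2.1
    have : MulAut.conj g⁻¹ • (MulAut.conj g • H) = MulAut.conj g⁻¹ • (⊤ : Subgroup G) := by rw [h0]
    rw [map_inv, inv_smul_smul] at this
    rw [this, eq_top_iff]
    intro x _
    rw [← map_inv, Cfsg.Agent.Solvable.FrobeniusKernel.mem_conj_smul]
    trivial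
  · intro x hx
    rw [eq_bot_iff]
    rintro y ⟨hy, hy'⟩
    have h1 := Cfsg.Agent.Solvable.FrobeniusKernel.mem_conj_smul.1 hy
    have h2 := Cfsg.Agent.Solvable.FrobeniusKernel.mem_conj_smul.1
      (Cfsg.Agent.Solvable.FrobeniusKernel.mem_conj_smul.1 hy')
    have h3 : g⁻¹ * x * g ∉ H := fun h => hx (Cfsg.Agent.Solvable.FrobeniusKernel.mem_conj_smul.2 h)
    have h4 := Cfsg.Agent.Solvable.FrobeniusKernel.eq_one_of_mem hH h3 h1 (by
      have e : (g⁻¹ * x * g)⁻¹ * (g⁻¹ * y * g) * (g⁻¹ * x * g) = g⁻¹ * (x⁻¹ * y * x) * g := by group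
      rwa [e])
    rw [Subgroup.mem_bot]
    have e : y = g * (g⁻¹ * y * g) * g⁻¹ := by group
    rw [e, h4]; group

theorem aux {G : Type*} [Group G] [Finite G] (H H₀ : Subgroup G)
    (hH : Cfsg.IsFrobeniusComplement H) (hH₀ : Cfsg.IsFrobeniusComplement H₀)
    (hle : Nat.card H₀ ≤ Nat.card H) :
    ∃ g : G, MulAut.conj g • H₀ = H := by
  obtain ⟨g, hg⟩ := Cfsg.Agent.S0037.result H H₀ hH hH₀ hle
  obtain ⟨N, -, hN, hc⟩ := Cfsg.Agent.S0035.result H hH
  refine ⟨g, ?_⟩
  refine Cfsg.Agent.Solvable.FrobeniusInvariant.eq_of_le H (MulAut.conj g • H₀) N hH hc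
    (conj_smul hH₀ g) hg ?_
  intro hB
  obtain ⟨M, hM, -⟩ := Cfsg.Agent.S0035.result _ hB
  exact ⟨M, hM⟩

/-- All Frobenius complements of a finite group are conjugate to one another. -/
theorem result {G : Type*} [Group G] [Finite G] (H H₀ : Subgroup G)
    (hH : Cfsg.IsFrobeniusComplement H) (hH₀ : Cfsg.IsFrobeniusComplement H₀) :
    ∃ g : G, MulAut.conj g • H₀ = H := by
  rcases le_total (Nat.card H₀) (Nat.card H) with hle | hle
  · exact aux H H₀ hH hH₀ hle
  · obtain ⟨g, hg⟩ := aux H₀ H hH₀ hH hle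
    refine ⟨g⁻¹, ?_⟩
    rw [← hg, map_inv, inv_smul_smul]

end Cfsg.Agent.S0038
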