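import Cfsg.Statements.S1630
import Cfsg.Agent.SporadicStructure.OrthTwo
import Cfsg.Agent.LieClassical.QuadForms
set_option linter.all false

set_option autoImplicit false
open scoped MatrixGroups
open Cfsg

namespace Cfsg.Agent.S1630

/-- The orthogonal transvections of the minus-type orthogonal group in dimension ≥ 6 over the field with two elements form a generating conjugacy class of 3-transpositions. -/
theorem result (m : ℕ) (hm : 2 ≤ m) : Cfsg.IsThreeTranspositionClass {g : ↥(Cfsg.isometryGroup (ZMod 2) (Cfsg.quadFormMinus m (ZMod 2) 1 1)) | (((g : GL ((Fin m ⊕ Fin m) ⊕ Fin 2) (ZMod 2)) : Matrix ((Fin m ⊕ Fin m) ⊕ Fin 2) ((Fin m ⊕ Fin m) ⊕ Fin 2) (ZMod 2)) - 1).rank = 1} := by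
  rw [← Cfsg.Agent.LieClassical.QuadForms.coe_minusForm]
  apply Cfsg.Agent.SporadicStructure.OrthTwo.isThreeTranspositionClass
  · intro u h
    have h1 : (fun i => u (.inl i)) = (0 : Fin m ⊕ Fin m → ZMod 2) := by
      refine Cfsg.Agent.LieClassical.QuadForms.polar_plusForm_nondeg m _ fun w => ?_
      have := h (Sum.elim w 0)
      rw [Cfsg.Agent.LieClassical.QuadForms.polar_minusForm] at this
      have h0 : (fun i : Fin 2 => (Sum.elim w 0 : (Fin m ⊕ Fin m) ⊕ Fin 2 → ZMod 2) (Sum.inr i)) = 0 := rfl
      rw [h0, QuadraticMap.polar_zero_right, add_zero] at this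
      exact this
    have h2 : ∀ w : Fin 2 → ZMod 2, u (.inr 0) * w 1 + u (.inr 1) * w 0 = 0 := by
      intro w
      have := h (Sum.elim 0 w)
      rw [Cfsg.Agent.LieClassical.QuadForms.polar_minusForm] at this
      have h0 : (fun i : Fin m ⊕ Fin m => (Sum.elim 0 w : (Fin m ⊕ Fin m) ⊕ Fin 2 → ZMod 2) (Sum.inl i)) = 0 := rfl
      rw [h0, QuadraticMap.polar_zero_right, zero_add,
        Cfsg.Agent.LieClassical.QuadForms.polar_binForm] at this
      have h2 : (2 : ZMod 2) = 0 := by decide
      simpa [h2] using this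
    have h3 : u (.inr 0) = 0 := by simpa using h2 (Pi.single 1 1)
    have h4 : u (.inr 1) = 0 := by simpa using h2 (Pi.single 0 1)
    funext i
    rcases i with i | i
    · exact congrFun h1 i
    · fin_cases i
      · exact h3
      · exact h4
  · simp only [Fintype.card_sum, Fintype.card_fin]
    omega

end Cfsg.Agent.S1630
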