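import Cfsg.Statements.S0020
import Mathlib
import Cfsg.Agent.S0003
set_option linter.all false

set_option autoImplicit false
open Pointwise
open Cfsg

namespace Cfsg.Agent.S0020

/-- Two subgroups of coprime orders inside `M` whose orders multiply to the order of `M`
have product (as sets) equal to `M`. -/
theorem mul_eq_of_coprime {G : Type*} [Group G] [Finite G] (H K M : Subgroup G)
    (hH : H ≤ M) (hK : K ≤ M) (hcard : Nat.card H * Nat.card K = Nat.card M)
    (hcop : (Nat.card H).Coprime (Nat.card K)) : (H : Set G) * (K : Set G) = (M : Set G) := by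
  have hH' : Nat.card (H.subgroupOf M) = Nat.card H :=
    Nat.card_congr (Subgroup.subgroupOfEquivOfLe hH).toEquiv
  have hK' : Nat.card (K.subgroupOf M) = Nat.card K :=
    Nat.card_congr (Subgroup.subgroupOfEquivOfLe hK).toEquiv
  have hc : Subgroup.IsComplement' (H.subgroupOf M) (K.subgroupOf M) :=
    Subgroup.isComplement'_of_coprime (by rw [hH', hK', hcard]) (by rw [hH', hK']; exact hcop)
  ext g
  constructor
  · rintro ⟨x, hx, y, hy, rfl⟩
    exact M.mul_mem (hH hx) (hK hy)
  · intro hg
    have h1 : (⟨g, hg⟩ : M) ∈ ((H.subgroupOf M : Set M) * (K.subgroupOf M : Set M)) := by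
      rw [hc.mul_eq]; trivial
    obtain ⟨x, hx, y, hy, hxy⟩ := h1
    exact ⟨x, hx, y, hy, congrArg Subtype.val hxy⟩

/-- Intersection of subgroups of pairwise coprime indices. -/
theorem index_iInf_finset {G : Type*} [Group G] [Finite G] {ι : Type*} [DecidableEq ι]
    (K : ι → Subgroup G) (s : Finset ι)
    (hcop : ∀ i j, i ≠ j → (K i).index.Coprime (K j).index) :
    (⨅ i ∈ s, K i).index = ∏ i ∈ s, (K i).index := by
  induction s using Finset.induction_on with
  | empty => simp
  | insert a s ha ih =>
    rw [Finset.iInf_insert, Finset.prod_insert ha, ← ih]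
    have hc : (K a).index.Coprime (⨅ i ∈ s, K i).index := by
      rw [ih]
      exact Nat.Coprime.prod_right fun i hi => hcop a i (fun h => ha (h ▸ hi))
    apply le_antisymm Subgroup.index_inf_le
    apply Nat.le_of_dvd (Nat.pos_of_ne_zero Subgroup.index_ne_zero_of_finite)
    exact hc.mul_dvd_of_dvd_of_dvd (Subgroup.index_dvd_of_le inf_le_left)
      (Subgroup.index_dvd_of_le inf_le_right)

theorem mul_prod_erase' {ι : Type*} [DecidableEq ι] (f : ι → ℕ) (A : Finset ι) (p : ι)
    (h : p ∉ A → f p = 1) : f p * ∏ i ∈ A.erase p, f i = ∏ i ∈ A, f i := by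
  by_cases hp : p ∈ A
  · exact Finset.mul_prod_erase A f hp
  · rw [h hp, one_mul, Finset.erase_eq_of_notMem hp]

/-- A finite solvable group admits a Sylow system: Sylow subgroups, one for each prime, that pairwise permute as sets. -/
theorem result {G : Type*} [Group G] [Finite G] [Group.IsSolvable G] :
    ∃ S : (p : Nat.Primes) → Sylow (p : ℕ) G,
      ∀ p q : Nat.Primes, (S p : Set G) * (S q : Set G) = (S q : Set G) * (S p : Set G) := by
  classical
  have hG0 : Nat.card G ≠ 0 := Nat.card_pos.ne'
  set f : ℕ → ℕ := fun p => p ^ (Nat.card G).factorization p with hf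
  have hfprod : ∏ p ∈ (Nat.card G).primeFactors, f p = Nat.card G := by
    have h1 := Nat.prod_factorization_pow_eq_self hG0
    rwa [Finsupp.prod, Nat.support_factorization] at h1
  -- Hall `p'`-subgroups
  have hHall : ∀ p : ℕ, ∃ K : Subgroup G, K.index = f p := by
    intro p
    by_cases hp : p.Prime
    · obtain ⟨K, hK⟩ := S0003.result (G := G)
        (Nat.card G / p ^ (Nat.card G).factorization p)
        (p ^ (Nat.card G).factorization p)
        (by rw [mul_comm]; exact (Nat.ordProj_mul_ordCompl_eq_self _ _).symm)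
        (Nat.Coprime.pow_right _ (Nat.coprime_ordCompl hp hG0).symm)
      refine ⟨K, ?_⟩
      have h1 := K.index_mul_card
      rw [hK] at h1
      have h2 := Nat.ordProj_mul_ordCompl_eq_self (Nat.card G) p
      have h3 : 0 < Nat.card G / p ^ (Nat.card G).factorization p := by
        rw [← hK]; exact Nat.card_pos
      exact Nat.eq_of_mul_eq_mul_right h3 (h1.trans h2.symm)
    · refine ⟨⊤, ?_⟩
      simp only [hf]
      rw [Subgroup.index_top, Nat.factorization_eq_zero_of_not_prime _ hp, pow_zero]
  choose K hK using hHall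
  have hf1 : ∀ p, p ∉ (Nat.card G).primeFactors → f p = 1 := by
    intro p hp
    simp only [hf]
    rw [← Nat.support_factorization, Finsupp.notMem_support_iff] at hp
    rw [hp, pow_zero]
  have hfcop : ∀ p q : ℕ, p ≠ q → (f p).Coprime (f q) := by
    intro p q hpq
    by_cases hp : p.Prime
    · by_cases hq : q.Prime
      · exact Nat.Coprime.pow _ _ ((Nat.coprime_primes hp hq).mpr hpq)
      · rw [hf1 q (fun h => hq (Nat.prime_of_mem_primeFactors h))]
        exact Nat.coprime_one_right _
    · rw [hf1 p (fun h => hp (Nat.prime_of_mem_primeFactors h))]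
      exact Nat.coprime_one_left _
  have hcopK : ∀ p q : ℕ, p ≠ q → (K p).index.Coprime (K q).index := by
    intro p q hpq
    rw [hK, hK]
    exact hfcop p q hpq
  -- card of the intersections
  have hcardI : ∀ (s : Finset ℕ) (m : ℕ), m * ∏ i ∈ s, f i = Nat.card G →
      Nat.card (⨅ i ∈ s, K i : Subgroup G) = m := by
    intro s m hm
    have h1 := (⨅ i ∈ s, K i : Subgroup G).card_mul_index
    rw [index_iInf_finset K s hcopK] at h1
    have h2 : ∏ i ∈ s, (K i).index = ∏ i ∈ s, f i := Finset.prod_congr rfl fun i _ => hK i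
    rw [h2] at h1
    have h3 : 0 < ∏ i ∈ s, f i := by
      apply Nat.pos_of_ne_zero
      intro h0
      rw [h0, mul_zero] at hm
      exact hG0 hm.symm
    exact Nat.eq_of_mul_eq_mul_right h3 (h1.trans hm.symm)
  set A := (Nat.card G).primeFactors with hA
  have hS : ∀ p : ℕ, Nat.card (⨅ i ∈ A.erase p, K i : Subgroup G) = f p := by
    intro p
    apply hcardI
    rw [mul_prod_erase' f A p (hf1 p), hfprod]
  have hSyl : ∀ p : Nat.Primes, ∃ S : Sylow (p : ℕ) G,
      (S : Subgroup G) = ⨅ i ∈ A.erase (p : ℕ), K i := by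
    intro p
    have : Fact (p : ℕ).Prime := ⟨p.2⟩
    exact ⟨Sylow.ofCard _ (hS p), rfl⟩
  choose S hSeq using hSyl
  refine ⟨S, ?_⟩
  intro p q
  by_cases hpq : p = q
  · rw [hpq]
  have hpq' : (p : ℕ) ≠ q := fun h => hpq (Subtype.ext h)
  set M : Subgroup G := ⨅ i ∈ (A.erase (p : ℕ)).erase (q : ℕ), K i with hM
  have hMcard : Nat.card M = f p * f q := by
    apply hcardI
    rw [mul_assoc, mul_prod_erase' f (A.erase (p : ℕ)) q, mul_prod_erase' f A p (hf1 p), hfprod]
    intro h
    apply hf1
    intro h2
    exact h (Finset.mem_erase.mpr ⟨Ne.symm hpq', h2⟩)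
  have hpM : (S p : Subgroup G) ≤ M := by
    rw [hSeq]
    exact biInf_mono fun i hi => (Finset.mem_erase.mp hi).2
  have hqM : (S q : Subgroup G) ≤ M := by
    rw [hSeq, hM, Finset.erase_right_comm]
    exact biInf_mono fun i hi => (Finset.mem_erase.mp hi).2
  have hcp : Nat.card (S p : Subgroup G) = f p := by rw [hSeq, hS]
  have hcq : Nat.card (S q : Subgroup G) = f q := by rw [hSeq, hS]
  have h1 := mul_eq_of_coprime (S p : Subgroup G) (S q : Subgroup G) M hpM hqM
    (by rw [hcp, hcq, hMcard]) (by rw [hcp, hcq]; exact hfcop p q hpq')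
  have h2 := mul_eq_of_coprime (S q : Subgroup G) (S p : Subgroup G) M hqM hpM
    (by rw [hcp, hcq, hMcard, mul_comm]) (by rw [hcp, hcq]; exact hfcop q p hpq'.symm)
  exact h1.trans h2.symm

end Cfsg.Agent.S0020
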