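import Mathlib.GroupTheory.Sylow
import Mathlib.GroupTheory.Complement
import Cfsg.Statements.S0021
import Cfsg.Agent.S0006
set_option linter.all false

-- part: Solvable/PermProd
section
/-!
Products of pairwise permuting subgroups (helper46).
-/

set_option autoImplicit false
open Pointwise

namespace Cfsg.Agent.Solvable.PermProd

variable {G : Type*} [Group G]

/-- Two permuting subgroups: their product is a subgroup. -/
theorem exists_subgroup_coe_eq_mul (H K : Subgroup G)
    (h : (H : Set G) * (K : Set G) = (K : Set G) * (H : Set G)) :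
    ∃ L : Subgroup G, (L : Set G) = (H : Set G) * (K : Set G) := by
  refine ⟨{ carrier := (H : Set G) * (K : Set G)
            mul_mem' := ?_
            one_mem' := ⟨1, H.one_mem, 1, K.one_mem, by simp⟩
            inv_mem' := ?_ }, rfl⟩
  · intro a b ha hb
    have : a * b ∈ ((H : Set G) * (K : Set G)) * ((H : Set G) * (K : Set G)) := Set.mul_mem_mul ha hb
    rw [mul_assoc, ← mul_assoc (K : Set G), ← h, mul_assoc, ← mul_assoc, coe_mul_coe, coe_mul_coe] at this
    exact this
  · intro a ha
    have : a⁻¹ ∈ ((H : Set G) * (K : Set G))⁻¹ := Set.inv_mem_inv.mpr ha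
    rw [mul_inv_rev, inv_coe_set, inv_coe_set, ← h] at this
    exact this

/-- Order of a product of two subgroups with trivial intersection. -/
theorem card_eq_mul_of_disjoint {H K L : Subgroup G} (hL : (L : Set G) = (H : Set G) * (K : Set G))
    (hd : Disjoint H K) : Nat.card L = Nat.card H * Nat.card K := by
  have hinj := Subgroup.mul_injective_of_disjoint hd
  rw [← Nat.card_prod]
  symm
  refine Nat.card_congr (Equiv.ofBijective
    (fun x : H × K => (⟨(x.1 : G) * (x.2 : G), ?_⟩ : L)) ⟨?_, ?_⟩)
  · have : (x.1 : G) * (x.2 : G) ∈ (L : Set G) := by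
      rw [hL]; exact Set.mul_mem_mul x.1.2 x.2.2
    exact this
  · intro x y hxy
    exact hinj (congrArg Subtype.val hxy)
  · rintro ⟨g, hg⟩
    have hg' : g ∈ (L : Set G) := hg
    rw [hL] at hg'
    obtain ⟨a, ha, b, hb, rfl⟩ := hg'
    exact ⟨(⟨a, ha⟩, ⟨b, hb⟩), rfl⟩

/-- The product over a finite set of indices of a family of pairwise permuting subgroups, with
pairwise coprime finite orders, is a subgroup whose order is the product of the orders; it permutes
with every member of the family. -/
theorem exists_subgroup_card_eq_prod {ι : Type*} (S : ι → Subgroup G)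
    (hS : ∀ i j, (S i : Set G) * (S j : Set G) = (S j : Set G) * (S i : Set G))
    (hc : ∀ i j, i ≠ j → (Nat.card (S i)).Coprime (Nat.card (S j))) (T : Finset ι) :
    ∃ L : Subgroup G, Nat.card L = ∏ i ∈ T, Nat.card (S i) ∧ (∀ i ∈ T, S i ≤ L) ∧
      ∀ j, (L : Set G) * (S j : Set G) = (S j : Set G) * (L : Set G) := by
  classical
  induction T using Finset.induction_on with
  | empty => exact ⟨⊥, by simp, by simp, by simp⟩
  | insert a T ha ih =>
    obtain ⟨L, hLc, hLS, hL⟩ := ih
    obtain ⟨M, hM⟩ := exists_subgroup_coe_eq_mul L (S a) (hL a)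
    have hcop : (Nat.card L).Coprime (Nat.card (S a)) := by
      rw [hLc]
      exact Nat.Coprime.prod_left fun i hi => hc i a (by rintro rfl; exact ha hi)
    refine ⟨M, ?_, ?_, ?_⟩
    · rw [card_eq_mul_of_disjoint hM (Subgroup.disjoint_of_coprime_natCard hcop), hLc,
        Finset.prod_insert ha, mul_comm]
    · intro i hi
      have h1 : (L : Set G) ⊆ M := by
        rw [hM]; intro x hx; exact ⟨x, hx, 1, (S a).one_mem, by simp⟩
      have h2 : (S a : Set G) ⊆ M := by
        rw [hM]; intro x hx; exact ⟨1, L.one_mem, x, hx, by simp⟩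
      rcases Finset.mem_insert.mp hi with rfl | hi
      · exact h2
      · exact (hLS i hi).trans h1
    · intro j
      rw [hM, mul_assoc, hS a j, ← mul_assoc, hL j, mul_assoc]

end Cfsg.Agent.Solvable.PermProd
end

-- part: S0021
section
set_option autoImplicit false
open Pointwise
open Cfsg

namespace Cfsg.Agent.S0021

/-- A finite group with a family of pairwise permuting Sylow subgroups, one for each prime, is solvable (this direction rests on Burnside's two-prime Theorem). -/
theorem result {G : Type*} [Group G] [Finite G]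
    (S : (p : Nat.Primes) → Sylow (p : ℕ) G)
    (hS : ∀ p q : Nat.Primes, (S p : Set G) * (S q : Set G) = (S q : Set G) * (S p : Set G)) :
    Group.IsSolvable G := by
  classical
  refine Cfsg.Agent.S0006.result fun p hp => ?_
  have hcard : ∀ q : Nat.Primes, Nat.card (S q : Subgroup G) = (q : ℕ) ^ (Nat.card G).factorization q := by
    intro q
    have : Fact (q : ℕ).Prime := ⟨q.2⟩
    exact (S q).card_eq_multiplicity
  have hcop : ∀ q r : Nat.Primes, q ≠ r →
      (Nat.card (S q : Subgroup G)).Coprime (Nat.card (S r : Subgroup G)) := by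
    intro q r hqr
    rw [hcard, hcard]
    exact Nat.coprime_pow_primes _ _ q.2 r.2 fun h => hqr (Subtype.ext h)
  let T : Finset Nat.Primes := ((Nat.card G).primeFactors.erase p).subtype Nat.Prime
  obtain ⟨L, hL, -, -⟩ := Cfsg.Agent.Solvable.PermProd.exists_subgroup_card_eq_prod
    (fun q => (S q : Subgroup G)) hS hcop T
  refine ⟨L, ?_⟩
  have hG : Nat.card G ≠ 0 := Nat.card_pos.ne'
  have h1 : Nat.card L * p ^ (Nat.card G).factorization p = Nat.card G := by
    rw [hL]
    have h2 : ∏ q ∈ T, Nat.card (S q : Subgroup G) =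
        ∏ q ∈ (Nat.card G).primeFactors.erase p, q ^ (Nat.card G).factorization q := by
      rw [← Finset.prod_subtype_of_mem (p := Nat.Prime)
        (fun q : ℕ => q ^ (Nat.card G).factorization q)
        (fun x hx => Nat.prime_of_mem_primeFactors (Finset.mem_of_mem_erase hx))]
      exact Finset.prod_congr rfl fun q _ => hcard q
    rw [h2]
    conv_rhs => rw [← Nat.prod_factorization_pow_eq_self hG]
    rw [Finsupp.prod, Nat.support_factorization]
    by_cases hpG : p ∈ (Nat.card G).primeFactors
    · exact Finset.prod_erase_mul _ _ hpG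
    · rw [Finset.erase_eq_of_notMem hpG, Finsupp.notMem_support_iff.mp
        (by rwa [Nat.support_factorization]), pow_zero, mul_one]
  have h3 : Nat.card L * L.index = Nat.card G := L.card_mul_index
  exact Nat.eq_of_mul_eq_mul_left (Nat.card_pos (α := L)) (h3.trans h1.symm)

end Cfsg.Agent.S0021
end
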