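import Cfsg.Statements.S0036
import Mathlib
import Cfsg.Agent.Solvable.Malnormal
set_option linter.all false

set_option autoImplicit false
open Cfsg

namespace Cfsg.Agent.S0036

open Cfsg.Agent.Solvable.Malnormal

/-- When a Frobenius complement contains an involution, an elementary argument shows the Frobenius kernel is closed under multiplication (hence a subgroup). -/
theorem result {G : Type*} [Group G] [Finite G] (H : Subgroup G) (hH : Cfsg.IsFrobeniusComplement H)
    (t : G) (ht : t ∈ H) (ht1 : t ≠ 1) (ht2 : t * t = 1) :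
    ∀ x ∈ Cfsg.frobeniusKernel H, ∀ y ∈ Cfsg.frobeniusKernel H, x * y ∈ Cfsg.frobeniusKernel H := by
  classical
  have := Fintype.ofFinite G
  have := Fintype.ofFinite (G ⧸ H)
  have hmal : IsMalnormal H := isMalnormal_of_isFrobeniusComplement hH
  set n : ℕ := Fintype.card (G ⧸ H) with hn
  have hn1 : 1 < n := by
    have h1 : H.index ≠ 1 := fun h => hH.2.1 (Subgroup.index_eq_one.1 h)
    have h0 : H.index ≠ 0 := Subgroup.index_ne_zero_of_finite
    rw [Subgroup.index_eq_card, Nat.card_eq_fintype_card] at h0 h1
    omega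
  -- the conjugates of `t`
  set T : Finset G := Finset.univ.filter (fun s => ∃ g : G, g * t * g⁻¹ = s) with hT
  have hTmem : ∀ s, s ∈ T ↔ ∃ g : G, g * t * g⁻¹ = s := by intro s; simp [hT]
  have hTsq : ∀ s ∈ T, s * s = 1 := by
    intro s hs
    obtain ⟨g, rfl⟩ := (hTmem s).1 hs
    have : g * t * g⁻¹ * (g * t * g⁻¹) = g * (t * t) * g⁻¹ := by group
    rw [this, ht2]; simp
  have hTne : ∀ s ∈ T, s ≠ 1 := by
    intro s hs h1
    obtain ⟨g, rfl⟩ := (hTmem s).1 hs
    apply ht1
    have : t = g⁻¹ * (g * t * g⁻¹) * g := by group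
    rw [this, h1]; simp
  have hfix : ∀ s ∈ T, ∃ a : G ⧸ H, s • a = a := by
    intro s hs
    obtain ⟨g, rfl⟩ := (hTmem s).1 hs
    refine ⟨QuotientGroup.mk g, smul_mk_eq_iff.2 ?_⟩
    have : g⁻¹ * (g * t * g⁻¹) * g = t := by group
    rwa [this]
  choose! f hf using hfix
  have hfuniq : ∀ s ∈ T, ∀ a : G ⧸ H, s • a = a → f s = a := fun s hs a ha =>
    eq_of_smul_eq hmal (hTne s hs) (hf s hs) ha
  have hfsurj : ∀ a : G ⧸ H, ∃ s ∈ T, f s = a := by
    intro a
    obtain ⟨g, rfl⟩ := QuotientGroup.mk_surjective a
    have hs : g * t * g⁻¹ ∈ T := (hTmem _).2 ⟨g, rfl⟩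
    refine ⟨g * t * g⁻¹, hs, hfuniq _ hs _ (smul_mk_eq_iff.2 ?_)⟩
    have : g⁻¹ * (g * t * g⁻¹) * g = t := by group
    rwa [this]
  -- two members of `T` moving a point to the same other point are equal
  have hswap : ∀ s ∈ T, ∀ s' ∈ T, ∀ a : G ⧸ H, s • a = s' • a → s • a ≠ a → s = s' := by
    intro s hs s' hs' a h1 h2
    by_contra hne
    have hss : s * s' ≠ 1 := by
      intro h
      apply hne
      have : s = s * (s' * s') := by rw [hTsq s' hs', mul_one]
      rw [this, ← mul_assoc, h, one_mul]
    apply h2
    refine eq_of_smul_eq hmal hss (a := s • a) (b := a) ?_ ?_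
    · calc (s * s') • (s • a) = s • (s' • (s' • a)) := by rw [h1, mul_smul]
        _ = s • a := by rw [← mul_smul s' s', hTsq s' hs', one_smul]
    · calc (s * s') • a = s • (s • a) := by rw [mul_smul, h1]
        _ = a := by rw [← mul_smul s s, hTsq s hs, one_smul]
  -- counting
  have hcardle : T.card ≤ n := by
    have hinj : ((T ×ˢ (Finset.univ : Finset (G ⧸ H))).filter (fun p => f p.1 ≠ p.2)).card ≤
        (Finset.univ : Finset (G ⧸ H)).offDiag.card := by
      refine Finset.card_le_card_of_injOn (fun p => (p.2, p.1 • p.2)) ?_ ?_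
      · intro p hp
        simp only [Finset.coe_filter, Finset.mem_product, Finset.mem_univ, and_true,
          Set.mem_ofPred_eq] at hp
        simp only [Finset.mem_coe, Finset.mem_offDiag, Finset.mem_univ, true_and]
        intro h
        exact hp.2 (hfuniq _ hp.1 _ h.symm)
      · intro p hp q hq hpq
        simp only [Finset.coe_filter, Finset.mem_product, Finset.mem_univ, and_true,
          Set.mem_ofPred_eq] at hp hq
        simp only [Prod.mk.injEq] at hpq
        obtain ⟨h1, h2⟩ := hpq
        refine Prod.ext ?_ h1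
        refine hswap _ hp.1 _ hq.1 p.2 ?_ ?_
        · rw [h2, h1]
        · intro h; exact hp.2 (hfuniq _ hp.1 _ h)
    have hcardP : ((T ×ˢ (Finset.univ : Finset (G ⧸ H))).filter (fun p => f p.1 ≠ p.2)).card =
        T.card * (n - 1) := by
      rw [Finset.card_filter, Finset.sum_product]
      have : ∀ s ∈ T, (∑ y : G ⧸ H, if f (s, y).1 ≠ (s, y).2 then 1 else 0) = n - 1 := by
        intro s _
        rw [← Finset.card_filter]
        have : (Finset.univ.filter (fun y : G ⧸ H => f s ≠ y)) = Finset.univ.erase (f s) := by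
          ext y; simp [eq_comm]
        rw [show (Finset.univ.filter (fun y : G ⧸ H => f (s, y).1 ≠ (s, y).2)) =
          Finset.univ.erase (f s) from this, Finset.card_erase_of_mem (Finset.mem_univ _),
          Finset.card_univ]
      rw [Finset.sum_congr rfl this, Finset.sum_const, smul_eq_mul]
    rw [hcardP, Finset.offDiag_card, Finset.card_univ, ← hn] at hinj
    have : n * n - n = n * (n - 1) := by rw [Nat.mul_sub, mul_one]
    rw [this] at hinj
    exact Nat.le_of_mul_le_mul_right hinj (by omega)
  have hfinj : ∀ s ∈ T, ∀ s' ∈ T, f s = f s' → s = s' := by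
    have := Finset.card_image_iff (s := T) (f := f)
    have himg : T.image f = Finset.univ := by
      ext a; simp only [Finset.mem_image, Finset.mem_univ, iff_true]; exact hfsurj a
    have hc : (T.image f).card = T.card := by
      refine le_antisymm Finset.card_image_le ?_
      rw [himg, Finset.card_univ]; exact hcardle
    have hio := this.1 hc
    intro s hs s' hs' h
    exact hio hs hs' h
  have hcardge : n ≤ T.card := by
    have himg : T.image f = Finset.univ := by
      ext a; simp only [Finset.mem_image, Finset.mem_univ, iff_true]; exact hfsurj a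
    rw [hn, ← Finset.card_univ, ← himg]
    exact Finset.card_image_le
  -- products of two members of `T` lie in the kernel
  have hprod : ∀ s ∈ T, ∀ s' ∈ T, s * s' ∈ Cfsg.frobeniusKernel H := by
    intro s hs s' hs'
    rw [mem_frobeniusKernel_iff_smul]
    by_cases hne : s = s'
    · left; rw [← hne]; exact hTsq s hs
    · right
      intro a ha
      have h1 : s' • a = s • a := by
        have : s • (s • (s' • a)) = s • a := by rw [← mul_smul s s', ha]
        rwa [← mul_smul, hTsq s hs, one_smul] at this
      by_cases h2 : s • a = a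
      · apply hne
        refine hfinj s hs s' hs' ?_
        rw [hfuniq s hs a h2, hfuniq s' hs' a (h1.trans h2)]
      · exact hne (hswap s hs s' hs' a h1.symm h2)
  have hKeq : ∀ s ∈ T, ∀ x ∈ Cfsg.frobeniusKernel H, ∃ s' ∈ T, s * s' = x := by
    intro s hs x hx
    have himg : (fun s' => s * s') '' (T : Set G) = Cfsg.frobeniusKernel H := by
      refine Set.eq_of_subset_of_ncard_le ?_ ?_ (Set.toFinite _)
      · rintro _ ⟨s', hs', rfl⟩
        exact hprod s hs s' hs'
      · rw [Set.ncard_image_of_injective _ (mul_right_injective s), Set.ncard_coe_finset]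
        have h1 : (Cfsg.frobeniusKernel H).ncard = H.index := card_frobeniusKernel hmal
        rw [h1, Subgroup.index_eq_card, Nat.card_eq_fintype_card]
        exact hcardge
    rw [← himg] at hx
    obtain ⟨s', hs', h⟩ := hx
    exact ⟨s', hs', h⟩
  intro x hx y hy
  have htT : t ∈ T := (hTmem t).2 ⟨1, by simp⟩
  obtain ⟨s, hs, rfl⟩ := hKeq t htT x hx
  obtain ⟨s', hs', rfl⟩ := hKeq s hs y hy
  have : t * s * (s * s') = t * (s * s) * s' := by group
  rw [this, hTsq s hs, mul_one]
  exact hprod t htT s' hs'

end Cfsg.Agent.S0036
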