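import Cfsg.Statements.S0049
import Mathlib
set_option linter.all false

set_option autoImplicit false
open Cfsg

namespace Cfsg.Agent.S0049

/-- A prime divisor of the order of a finite group also divides the index of the Frattini subgroup. -/
theorem result {G : Type*} [Group G] [Finite G] (p : ℕ) (hp : p.Prime) (hdvd : p ∣ Nat.card G) :
    p ∣ (frattini G).index := by
  by_contra hnd
  have : Fact p.Prime := ⟨hp⟩
  obtain ⟨P⟩ : Nonempty (Sylow p (frattini G)) := inferInstance
  have hnil : Group.IsNilpotent (frattini G) := frattini_nilpotent
  have q := (Group.isNilpotent_of_finite_tfae (G := frattini G)).out 0 3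
  have hPn : (P : Subgroup (frattini G)).Normal := (q.mp hnil) p ⟨hp⟩ P
  have hPchar : (P : Subgroup (frattini G)).Characteristic := Sylow.characteristic_of_normal P hPn
  have hP'n : ((P : Subgroup (frattini G)).map (frattini G).subtype).Normal := inferInstance
  have hidx : ((P : Subgroup (frattini G)).map (frattini G).subtype).index
      = (P : Subgroup (frattini G)).index * (frattini G).index := by
    rw [Subgroup.index_map_subtype]
  have hcard : Nat.card ((P : Subgroup (frattini G)).map (frattini G).subtype) = Nat.card P :=
    Nat.card_congr ((P : Subgroup (frattini G)).equivMapOfInjective _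
      (frattini G).subtype_injective).toEquiv.symm
  have hPidx : ¬ p ∣ (P : Subgroup (frattini G)).index := P.not_dvd_index'
    (by exact Subgroup.index_ne_zero_of_finite)
  have hcop : (Nat.card ((P : Subgroup (frattini G)).map (frattini G).subtype)).Coprime
      ((P : Subgroup (frattini G)).map (frattini G).subtype).index := by
    rw [hcard, hidx]
    obtain ⟨k, hk⟩ := IsPGroup.iff_card.mp P.2
    rw [show Nat.card P = p ^ k from hk]
    apply Nat.Coprime.pow_left
    rw [hp.coprime_iff_not_dvd, hp.dvd_mul]
    tauto
  obtain ⟨H, hH⟩ := Subgroup.exists_right_complement'_of_coprime hcop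
  have h1 : H ⊔ frattini G = ⊤ := by
    rw [eq_top_iff, ← hH.sup_eq_top]
    exact sup_le ((Subgroup.map_subtype_le _).trans le_sup_right) le_sup_left
  have h2 : H = ⊤ := frattini_nongenerating h1
  rw [h2, Subgroup.isComplement'_top_right, Subgroup.map_eq_bot_iff_of_injective _
    (frattini G).subtype_injective] at hH
  have h3 : ¬ p ∣ Nat.card (frattini G) := by
    intro h
    exact P.ne_bot_of_dvd_card h hH
  rw [← (frattini G).card_mul_index, hp.dvd_mul] at hdvd
  tauto

end Cfsg.Agent.S0049
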