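import Mathlib
import Cfsg.Agent.Solvable.Gaschutz
import Cfsg.Statements.S0052
set_option linter.all false

-- part: Solvable/GaschutzConj
section
/-!
Gaschütz's theorem, conjugacy part: two complements of an abelian normal subgroup `K` that have the same
intersection with a subgroup `U ≥ K` are conjugate by an element of `K` when the power map
`k ↦ k ^ [G : U]` is bijective on `K`.
-/

set_option autoImplicit false

namespace Cfsg.Agent.Solvable.GaschutzConj

open scoped IsMulCommutative Pointwise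

variable {G : Type*} [Group G]

/-- A crossed homomorphism `δ : G → K` trivial on `U` is principal when the power map by the index of
`U` is bijective on `K`. -/
theorem exists_principal (K U : Subgroup G) [K.Normal] [IsMulCommutative K] [Finite (G ⧸ U)]
    (hb : Function.Bijective fun k : K => k ^ U.index)
    (δ : G → K) (hδ : ∀ g h, δ (g * h) = δ g * MulAut.conjNormal g (δ h))
    (hU : ∀ u ∈ U, δ u = 1) :
    ∃ l : K, ∀ g, δ g = l * (MulAut.conjNormal g l)⁻¹ := by
  classical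
  have := Fintype.ofFinite (G ⧸ U)
  have hconst : ∀ g h : G, g⁻¹ * h ∈ U → δ g = δ h := by
    intro g h hgh
    have := hδ g (g⁻¹ * h)
    rw [mul_inv_cancel_left, hU _ hgh, map_one, mul_one] at this
    exact this.symm
  obtain ⟨l, hl⟩ := hb.2 (∏ q : G ⧸ U, δ q.out)
  simp only at hl
  refine ⟨l, fun g => ?_⟩
  have h1 : (∏ q : G ⧸ U, δ q.out) = ∏ q : G ⧸ U, δ (g • q).out := by
    rw [← Equiv.prod_comp (MulAction.toPerm g)]
    rfl
  have h2 : ∀ q : G ⧸ U, δ (g • q).out = δ g * MulAut.conjNormal g (δ q.out) := by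
    intro q
    rw [← hδ, hconst]
    rw [← mul_assoc]
    exact Cfsg.Agent.Solvable.Gaschutz.out_inv_mul_mem U g q
  have h3 : l ^ U.index = δ g ^ U.index * MulAut.conjNormal g (l ^ U.index) := by
    rw [hl]
    conv_lhs => rw [h1, Finset.prod_congr rfl fun q _ => h2 q, Finset.prod_mul_distrib,
      Finset.prod_const, Finset.card_univ, ← map_prod]
    rw [Subgroup.index, Nat.card_eq_fintype_card]
  apply hb.1
  show δ g ^ U.index = (l * (MulAut.conjNormal g l)⁻¹) ^ U.index
  rw [mul_pow, inv_pow, ← map_pow, eq_mul_inv_iff_mul_eq]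
  exact h3.symm

/-- **Gaschütz's theorem** (conjugacy). -/
theorem exists_conj (K U : Subgroup G) [K.Normal] [IsMulCommutative K] [Finite (G ⧸ U)]
    (hKU : K ≤ U) (hb : Function.Bijective fun k : K => k ^ U.index)
    (H₀ H₁ : Subgroup G) (h₀ : Subgroup.IsComplement' K H₀) (h₁ : Subgroup.IsComplement' K H₁)
    (hU : H₀ ⊓ U = H₁ ⊓ U) :
    ∃ g ∈ K, MulAut.conj g • H₀ = H₁ := by
  obtain ⟨φ₀, hφ₀, hid₀, hker₀, hmem₀⟩ :=
    Cfsg.Agent.Solvable.Gaschutz.exists_crossed_of_complement K ⊤ H₀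
      (by rw [inf_comm]; exact h₀.disjoint.eq_bot) h₀.sup_eq_top
  obtain ⟨φ₁, hφ₁, hid₁, hker₁, hmem₁⟩ :=
    Cfsg.Agent.Solvable.Gaschutz.exists_crossed_of_complement K ⊤ H₁
      (by rw [inf_comm]; exact h₁.disjoint.eq_bot) h₁.sup_eq_top
  replace hφ₀ : ∀ u v, φ₀ (u * v) = φ₀ u * MulAut.conjNormal u (φ₀ v) :=
    fun u v => hφ₀ u trivial v trivial
  replace hφ₁ : ∀ u v, φ₁ (u * v) = φ₁ u * MulAut.conjNormal u (φ₁ v) :=
    fun u v => hφ₁ u trivial v trivial
  have hK : ∀ k : K, MulAut.conjNormal (k : G) = (1 : MulAut K) := by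
    intro k
    ext x
    rw [MulAut.conjNormal_apply, MulAut.one_apply]
    have := congrArg Subtype.val (mul_comm k x)
    simp only [Subgroup.coe_mul] at this
    rw [this, mul_inv_cancel_right]
  have hagree : ∀ u ∈ U, φ₁ u = φ₀ u := by
    intro u hu
    have h2 : ((φ₀ u : K) : G)⁻¹ * u ∈ H₁ := by
      have : ((φ₀ u : K) : G)⁻¹ * u ∈ H₀ ⊓ U :=
        ⟨hmem₀ u trivial, U.mul_mem (U.inv_mem (hKU (φ₀ u).2)) hu⟩
      rw [hU] at this
      exact this.1
    have h3 := hφ₁ ((φ₀ u : K) : G) (((φ₀ u : K) : G)⁻¹ * u)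
    rw [mul_inv_cancel_left, hid₁, (hker₁ _ trivial).2 h2, map_one, mul_one] at h3
    exact h3
  obtain ⟨l, hl⟩ := exists_principal K U hb (fun g => φ₀ g * (φ₁ g)⁻¹)
    (fun g h => by
      simp only [hφ₀ g h, hφ₁ g h, map_mul, map_inv, mul_inv]
      exact mul_mul_mul_comm _ _ _ _)
    (fun u hu => by
      show φ₀ u * (φ₁ u)⁻¹ = 1
      rw [hagree u hu, mul_inv_cancel])
  have hl' : ∀ g, φ₀ g * MulAut.conjNormal g l = l * φ₁ g := by
    intro g
    have h4 : φ₀ g * (φ₁ g)⁻¹ = l * (MulAut.conjNormal g l)⁻¹ := hl g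
    rw [mul_inv_eq_iff_eq_mul] at h4
    rw [h4, mul_assoc, mul_assoc, mul_comm (φ₁ g), inv_mul_cancel_left]
  have key : ∀ g, φ₁ ((l : G) * g * (l : G)⁻¹) = φ₀ g := by
    intro g
    rw [mul_assoc, hφ₁, hK, MulAut.one_apply, hφ₁, hid₁, ← Subgroup.coe_inv, hid₁, map_inv,
      ← mul_assoc, ← hl' g, mul_inv_cancel_right]
  refine ⟨l, l.2, ?_⟩
  ext x
  rw [Subgroup.mem_pointwise_smul_iff_inv_smul_mem]
  have h5 : (MulAut.conj (l : G))⁻¹ • x = (l : G)⁻¹ * x * l := by
    rw [← map_inv, MulAut.smul_def, MulAut.conj_apply, inv_inv]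
  rw [h5, ← hker₀ _ trivial, ← hker₁ _ trivial, ← key]
  have h6 : (l : G) * ((l : G)⁻¹ * x * l) * (l : G)⁻¹ = x := by group
  rw [h6]

end Cfsg.Agent.Solvable.GaschutzConj
end

-- part: S0052
section
-- import your own Cfsg.Agent.* helpers here

set_option autoImplicit false
open Pointwise
open Cfsg

namespace Cfsg.Agent.S0052

/-- Gaschütz's Theorem, conjugacy: for an abelian normal subgroup K ≤ U with the order of K coprime to the index of U, two complements of K in G having the same intersection with U are conjugate. -/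
theorem result {G : Type*} [Group G] [Finite G] (K U : Subgroup G) [K.Normal] [IsMulCommutative K]
    (hKU : K ≤ U) (hcop : (Nat.card K).Coprime U.index)
    (H₀ H₁ : Subgroup G) (h₀ : Subgroup.IsComplement' K H₀) (h₁ : Subgroup.IsComplement' K H₁) (hU : H₀ ⊓ U = H₁ ⊓ U) :
    ∃ g : G, MulAut.conj g • H₀ = H₁ := by
  obtain ⟨k, -, hk⟩ := Cfsg.Agent.Solvable.GaschutzConj.exists_conj K U hKU
    hcop.pow_left_bijective H₀ H₁ h₀ h₁ hU
  exact ⟨k, hk⟩

end Cfsg.Agent.S0052
end
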