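import Cfsg.Statements.S0053
import Mathlib
set_option linter.all false
-- import your own Cfsg.Agent.* helpers here

set_option autoImplicit false
open Cfsg

namespace Cfsg.Agent.S0053

/-- An abelian minimal normal subgroup N of a finite group is complemented exactly when N is not inside the Frattini subgroup. -/
theorem result {G : Type*} [Group G] [Finite G]
    (N : Subgroup G) [N.Normal] [IsMulCommutative N] (hN : N ≠ ⊥)
    (hmin : ∀ M : Subgroup G, M.Normal → M ≤ N → M = ⊥ ∨ M = N) :
    (∃ H : Subgroup G, Subgroup.IsComplement' N H) ↔ ¬ N ≤ frattini G := by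
  constructor
  · rintro ⟨H, hH⟩ hle
    have h1 : H = ⊤ := frattini_nongenerating (by
      rw [eq_top_iff, ← hH.sup_eq_top, sup_comm]
      exact sup_le_sup_left hle H)
    apply hN
    have := hH.disjoint.eq_bot
    rwa [h1, inf_top_eq] at this
  · intro hnot
    have h1 : ∃ M : Subgroup G, IsCoatom M ∧ ¬ N ≤ M := by
      by_contra hcon
      push Not at hcon
      apply hnot
      rw [frattini, Order.radical]
      exact le_iInf₂ fun M hM => hcon M hM
    obtain ⟨M, hM, hNM⟩ := h1
    have htop : N ⊔ M = ⊤ := by
      rw [sup_comm]
      exact hM.2 _ (lt_of_le_of_ne le_sup_left fun h => hNM (h ▸ le_sup_right))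
    have hnorm : (N ⊓ M).Normal := by
      rw [← Subgroup.normalizer_eq_top_iff, eq_top_iff, ← htop]
      refine sup_le ?_ ?_
      · intro n hn
        rw [Subgroup.mem_normalizer_iff]
        intro x
        have comm : ∀ y ∈ N, n * y * n⁻¹ = y := by
          intro y hy
          have := setLike_mul_comm hn hy
          rw [this, mul_inv_cancel_right]
        constructor
        · intro hx
          rw [comm x hx.1]
          exact hx
        · intro hx
          have hxN : x ∈ N := by
            have := (inferInstance : N.Normal).conj_mem _ hx.1 n⁻¹
            simpa [mul_assoc] using this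
          rwa [comm x hxN] at hx
      · intro m hm
        rw [Subgroup.mem_normalizer_iff]
        intro x
        constructor
        · intro hx
          exact ⟨(inferInstance : N.Normal).conj_mem _ hx.1 m,
            M.mul_mem (M.mul_mem hm hx.2) (M.inv_mem hm)⟩
        · intro hx
          refine ⟨?_, ?_⟩
          · have := (inferInstance : N.Normal).conj_mem _ hx.1 m⁻¹
            simpa [mul_assoc] using this
          · have := M.mul_mem (M.mul_mem (M.inv_mem hm) hx.2) hm
            simpa [mul_assoc] using this
    refine ⟨M, Subgroup.isComplement'_of_disjoint_and_mul_eq_univ ?_ ?_⟩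
    · rcases hmin _ hnorm inf_le_left with h | h
      · exact disjoint_iff.2 h
      · exact absurd (inf_eq_left.1 h) hNM
    · rw [← Subgroup.normal_mul, htop]
      rfl

end Cfsg.Agent.S0053
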