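import Cfsg.Statements.S0057
import Mathlib
import Cfsg.Agent.S0007
import Cfsg.Agent.S0023
import Cfsg.Agent.S0027
import Cfsg.Agent.Lib.CoprimeAbelian
set_option linter.all false

set_option autoImplicit false
set_option linter.style.haveILetI false
open Cfsg

namespace Cfsg.Agent.S0057

open scoped commutatorElement

/-- The case of a `p`-group. -/
theorem card_of_isPGroup {G : Type*} [Group G] [Finite G] (A Q : Subgroup G)
    (hAQ : A ≤ Subgroup.normalizer (Q : Set G))
    (hcop : (Nat.card A).Coprime (Nat.card Q))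
    (p : ℕ) [hp : Fact p.Prime] (hQ : IsPGroup p Q)
    (hidx : (Q ⊓ Subgroup.centralizer (A : Set G)).relIndex Q = p) :
    Nat.card (⁅Q, A⁆ : Subgroup G) = p := by
  classical
  set D : Subgroup G := Q ⊓ Subgroup.centralizer (A : Set G) with hD
  let D' : Subgroup Q := D.subgroupOf Q
  have hD'idx : D'.index = p := hidx
  haveI hnilp : Group.IsNilpotent Q := hQ.isNilpotent
  haveI hD'n : D'.Normal := by
    apply Subgroup.normal_of_index_eq_minFac_card
    rw [hD'idx]
    obtain ⟨n, hn⟩ := hQ.exists_card_eq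
    have hdvd : p ∣ Nat.card Q := by
      rw [← hD'idx]
      exact D'.index_dvd_card
    have hn0 : n ≠ 0 := by
      rintro rfl
      rw [hn, pow_zero, Nat.dvd_one] at hdvd
      exact hp.out.one_lt.ne' hdvd
    rw [hn, hp.out.pow_minFac hn0]
  -- `[D, A] = 1`
  have hDA : ⁅D, A⁆ = ⊥ := by
    rw [Subgroup.commutator_eq_bot_iff_le_centralizer]
    exact inf_le_right
  have hDQ : ⁅D, Q⁆ ≤ D := by
    rw [Subgroup.commutator_le]
    intro d hd x hx
    have hd' : (⟨d, hd.1⟩ : Q) ∈ D' := Subgroup.mem_subgroupOf.mpr hd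
    have h1 := hD'n.conj_mem _ (inv_mem hd') ⟨x, hx⟩
    have h2 : x * d⁻¹ * x⁻¹ ∈ D := Subgroup.mem_subgroupOf.mp h1
    have h3 : ⁅d, x⁆ = d * (x * d⁻¹ * x⁻¹) := by
      rw [commutatorElement_def]; group
    rw [h3]
    exact mul_mem hd h2
  have hthree : ⁅⁅Q, A⁆, D⁆ = ⊥ := by
    apply Subgroup.commutator_commutator_eq_bot_of_rotate
    · rw [Subgroup.commutator_comm A D, hDA, Subgroup.commutator_bot_left]
    · rw [eq_bot_iff, ← hDA]
      exact Subgroup.commutator_mono hDQ le_rfl
  have hVQ : ⁅Q, A⁆ ≤ Q := by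
    rw [Subgroup.commutator_le]
    intro v hv a ha
    rw [commutatorElement_def, mul_assoc, mul_assoc]
    apply Q.mul_mem hv
    have := (hAQ ha v⁻¹).mp (Q.inv_mem hv)
    rwa [SetLike.mem_coe, mul_assoc] at this
  set V : Subgroup G := ⁅Q, A⁆ with hV
  have hVD : ∀ v ∈ V, ∀ d ∈ D, v * d = d * v := by
    intro v hv d hd
    have h1 : V ≤ Subgroup.centralizer (D : Set G) :=
      Subgroup.commutator_eq_bot_iff_le_centralizer.mp hthree
    exact ((Subgroup.mem_centralizer_iff.mp (h1 hv)) d hd).symm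
  -- the quotient map
  let f : V →* Q ⧸ D' := (QuotientGroup.mk' D').comp (Subgroup.inclusion hVQ)
  have hcardq : Nat.card (Q ⧸ D') = p := hD'idx
  haveI hcyc : IsCyclic (Q ⧸ D') := isCyclic_of_prime_card hcardq
  have hker : ∀ v : V, v ∈ f.ker → (v : G) ∈ D := by
    intro v hv
    have h1 : ((Subgroup.inclusion hVQ v : Q) : Q ⧸ D') = 1 := hv
    rw [QuotientGroup.eq_one_iff] at h1
    exact Subgroup.mem_subgroupOf.mp h1
  haveI hVc : IsMulCommutative V := by
    apply MonoidHom.isMulCommutative_of_isCyclic_of_ker_le_center f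
    intro v hv
    rw [Subgroup.mem_center_iff]
    intro w
    exact Subtype.ext (hVD w w.2 v (hker v hv))
  have hVcomm : ∀ x ∈ V, ∀ y ∈ V, x * y = y * x := fun x hx y hy =>
    congrArg Subtype.val (mul_comm' (⟨x, hx⟩ : V) ⟨y, hy⟩)
  have hAV : A ≤ Subgroup.normalizer (V : Set G) := by
    have hconj : ∀ a ∈ A, ∀ x ∈ V, a * x * a⁻¹ ∈ V := by
      intro a ha
      have h1 : V ≤ V.comap (MulAut.conj a).toMonoidHom := by
        conv_lhs => rw [hV]
        rw [Subgroup.commutator_le]
        intro x hx b hb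
        rw [Subgroup.mem_comap]
        have h2 : (MulAut.conj a).toMonoidHom ⁅x, b⁆ = ⁅a * x * a⁻¹, a * b * a⁻¹⁆ := by
          change a * ⁅x, b⁆ * a⁻¹ = _
          rw [commutatorElement_def, commutatorElement_def]
          group
        rw [h2]
        exact Subgroup.commutator_mem_commutator (((hAQ ha) x).mp hx)
          (mul_mem (mul_mem ha hb) (inv_mem ha))
      exact fun x hx => h1 hx
    intro a ha x
    refine ⟨hconj a ha x, fun hx => ?_⟩
    have h1 := hconj a⁻¹ (A.inv_mem ha) _ hx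
    have h2 : a⁻¹ * (a * x * a⁻¹) * a⁻¹⁻¹ = x := by group
    rw [h2] at h1
    exact h1
  have hcopV : (Nat.card A).Coprime (Nat.card V) :=
    Nat.Coprime.coprime_dvd_right (Subgroup.card_dvd_of_le hVQ) hcop
  have hstab : ⁅V, A⁆ = V := by
    haveI : Group.IsSolvable Q := inferInstance
    exact Cfsg.Agent.S0027.result A Q hAQ hcop (Or.inr this)
  have hfix : V ⊓ Subgroup.centralizer (A : Set G) = ⊥ := by
    have h1 := Cfsg.Agent.Lib.CoprimeAbelian.inf_commutator_eq_bot A V hVcomm hAV hcopV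
    rw [hstab] at h1
    rw [← h1]
    exact (inf_eq_left.mpr inf_le_left).symm
  have hinj : Function.Injective f := by
    rw [injective_iff_map_eq_one]
    intro v hv
    have h1 : (v : G) ∈ D := hker v hv
    have h2 : (v : G) ∈ V ⊓ Subgroup.centralizer (A : Set G) := ⟨v.2, h1.2⟩
    rw [hfix, Subgroup.mem_bot] at h2
    exact Subtype.ext h2
  have hdvd : Nat.card V ∣ p := by
    rw [← hcardq]
    exact Subgroup.card_dvd_of_injective f hinj
  rcases (Nat.dvd_prime hp.out).mp hdvd with h1 | h1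
  · exfalso
    have hVbot : V = ⊥ := Subgroup.card_eq_one.mp h1
    have hQC : Q ≤ Subgroup.centralizer (A : Set G) :=
      Subgroup.commutator_eq_bot_iff_le_centralizer.mp hVbot
    have hDeq : D = Q := inf_eq_left.mpr hQC
    rw [hDeq, Subgroup.relIndex_self] at hidx
    exact hp.out.one_lt.ne hidx
  · exact h1

/-- Under coprime action, if the centraliser of A in K has prime index p in K then the commutator subgroup [K, A] has order exactly p. -/
theorem result {G : Type*} [Group G] [Finite G] (A K : Subgroup G) (hAK : A ≤ Subgroup.normalizer (K : Set G))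
    (hcop : (Nat.card A).Coprime (Nat.card K)) (hsolv : Group.IsSolvable A ∨ Group.IsSolvable K)
    (p : ℕ) (hp : p.Prime) (hidx : (K ⊓ Subgroup.centralizer (A : Set G)).relIndex K = p) :
    Nat.card (⁅K, A⁆ : Subgroup G) = p := by
  classical
  haveI : Fact p.Prime := ⟨hp⟩
  obtain ⟨P, hP⟩ := Cfsg.Agent.S0023.result A K hAK hcop hsolv p
  let C' : Subgroup K := (K ⊓ Subgroup.centralizer (A : Set G)).subgroupOf K
  have hC' : C'.index = p := hidx
  have hcopi : (P : Subgroup K).index.Coprime C'.index := by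
    rw [hC']
    exact ((Nat.Prime.coprime_iff_not_dvd hp).mpr P.not_dvd_index).symm
  obtain ⟨h1, h2⟩ := Cfsg.Agent.S0007.result (P : Subgroup K) C' hcopi
  set Q : Subgroup G := (P : Subgroup K).map K.subtype with hQdef
  have hQK : Q ≤ K := Subgroup.map_subtype_le _
  have hQp : IsPGroup p Q := P.2.map _
  have hcopQ : (Nat.card A).Coprime (Nat.card Q) :=
    Nat.Coprime.coprime_dvd_right (Subgroup.card_dvd_of_le hQK) hcop
  have heq : ⁅K, A⁆ = ⁅Q, A⁆ := by
    refine le_antisymm ?_ (Subgroup.commutator_mono hQK le_rfl)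
    rw [Subgroup.commutator_le]
    intro k hk a ha
    obtain ⟨x, hx, c, hc, hkxc⟩ := h2 ⟨k, hk⟩
    have hkxc' : k = (x : G) * (c : G) := congrArg Subtype.val hkxc
    have hca : a * (c : G) = (c : G) * a :=
      (Subgroup.mem_centralizer_iff.mp (Subgroup.mem_subgroupOf.mp hc).2) a ha
    have h3 : ⁅k, a⁆ = ⁅(x : G), a⁆ := by
      rw [commutatorElement_def, commutatorElement_def, hkxc', mul_inv_rev]
      have h4 : (c : G) * a * (c : G)⁻¹ = a := by rw [← hca]; group
      calc (x : G) * c * a * ((c : G)⁻¹ * (x : G)⁻¹) * a⁻¹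
          = x * (c * a * (c : G)⁻¹) * (x : G)⁻¹ * a⁻¹ := by group
        _ = x * a * (x : G)⁻¹ * a⁻¹ := by rw [h4]
    rw [h3]
    exact Subgroup.commutator_mem_commutator (Subgroup.mem_map_of_mem K.subtype hx) ha
  rw [heq]
  refine card_of_isPGroup A Q hP hcopQ p hQp ?_
  -- the index of the fixed points in `Q`
  have h5 : C'.relIndex (P : Subgroup K) = p := by
    have h6 := Subgroup.relIndex_mul_index (H := (P : Subgroup K) ⊓ C') (K := (P : Subgroup K))
      inf_le_left
    rw [h1, Subgroup.inf_relIndex_left, hC', mul_comm] at h6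
    exact Nat.eq_of_mul_eq_mul_left (Nat.pos_of_ne_zero Subgroup.FiniteIndex.index_ne_zero) h6
  have h7 : Subgroup.comap K.subtype (Q ⊓ Subgroup.centralizer (A : Set G)) =
      (P : Subgroup K) ⊓ C' := by
    ext x
    simp only [Subgroup.mem_comap, Subgroup.mem_inf, Subgroup.coe_subtype]
    constructor
    · rintro ⟨⟨y, hy, hyx⟩, hx2⟩
      have : y = x := Subtype.ext hyx
      subst this
      exact ⟨hy, Subgroup.mem_subgroupOf.mpr ⟨y.2, hx2⟩⟩
    · rintro ⟨hx1, hx2⟩
      exact ⟨⟨x, hx1, rfl⟩, (Subgroup.mem_subgroupOf.mp hx2).2⟩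
  have h8 := Subgroup.relIndex_comap (Q ⊓ Subgroup.centralizer (A : Set G)) K.subtype
    (P : Subgroup K)
  rw [← hQdef, h7, Subgroup.inf_relIndex_left, h5] at h8
  exact h8.symm

end Cfsg.Agent.S0057
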