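import Cfsg.Statements.S0062
import Mathlib
set_option linter.all false

set_option autoImplicit false
open Cfsg

namespace Cfsg.Agent.S0062

open Subgroup

theorem isSolvable_of_isPGroup {G : Type*} [Group G] [Finite G] {p : ℕ} [Fact p.Prime]
    (h : IsPGroup p G) : Group.IsSolvable G := by
  have := h.isNilpotent
  infer_instance

theorem aux {G : Type*} [Group G] [Finite G] (p q : ℕ) (hp : p.Prime) (hq : q.Prime) (hqp : q < p)
    (hG : Nat.card G = p ^ 2 * q ^ 2) : Group.IsSolvable G := by
  have := Fact.mk hp
  have := Fact.mk hq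
  obtain ⟨P⟩ : Nonempty (Sylow p G) := inferInstance
  have hcop : Nat.Coprime p q := (Nat.coprime_primes hp hq).2 hqp.ne'
  have hcop2 : Nat.Coprime (p ^ 2) (q ^ 2) := Nat.Coprime.pow 2 2 hcop
  have hPcard : Nat.card P = p ^ 2 := by
    rw [P.card_eq_multiplicity, hG]
    congr 1
    rw [Nat.factorization_mul (pow_pos hp.pos 2).ne' (pow_pos hq.pos 2).ne']
    have h1 : (q ^ 2).factorization p = 0 := by
      apply Nat.factorization_eq_zero_of_not_dvd
      intro h
      have := hp.dvd_of_dvd_pow h
      exact hqp.ne' ((Nat.prime_dvd_prime_iff_eq hp hq).1 this)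
    rw [Finsupp.add_apply, h1, hp.factorization_pow]
    simp
  have hidx : (P : Subgroup G).index = q ^ 2 := by
    have h := (P : Subgroup G).card_mul_index
    rw [hG] at h
    have h' : Nat.card (P : Subgroup G) = p ^ 2 := hPcard
    rw [h'] at h
    exact Nat.eq_of_mul_eq_mul_left (pow_pos hp.pos 2) h
  have hn : Nat.card (Sylow p G) ∣ q ^ 2 := hidx ▸ P.card_dvd_index
  have hmod : Nat.card (Sylow p G) ≡ 1 [MOD p] := card_sylow_modEq_one p G
  have hPsolv : Group.IsSolvable P := isSolvable_of_isPGroup P.isPGroup'
  obtain ⟨k, hk2, hk⟩ := (Nat.dvd_prime_pow hq).1 hn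
  interval_cases k
  · -- normal Sylow
    rw [pow_zero] at hk
    have : Subsingleton (Sylow p G) := (Nat.card_eq_one_iff_unique.1 hk).1
    have : (P : Subgroup G).Normal := P.normal_of_subsingleton
    have hquot : IsPGroup q (G ⧸ (P : Subgroup G)) := by
      apply IsPGroup.of_card (n := 2)
      rw [← Subgroup.index_eq_card, hidx]
    have := isSolvable_of_isPGroup hquot
    exact (Group.isSolvable_iff_subgroup_quotient (P : Subgroup G)).2 ⟨hPsolv, inferInstance⟩
  · exfalso
    rw [pow_one] at hk
    rw [hk] at hmod
    have h1 : q % p = 1 % p := hmod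
    rw [Nat.mod_eq_of_lt hqp, Nat.mod_eq_of_lt hp.one_lt] at h1
    exact hq.one_lt.ne' h1
  · -- self-normalizing
    have hNidx : (normalizer (P : Set G)).index = q ^ 2 := by
      rw [← hk, P.card_eq_index_normalizer]
    have hNeq : normalizer (P : Set G) = (P : Subgroup G) := by
      symm
      apply Subgroup.eq_of_le_of_card_ge (Subgroup.le_normalizer)
      have h1 := (normalizer (P : Set G)).card_mul_index
      have h2 := (P : Subgroup G).card_mul_index
      rw [hNidx, hG] at h1
      rw [hidx, hG] at h2
      have h3 : Nat.card (normalizer (P : Set G)) * q ^ 2 = Nat.card (P : Subgroup G) * q ^ 2 := by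
        rw [h1, h2]
      exact (Nat.eq_of_mul_eq_mul_right (pow_pos hq.pos 2) h3).le
    have hcomm : IsMulCommutative (P : Subgroup G) :=
      IsPGroup.isMulCommutative_of_card_eq_prime_sq (p := p) hPcard
    have hle : normalizer (P : Set G) ≤ centralizer (P : Set G) := by
      rw [hNeq]
      exact Subgroup.le_centralizer _
    have hcompl := MonoidHom.ker_transferSylow_isComplement' P hle
    set K := (MonoidHom.transferSylow P hle).ker with hK
    have hKcard : Nat.card K = q ^ 2 := by
      rw [← hidx]
      exact hcompl.index_eq_card.symm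
    have hKs : Group.IsSolvable K := isSolvable_of_isPGroup (IsPGroup.of_card hKcard)
    have hPs : Group.IsSolvable P := hPsolv
    exact Group.isSolvable_of_ker_le_range K.subtype (MonoidHom.transferSylow P hle) (by
      rw [← hK, Subgroup.range_subtype])

/-- A finite group of order p^2 * q^2 with p and q prime is solvable. -/
theorem result {G : Type*} [Group G] [Finite G] (p q : ℕ) (hp : p.Prime) (hq : q.Prime)
    (hG : Nat.card G = p ^ 2 * q ^ 2) : Group.IsSolvable G := by
  rcases lt_trichotomy p q with h | h | h
  · exact aux q p hq hp h (by rw [hG, mul_comm])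
  · subst h
    have := Fact.mk hp
    exact isSolvable_of_isPGroup (IsPGroup.of_card (n := 4) (by rw [hG, ← pow_add]))
  · exact aux p q hp hq h hG

end Cfsg.Agent.S0062
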