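import Mathlib
import Cfsg.Statements.S0069
import Cfsg.Agent.S0040
import Cfsg.Agent.S0068
import Cfsg.Agent.Solvable.FpfComplement
import Cfsg.Agent.Solvable.FixedPointFree
set_option linter.all false

-- part: Solvable/ZGroupCenter
section
set_option autoImplicit false

namespace Cfsg.Agent.Solvable.ZGroupCenter

/-- A nontrivial finite group all of whose Sylow subgroups are cyclic, in which an element `x` of prime order
normalising the subgroup generated by an element `y` of another prime order commutes with it, has nontrivial centre. -/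
theorem center_ne_bot {H : Type*} [Group H] [Finite H] [Nontrivial H] [IsZGroup H]
    (hpq : ∀ x y : H, (orderOf x).Prime → (orderOf y).Prime → orderOf x ≠ orderOf y →
      (∀ h : H, h * y * h⁻¹ ∈ Subgroup.zpowers y) → x * y = y * x) :
    Subgroup.center H ≠ ⊥ := by
  have hDlt : commutator H < ⊤ := IsZGroup.commutator_lt H
  have hcyc : IsCyclic (commutator H) := IsZGroup.isCyclic_commutator H
  have hcop : (Nat.card (commutator H)).Coprime (commutator H).index := IsZGroup.coprime_commutator_index H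
  obtain ⟨B, hB⟩ := Subgroup.exists_right_complement'_of_coprime hcop
  set D := commutator H with hD
  have hBcard : Nat.card B = D.index := hB.card_right
  have hBne : Nat.card B ≠ 1 := by
    rw [hBcard]
    intro h
    exact hDlt.ne (Subgroup.index_eq_one.mp h)
  obtain ⟨q, hq, hqB⟩ := Nat.exists_prime_and_dvd hBne
  have : Fact q.Prime := ⟨hq⟩
  obtain ⟨⟨x, hxB⟩, hx⟩ := exists_prime_orderOf_dvd_card' (G := B) q hqB
  rw [Subgroup.orderOf_mk] at hx
  -- conjugation by a fixed element acts on `D` as a power map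
  have hpow : ∀ h : H, ∃ m : ℤ, ∀ d ∈ D, h * d * h⁻¹ = d ^ m := by
    intro h
    obtain ⟨m, hm⟩ := (MulAut.conjNormal h : MulAut D).toMonoidHom.map_cyclic
    refine ⟨m, fun d hd => ?_⟩
    have := congrArg Subtype.val (hm ⟨d, hd⟩)
    simpa [MulAut.conjNormal_apply] using this
  have hDcomm : ∀ a ∈ D, ∀ b ∈ D, a * b = b * a := by
    intro a ha b hb
    have h1 := (IsCyclic.commGroup (α := D)).mul_comm ⟨a, ha⟩ ⟨b, hb⟩
    exact congrArg Subtype.val h1
  -- `x` centralises `D`
  have hxD : ∀ d ∈ D, x * d = d * x := by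
    by_contra hcon
    push Not at hcon
    let f : D →* D :=
      { toFun := fun d => ⟨x * d * x⁻¹ * (d : H)⁻¹, D.mul_mem (Subgroup.Normal.conj_mem inferInstance _ d.2 x)
          (D.inv_mem d.2)⟩
        map_one' := by ext; simp
        map_mul' := by
          rintro ⟨a, ha⟩ ⟨b, hb⟩
          ext
          show x * (a * b) * x⁻¹ * (a * b)⁻¹ = (x * a * x⁻¹ * a⁻¹) * (x * b * x⁻¹ * b⁻¹)
          have h1 := hDcomm _ (D.inv_mem ha) _
            (D.mul_mem (Subgroup.Normal.conj_mem (inferInstance : D.Normal) _ hb x) (D.inv_mem hb))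
          calc x * (a * b) * x⁻¹ * (a * b)⁻¹ = x * a * x⁻¹ * ((x * b * x⁻¹ * b⁻¹) * a⁻¹) := by group
            _ = x * a * x⁻¹ * (a⁻¹ * (x * b * x⁻¹ * b⁻¹)) := by rw [h1]
            _ = (x * a * x⁻¹ * a⁻¹) * (x * b * x⁻¹ * b⁻¹) := by group }
    obtain ⟨d₀, hd₀, hd₀'⟩ := hcon
    have hrange : Nat.card f.range ≠ 1 := by
      intro h
      have h2 := Subgroup.card_eq_one.mp h
      have h3 : f ⟨d₀, hd₀⟩ ∈ f.range := ⟨_, rfl⟩
      rw [h2, Subgroup.mem_bot] at h3
      have h4 : x * d₀ * x⁻¹ * d₀⁻¹ = 1 := congrArg Subtype.val h3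
      exact hd₀' (mul_inv_eq_iff_eq_mul.mp (mul_inv_eq_one.mp h4))
    obtain ⟨p, hp, hpf⟩ := Nat.exists_prime_and_dvd hrange
    have : Fact p.Prime := ⟨hp⟩
    obtain ⟨⟨⟨y, hyD⟩, hyr⟩, hy⟩ := exists_prime_orderOf_dvd_card' (G := f.range) p hpf
    rw [Subgroup.orderOf_mk, Subgroup.orderOf_mk] at hy
    obtain ⟨⟨d, hd⟩, hdy⟩ := hyr
    have hdy' : x * d * x⁻¹ * d⁻¹ = y := congrArg Subtype.val hdy
    have hpD : p ∣ Nat.card D := hpf.trans (Subgroup.card_subgroup_dvd_card _)
    have hne : q ≠ p := by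
      rintro rfl
      rw [← hBcard] at hcop
      exact Nat.not_coprime_of_dvd_of_dvd hq.one_lt hpD hqB hcop
    have hxy : x * y = y * x := by
      refine hpq x y (by rwa [hx]) (by rwa [hy]) (by rwa [hx, hy]) fun h => ?_
      obtain ⟨m, hm⟩ := hpow h
      rw [hm y hyD]
      exact Subgroup.zpow_mem_zpowers y m
    have hxdx : x * d * x⁻¹ = y * d := by
      rw [← hdy', inv_mul_cancel_right]
    have hiter : ∀ n : ℕ, x ^ n * d * (x ^ n)⁻¹ = y ^ n * d := by
      intro n
      induction n with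
      | zero => simp
      | succ n ih =>
        have hc : x * y ^ n = y ^ n * x := (Commute.pow_right (show Commute x y from hxy) n).eq
        calc x ^ (n + 1) * d * (x ^ (n + 1))⁻¹ = x * (x ^ n * d * (x ^ n)⁻¹) * x⁻¹ := by
              rw [pow_succ' x n]; group
          _ = x * (y ^ n * d) * x⁻¹ := by rw [ih]
          _ = (x * y ^ n) * d * x⁻¹ := by group
          _ = y ^ n * (x * d * x⁻¹) := by rw [hc]; group
          _ = y ^ (n + 1) * d := by rw [hxdx, pow_succ]; group
    have h5 := hiter q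
    have h6 : x ^ q = 1 := by rw [← hx, pow_orderOf_eq_one]
    rw [h6, one_mul, inv_one, mul_one] at h5
    have h7 : y ^ q = 1 := by
      have : y ^ q * d = 1 * d := by rw [← h5, one_mul]
      exact mul_right_cancel this
    have h8 : p ∣ q := by
      rw [← hy]
      exact orderOf_dvd_of_pow_eq_one h7
    exact hne ((Nat.prime_dvd_prime_iff_eq hp hq).mp h8).symm
  -- `x` commutes with `B`
  have hBcomm : ∀ b ∈ B, x * b = b * x := by
    intro b hb
    have h1 : x * b * x⁻¹ * b⁻¹ ∈ D := Subgroup.commutator_mem_commutator (Subgroup.mem_top x) (Subgroup.mem_top b)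
    have h2 : x * b * x⁻¹ * b⁻¹ ∈ B := B.mul_mem (B.mul_mem (B.mul_mem hxB hb) (B.inv_mem hxB)) (B.inv_mem hb)
    have h3 : x * b * x⁻¹ * b⁻¹ ∈ D ⊓ B := Subgroup.mem_inf.mpr ⟨h1, h2⟩
    rw [hB.disjoint.eq_bot, Subgroup.mem_bot] at h3
    exact mul_inv_eq_iff_eq_mul.mp (mul_inv_eq_one.mp h3)
  intro hbot
  have hxc : x ∈ Subgroup.center H := by
    rw [Subgroup.mem_center_iff]
    intro g
    have hg : g ∈ D ⊔ B := by
      rw [hB.sup_eq_top]
      exact Subgroup.mem_top g
    obtain ⟨d, hd, b, hb, rfl⟩ := Subgroup.mem_sup_of_normal_left.mp hg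
    rw [mul_assoc, ← hBcomm b hb, ← mul_assoc, ← hxD d hd, mul_assoc]
  rw [hbot, Subgroup.mem_bot] at hxc
  rw [hxc, orderOf_one] at hx
  exact hq.one_lt.ne hx

end Cfsg.Agent.Solvable.ZGroupCenter
end

-- part: S0069
section
set_option autoImplicit false
open Cfsg

namespace Cfsg.Agent.S0069

/-- In a group acting fixed-point-freely, an element of prime order normalising the subgroup generated by an element
of another prime order commutes with it. -/
theorem commute_of_fpf {G : Type*} [Group G] [Finite G] (K H : Subgroup G) [K.Normal] (hK : K ≠ ⊥)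
    (hfix : ∀ h ∈ H, h ≠ 1 → ∀ k ∈ K, h * k = k * h → k = 1) {x y : H}
    (hx : (orderOf x).Prime) (hy : (orderOf y).Prime)
    (hxy : ∀ h : H, h * y * h⁻¹ ∈ Subgroup.zpowers y) : x * y = y * x := by
  have hyne : (y : G) ≠ 1 := by
    intro h
    have h1 : y = 1 := Subtype.ext h
    rw [h1, orderOf_one] at hy
    exact Nat.not_prime_one hy
  have hyG : ∀ h ∈ H, h * (y : G) * h⁻¹ ∈ Subgroup.zpowers (y : G) := by
    intro h hh
    obtain ⟨n, hn⟩ := Subgroup.mem_zpowers_iff.mp (hxy ⟨h, hh⟩)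
    refine Subgroup.mem_zpowers_iff.mpr ⟨n, ?_⟩
    have := congrArg Subtype.val hn
    simpa using this
  obtain ⟨V, hV1, hVK, hVc, hVH⟩ :=
    Cfsg.Agent.Solvable.FpfComplement.exists_abelian_invariant K H hK hyG (hfix y y.2 hyne)
  let _ : CommGroup V := { (inferInstance : Group V) with mul_comm := fun a b => hVc.is_comm.comm a b }
  have hHV : H ≤ Subgroup.normalizer (V : Set G) := by
    intro h hh
    rw [Subgroup.mem_normalizer_iff]
    intro v
    refine ⟨fun hv => hVH h hh v hv, fun hv => ?_⟩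
    have := hVH h⁻¹ (H.inv_mem hh) _ hv
    simpa [mul_assoc] using this
  let φ : H →* MulAut V := V.normalizerMonoidHom.comp (Subgroup.inclusion hHV)
  have hφ : ∀ (h : H) (v : V), ((φ h v : V) : G) = h * v * (h : G)⁻¹ := fun h v => rfl
  have hφfix : ∀ h : H, h ≠ 1 → ∀ v : V, φ h v = v → v = 1 := by
    intro h hh v hv
    have h1 : (h : G) * v * (h : G)⁻¹ = v := by rw [← hφ, hv]
    exact Subtype.ext (hfix h h.2 (fun h' => hh (Subtype.ext h')) v (hVK v.2) (mul_inv_eq_iff_eq_mul.mp h1))
  have hy1 : y ≠ 1 := fun h => hyne (by rw [h]; rfl)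
  have hx1 : x ≠ 1 := by
    intro h1
    rw [h1, orderOf_one] at hx
    exact Nat.not_prime_one hx
  by_contra hcon
  have hpow : ∀ v : V, v ^ Nat.card (Subgroup.zpowers y) = 1 := by
    refine Cfsg.Agent.Solvable.FpfComplement.pow_card_eq_one φ (Subgroup.zpowers y) (Subgroup.zpowers x)
      ?_ ?_ ?_ ?_
    · intro b _ n hn
      obtain ⟨i, rfl⟩ := Subgroup.mem_zpowers_iff.mp hn
      rw [← conj_zpow]
      exact Subgroup.zpow_mem _ (hxy b) i
    · intro b hb hb1 n hn hnb
      by_contra hn1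
      apply hcon
      -- `x` is a power of `b` and `y` is a power of `n`
      have gen : ∀ {c d : H}, (orderOf c).Prime → d ∈ Subgroup.zpowers c → d ≠ 1 →
          c ∈ Subgroup.zpowers d := by
        intro c d hc hd hd1
        have : Fact (orderOf c).Prime := ⟨hc⟩
        have : Fact (Nat.card (Subgroup.zpowers c)).Prime := ⟨by rwa [Nat.card_zpowers]⟩
        have h1 : Subgroup.zpowers (⟨d, hd⟩ : Subgroup.zpowers c) = ⊤ := by
          refine zpowers_eq_top_of_prime_card rfl ?_
          intro h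
          exact hd1 (congrArg Subtype.val h)
        have h2 : (⟨c, Subgroup.mem_zpowers c⟩ : Subgroup.zpowers c) ∈
            Subgroup.zpowers (⟨d, hd⟩ : Subgroup.zpowers c) := by rw [h1]; exact Subgroup.mem_top _
        obtain ⟨i, hi⟩ := Subgroup.mem_zpowers_iff.mp h2
        exact Subgroup.mem_zpowers_iff.mpr ⟨i, by simpa using congrArg Subtype.val hi⟩
      obtain ⟨i, hi⟩ := Subgroup.mem_zpowers_iff.mp (gen hx hb hb1)
      obtain ⟨j, hj⟩ := Subgroup.mem_zpowers_iff.mp (gen hy hn hn1)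
      rw [← hi, ← hj]
      exact (Commute.zpow_zpow (show Commute b n from hnb.symm) i j).eq
    · intro v hv
      exact hφfix y hy1 v (hv y (Subgroup.mem_zpowers y))
    · intro v hv
      exact hφfix x hx1 v (hv x (Subgroup.mem_zpowers x))
  rw [Nat.card_zpowers] at hpow
  have hndvd : ¬ orderOf y ∣ Nat.card V :=
    Cfsg.Agent.Solvable.FixedPointFree.not_dvd_card φ (hφfix y hy1) hy (pow_orderOf_eq_one y)
  apply hV1
  rw [eq_bot_iff]
  intro v hv
  rw [Subgroup.mem_bot]
  have h1 : orderOf (⟨v, hv⟩ : V) ∣ orderOf y := orderOf_dvd_of_pow_eq_one (hpow ⟨v, hv⟩)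
  have h2 : orderOf (⟨v, hv⟩ : V) ∣ Nat.card V := orderOf_dvd_natCard _
  have h3 : orderOf (⟨v, hv⟩ : V) = 1 := by
    rcases (Nat.dvd_prime hy).mp h1 with h | h
    · exact h
    · exact absurd (h ▸ h2) hndvd
  rw [orderOf_eq_one_iff] at h3
  exact congrArg Subtype.val h3

/-- A Frobenius complement has nontrivial centre: if H ≠ 1 complements a nontrivial normal subgroup K and every nonidentity element of H has trivial centraliser in K, then the centre of H is nontrivial. -/
theorem result {G : Type*} [Group G] [Finite G] (K H : Subgroup G) [K.Normal]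
    (hc : Subgroup.IsComplement' K H) (hK : K ≠ ⊥) (hH : H ≠ ⊥) (hfpf : ∀ h ∈ H, h ≠ 1 → K ⊓ Subgroup.centralizer {h} = ⊥) :
    Subgroup.center H ≠ ⊥ := by
  have hfix : ∀ h ∈ H, h ≠ 1 → ∀ k ∈ K, h * k = k * h → k = 1 := by
    intro h hh h1 k hk hkh
    have : k ∈ K ⊓ Subgroup.centralizer {h} :=
      Subgroup.mem_inf.mpr ⟨hk, Subgroup.mem_centralizer_singleton_iff.mpr hkh.symm⟩
    rw [hfpf h hh h1] at this
    exact Subgroup.mem_bot.mp this
  by_cases h2 : 2 ∣ Nat.card H
  · obtain ⟨⟨s, hs, hs2, huniq, -⟩, -⟩ := Cfsg.Agent.S0068.result K H hc hK hfpf h2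
    intro hbot
    have hmem : (⟨s, hs⟩ : H) ∈ Subgroup.center H := by
      rw [Subgroup.mem_center_iff]
      rintro ⟨g, hg⟩
      apply Subtype.ext
      have h3 := huniq (g * s * g⁻¹) (H.mul_mem (H.mul_mem hg hs) (H.inv_mem hg)) (by
        rw [← hs2]
        exact orderOf_injective (MulAut.conj g).toMonoidHom (MulAut.conj g).injective s)
      exact mul_inv_eq_iff_eq_mul.mp h3
    rw [hbot, Subgroup.mem_bot] at hmem
    have h4 : s = 1 := congrArg Subtype.val hmem
    rw [h4, orderOf_one] at hs2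
    exact absurd hs2 (by norm_num)
  · have hnt : Nontrivial H := (Subgroup.nontrivial_iff_ne_bot H).mpr hH
    have hZ : IsZGroup H := by
      refine ⟨fun p hp P => ?_⟩
      have : Fact p.Prime := ⟨hp⟩
      rcases Cfsg.Agent.S0040.result K H hc hK hfpf p P with h | ⟨n, ⟨e⟩⟩
      · exact h
      · exfalso
        apply h2
        have h5 : Nat.card P = 4 * 2 ^ n := by
          have : NeZero (2 ^ n) := ⟨by positivity⟩
          rw [Nat.card_congr e.toEquiv, Nat.card_eq_fintype_card, QuaternionGroup.card]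
        have h6 : Nat.card P ∣ Nat.card H := Subgroup.card_subgroup_dvd_card _
        exact (Dvd.intro (2 * 2 ^ n) (by rw [h5]; ring)).trans h6
    exact Cfsg.Agent.Solvable.ZGroupCenter.center_ne_bot fun x y hx hy _ hxy =>
      commute_of_fpf K H hK hfix hx hy hxy

end Cfsg.Agent.S0069
end
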