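-- Statement S0076.
import Cfsg.Statements.S0076
set_option linter.all false

set_option autoImplicit false
open Cfsg

namespace Cfsg.Agent.S0076

open scoped Pointwise

/-- the setwise stabiliser of a subset under conjugation -/
theorem conj_image_mul {G : Type*} [Group G] (a b : G) (X : Set G) :
    (fun y => (a * b) * y * (a * b)⁻¹) '' X = (fun y => a * y * a⁻¹) '' ((fun y => b * y * b⁻¹) '' X) := by
  rw [Set.image_image]
  congr 1
  funext y
  group

theorem conj_image_one {G : Type*} [Group G] (X : Set G) :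
    (fun y => (1 : G) * y * (1 : G)⁻¹) '' X = X := by
  simp

theorem conj_image_inv {G : Type*} [Group G] (a : G) (X Y : Set G)
    (h : (fun y => a * y * a⁻¹) '' X = Y) : (fun y => a⁻¹ * y * (a⁻¹)⁻¹) '' Y = X := by
  rw [← h, ← conj_image_mul, inv_mul_cancel, conj_image_one]

/-- Two P-invariant subsets of a Sylow p-subgroup P that are conjugate in G are conjugate under the normalizer of P. -/
theorem result {G : Type*} [Group G] [Finite G] {p : ℕ} [Fact p.Prime] (P : Sylow p G) (X Y : Set G) (hXP : X ⊆ P) (hYP : Y ⊆ P) (hX : ∀ x ∈ P, (fun y => x * y * x⁻¹) '' X = X) (hY : ∀ x ∈ P, (fun y => x * y * x⁻¹) '' Y = Y) (g : G) (hg : (fun y => g * y * g⁻¹) '' X = Y) : ∃ n ∈ Subgroup.normalizer (P : Set G), (fun y => n * y * n⁻¹) '' X = Y := by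
  let H : Subgroup G :=
    { carrier := {h | (fun y => h * y * h⁻¹) '' Y = Y}
      one_mem' := conj_image_one Y
      mul_mem' := by
        intro a b ha hb
        change _ = _
        rw [conj_image_mul, show (fun y => b * y * b⁻¹) '' Y = Y from hb,
          show (fun y => a * y * a⁻¹) '' Y = Y from ha]
      inv_mem' := by
        intro a ha
        exact conj_image_inv a Y Y ha }
  have h1 : (P : Subgroup G) ≤ H := fun x hx => hY x hx
  have h2 : ((g • P : Sylow p G) : Subgroup G) ≤ H := by
    rintro _ ⟨x, hx, rfl⟩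
    change (fun y => (g * x * g⁻¹) * y * (g * x * g⁻¹)⁻¹) '' Y = Y
    rw [mul_assoc, conj_image_mul, conj_image_mul x, conj_image_inv g X Y hg, hX x hx, hg]
  obtain ⟨h, hh⟩ := MulAction.exists_smul_eq H ((g • P).subtype h2) (P.subtype h1)
  simp_rw [Sylow.smul_subtype, Subgroup.smul_def, smul_smul] at hh
  refine ⟨h * g, Sylow.smul_eq_iff_mem_normalizer.mp (Sylow.subtype_injective hh), ?_⟩
  rw [conj_image_mul, hg]
  exact h.2

end Cfsg.Agent.S0076
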