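import Mathlib
import Cfsg.Statements.S0078
import Cfsg.Agent.Transfer.Tate
set_option linter.all false

-- part: Transfer/WeakClosure
section
/-!
# Control of fusion by the normalizer of a weakly closed centralizing subgroup
-/

set_option autoImplicit false

namespace Cfsg.Agent.Transfer.WeakClosure

universe u

variable {G : Type u} [Group G]

/-- Let `Z` be a `p`-subgroup of the finite group `G` such that whenever a Sylow `p`-subgroup `R`
contains `Z` and `w Z w⁻¹`, then `w` normalizes `Z`.  If `Z` centralizes the conjugate elements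
`x` and `y = g x g⁻¹`, then they are conjugate by an element of the normalizer of `Z`. -/
theorem exists_mem_normalizer_conj [Finite G] {p : ℕ} [Fact p.Prime] (Z : Subgroup G)
    (hZp : IsPGroup p Z)
    (hwc : ∀ (R : Sylow p G) (w : G), Z ≤ (R : Subgroup G) →
      (∀ z ∈ Z, w * z * w⁻¹ ∈ (R : Subgroup G)) → w ∈ Subgroup.normalizer (Z : Set G))
    (x y g : G) (hxy : g * x * g⁻¹ = y) (hx : ∀ z ∈ Z, z * x = x * z)
    (hy : ∀ z ∈ Z, z * y = y * z) :
    ∃ v ∈ Subgroup.normalizer (Z : Set G), v * x * v⁻¹ = y := by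
  let C : Subgroup G := Subgroup.centralizer {y}
  have hZC : Z ≤ C := fun z hz => by
    rw [Subgroup.mem_centralizer_singleton_iff]
    exact hy z hz
  have hZC' : ∀ z ∈ Z, g * z * g⁻¹ ∈ C := fun z hz => by
    rw [Subgroup.mem_centralizer_singleton_iff, ← hxy]
    have := hx z hz
    calc g * z * g⁻¹ * (g * x * g⁻¹) = g * (z * x) * g⁻¹ := by group
      _ = g * (x * z) * g⁻¹ := by rw [this]
      _ = _ := by group
  have hZp' : IsPGroup p (Z.map (MulAut.conj g).toMonoidHom) := hZp.map _
  have h1 : IsPGroup p (Z.comap C.subtype) := hZp.comap_subtype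
  have h2 : IsPGroup p ((Z.map (MulAut.conj g).toMonoidHom).comap C.subtype) := hZp'.comap_subtype
  obtain ⟨S₁, hS₁⟩ := h1.exists_le_sylow
  obtain ⟨S₂, hS₂⟩ := h2.exists_le_sylow
  obtain ⟨c, hc⟩ := MulAction.exists_smul_eq C S₂ S₁
  have h3 : IsPGroup p ((S₁ : Subgroup C).map C.subtype) := S₁.2.map _
  obtain ⟨R, hR⟩ := h3.exists_le_sylow
  have hZR : Z ≤ (R : Subgroup G) := fun z hz =>
    hR (Subgroup.mem_map.mpr ⟨⟨z, hZC hz⟩, hS₁ (Subgroup.mem_comap.mpr hz), rfl⟩)
  have hw : (c : G) * g ∈ Subgroup.normalizer (Z : Set G) := by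
    apply hwc R _ hZR
    intro z hz
    apply hR
    refine Subgroup.mem_map.mpr ⟨c * ⟨g * z * g⁻¹, hZC' z hz⟩ * c⁻¹, ?_, ?_⟩
    · have h4 : (⟨g * z * g⁻¹, hZC' z hz⟩ : C) ∈ S₂ := by
        apply hS₂
        refine Subgroup.mem_comap.mpr (Subgroup.mem_map.mpr ⟨z, hz, rfl⟩)
      rw [← hc, Sylow.coe_subgroup_smul]
      exact Subgroup.smul_mem_pointwise_smul _ (MulAut.conj c) _ h4
    · simp [mul_assoc]
  refine ⟨c * g, hw, ?_⟩
  have hcy := Subgroup.mem_centralizer_singleton_iff.mp c.2
  calc (c : G) * g * x * ((c : G) * g)⁻¹ = c * (g * x * g⁻¹) * (c : G)⁻¹ := by group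
    _ = c * y * (c : G)⁻¹ := by rw [hxy]
    _ = y := by rw [hcy]; group

end Cfsg.Agent.Transfer.WeakClosure
end

-- part: S0078
section
set_option autoImplicit false
open Cfsg

namespace Cfsg.Agent.S0078

/-- In a p-normal group, a Sylow p-subgroup P meets O^p(G) exactly where it meets O^p(V), for any subgroup V containing the normalizer of the centre of P. -/
theorem result {G : Type*} [Group G] [Finite G] {p : ℕ} [Fact p.Prime] (P : Sylow p G) (hn : ∀ Q : Sylow p G, (P : Subgroup G) ⊓ Subgroup.centralizer (P : Set G) ≤ (Q : Subgroup G) → (Q : Subgroup G) ⊓ Subgroup.centralizer (Q : Set G) = (P : Subgroup G) ⊓ Subgroup.centralizer (P : Set G)) (V : Subgroup G) (hV : Subgroup.normalizer (((P : Subgroup G) ⊓ Subgroup.centralizer (P : Set G) : Subgroup G) : Set G) ≤ V) : (P : Subgroup G) ⊓ Cfsg.pResidual p G = (P : Subgroup G) ⊓ (Cfsg.pResidual p V).map V.subtype := by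
  set Z : Subgroup G := (P : Subgroup G) ⊓ Subgroup.centralizer (P : Set G) with hZdef
  have hZP : Z ≤ (P : Subgroup G) := inf_le_left
  have hZp : IsPGroup p Z := P.2.to_le hZP
  have hPN : (P : Subgroup G) ≤ Subgroup.normalizer (Z : Set G) := by
    rw [Subgroup.le_normalizer_iff]
    intro h hh k hk
    have h1 : k ∈ Subgroup.centralizer (P : Set G) := hk.2
    have h2 := Subgroup.mem_centralizer_iff.mp h1 h hh
    rw [h2, mul_assoc, mul_inv_cancel, mul_one]
    exact hk
  have hPV : (P : Subgroup G) ≤ V := hPN.trans hV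
  have hfus : ∀ x ∈ (P : Subgroup G), ∀ g : G, g * x * g⁻¹ ∈ (P : Subgroup G) →
      ∃ v ∈ V, v * x * v⁻¹ = g * x * g⁻¹ := by
    intro x hx g hg
    obtain ⟨v, hv, hvx⟩ := Cfsg.Agent.Transfer.WeakClosure.exists_mem_normalizer_conj Z hZp (by
        intro R w hZR hwR
        -- the conjugate Sylow subgroup `w⁻¹ R w` also contains `Z`
        have memR : ∀ r : G, r ∈ (w⁻¹ • R : Sylow p G) ↔ w * r * w⁻¹ ∈ (R : Subgroup G) := by
          intro r
          rw [← SetLike.mem_coe, ← Sylow.coe_coe, Sylow.coe_subgroup_smul]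
          rw [SetLike.mem_coe, Subgroup.mem_pointwise_smul_iff_inv_smul_mem]
          simp
        have hZR' : Z ≤ ((w⁻¹ • R : Sylow p G) : Subgroup G) := by
          intro z hz
          exact (memR z).mpr (hwR z hz)
        have e1 := hn R hZR
        have e2 := hn (w⁻¹ • R) hZR'
        apply Subgroup.mem_normalizer_fintype
        intro z hz
        have hz2 : z ∈ Subgroup.centralizer (((w⁻¹ • R : Sylow p G) : Subgroup G) : Set G) := by
          have : z ∈ Z := hz
          rw [← e2] at this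
          exact this.2
        have : w * z * w⁻¹ ∈ (R : Subgroup G) ⊓ Subgroup.centralizer (R : Set G) := by
          refine Subgroup.mem_inf.mpr ⟨hwR z hz, ?_⟩
          rw [Subgroup.mem_centralizer_iff]
          intro r hr
          have hr' : w⁻¹ * r * w ∈ ((w⁻¹ • R : Sylow p G) : Subgroup G) := by
            refine (memR _).mpr ?_
            have : w * (w⁻¹ * r * w) * w⁻¹ = r := by group
            rw [this]
            exact hr
          have h5 := Subgroup.mem_centralizer_iff.mp hz2 _ hr'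
          calc r * (w * z * w⁻¹) = w * ((w⁻¹ * r * w) * z) * w⁻¹ := by group
            _ = w * (z * (w⁻¹ * r * w)) * w⁻¹ := by rw [h5]
            _ = _ := by group
        rw [e1] at this
        exact this) x (g * x * g⁻¹) g rfl
      (fun z hz => (Subgroup.mem_centralizer_iff.mp hz.2 x hx).symm)
      (fun z hz => (Subgroup.mem_centralizer_iff.mp hz.2 _ hg).symm)
    exact ⟨v, hV hv, hvx⟩
  have hidx : ¬ p ∣ V.index := fun h => P.not_dvd_index (h.trans (Subgroup.index_dvd_of_le hPV))
  have hA : IsPGroup p (Multiplicative (ZMod p)) := by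
    apply IsPGroup.of_card (n := 1)
    simp
  have key := Cfsg.Agent.Transfer.Tate.tate_residual V hidx (fun f =>
    Cfsg.Agent.Transfer.Tate.hom_to_comm_pGroup_extends_of_fusion P V hPV hfus hA f)
  rw [← key, ← inf_assoc, inf_eq_left.mpr hPV]

end Cfsg.Agent.S0078
end
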