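import Cfsg.Statements.S0083
import Cfsg.Agent.Transfer.TateComplement
set_option linter.all false

set_option autoImplicit false
open Cfsg

namespace Cfsg.Agent.S0083

/-- For an abelian Sylow p-subgroup P, a normal p-complement exists exactly when the normalizer of P is an internal direct product of P with some subgroup. -/
theorem result {G : Type*} [Group G] [Finite G] {p : ℕ} [Fact p.Prime] (P : Sylow p G) (hP : IsMulCommutative P) : Cfsg.HasNormalPComplement p G ↔ ∃ Q : Subgroup G, Q ≤ Subgroup.centralizer (P : Set G) ∧ Q ⊓ (P : Subgroup G) = ⊥ ∧ Q ⊔ (P : Subgroup G) = Subgroup.normalizer (P : Set G) := by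
  constructor
  · rintro ⟨P0, N, hN, hc⟩
    have hcard : ¬ p ∣ Nat.card N := by
      rw [← hc.index_eq_card]
      exact P0.not_dvd_index
    have hind : ∃ n, N.index = p ^ n := by
      rw [hc.symm.index_eq_card]
      exact (IsPGroup.iff_card).1 P0.isPGroup'
    have hcP := Cfsg.Agent.Transfer.TateComplement.isComplement'_sylow_of_index N hcard hind P
    have hPn : (P : Subgroup G) ≤ Subgroup.normalizer (P : Set G) := Subgroup.le_normalizer
    refine ⟨N ⊓ Subgroup.normalizer (P : Set G), ?_, ?_, ?_⟩
    · rintro q ⟨hqN, hqP⟩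
      rw [Subgroup.mem_centralizer_iff]
      intro x hx
      have h1 : q * x * q⁻¹ ∈ (P : Subgroup G) := (Subgroup.mem_normalizer_iff.1 hqP x).1 hx
      have h2 : q * x * q⁻¹ * x⁻¹ ∈ (P : Subgroup G) := mul_mem h1 (inv_mem hx)
      have h3 : q * (x * q⁻¹ * x⁻¹) ∈ N := mul_mem hqN (hN.conj_mem _ (inv_mem hqN) x)
      have h4 : q * x * q⁻¹ * x⁻¹ ∈ N := by simpa [mul_assoc] using h3
      have h5 : q * x * q⁻¹ * x⁻¹ = 1 := by
        have := hcP.disjoint.le_bot ⟨h4, h2⟩
        simpa using this
      have h6 : q * x = x * q := by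
        have := mul_inv_eq_one.1 h5
        exact mul_inv_eq_iff_eq_mul.1 this
      exact h6.symm
    · rw [eq_bot_iff]
      exact le_trans (inf_le_inf_right _ inf_le_left) hcP.disjoint.le_bot
    · apply le_antisymm
      · exact sup_le inf_le_right hPn
      · intro h hh
        have h1 : h ∈ N ⊔ (P : Subgroup G) := by rw [hcP.sup_eq_top]; exact Subgroup.mem_top h
        obtain ⟨n, hn, x, hx, rfl⟩ := Subgroup.mem_sup_of_normal_left.1 h1
        have h2 : n ∈ Subgroup.normalizer (P : Set G) := by
          have := mul_mem hh (inv_mem (hPn hx))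
          simpa using this
        exact mul_mem (Subgroup.mem_sup_left ⟨hn, h2⟩) (Subgroup.mem_sup_right hx)
  · rintro ⟨Q, hQ, -, hsup⟩
    have h : Subgroup.normalizer (P : Set G) ≤ Subgroup.centralizer (P : Set G) := by
      rw [← hsup]
      refine sup_le hQ ?_
      intro x hx
      rw [Subgroup.mem_centralizer_iff]
      intro y hy
      exact congrArg Subtype.val (hP.is_comm.comm ⟨y, hy⟩ ⟨x, hx⟩)
    exact ⟨P, (MonoidHom.transferSylow P h).ker, inferInstance,
      MonoidHom.ker_transferSylow_isComplement' P h⟩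

end Cfsg.Agent.S0083
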