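import Cfsg.Statements.S0085
import Cfsg.Agent.Transfer.ElemAbAut
set_option linter.all false
-- import your own Cfsg.Agent.* helpers here

set_option autoImplicit false
open Cfsg

namespace Cfsg.Agent.S0085

/-- A group whose Sylow 2-subgroups are elementary abelian of order 8 and whose order is prime to 3 and to 7 has a normal 2-complement. -/
theorem result {G : Type*} [Group G] [Finite G] (T : Sylow 2 G) (h8 : Nat.card T = 8) (he : ∀ x : T, x * x = 1) (h3 : ¬ 3 ∣ Nat.card G) (h7 : ¬ 7 ∣ Nat.card G) : Cfsg.HasNormalPComplement 2 G := by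
  have : Fact (Nat.Prime 2) := ⟨Nat.prime_two⟩
  have hsq : ∀ x : T, x ^ 2 = 1 := by
    intro x
    rw [sq]
    exact he x
  have hcomm : ∀ x y : T, x * y = y * x := by
    intro x y
    have hx : x⁻¹ = x := inv_eq_of_mul_eq_one_left (he x)
    have hy : y⁻¹ = y := inv_eq_of_mul_eq_one_left (he y)
    have hxy : (x * y)⁻¹ = x * y := inv_eq_of_mul_eq_one_left (he (x * y))
    rw [mul_inv_rev, hx, hy] at hxy
    exact hxy.symm
  have hcard := Cfsg.Agent.Transfer.ElemAbAut.card_mulAut (T := T) 2 3 hcomm hsq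
    (by rw [h8]; norm_num)
  have hle := Cfsg.Agent.Transfer.ElemAbAut.normalizer_le_centralizer 2 T hcomm (by
    intro q hq hq1 hq2
    rw [hcard] at hq1
    have h168 : (∏ i : Fin 3, (2 ^ 3 - 2 ^ (i : ℕ))) = 2 ^ 3 * (3 * 7) := by decide
    rw [h168] at hq1
    rcases (Nat.Prime.dvd_mul hq).mp hq1 with h | h
    · exact (Nat.prime_dvd_prime_iff_eq hq Nat.prime_two).mp (hq.dvd_of_dvd_pow h)
    · rcases (Nat.Prime.dvd_mul hq).mp h with h | h
      · exact absurd (((Nat.prime_dvd_prime_iff_eq hq Nat.prime_three).mp h) ▸ hq2) h3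
      · exact absurd (((Nat.prime_dvd_prime_iff_eq hq (by norm_num)).mp h) ▸ hq2) h7)
  exact ⟨T, (MonoidHom.transferSylow T hle).ker, inferInstance,
    MonoidHom.ker_transferSylow_isComplement' T hle⟩

end Cfsg.Agent.S0085
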