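import Cfsg.Statements.S0097
import Cfsg.Agent.Transfer.Extraspecial
set_option linter.all false

set_option autoImplicit false
open Cfsg

namespace Cfsg.Agent.S0097

/-- For odd p and E extraspecial, the subgroup generated by the elements of order dividing p has exponent dividing p and index at most p. -/
theorem result {E : Type*} [Group E] [Finite E] {p : ℕ} [Fact p.Prime] (hp : p ≠ 2) (h : Cfsg.IsExtraspecial p E) : (Subgroup.closure {x : E | x ^ p = 1}).index ≤ p ∧ ∀ g ∈ Subgroup.closure {x : E | x ^ p = 1}, g ^ p = 1 := by
  exact ⟨Cfsg.Agent.Transfer.Extraspecial.index_closure_le (Fact.out : p.Prime) hp h,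
    fun g hg => Cfsg.Agent.Transfer.CentralComm.pow_eq_one_of_mem_closure
      (Cfsg.Agent.Transfer.Extraspecial.comm_mem_center h) (Fact.out : p.Prime) hp hg⟩

end Cfsg.Agent.S0097
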