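import Mathlib
import Cfsg.Statements.S0103
set_option linter.all false

set_option autoImplicit false
open Cfsg

namespace Cfsg.Agent.S0103

/-- If a Sylow p-subgroup P intersects every distinct conjugate trivially, then its normalizer controls fusion in P. -/
theorem result {G : Type*} [Group G] [Finite G] {p : ℕ} [Fact p.Prime] (P : Sylow p G) (hTI : ∀ g : G, (P : Subgroup G).map (MulAut.conj g).toMonoidHom ≠ (P : Subgroup G) → (P : Subgroup G) ⊓ (P : Subgroup G).map (MulAut.conj g).toMonoidHom = ⊥) (x y : G) (hx : x ∈ P) (hy : y ∈ P) (hc : ∃ g : G, g * x * g⁻¹ = y) : ∃ n ∈ Subgroup.normalizer (P : Set G), n * x * n⁻¹ = y := by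
  obtain ⟨g, hg⟩ := hc
  by_cases hx1 : x = 1
  · refine ⟨1, Subgroup.one_mem _, ?_⟩
    subst hx1
    simpa using hg
  by_cases hgP : (P : Subgroup G).map (MulAut.conj g).toMonoidHom = (P : Subgroup G)
  · refine ⟨g, ?_, hg⟩
    have hsub : ∀ h : G, h ∈ (P : Subgroup G) → g * h * g⁻¹ ∈ (P : Subgroup G) := by
      intro h hh
      have : (MulAut.conj g).toMonoidHom h ∈ (P : Subgroup G).map (MulAut.conj g).toMonoidHom :=
        Subgroup.mem_map_of_mem _ hh
      rw [hgP] at this
      simpa [MulAut.conj_apply] using this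
    refine Subgroup.mem_normalizer_iff.mpr fun h => ⟨hsub h, fun hh => ?_⟩
    have h1 : g * h * g⁻¹ ∈ (P : Subgroup G).map (MulAut.conj g).toMonoidHom := by
      rw [hgP]; exact hh
    obtain ⟨k, hk, hk'⟩ := Subgroup.mem_map.mp h1
    have h2 : g * k * g⁻¹ = g * h * g⁻¹ := by simpa [MulAut.conj_apply] using hk'
    have h3 : k = h := by
      have := mul_right_cancel h2
      exact mul_left_cancel this
    rw [← h3]; exact hk
  · exfalso
    have hbot := hTI g hgP
    have hyin : y ∈ (P : Subgroup G) ⊓ (P : Subgroup G).map (MulAut.conj g).toMonoidHom := by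
      refine ⟨hy, Subgroup.mem_map.mpr ⟨x, hx, ?_⟩⟩
      simpa [MulAut.conj_apply] using hg
    rw [hbot, Subgroup.mem_bot] at hyin
    apply hx1
    rw [hyin] at hg
    have : g * x = g := by
      have := congrArg (· * g) hg
      simpa using this
    exact mul_eq_left.mp this

end Cfsg.Agent.S0103
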