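import Mathlib
import Cfsg.Statements.S0104
set_option linter.all false

set_option autoImplicit false
open Cfsg
open scoped Pointwise

namespace Cfsg.Agent.S0104

/-- A subgroup Z of a Sylow p-subgroup P that is normalized by N_G(P) is weakly closed in P exactly when it is normal in every Sylow p-subgroup containing it. -/
theorem result {G : Type*} [Group G] [Finite G] {p : ℕ} [Fact p.Prime] (P : Sylow p G) (Z : Subgroup G) (hZP : Z ≤ (P : Subgroup G)) (hZN : Subgroup.normalizer (P : Set G) ≤ Subgroup.normalizer (Z : Set G)) : Cfsg.IsWeaklyClosed Z P ↔ ∀ R : Sylow p G, Z ≤ (R : Subgroup G) → (R : Subgroup G) ≤ Subgroup.normalizer (Z : Set G) := by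
  have hPN : (P : Subgroup G) ≤ Subgroup.normalizer (Z : Set G) :=
    le_trans (Subgroup.le_normalizer) hZN
  constructor
  · rintro ⟨-, hW⟩ R hZR
    obtain ⟨g, hg⟩ := MulAction.exists_smul_eq G P R
    subst hg
    -- R = g P g⁻¹
    have h1 : Z.map (MulAut.conj g⁻¹).toMonoidHom ≤ (P : Subgroup G) := by
      rintro _ ⟨z, hz, rfl⟩
      have := hZR hz
      rw [Sylow.coe_subgroup_smul, Subgroup.mem_pointwise_smul_iff_inv_smul_mem] at this
      simpa using this
    have h2 := hW g⁻¹ h1
    have hconj : ∀ z ∈ Z, g⁻¹ * z * g ∈ Z := by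
      intro z hz
      have : (MulAut.conj g⁻¹).toMonoidHom z ∈ Z.map (MulAut.conj g⁻¹).toMonoidHom :=
        Subgroup.mem_map_of_mem _ hz
      rw [h2] at this
      simpa [MulAut.conj_apply] using this
    have hconj' : ∀ z, g⁻¹ * z * g ∈ Z → z ∈ Z := by
      intro z hz
      rw [← h2] at hz
      obtain ⟨w, hw, hw'⟩ := Subgroup.mem_map.mp hz
      have : g⁻¹ * w * g = g⁻¹ * z * g := by simpa [MulAut.conj_apply] using hw'
      have := mul_right_cancel this
      rw [← mul_left_cancel this]; exact hw
    have hgN : g⁻¹ ∈ Subgroup.normalizer (Z : Set G) := by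
      refine Subgroup.mem_normalizer_iff.mpr fun z => ?_
      rw [inv_inv]
      exact ⟨hconj z, hconj' z⟩
    have hgN' : g ∈ Subgroup.normalizer (Z : Set G) := by
      simpa using Subgroup.inv_mem _ hgN
    intro r hr
    have hr' := hr
    rw [Sylow.coe_subgroup_smul, Subgroup.mem_pointwise_smul_iff_inv_smul_mem] at hr'
    have hr2 : g⁻¹ * r * g ∈ (P : Subgroup G) := by simpa using hr'
    have hr3 := hPN hr2
    have : g * (g⁻¹ * r * g) * g⁻¹ ∈ Subgroup.normalizer (Z : Set G) :=
      Subgroup.mul_mem _ (Subgroup.mul_mem _ hgN' hr3) hgN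
    simpa [mul_assoc] using this
  · intro hR
    refine ⟨hZP, fun g hg => ?_⟩
    -- R = g⁻¹ P g
    have hZR : Z ≤ ((g⁻¹ • P : Sylow p G) : Subgroup G) := by
      intro z hz
      rw [Sylow.coe_subgroup_smul, Subgroup.mem_pointwise_smul_iff_inv_smul_mem]
      have : (MulAut.conj g).toMonoidHom z ∈ (P : Subgroup G) := hg (Subgroup.mem_map_of_mem _ hz)
      simpa using this
    have hRN := hR (g⁻¹ • P) hZR
    -- both Sylow in N(Z)
    obtain ⟨n, hn⟩ := MulAction.exists_smul_eq (Subgroup.normalizer (Z : Set G))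
      (P.subtype hPN) ((g⁻¹ • P).subtype hRN)
    have hn' : (n : G) • P = g⁻¹ • P := by
      have h3 : ((n • P.subtype hPN : Sylow p (Subgroup.normalizer (Z : Set G))) :
            Subgroup (Subgroup.normalizer (Z : Set G))) =
          (((g⁻¹ • P).subtype hRN : Sylow p (Subgroup.normalizer (Z : Set G))) :
            Subgroup (Subgroup.normalizer (Z : Set G))) := by rw [hn]
      apply Sylow.ext
      ext w
      constructor
      · intro hw
        rw [Sylow.coe_subgroup_smul, Subgroup.mem_pointwise_smul_iff_inv_smul_mem] at hw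
        have hw2 : (n : G)⁻¹ * w * n ∈ (P : Subgroup G) := by simpa using hw
        have hwN : w ∈ Subgroup.normalizer (Z : Set G) := by
          have := Subgroup.mul_mem _ (Subgroup.mul_mem _ n.2 (hPN hw2)) (Subgroup.inv_mem _ n.2)
          simpa [mul_assoc] using this
        have hw3 : (⟨w, hwN⟩ : Subgroup.normalizer (Z : Set G)) ∈
            ((n • P.subtype hPN : Sylow p (Subgroup.normalizer (Z : Set G))) :
            Subgroup (Subgroup.normalizer (Z : Set G))) := by
          rw [Sylow.coe_subgroup_smul, Subgroup.mem_pointwise_smul_iff_inv_smul_mem]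
          simp only [Sylow.coe_subtype, Subgroup.mem_subgroupOf]
          simpa using hw2
        rw [h3] at hw3
        exact hw3
      · intro hw
        have hwN : w ∈ Subgroup.normalizer (Z : Set G) := hRN hw
        have hw3 : (⟨w, hwN⟩ : Subgroup.normalizer (Z : Set G)) ∈
            (((g⁻¹ • P).subtype hRN : Sylow p (Subgroup.normalizer (Z : Set G))) :
            Subgroup (Subgroup.normalizer (Z : Set G))) := hw
        rw [← h3, Sylow.coe_subgroup_smul, Subgroup.mem_pointwise_smul_iff_inv_smul_mem] at hw3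
        simp only [Sylow.coe_subtype, Subgroup.mem_subgroupOf] at hw3
        rw [Sylow.coe_subgroup_smul, Subgroup.mem_pointwise_smul_iff_inv_smul_mem]
        simpa using hw3
    have h4 : (g * (n : G)) • P = P := by
      rw [mul_smul, hn', smul_smul]; simp
    have h5 : g * (n : G) ∈ Subgroup.normalizer (P : Set G) := Sylow.smul_eq_iff_mem_normalizer.mp h4
    have h6 : g ∈ Subgroup.normalizer (Z : Set G) := by
      have := Subgroup.mul_mem _ (hZN h5) (Subgroup.inv_mem _ n.2)
      simpa [mul_assoc] using this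
    ext z
    rw [Subgroup.mem_map]
    constructor
    · rintro ⟨w, hw, rfl⟩
      have := (Subgroup.mem_normalizer_iff.mp h6 w).mp hw
      simpa [MulAut.conj_apply] using this
    · intro hz
      have hinv : g⁻¹ ∈ Subgroup.normalizer (Z : Set G) := Subgroup.inv_mem _ h6
      refine ⟨g⁻¹ * z * g, ?_, by simp [MulAut.conj_apply, mul_assoc]⟩
      have := (Subgroup.mem_normalizer_iff.mp hinv z).mp hz
      simpa using this

end Cfsg.Agent.S0104
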