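import Cfsg.Statements.S0114
import Cfsg.Agent.Transfer.MaximalClass
import Cfsg.Agent.Lib.Dihedral
set_option linter.all false

set_option autoImplicit false
open Cfsg

namespace Cfsg.Agent.S0114

open Subgroup in
/-- Central quotient of a `2`-group with centre of order 2 and a cyclic subgroup of index 2. -/
theorem aux {X : Type*} [Group X] [Finite X] (n : ℕ) (hn : 3 ≤ n) (hX : Nat.card X = 2 ^ n)
    (hZ : Nat.card (center X) = 2) (hQ : Nat.card (X ⧸ center X) = 2 ^ (n - 1))
    (C : Subgroup X) (hCc : IsCyclic C) (hCi : C.index = 2) :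
    Nonempty (X ⧸ Subgroup.center X ≃* DihedralGroup (2 ^ (n - 2))) := by
  have hCn : C.Normal := Subgroup.normal_of_index_eq_two hCi
  obtain ⟨a, rfl⟩ := (Subgroup.isCyclic_iff_exists_zpowers_eq_top C).1 hCc
  have h2n1 : 2 ^ (n - 1) = 2 * 2 ^ (n - 2) := by rw [← pow_succ']; congr 1; omega
  have h2n2 : 2 ^ (n - 2) = 2 * 2 ^ (n - 3) := by rw [← pow_succ']; congr 1; omega
  have h2n : 2 ^ n = 2 * 2 ^ (n - 1) := by rw [← pow_succ']; congr 1; omega
  have hpos3 : 0 < 2 ^ (n - 3) := by positivity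
  -- order of `a`
  have hao : orderOf a = 2 ^ (n - 1) := by
    have h1 := Subgroup.index_mul_card (zpowers a)
    rw [hCi, hX, Nat.card_zpowers] at h1
    omega
  have hcommC : ∀ x ∈ zpowers a, ∀ y ∈ zpowers a, x * y = y * x := by
    intro x hx y hy
    obtain ⟨i, rfl⟩ := hx
    obtain ⟨j, rfl⟩ := hy
    exact (Commute.refl a).zpow_zpow i j
  -- centre is in `C`
  have hZC : center X ≤ zpowers a := by
    intro z hz
    by_contra hzC
    have ha : a ∈ center X := by
      rw [mem_center_iff]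
      intro g
      by_cases hg : g ∈ zpowers a
      · exact hcommC g hg a (mem_zpowers a)
      · have hgz : g * z ∈ zpowers a :=
          (Subgroup.mul_mem_iff_of_index_two hCi).2 (by tauto)
        have h1 := hcommC _ hgz a (mem_zpowers a)
        have h2 := mem_center_iff.1 hz a
        have h3 := mem_center_iff.1 hz g
        rw [mul_assoc, ← h2, ← mul_assoc, ← mul_assoc] at h1
        exact mul_right_cancel h1
    have h4 : orderOf a ∣ 2 := by
      have := orderOf_dvd_natCard (⟨a, ha⟩ : center X)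
      rw [hZ] at this
      rwa [Subgroup.orderOf_mk] at this
    rw [hao] at h4
    have := Nat.le_of_dvd (by norm_num) h4
    omega
  -- a complementing element
  obtain ⟨b, hb⟩ : ∃ b, b ∉ zpowers a := by
    by_contra hall
    push Not at hall
    have : zpowers a = ⊤ := (eq_top_iff' _).2 hall
    rw [this, index_top] at hCi
    omega
  -- criterion for being central
  have hcrit : ∀ x ∈ zpowers a, b * x = x * b → x ∈ center X := by
    intro x hx hbx
    rw [mem_center_iff]
    intro g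
    by_cases hg : g ∈ zpowers a
    · exact hcommC g hg x hx
    · have hgb : g * b ∈ zpowers a :=
        (Subgroup.mul_mem_iff_of_index_two hCi).2 (by tauto)
      have h1 := hcommC _ hgb x hx
      rw [mul_assoc, hbx, ← mul_assoc, ← mul_assoc] at h1
      exact mul_right_cancel h1
  -- the quotient
  set π := QuotientGroup.mk' (center X) with hπ
  have hker : π.ker = center X := QuotientGroup.ker_mk' _
  have hmem : ∀ x, π x = 1 ↔ x ∈ center X := fun x => by rw [← MonoidHom.mem_ker, hker]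
  have hπs : Function.Surjective π := QuotientGroup.mk'_surjective _
  have hmap : (zpowers a).map π = zpowers (π a) := MonoidHom.map_zpowers _ _
  have hri : (zpowers (π a)).index = 2 := by
    rw [← hmap, Subgroup.index_map, hker, sup_eq_left.2 hZC, hCi,
      MonoidHom.range_eq_top.2 hπs, index_top]
  have hro : orderOf (π a) = 2 ^ (n - 2) := by
    have h1 := Subgroup.index_mul_card (zpowers (π a))
    rw [hri, hQ, Nat.card_zpowers] at h1
    omega
  have hs' : π b ∉ zpowers (π a) := by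
    rw [← hmap]
    intro h
    have h1 : b ∈ ((zpowers a).map π).comap π := h
    rw [Subgroup.comap_map_eq, hker, sup_eq_left.2 hZC] at h1
    exact hb h1
  -- `b ^ 2` is central
  have hb2C : b * b ∈ zpowers a := Subgroup.mul_self_mem_of_index_two hCi b
  have hb2 : b * b ∈ center X := hcrit _ hb2C (by rw [mul_assoc])
  have hs : π b * π b = 1 := by rw [← map_mul]; exact (hmem _).2 hb2
  -- `b a b⁻¹ = a ^ k`
  obtain ⟨k, hk⟩ : ∃ k : ℤ, a ^ k = b * a * b⁻¹ := hCn.conj_mem a (mem_zpowers a) b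
  have hkj : ∀ j : ℤ, b * a ^ j * b⁻¹ = a ^ (k * j) := by
    intro j
    rw [zpow_mul, hk, conj_zpow]
  -- `k` is odd
  have hord : ∀ j : ℤ, a ^ j = 1 ↔ ((2 ^ (n - 1) : ℕ) : ℤ) ∣ j := fun j => by
    rw [← hao, orderOf_dvd_iff_zpow_eq_one]
  have hcen : ∀ j : ℤ, a ^ j ∈ center X ↔ ((2 ^ (n - 2) : ℕ) : ℤ) ∣ j := fun j => by
    rw [← hmem, map_zpow, ← hro, orderOf_dvd_iff_zpow_eq_one]
  have hkk : a ^ (k * k - 1) = 1 := by
    have h1 : (b * b) * a * (b * b)⁻¹ = a := by
      rw [← hcommC _ (mem_zpowers a) _ hb2C, mul_assoc, mul_inv_cancel, mul_one]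
    have h2 : (b * b) * a * (b * b)⁻¹ = b * (b * a * b⁻¹) * b⁻¹ := by group
    rw [h2, ← hk, hkj] at h1
    rw [zpow_sub, h1, zpow_one, mul_inv_cancel]
  have hkodd : Odd k := by
    rw [hord] at hkk
    have h1 : (2 : ℤ) ∣ k * k - 1 := by
      refine dvd_trans ?_ hkk
      rw [h2n1]; push_cast; exact dvd_mul_right _ _
    rcases Int.even_or_odd k with ⟨l, hl⟩ | h
    · exfalso
      obtain ⟨m, hm⟩ := h1
      have : l * k * 2 - m * 2 = 1 := by
        have h3 : k * k = l * k * 2 := by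
          nth_rewrite 1 [hl]; ring
        rw [← h3]; linarith
      omega
    · exact h
  obtain ⟨m, hm⟩ := hkodd
  have hmodd : Odd m := by
    rcases Int.even_or_odd m with ⟨l, hl⟩ | h
    · exfalso
      -- `a ^ (2 ^ (n-3))` is central
      have h1 : a ^ ((2 ^ (n - 3) : ℕ) : ℤ) ∈ center X := by
        apply hcrit _ (zpow_mem (mem_zpowers a) _)
        have h2 := hkj ((2 ^ (n - 3) : ℕ) : ℤ)
        have h3 : a ^ (k * ((2 ^ (n - 3) : ℕ) : ℤ)) = a ^ ((2 ^ (n - 3) : ℕ) : ℤ) := by
          have h4 : k * ((2 ^ (n - 3) : ℕ) : ℤ)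
              = ((2 ^ (n - 1) : ℕ) : ℤ) * l + ((2 ^ (n - 3) : ℕ) : ℤ) := by
            rw [h2n1, h2n2, hm, hl]; push_cast; ring
          have h5 : a ^ (((2 ^ (n - 1) : ℕ) : ℤ) * l) = 1 := (hord _).2 (dvd_mul_right _ _)
          rw [h4, zpow_add, h5, one_mul]
        rw [h3] at h2
        exact mul_inv_eq_iff_eq_mul.1 h2
      rw [hcen] at h1
      have h6 := Int.natCast_dvd_natCast.1 h1
      have := Nat.le_of_dvd hpos3 h6
      omega
    · exact h
  have hk1 : ((2 ^ (n - 2) : ℕ) : ℤ) ∣ k + 1 := by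
    rw [hord] at hkk
    have h1 : k * k - 1 = 2 * (m * (k + 1)) := by rw [hm]; ring
    rw [h1, h2n1] at hkk
    have h2 : ((2 ^ (n - 2) : ℕ) : ℤ) ∣ m * (k + 1) := by
      obtain ⟨t, ht⟩ := hkk
      refine ⟨t, ?_⟩
      push_cast at ht ⊢
      linarith
    refine IsCoprime.dvd_of_dvd_mul_left ?_ h2
    push_cast
    refine IsCoprime.pow_left ?_
    obtain ⟨t, ht⟩ := hmodd
    exact ⟨-t, 1, by rw [ht]; ring⟩
  have hconj : π b * π a * π b = (π a)⁻¹ := by
    have h1 : (π b)⁻¹ = π b := inv_eq_of_mul_eq_one_right hs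
    have h2 : π (b * a * b⁻¹ * a) = 1 := by
      rw [← hk, hmem, ← zpow_add_one, hcen]; exact hk1
    rw [map_mul, map_mul, map_mul, map_inv, h1] at h2
    exact eq_inv_of_mul_eq_one_left h2
  refine Cfsg.Agent.Lib.Dihedral.nonempty_mulEquiv (by positivity) (π a) (π b) hro hs hconj hs' ?_
  rw [hQ, h2n1]

/-- The central quotient of a 2-group of maximal class is dihedral. -/
theorem result {X : Type*} [Group X] [Finite X] (n : ℕ) (hn : 3 ≤ n) (hX : Nat.card X = 2 ^ n) (hc : Group.nilpotencyClass X = n - 1) : Nonempty (X ⧸ Subgroup.center X ≃* DihedralGroup (2 ^ (n - 2))) := by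
  have hZ : Nat.card (Subgroup.center X) = 2 :=
    Cfsg.Agent.Transfer.MaximalClass.card_center_of_maxClass hn hX hc
  have hQ : Nat.card (X ⧸ Subgroup.center X) = 2 ^ (n - 1) :=
    Cfsg.Agent.Transfer.MaximalClass.card_quotient_center_of_maxClass hn hX hc
  obtain ⟨C, hCc, hCi⟩ :=
    Cfsg.Agent.Transfer.MaximalClass.exists_isCyclic_index_two_of_maxClass n hn X hX hc
  exact aux n hn hX hZ hQ C hCc hCi

end Cfsg.Agent.S0114
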