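import Cfsg.Statements.S0125
import Mathlib
set_option linter.all false

set_option autoImplicit false
open Cfsg

namespace Cfsg.Agent.S0125

/-- Elements of a `p`-subgroup `Q` of `C_G(A)` lie in `A`, when `A ⊴ R`, `R` Sylow and
`R ∩ C_G(A) = A`. -/
theorem mem_of_pSubgroup {G : Type*} [Group G] [Finite G] {p : ℕ} [Fact p.Prime] (R : Sylow p G)
    (A : Subgroup G)
    (hAn : (R : Subgroup G) ≤ Subgroup.normalizer (A : Set G))
    (hC : (R : Subgroup G) ⊓ Subgroup.centralizer (A : Set G) = A)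
    (Q : Subgroup G) (hQ : IsPGroup p Q) (hQC : Q ≤ Subgroup.centralizer (A : Set G)) : Q ≤ A := by
  have hCN : Subgroup.centralizer (A : Set G) ≤ Subgroup.normalizer (A : Set G) :=
    Subgroup.centralizer_le_normalizer _
  have hQN : Q ≤ Subgroup.normalizer (A : Set G) := hQC.trans hCN
  have hQ1 : IsPGroup p (Q.subgroupOf (Subgroup.normalizer (A : Set G))) := hQ.comap_subtype
  obtain ⟨Q', hQ'⟩ := hQ1.exists_le_sylow
  obtain ⟨n, hn⟩ := MulAction.exists_smul_eq (Subgroup.normalizer (A : Set G)) Q' (R.subtype hAn)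
  intro x hx
  have hxQ' : (⟨x, hQN hx⟩ : Subgroup.normalizer (A : Set G)) ∈ Q' := hQ' (by
    rw [Subgroup.mem_subgroupOf]; exact hx)
  have h1 : n * ⟨x, hQN hx⟩ * n⁻¹ ∈ R.subtype hAn := by
    rw [← hn]
    exact ⟨_, hxQ', rfl⟩
  have h2 : (n : G) * x * (n : G)⁻¹ ∈ (R : Subgroup G) := h1
  have hn2 := n.2
  rw [Subgroup.mem_normalizer_iff] at hn2
  have h3 : (n : G) * x * (n : G)⁻¹ ∈ Subgroup.centralizer (A : Set G) := by
    rw [Subgroup.mem_centralizer_iff]
    intro a ha
    have h4 : (n : G)⁻¹ * a * (n : G) ∈ A := by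
      rw [hn2]
      simpa [mul_assoc] using ha
    have h5 := (Subgroup.mem_centralizer_iff.mp (hQC hx)) _ h4
    calc a * ((n : G) * x * (n : G)⁻¹) = (n : G) * (((n : G)⁻¹ * a * (n : G)) * x) * (n : G)⁻¹ := by
          group
      _ = (n : G) * (x * ((n : G)⁻¹ * a * (n : G))) * (n : G)⁻¹ := by rw [h5]
      _ = (n : G) * x * (n : G)⁻¹ * a := by group
  have h6 : (n : G) * x * (n : G)⁻¹ ∈ A := hC.le (Subgroup.mem_inf.mpr ⟨h2, h3⟩)
  exact (hn2 x).mpr h6

/-- The centralizer of a self-centralizing normal subgroup A of a Sylow p-subgroup is the direct product of A with a normal p'-subgroup. -/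
theorem result {G : Type*} [Group G] [Finite G] {p : ℕ} [Fact p.Prime] (R : Sylow p G) (A : Subgroup G) (hAR : A ≤ (R : Subgroup G)) (hAn : (R : Subgroup G) ≤ Subgroup.normalizer (A : Set G)) (hC : (R : Subgroup G) ⊓ Subgroup.centralizer (A : Set G) = A) : ∃ H : Subgroup G, H ≤ Subgroup.centralizer (A : Set G) ∧ Nat.Coprime (Nat.card H) p ∧ Subgroup.centralizer (A : Set G) ≤ Subgroup.normalizer (H : Set G) ∧ H ⊓ A = ⊥ ∧ H ⊔ A = Subgroup.centralizer (A : Set G) := by
  have hAC : A ≤ Subgroup.centralizer (A : Set G) := by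
    conv_lhs => rw [← hC]
    exact inf_le_right
  set C := Subgroup.centralizer (A : Set G) with hCdef
  have hAp : IsPGroup p A := R.isPGroup'.to_le hAR
  let P : Sylow p C :=
    { A.subgroupOf C with
      isPGroup' := hAp.comap_subtype
      is_maximal' := by
        intro Q hQ hPQ
        apply le_antisymm _ hPQ
        have h1 : Q.map C.subtype ≤ A := mem_of_pSubgroup R A hAn hC _ (hQ.map _)
          (Subgroup.map_subtype_le Q)
        intro x hx
        exact Subgroup.mem_subgroupOf.mpr (h1 ⟨x, hx, rfl⟩) }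
  have hP : (P : Subgroup C) = A.subgroupOf C := rfl
  have hN : Subgroup.normalizer (P : Set C) ≤ Subgroup.centralizer (P : Set C) := by
    intro x _
    rw [Subgroup.mem_centralizer_iff]
    intro y hy
    have hy' : (y : G) ∈ A := hy
    exact Subtype.ext (Subgroup.mem_centralizer_iff.mp x.2 _ hy')
  have hcomp := MonoidHom.ker_transferSylow_isComplement' P hN
  have hnd := MonoidHom.not_dvd_card_ker_transferSylow P hN
  obtain ⟨K, hKn, hcomp, hnd⟩ : ∃ K : Subgroup C, K.Normal ∧ K.IsComplement' (P : Subgroup C) ∧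
      ¬ p ∣ Nat.card K := ⟨_, MonoidHom.normal_ker _, hcomp, hnd⟩
  refine ⟨K.map C.subtype, Subgroup.map_subtype_le K, ?_, ?_, ?_, ?_⟩
  · rw [Subgroup.card_map_of_injective C.subtype_injective]
    exact (((Fact.out : p.Prime).coprime_iff_not_dvd).mpr hnd).symm
  · intro c hc
    rw [Subgroup.mem_normalizer_iff]
    intro h
    constructor
    · rintro ⟨k, hk, rfl⟩
      exact ⟨⟨c, hc⟩ * k * ⟨c, hc⟩⁻¹, hKn.conj_mem k hk ⟨c, hc⟩, rfl⟩
    · rintro ⟨k, hk, hk2⟩
      have h2 : (k : G) = c * h * c⁻¹ := hk2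
      have h3 : (⟨c, hc⟩ : C)⁻¹ * k * (⟨c, hc⟩ : C) ∈ K := by
        have h4 := hKn.conj_mem k hk ((⟨c, hc⟩ : C)⁻¹)
        rw [inv_inv] at h4
        exact h4
      refine ⟨(⟨c, hc⟩ : C)⁻¹ * k * (⟨c, hc⟩ : C), h3, ?_⟩
      show c⁻¹ * (k : G) * c = h
      rw [h2]; group
  · have h1 := hcomp.disjoint
    rw [hP, Subgroup.disjoint_def] at h1
    rw [eq_bot_iff]
    rintro x ⟨⟨k, hk, rfl⟩, hx⟩
    have := h1 hk hx
    rw [this]; simp
  · have h1 := hcomp.sup_eq_top
    rw [hP] at h1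
    have h2 : (A.subgroupOf C).map C.subtype = A := by
      rw [Subgroup.subgroupOf_map_subtype]; exact inf_eq_left.mpr hAC
    calc K.map C.subtype ⊔ A = K.map C.subtype ⊔ (A.subgroupOf C).map C.subtype := by rw [h2]
      _ = (K ⊔ A.subgroupOf C).map C.subtype := (Subgroup.map_sup _ _ _).symm
      _ = (⊤ : Subgroup C).map C.subtype := by rw [h1]
      _ = C := by rw [← MonoidHom.range_eq_map, Subgroup.range_subtype]

end Cfsg.Agent.S0125
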