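import Cfsg.Statements.S0131
import Mathlib
set_option linter.all false

set_option autoImplicit false
open Cfsg
open scoped commutatorElement

namespace Cfsg.Agent.S0131

/-- In any finite group there is a normal subgroup `N` with `N ⊔ P = ⊤`, `N ⊓ P = G' ⊓ P`, for a Sylow
subgroup `P`. -/
theorem exists_normal_inf_eq {G : Type*} [Group G] [Finite G] {p : ℕ} [Fact p.Prime] (P : Sylow p G) :
    ∃ N : Subgroup G, N.Normal ∧ N ⊓ (P : Subgroup G) = commutator G ⊓ (P : Subgroup G) ∧
      N ⊔ (P : Subgroup G) = ⊤ := by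
  classical
  let π : G →* Abelianization G := Abelianization.of
  have hπ : Function.Surjective π := QuotientGroup.mk_surjective
  have hker : π.ker = commutator G := Abelianization.ker_of G
  have : Finite (Abelianization G) := Finite.of_surjective π hπ
  let S : Sylow p (Abelianization G) := P.mapSurjective hπ
  have hS : (S : Subgroup (Abelianization G)) = (P : Subgroup G).map π := rfl
  have hSn : (S : Subgroup (Abelianization G)).Normal := inferInstance
  obtain ⟨K, hK⟩ := Subgroup.exists_right_complement'_of_coprime (N := (S : Subgroup (Abelianization G)))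
    S.card_coprime_index
  refine ⟨K.comap π, inferInstance, ?_, ?_⟩
  · apply le_antisymm
    · rintro x ⟨hxK, hxP⟩
      refine ⟨?_, hxP⟩
      have h1 : π x ∈ (S : Subgroup (Abelianization G)) ⊓ K := by
        refine ⟨?_, hxK⟩
        rw [hS]; exact Subgroup.mem_map_of_mem π hxP
      rw [hK.disjoint.eq_bot] at h1
      change x ∈ commutator G
      rw [← hker]; exact h1
    · apply inf_le_inf_right
      rw [← hker]
      intro x hx
      change π x ∈ K
      rw [MonoidHom.mem_ker.mp hx]; exact K.one_mem
  · rw [eq_top_iff]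
    intro x _
    have h1 : π x ∈ (S : Subgroup (Abelianization G)) ⊔ K := by
      rw [hK.sup_eq_top]; trivial
    obtain ⟨s, hs, k, hk, hsk⟩ := Subgroup.mem_sup.mp h1
    rw [hS] at hs
    obtain ⟨y, hyP, rfl⟩ := hs
    have h2 : y⁻¹ * x ∈ K.comap π := by
      change π (y⁻¹ * x) ∈ K
      have : π (y⁻¹ * x) = k := by
        rw [map_mul, map_inv, ← hsk]; group
      rw [this]; exact hk
    have h3 : x = y * (y⁻¹ * x) := by group
    rw [h3]
    exact mul_mem (Subgroup.mem_sup_right hyP) (Subgroup.mem_sup_left h2)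

/-- P/P' has a normal complement in G exactly when the focal subgroup G' ∩ P is as small as possible, namely P'. -/
theorem result {G : Type*} [Group G] [Finite G] {p : ℕ} [Fact p.Prime] (P : Sylow p G) : (∃ N : Subgroup G, N.Normal ∧ N ⊓ (P : Subgroup G) = ⁅(P : Subgroup G), (P : Subgroup G)⁆ ∧ N ⊔ (P : Subgroup G) = ⊤) ↔ commutator G ⊓ (P : Subgroup G) = ⁅(P : Subgroup G), (P : Subgroup G)⁆ := by
  constructor
  · rintro ⟨N, hN, h1, h2⟩
    apply le_antisymm
    · rw [← h1]
      apply inf_le_inf_right
      have hPP : ⁅(P : Subgroup G), (P : Subgroup G)⁆ ≤ N := by rw [← h1]; exact inf_le_left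
      have key : ∀ g : G, ∃ y ∈ (P : Subgroup G), (g : G ⧸ N) = (y : G ⧸ N) := by
        intro g
        have hg : g ∈ N ⊔ (P : Subgroup G) := by rw [h2]; trivial
        rw [sup_comm] at hg
        obtain ⟨y, hy, n, hn, rfl⟩ := Subgroup.mem_sup_of_normal_right.mp hg
        refine ⟨y, hy, ?_⟩
        rw [QuotientGroup.mk_mul, (QuotientGroup.eq_one_iff n).mpr hn, mul_one]
      rw [commutator_def, Subgroup.commutator_le]
      intro g₁ _ g₂ _
      obtain ⟨y₁, hy₁, e₁⟩ := key g₁
      obtain ⟨y₂, hy₂, e₂⟩ := key g₂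
      rw [← QuotientGroup.eq_one_iff]
      have h3 : ((⁅g₁, g₂⁆ : G) : G ⧸ N) = ((⁅y₁, y₂⁆ : G) : G ⧸ N) := by
        simp only [commutatorElement_def, QuotientGroup.mk_mul, QuotientGroup.mk_inv, e₁, e₂]
      rw [h3, QuotientGroup.eq_one_iff]
      exact hPP (Subgroup.commutator_mem_commutator hy₁ hy₂)
    · refine le_inf ?_ ?_
      · rw [commutator_def]
        exact Subgroup.commutator_mono le_top le_top
      · rw [Subgroup.commutator_le]
        intro a ha b hb
        rw [commutatorElement_def]
        exact mul_mem (mul_mem (mul_mem ha hb) (inv_mem ha)) (inv_mem hb)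
  · intro h
    obtain ⟨N, hN, h1, h2⟩ := exists_normal_inf_eq P
    exact ⟨N, hN, h1.trans h, h2⟩

end Cfsg.Agent.S0131
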