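import Cfsg.Statements.S0149
import Mathlib
set_option linter.all false

set_option autoImplicit false
open Cfsg

namespace Cfsg.Agent.S0149

/-- Let T be a subset of G meeting each of its conjugates by elements outside its normalizer N only in the identity, and let ψ be a class function of N vanishing on N away from T. Then the function induced from ψ agrees with ψ at every non-identity element of T. -/
theorem result {G : Type*} [Group G] [Fintype G] (T : Set G) (hTI : ∀ g : G, g ∉ Subgroup.normalizer T → ∀ t ∈ T, g * t * g⁻¹ ∈ T → t = 1) (hTN : T ⊆ Subgroup.normalizer T) (ψ : Subgroup.normalizer T → ℂ) (hψ : Cfsg.IsClassFunction (Subgroup.normalizer T) ψ) (hψT : ∀ x : Subgroup.normalizer T, (x : G) ∉ T → ψ x = 0) (t : Subgroup.normalizer T) (htT : (t : G) ∈ T) (ht1 : t ≠ 1) : Cfsg.indFun (Subgroup.normalizer T) ψ t = ψ t := by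
  classical
  have hext : ∀ y : Subgroup.normalizer T,
      Cfsg.extendByZero (Subgroup.normalizer T) ψ (y : G) = ψ y := fun y =>
    (Subtype.val_injective (p := fun y => y ∈ Subgroup.normalizer T)).extend_apply ψ 0 y
  have hext0 : ∀ y : G, y ∉ Subgroup.normalizer T →
      Cfsg.extendByZero (Subgroup.normalizer T) ψ y = 0 := by
    intro y hy
    change Function.extend (Subtype.val : Subgroup.normalizer T → G) ψ 0 y = 0
    rw [Function.extend_apply']
    · rfl
    · rintro ⟨a, rfl⟩
      exact hy a.2
  have hin : ∀ x ∈ Subgroup.normalizer T,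
      Cfsg.extendByZero (Subgroup.normalizer T) ψ (x⁻¹ * t * x) = ψ t := by
    intro x hx
    have h1 := hext (⟨x, hx⟩⁻¹ * t * ⟨x, hx⟩)
    have h2 := hψ t ⟨x, hx⟩⁻¹
    rw [inv_inv] at h2
    rw [h2] at h1
    exact h1
  have hout : ∀ x, x ∉ Subgroup.normalizer T →
      Cfsg.extendByZero (Subgroup.normalizer T) ψ (x⁻¹ * t * x) = 0 := by
    intro x hx
    by_cases hN : x⁻¹ * t * x ∈ Subgroup.normalizer T
    · rw [hext ⟨_, hN⟩]
      apply hψT
      intro hT
      apply ht1
      apply Subtype.ext
      have := hTI x⁻¹ (fun h => hx (by simpa using (Subgroup.normalizer T).inv_mem h)) t htT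
        (by simpa using hT)
      exact this
    · exact hext0 _ hN
  change (Nat.card (Subgroup.normalizer T) : ℂ)⁻¹ * ∑ x : G,
    Cfsg.extendByZero (Subgroup.normalizer T) ψ (x⁻¹ * t * x) = ψ t
  have hsum : ∑ x : G, Cfsg.extendByZero (Subgroup.normalizer T) ψ (x⁻¹ * t * x)
      = ∑ x : G, if x ∈ Subgroup.normalizer T then ψ t else 0 := by
    apply Finset.sum_congr rfl
    intro x _
    by_cases hx : x ∈ Subgroup.normalizer T
    · rw [if_pos hx, hin x hx]
    · rw [if_neg hx, hout x hx]
  rw [hsum, ← Finset.sum_filter, Finset.sum_const, nsmul_eq_mul]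
  have hcard : (Finset.univ.filter (fun x : G => x ∈ Subgroup.normalizer T)).card
      = Nat.card (Subgroup.normalizer T) := by
    rw [Nat.card_eq_fintype_card, Fintype.card_subtype]
  rw [hcard, ← mul_assoc, inv_mul_cancel₀
    (by exact_mod_cast (Nat.card_pos (α := Subgroup.normalizer T)).ne'), one_mul]

end Cfsg.Agent.S0149
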