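import Cfsg.Statements.S0151
import Mathlib
set_option linter.all false

set_option autoImplicit false
open Cfsg

namespace Cfsg.Agent.S0151

/-- The irreducible complex characters of a finite group are linearly independent over ℂ as functions on the group. -/
theorem result {G : Type*} [Group G] [Finite G] : LinearIndependent ℂ (fun χ : Cfsg.IrrCharacter G => (χ : G → ℂ)) := by
  classical
  haveI : Fintype G := Fintype.ofFinite G
  have hcard : (Nat.card G : ℂ) ≠ 0 := by
    exact_mod_cast Nat.card_pos.ne'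
  haveI : Invertible (Nat.card G : ℂ) := invertibleOfNonzero hcard
  -- orthogonality with respect to the bilinear form `∑ g, χ g * ψ g⁻¹`
  have horth : ∀ χ ψ : Cfsg.IrrCharacter G,
      (Nat.card G : ℂ)⁻¹ * ∑ g : G, (χ : G → ℂ) g * (ψ : G → ℂ) g⁻¹ = if χ = ψ then 1 else 0 := by
    rintro ⟨χ, n, ρ, hρ, hχ⟩ ⟨ψ, m, σ, hσ, hψ⟩
    haveI := hρ
    haveI := hσ
    have h := Representation.char_orthonormal ρ σ
    subst hχ
    subst hψ
    show (Nat.card G : ℂ)⁻¹ * ∑ g : G, ρ.character g * σ.character g⁻¹ = _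
    rw [h]
    by_cases hne : Nonempty (Representation.Equiv σ ρ)
    · obtain ⟨e⟩ := hne
      have : σ.character = ρ.character := Representation.char_iso e
      rw [if_pos ⟨e⟩, if_pos (Subtype.ext this.symm)]
    · rw [if_neg hne, if_neg]
      intro heq
      have heq' : ρ.character = σ.character := congrArg Subtype.val heq
      have h1 := Representation.char_orthonormal ρ ρ
      rw [if_pos ⟨Representation.Equiv.refl ρ⟩] at h1
      rw [if_neg hne, ← heq', h1] at h
      exact one_ne_zero h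
  rw [linearIndependent_iff']
  intro s g hg χ hχ
  have h1 : ∑ ψ ∈ s, g ψ * ((Nat.card G : ℂ)⁻¹ * ∑ x : G, (ψ : G → ℂ) x * (χ : G → ℂ) x⁻¹) = 0 := by
    have : ∑ ψ ∈ s, g ψ * ((Nat.card G : ℂ)⁻¹ * ∑ x : G, (ψ : G → ℂ) x * (χ : G → ℂ) x⁻¹)
        = (Nat.card G : ℂ)⁻¹ * ∑ x : G, (∑ ψ ∈ s, g ψ • (ψ : G → ℂ)) x * (χ : G → ℂ) x⁻¹ := by
      simp only [Finset.sum_apply, Pi.smul_apply, smul_eq_mul, Finset.sum_mul, Finset.mul_sum]
      rw [Finset.sum_comm]
      refine Finset.sum_congr rfl fun x _ => Finset.sum_congr rfl fun ψ _ => ?_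
      ring
    rw [this, hg]
    simp
  simp only [horth] at h1
  simpa [Finset.sum_ite_eq', hχ] using h1

end Cfsg.Agent.S0151
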