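import Cfsg.Agent.Characters.Core
import Cfsg.Statements.S0166
import Cfsg.Agent.S0163
set_option linter.all false

-- part: Characters/SplittingField
section
/-!
# Characters afforded by representations over a field `K` with an algebra structure on `ℂ`

`IsCharOver K G χ` : the complex-valued function `χ` is the character of a representation over `K`.
Main results: closure under addition, base change, induced linear characters, and the key lemma:
a genuine complex character which is a difference of two `K`-characters is a `K`-character.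
-/

set_option autoImplicit false

open scoped ComplexConjugate
open Cfsg Representation Module

namespace Cfsg.Agent.Characters.SplittingField

open Cfsg.Agent.Characters.Core

universe u v

/-- `χ` is afforded by a representation over the field `K`. -/
def IsCharOver (K : Type v) [Field K] [Algebra K ℂ] (G : Type u) [Group G] (χ : G → ℂ) : Prop :=
  ∃ (n : ℕ) (ρ : Representation K G (Fin n → K)), ∀ g, χ g = algebraMap K ℂ (ρ.character g)

section general

variable {K : Type v} [Field K] {G : Type u} [Group G]
variable {V : Type*} [AddCommGroup V] [Module K V]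
variable {W : Type*} [AddCommGroup W] [Module K W]

/-- Transport of a representation along a linear equivalence. -/
noncomputable def transport (e : V ≃ₗ[K] W) (ρ : Representation K G V) : Representation K G W where
  toFun g := e.conj (ρ g)
  map_one' := by
    rw [map_one]
    ext x
    simp
  map_mul' g h := by
    rw [map_mul]
    ext x
    simp

theorem transport_apply (e : V ≃ₗ[K] W) (ρ : Representation K G V) (g : G) :
    transport e ρ g = e.conj (ρ g) := rfl

theorem transport_character (e : V ≃ₗ[K] W) (ρ : Representation K G V) :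
    (transport e ρ).character = ρ.character := by
  funext g
  rw [Representation.character, Representation.character, transport_apply, LinearMap.trace_conj']

/-- Every finite-dimensional representation has the same character as one on coordinates. -/
theorem exists_coord [FiniteDimensional K V] (ρ : Representation K G V) :
    ∃ σ : Representation K G (Fin (finrank K V) → K), σ.character = ρ.character :=
  ⟨transport (Module.finBasis K V).equivFun ρ, transport_character _ _⟩

theorem isCompl_toSubmodule {ρ : Representation K G V} {A B : Subrepresentation ρ}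
    (h : IsCompl A B) : IsCompl A.toSubmodule B.toSubmodule := by
  constructor
  · rw [disjoint_iff]
    exact congrArg Subrepresentation.toSubmodule (disjoint_iff.mp h.disjoint)
  · rw [codisjoint_iff]
    exact congrArg Subrepresentation.toSubmodule (codisjoint_iff.mp h.codisjoint)

/-- Additivity of the character on complementary subrepresentations. -/
theorem character_add_of_isCompl [FiniteDimensional K V] (ρ : Representation K G V)
    {A B : Subrepresentation ρ} (h : IsCompl A B) (g : G) :
    ρ.character g = A.toRepresentation.character g + B.toRepresentation.character g := by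
  have h' : IsCompl A.toSubmodule B.toSubmodule := isCompl_toSubmodule h
  have key : ρ g = (Submodule.prodEquivOfIsCompl _ _ h').conj
      (LinearMap.prodMap (A.toRepresentation g) (B.toRepresentation g)) := by
    ext x
    obtain ⟨y, rfl⟩ := (Submodule.prodEquivOfIsCompl _ _ h').surjective x
    rw [LinearEquiv.conj_apply_apply, LinearEquiv.symm_apply_apply]
    obtain ⟨a, b⟩ := y
    simp only [Submodule.coe_prodEquivOfIsCompl', map_add, LinearMap.prodMap_apply]
    rfl
  rw [Representation.character, key, LinearMap.trace_conj', LinearMap.trace_prodMap']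
  rfl

theorem character_of_equiv [FiniteDimensional K V] [FiniteDimensional K W]
    {ρ : Representation K G V} {σ : Representation K G W} (φ : Equiv ρ σ) :
    ρ.character = σ.character := char_iso φ

end general

section complex

variable {K : Type v} [Field K] [Algebra K ℂ] {G : Type u} [Group G]

theorem isCharOver_of_rep {V : Type*} [AddCommGroup V] [Module K V] [FiniteDimensional K V]
    (ρ : Representation K G V) {χ : G → ℂ} (h : ∀ g, χ g = algebraMap K ℂ (ρ.character g)) :
    IsCharOver K G χ := by
  obtain ⟨σ, hσ⟩ := exists_coord ρ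
  exact ⟨_, σ, fun g => by rw [h g, hσ]⟩

theorem isCharOver_zero : IsCharOver K G (0 : G → ℂ) := by
  refine ⟨0, 1, fun g => ?_⟩
  simp [Representation.character]

theorem isCharOver_add {χ ψ : G → ℂ} (hχ : IsCharOver K G χ) (hψ : IsCharOver K G ψ) :
    IsCharOver K G (χ + ψ) := by
  obtain ⟨n, ρ, hρ⟩ := hχ
  obtain ⟨m, σ, hσ⟩ := hψ
  refine isCharOver_of_rep (ρ.prod σ) fun g => ?_
  have : (ρ.prod σ).character g = ρ.character g + σ.character g := by
    rw [Representation.character, Representation.character, Representation.character,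
      ← LinearMap.trace_prodMap']
    rfl
  rw [this, map_add, Pi.add_apply, hρ, hσ]

theorem isCharOver_nsmul {χ : G → ℂ} (n : ℕ) (hχ : IsCharOver K G χ) :
    IsCharOver K G (n • χ) := by
  induction n with
  | zero => rw [zero_nsmul]; exact isCharOver_zero
  | succ n ih => rw [succ_nsmul]; exact isCharOver_add ih hχ

/-- The matrix of the base change to `ℂ`. -/
noncomputable def baseChange {n : ℕ} (ρ : Representation K G (Fin n → K)) :
    Representation ℂ G (Fin n → ℂ) where
  toFun g := Matrix.toLin' ((LinearMap.toMatrix' (ρ g)).map (algebraMap K ℂ))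
  map_one' := by
    rw [map_one, LinearMap.toMatrix'_one, Matrix.map_one _ (map_zero _) (map_one _),
      Matrix.toLin'_one]
    rfl
  map_mul' g h := by
    rw [map_mul, LinearMap.toMatrix'_mul, Matrix.map_mul, Matrix.toLin'_mul]
    rfl

theorem baseChange_toMatrix {n : ℕ} (ρ : Representation K G (Fin n → K)) (g : G) :
    LinearMap.toMatrix' (baseChange ρ g) = (LinearMap.toMatrix' (ρ g)).map (algebraMap K ℂ) :=
  LinearMap.toMatrix'_toLin' _

theorem baseChange_character {n : ℕ} (ρ : Representation K G (Fin n → K)) (g : G) :
    (baseChange ρ).character g = algebraMap K ℂ (ρ.character g) := by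
  rw [Representation.character, Representation.character,
    LinearMap.trace_eq_matrix_trace ℂ (Pi.basisFun ℂ (Fin n)),
    LinearMap.trace_eq_matrix_trace K (Pi.basisFun K (Fin n))]
  have h1 : LinearMap.toMatrix (Pi.basisFun ℂ (Fin n)) (Pi.basisFun ℂ (Fin n)) (baseChange ρ g) =
      LinearMap.toMatrix' (baseChange ρ g) := by
    rw [LinearMap.toMatrix_eq_toMatrix']
  have h2 : LinearMap.toMatrix (Pi.basisFun K (Fin n)) (Pi.basisFun K (Fin n)) (ρ g) =
      LinearMap.toMatrix' (ρ g) := by
    rw [LinearMap.toMatrix_eq_toMatrix']
  rw [h1, h2, baseChange_toMatrix, AddMonoidHom.map_trace (algebraMap K ℂ)]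

theorem IsCharOver.isCharacter {χ : G → ℂ} (hχ : IsCharOver K G χ) : IsCharacter G χ := by
  obtain ⟨n, ρ, hρ⟩ := hχ
  refine ⟨n, baseChange ρ, ?_⟩
  funext g
  rw [baseChange_character, hρ]

end complex

section induced

variable {K : Type v} [Field K] {G : Type u} [Group G]

open scoped Classical in
/-- Extension by zero of a multiplicative function on a subgroup. -/
noncomputable def extZero (E : Subgroup G) (μ : E →* K) (g : G) : K :=
  if h : g ∈ E then μ ⟨g, h⟩ else 0

theorem extZero_mem {E : Subgroup G} (μ : E →* K) {g : G} (h : g ∈ E) :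
    extZero E μ g = μ ⟨g, h⟩ := by
  rw [extZero, dif_pos h]

theorem extZero_notMem {E : Subgroup G} (μ : E →* K) {g : G} (h : g ∉ E) :
    extZero E μ g = 0 := by
  rw [extZero, dif_neg h]

theorem extZero_mul {E : Subgroup G} (μ : E →* K) {g h : G} (hh : h ∈ E) :
    extZero E μ (g * h) = extZero E μ g * extZero E μ h := by
  by_cases hg : g ∈ E
  · rw [extZero_mem μ hg, extZero_mem μ hh, extZero_mem μ (E.mul_mem hg hh), ← map_mul]
    rfl
  · rw [extZero_notMem μ hg, extZero_notMem μ (fun h' => hg ?_), zero_mul]
    have := E.mul_mem h' (E.inv_mem hh)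
    rwa [mul_assoc, mul_inv_cancel, mul_one] at this

/-- The monomial matrix of the induced representation. -/
noncomputable def indMatrix (E : Subgroup G) (μ : E →* K) (g : G) : Matrix (G ⧸ E) (G ⧸ E) K :=
  fun i j => extZero E μ (i.out⁻¹ * g * j.out)

open scoped Classical in
theorem indMatrix_one (E : Subgroup G) (μ : E →* K) : indMatrix E μ (1 : G) = 1 := by
  ext i j
  rw [indMatrix, mul_one, Matrix.one_apply]
  split_ifs with h
  · subst h
    have h1 : (i.out : G)⁻¹ * i.out ∈ E := by rw [inv_mul_cancel]; exact E.one_mem
    rw [extZero_mem μ h1]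
    have : (⟨(i.out : G)⁻¹ * i.out, h1⟩ : E) = 1 := Subtype.ext (inv_mul_cancel _)
    rw [this, map_one]
  · apply extZero_notMem
    intro h1
    apply h
    rw [← QuotientGroup.eq (s := E)] at h1
    rwa [QuotientGroup.out_eq', QuotientGroup.out_eq'] at h1

theorem indMatrix_mul (E : Subgroup G) [Fintype (G ⧸ E)] (μ : E →* K) (g h : G) :
    indMatrix E μ (g * h) = indMatrix E μ g * indMatrix E μ h := by
  classical
  ext i k
  rw [Matrix.mul_apply]
  set j0 : G ⧸ E := ((h * k.out : G) : G ⧸ E) with hj0
  have hmem : (j0.out : G)⁻¹ * h * k.out ∈ E := by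
    rw [mul_assoc, ← QuotientGroup.eq (s := E), QuotientGroup.out_eq']
  rw [Finset.sum_eq_single j0]
  · simp only [indMatrix]
    rw [← extZero_mul μ hmem]
    congr 1
    group
  · intro j _ hj
    simp only [indMatrix]
    rw [extZero_notMem μ (g := (j.out : G)⁻¹ * h * k.out), mul_zero]
    intro h1
    apply hj
    rw [mul_assoc, ← QuotientGroup.eq (s := E), QuotientGroup.out_eq'] at h1
    exact h1
  · intro h1
    exact absurd (Finset.mem_univ _) h1

open scoped Classical in
/-- The induced representation of a linear character. -/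
noncomputable def indRep (E : Subgroup G) [Fintype (G ⧸ E)] (μ : E →* K) :
    Representation K G (G ⧸ E → K) where
  toFun g := Matrix.toLin' (indMatrix E μ g)
  map_one' := by
    rw [indMatrix_one, Matrix.toLin'_one]
    rfl
  map_mul' g h := by
    rw [indMatrix_mul, Matrix.toLin'_mul]
    rfl

/-- Coset representatives times subgroup elements enumerate the group. -/
theorem bijective_out_mul (E : Subgroup G) :
    Function.Bijective (fun p : (G ⧸ E) × E => (p.1.out * p.2 : G)) := by
  constructor
  · rintro ⟨i, e⟩ ⟨j, f⟩ h
    simp only at h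
    have h1 : ((i.out * e : G) : G ⧸ E) = ((j.out * f : G) : G ⧸ E) := by rw [h]
    rw [QuotientGroup.mk_mul_of_mem _ e.2, QuotientGroup.mk_mul_of_mem _ f.2,
      QuotientGroup.out_eq', QuotientGroup.out_eq'] at h1
    subst h1
    rw [mul_left_cancel_iff] at h
    exact Prod.ext rfl (Subtype.ext h)
  · intro x
    refine ⟨((x : G ⧸ E), ⟨((x : G ⧸ E).out)⁻¹ * x, ?_⟩), ?_⟩
    · rw [← QuotientGroup.eq (s := E), QuotientGroup.out_eq']
    · simp

theorem indRep_character (E : Subgroup G) [Fintype (G ⧸ E)] (μ : E →* K) (g : G) :
    (indRep E μ).character g = ∑ i : G ⧸ E, extZero E μ (i.out⁻¹ * g * i.out) := by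
  classical
  have h1 : (indRep E μ) g = Matrix.toLin' (indMatrix E μ g) := by
    simp only [indRep, MonoidHom.coe_mk, OneHom.coe_mk]
  rw [Representation.character, h1, LinearMap.trace_eq_matrix_trace K (Pi.basisFun K (G ⧸ E)),
    LinearMap.toMatrix_eq_toMatrix', LinearMap.toMatrix'_toLin']
  rfl

theorem extZero_conj (E : Subgroup G) (μ : E →* K) (g : G) {e : G} (he : e ∈ E) :
    extZero E μ (e⁻¹ * g * e) = extZero E μ g := by
  by_cases hg : g ∈ E
  · have h1 : e⁻¹ * g ∈ E := E.mul_mem (E.inv_mem he) hg
    rw [extZero_mul μ he, extZero_mul μ hg, mul_comm, ← mul_assoc, ← extZero_mul μ (E.inv_mem he),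
      mul_inv_cancel, extZero_mem μ E.one_mem]
    have : (⟨1, E.one_mem⟩ : E) = 1 := rfl
    rw [this, map_one, one_mul]
  · rw [extZero_notMem μ hg, extZero_notMem μ]
    intro h1
    apply hg
    have h2 := E.mul_mem (E.mul_mem he h1) (E.inv_mem he)
    have h3 : e * (e⁻¹ * g * e) * e⁻¹ = g := by group
    rwa [h3] at h2

theorem sum_extZero [Fintype G] (E : Subgroup G) [Fintype (G ⧸ E)] (μ : E →* K) (g : G) :
    ∑ x : G, extZero E μ (x⁻¹ * g * x) =
      (Nat.card E : K) * ∑ i : G ⧸ E, extZero E μ (i.out⁻¹ * g * i.out) := by
  classical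
  have : Fintype E := Fintype.ofFinite E
  rw [← (bijective_out_mul E).sum_comp, Fintype.sum_prod_type, Finset.mul_sum]
  refine Finset.sum_congr rfl fun i _ => ?_
  have : ∀ e : E, extZero E μ ((i.out * e : G)⁻¹ * g * (i.out * e : G)) =
      extZero E μ (i.out⁻¹ * g * i.out) := by
    intro e
    rw [← extZero_conj E μ (i.out⁻¹ * g * i.out) e.2]
    congr 1
    group
  rw [Finset.sum_congr rfl fun e _ => this e, Finset.sum_const, Finset.card_univ,
    Nat.card_eq_fintype_card, nsmul_eq_mul]

end induced

section induced2

variable {K : Type v} [Field K] [Algebra K ℂ] {G : Type u} [Group G]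

theorem extendByZero_eq (E : Subgroup G) (μ : E →* K) (g : G) :
    extendByZero E (fun e => algebraMap K ℂ (μ e)) g = algebraMap K ℂ (extZero E μ g) := by
  by_cases hg : g ∈ E
  · rw [extZero_mem μ hg]
    exact Function.Injective.extend_apply Subtype.val_injective _ _ ⟨g, hg⟩
  · rw [extZero_notMem μ hg, map_zero]
    apply Function.extend_apply'
    rintro ⟨e, rfl⟩
    exact hg e.2

/-- The induced function of a linear character with values in `K` is afforded over `K`. -/
theorem isCharOver_indFun [Fintype G] (E : Subgroup G) (μ : E →* K) :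
    IsCharOver K G (indFun E (fun e => algebraMap K ℂ (μ e))) := by
  classical
  have : Fintype (G ⧸ E) := Fintype.ofFinite _
  refine isCharOver_of_rep (indRep E μ) fun g => ?_
  rw [indRep_character]
  have h1 : indFun E (fun e => algebraMap K ℂ (μ e)) g =
      (Nat.card E : ℂ)⁻¹ * algebraMap K ℂ (∑ x : G, extZero E μ (x⁻¹ * g * x)) := by
    rw [map_sum]
    have : ∀ x : G, algebraMap K ℂ (extZero E μ (x⁻¹ * g * x)) =
        extendByZero E (fun e => algebraMap K ℂ (μ e)) (x⁻¹ * g * x) :=
      fun x => (extendByZero_eq E μ _).symm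
    rw [Finset.sum_congr rfl fun x _ => this x]
    rfl
  rw [h1, sum_extZero, map_mul, map_natCast, ← mul_assoc, inv_mul_cancel₀, one_mul]
  exact Nat.cast_ne_zero.mpr Nat.card_pos.ne'

end induced2

section reduction

variable {K : Type v} [Field K] {G : Type u} [Group G] [Finite G]

/-- Removing a common part of two representations over `K`. -/
theorem exists_reduction [CharZero K] {V W : Type*} [AddCommGroup V] [Module K V]
    [FiniteDimensional K V] [AddCommGroup W] [Module K W] [FiniteDimensional K W]
    (A : Representation K G V) (B : Representation K G W) (f : IntertwiningMap B A) (hf : f ≠ 0) :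
    ∃ (a b : ℕ) (A' : Representation K G (Fin a → K)) (B' : Representation K G (Fin b → K)),
      a < finrank K V ∧ b ≤ finrank K W ∧
        ∀ g, A.character g - B.character g = A'.character g - B'.character g := by
  have : NeZero (Nat.card G : K) := ⟨Nat.cast_ne_zero.mpr Nat.card_pos.ne'⟩
  obtain ⟨R', hR'⟩ := exists_isCompl f.range
  obtain ⟨C, hC⟩ := exists_isCompl f.ker
  obtain ⟨A', hA'⟩ := exists_coord R'.toRepresentation
  obtain ⟨B', hB'⟩ := exists_coord f.ker.toRepresentation
  have hcomp' : IsCompl f.range.toSubmodule R'.toSubmodule := isCompl_toSubmodule hR'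
  have hcomp'' : IsCompl C.toSubmodule f.ker.toSubmodule := isCompl_toSubmodule hC.symm
  have hker : f.ker.toSubmodule = LinearMap.ker f.toLinearMap := by
    ext x
    rfl
  have hrange : f.range.toSubmodule = LinearMap.range f.toLinearMap := by
    ext x
    rfl
  refine ⟨_, _, A', B', ?_, Submodule.finrank_le _, fun g => ?_⟩
  · have h1 := Submodule.finrank_add_eq_of_isCompl hcomp'
    have h2 : 0 < finrank K f.range.toSubmodule := by
      rw [Module.finrank_pos_iff, Submodule.nontrivial_iff_ne_bot]
      intro h3
      apply hf
      apply IntertwiningMap.ext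
      rw [hrange, LinearMap.range_eq_bot] at h3
      rw [h3]
      rfl
    omega
  · rw [hA', hB', character_add_of_isCompl A hR' g, character_add_of_isCompl B hC g]
    have h4 : C.toRepresentation.character g = f.range.toRepresentation.character g := by
      rw [hker] at hcomp''
      let e : C.toSubmodule ≃ₗ[K] LinearMap.range f.toLinearMap :=
        f.toLinearMap.kerComplementEquivRange hcomp''
      let e' : C.toSubmodule ≃ₗ[K] f.range.toSubmodule :=
        e.trans (LinearEquiv.ofEq _ _ hrange.symm)
      have h5 : f.range.toRepresentation g = e'.conj (C.toRepresentation g) := by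
        ext x
        obtain ⟨y, rfl⟩ := e'.surjective x
        rw [LinearEquiv.conj_apply_apply, LinearEquiv.symm_apply_apply]
        have h6 : ∀ z : C.toSubmodule, ((e' z : f.range.toSubmodule) : V) = f z := fun z => rfl
        rw [h6]
        have h7 : ((f.range.toRepresentation g (e' y) : f.range.toSubmodule) : V) =
          A g (e' y : V) := rfl
        have h8 : ((C.toRepresentation g y : C.toSubmodule) : W) = B g (y : W) := rfl
        rw [h7, h6, h8, f.isIntertwining]
      rw [Representation.character, Representation.character, h5, LinearMap.trace_conj']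
    rw [h4]
    ring

end reduction

section main

variable {K : Type v} [Field K] [Algebra K ℂ] {G : Type u} [Group G]

theorem isCharOver_of_sub_aux [Fintype G] {χ : G → ℂ} (hχ : IsCharacter G χ) (n : ℕ) :
    ∀ (a b : ℕ) (A : Representation K G (Fin a → K)) (B : Representation K G (Fin b → K)),
      a + b ≤ n → (∀ g, χ g = algebraMap K ℂ (A.character g - B.character g)) →
        IsCharOver K G χ := by
  have : CharZero K := (RingHom.charZero_iff (algebraMap K ℂ).injective).mpr inferInstance
  induction n using Nat.strong_induction_on with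
  | _ n ih =>
    intro a b A B hab h
    by_cases hne : ∃ f : IntertwiningMap B A, f ≠ 0
    · obtain ⟨f, hf⟩ := hne
      obtain ⟨a', b', A', B', ha, hb, hab'⟩ := exists_reduction A B f hf
      rw [finrank_fin_fun] at ha hb
      exact ih (a' + b') (by omega) a' b' A' B' le_rfl fun g => by rw [h g, hab' g]
    · push Not at hne
      have : Subsingleton (IntertwiningMap B A) := ⟨fun x y => by rw [hne x, hne y]⟩
      have : Invertible (Nat.card G : K) :=
        invertibleOfNonzero (Nat.cast_ne_zero.mpr Nat.card_pos.ne')
      have hform := card_inv_mul_sum_char_mul_char_eq_finrank B A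
      rw [finrank_zero_of_subsingleton, Nat.cast_zero] at hform
      set α : G → ℂ := fun g => algebraMap K ℂ (A.character g) with hα
      set β : G → ℂ := fun g => algebraMap K ℂ (B.character g) with hβ
      have hβc : IsCharacter G β := IsCharOver.isCharacter ⟨b, B, fun g => rfl⟩
      have h1 : classInner α β = 0 := by
        have h2 : classInner α β = (Nat.card G : ℂ)⁻¹ * ∑ g : G, α g * β g⁻¹ := by
          have : ∀ g, β g⁻¹ = conj (β g) := fun g => isCharacter_apply_inv hβc g
          simp only [this]
          rfl
        have h3 := congrArg (algebraMap K ℂ) hform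
        rw [map_mul, map_inv₀, map_natCast, map_sum, map_zero] at h3
        rw [h2, ← h3]
        simp only [map_mul, hα, hβ]
      have h4 : χ = α - β := by
        funext g
        rw [h g, map_sub]
        rfl
      have h5 : classInner χ β = - classInner β β := by
        rw [h4, classInner_sub_left, h1, zero_sub]
      obtain ⟨p, hp⟩ := classInner_isNat hχ hβc
      obtain ⟨q, hq⟩ := classInner_isNat hβc hβc
      rw [hp, hq] at h5
      have h6 : (p : ℂ) + q = 0 := by rw [h5]; ring
      have h7 : p + q = 0 := by exact_mod_cast h6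
      have h8 : q = 0 := by omega
      rw [h8, Nat.cast_zero] at hq
      have h9 := classInner_self_eq_zero hq
      refine ⟨a, A, fun g => ?_⟩
      rw [h4, h9, sub_zero]

/-- A genuine complex character which is a difference of characters over `K` is a character
over `K`. -/
theorem isCharOver_of_sub [Finite G] {χ α β : G → ℂ} (hχ : IsCharacter G χ)
    (hα : IsCharOver K G α) (hβ : IsCharOver K G β) (h : χ = α - β) : IsCharOver K G χ := by
  have := Fintype.ofFinite G
  obtain ⟨a, A, hA⟩ := hα
  obtain ⟨b, B, hB⟩ := hβ
  refine isCharOver_of_sub_aux hχ (a + b) a b A B le_rfl fun g => ?_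
  rw [h, Pi.sub_apply, hA, hB, map_sub]

end main

end Cfsg.Agent.Characters.SplittingField
end

-- part: S0166
section
-- import your own Cfsg.Agent.* helpers here

set_option autoImplicit false
open Cfsg

namespace Cfsg.Agent.S0166

open Cfsg.Agent.Characters.Core Cfsg.Agent.Characters.SplittingField
open scoped IntermediateField

section aux

universe u

variable {G : Type u} [Group G]

/-- An integer multiple of a `K`-character is a difference of two `K`-characters. -/
theorem exists_sub_of_zsmul {K : Type*} [Field K] [Algebra K ℂ] {ψ : G → ℂ}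
    (hψ : IsCharOver K G ψ) (z : ℤ) :
    ∃ α β : G → ℂ, IsCharOver K G α ∧ IsCharOver K G β ∧ (z : ℂ) • ψ = α - β := by
  rcases Int.le_total 0 z with h | h
  · obtain ⟨n, rfl⟩ := Int.eq_ofNat_of_zero_le h
    refine ⟨n • ψ, 0, isCharOver_nsmul n hψ, isCharOver_zero, ?_⟩
    rw [sub_zero, Int.cast_natCast, Nat.cast_smul_eq_nsmul]
  · obtain ⟨n, hn⟩ := Int.eq_ofNat_of_zero_le (Int.neg_nonneg_of_nonpos h)
    refine ⟨0, n • ψ, isCharOver_zero, isCharOver_nsmul n hψ, ?_⟩
    have : z = -(n : ℤ) := by rw [← hn]; ring
    rw [this, zero_sub, Int.cast_neg, Int.cast_natCast, neg_smul, Nat.cast_smul_eq_nsmul]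

/-- Every complex character of a finite group is afforded by a representation over any field `K`
containing (in `ℂ`) all values of linear characters of subgroups. -/
theorem isCharOver_of_isCharacter [Finite G] {K : Type*} [Field K] [Algebra K ℂ]
    (hK : ∀ z : ℂ, z ^ Monoid.exponent G = 1 → z ∈ Set.range (algebraMap K ℂ))
    {χ : G → ℂ} (hχ : IsCharacter G χ) : IsCharOver K G χ := by
  classical
  have := Fintype.ofFinite G
  obtain ⟨l, -, hl⟩ := Cfsg.Agent.S0163.result χ hχ
  have key : ∀ l : List ((E : Subgroup G) × ((E →* ℂˣ) × ℤ)),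
      ∃ α β : G → ℂ, IsCharOver K G α ∧ IsCharOver K G β ∧
        (l.map fun t => (t.2.2 : ℂ) • Cfsg.indFun t.1 (fun e => (t.2.1 e : ℂ))).sum = α - β := by
    intro l
    induction l with
    | nil => exact ⟨0, 0, isCharOver_zero, isCharOver_zero, by simp⟩
    | cons t l ih =>
      obtain ⟨α, β, hα, hβ, hab⟩ := ih
      have hval : ∀ e : t.1, ∃ k : K, algebraMap K ℂ k = (t.2.1 e : ℂ) := by
        intro e
        apply hK
        rw [← Units.val_pow_eq_pow_val, ← map_pow]
        have : e ^ Monoid.exponent G = 1 := by
          apply Subtype.ext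
          exact Monoid.pow_exponent_eq_one (e : G)
        rw [this, map_one, Units.val_one]
      choose k hk using hval
      have hinj : Function.Injective (algebraMap K ℂ) := (algebraMap K ℂ).injective
      let μ : t.1 →* K :=
        { toFun := k
          map_one' := hinj (by rw [hk, map_one, map_one, Units.val_one])
          map_mul' := fun a b => hinj (by rw [hk, map_mul, map_mul, hk, hk, Units.val_mul]) }
      have hind : IsCharOver K G (Cfsg.indFun t.1 (fun e => (t.2.1 e : ℂ))) := by
        have h1 := isCharOver_indFun t.1 μ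
        have h2 : (fun e => algebraMap K ℂ (μ e)) = fun e : t.1 => (t.2.1 e : ℂ) :=
          funext fun e => hk e
        rwa [h2] at h1
      obtain ⟨α', β', hα', hβ', hab'⟩ := exists_sub_of_zsmul hind t.2.2
      refine ⟨α' + α, β' + β, isCharOver_add hα' hα, isCharOver_add hβ' hβ, ?_⟩
      rw [List.map_cons, List.sum_cons, hab, hab', add_sub_add_comm]
  obtain ⟨α, β, hα, hβ, hab⟩ := key l
  exact isCharOver_of_sub hχ hα hβ (hl.trans hab)

end aux

/-- Brauer's splitting field Theorem: a complex representation of a finite group of exponent m is equivalent to a representation by matrices with entries in ℚ adjoined exp(2πi/m). -/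
theorem result {G : Type*} [Group G] [Finite G] (n : ℕ) (ρ : Representation ℂ G (Fin n → ℂ)) : ∃ σ : Representation ℂ G (Fin n → ℂ), Nonempty (ρ.Equiv σ) ∧ ∀ g : G, ∀ i j : Fin n, LinearMap.toMatrix' (σ g) i j ∈ Algebra.adjoin ℚ ({Complex.exp (2 * Real.pi * Complex.I / (Monoid.exponent G : ℂ))} : Set ℂ) := by
  classical
  have hm : Monoid.exponent G ≠ 0 := Monoid.exponent_ne_zero_of_finite
  set ζ : ℂ := Complex.exp (2 * Real.pi * Complex.I / (Monoid.exponent G : ℂ)) with hζ
  have hprim : IsPrimitiveRoot ζ (Monoid.exponent G) := Complex.isPrimitiveRoot_exp _ hm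
  have halg : IsAlgebraic ℚ ζ := by
    have h1 : IsIntegral ℤ ζ := hprim.isIntegral (Nat.pos_of_ne_zero hm)
    exact (h1.tower_top (A := ℚ)).isAlgebraic
  let K : IntermediateField ℚ ℂ := ℚ⟮ζ⟯
  have hKadj : ∀ x : ℂ, x ∈ K → x ∈ Algebra.adjoin ℚ ({ζ} : Set ℂ) := by
    intro x hx
    rw [← IntermediateField.adjoin_simple_toSubalgebra_of_isAlgebraic halg]
    exact hx
  have hζK : ζ ∈ K := IntermediateField.mem_adjoin_simple_self ℚ ζ
  have hK : ∀ z : ℂ, z ^ Monoid.exponent G = 1 → z ∈ Set.range (algebraMap K ℂ) := by
    intro z hz
    have : NeZero (Monoid.exponent G) := ⟨hm⟩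
    obtain ⟨i, -, rfl⟩ := hprim.eq_pow_of_pow_eq_one hz
    exact ⟨⟨ζ ^ i, pow_mem hζK i⟩, rfl⟩
  obtain ⟨m, σ, hσ⟩ := isCharOver_of_isCharacter (K := K) hK (isCharacter_of_rep ρ)
  have hnm : m = n := by
    have h1 := hσ 1
    rw [Representation.char_one, Representation.char_one, Module.finrank_fin_fun,
      Module.finrank_fin_fun, map_natCast] at h1
    exact_mod_cast h1.symm
  subst hnm
  refine ⟨baseChange σ, nonempty_equiv_of_character_eq ρ (baseChange σ) ?_, ?_⟩
  · funext g
    rw [baseChange_character, hσ]
  · intro g i j
    rw [baseChange_toMatrix, Matrix.map_apply]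
    exact hKadj _ (LinearMap.toMatrix' (σ g) i j).2

end Cfsg.Agent.S0166
end
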