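import Cfsg.Statements.S0167
import Cfsg.Agent.Characters.Counting
set_option linter.all false

set_option autoImplicit false
open Cfsg

namespace Cfsg.Agent.S0167

/-- An element g of a finite group is a commutator if and only if the sum over the irreducible characters χ of χ g / χ 1 is nonzero. -/
theorem result {G : Type*} [Group G] [Finite G] (g : G) : (∃ a b : G, g = a * b * a⁻¹ * b⁻¹) ↔ ∑ᶠ χ : Cfsg.IrrCharacter G, (χ : G → ℂ) g / (χ : G → ℂ) 1 ≠ 0 := by
  classical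
  have : Finite (IrrCharacter G) := Cfsg.Agent.Characters.Core.finite_irr
  have := Fintype.ofFinite (IrrCharacter G)
  have hne : (Nat.card G : ℂ) ≠ 0 := by exact_mod_cast Nat.card_pos.ne'
  have h := Cfsg.Agent.Characters.Counting.card_commutator_pairs g
  rw [finsum_eq_sum_of_fintype]
  have h2 : (∑ χ : IrrCharacter G, (χ : G → ℂ) g / (χ : G → ℂ) 1 ≠ 0) ↔
      (Nat.card {p : G × G // p.1 * p.2 * p.1⁻¹ * p.2⁻¹ * g = 1} : ℂ) ≠ 0 := by
    rw [h, mul_ne_zero_iff]
    exact ⟨fun h => ⟨hne, h⟩, fun h => h.2⟩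
  rw [h2, Nat.cast_ne_zero, Nat.card_ne_zero, nonempty_subtype]
  constructor
  · rintro ⟨a, b, rfl⟩
    refine ⟨⟨⟨b, a⟩, ?_⟩, inferInstance⟩
    simp only
    group
  · rintro ⟨⟨⟨a, b⟩, hab⟩, _⟩
    simp only at hab
    refine ⟨b, a, ?_⟩
    have : g = (a * b * a⁻¹ * b⁻¹)⁻¹ := (eq_inv_of_mul_eq_one_right hab)
    rw [this]
    group

end Cfsg.Agent.S0167
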