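-- Statement S0175 (Taketa's theorem on M-groups).
import Cfsg.Statements.S0175
import Mathlib
set_option linter.all false

set_option autoImplicit false
open Cfsg

namespace Cfsg.Agent.S0175

open Module

/-- Transfer of "g acts trivially" from coordinate spaces to arbitrary spaces. -/
theorem acts_trivially_transfer {G : Type*} [Group G] {m : ℕ} {g : G}
    (h : ∀ n ≤ m, ∀ ρ : Representation ℂ G (Fin n → ℂ), ρ g = 1)
    {V : Type*} [AddCommGroup V] [Module ℂ V] [FiniteDimensional ℂ V]
    (hV : finrank ℂ V ≤ m) (ρ : Representation ℂ G V) : ρ g = 1 := by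
  let e : V ≃ₗ[ℂ] (Fin (finrank ℂ V) → ℂ) := (finBasis ℂ V).equivFun
  let ρ' : Representation ℂ G (Fin (finrank ℂ V) → ℂ) :=
    { toFun := fun g => e.toLinearMap ∘ₗ ρ g ∘ₗ e.symm.toLinearMap
      map_one' := by
        apply LinearMap.ext
        intro x
        simp
      map_mul' := fun a b => by
        apply LinearMap.ext
        intro x
        simp }
  have h1 : ρ' g = 1 := h _ hV ρ'
  apply LinearMap.ext
  intro v
  have h2 : e (ρ g (e.symm (e v))) = e v := by
    have := congrArg (fun f => f (e v)) h1
    simpa [ρ'] using this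
  rw [LinearEquiv.symm_apply_apply] at h2
  simpa using e.injective h2

/-- If the character value on a normal (or any) subgroup is constantly the degree, the subgroup
acts trivially. -/
theorem acts_trivially_of_char {G : Type*} [Group G] [Finite G] {V : Type*} [AddCommGroup V]
    [Module ℂ V] [FiniteDimensional ℂ V] (ρ : Representation ℂ G V)
    (h : ∀ g : G, ρ.character g = finrank ℂ V) (g : G) : ρ g = 1 := by
  classical
  haveI : Fintype G := Fintype.ofFinite G
  have hne : (Nat.card G : ℂ) ≠ 0 := Nat.cast_ne_zero.mpr Nat.card_pos.ne'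
  letI : Invertible (Nat.card G : ℂ) := invertibleOfNonzero hne
  have h1 := ρ.card_inv_mul_sum_char_eq_finrank
  simp only [h, Finset.sum_const, Finset.card_univ, nsmul_eq_mul] at h1
  rw [← Nat.card_eq_fintype_card, ← mul_assoc, inv_mul_cancel₀ hne, one_mul] at h1
  have h2 : finrank ℂ (Representation.invariants ρ) = finrank ℂ V := by exact_mod_cast h1.symm
  have h3 : Representation.invariants ρ = ⊤ := Submodule.eq_top_of_finrank_eq h2
  apply LinearMap.ext
  intro v
  have h4 : v ∈ Representation.invariants ρ := by rw [h3]; trivial
  exact (Representation.mem_invariants ρ v).mp h4 g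

/-- The permutation representation on functions. -/
def permRep (G : Type*) [Group G] (X : Type*) [MulAction G X] : Representation ℂ G (X → ℂ) where
  toFun g :=
    { toFun := fun f x => f (g⁻¹ • x)
      map_add' := fun _ _ => rfl
      map_smul' := fun _ _ => rfl }
  map_one' := by
    apply LinearMap.ext; intro f; funext x; simp
  map_mul' a b := by
    apply LinearMap.ext; intro f; funext x
    simp [mul_smul]

theorem permRep_apply {G : Type*} [Group G] {X : Type*} [MulAction G X] (g : G) (f : X → ℂ)
    (x : X) : permRep G X g f x = f (g⁻¹ • x) := rfl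

theorem indFun_one_mul {G : Type*} [Group G] [Fintype G] (H : Subgroup G) (lam : H →* ℂˣ) (g : G)
    (hg : ∀ x : G, ∃ h : x⁻¹ * g * x ∈ H, lam ⟨x⁻¹ * g * x, h⟩ = 1) :
    indFun H (fun h => (lam h : ℂ)) g = H.index := by
  have h1 : ∀ x : G, extendByZero H (fun h => (lam h : ℂ)) (x⁻¹ * g * x) = 1 := by
    intro x
    obtain ⟨hx, hx1⟩ := hg x
    have h2 : extendByZero H (fun h => (lam h : ℂ)) ((⟨x⁻¹ * g * x, hx⟩ : H) : G) =
        (lam ⟨x⁻¹ * g * x, hx⟩ : ℂ) :=
      Function.Injective.extend_apply Subtype.val_injective _ _ _
    rw [hx1] at h2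
    simpa using h2
  change (Nat.card H : ℂ)⁻¹ * ∑ x : G, extendByZero H (fun h => (lam h : ℂ)) (x⁻¹ * g * x) = _
  simp only [h1, Finset.sum_const, Finset.card_univ, nsmul_eq_mul, mul_one]
  have hne : (Nat.card H : ℂ) ≠ 0 := Nat.cast_ne_zero.mpr Nat.card_pos.ne'
  rw [← Nat.card_eq_fintype_card, ← H.index_mul_card]
  push_cast
  field_simp

/-- Taketa's Theorem on M-groups: if every irreducible complex character of a finite group is induced from a linear character (a homomorphism to ℂˣ) of some subgroup, the group is solvable. -/
theorem result {G : Type*} [Group G] [Fintype G] (hM : ∀ χ : G → ℂ, Cfsg.IsIrrCharacter G χ → ∃ (H : Subgroup G) (lam : H →* ℂˣ), χ = Cfsg.indFun H (fun h => (lam h : ℂ))) : Group.IsSolvable G := by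
  classical
  have Q : ∀ m : ℕ, ∀ g ∈ derivedSeries G m, ∀ n ≤ m, ∀ ρ : Representation ℂ G (Fin n → ℂ),
      ρ g = 1 := by
    intro m
    induction m with
    | zero =>
      intro g _ n hn ρ
      obtain rfl : n = 0 := Nat.le_zero.mp hn
      exact Subsingleton.elim _ _
    | succ m ih =>
      intro g hg n hn ρ
      have hanti : derivedSeries G (m + 1) ≤ derivedSeries G m :=
        derivedSeries_antitone G (Nat.le_succ m)
      rcases Nat.lt_or_ge n (m + 1) with hlt | hge
      · exact ih g (hanti hg) n (Nat.lt_succ_iff.mp hlt) ρ
      have hnm : n = m + 1 := le_antisymm hn hge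
      by_cases hirr : ρ.IsIrreducible
      · obtain ⟨H, lam, hχ⟩ := hM ρ.character ⟨n, ρ, hirr, rfl⟩
        have hidx : n = H.index := by
          have h1 : ρ.character 1 = (n : ℂ) := by simp
          rw [hχ, indFun_one_mul H lam 1 (fun x => ?_)] at h1
          · exact_mod_cast h1.symm
          · have hx : x⁻¹ * 1 * x = 1 := by group
            refine ⟨by rw [hx]; exact H.one_mem, ?_⟩
            have : (⟨x⁻¹ * 1 * x, by rw [hx]; exact H.one_mem⟩ : H) = 1 := by
              apply Subtype.ext; simp
            rw [this, map_one]
        -- the derived series term `m` is contained in `H`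
        have hDH : derivedSeries G m ≤ H := by
          intro d hd
          by_contra hdH
          haveI : Fintype (G ⧸ H) := Fintype.ofFinite _
          -- the augmentation subspace
          let aug : ((G ⧸ H) → ℂ) →ₗ[ℂ] ℂ := ∑ x : G ⧸ H, LinearMap.proj x
          have haug : ∀ f : (G ⧸ H) → ℂ, aug f = ∑ x, f x := by
            intro f
            simp [aug]
          let W : Submodule ℂ ((G ⧸ H) → ℂ) := LinearMap.ker aug
          have hW : ∀ (g : G) (f : (G ⧸ H) → ℂ), f ∈ W → permRep G (G ⧸ H) g f ∈ W := by
            intro g f hf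
            rw [LinearMap.mem_ker, haug] at hf ⊢
            rw [← hf]
            exact Equiv.sum_comp (MulAction.toPerm g⁻¹ : Equiv.Perm (G ⧸ H)) f
          let σ : Subrepresentation (permRep G (G ⧸ H)) := ⟨W, hW⟩
          have hlt : finrank ℂ W < m + 1 := by
            have h1 : finrank ℂ ((G ⧸ H) → ℂ) = m + 1 := by
              rw [finrank_fintype_fun_eq_card, ← Nat.card_eq_fintype_card]
              exact hidx.symm.trans hnm
            rw [← h1]
            apply Submodule.finrank_lt
            intro htop
            have h2 : (Pi.single (QuotientGroup.mk (1 : G)) 1 : (G ⧸ H) → ℂ) ∈ W := by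
              rw [htop]; trivial
            rw [LinearMap.mem_ker, haug] at h2
            simp at h2
          have htriv := acts_trivially_transfer (ih d hd) (Nat.lt_succ_iff.mp hlt)
            σ.toRepresentation
          -- apply to a difference of two delta functions
          let a : G ⧸ H := QuotientGroup.mk (1 : G)
          have hda : d • a ≠ a := by
            intro h
            apply hdH
            have h' : (QuotientGroup.mk (d * 1) : G ⧸ H) = QuotientGroup.mk 1 := h
            rw [QuotientGroup.eq] at h'
            simpa using h'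
          let f : (G ⧸ H) → ℂ := Pi.single a 1 - Pi.single (d • a) 1
          have hfW : f ∈ W := by
            rw [LinearMap.mem_ker, haug]
            simp [f]
          have h3 : σ.toRepresentation d ⟨f, hfW⟩ = ⟨f, hfW⟩ := by rw [htriv]; rfl
          have h4 : permRep G (G ⧸ H) d f = f := congrArg Subtype.val h3
          have h5 := congrFun h4 (d • a)
          rw [permRep_apply, inv_smul_smul] at h5
          have h6 : f a = 1 := by
            simp [f, Pi.single_apply, hda.symm]
          have h7 : f (d • a) = -1 := by
            simp [f, Pi.single_apply, hda]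
          rw [h6, h7] at h5
          norm_num at h5
        -- `D' ≤ ker lam`
        have hK : derivedSeries G (m + 1) ≤ (lam.ker).map H.subtype := by
          rw [derivedSeries_succ, Subgroup.commutator_le]
          intro a ha b hb
          refine ⟨(⟨a, hDH ha⟩ : H) * ⟨b, hDH hb⟩ * (⟨a, hDH ha⟩ : H)⁻¹ * (⟨b, hDH hb⟩ : H)⁻¹, ?_,
            rfl⟩
          rw [SetLike.mem_coe, MonoidHom.mem_ker]
          simp only [map_mul, map_inv]
          rw [mul_comm (lam ⟨a, hDH ha⟩) (lam ⟨b, hDH hb⟩), mul_inv_cancel_right, mul_inv_cancel]
        -- the restriction of `ρ` to `D'`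
        have hchar : ∀ g ∈ derivedSeries G (m + 1), ρ.character g = (n : ℂ) := by
          intro g hg
          rw [hχ, indFun_one_mul H lam g (fun x => ?_), ← hidx]
          have hx : x⁻¹ * g * x ∈ derivedSeries G (m + 1) := by
            have := (derivedSeries_normal G (m + 1)).conj_mem g hg x⁻¹
            simpa using this
          obtain ⟨k, hk, hk'⟩ := hK hx
          have hk2 : (k : G) = x⁻¹ * g * x := hk'
          refine ⟨hk2 ▸ k.2, ?_⟩
          have : (⟨x⁻¹ * g * x, hk2 ▸ k.2⟩ : H) = k := Subtype.ext hk2.symm
          rw [this]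
          exact hk
        let ρ' : Representation ℂ (derivedSeries G (m + 1)) (Fin n → ℂ) :=
          ρ.comp (derivedSeries G (m + 1)).subtype
        have h5 := acts_trivially_of_char ρ' (fun g => by
          have h6 : ρ'.character g = ρ.character (g : G) := rfl
          rw [h6, hchar g g.2]
          simp) ⟨g, hg⟩
        exact h5
      · -- not irreducible: decompose
        have hD := hanti hg
        haveI : NeZero (Nat.card G : ℂ) := ⟨Nat.cast_ne_zero.mpr Nat.card_pos.ne'⟩
        haveI hss : Representation.IsSemisimpleRepresentation ρ := inferInstance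
        haveI hnt : Nontrivial (Subrepresentation ρ) := by
          refine ⟨⊥, ⊤, ?_⟩
          intro h
          have h1 : (⊥ : Submodule ℂ (Fin n → ℂ)) = ⊤ := congrArg Subrepresentation.toSubmodule h
          have h2 : finrank ℂ (⊥ : Submodule ℂ (Fin n → ℂ)) = finrank ℂ (⊤ : Submodule ℂ (Fin n → ℂ)) := by
            rw [h1]
          rw [finrank_bot, finrank_top, finrank_fintype_fun_eq_card, Fintype.card_fin] at h2
          omega
        obtain ⟨σ, hσ⟩ : ∃ σ : Subrepresentation ρ, ¬ (σ = ⊥ ∨ σ = ⊤) := by
          by_contra hcon
          push Not at hcon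
          exact hirr ⟨hcon⟩
        push Not at hσ
        obtain ⟨τ, hτ⟩ := hss.exists_isCompl σ
        have hτtop : τ ≠ ⊤ := by
          intro h
          have h1 := hτ.inf_eq_bot
          rw [h, inf_top_eq] at h1
          exact hσ.1 h1
        have key : ∀ σ : Subrepresentation ρ, σ ≠ ⊤ → ∀ v ∈ σ.toSubmodule, ρ g v = v := by
          intro σ hσ v hv
          have hlt : finrank ℂ σ.toSubmodule < m + 1 := by
            have h1 : finrank ℂ (Fin n → ℂ) = m + 1 := by
              rw [finrank_fintype_fun_eq_card, Fintype.card_fin, hnm]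
            rw [← h1]
            apply Submodule.finrank_lt
            intro h
            exact hσ (Subrepresentation.toSubmodule_injective h)
          have htriv := acts_trivially_transfer (ih g hD) (Nat.lt_succ_iff.mp hlt)
            σ.toRepresentation
          have h3 : σ.toRepresentation g ⟨v, hv⟩ = ⟨v, hv⟩ := by rw [htriv]; rfl
          exact congrArg Subtype.val h3
        apply LinearMap.ext
        intro v
        have hv : v ∈ (σ ⊔ τ).toSubmodule := by
          rw [hτ.sup_eq_top]; trivial
        rw [Subrepresentation.toSubmodule_sup] at hv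
        obtain ⟨x, hx, y, hy, rfl⟩ := Submodule.mem_sup.mp hv
        rw [map_add, key σ hσ.2 x hx, key τ hτtop y hy]
        rfl
  -- conclusion via the regular representation
  refine ⟨⟨Nat.card G, ?_⟩⟩
  rw [eq_bot_iff]
  intro g hg
  rw [Subgroup.mem_bot]
  have h1 : permRep G G g = 1 := acts_trivially_transfer (Q _ g hg) (by
    rw [finrank_fintype_fun_eq_card, Nat.card_eq_fintype_card]) _
  have h2 := congrFun (congrArg (fun f => f (Pi.single (1 : G) (1 : ℂ))) h1) g
  have h3 : (1 : G) = g := by
    by_contra hne
    rw [permRep_apply] at h2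
    simp [Pi.single_apply, Ne.symm hne] at h2
  exact h3.symm

end Cfsg.Agent.S0175
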