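import Cfsg.Agent.Characters.CCCounting
import Cfsg.Agent.S0154
import Cfsg.Statements.S0182
set_option linter.all false

-- part: Characters/CCFinal
section
/-!
# A nontrivial finite CA-group of odd order is not perfect
-/

set_option autoImplicit false

open scoped ComplexConjugate
open Cfsg

namespace Cfsg.Agent.Characters.CCFinal

open CCBasic CCOrbit CCInduce CCExceptional CCValues CCEstimates CCCounting

universe u

theorem sum_normSq_irr {G : Type u} [Group G] [Fintype G] (ψ : IrrCharacter G) :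
    ∑ y : G, Complex.normSq ((ψ : G → ℂ) y) = Nat.card G := by
  have h := Core.classInner_irr_self ψ.2
  rw [Core.classInner_def] at h
  have hn : (Nat.card G : ℂ) ≠ 0 := Core.card_ne_zero_complex
  have h1 := congrArg (fun z => (Nat.card G : ℂ) * z) h
  rw [← mul_assoc, mul_inv_cancel₀ hn, one_mul, mul_one] at h1
  have h2 : ((∑ y : G, Complex.normSq ((ψ : G → ℂ) y) : ℝ) : ℂ) = ((Nat.card G : ℝ) : ℂ) := by
    push_cast
    rw [← h1]
    refine Finset.sum_congr rfl (fun y _ => ?_)
    rw [Complex.mul_conj]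
  exact_mod_cast h2

/-- The final inequality. -/
theorem final_ineq {g n L w d t good bad : ℝ} (hg : 0 < g) (hn : 0 < n) (hL : 1 ≤ L) (hw : 2 ≤ w)
    (hnw : w * L + 1 = n) (hd : 1 < d) (hpart : g = 1 + t + good + bad)
    (ht : L * n * t = g * (n - 1)) (hgood : d + g * (n - L) / n + good ≤ g)
    (hbad : bad ≤ (L - 1) * (g / n)) : False := by
  have h1 : t = g * w / n := by
    have h2 : L * (n * t - g * w) = 0 := by
      linear_combination ht - g * hnw
    have h3 : n * t - g * w = 0 := by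
      rcases mul_eq_zero.1 h2 with h | h
      · linarith
      · exact h
    field_simp
    linarith
  have h4 : g < g * (w + 2 * L - 1) / n := by
    have h5 : g * (w + 2 * L - 1) / n = g * w / n + (g - g * (n - L) / n) + (L - 1) * (g / n) := by
      field_simp
      ring
    rw [h5]
    linarith
  rw [lt_div_iff₀ hn] at h4
  have h6 : n < w + 2 * L - 1 := lt_of_mul_lt_mul_left h4 hg.le
  nlinarith [mul_nonneg (sub_nonneg.2 hw) (sub_nonneg.2 hL)]

theorem commutator_ne_top {G : Type u} [Group G] [Finite G] [Nontrivial G]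
    (hodd : Odd (Nat.card G))
    (hCA : ∀ x : G, x ≠ 1 → ∀ a ∈ Subgroup.centralizer ({x} : Set G),
      ∀ b ∈ Subgroup.centralizer ({x} : Set G), a * b = b * a) : commutator G ≠ ⊤ := by
  classical
  intro hperf
  have : Fintype G := Fintype.ofFinite G
  have : Finite (IrrCharacter G) := Core.finite_irr
  have : Fintype (IrrCharacter G) := Fintype.ofFinite _
  let C : G → Subgroup G := fun y => Subgroup.centralizer ({y} : Set G)
  have hC : ∀ y, y ≠ 1 → IsCC (C y) := fun y hy => isCC_centralizer hCA hy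
  have hyC : ∀ y : G, y ∈ C y := fun y => by
    rw [Subgroup.mem_centralizer_singleton_iff]
  have hfin : ∀ y : G, Finite (NP (C y)) := fun y => by
    have : Finite (IrrCharacter (C y)) := Core.finite_irr
    infer_instance
  have hfin1 : ∀ y : G, Fintype (NP (C y)) := fun y => Fintype.ofFinite _
  have hfin2 : ∀ y : G, Fintype (C y) := fun y => Fintype.ofFinite _
  have X : ∀ y : G, y ≠ 1 → Exc (C y) := fun y hy => Classical.choice (nonempty_exc (hC y hy))
  let R : G → Finset (IrrCharacter G) := fun y => if h : y ≠ 1 then rng (X y h) else ∅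
  have hR : ∀ (y : G) (hy : y ≠ 1), R y = rng (X y hy) := fun y hy => dif_pos hy
  have R1 : ∀ y, y ≠ 1 → (R y).card * len (C y) + 1 = Nat.card (C y) := by
    intro y hy
    rw [hR y hy]
    exact card_rng_mul_len (hC y hy) _
  have R2 : ∀ y, y ≠ 1 → 2 ≤ (R y).card := by
    intro y hy
    rw [hR y hy]
    exact two_le_card_rng hodd (hC y hy) _
  have R3 : ∀ y z, y ≠ 1 → z ≠ 1 → ∀ ψ, ψ ∈ R y → ψ ∈ R z →
      ∃ x ∈ C y, x ≠ 1 ∧ ∃ w ∈ C z, IsConj x w := by
    intro y z hy hz ψ h1 h2
    rw [hR y hy] at h1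
    rw [hR z hz] at h2
    obtain ⟨l, hl⟩ := (mem_rng _ _).1 h1
    obtain ⟨m, hm⟩ := (mem_rng _ _).1 h2
    by_contra hcon
    push Not at hcon
    exact disjoint_exceptional hodd (hC y hy) (hC z hz) (X y hy) (X z hz) hcon l m
      (hl.trans hm.symm)
  have R4 : ∀ y, y ≠ 1 → one G ∉ R y := by
    intro y hy h
    rw [hR y hy] at h
    obtain ⟨l, hl⟩ := (mem_rng _ _).1 h
    exact one_ne_exceptional hodd (hC y hy) _ l hl.symm
  have R5 : ∀ y z, y ≠ 1 → z ≠ 1 → (∀ x ∈ C y, x ≠ 1 → ∀ w ∈ C z, ¬ IsConj x w) →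
      ∀ φ ∈ R y, ∀ ψ ∈ R z, (φ : G → ℂ) z = 0 → (ψ : G → ℂ) y = 0 → False := by
    intro y z hy hz hyz φ hφ ψ hψ h1 h2
    rw [hR y hy] at hφ
    rw [hR z hz] at hψ
    obtain ⟨l, rfl⟩ := (mem_rng _ _).1 hφ
    obtain ⟨m, rfl⟩ := (mem_rng _ _).1 hψ
    exact parity hodd (hC y hy) (hC z hz) _ _ hyz l m (hyC y) hy (hyC z) hz h1 h2
  have R6 : ∀ y, y ≠ 1 → ∀ ψ, ψ ∉ R y → ∃ c : ℤ, (ψ : G → ℂ) y = c := by
    intro y hy ψ hψ
    rw [hR y hy, mem_rng] at hψ
    push Not at hψ
    obtain ⟨c, hc⟩ := apply_eq_of_not_exceptional (hC y hy) (X y hy) (ψ := ψ)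
      (fun l => (hψ l).symm)
    exact ⟨c, hc ⟨y, hyC y⟩ (fun h => hy (congrArg Subtype.val h))⟩
  have R7 : ∀ y, y ≠ 1 → ∀ ψ ∈ R y,
      (len (C y) : ℝ) * (Nat.card (C y) - len (C y)) ≤ q (C y) ψ := by
    intro y hy ψ hψ
    rw [hR y hy] at hψ
    obtain ⟨l, rfl⟩ := (mem_rng _ _).1 hψ
    exact q_exceptional hodd (hC y hy) _ l
  have R8 : ∀ y, y ≠ 1 → (Finset.univ.filter (fun ψ : IrrCharacter G => ψ ∉ R y ∧ ψ ≠ one G ∧
      (ψ : G → ℂ) y ≠ 0)).card < len (C y) := by
    intro y hy
    rw [hR y hy]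
    exact card_nonvanishing_lt hodd (hC y hy) (X y hy) (a₀ := ⟨y, hyC y⟩)
      (fun h => hy (congrArg Subtype.val h))
  -- being conjugate into a centralizer
  have hnc : ∀ y z : G, y ≠ 1 → z ≠ 1 → ¬ InConj (C y) z →
      ∀ x ∈ C y, x ≠ 1 → ∀ w ∈ C z, ¬ IsConj x w := by
    intro y z hy hz h x hx hx1 w hw hc
    exact h (inConj_of_conj (hC y hy) (hC z hz) hx hx1 hw hc (hyC z) hz)
  -- minimal choice
  obtain ⟨z₀, hz₀⟩ := exists_ne (1 : G)
  obtain ⟨x₀, hx₀, hmin⟩ := Finset.exists_min_image (Finset.univ.filter (fun y : G => y ≠ 1))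
    (fun y => Nat.card (C y)) ⟨z₀, by simp [hz₀]⟩
  replace hx₀ : x₀ ≠ 1 := (Finset.mem_filter.1 hx₀).2
  replace hmin : ∀ y : G, y ≠ 1 → Nat.card (C x₀) ≤ Nat.card (C y) := fun y hy =>
    hmin y (by simp [hy])
  obtain ⟨χ, hχ⟩ : (R x₀).Nonempty := Finset.card_pos.1 (by have := R2 x₀ hx₀; omega)
  obtain ⟨d, hd0, hd⟩ := Core.isIrr_apply_one χ.2
  have hd1 : 1 < d := by
    by_contra hle
    have hd1 : d = 1 := by omega
    have hcard := Cfsg.Agent.S0154.result (G := G)
    rw [hperf, Subgroup.index_top, Nat.card_eq_one_iff_unique] at hcard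
    obtain ⟨hs, -⟩ := hcard
    have h1 : (⟨χ, by rw [hd, hd1]; simp⟩ : {χ : IrrCharacter G // (χ : G → ℂ) 1 = 1}) =
        ⟨one G, rfl⟩ := hs.elim _ _
    have h2 : χ = one G := congrArg Subtype.val h1
    exact R4 x₀ hx₀ (h2 ▸ hχ)
  set T := Finset.univ.filter (fun y : G => InConj (C x₀) y) with hT
  set Good := Finset.univ.filter (fun y : G => y ≠ 1 ∧ ¬ InConj (C x₀) y ∧ (χ : G → ℂ) y ≠ 0)
    with hGood
  set Bad := Finset.univ.filter (fun y : G => y ≠ 1 ∧ ¬ InConj (C x₀) y ∧ (χ : G → ℂ) y = 0)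
    with hBad
  set S := Finset.univ.filter (fun ψ : IrrCharacter G => ψ ∉ R x₀ ∧ ψ ≠ one G ∧
      (ψ : G → ℂ) x₀ ≠ 0) with hS
  have hg : (0 : ℝ) < Nat.card G := by exact_mod_cast Nat.card_pos
  have hn : (0 : ℝ) < Nat.card (C x₀) := by exact_mod_cast Nat.card_pos
  have hLn : ∀ y, (len (C y) : ℝ) * Nat.card (C y) =
      Nat.card (Subgroup.normalizer (C y : Set G)) := by
    intro y
    exact_mod_cast len_mul_card (C y)
  have hRr : ∀ y, y ≠ 1 → ((R y).card : ℝ) * len (C y) + 1 = Nat.card (C y) := by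
    intro y hy
    exact_mod_cast R1 y hy
  have hLpos : ∀ y, (1 : ℝ) ≤ len (C y) := by
    intro y
    exact_mod_cast len_pos (C y)
  -- the partition
  have hpart : (Nat.card G : ℝ) = 1 + T.card + Good.card + Bad.card := by
    have h1 : ∀ y : G, (1 : ℝ) = (if y = 1 then 1 else 0) + (if InConj (C x₀) y then 1 else 0) +
        (if (y ≠ 1 ∧ ¬ InConj (C x₀) y ∧ (χ : G → ℂ) y ≠ 0) then 1 else 0) +
        (if (y ≠ 1 ∧ ¬ InConj (C x₀) y ∧ (χ : G → ℂ) y = 0) then 1 else 0) := by
      intro y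
      by_cases h1 : y = 1
      · subst h1
        simp [one_not_inConj]
      · by_cases h2 : InConj (C x₀) y
        · simp [h1, h2]
        · by_cases h3 : (χ : G → ℂ) y = 0
          · simp [h1, h2, h3]
          · simp [h1, h2, h3]
    have h2 : (Nat.card G : ℝ) = ∑ y : G, (1 : ℝ) := by
      simp
    rw [h2, Finset.sum_congr rfl (fun y _ => h1 y), Finset.sum_add_distrib,
      Finset.sum_add_distrib, Finset.sum_add_distrib, hT, hGood, hBad, Finset.card_filter,
      Finset.card_filter, Finset.card_filter]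
    push_cast
    simp
  -- the first orthogonality relation
  have hgood : (d : ℝ) ^ 2 + Nat.card G * (Nat.card (C x₀) - len (C x₀)) / Nat.card (C x₀) +
      Good.card ≤ Nat.card G := by
    have h1 := sum_inConj (hC x₀ hx₀) (fun y => Complex.normSq ((χ : G → ℂ) y))
      (fun g h => by rw [Core.isIrr_isClassFunction χ.2 g h])
    have h2 := R7 x₀ hx₀ χ hχ
    have h3 : (Nat.card G : ℝ) * (Nat.card (C x₀) - len (C x₀)) / Nat.card (C x₀) ≤
        ∑ y ∈ T, Complex.normSq ((χ : G → ℂ) y) := by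
      rw [div_le_iff₀ hn]
      have h4 : (len (C x₀) : ℝ) * (Nat.card G * (Nat.card (C x₀) - len (C x₀))) ≤
          len (C x₀) * ((∑ y ∈ T, Complex.normSq ((χ : G → ℂ) y)) * Nat.card (C x₀)) := by
        calc (len (C x₀) : ℝ) * (Nat.card G * (Nat.card (C x₀) - len (C x₀)))
            = Nat.card G * (len (C x₀) * (Nat.card (C x₀) - len (C x₀))) := by ring
          _ ≤ Nat.card G * q (C x₀) χ := mul_le_mul_of_nonneg_left h2 hg.le
          _ = Nat.card (Subgroup.normalizer (C x₀ : Set G)) *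
              ∑ y ∈ T, Complex.normSq ((χ : G → ℂ) y) := h1.symm
          _ = _ := by rw [← hLn x₀]; ring
      exact le_of_mul_le_mul_left h4 (by have := hLpos x₀; linarith)
    have h5 : (Good.card : ℝ) ≤ ∑ y ∈ Good, Complex.normSq ((χ : G → ℂ) y) := by
      have h6 : (Good.card : ℝ) = ∑ y ∈ Good, (1 : ℝ) := by simp
      rw [h6]
      apply Finset.sum_le_sum
      intro y hy
      obtain ⟨-, hy1, hy2, hy3⟩ := Finset.mem_filter.1 hy
      have h7 : χ ∉ R y := by
        intro h
        obtain ⟨x, hx, hx1, w, hw, hc⟩ := R3 x₀ y hx₀ hy1 χ hχ h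
        exact hnc x₀ y hx₀ hy1 hy2 x hx hx1 w hw hc
      obtain ⟨c, hc⟩ := R6 y hy1 χ h7
      have hc0 : c ≠ 0 := by
        rintro rfl
        apply hy3
        rw [hc]
        simp
      rw [hc, Complex.normSq_intCast]
      have h8 : 1 ≤ c * c := by
        have := Int.one_le_abs hc0
        rw [← abs_mul_abs_self]
        nlinarith
      exact_mod_cast h8
    have h9 : Complex.normSq ((χ : G → ℂ) 1) = (d : ℝ) ^ 2 := by
      rw [hd, Complex.normSq_natCast, pow_two]
    have h1T : (1 : G) ∉ T ∪ Good := by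
      rw [Finset.mem_union, not_or]
      constructor
      · intro h
        exact one_not_inConj _ (Finset.mem_filter.1 h).2
      · intro h
        exact (Finset.mem_filter.1 h).2.1 rfl
    have hTG : Disjoint T Good := by
      rw [Finset.disjoint_left]
      intro y h1 h2
      exact (Finset.mem_filter.1 h2).2.2.1 (Finset.mem_filter.1 h1).2
    have h10 : ∑ y ∈ insert 1 (T ∪ Good), Complex.normSq ((χ : G → ℂ) y) ≤
        ∑ y : G, Complex.normSq ((χ : G → ℂ) y) :=
      Finset.sum_le_sum_of_subset_of_nonneg (Finset.subset_univ _)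
        (fun _ _ _ => Complex.normSq_nonneg _)
    rw [sum_normSq_irr, Finset.sum_insert h1T, Finset.sum_union hTG, h9] at h10
    linarith
  -- the bad elements
  have hbadψ : ∀ ψ : IrrCharacter G,
      ∑ y ∈ Bad, (if ψ ∈ R y then ((R y).card : ℝ)⁻¹ else 0) ≤
        Nat.card G / Nat.card (C x₀) := by
    intro ψ
    by_cases hex : ∃ y₁ ∈ Bad, ψ ∈ R y₁
    · obtain ⟨y₁, hy₁, hψ₁⟩ := hex
      have hy₁1 : y₁ ≠ 1 := (Finset.mem_filter.1 hy₁).2.1
      have h1 : ∑ y ∈ Bad, (if ψ ∈ R y then ((R y).card : ℝ)⁻¹ else 0) ≤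
          ∑ y ∈ Finset.univ.filter (fun y : G => InConj (C y₁) y), ((R y₁).card : ℝ)⁻¹ := by
        rw [← Finset.sum_filter]
        have h2 : ∀ y ∈ Bad.filter (fun y => ψ ∈ R y), InConj (C y₁) y ∧
            ((R y).card : ℝ)⁻¹ = ((R y₁).card : ℝ)⁻¹ := by
          intro y hy
          rw [Finset.mem_filter] at hy
          have hy1 : y ≠ 1 := (Finset.mem_filter.1 hy.1).2.1
          obtain ⟨x, hx, hx1, w, hw, hc⟩ := R3 y₁ y hy₁1 hy1 ψ hψ₁ hy.2
          refine ⟨inConj_of_conj (hC y₁ hy₁1) (hC y hy1) hx hx1 hw hc (hyC y) hy1, ?_⟩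
          obtain ⟨h3, h4⟩ := card_eq_of_conj (hC y₁ hy₁1) (hC y hy1) hx hx1 hw hc
          have h5 : len (C y₁) = len (C y) := by
            unfold len
            rw [h3, h4]
          have h6 := R1 y₁ hy₁1
          have h7 := R1 y hy1
          rw [h3, h5] at h6
          have h8 : (R y).card * len (C y) = (R y₁).card * len (C y) := by omega
          have h9 : (R y).card = (R y₁).card := Nat.eq_of_mul_eq_mul_right (len_pos _) h8
          rw [h9]
        rw [Finset.sum_congr rfl (fun y hy => (h2 y hy).2)]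
        apply Finset.sum_le_sum_of_subset_of_nonneg
        · intro y hy
          rw [Finset.mem_filter]
          exact ⟨Finset.mem_univ _, (h2 y hy).1⟩
        · intro _ _ _
          exact inv_nonneg.2 (Nat.cast_nonneg _)
      refine h1.trans ?_
      rw [Finset.sum_const, nsmul_eq_mul]
      have h10 := card_inConj (hC y₁ hy₁1)
      rw [← hLn y₁] at h10
      have h11 := hRr y₁ hy₁1
      have h12 : (0 : ℝ) < (R y₁).card := by
        have := R2 y₁ hy₁1
        have : 0 < (R y₁).card := by omega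
        exact_mod_cast this
      have h13 : (0 : ℝ) < Nat.card (C y₁) := by exact_mod_cast Nat.card_pos
      have h14 : (0 : ℝ) < len (C y₁) := by have := hLpos y₁; linarith
      have h15 : ((Finset.univ.filter (fun y : G => InConj (C y₁) y)).card : ℝ) *
          ((R y₁).card : ℝ)⁻¹ = Nat.card G / Nat.card (C y₁) := by
        rw [← div_eq_mul_inv, div_eq_div_iff h12.ne' h13.ne']
        have h16 : (len (C y₁) : ℝ) *
            (((Finset.univ.filter (fun y : G => InConj (C y₁) y)).card : ℝ) * Nat.card (C y₁)) =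
            len (C y₁) * (Nat.card G * (R y₁).card) := by
          linear_combination h10 - (Nat.card G : ℝ) * h11
        exact mul_left_cancel₀ h14.ne' h16
      rw [h15]
      apply div_le_div_of_nonneg_left hg.le hn
      exact_mod_cast hmin y₁ hy₁1
    · push Not at hex
      rw [Finset.sum_eq_zero]
      · exact div_nonneg hg.le hn.le
      · intro y hy
        rw [if_neg (hex y hy)]
  have hbad : (Bad.card : ℝ) ≤ (len (C x₀) - 1) * (Nat.card G / Nat.card (C x₀)) := by
    have h1 : ∀ y ∈ Bad, (1 : ℝ) = ∑ ψ ∈ S, (if ψ ∈ R y then ((R y).card : ℝ)⁻¹ else 0) := by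
      intro y hy
      obtain ⟨-, hy1, hy2, hy3⟩ := Finset.mem_filter.1 hy
      have hsub : R y ⊆ S := by
        intro ψ hψ
        rw [hS, Finset.mem_filter]
        refine ⟨Finset.mem_univ _, ?_, ?_, ?_⟩
        · intro h
          obtain ⟨x, hx, hx1, w, hw, hc⟩ := R3 x₀ y hx₀ hy1 ψ h hψ
          exact hnc x₀ y hx₀ hy1 hy2 x hx hx1 w hw hc
        · rintro rfl
          exact R4 y hy1 hψ
        · intro h
          exact R5 x₀ y hx₀ hy1 (hnc x₀ y hx₀ hy1 hy2) χ hχ ψ hψ hy3 h
      have hpos : (0 : ℝ) < (R y).card := by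
        have := R2 y hy1
        have : 0 < (R y).card := by omega
        exact_mod_cast this
      rw [← Finset.sum_filter, Finset.filter_mem_eq_inter, Finset.inter_eq_right.2 hsub,
        Finset.sum_const, nsmul_eq_mul, mul_inv_cancel₀ hpos.ne']
    have h2 : (Bad.card : ℝ) = ∑ y ∈ Bad, (1 : ℝ) := by simp
    rw [h2, Finset.sum_congr rfl h1, Finset.sum_comm]
    calc ∑ ψ ∈ S, ∑ y ∈ Bad, (if ψ ∈ R y then ((R y).card : ℝ)⁻¹ else 0)
        ≤ ∑ ψ ∈ S, (Nat.card G : ℝ) / Nat.card (C x₀) := Finset.sum_le_sum (fun ψ _ => hbadψ ψ)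
      _ = S.card * (Nat.card G / Nat.card (C x₀)) := by rw [Finset.sum_const, nsmul_eq_mul]
      _ ≤ _ := by
          apply mul_le_mul_of_nonneg_right _ (div_nonneg hg.le hn.le)
          have h3 := R8 x₀ hx₀
          have h4 : S.card + 1 ≤ len (C x₀) := h3
          have h5 : (S.card : ℝ) + 1 ≤ len (C x₀) := by exact_mod_cast h4
          linarith
  have hd2 : (1 : ℝ) < (d : ℝ) ^ 2 := by
    have : (1 : ℝ) < d := by exact_mod_cast hd1
    nlinarith
  have hw2 : (2 : ℝ) ≤ (R x₀).card := by exact_mod_cast R2 x₀ hx₀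
  have ht := card_inConj (hC x₀ hx₀)
  rw [← hLn x₀] at ht
  exact final_ineq hg hn (hLpos x₀) hw2 (hRr x₀ hx₀) hd2 hpart ht hgood hbad

end Cfsg.Agent.Characters.CCFinal
end

-- part: S0182
section
set_option autoImplicit false
open Cfsg

namespace Cfsg.Agent.S0182

/-- The CA-Theorem for odd order: a finite group of odd order in which every non-identity element has an abelian centralizer is solvable. -/
theorem result {G : Type*} [Group G] [Finite G] (hodd : Odd (Nat.card G)) (hCA : ∀ x : G, x ≠ 1 → ∀ a ∈ Subgroup.centralizer ({x} : Set G), ∀ b ∈ Subgroup.centralizer ({x} : Set G), a * b = b * a) : Group.IsSolvable G := by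
  rw [Group.isSolvable_iff_commutator_lt]
  intro H hH
  have hnt : Nontrivial H := (Subgroup.nontrivial_iff_ne_bot H).2 hH
  have hoddH : Odd (Nat.card H) := by
    obtain ⟨c, hc⟩ := Subgroup.card_subgroup_dvd_card H
    rw [hc] at hodd
    exact (Nat.odd_mul.1 hodd).1
  have hCAH : ∀ x : H, x ≠ 1 → ∀ a ∈ Subgroup.centralizer ({x} : Set H),
      ∀ b ∈ Subgroup.centralizer ({x} : Set H), a * b = b * a := by
    intro x hx a ha b hb
    rw [Subgroup.mem_centralizer_singleton_iff] at ha hb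
    apply Subtype.ext
    refine hCA (x : G) (fun h => hx (Subtype.ext h)) a ?_ b ?_
    · rw [Subgroup.mem_centralizer_singleton_iff]
      exact congrArg Subtype.val ha
    · rw [Subgroup.mem_centralizer_singleton_iff]
      exact congrArg Subtype.val hb
  have hne := Cfsg.Agent.Characters.CCFinal.commutator_ne_top hoddH hCAH
  have h1 : (commutator H).map H.subtype = ⁅H, H⁆ := by
    rw [commutator_def, Subgroup.map_commutator, ← MonoidHom.range_eq_map, Subgroup.range_subtype]
  have hle : ⁅H, H⁆ ≤ H := by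
    rw [← h1]
    exact Subgroup.map_subtype_le _
  refine lt_of_le_of_ne hle (fun h => hne ?_)
  rw [h] at h1
  apply Subgroup.map_injective H.subtype_injective
  rw [h1, ← MonoidHom.range_eq_map, Subgroup.range_subtype]

end Cfsg.Agent.S0182
end
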