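import Cfsg.Statements.S0186
import Cfsg.Agent.Characters.Core
import Cfsg.Agent.S0134
import Cfsg.Agent.S0185
set_option linter.all false

set_option autoImplicit false
open Cfsg

namespace Cfsg.Agent.S0186

open Cfsg.Agent.Characters in
/-- A finite group with many classes has a non-principal irreducible representation of degree
smaller than `p`, provided `p ^ 2` divides its order. -/
theorem exists_small_irr {G : Type*} [Group G] [Finite G] (p : ℕ)
    (hp2 : p ^ 2 ∣ Nat.card G) (hmany : Nat.card G < p ^ 2 * Nat.card (ConjClasses G)) :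
    ∃ (χ : IrrCharacter G) (d : ℕ), (χ : G → ℂ) ≠ 1 ∧ (χ : G → ℂ) 1 = d ∧ d < p := by
  classical
  by_contra hcon
  push Not at hcon
  have hfin : Finite (IrrCharacter G) := Core.finite_irr
  have hft : Fintype (IrrCharacter G) := Fintype.ofFinite _
  choose d hd hd' using fun χ : IrrCharacter G => Core.isIrr_apply_one χ.2
  have hsum : ∑ χ : IrrCharacter G, d χ ^ 2 = Nat.card G := by
    have h := Cfsg.Agent.S0134.result (G := G)
    rw [finsum_eq_sum_of_fintype] at h
    have h2 : ((∑ χ : IrrCharacter G, d χ ^ 2 : ℕ) : ℂ) = (Nat.card G : ℂ) := by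
      rw [← h]
      push_cast
      exact Finset.sum_congr rfl fun χ _ => by rw [hd']
    exact_mod_cast h2
  let χ₁ : IrrCharacter G := ⟨1, Core.isIrr_one⟩
  have hcard : Fintype.card (IrrCharacter G) = Nat.card (ConjClasses G) := by
    rw [← Nat.card_eq_fintype_card, Core.card_irr]
  have h1 : (Fintype.card (IrrCharacter G) - 1) * p ^ 2 + d χ₁ ^ 2 ≤ Nat.card G := by
    rw [← hsum, ← Finset.add_sum_erase Finset.univ _ (Finset.mem_univ χ₁), add_comm]
    refine Nat.add_le_add_left ?_ _
    have h2 : (Finset.univ.erase χ₁).card = Fintype.card (IrrCharacter G) - 1 := by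
      rw [Finset.card_erase_of_mem (Finset.mem_univ _), Finset.card_univ]
    rw [← h2, ← smul_eq_mul]
    refine Finset.card_nsmul_le_sum _ _ _ fun χ hχ => ?_
    refine Nat.pow_le_pow_left (hcon χ (d χ) (fun h => ?_) (hd' χ)) 2
    exact (Finset.ne_of_mem_erase hχ) (Subtype.ext h)
  have hd1 : 1 ≤ d χ₁ ^ 2 := Nat.one_le_pow _ _ (hd χ₁)
  have hk : 1 ≤ Fintype.card (IrrCharacter G) := Fintype.card_pos_iff.2 ⟨χ₁⟩
  obtain ⟨m, hm⟩ := hp2
  rw [← hcard] at hmany
  obtain ⟨k, hk'⟩ := Nat.exists_eq_add_of_le hk
  rw [hk'] at h1 hmany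
  rw [hm] at h1 hmany
  have hmk : m < 1 + k := lt_of_mul_lt_mul_left hmany (Nat.zero_le _)
  have h3 : p ^ 2 * m ≤ p ^ 2 * k := Nat.mul_le_mul_left _ (by omega)
  have h4 : (1 + k - 1) * p ^ 2 = p ^ 2 * k := by rw [Nat.add_sub_cancel_left, mul_comm]
  omega

/-- Let G be a finite simple group of order n and p a prime dividing n. If G has more than n / p^2 conjugacy classes, then every Sylow p-subgroup of G is abelian. -/
theorem result {G : Type*} [Group G] [Finite G] [IsSimpleGroup G] (p : ℕ) [Fact p.Prime] (hp : p ∣ Nat.card G) (hmany : Nat.card G < p ^ 2 * Nat.card (ConjClasses G)) (P : Sylow p G) (a b : G) (ha : a ∈ P) (hb : b ∈ P) : a * b = b * a := by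
  classical
  have hpp : p.Prime := Fact.out
  by_cases hp2 : p ^ 2 ∣ Nat.card G
  · obtain ⟨⟨χ, n, ρ, hρ, hχ⟩, d, hne, hd, hdp⟩ := exists_small_irr p hp2 hmany
    change χ ≠ 1 at hne
    change χ 1 = d at hd
    subst hχ
    have hn : n = d := by
      rw [Representation.char_one, Module.finrank_fin_fun] at hd
      exact_mod_cast hd
    have hinj : Function.Injective ρ := by
      rcases eq_or_ne (MonoidHom.ker ρ) ⊤ with htop | htop
      · exfalso
        have : Fintype G := Fintype.ofFinite G
        have hirr : IsIrrCharacter G ρ.character := ⟨n, ρ, hρ, rfl⟩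
        have h0 := Cfsg.Agent.Characters.Core.classInner_irr_ne hirr
          Cfsg.Agent.Characters.Core.isIrr_one hne
        have hconst : ρ.character = (n : ℂ) • (1 : G → ℂ) := by
          funext g
          have hg : ρ g = 1 := by
            have : g ∈ MonoidHom.ker ρ := by rw [htop]; trivial
            exact this
          show LinearMap.trace ℂ _ (ρ g) = _
          rw [hg, LinearMap.trace_one, Module.finrank_fin_fun]
          simp
        rw [hconst, Cfsg.Agent.Characters.Core.classInner_smul_left,
          Cfsg.Agent.Characters.Core.classInner_irr_self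
            Cfsg.Agent.Characters.Core.isIrr_one, mul_one] at h0
        obtain ⟨m, hm, hm'⟩ := Cfsg.Agent.Characters.Core.isIrr_apply_one hirr
        rw [hconst] at hm'
        simp only [Pi.smul_apply, Pi.one_apply, smul_eq_mul, mul_one] at hm'
        rw [h0] at hm'
        have : m = 0 := by exact_mod_cast hm'.symm
        omega
      · have hbot : MonoidHom.ker ρ = ⊥ :=
          ((inferInstance : (MonoidHom.ker ρ).Normal).eq_bot_or_eq_top).resolve_right htop
        exact (MonoidHom.ker_eq_bot_iff ρ).1 hbot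
    have hres := Cfsg.Agent.S0185.result (G := P) (ρ.comp (P : Subgroup G).subtype)
      (hinj.comp Subtype.val_injective) (fun q hq hqd => by
        obtain ⟨k, hk⟩ := IsPGroup.iff_card.1 P.2
        rw [show Nat.card P = p ^ k from hk] at hqd
        have : q = p := (Nat.prime_dvd_prime_iff_eq hq hpp).1 (hq.dvd_of_dvd_pow hqd)
        rw [Module.finrank_fin_fun, hn, this]
        exact hdp) ⟨a, ha⟩ ⟨b, hb⟩
    exact congrArg Subtype.val hres
  · have hcard : Nat.card P = p := by
      rw [Sylow.card_eq_multiplicity]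
      have h1 : (Nat.card G).factorization p = 1 := by
        have hn0 : Nat.card G ≠ 0 := Nat.card_pos.ne'
        have hle : ¬ 2 ≤ (Nat.card G).factorization p := fun h =>
          hp2 ((hpp.pow_dvd_iff_le_factorization hn0).2 h)
        have hge : 1 ≤ (Nat.card G).factorization p :=
          (hpp.pow_dvd_iff_le_factorization hn0).1 (by simpa using hp)
        omega
      rw [h1, pow_one]
    have : IsCyclic P := isCyclic_of_prime_card hcard
    obtain ⟨g, hg⟩ := this.exists_generator
    obtain ⟨i, hi⟩ := hg ⟨a, ha⟩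
    obtain ⟨j, hj⟩ := hg ⟨b, hb⟩
    have : (⟨a, ha⟩ : P) * ⟨b, hb⟩ = ⟨b, hb⟩ * ⟨a, ha⟩ := by
      rw [← hi, ← hj]
      exact (zpow_mul_comm g i j)
    exact congrArg Subtype.val this

end Cfsg.Agent.S0186
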