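import Cfsg.Statements.S0196
import Mathlib
set_option linter.all false

set_option autoImplicit false
open Cfsg

namespace Cfsg.Agent.S0196

/-- If every stabilizer has index `m`, then `m` divides the number of points. -/
theorem dvd_card_of_index_stabilizer {K X : Type*} [Group K] [MulAction K X] [Finite X]
    (m : ℕ) (h : ∀ x : X, (MulAction.stabilizer K x).index = m) : m ∣ Nat.card X := by
  classical
  have e := MulAction.selfEquivSigmaOrbits K X
  haveI : Finite (MulAction.orbitRel.Quotient K X) :=
    Finite.of_surjective (Quotient.mk _ : X → _) Quotient.mk_surjective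
  haveI := Fintype.ofFinite (MulAction.orbitRel.Quotient K X)
  haveI : ∀ ω : MulAction.orbitRel.Quotient K X, Finite (MulAction.orbit K ω.out) :=
    fun ω => Subtype.finite
  rw [Nat.card_congr e, Nat.card_sigma]
  apply Finset.dvd_sum
  intro ω _
  rw [← h ω.out, MulAction.index_stabilizer, Nat.card_coe_set_eq]

/-- Let A be a subgroup of a finite group G that equals the centralizer of each of its non-identity elements, and let N be its normalizer. Then the index of A in N divides |A| − 1 (N/A permutes the non-identity elements of A in orbits of full length). -/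
theorem result {G : Type*} [Group G] [Finite G] (A : Subgroup G) (hA : ∀ x ∈ A, x ≠ 1 → Subgroup.centralizer ({x} : Set G) = A) : (A.subgroupOf (Subgroup.normalizer (A : Set G))).index ∣ Nat.card A - 1 := by
  classical
  set N := Subgroup.normalizer (A : Set G) with hN
  let X := {x : G // x ∈ A ∧ x ≠ 1}
  letI act : MulAction N X := {
    smul := fun n x => ⟨(n : G) * x.1 * (n : G)⁻¹, by
      constructor
      · exact (Subgroup.mem_normalizer_iff.mp n.2 x.1).mp x.2.1
      · intro h
        apply x.2.2
        have := congrArg (fun y => (n : G)⁻¹ * y * (n : G)) h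
        simpa [mul_assoc] using this⟩
    one_smul := by
      intro x
      apply Subtype.ext
      change ((1 : N) : G) * x.1 * ((1 : N) : G)⁻¹ = x.1
      simp
    mul_smul := by
      intro a b x
      apply Subtype.ext
      change ((a * b : N) : G) * x.1 * ((a * b : N) : G)⁻¹ =
        (a : G) * ((b : G) * x.1 * (b : G)⁻¹) * (a : G)⁻¹
      simp [mul_assoc] }
  have hstab : ∀ x : X, MulAction.stabilizer N x = A.subgroupOf N := by
    intro x
    ext n
    rw [MulAction.mem_stabilizer_iff, Subgroup.mem_subgroupOf, ← hA x.1 x.2.1 x.2.2,
      Subgroup.mem_centralizer_singleton_iff]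
    constructor
    · intro h
      have h1 : (n : G) * x.1 * (n : G)⁻¹ = x.1 := congrArg Subtype.val h
      exact mul_inv_eq_iff_eq_mul.mp h1
    · intro h
      apply Subtype.ext
      change (n : G) * x.1 * (n : G)⁻¹ = x.1
      exact mul_inv_eq_iff_eq_mul.mpr h
  have hcard : Nat.card X = Nat.card A - 1 := by
    have e : X ≃ {a : A // a ≠ 1} :=
      { toFun := fun x => ⟨⟨x.1, x.2.1⟩, fun h => x.2.2 (congrArg Subtype.val h)⟩
        invFun := fun a => ⟨a.1.1, a.1.2, fun h => a.2 (Subtype.ext h)⟩
        left_inv := fun x => rfl
        right_inv := fun x => rfl }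
    rw [Nat.card_congr e]
    haveI := Fintype.ofFinite A
    rw [Nat.card_eq_fintype_card, Nat.card_eq_fintype_card, Fintype.card_subtype_compl,
      Fintype.card_subtype_eq]
  rw [← hcard]
  exact dvd_card_of_index_stabilizer (K := N) _ (fun x => by rw [hstab x])

end Cfsg.Agent.S0196
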