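import Cfsg.Statements.S0207
set_option linter.all false
-- import your own Cfsg.Agent.* helpers here

set_option autoImplicit false
open Cfsg

namespace Cfsg.Agent.S0207

/-- With `x` and `y` involutions, `x` inverts every power of `x * y`. -/
private theorem swap_zpow {G : Type*} [Group G] (x y : G) (hx : x * x = 1) (hy : y * y = 1)
    (k : ℤ) : x * (x * y) ^ k = (x * y) ^ (-k) * x := by
  have hx' : x⁻¹ = x := inv_eq_of_mul_eq_one_left hx
  have hy' : y⁻¹ = y := inv_eq_of_mul_eq_one_left hy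
  have h1 : x * (x * y) * x⁻¹ = (x * y)⁻¹ := by
    rw [mul_inv_rev, hx', hy', ← mul_assoc, hx, one_mul]
  have h2 : x * (x * y) ^ k * x⁻¹ = (x * y) ^ (-k) := by
    rw [← conj_zpow, h1, inv_zpow, zpow_neg]
  rw [← h2, inv_mul_cancel_right]

/-- Elements of the subgroup generated by two involutions: powers of `x * y`, or such a power
times `x`. -/
private theorem mem_form {G : Type*} [Group G] (x y : G) (hx : x * x = 1) (hy : y * y = 1)
    (d : G) (hd : d ∈ Subgroup.closure ({x, y} : Set G)) :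
    (∃ k : ℤ, d = (x * y) ^ k) ∨ (∃ k : ℤ, d = (x * y) ^ k * x) := by
  have hx' : x⁻¹ = x := inv_eq_of_mul_eq_one_left hx
  have hy' : y⁻¹ = y := inv_eq_of_mul_eq_one_left hy
  induction hd using Subgroup.closure_induction with
  | mem a ha =>
    rcases ha with rfl | ha
    · exact Or.inr ⟨0, by simp⟩
    · rw [Set.mem_singleton_iff] at ha
      subst ha
      refine Or.inr ⟨-1, ?_⟩
      rw [zpow_neg, zpow_one, mul_inv_rev, hx', hy', mul_assoc, hx, mul_one]
  | one => exact Or.inl ⟨0, by simp⟩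
  | mul a b _ _ iha ihb =>
    rcases iha with ⟨k, rfl⟩ | ⟨k, rfl⟩ <;> rcases ihb with ⟨l, rfl⟩ | ⟨l, rfl⟩
    · exact Or.inl ⟨k + l, by rw [zpow_add]⟩
    · exact Or.inr ⟨k + l, by rw [zpow_add, mul_assoc]⟩
    · refine Or.inr ⟨k + -l, ?_⟩
      rw [mul_assoc, swap_zpow x y hx hy, ← mul_assoc, zpow_add]
    · refine Or.inl ⟨k + -l, ?_⟩
      rw [mul_assoc, ← mul_assoc x, swap_zpow x y hx hy, mul_assoc _ x x, hx, mul_one, zpow_add]
  | inv a _ iha =>
    rcases iha with ⟨k, rfl⟩ | ⟨k, rfl⟩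
    · exact Or.inl ⟨-k, by rw [zpow_neg]⟩
    · refine Or.inr ⟨k, ?_⟩
      rw [mul_inv_rev, hx', ← zpow_neg, swap_zpow x y hx hy, neg_neg]

/-- If x, y are distinct involutions, every element of the subgroup they generate that lies outside the cyclic subgroup generated by xy is an involution. -/
theorem result {G : Type*} [Group G] [Finite G] (x y : G) (hx : orderOf x = 2) (hy : orderOf y = 2) (hxy : x ≠ y) (d : G) (hd : d ∈ Subgroup.closure ({x, y} : Set G)) (hd' : d ∉ Subgroup.zpowers (x * y)) : orderOf d = 2 := by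
  have hx2 : x * x = 1 := by rw [← pow_two, ← hx, pow_orderOf_eq_one]
  have hy2 : y * y = 1 := by rw [← pow_two, ← hy, pow_orderOf_eq_one]
  rcases mem_form x y hx2 hy2 d hd with ⟨k, hk⟩ | ⟨k, hk⟩
  · exact absurd (Subgroup.mem_zpowers_iff.mpr ⟨k, hk.symm⟩) hd'
  · refine orderOf_eq_prime ?_ ?_
    · rw [hk, pow_two, mul_assoc, ← mul_assoc x, swap_zpow x y hx2 hy2, mul_assoc _ x x, hx2,
        mul_one, ← zpow_add, add_neg_cancel, zpow_zero]
    · intro h
      exact hd' (h ▸ Subgroup.one_mem _)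

end Cfsg.Agent.S0207
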