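import Cfsg.Statements.S0210
import Cfsg.Agent.Involutions.DihedralPair
set_option linter.all false

set_option autoImplicit false
open Cfsg

namespace Cfsg.Agent.S0210

/-- If x, y are involutions whose product has even order, no element of the subgroup generated by x and y conjugates x to y. -/
theorem result {G : Type*} [Group G] [Finite G] (x y : G) (hx : orderOf x = 2) (hy : orderOf y = 2) (heven : Even (orderOf (x * y))) (d : G) (hd : d ∈ Subgroup.closure ({x, y} : Set G)) : d * x * d⁻¹ ≠ y := by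
  have hxx : x * x = 1 := by rw [← pow_two, ← hx, pow_orderOf_eq_one]
  have hyy : y * y = 1 := by rw [← pow_two, ← hy, pow_orderOf_eq_one]
  have hx' : x⁻¹ = x := inv_eq_of_mul_eq_one_left hxx
  have hy' : y⁻¹ = y := inv_eq_of_mul_eq_one_left hyy
  intro h
  obtain ⟨k, hk⟩ := Cfsg.Agent.Involutions.DihedralPair.conj_of_mem_closure_pair hxx hyy hd
  rw [h] at hk
  have h1 : (x * y) ^ (2 * k + 1) = 1 := by
    have h2 : (x * y) ^ (2 * k) = y * x⁻¹ := by rw [eq_mul_inv_iff_mul_eq]; exact hk.symm
    rw [zpow_add, zpow_one, h2, hx', mul_assoc, ← mul_assoc x x y, hxx, one_mul, hyy]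
  rw [← orderOf_dvd_iff_zpow_eq_one] at h1
  obtain ⟨m, hm⟩ := heven
  rw [hm] at h1
  obtain ⟨c, hc⟩ := h1
  push_cast at hc
  have : (2 * k + 1) = 2 * (m * c) := by rw [hc]; ring
  omega

end Cfsg.Agent.S0210
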