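import Cfsg.Statements.S0211
import Cfsg.Agent.Involutions.DihedralPair
set_option linter.all false

set_option autoImplicit false
open Cfsg

namespace Cfsg.Agent.S0211

/-- Let x, y be involutions with xy of even order n and z = (xy)^(n/2). Then xz is conjugate to x by an element of the subgroup generated by x, y if and only if 4 divides n. -/
theorem result {G : Type*} [Group G] [Finite G] (x y : G) (hx : orderOf x = 2) (hy : orderOf y = 2) (heven : Even (orderOf (x * y))) : (∃ d ∈ Subgroup.closure ({x, y} : Set G), d * x * d⁻¹ = x * (x * y) ^ (orderOf (x * y) / 2)) ↔ 4 ∣ orderOf (x * y) := by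
  have hxx : x * x = 1 := by rw [← pow_two, ← hx, pow_orderOf_eq_one]
  have hyy : y * y = 1 := by rw [← pow_two, ← hy, pow_orderOf_eq_one]
  obtain ⟨m, hm⟩ := heven
  have hm2 : orderOf (x * y) / 2 = m := by omega
  have hT : x * (x * y) ^ m = (x * y) ^ (-(m : ℤ)) * x := by
    rw [← Cfsg.Agent.Involutions.DihedralPair.mul_zpow_pair hxx hyy, zpow_natCast]
  rw [hm2, hT]
  constructor
  · rintro ⟨d, hd, h⟩
    obtain ⟨k, hk⟩ := Cfsg.Agent.Involutions.DihedralPair.conj_of_mem_closure_pair hxx hyy hd
    rw [hk] at h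
    have h1 := mul_right_cancel h
    have h2 : (x * y) ^ (2 * k + m) = 1 := by
      rw [zpow_add, h1, zpow_neg, inv_mul_cancel]
    rw [← orderOf_dvd_iff_zpow_eq_one, hm] at h2
    obtain ⟨c, hc⟩ := h2
    push_cast at hc
    have h3 : (m : ℤ) = 2 * (m * c - k) := by linear_combination hc
    rw [hm]
    omega
  · rintro ⟨c, hc⟩
    have hmc : m = 2 * c := by omega
    refine ⟨(x * y) ^ (-(c : ℤ)), ?_, ?_⟩
    · exact Subgroup.zpow_mem _ (Subgroup.mul_mem _ (Subgroup.subset_closure (by simp))
        (Subgroup.subset_closure (by simp))) _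
    · rw [← zpow_neg, neg_neg, mul_assoc, Cfsg.Agent.Involutions.DihedralPair.mul_zpow_pair hxx hyy,
        ← mul_assoc, ← zpow_add, hmc]
      congr 2
      push_cast
      ring

end Cfsg.Agent.S0211
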