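import Cfsg.Statements.S0218
set_option linter.all false

set_option autoImplicit false
open Cfsg

namespace Cfsg.Agent.S0218

/-- The generalized quaternion group of order 2^(n+3) contains exactly one element of order 2. -/
theorem result (n : ℕ) : Nat.card {x : QuaternionGroup (2 ^ (n + 1)) // orderOf x = 2} = 1 := by
  haveI : NeZero (2 ^ (n + 1)) := ⟨by positivity⟩
  have key : ∀ x : QuaternionGroup (2 ^ (n + 1)), orderOf x = 2 ↔
      x = QuaternionGroup.a ((2 ^ (n + 1) : ℕ) : ZMod (2 * 2 ^ (n + 1))) := by
    intro x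
    constructor
    · intro hx
      cases x with
      | a i =>
        rw [QuaternionGroup.orderOf_a] at hx
        have hpos : 0 < 2 ^ (n + 1) := by positivity
        have hlt : i.val < 2 * 2 ^ (n + 1) := ZMod.val_lt i
        have hdvd : Nat.gcd (2 * 2 ^ (n + 1)) i.val ∣ 2 * 2 ^ (n + 1) := Nat.gcd_dvd_left _ _
        have hg : Nat.gcd (2 * 2 ^ (n + 1)) i.val = 2 ^ (n + 1) := by
          have h1 := Nat.div_mul_cancel hdvd
          rw [hx] at h1
          omega
        have hdvd2 : 2 ^ (n + 1) ∣ i.val := by
          have h2 := Nat.gcd_dvd_right (2 * 2 ^ (n + 1)) i.val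
          rwa [hg] at h2
        obtain ⟨k, hk⟩ := hdvd2
        have hk2 : k < 2 := by
          rw [hk, Nat.mul_comm 2] at hlt
          exact Nat.lt_of_mul_lt_mul_left hlt
        have hk0 : k ≠ 0 := by
          rintro rfl
          rw [hk] at hg
          simp at hg
        have hk1 : k = 1 := by omega
        subst hk1
        congr 1
        rw [← ZMod.natCast_zmod_val i, hk]
        simp
      | xa i =>
        rw [QuaternionGroup.orderOf_xa] at hx
        omega
    · rintro rfl
      rw [QuaternionGroup.orderOf_a]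
      have hpos : 0 < 2 ^ (n + 1) := by positivity
      rw [ZMod.val_natCast_of_lt (by omega)]
      rw [Nat.gcd_eq_right (Dvd.intro_left 2 rfl)]
      exact Nat.mul_div_cancel _ hpos
  rw [Nat.card_eq_one_iff_unique]
  refine ⟨⟨fun x y => ?_⟩, ⟨⟨_, (key _).2 rfl⟩⟩⟩
  apply Subtype.ext
  rw [(key _).1 x.2, (key _).1 y.2]

end Cfsg.Agent.S0218
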