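import Cfsg.Statements.S0229
import Cfsg.Agent.S0208
import Cfsg.Agent.S0209
set_option linter.all false

set_option autoImplicit false
open Cfsg

namespace Cfsg.Agent.S0229

/-- Two conjugates of an isolated element of a Sylow `2`-subgroup lying in a common `2`-subgroup
are equal. -/
theorem eq_of_conj_mem_isPGroup {G : Type*} [Group G] [Finite G] (S : Sylow 2 G) (t : G)
    (hiso : ∀ g : G, g * t * g⁻¹ ∈ S → g * t * g⁻¹ = t) (K : Subgroup G) (hK : IsPGroup 2 K)
    (a b : G) (ha : a * t * a⁻¹ ∈ K) (hb : b * t * b⁻¹ ∈ K) : a * t * a⁻¹ = b * t * b⁻¹ := by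
  have : Fact (Nat.Prime 2) := ⟨Nat.prime_two⟩
  obtain ⟨P, hP⟩ := hK.exists_le_sylow
  obtain ⟨g, hg⟩ := MulAction.exists_smul_eq G P S
  have key : ∀ c : G, c * t * c⁻¹ ∈ K → c * t * c⁻¹ = g⁻¹ * t * g := by
    intro c hc
    have h1 : g * (c * t * c⁻¹) * g⁻¹ ∈ S := by
      rw [← hg]
      exact (Subgroup.smul_mem_pointwise_smul (c * t * c⁻¹) (MulAut.conj g) (P : Subgroup G)
        (hP hc))
    have h2 := hiso (g * c) (by simpa [mul_assoc] using h1)
    have h3 : g * (c * t * c⁻¹) * g⁻¹ = t := by simpa [mul_assoc] using h2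
    calc c * t * c⁻¹ = g⁻¹ * (g * (c * t * c⁻¹) * g⁻¹) * g := by group
      _ = g⁻¹ * t * g := by rw [h3]
  rw [key a ha, key b hb]

/-- Let t be an involution of a Sylow 2-subgroup S of a finite group G, conjugate in G to no other element of S, and let s be an involution of G not conjugate to t. Then the order of st is twice an odd number. -/
theorem result {G : Type*} [Group G] [Finite G] (S : Sylow 2 G) (t : G) (ht : orderOf t = 2) (htS : t ∈ S) (hiso : ∀ g : G, g * t * g⁻¹ ∈ S → g * t * g⁻¹ = t) (s : G) (hs : orderOf s = 2) (hns : ¬ IsConj s t) : orderOf (s * t) % 4 = 2 := by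
  have heven : Even (orderOf (s * t)) := by
    by_contra hodd
    rw [Nat.not_even_iff_odd] at hodd
    obtain ⟨d, _, hd⟩ := Cfsg.Agent.S0208.result s t hs ht hodd
    exact hns (isConj_iff.mpr ⟨d, hd⟩)
  obtain ⟨hz, hzs, hzt⟩ := Cfsg.Agent.S0209.result s t hs ht heven
  have hs2 : s * s = 1 := by rw [← pow_two, ← hs, pow_orderOf_eq_one]
  have ht2 : t * t = 1 := by rw [← pow_two, ← ht, pow_orderOf_eq_one]
  have hs' : s⁻¹ = s := inv_eq_of_mul_eq_one_left hs2
  have ht' : t⁻¹ = t := inv_eq_of_mul_eq_one_left ht2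
  by_contra hmod
  have h4 : orderOf (s * t) % 4 = 0 := by
    obtain ⟨m, hm⟩ := heven
    omega
  obtain ⟨k, hk⟩ : ∃ k, orderOf (s * t) = 4 * k := ⟨orderOf (s * t) / 4, by omega⟩
  have hhalf : orderOf (s * t) / 2 = 2 * k := by omega
  rw [hhalf] at hz hzs hzt
  set r := s * t with hr
  -- `t` inverts `r`
  have hinv : ∀ n : ℕ, t * (r ^ n)⁻¹ = r ^ n * t := by
    intro n
    have h1 : t * r⁻¹ * t⁻¹ = r := by
      rw [hr, mul_inv_rev, hs', ht', ← mul_assoc, ht2, one_mul]
    have h2 : t * (r⁻¹) ^ n * t⁻¹ = r ^ n := by rw [← conj_pow, h1]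
    rw [← inv_pow, ← h2, inv_mul_cancel_right]
  have hconj : r ^ k * t * (r ^ k)⁻¹ = r ^ (2 * k) * t := by
    rw [mul_assoc, hinv, ← mul_assoc, ← pow_add, two_mul]
  -- the four-group generated by `t` and `z`
  set z := r ^ (2 * k) with hzdef
  have hzz : z * z = 1 := by rw [← pow_two, ← hz, pow_orderOf_eq_one]
  have hK : IsPGroup 2 (Subgroup.closure ({z, t} : Set G)) := by
    have hcomm : ∀ x ∈ ({z, t} : Set G), ∀ y ∈ ({z, t} : Set G), x * y = y * x := by
      intro x hx y hy
      simp only [Set.mem_insert_iff, Set.mem_singleton_iff] at hx hy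
      rcases hx with rfl | rfl <;> rcases hy with rfl | rfl
      · rfl
      · exact hzt
      · exact hzt.symm
      · rfl
    intro x
    refine ⟨1, ?_⟩
    have hmc := Subgroup.isMulCommutative_closure hcomm
    have : ∀ x (hx : x ∈ Subgroup.closure ({z, t} : Set G)), x * x = 1 := by
      intro x hx
      induction hx using Subgroup.closure_induction with
      | mem x hx =>
        simp only [Set.mem_insert_iff, Set.mem_singleton_iff] at hx
        rcases hx with rfl | rfl
        · exact hzz
        · exact ht2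
      | one => simp
      | mul x y hx hy h1 h2 =>
        have hxy : x * y = y * x := by
          have := hmc.is_comm.comm (⟨x, hx⟩ : Subgroup.closure ({z, t} : Set G)) ⟨y, hy⟩
          exact congrArg Subtype.val this
        calc x * y * (x * y) = x * (y * x) * y := by group
          _ = x * (x * y) * y := by rw [hxy]
          _ = (x * x) * (y * y) := by group
          _ = 1 := by rw [h1, h2, one_mul]
      | inv x hx h1 => rw [← mul_inv_rev, h1, inv_one]
    apply Subtype.ext
    simpa [pow_two] using this x.1 x.2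
  have h5 := eq_of_conj_mem_isPGroup S t hiso _ hK (r ^ k) 1
    (by
      rw [hconj]
      exact Subgroup.mul_mem _ (Subgroup.subset_closure (by simp))
        (Subgroup.subset_closure (by simp)))
    (by simpa using Subgroup.subset_closure (by simp : t ∈ ({z, t} : Set G)))
  rw [hconj, one_mul, inv_one, mul_one, mul_eq_right] at h5
  rw [h5, orderOf_one] at hz
  exact absurd hz (by norm_num)

end Cfsg.Agent.S0229
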