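import Cfsg.Statements.S0231
import Cfsg.Agent.Involutions.CommonInvolution
import Mathlib
set_option linter.all false

set_option autoImplicit false
open scoped Pointwise
open Cfsg

namespace Cfsg.Agent.S0231

private theorem ti_all {G : Type*} [Group G] [Finite G] (T : Sylow 2 G)
    (hTI : ∀ g : G, MulAut.conj g • (T : Subgroup G) ≠ T → MulAut.conj g • (T : Subgroup G) ⊓ T = ⊥)
    (P Q : Sylow 2 G) (x : G) (hxP : x ∈ P) (hxQ : x ∈ Q) (hx : x ≠ 1) : P = Q := by
  obtain ⟨a, rfl⟩ := MulAction.exists_smul_eq G T Q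
  obtain ⟨b, rfl⟩ := MulAction.exists_smul_eq G T P
  have h1 : MulAut.conj (a⁻¹ * b) • (T : Subgroup G) = T := by
    by_contra hne
    have h2 := hTI _ hne
    have h3 : a⁻¹ * x * a ∈ MulAut.conj (a⁻¹ * b) • (T : Subgroup G) ⊓ T := by
      rw [Subgroup.mem_inf]
      constructor
      · have h4 : x ∈ MulAut.conj b • (T : Subgroup G) := hxP
        rw [Subgroup.mem_pointwise_smul_iff_inv_smul_mem] at h4 ⊢
        have h5 : (MulAut.conj (a⁻¹ * b))⁻¹ • (a⁻¹ * x * a) = (MulAut.conj b)⁻¹ • x := by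
          simp [MulAut.smul_def, ← map_inv, MulAut.conj_apply]
          group
        rw [h5]
        exact h4
      · have h4 : x ∈ MulAut.conj a • (T : Subgroup G) := hxQ
        rw [Subgroup.mem_pointwise_smul_iff_inv_smul_mem] at h4
        have h5 : (MulAut.conj a)⁻¹ • x = a⁻¹ * x * a := by
          simp [MulAut.smul_def, ← map_inv, MulAut.conj_apply]
        rw [← h5]
        exact h4
    rw [h2, Subgroup.mem_bot] at h3
    apply hx
    have h6 : x = a * (a⁻¹ * x * a) * a⁻¹ := by group
    rw [h6, h3]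
    group
  have h7 : (a⁻¹ * b) • T = T := Sylow.ext h1
  rw [mul_smul, inv_smul_eq_iff] at h7
  exact h7

private theorem mem_of_commute {G : Type*} [Group G] [Finite G] (T : Sylow 2 G)
    (hTI : ∀ g : G, MulAut.conj g • (T : Subgroup G) ≠ T → MulAut.conj g • (T : Subgroup G) ⊓ T = ⊥)
    (P : Sylow 2 G) (x z : G) (hxP : x ∈ P) (hx : x ≠ 1) (hz : orderOf z = 2) (hc : Commute z x) :
    z ∈ P := by
  have h1 : z • P = P := by
    refine ti_all T hTI (z • P) P x ?_ hxP hx
    change x ∈ MulAut.conj z • (P : Subgroup G)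
    rw [Subgroup.mem_pointwise_smul_iff_inv_smul_mem]
    have h5 : (MulAut.conj z)⁻¹ • x = x := by
      simp only [MulAut.smul_def, ← map_inv, MulAut.conj_apply, inv_inv]
      rw [mul_assoc, ← hc.eq, inv_mul_cancel_left]
    rw [h5]
    exact hxP
  rw [Sylow.smul_eq_iff_mem_normalizer] at h1
  have h2 : IsPGroup 2 (Subgroup.zpowers z) := by
    refine IsPGroup.of_card (n := 1) ?_
    rw [Nat.card_zpowers, hz, pow_one]
  have h3 := h2.inf_normalizer_sylow P
  have h4 : z ∈ Subgroup.zpowers z ⊓ Subgroup.normalizer P :=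
    ⟨Subgroup.mem_zpowers z, h1⟩
  rw [h3] at h4
  exact h4.2

/-- Let T be a Sylow 2-subgroup of the finite group G which is not normal and which intersects every other Sylow 2-subgroup trivially. Then G has a single conjugacy class of involutions. -/
theorem result {G : Type*} [Group G] [Finite G] (T : Sylow 2 G) (hnn : ¬ (T : Subgroup G).Normal) (hTI : ∀ g : G, MulAut.conj g • (T : Subgroup G) ≠ T → MulAut.conj g • (T : Subgroup G) ⊓ T = ⊥) (s t : G) (hs : orderOf s = 2) (ht : orderOf t = 2) : IsConj s t := by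
  by_contra hnc
  have hs1 : s ≠ 1 := by rintro rfl; simp at hs
  have ht1 : t ≠ 1 := by rintro rfl; simp at ht
  have h2 : IsPGroup 2 (Subgroup.zpowers s) := by
    refine IsPGroup.of_card (n := 1) ?_
    rw [Nat.card_zpowers, hs, pow_one]
  obtain ⟨P, hP⟩ := h2.exists_le_sylow
  have hsP : s ∈ P := hP (Subgroup.mem_zpowers s)
  have hall : ∀ g : G, g * t * g⁻¹ ∈ P := by
    intro g
    have h3 : orderOf (g * t * g⁻¹) = 2 := by
      rw [← ht]
      exact orderOf_injective (MulAut.conj g).toMonoidHom (MulAut.conj g).injective t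
    have h4 : ¬ IsConj s (g * t * g⁻¹) := by
      intro h
      exact hnc (h.trans (isConj_iff.mpr ⟨g, rfl⟩ : IsConj t (g * t * g⁻¹)).symm)
    obtain ⟨z, hz, hz1, hz2, _⟩ :=
      Cfsg.Agent.Involutions.CommonInvolution.exists_common_involution s (g * t * g⁻¹) hs h3 h4
    have hz0 : z ≠ 1 := by rintro rfl; simp at hz
    have h5 : z ∈ P := mem_of_commute T hTI P s z hsP hs1 hz hz1
    exact mem_of_commute T hTI P z _ h5 hz0 h3 hz2.symm
  have hnorm : ∀ g : G, g • P = P := by
    intro g
    refine ti_all T hTI (g • P) P (g * t * g⁻¹) ?_ (hall g) ?_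
    · change g * t * g⁻¹ ∈ MulAut.conj g • (P : Subgroup G)
      rw [Subgroup.mem_pointwise_smul_iff_inv_smul_mem]
      have h5 : (MulAut.conj g)⁻¹ • (g * t * g⁻¹) = t := by
        simp [MulAut.smul_def, ← map_inv, MulAut.conj_apply, mul_assoc]
      rw [h5]
      have h7 : t ∈ P := by simpa using hall 1
      exact h7
    · intro h
      apply ht1
      have h6 : t = g⁻¹ * (g * t * g⁻¹) * g := by group
      rw [h6, h]
      group
  obtain ⟨g, hg⟩ := MulAction.exists_smul_eq G P T
  have hPT : P = T := by rw [← hg, hnorm g]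
  subst hPT
  apply hnn
  rw [← Subgroup.normalizer_eq_top_iff, eq_top_iff]
  intro g _
  exact Sylow.smul_eq_iff_mem_normalizer.mp (hnorm g)

end Cfsg.Agent.S0231
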