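import Cfsg.Statements.S0237
import Mathlib.Tactic.Group
set_option linter.all false

set_option autoImplicit false
open Cfsg

namespace Cfsg.Agent.S0237

/-- If x is real (conjugate to x⁻¹) in a finite group G, the number of g with g x g⁻¹ = x⁻¹ equals |C_G(x)|. -/
theorem result {G : Type*} [Group G] [Finite G] (x : G) (hreal : IsConj x x⁻¹) : Nat.card {g : G // g * x * g⁻¹ = x⁻¹} = Nat.card (Subgroup.centralizer ({x} : Set G)) := by
  obtain ⟨c, hc⟩ := isConj_iff.1 hreal
  have hto : ∀ g : G, g * x * g⁻¹ = x⁻¹ → c⁻¹ * g ∈ Subgroup.centralizer ({x} : Set G) := by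
    intro g hg
    rw [Subgroup.mem_centralizer_singleton_iff]
    have h1 : g * x = x⁻¹ * g := by rw [← hg]; group
    have h2 : c⁻¹ * x⁻¹ = x * c⁻¹ := by rw [← hc]; group
    rw [mul_assoc, h1, ← mul_assoc, h2, mul_assoc]
  have hinv : ∀ h : G, h ∈ Subgroup.centralizer ({x} : Set G) → (c * h) * x * (c * h)⁻¹ = x⁻¹ := by
    intro h hh
    rw [Subgroup.mem_centralizer_singleton_iff] at hh
    have : c * h * x * (c * h)⁻¹ = c * (h * x) * h⁻¹ * c⁻¹ := by group
    rw [this, hh, ← hc]
    group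
  exact Nat.card_congr
    { toFun := fun g => ⟨c⁻¹ * g.1, hto g.1 g.2⟩
      invFun := fun h => ⟨c * h.1, hinv h.1 h.2⟩
      left_inv := fun g => by simp
      right_inv := fun h => by simp }

end Cfsg.Agent.S0237
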