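import Cfsg.Statements.S0238
import Cfsg.Agent.S0237
import Mathlib.Tactic.Group
set_option linter.all false

set_option autoImplicit false
open Cfsg

namespace Cfsg.Agent.S0238

/-- For every x in a finite group G, the number c of ordered pairs (u, v) of involutions with uv = x is at most |C_G(x)|; c = 0 when x is not conjugate to x⁻¹; and c + 2 ≤ |C_G(x)| when x is an involution. -/
theorem result {G : Type*} [Group G] [Finite G] (x : G) : Nat.card {p : G × G // orderOf p.1 = 2 ∧ orderOf p.2 = 2 ∧ p.1 * p.2 = x} ≤ Nat.card (Subgroup.centralizer ({x} : Set G)) ∧ (¬ IsConj x x⁻¹ → Nat.card {p : G × G // orderOf p.1 = 2 ∧ orderOf p.2 = 2 ∧ p.1 * p.2 = x} = 0) ∧ (orderOf x = 2 → Nat.card {p : G × G // orderOf p.1 = 2 ∧ orderOf p.2 = 2 ∧ p.1 * p.2 = x} + 2 ≤ Nat.card (Subgroup.centralizer ({x} : Set G))) := by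
  classical
  have key : ∀ y : G, orderOf y = 2 ↔ y * y = 1 ∧ y ≠ 1 := by
    intro y
    rw [orderOf_eq_prime_iff, pow_two]
  have hinv : ∀ u v : G, orderOf u = 2 → orderOf v = 2 → u * v = x → u * x * u⁻¹ = x⁻¹ := by
    intro u v hu hv huv
    have hu' := ((key u).1 hu).1
    have hv' := ((key v).1 hv).1
    have hu'' : u⁻¹ = u := inv_eq_of_mul_eq_one_left hu'
    have hv'' : v⁻¹ = v := inv_eq_of_mul_eq_one_left hv'
    rw [← huv, mul_inv_rev, hu'', hv'', ← mul_assoc, hu', one_mul]
  have hzero : ¬ IsConj x x⁻¹ → Nat.card {p : G × G // orderOf p.1 = 2 ∧ orderOf p.2 = 2 ∧ p.1 * p.2 = x} = 0 := by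
    intro hnc
    have : IsEmpty {p : G × G // orderOf p.1 = 2 ∧ orderOf p.2 = 2 ∧ p.1 * p.2 = x} := by
      constructor
      rintro ⟨⟨u, v⟩, hu, hv, huv⟩
      exact hnc (isConj_iff.2 ⟨u, hinv u v hu hv huv⟩)
    exact Nat.card_of_isEmpty
  refine ⟨?_, hzero, ?_⟩
  · by_cases hreal : IsConj x x⁻¹
    · rw [← Cfsg.Agent.S0237.result x hreal]
      refine Nat.card_le_card_of_injective
        (fun p => ⟨p.1.1, hinv p.1.1 p.1.2 p.2.1 p.2.2.1 p.2.2.2⟩) ?_
      rintro ⟨⟨u, v⟩, hu, hv, huv⟩ ⟨⟨u', v'⟩, hu', hv', huv'⟩ h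
      have h1 : u = u' := congrArg Subtype.val h
      subst h1
      have h2 : v = v' := by
        apply mul_left_cancel (a := u)
        exact huv.trans huv'.symm
      subst h2
      rfl
    · rw [hzero hreal]
      exact Nat.zero_le _
  · intro hx
    have hx' := (key x).1 hx
    have hxi : x⁻¹ = x := inv_eq_of_mul_eq_one_left hx'.1
    have hmem : ∀ u v : G, orderOf u = 2 → orderOf v = 2 → u * v = x → u ∈ Subgroup.centralizer ({x} : Set G) := by
      intro u v hu hv huv
      rw [Subgroup.mem_centralizer_singleton_iff]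
      have := hinv u v hu hv huv
      rw [hxi] at this
      exact mul_inv_eq_iff_eq_mul.1 this
    have hxmem : x ∈ Subgroup.centralizer ({x} : Set G) := by
      rw [Subgroup.mem_centralizer_singleton_iff]
    have h2 : Nat.card (Option (Option {p : G × G // orderOf p.1 = 2 ∧ orderOf p.2 = 2 ∧ p.1 * p.2 = x})) ≤ Nat.card (Subgroup.centralizer ({x} : Set G)) := by
      refine Nat.card_le_card_of_injective
        (fun o => match o with
          | none => ⟨1, one_mem _⟩
          | some none => ⟨x, hxmem⟩
          | some (some p) => ⟨p.1.1, hmem p.1.1 p.1.2 p.2.1 p.2.2.1 p.2.2.2⟩) ?_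
      rintro (_ | _ | ⟨⟨u, v⟩, hu, hv, huv⟩) (_ | _ | ⟨⟨u', v'⟩, hu', hv', huv'⟩) h
      · rfl
      · exact absurd (congrArg Subtype.val h).symm hx'.2
      · exact absurd (congrArg Subtype.val h).symm ((key u').1 hu').2
      · exact absurd (congrArg Subtype.val h) hx'.2
      · rfl
      · exfalso
        have h1 : x = u' := congrArg Subtype.val h
        apply ((key v').1 hv').2
        simp only at huv'
        rw [← h1] at huv'
        exact mul_eq_left.1 huv'
      · exact absurd (congrArg Subtype.val h) ((key u).1 hu).2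
      · exfalso
        have h1 : u = x := congrArg Subtype.val h
        apply ((key v).1 hv).2
        simp only at huv
        rw [h1] at huv
        exact mul_eq_left.1 huv
      · have h1 : u = u' := congrArg Subtype.val h
        subst h1
        have h2 : v = v' := by
          apply mul_left_cancel (a := u)
          exact huv.trans huv'.symm
        subst h2
        rfl
    rw [Finite.card_option, Finite.card_option] at h2
    exact h2

end Cfsg.Agent.S0238
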