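import Cfsg.Statements.S0233
import Cfsg.Agent.S0238
import Mathlib
set_option linter.all false

set_option autoImplicit false
open Cfsg

namespace Cfsg.Agent.S0233

/-- If `x` is conjugate to its inverse, `x ^ 2 ≠ 1` and there is no subgroup of index `2`, then twice
the minimal index `m` of a proper subgroup times `|C(x)|` is at most `|G|`. -/
theorem two_mul_index_mul_centralizer_le {G : Type*} [Group G] [Finite G]
    (h2 : ∀ H : Subgroup G, H.index ≠ 2) (m : ℕ)
    (hm : ∀ K : Subgroup G, K ≠ ⊤ → m ≤ K.index) (x : G) (hx : x ^ 2 ≠ 1) (hreal : IsConj x x⁻¹) :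
    2 * m * Nat.card (Subgroup.centralizer ({x} : Set G)) ≤ Nat.card G := by
  classical
  obtain ⟨c, hc⟩ := isConj_iff.1 hreal
  let K : Subgroup G :=
    { carrier := {g | g * x * g⁻¹ = x ∨ g * x * g⁻¹ = x⁻¹}
      one_mem' := by left; simp
      mul_mem' := by
        rintro a b (ha | ha) (hb | hb)
        · left
          have : a * b * x * (a * b)⁻¹ = a * (b * x * b⁻¹) * a⁻¹ := by group
          rw [this, hb, ha]
        · right
          have : a * b * x * (a * b)⁻¹ = a * (b * x * b⁻¹) * a⁻¹ := by group
          have h3 : a * x⁻¹ * a⁻¹ = (a * x * a⁻¹)⁻¹ := by group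
          rw [this, hb, h3, ha]
        · right
          have : a * b * x * (a * b)⁻¹ = a * (b * x * b⁻¹) * a⁻¹ := by group
          rw [this, hb, ha]
        · left
          have : a * b * x * (a * b)⁻¹ = a * (b * x * b⁻¹) * a⁻¹ := by group
          have h3 : a * x⁻¹ * a⁻¹ = (a * x * a⁻¹)⁻¹ := by group
          rw [this, hb, h3, ha, inv_inv]
      inv_mem' := by
        rintro a (ha | ha)
        · left
          have : x = a⁻¹ * x * a⁻¹⁻¹ := by
            conv_rhs => rw [← ha]
            group
          exact this.symm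
        · right
          have h3 : a⁻¹ * x * a⁻¹⁻¹ = (a⁻¹ * x⁻¹ * a)⁻¹ := by group
          rw [h3]
          conv_lhs => rw [← ha]
          group }
  have hCK : Subgroup.centralizer ({x} : Set G) ≤ K := by
    intro g hg
    rw [Subgroup.mem_centralizer_singleton_iff] at hg
    left
    rw [hg]; group
  have hcK : c ∈ K := Or.inr hc
  have hcC : c ∉ Subgroup.centralizer ({x} : Set G) := by
    intro h
    rw [Subgroup.mem_centralizer_singleton_iff] at h
    apply hx
    have : x = x⁻¹ := by rw [← hc, h]; group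
    rw [pow_two]
    nth_rewrite 2 [this]
    exact mul_inv_cancel x
  -- the centralizer has relative index 2 in K
  have hrel : (Subgroup.centralizer ({x} : Set G)).relIndex K = 2 := by
    rw [Subgroup.relIndex, Subgroup.index_eq_two_iff]
    refine ⟨⟨c⁻¹, K.inv_mem hcK⟩, ?_⟩
    rintro ⟨b, hb⟩
    simp only [Subgroup.mem_subgroupOf, Subgroup.coe_mul]
    rw [Subgroup.mem_centralizer_singleton_iff, Subgroup.mem_centralizer_singleton_iff]
    have hcx : c⁻¹ * x * c = x⁻¹ := by
      have h3 : c⁻¹ * x * c = (c⁻¹ * x⁻¹ * c)⁻¹ := by group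
      rw [h3]
      conv_lhs => rw [← hc]
      group
    have hcx' : c⁻¹ * x = x⁻¹ * c⁻¹ := by
      rw [← hcx]; group
    have hne : x⁻¹ ≠ x := by
      intro h
      apply hx
      rw [pow_two]
      nth_rewrite 1 [← h]
      exact inv_mul_cancel x
    rcases hb with hb | hb
    · right
      refine ⟨?_, ?_⟩
      · rw [mul_inv_eq_iff_eq_mul] at hb
        exact hb
      · rw [mul_inv_eq_iff_eq_mul] at hb
        intro h
        rw [mul_assoc, hcx', ← mul_assoc, ← mul_assoc] at h
        have h4 := mul_right_cancel h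
        apply hne
        have h5 : b * x⁻¹ = x⁻¹ * b := by
          have h7 : b * x⁻¹ = x⁻¹ * (x * b) * x⁻¹ := by group
          rw [h7, ← hb]; group
        rw [h5] at h4
        exact mul_right_cancel h4
    · left
      refine ⟨?_, ?_⟩
      · rw [mul_inv_eq_iff_eq_mul] at hb
        have h5 : b * x⁻¹ = x * b := by
          have h7 : b * x⁻¹ = x * (x⁻¹ * b) * x⁻¹ := by group
          rw [h7, ← hb]; group
        rw [mul_assoc, hcx', ← mul_assoc, h5, mul_assoc]
      · rw [mul_inv_eq_iff_eq_mul] at hb
        intro h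
        rw [hb] at h
        exact hne (mul_right_cancel h)
  have hKtop : K ≠ ⊤ := by
    intro h
    rw [h, Subgroup.relIndex_top_right] at hrel
    exact h2 _ hrel
  have hmK := hm K hKtop
  have hcard := (Subgroup.centralizer ({x} : Set G)).card_mul_index
  rw [← Subgroup.relIndex_mul_index hCK, hrel] at hcard
  calc 2 * m * Nat.card (Subgroup.centralizer ({x} : Set G))
      ≤ 2 * K.index * Nat.card (Subgroup.centralizer ({x} : Set G)) := by gcongr
    _ = Nat.card G := by rw [← hcard]; ring

/-- The counting inequality behind the index bound. -/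
theorem count {G : Type*} [Group G] [Finite G] (hZ : Odd (Nat.card (Subgroup.center G)))
    (h2 : ∀ H : Subgroup G, H.index ≠ 2) (m : ℕ)
    (hm : ∀ K : Subgroup G, K ≠ ⊤ → m ≤ K.index) :
    2 * m * (Nat.card {t : G // orderOf t = 2}) * (Nat.card {t : G // orderOf t = 2} + 1) + Nat.card G
      ≤ Nat.card G * (Nat.card G + Nat.card {t : G // orderOf t = 2}) := by
  classical
  have := Fintype.ofFinite G
  set n := Nat.card {t : G // orderOf t = 2} with hn
  let I : Finset G := Finset.univ.filter (fun t => orderOf t = 2)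
  have hI : I.card = n := by
    rw [hn, Nat.card_eq_fintype_card, Fintype.card_subtype]
  let b : G → ℕ := fun x => Nat.card {p : G × G // orderOf p.1 = 2 ∧ orderOf p.2 = 2 ∧ p.1 * p.2 = x}
  have hb : ∀ x, b x = ((I ×ˢ I).filter (fun p => p.1 * p.2 = x)).card := by
    intro x
    simp only [b]
    rw [Nat.card_eq_fintype_card, Fintype.card_subtype]
    congr 1
    ext p
    simp [I, and_assoc]
  have hsum : ∑ x : G, b x = n * n := by
    have h3 := Finset.card_eq_sum_card_fiberwise (s := I ×ˢ I) (t := (Finset.univ : Finset G))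
      (f := fun p => p.1 * p.2) (fun _ _ => Finset.mem_coe.2 (Finset.mem_univ _))
    rw [Finset.card_product, hI] at h3
    rw [h3]
    exact Finset.sum_congr rfl (fun x _ => hb x)
  -- value at one
  have hb1 : b 1 = n := by
    rw [hb, ← hI]
    refine Finset.card_bij' (fun p _ => p.1) (fun t _ => (t, t)) ?_ ?_ ?_ ?_
    · rintro ⟨u, v⟩ h
      simp only [Finset.mem_filter, Finset.mem_product] at h
      exact h.1.1
    · intro t ht
      simp only [Finset.mem_filter, Finset.mem_product]
      refine ⟨⟨ht, ht⟩, ?_⟩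
      have := (Finset.mem_filter.1 ht).2
      rw [← pow_two, ← this, pow_orderOf_eq_one]
    · rintro ⟨u, v⟩ h
      simp only [Finset.mem_filter, Finset.mem_product] at h
      have h1 := (Finset.mem_filter.1 h.1.1).2
      have h3 : u * u = 1 := by rw [← pow_two, ← h1, pow_orderOf_eq_one]
      have h4 : v = u := by
        apply mul_left_cancel (a := u)
        rw [h.2, h3]
      rw [h4]
    · intro t ht
      rfl
  -- involutions
  have hbI : ∀ x ∈ I, m * b x + 2 * m ≤ Nat.card G := by
    intro x hx
    have hx2 : orderOf x = 2 := (Finset.mem_filter.1 hx).2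
    have h3 := (Cfsg.Agent.S0238.result x).2.2 hx2
    have hCtop : Subgroup.centralizer ({x} : Set G) ≠ ⊤ := by
      intro h
      have hxc : x ∈ Subgroup.center G := by
        rw [Subgroup.mem_center_iff]
        intro g
        have : g ∈ Subgroup.centralizer ({x} : Set G) := by rw [h]; trivial
        rw [Subgroup.mem_centralizer_singleton_iff] at this
        exact this
      have h4 : orderOf (⟨x, hxc⟩ : Subgroup.center G) = 2 := by
        rw [← Subgroup.orderOf_coe]; exact hx2
      have h5 : 2 ∣ Nat.card (Subgroup.center G) := h4 ▸ orderOf_dvd_natCard _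
      rw [← Nat.not_even_iff_odd] at hZ
      exact hZ (even_iff_two_dvd.2 h5)
    have hmC := hm _ hCtop
    have hcard := (Subgroup.centralizer ({x} : Set G)).index_mul_card
    calc m * b x + 2 * m = m * (b x + 2) := by ring
      _ ≤ (Subgroup.centralizer ({x} : Set G)).index * Nat.card (Subgroup.centralizer ({x} : Set G)) :=
          Nat.mul_le_mul hmC h3
      _ = Nat.card G := hcard
  -- other elements
  have hbO : ∀ x, x ≠ 1 → x ∉ I → 2 * m * b x ≤ Nat.card G := by
    intro x hx1 hxI
    have hx2 : x ^ 2 ≠ 1 := by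
      intro h
      apply hxI
      simp only [I, Finset.mem_filter, Finset.mem_univ, true_and]
      exact orderOf_eq_prime h hx1
    by_cases hreal : IsConj x x⁻¹
    · refine le_trans ?_ (two_mul_index_mul_centralizer_le h2 m hm x hx2 hreal)
      exact Nat.mul_le_mul_left _ (Cfsg.Agent.S0238.result x).1
    · have : b x = 0 := (Cfsg.Agent.S0238.result x).2.1 hreal
      rw [this, mul_zero]; exact Nat.zero_le _
  -- split the sum
  have h1I : (1 : G) ∉ I := by simp [I]
  let O : Finset G := (Finset.univ \ I).erase 1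
  have hO : O.card + n + 1 = Nat.card G := by
    have h3 : (1 : G) ∈ Finset.univ \ I := by simp [h1I]
    have h4 := Finset.card_erase_add_one h3
    have h5 : (Finset.univ \ I).card + I.card = Fintype.card G := by
      rw [Finset.card_sdiff_add_card_eq_card (Finset.subset_univ I), Finset.card_univ]
    rw [Nat.card_eq_fintype_card]
    simp only [O]
    omega
  have hsplit : ∑ x : G, b x = b 1 + ∑ x ∈ I, b x + ∑ x ∈ O, b x := by
    have h3 : (1 : G) ∈ Finset.univ \ I := by simp [h1I]
    have h4 := Finset.add_sum_erase (Finset.univ \ I) b h3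
    have h5 := Finset.sum_sdiff (f := b) (Finset.subset_univ I)
    simp only [O]
    rw [← h5, ← h4]; ring
  have hSI : m * ∑ x ∈ I, b x + 2 * m * n ≤ n * Nat.card G := by
    have h3 : ∑ x ∈ I, (m * b x + 2 * m) ≤ ∑ x ∈ I, Nat.card G := Finset.sum_le_sum hbI
    rw [Finset.sum_add_distrib, ← Finset.mul_sum, Finset.sum_const, Finset.sum_const, hI] at h3
    simp only [smul_eq_mul] at h3
    calc m * ∑ x ∈ I, b x + 2 * m * n = m * ∑ x ∈ I, b x + n * (2 * m) := by ring
      _ ≤ _ := h3
  have hSO : 2 * m * ∑ x ∈ O, b x ≤ O.card * Nat.card G := by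
    have h3 : ∑ x ∈ O, (2 * m * b x) ≤ ∑ x ∈ O, Nat.card G := by
      refine Finset.sum_le_sum (fun x hx => hbO x ?_ ?_)
      · exact Finset.ne_of_mem_erase hx
      · have := Finset.mem_of_mem_erase hx
        exact (Finset.mem_sdiff.1 this).2
    rw [← Finset.mul_sum, Finset.sum_const, smul_eq_mul] at h3
    exact h3
  rw [hsplit, hb1] at hsum
  set A := ∑ x ∈ I, b x
  set B := ∑ x ∈ O, b x
  set g := Nat.card G
  set k := O.card
  -- 2m n^2 = 2mn + 2mA + 2mB
  have h6 : 2 * m * (n * n) = 2 * m * n + 2 * (m * A) + 2 * m * B := by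
    rw [← hsum]; ring
  have h7 : 2 * m * n * (n + 1) + g = 2 * (m * A + 2 * m * n) + 2 * m * B + g := by
    have : 2 * m * n * (n + 1) = 2 * m * (n * n) + 2 * m * n := by ring
    rw [this, h6]; ring
  rw [h7]
  calc 2 * (m * A + 2 * m * n) + 2 * m * B + g ≤ 2 * (n * g) + k * g + g := by gcongr
    _ = g * ((k + n + 1) + n) := by ring
    _ = g * (g + n) := by rw [hO]

/-- Let G be a finite group of even order with exactly n involutions whose centre has odd order, and put a = |G|/n. Then G has a proper subgroup H with |G : H| = 2 or |G : H| < a(a+1)/2; over ℕ the latter reads 2·|G:H|·n² < |G|·(|G| + n). -/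
theorem result {G : Type*} [Group G] [Finite G] (heven : Even (Nat.card G)) (hZ : Odd (Nat.card (Subgroup.center G))) : ∃ H : Subgroup G, H ≠ ⊤ ∧ (H.index = 2 ∨ 2 * H.index * (Nat.card {t : G // orderOf t = 2}) ^ 2 < Nat.card G * (Nat.card G + Nat.card {t : G // orderOf t = 2})) := by
  classical
  by_cases h2 : ∃ H : Subgroup G, H.index = 2
  · obtain ⟨H, hH⟩ := h2
    refine ⟨H, ?_, Or.inl hH⟩
    rintro rfl
    rw [Subgroup.index_top] at hH
    exact absurd hH (by norm_num)
  push Not at h2
  have hgpos : 0 < Nat.card G := Nat.card_pos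
  have hbot : (⊥ : Subgroup G) ≠ ⊤ := by
    intro h
    have h3 : Nat.card (⊥ : Subgroup G) = Nat.card (⊤ : Subgroup G) := by rw [h]
    rw [Subgroup.card_bot, Subgroup.card_top] at h3
    rw [← h3] at heven
    exact absurd heven (by decide)
  have hex : ∃ m : ℕ, ∃ H : Subgroup G, H ≠ ⊤ ∧ H.index = m := ⟨_, ⊥, hbot, rfl⟩
  obtain ⟨H, hH, hHm⟩ := Nat.find_spec hex
  have hmin : ∀ K : Subgroup G, K ≠ ⊤ → H.index ≤ K.index := by
    intro K hK
    rw [hHm]
    exact Nat.find_min' hex ⟨K, hK, rfl⟩
  refine ⟨H, hH, Or.inr ?_⟩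
  have h3 := count hZ h2 H.index hmin
  set n := Nat.card {t : G // orderOf t = 2}
  have h4 : 2 * H.index * n * (n + 1) = 2 * H.index * n ^ 2 + 2 * H.index * n := by ring
  rw [h4] at h3
  omega

end Cfsg.Agent.S0233
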