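import Cfsg.Statements.S0232
import Cfsg.Agent.S0233
import Mathlib
set_option linter.all false

set_option autoImplicit false
open Cfsg

namespace Cfsg.Agent.S0232

universe u

/-- `|G| ≤ n · |C(t)|` for an involution `t`, where `n` is the number of involutions. -/
theorem card_le_involutions_mul_centralizer {G : Type*} [Group G] [Finite G] (t : G)
    (ht : orderOf t = 2) :
    Nat.card G ≤ Nat.card {s : G // orderOf s = 2} * Nat.card (Subgroup.centralizer ({t} : Set G)) := by
  classical
  have h1 : (MulAction.orbit (ConjAct G) t) ⊆ {y : G | orderOf y = 2} := by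
    intro y hy
    rw [ConjAct.mem_orbit_conjAct] at hy
    obtain ⟨g, hg⟩ := isConj_iff.mp hy.symm
    show orderOf y = 2
    rw [← hg, ← ht]
    exact orderOf_injective (MulAut.conj g).toMonoidHom (MulAut.conj g).injective t
  have h2 : (MulAction.stabilizer (ConjAct G) t).index = (MulAction.orbit (ConjAct G) t).ncard :=
    MulAction.index_stabilizer (ConjAct G) t
  have h3 := (MulAction.stabilizer (ConjAct G) t).index_mul_card
  rw [Subgroup.nat_card_centralizer_nat_card_stabilizer]
  have h4 : Nat.card (ConjAct G) = Nat.card G := rfl
  rw [← h4, ← h3, h2]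
  apply Nat.mul_le_mul_right
  exact Set.ncard_le_ncard h1 (Set.toFinite _)

theorem aux (N : ℕ) : ∀ (G : Type u) [Group G] [Finite G], Nat.card G = N → Even (Nat.card G) →
    2 < Nat.card G → ∃ H : Subgroup G, H ≠ ⊤ ∧ Nat.card G < (Nat.card H) ^ 3 := by
  induction N using Nat.strong_induction_on with
  | _ N ih =>
  intro G _ _ hN heven hgt
  -- helper: a subgroup of index two is good
  have hidx : ∀ H : Subgroup G, H.index = 2 → H ≠ ⊤ ∧ Nat.card G < (Nat.card H) ^ 3 := by
    intro H hH
    refine ⟨?_, ?_⟩
    · rintro rfl
      rw [Subgroup.index_top] at hH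
      exact absurd hH (by norm_num)
    · have h1 := H.card_mul_index
      rw [hH] at h1
      have h2 : 2 ≤ Nat.card H := by omega
      rw [← h1]
      set k := Nat.card H
      calc k * 2 < k * (k * k) := by
            apply Nat.mul_lt_mul_of_pos_left _ (by omega)
            nlinarith
        _ = k ^ 3 := by ring
  by_cases hZ : Odd (Nat.card (Subgroup.center G))
  · -- centre of odd order
    obtain ⟨H, hH, hcase⟩ := Cfsg.Agent.S0233.result heven hZ
    rcases hcase with h2 | hlt
    · exact ⟨H, hidx H h2⟩
    · have : Fact (Nat.Prime 2) := ⟨Nat.prime_two⟩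
      obtain ⟨t, ht⟩ := exists_prime_orderOf_dvd_card' (G := G) 2 (even_iff_two_dvd.1 heven)
      by_cases hC : Nat.card G < Nat.card (Subgroup.centralizer ({t} : Set G)) ^ 3
      · refine ⟨Subgroup.centralizer ({t} : Set G), ?_, hC⟩
        intro h
        have hxc : t ∈ Subgroup.center G := by
          rw [Subgroup.mem_center_iff]
          intro g
          have : g ∈ Subgroup.centralizer ({t} : Set G) := by rw [h]; trivial
          rw [Subgroup.mem_centralizer_singleton_iff] at this
          exact this
        have h4 : orderOf (⟨t, hxc⟩ : Subgroup.center G) = 2 := by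
          rw [← Subgroup.orderOf_coe]; exact ht
        have h5 : 2 ∣ Nat.card (Subgroup.center G) := h4 ▸ orderOf_dvd_natCard _
        rw [← Nat.not_even_iff_odd] at hZ
        exact hZ (even_iff_two_dvd.2 h5)
      · refine ⟨H, hH, ?_⟩
        have hle := card_le_involutions_mul_centralizer t ht
        have hn : Nat.card {s : G // orderOf s = 2} ≤ Nat.card G := Nat.card_le_card_of_injective _ Subtype.val_injective
        have hcard := H.card_mul_index
        by_contra hcon
        push Not at hC hcon
        have hgpos : 0 < Nat.card G := Nat.card_pos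
        have hhpos : 0 < Nat.card H := Nat.card_pos
        generalize Nat.card G = g at *
        generalize Nat.card {s : G // orderOf s = 2} = n at *
        generalize Nat.card (Subgroup.centralizer ({t} : Set G)) = c at *
        generalize Nat.card H = h at *
        generalize H.index = i at *
        -- n² < g h
        have h1 : n ^ 2 < g * h := by
          have h2 : g * (2 * n ^ 2) < g * (2 * (g * h)) := by
            calc g * (2 * n ^ 2) = h * (2 * i * n ^ 2) := by rw [← hcard]; ring
              _ < h * (g * (g + n)) := Nat.mul_lt_mul_of_pos_left hlt hhpos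
              _ ≤ h * (g * (g + g)) := by gcongr
              _ = g * (2 * (g * h)) := by ring
          have h3 := Nat.lt_of_mul_lt_mul_left h2
          omega
        -- n³ ≥ g²
        have h4 : g ^ 2 ≤ n ^ 3 := by
          have h5 : g * g ^ 2 ≤ g * n ^ 3 := by
            calc g * g ^ 2 = g ^ 3 := by ring
              _ ≤ (n * c) ^ 3 := Nat.pow_le_pow_left hle 3
              _ = c ^ 3 * n ^ 3 := by ring
              _ ≤ g * n ^ 3 := by gcongr
          exact Nat.le_of_mul_le_mul_left h5 hgpos
        -- contradiction
        have h6 : (n ^ 2) ^ 3 < (g * h) ^ 3 := Nat.pow_lt_pow_left h1 (by norm_num)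
        have h7 : (g * h) ^ 3 ≤ g ^ 4 := by
          calc (g * h) ^ 3 = g ^ 3 * h ^ 3 := by ring
            _ ≤ g ^ 3 * g := by gcongr
            _ = g ^ 4 := by ring
        have h8 : g ^ 4 ≤ (n ^ 2) ^ 3 := by
          calc g ^ 4 = (g ^ 2) ^ 2 := by ring
            _ ≤ (n ^ 3) ^ 2 := Nat.pow_le_pow_left h4 2
            _ = (n ^ 2) ^ 3 := by ring
        omega
  · -- centre of even order
    rw [Nat.not_odd_iff_even] at hZ
    have : Fact (Nat.Prime 2) := ⟨Nat.prime_two⟩
    obtain ⟨z, hz⟩ := exists_prime_orderOf_dvd_card' (G := Subgroup.center G) 2 (even_iff_two_dvd.1 hZ)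
    obtain ⟨t, htc⟩ := z
    have ht : orderOf t = 2 := by
      rw [← Subgroup.orderOf_coe] at hz; exact hz
    let T : Subgroup G := Subgroup.zpowers t
    have hTle : T ≤ Subgroup.center G := by
      rw [Subgroup.zpowers_le]; exact htc
    have hTn : T.Normal := by
      refine ⟨fun x hx g => ?_⟩
      have h1 := (Subgroup.mem_center_iff.1 (hTle hx)) g
      rw [h1, mul_assoc, mul_inv_cancel, mul_one]
      exact hx
    have hTcard : Nat.card T = 2 := by rw [Nat.card_zpowers]; exact ht
    have hQ := T.card_mul_index
    rw [hTcard] at hQ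
    have hQ' : T.index = Nat.card (G ⧸ T) := Subgroup.index_eq_card T
    by_cases hQe : Even (Nat.card (G ⧸ T))
    · by_cases hQ2 : 2 < Nat.card (G ⧸ T)
      · obtain ⟨K, hK, hKc⟩ := ih (Nat.card (G ⧸ T)) (by omega) (G ⧸ T) rfl hQe hQ2
        refine ⟨K.comap (QuotientGroup.mk' T), ?_, ?_⟩
        · intro h
          apply hK
          have h1 := congrArg (Subgroup.map (QuotientGroup.mk' T)) h
          rw [Subgroup.map_comap_eq_self_of_surjective (QuotientGroup.mk'_surjective T),
            ← MonoidHom.range_eq_map, MonoidHom.range_eq_top.2 (QuotientGroup.mk'_surjective T)] at h1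
          exact h1
        · have h1 := (K.comap (QuotientGroup.mk' T)).card_mul_index
          rw [Subgroup.index_comap_of_surjective K (QuotientGroup.mk'_surjective T)] at h1
          have h2 := K.card_mul_index
          have h3 : 0 < K.index := by
            rw [Nat.pos_iff_ne_zero]; exact Subgroup.index_ne_zero_of_finite
          have h4 : Nat.card (K.comap (QuotientGroup.mk' T)) = 2 * Nat.card K := by
            have h5 : Nat.card (K.comap (QuotientGroup.mk' T)) * K.index = (2 * Nat.card K) * K.index := by
              rw [h1, mul_assoc, h2, ← hQ, hQ']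
            exact Nat.eq_of_mul_eq_mul_right h3 h5
          rw [h4, ← hQ, hQ']
          calc 2 * Nat.card (G ⧸ T) < 2 * Nat.card K ^ 3 := by omega
            _ ≤ 8 * Nat.card K ^ 3 := by omega
            _ = (2 * Nat.card K) ^ 3 := by ring
      · -- |G| = 4
        refine ⟨T, ?_, ?_⟩
        · intro h
          rw [h, Subgroup.card_top] at hTcard
          omega
        · rw [hTcard]
          omega
    · -- a normal complement
      have hcop : Nat.Coprime (Nat.card T) T.index := by
        rw [hTcard, hQ', Nat.coprime_two_left, ← Nat.not_even_iff_odd]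
        exact hQe
      obtain ⟨K, hK⟩ := Subgroup.exists_left_complement'_of_coprime hcop
      have h1 := hK.card_mul_card
      rw [hTcard] at h1
      have h2 := K.card_mul_index
      have h3 : 0 < Nat.card K := Nat.card_pos
      have h4 : K.index = 2 := by
        apply Nat.eq_of_mul_eq_mul_left h3
        rw [h2, h1]
      exact ⟨K, hidx K h4⟩

/-- A finite group G of even order greater than 2 has a proper subgroup H with |G| < |H|^3. -/
theorem result {G : Type*} [Group G] [Finite G] (heven : Even (Nat.card G)) (hgt : 2 < Nat.card G) : ∃ H : Subgroup G, H ≠ ⊤ ∧ Nat.card G < (Nat.card H) ^ 3 := by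
  exact aux (Nat.card G) G rfl heven hgt

end Cfsg.Agent.S0232
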