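import Cfsg.Statements.S0234
import Cfsg.Agent.S0233
import Cfsg.Agent.Involutions.IndexFive
set_option linter.all false

set_option autoImplicit false
open Cfsg

namespace Cfsg.Agent.S0234

/-- In a finite simple group G of even order greater than 2, the number n of involutions satisfies 3n < |G|. -/
theorem result {G : Type*} [Group G] [Finite G] [IsSimpleGroup G] (heven : Even (Nat.card G)) (hgt : 2 < Nat.card G) : 3 * Nat.card {t : G // orderOf t = 2} < Nat.card G := by
  have hnc := Involutions.IndexFive.not_comm heven hgt
  have hZ : Odd (Nat.card (Subgroup.center G)) := by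
    rw [Involutions.IndexFive.center_eq_bot hnc, Subgroup.card_bot]
    exact odd_one
  by_contra hlt
  push Not at hlt
  obtain ⟨H, hH, hidx⟩ := Cfsg.Agent.S0233.result heven hZ
  have hle : H.index ≤ 5 := by
    rcases hidx with h | h
    · omega
    · generalize Nat.card {t : G // orderOf t = 2} = n at *
      generalize Nat.card G = N at *
      by_contra h5
      push Not at h5
      have hn : 0 < n := by omega
      have h1 : 2 * 6 * n ^ 2 ≤ 2 * H.index * n ^ 2 :=
        Nat.mul_le_mul_right _ (Nat.mul_le_mul_left _ h5)
      have h2 : N * (N + n) ≤ (3 * n) * (3 * n + n) :=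
        Nat.mul_le_mul hlt (Nat.add_le_add_right hlt _)
      have h3 : (3 * n) * (3 * n + n) = 2 * 6 * n ^ 2 := by ring
      omega
  exact absurd (Involutions.IndexFive.three_mul_card_involutions_lt heven hgt H hH hle)
    (not_lt.2 hlt)

end Cfsg.Agent.S0234
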