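import Cfsg.Statements.S0236
import Mathlib.Tactic.Group
set_option linter.all false

set_option autoImplicit false
open Cfsg

namespace Cfsg.Agent.S0236

/-- If x is an involution, the number of ordered pairs (u, v) of involutions with uv = x, plus one, equals the number of involutions in the centralizer of x. -/
theorem result {G : Type*} [Group G] [Finite G] (x : G) (hx : orderOf x = 2) : Nat.card {p : G × G // orderOf p.1 = 2 ∧ orderOf p.2 = 2 ∧ p.1 * p.2 = x} + 1 = Nat.card {t : G // orderOf t = 2 ∧ Commute t x} := by
  classical
  have key : ∀ y : G, orderOf y = 2 ↔ y * y = 1 ∧ y ≠ 1 := by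
    intro y
    rw [orderOf_eq_prime_iff, pow_two]
  have hx' := (key x).1 hx
  let a : {t : G // orderOf t = 2 ∧ Commute t x} := ⟨x, hx, Commute.refl x⟩
  have e : {p : G × G // orderOf p.1 = 2 ∧ orderOf p.2 = 2 ∧ p.1 * p.2 = x} ≃ {b : {t : G // orderOf t = 2 ∧ Commute t x} // b ≠ a} :=
    { toFun := fun p => ⟨⟨p.1.1, p.2.1, by
          obtain ⟨⟨u, v⟩, hu, hv, huv⟩ := p
          simp only at hu hv huv ⊢
          have hu' := (key u).1 hu
          have hv' := (key v).1 hv
          subst huv
          have h1 : u * v * (u * v) = 1 := hx'.1
          show u * (u * v) = u * v * u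
          have h2 : u * v * u = v := by
            have : u * v * u = (u * v * (u * v)) * v⁻¹ := by group
            rw [this, h1, one_mul]
            exact inv_eq_of_mul_eq_one_left hv'.1
          rw [h2, ← mul_assoc, hu'.1, one_mul]⟩, by
          obtain ⟨⟨u, v⟩, hu, hv, huv⟩ := p
          simp only at hu hv huv ⊢
          intro h
          have h3 : u = x := congrArg Subtype.val h
          have hv' := (key v).1 hv
          apply hv'.2
          rw [h3] at huv
          exact mul_eq_left.1 huv⟩
      invFun := fun t => ⟨(t.1.1, t.1.1 * x), t.1.2.1, by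
          obtain ⟨⟨t, ht, hc⟩, hne⟩ := t
          simp only at ht hc ⊢
          have ht' := (key t).1 ht
          rw [key]
          refine ⟨?_, ?_⟩
          · have : t * x * (t * x) = t * (x * t) * x := by group
            rw [this, ← hc.eq, ← mul_assoc, ht'.1, one_mul, hx'.1]
          · intro h
            apply hne
            apply Subtype.ext
            show t = x
            have := eq_inv_of_mul_eq_one_left h
            rw [this]
            exact inv_eq_of_mul_eq_one_left hx'.1, by
          obtain ⟨⟨t, ht, hc⟩, hne⟩ := t
          simp only at ht hc ⊢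
          have ht' := (key t).1 ht
          rw [← mul_assoc, ht'.1, one_mul]⟩
      left_inv := by
        rintro ⟨⟨u, v⟩, hu, hv, huv⟩
        apply Subtype.ext
        simp only at hu hv huv ⊢
        have hu' := (key u).1 hu
        subst huv
        rw [← mul_assoc, hu'.1, one_mul]
      right_inv := by
        rintro ⟨⟨t, ht, hc⟩, hne⟩
        rfl }
  have h1 : Nat.card (Option {b : {t : G // orderOf t = 2 ∧ Commute t x} // b ≠ a}) = Nat.card {t : G // orderOf t = 2 ∧ Commute t x} :=
    Nat.card_congr (Equiv.optionSubtypeNe a)
  rw [← h1, Finite.card_option, Nat.card_congr e]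

end Cfsg.Agent.S0236
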