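import Cfsg.Statements.S0239
import Mathlib
set_option linter.all false

set_option autoImplicit false
open Cfsg

namespace Cfsg.Agent.S0239

/-- If some nontrivial element x of a finite group G is conjugate to x⁻¹, then |G| is even. -/
theorem result {G : Type*} [Group G] [Finite G] (x : G) (hx : x ≠ 1) (hreal : IsConj x x⁻¹) : Even (Nat.card G) := by
  by_contra hne
  rw [Nat.not_even_iff_odd] at hne
  obtain ⟨g, hg⟩ := isConj_iff.1 hreal
  have hsemi : g * x = x⁻¹ * g := by
    rw [← hg]; group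
  have hgodd : Odd (orderOf g) := hne.of_dvd_nat (orderOf_dvd_natCard g)
  have hxodd : Odd (orderOf x) := hne.of_dvd_nat (orderOf_dvd_natCard x)
  have h2 : Commute (g ^ 2) x := by
    have h1 : g * x⁻¹ * g⁻¹ = x := by
      have := congrArg (fun z => z⁻¹) hg
      simpa [mul_assoc] using this
    show g ^ 2 * x = x * g ^ 2
    calc g ^ 2 * x = g * (g * x * g⁻¹) * g⁻¹ * g ^ 2 := by simp [sq, mul_assoc]
      _ = g * x⁻¹ * g⁻¹ * g ^ 2 := by rw [hg]
      _ = x * g ^ 2 := by rw [h1]
  obtain ⟨k, hk⟩ := hgodd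
  have hgk : (g ^ 2) ^ (k + 1) = g := by
    rw [← pow_mul]
    have : 2 * (k + 1) = orderOf g + 1 := by omega
    rw [this, pow_succ, pow_orderOf_eq_one, one_mul]
  have hcomm : Commute g x := by
    rw [← hgk]; exact h2.pow_left _
  have hxx : x = x⁻¹ := by
    have h3 : g * x = x * g := hcomm
    rw [← hg, h3]; group
  have hx2 : x ^ 2 = 1 := by
    rw [sq]; nth_rewrite 2 [hxx]; simp
  have hdvd : orderOf x ∣ 2 := orderOf_dvd_of_pow_eq_one hx2
  rcases (Nat.dvd_prime Nat.prime_two).1 hdvd with h | h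
  · exact hx (orderOf_eq_one_iff.1 h)
  · rw [h] at hxodd
    exact absurd hxodd (by decide)

end Cfsg.Agent.S0239
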