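import Cfsg.Statements.S0240
import Mathlib
set_option linter.all false

set_option autoImplicit false
open Cfsg

namespace Cfsg.Agent.S0240

/-- Let G be a finite group with n involutions and H a subgroup with |H|·(n+1) > |G|. Then some nontrivial h ∈ H is strongly real in G: an involution t of G satisfies t h t⁻¹ = h⁻¹. -/
theorem result {G : Type*} [Group G] [Finite G] (H : Subgroup G) (hH : Nat.card G < Nat.card H * (Nat.card {t : G // orderOf t = 2} + 1)) : ∃ h : G, h ∈ H ∧ h ≠ 1 ∧ ∃ t : G, orderOf t = 2 ∧ t * h * t⁻¹ = h⁻¹ := by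
  classical
  have hinv : ∀ t : G, orderOf t = 2 → t * t = 1 := by
    intro t ht
    rw [← sq, ← ht, pow_orderOf_eq_one]
  let f : Option {t : G // orderOf t = 2} → G := fun o => o.elim 1 (fun t => t.1)
  have hnot : ¬ Function.Injective (fun o => (QuotientGroup.mk (f o) : G ⧸ H)) := by
    intro hinj
    have h1 := Nat.card_le_card_of_injective _ hinj
    rw [Finite.card_option] at h1
    have h2 : Nat.card G = Nat.card (G ⧸ H) * Nat.card H := Subgroup.card_eq_card_quotient_mul_card_subgroup H
    have h3 : Nat.card H * (Nat.card {t : G // orderOf t = 2} + 1) ≤ Nat.card H * Nat.card (G ⧸ H) :=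
      Nat.mul_le_mul_left _ h1
    rw [h2, mul_comm] at hH
    omega
  rw [Function.Injective] at hnot
  push Not at hnot
  obtain ⟨a, b, hab, hne⟩ := hnot
  have hmem : (f a)⁻¹ * f b ∈ H := QuotientGroup.eq.1 hab
  rcases a with _ | ⟨s, hs⟩ <;> rcases b with _ | ⟨t, ht⟩
  · exact absurd rfl hne
  · refine ⟨t, by simpa [f] using hmem, ?_, t, ht, ?_⟩
    · rintro rfl; simp at ht
    · have := hinv t ht
      rw [this, one_mul]
  · refine ⟨s, ?_, ?_, s, hs, ?_⟩
    · have h5 : s⁻¹ ∈ H := by simpa [f] using hmem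
      exact (Subgroup.inv_mem_iff H).1 h5
    · rintro rfl; simp at hs
    · have := hinv s hs
      rw [this, one_mul]
  · have hs1 : s⁻¹ = s := inv_eq_of_mul_eq_one_right (hinv s hs)
    have ht1 : t⁻¹ = t := inv_eq_of_mul_eq_one_right (hinv t ht)
    have hst : s * t ∈ H := by
      have : s⁻¹ * t ∈ H := by simpa [f] using hmem
      rwa [hs1] at this
    refine ⟨s * t, hst, ?_, s, hs, ?_⟩
    · intro h1
      apply hne
      have h2 : t = s⁻¹ := (inv_eq_of_mul_eq_one_right h1).symm
      rw [hs1] at h2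
      subst h2
      rfl
    · rw [mul_inv_rev, hs1, ht1, ← mul_assoc, hinv s hs, one_mul]

end Cfsg.Agent.S0240
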