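import Cfsg.Statements.S0267
import Mathlib
import Cfsg.Agent.S0266
set_option linter.all false

set_option autoImplicit false
open Cfsg

namespace Cfsg.Agent.S0267

open Matrix
open Cfsg.Agent.S0266 (P0 P1 P2)

/-- The action of `SL_2` on points. -/
theorem sl_smul_mk {F : Type*} [Field F] (g : Matrix.SpecialLinearGroup (Fin 2) F)
    (v : Fin 2 → F) (hv : v ≠ 0) :
    g • Projectivization.mk F v hv = Projectivization.mk F (g • v) (by
      intro h
      exact hv (by rw [← inv_smul_smul g v, h, smul_zero])) := rfl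

theorem sl_smul_def {F : Type*} [Field F] (g : Matrix.SpecialLinearGroup (Fin 2) F)
    (v : Fin 2 → F) : g • v = (g : Matrix (Fin 2) (Fin 2) F) *ᵥ v := rfl

/-- If all elements are squares, `SL_2` moves the standard points to any three points. -/
theorem exists_move_sl {F : Type*} [Field F] (hsq : ∀ x : F, IsSquare x)
    (a b c : Projectivization F (Fin 2 → F)) (hab : a ≠ b) (hac : a ≠ c) (hbc : b ≠ c) :
    ∃ g : Matrix.SpecialLinearGroup (Fin 2) F, g • P0 F = a ∧ g • P1 F = b ∧ g • P2 F = c := by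
  have h1 := Projectivization.linearIndependent_pair_iff_ne.2 hab
  have h2 := Projectivization.linearIndependent_pair_iff_ne.2 hac
  have h3 := Projectivization.linearIndependent_pair_iff_ne.2 hbc
  obtain ⟨g, ⟨x, hx, hgx⟩, ⟨y, hy, hgy⟩, hgz⟩ :=
    Cfsg.Agent.S0266.exists_std a.rep b.rep c.rep h1 h2 h3
  have hdet : g.1.det ≠ 0 := by
    have := g.isUnit
    rw [Matrix.isUnit_iff_isUnit_det] at this
    exact this.ne_zero
  obtain ⟨r, hr⟩ := hsq g.1.det
  have hr0 : r ≠ 0 := by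
    rintro rfl
    exact hdet (by simpa using hr)
  have hd : (r⁻¹ • g.1).det = 1 := by
    rw [Matrix.det_smul, Fintype.card_fin, hr]
    field_simp
  let k : Matrix.SpecialLinearGroup (Fin 2) F := ⟨r⁻¹ • g.1, hd⟩
  have hk : (k : Matrix (Fin 2) (Fin 2) F) = r⁻¹ • g.1 := rfl
  refine ⟨k, ?_, ?_, ?_⟩
  · rw [P0, sl_smul_mk, ← Projectivization.mk_rep a, Projectivization.mk_eq_mk_iff']
    refine ⟨r⁻¹ * x, ?_⟩
    rw [sl_smul_def, hk, Matrix.smul_mulVec, hgx, smul_smul]
  · rw [P1, sl_smul_mk, ← Projectivization.mk_rep b, Projectivization.mk_eq_mk_iff']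
    refine ⟨r⁻¹ * y, ?_⟩
    rw [sl_smul_def, hk, Matrix.smul_mulVec, hgy, smul_smul]
  · rw [P2, sl_smul_mk, ← Projectivization.mk_rep c, Projectivization.mk_eq_mk_iff']
    refine ⟨r⁻¹, ?_⟩
    rw [sl_smul_def, hk, Matrix.smul_mulVec, hgz]

/-- The triple of points `(1:0), (0:1), (1:c)`. -/
theorem isSquare_of_move {F : Type*} [Field F] (g : Matrix.SpecialLinearGroup (Fin 2) F) (c : F)
    (hc : (![1, c] : Fin 2 → F) ≠ 0)
    (h0 : g • P0 F = P0 F) (h1 : g • P1 F = P1 F)
    (h2 : g • P2 F = Projectivization.mk F ![1, c] hc) : IsSquare c := by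
  rw [P0, sl_smul_mk, Projectivization.mk_eq_mk_iff'] at h0
  rw [P1, sl_smul_mk, Projectivization.mk_eq_mk_iff'] at h1
  rw [P2, sl_smul_mk, Projectivization.mk_eq_mk_iff'] at h2
  obtain ⟨x, hx⟩ := h0
  obtain ⟨y, hy⟩ := h1
  obtain ⟨z, hz⟩ := h2
  rw [sl_smul_def] at hx hy hz
  have x0 := congrFun hx 0
  have x1 := congrFun hx 1
  have y0 := congrFun hy 0
  have y1 := congrFun hy 1
  have z0 := congrFun hz 0
  have z1 := congrFun hz 1
  simp [Matrix.mulVec, dotProduct, Fin.sum_univ_two] at x0 x1 y0 y1 z0 z1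
  have hd := g.2
  rw [Matrix.det_fin_two] at hd
  have hx : x ≠ 0 := by
    rintro rfl
    rw [← x0, ← x1] at hd
    simp at hd
  refine ⟨x⁻¹, ?_⟩
  rw [← x1, ← y0, ← x0, ← y1] at hd
  rw [← x0, ← y0] at z0
  rw [← x1, ← y1] at z1
  field_simp
  rw [add_zero] at z0
  rw [zero_add, z0] at z1
  linear_combination hd + x * z1

theorem P0_ne_P1 {F : Type*} [Field F] : P0 F ≠ P1 F := by
  intro h
  rw [P0, P1, Projectivization.mk_eq_mk_iff'] at h
  obtain ⟨a, ha⟩ := h
  simpa using congrFun ha 0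

theorem P0_ne_mk {F : Type*} [Field F] (c : F) (hc0 : c ≠ 0) (hc : (![1, c] : Fin 2 → F) ≠ 0) :
    P0 F ≠ Projectivization.mk F ![1, c] hc := by
  intro h
  rw [P0, Projectivization.mk_eq_mk_iff'] at h
  obtain ⟨a, ha⟩ := h
  have h0 := congrFun ha 0
  have h1 := congrFun ha 1
  simp at h0 h1
  rcases h1 with h1 | h1
  · rw [h1] at h0; exact zero_ne_one h0
  · exact hc0 h1

theorem P1_ne_mk {F : Type*} [Field F] (c : F) (hc : (![1, c] : Fin 2 → F) ≠ 0) :
    P1 F ≠ Projectivization.mk F ![1, c] hc := by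
  intro h
  rw [P1, Projectivization.mk_eq_mk_iff'] at h
  obtain ⟨a, ha⟩ := h
  have h0 := congrFun ha 0
  have h1 := congrFun ha 1
  simp at h0 h1
  rw [h0] at h1
  simp at h1

/-- An embedding of `Fin 3` from three distinct elements. -/
def emb3 {α : Type*} (a b c : α) (hab : a ≠ b) (hac : a ≠ c) (hbc : b ≠ c) : Fin 3 ↪ α where
  toFun := ![a, b, c]
  inj' := by
    intro i j h
    fin_cases i <;> fin_cases j <;> simp_all [eq_comm]

/-- SL_2(q) is 3-transitive on the q+1 points of the projective line if and only if q is even. -/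
theorem result {F : Type*} [Field F] [Fintype F] : MulAction.IsMultiplyPretransitive (Matrix.SpecialLinearGroup (Fin 2) F) (Projectivization F (Fin 2 → F)) 3 ↔ ringChar F = 2 := by
  constructor
  · intro h
    by_contra hne
    rw [MulAction.isMultiplyPretransitive_iff] at h
    obtain ⟨c, hc⟩ := FiniteField.exists_nonsquare hne
    have hc0 : c ≠ 0 := by
      rintro rfl
      exact hc (IsSquare.zero)
    have hcv : (![1, c] : Fin 2 → F) ≠ 0 := by
      intro h
      simpa using congrFun h 0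
    have h1v : (![1, 1] : Fin 2 → F) ≠ 0 := by
      intro h
      simpa using congrFun h 0
    obtain ⟨g, hg⟩ := h
      (emb3 (P0 F) (P1 F) (P2 F) P0_ne_P1 (P0_ne_mk 1 one_ne_zero h1v) (P1_ne_mk 1 h1v))
      (emb3 (P0 F) (P1 F) (Projectivization.mk F ![1, c] hcv) P0_ne_P1 (P0_ne_mk c hc0 hcv)
        (P1_ne_mk c hcv))
    exact hc (isSquare_of_move g c hcv (congrArg (fun e : Fin 3 ↪ _ => e 0) hg)
      (congrArg (fun e : Fin 3 ↪ _ => e 1) hg) (congrArg (fun e : Fin 3 ↪ _ => e 2) hg))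
  · intro h
    have hsq : ∀ x : F, IsSquare x := fun x => FiniteField.isSquare_of_char_two h x
    rw [MulAction.isMultiplyPretransitive_iff]
    intro s t
    have hs : ∀ i j : Fin 3, i ≠ j → s i ≠ s j := fun i j hij h => hij (s.injective h)
    have ht : ∀ i j : Fin 3, i ≠ j → t i ≠ t j := fun i j hij h => hij (t.injective h)
    obtain ⟨g, g0, g1, g2⟩ := exists_move_sl hsq (s 0) (s 1) (s 2) (hs _ _ (by decide))
      (hs _ _ (by decide)) (hs _ _ (by decide))
    obtain ⟨k, k0, k1, k2⟩ := exists_move_sl hsq (t 0) (t 1) (t 2) (ht _ _ (by decide))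
      (ht _ _ (by decide)) (ht _ _ (by decide))
    refine ⟨k * g⁻¹, ?_⟩
    ext i
    rw [Function.Embedding.smul_apply]
    fin_cases i
    · show (k * g⁻¹) • s 0 = t 0
      rw [← g0, mul_smul, inv_smul_smul, k0]
    · show (k * g⁻¹) • s 1 = t 1
      rw [← g1, mul_smul, inv_smul_smul, k1]
    · show (k * g⁻¹) • s 2 = t 2
      rw [← g2, mul_smul, inv_smul_smul, k2]

end Cfsg.Agent.S0267
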