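import Cfsg.Statements.S0272
import Cfsg.Agent.LieClassical.GLTwoUnipotent
set_option linter.all false

set_option autoImplicit false
open Cfsg

namespace Cfsg.Agent.S0272

/-- The normaliser in GL_2(q) of a Sylow p-subgroup, p the characteristic, has order q (q-1)^2. -/
theorem result {F : Type*} [Field F] [Fintype F] {q : ℕ} (hF : Fintype.card F = q) (p : ℕ) [Fact p.Prime] [CharP F p] (P : Sylow p (Matrix.GeneralLinearGroup (Fin 2) F)) : Nat.card (Subgroup.normalizer ((P : Subgroup (Matrix.GeneralLinearGroup (Fin 2) F)) : Set (Matrix.GeneralLinearGroup (Fin 2) F))) = q * (q - 1) ^ 2 := by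
  subst hF
  have hn : (Subgroup.normalizer ((P : Subgroup (Matrix.GeneralLinearGroup (Fin 2) F)) :
      Set (Matrix.GeneralLinearGroup (Fin 2) F))).index = Fintype.card F + 1 := by
    refine P.card_eq_index_normalizer.symm.trans ?_
    rw [(LieClassical.GLTwoUnipotent.upperUnipSylow F p).card_eq_index_normalizer]
    refine LieClassical.GLTwoUnipotent.index_normalizer_upperUnip.trans ?_
    change Nat.card (Option F) = _
    rw [Nat.card_eq_fintype_card, Fintype.card_option]
  have h := (Subgroup.normalizer ((P : Subgroup (Matrix.GeneralLinearGroup (Fin 2) F)) :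
      Set (Matrix.GeneralLinearGroup (Fin 2) F))).card_mul_index
  rw [hn, LieClassical.GLTwoUnipotent.card_GL_two] at h
  refine Nat.eq_of_mul_eq_mul_right (Nat.succ_pos (Fintype.card F)) (h.trans ?_)
  obtain ⟨k, hk⟩ := Nat.exists_eq_add_of_lt (Fintype.one_lt_card (α := F))
  have h1 : Fintype.card F = k + 2 := by omega
  rw [h1]
  have h2 : (k + 2) ^ 2 - 1 = (k + 1) * (k + 3) := by
    rw [Nat.sub_eq_iff_eq_add (Nat.one_le_pow _ _ (by omega))]
    ring
  rw [h2]
  have h3 : k + 2 - 1 = k + 1 := rfl
  rw [h3]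
  simp only [Nat.succ_eq_add_one]
  ring

end Cfsg.Agent.S0272
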