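import Cfsg.Statements.S0273
import Cfsg.Agent.LieClassical.GLTwoUnipotent
set_option linter.all false

set_option autoImplicit false
open Cfsg

namespace Cfsg.Agent.S0273

open Matrix LieClassical.GLTwoUnipotent

/-- The centraliser of a non-trivial upper unitriangular matrix in `GL₂(F)`. -/
theorem mem_centralizer_iff {F : Type*} [Field F] {u : GL (Fin 2) F} (hu : u ∈ upperUnip F)
    (hu1 : u ≠ 1) (c : GL (Fin 2) F) :
    c ∈ Subgroup.centralizer ({u} : Set (GL (Fin 2) F)) ↔ c 1 0 = 0 ∧ c 0 0 = c 1 1 := by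
  rw [mem_upperUnip_iff] at hu
  obtain ⟨h1, h2, h3⟩ := hu
  have h4 : u 0 1 ≠ 0 := by
    intro h
    apply hu1
    ext i j
    fin_cases i <;> fin_cases j <;> simp [h1, h2, h3, h]
  rw [Subgroup.mem_centralizer_singleton_iff]
  constructor
  · intro hcomm
    have e (i j : Fin 2) := congrArg (fun g : GL (Fin 2) F => g i j) hcomm
    simp only [Units.val_mul, Matrix.mul_apply, Fin.sum_univ_two] at e
    have e00 := e 0 0
    have e01 := e 0 1
    rw [h1, h2] at e00
    rw [h1, h3] at e01
    have k1 : c 1 0 = 0 := by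
      have : u 0 1 * c 1 0 = 0 := by linear_combination -e00
      exact (mul_eq_zero.1 this).resolve_left h4
    refine ⟨k1, ?_⟩
    have : u 0 1 * (c 0 0 - c 1 1) = 0 := by linear_combination e01
    exact sub_eq_zero.1 ((mul_eq_zero.1 this).resolve_left h4)
  · rintro ⟨k1, k2⟩
    ext i j
    fin_cases i <;> fin_cases j <;>
      simp [Units.val_mul, Matrix.mul_apply, Fin.sum_univ_two, h1, h2, h3, k1, k2]
    ring

/-- The centraliser of a non-trivial upper unitriangular matrix is in bijection with `Fˣ × F`. -/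
def equivCentralizer {F : Type*} [Field F] {u : GL (Fin 2) F} (hu : u ∈ upperUnip F)
    (hu1 : u ≠ 1) : Subgroup.centralizer ({u} : Set (GL (Fin 2) F)) ≃ F × Fˣ where
  toFun c := (c.1 0 1, Units.mk0 (c.1 0 0) (by
    have h := (mem_centralizer_iff hu hu1 c.1).1 c.2
    have := c.1.det_ne_zero
    rw [Matrix.det_fin_two, h.1, h.2] at this
    rw [h.2]
    simpa using this))
  invFun t := ⟨GeneralLinearGroup.mkOfDetNeZero !![(t.2 : F), t.1; 0, (t.2 : F)] (by
    rw [Matrix.det_fin_two]; simp), by
    rw [mem_centralizer_iff hu hu1]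
    simp [GeneralLinearGroup.mkOfDetNeZero]⟩
  left_inv c := by
    have h := (mem_centralizer_iff hu hu1 c.1).1 c.2
    apply Subtype.ext
    ext i j
    fin_cases i <;> fin_cases j <;> simp [GeneralLinearGroup.mkOfDetNeZero, h.1, h.2]
  right_inv t := by
    ext <;> simp [GeneralLinearGroup.mkOfDetNeZero]

/-- In GL_2(q) the centraliser of a non-trivial element of a Sylow p-subgroup (p the characteristic) has order q (q-1): the Sylow subgroup times the scalars. -/
theorem result {F : Type*} [Field F] [Fintype F] {q : ℕ} (hF : Fintype.card F = q) (p : ℕ) [Fact p.Prime] [CharP F p] (P : Sylow p (Matrix.GeneralLinearGroup (Fin 2) F)) (a : Matrix.GeneralLinearGroup (Fin 2) F) (ha : a ∈ P) (ha1 : a ≠ 1) : Nat.card (Subgroup.centralizer ({a} : Set (Matrix.GeneralLinearGroup (Fin 2) F))) = q * (q - 1) := by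
  classical
  subst hF
  obtain ⟨g, rfl⟩ := exists_smul_upperUnipSylow_eq p P
  have h1 : g⁻¹ * a * g ∈ upperUnip F := (mem_smul_upperUnipSylow_iff p).1 ha
  have h2 : g⁻¹ * a * g ≠ 1 := by
    intro h
    apply ha1
    have := congrArg (fun x => g * x * g⁻¹) h
    simpa [mul_assoc] using this
  have e : Subgroup.centralizer ({a} : Set (GL (Fin 2) F)) ≃
      Subgroup.centralizer ({g⁻¹ * a * g} : Set (GL (Fin 2) F)) :=
    { toFun := fun c => ⟨g⁻¹ * c.1 * g, by
        have := Subgroup.mem_centralizer_singleton_iff.1 c.2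
        rw [Subgroup.mem_centralizer_singleton_iff]
        calc g⁻¹ * c.1 * g * (g⁻¹ * a * g) = g⁻¹ * (c.1 * a) * g := by group
          _ = g⁻¹ * (a * c.1) * g := by rw [this]
          _ = _ := by group⟩
      invFun := fun c => ⟨g * c.1 * g⁻¹, by
        have := Subgroup.mem_centralizer_singleton_iff.1 c.2
        rw [Subgroup.mem_centralizer_singleton_iff]
        calc g * c.1 * g⁻¹ * a = g * (c.1 * (g⁻¹ * a * g)) * g⁻¹ := by group
          _ = g * ((g⁻¹ * a * g) * c.1) * g⁻¹ := by rw [this]
          _ = _ := by group⟩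
      left_inv := fun c => by
        apply Subtype.ext
        simp [mul_assoc]
      right_inv := fun c => by
        apply Subtype.ext
        simp [mul_assoc] }
  rw [Nat.card_congr (e.trans (equivCentralizer h1 h2)), Nat.card_prod, Nat.card_eq_fintype_card,
    Nat.card_eq_fintype_card, Fintype.card_units]

end Cfsg.Agent.S0273
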