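import Cfsg.Statements.S0321
import Cfsg.Agent.LieExceptional.BNPairCore
set_option linter.all false

set_option autoImplicit false
open Cfsg

namespace Cfsg.Agent.S0321

open Cfsg.Agent.LieExceptional.BNPairCore

/-- For `n ∈ N` not in `B`, the union `B ∪ B n B` is (the underlying set of) a subgroup exactly when `n` agrees
modulo `B ⊓ N` with one of the distinguished representatives; thus the distinguished involutions are
determined by `B` and `N`. -/
theorem result {G : Type*} [Group G] (P : Cfsg.BNPair G) {n : G}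
    (hn : n ∈ P.N) (hnB : n ∉ P.B) :
    (∃ H : Subgroup G, (H : Set G) = (P.B : Set G) ∪ DoubleCoset.doubleCoset n (P.B : Set G) P.B) ↔ ∃ s ∈ P.S, s⁻¹ * n ∈ P.B := by
  constructor
  · rintro ⟨H, hH⟩
    have hB : P.B ≤ H := by
      intro x hx
      show x ∈ (H : Set G)
      rw [hH]; exact Or.inl hx
    have hnH : n ∈ H := by
      show n ∈ (H : Set G)
      rw [hH]; exact Or.inr (self_mem_C n)
    have h1 := eq_parabolic hB
    by_cases hne : (P.S ∩ H).Nonempty
    · obtain ⟨s, hs, hsH⟩ := hne
      refine ⟨s, hs, ?_⟩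
      have h2 : s ∈ (P.B : Set G) ∪ DoubleCoset.doubleCoset n (P.B : Set G) P.B := by
        rw [← hH]; exact hsH
      rcases h2 with h2 | h2
      · exact absurd h2 (not_mem_B hs)
      · exact rel_of_C_eq (mem_N hs) hn (C_eq_of_mem h2)
    · exfalso
      rw [Set.not_nonempty_iff_eq_empty] at hne
      rw [hne] at h1
      rw [h1] at hnH
      have h3 : P.parabolic ∅ = P.B := by
        show P.B ⊔ Subgroup.closure ∅ = P.B
        rw [Subgroup.closure_empty, sup_bot_eq]
      rw [h3] at hnH
      exact hnB hnH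
  · rintro ⟨s, hs, hrel⟩
    refine ⟨P.parabolic {s}, ?_⟩
    have hJ : ({s} : Set G) ⊆ P.S := Set.singleton_subset_iff.2 hs
    ext g
    rw [SetLike.mem_coe, mem_parabolic_iff hJ g]
    have hC : DoubleCoset.doubleCoset n (P.B : Set G) P.B = C P s := (C_eq_of_rel hrel).symm
    rw [hC]
    constructor
    · rintro ⟨m, hm, hg⟩
      obtain ⟨k, rfl⟩ := Subgroup.mem_closure_singleton.1 hm
      have hsq : ∀ j : ℤ, (s * s) ^ j ∈ P.B := fun j => zpow_mem (P.sq_mem s hs) j
      rcases Int.even_or_odd' k with ⟨j, rfl | rfl⟩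
      · left
        have h1 : s ^ (2 * j) = (s * s) ^ j := by
          rw [zpow_mul, zpow_two]
        rw [h1] at hg
        exact mem_B_of_mem_C (hsq j) hg
      · right
        have h1 : s ^ (2 * j + 1) = (s * s) ^ j * s := by
          rw [zpow_add, zpow_mul, zpow_two, zpow_one]
        rw [h1, C_mul_left (hsq j)] at hg
        exact hg
    · rintro (hg | hg)
      · exact ⟨1, one_mem _, mem_C_one.2 hg⟩
      · exact ⟨s, Subgroup.subset_closure rfl, hg⟩

end Cfsg.Agent.S0321
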