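-- Proof of statement S0322.
import Cfsg.Statements.S0322
set_option linter.all false

set_option autoImplicit false
open Cfsg

namespace Cfsg.Agent.S0322

open DoubleCoset in
theorem mem_B_or_mem {G : Type*} [Group G] (P : Cfsg.BNPair G) {s : G} (hs : P.S = {s}) (g : G) :
    g ∈ P.B ∨ ∃ b ∈ P.B, ∃ c ∈ P.B, g = b * s * c := by
  have hsS : s ∈ P.S := by rw [hs]; exact Set.mem_singleton s
  have hsN : s ∈ P.N := P.subset hsS
  have hsq : s * s ∈ P.B := P.sq_mem s hsS
  -- multiplication rule for `s`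
  have hmul : ∀ b ∈ P.B, s * b * s ∈ P.B ∨ ∃ c ∈ P.B, ∃ d ∈ P.B, s * b * s = c * s * d := by
    intro b hb
    rcases P.mul_mem_union s hsS s hsN b hb with h | h
    · rw [mem_doubleCoset] at h
      obtain ⟨x, hx, y, hy, h⟩ := h
      left
      rw [h]
      exact P.B.mul_mem (P.B.mul_mem hx hsq) hy
    · rw [mem_doubleCoset] at h
      obtain ⟨x, hx, y, hy, h⟩ := h
      exact Or.inr ⟨x, hx, y, hy, h⟩
  -- the subgroup `B ∪ B s B`
  let H : Subgroup G :=
    { carrier := {g | g ∈ P.B ∨ ∃ b ∈ P.B, ∃ c ∈ P.B, g = b * s * c}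
      one_mem' := Or.inl P.B.one_mem
      mul_mem' := by
        rintro a b (ha | ⟨a1, ha1, a2, ha2, rfl⟩) (hb | ⟨b1, hb1, b2, hb2, rfl⟩)
        · exact Or.inl (P.B.mul_mem ha hb)
        · exact Or.inr ⟨a * b1, P.B.mul_mem ha hb1, b2, hb2, by group⟩
        · exact Or.inr ⟨a1, ha1, a2 * b, P.B.mul_mem ha2 hb, by group⟩
        · have e : a1 * s * a2 * (b1 * s * b2) = a1 * (s * (a2 * b1) * s) * b2 := by group
          rcases hmul (a2 * b1) (P.B.mul_mem ha2 hb1) with h | ⟨c, hc, d, hd, h⟩
          · left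
            rw [e]
            exact P.B.mul_mem (P.B.mul_mem ha1 h) hb2
          · right
            refine ⟨a1 * c, P.B.mul_mem ha1 hc, d * b2, P.B.mul_mem hd hb2, ?_⟩
            rw [e, h]
            group
      inv_mem' := by
        rintro a (ha | ⟨a1, ha1, a2, ha2, rfl⟩)
        · exact Or.inl (P.B.inv_mem ha)
        · right
          refine ⟨a2⁻¹ * (s * s)⁻¹, P.B.mul_mem (P.B.inv_mem ha2) (P.B.inv_mem hsq), a1⁻¹,
            P.B.inv_mem ha1, ?_⟩
          group }
  have hB : P.B ≤ H := fun b hb => Or.inl hb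
  have hsH : s ∈ H := Or.inr ⟨1, P.B.one_mem, 1, P.B.one_mem, by group⟩
  have hN : P.N ≤ H := by
    rw [← P.closure_sup]
    refine sup_le ?_ (inf_le_left.trans hB)
    rw [Subgroup.closure_le, hs]
    rintro x rfl
    exact hsH
  have htop : (⊤ : Subgroup G) ≤ H := by
    rw [← P.sup_eq_top]
    exact sup_le hB hN
  exact htop (Subgroup.mem_top g)

/-- A group with a (B,N)-pair of rank one acts doubly transitively on the left cosets of `B`. -/
theorem result {G : Type*} [Group G] (P : Cfsg.BNPair G) (h : P.rank = 1) : MulAction.IsMultiplyPretransitive G (G ⧸ P.B) 2 := by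
  have hcard : Nat.card P.S = 1 := h
  obtain ⟨s, hs⟩ : ∃ s, P.S = {s} := by
    rw [Nat.card_coe_set_eq] at hcard
    exact Set.ncard_eq_one.1 hcard
  have key : ∀ a b : G ⧸ P.B, a ≠ b → ∃ g : G, g • ((1 : G) : G ⧸ P.B) = a ∧ g • (s : G ⧸ P.B) = b := by
    intro a b hab
    induction a using QuotientGroup.induction_on with
    | H a =>
      induction b using QuotientGroup.induction_on with
      | H b =>
        have hn : a⁻¹ * b ∉ P.B := fun hmem => hab (QuotientGroup.eq.2 hmem)
        rcases mem_B_or_mem P hs (a⁻¹ * b) with h1 | ⟨c, hc, d, hd, h1⟩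
        · exact absurd h1 hn
        · refine ⟨a * c, ?_, ?_⟩
          · change ((a * c * 1 : G) : G ⧸ P.B) = a
            rw [QuotientGroup.eq]
            simpa using hc
          · change ((a * c * s : G) : G ⧸ P.B) = b
            rw [QuotientGroup.eq]
            have : (a * c * s)⁻¹ * b = d := by
              have h2 : b = a * (c * s * d) := by rw [← h1]; group
              rw [h2]; group
            rw [this]; exact hd
  rw [MulAction.is_two_pretransitive_iff]
  intro a b c d hab hcd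
  obtain ⟨g, hg1, hg2⟩ := key a b hab
  obtain ⟨k, hk1, hk2⟩ := key c d hcd
  refine ⟨k * g⁻¹, ?_, ?_⟩
  · rw [mul_smul, ← hg1, inv_smul_smul, hk1]
  · rw [mul_smul, ← hg2, inv_smul_smul, hk2]

end Cfsg.Agent.S0322
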