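-- Proof of statement S0323.
import Cfsg.Statements.S0323
set_option linter.all false

set_option autoImplicit false
open scoped Pointwise
open Cfsg

namespace Cfsg.Agent.S0323

theorem mem_stab_pair {G Ω : Type*} [Group G] [MulAction G Ω] {x y : Ω} {g : G} :
    g ∈ MulAction.stabilizer G ({x, y} : Set Ω) ↔
      (g • x = x ∧ g • y = y) ∨ (g • x = y ∧ g • y = x) := by
  rw [MulAction.mem_stabilizer_iff, Set.smul_set_insert, Set.smul_set_singleton,
    Set.pair_eq_pair_iff]

/-- A doubly transitive action on a set with at least three points yields a (B,N)-pair of rank one: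
`B` is the stabiliser of a point `x`, `N` the setwise stabiliser of a pair `{x, y}`. -/
theorem result {G Ω : Type*} [Group G] [MulAction G Ω]
    (h2 : MulAction.IsMultiplyPretransitive G Ω 2) {x y z : Ω} (hxy : x ≠ y) (hyz : y ≠ z) (hxz : x ≠ z) :
    ∃ P : Cfsg.BNPair G, P.B = MulAction.stabilizer G x ∧
      P.N = MulAction.stabilizer G ({x, y} : Set Ω) ∧ P.rank = 1 := by
  rw [MulAction.is_two_pretransitive_iff] at h2
  obtain ⟨s, hsx, hsy⟩ := h2 hxy hxy.symm
  have hsx' : s⁻¹ • y = x := by rw [← hsx, inv_smul_smul]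
  have hsy' : s⁻¹ • x = y := by rw [← hsy, inv_smul_smul]
  have bruhat : ∀ g : G, g • x = x ∨ ∃ b : G, b • x = x ∧ (s⁻¹ * b⁻¹ * g) • x = x := by
    intro g
    by_cases hg : g • x = x
    · exact Or.inl hg
    · right
      obtain ⟨b, hb1, hb2⟩ := h2 hxy (Ne.symm hg)
      refine ⟨b, hb1, ?_⟩
      have : b⁻¹ • g • x = y := by rw [← hb2, inv_smul_smul]
      rw [mul_smul, mul_smul, this, hsx']
  have hsN : s ∈ MulAction.stabilizer G ({x, y} : Set Ω) := mem_stab_pair.2 (Or.inr ⟨hsx, hsy⟩)
  refine ⟨{ B := MulAction.stabilizer G x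
            N := MulAction.stabilizer G ({x, y} : Set Ω)
            S := {s}
            sup_eq_top := ?_
            conj_mem := ?_
            subset := ?_
            sq_mem := ?_
            inj := ?_
            closure_sup := ?_
            mul_mem_union := ?_
            conj_ne := ?_ }, rfl, rfl, ?_⟩
  · rw [eq_top_iff]
    intro g _
    have hB : MulAction.stabilizer G x ≤
      MulAction.stabilizer G x ⊔ MulAction.stabilizer G ({x, y} : Set Ω) := le_sup_left
    have hN : MulAction.stabilizer G ({x, y} : Set Ω) ≤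
      MulAction.stabilizer G x ⊔ MulAction.stabilizer G ({x, y} : Set Ω) := le_sup_right
    rcases bruhat g with hg | ⟨b, hb, hg⟩
    · exact hB (MulAction.mem_stabilizer_iff.2 hg)
    · have e : g = b * s * (s⁻¹ * b⁻¹ * g) := by group
      rw [e]
      exact mul_mem (mul_mem (hB (MulAction.mem_stabilizer_iff.2 hb)) (hN hsN))
        (hB (MulAction.mem_stabilizer_iff.2 hg))
  · intro n hn t ht
    rw [Subgroup.mem_inf, MulAction.mem_stabilizer_iff, mem_stab_pair] at ht
    rw [mem_stab_pair] at hn
    rw [MulAction.mem_stabilizer_iff, mul_smul, mul_smul]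
    have hty : t • y = y := by
      rcases ht.2 with h | h
      · exact h.2
      · exact absurd (h.1.symm.trans ht.1).symm hxy
    rcases hn with h | h
    · have : n⁻¹ • x = x := by
        conv_lhs => rw [← h.1]
        rw [inv_smul_smul]
      rw [this, ht.1, h.1]
    · have : n⁻¹ • x = y := by
        rw [← h.2, inv_smul_smul]
      rw [this, hty, h.2]
  · rintro _ rfl
    exact hsN
  · rintro _ rfl
    rw [MulAction.mem_stabilizer_iff, mul_smul, hsx, hsy]
  · rintro _ rfl _ rfl _
    rfl
  · apply le_antisymm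
    · refine sup_le ?_ inf_le_right
      rw [Subgroup.closure_le]
      rintro _ rfl
      exact hsN
    · intro n hn
      have hs1 : s ∈ Subgroup.closure ({s} : Set G) := Subgroup.subset_closure rfl
      rcases mem_stab_pair.1 hn with h | h
      · exact (le_sup_right : _ ≤ Subgroup.closure ({s} : Set G) ⊔ (MulAction.stabilizer G x ⊓
          MulAction.stabilizer G ({x, y} : Set Ω)))
          (Subgroup.mem_inf.2 ⟨MulAction.mem_stabilizer_iff.2 h.1, hn⟩)
      · have e : n = s * (s⁻¹ * n) := by group
        rw [e]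
        refine mul_mem ((le_sup_left : _ ≤ Subgroup.closure ({s} : Set G) ⊔ (MulAction.stabilizer G x ⊓
          MulAction.stabilizer G ({x, y} : Set Ω))) hs1)
          ((le_sup_right : _ ≤ Subgroup.closure ({s} : Set G) ⊔ (MulAction.stabilizer G x ⊓
          MulAction.stabilizer G ({x, y} : Set Ω))) (Subgroup.mem_inf.2 ⟨?_, ?_⟩))
        · rw [MulAction.mem_stabilizer_iff, mul_smul, h.1, hsx']
        · exact mul_mem (inv_mem hsN) hn
  · intro s' hs' n hn b hb
    rw [Set.mem_singleton_iff.1 hs']
    rw [MulAction.mem_stabilizer_iff] at hb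
    rcases mem_stab_pair.1 hn with h | h
    · left
      rw [DoubleCoset.mem_doubleCoset]
      refine ⟨1, one_mem _, n⁻¹ * b * n, ?_, by group⟩
      have hnB : n ∈ MulAction.stabilizer G x := MulAction.mem_stabilizer_iff.2 h.1
      exact mul_mem (mul_mem (inv_mem hnB) (MulAction.mem_stabilizer_iff.2 hb)) hnB
    · rcases bruhat (s * b * n) with hg | ⟨c, hc, hg⟩
      · left
        rw [DoubleCoset.mem_doubleCoset]
        refine ⟨1, one_mem _, (s * n)⁻¹ * (s * b * n), ?_, by group⟩
        have h1 : (s * n) ∈ MulAction.stabilizer G x := by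
          rw [MulAction.mem_stabilizer_iff, mul_smul, h.1, hsy]
        exact mul_mem (inv_mem h1) (MulAction.mem_stabilizer_iff.2 hg)
      · right
        rw [DoubleCoset.mem_doubleCoset]
        refine ⟨c * (s * n⁻¹), ?_, s⁻¹ * c⁻¹ * (s * b * n) , MulAction.mem_stabilizer_iff.2 hg, ?_⟩
        · refine mul_mem (MulAction.mem_stabilizer_iff.2 hc) ?_
          have : n⁻¹ • x = y := by rw [← h.2, inv_smul_smul]
          change s * n⁻¹ ∈ MulAction.stabilizer G x
          rw [MulAction.mem_stabilizer_iff, mul_smul, this, hsy]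
        · group
  · intro s' hs'
    rw [Set.mem_singleton_iff.1 hs']
    intro heq
    obtain ⟨b, hb1, hb2⟩ := h2 hxy hxz
    have hmem : s * b * s ∈ (MulAction.stabilizer G x : Set G) := by
      rw [← heq]
      exact ⟨b, hb1, rfl⟩
    have h3 : (s * b * s) • x = x := hmem
    rw [mul_smul, mul_smul, hsx, hb2] at h3
    have h4 : z = y := by
      rw [← hsy', ← h3, inv_smul_smul]
    exact hyz h4.symm
  · change Nat.card ({s} : Set G) = 1
    rw [Nat.card_coe_set_eq, Set.ncard_singleton]

end Cfsg.Agent.S0323
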