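import Cfsg.Statements.S0335
set_option linter.all false
-- import your own Cfsg.Agent.* helpers here

set_option autoImplicit false
open Cfsg

namespace Cfsg.Agent.S0335

section field

variable {F : Type*} [Field F] {s : ℕ}

/-- two affine points together with the point at infinity -/
theorem lemA {x1 y1 z1 x2 y2 z2 g0 g1 g2 : F} (hne : ¬ (x1 = x2 ∧ y1 = y2))
    (h1 : g1 + g2 = 0) (hx : g1 * x1 + g2 * x2 = 0) (hy : g1 * y1 + g2 * y2 = 0)
    (hz : g0 + g1 * z1 + g2 * z2 = 0) : g0 = 0 ∧ g1 = 0 ∧ g2 = 0 := by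
  have hg2 : g2 = -g1 := by linear_combination h1
  subst hg2
  have hx' : g1 * (x1 - x2) = 0 := by linear_combination hx
  have hy' : g1 * (y1 - y2) = 0 := by linear_combination hy
  have hg1 : g1 = 0 := by
    by_contra hg
    apply hne
    constructor
    · have := (mul_eq_zero.1 hx').resolve_left hg
      exact sub_eq_zero.1 this
    · have := (mul_eq_zero.1 hy').resolve_left hg
      exact sub_eq_zero.1 this
  subst hg1
  simp at hz
  simp [hz]

/-- the first coordinate of the affine points of the ovoid -/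
def zz (s : ℕ) (x y : F) : F := x * y + x ^ (s + 2) + y ^ s

theorem zz_def (s : ℕ) (x y : F) : zz s x y = x * y + x ^ (s + 2) + y ^ s := rfl

/-- translation -/
theorem zz_translate (h2 : (2 : F) = 0) (hadd : ∀ x y : F, (x + y) ^ s = x ^ s + y ^ s)
    (hss : ∀ x : F, (x ^ s) ^ s = x ^ 2) (x0 y0 x y : F) :
    zz s (x + x0) (y + y0 + x0 ^ s * (x + x0)) = zz s x y + x0 * y + y0 * x + zz s x0 y0 := by
  simp only [zz_def, pow_add, hadd, mul_pow, hss]
  linear_combination (2 * x * x0 * x0 ^ s + x * x0 * x ^ s + x0 ^ 2 * x ^ s + x ^ 2 * x0 ^ s +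
    x0 ^ 2 * x0 ^ s) * h2

/-- the key identity of the inversion -/
theorem zz_key (h2 : (2 : F) = 0) (hadd : ∀ x y : F, (x + y) ^ s = x ^ s + y ^ s)
    (hss : ∀ x : F, (x ^ s) ^ s = x ^ 2) (x y : F) :
    x * y * (zz s x y) ^ s + y ^ s * y ^ 2 + x ^ s * (zz s x y) ^ 2 = zz s x y * (zz s x y) ^ s := by
  simp only [zz_def, pow_add, hadd, mul_pow, hss]
  have e : (x ^ 2) ^ s = (x ^ s) ^ 2 := by rw [← pow_mul, ← pow_mul, mul_comm]
  rw [e]
  linear_combination (y ^ s * y ^ 2 + x * x ^ s * y * y ^ s + x ^ 3 * x ^ (s * 2) * y - y ^ 2 * y ^ s) * h2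

theorem zz_eq_zero (h2 : (2 : F) = 0) (hs : s ≠ 0) (hadd : ∀ x y : F, (x + y) ^ s = x ^ s + y ^ s)
    (hss : ∀ x : F, (x ^ s) ^ s = x ^ 2) {x y : F} (h : zz s x y = 0) : x = 0 ∧ y = 0 := by
  have hk := zz_key h2 hadd hss x y
  rw [h] at hk
  have hy : y = 0 := by
    have : y ^ s * y ^ 2 = 0 := by simpa [hs] using hk
    rcases mul_eq_zero.1 this with h | h
    · exact (pow_eq_zero_iff hs).1 h
    · exact (pow_eq_zero_iff two_ne_zero).1 h
  subst hy
  refine ⟨?_, rfl⟩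
  rw [zz_def] at h
  have : x ^ (s + 2) = 0 := by simpa [hs] using h
  exact (pow_eq_zero_iff (by omega)).1 this

theorem zz_inv (h2 : (2 : F) = 0) (hadd : ∀ x y : F, (x + y) ^ s = x ^ s + y ^ s)
    (hss : ∀ x : F, (x ^ s) ^ s = x ^ 2) {x y : F} (h : zz s x y ≠ 0) :
    zz s (y / zz s x y) (x / zz s x y) = (zz s x y)⁻¹ := by
  have hk := zz_key h2 hadd hss x y
  generalize hz : zz s x y = z at *
  rw [zz_def, div_pow, div_pow, pow_add, pow_add]
  have hzs : z ^ s ≠ 0 := pow_ne_zero _ h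
  field_simp
  linear_combination hk

/-- three affine points -/
theorem lemB (h2 : (2 : F) = 0) (hs : s ≠ 0) (hadd : ∀ x y : F, (x + y) ^ s = x ^ s + y ^ s)
    (hss : ∀ x : F, (x ^ s) ^ s = x ^ 2) {x0 y0 x1 y1 x2 y2 g0 g1 g2 : F}
    (h01 : ¬ (x0 = x1 ∧ y0 = y1)) (h02 : ¬ (x0 = x2 ∧ y0 = y2)) (h12 : ¬ (x1 = x2 ∧ y1 = y2))
    (h1 : g0 + g1 + g2 = 0) (hx : g0 * x0 + g1 * x1 + g2 * x2 = 0)
    (hy : g0 * y0 + g1 * y1 + g2 * y2 = 0)
    (hz : g0 * zz s x0 y0 + g1 * zz s x1 y1 + g2 * zz s x2 y2 = 0) : g0 = 0 ∧ g1 = 0 ∧ g2 = 0 := by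
  have t1 := zz_translate h2 hadd hss x0 y0 x1 y1
  have t2 := zz_translate h2 hadd hss x0 y0 x2 y2
  generalize ha1 : x1 + x0 = a1 at *
  generalize ha2 : x2 + x0 = a2 at *
  generalize hb1 : y1 + y0 + x0 ^ s * a1 = b1 at *
  generalize hb2 : y2 + y0 + x0 ^ s * a2 = b2 at *
  have ne1 : ¬ (a1 = 0 ∧ b1 = 0) := by
    rintro ⟨rfl, rfl⟩
    apply h01
    constructor
    · linear_combination ha1 - x1 * h2
    · linear_combination hb1 - y1 * h2
  have ne2 : ¬ (a2 = 0 ∧ b2 = 0) := by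
    rintro ⟨rfl, rfl⟩
    apply h02
    constructor
    · linear_combination ha2 - x2 * h2
    · linear_combination hb2 - y2 * h2
  have ne12 : ¬ (a1 = a2 ∧ b1 = b2) := by
    rintro ⟨rfl, rfl⟩
    apply h12
    constructor
    · linear_combination ha1 - ha2
    · linear_combination hb1 - hb2
  have ga : g1 * a1 + g2 * a2 = 0 := by
    rw [← ha1, ← ha2]
    linear_combination hx + x0 * h1 - g0 * x0 * h2
  have gb : g1 * b1 + g2 * b2 = 0 := by
    rw [← hb1, ← hb2]
    linear_combination hy + y0 * h1 - g0 * y0 * h2 + x0 ^ s * ga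
  have gc : g1 * zz s a1 b1 + g2 * zz s a2 b2 = 0 := by
    rw [t1, t2]
    linear_combination hz + zz s x0 y0 * h1 - g0 * zz s x0 y0 * h2 + x0 * hy + y0 * hx -
      g0 * x0 * y0 * h2
  have c1 : zz s a1 b1 ≠ 0 := fun h => ne1 (zz_eq_zero h2 hs hadd hss h)
  have c2 : zz s a2 b2 ≠ 0 := fun h => ne2 (zz_eq_zero h2 hs hadd hss h)
  have i1 := zz_inv h2 hadd hss c1
  have i2 := zz_inv h2 hadd hss c2
  by_cases hg1 : g1 = 0
  · subst hg1
    have hg2 : g2 = 0 := by
      have : g2 * zz s a2 b2 = 0 := by simpa using gc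
      exact (mul_eq_zero.1 this).resolve_right c2
    subst hg2
    have : g0 = 0 := by simpa using h1
    exact ⟨this, rfl, rfl⟩
  · exfalso
    generalize hc1 : zz s a1 b1 = c1' at *
    generalize hc2 : zz s a2 b2 = c2' at *
    have e1 : a1 / c1' = a2 / c2' := by
      rw [div_eq_div_iff c1 c2]
      have : g1 * (a1 * c2') = g1 * (a2 * c1') := by
        linear_combination c2' * ga - a2 * gc
      exact mul_left_cancel₀ hg1 this
    have e2 : b1 / c1' = b2 / c2' := by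
      rw [div_eq_div_iff c1 c2]
      have : g1 * (b1 * c2') = g1 * (b2 * c1') := by
        linear_combination c2' * gb - b2 * gc
      exact mul_left_cancel₀ hg1 this
    rw [e1, e2, i2] at i1
    have e3 : c2' = c1' := inv_injective i1
    subst e3
    apply ne12
    constructor
    · have := (div_left_inj' c2).1 e1
      exact this
    · exact (div_left_inj' c2).1 e2

end field

section main

variable {F : Type*} [Field F]

/-- explicit form of the points -/
def IsPt (s : ℕ) (v : Fin 4 → F) : Prop :=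
  v = ![1, 0, 0, 0] ∨ ∃ x y : F, v = ![x * y + x ^ (s + 2) + y ^ s, y, x, 1]

theorem core {s : ℕ} (h2 : (2 : F) = 0) (hs : s ≠ 0) (hadd : ∀ x y : F, (x + y) ^ s = x ^ s + y ^ s)
    (hss : ∀ x : F, (x ^ s) ^ s = x ^ 2) {v0 v1 v2 : Fin 4 → F} (c0 : IsPt s v0) (c1 : IsPt s v1)
    (c2 : IsPt s v2) (h01 : v0 ≠ v1) (h02 : v0 ≠ v2) (h12 : v1 ≠ v2) {g0 g1 g2 : F}
    (h : g0 • v0 + g1 • v1 + g2 • v2 = 0) : g0 = 0 ∧ g1 = 0 ∧ g2 = 0 := by
  have k0 := congrFun h 0
  have k1 := congrFun h 1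
  have k2 := congrFun h 2
  have k3 := congrFun h 3
  rcases c0 with rfl | ⟨x0, y0, rfl⟩ <;> rcases c1 with rfl | ⟨x1, y1, rfl⟩ <;>
    rcases c2 with rfl | ⟨x2, y2, rfl⟩ <;> (try exact absurd rfl h01) <;>
    (try exact absurd rfl h02) <;> (try exact absurd rfl h12)
  · simp at k0 k1 k2 k3
    exact lemA (by rintro ⟨rfl, rfl⟩; exact h12 rfl) k3 k2 k1 k0
  · simp at k0 k1 k2 k3
    obtain ⟨r1, r2, r3⟩ := lemA (g0 := g1) (g1 := g0) (g2 := g2) (by rintro ⟨rfl, rfl⟩; exact h02 rfl) k3 k2 k1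
      (by rw [add_comm g1]; exact k0)
    exact ⟨r2, r1, r3⟩
  · simp at k0 k1 k2 k3
    obtain ⟨r1, r2, r3⟩ := lemA (g0 := g2) (g1 := g0) (g2 := g1) (by rintro ⟨rfl, rfl⟩; exact h01 rfl) k3 k2 k1
      (by rw [add_assoc, add_comm]; exact k0)
    exact ⟨r2, r3, r1⟩
  · simp at k0 k1 k2 k3
    exact lemB h2 hs hadd hss (by rintro ⟨rfl, rfl⟩; exact h01 rfl) (by rintro ⟨rfl, rfl⟩; exact h02 rfl)
      (by rintro ⟨rfl, rfl⟩; exact h12 rfl) k3 k2 k1 k0

end main

/-- The Suzuki–Tits point set is an ovoid: any three distinct points of it are projectively independent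
(no line of projective 3-space meets it in more than two points). -/
theorem result {F : Type*} [Field F] [Fintype F] {m : ℕ} (hm : 1 ≤ m)
    (hF : Fintype.card F = 2 ^ (2 * m + 1)) (p : Fin 3 ↪ Cfsg.suzukiOvoid F m) :
    Projectivization.Independent (fun i => (p i : Projectivization F (Fin 4 → F))) := by
  have hrep : ∀ i, ∃ (v : Fin 4 → F) (hv : v ≠ 0),
      (p i : Projectivization F (Fin 4 → F)) = Projectivization.mk F v hv ∧
      (v = ![1, 0, 0, 0] ∨ ∃ x y : F,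
        v = ![x * y + x ^ (2 ^ (m + 1) + 2) + y ^ (2 ^ (m + 1)), y, x, 1]) := fun i => (p i).2
  choose v hv hpv hcase using hrep
  have e : (fun i => (p i : Projectivization F (Fin 4 → F))) =
      fun i => Projectivization.mk F (v i) (hv i) := funext hpv
  rw [e]
  apply Projectivization.Independent.mk
  have hinj : ∀ i j, i ≠ j → v i ≠ v j := by
    intro i j hij hvv
    apply hij
    apply p.injective
    apply Subtype.ext
    rw [hpv, hpv]
    congr 1
  have hchar : CharP F 2 := by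
    obtain ⟨r, hr, n, hp, hn⟩ := FiniteField.card' F
    rw [hF] at hn
    have h2 : r = 2 := by
      have : r ∣ 2 ^ (2 * m + 1) := by
        rw [hn]; exact dvd_pow_self _ n.ne_zero
      exact (Nat.prime_dvd_prime_iff_eq hp Nat.prime_two).1 (hp.dvd_of_dvd_pow this)
    rw [← h2]
    exact hr
  have h2 : (2 : F) = 0 := CharTwo.two_eq_zero
  have hadd : ∀ x y : F, (x + y) ^ 2 ^ (m + 1) = x ^ 2 ^ (m + 1) + y ^ 2 ^ (m + 1) := by
    intro x y
    exact add_pow_char_pow x y 2 (m + 1)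
  have hss : ∀ x : F, (x ^ 2 ^ (m + 1)) ^ 2 ^ (m + 1) = x ^ 2 := by
    intro x
    rw [← pow_mul, ← pow_add, show m + 1 + (m + 1) = (2 * m + 1) + 1 by ring, pow_succ 2 (2 * m + 1),
      pow_mul, ← hF, FiniteField.pow_card]
  rw [Fintype.linearIndependent_iff]
  intro g hg
  rw [Fin.sum_univ_three] at hg
  obtain ⟨r0, r1, r2⟩ := core h2 (by positivity) hadd hss (hcase 0) (hcase 1) (hcase 2)
    (hinj 0 1 (by decide)) (hinj 0 2 (by decide)) (hinj 1 2 (by decide)) hg
  intro i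
  fin_cases i
  · exact r0
  · exact r1
  · exact r2

end Cfsg.Agent.S0335
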