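import Cfsg.Statements.S0338
import Cfsg.Agent.LieExceptional.ZassenhausOdd
set_option linter.all false

set_option autoImplicit false
open Cfsg

namespace Cfsg.Agent.S0338

/-- A Zassenhaus group of odd degree is a simple group. -/
theorem result {G Ω : Type*} [Group G] [MulAction G Ω] [Fintype Ω]
    (hZ : Cfsg.IsZassenhausGroup G Ω) (hodd : Odd (Fintype.card Ω)) : IsSimpleGroup G := by
  obtain ⟨hf, h2, h3, ⟨g, hg1, a, b, hab, hga, hgb⟩, -⟩ := hZ
  have h : Cfsg.Agent.LieExceptional.ZassenhausOdd.OddZ G Ω :=
    { faithful := hf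
      two := fun {a b c d} h1 h1' => MulAction.is_two_pretransitive_iff.mp h2 h1 h1'
      three := h3
      odd := hodd }
  exact h.simple hab hg1 hga hgb

end Cfsg.Agent.S0338
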