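import Mathlib
import Cfsg.Statements.S0341
import Cfsg.Agent.S0034
import Cfsg.Agent.S0035
set_option linter.all false

-- part: LieExceptional/FrobDimRing
section
set_option autoImplicit false

namespace Cfsg.Agent.LieExceptional.FrobDimRing

open scoped Pointwise

/-- A finite reduced commutative ring with a group of prime order acting with fixed ring `{0,1}`: a
nonzero nonunit forces all elements to be idempotent. -/
theorem isUnit_of_ne_zero {E Γ : Type*} [CommRing E] [Finite E] [IsReduced E] [Group Γ] [Finite Γ]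
    [MulSemiringAction Γ E] (hΓ : (Nat.card Γ).Prime)
    (hfix : ∀ e : E, (∀ g : Γ, g • e = e) → e = 0 ∨ e = 1) (h2 : (2 : E) = 0)
    (hne : ∃ w : E, w * w ≠ w) (e : E) (he : e ≠ 0) : IsUnit e := by
  classical
  have := Fintype.ofFinite Γ
  by_contra hu
  -- product over a finset of conjugates
  let P : Finset Γ → E := fun S => ∏ g ∈ S, g • e
  have hPsmul : ∀ (h : Γ) (S : Finset Γ), h • P S = P (h • S) := by
    intro h S
    simp only [P]
    rw [Finset.smul_prod']
    rw [Finset.smul_finset_def, Finset.prod_image]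
    · simp [mul_smul]
    · intro a _ b _ hab
      exact smul_left_cancel h hab
  -- norm is zero
  have hnorm : P Finset.univ = 0 := by
    have h1 : ∀ g : Γ, g • P Finset.univ = P Finset.univ := by
      intro g
      rw [hPsmul]
      simp
    rcases hfix _ h1 with h | h
    · exact h
    · exfalso
      apply hu
      have : P Finset.univ = e * ∏ g ∈ Finset.univ.erase (1 : Γ), g • e := by
        simp only [P]
        rw [← Finset.mul_prod_erase Finset.univ _ (Finset.mem_univ (1 : Γ))]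
        simp
      rw [this] at h
      exact IsUnit.of_mul_eq_one _ h
  -- maximal S with P S ≠ 0
  obtain ⟨S, hS, hmax⟩ : ∃ S : Finset Γ, P S ≠ 0 ∧ ∀ T : Finset Γ, P T ≠ 0 → T.card ≤ S.card := by
    have := Finset.exists_max_image (Finset.univ.filter (fun S : Finset Γ => P S ≠ 0)) Finset.card
      ⟨{1}, by simp [P, he]⟩
    obtain ⟨S, hS, hmax⟩ := this
    simp only [Finset.mem_filter, Finset.mem_univ, true_and] at hS hmax
    exact ⟨S, hS, hmax⟩
  have hSne : S.Nonempty := by
    rw [Finset.nonempty_iff_ne_empty]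
    rintro rfl
    have := hmax {1} (by simp [P, he])
    simp at this
  have hSuniv : S ≠ Finset.univ := by
    rintro rfl
    exact hS hnorm
  -- f
  set f := P S with hf
  have horth : ∀ h : Γ, h ≠ 1 → f * (h • f) = 0 := by
    intro h hh
    rw [hf, hPsmul]
    have hneS : h • S ≠ S := by
      intro hhS
      -- stabilizer is everything
      have hst : MulAction.stabilizer Γ S = ⊤ := by
        have hdvd := Subgroup.card_subgroup_dvd_card (MulAction.stabilizer Γ S)
        rcases (Nat.dvd_prime hΓ).mp hdvd with h1 | h1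
        · exfalso
          have hbot := (Subgroup.card_eq_one).mp h1
          have : h ∈ MulAction.stabilizer Γ S := hhS
          rw [hbot] at this
          exact hh (Subgroup.mem_bot.mp this)
        · exact Subgroup.eq_top_of_card_eq _ h1
      obtain ⟨s, hs⟩ := hSne
      apply hSuniv
      ext g
      simp only [Finset.mem_univ, iff_true]
      have hmem : g * s⁻¹ ∈ MulAction.stabilizer Γ S := by rw [hst]; trivial
      have : (g * s⁻¹) • S = S := hmem
      rw [← this]
      have h3 := Finset.smul_mem_smul_finset (a := g * s⁻¹) hs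
      simpa using h3
    have hcard : S.card < (S ∪ h • S).card := by
      apply Finset.card_lt_card
      rw [Finset.ssubset_iff_subset_ne]
      refine ⟨Finset.subset_union_left, ?_⟩
      intro heq
      have hsub : h • S ⊆ S := fun y hy => by
        have hy2 : y ∈ S ∪ h • S := Finset.mem_union_right _ hy
        rwa [← heq] at hy2
      exact hneS (Finset.eq_of_subset_of_card_le hsub (by simp))
    have hz : P (S ∪ h • S) = 0 := by
      by_contra hnz
      have := hmax _ hnz
      omega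
    have hui : P (S ∪ h • S) * P (S ∩ h • S) = P S * P (h • S) :=
      Finset.prod_union_inter
    rw [← hui, hz, zero_mul]
  have hf0 : f ≠ 0 := hS
  -- f * trace
  have htr : ∀ w : E, f * (f * w) = 0 ∨ f * (f * w) = f := by
    intro w
    have hinv : ∀ g : Γ, g • (∑ h : Γ, h • (f * w)) = ∑ h : Γ, h • (f * w) := by
      intro g
      rw [Finset.smul_sum]
      simp_rw [← mul_smul]
      exact Fintype.sum_equiv (Equiv.mulLeft g) _ _ (fun _ => rfl)
    have hval : f * (∑ h : Γ, h • (f * w)) = f * (f * w) := by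
      rw [Finset.mul_sum, Finset.sum_eq_single (1 : Γ)]
      · simp
      · intro h _ hh
        rw [smul_mul', ← mul_assoc, horth h hh, zero_mul]
      · simp
    rcases hfix _ hinv with h | h
    · left; rw [← hval, h, mul_zero]
    · right; rw [← hval, h, mul_one]
  have hff : f * f = f := by
    rcases htr 1 with h | h
    · exfalso
      rw [mul_one] at h
      apply hf0
      have hn : IsNilpotent f := ⟨2, by rw [pow_two]; exact h⟩
      exact hn.eq_zero
    · simpa using h
  have hfw : ∀ w : E, f * w = 0 ∨ f * w = f := by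
    intro w
    have := htr w
    rwa [← mul_assoc, hff] at this
  -- trace of f is 1
  have htr1 : ∑ h : Γ, h • f = 1 := by
    have hinv : ∀ g : Γ, g • (∑ h : Γ, h • f) = ∑ h : Γ, h • f := by
      intro g
      rw [Finset.smul_sum]
      simp_rw [← mul_smul]
      exact Fintype.sum_equiv (Equiv.mulLeft g) _ _ (fun _ => rfl)
    rcases hfix _ hinv with h | h
    · exfalso
      have hval : f * (∑ h : Γ, h • f) = f * f := by
        rw [Finset.mul_sum, Finset.sum_eq_single (1 : Γ)]
        · simp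
        · intro h _ hh
          exact horth h hh
        · simp
      rw [h, mul_zero, hff] at hval
      exact hf0 hval.symm
    · exact h
  have hchar : CharP E 2 := by
    have : Nontrivial E := ⟨⟨e, 0, he⟩⟩
    exact CharTwo.of_one_ne_zero_of_two_eq_zero one_ne_zero h2
  obtain ⟨w, hw⟩ := hne
  apply hw
  have hw1 : w = ∑ h : Γ, (h • f) * w := by
    rw [← Finset.sum_mul, htr1, one_mul]
  have hidem : ∀ h : Γ, ((h • f) * w) ^ 2 = (h • f) * w := by
    intro h
    have h1 : (h • f) * w = h • (f * (h⁻¹ • w)) := by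
      rw [smul_mul', smul_inv_smul]
    rcases hfw (h⁻¹ • w) with h2 | h2
    · rw [h1, h2]; simp
    · rw [h1, h2, ← smul_pow', pow_two, hff]
  rw [← pow_two]
  conv_lhs => rw [hw1]
  rw [CharTwo.sum_sq]
  simp_rw [hidem]
  exact hw1.symm

/-- The order of a finite reduced commutative ring of characteristic two, with a group `Γ` of prime order
acting faithfully with fixed ring `{0,1}` and not all elements idempotent, is `2 ^ |Γ|`. -/
theorem card_eq {E Γ : Type*} [CommRing E] [Finite E] [IsReduced E] [Group Γ] [Finite Γ]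
    [MulSemiringAction Γ E] [FaithfulSMul Γ E] (hΓ : (Nat.card Γ).Prime)
    (hfix : ∀ e : E, (∀ g : Γ, g • e = e) → e = 0 ∨ e = 1) (h2 : (2 : E) = 0)
    (hne : ∃ w : E, w * w ≠ w) : Nat.card E = 2 ^ Nat.card Γ := by
  classical
  have := Fintype.ofFinite Γ
  have hnt : Nontrivial E := by
    obtain ⟨w, hw⟩ := hne
    exact ⟨⟨_, _, hw⟩⟩
  have hfield : IsField E := by
    refine ⟨⟨0, 1, zero_ne_one⟩, mul_comm, ?_⟩
    intro a ha
    obtain ⟨u, hu⟩ := isUnit_of_ne_zero hΓ hfix h2 hne a ha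
    exact ⟨(u⁻¹ : Eˣ), by rw [← hu]; simp⟩
  let _ : Field E := hfield.toField
  have hfr := FixedPoints.finrank_eq_card Γ E
  have hcard : Nat.card (FixedPoints.subfield Γ E) = 2 := by
    rw [Nat.card_eq_two_iff]
    refine ⟨0, 1, zero_ne_one, ?_⟩
    ext ⟨e, he⟩
    simp only [Set.mem_insert_iff, Set.mem_singleton_iff, Set.mem_univ, iff_true]
    rcases hfix e (fun g => he g) with h | h
    · left; exact Subtype.ext h
    · right; exact Subtype.ext h
  have := Module.natCard_eq_pow_finrank (K := FixedPoints.subfield Γ E) (V := E)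
  rw [this, hcard, hfr, Nat.card_eq_fintype_card]

end Cfsg.Agent.LieExceptional.FrobDimRing
end

-- part: LieExceptional/FrobDim
section
set_option autoImplicit false

namespace Cfsg.Agent.LieExceptional.FrobDim

/-- In a group, if `x ^ r = 1` with `r` prime and `a` commutes with a nontrivial power `x ^ i`, `i < r`, then
`a` commutes with `x`. -/
theorem commute_of_commute_pow {K : Type*} [Group K] {x a : K} {r i : ℕ} (hr : r.Prime) (hx : x ^ r = 1)
    (hi : 0 < i) (hir : i < r) (h : Commute (x ^ i) a) : Commute x a := by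
  have hcop : Nat.Coprime r i := (Nat.Prime.coprime_iff_not_dvd hr).mpr (Nat.not_dvd_of_pos_of_lt hi hir)
  obtain ⟨m, hm⟩ := Nat.exists_mul_mod_eq_one_of_coprime hcop.symm hr.one_lt
  have hxm : (x ^ i) ^ m = x := by
    rw [← pow_mul, ← Nat.div_add_mod (i * m) r, hm.2, pow_add, pow_mul, hx, one_pow, one_mul, pow_one]
  rw [← hxm]
  exact h.pow_left m

/-- Let an abelian group `A` of odd order act on an abelian group `V` of exponent two, without nonzero fixed points, and
let `x` of prime order `r` normalise `A` with `C_A(x) = 1` and have exactly one nonzero fixed point on `V`.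
Then `|V| = 2 ^ r`. -/
theorem card_eq_two_pow {V K : Type*} [AddCommGroup V] [Finite V] (hV : ∀ v : V, v + v = 0)
    [Group K] (ρ : K →* AddMonoid.End V) (A : Subgroup K) [Finite A]
    (hcomm : ∀ a ∈ A, ∀ b ∈ A, a * b = b * a) (hodd : Odd (Nat.card A)) (hA : A ≠ ⊥)
    (x : K) {r : ℕ} (hr : r.Prime) (hx : x ^ r = 1) (hxA : ∀ a ∈ A, x * a * x⁻¹ ∈ A)
    (hC : ∀ a ∈ A, Commute x a → a = 1) (v₀ : V) (hv₀ : v₀ ≠ 0)
    (hfix : ∀ v, ρ x v = v → v = 0 ∨ v = v₀) (hfix0 : ρ x v₀ = v₀)
    (hfree : ∀ v, (∀ a ∈ A, ρ a v = v) → v = 0) (hinj : ∀ a ∈ A, ρ a = 1 → a = 1) :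
    Nat.card V = 2 ^ r := by
  classical
  have := Fintype.ofFinite A
  -- powers of x normalise A
  have hxpow : ∀ (i : ℕ), ∀ a ∈ A, x ^ i * a * (x ^ i)⁻¹ ∈ A := by
    intro i
    induction i with
    | zero => intro a ha; simpa using ha
    | succ i ih =>
      intro a ha
      have := hxA _ (ih a ha)
      have h2 : x ^ (i + 1) * a * (x ^ (i + 1))⁻¹ = x * (x ^ i * a * (x ^ i)⁻¹) * x⁻¹ := by
        rw [pow_succ']; group
      rwa [h2]
  have hρmul : ∀ (g h : K) (v : V), ρ (g * h) v = ρ g (ρ h v) := by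
    intro g h v; rw [map_mul]; rfl
  -- the sum over A kills everything
  have hsumA : ∀ u : V, ∑ a : A, ρ (a : K) u = 0 := by
    intro u
    apply hfree
    intro b hb
    rw [map_sum]
    simp_rw [← hρmul]
    exact Fintype.sum_equiv (Equiv.mulLeft (⟨b, hb⟩ : A)) _ _ (fun _ => rfl)
  -- nsmul by odd numbers
  have hoddsmul : ∀ (n : ℕ) (v : V), Odd n → n • v = v := by
    rintro n v ⟨k, rfl⟩
    rw [add_smul, one_smul, mul_comm, mul_smul, two_smul, hV, smul_zero, zero_add]
  let T : V → V := fun u => ∑ i ∈ Finset.range r, ρ (x ^ i) u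
  have hTfix : ∀ u, T u = 0 ∨ T u = v₀ := by
    intro u
    apply hfix
    simp only [T]
    rw [map_sum]
    simp_rw [← hρmul, ← pow_succ']
    have h1 := Finset.sum_range_succ (fun i => ρ (x ^ i) u) r
    have h2 := Finset.sum_range_succ' (fun i => ρ (x ^ i) u) r
    rw [h1] at h2
    rw [hx, pow_zero] at h2
    exact (add_right_cancel h2).symm
  -- the key identity
  have hkey : ∀ w : V, ∑ a : A, ρ (a : K) (T (ρ (a : K)⁻¹ w)) = w := by
    intro w
    simp only [T]
    simp_rw [map_sum, ← hρmul]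
    rw [Finset.sum_comm, Finset.sum_eq_single 0]
    · simp only [pow_zero, one_mul, mul_inv_cancel, map_one]
      rw [Finset.sum_const, Finset.card_univ, ← Nat.card_eq_fintype_card]
      exact hoddsmul _ _ hodd
    · intro i hi hi0
      have hir : i < r := Finset.mem_range.mp hi
      let φ : A → A := fun a => ⟨(a : K) * (x ^ i * (a : K)⁻¹ * (x ^ i)⁻¹),
        A.mul_mem a.2 (hxpow i _ (A.inv_mem a.2))⟩
      have hφinj : Function.Injective φ := by
        intro a b hab
        have h1 : (a : K) * (x ^ i * (a : K)⁻¹ * (x ^ i)⁻¹) = (b : K) * (x ^ i * (b : K)⁻¹ * (x ^ i)⁻¹) :=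
          congrArg Subtype.val hab
        have h2 : (b : K)⁻¹ * a = 1 := by
          apply hC _ (A.mul_mem (A.inv_mem b.2) a.2)
          apply commute_of_commute_pow hr hx (Nat.pos_of_ne_zero hi0) hir
          have h3 : (a : K) * x ^ i * (a : K)⁻¹ = b * x ^ i * (b : K)⁻¹ := by
            have := congrArg (· * x ^ i) h1
            simpa [mul_assoc] using this
          change x ^ i * ((b : K)⁻¹ * a) = (b : K)⁻¹ * a * x ^ i
          have := congrArg (fun z => (b : K)⁻¹ * z * a) h3
          simp only [mul_assoc, inv_mul_cancel, mul_one, inv_mul_cancel_left] at this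
          rw [mul_assoc]
          exact this.symm
        exact Subtype.ext (inv_mul_eq_one.mp h2).symm
      have hφbij : Function.Bijective φ := Finite.injective_iff_bijective.mp hφinj
      have h4 : ∑ a : A, ρ ((a : K) * (x ^ i * (a : K)⁻¹)) w = ∑ a : A, ρ ((φ a : A) : K) (ρ (x ^ i) w) := by
        apply Finset.sum_congr rfl
        intro a _
        rw [← hρmul]
        congr 2
        simp only [φ]
        group
      rw [h4]
      rw [hφbij.sum_comp (fun b : A => ρ (b : K) (ρ (x ^ i) w))]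
      exact hsumA _
    · intro h; exact absurd (Finset.mem_range.mpr hr.pos) h
  -- the ring
  let s : Set (AddMonoid.End V) := ρ '' (A : Set K)
  have hscomm : ∀ y ∈ s, ∀ z ∈ s, y * z = z * y := by
    rintro _ ⟨a, ha, rfl⟩ _ ⟨b, hb, rfl⟩
    rw [← map_mul, ← map_mul, hcomm a ha b hb]
  let E : Subring (AddMonoid.End V) := Subring.closure s
  let _ : CommRing E := Subring.closureCommRingOfComm hscomm
  have hAE : ∀ a ∈ A, ρ a ∈ E := fun a ha => Subring.subset_closure ⟨a, ha, rfl⟩
  have hfinEnd : Finite (AddMonoid.End V) := Finite.of_injective (fun f : V →+ V => (f : V → V)) DFunLike.coe_injective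
  have hfinE : Finite E := inferInstance
  -- evaluation
  have hEcomm : ∀ e ∈ E, ∀ a ∈ A, e * ρ a = ρ a * e := by
    intro e he a ha
    have := mul_comm (⟨e, he⟩ : E) ⟨ρ a, hAE a ha⟩
    exact congrArg Subtype.val this
  have hsurj : ∀ w : V, ∃ e ∈ E, e v₀ = w := by
    intro w
    have h1 : ∀ a : A, ∃ e ∈ E, e v₀ = ρ (a : K) (T (ρ (a : K)⁻¹ w)) := by
      intro a
      rcases hTfix (ρ (a : K)⁻¹ w) with h | h
      · exact ⟨0, E.zero_mem, by rw [h, map_zero]; rfl⟩
      · exact ⟨ρ a, hAE _ a.2, by rw [h]⟩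
    choose f hf1 hf2 using h1
    refine ⟨∑ a, f a, E.sum_mem (fun a _ => hf1 a), ?_⟩
    rw [← hkey w]
    rw [← Finset.sum_congr rfl (fun a _ => hf2 a)]
    exact AddMonoidHom.finsetSum_apply _ _ _
  have hevinj : ∀ e ∈ E, e v₀ = 0 → e = 0 := by
    intro e he h0
    ext w
    rw [← hkey w]
    change e _ = 0
    rw [map_sum]
    apply Finset.sum_eq_zero
    intro a _
    have h3 : e (ρ (a : K) (T (ρ (a : K)⁻¹ w))) = ρ (a : K) (e (T (ρ (a : K)⁻¹ w))) :=
      congrArg (fun f : AddMonoid.End V => f (T (ρ (a : K)⁻¹ w))) (hEcomm e he a a.2)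
    rw [h3]
    rcases hTfix (ρ (a : K)⁻¹ w) with h | h
    · rw [h, map_zero, map_zero]
    · rw [h, h0, map_zero]
  have hcardE : Nat.card E = Nat.card V := by
    apply Nat.card_congr
    refine Equiv.ofBijective (fun e : E => (e : AddMonoid.End V) v₀) ⟨?_, ?_⟩
    · intro e e' h
      have : ((e : AddMonoid.End V) - e') = 0 := by
        apply hevinj _ (E.sub_mem e.2 e'.2)
        change (e : AddMonoid.End V) v₀ - (e' : AddMonoid.End V) v₀ = 0
        exact sub_eq_zero.mpr h
      exact Subtype.ext (sub_eq_zero.mp this)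
    · intro w
      obtain ⟨e, he, hw⟩ := hsurj w
      exact ⟨⟨e, he⟩, hw⟩
  have h2E : (2 : E) = 0 := by
    apply Subtype.ext
    ext v
    change ((2 : AddMonoid.End V)) v = 0
    rw [show (2 : AddMonoid.End V) = 1 + 1 from one_add_one_eq_two.symm]
    exact hV v
  -- reduced
  have hchar : CharP E 2 := by
    have : Nontrivial E := by
      refine ⟨⟨0, 1, ?_⟩⟩
      intro h
      have : (0 : AddMonoid.End V) v₀ = (1 : AddMonoid.End V) v₀ := by
        have := congrArg Subtype.val h
        exact congrArg (fun f : AddMonoid.End V => f v₀) this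
      exact hv₀ this.symm
    exact CharTwo.of_one_ne_zero_of_two_eq_zero one_ne_zero h2E
  have hsq : ∀ e : E, ∃ e' : E, e' ^ 2 = e := by
    rintro ⟨e, he⟩
    induction he using Subring.closure_induction with
    | mem y hy =>
      obtain ⟨a, ha, rfl⟩ := hy
      obtain ⟨k, hk⟩ := hodd
      refine ⟨⟨ρ (a ^ (k + 1)), hAE _ (A.pow_mem ha _)⟩, ?_⟩
      apply Subtype.ext
      change (ρ (a ^ (k + 1))) ^ 2 = ρ a
      rw [← map_pow, ← pow_mul]
      congr 1
      have h1 : a ^ Nat.card A = 1 := by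
        have := pow_card_eq_one' (x := (⟨a, ha⟩ : A))
        exact congrArg Subtype.val this
      rw [show (k + 1) * 2 = Nat.card A + 1 by omega, pow_succ, h1, one_mul]
    | zero => exact ⟨0, by simp; rfl⟩
    | one => exact ⟨1, by simp; rfl⟩
    | add y z hy hz ihy ihz =>
      obtain ⟨e1, h1⟩ := ihy
      obtain ⟨e2, h2⟩ := ihz
      refine ⟨e1 + e2, ?_⟩
      rw [CharTwo.add_sq, h1, h2]
      rfl
    | neg y hy ihy =>
      obtain ⟨e1, h1⟩ := ihy
      refine ⟨e1, ?_⟩
      rw [h1]
      have h3 := CharTwo.neg_eq (⟨y, hy⟩ : E)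
      exact h3.symm
    | mul y z hy hz ihy ihz =>
      obtain ⟨e1, h1⟩ := ihy
      obtain ⟨e2, h2⟩ := ihz
      refine ⟨e1 * e2, ?_⟩
      rw [mul_pow, h1, h2]
      rfl
  have hred : IsReduced E := by
    rw [isReduced_iff_pow_one_lt 2 one_lt_two]
    intro y hy
    have hinj2 : Function.Injective (fun e : E => e ^ 2) := Finite.injective_iff_surjective.mpr hsq
    apply hinj2
    simpa using hy
  -- x ≠ 1
  obtain ⟨⟨a₀, ha₀⟩, ha₀1'⟩ := Subgroup.ne_bot_iff_exists_ne_one.mp hA
  have ha₀1 : a₀ ≠ 1 := fun h => ha₀1' (Subtype.ext h)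
  have hx1 : x ≠ 1 := by
    rintro rfl
    exact ha₀1 (hC a₀ ha₀ (Commute.one_left _))
  have : Fact r.Prime := ⟨hr⟩
  have hordx : orderOf x = r := orderOf_eq_prime hx hx1
  let Γ := Subgroup.zpowers x
  have hfinΓ : Finite Γ := by
    have : IsOfFinOrder x := isOfFinOrder_iff_pow_eq_one.mpr ⟨r, hr.pos, hx⟩
    exact this.finite_zpowers
  have hcardΓ : Nat.card Γ = r := by rw [← hordx]; exact Nat.card_zpowers x
  have hΓpow : ∀ g : Γ, ∃ i : ℕ, i < r ∧ x ^ i = g := by
    rintro ⟨g, hg⟩
    have hfo : IsOfFinOrder x := isOfFinOrder_iff_pow_eq_one.mpr ⟨r, hr.pos, hx⟩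
    obtain ⟨i, hi⟩ := hfo.mem_powers_iff_mem_zpowers.mpr hg
    refine ⟨i % r, Nat.mod_lt _ hr.pos, ?_⟩
    change x ^ (i % r) = g
    rw [← hordx, pow_mod_orderOf]
    exact hi
  have hΓA : ∀ g : Γ, ∀ a ∈ A, (g : K) * a * (g : K)⁻¹ ∈ A := by
    intro g a ha
    obtain ⟨i, -, hi⟩ := hΓpow g
    rw [← hi]
    exact hxpow i a ha
  have hΓE : ∀ g : Γ, ∀ e ∈ E, ρ (g : K) * e * ρ ((g : K)⁻¹) ∈ E := by
    intro g e he
    have hinvmul : ρ ((g : K)⁻¹) * ρ (g : K) = 1 := by rw [← map_mul, inv_mul_cancel, map_one]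
    have hmulinv : ρ (g : K) * ρ ((g : K)⁻¹) = 1 := by rw [← map_mul, mul_inv_cancel, map_one]
    induction he using Subring.closure_induction with
    | mem y hy =>
      obtain ⟨a, ha, rfl⟩ := hy
      rw [← map_mul, ← map_mul]
      exact hAE _ (hΓA g a ha)
    | zero => rw [mul_zero, zero_mul]; exact E.zero_mem
    | one => rw [mul_one, hmulinv]; exact E.one_mem
    | add y z hy hz ihy ihz => rw [mul_add, add_mul]; exact E.add_mem ihy ihz
    | neg y hy ihy => rw [mul_neg, neg_mul]; exact E.neg_mem ihy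
    | mul y z hy hz ihy ihz =>
      have : ρ (g : K) * (y * z) * ρ ((g : K)⁻¹) = (ρ (g : K) * y * ρ ((g : K)⁻¹)) * (ρ (g : K) * z * ρ ((g : K)⁻¹)) := by
        calc ρ (g : K) * (y * z) * ρ ((g : K)⁻¹) = ρ (g : K) * y * 1 * z * ρ ((g : K)⁻¹) := by
              rw [mul_one, mul_assoc (ρ (g : K)) y z]
          _ = _ := by rw [← hinvmul]; simp only [mul_assoc]
      rw [this]
      exact E.mul_mem ihy ihz
  let act : MulSemiringAction Γ E :=
    { smul := fun g e => ⟨ρ (g : K) * e * ρ ((g : K)⁻¹), hΓE g e e.2⟩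
      one_smul := by
        intro e
        apply Subtype.ext
        change ρ ((1 : Γ) : K) * (e : AddMonoid.End V) * ρ (((1 : Γ) : K)⁻¹) = e
        simp
      mul_smul := by
        intro g h e
        apply Subtype.ext
        change ρ ((g * h : Γ) : K) * (e : AddMonoid.End V) * ρ (((g * h : Γ) : K)⁻¹) =
          ρ (g : K) * (ρ (h : K) * (e : AddMonoid.End V) * ρ ((h : K)⁻¹)) * ρ ((g : K)⁻¹)
        rw [Subgroup.coe_mul, mul_inv_rev, map_mul, map_mul]
        simp only [mul_assoc]
      smul_zero := by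
        intro g
        apply Subtype.ext
        change ρ (g : K) * (0 : AddMonoid.End V) * ρ ((g : K)⁻¹) = 0
        simp
      smul_add := by
        intro g e e'
        apply Subtype.ext
        change ρ (g : K) * ((e : AddMonoid.End V) + e') * ρ ((g : K)⁻¹) = ρ (g : K) * e * ρ ((g : K)⁻¹) + ρ (g : K) * e' * ρ ((g : K)⁻¹)
        rw [mul_add, add_mul]
      smul_one := by
        intro g
        apply Subtype.ext
        change ρ (g : K) * (1 : AddMonoid.End V) * ρ ((g : K)⁻¹) = 1
        rw [mul_one, ← map_mul, mul_inv_cancel, map_one]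
      smul_mul := by
        intro g e e'
        apply Subtype.ext
        change ρ (g : K) * ((e : AddMonoid.End V) * e') * ρ ((g : K)⁻¹) = (ρ (g : K) * e * ρ ((g : K)⁻¹)) * (ρ (g : K) * e' * ρ ((g : K)⁻¹))
        have hinvmul : ρ ((g : K)⁻¹) * ρ (g : K) = 1 := by rw [← map_mul, inv_mul_cancel, map_one]
        calc ρ (g : K) * ((e : AddMonoid.End V) * e') * ρ ((g : K)⁻¹) = ρ (g : K) * e * 1 * e' * ρ ((g : K)⁻¹) := by
              rw [mul_one, mul_assoc (ρ (g : K)) (e : AddMonoid.End V) (e' : AddMonoid.End V)]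
          _ = _ := by rw [← hinvmul]; simp only [mul_assoc] }
  have hsmul : ∀ (g : Γ) (e : E), ((g • e : E) : AddMonoid.End V) = ρ (g : K) * e * ρ ((g : K)⁻¹) := fun _ _ => rfl
  have hfaith : FaithfulSMul Γ E := by
    constructor
    intro g h hgh
    by_contra hne
    -- k = h⁻¹ g acts trivially
    have hk : ∀ e : E, (h⁻¹ * g) • e = e := by
      intro e
      rw [mul_smul, hgh e, inv_smul_smul]
    have hk1 : h⁻¹ * g ≠ 1 := fun h1 => hne (inv_mul_eq_one.mp h1).symm
    obtain ⟨i, hir, hi⟩ := hΓpow (h⁻¹ * g)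
    have hi0 : 0 < i := by
      rcases Nat.eq_zero_or_pos i with h0 | h0
      · exfalso
        apply hk1
        apply Subtype.ext
        rw [← hi, h0, pow_zero]; rfl
      · exact h0
    apply ha₀1
    apply hC a₀ ha₀
    apply commute_of_commute_pow hr hx hi0 hir
    have h5 := congrArg Subtype.val (hk ⟨ρ a₀, hAE a₀ ha₀⟩)
    rw [hsmul, ← map_mul, ← map_mul] at h5
    change ρ (((h⁻¹ * g : Γ) : K) * a₀ * ((h⁻¹ * g : Γ) : K)⁻¹) = ρ a₀ at h5
    have h6 : (((h⁻¹ * g : Γ) : K) * a₀ * ((h⁻¹ * g : Γ) : K)⁻¹) * a₀⁻¹ = 1 := by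
      apply hinj _ (A.mul_mem (hΓA _ _ ha₀) (A.inv_mem ha₀))
      rw [map_mul, h5, ← map_mul, mul_inv_cancel, map_one]
    rw [← hi] at h6
    have h7 : x ^ i * a₀ * (x ^ i)⁻¹ = a₀ := mul_inv_eq_one.mp h6
    exact mul_inv_eq_iff_eq_mul.mp h7
  have hfixE : ∀ e : E, (∀ g : Γ, g • e = e) → e = 0 ∨ e = 1 := by
    intro e he
    have h1 := congrArg Subtype.val (he ⟨x, Subgroup.mem_zpowers x⟩)
    rw [hsmul] at h1
    change ρ x * (e : AddMonoid.End V) * ρ (x⁻¹) = e at h1
    have hxinv : ρ (x⁻¹) v₀ = v₀ := by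
      have : ρ (x⁻¹) (ρ x v₀) = v₀ := by rw [← hρmul, inv_mul_cancel, map_one]; rfl
      rwa [hfix0] at this
    have h2 : ρ x ((e : AddMonoid.End V) v₀) = (e : AddMonoid.End V) v₀ := by
      have := congrArg (fun f : AddMonoid.End V => f v₀) h1
      change ρ x ((e : AddMonoid.End V) (ρ (x⁻¹) v₀)) = (e : AddMonoid.End V) v₀ at this
      rwa [hxinv] at this
    rcases hfix _ h2 with h3 | h3
    · left; exact Subtype.ext (hevinj _ e.2 h3)
    · right
      have : ((e : AddMonoid.End V) - 1) = 0 := by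
        apply hevinj _ (E.sub_mem e.2 E.one_mem)
        change (e : AddMonoid.End V) v₀ - v₀ = 0
        rw [h3, sub_self]
      exact Subtype.ext (sub_eq_zero.mp this)
  have hne : ∃ w : E, w * w ≠ w := by
    refine ⟨⟨ρ a₀, hAE a₀ ha₀⟩, ?_⟩
    intro h
    have h1 : ρ a₀ * ρ a₀ = ρ a₀ := congrArg Subtype.val h
    apply ha₀1
    apply hinj a₀ ha₀
    have h2 : ρ (a₀⁻¹) * (ρ a₀ * ρ a₀) = ρ (a₀⁻¹) * ρ a₀ := by rw [h1]
    rw [← mul_assoc, ← map_mul, inv_mul_cancel, map_one, one_mul] at h2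
    exact h2
  have := FrobDimRing.card_eq (E := E) (Γ := Γ) (by rw [hcardΓ]; exact hr) hfixE h2E hne
  rw [← hcardE, this, hcardΓ]

end Cfsg.Agent.LieExceptional.FrobDim
end

-- part: LieExceptional/FrobInvariantAbelian
section
set_option autoImplicit false

namespace Cfsg.Agent.LieExceptional.FrobInvariantAbelian

open scoped Pointwise

/-- An element `x` of prime order `r` normalises a nontrivial abelian subgroup of a nontrivial normal subgroup `M` of order
prime to `r`. -/
theorem exists_abelian_invariant {K : Type*} [Group K] [Finite K] (M : Subgroup K) [M.Normal] (hM : M ≠ ⊥)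
    (x : K) {r : ℕ} (hr : r.Prime) (hx : x ^ r = 1) (hrM : ¬ r ∣ Nat.card M) :
    ∃ A : Subgroup K, A ≤ M ∧ A ≠ ⊥ ∧ (∀ a ∈ A, ∀ b ∈ A, a * b = b * a) ∧ ∀ a ∈ A, x * a * x⁻¹ ∈ A := by
  classical
  have : Fact r.Prime := ⟨hr⟩
  have hM1 : Nat.card M ≠ 1 := fun h => hM (Subgroup.card_eq_one.mp h)
  obtain ⟨q, hq, hqM⟩ := Nat.exists_prime_and_dvd hM1
  have : Fact q.Prime := ⟨hq⟩
  let Γ : Subgroup (ConjAct K) := Subgroup.zpowers (ConjAct.toConjAct x)
  have hΓ : IsPGroup r Γ := by
    rintro ⟨g, hg⟩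
    refine ⟨1, ?_⟩
    obtain ⟨i, rfl⟩ := Subgroup.mem_zpowers_iff.mp hg
    apply Subtype.ext
    change ((ConjAct.toConjAct x) ^ i) ^ (r ^ 1) = 1
    rw [pow_one, ← zpow_natCast, ← zpow_mul, mul_comm, zpow_mul, zpow_natCast, ← map_pow, hx, map_one, one_zpow]
  obtain ⟨P⟩ : Nonempty (Sylow q M) := inferInstance
  have hcard : ¬ r ∣ Nat.card (Sylow q M) := by
    intro h
    apply hrM
    exact (h.trans P.card_dvd_index).trans (Subgroup.index_dvd_card _)
  obtain ⟨Q, hQ⟩ := hΓ.nonempty_fixed_point_of_prime_not_dvd_card (Sylow q M) hcard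
  have hQx : ConjAct.toConjAct x • Q = Q := hQ ⟨ConjAct.toConjAct x, Subgroup.mem_zpowers _⟩
  -- Q as subgroup of K
  let Q' : Subgroup K := (Q : Subgroup M).map M.subtype
  have hmem : ∀ y : K, y ∈ Q' ↔ ∃ h : y ∈ M, (⟨y, h⟩ : M) ∈ (Q : Subgroup M) := by
    intro y
    constructor
    · rintro ⟨z, hz, rfl⟩
      exact ⟨z.2, hz⟩
    · rintro ⟨h, hy⟩
      exact ⟨⟨y, h⟩, hy, rfl⟩
  have hconj : ∀ y : K, y ∈ Q' → x * y * x⁻¹ ∈ Q' := by
    intro y hy
    obtain ⟨hyM, hyQ⟩ := (hmem y).mp hy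
    have hsub : ((ConjAct.toConjAct x • Q : Sylow q M) : Subgroup M) = (Q : Subgroup M) := by rw [hQx]
    have h1 : ConjAct.toConjAct x • (⟨y, hyM⟩ : M) ∈ ((ConjAct.toConjAct x • Q : Sylow q M) : Subgroup M) := by
      rw [Sylow.pointwise_smul_def]
      exact Subgroup.smul_mem_pointwise_smul _ _ _ hyQ
    rw [hsub] at h1
    rw [hmem]
    exact ⟨(inferInstance : M.Normal).conj_mem y hyM x, h1⟩
  have hconjinv : ∀ y : K, y ∈ Q' → x⁻¹ * y * x ∈ Q' := by
    intro y hy
    obtain ⟨hyM, hyQ⟩ := (hmem y).mp hy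
    have hQx' : (ConjAct.toConjAct x)⁻¹ • Q = Q := by
      rw [inv_smul_eq_iff]; exact hQx.symm
    have hsub : (((ConjAct.toConjAct x)⁻¹ • Q : Sylow q M) : Subgroup M) = (Q : Subgroup M) := by rw [hQx']
    have h1 : (ConjAct.toConjAct x)⁻¹ • (⟨y, hyM⟩ : M) ∈ (((ConjAct.toConjAct x)⁻¹ • Q : Sylow q M) : Subgroup M) := by
      rw [Sylow.pointwise_smul_def]
      exact Subgroup.smul_mem_pointwise_smul _ _ _ hyQ
    rw [hsub] at h1
    rw [hmem]
    have h2 := (inferInstance : M.Normal).conj_mem y hyM x⁻¹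
    rw [inv_inv] at h2
    refine ⟨h2, ?_⟩
    have h3 : ((ConjAct.toConjAct x)⁻¹ • (⟨y, hyM⟩ : M)) = ⟨x⁻¹ * y * x, h2⟩ := by
      apply Subtype.ext
      rw [ConjAct.Subgroup.val_conj_smul, ← map_inv, ConjAct.toConjAct_smul, inv_inv]
    rw [← h3]
    exact h1
  refine ⟨Q' ⊓ Subgroup.centralizer (Q' : Set K), ?_, ?_, ?_, ?_⟩
  · intro y hy
    exact ((hmem y).mp hy.1).1
  · -- nontrivial
    have hQne : (Q : Subgroup M) ≠ ⊥ := Q.ne_bot_of_dvd_card hqM
    have hQnt : Nontrivial (Q : Subgroup M) := (Subgroup.nontrivial_iff_ne_bot _).mpr hQne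
    have hcen := Q.isPGroup'.center_nontrivial
    obtain ⟨z, hz⟩ := exists_ne (1 : Subgroup.center (Q : Subgroup M))
    rw [Subgroup.ne_bot_iff_exists_ne_one]
    refine ⟨⟨(((z : (Q : Subgroup M)) : M) : K), ?_⟩, ?_⟩
    · refine Subgroup.mem_inf.mpr ⟨(hmem _).mpr ⟨((z : (Q : Subgroup M)) : M).2, (z : (Q : Subgroup M)).2⟩, ?_⟩
      rw [Subgroup.mem_centralizer_iff]
      intro y hy
      obtain ⟨hyM, hyQ⟩ := (hmem y).mp hy
      have := Subgroup.mem_center_iff.mp z.2 ⟨⟨y, hyM⟩, hyQ⟩
      exact congrArg (fun w : (Q : Subgroup M) => ((w : M) : K)) this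
    · intro h
      apply hz
      have h1 : (((z : (Q : Subgroup M)) : M) : K) = 1 := congrArg Subtype.val h
      have h2 : ((z : (Q : Subgroup M)) : M) = 1 := Subtype.ext h1
      have h3 : (z : (Q : Subgroup M)) = 1 := Subtype.ext h2
      exact Subtype.ext h3
  · intro a ha b hb
    exact (Subgroup.mem_centralizer_iff.mp ha.2 b hb.1).symm
  · intro a ha
    refine Subgroup.mem_inf.mpr ⟨hconj a ha.1, ?_⟩
    rw [Subgroup.mem_centralizer_iff]
    intro y hy
    have h1 := Subgroup.mem_centralizer_iff.mp ha.2 _ (hconjinv y hy)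
    have := congrArg (fun z => x * z * x⁻¹) h1
    simpa [mul_assoc] using this

end Cfsg.Agent.LieExceptional.FrobInvariantAbelian
end

-- part: S0341
section
set_option autoImplicit false
open Cfsg

namespace Cfsg.Agent.S0341

/-- If a finite group acts faithfully and doubly transitively, no non-identity element fixes three points, some
non-identity element fixes two points, and some normal subgroup acts regularly, then the number of points
is `2^p` with `p` prime. -/
theorem result {G Ω : Type*} [Group G]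
    [MulAction G Ω] [Fintype Ω] [FaithfulSMul G Ω] (h2 : MulAction.IsMultiplyPretransitive G Ω 2)
    (h3 : ∀ g : G, ∀ a b c : Ω, a ≠ b → b ≠ c → a ≠ c → g • a = a → g • b = b → g • c = c → g = 1)
    (hfix : ∃ g : G, g ≠ 1 ∧ ∃ a b : Ω, a ≠ b ∧ g • a = a ∧ g • b = b)
    (N : Subgroup G) [N.Normal] (hNt : MulAction.IsPretransitive N Ω)
    (hNr : ∀ a : Ω, MulAction.stabilizer N a = ⊥) :
    ∃ p : ℕ, p.Prime ∧ Fintype.card Ω = 2 ^ p := by
  classical
  obtain ⟨g, hg1, a, b, hab, hga, hgb⟩ := hfix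
  have hfinG : Finite G := Finite.of_injective (MulAction.toPermHom G Ω) MulAction.toPerm_injective
  -- regularity of N
  have huniq : ∀ n ∈ N, n • a = a → n = 1 := by
    intro n hn h
    have h1 : (⟨n, hn⟩ : N) ∈ MulAction.stabilizer N a := h
    rw [hNr a] at h1
    exact congrArg Subtype.val (Subgroup.mem_bot.mp h1)
  have huniq2 : ∀ n ∈ N, ∀ m ∈ N, n • a = m • a → n = m := by
    intro n hn m hm h
    have h1 : (m⁻¹ * n) • a = a := by rw [mul_smul, h, inv_smul_smul]
    exact (inv_mul_eq_one.mp (huniq _ (N.mul_mem (N.inv_mem hm) hn) h1)).symm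
  have htrans : ∀ c : Ω, ∃ n ∈ N, n • a = c := by
    intro c
    obtain ⟨n, hn⟩ := hNt.exists_smul_eq a c
    exact ⟨n, n.2, hn⟩
  obtain ⟨n₀, hn₀, hn₀b⟩ := htrans b
  have hn₀1 : n₀ ≠ 1 := by
    rintro rfl
    exact hab (by simpa using hn₀b)
  have hKact : ∀ k : G, k • a = a → ∀ n : G, k • (n • a) = (k * n * k⁻¹) • a := by
    intro k hk n
    have h1 : k⁻¹ • a = a := inv_smul_eq_iff.mpr hk.symm
    rw [mul_smul, mul_smul, h1]
  have hcommiff : ∀ k : G, k • a = a → ∀ n ∈ N, (k • (n • a) = n • a ↔ k * n * k⁻¹ = n) := by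
    intro k hk n hn
    rw [hKact k hk n]
    constructor
    · intro h
      exact huniq2 _ ((inferInstance : N.Normal).conj_mem n hn k) _ hn h
    · intro h
      rw [h]
  rw [MulAction.is_two_pretransitive_iff] at h2
  have htr2 : ∀ n ∈ N, n ≠ 1 → ∀ m ∈ N, m ≠ 1 → ∃ k : G, k • a = a ∧ k * n * k⁻¹ = m := by
    intro n hn hn1 m hm hm1
    have h4 : a ≠ n • a := fun h => hn1 (huniq n hn h.symm)
    have h5 : a ≠ m • a := fun h => hm1 (huniq m hm h.symm)
    obtain ⟨k, hk1, hk2⟩ := h2 h4 h5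
    refine ⟨k, hk1, ?_⟩
    rw [hKact k hk1 n] at hk2
    exact huniq2 _ ((inferInstance : N.Normal).conj_mem n hn k) _ hm hk2
  -- exponent two
  have hg0 : g * n₀ * g⁻¹ = n₀ := (hcommiff g hga n₀ hn₀).mp (by rw [hn₀b]; exact hgb)
  have hn₀2 : n₀ * n₀ = 1 := by
    by_contra hne
    apply hg1
    refine h3 g a b ((n₀ * n₀) • a) hab ?_ ?_ hga hgb ?_
    · intro h
      rw [← hn₀b, mul_smul] at h
      have h4 := huniq n₀ hn₀ (smul_left_cancel n₀ h).symm
      exact hn₀1 h4
    · intro h
      exact hne (huniq _ (N.mul_mem hn₀ hn₀) h.symm)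
    · rw [hcommiff g hga _ (N.mul_mem hn₀ hn₀)]
      have h5 : g * (n₀ * n₀) * g⁻¹ = (g * n₀ * g⁻¹) * (g * n₀ * g⁻¹) := by group
      rw [h5, hg0]
  have hexp : ∀ n ∈ N, n * n = 1 := by
    intro n hn
    by_cases hn1 : n = 1
    · rw [hn1, one_mul]
    · obtain ⟨k, hk, rfl⟩ := htr2 n₀ hn₀ hn₀1 n hn hn1
      have h5 : (k * n₀ * k⁻¹) * (k * n₀ * k⁻¹) = k * (n₀ * n₀) * k⁻¹ := by group
      rw [h5, hn₀2, mul_one, mul_inv_cancel]
  have hNcomm : ∀ n m : N, n * m = m * n := by
    intro n m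
    have e1 : ∀ y : N, y⁻¹ = y := fun y => inv_eq_of_mul_eq_one_left (Subtype.ext (hexp y y.2))
    calc n * m = (n * m)⁻¹ := (e1 _).symm
      _ = m⁻¹ * n⁻¹ := mul_inv_rev _ _
      _ = m * n := by rw [e1, e1]
  let _ : CommGroup N := { (inferInstance : Group N) with mul_comm := hNcomm }
  have hcardN : Nat.card N = Fintype.card Ω := by
    rw [← Nat.card_eq_fintype_card]
    apply Nat.card_congr
    refine Equiv.ofBijective (fun n : N => (n : G) • a) ⟨?_, ?_⟩
    · intro n m h
      exact Subtype.ext (huniq2 _ n.2 _ m.2 h)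
    · intro c
      obtain ⟨n, hn, h⟩ := htrans c
      exact ⟨⟨n, hn⟩, h⟩
  -- the stabiliser
  let K : Subgroup G := MulAction.stabilizer G a
  have hKa : ∀ k : K, (k : G) • a = a := fun k => k.2
  let H : Subgroup K := MulAction.stabilizer K b
  have hHmem : ∀ k : K, k ∈ H ↔ (k : G) • b = b := fun k => Iff.rfl
  have hHFrob : Cfsg.IsFrobeniusComplement H := by
    refine ⟨?_, ?_, ?_⟩
    · intro h
      have h1 : (⟨g, hga⟩ : K) ∈ H := hgb
      rw [h] at h1
      exact hg1 (congrArg Subtype.val (Subgroup.mem_bot.mp h1))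
    · intro h
      apply hg1
      apply FaithfulSMul.eq_of_smul_eq_smul (α := Ω)
      intro c
      rw [one_smul]
      by_cases hca : c = a
      · rw [hca]; exact hga
      by_cases hcb : c = b
      · rw [hcb]; exact hgb
      exfalso
      obtain ⟨k, hk1, hk2⟩ := h2 hab (Ne.symm hca)
      have h1 : (⟨k, hk1⟩ : K) ∈ H := by rw [h]; trivial
      exact hcb (by rw [← hk2]; exact h1)
    · intro k hk
      rw [eq_bot_iff]
      intro y hy
      obtain ⟨hy1, hy2⟩ := Subgroup.mem_inf.mp hy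
      rw [Subgroup.mem_bot]
      rw [Subgroup.mem_pointwise_smul_iff_inv_smul_mem] at hy2
      have h4 : k⁻¹ * y * k ∈ H := by simpa using hy2
      have h5 : ((k : G)⁻¹ * (y : G) * (k : G)) • b = b := h4
      have h6 : (y : G) • ((k : G) • b) = (k : G) • b := by
        rw [mul_smul, mul_smul] at h5
        exact inv_smul_eq_iff.mp h5
      apply Subtype.ext
      refine h3 y a b ((k : G) • b) hab (fun h => hk h.symm) ?_ (hKa y) hy1 h6
      intro h
      apply hab
      have h7 : (k : G) • a = (k : G) • b := by rw [hKa k]; exact h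
      exact smul_left_cancel _ h7
  obtain ⟨M, hMset, hMn, hMH⟩ := Cfsg.Agent.S0035.result H hHFrob
  obtain ⟨hcardker, hmod⟩ := Cfsg.Agent.S0034.result H hHFrob
  have hcardM : Nat.card M = H.index := hMH.index_eq_card.symm
  have hindex : H.index = Fintype.card Ω - 1 := by
    have h4 : MulAction.orbit K b = {a}ᶜ := by
      ext c
      simp only [MulAction.mem_orbit_iff, Set.mem_compl_iff, Set.mem_singleton_iff]
      constructor
      · rintro ⟨k, rfl⟩ h
        apply hab
        have h7 : (k : G) • a = (k : G) • b := by rw [hKa k]; exact h.symm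
        exact smul_left_cancel _ h7
      · intro hc
        obtain ⟨k, hk1, hk2⟩ := h2 hab (Ne.symm hc)
        exact ⟨⟨k, hk1⟩, hk2⟩
    change (MulAction.stabilizer K b).index = _
    rw [MulAction.index_stabilizer, h4, Set.ncard_compl, Set.ncard_singleton, Nat.card_eq_fintype_card]
  have heven : 2 ∣ Fintype.card Ω := by
    rw [← hcardN]
    have h4 : orderOf (⟨n₀, hn₀⟩ : N) = 2 := by
      apply orderOf_eq_prime
      · rw [pow_two]; exact Subtype.ext hn₀2
      · intro h; exact hn₀1 (congrArg Subtype.val h)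
    rw [← h4]
    exact orderOf_dvd_natCard _
  have hpos : 0 < Fintype.card Ω := Fintype.card_pos_iff.mpr ⟨a⟩
  have hoddM : Odd (Nat.card M) := by
    rw [hcardM, hindex]
    obtain ⟨t, ht⟩ := heven
    refine ⟨t - 1, ?_⟩
    omega
  -- an element of prime order in H
  have hH1 : Nat.card H ≠ 1 := fun h => hHFrob.1 (Subgroup.card_eq_one.mp h)
  obtain ⟨r, hr, hrH⟩ := Nat.exists_prime_and_dvd hH1
  have : Fact r.Prime := ⟨hr⟩
  obtain ⟨⟨x, hxH⟩, hxord⟩ := exists_prime_orderOf_dvd_card' r hrH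
  have hxr : x ^ r = 1 := by
    have h4 := pow_orderOf_eq_one (⟨x, hxH⟩ : H)
    rw [hxord] at h4
    exact congrArg Subtype.val h4
  have hx1 : x ≠ 1 := by
    rintro rfl
    have h4 : (⟨1, hxH⟩ : H) = 1 := rfl
    rw [h4, orderOf_one] at hxord
    exact hr.one_lt.ne hxord
  have hrM : ¬ r ∣ Nat.card M := by
    intro h
    have h4 : Nat.card M ≡ 1 [MOD Nat.card H] := by rw [hcardM]; exact hmod
    have h5 : Nat.card M ≡ 1 [MOD r] := h4.of_dvd hrH
    have h6 : r ∣ 1 := (Nat.modEq_zero_iff_dvd.mp (h5.symm.trans (Nat.modEq_zero_iff_dvd.mpr h)))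
    exact hr.one_lt.ne' (Nat.dvd_one.mp h6)
  have hMbot : M ≠ ⊥ := by
    rintro rfl
    exact hHFrob.2.1 (Subgroup.isComplement'_bot_left.mp hMH)
  obtain ⟨A, hAM, hA1, hAcomm, hAx⟩ :=
    Cfsg.Agent.LieExceptional.FrobInvariantAbelian.exists_abelian_invariant M hMbot x hr hxr hrM
  have hMHdisj : ∀ y : K, y ∈ M → y ∈ H → y = 1 := by
    intro y hy1 hy2
    exact Subgroup.mem_bot.mp (hMH.disjoint.le_bot (Subgroup.mem_inf.mpr ⟨hy1, hy2⟩))
  have hKcomm : ∀ k : K, k ∈ H ↔ (k : G) * n₀ * (k : G)⁻¹ = n₀ := by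
    intro k
    rw [hHmem, ← hn₀b]
    exact hcommiff k (hKa k) n₀ hn₀
  have hMfree : ∀ y ∈ M, ∀ n ∈ N, n ≠ 1 → (y : G) * n * (y : G)⁻¹ = n → y = 1 := by
    intro y hy n hn hn1 hyn
    obtain ⟨k, hk1, hk2⟩ := htr2 n₀ hn₀ hn₀1 n hn hn1
    let k' : K := ⟨k, hk1⟩
    have h4 : k'⁻¹ * y * k' ∈ M := by
      have := hMn.conj_mem y hy k'⁻¹
      simpa using this
    have h5 : k'⁻¹ * y * k' ∈ H := by
      rw [hKcomm]
      change (k⁻¹ * (y : G) * k) * n₀ * (k⁻¹ * (y : G) * k)⁻¹ = n₀
      have h6 : (k⁻¹ * (y : G) * k) * n₀ * (k⁻¹ * (y : G) * k)⁻¹ = k⁻¹ * ((y : G) * (k * n₀ * k⁻¹) * (y : G)⁻¹) * k := by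
        group
      rw [h6, hk2, hyn, ← hk2]
      group
    have h6 := hMHdisj _ h4 h5
    have h7 : y = k' * (k'⁻¹ * y * k') * k'⁻¹ := by group
    rw [h7, h6]
    group
  -- the representation
  let ρ : K →* AddMonoid.End (Additive N) :=
    { toFun := fun k => MonoidHom.toAdditive (MulAut.conjNormal (k : G) : MulAut N).toMonoidHom
      map_one' := by
        apply AddMonoidHom.ext
        intro v
        change Additive.ofMul (MulAut.conjNormal ((1 : K) : G) (Additive.toMul v)) = v
        simp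
      map_mul' := by
        intro k l
        apply AddMonoidHom.ext
        intro v
        change Additive.ofMul (MulAut.conjNormal ((k * l : K) : G) (Additive.toMul v)) =
          Additive.ofMul (MulAut.conjNormal (k : G) (MulAut.conjNormal (l : G) (Additive.toMul v)))
        rw [Subgroup.coe_mul, map_mul]
        rfl }
  have hρ : ∀ (k : K) (v : Additive N), ρ k v = v ↔ (k : G) * ((Additive.toMul v : N) : G) * (k : G)⁻¹ = ((Additive.toMul v : N) : G) := by
    intro k v
    constructor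
    · intro h
      exact congrArg (fun w : Additive N => ((Additive.toMul w : N) : G)) h
    · intro h
      exact congrArg Additive.ofMul (Subtype.ext h : (MulAut.conjNormal (k : G) (Additive.toMul v)) = Additive.toMul v)
  have hAodd : Odd (Nat.card A) := hoddM.of_dvd_nat (Subgroup.card_dvd_of_le hAM)
  have hmain := Cfsg.Agent.LieExceptional.FrobDim.card_eq_two_pow (V := Additive N) (K := K)
    (fun v => by
      change Additive.ofMul (Additive.toMul v * Additive.toMul v) = Additive.ofMul 1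
      exact congrArg Additive.ofMul (Subtype.ext (hexp _ (Additive.toMul v).2)))
    ρ A hAcomm hAodd hA1 x hr hxr hAx
    (by
      intro y hy hxy
      apply hMHdisj y (hAM hy)
      by_contra hyH
      have h4 := hHFrob.2.2 y hyH
      apply hx1
      rw [← Subgroup.mem_bot, ← h4]
      refine Subgroup.mem_inf.mpr ⟨hxH, ?_⟩
      rw [Subgroup.mem_pointwise_smul_iff_inv_smul_mem]
      have h5 : (MulAut.conj y)⁻¹ • x = x := by
        rw [← map_inv, MulAut.smul_def, MulAut.conj_apply, inv_inv]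
        rw [mul_assoc, hxy.eq, inv_mul_cancel_left]
      rw [h5]
      exact hxH)
    (Additive.ofMul ⟨n₀, hn₀⟩)
    (by
      intro h
      apply hn₀1
      have : (⟨n₀, hn₀⟩ : N) = 1 := Additive.ofMul.injective h
      exact congrArg Subtype.val this)
    (by
      intro v hv
      rw [hρ] at hv
      by_contra hcon
      push Not at hcon
      obtain ⟨hc1, hc2⟩ := hcon
      apply hx1
      have hn := (Additive.toMul v : N).2
      have hc1' : ((Additive.toMul v : N) : G) ≠ 1 := by
        intro h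
        exact hc1 (congrArg Additive.ofMul (Subtype.ext h : Additive.toMul v = 1))
      have hc2' : ((Additive.toMul v : N) : G) ≠ n₀ := by
        intro h
        exact hc2 (congrArg Additive.ofMul (Subtype.ext h : Additive.toMul v = ⟨n₀, hn₀⟩))
      apply Subtype.ext
      refine h3 x a b (((Additive.toMul v : N) : G) • a) hab ?_ ?_ (hKa x) hxH ?_
      · intro h
        rw [← hn₀b] at h
        exact hc2' (huniq2 _ hn _ hn₀ h.symm)
      · intro h
        exact hc1' (huniq _ hn h.symm)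
      · rw [hcommiff x (hKa x) _ hn]
        exact hv)
    (by
      rw [hρ]
      exact (hKcomm x).mp hxH)
    (by
      intro v hv
      by_contra hv0
      obtain ⟨⟨y, hy⟩, hy1⟩ := Subgroup.ne_bot_iff_exists_ne_one.mp hA1
      apply hy1
      apply Subtype.ext
      refine hMfree y (hAM hy) _ (Additive.toMul v : N).2 ?_ ((hρ y v).mp (hv y hy))
      intro h
      exact hv0 (congrArg Additive.ofMul (Subtype.ext h : Additive.toMul v = 1)))
    (by
      intro y hy hy1
      refine hMfree y (hAM hy) n₀ hn₀ hn₀1 ?_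
      have := (hρ y (Additive.ofMul ⟨n₀, hn₀⟩)).mp (by rw [hy1]; rfl)
      exact this)
  refine ⟨r, hr, ?_⟩
  rw [← hcardN]
  exact hmain

end Cfsg.Agent.S0341
end
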