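import Cfsg.Statements.S0740
import Cfsg.Agent.PermutationGroups.ZassenhausInvolutions
set_option linter.all false
-- import your own Cfsg.Agent.* helpers here

set_option autoImplicit false
open Cfsg

namespace Cfsg.Agent.S0740

open Cfsg.Agent.PermutationGroups.ZassenhausBasic
open Cfsg.Agent.PermutationGroups.ZassenhausInvolutions

/-- In a finite Zassenhaus group any two points `a ≠ b` are swapped by an involution; every such involution has exactly one fixed point when the degree is odd and 0 or 2 fixed points when the degree is even; and if the two-point stabiliser has even order, some such involution has exactly 2 fixed points. -/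
theorem result {G Ω : Type*} [Group G] [Finite G] [MulAction G Ω] [Fintype Ω] (hZ : Cfsg.IsZassenhausGroup G Ω) {a b : Ω} (hab : a ≠ b) : (∃ s : G, orderOf s = 2 ∧ s • a = b ∧ s • b = a) ∧ (∀ s : G, orderOf s = 2 → s • a = b → s • b = a → (Odd (Fintype.card Ω) → Nat.card (MulAction.fixedBy Ω s) = 1) ∧ (Even (Fintype.card Ω) → Nat.card (MulAction.fixedBy Ω s) = 0 ∨ Nat.card (MulAction.fixedBy Ω s) = 2)) ∧ (Even (Fintype.card Ω) → Even (Nat.card ↥(MulAction.stabilizer G a ⊓ MulAction.stabilizer G b)) → ∃ s : G, orderOf s = 2 ∧ s • a = b ∧ s • b = a ∧ Nat.card (MulAction.fixedBy Ω s) = 2) := by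
  refine ⟨?_, ?_, ?_⟩
  · obtain ⟨t, ht⟩ := exists_orderOf_eq_two hZ hab
    obtain ⟨x, h1, h2, h3⟩ := exists_conj_swap hZ hab ht
    exact ⟨_, h1, h2, h3⟩
  · intro s hs _ _
    have hs1 : s ≠ 1 := by
      intro h; rw [h, orderOf_one] at hs; omega
    have hss : s * s = 1 := by rw [← pow_two, ← hs, pow_orderOf_eq_one]
    have h1 := card_fixedBy_le_two hZ hs1
    have h2 : Fintype.card Ω % 2 = Nat.card (MulAction.fixedBy Ω s) % 2 :=
      card_fixedBy_modEq_two (Ω := Ω) hss
    constructor
    · intro h
      rw [Nat.odd_iff] at h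
      omega
    · intro h
      rw [Nat.even_iff] at h
      omega
  · intro _ heven
    obtain ⟨t, ht, hta, htb⟩ := exists_involution_fixing hZ hab heven hab
    have ht1 : t ≠ 1 := by
      intro h; rw [h, orderOf_one] at ht; omega
    obtain ⟨x, h1, h2, h3⟩ := exists_conj_swap hZ hab ht
    refine ⟨_, h1, h2, h3, ?_⟩
    refine card_fixedBy_eq_two hZ (c := x • a) (d := x • b)
      (fun h => hab (smul_left_cancel x h)) ?_ ?_ ?_
    · intro h; rw [h, orderOf_one] at h1; omega
    · rw [mul_smul, mul_smul, inv_smul_smul, hta]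
    · rw [mul_smul, mul_smul, inv_smul_smul, htb]

end Cfsg.Agent.S0740
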