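import Cfsg.Statements.S0879
import Cfsg.Agent.CharactersDeep.Zassenhaus
set_option linter.all false

set_option autoImplicit false
open Cfsg

namespace Cfsg.Agent.S0879

/-- Let G be a Zassenhaus group on the finite set Ω and E the stabilizer of two distinct points a, b. Then an element outside the normalizer of E conjugates no non-identity element of E into E, and E has index 2 in its normalizer. -/
theorem result {G Ω : Type*} [Group G] [Finite G] [MulAction G Ω] [Fintype Ω] (hZ : Cfsg.IsZassenhausGroup G Ω) {a b : Ω} (hab : a ≠ b) : (∀ g : G, g ∉ Subgroup.normalizer ((MulAction.stabilizer G a ⊓ MulAction.stabilizer G b : Subgroup G) : Set G) → ∀ x ∈ (MulAction.stabilizer G a ⊓ MulAction.stabilizer G b : Subgroup G), g * x * g⁻¹ ∈ (MulAction.stabilizer G a ⊓ MulAction.stabilizer G b : Subgroup G) → x = 1) ∧ ((MulAction.stabilizer G a ⊓ MulAction.stabilizer G b : Subgroup G).subgroupOf (Subgroup.normalizer ((MulAction.stabilizer G a ⊓ MulAction.stabilizer G b : Subgroup G) : Set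 G))).index = 2 := by
  refine ⟨?_, ?_⟩
  · intro g hg x hx hgx
    by_contra hx1
    exact hg ((Cfsg.Agent.CharactersDeep.Zassenhaus.mem_normalizer_two_iff hZ hab).2
      (Cfsg.Agent.CharactersDeep.Zassenhaus.pair_of_conj hZ hab hx1 hx hgx))
  · rw [Subgroup.index_eq_two_iff]
    obtain ⟨t, hta, htb⟩ := Cfsg.Agent.CharactersDeep.Zassenhaus.exists_smul_pair hZ hab hab.symm
    have htN := (Cfsg.Agent.CharactersDeep.Zassenhaus.mem_normalizer_two_iff hZ hab).2
      (Or.inr ⟨hta, htb⟩)
    refine ⟨⟨t, htN⟩, ?_⟩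
    rintro ⟨g, hg⟩
    rw [Subgroup.mem_subgroupOf, Subgroup.mem_subgroupOf]
    rw [Cfsg.Agent.CharactersDeep.Zassenhaus.mem_two, Cfsg.Agent.CharactersDeep.Zassenhaus.mem_two]
    simp only [Subgroup.coe_mul, mul_smul, hta, htb]
    rcases (Cfsg.Agent.CharactersDeep.Zassenhaus.mem_normalizer_two_iff hZ hab).1 hg with
      ⟨h1, h2⟩ | ⟨h1, h2⟩
    · right
      exact ⟨⟨h1, h2⟩, fun h => hab (h1.symm.trans h.2)⟩
    · left
      exact ⟨⟨h2, h1⟩, fun h => hab (h.1.symm.trans h1)⟩

end Cfsg.Agent.S0879
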