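import Mathlib
import Cfsg.Prelude.Def_LieExceptional
import Cfsg.Agent.PermutationGroups.ZassenhausBasic
import Cfsg.Agent.PermutationGroups.ZassenhausEven
import Cfsg.Agent.CharactersDeep.ZassenhausCount
import Cfsg.Agent.S0879
import Cfsg.Agent.S0729
import Cfsg.Statements.S0345
import Cfsg.Agent.Solvable.FixedPointFree
import Cfsg.Agent.Solvable.FrobeniusKernel
import Cfsg.Agent.S0739
import Cfsg.Agent.S0740
set_option linter.all false

-- part: LieExceptional/SharpNotSimple
section
/-!
# Sharply triply transitive groups of even degree are not simple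

The main result `not_simple` derives non-simplicity from an index-two subgroup of a two-point stabiliser normalised by an
involution swapping the two points and fixing a third one, by transfer into the stabiliser of the pair.
-/

set_option autoImplicit false

namespace Cfsg.Agent.LieExceptional.SharpNotSimple

open MulAction Cfsg.Agent.PermutationGroups.ZassenhausEven
open Cfsg.Agent.PermutationGroups

/-- sign of an involution in terms of the number of fixed points -/
theorem sign_involution {α : Type*} [Fintype α] [DecidableEq α] {σ : Equiv.Perm α} (h1 : σ ≠ 1)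
    (h2 : σ * σ = 1) {k : ℕ} (hk : Nat.card (Function.fixedPoints σ) + 2 * k = Fintype.card α) :
    Equiv.Perm.sign σ = (-1) ^ k := by
  classical
  have hord : orderOf σ = 2 := orderOf_eq_prime (by rw [pow_two]; exact h2) h1
  obtain ⟨n, hn⟩ := Equiv.Perm.cycleType_prime_order (σ := σ) (by rw [hord]; exact Nat.prime_two)
  rw [hord] at hn
  have hsum : σ.cycleType.sum = 2 * (n + 1) := by
    rw [hn, Multiset.sum_replicate]; simp [mul_comm]
  have hfix := Equiv.Perm.card_fixedPoints σ
  have hle := Equiv.Perm.sum_cycleType_le σ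
  rw [Nat.card_eq_fintype_card] at hk
  have hk' : k = n + 1 := by omega
  rw [Equiv.Perm.sign_of_cycleType, hsum, hn, Multiset.card_replicate, hk', pow_add, pow_mul]
  simp

variable {G Ω : Type*} [Group G] [Finite G] [MulAction G Ω] [Finite Ω]

omit [Finite G] in
/-- if the order of `G_{ab}` is `|Ω| - 2` then `G_{ab}` is transitive on the remaining points -/
theorem two_point_transitive (hZ : Cfsg.IsZassenhausGroup G Ω) {a b : Ω} (hab : a ≠ b)
    (hd : Nat.card ↥(stabilizer G a ⊓ stabilizer G b) + 2 = Nat.card Ω) {c d : Ω}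
    (hca : c ≠ a) (hcb : c ≠ b) (hda : d ≠ a) (hdb : d ≠ b) :
    ∃ h : G, h • a = a ∧ h • b = b ∧ h • c = d := by
  classical
  have := Fintype.ofFinite Ω
  have hne : ∀ h : ↥(stabilizer G a ⊓ stabilizer G b), (h : G) • c ≠ a ∧ (h : G) • c ≠ b := by
    intro h
    have h1 : (h : G) • a = a := h.2.1
    have h2 : (h : G) • b = b := h.2.2
    exact ⟨fun h3 => hca (MulAction.injective (h : G) (h3.trans h1.symm)),
      fun h3 => hcb (MulAction.injective (h : G) (h3.trans h2.symm))⟩
  let f : ↥(stabilizer G a ⊓ stabilizer G b) → {x : Ω // x ≠ a ∧ x ≠ b} := fun h => ⟨(h : G) • c, hne h⟩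
  have hf : Function.Injective f := by
    intro g h hgh
    have h1 : (g : G) • c = (h : G) • c := congrArg Subtype.val hgh
    have h2 : (h : G)⁻¹ * g = 1 := by
      apply ZassenhausBasic.eq_one_of_fix hZ hab hcb.symm hca.symm
      · rw [mul_smul, inv_smul_eq_iff]
        exact (show (g : G) • a = a from g.2.1).trans (show (h : G) • a = a from h.2.1).symm
      · rw [mul_smul, inv_smul_eq_iff]
        exact (show (g : G) • b = b from g.2.2).trans (show (h : G) • b = b from h.2.2).symm
      · rw [mul_smul, h1, inv_smul_smul]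
    exact Subtype.ext (inv_mul_eq_one.1 h2).symm
  have hcard : Nat.card ↥(stabilizer G a ⊓ stabilizer G b) = Nat.card {x : Ω // x ≠ a ∧ x ≠ b} := by
    have h1 : Fintype.card {x : Ω // x ≠ a ∧ x ≠ b} = Fintype.card Ω - 2 := by
      have h2 : Fintype.card {x : Ω // x = a ∨ x = b} = 2 := by
        rw [Fintype.card_subtype]
        have : (Finset.univ.filter (fun x : Ω => x = a ∨ x = b)) = {a, b} := by ext x; simp
        rw [this, Finset.card_pair hab]
      have h3 := Fintype.card_subtype_compl (fun x : Ω => x = a ∨ x = b)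
      rw [h2] at h3
      rw [← h3]
      apply Fintype.card_congr
      exact Equiv.subtypeEquivRight (fun x => by push Not; rfl)
    rw [Nat.card_eq_fintype_card (α := {x : Ω // x ≠ a ∧ x ≠ b}), h1]
    rw [Nat.card_eq_fintype_card (α := Ω)] at hd
    omega
  have hbij : Function.Bijective f := (Nat.bijective_iff_injective_and_card f).2 ⟨hf, hcard⟩
  obtain ⟨h, hh⟩ := hbij.2 ⟨d, hda, hdb⟩
  exact ⟨h, h.2.1, h.2.2, congrArg Subtype.val hh⟩

/-- a two-point stabiliser contains at most one involution -/
theorem involution_unique (hZ : Cfsg.IsZassenhausGroup G Ω) {a b : Ω} (hab : a ≠ b)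
    (heven : Even (Nat.card ↥(stabilizer G a ⊓ stabilizer G b))) {u v : G} (hu1 : u ≠ 1)
    (hu2 : u * u = 1) (hv1 : v ≠ 1) (hv2 : v * v = 1) (hua : u • a = a) (hub : u • b = b)
    (hva : v • a = a) (hvb : v • b = b) : u = v := by
  have h2 := hZ.2.1
  have h3 := threeTrivial_of_zassenhaus hZ
  have hI : TwoInv G Ω := twoInv_of_even h2 hab heven
  obtain ⟨F, hF1, hF2, hF3, hF4, hF5, hF6⟩ := exists_kernel h2 h3 hI hab
  have hconj : ∀ g ∈ F, (v⁻¹ * u) * g = g * (v⁻¹ * u) := by
    intro g hg
    have hg' : g ∈ kerSet G a := by rw [← hF1]; exact hg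
    have e1 := invol_conj_kerSet h2 h3 hI hab hu1 hu2 hua hub hg'
    have e2 := invol_conj_kerSet h2 h3 hI hab hv1 hv2 hva hvb hg'
    have e3 : u * g = g⁻¹ * u := by rw [← e1]; group
    have e4 : v * g = g⁻¹ * v := by rw [← e2]; group
    have e5 : v⁻¹ * g⁻¹ = g * v⁻¹ := by
      calc v⁻¹ * g⁻¹ = v⁻¹ * (g⁻¹ * v) * v⁻¹ := by group
        _ = v⁻¹ * (v * g) * v⁻¹ := by rw [e4]
        _ = g * v⁻¹ := by group
    calc v⁻¹ * u * g = v⁻¹ * (u * g) := by group
      _ = (v⁻¹ * g⁻¹) * u := by rw [e3]; group
      _ = g * (v⁻¹ * u) := by rw [e5]; group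
  have h1 : v⁻¹ * u = 1 := by
    have hfa : (v⁻¹ * u) • a = a := by
      rw [mul_smul, hua, inv_smul_eq_iff, hva]
    have hfb : (v⁻¹ * u) • b = b := by
      rw [mul_smul, hub, inv_smul_eq_iff, hvb]
    have hf := hZ.1
    apply FaithfulSMul.eq_of_smul_eq_smul (α := Ω)
    intro x
    rw [one_smul]
    by_cases hxa : x = a
    · rw [hxa, hfa]
    · obtain ⟨g, hg, -⟩ := hF5 b x hab.symm hxa
      have hg' : (g : G) • b = x := hg
      rw [← hg', ← mul_smul, hconj g g.2, mul_smul, hfb]
  exact (inv_mul_eq_one.1 h1).symm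

/-- A finite Zassenhaus group with `|G_{ab}| = |Ω| - 2` even is not simple, provided `G_{ab}` has a normal subgroup of
index two normalised by the involution swapping `a`, `b` and fixing a third point. -/
theorem not_simple (hZ : Cfsg.IsZassenhausGroup G Ω) {a b : Ω} (hab : a ≠ b)
    (hd : Nat.card ↥(stabilizer G a ⊓ stabilizer G b) + 2 = Nat.card Ω)
    (heven : Even (Nat.card ↥(stabilizer G a ⊓ stabilizer G b)))
    (hN : ∀ (c : Ω) (s : G), c ≠ a → c ≠ b → s • a = b → s • b = a → s • c = c →
      ∃ N : Subgroup G, N ≤ stabilizer G a ⊓ stabilizer G b ∧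
        (N.subgroupOf (stabilizer G a ⊓ stabilizer G b)).Normal ∧
        N.relIndex (stabilizer G a ⊓ stabilizer G b) = 2 ∧ ∀ n ∈ N, s * n * s⁻¹ ∈ N) :
    ¬ IsSimpleGroup G := by
  classical
  intro hsimple
  have := Fintype.ofFinite Ω
  have := Fintype.ofFinite G
  have h2 := hZ.2.1
  have h3 := threeTrivial_of_zassenhaus hZ
  have hfaith := hZ.1
  have hI : TwoInv G Ω := twoInv_of_even h2 hab heven
  obtain ⟨t, ht1, ht2, hta, htb⟩ := hI a b hab
  obtain ⟨c, hca, hcb⟩ := ZassenhausBasic.exists_third hZ hab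
  -- the swapping involution `s` fixing `c`
  obtain ⟨s, hsa, hsb, hsc⟩ : ∃ s : G, s • a = b ∧ s • b = a ∧ s • c = c := by
    obtain ⟨g, hga, hgb⟩ := ZassenhausBasic.exists_swap hZ hab
    have h4 : g • c ≠ a := fun h => hcb (MulAction.injective g (h.trans hgb.symm))
    have h5 : g • c ≠ b := fun h => hca (MulAction.injective g (h.trans hga.symm))
    obtain ⟨h, hha, hhb, hhc⟩ := two_point_transitive hZ hab hd h4 h5 hca hcb
    exact ⟨h * g, by rw [mul_smul, hga, hhb], by rw [mul_smul, hgb, hha], by rw [mul_smul, hhc]⟩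
  have hss : s * s = 1 := by
    apply ZassenhausBasic.eq_one_of_fix hZ hab hcb.symm hca.symm
    · rw [mul_smul, hsa, hsb]
    · rw [mul_smul, hsb, hsa]
    · rw [mul_smul, hsc, hsc]
  have hs1 : s ≠ 1 := by
    rintro rfl
    rw [one_smul] at hsa
    exact hab hsa
  have hsinv : s⁻¹ = s := inv_eq_of_mul_eq_one_left hss
  -- the sign homomorphism is trivial
  let sgn : G →* ℤˣ := Equiv.Perm.sign.comp (MulAction.toPermHom G Ω)
  have hsgn : ∀ g : G, sgn g = 1 := by
    intro g
    rcases hsimple.eq_bot_or_eq_top_of_normal sgn.ker inferInstance with hker | hker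
    · exfalso
      have hinj : Function.Injective sgn := (MonoidHom.ker_eq_bot_iff sgn).1 hker
      have e1 : sgn t = -1 := by
        rcases Int.units_eq_one_or (sgn t) with h | h
        · exact absurd (hinj (h.trans (map_one sgn).symm)) ht1
        · exact h
      have e2 : sgn s = -1 := by
        rcases Int.units_eq_one_or (sgn s) with h | h
        · exact absurd (hinj (h.trans (map_one sgn).symm)) hs1
        · exact h
      have e3 : t = s := hinj (e1.trans e2.symm)
      apply hab
      rw [← hta, e3, hsa]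
    · have : g ∈ sgn.ker := by rw [hker]; exact Subgroup.mem_top _
      exact this
  have hperm : ∀ g : G, g ≠ 1 → MulAction.toPermHom G Ω g ≠ 1 := by
    intro g hg h
    apply hg
    apply FaithfulSMul.eq_of_smul_eq_smul (α := Ω)
    intro x
    rw [one_smul]
    exact congrArg (fun σ : Equiv.Perm Ω => σ x) h
  have hsgn' : ∀ (g : G) (k : ℕ), g ≠ 1 → g * g = 1 →
      Nat.card (MulAction.fixedBy Ω g) + 2 * k = Nat.card Ω → Even k := by
    intro g k hg1 hg2 hk
    have e1 : Equiv.Perm.sign (MulAction.toPermHom G Ω g) = (-1) ^ k := by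
      apply sign_involution (hperm g hg1)
      · rw [← map_mul, hg2, map_one]
      · rw [Nat.card_eq_fintype_card (α := Ω)] at hk
        exact hk
    have e2 : (-1 : ℤˣ) ^ k = 1 := by rw [← e1]; exact hsgn g
    by_contra hodd
    rw [Nat.not_even_iff_odd] at hodd
    rw [hodd.neg_one_pow] at e2
    exact absurd e2 (by decide)
  obtain ⟨k, hk⟩ := heven
  -- `k` is even
  have hkeven : Even k := by
    apply hsgn' t k ht1 ht2
    have : MulAction.fixedBy Ω t = {a, b} := by
      ext x
      rw [MulAction.mem_fixedBy, Set.mem_insert_iff, Set.mem_singleton_iff]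
      constructor
      · intro hx
        exact ZassenhausBasic.eq_or_eq_of_fix hZ hab ht1 hta htb hx
      · rintro (rfl | rfl)
        · exact hta
        · exact htb
    rw [this, Nat.card_coe_set_eq, Set.ncard_pair hab]
    omega
  -- every involution has a fixed point
  have hfix : ∀ z : G, z ≠ 1 → z * z = 1 → ∃ x : Ω, z • x = x := by
    intro z hz1 hz2
    by_contra hcon
    push Not at hcon
    have h0 : Nat.card (MulAction.fixedBy Ω z) = 0 := by
      rw [Nat.card_eq_zero]
      left
      exact ⟨fun x => hcon x x.2⟩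
    have h4 := hsgn' z (k + 1) hz1 hz2 (by rw [h0]; omega)
    rcases hkeven with ⟨m, hm⟩
    rcases h4 with ⟨m', hm'⟩
    omega
  -- the index two subgroup
  obtain ⟨N, hNH, hNn, hN2, hNs⟩ := hN c s hca hcb hsa hsb hsc
  set H : Subgroup G := stabilizer G a ⊓ stabilizer G b with hH
  have hsH : s ∉ H := fun h => hab ((show s • a = a from h.1).symm.trans hsa)
  have hNs' : ∀ n ∈ N, s * n * s ∈ N := by
    intro n hn
    have := hNs n hn
    rwa [hsinv] at this
  have hNsiff : ∀ n, s * n * s ∈ N → n ∈ N := by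
    intro n hn
    have := hNs' _ hn
    have e : s * (s * n * s) * s = (s * s) * n * (s * s) := by group
    rw [e, hss, one_mul, mul_one] at this
    exact this
  have hsHs : ∀ h ∈ H, s * h * s ∈ H := by
    intro h hh
    refine ⟨?_, ?_⟩
    · change (s * h * s) • a = a
      rw [mul_smul, mul_smul, hsa, show h • b = b from hh.2, hsb]
    · change (s * h * s) • b = b
      rw [mul_smul, mul_smul, hsb, show h • a = a from hh.1, hsa]
  -- products of two elements of `H` outside `N` lie in `N`
  have hmulN : ∀ x ∈ H, ∀ y ∈ H, x ∉ N → y ∉ N → x * y ∈ N := by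
    intro x hx y hy hxN hyN
    have h5 : (N.subgroupOf H).index = 2 := hN2
    have h6 := (Subgroup.mul_mem_iff_of_index_two h5 (a := ⟨x, hx⟩) (b := ⟨y, hy⟩))
    simp only [Subgroup.mem_subgroupOf] at h6
    exact h6.2 ⟨fun h => absurd h hxN, fun h => absurd h hyN⟩
  have hconjN : ∀ h ∈ H, ∀ n ∈ N, h * n * h⁻¹ ∈ N := by
    intro h hh n hn
    have h7 := hNn.conj_mem ⟨n, hNH hn⟩ (Subgroup.mem_subgroupOf.2 hn) ⟨h, hh⟩
    exact Subgroup.mem_subgroupOf.1 h7
  -- the subgroup `M = N ∪ N s`
  let M : Subgroup G :=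
    { carrier := {x | x ∈ N ∨ x * s ∈ N}
      mul_mem' := by
        rintro x y (hx | hx) (hy | hy)
        · exact Or.inl (N.mul_mem hx hy)
        · exact Or.inr (by rw [mul_assoc]; exact N.mul_mem hx hy)
        · right
          have e : x * y * s = (x * s) * (s * y * s) := by
            calc x * y * s = x * 1 * y * s := by group
              _ = (x * s) * (s * y * s) := by rw [← hss]; group
          rw [e]
          exact N.mul_mem hx (hNs' _ hy)
        · left
          have e : x * y = (x * s) * (s * (y * s) * s) := by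
            calc x * y = x * 1 * y * 1 := by group
              _ = (x * s) * (s * (y * s) * s) := by rw [← hss]; group
          rw [e]
          exact N.mul_mem hx (hNs' _ hy)
      one_mem' := Or.inl N.one_mem
      inv_mem' := by
        rintro x (hx | hx)
        · exact Or.inl (N.inv_mem hx)
        · right
          have h8 := hNs' _ (N.inv_mem hx)
          have e : s * (x * s)⁻¹ * s = x⁻¹ * s := by
            rw [mul_inv_rev, hsinv]
            calc s * (s * x⁻¹) * s = (s * s) * x⁻¹ * s := by group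
              _ = x⁻¹ * s := by rw [hss, one_mul]
          rwa [e] at h8 }
  have hMmem : ∀ x, x ∈ M ↔ x ∈ N ∨ x * s ∈ N := fun x => Iff.rfl
  have hsM : s ∈ M := (hMmem s).2 (Or.inr (by rw [hss]; exact N.one_mem))
  have hNM : ∀ x ∈ N, x ∈ M := fun x hx => (hMmem x).2 (Or.inl hx)
  have hMH : ∀ x ∈ H, x ∈ M → x ∈ N := by
    intro x hx hxM
    rcases (hMmem x).1 hxM with h | h
    · exact h
    · exact absurd ((Subgroup.mul_mem_cancel_left H hx).1 (hNH h)) hsH
  -- the stabiliser of the pair
  let L : Subgroup G := Subgroup.normalizer (H : Set G)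
  have hLmem : ∀ g, g ∈ L ↔ (g • a = a ∧ g • b = b) ∨ (g • a = b ∧ g • b = a) := fun g =>
    Cfsg.Agent.CharactersDeep.Zassenhaus.mem_normalizer_two_iff hZ hab
  have hHL : H ≤ L := fun x hx => (hLmem x).2 (Or.inl ⟨hx.1, hx.2⟩)
  have hsL : s ∈ L := (hLmem s).2 (Or.inr ⟨hsa, hsb⟩)
  have hLs : ∀ g ∈ L, g ∉ H → g * s ∈ H := by
    intro g hg hgH
    rcases (hLmem g).1 hg with h | h
    · exact absurd ⟨h.1, h.2⟩ hgH
    · refine ⟨?_, ?_⟩
      · change (g * s) • a = a
        rw [mul_smul, hsa, h.2]
      · change (g * s) • b = b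
        rw [mul_smul, hsb, h.1]
  have hLsq : ∀ g ∈ L, g * g ∈ H := by
    intro g hg
    rcases (hLmem g).1 hg with h | h
    · refine ⟨?_, ?_⟩
      · change (g * g) • a = a
        rw [mul_smul, h.1, h.1]
      · change (g * g) • b = b
        rw [mul_smul, h.2, h.2]
    · refine ⟨?_, ?_⟩
      · change (g * g) • a = a
        rw [mul_smul, h.1, h.2]
      · change (g * g) • b = b
        rw [mul_smul, h.2, h.1]
  have hML : M ≤ L := by
    intro x hx
    rcases (hMmem x).1 hx with h | h
    · exact hHL (hNH h)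
    · exact (Subgroup.mul_mem_cancel_right L hsL).1 (hHL (hNH h))
  -- `M` has index two in `L`
  have hcosetM : ∀ x ∈ L, ∀ y ∈ L, x ∉ M → y ∉ M → x * y ∈ M := by
    have key : ∀ x ∈ L, x ∉ M → ∃ h ∈ H, h ∉ N ∧ (x = h ∨ x = h * s) := by
      intro x hx hxM
      by_cases hxH : x ∈ H
      · exact ⟨x, hxH, fun h => hxM (hNM x h), Or.inl rfl⟩
      · refine ⟨x * s, hLs x hx hxH, fun h => hxM ((hMmem x).2 (Or.inr h)), Or.inr ?_⟩
        rw [mul_assoc, hss, mul_one]
    intro x hx y hy hxM hyM
    obtain ⟨h, hh, hhN, hx'⟩ := key x hx hxM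
    obtain ⟨h', hh', hhN', hy'⟩ := key y hy hyM
    have h9 : h * h' ∈ M := hNM _ (hmulN h hh h' hh' hhN hhN')
    have h10 : h * (s * h' * s) ∈ M := by
      apply hNM
      refine hmulN h hh _ (hsHs h' hh') hhN ?_
      intro h11
      exact hhN' (hNsiff _ h11)
    rcases hx' with hx' | hx' <;> rcases hy' with hy' | hy' <;> rw [hx', hy']
    · exact h9
    · rw [← mul_assoc]; exact M.mul_mem h9 hsM
    · have e : h * s * h' = h * (s * h' * s) * s := by
        calc h * s * h' = h * s * h' * 1 := by group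
          _ = h * (s * h' * s) * s := by rw [← hss]; group
      rw [e]; exact M.mul_mem h10 hsM
    · have e : h * s * (h' * s) = h * (s * h' * s) := by group
      rw [e]; exact h10
  -- all elements of `L` with square one lie in `M`
  have hinvol : ∀ z ∈ L, z * z = 1 → z ∈ M := by
    intro z hz hzz
    by_cases hz1 : z = 1
    · rw [hz1]; exact M.one_mem
    by_cases hzH : z ∈ H
    · -- `N` has even order
      have hcardN : Nat.card N * 2 = Nat.card H := by
        rw [← hN2]
        have h30 := Subgroup.card_mul_index (N.subgroupOf H)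
        have h31 : Nat.card (N.subgroupOf H) = Nat.card N :=
          Nat.card_congr (Subgroup.subgroupOfEquivOfLe hNH).toEquiv
        rw [h31] at h30
        exact h30
      have hNeven : 2 ∣ Nat.card N := by
        rw [hk] at hcardN
        obtain ⟨m, hm⟩ := hkeven
        exact ⟨m, by omega⟩
      have : Fact (Nat.Prime 2) := ⟨Nat.prime_two⟩
      obtain ⟨v, hv⟩ := exists_prime_orderOf_dvd_card' (G := N) 2 hNeven
      have hv1 : (v : G) ≠ 1 := by
        intro h
        have : v = 1 := Subtype.ext h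
        rw [this, orderOf_one] at hv
        omega
      have hv2 : (v : G) * v = 1 := by
        have := pow_orderOf_eq_one v
        rw [hv, pow_two] at this
        exact congrArg Subtype.val this
      have hvH := hNH v.2
      have e : z = v := involution_unique hZ hab ⟨k, hk⟩ hz1 hzz hv1 hv2 hzH.1 hzH.2 hvH.1 hvH.2
      rw [e]
      exact hNM _ v.2
    · obtain ⟨x, hx⟩ := hfix z hz1 hzz
      have hzab : z • a = b ∧ z • b = a := by
        rcases (hLmem z).1 hz with h | h
        · exact absurd ⟨h.1, h.2⟩ hzH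
        · exact h
      have hxa : x ≠ a := by
        rintro rfl
        exact hab (hx.symm.trans hzab.1)
      have hxb : x ≠ b := by
        rintro rfl
        exact hab (hzab.2.symm.trans hx)
      obtain ⟨h, hha, hhb, hhc⟩ := two_point_transitive hZ hab hd hca hcb hxa hxb
      have hhH : h ∈ H := ⟨hha, hhb⟩
      have hha' : h⁻¹ • a = a := by rw [inv_smul_eq_iff, hha]
      have hhb' : h⁻¹ • b = b := by rw [inv_smul_eq_iff, hhb]
      have hhx : h⁻¹ • x = c := by rw [inv_smul_eq_iff, hhc]
      have e1 : h⁻¹ * z * h * s = 1 := by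
        apply ZassenhausBasic.eq_one_of_fix hZ hab hcb.symm hca.symm
        · rw [mul_smul, mul_smul, mul_smul, hsa, hhb, hzab.2, hha']
        · rw [mul_smul, mul_smul, mul_smul, hsb, hha, hzab.1, hhb']
        · rw [mul_smul, mul_smul, mul_smul, hsc, hhc, hx, hhx]
      have e2 : z * s = h * (s * h⁻¹ * s) := by
        have e3 : z = h * (h⁻¹ * z * h * s) * s⁻¹ * h⁻¹ := by group
        rw [e1, hsinv] at e3
        rw [e3]; group
      have h12 : h * (s * h⁻¹ * s) ∈ N := by
        by_cases hhN : h ∈ N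
        · exact N.mul_mem hhN (hNs' _ (N.inv_mem hhN))
        · refine hmulN h hhH _ (hsHs _ (H.inv_mem hhH)) hhN ?_
          intro h13
          exact hhN ((Subgroup.inv_mem_iff N).1 (hNsiff _ h13))
      exact (hMmem z).2 (Or.inr (by rw [e2]; exact h12))
  -- commutators of elements of `L` lie in `M`
  have hcommM : ∀ x ∈ L, ∀ y ∈ L, x * y * x⁻¹ * y⁻¹ ∈ M := by
    intro x hx y hy
    have hMn : (M.subgroupOf L).Normal := by
      apply Subgroup.normal_of_index_eq_two
      rw [Subgroup.index_eq_two_iff]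
      obtain ⟨h, hh, hhN⟩ : ∃ h ∈ H, h ∉ N := by
        by_contra hcon
        push Not at hcon
        have : N = H := le_antisymm hNH hcon
        rw [this, Subgroup.relIndex_self] at hN2
        omega
      have hhM : h ∉ M := fun h' => hhN (hMH h hh h')
      refine ⟨⟨h, hHL hh⟩, ?_⟩
      rintro ⟨g, hg⟩
      rw [Subgroup.mem_subgroupOf, Subgroup.mem_subgroupOf]
      change Xor (g * h ∈ M) (g ∈ M)
      by_cases hgM : g ∈ M
      · right
        exact ⟨hgM, fun h' => hhM ((Subgroup.mul_mem_cancel_left M hgM).1 h')⟩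
      · left
        exact ⟨hcosetM g hg h (hHL hh) hgM hhM, hgM⟩
    by_cases hxM : x ∈ M
    · have h14 := hMn.conj_mem ⟨x⁻¹, L.inv_mem hx⟩ (Subgroup.mem_subgroupOf.2 (M.inv_mem hxM)) ⟨y, hy⟩
      have h15 : y * x⁻¹ * y⁻¹ ∈ M := Subgroup.mem_subgroupOf.1 h14
      have e : x * y * x⁻¹ * y⁻¹ = x * (y * x⁻¹ * y⁻¹) := by group
      rw [e]; exact M.mul_mem hxM h15
    · have hyx : y * x⁻¹ * y⁻¹ ∉ M := by
        intro h'
        apply hxM
        have h14 := hMn.conj_mem ⟨y * x⁻¹ * y⁻¹, L.mul_mem (L.mul_mem hy (L.inv_mem hx)) (L.inv_mem hy)⟩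
          (Subgroup.mem_subgroupOf.2 h') ⟨y⁻¹, L.inv_mem hy⟩
        have h15 : y⁻¹ * (y * x⁻¹ * y⁻¹) * y⁻¹⁻¹ ∈ M := Subgroup.mem_subgroupOf.1 h14
        have e : y⁻¹ * (y * x⁻¹ * y⁻¹) * y⁻¹⁻¹ = x⁻¹ := by group
        rw [e] at h15
        exact (Subgroup.inv_mem_iff M).1 h15
      have e : x * y * x⁻¹ * y⁻¹ = x * (y * x⁻¹ * y⁻¹) := by group
      rw [e]
      exact hcosetM x hx _ (L.mul_mem (L.mul_mem hy (L.inv_mem hx)) (L.inv_mem hy)) hxM hyx
  -- the focal subgroup of `L` lies in `M`
  have hfocal : L.focalSubgroup ≤ M := by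
    rw [Subgroup.focalSubgroup_def, Subgroup.closure_le]
    rintro g ⟨hgL, x, hx, u, rfl⟩
    rw [commutatorElement_def] at hgL ⊢
    change x * u * x⁻¹ * u⁻¹ ∈ M
    have hyL : u * x⁻¹ * u⁻¹ ∈ L := by
      have : u * x⁻¹ * u⁻¹ = x⁻¹ * (x * u * x⁻¹ * u⁻¹) := by group
      rw [this]; exact L.mul_mem (L.inv_mem hx) hgL
    by_cases hxx : x * x = 1
    · have h16 : u * x⁻¹ * u⁻¹ ∈ M := by
        apply hinvol _ hyL
        have e : u * x⁻¹ * u⁻¹ * (u * x⁻¹ * u⁻¹) = u * (x * x)⁻¹ * u⁻¹ := by group
        rw [e, hxx]; group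
      have e : x * u * x⁻¹ * u⁻¹ = x * (u * x⁻¹ * u⁻¹) := by group
      rw [e]
      exact M.mul_mem (hinvol x hx hxx) h16
    · have huL : u ∈ L := by
        rw [hLmem]
        refine Cfsg.Agent.CharactersDeep.Zassenhaus.pair_of_conj hZ hab (x := x⁻¹ * x⁻¹) ?_ ?_ ?_
        · intro h'
          apply hxx
          have : x * x = (x⁻¹ * x⁻¹)⁻¹ := by rw [mul_inv_rev, inv_inv]
          rw [this, h', inv_one]
        · exact hLsq _ (L.inv_mem hx)
        · have e : u * (x⁻¹ * x⁻¹) * u⁻¹ = (u * x⁻¹ * u⁻¹) * (u * x⁻¹ * u⁻¹) := by group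
          rw [e]
          exact hLsq _ hyL
      exact hcommM x hx u huL
  -- the index of `L` is odd
  have hLodd : Odd L.index := by
    have h17 : H.relIndex L = 2 := (Cfsg.Agent.S0879.result hZ hab).2
    have h18 : H.relIndex L * L.index = H.index := Subgroup.relIndex_mul_index hHL
    have h19 := Cfsg.Agent.CharactersDeep.ZassenhausCount.card_eq hZ hab
    have h20 : Nat.card H * H.index = Nat.card G := Subgroup.card_mul_index H
    have hHpos : 0 < Nat.card H := Nat.card_pos
    have h21 : H.index = Nat.card Ω * (Nat.card Ω - 1) := by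
      apply Nat.eq_of_mul_eq_mul_left hHpos
      rw [h20, h19]; ring
    obtain ⟨m, hm⟩ := hkeven
    have h22 : Nat.card Ω = 2 * (2 * m + 1) := by omega
    have h23 : 2 * L.index = 2 * ((2 * m + 1) * (2 * (2 * m + 1) - 1)) := by
      rw [← h17, h18, h21, h22, h17]; ring
    have h24 : L.index = (2 * m + 1) * (2 * (2 * m + 1) - 1) := by omega
    rw [h24]
    apply Odd.mul
    · exact ⟨m, rfl⟩
    · exact ⟨2 * m, by omega⟩
  -- conclusion
  rcases hsimple.eq_bot_or_eq_top_of_normal L.transferFocal.ker inferInstance with hker | hker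
  · have hinj : Function.Injective L.transferFocal := (MonoidHom.ker_eq_bot_iff _).1 hker
    have hcomm : ∀ x y : G, x * y = y * x := by
      intro x y
      apply hinj
      rw [map_mul, map_mul]
      exact mul_comm' _ _
    apply ht1
    apply FaithfulSMul.eq_of_smul_eq_smul (α := Ω)
    intro x
    rw [one_smul]
    by_cases hxa : x = a
    · rw [hxa, hta]
    · obtain ⟨g, hg, -⟩ := ZassenhausBasic.exists_smul_eq hZ (a := a) (b := x) (c := x) (d := a)
        (Ne.symm hxa) hxa
      rw [← hg, ← mul_smul, hcomm, mul_smul, hta]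
  · obtain ⟨h, hh, hhN⟩ : ∃ h ∈ H, h ∉ N := by
      by_contra hcon
      push Not at hcon
      have : N = H := le_antisymm hNH hcon
      rw [this, Subgroup.relIndex_self] at hN2
      omega
    have h25 : L.transferFocal h = 1 := by
      have : h ∈ L.transferFocal.ker := by rw [hker]; exact Subgroup.mem_top _
      exact this
    have h26 := Subgroup.transferFocal_eq_pow L ⟨h, hHL hh⟩
    change L.transferFocal h = _ at h26
    rw [h25, ← QuotientGroup.mk_pow] at h26
    have h27 := (QuotientGroup.eq_one_iff _).1 h26.symm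
    rw [Subgroup.focalSubgroupOf_def, Subgroup.mem_subgroupOf] at h27
    have h28 : h ^ L.index ∈ M := hfocal h27
    apply hhN
    apply hMH h hh
    obtain ⟨m, hm⟩ := hLodd
    rw [hm, pow_succ, pow_mul, pow_two] at h28
    have h29 : (h * h) ^ m ∈ M := by
      apply M.pow_mem
      exact hNM _ (hmulN h hh h hh hhN hhN)
    exact (Subgroup.mul_mem_cancel_left M h29).1 h28

end Cfsg.Agent.LieExceptional.SharpNotSimple
end

-- part: LieExceptional/SharpNotSimple2
section
/-!
# Sharply triply transitive groups of even degree are not simple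

Bridge from S0729 (permutation group form) to the abstract action form.
-/

set_option autoImplicit false

namespace Cfsg.Agent.LieExceptional.SharpNotSimple2

open MulAction Cfsg.Agent.PermutationGroups.ZassenhausEven
open Cfsg.Agent.PermutationGroups
open Cfsg.Agent.LieExceptional.SharpNotSimple

variable {G Ω : Type*} [Group G] [Finite G] [MulAction G Ω] [Finite Ω]

omit [Finite G] in
/-- three-fold transitivity, pointwise -/
theorem exists_smul_three (hZ : Cfsg.IsZassenhausGroup G Ω)
    (hd : ∀ a b : Ω, a ≠ b → Nat.card ↥(stabilizer G a ⊓ stabilizer G b) + 2 = Nat.card Ω)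
    {a b c a' b' c' : Ω} (hab : a ≠ b) (hac : a ≠ c) (hbc : b ≠ c) (hab' : a' ≠ b')
    (hac' : a' ≠ c') (hbc' : b' ≠ c') : ∃ g : G, g • a = a' ∧ g • b = b' ∧ g • c = c' := by
  obtain ⟨g, hga, hgb⟩ := ZassenhausBasic.exists_smul_eq hZ hab hab'
  have h1 : g • c ≠ a' := fun h => hac (MulAction.injective g (hga.trans h.symm))
  have h2 : g • c ≠ b' := fun h => hbc (MulAction.injective g (hgb.trans h.symm))
  obtain ⟨h, hha, hhb, hhc⟩ := two_point_transitive hZ hab' (hd a' b' hab') h1 h2 hac'.symm hbc'.symm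
  exact ⟨h * g, by rw [mul_smul, hga, hha], by rw [mul_smul, hgb, hhb], by rw [mul_smul, hhc]⟩

/-- all two-point stabilisers have the same order -/
theorem card_two_point_eq (hZ : Cfsg.IsZassenhausGroup G Ω) {a b a' b' : Ω} (hab : a ≠ b)
    (hab' : a' ≠ b') : Nat.card ↥(stabilizer G a ⊓ stabilizer G b) =
      Nat.card ↥(stabilizer G a' ⊓ stabilizer G b') := by
  have h1 := Cfsg.Agent.CharactersDeep.ZassenhausCount.card_eq hZ hab
  have h2 := Cfsg.Agent.CharactersDeep.ZassenhausCount.card_eq hZ hab'
  have h3 : 0 < Nat.card Ω * (Nat.card Ω - 1) := by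
    have : 0 < Nat.card G := Nat.card_pos
    rw [h1] at this
    exact Nat.pos_of_mul_pos_right this
  exact Nat.eq_of_mul_eq_mul_left h3 (h1.symm.trans h2)

/-- A simple Zassenhaus group with two-point stabiliser of even order is not sharply triply transitive. -/
theorem not_simple_of_card (hZ : Cfsg.IsZassenhausGroup G Ω) {a b : Ω} (hab : a ≠ b)
    (hd : Nat.card ↥(stabilizer G a ⊓ stabilizer G b) + 2 = Nat.card Ω)
    (heven : Even (Nat.card ↥(stabilizer G a ⊓ stabilizer G b))) : ¬ IsSimpleGroup G := by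
  classical
  have := Fintype.ofFinite Ω
  apply not_simple hZ hab hd heven
  intro c s hca hcb hsa hsb hsc
  have hd' : ∀ a' b' : Ω, a' ≠ b' →
      Nat.card ↥(stabilizer G a' ⊓ stabilizer G b') + 2 = Nat.card Ω := by
    intro a' b' hab'
    rw [← hd, card_two_point_eq hZ hab hab']
  by_cases h6 : 6 ≤ Fintype.card Ω
  swap
  · -- degree four
    have hcard2 : Nat.card ↥(stabilizer G a ⊓ stabilizer G b) = 2 := by
      rw [Nat.card_eq_fintype_card (α := Ω)] at hd
      have hne : Nat.card ↥(stabilizer G a ⊓ stabilizer G b) ≠ 1 := by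
        intro h
        rw [h] at heven
        exact absurd heven (by decide)
      have hpos : 0 < Nat.card ↥(stabilizer G a ⊓ stabilizer G b) := Nat.card_pos
      obtain ⟨k, hk⟩ := heven
      omega
    refine ⟨⊥, bot_le, ?_, ?_, ?_⟩
    · rw [Subgroup.bot_subgroupOf]; infer_instance
    · rw [Subgroup.relIndex_bot_left, hcard2]
    · intro n hn
      rw [Subgroup.mem_bot] at hn ⊢
      rw [hn]; group
  · have hfaith := hZ.1
    let φ : G →* Equiv.Perm Ω := MulAction.toPermHom G Ω
    have hφ : Function.Injective φ := MulAction.toPerm_injective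
    let P : Subgroup (Equiv.Perm Ω) := φ.range
    have hP : ∀ (p : P), ∃ g : G, φ g = p ∧ ∀ x : Ω, p • x = g • x := by
      rintro ⟨p, g, hg⟩
      refine ⟨g, hg, fun x => ?_⟩
      change p x = g • x
      rw [← hg]; rfl
    let e : G ≃* P := MonoidHom.ofInjective hφ
    have he : ∀ (g : G) (x : Ω), e g • x = g • x := fun g x => rfl
    have hevenΩ : Even (Fintype.card Ω) := by
      rw [Nat.card_eq_fintype_card (α := Ω)] at hd
      rw [← hd]
      exact heven.add (by decide)
    have h3 : MulAction.IsMultiplyPretransitive P Ω 3 := by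
      refine ⟨fun x y => ?_⟩
      have inj : ∀ (z : Fin 3 ↪ Ω) {i j : Fin 3}, i ≠ j → z i ≠ z j := fun z i j hij h =>
        hij (z.injective h)
      obtain ⟨g, h0, h1, h2⟩ := exists_smul_three hZ hd' (inj x (show (0 : Fin 3) ≠ 1 by decide))
        (inj x (show (0 : Fin 3) ≠ 2 by decide)) (inj x (show (1 : Fin 3) ≠ 2 by decide))
        (inj y (show (0 : Fin 3) ≠ 1 by decide)) (inj y (show (0 : Fin 3) ≠ 2 by decide))
        (inj y (show (1 : Fin 3) ≠ 2 by decide))
      refine ⟨e g, ?_⟩
      ext i
      change e g • x i = y i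
      rw [he]
      fin_cases i
      · exact h0
      · exact h1
      · exact h2
    have hsharp : ∀ x : Fin 3 ↪ Ω, MulAction.stabilizer P x = ⊥ := by
      intro x
      rw [eq_bot_iff]
      intro p hp
      rw [Subgroup.mem_bot]
      obtain ⟨g, hg, hgx⟩ := hP p
      have inj : ∀ {i j : Fin 3}, i ≠ j → x i ≠ x j := fun hij h => hij (x.injective h)
      have hfix : ∀ i, g • x i = x i := by
        intro i
        rw [← hgx]
        exact congrArg (fun y : Fin 3 ↪ Ω => y i) hp
      have hg1 : g = 1 := ZassenhausBasic.eq_one_of_fix hZ (inj (show (0 : Fin 3) ≠ 1 by decide))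
        (inj (show (1 : Fin 3) ≠ 2 by decide)) (inj (show (0 : Fin 3) ≠ 2 by decide))
        (hfix 0) (hfix 1) (hfix 2)
      apply Subtype.ext
      rw [← hg, hg1, map_one]; rfl
    obtain ⟨N, hN1, hN2, hN3, hN4⟩ := Cfsg.Agent.S0729.result hevenΩ h6 P h3 hsharp hab hca.symm
      hcb.symm (e s) (by rw [he]; exact hsa) (by rw [he]; exact hsb) (by rw [he]; exact hsc)
    have hstab : ∀ g : G, g ∈ stabilizer G a ⊓ stabilizer G b ↔
        e g ∈ stabilizer P a ⊓ stabilizer P b := fun g => Iff.rfl
    have hcomap : stabilizer G a ⊓ stabilizer G b =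
        (stabilizer P a ⊓ stabilizer P b).comap (e : G →* P) := by
      ext g; exact hstab g
    refine ⟨N.comap (e : G →* P), ?_, ?_, ?_, ?_⟩
    · rw [hcomap]; exact Subgroup.comap_mono hN1
    · constructor
      rintro ⟨n, hnH⟩ hn ⟨g, hgH⟩
      rw [Subgroup.mem_subgroupOf] at hn ⊢
      have h7 := hN2.conj_mem ⟨e n, hnH⟩ (Subgroup.mem_subgroupOf.2 hn) ⟨e g, hgH⟩
      have h8 := Subgroup.mem_subgroupOf.1 h7
      change e (g * n * g⁻¹) ∈ N
      rw [map_mul, map_mul, map_inv]
      exact h8
    · rw [hcomap, Subgroup.relIndex_comap]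
      have : ((stabilizer P a ⊓ stabilizer P b).comap (e : G →* P)).map (e : G →* P) =
          stabilizer P a ⊓ stabilizer P b :=
        Subgroup.map_comap_eq_self_of_surjective e.surjective _
      rw [this, hN3]
    · intro n hn
      have h9 := hN4 (e n) hn
      change e (s * n * s⁻¹) ∈ N
      rw [map_mul, map_mul, map_inv]
      exact h9

end Cfsg.Agent.LieExceptional.SharpNotSimple2
end

-- part: S0345
section
set_option autoImplicit false
open Cfsg

namespace Cfsg.Agent.S0345

open Cfsg.Agent.PermutationGroups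

/-- the order of a two-point stabiliser divides `|Ω| - 2` -/
theorem card_dvd {G Ω : Type*} [Group G] [Finite G] [MulAction G Ω] [Finite Ω]
    (hZ : Cfsg.IsZassenhausGroup G Ω) {a b : Ω} (hab : a ≠ b) :
    Nat.card ↥(MulAction.stabilizer G a ⊓ MulAction.stabilizer G b) ∣ Nat.card Ω - 2 := by
  classical
  have := Fintype.ofFinite Ω
  set S := MulAction.stabilizer G a with hS
  set E : Subgroup S := (MulAction.stabilizer G a ⊓ MulAction.stabilizer G b).subgroupOf S with hE
  have hEcompl : Cfsg.IsFrobeniusComplement E := ZassenhausBasic.isFrobeniusComplement hZ hab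
  have h1 := Cfsg.Agent.Solvable.FrobeniusKernel.index_modEq_one hEcompl
  have hcardE : Nat.card E = Nat.card ↥(MulAction.stabilizer G a ⊓ MulAction.stabilizer G b) :=
    Nat.card_congr (Subgroup.subgroupOfEquivOfLe inf_le_left).toEquiv
  have h2 : E.index = Nat.card Ω - 1 := by
    have hpre : MulAction.IsPretransitive G Ω := by
      have := hZ.2.1
      exact MulAction.isPretransitive_of_is_two_pretransitive
    have h3 := Cfsg.Agent.CharactersDeep.ZassenhausCount.card_eq hZ hab
    have h4 : Nat.card S * S.index = Nat.card G := Subgroup.card_mul_index S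
    have h5 : S.index = Nat.card Ω := by
      rw [hS, MulAction.index_stabilizer_of_transitive]
    have h6 : Nat.card E * E.index = Nat.card S := Subgroup.card_mul_index E
    have hpos : 0 < Nat.card Ω := Nat.card_pos_iff.2 ⟨⟨a⟩, inferInstance⟩
    have hposE : 0 < Nat.card E := Nat.card_pos
    rw [h5, ← h6, h3, ← hcardE] at h4
    have h7 : (Nat.card Ω * Nat.card E) * E.index = (Nat.card Ω * Nat.card E) * (Nat.card Ω - 1) := by
      rw [show (Nat.card Ω * Nat.card E) * E.index = Nat.card E * E.index * Nat.card Ω by ring, h4]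
      ring
    exact Nat.eq_of_mul_eq_mul_left (Nat.mul_pos hpos hposE) h7
  rw [← hcardE]
  rw [h2] at h1
  have hge : 1 ≤ Nat.card Ω - 1 := by
    obtain ⟨c, hca, hcb⟩ := ZassenhausBasic.exists_third hZ hab
    have h : 1 < Nat.card Ω := Finite.one_lt_card_iff_nontrivial.2 ⟨a, b, hab⟩
    omega
  have h8 := (Nat.modEq_iff_dvd' hge).1 h1.symm
  have h9 : Nat.card Ω - 1 - 1 = Nat.card Ω - 2 := by omega
  rwa [h9] at h8

/-- In a finite simple Zassenhaus group the stabiliser `H` of two points `a ≠ b` is cyclic, and some involution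
interchanging `a` and `b` inverts every element of `H`. -/
theorem result {G Ω : Type*} [Group G] [Finite G] [MulAction G Ω] [Finite Ω]
    (hZ : Cfsg.IsZassenhausGroup G Ω) [IsSimpleGroup G]
    {a b : Ω} (hab : a ≠ b) :
    IsCyclic ↥(MulAction.stabilizer G a ⊓ MulAction.stabilizer G b) ∧
      ∃ v : G, orderOf v = 2 ∧ v • a = b ∧ v • b = a ∧ ∀ h ∈ MulAction.stabilizer G a ⊓ MulAction.stabilizer G b, v * h * v⁻¹ = h⁻¹ := by
  classical
  have := Fintype.ofFinite Ω
  obtain ⟨v, hv, hva, hvb⟩ := (Cfsg.Agent.S0740.result hZ hab).1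
  obtain ⟨c, hca, hcb⟩ := ZassenhausBasic.exists_third hZ hab
  have h3 : 3 ≤ Nat.card Ω := by
    rw [Nat.card_eq_fintype_card]
    have h : 2 < Fintype.card Ω := by
      rw [Fintype.two_lt_card_iff]
      exact ⟨a, b, c, hab, hca.symm, hcb.symm⟩
    exact h
  rcases Nat.even_or_odd (Nat.card ↥(MulAction.stabilizer G a ⊓ MulAction.stabilizer G b)) with
    heven | hodd
  · -- even case
    have h2 := hZ.2.1
    have ht := ZassenhausEven.threeTrivial_of_zassenhaus hZ
    have hI : ZassenhausEven.TwoInv G Ω := ZassenhausEven.twoInv_of_even h2 hab heven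
    have hle := ZassenhausEven.card_sub_two_le h2 ht hI hab
    obtain ⟨m, hm⟩ := card_dvd hZ hab
    have hpos : 0 < Nat.card ↥(MulAction.stabilizer G a ⊓ MulAction.stabilizer G b) := Nat.card_pos
    have hm0 : m ≠ 0 := by
      rintro rfl
      rw [mul_zero] at hm
      omega
    have hm2 : m ≤ 2 := by
      rw [hm, mul_comm] at hle
      exact Nat.le_of_mul_le_mul_right hle hpos
    have hm1 : m ≠ 1 := by
      rintro rfl
      apply Cfsg.Agent.LieExceptional.SharpNotSimple2.not_simple_of_card hZ hab _ heven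
        (inferInstance : IsSimpleGroup G)
      omega
    have hm' : m = 2 := by omega
    rw [hm'] at hm
    have hd : 2 * Nat.card ↥(MulAction.stabilizer G a ⊓ MulAction.stabilizer G b) ≤ Nat.card Ω - 2 := by
      omega
    have hinv : ∀ h ∈ MulAction.stabilizer G a ⊓ MulAction.stabilizer G b, v * h * v⁻¹ = h⁻¹ :=
      fun h hh => ZassenhausEven.swap_conj h2 ht hI hab hd hva hvb hh
    refine ⟨?_, v, hv, hva, hvb, hinv⟩
    have hcomm : ∀ x y : ↥(MulAction.stabilizer G a ⊓ MulAction.stabilizer G b), x * y = y * x := by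
      rintro ⟨x, hx⟩ ⟨y, hy⟩
      apply Subtype.ext
      change x * y = y * x
      have e1 := hinv x hx
      have e2 := hinv y hy
      have e3 := hinv (x * y) (mul_mem hx hy)
      have e4 : v * (x * y) * v⁻¹ = (v * x * v⁻¹) * (v * y * v⁻¹) := by group
      rw [e4, e1, e2, ← mul_inv_rev, inv_inj] at e3
      exact e3.symm
    obtain ⟨F, hF1, hF2, hF3, hF4, hF5, hF6⟩ := ZassenhausEven.exists_kernel h2 ht hI hab
    have hHF : MulAction.stabilizer G a ⊓ MulAction.stabilizer G b ≤ Subgroup.normalizer (F : Set G) := by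
      have key : ∀ x ∈ MulAction.stabilizer G a, ∀ y ∈ F, x * y * x⁻¹ ∈ F := by
        intro x hx y hy
        have h4 := hF3.conj_mem ⟨y, hF2 hy⟩ (Subgroup.mem_subgroupOf.2 hy) ⟨x, hx⟩
        exact Subgroup.mem_subgroupOf.1 h4
      intro x hx
      rw [Subgroup.mem_normalizer_iff]
      intro y
      refine ⟨key x hx.1 y, fun h => ?_⟩
      have h5 := key x⁻¹ (inv_mem hx.1) _ h
      have e : x⁻¹ * (x * y * x⁻¹) * x⁻¹⁻¹ = y := by group
      rwa [e] at h5
    letI : CommGroup F :=
      { (inferInstance : Group F) with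
        mul_comm := fun x y => Subtype.ext (hF4 x x.2 y y.2) }
    have hnt : Nontrivial F := by
      apply Finite.one_lt_card_iff_nontrivial.1
      omega
    refine Cfsg.Agent.Solvable.FixedPointFree.isCyclic_of_comm' hcomm
      (Cfsg.Agent.Solvable.FixedPointFree.conjHom _ F hHF) ?_
    apply Cfsg.Agent.Solvable.FixedPointFree.conjHom_fpf
    intro x hx hx1
    rw [eq_bot_iff]
    rintro y ⟨hyF, hyx⟩
    rw [Subgroup.mem_bot]
    have hyx' : x * y = y * x := Subgroup.mem_centralizer_iff.1 hyx x rfl
    -- `y` commutes with `x`, hence fixes the second fixed point `b` of `x`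
    have hya : y • a = a := hF2 hyF
    have hyb : y • b = b := by
      have h6 : x • (y • b) = y • b := by
        rw [← mul_smul, hyx', mul_smul, show x • b = b from hx.2]
      rcases ZassenhausBasic.eq_or_eq_of_fix hZ hab hx1 hx.1 hx.2 h6 with h7 | h7
      · exact absurd (MulAction.injective y (h7.trans hya.symm)) hab.symm
      · exact h7
    have hyF' : y ∈ ZassenhausEven.kerSet G a := by rw [← hF1]; exact hyF
    exact hyF'.2 b hab.symm hyb
  · -- odd case
    have hcard := Cfsg.Agent.CharactersDeep.ZassenhausCount.card_eq hZ hab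
    have hres := Cfsg.Agent.S0739.result hZ hab hodd (by
      rintro q hq hqd ⟨N, hN, hNi⟩
      rcases IsSimpleGroup.eq_bot_or_eq_top_of_normal N hN with h | h
      · rw [h, Subgroup.index_bot] at hNi
        have hfac : ∀ p : ℕ, p.Prime → p ∣ Nat.card G → p = q := by
          intro p hp hpd
          rw [hNi] at hpd
          exact (Nat.prime_dvd_prime_iff_eq hp hq).1 (hp.dvd_of_dvd_pow hpd)
        obtain ⟨p, hp, hpd⟩ := Nat.exists_prime_and_dvd (show Nat.card Ω ≠ 1 by omega)
        obtain ⟨p', hp', hpd'⟩ := Nat.exists_prime_and_dvd (show Nat.card Ω - 1 ≠ 1 by omega)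
        have e1 := hfac p hp (by rw [hcard]; exact (hpd.mul_right _).mul_right _)
        have e2 := hfac p' hp' (by rw [hcard]; exact (hpd'.mul_left _).mul_right _)
        rw [e1] at hpd
        rw [e2] at hpd'
        have h4 : q ∣ Nat.card Ω - (Nat.card Ω - 1) := Nat.dvd_sub hpd hpd'
        have h5 : Nat.card Ω - (Nat.card Ω - 1) = 1 := by omega
        rw [h5] at h4
        exact hq.one_lt.ne' (Nat.dvd_one.1 h4)
      · rw [h, Subgroup.index_top] at hNi
        have h6 : (Nat.card G).factorization q = 0 := by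
          by_contra hne
          have : 1 < q ^ (Nat.card G).factorization q := Nat.one_lt_pow hne hq.one_lt
          omega
        have h7 : q ∣ Nat.card G := by rw [hcard]; exact hqd.mul_left _
        rw [Nat.factorization_eq_zero_iff] at h6
        have h8 : Nat.card G ≠ 0 := Nat.card_pos.ne'
        rcases h6 with h6 | h6 | h6
        · exact h6 hq
        · exact h6 h7
        · exact h8 h6)
    exact ⟨hres.1, v, hv, hva, hvb, fun h hh => hres.2.2 v hva hvb h hh⟩

end Cfsg.Agent.S0345
end
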