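import Cfsg.Statements.S0357
import Cfsg.Agent.SporadicA.SteinerInter
set_option linter.all false

set_option autoImplicit false
open Cfsg

namespace Cfsg.Agent.S0357

/-- In a Steiner system S(5, 6, 12), the complement of every block is again a block. -/
theorem result {α : Type*} [Fintype α] [DecidableEq α] (hα : Fintype.card α = 12) {B : Set (Finset α)} (hB : Cfsg.IsSteinerSystem 5 6 B) {b : Finset α} (hb : b ∈ B) : bᶜ ∈ B := by
  have hbcard : b.card = 6 := hB.1 b hb
  have hccard : bᶜ.card = 6 := by rw [Finset.card_compl, hα, hbcard]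
  obtain ⟨s, hs, hscard⟩ := Finset.exists_subset_card_eq (show 5 ≤ bᶜ.card by omega)
  obtain ⟨c, ⟨hc, hsc⟩, -⟩ := hB.2 s hscard
  have hck := hB.1 c hc
  have h1 : (b ∩ c).card ≠ 1 := by
    refine Agent.SporadicA.SteinerInter.inter_ne_of_sum_eq_zero hB (by norm_num)
      (fun i => if i = 0 then 132 else if i = 1 then 66 else if i = 2 then 30
        else if i = 3 then 12 else if i = 4 then 4 else 1) ?_ ?_ 1 ?_ hc hb
    · intro j hj
      rw [hα]
      interval_cases j <;> decide
    · intro j hj1 hj2
      interval_cases j <;> rfl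
    · decide
  have hdisj : Disjoint (b ∩ c) s := by
    rw [Finset.disjoint_left]
    intro x hx hxs
    exact Finset.mem_compl.1 (hs hxs) (Finset.mem_inter.1 hx).1
  have hle : (b ∩ c).card + s.card ≤ c.card := by
    rw [← Finset.card_union_of_disjoint hdisj]
    exact Finset.card_le_card (Finset.union_subset Finset.inter_subset_right hsc)
  have h0 : (b ∩ c).card = 0 := by omega
  rw [Finset.card_eq_zero] at h0
  have hsub : c ⊆ bᶜ := by
    intro x hx
    rw [Finset.mem_compl]
    intro hxb
    have : x ∈ b ∩ c := Finset.mem_inter.2 ⟨hxb, hx⟩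
    rw [h0] at this
    exact Finset.notMem_empty x this
  have heq : c = bᶜ := Finset.eq_of_subset_of_card_le hsub (by omega)
  rw [← heq]
  exact hc

end Cfsg.Agent.S0357
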