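import Cfsg.Statements.S0375
import Cfsg.Agent.SporadicA.CodeUnique
import Cfsg.Agent.S0358
import Cfsg.Agent.S0359
import Cfsg.Agent.S0362
set_option linter.all false

set_option autoImplicit false
open Cfsg

namespace Cfsg.Agent.S0375

/-- A doubly even self-dual binary code of length 24 with no words of weight 4 is equivalent to the length-24 code built from the squares modulo 23. -/
theorem result (C : Submodule (ZMod 2) (Fin 24 → ZMod 2)) (hdim : Module.finrank (ZMod 2) C = 12) (horth : ∀ v ∈ C, ∀ w ∈ C, ∑ i, v i * w i = 0) (h4 : ∀ w ∈ C, 4 ∣ hammingNorm w) (hno4 : ∀ w ∈ C, hammingNorm w ≠ 4) : ∃ e : Fin 24 ≃ Cfsg.GolayPt, ∀ w : Cfsg.GolayPt → ZMod 2, w ∈ Cfsg.golayCode ↔ (fun i => w (e i)) ∈ C := by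
  refine SporadicA.CodeUnique.exists_equiv_of_codes (by simp) (by simp [Fintype.card_option, ZMod.card])
    C Cfsg.golayCode hdim horth h4 hno4 Cfsg.Agent.S0358.result
    (fun v hv w hw => Cfsg.Agent.S0362.result v w hv hw) ?_ ?_
  · intro w hw
    rcases Cfsg.Agent.S0359.result w hw with h | h | h | h | h <;> rw [h] <;> decide
  · intro w hw
    rcases Cfsg.Agent.S0359.result w hw with h | h | h | h | h <;> rw [h] <;> decide

end Cfsg.Agent.S0375
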