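import Mathlib
import Cfsg.Agent.SporadicA.LeechSet
import Cfsg.Statements.S0406
import Cfsg.Agent.S0375
set_option linter.all false

-- part: SporadicA/LeechCoord
section
/-!
Lattices in frame coordinates: the code of even vectors, and the count of the minimal vectors
(Conway's characterisation of the Leech lattice, first half).
-/

set_option autoImplicit false

namespace Cfsg.Agent.SporadicA.LeechCoord

/-- A lattice in coordinates with respect to a frame of 24 orthogonal vectors of norm 8 that are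
congruent modulo 2 (coordinates scaled so that the frame vectors are `8 e_i`), with the norms
divisible by 16 and no vectors of norm 16. -/
structure Coord (Λ : AddSubgroup (Fin 24 → ℤ)) : Prop where
  par : ∀ y ∈ Λ, ∀ i j, (2 : ℤ) ∣ y i - y j
  add4 : ∀ i j, i ≠ j → (Pi.single i 4 + Pi.single j 4 : Fin 24 → ℤ) ∈ Λ
  sub4 : ∀ i j, (Pi.single i 4 - Pi.single j 4 : Fin 24 → ℤ) ∈ Λ
  dot : ∀ y ∈ Λ, ∀ y' ∈ Λ, (8 : ℤ) ∣ ∑ i, y i * y' i
  sq : ∀ y ∈ Λ, (16 : ℤ) ∣ ∑ i, y i ^ 2
  min : ∀ y ∈ Λ, y ≠ 0 → 32 ≤ ∑ i, y i ^ 2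

variable {Λ : AddSubgroup (Fin 24 → ℤ)}

theorem four_mem (h : Coord Λ) (a : Fin 24 → ℤ) (ha : (2 : ℤ) ∣ ∑ i, a i) :
    (fun i => 4 * a i) ∈ Λ := by
  obtain ⟨k, hk⟩ := ha
  have h8 : (Pi.single 0 8 : Fin 24 → ℤ) ∈ Λ := by
    have := Λ.add_mem (h.add4 0 1 (by decide)) (h.sub4 0 1)
    have e : (Pi.single 0 4 + Pi.single 1 4 : Fin 24 → ℤ) + (Pi.single 0 4 - Pi.single 1 4) =
        Pi.single 0 8 := by
      funext j
      simp only [Pi.add_apply, Pi.sub_apply, Pi.single_apply]
      split_ifs <;> norm_num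
    rwa [e] at this
  have e : (fun i => 4 * a i) = ∑ i, a i • (Pi.single i 4 - Pi.single 0 4 : Fin 24 → ℤ) +
      k • (Pi.single 0 8 : Fin 24 → ℤ) := by
    funext j
    simp only [Pi.add_apply, Finset.sum_apply, Pi.smul_apply, Pi.sub_apply, smul_eq_mul, mul_sub,
      Finset.sum_sub_distrib, ← Finset.sum_mul, hk]
    have h1 : ∑ x, a x * (Pi.single x (4 : ℤ) : Fin 24 → ℤ) j = 4 * a j := by
      rw [Finset.sum_eq_single j]
      · simp [mul_comm]
      · intro b _ hb
        rw [Pi.single_eq_of_ne (Ne.symm hb), mul_zero]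
      · intro hj
        exact absurd (Finset.mem_univ j) hj
    rw [h1]
    simp only [Pi.single_apply]
    split_ifs <;> ring
  rw [e]
  exact Λ.add_mem (Λ.sum_mem fun i _ => Λ.zsmul_mem (h.sub4 i 0) _) (Λ.zsmul_mem h8 _)

theorem single_not_mem (h : Coord Λ) (i : Fin 24) : (Pi.single i 4 : Fin 24 → ℤ) ∉ Λ := by
  intro hi
  have h1 := h.min _ hi (by
    intro h0
    have := congrFun h0 i
    simp at this)
  have h2 : ∑ j, (Pi.single i 4 : Fin 24 → ℤ) j ^ 2 = 16 := by
    rw [Finset.sum_eq_single i]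
    · simp
    · intro b _ hb
      rw [Pi.single_eq_of_ne hb]
      norm_num
    · intro hj
      exact absurd (Finset.mem_univ i) hj
  omega

theorem even_of_four_mem (h : Coord Λ) (a : Fin 24 → ℤ) (ha : (fun i => 4 * a i) ∈ Λ) :
    (2 : ℤ) ∣ ∑ i, a i := by
  by_contra hodd
  have h1 : (2 : ℤ) ∣ ∑ i, (a - Pi.single 0 1 : Fin 24 → ℤ) i := by
    simp only [Pi.sub_apply, Finset.sum_sub_distrib]
    rw [Finset.sum_pi_single']
    simp
    omega
  have h2 := Λ.sub_mem ha (four_mem h _ h1)
  apply single_not_mem h 0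
  convert h2 using 1
  funext j
  simp only [Pi.sub_apply, Pi.single_apply]
  split_ifs <;> ring

theorem mem_of_congr (h : Coord Λ) {y y' : Fin 24 → ℤ} (hy : y ∈ Λ) (a : Fin 24 → ℤ)
    (ha : (2 : ℤ) ∣ ∑ i, a i) (e : ∀ i, y' i = y i + 4 * a i) : y' ∈ Λ := by
  have : y' = y + (fun i => 4 * a i) := by
    funext i
    rw [Pi.add_apply, e i]
  rw [this]
  exact Λ.add_mem hy (four_mem h a ha)

/-- The code of the halves of the even vectors modulo 2. -/
def code (Λ : AddSubgroup (Fin 24 → ℤ)) : Submodule (ZMod 2) (Fin 24 → ZMod 2) where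
  carrier := {w | ∃ z : Fin 24 → ℤ, (fun i => 2 * z i) ∈ Λ ∧ ∀ i, w i = (z i : ZMod 2)}
  add_mem' := by
    rintro v w ⟨z, hz, hv⟩ ⟨t, ht, hw⟩
    refine ⟨z + t, ?_, fun i => ?_⟩
    · convert Λ.add_mem hz ht using 1
      funext i
      simp only [Pi.add_apply]
      ring
    · simp only [Pi.add_apply, hv i, hw i]
      push_cast
      rfl
  zero_mem' := by
    refine ⟨0, ?_, fun i => by simp⟩
    convert Λ.zero_mem using 1
    funext i
    simp
  smul_mem' := by
    rintro c v ⟨z, hz, hv⟩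
    have hc : c = 0 ∨ c = 1 := by
      revert c
      decide
    rcases hc with rfl | rfl
    · refine ⟨0, ?_, fun i => by simp⟩
      convert Λ.zero_mem using 1
      funext i
      simp
    · refine ⟨z, hz, fun i => by simp [hv i]⟩

theorem mem_code_iff (w : Fin 24 → ZMod 2) : w ∈ code Λ ↔
    ∃ z : Fin 24 → ℤ, (fun i => 2 * z i) ∈ Λ ∧ ∀ i, w i = (z i : ZMod 2) := Iff.rfl

theorem cast_eq_zero_iff (z : ℤ) : ((z : ℤ) : ZMod 2) = 0 ↔ (2 : ℤ) ∣ z := by
  have := ZMod.intCast_zmod_eq_zero_iff_dvd z 2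
  simpa using this

/-- Normal form of a word of the code as a vector with coordinates `0, ±2`. -/
theorem exists_rep (h : Coord Λ) {w : Fin 24 → ZMod 2} (hw : w ∈ code Λ) (h0 : w ≠ 0) :
    ∃ y ∈ Λ, ∀ i, y i ^ 2 = if w i = 0 then 0 else 4 := by
  obtain ⟨z, hz, hwz⟩ := hw
  have hi0 : ∃ i0, w i0 ≠ 0 := by
    by_contra hcon
    push Not at hcon
    exact h0 (funext hcon)
  obtain ⟨i0, hi0⟩ := hi0
  -- z i = r i + 2 a i
  let a : Fin 24 → ℤ := fun i => z i / 2
  have hza : ∀ i, z i = z i % 2 + 2 * a i := fun i => by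
    simp only [a]
    omega
  have hr : ∀ i, (z i % 2 = 0 ∧ w i = 0) ∨ (z i % 2 = 1 ∧ w i ≠ 0) := by
    intro i
    rw [hwz i, Ne, cast_eq_zero_iff]
    omega
  by_cases hpar : (2 : ℤ) ∣ ∑ i, a i
  · refine ⟨fun i => 2 * (z i % 2), mem_of_congr h hz (fun i => - a i) ?_ ?_, ?_⟩
    · rw [Finset.sum_neg_distrib]
      exact (dvd_neg).2 hpar
    · intro i
      have := hza i
      linarith
    · intro i
      rcases hr i with ⟨h1, h2⟩ | ⟨h1, h2⟩
      · simp [h1, h2]
      · simp [h1, h2]
  · refine ⟨fun i => 2 * (z i % 2) - (Pi.single i0 4 : Fin 24 → ℤ) i,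
      mem_of_congr h hz (fun i => - a i - (Pi.single i0 1 : Fin 24 → ℤ) i) ?_ ?_, ?_⟩
    · rw [Finset.sum_sub_distrib, Finset.sum_neg_distrib, Finset.sum_pi_single',
        if_pos (Finset.mem_univ i0)]
      omega
    · intro i
      have := hza i
      by_cases hi : i = i0
      · subst hi
        simp only [Pi.single_eq_same]
        linarith
      · simp only [Pi.single_eq_of_ne hi]
        linarith
    · intro i
      by_cases hi : i = i0
      · subst hi
        simp only [Pi.single_eq_same, if_neg hi0]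
        rcases hr i with ⟨h1, h2⟩ | ⟨h1, h2⟩
        · exact absurd h2 hi0
        · rw [h1]; norm_num
      · simp only [Pi.single_eq_of_ne hi]
        rcases hr i with ⟨h1, h2⟩ | ⟨h1, h2⟩
        · simp [h1, h2]
        · simp [h1, h2]

theorem hammingNorm_eq (w : Fin 24 → ZMod 2) :
    ∑ i, (if w i = 0 then (0 : ℤ) else 4) = 4 * (hammingNorm w : ℤ) := by
  rw [Finset.sum_ite, Finset.sum_const_zero, zero_add, Finset.sum_const, hammingNorm]
  simp [mul_comm]

theorem four_dvd (h : Coord Λ) {w : Fin 24 → ZMod 2} (hw : w ∈ code Λ) : 4 ∣ hammingNorm w := by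
  by_cases h0 : w = 0
  · subst h0
    simp
  · obtain ⟨y, hy, hyw⟩ := exists_rep h hw h0
    have h1 := h.sq y hy
    simp only [hyw, hammingNorm_eq] at h1
    omega

theorem eight_le (h : Coord Λ) {w : Fin 24 → ZMod 2} (hw : w ∈ code Λ) (h0 : w ≠ 0) :
    8 ≤ hammingNorm w := by
  obtain ⟨y, hy, hyw⟩ := exists_rep h hw h0
  have hy0 : y ≠ 0 := by
    rintro rfl
    apply h0
    funext i
    by_contra hi
    have h2 := hyw i
    rw [Pi.zero_apply] at hi
    rw [if_neg hi] at h2
    simp at h2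
  have h1 := h.min y hy hy0
  simp only [hyw, hammingNorm_eq] at h1
  omega

theorem orth (h : Coord Λ) {v w : Fin 24 → ZMod 2} (hv : v ∈ code Λ) (hw : w ∈ code Λ) :
    ∑ i, v i * w i = 0 := by
  obtain ⟨z, hz, hvz⟩ := hv
  obtain ⟨t, ht, hwt⟩ := hw
  have h1 := h.dot _ hz _ ht
  have h2 : ∑ i, (2 * z i) * (2 * t i) = 4 * ∑ i, z i * t i := by
    rw [Finset.mul_sum]
    apply Finset.sum_congr rfl
    intro i _
    ring
  rw [h2] at h1
  have h3 : (2 : ℤ) ∣ ∑ i, z i * t i := by omega
  have h4 : ∑ i, v i * w i = ((∑ i, z i * t i : ℤ) : ZMod 2) := by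
    push_cast
    apply Finset.sum_congr rfl
    intro i _
    rw [hvz, hwt]
  rw [h4, cast_eq_zero_iff]
  exact h3

end Cfsg.Agent.SporadicA.LeechCoord
end

-- part: SporadicA/LeechCoordCode
section
/-!
Binary codes of length 24: self-orthogonal codes have dimension at most 12, codes of minimal
weight 8 have at most 759 words of weight 8.
-/

set_option autoImplicit false
set_option linter.constructorNameAsVariable false

namespace Cfsg.Agent.SporadicA.LeechCoordCode

/-- A self-orthogonal code of length 24 has dimension at most 12. -/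
theorem finrank_le (C : Submodule (ZMod 2) (Fin 24 → ZMod 2))
    (horth : ∀ v ∈ C, ∀ w ∈ C, ∑ i, v i * w i = 0) : Module.finrank (ZMod 2) C ≤ 12 := by
  have h1 := Subspace.finrank_add_finrank_dualAnnihilator_eq C
  have h2 : C.map (dotProductEquiv (ZMod 2) (Fin 24)).toLinearMap ≤ C.dualAnnihilator := by
    rintro _ ⟨v, hv, rfl⟩
    rw [Submodule.mem_dualAnnihilator]
    intro w hw
    exact horth v hv w hw
  have h3 := Submodule.finrank_mono h2
  rw [LinearEquiv.finrank_map_eq] at h3
  simp only [Module.finrank_fintype_fun_eq_card, Fintype.card_fin] at h1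
  omega

/-- The characteristic word of a set. -/
def ind (s : Finset (Fin 24)) : Fin 24 → ZMod 2 := fun i => if i ∈ s then 1 else 0

theorem ind_apply_eq_zero {s : Finset (Fin 24)} {i : Fin 24} : ind s i = 0 ↔ i ∉ s := by
  unfold ind
  by_cases h : i ∈ s
  · simp [h]
  · simp [h]

theorem hammingNorm_ind (s : Finset (Fin 24)) : hammingNorm (ind s) = s.card := by
  unfold hammingNorm
  congr 1
  ext i
  simp only [Finset.mem_filter, Finset.mem_univ, true_and, ne_eq, ind_apply_eq_zero, not_not]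

theorem ind_symmDiff (s t : Finset (Fin 24)) : ind (symmDiff s t) = ind s + ind t := by
  funext i
  unfold ind
  rw [Pi.add_apply]
  by_cases h1 : i ∈ s <;> by_cases h2 : i ∈ t <;> simp [Finset.mem_symmDiff, h1, h2]
  decide

theorem card_symmDiff_add (s t : Finset (Fin 24)) :
    (symmDiff s t).card + 2 * (s ∩ t).card = s.card + t.card := by
  have h1 : (symmDiff s t).card = (s \ t).card + (t \ s).card := by
    rw [← Finset.card_union_of_disjoint]
    · rfl
    · exact disjoint_sdiff_sdiff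
  have h2 := Finset.card_sdiff_add_card_inter s t
  have h3 := Finset.card_sdiff_add_card_inter t s
  rw [Finset.inter_comm t s] at h3
  omega

open Classical in
/-- The supports of the words of weight 8. -/
noncomputable def octs (C : Submodule (ZMod 2) (Fin 24 → ZMod 2)) : Finset (Finset (Fin 24)) :=
  (Finset.powersetCard 8 Finset.univ).filter fun s => ind s ∈ C

theorem mem_octs {C : Submodule (ZMod 2) (Fin 24 → ZMod 2)} {s : Finset (Fin 24)} :
    s ∈ octs C ↔ s.card = 8 ∧ ind s ∈ C := by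
  classical
  unfold octs
  rw [Finset.mem_filter, Finset.mem_powersetCard]
  simp

theorem card_octs_le (C : Submodule (ZMod 2) (Fin 24 → ZMod 2))
    (h8 : ∀ w ∈ C, w ≠ 0 → 8 ≤ hammingNorm w) : (octs C).card ≤ 759 := by
  have hdisj : ∀ s ∈ octs C, ∀ t ∈ octs C, s ≠ t →
      Disjoint (s.powersetCard 5) (t.powersetCard 5) := by
    intro s hs t ht hst
    rw [Finset.disjoint_left]
    intro u hu hv
    rw [Finset.mem_powersetCard] at hu hv
    rw [mem_octs] at hs ht
    have hsub : u ⊆ s ∩ t := Finset.subset_inter hu.1 hv.1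
    have h5 := Finset.card_le_card hsub
    have hne : ind (symmDiff s t) ≠ 0 := by
      intro h0
      apply hst
      have : symmDiff s t = ∅ := by
        rw [Finset.eq_empty_iff_forall_notMem]
        intro i
        rw [← ind_apply_eq_zero, h0]
        rfl
      rwa [← Finset.bot_eq_empty, symmDiff_eq_bot] at this
    have hw := h8 (ind (symmDiff s t)) (by
      rw [ind_symmDiff]
      exact C.add_mem hs.2 ht.2) hne
    rw [hammingNorm_ind] at hw
    have := card_symmDiff_add s t
    omega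
  have h1 := Finset.card_biUnion hdisj
  have h2 : (octs C).biUnion (fun s => s.powersetCard 5) ⊆
      (Finset.univ : Finset (Fin 24)).powersetCard 5 := by
    intro u hu
    rw [Finset.mem_biUnion] at hu
    obtain ⟨s, _, hu⟩ := hu
    rw [Finset.mem_powersetCard] at hu ⊢
    exact ⟨Finset.subset_univ _, hu.2⟩
  have h3 := Finset.card_le_card h2
  rw [h1] at h3
  have h4 : ∑ s ∈ octs C, (s.powersetCard 5).card = (octs C).card * 56 := by
    rw [Finset.sum_const_nat]
    intro s hs
    rw [mem_octs] at hs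
    rw [Finset.card_powersetCard, hs.1]
    rfl
  rw [h4, Finset.card_powersetCard, Finset.card_univ, Fintype.card_fin] at h3
  have h6 : Nat.choose 24 5 = 42504 := by norm_num [Nat.choose]
  rw [h6] at h3
  omega

end Cfsg.Agent.SporadicA.LeechCoordCode
end

-- part: SporadicA/LeechCoordCount
section
/-!
Counting the minimal vectors of a lattice in frame coordinates: there are at most
`1104 + 128 * A_8 + 24 * |C|` of them. If there are 196560, the code has dimension 12 and there is a
vector with all coordinates odd.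
-/

set_option autoImplicit false
set_option linter.constructorNameAsVariable false

namespace Cfsg.Agent.SporadicA.LeechCoordCount

open Cfsg.Agent.SporadicA.LeechCoord Cfsg.Agent.SporadicA.LeechCoordCode

variable {Λ : AddSubgroup (Fin 24 → ℤ)}

theorem sq_le {y : Fin 24 → ℤ} {n : ℤ} (h : ∑ i, y i ^ 2 = n) (i : Fin 24) : y i ^ 2 ≤ n := by
  rw [← h]
  exact Finset.single_le_sum (f := fun i => y i ^ 2) (fun j _ => sq_nonneg (y j)) (Finset.mem_univ i)

theorem sq_eq_one {a : ℤ} (h : a ^ 2 = 1) : a = 1 ∨ a = -1 := by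
  have h1 : (a - 1) * (a + 1) = 0 := by
    ring_nf
    omega
  rcases mul_eq_zero.1 h1 with h2 | h2 <;> omega

/-- The support. -/
def supp (y : Fin 24 → ℤ) : Finset (Fin 24) := Finset.univ.filter fun i => y i ≠ 0

/-- The negative positions. -/
def negs (y : Fin 24 → ℤ) : Finset (Fin 24) := Finset.univ.filter fun i => y i < 0

theorem mem_supp {y : Fin 24 → ℤ} {i : Fin 24} : i ∈ supp y ↔ y i ≠ 0 := by
  simp [supp]

theorem mem_negs {y : Fin 24 → ℤ} {i : Fin 24} : i ∈ negs y ↔ y i < 0 := by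
  simp [negs]

theorem card_supp {y : Fin 24 → ℤ} {c n : ℤ} (hc : ∀ i, y i = 0 ∨ y i ^ 2 = c)
    (h : ∑ i, y i ^ 2 = n) : c * (supp y).card = n := by
  rw [← h]
  have h1 : ∀ i, y i ^ 2 = if i ∈ supp y then c else 0 := by
    intro i
    rcases hc i with h0 | h0
    · rw [if_neg (by rw [mem_supp]; simpa using h0), h0]
      norm_num
    · by_cases h2 : y i = 0
      · rw [if_neg (by rw [mem_supp]; simpa using h2), h2]
        norm_num
      · rw [if_pos (by rw [mem_supp]; exact h2), h0]
  rw [Finset.sum_congr rfl (fun i _ => h1 i), ← Finset.sum_filter, Finset.sum_const]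
  simp [mul_comm]

/-- The vectors with all coordinates divisible by 4. -/
theorem card_zero (S : Finset (Fin 24 → ℤ)) (hS : ∀ y ∈ S, ∑ i, y i ^ 2 = 32)
    (h4 : ∀ y ∈ S, ∀ i, (4 : ℤ) ∣ y i) : S.card ≤ 1104 := by
  classical
  have hval : ∀ y ∈ S, ∀ i, y i = 0 ∨ y i = 4 ∨ y i = -4 := by
    intro y hy i
    obtain ⟨a, ha⟩ := h4 y hy i
    have h1 := sq_le (hS y hy) i
    rw [ha] at h1 ⊢
    have h2 : a ≤ 1 := by nlinarith
    have h3 : -1 ≤ a := by nlinarith
    omega
  have hsupp : ∀ y ∈ S, (supp y).card = 2 := by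
    intro y hy
    have := card_supp (c := 16) (fun i => by
      rcases hval y hy i with h | h | h
      · exact Or.inl h
      · right; rw [h]; norm_num
      · right; rw [h]; norm_num) (hS y hy)
    omega
  let T : Finset (Σ _ : Finset (Fin 24), Finset (Fin 24)) :=
    (Finset.powersetCard 2 (Finset.univ : Finset (Fin 24))).sigma fun s => s.powerset
  have hT : T.card = 1104 := by
    rw [Finset.card_sigma, Finset.sum_const_nat (m := 4)]
    · rw [Finset.card_powersetCard, Finset.card_univ, Fintype.card_fin]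
      rfl
    · intro s hs
      rw [Finset.mem_powersetCard] at hs
      rw [Finset.card_powerset, hs.2]
      rfl
  rw [← hT]
  apply Finset.card_le_card_of_injOn (fun y => ⟨supp y, negs y⟩)
  · intro y hy
    have hy : y ∈ S := hy
    simp only [T, Finset.coe_sigma, Set.mem_sigma_iff, Finset.mem_coe, Finset.mem_powersetCard,
      Finset.mem_powerset]
    refine ⟨⟨Finset.subset_univ _, hsupp y hy⟩, ?_⟩
    intro i hi
    rw [mem_negs] at hi
    rw [mem_supp]
    omega
  · intro y hy y' hy' he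
    have hy : y ∈ S := hy
    have hy' : y' ∈ S := hy'
    simp only [Sigma.mk.injEq, heq_eq_eq] at he
    funext i
    have h1 : i ∈ supp y ↔ i ∈ supp y' := by rw [he.1]
    have h2 : i ∈ negs y ↔ i ∈ negs y' := by rw [he.2]
    rw [mem_supp, mem_supp] at h1
    rw [mem_negs, mem_negs] at h2
    rcases hval y hy i with h | h | h <;> rcases hval y' hy' i with h' | h' | h' <;> omega

open Classical in
/-- A chosen element. -/
noncomputable def pick (s : Finset (Fin 24)) : Fin 24 := if h : s.Nonempty then h.choose else 0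

theorem pick_mem {s : Finset (Fin 24)} (h : s.Nonempty) : pick s ∈ s := by
  unfold pick
  rw [dif_pos h]
  exact h.choose_spec

/-- The even vectors with some coordinate not divisible by 4. -/
theorem card_one (h : Coord Λ) (S : Finset (Fin 24 → ℤ)) (hS : ∀ y ∈ S, ∑ i, y i ^ 2 = 32)
    (hΛ : ∀ y ∈ S, y ∈ Λ) (h2 : ∀ y ∈ S, ∀ i, (2 : ℤ) ∣ y i)
    (h4 : ∀ y ∈ S, ¬ ∀ i, (4 : ℤ) ∣ y i) : S.card ≤ 128 * (octs (code Λ)).card := by
  classical
  -- structure of the vectors
  have hstr : ∀ y ∈ S, supp y ∈ octs (code Λ) ∧ ∀ i, y i = 0 ∨ y i = 2 ∨ y i = -2 := by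
    intro y hy
    choose z hz using h2 y hy
    have hy2 : y = fun i => 2 * z i := funext hz
    have hw : (fun i => ((z i : ℤ) : ZMod 2)) ∈ code Λ := ⟨z, by rw [← hy2]; exact hΛ y hy,
      fun i => rfl⟩
    have hw0 : (fun i => ((z i : ℤ) : ZMod 2)) ≠ 0 := by
      intro h0
      apply h4 y hy
      intro i
      have := congrFun h0 i
      simp only [Pi.zero_apply] at this
      rw [cast_eq_zero_iff] at this
      rw [hz i]
      omega
    have hge := eight_le h hw hw0
    have hsum : ∑ i, z i ^ 2 = 8 := by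
      have h1 := hS y hy
      have h2 : ∑ i, y i ^ 2 = 4 * ∑ i, z i ^ 2 := by
        rw [Finset.mul_sum]
        apply Finset.sum_congr rfl
        intro i _
        rw [hz i]
        ring
      omega
    let O : Finset (Fin 24) := Finset.univ.filter fun i => ((z i : ℤ) : ZMod 2) ≠ 0
    have hO : hammingNorm (fun i => ((z i : ℤ) : ZMod 2)) = O.card := rfl
    have hle : ∀ i ∈ Finset.univ, (if i ∈ O then (1 : ℤ) else 0) ≤ z i ^ 2 := by
      intro i _
      by_cases hi : i ∈ O
      · rw [if_pos hi]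
        have : z i ≠ 0 := by
          rintro h0
          simp [O, h0] at hi
        have := sq_pos_of_ne_zero this
        omega
      · rw [if_neg hi]
        exact sq_nonneg _
    have hsumO : ∑ i, (if i ∈ O then (1 : ℤ) else 0) = O.card := by
      rw [← Finset.sum_filter, Finset.sum_const]
      simp
    have hsle := Finset.sum_le_sum hle
    have hcard : O.card = 8 := by
      rw [hsumO, hsum] at hsle
      omega
    have heq : ∑ i, (if i ∈ O then (1 : ℤ) else 0) = ∑ i, z i ^ 2 := by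
      rw [hsumO, hsum, hcard]
      rfl
    have hpt := (Finset.sum_eq_sum_iff_of_le hle).1 heq
    have hval : ∀ i, (i ∈ O ∧ (z i = 1 ∨ z i = -1)) ∨ (i ∉ O ∧ z i = 0) := by
      intro i
      have h1 := hpt i (Finset.mem_univ i)
      by_cases hi : i ∈ O
      · left
        rw [if_pos hi] at h1
        exact ⟨hi, sq_eq_one h1.symm⟩
      · right
        rw [if_neg hi] at h1
        exact ⟨hi, by
          have := h1.symm
          exact pow_eq_zero_iff (two_ne_zero) |>.1 this⟩
    have hsuppO : supp y = O := by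
      ext i
      rw [mem_supp, hz i]
      rcases hval i with ⟨h1, h2 | h2⟩ | ⟨h1, h2⟩ <;> simp [h1, h2]
    refine ⟨?_, ?_⟩
    · rw [hsuppO, mem_octs]
      refine ⟨hcard, ?_⟩
      have : ind O = fun i => ((z i : ℤ) : ZMod 2) := by
        funext i
        unfold ind
        rcases hval i with ⟨h1, h2 | h2⟩ | ⟨h1, h2⟩ <;> simp [h1, h2]
      rw [this]
      exact hw
    · intro i
      rw [hz i]
      rcases hval i with ⟨h1, h2 | h2⟩ | ⟨h1, h2⟩ <;> omega
  let T : Finset (Σ _ : Finset (Fin 24), Finset (Fin 24)) :=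
    (octs (code Λ)).sigma fun s => (s.erase (pick s)).powerset
  have hT : T.card = 128 * (octs (code Λ)).card := by
    rw [Finset.card_sigma, Finset.sum_const_nat (m := 128), mul_comm]
    intro s hs
    rw [mem_octs] at hs
    have hne : s.Nonempty := by
      rw [← Finset.card_pos, hs.1]
      norm_num
    rw [Finset.card_powerset, Finset.card_erase_of_mem (pick_mem hne), hs.1]
    rfl
  rw [← hT]
  apply Finset.card_le_card_of_injOn (fun y => ⟨supp y, (negs y).erase (pick (supp y))⟩)
  · intro y hy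
    have hy : y ∈ S := hy
    simp only [T, Finset.coe_sigma, Set.mem_sigma_iff, Finset.mem_coe, Finset.mem_powerset]
    refine ⟨(hstr y hy).1, ?_⟩
    apply Finset.erase_subset_erase
    intro i hi
    rw [mem_negs] at hi
    rw [mem_supp]
    omega
  · intro y hy y' hy' he
    have hy : y ∈ S := hy
    have hy' : y' ∈ S := hy'
    simp only [Sigma.mk.injEq, heq_eq_eq] at he
    obtain ⟨he1, he2⟩ := he
    rw [← he1] at he2
    set p := pick (supp y) with hp
    have hoff : ∀ i, i ≠ p → y i = y' i := by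
      intro i hi
      have h1 : i ∈ supp y ↔ i ∈ supp y' := by rw [he1]
      have h2 : i ∈ (negs y).erase p ↔ i ∈ (negs y').erase p := by rw [he2]
      rw [mem_supp, mem_supp] at h1
      rw [Finset.mem_erase, Finset.mem_erase, mem_negs, mem_negs] at h2
      rcases (hstr y hy).2 i with h | h | h <;> rcases (hstr y' hy').2 i with h' | h' | h' <;>
        simp [h, h', hi] at h1 h2 <;> omega
    by_cases hpp : y p = y' p
    · funext i
      by_cases hi : i = p
      · rw [hi]; exact hpp
      · exact hoff i hi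
    · exfalso
      have hpy : p ∈ supp y := pick_mem (by
        rw [← Finset.card_pos, (mem_octs.1 (hstr y hy).1).1]
        norm_num)
      have h1 : p ∈ supp y ↔ p ∈ supp y' := by rw [he1]
      have hpy' := h1.1 hpy
      rw [mem_supp] at hpy hpy'
      apply single_not_mem h p
      rcases (hstr y hy).2 p with h | h | h <;> rcases (hstr y' hy').2 p with h' | h' | h'
      · exact absurd h hpy
      · exact absurd h hpy
      · exact absurd h hpy
      · exact absurd h' hpy'
      · exact absurd (h.trans h'.symm) hpp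
      · convert Λ.sub_mem (hΛ y hy) (hΛ y' hy') using 1
        funext i
        by_cases hi : i = p
        · subst hi
          rw [Pi.single_eq_same, Pi.sub_apply, h, h']
          norm_num
        · rw [Pi.single_eq_of_ne hi, Pi.sub_apply, hoff i hi, sub_self]
      · exact absurd h' hpy'
      · convert Λ.sub_mem (hΛ y' hy') (hΛ y hy) using 1
        funext i
        by_cases hi : i = p
        · subst hi
          rw [Pi.single_eq_same, Pi.sub_apply, h, h']
          norm_num
        · rw [Pi.single_eq_of_ne hi, Pi.sub_apply, hoff i hi, sub_self]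
      · exact absurd (h.trans h'.symm) hpp

theorem odd_vector (h : Coord Λ) {y : Fin 24 → ℤ} (hy : y ∈ Λ) (hS : ∑ i, y i ^ 2 = 32)
    (h2 : ¬ ∀ i, (2 : ℤ) ∣ y i) : ∃ i0, (y i0 = 3 ∨ y i0 = -3) ∧ ∀ i, i ≠ i0 → y i = 1 ∨ y i = -1 := by
  push Not at h2
  obtain ⟨j, hj⟩ := h2
  have hodd : ∀ i, y i % 2 = 1 := by
    intro i
    have := h.par y hy i j
    omega
  have hval : ∀ i, (y i = 1 ∨ y i = -1) ∨ (y i = 3 ∨ y i = -3) := by
    intro i
    have h1 := sq_le hS i
    have h3 := hodd i
    have h4 : y i ≤ 5 := by nlinarith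
    have h5 : -5 ≤ y i := by nlinarith
    have h6 : y i ≠ 5 := by
      rintro h6
      have h7 : (∑ i, y i ^ 2) - y i ^ 2 = ∑ k ∈ Finset.univ.erase i, y k ^ 2 := by
        rw [← Finset.add_sum_erase _ _ (Finset.mem_univ i)]
        ring
      have h8 : ((Finset.univ.erase i).card : ℤ) ≤ ∑ k ∈ Finset.univ.erase i, y k ^ 2 := by
        rw [Finset.card_eq_sum_ones]
        push_cast
        apply Finset.sum_le_sum
        intro k _
        have := hodd k
        have h9 : y k ≠ 0 := by omega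
        have := sq_pos_of_ne_zero h9
        omega
      rw [Finset.card_erase_of_mem (Finset.mem_univ i), Finset.card_univ, Fintype.card_fin] at h8
      rw [hS, h6] at h7
      norm_num at h7 h8
      omega
    have h6' : y i ≠ -5 := by
      rintro h6
      have h7 : (∑ i, y i ^ 2) - y i ^ 2 = ∑ k ∈ Finset.univ.erase i, y k ^ 2 := by
        rw [← Finset.add_sum_erase _ _ (Finset.mem_univ i)]
        ring
      have h8 : ((Finset.univ.erase i).card : ℤ) ≤ ∑ k ∈ Finset.univ.erase i, y k ^ 2 := by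
        rw [Finset.card_eq_sum_ones]
        push_cast
        apply Finset.sum_le_sum
        intro k _
        have := hodd k
        have h9 : y k ≠ 0 := by omega
        have := sq_pos_of_ne_zero h9
        omega
      rw [Finset.card_erase_of_mem (Finset.mem_univ i), Finset.card_univ, Fintype.card_fin] at h8
      rw [hS, h6] at h7
      norm_num at h7 h8
      omega
    omega
  have hex : ∃ i0, y i0 = 3 ∨ y i0 = -3 := by
    by_contra hcon
    push Not at hcon
    have h1 : ∀ i, y i ^ 2 = 1 := by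
      intro i
      rcases hval i with h | h
      · rcases h with h | h <;> rw [h] <;> norm_num
      · have := hcon i
        omega
    simp only [h1] at hS
    simp at hS
  obtain ⟨i0, hi0⟩ := hex
  refine ⟨i0, hi0, ?_⟩
  intro i hi
  by_contra hcon
  have hi3 : y i = 3 ∨ y i = -3 := by
    rcases hval i with h | h
    · exact absurd h hcon
    · exact h
  have hsq : ∀ k, (y k = 3 ∨ y k = -3) → y k ^ 2 = 9 := by
    intro k hk
    rcases hk with hk | hk <;> rw [hk] <;> norm_num
  have h1 : ∑ k, y k ^ 2 = y i0 ^ 2 + (y i ^ 2 + ∑ k ∈ (Finset.univ.erase i0).erase i, y k ^ 2) := by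
    rw [Finset.add_sum_erase (Finset.univ.erase i0) (fun k => y k ^ 2)
        (Finset.mem_erase.2 ⟨hi, Finset.mem_univ i⟩),
      Finset.add_sum_erase Finset.univ (fun k => y k ^ 2) (Finset.mem_univ i0)]
  have h8 : (((Finset.univ.erase i0).erase i).card : ℤ) ≤
      ∑ k ∈ (Finset.univ.erase i0).erase i, y k ^ 2 := by
    rw [Finset.card_eq_sum_ones]
    push_cast
    apply Finset.sum_le_sum
    intro k _
    have := hodd k
    have h9 : y k ≠ 0 := by omega
    have := sq_pos_of_ne_zero h9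
    omega
  rw [Finset.card_erase_of_mem (Finset.mem_erase.2 ⟨hi, Finset.mem_univ i⟩),
    Finset.card_erase_of_mem (Finset.mem_univ i0), Finset.card_univ, Fintype.card_fin] at h8
  rw [hS, hsq i0 hi0, hsq i hi3] at h1
  norm_num at h8
  omega

/-- The odd vectors. -/
theorem card_two (h : Coord Λ) (S : Finset (Fin 24 → ℤ)) (hS : ∀ y ∈ S, ∑ i, y i ^ 2 = 32)
    (hΛ : ∀ y ∈ S, y ∈ Λ) (h2 : ∀ y ∈ S, ¬ ∀ i, (2 : ℤ) ∣ y i) :
    S.card ≤ 24 * Nat.card (code Λ) := by
  classical
  rcases S.eq_empty_or_nonempty with rfl | ⟨y0, hy0⟩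
  · simp
  have hodd : ∀ y ∈ S, ∀ i, y i % 2 = 1 := by
    intro y hy i
    have := h2 y hy
    push Not at this
    obtain ⟨j, hj⟩ := this
    have := h.par y (hΛ y hy) i j
    omega
  have hstr : ∀ y ∈ S, ∃ i0, (y i0 = 3 ∨ y i0 = -3) ∧ ∀ i, i ≠ i0 → y i = 1 ∨ y i = -1 :=
    fun y hy => odd_vector h (hΛ y hy) (hS y hy) (h2 y hy)
  let pos : (Fin 24 → ℤ) → Fin 24 := fun y => if hy : y ∈ S then (hstr y hy).choose else 0
  have hpos : ∀ y ∈ S, (y (pos y) = 3 ∨ y (pos y) = -3) ∧ ∀ i, i ≠ pos y → y i = 1 ∨ y i = -1 := by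
    intro y hy
    simp only [pos, dif_pos hy]
    exact (hstr y hy).choose_spec
  let word : (Fin 24 → ℤ) → (Fin 24 → ZMod 2) := fun y i => (((y i - y0 i) / 2 : ℤ) : ZMod 2)
  have hword : ∀ y ∈ S, word y ∈ code Λ := by
    intro y hy
    refine ⟨fun i => (y i - y0 i) / 2, ?_, fun i => rfl⟩
    convert Λ.sub_mem (hΛ y hy) (hΛ y0 hy0) using 1
    funext i
    have := hodd y hy i
    have := hodd y0 hy0 i
    simp only [Pi.sub_apply]
    omega
  have hfin : (Finset.univ : Finset (Fin 24 × code Λ)).card = 24 * Nat.card (code Λ) := by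
    rw [Finset.card_univ, Fintype.card_prod, Fintype.card_fin, Nat.card_eq_fintype_card]
  rw [← hfin]
  let F : (Fin 24 → ℤ) → Fin 24 × code Λ := fun y =>
    (pos y, if hy : y ∈ S then ⟨word y, hword y hy⟩ else 0)
  apply Finset.card_le_card_of_injOn F (fun y _ => Finset.mem_coe.2 (Finset.mem_univ _))
  intro y hy y' hy' he
  have hy : y ∈ S := hy
  have hy' : y' ∈ S := hy'
  simp only [F, Prod.mk.injEq, dif_pos hy, dif_pos hy', Subtype.mk.injEq] at he
  obtain ⟨he1, he2⟩ := he
  have hmod : ∀ i, (4 : ℤ) ∣ y i - y' i := by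
    intro i
    have h1 : (((y i - y0 i) / 2 : ℤ) : ZMod 2) = (((y' i - y0 i) / 2 : ℤ) : ZMod 2) :=
      congrFun he2 i
    have h3 : ((((y i - y0 i) / 2 - (y' i - y0 i) / 2 : ℤ)) : ZMod 2) = 0 := by
      rw [Int.cast_sub, h1, sub_self]
    rw [cast_eq_zero_iff] at h3
    have := hodd y hy i
    have := hodd y' hy' i
    have := hodd y0 hy0 i
    omega
  funext i
  have h1 := hpos y hy
  have h3 := hpos y' hy'
  rw [← he1] at h3
  have h4 := hmod i
  by_cases hi : i = pos y
  · rw [hi] at h4 ⊢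
    have h5 := h1.1
    have h6 := h3.1
    omega
  · have h5 := h1.2 i hi
    have h6 := h3.2 i hi
    omega

/-- If there are 196560 minimal vectors, the code has dimension 12, and there is an odd vector. -/
theorem main (h : Coord Λ) (hM : {y : Fin 24 → ℤ | y ∈ Λ ∧ ∑ i, y i ^ 2 = 32}.ncard = 196560) :
    Module.finrank (ZMod 2) (code Λ) = 12 ∧ ∃ y ∈ Λ, ∃ i0, (y i0 = 3 ∨ y i0 = -3) ∧
      ∀ i, i ≠ i0 → y i = 1 ∨ y i = -1 := by
  classical
  have hfin : {y : Fin 24 → ℤ | y ∈ Λ ∧ ∑ i, y i ^ 2 = 32}.Finite :=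
    Set.finite_of_ncard_ne_zero (by rw [hM]; norm_num)
  let S := hfin.toFinset
  have hSm : ∀ y, y ∈ S ↔ y ∈ Λ ∧ ∑ i, y i ^ 2 = 32 := fun y => by
    simp only [S, Set.Finite.mem_toFinset, Set.mem_ofPred_eq]
  have hScard : S.card = 196560 := by
    rw [← hM, Set.ncard_eq_toFinset_card _ hfin]
  let Se := S.filter fun y => ∀ i, (2 : ℤ) ∣ y i
  let So := S.filter fun y => ¬ ∀ i, (2 : ℤ) ∣ y i
  let S0 := Se.filter fun y => ∀ i, (4 : ℤ) ∣ y i
  let S1 := Se.filter fun y => ¬ ∀ i, (4 : ℤ) ∣ y i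
  have hc1 : Se.card + So.card = S.card := Finset.card_filter_add_card_filter_not _
  have hc2 : S0.card + S1.card = Se.card := Finset.card_filter_add_card_filter_not _
  have hb0 : S0.card ≤ 1104 := card_zero S0
    (fun y hy => ((hSm y).1 (Finset.mem_filter.1 (Finset.mem_filter.1 hy).1).1).2)
    (fun y hy => (Finset.mem_filter.1 hy).2)
  have hb1 : S1.card ≤ 128 * (octs (code Λ)).card := card_one h S1
    (fun y hy => ((hSm y).1 (Finset.mem_filter.1 (Finset.mem_filter.1 hy).1).1).2)
    (fun y hy => ((hSm y).1 (Finset.mem_filter.1 (Finset.mem_filter.1 hy).1).1).1)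
    (fun y hy => (Finset.mem_filter.1 (Finset.mem_filter.1 hy).1).2)
    (fun y hy => (Finset.mem_filter.1 hy).2)
  have hb2 : So.card ≤ 24 * Nat.card (code Λ) := card_two h So
    (fun y hy => ((hSm y).1 (Finset.mem_filter.1 hy).1).2)
    (fun y hy => ((hSm y).1 (Finset.mem_filter.1 hy).1).1)
    (fun y hy => (Finset.mem_filter.1 hy).2)
  have hoct := card_octs_le (code Λ) (fun w hw h0 => eight_le h hw h0)
  have hdim := finrank_le (code Λ) (fun v hv w hw => orth h hv hw)
  have hcard : Nat.card (code Λ) = 2 ^ Module.finrank (ZMod 2) (code Λ) := by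
    rw [Module.natCard_eq_pow_finrank (K := ZMod 2), Nat.card_zmod]
  refine ⟨?_, ?_⟩
  · by_contra hne
    have hlt : Module.finrank (ZMod 2) (code Λ) ≤ 11 := by omega
    have h3 : Nat.card (code Λ) ≤ 2 ^ 11 := by
      rw [hcard]
      exact Nat.pow_le_pow_right (by norm_num) hlt
    have h4 : (2 : ℕ) ^ 11 = 2048 := by norm_num
    rw [h4] at h3
    omega
  · have hne : So.Nonempty := by
      rw [← Finset.card_pos]
      omega
    obtain ⟨y, hy⟩ := hne
    have hy1 := (hSm y).1 (Finset.mem_filter.1 hy).1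
    exact ⟨y, hy1.1, odd_vector h hy1.1 hy1.2 (Finset.mem_filter.1 hy).2⟩

end Cfsg.Agent.SporadicA.LeechCoordCount
end

-- part: SporadicA/LeechCoordIso
section
/-!
A lattice in frame coordinates with 196560 minimal vectors is the Leech lattice, up to a bijection of
the coordinates and a change of signs. The uniqueness of the length-24 code is an input `hcode`.
-/

set_option autoImplicit false

namespace Cfsg.Agent.SporadicA.LeechCoordIso

open Cfsg Cfsg.Agent.SporadicA.LeechCoord Cfsg.Agent.SporadicA.LeechCoordCode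

variable {Λ : AddSubgroup (Fin 24 → ℤ)}

theorem mem_leech_iff (h : Coord Λ) (e : Fin 24 ≃ GolayPt)
    (he : ∀ w : GolayPt → ZMod 2, w ∈ golayCode ↔ (fun i => w (e i)) ∈ code Λ)
    (u : Fin 24 → ℤ) (hu : ∀ i, u i = 1 ∨ u i = -1) (i0 : Fin 24)
    (hy0 : (fun i => u i * (1 - 4 * (Pi.single i0 1 : Fin 24 → ℤ) i)) ∈ Λ) (v : GolayPt → ℤ) :
    v ∈ leechLattice ↔ (fun i => u i * v (e i)) ∈ Λ := by
  set y0 : Fin 24 → ℤ := fun i => u i * (1 - 4 * (Pi.single i0 1 : Fin 24 → ℤ) i) with hy0def
  have huu : ∀ i, u i * u i = 1 := fun i => by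
    rcases hu i with h | h <;> rw [h] <;> norm_num
  have hdot : ∑ i, (u i * v (e i)) * y0 i = ∑ p, v p - 4 * v (e i0) := by
    have h1 : ∀ i, (u i * v (e i)) * y0 i =
        v (e i) - 4 * (v (e i) * (Pi.single i0 1 : Fin 24 → ℤ) i) := by
      intro i
      have := huu i
      simp only [hy0def]
      linear_combination (v (e i) * (1 - 4 * (Pi.single i0 1 : Fin 24 → ℤ) i)) * this
    rw [Finset.sum_congr rfl fun i _ => h1 i, Finset.sum_sub_distrib, ← Finset.mul_sum,
      Equiv.sum_comp e v]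
    congr 2
    rw [Finset.sum_eq_single i0]
    · rw [Pi.single_eq_same, mul_one]
    · intro b _ hb
      rw [Pi.single_eq_of_ne hb, mul_zero]
    · intro hj
      exact absurd (Finset.mem_univ i0) hj
  have hy0odd : ∀ i, y0 i % 2 = 1 := by
    intro i
    simp only [hy0def]
    by_cases hi : i = i0
    · subst hi
      rw [Pi.single_eq_same]
      rcases hu i with h | h <;> rw [h] <;> norm_num
    · rw [Pi.single_eq_of_ne hi]
      rcases hu i with h | h <;> rw [h] <;> norm_num
  rw [LeechSet.mem_leechLattice_iff']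
  constructor
  · rintro ⟨m, z, hz, hs, hc⟩
    rw [he] at hc
    obtain ⟨z', hz', hzz⟩ := hc
    replace hzz : ∀ i, ((z (e i) : ℤ) : ZMod 2) = ((z' i : ℤ) : ZMod 2) := hzz
    have hev : ∀ i, (2 : ℤ) ∣ u i * z (e i) - z' i := by
      intro i
      have h1 : ((z (e i) - z' i : ℤ) : ZMod 2) = 0 := by
        rw [Int.cast_sub, hzz i, sub_self]
      rw [cast_eq_zero_iff] at h1
      rcases hu i with h | h <;> rw [h] <;> omega
    choose b hb using hev
    have hmy : m • y0 + (fun i => 2 * z' i) ∈ Λ := Λ.add_mem (Λ.zsmul_mem hy0 m) hz'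
    let a : Fin 24 → ℤ := fun i => b i + m * u i * (Pi.single i0 1 : Fin 24 → ℤ) i
    have hya : ∀ i, u i * v (e i) = (m • y0 + (fun i => 2 * z' i)) i + 4 * a i := by
      intro i
      simp only [Pi.add_apply, Pi.smul_apply, smul_eq_mul, a, hy0def]
      have h1 := hb i
      have h2 := hz (e i)
      rw [h2]
      linear_combination 2 * h1
    apply mem_of_congr h hmy a _ hya
    -- parity of the sum of `a`
    have h1 : (8 : ℤ) ∣ ∑ i, (u i * v (e i)) * y0 i := by
      rw [hdot]
      have h2 := hs.dvd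
      rw [hz (e i0)]
      omega
    have h2 := h.dot _ hmy _ hy0
    have h3 : ∑ i, (u i * v (e i)) * y0 i =
        ∑ i, (m • y0 + (fun i => 2 * z' i)) i * y0 i + 4 * ∑ i, a i * y0 i := by
      rw [Finset.mul_sum, ← Finset.sum_add_distrib]
      apply Finset.sum_congr rfl
      intro i _
      rw [hya i]
      ring
    have h4 : (2 : ℤ) ∣ ∑ i, a i * y0 i := by omega
    have h5 : (2 : ℤ) ∣ ∑ i, a i * (y0 i - 1) := by
      apply Finset.dvd_sum
      intro i _
      apply Dvd.dvd.mul_left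
      have := hy0odd i
      omega
    have h6 : ∑ i, a i * (y0 i - 1) = ∑ i, a i * y0 i - ∑ i, a i := by
      rw [← Finset.sum_sub_distrib]
      apply Finset.sum_congr rfl
      intro i _
      ring
    rw [h6] at h5
    omega
  · intro hy
    have hpar : ∀ i, (2 : ℤ) ∣ v (e i) - v (e i0) := by
      intro i
      have h1 : (2 : ℤ) ∣ u i * v (e i) - u i0 * v (e i0) := h.par _ hy i i0
      rcases hu i with h | h <;> rcases hu i0 with h' | h' <;> rw [h, h'] at h1 <;> omega
    have hpar' : ∀ p, (2 : ℤ) ∣ v p - v (e i0) := by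
      intro p
      have := hpar (e.symm p)
      rwa [e.apply_symm_apply] at this
    choose z hz using hpar'
    refine ⟨v (e i0), z, fun p => by linarith [hz p], ?_, ?_⟩
    · have h1 := h.dot _ hy _ hy0
      rw [hdot] at h1
      rw [Int.modEq_iff_dvd]
      omega
    · rw [he]
      refine ⟨fun i => u i * z (e i) + 2 * (v (e i0) * u i * (Pi.single i0 1 : Fin 24 → ℤ) i),
        ?_, ?_⟩
      · convert Λ.sub_mem hy (Λ.zsmul_mem hy0 (v (e i0))) using 1
        funext i
        simp only [Pi.sub_apply, Pi.smul_apply, smul_eq_mul, hy0def]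
        have := hz (e i)
        linear_combination (-(u i)) * this
      · intro i
        rw [← sub_eq_zero, ← Int.cast_sub, cast_eq_zero_iff]
        have h1 : (2 : ℤ) ∣ z (e i) - u i * z (e i) := by
          rcases hu i with h | h <;> rw [h] <;> omega
        have h2 : (2 : ℤ) ∣ 2 * (v (e i0) * u i * (Pi.single i0 1 : Fin 24 → ℤ) i) :=
          Dvd.intro _ rfl
        have h3 := dvd_sub h1 h2
        rw [sub_sub] at h3
        exact h3

/-- The main theorem of this file, with the uniqueness of the code as an input. -/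
theorem exists_iso (h : Coord Λ)
    (hM : {y : Fin 24 → ℤ | y ∈ Λ ∧ ∑ i, y i ^ 2 = 32}.ncard = 196560)
    (hcode : ∀ C : Submodule (ZMod 2) (Fin 24 → ZMod 2), Module.finrank (ZMod 2) C = 12 →
      (∀ v ∈ C, ∀ w ∈ C, ∑ i, v i * w i = 0) → (∀ w ∈ C, 4 ∣ hammingNorm w) →
      (∀ w ∈ C, hammingNorm w ≠ 4) → ∃ e : Fin 24 ≃ GolayPt, ∀ w : GolayPt → ZMod 2,
        w ∈ golayCode ↔ (fun i => w (e i)) ∈ C) :
    ∃ (e : Fin 24 ≃ GolayPt) (u : Fin 24 → ℤ), (∀ i, u i = 1 ∨ u i = -1) ∧
      ∀ v : GolayPt → ℤ, v ∈ leechLattice ↔ (fun i => u i * v (e i)) ∈ Λ := by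
  obtain ⟨hdim, y, hy, i0, hi0, hi⟩ := LeechCoordCount.main h hM
  obtain ⟨e, he⟩ := hcode (code Λ) hdim (fun v hv w hw => orth h hv hw)
    (fun w hw => four_dvd h hw) (fun w hw h4 => by
      have := eight_le h hw (by
        rintro rfl
        simp at h4)
      omega)
  let u : Fin 24 → ℤ := fun i => if i = i0 then (if y i = 3 then -1 else 1) else y i
  have hu : ∀ i, u i = 1 ∨ u i = -1 := by
    intro i
    simp only [u]
    by_cases h1 : i = i0
    · rw [if_pos h1]
      split_ifs <;> simp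
    · rw [if_neg h1]
      exact hi i h1
  refine ⟨e, u, hu, fun v => mem_leech_iff h e he u hu i0 ?_ v⟩
  convert hy using 1
  funext i
  simp only [u]
  by_cases h1 : i = i0
  · subst h1
    rw [if_pos rfl, Pi.single_eq_same]
    rcases hi0 with h2 | h2 <;> rw [h2] <;> norm_num
  · rw [if_neg h1, Pi.single_eq_of_ne h1]
    ring

end Cfsg.Agent.SporadicA.LeechCoordIso
end

-- part: SporadicA/LeechFrame
section
/-!
Conway's frame: an even positive definite lattice of rank 24 without vectors of norm 2 and with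
196560, 16773120 and 398034000 vectors of norms 4, 6, 8 has 24 mutually orthogonal vectors of norm 8
that are congruent modulo 2.
-/

set_option autoImplicit false
set_option linter.constructorNameAsVariable false

open Matrix

namespace Cfsg.Agent.SporadicA.LeechFrame

/-- The bilinear form. -/
def bf (B : Matrix (Fin 24) (Fin 24) ℤ) (x y : Fin 24 → ℤ) : ℤ := x ⬝ᵥ (B *ᵥ y)

theorem bf_def (B : Matrix (Fin 24) (Fin 24) ℤ) (x y : Fin 24 → ℤ) :
    bf B x y = x ⬝ᵥ (B *ᵥ y) := rfl

variable {B : Matrix (Fin 24) (Fin 24) ℤ}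

theorem bf_comm (hs : B.IsSymm) (x y : Fin 24 → ℤ) : bf B x y = bf B y x := by
  unfold bf
  rw [dotProduct_mulVec, ← mulVec_transpose, hs.eq, dotProduct_comm]

theorem bf_add_left (x y z : Fin 24 → ℤ) : bf B (x + y) z = bf B x z + bf B y z := by
  unfold bf
  rw [add_dotProduct]

theorem bf_sub_left (x y z : Fin 24 → ℤ) : bf B (x - y) z = bf B x z - bf B y z := by
  unfold bf
  rw [sub_dotProduct]

theorem bf_smul_left (c : ℤ) (x z : Fin 24 → ℤ) : bf B (c • x) z = c * bf B x z := by
  unfold bf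
  rw [smul_dotProduct, smul_eq_mul]

theorem bf_add_right (x y z : Fin 24 → ℤ) : bf B x (y + z) = bf B x y + bf B x z := by
  unfold bf
  rw [mulVec_add, dotProduct_add]

theorem bf_sub_right (x y z : Fin 24 → ℤ) : bf B x (y - z) = bf B x y - bf B x z := by
  unfold bf
  rw [mulVec_sub, dotProduct_sub]

theorem bf_smul_right (c : ℤ) (x z : Fin 24 → ℤ) : bf B x (c • z) = c * bf B x z := by
  unfold bf
  rw [mulVec_smul, dotProduct_smul, smul_eq_mul]

theorem bf_zero_left (z : Fin 24 → ℤ) : bf B 0 z = 0 := by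
  unfold bf
  rw [zero_dotProduct]

/-- The hypotheses on the form. -/
structure Good (B : Matrix (Fin 24) (Fin 24) ℤ) : Prop where
  symm : B.IsSymm
  pos : ∀ x : Fin 24 → ℤ, x ≠ 0 → 0 < bf B x x
  even : ∀ x : Fin 24 → ℤ, (2 : ℤ) ∣ bf B x x
  two : ∀ x : Fin 24 → ℤ, bf B x x ≠ 2

theorem four_le (h : Good B) {x : Fin 24 → ℤ} (hx : x ≠ 0) : 4 ≤ bf B x x := by
  have h1 := h.pos x hx
  have h2 := h.even x
  have h3 := h.two x
  omega

theorem short (h : Good B) {v w : Fin 24 → ℤ} (hv : bf B v v ≤ 8) (hw : bf B w w ≤ 8)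
    (hvw : ∀ i, (2 : ℤ) ∣ v i - w i) (h1 : v ≠ w) (h1' : v ≠ -w) :
    bf B v v = 8 ∧ bf B w w = 8 ∧ bf B v w = 0 := by
  choose z hz using hvw
  have hvz : v = w + (2 : ℤ) • z := by
    funext i
    have := hz i
    simp only [Pi.add_apply, Pi.smul_apply, smul_eq_mul]
    linarith
  have hz0 : z ≠ 0 := by
    rintro rfl
    apply h1
    rw [hvz, smul_zero, add_zero]
  have hz1 : z + w ≠ 0 := by
    intro h0
    apply h1'
    rw [hvz, eq_neg_of_add_eq_zero_left h0, two_smul]
    abel
  have a1 := four_le h hz0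
  have a2 := four_le h hz1
  rw [bf_add_left, bf_add_right, bf_add_right] at a2
  have c := bf_comm h.symm w z
  subst hvz
  rw [bf_add_left, bf_add_right, bf_add_right, bf_smul_left, bf_smul_right, bf_smul_left,
    bf_smul_right] at hv ⊢
  rw [bf_add_left, bf_smul_left]
  rw [c] at a2 hv ⊢
  refine ⟨?_, ?_, ?_⟩ <;> linarith

/-- The reduction modulo 2. -/
def red (x : Fin 24 → ℤ) : Fin 24 → ZMod 2 := fun i => (x i : ZMod 2)

theorem red_eq {x y : Fin 24 → ℤ} (h : red x = red y) (i : Fin 24) : (2 : ℤ) ∣ x i - y i := by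
  have h1 : ((x i - y i : ℤ) : ZMod 2) = 0 := by
    rw [Int.cast_sub]
    exact sub_eq_zero.2 (congrFun h i)
  have := (ZMod.intCast_zmod_eq_zero_iff_dvd (x i - y i) 2).1 h1
  simpa using this

theorem fiber_card_le (h : Good B) (S : Finset (Fin 24 → ℤ)) (n : ℤ) (hn : n < 8)
    (hS : ∀ x ∈ S, bf B x x = n) : S.card ≤ 2 * (S.image red).card := by
  classical
  apply Finset.card_le_mul_card_image
  intro c hc
  obtain ⟨v, hv, hvc⟩ := Finset.mem_image.1 hc
  have hsub : S.filter (fun x => red x = c) ⊆ {v, -v} := by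
    intro w hw
    rw [Finset.mem_filter] at hw
    rw [Finset.mem_insert, Finset.mem_singleton]
    by_contra hcon
    push Not at hcon
    have := short h (v := w) (w := v) (by rw [hS w hw.1]; omega) (by rw [hS v hv]; omega)
      (red_eq (hw.2.trans hvc.symm)) hcon.1 hcon.2
    rw [hS v hv] at this
    omega
  exact (Finset.card_le_card hsub).trans Finset.card_le_two

theorem disj (h : Good B) (S T : Finset (Fin 24 → ℤ)) (m n : ℤ) (hm : m ≤ 8) (hn : n ≤ 8)
    (hmn : m ≠ n) (hS : ∀ x ∈ S, bf B x x = m) (hT : ∀ x ∈ T, bf B x x = n) :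
    Disjoint (S.image red) (T.image red) := by
  classical
  rw [Finset.disjoint_left]
  intro c hc hc'
  obtain ⟨v, hv, hvc⟩ := Finset.mem_image.1 hc
  obtain ⟨w, hw, hwc⟩ := Finset.mem_image.1 hc'
  have e1 := hS v hv
  have e2 := hT w hw
  have h1 : v ≠ w := by
    rintro rfl
    omega
  have h2 : v ≠ -w := by
    rintro rfl
    have : bf B (-w) (-w) = bf B w w := by
      have e : (-w) = (-1 : ℤ) • w := by simp
      rw [e, bf_smul_left, bf_smul_right]
      ring
    omega
  have := short h (v := v) (w := w) (by omega) (by omega) (red_eq (hvc.trans hwc.symm)) h1 h2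
  omega

/-- Some class modulo 2 holds at least 48 vectors of norm 8. -/
theorem exists_class (h : Good B) (h4 : {x : Fin 24 → ℤ | bf B x x = 4}.ncard = 196560)
    (h6 : {x : Fin 24 → ℤ | bf B x x = 6}.ncard = 16773120)
    (h8 : {x : Fin 24 → ℤ | bf B x x = 8}.ncard = 398034000) :
    ∃ S : Finset (Fin 24 → ℤ), 48 ≤ S.card ∧ (∀ v ∈ S, bf B v v = 8) ∧
      ∀ v ∈ S, ∀ w ∈ S, ∀ i, (2 : ℤ) ∣ v i - w i := by
  classical
  have f4 : {x : Fin 24 → ℤ | bf B x x = 4}.Finite :=
    Set.finite_of_ncard_ne_zero (by rw [h4]; norm_num)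
  have f6 : {x : Fin 24 → ℤ | bf B x x = 6}.Finite :=
    Set.finite_of_ncard_ne_zero (by rw [h6]; norm_num)
  have f8 : {x : Fin 24 → ℤ | bf B x x = 8}.Finite :=
    Set.finite_of_ncard_ne_zero (by rw [h8]; norm_num)
  obtain ⟨S4, hS4⟩ := f4.exists_finset
  obtain ⟨S6, hS6⟩ := f6.exists_finset
  obtain ⟨S8, hS8⟩ := f8.exists_finset
  have c4 : S4.card = 196560 := by
    rw [← h4, ← Set.ncard_coe_finset]
    congr 1
    ext x
    exact hS4 x
  have c6 : S6.card = 16773120 := by
    rw [← h6, ← Set.ncard_coe_finset]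
    congr 1
    ext x
    exact hS6 x
  have c8 : S8.card = 398034000 := by
    rw [← h8, ← Set.ncard_coe_finset]
    congr 1
    ext x
    exact hS8 x
  have m4 : ∀ x ∈ S4, bf B x x = 4 := fun x hx => (hS4 x).1 hx
  have m6 : ∀ x ∈ S6, bf B x x = 6 := fun x hx => (hS6 x).1 hx
  have m8 : ∀ x ∈ S8, bf B x x = 8 := fun x hx => (hS8 x).1 hx
  have m0 : ∀ x ∈ ({0} : Finset (Fin 24 → ℤ)), bf B x x = 0 := by
    intro x hx
    rw [Finset.mem_singleton] at hx
    rw [hx, bf_zero_left]
  have k4 := fiber_card_le h S4 4 (by norm_num) m4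
  have k6 := fiber_card_le h S6 6 (by norm_num) m6
  have d04 := disj h _ _ 0 4 (by norm_num) (by norm_num) (by norm_num) m0 m4
  have d06 := disj h _ _ 0 6 (by norm_num) (by norm_num) (by norm_num) m0 m6
  have d08 := disj h _ _ 0 8 (by norm_num) (by norm_num) (by norm_num) m0 m8
  have d46 := disj h _ _ 4 6 (by norm_num) (by norm_num) (by norm_num) m4 m6
  have d48 := disj h _ _ 4 8 (by norm_num) (by norm_num) (by norm_num) m4 m8
  have d68 := disj h _ _ 6 8 (by norm_num) (by norm_num) (by norm_num) m6 m8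
  have k0 : (({0} : Finset (Fin 24 → ℤ)).image red).card = 1 := by
    rw [Finset.image_singleton, Finset.card_singleton]
  have u1 : (({0} : Finset (Fin 24 → ℤ)).image red ∪ S4.image red ∪ S6.image red ∪
      S8.image red).card = 1 + (S4.image red).card + (S6.image red).card +
        (S8.image red).card := by
    rw [Finset.card_union_of_disjoint, Finset.card_union_of_disjoint,
      Finset.card_union_of_disjoint d04, k0]
    · exact Finset.disjoint_union_left.2 ⟨d06, d46⟩
    · exact Finset.disjoint_union_left.2 ⟨Finset.disjoint_union_left.2 ⟨d08, d48⟩, d68⟩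
  have u2 := Finset.card_le_univ (({0} : Finset (Fin 24 → ℤ)).image red ∪ S4.image red ∪
    S6.image red ∪ S8.image red)
  rw [u1, Fintype.card_fun, ZMod.card, Fintype.card_fin] at u2
  have u3 : (2 : ℕ) ^ 24 = 16777216 := by norm_num
  rw [u3] at u2
  by_contra hcon
  push Not at hcon
  have k8 : S8.card ≤ 47 * (S8.image red).card := by
    apply Finset.card_le_mul_card_image
    intro c hc
    by_contra hgt
    push Not at hgt
    obtain ⟨v, hv, w, hw, i, hi⟩ := hcon (S8.filter (fun x => red x = c)) hgt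
      (fun v hv => m8 v (Finset.mem_filter.1 hv).1)
    exact hi (red_eq ((Finset.mem_filter.1 hv).2.trans (Finset.mem_filter.1 hw).2.symm) i)
  omega

/-- Existence of a frame. -/
theorem exists_frame (h : Good B) (h4 : {x : Fin 24 → ℤ | bf B x x = 4}.ncard = 196560)
    (h6 : {x : Fin 24 → ℤ | bf B x x = 6}.ncard = 16773120)
    (h8 : {x : Fin 24 → ℤ | bf B x x = 8}.ncard = 398034000) :
    ∃ t : Fin 24 → (Fin 24 → ℤ), (∀ i, bf B (t i) (t i) = 8) ∧
      (∀ i j, i ≠ j → bf B (t i) (t j) = 0) ∧ ∀ i j k, (2 : ℤ) ∣ t i k - t j k := by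
  classical
  obtain ⟨S, hS48, hS8, hS2⟩ := exists_class h h4 h6 h8
  obtain ⟨P, hP⟩ : ∃ P : Finset (Finset (Fin 24 → ℤ)), ∀ T, T ∈ P ↔ T ⊆ S ∧
      ∀ v ∈ T, ∀ w ∈ T, v ≠ w → bf B v w = 0 := by
    refine ⟨S.powerset.filter fun T => ∀ v ∈ T, ∀ w ∈ T, v ≠ w → bf B v w = 0, fun T => ?_⟩
    simp only [Finset.mem_filter, Finset.mem_powerset]
  have hne : P.Nonempty := ⟨∅, (hP ∅).2 ⟨Finset.empty_subset _, by simp⟩⟩
  obtain ⟨T, hT, hmax⟩ := Finset.exists_max_image P Finset.card hne
  obtain ⟨hTS, hTo⟩ := (hP T).1 hT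
  have hcov : S ⊆ T ∪ T.image (fun x => -x) := by
    intro v hv
    by_contra hcon
    rw [Finset.mem_union, not_or, Finset.mem_image] at hcon
    obtain ⟨hv1, hv2⟩ := hcon
    have horth : ∀ w ∈ T, bf B v w = 0 := by
      intro w hw
      have h1 : v ≠ w := by
        rintro rfl
        exact hv1 hw
      have h2 : v ≠ -w := by
        rintro rfl
        exact hv2 ⟨w, hw, rfl⟩
      exact (short h (hS8 v hv).le (hS8 w (hTS hw)).le (hS2 v hv w (hTS hw)) h1 h2).2.2
    have hmem : insert v T ∈ P := by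
      rw [hP]
      refine ⟨Finset.insert_subset hv hTS, ?_⟩
      intro a ha b hb hab
      rw [Finset.mem_insert] at ha hb
      rcases ha with rfl | ha <;> rcases hb with rfl | hb
      · exact absurd rfl hab
      · exact horth b hb
      · rw [bf_comm h.symm]
        exact horth a ha
      · exact hTo a ha b hb hab
    have := hmax _ hmem
    rw [Finset.card_insert_of_notMem hv1] at this
    omega
  have hcard : 24 ≤ T.card := by
    have h1 := Finset.card_le_card hcov
    have h2 := Finset.card_union_le T (T.image (fun x => -x))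
    have h3 : (T.image (fun x => -x)).card ≤ T.card := Finset.card_image_le
    omega
  obtain ⟨T', hT', hT'c⟩ := Finset.exists_subset_card_eq hcard
  let e := (T'.equivFinOfCardEq hT'c).symm
  refine ⟨fun i => (e i : Fin 24 → ℤ), fun i => hS8 _ (hTS (hT' (e i).2)), fun i j hij => ?_,
    fun i j k => hS2 _ (hTS (hT' (e i).2)) _ (hTS (hT' (e j).2)) k⟩
  apply hTo _ (hT' (e i).2) _ (hT' (e j).2)
  intro heq
  exact hij (e.injective (Subtype.ext heq))

/-- Parseval's identity for a frame. -/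
theorem parseval (h : Good B) (t : Fin 24 → (Fin 24 → ℤ)) (t8 : ∀ i, bf B (t i) (t i) = 8)
    (t0 : ∀ i j, i ≠ j → bf B (t i) (t j) = 0) (x y : Fin 24 → ℤ) :
    ∑ i, bf B x (t i) * bf B y (t i) = 8 * bf B x y := by
  let T : Matrix (Fin 24) (Fin 24) ℤ := Matrix.of t
  let P : Matrix (Fin 24) (Fin 24) ℤ := B * Tᵀ
  have hTP : T * P = (8 : ℤ) • (1 : Matrix (Fin 24) (Fin 24) ℤ) := by
    ext i j
    have h1 : (T * P) i j = bf B (t i) (t j) := rfl
    rw [h1, Matrix.smul_apply, smul_eq_mul]
    by_cases hij : i = j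
    · subst hij
      rw [t8, Matrix.one_apply_eq, mul_one]
    · rw [t0 i j hij, Matrix.one_apply_ne hij, mul_zero]
  have hdet : P.det ≠ 0 := by
    intro h0
    have h1 := congrArg Matrix.det hTP
    rw [Matrix.det_mul, h0, mul_zero, Matrix.det_smul, Matrix.det_one, mul_one] at h1
    have : (8 : ℤ) ^ Fintype.card (Fin 24) ≠ 0 := pow_ne_zero _ (by norm_num)
    exact this h1.symm
  have hPT : P * T = (8 : ℤ) • (1 : Matrix (Fin 24) (Fin 24) ℤ) := by
    have h1 : (P * T - (8 : ℤ) • (1 : Matrix (Fin 24) (Fin 24) ℤ)) * P = 0 := by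
      rw [Matrix.sub_mul, Matrix.mul_assoc, hTP, Matrix.mul_smul, Matrix.mul_one, Matrix.smul_mul,
        Matrix.one_mul, sub_self]
    have h2 : (P * T - (8 : ℤ) • (1 : Matrix (Fin 24) (Fin 24) ℤ)) * P * P.adjugate = 0 := by
      rw [h1, Matrix.zero_mul]
    rw [Matrix.mul_assoc, Matrix.mul_adjugate, Matrix.mul_smul, Matrix.mul_one] at h2
    have h3 := (smul_eq_zero.1 h2).resolve_left hdet
    exact sub_eq_zero.1 h3
  have hPP : P * Pᵀ = (8 : ℤ) • B := by
    have h1 : Pᵀ = T * B := by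
      rw [Matrix.transpose_mul, Matrix.transpose_transpose, h.symm.eq]
    rw [h1, ← Matrix.mul_assoc, hPT, Matrix.smul_mul, Matrix.one_mul]
  have hx : ∀ x : Fin 24 → ℤ, (fun i => bf B x (t i)) = x ᵥ* P := by
    intro x
    funext i
    have h1 : B *ᵥ t i = P.col i := rfl
    unfold bf
    rw [h1]
    rfl
  have h1 : ∑ i, bf B x (t i) * bf B y (t i) = (x ᵥ* P) ⬝ᵥ (y ᵥ* P) := by
    rw [← hx, ← hx]
    rfl
  rw [h1, ← Matrix.mulVec_transpose P y, Matrix.dotProduct_mulVec, Matrix.vecMul_vecMul, hPP,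
    Matrix.vecMul_smul, smul_dotProduct, ← Matrix.dotProduct_mulVec, smul_eq_mul]
  rfl

end Cfsg.Agent.SporadicA.LeechFrame
end

-- part: S0406
section
set_option autoImplicit false
open Matrix
open Cfsg

namespace Cfsg.Agent.S0406

open Cfsg.Agent.SporadicA.LeechFrame Cfsg.Agent.SporadicA.LeechCoord

/-- The coordinates with respect to a frame. -/
def phi (B : Matrix (Fin 24) (Fin 24) ℤ) (t : Fin 24 → (Fin 24 → ℤ)) :
    (Fin 24 → ℤ) →+ (Fin 24 → ℤ) where
  toFun x := fun i => bf B x (t i)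
  map_zero' := by
    funext i
    exact bf_zero_left _
  map_add' x y := by
    funext i
    exact bf_add_left _ _ _

theorem phi_apply (B : Matrix (Fin 24) (Fin 24) ℤ) (t : Fin 24 → (Fin 24 → ℤ)) (x : Fin 24 → ℤ)
    (i : Fin 24) : phi B t x i = bf B x (t i) := rfl

theorem coord_range {B : Matrix (Fin 24) (Fin 24) ℤ} (h : Good B) (t : Fin 24 → (Fin 24 → ℤ))
    (t8 : ∀ i, bf B (t i) (t i) = 8) (t0 : ∀ i j, i ≠ j → bf B (t i) (t j) = 0)
    (t2 : ∀ i j k, (2 : ℤ) ∣ t i k - t j k) : Coord (phi B t).range := by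
  have key : ∀ i j, ∃ z : Fin 24 → ℤ, t i = t j + (2 : ℤ) • z := by
    intro i j
    choose z hz using t2 i j
    refine ⟨z, ?_⟩
    funext k
    have := hz k
    simp only [Pi.add_apply, Pi.smul_apply, smul_eq_mul]
    linarith
  have tij : ∀ i j, bf B (t i) (t j) = (Pi.single i 8 : Fin 24 → ℤ) j := by
    intro i j
    by_cases hij : i = j
    · subst hij
      rw [t8, Pi.single_eq_same]
    · rw [t0 i j hij, Pi.single_eq_of_ne (Ne.symm hij)]
  have hsub : ∀ i j, (Pi.single i 4 - Pi.single j 4 : Fin 24 → ℤ) ∈ (phi B t).range := by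
    intro i j
    obtain ⟨z, hz⟩ := key i j
    refine ⟨z, ?_⟩
    funext k
    rw [phi_apply]
    have h1 : bf B (t i) (t k) = bf B (t j) (t k) + 2 * bf B z (t k) := by
      rw [hz, bf_add_left, bf_smul_left]
    rw [tij, tij] at h1
    simp only [Pi.sub_apply, Pi.single_apply] at h1 ⊢
    split_ifs at h1 ⊢ <;> omega
  have h8 : ∀ j, (Pi.single j 8 : Fin 24 → ℤ) ∈ (phi B t).range := by
    intro j
    refine ⟨t j, ?_⟩
    funext k
    rw [phi_apply, tij]
  refine ⟨?_, ?_, hsub, ?_, ?_, ?_⟩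
  · rintro _ ⟨x, rfl⟩ i j
    rw [phi_apply, phi_apply]
    obtain ⟨z, hz⟩ := key i j
    rw [hz, bf_add_right, bf_smul_right]
    exact ⟨bf B x z, by ring⟩
  · intro i j _
    have := (phi B t).range.add_mem (hsub i j) (h8 j)
    convert this using 1
    funext k
    simp only [Pi.add_apply, Pi.sub_apply, Pi.single_apply]
    split_ifs <;> norm_num
  · rintro _ ⟨x, rfl⟩ _ ⟨y, rfl⟩
    simp only [phi_apply]
    rw [parseval h t t8 t0]
    exact Dvd.intro _ rfl
  · rintro _ ⟨x, rfl⟩
    have h1 : ∑ i, (phi B t x i) ^ 2 = 8 * bf B x x := by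
      rw [← parseval h t t8 t0]
      apply Finset.sum_congr rfl
      intro i _
      rw [phi_apply]
      ring
    rw [h1]
    have := h.even x
    omega
  · rintro _ ⟨x, rfl⟩ hx
    have h1 : ∑ i, (phi B t x i) ^ 2 = 8 * bf B x x := by
      rw [← parseval h t t8 t0]
      apply Finset.sum_congr rfl
      intro i _
      rw [phi_apply]
      ring
    rw [h1]
    have hx0 : x ≠ 0 := by
      rintro rfl
      exact hx (map_zero _)
    have := four_le h hx0
    omega

theorem phi_norm {B : Matrix (Fin 24) (Fin 24) ℤ} (h : Good B) (t : Fin 24 → (Fin 24 → ℤ))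
    (t8 : ∀ i, bf B (t i) (t i) = 8) (t0 : ∀ i j, i ≠ j → bf B (t i) (t j) = 0)
    (x : Fin 24 → ℤ) : ∑ i, (phi B t x i) ^ 2 = 8 * bf B x x := by
  rw [← parseval h t t8 t0]
  apply Finset.sum_congr rfl
  intro i _
  rw [phi_apply]
  ring

theorem phi_injective {B : Matrix (Fin 24) (Fin 24) ℤ} (h : Good B) (t : Fin 24 → (Fin 24 → ℤ))
    (t8 : ∀ i, bf B (t i) (t i) = 8) (t0 : ∀ i j, i ≠ j → bf B (t i) (t j) = 0) :
    Function.Injective (phi B t) := by
  rw [injective_iff_map_eq_zero]
  intro x hx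
  by_contra hx0
  have h1 := phi_norm h t t8 t0 x
  rw [hx] at h1
  have h2 := h.pos x hx0
  simp at h1
  omega

/-- A rank-24 even lattice with no roots and the stated numbers of vectors of norms 4, 6, 8 is isomorphic to the Leech lattice. -/
theorem result (B : Matrix (Fin 24) (Fin 24) ℤ) (hsymm : B.IsSymm) (hpos : ∀ x : Fin 24 → ℤ, x ≠ 0 → 0 < x ⬝ᵥ (B *ᵥ x)) (heven : ∀ x : Fin 24 → ℤ, (2 : ℤ) ∣ x ⬝ᵥ (B *ᵥ x)) (h2 : ∀ x : Fin 24 → ℤ, x ⬝ᵥ (B *ᵥ x) ≠ 2) (h4 : {x : Fin 24 → ℤ | x ⬝ᵥ (B *ᵥ x) = 4}.ncard = 196560) (h6 : {x : Fin 24 → ℤ | x ⬝ᵥ (B *ᵥ x) = 6}.ncard = 16773120) (h8 : {x : Fin 24 → ℤ | x ⬝ᵥ (B *ᵥ x) = 8}.ncard = 398034000) : ∃ f : (Fin 24 → ℤ) ≃+ Cfsg.leechLattice, ∀ x : Fin 24 → ℤ, Cfsg.sqNorm ((f x : Cfsg.leechLattice) : Cfsg.GolayPt → ℤ) = 8 * (x ⬝ᵥ (B *ᵥ x)) := by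
  have h : Good B := ⟨hsymm, hpos, heven, h2⟩
  obtain ⟨t, t8, t0, t2⟩ := exists_frame h h4 h6 h8
  have hc := coord_range h t t8 t0 t2
  have hinj := phi_injective h t t8 t0
  have hM : {y : Fin 24 → ℤ | y ∈ (phi B t).range ∧ ∑ i, y i ^ 2 = 32}.ncard = 196560 := by
    have himg : {y : Fin 24 → ℤ | y ∈ (phi B t).range ∧ ∑ i, y i ^ 2 = 32} =
        phi B t '' {x : Fin 24 → ℤ | bf B x x = 4} := by
      ext y
      constructor
      · rintro ⟨⟨x, rfl⟩, hy⟩
        refine ⟨x, ?_, rfl⟩
        rw [phi_norm h t t8 t0] at hy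
        have : bf B x x = 4 := by omega
        exact this
      · rintro ⟨x, hx, rfl⟩
        refine ⟨⟨x, rfl⟩, ?_⟩
        rw [phi_norm h t t8 t0]
        have : bf B x x = 4 := hx
        omega
    rw [himg, Set.ncard_image_of_injective _ hinj]
    exact h4
  obtain ⟨e, u, hu, hv⟩ := Cfsg.Agent.SporadicA.LeechCoordIso.exists_iso hc hM
    (fun C hdim horth h4 hno4 => Cfsg.Agent.S0375.result C hdim horth h4 hno4)
  have huu : ∀ i, u i * u i = 1 := fun i => by
    rcases hu i with h | h <;> rw [h] <;> norm_num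
  let F : (Fin 24 → ℤ) →+ (GolayPt → ℤ) :=
    { toFun := fun x p => u (e.symm p) * phi B t x (e.symm p)
      map_zero' := by
        funext p
        rw [map_zero]
        simp
      map_add' := fun x y => by
        funext p
        rw [map_add]
        simp only [Pi.add_apply]
        ring }
  have hF : ∀ x p, F x p = u (e.symm p) * phi B t x (e.symm p) := fun x p => rfl
  have hFm : ∀ x, F x ∈ leechLattice := by
    intro x
    rw [hv]
    refine ⟨x, ?_⟩
    funext i
    rw [hF, e.symm_apply_apply, ← mul_assoc, huu, one_mul]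
  have hFinj : Function.Injective F := by
    intro x y hxy
    apply hinj
    funext i
    have h1 := congrFun hxy (e i)
    rw [hF, hF, e.symm_apply_apply] at h1
    have h2 : u i * (u i * phi B t x i) = u i * (u i * phi B t y i) := by rw [h1]
    rwa [← mul_assoc, ← mul_assoc, huu, one_mul, one_mul] at h2
  let G : (Fin 24 → ℤ) →+ leechLattice := F.codRestrict leechLattice hFm
  have hG : ∀ x, ((G x : leechLattice) : GolayPt → ℤ) = F x := fun x => rfl
  have hbij : Function.Bijective G := by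
    constructor
    · intro x y hxy
      apply hFinj
      rw [← hG, ← hG, hxy]
    · rintro ⟨v, hvm⟩
      obtain ⟨x, hx⟩ := (hv v).1 hvm
      refine ⟨x, ?_⟩
      apply Subtype.ext
      rw [hG]
      funext p
      rw [hF, hx]
      simp only
      rw [e.apply_symm_apply, ← mul_assoc, huu, one_mul]
  refine ⟨AddEquiv.ofBijective G hbij, fun x => ?_⟩
  have h1 : sqNorm (F x) = ∑ i, (phi B t x i) ^ 2 := by
    unfold sqNorm
    rw [← Equiv.sum_comp e.symm (fun i => (phi B t x i) ^ 2)]
    apply Finset.sum_congr rfl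
    intro p _
    rw [hF, mul_pow, sq (u _), huu, one_mul]
  have h2 : ((AddEquiv.ofBijective G hbij x : leechLattice) : GolayPt → ℤ) = F x := rfl
  rw [h2, h1, phi_norm h t t8 t0]
  rfl

end Cfsg.Agent.S0406
end
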