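import Cfsg.Statements.S0408
import Cfsg.Agent.SporadicA.Steiner12
set_option linter.all false

set_option autoImplicit false
open Cfsg

namespace Cfsg.Agent.S0408

/-- Uniqueness of the Steiner system S(5, 6, 12) up to isomorphism. -/
theorem result {α β : Type*} [Fintype α] [DecidableEq α] [Fintype β] [DecidableEq β] (hα : Fintype.card α = 12) (hβ : Fintype.card β = 12) {B : Set (Finset α)} {B' : Set (Finset β)} (hB : Cfsg.IsSteinerSystem 5 6 B) (hB' : Cfsg.IsSteinerSystem 5 6 B') : Cfsg.SetSystemIso B B' := by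
  have eα : Fin 12 ≃ α := (Fintype.equivFinOfCardEq hα).symm
  have eβ : Fin 12 ≃ β := (Fintype.equivFinOfCardEq hβ).symm
  have c : Fin 5 ↪ Fin 12 := Fin.castLEEmb (by norm_num)
  obtain ⟨e, ⟨he, -⟩, -⟩ := Cfsg.Agent.SporadicA.Steiner12.exists_unique_iso hα hβ hB hB'
    (c.trans eα.toEmbedding) (c.trans eβ.toEmbedding)
  exact ⟨e, he⟩

end Cfsg.Agent.S0408
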