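import Mathlib
import Cfsg.Agent.SporadicA.SteinerMask
import Cfsg.Statements.S0411
set_option linter.all false

-- part: SporadicA/SteinerSolve
section
/-!
# A checked search for Steiner systems S(t, t+1, n)

The known blocks are a list `K` of binary words.  One step of the search takes a `t`-subset `T` and runs
through the blocks containing it that do not contradict `K`; two branches that differ by a permutation
from a list `Sg` are identified, and at the end one of these permutations takes the standard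
system into the blocks found.
-/

set_option autoImplicit false

namespace Cfsg.Agent.SporadicA.SteinerSolve

open Finset Cfsg.Agent.SporadicA.SteinerMask

/-- at least `t` ones -/
def geN : ℕ → ℕ → Bool
  | 0, _ => true
  | t + 1, x => !(Nat.beq x 0) && geN t (x &&& (x - 1))

theorem geN_iff {f : ℕ} : ∀ (t x : ℕ), x < 2 ^ f → (geN t x = true ↔ t ≤ popc f x)
  | 0, x, _ => by simp [geN]
  | t + 1, x, hx => by
    rw [geN]
    by_cases h0 : x = 0
    · rw [h0, popc_of_zero]
      simp
    · rw [SteinerMask.beq_false h0, Bool.not_false, Bool.true_and,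
        geN_iff t _ (lt_of_le_of_lt Nat.and_le_left hx), popc_drop f x h0 hx]
      omega

/-- no contradiction with the blocks of `K` -/
def noConf (t : ℕ) (K : List ℕ) (c : ℕ) : Bool := K.all fun k => Nat.beq c k || !(geN t (c &&& k))

/-- the possible blocks through the `t`-subset `T` -/
def cand (n t : ℕ) (K : List ℕ) (T : ℕ) : List ℕ :=
  ((List.range n).map fun x => T ||| (1 <<< x)).filter fun c => !(Nat.beq c T) && noConf t K c

/-- action of a permutation, given by the list of its values, on words -/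
def actM : List ℕ → ℕ → ℕ
  | [], _ => 0
  | a :: l, m => (m % 2) * 2 ^ a + actM l (m / 2)

/-- The search. -/
def solve (n t : ℕ) (Sg : List (List ℕ)) (Std : List ℕ) : List ℕ → List ℕ → Bool
  | [], K => Sg.any fun s => Std.all fun m => K.contains (actM s m)
  | T :: Ts, K => (K.any fun k => Nat.beq (k &&& T) T) && solve n t Sg Std Ts K ||
    match cand n t K T with
    | [] => true
    | c' :: cs => solve n t Sg Std Ts (c' :: K) &&
        cs.all fun c => (Sg.any fun s => (c' :: K).all fun k => (c :: K).contains (actM s k)) ||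
          solve n t Sg Std Ts (c :: K)

/-- the list of values of a permutation -/
def permOK (n : ℕ) (l : List ℕ) : Bool :=
  Nat.beq l.length n && (l.all fun x => Nat.blt x n) && decide l.Nodup

theorem actM_eq : ∀ (l : List ℕ) (m : ℕ), actM l m =
    ∑ i : Fin l.length, if m.testBit i = true then 2 ^ (l.get i) else 0
  | [], m => by simp [actM]
  | a :: l, m => by
    rw [actM, actM_eq l]
    rw [show (∑ i : Fin (a :: l).length, if m.testBit (i : ℕ) = true then 2 ^ ((a :: l).get i) else 0) =
      ∑ i : Fin (l.length + 1), if m.testBit (i : ℕ) = true then 2 ^ ((a :: l).get i) else 0 from rfl]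
    rw [Fin.sum_univ_succ]
    congr 1
    · simp only [Fin.val_zero, Nat.testBit_zero, decide_eq_true_eq]
      rcases Nat.mod_two_eq_zero_or_one m with h | h <;> simp [h]
    · refine Finset.sum_congr rfl fun i _ => ?_
      rw [Fin.val_succ, Nat.testBit_succ]
      rfl

theorem exists_perm {n : ℕ} {l : List ℕ} (h : permOK n l = true) :
    ∃ σ : Equiv.Perm (Fin n), ∀ m, (ofMask n m).map σ.toEmbedding = ofMask n (actM l m) := by
  rw [permOK, Bool.and_eq_true, Bool.and_eq_true, decide_eq_true_eq] at h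
  obtain ⟨⟨h1, h2⟩, h3⟩ := h
  have h1' := Nat.eq_of_beq_eq_true h1
  subst h1'
  rw [List.all_eq_true] at h2
  let f : Fin l.length → Fin l.length := fun i => ⟨l.get i, by
    have := h2 (l.get i) (List.get_mem l i)
    rwa [Nat.blt_eq] at this⟩
  have hf : Function.Injective f := by
    intro i j hij
    have : l.get i = l.get j := congrArg Fin.val hij
    exact (List.nodup_iff_injective_get.1 h3) this
  have hbij : Function.Bijective f := Finite.injective_iff_bijective.1 hf
  refine ⟨Equiv.ofBijective f hbij, fun m => ?_⟩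
  have key : mask ((ofMask l.length m).map (Equiv.ofBijective f hbij).toEmbedding) = actM l m := by
    rw [mask, Finset.sum_map, ofMask, Finset.sum_filter, actM_eq]
    rfl
  rw [← key, ofMask_mask]

variable {α : Type*} {B : Set (Finset α)}

/-- all words of `K` are blocks in the labelling `e` -/
def Known (B : Set (Finset α)) {n : ℕ} (e : Fin n ≃ α) (K : List ℕ) : Prop :=
  ∀ k ∈ K, k < 2 ^ n ∧ (ofMask n k).map e.toEmbedding ∈ B

theorem exists_cand {n t : ℕ} {K : List ℕ} {T : ℕ} {S : Set (Finset (Fin n))}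
    (hS : Cfsg.IsSteinerSystem t (t + 1) S) (hK : ∀ k ∈ K, k < 2 ^ n ∧ ofMask n k ∈ S)
    (hT : T < 2 ^ n) (hTt : popc n T = t) :
    ∃ c ∈ cand n t K T, c < 2 ^ n ∧ ofMask n c ∈ S := by
  have hcT : (ofMask n T).card = t := by rw [card_ofMask, hTt]
  obtain ⟨b, ⟨hb, hTb⟩, -⟩ := hS.2 (ofMask n T) hcT
  have hbc := hS.1 b hb
  obtain ⟨x, hx⟩ : ∃ x, b \ ofMask n T = {x} := by
    rw [← Finset.card_eq_one, Finset.card_sdiff_of_subset hTb, hbc, hcT]
    omega
  have hbx : b = insert x (ofMask n T) := by
    rw [← Finset.union_sdiff_of_subset hTb, hx, Finset.union_comm]; rfl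
  have hmask : mask b = T ||| (1 <<< (x : ℕ)) := by
    apply Nat.eq_of_testBit_eq
    intro i
    rw [Bool.eq_iff_iff, testBit_mask, Nat.testBit_or, Bool.or_eq_true, Nat.one_shiftLeft,
      Nat.testBit_two_pow, decide_eq_true_eq]
    constructor
    · rintro ⟨h, hi⟩
      rw [hbx, Finset.mem_insert, mem_ofMask] at hi
      rcases hi with hi | hi
      · right; rw [← hi]
      · left; exact hi
    · rintro (hi | hi)
      · have h : i < n := by
          by_contra hn
          rw [Nat.testBit_lt_two_pow (lt_of_lt_of_le hT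
            (Nat.pow_le_pow_right (by norm_num) (not_lt.1 hn)))] at hi
          exact Bool.false_ne_true hi
        exact ⟨h, by rw [hbx, Finset.mem_insert, mem_ofMask]; exact Or.inr hi⟩
      · subst hi
        exact ⟨x.2, by rw [hbx]; exact Finset.mem_insert_self _ _⟩
  refine ⟨mask b, ?_, mask_lt b, by rw [ofMask_mask]; exact hb⟩
  rw [cand, List.mem_filter, List.mem_map]
  refine ⟨⟨x, List.mem_range.2 x.2, hmask.symm⟩, ?_⟩
  rw [Bool.and_eq_true]
  constructor
  · rw [Bool.not_eq_true', SteinerMask.beq_false]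
    intro h
    have : popc n (mask b) = popc n T := by rw [h]
    rw [popc_mask, hbc, hTt] at this
    omega
  · rw [noConf, List.all_eq_true]
    intro k hk
    rw [Bool.or_eq_true]
    by_cases hbk : mask b = k
    · left; rw [hbk]; exact Nat.beq_refl k
    · right
      rw [Bool.not_eq_true', ← Bool.not_eq_true, geN_iff (f := n) t _
        (lt_of_le_of_lt Nat.and_le_left (mask_lt b)), not_le]
      by_contra hcon
      rw [not_lt] at hcon
      apply hbk
      obtain ⟨h1, h2⟩ := hK k hk
      have e1 := mask_ofMask h1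
      rw [← e1, popc_mask_and] at hcon
      rw [← e1, eq_of_card_inter hS hb h2 hcon]

theorem cand_lt {n t : ℕ} {K : List ℕ} {T : ℕ} (hT : T < 2 ^ n) : ∀ c ∈ cand n t K T, c < 2 ^ n := by
  intro c hc
  rw [cand, List.mem_filter, List.mem_map] at hc
  obtain ⟨⟨x, hx, rfl⟩, -⟩ := hc
  rw [List.mem_range] at hx
  refine Nat.or_lt_two_pow hT ?_
  rw [Nat.one_shiftLeft]
  exact Nat.pow_lt_pow_right (by norm_num) hx

theorem solve_sound {n t : ℕ} {Sg : List (List ℕ)} {Std : List ℕ}
    (hB : Cfsg.IsSteinerSystem t (t + 1) B) (hSg : ∀ s ∈ Sg, permOK n s = true)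
    (hStd : ∀ m ∈ Std, m < 2 ^ n) :
    ∀ (Ts K : List ℕ), (∀ T ∈ Ts, T < 2 ^ n ∧ popc n T = t) → solve n t Sg Std Ts K = true →
      ∀ e : Fin n ≃ α, Known B e K → ∃ e' : Fin n ≃ α, Known B e' Std
  | [], K, _, hs, e, hK => by
    rw [solve, List.any_eq_true] at hs
    obtain ⟨s, hs1, hs2⟩ := hs
    rw [List.all_eq_true] at hs2
    obtain ⟨σ, hσ⟩ := exists_perm (hSg s hs1)
    refine ⟨σ.trans e, fun m hm => ⟨hStd m hm, ?_⟩⟩
    have h1 := hs2 m hm
    rw [List.contains_iff_mem] at h1
    obtain ⟨h2, h3⟩ := hK _ h1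
    have : (ofMask n m).map (σ.trans e).toEmbedding =
        ((ofMask n m).map σ.toEmbedding).map e.toEmbedding := by
      rw [Finset.map_map]; rfl
    rw [this, hσ]
    exact h3
  | T :: Ts, K, hTs, hs, e, hK => by
    have hTs' : ∀ T ∈ Ts, T < 2 ^ n ∧ popc n T = t := fun T hT => hTs T (List.mem_cons_of_mem _ hT)
    rw [solve, Bool.or_eq_true, Bool.and_eq_true] at hs
    rcases hs with hs | hs
    · exact solve_sound hB hSg hStd Ts K hTs' hs.2 e hK
    · obtain ⟨hT1, hT2⟩ := hTs T List.mem_cons_self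
      obtain ⟨c, hc, hc1, hc2⟩ := exists_cand (steiner_pull hB e) (K := K) (T := T)
        (fun k hk => hK k hk) hT1 hT2
      have hcK : Known B e (c :: K) := by
        intro k hk
        rcases List.mem_cons.1 hk with rfl | hk
        · exact ⟨hc1, hc2⟩
        · exact hK k hk
      have hlt := cand_lt (t := t) (K := K) hT1
      revert hs hc hlt
      generalize cand n t K T = C
      intro hs hc hlt
      cases C with
      | nil => exact absurd hc List.not_mem_nil
      | cons c' cs =>
        simp only [Bool.and_eq_true, List.all_eq_true] at hs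
        obtain ⟨hs1, hs2⟩ := hs
        rcases List.mem_cons.1 hc with rfl | hc
        · exact solve_sound hB hSg hStd Ts _ hTs' hs1 e hcK
        · have h1 := hs2 c hc
          rw [Bool.or_eq_true] at h1
          rcases h1 with h1 | h1
          · rw [List.any_eq_true] at h1
            obtain ⟨s, hsS, hs3⟩ := h1
            rw [List.all_eq_true] at hs3
            obtain ⟨σ, hσ⟩ := exists_perm (hSg s hsS)
            refine solve_sound hB hSg hStd Ts (c' :: K) hTs' hs1 (σ.trans e) ?_
            intro k hk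
            have h4 := hs3 k hk
            rw [List.contains_iff_mem] at h4
            obtain ⟨h2, h3⟩ := hcK _ h4
            constructor
            · rcases List.mem_cons.1 hk with rfl | hk
              · exact hlt _ List.mem_cons_self
              · exact (hK k hk).1
            · have : (ofMask n k).map (σ.trans e).toEmbedding =
                  ((ofMask n k).map σ.toEmbedding).map e.toEmbedding := by
                rw [Finset.map_map]; rfl
              rw [this, hσ]
              exact h3
          · exact solve_sound hB hSg hStd Ts _ hTs' h1 e hcK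

end Cfsg.Agent.SporadicA.SteinerSolve
end

-- part: SporadicA/Steiner11
section
/-!
# The Steiner systems S(4, 5, 11)

Every system has a labelling by `Fin 11` in which its blocks are the sixty-six words of the list `Std11`.
-/

set_option autoImplicit false

namespace Cfsg.Agent.SporadicA.Steiner11

open Finset Cfsg.Agent.SporadicA.SteinerMask Cfsg.Agent.SporadicA.SteinerSolve

/-- the blocks of the standard system -/
def Std11 : List ℕ :=
  [31, 103, 121, 171, 182, 213, 218, 236, 301, 314, 334, 339, 372, 391, 412, 433, 457, 482, 558, 565,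
    587, 604, 626, 653, 659, 696, 710, 737, 790, 793, 803, 837, 872, 906, 932, 976, 1075, 1084,
    1101, 1110, 1130, 1166, 1177, 1189, 1219, 1264, 1291, 1301, 1318, 1368, 1377, 1426, 1448, 1476,
    1543, 1562, 1577, 1617, 1636, 1684, 1698, 1736, 1804, 1840, 1858, 1921]

/-- the order in which the four-subsets are treated -/
def Ts11 : List ℕ :=
  [39, 135, 519, 43, 523, 267, 1059, 291, 275, 147, 195, 45, 269, 525, 77, 141, 1061, 293, 165, 53,
    149, 277, 85, 197, 325, 297, 57, 89, 105, 553, 537, 153, 201, 393, 649, 113, 177, 593, 401, 785,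
    225, 353, 609, 417, 673, 449, 833, 897, 300, 46, 556, 1068, 60, 108, 204, 270, 78, 142, 166, 54,
    150, 294, 278, 86, 198, 326, 58, 90, 106, 554, 538, 154, 202, 394, 650, 114, 178, 594, 402, 786,
    226, 354, 610, 418, 674, 450, 834, 898, 92, 156, 284, 540, 588, 396, 780, 116, 564, 212, 404,
    660, 228, 356, 612, 420, 804, 452, 708, 900, 184, 312, 216, 344, 232, 360, 424, 808, 456, 712,
    840, 240, 368, 432, 688, 816, 464, 720]

/-- permutations -/
def Sg11 : List (List ℕ) :=
  [[0, 1, 2, 3, 4, 5, 7, 6, 8, 9, 10], [0, 1, 2, 3, 4, 5, 8, 7, 6, 9, 10], [0, 1, 2, 3, 4, 5, 9, 7, 8,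
    6, 10], [0, 1, 2, 3, 4, 5, 10, 7, 8, 9, 6], [0, 1, 2, 3, 4, 5, 6, 7, 9, 8, 10], [0, 1, 2, 3, 4,
    5, 6, 7, 10, 9, 8], [0, 1, 2, 3, 4, 5, 6, 8, 7, 9, 10], [0, 1, 2, 3, 4, 5, 6, 9, 10, 7, 8], [0,
    1, 2, 3, 4, 5, 6, 10, 9, 7, 8], [0, 1, 2, 3, 4, 7, 8, 5, 6, 9, 10], [0, 1, 2, 3, 4, 5, 6, 7, 8,
    9, 10], [0, 1, 2, 3, 4, 6, 5, 9, 10, 7, 8], [0, 1, 2, 3, 4, 10, 9, 8, 7, 6, 5], [0, 1, 2, 3, 4,
    9, 10, 6, 5, 8, 7], [0, 1, 2, 3, 4, 8, 7, 10, 9, 5, 6], [0, 1, 2, 3, 4, 7, 8, 5, 6, 10, 9]]

theorem Sg11_ok : ∀ s ∈ Sg11, permOK 11 s = true := by decide +kernel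

theorem Ts11_ok : ∀ T ∈ Ts11, T < 2 ^ 11 ∧ popc 11 T = 4 := by decide +kernel

theorem Std11_lt : ∀ m ∈ Std11, m < 2 ^ 11 := by decide +kernel

theorem solve11 : solve 11 4 Sg11 Std11 Ts11 [31] = true := by decide +kernel

theorem Std11_cover : ∀ T < 2 ^ 11, popc 11 T = 4 → ∃ m ∈ Std11, T &&& m = T := by decide +kernel

end Cfsg.Agent.SporadicA.Steiner11
end

-- part: SporadicA/SteinerSolveIso
section
/-!
# Uniqueness of Steiner systems S(t, t+1, n) from the checked search
-/

set_option autoImplicit false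

namespace Cfsg.Agent.SporadicA.SteinerSolveIso

open Finset Cfsg.Agent.SporadicA.SteinerMask Cfsg.Agent.SporadicA.SteinerSolve

/-- a labelling in which a given subset gets given labels -/
theorem exists_equiv_map {n : ℕ} {α : Type*} [Fintype α] [DecidableEq α] (hα : Fintype.card α = n)
    (s : Finset (Fin n)) (b : Finset α) (h : s.card = b.card) :
    ∃ e : Fin n ≃ α, s.map e.toEmbedding = b := by
  let g : s ≃ b := Finset.equivOfCardEq h
  let f : Fin n → α := fun i => if hi : i ∈ s then (g ⟨i, hi⟩ : α) else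
    (Fintype.equivFinOfCardEq hα).symm i
  have hinj : Set.InjOn f s := by
    intro x hx y hy hxy
    have hx' : x ∈ s := hx
    have hy' : y ∈ s := hy
    simp only [f, dif_pos hx', dif_pos hy'] at hxy
    have := g.injective (Subtype.ext hxy)
    exact congrArg (fun z : s => (z : Fin n)) this
  obtain ⟨e, he⟩ := Finset.exists_equiv_extend_of_card_eq (t := (Finset.univ : Finset α))
    (by rw [Finset.card_univ, hα, Fintype.card_fin]) (s := s) (f := f) (Finset.subset_univ _) hinj
  refine ⟨e.trans (Equiv.subtypeUnivEquiv (by simp)), ?_⟩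
  apply Finset.eq_of_subset_of_card_le
  · intro y hy
    obtain ⟨x, hx, rfl⟩ := Finset.mem_map.1 hy
    show ((e x : (Finset.univ : Finset α)) : α) ∈ b
    rw [he x hx]
    simp only [f, dif_pos hx]
    exact (g ⟨x, hx⟩).2
  · rw [Finset.card_map, h]

theorem exists_first {n t k : ℕ} {α : Type*} [Fintype α] [DecidableEq α] (hα : Fintype.card α = n)
    (htn : t ≤ n) {B : Set (Finset α)} (hB : Cfsg.IsSteinerSystem t k B) {m : ℕ} (hm : m < 2 ^ n)
    (hmk : popc n m = k) : ∃ e : Fin n ≃ α, Known B e [m] := by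
  obtain ⟨T, -, hT⟩ := Finset.exists_subset_card_eq (s := (Finset.univ : Finset α)) (n := t)
    (by rw [Finset.card_univ, hα]; exact htn)
  obtain ⟨b, ⟨hb, -⟩, -⟩ := hB.2 T hT
  obtain ⟨e, he⟩ := exists_equiv_map hα (ofMask n m) b (by rw [card_ofMask, hmk, hB.1 b hb])
  refine ⟨e, fun k hk => ?_⟩
  rw [List.mem_singleton] at hk
  subst hk
  exact ⟨hm, by rw [he]; exact hb⟩

/-- a system that contains a family covering all the `t`-subsets is that family -/
theorem mem_iff_of_known {n t k : ℕ} {α : Type*} {B : Set (Finset α)}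
    (hB : Cfsg.IsSteinerSystem t k B) (htk : t ≤ k) {e : Fin n ≃ α} {Std : List ℕ}
    (h : Known B e Std) (hcov : ∀ T < 2 ^ n, popc n T = t → ∃ m ∈ Std, T &&& m = T)
    (s : Finset (Fin n)) : s.map e.toEmbedding ∈ B ↔ mask s ∈ Std := by
  have hS := steiner_pull hB e
  constructor
  · intro hs
    have hs' : s ∈ {s : Finset (Fin n) | s.map e.toEmbedding ∈ B} := hs
    obtain ⟨T, hT, hTt⟩ := Finset.exists_subset_card_eq (s := s) (n := t)
      (by rw [hS.1 s hs']; exact htk)
    obtain ⟨m, hm, hTm⟩ := hcov (mask T) (mask_lt T) (by rw [popc_mask, hTt])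
    obtain ⟨h1, h2⟩ := h m hm
    rw [← mask_ofMask h1, mask_and_eq_iff_subset] at hTm
    have : s = ofMask n m := by
      apply eq_of_card_inter hS hs' h2
      rw [← hTt]
      exact Finset.card_le_card (Finset.subset_inter hT hTm)
    rw [this, mask_ofMask h1]
    exact hm
  · intro hs
    have := (h _ hs).2
    rwa [ofMask_mask] at this

theorem exists_standard {n t : ℕ} {α : Type*} [Fintype α] [DecidableEq α]
    (hα : Fintype.card α = n) (htn : t ≤ n) {B : Set (Finset α)}
    (hB : Cfsg.IsSteinerSystem t (t + 1) B) {Sg : List (List ℕ)} {Std Ts : List ℕ} {m0 : ℕ}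
    (hm0 : m0 < 2 ^ n) (hmk : popc n m0 = t + 1)
    (hSg : ∀ s ∈ Sg, permOK n s = true) (hStd : ∀ m ∈ Std, m < 2 ^ n)
    (hTs : ∀ T ∈ Ts, T < 2 ^ n ∧ popc n T = t) (hsolve : solve n t Sg Std Ts [m0] = true)
    (hcov : ∀ T < 2 ^ n, popc n T = t → ∃ m ∈ Std, T &&& m = T) :
    ∃ e : Fin n ≃ α, ∀ s : Finset (Fin n), s.map e.toEmbedding ∈ B ↔ mask s ∈ Std := by
  obtain ⟨e, he⟩ := exists_first hα htn hB hm0 hmk
  obtain ⟨e', he'⟩ := solve_sound hB hSg hStd Ts [m0] hTs hsolve e he
  exact ⟨e', mem_iff_of_known hB (Nat.le_succ t) he' hcov⟩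

end Cfsg.Agent.SporadicA.SteinerSolveIso
end

-- part: S0411
section
set_option autoImplicit false
open Cfsg

namespace Cfsg.Agent.S0411

open Cfsg.Agent.SporadicA.SteinerMask Cfsg.Agent.SporadicA.SteinerSolveIso
  Cfsg.Agent.SporadicA.Steiner11

/-- every system can be labelled so that its blocks are those of the list `Std11` -/
theorem exists_standard_label {α : Type*} [Fintype α] [DecidableEq α] (hα : Fintype.card α = 11)
    {B : Set (Finset α)} (hB : Cfsg.IsSteinerSystem 4 5 B) :
    ∃ e : Fin 11 ≃ α, ∀ s : Finset (Fin 11), s.map e.toEmbedding ∈ B ↔ mask s ∈ Std11 :=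
  exists_standard hα (by norm_num) hB (by norm_num) (by decide) Sg11_ok Std11_lt Ts11_ok solve11
    Std11_cover

/-- Uniqueness of the Steiner system S(4, 5, 11) up to isomorphism. -/
theorem result {α β : Type*} [Fintype α] [DecidableEq α] [Fintype β] [DecidableEq β] (hα : Fintype.card α = 11) (hβ : Fintype.card β = 11) {B : Set (Finset α)} {B' : Set (Finset β)} (hB : Cfsg.IsSteinerSystem 4 5 B) (hB' : Cfsg.IsSteinerSystem 4 5 B') : Cfsg.SetSystemIso B B' := by
  obtain ⟨e, he⟩ := exists_standard_label hα hB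
  obtain ⟨e', he'⟩ := exists_standard_label hβ hB'
  exact setSystemIso_of_label e e' (fun s => by rw [he, he'])

end Cfsg.Agent.S0411
end
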