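import Cfsg.Statements.S0415
set_option linter.all false
-- import your own Cfsg.Agent.* helpers here

set_option autoImplicit false
open Cfsg

namespace Cfsg.Agent.S0415

section Sharp

variable {α : Type*} [Fintype α] [DecidableEq α] (G : Subgroup (Equiv.Perm α))

omit [Fintype α] [DecidableEq α] in
theorem exists_unique_smul [MulAction.IsMultiplyPretransitive G α 4]
    (hsharp : ∀ x : Fin 4 ↪ α, MulAction.stabilizer G x = ⊥) (x y : Fin 4 ↪ α) :
    ∃! g : G, g • x = y := by
  obtain ⟨g, hg⟩ := MulAction.exists_smul_eq G x y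
  refine ⟨g, hg, fun h hh => ?_⟩
  have hh' : h • x = y := hh
  have e1 : (g⁻¹ * h) • x = g⁻¹ • h • x := mul_smul g⁻¹ h x
  have e2 : g⁻¹ • g • x = x := inv_smul_smul g x
  have : g⁻¹ * h ∈ MulAction.stabilizer G x := by
    rw [MulAction.mem_stabilizer_iff]
    exact e1.trans ((congrArg (fun t => g⁻¹ • t) (hh'.trans hg.symm)).trans e2)
  rw [hsharp x, Subgroup.mem_bot] at this
  exact (inv_mul_eq_one.mp this).symm

omit [Fintype α] [DecidableEq α] in
theorem eq_one_of_smul_eq (hsharp : ∀ x : Fin 4 ↪ α, MulAction.stabilizer G x = ⊥)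
    (x : Fin 4 ↪ α) (g : G) (h : g • x = x) : g = 1 := by
  have : g ∈ MulAction.stabilizer G x := h
  rwa [hsharp x, Subgroup.mem_bot] at this

/-- Every injective 4-tuple `x` gives exactly one `g` with `g • x = x ∘ σ`. -/
theorem sum_count [Fintype G] [MulAction.IsMultiplyPretransitive G α 4]
    (hsharp : ∀ x : Fin 4 ↪ α, MulAction.stabilizer G x = ⊥) (σ : Equiv.Perm (Fin 4)) :
    ∑ g : G, (Finset.univ.filter (fun x : Fin 4 ↪ α => g • x = σ.toEmbedding.trans x)).card
      = (Fintype.card α).descFactorial 4 := by
  classical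
  choose f hf hf' using fun x : Fin 4 ↪ α =>
    exists_unique_smul G hsharp x (σ.toEmbedding.trans x)
  have h1 : (Finset.univ : Finset (Fin 4 ↪ α)).card = (Fintype.card α).descFactorial 4 := by
    rw [Finset.card_univ, Fintype.card_embedding_eq, Fintype.card_fin]
  rw [← h1, Finset.card_eq_sum_card_fiberwise (f := f) (t := Finset.univ)
    (fun x _ => Finset.mem_coe.2 (Finset.mem_univ _))]
  refine Finset.sum_congr rfl fun g _ => ?_
  congr 1
  ext x
  simp only [Finset.mem_filter, Finset.mem_univ, true_and]
  constructor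
  · intro h
    exact (hf' x g h).symm
  · intro h
    rw [← h]
    exact hf x

/-- The swap `(0 1)(2 3)`. -/
def s1 : Equiv.Perm (Fin 4) := Equiv.swap 0 1 * Equiv.swap 2 3

/-- The swap `(2 3)`. -/
def s2 : Equiv.Perm (Fin 4) := Equiv.swap 2 3

omit [Fintype α] [DecidableEq α] in
theorem sq_eq_one (hsharp : ∀ x : Fin 4 ↪ α, MulAction.stabilizer G x = ⊥)
    (σ : Equiv.Perm (Fin 4)) (hσ : ∀ i, σ (σ i) = i)
    (x : Fin 4 ↪ α) (g : G) (h : g • x = σ.toEmbedding.trans x) : g ^ 2 = 1 := by
  apply eq_one_of_smul_eq G hsharp x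
  have e : g ^ 2 • x = g • g • x := by
    rw [pow_two]; exact mul_smul g g x
  rw [e, h]
  ext i
  have h2 : g • x (σ i) = x (σ (σ i)) := by
    have := congrArg (fun e : Fin 4 ↪ α => e (σ i)) h
    simpa using this
  rw [hσ] at h2
  simpa using h2

theorem count1 (g : Equiv.Perm α) (hg : g ^ 2 = 1) :
    (Finset.univ.filter (fun x : Fin 4 ↪ α => ∀ i, g (x i) = x (s1 i))).card
      = g.support.card * (g.support.card - 2) := by
  classical
  have hgg : ∀ a, g (g a) = a := fun a => by
    rw [← Equiv.Perm.mul_apply, ← pow_two, hg, Equiv.Perm.one_apply]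
  have h1 : (g.support.sigma (fun a => g.support \ {a, g a})).card
      = g.support.card * (g.support.card - 2) := by
    rw [Finset.card_sigma, Finset.sum_const_nat (m := g.support.card - 2)]
    intro a ha
    rw [Finset.card_sdiff_of_subset, Finset.card_pair]
    · exact fun h => (Equiv.Perm.mem_support.1 ha) h.symm
    · intro b hb
      simp only [Finset.mem_insert, Finset.mem_singleton] at hb
      rcases hb with rfl | rfl
      · exact ha
      · rw [Equiv.Perm.apply_mem_support]; exact ha
  rw [← h1]
  refine Finset.card_bij (fun x _ => ⟨x 0, x 2⟩) ?_ ?_ ?_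
  · intro x hx
    simp only [Finset.mem_filter, Finset.mem_univ, true_and] at hx
    have e0 := hx 0
    have e2 := hx 2
    have t0 : s1 0 = 1 := by decide
    have t2 : s1 2 = 3 := by decide
    rw [t0] at e0
    rw [t2] at e2
    simp only [Finset.mem_sigma, Equiv.Perm.mem_support, Finset.mem_sdiff, Finset.mem_insert,
      Finset.mem_singleton, not_or, e0, e2]
    refine ⟨?_, ?_, ?_, ?_⟩ <;> exact fun h => absurd (x.injective h) (by decide)
  · intro x hx y hy hxy
    simp only [Finset.mem_filter, Finset.mem_univ, true_and] at hx hy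
    simp only [Sigma.mk.injEq, heq_eq_eq] at hxy
    have e0 := hx 0
    have e2 := hx 2
    have f0 := hy 0
    have f2 := hy 2
    have t0 : s1 0 = 1 := by decide
    have t2 : s1 2 = 3 := by decide
    rw [t0] at e0 f0
    rw [t2] at e2 f2
    ext i
    fin_cases i
    · exact hxy.1
    · show x 1 = y 1
      rw [← e0, ← f0, hxy.1]
    · exact hxy.2
    · show x 3 = y 3
      rw [← e2, ← f2, hxy.2]
  · rintro ⟨a, b⟩ hab
    simp only [Finset.mem_sigma, Equiv.Perm.mem_support, Finset.mem_sdiff, Finset.mem_insert,
      Finset.mem_singleton, not_or] at hab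
    obtain ⟨ha, hb, hba, hbga⟩ := hab
    have hgab : g a ≠ g b := fun h => hba (g.injective h).symm
    have hagb : a ≠ g b := fun h => hbga (by rw [h, hgg])
    refine ⟨⟨![a, g a, b, g b], ?_⟩, ?_, rfl⟩
    · intro i j hij
      fin_cases i <;> fin_cases j <;> first | rfl | (exfalso; simp at hij; tauto)
    · simp only [Finset.mem_filter, Finset.mem_univ, true_and]
      intro i
      fin_cases i
      · show g a = ![a, g a, b, g b] (s1 0)
        rw [show s1 0 = 1 by decide]; rfl
      · show g (g a) = ![a, g a, b, g b] (s1 1)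
        rw [show s1 1 = 0 by decide, hgg]; rfl
      · show g b = ![a, g a, b, g b] (s1 2)
        rw [show s1 2 = 3 by decide]; rfl
      · show g (g b) = ![a, g a, b, g b] (s1 3)
        rw [show s1 3 = 2 by decide, hgg]; rfl

theorem count2 (g : Equiv.Perm α) (hg : g ^ 2 = 1) :
    (Finset.univ.filter (fun x : Fin 4 ↪ α => ∀ i, g (x i) = x (s2 i))).card
      = (g.supportᶜ.card * (g.supportᶜ.card - 1)) * g.support.card := by
  classical
  have hgg : ∀ a, g (g a) = a := fun a => by
    rw [← Equiv.Perm.mul_apply, ← pow_two, hg, Equiv.Perm.one_apply]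
  have h1 : ((g.supportᶜ.sigma (fun a => g.supportᶜ \ {a})) ×ˢ g.support).card
      = (g.supportᶜ.card * (g.supportᶜ.card - 1)) * g.support.card := by
    rw [Finset.card_product, Finset.card_sigma,
      Finset.sum_const_nat (m := g.supportᶜ.card - 1)]
    intro a ha
    rw [Finset.card_sdiff_of_subset, Finset.card_singleton]
    intro b hb
    simp only [Finset.mem_singleton] at hb
    rw [hb]; exact ha
  rw [← h1]
  refine Finset.card_bij (fun x _ => (⟨x 0, x 1⟩, x 2)) ?_ ?_ ?_
  · intro x hx
    simp only [Finset.mem_filter, Finset.mem_univ, true_and] at hx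
    have e0 := hx 0
    have e1 := hx 1
    have e2 := hx 2
    have t0 : s2 0 = 0 := by decide
    have t1 : s2 1 = 1 := by decide
    have t2 : s2 2 = 3 := by decide
    rw [t0] at e0
    rw [t1] at e1
    rw [t2] at e2
    simp only [Finset.mem_product, Finset.mem_sigma, Finset.mem_compl, Equiv.Perm.mem_support,
      Finset.mem_sdiff, Finset.mem_singleton, e0, e1, e2]
    refine ⟨⟨by simp, by simp, ?_⟩, ?_⟩ <;> exact fun h => absurd (x.injective h) (by decide)
  · intro x hx y hy hxy
    simp only [Finset.mem_filter, Finset.mem_univ, true_and] at hx hy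
    simp only [Prod.mk.injEq, Sigma.mk.injEq, heq_eq_eq] at hxy
    have e2 := hx 2
    have f2 := hy 2
    have t2 : s2 2 = 3 := by decide
    rw [t2] at e2 f2
    ext i
    fin_cases i
    · exact hxy.1.1
    · exact hxy.1.2
    · exact hxy.2
    · show x 3 = y 3
      rw [← e2, ← f2, hxy.2]
  · rintro ⟨⟨a, b⟩, c⟩ hab
    simp only [Finset.mem_product, Finset.mem_sigma, Finset.mem_compl, Equiv.Perm.mem_support,
      Finset.mem_sdiff, Finset.mem_singleton, not_not] at hab
    obtain ⟨⟨ha, hb, hba⟩, hc⟩ := hab
    have hac : a ≠ c := fun h => hc (h ▸ ha)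
    have hbc : b ≠ c := fun h => hc (h ▸ hb)
    have hagc : a ≠ g c := fun h => hac (g.injective (ha.trans h))
    have hbgc : b ≠ g c := fun h => hbc (g.injective (hb.trans h))
    refine ⟨⟨![a, b, c, g c], ?_⟩, ?_, rfl⟩
    · intro i j hij
      fin_cases i <;> fin_cases j <;> first | rfl | (exfalso; simp at hij; tauto)
    · simp only [Finset.mem_filter, Finset.mem_univ, true_and]
      intro i
      fin_cases i
      · show g a = ![a, b, c, g c] (s2 0)
        rw [show s2 0 = 0 by decide]; exact ha
      · show g b = ![a, b, c, g c] (s2 1)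
        rw [show s2 1 = 1 by decide]; exact hb
      · show g c = ![a, b, c, g c] (s2 2)
        rw [show s2 2 = 3 by decide]; rfl
      · show g (g c) = ![a, b, c, g c] (s2 3)
        rw [show s2 3 = 2 by decide, hgg]; rfl

/-- The counting data: the involutions of `G` other than `1`. -/
theorem key [Fintype G] [MulAction.IsMultiplyPretransitive G α 4]
    (hsharp : ∀ x : Fin 4 ↪ α, MulAction.stabilizer G x = ⊥) :
    ∃ J : Finset G, (∀ g ∈ J, g ≠ 1 ∧ g ^ 2 = 1) ∧ (∀ g : G, g ≠ 1 → g ^ 2 = 1 → g ∈ J) ∧
      ∑ g ∈ J, (g : Equiv.Perm α).support.card * ((g : Equiv.Perm α).support.card - 2)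
        = (Fintype.card α).descFactorial 4 ∧
      ∑ g ∈ J, ((Fintype.card α - (g : Equiv.Perm α).support.card) *
        (Fintype.card α - (g : Equiv.Perm α).support.card - 1)) *
          (g : Equiv.Perm α).support.card
        = (Fintype.card α).descFactorial 4 := by
  classical
  refine ⟨Finset.univ.filter (fun g => g ≠ 1 ∧ g ^ 2 = 1), ?_, ?_, ?_, ?_⟩
  · intro g hg
    simpa using hg
  · intro g h1 h2
    simp only [Finset.mem_filter, Finset.mem_univ, true_and]
    exact ⟨h1, h2⟩
  · rw [← sum_count G hsharp s1, Finset.sum_filter]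
    refine Finset.sum_congr rfl fun g _ => ?_
    have hs : ∀ x : Fin 4 ↪ α, g • x = s1.toEmbedding.trans x ↔
        ∀ i, (g : Equiv.Perm α) (x i) = x (s1 i) := by
      intro x
      constructor
      · intro h i
        exact congrArg (fun e : Fin 4 ↪ α => e i) h
      · intro h
        ext i
        exact h i
    split_ifs with h
    · rw [← count1 (g : Equiv.Perm α) (by
        have := congrArg (fun t : G => (t : Equiv.Perm α)) h.2
        simpa using this)]
      congr 1
      ext x
      simp only [Finset.mem_filter, Finset.mem_univ, true_and, hs]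
    · symm
      rw [Finset.card_eq_zero, Finset.filter_eq_empty_iff]
      intro x _ hx
      have h2 := sq_eq_one G hsharp s1 (by decide) x g hx
      have h1 : g = 1 := by
        by_contra h1
        exact h ⟨h1, h2⟩
      have := (hs x).1 hx 0
      rw [h1] at this
      simp only [OneMemClass.coe_one, Equiv.Perm.one_apply] at this
      exact absurd (x.injective this) (by decide)
  · rw [← sum_count G hsharp s2, Finset.sum_filter]
    refine Finset.sum_congr rfl fun g _ => ?_
    have hs : ∀ x : Fin 4 ↪ α, g • x = s2.toEmbedding.trans x ↔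
        ∀ i, (g : Equiv.Perm α) (x i) = x (s2 i) := by
      intro x
      constructor
      · intro h i
        exact congrArg (fun e : Fin 4 ↪ α => e i) h
      · intro h
        ext i
        exact h i
    split_ifs with h
    · rw [← Finset.card_compl, ← count2 (g : Equiv.Perm α) (by
        have := congrArg (fun t : G => (t : Equiv.Perm α)) h.2
        simpa using this)]
      congr 1
      ext x
      simp only [Finset.mem_filter, Finset.mem_univ, true_and, hs]
    · symm
      rw [Finset.card_eq_zero, Finset.filter_eq_empty_iff]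
      intro x _ hx
      have h2 := sq_eq_one G hsharp s2 (by decide) x g hx
      have h1 : g = 1 := by
        by_contra h1
        exact h ⟨h1, h2⟩
      have := (hs x).1 hx 2
      rw [h1] at this
      simp only [OneMemClass.coe_one, Equiv.Perm.one_apply] at this
      exact absurd (x.injective this) (by decide)

/-- A nonidentity element of `G` moves at least `n - 3` points. -/
theorem support_ge (hsharp : ∀ x : Fin 4 ↪ α, MulAction.stabilizer G x = ⊥) (g : G)
    (hg : g ≠ 1) : Fintype.card α ≤ (g : Equiv.Perm α).support.card + 3 := by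
  by_contra hlt
  push Not at hlt
  apply hg
  have h1 : 4 ≤ ((g : Equiv.Perm α).supportᶜ).card := by
    rw [Finset.card_compl]; omega
  obtain ⟨s, hs, hs4⟩ := Finset.exists_subset_card_eq h1
  let e : Fin 4 ≃ s := (Finset.equivFinOfCardEq hs4).symm
  let x : Fin 4 ↪ α := e.toEmbedding.trans (Function.Embedding.subtype _)
  apply eq_one_of_smul_eq G hsharp x
  ext i
  have : ((e i : s) : α) ∈ (g : Equiv.Perm α).supportᶜ := hs (e i).2
  rw [Finset.mem_compl, Equiv.Perm.mem_support, not_not] at this
  exact this

omit [DecidableEq α] in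
theorem exists_apply_eq [MulAction.IsMultiplyPretransitive G α 4] (h4 : 4 ≤ Fintype.card α)
    (a b : α) : ∃ h : G, (h : Equiv.Perm α) a = b := by
  have : MulAction.IsMultiplyPretransitive G α 1 :=
    MulAction.isMultiplyPretransitive_of_le (n := 4) (by omega)
      (by rw [Nat.card_eq_fintype_card]; exact h4)
  have : MulAction.IsPretransitive G α := MulAction.is_one_pretransitive_iff.1 this
  exact MulAction.exists_smul_eq G a b

/-- The number of involutions with exactly one fixed point is divisible by `n`. -/
theorem dvd_card [Fintype G] [MulAction.IsMultiplyPretransitive G α 4] (h4 : 4 ≤ Fintype.card α)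
    (J : Finset G) (hJ : ∀ g h : G, g ∈ J → h * g * h⁻¹ ∈ J)
    (h1 : ∀ g ∈ J, (g : Equiv.Perm α).support.card = Fintype.card α - 1) :
    Fintype.card α ∣ J.card := by
  classical
  obtain ⟨a⟩ : Nonempty α := Fintype.card_pos_iff.1 (by omega)
  have hsum : ∑ b : α, (J.filter (fun g : G => (g : Equiv.Perm α) b = b)).card
      = ∑ g ∈ J, ((Finset.univ.filter (fun b : α => (g : Equiv.Perm α) b = b)).card) := by
    simp only [Finset.card_filter]
    exact Finset.sum_comm
  have hone : ∀ g ∈ J, (Finset.univ.filter (fun b : α => (g : Equiv.Perm α) b = b)).card = 1 := by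
    intro g hg
    have : Finset.univ.filter (fun b : α => (g : Equiv.Perm α) b = b)
        = (g : Equiv.Perm α).supportᶜ := by
      ext b
      simp
    rw [this, Finset.card_compl, h1 g hg]
    omega
  have hconst : ∀ b : α, (J.filter (fun g : G => (g : Equiv.Perm α) b = b)).card
      = (J.filter (fun g : G => (g : Equiv.Perm α) a = a)).card := by
    intro b
    obtain ⟨h, hh⟩ := exists_apply_eq G h4 b a
    refine Finset.card_nbij' (fun g => h * g * h⁻¹) (fun g => h⁻¹ * g * h) ?_ ?_ ?_ ?_
    · intro g hg
      simp only [Finset.coe_filter, Set.mem_ofPred_eq] at hg ⊢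
      refine ⟨hJ g h hg.1, ?_⟩
      have h3 : (Equiv.symm (h : Equiv.Perm α)) a = b := by rw [Equiv.symm_apply_eq, hh]
      simp [h3, hg.2, hh]
    · intro g hg
      simp only [Finset.coe_filter, Set.mem_ofPred_eq] at hg ⊢
      refine ⟨?_, ?_⟩
      · have := hJ g h⁻¹ hg.1
        rwa [inv_inv] at this
      have h3 : (Equiv.symm (h : Equiv.Perm α)) a = b := by rw [Equiv.symm_apply_eq, hh]
      simp [hg.2, hh, h3]
    · intro g _
      group
    · intro g _
      group
  rw [Finset.sum_congr rfl (fun b _ => hconst b), Finset.sum_congr rfl hone] at hsum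
  simp only [Finset.sum_const, Finset.card_univ, smul_eq_mul, mul_one] at hsum
  exact ⟨_, hsum.symm⟩

theorem sum_two {ι : Type*} (J : Finset ι) (s : ι → ℕ) (F : ℕ → ℕ) (p q : ℕ) (hpq : p ≠ q)
    (h : ∀ g ∈ J, s g = p ∨ s g = q) :
    ∑ g ∈ J, F (s g) = (J.filter (fun g => s g = p)).card * F p
      + (J.filter (fun g => s g = q)).card * F q := by
  classical
  rw [← Finset.sum_filter_add_sum_filter_not J (fun g => s g = p)]
  congr 1
  · rw [Finset.sum_congr rfl (g := fun _ => F p)
      (fun g hg => by rw [(Finset.mem_filter.1 hg).2])]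
    rw [Finset.sum_const, smul_eq_mul]
  · have : J.filter (fun g => ¬ s g = p) = J.filter (fun g => s g = q) := by
      ext g
      simp only [Finset.mem_filter]
      constructor
      · rintro ⟨h1, h2⟩
        exact ⟨h1, (h g h1).resolve_left h2⟩
      · rintro ⟨h1, h2⟩
        exact ⟨h1, fun h3 => hpq (h3.symm.trans h2)⟩
    rw [this, Finset.sum_congr rfl (g := fun _ => F q)
      (fun g hg => by rw [(Finset.mem_filter.1 hg).2])]
    rw [Finset.sum_const, smul_eq_mul]

end Sharp

/-- Degrees of sharply 4-transitive permutation groups are 4, 5, 6, 11. -/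
theorem result {α : Type*} [Fintype α] [DecidableEq α] (G : Subgroup (Equiv.Perm α)) (h4 : 4 ≤ Fintype.card α) [MulAction.IsMultiplyPretransitive G α 4] (hsharp : ∀ x : Fin 4 ↪ α, MulAction.stabilizer G x = ⊥) : Fintype.card α = 4 ∨ Fintype.card α = 5 ∨ Fintype.card α = 6 ∨ Fintype.card α = 11 := by
  classical
  have : Fintype G := Fintype.ofFinite G
  obtain ⟨J, hJ, hJ', hA, hB⟩ := key G hsharp
  have hcard : ∀ g ∈ J, Fintype.card α ≤ (g : Equiv.Perm α).support.card + 3 ∧
      (g : Equiv.Perm α).support.card ≤ Fintype.card α ∧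
      2 ∣ (g : Equiv.Perm α).support.card := by
    intro g hg
    refine ⟨support_ge G hsharp g (hJ g hg).1, Finset.card_le_univ _, ?_⟩
    apply Equiv.Perm.two_dvd_card_support
    have := congrArg (fun t : G => (t : Equiv.Perm α)) (hJ g hg).2
    simpa using this
  have hpos : 0 < (Fintype.card α).descFactorial 4 := Nat.descFactorial_pos.2 h4
  have hne : J.Nonempty := by
    rw [Finset.nonempty_iff_ne_empty]
    rintro rfl
    simp only [Finset.sum_empty] at hA
    omega
  generalize hn : Fintype.card α = n at *
  -- termwise comparison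
  have hcmp : ¬ (∀ g ∈ J, ((n - (g : Equiv.Perm α).support.card) *
        (n - (g : Equiv.Perm α).support.card - 1)) * (g : Equiv.Perm α).support.card
        < (g : Equiv.Perm α).support.card * ((g : Equiv.Perm α).support.card - 2)) := by
    intro h
    have := Finset.sum_lt_sum_of_nonempty hne h
    omega
  have hterm : ∀ k s : ℕ, k ≤ 3 → n = s + k → 12 ≤ n →
      (n - s) * (n - s - 1) * s < s * (s - 2) := by
    intro k s hk hs h12
    have hk' : n - s = k := by omega
    rw [hk', mul_comm]
    apply Nat.mul_lt_mul_of_pos_left _ (by omega)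
    interval_cases k <;> omega
  have h12 : n < 12 := by
    by_contra h12
    apply hcmp
    intro g hg
    obtain ⟨h1, h2, h3⟩ := hcard g hg
    exact hterm (n - (g : Equiv.Perm α).support.card) _ (by omega) (by omega) (by omega)
  have hn7 : n ≠ 7 := by
    rintro rfl
    have hs : ∀ g ∈ J, (g : Equiv.Perm α).support.card = 6 ∨
        (g : Equiv.Perm α).support.card = 4 := by
      intro g hg
      obtain ⟨h1, h2, h3⟩ := hcard g hg
      omega
    have e1 := sum_two J (fun g : G => (g : Equiv.Perm α).support.card)
      (fun s => s * (s - 2)) 6 4 (by norm_num) hs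
    have e2 := sum_two J (fun g : G => (g : Equiv.Perm α).support.card)
      (fun s => ((7 - s) * (7 - s - 1)) * s) 6 4 (by norm_num) hs
    rw [hA] at e1
    rw [hB] at e2
    have hd : Nat.descFactorial 7 4 = 840 := by decide
    rw [hd] at e1 e2
    omega
  have hn8 : n ≠ 8 := by
    rintro rfl
    apply hcmp
    intro g hg
    obtain ⟨h1, h2, h3⟩ := hcard g hg
    have : (g : Equiv.Perm α).support.card = 6 ∨ (g : Equiv.Perm α).support.card = 8 := by omega
    rcases this with h | h <;> rw [h] <;> norm_num
  have hn10 : n ≠ 10 := by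
    rintro rfl
    apply hcmp
    intro g hg
    obtain ⟨h1, h2, h3⟩ := hcard g hg
    have : (g : Equiv.Perm α).support.card = 8 ∨ (g : Equiv.Perm α).support.card = 10 := by omega
    rcases this with h | h <;> rw [h] <;> norm_num
  have hn9 : n ≠ 9 := by
    rintro rfl
    have hs : ∀ g ∈ J, (g : Equiv.Perm α).support.card = 8 ∨
        (g : Equiv.Perm α).support.card = 6 := by
      intro g hg
      obtain ⟨h1, h2, h3⟩ := hcard g hg
      omega
    have e1 := sum_two J (fun g : G => (g : Equiv.Perm α).support.card)
      (fun s => s * (s - 2)) 8 6 (by norm_num) hs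
    have e2 := sum_two J (fun g : G => (g : Equiv.Perm α).support.card)
      (fun s => ((9 - s) * (9 - s - 1)) * s) 8 6 (by norm_num) hs
    rw [hA] at e1
    rw [hB] at e2
    have hd : Nat.descFactorial 9 4 = 3024 := by decide
    rw [hd] at e1 e2
    have hdv := dvd_card G (by omega)
      (J.filter (fun g : G => (g : Equiv.Perm α).support.card = 8)) (by
        intro g h hg
        rw [Finset.mem_filter] at hg ⊢
        refine ⟨hJ' _ ?_ ?_, ?_⟩
        · intro h1
          exact (hJ g hg.1).1 (by simpa using h1)
        · rw [conj_pow, (hJ g hg.1).2]; group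
        · simp only [Subgroup.coe_mul, Subgroup.coe_inv]
          rw [Equiv.Perm.card_support_conj]; exact hg.2) (by
        intro g hg
        rw [Finset.mem_filter] at hg
        rw [hg.2, hn])
    rw [hn] at hdv
    omega
  omega

end Cfsg.Agent.S0415
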