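import Cfsg.Statements.S0423
import Cfsg.Agent.SporadicA.J2Hundred
set_option linter.all false

set_option autoImplicit false
open Cfsg

namespace Cfsg.Agent.S0423

/-- Existence of a simple group of order 604800. -/
theorem result : ∃ G : Subgroup (Equiv.Perm (Fin 100)), Cfsg.IsJ2 G :=
  ⟨Cfsg.Agent.SporadicA.J2Hundred.G, Cfsg.Agent.SporadicA.J2Hundred.simple,
    Cfsg.Agent.SporadicA.J2Hundred.card_G⟩

end Cfsg.Agent.S0423
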