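import Mathlib
import Cfsg.Prelude.Def_Sporadic_a
import Cfsg.Statements.S0425
import Cfsg.Agent.S0419
import Cfsg.Agent.SporadicA.Steiner12
set_option linter.all false

-- part: SporadicA/SteinerAut
section
/-!
# Automorphism groups of set systems: sharp multiple transitivity from unique isomorphisms
-/

set_option autoImplicit false

namespace Cfsg.Agent.SporadicA.SteinerAut

open Cfsg
open scoped Pointwise

theorem mem_aut_iff {α : Type*} [DecidableEq α] {B : Set (Finset α)} (e : Equiv.Perm α) :
    e ∈ setSystemAut B ↔ (fun b : Finset α => b.image e) '' B = B := Iff.rfl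

/-- If every pair of ordered `t`-tuples is matched by exactly one automorphism of the set system, then
the automorphism group is sharply `t`-transitive. -/
theorem sharply {α : Type*} [DecidableEq α] {B : Set (Finset α)} {t : ℕ}
    (h : ∀ x y : Fin t ↪ α, ∃! e : α ≃ α, (fun b : Finset α => b.image e) '' B = B ∧ ∀ i, e (x i) = y i) :
    MulAction.IsMultiplyPretransitive (setSystemAut B) α t ∧
      ∀ x : Fin t ↪ α, MulAction.stabilizer (setSystemAut B) x = ⊥ := by
  constructor
  · constructor
    intro x y
    obtain ⟨e, ⟨he, hex⟩, _⟩ := h x y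
    refine ⟨⟨e, (mem_aut_iff e).2 he⟩, ?_⟩
    ext i
    exact hex i
  · intro x
    rw [eq_bot_iff]
    rintro ⟨g, hg⟩ hgx
    rw [MulAction.mem_stabilizer_iff] at hgx
    rw [Subgroup.mem_bot]
    obtain ⟨e, _, heu⟩ := h x x
    have h1 : (g : α ≃ α) = e := heu g ⟨(mem_aut_iff g).1 hg, fun i => DFunLike.congr_fun hgx i⟩
    have h2 : (1 : Equiv.Perm α) = e := by
      apply heu
      refine ⟨?_, fun i => rfl⟩
      have : (fun b : Finset α => b.image ((1 : Equiv.Perm α) : α → α)) = id := by
        funext b
        rw [Equiv.Perm.coe_one, Finset.image_id]; rfl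
      rw [this, Set.image_id]
    apply Subtype.ext
    change g = 1
    rw [h1, ← h2]

end Cfsg.Agent.SporadicA.SteinerAut
end

-- part: S0425
section
set_option autoImplicit false
open Cfsg

namespace Cfsg.Agent.S0425

/-- Aut of an S(5, 6, 12) is simple of order 95040 and sharply 5-transitive on points. -/
theorem result {α : Type*} [Fintype α] [DecidableEq α] (hα : Fintype.card α = 12) {B : Set (Finset α)} (hB : Cfsg.IsSteinerSystem 5 6 B) : Cfsg.IsM12 (Cfsg.setSystemAut B) ∧ MulAction.IsMultiplyPretransitive (Cfsg.setSystemAut B) α 5 ∧ ∀ x : Fin 5 ↪ α, MulAction.stabilizer (Cfsg.setSystemAut B) x = ⊥ := by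
  have h := Cfsg.Agent.SporadicA.SteinerAut.sharply (B := B) (t := 5)
    (fun x y => Cfsg.Agent.SporadicA.Steiner12.exists_unique_iso hα hα hB hB x y)
  have := h.1
  exact ⟨Cfsg.Agent.S0419.result hα (Cfsg.setSystemAut B) h.2, h⟩

end Cfsg.Agent.S0425
end
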