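import Cfsg.Statements.S0426
import Cfsg.Agent.SporadicA.Steiner12
import Cfsg.Agent.S0418
set_option linter.all false

set_option autoImplicit false
open Cfsg

namespace Cfsg.Agent.S0426

open scoped Pointwise in
/-- A permutation stabilises a family of subsets iff the image family is the family. -/
theorem mem_setSystemAut_iff {α : Type*} [Fintype α] [DecidableEq α] (B : Set (Finset α))
    (g : Equiv.Perm α) : g ∈ setSystemAut B ↔ (fun b => b.image g) '' B = B := by
  rw [MulAction.mem_stabilizer_iff]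
  exact Iff.rfl

/-- Aut of an S(4, 5, 11) is simple of order 7920 and sharply 4-transitive on points. -/
theorem result {α : Type*} [Fintype α] [DecidableEq α] (hα : Fintype.card α = 11) {B : Set (Finset α)} (hB : Cfsg.IsSteinerSystem 4 5 B) : Cfsg.IsM11 (Cfsg.setSystemAut B) ∧ MulAction.IsMultiplyPretransitive (Cfsg.setSystemAut B) α 4 ∧ ∀ x : Fin 4 ↪ α, MulAction.stabilizer (Cfsg.setSystemAut B) x = ⊥ := by
  have htrans : MulAction.IsMultiplyPretransitive (Cfsg.setSystemAut B) α 4 := by
    refine ⟨fun x y => ?_⟩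
    obtain ⟨e, ⟨he, hxy⟩, -⟩ :=
      Cfsg.Agent.SporadicA.Steiner12.exists_unique_iso11 hα hα hB hB x y
    refine ⟨⟨e, (mem_setSystemAut_iff B e).2 he⟩, ?_⟩
    ext i
    exact hxy i
  have hsharp : ∀ x : Fin 4 ↪ α, MulAction.stabilizer (Cfsg.setSystemAut B) x = ⊥ := by
    intro x
    rw [eq_bot_iff]
    rintro ⟨g, hg⟩ hgx
    rw [MulAction.mem_stabilizer_iff] at hgx
    rw [Subgroup.mem_bot]
    obtain ⟨e, -, huniq⟩ :=
      Cfsg.Agent.SporadicA.Steiner12.exists_unique_iso11 hα hα hB hB x x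
    have h1 : g = e := huniq g ⟨(mem_setSystemAut_iff B g).1 hg, fun i =>
      DFunLike.congr_fun hgx i⟩
    have h2 : (1 : Equiv.Perm α) = e := huniq 1
      ⟨(mem_setSystemAut_iff B 1).1 (one_mem _), fun i => rfl⟩
    exact Subtype.ext (h1.trans h2.symm)
  exact ⟨Cfsg.Agent.S0418.result hα (setSystemAut B) hsharp, htrans, hsharp⟩

end Cfsg.Agent.S0426
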