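import Cfsg.Statements.S0427
import Cfsg.Agent.SporadicA.SteinerThreeSix
set_option linter.all false

set_option autoImplicit false
open Cfsg

namespace Cfsg.Agent.S0427

open Cfsg.Agent.SporadicA.SteinerCount Cfsg.Agent.SporadicA.SteinerThreeSix

/-- The size of a set of blocks, as a filter over the finset of all blocks. -/
theorem card_subtype_eq {α : Type*} [DecidableEq α] {B : Set (Finset α)} [Fintype B]
    (S : Set B) [Fintype S] (F : Finset (Finset α)) (hF : ∀ b, b ∈ F ↔ b ∈ B)
    (P : Finset α → Prop) [DecidablePred P] (hP : ∀ b : B, b ∈ S ↔ P b) :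
    Fintype.card S = (F.filter P).card := by
  classical
  rw [← Set.toFinset_card]
  refine Finset.card_bij (fun b _ => (b : Finset α)) ?_ ?_ ?_
  · intro b hb
    rw [Set.mem_toFinset] at hb
    exact Finset.mem_filter.2 ⟨(hF _).2 b.2, (hP b).1 hb⟩
  · intro b _ c _ h
    exact Subtype.ext h
  · intro b hb
    rw [Finset.mem_filter] at hb
    exact ⟨⟨b, (hF b).1 hb.1⟩, Set.mem_toFinset.2 ((hP _).2 hb.2), rfl⟩

/-- The block graph (adjacent = disjoint) of an S(3, 6, 22) is strongly regular with parameters (77, 16, 0, 4). -/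
theorem result {α : Type*} [Fintype α] (hα : Fintype.card α = 22) {B : Set (Finset α)} (hB : Cfsg.IsSteinerSystem 3 6 B) [Fintype B] [DecidableRel (Cfsg.blockGraph B).Adj] : (Cfsg.blockGraph B).IsSRGWith 77 16 0 4 := by
  classical
  set F : Finset (Finset α) := B.toFinset with hFdef
  have hF : ∀ b, b ∈ F ↔ b ∈ B := fun b => by rw [hFdef, Set.mem_toFinset]
  have hadj : ∀ b c : B, (blockGraph B).Adj b c ↔ Disjoint (b : Finset α) (c : Finset α) := by
    intro b c
    change (SimpleGraph.fromRel (fun b c : B => Disjoint (b : Finset α) (c : Finset α))).Adj b c ↔ _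
    rw [SimpleGraph.fromRel_adj]
    constructor
    · rintro ⟨_, h | h⟩
      · exact h
      · exact h.symm
    · intro h
      refine ⟨?_, Or.inl h⟩
      rintro rfl
      have h6 := hB.1 b b.2
      rw [disjoint_self] at h
      rw [h] at h6
      simp at h6
  refine ⟨?_, ?_, ?_, ?_⟩
  · rw [← Set.toFinset_card]
    exact card_F hα hB hF
  · intro b
    rw [← SimpleGraph.card_neighborSet_eq_degree]
    rw [card_subtype_eq ((blockGraph B).neighborSet b) F hF (fun d => Disjoint (b : Finset α) d)
      (fun c => by rw [SimpleGraph.mem_neighborSet]; exact hadj b c)]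
    exact card_disjoint hα hB hF ((hF _).2 b.2)
  · intro b c hbc
    have hne : (b : Finset α) ≠ c := fun h => (blockGraph B).ne_of_adj hbc (Subtype.ext h)
    rw [card_subtype_eq ((blockGraph B).commonNeighbors b c) F hF
      (fun d => Disjoint (b : Finset α) d ∧ Disjoint (c : Finset α) d)
      (fun d => by
        rw [SimpleGraph.mem_commonNeighbors, hadj, hadj])]
    rw [card_disjoint_both hα hB hF ((hF _).2 b.2) ((hF _).2 c.2) hne]
    have h0 := (hadj b c).1 hbc
    rw [Finset.disjoint_iff_inter_eq_empty] at h0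
    rw [h0]
    rfl
  · intro b c hne' hbc
    have hne : (b : Finset α) ≠ c := fun h => hne' (Subtype.ext h)
    rw [card_subtype_eq ((blockGraph B).commonNeighbors b c) F hF
      (fun d => Disjoint (b : Finset α) d ∧ Disjoint (c : Finset α) d)
      (fun d => by
        rw [SimpleGraph.mem_commonNeighbors, hadj, hadj])]
    rw [card_disjoint_both hα hB hF ((hF _).2 b.2) ((hF _).2 c.2) hne]
    rcases inter_card hα hB hF ((hF _).2 c.2) ((hF _).2 b.2) hne with h | h
    · exact absurd ((hadj b c).2 (Finset.disjoint_iff_inter_eq_empty.2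
        (Finset.card_eq_zero.1 h))) hbc
    · rw [h]

end Cfsg.Agent.S0427
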