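import Mathlib
import Cfsg.Statements.S0429
set_option linter.all false

-- part: SporadicA/Srg77
section
/-!
# srg(77,16,0,4): local structure

`S77 N` : the neighbourhood function `N : V → Finset V` of a strongly regular graph
with parameters (77, 16, 0, 4).
-/

set_option autoImplicit false

namespace Cfsg.Agent.SporadicA.Srg77

open Finset

variable {V : Type*} [Fintype V] [DecidableEq V]

/-- neighbourhood data of a srg(77,16,0,4) -/
structure S77 (N : V → Finset V) : Prop where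
  card : Fintype.card V = 77
  symm : ∀ x y, x ∈ N y → y ∈ N x
  irr : ∀ x, x ∉ N x
  deg : ∀ x, (N x).card = 16
  tri : ∀ x y w, x ∈ N y → w ∈ N x → w ∉ N y
  mu : ∀ x y, x ≠ y → x ∉ N y → (N x ∩ N y).card = 4

variable {N : V → Finset V}

theorem S77.inter_le (h : S77 N) {x y : V} (hxy : x ≠ y) : (N x ∩ N y).card ≤ 4 := by
  by_cases h1 : x ∈ N y
  · have : N x ∩ N y = ∅ := by
      ext w
      simp only [mem_inter, notMem_empty, iff_false, not_and]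
      exact fun hw => h.tri x y w h1 hw
    simp [this]
  · exact (h.mu x y hxy h1).le

/-- two vertices with a common neighbour are not adjacent -/
theorem S77.nadj (h : S77 N) {x y w : V} (hx : w ∈ N x) (hy : w ∈ N y) : x ∉ N y :=
  fun hxy => h.tri x y w hxy hx hy

theorem S77.mu' (h : S77 N) {x y w : V} (hne : x ≠ y) (hx : w ∈ N x) (hy : w ∈ N y) :
    (N x ∩ N y).card = 4 := h.mu x y hne (h.nadj hx hy)

omit [Fintype V] in
theorem card_union3 (A B C : Finset V) :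
    (A ∪ B ∪ C).card + (A ∩ B).card + (A ∩ C).card + (B ∩ C).card =
      A.card + B.card + C.card + (A ∩ B ∩ C).card := by
  have h1 := card_union_add_card_inter (A ∪ B) C
  have h2 := card_union_add_card_inter A B
  have h3 := card_union_add_card_inter (A ∩ C) (B ∩ C)
  have h4 : (A ∪ B) ∩ C = (A ∩ C) ∪ (B ∩ C) := union_inter_distrib_right A B C
  have h5 : (A ∩ C) ∩ (B ∩ C) = A ∩ B ∩ C := by ext; simp only [mem_inter]; tauto
  rw [h4] at h1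
  rw [h5] at h3
  omega

theorem S77.card3 (h : S77 N) {x1 x2 x3 w : V} (h12 : x1 ≠ x2) (h13 : x1 ≠ x3) (h23 : x2 ≠ x3)
    (w1 : w ∈ N x1) (w2 : w ∈ N x2) (w3 : w ∈ N x3) :
    (N x1 ∪ N x2 ∪ N x3).card = 36 + (N x1 ∩ N x2 ∩ N x3).card := by
  have := card_union3 (N x1) (N x2) (N x3)
  rw [h.deg, h.deg, h.deg, h.mu' h12 w1 w2, h.mu' h13 w1 w3, h.mu' h23 w2 w3] at this
  omega

/-- no `K_{3,3}`: three distinct vertices have at most 2 common neighbours -/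
theorem S77.noK33 (h : S77 N) {x1 x2 x3 : V} (h12 : x1 ≠ x2) (h13 : x1 ≠ x3) (h23 : x2 ≠ x3) :
    (N x1 ∩ N x2 ∩ N x3).card ≤ 2 := by
  by_contra hc
  push Not at hc
  obtain ⟨y1, y2, y3, m1, m2, m3, n12, n13, n23⟩ := Finset.two_lt_card_iff.1 hc
  simp only [mem_inter] at m1 m2 m3
  have hX := h.card3 h12 h13 h23 m1.1.1 m1.1.2 m1.2
  have hY := h.card3 (w := x1) n12 n13 n23 (h.symm _ _ m1.1.1) (h.symm _ _ m2.1.1)
    (h.symm _ _ m3.1.1)
  have hY3 : 3 ≤ (N y1 ∩ N y2 ∩ N y3).card := by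
    have : ({x1, x2, x3} : Finset V) ⊆ N y1 ∩ N y2 ∩ N y3 := by
      intro t ht
      simp only [mem_insert, mem_singleton] at ht
      simp only [mem_inter]
      rcases ht with rfl | rfl | rfl
      · exact ⟨⟨h.symm _ _ m1.1.1, h.symm _ _ m2.1.1⟩, h.symm _ _ m3.1.1⟩
      · exact ⟨⟨h.symm _ _ m1.1.2, h.symm _ _ m2.1.2⟩, h.symm _ _ m3.1.2⟩
      · exact ⟨⟨h.symm _ _ m1.2, h.symm _ _ m2.2⟩, h.symm _ _ m3.2⟩
    calc 3 = ({x1, x2, x3} : Finset V).card := by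
            rw [card_insert_of_notMem, card_insert_of_notMem, card_singleton] <;>
              simp [h12, h13, h23]
      _ ≤ _ := card_le_card this
  have hdis : Disjoint (N x1 ∪ N x2 ∪ N x3) (N y1 ∪ N y2 ∪ N y3) := by
    rw [Finset.disjoint_left]
    intro t ht ht'
    simp only [mem_union] at ht ht'
    have key : ∀ x y, y ∈ N x → t ∈ N x → t ∈ N y → False := fun x y hy hx hty =>
      h.tri y x t hy hty hx
    rcases ht with (ht | ht) | ht <;> rcases ht' with (ht' | ht') | ht'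
    · exact key _ _ m1.1.1 ht ht'
    · exact key _ _ m2.1.1 ht ht'
    · exact key _ _ m3.1.1 ht ht'
    · exact key _ _ m1.1.2 ht ht'
    · exact key _ _ m2.1.2 ht ht'
    · exact key _ _ m3.1.2 ht ht'
    · exact key _ _ m1.2 ht ht'
    · exact key _ _ m2.2 ht ht'
    · exact key _ _ m3.2 ht ht'
  have h1 := card_union_of_disjoint hdis
  have h2 := card_le_univ ((N x1 ∪ N x2 ∪ N x3) ∪ (N y1 ∪ N y2 ∪ N y3))
  rw [h.card] at h2
  omega

theorem S77.noK33' (h : S77 N) {x1 x2 x3 a b c : V} (h12 : x1 ≠ x2) (h13 : x1 ≠ x3)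
    (h23 : x2 ≠ x3) (hab : a ≠ b) (hac : a ≠ c) (hbc : b ≠ c)
    (ha1 : a ∈ N x1) (ha2 : a ∈ N x2) (ha3 : a ∈ N x3)
    (hb1 : b ∈ N x1) (hb2 : b ∈ N x2) (hb3 : b ∈ N x3)
    (hc1 : c ∈ N x1) (hc2 : c ∈ N x2) (hc3 : c ∈ N x3) : False := by
  have h1 := h.noK33 h12 h13 h23
  have h2 : 2 < (N x1 ∩ N x2 ∩ N x3).card :=
    Finset.two_lt_card_iff.2 ⟨a, b, c, by simp [*], by simp [*], by simp [*], hab, hac, hbc⟩
  omega

/-- the union of the four neighbourhoods in the "triangle" configuration -/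
theorem S77.card4 (h : S77 N) {x0 x1 x2 x3 p a b c : V}
    (h01 : x0 ≠ x1) (h02 : x0 ≠ x2) (h03 : x0 ≠ x3) (h12 : x1 ≠ x2) (h13 : x1 ≠ x3)
    (h23 : x2 ≠ x3) (hpa : p ≠ a) (hpb : p ≠ b) (hpc : p ≠ c)
    (p0 : p ∈ N x0) (p1 : p ∈ N x1) (p2 : p ∈ N x2) (p3 : p ∈ N x3)
    (a0 : a ∈ N x0) (a1 : a ∈ N x1) (a3 : a ∈ N x3)
    (b0 : b ∈ N x0) (b1 : b ∈ N x1) (b2 : b ∈ N x2)
    (c0 : c ∈ N x0) (c2 : c ∈ N x2) (c3 : c ∈ N x3) :
    46 ≤ (N x0 ∪ N x1 ∪ N x2 ∪ N x3).card := by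
  have e1 := h.card3 h01 h02 h12 p0 p1 p2
  have e2 : 2 ≤ (N x0 ∩ N x1 ∩ N x2).card := by
    have : ({p, b} : Finset V) ⊆ N x0 ∩ N x1 ∩ N x2 := by
      intro t ht; simp only [mem_insert, mem_singleton] at ht
      rcases ht with rfl | rfl <;> simp [*]
    calc 2 = ({p, b} : Finset V).card := (card_pair hpb).symm
      _ ≤ _ := card_le_card this
  have e3 := card_union_add_card_inter (N x0 ∪ N x1 ∪ N x2) (N x3)
  have e4 : (N x0 ∪ N x1 ∪ N x2) ∩ N x3 ⊆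
      (N x0 ∩ N x3) ∪ ((N x1 ∩ N x3) \ {p, a}) ∪ ((N x2 ∩ N x3) \ {p, c}) := by
    intro t ht
    simp only [mem_inter, mem_union, mem_sdiff, mem_insert, mem_singleton] at ht ⊢
    by_cases h1 : t ∈ N x0
    · left; left; exact ⟨h1, ht.2⟩
    · have hp : t ≠ p := by rintro rfl; exact h1 p0
      have ha : t ≠ a := by rintro rfl; exact h1 a0
      have hc : t ≠ c := by rintro rfl; exact h1 c0
      tauto
  have e5 := card_le_card e4
  have e6 : ((N x1 ∩ N x3) \ {p, a}).card = 2 := by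
    rw [card_sdiff_of_subset, h.mu' h13 p1 p3, card_pair hpa]
    intro t ht; simp only [mem_insert, mem_singleton] at ht
    rcases ht with rfl | rfl <;> simp [*]
  have e7 : ((N x2 ∩ N x3) \ {p, c}).card = 2 := by
    rw [card_sdiff_of_subset, h.mu' h23 p2 p3, card_pair hpc]
    intro t ht; simp only [mem_insert, mem_singleton] at ht
    rcases ht with rfl | rfl <;> simp [*]
  have e8 := h.mu' h03 p0 p3
  have e9 := card_union_le ((N x0 ∩ N x3) ∪ ((N x1 ∩ N x3) \ {p, a})) ((N x2 ∩ N x3) \ {p, c})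
  have e10 := card_union_le (N x0 ∩ N x3) ((N x1 ∩ N x3) \ {p, a})
  have e11 := h.deg x3
  omega

/-- the "triangle" configuration does not occur -/
theorem S77.noTri (h : S77 N) {x0 x1 x2 x3 p a b c : V}
    (h01 : x0 ≠ x1) (h02 : x0 ≠ x2) (h03 : x0 ≠ x3) (h12 : x1 ≠ x2) (h13 : x1 ≠ x3)
    (h23 : x2 ≠ x3) (hpa : p ≠ a) (hpb : p ≠ b) (hpc : p ≠ c) (hab : a ≠ b) (hac : a ≠ c)
    (hbc : b ≠ c)
    (p0 : p ∈ N x0) (p1 : p ∈ N x1) (p2 : p ∈ N x2) (p3 : p ∈ N x3)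
    (a0 : a ∈ N x0) (a1 : a ∈ N x1) (a3 : a ∈ N x3)
    (b0 : b ∈ N x0) (b1 : b ∈ N x1) (b2 : b ∈ N x2)
    (c0 : c ∈ N x0) (c2 : c ∈ N x2) (c3 : c ∈ N x3) : False := by
  have e1 := h.card4 h01 h02 h03 h12 h13 h23 hpa hpb hpc p0 p1 p2 p3 a0 a1 a3 b0 b1 b2 c0 c2 c3
  have s := h.symm
  -- dual: x0 ↔ p ; vertices adjacent to a: x0 x1 x3 ; b : x0 x1 x2 ; c : x0 x2 x3
  have e2 := h.card4 (x0 := p) (x1 := a) (x2 := b) (x3 := c) (p := x0) (a := x3) (b := x1)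
    (c := x2) hpa hpb hpc hab hac hbc h03 h01 h02
    (s _ _ p0) (s _ _ a0) (s _ _ b0) (s _ _ c0)
    (s _ _ p3) (s _ _ a3) (s _ _ c3)
    (s _ _ p1) (s _ _ a1) (s _ _ b1)
    (s _ _ p2) (s _ _ b2) (s _ _ c2)
  have e3 := card_union_add_card_inter (N x0 ∪ N x1 ∪ N x2 ∪ N x3) (N p ∪ N a ∪ N b ∪ N c)
  have e4 := card_le_univ ((N x0 ∪ N x1 ∪ N x2 ∪ N x3) ∪ (N p ∪ N a ∪ N b ∪ N c))
  rw [h.card] at e4
  have e5 : (N x0 ∪ N x1 ∪ N x2 ∪ N x3) ∩ (N p ∪ N a ∪ N b ∪ N c) ⊆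
      (N x1 ∩ N c) ∪ (N x2 ∩ N a) ∪ (N x3 ∩ N b) := by
    intro t ht
    simp only [mem_inter, mem_union] at ht ⊢
    have key : ∀ x y, y ∈ N x → t ∈ N x → t ∈ N y → False := fun x y hy hx hty =>
      h.tri y x t hy hty hx
    obtain ⟨ht, ht'⟩ := ht
    rcases ht with ((ht | ht) | ht) | ht <;> rcases ht' with ((ht' | ht') | ht') | ht'
    · exact (key _ _ p0 ht ht').elim
    · exact (key _ _ a0 ht ht').elim
    · exact (key _ _ b0 ht ht').elim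
    · exact (key _ _ c0 ht ht').elim
    · exact (key _ _ p1 ht ht').elim
    · exact (key _ _ a1 ht ht').elim
    · exact (key _ _ b1 ht ht').elim
    · tauto
    · exact (key _ _ p2 ht ht').elim
    · tauto
    · exact (key _ _ b2 ht ht').elim
    · exact (key _ _ c2 ht ht').elim
    · exact (key _ _ p3 ht ht').elim
    · exact (key _ _ a3 ht ht').elim
    · tauto
    · exact (key _ _ c3 ht ht').elim
  have e6 := card_le_card e5
  have e7 := card_union_le ((N x1 ∩ N c) ∪ (N x2 ∩ N a)) (N x3 ∩ N b)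
  have e8 := card_union_le (N x1 ∩ N c) (N x2 ∩ N a)
  have n1 : x1 ≠ c := by rintro rfl; exact h.tri _ _ _ c0 p1 p0
  have n2 : x2 ≠ a := by rintro rfl; exact h.tri _ _ _ a0 p2 p0
  have n3 : x3 ≠ b := by rintro rfl; exact h.tri _ _ _ b0 p3 p0
  have e9 := h.inter_le n1
  have e10 := h.inter_le n2
  have e11 := h.inter_le n3
  omega

/-! ### Blocks on the neighbours of a vertex -/

/-- the triple `a b c` of neighbours of `v` is covered by a block -/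
def Cov (N : V → Finset V) (v a b c : V) : Prop := ∃ u, u ≠ v ∧ u ∈ N a ∧ u ∈ N b ∧ u ∈ N c

omit [Fintype V] [DecidableEq V] in
theorem Cov.swap12 {v a b c : V} (h : Cov N v a b c) : Cov N v b a c := by
  obtain ⟨u, h1, h2, h3, h4⟩ := h; exact ⟨u, h1, h3, h2, h4⟩

omit [Fintype V] [DecidableEq V] in
theorem Cov.swap23 {v a b c : V} (h : Cov N v a b c) : Cov N v a c b := by
  obtain ⟨u, h1, h2, h3, h4⟩ := h; exact ⟨u, h1, h2, h4, h3⟩

theorem S77.cov_atmost (h : S77 N) {v y a b c p : V} (hy : y ≠ v)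
    (hab : a ≠ b) (hac : a ≠ c) (hbc : b ≠ c)
    (av : a ∈ N v) (ay : a ∈ N y) (bv : b ∈ N v) (b_y : b ∈ N y) (cv : c ∈ N v) (cy : c ∈ N y)
    (pv : p ∈ N v) (py : p ∉ N y) (h1 : Cov N v p a b) (h2 : Cov N v p a c) : False := by
  obtain ⟨u1, u1v, u1p, u1a, u1b⟩ := h1
  obtain ⟨u2, u2v, u2p, u2a, u2c⟩ := h2
  have s := h.symm
  have n1 : u1 ≠ y := by rintro rfl; exact py (s _ _ u1p)
  have n2 : u2 ≠ y := by rintro rfl; exact py (s _ _ u2p)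
  have pa : p ≠ a := by rintro rfl; exact py ay
  have pb : p ≠ b := by rintro rfl; exact py b_y
  have pc : p ≠ c := by rintro rfl; exact py cy
  have n12 : u1 ≠ u2 := by
    rintro rfl
    exact h.noK33' hy.symm u1v.symm n1.symm hab hac hbc av ay (s _ _ u1a) bv b_y (s _ _ u1b) cv cy
      (s _ _ u2c)
  exact h.noTri (x0 := v) (x1 := y) (x2 := u2) (x3 := u1) (p := a) (a := b) (b := c) (c := p)
    hy.symm u2v.symm u1v.symm n2.symm n1.symm n12.symm hab hac pa.symm hbc pb.symm pc.symm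
    av ay (s _ _ u2a) (s _ _ u1a) bv b_y (s _ _ u1b) cv cy (s _ _ u2c) pv (s _ _ u2p) (s _ _ u1p)

open Classical in
theorem S77.cov_card (h : S77 N) {v y a b : V} (hy : y ≠ v) (hab : a ≠ b)
    (av : a ∈ N v) (ay : a ∈ N y) (bv : b ∈ N v) (b_y : b ∈ N y) :
    4 ≤ ((N v \ N y).filter (fun p => Cov N v p a b)).card := by
  have s := h.symm
  have e1 : (N a ∩ N b).card = 4 := h.mu' hab (s _ _ av) (s _ _ bv)
  have e2 : ((N a ∩ N b) \ {v, y}).card = 2 := by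
    rw [card_sdiff_of_subset, e1, card_pair hy.symm]
    intro t ht; simp only [mem_insert, mem_singleton] at ht
    rcases ht with rfl | rfl
    · simp [s _ _ av, s _ _ bv]
    · simp [s _ _ ay, s _ _ b_y]
  obtain ⟨u1, u2, n12, e3⟩ := Finset.card_eq_two.1 e2
  have m1 : u1 ∈ (N a ∩ N b) \ {v, y} := by rw [e3]; simp
  have m2 : u2 ∈ (N a ∩ N b) \ {v, y} := by rw [e3]; simp
  simp only [mem_inter, mem_sdiff, mem_insert, mem_singleton, not_or] at m1 m2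
  obtain ⟨⟨u1a, u1b⟩, u1v, u1y⟩ := m1
  obtain ⟨⟨u2a, u2b⟩, u2v, u2y⟩ := m2
  have f : ∀ u, u ≠ v → u ≠ y → u ∈ N a → 2 ≤ ((N v ∩ N u) \ N y).card := by
    intro u uv uy ua
    have g1 : (N v ∩ N u).card = 4 := h.mu' uv.symm av (s _ _ ua)
    have g2 : (N v ∩ N u ∩ N y).card ≤ 2 := h.noK33 uv.symm hy.symm uy
    have g3 := card_sdiff_add_card_inter (N v ∩ N u) (N y)
    omega
  have f1 := f u1 u1v u1y u1a
  have f2 := f u2 u2v u2y u2a
  have hd : Disjoint ((N v ∩ N u1) \ N y) ((N v ∩ N u2) \ N y) := by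
    rw [Finset.disjoint_left]
    intro p hp hp'
    simp only [mem_sdiff, mem_inter] at hp hp'
    have pa : p ≠ a := by rintro rfl; exact hp.2 ay
    have pb : p ≠ b := by rintro rfl; exact hp.2 b_y
    exact h.noK33' (Ne.symm u1v) (Ne.symm u2v) n12 hab pa.symm pb.symm av (s _ _ u1a) (s _ _ u2a)
      bv (s _ _ u1b) (s _ _ u2b) hp.1.1 hp.1.2 hp'.1.2
  have hsub : ((N v ∩ N u1) \ N y) ∪ ((N v ∩ N u2) \ N y) ⊆
      (N v \ N y).filter (fun p => Cov N v p a b) := by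
    intro p hp
    simp only [mem_union, mem_sdiff, mem_inter, mem_filter] at hp ⊢
    rcases hp with ⟨⟨p1, p2⟩, p3⟩ | ⟨⟨p1, p2⟩, p3⟩
    · exact ⟨⟨p1, p3⟩, u1, u1v, s _ _ p2, u1a, u1b⟩
    · exact ⟨⟨p1, p3⟩, u2, u2v, s _ _ p2, u2a, u2b⟩
  have := card_le_card hsub
  rw [card_union_of_disjoint hd] at this
  omega

open Classical in
theorem S77.cov_atleast (h : S77 N) {v y a b c d p : V} (hy : y ≠ v)
    (hab : a ≠ b) (hac : a ≠ c) (had : a ≠ d) (hbc : b ≠ c) (hbd : b ≠ d) (hcd : c ≠ d)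
    (av : a ∈ N v) (ay : a ∈ N y) (bv : b ∈ N v) (b_y : b ∈ N y) (cv : c ∈ N v) (cy : c ∈ N y)
    (dv : d ∈ N v) (dy : d ∈ N y)
    (pv : p ∈ N v) (py : p ∉ N y) : Cov N v p a b ∨ Cov N v p a c ∨ Cov N v p a d := by
  have cb := h.cov_card hy hab av ay bv b_y
  have cc := h.cov_card hy hac av ay cv cy
  have cd := h.cov_card hy had av ay dv dy
  set B := (N v \ N y).filter (fun p => Cov N v p a b) with hB
  set C := (N v \ N y).filter (fun p => Cov N v p a c) with hC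
  set D := (N v \ N y).filter (fun p => Cov N v p a d) with hD
  have dBC : Disjoint B C := by
    rw [Finset.disjoint_left]; intro t ht ht'
    simp only [hB, hC, mem_filter, mem_sdiff] at ht ht'
    exact h.cov_atmost hy hab hac hbc av ay bv b_y cv cy ht.1.1 ht.1.2 ht.2 ht'.2
  have dBD : Disjoint B D := by
    rw [Finset.disjoint_left]; intro t ht ht'
    simp only [hB, hD, mem_filter, mem_sdiff] at ht ht'
    exact h.cov_atmost hy hab had hbd av ay bv b_y dv dy ht.1.1 ht.1.2 ht.2 ht'.2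
  have dCD : Disjoint C D := by
    rw [Finset.disjoint_left]; intro t ht ht'
    simp only [hC, hD, mem_filter, mem_sdiff] at ht ht'
    exact h.cov_atmost hy hac had hcd av ay cv cy dv dy ht.1.1 ht.1.2 ht.2 ht'.2
  have e1 : (B ∪ C ∪ D).card = B.card + C.card + D.card := by
    rw [card_union_of_disjoint, card_union_of_disjoint dBC]
    exact Finset.disjoint_union_left.2 ⟨dBD, dCD⟩
  have e2 : (N v \ N y).card = 12 := by
    have g1 : (N v ∩ N y).card = 4 := h.mu' hy.symm av ay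
    have g2 := card_sdiff_add_card_inter (N v) (N y)
    have g3 := h.deg v
    omega
  have e3 : B ∪ C ∪ D ⊆ N v \ N y := by
    intro t ht
    simp only [hB, hC, hD, mem_union, mem_filter] at ht
    tauto
  have e4 : B ∪ C ∪ D = N v \ N y := Finset.eq_of_subset_of_card_le e3 (by omega)
  have e5 : p ∈ B ∪ C ∪ D := by rw [e4]; exact mem_sdiff.2 ⟨pv, py⟩
  simp only [hB, hC, hD, mem_union, mem_filter] at e5
  tauto

/-- symmetric difference of two blocks meeting in two points is a block -/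
theorem S77.symmDiff (h : S77 N) {v y u a b c d e f : V} (hy : y ≠ v) (hu : u ≠ v)
    (hab : a ≠ b) (hac : a ≠ c) (had : a ≠ d) (hbc : b ≠ c) (hbd : b ≠ d) (hcd : c ≠ d)
    (hae : a ≠ e) (haf : a ≠ f) (hbe : b ≠ e) (hbf : b ≠ f) (hef : e ≠ f)
    (By : N v ∩ N y = {a, b, c, d}) (Bu : N v ∩ N u = {a, b, e, f}) (hey : e ∉ N y)
    (hfy : f ∉ N y) :
    ∃ w, w ≠ v ∧ N v ∩ N w = {c, d, e, f} := by
  have s := h.symm
  have my : ∀ t, t ∈ N v ∩ N y ↔ t = a ∨ t = b ∨ t = c ∨ t = d := by intro t; rw [By]; simp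
  have mu : ∀ t, t ∈ N v ∩ N u ↔ t = a ∨ t = b ∨ t = e ∨ t = f := by intro t; rw [Bu]; simp
  simp only [mem_inter] at my mu
  obtain ⟨av, ay⟩ := (my a).2 (by simp)
  obtain ⟨bv, b_y⟩ := (my b).2 (by simp)
  obtain ⟨cv, cy⟩ := (my c).2 (by simp)
  obtain ⟨dv, dy⟩ := (my d).2 (by simp)
  obtain ⟨-, au⟩ := (mu a).2 (by simp)
  obtain ⟨-, bu⟩ := (mu b).2 (by simp)
  obtain ⟨ev, eu⟩ := (mu e).2 (by simp)
  obtain ⟨fv, fu⟩ := (mu f).2 (by simp)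
  -- e is matched as ab | cd
  have hce : c ≠ e := by rintro rfl; exact hey cy
  have hde : d ≠ e := by rintro rfl; exact hey dy
  have k1 : Cov N v e a b := ⟨u, hu, s _ _ eu, s _ _ au, s _ _ bu⟩
  have k2 : Cov N v e c d := by
    rcases h.cov_atleast hy hac.symm hbc.symm hcd hab had hbd cv cy av ay bv b_y dv dy ev hey with
      k | k | k
    · exact (h.cov_atmost hy hab hac hbc av ay bv b_y cv cy ev hey k1 k.swap23).elim
    · exact (h.cov_atmost hy hab.symm hbc hac bv b_y av ay cv cy ev hey k1.swap23 k.swap23).elim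
    · exact k
  obtain ⟨w, wv, we, wc, wd⟩ := k2
  refine ⟨w, wv, ?_⟩
  have ew := s _ _ we
  have cw := s _ _ wc
  have dw := s _ _ wd
  have wy : w ≠ y := by rintro rfl; exact hey ew
  have cardw : (N v ∩ N w).card = 4 := h.mu' wv.symm ev ew
  have aw : a ∉ N w := fun aw => h.noK33' hy.symm wv.symm wy.symm hac had hcd av ay aw cv cy cw
    dv dy dw
  have bw : b ∉ N w := fun bw => h.noK33' hy.symm wv.symm wy.symm hbc hbd hcd bv b_y bw cv cy cw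
    dv dy dw
  -- it suffices that f ∈ N w
  suffices fw : f ∈ N w by
    symm
    apply Finset.eq_of_subset_of_card_le
    · intro t ht
      simp only [mem_insert, mem_singleton] at ht
      rcases ht with rfl | rfl | rfl | rfl <;> simp [*]
    · rw [cardw]
      have hcf : c ≠ f := by rintro rfl; exact hfy cy
      have hdf : d ≠ f := by rintro rfl; exact hfy dy
      have : ({c, d, e, f} : Finset V).card = 4 := by
        rw [card_insert_of_notMem, card_insert_of_notMem, card_insert_of_notMem, card_singleton] <;>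
          simp [hcd, hce, hde, hcf, hdf, hef]
      omega
  -- the fourth point of the block w
  have hg : ∃ g, g ∈ (N v ∩ N w) \ {c, d, e} := by
    have : 0 < ((N v ∩ N w) \ {c, d, e}).card := by
      have h1 := le_card_sdiff {c, d, e} (N v ∩ N w)
      have h2 : ({c, d, e} : Finset V).card ≤ 3 := Finset.card_le_three
      omega
    exact card_pos.1 this
  obtain ⟨g, hg⟩ := hg
  simp only [mem_sdiff, mem_inter, mem_insert, mem_singleton, not_or] at hg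
  obtain ⟨⟨gv, gw⟩, gc, gd, ge⟩ := hg
  have ka : Cov N v a c d := ⟨y, hy, s _ _ ay, s _ _ cy, s _ _ dy⟩
  have kb : Cov N v b c d := ⟨y, hy, s _ _ b_y, s _ _ cy, s _ _ dy⟩
  have ka' : Cov N v a e g := by
    rcases h.cov_atleast wv hce.symm hde.symm (Ne.symm ge) hcd (Ne.symm gc) (Ne.symm gd)
      ev ew cv cw dv dw gv gw av aw with k | k | k
    · exact (h.cov_atmost wv hcd hce hde cv cw dv dw ev ew av aw ka k.swap23).elim
    · exact (h.cov_atmost wv hcd.symm hde hce dv dw cv cw ev ew av aw ka.swap23 k.swap23).elim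
    · exact k
  have kb' : Cov N v b e g := by
    rcases h.cov_atleast wv hce.symm hde.symm (Ne.symm ge) hcd (Ne.symm gc) (Ne.symm gd)
      ev ew cv cw dv dw gv gw bv bw with k | k | k
    · exact (h.cov_atmost wv hcd hce hde cv cw dv dw ev ew bv bw kb k.swap23).elim
    · exact (h.cov_atmost wv hcd.symm hde hce dv dw cv cw ev ew bv bw kb.swap23 k.swap23).elim
    · exact k
  by_cases gu : g ∈ N u
  · rcases (mu g).1 ⟨gv, gu⟩ with rfl | rfl | rfl | rfl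
    · exact (aw gw).elim
    · exact (bw gw).elim
    · exact (ge rfl).elim
    · exact gw
  · exact (h.cov_atmost hu hae.symm hbe.symm hab ev eu av au bv bu gv gu
      (ka'.swap23.swap12.swap23) (kb'.swap23.swap12.swap23)).elim

end Cfsg.Agent.SporadicA.Srg77
end

-- part: SporadicA/GQ22
section
/-!
# The generalized quadrangle GQ(2,2): a labelling of its 15 points

`frame`: every generalized quadrangle of order (2,2) (given by its line relation `Ln`) contains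
15 distinct points carrying the 15 lines of `mLines`.
-/

set_option autoImplicit false

namespace Cfsg.Agent.SporadicA.GQ22

/-- collinearity -/
def Col {Q : Type*} (Ln : Q → Q → Q → Prop) (x y : Q) : Prop := ∃ t, Ln x y t

/-- the axioms used for a generalized quadrangle with lines of size 3 and 3 lines on a point -/
structure GQ {Q : Type*} (Ln : Q → Q → Q → Prop) : Prop where
  s12 : ∀ {x y z}, Ln x y z → Ln y x z
  s23 : ∀ {x y z}, Ln x y z → Ln x z y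
  ne : ∀ {x y z}, Ln x y z → x ≠ y
  most : ∀ {x y z u}, Ln x y z → Col Ln u x → Col Ln u y → u = z
  least : ∀ {x y z u}, Ln x y z → u ≠ x → u ≠ y → u ≠ z → Col Ln u x ∨ Col Ln u y ∨ Col Ln u z
  three : ∀ x, ∃ a a' b b' c c', Ln x a a' ∧ Ln x b b' ∧ Ln x c c' ∧
    b ≠ a ∧ b ≠ a' ∧ c ≠ a ∧ c ≠ a' ∧ c ≠ b ∧ c ≠ b'

variable {Q : Type*} {Ln : Q → Q → Q → Prop}

theorem GQ.csymm (G : GQ Ln) {x y : Q} (h : Col Ln x y) : Col Ln y x := by
  obtain ⟨t, h⟩ := h; exact ⟨t, G.s12 h⟩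

theorem GQ.nsymm (G : GQ Ln) {x y : Q} (h : ¬ Col Ln x y) : ¬ Col Ln y x :=
  fun h' => h (G.csymm h')

theorem GQ.cne (G : GQ Ln) {x y : Q} (h : Col Ln x y) : x ≠ y := by
  obtain ⟨t, h⟩ := h; exact G.ne h

theorem GQ.uniq (G : GQ Ln) {x y z z' : Q} (h : Ln x y z) (h' : Ln x y z') : z = z' :=
  (G.most h ⟨_, G.s12 (G.s23 h')⟩ ⟨_, G.s12 (G.s23 (G.s12 h'))⟩).symm

theorem GQ.dne (G : GQ Ln) {x y z y' z' : Q} (h : Ln x y z) (h' : Ln x y' z') (hne : y ≠ y') :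
    z ≠ z' := by
  rintro rfl
  exact hne (G.uniq (G.s23 h) (G.s23 h'))

theorem GQ.excl (G : GQ Ln) {x y z u : Q} (h : Ln x y z) (hc : Col Ln u x) (hne : u ≠ z) :
    ¬ Col Ln u y := fun hc' => hne (G.most h hc hc')

theorem GQ.dsep (_ : GQ Ln) {u v w : Q} (h : Col Ln u w) (h' : ¬ Col Ln v w) : u ≠ v := by
  rintro rfl; exact h' h

theorem GQ.forced (G : GQ Ln) {x y z u : Q} (h : Ln x y z) (h1 : u ≠ x) (h2 : u ≠ y) (h3 : u ≠ z)
    (h4 : ¬ Col Ln u x) (h5 : ¬ Col Ln u y) : Col Ln u z := by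
  rcases G.least h h1 h2 h3 with k | k | k
  · exact (h4 k).elim
  · exact (h5 k).elim
  · exact k

theorem GQ.close (G : GQ Ln) {x y z : Q} (h : Col Ln x y) (h1 : Col Ln z x) (h2 : Col Ln z y) :
    Ln x y z := by
  obtain ⟨t, h⟩ := h
  have := G.most h h1 h2
  rwa [this]

/-- the 15 lines of the model on `Fin 15` -/
def mLines : List (Fin 15 × Fin 15 × Fin 15) :=
  [(0, 1, 2), (0, 3, 4), (0, 5, 6), (1, 7, 8), (3, 7, 9), (6, 7, 10), (4, 8, 14), (5, 8, 13), (2, 9, 14), (5, 9, 12), (2, 10, 13), (4, 10, 12), (1, 11, 12), (3, 11, 13), (6, 11, 14)]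

theorem frame_aux (G : GQ Ln) {p a1 b1 a2 b2 a3 b3 u x y z : Q}
    (L_p_a1_b1 : Ln p a1 b1) (L_p_a2_b2 : Ln p a2 b2) (L_p_a3_b3 : Ln p a3 b3)
    (D_a1_a2 : a1 ≠ a2) (D_b1_a2 : b1 ≠ a2) (D_a1_a3 : a1 ≠ a3) (D_b1_a3 : b1 ≠ a3)
    (D_a2_a3 : a2 ≠ a3) (D_b2_a3 : b2 ≠ a3)
    (L_a1_u_x : Ln a1 u x) (L_a2_u_y : Ln a2 u y) (L_b3_u_z : Ln b3 u z)
    (D_p_u : p ≠ u) (D_b1_u : b1 ≠ u) :
    ∃ f : Fin 15 → Q, Function.Injective f ∧ ∀ l ∈ mLines, Ln (f l.1) (f l.2.1) (f l.2.2) := by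
  have C_p_a1 : Col Ln p a1 := ⟨_, L_p_a1_b1⟩
  have C_p_b1 : Col Ln p b1 := ⟨_, (G.s23 L_p_a1_b1)⟩
  have C_a1_b1 : Col Ln a1 b1 := ⟨_, (G.s23 (G.s12 L_p_a1_b1))⟩
  have C_p_a2 : Col Ln p a2 := ⟨_, L_p_a2_b2⟩
  have C_p_b2 : Col Ln p b2 := ⟨_, (G.s23 L_p_a2_b2)⟩
  have C_a2_b2 : Col Ln a2 b2 := ⟨_, (G.s23 (G.s12 L_p_a2_b2))⟩
  have C_p_a3 : Col Ln p a3 := ⟨_, L_p_a3_b3⟩
  have C_p_b3 : Col Ln p b3 := ⟨_, (G.s23 L_p_a3_b3)⟩
  have C_a3_b3 : Col Ln a3 b3 := ⟨_, (G.s23 (G.s12 L_p_a3_b3))⟩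
  have C_a1_u : Col Ln a1 u := ⟨_, L_a1_u_x⟩
  have C_a1_x : Col Ln a1 x := ⟨_, (G.s23 L_a1_u_x)⟩
  have C_u_x : Col Ln u x := ⟨_, (G.s23 (G.s12 L_a1_u_x))⟩
  have C_a2_u : Col Ln a2 u := ⟨_, L_a2_u_y⟩
  have C_a2_y : Col Ln a2 y := ⟨_, (G.s23 L_a2_u_y)⟩
  have C_u_y : Col Ln u y := ⟨_, (G.s23 (G.s12 L_a2_u_y))⟩
  have C_b3_u : Col Ln b3 u := ⟨_, L_b3_u_z⟩
  have C_b3_z : Col Ln b3 z := ⟨_, (G.s23 L_b3_u_z)⟩
  have C_u_z : Col Ln u z := ⟨_, (G.s23 (G.s12 L_b3_u_z))⟩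
  have D_p_a1 : p ≠ a1 := G.cne C_p_a1
  have D_p_b1 : p ≠ b1 := G.cne C_p_b1
  have D_a1_b1 : a1 ≠ b1 := G.cne C_a1_b1
  have D_p_a2 : p ≠ a2 := G.cne C_p_a2
  have D_p_b2 : p ≠ b2 := G.cne C_p_b2
  have D_a2_b2 : a2 ≠ b2 := G.cne C_a2_b2
  have D_p_a3 : p ≠ a3 := G.cne C_p_a3
  have D_p_b3 : p ≠ b3 := G.cne C_p_b3
  have D_a3_b3 : a3 ≠ b3 := G.cne C_a3_b3
  have D_a1_u : a1 ≠ u := G.cne C_a1_u
  have D_a1_x : a1 ≠ x := G.cne C_a1_x
  have D_u_x : u ≠ x := G.cne C_u_x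
  have D_a2_u : a2 ≠ u := G.cne C_a2_u
  have D_a2_y : a2 ≠ y := G.cne C_a2_y
  have D_u_y : u ≠ y := G.cne C_u_y
  have D_b3_u : b3 ≠ u := G.cne C_b3_u
  have D_b3_z : b3 ≠ z := G.cne C_b3_z
  have D_u_z : u ≠ z := G.cne C_u_z
  have D_b1_b2 : b1 ≠ b2 := G.dne L_p_a1_b1 L_p_a2_b2 D_a1_a2
  have D_b1_b3 : b1 ≠ b3 := G.dne L_p_a1_b1 L_p_a3_b3 D_a1_a3
  have D_a1_b2 : a1 ≠ b2 := G.dne (G.s23 L_p_a1_b1) L_p_a2_b2 D_b1_a2
  have D_a1_b3 : a1 ≠ b3 := G.dne (G.s23 L_p_a1_b1) L_p_a3_b3 D_b1_a3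
  have D_b1_x : b1 ≠ x := G.dne (G.s12 L_p_a1_b1) L_a1_u_x D_p_u
  have D_p_x : p ≠ x := G.dne (G.s23 (G.s12 L_p_a1_b1)) L_a1_u_x D_b1_u
  have D_b2_b3 : b2 ≠ b3 := G.dne L_p_a2_b2 L_p_a3_b3 D_a2_a3
  have D_a2_b3 : a2 ≠ b3 := G.dne (G.s23 L_p_a2_b2) L_p_a3_b3 D_b2_a3
  have D_b2_y : b2 ≠ y := G.dne (G.s12 L_p_a2_b2) L_a2_u_y D_p_u
  have D_a3_z : a3 ≠ z := G.dne (G.s12 (G.s23 L_p_a3_b3)) L_b3_u_z D_p_u
  have D_x_y : x ≠ y := G.dne (G.s12 L_a1_u_x) (G.s12 L_a2_u_y) D_a1_a2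
  have D_x_z : x ≠ z := G.dne (G.s12 L_a1_u_x) (G.s12 L_b3_u_z) D_a1_b3
  have D_y_z : y ≠ z := G.dne (G.s12 L_a2_u_y) (G.s12 L_b3_u_z) D_a2_b3
  have N_p_u : ¬ Col Ln p u := G.nsymm (G.excl (G.s12 L_p_a1_b1) (G.csymm C_a1_u) (Ne.symm D_b1_u))
  have N_p_x : ¬ Col Ln p x := G.nsymm (G.excl (G.s12 L_p_a1_b1) (G.csymm C_a1_x) (Ne.symm D_b1_x))
  have N_p_y : ¬ Col Ln p y := G.nsymm (G.excl (G.s12 L_p_a2_b2) (G.csymm C_a2_y) (Ne.symm D_b2_y))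
  have N_p_z : ¬ Col Ln p z := G.nsymm (G.excl (G.s12 (G.s23 L_p_a3_b3)) (G.csymm C_b3_z) (Ne.symm D_a3_z))
  have N_a1_y : ¬ Col Ln a1 y := G.nsymm (G.excl (G.s12 L_a1_u_x) (G.csymm C_u_y) (Ne.symm D_x_y))
  have N_a1_z : ¬ Col Ln a1 z := G.nsymm (G.excl (G.s12 L_a1_u_x) (G.csymm C_u_z) (Ne.symm D_x_z))
  have N_a2_x : ¬ Col Ln a2 x := G.excl (G.s23 (G.s12 L_a1_u_x)) C_a2_u (Ne.symm D_a1_a2)
  have N_b3_x : ¬ Col Ln b3 x := G.excl (G.s23 (G.s12 L_a1_u_x)) C_b3_u (Ne.symm D_a1_b3)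
  have N_a2_z : ¬ Col Ln a2 z := G.nsymm (G.excl (G.s12 L_a2_u_y) (G.csymm C_u_z) (Ne.symm D_y_z))
  have N_b3_y : ¬ Col Ln b3 y := G.excl (G.s23 (G.s12 L_a2_u_y)) C_b3_u (Ne.symm D_a2_b3)
  have D_p_y : p ≠ y := G.dsep C_p_a1 (G.nsymm N_a1_y)
  have D_p_z : p ≠ z := G.dsep C_p_a1 (G.nsymm N_a1_z)
  have D_a1_y : a1 ≠ y := G.dsep (G.csymm C_p_a1) (G.nsymm N_p_y)
  have D_a1_z : a1 ≠ z := G.dsep (G.csymm C_p_a1) (G.nsymm N_p_z)
  have D_b1_y : b1 ≠ y := G.dsep (G.csymm C_p_b1) (G.nsymm N_p_y)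
  have D_b1_z : b1 ≠ z := G.dsep (G.csymm C_p_b1) (G.nsymm N_p_z)
  have D_a2_x : a2 ≠ x := G.dsep (G.csymm C_p_a2) (G.nsymm N_p_x)
  have D_a2_z : a2 ≠ z := G.dsep (G.csymm C_p_a2) (G.nsymm N_p_z)
  have D_b2_u : b2 ≠ u := G.dsep (G.csymm C_p_b2) (G.nsymm N_p_u)
  have D_b2_x : b2 ≠ x := G.dsep (G.csymm C_p_b2) (G.nsymm N_p_x)
  have D_b2_z : b2 ≠ z := G.dsep (G.csymm C_p_b2) (G.nsymm N_p_z)
  have D_a3_u : a3 ≠ u := G.dsep (G.csymm C_p_a3) (G.nsymm N_p_u)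
  have D_a3_x : a3 ≠ x := G.dsep (G.csymm C_p_a3) (G.nsymm N_p_x)
  have D_a3_y : a3 ≠ y := G.dsep (G.csymm C_p_a3) (G.nsymm N_p_y)
  have D_b3_x : b3 ≠ x := G.dsep (G.csymm C_p_b3) (G.nsymm N_p_x)
  have D_b3_y : b3 ≠ y := G.dsep (G.csymm C_p_b3) (G.nsymm N_p_y)
  have C_b1_y : Col Ln b1 y := G.csymm (G.forced L_p_a1_b1 (Ne.symm D_p_y) (Ne.symm D_a1_y) (Ne.symm D_b1_y) (G.nsymm N_p_y) (G.nsymm N_a1_y))
  have C_b1_z : Col Ln b1 z := G.csymm (G.forced L_p_a1_b1 (Ne.symm D_p_z) (Ne.symm D_a1_z) (Ne.symm D_b1_z) (G.nsymm N_p_z) (G.nsymm N_a1_z))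
  have C_b2_x : Col Ln b2 x := G.csymm (G.forced L_p_a2_b2 (Ne.symm D_p_x) (Ne.symm D_a2_x) (Ne.symm D_b2_x) (G.nsymm N_p_x) (G.nsymm N_a2_x))
  have C_b2_z : Col Ln b2 z := G.csymm (G.forced L_p_a2_b2 (Ne.symm D_p_z) (Ne.symm D_a2_z) (Ne.symm D_b2_z) (G.nsymm N_p_z) (G.nsymm N_a2_z))
  have C_a3_x : Col Ln a3 x := G.csymm (G.forced (G.s23 L_p_a3_b3) (Ne.symm D_p_x) (Ne.symm D_b3_x) (Ne.symm D_a3_x) (G.nsymm N_p_x) (G.nsymm N_b3_x))
  have C_a3_y : Col Ln a3 y := G.csymm (G.forced (G.s23 L_p_a3_b3) (Ne.symm D_p_y) (Ne.symm D_b3_y) (Ne.symm D_a3_y) (G.nsymm N_p_y) (G.nsymm N_b3_y))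
  obtain ⟨Y, h_Y⟩ := (G.csymm C_a3_x)
  have L_a3_x_Y : Ln a3 x Y := (G.s12 h_Y)
  have C_a3_Y : Col Ln a3 Y := ⟨_, (G.s23 L_a3_x_Y)⟩
  have C_x_Y : Col Ln x Y := ⟨_, (G.s23 (G.s12 L_a3_x_Y))⟩
  have D_a3_Y : a3 ≠ Y := G.cne C_a3_Y
  have D_x_Y : x ≠ Y := G.cne C_x_Y
  have D_b3_Y : b3 ≠ Y := G.dne (G.s12 L_p_a3_b3) L_a3_x_Y D_p_x
  have D_p_Y : p ≠ Y := G.dne (G.s23 (G.s12 L_p_a3_b3)) L_a3_x_Y D_b3_x
  have D_u_Y : u ≠ Y := G.dne (G.s12 (G.s23 L_a1_u_x)) (G.s12 L_a3_x_Y) D_a1_a3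
  have D_a1_Y : a1 ≠ Y := G.dne (G.s12 (G.s23 (G.s12 L_a1_u_x))) (G.s12 L_a3_x_Y) (Ne.symm D_a3_u)
  have N_p_Y : ¬ Col Ln p Y := G.nsymm (G.excl (G.s12 L_p_a3_b3) (G.csymm C_a3_Y) (Ne.symm D_b3_Y))
  have N_b3_Y : ¬ Col Ln b3 Y := G.nsymm (G.excl (G.s23 (G.s12 L_p_a3_b3)) (G.csymm C_a3_Y) (Ne.symm D_p_Y))
  have N_a1_Y : ¬ Col Ln a1 Y := G.nsymm (G.excl (G.s12 (G.s23 L_a1_u_x)) (G.csymm C_x_Y) (Ne.symm D_u_Y))
  have N_u_Y : ¬ Col Ln u Y := G.nsymm (G.excl (G.s12 (G.s23 (G.s12 L_a1_u_x))) (G.csymm C_x_Y) (Ne.symm D_a1_Y))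
  have N_b2_Y : ¬ Col Ln b2 Y := G.excl (G.s23 (G.s12 L_a3_x_Y)) C_b2_x D_b2_a3
  have D_b1_Y : b1 ≠ Y := G.dsep (G.csymm C_p_b1) (G.nsymm N_p_Y)
  have D_a2_Y : a2 ≠ Y := G.dsep (G.csymm C_p_a2) (G.nsymm N_p_Y)
  have D_b2_Y : b2 ≠ Y := G.dsep (G.csymm C_p_b2) (G.nsymm N_p_Y)
  have D_y_Y : y ≠ Y := G.dsep (G.csymm C_u_y) (G.nsymm N_u_Y)
  have D_z_Y : z ≠ Y := G.dsep (G.csymm C_b3_z) (G.nsymm N_b3_Y)
  have C_b1_Y : Col Ln b1 Y := G.csymm (G.forced L_p_a1_b1 (Ne.symm D_p_Y) (Ne.symm D_a1_Y) (Ne.symm D_b1_Y) (G.nsymm N_p_Y) (G.nsymm N_a1_Y))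
  have C_a2_Y : Col Ln a2 Y := G.csymm (G.forced (G.s23 L_p_a2_b2) (Ne.symm D_p_Y) (Ne.symm D_b2_Y) (Ne.symm D_a2_Y) (G.nsymm N_p_Y) (G.nsymm N_b2_Y))
  have C_z_Y : Col Ln z Y := G.csymm (G.forced L_b3_u_z (Ne.symm D_b3_Y) (Ne.symm D_u_Y) (Ne.symm D_z_Y) (G.nsymm N_b3_Y) (G.nsymm N_u_Y))
  have L_b1_z_Y : Ln b1 z Y := G.close C_b1_z (G.csymm C_b1_Y) (G.csymm C_z_Y)
  obtain ⟨Z, h_Z⟩ := (G.csymm C_b2_x)
  have L_b2_x_Z : Ln b2 x Z := (G.s12 h_Z)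
  have C_b2_Z : Col Ln b2 Z := ⟨_, (G.s23 L_b2_x_Z)⟩
  have C_x_Z : Col Ln x Z := ⟨_, (G.s23 (G.s12 L_b2_x_Z))⟩
  have D_b2_Z : b2 ≠ Z := G.cne C_b2_Z
  have D_x_Z : x ≠ Z := G.cne C_x_Z
  have D_a2_Z : a2 ≠ Z := G.dne (G.s12 (G.s23 L_p_a2_b2)) L_b2_x_Z D_p_x
  have D_p_Z : p ≠ Z := G.dne (G.s12 (G.s23 (G.s12 L_p_a2_b2))) L_b2_x_Z D_a2_x
  have D_u_Z : u ≠ Z := G.dne (G.s12 (G.s23 L_a1_u_x)) (G.s12 L_b2_x_Z) D_a1_b2
  have D_a1_Z : a1 ≠ Z := G.dne (G.s12 (G.s23 (G.s12 L_a1_u_x))) (G.s12 L_b2_x_Z) (Ne.symm D_b2_u)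
  have D_Y_Z : Y ≠ Z := G.dne (G.s12 L_a3_x_Y) (G.s12 L_b2_x_Z) (Ne.symm D_b2_a3)
  have D_a3_Z : a3 ≠ Z := G.dne (G.s23 (G.s12 L_a3_x_Y)) (G.s12 L_b2_x_Z) (Ne.symm D_b2_Y)
  have N_p_Z : ¬ Col Ln p Z := G.nsymm (G.excl (G.s12 (G.s23 L_p_a2_b2)) (G.csymm C_b2_Z) (Ne.symm D_a2_Z))
  have N_a2_Z : ¬ Col Ln a2 Z := G.nsymm (G.excl (G.s12 (G.s23 (G.s12 L_p_a2_b2))) (G.csymm C_b2_Z) (Ne.symm D_p_Z))
  have N_a1_Z : ¬ Col Ln a1 Z := G.nsymm (G.excl (G.s12 (G.s23 L_a1_u_x)) (G.csymm C_x_Z) (Ne.symm D_u_Z))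
  have N_u_Z : ¬ Col Ln u Z := G.nsymm (G.excl (G.s12 (G.s23 (G.s12 L_a1_u_x))) (G.csymm C_x_Z) (Ne.symm D_a1_Z))
  have N_a3_Z : ¬ Col Ln a3 Z := G.nsymm (G.excl (G.s12 L_a3_x_Y) (G.csymm C_x_Z) (Ne.symm D_Y_Z))
  have D_b1_Z : b1 ≠ Z := G.dsep (G.csymm C_p_b1) (G.nsymm N_p_Z)
  have D_b3_Z : b3 ≠ Z := G.dsep (G.csymm C_p_b3) (G.nsymm N_p_Z)
  have D_y_Z : y ≠ Z := G.dsep (G.csymm C_a2_y) (G.nsymm N_a2_Z)
  have D_z_Z : z ≠ Z := G.dsep (G.csymm C_u_z) (G.nsymm N_u_Z)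
  have C_b1_Z : Col Ln b1 Z := G.csymm (G.forced L_p_a1_b1 (Ne.symm D_p_Z) (Ne.symm D_a1_Z) (Ne.symm D_b1_Z) (G.nsymm N_p_Z) (G.nsymm N_a1_Z))
  have C_b3_Z : Col Ln b3 Z := G.csymm (G.forced L_p_a3_b3 (Ne.symm D_p_Z) (Ne.symm D_a3_Z) (Ne.symm D_b3_Z) (G.nsymm N_p_Z) (G.nsymm N_a3_Z))
  have C_y_Z : Col Ln y Z := G.csymm (G.forced L_a2_u_y (Ne.symm D_a2_Z) (Ne.symm D_u_Z) (Ne.symm D_y_Z) (G.nsymm N_a2_Z) (G.nsymm N_u_Z))
  have L_b1_y_Z : Ln b1 y Z := G.close C_b1_y (G.csymm C_b1_Z) (G.csymm C_y_Z)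
  obtain ⟨X, h_X⟩ := (G.csymm C_a3_y)
  have L_a3_y_X : Ln a3 y X := (G.s12 h_X)
  have C_a3_X : Col Ln a3 X := ⟨_, (G.s23 L_a3_y_X)⟩
  have C_y_X : Col Ln y X := ⟨_, (G.s23 (G.s12 L_a3_y_X))⟩
  have D_a3_X : a3 ≠ X := G.cne C_a3_X
  have D_y_X : y ≠ X := G.cne C_y_X
  have D_b3_X : b3 ≠ X := G.dne (G.s12 L_p_a3_b3) L_a3_y_X D_p_y
  have D_p_X : p ≠ X := G.dne (G.s23 (G.s12 L_p_a3_b3)) L_a3_y_X D_b3_y
  have D_u_X : u ≠ X := G.dne (G.s12 (G.s23 L_a2_u_y)) (G.s12 L_a3_y_X) D_a2_a3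
  have D_a2_X : a2 ≠ X := G.dne (G.s12 (G.s23 (G.s12 L_a2_u_y))) (G.s12 L_a3_y_X) (Ne.symm D_a3_u)
  have D_x_X : x ≠ X := G.dne (G.s23 L_a3_x_Y) L_a3_y_X (Ne.symm D_y_Y)
  have D_b1_X : b1 ≠ X := G.dne (G.s23 (G.s12 L_b1_y_Z)) (G.s12 L_a3_y_X) (Ne.symm D_a3_Z)
  have D_X_Y : X ≠ Y := G.dne L_a3_y_X L_a3_x_Y (Ne.symm D_x_y)
  have D_X_Z : X ≠ Z := G.dne (G.s12 L_a3_y_X) (G.s12 L_b1_y_Z) (Ne.symm D_b1_a3)
  have N_p_X : ¬ Col Ln p X := G.nsymm (G.excl (G.s12 L_p_a3_b3) (G.csymm C_a3_X) (Ne.symm D_b3_X))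
  have N_b3_X : ¬ Col Ln b3 X := G.nsymm (G.excl (G.s23 (G.s12 L_p_a3_b3)) (G.csymm C_a3_X) (Ne.symm D_p_X))
  have N_a2_X : ¬ Col Ln a2 X := G.nsymm (G.excl (G.s12 (G.s23 L_a2_u_y)) (G.csymm C_y_X) (Ne.symm D_u_X))
  have N_u_X : ¬ Col Ln u X := G.nsymm (G.excl (G.s12 (G.s23 (G.s12 L_a2_u_y))) (G.csymm C_y_X) (Ne.symm D_a2_X))
  have N_b1_X : ¬ Col Ln b1 X := G.nsymm (G.excl (G.s12 L_b1_y_Z) (G.csymm C_y_X) D_X_Z)
  have D_a1_X : a1 ≠ X := G.dsep (G.csymm C_p_a1) (G.nsymm N_p_X)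
  have D_b2_X : b2 ≠ X := G.dsep (G.csymm C_p_b2) (G.nsymm N_p_X)
  have D_z_X : z ≠ X := G.dsep (G.csymm C_b3_z) (G.nsymm N_b3_X)
  have C_a1_X : Col Ln a1 X := G.csymm (G.forced (G.s23 L_p_a1_b1) (Ne.symm D_p_X) (Ne.symm D_b1_X) (Ne.symm D_a1_X) (G.nsymm N_p_X) (G.nsymm N_b1_X))
  have C_b2_X : Col Ln b2 X := G.csymm (G.forced L_p_a2_b2 (Ne.symm D_p_X) (Ne.symm D_a2_X) (Ne.symm D_b2_X) (G.nsymm N_p_X) (G.nsymm N_a2_X))
  have C_z_X : Col Ln z X := G.csymm (G.forced L_b3_u_z (Ne.symm D_b3_X) (Ne.symm D_u_X) (Ne.symm D_z_X) (G.nsymm N_b3_X) (G.nsymm N_u_X))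
  have L_b2_z_X : Ln b2 z X := G.close C_b2_z (G.csymm C_b2_X) (G.csymm C_z_X)
  obtain ⟨U, h_U⟩ := C_a1_X
  have L_a1_U_X : Ln a1 U X := (G.s23 h_U)
  have C_a1_U : Col Ln a1 U := ⟨_, L_a1_U_X⟩
  have C_U_X : Col Ln U X := ⟨_, (G.s23 (G.s12 L_a1_U_X))⟩
  have D_a1_U : a1 ≠ U := G.cne C_a1_U
  have D_U_X : U ≠ X := G.cne C_U_X
  have D_b1_U : b1 ≠ U := G.dne (G.s12 L_p_a1_b1) (G.s23 L_a1_U_X) D_p_X
  have D_p_U : p ≠ U := G.dne (G.s23 (G.s12 L_p_a1_b1)) (G.s23 L_a1_U_X) D_b1_X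
  have D_x_U : x ≠ U := G.dne L_a1_u_x (G.s23 L_a1_U_X) D_u_X
  have D_u_U : u ≠ U := G.dne (G.s23 L_a1_u_x) (G.s23 L_a1_U_X) D_x_X
  have D_y_U : y ≠ U := G.dne (G.s12 (G.s23 L_a3_y_X)) (G.s12 (G.s23 L_a1_U_X)) (Ne.symm D_a1_a3)
  have D_a3_U : a3 ≠ U := G.dne (G.s12 (G.s23 (G.s12 L_a3_y_X))) (G.s12 (G.s23 L_a1_U_X)) (Ne.symm D_a1_y)
  have D_z_U : z ≠ U := G.dne (G.s12 (G.s23 L_b2_z_X)) (G.s12 (G.s23 L_a1_U_X)) (Ne.symm D_a1_b2)
  have D_b2_U : b2 ≠ U := G.dne (G.s12 (G.s23 (G.s12 L_b2_z_X))) (G.s12 (G.s23 L_a1_U_X)) (Ne.symm D_a1_z)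
  have N_p_U : ¬ Col Ln p U := G.nsymm (G.excl (G.s12 L_p_a1_b1) (G.csymm C_a1_U) (Ne.symm D_b1_U))
  have N_x_U : ¬ Col Ln x U := G.nsymm (G.excl (G.s23 L_a1_u_x) (G.csymm C_a1_U) (Ne.symm D_u_U))
  have N_a3_U : ¬ Col Ln a3 U := G.nsymm (G.excl (G.s12 (G.s23 L_a3_y_X)) C_U_X (Ne.symm D_y_U))
  have N_b2_U : ¬ Col Ln b2 U := G.nsymm (G.excl (G.s12 (G.s23 L_b2_z_X)) C_U_X (Ne.symm D_z_U))
  have D_a2_U : a2 ≠ U := G.dsep (G.csymm C_p_a2) (G.nsymm N_p_U)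
  have D_b3_U : b3 ≠ U := G.dsep (G.csymm C_p_b3) (G.nsymm N_p_U)
  have D_U_Y : U ≠ Y := Ne.symm (G.dsep (G.csymm C_a3_Y) (G.nsymm N_a3_U))
  have D_U_Z : U ≠ Z := Ne.symm (G.dsep (G.csymm C_b2_Z) (G.nsymm N_b2_U))
  have C_a2_U : Col Ln a2 U := G.csymm (G.forced (G.s23 L_p_a2_b2) (Ne.symm D_p_U) (Ne.symm D_b2_U) (Ne.symm D_a2_U) (G.nsymm N_p_U) (G.nsymm N_b2_U))
  have C_b3_U : Col Ln b3 U := G.csymm (G.forced L_p_a3_b3 (Ne.symm D_p_U) (Ne.symm D_a3_U) (Ne.symm D_b3_U) (G.nsymm N_p_U) (G.nsymm N_a3_U))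
  have C_U_Y : Col Ln U Y := G.forced L_a3_x_Y (Ne.symm D_a3_U) (Ne.symm D_x_U) D_U_Y (G.nsymm N_a3_U) (G.nsymm N_x_U)
  have C_U_Z : Col Ln U Z := G.forced L_b2_x_Z (Ne.symm D_b2_U) (Ne.symm D_x_U) D_U_Z (G.nsymm N_b2_U) (G.nsymm N_x_U)
  have L_a2_U_Y : Ln a2 U Y := G.close C_a2_U (G.csymm C_a2_Y) (G.csymm C_U_Y)
  have L_b3_U_Z : Ln b3 U Z := G.close C_b3_U (G.csymm C_b3_Z) (G.csymm C_U_Z)
  refine ⟨![p, a1, b1, a2, b2, a3, b3, u, x, y, z, U, X, Y, Z], ?_, ?_⟩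
  · apply List.nodup_ofFn.1
    show List.Nodup [p, a1, b1, a2, b2, a3, b3, u, x, y, z, U, X, Y, Z]
    simp only [List.nodup_cons, List.mem_cons, List.not_mem_nil, or_false, not_or,
      List.nodup_nil, not_false_eq_true, and_true]
    exact ⟨⟨D_p_a1, D_p_b1, D_p_a2, D_p_b2, D_p_a3, D_p_b3, D_p_u, D_p_x, D_p_y, D_p_z, D_p_U, D_p_X, D_p_Y, D_p_Z⟩,
      ⟨D_a1_b1, D_a1_a2, D_a1_b2, D_a1_a3, D_a1_b3, D_a1_u, D_a1_x, D_a1_y, D_a1_z, D_a1_U, D_a1_X, D_a1_Y, D_a1_Z⟩,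
      ⟨D_b1_a2, D_b1_b2, D_b1_a3, D_b1_b3, D_b1_u, D_b1_x, D_b1_y, D_b1_z, D_b1_U, D_b1_X, D_b1_Y, D_b1_Z⟩,
      ⟨D_a2_b2, D_a2_a3, D_a2_b3, D_a2_u, D_a2_x, D_a2_y, D_a2_z, D_a2_U, D_a2_X, D_a2_Y, D_a2_Z⟩,
      ⟨D_b2_a3, D_b2_b3, D_b2_u, D_b2_x, D_b2_y, D_b2_z, D_b2_U, D_b2_X, D_b2_Y, D_b2_Z⟩,
      ⟨D_a3_b3, D_a3_u, D_a3_x, D_a3_y, D_a3_z, D_a3_U, D_a3_X, D_a3_Y, D_a3_Z⟩,
      ⟨D_b3_u, D_b3_x, D_b3_y, D_b3_z, D_b3_U, D_b3_X, D_b3_Y, D_b3_Z⟩,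
      ⟨D_u_x, D_u_y, D_u_z, D_u_U, D_u_X, D_u_Y, D_u_Z⟩,
      ⟨D_x_y, D_x_z, D_x_U, D_x_X, D_x_Y, D_x_Z⟩,
      ⟨D_y_z, D_y_U, D_y_X, D_y_Y, D_y_Z⟩,
      ⟨D_z_U, D_z_X, D_z_Y, D_z_Z⟩,
      ⟨D_U_X, D_U_Y, D_U_Z⟩,
      ⟨D_X_Y, D_X_Z⟩,
      D_Y_Z⟩
  · intro l hl
    simp only [mLines, List.mem_cons, List.not_mem_nil, or_false] at hl
    rcases hl with rfl | rfl | rfl | rfl | rfl | rfl | rfl | rfl | rfl | rfl | rfl | rfl | rfl |
      rfl | rfl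
    · exact L_p_a1_b1
    · exact L_p_a2_b2
    · exact L_p_a3_b3
    · exact L_a1_u_x
    · exact L_a2_u_y
    · exact L_b3_u_z
    · exact L_b2_x_Z
    · exact L_a3_x_Y
    · exact L_b1_y_Z
    · exact L_a3_y_X
    · exact L_b1_z_Y
    · exact L_b2_z_X
    · exact L_a1_U_X
    · exact L_a2_U_Y
    · exact L_b3_U_Z

theorem frame (G : GQ Ln) (p : Q) :
    ∃ f : Fin 15 → Q, Function.Injective f ∧ ∀ l ∈ mLines, Ln (f l.1) (f l.2.1) (f l.2.2) := by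
  obtain ⟨a1, b1, a2, b2, a3, b3, l1, l2, l3, n1, n2, n3, n4, n5, n6⟩ := G.three p
  -- a line on `a1` not through `p`
  obtain ⟨s, t, hst, hps, hpt⟩ : ∃ s t, Ln a1 s t ∧ p ≠ s ∧ p ≠ t := by
    obtain ⟨c, c', d, d', e, e', k1, k2, -, m1, m2, -, -, -, -⟩ := G.three a1
    by_cases h : p = c ∨ p = c'
    · refine ⟨d, d', k2, ?_, ?_⟩
      · rintro rfl
        rcases h with h | h
        · exact m1 h
        · exact m2 h
      · rintro rfl
        rcases h with rfl | rfl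
        · exact m2 (G.uniq (G.s23 k2) (G.s12 (G.s12 k1)))
        · exact m1 (G.uniq (G.s23 k2) (G.s23 k1))
    · push Not at h
      exact ⟨c, c', k1, h.1, h.2⟩
  have c12 : ¬ Col Ln a2 a1 := G.excl l1 ⟨_, G.s12 l2⟩ n2
  have key : ∃ u x, Ln a1 u x ∧ p ≠ u ∧ Col Ln a2 u := by
    have e1 : a2 ≠ s := by
      rintro rfl
      exact c12 ⟨_, G.s12 hst⟩
    have e2 : a2 ≠ t := by
      rintro rfl
      exact c12 ⟨_, G.s12 (G.s23 hst)⟩
    rcases G.least hst n1 e1 e2 with k | k | k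
    · exact (c12 k).elim
    · exact ⟨s, t, hst, hps, k⟩
    · exact ⟨t, s, G.s23 hst, hpt, k⟩
  obtain ⟨u, x, hu, hpu, y, h2y⟩ := key
  have hb1u : b1 ≠ u := by
    rintro rfl
    have := G.uniq hu (G.s23 (G.s12 l1))
    -- a2 is collinear with b1 and p
    exact G.excl (G.s23 l1) ⟨_, G.s12 l2⟩ n1 ⟨_, h2y⟩
  have cup : ¬ Col Ln u p := by
    have : Col Ln u a1 := ⟨_, G.s12 hu⟩
    exact G.excl (G.s12 l1) this (Ne.symm hb1u)
  have e3 : u ≠ a3 := by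
    rintro rfl
    exact cup ⟨_, G.s12 l3⟩
  have e4 : u ≠ b3 := by
    rintro rfl
    exact cup ⟨_, G.s12 (G.s23 l3)⟩
  rcases G.least l3 (Ne.symm hpu) e3 e4 with k | k | k
  · exact (cup k).elim
  · obtain ⟨z, hz⟩ := G.csymm k
    have d1 : a1 ≠ b3 := by
      rintro rfl
      exact n4 (G.uniq (G.s23 l3) l1)
    have d2 : b1 ≠ b3 := by
      rintro rfl
      exact n3 (G.uniq (G.s23 l3) (G.s23 l1))
    have d3 : a2 ≠ b3 := by
      rintro rfl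
      exact n6 (G.uniq (G.s23 l3) l2)
    have d4 : b2 ≠ b3 := by
      rintro rfl
      exact n5 (G.uniq (G.s23 l3) (G.s23 l2))
    exact frame_aux G l1 l2 (G.s23 l3) (Ne.symm n1) (Ne.symm n2) d1 d2 d3 d4
      hu h2y hz hpu hb1u
  · obtain ⟨z, hz⟩ := G.csymm k
    exact frame_aux G l1 l2 l3 (Ne.symm n1) (Ne.symm n2) (Ne.symm n3) (Ne.symm n4)
      (Ne.symm n5) (Ne.symm n6) hu h2y hz hpu hb1u

end Cfsg.Agent.SporadicA.GQ22
end

-- part: SporadicA/Srg77Label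
section
/-!
# srg(77,16,0,4): labelling of the neighbours of a vertex by `Fin 16`
-/

set_option autoImplicit false

namespace Cfsg.Agent.SporadicA.Srg77Label

open Finset Cfsg.Agent.SporadicA.Srg77 Cfsg.Agent.SporadicA.GQ22

variable {V : Type*} [Fintype V] [DecidableEq V] {N : V → Finset V}

omit [Fintype V] in
theorem fourth {S : Finset V} (hS : S.card = 4) {a b c : V} (ha : a ∈ S) (hb : b ∈ S) (hc : c ∈ S)
    (hab : a ≠ b) (hac : a ≠ c) (hbc : b ≠ c) :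
    ∃ d, a ≠ d ∧ b ≠ d ∧ c ≠ d ∧ S = {a, b, c, d} := by
  have h3 : ({a, b, c} : Finset V).card = 3 := Finset.card_eq_three.2 ⟨a, b, c, hab, hac, hbc, rfl⟩
  have hsub : ({a, b, c} : Finset V) ⊆ S := by
    intro t ht; simp only [mem_insert, mem_singleton] at ht
    rcases ht with rfl | rfl | rfl <;> assumption
  have h1 : (S \ {a, b, c}).card = 1 := by rw [card_sdiff_of_subset hsub, hS, h3]
  obtain ⟨d, hd⟩ := Finset.card_eq_one.1 h1
  have hd' : d ∈ S \ {a, b, c} := by rw [hd]; simp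
  simp only [mem_sdiff, mem_insert, mem_singleton, not_or] at hd'
  refine ⟨d, Ne.symm hd'.2.1, Ne.symm hd'.2.2.1, Ne.symm hd'.2.2.2, ?_⟩
  have : S = {a, b, c} ∪ (S \ {a, b, c}) := (union_sdiff_of_subset hsub).symm
  rw [this, hd]
  ext t; simp only [mem_union, mem_insert, mem_singleton]; tauto

omit [Fintype V] in
theorem fourth2 {S : Finset V} (hS : S.card = 4) {a b : V} (ha : a ∈ S) (hb : b ∈ S)
    (hab : a ≠ b) :
    ∃ c d, a ≠ c ∧ a ≠ d ∧ b ≠ c ∧ b ≠ d ∧ c ≠ d ∧ S = {a, b, c, d} := by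
  have : ∃ c ∈ S, c ≠ a ∧ c ≠ b := by
    by_contra hc
    push Not at hc
    have : S ⊆ {a, b} := by
      intro t ht
      simp only [mem_insert, mem_singleton]
      by_cases h : t = a
      · exact Or.inl h
      · exact Or.inr (hc t ht h)
    have := card_le_card this
    have h2 : ({a, b} : Finset V).card ≤ 2 := card_le_two
    omega
  obtain ⟨c, hc, hca, hcb⟩ := this
  obtain ⟨d, h1, h2, h3, h4⟩ := fourth hS ha hb hc hab (Ne.symm hca) (Ne.symm hcb)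
  exact ⟨c, d, Ne.symm hca, h1, Ne.symm hcb, h2, h3, h4⟩

/-- `{o, x, y, z}` is a block of the design on the neighbours of `v` -/
def Ln (N : V → Finset V) (v o x y z : V) : Prop :=
  o ≠ x ∧ o ≠ y ∧ o ≠ z ∧ x ≠ y ∧ x ≠ z ∧ y ≠ z ∧ ∃ w, w ≠ v ∧ N v ∩ N w = {o, x, y, z}

omit [Fintype V] in
theorem Ln.s12 {v o x y z : V} (h : Ln N v o x y z) : Ln N v o y x z := by
  obtain ⟨h1, h2, h3, h4, h5, h6, w, h7, h8⟩ := h
  refine ⟨h2, h1, h3, Ne.symm h4, h6, h5, w, h7, ?_⟩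
  rw [h8]; ext t; simp only [mem_insert, mem_singleton]; tauto

omit [Fintype V] in
theorem Ln.s23 {v o x y z : V} (h : Ln N v o x y z) : Ln N v o x z y := by
  obtain ⟨h1, h2, h3, h4, h5, h6, w, h7, h8⟩ := h
  refine ⟨h1, h3, h2, h5, h4, Ne.symm h6, w, h7, ?_⟩
  rw [h8]; ext t; simp only [mem_insert, mem_singleton]; tauto

omit [Fintype V] in
theorem Ln.mem {v o x y z : V} (h : Ln N v o x y z) :
    o ∈ N v ∧ x ∈ N v ∧ y ∈ N v ∧ z ∈ N v := by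
  obtain ⟨-, -, -, -, -, -, w, -, h8⟩ := h
  have : ∀ t, t ∈ ({o, x, y, z} : Finset V) → t ∈ N v := fun t ht => by
    rw [← h8] at ht; exact (mem_inter.1 ht).1
  exact ⟨this _ (by simp), this _ (by simp), this _ (by simp), this _ (by simp)⟩

theorem S77.cov_of_ln (h : S77 N) {v o x y z : V} (hl : Ln N v o x y z) : Cov N v x o y := by
  obtain ⟨h1, h2, h3, h4, h5, h6, w, h7, h8⟩ := hl
  have : ∀ t, t ∈ ({o, x, y, z} : Finset V) → t ∈ N w := fun t ht => by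
    rw [← h8] at ht; exact (mem_inter.1 ht).2
  exact ⟨w, h7, h.symm _ _ (this _ (by simp)), h.symm _ _ (this _ (by simp)),
    h.symm _ _ (this _ (by simp))⟩

theorem S77.ln_of_cov (h : S77 N) {v o x y : V} (ho : o ∈ N v) (hx : x ∈ N v) (hy : y ∈ N v)
    (hox : o ≠ x) (hoy : o ≠ y) (hxy : x ≠ y) (hc : Cov N v x o y) : ∃ z, Ln N v o x y z := by
  obtain ⟨w, wv, wx, wo, wy⟩ := hc
  have s := h.symm
  have hc : (N v ∩ N w).card = 4 := h.mu' wv.symm ho (s _ _ wo)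
  obtain ⟨z, h1, h2, h3, h4⟩ := fourth hc (a := o) (b := x) (c := y) (by simp [ho, s _ _ wo])
    (by simp [hx, s _ _ wx]) (by simp [hy, s _ _ wy]) hox hoy hxy
  exact ⟨z, hox, hoy, h1, hxy, h2, h3, w, wv, h4⟩

/-- the derived structure at a neighbour `o` of `v` is a generalized quadrangle -/
theorem S77.gq (h : S77 N) {v o : V} (ho : o ∈ N v) :
    GQ (Q := {x : V // x ∈ N v ∧ x ≠ o}) (fun x y z => Ln N v o x.1 y.1 z.1) where
  s12 := Ln.s12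
  s23 := Ln.s23
  ne := fun hl => fun e => hl.2.2.2.1 (congrArg Subtype.val e)
  most := by
    rintro ⟨x, xv, xo⟩ ⟨y, yv, yo⟩ ⟨z, zv, zo⟩ ⟨u, uv, uo⟩ hl ⟨t1, h1⟩ ⟨t2, h2⟩
    simp only at hl h1 h2
    simp only [Subtype.mk.injEq]
    by_contra hne
    have hux : u ≠ x := h1.2.2.2.1
    have huy : u ≠ y := h2.2.2.2.1
    have c1 := S77.cov_of_ln h h1
    have c2 := S77.cov_of_ln h h2
    obtain ⟨l1, l2, l3, l4, l5, l6, w, wv, hw⟩ := hl
    have hmem : ∀ t, t ∈ N v ∩ N w ↔ t = o ∨ t = x ∨ t = y ∨ t = z := by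
      intro t; rw [hw]; simp
    have uw : u ∉ N w := by
      intro uw
      rcases (hmem u).1 (mem_inter.2 ⟨uv, uw⟩) with e | e | e | e
      · exact uo e
      · exact hux e
      · exact huy e
      · exact hne e
    exact h.cov_atmost wv l1 l2 l4 ho (mem_inter.1 ((hmem o).2 (by simp))).2
      xv (mem_inter.1 ((hmem x).2 (by simp))).2 yv (mem_inter.1 ((hmem y).2 (by simp))).2
      uv uw c1 c2
  least := by
    rintro ⟨x, xv, xo⟩ ⟨y, yv, yo⟩ ⟨z, zv, zo⟩ ⟨u, uv, uo⟩ hl n1 n2 n3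
    simp only [ne_eq, Subtype.mk.injEq] at n1 n2 n3
    simp only at hl
    obtain ⟨l1, l2, l3, l4, l5, l6, w, wv, hw⟩ := hl
    have hmem : ∀ t, t ∈ N v ∩ N w ↔ t = o ∨ t = x ∨ t = y ∨ t = z := by
      intro t; rw [hw]; simp
    have uw : u ∉ N w := by
      intro uw
      rcases (hmem u).1 (mem_inter.2 ⟨uv, uw⟩) with e | e | e | e
      · exact uo e
      · exact n1 e
      · exact n2 e
      · exact n3 e
    have fin : ∀ x, x ∈ N v → x ≠ o → u ≠ x → Cov N v u o x → ∃ t, Ln N v o u x t := by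
      intro x xv xo hux hc
      exact S77.ln_of_cov h ho uv xv (Ne.symm uo) (Ne.symm xo) hux hc
    have fin' : ∀ x (hx : x ∈ N v ∧ x ≠ o), u ≠ x → Cov N v u o x →
        Col (Q := {x : V // x ∈ N v ∧ x ≠ o}) (fun x y z => Ln N v o x.1 y.1 z.1)
          ⟨u, uv, uo⟩ ⟨x, hx⟩ := by
      intro x hx hux hc
      obtain ⟨t, ht⟩ := fin x hx.1 hx.2 hux hc
      exact ⟨⟨t, (Ln.mem ht).2.2.2, Ne.symm ht.2.2.1⟩, ht⟩
    rcases h.cov_atleast wv l1 l2 l3 l4 l5 l6 ho (mem_inter.1 ((hmem o).2 (by simp))).2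
      xv (mem_inter.1 ((hmem x).2 (by simp))).2 yv (mem_inter.1 ((hmem y).2 (by simp))).2
      zv (mem_inter.1 ((hmem z).2 (by simp))).2 uv uw with k | k | k
    · exact Or.inl (fin' x ⟨xv, xo⟩ n1 k)
    · exact Or.inr (Or.inl (fin' y ⟨yv, yo⟩ n2 k))
    · exact Or.inr (Or.inr (fin' z ⟨zv, zo⟩ n3 k))
  three := by
    rintro ⟨x, xv, xo⟩
    have s := h.symm
    have e1 : (N o ∩ N x).card = 4 := h.mu' (Ne.symm xo) (s _ _ ho) (s _ _ xv)
    have e2 : ((N o ∩ N x).erase v).card = 3 := by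
      rw [card_erase_of_mem (mem_inter.2 ⟨s _ _ ho, s _ _ xv⟩), e1]
    obtain ⟨w1, w2, w3, n12, n13, n23, e3⟩ := Finset.card_eq_three.1 e2
    have mem : ∀ w, w ∈ (N o ∩ N x).erase v → w ≠ v ∧ o ∈ N w ∧ x ∈ N w := by
      intro w hw
      simp only [mem_erase, mem_inter] at hw
      exact ⟨hw.1, s _ _ hw.2.1, s _ _ hw.2.2⟩
    obtain ⟨w1v, ow1, xw1⟩ := mem w1 (by rw [e3]; simp)
    obtain ⟨w2v, ow2, xw2⟩ := mem w2 (by rw [e3]; simp)
    obtain ⟨w3v, ow3, xw3⟩ := mem w3 (by rw [e3]; simp)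
    have blk : ∀ w, w ≠ v → o ∈ N w → x ∈ N w → ∃ c d, c ∈ N w ∧ d ∈ N w ∧ Ln N v o x c d := by
      intro w wv ow xw
      have hc : (N v ∩ N w).card = 4 := h.mu' wv.symm ho ow
      obtain ⟨c, d, k1, k2, k3, k4, k5, k6⟩ := fourth2 hc (a := o) (b := x) (by simp [ho, ow])
        (by simp [xv, xw]) (Ne.symm xo)
      have hc : c ∈ N v ∩ N w := by rw [k6]; simp
      have hd : d ∈ N v ∩ N w := by rw [k6]; simp
      exact ⟨c, d, (mem_inter.1 hc).2, (mem_inter.1 hd).2, Ne.symm xo, k1, k2, k3, k4, k5, w, wv, k6⟩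
    obtain ⟨a, a', aw, aw', la⟩ := blk w1 w1v ow1 xw1
    obtain ⟨b, b', bw, bw', lb⟩ := blk w2 w2v ow2 xw2
    obtain ⟨c, c', cw, cw', lc⟩ := blk w3 w3v ow3 xw3
    have key : ∀ w w' t t', w ≠ v → w' ≠ v → w ≠ w' → o ∈ N w → x ∈ N w → o ∈ N w' → x ∈ N w' →
        t ∈ N w → t' ∈ N w' → t ∈ N v → t' ∈ N v → t ≠ o → t ≠ x → t' ≠ t := by
      intro w w' t t' wv w'v ww' ow xw ow' xw' tw t'w' tv t'v t_o tx e
      subst e
      exact h.noK33' (Ne.symm wv) (Ne.symm w'v) ww' (Ne.symm xo) (Ne.symm t_o) (Ne.symm tx)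
        ho ow ow' xv xw xw' tv tw t'w'
    have oa : o ≠ a := la.2.1
    have oa' : o ≠ a' := la.2.2.1
    have xa : x ≠ a := la.2.2.2.1
    have xa' : x ≠ a' := la.2.2.2.2.1
    have ob : o ≠ b := lb.2.1
    have ob' : o ≠ b' := lb.2.2.1
    have xb : x ≠ b := lb.2.2.2.1
    have xb' : x ≠ b' := lb.2.2.2.2.1
    have oc : o ≠ c := lc.2.1
    have oc' : o ≠ c' := lc.2.2.1
    obtain ⟨-, -, av, av'⟩ := Ln.mem la
    obtain ⟨-, -, bv, bv'⟩ := Ln.mem lb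
    obtain ⟨-, -, cv, cv'⟩ := Ln.mem lc
    refine ⟨⟨a, av, oa.symm⟩, ⟨a', av', oa'.symm⟩, ⟨b, bv, ob.symm⟩, ⟨b', bv', ob'.symm⟩,
      ⟨c, cv, oc.symm⟩, ⟨c', cv', oc'.symm⟩, la, lb, lc, ?_, ?_, ?_, ?_, ?_, ?_⟩ <;>
      simp only [ne_eq, Subtype.mk.injEq]
    · exact key w1 w2 a b w1v w2v n12 ow1 xw1 ow2 xw2 aw bw av bv oa.symm xa.symm
    · exact key w1 w2 a' b w1v w2v n12 ow1 xw1 ow2 xw2 aw' bw av' bv oa'.symm xa'.symm
    · exact key w1 w3 a c w1v w3v n13 ow1 xw1 ow3 xw3 aw cw av cv oa.symm xa.symm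
    · exact key w1 w3 a' c w1v w3v n13 ow1 xw1 ow3 xw3 aw' cw av' cv oa'.symm xa'.symm
    · exact key w2 w3 b c w2v w3v n23 ow2 xw2 ow3 xw3 bw cw bv cv ob.symm xb.symm
    · exact key w2 w3 b' c w2v w3v n23 ow2 xw2 ow3 xw3 bw' cw bv' cv ob'.symm xb'.symm

/-- labelling of the neighbours of `v` -/
theorem S77.exists_phi (h : S77 N) (v : V) : ∃ φ : Fin 16 → V, Function.Injective φ ∧
    (∀ i, φ i ∈ N v) ∧
    ∀ l ∈ mLines, Ln N v (φ 0) (φ l.1.succ) (φ l.2.1.succ) (φ l.2.2.succ) := by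
  obtain ⟨o, ho⟩ : (N v).Nonempty := by
    rw [← card_pos, h.deg]; norm_num
  obtain ⟨p, hp⟩ : ∃ p, p ∈ N v ∧ p ≠ o := by
    have : ((N v).erase o).Nonempty := by
      rw [← card_pos, card_erase_of_mem ho, h.deg]; norm_num
    obtain ⟨p, hp⟩ := this
    exact ⟨p, (mem_erase.1 hp).2, (mem_erase.1 hp).1⟩
  obtain ⟨f, hf, hl⟩ := frame (S77.gq h ho) ⟨p, hp⟩
  refine ⟨Fin.cons o (fun i => (f i).1), ?_, ?_, ?_⟩
  · rw [Fin.cons_injective_iff]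
    refine ⟨?_, fun i j hij => hf (Subtype.ext hij)⟩
    rintro ⟨i, hi⟩
    exact (f i).2.2 hi
  · intro i
    refine Fin.cases ?_ (fun j => ?_) i
    · exact ho
    · exact (f j).2.1
  · intro l hl'
    exact hl l hl'

end Cfsg.Agent.SporadicA.Srg77Label
end

-- part: SporadicA/Srg77Model
section
/-!
# srg(77,16,0,4): the 60 blocks, and the isomorphism with the explicit model
-/

set_option autoImplicit false

namespace Cfsg.Agent.SporadicA.Srg77Model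

open Finset Cfsg.Agent.SporadicA.Srg77 Cfsg.Agent.SporadicA.GQ22 Cfsg.Agent.SporadicA.Srg77Label

variable {V : Type*} [Fintype V] [DecidableEq V] {N : V → Finset V}

/-- the set of points with mask `m` is a block -/
def IsBlk (N : V → Finset V) (v : V) (φ : Fin 16 → V) (m : ℕ) : Prop :=
  ∃ w, w ≠ v ∧ ∀ i : Fin 16, φ i ∈ N w ↔ m.testBit i = true

/-- masks of the 60 blocks, ordered by parallel classes -/
def mskL : List ℕ := [15, 240, 13056, 52224, 51, 204, 21760, 43520, 60, 195, 26112, 39168, 773,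
  3216, 12298, 49248, 778, 3168, 12293, 49296, 1297, 2692, 20514, 41032, 1314, 2632, 20497, 41092,
  1556, 2433, 24616, 36930, 1576, 2370, 24596, 36993, 4688, 8608, 18441, 33798, 4768, 8528, 18438,
  33801, 5188, 10273, 16776, 33298, 5256, 10258, 16708, 33313, 6168, 9346, 16961, 33060, 6180,
  9281, 17026, 33048]

/-- the mask of a block -/
def msk (b : Fin 60) : ℕ := mskL.getD b.val 0

/-- `m` is the mask of `{a, b, c, d}` -/
def isM (m : ℕ) (a b c d : Fin 16) : Bool :=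
  decide (∀ i : Fin 16, m.testBit i = (i == a || i == b || i == c || i == d))

theorem isM_iff {m : ℕ} {a b c d : Fin 16} (h : isM m a b c d = true) (i : Fin 16) :
    m.testBit i = true ↔ i = a ∨ i = b ∨ i = c ∨ i = d := by
  have := of_decide_eq_true h i
  rw [this]
  simp [or_assoc]

/-- mask of four points -/
def q4 (a b c d : Fin 16) : ℕ := (1 <<< a.val) + (1 <<< b.val) + (1 <<< c.val) + (1 <<< d.val)

theorem isM_lines : ∀ l ∈ mLines,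
    isM (q4 0 l.1.succ l.2.1.succ l.2.2.succ) 0 l.1.succ l.2.1.succ l.2.2.succ = true := by
  decide +kernel

/-- each block not containing `0` as the sum of two blocks containing `0` -/
def xTab : List (Fin 16 × Fin 16 × Fin 16 × Fin 16 × Fin 16 × Fin 16) :=
  [(0, 1, 4, 5, 6, 7), (0, 2, 8, 9, 12, 13), (0, 3, 11, 14, 10, 15), (0, 1, 2, 3, 6, 7),
   (0, 4, 8, 10, 12, 14), (0, 5, 11, 13, 9, 15), (0, 1, 2, 3, 4, 5), (0, 6, 10, 13, 9, 14),
   (0, 7, 8, 11, 12, 15), (0, 8, 4, 10, 7, 11), (0, 2, 1, 3, 12, 13), (0, 9, 6, 14, 5, 15),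
   (0, 2, 1, 3, 8, 9), (0, 13, 6, 10, 5, 11), (0, 12, 4, 14, 7, 15), (0, 8, 2, 9, 7, 11),
   (0, 4, 1, 5, 12, 14), (0, 10, 6, 13, 3, 15), (0, 4, 1, 5, 8, 10), (0, 14, 6, 9, 3, 11),
   (0, 12, 2, 13, 7, 15), (0, 8, 2, 9, 4, 10), (0, 11, 5, 13, 3, 14), (0, 7, 1, 6, 12, 15),
   (0, 15, 5, 9, 3, 10), (0, 7, 1, 6, 8, 11), (0, 12, 2, 13, 4, 14), (0, 14, 6, 9, 4, 12),
   (0, 11, 7, 8, 5, 13), (0, 3, 1, 2, 10, 15), (0, 15, 5, 9, 7, 12), (0, 10, 4, 8, 6, 13),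
   (0, 3, 1, 2, 11, 14), (0, 13, 6, 10, 2, 12), (0, 11, 7, 8, 3, 14), (0, 5, 1, 4, 9, 15),
   (0, 15, 3, 10, 7, 12), (0, 5, 1, 4, 11, 13), (0, 9, 2, 8, 6, 14), (0, 14, 3, 11, 4, 12),
   (0, 6, 1, 7, 10, 13), (0, 9, 2, 8, 5, 15), (0, 13, 5, 11, 2, 12), (0, 6, 1, 7, 9, 14),
   (0, 10, 4, 8, 3, 15)]

/-- masks of the lines through `0` -/
def lineMasks : List ℕ := mLines.map fun l => q4 0 l.1.succ l.2.1.succ l.2.2.succ

theorem xTab_ok : ∀ t ∈ xTab,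
    q4 t.1 t.2.1 t.2.2.1 t.2.2.2.1 ∈ lineMasks ∧
    q4 t.1 t.2.1 t.2.2.2.2.1 t.2.2.2.2.2 ∈ lineMasks ∧
    isM (q4 t.1 t.2.1 t.2.2.1 t.2.2.2.1) t.1 t.2.1 t.2.2.1 t.2.2.2.1 = true ∧
    isM (q4 t.1 t.2.1 t.2.2.2.2.1 t.2.2.2.2.2) t.1 t.2.1 t.2.2.2.2.1 t.2.2.2.2.2 = true ∧
    isM (q4 t.2.2.1 t.2.2.2.1 t.2.2.2.2.1 t.2.2.2.2.2)
      t.2.2.1 t.2.2.2.1 t.2.2.2.2.1 t.2.2.2.2.2 = true ∧
    [t.1, t.2.1, t.2.2.1, t.2.2.2.1, t.2.2.2.2.1, t.2.2.2.2.2].Nodup := by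
  decide +kernel

theorem msk_cases : ∀ b : Fin 60, msk b ∈ lineMasks ∨
    ∃ t ∈ xTab, msk b = q4 t.2.2.1 t.2.2.2.1 t.2.2.2.2.1 t.2.2.2.2.2 := by
  decide +kernel

omit [Fintype V] in
theorem isBlk_of_set {v : V} {φ : Fin 16 → V} (hφ : Function.Injective φ)
    (hv : ∀ i, φ i ∈ N v) {w : V} (hw : w ≠ v) {a b c d : Fin 16}
    (hs : N v ∩ N w = {φ a, φ b, φ c, φ d}) {m : ℕ} (hm : isM m a b c d = true) :
    IsBlk N v φ m := by
  refine ⟨w, hw, fun i => ?_⟩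
  rw [isM_iff hm i]
  have : φ i ∈ N w ↔ φ i ∈ N v ∩ N w := by simp [hv i]
  rw [this, hs]
  simp [hφ.eq_iff]

theorem set_of_isBlk (h : S77 N) {v : V} {φ : Fin 16 → V} (hφ : Function.Injective φ)
    (hv : ∀ i, φ i ∈ N v) {a b c d : Fin 16} {m : ℕ} (hm : isM m a b c d = true)
    (hB : IsBlk N v φ m) : ∃ w, w ≠ v ∧ N v ∩ N w = {φ a, φ b, φ c, φ d} := by
  obtain ⟨w, wv, hw⟩ := hB
  refine ⟨w, wv, ?_⟩
  have hsurj : ∀ x ∈ N v, ∃ i, φ i = x := by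
    have h1 : univ.image φ = N v := by
      apply Finset.eq_of_subset_of_card_le
      · intro t ht
        obtain ⟨i, -, rfl⟩ := mem_image.1 ht
        exact hv i
      · rw [card_image_of_injective _ hφ, h.deg]; simp
    intro x hx
    rw [← h1] at hx
    obtain ⟨i, -, rfl⟩ := mem_image.1 hx
    exact ⟨i, rfl⟩
  ext t
  simp only [mem_inter, mem_insert, mem_singleton]
  constructor
  · rintro ⟨h1, h2⟩
    obtain ⟨i, rfl⟩ := hsurj t h1
    have := (isM_iff hm i).1 ((hw i).1 h2)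
    rcases this with rfl | rfl | rfl | rfl <;> simp
  · have key : ∀ i, i = a ∨ i = b ∨ i = c ∨ i = d → φ i ∈ N v ∧ φ i ∈ N w := fun i hi =>
      ⟨hv i, (hw i).2 ((isM_iff hm i).2 hi)⟩
    rintro (rfl | rfl | rfl | rfl)
    · exact key a (by simp)
    · exact key b (by simp)
    · exact key c (by simp)
    · exact key d (by simp)

theorem isBlk_msk (h : S77 N) {v : V} {φ : Fin 16 → V} (hφ : Function.Injective φ)
    (hv : ∀ i, φ i ∈ N v)
    (hl : ∀ l ∈ mLines, Ln N v (φ 0) (φ l.1.succ) (φ l.2.1.succ) (φ l.2.2.succ)) (b : Fin 60) :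
    IsBlk N v φ (msk b) := by
  have base : ∀ m ∈ lineMasks, IsBlk N v φ m := by
    intro m hm
    obtain ⟨l, hlm, rfl⟩ := List.mem_map.1 hm
    obtain ⟨-, -, -, -, -, -, w, wv, hw⟩ := hl l hlm
    exact isBlk_of_set hφ hv wv hw (isM_lines l hlm)
  rcases msk_cases b with hb | ⟨⟨a, b', c, d, e, f⟩, ht, hb⟩
  · exact base _ hb
  · obtain ⟨t1, t2, t3, t4, t5, t6⟩ := xTab_ok _ ht
    simp only at t1 t2 t3 t4 t5 t6 hb
    obtain ⟨y, yv, hy⟩ := set_of_isBlk h hφ hv t3 (base _ t1)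
    obtain ⟨u, uv, hu⟩ := set_of_isBlk h hφ hv t4 (base _ t2)
    simp only [List.nodup_cons, List.mem_cons, List.not_mem_nil, or_false, not_or,
      List.nodup_nil, not_false_eq_true, and_true] at t6
    obtain ⟨⟨ab, ac, ad, ae, af⟩, ⟨bc, bd, be, bf⟩, ⟨cd, ce, cf⟩, ⟨de, df⟩, ef⟩ := t6
    have ne : ∀ {i j : Fin 16}, ¬ i = j → φ i ≠ φ j := fun hij e => hij (hφ e)
    have nm : ∀ t : Fin 16, t ≠ a → t ≠ b' → t ≠ c → t ≠ d → φ t ∉ N y := by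
      intro t ta tb tc td hty
      have : φ t ∈ N v ∩ N y := mem_inter.2 ⟨hv t, hty⟩
      rw [hy] at this
      simp [hφ.eq_iff, ta, tb, tc, td] at this
    obtain ⟨w, wv, hw⟩ := h.symmDiff yv uv (ne ab) (ne ac) (ne ad) (ne bc) (ne bd) (ne cd)
      (ne ae) (ne af) (ne be) (ne bf) (ne ef) hy hu
      (nm e (Ne.symm ae) (Ne.symm be) (Ne.symm ce) (Ne.symm de))
      (nm f (Ne.symm af) (Ne.symm bf) (Ne.symm cf) (Ne.symm df))
    rw [hb]
    exact isBlk_of_set hφ hv wv hw t5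

/-! ### The model graph -/

/-- vertices of the model -/
abbrev T : Type := Option (Fin 16 ⊕ Fin 60)

/-- adjacency in the model -/
def mAdj : T → T → Bool
  | none, none => false
  | none, some (Sum.inl _) => true
  | none, some (Sum.inr _) => false
  | some (Sum.inl _), none => true
  | some (Sum.inl _), some (Sum.inl _) => false
  | some (Sum.inl i), some (Sum.inr b) => (msk b).testBit i.val
  | some (Sum.inr _), none => false
  | some (Sum.inr b), some (Sum.inl i) => (msk b).testBit i.val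
  | some (Sum.inr b), some (Sum.inr c) =>
      Nat.beq (Nat.land (msk b) (msk c)) 0 && !(Nat.beq (b.val / 4) (c.val / 4))

theorem mAdj_card (s : T) : (univ.filter (fun t => mAdj s t = true)).card = 16 := by
  revert s
  decide +kernel

theorem msk_inj : ∀ b c : Fin 60, b ≠ c → ∃ i : Fin 16, (msk b).testBit i ≠ (msk c).testBit i := by
  decide +kernel

theorem msk_not_empty : ∀ b : Fin 60, ∃ i : Fin 16, (msk b).testBit i = true := by
  decide +kernel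

/-- number of blocks on a point `i` disjoint from a block `b` not on `i` -/
theorem five : ∀ (b : Fin 60) (i : Fin 16), (msk b).testBit i = false →
    (univ.filter (fun c : Fin 60 => (msk c).testBit i = true ∧
      Nat.beq (Nat.land (msk b) (msk c)) 0 = true)).card = 5 := by
  decide +kernel

/-- check for `three_blocks` -/
def chk3 (b c : Fin 60) : Bool :=
  (List.finRange 16).any fun i => !(msk b).testBit i && !(msk c).testBit i &&
    Nat.ble 3 ((List.finRange 60).countP fun k => (msk k).testBit i &&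
      Nat.beq (Nat.land (msk b) (msk k)) 0 && Nat.beq (Nat.land (msk c) (msk k)) 0)

theorem chk3_ok : ∀ b c : Fin 60, b ≠ c → b.val / 4 = c.val / 4 → chk3 b c = true := by
  decide +kernel

theorem three_blocks (b c : Fin 60) (hne : b ≠ c) (h4 : b.val / 4 = c.val / 4) :
    ∃ i : Fin 16, (msk b).testBit i = false ∧ (msk c).testBit i = false ∧
      3 ≤ (univ.filter (fun k : Fin 60 => (msk k).testBit i = true ∧
        Nat.beq (Nat.land (msk b) (msk k)) 0 = true ∧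
        Nat.beq (Nat.land (msk c) (msk k)) 0 = true)).card := by
  have := chk3_ok b c hne h4
  unfold chk3 at this
  rw [List.any_eq_true] at this
  obtain ⟨i, -, hi⟩ := this
  simp only [Bool.and_eq_true, Bool.not_eq_true', Nat.ble_eq] at hi
  refine ⟨i, hi.1.1, hi.1.2, ?_⟩
  refine hi.2.trans (le_of_eq ?_)
  rw [List.countP_eq_length_filter]
  rw [← List.toFinset_card_of_nodup ((List.nodup_finRange 60).filter _)]
  congr 1
  ext k
  simp [and_assoc]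

/-- the main labelling theorem -/
theorem exists_labelling (h : S77 N) : ∃ e : T ≃ V, ∀ s t, e t ∈ N (e s) ↔ mAdj s t = true := by
  have s := h.symm
  obtain ⟨v⟩ : Nonempty V := by
    rw [← Fintype.card_pos_iff, h.card]; norm_num
  obtain ⟨φ, hφ, hv, hl⟩ := S77.exists_phi h v
  choose W hWv hW using isBlk_msk h hφ hv hl
  have hWn : ∀ b, W b ∉ N v := by
    intro b hb
    obtain ⟨i, hi⟩ := msk_not_empty b
    exact h.tri _ _ _ hb ((hW b i).2 hi) (hv i)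
  have hWinj : Function.Injective W := by
    intro b c hbc
    by_contra hne
    obtain ⟨i, hi⟩ := msk_inj b c hne
    apply hi
    have h1 := hW b i
    have h2 := hW c i
    rw [hbc] at h1
    rw [Bool.eq_iff_iff, ← h1, ← h2]
  -- the map
  let e : T → V := fun t => match t with
    | none => v
    | some (Sum.inl i) => φ i
    | some (Sum.inr b) => W b
  have hvφ : ∀ i, φ i ≠ v := fun i hi => h.irr v (by have := hv i; rwa [hi] at this)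
  have einj : Function.Injective e := by
    rintro (_ | i | b) (_ | j | c) hst
    · rfl
    · exact (hvφ j hst.symm).elim
    · exact (hWv c hst.symm).elim
    · exact (hvφ i hst).elim
    · exact congrArg some (congrArg Sum.inl (hφ hst))
    · exact (hWn c (by have := hv i; rw [show φ i = W c from hst] at this; exact this)).elim
    · exact (hWv b hst).elim
    · exact (hWn b (by have := hv j; rw [← show W b = φ j from hst] at this; exact this)).elim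
    · exact congrArg some (congrArg Sum.inr (hWinj hst))
  have ebij : Function.Bijective e := by
    rw [Fintype.bijective_iff_injective_and_card]
    exact ⟨einj, by rw [h.card]; rfl⟩
  -- vertices other than `v` and its neighbours are blocks
  have hblk : ∀ x, x ≠ v → x ∉ N v → ∃ b, W b = x := by
    intro x h1 h2
    obtain ⟨t, rfl⟩ := ebij.2 x
    rcases t with _ | i | b
    · exact (h1 rfl).elim
    · exact (h2 (hv i)).elim
    · exact ⟨b, rfl⟩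
  -- adjacent blocks are disjoint
  have hdisj : ∀ b c, W c ∈ N (W b) → Nat.beq (Nat.land (msk b) (msk c)) 0 = true := by
    intro b c hbc
    rw [Nat.beq_eq]
    apply Nat.eq_of_testBit_eq
    intro i
    rw [Nat.zero_testBit]
    by_contra hne
    have hne : (Nat.land (msk b) (msk c)).testBit i = true := by simpa using hne
    have h2 : ((msk b) &&& (msk c)).testBit i = true := hne
    rw [Nat.testBit_and, Bool.and_eq_true] at h2
    have hi16 : i < 16 := by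
      by_contra hi
      have hlt : ∀ b : Fin 60, msk b < 2 ^ 16 := by decide +kernel
      have := Nat.testBit_lt_two_pow (lt_of_lt_of_le (hlt b) (Nat.pow_le_pow_right (by norm_num)
        (not_lt.1 hi)))
      rw [this] at h2
      simp at h2
    exact h.tri _ _ _ hbc ((hW c ⟨i, hi16⟩).2 h2.2) ((hW b ⟨i, hi16⟩).2 h2.1)
  -- for a point `i` off `b`: exactly 4 of the 5 blocks on `i` disjoint from `b` are adjacent to `b`
  have hone : ∀ (b : Fin 60) (i : Fin 16), (msk b).testBit i = false →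
      ((univ.filter (fun c : Fin 60 => (msk c).testBit i = true ∧
        Nat.beq (Nat.land (msk b) (msk c)) 0 = true)).filter (fun c => W c ∉ N (W b))).card ≤ 1 := by
    intro b i hi
    have h5 := five b i hi
    set D := univ.filter (fun c : Fin 60 => (msk c).testBit i = true ∧
        Nat.beq (Nat.land (msk b) (msk c)) 0 = true) with hD
    have hsum := Finset.card_filter_add_card_filter_not (s := D) (fun c => W c ∈ N (W b))
    have hi' : φ i ∉ N (W b) := by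
      rw [hW b i, hi]; simp
    have hne : φ i ≠ W b := by
      intro e
      exact hWn b (e ▸ hv i)
    have h4 : (N (φ i) ∩ N (W b)).card = 4 := h.mu _ _ hne hi'
    have hsub : N (φ i) ∩ N (W b) ⊆ (D.filter (fun c => W c ∈ N (W b))).image W := by
      intro x hx
      rw [mem_inter] at hx
      have xv : x ≠ v := by
        rintro rfl
        exact hWn b (s _ _ hx.2)
      have xv' : x ∉ N v := h.nadj (s _ _ hx.1) (hv i)
      obtain ⟨c, rfl⟩ := hblk x xv xv'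
      refine mem_image.2 ⟨c, ?_, rfl⟩
      simp only [hD, mem_filter, mem_univ, true_and]
      exact ⟨⟨(hW c i).1 (s _ _ hx.1), hdisj b c hx.2⟩, hx.2⟩
    have h6 := (card_le_card hsub).trans card_image_le
    omega
  -- parallel blocks are not adjacent
  have hpar : ∀ b c : Fin 60, W c ∈ N (W b) → ¬ b.val / 4 = c.val / 4 := by
    intro b c hbc h4
    have hne : b ≠ c := by
      rintro rfl; exact h.irr _ hbc
    obtain ⟨i, hib, hic, h3⟩ := three_blocks b c hne h4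
    have h1 := hone b i hib
    have h2 := hone c i hic
    set A := ((univ.filter (fun k : Fin 60 => (msk k).testBit i = true ∧
        Nat.beq (Nat.land (msk b) (msk k)) 0 = true)).filter (fun k => W k ∉ N (W b))) with hA
    set B := ((univ.filter (fun k : Fin 60 => (msk k).testBit i = true ∧
        Nat.beq (Nat.land (msk c) (msk k)) 0 = true)).filter (fun k => W k ∉ N (W c))) with hB
    have hsub : (univ.filter (fun k : Fin 60 => (msk k).testBit i = true ∧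
        Nat.beq (Nat.land (msk b) (msk k)) 0 = true ∧
        Nat.beq (Nat.land (msk c) (msk k)) 0 = true)) ⊆ A ∪ B := by
      intro k hk
      simp only [mem_filter, mem_univ, true_and] at hk
      rw [mem_union]
      by_cases hkb : W k ∈ N (W b)
      · right
        simp only [hB, mem_filter, mem_univ, true_and]
        exact ⟨⟨hk.1, hk.2.2⟩, fun hkc => h.tri _ _ _ hbc hkc hkb⟩
      · left
        simp only [hA, mem_filter, mem_univ, true_and]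
        exact ⟨⟨hk.1, hk.2.1⟩, hkb⟩
    have h5 := card_le_card hsub
    have h6 := card_union_le A B
    omega
  -- one inclusion
  have hadj : ∀ s t, e t ∈ N (e s) → mAdj s t = true := by
    rintro (_ | i | b) (_ | j | c) hst
    · exact (h.irr _ hst).elim
    · rfl
    · exact (hWn c hst).elim
    · rfl
    · exact (h.nadj (s _ _ (hv j)) (s _ _ (hv i)) hst).elim
    · exact (hW c i).1 (s _ _ hst)
    · exact (hWn b (s _ _ hst)).elim
    · exact (hW b j).1 hst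
    · show (Nat.beq (Nat.land (msk b) (msk c)) 0 && !(Nat.beq (b.val / 4) (c.val / 4))) = true
      rw [Bool.and_eq_true]
      refine ⟨hdisj b c hst, ?_⟩
      rw [Bool.not_eq_true', ← Bool.not_eq_true, Nat.beq_eq]
      exact hpar b c hst
  refine ⟨Equiv.ofBijective e ebij, fun a t => ⟨hadj a t, fun ht => ?_⟩⟩
  have h1 : N (e a) ⊆ (univ.filter (fun t => mAdj a t = true)).image e := by
    intro x hx
    obtain ⟨t, rfl⟩ := ebij.2 x
    exact mem_image.2 ⟨t, by simpa using hadj a t hx, rfl⟩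
  have h2 : N (e a) = (univ.filter (fun t => mAdj a t = true)).image e := by
    apply Finset.eq_of_subset_of_card_le h1
    rw [h.deg]
    exact card_image_le.trans (mAdj_card a).le
  show e t ∈ N (e a)
  rw [h2]
  exact mem_image.2 ⟨t, by simpa using ht, rfl⟩

end Cfsg.Agent.SporadicA.Srg77Model
end

-- part: S0429
section
set_option autoImplicit false
open Cfsg

namespace Cfsg.Agent.S0429

open Cfsg.Agent.SporadicA.Srg77 in
theorem toS77 {V : Type*} [Fintype V] [DecidableEq V] {G : SimpleGraph V} [DecidableRel G.Adj]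
    (hG : G.IsSRGWith 77 16 0 4) : S77 (fun v => G.neighborFinset v) where
  card := hG.card
  symm := by
    intro x y h
    simp only [SimpleGraph.mem_neighborFinset] at h ⊢
    exact h.symm
  irr := by
    intro x
    simp
  deg := by
    intro x
    exact hG.regular.degree_eq x
  tri := by
    intro x y w h1 h2 h3
    simp only [SimpleGraph.mem_neighborFinset] at h1 h2 h3
    have h := hG.of_adj y x h1
    rw [Fintype.card_eq_zero_iff] at h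
    exact h.elim ⟨w, by
      rw [SimpleGraph.mem_commonNeighbors]
      exact ⟨h3, h2⟩⟩
  mu := by
    intro x y hne h1
    simp only [SimpleGraph.mem_neighborFinset] at h1
    have h := hG.of_not_adj hne (fun h => h1 h.symm)
    rw [← h, ← Set.toFinset_card]
    congr 1
    ext w
    simp [SimpleGraph.mem_commonNeighbors]

/-- Uniqueness of the strongly regular graph with parameters (77, 16, 0, 4). -/
theorem result {V W : Type*} [Fintype V] [Fintype W] {G : SimpleGraph V} {H : SimpleGraph W} [DecidableRel G.Adj] [DecidableRel H.Adj] (hG : G.IsSRGWith 77 16 0 4) (hH : H.IsSRGWith 77 16 0 4) : Nonempty (G ≃g H) := by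
  classical
  obtain ⟨e, he⟩ := Cfsg.Agent.SporadicA.Srg77Model.exists_labelling (toS77 hG)
  obtain ⟨f, hf⟩ := Cfsg.Agent.SporadicA.Srg77Model.exists_labelling (toS77 hH)
  simp only [SimpleGraph.mem_neighborFinset] at he hf
  refine ⟨⟨e.symm.trans f, ?_⟩⟩
  intro a b
  have h1 := he (e.symm a) (e.symm b)
  have h2 := hf (e.symm a) (e.symm b)
  rw [Equiv.apply_symm_apply, Equiv.apply_symm_apply] at h1
  exact h2.trans h1.symm

end Cfsg.Agent.S0429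
end
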