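import Cfsg.Agent.S1586
import Mathlib
import Cfsg.Statements.S0431
import Cfsg.Agent.S0414
import Cfsg.Agent.S0428
import Cfsg.Agent.S0430
import Cfsg.Agent.SporadicA.SteinerThreeSix
set_option linter.all false

-- part: SporadicStructure/PBGAutEquiv
section
/-!
The isomorphism between the automorphism group of a family `B` of subsets and the stabiliser of the
extra vertex in the automorphism group of the point-block graph of `B`.
-/

set_option autoImplicit false

namespace Cfsg.Agent.SporadicStructure.PBGAutEquiv

open Cfsg Finset
open Cfsg.Agent.SporadicStructure.SRGSteiner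
open Cfsg.Agent.SporadicStructure.PBGAut
open scoped Pointwise

variable {α : Type*} [DecidableEq α] {B : Set (Finset α)}

/-- The permutation of the blocks induced by an automorphism of the set system. -/
noncomputable def blockEquiv (σ : Cfsg.setSystemAut B) : B ≃ B :=
  (exists_blockEquiv (σ : Equiv.Perm α) (image_eq_of_mem_setSystemAut σ.2)).choose

theorem blockEquiv_coe (σ : Cfsg.setSystemAut B) (b : B) :
    ((blockEquiv σ b : B) : Finset α) = (b : Finset α).image (σ : Equiv.Perm α) :=
  (exists_blockEquiv (σ : Equiv.Perm α) (image_eq_of_mem_setSystemAut σ.2)).choose_spec b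

/-- The graph automorphism induced by an automorphism of the set system. -/
noncomputable def graphIso (σ : Cfsg.setSystemAut B) :
    pointBlockGraph B ≃g pointBlockGraph B :=
  isoOfEquiv (σ : Equiv.Perm α) (blockEquiv σ) (blockEquiv_coe σ)

theorem graphIso_none (σ : Cfsg.setSystemAut B) : graphIso σ none = none := rfl

theorem graphIso_inl (σ : Cfsg.setSystemAut B) (a : α) :
    graphIso σ (some (Sum.inl a)) = some (Sum.inl ((σ : Equiv.Perm α) a)) := rfl

theorem graphIso_inr (σ : Cfsg.setSystemAut B) (b : B) :
    graphIso σ (some (Sum.inr b)) = some (Sum.inr (blockEquiv σ b)) := rfl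

/-- The isomorphism from the automorphism group of the set system onto the stabiliser of the
extra vertex. -/
noncomputable def stabilizerNoneEquiv [Finite α] :
    Cfsg.setSystemAut B ≃* MulAction.stabilizer (pointBlockGraph B ≃g pointBlockGraph B)
      (none : Option (α ⊕ B)) :=
  MulEquiv.ofBijective
    ({ toFun := fun σ => ⟨graphIso σ, graphIso_none σ⟩
       map_one' := by
        apply Subtype.ext
        apply RelIso.ext
        rintro (_ | a | b)
        · rfl
        · rfl
        · show some (Sum.inr (blockEquiv 1 b)) = some (Sum.inr b)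
          congr 2
          apply Subtype.ext
          rw [blockEquiv_coe]
          exact Finset.image_id
       map_mul' := by
        intro σ τ
        apply Subtype.ext
        apply RelIso.ext
        rintro (_ | a | b)
        · rfl
        · rfl
        · show some (Sum.inr (blockEquiv (σ * τ) b)) =
            some (Sum.inr (blockEquiv σ (blockEquiv τ b)))
          congr 2
          apply Subtype.ext
          rw [blockEquiv_coe, blockEquiv_coe, blockEquiv_coe, Finset.image_image]
          rfl } : Cfsg.setSystemAut B →* MulAction.stabilizer (pointBlockGraph B ≃g pointBlockGraph B)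
      (none : Option (α ⊕ B)))
    (by
      constructor
      · intro σ τ h
        have h1 : graphIso σ = graphIso τ := congrArg Subtype.val h
        apply Subtype.ext
        apply Equiv.ext
        intro a
        have h2 := DFunLike.congr_fun h1 (some (Sum.inl a))
        rw [graphIso_inl, graphIso_inl] at h2
        exact Sum.inl_injective (Option.some_injective _ h2)
      · rintro ⟨φ, hφ⟩
        have hφ' : φ none = none := MulAction.mem_stabilizer_iff.1 hφ
        obtain ⟨σ, h1, h2⟩ := exists_perm_of_fix_none φ hφ'
        refine ⟨σ, Subtype.ext ?_⟩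
        apply RelIso.ext
        rintro (_ | a | b)
        · show none = φ none
          rw [hφ']
        · show some (Sum.inl ((σ : Equiv.Perm α) a)) = φ (some (Sum.inl a))
          rw [h1]
        · show some (Sum.inr (blockEquiv σ b)) = φ (some (Sum.inr b))
          obtain ⟨c, hc, hc'⟩ := h2 b
          rw [hc]
          congr 2
          apply Subtype.ext
          rw [blockEquiv_coe, hc'])

theorem stabilizerNoneEquiv_none [Finite α] (σ : Cfsg.setSystemAut B) :
    ((stabilizerNoneEquiv σ : MulAction.stabilizer (pointBlockGraph B ≃g pointBlockGraph B)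
      (none : Option (α ⊕ B))) : pointBlockGraph B ≃g pointBlockGraph B) none = none := rfl

theorem stabilizerNoneEquiv_inl [Finite α] (σ : Cfsg.setSystemAut B) (a : α) :
    ((stabilizerNoneEquiv σ : MulAction.stabilizer (pointBlockGraph B ≃g pointBlockGraph B)
      (none : Option (α ⊕ B))) : pointBlockGraph B ≃g pointBlockGraph B) (some (Sum.inl a)) =
      some (Sum.inl ((σ : Equiv.Perm α) a)) := rfl

theorem stabilizerNoneEquiv_inr [Finite α] (σ : Cfsg.setSystemAut B) (b : B) :
    ((stabilizerNoneEquiv σ : MulAction.stabilizer (pointBlockGraph B ≃g pointBlockGraph B)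
      (none : Option (α ⊕ B))) : pointBlockGraph B ≃g pointBlockGraph B) (some (Sum.inr b)) =
      some (Sum.inr (blockEquiv σ b)) := rfl

end Cfsg.Agent.SporadicStructure.PBGAutEquiv
end

-- part: SporadicA/HSGraphModel
section
/-!
An explicit strongly regular graph `G0` with parameters (100, 22, 0, 6) on `Fin 100`, and an
automorphism of it which is an odd permutation of the 100 vertices (a product of 47 disjoint
transpositions).  All checks are kernel computations on packed natural numbers.

* `isSRG : G0.IsSRGWith 100 22 0 6`
* `exists_odd_aut : ∃ f : G0 ≃g G0, f 0 = 0 ∧ Equiv.Perm.sign f.toEquiv = -1`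
-/

set_option autoImplicit false

namespace Cfsg.Agent.SporadicA.HSGraphModel

/-- `P` holds for all numbers below `n`. -/
def allB (n : ℕ) (P : ℕ → Bool) : Bool := Nat.rec true (fun k ih => P k && ih) n

theorem allB_spec (P : ℕ → Bool) (n : ℕ) (h : allB n P = true) : ∀ i < n, P i = true := by
  induction n with
  | zero => intro i hi; omega
  | succ n ih =>
    intro i hi
    have h' : (P n && allB n P) = true := h
    rw [Bool.and_eq_true] at h'
    rcases Nat.lt_succ_iff_lt_or_eq.1 hi with h1 | h1
    · exact ih h'.2 i h1
    · rw [h1]; exact h'.1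

/-- Packed adjacency matrix: the adjacency of `i` and `j` is the binary digit `128 * i + j`. -/
def M : ℕ := 8131605004385696017129010789626928812648135884489571204369734834262311280478347944000005190151847943904778254841813179719287403782909024504327752421107545321820916978559024333933575712120892690257241022760802693147212565581215526828100189595954292441597585957160848363823693160839160124791534297223513945662689673620663290403803075539074715046692277657006643283215770815136010088986838268046453714306076872125211950655462901501681098223340674926604622879325400507421243623781818442053116109001357168334460124169413388785347723156712339063450420795115093812450049428219279256541114351693054819778118288247892872079823189756463926253561362310257398796469817729404205550240040881473671822594392429844099628881423258884212524018821372021027676057447962070915181682318416030398831630402588651132832546337419961059075213077201107971594767740572452107461700573465385395690558624430440541089983430118516867306528248136738834219197071602260723535510171897446109549028642363409252987953212545579642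3428453908399188851063404749851080419789067286903654555820401993665325862730238150353141687825938381092070703920856868938675867509274753303611386683407010745951214614342582502213067469094449637712317799666922230028394302705848455086185618936496994200858816657490410922404690654356050575022695291505222150256322093983883942444373140794405053555642255326931828992845868325364097715728343121478760692330051398236202285607188474037124402754359478453552685693039403528804242466574343399970571369115668701742553979356835050954533369095359793297643521564760933872706122692865913805536233697737674629655576472617460177743581910221209538858564882213009045054296623641360576512996007822544884334212076744231538473046506376702744961671340570019309353967852153684500958959038736328605866492721100816666125725621316203522198953482754142758071389954002625071192297393644755331468912953133080731417282581538817889792746058802212311607418991348625028603052789444369817998279822955292317902311168973437629625249969445848542942415036742043394538174647801551325112885986491724286249629439031510929395260455700714943067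1098426944060092645430945497997313233169737279887299851716203441853388172865278698388965224380532719574631851949715785358095837678254349290476956551007136779379041489186531527077498293604770860801377738452054648490469525451722038883979259826455633407196151090009560968781460964492277671525763246720271163714724780374124222449982714147045912680609799558450406814288662995309315337891208708995486999632693153913705519684074581407090433368497888164302004632381641671189573732378947183993907603152413260357919117746264925576045709405277333999818276524617276307157648715311826212113810970730329223728597442273119403378821366330899173071623265509493304169648187718814874333118969752131999213974402361968265718211392017411552413121467269434751929315759777059277911852597937164820215716542390338472938935903078926214481336427481735751721379442378941145872026590051866803833296707725057601920224790926516194504814871446709179671805464293418243790258658425205905796512150174872972581319525520602612803702175364355950171205731070418311394690940450240804515938518357189916384048112421920702501871099509417043830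10820901200531323140616392701464110575733264309198943964350945192832853825921232452174407504759204488201312380972486681820911998225093280576199413575988003317936230442713520972532525201271308641029934669887199527769383864341087937456561698269409318530871811580335436532304454638799237204012827727892011192765161941921187892670163525879802810479620959153317462413917902746525542545624599337147385267131306179153274142553905325129841600696724976214915149333083478481377352171179158646505059391514573517890037907306019606522782376526884186531124422924861463070625252240020813904962125094198307517320441702714085799753114884236819963684123419082750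

/-- Row `i` of the adjacency matrix. -/
def row (i : ℕ) : ℕ := (M >>> (128 * i)) % 2 ^ 100

/-- Adjacency. -/
def adjB (i j : ℕ) : Bool := (row i).testBit j

/-- The list of neighbours. -/
def nb (i : ℕ) : List ℕ := (List.range 100).filter fun k => (row i).testBit k

/-- The number of common neighbours. -/
def common (i j : ℕ) : ℕ := (nb i).countP fun k => (row j).testBit k

/-- The involutory automorphism, packed with 8 bits per entry. -/
def S : ℕ := 940864387781202520192467910657705571224263268925364958820833565166325527911061870837011871492329809012656804127902940165877089052512679347863605476757349437198256649913076687632003551000488674890643849304250918510668269345164459854363563520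

/-- The involutory automorphism. -/
def sg (i : ℕ) : ℕ := (S >>> (8 * i)) % 256

theorem adjB_symm_check : allB 100 (fun i => allB 100 fun j => adjB i j == adjB j i) = true := by
  decide +kernel

theorem adjB_irrefl_check : allB 100 (fun i => !(adjB i i)) = true := by
  decide +kernel

theorem adjB_sg_check :
    allB 100 (fun i => allB 100 fun j => adjB (sg i) (sg j) == adjB i j) = true := by
  decide +kernel

theorem sg_lt_check : allB 100 (fun i => decide (sg i < 100)) = true := by
  decide +kernel

theorem sg_sg_check : allB 100 (fun i => sg (sg i) == i) = true := by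
  decide +kernel

theorem srg_check :
    allB 100 (fun i => (fun l : List ℕ => allB (i + 1) fun j =>
      (l.countP fun k => (row j).testBit k) ==
        (if i == j then 22 else if adjB i j then 0 else 6)) (nb i)) = true := by
  decide +kernel

theorem adjB_symm {i j : ℕ} (hi : i < 100) (hj : j < 100) : adjB i j = adjB j i := by
  have h := allB_spec _ _ (allB_spec _ _ adjB_symm_check i hi) j hj
  simpa using h

theorem adjB_irrefl {i : ℕ} (hi : i < 100) : adjB i i = false := by
  have h := allB_spec _ _ adjB_irrefl_check i hi
  simpa using h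

theorem adjB_sg {i j : ℕ} (hi : i < 100) (hj : j < 100) : adjB (sg i) (sg j) = adjB i j := by
  have h := allB_spec _ _ (allB_spec _ _ adjB_sg_check i hi) j hj
  simpa using h

theorem sg_lt {i : ℕ} (hi : i < 100) : sg i < 100 := by
  have h := allB_spec _ _ sg_lt_check i hi
  simpa using h

theorem sg_sg {i : ℕ} (hi : i < 100) : sg (sg i) = i := by
  have h := allB_spec _ _ sg_sg_check i hi
  simpa using h

theorem card_filter_fin (P : ℕ → Bool) (n : ℕ) :
    (Finset.univ.filter fun k : Fin n => P k = true).card = (List.range n).countP P := by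
  have h2 : (Finset.univ.filter fun k : Fin n => P k = true).card =
      ∑ k ∈ Finset.range n, if P k = true then 1 else 0 := by
    rw [Finset.card_filter, Finset.sum_range]
  rw [h2, ← Finset.card_filter]
  clear h2
  induction n with
  | zero => rfl
  | succ n ih =>
    rw [Finset.range_add_one, Finset.filter_insert, List.range_succ, List.countP_append, ← ih]
    by_cases h : P n = true
    · rw [if_pos h, Finset.card_insert_of_notMem (by simp)]
      simp [h]
    · rw [if_neg h]
      simp [h]

/-- `common i j` counts the common neighbours. -/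
theorem card_common (i j : ℕ) :
    (Finset.univ.filter fun k : Fin 100 => adjB i k = true ∧ adjB j k = true).card =
      common i j := by
  have h1 : common i j = (List.range 100).countP fun k => adjB i k && adjB j k := by
    show ((List.range 100).filter fun k => adjB i k).countP (fun k => adjB j k) = _
    rw [List.countP_filter]
    refine List.countP_congr fun k _ => ?_
    rw [Bool.and_comm]
  rw [h1, ← card_filter_fin]
  congr 1
  ext k
  simp

theorem common_symm (i j : ℕ) : common i j = common j i := by
  rw [← card_common, ← card_common]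
  congr 1
  ext k
  simp only [Finset.mem_filter, Finset.mem_univ, true_and]
  tauto

theorem common_eq {i j : ℕ} (hi : i < 100) (hj : j < 100) :
    common i j = if i = j then 22 else if adjB i j = true then 0 else 6 := by
  have key : ∀ i j : ℕ, i < 100 → j ≤ i →
      common i j = if i = j then 22 else if adjB i j = true then 0 else 6 := by
    intro i j hi hji
    have h := allB_spec _ _ srg_check i hi
    have h2 := allB_spec _ _ h j (by omega)
    have h3 := beq_iff_eq.1 h2
    show ((nb i).countP fun k => (row j).testBit k) = _
    rw [h3]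
    by_cases hij : i = j
    · simp [hij]
    · simp [hij]
  rcases le_total j i with h | h
  · exact key i j hi h
  · rw [common_symm, key j i hj h, adjB_symm hj hi]
    by_cases hij : i = j
    · simp [hij]
    · rw [if_neg hij, if_neg (Ne.symm hij)]

/-- The explicit graph. -/
def G0 : SimpleGraph (Fin 100) where
  Adj i j := adjB i j = true
  symm := ⟨fun i j h => by rw [adjB_symm j.2 i.2]; exact h⟩
  loopless := ⟨fun i h => by rw [adjB_irrefl i.2] at h; exact absurd h (by decide)⟩

instance G0_decidableRel : DecidableRel G0.Adj :=
  fun i j => inferInstanceAs (Decidable (adjB i j = true))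

theorem G0_adj (i j : Fin 100) : G0.Adj i j ↔ adjB i j = true := Iff.rfl

theorem card_commonNeighbors (i j : Fin 100) :
    Fintype.card (G0.commonNeighbors i j) = common i j := by
  rw [← card_common, Fintype.card_subtype]
  congr 1

theorem isSRG : G0.IsSRGWith 100 22 0 6 where
  card := by simp
  regular := by
    intro v
    have h : G0.degree v = Fintype.card (G0.commonNeighbors v v) := by
      rw [← SimpleGraph.card_neighborSet_eq_degree]
      apply Fintype.card_congr
      refine Equiv.subtypeEquivRight fun x => ?_
      simp [SimpleGraph.commonNeighbors]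
    rw [h, card_commonNeighbors, common_eq v.2 v.2, if_pos rfl]
  of_adj v w h := by
    have hne : (v : ℕ) ≠ w := fun hh => h.ne (Fin.ext hh)
    rw [card_commonNeighbors, common_eq v.2 w.2, if_neg hne, if_pos ((G0_adj v w).1 h)]
  of_not_adj v w hvw h := by
    have hne : (v : ℕ) ≠ w := fun hh => hvw (Fin.ext hh)
    rw [card_commonNeighbors, common_eq v.2 w.2, if_neg hne]
    exact if_neg h

/-- The automorphism as a permutation. -/
def sgPerm : Equiv.Perm (Fin 100) where
  toFun i := ⟨sg i, sg_lt i.2⟩
  invFun i := ⟨sg i, sg_lt i.2⟩
  left_inv i := Fin.ext (sg_sg i.2)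
  right_inv i := Fin.ext (sg_sg i.2)

/-- The automorphism of the graph. -/
def sgAut : G0 ≃g G0 where
  toEquiv := sgPerm
  map_rel_iff' := by
    intro i j
    show adjB (sg i) (sg j) = true ↔ adjB i j = true
    rw [adjB_sg i.2 j.2]

theorem sg_fixed_check : ((List.range 100).countP fun x => sg x == x) = 6 := by
  decide +kernel

theorem card_fixed_sgPerm : Fintype.card (Function.fixedPoints sgPerm) = 6 := by
  rw [← sg_fixed_check, ← card_filter_fin, ← Fintype.card_coe]
  apply Fintype.card_congr
  refine Equiv.subtypeEquivRight fun x => ?_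
  have h : sgPerm x = x ↔ sg x = x := Fin.ext_iff
  rw [Function.mem_fixedPoints, Function.IsFixedPt, h, Finset.mem_filter]
  simp

theorem sign_sgPerm : Equiv.Perm.sign sgPerm = -1 := by
  have h2 : sgPerm ^ 2 = 1 := by
    ext x
    exact sg_sg x.2
  rw [Equiv.Perm.sign_of_pow_two_eq_one h2, card_fixed_sgPerm, Fintype.card_fin]
  decide

theorem sgAut_zero : sgAut 0 = 0 := by
  show (⟨sg 0, sg_lt (by norm_num)⟩ : Fin 100) = 0
  apply Fin.ext
  decide +kernel

theorem exists_odd_aut : ∃ f : G0 ≃g G0, f 0 = 0 ∧ Equiv.Perm.sign f.toEquiv = -1 :=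
  ⟨sgAut, sgAut_zero, sign_sgPerm⟩

end Cfsg.Agent.SporadicA.HSGraphModel
end

-- part: SporadicA/RankThree100
section
/-!
Rank 3 groups of degree 100 with suborbit lengths 1, 22, 77 and simple point stabiliser are
simple; subgroups of index 2 and orbits of odd length.

* `orbit_eq_univ_of_normal` : nontrivial normal subgroups of a faithful transitive group of
  degree 100 whose point stabiliser is transitive on sets `X`, `Y` of sizes 22 and 77 (which
  together with the fixed point exhaust all points) are transitive.
* `isSimpleGroup_of_rank_three` : if moreover the point stabiliser is simple, the group is simple.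
* `exists_smul_eq_of_odd_orbit` : a normal subgroup of index 2 is transitive on every orbit of odd
  length.
* `eq_of_index_two_of_isSimpleGroup` : a simple subgroup of index 2 and order greater than 2 is
  the only subgroup of index 2.
-/

set_option autoImplicit false

namespace Cfsg.Agent.SporadicA.RankThree100

open MulAction

section rank3

variable {G Ω : Type*} [Group G] [MulAction G Ω]

theorem orbit_eq_univ_of_normal [FaithfulSMul G Ω] [IsPretransitive G Ω] (hΩ : Nat.card Ω = 100)
    (a : Ω) (X Y : Set Ω) (haX : a ∉ X) (haY : a ∉ Y) (hX : X.ncard = 22) (hY : Y.ncard = 77)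
    (hcov : ∀ x, x = a ∨ x ∈ X ∨ x ∈ Y)
    (tX : ∀ x ∈ X, ∀ y ∈ X, ∃ g : G, g • a = a ∧ g • x = y)
    (tY : ∀ x ∈ Y, ∀ y ∈ Y, ∃ g : G, g • a = a ∧ g • x = y)
    (N : Subgroup G) [N.Normal] (hN : N ≠ ⊥) : orbit N a = Set.univ := by
  have hfin : Finite Ω := Nat.finite_of_card_ne_zero (by omega)
  have hblock : IsBlock G (orbit N a) := IsBlock.orbit_of_normal a
  have hdvd : (orbit N a).ncard ∣ 100 := by
    rw [← hΩ]
    exact hblock.ncard_dvd_card (nonempty_orbit a)
  have haD : a ∈ orbit N a := mem_orbit_self a
  -- invariance under the point stabiliser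
  have hinv : ∀ g : G, g • a = a → ∀ x ∈ orbit N a, g • x ∈ orbit N a := by
    rintro g hg x ⟨n, rfl⟩
    refine ⟨⟨g * n * g⁻¹, Subgroup.Normal.conj_mem inferInstance _ n.2 g⟩, ?_⟩
    show (g * n * g⁻¹) • a = g • ((n : G) • a)
    have : g⁻¹ • a = a := by rw [inv_smul_eq_iff, hg]
    rw [mul_smul, mul_smul, this]
  have hXs : (∃ x ∈ X, x ∈ orbit N a) → X ⊆ orbit N a := by
    rintro ⟨x, hx, hxD⟩ y hy
    obtain ⟨g, hg, hgx⟩ := tX x hx y hy
    rw [← hgx]
    exact hinv g hg x hxD
  have hYs : (∃ x ∈ Y, x ∈ orbit N a) → Y ⊆ orbit N a := by
    rintro ⟨x, hx, hxD⟩ y hy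
    obtain ⟨g, hg, hgx⟩ := tY x hx y hy
    rw [← hgx]
    exact hinv g hg x hxD
  by_cases h1 : ∃ x ∈ X, x ∈ orbit N a
  · by_cases h2 : ∃ x ∈ Y, x ∈ orbit N a
    · rw [Set.eq_univ_iff_forall]
      intro x
      rcases hcov x with h | h | h
      · rw [h]; exact haD
      · exact hXs h1 h
      · exact hYs h2 h
    · exfalso
      have hD : orbit N a = insert a X := by
        ext x
        rw [Set.mem_insert_iff]
        constructor
        · intro hx
          rcases hcov x with h | h | h
          · exact Or.inl h
          · exact Or.inr h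
          · exact absurd ⟨x, h, hx⟩ h2
        · rintro (h | h)
          · rw [h]; exact haD
          · exact hXs h1 h
      rw [hD, Set.ncard_insert_of_notMem haX, hX] at hdvd
      omega
  · by_cases h2 : ∃ x ∈ Y, x ∈ orbit N a
    · exfalso
      have hD : orbit N a = insert a Y := by
        ext x
        rw [Set.mem_insert_iff]
        constructor
        · intro hx
          rcases hcov x with h | h | h
          · exact Or.inl h
          · exact absurd ⟨x, h, hx⟩ h1
          · exact Or.inr h
        · rintro (h | h)
          · rw [h]; exact haD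
          · exact hYs h2 h
      rw [hD, Set.ncard_insert_of_notMem haY, hY] at hdvd
      omega
    · exfalso
      apply hN
      have hfix : ∀ n ∈ N, n • a = a := by
        intro n hn
        have hmem : n • a ∈ orbit N a := ⟨⟨n, hn⟩, rfl⟩
        rcases hcov (n • a) with h | h | h
        · exact h
        · exact absurd ⟨_, h, hmem⟩ h1
        · exact absurd ⟨_, h, hmem⟩ h2
      rw [Subgroup.eq_bot_iff_forall]
      intro n hn
      apply FaithfulSMul.eq_of_smul_eq_smul (α := Ω)
      intro x
      obtain ⟨g, rfl⟩ := exists_smul_eq G a x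
      have h3 := hfix (g⁻¹ * n * g) (by
        have := Subgroup.Normal.conj_mem (H := N) inferInstance _ hn g⁻¹
        rwa [inv_inv] at this)
      rw [mul_smul, mul_smul, inv_smul_eq_iff] at h3
      rw [h3, one_smul]

/-- Rank 3 simplicity criterion for degree 100. -/
theorem isSimpleGroup_of_rank_three [FaithfulSMul G Ω] [IsPretransitive G Ω]
    (hΩ : Nat.card Ω = 100)
    (a : Ω) (X Y : Set Ω) (haX : a ∉ X) (haY : a ∉ Y) (hX : X.ncard = 22) (hY : Y.ncard = 77)
    (hcov : ∀ x, x = a ∨ x ∈ X ∨ x ∈ Y)
    (tX : ∀ x ∈ X, ∀ y ∈ X, ∃ g : G, g • a = a ∧ g • x = y)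
    (tY : ∀ x ∈ Y, ∀ y ∈ Y, ∃ g : G, g • a = a ∧ g • x = y)
    (hs : IsSimpleGroup (stabilizer G a)) : IsSimpleGroup G := by
  have hfinΩ : Finite Ω := Nat.finite_of_card_ne_zero (by omega)
  have key : ∀ (N : Subgroup G), N.Normal → N ≠ ⊥ → orbit N a = Set.univ := by
    intro N hN hN1
    exact orbit_eq_univ_of_normal hΩ a X Y haX haY hX hY hcov tX tY N hN1
  have hnt : Nontrivial G := by
    obtain ⟨x, y, hxy⟩ := hs.exists_pair_ne
    exact ⟨x, y, fun h => hxy (Subtype.ext h)⟩
  refine ⟨fun N hN => ?_⟩
  by_cases hN1 : N = ⊥
  · exact Or.inl hN1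
  right
  have horb := key N hN hN1
  have hsurj : ∀ y : Ω, ∃ n : N, (n : G) • a = y := by
    intro y
    have : y ∈ orbit N a := by rw [horb]; exact Set.mem_univ y
    exact this
  rcases hs.eq_bot_or_eq_top_of_normal (N.subgroupOf (stabilizer G a)) inferInstance with h | h
  · exfalso
    have hreg : ∀ n ∈ N, n • a = a → n = 1 := by
      intro n hn hna
      have hmem : (⟨n, hna⟩ : stabilizer G a) ∈ N.subgroupOf (stabilizer G a) := by
        rw [Subgroup.mem_subgroupOf]
        exact hn
      rw [h, Subgroup.mem_bot] at hmem
      exact congrArg Subtype.val hmem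
    have hbij : Function.Bijective (fun n : N => (n : G) • a) := by
      constructor
      · intro x y hxy
        have hxy' : (x : G) • a = (y : G) • a := hxy
        have : ((y : G)⁻¹ * (x : G)) • a = a := by
          rw [mul_smul, hxy', inv_smul_smul]
        have h1 := hreg _ (N.mul_mem (N.inv_mem y.2) x.2) this
        rw [inv_mul_eq_one] at h1
        exact Subtype.ext h1.symm
      · exact hsurj
    have hcard : Nat.card N = 100 := by rw [Nat.card_eq_of_bijective _ hbij, hΩ]
    have hNfin : Finite N := Nat.finite_of_card_ne_zero (by omega)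
    have h5 : Fact (Nat.Prime 5) := ⟨by norm_num⟩
    -- the Sylow 5-subgroup
    obtain ⟨P⟩ : Nonempty (Sylow 5 N) := inferInstance
    have hPcard : Nat.card P = 25 := by
      rw [Sylow.card_eq_multiplicity, hcard]
      have : (100 : ℕ).factorization 5 = 2 := by
        have e : (100 : ℕ) = 5 ^ 2 * 4 := by norm_num
        rw [e, Nat.factorization_mul (by norm_num) (by norm_num)]
        simp only [Finsupp.add_apply]
        rw [Nat.Prime.factorization_pow (by norm_num), Finsupp.single_eq_same,
          Nat.factorization_eq_zero_of_not_dvd (by norm_num)]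
      rw [this]
      norm_num
    have hidx : (P : Subgroup N).index = 4 := by
      have := Subgroup.card_mul_index (P : Subgroup N)
      rw [show Nat.card (P : Subgroup N) = 25 from hPcard, hcard] at this
      omega
    have hn5 : Nat.card (Sylow 5 N) = 1 := by
      have h1 : Nat.card (Sylow 5 N) ∣ 4 := by
        rw [← hidx]
        exact P.card_dvd_index
      have h2 : Nat.card (Sylow 5 N) ≡ 1 [MOD 5] := card_sylow_modEq_one 5 N
      have h3 : Nat.card (Sylow 5 N) ≤ 4 := Nat.le_of_dvd (by norm_num) h1
      have h4 : 0 < Nat.card (Sylow 5 N) := Nat.card_pos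
      unfold Nat.ModEq at h2
      omega
    have hPn : (P : Subgroup N).Normal := by
      have : Subsingleton (Sylow 5 N) := (Nat.card_eq_one_iff_unique.1 hn5).1
      exact Sylow.normal_of_subsingleton P
    have hPc : (P : Subgroup N).Characteristic := P.characteristic_of_normal hPn
    have hQn : ((P : Subgroup N).map N.subtype).Normal :=
      ConjAct.normal_of_characteristic_of_normal
    have hQcard : Nat.card ((P : Subgroup N).map N.subtype) = 25 := by
      rw [Nat.card_congr (Subgroup.equivMapOfInjective (P : Subgroup N) N.subtype
        N.subtype_injective).toEquiv.symm]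
      exact hPcard
    have hQ1 : ((P : Subgroup N).map N.subtype) ≠ ⊥ := by
      intro h0
      rw [h0, Subgroup.card_bot] at hQcard
      omega
    have horbQ := key _ hQn hQ1
    have h6 : Nat.card (orbit ((P : Subgroup N).map N.subtype) a) ≤ 25 := by
      rw [← hQcard]
      have hQfin : Finite ((P : Subgroup N).map N.subtype) :=
        Nat.finite_of_card_ne_zero (by omega)
      exact Nat.card_le_card_of_surjective
        (fun g : ((P : Subgroup N).map N.subtype) => (⟨g • a, g, rfl⟩ : orbit _ a))
        (by rintro ⟨_, g, rfl⟩; exact ⟨g, rfl⟩)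
    rw [horbQ, Nat.card_univ, hΩ] at h6
    omega
  · rw [eq_top_iff]
    intro g _
    obtain ⟨n, hn'⟩ := hsurj (g • a)
    have hmem : (n : G)⁻¹ * g ∈ stabilizer G a := by
      rw [mem_stabilizer_iff, mul_smul, ← hn', inv_smul_smul]
    have : (⟨_, hmem⟩ : stabilizer G a) ∈ N.subgroupOf (stabilizer G a) := h ▸ Subgroup.mem_top _
    rw [Subgroup.mem_subgroupOf] at this
    have h1 := N.mul_mem n.2 this
    simpa using h1

/-- A normal subgroup of index 2 is transitive on every orbit of odd length. -/
theorem exists_smul_eq_of_odd_orbit (K : Subgroup G) [K.Normal] (hK : K.index = 2) (x : Ω)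
    (hodd : Odd (orbit G x).ncard) (y : Ω) (hy : y ∈ orbit G x) : ∃ k ∈ K, k • x = y := by
  have h1 : (stabilizer G x).index = (orbit G x).ncard := index_stabilizer G x
  have h2 : (stabilizer K x).index = (orbit K x).ncard := index_stabilizer K x
  have h3 : (stabilizer K x) = (stabilizer G x).subgroupOf K := by
    ext k
    rw [Subgroup.mem_subgroupOf, mem_stabilizer_iff, mem_stabilizer_iff]
    rfl
  have h4 : (stabilizer G x).relIndex K * K.index =
      K.relIndex (stabilizer G x) * (stabilizer G x).index := by
    have e1 := Subgroup.relIndex_mul_index (inf_le_right : stabilizer G x ⊓ K ≤ K)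
    have e2 := Subgroup.relIndex_mul_index (inf_le_left : stabilizer G x ⊓ K ≤ stabilizer G x)
    rw [Subgroup.inf_relIndex_right] at e1
    rw [Subgroup.inf_relIndex_left] at e2
    rw [e1, e2]
  have h5 : (stabilizer G x).relIndex K = (orbit K x).ncard := by
    rw [← h2, h3]; rfl
  rw [h5, hK, h1] at h4
  have h6 : K.relIndex (stabilizer G x) ∣ 2 := by
    rw [← hK]
    exact Subgroup.relIndex_dvd_index_of_normal K (stabilizer G x)
  have h7 : K.relIndex (stabilizer G x) = 2 := by
    rcases (Nat.dvd_prime Nat.prime_two).1 h6 with h | h
    · exfalso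
      rw [h, one_mul] at h4
      rw [← h4] at hodd
      exact (Nat.not_odd_iff_even.2 (even_iff_two_dvd.2 ⟨_, mul_comm _ _⟩)) hodd
    · exact h
  rw [h7, mul_comm] at h4
  have h8 : (orbit K x).ncard = (orbit G x).ncard := Nat.eq_of_mul_eq_mul_left (by norm_num) h4
  have hfin : (orbit G x).Finite := by
    apply Set.finite_of_ncard_ne_zero
    rintro h0
    rw [h0] at hodd
    exact absurd hodd (by decide)
  have hsub : orbit K x ⊆ orbit G x := by
    rintro _ ⟨k, rfl⟩
    exact ⟨(k : G), rfl⟩
  have heq : orbit K x = orbit G x := Set.eq_of_subset_of_ncard_le hsub h8.ge hfin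
  rw [← heq] at hy
  obtain ⟨k, hk⟩ := hy
  exact ⟨k, k.2, hk⟩

end rank3

/-- A simple subgroup of index 2 with more than two elements is the only subgroup of index 2. -/
theorem eq_of_index_two_of_isSimpleGroup {G : Type*} [Group G] [Finite G] (K L : Subgroup G)
    (hK : K.index = 2) (hL : L.index = 2) (hs : IsSimpleGroup K) (h2 : 2 < Nat.card K) :
    K = L := by
  have hLn : L.Normal := Subgroup.normal_of_index_eq_two hL
  have hle : K ≤ L := by
    rcases hs.eq_bot_or_eq_top_of_normal (L.subgroupOf K) inferInstance with h | h
    · exfalso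
      have h3 : L.relIndex K ∣ 2 := by
        rw [← hL]
        exact Subgroup.relIndex_dvd_index_of_normal L K
      have h4 : L.relIndex K = Nat.card K := by
        show (L.subgroupOf K).index = _
        rw [h, Subgroup.index_bot]
      rw [h4] at h3
      have := Nat.le_of_dvd (by norm_num) h3
      omega
    · exact Subgroup.subgroupOf_eq_top.1 h
  apply Subgroup.eq_of_le_of_card_ge hle
  have e1 := Subgroup.card_mul_index K
  have e2 := Subgroup.card_mul_index L
  rw [hK] at e1
  rw [hL] at e2
  omega

end Cfsg.Agent.SporadicA.RankThree100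
end

-- part: S0431
section
set_option autoImplicit false
open Cfsg

namespace Cfsg.Agent.S0431

open Cfsg.Agent.SporadicStructure.SRGSteiner Cfsg.Agent.SporadicStructure.PBGAut
  Cfsg.Agent.SporadicStructure.PBGAutEquiv Cfsg.Agent.SporadicA.HSGraphModel
  Cfsg.Agent.SporadicA.RankThree100 MulAction

/-- The sign of an automorphism of a finite graph as a permutation of the vertices. -/
noncomputable def sgn {V : Type*} [Fintype V] [DecidableEq V] (Γ : SimpleGraph V) :
    (Γ ≃g Γ) →* ℤˣ :=
  Equiv.Perm.sign.comp (MulAction.toPermHom (Γ ≃g Γ) V)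

theorem sgn_apply {V : Type*} [Fintype V] [DecidableEq V] (Γ : SimpleGraph V) (f : Γ ≃g Γ) :
    sgn Γ f = Equiv.Perm.sign f.toEquiv := by
  show Equiv.Perm.sign (MulAction.toPermHom (Γ ≃g Γ) V f) = _
  congr 1

/-- There is an odd automorphism fixing the extra vertex. -/
theorem exists_odd {α : Type*} [Fintype α] [DecidableEq α] (hα : Fintype.card α = 22)
    {B : Set (Finset α)} (hB : Cfsg.IsSteinerSystem 3 6 B) [Fintype (Option (α ⊕ B))]
    [DecidableEq (Option (α ⊕ B))] :
    ∃ f : Cfsg.pointBlockGraph B ≃g Cfsg.pointBlockGraph B, f none = none ∧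
      sgn (Cfsg.pointBlockGraph B) f = -1 := by
  classical
  have hsrg := Cfsg.Agent.S0428.result hα hB
  have hsrg' : (Cfsg.pointBlockGraph B).IsSRGWith 100 22 0 6 := by
    convert hsrg
  obtain ⟨e⟩ := Cfsg.Agent.S0430.result isSRG hsrg'
  obtain ⟨f, hf0, hf⟩ := exists_odd_aut
  obtain ⟨φ, hφ⟩ := Cfsg.Agent.S1586.exists_iso_to_none hα hB (e 0)
  let g : Cfsg.pointBlockGraph B ≃g Cfsg.pointBlockGraph B := (e.symm.trans f).trans e
  refine ⟨φ * g * φ⁻¹, ?_, ?_⟩
  · have h1 : φ⁻¹ none = e 0 := by
      rw [← hφ]
      exact φ.symm_apply_apply (e 0)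
    show φ (g (φ⁻¹ none)) = none
    rw [h1]
    show φ (e (f (e.symm (e 0)))) = none
    rw [e.symm_apply_apply, hf0, hφ]
  · rw [map_mul, map_mul, map_inv, mul_comm, ← mul_assoc, inv_mul_cancel, one_mul, sgn_apply]
    rw [← hf]
    exact Equiv.Perm.sign_symm_trans_trans f.toEquiv e.toEquiv

/-- The automorphism group of an `S(3, 6, 22)` is transitive on blocks. -/
theorem exists_map_block {α : Type*} [Fintype α] [DecidableEq α]
    {B : Set (Finset α)} (hB : Cfsg.IsSteinerSystem 3 6 B)
    (h3 : MulAction.IsMultiplyPretransitive (Cfsg.setSystemAut B) α 3) (b c : B) :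
    ∃ σ : Cfsg.setSystemAut B, (b : Finset α).image (σ : Equiv.Perm α) = c := by
  have hb6 : (b : Finset α).card = 6 := hB.1 _ b.2
  have hc6 : (c : Finset α).card = 6 := hB.1 _ c.2
  obtain ⟨t, htb, ht3⟩ := Finset.exists_subset_card_eq (s := (b : Finset α)) (n := 3) (by omega)
  obtain ⟨u, huc, hu3⟩ := Finset.exists_subset_card_eq (s := (c : Finset α)) (n := 3) (by omega)
  have hσ : ∃ σ : Cfsg.setSystemAut B, t.image (σ : Equiv.Perm α) = u := by
    rw [isMultiplyPretransitive_iff] at h3
    obtain ⟨x, y⟩ : (Fin 3 ≃ t) × (Fin 3 ≃ u) :=
      ⟨(Fintype.equivFinOfCardEq (by simpa using ht3)).symm,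
        (Fintype.equivFinOfCardEq (by simpa using hu3)).symm⟩
    obtain ⟨g, hg⟩ := h3 (x := ⟨fun i => (x i : α), Subtype.val_injective.comp x.injective⟩)
      (y := ⟨fun i => (y i : α), Subtype.val_injective.comp y.injective⟩)
    refine ⟨g, Finset.eq_of_subset_of_card_le ?_ ?_⟩
    · intro z hz
      rw [Finset.mem_image] at hz
      obtain ⟨w, hw, rfl⟩ := hz
      obtain ⟨i, hi⟩ := x.surjective ⟨w, hw⟩
      have h := DFunLike.congr_fun hg i
      have h' : (g : Equiv.Perm α) (x i : α) = (y i : α) := h
      rw [hi] at h'
      rw [h']
      exact (y i).2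
    · rw [Finset.card_image_of_injective _ (g : Equiv.Perm α).injective, ht3, hu3]
  obtain ⟨σ, hσ⟩ := hσ
  refine ⟨σ, ?_⟩
  have hmem : (b : Finset α).image (σ : Equiv.Perm α) ∈ B := by
    have h1 := image_eq_of_mem_setSystemAut σ.2
    have h2 : (b : Finset α).image (σ : Equiv.Perm α) ∈
      (fun b : Finset α => b.image (σ : Equiv.Perm α)) '' B := ⟨b, b.2, rfl⟩
    rwa [h1] at h2
  obtain ⟨d, hd, hdu⟩ := hB.2 u hu3
  rw [hdu _ ⟨hmem, by rw [← hσ]; exact Finset.image_subset_image htb⟩, hdu _ ⟨c.2, huc⟩]

/-- Aut of the point-block graph of an S(3, 6, 22) contains a simple subgroup of order 44352000. -/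
theorem result {α : Type*} [Fintype α] (hα : Fintype.card α = 22) {B : Set (Finset α)} (hB : Cfsg.IsSteinerSystem 3 6 B) : ∃ H : Subgroup (Cfsg.pointBlockGraph B ≃g Cfsg.pointBlockGraph B), Cfsg.IsHS H := by
  classical
  have hcardA := Cfsg.Agent.S1586.result hα hB
  obtain ⟨hcardS, h3, K, hKidx, hKs, hKc⟩ := Cfsg.Agent.S0414.result hα hB
  have hfinA : Finite (Cfsg.pointBlockGraph B ≃g Cfsg.pointBlockGraph B) :=
    Nat.finite_of_card_ne_zero (by omega)
  obtain ⟨f, hf0, hf⟩ := exists_odd hα hB
  set s := sgn (Cfsg.pointBlockGraph B) with hsdef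
  have hHidx : s.ker.index = 2 := by
    rw [Subgroup.index_ker, MonoidHom.range_eq_top_of_surjective]
    · rw [Nat.card_congr Subgroup.topEquiv.toEquiv]
      simp
    · intro u
      rcases Int.units_eq_one_or u with h | h
      · exact ⟨1, by rw [h, map_one]⟩
      · exact ⟨f, by rw [h, hf]⟩
  refine ⟨s.ker, ?_, ?_⟩
  swap
  · have h := Subgroup.card_mul_index s.ker
    rw [hHidx, hcardA] at h
    omega
  -- the kernel on the automorphism group of the Steiner system
  let ψ := (stabilizerNoneEquiv (B := B))
  let s' : Cfsg.setSystemAut B →* ℤˣ :=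
    (s.comp (stabilizer (Cfsg.pointBlockGraph B ≃g Cfsg.pointBlockGraph B)
      (none : Option (α ⊕ B))).subtype).comp ψ.toMonoidHom
  have hs'idx : s'.ker.index = 2 := by
    rw [Subgroup.index_ker, MonoidHom.range_eq_top_of_surjective]
    · rw [Nat.card_congr Subgroup.topEquiv.toEquiv]
      simp
    · intro u
      rcases Int.units_eq_one_or u with h | h
      · exact ⟨1, by rw [h, map_one]⟩
      · refine ⟨ψ.symm ⟨f, hf0⟩, ?_⟩
        show s ((ψ (ψ.symm ⟨f, hf0⟩) : stabilizer (Cfsg.pointBlockGraph B ≃g
          Cfsg.pointBlockGraph B) (none : Option (α ⊕ B))) :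
            Cfsg.pointBlockGraph B ≃g Cfsg.pointBlockGraph B) = u
        rw [MulEquiv.apply_symm_apply, h, hf]
  have hK : K = s'.ker := eq_of_index_two_of_isSimpleGroup K s'.ker hKidx hs'idx hKs
    (by omega)
  have hKn : K.Normal := Subgroup.normal_of_index_eq_two hKidx
  -- the elements of `K` give even automorphisms
  have hKeven : ∀ k ∈ K, s (ψ k : Cfsg.pointBlockGraph B ≃g Cfsg.pointBlockGraph B) = 1 := by
    intro k hk
    rw [hK] at hk
    exact hk
  -- transitivity of `K` on the points
  have hKtr : ∀ a a' : α, ∃ k ∈ K, (k : Equiv.Perm α) a = a' := by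
    have h2 : IsMultiplyPretransitive (Cfsg.setSystemAut B) α 2 := by
      have : 3 ≤ Nat.card α := by rw [Nat.card_eq_fintype_card, hα]; norm_num
      exact isMultiplyPretransitive_of_le (n := 3) (by norm_num) (by simpa using this)
    have hprim : IsPreprimitive (Cfsg.setSystemAut B) α := isPreprimitive_of_is_two_pretransitive h2
    have hfix : fixedPoints K α ≠ .univ := by
      intro h
      obtain ⟨x, y, hxy⟩ := hKs.exists_pair_ne
      apply hxy
      have h1 : ∀ k : K, k = 1 := by
        intro k
        apply Subtype.ext
        apply Subtype.ext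
        apply Equiv.ext
        intro a
        have ha : a ∈ fixedPoints K α := h ▸ Set.mem_univ a
        exact ha k
      rw [h1 x, h1 y]
    have htr : IsPretransitive K α := IsQuasiPreprimitive.isPretransitive_of_normal hfix
    intro a a'
    obtain ⟨k, hk⟩ := exists_smul_eq K a a'
    exact ⟨k, k.2, hk⟩
  have hsrg := Cfsg.Agent.S0428.result hα hB
  have hV : Nat.card (Option (α ⊕ B)) = 100 := by
    rw [Nat.card_eq_fintype_card, hsrg.card]
  have hB77 : Nat.card B = 77 := by
    have h1 := hsrg.card
    rw [Fintype.card_option, Fintype.card_sum, hα] at h1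
    rw [Nat.card_eq_fintype_card]
    omega
  -- transitivity on the vertices
  have htoNone : ∀ x : Option (α ⊕ B), ∃ h : s.ker, h • x = none := by
    intro x
    obtain ⟨φ, hφ⟩ := Cfsg.Agent.S1586.exists_iso_to_none hα hB x
    rcases Int.units_eq_one_or (s φ) with h | h
    · exact ⟨⟨φ, h⟩, hφ⟩
    · refine ⟨⟨f * φ, ?_⟩, ?_⟩
      · rw [MonoidHom.mem_ker, map_mul, hf, h]
        decide
      · show f (φ x) = none
        rw [hφ, hf0]
  have htrans : IsPretransitive s.ker (Option (α ⊕ B)) := by
    refine ⟨fun x y => ?_⟩
    obtain ⟨h, hh⟩ := htoNone x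
    obtain ⟨h', hh'⟩ := htoNone y
    refine ⟨h'⁻¹ * h, ?_⟩
    rw [mul_smul, hh, inv_smul_eq_iff, hh']
  -- the stabiliser of the extra vertex
  let θ : K →* stabilizer s.ker (none : Option (α ⊕ B)) :=
    { toFun := fun k => ⟨⟨(ψ k : Cfsg.pointBlockGraph B ≃g Cfsg.pointBlockGraph B),
        hKeven k k.2⟩, (ψ k).2⟩
      map_one' := by
        apply Subtype.ext
        apply Subtype.ext
        show ((ψ (1 : Cfsg.setSystemAut B) : stabilizer _ _) :
          Cfsg.pointBlockGraph B ≃g Cfsg.pointBlockGraph B) = 1
        rw [map_one]
        rfl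
      map_mul' := by
        intro k l
        apply Subtype.ext
        apply Subtype.ext
        show ((ψ ((k : Cfsg.setSystemAut B) * (l : Cfsg.setSystemAut B)) : stabilizer _ _) :
          Cfsg.pointBlockGraph B ≃g Cfsg.pointBlockGraph B) = _
        rw [map_mul]
        rfl }
  have hθ : Function.Surjective θ := by
    rintro ⟨⟨g, hg⟩, hgn⟩
    have hgn' : g ∈ stabilizer (Cfsg.pointBlockGraph B ≃g Cfsg.pointBlockGraph B)
      (none : Option (α ⊕ B)) := hgn
    have h1 : ψ (ψ.symm ⟨g, hgn'⟩) = ⟨g, hgn'⟩ := ψ.apply_symm_apply _
    have hmem : ψ.symm ⟨g, hgn'⟩ ∈ K := by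
      rw [hK]
      show s ((ψ (ψ.symm ⟨g, hgn'⟩) : stabilizer _ _) :
        Cfsg.pointBlockGraph B ≃g Cfsg.pointBlockGraph B) = 1
      rw [h1]
      exact hg
    refine ⟨⟨ψ.symm ⟨g, hgn'⟩, hmem⟩, ?_⟩
    apply Subtype.ext
    apply Subtype.ext
    show ((ψ (ψ.symm ⟨g, hgn'⟩) : stabilizer _ _) :
        Cfsg.pointBlockGraph B ≃g Cfsg.pointBlockGraph B) = g
    rw [h1]
  have hθi : Function.Injective θ := by
    intro k l hkl
    have h1 : (ψ k : Cfsg.pointBlockGraph B ≃g Cfsg.pointBlockGraph B) = ψ l :=
      congrArg (fun z : stabilizer s.ker (none : Option (α ⊕ B)) =>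
        ((z : s.ker) : Cfsg.pointBlockGraph B ≃g Cfsg.pointBlockGraph B)) hkl
    exact Subtype.ext (ψ.injective (Subtype.ext h1))
  have hsimple : IsSimpleGroup (stabilizer s.ker (none : Option (α ⊕ B))) := by
    have e : K ≃* stabilizer s.ker (none : Option (α ⊕ B)) :=
      MulEquiv.ofBijective θ ⟨hθi, hθ⟩
    exact e.symm.isSimpleGroup
  -- the two other suborbits
  have hX : (Set.range fun a : α => (some (Sum.inl a) : Option (α ⊕ B))).ncard = 22 := by
    rw [← Nat.card_coe_set_eq, Nat.card_range_of_injective, Nat.card_eq_fintype_card, hα]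
    intro a a' h
    exact Sum.inl_injective (Option.some_injective _ h)
  have hY : (Set.range fun b : B => (some (Sum.inr b) : Option (α ⊕ B))).ncard = 77 := by
    rw [← Nat.card_coe_set_eq, Nat.card_range_of_injective, hB77]
    intro a a' h
    exact Sum.inr_injective (Option.some_injective _ h)
  refine isSimpleGroup_of_rank_three (G := s.ker) hV none _ _ ?_ ?_ hX hY ?_ ?_ ?_ hsimple
  · rintro ⟨a, ha⟩
    simp at ha
  · rintro ⟨a, ha⟩
    simp at ha
  · rintro (_ | a | b)
    · exact Or.inl rfl
    · exact Or.inr (Or.inl ⟨a, rfl⟩)
    · exact Or.inr (Or.inr ⟨b, rfl⟩)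
  · rintro _ ⟨a, rfl⟩ _ ⟨a', rfl⟩
    obtain ⟨k, hk, hka⟩ := hKtr a a'
    refine ⟨⟨(ψ k : Cfsg.pointBlockGraph B ≃g Cfsg.pointBlockGraph B), hKeven k hk⟩,
      (ψ k).2, ?_⟩
    show (ψ k : Cfsg.pointBlockGraph B ≃g Cfsg.pointBlockGraph B) (some (Sum.inl a)) = _
    rw [stabilizerNoneEquiv_inl, hka]
  · rintro _ ⟨b, rfl⟩ _ ⟨c, rfl⟩
    let G1 := stabilizer (Cfsg.pointBlockGraph B ≃g Cfsg.pointBlockGraph B)
      (none : Option (α ⊕ B))
    let K1 : Subgroup G1 := (s.comp G1.subtype).ker
    have hK1 : K1.index = 2 := by
      rw [Subgroup.index_ker, MonoidHom.range_eq_top_of_surjective]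
      · rw [Nat.card_congr Subgroup.topEquiv.toEquiv]
        simp
      · intro u
        rcases Int.units_eq_one_or u with h | h
        · exact ⟨1, by rw [h, map_one]⟩
        · exact ⟨⟨f, hf0⟩, by rw [h]; exact hf⟩
    have horb : orbit G1 (some (Sum.inr b) : Option (α ⊕ B)) =
        Set.range fun b : B => (some (Sum.inr b) : Option (α ⊕ B)) := by
      ext z
      constructor
      · rintro ⟨⟨g, hg⟩, rfl⟩
        obtain ⟨σ, -, h2⟩ := exists_perm_of_fix_none g hg
        obtain ⟨c, hc, -⟩ := h2 b
        exact ⟨c, hc.symm⟩
      · rintro ⟨c, rfl⟩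
        obtain ⟨σ, hσ⟩ := exists_map_block hB h3 b c
        refine ⟨ψ σ, ?_⟩
        show (ψ σ : Cfsg.pointBlockGraph B ≃g Cfsg.pointBlockGraph B) (some (Sum.inr b)) = _
        rw [stabilizerNoneEquiv_inr]
        congr 2
        apply Subtype.ext
        rw [blockEquiv_coe, hσ]
    obtain ⟨k, hk, hkb⟩ := exists_smul_eq_of_odd_orbit K1 hK1 (some (Sum.inr b) : Option (α ⊕ B))
      (by rw [horb, hY]; decide) (some (Sum.inr c)) (by rw [horb]; exact ⟨c, rfl⟩)
    exact ⟨⟨(k : Cfsg.pointBlockGraph B ≃g Cfsg.pointBlockGraph B), hk⟩, k.2, hkb⟩

end Cfsg.Agent.S0431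
end
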