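import Cfsg.Statements.S0433
set_option linter.all false
-- import your own Cfsg.Agent.* helpers here

set_option autoImplicit false
open Cfsg

namespace Cfsg.Agent.S0433

open Finset

/-- Table form of the generating words. -/
theorem qr_iff (y : ZMod 23) : (∃ r : ZMod 23, y = r ^ 2) ↔
    y ∈ ({0, 1, 2, 3, 4, 6, 8, 9, 12, 13, 16, 18} : Finset (ZMod 23)) := by
  revert y; decide +kernel

/-- The squares modulo 23 as a finset. -/
def sq : Finset (ZMod 23) := {0, 1, 2, 3, 4, 6, 8, 9, 12, 13, 16, 18}

theorem qrWord_some (t x : ZMod 23) :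
    Cfsg.qrWord t (some x) = if x - t ∈ sq then 1 else 0 := by
  change (if ∃ r : ZMod 23, x = r ^ 2 + t then (1 : ZMod 2) else 0) = _
  have h : (∃ r : ZMod 23, x = r ^ 2 + t) ↔ x - t ∈ sq := by
    rw [sq, ← qr_iff]
    exact exists_congr fun r => by rw [sub_eq_iff_eq_add]
  simp only [h]

theorem qrWord_none (t : ZMod 23) : Cfsg.qrWord t none = 0 := rfl

theorem sq_orth : ∀ s t : ZMod 23, (sq.filter fun y => y + s - t ∈ sq).card % 2 = 0 := by
  decide +kernel

theorem dot_qr_qr (s t : ZMod 23) : ∑ i, Cfsg.qrWord s i * Cfsg.qrWord t i = 0 := by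
  rw [Fintype.sum_option]
  simp only [qrWord_none, qrWord_some, mul_zero, zero_add]
  have h1 : ∀ x : ZMod 23, ((if x - s ∈ sq then (1 : ZMod 2) else 0) * if x - t ∈ sq then 1 else 0)
      = if (x - s ∈ sq ∧ x - t ∈ sq) then 1 else 0 := by
    intro x; by_cases h1 : x - s ∈ sq <;> by_cases h2 : x - t ∈ sq <;> simp [h1, h2]
  simp only [h1]
  rw [Finset.sum_boole]
  have h2 : (Finset.univ.filter fun x : ZMod 23 => x - s ∈ sq ∧ x - t ∈ sq).card
      = (sq.filter fun y => y + s - t ∈ sq).card := by
    apply Finset.card_bij (fun x _ => x - s)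
    · intro a ha
      simp only [mem_filter, mem_univ, true_and] at ha ⊢
      refine ⟨ha.1, ?_⟩
      rw [sub_add_cancel]; exact ha.2
    · intro a _ b _ h
      exact sub_left_injective h
    · intro b hb
      simp only [mem_filter] at hb
      refine ⟨b + s, ?_, by ring⟩
      simp only [mem_filter, mem_univ, true_and]
      refine ⟨?_, hb.2⟩
      rw [add_sub_cancel_right]; exact hb.1
  rw [h2]
  have h3 := sq_orth s t
  exact (ZMod.natCast_eq_zero_iff _ _).mpr (Nat.dvd_of_mod_eq_zero h3)

theorem dot_qr_one (s : ZMod 23) : ∑ i, Cfsg.qrWord s i * (1 : Cfsg.GolayPt → ZMod 2) i = 0 := by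
  have := dot_qr_qr s s
  rw [← this]
  refine Finset.sum_congr rfl fun i _ => ?_
  have h : ∀ a : ZMod 2, a * 1 = a * a := by decide
  exact h _

theorem dot_one_one :
    ∑ i, (1 : Cfsg.GolayPt → ZMod 2) i * (1 : Cfsg.GolayPt → ZMod 2) i = 0 := by
  decide +kernel

/-- The code is self-orthogonal. -/
theorem dot_eq_zero {v w : Cfsg.GolayPt → ZMod 2} (hv : v ∈ Cfsg.golayCode)
    (hw : w ∈ Cfsg.golayCode) : ∑ i, v i * w i = 0 := by
  have hgen : ∀ a ∈ (Set.range Cfsg.qrWord ∪ {1} : Set (Cfsg.GolayPt → ZMod 2)),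
      ∀ b ∈ (Set.range Cfsg.qrWord ∪ {1} : Set (Cfsg.GolayPt → ZMod 2)), ∑ i, a i * b i = 0 := by
    rintro a (⟨s, rfl⟩ | ha) b (⟨t, rfl⟩ | hb)
    · exact dot_qr_qr s t
    · rw [Set.mem_singleton_iff.mp hb]; exact dot_qr_one s
    · rw [Set.mem_singleton_iff.mp ha]
      have := dot_qr_one t
      rw [← this]
      exact Finset.sum_congr rfl fun i _ => mul_comm _ _
    · rw [Set.mem_singleton_iff.mp ha, Set.mem_singleton_iff.mp hb]; exact dot_one_one
  have hv' : v ∈ Submodule.span (ZMod 2)
    (Set.range Cfsg.qrWord ∪ {1} : Set (Cfsg.GolayPt → ZMod 2)) := hv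
  have hw' : w ∈ Submodule.span (ZMod 2)
    (Set.range Cfsg.qrWord ∪ {1} : Set (Cfsg.GolayPt → ZMod 2)) := hw
  have h1 : ∀ a ∈ (Set.range Cfsg.qrWord ∪ {1} : Set (Cfsg.GolayPt → ZMod 2)),
      ∑ i, a i * w i = 0 := by
    intro a ha
    induction hw' using Submodule.span_induction with
    | mem b hb => exact hgen a ha b hb
    | zero => simp
    | add x y _ _ ihx ihy =>
      simp only [Pi.add_apply, mul_add, Finset.sum_add_distrib]
      rw [ihx (by assumption), ihy (by assumption), add_zero]
    | smul c x _ ih =>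
      simp only [Pi.smul_apply, smul_eq_mul, mul_left_comm _ c, ← Finset.mul_sum]
      rw [ih (by assumption), mul_zero]
  induction hv' using Submodule.span_induction with
  | mem b hb => exact h1 b hb
  | zero => simp
  | add x y _ _ ihx ihy =>
    simp only [Pi.add_apply, add_mul, Finset.sum_add_distrib]
    rw [ihx (by assumption), ihy (by assumption), add_zero]
  | smul c x _ ih =>
    simp only [Pi.smul_apply, smul_eq_mul, mul_assoc, ← Finset.mul_sum]
    rw [ih (by assumption), mul_zero]

theorem mem_support (w : Cfsg.GolayPt → ZMod 2) (i : Cfsg.GolayPt) :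
    i ∈ Cfsg.support₂ w ↔ w i ≠ 0 := by
  simp [Cfsg.support₂]

theorem zmod2_ne_zero (a : ZMod 2) : a ≠ 0 ↔ a = 1 := by
  revert a; decide

/-- Supports of codewords meet in an even number of points. -/
theorem even_inter {c d : Finset Cfsg.GolayPt}
    (hc : c ∈ Cfsg.supports (Cfsg.golayCode : Set (Cfsg.GolayPt → ZMod 2)))
    (hd : d ∈ Cfsg.supports (Cfsg.golayCode : Set (Cfsg.GolayPt → ZMod 2))) :
    2 ∣ (c ∩ d).card := by
  obtain ⟨v, hv, rfl⟩ := hc
  obtain ⟨w, hw, rfl⟩ := hd
  have h := dot_eq_zero hv hw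
  have h1 : ∀ i, v i * w i = if i ∈ Cfsg.support₂ v ∩ Cfsg.support₂ w then 1 else 0 := by
    intro i
    simp only [mem_inter, mem_support]
    generalize v i = a
    generalize w i = b
    revert a b; decide
  simp only [h1] at h
  rw [Finset.sum_boole] at h
  have h2 := (ZMod.natCast_eq_zero_iff _ _).mp h
  have h3 : (Finset.univ.filter fun i => i ∈ Cfsg.support₂ v ∩ Cfsg.support₂ w)
      = Cfsg.support₂ v ∩ Cfsg.support₂ w := by
    ext i
    simp only [mem_filter, mem_univ, true_and]
  rw [h3] at h2
  exact h2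

theorem symmDiff_mem {c d : Finset Cfsg.GolayPt}
    (hc : c ∈ Cfsg.supports (Cfsg.golayCode : Set (Cfsg.GolayPt → ZMod 2)))
    (hd : d ∈ Cfsg.supports (Cfsg.golayCode : Set (Cfsg.GolayPt → ZMod 2))) :
    symmDiff c d ∈ Cfsg.supports (Cfsg.golayCode : Set (Cfsg.GolayPt → ZMod 2)) := by
  obtain ⟨v, hv, rfl⟩ := hc
  obtain ⟨w, hw, rfl⟩ := hd
  refine ⟨v + w, add_mem hv hw, ?_⟩
  ext i
  simp only [mem_symmDiff, mem_support, Pi.add_apply]
  generalize v i = a
  generalize w i = b
  revert a b; decide

theorem empty_mem : (∅ : Finset Cfsg.GolayPt) ∈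
    Cfsg.supports (Cfsg.golayCode : Set (Cfsg.GolayPt → ZMod 2)) :=
  ⟨0, zero_mem _, by ext i; simp [mem_support]⟩

theorem card_symmDiff_add (a b : Finset Cfsg.GolayPt) :
    (symmDiff a b).card + 2 * (a ∩ b).card = a.card + b.card := by
  have h1 : (symmDiff a b).card = (a \ b).card + (b \ a).card := by
    rw [symmDiff_def, Finset.sup_eq_union]
    exact Finset.card_union_of_disjoint (disjoint_sdiff_sdiff)
  have h2 := Finset.card_sdiff_add_card_inter a b
  have h3 := Finset.card_sdiff_add_card_inter b a
  rw [Finset.inter_comm b a] at h3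
  omega

/-- Words of the code have weight divisible by 4. -/
theorem four_dvd_card {c : Finset Cfsg.GolayPt}
    (hc : c ∈ Cfsg.supports (Cfsg.golayCode : Set (Cfsg.GolayPt → ZMod 2))) : 4 ∣ c.card := by
  obtain ⟨v, hv, rfl⟩ := hc
  have hv' : v ∈ Submodule.span (ZMod 2)
    (Set.range Cfsg.qrWord ∪ {1} : Set (Cfsg.GolayPt → ZMod 2)) := hv
  induction hv' using Submodule.span_induction with
  | mem b hb =>
    rcases hb with ⟨t, rfl⟩ | hb
    · have h1 : (Cfsg.support₂ (Cfsg.qrWord t)).card = 12 := by
        have hinj : Function.Injective fun y : ZMod 23 => (some (y + t) : Cfsg.GolayPt) :=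
          fun a b h => add_right_cancel (Option.some.inj h)
        have h2 : (sq.image fun y : ZMod 23 => (some (y + t) : Cfsg.GolayPt))
            = Cfsg.support₂ (Cfsg.qrWord t) := by
          ext i
          simp only [mem_image, mem_support]
          cases i with
          | none => simp [qrWord_none]
          | some x =>
            rw [qrWord_some]
            constructor
            · rintro ⟨a, ha, h⟩
              have h' : a + t = x := Option.some.inj h
              rw [← h', add_sub_cancel_right, if_pos ha]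
              decide
            · intro h
              by_cases hx : x - t ∈ sq
              · exact ⟨x - t, hx, by rw [sub_add_cancel]⟩
              · rw [if_neg hx] at h
                exact absurd rfl h
        rw [← h2, Finset.card_image_of_injective _ hinj]
        decide +kernel
      rw [h1]; decide
    · rw [Set.mem_singleton_iff.mp hb]
      have : (Cfsg.support₂ (1 : Cfsg.GolayPt → ZMod 2)).card = 24 := by decide +kernel
      rw [this]; decide
  | zero =>
    have : Cfsg.support₂ (0 : Cfsg.GolayPt → ZMod 2) = ∅ := by ext i; simp [mem_support]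
    rw [this]; simp
  | add x y hx hy ihx ihy =>
    have ihx := ihx (by assumption)
    have ihy := ihy (by assumption)
    have h1 : Cfsg.support₂ (x + y) = symmDiff (Cfsg.support₂ x) (Cfsg.support₂ y) := by
      ext i
      simp only [mem_symmDiff, mem_support, Pi.add_apply]
      generalize x i = a
      generalize y i = b
      revert a b; decide
    rw [h1]
    have h2 := card_symmDiff_add (Cfsg.support₂ x) (Cfsg.support₂ y)
    have h3 : 2 ∣ (Cfsg.support₂ x ∩ Cfsg.support₂ y).card :=
      even_inter ⟨x, hx, rfl⟩ ⟨y, hy, rfl⟩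
    omega
  | smul c x _ ih =>
    have ih := ih (by assumption)
    have hc : ∀ c : ZMod 2, c = 0 ∨ c = 1 := by decide
    rcases hc c with rfl | rfl
    · have : Cfsg.support₂ ((0 : ZMod 2) • x) = ∅ := by ext i; simp [mem_support]
      rw [this]; simp
    · rw [one_smul]; exact ih

theorem neg_even_mod (a m k : ℤ) (h : a ≡ m [ZMOD 2]) (hk : k ≡ m [ZMOD 2]) (hm : m % 2 = 0) :
    (-a ≡ k [ZMOD 4]) ↔ (a ≡ k [ZMOD 4]) := by
  unfold Int.ModEq at *
  constructor <;> intro h' <;> omega

theorem neg_odd_mod (a m k : ℤ) (h : a ≡ m [ZMOD 2]) (hk : k ≡ m [ZMOD 2]) (hm : m % 2 = 1) :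
    (-a ≡ k [ZMOD 4]) ↔ ¬ (a ≡ k [ZMOD 4]) := by
  unfold Int.ModEq at *
  constructor <;> intro h' <;> omega

/-- Sign changes on the support of a codeword preserve the generating set. -/
theorem leechSet_sign (c : Finset Cfsg.GolayPt)
    (hc : c ∈ Cfsg.supports (Cfsg.golayCode : Set (Cfsg.GolayPt → ZMod 2)))
    (x : Cfsg.GolayPt → ℤ) (hx : x ∈ Cfsg.leechSet) :
    (fun i => if i ∈ c then -x i else x i) ∈ Cfsg.leechSet := by
  obtain ⟨m, h1, h2, h3⟩ := hx
  refine ⟨m, fun i => ?_, ?_, fun k => ?_⟩
  · have := h1 i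
    beta_reduce
    split_ifs
    · unfold Int.ModEq at this ⊢; omega
    · exact this
  · have hs : ∑ i, (if i ∈ c then -x i else x i) = ∑ i, x i - 2 * ∑ i ∈ c, x i := by
      have : ∑ i ∈ c, x i = ∑ i, if i ∈ c then x i else 0 := by
        rw [Finset.sum_ite_mem, Finset.univ_inter]
      rw [this, Finset.mul_sum, ← Finset.sum_sub_distrib]
      refine Finset.sum_congr rfl fun i _ => ?_
      split_ifs <;> ring
    have h4 : (4 : ℤ) ∣ ∑ i ∈ c, x i := by
      set A := Finset.univ.filter fun i => x i ≡ m + 2 [ZMOD 4] with hA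
      have hA' := even_inter hc (h3 (m + 2))
      rw [← hA] at hA'
      have hcard := four_dvd_card hc
      have h5 : ∑ i ∈ c, x i ≡ ∑ i ∈ c, (m + if i ∈ A then 2 else 0) [ZMOD 4] := by
        apply Int.ModEq.sum
        intro i _
        have h6 := h1 i
        by_cases hi : i ∈ A
        · rw [if_pos hi]
          exact (Finset.mem_filter.mp hi).2
        · rw [if_neg hi]
          have h7 : ¬ (x i ≡ m + 2 [ZMOD 4]) := fun h => hi (Finset.mem_filter.mpr ⟨mem_univ _, h⟩)
          unfold Int.ModEq at *
          omega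
      rw [Finset.sum_add_distrib, Finset.sum_const, Finset.sum_ite_mem, Finset.sum_const] at h5
      obtain ⟨a, ha⟩ := hA'
      obtain ⟨b, hb⟩ := hcard
      rw [ha, hb] at h5
      have h6 : (4 : ℤ) ∣ (4 * b) • m + (2 * a) • 2 := by
        refine ⟨b * m + a, ?_⟩
        simp only [nsmul_eq_mul, Nat.cast_mul, Nat.cast_ofNat]
        ring
      exact (Int.modEq_zero_iff_dvd.mp (h5.trans (Int.modEq_zero_iff_dvd.mpr h6)))
    rw [hs]
    obtain ⟨a, ha⟩ := h4
    rw [ha]
    unfold Int.ModEq at *
    omega
  · by_cases hkm : k ≡ m [ZMOD 2]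
    · rcases Int.emod_two_eq_zero_or_one m with hm | hm
      · have : (Finset.univ.filter fun i => (if i ∈ c then -x i else x i) ≡ k [ZMOD 4])
            = (Finset.univ.filter fun i => x i ≡ k [ZMOD 4]) := by
          ext i
          simp only [mem_filter, mem_univ, true_and]
          by_cases hi : i ∈ c
          · rw [if_pos hi]; exact neg_even_mod _ _ _ (h1 i) hkm hm
          · rw [if_neg hi]
        rw [this]
        exact h3 k
      · have : (Finset.univ.filter fun i => (if i ∈ c then -x i else x i) ≡ k [ZMOD 4])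
            = symmDiff (Finset.univ.filter fun i => x i ≡ k [ZMOD 4]) c := by
          ext i
          simp only [mem_filter, mem_univ, true_and, mem_symmDiff]
          by_cases hi : i ∈ c
          · rw [if_pos hi, neg_odd_mod _ _ _ (h1 i) hkm hm]; tauto
          · rw [if_neg hi]; tauto
        rw [this]
        exact symmDiff_mem (h3 k) hc
    · have : (Finset.univ.filter fun i => (if i ∈ c then -x i else x i) ≡ k [ZMOD 4]) = ∅ := by
        apply Finset.filter_false_of_mem
        intro i _
        have := h1 i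
        unfold Int.ModEq at *
        split_ifs <;> omega
      rw [this]
      exact empty_mem

/-- Sign changes on the support of a codeword preserve the lattice. -/
theorem result (c : Finset Cfsg.GolayPt) (hc : c ∈ Cfsg.supports (Cfsg.golayCode : Set (Cfsg.GolayPt → ZMod 2))) (x : Cfsg.GolayPt → ℤ) (hx : x ∈ Cfsg.leechLattice) : (fun i => if i ∈ c then -x i else x i) ∈ Cfsg.leechLattice := by
  have hx' : x ∈ AddSubgroup.closure Cfsg.leechSet := hx
  change (fun i => if i ∈ c then -x i else x i) ∈ AddSubgroup.closure Cfsg.leechSet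
  induction hx' using AddSubgroup.closure_induction with
  | mem y hy => exact AddSubgroup.subset_closure (leechSet_sign c hc y hy)
  | zero =>
    have : (fun i => if i ∈ c then -((0 : Cfsg.GolayPt → ℤ) i) else (0 : Cfsg.GolayPt → ℤ) i) = 0 := by
      funext i; simp
    rw [this]; exact zero_mem _
  | add y z hy hz ihy ihz =>
    have : (fun i => if i ∈ c then -((y + z) i) else (y + z) i)
        = (fun i => if i ∈ c then -y i else y i) + (fun i => if i ∈ c then -z i else z i) := by
      funext i
      simp only [Pi.add_apply]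
      split_ifs <;> ring
    rw [this]
    exact add_mem (ihy hy) (ihz hz)
  | neg y hy ihy =>
    have : (fun i => if i ∈ c then -((-y) i) else (-y) i)
        = -(fun i => if i ∈ c then -y i else y i) := by
      funext i
      simp only [Pi.neg_apply]
      split_ifs <;> ring
    rw [this]
    exact neg_mem (ihy hy)

end Cfsg.Agent.S0433
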