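import Mathlib
import Cfsg.Statements.S0442
set_option linter.all false
-- import your own Cfsg.Agent.* helpers here

set_option autoImplicit false
open Cfsg

namespace Cfsg.Agent.S0442

/-- A standard trick for producing elements of an involution centraliser: for an involution a and an element g, let b be the conjugate g⁻¹ * a * g. If a * b has odd order 2m + 1 then g * (a * b) ^ m commutes with a; if a * b has even order 2m then (a * b) ^ m and (a * (g * a * g⁻¹)) ^ m commute with a. -/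
theorem result {G : Type*} [Group G] (a g : G) (ha : orderOf a = 2) : (∀ m : ℕ, orderOf (a * (g⁻¹ * a * g)) = 2 * m + 1 → Commute (g * (a * (g⁻¹ * a * g)) ^ m) a) ∧ (∀ m : ℕ, orderOf (a * (g⁻¹ * a * g)) = 2 * m → Commute ((a * (g⁻¹ * a * g)) ^ m) a ∧ Commute ((a * (g * a * g⁻¹)) ^ m) a) := by
  have haa : a * a = 1 := by
    have := pow_orderOf_eq_one a
    rwa [ha, pow_two] at this
  have hainv : a⁻¹ = a := by
    rw [inv_eq_iff_mul_eq_one]; exact haa
  -- general: for c with c * c = 1, (a c)^n * a = a * ((a c)^n)⁻¹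
  have key : ∀ c : G, c * c = 1 → ∀ n : ℕ, (a * c) ^ n * a = a * ((a * c) ^ n)⁻¹ := by
    intro c hc n
    have hcinv : c⁻¹ = c := by
      rw [inv_eq_iff_mul_eq_one]; exact hc
    have h1 : a⁻¹ * (a * c) * a = (a * c)⁻¹ := by
      rw [mul_inv_rev, hcinv, hainv]
      simp only [← mul_assoc, haa, one_mul]
    have h2 : a⁻¹ * (a * c) ^ n * a = ((a * c) ^ n)⁻¹ := by
      have h3 : (a⁻¹ * (a * c) * a) ^ n = a⁻¹ * (a * c) ^ n * a := by
        have := conj_pow (i := n) (a := a⁻¹) (b := a * c)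
        simpa using this
      rw [← h3, h1, inv_pow]
    calc (a * c) ^ n * a = a * (a⁻¹ * (a * c) ^ n * a) := by group
      _ = a * ((a * c) ^ n)⁻¹ := by rw [h2]
  have hbb : (g⁻¹ * a * g) * (g⁻¹ * a * g) = 1 := by
    have : (g⁻¹ * a * g) * (g⁻¹ * a * g) = g⁻¹ * (a * a) * g := by group
    rw [this, haa]; group
  have hbb' : (g * a * g⁻¹) * (g * a * g⁻¹) = 1 := by
    have : (g * a * g⁻¹) * (g * a * g⁻¹) = g * (a * a) * g⁻¹ := by group
    rw [this, haa]; group
  have even_case : ∀ c : G, c * c = 1 → ∀ m : ℕ, (a * c) ^ (2 * m) = 1 → Commute ((a * c) ^ m) a := by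
    intro c hc m hm
    have h1 := key c hc m
    have h2 : ((a * c) ^ m)⁻¹ = (a * c) ^ m := by
      rw [inv_eq_iff_mul_eq_one, ← pow_add, ← two_mul]; exact hm
    rw [h2] at h1
    exact h1
  refine ⟨?_, ?_⟩
  · intro m hm
    set b := g⁻¹ * a * g with hb
    have hag : a * g = g * b := by rw [hb]; group
    have h1 := key b hbb m
    have hord : (a * b) ^ (2 * m + 1) = 1 := by rw [← hm]; exact pow_orderOf_eq_one _
    have h2 : ((a * b) ^ m)⁻¹ = (a * b) ^ (m + 1) := by
      rw [inv_eq_iff_mul_eq_one, ← pow_add]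
      have : m + (m + 1) = 2 * m + 1 := by ring
      rw [this]; exact hord
    rw [h2] at h1
    show g * (a * b) ^ m * a = a * (g * (a * b) ^ m)
    rw [mul_assoc, h1, ← mul_assoc a g, hag, pow_succ']
    simp only [← mul_assoc]
    rw [mul_assoc g a a, haa, mul_one]
  · intro m hm
    have hord : (a * (g⁻¹ * a * g)) ^ (2 * m) = 1 := by rw [← hm]; exact pow_orderOf_eq_one _
    refine ⟨even_case _ hbb m hord, even_case _ hbb' m ?_⟩
    -- (a * (g a g⁻¹)) = conj of inverse
    have h3 : a * (g * a * g⁻¹) = g * (a * (g⁻¹ * a * g))⁻¹ * g⁻¹ := by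
      have : (a * (g⁻¹ * a * g))⁻¹ = g⁻¹ * a⁻¹ * g * a⁻¹ := by group
      rw [this, hainv]; group
    rw [h3, conj_pow, inv_pow, hord]; group

end Cfsg.Agent.S0442
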