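import Mathlib
import Cfsg.Statements.S0443
set_option linter.all false
-- import your own Cfsg.Agent.* helpers here

set_option autoImplicit false
open Cfsg

namespace Cfsg.Agent.S0443

/-- Two definitions of a 2-central involution agree: an element t of order 2 of a finite group lies in the centre of some Sylow 2-subgroup if and only if its centraliser contains some Sylow 2-subgroup. -/
theorem result {G : Type*} [Group G] [Finite G] (t : G) (ht : orderOf t = 2) : Cfsg.IsTwoCentralInvolution t ↔ ∃ P : Sylow 2 G, (P : Subgroup G) ≤ Subgroup.centralizer ({t} : Set G) := by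
  constructor
  · rintro ⟨-, P, -, hP⟩
    refine ⟨P, ?_⟩
    intro x hx
    rw [Subgroup.mem_centralizer_singleton_iff]
    exact hP x hx
  · rintro ⟨P, hP⟩
    refine ⟨ht, P, ?_, ?_⟩
    · -- P ⊔ zpowers t is a 2-group
      have hz : IsPGroup 2 (Subgroup.zpowers t) := by
        rw [IsPGroup.iff_card]
        exact ⟨1, by rw [Nat.card_zpowers, ht, pow_one]⟩
      have hn : Subgroup.zpowers t ≤ Subgroup.normalizer ((P : Subgroup G) : Set G) := by
        rw [Subgroup.zpowers_le]
        rw [Subgroup.mem_normalizer_iff]
        intro x
        constructor
        · intro hx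
          have := Subgroup.mem_centralizer_singleton_iff.1 (hP hx)
          rw [← this, mul_assoc, mul_inv_cancel, mul_one]
          exact hx
        · intro hx
          have := Subgroup.mem_centralizer_singleton_iff.1 (hP hx)
          have h2 : x = t * x * t⁻¹ := by
            have h3 : t * x * t⁻¹ * t = t * (t * x * t⁻¹) := this
            have h4 : t * x = t * (t * x * t⁻¹) := by
              rw [← h3]; group
            exact mul_left_cancel h4
          rw [h2]; exact hx
      have hsup : IsPGroup 2 ((P : Subgroup G) ⊔ Subgroup.zpowers t : Subgroup G) := by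
        rw [sup_comm]
        exact IsPGroup.to_sup_of_normal_right' hz P.isPGroup' hn
      have := P.is_maximal' hsup le_sup_left
      show t ∈ (P : Subgroup G)
      rw [← this]
      exact (le_sup_right : Subgroup.zpowers t ≤ _) (Subgroup.mem_zpowers t)
    · intro x hx
      exact Subgroup.mem_centralizer_singleton_iff.1 (hP hx)

end Cfsg.Agent.S0443
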