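import Cfsg.Statements.S0445
import Mathlib
set_option linter.all false

set_option autoImplicit false
open Cfsg

namespace Cfsg.Agent.S0445

/-- The matrices of size three and determinant one over the field with two elements. -/
theorem card_det_one_three :
    Nat.card {A : Matrix (Fin 3) (Fin 3) (ZMod 2) // A.det = 1} = 168 := by
  have hall : ∀ x : ZMod 2, x ≠ 0 → x = 1 := by decide
  let e : Matrix.GeneralLinearGroup (Fin 3) (ZMod 2) ≃
      {A : Matrix (Fin 3) (Fin 3) (ZMod 2) // A.det = 1} :=
    { toFun := fun g => ⟨g.1, hall _ ((Matrix.isUnit_iff_isUnit_det _).mp g.isUnit).ne_zero⟩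
      invFun := fun A => Matrix.GeneralLinearGroup.mkOfDetNeZero A.1 (by rw [A.2]; exact one_ne_zero)
      left_inv := fun g => by ext; rfl
      right_inv := fun A => by ext; rfl }
  rw [← Nat.card_congr e, Matrix.card_GL_field]
  simp [Fin.prod_univ_succ, ZMod.card]

/-- The general element of the centraliser. -/
def mk (A : Matrix (Fin 3) (Fin 3) (ZMod 2)) (u v : Fin 3 → ZMod 2) (c : ZMod 2) :
    Matrix (Fin 5) (Fin 5) (ZMod 2) :=
  Matrix.of (Fin.cons (Fin.cons 1 (Fin.cons c u)) (Fin.cons (Fin.cons 0 (Fin.cons 1 0))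
    (fun i => Fin.cons 0 (Fin.cons (v i) (A i)))))

theorem det_mk (A : Matrix (Fin 3) (Fin 3) (ZMod 2)) (u v : Fin 3 → ZMod 2) (c : ZMod 2) :
    (mk A u v c).det = A.det := by
  rw [Matrix.det_succ_column_zero, Fin.sum_univ_succ, Finset.sum_eq_zero]
  · rw [Matrix.det_succ_row_zero, Fin.sum_univ_succ, Finset.sum_eq_zero]
    · have h1 : mk A u v c 0 0 = 1 := rfl
      have h2 : ((mk A u v c).submatrix (Fin.succAbove 0) Fin.succ) 0 0 = 1 := rfl
      have h3 : (((mk A u v c).submatrix (Fin.succAbove 0) Fin.succ).submatrix Fin.succ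
          (Fin.succAbove 0)) = A := rfl
      rw [h1, h2, h3]
      simp
    · intro j _
      have h2 : ((mk A u v c).submatrix (Fin.succAbove 0) Fin.succ) 0 j.succ = 0 := rfl
      rw [h2]
      simp
  · intro i _
    have h2 : (mk A u v c) i.succ 0 = 0 := by
      refine Fin.cases ?_ (fun j => ?_) i <;> rfl
    rw [h2]
    simp

theorem mul_transvection_iff (g : Matrix (Fin 5) (Fin 5) (ZMod 2)) :
    g * Matrix.transvection 0 1 1 = Matrix.transvection 0 1 1 * g ↔
      (∀ i, i ≠ 0 → g i 0 = 0) ∧ (∀ j, j ≠ 1 → g 1 j = 0) ∧ g 0 0 = g 1 1 := by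
  rw [Matrix.transvection, mul_add, add_mul, mul_one, one_mul, add_right_inj]
  constructor
  · intro h
    refine ⟨fun i hi => ?_, fun j hj => ?_, ?_⟩
    · have := congr_fun (congr_fun h i) 1
      rw [Matrix.mul_single_apply_same, Matrix.single_mul_apply_of_ne _ _ _ _ _ hi] at this
      simpa using this
    · have := congr_fun (congr_fun h 0) j
      rw [Matrix.single_mul_apply_same, Matrix.mul_single_apply_of_ne _ _ _ _ _ hj] at this
      simpa using this.symm
    · have := congr_fun (congr_fun h 0) 1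
      rw [Matrix.single_mul_apply_same, Matrix.mul_single_apply_same] at this
      simpa using this
  · rintro ⟨h1, h2, h3⟩
    ext i j
    by_cases hi : i = 0 <;> by_cases hj : j = 1
    · subst hi; subst hj
      rw [Matrix.single_mul_apply_same, Matrix.mul_single_apply_same]
      simpa using h3
    · subst hi
      rw [Matrix.single_mul_apply_same, Matrix.mul_single_apply_of_ne _ _ _ _ _ hj]
      simpa using (h2 j hj).symm
    · subst hj
      rw [Matrix.mul_single_apply_same, Matrix.single_mul_apply_of_ne _ _ _ _ _ hi]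
      simpa using (h1 i hi)
    · rw [Matrix.mul_single_apply_of_ne _ _ _ _ _ hj, Matrix.single_mul_apply_of_ne _ _ _ _ _ hi]

theorem det_eq_zero_of_col {g : Matrix (Fin 5) (Fin 5) (ZMod 2)} (h : ∀ i, g i 0 = 0) :
    g.det = 0 := Matrix.det_eq_zero_of_column_eq_zero 0 h

theorem eq_mk {g : Matrix (Fin 5) (Fin 5) (ZMod 2)} (hg : g.det = 1)
    (h1 : ∀ i, i ≠ 0 → g i 0 = 0) (h2 : ∀ j, j ≠ 1 → g 1 j = 0) (h3 : g 0 0 = g 1 1) :
    g = mk (fun i j => g i.succ.succ j.succ.succ) (fun j => g 0 j.succ.succ)
      (fun i => g i.succ.succ 1) (g 0 1) := by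
  have hall : ∀ x : ZMod 2, x ≠ 0 → x = 1 := by decide
  have h00 : g 0 0 = 1 := by
    apply hall
    intro h0
    have : g.det = 0 := by
      apply det_eq_zero_of_col
      intro i
      by_cases hi : i = 0
      · rw [hi, h0]
      · exact h1 i hi
    rw [this] at hg
    exact zero_ne_one hg
  have h11 : g 1 1 = 1 := by rw [← h3, h00]
  ext i j
  refine Fin.cases ?_ (fun i => ?_) i
  · refine Fin.cases h00 (fun j => ?_) j
    refine Fin.cases rfl (fun j => rfl) j
  · refine Fin.cases ?_ (fun i => ?_) i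
    · refine Fin.cases (h2 0 (by decide)) (fun j => ?_) j
      refine Fin.cases h11 (fun j => h2 _ ?_) j
      intro h
      have := congr_arg Fin.val h
      simp at this
    · refine Fin.cases (h1 _ (Fin.succ_ne_zero _)) (fun j => ?_) j
      refine Fin.cases rfl (fun j => rfl) j

/-- In the special linear group of dimension 5 over the field with two elements, the centraliser of a transvection has order 21504 = 2 ^ 7 · 168 (it is an extension of an extraspecial group of order 2 ^ 7 by the simple group of order 168). -/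
theorem result (s : Matrix.SpecialLinearGroup (Fin 5) (ZMod 2)) (hs : (s : Matrix (Fin 5) (Fin 5) (ZMod 2)) = Matrix.transvection 0 1 1) : Nat.card (Subgroup.centralizer ({s} : Set (Matrix.SpecialLinearGroup (Fin 5) (ZMod 2)))) = 21504 := by
  have hmem : ∀ g : Matrix.SpecialLinearGroup (Fin 5) (ZMod 2),
      g ∈ Subgroup.centralizer ({s} : Set (Matrix.SpecialLinearGroup (Fin 5) (ZMod 2))) ↔
      (∀ i, i ≠ 0 → g i 0 = 0) ∧ (∀ j, j ≠ 1 → g 1 j = 0) ∧ g 0 0 = g 1 1 := by
    intro g
    rw [Subgroup.mem_centralizer_singleton_iff, ← mul_transvection_iff, ← hs,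
      ← Matrix.SpecialLinearGroup.coe_mul, ← Matrix.SpecialLinearGroup.coe_mul]
    constructor
    · intro h; rw [h]
    · intro h; exact Subtype.ext h
  let e : Subgroup.centralizer ({s} : Set (Matrix.SpecialLinearGroup (Fin 5) (ZMod 2))) ≃
      {A : Matrix (Fin 3) (Fin 3) (ZMod 2) // A.det = 1} × (Fin 3 → ZMod 2) × (Fin 3 → ZMod 2) ×
        ZMod 2 :=
    { toFun := fun g => ⟨⟨fun i j => g.1.1 i.succ.succ j.succ.succ, by
          have h := (hmem g.1).mp g.2
          have h' := eq_mk g.1.2 h.1 h.2.1 h.2.2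
          exact (det_mk _ _ _ _).symm.trans ((congr_arg Matrix.det h').symm.trans g.1.2)⟩, fun j => g.1.1 0 j.succ.succ, fun i => g.1.1 i.succ.succ 1, g.1.1 0 1⟩
      invFun := fun x => ⟨⟨mk x.1.1 x.2.1 x.2.2.1 x.2.2.2, by rw [det_mk]; exact x.1.2⟩, by
          refine (hmem _).mpr ⟨fun i hi => ?_, fun j hj => ?_, rfl⟩
          · revert hi
            refine Fin.cases (fun h => absurd rfl h) (fun i _ => ?_) i
            exact Fin.cases rfl (fun i => rfl) i
          · revert hj
            refine Fin.cases (fun _ => rfl) (fun j => ?_) j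
            exact Fin.cases (fun h => absurd rfl h) (fun j _ => rfl) j⟩
      left_inv := fun g => by
        have h := (hmem g.1).mp g.2
        exact Subtype.ext (Subtype.ext (eq_mk g.1.2 h.1 h.2.1 h.2.2).symm)
      right_inv := fun x => rfl }
  rw [Nat.card_congr e, Nat.card_prod, Nat.card_prod, Nat.card_prod, card_det_one_three]
  simp

end Cfsg.Agent.S0445
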