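import Mathlib
import Cfsg.Agent.J2Type.CStruct
import Cfsg.Agent.J2Type.ModelExists
import Cfsg.Agent.J2Type.Fusion
import Cfsg.Statements.S0455
import Cfsg.Agent.J3Type.CardOneClass
import Cfsg.Agent.J3Type.TwoCentral
import Cfsg.Agent.J2Type.Order
set_option linter.all false

-- part: J3Type/FusionLemma
section
/-!
# If `z` is not isolated in `C(z)` then it is conjugate to a non-central involution of `Q`
-/

set_option autoImplicit false

namespace Cfsg.Agent.J3Type.FusionLemma

open Cfsg.Agent.J2Type.Model Cfsg.Agent.J2Type.CStruct Cfsg.Agent.J2Type.SPFacts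
  Cfsg.Agent.J2Type.Fusion Cfsg.Agent.J2Type.ModelExists

/-- The involutions of `Q` other than `z` commuting with an outer involution `u` are `a` and `z a`. -/
theorem exists_pair {C : Type*} [Group C] {Q : Subgroup C} {z : C} {v : Fin 5 → C} {ρ : C →* SP}
    (M : IsModel Q z v ρ) [Q.Normal] {u : C} (hu : u * u = 1) (huQ : u ∉ Q) :
    ∃ a : C, ∀ y : C, (y ∈ Q ∧ y * y = 1 ∧ y ≠ 1 ∧ y ≠ z ∧ y * u = u * y) ↔ (y = a ∨ y = z * a) := by
  obtain ⟨k, x0, h0, hsq, hk⟩ := exists_x0 M hu huQ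
  refine ⟨k⁻¹ * v 4 * k, ?_⟩
  intro y
  have hzz : z * (k⁻¹ * v 4 * k) = k⁻¹ * (z * v 4) * k := by
    have := M.z_comm k⁻¹
    calc z * (k⁻¹ * v 4 * k) = (z * k⁻¹) * v 4 * k := by group
      _ = (k⁻¹ * z) * v 4 * k := by rw [this]
      _ = _ := by group
  have hcomm : y * u = u * y ↔ (k * y * k⁻¹) * x0 = x0 * (k * y * k⁻¹) := by
    rw [← hk]; exact (conj_comm_iff k u y).symm
  have hmem : y ∈ Q ↔ k * y * k⁻¹ ∈ Q := by
    constructor
    · intro h; exact Subgroup.Normal.conj_mem inferInstance _ h k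
    · intro h
      have h2 : y = k⁻¹ * (k * y * k⁻¹) * k⁻¹⁻¹ := by group
      rw [h2]
      exact Subgroup.Normal.conj_mem inferInstance _ h k⁻¹
  constructor
  · rintro ⟨h1, h2, h3, h4, h5⟩
    have e1 := hmem.1 h1
    have e2 := (conj_sq_iff k y).2 h2
    have e3 : k * y * k⁻¹ ≠ 1 := by
      intro h; apply h3
      have : y = k⁻¹ * (k * y * k⁻¹) * k := by group
      rw [this, h]; group
    have e4 : k * y * k⁻¹ ≠ z := by
      intro h; apply h4
      have h6 : y = k⁻¹ * (k * y * k⁻¹) * k := by group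
      rw [h6, h, M.z_comm]; group
    rcases invol_Q M e1 e2 e3 with h | ⟨a, i, h⟩
    · exact absurd h e4
    · have e5 := hcomm.1 h5
      rw [h] at e5
      have e6 := (invol_Q_cent_x0 M h0 a i).1 e5
      subst e6
      have h6 : y = k⁻¹ * (k * y * k⁻¹) * k := by group
      rcases zmod2_cases a with rfl | rfl
      · left; rw [h6, h, zp_zero, one_mul]
      · right; rw [hzz, h6, h, zp_one]
  · have key : ∀ a : ZMod 2, k * y * k⁻¹ = zp z a * v 4 →
        (y ∈ Q ∧ y * y = 1 ∧ y ≠ 1 ∧ y ≠ z ∧ y * u = u * y) := by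
      intro a ha
      refine ⟨hmem.2 ?_, (conj_sq_iff k y).1 ?_, ?_, ?_, hcomm.2 ?_⟩
      · rw [ha]; exact zv_mem M _ _
      · rw [ha]; exact zv_sq M _ _
      · rintro rfl
        apply v_ne_one M 4 a
        rw [← ha]; group
      · rintro rfl
        apply zv_ne_z M a 4
        rw [← ha, M.z_comm]; group
      · rw [ha]; exact (invol_Q_cent_x0 M h0 a 4).2 rfl
    rintro (h | h)
    · apply key 0
      rw [h, zp_zero]; group
    · apply key 1
      rw [h, hzz, zp_one]; group

/-- **Fusion lemma.** -/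
theorem hnwc_of_conj {G : Type*} [Group G] [Finite G] (z : G) (hz : orderOf z = 2)
    (Q : Subgroup (Subgroup.centralizer ({z} : Set G))) [Q.Normal]
    (hQ : Cfsg.IsExtraspecial 2 Q) (hcard : Nat.card Q = 32)
    (hC : Subgroup.centralizer (Q : Set (Subgroup.centralizer ({z} : Set G))) ≤ Q)
    (h60 : Nat.card ((Subgroup.centralizer ({z} : Set G)) ⧸ Q) = 60)
    (g : G) (hg : g * z * g⁻¹ ≠ z) (hgc : (g * z * g⁻¹) * z = z * (g * z * g⁻¹)) :
    ∃ g : G, (∃ hq : g * z * g⁻¹ ∈ Subgroup.centralizer ({z} : Set G),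
      (⟨g * z * g⁻¹, hq⟩ : Subgroup.centralizer ({z} : Set G)) ∈ Q) ∧ g * z * g⁻¹ ≠ z := by
  by_contra hcon
  push Not at hcon
  obtain ⟨z', v, ρ, M⟩ := exists_model Q hQ hcard hC h60
  obtain ⟨hzz, hz1⟩ := (orderOf_two_iff z).1 hz
  have memC : ∀ x : G, x ∈ Subgroup.centralizer ({z} : Set G) ↔ x * z = z * x := by
    intro x
    rw [Subgroup.mem_centralizer_singleton_iff]
  have hzC : z ∈ Subgroup.centralizer ({z} : Set G) := (memC z).2 rfl
  have hz' : (z' : G) = z := by
    rcases eq_of_comm_v M (c := ⟨z, hzC⟩) (fun i => Subtype.ext ((memC _).1 (v i).2).symm) with h | h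
    · exact absurd (congrArg Subtype.val h) hz1
    · exact (congrArg Subtype.val h).symm
  have hza : ∀ a : Subgroup.centralizer ({z} : Set G),
      ((z' * a : Subgroup.centralizer ({z} : Set G)) : G) = z * (a : G) :=
    fun a => congrArg (fun t : G => t * (a : G)) hz'
  -- conjugates of `z` in `C` other than `z` are outer involutions
  have hout : ∀ (x : Subgroup.centralizer ({z} : Set G)), IsConj z (x : G) → (x : G) ≠ z →
      x ∉ Q ∧ x * x = 1 := by
    intro x hx hxz
    obtain ⟨k, hk⟩ := isConj_iff.1 hx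
    constructor
    · intro hxQ
      have hm : k * z * k⁻¹ ∈ Subgroup.centralizer ({z} : Set G) := by rw [hk]; exact x.2
      apply hxz
      rw [← hk]
      apply hcon k ⟨hm, ?_⟩
      have : (⟨k * z * k⁻¹, hm⟩ : Subgroup.centralizer ({z} : Set G)) = x := Subtype.ext hk
      rw [this]; exact hxQ
    · apply Subtype.ext
      show (x : G) * (x : G) = 1
      rw [← hk]; exact (conj_sq_iff k z).2 hzz
  -- the property R
  have R : ∀ u : G, IsConj z u → u ≠ z → u * z = z * u →
      ∃ a : G, ∀ y : G, (y * z = z * y ∧ y * u = u * y ∧ y * y = 1 ∧ y ≠ 1 ∧ ¬ IsConj z y) ↔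
        (y = a ∨ y = z * a) := by
    intro u hu huz huc
    have hm : u ∈ Subgroup.centralizer ({z} : Set G) := (memC u).2 huc
    obtain ⟨h1, h2⟩ := hout ⟨u, hm⟩ hu huz
    obtain ⟨a, ha⟩ := exists_pair M h2 h1
    refine ⟨a, ?_⟩
    intro y
    constructor
    · rintro ⟨b1, b2, b3, b4, b5⟩
      have hy : y ∈ Subgroup.centralizer ({z} : Set G) := (memC y).2 b1
      have hyQ : (⟨y, hy⟩ : Subgroup.centralizer ({z} : Set G)) ∈ Q := by
        by_contra hyQ
        obtain ⟨k, hk⟩ := outer_conj M h2 h1 (y := ⟨y, hy⟩) (Subtype.ext b3) hyQ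
        apply b5
        exact hu.trans (isConj_iff.2 ⟨k, congrArg Subtype.val hk⟩)
      have := (ha ⟨y, hy⟩).1 ⟨hyQ, Subtype.ext b3, fun h => b4 (congrArg Subtype.val h), ?_,
        Subtype.ext b2⟩
      · rcases this with h | h
        · left; exact congrArg Subtype.val h
        · right
          have h3 : y = ((z' * a : Subgroup.centralizer ({z} : Set G)) : G) := congrArg Subtype.val h
          exact h3.trans (hza a)
      · intro h
        apply b5
        have h3 : y = z := (congrArg Subtype.val h).trans hz'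
        rw [h3]
    · intro h
      have h3 : ∃ y' : Subgroup.centralizer ({z} : Set G), (y' : G) = y ∧ (y' = a ∨ y' = z' * a) := by
        rcases h with h | h
        · exact ⟨a, h.symm, Or.inl rfl⟩
        · exact ⟨z' * a, (hza a).trans h.symm, Or.inr rfl⟩
      obtain ⟨y', rfl, hy'⟩ := h3
      obtain ⟨c1, c2, c3, c4, c5⟩ := (ha y').2 hy'
      refine ⟨(memC _).1 y'.2, congrArg Subtype.val c5, congrArg Subtype.val c2,
        fun h => c3 (Subtype.ext h), ?_⟩
      intro hcj
      exact (hout y' hcj (fun h => c4 (Subtype.ext (h.trans hz'.symm)))).1 c1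
  have hc1 : IsConj z (g * z * g⁻¹) := isConj_iff.2 ⟨g, rfl⟩
  have hc2 : IsConj z (g⁻¹ * z * g) := isConj_iff.2 ⟨g⁻¹, by group⟩
  have hne2 : g⁻¹ * z * g ≠ z := by
    intro h; apply hg
    calc g * z * g⁻¹ = g * (g⁻¹ * z * g) * g⁻¹ := by rw [h]
      _ = z := by group
  have hcom2 : (g⁻¹ * z * g) * z = z * (g⁻¹ * z * g) := by
    calc (g⁻¹ * z * g) * z = g⁻¹ * (z * (g * z * g⁻¹)) * g := by group
      _ = g⁻¹ * ((g * z * g⁻¹) * z) * g := by rw [hgc]
      _ = _ := by group
  obtain ⟨a, ha⟩ := R _ hc1 hg hgc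
  obtain ⟨b, hb⟩ := R _ hc2 hne2 hcom2
  -- transport
  have tr : ∀ y : G, (y = b ∨ y = z * b) → (g * y * g⁻¹ = a ∨ g * y * g⁻¹ = z * a) := by
    intro y hy
    obtain ⟨d1, d2, d3, d4, d5⟩ := (hb y).2 hy
    apply (ha _).1
    refine ⟨?_, ?_, (conj_sq_iff g y).2 d3, ?_, ?_⟩
    · calc (g * y * g⁻¹) * z = g * (y * (g⁻¹ * z * g)) * g⁻¹ := by group
        _ = g * ((g⁻¹ * z * g) * y) * g⁻¹ := by rw [d2]
        _ = _ := by group
    · exact (conj_comm_iff g z y).2 d1
    · intro h; apply d4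
      calc y = g⁻¹ * (g * y * g⁻¹) * g := by group
        _ = 1 := by rw [h]; group
    · intro h; apply d5
      exact h.trans (isConj_iff.2 ⟨g⁻¹, by group⟩)
  set b' := g * b * g⁻¹ with hb'
  have t1 := tr b (Or.inl rfl)
  have t2 := tr (z * b) (Or.inr rfl)
  have e1 : g * (z * b) * g⁻¹ = (g * z * g⁻¹) * b' := by rw [hb']; group
  rw [e1] at t2
  rw [← hb'] at t1
  have hu1 : g * z * g⁻¹ ≠ 1 := by
    intro h; apply hz1
    calc z = g⁻¹ * (g * z * g⁻¹) * g := by group
      _ = 1 := by rw [h]; group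
  rcases t1 with h1 | h1 <;> rcases t2 with h2 | h2
  · rw [h1] at h2; exact hu1 (mul_eq_right.1 h2)
  · rw [h1] at h2; exact hg (mul_right_cancel h2)
  · rw [h1] at h2
    have h3 : (g * z * g⁻¹ * z) * a = a := by rw [mul_assoc]; exact h2
    have h4 := mul_eq_right.1 h3
    apply hg
    exact (mul_eq_one_iff_eq_inv.1 h4).trans (inv_eq_of_mul_eq_one_left hzz)
  · rw [h1] at h2; exact hu1 (mul_eq_right.1 h2)

end Cfsg.Agent.J3Type.FusionLemma
end

-- part: S0455
section
set_option autoImplicit false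
open Cfsg

namespace Cfsg.Agent.S0455

/-- Janko's second and third groups: let G be finite simple with a 2-central involution t whose centraliser C contains a normal extraspecial subgroup E of order 32 with C/E isomorphic to the alternating group of degree 5. Then G has order 604800 or 50232960. -/
theorem result {G : Type*} [Group G] [Finite G] [IsSimpleGroup G] (t : G) (ht : Cfsg.IsTwoCentralInvolution t) (E : Subgroup (Subgroup.centralizer ({t} : Set G))) [E.Normal] (hE : Nat.card E = 32) (hX : Cfsg.IsExtraspecial 2 E) (e : (Subgroup.centralizer ({t} : Set G)) ⧸ E ≃* alternatingGroup (Fin 5)) : Cfsg.IsJ2 G ∨ Cfsg.IsJ3 G := by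
  have h60 : Nat.card ((Subgroup.centralizer ({t} : Set G)) ⧸ E) = 60 := by
    rw [Nat.card_congr e.toEquiv, Nat.card_eq_fintype_card]
    rfl
  have h1920 : 32 < Nat.card (Subgroup.centralizer ({t} : Set G)) := by
    have := Subgroup.card_eq_card_quotient_mul_card_subgroup E
    rw [h60, hE] at this
    omega
  obtain ⟨g, hg, hgc⟩ := Cfsg.Agent.J3Type.TwoCentral.exists_comm_conj t ht E hE h1920
  have ht2 : orderOf t = 2 := ht.1
  by_cases hcl : ∃ x y : G, orderOf x = 2 ∧ orderOf y = 2 ∧ ¬ IsConj x y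
  · left
    have h2c := Cfsg.Agent.J3Type.Reduce.centralizer_le t ht2 E hE hX e g hg hgc
    have hnwc := Cfsg.Agent.J3Type.FusionLemma.hnwc_of_conj t ht2 E hX hE h2c h60 g hg hgc
    obtain ⟨u, hu⟩ := Cfsg.Agent.J2Type.Fusion.fus_core t ht2 E hX hE h2c h60 hnwc hcl
    exact ⟨inferInstance, Cfsg.Agent.J2Type.Order.card_of_fus hu⟩
  · right
    push Not at hcl
    exact ⟨inferInstance, Cfsg.Agent.J3Type.CardOneClass.card_of_one_class
      (fun x y hx hy => hcl x y hx hy) t ht2 E hE hX e g hg hgc⟩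

end Cfsg.Agent.S0455
end
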