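import Cfsg.Statements.S0456
import Cfsg.Agent.J3Type.CardOneClass
import Cfsg.Agent.J3Type.TwoCentral
set_option linter.all false

set_option autoImplicit false
open Cfsg

namespace Cfsg.Agent.S0456

/-- Janko's third group: let G be finite simple with all involutions conjugate, and let t be an involution whose centraliser C has a normal extraspecial subgroup E of order 32 with C/E isomorphic to the alternating group of degree 5. Then G has order 50232960. -/
theorem result {G : Type*} [Group G] [Finite G] [IsSimpleGroup G] (hone : ∀ x y : G, orderOf x = 2 → orderOf y = 2 → IsConj x y) (t : G) (ht : orderOf t = 2) (E : Subgroup (Subgroup.centralizer ({t} : Set G))) [E.Normal] (hE : Nat.card E = 32) (hX : Cfsg.IsExtraspecial 2 E) (e : (Subgroup.centralizer ({t} : Set G)) ⧸ E ≃* alternatingGroup (Fin 5)) : Cfsg.IsJ3 G := by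
  have h60 : Nat.card ((Subgroup.centralizer ({t} : Set G)) ⧸ E) = 60 := by
    rw [Nat.card_congr e.toEquiv, Nat.card_eq_fintype_card]
    rfl
  have h1920 : 32 < Nat.card (Subgroup.centralizer ({t} : Set G)) := by
    have := Subgroup.card_eq_card_quotient_mul_card_subgroup E
    rw [h60, hE] at this
    omega
  obtain ⟨g, hg, hgc⟩ := Cfsg.Agent.J3Type.TwoCentral.exists_comm_conj t
    (Cfsg.Agent.J3Type.TwoCentral.two_central hone t ht) E hE h1920
  exact ⟨inferInstance,
    Cfsg.Agent.J3Type.CardOneClass.card_of_one_class hone t ht E hE hX e g hg hgc⟩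

end Cfsg.Agent.S0456
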