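import Cfsg.Statements.S0459
import Cfsg.Agent.SporadicB.RuMain
import Cfsg.Agent.Lib.PermRealization
set_option linter.all false

set_option autoImplicit false
open Cfsg

namespace Cfsg.Agent.S0459

open Cfsg.Agent.SporadicB in
theorem tits_in_stab : ∃ T : Subgroup (MulAction.stabilizer RuMain.G 0), Cfsg.IsTits T := by
  have hsimple := RuMain.isSimpleGroup_T
  have hle : RuMain.T ≤ RuMain.G := RuMain.T_le_G1.trans (NetGroup.fixPt_le _ _)
  let f : RuMain.T →* MulAction.stabilizer RuMain.G 0 :=
    { toFun := fun t => ⟨⟨t, hle t.2⟩, (RuMain.T_le_G1 t.2).2⟩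
      map_one' := rfl
      map_mul' := fun _ _ => rfl }
  have hf : Function.Injective f := by
    intro a b hab
    have h1 := congrArg (fun z : MulAction.stabilizer RuMain.G 0 =>
      ((z : RuMain.G) : Equiv.Perm ℕ)) hab
    exact Subtype.ext h1
  refine ⟨f.range, ?_, ?_⟩
  · exact Lib.PermRealization.isSimpleGroup_of_mulEquiv (MonoidHom.ofInjective hf)
  · rw [← Nat.card_congr (MonoidHom.ofInjective hf).toEquiv]
    exact RuMain.card_T

/-- The Rudvalis group exists as a transitive permutation group of degree 4060: simple of order 145926144000, with point stabiliser of order 35942400 containing a simple subgroup of order 17971200 (the order of the Tits group). -/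
theorem result : ∃ H : Subgroup (Equiv.Perm (Fin 4060)), Cfsg.IsRu H ∧ MulAction.IsPretransitive H (Fin 4060) ∧ Nat.card (MulAction.stabilizer H (0 : Fin 4060)) = 35942400 ∧ ∃ T : Subgroup (MulAction.stabilizer H (0 : Fin 4060)), Cfsg.IsTits T := by
  have hG := Cfsg.Agent.SporadicB.RuMain.isSimpleGroup_G
  have hstab : Nat.card (MulAction.stabilizer Cfsg.Agent.SporadicB.RuMain.G 0) = 35942400 := by
    rw [Cfsg.Agent.SporadicB.NetGroup.card_stabilizer]
    exact Cfsg.Agent.SporadicB.RuMain.card_G1
  obtain ⟨H, e, hs, hc, ht, f, -⟩ :=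
    Cfsg.Agent.Lib.PermRealization.exists_perm_subgroup_of_card
      (MulAction.stabilizer Cfsg.Agent.SporadicB.RuMain.G 0) 4060 145926144000 (by norm_num)
      Cfsg.Agent.SporadicB.RuMain.card_G (by rw [hstab])
  refine ⟨H, ⟨hs, hc⟩, ht, ?_, ?_⟩
  · rw [← Nat.card_congr f.toEquiv]
    exact hstab
  · obtain ⟨T, hT1, hT2⟩ := tits_in_stab
    refine ⟨T.map f.toMonoidHom, ?_, ?_⟩
    · have h1 : IsSimpleGroup T := hT1
      exact Cfsg.Agent.Lib.PermRealization.isSimpleGroup_of_mulEquiv
        (T.equivMapOfInjective f.toMonoidHom f.injective)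
    · rw [← Nat.card_congr (T.equivMapOfInjective f.toMonoidHom f.injective).toEquiv]
      exact hT2

end Cfsg.Agent.S0459
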