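import Cfsg.Statements.S0460
import Cfsg.Agent.S1692
import Cfsg.Agent.S1699
import Cfsg.Agent.Lib.PermRealization
import Cfsg.Agent.SporadicB.ON45Sub
set_option linter.all false

set_option autoImplicit false
open Cfsg

namespace Cfsg.Agent.S0460

/-- subgroups transported along an isomorphism -/
theorem exists_subgroup_of_equiv {G H : Type*} [Group G] [Group H] (e : G ≃* H) (K : Subgroup G) :
    ∃ L : Subgroup H, Nonempty (K ≃* L) :=
  ⟨K.map e.toMonoidHom, ⟨e.subgroupMap K⟩⟩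

theorem simple_card_of_equiv {G H : Type*} [Group G] [Group H] (e : G ≃* H) {n : ℕ}
    (h : IsSimpleGroup G ∧ Nat.card G = n) : IsSimpleGroup H ∧ Nat.card H = n := by
  obtain ⟨h1, h2⟩ := h
  exact ⟨Lib.PermRealization.isSimpleGroup_of_mulEquiv e, by rw [← h2, Nat.card_congr e.toEquiv]⟩

/-- The O'Nan group exists as a transitive permutation group of degree 122760: simple of order 460815505920, point stabiliser of order 3753792, and containing simple subgroups of orders 175560 and 7920. -/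
theorem result : ∃ H : Subgroup (Equiv.Perm (Fin 122760)), Cfsg.IsON H ∧ MulAction.IsPretransitive H (Fin 122760) ∧ Nat.card (MulAction.stabilizer H (0 : Fin 122760)) = 3753792 ∧ (∃ K : Subgroup H, Cfsg.IsJ1 K) ∧ (∃ K : Subgroup H, Cfsg.IsM11 K) := by
  have hON := Cfsg.Agent.S1699.result
  have hs : IsSimpleGroup Cfsg.Spor.ON := hON.1
  have hidx := Cfsg.Agent.S1692.result
  obtain ⟨H, e, htr, f, -⟩ := Lib.PermRealization.exists_perm_subgroup (G := Cfsg.Spor.ON) _ 122760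
    (by norm_num) hidx
  obtain ⟨L1, ⟨e1⟩⟩ := exists_subgroup_of_equiv e (Subgroup.closure {SporadicB.ON45Sub.xA, SporadicB.ON45Sub.xB})
  obtain ⟨L2, ⟨e2⟩⟩ := exists_subgroup_of_equiv e (Subgroup.closure {SporadicB.ON45Sub.yA, SporadicB.ON45Sub.yB})
  refine ⟨H, simple_card_of_equiv e hON, htr, ?_, ⟨L1, simple_card_of_equiv e1 (SporadicB.ON45Sub.isJ1 hs)⟩,
    ⟨L2, simple_card_of_equiv e2 (SporadicB.ON45Sub.isM11 hs)⟩⟩
  have hmul := Subgroup.card_mul_index (((Subgroup.closure ({Cfsg.Spor.ON.a, Cfsg.Spor.ON.b, Cfsg.Spor.ON.c, Cfsg.Spor.ON.d, Cfsg.Spor.ON.e, Cfsg.Spor.ON.f} : Set (FreeGroup Cfsg.Spor.ON.Gen))).map (PresentedGroup.mk (Cfsg.Spor.coxRelators Cfsg.Spor.ON.edges ∪ {r | r ∈ Cfsg.Spor.ON.extra}))))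
  rw [hidx] at hmul
  have hcard : Nat.card Cfsg.Spor.ON = 460815505920 := hON.2
  change _ = Nat.card Cfsg.Spor.ON at hmul
  rw [hcard, Nat.card_congr f.toEquiv] at hmul
  omega

end Cfsg.Agent.S0460
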