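import Cfsg.Agent.J4.Upper
import Cfsg.Agent.J4.Simple
import Cfsg.Agent.J4.Dvd
import Cfsg.Statements.S0461
set_option linter.all false

set_option autoImplicit false
open Cfsg

namespace Cfsg.Agent.S0461

theorem simple_range {G H : Type*} [Group G] [Group H] (f : G →* H)
    (hf : Function.Bijective f.rangeRestrict) (h : IsSimpleGroup G) : IsSimpleGroup f.range :=
  (MulEquiv.isSimpleGroup_congr (MulEquiv.ofBijective f.rangeRestrict hf)).mp h

open Cfsg.Agent.J4.Rep112 in
theorem range_isJ4 : Cfsg.IsJ4 rho.range := by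
  have hle := Cfsg.Agent.J4.Upper.card_J4_le.1
  obtain ⟨hs, hc⟩ := Cfsg.Agent.J4.Simple.isJ4_of_le hle Cfsg.Agent.J4.Dvd.dvd
  have h1 : Nat.card rho.range ≤ Nat.card Cfsg.Spor.J4 :=
    Nat.card_le_card_of_surjective rho.rangeRestrict rho.rangeRestrict_surjective
  have : Finite rho.range := Finite.of_surjective rho.rangeRestrict rho.rangeRestrict_surjective
  have h2 : 86775571046077562880 ≤ Nat.card rho.range :=
    Nat.le_of_dvd Nat.card_pos Cfsg.Agent.J4.Dvd.dvd
  have h4 : Nat.card rho.range = Nat.card Cfsg.Spor.J4 := by omega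
  exact ⟨simple_range rho (rho.rangeRestrict_surjective.bijective_of_nat_card_le h4.ge) hs,
    h4.trans hc⟩

/-- Janko's fourth group exists as a group of 112 × 112 matrices over the field with two elements: GL(112, 2) has a simple subgroup of order 86775571046077562880. -/
theorem result : ∃ H : Subgroup (GL (Fin 112) (ZMod 2)), Cfsg.IsJ4 H :=
  ⟨_, range_isJ4⟩

end Cfsg.Agent.S0461
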