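import Cfsg.Statements.S0462
import Cfsg.Agent.SporadicB.PermRealization
import Cfsg.Agent.S1682
import Cfsg.Agent.S1683
import Cfsg.Agent.S1695
set_option linter.all false
-- import your own Cfsg.Agent.* helpers here

set_option autoImplicit false
open Cfsg

namespace Cfsg.Agent.S0462

/-- The Held group exists as a transitive permutation group of degree 2058: simple of order 4030387200, with point stabiliser containing, with index 2, a copy of the 4-dimensional symplectic group over the field with four elements. -/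
theorem result : ∃ H : Subgroup (Equiv.Perm (Fin 2058)), Cfsg.IsHe H ∧ MulAction.IsPretransitive H (Fin 2058) ∧ ∃ (F : Type) (_ : Field F) (_ : Fintype F), Fintype.card F = 4 ∧ ∃ N : Subgroup (MulAction.stabilizer H (0 : Fin 2058)), N.index = 2 ∧ Nonempty (N ≃* Matrix.symplecticGroup (Fin 2) F) := by
  have hHe := Cfsg.Agent.S1695.result
  obtain ⟨hidx, -⟩ := Cfsg.Agent.S1683.result
  obtain ⟨N, F, instF, instFF, -, hN, hF, ⟨eN⟩⟩ := Cfsg.Agent.S1682.result
  have hs : IsSimpleGroup Cfsg.Spor.He := hHe.1
  obtain ⟨H, ⟨eH⟩, htr, hst⟩ :=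
    Cfsg.Agent.SporadicB.PermRealization.exists_perm_realization _ (by norm_num) hidx
  obtain ⟨eK⟩ := hst 0
  obtain ⟨M, hM, ⟨eM⟩⟩ := Cfsg.Agent.SporadicB.PermRealization.exists_subgroup_of_equiv eK N
  exact ⟨H, Cfsg.Agent.SporadicB.PermRealization.isSimple_card_of_equiv eH hHe, htr,
    F, instF, instFF, hF, M, hM.trans hN, ⟨eM.symm.trans eN⟩⟩

end Cfsg.Agent.S0462
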