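import Cfsg.Statements.S0465
import Cfsg.Agent.BabyM.Instance
set_option linter.all false

set_option autoImplicit false
open Cfsg

namespace Cfsg.Agent.S0465

/-- The Baby Monster as matrices in characteristic 2: for some finite field F of characteristic 2, GL(4370, F) has a simple subgroup of order 4154781481226426191177580544000000. -/
theorem result : ∃ (F : Type) (_ : Field F) (_ : Fintype F), CharP F 2 ∧ ∃ H : Subgroup (GL (Fin 4370) F), Cfsg.IsB H := by
  exact Cfsg.Agent.BabyM.GlueModel.s0465 Cfsg.Agent.BabyM.Instance.all

end Cfsg.Agent.S0465
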