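import Cfsg.Statements.S0467
import Cfsg.Agent.MonsterX.InstanceFinal_m3
import Cfsg.Agent.MonsterX.Frames.J8D_m3
set_option linter.all false

set_option autoImplicit false
open Cfsg

namespace Cfsg.Agent.S0467

/-- The Monster exists as a group of real 196883 × 196883 matrices: GL(196883, ℝ) has a simple subgroup of order 808017424794512875886459904961710757005754368000000000. -/
theorem result : ∃ H : Subgroup (GL (Fin 196883) ℝ), Cfsg.IsM H :=
  Cfsg.Agent.MonsterX.MainPack.s0467 Cfsg.Agent.MonsterX.Instance.mGroup Cfsg.Agent.MonsterX.Instance.mRep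
    Cfsg.Agent.MonsterX.Instance.mLat Cfsg.Agent.MonsterX.InstanceFinal.mOrbit
    Cfsg.Agent.MonsterX.Instance.mTrans Cfsg.Agent.MonsterX.InstanceFinal.mExtra.fixed

end Cfsg.Agent.S0467
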