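import Cfsg.Statements.S0469
import Cfsg.Agent.MonsterX.InstanceFinal_m3
import Cfsg.Agent.MonsterX.Frames.J8D_m3
set_option linter.all false

set_option autoImplicit false
open Cfsg

namespace Cfsg.Agent.S0469

/-- In some simple group of the Monster's order there is an involution whose centraliser C has a normal extraspecial subgroup Q of order 2 ^ 25 such that C / Q is simple of the order of the largest Conway group. -/
theorem result : ∃ (G : Type) (_ : Group G) (_ : Finite G), Cfsg.IsM G ∧ ∃ z : G, orderOf z = 2 ∧ ∃ (Q : Subgroup (Subgroup.centralizer ({z} : Set G))) (_ : Q.Normal), Nat.card Q = 2 ^ 25 ∧ Cfsg.IsExtraspecial 2 Q ∧ Cfsg.IsCo1 ((Subgroup.centralizer ({z} : Set G)) ⧸ Q) :=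
  Cfsg.Agent.MonsterX.MainPack.s0469 Cfsg.Agent.MonsterX.Instance.mGroup Cfsg.Agent.MonsterX.Instance.mRep
    Cfsg.Agent.MonsterX.Instance.mLat Cfsg.Agent.MonsterX.InstanceFinal.mOrbit
    Cfsg.Agent.MonsterX.Instance.mTrans

end Cfsg.Agent.S0469
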