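import Cfsg.Statements.S0476
import Cfsg.Agent.J4M.CenBound
import Cfsg.Agent.J4M.SimpleR
set_option linter.all false

set_option autoImplicit false
open Cfsg

namespace Cfsg.Agent.S0476

/-- In some simple group of the order of Janko's fourth group there is an involution whose centraliser C has a normal extraspecial subgroup Q of order 2 ^ 13, a normal subgroup N of order 3 · 2 ^ 13 containing Q, and a subgroup M of index 2 containing N as a normal subgroup with M / N simple of order 443520. -/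
theorem result : ∃ (G : Type) (_ : Group G) (_ : Finite G), Cfsg.IsJ4 G ∧ ∃ z : G, orderOf z = 2 ∧ ∃ (Q N M : Subgroup (Subgroup.centralizer ({z} : Set G))), Q.Normal ∧ N.Normal ∧ Q ≤ N ∧ N ≤ M ∧ Nat.card Q = 2 ^ 13 ∧ Cfsg.IsExtraspecial 2 Q ∧ Nat.card N = 3 * 2 ^ 13 ∧ M.index = 2 ∧ ∃ (_ : (N.subgroupOf M).Normal), Cfsg.IsM22 (M ⧸ N.subgroupOf M) :=
  ⟨Cfsg.Agent.J4M.Base.R, inferInstance, inferInstance, Cfsg.Agent.J4M.SimpleR.isJ4_R,
    Cfsg.Agent.J4C.Link.zR, Cfsg.Agent.J4C.Link.orderOf_zR,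
    Cfsg.Agent.J4C.Link.isC Cfsg.Agent.J4M.CenBound.card_Cz_le⟩

end Cfsg.Agent.S0476
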