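-- Statement S0478: a triple cover of J3 inside SU_9 over the field with four elements.
-- Conditional on S1625 (order of the centre, simplicity of the quotient) only through
-- `Cfsg.Agent.S1625.result`.
import Cfsg.Statements.S0478
import Cfsg.Prelude.Def_Spor_J3
import Cfsg.Agent.S1625
set_option linter.all false

set_option autoImplicit false
open Cfsg

namespace Cfsg.Agent.S0478

open Cfsg.Spor Matrix

/-- An explicit field with four elements 0, 1, w, w + 1. -/
inductive K4 : Type
  | o | e | w | v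
  deriving DecidableEq

namespace K4

def add : K4 → K4 → K4
  | o, x => x
  | x, o => x
  | e, e => o
  | e, w => v
  | e, v => w
  | w, e => v
  | w, w => o
  | w, v => e
  | v, e => w
  | v, w => e
  | v, v => o

def mul : K4 → K4 → K4
  | o, _ => o
  | _, o => o
  | e, x => x
  | x, e => x
  | w, w => v
  | w, v => e
  | v, w => e
  | v, v => w

def inv : K4 → K4
  | o => o
  | e => e
  | w => v
  | v => w

instance instFintype : Fintype K4 := ⟨{o, e, w, v}, fun x => by cases x <;> decide⟩

instance instZero : Zero K4 := ⟨o⟩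
instance instOne : One K4 := ⟨e⟩
instance instAdd : Add K4 := ⟨add⟩
instance instMul : Mul K4 := ⟨mul⟩
instance instNeg : Neg K4 := ⟨id⟩
instance instInv : Inv K4 := ⟨inv⟩

instance instField : Field K4 where
  add_assoc := by decide
  zero_add := by decide
  add_zero := by decide
  add_comm := by decide
  mul_assoc := by decide
  one_mul := by decide
  mul_one := by decide
  mul_comm := by decide
  left_distrib := by decide
  right_distrib := by decide
  zero_mul := by decide
  mul_zero := by decide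
  neg_add_cancel := by decide
  exists_pair_ne := ⟨o, e, by decide⟩
  mul_inv_cancel := by decide
  inv_zero := by decide
  nsmul := nsmulRec
  zsmul := zsmulRec
  nnqsmul := _
  nnqsmul_def := fun _ _ => rfl
  qsmul := _
  qsmul_def := fun _ _ => rfl

theorem card_eq : Fintype.card K4 = 4 := by decide

theorem w_root : w ^ 2 + w + 1 = 0 := by decide

theorem sq_add (x y : K4) : (x + y) ^ 2 = x ^ 2 + y ^ 2 := by
  revert x y; decide

theorem sq_mul (x y : K4) : (x * y) ^ 2 = x ^ 2 * y ^ 2 := by
  revert x y; decide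

/-- The Frobenius map. -/
def frob : K4 →+* K4 where
  toFun x := x ^ 2
  map_one' := by decide
  map_mul' := sq_mul
  map_zero' := by decide
  map_add' := sq_add

theorem frob_apply (x : K4) : frob x = x ^ 2 := rfl

end K4


/-- `M` is unitary for the standard Hermitian form. -/
def IsU (M : Matrix F9 F9 K4) : Prop :=
  ∀ j k, ∑ i, M i j * (M i k) ^ 2 = if j = k then 1 else 0

instance instDecIsU (M : Matrix F9 F9 K4) : Decidable (IsU M) := by
  unfold IsU; infer_instance

theorem isU_A : ∀ Z, IsU (j3A K4 K4.w Z) := by decide +kernel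
theorem isU_E : ∀ Z, IsU (j3E K4 K4.w Z) := by decide +kernel
theorem isU_D : ∀ Z, IsU (j3D K4 K4.w Z) := by decide +kernel
theorem isU_B : ∀ Z, Z ≠ 0 → IsU (j3B K4 Z) := by decide +kernel
theorem isU_C : ∀ Z, Z ≠ 0 → IsU (j3C K4 Z) := by decide +kernel

theorem isU_mul {M : Matrix F9 F9 K4} (h : IsU M) : Mᵀ * M.map K4.frob = 1 := by
  ext j k
  rw [Matrix.mul_apply, Matrix.one_apply, ← h j k]
  rfl

theorem det_mul_frob {M : Matrix F9 F9 K4} (h : IsU M) : M.det * K4.frob M.det = 1 := by
  have h1 := congrArg Matrix.det (isU_mul h)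
  rw [Matrix.det_mul, Matrix.det_transpose, Matrix.det_one] at h1
  rw [RingHom.map_det]
  exact h1

theorem det_of_fixed {M : Matrix F9 F9 K4} (h : IsU M) (hf : M.map K4.frob = M) :
    M.det = 1 := by
  have h1 := det_mul_frob h
  have h2 : K4.frob M.det = M.det := by
    rw [RingHom.map_det]
    exact congrArg Matrix.det hf
  rw [h2] at h1
  revert h1
  generalize M.det = d
  revert d
  decide

theorem det_A : ∀ Z, (j3A K4 K4.w Z).det = 1 := by
  intro Z
  unfold j3A
  rw [Matrix.det_diagonal]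
  revert Z
  decide +kernel

theorem det_E : ∀ Z, (j3E K4 K4.w Z).det = 1 := by
  intro Z
  unfold j3E
  rw [Matrix.det_diagonal]
  revert Z
  decide +kernel

theorem det_B (Z : F9) (hZ : Z ≠ 0) : (j3B K4 Z).det = 1 := by
  apply det_of_fixed (isU_B Z hZ)
  revert hZ; revert Z
  decide +kernel

theorem det_C (Z : F9) (hZ : Z ≠ 0) : (j3C K4 Z).det = 1 := by
  apply det_of_fixed (isU_C Z hZ)
  revert hZ; revert Z
  decide +kernel

/-- The permutation part of `j3D`. -/
def permD (Z : F9) : Matrix F9 F9 K4 := Matrix.of fun w z => if w = z + Z then 1 else 0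

theorem permD_isU : ∀ Z, IsU (permD Z) := by decide +kernel

theorem permD_fixed : ∀ Z, (permD Z).map K4.frob = permD Z := by decide +kernel

theorem j3D_eq (Z : F9) :
    j3D K4 K4.w Z = permD Z * Matrix.diagonal (fun z => j3Lam K4 K4.w Z z) := by
  ext w z
  rw [Matrix.mul_diagonal]
  unfold j3D permD
  simp only [Matrix.of_apply]
  split_ifs
  · rw [one_mul]
  · rw [zero_mul]

theorem prod_lam : ∀ Z : F9, ∏ z, j3Lam K4 K4.w Z z = 1 := by decide +kernel

theorem det_D (Z : F9) : (j3D K4 K4.w Z).det = 1 := by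
  rw [j3D_eq, Matrix.det_mul, det_of_fixed (permD_isU Z) (permD_fixed Z), Matrix.det_diagonal,
    prod_lam, one_mul]

theorem gens_spec {M : Matrix F9 F9 K4} (hM : M ∈ j3Gens K4 K4.w) : IsU M ∧ M.det = 1 := by
  rcases hM with ((((⟨Z, rfl⟩ | ⟨Z, rfl⟩) | ⟨Z, rfl⟩) | ⟨Z, hZ, rfl⟩) | ⟨Z, hZ, rfl⟩)
  · exact ⟨isU_A Z, det_A Z⟩
  · exact ⟨isU_E Z, det_E Z⟩
  · exact ⟨isU_D Z, det_D Z⟩
  · exact ⟨isU_B Z hZ, det_B Z hZ⟩
  · exact ⟨isU_C Z hZ, det_C Z hZ⟩

/-- An indexing of the basis by `Fin 9`. -/
def idx : Fin 9 ≃ F9 where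
  toFun i := ((i.val / 3 : ℕ), (i.val % 3 : ℕ))
  invFun z := ⟨3 * z.1.val + z.2.val, by
    have h1 := ZMod.val_lt z.1
    have h2 := ZMod.val_lt z.2
    omega⟩
  left_inv := by decide
  right_inv := by decide

/-- Reindexing, `Fin 9`-matrices to `F9`-matrices. -/
def reix : Matrix (Fin 9) (Fin 9) K4 ≃ₐ[K4] Matrix F9 F9 K4 :=
  Matrix.reindexAlgEquiv K4 K4 idx

/-- The embedding of `SU 9` in `GL F9`. -/
noncomputable def psi : Cfsg.SU 9 K4 2 →* GL F9 K4 :=
  ((Units.map (reix : Matrix (Fin 9) (Fin 9) K4 →* Matrix F9 F9 K4)).comp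
    (Matrix.SpecialLinearGroup.toGL)).comp (Cfsg.SU 9 K4 2).subtype

theorem psi_coe (g : Cfsg.SU 9 K4 2) :
    ((psi g : GL F9 K4) : Matrix F9 F9 K4) = reix (g.1.1 : Matrix (Fin 9) (Fin 9) K4) := rfl

theorem psi_injective : Function.Injective psi := by
  intro a b h
  have h1 : reix (a.1.1 : Matrix (Fin 9) (Fin 9) K4) = reix b.1.1 := by
    rw [← psi_coe, ← psi_coe, h]
  exact Subtype.ext (Subtype.ext (reix.injective h1))

theorem herm_of_isU (M : Matrix (Fin 9) (Fin 9) K4)
    (h : ∀ j k, ∑ i, M i j * (M i k) ^ 2 = if j = k then 1 else 0) (u v : Fin 9 → K4) :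
    Cfsg.hermForm 9 K4 2 (M *ᵥ u) (M *ᵥ v) = Cfsg.hermForm 9 K4 2 u v := by
  unfold Cfsg.hermForm
  have e1 : ∀ i, ((M *ᵥ v) i) ^ 2 = ∑ k, (M i k) ^ 2 * (v k) ^ 2 := by
    intro i
    rw [← K4.frob_apply]
    simp only [Matrix.mulVec, dotProduct]
    rw [map_sum]
    apply Finset.sum_congr rfl
    intro k _
    rw [map_mul, K4.frob_apply, K4.frob_apply]
  have e2 : ∀ i, (M *ᵥ u) i * ((M *ᵥ v) i) ^ 2 =
      ∑ j, ∑ k, (M i j * (M i k) ^ 2) * (u j * (v k) ^ 2) := by
    intro i
    rw [e1]
    simp only [Matrix.mulVec, dotProduct]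
    rw [Finset.sum_mul_sum]
    apply Finset.sum_congr rfl
    intro j _
    apply Finset.sum_congr rfl
    intro k _
    ring
  rw [Finset.sum_congr rfl (fun i _ => e2 i), Finset.sum_comm]
  apply Finset.sum_congr rfl
  intro j _
  rw [Finset.sum_comm]
  have e3 : ∀ k, ∑ i, (M i j * (M i k) ^ 2) * (u j * (v k) ^ 2) =
      if j = k then u j * (v k) ^ 2 else 0 := by
    intro k
    rw [← Finset.sum_mul, h j k]
    split_ifs
    · rw [one_mul]
    · rw [zero_mul]
  rw [Finset.sum_congr rfl (fun k _ => e3 k), Finset.sum_ite_eq]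
  simp

theorem mem_range_psi (g : GL F9 K4) (hU : IsU (g : Matrix F9 F9 K4))
    (hdet : (g : Matrix F9 F9 K4).det = 1) : g ∈ psi.range := by
  set M : Matrix (Fin 9) (Fin 9) K4 := reix.symm (g : Matrix F9 F9 K4) with hM
  have hMe : ∀ i j, M i j = (g : Matrix F9 F9 K4) (idx i) (idx j) := fun i j => rfl
  have hd : M.det = 1 := by
    have : M = (g : Matrix F9 F9 K4).submatrix idx idx := rfl
    rw [this, Matrix.det_submatrix_equiv_self, hdet]
  have hH : ∀ j k, ∑ i, M i j * (M i k) ^ 2 = if j = k then 1 else 0 := by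
    intro j k
    have h1 := hU (idx j) (idx k)
    rw [← Equiv.sum_comp idx] at h1
    simp only [EmbeddingLike.apply_eq_iff_eq] at h1
    exact h1
  refine ⟨⟨⟨M, hd⟩, ?_⟩, ?_⟩
  · intro u v
    exact herm_of_isU M hH u v
  · apply Units.ext
    rw [psi_coe]
    exact reix.apply_symm_apply _

theorem threeJ3_le_range : threeJ3 K4 K4.w ≤ psi.range := by
  unfold threeJ3
  rw [Subgroup.closure_le]
  intro g hg
  obtain ⟨h1, h2⟩ := gens_spec hg
  exact mem_range_psi g h1 h2

/-- The subgroup `3·J₃` of `SU 9`. -/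
noncomputable def H : Subgroup (Cfsg.SU 9 K4 2) := (threeJ3 K4 K4.w).comap psi

noncomputable def equivH : H ≃* threeJ3 K4 K4.w :=
  (H.equivMapOfInjective psi psi_injective).trans
    (MulEquiv.subgroupCongr (by
      unfold H
      rw [Subgroup.map_comap_eq, inf_eq_right]
      exact threeJ3_le_range))

theorem centre_map {G₁ G₂ : Type*} [Group G₁] [Group G₂] (e : G₁ ≃* G₂) :
    (Subgroup.center G₁).map (e : G₁ →* G₂) = Subgroup.center G₂ := by
  ext x
  rw [Subgroup.mem_map]
  constructor
  · rintro ⟨y, hy, rfl⟩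
    rw [Subgroup.mem_center_iff] at hy ⊢
    intro g
    have := congrArg e (hy (e.symm g))
    simpa using this
  · intro hx
    refine ⟨e.symm x, ?_, by simp⟩
    rw [Subgroup.mem_center_iff] at hx ⊢
    intro g
    apply e.injective
    simpa using hx (e g)

/-- A triple cover of Janko's third group inside a unitary group: for a field F with four elements, the special unitary group of dimension 9 (with respect to the form with q = 2) has a subgroup whose centre has order 3 and whose quotient by its centre is simple of order 50232960. -/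
theorem result : ∃ (F : Type) (_ : Field F) (_ : Fintype F), Fintype.card F = 4 ∧ ∃ H : Subgroup (Cfsg.SU 9 F 2), Nat.card (Subgroup.center H) = 3 ∧ Cfsg.IsJ3 (H ⧸ Subgroup.center H) := by
  obtain ⟨h1, -, h3, h4⟩ := Cfsg.Agent.S1625.result K4 K4.card_eq K4.w K4.w_root
  refine ⟨K4, inferInstance, inferInstance, K4.card_eq, H, ?_, ?_, ?_⟩
  · rw [← h1]
    have := centre_map equivH
    rw [← this]
    exact Nat.card_congr ((Subgroup.center H).equivMapOfInjective _ equivH.injective).toEquiv
  · exact (QuotientGroup.congr _ _ equivH (centre_map equivH)).isSimpleGroup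
  · rw [← h3]
    exact Nat.card_congr (QuotientGroup.congr _ _ equivH (centre_map equivH)).toEquiv

end Cfsg.Agent.S0478
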