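import Cfsg.Statements.S0499
import Cfsg.Agent.S0071
set_option linter.all false
-- import your own Cfsg.Agent.* helpers here

set_option autoImplicit false
open Cfsg

namespace Cfsg.Agent.S0499

/-- A nontrivial automorphism of odd order of a group of order dividing `8`. -/
theorem aut_of_card_dvd_eight {Q : Type*} [Group Q] [Finite Q] (hQ : Nat.card Q ∣ 8)
    (σ : MulAut Q) (hσ : σ ≠ 1) (hodd : Odd (orderOf σ)) :
    (3 ∣ orderOf σ ∧ 4 ∣ Nat.card Q) ∨ (7 ∣ orderOf σ ∧ 8 ∣ Nat.card Q) := by
  classical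
  have h1 : orderOf σ ≠ 1 := fun h => hσ (orderOf_eq_one_iff.mp h)
  have hfin : IsOfFinOrder σ := isOfFinOrder_of_finite σ
  have hpos : 0 < orderOf σ := hfin.orderOf_pos
  set q := (orderOf σ).minFac with hq
  have hqp : q.Prime := Nat.minFac_prime h1
  have hqd : q ∣ orderOf σ := Nat.minFac_dvd _
  have hqodd : Odd q := Odd.of_dvd_nat hodd hqd
  have : Fact q.Prime := ⟨hqp⟩
  set τ := σ ^ (orderOf σ / q) with hτ
  have hτo : orderOf τ = q := by
    rw [hτ, orderOf_pow_orderOf_div hpos.ne' hqd]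
  have hpg : IsPGroup q (Subgroup.zpowers τ) := by
    apply IsPGroup.of_card (n := 1)
    rw [Nat.card_zpowers, hτo, pow_one]
  have hmod := hpg.card_modEq_card_fixedPoints Q
  -- the fixed point subgroup
  let F : Subgroup Q :=
    { carrier := {x | τ x = x}
      one_mem' := map_one τ
      mul_mem' := fun {a b} ha hb => by
        show τ (a * b) = a * b
        rw [map_mul, ha, hb]
      inv_mem' := fun {a} ha => by
        show τ a⁻¹ = a⁻¹
        rw [map_inv, ha] }
  have hF : (MulAction.fixedPoints (Subgroup.zpowers τ) Q) = (F : Set Q) := by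
    ext x
    constructor
    · intro h
      exact h ⟨τ, Subgroup.mem_zpowers τ⟩
    · rintro h ⟨g, hg⟩
      have h' : τ ∈ MulAction.stabilizer (MulAut Q) x := h
      have h2 : Subgroup.zpowers τ ≤ MulAction.stabilizer (MulAut Q) x := by
        rw [Subgroup.zpowers_le]; exact h'
      exact h2 hg
  have hFd : Nat.card F ∣ Nat.card Q := Subgroup.card_subgroup_dvd_card F
  have hFne : Nat.card F ≠ Nat.card Q := by
    intro h
    have hFt : F = ⊤ := Subgroup.eq_top_of_card_eq F h
    have : τ = 1 := by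
      ext x
      have : x ∈ F := hFt ▸ Subgroup.mem_top x
      exact this
    rw [this, orderOf_one] at hτo
    exact hqp.one_lt.ne hτo
  have hcard : Nat.card (MulAction.fixedPoints (Subgroup.zpowers τ) Q) = Nat.card F := by
    rw [hF]; rfl
  rw [hcard] at hmod
  have hQ' : Nat.card Q ∈ Nat.divisors 8 := by simp [hQ]
  have hF' : Nat.card F ∈ Nat.divisors 8 := by simp [hFd.trans hQ]
  have h8 : Nat.divisors 8 = {1, 2, 4, 8} := by decide
  rw [h8] at hQ' hF'
  simp only [Finset.mem_insert, Finset.mem_singleton] at hQ' hF'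
  have hle : Nat.card F ≤ Nat.card Q := Subgroup.card_le_card_group F
  have hdvd : q ∣ Nat.card Q - Nat.card F := (Nat.modEq_iff_dvd' hle).mp hmod.symm
  have h2 : ¬ q ∣ 2 := by
    intro h
    have := (Nat.prime_dvd_prime_iff_eq hqp Nat.prime_two).mp h
    rw [this] at hqodd
    exact absurd hqodd (by decide)
  have hq1 : ¬ q ∣ 1 := hqp.not_dvd_one
  have h3 : q ∣ 3 → 3 ∣ orderOf σ := by
    intro h
    rwa [(Nat.prime_dvd_prime_iff_eq hqp Nat.prime_three).mp h] at hqd
  have h7 : q ∣ 7 → 7 ∣ orderOf σ := by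
    intro h
    rwa [(Nat.prime_dvd_prime_iff_eq hqp (by norm_num)).mp h] at hqd
  have h4 : ¬ q ∣ 4 := fun h => h2 (hqp.dvd_of_dvd_pow (show q ∣ 2 ^ 2 from h))
  have h6 : q ∣ 6 → 3 ∣ orderOf σ := by
    intro h
    rcases hqp.dvd_mul.mp (show q ∣ 2 * 3 from h) with h | h
    · exact absurd h h2
    · exact h3 h
  rcases hQ' with h | h | h | h <;> rcases hF' with h' | h' | h' | h' <;>
    rw [h, h'] at hdvd hFne hle <;> rw [h] <;> first
      | exact absurd rfl hFne
      | (exfalso; clear hdvd; omega)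
      | exact absurd hdvd h2
      | exact absurd hdvd hq1
      | exact absurd hdvd h4
      | exact Or.inl ⟨h3 hdvd, by norm_num⟩
      | exact Or.inl ⟨h6 hdvd, by norm_num⟩
      | exact Or.inr ⟨h7 hdvd, by norm_num⟩

/-- The reduction of the divisibility theorem to Frobenius' normal `p`-complement criterion. -/
theorem of_frobenius {G : Type*} [Group G] [Finite G] [IsSimpleGroup G]
    (hG : ¬ IsMulCommutative G) (h2 : Even (Nat.card G))
    (P : Sylow 2 G)
    (hfrob : (∀ Q : Subgroup G, Q ≤ (P : Subgroup G) →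
      ∀ g ∈ Subgroup.normalizer (Q : Set G), Nat.Coprime (orderOf g) 2 →
        g ∈ Subgroup.centralizer (Q : Set G)) →
      ∃ N : Subgroup G, N.Normal ∧ N.IsComplement' (P : Subgroup G)) :
    12 ∣ Nat.card G ∨ 16 ∣ Nat.card G ∨ 56 ∣ Nat.card G := by
  classical
  have : Fact (Nat.Prime 2) := ⟨Nat.prime_two⟩
  have hnc : ¬ ∃ N : Subgroup G, N.Normal ∧ N.IsComplement' (P : Subgroup G) := by
    rintro ⟨N, hN, hc⟩
    rcases hN.eq_bot_or_eq_top with h | h
    · -- `P = G` is a 2-group
      rw [h, Subgroup.isComplement'_bot_left] at hc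
      have hpg : IsPGroup 2 G := by
        have := P.isPGroup'
        rw [hc] at this
        exact this.of_equiv Subgroup.topEquiv
      have : Nontrivial G := inferInstance
      have hcen := hpg.center_nontrivial
      have hcne : Subgroup.center G ≠ ⊥ := (Subgroup.nontrivial_iff_ne_bot _).mp hcen
      have hctop : Subgroup.center G = ⊤ :=
        (Subgroup.Normal.eq_bot_or_eq_top inferInstance).resolve_left hcne
      apply hG
      constructor
      constructor
      intro a b
      have hb : b ∈ Subgroup.center G := hctop ▸ Subgroup.mem_top b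
      exact (Subgroup.mem_center_iff.mp hb a)
    · rw [h, Subgroup.isComplement'_top_left] at hc
      have hd : ¬ 2 ∣ (P : Subgroup G).index := P.not_dvd_index
      rw [hc, Subgroup.index_bot] at hd
      exact hd h2.two_dvd
  have hex : ∃ Q : Subgroup G, Q ≤ (P : Subgroup G) ∧
      ∃ g ∈ Subgroup.normalizer (Q : Set G), Nat.Coprime (orderOf g) 2 ∧
        g ∉ Subgroup.centralizer (Q : Set G) := by
    by_contra hcon
    push Not at hcon
    exact hnc (hfrob hcon)
  obtain ⟨Q, hQP, g, hgN, hgo, hgC⟩ := hex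
  have hPG : Nat.card P ∣ Nat.card G := Subgroup.card_subgroup_dvd_card _
  obtain ⟨n, hn⟩ := P.isPGroup'.exists_card_eq
  by_cases hn4 : 4 ≤ n
  · refine Or.inr (Or.inl (dvd_trans ?_ hPG))
    rw [hn]
    exact pow_dvd_pow 2 hn4
  have hP8 : Nat.card P ∣ 8 := by
    rw [hn]
    exact pow_dvd_pow 2 (show n ≤ 3 by omega)
  have hQ8 : Nat.card Q ∣ 8 := (Subgroup.card_dvd_of_le hQP).trans hP8
  have hQG : Nat.card Q ∣ Nat.card G := Subgroup.card_subgroup_dvd_card _
  let σ : MulAut Q := Q.normalizerMonoidHom ⟨g, hgN⟩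
  have hσ1 : σ ≠ 1 := by
    intro h
    have hk : (⟨g, hgN⟩ : Subgroup.normalizer (Q : Set G)) ∈ Q.normalizerMonoidHom.ker := h
    rw [Subgroup.normalizerMonoidHom_ker] at hk
    exact hgC (Subgroup.mem_subgroupOf.mp hk)
  have hσd : orderOf σ ∣ orderOf g := by
    have h1 : orderOf σ ∣ orderOf (⟨g, hgN⟩ : Subgroup.normalizer (Q : Set G)) :=
      orderOf_map_dvd _ _
    rwa [Subgroup.orderOf_mk] at h1
  have hgodd : Odd (orderOf g) := Nat.coprime_two_right.mp hgo
  have hσodd : Odd (orderOf σ) := Odd.of_dvd_nat hgodd hσd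
  have hgG : orderOf g ∣ Nat.card G := orderOf_dvd_natCard g
  rcases aut_of_card_dvd_eight hQ8 σ hσ1 hσodd with ⟨ha, hb⟩ | ⟨ha, hb⟩
  · left
    exact Nat.Coprime.mul_dvd_of_dvd_of_dvd (by norm_num : Nat.Coprime 3 4)
      (ha.trans (hσd.trans hgG)) (hb.trans hQG)
  · right; right
    exact Nat.Coprime.mul_dvd_of_dvd_of_dvd (by norm_num : Nat.Coprime 7 8)
      (ha.trans (hσd.trans hgG)) (hb.trans hQG)

/-- A non-abelian finite simple group of even order has order divisible by 12, 16 or 56. -/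
theorem result {G : Type*} [Group G] [Finite G] [IsSimpleGroup G]
    (hG : ¬ IsMulCommutative G) (h2 : Even (Nat.card G)) :
    12 ∣ Nat.card G ∨ 16 ∣ Nat.card G ∨ 56 ∣ Nat.card G := by
  have : Fact (Nat.Prime 2) := ⟨Nat.prime_two⟩
  exact of_frobenius hG h2 default (Cfsg.Agent.S0071.result default).mpr

end Cfsg.Agent.S0499
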