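import Cfsg.Statements.S0505
import Cfsg.Agent.Classification.LocalCore
set_option linter.all false
-- import your own Cfsg.Agent.* helpers here

set_option autoImplicit false
set_option linter.style.haveILetI false
open Cfsg

namespace Cfsg.Agent.S0505

open Subgroup
open Cfsg.Agent.Lib.Cores (le_pCore pCore_normal pCore_isPGroup le_pPrimeCore pPrimeCore_coprime
  pPrimeCore_normal pPrimeCore_characteristic)

/-- Let G be a finite group of even order in which the centralizer of every involution is solvable and has trivial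
core (no nontrivial normal subgroup of odd order). Then G is of characteristic 2 type. -/
theorem result {G : Type*} [Group G] [Finite G]
    (h2 : Even (Nat.card G))
    (hs : ∀ t : G, orderOf t = 2 → Group.IsSolvable (Subgroup.centralizer ({t} : Set G)))
    (hc : ∀ t : G, orderOf t = 2 → Cfsg.oddCore (Subgroup.centralizer ({t} : Set G)) = ⊥) :
    Cfsg.IsCharacteristicTwoType G := by
  refine ⟨h2, fun T hT hT1 => ?_⟩
  haveI : Fact (Nat.Prime 2) := ⟨Nat.prime_two⟩
  set N : Subgroup G := normalizer (T : Set G) with hN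
  -- `Q`, the image in `G` of `O₂(N)`
  set Q : Subgroup G := (pCore 2 N).map N.subtype with hQdef
  have hQN : Q ≤ N := map_subtype_le _
  have hQp : IsPGroup 2 Q := (pCore_isPGroup 2).map _
  have hTQ : T ≤ Q := by
    have h1 : T.subgroupOf N ≤ pCore 2 N :=
      le_pCore normal_in_normalizer hT.comap_subtype
    have h3 := map_mono (f := N.subtype) h1
    rwa [subgroupOf_map_subtype, inf_eq_left.mpr le_normalizer] at h3
  have hQ1 : Q ≠ ⊥ := fun h => hT1 (le_bot_iff.mp (h ▸ hTQ))
  haveI : Nontrivial Q := (nontrivial_iff_ne_bot Q).mpr hQ1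
  haveI : Nontrivial (center Q) := hQp.center_nontrivial
  -- an involution `t` in the centre of `Q`
  obtain ⟨t, htQ, ht2, htc⟩ : ∃ t : G, t ∈ Q ∧ orderOf t = 2 ∧ Q ≤ centralizer ({t} : Set G) := by
    have hZ : IsPGroup 2 (center Q) := hQp.to_subgroup _
    have hdvd : 2 ∣ Nat.card (center Q) := by
      obtain ⟨n, hn⟩ := IsPGroup.iff_card.mp hZ
      have h1 : 1 < Nat.card (center Q) := Finite.one_lt_card
      rw [hn] at h1 ⊢
      rcases n with _ | n
      · simp at h1
      · exact dvd_pow_self 2 (Nat.succ_ne_zero n)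
    obtain ⟨z, hz⟩ := exists_prime_orderOf_dvd_card' 2 hdvd
    refine ⟨((z : Q) : G), (z : Q).2, ?_, ?_⟩
    · rw [orderOf_coe, orderOf_coe, hz]
    · intro q hq
      rw [mem_centralizer_singleton_iff]
      have h1 := mem_center_iff.mp z.2 ⟨q, hq⟩
      exact (congrArg Subtype.val h1)
  haveI := hs t ht2
  have hchar := Cfsg.Agent.Classification.LocalCore.centralizer_pCore_le 2 (hc t ht2)
  -- `C = C_G(Q) ≤ N`
  set C : Subgroup G := centralizer (Q : Set G) with hCdef
  have hCt : C ≤ centralizer ({t} : Set G) := centralizer_le (Set.singleton_subset_iff.mpr htQ)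
  have hCN : C ≤ N := (centralizer_le hTQ).trans (centralizer_le_normalizer _)
  haveI : Group.IsSolvable C := Group.isSolvable_of_isSolvable_injective (inclusion_injective hCt)
  -- the core of `C` is trivial
  have hcoreC : pPrimeCore 2 C = ⊥ := by
    have h1 : (pPrimeCore 2 C).map C.subtype = ⊥ := by
      refine Cfsg.Agent.Classification.LocalCore.pPrimeCore_centralizer_eq_bot 2 Q hQp t htQ htc
        hchar _ ?_ (map_subtype_le _) ?_
      · rw [card_map_of_injective C.subtype_injective]
        exact pPrimeCore_coprime 2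
      · haveI := pPrimeCore_characteristic (G := C) 2
        have h3 : (pPrimeCore 2 C).Normal := inferInstance
        intro x hx
        rw [mem_normalizer_iff]
        intro y
        constructor
        · rintro ⟨z, hz, rfl⟩
          exact ⟨⟨x, hx⟩ * z * ⟨x, hx⟩⁻¹, h3.conj_mem z hz ⟨x, hx⟩, rfl⟩
        · rintro ⟨z, hz, hzy⟩
          refine ⟨⟨x, hx⟩⁻¹ * z * ⟨x, hx⟩, by simpa using h3.conj_mem z hz ⟨x, hx⟩⁻¹, ?_⟩
          have hz' : (z : G) = x * y * x⁻¹ := hzy
          show x⁻¹ * (z : G) * x = y
          rw [hz']; group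
    rwa [map_eq_bot_iff_of_injective _ C.subtype_injective] at h1
  have hcharC := Cfsg.Agent.Classification.LocalCore.centralizer_pCore_le 2 hcoreC
  -- `C` is normal in `N`
  have hCnorm : (C.subgroupOf N).Normal := by
    haveI := pCore_normal (G := N) 2
    have h1 : C.subgroupOf N = centralizer (pCore 2 N : Set N) := by
      ext x
      rw [mem_subgroupOf, mem_centralizer_iff, mem_centralizer_iff]
      constructor
      · intro h y hy
        exact Subtype.ext (h y ⟨y, hy, rfl⟩)
      · rintro h _ ⟨y, hy, rfl⟩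
        exact congrArg Subtype.val (h y hy)
    rw [h1]
    infer_instance
  -- `O₂(C) ≤ Q`
  have hCQ : (pCore 2 C).map C.subtype ≤ Q := by
    haveI := hCnorm
    haveI := Cfsg.Agent.Lib.Cores.pCore_characteristic (G := C.subgroupOf N) 2
    have h1 : (pCore 2 (C.subgroupOf N)).map (C.subgroupOf N).subtype ≤ pCore 2 N :=
      le_pCore inferInstance ((pCore_isPGroup 2).map _)
    rintro _ ⟨x, hx, rfl⟩
    have h4 := Cfsg.Agent.Lib.Cores.map_equiv_pCore (subgroupOfEquivOfLe hCN).symm 2
    have h5 : (subgroupOfEquivOfLe hCN).symm x ∈ pCore 2 (C.subgroupOf N) := by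
      rw [← h4]; exact ⟨x, hx, rfl⟩
    exact ⟨_, h1 ⟨_, h5, rfl⟩, rfl⟩
  -- conclusion
  show centralizer (pCore 2 N : Set N) ≤ pCore 2 N
  intro x hx
  have hxC : (x : G) ∈ C := by
    rw [hCdef, mem_centralizer_iff]
    rintro _ ⟨y, hy, rfl⟩
    exact congrArg Subtype.val (mem_centralizer_iff.mp hx y hy)
  have hxcc : (⟨x, hxC⟩ : C) ∈ pCore 2 C := by
    apply hcharC
    rw [mem_centralizer_iff]
    intro y hy
    apply Subtype.ext
    exact mem_centralizer_iff.mp hxC y (hCQ ⟨y, hy, rfl⟩)
  obtain ⟨y, hy, hyx⟩ := hCQ ⟨_, hxcc, rfl⟩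
  have : y = x := Subtype.ext hyx
  rwa [← this]

end Cfsg.Agent.S0505
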