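import Mathlib
import Cfsg.Statements.S0521
import Cfsg.Agent.Lib.Cores
import Cfsg.Agent.Lib.HallHigman
import Cfsg.Agent.S0044
set_option linter.all false

-- part: Classification/Transvection
section
set_option autoImplicit false

/-!
Two "transvections" (elements of order a power of `p` whose commutator on an elementary abelian `p`-group `V` is cyclic)
in a group of odd order: if they are `x` and `h x h⁻¹`, their quotient has order dividing `p` on `V`.
-/

namespace Cfsg.Agent.Classification.Transvection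

theorem one_add_pow_prime {A : Type*} [Ring A] {p : ℕ} (hp : p.Prime) (hp2 : p ≠ 2)
    (hchar : (p : A) = 0) {n : A} (hn : n ^ 3 = 0) : (1 + n) ^ p = 1 := by
  have hp3 : 3 ≤ p := by
    have := hp.two_le
    omega
  rw [Commute.add_pow (Commute.one_left n)]
  rw [Finset.sum_eq_single_of_mem p (Finset.mem_range.mpr (Nat.lt_succ_self p))]
  · simp
  · intro m hm hmp
    have hmlt : m < p := lt_of_le_of_ne (Nat.lt_succ_iff.mp (Finset.mem_range.mp hm)) hmp
    rcases Nat.eq_zero_or_pos m with rfl | hpos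
    · have : n ^ (p - 0) = 0 := by
        have h1 : p - 0 = 3 + (p - 3) := by omega
        rw [h1, pow_add, hn, zero_mul]
      rw [this]; simp
    · have hdvd : p ∣ p.choose m := hp.dvd_choose_self hpos.ne' hmlt
      obtain ⟨c, hc⟩ := hdvd
      rw [hc, Nat.cast_mul, hchar, zero_mul, mul_zero]

section

variable {V : Type*} [AddCommGroup V] {G : Type*} [Group G]

theorem end_mul_apply (f g : AddMonoid.End V) (w : V) : (f * g) w = f (g w) := rfl

theorem zsmul_eq_zero_of_dvd {p : ℕ} (hV : ∀ v : V, p • v = 0) {a : ℤ} (h : (p : ℤ) ∣ a)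
    (v : V) : a • v = 0 := by
  obtain ⟨c, rfl⟩ := h
  rw [mul_comm, mul_smul, natCast_zsmul, hV, smul_zero]

/-- Two opposite transvections generate a group of even order. -/
theorem odd_pair [Finite G] (hodd : Odd (Nat.card G)) (ρ : G →* AddMonoid.End V) {p : ℕ}
    (hp : p.Prime) (hp2 : p ≠ 2) (hV : ∀ v : V, p • v = 0) (t t' : G) (u v : V) (a b : ℤ)
    (h1 : ρ t u = u) (h2 : ρ t v = v + a • u) (h3 : ρ t' u = u + b • v) (h4 : ρ t' v = v) :
    a • u = 0 ∨ b • v = 0 := by
  by_cases ha : (p : ℤ) ∣ a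
  · exact Or.inl (zsmul_eq_zero_of_dvd hV ha u)
  by_cases hb : (p : ℤ) ∣ b
  · exact Or.inr (zsmul_eq_zero_of_dvd hV hb v)
  left
  -- find `j`
  have hab : ¬ (p : ℤ) ∣ b * a := by
    intro h
    rcases (Nat.prime_iff_prime_int.mp hp).dvd_or_dvd h with h | h
    · exact hb h
    · exact ha h
  have hcop : IsCoprime (b * a) (p : ℤ) :=
    ((Nat.prime_iff_prime_int.mp hp).coprime_iff_not_dvd.mpr hab).symm
  obtain ⟨x, y, hxy⟩ := hcop
  -- `j ≡ -x`
  have hpz : (0 : ℤ) < p := by exact_mod_cast hp.pos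
  obtain ⟨j, hj⟩ : ∃ j : ℕ, (p : ℤ) ∣ 1 + (j : ℤ) * b * a := by
    refine ⟨((-x) % p).toNat, ?_⟩
    have hnn : 0 ≤ (-x) % (p : ℤ) := Int.emod_nonneg _ hpz.ne'
    rw [Int.toNat_of_nonneg hnn]
    have h5 : (-x) % (p : ℤ) = -x - p * ((-x) / p) := by
      have := Int.emod_add_mul_ediv (-x) (p : ℤ)
      linarith
    rw [h5]
    refine ⟨y - ((-x) / p) * b * a, ?_⟩
    have : (p : ℤ) * y = 1 - x * (b * a) := by linarith
    linear_combination (-1 : ℤ) * this
  have hj' : ∀ w : V, w + ((j : ℤ) * b * a) • w = 0 := by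
    intro w
    have := zsmul_eq_zero_of_dvd hV hj w
    rwa [add_smul, one_smul] at this
  -- powers of `t'`
  have hpow_v : ∀ k : ℕ, ρ (t' ^ k) v = v := by
    intro k
    induction k with
    | zero => simp
    | succ k ih => rw [pow_succ, map_mul, end_mul_apply, h4, ih]
  have hpow_u : ∀ k : ℕ, ρ (t' ^ k) u = u + ((k : ℤ) * b) • v := by
    intro k
    induction k with
    | zero => simp
    | succ k ih =>
      rw [pow_succ, map_mul, end_mul_apply, h3, map_add, map_zsmul, ih, hpow_v]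
      push_cast
      rw [add_mul, add_smul, one_mul]
      abel
  set w : G := t * t' ^ j * t with hw
  have hwu : ρ w u = ((j : ℤ) * b) • v := by
    rw [hw, map_mul, map_mul, end_mul_apply, end_mul_apply, h1, hpow_u,
      map_add, map_zsmul, h1, h2]
    have := hj' u
    rw [smul_add, smul_smul]
    calc u + (((j : ℤ) * b) • v + ((j : ℤ) * b * a) • u)
        = (u + ((j : ℤ) * b * a) • u) + ((j : ℤ) * b) • v := by abel
      _ = _ := by rw [this, zero_add]
  have hwv : ρ w v = a • u := by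
    rw [hw, map_mul, map_mul, end_mul_apply, end_mul_apply, h2, map_add,
      map_zsmul, hpow_u, hpow_v, smul_add, smul_smul]
    have h6 := hj' v
    have h7 : v + (a • u + (a * ((j : ℤ) * b)) • v) = a • u := by
      calc v + (a • u + (a * ((j : ℤ) * b)) • v)
          = a • u + (v + ((j : ℤ) * b * a) • v) := by
            rw [mul_comm a ((j : ℤ) * b)]; abel
        _ = _ := by rw [h6, add_zero]
    rw [h7, map_zsmul, h1]
  have hw2 : ρ (w ^ 2) u = -u := by
    rw [pow_two, map_mul, end_mul_apply, hwu, map_zsmul, hwv, smul_smul]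
    exact eq_neg_of_add_eq_zero_right (hj' u)
  have hw2k : ∀ k : ℕ, ρ ((w ^ 2) ^ k) u = ((-1 : ℤ) ^ k) • u := by
    intro k
    induction k with
    | zero => simp
    | succ k ih =>
      rw [pow_succ, map_mul, end_mul_apply, hw2, map_neg, ih, pow_succ, mul_smul]
      simp
  have hn := hw2k (Nat.card G)
  rw [← pow_mul, mul_comm, pow_mul, pow_card_eq_one', one_pow, map_one, hodd.neg_one_pow] at hn
  have hu : u = -u := by simpa using hn
  have h2u : (2 : ℕ) • u = 0 := by
    rw [two_smul]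
    nth_rewrite 1 [hu]
    simp
  have hcop2 : Nat.Coprime 2 p := by
    rw [Nat.coprime_primes Nat.prime_two hp]
    exact hp2.symm
  have hu0 : u = 0 := by
    have h8 : addOrderOf u ∣ 1 := by
      have := Nat.dvd_gcd (addOrderOf_dvd_of_nsmul_eq_zero h2u)
        (addOrderOf_dvd_of_nsmul_eq_zero (hV u))
      rwa [hcop2] at this
    rw [Nat.dvd_one, AddMonoid.addOrderOf_eq_one_iff] at h8
    exact h8
  rw [hu0, smul_zero]

/-- A `p`-element whose commutator with `V` lies in `⟨u⟩` fixes `u`. -/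
theorem fix_of_pow (ρ : G →* AddMonoid.End V) {p : ℕ}
    (hp : p.Prime) (hV : ∀ v : V, p • v = 0) (t : G) (u : V) (c : ℤ) (m : ℕ)
    (ht : t ^ (p ^ m) = 1) (h : ρ t u = u + c • u) : ρ t u = u := by
  have hfact : Fact p.Prime := ⟨hp⟩
  have h1 : ρ t u = (1 + c) • u := by rw [h, add_smul, one_smul]
  have h2 : ∀ k : ℕ, ρ (t ^ k) u = ((1 + c) ^ k) • u := by
    intro k
    induction k with
    | zero => simp
    | succ k ih =>
      rw [pow_succ, map_mul, end_mul_apply, h1, map_zsmul, ih, smul_smul, pow_succ,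
        mul_comm]
  have h3 := h2 (p ^ m)
  rw [ht, map_one, AddMonoid.End.coe_one, id] at h3
  have h4 : ((1 + c) ^ (p ^ m) - 1) • u = 0 := by
    rw [sub_smul, one_smul, ← h3, sub_self]
  have h5 : (p : ℤ) ∣ ((1 + c) ^ (p ^ m) - 1) - c := by
    rw [← ZMod.intCast_zmod_eq_zero_iff_dvd]
    push_cast
    have : ((1 : ZMod p) + (c : ZMod p)) ^ (p ^ m) = 1 + c := ZMod.pow_card_pow _
    rw [this]; ring
  have h6 := zsmul_eq_zero_of_dvd hV h5 u
  rw [sub_smul, h4, zero_sub, neg_eq_zero] at h6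
  rw [h, h6, add_zero]

/-- The quotient of two transvections in a group of odd order has order dividing `p` on `V`. -/
theorem quotient_pow [Finite G] (hodd : Odd (Nat.card G)) (ρ : G →* AddMonoid.End V) {p : ℕ}
    (hp : p.Prime) (hp2 : p ≠ 2) (hV : ∀ v : V, p • v = 0) (t t' : G) (u v : V) (m : ℕ)
    (ht : t ^ (p ^ m) = 1) (ht' : t' ^ (p ^ m) = 1)
    (hu : ∀ w : V, ∃ c : ℤ, ρ t w = w + c • u) (hv : ∀ w : V, ∃ c : ℤ, ρ t' w = w + c • v) :
    ρ ((t⁻¹ * t') ^ p) = 1 := by
  have hchar : ((p : ℕ) : AddMonoid.End V) = 0 := by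
    ext w
    simpa using hV w
  have hfu : ρ t u = u := by
    obtain ⟨c, hc⟩ := hu u
    exact fix_of_pow ρ hp hV t u c m ht hc
  have hfv : ρ t' v = v := by
    obtain ⟨c, hc⟩ := hv v
    exact fix_of_pow ρ hp hV t' v c m ht' hc
  set T : AddMonoid.End V := ρ t - 1 with hT
  set T' : AddMonoid.End V := ρ t' - 1 with hT'
  have hTapp : ∀ w, T w = ρ t w - w := fun w => rfl
  have hT'app : ∀ w, T' w = ρ t' w - w := fun w => rfl
  have hTu : ∀ w, ∃ c : ℤ, T w = c • u := by
    intro w
    obtain ⟨c, hc⟩ := hu w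
    exact ⟨c, by rw [hTapp, hc]; abel⟩
  have hTv : ∀ w, ∃ c : ℤ, T' w = c • v := by
    intro w
    obtain ⟨c, hc⟩ := hv w
    exact ⟨c, by rw [hT'app, hc]; abel⟩
  have hTu0 : T u = 0 := by rw [hTapp, hfu, sub_self]
  have hTv0 : T' v = 0 := by rw [hT'app, hfv, sub_self]
  have hTT : T * T = 0 := by
    ext w
    obtain ⟨c, hc⟩ := hTu w
    rw [end_mul_apply, hc, map_zsmul, hTu0, smul_zero]
    rfl
  have hTT' : T' * T' = 0 := by
    ext w
    obtain ⟨c, hc⟩ := hTv w
    rw [end_mul_apply, hc, map_zsmul, hTv0, smul_zero]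
    rfl
  have ht1 : ρ t = 1 + T := by rw [hT]; abel
  have ht1' : ρ t' = 1 + T' := by rw [hT']; abel
  have htinv : ρ t⁻¹ = 1 - T := by
    have h1 : ρ t⁻¹ * ρ t = 1 := by rw [← map_mul, inv_mul_cancel, map_one]
    have h2 : ρ t * (1 - T) = 1 := by
      rw [ht1]
      have : (1 + T) * (1 - T) = 1 - T * T := by noncomm_ring
      rw [this, hTT, sub_zero]
    calc ρ t⁻¹ = ρ t⁻¹ * (ρ t * (1 - T)) := by rw [h2, mul_one]
      _ = 1 - T := by rw [← mul_assoc, h1, one_mul]
  have hkey : T * T' = 0 ∨ T' * T = 0 := by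
    obtain ⟨a, ha⟩ := hTu v
    obtain ⟨b, hb⟩ := hTv u
    have h2 : ρ t v = v + a • u := by rw [← ha, hTapp]; abel
    have h3 : ρ t' u = u + b • v := by rw [← hb, hT'app]; abel
    rcases odd_pair hodd ρ hp hp2 hV t t' u v a b hfu h2 h3 hfv with h | h
    · left
      ext w
      obtain ⟨c, hc⟩ := hTv w
      rw [end_mul_apply, hc, map_zsmul, ha, h, smul_zero]
      rfl
    · right
      ext w
      obtain ⟨c, hc⟩ := hTu w
      rw [end_mul_apply, hc, map_zsmul, hb, h, smul_zero]
      rfl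
  have hn : ρ (t⁻¹ * t') = 1 + (T' - T - T * T') := by
    rw [map_mul, htinv, ht1']
    noncomm_ring
  have hn3 : (T' - T - T * T') ^ 3 = 0 := by
    rcases hkey with h | h
    · rw [h, sub_zero]
      have e : (T' - T) ^ 3 = T' * T' * T' - T' * T' * T - T' * (T * T') + T' * (T * T)
          - T * T' * T' + T * T' * T + T * T * T' - T * T * T := by noncomm_ring
      rw [e, h, hTT, hTT']
      simp
    · have e : (T' - T - T * T') ^ 3 = 0 := by
        have e1 : T' * (T' - T - T * T') = 0 := by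
          have : T' * (T' - T - T * T') = T' * T' - T' * T - T' * T * T' := by noncomm_ring
          rw [this, hTT', h]; simp
        have e2 : (T' - T - T * T') ^ 2 = - (T * T') := by
          have : (T' - T - T * T') ^ 2 = T' * (T' - T - T * T') - T * (T' - T - T * T')
              - T * (T' * (T' - T - T * T')) := by noncomm_ring
          rw [this, e1]
          have : T * (T' - T - T * T') = T * T' - T * T - T * T * T' := by noncomm_ring
          rw [this, hTT]
          simp
        rw [pow_succ, e2]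
        have : -(T * T') * (T' - T - T * T') = - (T * (T' * (T' - T - T * T'))) := by
          noncomm_ring
        rw [this, e1]; simp
      exact e
  rw [map_pow, hn]
  exact one_add_pow_prime hp hp2 hchar hn3

end

end Cfsg.Agent.Classification.Transvection
end

-- part: S0521
section
set_option autoImplicit false
open Cfsg

namespace Cfsg.Agent.S0521

open scoped IsMulCommutative

/-- If `x` is a `p`-element of a group of odd order whose commutators with the normal elementary abelian subgroup `A` lie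
in a cyclic group, then `(x⁻¹ x^h)^p` centralizes `A`. -/
theorem step {p : ℕ} [hp : Fact p.Prime] (hp2 : p ≠ 2) {X : Type*} [Group X] [Finite X]
    (hX : Odd (Nat.card X)) (A : Subgroup X) [hAn : A.Normal]
    (hAc : ∀ a ∈ A, ∀ b ∈ A, a * b = b * a) (hAp : ∀ a ∈ A, a ^ p = 1)
    (C : Subgroup X) (hC : IsCyclic C) (x h : X) (m : ℕ) (hx : x ^ (p ^ m) = 1)
    (hxC : ∀ a ∈ A, x * a * x⁻¹ * a⁻¹ ∈ C) :
    ∀ a ∈ A, (x⁻¹ * (h * x * h⁻¹)) ^ p * a = a * (x⁻¹ * (h * x * h⁻¹)) ^ p := by
  have hcomm : IsMulCommutative A :=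
    ⟨⟨fun a b => Subtype.ext (hAc a a.2 b b.2)⟩⟩
  let ρ : X →* AddMonoid.End (Additive A) :=
    { toFun := fun y => (MulAut.conjNormal y : A ≃* A).toMonoidHom.toAdditive
      map_one' := by
        refine AddMonoidHom.ext fun w => ?_
        apply Additive.toMul.injective
        change (MulAut.conjNormal (1 : X) : A ≃* A) w.toMul = w.toMul
        rw [map_one]
        rfl
      map_mul' := by
        intro y z
        refine AddMonoidHom.ext fun w => ?_
        apply Additive.toMul.injective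
        change (MulAut.conjNormal (y * z) : A ≃* A) w.toMul =
          MulAut.conjNormal y (MulAut.conjNormal z w.toMul)
        rw [map_mul]
        rfl }
  have hρ : ∀ (y : X) (a : A), ((ρ y (Additive.ofMul a)).toMul : X) = y * a * y⁻¹ := fun y a => by
    exact MulAut.conjNormal_apply y a
  have hVp : ∀ v : Additive A, p • v = 0 := by
    intro v
    apply Additive.toMul.injective
    apply Subtype.ext
    exact hAp _ v.toMul.2
  -- a generator of `C ⊓ A`
  have hCA : IsCyclic (C ⊓ A : Subgroup X) := Subgroup.isCyclic_of_le inf_le_left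
  obtain ⟨g, hg⟩ := hCA.exists_generator
  have hgA : (g : X) ∈ A := (Subgroup.mem_inf.mp g.2).2
  have hgen : ∀ y ∈ A, y ∈ C → ∃ c : ℤ, (g : X) ^ c = y := by
    intro y hyA hyC
    obtain ⟨c, hc⟩ := Subgroup.mem_zpowers_iff.mp (hg ⟨y, Subgroup.mem_inf.mpr ⟨hyC, hyA⟩⟩)
    exact ⟨c, by simpa using congrArg Subtype.val hc⟩
  have hmemA : ∀ (y : X) (a : X), a ∈ A → y * a * y⁻¹ * a⁻¹ ∈ A := fun y a ha =>
    A.mul_mem (hAn.conj_mem a ha y) (A.inv_mem ha)
  have key := Cfsg.Agent.Classification.Transvection.quotient_pow hX ρ hp.out hp2 hVp x (h * x * h⁻¹)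
    (Additive.ofMul (⟨g, hgA⟩ : A))
    (Additive.ofMul (⟨h * g * h⁻¹, hAn.conj_mem _ hgA h⟩ : A)) m hx
    (by rw [conj_pow, hx]; group)
    (by
      intro w
      obtain ⟨c, hc⟩ := hgen _ (hmemA x w.toMul w.toMul.2) (hxC w.toMul w.toMul.2)
      refine ⟨c, ?_⟩
      apply Additive.toMul.injective
      apply Subtype.ext
      change (MulAut.conjNormal x w.toMul : X) = (w.toMul : X) * (g : X) ^ c
      rw [hc, MulAut.conjNormal_apply, hAc _ w.toMul.2 _ (hmemA x w.toMul w.toMul.2)]
      group)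
    (by
      intro w
      have hw' : h⁻¹ * (w.toMul : X) * h ∈ A := by
        have := hAn.conj_mem w.toMul w.toMul.2 h⁻¹
        rwa [inv_inv] at this
      obtain ⟨c, hc⟩ := hgen _ (hmemA x _ hw') (hxC _ hw')
      refine ⟨c, ?_⟩
      apply Additive.toMul.injective
      apply Subtype.ext
      change (MulAut.conjNormal (h * x * h⁻¹) w.toMul : X) =
        (w.toMul : X) * (h * (g : X) * h⁻¹) ^ c
      have h1 : (h * (g : X) * h⁻¹) ^ c = h * (g : X) ^ c * h⁻¹ := by
        exact conj_zpow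
      have h2 : h * (g : X) ^ c * h⁻¹ ∈ A := by
        rw [← h1]
        exact A.zpow_mem (hAn.conj_mem _ hgA h) c
      rw [h1, hAc _ w.toMul.2 _ h2, hc, MulAut.conjNormal_apply]
      group)
  intro a ha
  have h3 := hρ ((x⁻¹ * (h * x * h⁻¹)) ^ p) ⟨a, ha⟩
  rw [key] at h3
  have h4 : a = (x⁻¹ * (h * x * h⁻¹)) ^ p * a * ((x⁻¹ * (h * x * h⁻¹)) ^ p)⁻¹ := h3
  exact (eq_mul_inv_iff_mul_eq.mp h4).symm

/-- the elements of order dividing `p` of the centre of `R` -/
def om {X : Type*} [Group X] (p : ℕ) (R : Subgroup X) : Subgroup X where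
  carrier := {a | a ∈ R ∧ (∀ r ∈ R, r * a = a * r) ∧ a ^ p = 1}
  one_mem' := ⟨R.one_mem, by simp, by simp⟩
  mul_mem' := by
    rintro a b ⟨ha, ha1, ha2⟩ ⟨hb, hb1, hb2⟩
    refine ⟨R.mul_mem ha hb, ?_, ?_⟩
    · intro r hr
      rw [← mul_assoc, ha1 r hr, mul_assoc, hb1 r hr, mul_assoc]
    · have : Commute a b := hb1 a ha
      rw [this.mul_pow, ha2, hb2, one_mul]
  inv_mem' := by
    rintro a ⟨ha, ha1, ha2⟩
    refine ⟨R.inv_mem ha, ?_, ?_⟩
    · intro r hr
      have : Commute r a := ha1 r hr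
      exact this.inv_right
    · rw [inv_pow, ha2, inv_one]

theorem mem_om {X : Type*} [Group X] {p : ℕ} {R : Subgroup X} {a : X} :
    a ∈ om p R ↔ a ∈ R ∧ (∀ r ∈ R, r * a = a * r) ∧ a ^ p = 1 := Iff.rfl

theorem om_normal {X : Type*} [Group X] {p : ℕ} {R : Subgroup X} (hR : R.Normal) :
    (om p R).Normal := by
  constructor
  rintro a ⟨ha, ha1, ha2⟩ g
  refine ⟨hR.conj_mem a ha g, ?_, ?_⟩
  · intro r hr
    have h1 := ha1 (g⁻¹ * r * g) (by simpa using hR.conj_mem r hr g⁻¹)
    have h2 : g * ((g⁻¹ * r * g) * a) * g⁻¹ = g * (a * (g⁻¹ * r * g)) * g⁻¹ := by rw [h1]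
    simpa [mul_assoc] using h2
  · rw [conj_pow, ha2]; group

theorem om_ne_bot {X : Type*} [Group X] [Finite X] {p : ℕ} [Fact p.Prime] {R : Subgroup X}
    (hR : IsPGroup p R) (hne : R ≠ ⊥) : om p R ≠ ⊥ := by
  have : Nontrivial R := (Subgroup.nontrivial_iff_ne_bot R).mpr hne
  have hc : Nontrivial (Subgroup.center R) := hR.center_nontrivial
  have hcp : IsPGroup p (Subgroup.center R) := hR.to_subgroup _
  obtain ⟨z, hz⟩ := exists_prime_orderOf_dvd_card' (G := Subgroup.center R) p
    (hcp.nontrivial_iff_card.mp hc |>.elim fun n hn => hn.2 ▸ dvd_pow_self p hn.1.ne')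
  intro hbot
  have h1 : ((z : R) : X) ∈ om p R := by
    refine ⟨(z : R).2, ?_, ?_⟩
    · intro r hr
      have := Subgroup.mem_center_iff.mp z.2 ⟨r, hr⟩
      exact congrArg Subtype.val this
    · have h3 : z ^ p = 1 := by rw [← hz]; exact pow_orderOf_eq_one z
      have h4 := congrArg (fun y : Subgroup.center R => ((y : R) : X)) h3
      simpa using h4
  rw [hbot, Subgroup.mem_bot] at h1
  have h2 : z = 1 := by
    apply Subtype.ext
    apply Subtype.ext
    exact h1
  rw [h2, orderOf_one] at hz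
  exact (Fact.out : p.Prime).one_lt.ne hz

theorem conj_pow_of_comm {X : Type*} [Group X] {g a z : X} (h1 : g * a * g⁻¹ = z * a)
    (h2 : g * z = z * g) (j : ℕ) : g ^ j * a * (g ^ j)⁻¹ = z ^ j * a := by
  induction j with
  | zero => simp
  | succ j ih =>
    have h3 : g ^ (j + 1) * a * (g ^ (j + 1))⁻¹ = g * (g ^ j * a * (g ^ j)⁻¹) * g⁻¹ := by
      rw [pow_succ']
      group
    have h4 : g * z ^ j = z ^ j * g := (Commute.pow_right h2 j)
    rw [h3, ih, ← mul_assoc, h4, mul_assoc, mul_assoc, ← mul_assoc g a g⁻¹, h1, pow_succ]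
    group

universe u

theorem exists_pow_centralize {p : ℕ} [hp : Fact p.Prime] (hp2 : p ≠ 2) (n : ℕ) :
    ∀ (X : Type u) [Group X] [Finite X] (_ : Odd (Nat.card X)) (R : Subgroup X) (_ : R.Normal)
      (_ : IsPGroup p R) (_ : Nat.card R ≤ n) (C : Subgroup X) (_ : IsCyclic C) (x h : X) (m : ℕ)
      (_ : x ^ (p ^ m) = 1) (_ : ∀ a ∈ R, x * a * x⁻¹ * a⁻¹ ∈ C),
      ∃ k : ℕ, ∀ a ∈ R, (x⁻¹ * (h * x * h⁻¹)) ^ (p ^ k) * a =
        a * (x⁻¹ * (h * x * h⁻¹)) ^ (p ^ k) := by
  induction n with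
  | zero =>
    intro X _ _ _ R _ _ hn
    exact absurd hn (by have := Nat.card_pos (α := R); omega)
  | succ n ih =>
    intro X _ _ hX R hRn hR hn C hC x h m hx hxC
    by_cases hbot : R = ⊥
    · refine ⟨0, ?_⟩
      intro a ha
      rw [hbot, Subgroup.mem_bot] at ha
      rw [ha, mul_one, one_mul]
    set A := om p R with hAdef
    have hAn : A.Normal := om_normal hRn
    have hAbot : A ≠ ⊥ := om_ne_bot hR hbot
    have hAR : A ≤ R := fun a ha => ha.1
    set k := x⁻¹ * (h * x * h⁻¹) with hk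
    -- the quotient
    have hodd : Odd (Nat.card (X ⧸ A)) := by
      have h1 : Nat.card (X ⧸ A) ∣ Nat.card X := Subgroup.card_quotient_dvd_card A
      exact Odd.of_dvd_nat hX h1
    have hcard : Nat.card (R.map (QuotientGroup.mk' A)) ≤ n := by
      have h1 : Nat.card (R.map (QuotientGroup.mk' A)) < Nat.card R := by
        have h2 : Nat.card A * Nat.card (R.map (QuotientGroup.mk' A)) = Nat.card R := by
          have h3 := Subgroup.card_mul_index (A.subgroupOf R)
          rw [Nat.card_congr (Subgroup.subgroupOfEquivOfLe hAR).toEquiv] at h3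
          rw [← h3]
          congr 1
          have h5 : (QuotientGroup.mk' A).ker = A := QuotientGroup.ker_mk' A
          have h6 := Subgroup.relIndex_ker (f := QuotientGroup.mk' A) R
          rw [h5] at h6
          exact h6.symm
        have h3 : 1 < Nat.card A := by
          rw [Subgroup.one_lt_card_iff_ne_bot]
          exact hAbot
        have h4 : 0 < Nat.card (R.map (QuotientGroup.mk' A)) := Nat.card_pos
        nlinarith
      omega
    have hxq : (QuotientGroup.mk' A x) ^ (p ^ m) = 1 := by rw [← map_pow, hx, map_one]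
    have hCq : IsCyclic (C.map (QuotientGroup.mk' A)) := by
      have := hC
      exact isCyclic_of_surjective _ ((QuotientGroup.mk' A).subgroupMap_surjective C)
    obtain ⟨e, he⟩ := ih (X ⧸ A) hodd (R.map (QuotientGroup.mk' A))
      (hRn.map _ (QuotientGroup.mk'_surjective A)) (hR.map _) hcard
      (C.map (QuotientGroup.mk' A)) hCq (QuotientGroup.mk' A x) (QuotientGroup.mk' A h) m hxq
      (by
        rintro _ ⟨a, ha, rfl⟩
        rw [← map_inv, ← map_inv, ← map_mul, ← map_mul, ← map_mul]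
        exact ⟨_, hxC a ha, rfl⟩)
    have hkq : (QuotientGroup.mk' A x)⁻¹ * (QuotientGroup.mk' A h * QuotientGroup.mk' A x *
        (QuotientGroup.mk' A h)⁻¹) = QuotientGroup.mk' A k := by
      rw [hk]; simp
    rw [hkq] at he
    have hA := step hp2 hX A (fun a ha b hb => hb.2.1 a ha.1) (fun a ha => ha.2.2) C hC x h m hx
      (fun a ha => hxC a (hAR ha))
    rw [← hk] at hA
    refine ⟨e + 2, ?_⟩
    intro a ha
    set g := k ^ (p ^ (e + 1)) with hg
    -- `g` centralizes `A`
    have hgA : ∀ z ∈ A, g * z = z * g := by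
      intro z hz
      have h1 : Commute (k ^ p) z := hA z hz
      have h2 : g = (k ^ p) ^ (p ^ e) := by
        rw [hg, ← pow_mul, pow_succ, mul_comm]
      rw [h2]
      exact h1.pow_left _
    -- `g a g⁻¹ a⁻¹ ∈ A`
    have hz : g * a * g⁻¹ * a⁻¹ ∈ A := by
      rw [← QuotientGroup.ker_mk' A, MonoidHom.mem_ker]
      have h1 : Commute (QuotientGroup.mk' A k ^ (p ^ e)) (QuotientGroup.mk' A a) :=
        he _ ⟨a, ha, rfl⟩
      have h2 : QuotientGroup.mk' A g = ((QuotientGroup.mk' A k) ^ (p ^ e)) ^ p := by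
        rw [hg, map_pow, ← pow_mul, pow_succ]
      have h3 : Commute (QuotientGroup.mk' A g) (QuotientGroup.mk' A a) := by
        rw [h2]
        exact h1.pow_left _
      rw [map_mul, map_mul, map_mul, map_inv, map_inv, h3.eq]
      group
    have h1 : g * a * g⁻¹ = (g * a * g⁻¹ * a⁻¹) * a := by group
    have h2 := conj_pow_of_comm h1 (hgA _ hz) p
    have h3 : (g * a * g⁻¹ * a⁻¹) ^ p = 1 := hz.2.2
    rw [h3, one_mul] at h2
    have h4 : k ^ (p ^ (e + 2)) = g ^ p := by
      rw [hg, ← pow_mul, pow_succ p (e + 1)]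
    rw [h4]
    exact mul_inv_eq_iff_eq_mul.mp h2


/-- In a solvable group of odd order with `O_{p'} = 1`, a Sylow `p`-subgroup with cyclic derived subgroup is `O_p`. -/
theorem sylow_le_pCore {X : Type u} [Group X] [Finite X] [Group.IsSolvable X]
    (hX : Odd (Nat.card X)) (p : ℕ) [hp : Fact p.Prime] (h1 : Cfsg.pPrimeCore p X = ⊥)
    (S : Sylow p X) (hS : IsCyclic (commutator (S : Subgroup X))) :
    (S : Subgroup X) ≤ Cfsg.pCore p X := by
  by_cases hp2 : p = 2
  · -- `S` is trivial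
    subst hp2
    have hcard : Nat.card (S : Subgroup X) = 1 := by
      obtain ⟨n, hn⟩ := IsPGroup.iff_card.mp S.2
      have hdvd : Nat.card (S : Subgroup X) ∣ Nat.card X := Subgroup.card_subgroup_dvd_card _
      have hodd : Odd (Nat.card (S : Subgroup X)) := Odd.of_dvd_nat hX hdvd
      rcases Nat.eq_zero_or_pos n with h | h
      · rw [hn, h, pow_zero]
      · exfalso
        rw [hn] at hodd
        have : Even (2 ^ n) := (Nat.even_pow.mpr ⟨even_two, h.ne'⟩)
        exact (Nat.not_even_iff_odd.mpr hodd) this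
    have : (S : Subgroup X) = ⊥ := Subgroup.card_eq_one.mp hcard
    rw [this]
    exact bot_le
  set P := Cfsg.pCore p X with hP
  have hPn : P.Normal := Cfsg.Agent.Lib.Cores.pCore_normal p
  have hPp : IsPGroup p P := Cfsg.Agent.Lib.Cores.pCore_isPGroup p
  have hPS : P ≤ (S : Subgroup X) := Cfsg.Agent.Lib.Cores.pCore_le_sylow S
  have hCP : Subgroup.centralizer (P : Set X) ≤ P :=
    Cfsg.Agent.Lib.HallHigman.centralizer_pCore_le_of_solvable p h1
  -- the derived subgroup of `S` as a subgroup of `X`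
  set C : Subgroup X := (commutator (S : Subgroup X)).map (S : Subgroup X).subtype with hCdef
  have hC : IsCyclic C :=
    isCyclic_of_surjective _
      ((S : Subgroup X).subtype.subgroupMap_surjective (commutator (S : Subgroup X)))
  have hcommC : ∀ x ∈ (S : Subgroup X), ∀ a ∈ P, x * a * x⁻¹ * a⁻¹ ∈ C := by
    intro x hx a ha
    refine ⟨(⟨x, hx⟩ : (S : Subgroup X)) * ⟨a, hPS ha⟩ * (⟨x, hx⟩ : (S : Subgroup X))⁻¹ *
      (⟨a, hPS ha⟩ : (S : Subgroup X))⁻¹, ?_, ?_⟩
    · exact Subgroup.commutator_mem_commutator (Subgroup.mem_top _) (Subgroup.mem_top _)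
    · simp
  -- the quotient by `P`
  let H := X ⧸ P
  have hHp : Cfsg.pCore p H = ⊥ := Cfsg.Agent.Lib.Cores.pCore_quotient_pCore p
  set Q := Cfsg.pPrimeCore p H with hQ
  have hQn : Q.Normal := Cfsg.Agent.Lib.Cores.pPrimeCore_normal p
  have hQc : (Nat.card Q).Coprime p := Cfsg.Agent.Lib.Cores.pPrimeCore_coprime p
  have hFQ : Cfsg.fittingSubgroup H ≤ Q := by
    rw [Cfsg.Agent.Lib.Cores.fittingSubgroup_eq_iSup_pCore]
    refine iSup_le ?_
    intro q
    by_cases hq : (q : ℕ) = p
    · rw [hq, hHp]; exact bot_le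
    · have hqf : Fact (q : ℕ).Prime := ⟨q.2⟩
      apply Cfsg.Agent.Lib.Cores.le_pPrimeCore (Cfsg.Agent.Lib.Cores.pCore_normal _)
      obtain ⟨n, hn⟩ := IsPGroup.iff_card.mp (Cfsg.Agent.Lib.Cores.pCore_isPGroup (G := H) (q : ℕ))
      rw [hn]
      exact Nat.Coprime.pow_left n ((Nat.coprime_primes q.2 hp.out).mpr hq)
  have hCQ : Subgroup.centralizer (Q : Set H) ≤ Q := by
    have hsol : Group.IsSolvable H := inferInstance
    exact (Subgroup.centralizer_le (fun x hx => hFQ hx)).trans
      ((Cfsg.Agent.S0044.centralizer_fitting_le H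
        (Cfsg.Agent.S0044.fittingSubgroup_normal H)).trans hFQ)
  intro x hx
  obtain ⟨m, hm⟩ : ∃ m, x ^ (p ^ m) = 1 := by
    obtain ⟨m, hm⟩ := S.2 ⟨x, hx⟩
    exact ⟨m, by simpa using congrArg Subtype.val hm⟩
  -- `x` centralizes `Q`
  have hxQ : (QuotientGroup.mk' P x) ∈ Subgroup.centralizer (Q : Set H) := by
    rw [Subgroup.mem_centralizer_iff]
    intro y hy
    obtain ⟨h, rfl⟩ := QuotientGroup.mk'_surjective P y
    obtain ⟨k, hk⟩ := exists_pow_centralize hp2 (Nat.card P) X hX P hPn hPp le_rfl C hC x h m hm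
      (hcommC x hx)
    set g := x⁻¹ * (h * x * h⁻¹) with hg
    have h2 : g ^ (p ^ k) ∈ P := by
      apply hCP
      rw [Subgroup.mem_centralizer_iff]
      intro a ha
      exact (hk a ha).symm
    have h3 : (QuotientGroup.mk' P g) ^ (p ^ k) = 1 := by
      rw [← map_pow, ← MonoidHom.mem_ker, QuotientGroup.ker_mk']
      exact h2
    have h4 : QuotientGroup.mk' P g ∈ Q := by
      have h5 : QuotientGroup.mk' P g = (QuotientGroup.mk' P x)⁻¹ * QuotientGroup.mk' P h *
          (QuotientGroup.mk' P x) * (QuotientGroup.mk' P h)⁻¹ := by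
        rw [hg]; simp [mul_assoc]
      rw [h5]
      apply Q.mul_mem _ (Q.inv_mem hy)
      have h6 := hQn.conj_mem _ hy (QuotientGroup.mk' P x)⁻¹
      rwa [inv_inv] at h6
    have h5 : QuotientGroup.mk' P g = 1 := by
      have h6 : orderOf (QuotientGroup.mk' P g) ∣ p ^ k := orderOf_dvd_of_pow_eq_one h3
      have h7 : orderOf (QuotientGroup.mk' P g) ∣ Nat.card Q := by
        have := orderOf_dvd_natCard (⟨_, h4⟩ : Q)
        rwa [← Subgroup.orderOf_coe] at this
      have h8 := Nat.Coprime.pow_right k hQc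
      have h9 := Nat.dvd_gcd h7 h6
      rw [h8, Nat.dvd_one, orderOf_eq_one_iff] at h9
      exact h9
    have h6 : (QuotientGroup.mk' P x)⁻¹ * (QuotientGroup.mk' P h *
          (QuotientGroup.mk' P x) * (QuotientGroup.mk' P h)⁻¹) = 1 := by
      rw [← h5, hg]; simp
    rw [inv_mul_eq_one] at h6
    exact (eq_mul_inv_iff_mul_eq.mp h6).symm
  have hxQ2 := hCQ hxQ
  have hx1 : QuotientGroup.mk' P x = 1 := by
    have h6 : orderOf (QuotientGroup.mk' P x) ∣ p ^ m :=
      orderOf_dvd_of_pow_eq_one (by rw [← map_pow, hm, map_one])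
    have h7 : orderOf (QuotientGroup.mk' P x) ∣ Nat.card Q := by
      have := orderOf_dvd_natCard (⟨_, hxQ2⟩ : Q)
      rwa [← Subgroup.orderOf_coe] at this
    have h8 := Nat.Coprime.pow_right m hQc
    have h9 := Nat.dvd_gcd h7 h6
    rw [h8, Nat.dvd_one, orderOf_eq_one_iff] at h9
    exact h9
  rwa [← MonoidHom.mem_ker, QuotientGroup.ker_mk'] at hx1

/-- Let X be a finite solvable group of odd order, p a prime and S a Sylow p-subgroup of X whose commutator subgroup is
cyclic. Then the product of the largest normal subgroup of X of order prime to p with S is a normal subgroup of X. -/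
theorem result {X : Type*} [Group X] [Finite X] [Group.IsSolvable X]
    (hX : Odd (Nat.card X)) (p : ℕ) [Fact p.Prime] (S : Sylow p X) (hS : IsCyclic (commutator (S : Subgroup X))) :
    (Cfsg.pPrimeCore p X ⊔ (S : Subgroup X)).Normal := by
  set O := Cfsg.pPrimeCore p X with hO
  have hOn : O.Normal := Cfsg.Agent.Lib.Cores.pPrimeCore_normal p
  have hodd : Odd (Nat.card (X ⧸ O)) := by
    have h1 : Nat.card (X ⧸ O) ∣ Nat.card X := Subgroup.card_quotient_dvd_card O
    exact Odd.of_dvd_nat hX h1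
  have hbot : Cfsg.pPrimeCore p (X ⧸ O) = ⊥ :=
    Cfsg.Agent.Lib.Cores.pPrimeCore_quotient_pPrimeCore p
  let S' : Sylow p (X ⧸ O) := S.mapSurjective (QuotientGroup.mk'_surjective O)
  have hS'coe : (S' : Subgroup (X ⧸ O)) = (S : Subgroup X).map (QuotientGroup.mk' O) :=
    Sylow.coe_mapSurjective _ _
  have hS' : IsCyclic (commutator (S' : Subgroup (X ⧸ O))) := by
    let f : (S : Subgroup X) →* (S' : Subgroup (X ⧸ O)) :=
      ((QuotientGroup.mk' O).comp (S : Subgroup X).subtype).codRestrict _ (by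
        rintro ⟨s, hs⟩
        rw [hS'coe]
        exact ⟨s, hs, rfl⟩)
    have hf : Function.Surjective f := by
      rintro ⟨y, hy⟩
      have hy' := hy
      rw [hS'coe] at hy'
      obtain ⟨s, hs, hsy⟩ := hy'
      exact ⟨⟨s, hs⟩, Subtype.ext hsy⟩
    have h1 : commutator (S' : Subgroup (X ⧸ O)) = (commutator (S : Subgroup X)).map f := by
      rw [commutator_def, commutator_def, Subgroup.map_commutator,
        Subgroup.map_top_of_surjective f hf]
    rw [h1]
    exact isCyclic_of_surjective _ (f.subgroupMap_surjective _)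
  have hle := sylow_le_pCore hodd p hbot S' hS'
  have heq : (S' : Subgroup (X ⧸ O)) = Cfsg.pCore p (X ⧸ O) :=
    le_antisymm hle (Cfsg.Agent.Lib.Cores.pCore_le_sylow S')
  have hn : ((S : Subgroup X).map (QuotientGroup.mk' O)).Normal := by
    rw [← hS'coe, heq]
    exact Cfsg.Agent.Lib.Cores.pCore_normal p
  have h2 := hn.comap (QuotientGroup.mk' O)
  rwa [Subgroup.comap_map_eq, QuotientGroup.ker_mk', sup_comm] at h2

end Cfsg.Agent.S0521
end
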