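import Mathlib
import Cfsg.Agent.S0024
import Cfsg.Agent.S0025
import Cfsg.Agent.Lib.CoprimeHyperplane
import Cfsg.Agent.SignalizersComponents.CoprimeBasic
import Cfsg.Prelude.Def_Solvable
import Cfsg.Prelude.Def_Transfer
import Cfsg.Agent.Lib.NormalAbelian
import Cfsg.Agent.PLocal.OffenderStep
import Cfsg.Agent.Classification.InvariantCore
import Cfsg.Statements.S0522
import Cfsg.Agent.Classification.NormalPair
set_option linter.all false

-- part: Classification/TransitivityCore
section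
/-!
# The induction behind Thompson's transitivity theorem

`B` is an abelian `p`-subgroup of a finite group `X` containing an elementary abelian subgroup `W` of order at
least `p ^ 3`, and for every `1 ≠ a ∈ W` all `B`-invariant `q`-subgroups of `C_X(a)` lie in one `B`-invariant
`p'`-subgroup `K a`. Then any two maximal `B`-invariant `q`-subgroups of `X` are conjugate under `C_X(B)`.
-/

set_option autoImplicit false

namespace Cfsg.Agent.Classification.TransitivityCore

open Subgroup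
open scoped Pointwise

/-- `Q` is maximal among the `q`-subgroups normalised by `B`. -/
def IsMaxInv {X : Type*} [Group X] (q : ℕ) (B Q : Subgroup X) : Prop :=
  IsPGroup q Q ∧ B ≤ normalizer (Q : Set X) ∧
    ∀ R : Subgroup X, IsPGroup q R → B ≤ normalizer (R : Set X) → Q ≤ R → R = Q

variable {X : Type*} [Group X]

theorem isMaxInv_def {q : ℕ} {B Q : Subgroup X} :
    IsMaxInv q B Q ↔ IsPGroup q Q ∧ B ≤ normalizer (Q : Set X) ∧
      ∀ R : Subgroup X, IsPGroup q R → B ≤ normalizer (R : Set X) → Q ≤ R → R = Q := Iff.rfl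

theorem exists_isMaxInv_ge [Finite X] {q : ℕ} {B R : Subgroup X} (hR : IsPGroup q R)
    (hB : B ≤ normalizer (R : Set X)) : ∃ Q, IsMaxInv q B Q ∧ R ≤ Q := by
  obtain ⟨M, hRM, hM⟩ := (Set.toFinite {V : Subgroup X | IsPGroup q V ∧
    B ≤ normalizer (V : Set X)}).exists_le_maximal ⟨hR, hB⟩
  exact ⟨M, ⟨hM.prop.1, hM.prop.2, fun S hS hBS hMS => le_antisymm (hM.le_of_ge ⟨hS, hBS⟩ hMS) hMS⟩, hRM⟩

theorem map_conj_map_conj (Q : Subgroup X) (c d : X) :
    (Q.map (MulAut.conj c).toMonoidHom).map (MulAut.conj d).toMonoidHom =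
      Q.map (MulAut.conj (d * c)).toMonoidHom := by
  rw [Subgroup.map_map]
  congr 1
  ext x
  simp [mul_assoc]

theorem map_conj_one (Q : Subgroup X) : Q.map (MulAut.conj (1 : X)).toMonoidHom = Q := by
  ext x
  simp

theorem mem_normalizer_iff_conj {H : Subgroup X} {g : X} :
    g ∈ normalizer (H : Set X) ↔ H.map (MulAut.conj g).toMonoidHom = H :=
  mem_normalizer_iff_map_conj_eq

theorem le_normalizer_map_conj {B Q : Subgroup X} {c : X} (hc : c ∈ centralizer (B : Set X))
    (hB : B ≤ normalizer (Q : Set X)) :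
    B ≤ normalizer ((Q.map (MulAut.conj c).toMonoidHom : Subgroup X) : Set X) := by
  intro b hb
  rw [mem_normalizer_iff_conj, map_conj_map_conj, (mem_centralizer_iff.1 hc b hb),
    ← map_conj_map_conj, mem_normalizer_iff_conj.1 (hB hb)]

theorem isMaxInv_map_conj {q : ℕ} {B Q : Subgroup X} {c : X} (hc : c ∈ centralizer (B : Set X))
    (h : IsMaxInv q B Q) : IsMaxInv q B (Q.map (MulAut.conj c).toMonoidHom) := by
  refine ⟨h.1.map _, le_normalizer_map_conj hc h.2.1, fun R hR hBR hQR => ?_⟩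
  have hc' : c⁻¹ ∈ centralizer (B : Set X) := inv_mem hc
  have h1 : Q ≤ R.map (MulAut.conj c⁻¹).toMonoidHom := by
    have := Subgroup.map_mono (f := (MulAut.conj c⁻¹).toMonoidHom) hQR
    rwa [map_conj_map_conj, inv_mul_cancel, map_conj_one] at this
  have h2 := h.2.2 _ (hR.map _) (le_normalizer_map_conj hc' hBR) h1
  rw [← h2, map_conj_map_conj, mul_inv_cancel, map_conj_one]

theorem lt_inf_normalizer [Finite X] {q : ℕ} [Fact q.Prime] {D Q : Subgroup X} (hQ : IsPGroup q Q)
    (h : D < Q) : D < Q ⊓ normalizer (D : Set X) := by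
  have : Group.IsNilpotent Q := hQ.isNilpotent
  have hlt : D.subgroupOf Q < ⊤ := by
    rw [lt_top_iff_ne_top]
    intro h1
    rw [subgroupOf_eq_top] at h1
    exact h.not_ge h1
  have h2 := Group.normalizerCondition_of_isNilpotent (G := Q) _ hlt
  obtain ⟨x, hx, hxD⟩ := Set.exists_of_ssubset h2
  rw [← subgroupOf_normalizer_eq h.le] at hx
  refine lt_of_le_of_ne (le_inf h.le le_normalizer) fun he => hxD ?_
  have h3 : (x : X) ∈ Q ⊓ normalizer (D : Set X) := ⟨x.2, hx⟩
  rw [← he] at h3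
  exact h3

theorem le_normalizer_inf {B H K : Subgroup X} (hH : B ≤ normalizer (H : Set X))
    (hK : B ≤ normalizer (K : Set X)) : B ≤ normalizer ((H ⊓ K : Subgroup X) : Set X) := by
  intro b hb
  rw [mem_normalizer_iff]
  intro x
  rw [mem_inf, mem_inf, mem_normalizer_iff.1 (hH hb) x, mem_normalizer_iff.1 (hK hb) x]

theorem normalizer_le_normalizer_normalizer (D : Subgroup X) :
    normalizer (D : Set X) ≤ normalizer ((normalizer (D : Set X) : Subgroup X) : Set X) :=
  le_normalizer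

theorem le_normalizer_centralizer {B W : Subgroup X} (h : B ≤ normalizer (W : Set X)) :
    B ≤ normalizer ((centralizer (W : Set X) : Subgroup X) : Set X) := by
  intro b hb
  rw [mem_normalizer_iff]
  have key : ∀ b : X, b ∈ B → ∀ x ∈ centralizer (W : Set X), b * x * b⁻¹ ∈ centralizer (W : Set X) := by
    intro b hb x hx
    rw [mem_centralizer_iff] at hx ⊢
    intro w hw
    have h1 : b⁻¹ * w * b ∈ W := by
      have := (mem_normalizer_iff.1 (h (B.inv_mem hb)) w).1 hw
      simpa using this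
    have h2 := hx _ h1
    have h3 : w * (b * x * b⁻¹) = b * ((b⁻¹ * w * b) * x) * b⁻¹ := by group
    rw [h3, h2]; group
  intro x
  refine ⟨key b hb x, fun hx => ?_⟩
  have := key b⁻¹ (B.inv_mem hb) _ hx
  have h3 : b⁻¹ * (b * x * b⁻¹) * b⁻¹⁻¹ = x := by group
  rwa [h3] at this

/-- `B` normalises `D`, `K` and `K` normalises `D`: then `B` normalises `D ⊔ K`. -/
theorem le_normalizer_sup {B H K : Subgroup X} (hH : B ≤ normalizer (H : Set X))
    (hK : B ≤ normalizer (K : Set X)) : B ≤ normalizer ((H ⊔ K : Subgroup X) : Set X) := by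
  intro b hb
  rw [mem_normalizer_iff_conj, Subgroup.map_sup, mem_normalizer_iff_conj.1 (hH hb),
    mem_normalizer_iff_conj.1 (hK hb)]

/-- A proper `B`-invariant subgroup `D` of the `B`-invariant `q`-group `Q`: some hyperplane of `W` has fixed
points on `N_Q(D)` outside `D`. -/
theorem exists_hyperplane_not_le [Finite X] {p q : ℕ} [hp : Fact p.Prime] [hq : Fact q.Prime] (hqp : q ≠ p)
    {W D Q : Subgroup X} (hWe : Cfsg.IsElementaryAbelian p W) (hW1 : W ≠ ⊥) (hQ : IsPGroup q Q)
    (hD : D < Q) (hWD : W ≤ normalizer (D : Set X)) (hWQ : W ≤ normalizer (Q : Set X)) :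
    ∃ V : Subgroup X, V ≤ W ∧ V.relIndex W = p ∧
      ¬ (Q ⊓ normalizer (D : Set X) ⊓ centralizer (V : Set X) ≤ D) := by
  by_contra hcon
  push Not at hcon
  have hlt := lt_inf_normalizer hQ hD
  have hM : ¬ p ∣ Nat.card ↥(Q ⊓ normalizer (D : Set X)) := by
    have h1 : IsPGroup q ↥(Q ⊓ normalizer (D : Set X)) := hQ.to_le inf_le_left
    obtain ⟨n, hn⟩ := h1.exists_card_eq
    rw [hn]
    intro h
    exact hqp ((Nat.prime_dvd_prime_iff_eq hp.out hq.out).1 (hp.out.dvd_of_dvd_pow h)).symm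
  have hWM : W ≤ normalizer ((Q ⊓ normalizer (D : Set X) : Subgroup X) : Set X) :=
    le_normalizer_inf hWQ (hWD.trans le_normalizer)
  have h := Cfsg.Agent.Lib.CoprimeHyperplane.iSup_centralizer_hyperplane hWe hW1 hM hWM
  refine hlt.not_ge ?_
  rw [← h]
  exact iSup_le fun V => hcon V.1 V.2.1 V.2.2

theorem exists_ne_one_mem_inf [Finite X] {p : ℕ} [hp : Fact p.Prime] {W V₁ V₂ : Subgroup X}
    (hW : p ^ 3 ≤ Nat.card W) (hV₁ : V₁ ≤ W) (h₁ : V₁.relIndex W = p)
    (h₂ : V₂.relIndex W = p) : ∃ a : X, a ∈ V₁ ∧ a ∈ V₂ ∧ a ≠ 1 := by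
  have h3 : (V₁ ⊓ V₂).relIndex W ≤ p * p := by
    have := Subgroup.relIndex_inf_le (H := V₁) (K := V₂) (L := W)
    rwa [h₁, h₂] at this
  have h4 : Nat.card ↥(V₁ ⊓ V₂) * (V₁ ⊓ V₂).relIndex W = Nat.card W := by
    have hle : V₁ ⊓ V₂ ≤ W := inf_le_left.trans hV₁
    rw [← Subgroup.card_mul_index ((V₁ ⊓ V₂).subgroupOf W)]
    congr 1
    exact (Nat.card_congr (subgroupOfEquivOfLe hle).toEquiv).symm
  have h5 : 1 < Nat.card ↥(V₁ ⊓ V₂) := by
    by_contra hle
    push Not at hle
    have h6 : Nat.card W ≤ 1 * (p * p) := h4 ▸ Nat.mul_le_mul hle h3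
    have h7 : p * p < p ^ 3 := by
      have := hp.out.one_lt
      have h8 : p ^ 3 = p * (p * p) := by ring
      rw [h8]
      exact (Nat.lt_mul_iff_one_lt_left (Nat.mul_pos hp.out.pos hp.out.pos)).2 this
    omega
  have h6 : V₁ ⊓ V₂ ≠ ⊥ := by
    intro h
    rw [h, Subgroup.card_bot] at h5
    exact lt_irrefl _ h5
  obtain ⟨a, ha, ha1⟩ := (Subgroup.ne_bot_iff_exists_ne_one).1 h6 |>.elim fun x hx =>
    (⟨(x : X), x.2, fun h => hx (Subtype.ext h)⟩ : ∃ a : X, a ∈ V₁ ⊓ V₂ ∧ a ≠ 1)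
  exact ⟨a, ha.1, ha.2, ha1⟩

/-- **The induction of Thompson's transitivity theorem.** -/
theorem transitivity_core [Finite X] (p q : ℕ) [hp : Fact p.Prime] [hq : Fact q.Prime] (hqp : q ≠ p)
    (B W : Subgroup X) (hBp : IsPGroup p B) (hBc : IsMulCommutative B) (hWB : W ≤ B)
    (hW : ∀ w ∈ W, w ^ p = 1) (hW3 : p ^ 3 ≤ Nat.card W) (K : X → Subgroup X)
    (hK1 : ∀ a ∈ W, a ≠ 1 → (Nat.card (K a)).Coprime p)
    (hK2 : ∀ a ∈ W, a ≠ 1 → B ≤ normalizer (K a : Set X))
    (hK3 : ∀ a ∈ W, a ≠ 1 → ∀ R : Subgroup X, IsPGroup q R → B ≤ normalizer (R : Set X) →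
      R ≤ centralizer {a} → R ≤ K a)
    (N : Subgroup X) (hN : ∀ c ∈ centralizer (B : Set X), (orderOf c).Coprime p → c ∈ N)
    (Q₁ Q₂ : Subgroup X) (h₁ : IsMaxInv q B Q₁) (h₂ : IsMaxInv q B Q₂) :
    ∃ c ∈ N, Q₂ = Q₁.map (MulAut.conj c).toMonoidHom := by
  have hcomm : ∀ x ∈ B, ∀ y ∈ B, x * y = y * x := fun x hx y hy =>
    congrArg Subtype.val (hBc.is_comm.comm (⟨x, hx⟩ : B) ⟨y, hy⟩)
  have hWe : Cfsg.IsElementaryAbelian p W :=
    ⟨⟨⟨fun x y => Subtype.ext (hcomm x (hWB x.2) y (hWB y.2))⟩⟩, hW⟩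
  have hW1 : W ≠ ⊥ := by
    rintro rfl
    rw [Subgroup.card_bot] at hW3
    have : 1 < p ^ 3 := Nat.one_lt_pow (by norm_num) hp.out.one_lt
    omega
  have hsolvB : Group.IsSolvable B := Group.isSolvable_of_comm fun x y => hBc.is_comm.comm x y
  obtain ⟨nB, hnB⟩ := hBp.exists_card_eq
  induction hn : Nat.card X - Nat.card ↥(Q₁ ⊓ Q₂) using Nat.strong_induction_on generalizing Q₁ Q₂ with
  | _ n ih =>
  subst hn
  by_cases hQ : Q₁ = Q₂
  · exact ⟨1, N.one_mem, by rw [hQ, map_conj_one]⟩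
  set D : Subgroup X := Q₁ ⊓ Q₂ with hDdef
  have hD1 : D < Q₁ := by
    refine lt_of_le_of_ne inf_le_left fun h => hQ ?_
    exact (h₁.2.2 Q₂ h₂.1 h₂.2.1 (inf_eq_left.1 h)).symm
  have hD2 : D < Q₂ := by
    refine lt_of_le_of_ne inf_le_right fun h => hQ ?_
    exact h₂.2.2 Q₁ h₁.1 h₁.2.1 (inf_eq_right.1 h)
  have hBD : B ≤ normalizer (D : Set X) := le_normalizer_inf h₁.2.1 h₂.2.1
  have hDq : IsPGroup q D := h₁.1.to_le inf_le_left
  obtain ⟨V₁, hV₁W, hV₁i, hV₁⟩ := exists_hyperplane_not_le hqp hWe hW1 h₁.1 hD1 (hWB.trans hBD)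
    (hWB.trans h₁.2.1)
  obtain ⟨V₂, hV₂W, hV₂i, hV₂⟩ := exists_hyperplane_not_le hqp hWe hW1 h₂.1 hD2 (hWB.trans hBD)
    (hWB.trans h₂.2.1)
  obtain ⟨a, haV₁, haV₂, ha1⟩ := exists_ne_one_mem_inf hW3 hV₁W hV₁i hV₂i
  have haW : a ∈ W := hV₁W haV₁
  have hBa : B ≤ centralizer ({a} : Set X) := by
    intro b hb
    rw [mem_centralizer_singleton_iff]
    exact hcomm b hb a (hWB haW)
  -- the two `q`-subgroups centralised by `a`
  have hR : ∀ (Q V : Subgroup X), IsMaxInv q B Q → a ∈ V →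
      ¬ (Q ⊓ normalizer (D : Set X) ⊓ centralizer (V : Set X) ≤ D) →
      IsPGroup q ↥(Q ⊓ normalizer (D : Set X) ⊓ centralizer ({a} : Set X)) ∧
      B ≤ normalizer ((Q ⊓ normalizer (D : Set X) ⊓ centralizer ({a} : Set X) : Subgroup X) : Set X) ∧
      ¬ (Q ⊓ normalizer (D : Set X) ⊓ centralizer ({a} : Set X) ≤ D) ∧
      Q ⊓ normalizer (D : Set X) ⊓ centralizer ({a} : Set X) ≤ K a := by
    intro Q V hQm haV hV
    have e1 : IsPGroup q ↥(Q ⊓ normalizer (D : Set X) ⊓ centralizer ({a} : Set X)) :=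
      hQm.1.to_le (inf_le_left.trans inf_le_left)
    have e2 : B ≤ normalizer ((Q ⊓ normalizer (D : Set X) ⊓ centralizer ({a} : Set X) : Subgroup X) : Set X) :=
      le_normalizer_inf (le_normalizer_inf hQm.2.1 (hBD.trans le_normalizer)) (hBa.trans le_normalizer)
    refine ⟨e1, e2, fun h => hV ((inf_le_inf_left _ ?_).trans h), hK3 a haW ha1 _ e1 e2 inf_le_right⟩
    exact centralizer_le (Set.singleton_subset_iff.2 haV)
  obtain ⟨hR₁q, hR₁B, hR₁D, hR₁K⟩ := hR Q₁ V₁ h₁ haV₁ hV₁
  obtain ⟨hR₂q, hR₂B, hR₂D, hR₂K⟩ := hR Q₂ V₂ h₂ haV₂ hV₂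
  set R₁ : Subgroup X := Q₁ ⊓ normalizer (D : Set X) ⊓ centralizer ({a} : Set X) with hR₁
  set R₂ : Subgroup X := Q₂ ⊓ normalizer (D : Set X) ⊓ centralizer ({a} : Set X) with hR₂
  have hR₁N : R₁ ≤ normalizer (D : Set X) := inf_le_left.trans inf_le_right
  have hR₂N : R₂ ≤ normalizer (D : Set X) := inf_le_left.trans inf_le_right
  set L : Subgroup X := K a ⊓ normalizer (D : Set X) with hL
  have hLN : L ≤ normalizer (D : Set X) := inf_le_right
  have hLB : B ≤ normalizer (L : Set X) := le_normalizer_inf (hK2 a haW ha1) (hBD.trans le_normalizer)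
  set H : Subgroup X := D ⊔ L with hH
  have hHB : B ≤ normalizer (H : Set X) := le_normalizer_sup hBD hLB
  have hHp : (Nat.card H).Coprime p := by
    have h1 := Cfsg.Agent.SignalizersComponents.CoprimeBasic.card_sup_dvd hLN
    refine Nat.Coprime.coprime_dvd_left h1 (Nat.Coprime.mul_left ?_ ?_)
    · obtain ⟨m, hm⟩ := hDq.exists_card_eq
      rw [hm]
      exact Nat.Coprime.pow_left m ((Nat.coprime_primes hq.out hp.out).2 hqp)
    · exact Nat.Coprime.coprime_dvd_left (card_dvd_of_le inf_le_left) (hK1 a haW ha1)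
  have hcop : (Nat.card B).Coprime (Nat.card H) := by
    rw [hnB]
    exact Nat.Coprime.pow_left nB hHp.symm
  have hU₁H : D ⊔ R₁ ≤ H := sup_le_sup_left (le_inf hR₁K hR₁N) D
  have hU₂H : D ⊔ R₂ ≤ H := sup_le_sup_left (le_inf hR₂K hR₂N) D
  have hU₁Q : D ⊔ R₁ ≤ Q₁ := sup_le inf_le_left (inf_le_left.trans inf_le_left)
  have hU₂Q : D ⊔ R₂ ≤ Q₂ := sup_le inf_le_right (inf_le_left.trans inf_le_left)
  have hDU₁ : D < D ⊔ R₁ := lt_of_le_of_ne le_sup_left fun h => hR₁D (h ▸ le_sup_right)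
  have hDU₂ : D < D ⊔ R₂ := lt_of_le_of_ne le_sup_left fun h => hR₂D (h ▸ le_sup_right)
  obtain ⟨P₁, hU₁P, hP₁B⟩ := Cfsg.Agent.S0025.result B H hHB hcop (Or.inl hsolvB) q (D ⊔ R₁) hU₁H
    (h₁.1.to_le hU₁Q) (le_normalizer_sup hBD hR₁B)
  obtain ⟨P₂, hU₂P, hP₂B⟩ := Cfsg.Agent.S0025.result B H hHB hcop (Or.inl hsolvB) q (D ⊔ R₂) hU₂H
    (h₂.1.to_le hU₂Q) (le_normalizer_sup hBD hR₂B)
  obtain ⟨c, hcB, hc⟩ := Cfsg.Agent.S0024.result B H hHB hcop (Or.inl hsolvB) q P₁ P₂ hP₁B hP₂B
  have hcN : (c : X) ∈ N := by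
    refine hN _ hcB ?_
    rw [orderOf_coe]
    exact Nat.Coprime.coprime_dvd_left (orderOf_dvd_natCard c) hHp
  set S₁ : Subgroup X := (P₁ : Subgroup H).map H.subtype with hS₁
  set S₂ : Subgroup X := (P₂ : Subgroup H).map H.subtype with hS₂
  have hS₁q : IsPGroup q S₁ := P₁.isPGroup'.map _
  have hS₂q : IsPGroup q S₂ := P₂.isPGroup'.map _
  have hS₂c : S₂ ≤ S₁.map (MulAut.conj (c : X)).toMonoidHom := by
    have h3 : ((MulAut.conj c • P₁ : Sylow q H) : Subgroup H) = P₂ := by rw [hc]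
    rintro _ ⟨x, hx, rfl⟩
    rw [SetLike.mem_coe, ← h3, Sylow.pointwise_smul_def, Subgroup.mem_smul_pointwise_iff_exists] at hx
    obtain ⟨y, hy, rfl⟩ := hx
    exact ⟨(y : X), ⟨y, hy, rfl⟩, rfl⟩
  obtain ⟨T₁, hT₁, hS₁T⟩ := exists_isMaxInv_ge hS₁q hP₁B
  obtain ⟨T₂, hT₂, hS₂T⟩ := exists_isMaxInv_ge hS₂q hP₂B
  have hlt : ∀ U E : Subgroup X, D < U → U ≤ E → Nat.card X - Nat.card E < Nat.card X - Nat.card D := by
    intro U E hU hUE
    have e1 : Nat.card D < Nat.card E := by
      have hDE : D < E := lt_of_lt_of_le hU hUE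
      have : (D : Set X) ⊂ (E : Set X) := SetLike.coe_ssubset_coe.2 hDE
      exact Set.ncard_lt_ncard this (Set.toFinite _)
    have e2 : Nat.card E ≤ Nat.card X := Subgroup.card_le_card_group E
    omega
  have hT₁c := isMaxInv_map_conj hcB hT₁
  obtain ⟨c₁, hc₁N, hc₁⟩ := ih _ (hlt (D ⊔ R₁) (Q₁ ⊓ T₁) hDU₁ (le_inf hU₁Q (hU₁P.trans hS₁T)))
    Q₁ T₁ h₁ hT₁ rfl
  obtain ⟨c₂, hc₂N, hc₂⟩ := ih _ (hlt (D ⊔ R₂) (T₁.map (MulAut.conj (c : X)).toMonoidHom ⊓ T₂) hDU₂
    (le_inf ((hU₂P.trans hS₂c).trans (map_mono hS₁T)) (hU₂P.trans hS₂T)))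
    (T₁.map (MulAut.conj (c : X)).toMonoidHom) T₂ hT₁c hT₂ rfl
  obtain ⟨c₃, hc₃N, hc₃⟩ := ih _ (hlt (D ⊔ R₂) (T₂ ⊓ Q₂) hDU₂ (le_inf (hU₂P.trans hS₂T) hU₂Q))
    T₂ Q₂ hT₂ h₂ rfl
  refine ⟨c₃ * (c₂ * (c * c₁)), N.mul_mem hc₃N (N.mul_mem hc₂N (N.mul_mem hcN hc₁N)), ?_⟩
  rw [hc₃, hc₂, hc₁, map_conj_map_conj, map_conj_map_conj, map_conj_map_conj]
  simp only [mul_assoc]

end Cfsg.Agent.Classification.TransitivityCore
end

-- part: Classification/TransitivitySetup
section
/-!
# Set-up for the transitivity theorem: cores of centralisers relative to a self-centralising abelian subgroup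
-/

set_option autoImplicit false

namespace Cfsg.Agent.Classification.TransitivitySetup

open Subgroup

variable {X : Type*} [Group X]

/-- `C` has a normal `p'`-subgroup `L` containing all `B`-invariant `p'`-subgroups of `C`. -/
def HasCore (p : ℕ) (B C : Subgroup X) : Prop :=
  ∃ L : Subgroup X, L ≤ C ∧ (Nat.card L).Coprime p ∧ C ≤ normalizer (L : Set X) ∧
    ∀ R : Subgroup X, R ≤ C → (Nat.card R).Coprime p → B ≤ normalizer (R : Set X) → R ≤ L

theorem card_subgroupOf {R C : Subgroup X} (h : R ≤ C) : Nat.card (R.subgroupOf C) = Nat.card R :=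
  Nat.card_congr (subgroupOfEquivOfLe h).toEquiv

theorem subgroupOf_le_normalizer {B R C : Subgroup X} (hR : R ≤ C)
    (h : B ≤ normalizer (R : Set X)) : B.subgroupOf C ≤ normalizer ((R.subgroupOf C : Subgroup C) : Set C) := by
  rw [← subgroupOf_normalizer_eq hR]
  exact comap_mono h

theorem mem_centralizer_subgroupOf {Y C : Subgroup X} (hY : Y ≤ C) {x : C} :
    x ∈ centralizer ((Y.subgroupOf C : Subgroup C) : Set C) ↔ (x : X) ∈ centralizer (Y : Set X) := by
  rw [mem_centralizer_iff, mem_centralizer_iff]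
  constructor
  · intro h y hy
    exact congrArg Subtype.val (h ⟨y, hY hy⟩ hy)
  · intro h y hy
    exact Subtype.ext (h y hy)

theorem isPGroup_subgroupOf {p : ℕ} {Y C : Subgroup X} (hY : IsPGroup p Y) :
    IsPGroup p (Y.subgroupOf C) := hY.comap_subtype

/-- The core property from the corresponding property of the group `C`. -/
theorem hasCore_of_forall [Finite X] {p : ℕ} {B C : Subgroup X} {N : Subgroup C} (hNn : N.Normal)
    (hN : (Nat.card N).Coprime p)
    (h : ∀ R : Subgroup C, (Nat.card R).Coprime p → B.subgroupOf C ≤ normalizer (R : Set C) → R ≤ N) :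
    HasCore p B C := by
  refine ⟨N.map C.subtype, map_subtype_le N, ?_, ?_, ?_⟩
  · rwa [card_map_of_injective C.subtype_injective]
  · intro c hc
    have h1 : (⟨c, hc⟩ : C) ∈ normalizer (N : Set C) := by
      rw [Subgroup.normalizer_eq_top]; trivial
    exact le_normalizer_map C.subtype ⟨_, h1, rfl⟩
  · intro R hR hRp hBR
    have h1 := h (R.subgroupOf C) (by rwa [card_subgroupOf hR]) (subgroupOf_le_normalizer hR hBR)
    have h2 := Subgroup.map_mono (f := C.subtype) h1
    rwa [map_subgroupOf_eq_of_le hR] at h2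

/-- The constraint condition of a finite solvable group. -/
theorem constraint_of_solvable {H : Type*} [Group H] [Finite H] (p : ℕ) [Fact p.Prime]
    (hs : Group.IsSolvable H) (N : Subgroup H) [hNn : N.Normal] (hN : N = Cfsg.pPrimeCore p H) :
    centralizer (Cfsg.pCore p (H ⧸ N) : Set (H ⧸ N)) ≤ Cfsg.pCore p (H ⧸ N) :=
  Cfsg.Agent.Lib.HallHigman.centralizer_pCore_le_of_solvable p
    (Cfsg.Agent.Lib.HallHigman.pPrimeCore_quotient_eq_bot p N hN)

/-- First case: `B` normal in a Sylow subgroup of `C`. -/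
theorem hasCore_of_sylow [Finite X] {p : ℕ} [hp : Fact p.Prime] {B C : Subgroup X}
    (hs : Group.IsSolvable C) (hBC : B ≤ C) (hBp : IsPGroup p B) (hBc : ∀ x ∈ B, ∀ y ∈ B, x * y = y * x)
    (hi : ∀ x ∈ centralizer (B : Set X), IsPGroup p (zpowers x) → x ∈ B)
    (S : Sylow p C) (hS : (S : Subgroup C).map C.subtype ≤ normalizer (B : Set X)) :
    HasCore p B C := by
  have hNn : (Cfsg.pPrimeCore p C).Normal := Cfsg.Agent.Lib.HallHigman.pPrimeCore_normal p
  have hN : (Nat.card (Cfsg.pPrimeCore p C)).Coprime p := Cfsg.Agent.Lib.HallHigman.pPrimeCore_coprime p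
  refine hasCore_of_forall hNn hN fun R hR hBR => ?_
  refine InvariantCore.le_of_sylow_le_normalizer hN (constraint_of_solvable p hs _ rfl)
    (B := B.subgroupOf C) (isPGroup_subgroupOf hBp) ?_ ?_ S ?_ hR hBR
  · intro x hx y hy
    exact Subtype.ext (hBc x hx y hy)
  · intro x hx hxp
    refine hi x ((mem_centralizer_subgroupOf hBC).1 hx) ?_
    have h1 : (zpowers x).map C.subtype = zpowers (x : X) := MonoidHom.map_zpowers C.subtype x
    rw [← h1]
    exact hxp.map _
  · rw [← subgroupOf_normalizer_eq hBC]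
    exact map_le_iff_le_comap.1 hS

/-- Second case: elements of `V` have centralisers of index at most `p` in a Sylow subgroup of `C`. -/
theorem hasCore_of_index_le [Finite X] (hodd : Odd (Nat.card X)) {p : ℕ} [hp : Fact p.Prime]
    {V B C : Subgroup X} (hs : Group.IsSolvable C) (hBC : B ≤ C) (hBp : IsPGroup p B)
    (hBc : ∀ x ∈ B, ∀ y ∈ B, x * y = y * x) (hVB : V ≤ B)
    (S : Sylow p C) (hS : ∀ z ∈ V, (centralizer ({z} : Set X)).relIndex ((S : Subgroup C).map C.subtype) ≤ p)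
    (hV : HasCore p B (C ⊓ centralizer (V : Set X))) : HasCore p B C := by
  have hNn : (Cfsg.pPrimeCore p C).Normal := Cfsg.Agent.Lib.HallHigman.pPrimeCore_normal p
  have hN : (Nat.card (Cfsg.pPrimeCore p C)).Coprime p := Cfsg.Agent.Lib.HallHigman.pPrimeCore_coprime p
  obtain ⟨L, hLC, hLp, hLn, hL⟩ := hV
  have hLC' : L ≤ C := hLC.trans inf_le_left
  have hVC : V ≤ C := hVB.trans hBC
  refine hasCore_of_forall hNn hN fun R hR hBR => ?_
  refine InvariantCore.le_of_index_le (Odd.of_dvd_nat hodd (card_subgroup_dvd_card C)) hN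
    (constraint_of_solvable p hs _ rfl) (V := V.subgroupOf C) (B := B.subgroupOf C) (L := L.subgroupOf C)
    (isPGroup_subgroupOf (hBp.to_le hVB)) (comap_mono hVB) S ?_ ?_ ?_ ?_ ?_ hR hBR
  · intro z hz
    have h1 := hS z hz
    rw [← Subgroup.relIndex_comap] at h1
    refine le_trans (le_of_eq ?_) h1
    congr 1
    ext x
    rw [mem_centralizer_singleton_iff, mem_comap, mem_centralizer_singleton_iff]
    exact ⟨fun h => congrArg Subtype.val h, fun h => Subtype.ext h⟩
  · intro b hb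
    rw [mem_centralizer_subgroupOf hVC, mem_centralizer_iff]
    exact fun v hv => hBc v (hVB hv) b hb
  · rwa [card_subgroupOf hLC']
  · intro c hc
    rw [mem_centralizer_subgroupOf hVC] at hc
    rw [← subgroupOf_normalizer_eq hLC']
    exact hLn ⟨c.2, hc⟩
  · intro R₁ hR₁ hR₁p hBR₁
    have h1 : R₁.map C.subtype ≤ L := by
      refine hL _ ?_ ?_ ?_
      · rintro _ ⟨r, hr, rfl⟩
        exact ⟨r.2, (mem_centralizer_subgroupOf hVC).1 (hR₁ hr)⟩
      · rwa [card_map_of_injective C.subtype_injective]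
      · intro b hb
        have h2 := hBR₁ (show (⟨b, hBC hb⟩ : C) ∈ B.subgroupOf C from hb)
        exact le_normalizer_map C.subtype ⟨_, h2, rfl⟩
    exact map_le_iff_le_comap.1 h1

/-- Third case: `C` solvable containing `B`, `V ≤ W ≤ B` elementary abelian, `|V| ≥ p ^ 2`, and the centralisers of
the nonidentity elements of `V` have the core property. -/
theorem hasCore_of_forall_centralizer [Finite X] {p : ℕ} [hp : Fact p.Prime]
    {V W B C : Subgroup X} (hs : Group.IsSolvable C) (hBC : B ≤ C) (hBp : IsPGroup p B)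
    (hBc : ∀ x ∈ B, ∀ y ∈ B, x * y = y * x) (hWB : W ≤ B) (hVW : V ≤ W) (hW : ∀ w ∈ W, w ^ p = 1)
    (hVcard : p ^ 2 ≤ Nat.card V)
    (hV : ∀ v ∈ V, v ≠ 1 → HasCore p B (centralizer ({v} : Set X))) : HasCore p B C := by
  have hNn : (Cfsg.pPrimeCore p C).Normal := Cfsg.Agent.Lib.HallHigman.pPrimeCore_normal p
  have hN : (Nat.card (Cfsg.pPrimeCore p C)).Coprime p := Cfsg.Agent.Lib.HallHigman.pPrimeCore_coprime p
  refine hasCore_of_forall hNn hN fun R hR hBR => ?_
  -- pass to `X`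
  have hWe : Cfsg.IsElementaryAbelian p W :=
    ⟨⟨⟨fun x y => Subtype.ext (hBc x (hWB x.2) y (hWB y.2))⟩⟩, hW⟩
  have hW1 : W ≠ ⊥ := by
    rintro rfl
    have h1 : Nat.card V ≤ 1 := by
      rw [← Subgroup.card_bot (G := X)]
      exact Subgroup.card_le_of_le hVW
    have : 1 < p ^ 2 := Nat.one_lt_pow (by norm_num) hp.out.one_lt
    omega
  set R' : Subgroup X := R.map C.subtype with hR'
  have hR'C : R' ≤ C := map_subtype_le R
  have hR'p : (Nat.card R').Coprime p := by
    rwa [hR', card_map_of_injective C.subtype_injective]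
  have hBR' : B ≤ normalizer (R' : Set X) := by
    intro b hb
    have h2 := hBR (show (⟨b, hBC hb⟩ : C) ∈ B.subgroupOf C from hb)
    exact le_normalizer_map C.subtype ⟨_, h2, rfl⟩
  have hpR : ¬ p ∣ Nat.card R' := fun h => hp.out.one_lt.ne'
    (Nat.dvd_one.1 (hR'p ▸ Nat.dvd_gcd h dvd_rfl))
  have hgen := Cfsg.Agent.Lib.CoprimeHyperplane.iSup_centralizer_hyperplane hWe hW1 hpR
    (hWB.trans hBR')
  have key : R' ≤ (Cfsg.pPrimeCore p C).map C.subtype := by
    rw [← hgen]
    refine iSup_le ?_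
    rintro ⟨W₀, hW₀, hidx⟩
    change R' ⊓ centralizer (W₀ : Set X) ≤ _
    -- an element of `W₀ ∩ V`
    obtain ⟨v, hvW₀, hvV, hv1⟩ : ∃ v, v ∈ W₀ ∧ v ∈ V ∧ v ≠ 1 := by
      by_contra hcon
      push Not at hcon
      have h1 : V ⊓ W₀ = ⊥ := by
        rw [eq_bot_iff]
        intro x hx
        exact mem_bot.2 (hcon x hx.2 hx.1)
      have h2 : W₀.relIndex V ≤ p := by
        rw [← hidx]
        exact Subgroup.relIndex_le_of_le_right hVW (InvariantCore.relIndex_ne_zero_of_finite _ _)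
      have h3 : Nat.card ↥(V ⊓ W₀) * W₀.relIndex V = Nat.card V := by
        rw [← Subgroup.card_mul_index (W₀.subgroupOf V)]
        congr 1
        rw [inf_comm, ← Subgroup.subgroupOf_map_subtype]
        exact (Subgroup.card_map_of_injective (Subgroup.subtype_injective _))
      rw [h1, Subgroup.card_bot, one_mul] at h3
      have h4 : p ^ 2 ≤ p := by omega
      have h5 : p < p ^ 2 := by
        rw [pow_two]
        exact (Nat.lt_mul_iff_one_lt_left hp.out.pos).2 hp.out.one_lt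
      omega
    obtain ⟨L, hLC, hLp, hLn, hL⟩ := hV v hvV hv1
    have hvB : v ∈ B := hWB (hVW hvV)
    have hvC : v ∈ C := hBC hvB
    have e1 : R' ⊓ centralizer (W₀ : Set X) ≤ L := by
      refine hL _ ?_ (Nat.Coprime.coprime_dvd_left (card_dvd_of_le inf_le_left) hR'p) ?_
      · exact inf_le_right.trans (centralizer_le (Set.singleton_subset_iff.2 hvW₀))
      · intro b hb
        have f1 : b ∈ normalizer (R' : Set X) := hBR' hb
        have f2 : b ∈ centralizer (W₀ : Set X) :=
          mem_centralizer_iff.2 fun w hw => hBc w (hWB (hW₀ hw)) b hb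
        have f3 := le_normalizer f2
        rw [mem_normalizer_iff] at f1 f3 ⊢
        intro x
        rw [mem_inf, mem_inf, f1 x, f3 x]
    -- in the group `C`
    have e2 : (R' ⊓ centralizer (W₀ : Set X)).subgroupOf C ≤ Cfsg.pPrimeCore p C := by
      have hle : R' ⊓ centralizer (W₀ : Set X) ≤ C := inf_le_left.trans hR'C
      refine InvariantCore.le_of_centralizer_le_normalizer hN (constraint_of_solvable p hs _ rfl)
        (Y := (zpowers v).subgroupOf C) (L := (L ⊓ C).subgroupOf C)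
        (isPGroup_subgroupOf (hBp.to_le (zpowers_le.2 hvB))) ?_ ?_ ?_ ?_
      · exact comap_mono (le_inf e1 hle)
      · rw [card_subgroupOf inf_le_right]
        exact Nat.Coprime.coprime_dvd_left (card_dvd_of_le inf_le_left) hLp
      · intro y hy
        rw [mem_centralizer_subgroupOf hle]
        obtain ⟨i, hi⟩ := mem_zpowers_iff.1 (show (y : X) ∈ zpowers v from hy)
        rw [← hi, mem_centralizer_iff]
        intro r hr
        have h1 : Commute r v := (mem_centralizer_iff.1 hr.2 v hvW₀).symm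
        exact (h1.zpow_right i).eq
      · intro c hc
        rw [mem_centralizer_subgroupOf (zpowers_le.2 hvC)] at hc
        rw [← subgroupOf_normalizer_eq (inf_le_right : L ⊓ C ≤ C)]
        have h1 : (c : X) ∈ centralizer ({v} : Set X) := by
          rw [mem_centralizer_singleton_iff]
          exact (mem_centralizer_iff.1 hc v (mem_zpowers v)).symm
        have f1 := hLn h1
        have f2 : (c : X) ∈ normalizer (C : Set X) := le_normalizer c.2
        rw [mem_subgroupOf]
        rw [mem_normalizer_iff] at f1 f2 ⊢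
        intro x
        rw [mem_inf, mem_inf, f1 x, f2 x]
    have h2 := Subgroup.map_mono (f := C.subtype) e2
    rwa [map_subgroupOf_eq_of_le (inf_le_left.trans hR'C)] at h2
  rw [hR'] at key
  exact (Subgroup.map_le_map_iff_of_injective C.subtype_injective).1 key

end Cfsg.Agent.Classification.TransitivitySetup
end

-- part: S0522
section
-- import your own Cfsg.Agent.* helpers here

set_option autoImplicit false
open Cfsg

namespace Cfsg.Agent.S0522

open Cfsg.Agent.Classification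

/-- Transitivity Theorem (odd-order setting). Let X be a finite group of odd order in which the normalizer of every
nontrivial p-subgroup is solvable, P a Sylow p-subgroup, and B an abelian subgroup of P, normalized by P, with
C_P(B) = B and containing an elementary abelian subgroup of order p^3. Then for every prime q ≠ p, any two q-subgroups
that are maximal among the q-subgroups normalized by B are conjugate by an element of the centralizer of B. -/
theorem result {X : Type*} [Group X] [Finite X] (hX : Odd (Nat.card X)) (p : ℕ)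
    [Fact p.Prime] (hloc : ∀ T : Subgroup X, IsPGroup p T → T ≠ ⊥ → Group.IsSolvable (Subgroup.normalizer (T : Set X)))
    (P : Sylow p X) (B : Subgroup X) (hBP : B ≤ (P : Subgroup X))
    (hBn : ∀ x ∈ (P : Subgroup X), ∀ b ∈ B, x * b * x⁻¹ ∈ B) (hBa : IsMulCommutative B)
    (hBc : (P : Subgroup X) ⊓ Subgroup.centralizer (B : Set X) = B)
    (hB3 : ∃ E : Subgroup X, E ≤ B ∧ (∀ e ∈ E, e ^ p = 1) ∧ p ^ 3 ≤ Nat.card E)
    (q : ℕ) [Fact q.Prime] (hqp : q ≠ p) (Q₁ Q₂ : Subgroup X)
    (h₁ : IsPGroup q Q₁ ∧ B ≤ Subgroup.normalizer (Q₁ : Set X) ∧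
      ∀ R : Subgroup X, IsPGroup q R → B ≤ Subgroup.normalizer (R : Set X) → Q₁ ≤ R → R = Q₁)
    (h₂ : IsPGroup q Q₂ ∧ B ≤ Subgroup.normalizer (Q₂ : Set X) ∧
      ∀ R : Subgroup X, IsPGroup q R → B ≤ Subgroup.normalizer (R : Set X) → Q₂ ≤ R → R = Q₂) :
    ∃ c ∈ Subgroup.centralizer (B : Set X), Q₂ = Q₁.map (MulAut.conj c).toMonoidHom := by
  have hp : p.Prime := Fact.out
  have hBc' : ∀ x ∈ B, ∀ y ∈ B, x * y = y * x := fun x hx y hy =>
    congrArg Subtype.val (hBa.is_comm.comm (⟨x, hx⟩ : B) ⟨y, hy⟩)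
  have hPp : IsPGroup p (P : Subgroup X) := P.isPGroup'
  have hBp : IsPGroup p B := hPp.to_le hBP
  have hPB : (P : Subgroup X) ≤ Subgroup.normalizer (B : Set X) := NormalPair.mem_normalizer_of_forall hBn
  obtain ⟨E, hEB, hE, hE3⟩ := hB3
  -- `W = Ω₁(B)`
  set W : Subgroup X := NormalPair.omega p B hBc' with hWdef
  have hWB : W ≤ B := fun w hw => hw.1
  have hW : ∀ w ∈ W, w ^ p = 1 := fun w hw => hw.2
  have hEW : E ≤ W := fun e he => ⟨hEB he, hE e he⟩
  have hWc : p ^ 3 ≤ Nat.card W := hE3.trans (Subgroup.card_le_of_le hEW)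
  have hPW : (P : Subgroup X) ≤ Subgroup.normalizer (W : Set X) := by
    refine NormalPair.mem_normalizer_of_forall fun g hg w hw => ⟨hBn g hg w hw.1, ?_⟩
    rw [conj_pow, hw.2]; simp
  have hp23 : p ^ 2 ≤ p ^ 3 := Nat.pow_le_pow_right hp.pos (by norm_num)
  obtain ⟨V, hVW, hVc, hPV, hVi⟩ := NormalPair.exists_pair hPp (hWB.trans hBP) hPW hW (hp23.trans hWc)
  have hVB : V ≤ B := hVW.trans hWB
  have hi : ∀ x ∈ Subgroup.centralizer (B : Set X), IsPGroup p (Subgroup.zpowers x) → x ∈ B :=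
    fun x hx hxp => NormalPair.mem_of_mem_centralizer P hPB hBc hx hxp
  -- centralisers of elements of `B` are solvable
  have hsolv : ∀ a ∈ B, a ≠ 1 → Group.IsSolvable (Subgroup.centralizer ({a} : Set X)) := by
    intro a ha ha1
    have h1 := hloc (Subgroup.zpowers a) (hBp.to_le (Subgroup.zpowers_le.2 ha)) (by
      rw [Ne, Subgroup.zpowers_eq_bot]; exact ha1)
    have h2 : Subgroup.centralizer ({a} : Set X) ≤ Subgroup.normalizer (Subgroup.zpowers a : Set X) := by
      intro c hc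
      rw [Subgroup.mem_centralizer_singleton_iff] at hc
      apply Subgroup.centralizer_le_normalizer
      rw [Subgroup.mem_centralizer_iff]
      intro y hy
      obtain ⟨i, rfl⟩ := Subgroup.mem_zpowers_iff.1 hy
      have h3 : Commute c a := hc
      exact (h3.zpow_right i).symm.eq
    exact Group.isSolvable_of_isSolvable_injective (Subgroup.inclusion_injective h2)
  have hBcent : ∀ a ∈ B, B ≤ Subgroup.centralizer ({a} : Set X) := by
    intro a ha b hb
    rw [Subgroup.mem_centralizer_singleton_iff]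
    exact hBc' b hb a ha
  -- the centraliser of `V`
  have hV1 : ∃ v ∈ V, v ≠ 1 := by
    by_contra hcon
    push Not at hcon
    have h1 : V = ⊥ := by
      rw [eq_bot_iff]; exact fun x hx => Subgroup.mem_bot.2 (hcon x hx)
    rw [h1, Subgroup.card_bot] at hVc
    have : 1 < p ^ 2 := Nat.one_lt_pow (by norm_num) hp.one_lt
    omega
  have hcoreV : TransitivitySetup.HasCore p B (Subgroup.centralizer (V : Set X)) := by
    obtain ⟨v, hv, hv1⟩ := hV1
    have hle : Subgroup.centralizer (V : Set X) ≤ Subgroup.centralizer ({v} : Set X) :=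
      Subgroup.centralizer_le (Set.singleton_subset_iff.2 hv)
    have hs : Group.IsSolvable (Subgroup.centralizer (V : Set X)) := by
      have := hsolv v (hVB hv) hv1
      exact Group.isSolvable_of_isSolvable_injective (Subgroup.inclusion_injective hle)
    obtain ⟨S, hS⟩ := NormalPair.exists_sylow_centralizer P hPV
    refine TransitivitySetup.hasCore_of_sylow hs ?_ hBp hBc' hi S ?_
    · intro b hb
      rw [Subgroup.mem_centralizer_iff]
      exact fun y hy => hBc' y (hVB hy) b hb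
    · rw [hS]
      exact inf_le_left.trans hPB
  -- the centralisers of the elements of `V`
  have hcorev : ∀ v ∈ V, v ≠ 1 → TransitivitySetup.HasCore p B (Subgroup.centralizer ({v} : Set X)) := by
    intro v hv hv1
    set C : Subgroup X := Subgroup.centralizer ({v} : Set X) with hC
    have hVC : Subgroup.centralizer (V : Set X) ≤ C := Subgroup.centralizer_le (Set.singleton_subset_iff.2 hv)
    set P₀ : Subgroup X := (P : Subgroup X) ⊓ Subgroup.centralizer (V : Set X) with hP₀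
    have hP₀C : P₀ ≤ C := inf_le_right.trans hVC
    have hP₀p : IsPGroup p (P₀.subgroupOf C) := (hPp.to_le inf_le_left).comap_subtype
    obtain ⟨S, hS⟩ := hP₀p.exists_le_sylow
    have h1 : P₀ ≤ (S : Subgroup C).map C.subtype := by
      have := Subgroup.map_mono (f := C.subtype) hS
      rwa [Subgroup.map_subgroupOf_eq_of_le hP₀C] at this
    have hSp : IsPGroup p ((S : Subgroup C).map C.subtype) := S.isPGroup'.map _
    have h2 : Nat.card ((S : Subgroup C).map C.subtype) ≤ Nat.card P := by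
      obtain ⟨S', hS'⟩ := hSp.exists_le_sylow
      exact (Subgroup.card_le_of_le hS').trans (le_of_eq (Nat.card_congr (Sylow.equiv S' P).toEquiv))
    have h3 : Nat.card P ≤ p * Nat.card P₀ := by
      have h4 : Nat.card P₀ * (Subgroup.centralizer (V : Set X)).relIndex (P : Subgroup X) =
          Nat.card (P : Subgroup X) := by
        rw [← Subgroup.card_mul_index ((Subgroup.centralizer (V : Set X)).subgroupOf (P : Subgroup X))]
        congr 1
        rw [hP₀, inf_comm, ← Subgroup.subgroupOf_map_subtype]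
        exact (Subgroup.card_map_of_injective (Subgroup.subtype_injective _))
      calc Nat.card P = Nat.card P₀ * (Subgroup.centralizer (V : Set X)).relIndex (P : Subgroup X) := h4.symm
        _ ≤ Nat.card P₀ * p := Nat.mul_le_mul_left _ hVi
        _ = p * Nat.card P₀ := mul_comm _ _
    have h5 : P₀.relIndex ((S : Subgroup C).map C.subtype) ≤ p := by
      have h6 : Nat.card P₀ * P₀.relIndex ((S : Subgroup C).map C.subtype) =
          Nat.card ((S : Subgroup C).map C.subtype) := by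
        rw [← Subgroup.card_mul_index (P₀.subgroupOf ((S : Subgroup C).map C.subtype))]
        congr 1
        exact (Nat.card_congr (Subgroup.subgroupOfEquivOfLe h1).toEquiv).symm
      have h7 : Nat.card P₀ * P₀.relIndex ((S : Subgroup C).map C.subtype) ≤ Nat.card P₀ * p := by
        rw [h6, mul_comm]
        exact h2.trans h3
      exact Nat.le_of_mul_le_mul_left h7 Nat.card_pos
    refine TransitivitySetup.hasCore_of_index_le hX (V := V) (hsolv v (hVB hv) hv1) (hBcent v (hVB hv)) hBp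
      hBc' hVB S ?_ ?_
    · intro z hz
      refine le_trans (Subgroup.relIndex_le_of_le_left ?_ (InvariantCore.relIndex_ne_zero_of_finite _ _)) h5
      exact inf_le_right.trans (Subgroup.centralizer_le (Set.singleton_subset_iff.2 hz))
    · rw [inf_eq_right.2 hVC]
      exact hcoreV
  -- all elements of `W`
  have hcore : ∀ a ∈ W, a ≠ 1 → TransitivitySetup.HasCore p B (Subgroup.centralizer ({a} : Set X)) := by
    intro a ha ha1
    exact TransitivitySetup.hasCore_of_forall_centralizer (hsolv a (hWB ha) ha1) (hBcent a (hWB ha)) hBp hBc'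
      hWB hVW hW hVc hcorev
  classical
  let K : X → Subgroup X := fun a => if h : a ∈ W ∧ a ≠ 1 then (hcore a h.1 h.2).choose else ⊥
  have hK : ∀ a (ha : a ∈ W) (ha1 : a ≠ 1), K a = (hcore a ha ha1).choose := fun a ha ha1 =>
    dif_pos ⟨ha, ha1⟩
  refine TransitivityCore.transitivity_core p q hqp B W hBp hBa hWB hW hWc K ?_ ?_ ?_
    (Subgroup.centralizer (B : Set X)) (fun c hc _ => hc) Q₁ Q₂ h₁ h₂
  · intro a ha ha1
    rw [hK a ha ha1]
    exact (hcore a ha ha1).choose_spec.2.1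
  · intro a ha ha1
    rw [hK a ha ha1]
    exact (hBcent a (hWB ha)).trans (hcore a ha ha1).choose_spec.2.2.1
  · intro a ha ha1 R hR hBR hRa
    rw [hK a ha ha1]
    refine (hcore a ha ha1).choose_spec.2.2.2 R hRa ?_ hBR
    obtain ⟨n, hn⟩ := hR.exists_card_eq
    rw [hn]
    exact Nat.Coprime.pow_left n ((Nat.coprime_primes Fact.out hp).2 hqp)

end Cfsg.Agent.S0522
end
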