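-- Statement S0529: chief series with prime indices, non-increasing going up.
import Cfsg.Statements.S0529
import Mathlib.GroupTheory.IndexNormal
import Mathlib.GroupTheory.PGroup
import Mathlib.GroupTheory.Sylow
import Mathlib.Tactic.Group
set_option linter.all false

set_option autoImplicit false
open Cfsg

namespace Cfsg.Agent.S0529

/-- `PChain M L`: there is a chain of normal subgroups of `G` from `⊥` to `M` whose successive
relative indices, read from the top, are the primes in the list `L`. -/
inductive PChain {G : Type*} [Group G] : Subgroup G → List ℕ → Prop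
  | bot : PChain ⊥ []
  | step (N M : Subgroup G) (L : List ℕ) (hNL : PChain N L) (hle : N ≤ M) (hM : M.Normal)
      (hp : (N.relIndex M).Prime) : PChain M (N.relIndex M :: L)

theorem PChain.normal {G : Type*} [Group G] {M : Subgroup G} {L : List ℕ} (h : PChain M L) :
    M.Normal := by
  cases h with
  | bot => infer_instance
  | step N M L hNL hle hM hp => exact hM

/-- Swap lemma. -/
theorem swap {G : Type*} [Group G] [Finite G] {A B C : Subgroup G} (hA : A.Normal)
    (hC : C.Normal) (hAB : A ≤ B) (hBC : B ≤ C)
    {p q : ℕ} (hp : p.Prime) (hq : q.Prime) (hqp : q < p) (h1 : A.relIndex B = q)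
    (h2 : B.relIndex C = p) :
    ∃ D : Subgroup G, D.Normal ∧ A ≤ D ∧ D ≤ C ∧ A.relIndex D = p ∧ D.relIndex C = q := by
  have : Fact p.Prime := ⟨hp⟩
  -- pass to the quotient
  set π := QuotientGroup.mk' A with hπ
  have hker : π.ker = A := QuotientGroup.ker_mk' _
  have hsurj : Function.Surjective π := QuotientGroup.mk'_surjective _
  set C' := C.map π with hC'
  have hC'n : C'.Normal := hC.map π hsurj
  have hAC : A.relIndex C = q * p := by
    rw [← Subgroup.relIndex_mul_relIndex A B C hAB hBC, h1, h2]
  have hcard : ∀ D : Subgroup G, Nat.card (D.map π) = A.relIndex D := by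
    intro D
    rw [← Subgroup.relIndex_bot_left, ← Subgroup.relIndex_comap]
    exact congrArg (fun X => X.relIndex D) hker
  have hC'card : Nat.card C' = q * p := by rw [hcard, hAC]
  -- Sylow p-subgroup of C'
  let P : Sylow p C' := default
  have hPcard : Nat.card P = p := by
    rw [P.card_eq_multiplicity, hC'card,
      Nat.factorization_mul hq.ne_zero hp.ne_zero]
    simp [Finsupp.add_apply, hq.factorization, hp.factorization, hqp.ne]
  have hPidx : (P : Subgroup C').index = q := by
    have := (P : Subgroup C').card_mul_index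
    rw [hC'card] at this
    have h3 : Nat.card (P : Subgroup C') = p := hPcard
    rw [h3, mul_comm q p] at this
    exact Nat.eq_of_mul_eq_mul_left hp.pos this
  have hcardS : Nat.card (Sylow p C') = 1 := by
    have hd : Nat.card (Sylow p C') ∣ q := hPidx ▸ Sylow.card_dvd_index P
    have hm : Nat.card (Sylow p C') ≡ 1 [MOD p] := card_sylow_modEq_one p C'
    rcases (Nat.dvd_prime hq).mp hd with h | h
    · exact h
    · rw [h] at hm
      have hq2 := hq.two_le
      have := Nat.ModEq.eq_of_lt_of_lt hm hqp hp.one_lt
      omega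
  have hPn : (P : Subgroup C').Normal := by
    have hsub : Subsingleton (Sylow p C') := (Nat.card_eq_one_iff_unique.mp hcardS).1
    exact Sylow.normal_of_subsingleton P
  have hPc : (P : Subgroup C').Characteristic := Sylow.characteristic_of_normal P hPn
  have hDn : ((P : Subgroup C').map C'.subtype).Normal := by
    infer_instance
  set D' := (P : Subgroup C').map C'.subtype with hD'
  have hD'C' : D' ≤ C' := Subgroup.map_subtype_le _
  have hD'card : Nat.card D' = p := by
    rw [hD', Subgroup.card_map_of_injective (Subgroup.subtype_injective _)]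
    exact hPcard
  refine ⟨D'.comap π, hDn.comap π, ?_, ?_, ?_, ?_⟩
  · exact hker.symm.le.trans (Subgroup.ker_le_comap π _)
  · have := Subgroup.comap_mono (f := π) hD'C'
    rw [hC', Subgroup.comap_map_eq, hker, sup_eq_left.mpr (hAB.trans hBC)] at this
    exact this
  · rw [← hcard, Subgroup.map_comap_eq_self_of_surjective hsurj, hD'card]
  · have hle : D'.comap π ≤ C := by
      have := Subgroup.comap_mono (f := π) hD'C'
      rw [hC', Subgroup.comap_map_eq, hker, sup_eq_left.mpr (hAB.trans hBC)] at this
      exact this
    have hleA : A ≤ D'.comap π := hker.symm.le.trans (Subgroup.ker_le_comap π _)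
    have h3 := Subgroup.relIndex_mul_relIndex A (D'.comap π) C hleA hle
    rw [hAC, ← hcard, Subgroup.map_comap_eq_self_of_surjective hsurj, hD'card, mul_comm q p] at h3
    exact Nat.eq_of_mul_eq_mul_left hp.pos h3

/-- Sorted insertion. -/
theorem insert_chain {G : Type*} [Group G] [Finite G] (L : List ℕ) :
    ∀ (N M : Subgroup G), PChain N L → L.Pairwise (· ≤ ·) → N ≤ M → M.Normal →
      (N.relIndex M).Prime → PChain M (L.orderedInsert (· ≤ ·) (N.relIndex M)) := by
  induction L with
  | nil =>
    intro N M hN _ hle hM hp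
    exact PChain.step N M [] hN hle hM hp
  | cons q L ih =>
    intro N M hN hs hle hM hp
    by_cases hpq : N.relIndex M ≤ q
    · rw [List.orderedInsert_cons, if_pos hpq]
      exact PChain.step N M _ hN hle hM hp
    · rw [List.orderedInsert_cons, if_neg hpq]
      push Not at hpq
      cases hN with
      | step N' _ _ hN'L hN'le hNn hq' =>
        obtain ⟨D, hDn, hN'D, hDM, hD1, hD2⟩ := swap hN'L.normal hM hN'le hle hp hq' hpq rfl rfl
        have h1 := ih N' D hN'L (List.pairwise_cons.mp hs).2 hN'D hDn (by rw [hD1]; exact hp)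
        rw [hD1] at h1
        have h2 := PChain.step D M _ h1 hDM hM (by rw [hD2]; exact hq')
        rw [hD2] at h2
        exact h2

/-- A sorted chain exists for `M` as soon as it does for `N`, with `M / N` cyclic. -/
theorem cyclic_step {G : Type*} [Group G] [Finite G] (N : Subgroup G) (hN : N.Normal)
    (hNL : ∃ L, PChain N L ∧ L.Pairwise (· ≤ ·)) :
    ∀ (m : ℕ) (M : Subgroup G) (g : G), M = N ⊔ Subgroup.zpowers g → M.Normal →
      N.relIndex M = m → ∃ L, PChain M L ∧ L.Pairwise (· ≤ ·) := by
  intro m
  induction m using Nat.strong_induction_on with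
  | _ m ih =>
    intro M g hMg hM hm
    have hle : N ≤ M := hMg ▸ le_sup_left
    by_cases hm1 : m = 1
    · have : M = N := le_antisymm (Subgroup.relIndex_eq_one.mp (hm.trans hm1)) hle
      rw [this]; exact hNL
    · -- a prime p dividing m
      obtain ⟨p, hp, hpm⟩ := Nat.exists_prime_and_dvd hm1
      set π := QuotientGroup.mk' N with hπ
      have hker : π.ker = N := QuotientGroup.ker_mk' _
      have hsurj : Function.Surjective π := QuotientGroup.mk'_surjective _
      have hcard : ∀ D : Subgroup G, Nat.card (D.map π) = N.relIndex D := by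
        intro D
        rw [← Subgroup.relIndex_bot_left, ← Subgroup.relIndex_comap]
        exact congrArg (fun X => X.relIndex D) hker
      have hmap : ∀ x : G, (N ⊔ Subgroup.zpowers x).map π = Subgroup.zpowers (π x) := by
        intro x
        rw [Subgroup.map_sup, MonoidHom.map_zpowers]
        have : N.map π = ⊥ := by
          rw [Subgroup.map_eq_bot_iff, hker]
        rw [this, bot_sup_eq]
      have hord : orderOf (π g) = m := by
        rw [← Nat.card_zpowers, ← hmap, hcard, ← hMg, hm]
      have hmpos : 0 < m := by rw [← hord]; exact orderOf_pos _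
      set K := N ⊔ Subgroup.zpowers (g ^ p) with hK
      have hKM : K ≤ M := by
        rw [hMg]
        apply sup_le le_sup_left
        refine le_trans ?_ le_sup_right
        rw [Subgroup.zpowers_le]
        exact Subgroup.pow_mem _ (Subgroup.mem_zpowers g) p
      have hNK : N ≤ K := le_sup_left
      have hKidx : N.relIndex K = m / p := by
        rw [← hcard, hmap, Nat.card_zpowers, map_pow, orderOf_pow, hord,
          Nat.gcd_eq_right hpm]
      have hKn : K.Normal := by
        have h1 : (Subgroup.zpowers (π g)).Normal := by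
          rw [← hmap, ← hMg]; exact hM.map π hsurj
        have h2 : (Subgroup.zpowers (π g ^ p)).Normal := by
          refine ⟨?_⟩
          intro x hx y
          obtain ⟨k, rfl⟩ := Subgroup.mem_zpowers_iff.mp hx
          obtain ⟨j, hj⟩ := Subgroup.mem_zpowers_iff.mp
            (h1.conj_mem (π g) (Subgroup.mem_zpowers _) y)
          have h4 : (π g ^ j) ^ p = (π g ^ p) ^ j := by
            rw [← zpow_natCast, ← zpow_mul, ← zpow_natCast (π g) p, mul_comm j, zpow_mul]
          rw [← conj_zpow, ← conj_pow, ← hj, h4]
          exact Subgroup.zpow_mem _ (Subgroup.zpow_mem _ (Subgroup.mem_zpowers _) _) _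
        have h3 : K = (Subgroup.zpowers (π g ^ p)).comap π := by
          rw [← map_pow, ← hmap, Subgroup.comap_map_eq, hker]
          rw [hK, sup_assoc, sup_comm _ N, ← sup_assoc, sup_idem]
        rw [h3]
        exact h2.comap π
      have hlt : m / p < m := Nat.div_lt_self hmpos hp.one_lt
      obtain ⟨L, hL, hLs⟩ := ih (m / p) hlt K (g ^ p) hK hKn hKidx
      have hKM' : K.relIndex M = p := by
        have h1 := Subgroup.relIndex_mul_relIndex N K M hNK hKM
        rw [hKidx, hm] at h1
        have h2 : m / p * p = m := Nat.div_mul_cancel hpm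
        have h3 : 0 < m / p := Nat.div_pos (Nat.le_of_dvd hmpos hpm) hp.pos
        exact Nat.eq_of_mul_eq_mul_left h3 (h1.trans h2.symm)
      refine ⟨L.orderedInsert (· ≤ ·) (K.relIndex M), 
        insert_chain L K M hL hLs hKM hM (by rw [hKM']; exact hp), ?_⟩
      exact hLs.orderedInsert _ _

/-- Convert a sorted chain to the required form. -/
theorem to_fin {G : Type*} [Group G] [Finite G] {M : Subgroup G} {L : List ℕ} (h : PChain M L) :
    L.Pairwise (· ≤ ·) → ∃ (n : ℕ) (H : Fin (n + 1) → Subgroup G), H 0 = ⊥ ∧ H (Fin.last n) = M ∧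
      (∀ i, (H i).Normal) ∧
      (∀ i : Fin n, H i.castSucc ≤ H i.succ ∧ ((H i.castSucc).relIndex (H i.succ)).Prime) ∧
      (∀ i j : Fin n, i ≤ j →
        (H j.castSucc).relIndex (H j.succ) ≤ (H i.castSucc).relIndex (H i.succ)) ∧
      (∀ i : Fin n, (H i.castSucc).relIndex (H i.succ) ∈ L) := by
  induction h with
  | bot =>
    intro _
    exact ⟨0, fun _ => ⊥, rfl, rfl, fun i => inferInstance, fun i => i.elim0,
      fun i => i.elim0, fun i => i.elim0⟩
  | step N M L hNL hle hM hp ih =>
    intro hs
    rw [List.pairwise_cons] at hs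
    obtain ⟨n, H, h0, hl, hN, hst, hmon, hmem⟩ := ih hs.2
    have hsnoc1 : ∀ i : Fin n, Fin.snoc (α := fun _ => Subgroup G) H M i.castSucc.castSucc 
        = H i.castSucc := fun i => Fin.snoc_castSucc _ _ _
    have hsnoc2 : ∀ i : Fin n, Fin.snoc (α := fun _ => Subgroup G) H M i.castSucc.succ 
        = H i.succ := by
      intro i
      rw [← Fin.castSucc_succ]
      exact Fin.snoc_castSucc _ _ _
    have hsnoc3 : Fin.snoc (α := fun _ => Subgroup G) H M (Fin.last n).castSucc = N := by
      rw [Fin.snoc_castSucc]; exact hl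
    have hsnoc4 : Fin.snoc (α := fun _ => Subgroup G) H M (Fin.last n).succ = M := by
      rw [Fin.succ_last, Fin.snoc_last]
    refine ⟨n + 1, Fin.snoc H M, ?_, ?_, ?_, ?_, ?_, ?_⟩
    · rw [← Fin.castSucc_zero, Fin.snoc_castSucc, h0]
    · exact Fin.snoc_last _ _
    · intro i
      refine Fin.lastCases ?_ (fun i => ?_) i
      · rw [Fin.snoc_last]; exact hM
      · rw [Fin.snoc_castSucc]; exact hN i
    · intro i
      refine Fin.lastCases ?_ (fun i => ?_) i
      · rw [hsnoc3, hsnoc4]; exact ⟨hle, hp⟩
      · rw [hsnoc1, hsnoc2]; exact hst i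
    · intro i j hij
      revert hij
      refine Fin.lastCases ?_ (fun j => ?_) j
      · intro _
        rw [hsnoc3, hsnoc4]
        refine Fin.lastCases ?_ (fun i => ?_) i
        · rw [hsnoc3, hsnoc4]
        · rw [hsnoc1, hsnoc2]
          exact hs.1 _ (hmem i)
      · refine Fin.lastCases ?_ (fun i => ?_) i
        · intro hij
          exact absurd hij (not_le.mpr (Fin.castSucc_lt_last j))
        · intro hij
          rw [hsnoc1, hsnoc2, hsnoc1, hsnoc2]
          exact hmon i j (by simpa using hij)
    · intro i
      refine Fin.lastCases ?_ (fun i => ?_) i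
      · rw [hsnoc3, hsnoc4]; exact List.mem_cons_self
      · rw [hsnoc1, hsnoc2]; exact List.mem_cons_of_mem _ (hmem i)

/-- A finite supersolvable group has a chain of normal subgroups, from the trivial subgroup to the whole group, in which every step has prime index and the primes occurring are non-increasing as one goes up the chain. -/
theorem result {G : Type*} [Group G] [Finite G] (hG : Cfsg.IsSupersolvable G) : ∃ (n : ℕ) (H : Fin (n + 1) → Subgroup G), H 0 = ⊥ ∧ H (Fin.last n) = ⊤ ∧ (∀ i, (H i).Normal) ∧ (∀ i : Fin n, H i.castSucc ≤ H i.succ ∧ ((H i.castSucc).relIndex (H i.succ)).Prime) ∧ ∀ i j : Fin n, i ≤ j → (H j.castSucc).relIndex (H j.succ) ≤ (H i.castSucc).relIndex (H i.succ) := by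
  obtain ⟨n, H, h0, hl, hN, hs⟩ := hG
  have key : ∀ i : Fin (n + 1), ∃ L, PChain (H i) L ∧ L.Pairwise (· ≤ ·) := by
    intro i
    induction i using Fin.induction with
    | zero => exact ⟨[], h0 ▸ PChain.bot, List.Pairwise.nil⟩
    | succ i ih =>
      obtain ⟨g, hg⟩ := hs i
      exact cyclic_step (H i.castSucc) (hN _) ih _ (H i.succ) g hg (hN _) rfl
  obtain ⟨L, hL, hLs⟩ := key (Fin.last n)
  rw [hl] at hL
  obtain ⟨m, K, k0, kl, kN, kst, kmon, -⟩ := to_fin hL hLs
  exact ⟨m, K, k0, kl, kN, kst, kmon⟩

end Cfsg.Agent.S0529
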