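-- Statement S0530: a finite group of order 2 * p ^ n is supersolvable.
import Cfsg.Statements.S0530
import Mathlib.GroupTheory.IndexNormal
import Mathlib.GroupTheory.PGroup
import Mathlib.GroupTheory.Sylow
import Mathlib.Tactic.Group
set_option linter.all false

set_option autoImplicit false
open Cfsg

namespace Cfsg.Agent.S0530

/-- If `zpowers v` is normal in `G` and `G ⧸ zpowers v` is supersolvable, so is `G`. -/
theorem supersolvable_of_quotient_zpowers {G : Type*} [Group G] (v : G)
    [hn : (Subgroup.zpowers v).Normal] (h : Cfsg.IsSupersolvable (G ⧸ Subgroup.zpowers v)) :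
    Cfsg.IsSupersolvable G := by
  obtain ⟨n, H, h0, hl, hN, hs⟩ := h
  set π := QuotientGroup.mk' (Subgroup.zpowers v) with hπ
  have hker : π.ker = Subgroup.zpowers v := QuotientGroup.ker_mk' _
  have hsurj : Function.Surjective π := QuotientGroup.mk'_surjective _
  refine ⟨n + 1, Fin.cons ⊥ (fun i => (H i).comap π), ?_, ?_, ?_, ?_⟩
  · simp
  · rw [← Fin.succ_last, Fin.cons_succ, hl, Subgroup.comap_top]
  · intro i
    refine Fin.cases ?_ (fun i => ?_) i
    · simp only [Fin.cons_zero]; infer_instance
    · simp only [Fin.cons_succ]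
      exact (hN i).comap π
  · intro i
    refine Fin.cases ?_ (fun i => ?_) i
    · refine ⟨v, ?_⟩
      simp only [Fin.cons_succ, Fin.castSucc_zero, Fin.cons_zero, bot_sup_eq, h0]
      exact hker
    · obtain ⟨g, hg⟩ := hs i
      obtain ⟨g', rfl⟩ := hsurj g
      refine ⟨g', ?_⟩
      rw [Fin.castSucc_succ, Fin.cons_succ, Fin.cons_succ, hg]
      rw [← MonoidHom.map_zpowers]
      have h1 : ((H i.castSucc).comap π).map π = H i.castSucc :=
        Subgroup.map_comap_eq_self_of_surjective hsurj _
      rw [← h1, ← Subgroup.map_sup, Subgroup.comap_map_eq, h1, hker]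
      apply sup_eq_left.mpr
      refine le_trans ?_ le_sup_left
      exact hker.symm.le.trans (Subgroup.ker_le_comap π _)

theorem aux (n p : ℕ) (hp : p.Prime) :
    ∀ {G : Type*} [Group G] [Finite G], Nat.card G = 2 * p ^ n → Cfsg.IsSupersolvable G := by
  induction n with
  | zero =>
    intro G _ _ hG
    have : Fact (Nat.Prime 2) := ⟨Nat.prime_two⟩
    have hG2 : Nat.card G = 2 := by simpa using hG
    have hc : IsCyclic G := isCyclic_of_prime_card hG2
    obtain ⟨g, hg⟩ := hc.exists_generator
    refine ⟨1, ![⊥, ⊤], rfl, rfl, ?_, ?_⟩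
    · intro i
      fin_cases i
      · exact (inferInstance : (⊥ : Subgroup G).Normal)
      · exact (inferInstance : (⊤ : Subgroup G).Normal)
    · intro i
      fin_cases i
      refine ⟨g, ?_⟩
      show (⊤ : Subgroup G) = ⊥ ⊔ Subgroup.zpowers g
      rw [bot_sup_eq]
      exact ((Subgroup.eq_top_iff' _).mpr hg).symm
  | succ n ih =>
    intro G _ _ hG
    have : Fact p.Prime := ⟨hp⟩
    -- a subgroup of order `p ^ (n+1)`
    obtain ⟨P, hP⟩ := Sylow.exists_subgroup_card_pow_prime (G := G) p (n := n + 1)
      (by rw [hG]; exact dvd_mul_left _ _)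
    have hidx : P.index = 2 := by
      have h1 := P.card_mul_index
      rw [hP, hG] at h1
      have h2 : 0 < p ^ (n + 1) := pow_pos hp.pos _
      apply Nat.eq_of_mul_eq_mul_left h2
      rw [h1]; ring
    have hPn : P.Normal := Subgroup.normal_of_index_eq_two hidx
    have hPp : IsPGroup p P := IsPGroup.of_card hP
    have hPnt : Nontrivial P := by
      rw [← Finite.one_lt_card_iff_nontrivial, hP]
      exact Nat.one_lt_pow (by omega) hp.one_lt
    have hZnt : Nontrivial (Subgroup.center P) := hPp.center_nontrivial
    -- the centre has an element of order p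
    have hZp : IsPGroup p (Subgroup.center P) := hPp.to_subgroup _
    obtain ⟨k, hk⟩ := IsPGroup.iff_card.mp hZp
    have hdvd : p ∣ Nat.card (Subgroup.center P) := by
      have h1 : 1 < Nat.card (Subgroup.center P) := Finite.one_lt_card
      rw [hk] at h1 ⊢
      refine dvd_pow_self p ?_
      rintro rfl
      simp at h1
    obtain ⟨z, hz⟩ := exists_prime_orderOf_dvd_card' p hdvd
    -- as an element of G
    set v : G := ((z : P) : G) with hv
    have hvo : orderOf v = p := by
      rw [hv, Subgroup.orderOf_coe, Subgroup.orderOf_coe]; exact hz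
    have hvP : v ∈ P := (z : P).2
    have hvc : ∀ x ∈ P, x * v = v * x := by
      intro x hx
      have := Subgroup.mem_center_iff.mp z.2 ⟨x, hx⟩
      exact congrArg Subtype.val this
    -- an element outside P
    obtain ⟨t, ht⟩ : ∃ t : G, t ∉ P := by
      by_contra hcon
      push Not at hcon
      have : P = ⊤ := (Subgroup.eq_top_iff' _).mpr hcon
      rw [this, Subgroup.index_top] at hidx
      omega
    -- each element of G is in P or in t * P
    have hcases : ∀ x : G, x ∈ P ∨ ∃ y ∈ P, x = y * t := by
      intro x
      by_cases hx : x ∈ P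
      · exact Or.inl hx
      · right
        refine ⟨x * t⁻¹, ?_, by group⟩
        have := (Subgroup.mul_mem_iff_of_index_two hidx (a := x) (b := t⁻¹)).mpr
        apply this
        constructor
        · intro h; exact absurd h hx
        · intro h; exact absurd (by simpa using h) ht
    have ht2 : t * t ∈ P := by
      rw [Subgroup.mul_mem_iff_of_index_two hidx]
    -- normal subgroup generated by an element of order p
    have key : ∃ w : G, orderOf w = p ∧ (Subgroup.zpowers w).Normal := by
      have hvtc : ∀ x ∈ P, x * (t * v * t⁻¹) = (t * v * t⁻¹) * x := by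
        intro x hx
        have hx' : t⁻¹ * x * t ∈ P := by
          have := hPn.conj_mem x hx t⁻¹
          simpa using this
        have h1 := hvc _ hx'
        calc x * (t * v * t⁻¹) = t * ((t⁻¹ * x * t) * v) * t⁻¹ := by group
          _ = t * (v * (t⁻¹ * x * t)) * t⁻¹ := by rw [h1]
          _ = (t * v * t⁻¹) * x := by group
      have htt : t * (t * v * t⁻¹) * t⁻¹ = v := by
        have h1 := hvc _ ht2
        calc t * (t * v * t⁻¹) * t⁻¹ = ((t * t) * v) * (t * t)⁻¹ := by group
          _ = (v * (t * t)) * (t * t)⁻¹ := by rw [h1]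
          _ = v := by group
      have hvtP : t * v * t⁻¹ ∈ P := hPn.conj_mem v hvP t
      by_cases hw : v * (t * v * t⁻¹) = 1
      · refine ⟨v, hvo, ⟨?_⟩⟩
        have hinv : t * v * t⁻¹ = v⁻¹ := by
          rw [eq_inv_iff_mul_eq_one, hvc _ hvtP]; exact hw
        intro x hx g
        obtain ⟨k, rfl⟩ := Subgroup.mem_zpowers_iff.mp hx
        rw [← conj_zpow]
        apply Subgroup.zpow_mem
        rcases hcases g with hg | ⟨y, hy, rfl⟩
        · rw [hvc _ hg]; simp
        · have : y * t * v * (y * t)⁻¹ = y * (t * v * t⁻¹) * y⁻¹ := by group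
          rw [this, hinv]
          have h2 : y * v⁻¹ = v⁻¹ * y := by
            have := hvtc y hy
            rwa [hinv] at this
          rw [h2]; simp
      · set w := v * (t * v * t⁻¹) with hwdef
        have hwt : t * w * t⁻¹ = w := by
          have : t * w * t⁻¹ = (t * v * t⁻¹) * (t * (t * v * t⁻¹) * t⁻¹) := by
            rw [hwdef]; group
          rw [this, htt, hwdef, hvc _ hvtP]
        have hwc : ∀ x ∈ P, x * w = w * x := by
          intro x hx
          rw [hwdef, ← mul_assoc, hvc x hx, mul_assoc, hvtc x hx, ← mul_assoc]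
        refine ⟨w, ?_, ⟨?_⟩⟩
        · apply orderOf_eq_prime _ hw
          have hcomm : Commute v (t * v * t⁻¹) := by
            show v * (t * v * t⁻¹) = (t * v * t⁻¹) * v
            rw [hvc _ hvtP]
          rw [hwdef, hcomm.mul_pow, conj_pow]
          have hvp : v ^ p = 1 := by rw [← hvo]; exact pow_orderOf_eq_one v
          rw [hvp]; simp
        · intro x hx g
          obtain ⟨k, rfl⟩ := Subgroup.mem_zpowers_iff.mp hx
          rw [← conj_zpow]
          apply Subgroup.zpow_mem
          rcases hcases g with hg | ⟨y, hy, rfl⟩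
          · rw [hwc _ hg]; simp
          · have : y * t * w * (y * t)⁻¹ = y * (t * w * t⁻¹) * y⁻¹ := by group
            rw [this, hwt, hwc _ hy]; simp
    obtain ⟨w, hwo, hwn⟩ := key
    apply supersolvable_of_quotient_zpowers w
    apply ih
    have h1 := Subgroup.card_eq_card_quotient_mul_card_subgroup (Subgroup.zpowers w)
    rw [hG, Nat.card_zpowers, hwo] at h1
    apply Nat.eq_of_mul_eq_mul_right hp.pos
    rw [← h1]; ring

/-- A finite group whose order is twice a prime power is supersolvable. -/
theorem result {G : Type*} [Group G] [Finite G] (p n : ℕ) (hp : p.Prime) (hG : Nat.card G = 2 * p ^ n) : Cfsg.IsSupersolvable G := by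
  exact aux n p hp hG

end Cfsg.Agent.S0530
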