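import Mathlib
import Cfsg.Prelude.Def_SolvableStructure
import Cfsg.Agent.SolvableStructure.HereditaryCLT
import Cfsg.Statements.S0533
set_option linter.all false

-- part: SolvableStructure/HereditaryCLTSupersolvable
section
set_option autoImplicit false
open Cfsg

namespace Cfsg.Agent.SolvableStructure.HereditaryCLTSupersolvable

open Cfsg.Agent.SolvableStructure.HereditaryCLT

/-- Supersolvability passes to homomorphic images. -/
theorem of_surj {G H : Type*} [Group G] [Group H] (hG : IsSupersolvable G) (f : G →* H)
    (hf : Function.Surjective f) : IsSupersolvable H := by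
  obtain ⟨n, K, h0, hn, hnorm, hstep⟩ := hG
  refine ⟨n, fun i => (K i).map f, ?_, ?_, ?_, ?_⟩
  · simp only [h0, Subgroup.map_bot]
  · simp only [hn, Subgroup.map_top_of_surjective f hf]
  · intro i
    exact (hnorm i).map f hf
  · intro i
    obtain ⟨g, hg⟩ := hstep i
    refine ⟨f g, ?_⟩
    simp only [hg, Subgroup.map_sup, MonoidHom.map_zpowers]

/-- An extension of a cyclic normal subgroup by a supersolvable group is supersolvable. -/
theorem of_cyclic_ext {G : Type*} [Group G] (N : Subgroup G) [hN : N.Normal] [hc : IsCyclic N]
    (h : IsSupersolvable (G ⧸ N)) : IsSupersolvable G := by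
  obtain ⟨n, K, h0, hn, hnorm, hstep⟩ := h
  refine ⟨n + 1, Fin.cons ⊥ (fun i => (K i).comap (QuotientGroup.mk' N)), ?_, ?_, ?_, ?_⟩
  · rfl
  · rw [← Fin.succ_last, Fin.cons_succ, hn, Subgroup.comap_top]
  · intro i
    refine Fin.cases ?_ (fun j => ?_) i
    · rw [Fin.cons_zero]; infer_instance
    · rw [Fin.cons_succ]
      exact (hnorm j).comap _
  · intro i
    refine Fin.cases ?_ (fun j => ?_) i
    · obtain ⟨g, hg⟩ := hc.exists_generator
      refine ⟨(g : G), ?_⟩
      rw [Fin.cons_succ, Fin.castSucc_zero, Fin.cons_zero, h0, bot_sup_eq]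
      ext x
      rw [Subgroup.mem_comap, Subgroup.mem_bot, QuotientGroup.mk'_apply,
        QuotientGroup.eq_one_iff, Subgroup.mem_zpowers_iff]
      constructor
      · intro hx
        obtain ⟨k, hk⟩ := Subgroup.mem_zpowers_iff.mp (hg ⟨x, hx⟩)
        exact ⟨k, by simpa using congrArg Subtype.val hk⟩
      · rintro ⟨k, rfl⟩
        exact N.zpow_mem g.2 k
    · obtain ⟨g, hg⟩ := hstep j
      obtain ⟨g, rfl⟩ := QuotientGroup.mk'_surjective N g
      refine ⟨g, ?_⟩
      rw [← Fin.succ_castSucc, Fin.cons_succ, Fin.cons_succ, hg]
      have e1 : (K j.castSucc).comap (QuotientGroup.mk' N) ⊔ Subgroup.zpowers g =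
          (((K j.castSucc).comap (QuotientGroup.mk' N) ⊔ Subgroup.zpowers g).map
            (QuotientGroup.mk' N)).comap (QuotientGroup.mk' N) := by
        rw [Subgroup.comap_map_eq_self]
        rw [QuotientGroup.ker_mk']
        refine le_trans ?_ le_sup_left
        intro x hx
        rw [Subgroup.mem_comap, QuotientGroup.mk'_apply, (QuotientGroup.eq_one_iff x).mpr hx]
        exact one_mem _
      rw [e1, Subgroup.map_sup, Subgroup.map_comap_eq_self_of_surjective
        (QuotientGroup.mk'_surjective N), MonoidHom.map_zpowers]

/-- A nontrivial cyclic normal subgroup of a finite group contains a normal subgroup of prime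
order. -/
theorem exists_prime_le_cyclic {L : Type*} [Group L] [Finite L] (C : Subgroup L) [hC : C.Normal]
    [hcyc : IsCyclic C] (hne : C ≠ ⊥) : ∃ K ≤ C, K.Normal ∧ (Nat.card K).Prime := by
  have h1 : Nat.card C ≠ 1 := fun h => hne (Subgroup.card_eq_one.mp h)
  set p := (Nat.card C).minFac with hp
  have hpp : p.Prime := Nat.minFac_prime h1
  have hpd : p ∣ Nat.card C := Nat.minFac_dvd _
  have : Fact p.Prime := ⟨hpp⟩
  obtain ⟨x, hx⟩ := exists_prime_orderOf_dvd_card' (G := C) p hpd
  have hxL : orderOf (x : L) = p := by rw [← hx]; exact Subgroup.orderOf_coe x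
  refine ⟨Subgroup.zpowers (x : L), ?_, ?_, ?_⟩
  · rw [Subgroup.zpowers_le]; exact x.2
  · refine ⟨fun y hy g => ?_⟩
    obtain ⟨k, rfl⟩ := Subgroup.mem_zpowers_iff.mp hy
    obtain ⟨m, hm⟩ := MonoidHom.map_cyclic (MulAut.conjNormal g : MulAut C).toMonoidHom
    have key2 : g * (x : L) * g⁻¹ ∈ Subgroup.zpowers (x : L) := by
      refine Subgroup.mem_zpowers_iff.mpr ⟨m, ?_⟩
      have h2 := congrArg Subtype.val (hm x)
      rw [Subgroup.coe_zpow] at h2
      rw [← h2]
      exact MulAut.conjNormal_apply g x
    have e : g * (x : L) ^ k * g⁻¹ = (g * (x : L) * g⁻¹) ^ k := by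
      rw [conj_zpow]
    rw [e]
    exact Subgroup.zpow_mem _ key2 k
  · rw [Nat.card_zpowers, hxL]; exact hpp

/-- A nontrivial normal subgroup of a finite supersolvable group contains a normal subgroup of
prime order. -/
theorem exists_prime_le_normal {L : Type*} [Group L] [Finite L] (hL : IsSupersolvable L)
    (M : Subgroup L) [hM : M.Normal] (hne : M ≠ ⊥) : ∃ K ≤ M, K.Normal ∧ (Nat.card K).Prime := by
  obtain ⟨n, H, h0, hn, hnorm, hstep⟩ := hL
  have claim : ∀ i : Fin (n + 1), H i ⊓ M ≠ ⊥ → ∃ K ≤ M, K.Normal ∧ (Nat.card K).Prime := by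
    intro i
    induction i using Fin.induction with
    | zero => intro h; exact absurd (by rw [h0, bot_inf_eq]) h
    | succ i ih =>
      intro h
      by_cases hi : H i.castSucc ⊓ M = ⊥
      · obtain ⟨g, hg⟩ := hstep i
        have := hnorm i.castSucc
        have := hnorm i.succ
        -- `H i.succ ⊓ M` embeds in the cyclic group `zpowers (mk g)`
        let π := QuotientGroup.mk' (H i.castSucc)
        have hmap : (H i.succ).map π = Subgroup.zpowers (π g) := by
          rw [hg, Subgroup.map_sup, MonoidHom.map_zpowers]
          have : (H i.castSucc).map π = ⊥ := by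
            rw [Subgroup.map_eq_bot_iff, QuotientGroup.ker_mk']
          rw [this, bot_sup_eq]
        have hcy : IsCyclic ((H i.succ ⊓ M : Subgroup L)) := by
          have : IsCyclic ((H i.succ).map π) := by rw [hmap]; infer_instance
          let f : (H i.succ ⊓ M : Subgroup L) →* (H i.succ).map π :=
            (π.subgroupMap (H i.succ)).comp (Subgroup.inclusion inf_le_left)
          refine isCyclic_of_injective f ?_
          rw [injective_iff_map_eq_one]
          intro a ha
          have h1 : π (a : L) = 1 := by
            simpa [f] using congrArg Subtype.val ha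
          have h2 : (a : L) ∈ H i.castSucc := by
            rwa [QuotientGroup.mk'_apply, QuotientGroup.eq_one_iff] at h1
          have h3 : (a : L) ∈ H i.castSucc ⊓ M := ⟨h2, a.2.2⟩
          rw [hi, Subgroup.mem_bot] at h3
          exact Subtype.ext h3
        have : (H i.succ ⊓ M).Normal := inferInstance
        obtain ⟨K, hK, hKn, hKp⟩ := exists_prime_le_cyclic (H i.succ ⊓ M) h
        exact ⟨K, hK.trans inf_le_right, hKn, hKp⟩
      · exact ih hi
  apply claim (Fin.last n)
  rwa [hn, top_inf_eq]

/-- A finite group with a normal Sylow `p`-subgroup and a supersolvable subgroup of index `p` is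
supersolvable. -/
theorem of_index_prime_aux : ∀ (n : ℕ) {G : Type*} [Group G] [Finite G], Nat.card G ≤ n →
    ∀ (p : ℕ) [Fact p.Prime] (P : Subgroup G) [P.Normal], IsPGroup p P → ¬ p ∣ P.index →
    ∀ L : Subgroup G, L.index = p → IsSupersolvable L → IsSupersolvable G := by
  intro n
  induction n with
  | zero =>
    intro G _ _ hn
    have : 0 < Nat.card G := Nat.card_pos
    omega
  | succ n ih =>
    intro G _ _ hn p hp P hPn hP hPi L hL hLs
    -- `P` is nontrivial
    have hpP : p ∣ Nat.card P := by
      have h1 : p ∣ Nat.card P * P.index := by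
        rw [P.card_mul_index, ← hL]; exact L.index_dvd_card
      exact (hp.out.dvd_mul.mp h1).resolve_right hPi
    have hPnt : Nontrivial P := by
      rw [← Finite.one_lt_card_iff_nontrivial]
      exact lt_of_lt_of_le hp.out.one_lt (Nat.le_of_dvd Nat.card_pos hpP)
    -- the centre of `P`
    set Z : Subgroup G := (Subgroup.center P).map P.subtype with hZ
    have hZn : Z.Normal := inferInstance
    have hZP : Z ≤ P := Subgroup.map_subtype_le _
    have hZne : Z ≠ ⊥ := by
      have h1 : Nontrivial (Subgroup.center P) := hP.center_nontrivial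
      intro h2
      rw [hZ, Subgroup.map_eq_bot_iff_of_injective _ P.subtype_injective] at h2
      rw [Subgroup.nontrivial_iff_ne_bot] at h1
      exact h1 h2
    have hZc : ∀ z ∈ Z, ∀ x ∈ P, x * z * x⁻¹ = z := by
      intro z hz x hx
      obtain ⟨z', hz', rfl⟩ := hz
      have h1 := Subgroup.mem_center_iff.mp hz' ⟨x, hx⟩
      have h2 := congrArg Subtype.val h1
      simp only [Subgroup.coe_mul] at h2
      rw [Subgroup.coe_subtype, h2, mul_inv_cancel_right]
    have hZp : IsPGroup p Z := hP.to_le hZP
    have hLP : L ⊔ P = ⊤ := by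
      rw [← Subgroup.index_eq_one]
      have h1 : (L ⊔ P).index ∣ p := by rw [← hL]; exact Subgroup.index_dvd_of_le le_sup_left
      have h2 : (L ⊔ P).index ∣ P.index := Subgroup.index_dvd_of_le le_sup_right
      rcases (Nat.dvd_prime hp.out).mp h1 with h3 | h3
      · exact h3
      · rw [h3] at h2; exact absurd h2 hPi
    by_cases hZL : Z ⊓ L = ⊥
    · -- `Z` has order `p` and `L` is a complement
      have h1 : Nat.card Z ≤ p := by
        have h2 : L.relIndex Z = Nat.card Z := by
          rw [← Subgroup.inf_relIndex_left, hZL, Subgroup.relIndex_bot_left]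
        have h3 : L.relIndex Z ≤ L.relIndex ⊤ :=
          Subgroup.relIndex_le_of_le_right le_top (by
            rw [Subgroup.relIndex_top_right, hL]; exact hp.out.ne_zero)
        rw [h2, Subgroup.relIndex_top_right, hL] at h3
        exact h3
      have h2 : Nat.card Z = p := by
        obtain ⟨k, hk⟩ := IsPGroup.iff_card.mp hZp
        have hk0 : k ≠ 0 := by
          rintro rfl
          rw [pow_zero] at hk
          exact hZne (Subgroup.card_eq_one.mp hk)
        apply le_antisymm h1
        rw [hk]
        exact Nat.le_self_pow hk0 p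
      have hZcyc : IsCyclic Z := isCyclic_of_prime_card h2
      apply of_cyclic_ext Z
      -- the map `L → G ⧸ Z`
      apply of_surj hLs ((QuotientGroup.mk' Z).comp L.subtype)
      have hinj : Function.Injective ((QuotientGroup.mk' Z).comp L.subtype) := by
        rw [injective_iff_map_eq_one]
        intro a ha
        rw [MonoidHom.comp_apply, QuotientGroup.mk'_apply, QuotientGroup.eq_one_iff] at ha
        have h3 : (a : G) ∈ Z ⊓ L := ⟨ha, a.2⟩
        rw [hZL, Subgroup.mem_bot] at h3
        exact Subtype.ext h3
      have hcard : Nat.card L = Nat.card (G ⧸ Z) := by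
        have e1 := L.card_mul_index
        have e2 := Z.card_mul_index
        rw [hL, mul_comm] at e1
        rw [h2] at e2
        rw [← Subgroup.index_eq_card]
        exact Nat.eq_of_mul_eq_mul_left hp.out.pos (e1.trans e2.symm)
      have := Nat.bijective_iff_injective_and_card
        ((QuotientGroup.mk' Z).comp L.subtype : L → G ⧸ Z)
      exact (this.mpr ⟨hinj, hcard⟩).2
    · -- a normal subgroup of order `p` inside `Z ⊓ L`
      have hne : Z.subgroupOf L ≠ ⊥ := by
        intro h
        apply hZL
        rw [Subgroup.subgroupOf_eq_bot, disjoint_iff] at h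
        exact h
      have : (Z.subgroupOf L).Normal := inferInstance
      obtain ⟨K, hKle, hKn, hKp⟩ := exists_prime_le_normal hLs (Z.subgroupOf L) hne
      set N : Subgroup G := K.map L.subtype with hN
      have hNL : N ≤ L := Subgroup.map_subtype_le _
      have hNZ : N ≤ Z := by
        rintro _ ⟨k, hk, rfl⟩
        exact hKle hk
      have hNcard : (Nat.card N).Prime := by
        rw [hN, Subgroup.card_map_of_injective L.subtype_injective]
        exact hKp
      have hNn : N.Normal := by
        rw [← Subgroup.normalizer_eq_top_iff, eq_top_iff, ← hLP, sup_le_iff]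
        constructor
        · intro x hx
          rw [Subgroup.mem_normalizer_iff]
          have key : ∀ y ∈ L, ∀ z ∈ N, y * z * y⁻¹ ∈ N := by
            rintro y hy _ ⟨k, hk, rfl⟩
            exact ⟨⟨y, hy⟩ * k * ⟨y, hy⟩⁻¹, hKn.conj_mem k hk ⟨y, hy⟩, rfl⟩
          intro z
          refine ⟨fun hz => key x hx z hz, fun hz => ?_⟩
          have := key x⁻¹ (L.inv_mem hx) _ hz
          simpa [mul_assoc] using this
        · intro x hx
          rw [Subgroup.mem_normalizer_iff]
          intro z
          constructor
          · intro hz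
            rw [hZc z (hNZ hz) x hx]
            exact hz
          · intro hz
            have h1 := hZc _ (hNZ hz) x⁻¹ (P.inv_mem hx)
            have h2 : x * z * x⁻¹ = z := by
              rw [← h1]; group
            rwa [h2] at hz
      have : IsCyclic N := isCyclic_of_prime_card (p := Nat.card N) (hp := ⟨hNcard⟩) rfl
      apply of_cyclic_ext N
      have hcard : Nat.card (G ⧸ N) ≤ n := by
        have e1 := N.card_mul_index
        rw [Subgroup.index_eq_card] at e1
        have e2 := hNcard.two_le
        have e3 : 0 < Nat.card (G ⧸ N) := Nat.card_pos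
        nlinarith
      have hsurj := QuotientGroup.mk'_surjective N
      have hPm : (P.map (QuotientGroup.mk' N)).Normal := hPn.map _ hsurj
      refine ih hcard p (P.map (QuotientGroup.mk' N)) (hP.map _) ?_
        (L.map (QuotientGroup.mk' N)) ?_ ?_
      · intro h
        exact hPi (h.trans (Subgroup.index_map_dvd P hsurj))
      · rw [Subgroup.index_map_eq L hsurj (by rw [QuotientGroup.ker_mk']; exact hNL), hL]
      · exact of_surj hLs ((QuotientGroup.mk' N).subgroupMap L)
          (MonoidHom.subgroupMap_surjective _ _)

/-- A finite group with a normal Sylow `p`-subgroup and a supersolvable subgroup of index `p` is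
supersolvable. -/
theorem of_index_prime {G : Type*} [Group G] [Finite G] (p : ℕ) [Fact p.Prime] (P : Sylow p G)
    (hPn : (P : Subgroup G).Normal) (L : Subgroup G) (hL : L.index = p)
    (hLs : IsSupersolvable L) : IsSupersolvable G :=
  of_index_prime_aux (Nat.card G) le_rfl p (P : Subgroup G) P.isPGroup' P.not_dvd_index L hL hLs

/-- S0533. -/
theorem supersolvable : ∀ (n : ℕ) {G : Type*} [Group G] [Finite G], Nat.card G ≤ n →
    (∀ H : Subgroup G, Cfsg.HasSubgroupOfEveryOrder H) → IsSupersolvable G := by
  intro n
  induction n with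
  | zero =>
    intro G _ _ hn
    have : 0 < Nat.card G := Nat.card_pos
    omega
  | succ n ih =>
    intro G _ _ hn h
    by_cases hG1 : Nat.card G = 1
    · have : Subsingleton G := (Nat.card_eq_one_iff_unique.mp hG1).1
      refine ⟨0, fun _ => ⊥, rfl, Subsingleton.elim _ _, fun _ => inferInstance, fun i => i.elim0⟩
    -- the largest prime divisor
    have hne : (Nat.card G).primeFactors.Nonempty := by
      rw [Nat.nonempty_primeFactors]
      have : 0 < Nat.card G := Nat.card_pos
      omega
    set p := (Nat.card G).primeFactors.max' hne with hp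
    have hpm : p ∈ (Nat.card G).primeFactors := Finset.max'_mem _ _
    have hpp : p.Prime := Nat.prime_of_mem_primeFactors hpm
    have hpd : p ∣ Nat.card G := Nat.dvd_of_mem_primeFactors hpm
    have hmax : ∀ q : ℕ, q.Prime → q ∣ Nat.card G → q ≤ p := by
      intro q hq hqd
      exact Finset.le_max' _ _ (Nat.mem_primeFactors.mpr ⟨hq, hqd, Nat.card_pos.ne'⟩)
    have : Fact p.Prime := ⟨hpp⟩
    obtain ⟨L, hL⟩ := exists_subgroup_index h p hpd
    have hcard : Nat.card L ≤ n := by
      have h1 := L.card_mul_index
      rw [hL] at h1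
      have h2 := hpp.two_le
      have h3 : 0 < Nat.card L := Nat.card_pos
      nlinarith
    exact of_index_prime p (default : Sylow p G)
      (normal_sylow_largest (Nat.card G) le_rfl h p hmax _) L hL
      (ih hcard (hereditary_subgroup h L))

end Cfsg.Agent.SolvableStructure.HereditaryCLTSupersolvable
end

-- part: S0533
section
set_option autoImplicit false
open Cfsg

namespace Cfsg.Agent.S0533

/-- If every subgroup of a finite group has subgroups of all orders dividing its order, then the group is supersolvable. -/
theorem result {G : Type*} [Group G] [Finite G] (h : ∀ H : Subgroup G, Cfsg.HasSubgroupOfEveryOrder H) : Cfsg.IsSupersolvable G := by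
  exact Cfsg.Agent.SolvableStructure.HereditaryCLTSupersolvable.supersolvable (Nat.card G) le_rfl h

end Cfsg.Agent.S0533
end
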