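-- S0534: the product of a solvable group with a suitable abelian group satisfies the converse
-- of Lagrange's theorem. Uses Hall's existence theorem (S0003).
import Cfsg.Statements.S0534
import Cfsg.Agent.S0003
import Cfsg.Agent.SolvableStructure.ConverseLagrange
set_option linter.all false

set_option autoImplicit false
open Cfsg

namespace Cfsg.Agent.S0534

/-- Let G be a finite solvable group and A a finite abelian group such that every prime dividing the order of A divides the order of G and, for each prime p dividing the order of G, the exponent of p in the order of A is one less than its exponent in the order of G. Then G × A has a subgroup of every order dividing its order. -/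
theorem result {G A : Type*} [Group G] [CommGroup A] [Finite G] [Finite A] [Group.IsSolvable G] (hA : ∀ p : ℕ, p.Prime → p ∣ Nat.card A → p ∣ Nat.card G) (hexp : ∀ p : ℕ, p.Prime → p ∣ Nat.card G → (Nat.card A).factorization p + 1 = (Nat.card G).factorization p) : Cfsg.HasSubgroupOfEveryOrder (G × A) := by
  intro d hd
  rw [Nat.card_prod] at hd
  obtain ⟨m, n, b, hg, hmn, hdm, hb⟩ :=
    Cfsg.Agent.SolvableStructure.ConverseLagrange.exists_unitary_split
      (Nat.card G) (Nat.card A) d Nat.card_pos.ne' Nat.card_pos.ne' hd hexp
  obtain ⟨H, hH⟩ := Cfsg.Agent.S0003.result (G := G) m n hg hmn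
  obtain ⟨B, hB⟩ :=
    Cfsg.Agent.SolvableStructure.ConverseLagrange.comm_exists_subgroup_card (A := A) b hb
  refine ⟨H.prod B, ?_⟩
  rw [Nat.card_congr (Subgroup.prodEquiv H B).toEquiv, Nat.card_prod, hH, hB, hdm]

end Cfsg.Agent.S0534
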