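-- S0535: hereditary existence of proper subgroups of p-power index implies solvability.
-- Uses the converse of Hall's theorem.
import Mathlib
import Cfsg.Statements.S0535
import Cfsg.Agent.SolvableStructure.HallConverse
set_option linter.all false

-- part: SolvableStructure/HereditaryIndex
section
set_option autoImplicit false

namespace Cfsg.Agent.SolvableStructure.HereditaryIndex

/-- If every nontrivial subgroup `H` of a finite group with `p ∣ |H|` has a proper subgroup of
`p`-power index, then every subgroup `H` contains a subgroup of order prime to `p` and of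
`p`-power index in `H`. -/
theorem exists_complement_of_hereditary {G : Type*} [Group G] [Finite G] (p : ℕ) (hp : p.Prime)
    (h : ∀ H : Subgroup G, H ≠ ⊥ → p ∣ Nat.card H →
      ∃ K : Subgroup H, K ≠ ⊤ ∧ ∃ k : ℕ, K.index = p ^ k) :
    ∀ (n : ℕ) (H : Subgroup G), Nat.card H = n →
      ∃ (K : Subgroup G) (k : ℕ), K ≤ H ∧ ¬ p ∣ Nat.card K ∧ Nat.card H = Nat.card K * p ^ k := by
  intro n
  induction n using Nat.strong_induction_on with
  | _ n ih =>
    intro H hn
    by_cases hpH : p ∣ Nat.card H
    · have hH : H ≠ ⊥ := by
        rintro rfl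
        rw [Subgroup.card_bot] at hpH
        exact hp.one_lt.ne' (Nat.dvd_one.mp hpH)
      obtain ⟨K', hK', k, hk⟩ := h H hH hpH
      have hc : Nat.card K' * K'.index = Nat.card H := Subgroup.card_mul_index K'
      have hmap : Nat.card (K'.map H.subtype) = Nat.card K' :=
        Nat.card_congr (K'.equivMapOfInjective H.subtype H.subtype_injective).toEquiv.symm
      have hlt : Nat.card (K'.map H.subtype) < n := by
        rw [hmap, ← hn]
        refine lt_of_le_of_ne (Subgroup.card_le_card_group K') ?_
        intro he
        exact hK' (Subgroup.eq_top_of_card_eq K' he)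
      obtain ⟨K, j, hle, hnd, hcard⟩ := ih _ hlt _ rfl
      refine ⟨K, j + k, hle.trans (Subgroup.map_subtype_le K'), hnd, ?_⟩
      rw [← hc, hk, ← hmap, hcard, pow_add, mul_assoc]
    · exact ⟨H, 0, le_rfl, hpH, by simp⟩

theorem exists_p_complement_of_hereditary {G : Type*} [Group G] [Finite G] (p : ℕ) (hp : p.Prime)
    (h : ∀ H : Subgroup G, H ≠ ⊥ → p ∣ Nat.card H →
      ∃ K : Subgroup H, K ≠ ⊤ ∧ ∃ k : ℕ, K.index = p ^ k) :
    ∃ K : Subgroup G, K.index = p ^ (Nat.card G).factorization p := by
  obtain ⟨K, k, -, hnd, hcard⟩ := exists_complement_of_hereditary p hp h _ ⊤ rfl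
  rw [Subgroup.card_top] at hcard
  refine ⟨K, ?_⟩
  have h1 : Nat.card K * K.index = Nat.card G := Subgroup.card_mul_index K
  have h2 : K.index = p ^ k := by
    rw [hcard] at h1
    exact Nat.eq_of_mul_eq_mul_left Nat.card_pos h1
  rw [h2]
  congr 1
  rw [hcard, Nat.factorization_mul Nat.card_pos.ne' (pow_ne_zero _ hp.ne_zero),
    Finsupp.add_apply, Nat.factorization_eq_zero_of_not_dvd hnd, hp.factorization_pow]
  simp

end Cfsg.Agent.SolvableStructure.HereditaryIndex
end

-- part: S0535
section
set_option autoImplicit false
open Cfsg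

namespace Cfsg.Agent.S0535

/-- Suppose that for every nontrivial subgroup H of a finite group and every prime p dividing the order of H there is a proper subgroup of H whose index in H is a power of p. Then the group is solvable. -/
theorem result {G : Type*} [Group G] [Finite G] (h : ∀ H : Subgroup G, H ≠ ⊥ → ∀ p : ℕ, p.Prime → p ∣ Nat.card H → ∃ K : Subgroup H, K ≠ ⊤ ∧ ∃ k : ℕ, K.index = p ^ k) : Group.IsSolvable G :=
  Cfsg.Agent.SolvableStructure.HallConverse.hall_converse _ G rfl fun p hp =>
    Cfsg.Agent.SolvableStructure.HereditaryIndex.exists_p_complement_of_hereditary p hp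
      fun H hH => h H hH p hp

end Cfsg.Agent.S0535
end
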