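import Cfsg.Statements.S0539
import Mathlib
import Cfsg.Agent.Lib.SubnormalJoin
set_option linter.all false

set_option autoImplicit false
open Pointwise
open Cfsg

namespace Cfsg.Agent.S0539

/-- Let S be a family of subnormal subgroups of a finite group that is closed under conjugation, and S₀ a proper subfamily. Then some member of S not in S₀ normalizes the join of S₀. -/
theorem result {G : Type*} [Group G] [Finite G] (S S₀ : Set (Subgroup G)) (hS : ∀ U ∈ S, U.IsSubnormal) (hconj : ∀ U ∈ S, ∀ g : G, MulAut.conj g • U ∈ S) (h₀ : S₀ ⊂ S) : ∃ X ∈ S, X ∉ S₀ ∧ X ≤ Subgroup.normalizer ((sSup S₀ : Subgroup G) : Set G) := by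
  by_cases hcase : ∃ X ∈ S, X ∉ S₀ ∧ X ≤ sSup S₀
  · obtain ⟨X, h1, h2, h3⟩ := hcase
    exact ⟨X, h1, h2, h3.trans Subgroup.le_normalizer⟩
  push Not at hcase
  obtain ⟨Y, hYS, hYS₀⟩ := Set.exists_of_ssubset h₀
  by_cases hn : (sSup S₀ : Subgroup G).Normal
  · exact ⟨Y, hYS, hYS₀, by rw [Subgroup.normalizer_eq_top_iff.mpr hn]; exact le_top⟩
  have hsub : (sSup S₀ : Subgroup G).IsSubnormal :=
    Lib.SubnormalJoin.isSubnormal_sSup S₀ fun A hA => hS A (h₀.1 hA)
  obtain ⟨g, hg1, hg2⟩ := Lib.SubnormalJoin.exists_conj_le_normalizer hsub hn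
  -- some member of `S₀` has its conjugate outside `S₀`
  have hex : ∃ X ∈ S₀, MulAut.conj g • X ∉ S₀ := by
    by_contra hcon
    push Not at hcon
    apply hg1
    have hle : MulAut.conj g • (sSup S₀ : Subgroup G) ≤ sSup S₀ := by
      have h1 : (sSup S₀ : Subgroup G) ≤ (MulAut.conj g)⁻¹ • (sSup S₀ : Subgroup G) := by
        refine sSup_le fun X hX => ?_
        rw [← Subgroup.pointwise_smul_subset_iff]
        exact le_sSup (hcon X hX)
      rwa [Subgroup.pointwise_smul_subset_iff]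
    refine Subgroup.eq_of_le_of_card_ge hle ?_
    exact (Nat.card_congr (Subgroup.equivSMul (MulAut.conj g) (sSup S₀ : Subgroup G)).toEquiv).le
  obtain ⟨X, hX, hX'⟩ := hex
  refine ⟨MulAut.conj g • X, hconj X (h₀.1 hX) g, hX', le_trans ?_ hg2⟩
  exact Subgroup.pointwise_smul_le_pointwise_smul_iff.mpr (le_sSup hX)

end Cfsg.Agent.S0539
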