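import Cfsg.Statements.S0540
import Cfsg.Agent.S0539
import Mathlib.GroupTheory.Sylow
import Mathlib.Data.Set.Card
import Mathlib.Data.Set.Finite.Lemmas
set_option linter.all false
-- import your own Cfsg.Agent.* helpers here

set_option autoImplicit false
open Pointwise
open Cfsg

namespace Cfsg.Agent.S0540

/-- Conjugation by an element of `M` commutes with the embedding `M → G` on subgroups. -/
theorem map_conj_smul {G : Type*} [Group G] (M : Subgroup G) (m : M) (C : Subgroup M) :
    (MulAut.conj m • C).map M.subtype = MulAut.conj (m : G) • (C.map M.subtype) := by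
  ext x
  simp only [Subgroup.mem_map, Subgroup.mem_smul_pointwise_iff_exists]
  constructor
  · rintro ⟨y, ⟨c, hc, rfl⟩, rfl⟩
    exact ⟨c, ⟨c, hc, rfl⟩, by simp⟩
  · rintro ⟨y, ⟨c, hc, rfl⟩, rfl⟩
    exact ⟨_, ⟨c, hc, rfl⟩, by simp⟩

/-- The zipper step inside `M`: if `S M` is not contained in `S L`, some member of `S M` outside
`S L` normalizes the join of `S M ∩ S L`. -/
theorem exists_normalizing {G : Type*} [Group G] [Finite G] (A M : Subgroup G)
    (SM SL : Set (Subgroup G))
    (hSM : ∀ B : Subgroup G, B ∈ SM ↔ (∃ g : G, B = MulAut.conj g • A) ∧ B ≤ M ∧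
      (B.subgroupOf M).IsSubnormal)
    (hne : ¬ SM ⊆ SL) :
    ∃ B ∈ SM, B ∉ SL ∧ B ≤ Subgroup.normalizer ((sSup (SM ∩ SL) : Subgroup G) : Set G) := by
  have hsub : ∀ C : Subgroup M, (C.map M.subtype).subgroupOf M = C := fun C =>
    Subgroup.comap_map_eq_self_of_injective M.subtype_injective C
  obtain ⟨X, hX, hX0, hXN⟩ := S0539.result (G := M)
    {C : Subgroup M | C.map M.subtype ∈ SM} {C : Subgroup M | C.map M.subtype ∈ SM ∩ SL}
    (by
      intro C hC
      have := ((hSM _).mp hC).2.2
      rwa [hsub] at this)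
    (by
      intro C hC m
      obtain ⟨⟨g, hg⟩, -, h3⟩ := (hSM _).mp hC
      rw [hsub] at h3
      change (MulAut.conj m • C).map M.subtype ∈ SM
      rw [hSM, map_conj_smul]
      refine ⟨⟨m * g, ?_⟩, ?_, ?_⟩
      · rw [hg, map_mul, mul_smul]
      · rw [← map_conj_smul]
        exact Subgroup.map_subtype_le _
      · rw [← map_conj_smul, hsub]
        exact h3.smul _)
    (by
      rw [Set.ssubset_iff_subset_ne]
      refine ⟨fun C hC => hC.1, fun h => hne ?_⟩
      intro B hB
      obtain ⟨-, hBM, -⟩ := (hSM _).mp hB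
      have h1 : B.subgroupOf M ∈ {C : Subgroup M | C.map M.subtype ∈ SM} := by
        change (B.subgroupOf M).map M.subtype ∈ SM
        rwa [Subgroup.map_subgroupOf_eq_of_le hBM]
      rw [← h] at h1
      have h2 : (B.subgroupOf M).map M.subtype ∈ SM ∩ SL := h1
      rw [Subgroup.map_subgroupOf_eq_of_le hBM] at h2
      exact h2.2)
  refine ⟨X.map M.subtype, hX, fun h => hX0 ⟨hX, h⟩, ?_⟩
  have hsup : (sSup {C : Subgroup M | C.map M.subtype ∈ SM ∩ SL}).map M.subtype =
      sSup (SM ∩ SL) := by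
    apply le_antisymm
    · rw [Subgroup.map_le_iff_le_comap]
      refine sSup_le fun C hC => ?_
      rw [← Subgroup.map_le_iff_le_comap]
      exact le_sSup hC
    · refine sSup_le fun B hB => ?_
      obtain ⟨-, hBM, -⟩ := (hSM _).mp hB.1
      rw [← Subgroup.map_subgroupOf_eq_of_le hBM]
      apply Subgroup.map_mono
      apply le_sSup
      change (B.subgroupOf M).map M.subtype ∈ SM ∩ SL
      rwa [Subgroup.map_subgroupOf_eq_of_le hBM]
  rw [← hsup]
  exact le_trans (Subgroup.map_mono hXN) (Subgroup.le_normalizer_map _)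

/-- Conjugates of members of `S M` by elements of `M` are in `S M`; so `M` normalizes `sSup (S M)`. -/
theorem le_normalizer_sSup {G : Type*} [Group G] (A M : Subgroup G)
    (SM : Set (Subgroup G))
    (hSM : ∀ B : Subgroup G, B ∈ SM ↔ (∃ g : G, B = MulAut.conj g • A) ∧ B ≤ M ∧
      (B.subgroupOf M).IsSubnormal) :
    M ≤ Subgroup.normalizer ((sSup SM : Subgroup G) : Set G) := by
  have hconj : ∀ m ∈ M, ∀ B ∈ SM, MulAut.conj m • B ∈ SM := by
    intro m hm B hB
    obtain ⟨⟨g, hg⟩, h2, h3⟩ := (hSM _).mp hB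
    have h4 : MulAut.conj m • B = (MulAut.conj (⟨m, hm⟩ : M) • B.subgroupOf M).map M.subtype := by
      rw [map_conj_smul, Subgroup.map_subgroupOf_eq_of_le h2]
    rw [hSM]
    refine ⟨⟨m * g, ?_⟩, ?_, ?_⟩
    · rw [hg, map_mul, mul_smul]
    · rw [h4]
      exact Subgroup.map_subtype_le _
    · rw [h4, Subgroup.subgroupOf, Subgroup.comap_map_eq_self_of_injective M.subtype_injective]
      exact h3.smul _
  have key : ∀ m ∈ M, ∀ n ∈ sSup SM, m * n * m⁻¹ ∈ sSup SM := by
    intro m hm n hn
    have hle : sSup SM ≤ (sSup SM).comap (MulAut.conj m).toMonoidHom := by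
      refine sSup_le fun B hB x hx => ?_
      rw [Subgroup.mem_comap]
      have h1 : m * x * m⁻¹ ∈ MulAut.conj m • B :=
        (Subgroup.mem_smul_pointwise_iff_exists _ _ _).mpr ⟨x, hx, by simp⟩
      exact (le_sSup (hconj m hm B hB)) h1
    exact hle hn
  intro m hm
  rw [Subgroup.mem_normalizer_iff]
  intro n
  refine ⟨key m hm n, fun h => ?_⟩
  have := key m⁻¹ (inv_mem hm) _ h
  simpa [mul_assoc] using this

/-- A uniqueness lemma of zipper type. Let A be a subgroup of a finite group G and U a nonempty family of subgroups. For V in U write S(V) for the set of conjugates of A that lie in V and are subnormal in V. Assume: A belongs to S(V) for every V in U; a member of some S(W) that lies in V belongs to S(V); and for all V, W in U the normalizer of the join of S(V) ∩ S(W) lies in some member of U. Then U has a greatest element. -/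
theorem result {G : Type*} [Group G] [Finite G] (A : Subgroup G) (U : Set (Subgroup G)) (hU : U.Nonempty) (S : Subgroup G → Set (Subgroup G)) (hS : ∀ V B : Subgroup G, B ∈ S V ↔ (∃ g : G, B = MulAut.conj g • A) ∧ B ≤ V ∧ (B.subgroupOf V).IsSubnormal) (h1 : ∀ V ∈ U, A ∈ S V) (h2 : ∀ V ∈ U, ∀ W ∈ U, ∀ B ∈ S W, B ≤ V → B ∈ S V) (h3 : ∀ V ∈ U, ∀ W ∈ U, ∃ X ∈ U, Subgroup.normalizer ((sSup (S V ∩ S W) : Subgroup G) : Set G) ≤ X) : ∃ M ∈ U, ∀ V ∈ U, V ≤ M := by
  classical
  have hmax : ∀ V ∈ U, ∃ M, V ≤ M ∧ Maximal (· ∈ U) M := fun V hV =>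
    (Set.toFinite U).exists_le_maximal hV
  -- it suffices that any two maximal members agree
  suffices huniq : ∀ M L : Subgroup G, Maximal (· ∈ U) M → Maximal (· ∈ U) L → M = L by
    obtain ⟨V, hV⟩ := hU
    obtain ⟨M, -, hM⟩ := hmax V hV
    refine ⟨M, hM.prop, fun W hW => ?_⟩
    obtain ⟨L, hWL, hL⟩ := hmax W hW
    rwa [huniq M L hM hL]
  by_contra hcon
  push Not at hcon
  -- choose a bad pair with the largest intersection
  let Bad : Set (Subgroup G × Subgroup G) :=
    {q | Maximal (· ∈ U) q.1 ∧ Maximal (· ∈ U) q.2 ∧ q.1 ≠ q.2}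
  have hBad : Bad.Nonempty := by
    obtain ⟨M, L, hM, hL, hne⟩ := hcon
    exact ⟨(M, L), hM, hL, hne⟩
  obtain ⟨⟨M, L⟩, ⟨hM, hL, hne⟩, hbest⟩ :=
    Set.exists_max_image Bad (fun q => (S q.1 ∩ S q.2).ncard) (Set.toFinite _) hBad
  simp only at hM hL hne hbest
  obtain ⟨X, hX, hNX⟩ := h3 M hM.prop L hL.prop
  obtain ⟨H, hXH, hH⟩ := hmax X hX
  have hNH : Subgroup.normalizer ((sSup (S M ∩ S L) : Subgroup G) : Set G) ≤ H := hNX.trans hXH
  -- members of the intersection are in `S H`
  have hsubH : S M ∩ S L ⊆ S H := by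
    intro B hB
    refine h2 H hH.prop M hM.prop B hB.1 ?_
    exact le_trans (le_trans (le_sSup hB) Subgroup.le_normalizer) hNH
  -- general claim
  have claim : ∀ M' L' : Subgroup G, Maximal (· ∈ U) M' → S M' ∩ S L' = S M ∩ S L →
      M' = H := by
    intro M' L' hM' heq
    by_cases hsub : S M' ⊆ S L'
    · have h5 : S M' ∩ S L' = S M' := Set.inter_eq_left.mpr hsub
      have h6 : M' ≤ H := by
        refine le_trans (le_normalizer_sSup A M' (S M') (hS M')) ?_
        rw [← h5, heq]
        exact hNH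
      exact le_antisymm h6 (hM'.le_of_ge hH.prop h6)
    · obtain ⟨B, hBM, hBL, hBN⟩ := exists_normalizing A M' (S M') (S L') (hS M') hsub
      rw [heq] at hBN
      have hBH : B ∈ S H := h2 H hH.prop M' hM'.prop B hBM (hBN.trans hNH)
      by_contra hne'
      have h7 := hbest (M', H) ⟨hM', hH, hne'⟩
      simp only at h7
      have h8 : S M ∩ S L ⊂ S M' ∩ S H := by
        rw [Set.ssubset_iff_of_subset]
        · refine ⟨B, ⟨hBM, hBH⟩, ?_⟩
          rw [← heq]
          exact fun h => hBL h.2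
        · intro C hC
          refine ⟨?_, hsubH hC⟩
          rw [← heq] at hC
          exact hC.1
      exact absurd (Set.ncard_lt_ncard h8 (Set.toFinite _)) (not_lt.mpr h7)
  apply hne
  rw [claim M L hM rfl, claim L M hL (Set.inter_comm _ _)]

end Cfsg.Agent.S0540
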