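import Cfsg.Statements.S0541
import Mathlib.GroupTheory.Nilpotent
import Mathlib.Algebra.Group.Pointwise.Set.Card
set_option linter.all false
-- import your own Cfsg.Agent.* helpers here

set_option autoImplicit false
open Pointwise
open Cfsg

namespace Cfsg.Agent.S0541

theorem conj_smul_iSup {G : Type*} [Group G] {ι : Sort*} (a : MulAut G) (H : ι → Subgroup G) :
    a • (⨆ i, H i) = ⨆ i, a • H i := by
  exact (Subgroup.gc_map_comap (MulDistribMulAction.toMonoidEnd (MulAut G) G a)).l_iSup

/-- In a p-subgroup `P`, a subgroup `D ≤ P` that is not normalized by `P` has an element `x ∈ P`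
outside `N(D)` with `x D x⁻¹ ≤ N(D)`. -/
theorem exists_conj_le_normalizer {G : Type*} [Group G] [Finite G] (p : ℕ) [Fact p.Prime]
    (P D : Subgroup G) (hP : IsPGroup p P) (hDP : D ≤ P)
    (hn : ¬ P ≤ Subgroup.normalizer (D : Set G)) :
    ∃ x ∈ P, x ∉ Subgroup.normalizer (D : Set G) ∧
      MulAut.conj x • D ≤ Subgroup.normalizer (D : Set G) := by
  have hnil : Group.IsNilpotent P := hP.isNilpotent
  have hnc : NormalizerCondition P := Group.normalizerCondition_of_isNilpotent
  have hlt : (Subgroup.normalizer (D : Set G)).subgroupOf P < ⊤ := by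
    rw [lt_top_iff_ne_top]
    intro h
    exact hn (Subgroup.subgroupOf_eq_top.mp h)
  obtain ⟨x, hx1, hx2⟩ := SetLike.exists_of_lt (hnc _ hlt)
  refine ⟨x, x.2, ?_, ?_⟩
  · intro h
    exact hx2 (Subgroup.mem_subgroupOf.mpr h)
  · intro y hy
    rw [Subgroup.mem_smul_pointwise_iff_exists] at hy
    obtain ⟨d, hd, rfl⟩ := hy
    have hdN : (⟨d, hDP hd⟩ : P) ∈ (Subgroup.normalizer (D : Set G)).subgroupOf P := by
      rw [Subgroup.mem_subgroupOf]
      exact Subgroup.le_normalizer hd
    have h2 := (Subgroup.mem_normalizer_iff.mp hx1 ⟨d, hDP hd⟩).mp hdN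
    rw [Subgroup.mem_subgroupOf] at h2
    simpa using h2

/-- Let Z and Y be subgroups of a finite group G and p a prime. Suppose that for every g in G the subgroup generated by the conjugates of g Z g⁻¹ under Y is a p-group. Then there is a Sylow p-subgroup P of G such that Y normalizes the subgroup generated by all conjugates of Z contained in P. -/
theorem result {G : Type*} [Group G] [Finite G] (p : ℕ) [Fact p.Prime] (Z Y : Subgroup G) (h : ∀ g : G, IsPGroup p ↥(⨆ y ∈ Y, MulAut.conj (y * g) • Z)) : ∃ P : Sylow p G, Y ≤ Subgroup.normalizer ((⨆ g ∈ {g : G | MulAut.conj g • Z ≤ (P : Subgroup G)}, MulAut.conj g • Z : Subgroup G) : Set G) := by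
  classical
  -- the good sets
  let Good : Set (Set G) := {T | (∀ y ∈ Y, ∀ g ∈ T, y * g ∈ T) ∧
    IsPGroup p ↥(⨆ g ∈ T, MulAut.conj g • Z : Subgroup G)}
  have hfin : Good.Finite := Set.toFinite _
  have hne : Good.Nonempty := by
    refine ⟨∅, ?_, ?_⟩
    · simp
    · have : (⨆ g ∈ (∅ : Set G), MulAut.conj g • Z : Subgroup G) = ⊥ := by simp
      rw [this]
      exact IsPGroup.of_bot
  obtain ⟨T, hT⟩ := hfin.exists_maximal hne
  obtain ⟨hTY, hTp⟩ := hT.prop
  -- Y normalizes D(T)
  have hnorm : ∀ T' : Set G, (∀ y ∈ Y, ∀ g ∈ T', y * g ∈ T') →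
      Y ≤ Subgroup.normalizer ((⨆ g ∈ T', MulAut.conj g • Z : Subgroup G) : Set G) := by
    intro T' hT' y hy
    have key : ∀ y ∈ Y, MulAut.conj y • (⨆ g ∈ T', MulAut.conj g • Z : Subgroup G) ≤
        (⨆ g ∈ T', MulAut.conj g • Z : Subgroup G) := by
      intro y hy
      rw [conj_smul_iSup]
      refine iSup_le fun g => ?_
      rw [conj_smul_iSup]
      refine iSup_le fun hg => ?_
      rw [← mul_smul, ← map_mul]
      exact le_iSup₂_of_le (y * g) (hT' y hy g hg) le_rfl
    rw [Subgroup.mem_normalizer_iff]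
    intro n
    constructor
    · intro hn
      exact key y hy ((Subgroup.mem_smul_pointwise_iff_exists _ _ _).mpr ⟨n, hn, by simp⟩)
    · intro hn
      refine key y⁻¹ (inv_mem hy) ((Subgroup.mem_smul_pointwise_iff_exists _ _ _).mpr ⟨_, hn, ?_⟩)
      simp [mul_assoc]
  obtain ⟨P, hP⟩ := hTp.exists_le_sylow
  refine ⟨P, ?_⟩
  -- the key claim
  have hsub : T ⊆ {g : G | MulAut.conj g • Z ≤ (P : Subgroup G)} := fun g hg =>
    le_trans (le_iSup₂_of_le g hg le_rfl) hP
  have hmain : {g : G | MulAut.conj g • Z ≤ (P : Subgroup G)} ⊆ T := by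
    by_contra hcon
    have hclaim : ∃ g, MulAut.conj g • Z ≤ (P : Subgroup G) ∧ g ∉ T ∧ MulAut.conj g • Z ≤
        Subgroup.normalizer ((⨆ g ∈ T, MulAut.conj g • Z : Subgroup G) : Set G) := by
      by_cases hPn : (P : Subgroup G) ≤
          Subgroup.normalizer ((⨆ g ∈ T, MulAut.conj g • Z : Subgroup G) : Set G)
      · rw [Set.not_subset] at hcon
        obtain ⟨g, hg1, hg2⟩ := hcon
        exact ⟨g, hg1, hg2, le_trans hg1 hPn⟩
      · obtain ⟨x, hxP, hxn, hx⟩ := exists_conj_le_normalizer p (P : Subgroup G) _ P.2 hP hPn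
        have hex : ∃ g ∈ T, x * g ∉ T := by
          by_contra hno
          push Not at hno
          apply hxn
          have hle : MulAut.conj x • (⨆ g ∈ T, MulAut.conj g • Z : Subgroup G) ≤
              (⨆ g ∈ T, MulAut.conj g • Z : Subgroup G) := by
            rw [conj_smul_iSup]
            refine iSup_le fun g => ?_
            rw [conj_smul_iSup]
            refine iSup_le fun hg => ?_
            rw [← mul_smul, ← map_mul]
            exact le_iSup₂_of_le (x * g) (hno g hg) le_rfl
          have heq : MulAut.conj x • (⨆ g ∈ T, MulAut.conj g • Z : Subgroup G) =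
              (⨆ g ∈ T, MulAut.conj g • Z : Subgroup G) := by
            apply Subgroup.eq_of_le_of_card_ge hle
            exact (Set.natCard_smul_set (MulAut.conj x) _).ge
          rw [Subgroup.mem_normalizer_iff]
          intro n
          conv_rhs => rw [← heq]
          rw [Subgroup.mem_smul_pointwise_iff_exists]
          constructor
          · intro hn
            exact ⟨n, hn, by simp⟩
          · rintro ⟨s, hs, hs'⟩
            have : s = n := by
              simpa using hs'
            rwa [← this]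
        obtain ⟨g, hg, hxg⟩ := hex
        refine ⟨x * g, ?_, hxg, ?_⟩
        · rw [map_mul, mul_smul]
          intro y hy
          rw [Subgroup.mem_smul_pointwise_iff_exists] at hy
          obtain ⟨s, hs, rfl⟩ := hy
          have := hsub hg hs
          simpa using mul_mem (mul_mem hxP this) (inv_mem hxP)
        · rw [map_mul, mul_smul]
          refine le_trans ?_ hx
          apply Subgroup.pointwise_smul_le_pointwise_smul_iff.mpr
          exact le_iSup₂_of_le g hg le_rfl
    obtain ⟨g, hgP, hgT, hgN⟩ := hclaim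
    -- enlarge T
    have hbig : T ∪ {x | ∃ y ∈ Y, x = y * g} ∈ Good := by
      refine ⟨?_, ?_⟩
      · rintro y hy x (hx | ⟨z, hz, rfl⟩)
        · exact Or.inl (hTY y hy x hx)
        · exact Or.inr ⟨y * z, mul_mem hy hz, by rw [mul_assoc]⟩
      · have heq : (⨆ x ∈ T ∪ {x | ∃ y ∈ Y, x = y * g}, MulAut.conj x • Z : Subgroup G) =
            (⨆ y ∈ Y, MulAut.conj (y * g) • Z) ⊔ (⨆ g ∈ T, MulAut.conj g • Z) := by
          apply le_antisymm
          · refine iSup₂_le ?_
            rintro x (hx | ⟨z, hz, rfl⟩)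
            · exact le_sup_of_le_right (le_iSup₂_of_le x hx le_rfl)
            · exact le_sup_of_le_left (le_iSup₂_of_le z hz le_rfl)
          · refine sup_le ?_ ?_
            · exact iSup₂_le fun y hy => le_iSup₂_of_le (y * g) (Or.inr ⟨y, hy, rfl⟩) le_rfl
            · exact iSup₂_le fun x hx => le_iSup₂_of_le x (Or.inl hx) le_rfl
        rw [heq]
        refine IsPGroup.to_sup_of_normal_right' (h g) hTp ?_
        refine iSup₂_le fun y hy => ?_
        have hyN := hnorm T hTY hy
        rw [map_mul, mul_smul]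
        intro u hu
        rw [Subgroup.mem_smul_pointwise_iff_exists] at hu
        obtain ⟨s, hs, rfl⟩ := hu
        simpa using mul_mem (mul_mem hyN (hgN hs)) (inv_mem hyN)
    have h1 := hT.le_of_ge hbig Set.subset_union_left
    exact hgT (h1 (Or.inr ⟨1, one_mem _, by simp⟩))
  rw [Set.Subset.antisymm hmain hsub]
  exact hnorm T hTY

end Cfsg.Agent.S0541
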