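import Cfsg.Statements.S0544
import Mathlib
set_option linter.all false

set_option autoImplicit false
open Cfsg

namespace Cfsg.Agent.S0544

/-- In a finite solvable group the intersection of the normalizers of the members of a Hall complement system is a nilpotent subgroup. -/
theorem result {G : Type*} [Group G] [Finite G] [Group.IsSolvable G] (K : Nat.Primes → Subgroup G) (hK : Cfsg.IsComplementSystem K) : Group.IsNilpotent (Cfsg.systemNormalizer K) := by
  classical
  set D : Subgroup G := Cfsg.systemNormalizer K with hD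
  have hDle : ∀ p, D ≤ Subgroup.normalizer (K p : Set G) := fun p => iInf_le _ p
  -- elements of `D` have a `p`-power in `K p`
  have hpow : ∀ (p : Nat.Primes) (x : G), x ∈ D →
      x ^ ((p : ℕ) ^ (Nat.card G).factorization p) ∈ K p := by
    intro p x hx
    have hx' : x ∈ Subgroup.normalizer (K p : Set G) := hDle p hx
    have h1 := Subgroup.pow_index_mem
      ((K p).subgroupOf (Subgroup.normalizer (K p : Set G))) ⟨x, hx'⟩
    have h2 : ((K p).subgroupOf (Subgroup.normalizer (K p : Set G))).index ∣ (K p).index :=
      Subgroup.relIndex_dvd_index_of_le Subgroup.le_normalizer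
    rw [hK p] at h2
    obtain ⟨c, hc⟩ := h2
    rw [hc, pow_mul]
    exact pow_mem (by simpa [Subgroup.mem_subgroupOf] using h1) c
  have hnorm : ∀ p, ((K p).subgroupOf D).Normal := by
    intro p
    constructor
    intro y hy x
    rw [Subgroup.mem_subgroupOf] at hy ⊢
    have h1 := hDle p x.2
    rw [Subgroup.mem_normalizer_iff] at h1
    exact (h1 y).1 hy
  have := hnorm
  let s : Finset Nat.Primes := (Nat.card G).primeFactors.subtype Nat.Prime
  have hnil : ∀ p : s, Group.IsNilpotent (D ⧸ (K p).subgroupOf D) := by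
    intro p
    have : Fact ((p : Nat.Primes) : ℕ).Prime := ⟨(p : Nat.Primes).2⟩
    have hpg : IsPGroup ((p : Nat.Primes) : ℕ) (D ⧸ (K p).subgroupOf D) := by
      intro y
      obtain ⟨x, rfl⟩ := QuotientGroup.mk_surjective y
      refine ⟨(Nat.card G).factorization ((p : Nat.Primes) : ℕ), ?_⟩
      rw [← QuotientGroup.mk_pow, QuotientGroup.eq_one_iff, Subgroup.mem_subgroupOf]
      simpa using hpow p x x.2
    exact hpg.isNilpotent
  let f : D →* (∀ p : s, D ⧸ (K p).subgroupOf D) :=
    MonoidHom.pi fun p => QuotientGroup.mk' _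
  have hf : Function.Injective f := by
    rw [injective_iff_map_eq_one]
    intro x hx
    have h1 : ∀ p : s, (x : G) ∈ K p := by
      intro p
      have := congrFun hx p
      have h2 : ((x : D) : D ⧸ (K p).subgroupOf D) = 1 := this
      rw [QuotientGroup.eq_one_iff, Subgroup.mem_subgroupOf] at h2
      exact h2
    have h3 : orderOf (x : G) = 1 := by
      by_contra hne
      obtain ⟨q, hq, hqd⟩ := Nat.exists_prime_and_dvd hne
      have hqG : q ∣ Nat.card G := hqd.trans (orderOf_dvd_natCard _)
      have hqs : (⟨q, hq⟩ : Nat.Primes) ∈ s :=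
        Finset.mem_subtype.2 (Nat.mem_primeFactors.2 ⟨hq, hqG, Nat.card_pos.ne'⟩)
      have hqK : q ∣ Nat.card (K ⟨q, hq⟩) :=
        hqd.trans ((K ⟨q, hq⟩).orderOf_dvd_natCard (h1 ⟨_, hqs⟩))
      have h4 := (K ⟨q, hq⟩).card_mul_index
      rw [hK ⟨q, hq⟩] at h4
      have h5 : q ^ ((Nat.card G).factorization q + 1) ∣ Nat.card G := by
        conv_rhs => rw [← h4]
        rw [pow_succ, mul_comm]
        exact mul_dvd_mul_right hqK _
      exact Nat.pow_succ_factorization_not_dvd Nat.card_pos.ne' hq h5
    exact Subtype.ext (orderOf_eq_one_iff.1 h3)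
  have := hnil
  have hr : Group.IsNilpotent f.range := inferInstance
  exact Group.nilpotent_of_mulEquiv (MonoidHom.ofInjective hf).symm

end Cfsg.Agent.S0544
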