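import Cfsg.Statements.S0546
import Cfsg.Agent.SolvableStructure.ComplementSystem
set_option linter.all false

set_option autoImplicit false
open Cfsg

namespace Cfsg.Agent.S0546

open scoped commutatorElement

/-- The normal closure of a system normalizer of a finite solvable group is the whole group. -/
theorem result {G : Type*} [Group G] [Finite G] [Group.IsSolvable G] (K : Nat.Primes → Subgroup G) (hK : Cfsg.IsComplementSystem K) : Subgroup.normalClosure ((Cfsg.systemNormalizer K : Subgroup G) : Set G) = ⊤ := by
  set M := Subgroup.normalClosure ((Cfsg.systemNormalizer K : Subgroup G) : Set G) with hM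
  -- the join of `M` with the commutator subgroup is everything
  have h1 : commutator G ⊔ M = ⊤ := by
    have h2 := Cfsg.Agent.SolvableStructure.ComplementSystem.systemNormalizer_map hK
      (commutator G ⊔ M)
    have h3 : Cfsg.systemNormalizer
        (fun p => (K p).map (QuotientGroup.mk' (commutator G ⊔ M))) = ⊤ := by
      refine iInf_eq_top.2 fun p => ?_
      refine Subgroup.normalizer_eq_top_iff.2 ⟨?_⟩
      intro a ha b
      have hc : b * a = a * b := by
        obtain ⟨x, rfl⟩ := QuotientGroup.mk'_surjective _ a
        obtain ⟨y, rfl⟩ := QuotientGroup.mk'_surjective _ b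
        rw [← map_mul, ← map_mul]
        refine QuotientGroup.eq.2 (Subgroup.mem_sup_left ?_)
        have : (y * x)⁻¹ * (x * y) = ⁅x⁻¹, y⁻¹⁆ := by
          rw [commutatorElement_def]; group
        rw [this]
        exact Subgroup.commutator_mem_commutator (Subgroup.mem_top _) (Subgroup.mem_top _)
      rw [hc, mul_inv_cancel_right]
      exact ha
    rw [h3] at h2
    have h4 : (Cfsg.systemNormalizer K).map (QuotientGroup.mk' (commutator G ⊔ M)) = ⊥ := by
      rw [Subgroup.map_eq_bot_iff, QuotientGroup.ker_mk']
      exact (Subgroup.le_normalClosure (H := Cfsg.systemNormalizer K)).trans le_sup_right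
    rw [h4] at h2
    have h5 : (commutator G ⊔ M).map (QuotientGroup.mk' (commutator G ⊔ M)) = ⊤ := by
      rw [QuotientGroup.map_mk'_self, h2]
    have h6 := congrArg (Subgroup.comap (QuotientGroup.mk' (commutator G ⊔ M))) h5
    rwa [Subgroup.comap_map_eq, QuotientGroup.ker_mk', sup_idem, Subgroup.comap_top] at h6
  -- so `G ⧸ M` is perfect and solvable, hence trivial
  by_contra hne
  have hnt : Nontrivial (G ⧸ M) := by
    rw [← not_subsingleton_iff_nontrivial, QuotientGroup.subsingleton_iff]
    exact hne
  have hlt := Group.IsSolvable.commutator_lt_top_of_nontrivial (G ⧸ M)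
  apply hlt.ne
  have h7 : (commutator G).map (QuotientGroup.mk' M) = commutator (G ⧸ M) := by
    rw [commutator_def, Subgroup.map_commutator, ← MonoidHom.range_eq_map,
      MonoidHom.range_eq_top.2 (QuotientGroup.mk'_surjective M), commutator_def]
  rw [← h7]
  have h8 := congrArg (Subgroup.map (QuotientGroup.mk' M)) h1
  rw [Subgroup.map_sup, QuotientGroup.map_mk'_self, sup_bot_eq, ← MonoidHom.range_eq_map,
      MonoidHom.range_eq_top.2 (QuotientGroup.mk'_surjective M)] at h8
  exact h8

end Cfsg.Agent.S0546
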