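import Cfsg.Statements.S0549
import Cfsg.Agent.SolvableStructure.MinimalNormal
set_option linter.all false

set_option autoImplicit false
open Cfsg

namespace Cfsg.Agent.S0549

open Cfsg.Agent.SolvableStructure.MinimalNormal

theorem inf_eq_bot {G : Type*} [Group G] (U : Subgroup G) (hU : IsCoatom U)
    (hcore : U.normalCore = ⊥) (N : Subgroup G) [N.Normal] (hN : N ≠ ⊥) :
    Subgroup.centralizer (N : Set G) ⊓ U = ⊥ := by
  have htop := sup_eq_top_of_normalCore_eq_bot U hU hcore N hN
  have hnorm : (Subgroup.centralizer (N : Set G) ⊓ U).Normal := by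
    rw [← Subgroup.normalizer_eq_top_iff, eq_top_iff, ← htop, sup_le_iff]
    constructor
    · rw [Subgroup.le_normalizer_iff]
      intro n hn x hx
      have h1 := (Subgroup.mem_centralizer_iff.mp hx.1) n hn
      rw [h1, mul_inv_cancel_right]
      exact hx
    · rw [Subgroup.le_normalizer_iff]
      intro u hu x hx
      refine ⟨?_, U.mul_mem (U.mul_mem hu hx.2) (U.inv_mem hu)⟩
      have : (Subgroup.centralizer (N : Set G)).Normal := inferInstance
      exact this.conj_mem x hx.1 u
  have hle : Subgroup.centralizer (N : Set G) ⊓ U ≤ U.normalCore :=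
    Subgroup.normal_le_normalCore.mpr inf_le_right
  rw [hcore] at hle
  exact le_bot_iff.mp hle

/-- Let U be a maximal subgroup of a finite group G whose normal core is trivial, and N a nontrivial normal subgroup with centralizer C. Then C ∩ U = 1, and either C = 1 or C is a minimal normal subgroup of G. -/
theorem result {G : Type*} [Group G] [Finite G] (U : Subgroup G) (hU : IsCoatom U) (hcore : U.normalCore = ⊥) (N : Subgroup G) [N.Normal] (hN : N ≠ ⊥) : Subgroup.centralizer (N : Set G) ⊓ U = ⊥ ∧ (Subgroup.centralizer (N : Set G) = ⊥ ∨ (Subgroup.centralizer (N : Set G) ≠ ⊥ ∧ ∀ K : Subgroup G, K.Normal → K ≤ Subgroup.centralizer (N : Set G) → K = ⊥ ∨ K = Subgroup.centralizer (N : Set G))) := by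
  have h1 := inf_eq_bot U hU hcore N hN
  refine ⟨h1, ?_⟩
  by_cases hC : Subgroup.centralizer (N : Set G) = ⊥
  · exact Or.inl hC
  · refine Or.inr ⟨hC, fun K hK hKC => ?_⟩
    by_cases hK0 : K = ⊥
    · exact Or.inl hK0
    · refine Or.inr (le_antisymm hKC ?_)
      have htop := sup_eq_top_of_normalCore_eq_bot U hU hcore K hK0
      intro c hc
      have hcmem : c ∈ K ⊔ U := by rw [htop]; trivial
      obtain ⟨k, hk, u, hu, hku⟩ := Subgroup.mem_sup_of_normal_left.mp hcmem
      have hu' : u ∈ Subgroup.centralizer (N : Set G) := by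
        have : u = k⁻¹ * c := by rw [← hku, inv_mul_cancel_left]
        rw [this]
        exact Subgroup.mul_mem _ (Subgroup.inv_mem _ (hKC hk)) hc
      have hu1 : u ∈ Subgroup.centralizer (N : Set G) ⊓ U := ⟨hu', hu⟩
      rw [h1, Subgroup.mem_bot] at hu1
      rw [← hku, hu1, mul_one]
      exact hk

end Cfsg.Agent.S0549
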