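import Cfsg.Statements.S0550
import Mathlib.Tactic
set_option linter.all false

set_option autoImplicit false
open Cfsg

namespace Cfsg.Agent.S0550

/-- Two subgroups complementing the same normal subgroup inside the same join are isomorphic. -/
theorem equiv_of_common_complement {G : Type*} [Group G] (N H K : Subgroup G) [N.Normal]
    (hH : H ⊓ N = ⊥) (hK : K ⊓ N = ⊥) (hHK : H ⊔ N = K ⊔ N) : Nonempty (H ≃* K) := by
  have key : ∀ L : Subgroup G, L ⊓ N = ⊥ →
      Function.Injective ((QuotientGroup.mk' N).comp L.subtype) := by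
    intro L hL
    rw [injective_iff_map_eq_one]
    intro x hx
    have hxN : (x : G) ∈ N := (QuotientGroup.eq_one_iff (x : G)).1 hx
    have : (x : G) ∈ L ⊓ N := ⟨x.2, hxN⟩
    rw [hL, Subgroup.mem_bot] at this
    exact Subtype.ext this
  have hr : ∀ L : Subgroup G, ((QuotientGroup.mk' N).comp L.subtype).range =
      (L ⊔ N).map (QuotientGroup.mk' N) := by
    intro L
    rw [MonoidHom.range_comp, Subgroup.range_subtype, Subgroup.map_sup,
      QuotientGroup.map_mk'_self, sup_bot_eq]
  have e1 := MonoidHom.ofInjective (key H hH)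
  have e2 := MonoidHom.ofInjective (key K hK)
  have h12 : ((QuotientGroup.mk' N).comp H.subtype).range =
      ((QuotientGroup.mk' N).comp K.subtype).range := by
    rw [hr, hr, hHK]
  exact ⟨e1.trans ((MulEquiv.subgroupCongr h12).trans e2.symm)⟩

/-- The one-sided facts. -/
theorem half {G : Type*} [Group G] (U : Subgroup G) (hU : IsCoatom U)
    (hcore : U.normalCore = ⊥) (A B : Subgroup G) [A.Normal] [B.Normal] (hA : A ≠ ⊥) (hB : B ≠ ⊥)
    (hAB : A ⊓ B = ⊥) :
    Subgroup.centralizer (A : Set G) = B ∧ A ⊓ U = ⊥ ∧ A ⊔ U = ⊤ := by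
  have hsup : ∀ N : Subgroup G, N.Normal → N ≠ ⊥ → N ⊔ U = ⊤ := by
    intro N hN hN0
    rw [sup_comm]
    have hle : U ≤ U ⊔ N := le_sup_left
    rcases hU.le_iff.1 hle with h | h
    · exact h
    · exfalso
      apply hN0
      have hNU : N ≤ U := by
        rw [← h]; exact le_sup_right
      have := (Subgroup.normal_le_normalCore (H := U) (N := N)).2 hNU
      rw [hcore] at this
      exact le_bot_iff.1 this
  have hcomm : ∀ a ∈ A, ∀ b ∈ B, a * b = b * a := by
    intro a ha b hb
    exact Subgroup.commute_of_normal_of_disjoint A B inferInstance inferInstance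
      (disjoint_iff.2 hAB) a b ha hb
  have hcU : ∀ N : Subgroup G, N.Normal → N ≠ ⊥ →
      Subgroup.centralizer (N : Set G) ⊓ U = ⊥ := by
    intro N hN hN0
    have hnorm : (Subgroup.centralizer (N : Set G) ⊓ U).Normal := by
      have hC : (Subgroup.centralizer (N : Set G)).Normal := inferInstance
      rw [← Subgroup.normalizer_eq_top_iff, ← top_le_iff, ← hsup N hN hN0, sup_le_iff]
      constructor
      · intro n hn
        rw [Subgroup.mem_normalizer_iff]
        intro h
        constructor
        · rintro ⟨h1, h2⟩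
          have : n * h * n⁻¹ = h := by
            have := Subgroup.mem_centralizer_iff.1 h1 n hn
            rw [this, mul_assoc, mul_inv_cancel, mul_one]
          rw [this]; exact ⟨h1, h2⟩
        · rintro ⟨h1, h2⟩
          have : n * h * n⁻¹ = h := by
            have h3 := Subgroup.mem_centralizer_iff.1 h1 n hn
            have h4 : n * h * n⁻¹ * n = n * h := by group
            have h5 : n * (n * h * n⁻¹) = n * h := by rw [h3, h4]
            exact mul_left_cancel h5
          rw [this] at h1 h2; exact ⟨h1, h2⟩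
      · intro u hu
        rw [Subgroup.mem_normalizer_iff]
        intro h
        constructor
        · rintro ⟨h1, h2⟩
          exact ⟨hC.conj_mem h h1 u, U.mul_mem (U.mul_mem hu h2) (U.inv_mem hu)⟩
        · rintro ⟨h1, h2⟩
          have e : u⁻¹ * (u * h * u⁻¹) * u⁻¹⁻¹ = h := by group
          refine ⟨?_, ?_⟩
          · have := hC.conj_mem _ h1 u⁻¹
            rwa [e] at this
          · have := U.mul_mem (U.mul_mem (U.inv_mem hu) h2) (U.inv_mem (U.inv_mem hu))
            rwa [e] at this
    have hle : Subgroup.centralizer (N : Set G) ⊓ U ≤ U := inf_le_right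
    have := (Subgroup.normal_le_normalCore (H := U)
      (N := Subgroup.centralizer (N : Set G) ⊓ U)).2 hle
    rw [hcore] at this
    exact le_bot_iff.1 this
  have hBC : B ≤ Subgroup.centralizer (A : Set G) := by
    intro b hb
    rw [Subgroup.mem_centralizer_iff]
    intro a ha
    exact hcomm a ha b hb
  have hAC : A ≤ Subgroup.centralizer (B : Set G) := by
    intro a ha
    rw [Subgroup.mem_centralizer_iff]
    intro b hb
    exact (hcomm a ha b hb).symm
  refine ⟨?_, ?_, hsup A inferInstance hA⟩
  · apply le_antisymm _ hBC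
    intro c hc
    have hc' : c ∈ B ⊔ U := by rw [hsup B inferInstance hB]; trivial
    rw [← SetLike.mem_coe, Subgroup.normal_mul] at hc'
    obtain ⟨b, hb, u, hu, rfl⟩ := hc'
    have hu' : u ∈ Subgroup.centralizer (A : Set G) := by
      have := (Subgroup.centralizer (A : Set G)).mul_mem
        ((Subgroup.centralizer (A : Set G)).inv_mem (hBC hb)) hc
      simpa using this
    have hu2 : u ∈ Subgroup.centralizer (A : Set G) ⊓ U := ⟨hu', hu⟩
    rw [hcU A inferInstance hA, Subgroup.mem_bot] at hu2
    rw [hu2]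
    simpa using hb
  · apply le_bot_iff.1
    rw [← hcU B inferInstance hB]
    exact inf_le_inf_right U hAC

/-- Let U be a maximal subgroup with trivial normal core in a finite group G, and A ≠ B two minimal normal subgroups. Then A is the centralizer of B and B that of A, U complements each of them, A and B are non-abelian, and A, B and (A ⊔ B) ∩ U are pairwise isomorphic. -/
theorem result {G : Type*} [Group G] [Finite G] (U : Subgroup G) (hU : IsCoatom U) (hcore : U.normalCore = ⊥) (A B : Subgroup G) [A.Normal] [B.Normal] (hA : A ≠ ⊥) (hB : B ≠ ⊥) (hAmin : ∀ K : Subgroup G, K.Normal → K ≤ A → K = ⊥ ∨ K = A) (hBmin : ∀ K : Subgroup G, K.Normal → K ≤ B → K = ⊥ ∨ K = B) (hAB : A ≠ B) : Subgroup.centralizer (B : Set G) = A ∧ Subgroup.centralizer (A : Set G) = B ∧ Subgroup.IsComplement' A U ∧ Subgroup.IsComplement' B U ∧ ¬ IsMulCommutative A ∧ Nonempty (A ≃* B) ∧ Nonempty (A ≃* ↥((A ⊔ B) ⊓ U)) := by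
  have hinf : A ⊓ B = ⊥ := by
    rcases hAmin (A ⊓ B) inferInstance inf_le_left with h | h
    · exact h
    · exfalso
      have hle : A ≤ B := by rw [← h]; exact inf_le_right
      rcases hBmin A inferInstance hle with h1 | h1
      · exact hA h1
      · exact hAB h1
  have hinf' : B ⊓ A = ⊥ := by rw [inf_comm]; exact hinf
  obtain ⟨hCA, hAU, hAU'⟩ := half U hU hcore A B hA hB hinf
  obtain ⟨hCB, hBU, hBU'⟩ := half U hU hcore B A hB hA hinf'
  have hcompl : ∀ N : Subgroup G, N.Normal → N ⊓ U = ⊥ → N ⊔ U = ⊤ →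
      Subgroup.IsComplement' N U := by
    intro N hN h1 h2
    apply Subgroup.isComplement'_of_disjoint_and_mul_eq_univ (disjoint_iff.2 h1)
    rw [← Subgroup.normal_mul, h2, Subgroup.coe_top]
  have hD : ∀ N M : Subgroup G, N.Normal → N ⊓ M = ⊥ → N ⊓ U = ⊥ → N ⊔ U = ⊤ →
      Nonempty (M ≃* ↥((N ⊔ M) ⊓ U)) := by
    intro N M hN h0 h1 h2
    apply equiv_of_common_complement N M ((N ⊔ M) ⊓ U) (by rw [inf_comm]; exact h0)
    · apply le_bot_iff.1
      rw [← h1]
      exact le_inf inf_le_right (inf_le_left.trans inf_le_right)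
    · apply le_antisymm
      · intro x hx
        have hx' : x ∈ N ⊔ U := by rw [h2]; trivial
        rw [← SetLike.mem_coe, Subgroup.normal_mul] at hx'
        obtain ⟨n, hn, u, hu, rfl⟩ := hx'
        have hn' : n ∈ N := hn
        have hu' : u ∈ N ⊔ M := by
          rw [sup_comm] at hx
          have := (N ⊔ M).mul_mem ((N ⊔ M).inv_mem (Subgroup.mem_sup_left hn')) hx
          simpa using this
        apply Subgroup.mul_mem
        · exact Subgroup.mem_sup_right hn'
        · exact Subgroup.mem_sup_left ⟨hu', hu⟩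
      · rw [sup_le_iff]
        refine ⟨inf_le_left.trans ?_, le_sup_right⟩
        rw [sup_comm]
  obtain ⟨eB⟩ := hD A B inferInstance hinf hAU hAU'
  obtain ⟨eA⟩ := hD B A inferInstance hinf' hBU hBU'
  have heq : (B ⊔ A) ⊓ U = (A ⊔ B) ⊓ U := by rw [sup_comm]
  refine ⟨hCB, hCA, hcompl A inferInstance hAU hAU', hcompl B inferInstance hBU hBU', ?_, ?_, ?_⟩
  · intro hcomm
    apply hA
    apply le_bot_iff.1
    rw [← hinf]
    refine le_inf le_rfl ?_
    rw [← hCA]
    exact Subgroup.le_centralizer_iff_isMulCommutative.2 hcomm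
  · exact ⟨eA.trans ((MulEquiv.subgroupCongr heq).trans eB.symm)⟩
  · exact ⟨eA.trans (MulEquiv.subgroupCongr heq)⟩

end Cfsg.Agent.S0550
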