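import Cfsg.Statements.S0551
import Mathlib
import Cfsg.Agent.Lib.SolvableNormalP
set_option linter.all false

set_option autoImplicit false
open Cfsg

namespace Cfsg.Agent.S0551

open scoped Pointwise

/-- Facts about a core-free maximal subgroup and a nontrivial abelian normal subgroup. -/
theorem basic {G : Type*} [Group G] (U : Subgroup G) (hU : IsCoatom U)
    (hUc : U.normalCore = ⊥) (N : Subgroup G) [hN : N.Normal] (hNc : IsMulCommutative N)
    (hN0 : N ≠ ⊥) : N ⊔ U = ⊤ ∧ N ⊓ U = ⊥ := by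
  have hcore : ∀ K : Subgroup G, K.Normal → K ≤ U → K = ⊥ := by
    intro K hK hKU
    have := (Subgroup.normal_le_normalCore (H := U) (N := K)).2 hKU
    rw [hUc] at this
    exact le_bot_iff.1 this
  have hsup : N ⊔ U = ⊤ := by
    have hle : U ≤ N ⊔ U := le_sup_right
    rcases hU.le_iff.1 hle with h | h
    · exact h
    · exact absurd (hcore N hN (by rw [← h]; exact le_sup_left)) hN0
  refine ⟨hsup, ?_⟩
  apply hcore _ _ inf_le_right
  rw [← Subgroup.normalizer_eq_top_iff, ← top_le_iff, ← hsup, sup_le_iff]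
  constructor
  · rw [Subgroup.le_normalizer_iff]
    rintro n hn k ⟨hk1, hk2⟩
    have hc := hNc.is_comm.comm ⟨n, hn⟩ ⟨k, hk1⟩
    have hc' : n * k = k * n := congrArg Subtype.val hc
    rw [hc', mul_inv_cancel_right]
    exact ⟨hk1, hk2⟩
  · rw [Subgroup.le_normalizer_iff]
    rintro n hn k ⟨hk1, hk2⟩
    exact ⟨hN.conj_mem k hk1 n, U.mul_mem (U.mul_mem hn hk2) (U.inv_mem hn)⟩

/-- The normalizer of `L ⊓ U` is `U` when `L` is normal and `L ⊓ U ≠ ⊥`. -/
theorem normalizer_eq {G : Type*} [Group G] (U : Subgroup G) (hU : IsCoatom U)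
    (hUc : U.normalCore = ⊥) (L : Subgroup G) [hL : L.Normal] (h0 : L ⊓ U ≠ ⊥) :
    Subgroup.normalizer ((L ⊓ U : Subgroup G) : Set G) = U := by
  have hle : U ≤ Subgroup.normalizer ((L ⊓ U : Subgroup G) : Set G) := by
    rw [Subgroup.le_normalizer_iff]
    rintro n hn k ⟨hk1, hk2⟩
    exact ⟨hL.conj_mem k hk1 n, U.mul_mem (U.mul_mem hn hk2) (U.inv_mem hn)⟩
  rcases hU.le_iff.1 hle with h | h
  · exfalso
    apply h0
    rw [Subgroup.normalizer_eq_top_iff] at h
    have := (Subgroup.normal_le_normalCore (H := U) (N := L ⊓ U)).2 inf_le_right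
    rw [hUc] at this
    exact le_bot_iff.1 this
  · exact h

/-- In a finite solvable group all core-free maximal subgroups are conjugate. -/
theorem result {G : Type*} [Group G] [Finite G] [Group.IsSolvable G] (U V : Subgroup G) (hU : IsCoatom U) (hV : IsCoatom V) (hUc : U.normalCore = ⊥) (hVc : V.normalCore = ⊥) : ∃ g : G, MulAut.conj g • U = V := by
  have hnt : Nontrivial G := by
    by_contra hcon
    rw [not_nontrivial_iff_subsingleton] at hcon
    apply hU.1
    ext x
    simp [Subsingleton.elim x 1, U.one_mem]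
  obtain ⟨p, N, hp, hN, hNp, hNc, hN0⟩ := Lib.SolvableNormalP.exists_normal_pSubgroup G
  obtain ⟨hNU, hNU'⟩ := basic U hU hUc N hNc hN0
  obtain ⟨hNV, hNV'⟩ := basic V hV hVc N hNc hN0
  by_cases hNtop : N = ⊤
  · refine ⟨1, ?_⟩
    rw [hNtop, top_inf_eq] at hNU' hNV'
    rw [hNU', hNV', map_one, one_smul]
  have hnt' : Nontrivial (G ⧸ N) := by
    rw [← not_subsingleton_iff_nontrivial]
    intro hcon
    exact hNtop ((Subgroup.eq_top_iff' N).2
      (fun x => (QuotientGroup.eq_one_iff x).1 (Subsingleton.elim _ _)))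
  obtain ⟨r, M, hr, hM, hMr, -, hM0⟩ := Lib.SolvableNormalP.exists_normal_pSubgroup (G ⧸ N)
  have : Fact r.Prime := ⟨hr⟩
  have : Fact p.Prime := ⟨hp⟩
  set L : Subgroup G := M.comap (QuotientGroup.mk' N) with hLdef
  have hL : L.Normal := by rw [hLdef]; infer_instance
  have hNL : N ≤ L := by
    intro x hx
    rw [hLdef, Subgroup.mem_comap]
    have : (QuotientGroup.mk' N) x = 1 := (QuotientGroup.eq_one_iff x).2 hx
    rw [this]; exact M.one_mem
  have hLN : ¬ L ≤ N := by
    intro hle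
    apply hM0
    rw [eq_bot_iff]
    intro y hy
    obtain ⟨x, rfl⟩ := QuotientGroup.mk'_surjective N y
    have hx : x ∈ L := hy
    rw [Subgroup.mem_bot]
    exact (QuotientGroup.eq_one_iff x).2 (hle hx)
  -- facts for a core-free maximal subgroup W
  have key : ∀ W : Subgroup G, IsCoatom W → W.normalCore = ⊥ → N ⊔ W = ⊤ → N ⊓ W = ⊥ →
      Subgroup.normalizer ((L ⊓ W : Subgroup G) : Set G) = W ∧
      IsPGroup r (L ⊓ W : Subgroup G) ∧ (W.subgroupOf L).index = Nat.card N ∧ r ≠ p := by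
    intro W hW hWc hNW hNW'
    have hdec : ∀ x ∈ L, ∃ n ∈ N, ∃ w ∈ L ⊓ W, x = n * w := by
      intro x hx
      have hx' : x ∈ N ⊔ W := by rw [hNW]; trivial
      rw [← SetLike.mem_coe, Subgroup.normal_mul] at hx'
      obtain ⟨n, hn, w, hw, rfl⟩ := hx'
      refine ⟨n, hn, w, ⟨?_, hw⟩, rfl⟩
      have := L.mul_mem (L.inv_mem (hNL hn)) hx
      simpa using this
    have h0 : L ⊓ W ≠ ⊥ := by
      intro hcon
      apply hLN
      intro x hx
      obtain ⟨n, hn, w, hw, rfl⟩ := hdec x hx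
      rw [hcon, Subgroup.mem_bot] at hw
      rw [hw, mul_one]; exact hn
    have hnorm := normalizer_eq W hW hWc L h0
    have hRr : IsPGroup r (L ⊓ W : Subgroup G) := by
      let f : (L ⊓ W : Subgroup G) →* M :=
        ((QuotientGroup.mk' N).comp (L ⊓ W : Subgroup G).subtype).codRestrict M
          (fun x => x.2.1)
      apply hMr.of_injective f
      rw [injective_iff_map_eq_one]
      intro x hx
      have h1 : (QuotientGroup.mk' N) (x : G) = 1 := congrArg Subtype.val hx
      have h2 : (x : G) ∈ N := (QuotientGroup.eq_one_iff (x : G)).1 h1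
      have h3 : (x : G) ∈ N ⊓ W := ⟨h2, x.2.2⟩
      rw [hNW', Subgroup.mem_bot] at h3
      exact Subtype.ext h3
    have hcompl : Subgroup.IsComplement' (N.subgroupOf L) (W.subgroupOf L) := by
      apply Subgroup.isComplement'_of_disjoint_and_mul_eq_univ
      · rw [disjoint_iff]
        change N.comap L.subtype ⊓ W.comap L.subtype = ⊥
        rw [← Subgroup.comap_inf, hNW']
        exact Subgroup.bot_subgroupOf L
      · rw [Set.eq_univ_iff_forall]
        intro x
        obtain ⟨n, hn, w, hw, hx⟩ := hdec x x.2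
        refine ⟨⟨n, hNL hn⟩, hn, ⟨w, hw.1⟩, hw.2, Subtype.ext hx.symm⟩
    refine ⟨hnorm, hRr, ?_, ?_⟩
    · rw [hcompl.index_eq_card]
      exact Nat.card_congr (Subgroup.subgroupOfEquivOfLe hNL).toEquiv
    · rintro rfl
      -- L is an r-group
      have hLr : IsPGroup r L := by
        intro x
        have hx : (QuotientGroup.mk' N) (x : G) ∈ M := x.2
        obtain ⟨k, hk⟩ := hMr ⟨_, hx⟩
        have hk' : (QuotientGroup.mk' N) ((x : G) ^ r ^ k) = 1 := by
          rw [map_pow]; exact congrArg Subtype.val hk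
        have hk2 : (x : G) ^ r ^ k ∈ N := (QuotientGroup.eq_one_iff _).1 hk'
        obtain ⟨j, hj⟩ := hNp ⟨_, hk2⟩
        refine ⟨k + j, ?_⟩
        apply Subtype.ext
        have hj' : ((x : G) ^ r ^ k) ^ r ^ j = 1 := by
          have := congrArg Subtype.val hj
          simpa using this
        change (x : G) ^ r ^ (k + j) = 1
        rw [pow_add, pow_mul]
        exact hj'
      have : Group.IsNilpotent L := hLr.isNilpotent
      have hlt : W.subgroupOf L < ⊤ := by
        rw [lt_top_iff_ne_top]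
        intro hcon
        rw [Subgroup.subgroupOf_eq_top] at hcon
        apply hN0
        rw [← hNW']
        exact (inf_eq_left.2 (hNL.trans hcon)).symm
      have h1 := Group.normalizerCondition_of_isNilpotent _ hlt
      have h2 : (Subgroup.normalizer ((L ⊓ W : Subgroup G) : Set G)).subgroupOf L =
          Subgroup.normalizer (((L ⊓ W).subgroupOf L : Subgroup L) : Set L) :=
        Subgroup.subgroupOf_normalizer_eq inf_le_left
      rw [hnorm, Subgroup.inf_subgroupOf_left] at h2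
      exact absurd h2 (ne_of_lt h1)
  obtain ⟨hnU, hRU, hiU, hrp⟩ := key U hU hUc hNU hNU'
  obtain ⟨hnV, hRV, hiV, -⟩ := key V hV hVc hNV hNV'
  have hcardN : ¬ r ∣ Nat.card N := by
    obtain ⟨k, hk⟩ := hNp.exists_card_eq
    rw [hk]
    intro hd
    exact hrp ((Nat.prime_dvd_prime_iff_eq hr hp).1 (hr.dvd_of_dvd_pow hd))
  have hpgrp : ∀ W : Subgroup G, IsPGroup r (L ⊓ W : Subgroup G) →
      IsPGroup r (W.subgroupOf L) := by
    intro W hW
    rw [← Subgroup.inf_subgroupOf_left]
    exact hW.of_equiv (Subgroup.subgroupOfEquivOfLe inf_le_left).symm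
  let P : Sylow r L := (hpgrp U hRU).toSylow (by rw [hiU]; exact hcardN)
  let Q : Sylow r L := (hpgrp V hRV).toSylow (by rw [hiV]; exact hcardN)
  obtain ⟨l, hl⟩ := MulAction.exists_smul_eq L P Q
  have hl' : ∀ x : L, x ∈ U.subgroupOf L → l * x * l⁻¹ ∈ V.subgroupOf L := by
    intro x hx
    have h1 : l * x * l⁻¹ ∈ (l • P : Sylow r L) := by
      change l * x * l⁻¹ ∈ (MulAut.conj l • (P : Subgroup L) : Subgroup L)
      exact Subgroup.smul_mem_pointwise_smul x (MulAut.conj l) (P : Subgroup L) hx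
    rw [hl] at h1
    exact h1
  have hl'' : ∀ x : L, x ∈ V.subgroupOf L → l⁻¹ * x * l ∈ U.subgroupOf L := by
    intro x hx
    have hx' : x ∈ (l • P : Sylow r L) := by
      rw [hl]; exact hx
    have h1 : (MulAut.conj l)⁻¹ • x ∈ (P : Subgroup L) := by
      rw [← Subgroup.mem_pointwise_smul_iff_inv_smul_mem]
      exact hx'
    have h2 : (MulAut.conj l)⁻¹ • x = l⁻¹ * x * l := by
      rw [← map_inv, MulAut.smul_def, MulAut.conj_apply, inv_inv]
    rw [h2] at h1
    exact h1
  refine ⟨(l : G), ?_⟩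
  have hle : MulAut.conj (l : G) • U ≤ V := by
    intro y hy
    rw [Subgroup.mem_pointwise_smul_iff_inv_smul_mem, ← map_inv, MulAut.smul_def,
      MulAut.conj_apply, inv_inv] at hy
    rw [← hnV]
    have hLmem : ∀ z : G, z ∈ L → ∀ g : G, g * z * g⁻¹ ∈ L := fun z hz g => hL.conj_mem z hz g
    have hyn : ∀ z, z ∈ L ⊓ V → y * z * y⁻¹ ∈ L ⊓ V := by
      rintro z ⟨hz1, hz2⟩
      refine ⟨hLmem z hz1 y, ?_⟩
      have h1 := hl'' ⟨z, hz1⟩ hz2
      have h1' : (l : G)⁻¹ * z * l ∈ U := h1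
      have h2 : ((l : G)⁻¹ * y * l) * ((l : G)⁻¹ * z * l) * ((l : G)⁻¹ * y * l)⁻¹ ∈ U :=
        U.mul_mem (U.mul_mem hy h1') (U.inv_mem hy)
      have h3 : ((l : G)⁻¹ * y * l) * ((l : G)⁻¹ * z * l) * ((l : G)⁻¹ * y * l)⁻¹ =
          (l : G)⁻¹ * (y * z * y⁻¹) * l := by group
      rw [h3] at h2
      have h4 : (l : G)⁻¹ * (y * z * y⁻¹) * l ∈ L := by
        have := hLmem _ (hLmem z hz1 y) (l : G)⁻¹
        simpa using this
      have h5 := hl' ⟨_, h4⟩ h2
      have h6 : (l : G) * ((l : G)⁻¹ * (y * z * y⁻¹) * l) * (l : G)⁻¹ ∈ V := h5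
      have h7 : (l : G) * ((l : G)⁻¹ * (y * z * y⁻¹) * l) * (l : G)⁻¹ = y * z * y⁻¹ := by group
      rwa [h7] at h6
    have hfin : Subgroup.zpowers y ≤ Subgroup.normalizer ((L ⊓ V : Subgroup G) : Set G) := by
      rw [Subgroup.zpowers_le]
      rw [Subgroup.mem_normalizer_iff_map_conj_eq]
      apply Subgroup.eq_of_le_of_card_ge
      · rintro _ ⟨z, hz, rfl⟩
        exact hyn z hz
      · rw [Subgroup.card_map_of_injective (MulAut.conj y).injective]
    exact hfin (Subgroup.mem_zpowers y)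
  have hcardU : ∀ W : Subgroup G, N ⊔ W = ⊤ → N ⊓ W = ⊥ → Nat.card W * Nat.card N = Nat.card G := by
    intro W h1 h2
    have : Subgroup.IsComplement' N W := by
      apply Subgroup.isComplement'_of_disjoint_and_mul_eq_univ (disjoint_iff.2 h2)
      rw [← Subgroup.normal_mul, h1, Subgroup.coe_top]
    rw [mul_comm]
    exact this.card_mul_card
  have hpos : 0 < Nat.card N := Nat.card_pos
  have hcard : Nat.card U = Nat.card V :=
    Nat.eq_of_mul_eq_mul_right hpos ((hcardU U hNU hNU').trans (hcardU V hNV hNV').symm)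
  apply Subgroup.eq_of_le_of_card_ge hle
  rw [← hcard]
  exact (Nat.card_congr (Subgroup.equivSMul (MulAut.conj (l : G)) U).toEquiv).le

end Cfsg.Agent.S0551
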