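import Cfsg.Statements.S0554
import Cfsg.Agent.Lib.SolvableMinNormal
set_option linter.all false

set_option autoImplicit false
open Cfsg

namespace Cfsg.Agent.S0554

/-- A factor from a normal subgroup can be absorbed at any place of an ordered product. -/
theorem absorb {G : Type*} [Group G] (N : Subgroup G) (hN : N.Normal) :
    ∀ (t : ℕ) (s : Fin t → G) (j : Fin t) (n : G), n ∈ N →
      ∃ n' ∈ N, (List.ofFn s).prod * n = (List.ofFn (Function.update s j (s j * n'))).prod := by
  intro t
  induction t with
  | zero => intro s j; exact j.elim0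
  | succ t ih =>
    intro s j n hn
    rw [List.ofFn_succ, List.prod_cons]
    refine Fin.cases ?_ (fun j' => ?_) j
    · set P := (List.ofFn fun i => s (Fin.succ i)).prod with hP
      refine ⟨P * n * P⁻¹, hN.conj_mem n hn P, ?_⟩
      rw [List.ofFn_succ, List.prod_cons, Function.update_self]
      have : (List.ofFn fun i => Function.update s 0 (s 0 * (P * n * P⁻¹)) (Fin.succ i)).prod = P := by
        rw [hP]
        congr 2
      rw [this]
      group
    · obtain ⟨n', hn', e⟩ := ih (fun i => s i.succ) j' n hn
      refine ⟨n', hn', ?_⟩
      rw [mul_assoc, e, List.ofFn_succ (f := Function.update s j'.succ (s j'.succ * n')),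
        List.prod_cons, Function.update_of_ne (Fin.succ_ne_zero j').symm]
      congr 3
      funext i
      by_cases h : i = j'
      · subst h; simp
      · rw [Function.update_of_ne h, Function.update_of_ne (fun h' => h (Fin.succ_injective _ h'))]

theorem main : ∀ (n : ℕ) {G : Type*} [Group G] [Finite G] [Group.IsSolvable G], Nat.card G = n →
    ∀ (t : ℕ) (p : Fin t → ℕ) (_ : ∀ i, (p i).Prime)
      (_ : ∀ q : ℕ, q.Prime → q ∣ Nat.card G → ∃ i, p i = q) (S : (i : Fin t) → Sylow (p i) G),
      ∀ g : G, ∃ s : (i : Fin t) → G, (∀ i, s i ∈ (S i : Subgroup G)) ∧ g = (List.ofFn s).prod := by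
  intro n
  induction n using Nat.strong_induction_on with
  | _ n ih =>
    intro G _ _ _ hn t p hp hall S g
    rcases subsingleton_or_nontrivial G with hG | hG
    · exact ⟨fun _ => 1, fun i => one_mem _, Subsingleton.elim _ _⟩
    · obtain ⟨q, hq, N, hNc, -, hNp, hNb⟩ :=
        Lib.SolvableMinNormal.exists_characteristic_pgroup (G := G)
      have hNn : N.Normal := inferInstance
      have hs : Function.Surjective (QuotientGroup.mk' N) := QuotientGroup.mk'_surjective N
      have hcard : Nat.card G = Nat.card (G ⧸ N) * Nat.card N :=
        Subgroup.card_eq_card_quotient_mul_card_subgroup N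
      have hN1 : 1 < Nat.card N := by
        rw [Finite.one_lt_card_iff_nontrivial]
        exact (Subgroup.nontrivial_iff_ne_bot N).mpr hNb
      have hlt : Nat.card (G ⧸ N) < n := by
        rw [← hn, hcard]
        exact lt_mul_of_one_lt_right Nat.card_pos hN1
      haveI : ∀ i, Fact (p i).Prime := fun i => ⟨hp i⟩
      haveI : Fact q.Prime := ⟨hq⟩
      obtain ⟨s', hs', hg'⟩ := ih _ hlt (G := G ⧸ N) rfl t p hp
        (fun r hr hrd => hall r hr (hrd.trans (Dvd.intro _ hcard.symm)))
        (fun i => (S i).mapSurjective hs) (QuotientGroup.mk' N g)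
      have hlift : ∀ i, ∃ x ∈ (S i : Subgroup G), QuotientGroup.mk' N x = s' i := by
        intro i
        have := hs' i
        rw [Sylow.coe_mapSurjective] at this
        obtain ⟨x, hx, hx'⟩ := this
        exact ⟨x, hx, hx'⟩
      choose s hsm hse using hlift
      -- the prime `q` occurs among the `p i`
      have hqd : q ∣ Nat.card G := by
        obtain ⟨k, hk⟩ := (IsPGroup.iff_card).mp hNp
        have hk0 : k ≠ 0 := by
          rintro rfl
          rw [pow_zero] at hk
          omega
        exact (dvd_pow_self q hk0).trans (hk ▸ Subgroup.card_subgroup_dvd_card N)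
      obtain ⟨j, hj⟩ := hall q hq hqd
      have hNS : N ≤ (S j : Subgroup G) := by
        have hNpj : IsPGroup (p j) N := by rw [hj]; exact hNp
        exact hNpj.le_sylow_of_normal (S j)
      have hprod : QuotientGroup.mk' N (List.ofFn s).prod = QuotientGroup.mk' N g := by
        rw [hg', map_list_prod, List.map_ofFn]
        congr 2
        funext i
        exact hse i
      have hmem : ((List.ofFn s).prod)⁻¹ * g ∈ N := QuotientGroup.eq.mp hprod
      obtain ⟨n', hn', e⟩ := absorb N hNn t s j _ hmem
      refine ⟨Function.update s j (s j * n'), ?_, ?_⟩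
      · intro i
        by_cases h : i = j
        · subst h
          rw [Function.update_self]
          exact mul_mem (hsm i) (hNS hn')
        · rw [Function.update_of_ne h]
          exact hsm i
      · rw [← e]; group

/-- Let G be a finite solvable group and let S assign to each of t distinct primes, including every prime divisor of the order of G, a Sylow subgroup of G. Then every element of G is a product s_0 s_1 ⋯ s_(t-1) with s_i in S i, the factors taken in the given order. -/
theorem result {G : Type*} [Group G] [Finite G] [Group.IsSolvable G] (t : ℕ) (p : Fin t → ℕ) (hp : ∀ i, (p i).Prime) (hinj : Function.Injective p) (hall : ∀ q : ℕ, q.Prime → q ∣ Nat.card G → ∃ i, p i = q) (S : (i : Fin t) → Sylow (p i) G) : ∀ g : G, ∃ s : (i : Fin t) → G, (∀ i, s i ∈ (S i : Subgroup G)) ∧ g = (List.ofFn s).prod := by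
  exact main (Nat.card G) rfl t p hp hall S

end Cfsg.Agent.S0554
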