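import Cfsg.Statements.S0555
import Mathlib
set_option linter.all false

set_option autoImplicit false
open Cfsg

namespace Cfsg.Agent.S0555

/-- A cyclic factor gives a generator modulo the smaller subgroup. -/
theorem exists_gen {G : Type*} [Group G] (A B : Subgroup G) [hB : B.Normal]
    (h : IsCyclic (↥A ⧸ B.subgroupOf A)) :
    ∃ a ∈ A, ∀ x ∈ A, ∃ n : ℤ, (a ^ n)⁻¹ * x ∈ B := by
  obtain ⟨g, hg⟩ := h.exists_generator
  obtain ⟨a, rfl⟩ := QuotientGroup.mk_surjective g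
  refine ⟨a, a.2, fun x hx => ?_⟩
  obtain ⟨n, hn⟩ := Subgroup.mem_zpowers_iff.mp (hg (QuotientGroup.mk (⟨x, hx⟩ : A)))
  refine ⟨n, ?_⟩
  have h1 : (QuotientGroup.mk (a ^ n) : ↥A ⧸ B.subgroupOf A) = QuotientGroup.mk (⟨x, hx⟩ : A) := by
    rw [← hn]; rfl
  rw [QuotientGroup.eq, Subgroup.mem_subgroupOf] at h1
  simpa using h1

/-- The key case, in which the last term is trivial. -/
theorem key {Q : Type*} [Group Q] (i : ℕ) (hi : 1 ≤ i)
    (a : Q) (ha : a ∈ derivedSeries Q i)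
    (ha' : ∀ x ∈ derivedSeries Q i, ∃ n : ℤ, (a ^ n)⁻¹ * x ∈ derivedSeries Q (i + 1))
    (b : Q) (hb : b ∈ derivedSeries Q (i + 1))
    (hb' : ∀ x ∈ derivedSeries Q (i + 1), ∃ n : ℤ, (b ^ n)⁻¹ * x = 1) :
    derivedSeries Q (i + 1) = ⊥ := by
  have hN : (derivedSeries Q (i + 1)).Normal := derivedSeries_normal Q (i + 1)
  have hb'' : ∀ x ∈ derivedSeries Q (i + 1), ∃ n : ℤ, b ^ n = x := by
    intro x hx
    obtain ⟨n, hn⟩ := hb' x hx
    exact ⟨n, by rwa [inv_mul_eq_one] at hn⟩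
  have hcen : commutator Q ≤ Subgroup.centralizer {b} := by
    rw [commutator_def, Subgroup.commutator_le]
    intro g _ h _
    rw [Subgroup.mem_centralizer_singleton_iff]
    rw [commutatorElement_def]
    have e3 : g * h * g⁻¹ * h⁻¹ * b = b * (g * h * g⁻¹ * h⁻¹) ↔
        (h * g)⁻¹ * b * (h * g) = (g * h)⁻¹ * b * (g * h) := by
      constructor
      · intro e
        have : (g * h)⁻¹ * (g * h * g⁻¹ * h⁻¹ * b) * (h * g) =
          (g * h)⁻¹ * (b * (g * h * g⁻¹ * h⁻¹)) * (h * g) := by rw [e]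
        simpa [mul_assoc] using this
      · intro e
        have : (g * h) * ((h * g)⁻¹ * b * (h * g)) * (h * g)⁻¹ =
          (g * h) * ((g * h)⁻¹ * b * (g * h)) * (h * g)⁻¹ := by rw [e]
        simpa [mul_assoc] using this
    rw [e3]
    obtain ⟨m, hm⟩ := hb'' (g⁻¹ * b * g⁻¹⁻¹) (hN.conj_mem b hb g⁻¹)
    obtain ⟨n, hn⟩ := hb'' (h⁻¹ * b * h⁻¹⁻¹) (hN.conj_mem b hb h⁻¹)
    have f1 : g⁻¹ * (h⁻¹ * b * h⁻¹⁻¹) * g⁻¹⁻¹ = h⁻¹ * (g⁻¹ * b * g⁻¹⁻¹) * h⁻¹⁻¹ := by
      rw [← hn, ← hm]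
      have : g⁻¹ * b ^ n * g⁻¹⁻¹ = (g⁻¹ * b * g⁻¹⁻¹) ^ n := by
        rw [← MulAut.conj_apply, ← MulAut.conj_apply, map_zpow]
      rw [this, ← hm]
      have : h⁻¹ * b ^ m * h⁻¹⁻¹ = (h⁻¹ * b * h⁻¹⁻¹) ^ m := by
        rw [← MulAut.conj_apply, ← MulAut.conj_apply, map_zpow]
      rw [this, ← hn, ← zpow_mul, ← zpow_mul, mul_comm]
    simpa [mul_assoc] using f1
  have hle : derivedSeries Q i ≤ Subgroup.centralizer {b} := by
    refine le_trans ?_ hcen
    rw [← derivedSeries_one]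
    exact derivedSeries_antitone Q hi
  have hab : Commute a b := by
    have := hle ha
    rw [Subgroup.mem_centralizer_singleton_iff] at this
    exact this
  have hform : ∀ x ∈ derivedSeries Q i, ∃ n m : ℤ, x = a ^ n * b ^ m := by
    intro x hx
    obtain ⟨n, hn⟩ := ha' x hx
    obtain ⟨m, hm⟩ := hb'' _ hn
    exact ⟨n, m, by rw [hm]; group⟩
  rw [derivedSeries_succ, Subgroup.commutator_eq_bot_iff_le_centralizer]
  intro x hx
  rw [Subgroup.mem_centralizer_iff]
  intro y hy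
  obtain ⟨n, m, rfl⟩ := hform x hx
  obtain ⟨k, l, rfl⟩ := hform y hy
  have c1 : Commute (a ^ k) (a ^ n * b ^ m) :=
    ((Commute.refl a).zpow_zpow k n).mul_right (hab.zpow_zpow k m)
  have c2 : Commute (b ^ l) (a ^ n * b ^ m) :=
    (hab.symm.zpow_zpow l n).mul_right ((Commute.refl b).zpow_zpow l m)
  exact c1.mul_left c2

/-- Let i ≥ 1. If in the derived series of a group the quotient of the i-th term by the (i+1)-st and the quotient of the (i+1)-st by the (i+2)-nd are both cyclic, then the (i+1)-st and (i+2)-nd terms coincide. -/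
theorem result {G : Type*} [Group G] (i : ℕ) (hi : 1 ≤ i) (h₁ : IsCyclic (↥(derivedSeries G i) ⧸ (derivedSeries G (i + 1)).subgroupOf (derivedSeries G i))) (h₂ : IsCyclic (↥(derivedSeries G (i + 1)) ⧸ (derivedSeries G (i + 2)).subgroupOf (derivedSeries G (i + 1)))) : derivedSeries G (i + 1) = derivedSeries G (i + 2) := by
  have hN1 : (derivedSeries G (i + 1)).Normal := derivedSeries_normal G (i + 1)
  have hN2 : (derivedSeries G (i + 2)).Normal := derivedSeries_normal G (i + 2)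
  obtain ⟨a, ha, ha'⟩ := exists_gen _ _ h₁
  obtain ⟨b, hb, hb'⟩ := exists_gen _ _ h₂
  have hs : Function.Surjective (QuotientGroup.mk' (derivedSeries G (i + 2))) :=
    QuotientGroup.mk'_surjective _
  have hmap : ∀ n, (derivedSeries G n).map (QuotientGroup.mk' (derivedSeries G (i + 2))) =
      derivedSeries (G ⧸ derivedSeries G (i + 2)) n := fun n => map_derivedSeries_eq hs n
  have hk := key (Q := G ⧸ derivedSeries G (i + 2)) i hi
    (QuotientGroup.mk' _ a) (by rw [← hmap]; exact Subgroup.mem_map_of_mem _ ha)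
    (by
      intro x hx
      rw [← hmap] at hx
      obtain ⟨y, hy, rfl⟩ := hx
      obtain ⟨n, hn⟩ := ha' y hy
      refine ⟨n, ?_⟩
      rw [← hmap]
      have := Subgroup.mem_map_of_mem (QuotientGroup.mk' (derivedSeries G (i + 2))) hn
      rwa [map_mul, map_inv, map_zpow] at this)
    (QuotientGroup.mk' _ b) (by rw [← hmap]; exact Subgroup.mem_map_of_mem _ hb)
    (by
      intro x hx
      rw [← hmap] at hx
      obtain ⟨y, hy, rfl⟩ := hx
      obtain ⟨n, hn⟩ := hb' y hy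
      refine ⟨n, ?_⟩
      have h3 : QuotientGroup.mk' (derivedSeries G (i + 2)) ((b ^ n)⁻¹ * y) = 1 :=
        (QuotientGroup.eq_one_iff _).mpr hn
      rwa [map_mul, map_inv, map_zpow] at h3)
  rw [← hmap, Subgroup.map_eq_bot_iff, QuotientGroup.ker_mk'] at hk
  exact le_antisymm hk (derivedSeries_antitone G (Nat.le_succ (i + 1)))

end Cfsg.Agent.S0555
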