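import Cfsg.Statements.S0558
import Cfsg.Agent.S0071
set_option linter.all false

set_option autoImplicit false
open Cfsg

namespace Cfsg.Agent.S0558

open Subgroup MulAction

/-- A Sylow subgroup of `H` whose normalizer in `G` is `H` has full order in `G`. -/
theorem factorization_eq {G : Type*} [Group G] [Finite G] (H : Subgroup G) {p : ℕ} [Fact p.Prime]
    (P : Sylow p H)
    (h : normalizer (((P : Subgroup H).map H.subtype : Subgroup G) : Set G) = H) :
    (Nat.card H).factorization p = (Nat.card G).factorization p := by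
  have hc : Nat.card ((P : Subgroup H).map H.subtype : Subgroup G) =
      p ^ (Nat.card H).factorization p := by
    rw [Subgroup.card_map_of_injective (Subgroup.subtype_injective H)]
    exact P.card_eq_multiplicity
  apply le_antisymm
  · exact (Nat.factorization_le_iff_dvd Nat.card_pos.ne' Nat.card_pos.ne').2
      (Subgroup.card_subgroup_dvd_card H) p
  · by_contra hlt
    push Not at hlt
    have h1 : p ^ ((Nat.card H).factorization p + 1) ∣ Nat.card G :=
      (pow_dvd_pow p hlt).trans (Nat.ordProj_dvd _ _)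
    have h2 := Sylow.prime_pow_dvd_card_normalizer h1 hc
    rw [h] at h2
    exact Nat.pow_succ_factorization_not_dvd Nat.card_pos.ne' Fact.out h2

/-- The local condition of Frobenius' theorem. -/
theorem mem_centralizer_of_coprime {G : Type*} [Group G] [Finite G] {p q : ℕ} [Fact p.Prime]
    [Fact q.Prime] (P : Sylow p G) (Q : Sylow q G) (H : Subgroup G)
    (hQP : (Q : Subgroup G) ≤ centralizer (P : Set G))
    (hQH : normalizer (Q : Set G) ≤ H)
    (hH : ∀ h ∈ H, ∃ k : ℕ, h ^ p ^ k ∈ centralizer (P : Set G)) :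
    ∀ A : Subgroup G, A ≤ (P : Subgroup G) → ∀ g ∈ normalizer (A : Set G),
      Nat.Coprime (orderOf g) p → g ∈ centralizer (A : Set G) := by
  intro A hA g hg hcop
  have hPA : centralizer (P : Set G) ≤ centralizer (A : Set G) :=
    Subgroup.centralizer_le hA
  have hCN : centralizer (A : Set G) ≤ normalizer (A : Set G) := Subgroup.centralizer_le_normalizer _
  have hconj : ∀ x ∈ normalizer (A : Set G), ∀ c ∈ centralizer (A : Set G),
      x * c * x⁻¹ ∈ centralizer (A : Set G) := by
    intro x hx c hc
    have := (normal_subgroupOf_centralizer_normalizer (A : Set G)).conj_mem ⟨c, hCN hc⟩ hc ⟨x, hx⟩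
    exact this
  have h1 : (Q : Subgroup G) ≤ centralizer (A : Set G) := hQP.trans hPA
  have h2 : ((g • Q : Sylow q G) : Subgroup G) ≤ centralizer (A : Set G) := by
    rintro - ⟨z, hz, rfl⟩
    exact hconj g hg z (h1 hz)
  obtain ⟨c, hc⟩ := exists_smul_eq (centralizer (A : Set G)) ((g • Q).subtype h2) (Q.subtype h1)
  simp_rw [Sylow.smul_subtype, Subgroup.smul_def, smul_smul] at hc
  have h3 : (c : G) * g ∈ normalizer (Q : Set G) :=
    Sylow.smul_eq_iff_mem_normalizer.mp (Sylow.subtype_injective hc)
  obtain ⟨k, hk⟩ := hH _ (hQH h3)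
  have hk' : ((c : G) * g) ^ p ^ k ∈ centralizer (A : Set G) := hPA hk
  -- pass to the quotient
  let N := normalizer (A : Set G)
  let C : Subgroup N := (centralizer (A : Set G)).subgroupOf N
  have : C.Normal := normal_subgroupOf_centralizer_normalizer (A : Set G)
  let g' : N := ⟨g, hg⟩
  let c' : N := ⟨c, hCN c.2⟩
  have hc' : (c' : N ⧸ C) = 1 := (QuotientGroup.eq_one_iff c').2 c.2
  have h4 : ((c' * g' : N) : N ⧸ C) ^ p ^ k = 1 := by
    rw [← QuotientGroup.mk_pow]
    exact (QuotientGroup.eq_one_iff _).2 hk'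
  rw [QuotientGroup.mk_mul, hc', one_mul] at h4
  have h5 : orderOf ((g' : N) : N ⧸ C) ∣ p ^ k := orderOf_dvd_of_pow_eq_one h4
  have h6 : orderOf ((g' : N) : N ⧸ C) ∣ orderOf g := by
    have : orderOf g = orderOf g' := by
      rw [← Subgroup.orderOf_coe g']
    rw [this]
    exact orderOf_map_dvd (QuotientGroup.mk' C) g'
  have h7 : orderOf ((g' : N) : N ⧸ C) = 1 :=
    Nat.eq_one_of_dvd_coprimes (hcop.pow_right k) h6 h5
  rw [orderOf_eq_one_iff, QuotientGroup.eq_one_iff] at h7
  exact h7


/-- In a finite group `H` all of whose Sylow subgroups (for primes dividing the order) are normal,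
each element has a `p`-power power centralizing the Sylow `p`-subgroup. -/
theorem exists_pow_mem_centralizer {H : Type*} [Group H] [Finite H]
    (hn : ∀ p : ℕ, p.Prime → p ∣ Nat.card H → ∀ P : Sylow p H, (P : Subgroup H).Normal)
    {p : ℕ} [Fact p.Prime] (hp : p ∣ Nat.card H) (P : Sylow p H) (h : H) :
    ∃ k : ℕ, h ^ p ^ k ∈ centralizer (P : Set H) := by
  have hP : (P : Subgroup H).Normal := hn p Fact.out hp P
  let C : Subgroup H := centralizer ((P : Subgroup H) : Set H)
  have hC : C.Normal := Subgroup.normal_centralizer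
  have hidx : ∃ n : ℕ, C.index = p ^ n := by
    refine ⟨_, Nat.eq_prime_pow_of_unique_prime_dvd Subgroup.index_ne_zero_of_finite ?_⟩
    intro r hr hrd
    by_contra hne
    have : Fact r.Prime := ⟨hr⟩
    obtain ⟨R⟩ : Nonempty (Sylow r H) := inferInstance
    have hR : (R : Subgroup H).Normal := hn r hr (hrd.trans (Subgroup.index_dvd_card C)) R
    have hdisj : Disjoint (R : Subgroup H) (P : Subgroup H) :=
      IsPGroup.disjoint_of_ne r p hne _ _ R.isPGroup' P.isPGroup'
    have hRC : (R : Subgroup H) ≤ C := by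
      intro x hx
      rw [Subgroup.mem_centralizer_iff]
      intro y hy
      exact (Subgroup.commute_of_normal_of_disjoint _ _ hR hP hdisj x y hx hy).symm
    exact R.not_dvd_index (hrd.trans (Subgroup.index_dvd_of_le hRC))
  obtain ⟨n, hn'⟩ := hidx
  refine ⟨n, ?_⟩
  have h1 : ((h : H ⧸ C)) ^ p ^ n = 1 := by
    rw [← hn', Subgroup.index_eq_card]
    exact pow_card_eq_one'
  rw [← QuotientGroup.mk_pow] at h1
  exact (QuotientGroup.eq_one_iff _).1 h1

/-- Let H be a subgroup of a finite group G that is not a Sylow subgroup of G for any prime, and suppose that for every prime p dividing the order of H and every Sylow p-subgroup P of H the normalizer of P in G is exactly H. Then some normal subgroup of G is a complement to H. -/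
theorem result {G : Type*} [Group G] [Finite G] (H : Subgroup G) (hnot : ∀ p : ℕ, p.Prime → ∀ P : Sylow p G, (P : Subgroup G) ≠ H) (hnorm : ∀ p : ℕ, p.Prime → p ∣ Nat.card H → ∀ P : Sylow p H, Subgroup.normalizer (((P : Subgroup H).map H.subtype : Subgroup G) : Set G) = H) : ∃ N : Subgroup G, N.Normal ∧ Subgroup.IsComplement' N H := by
  classical
  -- Sylow subgroups of H are normal in H
  have hn : ∀ p : ℕ, p.Prime → p ∣ Nat.card H → ∀ P : Sylow p H, (P : Subgroup H).Normal := by
    intro p hp hpd P
    constructor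
    intro x hx g
    have hg : (g : G) ∈ normalizer (((P : Subgroup H).map H.subtype : Subgroup G) : Set G) := by
      rw [hnorm p hp hpd P]; exact g.2
    have h1 := (Subgroup.mem_normalizer_iff.1 hg (x : G)).1 ⟨x, hx, rfl⟩
    obtain ⟨y, hy, hxy⟩ := h1
    have : y = g * x * g⁻¹ := Subtype.ext hxy
    rw [← this]; exact hy
  -- the Sylow subgroups of `H` are Sylow subgroups of `G`
  have hS : ∀ p : ℕ, ∀ hp : p.Prime, p ∣ Nat.card H → ∀ P : Sylow p H,
      ∃ P' : Sylow p G, (P' : Subgroup G) = (P : Subgroup H).map H.subtype := by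
    intro p hp hpd P
    have : Fact p.Prime := ⟨hp⟩
    refine ⟨Sylow.ofCard ((P : Subgroup H).map H.subtype) ?_, rfl⟩
    rw [← factorization_eq H P (hnorm p hp hpd P),
      Subgroup.card_map_of_injective (Subgroup.subtype_injective H)]
    exact P.card_eq_multiplicity
  -- normal `p`-complements
  have hN : ∀ p : ℕ, p.Prime → p ∣ Nat.card H → ∃ N : Subgroup G, N.Normal ∧
      (Nat.card N).Coprime p ∧ N.index = p ^ (Nat.card H).factorization p := by
    intro p hp hpd
    have : Fact p.Prime := ⟨hp⟩
    obtain ⟨P⟩ : Nonempty (Sylow p H) := inferInstance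
    obtain ⟨P', hP'⟩ := hS p hp hpd P
    have hPH : (P' : Subgroup G) ≤ H := by
      rw [hP']; exact Subgroup.map_subtype_le _
    -- a second prime
    obtain ⟨q, hq, hqd, hqp⟩ : ∃ q : ℕ, q.Prime ∧ q ∣ Nat.card H ∧ q ≠ p := by
      by_contra hcon
      push Not at hcon
      have h1 := Nat.eq_prime_pow_of_unique_prime_dvd (n := Nat.card H) (p := p)
        Nat.card_pos.ne' (fun {d} hd hdd => hcon d hd hdd)
      have h2 : IsPGroup p H := IsPGroup.of_card h1
      exact hnot p hp P' (P'.is_maximal' h2 hPH).symm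
    have : Fact q.Prime := ⟨hq⟩
    obtain ⟨Q⟩ : Nonempty (Sylow q H) := inferInstance
    obtain ⟨Q', hQ'⟩ := hS q hq hqd Q
    have hcent : ∀ x : H, x ∈ centralizer (P : Set H) → (x : G) ∈ centralizer (P' : Set G) := by
      intro x hx
      rw [Subgroup.mem_centralizer_iff] at hx ⊢
      intro y hy
      have hy' : y ∈ (P : Subgroup H).map H.subtype := by rw [← hP']; exact hy
      obtain ⟨z, hz, rfl⟩ := hy'
      exact congrArg Subtype.val (hx z hz)
    have hcrit := mem_centralizer_of_coprime P' Q' H (by
        rw [hQ']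
        rintro - ⟨x, hx, rfl⟩
        refine hcent x ?_
        rw [Subgroup.mem_centralizer_iff]
        intro y hy
        exact (Subgroup.commute_of_normal_of_disjoint _ _ (hn q hq hqd Q) (hn p hp hpd P)
          (IsPGroup.disjoint_of_ne q p hqp _ _ Q.isPGroup' P.isPGroup') x y hx hy).symm)
      (by
        have := hnorm q hq hqd Q
        rw [← hQ'] at this
        exact this.le)
      (by
        intro h hh
        obtain ⟨k, hk⟩ := exists_pow_mem_centralizer hn hpd P ⟨h, hh⟩
        exact ⟨k, hcent _ hk⟩)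
    obtain ⟨N, hNn, hNc⟩ := (Cfsg.Agent.S0071.result P').2 hcrit
    have hidx : N.index = Nat.card P' := hNc.symm.index_eq_card
    have hcardP : Nat.card P' = p ^ (Nat.card H).factorization p := by
      rw [P'.card_eq_multiplicity, factorization_eq H P (hnorm p hp hpd P)]
    refine ⟨N, hNn, ?_, by rw [hidx, hcardP]⟩
    have h1 : Nat.card N * Nat.card P' = Nat.card G := hNc.card_mul_card
    have h2 : (P' : Subgroup G).index = Nat.card N := hNc.index_eq_card
    rw [← h2]
    exact (hp.coprime_iff_not_dvd.2 P'.not_dvd_index).symm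
  -- the intersection
  choose! N hNn hNcop hNidx using hN
  let I := (Nat.card H).primeFactors
  let M : Subgroup G := ⨅ p : I, N p
  have hM : M.Normal := by
    apply Subgroup.normal_iInf_normal
    intro p
    exact hNn p (Nat.prime_of_mem_primeFactors p.2) (Nat.dvd_of_mem_primeFactors p.2)
  have hcop : (Nat.card M).Coprime (Nat.card H) := by
    rw [Nat.coprime_iff_gcd_eq_one]
    by_contra hne
    obtain ⟨p, hp, hpd⟩ := Nat.exists_prime_and_dvd hne
    have hp1 : p ∣ Nat.card M := hpd.trans (Nat.gcd_dvd_left _ _)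
    have hp2 : p ∣ Nat.card H := hpd.trans (Nat.gcd_dvd_right _ _)
    have hpI : p ∈ I := Nat.mem_primeFactors.2 ⟨hp, hp2, Nat.card_pos.ne'⟩
    have hle : M ≤ N p := iInf_le (fun p : I => N p) ⟨p, hpI⟩
    have h3 : p ∣ Nat.card (N p) := hp1.trans (Subgroup.card_dvd_of_le hle)
    exact (Nat.Prime.coprime_iff_not_dvd hp).1 (hNcop p hp hp2).symm h3
  have hidx : M.index ≤ Nat.card H := by
    calc M.index ≤ ∏ p : I, (N p).index := Subgroup.index_iInf_le _
      _ = ∏ p : I, (p : ℕ) ^ (Nat.card H).factorization p := by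
          refine Finset.prod_congr rfl fun p _ => ?_
          exact hNidx p (Nat.prime_of_mem_primeFactors p.2) (Nat.dvd_of_mem_primeFactors p.2)
      _ = ∏ p ∈ I, p ^ (Nat.card H).factorization p :=
          Finset.prod_coe_sort I (fun p => p ^ (Nat.card H).factorization p)
      _ = Nat.card H := Nat.prod_factorization_pow_eq_self Nat.card_pos.ne'
  have hdvd : Nat.card H ∣ M.index := by
    have h1 : Nat.card H ∣ Nat.card M * M.index := by
      rw [Subgroup.card_mul_index]
      exact Subgroup.card_subgroup_dvd_card H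
    exact hcop.symm.dvd_of_dvd_mul_left h1
  have heq : M.index = Nat.card H :=
    le_antisymm hidx (Nat.le_of_dvd (Nat.pos_of_ne_zero Subgroup.index_ne_zero_of_finite) hdvd)
  refine ⟨M, hM, Subgroup.isComplement'_of_coprime ?_ hcop⟩
  rw [← heq, Subgroup.card_mul_index]

end Cfsg.Agent.S0558
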