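import Cfsg.Statements.S0559
set_option linter.all false
-- import your own Cfsg.Agent.* helpers here

set_option autoImplicit false
open Pointwise
open Cfsg

namespace Cfsg.Agent.S0559

/-- Let G = HK be a finite group (every element a product of an element of H and an element of K), and let A and B be conjugates of H and K. Then every element is a product of an element of A and one of B, and there is g with A = gHg⁻¹ and B = gKg⁻¹ simultaneously. -/
theorem result {G : Type*} [Group G] [Finite G] (H K A B : Subgroup G) (hHK : ∀ g : G, ∃ h ∈ H, ∃ k ∈ K, g = h * k) (hA : ∃ x : G, A = MulAut.conj x • H) (hB : ∃ y : G, B = MulAut.conj y • K) : (∀ g : G, ∃ a ∈ A, ∃ b ∈ B, g = a * b) ∧ ∃ g : G, A = MulAut.conj g • H ∧ B = MulAut.conj g • K := by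
  obtain ⟨x, rfl⟩ := hA
  obtain ⟨y, rfl⟩ := hB
  obtain ⟨h, hh, k, hk, e⟩ := hHK (x⁻¹ * y)
  have hg : x * h = y * k⁻¹ := by
    rw [eq_mul_inv_iff_mul_eq, mul_assoc, ← e, mul_inv_cancel_left]
  have hA' : MulAut.conj x • H = MulAut.conj (x * h) • H := by
    rw [map_mul, mul_smul, Subgroup.conj_smul_eq_self_of_mem hh]
  have hB' : MulAut.conj y • K = MulAut.conj (x * h) • K := by
    rw [hg, map_mul, mul_smul, Subgroup.conj_smul_eq_self_of_mem (K.inv_mem hk)]
  refine ⟨fun g => ?_, x * h, hA', hB'⟩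
  generalize x * h = z at hA' hB'
  obtain ⟨a, ha, b, hb, e2⟩ := hHK (z⁻¹ * g * z)
  refine ⟨z * a * z⁻¹, ?_, z * b * z⁻¹, ?_, ?_⟩
  · rw [hA']
    exact Subgroup.smul_mem_pointwise_smul a (MulAut.conj z) H ha
  · rw [hB']
    exact Subgroup.smul_mem_pointwise_smul b (MulAut.conj z) K hb
  · have : g = z * (a * b) * z⁻¹ := by
      rw [← e2]; simp only [mul_assoc, mul_inv_cancel_left, mul_inv_cancel, mul_one]
    rw [this]
    simp only [mul_assoc, inv_mul_cancel_left]

end Cfsg.Agent.S0559
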