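import Cfsg.Statements.S0567
import Mathlib
set_option linter.all false
-- import your own Cfsg.Agent.* helpers here

set_option autoImplicit false
open Cfsg

namespace Cfsg.Agent.S0567

/-- If `H` is subnormal and `L ≤ H`, some iterated commutator `[G, L, ..., L]` lies in `H`. -/
theorem exists_iterate_le {G : Type*} [Group G] {H : Subgroup G} (hH : H.IsSubnormal) :
    ∀ L : Subgroup G, L ≤ H → ∃ m : ℕ, (fun K : Subgroup G => ⁅K, L⁆)^[m] ⊤ ≤ H := by
  induction hH with
  | top => exact fun L _ => ⟨0, le_rfl⟩
  | step H K h_le hSubn hN ih =>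
    intro L hL
    obtain ⟨m, hm⟩ := ih L (hL.trans h_le)
    refine ⟨m + 1, ?_⟩
    rw [Function.iterate_succ_apply']
    rw [Subgroup.normal_subgroupOf_iff_le_normalizer h_le,
      Subgroup.le_normalizer_iff_commutator_le_right] at hN
    exact (Subgroup.commutator_mono hm hL).trans hN

open scoped commutatorElement in
/-- The subgroup `[K, H] ⊔ H` is normal in `K ⊔ H`. -/
theorem sup_le_normalizer {G : Type*} [Group G] (K H : Subgroup G) :
    K ⊔ H ≤ Subgroup.normalizer ((⁅K, H⁆ ⊔ H : Subgroup G) : Set G) := by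
  refine sup_le ?_ (le_sup_right.trans Subgroup.le_normalizer)
  rw [Subgroup.le_normalizer_iff]
  intro k hk x hx
  have h1 : ∀ x ∈ (⁅K, H⁆ ⊔ H : Subgroup G), k * x * k⁻¹ ∈ (⁅K, H⁆ ⊔ H : Subgroup G) := by
    have h2 : (⁅K, H⁆ ⊔ H : Subgroup G) ≤
        (⁅K, H⁆ ⊔ H : Subgroup G).comap (MulAut.conj k).toMonoidHom := by
      refine sup_le ?_ ?_
      · intro y hy
        have h3 := (Subgroup.le_normalizer_iff.1 (Subgroup.normalizer_commutator_ge_left K H))
          k hk y hy
        exact (le_sup_left : ⁅K, H⁆ ≤ ⁅K, H⁆ ⊔ H) h3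
      · intro y hy
        have h4 : k * y * k⁻¹ = ⁅k, y⁆ * y := by
          simp [commutatorElement_def]
        show k * y * k⁻¹ ∈ (⁅K, H⁆ ⊔ H : Subgroup G)
        rw [h4]
        exact Subgroup.mul_mem_sup (Subgroup.commutator_mem_commutator hk hy) hy
    exact h2
  exact h1 x hx

/-- A subgroup H of a group G is subnormal exactly when, for some m, the subgroup obtained from G by taking the commutator with H m times in succession is contained in H. -/
theorem result {G : Type*} [Group G] (H : Subgroup G) : H.IsSubnormal ↔ ∃ m : ℕ, (fun K : Subgroup G => ⁅K, H⁆)^[m] ⊤ ≤ H := by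
  constructor
  · intro h
    exact exists_iterate_le h H le_rfl
  · rintro ⟨m, hm⟩
    have key : ∀ i : ℕ, (((fun K : Subgroup G => ⁅K, H⁆)^[i] ⊤) ⊔ H).IsSubnormal := by
      intro i
      induction i with
      | zero => simp
      | succ i ih =>
        rw [Function.iterate_succ_apply']
        refine Subgroup.IsSubnormal.step _ _ ?_ ih ?_
        · exact sup_le (Subgroup.commutator_le_sup _ _) le_sup_right
        · exact Subgroup.normal_subgroupOf_of_le_normalizer (sup_le_normalizer _ _)
    have := key m
    rwa [sup_eq_right.2 hm] at this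

end Cfsg.Agent.S0567
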