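import Mathlib
import Cfsg.Agent.Lib.SolvableNormalP
import Cfsg.Agent.SolvableStructure.ComplementSystem
import Cfsg.Statements.S0568
import Cfsg.Agent.S0043
set_option linter.all false

-- part: SolvableStructure/EccentricFactor
section
/-!
Non-central (eccentric) minimal normal `p`-subgroups of finite solvable groups: no nontrivial
element is centralized by a subgroup of `p`-power index (a Hall `p`-complement).
-/

set_option autoImplicit false

namespace Cfsg.Agent.SolvableStructure.EccentricFactor

open Subgroup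
open scoped Pointwise

/-- Let `V` be a minimal normal subgroup of `Q`, and `N` a subgroup of the group of automorphisms
of `V` induced by `Q`, normal in that group.  If `N` fixes a nontrivial element of `V`, then `N`
is trivial. -/
theorem eq_bot_of_fixed {Q : Type*} [Group Q] (V : Subgroup Q) [V.Normal]
    (hmin : ∀ M : Subgroup Q, M.Normal → M ≤ V → M = ⊥ ∨ M = V)
    (N : Subgroup (MulAut.conjNormal : Q →* MulAut V).range) [hNn : N.Normal] (x : V) (hx : x ≠ 1)
    (hfix : ∀ n ∈ N, (n : MulAut V) x = x) : N = ⊥ := by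
  -- the fixed points
  let F : Subgroup Q :=
    { carrier := {y | ∃ v : V, (v : Q) = y ∧ ∀ n ∈ N, (n : MulAut V) v = v}
      one_mem' := ⟨1, rfl, fun n _ => map_one _⟩
      mul_mem' := by
        rintro a b ⟨v, rfl, hv⟩ ⟨w, rfl, hw⟩
        exact ⟨v * w, rfl, fun n hn => by rw [map_mul, hv n hn, hw n hn]⟩
      inv_mem' := by
        rintro a ⟨v, rfl, hv⟩
        exact ⟨v⁻¹, rfl, fun n hn => by rw [map_inv, hv n hn]⟩ }
  have hF : ∀ y, y ∈ F ↔ ∃ v : V, (v : Q) = y ∧ ∀ n ∈ N, (n : MulAut V) v = v := fun y => Iff.rfl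
  have hFn : F.Normal := by
    refine ⟨fun y hy g => ?_⟩
    rw [hF] at hy ⊢
    obtain ⟨v, rfl, hv⟩ := hy
    let ψ : Q →* (MulAut.conjNormal : Q →* MulAut V).range := MonoidHom.rangeRestrict _
    refine ⟨MulAut.conjNormal g v, MulAut.conjNormal_apply g v, fun n hn => ?_⟩
    have h1 : (ψ g)⁻¹ * n * ((ψ g)⁻¹)⁻¹ ∈ N := hNn.conj_mem n hn _
    have h2 := hv _ h1
    have h3 : (((ψ g)⁻¹ * n * ((ψ g)⁻¹)⁻¹ : (MulAut.conjNormal : Q →* MulAut V).range) :
        MulAut V) = (MulAut.conjNormal g)⁻¹ * (n : MulAut V) * MulAut.conjNormal g := by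
      simp [ψ]
    rw [h3] at h2
    rw [MulAut.mul_apply, MulAut.mul_apply] at h2
    have h4 := congrArg (MulAut.conjNormal g) h2
    rwa [MulAut.apply_inv_self] at h4
  have hFV : F ≤ V := by
    intro y hy
    obtain ⟨v, rfl, -⟩ := (hF y).1 hy
    exact v.2
  have hxF : (x : Q) ∈ F := (hF _).2 ⟨x, rfl, hfix⟩
  rcases hmin F hFn hFV with h | h
  · exfalso
    rw [h, Subgroup.mem_bot] at hxF
    exact hx (Subtype.ext hxF)
  · rw [eq_bot_iff]
    intro n hn
    rw [Subgroup.mem_bot]
    apply Subtype.ext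
    ext v
    have hv : (v : Q) ∈ F := h.ge v.2
    obtain ⟨w, hw, hw'⟩ := (hF _).1 hv
    have h5 : w = v := Subtype.ext hw
    rw [← h5, hw' n hn]
    rfl

/-- A nontrivial element of a non-central minimal normal `p`-subgroup of a finite solvable group is
not centralized by any subgroup of `p`-power index. -/
theorem eq_one_of_commute {Q : Type*} [Group Q] [Finite Q] [Group.IsSolvable Q] (V : Subgroup Q)
    [V.Normal] (hmin : ∀ M : Subgroup Q, M.Normal → M ≤ V → M = ⊥ ∨ M = V)
    (hVc : ¬ V ≤ Subgroup.center Q) {p : ℕ} (hp : p.Prime) (hV : IsPGroup p V)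
    (S : Subgroup Q) {k : ℕ} (hS : S.index = p ^ k) (x : Q) (hx : x ∈ V)
    (hxS : ∀ s ∈ S, s * x = x * s) : x = 1 := by
  classical
  by_contra hx1
  have hfp : Fact p.Prime := ⟨hp⟩
  let φ : Q →* MulAut V := MulAut.conjNormal
  -- the group of induced automorphisms is nontrivial
  have hnt : Nontrivial φ.range := by
    rw [Subgroup.nontrivial_iff_exists_ne_one]
    by_contra hcon
    push Not at hcon
    apply hVc
    intro v hv
    rw [Subgroup.mem_center_iff]
    intro g
    have h1 := hcon (φ g) ⟨g, rfl⟩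
    have h2 : ((φ g ⟨v, hv⟩ : V) : Q) = v := by rw [h1]; rfl
    rw [MulAut.conjNormal_apply] at h2
    exact mul_inv_eq_iff_eq_mul.1 h2
  have hsolv : Group.IsSolvable φ.range :=
    Group.isSolvable_of_surjective φ.rangeRestrict_surjective
  obtain ⟨q, N, hq, hNn, hNq, -, hN⟩ :=
    Cfsg.Agent.Lib.SolvableNormalP.exists_normal_pSubgroup φ.range
  have hfq : Fact q.Prime := ⟨hq⟩
  by_cases hqp : q = p
  · subst hqp
    -- fixed points of the `p`-group `N` on the `p`-group `V`
    have h1 : (1 : V) ∈ MulAction.fixedPoints N V := by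
      intro n
      exact map_one ((n : φ.range) : MulAut V)
    have h2 : q ∣ Nat.card V := by
      obtain ⟨m, hm⟩ := IsPGroup.iff_card.1 hV
      rw [hm]
      rcases Nat.eq_zero_or_pos m with rfl | hm0
      · exfalso
        rw [pow_zero, Subgroup.card_eq_one] at hm
        rw [hm, Subgroup.mem_bot] at hx
        exact hx1 hx
      · exact dvd_pow_self _ hm0.ne'
    obtain ⟨y, hy, hy1⟩ := hNq.exists_fixed_point_of_prime_dvd_card_of_fixed_point V h2 h1
    exact hN (eq_bot_of_fixed V hmin N y hy1.symm fun n hn => hy ⟨n, hn⟩)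
  · -- `N` is contained in the image of `S`
    have h1 : (S.map φ.rangeRestrict).index ∣ p ^ k := by
      rw [← hS]
      exact Subgroup.index_map_dvd S φ.rangeRestrict_surjective
    have h2 : (S.map φ.rangeRestrict).relIndex N ∣ p ^ k :=
      (ComplementSystem.relIndex_dvd_index_of_normal' _ N).trans h1
    have h3 : (S.map φ.rangeRestrict).relIndex N ∣ Nat.card N := Subgroup.index_dvd_card _
    obtain ⟨m, hm⟩ := IsPGroup.iff_card.1 hNq
    rw [hm] at h3
    have h4 : (S.map φ.rangeRestrict).relIndex N = 1 := by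
      refine Nat.eq_one_of_dvd_coprimes ?_ h3 h2
      exact Nat.Coprime.pow _ _ ((Nat.coprime_primes hq hp).2 hqp)
    have h5 : N ≤ S.map φ.rangeRestrict := Subgroup.relIndex_eq_one.1 h4
    refine hN (eq_bot_of_fixed V hmin N ⟨x, hx⟩ (fun h => hx1 (congrArg Subtype.val h)) ?_)
    intro n hn
    obtain ⟨s, hs, rfl⟩ := h5 hn
    apply Subtype.ext
    change ((φ s ⟨x, hx⟩ : V) : Q) = x
    rw [MulAut.conjNormal_apply, mul_inv_eq_iff_eq_mul]
    exact hxS s hs

end Cfsg.Agent.SolvableStructure.EccentricFactor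
end

-- part: S0568
section
-- import your own Cfsg.Agent.* helpers here

set_option autoImplicit false
open Cfsg

namespace Cfsg.Agent.S0568

/-- Let D be the system normalizer of a Hall complement system of a finite solvable group G, and let A < B be normal subgroups with no normal subgroup of G strictly between them (a chief factor). If G centralizes B modulo A then B ≤ A ⊔ D (D covers the factor); otherwise B ∩ D ≤ A (D avoids it). -/
theorem result {G : Type*} [Group G] [Finite G] [Group.IsSolvable G] (K : Nat.Primes → Subgroup G) (hK : Cfsg.IsComplementSystem K) (A B : Subgroup G) [A.Normal] [B.Normal] (hAB : A < B) (hchief : ∀ N : Subgroup G, N.Normal → A ≤ N → N ≤ B → N = A ∨ N = B) : (⁅B, (⊤ : Subgroup G)⁆ ≤ A → B ≤ A ⊔ Cfsg.systemNormalizer K) ∧ (¬ ⁅B, (⊤ : Subgroup G)⁆ ≤ A → B ⊓ Cfsg.systemNormalizer K ≤ A) := by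
  classical
  set D := Cfsg.systemNormalizer K with hD
  have hDmap := SolvableStructure.ComplementSystem.systemNormalizer_map hK A
  -- `B/A` is central iff `[B, G] ≤ A`
  have hcen : B.map (QuotientGroup.mk' A) ≤ Subgroup.center (G ⧸ A) ↔ ⁅B, (⊤ : Subgroup G)⁆ ≤ A := by
    rw [← Subgroup.commutator_top_right_eq_bot_iff_le_center,
      ← Subgroup.map_top_of_surjective _ (QuotientGroup.mk'_surjective A),
      ← Subgroup.map_commutator, Subgroup.map_eq_bot_iff, QuotientGroup.ker_mk']
  constructor
  · intro h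
    have h1 : B.map (QuotientGroup.mk' A) ≤ D.map (QuotientGroup.mk' A) := by
      rw [← hDmap]
      refine (hcen.2 h).trans ?_
      refine le_iInf fun p => ?_
      exact Subgroup.center_le_normalizer _
    rw [Subgroup.map_le_map_iff, QuotientGroup.ker_mk', sup_comm] at h1
    exact h1
  · intro h
    have hnc : ¬ B.map (QuotientGroup.mk' A) ≤ Subgroup.center (G ⧸ A) := fun hc => h (hcen.1 hc)
    have hVn : (B.map (QuotientGroup.mk' A)).Normal :=
      Subgroup.Normal.map inferInstance _ (QuotientGroup.mk'_surjective A)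
    have hmin : ∀ M : Subgroup (G ⧸ A), M.Normal → M ≤ B.map (QuotientGroup.mk' A) →
        M = ⊥ ∨ M = B.map (QuotientGroup.mk' A) := by
      intro M hM hMB
      have h1 : A ≤ M.comap (QuotientGroup.mk' A) := by
        intro a ha
        rw [Subgroup.mem_comap]
        have : QuotientGroup.mk' A a = 1 := (QuotientGroup.eq_one_iff a).2 ha
        rw [this]
        exact one_mem _
      have h2 : M.comap (QuotientGroup.mk' A) ≤ B := by
        have h3 := Subgroup.comap_mono (f := QuotientGroup.mk' A) hMB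
        rwa [Subgroup.comap_map_eq, QuotientGroup.ker_mk', sup_eq_left.2 hAB.le] at h3
      have h3 : (M.comap (QuotientGroup.mk' A)).map (QuotientGroup.mk' A) = M :=
        Subgroup.map_comap_eq_self_of_surjective (QuotientGroup.mk'_surjective A) M
      rcases hchief _ (hM.comap _) h1 h2 with h4 | h4
      · left
        rw [← h3, h4, Subgroup.map_eq_bot_iff, QuotientGroup.ker_mk']
      · right
        rw [← h3, h4]
    have hVne : B.map (QuotientGroup.mk' A) ≠ ⊥ := by
      rw [Ne, Subgroup.map_eq_bot_iff, QuotientGroup.ker_mk']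
      exact hAB.not_ge
    obtain ⟨-, p, hp, hpow⟩ := Cfsg.Agent.S0043.result (B.map (QuotientGroup.mk' A)) hVne hmin
    have hVp : IsPGroup p (B.map (QuotientGroup.mk' A)) := by
      intro v
      refine ⟨1, ?_⟩
      rw [pow_one]
      exact Subtype.ext (hpow v v.2)
    set P : Nat.Primes := ⟨p, hp⟩ with hP
    -- `(K P) ∩ B ≤ A`
    have hKP : (Nat.card (K P)).Coprime p :=
      SolvableStructure.ComplementSystem.coprime_card_of_index hp (hK P)
    have hSidx : ((K P).map (QuotientGroup.mk' A)).index =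
        p ^ (Nat.card (G ⧸ A)).factorization p :=
      SolvableStructure.ComplementSystem.isComplementSystem_map hK A P
    have hScop : (Nat.card ((K P).map (QuotientGroup.mk' A))).Coprime p :=
      SolvableStructure.ComplementSystem.coprime_card_of_index hp hSidx
    intro x hx
    obtain ⟨hxB, hxD⟩ := Subgroup.mem_inf.1 hx
    have hxn : QuotientGroup.mk' A x ∈
        Subgroup.normalizer (((K P).map (QuotientGroup.mk' A) : Subgroup (G ⧸ A)) : Set (G ⧸ A)) :=
      Subgroup.le_normalizer_map _ ⟨x, (Subgroup.mem_iInf.1 hxD) P, rfl⟩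
    have hxV : QuotientGroup.mk' A x ∈ B.map (QuotientGroup.mk' A) := ⟨x, hxB, rfl⟩
    have hfin : QuotientGroup.mk' A x = 1 := by
      refine SolvableStructure.EccentricFactor.eq_one_of_commute _ hmin hnc hp hVp _ hSidx _ hxV ?_
      intro s hs
      -- the commutator lies in the intersection
      have h1 : s * QuotientGroup.mk' A x * s⁻¹ * (QuotientGroup.mk' A x)⁻¹ ∈
          B.map (QuotientGroup.mk' A) :=
        mul_mem (hVn.conj_mem _ hxV s) (inv_mem hxV)
      have h2 : s * QuotientGroup.mk' A x * s⁻¹ * (QuotientGroup.mk' A x)⁻¹ ∈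
          (K P).map (QuotientGroup.mk' A) := by
        have h3 := (Subgroup.mem_normalizer_iff.1 hxn s⁻¹).1 (inv_mem hs)
        have h4 := mul_mem hs h3
        rwa [← mul_assoc, ← mul_assoc] at h4
      have h5 : s * QuotientGroup.mk' A x * s⁻¹ * (QuotientGroup.mk' A x)⁻¹ = 1 := by
        set y := s * QuotientGroup.mk' A x * s⁻¹ * (QuotientGroup.mk' A x)⁻¹ with hy
        have h6 : orderOf y ∣ p := orderOf_dvd_of_pow_eq_one (hpow y h1)
        have h7 : orderOf y ∣ Nat.card ((K P).map (QuotientGroup.mk' A)) :=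
          Subgroup.orderOf_dvd_natCard _ h2
        exact orderOf_eq_one_iff.1 (Nat.eq_one_of_dvd_coprimes hScop h7 h6)
      rw [mul_inv_eq_one, mul_inv_eq_iff_eq_mul] at h5
      exact h5
    exact (QuotientGroup.eq_one_iff x).1 hfin

end Cfsg.Agent.S0568
end
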