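import Cfsg.Statements.S0573
import Mathlib
import Cfsg.Agent.SolvableStructure.Ito
import Cfsg.Agent.Lib.Cores
import Cfsg.Agent.Lib.SolvableNormalP
set_option linter.all false

set_option autoImplicit false
set_option linter.style.haveILetI false
open Cfsg

namespace Cfsg.Agent.S0573

open Subgroup

section Aux

variable {G : Type*} [Group G]

/-- Swapping the factors. -/
theorem swap_factors (A B : Subgroup G) (hAB : ∀ g : G, ∃ a ∈ A, ∃ b ∈ B, g = a * b) :
    ∀ g : G, ∃ b ∈ B, ∃ a ∈ A, g = b * a := by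
  intro g
  obtain ⟨a, ha, b, hb, h⟩ := hAB g⁻¹
  refine ⟨b⁻¹, B.inv_mem hb, a⁻¹, A.inv_mem ha, ?_⟩
  rw [← mul_inv_rev, ← h, inv_inv]

/-- If every element is `a * b` with `a ∈ A`, `b ∈ B`, then whatever commutes with `A` and `B`
is central. -/
theorem mem_center_of_comm (A B : Subgroup G) (hAB : ∀ g : G, ∃ a ∈ A, ∃ b ∈ B, g = a * b) {z : G}
    (h1 : ∀ a ∈ A, Commute z a) (h2 : ∀ b ∈ B, Commute z b) : z ∈ center G := by
  rw [mem_center_iff]
  intro g
  obtain ⟨a, ha, b, hb, rfl⟩ := hAB g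
  exact ((h1 a ha).mul_right (h2 b hb)).eq.symm

/-- A normal subgroup `P`, `B₁ = B ⊓ (A ⊔ P)`, `A ⊓ B = 1`, `G = A B`:
`|B₁| |A| = |A ⊔ P|`. -/
theorem card_inf_sup (A B P : Subgroup G) (hAB : ∀ g : G, ∃ a ∈ A, ∃ b ∈ B, g = a * b)
    (hinf : A ⊓ B = ⊥) :
    Nat.card (B ⊓ (A ⊔ P) : Subgroup G) * Nat.card A = Nat.card (A ⊔ P : Subgroup G) := by
  rw [← Nat.card_prod]
  refine Nat.card_congr (Equiv.ofBijective
    (fun x : (B ⊓ (A ⊔ P) : Subgroup G) × A =>
      (⟨(x.1 : G) * (x.2 : G), (A ⊔ P).mul_mem (mem_inf.1 x.1.2).2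
        ((le_sup_left : A ≤ A ⊔ P) x.2.2)⟩ : (A ⊔ P : Subgroup G))) ⟨?_, ?_⟩)
  · rintro ⟨⟨b, hb⟩, ⟨a, ha⟩⟩ ⟨⟨b', hb'⟩, ⟨a', ha'⟩⟩ h
    have h' : b * a = b' * a' := congrArg Subtype.val h
    have h1 : b'⁻¹ * b = a' * a⁻¹ := by
      rw [inv_mul_eq_iff_eq_mul, ← mul_assoc, eq_mul_inv_iff_mul_eq]; exact h'
    have h2 : b'⁻¹ * b ∈ A ⊓ B := by
      refine mem_inf.2 ⟨?_, B.mul_mem (B.inv_mem (mem_inf.1 hb').1) (mem_inf.1 hb).1⟩
      rw [h1]; exact A.mul_mem ha' (A.inv_mem ha)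
    rw [hinf, mem_bot] at h2
    have hbb : b' = b := by rw [← inv_mul_eq_one]; exact h2
    have haa : a' = a := by
      rw [h1, mul_inv_eq_one] at h2; exact h2
    subst hbb; subst haa; rfl
  · rintro ⟨x, hx⟩
    obtain ⟨b, hb, a, ha, hxx⟩ := swap_factors A B hAB x
    refine ⟨⟨⟨b, mem_inf.2 ⟨hb, ?_⟩⟩, ⟨a, ha⟩⟩, ?_⟩
    · have : b = x * a⁻¹ := by rw [hxx]; group
      rw [this]
      exact (A ⊔ P).mul_mem hx ((A ⊔ P).inv_mem ((le_sup_left : A ≤ A ⊔ P) ha))
    · exact Subtype.ext hxx.symm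

theorem card_mul_relIndex {H K : Subgroup G} (h : H ≤ K) :
    Nat.card H * H.relIndex K = Nat.card K := by
  rw [← relIndex_bot_left, ← relIndex_bot_left]; exact relIndex_mul_relIndex _ _ _ bot_le h

/-- Same situation: `B₁` is a `p`-group when `P` is. -/
theorem isPGroup_inf_sup [Finite G] {p : ℕ} (hp : p.Prime) (A B P : Subgroup G) (hP : P.Normal)
    (hPp : IsPGroup p P)
    (hAB : ∀ g : G, ∃ a ∈ A, ∃ b ∈ B, g = a * b) (hinf : A ⊓ B = ⊥) :
    IsPGroup p (B ⊓ (A ⊔ P) : Subgroup G) := by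
  haveI : Fact p.Prime := ⟨hp⟩
  have h1 := card_inf_sup A B P hAB hinf
  have h2 : P.relIndex (A ⊔ P) = P.relIndex A := relIndex_sup_right A P
  have h3 : P.relIndex (A ⊔ P) * Nat.card P = Nat.card (A ⊔ P : Subgroup G) := by
    rw [mul_comm]; exact card_mul_relIndex le_sup_right
  have h4 : P.relIndex A * Nat.card (P ⊓ A : Subgroup G) = Nat.card A := by
    have := card_mul_relIndex (inf_le_right : P ⊓ A ≤ A)
    rw [inf_relIndex_right] at this
    rw [mul_comm]; exact this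
  have hpos : 0 < P.relIndex A := by
    rcases Nat.eq_zero_or_pos (P.relIndex A) with h | h
    · rw [h, zero_mul] at h4; exact absurd h4.symm Nat.card_pos.ne'
    · exact h
  have h5 : Nat.card (B ⊓ (A ⊔ P) : Subgroup G) * Nat.card (P ⊓ A : Subgroup G) = Nat.card P := by
    apply Nat.eq_of_mul_eq_mul_left hpos
    calc P.relIndex A * (Nat.card (B ⊓ (A ⊔ P) : Subgroup G) * Nat.card (P ⊓ A : Subgroup G))
        = Nat.card (B ⊓ (A ⊔ P) : Subgroup G) * (P.relIndex A * Nat.card (P ⊓ A : Subgroup G)) := by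
          ring
      _ = Nat.card (A ⊔ P : Subgroup G) := by rw [h4, h1]
      _ = P.relIndex A * Nat.card P := by rw [← h3, h2]
  obtain ⟨n, hn⟩ := IsPGroup.iff_card.1 hPp
  have hd : Nat.card (B ⊓ (A ⊔ P) : Subgroup G) ∣ p ^ n := by
    rw [← hn, ← h5]; exact dvd_mul_right _ _
  obtain ⟨k, -, hk⟩ := (Nat.dvd_prime_pow hp).1 hd
  exact IsPGroup.of_card hk

/-- The "factorizer" `(A ⊔ P) ⊓ (B ⊔ P)` is normalised by `A`. -/
theorem conj_mem_factorizer (A B P : Subgroup G) [IsMulCommutative A] (hP : P.Normal)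
    {a x : G} (ha : a ∈ A) (hx : x ∈ (A ⊔ P) ⊓ (B ⊔ P)) :
    a * x * a⁻¹ ∈ (A ⊔ P) ⊓ (B ⊔ P) := by
  obtain ⟨hx1, hx2⟩ := mem_inf.1 hx
  have hx1' := hx1
  rw [mem_sup_of_normal_right] at hx1'
  obtain ⟨a₁, ha₁, q, hq, rfl⟩ := hx1'
  have hq' : a * q * a⁻¹ ∈ P := hP.conj_mem q hq a
  have e : a * (a₁ * q) * a⁻¹ = a₁ * (a * q * a⁻¹) := by
    have : a * a₁ = a₁ * a := setLike_mul_comm ha ha₁
    calc a * (a₁ * q) * a⁻¹ = (a * a₁) * q * a⁻¹ := by group
      _ = a₁ * (a * q * a⁻¹) := by rw [this]; group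
  rw [e]
  have h1 : a₁ ∈ B ⊔ P := by
    have : a₁ = (a₁ * q) * q⁻¹ := by group
    rw [this]
    exact (B ⊔ P).mul_mem hx2 ((B ⊔ P).inv_mem ((le_sup_right : P ≤ B ⊔ P) hq))
  exact mem_inf.2 ⟨(A ⊔ P).mul_mem ((le_sup_left : A ≤ A ⊔ P) ha₁)
    ((le_sup_right : P ≤ A ⊔ P) hq'), (B ⊔ P).mul_mem h1 ((le_sup_right : P ≤ B ⊔ P) hq')⟩

/-- The factorizer is normal. -/
theorem factorizer_normal (A B P : Subgroup G) [IsMulCommutative A] [IsMulCommutative B]
    (hP : P.Normal) (hAB : ∀ g : G, ∃ a ∈ A, ∃ b ∈ B, g = a * b) :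
    ((A ⊔ P) ⊓ (B ⊔ P)).Normal := by
  refine ⟨fun x hx g => ?_⟩
  obtain ⟨a, ha, b, hb, rfl⟩ := hAB g
  have e : a * b * x * (a * b)⁻¹ = a * (b * x * b⁻¹) * a⁻¹ := by group
  rw [e]
  refine conj_mem_factorizer A B P hP ha ?_
  rw [inf_comm]
  refine conj_mem_factorizer B A P hP hb ?_
  rw [inf_comm]; exact hx

/-- The factorizer of a normal `p`-subgroup is a `p`-group. -/
theorem factorizer_isPGroup [Finite G] {p : ℕ} (hp : p.Prime) (A B P : Subgroup G)
    (hP : P.Normal) (hPp : IsPGroup p P)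
    (hAB : ∀ g : G, ∃ a ∈ A, ∃ b ∈ B, g = a * b) (hinf : A ⊓ B = ⊥) :
    IsPGroup p ((A ⊔ P) ⊓ (B ⊔ P) : Subgroup G) := by
  have h1 := isPGroup_inf_sup hp A B P hP hPp hAB hinf
  have h2 : IsPGroup p ((B ⊓ (A ⊔ P)) ⊔ P : Subgroup G) := h1.to_sup_of_normal_right hPp
  refine h2.to_le ?_
  intro x hx
  obtain ⟨hx1, hx2⟩ := mem_inf.1 hx
  rw [mem_sup_of_normal_right] at hx2
  obtain ⟨b, hb, q, hq, rfl⟩ := hx2
  refine mul_mem ((le_sup_left : (B ⊓ (A ⊔ P)) ≤ _) (mem_inf.2 ⟨hb, ?_⟩))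
    ((le_sup_right : P ≤ _) hq)
  have : b = (b * q) * q⁻¹ := by group
  rw [this]
  exact (A ⊔ P).mul_mem hx1 ((A ⊔ P).inv_mem ((le_sup_right : P ≤ A ⊔ P) hq))

/-- The `p`-core of a product of abelian groups with trivial intersection is factorized. -/
theorem factorize_pCore [Finite G] {p : ℕ} (hp : p.Prime) (A B : Subgroup G)
    [IsMulCommutative A] [IsMulCommutative B]
    (hAB : ∀ g : G, ∃ a ∈ A, ∃ b ∈ B, g = a * b) (hinf : A ⊓ B = ⊥) {x : G}
    (hx : x ∈ pCore p G) :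
    ∃ a ∈ A, ∃ b ∈ B, a ∈ pCore p G ∧ b ∈ pCore p G ∧ x = a * b := by
  set P := pCore p G with hPdef
  have hP : P.Normal := Cfsg.Agent.Lib.Cores.pCore_normal p
  haveI : Fact p.Prime := ⟨hp⟩
  have hPp : IsPGroup p P := Cfsg.Agent.Lib.Cores.pCore_isPGroup p
  have hle : (A ⊔ P) ⊓ (B ⊔ P) ≤ P :=
    Cfsg.Agent.Lib.Cores.le_pCore (factorizer_normal A B P hP hAB)
      (factorizer_isPGroup hp A B P hP hPp hAB hinf)
  obtain ⟨a, ha, b, hb, rfl⟩ := hAB x
  have ha' : a ∈ P := by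
    apply hle
    refine mem_inf.2 ⟨(le_sup_left : A ≤ A ⊔ P) ha, ?_⟩
    have : a = (a * b) * b⁻¹ := by group
    rw [this]
    exact (B ⊔ P).mul_mem ((le_sup_right : P ≤ B ⊔ P) hx)
      ((B ⊔ P).inv_mem ((le_sup_left : B ≤ B ⊔ P) hb))
  refine ⟨a, ha, b, hb, ha', ?_, rfl⟩
  have : b = a⁻¹ * (a * b) := by group
  rw [this]
  exact P.mul_mem (P.inv_mem ha') hx

/-- If `G'` is commutative then `G'` centralizes the centre of `O_p(G)`. -/
theorem commute_of_mem_commutator_of_center [Finite G] {p : ℕ} (hp : p.Prime)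
    (hG : ∀ x ∈ commutator G, ∀ y ∈ commutator G, x * y = y * x) {x v : G}
    (hx : x ∈ commutator G) (hv : v ∈ pCore p G) (hv' : v ∈ centralizer (pCore p G : Set G)) :
    Commute x v := by
  haveI : Fact p.Prime := ⟨hp⟩
  have hP : (pCore p G).Normal := Cfsg.Agent.Lib.Cores.pCore_normal p
  have hPp : IsPGroup p (pCore p G) := Cfsg.Agent.Lib.Cores.pCore_isPGroup p
  -- `p`-elements of `G'` lie in `O_p(G)`
  have hcomm : (commutator G).Normal := inferInstance
  let M : Subgroup G :=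
    { carrier := {y | y ∈ commutator G ∧ ∃ k : ℕ, y ^ p ^ k = 1}
      one_mem' := ⟨one_mem _, 0, by simp⟩
      mul_mem' := by
        rintro a b ⟨ha, k, hk⟩ ⟨hb, l, hl⟩
        refine ⟨mul_mem ha hb, k + l, ?_⟩
        have hc : Commute a b := hG a ha b hb
        rw [hc.mul_pow, pow_add, pow_mul, hk, one_pow, mul_comm, pow_mul, hl, one_pow, one_mul]
      inv_mem' := by
        rintro a ⟨ha, k, hk⟩
        exact ⟨inv_mem ha, k, by rw [inv_pow, hk, inv_one]⟩ }
  have hM : M.Normal := by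
    refine ⟨fun y hy g => ?_⟩
    obtain ⟨hy1, k, hk⟩ := hy
    refine ⟨hcomm.conj_mem y hy1 g, k, ?_⟩
    rw [conj_pow, hk]; group
  have hMp : IsPGroup p M := by
    rintro ⟨y, hy1, k, hk⟩
    exact ⟨k, Subtype.ext hk⟩
  have hMle : M ≤ pCore p G := Cfsg.Agent.Lib.Cores.le_pCore hM hMp
  -- decomposition of `x`
  obtain ⟨k, m, hm, hxo⟩ := Nat.exists_eq_pow_mul_and_not_dvd (orderOf_pos x).ne' p hp.ne_one
  have hcop : Nat.Coprime (p ^ k) m := Nat.Coprime.pow_left k ((Nat.Prime.coprime_iff_not_dvd hp).2 hm)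
  -- first part
  have h1 : Commute (x ^ m) v := by
    have : x ^ m ∈ M := ⟨pow_mem hx m, k, by rw [← pow_mul, mul_comm, ← hxo, pow_orderOf_eq_one]⟩
    exact mem_centralizer_iff.1 hv' _ (hMle this)
  -- second part
  have h2 : Commute (x ^ p ^ k) v := by
    set y := x ^ p ^ k with hy
    have hym : y ^ m = 1 := by rw [hy, ← pow_mul, ← hxo, pow_orderOf_eq_one]
    have hyc : y ∈ commutator G := pow_mem hx _
    -- c = v y v⁻¹ y⁻¹ commutes with y and v
    set c := y * v * y⁻¹ * v⁻¹ with hc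
    have hcP : c ∈ pCore p G := by
      rw [hc]; exact mul_mem (hP.conj_mem v hv y) (inv_mem hv)
    have hcG : c ∈ commutator G := by
      rw [hc]
      exact commutator_mem_commutator (mem_top y) (mem_top v)
    have hcv : Commute c v := (mem_centralizer_iff.1 hv' c hcP)
    have hcy : Commute c y := hG c hcG y hyc
    -- y v y⁻¹ = c v
    have hconj : y * v * y⁻¹ = c * v := by rw [hc]; group
    have hn : ∀ n : ℕ, y ^ n * v * (y ^ n)⁻¹ = c ^ n * v := by
      intro n
      induction n with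
      | zero => simp
      | succ n ih =>
        calc y ^ (n + 1) * v * (y ^ (n + 1))⁻¹ = y * (y ^ n * v * (y ^ n)⁻¹) * y⁻¹ := by
              rw [pow_succ']; group
          _ = y * (c ^ n * v) * y⁻¹ := by rw [ih]
          _ = (y * c ^ n) * v * y⁻¹ := by group
          _ = (c ^ n * y) * v * y⁻¹ := by rw [(hcy.pow_left n).eq]
          _ = c ^ n * (y * v * y⁻¹) := by group
          _ = c ^ (n + 1) * v := by rw [hconj, pow_succ]; group
    have hcm : c ^ m = 1 := by
      have := hn m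
      rw [hym] at this
      simpa using this.symm
    obtain ⟨l, hl⟩ := hPp ⟨c, hcP⟩
    have hl' : c ^ p ^ l = 1 := congrArg Subtype.val hl
    have hc1 : c = 1 := by
      have hd1 := orderOf_dvd_of_pow_eq_one hcm
      have hd2 := orderOf_dvd_of_pow_eq_one hl'
      have hcop' : Nat.Coprime (p ^ l) m :=
        Nat.Coprime.pow_left l ((Nat.Prime.coprime_iff_not_dvd hp).2 hm)
      have := Nat.dvd_gcd hd2 hd1
      rw [hcop'] at this
      exact orderOf_eq_one_iff.1 (Nat.dvd_one.1 this)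
    rw [hc1, one_mul] at hconj
    exact mul_inv_eq_iff_eq_mul.1 hconj
  -- combine
  have hbez : x = (x ^ p ^ k) ^ (Nat.gcdA (p ^ k) m) * (x ^ m) ^ (Nat.gcdB (p ^ k) m) := by
    have := Nat.gcd_eq_gcd_ab (p ^ k) m
    rw [hcop] at this
    rw [← zpow_natCast x (p ^ k), ← zpow_natCast x m, ← zpow_mul, ← zpow_mul, ← zpow_add, ← this]
    simp
  rw [hbez]
  exact (h2.zpow_left _).mul_left (h1.zpow_left _)

/-- If `G'` centralizes a normal subgroup `V`, then `C_V(A)` is normal for every subgroup `A`. -/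
theorem centralizer_normal_of_commutator (A V : Subgroup G) (hV : V.Normal)
    (h : ∀ x ∈ commutator G, ∀ v ∈ V, Commute x v) : (V ⊓ centralizer (A : Set G)).Normal := by
  refine ⟨fun c hc g => ?_⟩
  obtain ⟨hc1, hc2⟩ := mem_inf.1 hc
  refine mem_inf.2 ⟨hV.conj_mem c hc1 g, ?_⟩
  rw [mem_centralizer_iff]
  intro a ha
  have h1 : Commute (a⁻¹ * g⁻¹ * a * g) c := by
    refine h _ ?_ c hc1
    have := commutator_mem_commutator (mem_top (a⁻¹ : G)) (mem_top (g⁻¹ : G))
    rw [commutatorElement_def, inv_inv, inv_inv] at this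
    exact this
  have h2 : Commute a c := mem_centralizer_iff.1 hc2 a ha
  have h3 : Commute (g⁻¹ * a * g) c := by
    have : g⁻¹ * a * g = a * (a⁻¹ * g⁻¹ * a * g) := by group
    rw [this]
    exact h2.mul_left h1
  calc a * (g * c * g⁻¹) = g * ((g⁻¹ * a * g) * c) * g⁻¹ := by group
    _ = g * (c * (g⁻¹ * a * g)) * g⁻¹ := by rw [h3.eq]
    _ = g * c * g⁻¹ * a := by group

end Aux

/-- If a nontrivial finite group G is the product AB of abelian subgroups A and B, then some nontrivial normal subgroup of G is contained in A or in B. -/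
theorem result {G : Type*} [Group G] [Finite G] [Nontrivial G] (A B : Subgroup G) [IsMulCommutative A] [IsMulCommutative B] (hAB : ∀ g : G, ∃ a ∈ A, ∃ b ∈ B, g = a * b) : ∃ N : Subgroup G, N.Normal ∧ N ≠ ⊥ ∧ (N ≤ A ∨ N ≤ B) := by
  by_contra hno
  push Not at hno
  have hno' : ∀ N : Subgroup G, N.Normal → (N ≤ A ∨ N ≤ B) → N = ⊥ := by
    intro N hN h
    by_contra hne
    rcases h with h | h
    · exact (hno N hN hne).1 h
    · exact (hno N hN hne).2 h
  have hBA := swap_factors A B hAB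
  -- the centre is trivial
  have hcen : center G = ⊥ := by
    rw [eq_bot_iff]
    intro z hz
    obtain ⟨a, ha, b, hb, hzab⟩ := hAB z
    have hz' := mem_center_iff.1 hz
    have haC : a ∈ center G := by
      refine mem_center_of_comm A B hAB (fun x hx => setLike_mul_comm ha hx) (fun y hy => ?_)
      have : a = z * b⁻¹ := by rw [hzab]; group
      rw [this]
      have c1 : Commute z y := (hz' y).symm
      have c2 : Commute b⁻¹ y := setLike_mul_comm (B.inv_mem hb) hy
      exact c1.mul_left c2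
    have hbC : b ∈ center G := by
      have : b = a⁻¹ * z := by rw [hzab]; group
      rw [this]
      exact mul_mem (inv_mem haC) hz
    have hnorm : ∀ C : Subgroup G, (center G ⊓ C).Normal := by
      intro C
      refine ⟨fun x hx g => ?_⟩
      have := mem_center_iff.1 (mem_inf.1 hx).1 g
      rw [this]; simpa using hx
    have h1 := hno' _ (hnorm A) (Or.inl inf_le_right)
    have h2 := hno' _ (hnorm B) (Or.inr inf_le_right)
    have ha1 : a ∈ center G ⊓ A := mem_inf.2 ⟨haC, ha⟩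
    have hb1 : b ∈ center G ⊓ B := mem_inf.2 ⟨hbC, hb⟩
    rw [h1, mem_bot] at ha1
    rw [h2, mem_bot] at hb1
    rw [hzab, ha1, hb1, one_mul]
    exact mem_bot.2 rfl
  have hinf : A ⊓ B = ⊥ := by
    rw [eq_bot_iff, ← hcen]
    intro z hz
    obtain ⟨hzA, hzB⟩ := mem_inf.1 hz
    exact mem_center_of_comm A B hAB (fun x hx => setLike_mul_comm hzA hx)
      (fun x hx => setLike_mul_comm hzB hx)
  -- a normal p-subgroup
  haveI : Group.IsSolvable G := Cfsg.Agent.S0047.result A B hAB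
  obtain ⟨p, N, hp, hN, hNp, -, hNne⟩ := Cfsg.Agent.Lib.SolvableNormalP.exists_normal_pSubgroup G
  haveI : Fact p.Prime := ⟨hp⟩
  have hG' : ∀ x ∈ commutator G, ∀ y ∈ commutator G, x * y = y * x := fun x hx y hy =>
    Cfsg.Agent.SolvableStructure.Ito.commute_of_mem_commutator A B hAB hx hy
  set P := pCore p G with hPdef
  have hP : P.Normal := Cfsg.Agent.Lib.Cores.pCore_normal p
  have hPp : IsPGroup p P := Cfsg.Agent.Lib.Cores.pCore_isPGroup p
  have hPne : P ≠ ⊥ := by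
    intro h
    apply hNne
    rw [eq_bot_iff, ← h]
    exact Cfsg.Agent.Lib.Cores.le_pCore hN hNp
  -- V = Z(P)
  set V : Subgroup G := P ⊓ centralizer (P : Set G) with hVdef
  have hVnormal : V.Normal := by
    haveI := hP
    exact inferInstanceAs (P ⊓ centralizer (P : Set G)).Normal
  have hVne : V ≠ ⊥ := by
    intro h
    haveI : Nontrivial P := (nontrivial_iff_ne_bot P).2 hPne
    have hnt : Nontrivial (center P) := hPp.center_nontrivial
    obtain ⟨⟨⟨z, hzP⟩, hz⟩, hz1⟩ := exists_ne (1 : center P)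
    apply hz1
    have hzV : z ∈ V := by
      refine mem_inf.2 ⟨hzP, ?_⟩
      rw [mem_centralizer_iff]
      intro y hy
      exact congrArg Subtype.val (mem_center_iff.1 hz ⟨y, hy⟩)
    rw [h, mem_bot] at hzV
    exact Subtype.ext (Subtype.ext hzV)
  have hcv : ∀ x ∈ commutator G, ∀ v ∈ V, Commute x v := fun x hx v hv =>
    commute_of_mem_commutator_of_center hp hG' hx (mem_inf.1 hv).1 (mem_inf.1 hv).2
  -- factorization of V
  have hVfac : ∀ v ∈ V, ∃ a ∈ A, ∃ b ∈ B, a ∈ V ∧ b ∈ V ∧ v = a * b := by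
    intro v hv
    obtain ⟨hvP, hvC⟩ := mem_inf.1 hv
    obtain ⟨a, ha, b, hb, haP, hbP, hvab⟩ := factorize_pCore hp A B hAB hinf hvP
    have haV : a ∈ V := by
      refine mem_inf.2 ⟨haP, ?_⟩
      rw [mem_centralizer_iff]
      intro y hy
      obtain ⟨a', ha', b', hb', -, hb'P, rfl⟩ := factorize_pCore hp A B hAB hinf hy
      have c1 : Commute a a' := setLike_mul_comm ha ha'
      have c2 : Commute a b' := by
        have : a = v * b⁻¹ := by rw [hvab]; group
        rw [this]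
        have d1 : Commute v b' := (mem_centralizer_iff.1 hvC b' hb'P).symm
        have d2 : Commute b⁻¹ b' := setLike_mul_comm (B.inv_mem hb) hb'
        exact d1.mul_left d2
      exact (c1.mul_right c2).eq.symm
    refine ⟨a, ha, b, hb, haV, ?_, hvab⟩
    have : b = a⁻¹ * v := by rw [hvab]; group
    rw [this]
    exact mul_mem (inv_mem haV) hv
  -- C_V(A) is trivial
  have hA : ∀ a ∈ A, a ∈ V → a = 1 := by
    have hn := centralizer_normal_of_commutator A V hVnormal hcv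
    have hle : V ⊓ centralizer (A : Set G) ≤ A := by
      intro c hc
      obtain ⟨hcV, hcA⟩ := mem_inf.1 hc
      obtain ⟨a, ha, b, hb, -, -, hcab⟩ := hVfac c hcV
      have hbcen : b ∈ center G := by
        refine mem_center_of_comm A B hAB (fun x hx => ?_) (fun y hy => setLike_mul_comm hb hy)
        have : b = a⁻¹ * c := by rw [hcab]; group
        rw [this]
        have d1 : Commute a⁻¹ x := setLike_mul_comm (A.inv_mem ha) hx
        have d2 : Commute c x := (mem_centralizer_iff.1 hcA x hx).symm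
        exact d1.mul_left d2
      rw [hcen, mem_bot] at hbcen
      rw [hcab, hbcen, mul_one]; exact ha
    have hbot := hno' _ hn (Or.inl hle)
    intro a ha haV
    have : a ∈ V ⊓ centralizer (A : Set G) := by
      refine mem_inf.2 ⟨haV, ?_⟩
      rw [mem_centralizer_iff]
      intro x hx
      exact setLike_mul_comm hx ha
    rw [hbot, mem_bot] at this
    exact this
  have hB : ∀ b ∈ B, b ∈ V → b = 1 := by
    have hn := centralizer_normal_of_commutator B V hVnormal hcv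
    have hle : V ⊓ centralizer (B : Set G) ≤ B := by
      intro c hc
      obtain ⟨hcV, hcB⟩ := mem_inf.1 hc
      obtain ⟨a, ha, b, hb, -, -, hcab⟩ := hVfac c hcV
      have hacen : a ∈ center G := by
        refine mem_center_of_comm A B hAB (fun y hy => setLike_mul_comm ha hy) (fun x hx => ?_)
        have : a = c * b⁻¹ := by rw [hcab]; group
        rw [this]
        have d1 : Commute b⁻¹ x := setLike_mul_comm (B.inv_mem hb) hx
        have d2 : Commute c x := (mem_centralizer_iff.1 hcB x hx).symm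
        exact d2.mul_left d1
      rw [hcen, mem_bot] at hacen
      rw [hcab, hacen, one_mul]; exact hb
    have hbot := hno' _ hn (Or.inr hle)
    intro b hb hbV
    have : b ∈ V ⊓ centralizer (B : Set G) := by
      refine mem_inf.2 ⟨hbV, ?_⟩
      rw [mem_centralizer_iff]
      intro x hx
      exact setLike_mul_comm hx hb
    rw [hbot, mem_bot] at this
    exact this
  apply hVne
  rw [eq_bot_iff]
  intro v hv
  obtain ⟨a, ha, b, hb, haV, hbV, rfl⟩ := hVfac v hv
  rw [hA a ha haV, hB b hb hbV, one_mul]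
  exact mem_bot.2 rfl

end Cfsg.Agent.S0573
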