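import Cfsg.Statements.S0574
import Mathlib
import Cfsg.Agent.S0564
import Cfsg.Agent.S0572
set_option linter.all false

set_option autoImplicit false
open Cfsg
open scoped commutatorElement

namespace Cfsg.Agent.S0574

universe u

/-- Itô's theorem for a subgroup `K = A·B` of `G`. -/
theorem derived_derived_eq_bot {G : Type*} [Group G] (A B K : Subgroup G)
    (hA : ∀ x ∈ A, ∀ y ∈ A, x * y = y * x) (hB : ∀ x ∈ B, ∀ y ∈ B, x * y = y * x)
    (hAK : A ≤ K) (hBK : B ≤ K) (hK : ∀ k ∈ K, ∃ a ∈ A, ∃ b ∈ B, k = a * b) :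
    ⁅⁅K, K⁆, ⁅K, K⁆⁆ = ⊥ := by
  have : IsMulCommutative (A.subgroupOf K) := by
    refine ⟨⟨fun x y => ?_⟩⟩
    exact Subtype.ext (Subtype.ext (hA _ x.2 _ y.2))
  have : IsMulCommutative (B.subgroupOf K) := by
    refine ⟨⟨fun x y => ?_⟩⟩
    exact Subtype.ext (Subtype.ext (hB _ x.2 _ y.2))
  have h := Cfsg.Agent.S0572.result (G := ↥K) (A.subgroupOf K) (B.subgroupOf K) (by
    rintro ⟨k, hk⟩
    obtain ⟨a, ha, b, hb, rfl⟩ := hK k hk
    exact ⟨⟨a, hAK ha⟩, ha, ⟨b, hBK hb⟩, hb, rfl⟩)
  have h2 : (derivedSeries ↥K 2).map K.subtype = ⁅⁅K, K⁆, ⁅K, K⁆⁆ := by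
    have ht : (⊤ : Subgroup ↥K).map K.subtype = K := by
      rw [← MonoidHom.range_eq_map, Subgroup.range_subtype]
    simp only [derivedSeries_succ, derivedSeries_zero, Subgroup.map_commutator, ht]
  rw [← h2, h, Subgroup.map_bot]

/-- A normal subgroup minimal subject to meeting `[B,B]` nontrivially is metabelian. -/
theorem metabelian_of_minimal {G : Type*} [Group G] [Group.IsSolvable G] (A B : Subgroup G)
    (hA : ∀ x ∈ A, ∀ y ∈ A, x * y = y * x)
    (hB : ∀ x ∈ ⁅B, B⁆, ∀ y ∈ B, x * y = y * x)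
    (hAB : ∀ g : G, ∃ a ∈ A, ∃ b ∈ B, g = a * b)
    (N : Subgroup G) [hNn : N.Normal] (hN : N ⊓ ⁅B, B⁆ ≠ ⊥)
    (hmin : ∀ M : Subgroup G, M.Normal → M ≤ N → M ⊓ ⁅B, B⁆ ≠ ⊥ → M = N) :
    ⁅⁅N, N⁆, ⁅N, N⁆⁆ = ⊥ := by
  have hNbot : N ≠ ⊥ := by
    rintro rfl
    exact hN (bot_inf_eq _)
  have hlt : ⁅N, N⁆ < N := Group.IsSolvable.commutator_lt_of_ne_bot hNbot
  -- the intersection of `[N,N]` with `[B,B]` is trivial
  have hNB : ∀ z ∈ ⁅N, N⁆, z ∈ ⁅B, B⁆ → z = 1 := by
    intro z hz hz'
    by_contra hz1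
    refine hlt.ne (hmin ⁅N, N⁆ inferInstance hlt.le ?_)
    intro h
    have : z ∈ ⁅N, N⁆ ⊓ ⁅B, B⁆ := ⟨hz, hz'⟩
    rw [h] at this
    exact hz1 (Subgroup.mem_bot.mp this)
  set K := A ⊔ N with hK
  set B₂ := B ⊓ K with hB₂
  have hcomm : ∀ x ∈ B₂, ∀ y ∈ B₂, x * y = y * x := by
    intro x hx y hy
    rw [← commutatorElement_eq_one_iff_mul_comm]
    set z := ⁅x, y⁆ with hz
    have hzB : z ∈ ⁅B, B⁆ := Subgroup.commutator_mem_commutator hx.1 hy.1
    by_contra hz1
    obtain ⟨a, ha, n, hn, hx2⟩ := Subgroup.mem_sup_of_normal_right.mp hx.2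
    obtain ⟨a', ha', n', hn', hy2⟩ := Subgroup.mem_sup_of_normal_right.mp hy.2
    have hzN : z ∈ N := by
      rw [← QuotientGroup.eq_one_iff, ← QuotientGroup.mk'_apply (N := N), hz, map_commutatorElement,
        commutatorElement_eq_one_iff_mul_comm, ← hx2, ← hy2]
      have e1 : QuotientGroup.mk' N n = 1 := (QuotientGroup.eq_one_iff n).mpr hn
      have e2 : QuotientGroup.mk' N n' = 1 := (QuotientGroup.eq_one_iff n').mpr hn'
      rw [map_mul, map_mul, e1, e2, mul_one, mul_one, ← map_mul, ← map_mul, hA a ha a' ha']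
    -- `N` is generated by the conjugates of `z` under `A`
    have hcl : Subgroup.normalClosure {z} = N := by
      apply hmin _ inferInstance
      · exact Subgroup.normalClosure_le_normal (Set.singleton_subset_iff.mpr hzN)
      · intro h
        have : z ∈ Subgroup.normalClosure {z} ⊓ ⁅B, B⁆ :=
          ⟨Subgroup.subset_normalClosure rfl, hzB⟩
        rw [h] at this
        exact hz1 (Subgroup.mem_bot.mp this)
    set π := QuotientGroup.mk' ⁅N, N⁆ with hπ
    have hπN : ∀ u ∈ N, ∀ v ∈ N, π u * π v = π v * π u := by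
      intro u hu v hv
      rw [← commutatorElement_eq_one_iff_mul_comm, ← map_commutatorElement]
      exact (QuotientGroup.eq_one_iff _).mpr (Subgroup.commutator_mem_commutator hu hv)
    -- elements of `A` commuting with `z` modulo `[N,N]` commute with `N` modulo `[N,N]`
    have hcent : ∀ c ∈ A, π c * π z = π z * π c → ∀ u ∈ N, π c * π u = π u * π c := by
      intro c hc hcz u hu
      rw [← hcl, Subgroup.normalClosure] at hu
      induction hu using Subgroup.closure_induction with
      | mem w hw =>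
        obtain ⟨z', hz', hw⟩ := Group.mem_conjugatesOfSet_iff.mp hw
        rw [Set.mem_singleton_iff.mp hz'] at hw
        obtain ⟨g, hg⟩ := isConj_iff.mp hw
        obtain ⟨d, hd, b, hb, rfl⟩ := hAB g
        have hw' : w = d * z * d⁻¹ := by
          rw [← hg]
          have : b * z = z * b := (hB z hzB b hb).symm
          calc d * b * z * (d * b)⁻¹ = d * (b * z) * b⁻¹ * d⁻¹ := by group
            _ = d * (z * b) * b⁻¹ * d⁻¹ := by rw [this]
            _ = d * z * d⁻¹ := by group
        have hcd : π c * π d = π d * π c := by rw [← map_mul, ← map_mul, hA c hc d hd]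
        have hcd' : π c * (π d)⁻¹ = (π d)⁻¹ * π c := by
          rw [← map_inv, ← map_mul, ← map_mul, hA c hc d⁻¹ (A.inv_mem hd)]
        rw [hw', map_mul, map_mul, map_inv]
        calc π c * (π d * π z * (π d)⁻¹) = (π c * π d) * π z * (π d)⁻¹ := by group
          _ = π d * (π c * π z) * (π d)⁻¹ := by rw [hcd]; group
          _ = π d * π z * (π c * (π d)⁻¹) := by rw [hcz]; group
          _ = π d * π z * (π d)⁻¹ * π c := by rw [hcd']; group
      | one => simp
      | mul v w _ _ hv hw => rw [map_mul, ← mul_assoc, hv, mul_assoc, hw, mul_assoc]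
      | inv v _ hv =>
        rw [map_inv]
        calc π c * (π v)⁻¹ = (π v)⁻¹ * (π v * π c) * (π v)⁻¹ := by group
          _ = (π v)⁻¹ * (π c * π v) * (π v)⁻¹ := by rw [hv]
          _ = (π v)⁻¹ * π c := by group
    -- `a` and `a'` commute with `z` modulo `[N,N]`
    have haz : π a * π z = π z * π a := by
      have h1 : π x * π z = π z * π x := by rw [← map_mul, ← map_mul, hB z hzB x hx.1]
      rw [← hx2, map_mul] at h1
      have h2 : π n * π z = π z * π n := hπN n hn z hzN
      have h3 : (π a * π z) * π n = (π z * π a) * π n := by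
        rw [mul_assoc, ← h2, ← mul_assoc, h1, mul_assoc]
      exact mul_right_cancel h3
    have haz' : π a' * π z = π z * π a' := by
      have h1 : π y * π z = π z * π y := by rw [← map_mul, ← map_mul, hB z hzB y hy.1]
      rw [← hy2, map_mul] at h1
      have h2 : π n' * π z = π z * π n' := hπN n' hn' z hzN
      have h3 : (π a' * π z) * π n' = (π z * π a') * π n' := by
        rw [mul_assoc, ← h2, ← mul_assoc, h1, mul_assoc]
      exact mul_right_cancel h3
    have hzNN : z ∈ ⁅N, N⁆ := by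
      rw [← QuotientGroup.eq_one_iff, ← QuotientGroup.mk'_apply (N := ⁅N, N⁆), ← hπ, hz,
        map_commutatorElement, commutatorElement_eq_one_iff_mul_comm, ← hx2, ← hy2, map_mul,
        map_mul]
      have c1 : π a * π a' = π a' * π a := by rw [← map_mul, ← map_mul, hA a ha a' ha']
      have c2 : π a * π n' = π n' * π a := hcent a ha haz n' hn'
      have c3 : π a' * π n = π n * π a' := hcent a' ha' haz' n hn
      have c4 : π n * π n' = π n' * π n := hπN n hn n' hn'
      calc π a * π n * (π a' * π n') = π a * (π n * π a') * π n' := by group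
        _ = π a * (π a' * π n) * π n' := by rw [c3]
        _ = (π a * π a') * (π n * π n') := by group
        _ = (π a' * π a) * (π n' * π n) := by rw [c1, c4]
        _ = π a' * (π a * π n') * π n := by group
        _ = π a' * (π n' * π a) * π n := by rw [c2]
        _ = π a' * π n' * (π a * π n) := by group
    exact hz1 (hNB z hzNN hzB)
  have hKK : ⁅⁅K, K⁆, ⁅K, K⁆⁆ = ⊥ := by
    apply derived_derived_eq_bot A B₂ K hA hcomm le_sup_left inf_le_right
    intro k hk
    obtain ⟨a, ha, b, hb, rfl⟩ := hAB k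
    refine ⟨a, ha, b, ⟨hb, ?_⟩, rfl⟩
    have := K.mul_mem (K.inv_mem ((le_sup_left : A ≤ K) ha)) hk
    rwa [inv_mul_cancel_left] at this
  rw [eq_bot_iff, ← hKK]
  have hNK : N ≤ K := le_sup_right
  exact Subgroup.commutator_mono (Subgroup.commutator_mono hNK hNK)
    (Subgroup.commutator_mono hNK hNK)

theorem main (n : ℕ) : ∀ {G : Type u} [Group G] [Finite G] [Group.IsSolvable G]
    (A B : Subgroup G) (_ : ∀ x ∈ A, ∀ y ∈ A, x * y = y * x)
    (_ : ∀ x ∈ ⁅B, B⁆, ∀ y ∈ B, x * y = y * x)
    (_ : ∀ g : G, ∃ a ∈ A, ∃ b ∈ B, g = a * b)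
    (_ : (Nat.card ↥⁅B, B⁆).primeFactorsList.length ≤ n),
    derivedSeries G (2 * (1 + n)) = ⊥ := by
  induction n with
  | zero =>
    intro G _ _ _ A B hA hB hAB hn
    have hcard : Nat.card ↥⁅B, B⁆ = 1 := by
      have h0 : Nat.card ↥⁅B, B⁆ ≠ 0 := Nat.card_pos.ne'
      have h1 := List.length_eq_zero_iff.mp (Nat.le_zero.mp hn)
      rcases (Nat.primeFactorsList_eq_nil _).mp h1 with h | h
      · exact absurd h h0
      · exact h
    have hbot : ⁅B, B⁆ = ⊥ := Subgroup.card_eq_one.mp hcard
    have hBc : ∀ x ∈ B, ∀ y ∈ B, x * y = y * x := by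
      intro x hx y hy
      rw [← commutatorElement_eq_one_iff_mul_comm, ← Subgroup.mem_bot, ← hbot]
      exact Subgroup.commutator_mem_commutator hx hy
    have := derived_derived_eq_bot A B ⊤ hA hBc le_top le_top (fun k _ => hAB k)
    exact this
  | succ n ih =>
    intro G _ _ _ A B hA hB hAB hn
    by_cases hbot : ⁅B, B⁆ = ⊥
    · have hBc : ∀ x ∈ B, ∀ y ∈ B, x * y = y * x := by
        intro x hx y hy
        rw [← commutatorElement_eq_one_iff_mul_comm, ← Subgroup.mem_bot, ← hbot]
        exact Subgroup.commutator_mem_commutator hx hy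
      have := derived_derived_eq_bot A B ⊤ hA hBc le_top le_top (fun k _ => hAB k)
      have h2 : derivedSeries G 2 = ⊥ := this
      rw [eq_bot_iff, ← h2]
      exact derivedSeries_antitone G (by omega)
    · -- choose `N` minimal
      obtain ⟨N, ⟨hNn, hN⟩, hmin⟩ : ∃ N : Subgroup G, (N.Normal ∧ N ⊓ ⁅B, B⁆ ≠ ⊥) ∧
          ∀ M : Subgroup G, M.Normal ∧ M ⊓ ⁅B, B⁆ ≠ ⊥ → M ≤ N → M = N := by
        have hfin : {N : Subgroup G | N.Normal ∧ N ⊓ ⁅B, B⁆ ≠ ⊥}.Finite := Set.toFinite _
        have hne : {N : Subgroup G | N.Normal ∧ N ⊓ ⁅B, B⁆ ≠ ⊥}.Nonempty :=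
          ⟨⊤, inferInstance, by rwa [top_inf_eq]⟩
        obtain ⟨N, hNmin⟩ := hfin.exists_minimal hne
        exact ⟨N, hNmin.prop, fun M hM hle => le_antisymm hle (hNmin.le_of_le hM hle)⟩
      have hmet : ⁅⁅N, N⁆, ⁅N, N⁆⁆ = ⊥ :=
        metabelian_of_minimal A B hA hB hAB N hN (fun M h1 h2 h3 => hmin M ⟨h1, h3⟩ h2)
      -- the quotient
      set π := QuotientGroup.mk' N with hπ
      have hBq : ⁅B.map π, B.map π⁆ = ⁅B, B⁆.map π := (Subgroup.map_commutator B B π).symm
      have hcardq : (Nat.card ↥⁅B.map π, B.map π⁆).primeFactorsList.length ≤ n := by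
        rw [hBq]
        have hmul : Nat.card ↥(N ⊓ ⁅B, B⁆) * Nat.card ↥(⁅B, B⁆.map π) = Nat.card ↥⁅B, B⁆ := by
          rw [← Subgroup.relIndex_ker, hπ, QuotientGroup.ker_mk', ← Subgroup.inf_relIndex_right,
            ← Subgroup.relIndex_bot_left, ← Subgroup.relIndex_bot_left,
            Subgroup.relIndex_mul_relIndex _ _ _ bot_le inf_le_right]
        have h2 : 1 ≤ (Nat.card ↥(N ⊓ ⁅B, B⁆)).primeFactorsList.length := by
          rw [Nat.one_le_iff_ne_zero, ← ArithmeticFunction.cardFactors_apply]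
          intro h
          rcases ArithmeticFunction.cardFactors_eq_zero_iff_eq_zero_or_one.mp h with h | h
          · exact Nat.card_pos.ne' h
          · exact hN (Subgroup.card_eq_one.mp h)
        have h3 : (Nat.card ↥⁅B, B⁆).primeFactorsList.length =
            (Nat.card ↥(N ⊓ ⁅B, B⁆)).primeFactorsList.length +
            (Nat.card ↥(⁅B, B⁆.map π)).primeFactorsList.length := by
          rw [← hmul, ← ArithmeticFunction.cardFactors_apply,
            ArithmeticFunction.cardFactors_mul Nat.card_pos.ne' Nat.card_pos.ne',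
            ArithmeticFunction.cardFactors_apply, ArithmeticFunction.cardFactors_apply]
        omega
      have hq := ih (G := G ⧸ N) (A.map π) (B.map π)
        (by
          rintro _ ⟨x, hx, rfl⟩ _ ⟨y, hy, rfl⟩
          rw [← map_mul, ← map_mul, hA x hx y hy])
        (by
          rw [hBq]
          rintro _ ⟨x, hx, rfl⟩ _ ⟨y, hy, rfl⟩
          rw [← map_mul, ← map_mul, hB x hx y hy])
        (by
          intro g
          obtain ⟨g, rfl⟩ := QuotientGroup.mk'_surjective N g
          obtain ⟨a, ha, b, hb, rfl⟩ := hAB g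
          exact ⟨π a, ⟨a, ha, rfl⟩, π b, ⟨b, hb, rfl⟩, map_mul _ _ _⟩)
        hcardq
      have hle : derivedSeries G (2 * (1 + n)) ≤ N := by
        have h := map_derivedSeries_le_derivedSeries π (2 * (1 + n))
        rw [hq, le_bot_iff, Subgroup.map_eq_bot_iff, hπ, QuotientGroup.ker_mk'] at h
        exact h
      have : 2 * (1 + (n + 1)) = (2 * (1 + n)) + 1 + 1 := by ring
      rw [this, derivedSeries_succ, derivedSeries_succ, eq_bot_iff, ← hmet]
      exact Subgroup.commutator_mono (Subgroup.commutator_mono hle hle)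
        (Subgroup.commutator_mono hle hle)

/-- Let the finite group G be the product AB of an abelian subgroup A and a subgroup B of nilpotency class at most two, and let Ω be the number of prime factors, with multiplicity, of the order of the commutator subgroup of B. Then the term of index 2(1 + Ω) of the derived series of G is trivial. -/
theorem result {G : Type*} [Group G] [Finite G] (A B : Subgroup G) [IsMulCommutative A] (hB : commutator ↥B ≤ Subgroup.center ↥B) (hAB : ∀ g : G, ∃ a ∈ A, ∃ b ∈ B, g = a * b) : derivedSeries G (2 * (1 + (Nat.card ↥(commutator ↥B)).primeFactorsList.length)) = ⊥ := by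
  have hA' : ∀ x ∈ A, ∀ y ∈ A, x * y = y * x := fun x hx y hy => setLike_mul_comm hx hy
  have hmap : (commutator ↥B).map B.subtype = ⁅B, B⁆ := by
    rw [commutator_def, Subgroup.map_commutator, ← MonoidHom.range_eq_map, Subgroup.range_subtype]
  have hcard : Nat.card ↥(commutator ↥B) = Nat.card ↥⁅B, B⁆ := by
    rw [← hmap]
    exact Nat.card_congr
      ((commutator ↥B).equivMapOfInjective B.subtype B.subtype_injective).toEquiv
  have hB' : ∀ x ∈ ⁅B, B⁆, ∀ y ∈ B, x * y = y * x := by
    rw [← hmap]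
    rintro _ ⟨x, hx, rfl⟩ y hy
    exact congrArg Subtype.val ((Subgroup.mem_center_iff.mp (hB hx) ⟨y, hy⟩).symm)
  have hAnil : Group.IsNilpotent ↥A := by
    refine (Subgroup.isNilpotent_iff_lowerCentralSeries A).mpr ⟨1, ?_⟩
    rw [Subgroup.lowerCentralSeries_succ, Subgroup.lowerCentralSeries_zero,
      Subgroup.commutator_eq_bot_iff_le_centralizer]
    intro x hx
    rw [Subgroup.mem_centralizer_iff]
    exact fun y hy => hA' y hy x hx
  have hBnil : Group.IsNilpotent ↥B := by
    refine (Subgroup.isNilpotent_iff_lowerCentralSeries B).mpr ⟨2, ?_⟩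
    rw [Subgroup.lowerCentralSeries_succ, Subgroup.lowerCentralSeries_succ,
      Subgroup.lowerCentralSeries_zero, Subgroup.commutator_eq_bot_iff_le_centralizer]
    intro x hx
    rw [Subgroup.mem_centralizer_iff]
    exact fun y hy => (hB' x hx y hy).symm
  have : Group.IsSolvable G := Cfsg.Agent.S0564.result A B hAnil hBnil hAB
  rw [hcard]
  exact main _ A B hA' hB' hAB le_rfl

end Cfsg.Agent.S0574
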