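import Cfsg.Statements.S0576
set_option linter.all false

set_option autoImplicit false
open Cfsg

namespace Cfsg.Agent.S0576

/-- Let H be a normal subgroup of a finite group G with H contained in the Frattini subgroup of G. Then the group of inner automorphisms of H is contained in the Frattini subgroup of the automorphism group of H. -/
theorem result {G : Type*} [Group G] [Finite G] (H : Subgroup G) [H.Normal] (hH : H ≤ frattini G) : (MulAut.conj : ↥H →* MulAut ↥H).range ≤ frattini (MulAut ↥H) := by
  have hNn : ((MulAut.conj : ↥H →* MulAut ↥H).range).Normal := by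
    refine ⟨?_⟩
    rintro _ ⟨h, rfl⟩ α
    refine ⟨α h, ?_⟩
    ext x
    simp [MulAut.mul_apply]
  refine le_iInf₂ fun M hM => ?_
  by_contra hNM
  have hsup : M ⊔ (MulAut.conj : ↥H →* MulAut ↥H).range = ⊤ := by
    refine hM.2 _ (lt_of_le_of_ne le_sup_left ?_)
    intro h
    exact hNM (h ▸ le_sup_right)
  have htop : M.comap (MulAut.conjNormal : G →* MulAut ↥H) ⊔ frattini G = ⊤ := by
    refine top_le_iff.mp fun g _ => ?_
    have hg : (MulAut.conjNormal g : MulAut ↥H) ∈ M ⊔ (MulAut.conj : ↥H →* MulAut ↥H).range := by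
      rw [hsup]; exact Subgroup.mem_top _
    obtain ⟨m, hm, n, ⟨h, rfl⟩, hmn⟩ := Subgroup.mem_sup_of_normal_right.mp hg
    have hmem : g * (h : G)⁻¹ ∈ M.comap (MulAut.conjNormal : G →* MulAut ↥H) := by
      rw [Subgroup.mem_comap, map_mul, map_inv, MulAut.conjNormal_val, ← hmn]
      simpa using hm
    have : g = (g * (h : G)⁻¹) * (h : G) := by group
    rw [this]
    exact Subgroup.mul_mem_sup hmem (hH h.2)
  have h1 := frattini_nongenerating htop
  apply hNM
  rintro _ ⟨h, rfl⟩
  have h2 : (h : G) ∈ M.comap (MulAut.conjNormal : G →* MulAut ↥H) := by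
    rw [h1]; exact Subgroup.mem_top _
  rw [Subgroup.mem_comap, MulAut.conjNormal_val] at h2
  exact h2

end Cfsg.Agent.S0576
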