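import Cfsg.Statements.S0578
import Mathlib
set_option linter.all false
-- import your own Cfsg.Agent.* helpers here

set_option autoImplicit false
open Cfsg

namespace Cfsg.Agent.S0578

universe u

/-- If `M` is central and `M`, together with a commutative subgroup `P`, generates `G`, then `G` is
commutative. -/
theorem isMulCommutative_of_sup {G : Type u} [Group G] (M P : Subgroup G)
    (hM : M ≤ Subgroup.center G) (hP : IsMulCommutative P) (h : M ⊔ P = ⊤) :
    IsMulCommutative G := by
  have hMn : M.Normal := by
    refine ⟨fun x hx g => ?_⟩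
    rw [Subgroup.mem_center_iff.1 (hM hx) g, mul_inv_cancel_right]
    exact hx
  refine ⟨⟨fun a b => ?_⟩⟩
  have ha : a ∈ M ⊔ P := by rw [h]; trivial
  have hb : b ∈ M ⊔ P := by rw [h]; trivial
  rw [Subgroup.mem_sup_of_normal_left] at ha hb
  obtain ⟨m, hm, x, hx, rfl⟩ := ha
  obtain ⟨n, hn, y, hy, rfl⟩ := hb
  have h1 : x * y = y * x := by
    have := hP.is_comm.comm ⟨x, hx⟩ ⟨y, hy⟩
    exact congrArg Subtype.val this
  have hm' := Subgroup.mem_center_iff.1 (hM hm)
  have hn' := Subgroup.mem_center_iff.1 (hM hn)
  calc m * x * (n * y) = m * (x * n) * y := by group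
    _ = m * (n * x) * y := by rw [hn' x]
    _ = (m * n) * (x * y) := by group
    _ = (n * m) * (y * x) := by rw [h1, hn' m]
    _ = n * (m * y) * x := by group
    _ = n * (y * m) * x := by rw [← hm' y]
    _ = n * y * (m * x) := by group

theorem aux (n : ℕ) : ∀ (G : Type u) [Group G] [Finite G], Nat.card G = n →
    (∀ A : Subgroup G, IsMulCommutative A →
      Subgroup.normalizer (A : Set G) = Subgroup.centralizer (A : Set G)) →
    IsMulCommutative G := by
  induction n using Nat.strong_induction_on with
  | _ n ih =>
  intro G _ _ hn h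
  -- all proper subgroups are commutative
  have hprop : ∀ H : Subgroup G, H ≠ ⊤ → IsMulCommutative H := by
    intro H hH
    have hlt : Nat.card H < n := by
      rw [← hn]
      exact lt_of_le_of_ne (Subgroup.card_le_card_group H)
        (fun he => hH (Subgroup.eq_top_of_card_eq H he))
    refine ih _ hlt H rfl fun A hA => ?_
    apply le_antisymm
    · intro x hx
      have hA' : IsMulCommutative (A.map H.subtype) := by
        refine ⟨⟨?_⟩⟩
        rintro ⟨a, ha⟩ ⟨b, hb⟩
        obtain ⟨a', ha', rfl⟩ := ha
        obtain ⟨b', hb', rfl⟩ := hb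
        have := congrArg Subtype.val (hA.is_comm.comm ⟨a', ha'⟩ ⟨b', hb'⟩)
        exact Subtype.ext (congrArg (fun z : H => (z : G)) this)
      have hx' : (x : G) ∈ Subgroup.normalizer ((A.map H.subtype : Subgroup G) : Set G) := by
        rw [Subgroup.mem_normalizer_iff]
        intro g
        rw [Subgroup.mem_normalizer_iff] at hx
        constructor
        · rintro ⟨a, ha, rfl⟩
          exact ⟨x * a * x⁻¹, (hx a).1 ha, by simp⟩
        · rintro ⟨a, ha, hag⟩
          have hg : g = (x : G)⁻¹ * a * x := by
            have : (a : G) = x * g * (x : G)⁻¹ := hag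
            rw [this]; group
          refine ⟨x⁻¹ * a * x, ?_, by rw [hg]; simp⟩
          apply (hx _).2
          have : x * (x⁻¹ * a * x) * x⁻¹ = a := by group
          rw [this]; exact ha
      rw [h _ hA', Subgroup.mem_centralizer_iff] at hx'
      rw [Subgroup.mem_centralizer_iff]
      intro a ha
      have := hx' (a : G) ⟨a, ha, rfl⟩
      exact Subtype.ext this
    · exact Subgroup.centralizer_le_normalizer _
  -- proper normal subgroups are central
  have hcen : ∀ M : Subgroup G, M.Normal → M ≠ ⊤ → M ≤ Subgroup.center G := by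
    intro M hMn hM
    have h1 := h M (hprop M hM)
    rw [Subgroup.normalizer_eq_top_iff.2 hMn] at h1
    exact Subgroup.centralizer_eq_top_iff_subset.1 h1.symm
  by_cases htriv : Nat.card G = 1
  · have : Subsingleton G := (Nat.card_eq_one_iff_unique.1 htriv).1
    exact ⟨⟨fun a b => Subsingleton.elim _ _⟩⟩
  obtain ⟨p, hp, hpd⟩ := Nat.exists_prime_and_dvd htriv
  have : Fact p.Prime := ⟨hp⟩
  obtain ⟨P⟩ : Nonempty (Sylow p G) := inferInstance
  by_cases hPt : (P : Subgroup G) = ⊤
  · -- `G` is a `p`-group
    have hG : IsPGroup p G := by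
      have := P.2
      rw [hPt] at this
      exact this.of_equiv Subgroup.topEquiv
    have hnil : Group.IsNilpotent G := hG.isNilpotent
    have : Nontrivial G := by
      rw [← Finite.one_lt_card_iff_nontrivial]
      have := Nat.card_pos (α := G)
      omega
    obtain ⟨M, hM⟩ : ∃ M : Subgroup G, IsCoatom M := by
      obtain ⟨M, hM, -⟩ := (eq_top_or_exists_le_coatom (⊥ : Subgroup G)).resolve_left bot_ne_top
      exact ⟨M, hM⟩
    have hMn : M.Normal :=
      Subgroup.NormalizerCondition.normal_of_coatom M Group.normalizerCondition_of_isNilpotent hM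
    obtain ⟨x, hx⟩ : ∃ x, x ∉ M := by
      by_contra hc
      push Not at hc
      exact hM.1 (eq_top_iff.2 fun x _ => hc x)
    refine isMulCommutative_of_sup M (Subgroup.zpowers x) (hcen M hMn hM.1) inferInstance ?_
    apply hM.2
    refine lt_of_le_of_ne le_sup_left fun hc => hx ?_
    rw [hc]
    exact (le_sup_right : Subgroup.zpowers x ≤ _) (Subgroup.mem_zpowers x)
  · have hPc := hprop P hPt
    have hN : Subgroup.normalizer ((P : Subgroup G) : Set G) ≤
        Subgroup.centralizer ((P : Subgroup G) : Set G) := (h P hPc).le
    have hcompl := MonoidHom.ker_transferSylow_isComplement' P hN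
    set K := (MonoidHom.transferSylow P hN).ker with hK
    have hKt : K ≠ ⊤ := by
      intro hc
      have h1 := MonoidHom.not_dvd_card_ker_transferSylow P hN
      rw [← hK, hc, Subgroup.card_top] at h1
      exact h1 hpd
    exact isMulCommutative_of_sup K P (hcen K inferInstance hKt) hPc hcompl.sup_eq_top

/-- If in a finite group the normalizer of each abelian subgroup coincides with its centralizer, then the group is abelian. -/
theorem result {G : Type*} [Group G] [Finite G] (h : ∀ A : Subgroup G, IsMulCommutative A → Subgroup.normalizer (A : Set G) = Subgroup.centralizer (A : Set G)) : IsMulCommutative G := by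
  exact aux _ G rfl h

end Cfsg.Agent.S0578
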