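-- Statement S0582: supersolvable Hall subgroups of the same order are conjugate.
import Cfsg.Statements.S0582
import Mathlib
import Cfsg.Agent.S0531
import Cfsg.Agent.S0532
import Cfsg.Agent.SolvableStructure.Supersolvable
set_option linter.all false

set_option autoImplicit false
open Pointwise
open Cfsg

namespace Cfsg.Agent.S0582

universe u

/-- The Sylow subgroup of a finite supersolvable group for the largest prime divisor is normal. -/
theorem normal_sylow_of_isSupersolvable {G : Type*} [Group G] [Finite G]
    (hG : Cfsg.IsSupersolvable G) (p : ℕ) [Fact p.Prime] (hdvd : p ∣ Nat.card G)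
    (hmax : ∀ q : ℕ, q.Prime → q ∣ Nat.card G → q ≤ p) (P : Sylow p G) :
    (P : Subgroup G).Normal :=
  Cfsg.Agent.S0532.result (fun H => Cfsg.Agent.S0531.result
    (Cfsg.Agent.SolvableStructure.Supersolvable.isSupersolvable_subgroup hG H)) p hdvd hmax P

/-- A Hall subgroup `H ≤ G` whose order is divisible by `p` has a subgroup `P` which is normal in `H` and
Sylow in `G`, provided the Sylow `p`-subgroups of `H` are normal in `H`. -/
theorem exists_sylow_le_normalizer {G : Type*} [Group G] [Finite G] (H : Subgroup G) (p : ℕ)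
    [Fact p.Prime] (hdvd : p ∣ Nat.card H) (hH : (Nat.card H).Coprime H.index)
    (hn : ∀ P : Sylow p H, (P : Subgroup H).Normal) :
    ∃ P : Sylow p G, (P : Subgroup G) ≤ H ∧ H ≤ Subgroup.normalizer ((P : Subgroup G) : Set G) := by
  let P0 : Sylow p H := default
  have h1 : IsPGroup p ((P0 : Subgroup H).map H.subtype) := P0.2.map _
  have h2 : ¬ p ∣ ((P0 : Subgroup H).map H.subtype).index := by
    rw [Subgroup.index_map_subtype]
    intro h
    rcases (Fact.out : p.Prime).dvd_mul.mp h with h | h
    · exact P0.not_dvd_index h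
    · exact Nat.Prime.not_coprime_iff_dvd.mpr ⟨p, Fact.out, hdvd, h⟩ hH
  refine ⟨h1.toSylow h2, Subgroup.map_subtype_le _, ?_⟩
  have h3 : ((P0 : Subgroup H).map H.subtype).subgroupOf H = (P0 : Subgroup H) := by
    rw [Subgroup.subgroupOf, Subgroup.comap_map_eq_self_of_injective H.subtype_injective]
  refine (Subgroup.normal_subgroupOf_iff_le_normalizer (Subgroup.map_subtype_le _)).mp ?_
  rw [h3]
  exact hn P0

/-- Conjugacy lifts along a surjection whose kernel lies in both subgroups. -/
theorem conj_of_map {G K : Type*} [Group G] [Group K] (f : G →* K) (A B : Subgroup G)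
    (hA : f.ker ≤ A) (hB : f.ker ≤ B) (x : G) (h : MulAut.conj (f x) • A.map f = B.map f) :
    MulAut.conj x • A = B := by
  have hAc : (A.map f).comap f = A := by rw [Subgroup.comap_map_eq, sup_eq_left.mpr hA]
  have hBc : (B.map f).comap f = B := by rw [Subgroup.comap_map_eq, sup_eq_left.mpr hB]
  ext y
  rw [Subgroup.mem_pointwise_smul_iff_inv_smul_mem]
  conv_lhs => rw [← hAc]
  conv_rhs => rw [← hBc, Subgroup.mem_comap, ← h, Subgroup.mem_pointwise_smul_iff_inv_smul_mem]
  rw [Subgroup.mem_comap]
  simp [MulAut.smul_def]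

theorem aux (n : ℕ) : ∀ (G : Type u) [Group G] [Finite G] (H K : Subgroup G), Nat.card H = n →
    Cfsg.IsSupersolvable H → Cfsg.IsSupersolvable K → Nat.card H = Nat.card K →
    (Nat.card H).Coprime H.index → ∃ x : G, MulAut.conj x • H = K := by
  induction n using Nat.strong_induction_on with
  | _ n ih =>
  intro G _ _ H K hn hH hK hcard hHall
  by_cases h1 : Nat.card H = 1
  · refine ⟨1, ?_⟩
    rw [Subgroup.card_eq_one.mp h1, Subgroup.card_eq_one.mp (hcard.symm.trans h1)]
    simp
  · have hne : (Nat.card H).primeFactors.Nonempty := by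
      rw [Nat.nonempty_primeFactors]
      have : 0 < Nat.card H := Nat.card_pos
      omega
    obtain ⟨p, hp, hmax⟩ : ∃ p ∈ (Nat.card H).primeFactors, ∀ q ∈ (Nat.card H).primeFactors, q ≤ p :=
      Finset.exists_max_image _ id hne
    have hpp : p.Prime := Nat.prime_of_mem_primeFactors hp
    have hpd : p ∣ Nat.card H := Nat.dvd_of_mem_primeFactors hp
    have : Fact p.Prime := ⟨hpp⟩
    have hidx : H.index = K.index := by
      have e1 := H.card_mul_index
      have e2 := K.card_mul_index
      rw [← hcard, ← e1] at e2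
      exact (Nat.eq_of_mul_eq_mul_left Nat.card_pos e2).symm
    have hmax' : ∀ q : ℕ, q.Prime → q ∣ Nat.card H → q ≤ p := fun q hq hqd =>
      hmax q (Nat.mem_primeFactors.mpr ⟨hq, hqd, Nat.card_pos.ne'⟩)
    obtain ⟨P, hPH, hHP⟩ := exists_sylow_le_normalizer H p hpd hHall
      (normal_sylow_of_isSupersolvable hH p hpd hmax')
    obtain ⟨Q, hQK, hKQ⟩ := exists_sylow_le_normalizer K p (hcard ▸ hpd) (by rw [← hcard, ← hidx]; exact hHall)
      (normal_sylow_of_isSupersolvable hK p (hcard ▸ hpd) (by rw [← hcard]; exact hmax'))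
    obtain ⟨g, hg⟩ := MulAction.exists_smul_eq G P Q
    have hg' : MulAut.conj g • (P : Subgroup G) = (Q : Subgroup G) := by
      rw [← Sylow.coe_subgroup_smul, hg]
    -- replace H by its conjugate
    set H1 := MulAut.conj g • H with hH1
    have hH1s : Cfsg.IsSupersolvable H1 :=
      (Cfsg.Agent.SolvableStructure.Supersolvable.isSupersolvable_congr
        (Subgroup.equivSMul (MulAut.conj g) H)).mp hH
    have hH1c : Nat.card H1 = Nat.card H :=
      (Nat.card_congr (Subgroup.equivSMul (MulAut.conj g) H).toEquiv).symm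
    have hH1i : H1.index = H.index := by
      have e1 := H.card_mul_index
      have e2 := H1.card_mul_index
      rw [hH1c, ← e1] at e2
      exact Nat.eq_of_mul_eq_mul_left Nat.card_pos e2
    have hQH1 : (Q : Subgroup G) ≤ H1 := by
      rw [← hg', hH1, Subgroup.pointwise_smul_le_pointwise_smul_iff]
      exact hPH
    set N := Subgroup.normalizer ((Q : Subgroup G) : Set G) with hN
    have hH1N : H1 ≤ N := by
      intro z hz
      obtain ⟨h, hh, rfl⟩ := (Subgroup.mem_smul_pointwise_iff_exists _ _ _).mp hz
      have hn := hHP hh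
      rw [Subgroup.mem_normalizer_iff] at hn
      rw [hN, ← hg', Subgroup.mem_normalizer_iff]
      intro y
      rw [Subgroup.mem_pointwise_smul_iff_inv_smul_mem,
        Subgroup.mem_pointwise_smul_iff_inv_smul_mem, 
        hn ((MulAut.conj g)⁻¹ • y)]
      have : h * ((MulAut.conj g)⁻¹ • y) * h⁻¹ = (MulAut.conj g)⁻¹ •
          ((MulAut.conj g • h) * y * (MulAut.conj g • h)⁻¹) := by
        simp [MulAut.smul_def, mul_assoc]
      rw [this]
    have hQN : (Q : Subgroup G) ≤ N := Subgroup.le_normalizer
    have hQn : ((Q : Subgroup G).subgroupOf N).Normal := by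
      rw [hN]; exact Subgroup.normal_in_normalizer
    set f := QuotientGroup.mk' ((Q : Subgroup G).subgroupOf N) with hf
    have hfs : Function.Surjective f := QuotientGroup.mk'_surjective _
    have hker : f.ker = (Q : Subgroup G).subgroupOf N := QuotientGroup.ker_mk' _
    have hcardmap : ∀ A : Subgroup G, A ≤ N → (Q : Subgroup G) ≤ A →
        Nat.card Q * Nat.card ((A.subgroupOf N).map f) = Nat.card A := by
      intro A hAN hQA
      rw [← Subgroup.relIndex_ker, hker, Subgroup.relIndex_subgroupOf hAN]
      have h6 := Subgroup.relIndex_mul_relIndex ⊥ (Q : Subgroup G) A bot_le hQA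
      rwa [Subgroup.relIndex_bot_left, Subgroup.relIndex_bot_left] at h6
    have hQ1 : 1 < Nat.card Q := by
      rw [Q.card_eq_multiplicity]
      apply Nat.one_lt_pow _ hpp.one_lt
      have : p ∣ Nat.card G := hpd.trans (Subgroup.card_subgroup_dvd_card H)
      exact (Nat.Prime.factorization_pos_of_dvd hpp Nat.card_pos.ne' this).ne'
    have hc1 := hcardmap H1 hH1N hQH1
    have hc2 := hcardmap K hKQ hQK
    have hss : ∀ A : Subgroup G, A ≤ N → Cfsg.IsSupersolvable A →
        Cfsg.IsSupersolvable ((A.subgroupOf N).map f) := by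
      intro A hAN hA
      have h2 : Cfsg.IsSupersolvable (A.subgroupOf N) :=
        (Cfsg.Agent.SolvableStructure.Supersolvable.isSupersolvable_congr
          (Subgroup.subgroupOfEquivOfLe hAN)).mpr hA
      exact Cfsg.Agent.SolvableStructure.Supersolvable.isSupersolvable_of_surjective
        (f.subgroupMap (A.subgroupOf N)) (f.subgroupMap_surjective _) h2
    have hlt : Nat.card ((H1.subgroupOf N).map f) < n := by
      rw [← hn, ← hH1c, ← hc1]
      exact lt_mul_of_one_lt_left Nat.card_pos hQ1
    have hcop : (Nat.card ((H1.subgroupOf N).map f)).Coprime ((H1.subgroupOf N).map f).index := by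
      have e1 : Nat.card ((H1.subgroupOf N).map f) ∣ Nat.card H := by
        rw [← hH1c, ← hc1]; exact Dvd.intro_left _ rfl
      have e2 : ((H1.subgroupOf N).map f).index ∣ H.index := by
        rw [← hH1i, ← Subgroup.relIndex_mul_index hH1N]
        exact Dvd.dvd.mul_right (Subgroup.index_map_dvd _ hfs) _
      exact Nat.Coprime.coprime_dvd_left e1 (Nat.Coprime.coprime_dvd_right e2 hHall)
    obtain ⟨x, hx⟩ := ih _ hlt (N ⧸ ((Q : Subgroup G).subgroupOf N)) ((H1.subgroupOf N).map f)
      ((K.subgroupOf N).map f) rfl (hss H1 hH1N hH1s) (hss K hKQ hK)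
      (Nat.eq_of_mul_eq_mul_left (Nat.card_pos (α := Q)) (by rw [hc1, hc2, hH1c, hcard])) hcop
    obtain ⟨y, rfl⟩ := hfs x
    have hy := conj_of_map f (H1.subgroupOf N) (K.subgroupOf N)
      (by rw [hker]; exact Subgroup.comap_mono hQH1) (by rw [hker]; exact Subgroup.comap_mono hQK) y hx
    refine ⟨(y : G) * g, ?_⟩
    rw [map_mul, mul_smul, ← hH1]
    have h3 : (MulAut.conj (y : G) • H1).subgroupOf N = K.subgroupOf N := by
      rw [← hy]
      ext z
      rw [Subgroup.mem_subgroupOf, Subgroup.mem_pointwise_smul_iff_inv_smul_mem]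
      refine Iff.trans ?_ (Subgroup.mem_pointwise_smul_iff_inv_smul_mem (a := MulAut.conj y)
        (S := H1.subgroupOf N) (x := z)).symm
      rw [Subgroup.mem_subgroupOf]
      simp [MulAut.smul_def]
    have h4 : MulAut.conj (y : G) • H1 ≤ N := by
      intro z hz
      obtain ⟨h, hh, rfl⟩ := (Subgroup.mem_smul_pointwise_iff_exists _ _ _).mp hz
      have : MulAut.conj (y : G) • h = y * h * (y : G)⁻¹ := by
        simp [MulAut.smul_def]
      rw [this]
      exact N.mul_mem (N.mul_mem y.2 (hH1N hh)) (N.inv_mem y.2)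
    have h5 := congrArg (Subgroup.map N.subtype) h3
    rwa [Subgroup.subgroupOf_map_subtype, Subgroup.subgroupOf_map_subtype, inf_eq_left.mpr h4,
      inf_eq_left.mpr hKQ] at h5

/-- Let H and K be supersolvable subgroups of a finite group G of the same order, that order being coprime to their index. Then H and K are conjugate in G. -/
theorem result {G : Type*} [Group G] [Finite G] (H K : Subgroup G) (hH : Cfsg.IsSupersolvable H) (hK : Cfsg.IsSupersolvable K) (hcard : Nat.card H = Nat.card K) (hHall : (Nat.card H).Coprime H.index) : ∃ x : G, MulAut.conj x • H = K :=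
  aux (Nat.card H) G H K rfl hH hK hcard hHall

end Cfsg.Agent.S0582
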