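-- Statement S0584: nilpotent modulo a normal subgroup of the Frattini subgroup implies nilpotent.
import Cfsg.Statements.S0584
import Mathlib
set_option linter.all false

set_option autoImplicit false
open Cfsg

namespace Cfsg.Agent.S0584

/-- Frattini argument: if `B ≤ Φ(G)` is normal, `N ⊵ B` is normal and `N / B` is nilpotent, then `N` is
nilpotent. -/
theorem isNilpotent_of_map_mk' {G : Type*} [Group G] [Finite G] (N B : Subgroup G) [hN : N.Normal]
    [B.Normal] (hB : B ≤ frattini G) (hBN : B ≤ N)
    (h : Group.IsNilpotent (N.map (QuotientGroup.mk' B))) : Group.IsNilpotent N := by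
  have q := (Group.isNilpotent_of_finite_tfae (G := N)).out 0 3
  rw [q]
  intro p hp P
  set π := QuotientGroup.mk' B with hπ
  have hπs : Function.Surjective π := QuotientGroup.mk'_surjective _
  have : (N.map π).Normal := hN.map π hπs
  have hφ : Function.Surjective (π.subgroupMap N) := π.subgroupMap_surjective N
  have q2 := (Group.isNilpotent_of_finite_tfae (G := N.map π)).out 0 3
  have hn : (P.mapSurjective hφ : Subgroup (N.map π)).Normal := q2.mp h p hp _
  have hc : (P.mapSurjective hφ : Subgroup (N.map π)).Characteristic :=
    Sylow.characteristic_of_normal _ hn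
  have hn2 : ((P.mapSurjective hφ : Subgroup (N.map π)).map (N.map π).subtype).Normal :=
    ConjAct.normal_of_characteristic_of_normal
  have he : (P.mapSurjective hφ : Subgroup (N.map π)).map (N.map π).subtype
      = ((P : Subgroup N).map N.subtype).map π := by
    rw [Sylow.coe_mapSurjective, Subgroup.map_map, Subgroup.map_map]
    rfl
  rw [he] at hn2
  set Q : Subgroup G := (P : Subgroup N).map N.subtype with hQ
  have hQN : Q ≤ N := Subgroup.map_subtype_le _
  have hM : ((Q.map π).comap π).Normal := hn2.comap π
  set M : Subgroup G := (Q.map π).comap π with hMdef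
  have hMeq : M = Q ⊔ B := by
    rw [hMdef, Subgroup.comap_map_eq, hπ, QuotientGroup.ker_mk']
  have hQM : Q ≤ M := Subgroup.le_comap_map _ _
  have hMN : M ≤ N := by rw [hMeq]; exact sup_le hQN hBN
  have hQp : IsPGroup p Q := P.2.map _
  have hQMp : IsPGroup p (Q.subgroupOf M) := hQp.comap_of_injective M.subtype M.subtype_injective
  have hrel : Q.relIndex N = (P : Subgroup N).index := by
    rw [hQ, Subgroup.relIndex, Subgroup.subgroupOf,
      Subgroup.comap_map_eq_self_of_injective N.subtype_injective]
  have hidx : ¬ p ∣ (Q.subgroupOf M).index := by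
    intro hd
    have h1 : (Q.subgroupOf M).index = Q.relIndex M := rfl
    have h2 := Subgroup.relIndex_mul_relIndex Q M N hQM hMN
    have := Fact.mk hp.out
    apply P.not_dvd_index
    rw [← hrel, ← h2]
    exact Dvd.dvd.mul_right hd _
  have hfr := Sylow.normalizer_sup_eq_top (hQMp.toSylow hidx)
  have hQe : ((hQMp.toSylow hidx : Sylow p M) : Subgroup M).map M.subtype = Q := by
    rw [IsPGroup.toSylow_coe, Subgroup.subgroupOf_map_subtype, inf_eq_left]
    exact hQM
  rw [hQe] at hfr
  have hle : M ≤ Subgroup.normalizer (Q : Set G) ⊔ frattini G := by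
    rw [hMeq]
    exact sup_le (Subgroup.le_normalizer.trans le_sup_left) (hB.trans le_sup_right)
  have hfr2 : Subgroup.normalizer (Q : Set G) ⊔ frattini G = ⊤ := by
    rw [eq_top_iff, ← hfr]
    exact sup_le le_sup_left hle
  have hnt := frattini_nongenerating hfr2
  have hQn : Q.Normal := Subgroup.normalizer_eq_top_iff.mp hnt
  exact hQn.of_map_subtype

/-- Let B ≤ A be normal subgroups of a finite group G with B contained in the Frattini subgroup of G. If A modulo B is nilpotent then A is nilpotent. -/
theorem result {G : Type*} [Group G] [Finite G] (A B : Subgroup G) [A.Normal] [B.Normal] (hBA : B ≤ A) (hB : B ≤ frattini G) (h : Group.IsNilpotent (↥A ⧸ B.subgroupOf A)) : Group.IsNilpotent A := by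
  apply isNilpotent_of_map_mk' A B hB hBA
  have hk : B.subgroupOf A ≤ ((QuotientGroup.mk' B).subgroupMap A).ker := by
    intro x hx
    rw [MonoidHom.mem_ker]
    apply Subtype.ext
    exact (QuotientGroup.eq_one_iff (x : G)).mpr hx
  have hs : Function.Surjective (QuotientGroup.lift (B.subgroupOf A) ((QuotientGroup.mk' B).subgroupMap A)
      (fun x hx => hk hx)) :=
    QuotientGroup.lift_surjective_of_surjective _ _ ((QuotientGroup.mk' B).subgroupMap_surjective A) _
  exact Group.nilpotent_of_surjective _ hs

end Cfsg.Agent.S0584
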