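import Cfsg.Statements.S0590
set_option linter.all false
-- import your own Cfsg.Agent.* helpers here

set_option autoImplicit false
open Cfsg

namespace Cfsg.Agent.S0590

open scoped commutatorElement in
theorem commutator_le_self {G : Type*} [Group G] (V H : Subgroup G)
    (hHV : H ≤ Subgroup.normalizer (V : Set G)) : ⁅V, H⁆ ≤ V := by
  rw [Subgroup.commutator_le]
  intro x hx y hy
  have h1 := (Subgroup.mem_normalizer_iff.mp (hHV hy) x⁻¹).mp (V.inv_mem hx)
  have : ⁅x, y⁆ = x * (y * x⁻¹ * y⁻¹) := by rw [commutatorElement_def]; group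
  rw [this]
  exact V.mul_mem hx h1

open scoped commutatorElement in
theorem pow_mem_centralizer {G : Type*} [Group G] {p : ℕ} (V H : Subgroup G)
    (hV : ∀ a ∈ V, a ^ p = 1) (hHV : H ≤ Subgroup.normalizer (V : Set G))
    (hq : ⁅⁅V, H⁆, H⁆ = ⊥) (a : G) (ha : a ∈ H) :
    a ^ p ∈ Subgroup.centralizer (V : Set G) := by
  rw [Subgroup.mem_centralizer_iff]
  intro v hv
  have hc : ⁅v, a⁆ ∈ ⁅V, H⁆ := Subgroup.commutator_mem_commutator hv ha
  have hcc : ⁅⁅v, a⁆, a⁆ = 1 := by
    have : ⁅⁅v, a⁆, a⁆ ∈ ⁅⁅V, H⁆, H⁆ := Subgroup.commutator_mem_commutator hc ha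
    rw [hq] at this
    exact Subgroup.mem_bot.mp this
  have hcom : Commute ⁅v, a⁆ a := commutatorElement_eq_one_iff_commute.mp hcc
  have hcV : ⁅v, a⁆ ∈ V := commutator_le_self V H hHV hc
  have hcp : ⁅v, a⁆ ^ p = 1 := hV _ hcV
  have h1 : v * a * v⁻¹ = ⁅v, a⁆ * a := by rw [commutatorElement_def]; group
  have h2 : v * a ^ p * v⁻¹ = a ^ p := by
    rw [← conj_pow, h1, hcom.mul_pow, hcp, one_mul]
  exact mul_inv_eq_iff_eq_mul.mp h2

/-- Quadratic action on an elementary abelian p-group forces the acting group modulo the kernel of the action to be elementary abelian. -/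
theorem result {G : Type*} [Group G] [Finite G] {p : ℕ} [Fact p.Prime] (V H : Subgroup G) (hV : Cfsg.IsElementaryAbelian p V) (hHV : H ≤ Subgroup.normalizer (V : Set G)) (hq : ⁅⁅V, H⁆, H⁆ = ⊥) : ⁅H, H⁆ ≤ Subgroup.centralizer (V : Set G) ∧ ∀ a ∈ H, a ^ p ∈ Subgroup.centralizer (V : Set G) := by
  constructor
  · rw [← Subgroup.commutator_eq_bot_iff_le_centralizer]
    apply Subgroup.commutator_commutator_eq_bot_of_rotate
    · rw [Subgroup.commutator_comm H V]; exact hq
    · exact hq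
  · exact fun a ha => pow_mem_centralizer V H hV.2 hHV hq a ha

end Cfsg.Agent.S0590
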