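import Cfsg.Statements.S0591
set_option linter.all false
-- import your own Cfsg.Agent.* helpers here

set_option autoImplicit false
open Cfsg

namespace Cfsg.Agent.S0591

open scoped commutatorElement in
theorem aux {G : Type*} [Group G] [Finite G] (V : Subgroup G) (hV : IsMulCommutative V) (a : G)
    (ha : a ∈ Subgroup.normalizer (V : Set G))
    (hq : ⁅⁅V, Subgroup.zpowers a⁆, Subgroup.zpowers a⁆ = ⊥) :
    Nat.card V ≤ Nat.card ↥(V ⊓ Subgroup.centralizer (Subgroup.zpowers a : Set G)) ^ 2 := by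
  have hcV : ∀ v ∈ V, ⁅v, a⁆ ∈ V := by
    intro x hx
    have h1 := (Subgroup.mem_normalizer_iff.mp ha x⁻¹).mp (V.inv_mem hx)
    have : ⁅x, a⁆ = x * (a * x⁻¹ * a⁻¹) := by rw [commutatorElement_def]; group
    rw [this]
    exact V.mul_mem hx h1
  have haz : a ∈ Subgroup.zpowers a := Subgroup.mem_zpowers a
  have hcc : ∀ v ∈ V, Commute ⁅v, a⁆ a := by
    intro v hv
    have hc : ⁅v, a⁆ ∈ ⁅V, Subgroup.zpowers a⁆ := Subgroup.commutator_mem_commutator hv haz
    have : ⁅⁅v, a⁆, a⁆ ∈ ⁅⁅V, Subgroup.zpowers a⁆, Subgroup.zpowers a⁆ :=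
      Subgroup.commutator_mem_commutator hc haz
    rw [hq] at this
    exact commutatorElement_eq_one_iff_commute.mp (Subgroup.mem_bot.mp this)
  set C : Subgroup G := V ⊓ Subgroup.centralizer (Subgroup.zpowers a : Set G) with hC
  have hmemC : ∀ g, g ∈ C ↔ g ∈ V ∧ Commute g a := by
    intro g
    rw [hC, Subgroup.mem_inf, Subgroup.mem_centralizer_iff]
    refine and_congr_right fun _ => ⟨fun h => (h a haz).symm, fun h x hx => ?_⟩
    obtain ⟨n, rfl⟩ := Subgroup.mem_zpowers_iff.mp hx
    exact (h.zpow_right n).symm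
  have hcomm : ∀ x ∈ V, ∀ y ∈ V, x * y = y * x := fun x hx y hy =>
    congrArg Subtype.val (hV.is_comm.comm (⟨x, hx⟩ : V) ⟨y, hy⟩)
  let f : V →* C :=
    { toFun := fun v => ⟨⁅(v : G), a⁆, (hmemC _).mpr ⟨hcV v v.2, hcc v v.2⟩⟩
      map_one' := by
        apply Subtype.ext
        simp
      map_mul' := by
        rintro ⟨x, hx⟩ ⟨y, hy⟩
        apply Subtype.ext
        show ⁅x * y, a⁆ = ⁅x, a⁆ * ⁅y, a⁆
        have h1 : ⁅x * y, a⁆ = x * ⁅y, a⁆ * x⁻¹ * ⁅x, a⁆ := by
          simp only [commutatorElement_def]; group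
        rw [h1, hcomm x hx _ (hcV y hy), mul_assoc ⁅y, a⁆ x x⁻¹, mul_inv_cancel, mul_one]
        exact hcomm _ (hcV y hy) _ (hcV x hx) }
  have hker : Nat.card f.ker ≤ Nat.card C := by
    refine Nat.card_le_card_of_injective
      (fun v : f.ker => (⟨(v : V), (hmemC _).mpr ⟨(v : V).2, ?_⟩⟩ : C)) ?_
    · have h := congrArg Subtype.val (MonoidHom.mem_ker.mp v.2)
      exact commutatorElement_eq_one_iff_commute.mp h
    · intro v w h
      apply Subtype.ext
      apply Subtype.ext
      exact congrArg (Subtype.val : C → G) h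
  have hrange : Nat.card f.range ≤ Nat.card C :=
    Nat.card_le_card_of_injective _ (Subtype.val_injective)
  have hcard : Nat.card V = Nat.card f.ker * Nat.card f.range := by
    rw [Subgroup.card_eq_card_quotient_mul_card_subgroup f.ker, mul_comm,
      Nat.card_congr (QuotientGroup.quotientKerEquivRange f).toEquiv]
  rw [hcard, pow_two]
  exact Nat.mul_le_mul hker hrange

/-- For a quadratically acting element a on an elementary abelian p-group V, the fixed points C_V(a) have order at least the square root of the order of V. -/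
theorem result {G : Type*} [Group G] [Finite G] {p : ℕ} [Fact p.Prime] (V : Subgroup G) (hV : Cfsg.IsElementaryAbelian p V) (a : G) (ha : a ∈ Subgroup.normalizer (V : Set G)) (hq : ⁅⁅V, Subgroup.zpowers a⁆, Subgroup.zpowers a⁆ = ⊥) : Nat.card V ≤ Nat.card ↥(V ⊓ Subgroup.centralizer (Subgroup.zpowers a : Set G)) ^ 2 := by
  exact aux V hV.1 a ha hq

end Cfsg.Agent.S0591
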