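import Cfsg.Statements.S0592
import Cfsg.Agent.PLocal.TwoQuad
set_option linter.all false

set_option autoImplicit false
open Cfsg

namespace Cfsg.Agent.S0592

open Polynomial in
/-- `X ^ (p ^ e * k) - 1` splits over a finite field with `q` elements when `k ∣ q - 1`. -/
theorem splits_aux {K : Type*} [Field K] [Fintype K] {p : ℕ} [Fact p.Prime] [CharP K p] (e k : ℕ)
    (hk : k ∣ Fintype.card K - 1) : (X ^ (p ^ e * k) - 1 : K[X]).Splits := by
  have h1 : (X ^ (p ^ e * k) - 1 : K[X]) = (X ^ k - 1) ^ (p ^ e) := by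
    rw [mul_comm, pow_mul, sub_pow_char_pow, one_pow]
  rw [h1]
  apply Splits.pow
  have h2 : (X ^ k - 1 : K[X]) ∣ X ^ (Fintype.card K - 1) - 1 := by
    obtain ⟨c, hc⟩ := hk
    rw [hc, pow_mul]
    exact sub_one_dvd_pow_sub_one _ _
  have hq : 1 < Fintype.card K := Fintype.one_lt_card
  have h3 : (X ^ (Fintype.card K - 1) - 1 : K[X]) ∣ X ^ Fintype.card K - X := by
    refine ⟨X, ?_⟩
    rw [sub_mul, one_mul, ← pow_succ, Nat.sub_add_cancel hq.le]
  have h4 := Polynomial.splits_X_pow_nat_card_sub_X (K := K)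
  rw [Nat.card_eq_fintype_card] at h4
  exact Splits.of_dvd h4 (FiniteField.X_pow_card_sub_X_ne_zero _ hq) (h2.trans h3)

/-- Two quadratically acting generators of a linear group that is not a p-group, with the p'-part of the order of their product dividing q - 1, give a homomorphism onto a subgroup of SL(2, q) that is not a p-group. -/
theorem result {K : Type*} [Field K] [Fintype K] {p : ℕ} [Fact p.Prime] [CharP K p] {W : Type*} [AddCommGroup W] [Module K W] [FiniteDimensional K W] [Finite W] [Nontrivial W] (H : Subgroup (W ≃ₗ[K] W)) (a b : W ≃ₗ[K] W) (hH : H = Subgroup.closure {a, b}) (ha : ∀ w : W, a (a w - w) = a w - w) (hb : ∀ w : W, b (b w - w) = b w - w) (hnp : ¬ IsPGroup p H) (hk : ∃ e k : ℕ, orderOf (a * b) = p ^ e * k ∧ k ∣ Fintype.card K - 1) : ∃ φ : H →* Matrix.SpecialLinearGroup (Fin 2) K, ¬ IsPGroup p φ.range := by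
  obtain ⟨e, k, hord, hkd⟩ := hk
  have hp : p.Prime := Fact.out
  have hq : 1 < Fintype.card K := Fintype.one_lt_card
  have hk0 : k ≠ 0 := by
    rintro rfl
    have := Nat.eq_zero_of_zero_dvd hkd
    omega
  have hm0 : p ^ e * k ≠ 0 := Nat.mul_ne_zero (pow_ne_zero _ hp.ne_zero) hk0
  -- the generators inside `H`
  have haH : a ∈ H := by rw [hH]; exact Subgroup.subset_closure (by simp)
  have hbH : b ∈ H := by rw [hH]; exact Subgroup.subset_closure (by simp)
  have hgen : Subgroup.closure ({⟨a, haH⟩, ⟨b, hbH⟩} : Set H) = ⊤ := by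
    apply Subgroup.map_injective H.subtype_injective
    rw [MonoidHom.map_closure, Set.image_pair, ← MonoidHom.range_eq_map, Subgroup.range_subtype]
    exact hH.symm
  let ρ : Representation K H W :=
    (LinearEquiv.automorphismGroup.toLinearMapMonoidHom (R := K) (M := W)).comp H.subtype
  have hρ : ∀ (x : H) (w : W), ρ x w = (x : W ≃ₗ[K] W) w := fun x w => rfl
  obtain ⟨g, hg⟩ : ∃ g : H, ¬ ∃ k : ℕ, g ^ p ^ k = 1 := by
    by_contra hcon
    push Not at hcon
    exact hnp hcon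
  have hg' : ¬ ∃ k : ℕ, ρ g ^ p ^ k = 1 := by
    rintro ⟨j, hj⟩
    apply hg
    refine ⟨j, ?_⟩
    rw [← map_pow] at hj
    apply Subtype.ext
    apply LinearEquiv.ext
    intro w
    have := congrArg (fun f => f w) hj
    exact this
  have habm : ρ ((⟨a, haH⟩ : H) * ⟨b, hbH⟩) ^ (p ^ e * k) = 1 := by
    rw [← map_pow, ← hord]
    have : ((⟨a, haH⟩ : H) * ⟨b, hbH⟩) ^ orderOf (a * b) = 1 := by
      apply Subtype.ext
      exact pow_orderOf_eq_one (a * b)
    rw [this, map_one]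
  obtain ⟨φ, -, -, -, h4⟩ := Cfsg.Agent.PLocal.TwoQuad.exists_hom_sl_two (p := p) (⟨a, haH⟩ : H) ⟨b, hbH⟩ hgen
    (p ^ e * k) hm0 (splits_aux e k hkd) ρ ha hb habm g hg'
  refine ⟨φ, fun hcon => h4 ?_⟩
  obtain ⟨j, hj⟩ := hcon ⟨φ g, ⟨g, rfl⟩⟩
  refine ⟨j, ?_⟩
  exact congrArg Subtype.val hj

end Cfsg.Agent.S0592
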