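import Cfsg.Statements.S0594
import Cfsg.Agent.PLocal.QuadRep
import Cfsg.Agent.PLocal.TwoQuad
import Cfsg.Agent.PLocal.SL2Section2
set_option linter.all false

set_option autoImplicit false
open Cfsg

namespace Cfsg.Agent.S0594

/-- Pulling back a subgroup of the range of a homomorphism to a section of the source. -/
theorem section_of_hom {G : Type*} [Group G] {X : Type*} [Group X] {Y : Type*} [Group Y]
    (E : Subgroup G) (φ : E →* X) (K : Subgroup X) (hK : K ≤ φ.range) (e : K ≃* Y) :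
    ∃ (K' L' : Subgroup G) (_ : (L'.subgroupOf K').Normal), K' ≤ E ∧
      Nonempty ((K' ⧸ L'.subgroupOf K') ≃* Y) := by
  let K' : Subgroup G := (K.comap φ).map E.subtype
  let L' : Subgroup G := φ.ker.map E.subtype
  have hmem : ∀ x ∈ K', ∃ hx : x ∈ E, φ ⟨x, hx⟩ ∈ K := by
    rintro x ⟨y, hy, rfl⟩
    exact ⟨y.2, hy⟩
  let ψ : K' →* K := MonoidHom.mk' (fun x => ⟨φ ⟨x, (hmem x x.2).1⟩, (hmem x x.2).2⟩) (by
    intro x y
    apply Subtype.ext
    change φ _ = φ _ * φ _
    rw [← map_mul]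
    rfl)
  have hψ : Function.Surjective ψ := by
    rintro ⟨z, hz⟩
    obtain ⟨h, rfl⟩ := hK hz
    exact ⟨⟨(h : G), ⟨h, hz, rfl⟩⟩, rfl⟩
  have hker : ψ.ker = L'.subgroupOf K' := by
    ext x
    rw [MonoidHom.mem_ker, Subgroup.mem_subgroupOf]
    constructor
    · intro h
      have h1 : φ ⟨x, (hmem x x.2).1⟩ = 1 := congrArg Subtype.val h
      exact ⟨⟨x, (hmem x x.2).1⟩, h1, rfl⟩
    · rintro ⟨y, hy, hyx⟩
      apply Subtype.ext
      change φ _ = 1
      have h1 : (⟨x, (hmem x x.2).1⟩ : E) = y := Subtype.ext hyx.symm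
      rw [h1]
      exact hy
  have hn : (L'.subgroupOf K').Normal := by
    rw [← hker]; infer_instance
  refine ⟨K', L', hn, Subgroup.map_subtype_le _, ⟨?_⟩⟩
  exact ((QuotientGroup.quotientMulEquivOfEq hker.symm).trans
    (QuotientGroup.quotientKerEquivOfSurjective ψ hψ)).trans e

/-- For odd p, two quadratic generators of a faithful group that is not a p-group, one of which acts nontrivially on a normal subgroup of order prime to p, force p = 3 and a section isomorphic to SL(2,3). -/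
theorem result {G : Type*} [Group G] [Finite G] {p : ℕ} [Fact p.Prime] (hp : p ≠ 2) (V H : Subgroup G) (hV : Cfsg.IsElementaryAbelian p V) (hHV : H ≤ Subgroup.normalizer (V : Set G)) (hf : H ⊓ Subgroup.centralizer (V : Set G) = ⊥) (a b : G) (hab : H = Subgroup.closure {a, b}) (ha : ⁅⁅V, Subgroup.zpowers a⁆, Subgroup.zpowers a⁆ = ⊥) (hb : ⁅⁅V, Subgroup.zpowers b⁆, Subgroup.zpowers b⁆ = ⊥) (hnp : ¬ IsPGroup p H) (Q : Subgroup G) (hQH : Q ≤ H) (hQn : H ≤ Subgroup.normalizer (Q : Set G)) (hQ : (Nat.card Q).Coprime p) (hQa : ⁅Q, Subgroup.zpowers a⁆ ≠ ⊥) : p = 3 ∧ ∃ (K L : Subgroup G) (hL : (L.subgroupOf K).Normal), K ≤ H ∧ Nonempty ((K ⧸ L.subgroupOf K) ≃* Matrix.SpecialLinearGroup (Fin 2) (ZMod 3)) := by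
  classical
  have haH : a ∈ H := by rw [hab]; exact Subgroup.subset_closure (by simp)
  -- an element of `Q` not commuting with `a`
  obtain ⟨x, hxQ, hxa⟩ : ∃ x ∈ Q, ¬ Commute a x := by
    by_contra hcon
    push Not at hcon
    apply hQa
    rw [Subgroup.commutator_eq_bot_iff_le_centralizer]
    intro x hx
    rw [Subgroup.mem_centralizer_iff]
    intro y hy
    obtain ⟨m, rfl⟩ := Subgroup.mem_zpowers_iff.mp hy
    exact ((hcon x hx).zpow_left m).eq
  have hxH : x ∈ H := hQH hxQ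
  set c : G := x * a * x⁻¹ with hc
  have hcH : c ∈ H := H.mul_mem (H.mul_mem hxH haH) (H.inv_mem hxH)
  -- `c` acts quadratically on `V`
  have hcq : ⁅⁅V, Subgroup.zpowers c⁆, Subgroup.zpowers c⁆ = ⊥ := by
    have h1 : V.map (MulAut.conj x).toMonoidHom = V := by
      ext y
      constructor
      · rintro ⟨v, hv, rfl⟩
        exact ((Subgroup.mem_normalizer_iff.mp (hHV hxH)) v).mp hv
      · intro hy
        refine ⟨x⁻¹ * y * x, ?_, ?_⟩
        · have h2 := (Subgroup.mem_normalizer_iff.mp (hHV (H.inv_mem hxH)) y).mp hy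
          rwa [inv_inv] at h2
        · change x * (x⁻¹ * y * x) * x⁻¹ = y
          group
    have h2 : (Subgroup.zpowers a).map (MulAut.conj x).toMonoidHom = Subgroup.zpowers c := by
      rw [MonoidHom.map_zpowers]
      rfl
    have h3 := congrArg (Subgroup.map (MulAut.conj x).toMonoidHom) ha
    rwa [Subgroup.map_commutator, Subgroup.map_commutator, h1, h2, Subgroup.map_bot] at h3
  let k := AlgebraicClosure (ZMod p)
  obtain ⟨n, ρ, hρ, hρq⟩ := Cfsg.Agent.PLocal.QuadRep.exists_rep k V H hV hHV hf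
  -- the subgroup generated by `a` and `c`
  set E : Subgroup G := Subgroup.closure {a, c} with hE
  have hEH : E ≤ H := by
    rw [hE, Subgroup.closure_le]
    rintro y (rfl | hy)
    · exact haH
    · rw [Set.mem_singleton_iff] at hy
      rw [hy]
      exact hcH
  have haE : a ∈ E := Subgroup.subset_closure (by simp)
  have hcE : c ∈ E := Subgroup.subset_closure (by simp)
  let aE : E := ⟨a, haE⟩
  let cE : E := ⟨c, hcE⟩
  have hgen : Subgroup.closure ({aE, cE} : Set E) = ⊤ := by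
    rw [← Subgroup.map_injective E.subtype_injective |>.eq_iff, MonoidHom.map_closure,
      Set.image_pair, ← MonoidHom.range_eq_map, Subgroup.range_subtype]
    exact hE.symm
  let ρE : Representation k E (Fin n → k) := ρ.comp (Subgroup.inclusion hEH)
  have hρE : Function.Injective ρE := hρ.comp (Subgroup.inclusion_injective hEH)
  -- the element `a⁻¹ c` of `Q`
  have hgQ : a⁻¹ * c ∈ Q := by
    have h1 : a⁻¹ * x * a ∈ Q := by
      have h2 := (Subgroup.mem_normalizer_iff.mp (hQn (H.inv_mem haH)) x).mp hxQ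
      rwa [inv_inv] at h2
    have h2 : a⁻¹ * c = (a⁻¹ * x * a) * x⁻¹ := by
      rw [hc]
      simp only [mul_assoc]
    rw [h2]
    exact Q.mul_mem h1 (Q.inv_mem hxQ)
  have hg1 : a⁻¹ * c ≠ 1 := by
    intro h
    apply hxa
    have h1 : c = a := (inv_mul_eq_one.mp h).symm
    rw [hc, mul_inv_eq_iff_eq_mul] at h1
    exact h1.symm
  let g : E := aE⁻¹ * cE
  have hgcard : g ^ Nat.card Q = 1 := by
    apply Subtype.ext
    have h1 := congrArg Subtype.val (pow_card_eq_one' (x := (⟨a⁻¹ * c, hgQ⟩ : Q)))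
    exact h1
  have hgne : g ≠ 1 := fun h => hg1 (congrArg Subtype.val h)
  have hgp : ∀ (X : Type _) [Group X] (z : X), z ^ Nat.card Q = 1 → z ≠ 1 → ∀ j : ℕ, z ^ p ^ j ≠ 1 := by
    intro X _ z hz hz1 j hj
    apply hz1
    have h1 : (Nat.card Q).Coprime (p ^ j) := hQ.pow_right j
    have h2 := Nat.Coprime.eq_one_of_dvd (h1.coprime_dvd_left (orderOf_dvd_of_pow_eq_one hz))
      (orderOf_dvd_of_pow_eq_one hj)
    exact orderOf_eq_one_iff.mp h2
  obtain ⟨φ, -, hφa, hφc, hφg⟩ := Cfsg.Agent.PLocal.TwoQuad.exists_hom_sl_two (K := k) (p := p)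
    aE cE hgen (Nat.card E) Nat.card_pos.ne' (IsAlgClosed.splits _) ρE
    (hρq ⟨a, haH⟩ ha) (hρq ⟨c, hcH⟩ hcq)
    (by rw [← map_pow, pow_card_eq_one', map_one]) g (by
      rintro ⟨j, hj⟩
      rw [← map_pow, ← map_one ρE] at hj
      exact hgp E g hgcard hgne j (hρE hj))
  -- the image of `Q ∩ E`
  set Qb : Subgroup (Matrix.SpecialLinearGroup (Fin 2) k) := (Q.subgroupOf E).map φ with hQb
  have hfin : Finite Qb := by
    have h1 : Set.Finite (φ '' ((Q.subgroupOf E : Subgroup E) : Set E)) := Set.toFinite _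
    exact h1.to_subtype
  have hQbcard : (Nat.card Qb).Coprime p := by
    have h1 : Nat.card Qb ∣ Nat.card (Q.subgroupOf E) := Subgroup.card_map_dvd _ _
    have h2 : Nat.card (Q.subgroupOf E) ∣ Nat.card Q := by
      have h3 : Nat.card (Q.subgroupOf E) = Nat.card ((Q.subgroupOf E).map E.subtype) :=
        (Subgroup.card_map_of_injective E.subtype_injective).symm
      rw [h3, Subgroup.subgroupOf_map_subtype]
      exact Subgroup.card_dvd_of_le inf_le_left
    exact Nat.Coprime.coprime_dvd_left (h1.trans h2) hQ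
  have hgmem : φ g ∈ Qb := ⟨g, hgQ, rfl⟩
  obtain ⟨hp3, z, hz, ⟨e⟩⟩ := Cfsg.Agent.PLocal.SL2Section2.exists_sl_two_three hp Qb hQbcard (φ aE)
    hφa (by
      rintro _ ⟨y, hy, rfl⟩
      refine ⟨aE * y * aE⁻¹, ?_, by rw [map_mul, map_mul, map_inv]⟩
      exact ((Subgroup.mem_normalizer_iff.mp (hQn haH)) (y : G)).mp hy)
    ⟨φ g, hgmem, fun hcom => hφg ⟨1, by
      have h1 : φ cE = φ aE * φ g := by
        rw [← map_mul]
        congr 1
        change cE = aE * (aE⁻¹ * cE)
        rw [mul_inv_cancel_left]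
      have h2 : φ cE ^ p = 1 := Cfsg.Agent.PLocal.SL2Section.pow_char_of_unip hφc
      have h3 : φ aE ^ p = 1 := Cfsg.Agent.PLocal.SL2Section.pow_char_of_unip hφa
      rw [h1, hcom.mul_pow, h3, one_mul] at h2
      rw [pow_one]
      exact h2⟩⟩
  refine ⟨hp3, ?_⟩
  have hle : Subgroup.closure {φ aE, z} ≤ φ.range := by
    rw [Subgroup.closure_le]
    rintro y (rfl | hy)
    · exact ⟨aE, rfl⟩
    · rw [Set.mem_singleton_iff] at hy
      rw [hy]
      obtain ⟨w, _, rfl⟩ := hz
      exact ⟨w, rfl⟩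
  obtain ⟨K', L', hL', hK', hiso⟩ := section_of_hom E φ _ hle e
  exact ⟨K', L', hL', hK'.trans hEH, hiso⟩

end Cfsg.Agent.S0594
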