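import Mathlib
import Cfsg.Statements.S0597
import Cfsg.Agent.Lib.SubnormalJoin
import Cfsg.Agent.PLocal.SubnormalCore
set_option linter.all false

set_option autoImplicit false
open Cfsg
open scoped commutatorElement

namespace Cfsg.Agent.S0597

/-- If two subnormal subgroups of a faithful group on an elementary abelian p-group satisfy [V, E₁, E₂] = 1, then their commutator lies in the largest normal p-subgroup. -/
theorem result {G : Type*} [Group G] [Finite G] {p : ℕ} [Fact p.Prime] (V H : Subgroup G) (hV : Cfsg.IsElementaryAbelian p V) (hHV : H ≤ Subgroup.normalizer (V : Set G)) (hf : H ⊓ Subgroup.centralizer (V : Set G) = ⊥) (E₁ E₂ : Subgroup G) (h₁ : E₁ ≤ H) (h₂ : E₂ ≤ H) (hs₁ : (E₁.subgroupOf H).IsSubnormal) (hs₂ : (E₂.subgroupOf H).IsSubnormal) (hc : ⁅⁅V, E₁⁆, E₂⁆ = ⊥) : ⁅E₁, E₂⁆ ≤ (Cfsg.pCore p H).map H.subtype := by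
  have hA : ∀ a ∈ H, ∀ v ∈ V, a * v * a⁻¹ ∈ V := fun a ha v hv =>
    (Subgroup.mem_normalizer_iff.mp (hHV ha) v).mp hv
  set W : Subgroup G := ⁅V, E₁⁆ with hW
  have hWV : W ≤ V := by
    rw [hW, Subgroup.commutator_le]
    intro x hx a ha
    have : ⁅x, a⁆ = x * (a * x⁻¹ * a⁻¹) := by rw [commutatorElement_def]; group
    rw [this]
    exact V.mul_mem hx (hA a (h₁ ha) _ (V.inv_mem hx))
  set K : Subgroup G := E₁ ⊔ E₂ with hK
  have hKH : K ≤ H := sup_le h₁ h₂
  have hWE₂ : E₂ ≤ Subgroup.centralizer (W : Set G) := by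
    have := Subgroup.commutator_eq_bot_iff_le_centralizer.mp hc
    exact Subgroup.le_centralizer_iff.mp this
  have hKW : K ≤ Subgroup.normalizer (W : Set G) := by
    apply sup_le
    · rw [Subgroup.le_normalizer_iff]
      intro e he w hw
      have : W ≤ W.comap (MulAut.conj e).toMonoidHom := by
        rw [hW, Subgroup.commutator_le]
        intro v hv f hf'
        rw [Subgroup.mem_comap, map_commutatorElement]
        apply Subgroup.commutator_mem_commutator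
        · exact hA e (h₁ he) v hv
        · exact E₁.mul_mem (E₁.mul_mem he hf') (E₁.inv_mem he)
      exact this hw
    · exact hWE₂.trans (Subgroup.centralizer_le_normalizer _)
  have hKW' : ∀ k ∈ K, ∀ w ∈ W, k * w * k⁻¹ ∈ W := Subgroup.le_normalizer_iff.mp hKW
  -- elements of `K` acting trivially on `V / W`
  let N₁ : Subgroup G :=
    { carrier := {x | x ∈ K ∧ ∀ v ∈ V, ⁅v, x⁆ ∈ W}
      one_mem' := ⟨K.one_mem, fun v _ => by rw [commutatorElement_one_right]; exact W.one_mem⟩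
      mul_mem' := by
        rintro x y ⟨hx, hx'⟩ ⟨hy, hy'⟩
        refine ⟨K.mul_mem hx hy, fun v hv => ?_⟩
        have : ⁅v, x * y⁆ = ⁅v, x⁆ * (x * ⁅v, y⁆ * x⁻¹) := by
          simp only [commutatorElement_def]; group
        rw [this]
        exact W.mul_mem (hx' v hv) (hKW' x hx _ (hy' v hv))
      inv_mem' := by
        rintro x ⟨hx, hx'⟩
        refine ⟨K.inv_mem hx, fun v hv => ?_⟩
        have : ⁅v, x⁻¹⁆ = x⁻¹ * ⁅v, x⁆⁻¹ * x⁻¹⁻¹ := by
          simp only [commutatorElement_def]; group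
        rw [this]
        exact hKW' _ (K.inv_mem hx) _ (W.inv_mem (hx' v hv)) }
  have hN₁ : ∀ x, x ∈ N₁ ↔ x ∈ K ∧ ∀ v ∈ V, ⁅v, x⁆ ∈ W := fun x => Iff.rfl
  set N₂ : Subgroup G := K ⊓ Subgroup.centralizer (W : Set G) with hN₂
  have hE₁ : E₁ ≤ N₁ := by
    intro e he
    rw [hN₁]
    exact ⟨(le_sup_left : E₁ ≤ K) he, fun v hv => Subgroup.commutator_mem_commutator hv he⟩
  have hE₂ : E₂ ≤ N₂ := le_inf le_sup_right hWE₂
  have hN₁K : ∀ k ∈ K, ∀ x ∈ N₁, k * x * k⁻¹ ∈ N₁ := by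
    intro k hk x hx
    rw [hN₁] at hx ⊢
    refine ⟨K.mul_mem (K.mul_mem hk hx.1) (K.inv_mem hk), fun v hv => ?_⟩
    have hv' : k⁻¹ * v * k⁻¹⁻¹ ∈ V := hA _ (H.inv_mem (hKH hk)) v hv
    have : ⁅v, k * x * k⁻¹⁆ = k * ⁅k⁻¹ * v * k⁻¹⁻¹, x⁆ * k⁻¹ := by
      simp only [commutatorElement_def]; group
    rw [this]
    exact hKW' k hk _ (hx.2 _ hv')
  have hN₂K : ∀ k ∈ K, ∀ x ∈ N₂, k * x * k⁻¹ ∈ N₂ := by
    intro k hk x hx
    obtain ⟨hx1, hx2⟩ := Subgroup.mem_inf.mp hx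
    refine Subgroup.mem_inf.mpr ⟨K.mul_mem (K.mul_mem hk hx1) (K.inv_mem hk), ?_⟩
    rw [Subgroup.mem_centralizer_iff] at hx2 ⊢
    intro w hw
    have hw' : k⁻¹ * w * k⁻¹⁻¹ ∈ W := hKW' _ (K.inv_mem hk) w hw
    have h := hx2 _ hw'
    calc w * (k * x * k⁻¹) = k * ((k⁻¹ * w * k⁻¹⁻¹) * x) * k⁻¹ := by group
      _ = k * (x * (k⁻¹ * w * k⁻¹⁻¹)) * k⁻¹ := by rw [h]
      _ = k * x * k⁻¹ * w := by group
  set D : Subgroup G := N₁ ⊓ N₂ with hD
  have hDK : D ≤ K := inf_le_left.trans (fun x hx => ((hN₁ x).mp hx).1)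
  have hDnorm : K ≤ Subgroup.normalizer (D : Set G) := by
    rw [Subgroup.le_normalizer_iff]
    intro k hk x hx
    obtain ⟨hx1, hx2⟩ := Subgroup.mem_inf.mp hx
    exact Subgroup.mem_inf.mpr ⟨hN₁K k hk x hx1, hN₂K k hk x hx2⟩
  have hcom : ⁅E₁, E₂⁆ ≤ D := by
    rw [Subgroup.commutator_le]
    intro a ha b hb
    have haK : a ∈ K := (le_sup_left : E₁ ≤ K) ha
    have hbK : b ∈ K := (le_sup_right : E₂ ≤ K) hb
    refine Subgroup.mem_inf.mpr ⟨?_, ?_⟩
    · have : ⁅a, b⁆ = a * (b * a⁻¹ * b⁻¹) := by rw [commutatorElement_def]; group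
      rw [this]
      exact N₁.mul_mem (hE₁ ha) (hN₁K b hbK _ (N₁.inv_mem (hE₁ ha)))
    · rw [commutatorElement_def]
      exact N₂.mul_mem (hN₂K a haK _ (hE₂ hb)) (N₂.inv_mem (hE₂ hb))
  have hDp : ∀ x ∈ D, x ^ p = 1 := by
    intro x hx
    obtain ⟨hx1, hx2⟩ := Subgroup.mem_inf.mp hx
    have hxK : x ∈ K := hDK hx
    have hx2' : x ∈ Subgroup.centralizer (W : Set G) := (Subgroup.mem_inf.mp hx2).2
    have hxC : x ^ p ∈ Subgroup.centralizer (V : Set G) := by
      rw [Subgroup.mem_centralizer_iff]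
      intro v hv
      have hw : ⁅v, x⁆ ∈ W := ((hN₁ x).mp hx1).2 v hv
      have hxw := Subgroup.mem_centralizer_iff.mp hx2' _ hw
      have hpow : ∀ n : ℕ, v * x ^ n = ⁅v, x⁆ ^ n * (x ^ n * v) := by
        intro n
        induction n with
        | zero => simp
        | succ n ih =>
          have c1 : Commute ⁅v, x⁆ x := hxw
          have c2 : x ^ n * ⁅v, x⁆ = ⁅v, x⁆ * x ^ n := (c1.pow_right n).eq.symm
          have e : v * x = ⁅v, x⁆ * (x * v) := by rw [commutatorElement_def]; group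
          calc v * x ^ (n + 1) = (v * x ^ n) * x := by rw [pow_succ, mul_assoc]
            _ = ⁅v, x⁆ ^ n * (x ^ n * (v * x)) := by rw [ih]; group
            _ = ⁅v, x⁆ ^ n * (x ^ n * ⁅v, x⁆) * (x * v) := by rw [e]; group
            _ = ⁅v, x⁆ ^ (n + 1) * (x ^ (n + 1) * v) := by
              rw [c2, pow_succ, pow_succ]; group
      have := hpow p
      rw [hV.2 _ (hWV hw), one_mul] at this
      exact this
    have : x ^ p ∈ H ⊓ Subgroup.centralizer (V : Set G) :=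
      Subgroup.mem_inf.mpr ⟨H.pow_mem (hKH hxK) p, hxC⟩
    rw [hf] at this
    exact Subgroup.mem_bot.mp this
  -- conclusion
  have hKsub : (K.subgroupOf H).IsSubnormal := by
    rw [hK, Subgroup.subgroupOf_sup h₁ h₂]
    exact Cfsg.Agent.Lib.SubnormalJoin.isSubnormal_sup hs₁ hs₂
  have hDH : D ≤ H := hDK.trans hKH
  have hfinal : D.subgroupOf H ≤ pCore p H := by
    have hle : D.subgroupOf H ≤ K.subgroupOf H := Subgroup.comap_mono hDK
    apply Cfsg.Agent.PLocal.SubnormalCore.le_pCore_of_normal_subnormal hle ?_ hKsub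
    · intro x
      refine ⟨1, ?_⟩
      have h1 : ((x : H) : G) ∈ D := x.2
      have h2 := hDp _ h1
      rw [pow_one]
      apply Subtype.ext
      apply Subtype.ext
      rw [Subgroup.coe_pow, Subgroup.coe_pow]
      exact h2
    · rw [Subgroup.normal_subgroupOf_iff_le_normalizer hle, Subgroup.le_normalizer_iff]
      intro k hk x hx
      exact Subgroup.le_normalizer_iff.mp hDnorm (k : G) hk (x : G) hx
  calc ⁅E₁, E₂⁆ ≤ D := hcom
    _ = (D.subgroupOf H).map H.subtype := by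
        rw [Subgroup.subgroupOf_map_subtype, inf_eq_left.mpr hDH]
    _ ≤ (Cfsg.pCore p H).map H.subtype := Subgroup.map_mono hfinal

end Cfsg.Agent.S0597
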