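import Cfsg.Statements.S0609
import Cfsg.Agent.PLocal.ThompsonJ
import Cfsg.Agent.PLocal.StableClosure
import Cfsg.Agent.PLocal.PConstrained
set_option linter.all false

set_option autoImplicit false
open Cfsg

namespace Cfsg.Agent.S0609

open Cfsg.Agent.PLocal.ThompsonJ Cfsg.Agent.PLocal.StableClosure Cfsg.Agent.PLocal

/-- `J(f(S)) = f(J(S))` when `f` is injective on `S`. -/
theorem thompsonSubgroupOf_map_of_injOn {G H : Type*} [Group G] [Group H] (p : ℕ) (f : G →* H)
    (S : Subgroup G) (hS : Function.Injective (f.comp S.subtype)) :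
    thompsonSubgroupOf p (S.map f) = (thompsonSubgroupOf p S).map f := by
  have h1 : S.map f = (⊤ : Subgroup S).map (f.comp S.subtype) := by
    rw [← Subgroup.map_map, ← MonoidHom.range_eq_map, Subgroup.range_subtype]
  have h2 : S = (⊤ : Subgroup S).map S.subtype := by
    rw [← MonoidHom.range_eq_map, Subgroup.range_subtype]
  have h3 : thompsonSubgroupOf p S = (thompsonSubgroupOf p (⊤ : Subgroup S)).map S.subtype := by
    rw [← thompsonSubgroupOf_map p S.subtype_injective, ← h2]
  rw [h1, thompsonSubgroupOf_map p hS, h3, Subgroup.map_map]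

/-- `Ω₁(Z(f(S))) = f(Ω₁(Z(S)))` when `f` is injective on `S`. -/
theorem omegaOne_center_map_of_injOn {G H : Type*} [Group G] [Group H] (p : ℕ) (f : G →* H)
    (S : Subgroup G) (hS : Function.Injective (f.comp S.subtype)) :
    omegaOne p (S.map f ⊓ Subgroup.centralizer (S.map f : Set H)) =
      (omegaOne p (S ⊓ Subgroup.centralizer (S : Set G))).map f := by
  have h1 : S.map f = (⊤ : Subgroup S).map (f.comp S.subtype) := by
    rw [← Subgroup.map_map, ← MonoidHom.range_eq_map, Subgroup.range_subtype]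
  have h2 : S = (⊤ : Subgroup S).map S.subtype := by
    rw [← MonoidHom.range_eq_map, Subgroup.range_subtype]
  have h3 : omegaOne p (S ⊓ Subgroup.centralizer (S : Set G)) =
      (omegaOne p ((⊤ : Subgroup S) ⊓ Subgroup.centralizer ((⊤ : Subgroup S) : Set S))).map S.subtype := by
    rw [← omegaOne_map p S.subtype_injective, inf_centralizer_map S.subtype_injective, ← h2]
  rw [h1, ← inf_centralizer_map hS, omegaOne_map p hS, h3, Subgroup.map_map]

/-- Thompson factorizability passes to and from the quotient by the largest normal subgroup of order prime to p. -/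
theorem result {G : Type*} [Group G] [Finite G] {p : ℕ} [Fact p.Prime] : Cfsg.IsThompsonFactorizable p G ↔ Cfsg.IsThompsonFactorizable p (G ⧸ Cfsg.pPrimeCore p G) := by
  set N := Cfsg.pPrimeCore p G with hN
  have hcop : (Nat.card (QuotientGroup.mk' N).ker).Coprime p := by
    rw [QuotientGroup.ker_mk']
    exact PConstrained.coprime_card_pPrimeCore p G
  have hsurj := QuotientGroup.mk'_surjective N
  have hinj : ∀ S : Sylow p G,
      Function.Injective ((QuotientGroup.mk' N).comp (S : Subgroup G).subtype) := by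
    intro S
    rw [injective_iff_map_eq_one]
    intro a ha
    have h1 : (a : G) ∈ (S : Subgroup G) ⊓ (QuotientGroup.mk' N).ker :=
      ⟨a.2, MonoidHom.mem_ker.2 ha⟩
    rw [PConstrained.inf_eq_bot_of_isPGroup_of_coprime S.isPGroup' hcop, Subgroup.mem_bot] at h1
    exact Subtype.ext h1
  have hJ : ∀ S : Sylow p G, thompsonSubgroupOf p ((S : Subgroup G).map (QuotientGroup.mk' N)) =
      (thompsonSubgroupOf p (S : Subgroup G)).map (QuotientGroup.mk' N) :=
    fun S => thompsonSubgroupOf_map_of_injOn p _ _ (hinj S)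
  have hZ : ∀ S : Sylow p G, omegaOne p ((S : Subgroup G).map (QuotientGroup.mk' N) ⊓
        Subgroup.centralizer ((S : Subgroup G).map (QuotientGroup.mk' N) : Set (G ⧸ N))) =
      (omegaOne p ((S : Subgroup G) ⊓ Subgroup.centralizer ((S : Subgroup G) : Set G))).map
        (QuotientGroup.mk' N) :=
    fun S => omegaOne_center_map_of_injOn p _ _ (hinj S)
  constructor
  · intro h T g'
    obtain ⟨S, rfl⟩ := Sylow.mapSurjective_surjective hsurj p T
    obtain ⟨g, rfl⟩ := hsurj g'
    obtain ⟨x, hx, c, hc, n, hn, rfl⟩ := h S g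
    refine ⟨1, one_mem _, QuotientGroup.mk' N c, ?_, QuotientGroup.mk' N n, ?_, ?_⟩
    · rw [Sylow.coe_mapSurjective, hZ S, Subgroup.mem_centralizer_iff]
      rintro _ ⟨z, hz, rfl⟩
      rw [← map_mul, ← map_mul, Subgroup.mem_centralizer_iff.1 hc z hz]
    · rw [Sylow.coe_mapSurjective, hJ S]
      exact Subgroup.le_normalizer_map _ (Subgroup.mem_map_of_mem _ hn)
    · have hx1 : QuotientGroup.mk' N x = 1 := (QuotientGroup.eq_one_iff x).2 hx
      rw [map_mul, map_mul, hx1]
  · intro h S g
    obtain ⟨x', hx', c', hc', n', hn', he⟩ := h (S.mapSurjective hsurj) (QuotientGroup.mk' N g)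
    rw [Sylow.coe_mapSurjective, hZ S, ← PConstrained.map_centralizer_eq _ hsurj hcop
      (S.isPGroup'.to_le ((omegaOne_le p _).trans inf_le_left))] at hc'
    rw [Sylow.coe_mapSurjective, hJ S, ← PConstrained.map_normalizer_eq _ hsurj hcop
      (S.isPGroup'.to_le (thompsonSubgroupOf_le_self p _))] at hn'
    obtain ⟨c, hc, rfl⟩ := hc'
    obtain ⟨n, hn, rfl⟩ := hn'
    rw [Cfsg.Agent.Lib.Cores.pPrimeCore_quotient_pPrimeCore, Subgroup.mem_bot] at hx'
    refine ⟨g * (c * n)⁻¹, ?_, c, hc, n, hn, ?_⟩
    · rw [← hN, ← QuotientGroup.eq_one_iff]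
      change QuotientGroup.mk' N (g * (c * n)⁻¹) = 1
      rw [map_mul, he, map_inv, map_mul, hx', one_mul, mul_inv_cancel]
    · group

end Cfsg.Agent.S0609
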