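import Cfsg.Statements.S0610
import Cfsg.Agent.PLocal.OffenderStep
import Cfsg.Agent.PLocal.FFPair
set_option linter.all false

set_option autoImplicit false
open Cfsg

namespace Cfsg.Agent.S0610

/-- In a faithful group generated by best offenders with a self-centralizing p'-core, every nontrivial best offender A has order exactly |V : C_V(A)|. -/
theorem result {G : Type*} [Group G] [Finite G] {p : ℕ} [Fact p.Prime] (V H : Subgroup G) (hV : Cfsg.IsElementaryAbelian p V) (hHV : H ≤ Subgroup.normalizer (V : Set G)) (hf : H ⊓ Subgroup.centralizer (V : Set G) = ⊥) (hS1 : Subgroup.centralizer (Cfsg.pPrimeCore p ↥H : Set ↥H) ≤ Cfsg.pPrimeCore p ↥H) (hS3 : H = ⨆ A : {A : Subgroup G // A ≤ H ∧ Cfsg.IsBestOffenderOn p V A}, (A : Subgroup G)) (hH1 : H ≠ ⊥) (A : Subgroup G) (hAH : A ≤ H) (hA : Cfsg.IsBestOffenderOn p V A) (hA1 : A ≠ ⊥) : Nat.card A * Nat.card ↥(V ⊓ Subgroup.centralizer (A : Set G)) = Nat.card V := by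
  have hAe := Cfsg.Agent.PLocal.OffenderStep.isElementaryAbelian_of_isBestOffenderOn hf hAH hA
  apply le_antisymm
  · exact Cfsg.Agent.PLocal.FFPair.card_mul_card_le V H hV hHV hf hS1 A hAH hAe
  · have h := hA.1 ⊥ bot_le
    have h1 : V ⊓ Subgroup.centralizer ((⊥ : Subgroup G) : Set G) = V := by
      rw [inf_eq_left]
      intro v _
      rw [Subgroup.mem_centralizer_iff]
      intro x hx
      rw [SetLike.mem_coe, Subgroup.mem_bot] at hx
      rw [hx, one_mul, mul_one]
    rw [h1, Subgroup.card_bot, one_mul] at h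
    exact h

end Cfsg.Agent.S0610
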