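import Mathlib
import Cfsg.Agent.Lib.ProductSet
import Cfsg.Agent.Lib.PGroupCoprimeAction
import Cfsg.Statements.S0614
import Cfsg.Agent.PLocal.FFPair
import Cfsg.Agent.S0611
import Cfsg.Agent.S0613
set_option linter.all false

-- part: PLocal/CoprimeRPart
section
/-!
If a `p`-group `A` normalizes the `p'`-group `Q` and centralizes every `A`-invariant `q`-subgroup of `Q` for all primes
`q ≠ r`, then `[Q, A]` is an `r`-group. And some facts on `SL(2,2)` and `SL(2,3)`.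
-/

set_option autoImplicit false

namespace Cfsg.Agent.PLocal.CoprimeRPart

open Subgroup
open scoped Pointwise commutatorElement

variable {G : Type*} [Group G]

theorem isPGroup_commutator [Finite G] {p r : ℕ} [Fact p.Prime] [Fact r.Prime] {Q A : Subgroup G}
    (hA : IsPGroup p A) (hQ : ¬ p ∣ Nat.card Q) (hAQ : A ≤ normalizer (Q : Set G))
    (h : ∀ q : ℕ, q.Prime → q ≠ r → ∀ S : Subgroup G, S ≤ Q → IsPGroup q S →
      (∀ a ∈ A, ∀ u ∈ S, a * u * a⁻¹ ∈ S) → S ≤ centralizer (A : Set G)) :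
    IsPGroup r ↥(⁅Q, A⁆) := by
  classical
  have hAQ' : ∀ b ∈ A, ∀ u ∈ Q, b * u * b⁻¹ ∈ Q := fun b hb u hu =>
    (mem_normalizer_iff.mp (hAQ hb) u).mp hu
  obtain ⟨R, ⟨T, hT⟩, hR⟩ := Cfsg.Agent.Lib.PGroupCoprimeAction.exists_invariant_sylow hA hQ hAQ' r
  have hRQ : R ≤ Q := by rw [← hT]; exact map_subtype_le _
  have hRp : IsPGroup r R := by rw [← hT]; exact T.isPGroup'.map _
  have hRcard : Nat.card R = Nat.card (T : Subgroup Q) := by
    rw [← hT]; exact card_map_of_injective (subtype_injective Q)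
  set C := Q ⊓ centralizer (A : Set G) with hC
  -- the `r'`-part of `|Q|` divides `|C|`
  have hdiv : (T : Subgroup Q).index ∣ Nat.card C := by
    rw [Nat.dvd_iff_prime_pow_dvd_dvd]
    intro q k hq hqk
    by_cases hqr : q = r
    · subst hqr
      rcases Nat.eq_zero_or_pos k with rfl | hk
      · simp
      · exfalso
        exact T.not_dvd_index ((dvd_pow_self q hk.ne').trans hqk)
    · have : Fact q.Prime := ⟨hq⟩
      obtain ⟨S, ⟨U, hU⟩, hS⟩ := Cfsg.Agent.Lib.PGroupCoprimeAction.exists_invariant_sylow hA hQ hAQ' q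
      have hSQ : S ≤ Q := by rw [← hU]; exact map_subtype_le _
      have hSp : IsPGroup q S := by rw [← hU]; exact U.isPGroup'.map _
      have hSC : S ≤ C := le_inf hSQ (h q hq hqr S hSQ hSp hS)
      have h1 : q ^ k ∣ Nat.card Q := by
        refine hqk.trans ?_
        exact Subgroup.index_dvd_card _
      have h2 : q ^ k ∣ Nat.card (U : Subgroup Q) := U.pow_dvd_card_of_pow_dvd_card h1
      have h3 : Nat.card (U : Subgroup Q) = Nat.card S := by
        rw [← hU]; exact (card_map_of_injective (subtype_injective Q)).symm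
      rw [h3] at h2
      exact h2.trans (card_dvd_of_le hSC)
  -- `Q = R C`
  have hprod : (Q : Set G) = (R : Set G) * (C : Set G) := by
    apply Cfsg.Agent.Lib.ProductSet.coe_eq_mul_of_card_le hRQ inf_le_left
    obtain ⟨c, hc⟩ := hdiv
    have hcop : (T : Subgroup Q).index.Coprime (Nat.card (R ⊓ C : Subgroup G)) := by
      obtain ⟨n, hn⟩ := IsPGroup.iff_card.mp (hRp.to_le (inf_le_left : R ⊓ C ≤ R))
      rw [hn]
      apply Nat.Coprime.pow_right
      rw [Nat.coprime_comm, Nat.Prime.coprime_iff_not_dvd Fact.out]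
      exact T.not_dvd_index
    have h1 : Nat.card (R ⊓ C : Subgroup G) ∣ Nat.card C := card_dvd_of_le inf_le_right
    have h2 : (T : Subgroup Q).index * Nat.card (R ⊓ C : Subgroup G) ∣ Nat.card C :=
      hcop.mul_dvd_of_dvd_of_dvd ⟨c, hc⟩ h1
    have h3 : Nat.card Q = Nat.card (T : Subgroup Q) * (T : Subgroup Q).index := (card_mul_index _).symm
    rw [h3, hRcard, mul_assoc]
    exact Nat.mul_le_mul_left _ (Nat.le_of_dvd Nat.card_pos h2)
  -- `[Q, A] ≤ R`
  have hle : ⁅Q, A⁆ ≤ R := by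
    rw [commutator_le]
    intro y hy a ha
    have hy' : y ∈ (R : Set G) * (C : Set G) := by rw [← hprod]; exact hy
    obtain ⟨s, hs, c, hc, rfl⟩ := Set.mem_mul.mp hy'
    have hs' : s ∈ R := hs
    have hca : c * a = a * c := ((mem_centralizer_iff.mp (mem_inf.mp hc).2) a ha).symm
    have h1 : ⁅s * c, a⁆ = s * (a * s⁻¹ * a⁻¹) := by
      rw [commutatorElement_def]
      calc s * c * a * (s * c)⁻¹ * a⁻¹ = s * (c * a) * c⁻¹ * s⁻¹ * a⁻¹ := by group
        _ = s * (a * s⁻¹ * a⁻¹) := by rw [hca]; group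
    rw [h1]
    exact mul_mem hs' (hR a ha s⁻¹ (inv_mem hs'))
  exact hRp.to_le hle

theorem card_sl_two_two : Nat.card (Matrix.SpecialLinearGroup (Fin 2) (ZMod 2)) = 6 := by
  rw [Nat.card_eq_fintype_card]
  decide +kernel

theorem card_sl_two_three : Nat.card (Matrix.SpecialLinearGroup (Fin 2) (ZMod 3)) = 24 := by
  rw [Nat.card_eq_fintype_card]
  decide +kernel

/-- `SL(2,3)` is not metabelian. -/
theorem sl_two_three_not_metabelian : ∃ a b c d : Matrix.SpecialLinearGroup (Fin 2) (ZMod 3),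
    ⁅a, b⁆ * ⁅c, d⁆ ≠ ⁅c, d⁆ * ⁅a, b⁆ := by
  refine ⟨⟨!![1, 1; 0, 1], by decide⟩, ⟨!![1, 0; 1, 1], by decide⟩, ⟨!![1, 1; 0, 1], by decide⟩,
    ⟨!![1, 0; 2, 1], by decide⟩, ?_⟩
  decide +kernel

/-- If `A` is commutative and normalizes `N` then `[NA, NA] ≤ N`. -/
theorem commutator_sup_le {N A : Subgroup G} (hA : ∀ a ∈ A, ∀ b ∈ A, a * b = b * a)
    (hAN : A ≤ normalizer (N : Set G)) {x y : G} (hx : x ∈ N ⊔ A) (hy : y ∈ N ⊔ A) : ⁅x, y⁆ ∈ N := by
  have hset : (↑(N ⊔ A) : Set G) = N * A := coe_mul_of_right_le_normalizer_left N A hAN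
  have hx' : x ∈ (N : Set G) * (A : Set G) := by rw [← hset]; exact hx
  have hy' : y ∈ (N : Set G) * (A : Set G) := by rw [← hset]; exact hy
  obtain ⟨n₁, hn₁, a₁, ha₁, rfl⟩ := Set.mem_mul.mp hx'
  obtain ⟨n₂, hn₂, a₂, ha₂, rfl⟩ := Set.mem_mul.mp hy'
  have h1 : a₁ * n₂ * a₁⁻¹ ∈ N := (mem_normalizer_iff.mp (hAN ha₁) n₂).mp hn₂
  have h2 : a₂ * n₁⁻¹ * a₂⁻¹ ∈ N := (mem_normalizer_iff.mp (hAN ha₂) n₁⁻¹).mp (inv_mem hn₁)
  have h3 : ⁅n₁ * a₁, n₂ * a₂⁆ = n₁ * (a₁ * n₂ * a₁⁻¹) * (a₂ * n₁⁻¹ * a₂⁻¹) * n₂⁻¹ := by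
    rw [commutatorElement_def]
    calc n₁ * a₁ * (n₂ * a₂) * (n₁ * a₁)⁻¹ * (n₂ * a₂)⁻¹
        = n₁ * (a₁ * n₂ * a₁⁻¹) * (a₁ * a₂) * a₁⁻¹ * n₁⁻¹ * a₂⁻¹ * n₂⁻¹ := by group
      _ = _ := by rw [hA a₁ ha₁ a₂ ha₂]; group
  rw [h3]
  exact mul_mem (mul_mem (mul_mem hn₁ h1) h2) (inv_mem hn₂)

/-- The group generated by `A` and a conjugate `A^x`, `x ∈ S`, lies in `S A` (here `[S,A] A`). -/
theorem sup_conj_le {S A : Subgroup G} {x : G} (hx : x ∈ S) :
    A ⊔ A.map (MulAut.conj x).toMonoidHom ≤ ⁅S, A⁆ ⊔ A := by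
  refine sup_le le_sup_right ?_
  rintro _ ⟨a, ha, rfl⟩
  have : (MulAut.conj x).toMonoidHom a = ⁅x, a⁆ * a := by
    rw [commutatorElement_def]; simp
  rw [this]
  exact mul_mem (mem_sup_left (commutator_mem_commutator hx ha)) (mem_sup_right ha)

/-- A subgroup isomorphic to `SL(2,3)` does not lie in `N A` with `A` and `N` commutative. -/
theorem not_isMulCommutative {E N A : Subgroup G} (e : E ≃* Matrix.SpecialLinearGroup (Fin 2) (ZMod 3))
    (hE : E ≤ N ⊔ A) (hA : ∀ a ∈ A, ∀ b ∈ A, a * b = b * a) (hAN : A ≤ normalizer (N : Set G)) :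
    ¬ IsMulCommutative N := by
  intro hcomm
  obtain ⟨a, b, c, d, hne⟩ := sl_two_three_not_metabelian
  apply hne
  have h1 := commutator_sup_le hA hAN (hE (e.symm a).2) (hE (e.symm b).2)
  have h2 := commutator_sup_le hA hAN (hE (e.symm c).2) (hE (e.symm d).2)
  have h3 := congrArg Subtype.val (hcomm.is_comm.comm (⟨_, h1⟩ : N) ⟨_, h2⟩)
  have h4 : ⁅e.symm a, e.symm b⁆ * ⁅e.symm c, e.symm d⁆ = ⁅e.symm c, e.symm d⁆ * ⁅e.symm a, e.symm b⁆ :=
    Subtype.ext h3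
  have h5 := congrArg e h4
  simpa only [map_mul, map_commutatorElement, MulEquiv.apply_symm_apply] using h5

/-- cardinality of `S A`. -/
theorem card_sup_dvd {S A : Subgroup G} [Finite G] (hAS : A ≤ normalizer (S : Set G)) :
    Nat.card (S ⊔ A : Subgroup G) ∣ Nat.card S * Nat.card A := by
  have h1 := Cfsg.Agent.Lib.ProductSet.card_mul_card_inf S A
  have h2 : (↑(S ⊔ A) : Set G) = S * A := coe_mul_of_right_le_normalizer_left S A hAS
  rw [← h1, ← h2]
  exact dvd_mul_right _ _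

end Cfsg.Agent.PLocal.CoprimeRPart
end

-- part: S0614
section
set_option autoImplicit false
open Cfsg

namespace Cfsg.Agent.S0614

/-- The commutator of the p'-core with a minimal nontrivially-acting best offender is a 3-group (when p = 2) or a non-abelian 2-group (when p = 3). -/
theorem result {G : Type*} [Group G] [Finite G] {p : ℕ} [Fact p.Prime] (V H : Subgroup G) (hV : Cfsg.IsElementaryAbelian p V) (hHV : H ≤ Subgroup.normalizer (V : Set G)) (hf : H ⊓ Subgroup.centralizer (V : Set G) = ⊥) (hS1 : Subgroup.centralizer (Cfsg.pPrimeCore p ↥H : Set ↥H) ≤ Cfsg.pPrimeCore p ↥H) (hS3 : H = ⨆ A : {A : Subgroup G // A ≤ H ∧ Cfsg.IsBestOffenderOn p V A}, (A : Subgroup G)) (hH1 : H ≠ ⊥) (A : Subgroup G) (hAH : A ≤ H) (hA : Cfsg.IsBestOffenderOn p V A) (hAV : ⁅V, A⁆ ≠ ⊥) (hmin : ∀ B : Subgroup G, B ≤ A → Cfsg.IsBestOffenderOn p V B → ⁅V, B⁆ ≠ ⊥ → B = A) : (p = 2 ∧ IsPGroup 3 ↥(⁅((Cfsg.pPrimeCore p ↥H).map H.subtype), A⁆))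 ∨ (p = 3 ∧ IsPGroup 2 ↥(⁅((Cfsg.pPrimeCore p ↥H).map H.subtype), A⁆) ∧ ¬ IsMulCommutative ↥(⁅((Cfsg.pPrimeCore p ↥H).map H.subtype), A⁆)) := by
  classical
  have hp : p.Prime := Fact.out
  set Q : Subgroup G := (Cfsg.pPrimeCore p ↥H).map H.subtype with hQ
  have hQH : Q ≤ H := Cfsg.Agent.PLocal.FFPair.core_le p H
  have hQc : (Nat.card Q).Coprime p := Cfsg.Agent.PLocal.FFPair.core_coprime p H
  have hQp : ¬ p ∣ Nat.card Q := fun h => hp.one_lt.ne' (Nat.eq_one_of_dvd_coprimes hQc h dvd_rfl)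
  have hAQ : A ≤ Subgroup.normalizer (Q : Set G) :=
    hAH.trans (Cfsg.Agent.PLocal.FFPair.le_normalizer_core p H)
  have hcardA : Nat.card A = p := (Cfsg.Agent.S0611.result V H hV hHV hf hS1 hS3 hH1 A hAH hA hAV hmin).1
  have hApg : IsPGroup p A := IsPGroup.of_card (n := 1) (by rw [hcardA, pow_one])
  have hAcomm : ∀ a ∈ A, ∀ b ∈ A, a * b = b * a := by
    have hcyc : IsCyclic A := isCyclic_of_prime_card hcardA
    intro a ha b hb
    have : IsMulCommutative A := inferInstance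
    exact congrArg Subtype.val (this.is_comm.comm (⟨a, ha⟩ : A) ⟨b, hb⟩)
  have h613 := fun (x : G) (hx : x ∈ Q) (hxA : x ∉ Subgroup.centralizer (A : Set G)) =>
    Cfsg.Agent.S0613.result V H hV hHV hf hS1 hS3 hH1 A hAH hA hAV hmin x hx hxA
  obtain ⟨x₀, hx₀, hx₀A⟩ : ∃ x ∈ Q, x ∉ Subgroup.centralizer (A : Set G) := by
    by_contra hno
    push Not at hno
    have h1 : A ≤ Subgroup.centralizer (Q : Set G) := by
      rw [Subgroup.le_centralizer_iff]; exact hno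
    have h2 := Cfsg.Agent.PLocal.FFPair.inf_centralizer_core_eq_bot (p := p) hS1 hAH hApg
    rw [inf_eq_left.mpr h1] at h2
    apply hAV
    rw [h2]
    exact Subgroup.commutator_bot_right V
  -- bound on the order of `SL(2,p)` when a `q`-group is not centralized
  have key : ∀ q : ℕ, q.Prime → ∀ S : Subgroup G, S ≤ Q → IsPGroup q S →
      (∀ a ∈ A, ∀ u ∈ S, a * u * a⁻¹ ∈ S) → ¬ S ≤ Subgroup.centralizer (A : Set G) →
      ∃ n : ℕ, Nat.card (Matrix.SpecialLinearGroup (Fin 2) (ZMod p)) ∣ q ^ n * p := by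
    intro q hq S hSQ hS hSA hSC
    obtain ⟨x, hxS, hx⟩ := SetLike.not_le_iff_exists.mp hSC
    obtain ⟨-, -, -, ⟨e⟩⟩ := h613 x (hSQ hxS) hx
    have : Fact q.Prime := ⟨hq⟩
    have hAS : A ≤ Subgroup.normalizer (S : Set G) := by
      intro a ha
      rw [Subgroup.mem_normalizer_iff]
      intro u
      refine ⟨fun hu => hSA a ha u hu, fun hu => ?_⟩
      have := hSA a⁻¹ (inv_mem ha) _ hu
      simpa [mul_assoc] using this
    obtain ⟨n, hn⟩ := IsPGroup.iff_card.mp hS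
    refine ⟨n, ?_⟩
    rw [← Nat.card_congr e.toEquiv, ← hn, ← hcardA]
    refine dvd_trans ?_ (Cfsg.Agent.PLocal.CoprimeRPart.card_sup_dvd hAS)
    refine Subgroup.card_dvd_of_le ((Cfsg.Agent.PLocal.CoprimeRPart.sup_conj_le hxS).trans ?_)
    exact sup_le_sup_right ((Subgroup.le_normalizer_iff_commutator_le_left).mp hAS) A
  obtain ⟨hp23, -, -, ⟨e₀⟩⟩ := h613 x₀ hx₀ hx₀A
  rcases hp23 with rfl | rfl
  · left
    refine ⟨rfl, ?_⟩
    have : Fact (Nat.Prime 3) := ⟨by norm_num⟩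
    refine Cfsg.Agent.PLocal.CoprimeRPart.isPGroup_commutator hApg hQp hAQ ?_
    intro q hq hq3 S hSQ hS hSA
    by_contra hSC
    obtain ⟨n, hn⟩ := key q hq S hSQ hS hSA hSC
    rw [Cfsg.Agent.PLocal.CoprimeRPart.card_sl_two_two] at hn
    have h3 : 3 ∣ q ^ n * 2 := dvd_trans (by norm_num) hn
    rcases (Nat.Prime.dvd_mul (by norm_num)).mp h3 with h | h
    · exact hq3 ((Nat.prime_dvd_prime_iff_eq (by norm_num) hq).mp
        ((Nat.Prime.dvd_of_dvd_pow (by norm_num) h))).symm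
    · omega
  · right
    refine ⟨rfl, ?_, ?_⟩
    · have : Fact (Nat.Prime 2) := ⟨by norm_num⟩
      refine Cfsg.Agent.PLocal.CoprimeRPart.isPGroup_commutator hApg hQp hAQ ?_
      intro q hq hq2 S hSQ hS hSA
      by_contra hSC
      obtain ⟨n, hn⟩ := key q hq S hSQ hS hSA hSC
      rw [Cfsg.Agent.PLocal.CoprimeRPart.card_sl_two_three] at hn
      have h2 : 2 ∣ q ^ n * 3 := dvd_trans (by norm_num) hn
      rcases (Nat.Prime.dvd_mul (by norm_num)).mp h2 with h | h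
      · exact hq2 ((Nat.prime_dvd_prime_iff_eq (by norm_num) hq).mp
          ((Nat.Prime.dvd_of_dvd_pow (by norm_num) h))).symm
      · omega
    · exact Cfsg.Agent.PLocal.CoprimeRPart.not_isMulCommutative e₀
        (Cfsg.Agent.PLocal.CoprimeRPart.sup_conj_le hx₀) hAcomm
        (Subgroup.normalizer_commutator_ge_right Q A)

end Cfsg.Agent.S0614
end
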