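import Mathlib
import Cfsg.Prelude.Def_Solvable
import Cfsg.Agent.Lib.Cores
import Cfsg.Agent.Lib.SubnormalJoin
import Cfsg.Prelude.Def_Transfer
import Cfsg.Agent.Lib.ProductSet
import Cfsg.Statements.S0615
set_option linter.all false

-- part: PLocal/RelSubnormal
section
/-!
Relative subnormality of subgroups of an ambient group: `SN X E` says that `X ≤ E` and `X` is
subnormal in `E`.
-/

set_option autoImplicit false
open Pointwise

namespace Cfsg.Agent.PLocal.RelSubnormal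

variable {G : Type*} [Group G]

/-- `X` is a subnormal subgroup of `E`. -/
def SN (X E : Subgroup G) : Prop := X ≤ E ∧ (X.subgroupOf E).IsSubnormal

theorem SN.le {X E : Subgroup G} (h : SN X E) : X ≤ E := h.1

theorem SN.refl (X : Subgroup G) : SN X X := by
  refine ⟨le_rfl, ?_⟩
  rw [Subgroup.subgroupOf_self]
  exact Subgroup.IsSubnormal.top

theorem SN.trans {X Y E : Subgroup G} (h1 : SN X Y) (h2 : SN Y E) : SN X E := by
  refine ⟨h1.1.trans h2.1, ?_⟩
  have hle : X.subgroupOf E ≤ Y.subgroupOf E := Subgroup.comap_mono h1.1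
  refine Subgroup.IsSubnormal.trans hle ?_ h2.2
  exact Subgroup.IsSubnormal.comap (Subgroup.subgroupOfEquivOfLe h2.1).toMonoidHom h1.2

theorem SN.mono {X E F : Subgroup G} (h : SN X E) (hXF : X ≤ F) (hFE : F ≤ E) : SN X F := by
  refine ⟨hXF, ?_⟩
  exact Subgroup.IsSubnormal.comap (Subgroup.inclusion hFE) h.2

theorem SN.sup [Finite G] {X Y E : Subgroup G} (h1 : SN X E) (h2 : SN Y E) : SN (X ⊔ Y) E := by
  refine ⟨sup_le h1.1 h2.1, ?_⟩
  rw [Subgroup.subgroupOf_sup h1.1 h2.1]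
  exact Lib.SubnormalJoin.isSubnormal_sup h1.2 h2.2

theorem SN.of_normal {X E : Subgroup G} (h : X ≤ E) (hn : E ≤ Subgroup.normalizer (X : Set G)) :
    SN X E := by
  refine ⟨h, ?_⟩
  exact ((Subgroup.normal_subgroupOf_iff_le_normalizer h).mpr hn).isSubnormal

theorem SN.conj {X E : Subgroup G} (h : SN X E) {g : G} (hg : g ∈ E) :
    SN (MulAut.conj g • X) E := by
  have hle : MulAut.conj g • X ≤ E := by
    intro y hy
    rw [Subgroup.mem_pointwise_smul_iff_inv_smul_mem] at hy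
    have := h.1 hy
    simp only [MulAut.smul_def, MulAut.conj_inv_apply] at this
    have h2 := E.mul_mem (E.mul_mem hg this) (E.inv_mem hg)
    simpa [mul_assoc] using h2
  refine ⟨hle, ?_⟩
  have := Subgroup.IsSubnormal.smul h.2 (MulAut.conj (⟨g, hg⟩ : E))
  convert this using 1
  ext y
  rw [Subgroup.mem_pointwise_smul_iff_inv_smul_mem, Subgroup.mem_subgroupOf,
    Subgroup.mem_pointwise_smul_iff_inv_smul_mem, Subgroup.mem_subgroupOf]
  simp [MulAut.smul_def]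

/-- A proper subnormal subgroup lies in a proper normal subgroup. -/
theorem SN.exists_normal {X E : Subgroup G} (h : SN X E) (hne : X ≠ E) :
    ∃ N : Subgroup G, X ≤ N ∧ N < E ∧ E ≤ Subgroup.normalizer (N : Set G) := by
  have hne' : X.subgroupOf E ≠ ⊤ := by
    intro h'
    rw [Subgroup.subgroupOf_eq_top] at h'
    exact hne (le_antisymm h.1 h')
  obtain ⟨K, hK, hXK, hKt⟩ := h.2.exists_normal_and_le_and_lt_top_of_ne hne'
  refine ⟨K.map E.subtype, ?_, ?_, ?_⟩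
  · intro x hx
    exact ⟨⟨x, h.1 hx⟩, hXK (by simpa [Subgroup.mem_subgroupOf] using hx), rfl⟩
  · refine lt_of_le_of_ne (Subgroup.map_subtype_le K) ?_
    intro h'
    apply hKt.ne
    rw [eq_top_iff]
    intro y _
    have : (y : G) ∈ K.map E.subtype := by rw [h']; exact y.2
    obtain ⟨z, hz, hzy⟩ := this
    have : z = y := Subtype.ext hzy
    rwa [← this]
  · have := Subgroup.map_mono (f := E.subtype) (Subgroup.normalizer_eq_top_iff.mpr hK).ge
    rw [← MonoidHom.range_eq_map, Subgroup.range_subtype] at this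
    exact this.trans (Subgroup.le_normalizer_map _)

/-- A subnormal `p`-subgroup of a group lies in the `p`-core. -/
theorem le_pCore_of_isSubnormal {p : ℕ} {X : Subgroup G} (h : X.IsSubnormal) (hp : IsPGroup p X) :
    X ≤ pCore p G := by
  -- every normal `p`-subgroup of a subnormal subgroup lies in the `p`-core
  suffices H : ∀ H : Subgroup G, H.IsSubnormal → (pCore p H).map H.subtype ≤ pCore p G by
    refine le_trans ?_ (H X h)
    have h1 : pCore p X = ⊤ := (Lib.Cores.pCore_eq_top_iff p).mpr hp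
    rw [h1, ← MonoidHom.range_eq_map, Subgroup.range_subtype]
  intro H hH
  induction hH with
  | top =>
    have h1 := Lib.Cores.map_subtype_pCore p (G := G) (N := ⊤) inferInstance
    rw [h1]
    exact (inf_le_right : (⊤ : Subgroup G) ⊓ pCore p G ≤ pCore p G)
  | step A B hle hB hN ih =>
    have h1 := Lib.Cores.map_subtype_pCore p (G := B) (N := A.subgroupOf B) hN
    refine le_trans ?_ ih
    have h2 : (pCore p A).map A.subtype =
        ((pCore p (A.subgroupOf B)).map (A.subgroupOf B).subtype).map B.subtype := by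
      rw [← Lib.Cores.map_equiv_pCore (Subgroup.subgroupOfEquivOfLe hle).symm p,
        Subgroup.map_map, Subgroup.map_map]
      congr 1
    rw [h2, h1]
    exact Subgroup.map_mono inf_le_right

theorem SN.eq_bot_of_isPGroup {p : ℕ} {X E : Subgroup G} (h : SN X E) (hE : pCore p E = ⊥)
    (hp : IsPGroup p X) : X = ⊥ := by
  have h1 : IsPGroup p (X.subgroupOf E) := hp.comap_of_injective _ E.subtype_injective
  have h2 := le_pCore_of_isSubnormal h.2 h1
  rw [hE, le_bot_iff, Subgroup.subgroupOf_eq_bot] at h2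
  rw [eq_bot_iff]
  intro x hx
  exact (Subgroup.disjoint_def.mp h2) hx (h.1 hx)

theorem SN.pCore_eq_bot {p : ℕ} {X E : Subgroup G} (h : SN X E) (hE : pCore p E = ⊥) :
    pCore p X = ⊥ := by
  have h1 : SN ((pCore p X).map X.subtype) X := by
    refine SN.of_normal (Subgroup.map_subtype_le _) ?_
    have := Subgroup.map_mono (f := X.subtype)
      (Subgroup.normalizer_eq_top_iff.mpr (Lib.Cores.pCore_normal (G := X) p)).ge
    rw [← MonoidHom.range_eq_map, Subgroup.range_subtype] at this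
    exact this.trans (Subgroup.le_normalizer_map _)
  have h2 := (h1.trans h).eq_bot_of_isPGroup hE ((Lib.Cores.pCore_isPGroup p).map _)
  rwa [Subgroup.map_eq_bot_iff_of_injective _ X.subtype_injective] at h2

end Cfsg.Agent.PLocal.RelSubnormal
end

-- part: PLocal/SubnormalPair
section
/-!
Two subnormal subgroups `E₁`, `E₂` acting on an elementary abelian `p`-group `V`
(everything inside an ambient group). Quadratic action, kernels on `V / W`, and the direct product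
theorem for two subnormal subgroups acting irreducibly on their commutator modules.
-/

set_option autoImplicit false
open Pointwise Cfsg Subgroup
open scoped commutatorElement
open Cfsg.Agent.PLocal.RelSubnormal

namespace Cfsg.Agent.PLocal.SubnormalPair

variable {G : Type*} [Group G]

theorem mem_commutator_V {V X : Subgroup G} {v x : G} (hv : v ∈ V) (hx : x ∈ X) :
    ⁅v, x⁆ ∈ ⁅V, X⁆ := commutator_mem_commutator hv hx

theorem commutator_V_le {V X : Subgroup G} (hX : X ≤ normalizer (V : Set G)) : ⁅V, X⁆ ≤ V :=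
  le_normalizer_iff_commutator_le_left.mp hX

theorem comm_of_elementary {p : ℕ} {V : Subgroup G} (hV : IsElementaryAbelian p V) {a b : G}
    (ha : a ∈ V) (hb : b ∈ V) : a * b = b * a := by
  have := hV.1.is_comm.comm ⟨a, ha⟩ ⟨b, hb⟩
  exact congrArg Subtype.val this

/-- An element acting quadratically on an elementary abelian `p`-group: its `p`-th power acts
trivially. -/
theorem pow_mem_centralizer {p : ℕ} {V : Subgroup G} (hV : IsElementaryAbelian p V) {x : G}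
    (hx : x ∈ normalizer (V : Set G)) (h : ∀ v ∈ V, x * ⁅v, x⁆ = ⁅v, x⁆ * x) :
    x ^ p ∈ centralizer (V : Set G) := by
  rw [mem_centralizer_iff]
  intro v hv
  have hw : x * v * x⁻¹ ∈ V := (mem_normalizer_iff.mp hx v).mp hv
  set w := ⁅x, v⁆ with hwdef
  have hwV : w ∈ V := by
    rw [hwdef, commutatorElement_def]
    exact V.mul_mem hw (V.inv_mem hv)
  have hxw : Commute x w := by
    have h1 : Commute x ⁅v, x⁆ := h v hv
    rw [hwdef, ← commutatorElement_inv v x]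
    exact h1.inv_right
  have hxv : x * v = w * v * x := by
    rw [hwdef, commutatorElement_def]; group
  have key : ∀ n : ℕ, x ^ n * v = w ^ n * v * x ^ n := by
    intro n
    induction n with
    | zero => simp
    | succ n ih =>
      calc x ^ (n + 1) * v = x ^ n * (x * v) := by rw [pow_succ, mul_assoc]
        _ = x ^ n * (w * v * x) := by rw [hxv]
        _ = (x ^ n * w) * v * x := by group
        _ = (w * x ^ n) * v * x := by rw [(hxw.pow_left n).eq]
        _ = w * (x ^ n * v) * x := by group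
        _ = w * (w ^ n * v * x ^ n) * x := by rw [ih]
        _ = w ^ (n + 1) * v * x ^ (n + 1) := by rw [pow_succ' w, pow_succ x]; group
  rw [key p, hV.2 w hwV, one_mul]

/-- A subgroup acting faithfully and quadratically on an elementary abelian `p`-group is a
`p`-group. -/
theorem isPGroup_of_quadratic {p : ℕ} {V X : Subgroup G} (hV : IsElementaryAbelian p V)
    (hX : X ≤ normalizer (V : Set G)) (hf : X ⊓ centralizer (V : Set G) = ⊥)
    (h : ∀ x ∈ X, ∀ v ∈ V, x * ⁅v, x⁆ = ⁅v, x⁆ * x) : IsPGroup p X := by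
  intro x
  refine ⟨1, ?_⟩
  have h1 := pow_mem_centralizer hV (hX x.2) (h x x.2)
  have h2 : (x : G) ^ p ∈ X ⊓ centralizer (V : Set G) := ⟨X.pow_mem x.2 p, h1⟩
  rw [hf, mem_bot] at h2
  rw [pow_one]
  exact Subtype.ext h2

theorem isPGroup_of_commutator_commutator {p : ℕ} {V X : Subgroup G}
    (hV : IsElementaryAbelian p V)
    (hX : X ≤ normalizer (V : Set G)) (hf : X ⊓ centralizer (V : Set G) = ⊥)
    (h : ⁅⁅V, X⁆, X⁆ = ⊥) : IsPGroup p X := by
  refine isPGroup_of_quadratic hV hX hf fun x hx v hv => ?_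
  rw [commutator_eq_bot_iff_le_centralizer] at h
  exact mem_centralizer_iff.mp (h (mem_commutator_V hv hx)) x hx

/-- The subgroup of elements normalizing `V` and `W` and acting trivially on `V / W`. -/
def actKer (V W : Subgroup G) : Subgroup G where
  carrier := {x | x ∈ normalizer (V : Set G) ∧ x ∈ normalizer (W : Set G) ∧ ∀ v ∈ V, ⁅x, v⁆ ∈ W}
  one_mem' := ⟨one_mem _, one_mem _, fun v _ => by simp⟩
  mul_mem' := by
    rintro x y ⟨hx1, hx2, hx3⟩ ⟨hy1, hy2, hy3⟩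
    refine ⟨mul_mem hx1 hy1, mul_mem hx2 hy2, fun v hv => ?_⟩
    rw [commutatorElement_mul_left_eq_conj_mul]
    exact mul_mem ((mem_normalizer_iff.mp hx2 _).mp (hy3 v hv)) (hx3 v hv)
  inv_mem' := by
    rintro x ⟨hx1, hx2, hx3⟩
    refine ⟨inv_mem hx1, inv_mem hx2, fun v hv => ?_⟩
    have h1 : ⁅x, x⁻¹ * v * x⁆ ∈ W := by
      apply hx3
      have := (mem_normalizer_iff.mp (inv_mem hx1) v).mp hv
      rwa [inv_inv] at this
    have h2 : ⁅x⁻¹, v⁆ = (⁅x, x⁻¹ * v * x⁆)⁻¹ := by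
      simp only [commutatorElement_def]; group
    rw [h2]
    exact inv_mem h1

theorem mem_actKer {V W : Subgroup G} {x : G} :
    x ∈ actKer V W ↔
      x ∈ normalizer (V : Set G) ∧ x ∈ normalizer (W : Set G) ∧ ∀ v ∈ V, ⁅x, v⁆ ∈ W := Iff.rfl

theorem conj_mem_actKer {V W : Subgroup G} {x g : G}
    (hx : x ∈ actKer V W) (hg1 : g ∈ normalizer (V : Set G))
    (hg2 : g ∈ normalizer (W : Set G)) : g * x * g⁻¹ ∈ actKer V W := by
  obtain ⟨h1, h2, h3⟩ := hx
  refine ⟨mul_mem (mul_mem hg1 h1) (inv_mem hg1), mul_mem (mul_mem hg2 h2) (inv_mem hg2),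
    fun v hv => ?_⟩
  have h4 : ⁅g * x * g⁻¹, v⁆ = g * ⁅x, g⁻¹ * v * g⁆ * g⁻¹ := by
    simp only [commutatorElement_def]; group
  rw [h4]
  refine (mem_normalizer_iff.mp hg2 _).mp (h3 _ ?_)
  have := (mem_normalizer_iff.mp (inv_mem hg1) v).mp hv
  rwa [inv_inv] at this

/-- If `E₂` centralizes `[V, E₁]` then `[E₁, E₂] = 1`, provided `O_p(⟨E₁, E₂⟩) = 1`. -/
theorem commutator_eq_bot_of_centralizing {p : ℕ} {V E E₁ E₂ : Subgroup G}
    (hV : IsElementaryAbelian p V) (hEV : E ≤ normalizer (V : Set G))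
    (hf : E ⊓ centralizer (V : Set G) = ⊥) (hgen : E = E₁ ⊔ E₂) (hOp : pCore p E = ⊥)
    (h : ⁅⁅V, E₁⁆, E₂⁆ = ⊥) : ⁅E₁, E₂⁆ = ⊥ := by
  have hE₁ : E₁ ≤ E := hgen ▸ le_sup_left
  have hE₂ : E₂ ≤ E := hgen ▸ le_sup_right
  have hV1V : ⁅V, E₁⁆ ≤ V := commutator_V_le (hE₁.trans hEV)
  have hc : E₂ ≤ centralizer ((⁅V, E₁⁆ : Subgroup G) : Set G) := by
    rw [← commutator_eq_bot_iff_le_centralizer, commutator_comm]
    exact h
  have hn1 : E₁ ≤ normalizer ((⁅V, E₁⁆ : Subgroup G) : Set G) := normalizer_commutator_ge_right V E₁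
  have hn2 : E₂ ≤ normalizer ((⁅V, E₁⁆ : Subgroup G) : Set G) :=
    hc.trans (centralizer_le_normalizer _)
  have hnE : E ≤ normalizer ((⁅V, E₁⁆ : Subgroup G) : Set G) := by
    rw [hgen]; exact sup_le hn1 hn2
  have hE₁K : E₁ ≤ actKer V ⁅V, E₁⁆ := by
    intro x hx
    refine ⟨hEV (hE₁ hx), hn1 hx, fun v hv => ?_⟩
    rw [← commutatorElement_inv]
    exact inv_mem (mem_commutator_V hv hx)
  have hDK : ⁅E₁, E₂⁆ ≤ actKer V ⁅V, E₁⁆ := by
    rw [commutator_le]
    intro a ha b hb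
    rw [commutatorElement_def]
    have h1 : b * a⁻¹ * b⁻¹ ∈ actKer V ⁅V, E₁⁆ :=
      conj_mem_actKer (inv_mem (hE₁K ha)) (hEV (hE₂ hb)) (hn2 hb)
    have h2 := mul_mem (hE₁K ha) h1
    simpa [mul_assoc] using h2
  have hDC : ⁅E₁, E₂⁆ ≤ centralizer ((⁅V, E₁⁆ : Subgroup G) : Set G) := by
    rw [commutator_le]
    intro a ha b hb
    rw [commutatorElement_def]
    have h1 : a * b * a⁻¹ ∈ centralizer ((⁅V, E₁⁆ : Subgroup G) : Set G) := by
      rw [mem_centralizer_iff]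
      intro w hw
      have h2 : a⁻¹ * w * a ∈ (⁅V, E₁⁆ : Subgroup G) := by
        have := (mem_normalizer_iff.mp (inv_mem (hn1 ha)) w).mp hw
        rwa [inv_inv] at this
      have h3 := mem_centralizer_iff.mp (hc hb) _ h2
      calc w * (a * b * a⁻¹) = a * ((a⁻¹ * w * a) * b) * a⁻¹ := by group
        _ = a * (b * (a⁻¹ * w * a)) * a⁻¹ := by rw [h3]
        _ = a * b * a⁻¹ * w := by group
    exact mul_mem h1 (inv_mem (hc hb))
  have hDE : ⁅E₁, E₂⁆ ≤ E := by rw [hgen]; exact commutator_le_sup _ _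
  have hp : IsPGroup p (⁅E₁, E₂⁆ : Subgroup G) := by
    refine isPGroup_of_quadratic hV (hDE.trans hEV) ?_ ?_
    · rw [eq_bot_iff, ← hf]
      exact inf_le_inf_right _ hDE
    · intro x hx v hv
      have h1 : ⁅x, v⁆ ∈ (⁅V, E₁⁆ : Subgroup G) := (hDK hx).2.2 v hv
      have h2 : ⁅v, x⁆ ∈ (⁅V, E₁⁆ : Subgroup G) := by
        rw [← commutatorElement_inv]; exact inv_mem h1
      exact (mem_centralizer_iff.mp (hDC hx) _ h2).symm
  have hsn : SN ⁅E₁, E₂⁆ E := by
    refine SN.of_normal hDE ?_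
    rw [hgen]
    exact sup_le (normalizer_commutator_ge_left _ _) (normalizer_commutator_ge_right _ _)
  exact hsn.eq_bot_of_isPGroup hOp hp

theorem commutator_swap {V E₁ E₂ : Subgroup G} (h1 : ⁅E₁, E₂⁆ = ⊥) (h2 : ⁅⁅V, E₁⁆, E₂⁆ = ⊥) :
    ⁅⁅V, E₂⁆, E₁⁆ = ⊥ := by
  apply commutator_commutator_eq_bot_of_rotate
  · rw [commutator_comm E₂ E₁, h1, commutator_bot_left]
  · rw [commutator_comm E₁ V]; exact h2

/-- The conclusion of the direct product theorem from `[V, E₁, E₂] = 1`. -/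
theorem conclusion {p : ℕ} {V E E₁ E₂ : Subgroup G}
    (hV : IsElementaryAbelian p V) (hEV : E ≤ normalizer (V : Set G))
    (hf : E ⊓ centralizer (V : Set G) = ⊥) (hgen : E = E₁ ⊔ E₂) (hOp : pCore p E = ⊥)
    (hirr₁ : ∀ U : Subgroup G, U ≤ ⁅V, E₁⁆ → E₁ ≤ normalizer (U : Set G) → U = ⊥ ∨ U = ⁅V, E₁⁆)
    (h12 : ¬ ⁅V, E₁⁆ ≤ ⁅V, E₂⁆)
    (h : ⁅⁅V, E₁⁆, E₂⁆ = ⊥) :
    ⁅E₁, E₂⁆ = ⊥ ∧ E₁ ⊓ E₂ = ⊥ ∧ ⁅V, E₁⁆ ⊓ ⁅V, E₂⁆ = ⊥ ∧ ⁅V, E⁆ = ⁅V, E₁⁆ ⊔ ⁅V, E₂⁆ := by
  have hE₁ : E₁ ≤ E := hgen ▸ le_sup_left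
  have hE₂ : E₂ ≤ E := hgen ▸ le_sup_right
  have hV1V : ⁅V, E₁⁆ ≤ V := commutator_V_le (hE₁.trans hEV)
  have hV2V : ⁅V, E₂⁆ ≤ V := commutator_V_le (hE₂.trans hEV)
  have h1 : ⁅E₁, E₂⁆ = ⊥ := commutator_eq_bot_of_centralizing hV hEV hf hgen hOp h
  have h2 : ⁅⁅V, E₂⁆, E₁⁆ = ⊥ := commutator_swap h1 h
  have hc1 : E₂ ≤ centralizer ((⁅V, E₁⁆ : Subgroup G) : Set G) := by
    rw [← commutator_eq_bot_iff_le_centralizer, commutator_comm]
    exact h
  have hc2 : E₁ ≤ centralizer ((⁅V, E₂⁆ : Subgroup G) : Set G) := by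
    rw [← commutator_eq_bot_iff_le_centralizer, commutator_comm]
    exact h2
  have h3 : ⁅V, E₁⁆ ⊓ ⁅V, E₂⁆ = ⊥ := by
    rcases hirr₁ (⁅V, E₁⁆ ⊓ ⁅V, E₂⁆) inf_le_left
      ((hc2.trans (centralizer_le inf_le_right)).trans (centralizer_le_normalizer _)) with h | h
    · exact h
    · exact absurd (inf_eq_left.mp h) h12
  refine ⟨h1, ?_, h3, ?_⟩
  · rw [eq_bot_iff, ← hf]
    refine le_inf (inf_le_left.trans hE₁) ?_
    intro x hx
    rw [mem_centralizer_iff]
    intro v hv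
    have h4 : ⁅v, x⁆ ∈ (⁅V, E₁⁆ ⊓ ⁅V, E₂⁆ : Subgroup G) :=
      ⟨mem_commutator_V hv hx.1, mem_commutator_V hv hx.2⟩
    rw [h3, mem_bot, commutatorElement_eq_one_iff_mul_comm] at h4
    exact h4
  · apply le_antisymm
    · have hn1 : E₁ ≤ normalizer ((⁅V, E₁⁆ ⊔ ⁅V, E₂⁆ : Subgroup G) : Set G) :=
        (le_inf (normalizer_commutator_ge_right V E₁) (hc2.trans (centralizer_le_normalizer _))).trans
          (normalizer_inf_normalizer_le_normalizer_sup _ _)
      have hn2 : E₂ ≤ normalizer ((⁅V, E₁⁆ ⊔ ⁅V, E₂⁆ : Subgroup G) : Set G) :=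
        (le_inf (hc1.trans (centralizer_le_normalizer _)) (normalizer_commutator_ge_right V E₂)).trans
          (normalizer_inf_normalizer_le_normalizer_sup _ _)
      have hEK : E ≤ actKer V (⁅V, E₁⁆ ⊔ ⁅V, E₂⁆) := by
        rw [hgen]
        refine sup_le ?_ ?_
        · intro x hx
          refine ⟨hEV (hE₁ hx), hn1 hx, fun v hv => ?_⟩
          rw [← commutatorElement_inv]
          exact inv_mem (mem_sup_left (mem_commutator_V hv hx))
        · intro x hx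
          refine ⟨hEV (hE₂ hx), hn2 hx, fun v hv => ?_⟩
          rw [← commutatorElement_inv]
          exact inv_mem (mem_sup_right (mem_commutator_V hv hx))
      rw [commutator_le]
      intro v hv x hx
      rw [← commutatorElement_inv]
      exact inv_mem ((hEK hx).2.2 v hv)
    · exact sup_le (commutator_mono le_rfl hE₁) (commutator_mono le_rfl hE₂)

theorem conj_smul_commutator {V A : Subgroup G} {x : G} (hx : x ∈ normalizer (V : Set G)) :
    ⁅V, MulAut.conj x • A⁆ = MulAut.conj x • ⁅V, A⁆ := by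
  have h1 : MulAut.conj x • V = V := mem_normalizer_iff_map_conj_eq.mp hx
  conv_lhs => rw [← h1]
  exact (map_commutator V A (MulAut.conj x).toMonoidHom).symm

theorem mem_conj_smul {A : Subgroup G} {x y : G} :
    y ∈ MulAut.conj x • A ↔ x⁻¹ * y * x ∈ A := by
  rw [mem_pointwise_smul_iff_inv_smul_mem]
  simp [MulAut.smul_def]

theorem conj_mem_conj_smul {A : Subgroup G} {x a : G} (ha : a ∈ A) :
    x * a * x⁻¹ ∈ MulAut.conj x • A := by
  rw [mem_conj_smul]
  have : x⁻¹ * (x * a * x⁻¹) * x = a := by group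
  rwa [this]

theorem card_conj_smul {A : Subgroup G} (x : G) :
    Nat.card ↥(MulAut.conj x • A) = Nat.card A :=
  Nat.card_congr (equivSMul (MulAut.conj x) A).symm.toEquiv

theorem mem_normalizer_iff_conj_smul {A : Subgroup G} {x : G} :
    x ∈ normalizer (A : Set G) ↔ MulAut.conj x • A = A := mem_normalizer_iff_map_conj_eq

/-- The hypotheses of the theorem packaged. -/
structure Pair (p : ℕ) (V E E₁ E₂ : Subgroup G) : Prop where
  hEV : E ≤ normalizer (V : Set G)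
  hf : E ⊓ centralizer (V : Set G) = ⊥
  hgen : E = E₁ ⊔ E₂
  hs₁ : SN E₁ E
  hs₂ : SN E₂ E
  hOp : pCore p E = ⊥
  hirr₁ : ∀ U : Subgroup G, U ≤ ⁅V, E₁⁆ → E₁ ≤ normalizer (U : Set G) → U = ⊥ ∨ U = ⁅V, E₁⁆
  hirr₂ : ∀ U : Subgroup G, U ≤ ⁅V, E₂⁆ → E₂ ≤ normalizer (U : Set G) → U = ⊥ ∨ U = ⁅V, E₂⁆
  h12 : ¬ ⁅V, E₁⁆ ≤ ⁅V, E₂⁆
  h21 : ¬ ⁅V, E₂⁆ ≤ ⁅V, E₁⁆
  hc₁ : 2 < Nat.card E₁
  hc₂ : 2 < Nat.card E₂

theorem Pair.symm {p : ℕ} {V E E₁ E₂ : Subgroup G} (h : Pair p V E E₁ E₂) : Pair p V E E₂ E₁ :=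
  ⟨h.hEV, h.hf, by rw [sup_comm]; exact h.hgen, h.hs₂, h.hs₁, h.hOp, h.hirr₂, h.hirr₁, h.h21,
    h.h12, h.hc₂, h.hc₁⟩

/-- `C_{[V,A]}(A) = 1`. -/
theorem inf_centralizer_eq_bot {p : ℕ} {V E A : Subgroup G}
    (hV : IsElementaryAbelian p V) (hEV : E ≤ normalizer (V : Set G))
    (hf : E ⊓ centralizer (V : Set G) = ⊥) (hs : SN A E) (hOp : pCore p E = ⊥)
    (hirr : ∀ U : Subgroup G, U ≤ ⁅V, A⁆ → A ≤ normalizer (U : Set G) → U = ⊥ ∨ U = ⁅V, A⁆)
    (hc : 2 < Nat.card A) : ⁅V, A⁆ ⊓ centralizer (A : Set G) = ⊥ := by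
  rcases hirr (⁅V, A⁆ ⊓ centralizer (A : Set G)) inf_le_left (by
    refine le_trans ?_ (centralizer_le_normalizer _)
    refine le_trans ?_ (centralizer_le inf_le_right)
    intro a ha
    rw [mem_centralizer_iff]
    intro c hc
    exact (mem_centralizer_iff.mp hc a ha).symm) with h | h
  · exact h
  · exfalso
    have h1 : ⁅⁅V, A⁆, A⁆ = ⊥ := by
      rw [commutator_eq_bot_iff_le_centralizer]
      exact inf_eq_left.mp h
    have h2 : IsPGroup p A := isPGroup_of_commutator_commutator hV (hs.1.trans hEV)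
      (by rw [eq_bot_iff, ← hf]; exact inf_le_inf_right _ hs.1) h1
    have h3 := hs.eq_bot_of_isPGroup hOp h2
    rw [h3] at hc
    simp at hc

theorem conj_pair [Finite G] {p : ℕ} {V E A : Subgroup G}
    (hV : IsElementaryAbelian p V)
    (IH : ∀ F F₁ F₂ : Subgroup G, Nat.card F < Nat.card E → Pair p V F F₁ F₂ →
      ⁅⁅V, F₁⁆, F₂⁆ = ⊥)
    (hEV : E ≤ normalizer (V : Set G))
    (hf : E ⊓ centralizer (V : Set G) = ⊥) (hs : SN A E) (hAE : A ≠ E) (hOp : pCore p E = ⊥)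
    (hirr : ∀ U : Subgroup G, U ≤ ⁅V, A⁆ → A ≤ normalizer (U : Set G) → U = ⊥ ∨ U = ⁅V, A⁆)
    (hc : 2 < Nat.card A) {x : G} (hx : x ∈ E)
    (hxA : MulAut.conj x • ⁅V, A⁆ ≠ ⁅V, A⁆) :
    ⁅V, A⁆ ⊓ MulAut.conj x • ⁅V, A⁆ = ⊥ ∧ ⁅MulAut.conj x • ⁅V, A⁆, A⁆ = ⊥ := by
  have hxV := hEV hx
  have hs' : SN (MulAut.conj x • A) E := hs.conj hx
  set F := A ⊔ MulAut.conj x • A with hF
  have hsF : SN F E := hs.sup hs'
  have hcard : Nat.card F < Nat.card E := by
    obtain ⟨N, hAN, hNE, hEN⟩ := hs.exists_normal hAE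
    have h1 : MulAut.conj x • A ≤ N := by
      have h2 : MulAut.conj x • N = N := mem_normalizer_iff_conj_smul.mp (hEN hx)
      rw [← h2]
      exact pointwise_smul_le_pointwise_smul_iff.mpr hAN
    have h3 : F ≤ N := sup_le hAN h1
    calc Nat.card F ≤ Nat.card N := card_le_of_le h3
      _ < Nat.card E := by
        refine lt_of_le_of_ne (card_le_of_le hNE.le) fun h => hNE.ne ?_
        exact eq_of_le_of_card_ge hNE.le h.ge
  have hcardeq : Nat.card ↥(MulAut.conj x • ⁅V, A⁆) = Nat.card ↥⁅V, A⁆ := card_conj_smul x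
  have hpair : Pair p V F A (MulAut.conj x • A) := by
    refine ⟨hsF.1.trans hEV, ?_, hF, hs.mono le_sup_left hsF.1, hs'.mono le_sup_right hsF.1,
      hsF.pCore_eq_bot hOp, hirr, ?_, ?_, ?_, hc, ?_⟩
    · rw [eq_bot_iff, ← hf]; exact inf_le_inf_right _ hsF.1
    · intro U hU hUn
      rw [conj_smul_commutator hxV] at hU ⊢
      rw [← pointwise_smul_le_pointwise_smul_iff (a := (MulAut.conj x)⁻¹), inv_smul_smul] at hU
      have h1 : A ≤ normalizer (((MulAut.conj x)⁻¹ • U : Subgroup G) : Set G) := by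
        intro a ha
        have h2 := hUn (conj_mem_conj_smul (x := x) ha)
        rw [mem_normalizer_iff_conj_smul] at h2 ⊢
        rw [map_mul, map_mul, map_inv] at h2
        have h3 := congrArg (fun Z => (MulAut.conj x)⁻¹ • Z) h2
        simp only [mul_smul, inv_smul_smul] at h3
        exact h3
      rcases hirr _ hU h1 with h | h
      · left
        rw [inv_smul_eq_iff] at h
        rw [h, smul_bot]
      · right
        rw [inv_smul_eq_iff] at h
        exact h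
    · intro h
      rw [conj_smul_commutator hxV] at h
      exact hxA (eq_of_le_of_card_ge h hcardeq.le).symm
    · intro h
      rw [conj_smul_commutator hxV] at h
      exact hxA (eq_of_le_of_card_ge h hcardeq.ge)
    · rw [card_conj_smul]; exact hc
  have h1 := IH F A (MulAut.conj x • A) hcard hpair
  obtain ⟨h2, _, h3, _⟩ := conclusion hV hpair.hEV hpair.hf hpair.hgen hpair.hOp hpair.hirr₁
    hpair.h12 h1
  have h4 := commutator_swap h2 h1
  rw [conj_smul_commutator hxV] at h3 h4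
  exact ⟨h3, h4⟩

/-- The injection `v ↦ [v, x]` from `V₁` to `V₂`. -/
theorem card_le_card {V₁ V₂ : Subgroup G} [Finite G] {x : G}
    (h : ∀ v ∈ V₁, ⁅v, x⁆ ∈ V₂) (hd : V₁ ⊓ MulAut.conj x • V₁ = ⊥) :
    Nat.card V₁ ≤ Nat.card V₂ := by
  refine Nat.card_le_card_of_injective (fun v : V₁ => (⟨⁅(v : G), x⁆, h v v.2⟩ : V₂)) ?_
  intro v w hvw
  have h1 : ⁅(v : G), x⁆ = ⁅(w : G), x⁆ := congrArg Subtype.val hvw
  have h2 : (v : G) * x * (v : G)⁻¹ = w * x * (w : G)⁻¹ := by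
    simp only [commutatorElement_def] at h1
    exact mul_right_cancel h1
  have h3 : x * ((w : G)⁻¹ * v) * x⁻¹ = (w : G)⁻¹ * v := by
    have h4 : (w : G)⁻¹ * (v * x * (v : G)⁻¹) * v = (w : G)⁻¹ * (w * x * (w : G)⁻¹) * v := by
      rw [h2]
    have h5 : (w : G)⁻¹ * v * x = x * ((w : G)⁻¹ * v) := by
      calc (w : G)⁻¹ * v * x = (w : G)⁻¹ * (v * x * (v : G)⁻¹) * v := by group
        _ = (w : G)⁻¹ * (w * x * (w : G)⁻¹) * v := h4
        _ = x * ((w : G)⁻¹ * v) := by group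
    rw [← h5]; group
  have h6 : (w : G)⁻¹ * v ∈ V₁ ⊓ MulAut.conj x • V₁ := by
    refine ⟨V₁.mul_mem (V₁.inv_mem w.2) v.2, ?_⟩
    rw [← h3]
    exact conj_mem_conj_smul (V₁.mul_mem (V₁.inv_mem w.2) v.2)
  rw [hd, mem_bot, inv_mul_eq_one] at h6
  exact Subtype.ext h6.symm

theorem centralizing_of_normalizing {p : ℕ} {V E E₁ E₂ : Subgroup G}
    (h : Pair p V E E₁ E₂) (hn : E₂ ≤ normalizer ((⁅V, E₁⁆ : Subgroup G) : Set G)) :
    ⁅⁅V, E₁⁆, E₂⁆ = ⊥ := by
  have hE₁ : E₁ ≤ E := h.hs₁.1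
  have hE₂ : E₂ ≤ E := h.hs₂.1
  have hV1V : ⁅V, E₁⁆ ≤ V := commutator_V_le (hE₁.trans h.hEV)
  have h1 : ⁅⁅V, E₁⁆, E₂⁆ ≤ ⁅V, E₁⁆ ⊓ ⁅V, E₂⁆ :=
    le_inf (le_normalizer_iff_commutator_le_left.mp hn) (commutator_mono hV1V le_rfl)
  rcases h.hirr₂ (⁅V, E₁⁆ ⊓ ⁅V, E₂⁆) inf_le_right (by
    intro x hx
    have h2 := mem_normalizer_iff.mp (hn hx)
    have h3 := mem_normalizer_iff.mp (normalizer_commutator_ge_right V E₂ hx)
    rw [mem_normalizer_iff]
    intro y
    rw [mem_inf, mem_inf, h2, h3]) with h4 | h4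
  · rw [h4, le_bot_iff] at h1
    exact h1
  · exact absurd (inf_eq_right.mp h4) h.h21

theorem main_aux [Finite G] {p : ℕ} {V : Subgroup G} (hV : IsElementaryAbelian p V) (n : ℕ) :
    ∀ E E₁ E₂ : Subgroup G, Nat.card E = n → Pair p V E E₁ E₂ → ⁅⁅V, E₁⁆, E₂⁆ = ⊥ := by
  induction n using Nat.strong_induction_on with
  | _ n ih =>
    intro E E₁ E₂ hn hP
    by_contra hne
    have IH : ∀ F F₁ F₂ : Subgroup G, Nat.card F < Nat.card E → Pair p V F F₁ F₂ →
        ⁅⁅V, F₁⁆, F₂⁆ = ⊥ := fun F F₁ F₂ hF hPF => ih _ (hn ▸ hF) F F₁ F₂ rfl hPF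
    have hE₁ : E₁ ≤ E := hP.hs₁.1
    have hE₂ : E₂ ≤ E := hP.hs₂.1
    have hEV := hP.hEV
    have hV1V : ⁅V, E₁⁆ ≤ V := commutator_V_le (hE₁.trans hEV)
    have hV2V : ⁅V, E₂⁆ ≤ V := commutator_V_le (hE₂.trans hEV)
    have A1 : ¬ E₂ ≤ normalizer ((⁅V, E₁⁆ : Subgroup G) : Set G) := fun h =>
      hne (centralizing_of_normalizing hP h)
    have A2 : ¬ E₁ ≤ normalizer ((⁅V, E₂⁆ : Subgroup G) : Set G) := fun h => by
      have h1 := centralizing_of_normalizing hP.symm h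
      have h2 := commutator_eq_bot_of_centralizing hV hEV hP.hf hP.symm.hgen hP.hOp h1
      exact hne (commutator_swap h2 h1)
    have hE₁E : E₁ ≠ E := fun h => A1 (by
      have h1 : E₁ ≤ normalizer ((⁅V, E₁⁆ : Subgroup G) : Set G) := normalizer_commutator_ge_right V E₁
      exact (hE₂.trans h.ge).trans h1)
    have hE₂E : E₂ ≠ E := fun h => A2 (by
      have h1 : E₂ ≤ normalizer ((⁅V, E₂⁆ : Subgroup G) : Set G) := normalizer_commutator_ge_right V E₂
      exact (hE₁.trans h.ge).trans h1)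
    set V₁ : Subgroup G := ⁅V, E₁⁆ with hV₁
    set V₂ : Subgroup G := ⁅V, E₂⁆ with hV₂
    -- conjugates
    have C1 : ∀ x ∈ E₂, MulAut.conj x • V₁ ≠ V₁ →
        V₁ ⊓ MulAut.conj x • V₁ = ⊥ ∧ ⁅MulAut.conj x • V₁, E₁⁆ = ⊥ := fun x hx hxne =>
      conj_pair hV IH hEV hP.hf hP.hs₁ hE₁E hP.hOp hP.hirr₁ hP.hc₁ (hE₂ hx) hxne
    have C1' : ∀ x ∈ E₁, MulAut.conj x • V₂ ≠ V₂ →
        V₂ ⊓ MulAut.conj x • V₂ = ⊥ ∧ ⁅MulAut.conj x • V₂, E₂⁆ = ⊥ := fun x hx hxne =>
      conj_pair hV IH hEV hP.hf hP.hs₂ hE₂E hP.hOp hP.hirr₂ hP.hc₂ (hE₁ hx) hxne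
    obtain ⟨x, hxE₂, hx⟩ : ∃ x ∈ E₂, MulAut.conj x • V₁ ≠ V₁ := by
      by_contra hcon
      push Not at hcon
      exact A1 fun y hy => mem_normalizer_iff_conj_smul.mpr (hcon y hy)
    obtain ⟨y, hyE₁, hy⟩ : ∃ y ∈ E₁, MulAut.conj y • V₂ ≠ V₂ := by
      by_contra hcon
      push Not at hcon
      exact A2 fun y hy => mem_normalizer_iff_conj_smul.mpr (hcon y hy)
    have hcom2 : ∀ v ∈ V, ∀ z ∈ E₂, ⁅v, z⁆ ∈ V₂ := fun v hv z hz => mem_commutator_V hv hz
    have hcom1 : ∀ v ∈ V, ∀ z ∈ E₁, ⁅v, z⁆ ∈ V₁ := fun v hv z hz => mem_commutator_V hv hz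
    have hcard : Nat.card V₁ = Nat.card V₂ := le_antisymm
      (card_le_card (fun v hv => hcom2 v (hV1V hv) x hxE₂) (C1 x hxE₂ hx).1)
      (card_le_card (fun v hv => hcom1 v (hV2V hv) y hyE₁) (C1' y hyE₁ hy).1)
    -- product sets
    have hsub : ∀ z ∈ E₂, ((V₁ : Set G) * ((MulAut.conj z • V₁ : Subgroup G) : Set G)) ⊆
        (V₁ : Set G) * (V₂ : Set G) := by
      rintro z hz _ ⟨a, ha, b, hb, rfl⟩
      have hb' : z⁻¹ * b * z ∈ V₁ := mem_conj_smul.mp hb
      refine ⟨a * (z⁻¹ * b * z), mul_mem ha hb', ⁅(z⁻¹ * b * z)⁻¹, z⁆, ?_, ?_⟩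
      · exact hcom2 _ (V.inv_mem (hV1V hb')) z hz
      · simp only [commutatorElement_def]; group
    have hc1 := Lib.ProductSet.card_mul_card_inf V₁ V₂
    have hc2 := Lib.ProductSet.card_mul_card_inf V₁ (MulAut.conj x • V₁)
    rw [(C1 x hxE₂ hx).1, card_conj_smul, card_bot, mul_one] at hc2
    have hle : Nat.card ((V₁ : Set G) * ((MulAut.conj x • V₁ : Subgroup G) : Set G) : Set G) ≤
        Nat.card ((V₁ : Set G) * (V₂ : Set G) : Set G) :=
      Nat.card_mono (Set.toFinite _) (hsub x hxE₂)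
    have hpos : 0 < Nat.card V₁ := Nat.card_pos
    have hinf : Nat.card ↥(V₁ ⊓ V₂) = 1 := by
      rw [← hcard] at hc1
      have h1 : Nat.card V₁ * Nat.card V₁ * Nat.card ↥(V₁ ⊓ V₂) ≤ Nat.card V₁ * Nat.card V₁ * 1 := by
        rw [mul_one]
        calc Nat.card V₁ * Nat.card V₁ * Nat.card ↥(V₁ ⊓ V₂)
            ≤ Nat.card ((V₁ : Set G) * (V₂ : Set G) : Set G) * Nat.card ↥(V₁ ⊓ V₂) := by
              rw [← hc2]; exact Nat.mul_le_mul_right _ hle
          _ = Nat.card V₁ * Nat.card V₁ := hc1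
      have h2 : Nat.card ↥(V₁ ⊓ V₂) ≤ 1 := Nat.le_of_mul_le_mul_left h1 (Nat.mul_pos hpos hpos)
      have h3 : 0 < Nat.card ↥(V₁ ⊓ V₂) := Nat.card_pos
      omega
    have hinf' : V₁ ⊓ V₂ = ⊥ := card_eq_one.mp hinf
    have hset : (V₁ : Set G) * ((MulAut.conj x • V₁ : Subgroup G) : Set G) =
        (V₁ : Set G) * (V₂ : Set G) := by
      refine Set.eq_of_subset_of_ncard_le (hsub x hxE₂) ?_ (Set.toFinite _)
      rw [← Nat.card_coe_set_eq, ← Nat.card_coe_set_eq]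
      rw [hinf, mul_one, ← hcard] at hc1
      rw [hc1, hc2]
    have hV1c : V₁ ⊓ centralizer (E₁ : Set G) = ⊥ :=
      inf_centralizer_eq_bot hV hEV hP.hf hP.hs₁ hP.hOp hP.hirr₁ hP.hc₁
    -- all conjugates different from `V₁` are equal
    have C5 : ∀ z ∈ E₂, MulAut.conj z • V₁ ≠ V₁ → MulAut.conj z • V₁ = MulAut.conj x • V₁ := by
      intro z hz hzne
      refine eq_of_le_of_card_ge ?_ (by rw [card_conj_smul, card_conj_smul])
      intro w hw
      have hw' : w ∈ (V₁ : Set G) * ((MulAut.conj x • V₁ : Subgroup G) : Set G) := by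
        rw [hset]
        exact hsub z hz ⟨1, V₁.one_mem, w, hw, one_mul w⟩
      obtain ⟨a, ha, b, hb, rfl⟩ := hw'
      have h1 := commutator_eq_bot_iff_le_centralizer.mp (C1 z hz hzne).2 hw
      have h2 := commutator_eq_bot_iff_le_centralizer.mp (C1 x hxE₂ hx).2 hb
      have h3 : a ∈ V₁ ⊓ centralizer (E₁ : Set G) := by
        refine ⟨ha, ?_⟩
        have := mul_mem h1 (inv_mem h2)
        simpa using this
      rw [hV1c, mem_bot] at h3
      simp only [h3, one_mul]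
      exact hb
    -- the stabilizer of `V₁` in `E₂`
    set K : Subgroup G := E₂ ⊓ normalizer (V₁ : Set G) with hK
    have hKE₂ : K ≤ E₂ := inf_le_left
    have hxK : x ∉ K := fun h => hx (mem_normalizer_iff_conj_smul.mp h.2)
    have hnotK : ∀ z ∈ E₂, z ∉ K → MulAut.conj z • V₁ = MulAut.conj x • V₁ := fun z hz hzK =>
      C5 z hz fun h => hzK ⟨hz, mem_normalizer_iff_conj_smul.mpr h⟩
    have hKn : E₂ ≤ normalizer (K : Set G) := by
      have key : ∀ z ∈ E₂, ∀ k ∈ K, z * k * z⁻¹ ∈ K := by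
        intro z hz k hk
        by_cases hzK : z ∈ K
        · exact mul_mem (mul_mem hzK hk) (inv_mem hzK)
        · refine mem_inf.mpr ⟨mul_mem (mul_mem hz hk.1) (inv_mem hz), ?_⟩
          rw [mem_normalizer_iff_conj_smul]
          have h1 : MulAut.conj z⁻¹ • V₁ = MulAut.conj x • V₁ :=
            hnotK z⁻¹ (inv_mem hz) (fun h => hzK (by simpa using inv_mem h))
          have h2 : MulAut.conj (k * x) • V₁ = MulAut.conj x • V₁ :=
            hnotK _ (mul_mem hk.1 hxE₂) (fun h => hxK (by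
              have := mul_mem (inv_mem hk) h
              simpa using this))
          rw [map_mul, map_mul, mul_smul, mul_smul, h1]
          rw [map_mul, mul_smul] at h2
          rw [h2, ← h1, ← mul_smul, ← map_mul, mul_inv_cancel, map_one, one_smul]
      exact le_normalizer_iff.mpr key
    -- `K` centralizes `V₁`
    have hKV1 : ∀ k ∈ K, ∀ v ∈ V₁, k * v = v * k := by
      intro k hk v hv
      have h1 : ⁅k, v⁆ ∈ V₁ ⊓ V₂ := by
        refine mem_inf.mpr ⟨?_, ?_⟩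
        · rw [commutatorElement_def]
          exact mul_mem ((mem_normalizer_iff.mp hk.2 v).mp hv) (inv_mem hv)
        · rw [← commutatorElement_inv]
          exact inv_mem (hcom2 v (hV1V hv) k hk.1)
      rw [hinf', mem_bot, commutatorElement_eq_one_iff_mul_comm] at h1
      exact h1
    have hKW1 : ∀ k ∈ K, ∀ w ∈ MulAut.conj x • V₁, k * w = w * k := by
      intro k hk w hw
      have hw' := mem_conj_smul.mp hw
      have hk' : x⁻¹ * k * x ∈ K := by
        have := (mem_normalizer_iff.mp (hKn (inv_mem hxE₂)) k).mp hk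
        rwa [inv_inv] at this
      have h1 := hKV1 _ hk' _ hw'
      calc k * w = x * ((x⁻¹ * k * x) * (x⁻¹ * w * x)) * x⁻¹ := by group
        _ = x * ((x⁻¹ * w * x) * (x⁻¹ * k * x)) * x⁻¹ := by rw [h1]
        _ = w * k := by group
    have hKV2 : ∀ k ∈ K, ∀ v ∈ V₂, k * v = v * k := by
      intro k hk v hv
      have h1 : v ∈ (V₁ : Set G) * ((MulAut.conj x • V₁ : Subgroup G) : Set G) := by
        rw [hset]
        exact ⟨1, V₁.one_mem, v, hv, one_mul v⟩
      obtain ⟨a, ha, b, hb, rfl⟩ := h1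
      simp only
      rw [← mul_assoc, hKV1 k hk a ha, mul_assoc, hKW1 k hk b hb, mul_assoc]
    have hKp : IsPGroup p K := by
      refine isPGroup_of_quadratic hV ((hKE₂.trans hE₂).trans hEV) ?_ ?_
      · rw [eq_bot_iff, ← hP.hf]; exact inf_le_inf_right _ (hKE₂.trans hE₂)
      · intro k hk v hv
        exact hKV2 k hk _ (hcom2 v hv k hk.1)
    have hK1 : K = ⊥ := ((SN.of_normal hKE₂ hKn).trans hP.hs₂).eq_bot_of_isPGroup hP.hOp hKp
    -- so `E₂` has at most two elements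
    have hle2 : (E₂ : Set G) ⊆ ({1, x} : Set G) := by
      intro z hz
      by_cases hzK : z ∈ K
      · rw [hK1, mem_bot] at hzK
        exact Or.inl hzK
      · right
        have h1 := hnotK z hz hzK
        have h2 : x⁻¹ * z ∈ K := by
          refine mem_inf.mpr ⟨mul_mem (inv_mem hxE₂) hz, ?_⟩
          rw [mem_normalizer_iff_conj_smul, map_mul, mul_smul, h1, ← mul_smul, ← map_mul,
            inv_mul_cancel, map_one, one_smul]
        rw [hK1, mem_bot, inv_mul_eq_one] at h2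
        exact h2.symm
    have h3 : Nat.card E₂ ≤ 2 := by
      have h4 : Nat.card E₂ ≤ Nat.card ({1, x} : Set G) := Nat.card_mono (Set.toFinite _) hle2
      refine h4.trans ?_
      rw [Nat.card_coe_set_eq]
      exact (Set.ncard_insert_le 1 {x}).trans (by rw [Set.ncard_singleton])
    exact absurd hP.hc₂ (not_lt.mpr h3)

end Cfsg.Agent.PLocal.SubnormalPair
end

-- part: S0615
section
set_option autoImplicit false
open Cfsg

namespace Cfsg.Agent.S0615

/-- Two subnormal subgroups acting irreducibly on their incomparable commutator modules, in a faithful group with trivial largest normal p-subgroup, generate their direct product, and the commutator module splits accordingly. -/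
theorem result {G : Type*} [Group G] [Finite G] {p : ℕ} [Fact p.Prime] (V E E₁ E₂ : Subgroup G) (hV : Cfsg.IsElementaryAbelian p V) (hEV : E ≤ Subgroup.normalizer (V : Set G)) (hf : E ⊓ Subgroup.centralizer (V : Set G) = ⊥) (hgen : E = E₁ ⊔ E₂) (hs₁ : (E₁.subgroupOf E).IsSubnormal) (hs₂ : (E₂.subgroupOf E).IsSubnormal) (hOp : Cfsg.pCore p ↥E = ⊥) (hirr₁ : (∀ U : Subgroup G, U ≤ ⁅V, E₁⁆ → E₁ ≤ Subgroup.normalizer (U : Set G) → U = ⊥ ∨ U = ⁅V, E₁⁆)) (hirr₂ : (∀ U : Subgroup G, U ≤ ⁅V, E₂⁆ → E₂ ≤ Subgroup.normalizer (U : Set G) → U = ⊥ ∨ U = ⁅V, E₂⁆)) (h12 : ¬ ⁅V, E₁⁆ ≤ ⁅V, E₂⁆) (h21 : ¬ ⁅V, E₂⁆ ≤ ⁅V, E₁⁆) (hc₁ : 2 < Nat.card E₁) (hc₂ : 2 < Nat.card E₂) : ⁅E₁, E₂⁆ = ⊥ ∧ E₁ ⊓ E₂ = ⊥ ∧ ⁅V, E₁⁆ ⊓ ⁅V, E₂⁆ = ⊥ ∧ ⁅V, E⁆ = ⁅V, E₁⁆ ⊔ ⁅V, E₂⁆ := by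
  have h1 : E₁ ≤ E := hgen ▸ le_sup_left
  have h2 : E₂ ≤ E := hgen ▸ le_sup_right
  have hP : PLocal.SubnormalPair.Pair p V E E₁ E₂ :=
    ⟨hEV, hf, hgen, ⟨h1, hs₁⟩, ⟨h2, hs₂⟩, hOp, hirr₁, hirr₂, h12, h21, hc₁, hc₂⟩
  exact PLocal.SubnormalPair.conclusion hV hEV hf hgen hOp hirr₁ h12
    (PLocal.SubnormalPair.main_aux hV _ E E₁ E₂ rfl hP)

end Cfsg.Agent.S0615
end
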