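import Cfsg.Statements.S0620
import Cfsg.Agent.PLocal.FFCoprime
set_option linter.all false
-- import your own Cfsg.Agent.* helpers here

set_option autoImplicit false
open Cfsg

namespace Cfsg.Agent.S0620

/-- Under coprime action of an elementary abelian q-group X on a p-separable group K with trivial p'-core, K is generated by the normalizer of J(S), the centralizer of Ω₁(Z(S)) and the fixed points of X. -/
theorem result {G : Type*} [Group G] [Finite G] {p : ℕ} [Fact p.Prime] {q : ℕ} [Fact q.Prime] (K X : Subgroup G) (hXK : X ≤ Subgroup.normalizer (K : Set G)) (hX : Cfsg.IsElementaryAbelian q X) (hq : ¬ q ∣ Nat.card K) (hsep : Cfsg.IsPSolvable p ↥K) (hO : Cfsg.pPrimeCore p ↥K = ⊥) (S : Sylow p ↥K) : (Subgroup.normalizer (Cfsg.thompsonSubgroupOf p (S : Subgroup ↥K) : Set ↥K) ⊔ Subgroup.centralizer (Cfsg.omegaOne p ((S : Subgroup ↥K) ⊓ Subgroup.centralizer ((S : Subgroup ↥K) : Set ↥K)) : Set ↥K) ⊔ (Subgroup.centralizer (X : Set G)).subgroupOf K) = ⊤ := by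
  classical
  set J : Subgroup ↥K := thompsonSubgroup p ↥K with hJ
  set V : Subgroup ↥K := Agent.PLocal.FFCoprime.omegaJoin p ↥K with hVdef
  set M : Subgroup ↥K :=
    (Subgroup.normalizer (Cfsg.thompsonSubgroupOf p (S : Subgroup ↥K) : Set ↥K) ⊔
      Subgroup.centralizer (Cfsg.omegaOne p ((S : Subgroup ↥K) ⊓
        Subgroup.centralizer ((S : Subgroup ↥K) : Set ↥K)) : Set ↥K) ⊔
      (Subgroup.centralizer (X : Set G)).subgroupOf K) with hM
  have hNM : Subgroup.normalizer (Cfsg.thompsonSubgroupOf p (S : Subgroup ↥K) : Set ↥K) ≤ M :=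
    le_sup_left.trans le_sup_left
  have hCM : Subgroup.centralizer (Cfsg.omegaOne p ((S : Subgroup ↥K) ⊓
        Subgroup.centralizer ((S : Subgroup ↥K) : Set ↥K)) : Set ↥K) ≤ M :=
    le_sup_right.trans le_sup_left
  have hXM : (Subgroup.centralizer (X : Set G)).subgroupOf K ≤ M := le_sup_right
  have hCV : Subgroup.centralizer (V : Set ↥K) ≤ M := by
    refine le_trans (Subgroup.centralizer_le ?_) hCM
    exact le_iSup (fun S : Sylow p ↥K => omegaOne p ((S : Subgroup ↥K) ⊓
      Subgroup.centralizer ((S : Subgroup ↥K) : Set ↥K))) S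
  have hVc : V.Characteristic := Agent.PLocal.FFCoprime.omegaJoin_characteristic p ↥K
  have hVn : V.Normal := inferInstance
  have hJc : J.Characteristic := Agent.PLocal.ThompsonJ.thompsonSubgroup_characteristic p ↥K
  have hJn : J.Normal := inferInstance
  obtain ⟨Γ, hΓ, hfin, f, j, Y, hcomp, hker, hYV, hYC, hYq, hqC, hfixV, hfix⟩ :=
    Agent.PLocal.FFCoprime.exists_setup (p := p) K X hXK hX hq V hVc
  have hJM : J ≤ M := by
    by_cases hJV : J.map f = ⊥
    · intro k hk
      apply hCV
      rw [← hker]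
      have : f k ∈ J.map f := ⟨k, hk, rfl⟩
      rw [hJV] at this
      simpa using this
    · obtain ⟨b1, b2, b3, b4, b5⟩ := Agent.PLocal.FFBridge.bridge hsep hO V rfl f j hcomp
        (fun k hk => (hker k).2 hk)
      have hfam := Agent.PLocal.FFTransport.fffam j.range (J.map f) b1 b2 b3 b4 b5 hJV
      -- a Sylow subgroup of `J.map f`
      obtain ⟨P, hP⟩ := Agent.PLocal.ThompsonFrattini.exists_sylow_subgroupOf S J
      let T : Sylow p ↥(J.map f) := P.mapSurjective (f.subgroupMap_surjective J)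
      have hT : (T : Subgroup ↥(J.map f)).map (J.map f).subtype ≤ M.map f := by
        rintro _ ⟨t, ht, rfl⟩
        obtain ⟨x, hx, rfl⟩ := ht
        refine ⟨x, ?_, rfl⟩
        apply hNM
        apply Agent.PLocal.ThompsonFrattini.normalizer_le_normalizer_thompson
        apply Subgroup.le_normalizer
        have hx' : x ∈ (P : Subgroup ↥J) := hx
        rw [hP] at hx'
        exact hx'
      have key := hfam.le_of_sylow_of_fixed (q := q) hYV (hYC J hJc)
        (fun y hy E hE => Agent.PLocal.FFTransport.map_conj_mem_comps (hYV hy) (hYC J hJc hy) hE)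
        hYq (hqC J) (M.map f) (by
          rintro δ ⟨hδ1, hδ2⟩
          obtain ⟨k, hk1, hk2⟩ := hfix δ (Subgroup.map_le_range f _ hδ1) hδ2
          exact ⟨k, hXM hk1, hk2⟩) T hT
      intro k hk
      obtain ⟨m, hm, hm'⟩ := key ⟨k, hk, rfl⟩
      have h1 : m⁻¹ * k ∈ Subgroup.centralizer (V : Set ↥K) := by
        rw [← hker, map_mul, map_inv, hm', inv_mul_cancel]
      have h2 := M.mul_mem hm (hCV h1)
      rwa [mul_inv_cancel_left] at h2
  have hLn : (J ⊔ Subgroup.centralizer (V : Set ↥K)).Normal := inferInstance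
  rw [eq_top_iff, ← Agent.PLocal.ThompsonFrattini.normalizer_thompson_sup_eq_top S
    (J ⊔ Subgroup.centralizer (V : Set ↥K)) le_sup_left]
  exact sup_le hNM (sup_le hJM hCV)

end Cfsg.Agent.S0620
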