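import Mathlib
import Cfsg.Prelude.Def_PLocal
import Cfsg.Agent.Lib.Cores
import Cfsg.Agent.S0622
import Cfsg.Agent.S0624
import Cfsg.Agent.S0626
import Cfsg.Agent.Transfer.NormalPComplement
import Cfsg.Statements.S0628
import Cfsg.Agent.PLocal.ComplementReduction
set_option linter.all false

-- part: PLocal/StableComplement
section
/-!
# The stable normal closure `W(P)` as a functor on `p`-subgroups, and the minimal configuration for
the normal `p`-complement theorem in the `W(S)` form.
-/

set_option autoImplicit false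

universe u

namespace Cfsg.Agent.PLocal.StableComplement

open Cfsg
open scoped commutatorElement

/-- `W(P)` of a subgroup `P ≤ G`, as a subgroup of `G`. -/
def WOf (p : ℕ) (G : Type u) [Group G] (P : Subgroup G) : Subgroup G :=
  (Cfsg.stableNormalClosure p ↥P).map P.subtype

theorem WOf_def (p : ℕ) (G : Type u) [Group G] (P : Subgroup G) :
    WOf p G P = (Cfsg.stableNormalClosure p ↥P).map P.subtype := rfl

theorem WOf_le (p : ℕ) (G : Type u) [Group G] (P : Subgroup G) : WOf p G P ≤ P :=
  Subgroup.map_subtype_le _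

theorem WOf_map {p : ℕ} [Fact p.Prime] (G G' : Type u) [Group G] [Group G'] [Finite G]
    [Finite G'] (f : G →* G') (P : Subgroup G) (hf : Set.InjOn f P) (hP : IsPGroup p P) :
    (WOf p G P).map f = WOf p G' (P.map f) := by
  let e : P ≃* P.map f := MulEquiv.ofBijective (f.subgroupMap P)
    ⟨fun a b hab => Subtype.ext (hf a.2 b.2 (congrArg Subtype.val hab)),
      f.subgroupMap_surjective P⟩
  have h1 := (Cfsg.Agent.S0622.result hP).2.2.2.2 ↥(P.map f) e
  rw [WOf_def, WOf_def, ← h1, Subgroup.map_map, Subgroup.map_map]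
  rfl

theorem WOf_ne_bot {p : ℕ} [Fact p.Prime] (G : Type u) [Group G] [Finite G] (P : Subgroup G)
    (hP : IsPGroup p P) (hne : P ≠ ⊥) : WOf p G P ≠ ⊥ := by
  have h1 := (Cfsg.Agent.S0622.result hP).2.2.2.1 ((Subgroup.nontrivial_iff_ne_bot P).mpr hne)
  intro h0
  exact h1 ((Subgroup.map_eq_bot_iff_of_injective _ P.subtype_injective).mp h0)

/-- If `G = A P` with `A` normal, `A / O_p(G)` an abelian `p'`-group, `p` odd, then the Sylow `2`-subgroups
of `G` are abelian. -/
theorem sylow_two_comm {p : ℕ} [hp : Fact p.Prime] (hp2 : p ≠ 2) (G : Type u) [Group G] [Finite G]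
    (P : Sylow p G) (A H : Subgroup G) (hA : A.Normal) (hHp : IsPGroup p H)
    (hab : ⁅A, A⁆ ≤ H) (htop : A ⊔ (P : Subgroup G) = ⊤) (T : Sylow 2 G) :
    IsMulCommutative T := by
  have hcop : ∀ (x : G) (a b : ℕ), x ^ 2 ^ a = 1 → x ^ p ^ b = 1 → x = 1 := by
    intro x a b h1 h2
    have h3 : (2 ^ a).Coprime (p ^ b) :=
      Nat.Coprime.pow _ _ ((Nat.coprime_primes Nat.prime_two hp.out).mpr hp2.symm)
    rw [← orderOf_eq_one_iff]
    exact Nat.eq_one_of_dvd_coprimes h3 (orderOf_dvd_of_pow_eq_one h1)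
      (orderOf_dvd_of_pow_eq_one h2)
  have hq : IsPGroup p (G ⧸ A) := by
    have hs : Function.Surjective ((QuotientGroup.mk' A).comp (P : Subgroup G).subtype) := by
      intro x
      obtain ⟨g, rfl⟩ := QuotientGroup.mk'_surjective A x
      have hg : g ∈ A ⊔ (P : Subgroup G) := by rw [htop]; trivial
      obtain ⟨a, ha, y, hy, rfl⟩ := Subgroup.mem_sup_of_normal_left.mp hg
      refine ⟨⟨y, hy⟩, ?_⟩
      have h1 : QuotientGroup.mk' A a = 1 := (QuotientGroup.eq_one_iff a).mpr ha
      rw [map_mul, h1, one_mul]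
      rfl
    exact P.isPGroup'.of_surjective _ hs
  have hTA : (T : Subgroup G) ≤ A := by
    intro x hx
    obtain ⟨a, ha⟩ := T.isPGroup' ⟨x, hx⟩
    have ha' : x ^ 2 ^ a = 1 := congrArg Subtype.val ha
    obtain ⟨b, hb⟩ := hq (QuotientGroup.mk' A x)
    rw [← QuotientGroup.eq_one_iff]
    -- the image has order dividing coprime numbers
    have h3 : (2 ^ a).Coprime (p ^ b) :=
      Nat.Coprime.pow _ _ ((Nat.coprime_primes Nat.prime_two hp.out).mpr hp2.symm)
    have h4 : (QuotientGroup.mk' A x) ^ 2 ^ a = 1 := by rw [← map_pow, ha', map_one]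
    rw [← orderOf_eq_one_iff]
    exact Nat.eq_one_of_dvd_coprimes h3 (orderOf_dvd_of_pow_eq_one h4)
      (orderOf_dvd_of_pow_eq_one hb)
  refine ⟨⟨fun x y => ?_⟩⟩
  have hxy : ⁅(x : G), (y : G)⁆ ∈ H :=
    hab (Subgroup.commutator_mem_commutator (hTA x.2) (hTA y.2))
  obtain ⟨b, hb⟩ := hHp ⟨_, hxy⟩
  obtain ⟨a, ha⟩ := T.isPGroup' ⁅x, y⁆
  have h1 : ⁅(x : G), (y : G)⁆ = 1 :=
    hcop _ a b (congrArg Subtype.val ha) (congrArg Subtype.val hb)
  exact Subtype.ext (commutatorElement_eq_one_iff_mul_comm.mp h1)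

/-- The minimal configuration: `W(P)` is normal. -/
theorem hasNormalPComplement_of_min {p : ℕ} [hp : Fact p.Prime] (hp2 : p ≠ 2) (G : Type u)
    [Group G] [Finite G] (P : Sylow p G) (A : Subgroup G) (hA : A.Normal)
    (hab : ⁅A, A⁆ ≤ Cfsg.pCore p G) (htop : A ⊔ (P : Subgroup G) = ⊤)
    (hc : Subgroup.centralizer (Cfsg.pCore p G : Set G) ≤ Cfsg.pCore p G)
    (h : Cfsg.HasNormalPComplement p (Subgroup.normalizer (WOf p G (P : Subgroup G) : Set G))) :
    Cfsg.HasNormalPComplement p G := by
  have h1 := Cfsg.Agent.S0626.result (G := G) hp2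
    (sylow_two_comm hp2 G P A (Cfsg.pCore p G) hA (Lib.Cores.pCore_isPGroup p) hab htop)
  have h2 : (WOf p G (P : Subgroup G)).Normal := Cfsg.Agent.S0624.result h1 hc P
  have h3 : Subgroup.normalizer (WOf p G (P : Subgroup G) : Set G) = ⊤ :=
    Subgroup.normalizer_eq_top_iff.mpr h2
  rw [h3] at h
  exact (Transfer.NormalPComplement.congr Subgroup.topEquiv).mp h

end Cfsg.Agent.PLocal.StableComplement
end

-- part: S0628
section
set_option autoImplicit false
open Cfsg

namespace Cfsg.Agent.S0628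

/-- The normal p-complement Theorem of Thompson in the form with W(S): for odd p, G has a normal p-complement as soon as the normalizer of the characteristic subgroup W(S) of a Sylow p-subgroup S has one. -/
theorem result {G : Type*} [Group G] [Finite G] {p : ℕ} [Fact p.Prime] (hp : p ≠ 2) (S : Sylow p G) (hN : Cfsg.HasNormalPComplement p ↥(Subgroup.normalizer (((Cfsg.stableNormalClosure p ↥(S : Subgroup G)).map (S : Subgroup G).subtype) : Set G))) : Cfsg.HasNormalPComplement p G := by
  refine PLocal.ComplementReduction.hasNormalPComplement_of_functor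
    (fun G _ P => PLocal.StableComplement.WOf p G P) ?_ ?_ ?_ ?_ G S hN
  · intro G G' _ _ _ _ f P hf hP
    exact PLocal.StableComplement.WOf_map G G' f P hf hP
  · intro G _ _ P _
    exact PLocal.StableComplement.WOf_le p G P
  · intro G _ _ P hP hne
    exact PLocal.StableComplement.WOf_ne_bot G P hP hne
  · intro G _ _ P A hA _ hab _ htop hc _ h
    exact PLocal.StableComplement.hasNormalPComplement_of_min hp G P A hA hab htop hc h

end Cfsg.Agent.S0628
end
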