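import Cfsg.Statements.S0629
import Cfsg.Agent.PLocal.Constrained
set_option linter.all false

set_option autoImplicit false
open Cfsg

namespace Cfsg.Agent.S0629

/-- A group in which the centralizer of a Sylow p-subgroup of O_{p',p}(G) is p-solvable is p-constrained. -/
theorem result {G : Type*} [Group G] [Finite G] {p : ℕ} [Fact p.Prime] (P : Sylow p ↥(Cfsg.pPrimePCore p G)) (hsol : Cfsg.IsPSolvable p ↥(Subgroup.centralizer (((P : Subgroup ↥(Cfsg.pPrimePCore p G)).map (Cfsg.pPrimePCore p G).subtype : Subgroup G) : Set G))) : Cfsg.IsPConstrained p G := by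
  have hQp : IsPGroup p (Cfsg.pCore p (G ⧸ Cfsg.pPrimeCore p G)) := Lib.Cores.pCore_isPGroup p
  have hN : (Nat.card (Cfsg.pPrimeCore p G)).Coprime p := Lib.Cores.pPrimeCore_coprime p
  have h1 := PLocal.Constrained.centralizer_eq_map_sylow (N := Cfsg.pPrimeCore p G) hN hQp P
  have h2 : Cfsg.IsPSolvable p
      ↥(Subgroup.centralizer (Cfsg.pCore p (G ⧸ Cfsg.pPrimeCore p G) : Set (G ⧸ Cfsg.pPrimeCore p G))) := by
    rw [h1]
    exact PLocal.PSolvable.isPSolvable_of_surjective
      ((QuotientGroup.mk' (Cfsg.pPrimeCore p G)).subgroupMap _)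
      ((QuotientGroup.mk' (Cfsg.pPrimeCore p G)).subgroupMap_surjective _) hsol
  have h3 := PLocal.Constrained.centralizer_pCore_le (Lib.Cores.pPrimeCore_quotient_pPrimeCore p) h2
  intro R c hc
  have h4 := PLocal.Constrained.centralizer_eq_map_sylow (N := Cfsg.pPrimeCore p G) hN hQp R
  exact h3 (by rw [h4]; exact ⟨c, hc, rfl⟩)

end Cfsg.Agent.S0629
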