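import Cfsg.Statements.S0632
import Cfsg.Agent.PLocal.PStableQuot
set_option linter.all false

set_option autoImplicit false
open Cfsg

namespace Cfsg.Agent.S0632

open Cfsg.Agent.Lib.Cores Cfsg.Agent.PLocal.PStableQuot Subgroup

theorem hnorm {K : Type*} [Group K] (A P : Subgroup K)
    (h : ∀ a ∈ A, ∀ x ∈ P, a * x * a⁻¹ ∈ P) : ∀ a ∈ A, a ∈ normalizer (P : Set K) := by
  intro a ha
  rw [mem_normalizer_iff]
  intro x
  refine ⟨fun hx => h a ha x hx, fun hx => ?_⟩
  have := h a⁻¹ (inv_mem ha) _ hx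
  simpa [mul_assoc] using this

/-- `p`-stability passes to and from the image under a surjection `f` with kernel `O_{p'}(G)`. -/
theorem aux {G H : Type*} [Group G] [Group H] [Finite G] {p : ℕ} [hp : Fact p.Prime]
    (hO : pCore p G ≠ ⊥) (f : G →* H) (hf : Function.Surjective f)
    (hker : f.ker = pPrimeCore p G) (hH : pPrimeCore p H = ⊥) :
    IsPStable p G ↔ IsPStable p H := by
  have hfinH : Finite H := Finite.of_surjective f hf
  have hk : (Nat.card f.ker).Coprime p := by rw [hker]; exact pPrimeCore_coprime p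
  have hOH : pCore p H ≠ ⊥ := by
    intro h
    apply hO
    have h1 : (pCore p G).map f ≤ pCore p H :=
      le_pCore ((Cfsg.Agent.Lib.Cores.pCore_normal p).map _ hf) ((pCore_isPGroup p).map _)
    rw [h, le_bot_iff, Subgroup.map_eq_bot_iff, hker] at h1
    have h2 := pCore_inf_pPrimeCore (G := G) p
    rwa [inf_eq_left.2 h1] at h2
  -- O_{p',p}(H) = O_p(H)
  have hPPH : pPrimePCore p H = pCore p H := by
    apply le_antisymm
    · refine le_pCore ?_ ?_
      · exact (Cfsg.Agent.Lib.Cores.pCore_normal p).comap _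
      · refine (pCore_isPGroup p).comap_of_ker_isPGroup _ ?_
        rw [QuotientGroup.ker_mk', hH]
        exact IsPGroup.of_bot
    · show _ ≤ (pCore p (H ⧸ pPrimeCore p H)).comap (QuotientGroup.mk' (pPrimeCore p H))
      rw [← map_le_iff_le_comap]
      exact le_pCore ((Cfsg.Agent.Lib.Cores.pCore_normal p).map _ (QuotientGroup.mk'_surjective _))
        ((pCore_isPGroup p).map _)
  -- O_{p',p}(G) is the preimage of O_p(H)
  have hPPG : pPrimePCore p G = (pCore p H).comap f := by
    ext x
    exact mk_mem_pCore_iff p f hf _ hker x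
  -- transfer of the conclusion
  have key : ∀ A P : Subgroup G, IsPGroup p P → (∀ a ∈ A, a ∈ normalizer (P : Set G)) →
      ((A.subgroupOf (Subgroup.normalizer (P : Set G))).map
          (QuotientGroup.mk' ((Subgroup.centralizer (P : Set G)).subgroupOf
            (Subgroup.normalizer (P : Set G)))) ≤ pCore p _ ↔
      ((A.map f).subgroupOf (Subgroup.normalizer ((P.map f : Subgroup H) : Set H))).map
          (QuotientGroup.mk' ((Subgroup.centralizer ((P.map f : Subgroup H) : Set H)).subgroupOf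
            (Subgroup.normalizer ((P.map f : Subgroup H) : Set H)))) ≤ pCore p _) := by
    intro A P hP hAP
    have hmap := map_normalizer f hf hk P hP
    have hle : ∀ x ∈ normalizer (P : Set G),
        f x ∈ normalizer ((P.map f : Subgroup H) : Set H) := by
      intro x hx
      rw [← hmap]
      exact ⟨x, hx, rfl⟩
    constructor
    · rintro h _ ⟨⟨y, hyN⟩, hyA, rfl⟩
      rw [SetLike.mem_coe, mem_subgroupOf] at hyA
      obtain ⟨a, ha, hay⟩ := hyA
      have hay' : y = f a := hay.symm
      subst hay'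
      exact (mk_mem_pCore_normalizer_iff f hf hk P hP a (hAP a ha) hyN).1
        (h ⟨⟨a, hAP a ha⟩, ha, rfl⟩)
    · rintro h _ ⟨⟨a, haN⟩, ha, rfl⟩
      exact (mk_mem_pCore_normalizer_iff f hf hk P hP a haN (hle a haN)).2
        (h ⟨⟨f a, hle a haN⟩, ⟨a, ha, rfl⟩, rfl⟩)
  constructor
  · -- G stable implies H stable
    rintro ⟨hodd, -, hst⟩
    refine ⟨hodd, hOH, ?_⟩
    intro A' P' hA' hP' hAP' hPle' hPn' hcomm'
    rw [hH, bot_sup_eq] at hPn'
    obtain ⟨P, -, hP, hPmap⟩ := exists_pSubgroup_map_eq (p := p) f (P'.comap f) P'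
      (map_comap_eq_self_of_surjective hf P') hP'
    subst hPmap
    have hmapN := map_normalizer f hf hk P hP
    have hAN' : A' ≤ normalizer ((P.map f : Subgroup H) : Set H) := fun a ha =>
      hnorm A' _ hAP' a ha
    obtain ⟨A, hAle, hA, hAmap⟩ := exists_pSubgroup_map_eq (p := p) f
      (normalizer (P : Set G) ⊓ A'.comap f) A' (by
        apply le_antisymm
        · exact (map_mono inf_le_right).trans (map_comap_le _ _)
        · intro a ha
          have h1 := hAN' ha
          rw [← hmapN] at h1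
          obtain ⟨x, hx, rfl⟩ := h1
          exact ⟨x, ⟨hx, ha⟩, rfl⟩) hA'
    subst hAmap
    have hAN : ∀ a ∈ A, a ∈ normalizer (P : Set G) := fun a ha => (hAle ha).1
    have hAP : ∀ a ∈ A, ∀ x ∈ P, a * x * a⁻¹ ∈ P := fun a ha x hx =>
      (mem_normalizer_iff.1 (hAN a ha) x).1 hx
    have hPA : ⁅P, A⁆ ≤ P := by
      rw [commutator_le]
      intro x hx a ha
      rw [commutatorElement_def, mul_assoc, mul_assoc, ← mul_assoc a]
      exact mul_mem hx (hAP a ha _ (inv_mem hx))
    have hcomm : ⁅⁅P, A⁆, A⁆ = ⊥ := by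
      have h1 : ⁅⁅P, A⁆, A⁆ ≤ P := (commutator_mono hPA le_rfl).trans hPA
      have h2 : ⁅⁅P, A⁆, A⁆ ≤ f.ker := by
        rw [← Subgroup.map_eq_bot_iff, map_commutator, map_commutator]
        exact hcomm'
      have hdisj : P ⊓ f.ker = ⊥ := by
        refine (disjoint_of_coprime_natCard ?_).eq_bot
        obtain ⟨n, hn⟩ := IsPGroup.iff_card.mp hP
        rw [hn]
        exact (Nat.Coprime.pow_right n hk).symm
      exact le_bot_iff.1 (hdisj ▸ le_inf h1 h2)
    refine (key A P hP hAN).1 (hst A P hA hP hAP ?_ ?_ hcomm)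
    · rw [hPPG, ← map_le_iff_le_comap, ← hPPH]
      exact hPle'
    · rw [← hker, sup_comm, ← comap_map_eq]
      exact hPn'.comap f
  · rintro ⟨hodd, -, hst⟩
    refine ⟨hodd, hO, ?_⟩
    intro A P hA hP hAP hPle hPn hcomm
    have hAN : ∀ a ∈ A, a ∈ normalizer (P : Set G) := hnorm A P hAP
    refine (key A P hP hAN).2 (hst (A.map f) (P.map f) (hA.map _) (hP.map _) ?_ ?_ ?_ ?_)
    · rintro _ ⟨a, ha, rfl⟩ _ ⟨x, hx, rfl⟩
      exact ⟨a * x * a⁻¹, hAP a ha x hx, by simp⟩
    · rw [hPPH, map_le_iff_le_comap, ← hPPG]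
      exact hPle
    · rw [hH, bot_sup_eq]
      have h1 : P.map f = (pPrimeCore p G ⊔ P).map f := by
        rw [Subgroup.map_sup, ← hker, (Subgroup.map_eq_bot_iff _).2 le_rfl, bot_sup_eq]
      rw [h1]
      exact hPn.map f hf
    · rw [← map_commutator, ← map_commutator, hcomm, Subgroup.map_bot]

/-- For a group with a nontrivial normal p-subgroup, p-stability passes to and from the quotient by the largest normal subgroup of order prime to p. -/
theorem result {G : Type*} [Group G] [Finite G] {p : ℕ} [Fact p.Prime] (hO : Cfsg.pCore p G ≠ ⊥) : Cfsg.IsPStable p G ↔ Cfsg.IsPStable p (G ⧸ Cfsg.pPrimeCore p G) :=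
  aux hO (QuotientGroup.mk' _) (QuotientGroup.mk'_surjective _) (QuotientGroup.ker_mk' _)
    (pPrimeCore_quotient_pPrimeCore p)

end Cfsg.Agent.S0632
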