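import Cfsg.Statements.S0641
set_option linter.all false

set_option autoImplicit false
open Cfsg

namespace Cfsg.Agent.S0641

theorem map_powerClosure_le {G H : Type*} [Group G] [Group H] (f : G →* H) (p n : ℕ)
    (K : Subgroup G) : (Cfsg.powerClosure p n K).map f ≤ Cfsg.powerClosure p n (K.map f) := by
  rw [Cfsg.powerClosure, MonoidHom.map_closure]
  refine Subgroup.closure_mono ?_
  rintro _ ⟨y, ⟨x, hx, rfl⟩, rfl⟩
  exact ⟨f x, ⟨x, hx, rfl⟩, by rw [map_pow]⟩

/-- Regularity of a p-group passes to quotient groups. -/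
theorem result {G : Type*} [Group G] {p : ℕ} [Fact p.Prime] (hG : Cfsg.IsRegularPGroup p G) (N : Subgroup G) [N.Normal] : Cfsg.IsRegularPGroup p (G ⧸ N) := by
  refine ⟨hG.1.to_quotient N, ?_⟩
  intro a' b' n
  obtain ⟨a, rfl⟩ := QuotientGroup.mk'_surjective N a'
  obtain ⟨b, rfl⟩ := QuotientGroup.mk'_surjective N b'
  obtain ⟨c, hc, h⟩ := hG.2 a b n
  refine ⟨QuotientGroup.mk' N c, ?_, ?_⟩
  · have h1 := map_powerClosure_le (QuotientGroup.mk' N) p n _ (Subgroup.mem_map_of_mem _ hc)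
    rw [Subgroup.map_commutator, MonoidHom.map_closure, Set.image_pair] at h1
    exact h1
  · rw [← map_mul, ← map_pow, h, map_mul, map_mul, map_pow, map_pow]

end Cfsg.Agent.S0641
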