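import Cfsg.Statements.S0642
set_option linter.all false

set_option autoImplicit false
open Cfsg
open scoped commutatorElement

namespace Cfsg.Agent.S0642

/-- A nontrivial finite 2-group has a subgroup of index 2, which contains all squares. -/
theorem squares_proper {K : Type*} [Group K] [Finite K] (hK : IsPGroup 2 K)
    (h : Subgroup.closure {y : K | ∃ x : K, y = x ^ 2} = ⊤) : Subsingleton K := by
  obtain ⟨k, hk⟩ := IsPGroup.iff_card.mp hK
  rcases Nat.eq_zero_or_pos k with rfl | hpos
  · rw [pow_zero, Nat.card_eq_one_iff_unique] at hk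
    exact hk.1
  · exfalso
    haveI : Fact (Nat.Prime 2) := ⟨Nat.prime_two⟩
    obtain ⟨M, hM⟩ := Sylow.exists_subgroup_card_pow_prime (G := K) 2 (n := k - 1)
      (by rw [hk]; exact pow_dvd_pow 2 (Nat.sub_le k 1))
    have hidx : M.index = 2 := by
      have h1 := M.card_mul_index
      rw [hM, hk] at h1
      have h2 : (2:ℕ) ^ k = 2 ^ (k - 1) * 2 := by
        rw [← pow_succ]; congr 1; omega
      rw [h2] at h1
      exact Nat.eq_of_mul_eq_mul_left (pow_pos (by norm_num) _) h1
    have hle : Subgroup.closure {y : K | ∃ x : K, y = x ^ 2} ≤ M := by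
      rw [Subgroup.closure_le]
      rintro _ ⟨x, rfl⟩
      exact Subgroup.sq_mem_of_index_two hidx x
    rw [h, top_le_iff] at hle
    rw [hle, Subgroup.index_top] at hidx
    omega

/-- Among finite 2-groups the regular ones are exactly the abelian ones. -/
theorem result {G : Type*} [Group G] [Finite G] (hG : IsPGroup 2 G) : Cfsg.IsRegularPGroup 2 G ↔ ∀ a b : G, a * b = b * a := by
  constructor
  · rintro ⟨-, h⟩ a b
    set H : Subgroup G := Subgroup.closure ({a, b} : Set G) with hH
    obtain ⟨c, hc, hab⟩ := h a b 1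
    rw [← hH] at hc
    have haH : a ∈ H := Subgroup.subset_closure (by simp)
    have hbH : b ∈ H := Subgroup.subset_closure (by simp)
    set P : Subgroup G := Cfsg.powerClosure 2 1 ⁅H, H⁆ with hP
    have hPle : P ≤ ⁅H, H⁆ := by
      rw [hP, Cfsg.powerClosure, Subgroup.closure_le]
      rintro _ ⟨x, hx, rfl⟩
      exact pow_mem hx _
    -- P is normalized by H
    have hnorm : ∀ g ∈ H, ∀ x ∈ P, g * x * g⁻¹ ∈ P := by
      intro g hg x hx
      rw [hP, Cfsg.powerClosure] at hx ⊢
      induction hx using Subgroup.closure_induction with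
      | mem x hx =>
        obtain ⟨y, hy, rfl⟩ := hx
        refine Subgroup.subset_closure ⟨g * y * g⁻¹, ?_, ?_⟩
        · have h1 : ⁅g, y⁆ ∈ ⁅H, H⁆ :=
            Subgroup.commutator_mem_commutator hg (Subgroup.commutator_le_self H hy)
          have h2 := mul_mem h1 hy
          rwa [commutatorElement_def, inv_mul_cancel_right] at h2
        · rw [conj_pow]
      | one => rw [mul_one, mul_inv_cancel]; exact one_mem _
      | mul x y _ _ hx hy =>
        have : g * (x * y) * g⁻¹ = (g * x * g⁻¹) * (g * y * g⁻¹) := by group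
        rw [this]; exact mul_mem hx hy
      | inv x _ hx =>
        have : g * x⁻¹ * g⁻¹ = (g * x * g⁻¹)⁻¹ := by group
        rw [this]; exact inv_mem hx
    have hba : a * b * (b * a)⁻¹ ∈ P := by
      -- (a b)^2 = a^2 b^2 c  gives  b a = a b (b c b⁻¹)
      have h1 : b * a = a * b * (b * c * b⁻¹) := by
        have h2 : a * b * (a * b) = a * a * (b * b) * c := by
          simpa [pow_succ] using hab
        have h3 : b * a * b = a * b * b * c := by
          have := congrArg (fun t => a⁻¹ * t) h2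
          simpa [mul_assoc] using this
        calc b * a = b * a * b * b⁻¹ := by group
          _ = a * b * b * c * b⁻¹ := by rw [h3]
          _ = a * b * (b * c * b⁻¹) := by group
      have h4 : a * b * (b * a)⁻¹ = (a * b) * (b * c * b⁻¹)⁻¹ * (a * b)⁻¹ := by
        rw [h1]; group
      rw [h4]
      exact hnorm _ (mul_mem haH hbH) _ (inv_mem (hnorm b hbH c hc))
    -- so ⁅H,H⁆ ≤ P
    have hcommP : ⁅H, H⁆ ≤ P := by
      -- work in H ⧸ (P.subgroupOf H)
      haveI hn : (P.subgroupOf H).Normal := by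
        constructor
        intro x hx g
        exact hnorm g g.2 x hx
      have hcomm : ∀ x y : H ⧸ P.subgroupOf H, x * y = y * x := by
        have hgen : Subgroup.closure ({(⟨a, haH⟩ : H), ⟨b, hbH⟩} : Set H) = ⊤ := by
          rw [eq_top_iff]
          rintro ⟨x, hx⟩ -
          have hx' : x ∈ Subgroup.closure ({a, b} : Set G) := hx
          have : x ∈ (Subgroup.closure ({(⟨a, haH⟩ : H), ⟨b, hbH⟩} : Set H)).map H.subtype := by
            rw [MonoidHom.map_closure, Set.image_pair]
            exact hx'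
          obtain ⟨y, hy, hyx⟩ := this
          have : y = ⟨x, hx⟩ := Subtype.ext hyx
          rwa [this] at hy
        have hgen2 : Subgroup.closure ({(QuotientGroup.mk' (P.subgroupOf H) ⟨a, haH⟩), (QuotientGroup.mk' (P.subgroupOf H) ⟨b, hbH⟩)} : Set (H ⧸ P.subgroupOf H)) = ⊤ := by
          rw [← Set.image_pair, ← MonoidHom.map_closure, hgen, ← MonoidHom.range_eq_map,
            MonoidHom.range_eq_top]
          exact QuotientGroup.mk'_surjective _
        have key : QuotientGroup.mk' (P.subgroupOf H) ⟨a, haH⟩ * QuotientGroup.mk' (P.subgroupOf H) ⟨b, hbH⟩ = QuotientGroup.mk' (P.subgroupOf H) ⟨b, hbH⟩ * QuotientGroup.mk' (P.subgroupOf H) ⟨a, haH⟩ := by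
          rw [← mul_inv_eq_one, ← map_mul, ← map_mul, ← map_inv, ← map_mul]
          rw [QuotientGroup.mk'_apply, QuotientGroup.eq_one_iff]
          exact hba
        have hcc := Subgroup.isMulCommutative_closure (k := ({(QuotientGroup.mk' (P.subgroupOf H) ⟨a, haH⟩), (QuotientGroup.mk' (P.subgroupOf H) ⟨b, hbH⟩)} : Set (H ⧸ P.subgroupOf H))) (by
          rintro x (rfl | rfl) y (rfl | rfl)
          · rfl
          · exact key
          · exact key.symm
          · rfl)
        intro x y
        have hx : x ∈ Subgroup.closure ({(QuotientGroup.mk' (P.subgroupOf H) ⟨a, haH⟩), (QuotientGroup.mk' (P.subgroupOf H) ⟨b, hbH⟩)} : Set (H ⧸ P.subgroupOf H)) := by rw [hgen2]; trivial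
        have hy : y ∈ Subgroup.closure ({(QuotientGroup.mk' (P.subgroupOf H) ⟨a, haH⟩), (QuotientGroup.mk' (P.subgroupOf H) ⟨b, hbH⟩)} : Set (H ⧸ P.subgroupOf H)) := by rw [hgen2]; trivial
        exact congrArg Subtype.val (hcc.is_comm.comm ⟨x, hx⟩ ⟨y, hy⟩)
      rw [Subgroup.commutator_le]
      intro g1 hg1 g2 hg2
      have h5 := hcomm (QuotientGroup.mk' _ ⟨g1, hg1⟩) (QuotientGroup.mk' _ ⟨g2, hg2⟩)
      rw [← mul_inv_eq_one, ← map_mul, ← map_mul, ← map_inv, ← map_mul] at h5
      rw [QuotientGroup.mk'_apply, QuotientGroup.eq_one_iff] at h5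
      have h6 : g1 * g2 * (g2 * g1)⁻¹ ∈ P := h5
      rw [commutatorElement_def]
      rwa [mul_inv_rev, ← mul_assoc] at h6
    have hPeq : P = ⁅H, H⁆ := le_antisymm hPle hcommP
    -- so ⁅H,H⁆ is trivial
    have hsub : Subsingleton (⁅H, H⁆ : Subgroup G) := by
      refine squares_proper (hG.to_subgroup _) ?_
      rw [eq_top_iff]
      rintro ⟨x, hx⟩ -
      have hx' : x ∈ P := by rw [hPeq]; exact hx
      have h7 : P = (Subgroup.closure {y : (⁅H, H⁆ : Subgroup G) | ∃ x : (⁅H, H⁆ : Subgroup G), y = x ^ 2}).map (⁅H, H⁆ : Subgroup G).subtype := by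
        rw [hP, Cfsg.powerClosure, MonoidHom.map_closure]
        congr 1
        ext y
        constructor
        · rintro ⟨z, hz, rfl⟩
          exact ⟨⟨z, hz⟩ ^ 2, ⟨⟨z, hz⟩, rfl⟩, by simp⟩
        · rintro ⟨w, ⟨z, rfl⟩, rfl⟩
          exact ⟨z, z.2, by simp⟩
      rw [h7] at hx'
      obtain ⟨y, hy, hyx⟩ := hx'
      have : y = ⟨x, hx⟩ := Subtype.ext hyx
      rwa [this] at hy
    have h8 : ⁅a, b⁆ ∈ ⁅H, H⁆ := Subgroup.commutator_mem_commutator haH hbH
    have h9 : (⟨⁅a, b⁆, h8⟩ : (⁅H, H⁆ : Subgroup G)) = 1 := Subsingleton.elim _ _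
    have h10 : ⁅a, b⁆ = 1 := congrArg Subtype.val h9
    exact commutatorElement_eq_one_iff_mul_comm.mp h10
  · intro hcomm
    refine ⟨hG, fun a b n => ⟨1, one_mem _, ?_⟩⟩
    rw [mul_one]
    exact (show Commute a b from hcomm a b).mul_pow _

end Cfsg.Agent.S0642
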