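import Cfsg.Statements.S0645
import Mathlib
set_option linter.all false
-- import your own Cfsg.Agent.* helpers here

set_option autoImplicit false
open Cfsg

namespace Cfsg.Agent.S0645

/-- For odd `p`, `r ^ p ≡ 1 mod p ^ (m+1)` forces `r ≡ 1 mod p ^ m`. -/
theorem dvd_sub_one_of_pow {p : ℕ} (hp : p.Prime) (hp2 : p ≠ 2) (m : ℕ) (r : ℤ)
    (h : (p : ℤ) ^ (m + 1) ∣ r ^ p - 1) : (p : ℤ) ^ m ∣ r - 1 := by
  have : Fact p.Prime := ⟨hp⟩
  have hodd : Odd p := hp.odd_of_ne_two hp2
  -- first `r ≡ 1 mod p`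
  have h1 : (p : ℤ) ∣ r ^ p - 1 := dvd_trans (dvd_pow_self _ (Nat.succ_ne_zero m)) h
  have h2 : (p : ℤ) ∣ r - 1 := by
    have h3 : ((r ^ p - 1 : ℤ) : ZMod p) = 0 := (ZMod.intCast_zmod_eq_zero_iff_dvd _ _).2 h1
    have h4 : ((r - 1 : ℤ) : ZMod p) = 0 := by
      push_cast at h3 ⊢
      rwa [ZMod.pow_card] at h3
    exact (ZMod.intCast_zmod_eq_zero_iff_dvd _ _).1 h4
  have h5 : ¬ (p : ℤ) ∣ r := by
    intro h6
    have h7 : (p : ℤ) ∣ 1 := by
      have := dvd_sub h6 h2
      simpa using this
    have h8 : IsUnit (p : ℤ) := isUnit_of_dvd_one h7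
    exact (Nat.prime_iff_prime_int.1 hp).not_isUnit h8
  have h6 := Int.emultiplicity_pow_sub_pow hp hodd (x := r) (y := 1) h2 h5 p
  rw [one_pow] at h6
  rw [pow_dvd_iff_le_emultiplicity] at h ⊢
  rw [h6] at h
  have h7 : emultiplicity (p : ℕ) p = 1 := by
    have : FiniteMultiplicity p p := Nat.finiteMultiplicity_iff.2 ⟨hp.one_lt.ne', hp.pos⟩
    rw [this.emultiplicity_self]
  rw [h7] at h
  push_cast at h
  exact (ENat.add_le_add_iff_right (by simp)).1 h

/-- The product formula `(a ^ i * x) ^ k = a ^ (i * ∑ r ^ j) * x ^ k` when `x` acts on `a` by the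
power `r`. -/
theorem mul_pow_formula {G : Type*} [Group G] (a x : G) (r i : ℤ) (h : x * a * x⁻¹ = a ^ r) (k : ℕ) :
    (a ^ i * x) ^ k = a ^ (i * ∑ j ∈ Finset.range k, r ^ j) * x ^ k := by
  have hxa : ∀ s : ℤ, x * a ^ s = a ^ (r * s) * x := by
    intro s
    have : x * a ^ s * x⁻¹ = a ^ (r * s) := by
      rw [← conj_zpow, h, zpow_mul]
    rw [← this]; group
  induction k with
  | zero => simp
  | succ k ih =>
    rw [pow_succ', ih, mul_assoc, ← mul_assoc x, hxa, ← mul_assoc, ← mul_assoc, ← zpow_add,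
      mul_assoc _ x, ← pow_succ']
    congr 2
    rw [Finset.sum_range_succ', pow_zero]
    simp_rw [pow_succ]
    rw [← Finset.sum_mul]
    ring

/-- `x ^ k` acts by `r ^ k`. -/
theorem conj_pow_formula {G : Type*} [Group G] (a x : G) (r : ℤ) (h : x * a * x⁻¹ = a ^ r) (k : ℕ) :
    x ^ k * a * (x ^ k)⁻¹ = a ^ (r ^ k) := by
  induction k with
  | zero => simp
  | succ k ih =>
    have : x ^ (k + 1) * a * (x ^ (k + 1))⁻¹ = x * (x ^ k * a * (x ^ k)⁻¹) * x⁻¹ := by
      rw [pow_succ']; group
    rw [this, ih, ← conj_zpow, h, ← zpow_mul, pow_succ']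

/-- `(1 + c) ^ j ≡ 1 + j c` modulo `c ^ 2`. -/
theorem one_add_pow_modEq (c : ℤ) (j : ℕ) : c ^ 2 ∣ (1 + c) ^ j - (1 + j * c) := by
  induction j with
  | zero => simp
  | succ j ih =>
    obtain ⟨d, hd⟩ := ih
    refine ⟨d * (1 + c) + j, ?_⟩
    have : (1 + c) ^ (j + 1) = ((1 + c) ^ j - (1 + j * c)) * (1 + c) + (1 + j * c) * (1 + c) := by
      ring
    rw [this, hd]
    push_cast
    ring

/-- Classification of p-groups with a cyclic maximal subgroup, odd p: a non-abelian one of order p^n has generators a of order p^(n-1) and b of order p, b outside the cyclic subgroup generated by a, with b a b⁻¹ = a^(1 + p^(n-2)). -/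
theorem result {G : Type*} [Group G] [Finite G] {p : ℕ} [Fact p.Prime] (hp : p ≠ 2) (n : ℕ) (hn : 3 ≤ n) (hG : Nat.card G = p ^ n) (C : Subgroup G) (hC : IsCyclic C) (hCi : C.index = p) (hna : ∃ x y : G, x * y ≠ y * x) : ∃ a b : G, orderOf a = p ^ (n - 1) ∧ orderOf b = p ∧ b ∉ Subgroup.zpowers a ∧ b * a * b⁻¹ = a ^ (1 + p ^ (n - 2)) := by
  have hpp : p.Prime := Fact.out
  obtain ⟨m, rfl⟩ : ∃ m, n = m + 2 := ⟨n - 2, by omega⟩
  have hm : 1 ≤ m := by omega
  have e1 : m + 2 - 1 = m + 1 := by omega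
  have e2 : m + 2 - 2 = m := by omega
  rw [e1, e2]
  -- order of `C`
  have hCc : Nat.card C = p ^ (m + 1) := by
    have h := C.card_mul_index
    rw [hCi, hG, pow_succ] at h
    exact Nat.eq_of_mul_eq_mul_right hpp.pos h
  -- `C` is normal
  have hCn : C.Normal := by
    apply Subgroup.normal_of_index_eq_minFac_card
    rw [hCi, hG, Nat.Prime.pow_minFac hpp (by omega)]
  obtain ⟨⟨a, haC⟩, ha⟩ := hC.exists_generator
  have hCa : C = Subgroup.zpowers a := by
    ext g
    constructor
    · intro hg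
      obtain ⟨k, hk⟩ := Subgroup.mem_zpowers_iff.1 (ha ⟨g, hg⟩)
      exact Subgroup.mem_zpowers_iff.2 ⟨k, by simpa using congrArg Subtype.val hk⟩
    · intro hg
      obtain ⟨k, rfl⟩ := Subgroup.mem_zpowers_iff.1 hg
      exact C.zpow_mem haC k
  have hoa : orderOf a = p ^ (m + 1) := by
    rw [← Nat.card_zpowers, ← hCa, hCc]
  subst hCa
  -- some `x` outside `C`
  have hzp : ∀ s t : ℤ, a ^ s = a ^ t ↔ (p : ℤ) ^ (m + 1) ∣ s - t := by
    intro s t
    rw [zpow_eq_zpow_iff_modEq, hoa, Int.modEq_iff_dvd, ← dvd_neg, neg_sub]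
    push_cast
    rfl
  have hCtop : Subgroup.zpowers a ≠ ⊤ := by
    intro h
    rw [h, Subgroup.index_top] at hCi
    exact hpp.one_lt.ne hCi
  obtain ⟨x, hx⟩ : ∃ x : G, x ∉ Subgroup.zpowers a := by
    by_contra hcon
    exact hCtop ((Subgroup.eq_top_iff' _).2 fun x => by
      by_contra hx; exact hcon ⟨x, hx⟩)
  -- powers of things outside C: p-th powers lie in C
  have hpow : ∀ g : G, g ^ p ∈ Subgroup.zpowers a := by
    intro g
    have h := Subgroup.pow_index_mem (Subgroup.zpowers a) g
    rwa [hCi] at h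
  -- G is generated by C and any element outside
  have hgen : ∀ y : G, y ∉ Subgroup.zpowers a → Commute y a → False := by
    intro y hy hcomm
    -- centralizer of `a` contains C and y, hence is everything
    have hle : Subgroup.zpowers a ≤ Subgroup.centralizer {a} := by
      rw [Subgroup.zpowers_le, Subgroup.mem_centralizer_singleton_iff]
    have hycen : y ∈ Subgroup.centralizer {a} := by
      rw [Subgroup.mem_centralizer_singleton_iff]; exact hcomm.eq
    have hidx : (Subgroup.centralizer {a}).index ∣ p := by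
      rw [← hCi]; exact Subgroup.index_dvd_of_le hle
    have hidx' : (Subgroup.centralizer {a}).index = 1 := by
      rcases (Nat.dvd_prime hpp).1 hidx with h | h
      · exact h
      · exfalso
        have : Subgroup.zpowers a = Subgroup.centralizer {a} := by
          apply Subgroup.eq_of_le_of_card_ge hle
          have h1 := (Subgroup.zpowers a).card_mul_index
          have h2 := (Subgroup.centralizer {a}).card_mul_index
          rw [hCi] at h1
          rw [h] at h2
          exact (Nat.eq_of_mul_eq_mul_right hpp.pos (h2.trans h1.symm)).le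
        exact hy (this ▸ hycen)
    rw [Subgroup.index_eq_one] at hidx'
    -- `a` is central, and G/C cyclic: so G commutative
    have hacen : ∀ g : G, g * a = a * g := by
      intro g
      have : g ∈ Subgroup.centralizer {a} := hidx' ▸ Subgroup.mem_top g
      exact Subgroup.mem_centralizer_singleton_iff.1 this
    -- everything is in centralizer of y
    have hle2 : Subgroup.zpowers a ≤ Subgroup.centralizer {y} := by
      rw [Subgroup.zpowers_le, Subgroup.mem_centralizer_singleton_iff]
      exact (hacen y).symm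
    have hycen2 : y ∈ Subgroup.centralizer {y} := by
      rw [Subgroup.mem_centralizer_singleton_iff]
    have hidx2 : (Subgroup.centralizer {y}).index ∣ p := by
      rw [← hCi]; exact Subgroup.index_dvd_of_le hle2
    have hidx2' : (Subgroup.centralizer {y}).index = 1 := by
      rcases (Nat.dvd_prime hpp).1 hidx2 with h | h
      · exact h
      · exfalso
        have : Subgroup.zpowers a = Subgroup.centralizer {y} := by
          apply Subgroup.eq_of_le_of_card_ge hle2
          have h1 := (Subgroup.zpowers a).card_mul_index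
          have h2 := (Subgroup.centralizer {y}).card_mul_index
          rw [hCi] at h1
          rw [h] at h2
          exact (Nat.eq_of_mul_eq_mul_right hpp.pos (h2.trans h1.symm)).le
        exact hy (this ▸ hycen2)
    rw [Subgroup.index_eq_one] at hidx2'
    -- the center contains a and y
    have hc1 : Subgroup.zpowers a ≤ Subgroup.center G := by
      rw [Subgroup.zpowers_le, Subgroup.mem_center_iff]
      exact hacen
    have hc2 : y ∈ Subgroup.center G := by
      rw [Subgroup.mem_center_iff]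
      intro g
      have : g ∈ Subgroup.centralizer {y} := hidx2' ▸ Subgroup.mem_top g
      exact Subgroup.mem_centralizer_singleton_iff.1 this
    have hidx3 : (Subgroup.center G).index ∣ p := by
      rw [← hCi]; exact Subgroup.index_dvd_of_le hc1
    have hidx3' : (Subgroup.center G).index = 1 := by
      rcases (Nat.dvd_prime hpp).1 hidx3 with h | h
      · exact h
      · exfalso
        have : Subgroup.zpowers a = Subgroup.center G := by
          apply Subgroup.eq_of_le_of_card_ge hc1
          have h1 := (Subgroup.zpowers a).card_mul_index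
          have h2 := (Subgroup.center G).card_mul_index
          rw [hCi] at h1
          rw [h] at h2
          exact (Nat.eq_of_mul_eq_mul_right hpp.pos (h2.trans h1.symm)).le
        exact hy (this ▸ hc2)
    rw [Subgroup.index_eq_one] at hidx3'
    obtain ⟨u, v, huv⟩ := hna
    apply huv
    have : v ∈ Subgroup.center G := hidx3' ▸ Subgroup.mem_top v
    exact Subgroup.mem_center_iff.1 this u
  -- action of `x`
  obtain ⟨r, hr⟩ : ∃ r : ℤ, x * a * x⁻¹ = a ^ r := by
    obtain ⟨r, hr⟩ := Subgroup.mem_zpowers_iff.1 (hCn.conj_mem a (Subgroup.mem_zpowers a) x)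
    exact ⟨r, hr.symm⟩
  have hrp : (p : ℤ) ^ (m + 1) ∣ r ^ p - 1 := by
    rw [← hzp, ← conj_pow_formula a x r hr p, zpow_one]
    obtain ⟨k, hk⟩ := Subgroup.mem_zpowers_iff.1 (hpow x)
    rw [← hk]
    group
  obtain ⟨k, hk⟩ := dvd_sub_one_of_pow hpp hp m r hrp
  have hk' : r = 1 + p ^ m * k := by linarith
  have hkp : ¬ (p : ℤ) ∣ k := by
    rintro ⟨l, rfl⟩
    have : a ^ r = a ^ (1 : ℤ) := by
      rw [hzp, hk']
      exact ⟨l, by ring⟩
    apply hgen x hx
    rw [this, zpow_one, mul_inv_eq_iff_eq_mul] at hr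
    exact hr
  -- choose `j` with `j * k ≡ 1 mod p`
  obtain ⟨j, hj⟩ : ∃ j : ℕ, (p : ℤ) ∣ j * k - 1 := by
    have hk0 : (k : ZMod p) ≠ 0 := by
      intro h0
      exact hkp ((ZMod.intCast_zmod_eq_zero_iff_dvd _ _).1 h0)
    refine ⟨((k : ZMod p)⁻¹).val, ?_⟩
    rw [← ZMod.intCast_zmod_eq_zero_iff_dvd]
    push_cast
    rw [ZMod.natCast_val, ZMod.cast_id, inv_mul_cancel₀ hk0, sub_self]
  -- the element `y = x ^ j`
  have hm2 : (p : ℤ) ^ (m + 1) ∣ ((p : ℤ) ^ m) ^ 2 := by
    rw [← pow_mul]
    exact pow_dvd_pow _ (by omega)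
  set c : ℤ := (p : ℤ) ^ m with hc
  have hy : x ^ j * a * (x ^ j)⁻¹ = a ^ (1 + c) := by
    rw [conj_pow_formula a x r hr j, hzp, hk']
    have h1 := one_add_pow_modEq (c * k) j
    have h2 : (p : ℤ) ^ (m + 1) ∣ (c * k) ^ 2 := by
      rw [mul_pow]; exact dvd_mul_of_dvd_left hm2 _
    have h3 := dvd_trans h2 h1
    obtain ⟨l, hl⟩ := hj
    have h4 : (p : ℤ) ^ (m + 1) ∣ (1 + (j : ℤ) * (c * k)) - (1 + c) := by
      refine ⟨l, ?_⟩
      have : (1 + (j : ℤ) * (c * k)) - (1 + c) = c * (j * k - 1) := by ring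
      rw [this, hl, pow_succ]
      ring
    have h5 := dvd_add h3 h4
    have e : (1 + c * k) ^ j - (1 + (j : ℤ) * (c * k)) + ((1 + (j : ℤ) * (c * k)) - (1 + c))
        = (1 + c * k) ^ j - (1 + c) := by ring
    rwa [e] at h5
  set y : G := x ^ j with hydef
  have hyC : y ∉ Subgroup.zpowers a := by
    intro hyC
    obtain ⟨s, hs⟩ := Subgroup.mem_zpowers_iff.1 hyC
    have h1 : a ^ (1 : ℤ) = a ^ (1 + c) := by
      rw [← hy, ← hs]; group
    rw [hzp] at h1
    have h2 : (p : ℤ) ^ (m + 1) ∣ c := by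
      have := (dvd_neg (a := (p : ℤ) ^ (m + 1))).2 h1
      simpa using this
    rw [hc] at h2
    have h3 : (p ^ (m + 1) : ℕ) ∣ (p ^ m : ℕ) := by exact_mod_cast h2
    have h4 := (Nat.pow_dvd_pow_iff_le_right hpp.one_lt).1 h3
    omega
  -- `y ^ p = a ^ (p * t)`
  obtain ⟨s, hs⟩ := Subgroup.mem_zpowers_iff.1 (hpow y)
  have hps : (p : ℤ) ∣ s := by
    -- `y` commutes with `y ^ p = a ^ s`
    have h1 : y * a ^ s * y⁻¹ = a ^ s := by
      rw [hs]; group
    rw [← conj_zpow, hy, ← zpow_mul, hzp] at h1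
    have h2 : (p : ℤ) ^ (m + 1) ∣ c * s := by
      have e : (1 + c) * s - s = c * s := by ring
      rwa [e] at h1
    rw [pow_succ, hc] at h2
    exact Int.dvd_of_mul_dvd_mul_left (pow_ne_zero _ (by exact_mod_cast hpp.ne_zero)) h2
  obtain ⟨t, ht⟩ := hps
  refine ⟨a, a ^ (-t) * y, hoa, ?_, ?_, ?_⟩
  · -- order p
    apply orderOf_eq_prime
    · rw [mul_pow_formula a y (1 + c) (-t) hy p, ← hs, ← zpow_add, ← zpow_zero a, hzp]
      -- sum
      have hsum : (p : ℤ) ^ (m + 1) ∣ (∑ i ∈ Finset.range p, (1 + c) ^ i) - p := by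
        have h1 : (p : ℤ) ^ (m + 1) ∣ ∑ i ∈ Finset.range p, ((1 + c) ^ i - (1 + i * c)) := by
          apply Finset.dvd_sum
          intro i _
          exact dvd_trans hm2 (one_add_pow_modEq c i)
        have h2 : (p : ℤ) ^ (m + 1) ∣ (∑ i ∈ Finset.range p, (1 + (i : ℤ) * c)) - p := by
          rw [Finset.sum_add_distrib, ← Finset.sum_mul]
          simp only [Finset.sum_const, Finset.card_range, nsmul_eq_mul, mul_one]
          have h3 : (p : ℤ) ∣ ∑ i ∈ Finset.range p, (i : ℤ) := by
            have h4 : p ∣ ∑ i ∈ Finset.range p, i := by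
              have h5 := Finset.sum_range_id_mul_two p
              have h6 : p ∣ (∑ i ∈ Finset.range p, i) * 2 := by
                rw [h5]; exact dvd_mul_right _ _
              rcases (Nat.Prime.dvd_mul hpp).1 h6 with h | h
              · exact h
              · exfalso
                exact hp ((Nat.prime_dvd_prime_iff_eq hpp Nat.prime_two).1 h)
            have h7 := Int.natCast_dvd_natCast.2 h4
            rw [Nat.cast_sum] at h7
            exact h7
          obtain ⟨l, hl⟩ := h3
          rw [hl]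
          refine ⟨l, ?_⟩
          rw [pow_succ, hc]
          ring
        rw [Finset.sum_sub_distrib] at h1
        have h3 := dvd_add h1 h2
        have e : (∑ i ∈ Finset.range p, (1 + c) ^ i) - (∑ i ∈ Finset.range p, (1 + (i : ℤ) * c))
            + ((∑ i ∈ Finset.range p, (1 + (i : ℤ) * c)) - p)
            = (∑ i ∈ Finset.range p, (1 + c) ^ i) - p := by ring
        rwa [e] at h3
      obtain ⟨l, hl⟩ := hsum
      refine ⟨-t * l, ?_⟩
      have : (∑ i ∈ Finset.range p, (1 + c) ^ i) = p + (p : ℤ) ^ (m + 1) * l := by linarith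
      rw [this, ht]
      ring
    · intro h
      apply hyC
      have : y = a ^ t := by
        have h1 := eq_inv_of_mul_eq_one_right h
        rw [h1]; simp
      rw [this]
      exact Subgroup.zpow_mem_zpowers a t
  · intro h
    apply hyC
    have := (Subgroup.zpowers a).mul_mem (Subgroup.zpow_mem_zpowers a t) h
    simpa using this
  · have h1 : a ^ (-t) * y * a * (a ^ (-t) * y)⁻¹ = a ^ (-t) * (y * a * y⁻¹) * (a ^ (-t))⁻¹ := by
      group
    rw [h1, hy]
    have h2 : a ^ (-t) * a ^ (1 + c) * (a ^ (-t))⁻¹ = a ^ (1 + c) := by group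
    rw [h2]
    have h3 : (1 + c : ℤ) = ((1 + p ^ m : ℕ) : ℤ) := by
      rw [hc]; push_cast; rfl
    rw [h3, zpow_natCast]

end Cfsg.Agent.S0645
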