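import Cfsg.Statements.S0657
import Cfsg.Agent.PLocal.StableOfNotInvolves
set_option linter.all false

set_option autoImplicit false
open Cfsg

namespace Cfsg.Agent.S0657

open PLocal.StableOfNotInvolves (Inv isPStableOn_of_not_involves)
open scoped commutatorElement

/-- If `O_{p'}(Y) = 1`, `O_p(Y) ≠ 1`, `p` odd and `Y` is not `p`-stable, then `Y` involves `SL(2, p)`. -/
theorem inv_of_not_stable {Y : Type*} [Group Y] [Finite Y] {p : ℕ} [Fact p.Prime] (hp : p ≠ 2)
    (h1 : Cfsg.pPrimeCore p Y = ⊥) (h2 : Cfsg.pCore p Y ≠ ⊥) (hns : ¬ Cfsg.IsPStable p Y) :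
    Inv Y (Matrix.SpecialLinearGroup (Fin 2) (ZMod p)) := by
  by_contra hcon
  apply hns
  refine ⟨(Fact.out : p.Prime).odd_of_ne_two hp, h2, ?_⟩
  intro A P hA hP hAP hPle hPn hq
  rw [h1, bot_sup_eq] at hPn
  have hst := isPStableOn_of_not_involves hp hcon P hP
  -- the homomorphism `N_Y(P)/C_Y(P) → Y/C_Y(P)`
  have hkerle : (Subgroup.centralizer (P : Set Y)).subgroupOf (Subgroup.normalizer (P : Set Y)) ≤
      (Subgroup.centralizer (P : Set Y)).comap (Subgroup.normalizer (P : Set Y)).subtype := le_rfl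
  let f := QuotientGroup.map _ _ (Subgroup.normalizer (P : Set Y)).subtype hkerle
  have hf : Function.Injective f := by
    rw [injective_iff_map_eq_one]
    intro z hz
    obtain ⟨y, rfl⟩ := QuotientGroup.mk'_surjective _ z
    have h3 : (QuotientGroup.mk' (Subgroup.centralizer (P : Set Y))) (y : Y) = 1 := hz
    have h4 : (y : Y) ∈ Subgroup.centralizer (P : Set Y) := (QuotientGroup.eq_one_iff _).mp h3
    exact (QuotientGroup.eq_one_iff _).mpr h4
  have hcn : (Cfsg.pCore p (Y ⧸ Subgroup.centralizer (P : Set Y))).Normal :=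
    Cfsg.pCore_normal p _
  have hcomap : (Cfsg.pCore p (Y ⧸ Subgroup.centralizer (P : Set Y))).comap f ≤
      Cfsg.pCore p _ :=
    Lib.Cores.le_pCore (hcn.comap f) ((Lib.Cores.pCore_isPGroup p).comap_of_injective f hf)
  rintro _ ⟨⟨a, haN⟩, haA, rfl⟩
  apply hcomap
  rw [Subgroup.mem_comap]
  have haA' : a ∈ A := haA
  refine hst a ?_
  rw [eq_bot_iff, ← hq]
  have h5 : Subgroup.zpowers a ≤ A := by rwa [Subgroup.zpowers_le]
  exact Subgroup.commutator_mono (Subgroup.commutator_mono le_rfl h5) h5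

/-- For odd p, a group that fails to be p-stable modulo its largest normal subgroup of order prime to p, and whose upper p-series does not stop there, has a section isomorphic to SL(2, p). -/
theorem result {G : Type*} [Group G] [Finite G] {p : ℕ} [Fact p.Prime] (hp : p ≠ 2) (hO : Cfsg.pPrimeCore p G < Cfsg.pPrimePCore p G) (hns : ¬ Cfsg.IsPStable p (G ⧸ Cfsg.pPrimeCore p G)) : ∃ (K L : Subgroup G) (hL : (L.subgroupOf K).Normal), K ≤ ⊤ ∧ Nonempty ((K ⧸ L.subgroupOf K) ≃* Matrix.SpecialLinearGroup (Fin 2) (ZMod p)) := by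
  have h1 : Cfsg.pPrimeCore p (G ⧸ Cfsg.pPrimeCore p G) = ⊥ :=
    Lib.Cores.pPrimeCore_quotient_pPrimeCore p
  have h2 : Cfsg.pCore p (G ⧸ Cfsg.pPrimeCore p G) ≠ ⊥ := by
    intro h
    apply hO.ne
    show _ = (Cfsg.pCore p (G ⧸ Cfsg.pPrimeCore p G)).comap _
    rw [h, MonoidHom.comap_bot, QuotientGroup.ker_mk']
  have h3 := inv_of_not_stable hp h1 h2 hns
  exact (h3.of_surjective (QuotientGroup.mk' (Cfsg.pPrimeCore p G))
    (QuotientGroup.mk'_surjective _)).exists_section

end Cfsg.Agent.S0657
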