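import Cfsg.Statements.S0663
import Cfsg.Agent.PLocal.Uniserial
set_option linter.all false

set_option autoImplicit false
open Cfsg

namespace Cfsg.Agent.S0663

/-- A p-group acts uniserially on a p-group N of order p^n exactly when the iterated commutator chain from N has length n; in that case the chain terms are all the invariant subgroups of N and they are normal in N. -/
theorem result {L : Type*} [Group L] [Finite L] {p : ℕ} [Fact p.Prime] (N G : Subgroup L) (hN : IsPGroup p N) (hG : IsPGroup p G) (hGN : G ≤ Subgroup.normalizer (N : Set L)) (n : ℕ) (hn : Nat.card N = p ^ n) : ((∀ H : Subgroup L, H ≤ N → G ≤ Subgroup.normalizer (H : Set L) → H ≠ ⊥ → (⁅H, G⁆).relIndex H = p) ↔ Cfsg.iterCommutator N G (n - 1) ≠ ⊥ ∨ n = 0) ∧ ((∀ H : Subgroup L, H ≤ N → G ≤ Subgroup.normalizer (H : Set L) → H ≠ ⊥ → (⁅H, G⁆).relIndex H = p) → ∀ H : Subgroup L, H ≤ N → G ≤ Subgroup.normalizer (H : Set L) → (∃ i ≤ n, H = Cfsg.iterCommutator N G i) ∧ N ≤ Subgroup.normalizer (H : Set L)) := by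
  have hp : p.Prime := Fact.out
  have hK : IsPGroup p (G ⊔ N : Subgroup L) := hG.to_sup_of_normal_right' hN hGN
  have hNK : N ≤ G ⊔ N := le_sup_right
  have hGK : G ≤ G ⊔ N := le_sup_left
  have hfwd : (∀ H : Subgroup L, H ≤ N → G ≤ Subgroup.normalizer (H : Set L) → H ≠ ⊥ →
      (⁅H, G⁆).relIndex H = p) → Cfsg.iterCommutator N G (n - 1) ≠ ⊥ ∨ n = 0 := by
    intro h
    rcases Nat.eq_zero_or_pos n with h0 | hpos
    · exact Or.inr h0
    left
    have hcard : ∀ i ≤ n, Nat.card (Cfsg.iterCommutator N G i) = p ^ (n - i) := by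
      intro i
      induction i with
      | zero => intro _; exact hn
      | succ i ih =>
        intro hi
        have h1 := ih (by omega)
        have hne : Cfsg.iterCommutator N G i ≠ ⊥ := by
          intro hbot
          rw [hbot, Subgroup.card_bot] at h1
          have := Nat.one_lt_pow (n := n - i) (by omega) hp.one_lt
          omega
        have h2 := h _ (PLocal.Uniserial.iterCommutator_le hGN i)
          (PLocal.Uniserial.le_normalizer_iterCommutator hGN i) hne
        have h3 := PLocal.Uniserial.card_mul_relIndex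
          (PLocal.Uniserial.iterCommutator_succ_le hGN i)
        rw [PLocal.Uniserial.iterCommutator_succ] at h3
        rw [h2, h1] at h3
        rw [PLocal.Uniserial.iterCommutator_succ]
        have h4 : p ^ (n - i) = p ^ (n - (i + 1)) * p := by
          rw [← pow_succ]; congr 1; omega
        rw [h4] at h3
        exact Nat.eq_of_mul_eq_mul_right hp.pos h3
    intro hbot
    have h1 := hcard (n - 1) (by omega)
    rw [hbot, Subgroup.card_bot] at h1
    have := Nat.one_lt_pow (n := n - (n - 1)) (by omega) hp.one_lt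
    omega
  refine ⟨⟨hfwd, ?_⟩, ?_⟩
  · intro hne H hHN hGH hH
    obtain ⟨i, hi, rfl⟩ := PLocal.Uniserial.exists_eq_iterCommutator _ N G hK hNK hGK hGN n hn hne
      H hHN hGH
    have hc := PLocal.Uniserial.card_iterCommutator _ N G hK hNK hGK hGN n hn hne i hi
    have hi' : i < n := by
      refine lt_of_le_of_ne hi ?_
      rintro rfl
      apply hH
      rw [Nat.sub_self, pow_zero] at hc
      exact Subgroup.card_eq_one.mp hc
    have hc' := PLocal.Uniserial.card_iterCommutator _ N G hK hNK hGK hGN n hn hne (i + 1) hi'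
    have h3 := PLocal.Uniserial.card_mul_relIndex
          (PLocal.Uniserial.iterCommutator_succ_le hGN i)
    have h4 : p ^ (n - i) = p ^ (n - (i + 1)) * p := by
      rw [← pow_succ]; congr 1; omega
    rw [hc, hc', h4] at h3
    exact Nat.eq_of_mul_eq_mul_left (pow_pos hp.pos _) h3
  · intro h H hHN hGH
    have hne := hfwd h
    exact ⟨PLocal.Uniserial.exists_eq_iterCommutator _ N G hK hNK hGK hGN n hn hne
      H hHN hGH, PLocal.Uniserial.le_normalizer_of_invariant _ N G hK hNK hGK hGN n hn hne
      H hHN hGH⟩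

end Cfsg.Agent.S0663
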