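import Mathlib
import Cfsg.Prelude.Def_Perm
import Cfsg.Statements.S0668
set_option linter.all false

-- part: PermutationGroups/PermRepHom
section
/-!
Equivariant linear maps between permutation modules: the space of intertwiners between the
permutation modules of two finite `G`-sets is isomorphic to the space of functions on the orbits of
`G` on the product (`orbitEquivInvariants`).
-/

set_option autoImplicit false

namespace Cfsg.Agent.PermutationGroups.PermRepHom

section basic

variable {K : Type*} [CommSemiring K] {G : Type*} [Group G] {Ω : Type*} [MulAction G Ω]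

theorem permRep_apply (g : G) (f : Ω → K) (x : Ω) :
    Cfsg.permRep K G Ω g f x = f (g⁻¹ • x) := rfl

theorem permRep_single [DecidableEq Ω] (g : G) (x : Ω) (c : K) :
    Cfsg.permRep K G Ω g (Pi.single x c) = Pi.single (g • x) c := by
  funext y
  rw [permRep_apply]
  by_cases h : y = g • x
  · subst h
    simp
  · have h' : g⁻¹ • y ≠ x := fun h' => h (by rw [← h', smul_inv_smul])
    rw [Pi.single_eq_of_ne h', Pi.single_eq_of_ne h]

end basic

variable {G : Type*} [Group G] {K : Type*} [Field K] {Ω₁ Ω₂ : Type*} [Fintype Ω₁] [Fintype Ω₂]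
  [MulAction G Ω₁] [MulAction G Ω₂]

variable (G K Ω₁ Ω₂)

/-- The linear map attached to a function on the orbits of `G` on `Ω₁ × Ω₂`: its matrix is constant
on the orbits. -/
noncomputable def kernelMap : (MulAction.orbitRel.Quotient G (Ω₁ × Ω₂) → K) →ₗ[K]
    ((Ω₁ → K) →ₗ[K] (Ω₂ → K)) where
  toFun c :=
    { toFun := fun v y => ∑ x, c (Quotient.mk _ (x, y)) * v x
      map_add' := fun v w => by
        funext y
        simp only [Pi.add_apply, mul_add, Finset.sum_add_distrib]
      map_smul' := fun a v => by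
        funext y
        simp only [Pi.smul_apply, smul_eq_mul, RingHom.id_apply, Finset.mul_sum]
        exact Finset.sum_congr rfl fun x _ => by ring }
  map_add' c d := by
    apply LinearMap.ext
    intro v
    funext y
    simp only [Pi.add_apply, LinearMap.coe_mk, AddHom.coe_mk, LinearMap.add_apply, add_mul,
      Finset.sum_add_distrib]
  map_smul' a c := by
    apply LinearMap.ext
    intro v
    funext y
    simp only [Pi.smul_apply, smul_eq_mul, LinearMap.coe_mk, AddHom.coe_mk, LinearMap.smul_apply,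
      RingHom.id_apply, Finset.mul_sum]
    exact Finset.sum_congr rfl fun x _ => by ring

variable {G K Ω₁ Ω₂}

theorem kernelMap_apply (c : MulAction.orbitRel.Quotient G (Ω₁ × Ω₂) → K) (v : Ω₁ → K) (y : Ω₂) :
    kernelMap G K Ω₁ Ω₂ c v y = ∑ x, c (Quotient.mk _ (x, y)) * v x := rfl

theorem kernelMap_single [DecidableEq Ω₁] (c : MulAction.orbitRel.Quotient G (Ω₁ × Ω₂) → K)
    (x : Ω₁) (y : Ω₂) :
    kernelMap G K Ω₁ Ω₂ c (Pi.single x 1) y = c (Quotient.mk _ (x, y)) := by
  rw [kernelMap_apply, Finset.sum_eq_single x]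
  · rw [Pi.single_eq_same, mul_one]
  · intro z _ hz
    rw [Pi.single_eq_of_ne hz, mul_zero]
  · intro h
    exact absurd (Finset.mem_univ x) h

theorem kernelMap_injective : Function.Injective (kernelMap G K Ω₁ Ω₂) := by
  classical
  intro c d h
  funext q
  induction q using Quotient.inductionOn with | _ p => ?_
  obtain ⟨x, y⟩ := p
  rw [← kernelMap_single c x y, h, kernelMap_single]

theorem kernelMap_mem (c : MulAction.orbitRel.Quotient G (Ω₁ × Ω₂) → K) :
    kernelMap G K Ω₁ Ω₂ c ∈
      ((Cfsg.permRep K G Ω₁).linHom (Cfsg.permRep K G Ω₂)).invariants := by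
  intro g
  apply LinearMap.ext
  intro v
  funext y
  show (∑ x, c (Quotient.mk _ (x, g⁻¹ • y)) * v ((g⁻¹)⁻¹ • x)) =
    ∑ x, c (Quotient.mk _ (x, y)) * v x
  refine Fintype.sum_equiv (MulAction.toPerm g) _ _ (fun x => ?_)
  have h1 : (Quotient.mk (MulAction.orbitRel G (Ω₁ × Ω₂)) (x, g⁻¹ • y)) =
      Quotient.mk _ (g • x, y) := by
    apply Quotient.sound
    refine ⟨g⁻¹, ?_⟩
    show g⁻¹ • (g • x, y) = (x, g⁻¹ • y)
    rw [Prod.smul_mk, inv_smul_smul]
  rw [h1, inv_inv]
  rfl

theorem apply_single_smul [DecidableEq Ω₁] {f : (Ω₁ → K) →ₗ[K] (Ω₂ → K)}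
    (hf : f ∈ ((Cfsg.permRep K G Ω₁).linHom (Cfsg.permRep K G Ω₂)).invariants)
    (g : G) (x : Ω₁) (y : Ω₂) :
    f (Pi.single (g • x) 1) (g • y) = f (Pi.single x 1) y := by
  have h := congrFun (LinearMap.congr_fun (hf g) (Pi.single (g • x) 1)) (g • y)
  rw [← h]
  show f (Cfsg.permRep K G Ω₁ g⁻¹ (Pi.single (g • x) 1)) (g⁻¹ • (g • y)) = _
  rw [permRep_single, inv_smul_smul, inv_smul_smul]

theorem mem_range_kernelMap {f : (Ω₁ → K) →ₗ[K] (Ω₂ → K)}
    (hf : f ∈ ((Cfsg.permRep K G Ω₁).linHom (Cfsg.permRep K G Ω₂)).invariants) :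
    f ∈ LinearMap.range (kernelMap G K Ω₁ Ω₂) := by
  classical
  let c : MulAction.orbitRel.Quotient G (Ω₁ × Ω₂) → K :=
    Quotient.lift (fun p : Ω₁ × Ω₂ => f (Pi.single p.1 1) p.2) (by
      rintro ⟨x, y⟩ ⟨x', y'⟩ h
      obtain ⟨g, hg⟩ : (x, y) ∈ MulAction.orbit G (x', y') := h
      have hg' : g • (x', y') = (x, y) := hg
      rw [Prod.smul_mk, Prod.mk.injEq] at hg'
      obtain ⟨rfl, rfl⟩ := hg'
      exact apply_single_smul hf g x' y')
  refine ⟨c, ?_⟩
  apply (Pi.basisFun K Ω₁).ext
  intro x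
  rw [Pi.basisFun_apply]
  funext y
  rw [kernelMap_single]
  rfl

theorem range_kernelMap : LinearMap.range (kernelMap G K Ω₁ Ω₂) =
    ((Cfsg.permRep K G Ω₁).linHom (Cfsg.permRep K G Ω₂)).invariants := by
  apply le_antisymm
  · rintro _ ⟨c, rfl⟩
    exact kernelMap_mem c
  · intro f hf
    exact mem_range_kernelMap hf

/-- The intertwiners between two permutation modules are the functions on the orbits of the
product. -/
noncomputable def orbitEquivInvariants :
    (MulAction.orbitRel.Quotient G (Ω₁ × Ω₂) → K) ≃ₗ[K]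
      ((Cfsg.permRep K G Ω₁).linHom (Cfsg.permRep K G Ω₂)).invariants :=
  (LinearEquiv.ofInjective (kernelMap G K Ω₁ Ω₂) kernelMap_injective).trans
    (LinearEquiv.ofEq _ _ range_kernelMap)

theorem finrank_invariants :
    Module.finrank K ((Cfsg.permRep K G Ω₁).linHom (Cfsg.permRep K G Ω₂)).invariants =
      Nat.card (MulAction.orbitRel.Quotient G (Ω₁ × Ω₂)) := by
  classical
  have : Finite (MulAction.orbitRel.Quotient G (Ω₁ × Ω₂)) := Quotient.finite _
  have := Fintype.ofFinite (MulAction.orbitRel.Quotient G (Ω₁ × Ω₂))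
  rw [← (orbitEquivInvariants (G := G) (K := K) (Ω₁ := Ω₁) (Ω₂ := Ω₂)).finrank_eq,
    Module.finrank_fintype_fun_eq_card, Nat.card_eq_fintype_card]

end Cfsg.Agent.PermutationGroups.PermRepHom
end

-- part: S0668
section
set_option autoImplicit false
open Cfsg

namespace Cfsg.Agent.S0668

/-- The equivariant linear maps between the permutation modules of two finite `G`-sets form a space whose dimension is the number of `G`-orbits on the product of the two sets. -/
theorem result {G : Type*} [Group G] {K : Type*} [Field K] {Ω₁ Ω₂ : Type*} [Fintype Ω₁] [Fintype Ω₂] [MulAction G Ω₁] [MulAction G Ω₂] : Module.finrank K ((Cfsg.permRep K G Ω₁).linHom (Cfsg.permRep K G Ω₂)).invariants = Nat.card (MulAction.orbitRel.Quotient G (Ω₁ × Ω₂)) :=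
  Cfsg.Agent.PermutationGroups.PermRepHom.finrank_invariants

end Cfsg.Agent.S0668
end
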