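import Cfsg.Statements.S0670
import Cfsg.Agent.PermutationGroups.SylowFixed
set_option linter.all false

set_option autoImplicit false
open Cfsg

namespace Cfsg.Agent.S0670

/-- In characteristic `p`, the permutation module of a transitive action of degree `p ^ f` has the line of constant functions as its only irreducible submodule: every non-zero subrepresentation contains it. -/
theorem result {G : Type*} [Group G] [Finite G] {K : Type*} [Field K] {p f : ℕ} [Fact p.Prime] [CharP K p] {Ω : Type*} [Fintype Ω] [MulAction G Ω] [MulAction.IsPretransitive G Ω] (hf : 1 ≤ f) (hcard : Fintype.card Ω = p ^ f) (W : Subrepresentation (Cfsg.permRep K G Ω)) (hW : W.toSubmodule ≠ ⊥) : (Cfsg.permConstants K G Ω).toSubmodule ≤ W.toSubmodule := by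
  classical
  obtain ⟨P⟩ : Nonempty (Sylow p G) := inferInstance
  have htr : MulAction.IsPretransitive P Ω :=
    Cfsg.Agent.PermutationGroups.SylowFixed.sylow_isPretransitive (f := f)
      (by rw [Nat.card_eq_fintype_card, hcard]) P
  let ρ : Representation K P (Ω → K) := (Cfsg.permRep K G Ω).comp (P : Subgroup G).subtype
  obtain ⟨w, hwW, hw0, hfix⟩ :=
    Cfsg.Agent.PermutationGroups.SylowFixed.exists_ne_zero_fixed_of_representation P.2 ρ
      W.toSubmodule (fun g w hw => W.apply_mem_toSubmodule (g : G) hw) hW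
  -- `w` is constant
  have hconst : ∀ x y : Ω, w x = w y := by
    intro x y
    obtain ⟨g, hg⟩ := MulAction.exists_smul_eq P y x
    have h1 : (ρ g⁻¹ w) y = w y := congrFun (hfix g⁻¹) y
    have h2 : (ρ g⁻¹ w) y = w ((((g⁻¹ : P) : G))⁻¹ • y) := rfl
    have h3 : (((g⁻¹ : P) : G))⁻¹ • y = x := by
      rw [Subgroup.coe_inv, inv_inv]
      exact hg
    rw [h3] at h2
    rw [← h2, h1]
  obtain ⟨x0, hx0⟩ : ∃ x, w x ≠ 0 := by
    by_contra h
    push Not at h
    exact hw0 (funext h)
  show Submodule.span K {fun _ => 1} ≤ W.toSubmodule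
  rw [Submodule.span_le, Set.singleton_subset_iff]
  have h4 : (fun _ => 1 : Ω → K) = (w x0)⁻¹ • w := by
    funext x
    show 1 = (w x0)⁻¹ * w x
    rw [hconst x x0, inv_mul_cancel₀ hx0]
  rw [h4]
  exact W.toSubmodule.smul_mem _ hwW

end Cfsg.Agent.S0670
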