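import Mathlib
import Cfsg.Prelude.Def_Perm
import Cfsg.Agent.Lib.PGroupFixedVector
import Cfsg.Agent.PermutationGroups.SylowTransitive
import Cfsg.Statements.S0671
set_option linter.all false

-- part: PermutationGroups/PermModulePPower
section
/-!
The permutation module in characteristic `p` of a transitive group of degree `p ^ f`: every nonzero
submodule contains the constants, every proper submodule lies in the sum-zero functions.
-/

set_option autoImplicit false

namespace Cfsg.Agent.PermutationGroups.PermModulePPower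

open Cfsg

theorem permRep_apply {K G Ω : Type*} [CommSemiring K] [Group G] [MulAction G Ω] (g : G)
    (v : Ω → K) (x : Ω) : permRep K G Ω g v x = v (g⁻¹ • x) := rfl

/-- In the permutation module in characteristic `p` of a transitive group of degree `p ^ f`, every
nonzero invariant subspace contains the constant functions. -/
theorem one_mem_of_invariant {K G Ω : Type*} [Field K] [Group G] [Finite G] [MulAction G Ω]
    [Fintype Ω] [MulAction.IsPretransitive G Ω] {p f : ℕ} [Fact p.Prime] [CharP K p]
    (hcard : Fintype.card Ω = p ^ f) (W : Submodule K (Ω → K))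
    (hW : ∀ g : G, ∀ v ∈ W, permRep K G Ω g v ∈ W) (hW0 : W ≠ ⊥) : (fun _ => 1 : Ω → K) ∈ W := by
  classical
  obtain ⟨P⟩ : Nonempty (Sylow p G) := inferInstance
  haveI : MulAction.IsPretransitive P Ω :=
    SylowTransitive.isPretransitive_sylow (f := f) (by rw [Nat.card_eq_fintype_card, hcard]) P
  obtain ⟨v, hvW, hv0, hv⟩ := Lib.PGroupFixedVector.exists_mem_ne_zero_fixed_rep (K := K)
    P.isPGroup' ((permRep K G Ω).comp (Subgroup.subtype (P : Subgroup G))) W
    (fun g v hv => hW g v hv) hW0
  have hconst : ∀ x y : Ω, v x = v y := by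
    intro x y
    obtain ⟨g, hg⟩ := MulAction.exists_smul_eq P x y
    have h1 : permRep K G Ω (g : G) v = v := hv g
    have h2 := congrFun h1 y
    rw [permRep_apply, ← hg] at h2
    rw [← hg, ← h2]
    congr 1
    change x = ((g : G))⁻¹ • ((g : G) • x)
    simp
  obtain ⟨x₀, hx₀⟩ : ∃ x, v x ≠ 0 := by
    by_contra hcon
    push Not at hcon
    exact hv0 (funext hcon)
  have : (fun _ => 1 : Ω → K) = (v x₀)⁻¹ • v := by
    funext x
    simp only [Pi.smul_apply, smul_eq_mul]
    rw [hconst x x₀, inv_mul_cancel₀ hx₀]
  rw [this]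
  exact W.smul_mem _ hvW

/-- In the permutation module in characteristic `p` of a transitive group of degree `p ^ f`, every
proper invariant subspace consists of functions with sum zero. -/
theorem sum_eq_zero_of_invariant {K G Ω : Type*} [Field K] [Group G] [Finite G] [MulAction G Ω]
    [Fintype Ω] [MulAction.IsPretransitive G Ω] {p f : ℕ} [Fact p.Prime] [CharP K p]
    (hcard : Fintype.card Ω = p ^ f) (W : Submodule K (Ω → K))
    (hW : ∀ g : G, ∀ v ∈ W, permRep K G Ω g v ∈ W) (hW0 : W ≠ ⊤) :
    ∀ v ∈ W, ∑ x, v x = 0 := by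
  classical
  obtain ⟨φ, hφ0, hφ⟩ := Submodule.exists_le_ker_of_lt_top W (lt_top_iff_ne_top.2 hW0)
  let U : Submodule K (Ω → K) :=
    { carrier := {u | ∀ w ∈ W, ∑ x, u x * w x = 0}
      add_mem' := by
        intro a b ha hb w hw
        simp only [Pi.add_apply, add_mul, Finset.sum_add_distrib]
        rw [ha w hw, hb w hw, add_zero]
      zero_mem' := by intro w _; simp
      smul_mem' := by
        intro c a ha w hw
        simp only [Pi.smul_apply, smul_eq_mul, mul_assoc]
        rw [← Finset.mul_sum, ha w hw, mul_zero] }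
  have hU : ∀ g : G, ∀ u ∈ U, permRep K G Ω g u ∈ U := by
    intro g u hu w hw
    have h1 : ∑ x, u x * (permRep K G Ω g⁻¹ w) x = 0 := hu _ (hW g⁻¹ w hw)
    rw [← h1]
    refine Fintype.sum_equiv (MulAction.toPerm g⁻¹) _ _ (fun x => ?_)
    simp only [permRep_apply, MulAction.toPerm_apply, inv_inv, smul_inv_smul]
  have hU0 : U ≠ ⊥ := by
    rw [Submodule.ne_bot_iff]
    refine ⟨fun x => φ (Pi.single x 1), ?_, ?_⟩
    · intro w hw
      have h1 : φ w = 0 := hφ hw
      rw [← h1]
      conv_rhs => rw [← Finset.univ_sum_single w]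
      rw [map_sum]
      refine Finset.sum_congr rfl (fun x _ => ?_)
      have : (Pi.single x (w x) : Ω → K) = w x • Pi.single x 1 := by
        rw [← Pi.single_smul, smul_eq_mul, mul_one]
      rw [this, map_smul, smul_eq_mul, mul_comm]
    · intro h0
      apply hφ0
      apply LinearMap.pi_ext
      intro i c
      have h1 : φ (Pi.single i 1) = 0 := congrFun h0 i
      have : (Pi.single i c : Ω → K) = c • Pi.single i 1 := by
        rw [← Pi.single_smul, smul_eq_mul, mul_one]
      rw [this, map_smul, h1, smul_zero, LinearMap.zero_apply]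
  have h1 := one_mem_of_invariant hcard U hU hU0
  intro v hv
  have := h1 v hv
  simpa using this

end Cfsg.Agent.PermutationGroups.PermModulePPower
end

-- part: S0671
section
set_option autoImplicit false
open Cfsg

namespace Cfsg.Agent.S0671

open Cfsg.Agent.PermutationGroups.PermModulePPower

/-- If the heart of the permutation module in characteristic `p` of a transitive action of degree `p ^ f` has no trivial composition factor, the action is doubly transitive. The hypothesis is phrased without composition series: no invariant subspaces `W < W'` between the constants and the sum-zero functions with trivial action on the quotient. -/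
theorem result {G : Type*} [Group G] [Finite G] {K : Type*} [Field K] {p f : ℕ} [Fact p.Prime] [CharP K p] {Ω : Type*} [Fintype Ω] [MulAction G Ω] [MulAction.IsPretransitive G Ω] (hf : 1 ≤ f) (hcard : Fintype.card Ω = p ^ f) (h : ∀ W W' : Subrepresentation (Cfsg.permRep K G Ω), (Cfsg.permConstants K G Ω).toSubmodule ≤ W.toSubmodule → W.toSubmodule < W'.toSubmodule → W'.toSubmodule ≤ (Cfsg.permSumZero K G Ω).toSubmodule → ∃ g : G, ∃ v ∈ W'.toSubmodule, Cfsg.permRep K G Ω g v - v ∉ W.toSubmodule) : MulAction.IsMultiplyPretransitive G Ω 2 := by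
  classical
  rw [MulAction.is_two_pretransitive_iff]
  intro a b c d hab hcd
  -- the orbital of `(a, b)`
  let R : Ω → Ω → Prop := fun x y => ∃ g : G, g • a = x ∧ g • b = y
  have hR : ∀ (g : G) (x y : Ω), R (g • x) (g • y) ↔ R x y := by
    intro g x y
    constructor
    · rintro ⟨k, hk1, hk2⟩
      exact ⟨g⁻¹ * k, by rw [mul_smul, hk1, inv_smul_smul], by rw [mul_smul, hk2, inv_smul_smul]⟩
    · rintro ⟨k, hk1, hk2⟩
      exact ⟨g * k, by rw [mul_smul, hk1], by rw [mul_smul, hk2]⟩
  have hRne : ∀ x, ¬ R x x := by
    rintro x ⟨g, h1, h2⟩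
    exact hab (MulAction.injective g (h1.trans h2.symm))
  -- its adjacency operator
  let A : (Ω → K) →ₗ[K] (Ω → K) :=
    { toFun := fun v x => ∑ y, if R x y then v y else 0
      map_add' := by
        intro v w
        funext x
        simp only [Pi.add_apply]
        rw [← Finset.sum_add_distrib]
        refine Finset.sum_congr rfl (fun y _ => ?_)
        split_ifs <;> simp
      map_smul' := by
        intro r v
        funext x
        simp only [Pi.smul_apply, smul_eq_mul, RingHom.id_apply]
        rw [Finset.mul_sum]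
        refine Finset.sum_congr rfl (fun y _ => ?_)
        split_ifs <;> simp }
  have hA : ∀ v x, A v x = ∑ y, if R x y then v y else 0 := fun _ _ => rfl
  have hAg : ∀ (g : G) v, A (Cfsg.permRep K G Ω g v) = Cfsg.permRep K G Ω g (A v) := by
    intro g v
    funext x
    rw [hA, permRep_apply, hA]
    refine Fintype.sum_equiv (MulAction.toPerm g⁻¹) _ _ (fun y => ?_)
    simp only [MulAction.toPerm_apply, permRep_apply, hR]
  -- the valency
  let k : K := A (fun _ => 1) a
  have hk : ∀ x, A (fun _ => 1) x = k := by
    intro x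
    obtain ⟨g, hg⟩ := MulAction.exists_smul_eq G x a
    have h1 := congrFun (hAg g (fun _ => 1)) a
    rw [permRep_apply] at h1
    have h2 : Cfsg.permRep K G Ω g (fun _ => (1 : K)) = fun _ => 1 := rfl
    rw [h2, ← hg, inv_smul_smul] at h1
    change _ = A (fun _ => 1) a
    rw [← h1, hg]
  let B : (Ω → K) →ₗ[K] (Ω → K) := A - k • LinearMap.id
  have hB : ∀ v x, B v x = A v x - k * v x := fun _ _ => rfl
  have hBg : ∀ (g : G) v, B (Cfsg.permRep K G Ω g v) = Cfsg.permRep K G Ω g (B v) := by
    intro g v
    funext x
    rw [hB, hAg, permRep_apply, permRep_apply, permRep_apply, hB]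
  have hB1 : B (fun _ => 1) = 0 := by
    funext x
    rw [hB, hk, mul_one, sub_self]
    rfl
  have hBs : ∀ x y, x ≠ y → B (Pi.single y 1) x = if R x y then 1 else 0 := by
    intro x y hxy
    rw [hB, hA, Pi.single_eq_of_ne hxy, mul_zero, sub_zero]
    rw [Finset.sum_eq_single y]
    · simp
    · intro z _ hz
      rw [Pi.single_eq_of_ne hz]
      simp
    · simp
  -- invariance of the range, image of the sum-zero functions, kernel
  let V0 : Submodule K (Ω → K) := (Cfsg.permSumZero K G Ω).toSubmodule
  have hV0 : ∀ v, v ∈ V0 ↔ ∑ x, v x = 0 := fun _ => Iff.rfl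
  have hsub : ∀ (g : G) (v : Ω → K), Cfsg.permRep K G Ω g v - v ∈ V0 := by
    intro g v
    rw [hV0]
    simp only [Pi.sub_apply, Finset.sum_sub_distrib, permRep_apply]
    rw [sub_eq_zero]
    exact Fintype.sum_equiv (MulAction.toPerm g⁻¹) _ _ (fun x => rfl)
  let U1 : Subrepresentation (Cfsg.permRep K G Ω) :=
    { toSubmodule := LinearMap.range B
      apply_mem_toSubmodule := by
        rintro g _ ⟨v, rfl⟩
        exact ⟨Cfsg.permRep K G Ω g v, hBg g v⟩ }
  let U0 : Subrepresentation (Cfsg.permRep K G Ω) :=
    { toSubmodule := V0.map B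
      apply_mem_toSubmodule := by
        rintro g _ ⟨v, hv, rfl⟩
        exact ⟨Cfsg.permRep K G Ω g v, (Cfsg.permSumZero K G Ω).apply_mem_toSubmodule g hv,
          hBg g v⟩ }
  have hone : (fun _ => 1 : Ω → K) ≠ 0 := by
    intro h0
    exact one_ne_zero (congrFun h0 a)
  have hU1top : U1.toSubmodule ≠ ⊤ := by
    intro htop
    have hinj : Function.Injective B := LinearMap.injective_iff_surjective.2
      (LinearMap.range_eq_top.1 htop)
    exact hone (hinj (by rw [hB1, map_zero]))
  have hU1V0 : U1.toSubmodule ≤ V0 := fun v hv =>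
    sum_eq_zero_of_invariant hcard U1.toSubmodule (fun g v hv => U1.apply_mem_toSubmodule g hv)
      hU1top v hv
  have hU01 : U0.toSubmodule ≤ U1.toSubmodule := by
    rintro _ ⟨v, _, rfl⟩
    exact ⟨v, rfl⟩
  have hU0bot : U0.toSubmodule = ⊥ := by
    by_contra hne
    have hC : (Cfsg.permConstants K G Ω).toSubmodule ≤ U0.toSubmodule := by
      change Submodule.span K {fun _ => 1} ≤ _
      rw [Submodule.span_le, Set.singleton_subset_iff]
      exact one_mem_of_invariant hcard U0.toSubmodule
        (fun g v hv => U0.apply_mem_toSubmodule g hv) hne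
    have hlt : U0.toSubmodule < U1.toSubmodule := by
      refine lt_of_le_of_ne hU01 (fun heq => ?_)
      -- then `V = V0 + ker B`
      have hker : LinearMap.ker B ≠ ⊤ := by
        intro hker
        apply hne
        rw [LinearMap.ker_eq_top] at hker
        rw [eq_bot_iff]
        rintro _ ⟨v, _, rfl⟩
        rw [hker]
        simp
      have hkerV0 : ∀ v ∈ LinearMap.ker B, ∑ x, v x = 0 :=
        sum_eq_zero_of_invariant (G := G) hcard (LinearMap.ker B) (fun g v hv => by
          rw [LinearMap.mem_ker] at hv ⊢
          rw [hBg, hv, map_zero]) hker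
      have h1 : B (Pi.single a 1) ∈ U0.toSubmodule := by
        rw [heq]
        exact ⟨_, rfl⟩
      obtain ⟨v, hv, hv'⟩ := h1
      have h2 : (Pi.single a 1 - v : Ω → K) ∈ LinearMap.ker B := by
        rw [LinearMap.mem_ker, map_sub, hv', sub_self]
      have h3 := hkerV0 _ h2
      simp only [Pi.sub_apply, Finset.sum_sub_distrib, Finset.sum_pi_single', Finset.mem_univ,
        if_true] at h3
      have h4 : ∑ x, v x = 0 := hv
      rw [h4, sub_zero] at h3
      simp at h3
    obtain ⟨g, v, ⟨w, rfl⟩, hv⟩ := h U0 U1 hC hlt hU1V0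
    apply hv
    rw [← hBg, ← map_sub]
    exact ⟨_, hsub g w, rfl⟩
  have hBV0 : ∀ v ∈ V0, B v = 0 := by
    intro v hv
    have : B v ∈ U0.toSubmodule := ⟨v, hv, rfl⟩
    rw [hU0bot] at this
    exact this
  have hBsame : ∀ y z, B (Pi.single y 1) = B (Pi.single z 1) := by
    intro y z
    rw [← sub_eq_zero, ← map_sub]
    apply hBV0
    rw [hV0]
    simp
  have hRa : ∀ y, a ≠ y → R a y := by
    intro y hy
    have h1 : B (Pi.single y 1) a = 1 := by
      rw [hBsame y b, hBs a b hab, if_pos ⟨1, one_smul _ _, one_smul _ _⟩]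
    rw [hBs a y hy] at h1
    by_contra hn
    rw [if_neg hn] at h1
    exact zero_ne_one h1
  obtain ⟨g, hg⟩ := MulAction.exists_smul_eq G a c
  have h1 : a ≠ g⁻¹ • d := by
    intro h2
    apply hcd
    rw [← hg, h2, smul_inv_smul]
  have h2 := hRa _ h1
  rw [← hR g, hg, smul_inv_smul] at h2
  exact h2

end Cfsg.Agent.S0671
end
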