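import Cfsg.Statements.S0673
import Mathlib
set_option linter.all false

set_option autoImplicit false
open Cfsg

namespace Cfsg.Agent.S0673

open Polynomial

/-- Evaluation of polynomials at the elements of `ZMod p`. -/
noncomputable def ev (p : ℕ) (K : Type*) [Field K] : K[X] →ₗ[K] (ZMod p → K) where
  toFun P := fun j => P.eval (ZMod.cast j : K)
  map_add' P Q := by funext j; simp
  map_smul' c P := by funext j; simp

theorem ev_apply (p : ℕ) (K : Type*) [Field K] (P : K[X]) (j : ZMod p) :
    ev p K P j = P.eval (ZMod.cast j : K) := rfl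

/-- The difference operator. -/
def dif (p : ℕ) (K : Type*) [Field K] : Module.End K (ZMod p → K) where
  toFun f := fun j => f (j - 1) - f j
  map_add' f g := by funext j; simp only [Pi.add_apply]; ring
  map_smul' c f := by funext j; simp only [Pi.smul_apply, smul_eq_mul, RingHom.id_apply]; ring

theorem dif_apply (p : ℕ) (K : Type*) [Field K] (f : ZMod p → K) (j : ZMod p) :
    dif p K f j = f (j - 1) - f j := rfl

theorem dif_ev {p : ℕ} [Fact p.Prime] {K : Type*} [Field K] [CharP K p] (P : K[X]) :
    dif p K (ev p K P) = ev p K (taylor (-1) P - P) := by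
  funext j
  rw [dif_apply, ev_apply, ev_apply, ev_apply, eval_sub, taylor_eval, ZMod.cast_sub',
    ZMod.cast_one', sub_eq_add_neg (ZMod.cast j : K) 1]

/-- The polynomial functions of degree less than `r`. -/
noncomputable def pol (p : ℕ) (K : Type*) [Field K] (r : ℕ) : Submodule K (ZMod p → K) :=
  (degreeLT K r).map (ev p K)

theorem mem_pol {p : ℕ} {K : Type*} [Field K] {r : ℕ} {f : ZMod p → K} :
    f ∈ pol p K r ↔ ∃ P : K[X], P.degree < r ∧ ∀ j : ZMod p, f j = P.eval (ZMod.cast j : K) := by
  constructor
  · rintro ⟨P, hP, rfl⟩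
    exact ⟨P, mem_degreeLT.mp hP, fun j => rfl⟩
  · rintro ⟨P, hP, h⟩
    exact ⟨P, mem_degreeLT.mpr hP, funext fun j => (h j).symm⟩

theorem finrank_pol {p : ℕ} [Fact p.Prime] {K : Type*} [Field K] [CharP K p] {r : ℕ}
    (hr : r ≤ p) : Module.finrank K (pol p K r) = r := by
  have hinj : Function.Injective ((ev p K).domRestrict (degreeLT K r)) := by
    rw [injective_iff_map_eq_zero]
    rintro ⟨P, hP⟩ h
    rw [mem_degreeLT] at hP
    apply Subtype.ext
    change P = 0
    have hcast : Function.Injective (fun j : ZMod p => (ZMod.cast j : K)) :=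
      ZMod.castHom_injective K
    apply Polynomial.eq_zero_of_degree_lt_of_eval_finset_eq_zero
      (s := Finset.univ.map ⟨fun j : ZMod p => (ZMod.cast j : K), hcast⟩)
    · rw [Finset.card_map, Finset.card_univ, ZMod.card]
      exact lt_of_lt_of_le hP (by exact_mod_cast hr)
    · intro x hx
      simp only [Finset.mem_map, Finset.mem_univ, true_and, Function.Embedding.coeFn_mk] at hx
      obtain ⟨j, rfl⟩ := hx
      exact congrFun h j
  have h1 := LinearMap.finrank_range_of_inj hinj
  rw [(degreeLTEquiv K r).finrank_eq, Module.finrank_fin_fun, LinearMap.range_domRestrict] at h1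
  exact h1

theorem dif_mem_pol {p : ℕ} [Fact p.Prime] {K : Type*} [Field K] [CharP K p] {r : ℕ}
    {f : ZMod p → K} (hf : f ∈ pol p K (r + 1)) : dif p K f ∈ pol p K r := by
  obtain ⟨P, hP, rfl⟩ := hf
  rw [SetLike.mem_coe, mem_degreeLT] at hP
  rw [dif_ev]
  refine ⟨_, ?_, rfl⟩
  rw [SetLike.mem_coe, mem_degreeLT]
  by_cases h0 : P = 0
  · subst h0
    simp
  · have h1 : (taylor (-1) P - P).degree < P.degree :=
      Polynomial.degree_sub_lt_right (by rw [degree_taylor]) h0 (by rw [leadingCoeff_taylor])
    refine lt_of_lt_of_le h1 ?_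
    rw [degree_eq_natDegree h0] at hP ⊢
    exact_mod_cast Nat.lt_succ_iff.mp (by exact_mod_cast hP)

theorem pol_le_ker {p : ℕ} [Fact p.Prime] {K : Type*} [Field K] [CharP K p] (r : ℕ) :
    pol p K r ≤ LinearMap.ker (dif p K ^ r) := by
  induction r with
  | zero =>
    rintro f ⟨P, hP, rfl⟩
    have : P = 0 := by
      rw [SetLike.mem_coe, mem_degreeLT] at hP
      simpa using hP
    subst this
    simp
  | succ r ih =>
    intro f hf
    rw [LinearMap.mem_ker, pow_succ, Module.End.mul_apply]
    exact ih (dif_mem_pol hf)

theorem finrank_ker_dif {p : ℕ} [Fact p.Prime] {K : Type*} [Field K] :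
    Module.finrank K (LinearMap.ker (dif p K)) ≤ 1 := by
  have h : LinearMap.ker (dif p K) ≤ Submodule.span K {fun _ => (1 : K)} := by
    intro f hf
    rw [LinearMap.mem_ker] at hf
    have h1 : ∀ j : ZMod p, f (j - 1) = f j := fun j => sub_eq_zero.mp (congrFun hf j)
    have h2 : ∀ n : ℕ, f (n : ZMod p) = f 0 := by
      intro n
      induction n with
      | zero => simp
      | succ n ih => rw [← h1, ← ih]; congr 1; push_cast; ring
    rw [Submodule.mem_span_singleton]
    refine ⟨f 0, funext fun j => ?_⟩
    have := h2 j.val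
    rw [ZMod.natCast_zmod_val] at this
    simp [this]
  calc Module.finrank K (LinearMap.ker (dif p K))
      ≤ Module.finrank K (Submodule.span K {fun _ : ZMod p => (1 : K)}) :=
        Submodule.finrank_mono h
    _ ≤ 1 := by
        have := finrank_span_le_card (R := K) ({fun _ : ZMod p => (1 : K)} : Set (ZMod p → K))
        simpa only [Set.toFinset_singleton, Finset.card_singleton] using this

theorem finrank_ker_pow {p : ℕ} [Fact p.Prime] {K : Type*} [Field K] (r : ℕ) :
    Module.finrank K (LinearMap.ker (dif p K ^ r)) ≤ r := by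
  induction r with
  | zero => simp [Module.End.one_eq_id]
  | succ r ih =>
    have hmap : ∀ f ∈ LinearMap.ker (dif p K ^ (r + 1)), dif p K f ∈ LinearMap.ker (dif p K ^ r) := by
      intro f hf
      rw [LinearMap.mem_ker, pow_succ, Module.End.mul_apply] at hf
      exact hf
    set φ := (dif p K).restrict hmap with hφ
    have h1 := LinearMap.finrank_range_add_finrank_ker φ
    have h2 : Module.finrank K (LinearMap.range φ) ≤ r := (Submodule.finrank_le _).trans ih
    have h3 : Module.finrank K (LinearMap.ker φ) ≤ 1 := by
      refine le_trans ?_ (finrank_ker_dif (p := p) (K := K))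
      let ψ : LinearMap.ker φ →ₗ[K] LinearMap.ker (dif p K) :=
        { toFun := fun x => ⟨x.1.1, by
            have := x.2
            rw [LinearMap.mem_ker] at this
            exact congrArg Subtype.val this⟩
          map_add' := fun _ _ => rfl
          map_smul' := fun _ _ => rfl }
      apply LinearMap.finrank_le_finrank_of_injective (f := ψ)
      intro x y hxy
      apply Subtype.ext
      apply Subtype.ext
      exact congrArg (fun z : LinearMap.ker (dif p K) => (z : ZMod p → K)) hxy
    omega

/-- In characteristic `p`, the translation-invariant subspaces of the space of functions on `ZMod p` are exactly the spaces of polynomial functions of degree less than `r`, one for each `r ≤ p`, of dimension `r`. -/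
theorem result {p : ℕ} [Fact p.Prime] {K : Type*} [Field K] [CharP K p] (W : Submodule K (ZMod p → K)) (hW : ∀ f ∈ W, (fun j => f (j - 1)) ∈ W) : ∃ r : ℕ, r ≤ p ∧ Module.finrank K W = r ∧ ∀ f : ZMod p → K, f ∈ W ↔ ∃ P : Polynomial K, P.degree < r ∧ ∀ j : ZMod p, f j = P.eval (ZMod.cast j : K) := by
  have hdim : Module.finrank K (ZMod p → K) = p := by
    rw [Module.finrank_fintype_fun_eq_card, ZMod.card]
  have hWp : Module.finrank K W ≤ p := (Submodule.finrank_le W).trans hdim.le
  refine ⟨Module.finrank K W, hWp, rfl, ?_⟩
  set r := Module.finrank K W with hr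
  -- everything is a polynomial function, and the difference operator is nilpotent
  have hnil : dif p K ^ p = 0 := by
    have h1 : pol p K p = ⊤ := by
      apply Submodule.eq_top_of_finrank_eq
      rw [finrank_pol le_rfl, hdim]
    have h2 := pol_le_ker (p := p) (K := K) p
    rw [h1, top_le_iff, LinearMap.ker_eq_top] at h2
    exact h2
  have hWd : ∀ f ∈ W, dif p K f ∈ W := fun f hf => W.sub_mem (hW f hf) hf
  -- `W` is contained in the kernel of the `r`-th power
  have hWker : W ≤ LinearMap.ker (dif p K ^ r) := by
    intro f hf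
    have h1 : (⟨f, hf⟩ : W) ∈ LinearMap.ker (((dif p K).restrict hWd) ^ p) := by
      rw [LinearMap.mem_ker, Module.End.pow_restrict]
      apply Subtype.ext
      rw [LinearMap.coe_restrict_apply, hnil]
      rfl
    have h2 := Module.End.ker_pow_le_ker_pow_finrank ((dif p K).restrict hWd) p h1
    rw [LinearMap.mem_ker, Module.End.pow_restrict] at h2
    have h3 := congrArg Subtype.val h2
    rw [LinearMap.coe_restrict_apply] at h3
    exact h3
  have hker : Module.finrank K (LinearMap.ker (dif p K ^ r)) ≤ r := finrank_ker_pow r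
  have e1 : W = LinearMap.ker (dif p K ^ r) := Submodule.eq_of_le_of_finrank_le hWker hker
  have e2 : pol p K r = LinearMap.ker (dif p K ^ r) :=
    Submodule.eq_of_le_of_finrank_le (pol_le_ker r) (by rw [finrank_pol hWp]; exact hker)
  intro f
  rw [← mem_pol, e2, ← e1]

end Cfsg.Agent.S0673
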