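import Mathlib
import Cfsg.Agent.PermutationGroups.JordanNormal
import Cfsg.Statements.S0677
import Cfsg.Agent.PermutationGroups.PrimeInvolution
import Cfsg.Agent.Solvable.Hall
import Cfsg.Agent.S0676
set_option linter.all false

-- part: PermutationGroups/ThreeDesign
section
/-!
A triply transitive group of degree `n` with a subgroup `H` of index `n`: every `H`-orbit of
length less than `n - 1` is a fixed point. The argument is Fisher's inequality for the derived
design of the 3-design with blocks the translates of the orbit.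
-/

set_option autoImplicit false

namespace Cfsg.Agent.PermutationGroups.ThreeDesign

/-- Fisher's argument: fewer than `|α| - 1` blocks through the point `a`, every two further points
on `lam` of them respectively `mu` of them jointly, then `lam = mu`. -/
theorem lam_eq_mu {α ι : Type*} [Fintype α] [Fintype ι] (I : α → ι → Prop)
    (a : α) (lam mu : ℕ)
    (hlt : Nat.card {i // I a i} < Fintype.card α - 1)
    (hlam : ∀ b, b ≠ a → Nat.card {i // I a i ∧ I b i} = lam)
    (hmu : ∀ b c, b ≠ a → c ≠ a → b ≠ c → Nat.card {i // I a i ∧ I b i ∧ I c i} = mu)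
    (hle : mu ≤ lam) : lam = mu := by
  classical
  let β := {b : α // b ≠ a}
  let γ := {i : ι // I a i}
  let φ : (β → ℚ) →ₗ[ℚ] (γ → ℚ) :=
    { toFun := fun f i => ∑ b : β, (if I b.1 i.1 then f b else 0)
      map_add' := fun f g => by
        funext i
        simp only [Pi.add_apply]
        rw [← Finset.sum_add_distrib]
        exact Finset.sum_congr rfl fun b _ => by split_ifs <;> simp
      map_smul' := fun c f => by
        funext i
        simp only [Pi.smul_apply, smul_eq_mul, RingHom.id_apply]
        rw [Finset.mul_sum]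
        exact Finset.sum_congr rfl fun b _ => by split_ifs <;> simp }
  have hφ : ∀ f i, φ f i = ∑ b : β, (if I b.1 i.1 then f b else 0) := fun _ _ => rfl
  have hcard : Module.finrank ℚ (γ → ℚ) < Module.finrank ℚ (β → ℚ) := by
    rw [Module.finrank_fintype_fun_eq_card, Module.finrank_fintype_fun_eq_card]
    have h1 : Fintype.card β = Fintype.card α - 1 := by
      rw [Fintype.card_subtype_compl (fun b : α => b = a), Fintype.card_subtype_eq]
    rw [h1, ← Nat.card_eq_fintype_card (α := γ)]
    exact hlt
  have hker : LinearMap.ker φ ≠ ⊥ := LinearMap.ker_ne_bot_of_finrank_lt hcard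
  obtain ⟨f, hf, hf0⟩ := (Submodule.ne_bot_iff _).1 hker
  rw [LinearMap.mem_ker] at hf
  -- the quadratic form
  have hq : ∑ i : γ, (φ f i) ^ 2 = ((lam : ℚ) - mu) * ∑ b : β, f b ^ 2 +
      mu * (∑ b : β, f b) ^ 2 := by
    have h1 : ∀ i : γ, (φ f i) ^ 2 = ∑ b : β, ∑ c : β,
        (f b * f c) * (if I b.1 i.1 ∧ I c.1 i.1 then 1 else 0) := by
      intro i
      rw [hφ, pow_two, Finset.sum_mul_sum]
      refine Finset.sum_congr rfl fun b _ => Finset.sum_congr rfl fun c _ => ?_
      by_cases hb : I b.1 i.1 <;> by_cases hc : I c.1 i.1 <;> simp [hb, hc]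
    simp_rw [h1]
    rw [Finset.sum_comm]
    have h2 : ∀ b : β, ∑ i : γ, ∑ c : β,
        (f b * f c) * (if I b.1 i.1 ∧ I c.1 i.1 then (1 : ℚ) else 0) =
        ∑ c : β, (f b * f c) * ((mu : ℚ) + if b = c then ((lam : ℚ) - mu) else 0) := by
      intro b
      rw [Finset.sum_comm]
      refine Finset.sum_congr rfl fun c _ => ?_
      rw [← Finset.mul_sum]
      congr 1
      rw [Finset.sum_boole, ← Fintype.card_subtype, ← Nat.card_eq_fintype_card]
      by_cases hbc : b = c
      · subst hbc
        rw [if_pos rfl, ← hlam b.1 b.2]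
        have h3 : Nat.card {x : γ // I b.1 x.1 ∧ I b.1 x.1} = Nat.card {i // I a i ∧ I b.1 i} :=
          Nat.card_congr
            { toFun := fun x => ⟨x.1.1, x.1.2, x.2.1⟩
              invFun := fun x => ⟨⟨x.1, x.2.1⟩, x.2.2, x.2.2⟩
              left_inv := fun _ => rfl
              right_inv := fun _ => rfl }
        rw [h3]
        ring
      · rw [if_neg hbc, add_zero,
          ← hmu b.1 c.1 b.2 c.2 (fun h => hbc (Subtype.ext h))]
        have h3 : Nat.card {x : γ // I b.1 x.1 ∧ I c.1 x.1} =
            Nat.card {i // I a i ∧ I b.1 i ∧ I c.1 i} :=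
          Nat.card_congr
            { toFun := fun x => ⟨x.1.1, x.1.2, x.2.1, x.2.2⟩
              invFun := fun x => ⟨⟨x.1, x.2.1⟩, x.2.2.1, x.2.2.2⟩
              left_inv := fun _ => rfl
              right_inv := fun _ => rfl }
        rw [h3]
    rw [Finset.sum_congr rfl fun b _ => h2 b]
    simp_rw [mul_add, Finset.sum_add_distrib]
    have h4 : ∀ b : β, ∑ c : β, f b * f c * (if b = c then ((lam : ℚ) - mu) else 0) =
        (lam - mu) * f b ^ 2 := by
      intro b
      rw [Finset.sum_eq_single b]
      · rw [if_pos rfl]; ring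
      · intro c _ hc
        rw [if_neg (Ne.symm hc), mul_zero]
      · intro h
        exact absurd (Finset.mem_univ b) h
    simp_rw [h4]
    rw [← Finset.mul_sum]
    have h5 : ∑ b : β, ∑ c : β, f b * f c * (mu : ℚ) = mu * (∑ b : β, f b) ^ 2 := by
      rw [pow_two, Finset.sum_mul_sum, Finset.mul_sum]
      refine Finset.sum_congr rfl fun b _ => ?_
      rw [Finset.mul_sum]
      exact Finset.sum_congr rfl fun c _ => by ring
    rw [h5]
    ring
  have hz : ∑ i : γ, (φ f i) ^ 2 = 0 := by
    rw [hf]
    simp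
  rw [hz] at hq
  have hpos : 0 < ∑ b : β, f b ^ 2 := by
    obtain ⟨b, hb⟩ : ∃ b, f b ≠ 0 := by
      by_contra hcon
      push Not at hcon
      exact hf0 (funext hcon)
    refine Finset.sum_pos' (fun b _ => sq_nonneg _) ⟨b, Finset.mem_univ _, ?_⟩
    positivity
  have h6 : (0 : ℚ) ≤ mu * (∑ b : β, f b) ^ 2 := by positivity
  have h7 : (0 : ℚ) ≤ (lam : ℚ) - mu := by
    rw [sub_nonneg]
    exact_mod_cast hle
  have h8 : ((lam : ℚ) - mu) * ∑ b : β, f b ^ 2 = 0 := by
    have : 0 ≤ ((lam : ℚ) - mu) * ∑ b : β, f b ^ 2 := mul_nonneg h7 hpos.le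
    linarith
  have h9 : (lam : ℚ) = mu := by
    have := (mul_eq_zero.1 h8).resolve_right hpos.ne'
    linarith
  exact_mod_cast h9

section group

variable {G α : Type*} [Group G] [Finite G] [Fintype α] [MulAction G α]

/-- A triply transitive group `G` of degree `n`, `H` a subgroup of index `n`, `D` an `H`-invariant
non-empty set of less than `n - 1` points: then `D` is a point. -/
theorem card_eq_one (h3 : MulAction.IsMultiplyPretransitive G α 3) (H : Subgroup G)
    (hH : H.index = Fintype.card α) (D : Set α) (hD : ∀ h ∈ H, ∀ d ∈ D, h • d ∈ D)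
    (hne : D.Nonempty) (hlt : Nat.card D < Fintype.card α - 1) : Nat.card D = 1 := by
  classical
  have h1' : MulAction.IsPretransitive G α := by
    have h1 : MulAction.IsMultiplyPretransitive G α 1 := by
      apply MulAction.isMultiplyPretransitive_of_le (n := 3) (by norm_num) 
      have : 0 < Nat.card D := by
        have : Nonempty D := hne.to_subtype
        exact Nat.card_pos
      rw [Nat.card_eq_fintype_card]
      omega
    exact MulAction.is_one_pretransitive_iff.1 h1
  -- incidence
  let I : α → G ⧸ H → Prop := fun a q => ∃ g : G, (g : G ⧸ H) = q ∧ g⁻¹ • a ∈ D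
  have hI : ∀ (a : α) (g : G), I a (g : G ⧸ H) ↔ g⁻¹ • a ∈ D := by
    intro a g
    constructor
    · rintro ⟨g', hg', hd⟩
      have h1 : g'⁻¹ * g ∈ H := QuotientGroup.eq.1 hg'
      have h2 : g⁻¹ • a = (g'⁻¹ * g)⁻¹ • (g'⁻¹ • a) := by
        rw [smul_smul]
        congr 1
        group
      rw [h2]
      exact hD _ (H.inv_mem h1) _ hd
    · intro h
      exact ⟨g, rfl, h⟩
  have hIsmul : ∀ (g : G) (a : α) (q : G ⧸ H), I (g • a) (g • q) ↔ I a q := by
    intro g a q
    obtain ⟨x, rfl⟩ := QuotientGroup.mk_surjective q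
    have h1 : g • (x : G ⧸ H) = ((g * x : G) : G ⧸ H) := rfl
    rw [h1, hI, hI]
    have h2 : (g * x)⁻¹ • g • a = x⁻¹ • a := by
      rw [smul_smul]
      congr 1
      group
    rw [h2]
  have : Fintype (G ⧸ H) := Fintype.ofFinite _
  -- constancy
  have e1 : ∀ (g : G) (a : α), Nat.card {q // I (g • a) q} = Nat.card {q // I a q} := by
    intro g a
    refine (Nat.card_congr ?_).symm
    exact
      { toFun := fun q => ⟨g • q.1, (hIsmul g a q.1).2 q.2⟩
        invFun := fun q => ⟨g⁻¹ • q.1, by
          rw [← hIsmul g, smul_inv_smul]; exact q.2⟩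
        left_inv := fun q => Subtype.ext (inv_smul_smul g q.1)
        right_inv := fun q => Subtype.ext (smul_inv_smul g q.1) }
  have e2 : ∀ (g : G) (a b : α), Nat.card {q // I (g • a) q ∧ I (g • b) q} =
      Nat.card {q // I a q ∧ I b q} := by
    intro g a b
    refine (Nat.card_congr ?_).symm
    exact
      { toFun := fun q => ⟨g • q.1, (hIsmul g a q.1).2 q.2.1, (hIsmul g b q.1).2 q.2.2⟩
        invFun := fun q => ⟨g⁻¹ • q.1, by
          rw [← hIsmul g a, ← hIsmul g b, smul_inv_smul]; exact q.2⟩
        left_inv := fun q => Subtype.ext (inv_smul_smul g q.1)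
        right_inv := fun q => Subtype.ext (smul_inv_smul g q.1) }
  have e3 : ∀ (g : G) (a b c : α), Nat.card {q // I (g • a) q ∧ I (g • b) q ∧ I (g • c) q} =
      Nat.card {q // I a q ∧ I b q ∧ I c q} := by
    intro g a b c
    refine (Nat.card_congr ?_).symm
    exact
      { toFun := fun q => ⟨g • q.1, (hIsmul g a q.1).2 q.2.1, (hIsmul g b q.1).2 q.2.2.1,
          (hIsmul g c q.1).2 q.2.2.2⟩
        invFun := fun q => ⟨g⁻¹ • q.1, by
          rw [← hIsmul g a, ← hIsmul g b, ← hIsmul g c, smul_inv_smul]; exact q.2⟩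
        left_inv := fun q => Subtype.ext (inv_smul_smul g q.1)
        right_inv := fun q => Subtype.ext (smul_inv_smul g q.1) }
  -- number of blocks through a point
  have hcount : ∀ a : α, Nat.card {q // I a q} = Nat.card D := by
    intro a
    have h1 : ∑ b : α, Nat.card {q // I b q} = Fintype.card α * Nat.card {q // I a q} := by
      rw [Finset.sum_congr rfl (g := fun _ => Nat.card {q // I a q})]
      · rw [Finset.sum_const, Finset.card_univ, smul_eq_mul]
      · intro b _
        obtain ⟨g, rfl⟩ := h1'.exists_smul_eq a b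
        exact e1 g a
    have h2 : ∑ b : α, Nat.card {q // I b q} = ∑ q : G ⧸ H, Nat.card {b // I b q} := by
      simp_rw [Nat.card_eq_fintype_card, Fintype.card_subtype]
      exact Finset.sum_card_bipartiteAbove_eq_sum_card_bipartiteBelow I
    have h3 : ∀ q : G ⧸ H, Nat.card {b // I b q} = Nat.card D := by
      intro q
      obtain ⟨g, rfl⟩ := QuotientGroup.mk_surjective q
      refine Nat.card_congr ?_
      exact
        { toFun := fun b => ⟨g⁻¹ • b.1, (hI b.1 g).1 b.2⟩
          invFun := fun d => ⟨g • d.1, (hI _ g).2 (by rw [inv_smul_smul]; exact d.2)⟩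
          left_inv := fun b => Subtype.ext (smul_inv_smul g b.1)
          right_inv := fun d => Subtype.ext (inv_smul_smul g d.1) }
    rw [h1] at h2
    simp_rw [h3] at h2
    rw [Finset.sum_const, Finset.card_univ, smul_eq_mul, ← Nat.card_eq_fintype_card (α := G ⧸ H)]
      at h2
    have h4 : Nat.card (G ⧸ H) = Fintype.card α := hH
    rw [h4] at h2
    exact Nat.eq_of_mul_eq_mul_left (by omega) h2
  by_contra hne1
  have hpos : 0 < Nat.card D := by
    have : Nonempty D := hne.to_subtype
    exact Nat.card_pos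
  have h2D : 1 < Nat.card D := by omega
  -- two points in D, one outside
  obtain ⟨x, y, hxy⟩ := (Finite.one_lt_card_iff_nontrivial.1 h2D).exists_pair_ne
  have hxy' : x.1 ≠ y.1 := fun h => hxy (Subtype.ext h)
  obtain ⟨z, hz⟩ : ∃ z : α, z ∉ D := by
    by_contra hcon
    push Not at hcon
    have : D = Set.univ := Set.eq_univ_of_forall hcon
    rw [this, Nat.card_univ, Nat.card_eq_fintype_card] at hlt
    omega
  have hzx : x.1 ≠ z := fun h => hz (h ▸ x.2)
  have hzy : y.1 ≠ z := fun h => hz (h ▸ y.2)
  have key := lam_eq_mu I x.1 (Nat.card {q // I x.1 q ∧ I y.1 q})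
    (Nat.card {q // I x.1 q ∧ I y.1 q ∧ I z q}) (by rw [hcount]; exact hlt)
    (by
      intro b hb
      by_cases hbz : b = z
      · subst hbz
        obtain ⟨g, hg1, hg2, -⟩ := JordanNormal.exists_smul_three h3 hxy' hzx hzy
          hzx hxy' hzy.symm
        have := e2 g x.1 y.1
        rw [hg1, hg2] at this
        exact this
      · obtain ⟨g, hg1, hg2, -⟩ := JordanNormal.exists_smul_three h3 hxy' hzx hzy
          hb.symm hzx hbz
        have := e2 g x.1 y.1
        rw [hg1, hg2] at this
        exact this)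
    (by
      intro b c hb hc hbc
      obtain ⟨g, hg1, hg2, hg3⟩ := JordanNormal.exists_smul_three h3 hxy' hzx hzy
        hb.symm hc.symm hbc
      have := e3 g x.1 y.1 z
      rw [hg1, hg2, hg3] at this
      exact this)
    (by
      apply Nat.card_le_card_of_injective
        (fun q : {q // I x.1 q ∧ I y.1 q ∧ I z q} =>
          (⟨q.1, q.2.1, q.2.2.1⟩ : {q // I x.1 q ∧ I y.1 q}))
      intro q q' h
      exact Subtype.ext (congrArg (fun u => u.1) h))
  -- the block D contains x, y but not z
  have hsub : ∀ q, I x.1 q ∧ I y.1 q → I z q := by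
    have h1 : Function.Injective (fun q : {q // I x.1 q ∧ I y.1 q ∧ I z q} =>
        (⟨q.1, q.2.1, q.2.2.1⟩ : {q // I x.1 q ∧ I y.1 q})) := by
      intro q q' h
      exact Subtype.ext (congrArg (fun u => u.1) h)
    have h2 := ((Nat.bijective_iff_injective_and_card _).2 ⟨h1, key.symm⟩).2
    intro q hq
    obtain ⟨r, hr⟩ := h2 ⟨q, hq⟩
    have : r.1 = q := congrArg (fun u => u.1) hr
    rw [← this]
    exact r.2.2.2
  have h4 := hsub ((1 : G) : G ⧸ H) ⟨(hI _ 1).2 (by simp), (hI _ 1).2 (by simp)⟩
  rw [hI] at h4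
  exact hz (by simpa using h4)

/-- A triply transitive group `G` of degree `n ≥ 4`, `H` a subgroup of index `n` whose order is
prime to `n`: then `H` fixes a point. -/
theorem exists_fixed_point (h3 : MulAction.IsMultiplyPretransitive G α 3) (H : Subgroup G)
    (hH : H.index = Fintype.card α) (hn : 3 ≤ Fintype.card α)
    (hcop : (Nat.card H).Coprime (Fintype.card α)) : ∃ a : α, ∀ h ∈ H, h • a = a := by
  classical
  have : Nonempty α := Fintype.card_pos_iff.1 (by omega)
  obtain ⟨x⟩ := this
  have horb : ∀ x : α, Nat.card (MulAction.orbit H x) = 1 → ∃ a : α, ∀ h ∈ H, h • a = a := by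
    intro x hx
    refine ⟨x, fun h hh => ?_⟩
    have h1 := (Nat.card_eq_one_iff_unique.1 hx).1
    have h2 := h1.elim ⟨(⟨h, hh⟩ : H) • x, MulAction.mem_orbit _ _⟩
      ⟨x, MulAction.mem_orbit_self _⟩
    exact congrArg Subtype.val h2
  have hdvd : Nat.card (MulAction.orbit H x) ∣ Nat.card H := by
    have h1 := MulAction.index_stabilizer H x
    rw [← Nat.card_coe_set_eq] at h1
    rw [← h1]
    exact Subgroup.index_dvd_card _
  have hne : Nat.card (MulAction.orbit H x) ≠ Fintype.card α := by
    intro h
    rw [h] at hdvd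
    have h1 : Fintype.card α ∣ 1 := by
      have := Nat.dvd_gcd hdvd dvd_rfl
      rwa [hcop] at this
    have := Nat.le_of_dvd one_pos h1
    omega
  obtain ⟨y, hy⟩ : ∃ y : α, y ∉ MulAction.orbit H x := by
    by_contra hcon
    push Not at hcon
    apply hne
    rw [Set.eq_univ_of_forall hcon, Nat.card_univ, Nat.card_eq_fintype_card]
  by_cases hy1 : Nat.card (MulAction.orbit H y) = 1
  · exact horb y hy1
  have hy2 : 0 < Nat.card (MulAction.orbit H y) := by
    have : Nonempty (MulAction.orbit H y) := ⟨⟨y, MulAction.mem_orbit_self y⟩⟩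
    exact Nat.card_pos
  have hdisj : Disjoint (MulAction.orbit H x) (MulAction.orbit H y) := by
    rw [Set.disjoint_left]
    intro z hz1 hz2
    apply hy
    rw [← MulAction.orbit_eq_iff] at hz1 hz2 ⊢
    rw [← hz1, hz2]
  have hsum : Nat.card (MulAction.orbit H x) + Nat.card (MulAction.orbit H y) ≤
      Fintype.card α := by
    rw [Nat.card_coe_set_eq, Nat.card_coe_set_eq, ← Set.ncard_union_eq hdisj,
      ← Nat.card_eq_fintype_card, ← Set.ncard_univ]
    exact Set.ncard_le_ncard (Set.subset_univ _)
  apply horb x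
  apply card_eq_one h3 H hH (MulAction.orbit H x)
  · rintro h hh _ ⟨k, rfl⟩
    exact ⟨⟨h, hh⟩ * k, by simp [mul_smul]⟩
  · exact ⟨x, MulAction.mem_orbit_self x⟩
  · omega

end group

end Cfsg.Agent.PermutationGroups.ThreeDesign
end

-- part: S0677
section
set_option autoImplicit false
open Cfsg

namespace Cfsg.Agent.S0677

/-- In a transitive permutation group of prime degree `p` whose Sylow `p`-normaliser has even order, the point stabilisers are the only subgroups of index `p`. -/
theorem result {α : Type*} [Fintype α] [DecidableEq α] {p : ℕ} [Fact p.Prime] (hα : Fintype.card α = p) (G : Subgroup (Equiv.Perm α)) [MulAction.IsPretransitive G α] (P : Sylow p G) (heven : Even (Nat.card (Subgroup.normalizer ((P : Subgroup G) : Set G)))) (H : Subgroup G) (hH : H.index = p) : ∃ a : α, H = MulAction.stabilizer G a := by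
  have hp : p.Prime := Fact.out
  obtain ⟨m, hm, hmp⟩ := Cfsg.Agent.PermutationGroups.PrimeInvolution.card_eq_mul hα G
  have hidx : ∀ K : Subgroup G, K.index = p → Nat.card K = m := by
    intro K hK
    have h1 := Subgroup.card_mul_index K
    rw [hK, hm] at h1
    exact Nat.eq_of_mul_eq_mul_right hp.pos h1
  have hst : ∀ a : α, Nat.card (MulAction.stabilizer G a) = m := by
    intro a
    apply hidx
    rw [MulAction.index_stabilizer_of_transitive, Nat.card_eq_fintype_card, hα]
  have hne : Nonempty α := by
    rw [← Fintype.card_pos_iff, hα]; exact hp.pos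
  by_cases hG : Group.IsSolvable G
  · obtain ⟨a⟩ := hne
    obtain ⟨g, hg⟩ := Cfsg.Agent.Solvable.Hall.hall_conj m p hm hmp (MulAction.stabilizer G a) H
      (hst a) (hidx H hH)
    refine ⟨g • a, ?_⟩
    rw [← hg, MulAction.stabilizer_smul_eq_stabilizer_map_conj]
    rfl
  · have h3 := Cfsg.Agent.S0676.result hα G hG P heven
    have hp2 : p ≠ 2 := by
      rintro rfl
      exact hG (Cfsg.Agent.S0676.isSolvable_of_card_two hα G)
    obtain ⟨a, ha⟩ := Cfsg.Agent.PermutationGroups.ThreeDesign.exists_fixed_point h3 H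
      (by rw [hH, hα]) (by have := hp.two_le; omega) (by rw [hidx H hH, hα]; exact hmp)
    refine ⟨a, Subgroup.eq_of_le_of_card_ge (fun h hh => ha h hh) ?_⟩
    rw [hst, hidx H hH]

end Cfsg.Agent.S0677
end
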