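import Cfsg.Statements.S0681
import Cfsg.Agent.PermutationGroups.NearFieldBasic
set_option linter.all false

set_option autoImplicit false
open Cfsg

namespace Cfsg.Agent.S0681

/-- The affine maps `x ↦ x * a + b`, `a ≠ 0`, of a near-field form a sharply doubly transitive permutation group. -/
theorem result {F : Type*} [Cfsg.NearField F] : ∃ H : Subgroup (Equiv.Perm F), (∀ σ : Equiv.Perm F, σ ∈ H ↔ ∃ a b : F, a ≠ 0 ∧ ∀ x : F, σ x = x * a + b) ∧ MulAction.IsMultiplyPretransitive H F 2 ∧ ∀ x : Fin 2 ↪ F, MulAction.stabilizer H x = ⊥ := by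
  refine ⟨Cfsg.Agent.PermutationGroups.NearFieldBasic.nfAffine F,
    Cfsg.Agent.PermutationGroups.NearFieldBasic.mem_nfAffine, ?_, ?_⟩
  · refine MulAction.IsPretransitive.mk fun x y => ?_
    have hx : x 0 ≠ x 1 := fun h => absurd (x.injective h) (by decide)
    have hy : y 0 ≠ y 1 := fun h => absurd (y.injective h) (by decide)
    obtain ⟨σ, hσ, h0, h1⟩ :=
      Cfsg.Agent.PermutationGroups.NearFieldBasic.nfAffine_exists_map hx hy
    refine ⟨⟨σ, hσ⟩, ?_⟩
    ext i
    fin_cases i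
    · exact h0
    · exact h1
  · intro x
    rw [eq_bot_iff]
    rintro ⟨σ, hσ⟩ hs
    have hx : x 0 ≠ x 1 := fun h => absurd (x.injective h) (by decide)
    rw [MulAction.mem_stabilizer_iff] at hs
    have h0 : σ (x 0) = x 0 := congrArg (fun f : Fin 2 ↪ F => f 0) hs
    have h1 : σ (x 1) = x 1 := congrArg (fun f : Fin 2 ↪ F => f 1) hs
    rw [Subgroup.mem_bot]
    exact Subtype.ext
      (Cfsg.Agent.PermutationGroups.NearFieldBasic.nfAffine_eq_one hσ hx h0 h1)

end Cfsg.Agent.S0681
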