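import Cfsg.Statements.S0682
import Cfsg.Agent.PermutationGroups.NearFieldBasic
set_option linter.all false

set_option autoImplicit false
open Cfsg

namespace Cfsg.Agent.S0682

/-- A finite near-field has prime-power order; its additive group is commutative of prime exponent. -/
theorem result {F : Type*} [Cfsg.NearField F] [Finite F] : ∃ p j : ℕ, p.Prime ∧ 1 ≤ j ∧ Nat.card F = p ^ j ∧ (∀ x y : F, x + y = y + x) ∧ ∀ x : F, p • x = 0 := by
  classical
  have : Nontrivial F := ⟨⟨0, 1, Cfsg.NearField.zero_ne_one⟩⟩
  have : Nontrivial (Multiplicative F) := ⟨⟨Multiplicative.ofAdd 0, Multiplicative.ofAdd 1,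
    fun h => Cfsg.NearField.zero_ne_one (Multiplicative.ofAdd.injective h)⟩⟩
  have h1 : (1 : F) ≠ 0 := fun h => Cfsg.NearField.zero_ne_one h.symm
  -- a prime dividing the order
  have hcard : 1 < Nat.card F := Finite.one_lt_card
  obtain ⟨p, hp, hpd⟩ := Nat.exists_prime_and_dvd hcard.ne'
  have : Fact p.Prime := ⟨hp⟩
  have : Fintype F := Fintype.ofFinite F
  -- every element is killed by `p`
  have hexp : ∀ x : F, p • x = 0 := by
    intro x
    by_cases hx : x = 0
    · rw [hx, nsmul_zero]
    obtain ⟨y, hy⟩ := exists_prime_addOrderOf_dvd_card' (G := F) p hpd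
    have hy0 : y ≠ 0 := by
      rintro rfl
      rw [addOrderOf_zero] at hy
      exact hp.one_lt.ne hy
    obtain ⟨e, he⟩ :=
      Cfsg.Agent.PermutationGroups.NearFieldBasic.nf_exists_addEquiv_map hy0 hx
    rw [← he, ← map_nsmul, ← hy, addOrderOf_nsmul_eq_zero, map_zero]
  -- the additive group is a `p`-group
  have hpg : IsPGroup p (Multiplicative F) := by
    intro g
    refine ⟨1, ?_⟩
    rw [pow_one]
    exact hexp (Multiplicative.toAdd g)
  obtain ⟨j, hj⟩ := IsPGroup.iff_card.mp hpg
  have hj' : Nat.card F = p ^ j := hj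
  refine ⟨p, j, hp, ?_, hj', ?_, hexp⟩
  · rcases Nat.eq_zero_or_pos j with h0 | h0
    · rw [h0, pow_zero] at hj'
      omega
    · exact h0
  · -- the centre is non-trivial and invariant under a transitive group of automorphisms
    have := hpg.center_nontrivial
    obtain ⟨⟨z, hz⟩, hz1⟩ := exists_ne (1 : Subgroup.center (Multiplicative F))
    have hz0 : (Multiplicative.toAdd z : F) ≠ 0 := by
      intro h
      apply hz1
      exact Subtype.ext h
    have hzc : ∀ y : F, y + Multiplicative.toAdd z = Multiplicative.toAdd z + y := by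
      intro y
      exact (Subgroup.mem_center_iff.mp hz) (Multiplicative.ofAdd y)
    intro x y
    by_cases hx : x = 0
    · rw [hx, zero_add, add_zero]
    obtain ⟨e, he⟩ :=
      Cfsg.Agent.PermutationGroups.NearFieldBasic.nf_exists_addEquiv_map hz0 hx
    have h2 := congrArg e (hzc (e.symm y))
    rw [map_add, map_add, he, e.apply_symm_apply] at h2
    exact h2.symm

end Cfsg.Agent.S0682
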