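import Cfsg.Statements.S0683
import Cfsg.Agent.PermutationGroups.SharplyTwoTransitive
set_option linter.all false

set_option autoImplicit false
open Cfsg

namespace Cfsg.Agent.S0683

/-- A finite sharply doubly transitive permutation group is the affine group of a near-field: the permuted set carries a near-field structure for which the group consists exactly of the maps `x ↦ x * a + b` with `a ≠ 0`. -/
theorem result {α : Type*} [Fintype α] [DecidableEq α] (H : Subgroup (Equiv.Perm α)) [MulAction.IsMultiplyPretransitive H α 2] (hsharp : ∀ x : Fin 2 ↪ α, MulAction.stabilizer H x = ⊥) (h2 : 2 ≤ Fintype.card α) : ∃ _ : Cfsg.NearField α, ∀ σ : Equiv.Perm α, σ ∈ H ↔ ∃ a b : α, a ≠ 0 ∧ ∀ x : α, σ x = x * a + b := by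
  classical
  have hnt : Nontrivial α := Fintype.one_lt_card_iff_nontrivial.1 (by omega)
  have emb : ∀ a b : α, a ≠ b → ∃ x : Fin 2 ↪ α, x 0 = a ∧ x 1 = b := by
    intro a b hab
    refine ⟨⟨![a, b], ?_⟩, rfl, rfl⟩
    intro i j hij
    fin_cases i <;> fin_cases j <;> simp_all
  have hT : ∀ a b c d : α, a ≠ b → c ≠ d → ∃ g : H, g • a = c ∧ g • b = d := by
    intro a b c d hab hcd
    obtain ⟨x, hx0, hx1⟩ := emb a b hab
    obtain ⟨y, hy0, hy1⟩ := emb c d hcd
    obtain ⟨g, hg⟩ := MulAction.exists_smul_eq H x y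
    refine ⟨g, ?_, ?_⟩
    · rw [← hx0, ← hy0, ← hg]; rfl
    · rw [← hx1, ← hy1, ← hg]; rfl
  have hU : ∀ (g : H) (a b : α), a ≠ b → g • a = a → g • b = b → g = 1 := by
    intro g a b hab ha hb
    obtain ⟨x, hx0, hx1⟩ := emb a b hab
    have : g ∈ MulAction.stabilizer H x := by
      rw [MulAction.mem_stabilizer_iff]
      ext i
      fin_cases i
      · change g • (x 0) = x 0
        rw [hx0, ha]
      · change g • (x 1) = x 1
        rw [hx1, hb]
    rw [hsharp x, Subgroup.mem_bot] at this
    exact this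
  obtain ⟨N, hNn, hNm, hNc, hNt, hNcard, hNconj⟩ :=
    Cfsg.Agent.PermutationGroups.SharplyTwoTransitive.exists_regular_normal hT hU
  obtain ⟨z, o, hzo⟩ := exists_pair_ne α
  have hNu : ∀ x ∈ N, ∀ y ∈ N, ∀ c : α, x • c = y • c → x = y := by
    intro x hx y hy c hc
    have h1 : y⁻¹ * x ∈ N := mul_mem (inv_mem hy) hx
    have h2 : (y⁻¹ * x) • c = c := by rw [mul_smul, hc, inv_smul_smul]
    rcases (hNm _).1 h1 with h | h
    · exact (inv_mul_eq_one.mp h).symm
    · exact absurd h2 (h c)
  have hSu : ∀ g h : H, g • z = z → h • z = z → ∀ c : α, c ≠ z → g • c = h • c → g = h := by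
    intro g h hg hh c hcz hgh
    have hh' : h⁻¹ • z = z := by rw [inv_smul_eq_iff, hh]
    have := hU (h⁻¹ * g) z c hcz.symm (by rw [mul_smul, hg, hh']) (by rw [mul_smul, hgh, inv_smul_smul])
    exact (inv_mul_eq_one.mp this).symm
  choose τ hτN hτ using fun b => hNt z b
  have hμex : ∀ a : α, a ≠ z → ∃ g : H, g • z = z ∧ g • o = a := by
    intro a ha
    exact hT z o z a hzo ha.symm
  choose! μ hμz hμo using hμex
  have hτz : τ z = 1 := hNu _ (hτN z) 1 N.one_mem z (by rw [hτ, one_smul])
  have hμ1 : μ o = 1 := hSu _ _ (hμz o hzo.symm) (one_smul _ _) o hzo.symm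
    (by rw [hμo o hzo.symm, one_smul])
  have hττ : ∀ b c : α, τ (τ c • b) = τ c * τ b := by
    intro b c
    apply hNu _ (hτN _) _ (mul_mem (hτN _) (hτN _)) z
    rw [hτ, mul_smul, hτ]
  have hsmz : ∀ (g : H), g • z = z → ∀ c : α, c ≠ z → g • c ≠ z := by
    intro g hg c hc h
    apply hc
    rw [← hg] at h
    exact smul_left_cancel g h
  have hμμ : ∀ a b : α, a ≠ z → b ≠ z → μ (μ b • a) = μ b * μ a := by
    intro a b ha hb
    have hab : μ b • a ≠ z := hsmz _ (hμz b hb) a ha
    apply hSu _ _ (hμz _ hab) (by rw [mul_smul, hμz a ha, hμz b hb]) o hzo.symm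
    rw [hμo _ hab, mul_smul, hμo a ha]
  have hμτ : ∀ a y : α, a ≠ z → μ a * τ y = τ (μ a • y) * μ a := by
    intro a y ha
    have h1 : μ a * τ y * (μ a)⁻¹ ∈ N := hNn.conj_mem _ (hτN y) _
    have h2 : μ a * τ y * (μ a)⁻¹ = τ (μ a • y) := by
      apply hNu _ h1 _ (hτN _) z
      have : (μ a)⁻¹ • z = z := by rw [inv_smul_eq_iff, hμz a ha]
      rw [mul_smul, mul_smul, this, hτ, hτ]
    rw [← h2]; group
  letI iadd : Add α := ⟨fun a b => τ b • a⟩
  letI izero : Zero α := ⟨z⟩
  letI ineg : Neg α := ⟨fun a => (τ a)⁻¹ • z⟩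
  letI imul : Mul α := ⟨fun x a => if a = z then z else μ a • x⟩
  letI ione : One α := ⟨o⟩
  letI ag : AddGroup α := AddGroup.ofLeftAxioms
    (by
      intro a b c
      change τ c • τ b • a = τ (τ c • b) • a
      rw [hττ, mul_smul])
    (by
      intro a
      change τ a • z = a
      exact hτ a)
    (by
      intro a
      change τ a • (τ a)⁻¹ • z = z
      rw [smul_inv_smul])
  letI mn : Monoid α :=
    { mul_assoc := by
        intro x a b
        change (if b = z then z else μ b • (if a = z then z else μ a • x)) =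
          (if (if b = z then z else μ b • a) = z then z else μ (if b = z then z else μ b • a) • x)
        by_cases hb : b = z
        · simp [hb]
        · simp only [if_neg hb]
          by_cases ha : a = z
          · rw [ha, if_pos rfl, hμz b hb, if_pos rfl]
          · rw [if_neg ha, if_neg (hsmz _ (hμz b hb) a ha), hμμ a b ha hb, mul_smul]
      one_mul := by
        intro a
        change (if a = z then z else μ a • o) = a
        by_cases ha : a = z
        · rw [if_pos ha, ha]
        · rw [if_neg ha, hμo a ha]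
      mul_one := by
        intro a
        change (if o = z then z else μ o • a) = a
        rw [if_neg hzo.symm, hμ1, one_smul] }
  let nf : Cfsg.NearField α :=
    { ag, mn with
      right_distrib := by
        intro a b c
        change (if c = z then z else μ c • (τ b • a)) =
          τ (if c = z then z else μ c • b) • (if c = z then z else μ c • a)
        by_cases hc : c = z
        · simp only [if_pos hc]
          rw [hτ]
        · simp only [if_neg hc]
          rw [← mul_smul, ← mul_smul, hμτ c b hc]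
      mul_zero := by
        intro a
        change (if z = z then z else μ z • a) = z
        rw [if_pos rfl]
      zero_ne_one := hzo
      exists_inv := by
        intro a ha
        have ha' : a ≠ z := ha
        have hb : (μ a)⁻¹ • o ≠ z :=
          hsmz _ (by rw [inv_smul_eq_iff, hμz a ha']) o hzo.symm
        refine ⟨(μ a)⁻¹ • o, ?_, ?_⟩
        · change (if (μ a)⁻¹ • o = z then z else μ ((μ a)⁻¹ • o) • a) = o
          rw [if_neg hb]
          have h1 : μ ((μ a)⁻¹ • o) = (μ a)⁻¹ := by
            apply hSu _ _ (hμz _ hb) (by rw [inv_smul_eq_iff, hμz a ha']) o hzo.symm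
            rw [hμo _ hb]
          rw [h1, inv_smul_eq_iff, hμo a ha']
        · change (if a = z then z else μ a • ((μ a)⁻¹ • o)) = o
          rw [if_neg ha', smul_inv_smul] }
  refine ⟨nf, fun σ => ?_⟩
  have key : (∃ a b : α, a ≠ z ∧ ∀ x : α, σ x = τ b • (if a = z then z else μ a • x)) →
      ∃ a b : α, a ≠ (@OfNat.ofNat α 0 _) ∧ ∀ x : α, σ x = x * a + b := fun h => h
  have key' : (∃ a b : α, a ≠ (@OfNat.ofNat α 0 _) ∧ ∀ x : α, σ x = x * a + b) →
      (∃ a b : α, a ≠ z ∧ ∀ x : α, σ x = τ b • (if a = z then z else μ a • x)) := fun h => h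
  constructor
  · intro hσ
    apply key
    let s : H := ⟨σ, hσ⟩
    have hs : ∀ x : α, σ x = s • x := fun x => rfl
    have hg : ((τ (s • z))⁻¹ * s) • z = z := by
      rw [mul_smul, inv_smul_eq_iff, hτ]
    have ha : ((τ (s • z))⁻¹ * s) • o ≠ z := hsmz _ hg o hzo.symm
    refine ⟨((τ (s • z))⁻¹ * s) • o, s • z, ha, fun x => ?_⟩
    rw [if_neg ha, hs]
    have : μ (((τ (s • z))⁻¹ * s) • o) = (τ (s • z))⁻¹ * s := by
      apply hSu _ _ (hμz _ ha) hg o hzo.symm
      rw [hμo _ ha]
    rw [this, ← mul_smul, mul_inv_cancel_left]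
  · intro h
    obtain ⟨a, b, ha, hx⟩ := key' h
    have : σ = ((τ b * μ a : H) : Equiv.Perm α) := by
      ext x
      rw [hx x, if_neg ha, ← mul_smul]
      rfl
    rw [this]
    exact (τ b * μ a : H).2

end Cfsg.Agent.S0683
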