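import Cfsg.Statements.S0685
import Mathlib.Algebra.Algebra.ZMod
import Mathlib.Algebra.Field.ZMod
import Mathlib.FieldTheory.Finiteness
import Mathlib.LinearAlgebra.FreeModule.Finite.Matrix
import Mathlib.LinearAlgebra.FreeModule.PID
import Mathlib.LinearAlgebra.Matrix.FiniteDimensional
import Mathlib.RingTheory.IntegralDomain
import Mathlib.Tactic
set_option linter.all false

set_option autoImplicit false
open Cfsg

namespace Cfsg.Agent.S0685

open Module

section aux

variable {p : ℕ} [Fact p.Prime] {V : Type*} [AddCommGroup V] [Module (ZMod p) V]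

/-- The commutative-subalgebra core argument, phrased with a subalgebra `K` of `End V`
normalised by a group transitive on nonzero vectors. -/
theorem core_simple [Finite V] [Nontrivial V] (K : Subalgebra (ZMod p) (End (ZMod p) V))
    (H : Subgroup (V ≃ₗ[ZMod p] V))
    (htr : ∀ v w : V, v ≠ 0 → w ≠ 0 → ∃ h ∈ H, h v = w)
    (hnorm : ∀ h ∈ H, ∀ k ∈ K, h.conjAlgEquiv (ZMod p) k ∈ K) :
    ∀ v : V, v ≠ 0 → ∀ k ∈ K, k v ≠ 0 → ∃ k' ∈ K, k' (k v) = v := by
  classical
  -- a vector with minimal orbit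
  obtain ⟨v₀, hv₀, hP⟩ : ∃ v₀ : V, v₀ ≠ 0 ∧ ∀ k ∈ K, k v₀ ≠ 0 → ∃ k' ∈ K, k' (k v₀) = v₀ := by
    obtain ⟨u, hu⟩ := exists_ne (0 : V)
    have : Nonempty {v : V // v ≠ 0} := ⟨⟨u, hu⟩⟩
    obtain ⟨⟨v₀, hv₀⟩, hmin⟩ := Finite.exists_min
      (fun v : {v : V // v ≠ 0} => ({w | ∃ k ∈ K, k v.1 = w} : Set V).ncard)
    refine ⟨v₀, hv₀, fun k hk hkv => ?_⟩
    have h1 := hmin ⟨k v₀, hkv⟩
    simp only at h1
    have hsub : ({w | ∃ k' ∈ K, k' (k v₀) = w} : Set V) ⊆ {w | ∃ k' ∈ K, k' v₀ = w} := by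
      rintro w ⟨k', hk', rfl⟩
      exact ⟨k' * k, K.mul_mem hk' hk, rfl⟩
    have heq := Set.eq_of_subset_of_ncard_le hsub h1 (Set.toFinite _)
    have : v₀ ∈ ({w | ∃ k' ∈ K, k' v₀ = w} : Set V) := ⟨1, K.one_mem, rfl⟩
    rw [← heq] at this
    exact this
  intro v hv k hk hkv
  obtain ⟨h, hh, rfl⟩ := htr v₀ v hv₀ hv
  have hk2 := hnorm h⁻¹ (H.inv_mem hh) k hk
  have e1 : (h⁻¹.conjAlgEquiv (ZMod p) k) v₀ = h.symm (k (h v₀)) := rfl
  have hne : (h⁻¹.conjAlgEquiv (ZMod p) k) v₀ ≠ 0 := by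
    rw [e1]
    intro h0
    apply hkv
    have := congrArg h h0
    rw [map_zero] at this
    rwa [LinearEquiv.apply_symm_apply] at this
  obtain ⟨k', hk', hk'e⟩ := hP _ hk2 hne
  refine ⟨h.conjAlgEquiv (ZMod p) k', hnorm h hh k' hk', ?_⟩
  have : (h.conjAlgEquiv (ZMod p) k') (k (h v₀)) = h (k' (h.symm (k (h v₀)))) := rfl
  rw [this]
  rw [e1] at hk'e
  exact congrArg h hk'e

theorem core_inj [Finite V] [Nontrivial V] (K : Subalgebra (ZMod p) (End (ZMod p) V))
    (hcomm : ∀ a ∈ K, ∀ b ∈ K, a * b = b * a)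
    (hP : ∀ v : V, v ≠ 0 → ∀ k ∈ K, k v ≠ 0 → ∃ k' ∈ K, k' (k v) = v) :
    ∀ k ∈ K, ∀ v : V, v ≠ 0 → k v = 0 → k = 0 := by
  intro k hk v hv hkv
  by_contra hk0
  obtain ⟨w, hw⟩ : ∃ w, k w ≠ 0 := by
    by_contra hcon
    push Not at hcon
    exact hk0 (LinearMap.ext hcon)
  have hw0 : w ≠ 0 := by rintro rfl; simp at hw
  have hkvw : k (v + w) = k w := by rw [map_add, hkv, zero_add]
  have hvw : v + w ≠ 0 := by
    intro h0
    rw [h0, map_zero] at hkvw
    exact hw hkvw.symm
  obtain ⟨k', hk', e'⟩ := hP (v + w) hvw k hk (by rw [hkvw]; exact hw)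
  obtain ⟨k'', hk'', e''⟩ := hP w hw0 k hk hw
  rw [hkvw] at e'
  -- `v = c w`
  set c := (k' - k'') * k with hc
  have hcK : c ∈ K := K.mul_mem (K.sub_mem hk' hk'') hk
  have hcw : c w = v := by
    rw [hc]
    change (k' - k'') (k w) = v
    rw [LinearMap.sub_apply, e', e'', add_sub_cancel_right]
  obtain ⟨d, hd, ed⟩ := hP w hw0 c hcK (by rw [hcw]; exact hv)
  rw [hcw] at ed
  apply hw
  rw [← ed]
  have : k (d v) = d (k v) := by
    change (k * d) v = (d * k) v
    rw [hcomm k hk d hd]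
  rw [this, hkv, map_zero]

end aux

open scoped IsMulCommutative in
/-- In a linear group over the prime field that is regular on non-zero vectors and has no irreducible cyclic normal subgroup, a maximal normal abelian subgroup is properly contained in its centraliser, which is non-abelian. -/
theorem result {p : ℕ} [Fact p.Prime] {V : Type*} [AddCommGroup V] [Module (ZMod p) V] [Finite V] (H : Subgroup (V ≃ₗ[ZMod p] V)) (hreg : ∀ v w : V, v ≠ 0 → w ≠ 0 → ∃! h : H, (h : V ≃ₗ[ZMod p] V) v = w) (hI : ∀ A : Subgroup H, A.Normal → IsCyclic A → ∃ W : Submodule (ZMod p) V, W ≠ ⊥ ∧ W ≠ ⊤ ∧ ∀ a ∈ A, ∀ v ∈ W, ((a : H) : V ≃ₗ[ZMod p] V) v ∈ W) (A : Subgroup H) (hAn : A.Normal) (hAc : IsMulCommutative A) (hAmax : ∀ B : Subgroup H, B.Normal → IsMulCommutative B → A ≤ B → B = A) : A < Subgroup.centralizer (A : Set H) ∧ ¬ IsMulCommutative (Subgroup.centralizer (A : Set H)) := by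
  classical
  -- `V` is nontrivial
  have hVnt : Nontrivial V := by
    by_contra h
    rw [not_nontrivial_iff_subsingleton] at h
    obtain ⟨W, hW1, hW2, _⟩ := hI ⊥ inferInstance inferInstance
    exact hW1 (Subsingleton.elim _ _)
  have hAle : A ≤ Subgroup.centralizer (A : Set H) := by
    intro a ha
    rw [Subgroup.mem_centralizer_iff]
    intro b hb
    have := hAc.is_comm.comm ⟨b, hb⟩ ⟨a, ha⟩
    exact congrArg Subtype.val this
  -- it suffices to show that `A` is not its own centraliser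
  suffices hne : A ≠ Subgroup.centralizer (A : Set H) by
    refine ⟨lt_of_le_of_ne hAle hne, fun hcom => hne ?_⟩
    have hn : (Subgroup.centralizer (A : Set H)).Normal := by
      have := hAn
      infer_instance
    exact (hAmax _ hn hcom hAle).symm
  intro hAC
  -- the subalgebra generated by `A`
  set S : Set (End (ZMod p) V) :=
    (fun a : H => ((a : V ≃ₗ[ZMod p] V) : End (ZMod p) V)) '' (A : Set H) with hS
  have hScomm : ∀ x ∈ S, ∀ y ∈ S, x * y = y * x := by
    rintro _ ⟨a, ha, rfl⟩ _ ⟨b, hb, rfl⟩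
    have := congrArg Subtype.val (hAc.is_comm.comm ⟨a, ha⟩ ⟨b, hb⟩)
    have h2 : (a : V ≃ₗ[ZMod p] V) * b = b * a := congrArg Subtype.val this
    ext v
    exact DFunLike.congr_fun h2 v
  set K : Subalgebra (ZMod p) (End (ZMod p) V) := Algebra.adjoin (ZMod p) S with hK
  have hKc : IsMulCommutative K := Algebra.isMulCommutative_adjoin (ZMod p) hScomm
  have hcomm : ∀ a ∈ K, ∀ b ∈ K, a * b = b * a := by
    intro a ha b hb
    exact congrArg Subtype.val (hKc.is_comm.comm ⟨a, ha⟩ ⟨b, hb⟩)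
  have hAK : ∀ a ∈ A, (((a : H) : V ≃ₗ[ZMod p] V) : End (ZMod p) V) ∈ K := by
    intro a ha
    exact Algebra.subset_adjoin ⟨a, ha, rfl⟩
  have hnorm : ∀ h ∈ H, ∀ k ∈ K, h.conjAlgEquiv (ZMod p) k ∈ K := by
    intro h hh k hk
    have hmap : K.map (h.conjAlgEquiv (ZMod p) : End (ZMod p) V →ₐ[ZMod p] End (ZMod p) V) ≤ K := by
      rw [hK, AlgHom.map_adjoin]
      refine Algebra.adjoin_mono ?_
      rintro _ ⟨_, ⟨a, ha, rfl⟩, rfl⟩
      refine ⟨⟨h, hh⟩ * a * ⟨h, hh⟩⁻¹, hAn.conj_mem a ha ⟨h, hh⟩, ?_⟩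
      ext v
      rfl
    exact hmap ⟨k, hk, rfl⟩
  have htr : ∀ v w : V, v ≠ 0 → w ≠ 0 → ∃ h ∈ H, h v = w := by
    intro v w hv hw
    obtain ⟨h, hh, _⟩ := hreg v w hv hw
    exact ⟨h.1, h.2, hh⟩
  have hP := core_simple K H htr hnorm
  have hinj := core_inj K hcomm hP
  have hKnt : Nontrivial K := inferInstance
  have hKnz : NoZeroDivisors K := by
    refine ⟨fun {a b} hab => ?_⟩
    by_contra hcon
    push Not at hcon
    obtain ⟨ha, hb⟩ := hcon
    have hab' : (a : End (ZMod p) V) * b = 0 := congrArg Subtype.val hab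
    obtain ⟨v, hv⟩ : ∃ v, (b : End (ZMod p) V) v ≠ 0 := by
      by_contra hc
      push Not at hc
      exact hb (Subtype.ext (LinearMap.ext hc))
    have : (a : End (ZMod p) V) = 0 := by
      refine hinj a a.2 _ hv ?_
      exact DFunLike.congr_fun hab' v
    exact ha (Subtype.ext this)
  have hKdom : IsDomain K := NoZeroDivisors.to_isDomain K
  -- finiteness
  have hfE : Finite (End (ZMod p) V) :=
    Finite.of_injective (fun f : End (ZMod p) V => (f : V → V)) DFunLike.coe_injective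
  have hfK : Finite K := inferInstance
  have hfG : Finite (V ≃ₗ[ZMod p] V) :=
    Finite.of_injective (fun f : V ≃ₗ[ZMod p] V => (f : V → V)) DFunLike.coe_injective
  have hfH : Finite H := inferInstance
  -- `A` is cyclic
  let f : A →* K :=
    { toFun := fun a => ⟨_, hAK a.1 a.2⟩
      map_one' := rfl
      map_mul' := fun a b => rfl }
  have hf : Function.Injective f := by
    intro a b hab
    have h1 : ((a.1.1 : V ≃ₗ[ZMod p] V) : End (ZMod p) V) = b.1.1 := congrArg Subtype.val hab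
    apply Subtype.ext
    apply Subtype.ext
    ext v
    exact DFunLike.congr_fun h1 v
  have hAcyc : IsCyclic A := isCyclic_of_injective_ringHom f hf
  obtain ⟨W, hW1, hW2, hW3⟩ := hI A hAn hAcyc
  -- `W` is `K`-invariant
  have hWK : ∀ k ∈ K, ∀ v ∈ W, k v ∈ W := by
    intro k hk
    refine Algebra.adjoin_induction (p := fun k _ => ∀ v ∈ W, k v ∈ W) ?_ ?_ ?_ ?_ hk
    · rintro _ ⟨a, ha, rfl⟩ v hv
      exact hW3 a ha v hv
    · intro r v hv
      rw [Module.algebraMap_end_apply]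
      exact W.smul_mem r hv
    · intro x y _ _ hx hy v hv
      exact W.add_mem (hx v hv) (hy v hv)
    · intro x y _ _ hx hy v hv
      exact hx _ (hy v hv)
  obtain ⟨v, hvW, hv0⟩ := W.exists_mem_ne_zero_of_ne_bot hW1
  obtain ⟨w, hw⟩ : ∃ w, w ∉ W := by
    by_contra hc
    push Not at hc
    exact hW2 (by ext x; simp [hc x])
  have hw0 : w ≠ 0 := by rintro rfl; exact hw W.zero_mem
  -- `|V| ≥ |K|^2`
  have hV : Nat.card K * Nat.card K ≤ Nat.card V := by
    rw [← Nat.card_prod]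
    refine Nat.card_le_card_of_injective
      (fun x : K × K => (x.1 : End (ZMod p) V) v + (x.2 : End (ZMod p) V) w) ?_
    have key : ∀ a b : K, (a : End (ZMod p) V) v + (b : End (ZMod p) V) w = 0 → a = 0 ∧ b = 0 := by
      intro a b hab
      have hb : b = 0 := by
        by_contra hb
        have hbw : (b : End (ZMod p) V) w ≠ 0 := by
          intro h0
          exact hb (Subtype.ext (hinj b b.2 w hw0 h0))
        obtain ⟨k', hk', e⟩ := hP w hw0 b b.2 hbw
        apply hw
        rw [← e]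
        refine hWK k' hk' _ ?_
        have : (b : End (ZMod p) V) w = - (a : End (ZMod p) V) v := by
          rw [eq_neg_iff_add_eq_zero, add_comm]; exact hab
        rw [this]
        exact W.neg_mem (hWK a a.2 v hvW)
      subst hb
      refine ⟨?_, rfl⟩
      have : (a : End (ZMod p) V) v = 0 := by simpa using hab
      exact Subtype.ext (hinj a a.2 v hv0 this)
    rintro ⟨a, b⟩ ⟨c, d⟩ h
    simp only at h
    have := key (a - c) (b - d) (by
      simp only [AddSubgroupClass.coe_sub, LinearMap.sub_apply]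
      rw [sub_add_sub_comm, h, sub_self])
    rw [sub_eq_zero, sub_eq_zero] at this
    exact Prod.ext this.1 this.2
  -- `|A| ≤ |K| - 1`
  have hA1 : Nat.card A + 1 ≤ Nat.card K := by
    have : Nat.card (Option A) ≤ Nat.card K := by
      refine Nat.card_le_card_of_injective
        (fun x : Option A => x.elim (0 : K) f) ?_
      have hf0 : ∀ a : A, f a ≠ 0 := by
        intro a h0
        obtain ⟨u, hu⟩ := exists_ne (0 : V)
        have h1 : ((a.1.1 : V ≃ₗ[ZMod p] V) : End (ZMod p) V) = 0 := congrArg Subtype.val h0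
        have h2 : (a.1.1 : V ≃ₗ[ZMod p] V) u = 0 := DFunLike.congr_fun h1 u
        exact hu ((LinearEquiv.map_eq_zero_iff _).1 h2)
      rintro (_ | a) (_ | b) hab
      · rfl
      · exact absurd hab.symm (hf0 b)
      · exact absurd hab (hf0 a)
      · exact congrArg some (hf hab)
    rwa [Finite.card_option] at this
  -- `|H| = |V| - 1`
  have hH : Nat.card H + 1 = Nat.card V := by
    have e : H ≃ {v : V // v ≠ 0} := by
      refine Equiv.ofBijective (fun h => ⟨(h : V ≃ₗ[ZMod p] V) v, ?_⟩) ⟨?_, ?_⟩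
      · intro h0
        exact hv0 ((LinearEquiv.map_eq_zero_iff _).1 h0)
      · intro h h' hh
        have hh' : (h : V ≃ₗ[ZMod p] V) v = (h' : V ≃ₗ[ZMod p] V) v := congrArg Subtype.val hh
        have hne : (h' : V ≃ₗ[ZMod p] V) v ≠ 0 := by
          intro h0
          exact hv0 ((LinearEquiv.map_eq_zero_iff _).1 h0)
        exact (hreg v _ hv0 hne).unique hh' rfl
      · rintro ⟨u, hu⟩
        obtain ⟨h, hh, _⟩ := hreg v u hv0 hu
        exact ⟨h, Subtype.ext hh⟩
    rw [Nat.card_congr e, ← Finite.card_option]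
    exact Nat.card_congr ((Equiv.optionSubtype (0 : V)).symm (Equiv.refl _)).1
  -- the action of `H` on `K`
  let g : H → (K →ₐ[ZMod p] K) := fun h =>
    ((h.1.conjAlgEquiv (ZMod p) : End (ZMod p) V →ₐ[ZMod p] End (ZMod p) V).comp K.val).codRestrict K
      (fun k => hnorm h.1 h.2 k k.2)
  have hg : ∀ h h' : H, g h = g h' → h⁻¹ * h' ∈ A := by
    intro h h' hh
    rw [hAC, Subgroup.mem_centralizer_iff]
    intro a ha
    have h1 := DFunLike.congr_fun hh ⟨_, hAK a ha⟩
    have h2 : (h.1.conjAlgEquiv (ZMod p) (a.1 : End (ZMod p) V)) =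
      (h'.1.conjAlgEquiv (ZMod p) (a.1 : End (ZMod p) V)) := congrArg Subtype.val h1
    have h3 : h * a * h⁻¹ = h' * a * h'⁻¹ := by
      apply Subtype.ext
      ext u
      exact DFunLike.congr_fun h2 u
    calc a * (h⁻¹ * h') = h⁻¹ * (h * a * h⁻¹) * h' := by group
      _ = h⁻¹ * (h' * a * h'⁻¹) * h' := by rw [h3]
      _ = h⁻¹ * h' * a := by group
  have hfg : Finite (K →ₐ[ZMod p] K) := inferInstance
  have hq : Nat.card (H ⧸ A) ≤ finrank (ZMod p) K := by
    refine le_trans (Nat.card_le_card_of_injective (fun x : H ⧸ A => g x.out) ?_)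
      (card_algHom_le_finrank (ZMod p) K K)
    intro x y hxy
    have := hg _ _ hxy
    rw [← QuotientGroup.eq, QuotientGroup.out_eq', QuotientGroup.out_eq'] at this
    exact this
  have hcard : Nat.card H = Nat.card (H ⧸ A) * Nat.card A := Subgroup.card_eq_card_quotient_mul_card_subgroup A
  have hKp : Nat.card K = p ^ finrank (ZMod p) K := by
    rw [Module.natCard_eq_pow_finrank (K := ZMod p), Nat.card_zmod]
  have hlt : finrank (ZMod p) K < Nat.card K := by
    rw [hKp]
    exact Nat.lt_pow_self (Fact.out : p.Prime).one_lt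
  set r := finrank (ZMod p) K
  set q := Nat.card K
  have h1 : Nat.card H ≤ r * (q - 1) := by
    rw [hcard]
    exact Nat.mul_le_mul hq (by omega)
  have hq2 : 1 ≤ q := by omega
  obtain ⟨t, ht⟩ : ∃ t, q = t + 1 := ⟨q - 1, by omega⟩
  rw [ht] at h1 hV hlt
  simp only [Nat.add_sub_cancel] at h1
  have h2 : r * t ≤ t * t := Nat.mul_le_mul_right t (by omega)
  have hA2 : 1 ≤ Nat.card A := Nat.card_pos
  nlinarith

end Cfsg.Agent.S0685
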