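import Cfsg.Statements.S0684
import Cfsg.Agent.S0685
set_option linter.all false

set_option autoImplicit false
open Cfsg

namespace Cfsg.Agent.S0684

open Module

open scoped IsMulCommutative in
/-- Point stabiliser of a sharply doubly transitive group not of semilinear type: a maximal normal abelian subgroup `A` of a linear group `H` that is regular on non-zero vectors and has no irreducible cyclic normal subgroup is cyclic and reducible, and the order of `A` divides `p ^ k - 1` for `k` the dimension of a minimal `A`-invariant subspace. -/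
theorem result {p : ℕ} [Fact p.Prime] {V : Type*} [AddCommGroup V] [Module (ZMod p) V] [Finite V] (H : Subgroup (V ≃ₗ[ZMod p] V)) (hreg : ∀ v w : V, v ≠ 0 → w ≠ 0 → ∃! h : H, (h : V ≃ₗ[ZMod p] V) v = w) (hI : ∀ A : Subgroup H, A.Normal → IsCyclic A → ∃ W : Submodule (ZMod p) V, W ≠ ⊥ ∧ W ≠ ⊤ ∧ ∀ a ∈ A, ∀ v ∈ W, ((a : H) : V ≃ₗ[ZMod p] V) v ∈ W) (A : Subgroup H) (hAn : A.Normal) (hAc : IsMulCommutative A) (hAmax : ∀ B : Subgroup H, B.Normal → IsMulCommutative B → A ≤ B → B = A) : IsCyclic A ∧ ∃ W : Submodule (ZMod p) V, W ≠ ⊥ ∧ W ≠ ⊤ ∧ (∀ a ∈ A, ∀ v ∈ W, ((a : H) : V ≃ₗ[ZMod p] V) v ∈ W) ∧ (∀ W' : Submodule (ZMod p) V, W' ≤ W → (∀ a ∈ A, ∀ v ∈ W', ((a : H) : V ≃ₗ[ZMod p] V) v ∈ W') → W' = ⊥ ∨ W' = W) ∧ Nat.card A ∣ p ^ Module.finrank (ZMod p) W - 1 := by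
  classical
  -- `V` is nontrivial
  have hVnt : Nontrivial V := by
    by_contra h
    rw [not_nontrivial_iff_subsingleton] at h
    obtain ⟨W, hW1, hW2, _⟩ := hI ⊥ inferInstance inferInstance
    exact hW1 (Subsingleton.elim _ _)
  -- the subalgebra generated by `A`
  set S : Set (End (ZMod p) V) :=
    (fun a : H => ((a : V ≃ₗ[ZMod p] V) : End (ZMod p) V)) '' (A : Set H) with hS
  have hScomm : ∀ x ∈ S, ∀ y ∈ S, x * y = y * x := by
    rintro _ ⟨a, ha, rfl⟩ _ ⟨b, hb, rfl⟩
    have := congrArg Subtype.val (hAc.is_comm.comm ⟨a, ha⟩ ⟨b, hb⟩)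
    have h2 : (a : V ≃ₗ[ZMod p] V) * b = b * a := congrArg Subtype.val this
    ext v
    exact DFunLike.congr_fun h2 v
  set K : Subalgebra (ZMod p) (End (ZMod p) V) := Algebra.adjoin (ZMod p) S with hK
  have hKc : IsMulCommutative K := Algebra.isMulCommutative_adjoin (ZMod p) hScomm
  have hcomm : ∀ a ∈ K, ∀ b ∈ K, a * b = b * a := by
    intro a ha b hb
    exact congrArg Subtype.val (hKc.is_comm.comm ⟨a, ha⟩ ⟨b, hb⟩)
  have hAK : ∀ a ∈ A, (((a : H) : V ≃ₗ[ZMod p] V) : End (ZMod p) V) ∈ K := by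
    intro a ha
    exact Algebra.subset_adjoin ⟨a, ha, rfl⟩
  have hnorm : ∀ h ∈ H, ∀ k ∈ K, h.conjAlgEquiv (ZMod p) k ∈ K := by
    intro h hh k hk
    have hmap : K.map (h.conjAlgEquiv (ZMod p) : End (ZMod p) V →ₐ[ZMod p] End (ZMod p) V) ≤ K := by
      rw [hK, AlgHom.map_adjoin]
      refine Algebra.adjoin_mono ?_
      rintro _ ⟨_, ⟨a, ha, rfl⟩, rfl⟩
      refine ⟨⟨h, hh⟩ * a * ⟨h, hh⟩⁻¹, hAn.conj_mem a ha ⟨h, hh⟩, ?_⟩
      ext v
      rfl
    exact hmap ⟨k, hk, rfl⟩
  have htr : ∀ v w : V, v ≠ 0 → w ≠ 0 → ∃ h ∈ H, h v = w := by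
    intro v w hv hw
    obtain ⟨h, hh, _⟩ := hreg v w hv hw
    exact ⟨h.1, h.2, hh⟩
  have hP := Cfsg.Agent.S0685.core_simple K H htr hnorm
  have hinj := Cfsg.Agent.S0685.core_inj K hcomm hP
  have hKnt : Nontrivial K := inferInstance
  have hKnz : NoZeroDivisors K := by
    refine ⟨fun {a b} hab => ?_⟩
    by_contra hcon
    push Not at hcon
    obtain ⟨ha, hb⟩ := hcon
    have hab' : (a : End (ZMod p) V) * b = 0 := congrArg Subtype.val hab
    obtain ⟨v, hv⟩ : ∃ v, (b : End (ZMod p) V) v ≠ 0 := by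
      by_contra hc
      push Not at hc
      exact hb (Subtype.ext (LinearMap.ext hc))
    have : (a : End (ZMod p) V) = 0 := by
      refine hinj a a.2 _ hv ?_
      exact DFunLike.congr_fun hab' v
    exact ha (Subtype.ext this)
  have hKdom : IsDomain K := NoZeroDivisors.to_isDomain K
  -- finiteness
  have hfE : Finite (End (ZMod p) V) :=
    Finite.of_injective (fun f : End (ZMod p) V => (f : V → V)) DFunLike.coe_injective
  have hfK : Finite K := inferInstance
  have hfG : Finite (V ≃ₗ[ZMod p] V) :=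
    Finite.of_injective (fun f : V ≃ₗ[ZMod p] V => (f : V → V)) DFunLike.coe_injective
  have hfH : Finite H := inferInstance
  -- `A` is cyclic
  let f : A →* K :=
    { toFun := fun a => ⟨_, hAK a.1 a.2⟩
      map_one' := rfl
      map_mul' := fun a b => rfl }
  have hf : Function.Injective f := by
    intro a b hab
    have h1 : ((a.1.1 : V ≃ₗ[ZMod p] V) : End (ZMod p) V) = b.1.1 := congrArg Subtype.val hab
    apply Subtype.ext
    apply Subtype.ext
    ext v
    exact DFunLike.congr_fun h1 v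
  have hAcyc : IsCyclic A := isCyclic_of_injective_ringHom f hf
  refine ⟨hAcyc, ?_⟩
  obtain ⟨W1, hW1, hW2, hW3⟩ := hI A hAn hAcyc
  -- `A`-invariant subspaces are `K`-invariant
  have hWK : ∀ W : Submodule (ZMod p) V,
      (∀ a ∈ A, ∀ v ∈ W, ((a : H) : V ≃ₗ[ZMod p] V) v ∈ W) → ∀ k ∈ K, ∀ v ∈ W, k v ∈ W := by
    intro W hW3 k hk
    refine Algebra.adjoin_induction (p := fun k _ => ∀ v ∈ W, k v ∈ W) ?_ ?_ ?_ ?_ hk
    · rintro _ ⟨a, ha, rfl⟩ v hv
      exact hW3 a ha v hv
    · intro r v hv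
      rw [Module.algebraMap_end_apply]
      exact W.smul_mem r hv
    · intro x y _ _ hx hy v hv
      exact W.add_mem (hx v hv) (hy v hv)
    · intro x y _ _ hx hy v hv
      exact hx _ (hy v hv)
  obtain ⟨v, hvW, hv0⟩ := W1.exists_mem_ne_zero_of_ne_bot hW1
  let ev : K →ₗ[ZMod p] V :=
    { toFun := fun k => (k : End (ZMod p) V) v
      map_add' := fun a b => rfl
      map_smul' := fun a b => rfl }
  have hevinj : Function.Injective ev := by
    rw [injective_iff_map_eq_zero]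
    intro k hk
    exact Subtype.ext (hinj k k.2 v hv0 hk)
  have hvr : v ∈ LinearMap.range ev := ⟨1, rfl⟩
  refine ⟨LinearMap.range ev, ?_, ?_, ?_, ?_, ?_⟩
  · intro h
    rw [h, Submodule.mem_bot] at hvr
    exact hv0 hvr
  · intro h
    apply hW2
    rw [eq_top_iff, ← h]
    rintro _ ⟨k, rfl⟩
    exact hWK W1 hW3 k k.2 v hvW
  · rintro a ha _ ⟨k, rfl⟩
    exact ⟨f ⟨a, ha⟩ * k, rfl⟩
  · intro W' hW' hW'A
    by_cases h0 : W' = ⊥
    · exact Or.inl h0
    right
    refine le_antisymm hW' ?_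
    obtain ⟨w, hw, hw0⟩ := W'.exists_mem_ne_zero_of_ne_bot h0
    obtain ⟨k, hk⟩ := hW' hw
    have hk' : (k : End (ZMod p) V) v = w := hk
    obtain ⟨k', hk'K, hk'v⟩ := hP v hv0 k k.2 (by rw [hk']; exact hw0)
    have hvW' : v ∈ W' := by
      rw [← hk'v, hk']
      exact hWK W' hW'A k' hk'K w hw
    rintro _ ⟨l, rfl⟩
    exact hWK W' hW'A l l.2 v hvW'
  · have hcardW : p ^ finrank (ZMod p) (LinearMap.range ev) = Nat.card K := by
      rw [LinearMap.finrank_range_of_inj hevinj, Module.natCard_eq_pow_finrank (K := ZMod p) (V := K),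
        Nat.card_zmod]
    rw [hcardW]
    have hfield : IsField K := Finite.isField_of_domain K
    have h1 : Nat.card A ∣ Nat.card Kˣ := by
      refine Subgroup.card_dvd_of_injective f.toHomUnits ?_
      intro a b hab
      apply hf
      have := congrArg Units.val hab
      simpa using this
    have h2 : Nat.card Kˣ = Nat.card K - 1 := by
      letI := hfield.toField
      exact Nat.card_units K
    rw [← h2]
    exact h1

end Cfsg.Agent.S0684
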