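import Cfsg.Statements.S0686
import Cfsg.Agent.PermutationGroups.MinNonabelian
import Cfsg.Agent.S0690
set_option linter.all false

set_option autoImplicit false
open Cfsg

namespace Cfsg.Agent.S0686

open Cfsg.Agent.PermutationGroups.MinNonabelian

/-- A linear group as automorphisms of the multiplicative copy of `V`. -/
def toMulAut {p : ℕ} [Fact p.Prime] {V : Type*} [AddCommGroup V] [Module (ZMod p) V]
    (H : Subgroup (V ≃ₗ[ZMod p] V)) : H →* MulAut (Multiplicative V) where
  toFun h := AddEquiv.toMultiplicative (h : V ≃ₗ[ZMod p] V).toAddEquiv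
  map_one' := rfl
  map_mul' _ _ := rfl

theorem toMulAut_apply {p : ℕ} [Fact p.Prime] {V : Type*} [AddCommGroup V] [Module (ZMod p) V]
    (H : Subgroup (V ≃ₗ[ZMod p] V)) (h : H) (v : V) :
    toMulAut H h (Multiplicative.ofAdd v) = Multiplicative.ofAdd ((h : V ≃ₗ[ZMod p] V) v) := rfl

theorem toMulAut_injective {p : ℕ} [Fact p.Prime] {V : Type*} [AddCommGroup V] [Module (ZMod p) V]
    (H : Subgroup (V ≃ₗ[ZMod p] V)) : Function.Injective (toMulAut H) := by
  intro a b hab
  apply Subtype.ext
  apply LinearEquiv.ext
  intro v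
  have h1 := DFunLike.congr_fun hab (Multiplicative.ofAdd v)
  rw [toMulAut_apply, toMulAut_apply] at h1
  exact Multiplicative.ofAdd.injective h1

/-- In a linear group over the prime field that is regular on non-zero vectors and has no irreducible cyclic normal subgroup, let `A` be a maximal normal abelian subgroup and `N` a normal subgroup centralising `A` that is minimal among non-abelian normal subgroups centralising `A`. Then `N` is quaternion of order 8 or isomorphic to `SL(2,5)`. -/
theorem result {p : ℕ} [Fact p.Prime] {V : Type*} [AddCommGroup V] [Module (ZMod p) V] [Finite V] (H : Subgroup (V ≃ₗ[ZMod p] V)) (hreg : ∀ v w : V, v ≠ 0 → w ≠ 0 → ∃! h : H, (h : V ≃ₗ[ZMod p] V) v = w) (hI : ∀ A : Subgroup H, A.Normal → IsCyclic A → ∃ W : Submodule (ZMod p) V, W ≠ ⊥ ∧ W ≠ ⊤ ∧ ∀ a ∈ A, ∀ v ∈ W, ((a : H) : V ≃ₗ[ZMod p] V) v ∈ W) (A : Subgroup H) (hAn : A.Normal) (hAc : IsMulCommutative A) (hAmax : ∀ B : Subgroup H, B.Normal → IsMulCommutative B → A ≤ B → B = A) (N : Subgroup H) (hNn : N.Normal) (hNle : N ≤ Subgroup.centralizer (A : Set H))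 (hNna : ¬ IsMulCommutative N) (hNmin : ∀ M : Subgroup H, M.Normal → M ≤ N → ¬ IsMulCommutative M → M = N) : Nonempty (N ≃* QuaternionGroup 2) ∨ Nonempty (N ≃* Matrix.SpecialLinearGroup (Fin 2) (ZMod 5)) := by
  by_cases hs : Group.IsSolvable N
  · left
    exact quaternion_of_solvable H hreg hI A hAn hAc hAmax N hNn hNle hNna hNmin hs
  · right
    rcases commutator_cases A hAn hAc hAmax N hNn hNle hNmin with hperf | hle
    · set G : Subgroup (MulAut (Multiplicative V)) := N.map (toMulAut H) with hG
      have e : N ≃* G := N.equivMapOfInjective (toMulAut H) (toMulAut_injective H)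
      have hGperf : commutator G = ⊤ := by
        apply Subgroup.map_injective G.subtype_injective
        rw [Subgroup.map_subtype_commutator, ← MonoidHom.range_eq_map, Subgroup.range_subtype, hG,
          ← Subgroup.map_commutator, hperf]
      have hGne : G ≠ ⊥ := by
        intro h0
        apply hNna
        have h1 : N = ⊥ := by
          rw [hG, (Subgroup.map_eq_bot_iff_of_injective N (toMulAut_injective H))] at h0
          exact h0
        subst h1
        infer_instance
      have hfpf : ∀ φ ∈ G, φ ≠ 1 → ∀ k : Multiplicative V, φ k = k → k = 1 := by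
        rintro _ ⟨h, hh, rfl⟩ hne k hk
        have hne' : h ≠ 1 := by
          rintro rfl
          exact hne (map_one _)
        have := free_of_regular H hreg h hne' k.toAdd (Multiplicative.ofAdd.injective hk)
        exact Multiplicative.toAdd.injective this
      obtain ⟨f⟩ := Cfsg.Agent.S0690.result G hfpf hGperf hGne
      exact ⟨e.trans f⟩
    · exfalso
      apply hs
      have hD : ∀ x y z : N, (x * y * x⁻¹ * y⁻¹) * z = z * (x * y * x⁻¹ * y⁻¹) := by
        intro x y z
        apply Subtype.ext
        have h1 : (x : H) * y * (x : H)⁻¹ * (y : H)⁻¹ ∈ A :=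
          hle (Subgroup.commutator_mem_commutator x.2 y.2)
        exact (Subgroup.mem_centralizer_iff.1 (hNle z.2)) _ h1
      refine ⟨⟨2, ?_⟩⟩
      have hcen : commutator N ≤ Subgroup.center N := by
        rw [commutator_eq_closure, Subgroup.closure_le]
        rintro _ ⟨x, y, rfl⟩
        rw [SetLike.mem_coe, Subgroup.mem_center_iff]
        intro z
        exact (hD x y z).symm
      rw [derivedSeries_succ, derivedSeries_one, eq_bot_iff, Subgroup.commutator_le]
      intro x hx y hy
      rw [Subgroup.mem_bot]
      have := (Subgroup.mem_center_iff.1 (hcen hx)) y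
      change x * y * x⁻¹ * y⁻¹ = 1
      rw [← this]; group

end Cfsg.Agent.S0686
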