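import Cfsg.Statements.S0688
import Cfsg.Agent.PermutationGroups.RegularLinear
import Cfsg.Agent.PermutationGroups.RegularCount
import Cfsg.Agent.PermutationGroups.AutQuaternion
import Cfsg.Agent.PermutationGroups.MinNonabelian
import Cfsg.Agent.S0685
import Mathlib.GroupTheory.IndexNormal
set_option linter.all false

set_option autoImplicit false
open Cfsg

namespace Cfsg.Agent.S0688

theorem sq_three : ∀ c : ZMod 3, c ≠ 0 → c * c = 1 := by decide

/-- the arithmetic -/
theorem arith (q m c i : ℕ) (hm : 2 ≤ m) (hc : c ∣ q - 1) (hi : i ∣ 24)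
    (h : c * i + 1 = q ^ m) (h8 : 8 ∣ c * i) (hq1 : q ≠ 1) :
    (q = 3 ∧ q ^ m = 9) ∨ q ^ m = 25 ∨ q ^ m = 49 ∨ q ^ m = 121 ∨ q ^ m = 529 := by
  have hi' : i ≤ 24 := Nat.le_of_dvd (by norm_num) hi
  by_cases hq0 : q = 0
  · subst hq0
    rw [zero_pow (by omega)] at h
    omega
  have hq2 : 2 ≤ q := by omega
  have hcq : c ≤ q - 1 := Nat.le_of_dvd (by omega) hc
  have hle : q ^ m ≤ (q - 1) * 24 + 1 := by
    rw [← h]
    have := Nat.mul_le_mul hcq hi'
    omega
  obtain ⟨k, rfl⟩ : ∃ k, m = k + 2 := ⟨m - 2, by omega⟩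
  have hodd : q % 2 = 1 := by
    by_contra hcon
    have h2 : q % 2 = 0 := by omega
    have : q ^ (k + 2) % 2 = 0 := by
      rw [Nat.pow_mod, h2]
      simp
    omega
  have hq3 : 3 ≤ q := by omega
  have hqq : q ^ (k + 2) = q * (q * q ^ k) := by ring
  have h24 : q * q ^ k < 24 := by
    by_contra hcon
    push Not at hcon
    have : q * 24 ≤ q * (q * q ^ k) := Nat.mul_le_mul_left q hcon
    omega
  have hpos : 1 ≤ q ^ k := Nat.one_le_pow _ _ (by omega)
  have hqle : q ≤ 23 := by nlinarith
  have hk : k ≤ 1 := by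
    by_contra hcon
    push Not at hcon
    have h9 : 3 ^ 2 ≤ q ^ k :=
      le_trans (Nat.pow_le_pow_left hq3 2) (Nat.pow_le_pow_right (by omega) (by omega))
    nlinarith
  have hii : i ∈ Nat.divisors 24 := Nat.mem_divisors.2 ⟨hi, by norm_num⟩
  have hid : i = 1 ∨ i = 2 ∨ i = 3 ∨ i = 4 ∨ i = 6 ∨ i = 8 ∨ i = 12 ∨ i = 24 := by
    have : Nat.divisors 24 = {1,2,3,4,6,8,12,24} := by decide
    rw [this] at hii
    simpa using hii
  have hk' : k = 0 ∨ k = 1 := by omega
  have hc24 : c ≤ 22 := by omega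
  rcases hk' with rfl | rfl
  · have hq' : q ^ (0 + 2) = q * q := by ring
    rw [hq'] at h ⊢
    interval_cases q <;> first | omega |
      (exfalso; rcases hid with rfl | rfl | rfl | rfl | rfl | rfl | rfl | rfl <;>
        interval_cases c <;> omega)
  · have hq' : q ^ (1 + 2) = q * q * q := by ring
    rw [hq'] at h ⊢
    interval_cases q <;> omega

/-- Degrees of the soluble exceptional sharply doubly transitive groups: if a solvable linear group over the prime field is regular on the non-zero vectors of `V` and has no irreducible cyclic normal subgroup, then `V` has 25, 49, 121 or 529 elements. -/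
theorem result {p : ℕ} [Fact p.Prime] {V : Type*} [AddCommGroup V] [Module (ZMod p) V] [Finite V] (H : Subgroup (V ≃ₗ[ZMod p] V)) (hreg : ∀ v w : V, v ≠ 0 → w ≠ 0 → ∃! h : H, (h : V ≃ₗ[ZMod p] V) v = w) (hI : ∀ A : Subgroup H, A.Normal → IsCyclic A → ∃ W : Submodule (ZMod p) V, W ≠ ⊥ ∧ W ≠ ⊤ ∧ ∀ a ∈ A, ∀ v ∈ W, ((a : H) : V ≃ₗ[ZMod p] V) v ∈ W) (hsolv : Group.IsSolvable H) : Nat.card V = 25 ∨ Nat.card V = 49 ∨ Nat.card V = 121 ∨ Nat.card V = 529 := by
  classical
  have hVnt : Nontrivial V := by
    by_contra h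
    rw [not_nontrivial_iff_subsingleton] at h
    obtain ⟨W, hW1, hW2, _⟩ := hI ⊥ inferInstance inferInstance
    exact hW1 (Subsingleton.elim _ _)
  have hfG : Finite (V ≃ₗ[ZMod p] V) := PermutationGroups.RegularLinear.finite_gl
  -- a maximal normal abelian subgroup
  obtain ⟨A, hA⟩ := Set.Finite.exists_maximal
    (s := {B : Subgroup H | B.Normal ∧ IsMulCommutative B}) (Set.toFinite _)
    ⟨⊥, inferInstance, inferInstance⟩
  obtain ⟨⟨hAn, hAc⟩, hAmax'⟩ := hA
  have hAmax : ∀ B : Subgroup H, B.Normal → IsMulCommutative B → A ≤ B → B = A :=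
    fun B hB hBc hAB => le_antisymm (hAmax' ⟨hB, hBc⟩ hAB) hAB
  have hCna := (Cfsg.Agent.S0685.result H hreg hI A hAn hAc hAmax).2
  have hCn : (Subgroup.centralizer (A : Set H)).Normal := inferInstance
  -- a minimal non-abelian normal subgroup of `H` in `C_H(A)`
  obtain ⟨N, hN⟩ := Set.Finite.exists_minimal
    (s := {B : Subgroup H | B.Normal ∧ B ≤ Subgroup.centralizer (A : Set H) ∧ ¬ IsMulCommutative B})
    (Set.toFinite _) ⟨_, hCn, le_rfl, hCna⟩
  obtain ⟨⟨hNn, hNle, hNna⟩, hNmin'⟩ := hN
  have hNmin : ∀ M : Subgroup H, M.Normal → M ≤ N → ¬ IsMulCommutative M → M = N :=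
    fun M hM hMN hMna => le_antisymm hMN (hNmin' ⟨hM, hMN.trans hNle, hMna⟩ hMN)
  obtain ⟨e⟩ := PermutationGroups.MinNonabelian.quaternion_of_solvable H hreg hI A hAn hAc hAmax N hNn hNle hNna hNmin inferInstance
  have htr : ∀ v w : V, v ≠ 0 → w ≠ 0 → ∃ h ∈ H, h v = w := by
    intro v w hv hw
    obtain ⟨h, hh, _⟩ := hreg v w hv hw
    exact ⟨h.1, h.2, hh⟩
  have hirr := fun W hW => PermutationGroups.RegularLinear.irreducible_of_normal_nonabelian
    H htr N hNn hNna W hW
  have hfree := PermutationGroups.RegularCount.eq_one_of_reg H hreg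
  obtain ⟨d, m, hd, hm, hV, hC, _⟩ :=
    PermutationGroups.RegularCount.exists_count H hfree N hNna hirr
  have hH := PermutationGroups.RegularCount.card_add_one H hreg
  have hidx : (Subgroup.centralizer (N : Set H)).index ∣ 24 := by
    have h1 := PermutationGroups.RegularCount.index_centralizer_dvd N
    have h2 : Nat.card (MulAut N) = 24 := by
      rw [← PermutationGroups.AutQuaternion.card_mulAut]
      exact Nat.card_congr (MulAut.congr e).toEquiv
    rwa [h2] at h1
  have hmul := (Subgroup.centralizer (N : Set H)).card_mul_index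
  have hN8 : Nat.card N = 8 := by
    rw [Nat.card_congr e.toEquiv, Nat.card_eq_fintype_card, QuaternionGroup.card]
  have h8 : 8 ∣ Nat.card H := by
    rw [← hN8]
    exact Subgroup.card_subgroup_dvd_card N
  have hp2 : 2 ≤ p := (Fact.out : p.Prime).two_le
  have key := arith (p ^ d) m _ _ hm hC hidx (by rw [hmul, hH, hV]) (by rw [hmul]; exact h8)
    (by
      have : 1 < p ^ d := Nat.one_lt_pow (by omega) (by omega)
      omega)
  rw [hV]
  rcases key with ⟨h3, h9⟩ | h
  · exfalso
    -- `p = 3`, `|V| = 9`, `H = N` is quaternion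
    have hp3 : p = 3 := by
      have h1 : p ∣ 3 := by rw [← h3]; exact dvd_pow_self p (by omega)
      exact (Nat.prime_dvd_prime_iff_eq (Fact.out : p.Prime) (by norm_num)).1 h1
    subst hp3
    rw [hV, h9] at hH
    have hNtop : N = ⊤ := by
      apply Subgroup.eq_top_of_card_eq
      omega
    -- a cyclic subgroup of order four
    set a : H := ((e.symm (QuaternionGroup.a 1) : N) : H) with ha
    have hao : orderOf a = 4 := by
      rw [ha]
      rw [Subgroup.orderOf_coe, MulEquiv.orderOf_eq]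
      simp
    have hidx2 : (Subgroup.zpowers a).index = 2 := by
      have h1 := (Subgroup.zpowers a).card_mul_index
      rw [Nat.card_zpowers, hao] at h1
      omega
    obtain ⟨W, hW1, hW2, hW3⟩ := hI (Subgroup.zpowers a)
      (Subgroup.normal_of_index_eq_two hidx2) inferInstance
    -- `|W| = 3`
    have hWV : Nat.card W ∣ 9 := by
      have h1 := AddSubgroup.card_addSubgroup_dvd_card W.toAddSubgroup
      rw [hV, h9] at h1
      exact h1
    have hW1' : Nat.card W ≠ 1 := by
      intro h1
      apply hW1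
      rw [Submodule.eq_bot_iff]
      intro x hx
      have := (Nat.card_eq_one_iff_unique.1 h1).1
      have := Subsingleton.elim (⟨x, hx⟩ : W) 0
      exact congrArg Subtype.val this
    have hW9 : Nat.card W ≠ 9 := by
      intro h1
      apply hW2
      have h2 : W.toAddSubgroup = ⊤ := by
        apply AddSubgroup.eq_top_of_card_eq
        rw [hV, h9]
        exact h1
      ext x
      constructor
      · intro _; trivial
      · intro _
        have : x ∈ W.toAddSubgroup := by rw [h2]; trivial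
        exact this
    have hWc : Nat.card W = 3 := by
      have : Nat.card W ∈ Nat.divisors 9 := Nat.mem_divisors.2 ⟨hWV, by norm_num⟩
      have h2 : Nat.divisors 9 = {1,3,9} := by decide
      rw [h2] at this
      simp only [Finset.mem_insert, Finset.mem_singleton] at this
      omega
    have hfr : Module.finrank (ZMod 3) W = 1 := by
      have h1 := Module.natCard_eq_pow_finrank (K := ZMod 3) (V := W)
      rw [hWc, Nat.card_zmod] at h1
      have : 3 ^ 1 = 3 ^ Module.finrank (ZMod 3) W := by simpa using h1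
      exact (Nat.pow_right_injective (by norm_num : 2 ≤ 3) this).symm
    obtain ⟨w, hw, hspan⟩ := finrank_eq_one_iff'.1 hfr
    obtain ⟨c, hc⟩ := hspan ⟨(a : V ≃ₗ[ZMod 3] V) w, hW3 a (Subgroup.mem_zpowers a) w w.2⟩
    have hc' : c • (w : V) = (a : V ≃ₗ[ZMod 3] V) w := congrArg Subtype.val hc
    have hc0 : c ≠ 0 := by
      rintro rfl
      rw [zero_smul] at hc'
      have h1 := (LinearEquiv.map_eq_zero_iff _).1 hc'.symm
      exact hw (Subtype.ext h1)
    have hc2 : c * c = 1 := sq_three c hc0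
    have h2 : ((a ^ 2 : H) : V ≃ₗ[ZMod 3] V) w = w := by
      have : ((a ^ 2 : H) : V ≃ₗ[ZMod 3] V) w = (a : V ≃ₗ[ZMod 3] V) ((a : V ≃ₗ[ZMod 3] V) w) := by
        rw [pow_two]; rfl
      rw [this, ← hc', map_smul, ← hc', smul_smul, hc2, one_smul]
    have h3' := hfree (a ^ 2) w (fun h => hw (Subtype.ext h)) h2
    have h4 := orderOf_dvd_of_pow_eq_one h3'
    rw [hao] at h4
    omega
  · exact h

end Cfsg.Agent.S0688
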