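import Cfsg.Statements.S0691
import Mathlib
set_option linter.all false

set_option autoImplicit false
open Cfsg

namespace Cfsg.Agent.S0691

/-- The 24 matrices, as entry 4-tuples. -/
def T : List (ZMod 5 × ZMod 5 × ZMod 5 × ZMod 5) :=
  [(0, 1, 4, 0), (0, 2, 2, 0), (0, 3, 3, 0), (0, 4, 1, 0), (1, 0, 0, 1), (1, 1, 2, 3),
   (1, 2, 1, 3), (1, 3, 4, 3), (1, 4, 3, 3), (2, 0, 0, 3), (2, 1, 2, 4), (2, 2, 1, 4),
   (2, 3, 4, 4), (2, 4, 3, 4), (3, 0, 0, 2), (3, 1, 2, 1), (3, 2, 1, 1), (3, 3, 4, 1),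
   (3, 4, 3, 1), (4, 0, 0, 4), (4, 1, 2, 2), (4, 2, 1, 2), (4, 3, 4, 2), (4, 4, 3, 2)]

/-- product of 4-tuples -/
def tmul (x y : ZMod 5 × ZMod 5 × ZMod 5 × ZMod 5) : ZMod 5 × ZMod 5 × ZMod 5 × ZMod 5 :=
  (x.1 * y.1 + x.2.1 * y.2.2.1, x.1 * y.2.1 + x.2.1 * y.2.2.2,
   x.2.2.1 * y.1 + x.2.2.2 * y.2.2.1, x.2.2.1 * y.2.1 + x.2.2.2 * y.2.2.2)

/-- power of 4-tuples -/
def tpow (x : ZMod 5 × ZMod 5 × ZMod 5 × ZMod 5) : ℕ → ZMod 5 × ZMod 5 × ZMod 5 × ZMod 5
  | 0 => (1, 0, 0, 1)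
  | n + 1 => tmul (tpow x n) x

theorem T_mul : ∀ x ∈ T, ∀ y ∈ T, tmul x y ∈ T := by decide +kernel

theorem T_words : ∀ x ∈ T, ∃ i : Fin 4, ∃ j : Fin 2, ∃ k : Fin 3,
    x = tmul (tmul (tpow (2, 0, 0, -2) i) (tpow (0, -1, 1, 0) j)) (tpow (1, 2, 1, -2) k) := by
  decide +kernel

theorem T_nodup : T.Nodup := by decide +kernel

theorem T_reg : ∀ a b c d : ZMod 5, (a, b) ≠ (0, 0) → (c, d) ≠ (0, 0) →
    ∃ x ∈ T, (x.1 * a + x.2.1 * b, x.2.2.1 * a + x.2.2.2 * b) = (c, d) := by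
  decide +kernel

theorem T_free : ∀ x ∈ T, ∀ y ∈ T, ∀ a b : ZMod 5, (a, b) ≠ (0, 0) →
    x.1 * a + x.2.1 * b = y.1 * a + y.2.1 * b →
    x.2.2.1 * a + x.2.2.2 * b = y.2.2.1 * a + y.2.2.2 * b → x = y := by
  decide +kernel

/-- entries of a matrix -/
def ent (M : Matrix (Fin 2) (Fin 2) (ZMod 5)) : ZMod 5 × ZMod 5 × ZMod 5 × ZMod 5 :=
  (M 0 0, M 0 1, M 1 0, M 1 1)

theorem ent_mul (M N : Matrix (Fin 2) (Fin 2) (ZMod 5)) : ent (M * N) = tmul (ent M) (ent N) := by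
  simp [ent, tmul, Matrix.mul_apply, Fin.sum_univ_two]

theorem ent_pow (M : Matrix (Fin 2) (Fin 2) (ZMod 5)) (n : ℕ) : ent (M ^ n) = tpow (ent M) n := by
  induction n with
  | zero => simp [ent, tpow]
  | succ n ih => rw [pow_succ, ent_mul, ih]; rfl

theorem ent_inj {M N : Matrix (Fin 2) (Fin 2) (ZMod 5)} (h : ent M = ent N) : M = N := by
  simp only [ent, Prod.mk.injEq] at h
  ext i j
  fin_cases i <;> fin_cases j <;> simp [h]

/-- An exceptional sharply doubly transitive group of degree 5^2: the listed matrices generate a subgroup of GL(2,5) of order 24 acting regularly on the non-zero vectors. -/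
theorem result (A : Matrix.GeneralLinearGroup (Fin 2) (ZMod 5)) (B : Matrix.GeneralLinearGroup (Fin 2) (ZMod 5)) (C : Matrix.GeneralLinearGroup (Fin 2) (ZMod 5)) (hA : (A : Matrix (Fin 2) (Fin 2) (ZMod 5)) = !![2, 0; 0, -2]) (hB : (B : Matrix (Fin 2) (Fin 2) (ZMod 5)) = !![0, -1; 1, 0]) (hC : (C : Matrix (Fin 2) (Fin 2) (ZMod 5)) = !![1, 2; 1, -2]) : Nat.card (Subgroup.closure ({A, B, C} : Set (Matrix.GeneralLinearGroup (Fin 2) (ZMod 5)))) = 24 ∧ ∀ v w : Fin 2 → ZMod 5, v ≠ 0 → w ≠ 0 → ∃! h : Subgroup.closure ({A, B, C} : Set (Matrix.GeneralLinearGroup (Fin 2) (ZMod 5))), Matrix.mulVec ((h : Matrix.GeneralLinearGroup (Fin 2) (ZMod 5)) : Matrix (Fin 2) (Fin 2) (ZMod 5)) v = w := by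
  have eA : ent (A : Matrix (Fin 2) (Fin 2) (ZMod 5)) = (2, 0, 0, -2) := by rw [hA]; simp [ent]
  have eB : ent (B : Matrix (Fin 2) (Fin 2) (ZMod 5)) = (0, -1, 1, 0) := by rw [hB]; simp [ent]
  have eC : ent (C : Matrix (Fin 2) (Fin 2) (ZMod 5)) = (1, 2, 1, -2) := by rw [hC]; simp [ent]
  have one_mem : ent (1 : Matrix (Fin 2) (Fin 2) (ZMod 5)) ∈ T := by decide +kernel
  -- powers stay in `T`
  have hpow : ∀ (M : Matrix (Fin 2) (Fin 2) (ZMod 5)), ent M ∈ T → ∀ n : ℕ, ent (M ^ n) ∈ T := by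
    intro M hM n
    induction n with
    | zero => simpa using one_mem
    | succ n ih => rw [pow_succ, ent_mul]; exact T_mul _ ih _ hM
  have hinv : ∀ g : Matrix.GeneralLinearGroup (Fin 2) (ZMod 5),
      ent (g : Matrix (Fin 2) (Fin 2) (ZMod 5)) ∈ T →
      ent ((g⁻¹ : Matrix.GeneralLinearGroup (Fin 2) (ZMod 5)) : Matrix (Fin 2) (Fin 2) (ZMod 5)) ∈ T := by
    intro g hg
    have h1 : g⁻¹ = g ^ (orderOf g - 1) := by
      have h2 : g ^ (orderOf g) = 1 := pow_orderOf_eq_one g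
      have h3 : 0 < orderOf g := orderOf_pos g
      rw [eq_comm, ← mul_eq_one_iff_eq_inv, ← pow_succ, Nat.sub_add_cancel h3, h2]
    rw [h1, Units.val_pow_eq_pow_val]
    exact hpow _ hg _
  have key : ∀ g : Matrix.GeneralLinearGroup (Fin 2) (ZMod 5),
      g ∈ Subgroup.closure ({A, B, C} : Set (Matrix.GeneralLinearGroup (Fin 2) (ZMod 5))) ↔
        ent (g : Matrix (Fin 2) (Fin 2) (ZMod 5)) ∈ T := by
    intro g
    constructor
    · intro hg
      induction hg using Subgroup.closure_induction with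
      | mem x hx =>
        rcases hx with rfl | rfl | rfl
        · rw [eA]; decide +kernel
        · rw [eB]; decide +kernel
        · rw [eC]; decide +kernel
      | one => simpa using one_mem
      | mul x y _ _ hx hy => rw [Units.val_mul, ent_mul]; exact T_mul _ hx _ hy
      | inv x _ hx => exact hinv x hx
    · intro hg
      obtain ⟨i, j, k, h⟩ := T_words _ hg
      have h2 : g = A ^ (i : ℕ) * B ^ (j : ℕ) * C ^ (k : ℕ) := by
        apply Units.ext
        apply ent_inj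
        rw [h, Units.val_mul, Units.val_mul, Units.val_pow_eq_pow_val, Units.val_pow_eq_pow_val,
          Units.val_pow_eq_pow_val, ent_mul, ent_mul, ent_pow, ent_pow, ent_pow, eA, eB, eC]
      rw [h2]
      refine mul_mem (mul_mem (pow_mem ?_ _) (pow_mem ?_ _)) (pow_mem ?_ _)
      · exact Subgroup.subset_closure (by simp)
      · exact Subgroup.subset_closure (by simp)
      · exact Subgroup.subset_closure (by simp)
  constructor
  · -- cardinality
    have hcard : Nat.card (Subgroup.closure ({A, B, C} : Set (Matrix.GeneralLinearGroup (Fin 2) (ZMod 5))))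
        = Nat.card {x // x ∈ T} := by
      refine Nat.card_congr (Equiv.ofBijective
        (fun g => ⟨ent (g.1 : Matrix (Fin 2) (Fin 2) (ZMod 5)), (key g.1).1 g.2⟩) ⟨?_, ?_⟩)
      · intro g h hgh
        simp only [Subtype.mk.injEq] at hgh
        exact Subtype.ext (Units.ext (ent_inj hgh))
      · rintro ⟨x, hx⟩
        obtain ⟨i, j, k, h⟩ := T_words _ hx
        have h2 : ent ((A ^ (i : ℕ) * B ^ (j : ℕ) * C ^ (k : ℕ) :
            Matrix.GeneralLinearGroup (Fin 2) (ZMod 5)) : Matrix (Fin 2) (Fin 2) (ZMod 5)) = x := by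
          rw [h, Units.val_mul, Units.val_mul, Units.val_pow_eq_pow_val, Units.val_pow_eq_pow_val,
            Units.val_pow_eq_pow_val, ent_mul, ent_mul, ent_pow, ent_pow, ent_pow, eA, eB, eC]
        refine ⟨⟨A ^ (i : ℕ) * B ^ (j : ℕ) * C ^ (k : ℕ), (key _).2 (by rw [h2]; exact hx)⟩, ?_⟩
        exact Subtype.ext h2
    rw [hcard]
    have : Nat.card {x // x ∈ T} = T.toFinset.card := by
      rw [← Nat.card_eq_finsetCard]
      exact Nat.card_congr (Equiv.subtypeEquivRight (fun x => List.mem_toFinset.symm))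
    rw [this, List.toFinset_card_of_nodup T_nodup]
    rfl
  · intro v w hv hw
    have hv' : (v 0, v 1) ≠ (0, 0) := by
      intro h
      apply hv
      simp only [Prod.mk.injEq] at h
      ext i
      fin_cases i <;> simp [h]
    have hw' : (w 0, w 1) ≠ (0, 0) := by
      intro h
      apply hw
      simp only [Prod.mk.injEq] at h
      ext i
      fin_cases i <;> simp [h]
    obtain ⟨x, hx, hxe⟩ := T_reg _ _ _ _ hv' hw'
    obtain ⟨i, j, k, h⟩ := T_words _ hx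
    have h2 : ent ((A ^ (i : ℕ) * B ^ (j : ℕ) * C ^ (k : ℕ) :
        Matrix.GeneralLinearGroup (Fin 2) (ZMod 5)) : Matrix (Fin 2) (Fin 2) (ZMod 5)) = x := by
      rw [h, Units.val_mul, Units.val_mul, Units.val_pow_eq_pow_val, Units.val_pow_eq_pow_val,
        Units.val_pow_eq_pow_val, ent_mul, ent_mul, ent_pow, ent_pow, ent_pow, eA, eB, eC]
    refine ⟨⟨A ^ (i : ℕ) * B ^ (j : ℕ) * C ^ (k : ℕ), (key _).2 (by rw [h2]; exact hx)⟩, ?_, ?_⟩
    · show Matrix.mulVec ((A ^ (i : ℕ) * B ^ (j : ℕ) * C ^ (k : ℕ) :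
        Matrix.GeneralLinearGroup (Fin 2) (ZMod 5)) : Matrix (Fin 2) (Fin 2) (ZMod 5)) v = w
      generalize ((A ^ (i : ℕ) * B ^ (j : ℕ) * C ^ (k : ℕ) :
        Matrix.GeneralLinearGroup (Fin 2) (ZMod 5)) : Matrix (Fin 2) (Fin 2) (ZMod 5)) = M at h2 ⊢
      rw [← h2] at hxe
      simp only [ent, Prod.mk.injEq] at hxe
      ext l
      fin_cases l
      · simp [Matrix.mulVec, dotProduct, Fin.sum_univ_two, hxe.1]
      · simp [Matrix.mulVec, dotProduct, Fin.sum_univ_two, hxe.2]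
    · rintro ⟨g, hg⟩ hgv
      apply Subtype.ext
      apply Units.ext
      apply ent_inj
      show ent (g : Matrix (Fin 2) (Fin 2) (ZMod 5)) = ent ((A ^ (i : ℕ) * B ^ (j : ℕ) * C ^ (k : ℕ) :
        Matrix.GeneralLinearGroup (Fin 2) (ZMod 5)) : Matrix (Fin 2) (Fin 2) (ZMod 5))
      rw [h2]
      have hgT := (key g).1 hg
      simp only [Prod.mk.injEq] at hxe
      have e0 := congrFun hgv 0
      have e1 := congrFun hgv 1
      simp only [Matrix.mulVec, dotProduct, Fin.sum_univ_two] at e0 e1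
      refine T_free _ hgT _ hx (v 0) (v 1) hv' ?_ ?_
      · rw [hxe.1]; exact e0
      · rw [hxe.2]; exact e1

end Cfsg.Agent.S0691
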