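import Cfsg.Statements.S0692
import Cfsg.Agent.Perm.SharpRegular
set_option linter.all false

set_option autoImplicit false
open Cfsg

namespace Cfsg.Agent.S0692

open Matrix

/-- table: index `11 a + b`, value `11 c + d` where `(c, d)` is the second column of the unique
group element with first column `(a, b)`. -/
def tab : List ℕ := [0, 110, 62, 87, 89, 29, 103, 43, 45, 70, 11, 1, 13, 120, 77, 50, 75, 64,
  33, 106, 95, 32, 83, 52, 30, 38, 19, 76, 65, 6, 108, 97, 111, 114, 53, 31, 40, 20, 107, 71, 96,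
  85, 63, 4, 14, 3, 55, 41, 51, 22, 117, 84, 109, 98, 73, 86, 27, 16, 72, 54, 58, 39, 9, 90, 115,
  104, 46, 28, 17, 42, 2, 93, 74, 78, 60, 116, 105, 118, 59, 34, 23, 48, 15, 99, 81, 91, 66, 8,
  18, 7, 69, 47, 36, 61, 25, 112, 92, 101, 79, 49, 21, 35, 24, 5, 67, 56, 113, 94, 102, 80, 10,
  100, 37, 26, 88, 68, 57, 82, 44, 12, 119]

def wtab : List ℕ := [1, 3, 21, 297, 165, 73, 295, 663, 1191, 87, 15, 1, 52, 105, 210, 1189,
  679, 299, 1619, 12, 27, 20, 215, 2, 6743, 1684, 103, 1623, 146, 147, 842, 2647, 41, 1354, 19,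
  1323, 338, 13, 3369, 151, 677, 2347, 660, 82, 1687, 148, 343, 1173, 4756, 107, 2379, 6738, 5,
  39, 5417, 42, 811, 339, 407, 2708, 203, 75, 43, 1321, 599, 293, 171, 1175, 149, 2378, 10, 18,
  50, 1618, 101, 84, 202, 421, 3237, 9, 23, 5285, 594, 26, 2642, 4695, 85, 595, 809, 331, 2643,
  586, 2711, 37, 6474, 55, 1355, 330, 4, 53, 167, 661, 3371, 36, 587, 405, 25, 6739, 1685, 11, 7,
  83, 6, 51, 404, 74, 169, 4759, 843, 423, 211]

/-- `s (a, b) = (c, d)` -/
def sfun (a b : ZMod 11) : ZMod 11 × ZMod 11 :=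
  let n := tab.getD (11 * a.val + b.val) 0
  ((n / 11 : ℕ), (n % 11 : ℕ))

/-- the action of the word with code `n` (binary digits) on the vector `x`;
fuel is the first argument. -/
def act : ℕ → ℕ → ZMod 11 × ZMod 11 → ZMod 11 × ZMod 11
  | 0, _, x => x
  | k + 1, n, x =>
    if n ≤ 1 then x
    else act k (n / 2) (if n % 2 = 1 then (- x.2, x.1) else (2 * x.1 + 4 * x.2, x.1 - 3 * x.2))

theorem sfun_one : sfun 1 0 = (0, 1) := by decide +kernel

theorem sfun_A : ∀ a b : ZMod 11, (a, b) ≠ (0, 0) →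
    sfun (-b) a = (-(sfun a b).2, (sfun a b).1) := by decide +kernel

theorem sfun_B : ∀ a b : ZMod 11, (a, b) ≠ (0, 0) →
    sfun (2 * a + 4 * b) (a - 3 * b) =
      (2 * (sfun a b).1 + 4 * (sfun a b).2, (sfun a b).1 - 3 * (sfun a b).2) := by decide +kernel

theorem act_spec : ∀ a b : ZMod 11, (a, b) ≠ (0, 0) →
    act 20 (wtab.getD (11 * a.val + b.val) 0) (1, 0) = (a, b) := by decide +kernel

theorem exists_word (A B : Matrix.GeneralLinearGroup (Fin 2) (ZMod 11))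
    (hA : (A : Matrix (Fin 2) (Fin 2) (ZMod 11)) = !![0, -1; 1, 0])
    (hB : (B : Matrix (Fin 2) (Fin 2) (ZMod 11)) = !![2, 4; 1, -3]) (k n : ℕ)
    (x : ZMod 11 × ZMod 11) : ∃ h ∈ Subgroup.closure
      ({A, B} : Set (Matrix.GeneralLinearGroup (Fin 2) (ZMod 11))),
      (h : Matrix (Fin 2) (Fin 2) (ZMod 11)) *ᵥ ![x.1, x.2] =
        ![(act k n x).1, (act k n x).2] := by
  induction k generalizing n x with
  | zero => exact ⟨1, one_mem _, by simp [act]⟩
  | succ k ih =>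
    unfold act
    split_ifs with h1 h2
    · exact ⟨1, one_mem _, by simp⟩
    · obtain ⟨h, hh, hx⟩ := ih (n / 2) (- x.2, x.1)
      refine ⟨h * A, mul_mem hh (Subgroup.subset_closure (by simp)), ?_⟩
      rw [← hx, Units.val_mul, ← Matrix.mulVec_mulVec, hA]
      congr 1
      ext i
      fin_cases i <;> simp [Matrix.mulVec, dotProduct, Fin.sum_univ_two]
    · obtain ⟨h, hh, hx⟩ := ih (n / 2) (2 * x.1 + 4 * x.2, x.1 - 3 * x.2)
      refine ⟨h * B, mul_mem hh (Subgroup.subset_closure (by simp)), ?_⟩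
      rw [← hx, Units.val_mul, ← Matrix.mulVec_mulVec, hB]
      congr 1
      ext i
      fin_cases i <;> simp [Matrix.mulVec, dotProduct, Fin.sum_univ_two, sub_eq_add_neg]

/-- An exceptional sharply doubly transitive group of degree 11^2: the listed matrices generate a subgroup of GL(2,11) of order 120 acting regularly on the non-zero vectors. -/
theorem result (A : Matrix.GeneralLinearGroup (Fin 2) (ZMod 11)) (B : Matrix.GeneralLinearGroup (Fin 2) (ZMod 11)) (hA : (A : Matrix (Fin 2) (Fin 2) (ZMod 11)) = !![0, -1; 1, 0]) (hB : (B : Matrix (Fin 2) (Fin 2) (ZMod 11)) = !![2, 4; 1, -3]) : Nat.card (Subgroup.closure ({A, B} : Set (Matrix.GeneralLinearGroup (Fin 2) (ZMod 11)))) = 120 ∧ ∀ v w : Fin 2 → ZMod 11, v ≠ 0 → w ≠ 0 → ∃! h : Subgroup.closure ({A, B} : Set (Matrix.GeneralLinearGroup (Fin 2) (ZMod 11))), Matrix.mulVec ((h : Matrix.GeneralLinearGroup (Fin 2) (ZMod 11)) : Matrix (Fin 2) (Fin 2) (ZMod 11)) v = w := by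
  have : Fact (Nat.Prime 11) := ⟨by norm_num⟩
  have hne : ∀ v : Fin 2 → ZMod 11, v ≠ 0 → (v 0, v 1) ≠ ((0 : ZMod 11), (0 : ZMod 11)) := by
    intro v hv h0
    apply hv
    rw [Prod.mk.injEq] at h0
    ext i
    fin_cases i
    · exact h0.1
    · exact h0.2
  have main := Cfsg.Agent.Perm.SharpRegular.regular_of_section
    ({A, B} : Set (Matrix.GeneralLinearGroup (Fin 2) (ZMod 11)))
    (fun v => ![(sfun (v 0) (v 1)).1, (sfun (v 0) (v 1)).2]) ?_ ?_ ?_
  · rw [Nat.card_zmod] at main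
    exact main
  · have := sfun_one
    show ![(sfun 1 0).1, (sfun 1 0).2] = _
    rw [this]
  · intro g hg v hv
    simp only [Set.mem_insert_iff, Set.mem_singleton_iff] at hg
    have hv' := hne v hv
    rcases hg with rfl | rfl
    · have h0 : ((g : Matrix (Fin 2) (Fin 2) (ZMod 11)) *ᵥ v) 0 = - v 1 := by
        rw [hA]; simp [Matrix.mulVec, dotProduct, Fin.sum_univ_two]
      have h1 : ((g : Matrix (Fin 2) (Fin 2) (ZMod 11)) *ᵥ v) 1 = v 0 := by
        rw [hA]; simp [Matrix.mulVec, dotProduct, Fin.sum_univ_two]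
      show ![(sfun (((g : Matrix (Fin 2) (Fin 2) (ZMod 11)) *ᵥ v) 0)
        (((g : Matrix (Fin 2) (Fin 2) (ZMod 11)) *ᵥ v) 1)).1,
        (sfun (((g : Matrix (Fin 2) (Fin 2) (ZMod 11)) *ᵥ v) 0)
        (((g : Matrix (Fin 2) (Fin 2) (ZMod 11)) *ᵥ v) 1)).2] = _
      rw [h0, h1, sfun_A _ _ hv', hA]
      ext i
      fin_cases i <;> simp [Matrix.mulVec, dotProduct, Fin.sum_univ_two]
    · have h0 : ((g : Matrix (Fin 2) (Fin 2) (ZMod 11)) *ᵥ v) 0 = 2 * v 0 + 4 * v 1 := by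
        rw [hB]; simp [Matrix.mulVec, dotProduct, Fin.sum_univ_two]
      have h1 : ((g : Matrix (Fin 2) (Fin 2) (ZMod 11)) *ᵥ v) 1 = v 0 - 3 * v 1 := by
        rw [hB]; simp [Matrix.mulVec, dotProduct, Fin.sum_univ_two, sub_eq_add_neg]
      show ![(sfun (((g : Matrix (Fin 2) (Fin 2) (ZMod 11)) *ᵥ v) 0)
        (((g : Matrix (Fin 2) (Fin 2) (ZMod 11)) *ᵥ v) 1)).1,
        (sfun (((g : Matrix (Fin 2) (Fin 2) (ZMod 11)) *ᵥ v) 0)
        (((g : Matrix (Fin 2) (Fin 2) (ZMod 11)) *ᵥ v) 1)).2] = _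
      rw [h0, h1, sfun_B _ _ hv', hB]
      ext i
      fin_cases i <;> simp [Matrix.mulVec, dotProduct, Fin.sum_univ_two, sub_eq_add_neg]
  · intro v hv
    obtain ⟨h, hh, hx⟩ := exists_word A B hA hB 20 (wtab.getD (11 * (v 0).val + (v 1).val) 0) (1, 0)
    refine ⟨h, hh, ?_⟩
    rw [act_spec _ _ (hne v hv)] at hx
    rw [hx]
    ext i
    fin_cases i <;> rfl

end Cfsg.Agent.S0692
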