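-- Statement S0693 (row 693)
import Cfsg.Statements.S0693
import Cfsg.Agent.Perm.SharpRegular
set_option linter.all false

set_option autoImplicit false
open Cfsg

namespace Cfsg.Agent.S0693

open Matrix

/-- value `59 c + d` where `(c, d)` is the second column of the unique group element with
first column `(1, t)`, `t` the index (or `(0, 1)` for the index 59). -/
def tab : List ℕ := [1, 3217, 126, 1828, 1769, 340, 1078, 1287, 530, 2831, 2678, 2268, 2431,
  788, 2163, 2772, 3322, 1986, 370, 1397, 3152, 461, 1356, 1161, 1946, 1664, 1543, 1631, 1487,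
  294, 235, 3427, 1474, 1042, 2890, 2079, 865, 3073, 675, 2350, 3065, 720, 2947, 2583, 2633, 613,
  943, 589, 2064, 2534, 2992, 2416, 2188, 1205, 90, 3297, 962, 3416, 1834, 3422]

/-- a word in `A`, `B` (in binary) taking `(1, 0)` to a multiple of `(1, t)` (resp. `(0, 1)`) -/
def wtab : List ℕ := [1, 12, 37, 3237, 18, 41, 148, 82, 5285, 20, 149, 74, 2, 52, 297, 842, 202,
  21, 421, 5, 146, 809, 2642, 9, 3369, 42, 1173, 1321, 10, 101, 594, 13, 660, 73, 677, 1684, 165,
  36, 169, 1189, 26, 25, 210, 338, 50, 293, 661, 105, 586, 404, 1685, 85, 53, 405, 6, 330, 84,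
  1618, 4, 3]

/-- discrete logarithms to the base `-4` -/
def ktab : List ℕ := [0, 0, 15, 54, 30, 32, 11, 38, 45, 50, 47, 27, 26, 37, 53, 28, 2, 20, 7,
  48, 4, 34, 42, 51, 41, 6, 52, 46, 10, 14, 43, 39, 17, 23, 35, 12, 22, 13, 5, 33, 19, 36, 49, 31,
  57, 24, 8, 55, 56, 18, 21, 16, 9, 40, 3, 1, 25, 44, 29]

/-- index of the projective point through `(a, b)` -/
def idx (a b : ZMod 59) : ℕ := if a.val = 0 then 59 else (b.val * a.val ^ 57) % 59

/-- leading coefficient -/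
def lead (a b : ZMod 59) : ZMod 59 := if a.val = 0 then b else a

/-- `s (a, b) = (c, d)` -/
def sfun (a b : ZMod 59) : ZMod 59 × ZMod 59 :=
  let n := tab.getD (idx a b) 0
  (lead a b * (n / 59 : ℕ), lead a b * (n % 59 : ℕ))

/-- the action of the word with code `n` (binary digits) on the vector `x`;
fuel is the first argument. -/
def act : ℕ → ℕ → ZMod 59 × ZMod 59 → ZMod 59 × ZMod 59
  | 0, _, x => x
  | k + 1, n, x =>
    if n ≤ 1 then x
    else act k (n / 2) (if n % 2 = 1 then (- x.2, x.1)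
      else (9 * x.1 + 15 * x.2, -10 * x.1 - 10 * x.2))

/-- exponent of `-4` -/
def expo (a b : ZMod 59) : ℕ :=
  let u := act 14 (wtab.getD (idx a b) 0) (1, 0)
  ktab.getD (((lead a b).val * (lead u.1 u.2).val ^ 57) % 59) 0

theorem sfun_one : sfun 1 0 = (0, 1) := by decide +kernel

theorem sfun_A : ∀ a b : ZMod 59, (a, b) ≠ (0, 0) →
    sfun (-b) a = (-(sfun a b).2, (sfun a b).1) := by decide +kernel

theorem sfun_B : ∀ a b : ZMod 59, (a, b) ≠ (0, 0) →
    sfun (9 * a + 15 * b) (-10 * a - 10 * b) =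
      (9 * (sfun a b).1 + 15 * (sfun a b).2, -10 * (sfun a b).1 - 10 * (sfun a b).2) := by
  decide +kernel

theorem sfun_C : ∀ a b : ZMod 59, (a, b) ≠ (0, 0) →
    sfun (4 * a) (4 * b) = (4 * (sfun a b).1, 4 * (sfun a b).2) := by decide +kernel

theorem act_spec : ∀ a b : ZMod 59, (a, b) ≠ (0, 0) →
    (((-4) ^ expo a b : ZMod 59) * (act 14 (wtab.getD (idx a b) 0) (1, 0)).1,
      ((-4) ^ expo a b : ZMod 59) * (act 14 (wtab.getD (idx a b) 0) (1, 0)).2) = (a, b) := by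
  decide +kernel

theorem exists_word (A B C : Matrix.GeneralLinearGroup (Fin 2) (ZMod 59))
    (hA : (A : Matrix (Fin 2) (Fin 2) (ZMod 59)) = !![0, -1; 1, 0])
    (hB : (B : Matrix (Fin 2) (Fin 2) (ZMod 59)) = !![9, 15; -10, -10]) (k n : ℕ)
    (x : ZMod 59 × ZMod 59) : ∃ h ∈ Subgroup.closure
      ({A, B, C} : Set (Matrix.GeneralLinearGroup (Fin 2) (ZMod 59))),
      (h : Matrix (Fin 2) (Fin 2) (ZMod 59)) *ᵥ ![x.1, x.2] =
        ![(act k n x).1, (act k n x).2] := by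
  induction k generalizing n x with
  | zero => exact ⟨1, one_mem _, by simp [act]⟩
  | succ k ih =>
    unfold act
    split_ifs with h1 h2
    · exact ⟨1, one_mem _, by simp⟩
    · obtain ⟨h, hh, hx⟩ := ih (n / 2) (- x.2, x.1)
      refine ⟨h * A, mul_mem hh (Subgroup.subset_closure (by simp)), ?_⟩
      rw [← hx, Units.val_mul, ← Matrix.mulVec_mulVec, hA]
      congr 1
      ext i
      fin_cases i <;> simp [Matrix.mulVec, dotProduct, Fin.sum_univ_two]
    · obtain ⟨h, hh, hx⟩ := ih (n / 2) (9 * x.1 + 15 * x.2, -10 * x.1 - 10 * x.2)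
      refine ⟨h * B, mul_mem hh (Subgroup.subset_closure (by simp)), ?_⟩
      rw [← hx, Units.val_mul, ← Matrix.mulVec_mulVec, hB]
      congr 1
      ext i
      fin_cases i <;> simp [Matrix.mulVec, dotProduct, Fin.sum_univ_two, sub_eq_add_neg]

theorem exists_scalar (A B C : Matrix.GeneralLinearGroup (Fin 2) (ZMod 59))
    (hA : (A : Matrix (Fin 2) (Fin 2) (ZMod 59)) = !![0, -1; 1, 0])
    (hC : (C : Matrix (Fin 2) (Fin 2) (ZMod 59)) = !![4, 0; 0, 4]) (k : ℕ)
    (x : ZMod 59 × ZMod 59) : ∃ h ∈ Subgroup.closure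
      ({A, B, C} : Set (Matrix.GeneralLinearGroup (Fin 2) (ZMod 59))),
      (h : Matrix (Fin 2) (Fin 2) (ZMod 59)) *ᵥ ![x.1, x.2] =
        ![((-4) ^ k : ZMod 59) * x.1, ((-4) ^ k : ZMod 59) * x.2] := by
  induction k with
  | zero => exact ⟨1, one_mem _, by simp⟩
  | succ k ih =>
    obtain ⟨h, hh, hx⟩ := ih
    refine ⟨A * (A * (C * h)), mul_mem (Subgroup.subset_closure (by simp))
      (mul_mem (Subgroup.subset_closure (by simp))
        (mul_mem (Subgroup.subset_closure (by simp)) hh)), ?_⟩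
    rw [Units.val_mul, Units.val_mul, Units.val_mul, ← Matrix.mulVec_mulVec,
      ← Matrix.mulVec_mulVec, ← Matrix.mulVec_mulVec, hx, hA, hC]
    ext i
    fin_cases i
    · simp [Matrix.mulVec, dotProduct, Fin.sum_univ_two]; ring
    · simp [Matrix.mulVec, dotProduct, Fin.sum_univ_two]; ring

/-- An exceptional sharply doubly transitive group of degree 59^2: the listed matrices generate a subgroup of GL(2,59) of order 3480 acting regularly on the non-zero vectors. -/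
theorem result (A : Matrix.GeneralLinearGroup (Fin 2) (ZMod 59)) (B : Matrix.GeneralLinearGroup (Fin 2) (ZMod 59)) (C : Matrix.GeneralLinearGroup (Fin 2) (ZMod 59)) (hA : (A : Matrix (Fin 2) (Fin 2) (ZMod 59)) = !![0, -1; 1, 0]) (hB : (B : Matrix (Fin 2) (Fin 2) (ZMod 59)) = !![9, 15; -10, -10]) (hC : (C : Matrix (Fin 2) (Fin 2) (ZMod 59)) = !![4, 0; 0, 4]) : Nat.card (Subgroup.closure ({A, B, C} : Set (Matrix.GeneralLinearGroup (Fin 2) (ZMod 59)))) = 3480 ∧ ∀ v w : Fin 2 → ZMod 59, v ≠ 0 → w ≠ 0 → ∃! h : Subgroup.closure ({A, B, C} : Set (Matrix.GeneralLinearGroup (Fin 2) (ZMod 59))), Matrix.mulVec ((h : Matrix.GeneralLinearGroup (Fin 2) (ZMod 59)) : Matrix (Fin 2) (Fin 2) (ZMod 59)) v = w := by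
  have : Fact (Nat.Prime 59) := ⟨by norm_num⟩
  have hne : ∀ v : Fin 2 → ZMod 59, v ≠ 0 → (v 0, v 1) ≠ ((0 : ZMod 59), (0 : ZMod 59)) := by
    intro v hv h0
    apply hv
    rw [Prod.mk.injEq] at h0
    ext i
    fin_cases i
    · exact h0.1
    · exact h0.2
  have main := Cfsg.Agent.Perm.SharpRegular.regular_of_section
    ({A, B, C} : Set (Matrix.GeneralLinearGroup (Fin 2) (ZMod 59)))
    (fun v => ![(sfun (v 0) (v 1)).1, (sfun (v 0) (v 1)).2]) ?_ ?_ ?_
  · rw [Nat.card_zmod] at main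
    exact main
  · have := sfun_one
    show ![(sfun 1 0).1, (sfun 1 0).2] = _
    rw [this]
  · intro g hg v hv
    simp only [Set.mem_insert_iff, Set.mem_singleton_iff] at hg
    have hv' := hne v hv
    show ![(sfun (((g : Matrix (Fin 2) (Fin 2) (ZMod 59)) *ᵥ v) 0)
        (((g : Matrix (Fin 2) (Fin 2) (ZMod 59)) *ᵥ v) 1)).1,
        (sfun (((g : Matrix (Fin 2) (Fin 2) (ZMod 59)) *ᵥ v) 0)
        (((g : Matrix (Fin 2) (Fin 2) (ZMod 59)) *ᵥ v) 1)).2] = _
    rcases hg with rfl | rfl | rfl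
    · have h0 : ((g : Matrix (Fin 2) (Fin 2) (ZMod 59)) *ᵥ v) 0 = - v 1 := by
        rw [hA]; simp [Matrix.mulVec, dotProduct, Fin.sum_univ_two]
      have h1 : ((g : Matrix (Fin 2) (Fin 2) (ZMod 59)) *ᵥ v) 1 = v 0 := by
        rw [hA]; simp [Matrix.mulVec, dotProduct, Fin.sum_univ_two]
      rw [h0, h1, sfun_A _ _ hv', hA]
      ext i
      fin_cases i <;> simp [Matrix.mulVec, dotProduct, Fin.sum_univ_two]
    · have h0 : ((g : Matrix (Fin 2) (Fin 2) (ZMod 59)) *ᵥ v) 0 = 9 * v 0 + 15 * v 1 := by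
        rw [hB]; simp [Matrix.mulVec, dotProduct, Fin.sum_univ_two]
      have h1 : ((g : Matrix (Fin 2) (Fin 2) (ZMod 59)) *ᵥ v) 1 = -10 * v 0 - 10 * v 1 := by
        rw [hB]; simp [Matrix.mulVec, dotProduct, Fin.sum_univ_two, sub_eq_add_neg]
      rw [h0, h1, sfun_B _ _ hv', hB]
      ext i
      fin_cases i <;> simp [Matrix.mulVec, dotProduct, Fin.sum_univ_two, sub_eq_add_neg]
    · have h0 : ((g : Matrix (Fin 2) (Fin 2) (ZMod 59)) *ᵥ v) 0 = 4 * v 0 := by
        rw [hC]; simp [Matrix.mulVec, dotProduct, Fin.sum_univ_two]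
      have h1 : ((g : Matrix (Fin 2) (Fin 2) (ZMod 59)) *ᵥ v) 1 = 4 * v 1 := by
        rw [hC]; simp [Matrix.mulVec, dotProduct, Fin.sum_univ_two]
      rw [h0, h1, sfun_C _ _ hv', hC]
      ext i
      fin_cases i <;> simp [Matrix.mulVec, dotProduct, Fin.sum_univ_two]
  · intro v hv
    obtain ⟨h, hh, hx⟩ := exists_word A B C hA hB 14 (wtab.getD (idx (v 0) (v 1)) 0) (1, 0)
    obtain ⟨k, hk, hy⟩ := exists_scalar A B C hA hC (expo (v 0) (v 1))
      (act 14 (wtab.getD (idx (v 0) (v 1)) 0) (1, 0))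
    refine ⟨k * h, mul_mem hk hh, ?_⟩
    have hs := act_spec _ _ (hne v hv)
    rw [Prod.mk.injEq] at hs
    rw [hs.1, hs.2] at hy
    rw [Units.val_mul, ← Matrix.mulVec_mulVec]
    change (h : Matrix (Fin 2) (Fin 2) (ZMod 59)) *ᵥ ![1, 0] = _ at hx
    rw [hx, hy]
    ext i
    fin_cases i <;> rfl

end Cfsg.Agent.S0693
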