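import Mathlib
import Cfsg.Statements.S0694
set_option linter.all false

set_option autoImplicit false
open Cfsg

namespace Cfsg.Agent.S0694

/-- the repunit sum `1 + q + ... + q^(k-1)`. -/
def repSum (q k : ℕ) : ℕ := ∑ i ∈ Finset.range k, q ^ i

theorem repSum_def (q k : ℕ) : repSum q k = ∑ i ∈ Finset.range k, q ^ i := rfl

theorem repSum_succ (q k : ℕ) : repSum q (k + 1) = repSum q k + q ^ k := by
  rw [repSum_def, repSum_def, Finset.sum_range_succ]

theorem repSum_zero (q : ℕ) : repSum q 0 = 0 := by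
  rw [repSum_def, Finset.sum_range_zero]

theorem repSum_add (q a b : ℕ) : repSum q (a + b) = repSum q a + q ^ a * repSum q b := by
  induction b with
  | zero => simp [repSum_zero]
  | succ b ih => rw [← add_assoc, repSum_succ, repSum_succ, ih, mul_add, pow_add, add_assoc]

theorem repSum_mul (q k : ℕ) (hq : 1 < q) : (q - 1) * repSum q k = q ^ k - 1 := by
  rw [repSum_def, mul_comm]
  have h1 : 1 ≤ q := hq.le
  have h2 : 1 ≤ q ^ k := Nat.one_le_pow k q (by omega)
  zify [h1, h2]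
  exact geom_sum_mul (q : ℤ) k

theorem modEq_iff (q n i : ℕ) (hq : 1 < q) :
    q ^ i ≡ 1 [MOD n * (q - 1)] ↔ n ∣ repSum q i := by
  have h1 : 1 ≤ q ^ i := Nat.one_le_pow i q (by omega)
  have hpos : 0 < q - 1 := by omega
  rw [Nat.ModEq.comm, Nat.modEq_iff_dvd' h1, ← repSum_mul q i hq, mul_comm (q - 1)]
  exact Nat.mul_dvd_mul_iff_right hpos

/-- key valuation statement -/
theorem emult_eq (q i p : ℕ) (hq : 1 < q) (hp : p.Prime)
    (h : emultiplicity (p : ℤ) ((q : ℤ) ^ i - 1 ^ i) =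
      emultiplicity (p : ℤ) ((q : ℤ) - 1) + emultiplicity (p : ℤ) (i : ℤ)) :
    emultiplicity (p : ℤ) (repSum q i : ℤ) = emultiplicity (p : ℤ) (i : ℤ) := by
  have hmul : ((q : ℤ) ^ i - 1 ^ i) = ((q : ℤ) - 1) * (repSum q i : ℤ) := by
    rw [repSum_def, one_pow]
    push_cast
    rw [mul_comm, geom_sum_mul]
  rw [hmul, emultiplicity_mul (Nat.prime_iff_prime_int.mp hp)] at h
  have hfin : emultiplicity (p : ℤ) ((q : ℤ) - 1) ≠ ⊤ := by
    rw [← finiteMultiplicity_iff_emultiplicity_ne_top, Int.finiteMultiplicity_iff]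
    refine ⟨?_, ?_⟩
    · simpa using hp.one_lt.ne'
    · omega
  exact ENat.add_right_injective_of_ne_top hfin h

theorem pow_dvd_repSum_iff (q i p k : ℕ) (hq : 1 < q) (hp : p.Prime) (hpq : p ∣ q - 1)
    (h4 : p = 2 → 4 ∣ q - 1) : p ^ k ∣ repSum q i ↔ p ^ k ∣ i := by
  have hpq' : (p : ℤ) ∣ (q : ℤ) - 1 := by
    have := Int.natCast_dvd_natCast.mpr hpq
    rwa [Nat.cast_sub hq.le, Nat.cast_one] at this
  have hnd : ¬ (p : ℤ) ∣ (q : ℤ) := by
    intro h
    have : (p : ℤ) ∣ 1 := by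
      have := dvd_sub h hpq'
      simpa using this
    have := Int.natCast_dvd_natCast.mp (by simpa using this : (p : ℤ) ∣ ((1 : ℕ) : ℤ))
    exact hp.one_lt.ne' (Nat.dvd_one.mp this)
  have key : emultiplicity (p : ℤ) (repSum q i : ℤ) = emultiplicity (p : ℤ) (i : ℤ) := by
    apply emult_eq q i p hq hp
    rcases hp.eq_two_or_odd' with h2 | hodd
    · subst h2
      have h4' : (4 : ℤ) ∣ (q : ℤ) - 1 := by
        have := Int.natCast_dvd_natCast.mpr (h4 rfl)
        rwa [Nat.cast_sub hq.le, Nat.cast_one] at this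
      have := Int.two_pow_sub_pow' i h4' (by simpa using hnd)
      simpa using this
    · have := Int.emultiplicity_pow_sub_pow hp hodd (x := (q : ℤ)) (y := 1) hpq' hnd i
      rw [this, Int.natCast_emultiplicity]
  have h1 : (p : ℤ) ^ k ∣ (repSum q i : ℤ) ↔ (p : ℤ) ^ k ∣ (i : ℤ) := by
    rw [pow_dvd_iff_le_emultiplicity, pow_dvd_iff_le_emultiplicity, key]
  rw [← Nat.cast_pow, Int.natCast_dvd_natCast, Int.natCast_dvd_natCast] at h1
  exact h1

theorem two_dvd_repSum_iff (q i : ℕ) (hq : Odd q) : 2 ∣ repSum q i ↔ 2 ∣ i := by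
  rw [← even_iff_two_dvd, ← even_iff_two_dvd]
  induction i with
  | zero => simp [repSum_zero]
  | succ i ih =>
    rw [repSum_succ, Nat.even_add, ih, Nat.even_add_one]
    have : ¬ Even (q ^ i) := Nat.not_even_iff_odd.mpr (hq.pow)
    tauto

theorem forward (q n : ℕ) (hq : 1 < q)
    (hp : ∀ r : ℕ, r.Prime → r ∣ n → r ∣ q - 1) (h4 : 4 ∣ n → 4 ∣ q - 1) (i : ℕ) :
    n ∣ repSum q i ↔ n ∣ i := by
  rw [Nat.dvd_iff_prime_pow_dvd_dvd, Nat.dvd_iff_prime_pow_dvd_dvd]
  refine forall_congr' fun p => forall_congr' fun k => forall_congr' fun hpp =>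
    forall_congr' fun hk => ?_
  rcases Nat.eq_zero_or_pos k with hk0 | hk0
  · subst hk0; simp
  have hpn : p ∣ n := (dvd_pow_self p hk0.ne').trans hk
  have hpq := hp p hpp hpn
  by_cases h2 : p = 2 ∧ ¬ 4 ∣ q - 1
  · obtain ⟨rfl, h4q⟩ := h2
    have h4n : ¬ 4 ∣ n := fun h => h4q (h4 h)
    have hk1 : k = 1 := by
      by_contra hne
      have : 2 ≤ k := by omega
      exact h4n ((pow_dvd_pow 2 this).trans hk)
    subst hk1
    rw [pow_one]
    apply two_dvd_repSum_iff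
    rw [Nat.odd_iff]
    omega
  · apply pow_dvd_repSum_iff q i p k hq hpp hpq
    intro h
    by_contra h'
    exact h2 ⟨h, h'⟩

theorem surj (q n : ℕ) (hn : 1 < n) (hcop : Nat.Coprime q n)
    (h : ∀ i : ℕ, 0 < i → i < n → ¬ n ∣ repSum q i) (c : ZMod n) :
    ∃ k : ℕ, (repSum q k : ZMod n) = c := by
  have : NeZero n := ⟨by omega⟩
  let f : Fin n → ZMod n := fun i => (repSum q i : ZMod n)
  have key : ∀ i j : ℕ, i < j → j < n → (repSum q i : ZMod n) ≠ (repSum q j : ZMod n) := by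
    intro i j hij hj heq
    obtain ⟨d, rfl⟩ := Nat.exists_eq_add_of_lt hij
    rw [add_assoc, repSum_add] at heq
    have h1 : ((q ^ i * repSum q (d + 1) : ℕ) : ZMod n) = 0 := by
      rw [Nat.cast_add] at heq
      exact left_eq_add.mp heq
    rw [ZMod.natCast_eq_zero_iff] at h1
    have h2 : n ∣ repSum q (d + 1) := (Nat.Coprime.dvd_mul_left (hcop.symm.pow_right i)).mp h1
    exact h (d + 1) (by omega) (by omega) h2
  have hinj : Function.Injective f := by
    intro i j hij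
    by_contra hne
    rcases lt_or_gt_of_ne (fun h => hne (Fin.ext h) : (i : ℕ) ≠ j) with hlt | hlt
    · exact key i j hlt j.2 hij
    · exact key j i hlt i.2 hij.symm
  have hsurj : Function.Surjective f :=
    ((Fintype.bijective_iff_injective_and_card f).mpr ⟨hinj, by simp [ZMod.card]⟩).2
  obtain ⟨i, hi⟩ := hsurj c
  exact ⟨i, hi⟩

theorem backward (q n : ℕ) (hq : 1 < q) (hn : 1 < n) (h0 : q ^ n ≡ 1 [MOD n * (q - 1)])
    (h : ∀ i : ℕ, 0 < i → i < n → ¬ n ∣ repSum q i) :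
    (∀ r : ℕ, r.Prime → r ∣ n → r ∣ q - 1) ∧ (4 ∣ n → 4 ∣ q - 1) := by
  have hcop : Nat.Coprime q n := by
    have h1 : q ^ n ≡ 1 [MOD n] := Nat.ModEq.of_mul_right _ h0
    have h2 : Nat.Coprime (q ^ n) n := by
      rw [Nat.Coprime, h1.gcd_eq]
      simp
    exact Nat.Coprime.coprime_dvd_left (dvd_pow_self q (by omega)) h2
  have hs := surj q n hn hcop h
  have hpr : ∀ r : ℕ, r.Prime → r ∣ n → r ∣ q - 1 := by
    intro r hr hrn
    by_contra hnd
    have : Fact r.Prime := ⟨hr⟩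
    have hne : ((q - 1 : ℕ) : ZMod r) ≠ 0 := by
      rwa [Ne, ZMod.natCast_eq_zero_iff]
    obtain ⟨c, hc⟩ : ∃ c : ℕ, ((q - 1 : ℕ) : ZMod r) * (c : ZMod r) = -1 := by
      refine ⟨(-1 / ((q - 1 : ℕ) : ZMod r)).val, ?_⟩
      rw [ZMod.natCast_val, ZMod.cast_id']
      simp only [id]
      field_simp
    obtain ⟨k, hk⟩ := hs (c : ZMod n)
    have hk' : (repSum q k : ZMod r) = (c : ZMod r) := by
      have := congrArg (ZMod.castHom hrn (ZMod r)) hk
      simpa using this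
    have h1 : ((q ^ k : ℕ) : ZMod r) = 0 := by
      have h2 : q ^ k = (q - 1) * repSum q k + 1 := by
        rw [repSum_mul q k hq]
        have : 1 ≤ q ^ k := Nat.one_le_pow k q (by omega)
        omega
      rw [h2]
      push_cast
      rw [hk', hc]
      ring
    rw [ZMod.natCast_eq_zero_iff] at h1
    have h3 : r ∣ q := hr.dvd_of_dvd_pow h1
    have h4 : r ∣ Nat.gcd q n := Nat.dvd_gcd h3 hrn
    rw [hcop] at h4
    exact hr.one_lt.ne' (Nat.dvd_one.mp h4)
  refine ⟨hpr, ?_⟩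
  intro h4n
  have h2 : 2 ∣ q - 1 := hpr 2 Nat.prime_two ((by norm_num : (2 : ℕ) ∣ 4).trans h4n)
  by_contra h4q
  have hq3 : (q : ZMod 4) = -1 := by
    have : q % 4 = 3 := by omega
    have h5 : (q : ZMod 4) = ((3 : ℕ) : ZMod 4) := by
      rw [ZMod.natCast_eq_natCast_iff]
      exact this
    rw [h5]
    decide
  obtain ⟨k, hk⟩ := hs ((2 : ℕ) : ZMod n)
  have hk' : (repSum q k : ZMod 4) = 2 := by
    have := congrArg (ZMod.castHom h4n (ZMod 4)) hk
    rw [map_natCast, map_natCast] at this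
    exact this
  rw [repSum_def] at hk'
  push_cast at hk'
  rw [hq3, neg_one_geom_sum] at hk'
  split_ifs at hk'
  · exact absurd hk' (by decide)
  · exact absurd hk' (by decide)

/-- The Dickson pair condition: for a prime power `q` and `n > 1`, (every prime factor of `n` divides `q - 1`, and `4 ∣ n → 4 ∣ q - 1`) holds exactly when `q ^ n ≡ 1` modulo `n * (q - 1)` but `q ^ i` is not, for `0 < i < n`. -/
theorem result (q n : ℕ) (hq : IsPrimePow q) (hn : 1 < n) : ((∀ r : ℕ, r.Prime → r ∣ n → r ∣ q - 1) ∧ (4 ∣ n → 4 ∣ q - 1)) ↔ (q ^ n ≡ 1 [MOD n * (q - 1)] ∧ ∀ i : ℕ, 0 < i → i < n → ¬ q ^ i ≡ 1 [MOD n * (q - 1)]) := by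
  have hq1 : 1 < q := hq.one_lt
  constructor
  · rintro ⟨hp, h4⟩
    refine ⟨?_, ?_⟩
    · rw [modEq_iff q n n hq1, forward q n hq1 hp h4]
    · intro i hi hin
      rw [modEq_iff q n i hq1, forward q n hq1 hp h4]
      exact fun hd => absurd (Nat.le_of_dvd hi hd) (by omega)
  · rintro ⟨h0, h⟩
    refine backward q n hq1 hn h0 ?_
    intro i hi hin
    rw [← modEq_iff q n i hq1]
    exact h i hi hin

end Cfsg.Agent.S0694
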