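import Mathlib
import Cfsg.Statements.S0695
import Cfsg.Agent.PermutationGroups.RegularNormal
set_option linter.all false

set_option autoImplicit false
open Cfsg

namespace Cfsg.Agent.S0695

open MulAction SubMulAction Cfsg.Agent.PermutationGroups.RegularNormal

theorem sq_eq_one_or {G : Type*} [Group G] {X : Type*} [Fintype X] [MulAction G X]
    (h2 : MulAction.IsMultiplyPreprimitive G X 2) (N : Subgroup G) [N.Normal]
    (hreg : ∀ x : X, MulAction.stabilizer N x = ⊥) (x : X) {n : G} (hn : n ∈ N) :
    n ^ 2 = 1 ∨ Fintype.card X = 3 := by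
  classical
  by_cases hsq : n ^ 2 = 1
  · exact Or.inl hsq
  right
  have hn1 : n ≠ 1 := by
    rintro rfl
    exact hsq (one_pow 2)
  have hninv : n ≠ n⁻¹ := by
    intro h
    apply hsq
    rw [sq]
    nth_rewrite 2 [h]
    exact mul_inv_cancel n
  have hx1 : n • x ≠ x := by
    intro h
    exact hn1 (eq_of_smul_eq hreg hn N.one_mem (x := x) (by rw [h, one_smul]))
  have hx2 : n⁻¹ • x ≠ x := by
    intro h
    exact hx1 (by rw [eq_comm, ← inv_smul_eq_iff, h])
  have hx3 : n • x ≠ n⁻¹ • x := by
    intro h
    exact hninv (eq_of_smul_eq hreg hn (N.inv_mem hn) h)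
  have hprim : IsPreprimitive (fixingSubgroup G ({x} : Set X))
      (ofFixingSubgroup G ({x} : Set X)) :=
    h2.isPreprimitive_ofFixingSubgroup (by rw [Set.encard_singleton]; norm_num)
  rcases hprim.isTrivialBlock_of_isBlock (isBlock_inv hreg x hn) with hs | hu
  · exfalso
    have hm1 : n • x ∈ ofFixingSubgroup G ({x} : Set X) := hx1
    have hm2 : n⁻¹ • x ∈ ofFixingSubgroup G ({x} : Set X) := hx2
    have := @hs ⟨n • x, hm1⟩ (Or.inl rfl) ⟨n⁻¹ • x, hm2⟩ (Or.inr rfl)
    exact hx3 (congrArg Subtype.val this)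
  · have huniv : (Finset.univ : Finset X) = {x, n • x, n⁻¹ • x} := by
      ext y
      simp only [Finset.mem_univ, Finset.mem_insert, Finset.mem_singleton, true_iff]
      by_cases hy : y = x
      · exact Or.inl hy
      · right
        have hy' : y ∈ ofFixingSubgroup G ({x} : Set X) := hy
        have : (⟨y, hy'⟩ : ofFixingSubgroup G ({x} : Set X)) ∈
            (Set.univ : Set (ofFixingSubgroup G ({x} : Set X))) := Set.mem_univ _
        rw [← hu] at this
        exact this
    rw [← Finset.card_univ, huniv, Finset.card_insert_of_notMem, Finset.card_insert_of_notMem,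
      Finset.card_singleton]
    · simpa using hx3
    · simp only [Finset.mem_insert, Finset.mem_singleton, not_or]
      exact ⟨hx1.symm, hx2.symm⟩

/-- A regular normal subgroup of a doubly primitive group of finite degree at least 2 is an elementary abelian 2-group (and the degree is a power of 2), unless the degree is 3. -/
theorem result {G : Type*} [Group G] {X : Type*} [Fintype X] [MulAction G X] (hX : 2 ≤ Fintype.card X) (h2 : MulAction.IsMultiplyPreprimitive G X 2) (N : Subgroup G) [N.Normal] (htrans : MulAction.IsPretransitive N X) (hreg : ∀ x : X, MulAction.stabilizer N x = ⊥) : Fintype.card X = 3 ∨ (IsMulCommutative N ∧ (∀ n ∈ N, n ^ 2 = 1) ∧ ∃ m : ℕ, Fintype.card X = 2 ^ m) := by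
  classical
  obtain ⟨x⟩ : Nonempty X := by
    rw [← Fintype.card_pos_iff]
    omega
  by_cases h3 : Fintype.card X = 3
  · exact Or.inl h3
  right
  have hsq : ∀ n ∈ N, n ^ 2 = 1 := fun n hn => (sq_eq_one_or h2 N hreg x hn).resolve_right h3
  refine ⟨⟨⟨?_⟩⟩, hsq, ?_⟩
  · rintro ⟨a, ha⟩ ⟨b, hb⟩
    apply Subtype.ext
    change a * b = b * a
    have hab := hsq (a * b) (N.mul_mem ha hb)
    have h1 := hsq a ha
    have h2 := hsq b hb
    have e1 : a⁻¹ = a := inv_eq_of_mul_eq_one_left (by rw [← sq, h1])
    have e2 : b⁻¹ = b := inv_eq_of_mul_eq_one_left (by rw [← sq, h2])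
    have e3 : (a * b)⁻¹ = a * b := inv_eq_of_mul_eq_one_left (by rw [← sq, hab])
    rw [← e3, mul_inv_rev, e1, e2]
  · have hcard := card_eq htrans hreg x
    rw [← Nat.card_eq_fintype_card, ← hcard]
    have hfin : Finite N := by
      apply Nat.finite_of_card_ne_zero
      rw [hcard, Nat.card_eq_fintype_card]
      omega
    have hp : IsPGroup 2 N := by
      intro n
      refine ⟨1, ?_⟩
      apply Subtype.ext
      rw [pow_one]
      exact hsq n n.2
    exact IsPGroup.iff_card.mp hp

end Cfsg.Agent.S0695
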