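import Mathlib
import Cfsg.Statements.S0696
import Cfsg.Agent.PermutationGroups.RegularNormal
import Cfsg.Agent.S0695
set_option linter.all false

set_option autoImplicit false
open Cfsg

namespace Cfsg.Agent.S0696

open MulAction SubMulAction Cfsg.Agent.PermutationGroups.RegularNormal

/-- A triply primitive group of degree at least 3 having a regular normal subgroup has degree 3 or 4. -/
theorem result {G : Type*} [Group G] {X : Type*} [Fintype X] [MulAction G X] (hX : 3 ≤ Fintype.card X) (h3 : MulAction.IsMultiplyPreprimitive G X 3) (N : Subgroup G) [N.Normal] (htrans : MulAction.IsPretransitive N X) (hreg : ∀ x : X, MulAction.stabilizer N x = ⊥) : Fintype.card X = 3 ∨ Fintype.card X = 4 := by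
  classical
  have h2 : IsMultiplyPreprimitive G X 2 :=
    isMultiplyPreprimitive_of_le G X h3 (by norm_num) (by
      rw [ENat.card_eq_coe_fintype_card]
      exact_mod_cast hX)
  rcases Cfsg.Agent.S0695.result (by omega) h2 N htrans hreg with h | ⟨-, hsq, -⟩
  · exact Or.inl h
  right
  obtain ⟨x, x', hxx'⟩ : ∃ x x' : X, x ≠ x' := by
    have : Nontrivial X := Fintype.one_lt_card_iff_nontrivial.mp (by omega)
    exact exists_pair_ne X
  obtain ⟨n, hn, hnx⟩ := Cfsg.Agent.PermutationGroups.RegularNormal.exists_smul_eq htrans x x'
  obtain ⟨x'', hx''⟩ : ∃ x'' : X, x'' ∉ ({x, x'} : Finset X) := by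
    by_contra hcon
    push Not at hcon
    have : (Finset.univ : Finset X) ⊆ {x, x'} := fun y _ => hcon y
    have h1 := Finset.card_le_card this
    rw [Finset.card_univ] at h1
    have h4 := Finset.card_le_two (a := x) (b := x')
    omega
  simp only [Finset.mem_insert, Finset.mem_singleton, not_or] at hx''
  obtain ⟨m, hm, hmx⟩ := Cfsg.Agent.PermutationGroups.RegularNormal.exists_smul_eq htrans x x''
  have hnn : n * n = 1 := by rw [← sq]; exact hsq n hn
  subst hnx
  subst hmx
  have a1 : (n * m) • x ≠ x := by
    intro h
    have h5 : n * m = n * n := by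
      rw [hnn]
      exact eq_of_smul_eq hreg (N.mul_mem hn hm) N.one_mem (x := x) (by rw [h, one_smul])
    exact hx''.2 (by rw [mul_left_cancel h5])
  have a2 : (n * m) • x ≠ n • x := by
    intro h
    rw [mul_smul] at h
    exact hx''.1 (smul_left_cancel n h)
  have a3 : m • x ≠ (n * m) • x := by
    intro h
    have h5 : n * m = 1 * m := by
      rw [one_mul]
      exact (eq_of_smul_eq hreg hm (N.mul_mem hn hm) h).symm
    have h6 := mul_right_cancel h5
    exact hxx' (by rw [h6, one_smul])
  have hprim : IsPreprimitive (fixingSubgroup G ({x, n • x} : Set X))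
      (ofFixingSubgroup G ({x, n • x} : Set X)) :=
    h3.isPreprimitive_ofFixingSubgroup (by rw [Set.encard_pair hxx']; norm_num)
  rcases hprim.isTrivialBlock_of_isBlock (isBlock_coset hreg x hn hm hnn) with hs | hu
  · exfalso
    have hm1 : m • x ∈ ofFixingSubgroup G ({x, n • x} : Set X) := by
      rw [mem_ofFixingSubgroup_iff]
      simp only [Set.mem_insert_iff, Set.mem_singleton_iff, not_or]
      exact hx''
    have hm2 : (n * m) • x ∈ ofFixingSubgroup G ({x, n • x} : Set X) := by
      rw [mem_ofFixingSubgroup_iff]
      simp only [Set.mem_insert_iff, Set.mem_singleton_iff, not_or]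
      exact ⟨a1, a2⟩
    have := @hs ⟨m • x, hm1⟩ (Or.inl rfl) ⟨(n * m) • x, hm2⟩ (Or.inr rfl)
    exact a3 (congrArg Subtype.val this)
  · have huniv : (Finset.univ : Finset X) = {x, n • x, m • x, (n * m) • x} := by
      ext y
      simp only [Finset.mem_univ, Finset.mem_insert, Finset.mem_singleton, true_iff]
      by_cases hy : y = x
      · exact Or.inl hy
      · right
        by_cases hy2 : y = n • x
        · exact Or.inl hy2
        · right
          have hy' : y ∈ ofFixingSubgroup G ({x, n • x} : Set X) := by
            rw [mem_ofFixingSubgroup_iff]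
            simp only [Set.mem_insert_iff, Set.mem_singleton_iff, not_or]
            exact ⟨hy, hy2⟩
          have : (⟨y, hy'⟩ : ofFixingSubgroup G ({x, n • x} : Set X)) ∈
              (Set.univ : Set (ofFixingSubgroup G ({x, n • x} : Set X))) := Set.mem_univ _
          rw [← hu] at this
          exact this
    rw [← Finset.card_univ, huniv, Finset.card_insert_of_notMem, Finset.card_insert_of_notMem,
      Finset.card_insert_of_notMem, Finset.card_singleton]
    · simpa using a3
    · simp only [Finset.mem_insert, Finset.mem_singleton, not_or]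
      exact ⟨(Ne.symm hx''.2), a2.symm⟩
    · simp only [Finset.mem_insert, Finset.mem_singleton, not_or]
      exact ⟨hxx', Ne.symm hx''.1, a1.symm⟩

end Cfsg.Agent.S0696
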