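import Cfsg.Statements.S0697
import Cfsg.Agent.PermutationGroups.JordanNormal
set_option linter.all false

set_option autoImplicit false
open Cfsg

namespace Cfsg.Agent.S0697

open Cfsg.Agent.PermutationGroups.JordanNormal in
/-- In a `k`-primitive permutation group which is not the whole symmetric group, a non-trivial non-regular normal subgroup is `k`-transitive. -/
theorem result {α : Type*} [Fintype α] [DecidableEq α] (G : Subgroup (Equiv.Perm α)) {k : ℕ} (hk : 1 ≤ k) (hkn : k ≤ Fintype.card α) (hG : MulAction.IsMultiplyPreprimitive G α k) (htop : G ≠ ⊤) (H : Subgroup G) [H.Normal] (hH : H ≠ ⊥) (hnr : ∃ a : α, MulAction.stabilizer H a ≠ ⊥) : MulAction.IsMultiplyPretransitive H α k := by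
  have hcard : Nat.card α = Fintype.card α := Nat.card_eq_fintype_card
  have hGk : MulAction.IsMultiplyPretransitive G α k := hG.isMultiplyPretransitive
  by_cases hk2 : k + 2 ≤ Nat.card α
  · apply normal_multiplyTransitive k hk hk2 hG H
    obtain ⟨a, ha⟩ := hnr
    obtain ⟨n, hn2⟩ := Subgroup.ne_bot_iff_exists_ne_one.mp ha
    refine ⟨((n : H) : G), (n : H).2, ⟨a, n.2⟩, ?_⟩
    by_contra hcon
    push Not at hcon
    apply hn2
    apply Subtype.ext
    apply Subtype.ext
    apply Subtype.ext
    apply Equiv.ext
    intro x
    exact hcon x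
  · exfalso
    apply htop
    apply Equiv.Perm.eq_top_of_isMultiplyPretransitive
    exact MulAction.isMultiplyPretransitive_of_le (n := k) (by omega) (by omega)

end Cfsg.Agent.S0697
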