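import Cfsg.Statements.S0701
import Mathlib.Tactic
set_option linter.all false
-- import your own Cfsg.Agent.* helpers here

set_option autoImplicit false
open Cfsg

namespace Cfsg.Agent.S0701

/-- The centraliser in the full symmetric group of a transitive permutation group `G` is semiregular, and it is transitive if and only if `G` is regular. -/
theorem result {α : Type*} (G : Subgroup (Equiv.Perm α)) [MulAction.IsPretransitive G α] : (∀ c ∈ Subgroup.centralizer (G : Set (Equiv.Perm α)), ∀ a : α, c a = a → c = 1) ∧ (MulAction.IsPretransitive (Subgroup.centralizer (G : Set (Equiv.Perm α))) α ↔ ∀ a : α, MulAction.stabilizer G a = ⊥) := by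
  have hcomm : ∀ c ∈ Subgroup.centralizer (G : Set (Equiv.Perm α)), ∀ g ∈ G, ∀ x : α,
      c (g x) = g (c x) := by
    intro c hc g hg x
    have := Subgroup.mem_centralizer_iff.mp hc g hg
    have h2 := congrArg (fun e : Equiv.Perm α => e x) this
    simpa [Equiv.Perm.mul_apply] using h2.symm
  have htr : ∀ x y : α, ∃ g ∈ G, g x = y := by
    intro x y
    obtain ⟨g, hg⟩ := MulAction.exists_smul_eq G x y
    exact ⟨g.1, g.2, hg⟩
  refine ⟨?_, ?_, ?_⟩
  · intro c hc a hca
    ext b
    obtain ⟨g, hg, rfl⟩ := htr a b
    rw [hcomm c hc g hg, hca]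
    simp
  · intro hC a
    rw [eq_bot_iff]
    rintro ⟨g, hg⟩ hga
    rw [MulAction.mem_stabilizer_iff] at hga
    have hga' : g a = a := hga
    rw [Subgroup.mem_bot]
    ext b
    obtain ⟨⟨c, hc⟩, hcb⟩ := MulAction.exists_smul_eq (Subgroup.centralizer (G : Set (Equiv.Perm α))) a b
    have hcb' : c a = b := hcb
    change g b = b
    rw [← hcb', ← hcomm c hc g hg, hga']
  · intro hreg
    -- uniqueness
    have huniq : ∀ a : α, ∀ g ∈ G, ∀ h ∈ G, g a = h a → g = h := by
      intro a g hg h hh hgh
      have h1 : (⟨h⁻¹ * g, G.mul_mem (G.inv_mem hh) hg⟩ : G) ∈ MulAction.stabilizer G a := by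
        rw [MulAction.mem_stabilizer_iff]
        change (h⁻¹ * g) a = a
        rw [Equiv.Perm.mul_apply, hgh]
        simp
      rw [hreg a, Subgroup.mem_bot] at h1
      have h2 : h⁻¹ * g = 1 := congrArg Subtype.val h1
      exact (inv_mul_eq_one.mp h2).symm
    choose φ hφG hφ using htr
    -- φ x y ∈ G with φ x y x = y
    have key : ∀ a b x : α, ∀ g ∈ G, φ a (g x) b = g (φ a x b) := by
      intro a b x g hg
      have : φ a (g x) = g * φ a x := by
        apply huniq a _ (hφG _ _) _ (G.mul_mem hg (hφG _ _))
        rw [hφ, Equiv.Perm.mul_apply, hφ]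
      rw [this, Equiv.Perm.mul_apply]
    have inv : ∀ a b x : α, φ b (φ a x b) a = x := by
      intro a b x
      have : φ b (φ a x b) = φ a x := by
        apply huniq b _ (hφG _ _) _ (hφG _ _)
        rw [hφ]
      rw [this, hφ]
    refine ⟨fun a b => ?_⟩
    let c : Equiv.Perm α :=
      { toFun := fun x => φ a x b
        invFun := fun x => φ b x a
        left_inv := fun x => inv a b x
        right_inv := fun x => inv b a x }
    have hc : c ∈ Subgroup.centralizer (G : Set (Equiv.Perm α)) := by
      rw [Subgroup.mem_centralizer_iff]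
      intro g hg
      ext x
      rw [Equiv.Perm.mul_apply, Equiv.Perm.mul_apply]
      exact (key a b x g hg).symm
    refine ⟨⟨c, hc⟩, ?_⟩
    change φ a a b = b
    have : φ a a = 1 := by
      apply huniq a _ (hφG _ _) _ G.one_mem
      rw [hφ]; simp
    rw [this]; simp

end Cfsg.Agent.S0701
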