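import Mathlib
import Cfsg.Statements.S0702
set_option linter.all false

set_option autoImplicit false
open Cfsg

namespace Cfsg.Agent.S0702

section
variable {α : Type*} (G : Subgroup (Equiv.Perm α)) [MulAction.IsPretransitive G α] (a : α)

/-- A chosen element of `G` moving `a` to `x`. -/
noncomputable def rep (x : α) : G := (MulAction.exists_smul_eq G a x).choose

theorem rep_smul (x : α) : rep G a x • a = x := (MulAction.exists_smul_eq G a x).choose_spec

/-- The right multiplication map `g a ↦ g n⁻¹ a`. -/
noncomputable def rmap (n : G) (x : α) : α := (rep G a x * n⁻¹) • a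

theorem rmap_smul (n : G)
    (hn : n ∈ Subgroup.normalizer ((MulAction.stabilizer G a : Subgroup G) : Set G)) (g : G) :
    rmap G a n (g • a) = (g * n⁻¹) • a := by
  have h1 : g⁻¹ * rep G a (g • a) ∈ MulAction.stabilizer G a := by
    rw [MulAction.mem_stabilizer_iff, mul_smul, rep_smul, inv_smul_smul]
  have h2 := (Subgroup.mem_normalizer_iff.mp hn _).mp h1
  rw [MulAction.mem_stabilizer_iff] at h2
  have h3 : (rep G a (g • a) * n⁻¹)
      = (g * n⁻¹) * (n * (g⁻¹ * rep G a (g • a)) * n⁻¹) := by group
  show (rep G a (g • a) * n⁻¹) • a = _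
  rw [h3, mul_smul, h2]

theorem rmap_comp (n m : G)
    (hn : n ∈ Subgroup.normalizer ((MulAction.stabilizer G a : Subgroup G) : Set G))
    (hm : m ∈ Subgroup.normalizer ((MulAction.stabilizer G a : Subgroup G) : Set G)) (x : α) :
    rmap G a n (rmap G a m x) = rmap G a (n * m) x := by
  obtain ⟨g, rfl⟩ := MulAction.exists_smul_eq G a x
  rw [rmap_smul G a m hm, rmap_smul G a n hn, rmap_smul G a (n * m) (mul_mem hn hm)]
  rw [mul_inv_rev, mul_assoc]

theorem rmap_one (x : α) : rmap G a 1 x = x := by
  obtain ⟨g, rfl⟩ := MulAction.exists_smul_eq G a x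
  rw [rmap_smul G a 1 (one_mem _), inv_one, mul_one]

/-- The permutation attached to an element of the normalizer of the stabilizer. -/
noncomputable def rperm
    (n : Subgroup.normalizer ((MulAction.stabilizer G a : Subgroup G) : Set G)) :
    Equiv.Perm α where
  toFun := rmap G a n
  invFun := rmap G a (n⁻¹ : G)
  left_inv x := by
    rw [rmap_comp G a _ _ (inv_mem n.2) n.2, inv_mul_cancel, rmap_one]
  right_inv x := by
    rw [rmap_comp G a _ _ n.2 (inv_mem n.2), mul_inv_cancel, rmap_one]

theorem rperm_apply
    (n : Subgroup.normalizer ((MulAction.stabilizer G a : Subgroup G) : Set G)) (g : G) :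
    rperm G a n (g • a) = (g * (n : G)⁻¹) • a := rmap_smul G a n n.2 g

theorem rperm_mem
    (n : Subgroup.normalizer ((MulAction.stabilizer G a : Subgroup G) : Set G)) :
    rperm G a n ∈ Subgroup.centralizer (G : Set (Equiv.Perm α)) := by
  rw [Subgroup.mem_centralizer_iff]
  intro h hh
  ext x
  obtain ⟨g, rfl⟩ := MulAction.exists_smul_eq G a x
  have e1 : h (rperm G a n (g • a)) = (⟨h, hh⟩ * g * (n : G)⁻¹ : G) • a := by
    rw [rperm_apply, mul_assoc, mul_smul _ _ a]; rfl
  have e2 : rperm G a n (h (g • a)) = (⟨h, hh⟩ * g * (n : G)⁻¹ : G) • a := by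
    rw [← rperm_apply, mul_smul]; rfl
  rw [Equiv.Perm.mul_apply, Equiv.Perm.mul_apply, e1, e2]

/-- The homomorphism from the normalizer of the stabilizer to the centralizer. -/
noncomputable def rhom :
    Subgroup.normalizer ((MulAction.stabilizer G a : Subgroup G) : Set G) →*
      Subgroup.centralizer (G : Set (Equiv.Perm α)) where
  toFun n := ⟨rperm G a n, rperm_mem G a n⟩
  map_one' := by
    ext x
    exact rmap_one G a x
  map_mul' n m := by
    ext x
    exact (rmap_comp G a n m n.2 m.2 x).symm

theorem rhom_ker : (rhom G a).ker = (MulAction.stabilizer G a).subgroupOf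
    (Subgroup.normalizer ((MulAction.stabilizer G a : Subgroup G) : Set G)) := by
  ext n
  rw [MonoidHom.mem_ker, Subgroup.mem_subgroupOf, MulAction.mem_stabilizer_iff]
  constructor
  · intro h
    have h1 : rperm G a n ((n : G) • a) = (n : G) • a := by
      have : rperm G a n = 1 := congrArg Subtype.val h
      rw [this]; rfl
    rw [rperm_apply, mul_inv_cancel, one_smul] at h1
    exact h1.symm
  · intro h
    ext x
    obtain ⟨g, rfl⟩ := MulAction.exists_smul_eq G a x
    show rperm G a n (g • a) = g • a
    rw [rperm_apply, mul_smul]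
    congr 1
    rw [inv_smul_eq_iff, h]

theorem centralizer_smul_smul (c : Equiv.Perm α)
    (hc : c ∈ Subgroup.centralizer (G : Set (Equiv.Perm α))) (g : G) (x : α) :
    c (g • x) = g • c x := by
  rw [Subgroup.mem_centralizer_iff] at hc
  have := hc g g.2
  exact (congrArg (fun f : Equiv.Perm α => f x) this).symm

theorem mem_normalizer_of_smul_mem_fixed (n : G) [Finite α]
    (h : n⁻¹ • a ∈ MulAction.fixedPoints (MulAction.stabilizer G a) α) :
    n ∈ Subgroup.normalizer ((MulAction.stabilizer G a : Subgroup G) : Set G) := by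
  have hfin : Finite G := inferInstance
  rw [Subgroup.mem_normalizer_iff_map_conj_eq]
  apply Subgroup.eq_of_le_of_card_ge
  · intro y hy
    obtain ⟨x, hx, rfl⟩ := Subgroup.mem_map.mp hy
    have h1 : (x : G) • (n⁻¹ • a) = n⁻¹ • a := h ⟨x, hx⟩
    rw [MulAction.mem_stabilizer_iff]
    show (n * x * n⁻¹) • a = a
    rw [mul_smul, mul_smul, h1, smul_inv_smul]
  · exact (Subgroup.card_map_of_injective (MulAut.conj n).injective).ge

theorem exists_of_fixed [Finite α] (x : α)
    (hx : x ∈ MulAction.fixedPoints (MulAction.stabilizer G a) α) :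
    ∃ n : Subgroup.normalizer ((MulAction.stabilizer G a : Subgroup G) : Set G),
      rperm G a n a = x := by
  obtain ⟨g, rfl⟩ := MulAction.exists_smul_eq G a x
  have hg : g⁻¹ ∈ Subgroup.normalizer ((MulAction.stabilizer G a : Subgroup G) : Set G) := by
    apply mem_normalizer_of_smul_mem_fixed
    rwa [inv_inv]
  refine ⟨⟨g⁻¹, hg⟩, ?_⟩
  have := rperm_apply G a ⟨g⁻¹, hg⟩ 1
  rw [one_smul] at this
  rw [this]
  simp

theorem fixed_of_centralizer (c : Equiv.Perm α)
    (hc : c ∈ Subgroup.centralizer (G : Set (Equiv.Perm α))) :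
    c a ∈ MulAction.fixedPoints (MulAction.stabilizer G a) α := by
  intro s
  have h1 : (s : G) • a = a := s.2
  have := centralizer_smul_smul G c hc s a
  rw [h1] at this
  exact this.symm

theorem centralizer_ext (c d : Equiv.Perm α)
    (hc : c ∈ Subgroup.centralizer (G : Set (Equiv.Perm α)))
    (hd : d ∈ Subgroup.centralizer (G : Set (Equiv.Perm α))) (h : c a = d a) : c = d := by
  ext x
  obtain ⟨g, rfl⟩ := MulAction.exists_smul_eq G a x
  rw [centralizer_smul_smul G c hc, centralizer_smul_smul G d hd, h]

theorem rhom_surjective [Finite α] : Function.Surjective (rhom G a) := by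
  rintro ⟨c, hc⟩
  obtain ⟨n, hn⟩ := exists_of_fixed G a (c a) (fixed_of_centralizer G a c hc)
  refine ⟨n, Subtype.ext ?_⟩
  exact centralizer_ext G a _ _ (rperm_mem G a n) hc hn

end

/-- For a transitive permutation group `G` on a finite set, the centraliser of `G` in the symmetric group is isomorphic to `N_G(G_ω)/G_ω`, and its orbit of `ω` is the set of fixed points of `G_ω`. -/
theorem result {α : Type*} [Finite α] (G : Subgroup (Equiv.Perm α)) [MulAction.IsPretransitive G α] (a : α) : Nonempty (Subgroup.centralizer (G : Set (Equiv.Perm α)) ≃* Subgroup.normalizer ((MulAction.stabilizer G a : Subgroup G) : Set G) ⧸ (MulAction.stabilizer G a).subgroupOf (Subgroup.normalizer ((MulAction.stabilizer G a : Subgroup G) : Set G))) ∧ MulAction.orbit (Subgroup.centralizer (G : Set (Equiv.Perm α))) a = MulAction.fixedPoints (MulAction.stabilizer G a) α := by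
  constructor
  · exact ⟨((QuotientGroup.quotientMulEquivOfEq (rhom_ker G a).symm).trans
      (QuotientGroup.quotientKerEquivOfSurjective _ (rhom_surjective G a))).symm⟩
  · ext x
    constructor
    · rintro ⟨c, rfl⟩
      exact fixed_of_centralizer G a c.1 c.2
    · intro hx
      obtain ⟨n, hn⟩ := exists_of_fixed G a x hx
      exact ⟨⟨rperm G a n, rperm_mem G a n⟩, hn⟩

end Cfsg.Agent.S0702
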