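import Cfsg.Statements.S0705
import Mathlib
set_option linter.all false

set_option autoImplicit false
open scoped Pointwise
open Cfsg

namespace Cfsg.Agent.S0705

theorem close_move {α : Type*} [Fintype α] [DecidableEq α] (G : Subgroup (Equiv.Perm α)) {k : ℕ}
    (hk : k < Fintype.card α)
    (hgen : ∀ s : Finset α, s.card = k + 1 → ∀ σ : Equiv.Perm ↥s,
      ∃ g ∈ G, ∀ x : ↥s, g (x : α) = σ x) (x y : Fin k ↪ α)
    (hxy : (Finset.univ.map x ∪ Finset.univ.map y).card ≤ k + 1) :
    ∃ g ∈ G, ∀ i, g (x i) = y i := by
  obtain ⟨s, hs, hcard⟩ := Finset.exists_superset_card_eq hxy (by omega : k + 1 ≤ Fintype.card α)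
  have hx : ∀ i, x i ∈ s := fun i => hs (by simp)
  have hy : ∀ i, y i ∈ s := fun i => hs (by simp)
  obtain ⟨σ, hσ⟩ := Equiv.Perm.exists_extending_pair (fun i => (⟨x i, hx i⟩ : s))
    (fun i => (⟨y i, hy i⟩ : s)) (fun i j h => x.injective (congrArg Subtype.val h))
    (fun i j h => y.injective (congrArg Subtype.val h))
  obtain ⟨g, hg, hgs⟩ := hgen s hcard σ
  refine ⟨g, hg, fun i => ?_⟩
  have h1 := hgs ⟨x i, hx i⟩
  rw [hσ i] at h1
  exact h1

theorem move {α : Type*} [Fintype α] [DecidableEq α] (G : Subgroup (Equiv.Perm α)) {k : ℕ}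
    (hk : k < Fintype.card α)
    (hgen : ∀ s : Finset α, s.card = k + 1 → ∀ σ : Equiv.Perm ↥s,
      ∃ g ∈ G, ∀ x : ↥s, g (x : α) = σ x) (n : ℕ) : ∀ (x y : Fin k ↪ α)
    (_ : (Finset.univ.map x \ Finset.univ.map y).card = n),
    ∃ g ∈ G, ∀ i, g (x i) = y i := by
  induction n with
  | zero =>
    intro x y h
    apply close_move G hk hgen
    have h1 : Finset.univ.map x ⊆ Finset.univ.map y := by
      rw [Finset.card_eq_zero] at h
      exact Finset.sdiff_eq_empty_iff_subset.mp h
    rw [Finset.union_eq_right.mpr h1]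
    simp
  | succ n ih =>
    intro x y h
    -- pick a in range x not in range y, b in range y not in range x
    have hne : (Finset.univ.map x \ Finset.univ.map y).Nonempty := by
      rw [← Finset.card_pos]; omega
    have hne' : (Finset.univ.map y \ Finset.univ.map x).Nonempty := by
      rw [← Finset.card_pos]
      have := Finset.card_sdiff_add_card_inter (Finset.univ.map x) (Finset.univ.map y)
      have h2 := Finset.card_sdiff_add_card_inter (Finset.univ.map y) (Finset.univ.map x)
      rw [Finset.inter_comm] at h2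
      simp only [Finset.card_map, Finset.card_univ, Fintype.card_fin] at this h2
      omega
    obtain ⟨a, ha⟩ := hne
    obtain ⟨b, hb⟩ := hne'
    rw [Finset.mem_sdiff] at ha hb
    obtain ⟨hax, hay⟩ := ha
    obtain ⟨hby, hbx⟩ := hb
    rw [Finset.mem_map] at hax
    obtain ⟨i, _, rfl⟩ := hax
    -- new tuple
    have hb' : ∀ j, x j ≠ b := fun j hj => hbx (by rw [← hj]; simp)
    let z : Fin k ↪ α := x.trans (Equiv.swap (x i) b).toEmbedding
    have hzi : z i = b := by simp [z]
    have hzj : ∀ j, j ≠ i → z j = x j := by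
      intro j hj
      have h1 : x j ≠ x i := fun h => hj (x.injective h)
      simp [z, Equiv.swap_apply_of_ne_of_ne h1 (hb' j)]
    have hzr : ∀ c, c ∈ Finset.univ.map z ↔ (c = b ∨ (c ∈ Finset.univ.map x ∧ c ≠ x i)) := by
      intro c
      simp only [Finset.mem_map, Finset.mem_univ, true_and]
      constructor
      · rintro ⟨j, rfl⟩
        by_cases hj : j = i
        · left; rw [hj, hzi]
        · right; rw [hzj j hj]
          exact ⟨⟨j, rfl⟩, fun h => hj (x.injective h)⟩
      · rintro (rfl | ⟨⟨j, rfl⟩, h⟩)
        · exact ⟨i, hzi⟩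
        · exact ⟨j, hzj j (fun h' => h (by rw [h']))⟩
    obtain ⟨g1, hg1, h1⟩ := close_move G hk hgen x z (by
      have hsub : Finset.univ.map x ∪ Finset.univ.map z ⊆ insert b (Finset.univ.map x) := by
        intro c hc
        rw [Finset.mem_union, hzr] at hc
        rw [Finset.mem_insert]
        tauto
      refine (Finset.card_le_card hsub).trans ((Finset.card_insert_le _ _).trans ?_)
      simp)
    obtain ⟨g2, hg2, h2⟩ := ih z y (by
      have : Finset.univ.map z \ Finset.univ.map y =
          (Finset.univ.map x \ Finset.univ.map y).erase (x i) := by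
        ext c
        rw [Finset.mem_sdiff, hzr, Finset.mem_erase, Finset.mem_sdiff]
        constructor
        · rintro ⟨rfl | h, h'⟩
          · exact absurd hby h'
          · exact ⟨h.2, h.1, h'⟩
        · rintro ⟨h1, h2, h3⟩
          exact ⟨Or.inr ⟨h2, h1⟩, h3⟩
      rw [this, Finset.card_erase_of_mem, h]
      · rfl
      · rw [Finset.mem_sdiff]
        exact ⟨by simp, hay⟩)
    refine ⟨g2 * g1, mul_mem hg2 hg1, fun j => ?_⟩
    rw [Equiv.Perm.mul_apply, h1, h2]

/-- A generously `k`-transitive permutation group (every `(k+1)`-subset has its full symmetric group induced by the setwise stabiliser) of degree greater than `k` is `k`-transitive, and for a `k`-subset the setwise and pointwise stabilisers have the same orbits outside it. -/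
theorem result {α : Type*} [Fintype α] [DecidableEq α] (G : Subgroup (Equiv.Perm α)) {k : ℕ} (hk : k < Fintype.card α) (hgen : ∀ s : Finset α, s.card = k + 1 → ∀ σ : Equiv.Perm ↥s, ∃ g ∈ G, ∀ x : ↥s, g (x : α) = σ x) : MulAction.IsMultiplyPretransitive G α k ∧ ∀ s : Finset α, s.card = k → ∀ a b : α, a ∉ s → b ∉ s → (∃ g ∈ G, g • s = s ∧ g a = b) → ∃ g ∈ G, (∀ x ∈ s, g x = x) ∧ g a = b := by
  refine ⟨⟨fun x y => ?_⟩, ?_⟩
  · obtain ⟨g, hg, h⟩ := move G hk hgen _ x y rfl
    exact ⟨⟨g, hg⟩, Function.Embedding.ext fun i => h i⟩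
  · rintro s hs a b ha hb ⟨g, hg, hgs, hab⟩
    have hcard : (insert a s).card = k + 1 := by rw [Finset.card_insert_of_notMem ha, hs]
    have hinv : ∀ x ∈ s, g⁻¹ x ∈ s := by
      intro x hx
      rw [← hgs] at hx
      rw [Finset.mem_smul_finset] at hx
      obtain ⟨y, hy, rfl⟩ := hx
      simpa using hy
    obtain ⟨σ, hσ⟩ := Equiv.Perm.exists_extending_pair
      (fun i : ↥(insert a s) => i)
      (fun i : ↥(insert a s) => if h : (i : α) ∈ s then
        (⟨g⁻¹ i, Finset.mem_insert_of_mem (hinv i h)⟩ : ↥(insert a s)) else i)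
      (fun i j h => h) (by
        intro i j h
        simp only at h
        have hmem : ∀ i : ↥(insert a s), (i : α) ∉ s → (i : α) = a := by
          intro i hi
          have := i.2
          rw [Finset.mem_insert] at this
          tauto
        split_ifs at h with hi hj hj
        · apply Subtype.ext
          exact g⁻¹.injective (congrArg Subtype.val h)
        · exfalso
          apply hj
          have h3 := congrArg Subtype.val h
          simp only at h3
          rw [← h3]
          exact hinv _ hi
        · exfalso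
          apply hi
          have h3 := congrArg Subtype.val h
          simp only at h3
          rw [h3]
          exact hinv _ hj
        · exact h)
    obtain ⟨h, hh, hhs⟩ := hgen _ hcard σ
    refine ⟨g * h, mul_mem hg hh, ?_, ?_⟩
    · intro x hx
      have h1 := hhs ⟨x, Finset.mem_insert_of_mem hx⟩
      rw [hσ, dif_pos hx] at h1
      rw [Equiv.Perm.mul_apply]
      simp only at h1
      rw [h1]
      simp
    · have h1 := hhs ⟨a, Finset.mem_insert_self a s⟩
      rw [hσ, dif_neg ha] at h1
      rw [Equiv.Perm.mul_apply]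
      simp only at h1
      rw [h1, hab]

end Cfsg.Agent.S0705
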