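import Cfsg.Statements.S0706
import Mathlib
set_option linter.all false
-- import your own Cfsg.Agent.* helpers here

set_option autoImplicit false
open Cfsg

namespace Cfsg.Agent.S0706

open scoped Pointwise

/-- Generous `k`-transitivity gives transitivity on `k`-subsets. -/
theorem exists_map_eq {α : Type*} [Fintype α] [DecidableEq α] (G : Subgroup (Equiv.Perm α)) {k : ℕ}
    (hgen : ∀ s : Finset α, s.card = k + 1 → ∀ σ : Equiv.Perm ↥s, ∃ g ∈ G, ∀ x : ↥s, g (x : α) = σ x)
    (n : ℕ) : ∀ (A B : Finset α), A.card = k → B.card = k → (B \ A).card = n →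
      ∃ g ∈ G, A.image (g : α → α) = B := by
  induction n with
  | zero =>
    intro A B hA hB hAB
    refine ⟨1, G.one_mem, ?_⟩
    have h1 : B ⊆ A := by
      rw [Finset.card_eq_zero, Finset.sdiff_eq_empty_iff_subset] at hAB
      exact hAB
    have h2 : B = A := Finset.eq_of_subset_of_card_le h1 (by omega)
    simp [h2]
  | succ n ih =>
    intro A B hA hB hAB
    have h1 : (B \ A).Nonempty := by
      rw [← Finset.card_pos]; omega
    obtain ⟨x, hx⟩ := h1
    have h2 : (A \ B).Nonempty := by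
      rw [← Finset.card_pos]
      have := Finset.card_sdiff_add_card_inter A B
      have := Finset.card_sdiff_add_card_inter B A
      rw [Finset.inter_comm] at this
      omega
    obtain ⟨y, hy⟩ := h2
    rw [Finset.mem_sdiff] at hx hy
    have hxs : x ∈ insert x A := Finset.mem_insert_self _ _
    have hys : y ∈ insert x A := Finset.mem_insert_of_mem hy.1
    have hcard : (insert x A).card = k + 1 := by
      rw [Finset.card_insert_of_notMem hx.2, hA]
    obtain ⟨g, hgG, hg⟩ := hgen (insert x A) hcard (Equiv.swap ⟨x, hxs⟩ ⟨y, hys⟩)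
    have hgy : g y = x := by
      have := hg ⟨y, hys⟩
      rw [Equiv.swap_apply_right] at this
      exact this
    have hgo : ∀ z ∈ A, z ≠ y → g z = z := by
      intro z hz hzy
      have hzs : z ∈ insert x A := Finset.mem_insert_of_mem hz
      have := hg ⟨z, hzs⟩
      rw [Equiv.swap_apply_of_ne_of_ne] at this
      · exact this
      · intro hc
        rw [Subtype.mk.injEq] at hc
        exact hx.2 (hc ▸ hz)
      · intro hc
        rw [Subtype.mk.injEq] at hc
        exact hzy hc
    have himg : A.image (g : α → α) = insert x (A.erase y) := by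
      ext z
      simp only [Finset.mem_image, Finset.mem_insert, Finset.mem_erase]
      constructor
      · rintro ⟨w, hw, rfl⟩
        by_cases hwy : w = y
        · left; rw [hwy, hgy]
        · right
          rw [hgo w hw hwy]
          exact ⟨hwy, hw⟩
      · rintro (rfl | ⟨hzy, hz⟩)
        · exact ⟨y, hy.1, hgy⟩
        · exact ⟨z, hz, hgo z hz hzy⟩
    have hcard' : (A.image (g : α → α)).card = k := by
      rw [Finset.card_image_of_injective _ g.injective, hA]
    have hdiff : (B \ A.image (g : α → α)).card = n := by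
      have h3 : B \ A.image (g : α → α) = (B \ A).erase x := by
        rw [himg]
        ext z
        simp only [Finset.mem_sdiff, Finset.mem_insert, Finset.mem_erase, not_or, not_and]
        constructor
        · rintro ⟨hzB, hzx, hz⟩
          refine ⟨hzx, hzB, ?_⟩
          intro hzA
          refine hz ?_ hzA
          rintro rfl
          exact hy.2 hzB
        · rintro ⟨hzx, hzB, hzA⟩
          exact ⟨hzB, hzx, fun _ => hzA⟩
      rw [h3, Finset.card_erase_of_mem (Finset.mem_sdiff.mpr hx), hAB]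
      rfl
    obtain ⟨h, hhG, hh⟩ := ih _ B hcard' hB hdiff
    refine ⟨h * g, G.mul_mem hhG hgG, ?_⟩
    rw [← hh, Finset.image_image]
    rfl

/-- Pointwise stabilisers of two `k`-sets have the same order. -/
theorem card_fixing_eq {α : Type*} [Fintype α] [DecidableEq α] (G : Subgroup (Equiv.Perm α)) {k : ℕ}
    (hgen : ∀ s : Finset α, s.card = k + 1 → ∀ σ : Equiv.Perm ↥s, ∃ g ∈ G, ∀ x : ↥s, g (x : α) = σ x)
    (A B : Finset α) (hA : A.card = k) (hB : B.card = k) :
    Nat.card (fixingSubgroup G (A : Set α)) = Nat.card (fixingSubgroup G (B : Set α)) := by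
  obtain ⟨g, hgG, hg⟩ := exists_map_eq G hgen _ A B hA hB rfl
  let gG : G := ⟨g, hgG⟩
  have key : ∀ x : G, x ∈ fixingSubgroup G (A : Set α) ↔
      (MulAut.conj gG) x ∈ fixingSubgroup G (B : Set α) := by
    intro x
    rw [mem_fixingSubgroup_iff, mem_fixingSubgroup_iff]
    constructor
    · intro h b hb
      rw [← hg] at hb
      rw [Finset.mem_coe, Finset.mem_image] at hb
      obtain ⟨a, ha, rfl⟩ := hb
      have := h a ha
      change g (x.1 (g⁻¹ (g a))) = g a
      have h1 : g⁻¹ (g a) = a := by simp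
      rw [h1]
      congr 1
    · intro h a ha
      have hb : g a ∈ (B : Set α) := by
        rw [← hg, Finset.mem_coe, Finset.mem_image]
        exact ⟨a, ha, rfl⟩
      have := h _ hb
      change g (x.1 (g⁻¹ (g a))) = g a at this
      have h1 : g⁻¹ (g a) = a := by simp
      rw [h1] at this
      exact g.injective this
  refine Nat.card_congr ?_
  refine Equiv.subtypeEquiv (MulAut.conj gG).toEquiv ?_
  intro x
  exact key x

/-- There is a permutation supported exactly on a given `p`-set, of order `p`. -/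
theorem exists_cycle {α : Type*} [Fintype α] [DecidableEq α] {p : ℕ} (hp : p.Prime) (C : Finset α)
    (hC : C.card = p) : ∃ s : Equiv.Perm α, s ^ p = 1 ∧ s ≠ 1 ∧ (∀ a, a ∉ C → s a = a) := by
  have hl : C.toList.Nodup := C.nodup_toList
  have h2 : 2 ≤ C.toList.length := by
    rw [Finset.length_toList, hC]; exact hp.two_le
  have hcyc : (List.formPerm C.toList).IsCycle := List.isCycle_formPerm hl h2
  have hsupp : (List.formPerm C.toList).support = C := by
    rw [List.support_formPerm_of_nodup _ hl, Finset.toList_toFinset]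
    intro x hx
    rw [hx] at h2
    simp at h2
  refine ⟨List.formPerm C.toList, ?_, hcyc.ne_one, ?_⟩
  · have := hcyc.orderOf
    rw [hsupp, hC] at this
    rw [← this, pow_orderOf_eq_one]
  · intro a ha
    rw [← hsupp] at ha
    exact Equiv.Perm.notMem_support.mp ha

/-- A permutation supported in `Γ` agrees on `Γ` with an element of `G` fixing a given point `b`
outside `Γ`. -/
theorem exists_agree {α : Type*} [Fintype α] [DecidableEq α] (G : Subgroup (Equiv.Perm α)) {k : ℕ}
    (hgen : ∀ s : Finset α, s.card = k + 1 → ∀ σ : Equiv.Perm ↥s, ∃ g ∈ G, ∀ x : ↥s, g (x : α) = σ x)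
    (Γ : Finset α) (hΓ : Γ.card = k) (t : Equiv.Perm α) (ht : ∀ a, a ∉ Γ → t a = a) (b : α)
    (hb : b ∉ Γ) : ∃ g ∈ G, g b = b ∧ ∀ a ∈ Γ, g a = t a := by
  have hmem : ∀ a, a ∈ Γ ↔ t a ∈ Γ := by
    intro a
    constructor
    · intro ha
      by_contra hta
      have h1 := ht _ hta
      have h2 := t.injective h1
      rw [h2] at hta
      exact hta ha
    · intro hta
      by_contra ha
      rw [ht a ha] at hta
      exact ha hta
  have hmem' : ∀ a, t a ∈ insert b Γ ↔ a ∈ insert b Γ := by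
    intro a
    rw [Finset.mem_insert, Finset.mem_insert, ← hmem a]
    have : t a = b ↔ a = b := by
      constructor
      · intro h
        have h3 : t b = b := ht b hb
        rw [← h3] at h
        exact t.injective h
      · rintro rfl
        exact ht _ hb
    rw [this]
  obtain ⟨g, hgG, hg⟩ := hgen (insert b Γ) (by rw [Finset.card_insert_of_notMem hb, hΓ])
    (t.subtypePerm hmem')
  refine ⟨g, hgG, ?_, ?_⟩
  · have := hg ⟨b, Finset.mem_insert_self _ _⟩
    rw [Equiv.Perm.subtypePerm_apply] at this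
    rw [this]
    exact ht b hb
  · intro a ha
    have := hg ⟨a, Finset.mem_insert_of_mem ha⟩
    rw [Equiv.Perm.subtypePerm_apply] at this
    exact this

/-- The subgroup of `G` of the elements agreeing on `Γ` with a power of `s`. -/
def agreeSubgroup {α : Type*} (G : Subgroup (Equiv.Perm α)) (Γ : Finset α) (s : Equiv.Perm α)
    (hs : ∀ a, a ∉ Γ → s a = a) : Subgroup G where
  carrier := {x | ∃ n : ℤ, ∀ a ∈ Γ, (x : Equiv.Perm α) a = (s ^ n) a}
  one_mem' := ⟨0, fun a _ => by simp⟩
  mul_mem' := by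
    rintro x y ⟨n, hn⟩ ⟨m, hm⟩
    refine ⟨n + m, fun a ha => ?_⟩
    have hma : (s ^ m) a ∈ Γ := by
      by_contra hc
      have h1 : (s ^ (-m)) ((s ^ m) a) = (s ^ m) a :=
        Equiv.Perm.zpow_apply_eq_self_of_apply_eq_self (hs _ hc) _
      rw [← Equiv.Perm.mul_apply, ← zpow_add, neg_add_cancel, zpow_zero, Equiv.Perm.one_apply] at h1
      rw [← h1] at hc
      exact hc ha
    change (x : Equiv.Perm α) ((y : Equiv.Perm α) a) = _
    rw [hm a ha, hn _ hma, zpow_add, Equiv.Perm.mul_apply]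
  inv_mem' := by
    rintro x ⟨n, hn⟩
    refine ⟨-n, fun a ha => ?_⟩
    have hma : (s ^ (-n)) a ∈ Γ := by
      by_contra hc
      have h1 : (s ^ n) ((s ^ (-n)) a) = (s ^ (-n)) a :=
        Equiv.Perm.zpow_apply_eq_self_of_apply_eq_self (hs _ hc) _
      rw [← Equiv.Perm.mul_apply, ← zpow_add, add_neg_cancel, zpow_zero, Equiv.Perm.one_apply] at h1
      rw [← h1] at hc
      exact hc ha
    change (x : Equiv.Perm α)⁻¹ a = _
    rw [Equiv.Perm.inv_eq_iff_eq, hn _ hma, ← Equiv.Perm.mul_apply, ← zpow_add, add_neg_cancel,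
      zpow_zero, Equiv.Perm.one_apply]

theorem mem_agreeSubgroup {α : Type*} (G : Subgroup (Equiv.Perm α)) (Γ : Finset α)
    (s : Equiv.Perm α) (hs : ∀ a, a ∉ Γ → s a = a) (x : G) :
    x ∈ agreeSubgroup G Γ s hs ↔ ∃ n : ℤ, ∀ a ∈ Γ, (x : Equiv.Perm α) a = (s ^ n) a := Iff.rfl

theorem zpow_mem_iff {α : Type*} (Γ : Finset α) (s : Equiv.Perm α) (hs : ∀ a, a ∉ Γ → s a = a)
    (n : ℤ) (a : α) (ha : a ∈ Γ) : (s ^ n) a ∈ Γ := by
  by_contra hc
  have h1 : (s ^ (-n)) ((s ^ n) a) = (s ^ n) a :=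
    Equiv.Perm.zpow_apply_eq_self_of_apply_eq_self (hs _ hc) _
  rw [← Equiv.Perm.mul_apply, ← zpow_add, neg_add_cancel, zpow_zero, Equiv.Perm.one_apply] at h1
  rw [← h1] at hc
  exact hc ha

/-- Orbits of the agreeing subgroup outside `Γ` are the orbits of the pointwise stabiliser. -/
theorem orbit_agree {α : Type*} [Fintype α] [DecidableEq α] (G : Subgroup (Equiv.Perm α)) {k : ℕ}
    (hgen : ∀ s : Finset α, s.card = k + 1 → ∀ σ : Equiv.Perm ↥s, ∃ g ∈ G, ∀ x : ↥s, g (x : α) = σ x)
    (Γ : Finset α) (hΓ : Γ.card = k) (s : Equiv.Perm α) (hs : ∀ a, a ∉ Γ → s a = a) (b : α)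
    (hb : b ∉ Γ) : MulAction.orbit (agreeSubgroup G Γ s hs) b =
      MulAction.orbit (fixingSubgroup G (Γ : Set α)) b := by
  ext c
  constructor
  · rintro ⟨⟨x, n, hx⟩, rfl⟩
    obtain ⟨h, hhG, hhb, hh⟩ := exists_agree G hgen Γ hΓ (s ^ n)
      (fun a ha => Equiv.Perm.zpow_apply_eq_self_of_apply_eq_self (hs a ha) n) b hb
    have hmem : x * ⟨h, hhG⟩⁻¹ ∈ fixingSubgroup G (Γ : Set α) := by
      rw [mem_fixingSubgroup_iff]
      intro a ha
      change (x : Equiv.Perm α) (h⁻¹ a) = a
      have h1 : h⁻¹ a = (s ^ (-n)) a := by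
        rw [Equiv.Perm.inv_eq_iff_eq, hh _ (zpow_mem_iff Γ s hs (-n) a ha), ← Equiv.Perm.mul_apply,
          ← zpow_add, add_neg_cancel, zpow_zero, Equiv.Perm.one_apply]
      rw [h1, hx _ (zpow_mem_iff Γ s hs (-n) a ha), ← Equiv.Perm.mul_apply,
          ← zpow_add, add_neg_cancel, zpow_zero, Equiv.Perm.one_apply]
    refine ⟨⟨_, hmem⟩, ?_⟩
    change (x : Equiv.Perm α) (h⁻¹ b) = (x : Equiv.Perm α) b
    have : h⁻¹ b = b := by
      rw [Equiv.Perm.inv_eq_iff_eq, hhb]
    rw [this]
  · rintro ⟨⟨x, hx⟩, rfl⟩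
    refine ⟨⟨x, 0, ?_⟩, rfl⟩
    intro a ha
    rw [mem_fixingSubgroup_iff] at hx
    rw [zpow_zero]
    exact hx a ha

/-- In a generously `k`-transitive permutation group, for a prime `p ≤ k` and a `k`-set `Γ`, there are no `p` points outside `Γ` lying in distinct orbits of the pointwise stabiliser of `Γ` all of length prime to `p` (at most `p - 1` such orbits). -/
theorem result {α : Type*} [Fintype α] [DecidableEq α] (G : Subgroup (Equiv.Perm α)) {k : ℕ} (hk : k < Fintype.card α) (hgen : ∀ s : Finset α, s.card = k + 1 → ∀ σ : Equiv.Perm ↥s, ∃ g ∈ G, ∀ x : ↥s, g (x : α) = σ x) {p : ℕ} (hp : p.Prime) (hpk : p ≤ k) (Γ : Finset α) (hΓ : Γ.card = k) (f : Fin p → α) (hf : ∀ i, f i ∉ Γ) (hdist : ∀ i j, i ≠ j → f j ∉ MulAction.orbit (fixingSubgroup G (Γ : Set α)) (f i)) : ∃ i, p ∣ Nat.card (MulAction.orbit (fixingSubgroup G (Γ : Set α)) (f i)) := by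
  classical
  by_contra hcon
  push Not at hcon
  have : Fact p.Prime := ⟨hp⟩
  set H : Subgroup G := fixingSubgroup G (Γ : Set α) with hHdef
  obtain ⟨C, hCΓ, hC⟩ := Finset.exists_subset_card_eq (hpk.trans hΓ.ge)
  obtain ⟨s, hsp, hs1, hsC⟩ := exists_cycle hp C hC
  have hs : ∀ a, a ∉ Γ → s a = a := fun a ha => hsC a (fun h => ha (hCΓ h))
  set K : Subgroup G := agreeSubgroup G Γ s hs with hKdef
  -- `H ≤ K`
  have hHK : H ≤ K := by
    intro x hx
    refine ⟨0, ?_⟩
    intro a ha
    rw [hHdef, mem_fixingSubgroup_iff] at hx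
    rw [zpow_zero]
    exact hx a ha
  -- `H` normal in `K`
  have hnormal : (H.subgroupOf K).Normal := by
    refine ⟨?_⟩
    rintro ⟨y, hyK⟩ hy ⟨x, n, hx⟩
    rw [Subgroup.mem_subgroupOf] at hy ⊢
    change y ∈ H at hy
    change x * y * x⁻¹ ∈ H
    rw [hHdef, mem_fixingSubgroup_iff] at hy ⊢
    intro a ha
    change (x : Equiv.Perm α) ((y : Equiv.Perm α) ((x : Equiv.Perm α)⁻¹ a)) = a
    have h1 : (x : Equiv.Perm α)⁻¹ a = (s ^ (-n)) a := by
      rw [Equiv.Perm.inv_eq_iff_eq, hx _ (zpow_mem_iff Γ s hs (-n) a ha), ← Equiv.Perm.mul_apply,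
        ← zpow_add, add_neg_cancel, zpow_zero, Equiv.Perm.one_apply]
    have h2 : (y : Equiv.Perm α) ((s ^ (-n)) a) = (s ^ (-n)) a :=
      hy _ (zpow_mem_iff Γ s hs (-n) a ha)
    rw [h1, h2, hx _ (zpow_mem_iff Γ s hs (-n) a ha), ← Equiv.Perm.mul_apply,
        ← zpow_add, add_neg_cancel, zpow_zero, Equiv.Perm.one_apply]
  -- an element of `K` inducing the cycle
  have hi0 : 0 < p := hp.pos
  obtain ⟨g, hgG, -, hg⟩ := exists_agree G hgen Γ hΓ s hs (f ⟨0, hi0⟩) (hf _)
  have hgK : (⟨g, hgG⟩ : G) ∈ K := ⟨1, fun a ha => by rw [zpow_one]; exact hg a ha⟩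
  have hgpow : ∀ m : ℕ, ∀ a ∈ Γ, (g ^ m) a = (s ^ m) a := by
    intro m
    induction m with
    | zero => intro a _; simp
    | succ m ih =>
      intro a ha
      have h1 : (s ^ m) a ∈ Γ := by
        have := zpow_mem_iff Γ s hs (m : ℤ) a ha
        rwa [zpow_natCast] at this
      rw [pow_succ', Equiv.Perm.mul_apply, ih a ha, hg _ h1, pow_succ', Equiv.Perm.mul_apply]
  have hdvd : p ∣ Nat.card (K ⧸ H.subgroupOf K) := by
    have hord : orderOf (QuotientGroup.mk (⟨⟨g, hgG⟩, hgK⟩ : K) : K ⧸ H.subgroupOf K) = p := by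
      apply orderOf_eq_prime
      · rw [← QuotientGroup.mk_pow, QuotientGroup.eq_one_iff, Subgroup.mem_subgroupOf]
        change (⟨g, hgG⟩ : G) ^ p ∈ H
        rw [hHdef, mem_fixingSubgroup_iff]
        intro a ha
        change (g ^ p) a = a
        rw [hgpow p a ha, hsp, Equiv.Perm.one_apply]
      · rw [Ne, QuotientGroup.eq_one_iff, Subgroup.mem_subgroupOf]
        change ¬ (⟨g, hgG⟩ : G) ∈ H
        rw [hHdef, mem_fixingSubgroup_iff]
        intro hcc
        apply hs1
        ext a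
        by_cases ha : a ∈ Γ
        · rw [← hg a ha, Equiv.Perm.one_apply]
          exact hcc a ha
        · rw [hs a ha, Equiv.Perm.one_apply]
    rw [← hord]
    exact orderOf_dvd_natCard _
  have hcardK : Nat.card K = Nat.card (K ⧸ H.subgroupOf K) * Nat.card H := by
    rw [Subgroup.card_eq_card_quotient_mul_card_subgroup (H.subgroupOf K)]
    congr 1
    exact Nat.card_congr (Subgroup.subgroupOfEquivOfLe hHK).toEquiv
  -- a Sylow subgroup of `K`
  obtain ⟨Q⟩ : Nonempty (Sylow p K) := inferInstance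
  have hQcard := Q.card_eq_multiplicity
  -- fixed points
  have hfix : ∀ i : Fin p, ∃ z : α, z ∈ MulAction.orbit H (f i) ∧ ∀ q ∈ Q, ((q : G) : Equiv.Perm α) z = z := by
    intro i
    have horb := orbit_agree G hgen Γ hΓ s hs (f i) (hf i)
    rw [← hKdef, ← hHdef] at horb
    have hnd : ¬ p ∣ Nat.card (MulAction.orbit K (f i)) := by
      rw [horb]; exact hcon i
    obtain ⟨z, hz⟩ := Q.2.nonempty_fixed_point_of_prime_not_dvd_card (MulAction.orbit K (f i)) hnd
    refine ⟨z, ?_, ?_⟩
    · rw [← horb]; exact z.2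
    · intro q hq
      have := hz ⟨q, hq⟩
      have h2 := congrArg (Subtype.val) this
      exact h2
  choose z hz1 hz2 using hfix
  have hHfix : ∀ x ∈ H, ∀ a ∈ Γ, (x : Equiv.Perm α) a = a := by
    intro x hx a ha
    rw [hHdef, mem_fixingSubgroup_iff] at hx
    exact hx a ha
  have hzΓ : ∀ i, z i ∉ Γ := by
    intro i hzi
    obtain ⟨⟨x, hx⟩, hxz⟩ := hz1 i
    have h1 : (x : Equiv.Perm α) (f i) = z i := hxz
    have h2 : (x : Equiv.Perm α) (z i) = z i := hHfix x hx _ hzi
    have h3 := (x : Equiv.Perm α).injective (h1.trans h2.symm)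
    exact hf i (by rw [h3]; exact hzi)
  have hzinj : Function.Injective z := by
    intro i j hij
    by_contra hne
    apply hdist i j hne
    have h1 := hz1 i
    rw [hij] at h1
    have h2 := hz1 j
    rw [← MulAction.orbit_eq_iff] at h1 h2
    rw [← h1, h2]
    exact MulAction.mem_orbit_self _
  set Γ' : Finset α := (Γ \ C) ∪ Finset.univ.image z with hΓ'def
  have hΓ' : Γ'.card = k := by
    rw [hΓ'def, Finset.card_union_of_disjoint, Finset.card_image_of_injective _ hzinj,
      Finset.card_sdiff_of_subset hCΓ, Finset.card_univ, Fintype.card_fin, hC, hΓ]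
    · omega
    · rw [Finset.disjoint_right]
      intro a ha
      rw [Finset.mem_image] at ha
      obtain ⟨i, -, rfl⟩ := ha
      intro hc
      rw [Finset.mem_sdiff] at hc
      exact hzΓ i hc.1
  have hQle : (Q : Subgroup K).map K.subtype ≤ fixingSubgroup G (Γ' : Set α) := by
    rintro _ ⟨q, hq, rfl⟩
    rw [mem_fixingSubgroup_iff]
    intro a ha
    rw [Finset.mem_coe, hΓ'def, Finset.mem_union, Finset.mem_sdiff, Finset.mem_image] at ha
    rcases ha with ⟨haΓ, haC⟩ | ⟨i, -, rfl⟩
    · obtain ⟨n, hn⟩ := q.2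
      have h1 := hn a haΓ
      rw [Equiv.Perm.zpow_apply_eq_self_of_apply_eq_self (hsC a haC) n] at h1
      exact h1
    · exact hz2 i q hq
  have hcQ : Nat.card Q ∣ Nat.card H := by
    have h1 : Nat.card ((Q : Subgroup K).map K.subtype) = Nat.card Q :=
      Subgroup.card_map_of_injective K.subtype_injective
    rw [← h1, hHdef, card_fixing_eq G hgen Γ Γ' hΓ hΓ']
    exact Subgroup.card_dvd_of_le hQle
  rw [hQcard] at hcQ
  have hH0 : Nat.card H ≠ 0 := Nat.card_pos.ne'
  rw [hp.pow_dvd_iff_le_factorization hH0, hcardK] at hcQ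
  have hq0 : Nat.card (K ⧸ H.subgroupOf K) ≠ 0 := Nat.card_pos.ne'
  rw [Nat.factorization_mul hq0 hH0, Finsupp.add_apply] at hcQ
  have h1 : 1 ≤ (Nat.card (K ⧸ H.subgroupOf K)).factorization p := by
    rw [← hp.pow_dvd_iff_le_factorization hq0, pow_one]
    exact hdvd
  omega

end Cfsg.Agent.S0706
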