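import Cfsg.Statements.S0707
import Mathlib
set_option linter.all false
-- import your own Cfsg.Agent.* helpers here

set_option autoImplicit false
open Cfsg

namespace Cfsg.Agent.S0707

/-- A group in which `⊥` is a coatom of the subgroup lattice has prime order. -/
theorem card_prime_of_isCoatom_bot {G : Type*} [Group G] (h : IsCoatom (⊥ : Subgroup G)) :
    (Nat.card G).Prime := by
  classical
  have hnt : Nontrivial G := by
    by_contra hsub
    rw [not_nontrivial_iff_subsingleton] at hsub
    apply h.1
    exact Subsingleton.elim _ _
  obtain ⟨g, hg⟩ := exists_ne (1 : G)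
  have hz : ∀ x : G, x ≠ 1 → Subgroup.zpowers x = ⊤ := by
    intro x hx
    apply h.2
    rw [bot_lt_iff_ne_bot]
    rwa [Ne, Subgroup.zpowers_eq_bot]
  have hmul : ∀ x y : G, x * y = y * x := by
    intro x y
    have hx : x ∈ Subgroup.zpowers g := by rw [hz g hg]; trivial
    have hy : y ∈ Subgroup.zpowers g := by rw [hz g hg]; trivial
    obtain ⟨m, rfl⟩ := hx
    obtain ⟨n, rfl⟩ := hy
    simp only [← zpow_add, add_comm]
  have hs : IsSimpleGroup G := by
    refine ⟨fun H _ => ?_⟩
    by_cases hH : H = ⊥
    · exact Or.inl hH
    · exact Or.inr (h.2 H (bot_lt_iff_ne_bot.mpr hH))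
  let _ : CommGroup G := { (inferInstance : Group G) with mul_comm := hmul }
  exact IsSimpleGroup.prime_card

/-- In a primitive permutation group, distinct points have distinct stabilisers unless the group is regular of prime degree. -/
theorem result {α : Type*} (G : Subgroup (Equiv.Perm α)) [MulAction.IsPreprimitive G α] (h : ¬ (Nat.card α).Prime ∨ ∃ a : α, MulAction.stabilizer G a ≠ ⊥) {a b : α} (hab : a ≠ b) : MulAction.stabilizer G a ≠ MulAction.stabilizer G b := by
  intro heq
  have hnt : Nontrivial α := ⟨a, b, hab⟩
  have hco : IsCoatom (MulAction.stabilizer G a) :=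
    MulAction.IsPreprimitive.isCoatom_stabilizer_of_isPreprimitive G a
  obtain ⟨g, hg⟩ := MulAction.exists_smul_eq G a b
  -- `g` normalizes the stabilizer
  have hgN : g ∈ Subgroup.normalizer (MulAction.stabilizer G a : Set G) := by
    rw [Subgroup.mem_normalizer_iff]
    intro x
    have h1 : g * x * g⁻¹ ∈ MulAction.stabilizer G a ↔
        g * x * g⁻¹ ∈ MulAction.stabilizer G b := by rw [heq]
    rw [h1, MulAction.mem_stabilizer_iff, MulAction.mem_stabilizer_iff, ← hg, smul_smul]
    rw [inv_mul_cancel_right, mul_smul, smul_left_cancel_iff]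
  have hgn : g ∉ MulAction.stabilizer G a := by
    rw [MulAction.mem_stabilizer_iff, hg]
    exact fun h => hab h.symm
  have hN : Subgroup.normalizer (MulAction.stabilizer G a : Set G) = ⊤ := by
    apply hco.2
    refine lt_of_le_of_ne Subgroup.le_normalizer ?_
    intro hcon
    exact hgn (by rw [hcon]; exact hgN)
  have hnormal : (MulAction.stabilizer G a).Normal := Subgroup.normalizer_eq_top_iff.mp hN
  have hbotall : ∀ c : α, MulAction.stabilizer G c = MulAction.stabilizer G a := by
    intro c
    obtain ⟨t, ht⟩ := MulAction.exists_smul_eq G a c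
    ext x
    have h2 : t⁻¹ * x * t ∈ MulAction.stabilizer G a ↔ x ∈ MulAction.stabilizer G a := by
      constructor
      · intro hx
        have := hnormal.conj_mem _ hx t
        simpa [mul_assoc] using this
      · intro hx
        have := hnormal.conj_mem _ hx t⁻¹
        simpa [mul_assoc] using this
    rw [← h2, MulAction.mem_stabilizer_iff, MulAction.mem_stabilizer_iff, ← ht, mul_smul, mul_smul,
      inv_smul_eq_iff]
  have hbot : MulAction.stabilizer G a = ⊥ := by
    rw [eq_bot_iff]
    intro x hx
    rw [Subgroup.mem_bot]
    ext c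
    have : x ∈ MulAction.stabilizer G c := by rw [hbotall c]; exact hx
    rw [MulAction.mem_stabilizer_iff] at this
    exact this
  rcases h with h | ⟨c, hc⟩
  · apply h
    have hcard : Nat.card G = Nat.card α := by
      apply Nat.card_congr
      refine Equiv.ofBijective (fun g : G => g • a) ⟨?_, ?_⟩
      · intro x y hxy
        have : y⁻¹ * x ∈ MulAction.stabilizer G a := by
          rw [MulAction.mem_stabilizer_iff, mul_smul, inv_smul_eq_iff]
          exact hxy
        rw [hbot, Subgroup.mem_bot] at this
        rw [inv_mul_eq_one] at this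
        exact this.symm
      · intro c
        exact MulAction.exists_smul_eq G a c
    rw [← hcard]
    apply card_prime_of_isCoatom_bot
    rw [← hbot]
    exact hco
  · exact hc ((hbotall c).trans hbot)

end Cfsg.Agent.S0707
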