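import Cfsg.Statements.S0708
import Mathlib
set_option linter.all false

set_option autoImplicit false
open Cfsg

namespace Cfsg.Agent.S0708

section Tits

variable {G : Type*} [Group G] {Ω : Type*} [MulAction G Ω]

/-- the embedding of `Fin 4` given by four distinct points -/
theorem emb_inj {a b c d : Ω} (hab : a ≠ b) (hac : a ≠ c) (had : a ≠ d) (hbc : b ≠ c)
    (hbd : b ≠ d) (hcd : c ≠ d) : Function.Injective (![a, b, c, d] : Fin 4 → Ω) := by
  intro i j hij
  fin_cases i <;> fin_cases j <;> simp_all [eq_comm]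

theorem ext4 (hsharp : ∀ x : Fin 4 ↪ Ω, MulAction.stabilizer G x = ⊥) {a b c d : Ω}
    (hab : a ≠ b) (hac : a ≠ c) (had : a ≠ d) (hbc : b ≠ c)
    (hbd : b ≠ d) (hcd : c ≠ d) {g h : G} (h1 : g • a = h • a) (h2 : g • b = h • b)
    (h3 : g • c = h • c) (h4 : g • d = h • d) : g = h := by
  have hs := hsharp ⟨![a, b, c, d], emb_inj hab hac had hbc hbd hcd⟩
  have hmem : h⁻¹ * g ∈ MulAction.stabilizer G
      (⟨![a, b, c, d], emb_inj hab hac had hbc hbd hcd⟩ : Fin 4 ↪ Ω) := by
    rw [MulAction.mem_stabilizer_iff]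
    ext i
    show (h⁻¹ * g) • (![a, b, c, d] : Fin 4 → Ω) i = (![a, b, c, d] : Fin 4 → Ω) i
    fin_cases i <;> simp [mul_smul, inv_smul_eq_iff, *]
  rw [hs, Subgroup.mem_bot] at hmem
  rw [inv_mul_eq_one] at hmem
  exact hmem.symm

theorem exists4 (h4 : MulAction.IsMultiplyPretransitive G Ω 4) {a b c d a' b' c' d' : Ω}
    (hab : a ≠ b) (hac : a ≠ c) (had : a ≠ d) (hbc : b ≠ c)
    (hbd : b ≠ d) (hcd : c ≠ d)
    (hab' : a' ≠ b') (hac' : a' ≠ c') (had' : a' ≠ d') (hbc' : b' ≠ c')
    (hbd' : b' ≠ d') (hcd' : c' ≠ d') :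
    ∃ g : G, g • a = a' ∧ g • b = b' ∧ g • c = c' ∧ g • d = d' := by
  obtain ⟨g, hg⟩ := h4.exists_smul_eq
    (⟨![a, b, c, d], emb_inj hab hac had hbc hbd hcd⟩ : Fin 4 ↪ Ω)
    (⟨![a', b', c', d'], emb_inj hab' hac' had' hbc' hbd' hcd'⟩ : Fin 4 ↪ Ω)
  have key : ∀ i : Fin 4, g • (![a, b, c, d] : Fin 4 → Ω) i = (![a', b', c', d'] : Fin 4 → Ω) i := by
    intro i
    have := DFunLike.congr_fun hg i
    exact this
  exact ⟨g, key 0, key 1, key 2, key 3⟩

end Tits

/-- Tits' argument: a sharply 4-transitive group (no finiteness assumed) has finite degree at most 11, and at most 6 when the degree is even. -/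
theorem result {G : Type*} [Group G] {Ω : Type*} [MulAction G Ω] (h4 : MulAction.IsMultiplyPretransitive G Ω 4) (hsharp : ∀ x : Fin 4 ↪ Ω, MulAction.stabilizer G x = ⊥) (hne : Nonempty (Fin 4 ↪ Ω)) : Finite Ω ∧ Nat.card Ω ≤ 11 ∧ (Even (Nat.card Ω) → Nat.card Ω ≤ 6) := by
  classical
  obtain ⟨e⟩ := hne
  obtain ⟨p1, p2, p3, p4, h12, h13, h14, h23, h24, h34⟩ : ∃ p1 p2 p3 p4 : Ω, p1 ≠ p2 ∧ p1 ≠ p3 ∧
      p1 ≠ p4 ∧ p2 ≠ p3 ∧ p2 ≠ p4 ∧ p3 ≠ p4 := by
    refine ⟨e 0, e 1, e 2, e 3, ?_, ?_, ?_, ?_, ?_, ?_⟩ <;>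
    · intro h
      have := e.injective h
      revert this
      decide
  obtain ⟨a, ha1, ha2, ha3, ha4⟩ := exists4 (G := G) h4 h12 h13 h14 h23 h24 h34 h12 h14 h13 h24 h23
    h34.symm
  have haa : ∀ x : Ω, a • a • x = x := by
    intro x
    have : a * a = 1 := by
      apply ext4 hsharp h12 h13 h14 h23 h24 h34 <;> simp [mul_smul, *]
    rw [← mul_smul, this, one_smul]
  -- the fixed points of `a`
  set F : Set Ω := {x | a • x = x} with hF
  have hp1 : p1 ∈ F := ha1
  have hp2 : p2 ∈ F := ha2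
  have hp3 : p3 ∉ F := fun h => h34 ((show a • p3 = p3 from h).symm.trans ha3)
  have hp4 : p4 ∉ F := fun h => h34 (ha4.symm.trans (show a • p4 = p4 from h))
  -- F has at most three elements
  have hF3 : F.encard ≤ 3 := by
    by_contra hcon
    have hcon' : (4 : ℕ∞) ≤ F.encard := by
      rw [not_le] at hcon
      exact Order.add_one_le_of_lt hcon
    obtain ⟨T, hTF, hT⟩ := Set.exists_subset_encard_eq hcon'
    have hTfin : T.Finite := Set.finite_of_encard_eq_coe (k := 4) (by simpa using hT)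
    obtain ⟨T', rfl⟩ := hTfin.exists_finset_coe
    rw [Set.encard_coe_eq_coe_finsetCard] at hT
    have hT4 : T'.card = 4 := by exact_mod_cast hT
    let ee : Fin 4 ≃ T' := (Fintype.equivFinOfCardEq (by simpa using hT4)).symm
    have hq : ∀ i : Fin 4, a • (ee i : Ω) = ee i := fun i => hTF (ee i).2
    have hne : ∀ i j : Fin 4, i ≠ j → (ee i : Ω) ≠ ee j := by
      intro i j hij h
      exact hij (ee.injective (Subtype.ext h))
    have : a = 1 := by
      apply ext4 hsharp (hne 0 1 (by decide)) (hne 0 2 (by decide)) (hne 0 3 (by decide))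
        (hne 1 2 (by decide)) (hne 1 3 (by decide)) (hne 2 3 (by decide)) <;>
      simp [hq]
    apply hp3
    show a • p3 = p3
    rw [this, one_smul]
  have hFfin : F.Finite := Set.finite_of_encard_le_coe (k := 3) hF3
  have : Fintype F := hFfin.fintype
  have hFcard3 : Nat.card F ≤ 3 := by
    have := hFfin.encard_eq_coe_toFinset_card
    rw [this] at hF3
    have h3 : hFfin.toFinset.card ≤ 3 := by exact_mod_cast hF3
    rwa [Nat.card_eq_card_finite_toFinset hFfin]
  have hFcard2 : 2 ≤ Nat.card F := by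
    rw [Nat.card_eq_fintype_card]
    have : Fintype.card (Fin 2) ≤ Fintype.card F := by
      apply Fintype.card_le_of_injective (fun i : Fin 2 => if i = 0 then (⟨p1, hp1⟩ : F) else ⟨p2, hp2⟩)
      intro i j hij
      fin_cases i <;> fin_cases j <;> simp_all
    simpa using this
  -- the remaining points
  set M : Set Ω := {x | x ∉ F ∧ x ≠ p3 ∧ x ≠ p4} with hM
  have hamem : ∀ x : Ω, x ∈ M → a • x ∈ M ∧ a • x ≠ x := by
    rintro x ⟨hx1, hx2, hx3⟩
    refine ⟨⟨?_, ?_, ?_⟩, hx1⟩
    · intro h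
      apply hx1
      have h' : a • a • x = a • x := h
      rw [haa] at h'
      exact h'.symm
    · intro h
      apply hx3
      rw [← ha3, ← h, haa]
    · intro h
      apply hx2
      rw [← ha4, ← h, haa]
  have hMinj : ∃ f : M → Equiv.Perm F, Function.Injective f := by
    by_cases hMe : IsEmpty M
    · exact ⟨fun x => (hMe.false x).elim, fun x => (hMe.false x).elim⟩
    · rw [not_isEmpty_iff] at hMe
      obtain ⟨⟨P0, hP0⟩⟩ := hMe
      obtain ⟨hP0a, hP0b⟩ := hamem P0 hP0
      have hex : ∀ P : M, ∃ g : G, g • p3 = p3 ∧ g • p4 = p4 ∧ g • P0 = P ∧ g • (a • P0) = a • (P : Ω) := by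
        rintro ⟨P, hP⟩
        obtain ⟨hPa, hPb⟩ := hamem P hP
        exact exists4 h4 h34 (Ne.symm hP0.2.1) (Ne.symm hP0a.2.1) (Ne.symm hP0.2.2) (Ne.symm hP0a.2.2)
          (Ne.symm hP0b) h34 (Ne.symm hP.2.1) (Ne.symm hPa.2.1) (Ne.symm hP.2.2) (Ne.symm hPa.2.2)
          (Ne.symm hPb)
      choose g hg3 hg4 hg5 hg6 using hex
      have hcomm : ∀ (P : M) (x : Ω), g P • a • x = a • g P • x := by
        intro P x
        have : g P * a = a * g P := by
          apply ext4 hsharp h34 (Ne.symm hP0.2.1) (Ne.symm hP0a.2.1) (Ne.symm hP0.2.2)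
            (Ne.symm hP0a.2.2) (Ne.symm hP0b) <;> simp [mul_smul, *]
        rw [← mul_smul, this, mul_smul]
      have hcomm' : ∀ (P : M) (x : Ω), (g P)⁻¹ • a • x = a • (g P)⁻¹ • x := by
        intro P x
        rw [inv_smul_eq_iff, hcomm, smul_inv_smul]
      let φ : M → Equiv.Perm F := fun P =>
        { toFun := fun x => ⟨g P • (x : Ω), by
            show a • g P • (x : Ω) = g P • (x : Ω)
            rw [← hcomm, show a • (x : Ω) = x from x.2]⟩
          invFun := fun x => ⟨(g P)⁻¹ • (x : Ω), by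
            show a • (g P)⁻¹ • (x : Ω) = (g P)⁻¹ • (x : Ω)
            rw [← hcomm', show a • (x : Ω) = x from x.2]⟩
          left_inv := fun x => by simp
          right_inv := fun x => by simp }
      refine ⟨φ, ?_⟩
      intro P P' hPP
      have hv : ∀ x : F, g P • (x : Ω) = g P' • (x : Ω) := by
        intro x
        have := congrArg (fun σ : Equiv.Perm F => ((σ x : F) : Ω)) hPP
        exact this
      have hgg : g P = g P' := by
        apply ext4 hsharp h12 h13 h14 h23 h24 h34
        · exact hv ⟨p1, hp1⟩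
        · exact hv ⟨p2, hp2⟩
        · rw [hg3, hg3]
        · rw [hg4, hg4]
      apply Subtype.ext
      rw [← hg5 P, ← hg5 P', hgg]
  obtain ⟨f, hf⟩ := hMinj
  have hMfin : Finite M := Finite.of_injective f hf
  have hMcard : Nat.card M ≤ (Nat.card F).factorial := by
    have := Nat.card_le_card_of_injective f hf
    rwa [Nat.card_perm] at this
  -- assemble
  have hunion : (Set.univ : Set Ω) = F ∪ {p3, p4} ∪ M := by
    ext x
    simp only [Set.mem_univ, Set.mem_union, Set.mem_insert_iff, Set.mem_singleton_iff, true_iff]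
    by_cases hx : x ∈ F
    · exact Or.inl (Or.inl hx)
    · by_cases hx3 : x = p3
      · exact Or.inl (Or.inr (Or.inl hx3))
      · by_cases hx4 : x = p4
        · exact Or.inl (Or.inr (Or.inr hx4))
        · exact Or.inr ⟨hx, hx3, hx4⟩
  have hufin : (Set.univ : Set Ω).Finite := by
    rw [hunion]
    exact (hFfin.union (Set.toFinite _)).union (Set.toFinite M)
  have hΩ : Finite Ω := Set.finite_univ_iff.mp hufin
  have : Fintype Ω := Fintype.ofFinite Ω
  have hcard : Nat.card Ω ≤ Nat.card F + 2 + Nat.card M := by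
    rw [← Set.ncard_univ, hunion]
    calc (F ∪ {p3, p4} ∪ M).ncard ≤ (F ∪ {p3, p4}).ncard + M.ncard := Set.ncard_union_le _ _
      _ ≤ (F.ncard + ({p3, p4} : Set Ω).ncard) + M.ncard :=
          Nat.add_le_add_right (Set.ncard_union_le _ _) _
      _ = Nat.card F + 2 + Nat.card M := by
          rw [Set.ncard_pair h34]; rfl
  refine ⟨hΩ, ?_, ?_⟩
  · have : Nat.card F = 2 ∨ Nat.card F = 3 := by omega
    have hf2 : Nat.factorial 2 = 2 := rfl
    have hf3 : Nat.factorial 3 = 6 := rfl
    rcases this with h | h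
    · rw [h] at hMcard hcard
      rw [hf2] at hMcard
      omega
    · rw [h] at hMcard hcard
      rw [hf3] at hMcard
      omega
  · intro heven
    have hmod : Fintype.card Ω ≡ Fintype.card (Function.fixedPoints fun x : Ω => a • x) [MOD 2] := by
      have : Fact (Nat.Prime 2) := ⟨Nat.prime_two⟩
      have := Equiv.Perm.card_fixedPoints_modEq (f := (fun x : Ω => a • x : Function.End Ω))
        (p := 2) (n := 1) (by
          funext x
          exact haa x)
      exact this
    have hFF : Fintype.card (Function.fixedPoints fun x : Ω => a • x) = Nat.card F := by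
      rw [← Nat.card_eq_fintype_card]
      rfl
    rw [hFF, ← Nat.card_eq_fintype_card] at hmod
    have : Nat.card F = 2 := by
      rcases heven with ⟨r, hr⟩
      rw [hr] at hmod
      have h2 : (r + r) % 2 = Nat.card F % 2 := hmod
      omega
    rw [this] at hMcard hcard
    have hf2 : Nat.factorial 2 = 2 := rfl
    rw [hf2] at hMcard
    omega

end Cfsg.Agent.S0708
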