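import Cfsg.Statements.S0709
import Mathlib
set_option linter.all false

set_option autoImplicit false
open Cfsg

namespace Cfsg.Agent.S0709

/-- the chain of subgroups in Witt's lemma -/
def chain {α : Type*} (D : Subgroup (Equiv.Perm α)) (s : ℕ → Equiv.Perm α) (n : ℕ) :
    Subgroup (Equiv.Perm α) :=
  Subgroup.closure ((D : Set (Equiv.Perm α)) ∪ {x | ∃ i : ℕ, 1 ≤ i ∧ i ≤ n ∧ x = s i})

/-- Witt's Lemma for constructing transitive extensions. Points `q 1, …, q t` (`t ≥ 2`) of a finite set are given; `G` fixes `q i` for `i ≥ 3` and is doubly transitive on the remaining points; `s 1 ∈ G` swaps `q 1, q 2`; for `2 ≤ i ≤ t-1`, `s i` swaps `q i, q (i+1)` and fixes the other `q j`; with `H` the stabiliser of `q 1, q 2` in `G`: `s i ^ 2 ∈ H`, `(s i * s (i+1)) ^ 3 ∈ H`, `(s i * s j) ^ 2 ∈ H` for `j ≥ i + 2`, and `s i` (`i ≥ 2`) normalises the stabiliser of `q 2` in `G`. Then `G` and the `s i` generate a `t`-transitive group whose pointwise stabiliser of the `q`'s is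 `H`. -/
theorem result {α : Type*} [Fintype α] [DecidableEq α] (t : ℕ) (ht : 2 ≤ t) (q : ℕ → α) (hq : ∀ i j : ℕ, 1 ≤ i → i ≤ t → 1 ≤ j → j ≤ t → q i = q j → i = j) (G : Subgroup (Equiv.Perm α)) (hfix : ∀ g ∈ G, ∀ i : ℕ, 3 ≤ i → i ≤ t → g (q i) = q i) (h2 : ∀ a b c d : α, (∀ i, 3 ≤ i → i ≤ t → a ≠ q i ∧ b ≠ q i ∧ c ≠ q i ∧ d ≠ q i) → a ≠ b → c ≠ d → ∃ g ∈ G, g a = c ∧ g b = d) (s : ℕ → Equiv.Perm α) (hs1 : s 1 ∈ G) (hs1q : s 1 (q 1) = q 2 ∧ s 1 (q 2) = q 1) (hsq : ∀ i : ℕ, 2 ≤ i → i + 1 ≤ t → s i (q i) = q (i + 1) ∧ s i (q (i + 1)) = q i ∧ ∀ j : ℕ, 1 ≤ j → j ≤ t → j ≠ i → j ≠ i + 1 → s i (q j) = q j) (H : Subgroup (Equiv.Perm α)) (hH : H = G ⊓ MulAction.stabilizer (Equiv.Perm α) (q 1) ⊓ MulAction.stabilizer (Equiv.Perm α) (q 2)) (hsq2 : ∀ i : ℕ, 1 ≤ i → i + 1 ≤ t → s i ^ 2 ∈ H) (hbraid : ∀ i : ℕ, 1 ≤ i → i + 2 ≤ t → (s i * s (i + 1)) ^ 3 ∈ H) (hcomm : ∀ i j : ℕ, 1 ≤ i → i + 2 ≤ j → j + 1 ≤ t → (s i * s j) ^ 2 ∈ H ∧ (s j * s i) ^ 2 ∈ H) (hnorm : ∀ i : ℕ, 2 ≤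 i → i + 1 ≤ t → ∀ g ∈ G ⊓ MulAction.stabilizer (Equiv.Perm α) (q 2), s i * g * (s i)⁻¹ ∈ G ⊓ MulAction.stabilizer (Equiv.Perm α) (q 2)) : MulAction.IsMultiplyPretransitive ↥(Subgroup.closure ((G : Set (Equiv.Perm α)) ∪ {x | ∃ i : ℕ, 2 ≤ i ∧ i + 1 ≤ t ∧ x = s i})) α t ∧ Subgroup.closure ((G : Set (Equiv.Perm α)) ∪ {x | ∃ i : ℕ, 2 ≤ i ∧ i + 1 ≤ t ∧ x = s i}) ⊓ fixingSubgroup (Equiv.Perm α) {x | ∃ i : ℕ, 1 ≤ i ∧ i ≤ t ∧ x = q i} = H := by
  set D : Subgroup (Equiv.Perm α) := G ⊓ MulAction.stabilizer (Equiv.Perm α) (q 2) with hD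
  have hDmem : ∀ g : Equiv.Perm α, g ∈ D ↔ g ∈ G ∧ g (q 2) = q 2 := by
    intro g
    rw [hD, Subgroup.mem_inf, MulAction.mem_stabilizer_iff, Equiv.Perm.smul_def]
  have hHmem : ∀ g : Equiv.Perm α, g ∈ H ↔ g ∈ D ∧ g (q 1) = q 1 := by
    intro g
    rw [hDmem, hH, Subgroup.mem_inf, Subgroup.mem_inf, MulAction.mem_stabilizer_iff,
      MulAction.mem_stabilizer_iff, Equiv.Perm.smul_def, Equiv.Perm.smul_def]
    tauto
  have hHD : H ≤ D := fun g hg => ((hHmem g).1 hg).1
  have hDG : D ≤ G := fun g hg => ((hDmem g).1 hg).1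
  have hDL : ∀ n, D ≤ chain D s n := fun n g hg => Subgroup.subset_closure (Or.inl hg)
  have hHL : ∀ n, H ≤ chain D s n := fun n => hHD.trans (hDL n)
  have hsL : ∀ n i, 1 ≤ i → i ≤ n → s i ∈ chain D s n := fun n i h1 h2 =>
    Subgroup.subset_closure (Or.inr ⟨i, h1, h2, rfl⟩)
  have hmono : ∀ n m, n ≤ m → chain D s n ≤ chain D s m := by
    intro n m hnm
    apply (Subgroup.closure_le _).2
    rintro g (hg | ⟨i, hi1, hi2, rfl⟩)
    · exact hDL m hg
    · exact hsL m i hi1 (hi2.trans hnm)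
  -- the permutations in the chain fix the last points
  have hne : ∀ i j : ℕ, 1 ≤ i → i ≤ t → 1 ≤ j → j ≤ t → i ≠ j → q i ≠ q j := by
    intro i j hi hi' hj hj' hij h
    exact hij (hq i j hi hi' hj hj' h)
  have hC : ∀ n, n + 1 ≤ t → ∀ g ∈ chain D s n, ∀ i, n + 2 ≤ i → i ≤ t → g (q i) = q i := by
    intro n hn g hg i hi1 hi2
    have hle : chain D s n ≤ MulAction.stabilizer (Equiv.Perm α) (q i) := by
      apply (Subgroup.closure_le _).2
      rintro g (hg | ⟨j, hj1, hj2, rfl⟩)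
      · rw [SetLike.mem_coe, MulAction.mem_stabilizer_iff, Equiv.Perm.smul_def]
        by_cases h : i = 2
        · rw [h]; exact ((hDmem g).1 hg).2
        · exact hfix g (hDG hg) i (by omega) hi2
      · rw [SetLike.mem_coe, MulAction.mem_stabilizer_iff, Equiv.Perm.smul_def]
        by_cases h : j = 1
        · rw [h]; exact hfix _ hs1 i (by omega) hi2
        · exact (hsq j (by omega) (by omega)).2.2 i (by omega) hi2 (by omega) (by omega)
    have := hle hg
    rwa [MulAction.mem_stabilizer_iff, Equiv.Perm.smul_def] at this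
  -- normalising
  have hA : ∀ n j, n + 2 ≤ j → j + 1 ≤ t → ∀ g ∈ chain D s n, s j * g * (s j)⁻¹ ∈ chain D s n := by
    intro n j hj hjt g hg
    have hle : chain D s n ≤ (chain D s n).comap (MulAut.conj (s j)).toMonoidHom := by
      apply (Subgroup.closure_le _).2
      rintro g (hg | ⟨i, hi1, hi2, rfl⟩)
      · rw [SetLike.mem_coe, Subgroup.mem_comap]
        exact hDL n (hnorm j (by omega) hjt g hg)
      · rw [SetLike.mem_coe, Subgroup.mem_comap]
        show s j * s i * (s j)⁻¹ ∈ _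
        have e : s j * s i * (s j)⁻¹ = (s j * s i) ^ 2 * (s i)⁻¹ * (s j ^ 2)⁻¹ := by
          simp only [pow_succ, pow_zero, one_mul]; group
        rw [e]
        refine mul_mem (mul_mem (hHL n (hcomm i j hi1 (by omega) hjt).2)
          (inv_mem (hsL n i hi1 hi2))) (inv_mem (hHL n (hsq2 j (by omega) hjt)))
    exact hle hg
  have hA' : ∀ n j, n + 2 ≤ j → j + 1 ≤ t → ∀ g ∈ chain D s n, (s j)⁻¹ * g * s j ∈ chain D s n := by
    intro n j hj hjt g hg
    have e : (s j)⁻¹ * g * s j = (s j ^ 2)⁻¹ * (s j * g * (s j)⁻¹) * (s j ^ 2) := by group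
    rw [e]
    exact mul_mem (mul_mem (inv_mem (hHL n (hsq2 j (by omega) hjt))) (hA n j hj hjt g hg))
      (hHL n (hsq2 j (by omega) hjt))
  -- double cosets at the bottom
  have hB0 : ∀ g ∈ G, g ∈ D ∨ ∃ x ∈ D, ∃ y ∈ D, g = x * s 1 * y := by
    intro g hg
    by_cases h : g (q 2) = q 2
    · exact Or.inl ((hDmem g).2 ⟨hg, h⟩)
    · right
      obtain ⟨x, hx, hx1, hx2⟩ := h2 (q 1) (q 2) (g (q 2)) (q 2) (by
        intro i hi1 hi2
        refine ⟨hne 1 i le_rfl (by omega) (by omega) hi2 (by omega),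
          hne 2 i (by omega) (by omega) (by omega) hi2 (by omega), ?_,
          hne 2 i (by omega) (by omega) (by omega) hi2 (by omega)⟩
        intro h'
        have := hfix g hg i hi1 hi2
        rw [← this] at h'
        exact hne 2 i (by omega) (by omega) (by omega) hi2 (by omega) (g.injective h'))
        (hne 1 2 le_rfl (by omega) (by omega) ht (by omega)) h
      refine ⟨x, (hDmem x).2 ⟨hx, hx2⟩, (x * s 1)⁻¹ * g, (hDmem _).2
        ⟨mul_mem (inv_mem (mul_mem hx hs1)) hg, ?_⟩, by group⟩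
      rw [Equiv.Perm.mul_apply, Equiv.Perm.inv_eq_iff_eq, Equiv.Perm.mul_apply, hs1q.2, hx1]
  have hL1G : chain D s 1 = G := by
    apply le_antisymm
    · apply (Subgroup.closure_le _).2
      rintro g (hg | ⟨i, hi1, hi2, rfl⟩)
      · exact hDG hg
      · have : i = 1 := by omega
        rw [this]; exact hs1
    · intro g hg
      rcases hB0 g hg with h | ⟨x, hx, y, hy, rfl⟩
      · exact hDL 1 h
      · exact mul_mem (mul_mem (hDL 1 hx) (hsL 1 1 le_rfl le_rfl)) (hDL 1 hy)
  have hL0 : chain D s 0 = D := by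
    apply le_antisymm
    · apply (Subgroup.closure_le _).2
      rintro g (hg | ⟨i, hi1, hi2, rfl⟩)
      · exact hg
      · omega
    · exact hDL 0
  -- double cosets
  have hB : ∀ n, n + 2 ≤ t → ∀ g ∈ chain D s (n + 1), g ∈ chain D s n ∨
      ∃ x ∈ chain D s n, ∃ y ∈ chain D s n, g = x * s (n + 1) * y := by
    intro n
    induction n with
    | zero =>
      intro _ g hg
      rw [zero_add, hL1G] at hg
      rw [hL0]
      exact hB0 g hg
    | succ n ih =>
      intro hnt g hg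
      have ih' := ih (by omega)
      -- closure under right multiplication
      have key : ∀ g : Equiv.Perm α, (g ∈ chain D s (n + 1) ∨
          ∃ x ∈ chain D s (n + 1), ∃ y ∈ chain D s (n + 1), g = x * s (n + 1 + 1) * y) →
          ((g * s (n + 1 + 1)) ∈ chain D s (n + 1) ∨
          ∃ x ∈ chain D s (n + 1), ∃ y ∈ chain D s (n + 1),
            g * s (n + 1 + 1) = x * s (n + 1 + 1) * y) := by
        intro g hg
        rcases hg with hg | ⟨x, hx, y, hy, rfl⟩
        · exact Or.inr ⟨g, hg, 1, one_mem _, by group⟩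
        · rcases ih' y hy with hy' | ⟨u, hu, v, hv, rfl⟩
          · left
            have e : x * s (n + 1 + 1) * y * s (n + 1 + 1) =
              x * (s (n + 1 + 1) * y * (s (n + 1 + 1))⁻¹) * (s (n + 1 + 1)) ^ 2 := by group
            rw [e]
            exact mul_mem (mul_mem hx (hmono n (n + 1) (by omega)
              (hA n (n + 1 + 1) (by omega) (by omega) y hy')))
              (hHL _ (hsq2 (n + 1 + 1) (by omega) (by omega)))
          · right
            refine ⟨x * (s (n + 1 + 1) * u * (s (n + 1 + 1))⁻¹) * (s (n + 1))⁻¹ *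
              (s (n + 1) * s (n + 1 + 1)) ^ 3, ?_,
              (s (n + 1 + 1) ^ 2)⁻¹ * (s (n + 1))⁻¹ * ((s (n + 1 + 1))⁻¹ * v * s (n + 1 + 1)), ?_, ?_⟩
            · exact mul_mem (mul_mem (mul_mem hx (hmono n (n + 1) (by omega)
                (hA n (n + 1 + 1) (by omega) (by omega) u hu)))
                (inv_mem (hsL _ (n + 1) (by omega) le_rfl)))
                (hHL _ (hbraid (n + 1) (by omega) (by omega)))
            · exact mul_mem (mul_mem (inv_mem (hHL _ (hsq2 (n + 1 + 1) (by omega) (by omega))))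
                (inv_mem (hsL _ (n + 1) (by omega) le_rfl))) (hmono n (n + 1) (by omega)
                (hA' n (n + 1 + 1) (by omega) (by omega) v hv))
            · simp only [pow_succ, pow_zero, one_mul]; group
      have keyL : ∀ g : Equiv.Perm α, ∀ h ∈ chain D s (n + 1), (g ∈ chain D s (n + 1) ∨
          ∃ x ∈ chain D s (n + 1), ∃ y ∈ chain D s (n + 1), g = x * s (n + 1 + 1) * y) →
          ((g * h) ∈ chain D s (n + 1) ∨
          ∃ x ∈ chain D s (n + 1), ∃ y ∈ chain D s (n + 1),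
            g * h = x * s (n + 1 + 1) * y) := by
        intro g h hh hg
        rcases hg with hg | ⟨x, hx, y, hy, rfl⟩
        · exact Or.inl (mul_mem hg hh)
        · exact Or.inr ⟨x, hx, y * h, mul_mem hy hh, by group⟩
      have key' : ∀ g : Equiv.Perm α, (g ∈ chain D s (n + 1) ∨
          ∃ x ∈ chain D s (n + 1), ∃ y ∈ chain D s (n + 1), g = x * s (n + 1 + 1) * y) →
          ((g * (s (n + 1 + 1))⁻¹) ∈ chain D s (n + 1) ∨
          ∃ x ∈ chain D s (n + 1), ∃ y ∈ chain D s (n + 1),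
            g * (s (n + 1 + 1))⁻¹ = x * s (n + 1 + 1) * y) := by
        intro g hg
        have e : g * (s (n + 1 + 1))⁻¹ = g * s (n + 1 + 1) * (s (n + 1 + 1) ^ 2)⁻¹ := by group
        rw [e]
        exact keyL _ _ (inv_mem (hHL _ (hsq2 (n + 1 + 1) (by omega) (by omega)))) (key g hg)
      refine Subgroup.closure_induction_right (p := fun g _ => (g ∈ chain D s (n + 1) ∨
          ∃ x ∈ chain D s (n + 1), ∃ y ∈ chain D s (n + 1), g = x * s (n + 1 + 1) * y))
          (Or.inl (one_mem _)) ?_ ?_ hg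
      · rintro g _ h (hh | ⟨i, hi1, hi2, rfl⟩) ih
        · exact keyL g h (hDL _ hh) ih
        · by_cases hi : i = n + 1 + 1
          · rw [hi]; exact key g ih
          · exact keyL g _ (hsL _ i hi1 (by omega)) ih
      · rintro g _ h (hh | ⟨i, hi1, hi2, rfl⟩) ih
        · exact keyL g _ (inv_mem (hDL _ hh)) ih
        · by_cases hi : i = n + 1 + 1
          · rw [hi]; exact key' g ih
          · exact keyL g _ (inv_mem (hsL _ i hi1 (by omega))) ih
  -- action of `s (n+1)` on the points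
  have hsn : ∀ n, n + 2 ≤ t → s (n + 1) (q (n + 2)) = q (n + 1) ∧
      s (n + 1) (q (n + 1)) = q (n + 2) := by
    intro n hn
    by_cases h : n = 0
    · subst h; exact ⟨hs1q.2, hs1q.1⟩
    · have := hsq (n + 1) (by omega) (by omega)
      exact ⟨this.2.1, this.1⟩
  have hDd : ∀ n, n + 2 ≤ t → ∀ g ∈ chain D s (n + 1), g (q (n + 2)) = q (n + 2) →
      g ∈ chain D s n := by
    intro n hn g hg hgq
    rcases hB n hn g hg with h | ⟨x, hx, y, hy, rfl⟩
    · exact h
    · exfalso
      rw [Equiv.Perm.mul_apply, Equiv.Perm.mul_apply, hC n (by omega) y hy (n + 2) le_rfl hn,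
        (hsn n hn).1] at hgq
      have hx' := hC n (by omega) x hx (n + 2) le_rfl hn
      have := x.injective (hgq.trans hx'.symm)
      exact hne (n + 1) (n + 2) (by omega) (by omega) (by omega) hn (by omega) this
  -- transitivity
  have hE' : ∀ n, n + 1 ≤ t → ∀ x : α, (∀ j, n + 2 ≤ j → j ≤ t → x ≠ q j) →
      ∃ g ∈ chain D s n, g x = q (n + 1) := by
    intro n
    induction n with
    | zero =>
      intro _ x hx
      obtain ⟨g, hg, hg1, hg2⟩ := h2 x (q 2) (q 1) (q 2) (by
        intro i hi1 hi2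
        exact ⟨hx i (by omega) hi2, hne 2 i (by omega) (by omega) (by omega) hi2 (by omega),
          hne 1 i (by omega) (by omega) (by omega) hi2 (by omega),
          hne 2 i (by omega) (by omega) (by omega) hi2 (by omega)⟩) (hx 2 le_rfl ht)
          (hne 1 2 (by omega) (by omega) (by omega) ht (by omega))
      exact ⟨g, by rw [hL0]; exact (hDmem g).2 ⟨hg, hg2⟩, hg1⟩
    | succ n ih =>
      intro hn x hx
      by_cases hxq : x = q (n + 2)
      · exact ⟨1, one_mem _, by rw [hxq]; rfl⟩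
      · obtain ⟨g, hg, hgx⟩ := ih (by omega) x (by
          intro j hj hj'
          by_cases h : j = n + 2
          · rw [h]; exact hxq
          · exact hx j (by omega) hj')
        refine ⟨s (n + 1) * g, mul_mem (hsL _ _ (by omega) le_rfl)
          (hmono n (n + 1) (by omega) hg), ?_⟩
        rw [Equiv.Perm.mul_apply, hgx]
        exact (hsn n (by omega)).2
  have hE : ∀ n, n + 1 ≤ t → ∀ x : ℕ → α,
      (∀ i j, 1 ≤ i → i ≤ n + 1 → 1 ≤ j → j ≤ n + 1 → x i = x j → i = j) →
      (∀ i, 1 ≤ i → i ≤ n + 1 → ∀ j, n + 2 ≤ j → j ≤ t → x i ≠ q j) →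
      ∃ g ∈ chain D s n, ∀ i, 1 ≤ i → i ≤ n + 1 → g (x i) = q i := by
    intro n
    induction n with
    | zero =>
      intro hn x _ hx
      obtain ⟨g, hg, hgx⟩ := hE' 0 hn (x 1) (hx 1 le_rfl le_rfl)
      refine ⟨g, hg, ?_⟩
      intro i hi1 hi2
      have : i = 1 := by omega
      rw [this]; exact hgx
    | succ n ih =>
      intro hn x hxi hx
      obtain ⟨g, hg, hgx⟩ := hE' (n + 1) hn (x (n + 2)) (hx (n + 2) (by omega) (by omega))
      have hgx' : g (x (n + 2)) = q (n + 2) := hgx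
      obtain ⟨g', hg', hgx''⟩ := ih (by omega) (fun i => g (x i)) (by
        intro i j hi1 hi2 hj1 hj2 hij
        exact hxi i j hi1 (by omega) hj1 (by omega) (g.injective hij)) (by
        intro i hi1 hi2 j hj1 hj2 hij
        by_cases hj : j = n + 2
        · rw [hj, ← hgx'] at hij
          have := hxi i (n + 2) hi1 (by omega) (by omega) (by omega) (g.injective hij)
          omega
        · have hgq := hC (n + 1) hn g hg j (by omega) hj2
          rw [← hgq] at hij
          exact hx i hi1 (by omega) j (by omega) hj2 (g.injective hij))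
      refine ⟨g' * g, mul_mem (hmono n (n + 1) (by omega) hg') hg, ?_⟩
      intro i hi1 hi2
      rw [Equiv.Perm.mul_apply]
      by_cases hi : i = n + 2
      · rw [hi, hgx']
        exact hC n (by omega) g' hg' (n + 2) le_rfl (by omega)
      · exact hgx'' i hi1 (by omega)
  have hcl : Subgroup.closure ((G : Set (Equiv.Perm α)) ∪ {x | ∃ i : ℕ, 2 ≤ i ∧ i + 1 ≤ t ∧ x = s i})
      = chain D s (t - 1) := by
    apply le_antisymm
    · apply (Subgroup.closure_le _).2
      rintro g (hg | ⟨i, hi1, hi2, rfl⟩)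
      · apply hmono 1 (t - 1) (by omega)
        rw [hL1G]; exact hg
      · exact hsL _ i (by omega) (by omega)
    · apply (Subgroup.closure_le _).2
      rintro g (hg | ⟨i, hi1, hi2, rfl⟩)
      · exact Subgroup.subset_closure (Or.inl (hDG hg))
      · by_cases hi : i = 1
        · rw [hi]; exact Subgroup.subset_closure (Or.inl hs1)
        · exact Subgroup.subset_closure (Or.inr ⟨i, by omega, by omega, rfl⟩)
  rw [hcl]
  constructor
  · rw [MulAction.isMultiplyPretransitive_iff]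
    have hmove : ∀ x : Fin t ↪ α, ∃ g : chain D s (t - 1), ∀ i : Fin t,
        (g : Equiv.Perm α) (x i) = q (i + 1) := by
      intro x
      obtain ⟨g, hg, hgx⟩ := hE (t - 1) (by omega)
        (fun i => if h : i - 1 < t then x ⟨i - 1, h⟩ else q 1) (by
          intro i j hi1 hi2 hj1 hj2 hij
          rw [dif_pos (show i - 1 < t by omega), dif_pos (show j - 1 < t by omega)] at hij
          have : i - 1 = j - 1 := congrArg Fin.val (x.injective hij)
          omega) (by
          intro i hi1 hi2 j hj1 hj2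
          omega)
      refine ⟨⟨g, hg⟩, ?_⟩
      intro i
      have := hgx (i + 1) (by omega) (by omega)
      simp only [Nat.add_sub_cancel] at this
      rw [dif_pos i.2] at this
      exact this
    intro x y
    obtain ⟨g, hg⟩ := hmove x
    obtain ⟨h, hh⟩ := hmove y
    refine ⟨h⁻¹ * g, ?_⟩
    ext i
    show ((h⁻¹ * g : chain D s (t - 1)) : Equiv.Perm α) (x i) = y i
    rw [Subgroup.coe_mul, Subgroup.coe_inv, Equiv.Perm.mul_apply, Equiv.Perm.inv_eq_iff_eq, hg, hh]
  · apply le_antisymm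
    · rintro g ⟨hg, hgf⟩
      have hgf' : ∀ i, 1 ≤ i → i ≤ t → g (q i) = q i := by
        intro i hi1 hi2
        have := (mem_fixingSubgroup_iff (Equiv.Perm α)).1 hgf (q i) ⟨i, hi1, hi2, rfl⟩
        rwa [Equiv.Perm.smul_def] at this
      have hdown : ∀ n, n + 1 ≤ t → g ∈ chain D s n → g ∈ D := by
        intro n
        induction n with
        | zero => intro _ h; rwa [hL0] at h
        | succ n ih =>
          intro hn h
          exact ih (by omega) (hDd n (by omega) g h (hgf' (n + 2) (by omega) (by omega)))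
      exact (hHmem g).2 ⟨hdown (t - 1) (by omega) hg, hgf' 1 le_rfl (by omega)⟩
    · intro g hg
      refine ⟨hHL _ hg, ?_⟩
      refine (mem_fixingSubgroup_iff (Equiv.Perm α)).2 ?_
      rintro _ ⟨i, hi1, hi2, rfl⟩
      rw [Equiv.Perm.smul_def]
      by_cases hi : i = 1
      · rw [hi]; exact ((hHmem g).1 hg).2
      · exact hC 0 (by omega) g (hHL 0 hg) i (by omega) hi2

end Cfsg.Agent.S0709
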