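import Cfsg.Statements.S0710
import Mathlib
set_option linter.all false

set_option autoImplicit false
open Cfsg

namespace Cfsg.Agent.S0710

open Equiv.Perm

theorem mem_zpowers_of_commute {α : Type*} [Fintype α] [DecidableEq α]
    (hα : Fintype.card α = 13) (σ : Equiv.Perm α) (hσ : orderOf σ = 13) (c : Equiv.Perm α)
    (hc : Commute c σ) : c ∈ Subgroup.zpowers σ := by
  have hcyc : σ.IsCycle := isCycle_of_prime_order'' (by rw [hα]; norm_num) (by rw [hσ, hα])
  have hsupp : σ.support = ⊤ := by
    apply Finset.eq_univ_of_card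
    rw [← hcyc.orderOf, hσ, hα]
  have hmem : ∀ x, σ x ≠ x := by
    intro x
    rw [← mem_support, hsupp]
    exact Finset.mem_univ x
  obtain ⟨x0⟩ : Nonempty α := by
    rw [← Fintype.card_pos_iff, hα]; norm_num
  obtain ⟨i, hi⟩ := hcyc.exists_zpow_eq (hmem x0) (hmem (c x0))
  rw [Subgroup.mem_zpowers_iff]
  refine ⟨i, ?_⟩
  ext y
  obtain ⟨j, hj⟩ := hcyc.exists_zpow_eq (hmem x0) (hmem y)
  rw [← hj, ← mul_apply, ← mul_apply, ← zpow_add, add_comm, zpow_add, mul_apply, hi,
    (hc.zpow_right j).eq, mul_apply]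

/-- No transitive permutation group on 13 points has order `13 * 12 * 11 * 10 * 9 * 8`. -/
theorem result {α : Type*} [Fintype α] [DecidableEq α] (hα : Fintype.card α = 13) (G : Subgroup (Equiv.Perm α)) [MulAction.IsPretransitive G α] : Nat.card G ≠ 13 * 12 * 11 * 10 * 9 * 8 := by
  intro hcard
  have : Fact (Nat.Prime 13) := ⟨by norm_num⟩
  obtain ⟨P⟩ : Nonempty (Sylow 13 G) := inferInstance
  -- the order of `P`
  have hP : Nat.card (P : Subgroup G) = 13 := by
    obtain ⟨k, hk⟩ := IsPGroup.iff_card.1 P.isPGroup'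
    have h1 : 13 ∣ Nat.card (P : Subgroup G) :=
      P.dvd_card_of_dvd_card (by rw [hcard]; norm_num)
    have h2 : Nat.card (P : Subgroup G) ∣ Nat.card G := Subgroup.card_subgroup_dvd_card _
    rw [hcard, hk] at h2
    rw [hk] at h1 ⊢
    rcases k with _ | _ | k
    · norm_num at h1
    · norm_num
    · exfalso
      have h3 : 13 ^ 2 ∣ 13 * 12 * 11 * 10 * 9 * 8 :=
        (pow_dvd_pow 13 (by omega : 2 ≤ k + 1 + 1)).trans h2
      revert h3
      norm_num
  have hPc : IsCyclic (P : Subgroup G) := isCyclic_of_prime_card hP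
  -- the centralizer
  obtain ⟨s, hs⟩ := IsCyclic.exists_generator (α := (P : Subgroup G))
  have hso : orderOf ((s : G) : Equiv.Perm α) = 13 := by
    rw [Subgroup.orderOf_coe, Subgroup.orderOf_coe, orderOf_eq_card_of_forall_mem_zpowers hs, hP]
  have hcent : Subgroup.centralizer ((P : Subgroup G) : Set G) ≤ (P : Subgroup G) := by
    intro c hc
    rw [Subgroup.mem_centralizer_iff] at hc
    have h1 : (s : G) * c = c * (s : G) := hc _ s.2
    have h2 : Commute (c : Equiv.Perm α) ((s : G) : Equiv.Perm α) :=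
      (congrArg (Subtype.val) h1).symm
    obtain ⟨i, hi⟩ := Subgroup.mem_zpowers_iff.1 (mem_zpowers_of_commute hα _ hso _ h2)
    have h3 : c = ((s ^ i : (P : Subgroup G)) : G) := by
      apply Subtype.ext
      rw [← hi]
      simp
    rw [h3]
    exact (s ^ i).2
  have key := Subgroup.card_dvd_of_injective _
    (QuotientGroup.kerLift_injective (P : Subgroup G).normalizerMonoidHom)
  rw [Subgroup.normalizerMonoidHom_ker, ← Subgroup.index, ← Subgroup.relIndex,
    hPc.card_mulAut, hP] at key
  have hCP : Subgroup.centralizer ((P : Subgroup G) : Set G) = (P : Subgroup G) := by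
    apply le_antisymm hcent
    exact Subgroup.le_centralizer (P : Subgroup G)
  rw [hCP] at key
  have hidx := Subgroup.relIndex_mul_index (Subgroup.le_normalizer (H := (P : Subgroup G)))
  have hn := card_sylow_modEq_one 13 G
  rw [P.card_eq_index_normalizer] at hn
  have hPi := Subgroup.card_mul_index (P : Subgroup G)
  rw [hP, hcard, ← hidx] at hPi
  generalize (P : Subgroup G).relIndex (Subgroup.normalizer ((P : Subgroup G) : Set G)) = r at *
  generalize (Subgroup.normalizer ((P : Subgroup G) : Set G)).index = t at *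
  have h12 : Nat.totient 13 = 12 := by rw [Nat.totient_prime (by norm_num)]
  rw [h12] at key
  have hr : r ≤ 12 := Nat.le_of_dvd (by norm_num) key
  have hmod : t % 13 = 1 := hn
  interval_cases r <;> omega

end Cfsg.Agent.S0710
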