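import Cfsg.Statements.S0714
import Mathlib
set_option linter.all false

set_option autoImplicit false
open Cfsg

namespace Cfsg.Agent.S0714

section
variable {α : Type*} [Fintype α] [DecidableEq α] {K : Type*} [Field K]

/-- The 3-cycle `x → y → z → x` as an element of the alternating group. -/
noncomputable def cyc (x y z : α) (hxy : x ≠ y) (hxz : x ≠ z) (hyz : y ≠ z) : alternatingGroup α :=
  ⟨Equiv.swap x y * Equiv.swap y z, by
    rw [Equiv.Perm.mem_alternatingGroup, Equiv.Perm.sign_mul, Equiv.Perm.sign_swap hxy,
      Equiv.Perm.sign_swap hyz]; simp⟩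

theorem permRep_cyc (x y z : α) (hxy : x ≠ y) (hxz : x ≠ z) (hyz : y ≠ z) (f : α → K) (t : α) :
    permRep K (alternatingGroup α) α (cyc x y z hxy hxz hyz) f t =
      if t = x then f z else if t = y then f x else if t = z then f y else f t := by
  change f ((Equiv.swap x y * Equiv.swap y z)⁻¹ t) = _
  rw [mul_inv_rev, Equiv.swap_inv, Equiv.swap_inv, Equiv.Perm.mul_apply]
  by_cases h1 : t = x
  · subst h1
    rw [Equiv.swap_apply_left, Equiv.swap_apply_left, if_pos rfl]
  rw [if_neg h1]
  by_cases h2 : t = y
  · subst h2
    rw [Equiv.swap_apply_right, Equiv.swap_apply_of_ne_of_ne hxy hxz, if_pos rfl]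
  rw [if_neg h2, Equiv.swap_apply_of_ne_of_ne h1 h2]
  by_cases h3 : t = z
  · subst h3
    rw [Equiv.swap_apply_right, if_pos rfl]
  rw [if_neg h3, Equiv.swap_apply_of_ne_of_ne h2 h3]

end

/-- Over any field, the permutation module of the alternating group of degree at least 5 has exactly four invariant subspaces: zero, the constant functions, the functions with coordinate sum zero, and everything. -/
theorem result {α : Type*} [Fintype α] [DecidableEq α] (hα : 5 ≤ Fintype.card α) {K : Type*} [Field K] (W : Subrepresentation (Cfsg.permRep K (alternatingGroup α) α)) : W.toSubmodule = ⊥ ∨ W = Cfsg.permConstants K (alternatingGroup α) α ∨ W = Cfsg.permSumZero K (alternatingGroup α) α ∨ W.toSubmodule = ⊤ := by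
  -- existence of points outside a small set
  have hout : ∀ s : Finset α, s.card < 5 → ∃ p, p ∉ s := by
    intro s hs
    by_contra hcon
    push Not at hcon
    have : s = Finset.univ := Finset.eq_univ_of_forall hcon
    rw [this, Finset.card_univ] at hs
    omega
  by_cases hconst : ∀ f ∈ W.toSubmodule, ∀ x y, f x = f y
  · -- all elements are constant
    by_cases hbot : W.toSubmodule = ⊥
    · exact Or.inl hbot
    · right; left
      apply Subrepresentation.toSubmodule_injective
      obtain ⟨f, hf, hf0⟩ := Submodule.exists_mem_ne_zero_of_ne_bot hbot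
      obtain ⟨x, hx⟩ : ∃ x, f x ≠ 0 := by
        by_contra hcon
        push Not at hcon
        exact hf0 (funext hcon)
      change W.toSubmodule = Submodule.span K {fun _ => 1}
      apply le_antisymm
      · intro g hg
        rw [Submodule.mem_span_singleton]
        refine ⟨g x, ?_⟩
        funext y
        simp [hconst g hg y x]
      · rw [Submodule.span_singleton_le_iff_mem]
        have : (fun _ => 1 : α → K) = (f x)⁻¹ • f := by
          funext y
          simp [hconst f hf y x, hx]
        rw [this]
        exact W.toSubmodule.smul_mem _ hf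
  · push Not at hconst
    obtain ⟨f, hf, x, y, hxy⟩ := hconst
    have hne : x ≠ y := fun h => hxy (by rw [h])
    obtain ⟨z, hz⟩ := hout {x, y} (lt_of_le_of_lt Finset.card_le_two (by norm_num))
    simp only [Finset.mem_insert, Finset.mem_singleton, not_or] at hz
    obtain ⟨hzx, hzy⟩ := hz
    obtain ⟨p, hp⟩ := hout {x, y, z} (lt_of_le_of_lt Finset.card_le_three (by norm_num))
    simp only [Finset.mem_insert, Finset.mem_singleton, not_or] at hp
    obtain ⟨hpx, hpy, hpz⟩ := hp
    obtain ⟨q, hq⟩ := hout {x, y, z, p} (lt_of_le_of_lt Finset.card_le_four (by norm_num))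
    simp only [Finset.mem_insert, Finset.mem_singleton, not_or] at hq
    obtain ⟨hqx, hqy, hqz, hqp⟩ := hq
    -- first vector
    set v : α → K := permRep K (alternatingGroup α) α
      (cyc x y z hne (Ne.symm hzx) (Ne.symm hzy)) f - f with hv
    have hvW : v ∈ W.toSubmodule :=
      W.toSubmodule.sub_mem (W.apply_mem_toSubmodule _ hf) hf
    have hvval : ∀ t, v t = (if t = x then f z else if t = y then f x else if t = z then f y else f t)
        - f t := by
      intro t
      rw [hv, Pi.sub_apply, permRep_cyc]
    have hvy : v y = f x - f y := by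
      rw [hvval, if_neg (Ne.symm hne), if_pos rfl]
    have hvo : ∀ t, t ≠ x → t ≠ y → t ≠ z → v t = 0 := by
      intro t h1 h2 h3
      rw [hvval, if_neg h1, if_neg h2, if_neg h3, sub_self]
    have hvp : v p = 0 := hvo p hpx hpy hpz
    have hvq : v q = 0 := hvo q hqx hqy hqz
    -- second vector
    set w : α → K := permRep K (alternatingGroup α) α
      (cyc y p q (Ne.symm hpy) (Ne.symm hqy) (Ne.symm hqp)) v - v with hw
    have hwW : w ∈ W.toSubmodule :=
      W.toSubmodule.sub_mem (W.apply_mem_toSubmodule _ hvW) hvW
    have hwval : w = (f x - f y) • (Pi.single p 1 - Pi.single y 1 : α → K) := by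
      funext t
      rw [hw, Pi.sub_apply, permRep_cyc, Pi.smul_apply, Pi.sub_apply, Pi.single_apply,
        Pi.single_apply]
      by_cases h1 : t = y
      · subst h1
        rw [if_pos rfl, hvq, hvy, if_neg (Ne.symm hpy), if_pos rfl]
        simp
      rw [if_neg h1, if_neg h1]
      by_cases h2 : t = p
      · subst h2
        rw [if_pos rfl, if_pos rfl, hvp, hvy]
        simp
      rw [if_neg h2, if_neg h2]
      by_cases h3 : t = q
      · subst h3
        rw [if_pos rfl, hvp, hvq]
        simp
      rw [if_neg h3]
      simp
    have hbase : (Pi.single p 1 - Pi.single y 1 : α → K) ∈ W.toSubmodule := by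
      have h1 : (Pi.single p 1 - Pi.single y 1 : α → K) = (f x - f y)⁻¹ • w := by
        rw [hwval, smul_smul, inv_mul_cancel₀ (sub_ne_zero.mpr hxy), one_smul]
      rw [h1]
      exact W.toSubmodule.smul_mem _ hwW
    -- all differences with y
    have hall : ∀ r, (Pi.single r 1 - Pi.single y 1 : α → K) ∈ W.toSubmodule := by
      intro r
      by_cases hry : r = y
      · subst hry
        rw [sub_self]
        exact W.toSubmodule.zero_mem
      by_cases hrp : r = p
      · subst hrp
        exact hbase
      obtain ⟨s, hs⟩ := hout {p, y, r} (lt_of_le_of_lt Finset.card_le_three (by norm_num))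
      simp only [Finset.mem_insert, Finset.mem_singleton, not_or] at hs
      obtain ⟨hsp, hsy, hsr⟩ := hs
      have h2 := W.apply_mem_toSubmodule (cyc p r s (Ne.symm hrp) (Ne.symm hsp) (Ne.symm hsr)) hbase
      have h3 : permRep K (alternatingGroup α) α
          (cyc p r s (Ne.symm hrp) (Ne.symm hsp) (Ne.symm hsr))
            (Pi.single p 1 - Pi.single y 1 : α → K) = (Pi.single r 1 - Pi.single y 1 : α → K) := by
        funext t
        rw [permRep_cyc]
        simp only [Pi.sub_apply, Pi.single_apply]
        by_cases h1 : t = p
        · subst h1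
          simp [hsp, hsy, Ne.symm hrp, hpy]
        rw [if_neg h1, if_neg h1]
        by_cases h2 : t = r
        · subst h2
          simp [hpy, hry]
        rw [if_neg h2, if_neg h2]
        by_cases h4 : t = s
        · subst h4
          simp [hrp, hry, hsy]
        rw [if_neg h4]
      rw [h3] at h2
      exact h2
    have hsum : ∀ g : α → K, ∑ t, g t = 0 → g ∈ W.toSubmodule := by
      intro g hg
      have h1 : g = ∑ t, g t • (Pi.single t 1 - Pi.single y 1 : α → K) := by
        funext t
        simp only [Finset.sum_apply, Pi.smul_apply, Pi.sub_apply, smul_eq_mul, mul_sub,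
          Finset.sum_sub_distrib, ← Finset.sum_mul, hg, zero_mul, sub_zero]
        simp [Pi.single_apply]
      rw [h1]
      exact W.toSubmodule.sum_mem fun t _ => W.toSubmodule.smul_mem _ (hall t)
    by_cases hz : ∀ g ∈ W.toSubmodule, ∑ t, g t = 0
    · right; right; left
      apply Subrepresentation.toSubmodule_injective
      apply le_antisymm
      · intro g hg
        exact hz g hg
      · intro g hg
        exact hsum g hg
    · push Not at hz
      obtain ⟨g, hg, hgs⟩ := hz
      right; right; right
      rw [eq_top_iff]
      intro h _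
      have h1 : h = (h - ((∑ t, h t) / (∑ t, g t)) • g) + ((∑ t, h t) / (∑ t, g t)) • g := by
        simp
      rw [h1]
      refine W.toSubmodule.add_mem (hsum _ ?_) (W.toSubmodule.smul_mem _ hg)
      simp only [Pi.sub_apply, Pi.smul_apply, smul_eq_mul, Finset.sum_sub_distrib, ← Finset.mul_sum]
      rw [div_mul_cancel₀ _ hgs, sub_self]

end Cfsg.Agent.S0714
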