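import Mathlib
import Cfsg.Agent.PermutationGroups.PermChar
import Cfsg.Statements.S0719
set_option linter.all false

-- part: PermutationGroups/WielandtType/Arith
section
set_option autoImplicit false

namespace Cfsg.Agent.PermutationGroups.WielandtType.Arith

/-- The integer `s` (sum of the two non-principal eigenvalues) is `0` or `-1`. -/
theorem s_cases {m k s : ℤ} (hk : 1 ≤ k) (hkm : k ≤ m - 1)
    (h : (m - 1) * (k + m * s) ^ 2 + m * (k + (m - 1) * s) ^ 2 = 2 * m * k - k ^ 2) :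
    s = 0 ∨ s = -1 := by
  have hm : 2 ≤ m := by omega
  rcases lt_or_ge s (-1) with hs | hs
  · exfalso
    -- `k + (m-1) s ≤ -(m-1)` and `k + m s ≤ -(m+1)`
    have h1 : k + m * s ≤ -(m + 1) := by nlinarith
    have h2 : (m + 1) ^ 2 ≤ (k + m * s) ^ 2 := by nlinarith
    have h3 : 0 ≤ m * (k + (m - 1) * s) ^ 2 := by positivity
    have h4 : (m - 1) * (m + 1) ^ 2 ≤ (m - 1) * (k + m * s) ^ 2 :=
      mul_le_mul_of_nonneg_left h2 (by omega)
    have h5 : 2 * m * k - k ^ 2 ≤ m ^ 2 := by nlinarith [sq_nonneg (m - k)]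
    nlinarith
  · rcases lt_or_ge 0 s with hs' | hs'
    · exfalso
      have h1 : m + 1 ≤ k + m * s := by nlinarith
      have h2 : (m + 1) ^ 2 ≤ (k + m * s) ^ 2 := by nlinarith
      have h3 : 0 ≤ m * (k + (m - 1) * s) ^ 2 := by positivity
      have h4 : (m - 1) * (m + 1) ^ 2 ≤ (m - 1) * (k + m * s) ^ 2 :=
        mul_le_mul_of_nonneg_left h2 (by omega)
      have h5 : 2 * m * k - k ^ 2 ≤ m ^ 2 := by nlinarith [sq_nonneg (m - k)]
      nlinarith
    · omega

theorem s_zero {m k : ℤ} (hk : 1 ≤ k) (hkm : k ≤ m - 1)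
    (h : (m - 1) * (k + m * 0) ^ 2 + m * (k + (m - 1) * 0) ^ 2 = 2 * m * k - k ^ 2) :
    k = 1 := by
  have h1 : 2 * m * k * (k - 1) = 0 := by linarith
  have : k - 1 = 0 := by
    rcases mul_eq_zero.1 h1 with h2 | h2
    · rcases mul_eq_zero.1 h2 with h3 | h3 <;> omega
    · exact h2
  omega

theorem s_neg_one {m k : ℤ} (hk : 1 ≤ k) (hkm : k ≤ m - 1)
    (h : (m - 1) * (k + m * (-1)) ^ 2 + m * (k + (m - 1) * (-1)) ^ 2 = 2 * m * k - k ^ 2) :
    ∃ a : ℕ, 0 < a ∧ m = 2 * a ^ 2 + 2 * a + 1 ∧ k = a * (2 * a + 1) ∧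
      2 * m - 1 - k = (a + 1) * (2 * a + 1) := by
  obtain ⟨a, ha⟩ : ∃ a : ℕ, (a : ℤ) = m - k - 1 := ⟨(m - k - 1).toNat, by omega⟩
  have hk' : k = m - a - 1 := by omega
  subst hk'
  have h1 : m * (((a : ℤ) + 1) ^ 2 + (a : ℤ) ^ 2 - m) = 0 := by linarith
  have h2 : ((a : ℤ) + 1) ^ 2 + (a : ℤ) ^ 2 - m = 0 := by
    rcases mul_eq_zero.1 h1 with h3 | h3
    · omega
    · exact h3
  have h4 : m = 2 * (a : ℤ) ^ 2 + 2 * a + 1 := by linarith
  refine ⟨a, ?_, h4, by rw [h4]; ring, by rw [h4]; ring⟩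
  rcases Nat.eq_zero_or_pos a with h5 | h5
  · subst h5
    simp at h4
    omega
  · exact h5

end Cfsg.Agent.PermutationGroups.WielandtType.Arith
end

-- part: PermutationGroups/WielandtType/Rep
section
set_option autoImplicit false

open Module LinearMap

namespace Cfsg.Agent.PermutationGroups.WielandtType.Rep

variable {G : Type*} [Group G]

/-- An equivariant idempotent `E` cuts out a subrepresentation (on `range E`) with character
`g ↦ tr (E ∘ ρ g)`. -/
theorem exists_rep_of_idem {V : Type*} [AddCommGroup V] [Module ℂ V] [FiniteDimensional ℂ V]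
    (ρ : Representation ℂ G V) (E : V →ₗ[ℂ] V) (hE : E ∘ₗ E = E)
    (hc : ∀ g, E ∘ₗ ρ g = ρ g ∘ₗ E) :
    ∃ σ : Representation ℂ G (LinearMap.range E),
      ∀ g, σ.character g = LinearMap.trace ℂ V (E ∘ₗ ρ g) := by
  have hinv : ∀ g : G, ∀ v ∈ LinearMap.range E, ρ g v ∈ LinearMap.range E := by
    rintro g _ ⟨w, rfl⟩
    exact ⟨ρ g w, by
      have := congrArg (fun f => f w) (hc g)
      simpa using this⟩
  let S : Subrepresentation ρ := ⟨LinearMap.range E, hinv⟩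
  refine ⟨S.toRepresentation, fun g => ?_⟩
  have hf : ∀ x, (E ∘ₗ ρ g) x ∈ LinearMap.range E := fun x => ⟨ρ g x, rfl⟩
  rw [← LinearMap.trace_restrict_eq_of_forall_mem (LinearMap.range E) (E ∘ₗ ρ g) hf]
  have : S.toRepresentation g = (E ∘ₗ ρ g).restrict (fun x _ => hf x) := by
    ext ⟨x, hx⟩
    obtain ⟨y, rfl⟩ := hx
    have h1 : E (ρ g (E y)) = ρ g (E y) := by
      have h2 : E (E (ρ g y)) = E (ρ g y) := congrArg (fun f => f (ρ g y)) hE
      have h3 : E (ρ g y) = ρ g (E y) := congrArg (fun f => f y) (hc g)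
      rw [← h3, h2]
    change ρ g (E y) = E (ρ g (E y))
    rw [h1]
  change LinearMap.trace ℂ _ (S.toRepresentation g) = _
  rw [this]

theorem hom_dim_add [Finite G] {V₁ V₂ W₁ W₂ U : Type*}
    [AddCommGroup V₁] [Module ℂ V₁] [FiniteDimensional ℂ V₁]
    [AddCommGroup V₂] [Module ℂ V₂] [FiniteDimensional ℂ V₂]
    [AddCommGroup W₁] [Module ℂ W₁] [FiniteDimensional ℂ W₁]
    [AddCommGroup W₂] [Module ℂ W₂] [FiniteDimensional ℂ W₂]
    [AddCommGroup U] [Module ℂ U] [FiniteDimensional ℂ U]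
    (ρ₁ : Representation ℂ G V₁) (ρ₂ : Representation ℂ G V₂)
    (σ₁ : Representation ℂ G W₁) (σ₂ : Representation ℂ G W₂) (τ : Representation ℂ G U)
    (hsum : ∀ g, ρ₁.character g + ρ₂.character g = σ₁.character g + σ₂.character g) :
    finrank ℂ (τ.IntertwiningMap ρ₁) + finrank ℂ (τ.IntertwiningMap ρ₂) =
      finrank ℂ (τ.IntertwiningMap σ₁) + finrank ℂ (τ.IntertwiningMap σ₂) := by
  classical
  have : Fintype G := Fintype.ofFinite G
  have : Invertible (Nat.card G : ℂ) := invertibleOfNonzero (by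
    rw [Nat.cast_ne_zero]; exact Nat.card_pos.ne')
  have h1 : (finrank ℂ (τ.IntertwiningMap ρ₁) : ℂ) + finrank ℂ (τ.IntertwiningMap ρ₂) =
      finrank ℂ (τ.IntertwiningMap σ₁) + finrank ℂ (τ.IntertwiningMap σ₂) := by
    rw [← Representation.card_inv_mul_sum_char_mul_char_eq_finrank,
      ← Representation.card_inv_mul_sum_char_mul_char_eq_finrank,
      ← Representation.card_inv_mul_sum_char_mul_char_eq_finrank,
      ← Representation.card_inv_mul_sum_char_mul_char_eq_finrank,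
      ← mul_add, ← mul_add, ← Finset.sum_add_distrib, ← Finset.sum_add_distrib]
    congr 1
    apply Finset.sum_congr rfl
    intro g _
    rw [← add_mul, ← add_mul, hsum]
  exact_mod_cast h1

/-- Two irreducible representations of different dimensions embedding into `σ`: the dimensions
add up to at most the dimension of `σ`. -/
theorem dim_add_le {V₁ V₂ W : Type*}
    [AddCommGroup V₁] [Module ℂ V₁] [FiniteDimensional ℂ V₁]
    [AddCommGroup V₂] [Module ℂ V₂] [FiniteDimensional ℂ V₂]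
    [AddCommGroup W] [Module ℂ W] [FiniteDimensional ℂ W]
    (ρ₁ : Representation ℂ G V₁) (ρ₂ : Representation ℂ G V₂)
    (σ : Representation ℂ G W) (h₁ : ρ₁.IsIrreducible) (h₂ : ρ₂.IsIrreducible)
    (hne : finrank ℂ V₁ ≠ finrank ℂ V₂)
    (f₁ : ρ₁.IntertwiningMap σ) (f₂ : ρ₂.IntertwiningMap σ) (hf₁ : f₁ ≠ 0) (hf₂ : f₂ ≠ 0) :
    finrank ℂ V₁ + finrank ℂ V₂ ≤ finrank ℂ W := by
  have i₁ : Function.Injective f₁ :=
    (Representation.IsIrreducible.injective_or_eq_zero f₁).resolve_right hf₁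
  have i₂ : Function.Injective f₂ :=
    (Representation.IsIrreducible.injective_or_eq_zero f₂).resolve_right hf₂
  have d₁ : finrank ℂ (LinearMap.range f₁.toLinearMap) = finrank ℂ V₁ :=
    LinearMap.finrank_range_of_inj i₁
  have d₂ : finrank ℂ (LinearMap.range f₂.toLinearMap) = finrank ℂ V₂ :=
    LinearMap.finrank_range_of_inj i₂
  -- the intersection of the ranges is zero
  have hbot : LinearMap.range f₁.toLinearMap ⊓ LinearMap.range f₂.toLinearMap = ⊥ := by
    by_contra hcon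
    -- pull back to `V₁`
    let P₁ : Subrepresentation ρ₁ :=
      ⟨(LinearMap.range f₂.toLinearMap).comap f₁.toLinearMap, by
        intro g v hv
        obtain ⟨w, hw⟩ := hv
        refine ⟨ρ₂ g w, ?_⟩
        have a1 := Representation.IntertwiningMap.isIntertwining _ _ f₁ g v
        have a2 := Representation.IntertwiningMap.isIntertwining _ _ f₂ g w
        change f₂ (ρ₂ g w) = f₁ (ρ₁ g v)
        rw [a1, a2]
        congr 1⟩
    let P₂ : Subrepresentation ρ₂ :=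
      ⟨(LinearMap.range f₁.toLinearMap).comap f₂.toLinearMap, by
        intro g v hv
        obtain ⟨w, hw⟩ := hv
        refine ⟨ρ₁ g w, ?_⟩
        have a1 := Representation.IntertwiningMap.isIntertwining _ _ f₂ g v
        have a2 := Representation.IntertwiningMap.isIntertwining _ _ f₁ g w
        change f₁ (ρ₁ g w) = f₂ (ρ₂ g v)
        rw [a1, a2]
        congr 1⟩
    obtain ⟨x, hx, hx0⟩ := Submodule.exists_mem_ne_zero_of_ne_bot hcon
    obtain ⟨⟨v, hv⟩, ⟨w, hw⟩⟩ := hx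
    have hP₁ : P₁ = ⊤ := by
      rcases h₁.eq_bot_or_eq_top P₁ with h | h
      · exfalso
        have hv1 : v ∈ P₁.toSubmodule := ⟨w, by rw [hw, ← hv]⟩
        rw [h] at hv1
        have : v = 0 := hv1
        apply hx0
        rw [← hv, this, map_zero]
      · exact h
    have hP₂ : P₂ = ⊤ := by
      rcases h₂.eq_bot_or_eq_top P₂ with h | h
      · exfalso
        have hv1 : w ∈ P₂.toSubmodule := ⟨v, by rw [hw, ← hv]⟩
        rw [h] at hv1
        have : w = 0 := hv1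
        apply hx0
        rw [← hw, this, map_zero]
      · exact h
    have le₁ : LinearMap.range f₁.toLinearMap ≤ LinearMap.range f₂.toLinearMap := by
      rintro _ ⟨v, rfl⟩
      have : v ∈ P₁.toSubmodule := by rw [hP₁]; trivial
      exact this
    have le₂ : LinearMap.range f₂.toLinearMap ≤ LinearMap.range f₁.toLinearMap := by
      rintro _ ⟨v, rfl⟩
      have : v ∈ P₂.toSubmodule := by rw [hP₂]; trivial
      exact this
    apply hne
    rw [← d₁, ← d₂, le_antisymm le₁ le₂]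
  have hs := Submodule.finrank_sup_add_finrank_inf_eq
    (LinearMap.range f₁.toLinearMap) (LinearMap.range f₂.toLinearMap)
  rw [hbot, finrank_bot, add_zero, d₁, d₂] at hs
  rw [← hs]
  exact Submodule.finrank_le _

theorem exists_ne_zero_of_finrank {M : Type*} [AddCommGroup M] [Module ℂ M]
    (h : 0 < finrank ℂ M) : ∃ x : M, x ≠ 0 := by
  by_contra hcon
  push Not at hcon
  have : Subsingleton M := ⟨fun a b => by rw [hcon a, hcon b]⟩
  rw [finrank_zero_of_subsingleton] at h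
  exact lt_irrefl _ h

/-- If two characters `ψ₁ + ψ₂` of positive degree sum to `χ₁ + χ₂` with `χ₁, χ₂` irreducible of
different degrees, then the degrees agree up to order. -/
theorem dims_eq [Finite G] {V₁ V₂ W₁ W₂ : Type*}
    [AddCommGroup V₁] [Module ℂ V₁] [FiniteDimensional ℂ V₁]
    [AddCommGroup V₂] [Module ℂ V₂] [FiniteDimensional ℂ V₂]
    [AddCommGroup W₁] [Module ℂ W₁] [FiniteDimensional ℂ W₁]
    [AddCommGroup W₂] [Module ℂ W₂] [FiniteDimensional ℂ W₂]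
    (ρ₁ : Representation ℂ G V₁) (ρ₂ : Representation ℂ G V₂)
    (σ₁ : Representation ℂ G W₁) (σ₂ : Representation ℂ G W₂)
    (h₁ : ρ₁.IsIrreducible) (h₂ : ρ₂.IsIrreducible)
    (hne : finrank ℂ V₁ ≠ finrank ℂ V₂)
    (hsum : ∀ g, ρ₁.character g + ρ₂.character g = σ₁.character g + σ₂.character g)
    (hW₁ : 0 < finrank ℂ W₁) (hW₂ : 0 < finrank ℂ W₂) :
    (finrank ℂ W₁ = finrank ℂ V₁ ∧ finrank ℂ W₂ = finrank ℂ V₂) ∨
      (finrank ℂ W₁ = finrank ℂ V₂ ∧ finrank ℂ W₂ = finrank ℂ V₁) := by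
  classical
  -- dimension
  have hdim : finrank ℂ V₁ + finrank ℂ V₂ = finrank ℂ W₁ + finrank ℂ W₂ := by
    have := hsum 1
    simp only [Representation.char_one] at this
    exact_mod_cast this
  have k₁ := hom_dim_add ρ₁ ρ₂ σ₁ σ₂ ρ₁ hsum
  have k₂ := hom_dim_add ρ₁ ρ₂ σ₁ σ₂ ρ₂ hsum
  have p₁ : 1 ≤ finrank ℂ (ρ₁.IntertwiningMap ρ₁) := by
    rw [Representation.IsIrreducible.finrank_intertwiningMap_self]
  have p₂ : 1 ≤ finrank ℂ (ρ₂.IntertwiningMap ρ₂) := by
    rw [Representation.IsIrreducible.finrank_intertwiningMap_self]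
  have e₁ : (∃ f : ρ₁.IntertwiningMap σ₁, f ≠ 0) ∨ (∃ f : ρ₁.IntertwiningMap σ₂, f ≠ 0) := by
    rcases Nat.eq_zero_or_pos (finrank ℂ (ρ₁.IntertwiningMap σ₁)) with h | h
    · exact Or.inr (exists_ne_zero_of_finrank (by omega))
    · exact Or.inl (exists_ne_zero_of_finrank h)
  have e₂ : (∃ f : ρ₂.IntertwiningMap σ₁, f ≠ 0) ∨ (∃ f : ρ₂.IntertwiningMap σ₂, f ≠ 0) := by
    rcases Nat.eq_zero_or_pos (finrank ℂ (ρ₂.IntertwiningMap σ₁)) with h | h
    · exact Or.inr (exists_ne_zero_of_finrank (by omega))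
    · exact Or.inl (exists_ne_zero_of_finrank h)
  rcases e₁ with ⟨f₁, hf₁⟩ | ⟨f₁, hf₁⟩ <;> rcases e₂ with ⟨f₂, hf₂⟩ | ⟨f₂, hf₂⟩
  · have := dim_add_le ρ₁ ρ₂ σ₁ h₁ h₂ hne f₁ f₂ hf₁ hf₂
    omega
  · have l₁ : finrank ℂ V₁ ≤ finrank ℂ W₁ := LinearMap.finrank_le_finrank_of_injective
      (f := f₁.toLinearMap)
      ((Representation.IsIrreducible.injective_or_eq_zero f₁).resolve_right hf₁)
    have l₂ : finrank ℂ V₂ ≤ finrank ℂ W₂ := LinearMap.finrank_le_finrank_of_injective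
      (f := f₂.toLinearMap)
      ((Representation.IsIrreducible.injective_or_eq_zero f₂).resolve_right hf₂)
    omega
  · have l₁ : finrank ℂ V₁ ≤ finrank ℂ W₂ := LinearMap.finrank_le_finrank_of_injective
      (f := f₁.toLinearMap)
      ((Representation.IsIrreducible.injective_or_eq_zero f₁).resolve_right hf₁)
    have l₂ : finrank ℂ V₂ ≤ finrank ℂ W₁ := LinearMap.finrank_le_finrank_of_injective
      (f := f₂.toLinearMap)
      ((Representation.IsIrreducible.injective_or_eq_zero f₂).resolve_right hf₂)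
    omega
  · have := dim_add_le ρ₁ ρ₂ σ₂ h₁ h₂ hne f₁ f₂ hf₁ hf₂
    omega

end Cfsg.Agent.PermutationGroups.WielandtType.Rep
end

-- part: PermutationGroups/WielandtType/Orbital
section
set_option autoImplicit false

open MulAction

namespace Cfsg.Agent.PermutationGroups.WielandtType.Orbital

variable {G : Type*} [Group G] {Ω : Type*} [MulAction G Ω]

/-- The orbital of the pair `(a, b)`. -/
def Orb (G : Type*) [Group G] {Ω : Type*} [MulAction G Ω] (a b x y : Ω) : Prop :=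
  ∃ g : G, g • a = x ∧ g • b = y

theorem orb_smul {a b x y : Ω} (g : G) (h : Orb G a b x y) : Orb G a b (g • x) (g • y) := by
  obtain ⟨k, rfl, rfl⟩ := h
  exact ⟨g * k, mul_smul _ _ _, mul_smul _ _ _⟩

theorem orb_smul_iff {a b x y : Ω} (g : G) : Orb G a b (g • x) (g • y) ↔ Orb G a b x y := by
  refine ⟨fun h => ?_, orb_smul g⟩
  have := orb_smul g⁻¹ h
  simpa using this

theorem orb_self_left_iff {a b y : Ω} : Orb G a b a y ↔ y ∈ orbit (stabilizer G a) b := by
  constructor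
  · rintro ⟨g, hg, rfl⟩
    exact ⟨⟨g, hg⟩, rfl⟩
  · rintro ⟨⟨g, hg⟩, rfl⟩
    exact ⟨g, hg, rfl⟩

theorem card_orb {a b x : Ω} (hx : ∃ g : G, g • a = x) :
    Nat.card {y // Orb G a b x y} = Nat.card (orbit (stabilizer G a) b) := by
  obtain ⟨g, rfl⟩ := hx
  refine (Nat.card_congr ?_).symm
  refine Equiv.subtypeEquiv (MulAction.toPerm g) ?_
  intro y
  rw [← orb_self_left_iff]
  exact (orb_smul_iff g).symm

/-- The three suborbits of a rank three group. -/
theorem exists_three (a₀ : Ω)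
    (hrank : Nat.card (orbitRel.Quotient (stabilizer G a₀) Ω) = 3) :
    ∃ b₁ b₂ : Ω, b₁ ≠ a₀ ∧ b₂ ≠ a₀ ∧ b₂ ∉ orbit (stabilizer G a₀) b₁ ∧
      ∀ y, y = a₀ ∨ y ∈ orbit (stabilizer G a₀) b₁ ∨ y ∈ orbit (stabilizer G a₀) b₂ := by
  classical
  set H := stabilizer G a₀
  have : Finite (orbitRel.Quotient H Ω) := Nat.finite_of_card_ne_zero (by rw [hrank]; norm_num)
  have : Fintype (orbitRel.Quotient H Ω) := Fintype.ofFinite _
  rw [Nat.card_eq_fintype_card, ← Finset.card_univ, Finset.card_eq_three] at hrank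
  obtain ⟨u, v, w, huv, huw, hvw, huniv⟩ := hrank
  have hall : ∀ q : orbitRel.Quotient H Ω, q = u ∨ q = v ∨ q = w := by
    intro q
    have : q ∈ (Finset.univ : Finset (orbitRel.Quotient H Ω)) := Finset.mem_univ _
    rw [huniv] at this
    simpa using this
  -- reorder such that the first one is the class of `a₀`
  obtain ⟨v', w', hv', hw', hvw', hall'⟩ : ∃ v' w' : orbitRel.Quotient H Ω,
      v' ≠ (Quotient.mk'' a₀) ∧ w' ≠ (Quotient.mk'' a₀) ∧ v' ≠ w' ∧
      ∀ q : orbitRel.Quotient H Ω, q = Quotient.mk'' a₀ ∨ q = v' ∨ q = w' := by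
    rcases hall (Quotient.mk'' a₀) with h | h | h
    · exact ⟨v, w, by rw [h]; exact huv.symm, by rw [h]; exact huw.symm, hvw,
        fun q => by rw [h]; exact hall q⟩
    · refine ⟨u, w, by rw [h]; exact huv, by rw [h]; exact hvw.symm, huw, fun q => ?_⟩
      rw [h]
      rcases hall q with h' | h' | h'
      · exact Or.inr (Or.inl h')
      · exact Or.inl h'
      · exact Or.inr (Or.inr h')
    · refine ⟨u, v, by rw [h]; exact huw, by rw [h]; exact hvw, huv, fun q => ?_⟩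
      rw [h]
      rcases hall q with h' | h' | h'
      · exact Or.inr (Or.inl h')
      · exact Or.inr (Or.inr h')
      · exact Or.inl h'
  obtain ⟨b₁, rfl⟩ := Quotient.exists_rep v'
  obtain ⟨b₂, rfl⟩ := Quotient.exists_rep w'
  have hmk : ∀ x y : Ω, (Quotient.mk (orbitRel H Ω) x = Quotient.mk (orbitRel H Ω) y) ↔
      x ∈ orbit H y := by
    intro x y
    rw [Quotient.eq, orbitRel_apply]
  refine ⟨b₁, b₂, ?_, ?_, ?_, ?_⟩
  · rintro rfl
    exact hv' rfl
  · rintro rfl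
    exact hw' rfl
  · intro h
    exact hvw' ((hmk b₂ b₁).2 h).symm
  · intro y
    rcases hall' (Quotient.mk _ y) with h | h | h
    · left
      have : y ∈ orbit H a₀ := (hmk y a₀).1 h
      obtain ⟨⟨g, hg⟩, rfl⟩ := this
      exact hg
    · exact Or.inr (Or.inl ((hmk y b₁).1 h))
    · exact Or.inr (Or.inr ((hmk y b₂).1 h))

/-- Data of a rank 3 group: the three orbitals partition the pairs. -/
structure Rank3 (G : Type*) [Group G] {Ω : Type*} [MulAction G Ω] (a₀ b₁ b₂ : Ω) : Prop where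
  trans : ∀ x : Ω, ∃ g : G, g • a₀ = x
  ne₁ : b₁ ≠ a₀
  ne₂ : b₂ ≠ a₀
  disj : b₂ ∉ orbit (stabilizer G a₀) b₁
  all : ∀ y, y = a₀ ∨ y ∈ orbit (stabilizer G a₀) b₁ ∨ y ∈ orbit (stabilizer G a₀) b₂

namespace Rank3

variable {a₀ b₁ b₂ : Ω}

theorem swap (h : Rank3 G a₀ b₁ b₂) : Rank3 G a₀ b₂ b₁ where
  trans := h.trans
  ne₁ := h.ne₂
  ne₂ := h.ne₁
  disj := fun h' => h.disj ((orbit_eq_iff.2 h') ▸ mem_orbit_self b₁ |> fun hh => by
    rw [orbit_eq_iff.2 h']; exact mem_orbit_self b₂)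
  all := fun y => by
    rcases h.all y with h' | h' | h'
    · exact Or.inl h'
    · exact Or.inr (Or.inr h')
    · exact Or.inr (Or.inl h')

theorem orb_irrefl (h : Rank3 G a₀ b₁ b₂) (x : Ω) : ¬ Orb G a₀ b₁ x x := by
  rintro ⟨g, hg, hg'⟩
  exact h.ne₁ (smul_left_cancel g (hg'.trans hg.symm))

theorem orb_disj (h : Rank3 G a₀ b₁ b₂) {x y : Ω} (h₁ : Orb G a₀ b₁ x y)
    (h₂ : Orb G a₀ b₂ x y) : False := by
  obtain ⟨g, hg, hg'⟩ := h₁
  obtain ⟨k, hk, hk'⟩ := h₂
  apply h.disj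
  refine ⟨⟨k⁻¹ * g, ?_⟩, ?_⟩
  · change (k⁻¹ * g) • a₀ = a₀
    rw [mul_smul, hg, ← hk, inv_smul_smul]
  · change (k⁻¹ * g) • b₁ = b₂
    rw [mul_smul, hg', ← hk', inv_smul_smul]

theorem orb_cases (h : Rank3 G a₀ b₁ b₂) (x y : Ω) :
    x = y ∨ Orb G a₀ b₁ x y ∨ Orb G a₀ b₂ x y := by
  obtain ⟨g, rfl⟩ := h.trans x
  obtain ⟨y', rfl⟩ : ∃ y', g • y' = y := ⟨g⁻¹ • y, smul_inv_smul _ _⟩
  rcases h.all y' with h' | h' | h'
  · left; rw [h']
  · right; left
    rw [orb_smul_iff, orb_self_left_iff]; exact h'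
  · right; right
    rw [orb_smul_iff, orb_self_left_iff]; exact h'

/-- If the two nontrivial subdegrees differ then the orbitals are self-paired. -/
theorem orb_symm [Finite Ω] (h : Rank3 G a₀ b₁ b₂)
    (hk : Nat.card (orbit (stabilizer G a₀) b₁) ≠ Nat.card (orbit (stabilizer G a₀) b₂))
    {x y : Ω} (hxy : Orb G a₀ b₁ x y) : Orb G a₀ b₁ y x := by
  classical
  have := Fintype.ofFinite Ω
  rcases h.orb_cases b₁ a₀ with h' | h' | h'
  · exact absurd h' h.ne₁
  · obtain ⟨g, rfl, rfl⟩ := hxy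
    exact orb_smul g h'
  · exfalso
    apply hk
    -- `R₁ x y ↔ R₂ y x`
    have hiff : ∀ x y : Ω, Orb G a₀ b₁ x y ↔ Orb G a₀ b₂ y x := by
      intro x y
      constructor
      · rintro ⟨g, rfl, rfl⟩
        exact orb_smul g h'
      · rintro ⟨g, rfl, rfl⟩
        obtain ⟨k, hk, hk'⟩ := h'
        refine (orb_smul_iff g).2 ?_
        refine ⟨k⁻¹, ?_, ?_⟩
        · rw [← hk', inv_smul_smul]
        · rw [← hk, inv_smul_smul]
    have c₁ : Nat.card {p : Ω × Ω // Orb G a₀ b₁ p.1 p.2} =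
        Nat.card Ω * Nat.card (orbit (stabilizer G a₀) b₁) := by
      rw [Nat.card_congr (Equiv.subtypeProdEquivSigmaSubtype (fun x y => Orb G a₀ b₁ x y)),
        Nat.card_sigma]
      rw [Finset.sum_congr rfl (fun x _ => card_orb (b := b₁) (h.trans x))]
      simp [Nat.card_eq_fintype_card]
    have c₂ : Nat.card {p : Ω × Ω // Orb G a₀ b₂ p.1 p.2} =
        Nat.card Ω * Nat.card (orbit (stabilizer G a₀) b₂) := by
      rw [Nat.card_congr (Equiv.subtypeProdEquivSigmaSubtype (fun x y => Orb G a₀ b₂ x y)),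
        Nat.card_sigma]
      rw [Finset.sum_congr rfl (fun x _ => card_orb (b := b₂) (h.trans x))]
      simp [Nat.card_eq_fintype_card]
    have c₃ : Nat.card {p : Ω × Ω // Orb G a₀ b₁ p.1 p.2} =
        Nat.card {p : Ω × Ω // Orb G a₀ b₂ p.1 p.2} := by
      refine Nat.card_congr (Equiv.subtypeEquiv (Equiv.prodComm Ω Ω) ?_)
      rintro ⟨x, y⟩
      exact hiff x y
    rw [c₁, c₂] at c₃
    have hpos : 0 < Nat.card Ω := by
      have : Nonempty Ω := ⟨a₀⟩
      exact Nat.card_pos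
    exact Nat.eq_of_mul_eq_mul_left hpos c₃

/-- `1 + k₁ + k₂ = n`. -/
theorem card_eq [Finite Ω] (h : Rank3 G a₀ b₁ b₂) :
    1 + Nat.card (orbit (stabilizer G a₀) b₁) + Nat.card (orbit (stabilizer G a₀) b₂) =
      Nat.card Ω := by
  classical
  have := Fintype.ofFinite Ω
  have hcov : (Finset.univ : Finset Ω) = ({a₀} : Finset Ω) ∪
      (Finset.univ.filter fun y => y ∈ orbit (stabilizer G a₀) b₁) ∪
      (Finset.univ.filter fun y => y ∈ orbit (stabilizer G a₀) b₂) := by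
    ext y
    simp only [Finset.mem_univ, Finset.mem_union, Finset.mem_singleton, Finset.mem_filter,
      true_and, true_iff]
    rcases h.all y with h' | h' | h' <;> tauto
  have hn₁ : a₀ ∉ orbit (stabilizer G a₀) b₁ := by
    intro h'
    rw [← orb_self_left_iff] at h'
    exact h.orb_irrefl _ h'
  have hn₂ : a₀ ∉ orbit (stabilizer G a₀) b₂ := by
    intro h'
    rw [← orb_self_left_iff] at h'
    exact h.swap.orb_irrefl _ h'
  rw [Nat.card_eq_fintype_card (α := Ω), ← Finset.card_univ, hcov, Finset.card_union_of_disjoint,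
    Finset.card_union_of_disjoint, Finset.card_singleton]
  · rw [Nat.card_eq_fintype_card, Nat.card_eq_fintype_card, Fintype.card_subtype,
      Fintype.card_subtype]
  · rw [Finset.disjoint_singleton_left, Finset.mem_filter]
    exact fun h' => hn₁ h'.2
  · rw [Finset.disjoint_left]
    intro y hy hy'
    rw [Finset.mem_union, Finset.mem_singleton, Finset.mem_filter] at hy
    rw [Finset.mem_filter] at hy'
    rcases hy with rfl | ⟨_, hy⟩
    · exact hn₂ hy'.2
    · rw [← orb_self_left_iff] at hy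
      have hy'2 := hy'.2
      rw [← orb_self_left_iff] at hy'2
      exact h.orb_disj hy hy'2

end Rank3

end Cfsg.Agent.PermutationGroups.WielandtType.Orbital
end

-- part: PermutationGroups/WielandtType/Matrix
section
set_option autoImplicit false

open MulAction Module
open Cfsg.Agent.PermutationGroups.WielandtType.Orbital

namespace Cfsg.Agent.PermutationGroups.WielandtType.Matrix

variable {G : Type*} [Group G] {Ω : Type*} [Fintype Ω] [MulAction G Ω]

open scoped Classical in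
/-- Adjacency matrix of the orbital of `(a, b)`. -/
noncomputable def adj (G : Type*) [Group G] {Ω : Type*} [MulAction G Ω] (a b : Ω) :
    Matrix Ω Ω ℂ :=
  Matrix.of fun x y => if Orb G a b x y then 1 else 0

open scoped Classical in
theorem adj_apply (a b x y : Ω) : adj G a b x y = if Orb G a b x y then 1 else 0 := rfl

open scoped Classical in
/-- Number of paths of length two. -/
noncomputable def paths (G : Type*) [Group G] {Ω : Type*} [Fintype Ω] [MulAction G Ω]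
    (a b : Ω) (x y : Ω) : ℕ :=
  (Finset.univ.filter fun z => Orb G a b x z ∧ Orb G a b z y).card

theorem adj_mul_adj_apply (a b x y : Ω) :
    (adj G a b * adj G a b) x y = (paths G a b x y : ℂ) := by
  classical
  rw [Matrix.mul_apply, paths, Finset.card_filter, Nat.cast_sum]
  refine Finset.sum_congr rfl fun z _ => ?_
  rw [adj_apply, adj_apply]
  by_cases h₁ : Orb G a b x z <;> by_cases h₂ : Orb G a b z y <;> simp [h₁, h₂]

theorem paths_smul (a b x y : Ω) (g : G) : paths G a b (g • x) (g • y) = paths G a b x y := by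
  classical
  rw [paths, paths]
  symm
  refine Finset.card_bij (fun z _ => g • z) ?_ ?_ ?_
  · intro z hz
    rw [Finset.mem_filter] at hz ⊢
    exact ⟨Finset.mem_univ _, orb_smul g hz.2.1, orb_smul g hz.2.2⟩
  · intro z _ z' _ h
    exact smul_left_cancel g h
  · intro z hz
    rw [Finset.mem_filter] at hz
    refine ⟨g⁻¹ • z, ?_, smul_inv_smul _ _⟩
    rw [Finset.mem_filter]
    refine ⟨Finset.mem_univ _, ?_, ?_⟩
    · rw [← orb_smul_iff g, smul_inv_smul]; exact hz.2.1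
    · rw [← orb_smul_iff g, smul_inv_smul]; exact hz.2.2

/-- The all-ones matrix. -/
def ones (Ω : Type*) : Matrix Ω Ω ℂ := Matrix.of fun _ _ => 1

theorem ones_apply (x y : Ω) : ones Ω x y = 1 := rfl

theorem ones_mul_ones : ones Ω * ones Ω = (Fintype.card Ω : ℂ) • ones Ω := by
  ext x y
  rw [Matrix.mul_apply]
  simp [ones_apply]

section

variable {a₀ b₁ b₂ : Ω}

/-- the valency -/
noncomputable def val (G : Type*) [Group G] {Ω : Type*} [MulAction G Ω] (a b : Ω) : ℕ :=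
  Nat.card (orbit (stabilizer G a) b)

theorem row_sum (h : Rank3 G a₀ b₁ b₂) (x : Ω) : ∑ y, adj G a₀ b₁ x y = (val G a₀ b₁ : ℂ) := by
  classical
  rw [val, ← card_orb (b := b₁) (h.trans x), Nat.card_eq_fintype_card, Fintype.card_subtype,
    Finset.card_filter, Nat.cast_sum]
  refine Finset.sum_congr rfl fun y _ => ?_
  rw [adj_apply]
  split_ifs <;> simp

theorem adj_symm (h : Rank3 G a₀ b₁ b₂) (hk : val G a₀ b₁ ≠ val G a₀ b₂) (x y : Ω) :
    adj G a₀ b₁ x y = adj G a₀ b₁ y x := by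
  classical
  rw [adj_apply, adj_apply]
  have : Orb G a₀ b₁ x y ↔ Orb G a₀ b₁ y x := ⟨h.orb_symm hk, h.orb_symm hk⟩
  simp only [this]

theorem adj_mul_ones (h : Rank3 G a₀ b₁ b₂) :
    adj G a₀ b₁ * ones Ω = (val G a₀ b₁ : ℂ) • ones Ω := by
  ext x y
  rw [Matrix.mul_apply]
  simp only [ones_apply, mul_one, Matrix.smul_apply, smul_eq_mul]
  exact row_sum h x

theorem ones_mul_adj (h : Rank3 G a₀ b₁ b₂) (hk : val G a₀ b₁ ≠ val G a₀ b₂) :
    ones Ω * adj G a₀ b₁ = (val G a₀ b₁ : ℂ) • ones Ω := by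
  ext x y
  rw [Matrix.mul_apply]
  simp only [ones_apply, one_mul, mul_one, Matrix.smul_apply, smul_eq_mul]
  rw [Finset.sum_congr rfl (fun z _ => adj_symm h hk z y)]
  exact row_sum h y

theorem adj_diag (h : Rank3 G a₀ b₁ b₂) (x : Ω) : adj G a₀ b₁ x x = 0 := by
  classical
  rw [adj_apply, if_neg (h.orb_irrefl x)]

theorem paths_diag (h : Rank3 G a₀ b₁ b₂) (hk : val G a₀ b₁ ≠ val G a₀ b₂) (x : Ω) :
    paths G a₀ b₁ x x = val G a₀ b₁ := by
  classical
  rw [val, ← card_orb (b := b₁) (h.trans x), Nat.card_eq_fintype_card, Fintype.card_subtype,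
    paths]
  congr 1
  apply Finset.filter_congr
  intro y _
  exact ⟨fun hh => hh.1, fun hh => ⟨hh, h.orb_symm hk hh⟩⟩

theorem paths_le (h : Rank3 G a₀ b₁ b₂) (x y : Ω) :
    paths G a₀ b₁ x y ≤ val G a₀ b₁ := by
  classical
  rw [val, ← card_orb (b := b₁) (h.trans x), Nat.card_eq_fintype_card, Fintype.card_subtype,
    paths]
  apply Finset.card_le_card
  intro z hz
  rw [Finset.mem_filter] at hz ⊢
  exact ⟨hz.1, hz.2.1⟩

theorem paths_lt (h : Rank3 G a₀ b₁ b₂) {x y : Ω} (hxy : Orb G a₀ b₁ x y) :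
    paths G a₀ b₁ x y < val G a₀ b₁ := by
  classical
  rw [val, ← card_orb (b := b₁) (h.trans x), Nat.card_eq_fintype_card, Fintype.card_subtype,
    paths]
  apply Finset.card_lt_card
  rw [Finset.ssubset_iff_of_subset]
  · refine ⟨y, ?_, ?_⟩
    · rw [Finset.mem_filter]; exact ⟨Finset.mem_univ _, hxy⟩
    · rw [Finset.mem_filter]
      rintro ⟨_, _, h'⟩
      exact h.orb_irrefl y h'
  · intro z hz
    rw [Finset.mem_filter] at hz ⊢
    exact ⟨hz.1, hz.2.1⟩

/-- `A² = (β-γ) A + (k-γ) I + γ J`. -/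
theorem adj_sq [DecidableEq Ω] (h : Rank3 G a₀ b₁ b₂) (hk : val G a₀ b₁ ≠ val G a₀ b₂) :
    adj G a₀ b₁ * adj G a₀ b₁ =
      ((paths G a₀ b₁ a₀ b₁ : ℂ) - paths G a₀ b₁ a₀ b₂) • adj G a₀ b₁ +
      ((val G a₀ b₁ : ℂ) - paths G a₀ b₁ a₀ b₂) • (1 : Matrix Ω Ω ℂ) +
      (paths G a₀ b₁ a₀ b₂ : ℂ) • ones Ω := by
  classical
  ext x y
  rw [adj_mul_adj_apply]
  simp only [Matrix.add_apply, Matrix.smul_apply, smul_eq_mul, ones_apply, mul_one]
  by_cases hxy : x = y
  · subst hxy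
    rw [paths_diag h hk, adj_diag h, Matrix.one_apply_eq]
    ring
  · rw [Matrix.one_apply_ne hxy]
    rcases h.orb_cases x y with h' | h' | h'
    · exact absurd h' hxy
    · rw [adj_apply, if_pos h']
      obtain ⟨g, rfl, rfl⟩ := h'
      rw [paths_smul]
      ring
    · have hn : ¬ Orb G a₀ b₁ x y := fun h'' => h.orb_disj h'' h'
      rw [adj_apply, if_neg hn]
      obtain ⟨g, rfl, rfl⟩ := h'
      rw [paths_smul]
      ring

end

/-- An invariant matrix commutes with the permutation representation. -/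
theorem toLin'_comm [DecidableEq Ω] (M : Matrix Ω Ω ℂ)
    (hM : ∀ (g : G) (x y : Ω), M (g • x) (g • y) = M x y) (g : G) :
    Matrix.toLin' M ∘ₗ Cfsg.permRep ℂ G Ω g = Cfsg.permRep ℂ G Ω g ∘ₗ Matrix.toLin' M := by
  refine LinearMap.ext (fun f => ?_)
  funext x
  change (M.mulVec (Cfsg.permRep ℂ G Ω g f)) x = (M.mulVec f) (g⁻¹ • x)
  rw [Matrix.mulVec, Matrix.mulVec, dotProduct, dotProduct]
  refine Fintype.sum_equiv (MulAction.toPerm g⁻¹) _ _ (fun y => ?_)
  change M x y * f (g⁻¹ • y) = M (g⁻¹ • x) (g⁻¹ • y) * f (g⁻¹ • y)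
  rw [hM]

/-- The idempotent for the eigenvalue `θ`. -/
noncomputable def idem [DecidableEq Ω] (A : Matrix Ω Ω ℂ) (k θ θ' : ℂ) : Matrix Ω Ω ℂ :=
  (θ - θ')⁻¹ • (A - θ' • (1 : Matrix Ω Ω ℂ) - ((k - θ') / (Fintype.card Ω : ℂ)) • ones Ω)

theorem idem_mul_self [DecidableEq Ω] {A : Matrix Ω Ω ℂ} {k θ θ' γ : ℂ} (hn : (Fintype.card Ω : ℂ) ≠ 0)
    (hne : θ ≠ θ')
    (hAA : A * A = (θ + θ') • A - (θ * θ') • (1 : Matrix Ω Ω ℂ) + γ • ones Ω)
    (hAJ : A * ones Ω = k • ones Ω) (hJA : ones Ω * A = k • ones Ω)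
    (hγ : γ * (Fintype.card Ω : ℂ) = (k - θ) * (k - θ')) :
    idem A k θ θ' * idem A k θ θ' = idem A k θ θ' := by
  have hd : θ - θ' ≠ 0 := sub_ne_zero.2 hne
  rw [idem]
  set n : ℂ := (Fintype.card Ω : ℂ)
  set c : ℂ := (k - θ') / n with hc
  have hcn : c * n = k - θ' := by rw [hc]; field_simp
  have key : (A - θ' • (1 : Matrix Ω Ω ℂ) - c • ones Ω) * (A - θ' • (1 : Matrix Ω Ω ℂ) - c • ones Ω) =
      (θ - θ') • (A - θ' • (1 : Matrix Ω Ω ℂ) - c • ones Ω) := by
    have e : (A - θ' • (1 : Matrix Ω Ω ℂ) - c • ones Ω) *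
        (A - θ' • (1 : Matrix Ω Ω ℂ) - c • ones Ω) =
        A * A - (2 * θ') • A + (θ' * θ') • (1 : Matrix Ω Ω ℂ) - c • (A * ones Ω)
          - c • (ones Ω * A) + (2 * θ' * c) • ones Ω + (c * c) • (ones Ω * ones Ω) := by
      simp only [sub_mul, mul_sub, smul_mul_assoc, mul_smul_comm, one_mul, mul_one, smul_smul,
        smul_sub]
      module
    rw [e, hAA, hAJ, hJA, ones_mul_ones]
    change _ = _
    ext x y
    simp only [Matrix.add_apply, Matrix.sub_apply, Matrix.smul_apply, smul_eq_mul, ones_apply]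
    change _ * A x y - _ * (1 : Matrix Ω Ω ℂ) x y + γ * 1 - _ * A x y + _ - _ - _ + _ +
      c * c * (n * 1) = _
    have h2 : c * c * (n * 1) = c * (k - θ') := by rw [← hcn]; ring
    rw [h2]
    have h3 : γ = c * (k - θ) := by
      have : γ * n = (c * (k - θ)) * n := by
        rw [hγ, ← hcn]; ring
      exact mul_right_cancel₀ hn this
    rw [h3]
    ring
  rw [smul_mul_smul_comm, key, smul_smul]
  congr 1
  field_simp

theorem idem_add [DecidableEq Ω] {A : Matrix Ω Ω ℂ} {k θ θ' : ℂ} (hn : (Fintype.card Ω : ℂ) ≠ 0)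
    (hne : θ ≠ θ') :
    idem A k θ θ' + idem A k θ' θ = 1 - ((Fintype.card Ω : ℂ)⁻¹) • ones Ω := by
  have hd : θ - θ' ≠ 0 := sub_ne_zero.2 hne
  have hd' : θ' - θ ≠ 0 := sub_ne_zero.2 hne.symm
  rw [idem, idem]
  ext x y
  simp only [Matrix.add_apply, Matrix.sub_apply, Matrix.smul_apply, smul_eq_mul, ones_apply]
  have : θ' - θ = -(θ - θ') := by ring
  rw [this]
  field_simp
  ring

end Cfsg.Agent.PermutationGroups.WielandtType.Matrix
end

-- part: PermutationGroups/WielandtType/Main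
section
set_option autoImplicit false

open MulAction Module
open scoped Pointwise
open Cfsg.Agent.PermutationGroups.WielandtType.Orbital
open Cfsg.Agent.PermutationGroups.WielandtType.Matrix
open Cfsg.Agent.PermutationGroups.WielandtType

namespace Cfsg.Agent.PermutationGroups.WielandtType.Main

variable {G : Type*} [Group G] {Ω : Type*} [Fintype Ω] [MulAction G Ω]
variable {a₀ b₁ b₂ : Ω}

theorem adj_inv (a b : Ω) (g : G) (x y : Ω) : adj G a b (g • x) (g • y) = adj G a b x y := by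
  classical
  rw [adj_apply, adj_apply]
  simp only [orb_smul_iff]

theorem idem_inv [DecidableEq Ω] (a b : Ω) (k θ θ' : ℂ) (g : G) (x y : Ω) :
    idem (adj G a b) k θ θ' (g • x) (g • y) = idem (adj G a b) k θ θ' x y := by
  rw [idem]
  simp only [Matrix.sub_apply, Matrix.smul_apply, ones_apply, adj_inv]
  have : (1 : Matrix Ω Ω ℂ) (g • x) (g • y) = (1 : Matrix Ω Ω ℂ) x y := by
    rw [Matrix.one_apply, Matrix.one_apply]
    simp only [smul_left_cancel_iff]
  rw [this]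

theorem trace_ones_comp [DecidableEq Ω] (g : G) :
    LinearMap.trace ℂ (Ω → ℂ) (Matrix.toLin' (ones Ω) ∘ₗ Cfsg.permRep ℂ G Ω g) =
      Fintype.card Ω := by
  have : Matrix.toLin' (ones Ω) ∘ₗ Cfsg.permRep ℂ G Ω g = Matrix.toLin' (ones Ω) := by
    refine LinearMap.ext (fun f => ?_)
    funext x
    change ((ones Ω).mulVec (Cfsg.permRep ℂ G Ω g f)) x = ((ones Ω).mulVec f) x
    rw [Matrix.mulVec, Matrix.mulVec, dotProduct, dotProduct]
    simp only [ones_apply, one_mul]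
    exact Fintype.sum_equiv (MulAction.toPerm g⁻¹) _ _ (fun y => rfl)
  rw [this, Matrix.trace_toLin'_eq, Matrix.trace]
  simp [ones_apply]

theorem trace_idem [DecidableEq Ω] (h : Rank3 G a₀ b₁ b₂) {k θ θ' : ℂ}
    (hn : (Fintype.card Ω : ℂ) ≠ 0) (hne : θ ≠ θ') :
    (θ - θ') * Matrix.trace (idem (adj G a₀ b₁) k θ θ') =
      - k - ((Fintype.card Ω : ℂ) - 1) * θ' := by
  have hd : θ - θ' ≠ 0 := sub_ne_zero.2 hne
  have h0 : Matrix.trace (adj G a₀ b₁) = 0 := by
    rw [Matrix.trace]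
    apply Finset.sum_eq_zero
    intro x _
    exact adj_diag h x
  have h1 : Matrix.trace (ones Ω) = Fintype.card Ω := by
    rw [Matrix.trace]
    simp [ones_apply]
  rw [idem, Matrix.trace_smul, Matrix.trace_sub, Matrix.trace_sub, Matrix.trace_smul,
    Matrix.trace_smul, Matrix.trace_one, h0, h1]
  simp only [smul_eq_mul]
  field_simp
  ring

/-- The representation on the eigenspace. -/
theorem exists_rep [DecidableEq Ω] (h : Rank3 G a₀ b₁ b₂) {k θ θ' γ : ℂ}
    (hn : (Fintype.card Ω : ℂ) ≠ 0) (hne : θ ≠ θ')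
    (hAA : adj G a₀ b₁ * adj G a₀ b₁ =
      (θ + θ') • adj G a₀ b₁ - (θ * θ') • (1 : Matrix Ω Ω ℂ) + γ • ones Ω)
    (hAJ : adj G a₀ b₁ * ones Ω = k • ones Ω) (hJA : ones Ω * adj G a₀ b₁ = k • ones Ω)
    (hγ : γ * (Fintype.card Ω : ℂ) = (k - θ) * (k - θ')) :
    ∃ σ : Representation ℂ G
        (LinearMap.range (Matrix.toLin' (idem (adj G a₀ b₁) k θ θ'))),
      (∀ g, σ.character g = LinearMap.trace ℂ (Ω → ℂ)
        (Matrix.toLin' (idem (adj G a₀ b₁) k θ θ') ∘ₗ Cfsg.permRep ℂ G Ω g)) ∧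
      0 < finrank ℂ (LinearMap.range (Matrix.toLin' (idem (adj G a₀ b₁) k θ θ'))) ∧
      (finrank ℂ (LinearMap.range (Matrix.toLin' (idem (adj G a₀ b₁) k θ θ'))) : ℂ) * (θ - θ') =
        - k - ((Fintype.card Ω : ℂ) - 1) * θ' := by
  have hd : θ - θ' ≠ 0 := sub_ne_zero.2 hne
  obtain ⟨σ, hσ⟩ := Rep.exists_rep_of_idem (Cfsg.permRep ℂ G Ω)
    (Matrix.toLin' (idem (adj G a₀ b₁) k θ θ'))
    (by rw [← Matrix.toLin'_mul, idem_mul_self hn hne hAA hAJ hJA hγ])
    (toLin'_comm _ (idem_inv a₀ b₁ k θ θ'))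
  refine ⟨σ, hσ, ?_, ?_⟩
  · rw [Nat.pos_iff_ne_zero]
    intro h0
    rw [Submodule.finrank_eq_zero, LinearMap.range_eq_bot, LinearEquiv.map_eq_zero_iff] at h0
    have e₁ : idem (adj G a₀ b₁) k θ θ' a₀ b₁ = 0 := by rw [h0]; rfl
    have e₂ : idem (adj G a₀ b₁) k θ θ' a₀ b₂ = 0 := by rw [h0]; rfl
    rw [idem] at e₁ e₂
    simp only [Matrix.sub_apply, Matrix.smul_apply, ones_apply, smul_eq_mul] at e₁ e₂
    rw [Matrix.one_apply_ne h.ne₁.symm, adj_apply,
      if_pos (show Orb G a₀ b₁ a₀ b₁ from ⟨1, one_smul _ _, one_smul _ _⟩)] at e₁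
    have h2 : ¬ Orb G a₀ b₁ a₀ b₂ := by
      rw [orb_self_left_iff]; exact h.disj
    rw [Matrix.one_apply_ne h.ne₂.symm, adj_apply, if_neg h2] at e₂
    have e₃ : (θ - θ')⁻¹ = 0 := by linear_combination e₁ - e₂
    exact inv_ne_zero hd e₃
  · have := hσ 1
    rw [Representation.char_one, map_one] at this
    rw [this]
    have e : Matrix.toLin' (idem (adj G a₀ b₁) k θ θ') ∘ₗ (1 : Module.End ℂ (Ω → ℂ)) =
        Matrix.toLin' (idem (adj G a₀ b₁) k θ θ') := rfl
    rw [e, Matrix.trace_toLin'_eq, mul_comm]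
    exact trace_idem h hn hne

theorem block_of_val_one [IsPreprimitive G Ω] (h : Rank3 G a₀ b₁ b₂)
    (hk : val G a₀ b₁ ≠ val G a₀ b₂) (h1 : val G a₀ b₁ = 1) : False := by
  classical
  have huniq : ∀ {x y y' : Ω}, Orb G a₀ b₁ x y → Orb G a₀ b₁ x y' → y = y' := by
    intro x y y' hy hy'
    have : Nat.card {y // Orb G a₀ b₁ x y} = 1 := by
      rw [card_orb (h.trans x)]; exact h1
    rw [Nat.card_eq_one_iff_unique] at this
    have := this.1.elim ⟨y, hy⟩ ⟨y', hy'⟩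
    exact congrArg Subtype.val this
  have hab : Orb G a₀ b₁ a₀ b₁ := ⟨1, one_smul _ _, one_smul _ _⟩
  have hba : Orb G a₀ b₁ b₁ a₀ := h.orb_symm hk hab
  have hB : IsBlock G ({a₀, b₁} : Set Ω) := by
    rw [isBlock_iff_smul_eq_of_mem]
    intro g a ha hga
    have hg : Orb G a₀ b₁ (g • a₀) (g • b₁) := orb_smul g hab
    have himg : g • ({a₀, b₁} : Set Ω) = {g • a₀, g • b₁} := by
      rw [← Set.image_smul, Set.image_pair]
    rw [himg]
    rcases ha with rfl | ha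
    · rcases hga with hga | hga
      · rw [hga] at hg ⊢
        rw [huniq hg hab]
      · have hga' : g • a = b₁ := hga
        rw [hga'] at hg ⊢
        rw [huniq hg hba, Set.pair_comm]
    · have ha' : a = b₁ := ha
      subst ha'
      rcases hga with hga | hga
      · rw [hga] at hg ⊢
        rw [huniq (h.orb_symm hk hg) hab, Set.pair_comm]
      · have hga' : g • a = a := hga
        rw [hga'] at hg ⊢
        rw [huniq (h.orb_symm hk hg) hba]
  rcases IsPreprimitive.isTrivialBlock_of_isBlock hB with h' | h'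
  · exact h.ne₁ (h' (by simp) (by simp))
  · have : b₂ ∈ ({a₀, b₁} : Set Ω) := by rw [h']; trivial
    rcases this with h'' | h''
    · exact h.ne₂ h''
    · have h3 : b₂ = b₁ := h''
      apply h.disj
      rw [h3]
      exact mem_orbit_self b₁

/-- Number theory wrap-up: from the eigenvalue data. -/
theorem wrap {m k β γ : ℕ} {θ θ' : ℂ} (hk : 1 ≤ k) (hkm : k + 1 ≤ m)
    (hs : θ + θ' = (β : ℂ) - γ) (hp : θ * θ' = (γ : ℂ) - k)
    (hγ : (γ : ℂ) * (2 * m) = ((k : ℂ) - θ) * (k - θ'))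
    (htr : ((m : ℂ) - 1) * θ + m * θ' = - k) (h1 : k ≠ 1) :
    ∃ a : ℕ, 0 < a ∧ m = 2 * a ^ 2 + 2 * a + 1 ∧ k = a * (2 * a + 1) ∧
      2 * m = 1 + k + (a + 1) * (2 * a + 1) := by
  obtain ⟨s, hsdef⟩ : ∃ s : ℤ, s = (β : ℤ) - γ := ⟨_, rfl⟩
  have hs' : θ + θ' = (s : ℂ) := by rw [hs, hsdef]; push_cast; ring
  have ht : θ = k + m * s := by linear_combination (-1) * htr + (m : ℂ) * hs'
  have ht' : θ' = - k - (m - 1) * s := by linear_combination hs' - ht
  have key : ((m : ℂ) - 1) * (k + m * s) ^ 2 + m * (k + (m - 1) * s) ^ 2 =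
      2 * m * k - k ^ 2 := by
    have e1 : ((m : ℂ) - 1) * θ ^ 2 + m * θ' ^ 2 = 2 * m * k - k ^ 2 := by
      linear_combination (θ + θ') * htr - (2 * (m : ℂ)) * hp - hγ
    rw [← ht]
    have e2 : (k : ℂ) + (m - 1) * s = - θ' := by rw [ht']; ring
    rw [e2]
    linear_combination e1
  have keyZ : ((m : ℤ) - 1) * (k + m * s) ^ 2 + m * (k + (m - 1) * s) ^ 2 =
      2 * m * k - k ^ 2 := by exact_mod_cast key
  have hk' : (1 : ℤ) ≤ k := by exact_mod_cast hk
  have hkm' : (k : ℤ) ≤ m - 1 := by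
    have : ((k + 1 : ℕ) : ℤ) ≤ m := by exact_mod_cast hkm
    push_cast at this
    linarith
  rcases Arith.s_cases hk' hkm' keyZ with h0 | h0
  · exfalso
    rw [h0] at keyZ
    have := Arith.s_zero hk' hkm' keyZ
    exact h1 (by exact_mod_cast this)
  · rw [h0] at keyZ
    obtain ⟨a, ha, e1, e2, e3⟩ := Arith.s_neg_one hk' hkm' keyZ
    refine ⟨a, ha, by exact_mod_cast e1, by exact_mod_cast e2, ?_⟩
    have : (2 * m : ℤ) = 1 + k + (a + 1) * (2 * a + 1) := by linarith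
    exact_mod_cast this

end Cfsg.Agent.PermutationGroups.WielandtType.Main
end

-- part: S0719
section
set_option autoImplicit false
open Cfsg

namespace Cfsg.Agent.S0719

open MulAction Module
open Cfsg.Agent.PermutationGroups.WielandtType.Orbital
open Cfsg.Agent.PermutationGroups.WielandtType.Matrix
open Cfsg.Agent.PermutationGroups.WielandtType
open Cfsg.Agent.PermutationGroups

/-- The main step, with the smaller suborbit first. -/
theorem main {G : Type*} [Group G] [Fintype G] {Ω : Type*} [Fintype Ω] [MulAction G Ω]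
    [IsPreprimitive G Ω] {m : ℕ} (hm : Fintype.card Ω = 2 * m) {a₀ b₁ b₂ : Ω}
    (h : Rank3 G a₀ b₁ b₂) (hlt : val G a₀ b₁ < val G a₀ b₂) (χ₁ χ₂ : G → ℂ)
    (h₁ : Cfsg.IsIrrCharacter G χ₁) (h₂ : Cfsg.IsIrrCharacter G χ₂)
    (hπ : (fun g : G => (Nat.card (MulAction.fixedBy Ω g) : ℂ)) = fun g => 1 + χ₁ g + χ₂ g)
    (hd₁ : χ₁ 1 = (m : ℂ) - 1) (hd₂ : χ₂ 1 = m) :
    ∃ a : ℕ, 0 < a ∧ m = 2 * a ^ 2 + 2 * a + 1 ∧ val G a₀ b₁ = a * (2 * a + 1) ∧
      val G a₀ b₂ = (a + 1) * (2 * a + 1) := by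
  classical
  have hk : val G a₀ b₁ ≠ val G a₀ b₂ := hlt.ne
  have hcard : 1 + val G a₀ b₁ + val G a₀ b₂ = 2 * m := by
    rw [← hm, ← Nat.card_eq_fintype_card]
    exact h.card_eq
  have hkpos : 1 ≤ val G a₀ b₁ := by
    have : Nonempty (orbit (stabilizer G a₀) b₁) := ⟨⟨b₁, mem_orbit_self b₁⟩⟩
    exact Nat.card_pos
  have hkm : val G a₀ b₁ + 1 ≤ m := by omega
  have hn : (Fintype.card Ω : ℂ) ≠ 0 := by
    rw [hm]; push_cast
    have : (m : ℂ) ≠ 0 := by
      rw [Nat.cast_ne_zero]; omega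
    simpa using this
  set k : ℕ := val G a₀ b₁ with hkdef
  set β : ℕ := paths G a₀ b₁ a₀ b₁ with hβ
  set γ : ℕ := paths G a₀ b₁ a₀ b₂ with hγdef
  have hsq := adj_sq h hk
  rw [← hkdef, ← hβ, ← hγdef] at hsq
  have hAJ := adj_mul_ones h
  have hJA := ones_mul_adj h hk
  rw [← hkdef] at hAJ hJA
  have hγk : γ ≤ k := paths_le h a₀ b₂
  have hβk : β < k := paths_lt h ⟨1, one_smul _ _, one_smul _ _⟩
  -- the discriminant
  obtain ⟨δ, hδ⟩ := IsAlgClosed.exists_eq_mul_self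
    ((((β : ℤ) - γ) ^ 2 + 4 * ((k : ℤ) - γ) : ℤ) : ℂ)
  have hδ0 : δ ≠ 0 := by
    rintro rfl
    rw [mul_zero, Int.cast_eq_zero] at hδ
    have a1 : (0 : ℤ) ≤ ((β : ℤ) - γ) ^ 2 := sq_nonneg _
    have a2 : (γ : ℤ) ≤ k := by exact_mod_cast hγk
    have a3 : (k : ℤ) - γ = 0 := by nlinarith
    have a4 : ((β : ℤ) - γ) ^ 2 = 0 := by nlinarith
    have a5 : (β : ℤ) - γ = 0 := by
      exact pow_eq_zero_iff (n := 2) (by norm_num) |>.1 a4
    have a6 : (β : ℤ) < k := by exact_mod_cast hβk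
    omega
  push_cast at hδ
  obtain ⟨θ, hθ⟩ : ∃ θ : ℂ, θ = (((β : ℂ) - γ) + δ) / 2 := ⟨_, rfl⟩
  obtain ⟨θ', hθ'⟩ : ∃ θ' : ℂ, θ' = (((β : ℂ) - γ) - δ) / 2 := ⟨_, rfl⟩
  have hs : θ + θ' = (β : ℂ) - γ := by rw [hθ, hθ']; ring
  have hp : θ * θ' = (γ : ℂ) - k := by
    rw [hθ, hθ']
    linear_combination (1 / 4 : ℂ) * hδ
  have hne : θ ≠ θ' := by
    intro h'
    apply hδ0
    have : θ - θ' = δ := by rw [hθ, hθ']; ring
    rw [← this, h', sub_self]
  have hAA : adj G a₀ b₁ * adj G a₀ b₁ =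
      (θ + θ') • adj G a₀ b₁ - (θ * θ') • (1 : Matrix Ω Ω ℂ) + (γ : ℂ) • ones Ω := by
    rw [hsq, hs, hp, sub_eq_add_neg _ (((γ : ℂ) - k) • (1 : Matrix Ω Ω ℂ)), ← neg_smul, neg_sub]
  have hγ : (γ : ℂ) * (Fintype.card Ω : ℂ) = ((k : ℂ) - θ) * (k - θ') := by
    have e : (adj G a₀ b₁ * adj G a₀ b₁) * ones Ω =
        ((θ + θ') • adj G a₀ b₁ - (θ * θ') • (1 : Matrix Ω Ω ℂ) + (γ : ℂ) • ones Ω) * ones Ω := by
      rw [hAA]
    rw [mul_assoc, hAJ, mul_smul_comm, hAJ, add_mul, sub_mul, smul_mul_assoc, smul_mul_assoc,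
      smul_mul_assoc, hAJ, one_mul, ones_mul_ones] at e
    have e' := congrFun (congrFun e a₀) a₀
    simp only [Matrix.add_apply, Matrix.sub_apply, Matrix.smul_apply, ones_apply, smul_eq_mul,
      mul_one] at e'
    linear_combination (-1 : ℂ) * e'
  have hγ' : (γ : ℂ) * (2 * m) = ((k : ℂ) - θ) * (k - θ') := by
    rw [← hγ, hm]; push_cast; ring
  have hγ'' : (γ : ℂ) * (2 * m) = ((k : ℂ) - θ') * (k - θ) := by
    rw [hγ']; ring
  -- the two representations
  obtain ⟨σ, hσ, hσpos, hσdim⟩ := Main.exists_rep h hn hne hAA hAJ hJA hγ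
  obtain ⟨σ', hσ', hσpos', hσdim'⟩ := Main.exists_rep (θ := θ') (θ' := θ) h hn hne.symm
    (by rw [hAA, add_comm θ' θ, mul_comm θ' θ]) hAJ hJA (by rw [hγ]; ring)
  obtain ⟨n₁, ρ₁, hρ₁, rfl⟩ := h₁
  obtain ⟨n₂, ρ₂, hρ₂, rfl⟩ := h₂
  rw [Representation.char_one] at hd₁ hd₂
  have hdim₂ : finrank ℂ (Fin n₂ → ℂ) = m := by exact_mod_cast hd₂
  have hdim₁ : finrank ℂ (Fin n₁ → ℂ) + 1 = m := by
    have : ((finrank ℂ (Fin n₁ → ℂ) + 1 : ℕ) : ℂ) = m := by
      push_cast
      rw [hd₁]; ring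
    exact_mod_cast this
  have hsum : ∀ g, ρ₁.character g + ρ₂.character g = σ.character g + σ'.character g := by
    intro g
    rw [hσ, hσ', ← map_add, ← LinearMap.add_comp, ← map_add, idem_add hn hne, map_sub,
      Matrix.toLin'_one, LinearMap.sub_comp, map_sub, LinearMap.id_comp, map_smul,
      LinearMap.smul_comp, map_smul, Main.trace_ones_comp]
    have e : (Nat.card (MulAction.fixedBy Ω g) : ℂ) = 1 + ρ₁.character g + ρ₂.character g :=
      congrFun hπ g
    have e' : LinearMap.trace ℂ (Ω → ℂ) (Cfsg.permRep ℂ G Ω g) =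
        (Nat.card (MulAction.fixedBy Ω g) : ℂ) := PermChar.permRep_character g
    rw [e', e, smul_eq_mul, inv_mul_cancel₀ hn]
    ring
  have hcases := Rep.dims_eq ρ₁ ρ₂ σ σ' hρ₁ hρ₂ (by omega) hsum hσpos hσpos'
  have hk1 : k ≠ 1 := fun h' => Main.block_of_val_one h hk h'
  have hn' : (Fintype.card Ω : ℂ) = 2 * m := by rw [hm]; push_cast; ring
  have hcast₁ : (finrank ℂ (Fin n₁ → ℂ) : ℂ) = m - 1 := hd₁
  have hcast₂ : (finrank ℂ (Fin n₂ → ℂ) : ℂ) = m := hd₂
  rw [hn'] at hσdim hσdim'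
  have hsub : θ - θ' ≠ 0 := sub_ne_zero.2 hne
  have fin : ∃ a : ℕ, 0 < a ∧ m = 2 * a ^ 2 + 2 * a + 1 ∧ k = a * (2 * a + 1) ∧
      2 * m = 1 + k + (a + 1) * (2 * a + 1) := by
    rcases hcases with ⟨c₁, c₂⟩ | ⟨c₁, c₂⟩
    · rw [c₁, hcast₁] at hσdim
      rw [c₂, hcast₂] at hσdim'
      refine Main.wrap (θ := θ) (θ' := θ') hkpos hkm hs hp hγ' ?_ hk1
      -- (m - 1) θ + m θ' = -k
      linear_combination hσdim
    · rw [c₁, hcast₂] at hσdim
      rw [c₂, hcast₁] at hσdim'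
      refine Main.wrap (θ := θ') (θ' := θ) hkpos hkm (by rw [add_comm, hs]) (by rw [mul_comm, hp])
        hγ'' ?_ hk1
      linear_combination hσdim'
  obtain ⟨a, ha, e1, e2, e3⟩ := fin
  exact ⟨a, ha, e1, e2, by omega⟩

/-- Groups of Wielandt type: if a primitive group of degree `2m` has rank 3 and permutation character `1 + χ₁ + χ₂` with irreducible `χ₁, χ₂` of degrees `m - 1` and `m`, then `m = 2a² + 2a + 1` for some positive integer `a` and the two non-trivial subdegrees are `a(2a+1)` and `(a+1)(2a+1)`. -/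
theorem result {G : Type*} [Group G] [Fintype G] {Ω : Type*} [Fintype Ω] [MulAction G Ω] (hprim : MulAction.IsPreprimitive G Ω) {m : ℕ} (hm : Fintype.card Ω = 2 * m) (a₀ : Ω) (hrank : Nat.card (MulAction.orbitRel.Quotient (MulAction.stabilizer G a₀) Ω) = 3) (χ₁ χ₂ : G → ℂ) (h₁ : Cfsg.IsIrrCharacter G χ₁) (h₂ : Cfsg.IsIrrCharacter G χ₂) (hπ : (fun g : G => (Nat.card (MulAction.fixedBy Ω g) : ℂ)) = fun g => 1 + χ₁ g + χ₂ g) (hd₁ : χ₁ 1 = (m : ℂ) - 1) (hd₂ : χ₂ 1 = m) : ∃ a : ℕ, 0 < a ∧ m = 2 * a ^ 2 + 2 * a + 1 ∧ ∀ b : Ω, b ≠ a₀ → Nat.card (MulAction.orbit (MulAction.stabilizer G a₀) b) = a * (2 * a + 1) ∨ Nat.card (MulAction.orbit (MulAction.stabilizer G a₀) b) = (a + 1) * (2 * a + 1) := by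
  classical
  obtain ⟨b₁, b₂, hb₁, hb₂, hdisj, hall⟩ := exists_three a₀ hrank
  have h : Rank3 G a₀ b₁ b₂ :=
    { trans := fun x => exists_smul_eq G a₀ x
      ne₁ := hb₁
      ne₂ := hb₂
      disj := hdisj
      all := hall }
  have hcard : 1 + val G a₀ b₁ + val G a₀ b₂ = 2 * m := by
    rw [← hm, ← Nat.card_eq_fintype_card]
    exact h.card_eq
  rcases lt_trichotomy (val G a₀ b₁) (val G a₀ b₂) with hlt | heq | hlt
  · obtain ⟨a, ha, e1, e2, e3⟩ := main hm h hlt χ₁ χ₂ h₁ h₂ hπ hd₁ hd₂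
    refine ⟨a, ha, e1, fun b hb => ?_⟩
    rcases hall b with h' | h' | h'
    · exact absurd h' hb
    · left; rw [orbit_eq_iff.2 h']; exact e2
    · right; rw [orbit_eq_iff.2 h']; exact e3
  · omega
  · obtain ⟨a, ha, e1, e2, e3⟩ := main hm h.swap hlt χ₁ χ₂ h₁ h₂ hπ hd₁ hd₂
    refine ⟨a, ha, e1, fun b hb => ?_⟩
    rcases hall b with h' | h' | h'
    · exact absurd h' hb
    · right; rw [orbit_eq_iff.2 h']; exact e3
    · left; rw [orbit_eq_iff.2 h']; exact e2

end Cfsg.Agent.S0719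
end
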