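import Cfsg.Statements.S0726
set_option linter.all false
-- import your own Cfsg.Agent.* helpers here

set_option autoImplicit false
open Cfsg

namespace Cfsg.Agent.S0726

/-- The left and right regular permutation representations of a group are each other's centralisers in the symmetric group: the centraliser of the left regular image is the right regular image, and a transitive subgroup centralising the left regular image is the whole right regular image. -/
theorem result {G : Type*} [Group G] : Subgroup.centralizer ((MulAction.toPermHom G G).range : Set (Equiv.Perm G)) = (MulAction.toPermHom Gᵐᵒᵖ G).range ∧ ∀ H : Subgroup (Equiv.Perm G), H ≤ Subgroup.centralizer ((MulAction.toPermHom G G).range : Set (Equiv.Perm G)) → MulAction.IsPretransitive H G → H = (MulAction.toPermHom Gᵐᵒᵖ G).range := by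
  have hcent : ∀ f : Equiv.Perm G,
      f ∈ Subgroup.centralizer ((MulAction.toPermHom G G).range : Set (Equiv.Perm G)) →
        ∀ x : G, f x = x * f 1 := by
    intro f hf x
    rw [Subgroup.mem_centralizer_iff] at hf
    have h := hf (MulAction.toPermHom G G x) ⟨x, rfl⟩
    have h2 := congrArg (fun g : Equiv.Perm G => g 1) h
    simp only [Equiv.Perm.mul_apply, MulAction.toPermHom_apply, MulAction.toPerm_apply,
      smul_eq_mul, mul_one] at h2
    exact h2.symm
  have hle : Subgroup.centralizer ((MulAction.toPermHom G G).range : Set (Equiv.Perm G)) ≤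
      (MulAction.toPermHom Gᵐᵒᵖ G).range := by
    intro f hf
    refine ⟨MulOpposite.op (f 1), ?_⟩
    ext x
    rw [hcent f hf x]
    rfl
  have hge : (MulAction.toPermHom Gᵐᵒᵖ G).range ≤
      Subgroup.centralizer ((MulAction.toPermHom G G).range : Set (Equiv.Perm G)) := by
    rintro f ⟨a, rfl⟩
    rw [Subgroup.mem_centralizer_iff]
    rintro g ⟨b, rfl⟩
    ext x
    simp only [Equiv.Perm.mul_apply, MulAction.toPermHom_apply, MulAction.toPerm_apply,
      smul_eq_mul]
    rw [MulOpposite.smul_eq_mul_unop, MulOpposite.smul_eq_mul_unop, mul_assoc]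
  refine ⟨le_antisymm hle hge, ?_⟩
  intro H hH htr
  refine le_antisymm (hH.trans hle) ?_
  rintro f hf
  obtain ⟨h, hh⟩ := htr.exists_smul_eq (1 : G) (f 1)
  have hh' : (h : Equiv.Perm G) 1 = f 1 := hh
  have : f = (h : Equiv.Perm G) := by
    ext x
    rw [hcent f (hge hf) x, hcent (h : Equiv.Perm G) (hH h.2) x, hh']
  rw [this]
  exact h.2

end Cfsg.Agent.S0726
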