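import Mathlib
import Cfsg.Statements.S0733
set_option linter.all false

set_option autoImplicit false
open Cfsg

namespace Cfsg.Agent.S0733

section
open scoped Pointwise

theorem block_iff_of_mem {G : Type*} [Group G] {X : Type*} [MulAction G X] {B : Set X}
    (hB : MulAction.IsBlock G B) {g : G} {a : X} (ha : a ∈ B) (hga : g • a ∈ B) (x : X) :
    g • x ∈ B ↔ x ∈ B := by
  have h := hB.smul_eq_of_mem ha hga
  constructor
  · intro hx
    rw [← h] at hx
    exact Set.smul_mem_smul_set_iff.1 hx
  · intro hx
    rw [← h]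
    exact Set.smul_mem_smul_set hx

end

/-- A permutation group of affine type — generated by the translations of a finite vector space `V` over `ZMod p` together with a group `G₀` of linear automorphisms — is primitive on `V` if and only if `G₀` is irreducible on `V`. -/
theorem result {p : ℕ} [Fact p.Prime] {V : Type*} [AddCommGroup V] [Module (ZMod p) V] [Finite V] [Nontrivial V] (G₀ : Subgroup (V ≃ₗ[ZMod p] V)) (G : Subgroup (Equiv.Perm V)) (hG : ∀ σ : Equiv.Perm V, σ ∈ G ↔ ∃ g ∈ G₀, ∃ b : V, ∀ x : V, σ x = (g : V ≃ₗ[ZMod p] V) x + b) : MulAction.IsPreprimitive G V ↔ ∀ W : Submodule (ZMod p) V, (∀ g ∈ G₀, ∀ v ∈ W, (g : V ≃ₗ[ZMod p] V) v ∈ W) → W = ⊥ ∨ W = ⊤ := by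
  have htrans : ∀ b : V, (Equiv.addRight b : Equiv.Perm V) ∈ G := by
    intro b
    rw [hG]
    exact ⟨1, G₀.one_mem, b, fun x => by simp⟩
  have hlin : ∀ g ∈ G₀, (g.toEquiv : Equiv.Perm V) ∈ G := by
    intro g hg
    rw [hG]
    exact ⟨g, hg, 0, fun x => by simp⟩
  constructor
  · intro hprim W hW
    have hblock : MulAction.IsBlock G (W : Set V) := by
      rw [MulAction.isBlock_iff_smul_eq_of_mem]
      intro σ a ha hσa
      obtain ⟨g, hg, b, hb⟩ := (hG σ.1).1 σ.2
      have hsm : ∀ x : V, σ • x = g x + b := fun x => hb x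
      rw [hsm] at hσa
      have hbW : b ∈ W := by
        have := W.sub_mem hσa (hW g hg a ha)
        simpa using this
      ext v
      rw [Set.mem_smul_set]
      constructor
      · rintro ⟨u, hu, rfl⟩
        rw [hsm]
        exact W.add_mem (hW g hg u hu) hbW
      · intro hv
        refine ⟨g⁻¹ (v - b), hW g⁻¹ (G₀.inv_mem hg) _ (W.sub_mem hv hbW), ?_⟩
        rw [hsm]
        have : g (g⁻¹ (v - b)) = v - b := by
          rw [← LinearEquiv.mul_apply, mul_inv_cancel]
          rfl
        rw [this]
        simp
    rcases hprim.isTrivialBlock_of_isBlock hblock with h | h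
    · left
      rw [Submodule.eq_bot_iff]
      intro x hx
      exact h hx W.zero_mem
    · right
      rw [Submodule.eq_top_iff']
      intro x
      have : x ∈ (W : Set V) := by rw [h]; trivial
      exact this
  · intro hirr
    have : MulAction.IsPretransitive G V := by
      constructor
      intro x y
      refine ⟨⟨Equiv.addRight (y - x), htrans _⟩, ?_⟩
      change x + (y - x) = y
      abel
    apply MulAction.IsPreprimitive.of_isTrivialBlock_base (0 : V)
    intro B h0 hB
    have hBadd : ∀ b ∈ B, ∀ v, v ∈ B ↔ v + b ∈ B := by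
      intro b hb v
      have h1 : (⟨Equiv.addRight b, htrans b⟩ : G) • (0 : V) ∈ B := by
        change (0 : V) + b ∈ B
        rwa [zero_add]
      exact (block_iff_of_mem hB h0 h1 v).symm
    have hneg : ∀ b ∈ B, -b ∈ B := by
      intro b hb
      rw [hBadd b hb]
      simpa using h0
    let S : AddSubgroup V :=
      { carrier := B
        add_mem' := fun {a b} ha hb => (hBadd b hb a).1 ha
        zero_mem' := h0
        neg_mem' := fun {a} ha => hneg a ha }
    let W : Submodule (ZMod p) V := AddSubgroup.toZModSubmodule p S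
    have hWB : ∀ v, v ∈ W ↔ v ∈ B := fun v => Iff.rfl
    rcases hirr W (by
      intro g hg v hv
      have h1 : (⟨g.toEquiv, hlin g hg⟩ : G) • (0 : V) ∈ B := by
        change g 0 ∈ B
        rwa [map_zero]
      rw [hWB] at hv ⊢
      exact (block_iff_of_mem hB h0 h1 v).2 hv) with h | h
    · left
      intro x hx y hy
      rw [← hWB, h, Submodule.mem_bot] at hx hy
      rw [hx, hy]
    · right
      ext v
      rw [← hWB, h]
      simp

end Cfsg.Agent.S0733
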