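-- S0734: Higman's criterion for primitivity (helper423)
import Cfsg.Statements.S0734
set_option linter.all false

set_option autoImplicit false
open Cfsg

namespace Cfsg.Agent.S0734

/-- Higman's criterion for primitivity: a transitive action on a finite set is primitive if and only if every non-trivial orbital graph (edges = images of a fixed pair of distinct points) is connected. -/
theorem result {G : Type*} [Group G] {Ω : Type*} [Finite Ω] [MulAction G Ω] [MulAction.IsPretransitive G Ω] [Nontrivial Ω] : MulAction.IsPreprimitive G Ω ↔ ∀ a b : Ω, a ≠ b → (SimpleGraph.fromRel fun x y : Ω => ∃ g : G, g • a = x ∧ g • b = y).Connected := by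
  classical
  constructor
  · intro hprim a b hab
    set Γ : SimpleGraph Ω := SimpleGraph.fromRel fun x y : Ω => ∃ g : G, g • a = x ∧ g • b = y with hΓ
    have hadj : ∀ (g : G) (x y : Ω), Γ.Adj x y → Γ.Adj (g • x) (g • y) := by
      intro g x y h
      rw [hΓ, SimpleGraph.fromRel_adj] at h ⊢
      obtain ⟨hne, h⟩ := h
      refine ⟨fun h' => hne (smul_left_cancel g h'), ?_⟩
      rcases h with ⟨k, hk1, hk2⟩ | ⟨k, hk1, hk2⟩
      · left; exact ⟨g * k, by rw [mul_smul, hk1], by rw [mul_smul, hk2]⟩
      · right; exact ⟨g * k, by rw [mul_smul, hk1], by rw [mul_smul, hk2]⟩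
    have hreach : ∀ (g : G) (x y : Ω), Γ.Reachable x y → Γ.Reachable (g • x) (g • y) := by
      intro g x y h
      let φ : Γ →g Γ := ⟨fun z => g • z, fun {x y} h => hadj g x y h⟩
      exact h.map φ
    have hblock : MulAction.IsBlock G {x : Ω | Γ.Reachable a x} := by
      rw [MulAction.isBlock_iff_smul_eq_of_nonempty]
      rintro g ⟨x, hx1, hx2⟩
      obtain ⟨y, hy, rfl⟩ := hx1
      change Γ.Reachable a _ at hx2 hy
      have hga : Γ.Reachable a (g • a) := hx2.trans (hreach g _ _ hy).symm
      ext z
      rw [Set.mem_smul_set_iff_inv_smul_mem]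
      change Γ.Reachable a _ ↔ Γ.Reachable a _
      constructor
      · intro h
        have := hreach g _ _ h
        rw [smul_inv_smul] at this
        exact hga.trans this
      · intro h
        have := hreach g⁻¹ _ _ (hga.symm.trans h)
        rwa [inv_smul_smul] at this
    have hab' : Γ.Adj a b := by
      rw [hΓ, SimpleGraph.fromRel_adj]
      exact ⟨hab, Or.inl ⟨1, one_smul _ _, one_smul _ _⟩⟩
    have htriv := hprim.isTrivialBlock_of_isBlock hblock
    have huniv : {x : Ω | Γ.Reachable a x} = Set.univ := by
      rcases htriv with h | h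
      · exact absurd (h (show a ∈ {x : Ω | Γ.Reachable a x} from SimpleGraph.Reachable.refl a) (show b ∈ {x : Ω | Γ.Reachable a x} from hab'.reachable)) hab
      · exact h
    have hall : ∀ x, Γ.Reachable a x := fun x => by
      have : x ∈ {x : Ω | Γ.Reachable a x} := by rw [huniv]; trivial
      exact this
    have : Nonempty Ω := ⟨a⟩
    exact SimpleGraph.Connected.mk (fun x y => (hall x).symm.trans (hall y))
  · intro h
    refine { isTrivialBlock_of_isBlock := ?_ }
    intro B hB
    by_cases hs : B.Subsingleton
    · exact Or.inl hs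
    · right
      rw [Set.not_subsingleton_iff] at hs
      obtain ⟨a, ha, b, hb, hab⟩ := hs
      have hconn := h a b hab
      rw [MulAction.isBlock_iff_smul_eq_of_nonempty] at hB
      have key : ∀ x y : Ω, (SimpleGraph.fromRel fun x y : Ω => ∃ g : G, g • a = x ∧ g • b = y).Adj x y → x ∈ B → y ∈ B := by
        intro x y hxy hx
        rw [SimpleGraph.fromRel_adj] at hxy
        obtain ⟨_, hxy⟩ := hxy
        rcases hxy with ⟨g, rfl, rfl⟩ | ⟨g, rfl, rfl⟩
        · have := @hB g ⟨g • a, Set.smul_mem_smul_set ha, hx⟩
          rw [← this]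
          exact Set.smul_mem_smul_set hb
        · have := @hB g ⟨g • b, Set.smul_mem_smul_set hb, hx⟩
          rw [← this]
          exact Set.smul_mem_smul_set ha
      rw [Set.eq_univ_iff_forall]
      have hwalk : ∀ (Γ : SimpleGraph Ω), (∀ x y : Ω, Γ.Adj x y → x ∈ B → y ∈ B) →
          ∀ x y : Ω, Γ.Walk x y → x ∈ B → y ∈ B := by
        intro Γ hΓ x y w
        induction w with
        | nil => exact fun h => h
        | cons hadj _ ih => exact fun hx => ih (hΓ _ _ hadj hx)
      intro x
      obtain ⟨w⟩ := hconn.preconnected a x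
      exact hwalk _ key a x w ha

end Cfsg.Agent.S0734
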