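import Cfsg.Statements.S0743
import Cfsg.Agent.PermutationGroups.Gleason
set_option linter.all false

set_option autoImplicit false
open Cfsg

namespace Cfsg.Agent.S0743

/-- Gleason's Lemma: let `p` be a prime and `1 ≤ k < n`; if every `k`-subset of the `n` points is exactly the fixed-point set of some `p`-subgroup of `G`, then `G` is `k`-transitive. -/
theorem result {α : Type*} [Fintype α] [DecidableEq α] (G : Subgroup (Equiv.Perm α)) {p k : ℕ} (hp : p.Prime) (hk : 1 ≤ k) (hkn : k < Fintype.card α) (h : ∀ s : Finset α, s.card = k → ∃ P : Subgroup G, IsPGroup p P ∧ MulAction.fixedPoints P α = (s : Set α)) : MulAction.IsMultiplyPretransitive G α k := by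
  obtain ⟨k, rfl⟩ : ∃ m, k = m + 1 := ⟨k - 1, by omega⟩
  refine Cfsg.Agent.PermutationGroups.Gleason.gleason hp (by rwa [Nat.card_eq_fintype_card]) ?_
  intro s hs
  have hfin : s.Finite := Set.toFinite s
  obtain ⟨P, hP, hPs⟩ := h hfin.toFinset (by rw [← hs, Set.ncard_eq_toFinset_card s hfin])
  exact ⟨P, hP, by rw [hPs, Set.Finite.coe_toFinset]⟩

end Cfsg.Agent.S0743
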