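import Cfsg.Statements.S0753
set_option linter.all false
-- import your own Cfsg.Agent.* helpers here

set_option autoImplicit false
open Cfsg

namespace Cfsg.Agent.S0753

/-- If σ is a ring endomorphism of the field F other than the identity and B is a σ-sesquilinear conjugate-symmetric form with B v v = 0 for every v, then B = 0. -/
theorem result {F V : Type*} [Field F] [AddCommGroup V] [Module F V] (σ : F →+* F) (hσ : σ ≠ RingHom.id F) (B : V →ₛₗ[σ] V →ₗ[F] F) (hS : B.IsSymm) (h0 : ∀ v : V, B v v = 0) : B = 0 := by
  by_contra hB
  apply hσ
  have hne : ∃ x y : V, B x y ≠ 0 := by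
    by_contra h
    push Not at h
    apply hB
    ext x y
    simpa using h x y
  obtain ⟨x, y, hxy⟩ := hne
  have key : ∀ u v : V, B u v + B v u = 0 := by
    intro u v
    have h := h0 (u + v)
    simp only [map_add, LinearMap.add_apply, h0] at h
    rw [← h]; ring
  ext a
  have h1 := key (a • x) y
  have h2 := key x y
  rw [LinearMap.map_smulₛₗ₂, map_smul, smul_eq_mul, smul_eq_mul] at h1
  have h3 : B y x = - B x y := by linear_combination h2
  rw [h3] at h1
  have h4 : (σ a - a) * B x y = 0 := by linear_combination h1
  rcases mul_eq_zero.mp h4 with h | h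
  · simpa using sub_eq_zero.mp h
  · exact absurd h hxy

end Cfsg.Agent.S0753
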