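import Cfsg.Statements.S0757
set_option linter.all false
-- import your own Cfsg.Agent.* helpers here

set_option autoImplicit false
open Cfsg

namespace Cfsg.Agent.S0757

/-- The discriminant of a diagonal form (up to the choice of the matrix) is the product of its coefficients. -/
theorem discr_weighted {F : Type*} [Field F] [Invertible (2 : F)] (n : ℕ) (w : Fin n → F) :
    QuadraticForm.discr' (QuadraticMap.weightedSumSquares F w) = ∏ i, w i := by
  have h : QuadraticForm.toMatrix' (QuadraticMap.weightedSumSquares F w) = Matrix.diagonal w := by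
    ext i j
    rw [QuadraticForm.toMatrix', LinearMap.toMatrix₂'_apply]
    have key : QuadraticMap.associated (QuadraticMap.weightedSumSquares F w) (Pi.single i 1) (Pi.single j 1)
       = ∑ k : Fin n, w k * ((Pi.single i 1 : Fin n → F) k * (Pi.single j 1 : Fin n → F) k) := by
      have h2 : (2 : F) ≠ 0 := Invertible.ne_zero 2
      apply mul_left_cancel₀ h2
      have h3 := QuadraticMap.two_nsmul_associated F (Q := QuadraticMap.weightedSumSquares F w)
      have h4 := congrArg (fun B => B (Pi.single i 1) (Pi.single j 1)) h3
      simp only [LinearMap.smul_apply, nsmul_eq_mul, Nat.cast_ofNat] at h4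
      rw [h4]
      simp only [QuadraticMap.polarBilin_apply_apply, QuadraticMap.polar, QuadraticMap.weightedSumSquares_apply, Pi.add_apply, smul_eq_mul]
      rw [← Finset.sum_sub_distrib, ← Finset.sum_sub_distrib, Finset.mul_sum]
      refine Finset.sum_congr rfl fun k _ => ?_
      ring
    rw [key]
    by_cases hij : i = j
    · subst hij
      simp [Pi.single_apply]
    · simp [Pi.single_apply, hij, Ne.symm hij]
  rw [QuadraticForm.discr', h, Matrix.det_diagonal]

/-- The two diagonal forms Σ x_i^2 and Σ_(i<n) x_i^2 + α x_n^2 on F^(n+1), with α a non-square and 2 ≠ 0 in F, are inequivalent quadratic forms (so over a finite field of odd order there are exactly two classes of non-singular symmetric bilinear forms in each dimension). -/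
theorem result {F : Type*} [Field F] (h2 : (2 : F) ≠ 0) (n : ℕ) (α : F) (hα : ¬ IsSquare α) : ¬ (QuadraticMap.weightedSumSquares F (fun _ : Fin (n + 1) => (1 : F))).Equivalent (QuadraticMap.weightedSumSquares F (fun i : Fin (n + 1) => if i = Fin.last n then α else (1 : F))) := by
  rintro ⟨e⟩
  have : Invertible (2 : F) := invertibleOfNonzero h2
  have hcomp : (QuadraticMap.weightedSumSquares F
      (fun i : Fin (n + 1) => if i = Fin.last n then α else (1 : F))).comp
      (e.toLinearEquiv : (Fin (n + 1) → F) →ₗ[F] (Fin (n + 1) → F)) =
      QuadraticMap.weightedSumSquares F (fun _ : Fin (n + 1) => (1 : F)) := by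
    ext x
    exact e.map_app x
  have hd := congrArg QuadraticForm.discr' hcomp
  rw [QuadraticForm.discr'_comp, discr_weighted, discr_weighted] at hd
  have hprod : (∏ i : Fin (n + 1), (if i = Fin.last n then α else (1 : F))) = α := by
    simp
  rw [hprod, Finset.prod_const_one] at hd
  apply hα
  set d := ((e.toLinearEquiv : (Fin (n + 1) → F) →ₗ[F] (Fin (n + 1) → F)).toMatrix').det
  have hd0 : d ≠ 0 := by
    intro h0
    rw [h0] at hd
    simp at hd
  refine ⟨d⁻¹, ?_⟩
  field_simp
  linear_combination hd

end Cfsg.Agent.S0757
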