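-- Proof of statement S0758.
import Cfsg.Statements.S0758
import Mathlib.NumberTheory.LegendreSymbol.QuadraticChar.Basic
set_option linter.all false

set_option autoImplicit false
open Cfsg

namespace Cfsg.Agent.S0758

theorem ringChar_ne_two {F : Type*} [Field F] (h2 : (2 : F) ≠ 0) : ringChar F ≠ 2 := by
  intro h
  apply h2
  have := ringChar.Nat.cast_ringChar (R := F)
  rw [h] at this
  exact_mod_cast this

theorem mul_isSquare_iff {F : Type*} [Field F] [Fintype F] {a b : F}
    (ha : a ≠ 0) (hb : ¬ IsSquare b) :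
    IsSquare (a * b) ↔ ¬ IsSquare a := by
  classical
  have hb0 : b ≠ 0 := by
    rintro rfl
    exact hb (IsSquare.zero)
  have h1 : quadraticChar F b = -1 := quadraticChar_neg_one_iff_not_isSquare.2 hb
  rw [← quadraticChar_one_iff_isSquare (mul_ne_zero ha hb0), map_mul, h1,
    ← quadraticChar_neg_one_iff_not_isSquare]
  constructor
  · intro h; linarith
  · intro h; rw [h]; norm_num

theorem card_odd {F : Type*} [Field F] [Fintype F] (h2 : (2 : F) ≠ 0) :
    Fintype.card F % 2 = 1 :=
  FiniteField.odd_card_of_char_ne_two (ringChar_ne_two h2)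

theorem exists_iff {F : Type*} [Field F] (a : F) :
    (∃ x y : F, (x ≠ 0 ∨ y ≠ 0) ∧ x ^ 2 + a * y ^ 2 = 0) ↔ IsSquare (-a) := by
  constructor
  · rintro ⟨x, y, hxy, h⟩
    by_cases hy : y = 0
    · subst hy
      have hx : x = 0 := by simpa using h
      subst hx
      simp at hxy
    · refine ⟨x / y, ?_⟩
      field_simp
      linear_combination -h
  · rintro ⟨r, hr⟩
    refine ⟨r, 1, Or.inr one_ne_zero, ?_⟩
    linear_combination -hr

/-- For a finite field F of odd order q and a non-square α: the form x² + y² is isotropic iff q ≡ 1 mod 4, and the form x² + α y² is isotropic iff q ≡ 3 mod 4. -/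
theorem result {F : Type*} [Field F] [Fintype F] (h2 : (2 : F) ≠ 0) (α : F) (hα : ¬ IsSquare α) : ((∃ x y : F, (x ≠ 0 ∨ y ≠ 0) ∧ x ^ 2 + y ^ 2 = 0) ↔ Fintype.card F % 4 = 1) ∧ ((∃ x y : F, (x ≠ 0 ∨ y ≠ 0) ∧ x ^ 2 + α * y ^ 2 = 0) ↔ Fintype.card F % 4 = 3) := by
  have hodd := card_odd h2
  have hm1 := FiniteField.isSquare_neg_one_iff (F := F)
  constructor
  · have h := exists_iff (1 : F)
    simp only [one_mul] at h
    rw [h, hm1]
    omega
  · rw [exists_iff α, show -α = (-1) * α by ring,
      mul_isSquare_iff (neg_ne_zero.2 one_ne_zero) hα, hm1]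
    omega

end Cfsg.Agent.S0758
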