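import Cfsg.Statements.S0769
set_option linter.all false

set_option autoImplicit false
open Cfsg

namespace Cfsg.Agent.S0769

theorem det_lower {F : Type*} [Field F] {n : ℕ} (M : Matrix (Fin n) (Fin n) F)
    (h : ∀ i j : Fin n, i < j → M i j = 0) : M.det = ∏ i, M i i :=
  Matrix.det_of_lowerTriangular M (fun i j hij => h i j hij)

/-- The matrix with given strictly lower triangular part and diagonal. -/
def mkLower {F : Type*} [Field F] {n : ℕ} (f : ∀ i : Fin n, ({j : Fin n // j < i} → F) × Fˣ) :
    Matrix (Fin n) (Fin n) F :=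
  Matrix.of fun i j => if h : j < i then (f i).1 ⟨j, h⟩ else if i = j then ((f i).2 : F) else 0

theorem mkLower_lower {F : Type*} [Field F] {n : ℕ}
    (f : ∀ i : Fin n, ({j : Fin n // j < i} → F) × Fˣ) {i j : Fin n} (h : i < j) :
    mkLower f i j = 0 := by
  change (if h : j < i then (f i).1 ⟨j, h⟩ else if i = j then ((f i).2 : F) else 0) = 0
  rw [dif_neg (not_lt.2 h.le), if_neg h.ne]

theorem mkLower_diag {F : Type*} [Field F] {n : ℕ}
    (f : ∀ i : Fin n, ({j : Fin n // j < i} → F) × Fˣ) (i : Fin n) :
    mkLower f i i = ((f i).2 : F) := by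
  change (if h : i < i then (f i).1 ⟨i, h⟩ else if i = i then ((f i).2 : F) else 0) = _
  rw [dif_neg (lt_irrefl i), if_pos rfl]

theorem mkLower_of_lt {F : Type*} [Field F] {n : ℕ}
    (f : ∀ i : Fin n, ({j : Fin n // j < i} → F) × Fˣ) {i j : Fin n} (h : j < i) :
    mkLower f i j = (f i).1 ⟨j, h⟩ := by
  change (if h : j < i then (f i).1 ⟨j, h⟩ else if i = j then ((f i).2 : F) else 0) = _
  rw [dif_pos h]

theorem mkLower_det {F : Type*} [Field F] {n : ℕ}
    (f : ∀ i : Fin n, ({j : Fin n // j < i} → F) × Fˣ) : (mkLower f).det ≠ 0 := by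
  rw [det_lower _ fun i j h => mkLower_lower f h, Finset.prod_ne_zero_iff]
  intro i _
  rw [mkLower_diag]
  exact (f i).2.ne_zero

theorem diag_ne_zero {F : Type*} [Field F] {n : ℕ}
    (g : {g : Matrix.GeneralLinearGroup (Fin n) F // ∀ i j : Fin n, i < j →
      (g : Matrix (Fin n) (Fin n) F) i j = 0}) (i : Fin n) :
    (g.1 : Matrix (Fin n) (Fin n) F) i i ≠ 0 := by
  have h := g.1.det_ne_zero
  rw [det_lower _ g.2, Finset.prod_ne_zero_iff] at h
  exact h i (Finset.mem_univ i)

/-- Lower triangular invertible matrices, by rows. -/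
noncomputable def equivRows {F : Type*} [Field F] (n : ℕ) :
    {g : Matrix.GeneralLinearGroup (Fin n) F // ∀ i j : Fin n, i < j →
      (g : Matrix (Fin n) (Fin n) F) i j = 0} ≃
    (∀ i : Fin n, ({j : Fin n // j < i} → F) × Fˣ) where
  toFun g i := (fun j => (g.1 : Matrix (Fin n) (Fin n) F) i j, Units.mk0 _ (diag_ne_zero g i))
  invFun f := ⟨Matrix.GeneralLinearGroup.mkOfDetNeZero (mkLower f) (mkLower_det f),
    fun _ _ h => mkLower_lower f h⟩
  left_inv g := by
    apply Subtype.ext
    apply Units.ext
    ext i j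
    change mkLower _ i j = _
    rcases lt_trichotomy i j with h | h | h
    · rw [mkLower_lower _ h, g.2 i j h]
    · subst h
      rw [mkLower_diag]
      rfl
    · rw [mkLower_of_lt _ h]
  right_inv f := by
    funext i
    refine Prod.ext ?_ ?_
    · funext j
      exact mkLower_of_lt f j.2
    · exact Units.ext (mkLower_diag f i)

/-- Order of the Borel subgroup of GL_n(q): the invertible lower-triangular n × n matrices over a field with q elements number q^(n(n-1)/2) (q-1)^n (unitriangular part times the diagonal torus). -/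
theorem result {F : Type*} [Field F] [Fintype F] {q : ℕ} (hF : Fintype.card F = q) (n : ℕ) : Nat.card {g : Matrix.GeneralLinearGroup (Fin n) F // ∀ i j : Fin n, i < j → (g : Matrix (Fin n) (Fin n) F) i j = 0} = q ^ (n * (n - 1) / 2) * (q - 1) ^ n := by
  have hF' : Nat.card F = q := by rw [Nat.card_eq_fintype_card, hF]
  rw [Nat.card_congr (equivRows n), Nat.card_pi]
  have h : ∀ i : Fin n, Nat.card (({j : Fin n // j < i} → F) × Fˣ) = q ^ (i : ℕ) * (q - 1) := by
    intro i
    have h1 : Nat.card {j : Fin n // j < i} = (i : ℕ) := by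
      rw [Nat.card_eq_fintype_card, Fintype.card_subtype]
      have h2 : (Finset.univ.filter fun j : Fin n => j < i) = Finset.Iio i := by
        ext j
        simp
      rw [h2, Fin.card_Iio]
    rw [Nat.card_prod, Nat.card_fun, Nat.card_units, hF', h1]
  simp_rw [h]
  rw [Finset.prod_mul_distrib, Finset.prod_const, Finset.card_univ, Fintype.card_fin,
    Finset.prod_pow_eq_pow_sum, Fin.sum_univ_eq_sum_range (fun i => i) n,
    Finset.sum_range_id]

end Cfsg.Agent.S0769
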