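import Cfsg.Statements.S0770
set_option linter.all false

set_option autoImplicit false
open Cfsg

namespace Cfsg.Agent.S0770

open Matrix

/-- Membership in the diagonal subgroup: off-diagonal entries vanish. -/
theorem mem_diag_iff {F : Type*} [Field F] {n : ℕ} (h : Matrix.GeneralLinearGroup (Fin n) F) :
    h ∈ ((Units.map (Matrix.diagonalRingHom (Fin n) F).toMonoidHom).range :
      Subgroup (Matrix.GeneralLinearGroup (Fin n) F)) ↔
    ∀ i j : Fin n, i ≠ j → (h : Matrix (Fin n) (Fin n) F) i j = 0 := by
  constructor
  · rintro ⟨u, rfl⟩ i j hij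
    change Matrix.diagonal (u : Fin n → F) i j = 0
    exact Matrix.diagonal_apply_ne _ hij
  · intro hd
    have hdiag : (h : Matrix (Fin n) (Fin n) F) =
        Matrix.diagonal (fun i => (h : Matrix (Fin n) (Fin n) F) i i) := by
      ext i j
      by_cases hij : i = j
      · subst hij; simp
      · rw [hd i j hij, Matrix.diagonal_apply_ne _ hij]
    have hne : ∀ i, (h : Matrix (Fin n) (Fin n) F) i i ≠ 0 := by
      intro i hi
      have h1 : ((h : Matrix (Fin n) (Fin n) F) * ((h⁻¹ : Matrix.GeneralLinearGroup (Fin n) F) :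
          Matrix (Fin n) (Fin n) F)) i i = 1 := by
        rw [← Units.val_mul, mul_inv_cancel, Units.val_one, Matrix.one_apply_eq]
      rw [hdiag, Matrix.diagonal_mul, hi, zero_mul] at h1
      exact zero_ne_one h1
    refine ⟨⟨fun i => (h : Matrix (Fin n) (Fin n) F) i i,
      fun i => ((h : Matrix (Fin n) (Fin n) F) i i)⁻¹, ?_, ?_⟩, ?_⟩
    · funext i
      exact mul_inv_cancel₀ (hne i)
    · funext i
      exact inv_mul_cancel₀ (hne i)
    · apply Units.ext
      change Matrix.diagonal (fun i => (h : Matrix (Fin n) (Fin n) F) i i) = _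
      exact hdiag.symm

/-- For a field with at least 3 elements, an invertible matrix normalises the subgroup of invertible diagonal matrices of GL_n if and only if it is monomial (exactly one non-zero entry in each row). -/
theorem result {F : Type*} [Field F] (hF : ∃ a : F, a ≠ 0 ∧ a ≠ 1) (n : ℕ) (g : Matrix.GeneralLinearGroup (Fin n) F) : g ∈ Subgroup.normalizer ((Units.map (Matrix.diagonalRingHom (Fin n) F).toMonoidHom).range : Subgroup (Matrix.GeneralLinearGroup (Fin n) F)) ↔ ∀ i : Fin n, ∃! j : Fin n, (g : Matrix (Fin n) (Fin n) F) i j ≠ 0 := by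
  have hrow : ∀ i, ∃ j, (g : Matrix (Fin n) (Fin n) F) i j ≠ 0 := by
    intro i
    by_contra hcon
    push Not at hcon
    have h1 : ((g : Matrix (Fin n) (Fin n) F) * ((g⁻¹ : Matrix.GeneralLinearGroup (Fin n) F) :
        Matrix (Fin n) (Fin n) F)) i i = 1 := by
      rw [← Units.val_mul, mul_inv_cancel, Units.val_one, Matrix.one_apply_eq]
    rw [Matrix.mul_apply] at h1
    simp only [hcon, zero_mul, Finset.sum_const_zero] at h1
    exact zero_ne_one h1
  have hcol : ∀ j, ∃ i, (g : Matrix (Fin n) (Fin n) F) i j ≠ 0 := by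
    intro j
    by_contra hcon
    push Not at hcon
    have h1 : (((g⁻¹ : Matrix.GeneralLinearGroup (Fin n) F) : Matrix (Fin n) (Fin n) F) *
        (g : Matrix (Fin n) (Fin n) F)) j j = 1 := by
      rw [← Units.val_mul, inv_mul_cancel, Units.val_one, Matrix.one_apply_eq]
    rw [Matrix.mul_apply] at h1
    simp only [hcon, mul_zero, Finset.sum_const_zero] at h1
    exact zero_ne_one h1
  obtain ⟨a, ha0, ha1⟩ := hF
  rw [Subgroup.mem_normalizer_iff]
  constructor
  · intro hg i
    obtain ⟨j, hj⟩ := hrow i
    refine ⟨j, hj, ?_⟩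
    intro k hk
    by_contra hkj
    -- the diagonal matrix with `a` at `j` and `1` elsewhere
    let u : (Fin n → F)ˣ :=
      ⟨Function.update 1 j a, Function.update 1 j a⁻¹, by
        funext i; by_cases h : i = j
        · subst h; simp [ha0]
        · simp [h], by
        funext i; by_cases h : i = j
        · subst h; simp [ha0]
        · simp [h]⟩
    have hu := (hg (Units.map (Matrix.diagonalRingHom (Fin n) F).toMonoidHom u)).1 ⟨u, rfl⟩
    obtain ⟨v, hv⟩ := hu
    have hv' : Units.map (Matrix.diagonalRingHom (Fin n) F).toMonoidHom v * g =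
        g * Units.map (Matrix.diagonalRingHom (Fin n) F).toMonoidHom u := by
      rw [hv]; group
    have hv'' := congrArg (fun x : Matrix.GeneralLinearGroup (Fin n) F =>
      (x : Matrix (Fin n) (Fin n) F)) hv'
    simp only [Units.val_mul] at hv''
    change Matrix.diagonal (v : Fin n → F) * (g : Matrix (Fin n) (Fin n) F) =
      (g : Matrix (Fin n) (Fin n) F) * Matrix.diagonal (u : Fin n → F) at hv''
    have e1 := congrFun (congrFun hv'' i) j
    have e2 := congrFun (congrFun hv'' i) k
    rw [Matrix.diagonal_mul, Matrix.mul_diagonal] at e1 e2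
    have u1 : (u : Fin n → F) j = a := by simp [u]
    have u2 : (u : Fin n → F) k = 1 := by simp [u, hkj]
    rw [u1, mul_comm] at e1
    rw [u2, mul_comm] at e2
    have f1 := mul_left_cancel₀ hj e1
    have f2 := mul_left_cancel₀ hk e2
    exact ha1 (f1.symm.trans f2)
  · intro hm h
    choose σ hσ hσu using hm
    have hσsurj : Function.Surjective σ := by
      intro j
      obtain ⟨i, hi⟩ := hcol j
      exact ⟨i, (hσu i j hi).symm⟩
    have hσinj : Function.Injective σ := Finite.injective_iff_surjective.2 hσsurj
    have hz : ∀ i j, j ≠ σ i → (g : Matrix (Fin n) (Fin n) F) i j = 0 := by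
      intro i j hj
      by_contra hne
      exact hj (hσu i j hne)
    have key : ∀ i k, (((g * h * g⁻¹ : Matrix.GeneralLinearGroup (Fin n) F) :
        Matrix (Fin n) (Fin n) F)) i k * (g : Matrix (Fin n) (Fin n) F) k (σ k) =
        (g : Matrix (Fin n) (Fin n) F) i (σ i) * (h : Matrix (Fin n) (Fin n) F) (σ i) (σ k) := by
      intro i k
      have e : (g * h * g⁻¹) * g = g * h := by group
      have e' : (((g * h * g⁻¹ : Matrix.GeneralLinearGroup (Fin n) F) :
          Matrix (Fin n) (Fin n) F)) * (g : Matrix (Fin n) (Fin n) F) =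
          (g : Matrix (Fin n) (Fin n) F) * (h : Matrix (Fin n) (Fin n) F) :=
        congrArg (fun x : Matrix.GeneralLinearGroup (Fin n) F =>
          (x : Matrix (Fin n) (Fin n) F)) e
      have e'' := congrFun (congrFun e' i) (σ k)
      rw [Matrix.mul_apply, Matrix.mul_apply] at e''
      rw [Finset.sum_eq_single k, Finset.sum_eq_single (σ i)] at e''
      · exact e''
      · intro b _ hb
        rw [hz i b hb, zero_mul]
      · intro hb; exact absurd (Finset.mem_univ _) hb
      · intro b _ hb
        rw [hz b (σ k) (fun hh => hb (hσinj hh).symm), mul_zero]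
      · intro hb; exact absurd (Finset.mem_univ _) hb
    rw [mem_diag_iff, mem_diag_iff]
    constructor
    · intro hh i k hik
      have := key i k
      rw [hh _ _ (fun e => hik (hσinj e)), mul_zero] at this
      exact (mul_eq_zero.1 this).resolve_right (hσ k)
    · intro hh i k hik
      obtain ⟨i', rfl⟩ := hσsurj i
      obtain ⟨k', rfl⟩ := hσsurj k
      have := key i' k'
      rw [hh _ _ (fun e => hik (by rw [e])), zero_mul] at this
      exact (mul_eq_zero.1 this.symm).resolve_left (hσ i')

end Cfsg.Agent.S0770
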