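import Cfsg.Statements.S0771
set_option linter.all false

set_option autoImplicit false
open Cfsg

namespace Cfsg.Agent.S0771

open Matrix

/-- block upper triangular matrix as a unit -/
noncomputable def blk {F : Type*} [Field F] (k m : ℕ)
    (x : (Matrix.GeneralLinearGroup (Fin k) F × Matrix.GeneralLinearGroup (Fin m) F) ×
      Matrix (Fin k) (Fin m) F) : Matrix.GeneralLinearGroup (Fin (k + m)) F :=
  Units.mapEquiv (Matrix.reindexRingEquiv F (finSumFinEquiv (m := k) (n := m))).toMulEquiv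
    ((Matrix.isUnit_fromBlocks_zero₂₁ (A := (x.1.1 : Matrix (Fin k) (Fin k) F)) (B := x.2)
      (D := (x.1.2 : Matrix (Fin m) (Fin m) F))).2 ⟨x.1.1.isUnit, x.1.2.isUnit⟩).unit

theorem blk_val {F : Type*} [Field F] (k m : ℕ)
    (x : (Matrix.GeneralLinearGroup (Fin k) F × Matrix.GeneralLinearGroup (Fin m) F) ×
      Matrix (Fin k) (Fin m) F) :
    (blk k m x : Matrix (Fin (k + m)) (Fin (k + m)) F) =
      Matrix.reindex finSumFinEquiv finSumFinEquiv
        (Matrix.fromBlocks (x.1.1 : Matrix (Fin k) (Fin k) F) x.2 0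
          (x.1.2 : Matrix (Fin m) (Fin m) F)) := rfl

theorem blk_injective {F : Type*} [Field F] (k m : ℕ) :
    Function.Injective (blk (F := F) k m) := by
  intro x y hxy
  have h := congrArg (fun u : Matrix.GeneralLinearGroup (Fin (k + m)) F =>
    (u : Matrix (Fin (k + m)) (Fin (k + m)) F)) hxy
  have h' : Matrix.reindex (finSumFinEquiv (m := k) (n := m)) finSumFinEquiv
        (Matrix.fromBlocks (x.1.1 : Matrix (Fin k) (Fin k) F) x.2 0
          (x.1.2 : Matrix (Fin m) (Fin m) F)) =
      Matrix.reindex finSumFinEquiv finSumFinEquiv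
        (Matrix.fromBlocks (y.1.1 : Matrix (Fin k) (Fin k) F) y.2 0
          (y.1.2 : Matrix (Fin m) (Fin m) F)) := h
  have h2 := (Matrix.reindex finSumFinEquiv finSumFinEquiv).injective h'
  rw [Matrix.fromBlocks_inj] at h2
  obtain ⟨h11, h12, -, h22⟩ := h2
  exact Prod.ext (Prod.ext (Units.ext h11) (Units.ext h22)) h12

theorem range_blk {F : Type*} [Field F] (k m : ℕ) :
    Set.range (blk (F := F) k m) =
      (↑(Cfsg.stabilizing (Cfsg.glToMat (Fin (k + m)) F)
        {v : Fin (k + m) → F | ∀ i : Fin (k + m), k ≤ (i : ℕ) → v i = 0}) :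
        Set (Matrix.GeneralLinearGroup (Fin (k + m)) F)) := by
  have hS : ∀ v : Fin (k + m) → F, v ∈ {v : Fin (k + m) → F |
      ∀ i : Fin (k + m), k ≤ (i : ℕ) → v i = 0} ↔ ∀ i : Fin m, v (Fin.natAdd k i) = 0 := by
    intro v
    constructor
    · intro h i
      exact h _ (by simp)
    · intro h i hi
      have : i = Fin.natAdd k ⟨(i : ℕ) - k, by omega⟩ := by
        apply Fin.ext; simp; omega
      rw [this]; exact h _
  ext h
  constructor
  · rintro ⟨x, rfl⟩
    change ∀ v, v ∈ {v : Fin (k + m) → F | ∀ i : Fin (k + m), k ≤ (i : ℕ) → v i = 0} ↔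
      (blk k m x : Matrix (Fin (k + m)) (Fin (k + m)) F) *ᵥ v ∈
        {v : Fin (k + m) → F | ∀ i : Fin (k + m), k ≤ (i : ℕ) → v i = 0}
    intro v
    rw [hS, hS]
    have key : ∀ i : Fin m, ((blk k m x : Matrix (Fin (k + m)) (Fin (k + m)) F) *ᵥ v)
        (Fin.natAdd k i) =
        ((x.1.2 : Matrix (Fin m) (Fin m) F) *ᵥ (fun j => v (Fin.natAdd k j))) i := by
      intro i
      rw [blk_val]
      simp only [Matrix.mulVec, dotProduct]
      rw [Fin.sum_univ_add]
      simp [Matrix.reindex_apply, Matrix.submatrix_apply]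
    simp only [key]
    constructor
    · intro hv i
      simp [Matrix.mulVec, dotProduct, hv]
    · intro hv i
      have h0 : (x.1.2 : Matrix (Fin m) (Fin m) F) *ᵥ (fun j => v (Fin.natAdd k j)) = 0 :=
        funext hv
      have h1 : (fun j => v (Fin.natAdd k j)) = 0 := by
        have := congrArg (fun w => ((x.1.2⁻¹ : Matrix.GeneralLinearGroup (Fin m) F) :
          Matrix (Fin m) (Fin m) F) *ᵥ w) h0
        simp only [Matrix.mulVec_mulVec, Matrix.mulVec_zero] at this
        rw [← Units.val_mul, inv_mul_cancel, Units.val_one, Matrix.one_mulVec] at this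
        exact this
      exact congrFun h1 i
  · intro hh
    change ∀ v, v ∈ {v : Fin (k + m) → F | ∀ i : Fin (k + m), k ≤ (i : ℕ) → v i = 0} ↔
      (h : Matrix (Fin (k + m)) (Fin (k + m)) F) *ᵥ v ∈
        {v : Fin (k + m) → F | ∀ i : Fin (k + m), k ≤ (i : ℕ) → v i = 0} at hh
    simp only [hS] at hh
    -- the reindexed matrix
    set M : Matrix (Fin k ⊕ Fin m) (Fin k ⊕ Fin m) F :=
      (Matrix.reindexRingEquiv F (finSumFinEquiv (m := k) (n := m))).symm
        (h : Matrix (Fin (k + m)) (Fin (k + m)) F) with hM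
    have hMu : IsUnit M := h.isUnit.map
      (Matrix.reindexRingEquiv F (finSumFinEquiv (m := k) (n := m))).symm
    have h21 : M.toBlocks₂₁ = 0 := by
      ext i j
      have h1 := (hh (Pi.single (Fin.castAdd m j) 1)).1 (by
        intro i'
        rw [Pi.single_eq_of_ne]
        intro e
        have := congrArg Fin.val e
        simp at this
        omega) i
      rw [Matrix.mulVec_single_one] at h1
      exact h1
    have hMb : M = Matrix.fromBlocks M.toBlocks₁₁ M.toBlocks₁₂ 0 M.toBlocks₂₂ := by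
      rw [← h21, Matrix.fromBlocks_toBlocks]
    have hu := hMu
    rw [hMb, Matrix.isUnit_fromBlocks_zero₂₁] at hu
    refine ⟨((hu.1.unit, hu.2.unit), M.toBlocks₁₂), ?_⟩
    apply Units.ext
    rw [blk_val]
    change Matrix.reindex finSumFinEquiv finSumFinEquiv
      (Matrix.fromBlocks M.toBlocks₁₁ M.toBlocks₁₂ 0 M.toBlocks₂₂) = _
    rw [← hMb]
    ext i j
    simp [hM]

/-- Maximal parabolic of GL_n(q): the stabiliser of the coordinate subspace spanned by the first k basis vectors has order q^(k(n-k)) · |GL_k(q)| · |GL_(n-k)(q)| (unipotent radical of order q^(k(n-k)) and Levi complement GL_k × GL_(n-k)). -/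
theorem result {F : Type*} [Field F] [Fintype F] {q : ℕ} (hF : Fintype.card F = q) (n k : ℕ) (hk : k ≤ n) : Nat.card ↥(Cfsg.stabilizing (Cfsg.glToMat (Fin n) F) {v : Fin n → F | ∀ i : Fin n, k ≤ (i : ℕ) → v i = 0}) = q ^ (k * (n - k)) * (∏ i : Fin k, (q ^ k - q ^ (i : ℕ))) * ∏ i : Fin (n - k), (q ^ (n - k) - q ^ (i : ℕ)) := by
  obtain ⟨m, rfl⟩ := Nat.exists_eq_add_of_le hk
  rw [Nat.add_sub_cancel_left]
  have h1 : Nat.card ↥(Cfsg.stabilizing (Cfsg.glToMat (Fin (k + m)) F)
      {v : Fin (k + m) → F | ∀ i : Fin (k + m), k ≤ (i : ℕ) → v i = 0}) =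
      Nat.card (Set.range (blk (F := F) k m)) :=
    Nat.card_congr (Equiv.setCongr (range_blk k m).symm)
  rw [h1, ← Nat.card_congr (Equiv.ofInjective _ (blk_injective (F := F) k m)), Nat.card_prod,
    Nat.card_prod, Matrix.card_GL_field, Matrix.card_GL_field, hF]
  have h2 : Nat.card (Matrix (Fin k) (Fin m) F) = q ^ (k * m) := by
    rw [Nat.card_eq_fintype_card]
    change Fintype.card (Fin k → Fin m → F) = _
    simp [hF, pow_mul']
  rw [h2]
  ring

end Cfsg.Agent.S0771
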