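import Cfsg.Statements.S0772
set_option linter.all false

set_option autoImplicit false
open Cfsg

namespace Cfsg.Agent.S0772

open Matrix

section aux

variable {F : Type*} [Field F] {n : ℕ}

/-- Vectors supported on the first `k` coordinates. -/
def W (F : Type*) [Field F] (n k : ℕ) : Set (Fin n → F) :=
  {v : Fin n → F | ∀ i : Fin n, k ≤ (i : ℕ) → v i = 0}

theorem mem_W {k : ℕ} {v : Fin n → F} : v ∈ W F n k ↔ ∀ i : Fin n, k ≤ (i : ℕ) → v i = 0 := Iff.rfl

/-- The stabiliser. -/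
abbrev H (F : Type*) [Field F] (n k : ℕ) : Subgroup (Matrix.GeneralLinearGroup (Fin n) F) :=
  Cfsg.stabilizing (Cfsg.glToMat (Fin n) F) (W F n k)

theorem mem_H {k : ℕ} {g : Matrix.GeneralLinearGroup (Fin n) F} :
    g ∈ H F n k ↔ ∀ v, v ∈ W F n k ↔ g.val *ᵥ v ∈ W F n k := Iff.rfl

theorem mulVec_inj {g : Matrix.GeneralLinearGroup (Fin n) F} :
    Function.Injective (fun v : Fin n → F => g.val *ᵥ v) := by
  intro a b hab
  have := congrArg (fun x => g⁻¹.val *ᵥ x) hab
  simpa only [Matrix.mulVec_mulVec, ← Units.val_mul, inv_mul_cancel, Units.val_one,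
    Matrix.one_mulVec] using this

theorem mem_H_of_mapsTo [Finite F] {k : ℕ} {g : Matrix.GeneralLinearGroup (Fin n) F}
    (h : ∀ v ∈ W F n k, g.val *ᵥ v ∈ W F n k) : g ∈ H F n k := by
  rw [mem_H]
  intro v
  refine ⟨h v, fun hv => ?_⟩
  have hfin : (W F n k).Finite := Set.toFinite _
  obtain ⟨u, hu, huv⟩ := Set.surj_on_of_inj_on_of_ncard_le (s := W F n k) (t := W F n k)
    (fun v _ => g.val *ᵥ v) h (fun a b _ _ hab => mulVec_inj hab) le_rfl hfin _ hv
  rwa [mulVec_inj huv]

theorem exists_of_not_mem_H [Finite F] {k : ℕ} {g : Matrix.GeneralLinearGroup (Fin n) F}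
    (h : g ∉ H F n k) : ∃ v ∈ W F n k, g.val *ᵥ v ∉ W F n k := by
  by_contra hcon
  push Not at hcon
  exact h (mem_H_of_mapsTo hcon)

/-- the matrix `1 + x yᵀ`. -/
def E (x y : Fin n → F) : Matrix (Fin n) (Fin n) F := 1 + vecMulVec x y

theorem E_mulVec (x y v : Fin n → F) : E x y *ᵥ v = v + (y ⬝ᵥ v) • x := by
  rw [E, Matrix.add_mulVec, Matrix.one_mulVec, Matrix.vecMulVec_mulVec]
  simp

theorem vecMul_E (x y v : Fin n → F) : v ᵥ* E x y = v + (v ⬝ᵥ x) • y := by
  rw [E, Matrix.vecMul_add, Matrix.vecMul_one, Matrix.vecMul_vecMulVec]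

theorem det_E (x y : Fin n → F) : (E x y).det = 1 + y ⬝ᵥ x := by
  rw [E, Matrix.vecMulVec_eq Unit, Matrix.det_one_add_replicateCol_mul_replicateRow]

/-- `1 + x yᵀ` as a unit -/
noncomputable def U (x y : Fin n → F) (h : 1 + y ⬝ᵥ x ≠ 0) : Matrix.GeneralLinearGroup (Fin n) F :=
  Matrix.GeneralLinearGroup.mkOfDetNeZero (E x y) (by rw [det_E]; exact h)

theorem U_val (x y : Fin n → F) (h : 1 + y ⬝ᵥ x ≠ 0) : (U x y h).val = E x y := rfl

/-- all units with matrix `1 + x yᵀ` are in `K`, and `y ⬝ x = 0`. -/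
def InK (K : Subgroup (Matrix.GeneralLinearGroup (Fin n) F)) (x y : Fin n → F) : Prop :=
  y ⬝ᵥ x = 0 ∧ ∀ T : Matrix.GeneralLinearGroup (Fin n) F, T.val = E x y → T ∈ K

theorem InK.conj {K : Subgroup (Matrix.GeneralLinearGroup (Fin n) F)} {x y : Fin n → F}
    (h : InK K x y) {g : Matrix.GeneralLinearGroup (Fin n) F} (hg : g ∈ K) :
    InK K (g.val *ᵥ x) (y ᵥ* g⁻¹.val) := by
  refine ⟨?_, ?_⟩
  · rw [← Matrix.dotProduct_mulVec, Matrix.mulVec_mulVec, ← Units.val_mul, inv_mul_cancel,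
      Units.val_one, Matrix.one_mulVec, h.1]
  intro T hT
  have h1 : (g⁻¹ * T * g).val = E x y := by
    rw [Units.val_mul, Units.val_mul, hT, E, E, mul_add, add_mul, mul_one, ← Units.val_mul,
      inv_mul_cancel, Units.val_one, ← Matrix.mul_vecMulVec, ← Matrix.vecMulVec_mul]
    rw [Matrix.mul_assoc, Matrix.mul_assoc, Matrix.mul_assoc, ← Units.val_mul, inv_mul_cancel,
      Units.val_one, mul_one, ← Matrix.mul_assoc, ← Units.val_mul, inv_mul_cancel,
      Units.val_one, one_mul]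
  have h2 := h.2 _ h1
  have h3 : T = g * (g⁻¹ * T * g) * g⁻¹ := by group
  rw [h3]
  exact K.mul_mem (K.mul_mem hg h2) (K.inv_mem hg)

/-- move: if `x = g x'` and `y g = y'` with `g ∈ K` then `InK x y → InK x' y'`. -/
theorem InK.move {K : Subgroup (Matrix.GeneralLinearGroup (Fin n) F)} {x y x' y' : Fin n → F}
    (h : InK K x y) {g : Matrix.GeneralLinearGroup (Fin n) F} (hg : g ∈ K)
    (hx : g.val *ᵥ x' = x) (hy : y ᵥ* g.val = y') : InK K x' y' := by
  have := h.conj (K.inv_mem hg)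
  rwa [inv_inv, hy, ← hx, Matrix.mulVec_mulVec, ← Units.val_mul, inv_mul_cancel, Units.val_one,
    Matrix.one_mulVec] at this

/-- `1 + x yᵀ` is in `H` when `x ∈ W`. -/
theorem mem_H_of_left [Finite F] {k : ℕ} {x y : Fin n → F} (hx : x ∈ W F n k)
    {T : Matrix.GeneralLinearGroup (Fin n) F} (hT : T.val = E x y) : T ∈ H F n k := by
  apply mem_H_of_mapsTo
  intro v hv i hi
  rw [hT, E_mulVec]
  simp [hv i hi, hx i hi]

/-- `1 + x yᵀ` is in `H` when `y` vanishes on the first `k` coordinates. -/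
theorem mem_H_of_right [Finite F] {k : ℕ} {x y : Fin n → F} (hy : ∀ i : Fin n, (i : ℕ) < k → y i = 0)
    {T : Matrix.GeneralLinearGroup (Fin n) F} (hT : T.val = E x y) : T ∈ H F n k := by
  apply mem_H_of_mapsTo
  intro v hv i hi
  rw [hT, E_mulVec]
  have : y ⬝ᵥ v = 0 := by
    rw [dotProduct]
    apply Finset.sum_eq_zero
    intro j _
    rcases lt_or_ge (j : ℕ) k with hj | hj
    · rw [hy j hj, zero_mul]
    · rw [hv j hj, mul_zero]
  simp [hv i hi, this]

variable {K : Subgroup (Matrix.GeneralLinearGroup (Fin n) F)} {k : ℕ}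

theorem step1 [Finite F] (hHK : H F n k ≤ K) {x y : Fin n → F} (h : InK K x y)
    {a : Fin n} (ha : k ≤ (a : ℕ)) {i : Fin n} (hi : (i : ℕ) < k) (hyi : y i ≠ 0)
    (hx : x ∉ W F n k) : ∃ x' y' : Fin n → F, InK K x' y' ∧ x' a ≠ 0 ∧ y' i ≠ 0 := by
  by_cases hxa : x a = 0
  · rw [mem_W] at hx
    push Not at hx
    obtain ⟨j, hj, hxj⟩ := hx
    have hja : j ≠ a := by rintro rfl; exact hxj hxa
    have hdet : 1 + (Pi.single j (1 : F)) ⬝ᵥ (Pi.single a (-1 : F)) ≠ 0 := by
      simp [Pi.single_eq_of_ne hja.symm]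
    refine ⟨x + (x j) • Pi.single a (1 : F), y ᵥ* E (Pi.single a (-1 : F)) (Pi.single j 1),
      h.move (g := U (Pi.single a (-1 : F)) (Pi.single j 1) hdet)
        (hHK (mem_H_of_right ?_ (U_val _ _ _))) ?_ rfl, ?_, ?_⟩
    · intro l hl
      have : l ≠ j := by rintro rfl; omega
      simp [this]
    · rw [U_val, E_mulVec]
      ext l
      by_cases hl : l = a
      · subst hl
        simp [Pi.single_eq_of_ne hja.symm]
      · simp [Pi.single_eq_of_ne hl]
    · simp [hxa, hxj]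
    · have : i ≠ j := by rintro rfl; omega
      rw [vecMul_E]
      simp [Pi.single_eq_of_ne this, hyi]
  · exact ⟨x, y, h, hxa, hyi⟩

theorem step2 [Finite F] (hHK : H F n k ≤ K) {x y : Fin n → F} (h : InK K x y)
    {a : Fin n} (ha : k ≤ (a : ℕ)) {i : Fin n} (hi : (i : ℕ) < k) (hyi : y i ≠ 0)
    (hxa : x a ≠ 0) {c : F} (hc : c ≠ 0) :
    ∃ y' : Fin n → F, InK K (Pi.single a c) y' ∧ y' i ≠ 0 := by
  have hia : i ≠ a := by rintro rfl; omega
  have hdet : 1 + (Pi.single a (1 : F)) ⬝ᵥ (c⁻¹ • x - Pi.single a 1) ≠ 0 := by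
    simp [hxa, hc]
  refine ⟨y ᵥ* E (c⁻¹ • x - Pi.single a 1) (Pi.single a 1),
      h.move (g := U (c⁻¹ • x - Pi.single a 1) (Pi.single a 1) hdet)
        (hHK (mem_H_of_right ?_ (U_val _ _ _))) ?_ rfl, ?_⟩
  · intro l hl
    have : l ≠ a := by rintro rfl; omega
    simp [this]
  · rw [U_val, E_mulVec]
    ext l
    simp only [single_dotProduct, Pi.single_eq_same, one_mul, Pi.add_apply, Pi.smul_apply,
      Pi.sub_apply, smul_eq_mul]
    by_cases hl : l = a
    · subst hl
      simp only [Pi.single_eq_same]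
      field_simp
      ring
    · simp only [Pi.single_eq_of_ne hl]
      field_simp
      ring
  · rw [vecMul_E]
    simp [Pi.single_eq_of_ne hia, hyi]

theorem step3 [Finite F] (hHK : H F n k ≤ K) {y : Fin n → F} {a b : Fin n} {c : F}
    (h : InK K (Pi.single a c) y)
    (ha : k ≤ (a : ℕ)) {i : Fin n} (hi : (i : ℕ) < k) (hyi : y i ≠ 0)
    (hb : (b : ℕ) < k) :
    ∃ y' : Fin n → F, InK K (Pi.single a c) y' ∧ y' b ≠ 0 := by
  by_cases hyb : y b = 0
  · have hib : i ≠ b := by rintro rfl; exact hyi hyb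
    have hba : b ≠ a := by rintro rfl; omega
    have hdet : 1 + (Pi.single b (1 : F)) ⬝ᵥ (Pi.single i (1 : F)) ≠ 0 := by
      simp [Pi.single_eq_of_ne hib]
    refine ⟨y ᵥ* E (Pi.single i (1 : F)) (Pi.single b 1),
      h.move (g := U (Pi.single i (1 : F)) (Pi.single b 1) hdet)
        (hHK (mem_H_of_left ?_ (U_val _ _ _))) ?_ rfl, ?_⟩
    · intro l hl
      have : l ≠ i := by rintro rfl; omega
      simp [this]
    · rw [U_val, E_mulVec]
      simp [Pi.single_eq_of_ne hba.symm]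
    · rw [vecMul_E]
      simp [hyb, hyi]
  · exact ⟨y, h, hyb⟩

theorem step4 [Finite F] (hHK : H F n k ≤ K) {y : Fin n → F} {a b : Fin n} {c : F}
    (h : InK K (Pi.single a c) y) (hc : c ≠ 0)
    (ha : k ≤ (a : ℕ)) (hyb : y b ≠ 0) (hb : (b : ℕ) < k) :
    InK K (Pi.single a c) (Pi.single b 1) := by
  have hya : y a = 0 := by
    have := h.1
    simpa [hc] using this
  have hba : b ≠ a := by rintro rfl; omega
  have hdet : 1 + (y - Pi.single b (1 : F)) ⬝ᵥ (Pi.single b (1 : F)) ≠ 0 := by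
    simp [hyb]
  have hg : U (Pi.single b (1 : F)) (y - Pi.single b 1) hdet ∈ K := by
    refine hHK (mem_H_of_left ?_ (U_val _ _ _))
    intro l hl
    have : l ≠ b := by rintro rfl; omega
    simp [this]
  have h2 := h.conj hg
  have e1 : (U (Pi.single b (1 : F)) (y - Pi.single b 1) hdet).val *ᵥ (Pi.single a c)
      = Pi.single a c := by
    rw [U_val, E_mulVec]
    simp [hya, Pi.single_eq_of_ne hba.symm]
  have e2 : y = Pi.single b 1 ᵥ* (U (Pi.single b (1 : F)) (y - Pi.single b 1) hdet).val := by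
    rw [U_val, vecMul_E]
    simp
  have e3 : y ᵥ* ((U (Pi.single b (1 : F)) (y - Pi.single b 1) hdet)⁻¹).val = Pi.single b 1 := by
    generalize U (Pi.single b (1 : F)) (y - Pi.single b 1) hdet = g at e2
    rw [e2, Matrix.vecMul_vecMul, ← Units.val_mul, mul_inv_cancel, Units.val_one,
      Matrix.vecMul_one]
  rw [e1, e3] at h2
  exact h2

theorem mem_K_of_diagonal [Finite F] (hHK : H F n k ≤ K) (D : Fin n → F)
    (T : Matrix.GeneralLinearGroup (Fin n) F) (hT : T.val = Matrix.diagonal D) : T ∈ K := by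
  apply hHK
  apply mem_H_of_mapsTo
  intro v hv i hi
  rw [hT, Matrix.mulVec_diagonal, hv i hi, mul_zero]

theorem main [Finite F] (hHK : H F n k ≤ K)
    (htr : ∀ (a b : Fin n) (c : F), k ≤ (a : ℕ) → (b : ℕ) < k → c ≠ 0 →
      InK K (Pi.single a c) (Pi.single b 1)) : K = ⊤ := by
  rw [eq_top_iff]
  intro g _
  have key : ∀ T : Matrix.GeneralLinearGroup (Fin n) F, T.val = g.val → T ∈ K := by
    refine Matrix.diagonal_transvection_induction_of_det_ne_zero
      (fun M => ∀ T : Matrix.GeneralLinearGroup (Fin n) F, T.val = M → T ∈ K) g.val ?_ ?_ ?_ ?_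
    · exact g.det.ne_zero
    · intro D _ T hT
      exact mem_K_of_diagonal hHK D T hT
    · rintro ⟨i, j, hij, c⟩ T hT
      have hE : T.val = E (Pi.single i c) (Pi.single j 1) := by
        rw [hT, E, Matrix.TransvectionStruct.toMatrix, Matrix.transvection]
        congr 1
        ext p q
        simp [Matrix.vecMulVec_apply, Matrix.single_apply, Pi.single_apply]
        grind
      rcases lt_or_ge (i : ℕ) k with hi | hi
      · refine hHK (mem_H_of_left ?_ hE)
        intro l hl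
        have : l ≠ i := by rintro rfl; omega
        simp [this]
      · rcases lt_or_ge (j : ℕ) k with hj | hj
        · by_cases hc : c = 0
          · have : T = 1 := by
              ext1
              rw [hE, E, hc]
              simp
            rw [this]
            exact K.one_mem
          · exact (htr i j c hi hj hc).2 T hE
        · refine hHK (mem_H_of_right ?_ hE)
          intro l hl
          have : l ≠ j := by rintro rfl; omega
          simp [this]
    · intro A B hA hB PA PB T hT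
      have hTU : T = Matrix.GeneralLinearGroup.mkOfDetNeZero A hA *
          Matrix.GeneralLinearGroup.mkOfDetNeZero B hB := by
        ext1
        rw [hT]
        rfl
      rw [hTU]
      exact K.mul_mem (PA _ rfl) (PB _ rfl)
  exact key g rfl

end aux

/-- Maximal parabolics are maximal: over a finite field, for 0 < k < n the stabiliser in GL_n of the span of the first k coordinate vectors is a maximal proper subgroup. -/
theorem result {F : Type*} [Field F] [Finite F] (n k : ℕ) (hk0 : 0 < k) (hkn : k < n) : IsCoatom (Cfsg.stabilizing (Cfsg.glToMat (Fin n) F) {v : Fin n → F | ∀ i : Fin n, k ≤ (i : ℕ) → v i = 0}) := by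
  change IsCoatom (H F n k)
  have h0n : 0 < n := by omega
  refine ⟨?_, ?_⟩
  · intro htop
    have hba : (⟨0, h0n⟩ : Fin n) ≠ ⟨k, hkn⟩ := by
      intro h
      have := congrArg Fin.val h
      simp at this
      omega
    have hdet : 1 + (Pi.single (⟨0, h0n⟩ : Fin n) (1 : F)) ⬝ᵥ
        (Pi.single (⟨k, hkn⟩ : Fin n) (1 : F)) ≠ 0 := by
      simp [Pi.single_eq_of_ne hba.symm]
    have hm : U (Pi.single ⟨k, hkn⟩ (1 : F)) (Pi.single ⟨0, h0n⟩ 1) hdet ∈ H F n k := by
      rw [htop]; trivial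
    rw [mem_H] at hm
    have h1 := (hm (Pi.single ⟨0, h0n⟩ 1)).1 (by
      intro l hl
      have : l ≠ ⟨0, h0n⟩ := by rintro rfl; simp at hl; omega
      simp [this])
    have h2 := h1 ⟨k, hkn⟩ le_rfl
    rw [U_val, E_mulVec] at h2
    simp [Pi.single_eq_of_ne hba.symm] at h2
  · intro K hK
    obtain ⟨hHK, g, hgK, hgH⟩ := SetLike.lt_iff_le_and_exists.1 hK
    obtain ⟨v, hv, hgv⟩ := exists_of_not_mem_H hgH
    have hgH' : g⁻¹ ∉ H F n k := fun h => hgH (by simpa using (H F n k).inv_mem h)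
    obtain ⟨u, hu, hgu⟩ := exists_of_not_mem_H hgH'
    rw [mem_W] at hgu
    push Not at hgu
    obtain ⟨m, hm, hgum⟩ := hgu
    have h0 : InK K v (Pi.single m 1) := by
      refine ⟨?_, fun T hT => hHK (mem_H_of_left hv hT)⟩
      simp [hv m hm]
    have h1 := h0.conj hgK
    have h2 : ∃ i : Fin n, (i : ℕ) < k ∧ (Pi.single m (1 : F) ᵥ* g⁻¹.val) i ≠ 0 := by
      by_contra hcon
      push Not at hcon
      apply hgum
      have e : (g⁻¹.val *ᵥ u) m = (Pi.single m (1 : F) ᵥ* g⁻¹.val) ⬝ᵥ u := by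
        rw [← Matrix.dotProduct_mulVec]
        simp
      rw [e, dotProduct]
      apply Finset.sum_eq_zero
      intro j _
      rcases lt_or_ge (j : ℕ) k with hj | hj
      · rw [hcon j hj, zero_mul]
      · rw [hu j hj, mul_zero]
    obtain ⟨i, hi, hyi⟩ := h2
    apply main hHK
    intro a b c ha hb hc
    obtain ⟨x1, y1, h3, hx1, hy1⟩ := step1 hHK h1 ha hi hyi hgv
    obtain ⟨y2, h4, hy2⟩ := step2 hHK h3 ha hi hy1 hx1 hc
    obtain ⟨y3, h5, hy3⟩ := step3 hHK h4 ha hi hy2 hb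
    exact step4 hHK h5 hc ha hy3 hb

end Cfsg.Agent.S0772
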