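import Cfsg.Statements.S0773
set_option linter.all false

set_option autoImplicit false
open Cfsg

namespace Cfsg.Agent.S0773

open Matrix

/-- The coordinate subspace spanned by the first `d` basis vectors. -/
def coordSub (F : Type*) [Field F] (n d : ℕ) : Submodule F (Fin n → F) where
  carrier := {v : Fin n → F | ∀ i : Fin n, d ≤ (i : ℕ) → v i = 0}
  add_mem' {a b} ha hb := by
    intro i hi
    simp [ha i hi, hb i hi]
  zero_mem' := by intro i _; rfl
  smul_mem' c x hx := by
    intro i hi
    simp [hx i hi]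

theorem mem_coordSub {F : Type*} [Field F] {n d : ℕ} {v : Fin n → F} :
    v ∈ coordSub F n d ↔ ∀ i : Fin n, d ≤ (i : ℕ) → v i = 0 := Iff.rfl

theorem finrank_coordSub (F : Type*) [Field F] (n d : ℕ) (hd : d ≤ n) :
    Module.finrank F (coordSub F n d) = d := by
  classical
  let I : Set (Fin n) := {i | (i : ℕ) < d}
  let J : Set (Fin n) := {i | d ≤ (i : ℕ)}
  have hdis : Disjoint I J := by
    rw [Set.disjoint_left]
    intro i hi hj
    exact (not_le.mpr (show (i : ℕ) < d from hi)) (show d ≤ (i : ℕ) from hj)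
  have hun : Set.univ ⊆ I ∪ J := by
    intro i _
    exact lt_or_ge (i : ℕ) d
  have e := LinearMap.iInfKerProjEquiv F (fun _ : Fin n => F) hdis hun
  have hW : coordSub F n d = ⨅ i ∈ J, LinearMap.ker (LinearMap.proj i : ((i : Fin n) → F) →ₗ[F] F) := by
    ext v
    simp only [Submodule.mem_iInf, LinearMap.mem_ker, LinearMap.proj_apply]
    rfl
  rw [hW, e.finrank_eq, Module.finrank_fintype_fun_eq_card]
  rw [Fintype.card_subtype]
  have : (Finset.univ.filter (fun i : Fin n => i ∈ I)) = Finset.univ.filter (fun i : Fin n => (i : ℕ) < d) := by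
    rfl
  rw [this, Fin.card_filter_val_lt]
  exact min_eq_right hd

theorem mem_stab_iff {F : Type*} [Field F] {n : ℕ} (d : ℕ) (g : Matrix.GeneralLinearGroup (Fin n) F) :
    g ∈ Cfsg.stabilizing (Cfsg.glToMat (Fin n) F) {v : Fin n → F | ∀ i : Fin n, d ≤ (i : ℕ) → v i = 0} ↔
      ∀ i j : Fin n, d ≤ (i : ℕ) → (j : ℕ) < d → (g : Matrix (Fin n) (Fin n) F) i j = 0 := by
  classical
  constructor
  · intro h i j hi hj
    have h1 := (h (Pi.single j 1)).1 (by
      intro i hi
      rw [Pi.single_apply, if_neg]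
      rintro rfl
      omega)
    have h2 := h1 i hi
    simpa using h2
  · intro h
    have hle : ∀ v ∈ coordSub F n d, (g : Matrix (Fin n) (Fin n) F) *ᵥ v ∈ coordSub F n d := by
      intro v hv i hi
      simp only [Matrix.mulVec, dotProduct]
      apply Finset.sum_eq_zero
      intro j _
      by_cases hj : (j : ℕ) < d
      · rw [h i j hi hj, zero_mul]
      · rw [hv j (not_lt.mp hj), mul_zero]
    intro v
    constructor
    · intro hv
      exact hle v hv
    · intro hv
      let f : (Fin n → F) →ₗ[F] (Fin n → F) := Matrix.mulVecLin (g : Matrix (Fin n) (Fin n) F)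
      have hf : Function.Injective f := by
        intro x y hxy
        have h3 : (g : Matrix (Fin n) (Fin n) F) *ᵥ x = (g : Matrix (Fin n) (Fin n) F) *ᵥ y := hxy
        have h4 := congrArg (fun z => ((g⁻¹ : Matrix.GeneralLinearGroup (Fin n) F) : Matrix (Fin n) (Fin n) F) *ᵥ z) h3
        simpa [Matrix.mulVec_mulVec] using h4
      let f' : coordSub F n d →ₗ[F] coordSub F n d := f.restrict hle
      have hf' : Function.Injective f' := by
        intro x y hxy
        apply Subtype.ext
        apply hf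
        exact congrArg Subtype.val hxy
      have hs : Function.Surjective f' := LinearMap.surjective_of_injective hf'
      obtain ⟨w, hw⟩ := hs ⟨_, hv⟩
      have hw' : f w.1 = f v := congrArg Subtype.val hw
      have := hf hw'
      rw [← this]
      exact w.2

/-- The inverse-transpose-reverse automorphism of `GL_n`. -/
def invTransRev (F : Type*) [Field F] (n : ℕ) :
    Matrix.GeneralLinearGroup (Fin n) F →* Matrix.GeneralLinearGroup (Fin n) F where
  toFun g := ⟨((g⁻¹ : Matrix.GeneralLinearGroup (Fin n) F) : Matrix (Fin n) (Fin n) F)ᵀ.submatrix Fin.revPerm Fin.revPerm,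
    (g : Matrix (Fin n) (Fin n) F)ᵀ.submatrix Fin.revPerm Fin.revPerm,
    by
      rw [Matrix.submatrix_mul_equiv, ← Matrix.transpose_mul, ← Units.val_mul, mul_inv_cancel]
      simp,
    by
      rw [Matrix.submatrix_mul_equiv, ← Matrix.transpose_mul, ← Units.val_mul, inv_mul_cancel]
      simp⟩
  map_one' := by
    apply Units.ext
    simp
  map_mul' a b := by
    apply Units.ext
    simp only [_root_.mul_inv_rev, Units.val_mul, Matrix.transpose_mul]
    rw [Matrix.submatrix_mul_equiv]

theorem invTransRev_apply {F : Type*} [Field F] {n : ℕ} (g : Matrix.GeneralLinearGroup (Fin n) F) (i j : Fin n) :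
    ((invTransRev F n g : Matrix.GeneralLinearGroup (Fin n) F) : Matrix (Fin n) (Fin n) F) i j =
      ((g⁻¹ : Matrix.GeneralLinearGroup (Fin n) F) : Matrix (Fin n) (Fin n) F) (Fin.rev j) (Fin.rev i) := rfl

theorem invTransRev_invol {F : Type*} [Field F] {n : ℕ} (g : Matrix.GeneralLinearGroup (Fin n) F) :
    invTransRev F n (invTransRev F n g) = g := by
  apply Units.ext
  ext i j
  rw [invTransRev_apply, ← map_inv, invTransRev_apply]
  simp

theorem invTransRev_mem {F : Type*} [Field F] {n : ℕ} (d e : ℕ) (hde : d + e = n)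
    {g : Matrix.GeneralLinearGroup (Fin n) F}
    (hg : g ∈ Cfsg.stabilizing (Cfsg.glToMat (Fin n) F) {v : Fin n → F | ∀ i : Fin n, d ≤ (i : ℕ) → v i = 0}) :
    invTransRev F n g ∈ Cfsg.stabilizing (Cfsg.glToMat (Fin n) F)
      {v : Fin n → F | ∀ i : Fin n, e ≤ (i : ℕ) → v i = 0} := by
  have hg' := inv_mem hg
  rw [mem_stab_iff] at hg' ⊢
  intro i j hi hj
  rw [invTransRev_apply]
  apply hg'
  · rw [Fin.val_rev]; omega
  · rw [Fin.val_rev]; omega

theorem part1 {F : Type*} [Field F] (n k : ℕ) (hkn : k < n) :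
    Nonempty (↥(Cfsg.stabilizing (Cfsg.glToMat (Fin n) F) {v : Fin n → F | ∀ i : Fin n, k ≤ (i : ℕ) → v i = 0}) ≃*
      ↥(Cfsg.stabilizing (Cfsg.glToMat (Fin n) F) {v : Fin n → F | ∀ i : Fin n, n - k ≤ (i : ℕ) → v i = 0})) := by
  refine ⟨{ toFun := fun g => ⟨invTransRev F n g.1, invTransRev_mem k (n - k) (by omega) g.2⟩
            invFun := fun g => ⟨invTransRev F n g.1, invTransRev_mem (n - k) k (by omega) g.2⟩
            left_inv := ?_
            right_inv := ?_
            map_mul' := ?_ }⟩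
  · intro g
    apply Subtype.ext
    exact invTransRev_invol g.1
  · intro g
    apply Subtype.ext
    exact invTransRev_invol g.1
  · intro a b
    apply Subtype.ext
    exact map_mul (invTransRev F n) a.1 b.1

/-- The elementary transvection as an element of `GL_n`. -/
def elem {F : Type*} [Field F] {n : ℕ} (i j : Fin n) (hij : i ≠ j) : Matrix.GeneralLinearGroup (Fin n) F :=
  ⟨Matrix.transvection i j 1, Matrix.transvection i j (-1),
    by rw [Matrix.transvection_mul_transvection_same _ _ hij]; simp,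
    by rw [Matrix.transvection_mul_transvection_same _ _ hij]; simp⟩

theorem elem_mulVec {F : Type*} [Field F] {n : ℕ} (i j : Fin n) (hij : i ≠ j) (v : Fin n → F) :
    ((elem i j hij : Matrix.GeneralLinearGroup (Fin n) F) : Matrix (Fin n) (Fin n) F) *ᵥ v = v + Pi.single i (v j) := by
  show Matrix.transvection i j 1 *ᵥ v = _
  rw [Matrix.transvection, Matrix.add_mulVec, Matrix.one_mulVec]
  congr 1
  ext a
  by_cases ha : a = i
  · subst ha
    simp [Matrix.mulVec, dotProduct, Matrix.single_apply]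
  · simp [Matrix.mulVec, dotProduct, Matrix.single_apply, Ne.symm ha, ha]

theorem elem_mem {F : Type*} [Field F] {n : ℕ} (d : ℕ) (i j : Fin n) (hij : i ≠ j) (h : ¬ (d ≤ (i : ℕ) ∧ (j : ℕ) < d)) :
    (elem i j hij : Matrix.GeneralLinearGroup (Fin n) F) ∈ Cfsg.stabilizing (Cfsg.glToMat (Fin n) F)
      {v : Fin n → F | ∀ i : Fin n, d ≤ (i : ℕ) → v i = 0} := by
  rw [mem_stab_iff]
  intro a b ha hb
  show Matrix.transvection i j (1 : F) a b = 0
  rw [Matrix.transvection, Matrix.add_apply, Matrix.one_apply_ne (by rintro rfl; omega), zero_add,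
    Matrix.single_apply_of_ne]
  rintro ⟨rfl, rfl⟩
  exact h ⟨ha, hb⟩

/-- A nonzero proper subspace invariant under the stabiliser of the `d`-dimensional coordinate subspace is that
coordinate subspace. -/
theorem eq_of_invariant {F : Type*} [Field F] {n : ℕ} (d : ℕ) (U : Submodule F (Fin n → F))
    (hbot : U ≠ ⊥) (htop : U ≠ ⊤)
    (hU : ∀ g ∈ Cfsg.stabilizing (Cfsg.glToMat (Fin n) F) {v : Fin n → F | ∀ i : Fin n, d ≤ (i : ℕ) → v i = 0},
      ∀ u ∈ U, (g : Matrix (Fin n) (Fin n) F) *ᵥ u ∈ U) : U = coordSub F n d := by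
  classical
  -- basic consequence
  have key : ∀ u ∈ U, ∀ j : Fin n, u j ≠ 0 → ∀ i : Fin n, i ≠ j → ¬ (d ≤ (i : ℕ) ∧ (j : ℕ) < d) →
      (Pi.single i (1 : F) : Fin n → F) ∈ U := by
    intro u hu j hj i hij h
    have h1 := hU _ (elem_mem d i j hij h) u hu
    rw [elem_mulVec] at h1
    have h2 : (Pi.single i (u j) : Fin n → F) ∈ U := by
      have := U.sub_mem h1 hu
      simpa using this
    have h3 : (Pi.single i (1 : F) : Fin n → F) = (u j)⁻¹ • (Pi.single i (u j) : Fin n → F) := by
      rw [← Pi.single_smul, smul_eq_mul, inv_mul_cancel₀ hj]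
    rw [h3]
    exact U.smul_mem _ h2
  have key2 : ∀ u ∈ U, ∀ j : Fin n, u j ≠ 0 → (∀ i : Fin n, i ≠ j → u i ≠ 0 → (Pi.single i (1 : F) : Fin n → F) ∈ U) →
      (Pi.single j (1 : F) : Fin n → F) ∈ U := by
    intro u hu j hj h
    have h1 : u = Pi.single j (u j) + ∑ i ∈ Finset.univ.erase j, (Pi.single i (u i) : Fin n → F) := by
      rw [Finset.add_sum_erase _ (fun i => (Pi.single i (u i) : Fin n → F)) (Finset.mem_univ j)]
      exact (Finset.univ_sum_single u).symm
    have h2 : ∑ i ∈ Finset.univ.erase j, (Pi.single i (u i) : Fin n → F) ∈ U := by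
      apply U.sum_mem
      intro i hi
      by_cases hi0 : u i = 0
      · rw [hi0, Pi.single_zero]; exact U.zero_mem
      · have := U.smul_mem (u i) (h i (Finset.ne_of_mem_erase hi) hi0)
        rwa [← Pi.single_smul, smul_eq_mul, mul_one] at this
    have h3 : (Pi.single j (u j) : Fin n → F) ∈ U := by
      have := U.sub_mem hu h2
      rwa [← eq_sub_iff_add_eq.mpr h1.symm] at this
    have h4 : (Pi.single j (1 : F) : Fin n → F) = (u j)⁻¹ • (Pi.single j (u j) : Fin n → F) := by
      rw [← Pi.single_smul, smul_eq_mul, inv_mul_cancel₀ hj]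
    rw [h4]
    exact U.smul_mem _ h3
  -- Case A excluded
  have hA : U ≤ coordSub F n d := by
    intro u hu j hj
    by_contra hne
    apply htop
    have h1 : ∀ i : Fin n, i ≠ j → (Pi.single i (1 : F) : Fin n → F) ∈ U := by
      intro i hij
      exact key u hu j hne i hij (by omega)
    have h2 : (Pi.single j (1 : F) : Fin n → F) ∈ U := key2 u hu j hne (fun i hij _ => h1 i hij)
    rw [eq_top_iff]
    intro v _
    rw [← Finset.univ_sum_single v]
    apply U.sum_mem
    intro i _
    have h3 : (Pi.single i (1 : F) : Fin n → F) ∈ U := by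
      by_cases hij : i = j
      · rw [hij]; exact h2
      · exact h1 i hij
    have := U.smul_mem (v i) h3
    rwa [← Pi.single_smul, smul_eq_mul, mul_one] at this
  apply le_antisymm hA
  obtain ⟨u, hu, hu0⟩ := (Submodule.ne_bot_iff _).1 hbot
  obtain ⟨j, hj⟩ : ∃ j, u j ≠ 0 := by
    by_contra hcon
    push Not at hcon
    exact hu0 (funext hcon)
  have hjd : (j : ℕ) < d := by
    by_contra hcon
    exact hj (hA hu j (not_lt.mp hcon))
  have h1 : ∀ i : Fin n, i ≠ j → (i : ℕ) < d → (Pi.single i (1 : F) : Fin n → F) ∈ U := by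
    intro i hij hid
    exact key u hu j hj i hij (by omega)
  have h2 : (Pi.single j (1 : F) : Fin n → F) ∈ U := by
    apply key2 u hu j hj
    intro i hij hi0
    apply h1 i hij
    by_contra hcon
    exact hi0 (hA hu i (not_lt.mp hcon))
  intro v hv
  rw [← Finset.univ_sum_single v]
  apply U.sum_mem
  intro i _
  by_cases hid : (i : ℕ) < d
  · have h3 : (Pi.single i (1 : F) : Fin n → F) ∈ U := by
      by_cases hij : i = j
      · rw [hij]; exact h2
      · exact h1 i hij hid
    have := U.smul_mem (v i) h3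
    rwa [← Pi.single_smul, smul_eq_mul, mul_one] at this
  · rw [hv i (not_lt.mp hid), Pi.single_zero]
    exact U.zero_mem

/-- The stabilisers in GL_n(F), F finite, of the coordinate subspaces of dimensions k and n − k are isomorphic groups, but when 2k ≠ n (and 0 < k < n) no element of GL_n conjugates one onto the other. -/
theorem result {F : Type*} [Field F] [Finite F] (n k : ℕ) (hk0 : 0 < k) (hkn : k < n) (h2 : 2 * k ≠ n) : Nonempty (↥(Cfsg.stabilizing (Cfsg.glToMat (Fin n) F) {v : Fin n → F | ∀ i : Fin n, k ≤ (i : ℕ) → v i = 0}) ≃* ↥(Cfsg.stabilizing (Cfsg.glToMat (Fin n) F) {v : Fin n → F | ∀ i : Fin n, n - k ≤ (i : ℕ) → v i = 0})) ∧ ∀ g : Matrix.GeneralLinearGroup (Fin n) F, (Cfsg.stabilizing (Cfsg.glToMat (Fin n) F) {v : Fin n → F | ∀ i : Fin n, k ≤ (i : ℕ) → v i = 0}).map (MulAut.conj g).toMonoidHom ≠ Cfsg.stabilizing (Cfsg.glToMat (Fin n) F) {v : Fin n → F | ∀ i : Fin n, n - k ≤ (i : ℕ) → v i = 0} := by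
  refine ⟨part1 n k hkn, ?_⟩
  intro g hg
  let f : (Fin n → F) →ₗ[F] (Fin n → F) := Matrix.mulVecLin (g : Matrix (Fin n) (Fin n) F)
  have hf : Function.Injective f := by
    intro x y hxy
    have h3 : (g : Matrix (Fin n) (Fin n) F) *ᵥ x = (g : Matrix (Fin n) (Fin n) F) *ᵥ y := hxy
    have h4 := congrArg (fun z => ((g⁻¹ : Matrix.GeneralLinearGroup (Fin n) F) : Matrix (Fin n) (Fin n) F) *ᵥ z) h3
    simpa [Matrix.mulVec_mulVec] using h4
  let U : Submodule F (Fin n → F) := (coordSub F n k).map f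
  have hUdim : Module.finrank F U = k := by
    have := (Submodule.equivMapOfInjective f hf (coordSub F n k)).finrank_eq
    rw [← this, finrank_coordSub F n k hkn.le]
  have hbot : U ≠ ⊥ := by
    intro h
    rw [h, finrank_bot] at hUdim
    omega
  have htop : U ≠ ⊤ := by
    intro h
    rw [h, finrank_top, Module.finrank_fintype_fun_eq_card, Fintype.card_fin] at hUdim
    omega
  have hU := eq_of_invariant (n - k) U hbot htop (by
    intro x hx u hu
    rw [← hg] at hx
    obtain ⟨y, hy, rfl⟩ := hx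
    obtain ⟨w, hw, rfl⟩ := hu
    refine ⟨(y : Matrix (Fin n) (Fin n) F) *ᵥ w, (hy w).1 hw, ?_⟩
    show (g : Matrix (Fin n) (Fin n) F) *ᵥ ((y : Matrix (Fin n) (Fin n) F) *ᵥ w) =
      ((g * y * g⁻¹ : Matrix.GeneralLinearGroup (Fin n) F) : Matrix (Fin n) (Fin n) F) *ᵥ ((g : Matrix (Fin n) (Fin n) F) *ᵥ w)
    rw [Matrix.mulVec_mulVec, Matrix.mulVec_mulVec, ← Units.val_mul, ← Units.val_mul]
    congr 2
    group)
  rw [hU, finrank_coordSub F n (n - k) (by omega)] at hUdim
  omega

end Cfsg.Agent.S0773
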