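import Mathlib
import Cfsg.Statements.S0787
import Cfsg.Agent.S0785
import Cfsg.Agent.S0789
import Cfsg.Agent.ClassicalGeometry.OmegaIndex
set_option linter.all false

-- part: ClassicalGeometry/IndexTwoUnique
section
set_option autoImplicit false

namespace Cfsg.Agent.ClassicalGeometry.IndexTwoUnique

/-- A subgroup of index two contains the commutator subgroup. -/
theorem commutator_le_of_index_two {G : Type*} [Group G] (H : Subgroup G) (hH : H.index = 2) :
    commutator G ≤ H := by
  have hn : H.Normal := Subgroup.normal_of_index_eq_two hH
  rw [commutator_def, Subgroup.commutator_le]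
  intro a _ b _
  rw [commutatorElement_def, Subgroup.mul_mem_iff_of_index_two hH,
    Subgroup.mul_mem_iff_of_index_two hH, Subgroup.mul_mem_iff_of_index_two hH,
    Subgroup.inv_mem_iff, Subgroup.inv_mem_iff]
  tauto

/-- If the commutator subgroup has index two, it is the only subgroup of index two. -/
theorem existsUnique_of_index_commutator {G : Type*} [Group G] (h : (commutator G).index = 2) :
    ∃! H : Subgroup G, H.index = 2 := by
  refine ⟨commutator G, h, ?_⟩
  intro H hH
  change H.index = 2 at hH
  have hle := commutator_le_of_index_two H hH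
  apply le_antisymm _ hle
  have h1 := Subgroup.relIndex_mul_index hle
  rw [h, hH] at h1
  rw [← Subgroup.relIndex_eq_one]
  omega

/-- Transfer of uniqueness along an isomorphism. -/
theorem existsUnique_of_mulEquiv {G K : Type*} [Group G] [Group K] (e : G ≃* K)
    (h : ∃! H : Subgroup G, H.index = 2) : ∃! H : Subgroup K, H.index = 2 := by
  obtain ⟨H, hH, huniq⟩ := h
  change H.index = 2 at hH
  have hmap : ∀ L : Subgroup K, (L.comap e.toMonoidHom).index = L.index := fun L =>
    Subgroup.index_comap_of_surjective L e.surjective
  refine ⟨H.map e.toMonoidHom, ?_, ?_⟩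
  · change (H.map e.toMonoidHom).index = 2
    rw [← hmap, Subgroup.comap_map_eq_self_of_injective e.injective, hH]
  · intro L hL
    change L.index = 2 at hL
    have h1 := huniq (L.comap e.toMonoidHom) (by change _ = 2; rw [hmap, hL])
    rw [← h1, Subgroup.map_comap_eq_self_of_surjective e.surjective]

end Cfsg.Agent.ClassicalGeometry.IndexTwoUnique
end

-- part: S0787
section
set_option autoImplicit false
open Cfsg

namespace Cfsg.Agent.S0787

/-- Existence and uniqueness of Ω: if F is finite, n ≥ 2, Q is a quadratic form on F^n with non-degenerate polar form and (|F|, n) ≠ (2, 4), then the group of isometries of determinant one has a unique subgroup of index 2. -/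
theorem result {F : Type*} [Field F] [Fintype F] {n : ℕ} (hn : 2 ≤ n) (Q : QuadraticForm F (Fin n → F)) (hQ : (QuadraticMap.polarBilin Q).Nondegenerate) (h : Fintype.card F ≠ 2 ∨ n ≠ 4) : ∃! H : Subgroup ↥(Cfsg.specialIsometryGroup F ⇑Q), H.index = 2 := by
  by_cases h2 : (2 : F) = 0
  · -- characteristic two: all isometries have determinant one, and `Ω` has index two
    haveI : CharP F 2 := by
      haveI : Fact (Nat.Prime 2) := ⟨Nat.prime_two⟩
      exact CharTwo.of_one_ne_zero_of_two_eq_zero one_ne_zero h2
    have hneg : (-1 : F) = 1 := by linear_combination -h2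
    have htop : Cfsg.specialIsometryGroup F (⇑Q) = ⊤ := by
      rw [eq_top_iff]
      rintro g -
      rw [Cfsg.Agent.ClassicalGeometry.CartanDieudonne.mem_specialIsometryGroup_iff]
      rcases (Cfsg.Agent.S0785.result Q hQ).1 g with h1 | h1
      · exact h1
      · rw [h1, hneg]
    have h3 : (commutator (Cfsg.isometryGroup F (⇑Q))).index = 2 :=
      Cfsg.Agent.S0789.result hn Q hQ h
    have h4 := Cfsg.Agent.ClassicalGeometry.IndexTwoUnique.existsUnique_of_index_commutator h3
    exact Cfsg.Agent.ClassicalGeometry.IndexTwoUnique.existsUnique_of_mulEquiv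
      ((MulEquiv.subgroupCongr htop).trans Subgroup.topEquiv).symm h4
  · exact Cfsg.Agent.ClassicalGeometry.OmegaIndex.existsUnique_index_two h2 (by simpa using hn) Q hQ

end Cfsg.Agent.S0787
end
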