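import Cfsg.Statements.S0793
import Cfsg.Agent.ClassicalGeometry.Reflection
set_option linter.all false

set_option autoImplicit false
open Cfsg

namespace Cfsg.Agent.S0793

/-- Root elements: if Q(u) = Q(v) = 0 and f(u, v) = 0 (f the polar form), then for every c the Siegel matrix T_(u,v)(c) preserves Q, fixes u and v, and T(c) T(d) = T(c + d). -/
theorem result {F : Type*} [Field F] {n : ℕ} (Q : QuadraticForm F (Fin n → F)) (u v : Fin n → F) (hu : Q u = 0) (hv : Q v = 0) (huv : QuadraticMap.polar ⇑Q u v = 0) : (∀ c x, Q ((Cfsg.siegelMatrix ⇑Q u v c).mulVec x) = Q x) ∧ (∀ c, (Cfsg.siegelMatrix ⇑Q u v c).mulVec u = u ∧ (Cfsg.siegelMatrix ⇑Q u v c).mulVec v = v) ∧ ∀ c d, Cfsg.siegelMatrix ⇑Q u v c * Cfsg.siegelMatrix ⇑Q u v d = Cfsg.siegelMatrix ⇑Q u v (c + d) := by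
  have huu : QuadraticMap.polar (⇑Q) u u = 0 := by
    rw [ClassicalGeometry.Reflection.polar_self', hu, mul_zero]
  have hvv : QuadraticMap.polar (⇑Q) v v = 0 := by
    rw [ClassicalGeometry.Reflection.polar_self', hv, mul_zero]
  have hvu : QuadraticMap.polar (⇑Q) v u = 0 := by
    rw [QuadraticMap.polar_comm, huv]
  have hTu : ∀ c, (Cfsg.siegelMatrix ⇑Q u v c).mulVec u = u := by
    intro c
    rw [ClassicalGeometry.Reflection.siegelMatrix_mulVec, huu, hvu]
    simp
  have hTv : ∀ c, (Cfsg.siegelMatrix ⇑Q u v c).mulVec v = v := by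
    intro c
    rw [ClassicalGeometry.Reflection.siegelMatrix_mulVec, huv, hvv]
    simp
  refine ⟨?_, fun c => ⟨hTu c, hTv c⟩, ?_⟩
  · intro c x
    rw [ClassicalGeometry.Reflection.siegelMatrix_mulVec,
      ClassicalGeometry.Reflection.map_add', QuadraticMap.map_smul, sub_eq_add_neg, ← neg_smul,
      ClassicalGeometry.Reflection.map_add', QuadraticMap.map_smul, QuadraticMap.map_smul]
    simp only [QuadraticMap.polar_smul_right, QuadraticMap.polar_add_right,
      QuadraticMap.polar_smul_left, smul_eq_mul, hu, hv, hvu,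
      QuadraticMap.polar_comm (⇑Q) x v, QuadraticMap.polar_comm (⇑Q) x u]
    ring
  · intro c d
    apply Matrix.mulVec_injective
    funext x
    rw [← Matrix.mulVec_mulVec, ClassicalGeometry.Reflection.siegelMatrix_mulVec Q u v d x,
      Matrix.mulVec_add, Matrix.mulVec_smul, Matrix.mulVec_sub, Matrix.mulVec_smul,
      Matrix.mulVec_smul, hTu, hTv, ClassicalGeometry.Reflection.siegelMatrix_mulVec,
      ClassicalGeometry.Reflection.siegelMatrix_mulVec, add_smul, add_assoc]

end Cfsg.Agent.S0793
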