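import Cfsg.Statements.S0794
import Cfsg.Agent.ClassicalGeometry.Eichler
set_option linter.all false

set_option autoImplicit false
open Cfsg

namespace Cfsg.Agent.S0794

/-- For q odd, n ≥ 5 and Q with non-degenerate polar form: an isometry whose matrix is a Siegel transformation T_(u,v)(c) (u, v singular and orthogonal) is a commutator in the isometry group, so lies in Ω. -/
theorem result {F : Type*} [Field F] [Fintype F] (h2 : (2 : F) ≠ 0) {n : ℕ} (hn : 5 ≤ n) (Q : QuadraticForm F (Fin n → F)) (hQ : (QuadraticMap.polarBilin Q).Nondegenerate) (u v : Fin n → F) (hu : Q u = 0) (hv : Q v = 0) (huv : QuadraticMap.polar ⇑Q u v = 0) (c : F) (g : ↥(Cfsg.isometryGroup F ⇑Q)) (hg : ((g : Matrix.GeneralLinearGroup (Fin n) F) : Matrix (Fin n) (Fin n) F) = Cfsg.siegelMatrix ⇑Q u v c) : g ∈ commutatorSet ↥(Cfsg.isometryGroup F ⇑Q) ∧ g ∈ Cfsg.Omega F ⇑Q := by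
  have h : g ∈ commutatorSet ↥(Cfsg.isometryGroup F ⇑Q) :=
    Cfsg.Agent.ClassicalGeometry.Eichler.siegel_mem_commutatorSet Q hQ
      (by rw [Fintype.card_fin]; exact hn) u v hu hv huv c g hg
  refine ⟨h, ?_⟩
  show g ∈ commutator ↥(Cfsg.isometryGroup F ⇑Q)
  rw [commutator_eq_closure]
  exact Subgroup.subset_closure h

end Cfsg.Agent.S0794
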