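import Mathlib
import Cfsg.Prelude.Def_ClassicalGeometry
import Cfsg.Agent.ClassicalGeometry.Reflection
import Cfsg.Agent.ClassicalGeometry.SpinorSign
import Cfsg.Agent.ClassicalGeometry.Universal
import Cfsg.Agent.ClassicalGeometry.CartanDieudonne
import Cfsg.Statements.S0797
set_option linter.all false

-- part: ClassicalGeometry/IndexTwo
section
set_option autoImplicit false

namespace Cfsg.Agent.ClassicalGeometry.IndexTwo

open QuadraticMap Matrix Cfsg.Agent.ClassicalGeometry.Reflection
open Cfsg.Agent.ClassicalGeometry.SpinorSign Cfsg.Agent.ClassicalGeometry.Universal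
open Cfsg.Agent.ClassicalGeometry.CartanDieudonne

variable {ι : Type} [Fintype ι] [DecidableEq ι] {F : Type*} [Field F]

/-- An index two subgroup of the isometry group (finite field, odd order) is the kernel of any
sign homomorphism with the same behaviour on two reflections of different square classes. -/
theorem eq_ker_of_index_two [Finite F] (h2 : (2 : F) ≠ 0) (Q : QuadraticForm F (ι → F))
    (hQ : (polarBilin Q).Nondegenerate) (v w : ι → F) (hv : Q v ≠ 0) (hw : Q w ≠ 0)
    (h1 : IsSquare (Q v)) (h3 : ¬ IsSquare (Q w)) (H : Subgroup (Cfsg.isometryGroup F (⇑Q)))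
    (hH : H.index = 2) (f : Cfsg.isometryGroup F (⇑Q) →* ℤˣ)
    (hfv : reflIso Q v hv ∈ H ↔ f (reflIso Q v hv) = 1)
    (hfw : reflIso Q w hw ∈ H ↔ f (reflIso Q w hw) = 1) : H = f.ker := by
  have hsame : ∀ (x y : ι → F) (hx : Q x ≠ 0) (hy : Q y ≠ 0), IsSquare (Q x * Q y) →
      (reflIso Q x hx ∈ H ↔ reflIso Q y hy ∈ H) ∧ f (reflIso Q x hx) = f (reflIso Q y hy) := by
    intro x y hx hy hsq
    obtain ⟨u, hu, h3⟩ := exists_reflIso_mul_reflIso_eq_sq h2 Q hx hy hsq
    constructor
    · have h4 : reflIso Q x hx * reflIso Q y hy ∈ H := by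
        rw [h3]
        exact Subgroup.sq_mem_of_index_two hH _
      rwa [Subgroup.mul_mem_iff_of_index_two hH] at h4
    · have h4 : f (reflIso Q x hx) * f (reflIso Q y hy) = 1 := by
        rw [← map_mul, h3, map_pow, Int.units_sq]
      rw [← mul_inv_eq_one, Int.units_inv_eq_self]
      exact h4
  ext g
  rw [MonoidHom.mem_ker]
  refine isometry_induction h2 Q hQ (fun g => g ∈ H ↔ f g = 1) (by simp [H.one_mem]) ?_ g
  intro u hu g hg
  have hu' : reflIso Q u hu ∈ H ↔ f (reflIso Q u hu) = 1 := by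
    by_cases hsq : IsSquare (Q u)
    · obtain ⟨e1, e2⟩ := hsame u v hu hv (hsq.mul h1)
      rw [e1, e2, hfv]
    · obtain ⟨e1, e2⟩ := hsame u w hu hw (isSquare_mul_of_not h2 hsq h3)
      rw [e1, e2, hfw]
  rw [Subgroup.mul_mem_iff_of_index_two hH, hg, hu', map_mul]
  rcases Int.units_eq_one_or (f (reflIso Q u hu)) with h5 | h5 <;>
    rcases Int.units_eq_one_or (f g) with h6 | h6 <;> rw [h5, h6] <;> decide

/-- For odd `|F|` and dimension at least two, the isometry group has exactly three subgroups of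
index two. -/
theorem card_index_two [Finite F] (h2 : (2 : F) ≠ 0) (Q : QuadraticForm F (ι → F))
    (hQ : (polarBilin Q).Nondegenerate) (hn : 2 ≤ Fintype.card ι) :
    Nat.card {H : Subgroup (Cfsg.isometryGroup F (⇑Q)) // H.index = 2} = 3 := by
  classical
  obtain ⟨⟨v, hv⟩, w, hw0, hw⟩ := exists_isSquare_and_not h2 Q hQ hn
  have hv0 : Q v ≠ 0 := by rw [hv]; exact one_ne_zero
  have hv1 : IsSquare (Q v) := by rw [hv]; exact ⟨1, (one_mul 1).symm⟩
  have ha0 : Q w ≠ 0 := hw0
  -- three sign characters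
  set f₁ := spinorSign (⇑Q) (1 : F) with hf₁
  set f₂ := spinorSign (⇑Q) (Q w) with hf₂
  have e1v : f₁ (reflIso Q v hv0) = -1 := by
    rw [hf₁, spinorSign_reflIso h2 Q one_ne_zero, one_mul, if_pos hv1]
  have e1w : f₁ (reflIso Q w hw0) = 1 := by
    rw [hf₁, spinorSign_reflIso h2 Q one_ne_zero, one_mul, if_neg hw]
  have e2v : f₂ (reflIso Q v hv0) = 1 := by
    rw [hf₂, spinorSign_reflIso h2 Q ha0, hv, mul_one, if_neg hw]
  have e2w : f₂ (reflIso Q w hw0) = -1 := by
    rw [hf₂, spinorSign_reflIso h2 Q ha0, if_pos ⟨Q w, rfl⟩]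
  have hind : ∀ (f : Cfsg.isometryGroup F (⇑Q) →* ℤˣ) (g : Cfsg.isometryGroup F (⇑Q)),
      f g = -1 → f.ker.index = 2 := by
    intro f g hg
    have hsurj : Function.Surjective f := by
      intro u
      rcases Int.units_eq_one_or u with rfl | rfl
      · exact ⟨1, map_one _⟩
      · exact ⟨g, hg⟩
    rw [Subgroup.index_ker, MonoidHom.range_eq_top.2 hsurj]
    simp
  have hone : (-1 : ℤˣ) ≠ 1 := by decide
  change Nat.card ↥{H : Subgroup (Cfsg.isometryGroup F (⇑Q)) | H.index = 2} = 3
  rw [Nat.card_coe_set_eq, Set.ncard_eq_three]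
  refine ⟨f₁.ker, f₂.ker, (f₁ * f₂).ker, ?_, ?_, ?_, ?_⟩
  · intro h
    have : reflIso Q w hw0 ∈ f₁.ker := e1w
    rw [h, MonoidHom.mem_ker, e2w] at this
    exact hone this
  · intro h
    have : reflIso Q w hw0 ∈ f₁.ker := e1w
    rw [h, MonoidHom.mem_ker, MonoidHom.mul_apply, e1w, e2w, one_mul] at this
    exact hone this
  · intro h
    have : reflIso Q v hv0 ∈ f₂.ker := e2v
    rw [h, MonoidHom.mem_ker, MonoidHom.mul_apply, e1v, e2v, mul_one] at this
    exact hone this
  · ext H
    simp only [Set.mem_ofPred_eq, Set.mem_insert_iff, Set.mem_singleton_iff]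
    constructor
    · intro hH
      by_cases hvH : reflIso Q v hv0 ∈ H
      · by_cases hwH : reflIso Q w hw0 ∈ H
        · exfalso
          have h4 := eq_ker_of_index_two h2 Q hQ v w hv0 hw0 hv1 hw H hH 1
            (by simp [hvH]) (by simp [hwH])
          rw [h4, MonoidHom.ker_one, Subgroup.index_top] at hH
          omega
        · right; left
          exact eq_ker_of_index_two h2 Q hQ v w hv0 hw0 hv1 hw H hH f₂
            (by simp [hvH, e2v]) (by simp [hwH, e2w])
      · by_cases hwH : reflIso Q w hw0 ∈ H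
        · left
          exact eq_ker_of_index_two h2 Q hQ v w hv0 hw0 hv1 hw H hH f₁
            (by simp [hvH, e1v]) (by simp [hwH, e1w])
        · right; right
          exact eq_ker_of_index_two h2 Q hQ v w hv0 hw0 hv1 hw H hH (f₁ * f₂)
            (by simp [hvH, e1v, e2v]) (by simp [hwH, e1w, e2w])
    · rintro (rfl | rfl | rfl)
      · exact hind _ _ e1v
      · exact hind _ _ e2w
      · exact hind _ (reflIso Q v hv0) (by rw [MonoidHom.mul_apply, e1v, e2v, mul_one])

end Cfsg.Agent.ClassicalGeometry.IndexTwo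
end

-- part: S0797
section
set_option autoImplicit false
open Cfsg

namespace Cfsg.Agent.S0797

/-- O^ε_2m(q) ≅ Ω.2² for q odd: if F is finite of odd characteristic, n ≥ 2 is even and Q has non-degenerate polar form on F^n, the isometry group of Q has exactly three subgroups of index 2. -/
theorem result {F : Type*} [Field F] [Fintype F] (h2 : (2 : F) ≠ 0) {n : ℕ} (hn : 2 ≤ n) (heven : Even n) (Q : QuadraticForm F (Fin n → F)) (hQ : (QuadraticMap.polarBilin Q).Nondegenerate) : Nat.card {H : Subgroup ↥(Cfsg.isometryGroup F ⇑Q) // H.index = 2} = 3 := by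
  have h : Fintype.card (Fin n) = n := Fintype.card_fin n
  exact ClassicalGeometry.IndexTwo.card_index_two h2 Q hQ (by rw [h]; exact hn)

end Cfsg.Agent.S0797
end
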