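import Cfsg.Statements.S0798
import Cfsg.Agent.ClassicalGeometry.ReflClass
set_option linter.all false

set_option autoImplicit false
open Cfsg

namespace Cfsg.Agent.S0798

/-- For q odd, n ≥ 2 even, Q with non-degenerate polar form (n, |F|) ≠ (4, 3), and a fixed c ≠ 0: the subgroup of the isometry group generated by the reflections r_v with Q(v) ∈ c·(F^×)² has index 2. -/
theorem result {F : Type*} [Field F] [Fintype F] (h2 : (2 : F) ≠ 0) {n : ℕ} (hn : 2 ≤ n) (heven : Even n) (Q : QuadraticForm F (Fin n → F)) (hQ : (QuadraticMap.polarBilin Q).Nondegenerate) (h43 : ¬ (n = 4 ∧ Fintype.card F = 3)) (c : F) (hc : c ≠ 0) : (Subgroup.closure {g : ↥(Cfsg.isometryGroup F ⇑Q) | ∃ (v : Fin n → F) (t : F), t ≠ 0 ∧ Q v = c * t ^ 2 ∧ ((g : Matrix.GeneralLinearGroup (Fin n) F) : Matrix (Fin n) (Fin n) F) = Cfsg.reflectionMatrix ⇑Q v}).index = 2 := by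
  refine Cfsg.Agent.ClassicalGeometry.ReflClass.reflClass_index h2 Q hQ ?_ ?_ c hc
  · rwa [Fintype.card_fin]
  · unfold Cfsg.Agent.ClassicalGeometry.ReflClass.Good
    rw [Fintype.card_fin, Nat.card_eq_fintype_card]
    obtain ⟨k, hk⟩ := heven
    have h3 : 3 ≤ Fintype.card F := by
      classical
      have h4 : ({0, 1, -1} : Finset F).card = 3 := by
        rw [Finset.card_eq_three]
        refine ⟨0, 1, -1, zero_ne_one, ?_, ?_, rfl⟩
        · intro h
          apply one_ne_zero (α := F)
          linear_combination h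
        · intro h
          apply h2
          linear_combination h
      rw [← h4]
      exact Finset.card_le_univ _
    by_cases h5 : Fintype.card F = 3
    · right
      by_cases h6 : n = 2
      · exact Or.inr h6
      · left
        by_contra h7
        exact h43 ⟨by omega, h5⟩
    · left
      omega

end Cfsg.Agent.S0798
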