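import Cfsg.Statements.S0800
import Cfsg.Agent.ClassicalGeometry.SL2Order
set_option linter.all false
-- import your own Cfsg.Agent.* helpers here

set_option autoImplicit false
open Cfsg

namespace Cfsg.Agent.S0800

/-- Tori of SL_2(q): if g ∈ SL_2(q) has order coprime to the characteristic p, then the order of g divides q − 1 or q + 1. -/
theorem result {F : Type*} [Field F] [Fintype F] {q : ℕ} (hF : Fintype.card F = q) (p : ℕ) [Fact p.Prime] [CharP F p] (g : Matrix.SpecialLinearGroup (Fin 2) F) (hg : Nat.Coprime (orderOf g) p) : orderOf g ∣ q - 1 ∨ orderOf g ∣ q + 1 := by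
  rcases Cfsg.Agent.ClassicalGeometry.SL2Order.pow_cases hF p g with h | h | h
  · exact Or.inl (orderOf_dvd_of_pow_eq_one h)
  · exact Or.inr (orderOf_dvd_of_pow_eq_one h)
  · have h1 : orderOf g ∣ 2 * p := orderOf_dvd_of_pow_eq_one h
    have h2 : orderOf g ∣ 2 := hg.dvd_of_dvd_mul_right h1
    have hp : p.Prime := Fact.out
    left
    rcases hp.eq_two_or_odd' with rfl | hodd
    · have h3 : orderOf g ∣ 1 := by
        have := Nat.dvd_gcd (dvd_refl (orderOf g)) h2
        rwa [hg] at this
      exact h3.trans (one_dvd _)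
    · obtain ⟨n, -, hn⟩ := FiniteField.card F p
      have hq : Odd q := by rw [← hF, hn]; exact hodd.pow
      obtain ⟨r, hr⟩ := hq
      exact h2.trans ⟨r, by omega⟩

end Cfsg.Agent.S0800
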