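import Cfsg.Statements.S0808
import Cfsg.Agent.ClassicalGeometry.PSL2KleinConj
set_option linter.all false

set_option autoImplicit false
open Cfsg

namespace Cfsg.Agent.S0808

open Cfsg.Agent.ClassicalGeometry.PSL2KleinConj in
/-- Conjugacy classes of four-groups in PSL_2(q), q odd: if q ≡ 3 or 5 (mod 8) all Klein four-subgroups are conjugate; if q ≡ 1 or 7 (mod 8) there are two Klein four-subgroups which are not conjugate, and every Klein four-subgroup is conjugate to one of them. -/
theorem result {F : Type*} [Field F] [Fintype F] {q : ℕ} (hF : Fintype.card F = q) (hodd : Odd q) : ((q % 8 = 3 ∨ q % 8 = 5) → ∀ V W : Subgroup (Matrix.ProjectiveSpecialLinearGroup (Fin 2) F), IsKleinFour V → IsKleinFour W → ∃ g : Matrix.ProjectiveSpecialLinearGroup (Fin 2) F, W = V.map (MulAut.conj g).toMonoidHom) ∧ ((q % 8 = 1 ∨ q % 8 = 7) → ∃ V₁ V₂ : Subgroup (Matrix.ProjectiveSpecialLinearGroup (Fin 2) F), IsKleinFour V₁ ∧ IsKleinFour V₂ ∧ (¬ ∃ g : Matrix.ProjectiveSpecialLinearGroup (Fin 2) F, V₂ = V₁.map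 (MulAut.conj g).toMonoidHom) ∧ ∀ W : Subgroup (Matrix.ProjectiveSpecialLinearGroup (Fin 2) F), IsKleinFour W → (∃ g : Matrix.ProjectiveSpecialLinearGroup (Fin 2) F, W = V₁.map (MulAut.conj g).toMonoidHom) ∨ (∃ g : Matrix.ProjectiveSpecialLinearGroup (Fin 2) F, W = V₂.map (MulAut.conj g).toMonoidHom)) := by
  have h2 : (2 : F) ≠ 0 := by
    subst hF
    apply Ring.two_ne_zero
    intro h
    have := FiniteField.even_card_of_char_two h
    rw [Nat.odd_iff] at hodd
    omega
  constructor
  · intro hq V W hV hW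
    have hns : ¬ IsSquare (2 : F) := by
      rw [FiniteField.isSquare_two_iff, hF]
      omega
    exact conj_of_two_not_square h2 hns hV hW
  · intro hq
    have hs : IsSquare (2 : F) := by
      rw [FiniteField.isSquare_two_iff, hF]
      omega
    obtain ⟨V₁, hV₁⟩ := exists_isKleinFour (F := F) h2
    obtain ⟨V₂, hV₂, hne⟩ := exists_not_conj h2 hs hV₁
    refine ⟨V₁, V₂, hV₁, hV₂, hne, fun W hW => ?_⟩
    obtain ⟨g, hg⟩ := exists_map_eq h2 hV₁ hW
    obtain ⟨k, hk⟩ := exists_map_eq h2 hV₂ hW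
    by_cases h1 : IsSquare g.1.det
    · left; exact conj_of_map_square hg h1
    by_cases h3 : IsSquare k.1.det
    · right; exact conj_of_map_square hk h3
    exfalso
    apply hne
    have h4 : V₁.map (cjP (k⁻¹ * g)) = V₂ := by
      rw [Cfsg.Agent.ClassicalGeometry.PSL2KleinConj.map_mul, hg]
      exact map_inv_of_map hk
    apply conj_of_map_square h4
    have h5 : (k⁻¹ * g).1.det * (k.1.det * k.1.det) = k.1.det * g.1.det := by
      have h6 : (k * (k⁻¹ * g)).1.det = g.1.det := by rw [mul_inv_cancel_left]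
      rw [Units.val_mul, Matrix.det_mul] at h6
      linear_combination k.1.det * h6
    have h7 := isSquare_mul_of_not h3 h1
    rw [← h5] at h7
    obtain ⟨r, hr⟩ := h7
    have hk0 : k.1.det ≠ 0 := Matrix.GeneralLinearGroup.det_ne_zero k
    refine ⟨r / k.1.det, ?_⟩
    field_simp
    linear_combination hr

end Cfsg.Agent.S0808
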