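import Mathlib
import Cfsg.Statements.S0823
set_option linter.all false

-- part: Lib/GraphIso
section
/-!
A Goursat type recognition lemma: a subgroup `R` of `G × H` projecting onto both factors, such that for
`(g, h) ∈ R` one has `g ∈ N ↔ h ∈ M`, gives an isomorphism `G ⧸ N ≃* H ⧸ M`.
-/

set_option autoImplicit false

namespace Cfsg.Agent.Lib.GraphIso

/-- Goursat: a subgroup of the product, surjecting onto both factors and matching the normal subgroups `N`, `M`,
gives an isomorphism of the quotients. -/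
theorem nonempty_quotient_equiv {G H : Type*} [Group G] [Group H] (R : Subgroup (G × H))
    (N : Subgroup G) (M : Subgroup H) [N.Normal] [M.Normal]
    (h1 : ∀ g : G, ∃ h : H, (g, h) ∈ R) (h2 : ∀ h : H, ∃ g : G, (g, h) ∈ R)
    (hN : ∀ (g : G) (h : H), (g, h) ∈ R → (g ∈ N ↔ h ∈ M)) :
    Nonempty (G ⧸ N ≃* H ⧸ M) := by
  let φ : R →* G ⧸ N := (QuotientGroup.mk' N).comp ((MonoidHom.fst G H).comp R.subtype)
  let ψ : R →* H ⧸ M := (QuotientGroup.mk' M).comp ((MonoidHom.snd G H).comp R.subtype)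
  have hφ : Function.Surjective φ := by
    intro x
    obtain ⟨g, rfl⟩ := QuotientGroup.mk'_surjective N x
    obtain ⟨h, hh⟩ := h1 g
    exact ⟨⟨(g, h), hh⟩, rfl⟩
  have hψ : Function.Surjective ψ := by
    intro x
    obtain ⟨h, rfl⟩ := QuotientGroup.mk'_surjective M x
    obtain ⟨g, hg⟩ := h2 h
    exact ⟨⟨(g, h), hg⟩, rfl⟩
  have hk : φ.ker = ψ.ker := by
    ext ⟨⟨g, h⟩, hr⟩
    have e1 : (⟨(g, h), hr⟩ : R) ∈ φ.ker ↔ g ∈ N := by
      rw [MonoidHom.mem_ker]
      exact QuotientGroup.eq_one_iff g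
    have e2 : (⟨(g, h), hr⟩ : R) ∈ ψ.ker ↔ h ∈ M := by
      rw [MonoidHom.mem_ker]
      exact QuotientGroup.eq_one_iff h
    rw [e1, e2]
    exact hN g h hr
  exact ⟨(QuotientGroup.quotientKerEquivOfSurjective φ hφ).symm.trans
    ((QuotientGroup.quotientMulEquivOfEq hk).trans (QuotientGroup.quotientKerEquivOfSurjective ψ hψ))⟩

/-- The special case of trivial normal subgroups: `R` is the graph of an isomorphism `G ≃* H`. -/
theorem nonempty_equiv {G H : Type*} [Group G] [Group H] (R : Subgroup (G × H))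
    (h1 : ∀ g : G, ∃ h : H, (g, h) ∈ R) (h2 : ∀ h : H, ∃ g : G, (g, h) ∈ R)
    (hN : ∀ (g : G) (h : H), (g, h) ∈ R → (g = 1 ↔ h = 1)) :
    Nonempty (G ≃* H) := by
  obtain ⟨e⟩ := nonempty_quotient_equiv R ⊥ ⊥ h1 h2 (by
    intro g h hr
    rw [Subgroup.mem_bot, Subgroup.mem_bot]
    exact hN g h hr)
  exact ⟨QuotientGroup.quotientBot.symm.trans (e.trans QuotientGroup.quotientBot)⟩

end Cfsg.Agent.Lib.GraphIso
end

-- part: S0823
section
set_option autoImplicit false
open Cfsg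

namespace Cfsg.Agent.S0823

open Matrix

/-- The index type of the form. -/
abbrev I := Unit ⊕ (Fin 1 ⊕ Fin 1)

/-- The vector with the given coordinates. -/
def vec {F : Type*} (a b c : F) : I → F := Sum.elim (fun _ => a) (Sum.elim (fun _ => b) (fun _ => c))

theorem eq_vec {F : Type*} (v : I → F) :
    v = vec (v (.inl ())) (v (.inr (.inl 0))) (v (.inr (.inr 0))) := by
  funext i
  rcases i with i | i | i
  · rfl
  · obtain rfl : i = 0 := Subsingleton.elim _ _
    rfl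
  · obtain rfl : i = 0 := Subsingleton.elim _ _
    rfl

theorem vec_inj {F : Type*} {a b c a' b' c' : F} (h : vec a b c = vec a' b' c') :
    a = a' ∧ b = b' ∧ c = c' :=
  ⟨congrFun h (.inl ()), congrFun h (.inr (.inl 0)), congrFun h (.inr (.inr 0))⟩

theorem mulVec_vec {F : Type*} [Field F] (A : Matrix I I F) (a b c : F) :
    A *ᵥ vec a b c = vec
      (A (.inl ()) (.inl ()) * a + A (.inl ()) (.inr (.inl 0)) * b + A (.inl ()) (.inr (.inr 0)) * c)
      (A (.inr (.inl 0)) (.inl ()) * a + A (.inr (.inl 0)) (.inr (.inl 0)) * b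
        + A (.inr (.inl 0)) (.inr (.inr 0)) * c)
      (A (.inr (.inr 0)) (.inl ()) * a + A (.inr (.inr 0)) (.inr (.inl 0)) * b
        + A (.inr (.inr 0)) (.inr (.inr 0)) * c) := by
  rw [eq_vec (A *ᵥ vec a b c)]
  simp [Matrix.mulVec, dotProduct, vec, add_assoc]

theorem form_vec {F : Type*} [Field F] (a b c : F) : quadFormOdd 1 F (vec a b c) = a ^ 2 + b * c := by
  simp [quadFormOdd, vec]

theorem det_eq {F : Type*} [Field F] (A : Matrix I I F) :
    A.det = A (.inl ()) (.inl ()) * (A (.inr (.inl 0)) (.inr (.inl 0)) * A (.inr (.inr 0)) (.inr (.inr 0))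
        - A (.inr (.inl 0)) (.inr (.inr 0)) * A (.inr (.inr 0)) (.inr (.inl 0)))
      - A (.inl ()) (.inr (.inl 0)) * (A (.inr (.inl 0)) (.inl ()) * A (.inr (.inr 0)) (.inr (.inr 0))
        - A (.inr (.inl 0)) (.inr (.inr 0)) * A (.inr (.inr 0)) (.inl ()))
      + A (.inl ()) (.inr (.inr 0)) * (A (.inr (.inl 0)) (.inl ()) * A (.inr (.inr 0)) (.inr (.inl 0))
        - A (.inr (.inl 0)) (.inr (.inl 0)) * A (.inr (.inr 0)) (.inl ())) := by
  let e : I ≃ Fin 3 :=
    { toFun := Sum.elim (fun _ => 0) (Sum.elim (fun _ => 1) (fun _ => 2))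
      invFun := ![.inl (), .inr (.inl 0), .inr (.inr 0)]
      left_inv := by decide
      right_inv := by decide }
  rw [← Matrix.det_reindex_self e A, Matrix.det_fin_three]
  have h0 : e.symm 0 = .inl () := rfl
  have h1 : e.symm 1 = .inr (.inl 0) := rfl
  have h2 : e.symm 2 = .inr (.inr 0) := rfl
  simp only [Matrix.reindex_apply, Matrix.submatrix_apply, h0, h1, h2]
  ring

/-- Entrywise application of a field homomorphism maps isometries to isometries. -/
noncomputable def spMap {F K : Type*} [Field F] [Field K] (φ : F ≃+* K) :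
    ↥(specialIsometryGroup F (quadFormOdd 1 F)) →* ↥(specialIsometryGroup K (quadFormOdd 1 K)) where
  toFun x := ⟨⟨GeneralLinearGroup.map (φ : F →+* K) x.1.1, by
      intro v _
      have h1 := x.1.2 (φ.symm ∘ v) 0
      have h2 : ((GeneralLinearGroup.map (φ : F →+* K) x.1.1 : GL I K) : Matrix I I K) *ᵥ v
          = φ ∘ ((x.1.1 : Matrix I I F) *ᵥ (φ.symm ∘ v)) := by
        funext i
        have h3 := RingHom.map_mulVec (φ : F →+* K) (x.1.1 : Matrix I I F) (φ.symm ∘ v) i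
        have h4 : (⇑(φ : F →+* K) ∘ (φ.symm ∘ v)) = v := by
          funext j
          simp
        rw [h4] at h3
        exact h3.symm
      have h5 : ∀ u : I → F, quadFormOdd 1 K (φ ∘ u) = φ (quadFormOdd 1 F u) := by
        intro u
        simp [quadFormOdd]
      have h6 : φ ∘ (φ.symm ∘ v) = v := by
        funext j
        simp
      show quadFormOdd 1 K (((GeneralLinearGroup.map (φ : F →+* K) x.1.1 : GL I K) : Matrix I I K) *ᵥ v)
        = quadFormOdd 1 K v
      rw [h2, h5]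
      have h7 : quadFormOdd 1 F ((x.1.1 : Matrix I I F) *ᵥ (φ.symm ∘ v)) = quadFormOdd 1 F (φ.symm ∘ v) := h1
      rw [h7, ← h5, h6]⟩, by
      have h1 : GeneralLinearGroup.det x.1.1 = 1 := x.2
      show GeneralLinearGroup.det (GeneralLinearGroup.map (φ : F →+* K) x.1.1) = 1
      rw [GeneralLinearGroup.map_det, h1, map_one]⟩
  map_one' := by
    apply Subtype.ext
    apply Subtype.ext
    exact map_one (GeneralLinearGroup.map (φ : F →+* K))
  map_mul' x y := by
    apply Subtype.ext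
    apply Subtype.ext
    exact map_mul (GeneralLinearGroup.map (φ : F →+* K)) x.1.1 y.1.1

theorem spMap_symm {F K : Type*} [Field F] [Field K] (φ : F ≃+* K)
    (x : ↥(specialIsometryGroup F (quadFormOdd 1 F))) : spMap φ.symm (spMap φ x) = x := by
  apply Subtype.ext
  apply Subtype.ext
  apply Units.ext
  ext i j
  exact φ.symm_apply_apply _

/-- Transport of the determinant-one isometries along a field isomorphism. -/
noncomputable def specialCongr {F K : Type*} [Field F] [Field K] (φ : F ≃+* K) :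
    ↥(specialIsometryGroup F (quadFormOdd 1 F)) ≃* ↥(specialIsometryGroup K (quadFormOdd 1 K)) :=
  MonoidHom.toMulEquiv (spMap φ) (spMap φ.symm) (MonoidHom.ext (spMap_symm φ))
    (MonoidHom.ext (spMap_symm φ.symm))

/-- The field with three elements. -/
abbrev K := ZMod 3

/-- The four isotropic points. -/
def wa : Fin 4 → K := ![0, 0, 1, 1]
def wb : Fin 4 → K := ![1, 0, 1, 2]
def wc : Fin 4 → K := ![0, 1, 2, 1]

def w (i : Fin 4) : I → K := vec (wa i) (wb i) (wc i)

theorem neg_vec (a b c : K) : -vec a b c = vec (-a) (-b) (-c) := by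
  rw [eq_vec (-vec a b c)]
  rfl

theorem w_cases (i j : Fin 4) (h : w i = w j ∨ w i = -w j) : i = j := by
  have key : ∀ i j : Fin 4, ((wa i = wa j ∧ wb i = wb j ∧ wc i = wc j) ∨
      (wa i = -wa j ∧ wb i = -wb j ∧ wc i = -wc j)) → i = j := by decide
  apply key
  rcases h with h | h
  · exact Or.inl (vec_inj h)
  · right
    unfold w at h
    rw [neg_vec] at h
    exact vec_inj h

theorem exists_w (a b c : K) (h : a ^ 2 + b * c = 0) (h0 : vec a b c ≠ 0) :
    ∃ i, vec a b c = w i ∨ vec a b c = -w i := by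
  have key : ∀ a b c : K, a ^ 2 + b * c = 0 → (a = 0 ∧ b = 0 ∧ c = 0) ∨
      ∃ i : Fin 4, (a = wa i ∧ b = wb i ∧ c = wc i) ∨ (a = -wa i ∧ b = -wb i ∧ c = -wc i) := by decide
  rcases key a b c h with ⟨rfl, rfl, rfl⟩ | ⟨i, ⟨h1, h2, h3⟩ | ⟨h1, h2, h3⟩⟩
  · exact absurd (by rw [eq_vec (0 : I → K)]; rfl) h0
  · exact ⟨i, Or.inl (by rw [h1, h2, h3]; rfl)⟩
  · refine ⟨i, Or.inr ?_⟩
    unfold w
    rw [neg_vec, h1, h2, h3]

abbrev G := ↥(specialIsometryGroup K (quadFormOdd 1 K))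

/-- The matrix of an element. -/
abbrev mat (g : G) : Matrix I I K := (g.1.1 : Matrix I I K)

/-- The compatible pairs. -/
def R : Subgroup (G × Equiv.Perm (Fin 4)) where
  carrier := {p | ∀ i, mat p.1 *ᵥ w i = w (p.2 i) ∨ mat p.1 *ᵥ w i = -w (p.2 i)}
  mul_mem' {p q} hp hq := by
    intro i
    have h1 : mat (p * q).1 *ᵥ w i = mat p.1 *ᵥ (mat q.1 *ᵥ w i) := by
      rw [Matrix.mulVec_mulVec]
      rfl
    have h2 : (p * q).2 i = p.2 (q.2 i) := rfl
    rw [h1, h2]
    rcases hq i with h | h <;> rw [h] <;> rcases hp (q.2 i) with h' | h'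
    · exact Or.inl h'
    · exact Or.inr h'
    · right; rw [Matrix.mulVec_neg, h']
    · left; rw [Matrix.mulVec_neg, h', neg_neg]
  one_mem' := by
    intro i
    left
    show (1 : Matrix I I K) *ᵥ w i = w i
    rw [Matrix.one_mulVec]
  inv_mem' {p} hp := by
    intro i
    have h1 := hp (p.2⁻¹ i)
    have h2 : p.2 (p.2⁻¹ i) = i := by
      rw [← Equiv.Perm.mul_apply, mul_inv_cancel, Equiv.Perm.one_apply]
    have h3 : mat p⁻¹.1 * mat p.1 = 1 := by
      have : p⁻¹.1 * p.1 = 1 := inv_mul_cancel p.1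
      calc mat p⁻¹.1 * mat p.1 = mat (p⁻¹.1 * p.1) := rfl
        _ = mat 1 := by rw [this]
        _ = 1 := rfl
    rw [h2] at h1
    have h4 : w (p.2⁻¹ i) = mat p⁻¹.1 *ᵥ (mat p.1 *ᵥ w (p.2⁻¹ i)) := by
      rw [Matrix.mulVec_mulVec, h3, Matrix.one_mulVec]
    show mat p⁻¹.1 *ᵥ w i = w (p.2⁻¹ i) ∨ mat p⁻¹.1 *ᵥ w i = -w (p.2⁻¹ i)
    rcases h1 with h | h
    · left; rw [h4, h]
    · right; rw [h4, h, Matrix.mulVec_neg, neg_neg]

theorem mat_form (g : G) (v : I → K) : quadFormOdd 1 K (mat g *ᵥ v) = quadFormOdd 1 K v := g.1.2 v 0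

theorem mat_inv (g : G) : mat g⁻¹ * mat g = 1 := by
  calc mat g⁻¹ * mat g = mat (g⁻¹ * g) := rfl
    _ = mat 1 := by rw [inv_mul_cancel]
    _ = 1 := rfl

theorem exists_perm (g : G) : ∃ σ : Equiv.Perm (Fin 4), (g, σ) ∈ R := by
  have h1 : ∀ i, ∃ j, mat g *ᵥ w i = w j ∨ mat g *ᵥ w i = -w j := by
    intro i
    have h2 : quadFormOdd 1 K (mat g *ᵥ w i) = 0 := by
      rw [mat_form, w, form_vec]
      revert i
      decide
    have h3 : mat g *ᵥ w i ≠ 0 := by
      intro h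
      have h4 : w i = 0 := by
        calc w i = (mat g⁻¹ * mat g) *ᵥ w i := by rw [mat_inv, Matrix.one_mulVec]
          _ = 0 := by rw [← Matrix.mulVec_mulVec, h, Matrix.mulVec_zero]
      have h5 : ∀ i : Fin 4, ¬ (wa i = 0 ∧ wb i = 0 ∧ wc i = 0) := by decide
      exact h5 i ⟨congrFun h4 (.inl ()), congrFun h4 (.inr (.inl 0)), congrFun h4 (.inr (.inr 0))⟩
    rw [eq_vec (mat g *ᵥ w i)] at h2 h3 ⊢
    rw [form_vec] at h2
    exact exists_w _ _ _ h2 h3
  choose f hf using h1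
  have hinj : Function.Injective f := by
    intro i j hij
    apply w_cases
    have h2 := hf i
    have h3 := hf j
    rw [hij] at h2
    have h4 : mat g *ᵥ w i = mat g *ᵥ w j ∨ mat g *ᵥ w i = mat g *ᵥ (-w j) := by
      rw [Matrix.mulVec_neg]
      rcases h2 with h2 | h2 <;> rcases h3 with h3 | h3 <;> rw [h2, h3] <;> simp
    have h5 : ∀ u v : I → K, mat g *ᵥ u = mat g *ᵥ v → u = v := by
      intro u v h
      calc u = (mat g⁻¹ * mat g) *ᵥ u := by rw [mat_inv, Matrix.one_mulVec]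
        _ = (mat g⁻¹ * mat g) *ᵥ v := by rw [← Matrix.mulVec_mulVec, h, Matrix.mulVec_mulVec]
        _ = v := by rw [mat_inv, Matrix.one_mulVec]
    rcases h4 with h4 | h4
    · exact Or.inl (h5 _ _ h4)
    · exact Or.inr (h5 _ _ h4)
  exact ⟨Equiv.ofBijective f (Finite.injective_iff_bijective.mp hinj), hf⟩

theorem fix_key (b e y : K) (h1 : (b = 0 ∧ e = 1 ∧ y = 0) ∨ (b = 0 ∧ e = -1 ∧ y = 0))
    (c f z : K) (h2 : (c = 0 ∧ f = 0 ∧ z = 1) ∨ (c = 0 ∧ f = 0 ∧ z = -1))
    (a d x : K)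
    (h3 : (a * 1 + b * 1 + c * 2 = 1 ∧ d * 1 + e * 1 + f * 2 = 1 ∧ x * 1 + y * 1 + z * 2 = 2) ∨
      (a * 1 + b * 1 + c * 2 = -1 ∧ d * 1 + e * 1 + f * 2 = -1 ∧ x * 1 + y * 1 + z * 2 = -2))
    (h4 : (a * 1 + b * 2 + c * 1 = 1 ∧ d * 1 + e * 2 + f * 1 = 2 ∧ x * 1 + y * 2 + z * 1 = 1) ∨
      (a * 1 + b * 2 + c * 1 = -1 ∧ d * 1 + e * 2 + f * 1 = -2 ∧ x * 1 + y * 2 + z * 1 = -1))
    (h5 : a * (e * z - f * y) - b * (d * z - f * x) + c * (d * y - e * x) = 1) :
    (a = 1 ∧ b = 0 ∧ c = 0) ∧ (d = 0 ∧ e = 1 ∧ f = 0) ∧ (x = 0 ∧ y = 0 ∧ z = 1) := by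
  have aux : ∀ {a b c r : K}, a * 1 + b + c = r → a = r - (b + c) := by
    intro a b c r h
    rw [← h]
    ring
  have h3' := h3.imp (fun h => And.intro (aux h.1) (And.intro (aux h.2.1) (aux h.2.2)))
    (fun h => And.intro (aux h.1) (And.intro (aux h.2.1) (aux h.2.2)))
  clear h3
  rcases h1 with ⟨rfl, rfl, rfl⟩ | ⟨rfl, rfl, rfl⟩ <;>
  rcases h2 with ⟨rfl, rfl, rfl⟩ | ⟨rfl, rfl, rfl⟩ <;>
  rcases h3' with ⟨rfl, rfl, rfl⟩ | ⟨rfl, rfl, rfl⟩ <;>
  revert h4 h5 <;>
  decide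

theorem eq_one_of_fix (g : G) (h : (g, (1 : Equiv.Perm (Fin 4))) ∈ R) : g = 1 := by
  have h0 := h 0
  have h1 := h 1
  have h2 := h 2
  have h3 := h 3
  have hd : (mat g).det = 1 := by
    have : GeneralLinearGroup.det g.1.1 = 1 := g.2
    exact congrArg Units.val this
  rw [det_eq] at hd
  simp only [Equiv.Perm.one_apply, w, mulVec_vec, neg_vec] at h0 h1 h2 h3
  have k0 := h0.imp vec_inj vec_inj
  have k1 := h1.imp vec_inj vec_inj
  have k2 := h2.imp vec_inj vec_inj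
  have k3 := h3.imp vec_inj vec_inj
  clear h0 h1 h2 h3
  have k := fix_key _ _ _ (by simpa [wa, wb, wc] using k0) _ _ _ (by simpa [wa, wb, wc] using k1) _ _ _
    k2 k3 hd
  apply Subtype.ext
  apply Subtype.ext
  apply Units.ext
  obtain ⟨⟨r1, r2, r3⟩, ⟨r4, r5, r6⟩, ⟨r7, r8, r9⟩⟩ := k
  show mat g = 1
  ext i j
  rcases i with i | i | i <;> rcases j with j | j | j
  all_goals obtain rfl : i = 0 := Subsingleton.elim _ _
  all_goals obtain rfl : j = 0 := Subsingleton.elim _ _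
  all_goals first
    | exact r1 | exact r2 | exact r3 | exact r4 | exact r5 | exact r6 | exact r7 | exact r8 | exact r9

/-- An element of `G` from nine entries. -/
theorem exists_of_entries (a b c d e f x y z : K)
    (h : ∀ p q r : K, (a * p + b * q + c * r) ^ 2 + (d * p + e * q + f * r) * (x * p + y * q + z * r)
      = p ^ 2 + q * r)
    (hd : a * (e * z - f * y) - b * (d * z - f * x) + c * (d * y - e * x) = 1) :
    ∃ g : G, ∀ p q r, mat g *ᵥ vec p q r = vec (a * p + b * q + c * r) (d * p + e * q + f * r)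
      (x * p + y * q + z * r) := by
  let M : Matrix I I K := fun i => match i with
    | .inl _ => vec a b c
    | .inr (.inl _) => vec d e f
    | .inr (.inr _) => vec x y z
  have hdet : M.det = 1 := by
    rw [det_eq]
    exact hd
  have hM : ∀ p q r, M *ᵥ vec p q r = vec (a * p + b * q + c * r) (d * p + e * q + f * r)
      (x * p + y * q + z * r) := fun p q r => mulVec_vec M p q r
  let u : GL I K := GeneralLinearGroup.mkOfDetNeZero M (by rw [hdet]; exact one_ne_zero)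
  refine ⟨⟨⟨u, ?_⟩, ?_⟩, hM⟩
  · intro v _
    show quadFormOdd 1 K (M *ᵥ v) = quadFormOdd 1 K v
    rw [eq_vec v, hM, form_vec, form_vec]
    exact h _ _ _
  · show GeneralLinearGroup.det u = 1
    apply Units.ext
    exact hdet

theorem exists_gen0 : ∃ g : G, (g, Equiv.swap (0 : Fin 4) 1) ∈ R := by
  obtain ⟨g, hg⟩ := exists_of_entries 2 0 0 0 0 1 0 1 0 (by decide) (by decide)
  refine ⟨g, ?_⟩
  intro i
  show mat g *ᵥ w i = w (Equiv.swap (0 : Fin 4) 1 i) ∨ mat g *ᵥ w i = -w (Equiv.swap (0 : Fin 4) 1 i)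
  unfold w
  rw [hg, neg_vec]
  clear hg g
  revert i
  decide

theorem exists_gen1 : ∃ g : G, (g, Equiv.swap (1 : Fin 4) 2) ∈ R := by
  obtain ⟨g, hg⟩ := exists_of_entries 1 0 1 2 2 1 0 0 2 (by decide) (by decide)
  refine ⟨g, ?_⟩
  intro i
  show mat g *ᵥ w i = w (Equiv.swap (1 : Fin 4) 2 i) ∨ mat g *ᵥ w i = -w (Equiv.swap (1 : Fin 4) 2 i)
  unfold w
  rw [hg, neg_vec]
  clear hg g
  revert i
  decide

theorem exists_gen2 : ∃ g : G, (g, Equiv.swap (2 : Fin 4) 3) ∈ R := by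
  obtain ⟨g, hg⟩ := exists_of_entries 1 0 0 0 2 0 0 0 2 (by decide) (by decide)
  refine ⟨g, ?_⟩
  intro i
  show mat g *ᵥ w i = w (Equiv.swap (2 : Fin 4) 3 i) ∨ mat g *ᵥ w i = -w (Equiv.swap (2 : Fin 4) 3 i)
  unfold w
  rw [hg, neg_vec]
  clear hg g
  revert i
  decide

theorem exists_mat (σ : Equiv.Perm (Fin 4)) : ∃ g : G, (g, σ) ∈ R := by
  let S : Submonoid (Equiv.Perm (Fin 4)) := R.toSubmonoid.map (MonoidHom.snd G (Equiv.Perm (Fin 4)))
  have hS : S = ⊤ := by
    rw [eq_top_iff, ← Equiv.Perm.mclosure_swap_castSucc_succ 3, Submonoid.closure_le]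
    rintro _ ⟨i, rfl⟩
    fin_cases i
    · obtain ⟨g, hg⟩ := exists_gen0
      exact ⟨(g, _), hg, rfl⟩
    · obtain ⟨g, hg⟩ := exists_gen1
      exact ⟨(g, _), hg, rfl⟩
    · obtain ⟨g, hg⟩ := exists_gen2
      exact ⟨(g, _), hg, rfl⟩
  have : σ ∈ S := by rw [hS]; trivial
  obtain ⟨⟨g, τ⟩, hg, rfl⟩ := this
  exact ⟨g, hg⟩

/-- SO_3(3) ≅ S_4: the determinant-one isometries of the form x_0² + x_1y_1 over the field with 3 elements form a group isomorphic to the symmetric group on 4 letters. -/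
theorem result {F : Type*} [Field F] [Fintype F] (hF : Fintype.card F = 3) : Nonempty (↥(Cfsg.specialIsometryGroup F (Cfsg.quadFormOdd 1 F)) ≃* Equiv.Perm (Fin 4)) := by
  let e : F ≃+* K := (ZMod.ringEquivOfPrime F Nat.prime_three hF).symm
  obtain ⟨f⟩ : Nonempty (G ≃* Equiv.Perm (Fin 4)) := by
    apply Cfsg.Agent.Lib.GraphIso.nonempty_equiv R exists_perm exists_mat
    intro g σ hg
    constructor
    · rintro rfl
      ext i
      have h := hg i
      rw [show mat ((1 : G), σ).1 *ᵥ w i = w i from Matrix.one_mulVec _] at h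
      exact congrArg Fin.val (w_cases _ _ h).symm
    · rintro rfl
      exact eq_one_of_fix g hg
  exact ⟨(specialCongr e).trans f⟩

end Cfsg.Agent.S0823
end
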