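import Cfsg.Statements.S0824
import Cfsg.Agent.ClassicalGeometry.SymModel
set_option linter.all false

set_option autoImplicit false
open Cfsg

namespace Cfsg.Agent.S0824

open Matrix Cfsg.Agent.ClassicalGeometry.SymModel Cfsg.Agent.ClassicalGeometry.IsoTransfer

def B5 : Matrix (Fin 5) ((Fin 1 ⊕ Fin 1) ⊕ Fin 2) (ZMod 2) :=
  Matrix.of fun k => Sum.elim (Sum.elim
    (fun _ => ![1,1,1,1,0] k)
    (fun _ => ![1,1,1,0,1] k))
    (fun i => ![![1,1,0,0,0],![1,0,1,0,0]] i k)

def C5 : Matrix ((Fin 1 ⊕ Fin 1) ⊕ Fin 2) (Fin 5) (ZMod 2) :=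
  Matrix.of fun j k => B5 k (Sum.map Sum.swap Fin.rev j)

def D5 : Data 5 ((Fin 1 ⊕ Fin 1) ⊕ Fin 2) where
  B := B5
  C := C5
  lam := 0
  mu := 1
  hCB := by decide +kernel
  hC1 := by decide +kernel
  h1B := by decide +kernel
  hBC := by decide +kernel

set_option synthInstance.maxSize 10000 in
theorem equiv_ZMod :
    Nonempty (isometryGroup (ZMod 2) (quadFormMinus 1 (ZMod 2) 1 1) ≃* Equiv.Perm (Fin 5)) :=
  D5.nonempty_equiv_of_decide (n := 2) (by decide +kernel) (by decide +kernel) 4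
    (by decide +kernel) (by decide +kernel) (by decide +kernel) (by decide +kernel)

/-- O⁻_4(2) ≅ S_5: the isometry group of the form x y + z_1² + z_1 z_2 + z_2² over the field with 2 elements is isomorphic to the symmetric group on 5 letters. -/
theorem result {F : Type*} [Field F] [Fintype F] (hF : Fintype.card F = 2) : Nonempty (↥(Cfsg.isometryGroup F (Cfsg.quadFormMinus 1 F 1 1)) ≃* Equiv.Perm (Fin 5)) := by
  obtain ⟨e⟩ := equiv_ZMod
  let φ : F ≃+* ZMod 2 := (ZMod.ringEquivOfPrime F Nat.prime_two hF).symm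
  exact ⟨(isometryGroupCongr φ _ _ (by
    intro v
    simp [quadFormMinus, map_add, map_mul, map_pow])).trans e⟩

end Cfsg.Agent.S0824
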