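import Cfsg.Statements.S0828
import Cfsg.Agent.ClassicalGeometry.SympBasic
set_option linter.all false

set_option autoImplicit false
open Cfsg

namespace Cfsg.Agent.S0828

open Cfsg.Agent.ClassicalGeometry.SympBasic

section aux

variable {F : Type*} [Field F]

theorem linInd_pair {v w : Fin 2 ⊕ Fin 2 → F} (hv : v ≠ 0) (hw : w ∉ Submodule.span F {v}) :
    LinearIndependent F ![v, w] := by
  rw [LinearIndependent.pair_iff' hv]
  intro a ha
  exact hw (Submodule.mem_span_singleton.2 ⟨a, ha⟩)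

theorem finrank_span_pair {v w : Fin 2 ⊕ Fin 2 → F} (hv : v ≠ 0)
    (hw : w ∉ Submodule.span F {v}) :
    Module.finrank F (Submodule.span F {v, w}) = 2 := by
  have h := finrank_span_eq_card (linInd_pair hv hw)
  rw [Matrix.range_cons_cons_empty] at h
  simpa using h

theorem iso_span_pair {v w : Fin 2 ⊕ Fin 2 → F} (h : sympForm 2 F v w = 0) :
    ∀ a ∈ Submodule.span F {v, w}, ∀ b ∈ Submodule.span F {v, w}, sympForm 2 F a b = 0 := by
  intro a ha b hb
  obtain ⟨x, y, rfl⟩ := Submodule.mem_span_pair.1 ha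
  obtain ⟨z, t, rfl⟩ := Submodule.mem_span_pair.1 hb
  have h' : sympForm 2 F w v = 0 := by rw [sympForm_swap, h, neg_zero]
  simp only [sympForm_add_left, sympForm_add_right, sympForm_smul_left, sympForm_smul_right,
    sympForm_self, h, h']
  ring

theorem eq_span_pair {v w : Fin 2 ⊕ Fin 2 → F} (hv : v ≠ 0)
    (hw : w ∉ Submodule.span F {v}) (W : Submodule F (Fin 2 ⊕ Fin 2 → F))
    (hW : Module.finrank F W = 2) (hvW : v ∈ W) (hwW : w ∈ W) :
    Submodule.span F {v, w} = W := by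
  apply Submodule.eq_of_le_of_finrank_eq
  · rw [Submodule.span_le]
    rintro x (rfl | rfl)
    · exact hvW
    · exact hwW
  · rw [hW, finrank_span_pair hv hw]

theorem perp_finrank {v : Fin 2 ⊕ Fin 2 → F} (hv : v ≠ 0) :
    Module.finrank F (LinearMap.ker (sympBilin 2 F v)) = 3 := by
  have hne : sympBilin 2 F v ≠ 0 := by
    intro h
    apply hv
    apply eq_zero_of_forall_sympForm_right
    intro w
    rw [← sympBilin_apply, h]
    rfl
  have := Module.Dual.finrank_ker_add_one_of_ne_zero hne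
  have h4 : Module.finrank F (Fin 2 ⊕ Fin 2 → F) = 4 := by
    rw [Module.finrank_fintype_fun_eq_card]; rfl
  omega

end aux

section counting

variable {F : Type*} [Field F] [Fintype F]

theorem natCard_submodule (W : Submodule F (Fin 2 ⊕ Fin 2 → F)) :
    Nat.card W = Fintype.card F ^ Module.finrank F W := by
  rw [Module.natCard_eq_pow_finrank (K := F), Nat.card_eq_fintype_card]

/-- number of elements of one subspace outside a smaller one -/
theorem natCard_diff (W U : Submodule F (Fin 2 ⊕ Fin 2 → F)) (h : U ≤ W) :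
    Nat.card {w : Fin 2 ⊕ Fin 2 → F // w ∈ W ∧ w ∉ U} =
      Fintype.card F ^ Module.finrank F W - Fintype.card F ^ Module.finrank F U := by
  classical
  rw [← natCard_submodule, ← natCard_submodule]
  have h1 : Nat.card {w : Fin 2 ⊕ Fin 2 → F // w ∈ W ∧ w ∉ U} =
      ((W : Set (Fin 2 ⊕ Fin 2 → F)) \ U).ncard := by
    rw [← Nat.card_coe_set_eq]; rfl
  rw [h1, Set.ncard_sdiff (by exact h), ← Nat.card_coe_set_eq, ← Nat.card_coe_set_eq]
  rfl

/-- A sigma type with all fibres of the same size. -/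
theorem natCard_sigma_const {ι : Type*} [Finite ι] (β : ι → Type*) [∀ i, Finite (β i)] (k : ℕ)
    (h : ∀ i, Nat.card (β i) = k) : Nat.card (Σ i, β i) = Nat.card ι * k := by
  classical
  have := Fintype.ofFinite ι
  rw [Nat.card_sigma, Finset.sum_congr rfl (fun i _ => h i), Finset.sum_const, smul_eq_mul,
    Finset.card_univ, Nat.card_eq_fintype_card]

theorem card_through {v : Fin 2 ⊕ Fin 2 → F} (hv : v ≠ 0) :
    Nat.card {W : Submodule F (Fin 2 ⊕ Fin 2 → F) // Module.finrank F W = 2 ∧ v ∈ W ∧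
      ∀ u ∈ W, ∀ w ∈ W, sympForm 2 F u w = 0} = Fintype.card F + 1 := by
  classical
  set q := Fintype.card F with hq
  have hq1 : 1 < q := Fintype.one_lt_card
  let T := {W : Submodule F (Fin 2 ⊕ Fin 2 → F) // Module.finrank F W = 2 ∧ v ∈ W ∧
      ∀ u ∈ W, ∀ w ∈ W, sympForm 2 F u w = 0}
  let β : T → Type _ := fun W => {w : Fin 2 ⊕ Fin 2 → F // w ∈ W.1 ∧ w ∉ Submodule.span F {v}}
  have hspan : Module.finrank F (Submodule.span F {v}) = 1 := finrank_span_singleton hv
  have hβ : ∀ W : T, Nat.card (β W) = q ^ 2 - q := by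
    intro W
    have h := natCard_diff W.1 (Submodule.span F {v})
      ((Submodule.span_singleton_le_iff_mem _ _).2 W.2.2.1)
    rw [W.2.1, hspan, pow_one] at h
    exact h
  let P := {w : Fin 2 ⊕ Fin 2 → F // w ∈ LinearMap.ker (sympBilin 2 F v) ∧
    w ∉ Submodule.span F {v}}
  have hP : Nat.card P = q ^ 3 - q := by
    have h := natCard_diff (LinearMap.ker (sympBilin 2 F v)) (Submodule.span F {v})
      ((Submodule.span_singleton_le_iff_mem _ _).2 (by
        rw [LinearMap.mem_ker, sympBilin_apply, sympForm_self]))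
    rw [perp_finrank hv, hspan, pow_one] at h
    exact h
  let f : (Σ W : T, β W) → P := fun x => ⟨x.2.1, by
    refine ⟨?_, x.2.2.2⟩
    rw [LinearMap.mem_ker, sympBilin_apply]
    exact x.1.2.2.2 v x.1.2.2.1 _ x.2.2.1⟩
  have hf : Function.Bijective f := by
    constructor
    · rintro ⟨W, w⟩ ⟨W', w'⟩ h
      have hw : w.1 = w'.1 := congrArg Subtype.val h
      have hWW : W = W' := by
        apply Subtype.ext
        rw [← eq_span_pair hv w.2.2 W.1 W.2.1 W.2.2.1 w.2.1, hw]
        exact eq_span_pair hv w'.2.2 W'.1 W'.2.1 W'.2.2.1 w'.2.1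
      subst hWW
      have : w = w' := Subtype.ext hw
      rw [this]
    · rintro ⟨w, hw1, hw2⟩
      have hw1' : sympForm 2 F v w = 0 := by
        rwa [LinearMap.mem_ker, sympBilin_apply] at hw1
      refine ⟨⟨⟨Submodule.span F {v, w}, finrank_span_pair hv hw2,
        Submodule.subset_span (by simp), iso_span_pair hw1'⟩,
        ⟨w, Submodule.subset_span (by simp), hw2⟩⟩, rfl⟩
  have hcard : Nat.card T * (q ^ 2 - q) = q ^ 3 - q := by
    rw [← natCard_sigma_const β _ hβ, Nat.card_congr (Equiv.ofBijective f hf), hP]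
  have hpos : 0 < q ^ 2 - q := by
    have : q * 1 < q * q := Nat.mul_lt_mul_of_pos_left hq1 (by omega)
    have : q < q ^ 2 := by rw [pow_two]; linarith
    omega
  have key : (q + 1) * (q ^ 2 - q) = q ^ 3 - q := by
    have h1 : q ≤ q ^ 2 := by omega
    have h2 : q ≤ q ^ 3 := Nat.le_self_pow (by norm_num) q
    zify [h1, h2]
    ring
  exact Nat.eq_of_mul_eq_mul_right hpos (hcard.trans key.symm)

theorem card_all :
    Nat.card {W : Submodule F (Fin 2 ⊕ Fin 2 → F) // Module.finrank F W = 2 ∧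
      ∀ u ∈ W, ∀ w ∈ W, sympForm 2 F u w = 0} =
      (Fintype.card F + 1) * (Fintype.card F ^ 2 + 1) := by
  classical
  set q := Fintype.card F with hq
  have hq1 : 1 < q := Fintype.one_lt_card
  let T := {W : Submodule F (Fin 2 ⊕ Fin 2 → F) // Module.finrank F W = 2 ∧
      ∀ u ∈ W, ∀ w ∈ W, sympForm 2 F u w = 0}
  let β : T → Type _ := fun W => {w : Fin 2 ⊕ Fin 2 → F // w ∈ W.1 ∧ w ∉ (⊥ : Submodule F (Fin 2 ⊕ Fin 2 → F))}
  have hβ : ∀ W : T, Nat.card (β W) = q ^ 2 - 1 := by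
    intro W
    have h := natCard_diff W.1 ⊥ bot_le
    rw [W.2.1, finrank_bot, pow_zero] at h
    exact h
  let P := {w : Fin 2 ⊕ Fin 2 → F // w ∈ (⊤ : Submodule F (Fin 2 ⊕ Fin 2 → F)) ∧
    w ∉ (⊥ : Submodule F (Fin 2 ⊕ Fin 2 → F))}
  have hP : Nat.card P = q ^ 4 - 1 := by
    have h := natCard_diff (F := F) ⊤ ⊥ bot_le
    rw [finrank_bot, pow_zero, finrank_top, Module.finrank_fintype_fun_eq_card] at h
    exact h
  let γ : P → Type _ := fun v => {W : Submodule F (Fin 2 ⊕ Fin 2 → F) // Module.finrank F W = 2 ∧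
      v.1 ∈ W ∧ ∀ u ∈ W, ∀ w ∈ W, sympForm 2 F u w = 0}
  have hγ : ∀ v : P, Nat.card (γ v) = q + 1 := by
    intro v
    exact card_through (fun h => v.2.2 ((Submodule.mem_bot F).2 h))
  let e : (Σ W : T, β W) ≃ (Σ v : P, γ v) :=
    { toFun := fun x => ⟨⟨x.2.1, Submodule.mem_top, x.2.2.2⟩, ⟨x.1.1, x.1.2.1, x.2.2.1, x.1.2.2⟩⟩
      invFun := fun y => ⟨⟨y.2.1, y.2.2.1, y.2.2.2.2⟩, ⟨y.1.1, y.2.2.2.1, y.1.2.2⟩⟩
      left_inv := fun _ => rfl
      right_inv := fun _ => rfl }
  have hcard : Nat.card T * (q ^ 2 - 1) = (q ^ 4 - 1) * (q + 1) := by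
    rw [← natCard_sigma_const β _ hβ, Nat.card_congr e, natCard_sigma_const γ _ hγ, hP]
  have h1 : 1 < q ^ 2 := Nat.one_lt_pow (by norm_num) hq1
  have h2 : 1 ≤ q ^ 4 := Nat.one_le_pow _ _ (by omega)
  have hpos : 0 < q ^ 2 - 1 := by omega
  have key : ((q + 1) * (q ^ 2 + 1)) * (q ^ 2 - 1) = (q ^ 4 - 1) * (q + 1) := by
    zify [h1.le, h2]
    ring
  exact Nat.eq_of_mul_eq_mul_right hpos (hcard.trans key.symm)

end counting

/-- The symplectic generalised quadrangle over a field with q elements: the number of 2-dimensional subspaces of F^4 on which the symplectic form vanishes is (q + 1)(q² + 1), and every non-zero vector lies in exactly q + 1 of them. -/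
theorem result {F : Type*} [Field F] [Fintype F] {q : ℕ} (hF : Fintype.card F = q) : Nat.card {W : Submodule F (Fin 2 ⊕ Fin 2 → F) // Module.finrank F W = 2 ∧ ∀ u ∈ W, ∀ v ∈ W, Cfsg.sympForm 2 F u v = 0} = (q + 1) * (q ^ 2 + 1) ∧ ∀ v : Fin 2 ⊕ Fin 2 → F, v ≠ 0 → Nat.card {W : Submodule F (Fin 2 ⊕ Fin 2 → F) // Module.finrank F W = 2 ∧ v ∈ W ∧ ∀ u ∈ W, ∀ w ∈ W, Cfsg.sympForm 2 F u w = 0} = q + 1 := by
  subst hF
  exact ⟨card_all, fun v hv => card_through hv⟩

end Cfsg.Agent.S0828
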