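import Cfsg.Statements.S0830
import Cfsg.Agent.S0285
import Cfsg.Agent.ClassicalGeometry.HermLines
set_option linter.all false

set_option autoImplicit false
open Cfsg

namespace Cfsg.Agent.S0830

/-- The unitary quadrangle of PSU_5(q): with |F| = q², the number of 2-dimensional subspaces of F^5 on which the Hermitian form vanishes is (q³ + 1)(q⁵ + 1). -/
theorem result {F : Type*} [Field F] [Fintype F] {q : ℕ} (hF : Fintype.card F = q ^ 2) : Nat.card {W : Submodule F (Fin 5 → F) // Module.finrank F W = 2 ∧ ∀ u ∈ W, ∀ v ∈ W, Cfsg.hermForm 5 F q u v = 0} = (q ^ 3 + 1) * (q ^ 5 + 1) := by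
  have h2 := Cfsg.Agent.LieClassical.HermBasic.two_le hF
  have hI := Cfsg.Agent.S0285.result hF 5
  rw [if_neg (by decide)] at hI
  have h4 : 1 < q ^ 4 := Nat.one_lt_pow (by norm_num) (by omega)
  have h42 : q ^ 2 < q ^ 4 := Nat.pow_lt_pow_right (by omega) (by norm_num)
  -- `N = q^7 - q^5 + q^4`
  have h75 : q ^ 5 ≤ q ^ 7 := Nat.pow_le_pow_right (by omega) (by norm_num)
  have h := Cfsg.Agent.ClassicalGeometry.HermLines.card_lines hF (q ^ 7 - q ^ 5 + q ^ 4)
    ((q ^ 5 + 1) * (q ^ 4 - 1) + 1) hI (by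
      zify [h75, h4.le]
      ring)
  have hpos : 0 < (q ^ 4 - 1) * (q ^ 4 - q ^ 2) := Nat.mul_pos (by omega) (by omega)
  apply Nat.eq_of_mul_eq_mul_right hpos
  rw [h, Nat.add_sub_cancel]
  have h72 : q ^ 2 ≤ q ^ 7 - q ^ 5 + q ^ 4 := h42.le.trans (Nat.le_add_left _ _)
  zify [h4.le, h42.le, h72, h75]
  ring

end Cfsg.Agent.S0830
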