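import Cfsg.Statements.S0831
import Cfsg.Agent.ClassicalGeometry.TwoFamilies
import Cfsg.Agent.ClassicalGeometry.QuadPlusBasic
set_option linter.all false

set_option autoImplicit false
open Cfsg

namespace Cfsg.Agent.S0831

open Module

/-- The subspace of vectors vanishing at all coordinates in `J`. -/
def coordSub {ι : Type} (F : Type*) [Field F] (J : Set ι) : Submodule F (ι → F) :=
  ⨅ i ∈ J, LinearMap.ker (LinearMap.proj i : (ι → F) →ₗ[F] F)

theorem mem_coordSub {ι : Type} {F : Type*} [Field F] {J : Set ι} {v : ι → F} :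
    v ∈ coordSub F J ↔ ∀ i ∈ J, v i = 0 := by
  simp [coordSub, Submodule.mem_iInf]

theorem finrank_coordSub {ι : Type} [Fintype ι] {F : Type*} [Field F] (J : Set ι) :
    finrank F (coordSub F J) = Nat.card {i // i ∉ J} := by
  classical
  have e := LinearMap.iInfKerProjEquiv F (fun _ : ι => F) (I := Jᶜ) (J := J)
    disjoint_compl_left (by simp)
  have h := e.finrank_eq
  have h' : finrank F (coordSub F J) = finrank F ((Jᶜ : Set ι) → F) := h
  rw [h', Module.finrank_fintype_fun_eq_card, ← Nat.card_eq_fintype_card]
  rfl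

/-- The two families of maximal totally singular subspaces of the hyperbolic quadric: for the form Σ x_i y_i on F^(2m), m ≥ 1, and m-dimensional subspaces U, W, X on which it vanishes, the parities of m − dim(U ∩ W), m − dim(W ∩ X) and m − dim(U ∩ X) sum to an even number (so 'even codimension of the intersection' is an equivalence relation), and there exist two such subspaces meeting in codimension 1 (so there are exactly two classes). -/
theorem result {F : Type*} [Field F] (m : ℕ) (hm : 1 ≤ m) : (∀ U W X : Submodule F (Fin m ⊕ Fin m → F), (Module.finrank F U = m ∧ ∀ w ∈ U, Cfsg.quadFormPlus m F w = 0) → (Module.finrank F W = m ∧ ∀ w ∈ W, Cfsg.quadFormPlus m F w = 0) → (Module.finrank F X = m ∧ ∀ w ∈ X, Cfsg.quadFormPlus m F w = 0) → Even ((m - Module.finrank F ↥(U ⊓ W)) + (m - Module.finrank F ↥(W ⊓ X)) + (m - Module.finrank F ↥(U ⊓ X)))) ∧ ∃ U W : Submodule F (Fin m ⊕ Fin m → F), (Module.finrank F U = m ∧ ∀ w ∈ U, Cfsg.quadFormPlus m F w = 0) ∧ (Module.finrank F W = m ∧ ∀ w ∈ W, Cfsg.quadFormPlus m F w = 0) ∧ Module.finrank F ↥(U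 ⊓ W) + 1 = m := by
  classical
  constructor
  · rintro U W X ⟨hU, hU0⟩ ⟨hW, hW0⟩ ⟨hX, hX0⟩
    have h := Cfsg.Agent.ClassicalGeometry.TwoFamilies.even_intersections
      (Cfsg.Agent.ClassicalGeometry.QuadPlusBasic.polarForm m F) (Cfsg.quadFormPlus m F)
      (Cfsg.Agent.ClassicalGeometry.QuadPlusBasic.quadFormPlus_add m F)
      (Cfsg.Agent.ClassicalGeometry.QuadPlusBasic.polarForm_nondegenerate m F)
      (Cfsg.Agent.ClassicalGeometry.QuadPlusBasic.polarForm_isRefl m F) m
      (Cfsg.Agent.ClassicalGeometry.QuadPlusBasic.finrank_space m F) U W X hU hW hX hU0 hW0 hX0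
    have h1 : finrank F ↥(U ⊓ W) ≤ m := (Submodule.finrank_mono inf_le_left).trans hU.le
    have h2 : finrank F ↥(W ⊓ X) ≤ m := (Submodule.finrank_mono inf_le_left).trans hW.le
    have h3 : finrank F ↥(U ⊓ X) ≤ m := (Submodule.finrank_mono inf_le_left).trans hU.le
    rw [Nat.even_iff] at h ⊢
    omega
  · obtain ⟨k, rfl⟩ : ∃ k, m = k + 1 := ⟨m - 1, by omega⟩
    refine ⟨coordSub F {i | i.isRight = true},
      coordSub F {i | i = Sum.inl 0 ∨ (i.isRight = true ∧ i ≠ Sum.inr 0)}, ⟨?_, ?_⟩, ⟨?_, ?_⟩, ?_⟩
    · rw [finrank_coordSub]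
      have e : {i : Fin (k + 1) ⊕ Fin (k + 1) // i ∉ {i | i.isRight = true}} ≃ Fin (k + 1) :=
        { toFun := fun i => match i with
            | ⟨Sum.inl i, _⟩ => i
            | ⟨Sum.inr i, h⟩ => absurd rfl h
          invFun := fun i => ⟨Sum.inl i, by simp⟩
          left_inv := by
            rintro ⟨i | i, hi⟩
            · rfl
            · exact absurd rfl hi
          right_inv := fun i => rfl }
      rw [Nat.card_congr e, Nat.card_eq_fintype_card, Fintype.card_fin]
    · intro w hw
      rw [mem_coordSub] at hw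
      apply Finset.sum_eq_zero
      intro i _
      rw [hw (Sum.inr i) rfl, mul_zero]
    · rw [finrank_coordSub]
      have e : {i : Fin (k + 1) ⊕ Fin (k + 1) // i ∉ {i : Fin (k + 1) ⊕ Fin (k + 1) |
          i = Sum.inl 0 ∨ (i.isRight = true ∧ i ≠ Sum.inr 0)}} ≃ Fin (k + 1) :=
        { toFun := fun i => Sum.elim id id i.1
          invFun := fun i => if h : i = 0 then ⟨Sum.inr 0, by simp⟩ else ⟨Sum.inl i, by simp [h]⟩
          left_inv := by
            rintro ⟨i | i, hi⟩
            · have : i ≠ 0 := by rintro rfl; exact hi (Or.inl rfl)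
              simp [this]
            · have : i = 0 := by
                by_contra h
                exact hi (Or.inr ⟨rfl, by simpa using h⟩)
              subst this
              simp
          right_inv := by
            intro i
            by_cases h : i = 0
            · subst h; simp
            · simp [h] }
      rw [Nat.card_congr e, Nat.card_eq_fintype_card, Fintype.card_fin]
    · intro w hw
      rw [mem_coordSub] at hw
      apply Finset.sum_eq_zero
      intro i _
      by_cases h : i = 0
      · subst h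
        rw [hw (Sum.inl 0) (Or.inl rfl), zero_mul]
      · rw [hw (Sum.inr i) (Or.inr ⟨rfl, by simpa using h⟩), mul_zero]
    · have h1 : coordSub F {i : Fin (k + 1) ⊕ Fin (k + 1) | i.isRight = true} ⊓
          coordSub F {i | i = Sum.inl 0 ∨ (i.isRight = true ∧ i ≠ Sum.inr 0)} =
          coordSub F {i | i = Sum.inl 0 ∨ i.isRight = true} := by
        ext v
        rw [Submodule.mem_inf, mem_coordSub, mem_coordSub, mem_coordSub]
        constructor
        · rintro ⟨h1, h2⟩ i (hi | hi)
          · exact h2 i (Or.inl hi)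
          · exact h1 i hi
        · intro h
          exact ⟨fun i hi => h i (Or.inr hi), fun i hi => h i (hi.imp id And.left)⟩
      rw [h1, finrank_coordSub]
      have e : {i : Fin (k + 1) ⊕ Fin (k + 1) // i ∉ {i : Fin (k + 1) ⊕ Fin (k + 1) |
          i = Sum.inl 0 ∨ i.isRight = true}} ≃ Fin k :=
        { toFun := fun i => match i with
            | ⟨Sum.inl i, h⟩ => i.pred (by rintro rfl; exact h (Or.inl rfl))
            | ⟨Sum.inr i, h⟩ => absurd (Or.inr rfl) h
          invFun := fun i => ⟨Sum.inl i.succ, by simp⟩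
          left_inv := by
            rintro ⟨i | i, hi⟩
            · simp
            · exact absurd (Or.inr rfl) hi
          right_inv := fun i => by simp }
      rw [Nat.card_congr e, Nat.card_eq_fintype_card, Fintype.card_fin]

end Cfsg.Agent.S0831
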