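import Cfsg.Statements.S0833
import Cfsg.Agent.ClassicalGeometry.TensorForm
set_option linter.all false

set_option autoImplicit false
open Cfsg

namespace Cfsg.Agent.S0833

/-- If B₁, B₂ are non-degenerate alternating forms on U (dim 2k) and W (dim 2l), then B₁ ⊗ B₂ on U ⊗ W is symmetric, non-degenerate, and vanishes identically on some subspace of dimension 2kl (half of dim U ⊗ W). -/
theorem result {F U W : Type*} [Field F] [Fintype F] [AddCommGroup U] [Module F U] [FiniteDimensional F U] [AddCommGroup W] [Module F W] [FiniteDimensional F W] (B₁ : LinearMap.BilinForm F U) (B₂ : LinearMap.BilinForm F W) (h₁ : B₁.Nondegenerate) (h₂ : B₂.Nondegenerate) (hA₁ : B₁.IsAlt) (hA₂ : B₂.IsAlt) (k l : ℕ) (hU : Module.finrank F U = 2 * k) (hW : Module.finrank F W = 2 * l) : (B₁.tmul B₂).IsSymm ∧ (B₁.tmul B₂).Nondegenerate ∧ (∃ X : Submodule F (TensorProduct F U W), Module.finrank F X = 2 * k * l ∧ ∀ x ∈ X, ∀ y ∈ X, (B₁.tmul B₂) x y = 0) :=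 by
  refine ⟨ClassicalGeometry.TensorForm.isSymm_tmul_of_isAlt B₁ B₂ hA₁ hA₂,
    ClassicalGeometry.TensorForm.nondegenerate_tmul B₁ B₂ h₁ h₂, ?_⟩
  obtain ⟨L, hLd, hL⟩ :=
    ClassicalGeometry.TensorForm.exists_lagrangian_of_isAlt B₁ h₁ hA₁ k hU
  obtain ⟨X, hXd, hX⟩ :=
    ClassicalGeometry.TensorForm.exists_isotropic_tmul_of_left B₁ B₂ L hL
  refine ⟨X, ?_, hX⟩
  rw [hXd, hLd, hW]
  ring

end Cfsg.Agent.S0833
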