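import Cfsg.Statements.S0835
import Cfsg.Agent.ClassicalGeometry.Discriminant
set_option linter.all false

set_option autoImplicit false
open Cfsg

namespace Cfsg.Agent.S0835

/-- Over a finite field with 2 ≠ 0: if B₁ on U (dim 2k, k ≥ 1) is non-degenerate symmetric of minus type (no totally isotropic k-subspace) and B₂ on W (dim 2l + 1) is non-degenerate symmetric, then B₁ ⊗ B₂ (dimension 2k(2l+1)) admits no totally isotropic subspace of dimension k(2l+1) (minus type). -/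
theorem result {F U W : Type*} [Field F] [Fintype F] [AddCommGroup U] [Module F U] [FiniteDimensional F U] [AddCommGroup W] [Module F W] [FiniteDimensional F W] (h2 : (2 : F) ≠ 0) (B₁ : LinearMap.BilinForm F U) (B₂ : LinearMap.BilinForm F W) (h₁ : B₁.Nondegenerate) (h₂ : B₂.Nondegenerate) (hS₁ : B₁.IsSymm) (hS₂ : B₂.IsSymm) (k l : ℕ) (hk : 1 ≤ k) (hU : Module.finrank F U = 2 * k) (hW : Module.finrank F W = 2 * l + 1) (hm₁ : ¬ (∃ X : Submodule F (U), Module.finrank F X = k ∧ ∀ x ∈ X, ∀ y ∈ X, (B₁) x y = 0)) : ¬ (∃ X : Submodule F (TensorProduct F U W), Module.finrank F X = k * (2 * l + 1) ∧ ∀ x ∈ X, ∀ y ∈ X, (B₁.tmul B₂) x y = 0) := by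
  rintro ⟨X, hX, hiso⟩
  apply hm₁
  let b₁ : Module.Basis (Fin (2 * k)) F U := Module.finBasisOfFinrankEq F U hU
  let b₂ : Module.Basis (Fin (2 * l + 1)) F W := Module.finBasisOfFinrankEq F W hW
  have hd₁ : (LinearMap.BilinForm.toMatrix b₁ B₁).det ≠ 0 :=
    (LinearMap.BilinForm.nondegenerate_iff_det_ne_zero b₁).1 h₁
  have hd₂ : (LinearMap.BilinForm.toMatrix b₂ B₂).det ≠ 0 :=
    (LinearMap.BilinForm.nondegenerate_iff_det_ne_zero b₂).1 h₂
  have hS : LinearMap.BilinForm.IsSymm (B₁.tmul B₂) :=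
    LinearMap.BilinForm.isSymm_iff.2 (LinearMap.IsSymm.tmul (LinearMap.BilinForm.isSymm_iff.1 hS₁)
      (LinearMap.BilinForm.isSymm_iff.1 hS₂))
  have hfr : Module.finrank F (TensorProduct F U W) = 2 * (k * (2 * l + 1)) := by
    rw [Module.finrank_tensorProduct, hU, hW, mul_assoc]
  obtain ⟨s, hs⟩ := Cfsg.Agent.ClassicalGeometry.Discriminant.det_of_isotropic_half (B₁.tmul B₂) hS
    (k * (2 * l + 1)) hfr (b₁.tensorProduct b₂) X hX hiso
  rw [Cfsg.Agent.ClassicalGeometry.Discriminant.det_tmul, Fintype.card_fin, Fintype.card_fin] at hs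
  refine Cfsg.Agent.ClassicalGeometry.Discriminant.exists_isotropic_half_of_det h2 B₁ hS₁ h₁ k hU b₁
    (s / ((LinearMap.BilinForm.toMatrix b₁ B₁).det ^ l * (LinearMap.BilinForm.toMatrix b₂ B₂).det ^ k)) ?_
  have hsign : ((-1 : F)) ^ (k * (2 * l + 1)) = (-1) ^ k := by
    rw [show k * (2 * l + 1) = k + 2 * (k * l) by ring, pow_add, pow_mul (-1 : F) 2]
    simp
  rw [hsign] at hs
  rw [div_pow, mul_div_assoc', ← hs]
  field_simp
  ring

end Cfsg.Agent.S0835
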