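import Cfsg.Statements.S0839
import Cfsg.Agent.ClassicalGeometry.RankOne
set_option linter.all false

set_option autoImplicit false
open Cfsg

namespace Cfsg.Agent.S0839

/-- Every transvection t ∈ SL_(n+2)(F) (rank(t − 1) = 1, (t − 1)² = 0) is conjugate in SL_(n+2)(F) to 1 + v·e_0ᵀ for some column vector v with v_0 = 0 (the group A of matrices that are the identity except in the first column below the diagonal); the dimension is written n + 2 ≥ 2. -/
theorem result {F : Type*} [Field F] (n : ℕ) (t : Matrix.SpecialLinearGroup (Fin (n + 2)) F) (ht : Cfsg.IsTransvection (t : Matrix (Fin (n + 2)) (Fin (n + 2)) F)) : ∃ (g : Matrix.SpecialLinearGroup (Fin (n + 2)) F) (v : Fin (n + 2) → F), v 0 = 0 ∧ ((g⁻¹ * t * g : Matrix.SpecialLinearGroup (Fin (n + 2)) F) : Matrix (Fin (n + 2)) (Fin (n + 2)) F) = 1 + Matrix.vecMulVec v (Pi.single 0 1) := by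
  obtain ⟨hr, hsq⟩ := ht
  obtain ⟨a, b, ha, hb, hab⟩ :=
    Cfsg.Agent.ClassicalGeometry.RankOne.exists_vecMulVec_of_rank_eq_one _ hr
  have hba : b ⬝ᵥ a = 0 := by
    rw [hab, Matrix.vecMulVec_mul_vecMulVec] at hsq
    obtain ⟨i, hi⟩ := Function.ne_iff.1 ha
    obtain ⟨j, hj⟩ := Function.ne_iff.1 hb
    have h1 := congrFun (congrFun hsq i) j
    simp only [Matrix.vecMulVec_apply, Matrix.zero_apply, Pi.smul_apply, smul_eq_mul] at h1
    rcases mul_eq_zero.1 h1 with h | h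
    · exact absurd h hi
    · rcases mul_eq_zero.1 h with h | h
      · exact h
      · exact absurd h hj
  obtain ⟨h, c, hc, hh⟩ :=
    Cfsg.Agent.ClassicalGeometry.RankOne.exists_sl_row (0 : Fin (n + 2)) b hb
  have hbh : b = Matrix.vecMul (c⁻¹ • (Pi.single 0 1 : Fin (n + 2) → F)) (h : Matrix (Fin (n + 2)) (Fin (n + 2)) F) := by
    ext j
    rw [Matrix.smul_vecMul, Matrix.single_one_vecMul, Pi.smul_apply, smul_eq_mul]
    show b j = c⁻¹ * (h : Matrix (Fin (n + 2)) (Fin (n + 2)) F) 0 j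
    rw [hh j, inv_mul_cancel_left₀ hc]
  have ht' : (t : Matrix (Fin (n + 2)) (Fin (n + 2)) F) = 1 + Matrix.vecMulVec a b := by
    rw [← hab]; abel
  have hinv : (h : Matrix (Fin (n + 2)) (Fin (n + 2)) F) * ((h⁻¹ : Matrix.SpecialLinearGroup (Fin (n + 2)) F) : Matrix (Fin (n + 2)) (Fin (n + 2)) F) = 1 := by
    rw [← Matrix.SpecialLinearGroup.coe_mul, mul_inv_cancel, Matrix.SpecialLinearGroup.coe_one]
  refine ⟨h⁻¹, c⁻¹ • Matrix.mulVec (h : Matrix (Fin (n + 2)) (Fin (n + 2)) F) a, ?_, ?_⟩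
  · have h1 : Matrix.mulVec (h : Matrix (Fin (n + 2)) (Fin (n + 2)) F) a 0 = 0 := by
      have : Matrix.mulVec (h : Matrix (Fin (n + 2)) (Fin (n + 2)) F) a 0 = c * (b ⬝ᵥ a) := by
        show (fun j => (h : Matrix (Fin (n + 2)) (Fin (n + 2)) F) 0 j) ⬝ᵥ a = _
        simp only [dotProduct, Finset.mul_sum, hh, mul_assoc]
      rw [this, hba, mul_zero]
    rw [Pi.smul_apply, h1, smul_zero]
  · rw [inv_inv, Matrix.SpecialLinearGroup.coe_mul, Matrix.SpecialLinearGroup.coe_mul, ht', mul_add, mul_one,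
      add_mul, hinv]
    congr 1
    rw [Matrix.mul_vecMulVec, Matrix.vecMulVec_mul]
    have h2 : Matrix.vecMul b ((h⁻¹ : Matrix.SpecialLinearGroup (Fin (n + 2)) F) : Matrix (Fin (n + 2)) (Fin (n + 2)) F) = c⁻¹ • (Pi.single 0 1 : Fin (n + 2) → F) := by
      rw [hbh, Matrix.vecMul_vecMul, hinv, Matrix.vecMul_one]
    rw [h2]
    ext i j
    simp [Matrix.vecMulVec_apply]
    ring

end Cfsg.Agent.S0839
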