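import Cfsg.Statements.S0841
import Mathlib
set_option linter.all false

set_option autoImplicit false
open Cfsg

namespace Cfsg.Agent.S0841

open scoped commutatorElement in
theorem comm_mem {G : Type*} [Group G] (x y : G) : y⁻¹ * x⁻¹ * y * x ∈ commutator G := by
  have h : y⁻¹ * x⁻¹ * y * x = ⁅y⁻¹, x⁻¹⁆ := by rw [commutatorElement_def, inv_inv, inv_inv]
  rw [h]
  exact Subgroup.commutator_mem_commutator (Subgroup.mem_top _) (Subgroup.mem_top _)

theorem pow_mul_eq {G : Type*} [Group G] (x y : G)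
    (hc : ∀ g : G, g * (y⁻¹ * x⁻¹ * y * x) = (y⁻¹ * x⁻¹ * y * x) * g) (n : ℕ) :
    y ^ n * x = x * y ^ n * (y⁻¹ * x⁻¹ * y * x) ^ n := by
  have h1 : y * x = x * y * (y⁻¹ * x⁻¹ * y * x) := by group
  generalize y⁻¹ * x⁻¹ * y * x = c at *
  induction n with
  | zero => simp
  | succ n ih =>
    have hcn : ∀ g : G, g * c ^ n = c ^ n * g := fun g => (Commute.pow_right (hc g) n : Commute g (c ^ n))
    calc y ^ (n + 1) * x = y ^ n * (y * x) := by rw [pow_succ, mul_assoc]
      _ = y ^ n * x * y * c := by rw [h1]; simp only [mul_assoc]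
      _ = x * y ^ n * (c ^ n * y) * c := by rw [ih]; simp only [mul_assoc]
      _ = x * y ^ (n + 1) * c ^ (n + 1) := by
        rw [← hcn, pow_succ y, pow_succ c]; simp only [mul_assoc]

/-- If the commutator subgroup of G lies in the centre, then for all x, y in G and every natural number n one has (x * y) ^ n = x ^ n * y ^ n * c ^ (n * (n - 1) / 2) with c = y⁻¹ * x⁻¹ * y * x. -/
theorem result {G : Type*} [Group G] (hG : commutator G ≤ Subgroup.center G) (x y : G) (n : ℕ) : (x * y) ^ n = x ^ n * y ^ n * (y⁻¹ * x⁻¹ * y * x) ^ (n * (n - 1) / 2) := by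
  have hc : ∀ g : G, g * (y⁻¹ * x⁻¹ * y * x) = (y⁻¹ * x⁻¹ * y * x) * g :=
    Subgroup.mem_center_iff.mp (hG (comm_mem x y))
  have key := pow_mul_eq x y hc
  generalize y⁻¹ * x⁻¹ * y * x = c at *
  induction n with
  | zero => simp
  | succ n ih =>
    have hcm : ∀ (m : ℕ) (g : G), g * c ^ m = c ^ m * g := fun m g =>
      (Commute.pow_right (hc g) m : Commute g (c ^ m))
    have hn : (n + 1) * (n + 1 - 1) / 2 = n + n * (n - 1) / 2 := by
      rcases n with _ | n
      · rfl
      · simp only [Nat.add_sub_cancel]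
        rw [show (n + 1 + 1) * (n + 1) = (n + 1) * n + (n + 1) * 2 by ring,
          Nat.add_mul_div_right _ _ (by norm_num)]
        ring
    rw [hn]
    calc (x * y) ^ (n + 1) = (x * y) ^ n * (x * y) := pow_succ _ _
      _ = x ^ n * y ^ n * (c ^ (n * (n - 1) / 2) * x) * y := by rw [ih]; simp only [mul_assoc]
      _ = x ^ n * (y ^ n * x) * (c ^ (n * (n - 1) / 2) * y) := by
        rw [← hcm]; simp only [mul_assoc]
      _ = x ^ n * x * y ^ n * (c ^ n * y) * c ^ (n * (n - 1) / 2) := by
        rw [key, ← hcm _ y]; simp only [mul_assoc]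
      _ = x ^ (n + 1) * y ^ (n + 1) * c ^ (n + n * (n - 1) / 2) := by
        rw [← hcm, pow_succ x, pow_succ y, pow_add c]; simp only [mul_assoc]

end Cfsg.Agent.S0841
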