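import Cfsg.Statements.S0843
import Cfsg.Agent.CharactersDeep.QuatSylow
set_option linter.all false

set_option autoImplicit false
open Cfsg

namespace Cfsg.Agent.S0843

/-- Suppose a Sylow 2-subgroup S of the finite group G is generalized quaternion of order at least 16; let D be the commutator subgroup of S and X the set of elements of the centralizer of D whose order is divisible by the order of D. Then D is contained in the cyclic subgroup generated by any element of X; an element of G conjugating some element of X into the centralizer of D normalizes D; and the normalizer of D maps X to itself under conjugation. -/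
theorem result {G : Type*} [Group G] [Finite G] (S : Sylow 2 G) (n : ℕ) (e : (S : Subgroup G) ≃* QuaternionGroup (2 ^ (n + 2))) (D : Subgroup G) (hD : D = ⁅(S : Subgroup G), (S : Subgroup G)⁆) : (∀ y : G, y ∈ Subgroup.centralizer (D : Set G) → Nat.card D ∣ orderOf y → D ≤ Subgroup.zpowers y) ∧ (∀ g y : G, y ∈ Subgroup.centralizer (D : Set G) → Nat.card D ∣ orderOf y → g * y * g⁻¹ ∈ Subgroup.centralizer (D : Set G) → g ∈ Subgroup.normalizer (D : Set G)) ∧ (∀ g y : G, g ∈ Subgroup.normalizer (D : Set G) → y ∈ Subgroup.centralizer (D : Set G) → Nat.card D ∣ orderOf y → g * y * g⁻¹ ∈ Subgroup.centralizer (D : Set G) ∧ Nat.card D ∣ orderOf (g * y * g⁻¹)) := by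
  have h1 := Cfsg.Agent.CharactersDeep.QuatSylow.derived_le_zpowers S n e D hD
  have ho : ∀ g y : G, orderOf (g * y * g⁻¹) = orderOf y := by
    intro g y
    have := MulEquiv.orderOf_eq (MulAut.conj g) y
    rwa [MulAut.conj_apply] at this
  refine ⟨h1, ?_, ?_⟩
  · intro g y hy hd hgy
    have h2 : D ≤ Subgroup.zpowers (g * y * g⁻¹) := h1 _ hgy (by rw [ho]; exact hd)
    have h3 : D.map (MulAut.conj g).toMonoidHom ≤ Subgroup.zpowers (g * y * g⁻¹) := by
      have := Subgroup.map_mono (f := (MulAut.conj g).toMonoidHom) (h1 y hy hd)
      rwa [MonoidHom.map_zpowers] at this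
    have hcard : Nat.card (D.map (MulAut.conj g).toMonoidHom) = Nat.card D :=
      Subgroup.card_map_of_injective (MulAut.conj g).injective
    have h4 : D.map (MulAut.conj g).toMonoidHom = D := by
      apply le_antisymm
      · exact Cfsg.Agent.CharactersDeep.QuatSylow.le_of_card_dvd_of_le_cyclic
          (W := Subgroup.zpowers (g * y * g⁻¹)) inferInstance h3 h2 (by rw [hcard])
      · exact Cfsg.Agent.CharactersDeep.QuatSylow.le_of_card_dvd_of_le_cyclic
          (W := Subgroup.zpowers (g * y * g⁻¹)) inferInstance h2 h3 (by rw [hcard])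
    rw [Subgroup.mem_normalizer_iff]
    intro x
    constructor
    · intro hx
      have : (MulAut.conj g).toMonoidHom x ∈ D.map (MulAut.conj g).toMonoidHom :=
        Subgroup.mem_map_of_mem _ hx
      rw [h4] at this
      exact this
    · intro hx
      rw [← h4] at hx
      obtain ⟨z, hz, hzx⟩ := hx
      have : z = x := (MulAut.conj g).injective hzx
      rwa [← this]
  · intro g y hg hy hd
    exact ⟨Cfsg.Agent.CharactersDeep.QuatSylow.conj_mem_centralizer hg hy, by rw [ho]; exact hd⟩

end Cfsg.Agent.S0843
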