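import Cfsg.Statements.S0849
import Mathlib
set_option linter.all false

set_option autoImplicit false
open Cfsg

namespace Cfsg.Agent.S0849

/-- If a product of two involutions lies in a set which is inverse-closed and
only normalised (even in the weak sense) by elements of `H`, both involutions lie in `H`. -/
theorem mem_of_mul_mem {G : Type*} [Group G] (H : Subgroup G) (S : Set G) (hSH : S ⊆ H)
    (hTI : ∀ g : G, g ∉ H → ∀ s ∈ S, g * s * g⁻¹ ∉ S) (hinv : ∀ s ∈ S, s⁻¹ ∈ S) (a b : G)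
    (ha : a * a = 1) (hb : b * b = 1) (hab : a * b ∈ S) : a ∈ H ∧ b ∈ H := by
  have ha' : a⁻¹ = a := inv_eq_of_mul_eq_one_left ha
  have hb' : b⁻¹ = b := inv_eq_of_mul_eq_one_left hb
  have haH : a ∈ H := by
    by_contra h
    apply hTI a h (a * b) hab
    have : a * (a * b) * a⁻¹ = (a * b)⁻¹ := by
      rw [ha', mul_inv_rev, ha', hb', ← mul_assoc, ha, one_mul]
    rw [this]
    exact hinv _ hab
  refine ⟨haH, ?_⟩
  have := H.mul_mem (H.inv_mem haH) (hSH hab)
  simpa using this

theorem indFun_sum {G : Type*} [Group G] [Fintype G] (H : Subgroup G) (φ : H → ℂ)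
    (A : Finset (G × G)) (hA : ∀ x : G, ∀ p : G × G, p ∈ A →
      (x * p.1 * x⁻¹, x * p.2 * x⁻¹) ∈ A) :
    ∑ p ∈ A, Cfsg.indFun H φ (p.1 * p.2) =
      (H.index : ℂ) * ∑ p ∈ A, Cfsg.extendByZero H φ (p.1 * p.2) := by
  have hH : (Nat.card H : ℂ) ≠ 0 := by
    exact_mod_cast Nat.card_pos.ne'
  have key : ∀ x : G, ∑ p ∈ A, Cfsg.extendByZero H φ (x⁻¹ * (p.1 * p.2) * x) =
      ∑ p ∈ A, Cfsg.extendByZero H φ (p.1 * p.2) := by
    intro x
    refine Finset.sum_nbij' (fun p => (x⁻¹ * p.1 * x, x⁻¹ * p.2 * x))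
      (fun p => (x * p.1 * x⁻¹, x * p.2 * x⁻¹)) ?_ ?_ ?_ ?_ ?_
    · intro p hp
      simpa using hA x⁻¹ p hp
    · intro p hp
      exact hA x p hp
    · intro p _
      ext <;> simp [mul_assoc]
    · intro p _
      ext <;> simp [mul_assoc]
    · intro p _
      simp [mul_assoc]
  have hcard : (Nat.card G : ℂ) = (Nat.card H : ℂ) * H.index := by
    exact_mod_cast (Subgroup.card_mul_index H).symm
  calc ∑ p ∈ A, Cfsg.indFun H φ (p.1 * p.2)
      = ∑ p ∈ A, (Nat.card H : ℂ)⁻¹ * ∑ x : G, Cfsg.extendByZero H φ (x⁻¹ * (p.1 * p.2) * x) := rfl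
    _ = (Nat.card H : ℂ)⁻¹ * ∑ x : G, ∑ p ∈ A, Cfsg.extendByZero H φ (x⁻¹ * (p.1 * p.2) * x) := by
        rw [← Finset.mul_sum, Finset.sum_comm]
    _ = (Nat.card H : ℂ)⁻¹ * (Nat.card G * ∑ p ∈ A, Cfsg.extendByZero H φ (p.1 * p.2)) := by
        rw [Finset.sum_congr rfl (fun x _ => key x), Finset.sum_const, Finset.card_univ,
          nsmul_eq_mul, Nat.card_eq_fintype_card (α := G)]
    _ = _ := by
        rw [hcard]
        field_simp

/-- Let H be a subgroup of a finite group G and S a subset of H that is mapped to itself under conjugation by H, is disjoint from its conjugate by any element outside H, and is closed under inverses. Let φ be a class function of H vanishing on H away from S, and let u, v be involutions of G. Then the sum of the induced function of φ over all products a * b with a conjugate to u and b conjugate to v equals the index of H times the sum of φ (a * b) over such pairs with a and b in H. -/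
theorem result {G : Type*} [Group G] [Fintype G] (H : Subgroup G) (S : Set G) (hSH : S ⊆ H) (hHS : ∀ h ∈ H, ∀ s ∈ S, h * s * h⁻¹ ∈ S) (hTI : ∀ g : G, g ∉ H → ∀ s ∈ S, g * s * g⁻¹ ∉ S) (hinv : ∀ s ∈ S, s⁻¹ ∈ S) (φ : H → ℂ) (hφ : Cfsg.IsClassFunction H φ) (hφS : ∀ x : H, (x : G) ∉ S → φ x = 0) (u v : G) (hu : orderOf u = 2) (hv : orderOf v = 2) : ∑ᶠ p ∈ {p : G × G | IsConj u p.1 ∧ IsConj v p.2}, Cfsg.indFun H φ (p.1 * p.2) = (H.index : ℂ) * ∑ᶠ p ∈ {p : H × H | IsConj u (p.1 : G) ∧ IsConj v (p.2 : G)}, φ (p.1 * p.2) := by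
  classical
  have sq : ∀ w a : G, orderOf w = 2 → IsConj w a → a * a = 1 := by
    intro w a hw h
    obtain ⟨c, hc⟩ := isConj_iff.mp h
    have hw2 : w * w = 1 := by rw [← pow_two, ← hw, pow_orderOf_eq_one]
    rw [← hc]
    calc c * w * c⁻¹ * (c * w * c⁻¹) = c * (w * w) * c⁻¹ := by group
      _ = 1 := by rw [hw2]; group
  have hconj : ∀ w a x : G, IsConj w a → IsConj w (x * a * x⁻¹) := by
    intro w a x h
    exact h.trans (isConj_iff.mpr ⟨x, rfl⟩)
  set A : Finset (G × G) := Finset.univ.filter (fun p => IsConj u p.1 ∧ IsConj v p.2) with hA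
  set B : Finset (H × H) :=
    Finset.univ.filter (fun p => IsConj u (p.1 : G) ∧ IsConj v (p.2 : G)) with hB
  have h1 : ∑ᶠ p ∈ {p : G × G | IsConj u p.1 ∧ IsConj v p.2}, Cfsg.indFun H φ (p.1 * p.2) =
      ∑ p ∈ A, Cfsg.indFun H φ (p.1 * p.2) := by
    rw [← finsum_mem_coe_finset]
    have : {p : G × G | IsConj u p.1 ∧ IsConj v p.2} = (A : Set (G × G)) := by
      ext p; simp [hA]
    rw [this]
  have h2 : ∑ᶠ p ∈ {p : H × H | IsConj u (p.1 : G) ∧ IsConj v (p.2 : G)}, φ (p.1 * p.2) =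
      ∑ p ∈ B, φ (p.1 * p.2) := by
    rw [← finsum_mem_coe_finset]
    have : {p : H × H | IsConj u (p.1 : G) ∧ IsConj v (p.2 : G)} = (B : Set (H × H)) := by
      ext p; simp [hB]
    rw [this]
  rw [h1, h2, indFun_sum H φ A]
  · congr 1
    symm
    refine Finset.sum_of_injOn (fun p => ((p.1 : G), (p.2 : G))) ?_ ?_ ?_ ?_
    · intro p _ q _ h
      simp only [Prod.mk.injEq, SetLike.coe_eq_coe] at h
      exact Prod.ext h.1 h.2
    · intro p hp
      simpa [hA, hB] using hp
    · intro p hp hp'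
      by_contra hne
      have hpH : p.1 * p.2 ∈ H := by
        by_contra hn
        apply hne
        unfold Cfsg.extendByZero
        rw [Function.extend_apply']
        · rfl
        · rintro ⟨a, ha⟩
          exact hn (ha ▸ a.2)
      have hval : Cfsg.extendByZero H φ (p.1 * p.2) = φ ⟨p.1 * p.2, hpH⟩ := by
        unfold Cfsg.extendByZero
        exact Function.Injective.extend_apply Subtype.val_injective φ 0 ⟨p.1 * p.2, hpH⟩
      have hS : p.1 * p.2 ∈ S := by
        by_contra hn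
        exact hne (hval.trans (hφS _ hn))
      have hpA : IsConj u p.1 ∧ IsConj v p.2 := by simpa [hA] using hp
      obtain ⟨ha, hb⟩ := mem_of_mul_mem H S hSH hTI hinv p.1 p.2 (sq u p.1 hu hpA.1)
        (sq v p.2 hv hpA.2) hS
      apply hp'
      refine ⟨(⟨p.1, ha⟩, ⟨p.2, hb⟩), ?_, rfl⟩
      rw [hB, Finset.coe_filter]
      exact ⟨Finset.mem_univ _, hpA⟩
    · intro p _
      unfold Cfsg.extendByZero
      exact (Function.Injective.extend_apply Subtype.val_injective φ 0 (p.1 * p.2)).symm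
  · intro x p hp
    simp only [hA, Finset.mem_filter, Finset.mem_univ, true_and] at hp ⊢
    exact ⟨hconj u p.1 x hp.1, hconj v p.2 x hp.2⟩

end Cfsg.Agent.S0849
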