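import Mathlib
import Cfsg.Statements.S0855
import Cfsg.Agent.CharDeep.PowerDegrees
import Cfsg.Agent.Lib.NormalHall
import Cfsg.Agent.S0135
import Cfsg.Agent.S0169
set_option linter.all false

set_option autoImplicit false
open Cfsg

namespace Cfsg.Agent.S0855

open Cfsg.Agent.Characters.Core Cfsg.Agent.CharDeep.PowerDegrees

universe u

/-- All degrees powers of `p`: there is an abelian normal `p`-complement (strong induction on the
order). -/
theorem exists_complement (p : ℕ) (hp : p.Prime) : ∀ (n : ℕ) (G : Type u) [Group G] [Finite G],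
    Nat.card G = n → (∀ χ : Cfsg.IrrCharacter G, ∃ k : ℕ, (χ : G → ℂ) 1 = (p : ℂ) ^ k) →
    ∃ A : Subgroup G, A.Normal ∧ (∀ a ∈ A, ∀ b ∈ A, a * b = b * a) ∧
      Nat.Coprime (Nat.card A) p ∧ ∃ k : ℕ, A.index = p ^ k := by
  intro n
  induction n using Nat.strong_induction_on with
  | _ n ih =>
  intro G _ _ hn h
  by_cases hpG : p ∣ Nat.card G
  · obtain ⟨N, hN, hNp⟩ := exists_normal_index_eq_prime hp (dvd_index_commutator hpG h)
    have hcardN : Nat.card N < n := by
      have h1 := N.card_mul_index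
      rw [hNp, hn] at h1
      have h2 : 0 < Nat.card N := Nat.card_pos
      rw [← h1]
      exact (Nat.lt_mul_iff_one_lt_right h2).2 hp.one_lt
    have hdeg : ∀ θ : Cfsg.IrrCharacter N, ∃ k : ℕ, (θ : N → ℂ) 1 = (p : ℂ) ^ k := by
      intro θ
      have := Fintype.ofFinite G
      have := Fintype.ofFinite N
      obtain ⟨χ, hχ, hne⟩ := exists_irr_over N θ.2
      obtain ⟨m, hm⟩ := degree_dvd N hχ θ.2 hne
      obtain ⟨k, hk⟩ := h ⟨χ, hχ⟩
      obtain ⟨d, -, hd⟩ := isIrr_apply_one θ.2
      have hk' : χ 1 = (p : ℂ) ^ k := hk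
      rw [hk', hd] at hm
      have hm' : p ^ k = m * d := by exact_mod_cast hm
      have hdd : d ∣ p ^ k := ⟨m, by rw [hm', mul_comm]⟩
      obtain ⟨j, -, hj⟩ := (Nat.dvd_prime_pow hp).1 hdd
      exact ⟨j, by rw [hd, hj]; push_cast; rfl⟩
    obtain ⟨B, hB, hBcomm, hBcop, j, hj⟩ := ih _ hcardN N rfl hdeg
    have hHall : (Nat.card B).Coprime B.index := by
      rw [hj]; exact Nat.Coprime.pow_right j hBcop
    refine ⟨B.map N.subtype, ?_, ?_, ?_, j + 1, ?_⟩
    · exact Cfsg.Agent.Lib.NormalHall.normal_map_subtype_of_coprime N B hHall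
    · rintro _ ⟨a, ha, rfl⟩ _ ⟨b, hb, rfl⟩
      rw [← map_mul, ← map_mul, hBcomm a ha b hb]
    · rw [Subgroup.card_map_of_injective N.subtype_injective]
      exact hBcop
    · have h1 := (B.map N.subtype).card_mul_index
      rw [Subgroup.card_map_of_injective N.subtype_injective] at h1
      have h2 := N.card_mul_index
      have h3 := B.card_mul_index
      rw [hNp] at h2
      rw [hj] at h3
      rw [← h2, ← h3, mul_assoc, ← pow_succ] at h1
      exact Nat.eq_of_mul_eq_mul_left Nat.card_pos h1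
  · have hlin : ∀ χ : Cfsg.IrrCharacter G, (χ : G → ℂ) 1 = 1 := by
      intro χ
      obtain ⟨k, hk⟩ := h χ
      obtain ⟨d, ρ, hρ, hχ⟩ := χ.2
      have hdvd := Cfsg.Agent.S0135.result ρ
      have hd : (χ : G → ℂ) 1 = (d : ℂ) := by
        rw [← hχ, Representation.char_one]; simp
      have hfr : Module.finrank ℂ (Fin d → ℂ) = d := by simp
      rw [hfr] at hdvd
      rw [hd] at hk ⊢
      have hk' : d = p ^ k := by exact_mod_cast hk
      have hk0 : k = 0 := by
        by_contra hk0
        exact hpG ((dvd_pow_self p hk0).trans (hk' ▸ hdvd))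
      rw [hk', hk0]; simp
    refine ⟨⊤, inferInstance, fun a _ b _ => comm_of_forall_linear hlin a b, ?_, 0, ?_⟩
    · rw [Subgroup.card_top]
      exact ((Nat.Prime.coprime_iff_not_dvd hp).2 hpG).symm
    · rw [Subgroup.index_top, pow_zero]

/-- For a finite group G and a prime p: every irreducible character of G has degree a power of p if and only if G has an abelian normal subgroup whose order is prime to p and whose index is a power of p. -/
theorem result {G : Type*} [Group G] [Finite G] (p : ℕ) (hp : p.Prime) : (∀ χ : Cfsg.IrrCharacter G, ∃ k : ℕ, (χ : G → ℂ) 1 = (p : ℂ) ^ k) ↔ ∃ A : Subgroup G, A.Normal ∧ (∀ a ∈ A, ∀ b ∈ A, a * b = b * a) ∧ Nat.Coprime (Nat.card A) p ∧ ∃ k : ℕ, A.index = p ^ k := by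
  constructor
  · exact exists_complement p hp _ G rfl
  · rintro ⟨A, hA, hcomm, -, k, hk⟩ χ
    obtain ⟨d, ρ, hρ, hχ⟩ := χ.2
    have hdvd := Cfsg.Agent.S0169.result ρ A hcomm
    have hd : (χ : G → ℂ) 1 = (d : ℂ) := by
      rw [← hχ, Representation.char_one]; simp
    have hfr : Module.finrank ℂ (Fin d → ℂ) = d := by simp
    rw [hfr, hk] at hdvd
    obtain ⟨j, -, hj⟩ := (Nat.dvd_prime_pow hp).1 hdvd
    exact ⟨j, by rw [hd, hj]; push_cast; rfl⟩

end Cfsg.Agent.S0855
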