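import Cfsg.Statements.S0869
import Mathlib
set_option linter.all false

set_option autoImplicit false
open Cfsg

namespace Cfsg.Agent.S0869

/-- Let S be a nonempty finite type and R an additive subgroup of the integer-valued functions on S that is closed under pointwise multiplication. If the constant function 1 is not in R, then there exist a point x of S and a prime p such that p divides f x for every f in R. -/
theorem result {S : Type*} [Finite S] [Nonempty S] (R : AddSubgroup (S → ℤ)) (hmul : ∀ f ∈ R, ∀ g ∈ R, f * g ∈ R) (h1 : (1 : S → ℤ) ∉ R) : ∃ (x : S) (p : ℕ), p.Prime ∧ ∀ f ∈ R, (p : ℤ) ∣ f x := by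
  classical
  cases nonempty_fintype S
  by_contra hcon
  push Not at hcon
  -- for each x there is f in R with f x = 1
  have key : ∀ x : S, ∃ f ∈ R, f x = 1 := by
    intro x
    let ev : (S → ℤ) →+ ℤ := Pi.evalAddMonoidHom (fun _ : S => ℤ) x
    obtain ⟨d, hd⟩ := Int.subgroup_cyclic (R.map ev)
    have hd' : ∀ f ∈ R, d ∣ f x := by
      intro f hf
      have : f x ∈ R.map ev := ⟨f, hf, rfl⟩
      rw [hd, AddSubgroup.mem_closure_singleton] at this
      obtain ⟨k, hk⟩ := this
      exact ⟨k, by rw [← hk]; simp [mul_comm]⟩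
    have hunit : d.natAbs = 1 := by
      by_contra hne
      obtain ⟨p, hp, hpd⟩ := Nat.exists_prime_and_dvd hne
      obtain ⟨f, hf, hfx⟩ := hcon x p hp
      exact hfx ((Int.natCast_dvd.mpr hpd).trans (hd' f hf))
    have h1mem : (1 : ℤ) ∈ R.map ev := by
      rw [hd, AddSubgroup.mem_closure_singleton]
      rcases Int.natAbs_eq_natAbs_iff.mp (show d.natAbs = (1 : ℤ).natAbs by simpa using hunit) with h | h
      · exact ⟨1, by simp [h]⟩
      · exact ⟨-1, by simp [h]⟩
    obtain ⟨f, hf, hfx⟩ := h1mem
    exact ⟨f, hf, hfx⟩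
  have main : ∀ s : Finset S, ∃ f ∈ R, ∀ x ∈ s, f x = 1 := by
    intro s
    induction s using Finset.induction_on with
    | empty => exact ⟨0, R.zero_mem, by simp⟩
    | insert a s _ ih =>
      obtain ⟨f, hf, hfs⟩ := ih
      obtain ⟨g, hg, hga⟩ := key a
      refine ⟨f + g - f * g, R.sub_mem (R.add_mem hf hg) (hmul f hf g hg), ?_⟩
      intro x hx
      rcases Finset.mem_insert.mp hx with rfl | hx
      · simp [hga]
      · simp [hfs x hx]
  obtain ⟨f, hf, hfs⟩ := main Finset.univ
  exact h1 (by
    have : f = 1 := funext fun x => hfs x (Finset.mem_univ x)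
    rw [← this]; exact hf)

end Cfsg.Agent.S0869
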