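import Cfsg.Statements.S0870
import Mathlib
set_option linter.all false

set_option autoImplicit false
open Cfsg

namespace Cfsg.Agent.S0870

open scoped Classical in
/-- the value of the extension by zero of the constant function one -/
theorem ext_one {G : Type*} [Group G] (H : Subgroup G) (g : G) :
    Cfsg.extendByZero H (fun _ => 1) g = if g ∈ H then 1 else 0 := by
  unfold Cfsg.extendByZero
  split_ifs with h
  · exact Subtype.val_injective.extend_apply (fun _ : H => (1 : ℂ)) (0 : G → ℂ) ⟨g, h⟩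
  · rw [Function.extend_apply']
    · rfl
    · rintro ⟨a, rfl⟩
      exact h a.2

open scoped Classical in
theorem ind_one {G : Type*} [Group G] [Fintype G] (H : Subgroup G) (g : G) :
    Cfsg.indFun H (fun _ => 1) g = (Nat.card H : ℂ)⁻¹ * ∑ x : G, if x⁻¹ * g * x ∈ H then 1 else 0 := by
  unfold Cfsg.indFun
  simp only [ext_one]

/-- conjugation invariance of the permutation character -/
theorem ind_one_conj {G : Type*} [Group G] [Fintype G] (H H' : Subgroup G) (c : G)
    (h : ∀ x, x ∈ H' ↔ c * x * c⁻¹ ∈ H) :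
    Cfsg.indFun H' (fun _ => 1) = Cfsg.indFun H (fun _ => 1) := by
  classical
  funext g
  rw [ind_one, ind_one]
  have hc : Nat.card H' = Nat.card H := by
    refine Nat.card_congr ((MulAut.conj c).toEquiv.subtypeEquiv ?_)
    intro a
    simp [h a]
  rw [hc]
  congr 1
  refine Fintype.sum_equiv (Equiv.mulRight c⁻¹) _ _ ?_
  intro x
  have : (x * c⁻¹)⁻¹ * g * (x * c⁻¹) = c * (x⁻¹ * g * x) * c⁻¹ := by group
  simp only [Equiv.coe_mulRight, this, h]

open scoped Classical in
/-- the permutation character counts fixed points on cosets -/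
theorem ind_one_fixed {G : Type*} [Group G] [Fintype G] (K : Subgroup G) (g : G) :
    Cfsg.indFun K (fun _ => 1) g = ∑ y : G ⧸ K, if g • y = y then 1 else 0 := by
  rw [ind_one]
  have h1 : ∀ x : G, x⁻¹ * g * x ∈ K ↔ g • (x : G ⧸ K) = (x : G ⧸ K) := by
    intro x
    rw [eq_comm]
    change _ ↔ (x : G ⧸ K) = ((g * x : G) : G ⧸ K)
    rw [QuotientGroup.eq, mul_assoc]
  simp only [h1]
  have h2 : ∑ x : G, (if g • (x : G ⧸ K) = (x : G ⧸ K) then (1 : ℂ) else 0)
      = ∑ y : G ⧸ K, ∑ x ∈ Finset.univ.filter (fun x : G => (x : G ⧸ K) = y), (if g • (x : G ⧸ K) = (x : G ⧸ K) then (1 : ℂ) else 0) := by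
    rw [Finset.sum_fiberwise_of_maps_to (g := fun x : G => (x : G ⧸ K)) (fun _ _ => Finset.mem_univ _)]
  rw [h2, Finset.mul_sum]
  refine Finset.sum_congr rfl fun y _ => ?_
  have h3 : ∑ x ∈ Finset.univ.filter (fun x : G => (x : G ⧸ K) = y), (if g • (x : G ⧸ K) = (x : G ⧸ K) then (1 : ℂ) else 0)
      = (Nat.card K : ℂ) * (if g • y = y then 1 else 0) := by
    have : ∀ x ∈ Finset.univ.filter (fun x : G => (x : G ⧸ K) = y), (if g • (x : G ⧸ K) = (x : G ⧸ K) then (1 : ℂ) else 0) = (if g • y = y then 1 else 0) := by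
      intro x hx
      rw [(Finset.mem_filter.mp hx).2]
    rw [Finset.sum_congr rfl this, Finset.sum_const, nsmul_eq_mul]
    congr 2
    obtain ⟨z, rfl⟩ := QuotientGroup.mk_surjective y
    rw [Nat.card_eq_fintype_card, ← Fintype.card_subtype]
    refine Fintype.card_congr ?_
    refine (Equiv.subtypeEquiv (Equiv.mulLeft z⁻¹) ?_)
    intro a
    rw [eq_comm, QuotientGroup.eq]
    rfl
  rw [h3, ← mul_assoc, inv_mul_cancel₀, one_mul]
  exact_mod_cast Nat.card_pos.ne'

/-- For subgroups H and K of a finite group G, the pointwise product of the functions induced from the constant function 1 on H and on K is a sum, over subgroups U of H with natural-number coefficients, of the functions induced from the constant function 1 on U. -/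
theorem result {G : Type*} [Group G] [Fintype G] (H K : Subgroup G) : ∃ a : Subgroup G → ℕ, (∀ U, a U ≠ 0 → U ≤ H) ∧ Cfsg.indFun H (fun _ => 1) * Cfsg.indFun K (fun _ => 1) = ∑ U : Subgroup G, (a U : ℂ) • Cfsg.indFun U (fun _ => 1) := by
  classical
  -- stabilizers in H of the cosets of K
  let U : G ⧸ K → Subgroup G := fun y => H ⊓ MulAction.stabilizer G y
  let Ω := MulAction.orbitRel.Quotient H (G ⧸ K)
  let r : Ω → G ⧸ K := fun ω => Quotient.out ω
  refine ⟨fun V => (Finset.univ.filter (fun ω : Ω => U (r ω) = V)).card, ?_, ?_⟩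
  · intro V hV
    obtain ⟨ω, hω⟩ := Finset.card_ne_zero.mp hV
    rw [← (Finset.mem_filter.mp hω).2]
    exact inf_le_left
  -- right hand side as a sum over orbits
  have hR : ∑ V : Subgroup G, (((Finset.univ.filter (fun ω : Ω => U (r ω) = V)).card : ℕ) : ℂ) • Cfsg.indFun V (fun _ => 1)
      = ∑ ω : Ω, Cfsg.indFun (U (r ω)) (fun _ => (1 : ℂ)) := by
    rw [← Finset.sum_fiberwise_of_maps_to (s := (Finset.univ : Finset Ω)) (t := Finset.univ) (g := fun ω => U (r ω)) (fun _ _ => Finset.mem_univ _)]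
    refine Finset.sum_congr rfl fun V _ => ?_
    have : ∀ ω ∈ Finset.univ.filter (fun ω : Ω => U (r ω) = V), Cfsg.indFun (U (r ω)) (fun _ => (1 : ℂ)) = Cfsg.indFun V (fun _ => (1 : ℂ)) := by
      intro ω hω
      rw [(Finset.mem_filter.mp hω).2]
    rw [Finset.sum_congr rfl this, Finset.sum_const, ← Nat.cast_smul_eq_nsmul ℂ]
  rw [hR]
  -- orbit sum as a weighted sum over all cosets
  have hconj : ∀ (h : H) (y : G ⧸ K), Cfsg.indFun (U (h • y)) (fun _ => (1 : ℂ)) = Cfsg.indFun (U y) (fun _ => (1 : ℂ)) := by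
    intro h y
    refine ind_one_conj _ _ ((h : G)⁻¹) ?_
    intro x
    simp only [U, Subgroup.mem_inf, MulAction.mem_stabilizer_iff]
    constructor
    · rintro ⟨h1, h2⟩
      refine ⟨H.mul_mem (H.mul_mem (H.inv_mem h.2) h1) (H.inv_mem (H.inv_mem h.2)), ?_⟩
      rw [inv_inv, mul_smul, mul_smul]
      change x • (h : G) • y = (h : G) • y at h2
      rw [h2, inv_smul_smul]
    · rintro ⟨h1, h2⟩
      constructor
      · have := H.mul_mem (H.mul_mem h.2 h1) (H.inv_mem h.2)
        simpa [mul_assoc] using this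
      · rw [inv_inv, mul_smul, mul_smul, inv_smul_eq_iff] at h2
        exact h2
  -- the number of elements in the orbit times the order of the stabilizer
  have horb : ∀ y : G ⧸ K, ((Finset.univ.filter (fun z : G ⧸ K => (Quotient.mk _ z : Ω) = Quotient.mk _ y)).card : ℂ) * (Nat.card (U y) : ℂ) = (Nat.card H : ℂ) := by
    intro y
    have e1 : (Finset.univ.filter (fun z : G ⧸ K => (Quotient.mk _ z : Ω) = Quotient.mk _ y)).card = Nat.card (MulAction.orbit H y) := by
      rw [← Fintype.card_subtype, Nat.card_eq_fintype_card]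
      refine Fintype.card_congr (Equiv.subtypeEquivRight ?_)
      intro z
      rw [Quotient.eq]
      exact MulAction.orbitRel_apply
    have e2 : Nat.card (U y) = Nat.card (MulAction.stabilizer H y) := by
      refine Nat.card_congr ⟨fun u => ⟨⟨u.1, u.2.1⟩, ?_⟩, fun u => ⟨u.1.1, u.1.2, u.2⟩, fun u => rfl, fun u => rfl⟩
      exact u.2.2
    rw [e1, e2]
    have := MulAction.card_orbit_mul_card_stabilizer_eq_card_group H y
    rw [Nat.card_eq_fintype_card, Nat.card_eq_fintype_card, Nat.card_eq_fintype_card]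
    exact_mod_cast this
  have hne : ∀ y : G ⧸ K, (Nat.card (U y) : ℂ) ≠ 0 := fun y => by exact_mod_cast Nat.card_pos.ne'
  have hHne : (Nat.card H : ℂ) ≠ 0 := by exact_mod_cast Nat.card_pos.ne'
  have hL : ∑ ω : Ω, Cfsg.indFun (U (r ω)) (fun _ => (1 : ℂ)) = ∑ y : G ⧸ K, ((Nat.card (U y) : ℂ) * (Nat.card H : ℂ)⁻¹) • Cfsg.indFun (U y) (fun _ => (1 : ℂ)) := by
    rw [← Finset.sum_fiberwise_of_maps_to (s := (Finset.univ : Finset (G ⧸ K))) (t := Finset.univ) (g := fun y => (Quotient.mk _ y : Ω)) (fun _ _ => Finset.mem_univ _)]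
    refine Finset.sum_congr rfl fun ω _ => ?_
    have hω : (Quotient.mk _ (r ω) : Ω) = ω := Quotient.out_eq ω
    have key : ∀ y ∈ Finset.univ.filter (fun y : G ⧸ K => (Quotient.mk _ y : Ω) = ω),
        ((Nat.card (U y) : ℂ) * (Nat.card H : ℂ)⁻¹) • Cfsg.indFun (U y) (fun _ => (1 : ℂ)) = ((Nat.card (U (r ω)) : ℂ) * (Nat.card H : ℂ)⁻¹) • Cfsg.indFun (U (r ω)) (fun _ => (1 : ℂ)) := by
      intro y hy
      have hy' := (Finset.mem_filter.mp hy).2
      have hmem : y ∈ MulAction.orbit H (r ω) := by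
        have : (Quotient.mk _ y : Ω) = Quotient.mk _ (r ω) := by rw [hy', hω]
        rw [Quotient.eq] at this
        exact MulAction.orbitRel_apply.mp this
      obtain ⟨h, rfl⟩ := hmem
      have hcard : (Nat.card (U (h • r ω)) : ℂ) = Nat.card (U (r ω)) := by
        have h1 := horb (h • r ω)
        have h2 := horb (r ω)
        have h3 : (Quotient.mk _ (h • r ω) : Ω) = Quotient.mk _ (r ω) := by rw [hy', hω]
        rw [h3, ← h2] at h1
        refine mul_left_cancel₀ ?_ h1
        intro h0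
        rw [h0, zero_mul] at h2
        exact hHne h2.symm
      show ((Nat.card (U (h • r ω)) : ℂ) * (Nat.card H : ℂ)⁻¹) • Cfsg.indFun (U (h • r ω)) (fun _ => (1 : ℂ)) = _
      rw [hconj h (r ω), hcard]
    rw [Finset.sum_congr rfl key, Finset.sum_const, ← Nat.cast_smul_eq_nsmul ℂ, smul_smul]
    have h2 := horb (r ω)
    rw [hω] at h2
    rw [← mul_assoc, h2, mul_inv_cancel₀ hHne, one_smul]
  rw [hL]
  funext g
  simp only [Pi.mul_apply, Finset.sum_apply, Pi.smul_apply, smul_eq_mul]
  simp only [ind_one]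
  have step : ∀ y : G ⧸ K, (Nat.card (U y) : ℂ) * (Nat.card H : ℂ)⁻¹ * ((Nat.card (U y) : ℂ)⁻¹ * ∑ x : G, if x⁻¹ * g * x ∈ U y then (1 : ℂ) else 0)
      = (Nat.card H : ℂ)⁻¹ * ∑ x : G, if x⁻¹ * g * x ∈ U y then (1 : ℂ) else 0 := by
    intro y
    have := hne y
    field_simp
  rw [Finset.sum_congr rfl fun y _ => step y, ← Finset.mul_sum, Finset.sum_comm, mul_assoc]
  congr 1
  rw [Finset.sum_mul]
  refine Finset.sum_congr rfl fun x _ => ?_
  have hg : (Nat.card K : ℂ)⁻¹ * ∑ x : G, (if x⁻¹ * g * x ∈ K then (1 : ℂ) else 0) = ∑ y : G ⧸ K, if (x⁻¹ * g * x) • y = y then 1 else 0 := by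
    rw [← ind_one_fixed, ind_one]
    congr 1
    refine Fintype.sum_equiv (Equiv.mulLeft x⁻¹) _ _ ?_
    intro z
    have : (x⁻¹ * z)⁻¹ * (x⁻¹ * g * x) * (x⁻¹ * z) = z⁻¹ * g * z := by group
    simp only [Equiv.coe_mulLeft, this]
  rw [hg]
  by_cases hx : x⁻¹ * g * x ∈ H
  · rw [if_pos hx, one_mul]
    refine Finset.sum_congr rfl fun y _ => ?_
    simp only [U, Subgroup.mem_inf, hx, true_and, MulAction.mem_stabilizer_iff]
  · rw [if_neg hx, zero_mul]
    symm
    refine Finset.sum_eq_zero fun y _ => ?_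
    simp only [U, Subgroup.mem_inf, hx, false_and, if_false]

end Cfsg.Agent.S0870
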