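import Cfsg.Statements.S0871
import Mathlib
set_option linter.all false

set_option autoImplicit false
open Cfsg

namespace Cfsg.Agent.S0871

/-- The value at `x` of the function induced from the constant function `1` on `H`, as a
cardinality. -/
theorem indFun_one_eq {G : Type*} [Group G] [Fintype G] (H : Subgroup G) (x : G) :
    Cfsg.indFun H (fun _ => (1 : ℂ)) x =
      (Nat.card H : ℂ)⁻¹ * (Nat.card {g : G // g⁻¹ * x * g ∈ H} : ℂ) := by
  classical
  have key : ∀ g : G, Cfsg.extendByZero H (fun _ => (1 : ℂ)) (g⁻¹ * x * g) =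
      if g⁻¹ * x * g ∈ H then 1 else 0 := by
    intro g
    change Function.extend (Subtype.val : H → G) (fun _ => (1 : ℂ)) (0 : G → ℂ) (g⁻¹ * x * g) = _
    split_ifs with h
    · exact Subtype.val_injective.extend_apply (fun _ => (1 : ℂ)) (0 : G → ℂ) (⟨_, h⟩ : H)
    · rw [Function.extend_apply']
      · rfl
      · rintro ⟨a, ha⟩
        exact h (ha ▸ a.2)
  change (Nat.card H : ℂ)⁻¹ * ∑ g : G, Cfsg.extendByZero H (fun _ => (1 : ℂ)) (g⁻¹ * x * g) = _
  congr 1
  rw [Finset.sum_congr rfl (fun g _ => key g), Finset.sum_ite, Finset.sum_const_zero, add_zero,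
    Finset.sum_const, nsmul_eq_mul, mul_one, Nat.card_eq_fintype_card, Fintype.card_subtype]

/-- Let x be an element of the finite group G and p a prime. Then there is a subgroup H having a cyclic normal subgroup C of order prime to p and p-power index in H, such that the value at x of the function induced from the constant function 1 on H is a natural number not divisible by p. -/
theorem result {G : Type*} [Group G] [Fintype G] (x : G) (p : ℕ) (hp : p.Prime) : ∃ H : Subgroup G, (∃ C : Subgroup G, C ≤ H ∧ H ≤ Subgroup.normalizer (C : Set G) ∧ IsCyclic C ∧ Nat.Coprime (Nat.card C) p ∧ ∃ k : ℕ, C.relIndex H = p ^ k) ∧ ∃ n : ℕ, Cfsg.indFun H (fun _ => 1) x = (n : ℂ) ∧ ¬ p ∣ n := by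
  classical
  have : Fact p.Prime := ⟨hp⟩
  obtain ⟨a, m, hm, hx⟩ := Nat.exists_eq_pow_mul_and_not_dvd (orderOf_pos x).ne' p hp.ne_one
  let c : G := x ^ (p ^ a)
  let C : Subgroup G := Subgroup.zpowers c
  let N : Subgroup G := Subgroup.normalizer (C : Set G)
  let C' : Subgroup N := C.subgroupOf N
  have : C'.Normal := Subgroup.normal_in_normalizer
  have hCN : C ≤ N := Subgroup.le_normalizer
  have hcardC : Nat.card C = m := by
    rw [Nat.card_zpowers, orderOf_pow, hx, Nat.gcd_mul_right_left,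
      Nat.mul_div_cancel_left _ (pow_pos hp.pos a)]
  have hcop : Nat.Coprime (Nat.card C) p := by
    rw [hcardC, Nat.coprime_comm]
    exact (Nat.Prime.coprime_iff_not_dvd hp).2 hm
  obtain ⟨P⟩ : Nonempty (Sylow p (N ⧸ C')) := inferInstance
  let H' : Subgroup N := (P : Subgroup (N ⧸ C')).comap (QuotientGroup.mk' C')
  let H : Subgroup G := H'.map N.subtype
  have hC'H' : C' ≤ H' := by
    intro y hy
    have h1 : (QuotientGroup.mk' C') y = 1 := (QuotientGroup.eq_one_iff y).2 hy
    change (QuotientGroup.mk' C') y ∈ (P : Subgroup (N ⧸ C'))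
    rw [h1]
    exact one_mem _
  have hC'C : C'.map N.subtype = C := Subgroup.map_subgroupOf_eq_of_le hCN
  have hCH : C ≤ H := by
    rw [← hC'C]
    exact Subgroup.map_mono hC'H'
  have hHN : H ≤ N := Subgroup.map_subtype_le H'
  -- the relative index
  obtain ⟨k, hk⟩ := IsPGroup.iff_card.1 P.isPGroup'
  have hrel : C.relIndex H = p ^ k := by
    have h1 : C.relIndex H = C'.relIndex H' := by
      rw [← hC'C]
      exact Subgroup.relIndex_map_map_of_injective C' H' N.subtype_injective
    have h2 : C'.relIndex H' = Nat.card P := by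
      have h3 : (⊥ : Subgroup (N ⧸ C')).relIndex (H'.map (QuotientGroup.mk' C')) =
          C'.relIndex H' := by
        rw [← Subgroup.relIndex_comap, MonoidHom.comap_bot, QuotientGroup.ker_mk']
      rw [← h3, Subgroup.relIndex_bot_left,
        Subgroup.map_comap_eq_self_of_surjective (QuotientGroup.mk'_surjective C')]
    rw [h1, h2, hk]
  have hxN : x ∈ N := by
    have : x ∈ Subgroup.centralizer (C : Set G) := by
      rw [Subgroup.mem_centralizer_iff]
      rintro y ⟨j, rfl⟩
      exact ((Commute.refl x).pow_left (p ^ a) |>.zpow_left j).eq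
    exact Subgroup.centralizer_le_normalizer _ this
  let xN : N := ⟨x, hxN⟩
  let xb : N ⧸ C' := QuotientGroup.mk' C' xN
  have hxb : xb ^ (p ^ a) = 1 := by
    change (QuotientGroup.mk' C' xN) ^ (p ^ a) = 1
    rw [← map_pow]
    refine (QuotientGroup.eq_one_iff _).2 ?_
    rw [Subgroup.mem_subgroupOf]
    exact Subgroup.mem_zpowers c
  have hpg : IsPGroup p (Subgroup.zpowers xb) := by
    rw [IsPGroup.iff_card]
    rw [Nat.card_zpowers]
    obtain ⟨j, -, hj⟩ := (Nat.dvd_prime_pow hp).1 (orderOf_dvd_of_pow_eq_one hxb)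
    exact ⟨j, hj⟩
  let t : Set ((N ⧸ C') ⧸ (P : Subgroup (N ⧸ C'))) :=
    MulAction.fixedPoints (Subgroup.zpowers xb) ((N ⧸ C') ⧸ (P : Subgroup (N ⧸ C')))
  have hmod : Nat.card ((N ⧸ C') ⧸ (P : Subgroup (N ⧸ C'))) ≡ Nat.card t [MOD p] :=
    hpg.card_modEq_card_fixedPoints _
  have hnd : ¬ p ∣ Nat.card t := by
    intro hd
    have h1 : ¬ p ∣ (P : Subgroup (N ⧸ C')).index := P.not_dvd_index
    exact h1 ((hmod.dvd_iff (dvd_refl p)).2 hd)
  -- every conjugate of `x` lying in `H` comes from `N`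
  have hconjN : ∀ g : G, g⁻¹ * x * g ∈ H → g ∈ N := by
    intro g hg
    have hginv : g⁻¹ ∈ N := by
      refine Subgroup.mem_normalizer_fintype (S := (C : Set G)) (fun y hy => ?_)
      rw [inv_inv]
      -- `g⁻¹ y g ∈ H`
      have hyH : g⁻¹ * y * g ∈ H := by
        obtain ⟨j, rfl⟩ := hy
        have : g⁻¹ * (fun j : ℤ => c ^ j) j * g = ((g⁻¹ * x * g) ^ (p ^ a)) ^ j := by
          have h1 := conj_pow (i := p ^ a) (a := g⁻¹) (b := x)
          have h2 := conj_zpow (i := j) (a := g⁻¹) (b := x ^ (p ^ a))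
          rw [inv_inv] at h1 h2
          rw [h1, h2]
        rw [this]
        exact H.zpow_mem (H.pow_mem hg _) _
      have hyN : g⁻¹ * y * g ∈ N := hHN hyH
      let z : N := ⟨g⁻¹ * y * g, hyN⟩
      have hzH' : z ∈ H' := by
        obtain ⟨w, hw, hwz⟩ := hyH
        have : w = z := Subtype.ext hwz
        rw [← this]
        exact hw
      have hzP : QuotientGroup.mk' C' z ∈ (P : Subgroup (N ⧸ C')) := hzH'
      obtain ⟨j, hj⟩ := IsPGroup.iff_orderOf.1 P.isPGroup' ⟨_, hzP⟩
      rw [Subgroup.orderOf_mk] at hj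
      have hym : y ^ m = 1 := by
        rw [← hcardC]
        exact congrArg (Subtype.val) (pow_card_eq_one' (x := (⟨y, hy⟩ : C)))
      have hzm : z ^ m = 1 := by
        apply Subtype.ext
        change (g⁻¹ * y * g) ^ m = 1
        have h1 := conj_pow (i := m) (a := g⁻¹) (b := y)
        rw [inv_inv] at h1
        rw [h1, hym, mul_one, inv_mul_cancel]
      have hdvd : orderOf (QuotientGroup.mk' C' z) ∣ m := by
        apply orderOf_dvd_of_pow_eq_one
        rw [← map_pow, hzm, map_one]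
      have hone : orderOf (QuotientGroup.mk' C' z) = 1 := by
        rw [hj] at hdvd ⊢
        rcases Nat.eq_zero_or_pos j with h0 | h0
        · rw [h0, pow_zero]
        · exact absurd ((dvd_pow_self p h0.ne').trans hdvd) hm
      have hz1 : QuotientGroup.mk' C' z = 1 := orderOf_eq_one_iff.1 hone
      have hzC' : z ∈ C' := (QuotientGroup.eq_one_iff z).1 hz1
      exact hzC'
    exact inv_inv g ▸ N.inv_mem hginv
  -- the three sets
  let Sb : Set (N ⧸ C') := {q | q⁻¹ * xb * q ∈ (P : Subgroup (N ⧸ C'))}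
  let SN : Set N := {g | g⁻¹ * xN * g ∈ H'}
  have hSb : Sb = (QuotientGroup.mk : (N ⧸ C') → _) ⁻¹' t := by
    ext q
    change q⁻¹ * xb * q ∈ (P : Subgroup (N ⧸ C')) ↔
      (q : (N ⧸ C') ⧸ (P : Subgroup (N ⧸ C'))) ∈ MulAction.fixedPoints (Subgroup.zpowers xb) _
    have hstab : q⁻¹ * xb * q ∈ (P : Subgroup (N ⧸ C')) ↔
        xb ∈ MulAction.stabilizer (N ⧸ C') (q : (N ⧸ C') ⧸ (P : Subgroup (N ⧸ C'))) := by
      rw [MulAction.mem_stabilizer_iff, MulAction.Quotient.smul_coe, smul_eq_mul, eq_comm,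
        QuotientGroup.eq, mul_assoc]
    rw [hstab, MulAction.mem_fixedPoints]
    constructor
    · rintro h ⟨y, hy⟩
      have : Subgroup.zpowers xb ≤
          MulAction.stabilizer (N ⧸ C') (q : (N ⧸ C') ⧸ (P : Subgroup (N ⧸ C'))) := by
        rw [Subgroup.zpowers_le]
        exact h
      exact this hy
    · intro h
      exact h ⟨xb, Subgroup.mem_zpowers xb⟩
  have hSN : SN = (QuotientGroup.mk : N → N ⧸ C') ⁻¹' Sb := rfl
  have hS : {g : G | g⁻¹ * x * g ∈ H} = Subtype.val '' SN := by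
    ext g
    constructor
    · intro hg
      have hgN : g ∈ N := hconjN g hg
      refine ⟨⟨g, hgN⟩, ?_, rfl⟩
      obtain ⟨w, hw, hwz⟩ := hg
      have : w = (⟨g, hgN⟩ : N)⁻¹ * xN * ⟨g, hgN⟩ := Subtype.ext hwz
      change (⟨g, hgN⟩ : N)⁻¹ * xN * ⟨g, hgN⟩ ∈ H'
      rw [← this]
      exact hw
    · rintro ⟨g, hg, rfl⟩
      exact ⟨g⁻¹ * xN * g, hg, rfl⟩
  have hcardS : Nat.card {g : G // g⁻¹ * x * g ∈ H} = Nat.card C' * (Nat.card P * Nat.card t) := by
    have h1 : Nat.card {g : G // g⁻¹ * x * g ∈ H} = Nat.card SN := by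
      change Nat.card ({g : G | g⁻¹ * x * g ∈ H} : Set G) = _
      rw [hS, Nat.card_image_of_injective Subtype.val_injective]
    have h2 : Nat.card SN = Nat.card C' * Nat.card Sb := by
      rw [hSN, Nat.card_congr (QuotientGroup.preimageMkEquivSubgroupProdSet C' Sb), Nat.card_prod]
    have h3 : Nat.card Sb = Nat.card P * Nat.card t := by
      rw [hSb, Nat.card_congr (QuotientGroup.preimageMkEquivSubgroupProdSet _ t), Nat.card_prod]
    rw [h1, h2, h3]
  have hcardH : Nat.card H = Nat.card C' * Nat.card P := by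
    have h1 : Nat.card H = Nat.card H' :=
      Nat.card_congr (H'.equivMapOfInjective N.subtype N.subtype_injective).symm.toEquiv
    have h2 : Nat.card H' = Nat.card C' * Nat.card P := by
      change Nat.card ((QuotientGroup.mk : N → N ⧸ C') ⁻¹' (P : Subgroup (N ⧸ C'))) = _
      rw [Nat.card_congr (QuotientGroup.preimageMkEquivSubgroupProdSet C' _), Nat.card_prod]
      rfl
    rw [h1, h2]
  refine ⟨H, ⟨C, hCH, hHN, ?_, hcop, k, hrel⟩, Nat.card t, ?_, hnd⟩
  · infer_instance
  · rw [indFun_one_eq, hcardS, ← mul_assoc, ← hcardH, Nat.cast_mul, ← mul_assoc, inv_mul_cancel₀,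
      one_mul]
    exact_mod_cast Nat.card_pos.ne'

end Cfsg.Agent.S0871
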