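-- Proof of statement S0872 (row 872), from S0869 (Banaschewski), S0870 (products of permutation
-- characters), S0871 (quasi-elementary permutation characters) and S0190.
import Cfsg.Statements.S0872
import Cfsg.Agent.S0190
import Cfsg.Agent.S0869
import Cfsg.Agent.S0870
import Cfsg.Agent.S0871
import Mathlib.GroupTheory.Coset.Card
import Mathlib.GroupTheory.GroupAction.Quotient
set_option linter.all false

set_option autoImplicit false
open Cfsg

namespace Cfsg.Agent.S0872

/-- `p`-quasi-elementary subgroups: those with a cyclic normal `p`-complement. -/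
def QE {G : Type*} [Group G] (p : ℕ) (H : Subgroup G) : Prop :=
  ∃ C : Subgroup G, C ≤ H ∧ H ≤ Subgroup.normalizer (C : Set G) ∧ IsCyclic C ∧
    Nat.Coprime (Nat.card C) p ∧ ∃ k : ℕ, C.relIndex H = p ^ k

theorem QE.mono {G : Type*} [Group G] [Finite G] {p : ℕ} (hp : p.Prime) {H U : Subgroup G}
    (hH : QE p H) (hU : U ≤ H) : QE p U := by
  obtain ⟨C, hCH, hHC, hcyc, hcop, k, hk⟩ := hH
  refine ⟨C ⊓ U, inf_le_right, ?_, ?_, ?_, ?_⟩
  · intro u hu
    rw [Subgroup.mem_normalizer_iff]
    intro x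
    have h1 := (Subgroup.mem_normalizer_iff.mp (hHC (hU hu))) x
    constructor
    · rintro ⟨hx1, hx2⟩
      exact ⟨h1.mp hx1, U.mul_mem (U.mul_mem hu hx2) (U.inv_mem hu)⟩
    · rintro ⟨hx1, hx2⟩
      refine ⟨h1.mpr hx1, ?_⟩
      have := U.mul_mem (U.mul_mem (U.inv_mem hu) hx2) hu
      simpa [mul_assoc] using this
  · exact isCyclic_of_injective (Subgroup.inclusion (inf_le_left : C ⊓ U ≤ C))
      (Subgroup.inclusion_injective _)
  · exact Nat.Coprime.coprime_dvd_left (Subgroup.card_dvd_of_le inf_le_left) hcop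
  · have hdvd : (C ⊓ U).relIndex U ∣ C.relIndex H := by
      rw [Subgroup.inf_relIndex_right]
      have hN : (C.subgroupOf H).Normal := by
        rw [Subgroup.normal_subgroupOf_iff_le_normalizer hCH]; exact hHC
      have h2 : (C.subgroupOf H).relIndex (U.subgroupOf H) ∣ (C.subgroupOf H).index :=
        Subgroup.relIndex_dvd_index_of_normal _ _
      rw [Subgroup.relIndex_subgroupOf hU] at h2
      exact h2
    rw [hk] at hdvd
    obtain ⟨j, _, hj⟩ := (Nat.dvd_prime_pow hp).mp hdvd
    exact ⟨j, hj⟩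

/-- the additive group generated by the permutation characters on quasi-elementary subgroups -/
def A (G : Type*) [Group G] [Fintype G] (p : ℕ) : AddSubgroup (G → ℂ) where
  carrier := {f | ∃ a : Subgroup G → ℤ, (∀ H, a H ≠ 0 → QE p H) ∧
    f = ∑ H : Subgroup G, (a H : ℂ) • Cfsg.indFun H (fun _ => 1)}
  zero_mem' := ⟨0, fun H h => absurd rfl h, by simp⟩
  add_mem' := by
    rintro f g ⟨a, ha, rfl⟩ ⟨b, hb, rfl⟩
    refine ⟨a + b, fun H h => ?_, ?_⟩
    · by_cases h1 : a H = 0
      · by_cases h2 : b H = 0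
        · exact absurd (by simp [h1, h2]) h
        · exact hb H h2
      · exact ha H h1
    · rw [← Finset.sum_add_distrib]
      refine Finset.sum_congr rfl fun H _ => ?_
      rw [← add_smul]; simp
  neg_mem' := by
    rintro f ⟨a, ha, rfl⟩
    refine ⟨-a, fun H h => ha H (by simpa using h), ?_⟩
    rw [← Finset.sum_neg_distrib]
    refine Finset.sum_congr rfl fun H _ => ?_
    simp

variable {G : Type*} [Group G] [Fintype G] {p : ℕ}

theorem mem_A_iff {f : G → ℂ} : f ∈ A G p ↔ ∃ a : Subgroup G → ℤ, (∀ H, a H ≠ 0 → QE p H) ∧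
    f = ∑ H : Subgroup G, (a H : ℂ) • Cfsg.indFun H (fun _ => 1) := Iff.rfl

theorem smul_mem_A {f : G → ℂ} (hf : f ∈ A G p) (n : ℤ) : (n : ℂ) • f ∈ A G p := by
  have := (A G p).zsmul_mem hf n
  rwa [← Int.cast_smul_eq_zsmul ℂ] at this

theorem indFun_mem_A {H : Subgroup G} (hH : QE p H) :
    Cfsg.indFun H (fun _ => 1) ∈ A G p := by
  classical
  refine ⟨fun K => if K = H then 1 else 0, fun K h => ?_, ?_⟩
  · by_cases hK : K = H
    · rw [hK]; exact hH
    · exact absurd (if_neg hK) h
  · rw [Finset.sum_eq_single H]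
    · simp
    · intro K _ hK; simp [hK]
    · intro h; exact absurd (Finset.mem_univ H) h

theorem mul_indFun_mem_A (hp : p.Prime) {H K : Subgroup G} (hH : QE p H) :
    Cfsg.indFun H (fun _ => 1) * Cfsg.indFun K (fun _ => 1) ∈ A G p := by
  obtain ⟨c, hc, hc'⟩ := Cfsg.Agent.S0870.result H K
  rw [hc']
  refine ⟨fun U => (c U : ℤ), fun U hU => ?_, ?_⟩
  · exact hH.mono hp (hc U (by simpa using hU))
  · simp

theorem mul_mem_A (hp : p.Prime) {f g : G → ℂ} (hf : f ∈ A G p) (hg : g ∈ A G p) :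
    f * g ∈ A G p := by
  obtain ⟨a, ha, rfl⟩ := hf
  obtain ⟨b, hb, rfl⟩ := hg
  rw [Finset.sum_mul]
  refine AddSubgroup.sum_mem _ fun H _ => ?_
  rw [Finset.mul_sum]
  refine AddSubgroup.sum_mem _ fun K _ => ?_
  by_cases h : a H = 0
  · simp only [h, Int.cast_zero, zero_smul, zero_mul]
    exact zero_mem _
  · rw [smul_mul_smul_comm, ← Int.cast_mul]
    exact smul_mem_A (mul_indFun_mem_A hp (ha H h)) _

/-- permutation characters are integer valued -/
theorem indFun_int (H : Subgroup G) : ∃ f : G → ℤ, ∀ g, ((f g : ℤ) : ℂ) =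
    Cfsg.indFun H (fun _ => 1) g := by
  have h := Cfsg.Agent.S0190.result (G := G) (G ⧸ H) ((1 : G) : G ⧸ H)
  have hst : MulAction.stabilizer G ((1 : G) : G ⧸ H) = H := by
    have := MulAction.stabilizer_quotient H
    exact this
  rw [hst] at h
  refine ⟨fun g => (Nat.card (MulAction.fixedBy (G ⧸ H) g) : ℤ), fun g => ?_⟩
  have := congrFun h g
  simpa using this

/-- For a finite group G and a prime p there are an integer m not divisible by p and a ℤ-linear combination of functions induced from the constant function 1 on subgroups H, each having a cyclic normal subgroup of order prime to p and p-power index in H, that equals the constant function m. -/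
theorem result {G : Type*} [Group G] [Fintype G] (p : ℕ) (hp : p.Prime) : ∃ (m : ℤ) (a : Subgroup G → ℤ), ¬ (p : ℤ) ∣ m ∧ (∀ H, a H ≠ 0 → (∃ C : Subgroup G, C ≤ H ∧ H ≤ Subgroup.normalizer (C : Set G) ∧ IsCyclic C ∧ Nat.Coprime (Nat.card C) p ∧ ∃ k : ℕ, C.relIndex H = p ^ k)) ∧ (fun _ : G => (m : ℂ)) = ∑ H : Subgroup G, (a H : ℂ) • Cfsg.indFun H (fun _ => 1) := by
  classical
  let R : AddSubgroup (G → ℤ) :=
    { carrier := {f | ∃ k : ℤ, (fun g => ((f g : ℤ) : ℂ) - (((p : ℤ) * k : ℤ) : ℂ)) ∈ A G p}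
      zero_mem' := ⟨0, by
        have : (fun g : G => (((0 : G → ℤ) g : ℤ) : ℂ) - (((p : ℤ) * 0 : ℤ) : ℂ)) = 0 := by
          funext g; simp
        rw [this]; exact zero_mem _⟩
      add_mem' := by
        rintro f g ⟨k, hk⟩ ⟨l, hl⟩
        refine ⟨k + l, ?_⟩
        have := (A G p).add_mem hk hl
        convert this using 1
        funext x
        simp only [Pi.add_apply]; push_cast; ring
      neg_mem' := by
        rintro f ⟨k, hk⟩
        refine ⟨-k, ?_⟩
        have := (A G p).neg_mem hk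
        convert this using 1
        funext x
        simp only [Pi.neg_apply]; push_cast; ring }
  have hRmem : ∀ f : G → ℤ, f ∈ R ↔
      ∃ k : ℤ, (fun g => ((f g : ℤ) : ℂ) - (((p : ℤ) * k : ℤ) : ℂ)) ∈ A G p := fun _ => Iff.rfl
  have hmul : ∀ f ∈ R, ∀ g ∈ R, f * g ∈ R := by
    rintro f ⟨k, hk⟩ g ⟨l, hl⟩
    refine ⟨p * k * l, ?_⟩
    have h1 := mul_mem_A hp hk hl
    have h2 := smul_mem_A hk (p * l)
    have h3 := smul_mem_A hl (p * k)
    have h4 := (A G p).add_mem (AddSubgroup.add_mem _ h1 h2) h3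
    convert h4 using 1
    funext x
    simp only [Pi.mul_apply, Pi.add_apply, Pi.smul_apply, smul_eq_mul]
    push_cast; ring
  by_cases h1 : (1 : G → ℤ) ∈ R
  · obtain ⟨k, a, ha, hk⟩ := h1
    refine ⟨1 - p * k, a, ?_, ha, ?_⟩
    · intro hdvd
      have : (p : ℤ) ∣ 1 := by
        have := dvd_add hdvd (dvd_mul_right (p : ℤ) k)
        simpa using this
      exact hp.one_lt.ne' (by exact_mod_cast Int.eq_one_of_dvd_one (by positivity) this)
    · rw [← hk]
      funext x
      simp
  · exfalso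
    obtain ⟨x, q, hq, hall⟩ := Cfsg.Agent.S0869.result R hmul h1
    have hpR : (fun _ => (p : ℤ) : G → ℤ) ∈ R := by
      refine ⟨1, ?_⟩
      have : (fun g : G => ((((fun _ => (p : ℤ) : G → ℤ)) g : ℤ) : ℂ) - (((p : ℤ) * 1 : ℤ) : ℂ)) = 0 := by
        funext g; simp
      rw [this]; exact zero_mem _
    have hqp : q = p := by
      have h2 := hall _ hpR
      have h3 : q ∣ p := by exact_mod_cast h2
      exact (Nat.prime_dvd_prime_iff_eq hq hp).mp h3
    subst hqp
    obtain ⟨H, hH, n, hn, hndvd⟩ := Cfsg.Agent.S0871.result x q hp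
    obtain ⟨f, hf⟩ := indFun_int H
    have hfR : f ∈ R := by
      refine ⟨0, ?_⟩
      have : (fun g => ((f g : ℤ) : ℂ) - (((q : ℤ) * 0 : ℤ) : ℂ)) = Cfsg.indFun H (fun _ => 1) := by
        funext g; rw [hf]; simp
      rw [this]
      exact indFun_mem_A hH
    have h2 := hall f hfR
    have h3 : f x = (n : ℤ) := by
      have := hf x
      rw [hn] at this
      exact_mod_cast this
    rw [h3] at h2
    exact hndvd (by exact_mod_cast h2)

end Cfsg.Agent.S0872
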