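-- Proof of statement S0873 (row 873).
import Cfsg.Statements.S0873
import Mathlib.GroupTheory.PGroup
import Mathlib.LinearAlgebra.Matrix.ToLin
import Mathlib.LinearAlgebra.Trace
set_option linter.all false

set_option autoImplicit false
open Cfsg

namespace Cfsg.Agent.S0873

/-- A character of degree one is multiplicative. -/
theorem mul_of_linear {C : Type*} [Group C] {lam : C → ℂ} (h : Cfsg.IsCharacter C lam)
    (h1 : lam 1 = 1) (a b : C) : lam (a * b) = lam a * lam b := by
  obtain ⟨n, ρ, rfl⟩ := h
  have hn : n = 1 := by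
    have h2 : ((n : ℕ) : ℂ) = 1 := by
      rw [← h1, Representation.char_one]; simp
    exact_mod_cast h2
  subst hn
  have key : ∀ g : C, ρ.character g = (LinearMap.toMatrix' (ρ g)) 0 0 := by
    intro g
    have h3 : ρ.character g = (LinearMap.toMatrix' (ρ g)).trace := by
      rw [Representation.character, ← LinearMap.toMatrix_eq_toMatrix',
        LinearMap.trace_eq_matrix_trace ℂ (Pi.basisFun ℂ (Fin 1))]
    rw [h3, Matrix.trace_fin_one]
  rw [key, key, key, map_mul, Module.End.mul_eq_comp, LinearMap.toMatrix'_comp, Matrix.mul_apply,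
    Fin.sum_univ_one]

/-- Let C be a normal subgroup of the finite group G of order prime to p and P a p-subgroup with C ⊔ P = G. Let λ be a character of C of degree 1 invariant under conjugation by G and equal to 1 at every element of C centralized by P. Then λ is identically 1. -/
theorem result {G : Type*} [Group G] [Finite G] (p : ℕ) [Fact p.Prime] (C P : Subgroup G) [hC : C.Normal] (hP : IsPGroup p P) (hcop : Nat.Coprime (Nat.card C) p) (hCP : C ⊔ P = ⊤) (lam : C → ℂ) (hlam : Cfsg.IsCharacter C lam ∧ lam 1 = 1) (hinv : ∀ (g : G) (c : C), lam ⟨g * c * g⁻¹, hC.conj_mem (c : G) c.2 g⟩ = lam c) (hker : ∀ c : C, (c : G) ∈ Subgroup.centralizer (P : Set G) → lam c = 1) : lam = fun _ => 1 := by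
  classical
  have hmul := mul_of_linear hlam.1 hlam.2
  let f : C →* ℂ := { toFun := lam, map_one' := hlam.2, map_mul' := hmul }
  have hf : ∀ c, f c = lam c := fun _ => rfl
  funext c
  -- the coset of the kernel
  let S : Type _ := {x : C // lam x = lam c}
  let act : MulAction P S :=
    { smul := fun g x => ⟨⟨(g : G) * (x.1 : G) * (g : G)⁻¹, hC.conj_mem _ x.1.2 _⟩, by
        rw [hinv]; exact x.2⟩
      one_smul := by
        rintro ⟨⟨x, hx⟩, hx'⟩
        apply Subtype.ext; apply Subtype.ext
        change ((1 : P) : G) * x * ((1 : P) : G)⁻¹ = x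
        simp
      mul_smul := by
        rintro g h ⟨⟨x, hx⟩, hx'⟩
        apply Subtype.ext; apply Subtype.ext
        change ((g * h : P) : G) * x * ((g * h : P) : G)⁻¹ = (g : G) * ((h : G) * x * (h : G)⁻¹) * (g : G)⁻¹
        simp [mul_assoc] }
  have hsmul : ∀ (g : P) (x : S), (((g • x : S).1 : C) : G) = (g : G) * ((x.1 : C) : G) * (g : G)⁻¹ :=
    fun _ _ => rfl
  have hcard : Nat.card S = Nat.card f.ker := by
    refine Nat.card_congr
      { toFun := fun x => ⟨c⁻¹ * x.1, ?_⟩
        invFun := fun k => ⟨c * k.1, ?_⟩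
        left_inv := ?_
        right_inv := ?_ }
    · rw [MonoidHom.mem_ker, map_mul, hf x.1, x.2, ← hf c, ← map_mul, inv_mul_cancel, map_one]
    · have hk : lam k.1 = 1 := k.2
      rw [hmul, hk, mul_one]
    · intro x
      apply Subtype.ext
      simp
    · intro x
      apply Subtype.ext
      simp
  have hcop2 : Nat.Coprime (Nat.card S) p := by
    rw [hcard]
    exact Nat.Coprime.coprime_dvd_left (Subgroup.card_subgroup_dvd_card f.ker) hcop
  have hfix := hP.card_modEq_card_fixedPoints S
  have hne : Nonempty (MulAction.fixedPoints P S) := by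
    by_contra hemp
    rw [not_nonempty_iff] at hemp
    rw [@Nat.card_of_isEmpty (MulAction.fixedPoints P S) hemp, Nat.modEq_zero_iff_dvd] at hfix
    have hpp : p.Prime := Fact.out
    have := Nat.dvd_gcd hfix dvd_rfl
    rw [Nat.Coprime] at hcop2
    rw [hcop2] at this
    exact hpp.one_lt.ne' (Nat.dvd_one.mp this)
  obtain ⟨x, hx⟩ := hne
  have hxc : ((x.1 : C) : G) ∈ Subgroup.centralizer (P : Set G) := by
    rw [Subgroup.mem_centralizer_iff]
    intro g hg
    have h1 := congrArg (fun y : S => ((y.1 : C) : G)) (hx ⟨g, hg⟩)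
    simp only [hsmul] at h1
    exact mul_inv_eq_iff_eq_mul.mp h1
  rw [← x.2]
  exact hker x.1 hxc

end Cfsg.Agent.S0873
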