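import Cfsg.Statements.S0874
import Cfsg.Agent.CharactersDeep.BrauerLocal
set_option linter.all false

set_option autoImplicit false
open Cfsg

namespace Cfsg.Agent.S0874

/-- From the integral span to a list of triples. -/
theorem exists_list {G : Type*} [Group G] [Fintype G] (p : ℕ) {f : G → ℂ}
    (hf : f ∈ Submodule.span ℤ (Cfsg.Agent.CharactersDeep.BrauerLocal.elemInd p G)) :
    ∃ l : List ((E : Subgroup G) × ((E → ℂ) × ℤ)),
      (∀ t ∈ l, Cfsg.IsElementary p t.1 ∧ Cfsg.IsCharacter t.1 t.2.1) ∧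
      f = (l.map fun t => (t.2.2 : ℂ) • Cfsg.indFun t.1 t.2.1).sum := by
  induction hf using Submodule.span_induction with
  | mem x hx =>
    obtain ⟨E, φ, hE, hφ, rfl⟩ := hx
    refine ⟨[⟨E, (φ, 1)⟩], ?_, ?_⟩
    · intro t ht
      rw [List.mem_singleton] at ht
      subst ht
      exact ⟨hE, hφ⟩
    · simp
  | zero => exact ⟨[], by simp, by simp⟩
  | add y z _ _ hy hz =>
    obtain ⟨l, hl, hl'⟩ := hy
    obtain ⟨l', hm, hm'⟩ := hz
    refine ⟨l ++ l', ?_, ?_⟩
    · intro t ht
      rcases List.mem_append.1 ht with h | h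
      · exact hl t h
      · exact hm t h
    · rw [List.map_append, List.sum_append, ← hl', ← hm']
  | smul a y _ hy =>
    obtain ⟨l, hl, hl'⟩ := hy
    refine ⟨l.map fun t => ⟨t.1, (t.2.1, a * t.2.2)⟩, ?_, ?_⟩
    · intro t ht
      obtain ⟨s, hs, rfl⟩ := List.mem_map.1 ht
      exact hl s hs
    · rw [hl', List.smul_sum, List.map_map, List.map_map]
      congr 1
      refine List.map_congr_left fun t _ => ?_
      simp only [Function.comp]
      rw [← Int.cast_smul_eq_zsmul ℂ, smul_smul]
      push_cast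
      rfl

/-- For a finite group G and a prime p there are an integer m not divisible by p and a list of triples (E, φ, c), with E a p-elementary subgroup, φ a character of E and c an integer, such that the constant function m on G equals the sum of the c • (function induced from φ). -/
theorem result {G : Type*} [Group G] [Fintype G] (p : ℕ) (hp : p.Prime) : ∃ (m : ℤ) (l : List ((E : Subgroup G) × ((E → ℂ) × ℤ))), ¬ (p : ℤ) ∣ m ∧ (∀ t ∈ l, Cfsg.IsElementary p t.1 ∧ Cfsg.IsCharacter t.1 t.2.1) ∧ (fun _ : G => (m : ℂ)) = (l.map fun t => (t.2.2 : ℂ) • Cfsg.indFun t.1 t.2.1).sum := by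
  obtain ⟨m, hm, hm'⟩ := Cfsg.Agent.CharactersDeep.BrauerLocal.brauer_local (G := G) p hp
  obtain ⟨l, hl, hl'⟩ := exists_list p hm'
  exact ⟨m, l, hm, hl, hl'⟩

end Cfsg.Agent.S0874
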