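import Cfsg.Statements.S0883
import Cfsg.Agent.CharactersDeep.ZassenhausInvol
import Cfsg.Agent.S0882
set_option linter.all false

set_option autoImplicit false
open Cfsg

namespace Cfsg.Agent.S0883

open MulAction Cfsg.Agent.CharactersDeep.Zassenhaus Cfsg.Agent.CharactersDeep.ZassenhausInvol

/-- an involution fixes at most one point -/
theorem fix_unique {G Ω : Type*} [Group G] [Finite G] [MulAction G Ω] [Fintype Ω]
    (hZ : Cfsg.IsZassenhausGroup G Ω) {a b : Ω} (hab : a ≠ b)
    (hodd : Odd (Nat.card ↥(stabilizer G a ⊓ stabilizer G b : Subgroup G)))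
    {x : G} (hx : orderOf x = 2) {c d : Ω} (hc : x • c = c) (hd : x • d = d) : c = d := by
  by_contra hcd
  have h1 : Odd (Nat.card ↥(stabilizer G c ⊓ stabilizer G d : Subgroup G)) := by
    rw [card_two_eq hZ hab hcd]; exact hodd
  have h2 := eq_one_of_sq h1 (x := x) ⟨hc, hd⟩ (mul_self_of_orderOf_two hx)
  rw [h2, orderOf_one] at hx
  omega

/-- Let G be a finite simple Zassenhaus group on Ω with h + 1 points whose two-point stabilizer E has odd order e with 2e < h - 1, and let H be the subgroup of the stabilizer of a consisting of the identity and the elements fixing no point other than a (given here as a subgroup of the stabilizer of order one less than the number of points whose non-identity elements fix only a; it is the Frobenius kernel of the stabilizer). If a non-identity element u of H is a product of two involutions of G, then u is an involution. -/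
theorem result {G Ω : Type*} [Group G] [Finite G] [MulAction G Ω] [Fintype Ω] (hZ : Cfsg.IsZassenhausGroup G Ω) {a b : Ω} (hab : a ≠ b) [IsSimpleGroup G] (h e : ℕ) (hh : Fintype.card Ω = h + 1) (he : Nat.card ↥(MulAction.stabilizer G a ⊓ MulAction.stabilizer G b : Subgroup G) = e) (hodd : Odd e) (hlt : 2 * e < h - 1) (H : Subgroup G) (hHa : H ≤ MulAction.stabilizer G a) (hHcard : Nat.card H + 1 = Fintype.card Ω) (hHfix : ∀ u ∈ H, u ≠ 1 → ∀ c : Ω, u • c = c → c = a) (u : G) (hu : u ∈ H) (hu1 : u ≠ 1) (x y : G) (hx : orderOf x = 2) (hy : orderOf y = 2) (hxy : x * y = u) : orderOf u = 2 := by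
  classical
  have hodd' : Odd (Nat.card ↥(stabilizer G a ⊓ stabilizer G b : Subgroup G)) := by rw [he]; exact hodd
  have hxx := mul_self_of_orderOf_two hx
  have hyy := mul_self_of_orderOf_two hy
  have hxinv : x⁻¹ = x := inv_eq_of_mul_eq_one_right hxx
  have hyinv : y⁻¹ = y := inv_eq_of_mul_eq_one_right hyy
  have hua : u • a = a := hHa hu
  have huinv : u⁻¹ • a = a := by rw [inv_smul_eq_iff, hua]
  -- x fixes a
  have hxa : x • a = a := by
    apply hHfix u hu hu1
    have h1 : u * x = x * u⁻¹ := by
      rw [← hxy, mul_inv_rev, hxinv, hyinv, mul_assoc, ← mul_assoc]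
    rw [← mul_smul, h1, mul_smul, huinv]
  have hya : y • a = a := by
    have h1 : y = x⁻¹ * u := by rw [← hxy]; group
    rw [h1, mul_smul, hua, inv_smul_eq_iff, hxa]
  -- h is even
  have hcardN := card_stabilizer hZ hab hh
  have hheven : Even h := by
    have hxa' : x ∈ stabilizer G a := hxa
    have h1 : orderOf (⟨x, hxa'⟩ : stabilizer G a) ∣ Nat.card (stabilizer G a) := orderOf_dvd_natCard _
    rw [Subgroup.orderOf_mk, hx, hcardN, he] at h1
    rcases (Nat.prime_two.dvd_mul).mp h1 with h2 | h2
    · exact (even_iff_two_dvd).mpr h2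
    · rcases hodd with ⟨k, hk⟩
      omega
  obtain ⟨hconj, hcount⟩ := Cfsg.Agent.S0882.result hZ hab h e hh he hodd hlt
  rw [if_pos hheven] at hcount
  -- the centraliser of x has order h
  have hcent : Nat.card (Subgroup.centralizer ({x} : Set G)) = h := by
    have h1 : Nat.card (MulAction.orbit (ConjAct G) x) = e * (h + 1) := by
      rw [← hcount]
      apply Nat.card_congr
      apply Equiv.subtypeEquivRight
      intro g
      rw [ConjAct.mem_orbit_conjAct]
      constructor
      · intro hg
        rw [isConj_iff] at hg
        obtain ⟨c, hc⟩ := hg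
        have h3 : orderOf (c * g * c⁻¹) = orderOf g := by
          have := orderOf_injective (MulAut.conj c).toMonoidHom (MulAut.conj c).injective g
          simpa using this
        rw [← h3, hc, hx]
      · intro hg
        exact hconj g x hg hx
    have h2 : Nat.card (Subgroup.centralizer ({x} : Set G)) * Nat.card (MulAction.orbit (ConjAct G) x) = Nat.card G := by
      have h3 := (stabilizer (ConjAct G) x).card_mul_index
      rw [index_stabilizer, ← Nat.card_coe_set_eq] at h3
      have h4 : Nat.card (stabilizer (ConjAct G) x) = Nat.card (Subgroup.centralizer ({x} : Set G)) := by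
        rw [ConjAct.stabilizer_eq_centralizer]
        rfl
      rw [← h4, h3]
      rfl
    rw [h1, card_group hZ hab hh, he] at h2
    have hpos : 0 < e * (h + 1) := by
      have : 0 < e := hodd.pos
      positivity
    apply Nat.eq_of_mul_eq_mul_right hpos
    rw [h2]; ring
  have huniq := fun c d hc hd => fix_unique hZ hab hodd' (c := c) (d := d) hx hc hd
  have hle : Subgroup.centralizer ({x} : Set G) ≤ H := by
    intro g hg
    rw [Subgroup.mem_centralizer_singleton_iff] at hg
    rw [mem_kernel_iff hZ a H hHa hHcard hHfix]
    refine ⟨?_, ?_⟩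
    · apply huniq _ _ _ hxa
      rw [← mul_smul, ← hg, mul_smul, hxa]
    · intro hg1 c hc
      by_contra hca
      have hga : g • a = a := by
        apply huniq _ _ _ hxa
        rw [← mul_smul, ← hg, mul_smul, hxa]
      have h1 : g • (x • c) = x • c := by
        rw [← mul_smul, hg, mul_smul, hc]
      rcases eq_or_eq_of_fix hZ (Ne.symm hca) hg1 hga hc h1 with h2 | h2
      · apply hca
        exact (MulAction.injective x) (h2.trans hxa.symm)
      · exact hca (huniq c a h2 hxa)
  have hHeq : Subgroup.centralizer ({x} : Set G) = H := by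
    apply Subgroup.eq_of_le_of_card_ge hle
    rw [hcent]; omega
  have hyH : y ∈ H := by
    rw [mem_kernel_iff hZ a H hHa hHcard hHfix]
    exact ⟨hya, fun _ c hc => fix_unique hZ hab hodd' hy hc hya⟩
  rw [← hHeq, Subgroup.mem_centralizer_singleton_iff] at hyH
  apply orderOf_eq_prime _ hu1
  rw [pow_two, ← hxy]
  calc x * y * (x * y) = x * (y * x) * y := by group
    _ = x * (x * y) * y := by rw [hyH]
    _ = (x * x) * (y * y) := by group
    _ = 1 := by rw [hxx, hyy, one_mul]

end Cfsg.Agent.S0883
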