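import Mathlib
import Cfsg.Prelude.Def_Characters
import Cfsg.Agent.CharDeep.ProjExt
import Cfsg.Agent.CharDeep.TripleCover
import Cfsg.Agent.CharactersDeep.BergerGroup
import Cfsg.Agent.Characters.Core
import Cfsg.Agent.OddOrderCharacters.IndRes
import Cfsg.Statements.S0889
set_option linter.all false

-- part: CharactersDeep/BergerDefs
section
/-!
# Definitions for Berger's theorem

Stable subspaces, homogeneous restriction to a normal subgroup.
-/

set_option autoImplicit false

namespace Cfsg.Agent.CharactersDeep.BergerDefs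

open Cfsg Representation Module

variable {G V : Type*} [Group G] [AddCommGroup V] [Module ℂ V]

/-- `W` is stable under the subgroup `H`. -/
def Stable (ρ : Representation ℂ G V) (H : Subgroup G) (W : Submodule ℂ V) : Prop :=
  ∀ h ∈ H, ∀ w ∈ W, ρ h w ∈ W

/-- The restriction of `ρ` to `N` is homogeneous: between any two nonzero stable subspaces there
is a nonzero map (given as the restriction of an equivariant endomorphism of the whole space). -/
def Homog (ρ : Representation ℂ G V) (N : Subgroup G) : Prop :=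
  ∀ V₁ V₂ : Submodule ℂ V, V₁ ≠ ⊥ → V₂ ≠ ⊥ → Stable ρ N V₁ → Stable ρ N V₂ →
    ∃ T : V →ₗ[ℂ] V, (∀ n ∈ N, T * ρ n = ρ n * T) ∧ (∀ v ∈ V₁, T v ∈ V₂) ∧ ∃ v ∈ V₁, T v ≠ 0

theorem stable_def (ρ : Representation ℂ G V) (H : Subgroup G) (W : Submodule ℂ V) :
    Stable ρ H W ↔ ∀ h ∈ H, ∀ w ∈ W, ρ h w ∈ W := Iff.rfl

theorem homog_def (ρ : Representation ℂ G V) (N : Subgroup G) :
    Homog ρ N ↔ ∀ V₁ V₂ : Submodule ℂ V, V₁ ≠ ⊥ → V₂ ≠ ⊥ → Stable ρ N V₁ → Stable ρ N V₂ →
      ∃ T : V →ₗ[ℂ] V, (∀ n ∈ N, T * ρ n = ρ n * T) ∧ (∀ v ∈ V₁, T v ∈ V₂) ∧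
        ∃ v ∈ V₁, T v ≠ 0 := Iff.rfl

end Cfsg.Agent.CharactersDeep.BergerDefs
end

-- part: CharactersDeep/BergerTensor
section
/-!
# Tensor decomposition over a normal subgroup, without tensor products

`V` is an irreducible representation of `G`, `N` is normal in `G`, `σ` is an irreducible
representation of `N` on `S`. The space `homSpace ρ σ = Hom_N(S, V)` is a representation of any
subgroup `Δ` of the group `intGroup σ` of pairs `(g, X)` with `X σ(n) X⁻¹ = σ(g n g⁻¹)`.
-/

set_option autoImplicit false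

namespace Cfsg.Agent.CharactersDeep.BergerTensor

open Cfsg Representation Module Cfsg.Agent.CharactersDeep.BergerDefs Cfsg.Agent.CharDeep.ProjExt
open Cfsg.Agent.CharDeep.LinearChar Cfsg.Agent.CharDeep.IrrEquiv

section Burnside

/-- Burnside's theorem: the operators of an irreducible representation span all operators. -/
theorem adjoin_eq_top {G V : Type*} [Monoid G] [AddCommGroup V] [Module ℂ V]
    [FiniteDimensional ℂ V] (ρ : Representation ℂ G V) (hρ : ρ.IsIrreducible) :
    Algebra.adjoin ℂ (Set.range ρ) = ⊤ := by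
  classical
  rw [isIrreducible_iff] at hρ
  obtain ⟨hV, hW⟩ := hρ
  set A : Subalgebra ℂ (V →ₗ[ℂ] V) := Algebra.adjoin ℂ (Set.range ρ) with hA
  have hmem : ∀ g, ρ g ∈ A := fun g => Algebra.subset_adjoin ⟨g, rfl⟩
  have hsimple : IsSimpleModule A V := by
    refine { exists_pair_ne := ⟨⊥, ⊤, bot_ne_top⟩, eq_bot_or_eq_top := fun W => ?_ }
    rcases hW (W.restrictScalars ℂ) (fun g v hv => W.smul_mem ⟨ρ g, hmem g⟩ hv) with h | h
    · left
      exact (Submodule.restrictScalars_eq_bot_iff ℂ A V).1 h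
    · right
      exact (Submodule.restrictScalars_eq_top_iff ℂ A V).1 h
  rw [eq_top_iff]
  rintro a -
  have hsc := (IsSimpleModule.algebraMap_end_bijective_of_isAlgClosed (A := A) (V := V) ℂ).2
  let f : Module.End (Module.End A V) V :=
    { toFun := a
      map_add' := map_add a
      map_smul' := by
        intro φ v
        obtain ⟨c, rfl⟩ := hsc φ
        show a ((algebraMap ℂ (Module.End A V) c) v) = (algebraMap ℂ (Module.End A V) c) (a v)
        rw [Module.algebraMap_end_apply, Module.algebraMap_end_apply, map_smul] }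
  let b := Module.finBasis ℂ V
  obtain ⟨r, hr⟩ := jacobson_density f (Finset.univ.image b)
  have : a = (r : V →ₗ[ℂ] V) := by
    apply b.ext
    intro i
    exact hr (b i) (Finset.mem_image_of_mem _ (Finset.mem_univ _))
  rw [this]
  exact r.2

end Burnside

section Basic

variable {G V : Type*} [Group G] [AddCommGroup V] [Module ℂ V]

/-- The restriction of `ρ` to `N` on a stable subspace. -/
def subRep (ρ : Representation ℂ G V) (N : Subgroup G) (S : Submodule ℂ V)
    (hS : Stable ρ N S) : Representation ℂ N S where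
  toFun n := (ρ n).restrict (hS n n.2)
  map_one' := by
    ext v
    simp
  map_mul' x y := by
    ext v
    simp

theorem subRep_apply (ρ : Representation ℂ G V) (N : Subgroup G) (S : Submodule ℂ V)
    (hS : Stable ρ N S) (n : N) (s : S) : ((subRep ρ N S hS n s : S) : V) = ρ n s := rfl

variable {S : Type*} [AddCommGroup S] [Module ℂ S]

/-- `Hom_N(S, V)`. -/
def homSpace (ρ : Representation ℂ G V) {N : Subgroup G} (σ : Representation ℂ N S) :
    Submodule ℂ (S →ₗ[ℂ] V) where
  carrier := {f | ∀ n : N, f ∘ₗ σ n = ρ n ∘ₗ f}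
  add_mem' := by
    intro f g hf hg n
    rw [LinearMap.add_comp, LinearMap.comp_add, hf n, hg n]
  zero_mem' := by
    intro n
    rw [LinearMap.zero_comp, LinearMap.comp_zero]
  smul_mem' := by
    intro c f hf n
    rw [LinearMap.smul_comp, LinearMap.comp_smul, hf n]

theorem mem_homSpace (ρ : Representation ℂ G V) {N : Subgroup G} (σ : Representation ℂ N S)
    (f : S →ₗ[ℂ] V) : f ∈ homSpace ρ σ ↔ ∀ n : N, f ∘ₗ σ n = ρ n ∘ₗ f := Iff.rfl

/-- The span of the images of the maps in `W`. -/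
def dot (W : Submodule ℂ (S →ₗ[ℂ] V)) : Submodule ℂ V :=
  Submodule.span ℂ {v | ∃ f ∈ W, ∃ s : S, f s = v}

theorem mem_dot {W : Submodule ℂ (S →ₗ[ℂ] V)} {f : S →ₗ[ℂ] V} (hf : f ∈ W) (s : S) :
    f s ∈ dot W := Submodule.subset_span ⟨f, hf, s, rfl⟩

theorem dot_le {W : Submodule ℂ (S →ₗ[ℂ] V)} {U : Submodule ℂ V}
    (h : ∀ f ∈ W, ∀ s, f s ∈ U) : dot W ≤ U := by
  rw [dot, Submodule.span_le]
  rintro _ ⟨f, hf, s, rfl⟩
  exact h f hf s

theorem dot_mono {W W' : Submodule ℂ (S →ₗ[ℂ] V)} (h : W ≤ W') : dot W ≤ dot W' :=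
  dot_le fun _ hf s => mem_dot (h hf) s

/-- The dimension formula for the span of the images. -/
theorem finrank_dot [FiniteDimensional ℂ V] [FiniteDimensional ℂ S]
    (ρ : Representation ℂ G V) {N : Subgroup G} (σ : Representation ℂ N S)
    (hσ : σ.IsIrreducible) {W : Submodule ℂ (S →ₗ[ℂ] V)} (hW : W ≤ homSpace ρ σ) :
    finrank ℂ (dot W) = finrank ℂ S * finrank ℂ W := by
  classical
  let b := Module.finBasis ℂ S
  let ev : (Fin (finrank ℂ S) → W) →ₗ[ℂ] V :=
    { toFun := fun w => ∑ i, (w i : S →ₗ[ℂ] V) (b i)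
      map_add' := by
        intro x y
        simp [Finset.sum_add_distrib]
      map_smul' := by
        intro c x
        simp [Finset.smul_sum] }
  have hev : ∀ w, ev w = ∑ i, (w i : S →ₗ[ℂ] V) (b i) := fun w => rfl
  -- every operator on `S` is intertwined by an operator on `V`
  have hop : ∀ a : S →ₗ[ℂ] S, ∃ β : V →ₗ[ℂ] V, ∀ f ∈ homSpace ρ σ, f ∘ₗ a = β ∘ₗ f := by
    intro a
    have ha : a ∈ Algebra.adjoin ℂ (Set.range σ) := by rw [adjoin_eq_top σ hσ]; trivial
    induction ha using Algebra.adjoin_induction with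
    | mem x hx =>
      obtain ⟨n, rfl⟩ := hx
      exact ⟨ρ n, fun f hf => hf n⟩
    | algebraMap c =>
      refine ⟨algebraMap ℂ _ c, fun f _ => ?_⟩
      ext s
      simp [Module.algebraMap_end_apply]
    | add x y _ _ hx hy =>
      obtain ⟨β, hβ⟩ := hx
      obtain ⟨γ, hγ⟩ := hy
      exact ⟨β + γ, fun f hf => by rw [LinearMap.comp_add, LinearMap.add_comp, hβ f hf, hγ f hf]⟩
    | mul x y _ _ hx hy =>
      obtain ⟨β, hβ⟩ := hx
      obtain ⟨γ, hγ⟩ := hy
      refine ⟨β * γ, fun f hf => ?_⟩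
      rw [Module.End.mul_eq_comp, Module.End.mul_eq_comp, ← LinearMap.comp_assoc, hβ f hf,
        LinearMap.comp_assoc, hγ f hf, LinearMap.comp_assoc]
  have hinj : Function.Injective ev := by
    rw [injective_iff_map_eq_zero]
    intro w hw
    funext i
    apply Subtype.ext
    ext s
    obtain ⟨β, hβ⟩ := hop (b.constr ℂ (fun j => if j = i then s else 0))
    have h1 : β (ev w) = 0 := by rw [hw, map_zero]
    rw [hev, map_sum] at h1
    have h2 : ∀ j, β ((w j : S →ₗ[ℂ] V) (b j)) =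
        (w j : S →ₗ[ℂ] V) (if j = i then s else 0) := by
      intro j
      have := LinearMap.congr_fun (hβ (w j) (hW (w j).2)) (b j)
      simp only [LinearMap.comp_apply, Basis.constr_basis] at this
      exact this.symm
    simp only [h2] at h1
    rw [Finset.sum_eq_single i] at h1
    · simpa using h1
    · intro j _ hj
      simp [hj]
    · intro h
      exact absurd (Finset.mem_univ i) h
  have hrange : LinearMap.range ev = dot W := by
    apply le_antisymm
    · rintro _ ⟨w, rfl⟩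
      rw [hev]
      exact Submodule.sum_mem _ fun i _ => mem_dot (w i).2 _
    · apply dot_le
      intro f hf s
      refine ⟨fun i => (b.repr s i) • ⟨f, hf⟩, ?_⟩
      rw [hev]
      conv_rhs => rw [← b.sum_repr s, map_sum]
      apply Finset.sum_congr rfl
      intro i _
      simp
  rw [← hrange, LinearMap.finrank_range_of_inj hinj, Module.finrank_pi_fintype]
  simp

/-- A map in `Hom_N(S, V)` whose image lies in the span of the images of `W` lies in `W`. -/
theorem mem_of_forall_mem_dot [FiniteDimensional ℂ V] [FiniteDimensional ℂ S]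
    (ρ : Representation ℂ G V) {N : Subgroup G} (σ : Representation ℂ N S)
    (hσ : σ.IsIrreducible) {W : Submodule ℂ (S →ₗ[ℂ] V)} (hW : W ≤ homSpace ρ σ)
    {f : S →ₗ[ℂ] V} (hf : f ∈ homSpace ρ σ) (h : ∀ s, f s ∈ dot W) : f ∈ W := by
  have hS : 0 < finrank ℂ S := by
    have := ((isIrreducible_iff σ).1 hσ).1
    exact finrank_pos
  have h1 : W ⊔ ℂ ∙ f ≤ homSpace ρ σ := by
    apply sup_le hW
    rw [Submodule.span_singleton_le_iff_mem]
    exact hf
  have h2 : dot (W ⊔ ℂ ∙ f) = dot W := by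
    apply le_antisymm _ (dot_mono le_sup_left)
    apply dot_le
    intro x hx s
    obtain ⟨w, hw, y, hy, rfl⟩ := Submodule.mem_sup.1 hx
    obtain ⟨c, rfl⟩ := Submodule.mem_span_singleton.1 hy
    exact Submodule.add_mem _ (mem_dot hw s) (Submodule.smul_mem _ c (h s))
  have h3 := finrank_dot ρ σ hσ h1
  rw [h2, finrank_dot ρ σ hσ hW] at h3
  have h4 : finrank ℂ W = finrank ℂ (W ⊔ ℂ ∙ f : Submodule ℂ (S →ₗ[ℂ] V)) :=
    Nat.eq_of_mul_eq_mul_left hS h3
  have h5 : W = W ⊔ ℂ ∙ f := Submodule.eq_of_le_of_finrank_eq le_sup_left h4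
  rw [h5]
  exact Submodule.mem_sup_right (Submodule.mem_span_singleton_self f)

end Basic

section Action

variable {G V : Type*} [Group G] [AddCommGroup V] [Module ℂ V]
  {S : Type*} [AddCommGroup S] [Module ℂ S]

/-- The action of the pairs `(g, X)` on `Hom_N(S, V)`: `f ↦ ρ g ∘ f ∘ X⁻¹`. -/
def homRep (ρ : Representation ℂ G V) {N : Subgroup G} [hN : N.Normal]
    (σ : Representation ℂ N S) (Δ : Subgroup (G × (S →ₗ[ℂ] S)ˣ)) (hΔ : Δ ≤ intGroup σ) :
    Representation ℂ Δ (homSpace ρ σ) where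
  toFun x :=
    { toFun := fun f => ⟨ρ (proj Δ x) ∘ₗ (f : S →ₗ[ℂ] V) ∘ₗ
          (((opr Δ x)⁻¹ : (S →ₗ[ℂ] S)ˣ) : S →ₗ[ℂ] S), by
        rw [mem_homSpace]
        intro n
        have h1 := (mem_intGroup σ _).1 ((intGroup σ).inv_mem (hΔ x.2)) n
        have h2 : (((opr Δ x)⁻¹ : (S →ₗ[ℂ] S)ˣ) : S →ₗ[ℂ] S) ∘ₗ σ n =
            σ (MulAut.conjNormal (proj Δ x)⁻¹ n) ∘ₗ
              (((opr Δ x)⁻¹ : (S →ₗ[ℂ] S)ˣ) : S →ₗ[ℂ] S) := h1
        apply LinearMap.ext
        intro s
        have h3 := LinearMap.congr_fun h2 s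
        have h4 := LinearMap.congr_fun ((mem_homSpace ρ σ _).1 f.2
          (MulAut.conjNormal (proj Δ x)⁻¹ n)) ((((opr Δ x)⁻¹ : (S →ₗ[ℂ] S)ˣ) : S →ₗ[ℂ] S) s)
        simp only [LinearMap.comp_apply] at h3 h4 ⊢
        rw [h3, h4, ← Module.End.mul_apply, ← Module.End.mul_apply, ← map_mul, ← map_mul,
          MulAut.conjNormal_apply]
        congr 2
        group⟩
      map_add' := by
        intro f g
        apply Subtype.ext
        simp [LinearMap.add_comp, LinearMap.comp_add]
      map_smul' := by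
        intro c f
        apply Subtype.ext
        simp [LinearMap.smul_comp, LinearMap.comp_smul] }
  map_one' := by
    ext f s
    simp
  map_mul' x y := by
    ext f s
    simp

theorem homRep_apply_opr (ρ : Representation ℂ G V) {N : Subgroup G} [hN : N.Normal]
    (σ : Representation ℂ N S) (Δ : Subgroup (G × (S →ₗ[ℂ] S)ˣ)) (hΔ : Δ ≤ intGroup σ)
    (x : Δ) (f : homSpace ρ σ) (s : S) :
    ((homRep ρ σ Δ hΔ x f : homSpace ρ σ) : S →ₗ[ℂ] V) ((opr Δ x : S →ₗ[ℂ] S) s) =
      ρ (proj Δ x) ((f : S →ₗ[ℂ] V) s) := by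
  show ρ (proj Δ x) ((f : S →ₗ[ℂ] V) (((((opr Δ x)⁻¹ : (S →ₗ[ℂ] S)ˣ) : S →ₗ[ℂ] S) *
    (opr Δ x : S →ₗ[ℂ] S)) s)) = _
  rw [Units.inv_mul]
  rfl

theorem homRep_apply (ρ : Representation ℂ G V) {N : Subgroup G} [hN : N.Normal]
    (σ : Representation ℂ N S) (Δ : Subgroup (G × (S →ₗ[ℂ] S)ˣ)) (hΔ : Δ ≤ intGroup σ)
    (x : Δ) (f : homSpace ρ σ) :
    ((homRep ρ σ Δ hΔ x f : homSpace ρ σ) : S →ₗ[ℂ] V) = ρ (proj Δ x) ∘ₗ (f : S →ₗ[ℂ] V) ∘ₗ
      (((opr Δ x)⁻¹ : (S →ₗ[ℂ] S)ˣ) : S →ₗ[ℂ] S) := rfl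

variable [FiniteDimensional ℂ V] [FiniteDimensional ℂ S]

/-- The span of the images of a stable subspace is stable. -/
theorem stable_dot (ρ : Representation ℂ G V) {N : Subgroup G} [hN : N.Normal]
    (σ : Representation ℂ N S) (Δ : Subgroup (G × (S →ₗ[ℂ] S)ˣ)) (hΔ : Δ ≤ intGroup σ)
    {K : Subgroup Δ} {W : Submodule ℂ (homSpace ρ σ)} (hW : Stable (homRep ρ σ Δ hΔ) K W) :
    Stable ρ (K.map (proj Δ)) (dot (W.map (homSpace ρ σ).subtype)) := by
  rintro _ ⟨x, hx, rfl⟩ w hw
  induction hw using Submodule.span_induction with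
  | mem v hv =>
    obtain ⟨f, hf, s, rfl⟩ := hv
    obtain ⟨f', hf', rfl⟩ := hf
    have := homRep_apply_opr ρ σ Δ hΔ x f' s
    show ρ (proj Δ x) ((f' : S →ₗ[ℂ] V) s) ∈ _
    rw [← this]
    exact mem_dot (Submodule.mem_map_of_mem (f := (homSpace ρ σ).subtype) (hW x hx f' hf')) _
  | zero => rw [map_zero]; exact Submodule.zero_mem _
  | add a b _ _ ha hb => rw [map_add]; exact Submodule.add_mem _ ha hb
  | smul c a _ ha => rw [map_smul]; exact Submodule.smul_mem _ c ha

omit [FiniteDimensional ℂ V] [FiniteDimensional ℂ S] in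
/-- The span of the images is stable under `N`. -/
theorem stable_dot_self (ρ : Representation ℂ G V) {N : Subgroup G}
    (σ : Representation ℂ N S) {W : Submodule ℂ (S →ₗ[ℂ] V)} (hW : W ≤ homSpace ρ σ) :
    Stable ρ N (dot W) := by
  intro n hn w hw
  induction hw using Submodule.span_induction with
  | mem v hv =>
    obtain ⟨f, hf, s, rfl⟩ := hv
    have := LinearMap.congr_fun ((mem_homSpace ρ σ f).1 (hW hf) ⟨n, hn⟩) s
    simp only [LinearMap.comp_apply] at this
    rw [← this]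
    exact mem_dot hf _
  | zero => rw [map_zero]; exact Submodule.zero_mem _
  | add a b _ _ ha hb => rw [map_add]; exact Submodule.add_mem _ ha hb
  | smul c a _ ha => rw [map_smul]; exact Submodule.smul_mem _ c ha

omit [FiniteDimensional ℂ V] [FiniteDimensional ℂ S] in
theorem map_subtype_le (ρ : Representation ℂ G V) {N : Subgroup G}
    (σ : Representation ℂ N S) (W : Submodule ℂ (homSpace ρ σ)) :
    W.map (homSpace ρ σ).subtype ≤ homSpace ρ σ := Submodule.map_subtype_le _ _

/-- `V` is spanned by the images. -/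
theorem dot_homSpace (ρ : Representation ℂ G V) (hρ : ρ.IsIrreducible) {N : Subgroup G}
    [hN : N.Normal] (σ : Representation ℂ N S) (Δ : Subgroup (G × (S →ₗ[ℂ] S)ˣ))
    (hΔ : Δ ≤ intGroup σ) (hsurj : Function.Surjective (proj Δ)) (hne : homSpace ρ σ ≠ ⊥) :
    dot (homSpace ρ σ) = ⊤ := by
  have h1 : Stable (homRep ρ σ Δ hΔ) ⊤ ⊤ := fun _ _ _ _ => Submodule.mem_top
  have h2 := stable_dot ρ σ Δ hΔ h1
  rw [Submodule.map_subtype_top] at h2
  rcases ((isIrreducible_iff ρ).1 hρ).2 (dot (homSpace ρ σ)) (fun g v hv => by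
    obtain ⟨x, rfl⟩ := hsurj g
    exact h2 _ ⟨x, Subgroup.mem_top x, rfl⟩ v hv) with h | h
  · exfalso
    apply hne
    rw [eq_bot_iff]
    intro f hf
    rw [Submodule.mem_bot]
    ext s
    have := mem_dot hf s
    rw [h, Submodule.mem_bot] at this
    exact this
  · exact h

/-- The dimension formula. -/
theorem finrank_eq_mul (ρ : Representation ℂ G V) (hρ : ρ.IsIrreducible) {N : Subgroup G}
    [hN : N.Normal] (σ : Representation ℂ N S) (hσ : σ.IsIrreducible)
    (Δ : Subgroup (G × (S →ₗ[ℂ] S)ˣ))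
    (hΔ : Δ ≤ intGroup σ) (hsurj : Function.Surjective (proj Δ)) (hne : homSpace ρ σ ≠ ⊥) :
    finrank ℂ V = finrank ℂ S * finrank ℂ (homSpace ρ σ) := by
  rw [← finrank_dot ρ σ hσ le_rfl, dot_homSpace ρ hρ σ Δ hΔ hsurj hne, finrank_top]

/-- `Hom_N(S, V)` is irreducible. -/
theorem homRep_isIrreducible (ρ : Representation ℂ G V) (hρ : ρ.IsIrreducible) {N : Subgroup G}
    [hN : N.Normal] (σ : Representation ℂ N S) (hσ : σ.IsIrreducible)
    (Δ : Subgroup (G × (S →ₗ[ℂ] S)ˣ))
    (hΔ : Δ ≤ intGroup σ) (hsurj : Function.Surjective (proj Δ)) (hne : homSpace ρ σ ≠ ⊥) :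
    (homRep ρ σ Δ hΔ).IsIrreducible := by
  rw [isIrreducible_iff]
  refine ⟨(Submodule.nontrivial_iff_ne_bot).2 hne, fun W hW => ?_⟩
  have h1 : Stable (homRep ρ σ Δ hΔ) ⊤ W := fun x _ w hw => hW x w hw
  have h2 := stable_dot ρ σ Δ hΔ h1
  rcases ((isIrreducible_iff ρ).1 hρ).2 (dot (W.map (homSpace ρ σ).subtype)) (fun g v hv => by
    obtain ⟨x, rfl⟩ := hsurj g
    exact h2 _ ⟨x, Subgroup.mem_top x, rfl⟩ v hv) with h | h
  · left
    rw [eq_bot_iff]
    intro f hf
    rw [Submodule.mem_bot]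
    apply Subtype.ext
    ext s
    have : ((homSpace ρ σ).subtype f) s ∈ dot (W.map (homSpace ρ σ).subtype) :=
      mem_dot (Submodule.mem_map_of_mem (f := (homSpace ρ σ).subtype) hf) s
    rw [h, Submodule.mem_bot] at this
    exact this
  · right
    rw [eq_top_iff]
    rintro f -
    have := mem_of_forall_mem_dot ρ σ hσ (map_subtype_le ρ σ W) f.2 (fun s => by
      rw [h]; trivial)
    obtain ⟨f', hf', hff'⟩ := this
    have : f' = f := Subtype.ext hff'
    rwa [← this]

/-- Homogeneity passes to `Hom_N(S, V)`. -/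
theorem homRep_homog (ρ : Representation ℂ G V) {N : Subgroup G}
    [hN : N.Normal] (σ : Representation ℂ N S) (hσ : σ.IsIrreducible)
    (Δ : Subgroup (G × (S →ₗ[ℂ] S)ˣ)) (hΔ : Δ ≤ intGroup σ) (K : Subgroup Δ)
    (hK : Homog ρ (N ⊔ K.map (proj Δ))) : Homog (homRep ρ σ Δ hΔ) K := by
  intro W₁ W₂ h₁ h₂ hs₁ hs₂
  have hst : ∀ W : Submodule ℂ (homSpace ρ σ), Stable (homRep ρ σ Δ hΔ) K W →
      Stable ρ (N ⊔ K.map (proj Δ)) (dot (W.map (homSpace ρ σ).subtype)) := by
    intro W hW g hg v hv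
    obtain ⟨n, hn, k, hk, rfl⟩ := Subgroup.mem_sup_of_normal_left.1 hg
    rw [map_mul]
    exact stable_dot_self ρ σ (map_subtype_le ρ σ W) n hn _ (stable_dot ρ σ Δ hΔ hW k hk v hv)
  have hbot : ∀ W : Submodule ℂ (homSpace ρ σ), W ≠ ⊥ →
      dot (W.map (homSpace ρ σ).subtype) ≠ ⊥ := by
    intro W hW h
    apply hW
    rw [eq_bot_iff]
    intro f hf
    rw [Submodule.mem_bot]
    apply Subtype.ext
    ext s
    have : ((homSpace ρ σ).subtype f) s ∈ dot (W.map (homSpace ρ σ).subtype) :=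
      mem_dot (Submodule.mem_map_of_mem (f := (homSpace ρ σ).subtype) hf) s
    rw [h, Submodule.mem_bot] at this
    exact this
  obtain ⟨T, hT, hT12, v, hv, hTv⟩ := hK _ _ (hbot W₁ h₁) (hbot W₂ h₂) (hst W₁ hs₁) (hst W₂ hs₂)
  have hTN : ∀ n : N, T * ρ n = ρ n * T := fun n => hT n (Subgroup.mem_sup_left n.2)
  let T' : homSpace ρ σ →ₗ[ℂ] homSpace ρ σ :=
    { toFun := fun f => ⟨T ∘ₗ (f : S →ₗ[ℂ] V), by
        rw [mem_homSpace]
        intro n
        have h3 : T ∘ₗ ρ n = ρ n ∘ₗ T := hTN n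
        rw [LinearMap.comp_assoc, (mem_homSpace ρ σ _).1 f.2 n, ← LinearMap.comp_assoc, h3,
          LinearMap.comp_assoc]⟩
      map_add' := by
        intro f g
        apply Subtype.ext
        simp [LinearMap.comp_add]
      map_smul' := by
        intro c f
        apply Subtype.ext
        simp [LinearMap.comp_smul] }
  have hT' : ∀ f : homSpace ρ σ, ((T' f : homSpace ρ σ) : S →ₗ[ℂ] V) = T ∘ₗ (f : S →ₗ[ℂ] V) :=
    fun f => rfl
  refine ⟨T', fun x hx => ?_, fun f hf => ?_, ?_⟩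
  · apply LinearMap.ext
    intro f
    apply Subtype.ext
    rw [Module.End.mul_apply, Module.End.mul_apply, hT', homRep_apply, homRep_apply, hT']
    have h3 : T ∘ₗ ρ (proj Δ x) = ρ (proj Δ x) ∘ₗ T :=
      hT _ (Subgroup.mem_sup_right ⟨x, hx, rfl⟩)
    rw [← LinearMap.comp_assoc, h3, LinearMap.comp_assoc, LinearMap.comp_assoc]
  · have := mem_of_forall_mem_dot ρ σ hσ (map_subtype_le ρ σ W₂) (T' f).2 (fun s => by
      rw [hT']
      exact hT12 _ (mem_dot (Submodule.mem_map_of_mem (f := (homSpace ρ σ).subtype) hf) s))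
    obtain ⟨f', hf', hff'⟩ := this
    have h4 : f' = T' f := Subtype.ext hff'
    rwa [← h4]
  · by_contra hcon
    push Not at hcon
    apply hTv
    clear hTv
    induction hv using Submodule.span_induction with
    | mem v hv =>
      obtain ⟨f, hf, s, rfl⟩ := hv
      obtain ⟨f', hf', rfl⟩ := hf
      have h5 := hcon f' hf'
      have h6 := congrArg (fun f : homSpace ρ σ => (f : S →ₗ[ℂ] V) s) h5
      exact h6
    | zero => rw [map_zero]
    | add a b _ _ ha hb => rw [map_add, ha, hb, add_zero]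
    | smul c a _ ha => rw [map_smul, ha, smul_zero]

/-- The maps with image in `W₀`. -/
def homInto (ρ : Representation ℂ G V) {N : Subgroup G} (σ : Representation ℂ N S)
    (W₀ : Submodule ℂ V) : Submodule ℂ (homSpace ρ σ) where
  carrier := {f | ∀ s, (f : S →ₗ[ℂ] V) s ∈ W₀}
  add_mem' := fun hf hg s => W₀.add_mem (hf s) (hg s)
  zero_mem' := fun _ => W₀.zero_mem
  smul_mem' := fun c _ hf s => W₀.smul_mem c (hf s)

omit [FiniteDimensional ℂ V] [FiniteDimensional ℂ S] in
theorem mem_homInto (ρ : Representation ℂ G V) {N : Subgroup G} (σ : Representation ℂ N S)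
    (W₀ : Submodule ℂ V) (f : homSpace ρ σ) :
    f ∈ homInto ρ σ W₀ ↔ ∀ s, (f : S →ₗ[ℂ] V) s ∈ W₀ := Iff.rfl

omit [FiniteDimensional ℂ V] [FiniteDimensional ℂ S] in
theorem stable_homInto (ρ : Representation ℂ G V) {N : Subgroup G} [hN : N.Normal]
    (σ : Representation ℂ N S) (Δ : Subgroup (G × (S →ₗ[ℂ] S)ˣ)) (hΔ : Δ ≤ intGroup σ)
    {H : Subgroup G} {W₀ : Submodule ℂ V} (h : Stable ρ H W₀) :
    Stable (homRep ρ σ Δ hΔ) (H.comap (proj Δ)) (homInto ρ σ W₀) := by
  intro x hx f hf s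
  rw [homRep_apply]
  exact h _ hx _ (hf _)

theorem finrank_homInto (ρ : Representation ℂ G V) {N : Subgroup G}
    (σ : Representation ℂ N S) (hσ : σ.IsIrreducible) (W₀ : Submodule ℂ V) :
    finrank ℂ S * finrank ℂ (homInto ρ σ W₀) ≤ finrank ℂ W₀ := by
  have h1 : dot ((homInto ρ σ W₀).map (homSpace ρ σ).subtype) ≤ W₀ := by
    apply dot_le
    rintro _ ⟨f, hf, rfl⟩ s
    exact hf s
  have h2 := Submodule.finrank_mono h1
  rw [finrank_dot ρ σ hσ (map_subtype_le ρ σ _)] at h2
  rwa [LinearEquiv.finrank_eq (Submodule.equivMapOfInjective (homSpace ρ σ).subtype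
    (Submodule.subtype_injective _) (homInto ρ σ W₀))]

end Action

end Cfsg.Agent.CharactersDeep.BergerTensor
end

-- part: CharactersDeep/BergerTrace
section
/-!
# Trace computations for Berger's theorem

If a representation is scalar on a subgroup `Z` and its character vanishes off `Z`, then the index
of `Z` times the dimension of the endomorphism algebra is the square of the degree.
-/

set_option autoImplicit false

namespace Cfsg.Agent.CharactersDeep.BergerTrace

open Cfsg Representation Module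
open Cfsg.Agent.CharactersDeep.BergerDefs

variable {G V : Type*} [Group G] [Finite G] [AddCommGroup V] [Module ℂ V] [FiniteDimensional ℂ V]

/-- The sum of `χ(g) χ(g⁻¹)` when `χ` is scalar on `Z` and zero off `Z`. -/
theorem index_mul_finrank (ρ : Representation ℂ G V) (hV : 0 < finrank ℂ V) (Z : Subgroup G)
    (hZ : ∀ z ∈ Z, ∃ c : ℂ, ρ z = c • (1 : V →ₗ[ℂ] V))
    (h : ∀ g, g ∉ Z → LinearMap.trace ℂ V (ρ g) = 0) :
    Z.index * finrank ℂ (IntertwiningMap ρ ρ) = finrank ℂ V ^ 2 := by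
  classical
  have : Fintype G := Fintype.ofFinite G
  have hcard : (Nat.card G : ℂ) ≠ 0 := by exact_mod_cast Nat.card_pos.ne'
  have : Invertible (Nat.card G : ℂ) := invertibleOfNonzero hcard
  have key := card_inv_mul_sum_char_mul_char_eq_finrank ρ ρ
  have hnt : Nontrivial V := Module.finrank_pos_iff.1 hV
  have hterm : ∀ g : G, ρ.character g * ρ.character g⁻¹ =
      if g ∈ Z then (finrank ℂ V : ℂ) ^ 2 else 0 := by
    intro g
    split_ifs with hg
    · obtain ⟨c, hc⟩ := hZ g hg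
      obtain ⟨c', hc'⟩ := hZ g⁻¹ (Z.inv_mem hg)
      have hcc : c * c' = 1 := by
        have h1 : ρ g * ρ g⁻¹ = 1 := by rw [← map_mul, mul_inv_cancel, map_one]
        rw [hc, hc', smul_mul_smul_comm, mul_one] at h1
        obtain ⟨v, hv⟩ := exists_ne (0 : V)
        have h2 := congrArg (fun T : V →ₗ[ℂ] V => T v) h1
        simp only [LinearMap.smul_apply, Module.End.one_apply] at h2
        have h3 : (c * c' - 1) • v = 0 := by rw [sub_smul, h2, one_smul, sub_self]
        rcases smul_eq_zero.1 h3 with h4 | h4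
        · exact sub_eq_zero.1 h4
        · exact absurd h4 hv
      have e1 : ρ.character g = c * finrank ℂ V := by
        change LinearMap.trace ℂ V (ρ g) = _
        rw [hc, map_smul, LinearMap.trace_one, smul_eq_mul]
      have e2 : ρ.character g⁻¹ = c' * finrank ℂ V := by
        change LinearMap.trace ℂ V (ρ g⁻¹) = _
        rw [hc', map_smul, LinearMap.trace_one, smul_eq_mul]
      rw [e1, e2]
      calc c * (finrank ℂ V : ℂ) * (c' * (finrank ℂ V : ℂ))
          = (c * c') * (finrank ℂ V : ℂ) ^ 2 := by ring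
        _ = _ := by rw [hcc, one_mul]
    · have : ρ.character g = 0 := h g hg
      rw [this, zero_mul]
  have hsum : ∑ g : G, ρ.character g * ρ.character g⁻¹ =
      (Nat.card Z : ℂ) * (finrank ℂ V : ℂ) ^ 2 := by
    rw [Finset.sum_congr rfl (fun g _ => hterm g), Finset.sum_ite, Finset.sum_const_zero, add_zero,
      Finset.sum_const, nsmul_eq_mul]
    congr 2
    rw [← Fintype.card_subtype, ← Nat.card_eq_fintype_card]
  rw [hsum] at key
  have hidx : (Nat.card G : ℂ) = (Nat.card Z : ℂ) * (Z.index : ℂ) := by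
    rw [← Nat.cast_mul, Z.card_mul_index]
  have hZ0 : (Nat.card Z : ℂ) ≠ 0 := by exact_mod_cast Nat.card_pos.ne'
  have h5 : (Nat.card Z : ℂ) * (finrank ℂ V : ℂ) ^ 2 =
      (Nat.card G : ℂ) * (finrank ℂ (IntertwiningMap ρ ρ) : ℂ) := by
    rw [← key, ← mul_assoc, mul_inv_cancel₀ hcard, one_mul]
  rw [hidx, mul_assoc] at h5
  have h6 := mul_left_cancel₀ hZ0 h5
  exact_mod_cast h6.symm

theorem index_dvd_sq (ρ : Representation ℂ G V) (hV : 0 < finrank ℂ V) (Z : Subgroup G)
    (hZ : ∀ z ∈ Z, ∃ c : ℂ, ρ z = c • (1 : V →ₗ[ℂ] V))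
    (h : ∀ g, g ∉ Z → LinearMap.trace ℂ V (ρ g) = 0) : Z.index ∣ finrank ℂ V ^ 2 :=
  ⟨_, (index_mul_finrank ρ hV Z hZ h).symm⟩

theorem index_eq_sq (ρ : Representation ℂ G V) (hρ : ρ.IsIrreducible) (Z : Subgroup G)
    (hZ : ∀ z ∈ Z, ∃ c : ℂ, ρ z = c • (1 : V →ₗ[ℂ] V))
    (h : ∀ g, g ∉ Z → LinearMap.trace ℂ V (ρ g) = 0) : Z.index = finrank ℂ V ^ 2 := by
  have hV : 0 < finrank ℂ V := by
    rw [Module.finrank_pos_iff]
    by_contra hn
    rw [not_nontrivial_iff_subsingleton] at hn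
    have hne : (⊥ : Subrepresentation ρ) ≠ ⊤ := bot_ne_top
    exact hne (Subrepresentation.toSubmodule_injective (Subsingleton.elim _ _))
  have h1 := index_mul_finrank ρ hV Z hZ h
  rwa [IsIrreducible.finrank_intertwiningMap_self, mul_one] at h1

/-- The span of the translates of an `H`-stable subspace under `K ≥ H`. -/
theorem exists_stable_extend (ρ : Representation ℂ G V) {H K : Subgroup G} (hHK : H ≤ K)
    {W : Submodule ℂ V} (hW : Stable ρ H W) :
    ∃ W' : Submodule ℂ V, W ≤ W' ∧ Stable ρ K W' ∧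
      finrank ℂ W' ≤ H.relIndex K * finrank ℂ W := by
  classical
  -- translates indexed by the cosets
  let H' : Subgroup K := H.subgroupOf K
  let f : (K ⧸ H') → Submodule ℂ V := fun q => W.map (ρ ((q.out : K) : G))
  have hkey : ∀ k : K, W.map (ρ (k : G)) = f (k : K ⧸ H') := by
    intro k
    have h1 : ((QuotientGroup.mk k : K ⧸ H').out)⁻¹ * k ∈ H' := by
      rw [← QuotientGroup.eq, QuotientGroup.out_eq']
    have h2 : ((((QuotientGroup.mk k : K ⧸ H').out)⁻¹ * k : K) : G) ∈ H :=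
      Subgroup.mem_subgroupOf.1 h1
    set o : K := (QuotientGroup.mk k : K ⧸ H').out with ho
    have hfix : ∀ x ∈ H, W.map (ρ x) = W := by
      intro x hx
      apply le_antisymm
      · rintro _ ⟨w, hw, rfl⟩
        exact hW x hx w hw
      · intro w hw
        refine ⟨ρ x⁻¹ w, hW x⁻¹ (H.inv_mem hx) w hw, ?_⟩
        rw [← Module.End.mul_apply, ← map_mul, mul_inv_cancel, map_one, Module.End.one_apply]
    have h3 : ρ (k : G) = ρ (o : G) ∘ₗ ρ ((o⁻¹ * k : K) : G) := by
      change ρ (k : G) = ρ (o : G) * ρ ((o⁻¹ * k : K) : G)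
      rw [← map_mul]
      congr 1
      push_cast
      group
    change W.map (ρ (k : G)) = W.map (ρ (o : G))
    rw [h3, Submodule.map_comp, hfix _ h2]
  refine ⟨⨆ q, f q, ?_, ?_, ?_⟩
  · have h1 : W = f ((1 : K) : K ⧸ H') := by
      rw [← hkey 1]
      rw [OneMemClass.coe_one, map_one]
      exact (Submodule.map_id W).symm
    calc W = f ((1 : K) : K ⧸ H') := h1
      _ ≤ ⨆ q, f q := le_iSup f _
  · intro k hk w hw
    have h1 : (⨆ q, f q).map (ρ k) ≤ ⨆ q, f q := by
      rw [Submodule.map_iSup]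
      refine iSup_le (fun q => ?_)
      have h2 : (f q).map (ρ k) = f (((⟨k, hk⟩ : K) * q.out : K) : K ⧸ H') := by
        rw [← hkey]
        change (W.map (ρ ((q.out : K) : G))).map (ρ k) = _
        rw [← Submodule.map_comp]
        congr 1
        change ρ k * ρ ((q.out : K) : G) = _
        rw [← map_mul]
        rfl
      rw [h2]
      exact le_iSup f _
    exact h1 ⟨w, hw, rfl⟩
  · have : Fintype (K ⧸ H') := Fintype.ofFinite _
    have h1 : finrank ℂ (⨆ q, f q : Submodule ℂ V) ≤ ∑ q : K ⧸ H', finrank ℂ (f q) := by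
      have aux : ∀ s : Finset (K ⧸ H'),
          finrank ℂ (s.sup f : Submodule ℂ V) ≤ ∑ q ∈ s, finrank ℂ (f q) := by
        intro s
        induction s using Finset.induction_on with
        | empty => simp
        | insert a s ha ih =>
          rw [Finset.sup_insert, Finset.sum_insert ha]
          exact (Submodule.finrank_add_le_finrank_add_finrank _ _).trans
            (Nat.add_le_add_left ih _)
      have h2 := aux Finset.univ
      rwa [Finset.sup_univ_eq_iSup] at h2
    refine h1.trans ?_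
    have h2 : ∀ q, finrank ℂ (f q) ≤ finrank ℂ W := fun q => Submodule.finrank_map_le _ _
    calc ∑ q : K ⧸ H', finrank ℂ (f q) ≤ ∑ _q : K ⧸ H', finrank ℂ W :=
          Finset.sum_le_sum (fun q _ => h2 q)
      _ = Fintype.card (K ⧸ H') * finrank ℂ W := by
          rw [Finset.sum_const, Finset.card_univ, smul_eq_mul]
      _ = H.relIndex K * finrank ℂ W := by
          rw [← Nat.card_eq_fintype_card]
          rfl

end Cfsg.Agent.CharactersDeep.BergerTrace
end

-- part: CharactersDeep/BergerCA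
section
/-!
# Joint eigenspaces of a commuting family permuted by an irreducible representation

If `R c` is a commuting family of operators permuted up to conjugation by the irreducible
representation `ρ`, then either all `R c` are scalar or `ρ` is imprimitive.
-/

set_option autoImplicit false

namespace Cfsg.Agent.CharactersDeep.BergerCA

open Cfsg Representation Module
open Cfsg.Agent.CharactersDeep.BergerDefs

/-- dimensions of independent subspaces add up to at most the whole dimension -/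
theorem sum_finrank_le {V ι : Type*} [Fintype ι] [AddCommGroup V] [Module ℂ V]
    [FiniteDimensional ℂ V] (p : ι → Submodule ℂ V) (h : iSupIndep p) :
    ∑ i, finrank ℂ (p i) ≤ finrank ℂ V := by
  classical
  have h1 := h.dfinsupp_lsum_injective
  have h2 := LinearMap.finrank_le_finrank_of_injective h1
  have h3 : finrank ℂ (Π₀ i, p i) = ∑ i, finrank ℂ (p i) :=
    Module.finrank_directSum (R := ℂ) (fun i => (p i : Type _))
  rw [h3] at h2
  exact h2

/-- a commuting family has a nonzero joint eigenspace -/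
theorem exists_joint {V : Type*} [AddCommGroup V] [Module ℂ V] [FiniteDimensional ℂ V]
    [Nontrivial V] {C : Type*} (R : C → Module.End ℂ V)
    (hcomm : ∀ c d, R c * R d = R d * R c) :
    ∃ χ : C → ℂ, (⨅ c, (R c).eigenspace (χ c)) ≠ ⊥ := by
  classical
  -- a nonzero submodule stable under all `R c`, of minimal dimension
  let P : ℕ → Prop := fun n => ∃ W : Submodule ℂ V, W ≠ ⊥ ∧ (∀ c, ∀ w ∈ W, R c w ∈ W) ∧
    finrank ℂ W = n
  have hP : ∃ n, P n := ⟨_, ⊤, top_ne_bot, fun c w _ => Submodule.mem_top, rfl⟩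
  obtain ⟨W, hW0, hWs, hWn⟩ := Nat.find_spec hP
  have hmin : ∀ W' : Submodule ℂ V, W' ≠ ⊥ → (∀ c, ∀ w ∈ W', R c w ∈ W') → W' ≤ W → W' = W := by
    intro W' h0 hs hle
    have h1 : Nat.find hP ≤ finrank ℂ W' := Nat.find_min' hP ⟨W', h0, hs, rfl⟩
    exact Submodule.eq_of_le_of_finrank_le hle (by rw [hWn]; exact h1)
  have key : ∀ c, ∃ z : ℂ, W ≤ (R c).eigenspace z := by
    intro c
    have : Nontrivial W := Submodule.nontrivial_iff_ne_bot.mpr hW0
    obtain ⟨z, hz⟩ := Module.End.exists_eigenvalue ((R c).restrict (hWs c))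
    obtain ⟨w, hw⟩ := hz.exists_hasEigenvector
    refine ⟨z, ?_⟩
    have h1 : W ⊓ (R c).eigenspace z = W := by
      apply hmin _ _ _ inf_le_left
      · intro h
        apply hw.2
        have h2 : (w : V) ∈ W ⊓ (R c).eigenspace z := by
          refine ⟨w.2, ?_⟩
          rw [SetLike.mem_coe, Module.End.mem_eigenspace_iff]
          have h3 := hw.apply_eq_smul
          have h4 := congrArg (Subtype.val) h3
          simpa using h4
        rw [h, Submodule.mem_bot] at h2
        exact Subtype.ext h2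
      · rintro d v ⟨hv1, hv2⟩
        refine ⟨hWs d v hv1, ?_⟩
        rw [SetLike.mem_coe, Module.End.mem_eigenspace_iff] at hv2 ⊢
        have h3 : R c (R d v) = R d (R c v) := by
          have := congrArg (fun f : Module.End ℂ V => f v) (hcomm c d)
          simpa [Module.End.mul_apply] using this
        rw [h3, hv2, map_smul]
    intro v hv
    rw [← h1] at hv
    exact hv.2
  choose χ hχ using key
  refine ⟨χ, fun h => hW0 ?_⟩
  rw [eq_bot_iff, ← h]
  exact le_iInf hχ

theorem indep_joint {V : Type*} [AddCommGroup V] [Module ℂ V] [FiniteDimensional ℂ V]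
    {C : Type*} (R : C → Module.End ℂ V) (hcomm : ∀ c d, R c * R d = R d * R c) :
    iSupIndep fun χ : C → ℂ => ⨅ c, (R c).eigenspace (χ c) := by
  have h1 := Module.End.independent_iInf_maxGenEigenspace_of_forall_mapsTo R (by
    intro i j φ
    exact Module.End.mapsTo_maxGenEigenspace_of_comm (hcomm j i) φ)
  refine h1.mono fun χ => iInf_mono fun c => ?_
  exact (R c).genEigenspace (χ c) |>.mono le_top

variable {G V : Type*} [Group G] [Finite G] [AddCommGroup V] [Module ℂ V]
  [FiniteDimensional ℂ V]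

theorem scalar_or_imprimitive (ρ : Representation ℂ G V) (hρ : ρ.IsIrreducible) {C : Type*}
    (R : C → V →ₗ[ℂ] V) (hcomm : ∀ c d, R c * R d = R d * R c)
    (hconj : ∀ (g : G) (c : C), ∃ d : C, ρ g * R c = R d * ρ g) :
    (∀ c, ∃ z : ℂ, R c = z • (1 : V →ₗ[ℂ] V)) ∨
      ∃ (J : Subgroup G) (W : Submodule ℂ V), J ≠ ⊤ ∧ W ≠ ⊥ ∧ Stable ρ J W ∧
        J.index * finrank ℂ W ≤ finrank ℂ V := by
  classical
  -- the representation is nonzero and irreducible
  have hirr := hρ
  have hnt : Nontrivial V := by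
    by_contra h2
    rw [not_nontrivial_iff_subsingleton] at h2
    have h1 : (⊥ : Subrepresentation ρ) ≠ ⊤ := bot_ne_top
    exact h1 (Subrepresentation.toSubmodule_injective (Subsingleton.elim _ _))
  obtain ⟨χ, hχ⟩ := exists_joint R hcomm
  set E : (C → ℂ) → Submodule ℂ V := fun ψ => ⨅ c, Module.End.eigenspace (R c) (ψ c) with hE
  have memE : ∀ (ψ : C → ℂ) (v : V), v ∈ E ψ ↔ ∀ c, R c v = ψ c • v := by
    intro ψ v
    rw [hE]
    simp only [Submodule.mem_iInf, Module.End.mem_eigenspace_iff]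
  have hind : iSupIndep E := indep_joint R hcomm
  -- the action on characters
  have hex : ∀ (g : G) (d : C), ∃ c : C, R d * ρ g = ρ g * R c := by
    intro g d
    obtain ⟨c, hc⟩ := hconj g⁻¹ d
    refine ⟨c, ?_⟩
    have h1 : ρ g * (ρ g⁻¹ * R d) * ρ g = ρ g * (R c * ρ g⁻¹) * ρ g := by rw [hc]
    have h2 : ρ g * ρ g⁻¹ = 1 := by rw [← map_mul, mul_inv_cancel, map_one]
    have h3 : ρ g⁻¹ * ρ g = 1 := by rw [← map_mul, inv_mul_cancel, map_one]
    calc R d * ρ g = ρ g * (ρ g⁻¹ * R d) * ρ g := by rw [← mul_assoc, h2, one_mul]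
      _ = ρ g * (R c * ρ g⁻¹) * ρ g := h1
      _ = ρ g * R c := by rw [mul_assoc, mul_assoc (R c), h3, mul_one]
  choose κ hκ using hex
  -- translate of a character
  let tr : G → (C → ℂ) → (C → ℂ) := fun g ψ d => ψ (κ g d)
  have htr : ∀ (g : G) (ψ : C → ℂ) (v : V), v ∈ E ψ → ρ g v ∈ E (tr g ψ) := by
    intro g ψ v hv
    rw [memE] at hv ⊢
    intro d
    have h1 := congrArg (fun f : Module.End ℂ V => f v) (hκ g d)
    simp only [Module.End.mul_apply] at h1
    rw [h1, hv, map_smul]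
  have hEne : ∀ (ψ ψ' : C → ℂ) (v : V), v ≠ 0 → v ∈ E ψ → v ∈ E ψ' → ψ = ψ' := by
    intro ψ ψ' v hv h1 h2
    funext c
    have h3 := (memE ψ v).mp h1 c
    have h4 := (memE ψ' v).mp h2 c
    exact smul_left_injective ℂ hv (h3.symm.trans h4)
  obtain ⟨v0, hv0, hv0ne⟩ := Submodule.exists_mem_ne_zero_of_ne_bot hχ
  have hinv : ∀ (g : G) (v : V), ρ g⁻¹ (ρ g v) = v := by
    intro g v
    rw [← Module.End.mul_apply, ← map_mul, inv_mul_cancel, map_one, Module.End.one_apply]
  have hinv' : ∀ (g : G) (v : V), ρ g (ρ g⁻¹ v) = v := by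
    intro g v
    rw [← Module.End.mul_apply, ← map_mul, mul_inv_cancel, map_one, Module.End.one_apply]
  have hne0 : ∀ (g : G) (v : V), v ≠ 0 → ρ g v ≠ 0 := by
    intro g v hv h
    apply hv
    rw [← hinv g v, h, map_zero]
  -- back translation
  have hback : ∀ (g : G) (v : V), v ∈ E (tr g χ) → ρ g⁻¹ v ∈ E χ := by
    intro g v hv
    have h1 := htr g⁻¹ (tr g χ) v hv
    have h2 := htr g⁻¹ (tr g χ) (ρ g v0) (htr g χ v0 hv0)
    rw [hinv] at h2
    have h3 : tr g⁻¹ (tr g χ) = χ := hEne _ _ v0 hv0ne h2 hv0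
    rwa [h3] at h1
  -- the stabiliser of the joint eigenspace
  let J : Subgroup G :=
    { carrier := {g | tr g χ = χ}
      one_mem' := by
        show tr 1 χ = χ
        have h := htr 1 χ v0 hv0
        rw [map_one, Module.End.one_apply] at h
        exact hEne _ _ v0 hv0ne h hv0
      mul_mem' := by
        intro a b ha hb
        change tr a χ = χ at ha
        change tr b χ = χ at hb
        show tr (a * b) χ = χ
        have h1 := htr (a * b) χ v0 hv0
        have h2 := htr b χ v0 hv0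
        rw [hb] at h2
        have h3 := htr a χ _ h2
        rw [ha, ← Module.End.mul_apply, ← map_mul] at h3
        exact hEne _ _ _ (hne0 _ _ hv0ne) h1 h3
      inv_mem' := by
        intro a ha
        change tr a χ = χ at ha
        show tr a⁻¹ χ = χ
        have h1 := htr a⁻¹ χ v0 hv0
        have h2 := hback a v0 (by rw [ha]; exact hv0)
        exact hEne _ _ _ (hne0 _ _ hv0ne) h1 h2 }
  have hJ : ∀ g : G, g ∈ J ↔ tr g χ = χ := fun g => Iff.rfl
  by_cases hJtop : J = ⊤
  · left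
    have hst : ∀ g : G, ∀ v ∈ E χ, ρ g v ∈ E χ := by
      intro g v hv
      have h1 : g ∈ J := by rw [hJtop]; exact Subgroup.mem_top g
      have h2 := htr g χ v hv
      rwa [(hJ g).mp h1] at h2
    let U : Subrepresentation ρ := ⟨E χ, fun g v hv => hst g v hv⟩
    have htop : E χ = ⊤ := by
      rcases eq_bot_or_eq_top U with h1 | h1
      · exact absurd (congrArg Subrepresentation.toSubmodule h1) hχ
      · exact congrArg Subrepresentation.toSubmodule h1
    intro c
    refine ⟨χ c, LinearMap.ext fun v => ?_⟩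
    have h1 : v ∈ E χ := by rw [htop]; exact Submodule.mem_top
    rw [LinearMap.smul_apply, Module.End.one_apply]
    exact (memE χ v).mp h1 c
  · right
    refine ⟨J, E χ, hJtop, hχ, ?_, ?_⟩
    · intro g hg v hv
      have h2 := htr g χ v hv
      rwa [(hJ g).mp hg] at h2
    · -- the translates by coset representatives
      have : Fintype (G ⧸ J) := Fintype.ofFinite _
      have hinj : Function.Injective (fun q : G ⧸ J => tr q.out χ) := by
        intro q₁ q₂ h
        change tr q₁.out χ = tr q₂.out χ at h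
        rw [← q₁.out_eq', ← q₂.out_eq', QuotientGroup.eq, hJ]
        have h1 := htr q₂.out χ v0 hv0
        rw [← h] at h1
        have h2 := hback q₁.out _ h1
        have h3 := htr (q₁.out⁻¹ * q₂.out) χ v0 hv0
        rw [map_mul, Module.End.mul_apply] at h3
        exact hEne _ _ _ (hne0 _ _ (hne0 _ _ hv0ne)) h3 h2
      have h1 : iSupIndep (fun q : G ⧸ J => E (tr q.out χ)) := hind.comp hinj
      have h2 := sum_finrank_le _ h1
      have h3 : ∀ g : G, finrank ℂ (E χ) ≤ finrank ℂ (E (tr g χ)) := by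
        intro g
        have hmap : ∀ v ∈ E χ, (ρ g : V →ₗ[ℂ] V) v ∈ E (tr g χ) := fun v hv => htr g χ v hv
        apply LinearMap.finrank_le_finrank_of_injective (f := (ρ g : V →ₗ[ℂ] V).restrict hmap)
        intro x y hxy
        have h4 : ρ g (x : V) = ρ g (y : V) := congrArg Subtype.val hxy
        have h5 := congrArg (ρ g⁻¹) h4
        rw [hinv, hinv] at h5
        exact Subtype.ext h5
      calc J.index * finrank ℂ (E χ) = ∑ _q : G ⧸ J, finrank ℂ (E χ) := by
            rw [Finset.sum_const, Finset.card_univ, smul_eq_mul, Subgroup.index,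
              Nat.card_eq_fintype_card]
        _ ≤ ∑ q : G ⧸ J, finrank ℂ (E (tr q.out χ)) := Finset.sum_le_sum fun q _ => h3 _
        _ ≤ finrank ℂ V := h2

end Cfsg.Agent.CharactersDeep.BergerCA
end

-- part: CharactersDeep/BergerMain
section
/-!
# Berger's theorem: quasi-primitive representations of solvable groups are primitive
-/

set_option autoImplicit false

namespace Cfsg.Agent.CharactersDeep.BergerMain

open Cfsg Representation Module Cfsg.Agent.CharactersDeep.BergerDefs Cfsg.Agent.CharDeep.ProjExt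
open Cfsg.Agent.CharDeep.LinearChar Cfsg.Agent.CharDeep.IrrEquiv
open Cfsg.Agent.CharactersDeep.BergerTensor Cfsg.Agent.CharactersDeep.BergerTrace
open Cfsg.Agent.CharDeep.TripleCover

section Prelim

variable {G V : Type*} [Group G] [AddCommGroup V] [Module ℂ V]

theorem rep_apply_apply (ρ : Representation ℂ G V) (a b : G) (v : V) :
    ρ a (ρ b v) = ρ (a * b) v := by
  rw [map_mul]
  rfl

/-- An element whose commutator with some element is a scalar, but which does not commute with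
it, has trace zero. -/
theorem trace_eq_zero (ρ : Representation ℂ G V) {g x : G} {c : ℂ}
    (hc : ρ (g * x * g⁻¹ * x⁻¹) = c • (1 : V →ₗ[ℂ] V)) (hne : ρ g * ρ x ≠ ρ x * ρ g) :
    LinearMap.trace ℂ V (ρ g) = 0 := by
  have h1 : ρ g * ρ x = c • (ρ x * ρ g) := by
    have : g * x = (g * x * g⁻¹ * x⁻¹) * (x * g) := by group
    rw [← map_mul, this, map_mul, hc, map_mul, smul_mul_assoc, one_mul]
  have hc1 : c ≠ 1 := by
    rintro rfl
    rw [one_smul] at h1
    exact hne h1
  have h2 : ρ g = c • (ρ x * ρ g * ρ x⁻¹) := by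
    rw [← smul_mul_assoc, ← h1, mul_assoc, ← map_mul, mul_inv_cancel, map_one, mul_one]
  have h3 : LinearMap.trace ℂ V (ρ x * ρ g * ρ x⁻¹) = LinearMap.trace ℂ V (ρ g) := by
    rw [LinearMap.trace_mul_comm, ← mul_assoc, ← map_mul, inv_mul_cancel, map_one, one_mul]
  have h4 : LinearMap.trace ℂ V (ρ g) = c * LinearMap.trace ℂ V (ρ g) := by
    conv_lhs => rw [h2, map_smul, h3, smul_eq_mul]
  have h5 : (1 - c) * LinearMap.trace ℂ V (ρ g) = 0 := by linear_combination h4
  rcases mul_eq_zero.1 h5 with h | h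
  · exact absurd (sub_eq_zero.1 h).symm hc1
  · exact h

/-- Every operator on a line is a scalar. -/
theorem eq_smul_of_finrank_one (h : finrank ℂ V = 1) (T : V →ₗ[ℂ] V) :
    ∃ c : ℂ, T = c • (1 : V →ₗ[ℂ] V) := by
  obtain ⟨v, hv, hspan⟩ := finrank_eq_one_iff'.1 h
  obtain ⟨c, hc⟩ := hspan (T v)
  refine ⟨c, ?_⟩
  ext w
  obtain ⟨d, rfl⟩ := hspan w
  rw [map_smul, ← hc, LinearMap.smul_apply, Module.End.one_apply, smul_comm]

theorem map_eq_bot_iff_of_inj {V W : Type*} [AddCommGroup V] [Module ℂ V] [AddCommGroup W]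
    [Module ℂ W] {f : V →ₗ[ℂ] W} (hf : Function.Injective f) {U : Submodule ℂ V} :
    U.map f = ⊥ ↔ U = ⊥ := by
  constructor
  · intro h
    rw [eq_bot_iff]
    intro u hu
    have : f u ∈ U.map f := Submodule.mem_map_of_mem hu
    rw [h, Submodule.mem_bot] at this
    rw [Submodule.mem_bot]
    apply hf
    rw [this, map_zero]
  · rintro rfl
    exact Submodule.map_bot f

/-- Nonzero stable subspaces contain irreducible ones. -/
theorem exists_simple_sub [FiniteDimensional ℂ V] (ρ : Representation ℂ G V) (N : Subgroup G)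
    {W : Submodule ℂ V} (hW : W ≠ ⊥) (hs : Stable ρ N W) :
    ∃ (S : Submodule ℂ V) (hS : Stable ρ N S), S ≤ W ∧ (subRep ρ N S hS).IsIrreducible := by
  obtain ⟨S, ⟨hS1, hS2, hS3⟩, hmin⟩ := wellFounded_lt.has_min
    {S : Submodule ℂ V | S ≠ ⊥ ∧ S ≤ W ∧ Stable ρ N S} ⟨W, hW, le_rfl, hs⟩
  refine ⟨S, hS3, hS2, ?_⟩
  rw [isIrreducible_iff]
  refine ⟨(Submodule.nontrivial_iff_ne_bot).2 hS1, fun U hU => ?_⟩
  by_cases hU0 : U = ⊥
  · exact Or.inl hU0
  · right
    by_contra hUt
    have h1 : U.map S.subtype ≠ ⊥ := by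
      exact fun h => hU0 ((map_eq_bot_iff_of_inj S.subtype_injective).1 h)
    have h2 : U.map S.subtype < S := by
      refine lt_of_le_of_ne (Submodule.map_subtype_le _ _) (fun h => hUt ?_)
      rw [eq_top_iff]
      rintro x -
      have : (x : V) ∈ U.map S.subtype := by rw [h]; exact x.2
      obtain ⟨y, hy, hyx⟩ := this
      have : y = x := Subtype.ext hyx
      rwa [← this]
    refine hmin (U.map S.subtype) ⟨h1, h2.le.trans hS2, ?_⟩ h2
    rintro n hn _ ⟨u, hu, rfl⟩
    exact ⟨_, hU ⟨n, hn⟩ u hu, rfl⟩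

/-- The character of an irreducible stable subspace is invariant. -/
theorem character_invariant [FiniteDimensional ℂ V] (ρ : Representation ℂ G V) (N : Subgroup G)
    [hN : N.Normal] (hhom : Homog ρ N) (S : Submodule ℂ V) (hS : Stable ρ N S)
    (hσ : (subRep ρ N S hS).IsIrreducible) (g : G) (n : N) :
    (subRep ρ N S hS).character (MulAut.conjNormal g n) = (subRep ρ N S hS).character n := by
  set σ := subRep ρ N S hS with hσdef
  have hnt := (isIrreducible_iff σ).1 hσ
  have hS0 : S ≠ ⊥ := (Submodule.nontrivial_iff_ne_bot).1 hnt.1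
  have hginj : Function.Injective (ρ g⁻¹) := by
    intro a b hab
    have := congrArg (ρ g) hab
    rwa [← Module.End.mul_apply, ← Module.End.mul_apply, ← map_mul, mul_inv_cancel, map_one]
      at this
  have h1 : S.map (ρ g⁻¹) ≠ ⊥ := by
    exact fun h => hS0 ((map_eq_bot_iff_of_inj hginj).1 h)
  have h2 : Stable ρ N (S.map (ρ g⁻¹)) := by
    rintro m hm _ ⟨s, hs, rfl⟩
    refine ⟨ρ (g * m * g⁻¹) s, hS _ (hN.conj_mem m hm g) s hs, ?_⟩
    rw [← Module.End.mul_apply, ← Module.End.mul_apply, ← map_mul, ← map_mul]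
    congr 2
    group
  obtain ⟨T, hT, hTS, v, hv, hTv⟩ := hhom S _ hS0 h1 hS h2
  let φ : S →ₗ[ℂ] S := ((ρ g) ∘ₗ T).restrict (p := S) (q := S) (by
    intro s hs
    obtain ⟨t, ht, hts⟩ := hTS s hs
    show ρ g (T s) ∈ S
    rw [← hts, ← Module.End.mul_apply, ← map_mul, mul_inv_cancel, map_one]
    exact ht)
  have hφ : ∀ s : S, ((φ s : S) : V) = ρ g (T s) := fun s => rfl
  have hφσ : ∀ m : N, φ ∘ₗ σ m = σ (MulAut.conjNormal g m) ∘ₗ φ := by
    intro m
    ext s
    have h3 : T (ρ m s) = ρ m (T s) := LinearMap.congr_fun (hT m m.2) s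
    have h4 : ρ g (ρ m (T s)) = ρ (MulAut.conjNormal g m : N) (ρ g (T s)) := by
      rw [rep_apply_apply, rep_apply_apply, MulAut.conjNormal_apply]
      congr 2
      group
    rw [LinearMap.comp_apply, LinearMap.comp_apply, hφ, subRep_apply, subRep_apply, hφ, h3, h4]
  have hker : LinearMap.ker φ = ⊥ := by
    rcases hnt.2 (LinearMap.ker φ) (fun m s hs => by
      rw [LinearMap.mem_ker] at hs ⊢
      have := LinearMap.congr_fun (hφσ m) s
      rw [LinearMap.comp_apply, LinearMap.comp_apply, hs, map_zero] at this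
      exact this) with h | h
    · exact h
    · exfalso
      apply hTv
      have : (⟨v, hv⟩ : S) ∈ LinearMap.ker φ := by rw [h]; trivial
      rw [LinearMap.mem_ker] at this
      have h3 : ρ g (T v) = 0 := congrArg Subtype.val this
      have h4 := congrArg (ρ g⁻¹) h3
      rwa [← Module.End.mul_apply, ← map_mul, inv_mul_cancel, map_one, map_zero] at h4
  let e : S ≃ₗ[ℂ] S := LinearEquiv.ofInjectiveEndo φ (LinearMap.ker_eq_bot.1 hker)
  have he : ∀ s, e s = φ s := fun s => rfl
  have h5 : σ (MulAut.conjNormal g n) = e.conj (σ n) := by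
    ext s
    obtain ⟨t, rfl⟩ := e.surjective s
    rw [LinearEquiv.conj_apply_apply, e.symm_apply_apply, he, he]
    have := LinearMap.congr_fun (hφσ n) t
    rw [LinearMap.comp_apply, LinearMap.comp_apply] at this
    rw [this]
  show LinearMap.trace ℂ S (σ (MulAut.conjNormal g n)) = LinearMap.trace ℂ S (σ n)
  rw [h5, LinearMap.trace_conj']

/-- The inclusion of a stable subspace is a nonzero element of the space of homomorphisms. -/
theorem subtype_mem_homSpace (ρ : Representation ℂ G V) (N : Subgroup G)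
    (S : Submodule ℂ V) (hS : Stable ρ N S) : S.subtype ∈ homSpace ρ (subRep ρ N S hS) := by
  rw [mem_homSpace]
  intro n
  ext s
  rfl

theorem homSpace_ne_bot (ρ : Representation ℂ G V) (N : Subgroup G)
    (S : Submodule ℂ V) (hS : Stable ρ N S) (hσ : (subRep ρ N S hS).IsIrreducible) :
    homSpace ρ (subRep ρ N S hS) ≠ ⊥ := by
  intro h
  have h1 := subtype_mem_homSpace ρ N S hS
  rw [h, Submodule.mem_bot] at h1
  have hnt := ((isIrreducible_iff _).1 hσ).1
  obtain ⟨s, hs⟩ := exists_ne (0 : S)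
  apply hs
  have := LinearMap.congr_fun h1 s
  exact Subtype.ext this

end Prelim

section Reduce

universe u

variable {G : Type u} [Group G] {V : Type} [AddCommGroup V] [Module ℂ V]
  [FiniteDimensional ℂ V]

/-- The finite cover attached to an irreducible stable subspace. -/
theorem exists_cover [Finite G] (ρ : Representation ℂ G V) (N : Subgroup G)
    [hN : N.Normal] (hhom : Homog ρ N) (S : Submodule ℂ V) (hS : Stable ρ N S)
    (hσ : (subRep ρ N S hS).IsIrreducible) :
    ∃ Δ : Subgroup (G × (S →ₗ[ℂ] S)ˣ), Finite Δ ∧ Δ ≤ intGroup (subRep ρ N S hS) ∧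
      Function.Surjective (proj Δ) ∧ (∀ n, sec (subRep ρ N S hS) n ∈ Δ) ∧
      (proj Δ).ker ≤ Subgroup.center Δ :=
  exists_finite_cover _ hσ (fun g n => character_invariant ρ N hhom S hS hσ g n)

/-- The statement to be proved by induction on the dimension. -/
def Primitive (ρ : Representation ℂ G V) : Prop :=
  ∀ (H : Subgroup G) (W : Submodule ℂ V), H ≠ ⊤ → W ≠ ⊥ → Stable ρ H W →
    finrank ℂ V < H.index * finrank ℂ W

/-- The induction hypothesis. -/
def IH (d : ℕ) : Prop :=
  ∀ (G : Type u) [Group G] [Finite G] [Group.IsSolvable G] (V : Type) [AddCommGroup V]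
    [Module ℂ V] [FiniteDimensional ℂ V] (ρ : Representation ℂ G V), finrank ℂ V < d →
    ρ.IsIrreducible → (∀ N : Subgroup G, N.Normal → Homog ρ N) → Primitive ρ

theorem reduce [Finite G] [hsol : Group.IsSolvable G] (ρ : Representation ℂ G V)
    (hρ : ρ.IsIrreducible)
    (hhom : ∀ N : Subgroup G, N.Normal → Homog ρ N) (ih : IH.{u} (finrank ℂ V))
    (N : Subgroup G) [hN : N.Normal] (S : Submodule ℂ V) (hS : Stable ρ N S)
    (hσ : (subRep ρ N S hS).IsIrreducible) (hdim : 1 < finrank ℂ S)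
    (Δ : Subgroup (G × (S →ₗ[ℂ] S)ˣ)) [hfin : Finite Δ] (hΔ : Δ ≤ intGroup (subRep ρ N S hS))
    (hsurj : Function.Surjective (proj Δ)) (hker : (proj Δ).ker ≤ Subgroup.center Δ) :
    Primitive (homRep ρ (subRep ρ N S hS) Δ hΔ) := by
  have hne := homSpace_ne_bot ρ N S hS hσ
  have hirr := homRep_isIrreducible ρ hρ (subRep ρ N S hS) hσ Δ hΔ hsurj hne
  have hd := finrank_eq_mul ρ hρ (subRep ρ N S hS) hσ Δ hΔ hsurj hne
  have hpos : 0 < finrank ℂ (homSpace ρ (subRep ρ N S hS)) := by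
    have := (Submodule.nontrivial_iff_ne_bot).2 hne
    exact finrank_pos
  have hlt : finrank ℂ (homSpace ρ (subRep ρ N S hS)) < finrank ℂ V := by
    rw [hd]
    exact lt_mul_of_one_lt_left hpos hdim
  have hsolK : Group.IsSolvable (proj Δ).ker := by
    apply Group.isSolvable_of_comm
    intro a b
    apply Subtype.ext
    exact ((Subgroup.mem_center_iff.1 (hker a.2)) b).symm
  have hsolΔ : Group.IsSolvable Δ :=
    Group.isSolvable_of_ker_le_range (proj Δ).ker.subtype (proj Δ) (by simp)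
  refine ih Δ (homSpace ρ (subRep ρ N S hS)) _ hlt hirr (fun K hK => ?_)
  refine homRep_homog ρ (subRep ρ N S hS) hσ Δ hΔ K (hhom _ ?_)
  have : (K.map (proj Δ)).Normal := hK.map _ hsurj
  infer_instance

/-- If `σ n` is a scalar on `S`, so is `ρ n` on `V`. -/
theorem scalar_of_scalar_sub (ρ : Representation ℂ G V)
    (N : Subgroup G) (S : Submodule ℂ V) (hS : Stable ρ N S)
    (hdot : dot (homSpace ρ (subRep ρ N S hS)) = ⊤) (n : N) (c : ℂ)
    (h : subRep ρ N S hS n = c • (1 : S →ₗ[ℂ] S)) : ρ n = c • (1 : V →ₗ[ℂ] V) := by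
  apply LinearMap.ext
  intro v
  have hv : v ∈ dot (homSpace ρ (subRep ρ N S hS)) := by rw [hdot]; trivial
  induction hv using Submodule.span_induction with
  | mem v hv =>
    obtain ⟨f, hf, s, rfl⟩ := hv
    have h1 := LinearMap.congr_fun ((mem_homSpace _ _ _).1 hf n) s
    rw [LinearMap.comp_apply, LinearMap.comp_apply, h] at h1
    rw [← h1]
    simp
  | zero => rw [map_zero, map_zero]
  | add a b _ _ ha hb => rw [map_add, map_add, ha, hb]
  | smul d a _ ha => rw [map_smul, map_smul, ha]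

/-- First reduction: `V` is scalar on the core of `H`. -/
theorem core_scalar [Finite G] [hsol : Group.IsSolvable G] (ρ : Representation ℂ G V)
    (hρ : ρ.IsIrreducible)
    (hhom : ∀ N : Subgroup G, N.Normal → Homog ρ N) (ih : IH.{u} (finrank ℂ V))
    (H : Subgroup G) (hH : H ≠ ⊤) (W : Submodule ℂ V) (hW : W ≠ ⊥) (hs : Stable ρ H W)
    (hle : H.index * finrank ℂ W ≤ finrank ℂ V) (l : G) (hl : l ∈ H.normalCore) :
    ∃ c : ℂ, ρ l = c • (1 : V →ₗ[ℂ] V) := by
  set L := H.normalCore with hL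
  have hsL : Stable ρ L W := fun x hx => hs x (H.normalCore_le hx)
  obtain ⟨S, hS, hSW, hσ⟩ := exists_simple_sub ρ L hW hsL
  obtain ⟨Δ, hfin, hΔ, hsurj, hsec, hker⟩ := exists_cover ρ L (hhom L inferInstance) S hS hσ
  have hne := homSpace_ne_bot ρ L S hS hσ
  have hdot := dot_homSpace ρ hρ (subRep ρ L S hS) Δ hΔ hsurj hne
  have hd := finrank_eq_mul ρ hρ (subRep ρ L S hS) hσ Δ hΔ hsurj hne
  have hSpos : 0 < finrank ℂ S := by
    have := ((isIrreducible_iff _).1 hσ).1
    exact finrank_pos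
  have hdim : finrank ℂ S = 1 := by
    by_contra hcon
    have h1 : 1 < finrank ℂ S := by omega
    have hprim := reduce ρ hρ hhom ih L S hS hσ h1 Δ hΔ hsurj hker
    have hidx : (H.comap (proj Δ)).index = H.index := Subgroup.index_comap_of_surjective H hsurj
    have h2 := hprim (H.comap (proj Δ)) (homInto ρ (subRep ρ L S hS) W) (by
        intro h
        apply hH
        rw [← Subgroup.index_eq_one, ← hidx, h, Subgroup.index_top]) (by
        intro h
        have h3 : (⟨S.subtype, subtype_mem_homSpace ρ L S hS⟩ :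
            homSpace ρ (subRep ρ L S hS)) ∈ homInto ρ (subRep ρ L S hS) W := by
          intro s
          exact hSW s.2
        rw [h, Submodule.mem_bot] at h3
        have h4 : S.subtype = 0 := congrArg Subtype.val h3
        have hnt := ((isIrreducible_iff _).1 hσ).1
        obtain ⟨s, hs⟩ := exists_ne (0 : S)
        apply hs
        exact Subtype.ext (LinearMap.congr_fun h4 s)) (stable_homInto ρ _ Δ hΔ hs)
    rw [hidx] at h2
    have h5 := finrank_homInto ρ (subRep ρ L S hS) hσ W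
    have h6 : finrank ℂ V < finrank ℂ V := by
      calc finrank ℂ V = finrank ℂ S * finrank ℂ (homSpace ρ (subRep ρ L S hS)) := hd
        _ < finrank ℂ S * (H.index * finrank ℂ (homInto ρ (subRep ρ L S hS) W)) :=
          Nat.mul_lt_mul_of_pos_left h2 hSpos
        _ = H.index * (finrank ℂ S * finrank ℂ (homInto ρ (subRep ρ L S hS) W)) := by ring
        _ ≤ H.index * finrank ℂ W := Nat.mul_le_mul_left _ h5
        _ ≤ finrank ℂ V := hle
    exact lt_irrefl _ h6
  obtain ⟨c, hc⟩ := eq_smul_of_finrank_one hdim (subRep ρ L S hS ⟨l, hl⟩)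
  exact ⟨c, scalar_of_scalar_sub ρ L S hS hdot ⟨l, hl⟩ c hc⟩

/-- Scalar elements are in the core of a maximal subgroup with a stable subspace. -/
theorem mem_core_of_scalar (ρ : Representation ℂ G V)
    (hρ : ρ.IsIrreducible) (H : Subgroup G) (hH : IsCoatom H) (W : Submodule ℂ V) (hW : W ≠ ⊥)
    (hWt : W ≠ ⊤) (hs : Stable ρ H W) (g : G) (hg : ∃ c : ℂ, ρ g = c • (1 : V →ₗ[ℂ] V)) :
    g ∈ H.normalCore := by
  obtain ⟨c, hc⟩ := hg
  let St : Subgroup G :=
    { carrier := {x | (∀ w ∈ W, ρ x w ∈ W) ∧ ∀ w ∈ W, ρ x⁻¹ w ∈ W}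
      one_mem' := by simp
      mul_mem' := by
        rintro a b ⟨ha, ha'⟩ ⟨hb, hb'⟩
        refine ⟨fun w hw => ?_, fun w hw => ?_⟩
        · rw [← rep_apply_apply]
          exact ha _ (hb w hw)
        · rw [mul_inv_rev, ← rep_apply_apply]
          exact hb' _ (ha' w hw)
      inv_mem' := by
        rintro a ⟨ha, ha'⟩
        refine ⟨ha', ?_⟩
        rw [inv_inv]
        exact ha }
  have hHS : H ≤ St := fun x hx => ⟨hs x hx, hs x⁻¹ (H.inv_mem hx)⟩
  have hSt : St ≠ ⊤ := by
    intro h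
    rcases ((isIrreducible_iff ρ).1 hρ).2 W (fun x w hw => by
      have : x ∈ St := by rw [h]; trivial
      exact this.1 w hw) with h1 | h1
    · exact hW h1
    · exact hWt h1
  have hHS' : H = St := by
    by_contra h
    exact hSt (hH.2 St (lt_of_le_of_ne hHS h))
  intro b
  rw [hHS']
  have hconj : ∀ x : G, ρ (b * x * b⁻¹) = ρ b * ρ x * ρ b⁻¹ := by
    intro x
    rw [map_mul, map_mul]
  have hone : ρ b * ρ b⁻¹ = 1 := by rw [← map_mul, mul_inv_cancel, map_one]
  have h1 : ρ (b * g * b⁻¹) = c • (1 : V →ₗ[ℂ] V) := by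
    rw [hconj, hc, mul_smul_comm, mul_one, smul_mul_assoc, hone]
  have hnt : Nontrivial V := ((isIrreducible_iff ρ).1 hρ).1
  have hc0 : c ≠ 0 := by
    rintro rfl
    rw [zero_smul] at h1
    have h2 : ρ (b * g * b⁻¹) * ρ (b * g * b⁻¹)⁻¹ = 1 := by
      rw [← map_mul, mul_inv_cancel, map_one]
    rw [h1, zero_mul] at h2
    exact zero_ne_one h2
  refine ⟨fun w hw => ?_, fun w hw => ?_⟩
  · rw [h1]
    exact W.smul_mem c hw
  · have h3 : ρ (b * g * b⁻¹)⁻¹ = c⁻¹ • (1 : V →ₗ[ℂ] V) := by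
      have h2 : ρ (b * g * b⁻¹)⁻¹ * ρ (b * g * b⁻¹) = 1 := by
        rw [← map_mul, inv_mul_cancel, map_one]
      rw [h1, mul_smul_comm, mul_one] at h2
      rw [← h2, smul_smul, inv_mul_cancel₀ hc0, one_smul]
    rw [h3]
    exact W.smul_mem _ hw

/-- Equivariant projection onto a stable subspace. -/
theorem exists_proj [Finite G] (ρ : Representation ℂ G V) (H : Subgroup G) (W : Submodule ℂ V)
    (hs : Stable ρ H W) :
    ∃ π : V →ₗ[ℂ] W, (∀ w : W, π w = w) ∧ ∀ h ∈ H, ∀ v, ((π (ρ h v) : W) : V) = ρ h (π v) := by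
  let ρH : Representation ℂ H V := ρ.comp H.subtype
  let U : Subrepresentation ρH := ⟨W, fun h w hw => hs h h.2 w hw⟩
  obtain ⟨U', hU'⟩ := Cfsg.Agent.Characters.Core.exists_isCompl_sub U
  have hc : IsCompl W U'.toSubmodule := hU'
  refine ⟨W.projectionOnto U'.toSubmodule hc, fun w => ?_, fun h hh v => ?_⟩
  · exact Submodule.projectionOnto_apply_left hc w
  · obtain ⟨⟨w, u⟩, rfl⟩ := (Submodule.prodEquivOfIsCompl W U'.toSubmodule hc).surjective v
    have h1 : (Submodule.prodEquivOfIsCompl W U'.toSubmodule hc) (w, u) = (w : V) + u := rfl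
    have h2 : ρ h u ∈ U'.toSubmodule := U'.apply_mem_toSubmodule ⟨h, hh⟩ u.2
    have h3 : ρ h w ∈ W := hs h hh w w.2
    have e1 : W.projectionOnto U'.toSubmodule hc (u : V) = 0 :=
      Submodule.projectionOnto_apply_right hc u
    have e2 : W.projectionOnto U'.toSubmodule hc (ρ h u) = 0 :=
      Submodule.projectionOnto_apply_right hc ⟨_, h2⟩
    have e3 : W.projectionOnto U'.toSubmodule hc (w : V) = w :=
      Submodule.projectionOnto_apply_left hc w
    have e4 : W.projectionOnto U'.toSubmodule hc (ρ h w) = ⟨_, h3⟩ :=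
      Submodule.projectionOnto_apply_left hc ⟨_, h3⟩
    rw [h1, map_add, map_add, map_add, e1, e2, e3, e4, add_zero, add_zero]

/-- Elements `(n, σ n)` act trivially on `Hom_N(S, V)`. -/
theorem homRep_sec (ρ : Representation ℂ G V) (N : Subgroup G)
    [hN : N.Normal] {S : Type} [AddCommGroup S] [Module ℂ S] (σ : Representation ℂ N S)
    (Δ : Subgroup (G × (S →ₗ[ℂ] S)ˣ)) (hΔ : Δ ≤ intGroup σ) (n : N) (hn : sec σ n ∈ Δ) :
    homRep ρ σ Δ hΔ ⟨sec σ n, hn⟩ = 1 := by
  apply LinearMap.ext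
  intro f
  apply Subtype.ext
  apply LinearMap.ext
  intro s
  have h1 : σ n (σ n⁻¹ s) = s := by
    rw [rep_apply_apply, mul_inv_cancel, map_one]
    rfl
  have h2 := homRep_apply_opr ρ σ Δ hΔ ⟨sec σ n, hn⟩ f (σ n⁻¹ s)
  have h3 : (opr Δ ⟨sec σ n, hn⟩ : S →ₗ[ℂ] S) (σ n⁻¹ s) = s := h1
  rw [h3] at h2
  rw [h2]
  have h4 := LinearMap.congr_fun ((mem_homSpace ρ σ _).1 f.2 n) (σ n⁻¹ s)
  rw [LinearMap.comp_apply, LinearMap.comp_apply, h1] at h4
  exact h4.symm

/-- The subgroup of elements acting by scalars. -/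
def scalarSub {G V : Type*} [Group G] [AddCommGroup V] [Module ℂ V]
    (ρ : Representation ℂ G V) : Subgroup G where
  carrier := {g | ∃ c : ℂ, ρ g = c • (1 : V →ₗ[ℂ] V)}
  one_mem' := ⟨1, by rw [map_one, one_smul]⟩
  mul_mem' := by
    rintro a b ⟨c, hc⟩ ⟨d, hd⟩
    exact ⟨c * d, by rw [map_mul, hc, hd, smul_mul_assoc, one_mul, smul_smul]⟩
  inv_mem' := by
    rintro a ⟨c, hc⟩
    have h2 : ρ a⁻¹ * ρ a = 1 := by rw [← map_mul, inv_mul_cancel, map_one]
    rw [hc, mul_smul_comm, mul_one] at h2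
    by_cases hc0 : c = 0
    · refine ⟨0, ?_⟩
      rw [hc0, zero_smul] at h2
      rw [zero_smul, ← mul_one (ρ a⁻¹), ← h2, mul_zero]
    · exact ⟨c⁻¹, by rw [← h2, smul_smul, inv_mul_cancel₀ hc0, one_smul]⟩

theorem mem_scalarSub {G V : Type*} [Group G] [AddCommGroup V] [Module ℂ V]
    (ρ : Representation ℂ G V) (g : G) :
    g ∈ scalarSub ρ ↔ ∃ c : ℂ, ρ g = c • (1 : V →ₗ[ℂ] V) := Iff.rfl

theorem main_step [Finite G] [hsol : Group.IsSolvable G] (ρ : Representation ℂ G V)
    (hρ : ρ.IsIrreducible)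
    (hhom : ∀ N : Subgroup G, N.Normal → Homog ρ N) (ih : IH.{u} (finrank ℂ V))
    (H : Subgroup G) (hH : IsCoatom H) (W : Submodule ℂ V) (hW : W ≠ ⊥) (hs : Stable ρ H W)
    (hle : H.index * finrank ℂ W ≤ finrank ℂ V) : False := by
  have hnt : Nontrivial V := ((isIrreducible_iff ρ).1 hρ).1
  have hWpos : 0 < finrank ℂ W := by
    have := (Submodule.nontrivial_iff_ne_bot).2 hW
    exact finrank_pos
  have hVpos : 0 < finrank ℂ V := finrank_pos
  have hHidx : H.index ≠ 1 := fun h => hH.1 (Subgroup.index_eq_one.1 h)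
  have hHidx0 : H.index ≠ 0 := Subgroup.FiniteIndex.index_ne_zero
  have hWt : W ≠ ⊤ := by
    rintro rfl
    rw [finrank_top] at hle
    have : H.index ≤ 1 := Nat.le_of_mul_le_mul_right (by rwa [one_mul]) hVpos
    omega
  have hLsc := core_scalar ρ hρ hhom ih H hH.1 W hW hs hle
  have hscL := mem_core_of_scalar ρ hρ H hH W hW hWt hs
  obtain ⟨p, M, hp, hMn, hLM, hMcomm, ⟨k, hk⟩, hidx, hfact, hUeq, hUex⟩ :=
    Cfsg.Agent.CharactersDeep.BergerGroup.exists_setup H hH
  set L := H.normalCore with hL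
  obtain ⟨T, hT, -, hσ⟩ := exists_simple_sub ρ M (W := ⊤) top_ne_bot
    (fun _ _ _ _ => Submodule.mem_top)
  obtain ⟨Δ, hfin, hΔ, hsurj, hsec, hker⟩ := exists_cover ρ M (hhom M hMn) T hT hσ
  have hne := homSpace_ne_bot ρ M T hT hσ
  have hscT := scalar_of_scalar_sub ρ M T hT
  have hrestr : ∀ (m : M) (c : ℂ), ρ m = c • (1 : V →ₗ[ℂ] V) →
      subRep ρ M T hT m = c • (1 : T →ₗ[ℂ] T) := by
    intro m c h
    ext t
    rw [subRep_apply, h]
    rfl
  set σ := subRep ρ M T hT with hσdef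
  have hdot := dot_homSpace ρ hρ σ Δ hΔ hsurj hne
  have hd := finrank_eq_mul ρ hρ σ hσ Δ hΔ hsurj hne
  have hirr := homRep_isIrreducible ρ hρ σ hσ Δ hΔ hsurj hne
  have hTnt : Nontrivial T := ((isIrreducible_iff _).1 hσ).1
  have hTpos : 0 < finrank ℂ T := finrank_pos
  -- the index of `L` in `M` is the square of the degree
  have hsq : L.relIndex M = finrank ℂ T ^ 2 := by
    apply index_eq_sq σ hσ (L.subgroupOf M)
    · intro z hz
      obtain ⟨c, hc⟩ := hLsc z (Subgroup.mem_subgroupOf.1 hz)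
      exact ⟨c, hrestr z c hc⟩
    · intro m hm
      rw [Subgroup.mem_subgroupOf] at hm
      by_cases hex : ∀ x : M, σ m * σ x = σ x * σ m
      · exfalso
        obtain ⟨c, hc⟩ := exists_smul_of_commute σ hσ (σ m) hex
        exact hm (hscL m ⟨c, hscT hdot m c hc⟩)
      · push Not at hex
        obtain ⟨x, hx⟩ := hex
        obtain ⟨c, hc⟩ := hLsc _ (hMcomm m m.2 x x.2)
        exact trace_eq_zero σ (hrestr (m * x * m⁻¹ * x⁻¹) c hc) hx
  have hT1 : 1 < finrank ℂ T := by
    by_contra hcon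
    have h1 : finrank ℂ T = 1 := by omega
    rw [h1, one_pow, Subgroup.relIndex_eq_one] at hsq
    exact absurd hsq (not_le_of_gt hLM)
  have hprim := reduce ρ hρ hhom ih M T hT hσ hT1 Δ hΔ hsurj hker
  have hdim1 : finrank ℂ T * finrank ℂ W ≤ finrank ℂ (homSpace ρ σ) := by
    rw [← hidx, hsq, hd, pow_two, mul_assoc] at hle
    exact Nat.le_of_mul_le_mul_left hle hTpos
  -- the map `f ↦ π ∘ f`
  obtain ⟨π, hπ, hπH⟩ := exists_proj ρ H W hs
  let Ψ : homSpace ρ σ →ₗ[ℂ] (T →ₗ[ℂ] W) :=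
    { toFun := fun f => π ∘ₗ (f : T →ₗ[ℂ] V)
      map_add' := by
        intro f g
        ext t
        simp
      map_smul' := by
        intro c f
        ext t
        simp }
  have hΨ : ∀ (f : homSpace ρ σ) (t : T), Ψ f t = π ((f : T →ₗ[ℂ] V) t) := fun _ _ => rfl
  have hkey : ∀ (z : Δ), proj Δ z ∈ H → ∀ (f : homSpace ρ σ) (t : T),
      ((Ψ (homRep ρ σ Δ hΔ z f) ((opr Δ z : T →ₗ[ℂ] T) t) : W) : V) =
        ρ (proj Δ z) (Ψ f t : W) := by
    intro z hz f t
    rw [hΨ, homRep_apply_opr, hπH _ hz, hΨ]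
  have hdecomp : ∀ x : Δ, ∃ (n : M) (z : Δ), proj Δ z ∈ H ∧ x = ⟨sec σ n, hsec n⟩ * z ∧
      homRep ρ σ Δ hΔ x = homRep ρ σ Δ hΔ z := by
    intro x
    obtain ⟨m, hm, h, hh, hmh⟩ := hfact (proj Δ x)
    have hx : x = (⟨sec σ ⟨m, hm⟩, hsec _⟩ : Δ) * ((⟨sec σ ⟨m, hm⟩, hsec _⟩ : Δ)⁻¹ * x) := by
      rw [mul_inv_cancel_left]
    refine ⟨⟨m, hm⟩, (⟨sec σ ⟨m, hm⟩, hsec _⟩ : Δ)⁻¹ * x, ?_, hx, ?_⟩
    · rw [map_mul, map_inv, hmh]
      have : proj Δ ⟨sec σ ⟨m, hm⟩, hsec _⟩ = m := rfl
      rw [this, inv_mul_cancel_left]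
      exact hh
    · conv_lhs => rw [hx]
      rw [map_mul, homRep_sec, one_mul]
  have hoprsurj : ∀ (z : Δ) (t : T), ∃ t', (opr Δ z : T →ₗ[ℂ] T) t' = t := by
    intro z t
    refine ⟨(((opr Δ z)⁻¹ : (T →ₗ[ℂ] T)ˣ) : T →ₗ[ℂ] T) t, ?_⟩
    rw [← Module.End.mul_apply, Units.mul_inv]
    rfl
  have hΨinj : Function.Injective Ψ := by
    rw [← LinearMap.ker_eq_bot]
    rcases ((isIrreducible_iff _).1 hirr).2 (LinearMap.ker Ψ) (fun x f hf => by
      obtain ⟨n, z, hz, hx, hxz⟩ := hdecomp x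
      rw [hxz]
      rw [LinearMap.mem_ker] at hf ⊢
      ext t
      obtain ⟨t', rfl⟩ := hoprsurj z t
      rw [hkey z hz f t', hf]
      simp) with h | h
    · exact h
    · exfalso
      apply hW
      have h1 : ∀ v : V, π v = 0 := by
        intro v
        have hv : v ∈ dot (homSpace ρ σ) := by rw [hdot]; trivial
        induction hv using Submodule.span_induction with
        | mem v hv =>
          obtain ⟨f, hf, s, rfl⟩ := hv
          have h2 : (⟨f, hf⟩ : homSpace ρ σ) ∈ LinearMap.ker Ψ := by rw [h]; trivial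
          rw [LinearMap.mem_ker] at h2
          exact LinearMap.congr_fun h2 s
        | zero => rw [map_zero]
        | add a b _ _ ha hb => rw [map_add, ha, hb, add_zero]
        | smul d a _ ha => rw [map_smul, ha, smul_zero]
      rw [eq_bot_iff]
      intro w hw
      have h2 := hπ ⟨w, hw⟩
      rw [h1] at h2
      rw [Submodule.mem_bot]
      exact (congrArg Subtype.val h2).symm
  have hfr : finrank ℂ (T →ₗ[ℂ] W) = finrank ℂ T * finrank ℂ W := Module.finrank_linearMap ..
  have hdim2 : finrank ℂ (homSpace ρ σ) = finrank ℂ (T →ₗ[ℂ] W) := by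
    apply le_antisymm
    · exact LinearMap.finrank_le_finrank_of_injective hΨinj
    · rw [hfr]
      exact hdim1
  have hΨsurj : Function.Surjective Ψ :=
    (LinearMap.injective_iff_surjective_of_finrank_eq_finrank hdim2).1 hΨinj
  let E : homSpace ρ σ ≃ₗ[ℂ] (T →ₗ[ℂ] W) := LinearEquiv.ofBijective Ψ ⟨hΨinj, hΨsurj⟩
  have hE : ∀ f, E f = Ψ f := fun _ => rfl
  -- `H` is not its own core
  have hHL : H ≠ L := by
    intro h
    have hM : ∀ g : G, g ∈ M := by
      intro g
      obtain ⟨m, hm, h', hh', rfl⟩ := hfact g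
      rw [h] at hh'
      exact M.mul_mem hm (hLM.le hh')
    have hTt : T = ⊤ := by
      rcases ((isIrreducible_iff ρ).1 hρ).2 T (fun g v hv => hT g (hM g) v hv) with h | h
      · exfalso
        exact (Submodule.nontrivial_iff_ne_bot.1 hTnt) h
      · exact h
    have h1 : finrank ℂ T = finrank ℂ V := by rw [hTt, finrank_top]
    rw [← h1] at hd
    have h2 : finrank ℂ (homSpace ρ σ) = 1 := by
      have : finrank ℂ T * finrank ℂ (homSpace ρ σ) = finrank ℂ T * 1 := by
        rw [mul_one]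
        exact hd.symm
      exact Nat.eq_of_mul_eq_mul_left hTpos this
    rw [h2] at hdim1
    have h3 : finrank ℂ T * 1 ≤ finrank ℂ T * finrank ℂ W := Nat.mul_le_mul_left _ hWpos
    omega
  obtain ⟨q, U, hq, hqp, hLU, hUH, hHU, hUcomm, k', hk'⟩ := hUex hHL
  -- the commuting family
  let C : Type _ := {c : Δ // proj Δ c ∈ U ∧ ∀ u : Δ, proj Δ u ∈ U →
    (opr Δ c : T →ₗ[ℂ] T) * opr Δ u = opr Δ u * opr Δ c}
  let R : C → homSpace ρ σ →ₗ[ℂ] homSpace ρ σ := fun c =>
    E.symm.toLinearMap ∘ₗ (LinearMap.lcomp ℂ W (opr Δ c.1 : T →ₗ[ℂ] T)) ∘ₗ E.toLinearMap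
  have hR : ∀ (c : C) (f : homSpace ρ σ) (t : T),
      Ψ (R c f) t = Ψ f ((opr Δ c.1 : T →ₗ[ℂ] T) t) := by
    intro c f t
    have : E (R c f) = (LinearMap.lcomp ℂ W (opr Δ c.1 : T →ₗ[ℂ] T)) (E f) := by
      show E (E.symm _) = _
      rw [LinearEquiv.apply_symm_apply]
      rfl
    rw [hE, hE] at this
    rw [this]
    rfl
  have hcomm : ∀ c d, R c * R d = R d * R c := by
    intro c d
    apply LinearMap.ext
    intro f
    apply hΨinj
    ext t
    rw [Module.End.mul_apply, Module.End.mul_apply, hR, hR, hR, hR]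
    have h1 := c.2.2 d.1 d.2.1
    have h2 := LinearMap.congr_fun h1 t
    rw [Module.End.mul_apply, Module.End.mul_apply] at h2
    rw [h2]
  have hconj : ∀ (x : Δ) (c : C), ∃ d : C, homRep ρ σ Δ hΔ x * R c = R d * homRep ρ σ Δ hΔ x := by
    intro x c
    obtain ⟨n, z, hz, hx, hxz⟩ := hdecomp x
    rw [hxz]
    refine ⟨⟨z * c.1 * z⁻¹, ?_, ?_⟩, ?_⟩
    · rw [map_mul, map_mul, map_inv]
      exact hHU _ hz _ c.2.1
    · intro u hu
      have hu' : proj Δ (z⁻¹ * u * z) ∈ U := by
        have := hHU _ (H.inv_mem hz) _ hu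
        rw [inv_inv] at this
        rw [map_mul, map_mul, map_inv]
        exact this
      have h1 := c.2.2 _ hu'
      have h2 : opr Δ c.1 * opr Δ (z⁻¹ * u * z) = opr Δ (z⁻¹ * u * z) * opr Δ c.1 :=
        Units.ext h1
      have h3 : opr Δ (z * c.1 * z⁻¹) * opr Δ u = opr Δ u * opr Δ (z * c.1 * z⁻¹) := by
        have e1 : z * c.1 * z⁻¹ * u = z * (c.1 * (z⁻¹ * u * z)) * z⁻¹ := by group
        have e2 : u * (z * c.1 * z⁻¹) = z * ((z⁻¹ * u * z) * c.1) * z⁻¹ := by group
        rw [← map_mul, ← map_mul, e1, e2, map_mul, map_mul, map_mul _ c.1, h2, map_mul _ _ z⁻¹,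
          map_mul _ z, map_mul _ _ c.1]
      exact congrArg Units.val h3
    · apply LinearMap.ext
      intro f
      apply hΨinj
      ext t
      obtain ⟨t', rfl⟩ := hoprsurj z t
      rw [Module.End.mul_apply, Module.End.mul_apply, hkey z hz, hR, hR]
      have h4 : (opr Δ (z * c.1 * z⁻¹) : T →ₗ[ℂ] T) ((opr Δ z : T →ₗ[ℂ] T) t') =
          (opr Δ z : T →ₗ[ℂ] T) ((opr Δ c.1 : T →ₗ[ℂ] T) t') := by
        have e1 : opr Δ (z * c.1 * z⁻¹) * opr Δ z = opr Δ z * opr Δ c.1 := by
          rw [← map_mul, ← map_mul, inv_mul_cancel_right]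
        have e2 := congrArg (fun A : (T →ₗ[ℂ] T)ˣ => (A : T →ₗ[ℂ] T) t') e1
        exact e2
      rw [h4, hkey z hz]
  have hCsc : ∀ c : C, ∃ z : ℂ, R c = z • (1 : homSpace ρ σ →ₗ[ℂ] homSpace ρ σ) := by
    rcases Cfsg.Agent.CharactersDeep.BergerCA.scalar_or_imprimitive (homRep ρ σ Δ hΔ) hirr R
      hcomm hconj with h | ⟨J, W₁, hJ, hW₁, hs₁, hle₁⟩
    · exact h
    · exfalso
      exact absurd (hprim J W₁ hJ hW₁ hs₁) (not_lt_of_ge hle₁)
  have hCsc' : ∀ c : C, ∃ z : ℂ, (opr Δ c.1 : T →ₗ[ℂ] T) = z • (1 : T →ₗ[ℂ] T) := by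
    intro c
    obtain ⟨z, hz⟩ := hCsc c
    refine ⟨z, ?_⟩
    obtain ⟨w, hw, hw0⟩ := (Submodule.ne_bot_iff _).1 hW
    apply LinearMap.ext
    intro t
    rw [← sub_eq_zero, ← Module.forall_dual_apply_eq_zero_iff ℂ]
    intro φ
    let F : T →ₗ[ℂ] W := φ.smulRight (⟨w, hw⟩ : W)
    obtain ⟨f, hf⟩ := hΨsurj F
    have h1 := hR c f t
    rw [hz, LinearMap.smul_apply, Module.End.one_apply, map_smul, LinearMap.smul_apply, hf] at h1
    have h2 : z • (φ t • (⟨w, hw⟩ : W)) = φ ((opr Δ c.1 : T →ₗ[ℂ] T) t) • (⟨w, hw⟩ : W) := h1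
    have h3 : (φ ((opr Δ c.1 : T →ₗ[ℂ] T) t) - z * φ t) • (⟨w, hw⟩ : W) = 0 := by
      rw [sub_smul, ← h2, smul_smul, sub_self]
    rcases smul_eq_zero.1 h3 with h4 | h4
    · rw [map_sub, LinearMap.smul_apply, Module.End.one_apply, map_smul, smul_eq_mul]
      exact h4
    · exact absurd (congrArg Subtype.val h4) hw0
  -- elements over `L` act by scalars on `T`
  have hoverL : ∀ x : Δ, proj Δ x ∈ L → ∃ c : ℂ, (opr Δ x : T →ₗ[ℂ] T) = c • (1 : T →ₗ[ℂ] T) := by
    intro x hx
    apply exists_smul_of_commute σ hσ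
    intro n
    have h1 := (mem_intGroup σ _).1 (hΔ x.2) n
    obtain ⟨c, hc⟩ := hLsc _ hx
    have h2 : σ (MulAut.conjNormal x.1.1 n) = σ n := by
      ext t
      rw [subRep_apply, subRep_apply, MulAut.conjNormal_apply]
      have h3 : ρ (x.1.1 * n * (x.1.1)⁻¹) = ρ n := by
        have h4 : ρ x.1.1 = c • (1 : V →ₗ[ℂ] V) := hc
        have h5 : ρ x.1.1 * ρ (x.1.1)⁻¹ = 1 := by rw [← map_mul, mul_inv_cancel, map_one]
        rw [h4, smul_mul_assoc, one_mul] at h5
        rw [map_mul, map_mul, h4, smul_mul_assoc, one_mul, smul_mul_assoc, ← mul_smul_comm, h5,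
          mul_one]
      rw [h3]
    rw [h2] at h1
    exact h1
  -- the group over `U` acts by scalars on `T`
  let Û : Subgroup Δ := U.comap (proj Δ)
  let τ : Representation ℂ Û T := (coverRep Δ).comp Û.subtype
  have hτ : ∀ u : Û, τ u = (opr Δ u.1 : T →ₗ[ℂ] T) := fun _ => rfl
  have htr : ∀ u : Û, u ∉ scalarSub τ → LinearMap.trace ℂ T (τ u) = 0 := by
    intro u hu
    have h1 : ∃ v : Û, τ u * τ v ≠ τ v * τ u := by
      by_contra hcon
      push Not at hcon
      apply hu
      exact hCsc' ⟨u.1, u.2, fun v hv => hcon ⟨v, hv⟩⟩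
    obtain ⟨v, hv⟩ := h1
    have h2 : proj Δ (u * v * u⁻¹ * v⁻¹ : Û) ∈ L := hUcomm _ u.2 _ v.2
    obtain ⟨c, hc⟩ := hoverL _ h2
    exact trace_eq_zero τ (c := c) hc hv
  have hdvd1 : (scalarSub τ).index ∣ finrank ℂ T ^ 2 :=
    index_dvd_sq τ hTpos (scalarSub τ) (fun z hz => hz) htr
  have hdvd2 : (scalarSub τ).index ∣ L.relIndex U := by
    have h1 : (L.comap (proj Δ)).subgroupOf Û ≤ scalarSub τ := by
      intro u hu
      exact hoverL _ (Subgroup.mem_subgroupOf.1 hu)
    have h2 := Subgroup.index_dvd_of_le h1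
    have h3 : ((L.comap (proj Δ)).subgroupOf Û).index = L.relIndex U := by
      show (L.comap (proj Δ)).relIndex Û = _
      rw [Subgroup.relIndex_comap, Subgroup.map_comap_eq_self_of_surjective hsurj]
    rwa [h3] at h2
  have hone : (scalarSub τ).index = 1 := by
    rw [← hsq, hk] at hdvd1
    rw [hk'] at hdvd2
    have hcop : Nat.Coprime (p ^ k) (q ^ k') :=
      Nat.Coprime.pow k k' ((Nat.coprime_primes hp hq).2 hqp.symm)
    have := Nat.dvd_gcd hdvd1 hdvd2
    rw [hcop] at this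
    exact Nat.dvd_one.1 this
  have hall : ∀ u : Û, ∃ c : ℂ, τ u = c • (1 : T →ₗ[ℂ] T) := by
    intro u
    have : u ∈ scalarSub τ := by
      rw [Subgroup.index_eq_one.1 hone]
      trivial
    exact this
  -- conclusion
  have hUL : U = L := by
    apply hUeq U hUH hHU hLU.le
    intro m hm u hu
    obtain ⟨x, hx⟩ := hsurj u
    have hxU : x ∈ Û := by
      show proj Δ x ∈ U
      rw [hx]
      exact hu
    obtain ⟨c, hc⟩ := hall ⟨x, hxU⟩
    have hc' : (opr Δ x : T →ₗ[ℂ] T) = c • (1 : T →ₗ[ℂ] T) := hc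
    have h1 : (opr Δ x : T →ₗ[ℂ] T) * σ ⟨m, hm⟩ =
        σ (MulAut.conjNormal (proj Δ x) ⟨m, hm⟩) * opr Δ x := (mem_intGroup σ _).1 (hΔ x.2) _
    have hc0 : c ≠ 0 := by
      rintro rfl
      have h2 : (opr Δ x : T →ₗ[ℂ] T) * (((opr Δ x)⁻¹ : (T →ₗ[ℂ] T)ˣ) : T →ₗ[ℂ] T) = 1 :=
        Units.mul_inv _
      rw [hc', zero_smul, zero_mul] at h2
      exact zero_ne_one h2
    rw [hc', smul_mul_assoc, one_mul, mul_smul_comm, mul_one, hx] at h1
    have h2 : σ ⟨m, hm⟩ = σ (MulAut.conjNormal u ⟨m, hm⟩) := smul_right_injective _ hc0 h1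
    have h3 : σ (⟨m, hm⟩ * (MulAut.conjNormal u ⟨m, hm⟩)⁻¹) = 1 := by
      rw [map_mul, h2, ← map_mul, mul_inv_cancel, map_one]
    have h4 : ρ ((⟨m, hm⟩ * (MulAut.conjNormal u ⟨m, hm⟩)⁻¹ : M) : G) = (1 : ℂ) • 1 :=
      hscT hdot _ 1 (by rw [h3, one_smul])
    have h5 : ((⟨m, hm⟩ * (MulAut.conjNormal u ⟨m, hm⟩)⁻¹ : M) : G) = m * u * m⁻¹ * u⁻¹ := by
      rw [Subgroup.coe_mul, Subgroup.coe_inv, MulAut.conjNormal_apply]
      group
    rw [h5] at h4
    exact hscL _ ⟨1, h4⟩
  exact absurd hUL hLU.ne'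

end Reduce

universe u

/-- **Berger's theorem** at the level of representations: a quasi-primitive irreducible
representation of a finite solvable group is primitive. -/
theorem primitive_of_homog (d : ℕ) : ∀ (G : Type u) [Group G] [Finite G] [Group.IsSolvable G]
    (V : Type) [AddCommGroup V] [Module ℂ V] [FiniteDimensional ℂ V] (ρ : Representation ℂ G V),
    finrank ℂ V = d → ρ.IsIrreducible → (∀ N : Subgroup G, N.Normal → Homog ρ N) →
    Primitive ρ := by
  induction d using Nat.strong_induction_on with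
  | _ d ih =>
    intro G _ _ _ V _ _ _ ρ hd hρ hhom
    have hIH : IH.{u} (finrank ℂ V) := by
      intro G' _ _ _ V' _ _ _ ρ' hlt hρ' hhom'
      exact ih (finrank ℂ V') (hd ▸ hlt) G' V' ρ' rfl hρ' hhom'
    intro H W hH hW hs
    by_contra hcon
    rw [not_lt] at hcon
    obtain ⟨H', hH', hHH'⟩ : ∃ H' : Subgroup G, IsCoatom H' ∧ H ≤ H' := by
      rcases eq_top_or_exists_le_coatom H with h | h
      · exact absurd h hH
      · exact h
    obtain ⟨W', hWW', hs', hfin⟩ := exists_stable_extend ρ hHH' hs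
    refine main_step ρ hρ hhom hIH H' hH' W' ?_ hs' ?_
    · intro h
      apply hW
      rw [h] at hWW'
      exact le_bot_iff.1 hWW'
    · calc H'.index * finrank ℂ W' ≤ H'.index * (H.relIndex H' * finrank ℂ W) :=
            Nat.mul_le_mul_left _ hfin
        _ = (H.relIndex H' * H'.index) * finrank ℂ W := by ring
        _ = H.index * finrank ℂ W := by rw [Subgroup.relIndex_mul_index hHH']
        _ ≤ finrank ℂ V := hcon

end Cfsg.Agent.CharactersDeep.BergerMain
end

-- part: CharactersDeep/BergerInd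
section
/-!
# Two character-theoretic inputs for Berger's theorem

* an irreducible representation whose character is induced from `K` contains a nonzero `K`-stable
  subspace `W` with `[G:K] * dim W ≤ dim V`;
* a representation whose character restricts to a multiple of an irreducible character of `N` is
  homogeneous on `N`.
-/

set_option autoImplicit false

namespace Cfsg.Agent.CharactersDeep.BergerInd

open Cfsg Representation Module
open Cfsg.Agent.Characters.Core Cfsg.Agent.CharactersDeep.BergerDefs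

theorem exists_stable_of_indFun {G : Type*} [Group G] [Fintype G] {n : ℕ}
    (ρ : Representation ℂ G (Fin n → ℂ)) (hρ : ρ.IsIrreducible) (K : Subgroup G) (ψ : K → ℂ)
    (hψ : IsCharacter K ψ) (h : indFun K ψ = ρ.character) :
    ∃ W : Submodule ℂ (Fin n → ℂ), W ≠ ⊥ ∧ Stable ρ K W ∧
      K.index * finrank ℂ W ≤ finrank ℂ (Fin n → ℂ) := by
  classical
  have := Fintype.ofFinite K
  obtain ⟨m, σ, hσ⟩ := hψ
  let ρK : Representation ℂ K (Fin n → ℂ) := ρ.comp K.subtype
  have hres : (fun k : K => ρ.character k) = ρK.character := rfl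
  have hirr : IsIrrCharacter G ρ.character := ⟨n, ρ, hρ, rfl⟩
  -- Frobenius reciprocity
  have h1 : classInner ρK.character σ.character = 1 := by
    have h2 := OddOrderCharacters.IndRes.classInner_indFun_right K ψ
      (isIrr_isClassFunction hirr)
    rw [h, classInner_irr_self hirr] at h2
    rw [hσ]
    exact h2.symm
  rw [classInner_character] at h1
  have h3 : finrank ℂ (IntertwiningMap σ ρK) = 1 := by exact_mod_cast h1
  obtain ⟨f, hf⟩ : ∃ f : IntertwiningMap σ ρK, f ≠ 0 := by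
    have : Nontrivial (IntertwiningMap σ ρK) :=
      Module.nontrivial_of_finrank_pos (R := ℂ) (by rw [h3]; exact one_pos)
    exact exists_ne 0
  refine ⟨(rangeSub f).toSubmodule, ?_, ?_, ?_⟩
  · intro hbot
    apply hf
    apply IntertwiningMap.ext
    exact LinearMap.range_eq_bot.1 hbot
  · intro k hk w hw
    exact (rangeSub f).apply_mem_toSubmodule ⟨k, hk⟩ hw
  · have h4 : finrank ℂ (rangeSub f).toSubmodule ≤ m := by
      have := LinearMap.finrank_range_le f.toLinearMap
      rw [finrank_fin_fun] at this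
      exact this
    have h5 : K.index * m = n := by
      have h6 := OddOrderCharacters.IndRes.indFun_apply_one K ψ
      rw [h, char_one, ← hσ, char_one, finrank_fin_fun, finrank_fin_fun] at h6
      exact_mod_cast h6.symm
    rw [finrank_fin_fun]
    calc K.index * finrank ℂ (rangeSub f).toSubmodule ≤ K.index * m :=
          Nat.mul_le_mul_left _ h4
      _ = n := h5

section Homog

variable {G V : Type*} [Group G] [Finite G] [AddCommGroup V] [Module ℂ V] [FiniteDimensional ℂ V]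

/-- A subrepresentation of a representation affording a multiple of an irreducible character
affords a multiple of it. -/
theorem sub_character (ρ : Representation ℂ G V) {θ : G → ℂ} (hθ : IsIrrCharacter G θ) (e : ℕ)
    (h : ρ.character = (e : ℂ) • θ) (U : Subrepresentation ρ) :
    ∃ a : ℕ, U.toRepresentation.character = (a : ℂ) • θ := by
  classical
  have := Fintype.ofFinite G
  have := finite_irr (G := G)
  have := Fintype.ofFinite (IrrCharacter G)
  obtain ⟨U', hU'⟩ := exists_isCompl_sub U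
  have h1 := character_eq_add_of_isCompl U U' hU'
  have hU := isCharacter_of_rep U.toRepresentation
  have hU2 := isCharacter_of_rep U'.toRepresentation
  obtain ⟨a, ha⟩ := classInner_isNat hU (isIrr_isCharacter hθ)
  refine ⟨a, ?_⟩
  rw [classFunction_eq_sum (isCharacter_isClassFunction hU), Finset.sum_eq_single ⟨θ, hθ⟩]
  · rw [ha]
  · intro η _ hη
    have hne : (η : G → ℂ) ≠ θ := fun h => hη (Subtype.ext h)
    obtain ⟨b, hb⟩ := classInner_isNat hU (isIrr_isCharacter η.2)
    obtain ⟨c, hc⟩ := classInner_isNat hU2 (isIrr_isCharacter η.2)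
    have h2 : classInner ρ.character (η : G → ℂ) = (b + c : ℂ) := by
      rw [h1, classInner_add_left, hb, hc]
    rw [h, classInner_smul_left, classInner_irr_ne hθ η.2 hne.symm, mul_zero] at h2
    have h3 : b + c = 0 := by exact_mod_cast h2.symm
    have h4 : b = 0 := by omega
    rw [hb, h4, Nat.cast_zero, zero_smul]
  · intro h
    exact absurd (Finset.mem_univ _) h

theorem homog_of_character (ρ : Representation ℂ G V) (N : Subgroup G) {θ : N → ℂ}
    (hθ : IsIrrCharacter N θ) (e : ℕ) (h : (fun n : N => ρ.character n) = (e : ℂ) • θ) :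
    Homog ρ N := by
  classical
  intro V₁ V₂ hV₁ hV₂ hS₁ hS₂
  have := Fintype.ofFinite G
  have := Fintype.ofFinite N
  let ρN : Representation ℂ N V := ρ.comp N.subtype
  have hres : ρN.character = (e : ℂ) • θ := h
  let U₁ : Subrepresentation ρN := ⟨V₁, fun n v hv => hS₁ n n.2 v hv⟩
  let U₂ : Subrepresentation ρN := ⟨V₂, fun n v hv => hS₂ n n.2 v hv⟩
  obtain ⟨a, ha⟩ := sub_character ρN hθ e hres U₁
  obtain ⟨b, hb⟩ := sub_character ρN hθ e hres U₂
  have hne : ∀ (U : Subrepresentation ρN) (c : ℕ), U.toSubmodule ≠ ⊥ →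
      U.toRepresentation.character = (c : ℂ) • θ → (c : ℂ) ≠ 0 := by
    intro U c hU hc h0
    rw [h0, zero_smul] at hc
    have h1 := congrFun hc 1
    rw [char_one, Pi.zero_apply] at h1
    have h2 : finrank ℂ U.toSubmodule = 0 := by exact_mod_cast h1
    exact hU (Submodule.finrank_eq_zero.1 h2)
  have ha0 := hne U₁ a hV₁ ha
  have hb0 := hne U₂ b hV₂ hb
  have h1 : classInner U₂.toRepresentation.character U₁.toRepresentation.character ≠ 0 := by
    rw [ha, hb, classInner_smul_left, classInner_smul_right, classInner_irr_self hθ, mul_one]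
    exact mul_ne_zero hb0 (by rwa [Complex.conj_natCast])
  rw [classInner_character] at h1
  obtain ⟨f, hf⟩ : ∃ f : IntertwiningMap U₁.toRepresentation U₂.toRepresentation, f ≠ 0 := by
    have : Nontrivial (IntertwiningMap U₁.toRepresentation U₂.toRepresentation) :=
      Module.nontrivial_of_finrank_pos (R := ℂ) (Nat.pos_of_ne_zero (by exact_mod_cast h1))
    exact exists_ne 0
  obtain ⟨U', hU'⟩ := exists_isCompl_sub U₁
  let π : V →ₗ[ℂ] V₁ := V₁.projectionOnto U'.toSubmodule hU'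
  have hπ : ∀ (n : N) (v : V), π (ρ n v) = U₁.toRepresentation n (π v) := by
    intro n v
    obtain ⟨u, u', rfl⟩ : ∃ u : V₁, ∃ u' : U'.toSubmodule, (u : V) + u' = v := by
      obtain ⟨x, hx, y, hy, hxy⟩ := Submodule.mem_sup.1
        (show v ∈ V₁ ⊔ U'.toSubmodule by rw [hU'.sup_eq_top]; trivial)
      exact ⟨⟨x, hx⟩, ⟨y, hy⟩, hxy⟩
    have h2 : ρ n (u : V) = ((U₁.toRepresentation n u : V₁) : V) := rfl
    have h3 : ρ n (u' : V) = ((⟨ρ n u', U'.apply_mem_toSubmodule n u'.2⟩ : U'.toSubmodule) : V) :=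
      rfl
    rw [map_add, h2, h3, map_add, map_add]
    have h4 : ∀ x : V₁, π (x : V) = x := fun x => Submodule.projectionOnto_apply_left hU' x
    have h5 : ∀ x : U'.toSubmodule, π (x : V) = 0 :=
      fun x => Submodule.projectionOnto_apply_right hU' x
    rw [h4, h4, h5, h5, add_zero, add_zero]
  refine ⟨V₂.subtype ∘ₗ f.toLinearMap ∘ₗ π, ?_, ?_, ?_⟩
  · intro n hn
    refine LinearMap.ext fun v => ?_
    show ((f (π (ρ (⟨n, hn⟩ : N) v)) : V₂) : V) = ρ n ((f (π v) : V₂) : V)
    rw [hπ, IntertwiningMap.isIntertwining]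
    rfl
  · intro v _
    exact (f (π v)).2
  · by_contra hcon
    push Not at hcon
    apply hf
    apply IntertwiningMap.ext
    refine LinearMap.ext fun x => Subtype.ext ?_
    have h6 := hcon x x.2
    have h7 : π (x : V) = x := Submodule.projectionOnto_apply_left hU' x
    have h8 : ((f (π (x : V)) : V₂) : V) = 0 := h6
    rw [h7] at h8
    exact h8

end Homog

end Cfsg.Agent.CharactersDeep.BergerInd
end

-- part: S0889
section
set_option autoImplicit false
open Cfsg

namespace Cfsg.Agent.S0889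

/-- Let G be a finite solvable group and χ an irreducible character of G such that for every normal subgroup N the restriction of χ to N is a natural-number multiple of one irreducible character of N. Then χ is not induced from a character of any proper subgroup. -/
theorem result {G : Type*} [Group G] [Fintype G] [Group.IsSolvable G] (χ : G → ℂ) (hχ : Cfsg.IsIrrCharacter G χ) (hqp : ∀ (N : Subgroup G), N.Normal → ∃ (ϑ : N → ℂ) (e : ℕ), Cfsg.IsIrrCharacter N ϑ ∧ (fun n : N => χ n) = (e : ℂ) • ϑ) (K : Subgroup G) (hK : K ≠ ⊤) (ψ : K → ℂ) (hψ : Cfsg.IsCharacter K ψ) : Cfsg.indFun K ψ ≠ χ := by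
  obtain ⟨n, ρ, hρ, rfl⟩ := hχ
  intro hind
  have hprim := Cfsg.Agent.CharactersDeep.BergerMain.primitive_of_homog
    (Module.finrank ℂ (Fin n → ℂ)) G (Fin n → ℂ) ρ rfl hρ (fun N hN => by
      obtain ⟨ϑ, e, hϑ, h⟩ := hqp N hN
      exact Cfsg.Agent.CharactersDeep.BergerInd.homog_of_character ρ N hϑ e h)
  obtain ⟨W, hW, hs, hle⟩ :=
    Cfsg.Agent.CharactersDeep.BergerInd.exists_stable_of_indFun ρ hρ K ψ hψ hind
  exact absurd (hprim K W hK hW hs) (not_lt_of_ge hle)

end Cfsg.Agent.S0889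
end
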