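import Mathlib
import Cfsg.Agent.Lib.SolvableNormalP
import Cfsg.Agent.Lib.NormalAbelian
import Cfsg.Statements.S0890
import Cfsg.Agent.CharactersDeep.MaxInduced
set_option linter.all false

-- part: CharactersDeep/MaxSection
section
/-!
# Chief sections above the core of a maximal subgroup with solvable quotient
-/

set_option autoImplicit false

namespace Cfsg.Agent.CharactersDeep.MaxSection

open Subgroup

variable {G : Type*} [Group G]

/-- a subgroup of `H` normalised by `H` and by a supplement of `H` is normal -/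
theorem normal_of_sup (Z H J : Subgroup G) [hZ : Z.Normal] (hZH : Z ⊔ H = ⊤)
    (h1 : ∀ z ∈ Z, ∀ j ∈ J, z * j * z⁻¹ ∈ J) (h2 : ∀ h ∈ H, ∀ j ∈ J, h * j * h⁻¹ ∈ J) :
    J.Normal := by
  refine ⟨fun j hj g => ?_⟩
  have hg : g ∈ Z ⊔ H := by rw [hZH]; exact mem_top g
  obtain ⟨z, hz, h, hh, rfl⟩ := mem_sup_of_normal_left.1 hg
  have := h1 z hz _ (h2 h hh j hj)
  have e : z * h * j * (z * h)⁻¹ = z * (h * j * h⁻¹) * z⁻¹ := by group
  rw [e]
  exact this

/-- modular law in the form needed here -/
theorem le_of_inf_le (N H M : Subgroup G) [hN : N.Normal] (hNH : N ⊔ H = ⊤) (hNM : N ≤ M)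
    (h : M ⊓ H ≤ N) : M ≤ N := by
  intro m hm
  have hg : m ∈ N ⊔ H := by rw [hNH]; exact mem_top m
  obtain ⟨z, hz, x, hx, rfl⟩ := mem_sup_of_normal_left.1 hg
  have hxM : x ∈ M := by
    have := M.mul_mem (M.inv_mem (hNM hz)) hm
    rwa [inv_mul_cancel_left] at this
  exact N.mul_mem hz (h ⟨hxM, hx⟩)

theorem card_eq_index (N H : Subgroup G) [Finite G] [hN : N.Normal] (hNH : N ⊔ H = ⊤)
    (h : N ⊓ H = ⊥) : H.index = Nat.card N := by
  have h1 : N.index = Nat.card H := by
    rw [← relIndex_bot_left, ← h, inf_relIndex_right, ← relIndex_top_right, ← hNH, sup_comm,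
      relIndex_sup_right]
  have h2 := card_mul_index N
  have h3 := index_mul_card H
  rw [h1] at h2
  exact Nat.eq_of_mul_eq_mul_right (Nat.card_pos (α := H)) (h3.trans h2.symm)

theorem exists_section_bot [Finite G] [Group.IsSolvable G] (H : Subgroup G) (hmax : IsCoatom H)
    (hcore : ∀ X : Subgroup G, X.Normal → X ≤ H → X = ⊥) :
    ∃ N : Subgroup G, N.Normal ∧ N ≠ ⊥ ∧ N ⊔ H = ⊤ ∧ N ⊓ H = ⊥ ∧
      (N = ⊤ ∨ ∃ M : Subgroup G, M.Normal ∧ N < M ∧ (∀ x ∈ M, ∀ y ∈ M, x * y * x⁻¹ * y⁻¹ ∈ N) ∧
        (N.relIndex M).Coprime H.index) := by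
  classical
  have hnt : Nontrivial G := by
    by_contra hcon
    rw [not_nontrivial_iff_subsingleton] at hcon
    exact hmax.1 (Subsingleton.elim _ _)
  have hsup : ∀ X : Subgroup G, X.Normal → X ≠ ⊥ → X ⊔ H = ⊤ := by
    intro X hX hne
    refine hmax.2 _ (lt_of_le_of_ne le_sup_right ?_)
    intro he
    exact hne (hcore X hX (by rw [he]; exact le_sup_left))
  obtain ⟨p, N, hp, hN, hNp, hNc, hNne⟩ := Cfsg.Agent.Lib.SolvableNormalP.exists_normal_pSubgroup G
  have : Fact p.Prime := ⟨hp⟩
  have hNH := hsup N hN hNne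
  have hinf : N ⊓ H = ⊥ := by
    apply hcore _ _ inf_le_right
    refine normal_of_sup N H _ hNH ?_ ?_
    · rintro z hz j ⟨hj1, hj2⟩
      have : z * j = j * z :=
        congrArg (fun x : N => (x : G)) (hNc.is_comm.comm (⟨z, hz⟩ : N) ⟨j, hj1⟩)
      rw [this, mul_inv_cancel_right]
      exact ⟨hj1, hj2⟩
    · rintro h hh j ⟨hj1, hj2⟩
      exact ⟨hN.conj_mem j hj1 h, H.mul_mem (H.mul_mem hh hj2) (H.inv_mem hh)⟩
  have hidx : H.index = Nat.card N := card_eq_index N H hNH hinf
  refine ⟨N, hN, hNne, hNH, hinf, ?_⟩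
  by_cases hNtop : N = ⊤
  · exact Or.inl hNtop
  right
  have hntQ : Nontrivial (G ⧸ N) := QuotientGroup.nontrivial_iff.2 hNtop
  obtain ⟨q, M', hq, hM', hM'q, hM'c, hM'ne⟩ :=
    Cfsg.Agent.Lib.SolvableNormalP.exists_normal_pSubgroup (G ⧸ N)
  have : Fact q.Prime := ⟨hq⟩
  set M : Subgroup G := M'.comap (QuotientGroup.mk' N) with hMdef
  have hM : M.Normal := inferInstance
  have hNM : N ≤ M := by
    intro n hn
    rw [hMdef, mem_comap, QuotientGroup.mk'_apply, (QuotientGroup.eq_one_iff n).2 hn]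
    exact M'.one_mem
  have hMne : N ≠ M := by
    intro he
    apply hM'ne
    rw [eq_bot_iff]
    intro x hx
    obtain ⟨g, rfl⟩ := QuotientGroup.mk'_surjective N x
    have : g ∈ M := hx
    rw [← he] at this
    exact (QuotientGroup.eq_one_iff g).2 this
  have hcomm : ∀ x ∈ M, ∀ y ∈ M, x * y * x⁻¹ * y⁻¹ ∈ N := by
    intro x hx y hy
    rw [← QuotientGroup.eq_one_iff]
    have : (x : G ⧸ N) * y = y * x :=
      congrArg (fun z : M' => (z : G ⧸ N)) (hM'c.is_comm.comm (⟨x, hx⟩ : M') ⟨y, hy⟩)
    rw [QuotientGroup.mk_mul, QuotientGroup.mk_mul, QuotientGroup.mk_mul, this,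
      QuotientGroup.mk_inv, QuotientGroup.mk_inv, mul_inv_cancel_right, mul_inv_cancel]
  have hrel : N.relIndex M * Nat.card N = Nat.card M := by
    rw [relIndex, ← index_mul_card (N.subgroupOf M)]
    congr 1
    exact (Nat.card_congr (subgroupOfEquivOfLe hNM).toEquiv).symm
  have hcardM : Nat.card M = Nat.card M' * Nat.card N :=
    Cfsg.Agent.Lib.SolvableNormalP.card_comap_mk N M'
  have hrel' : N.relIndex M = Nat.card M' :=
    Nat.eq_of_mul_eq_mul_right (Nat.card_pos (α := N)) (hrel.trans hcardM)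
  obtain ⟨a, ha⟩ := (IsPGroup.iff_card).1 hNp
  obtain ⟨b, hb⟩ := (IsPGroup.iff_card).1 hM'q
  refine ⟨M, hM, lt_of_le_of_ne hNM hMne, hcomm, ?_⟩
  rw [hrel', hidx, ha, hb]
  by_cases hpq : q = p
  · exfalso
    subst hpq
    -- `M` is a `p`-group
    have hMp : IsPGroup q M := by
      rw [IsPGroup.iff_card]
      exact ⟨b + a, by rw [hcardM, ha, hb, pow_add]⟩
    have hnil : Group.IsNilpotent M := hMp.isNilpotent
    set Z : Subgroup G := N ⊓ centralizer (M : Set G) with hZdef
    have hcN : (centralizer (M : Set G)).Normal := inferInstance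
    have hZn : Z.Normal := inferInstance
    have hZne : Z ≠ ⊥ := by
      have h1 := Cfsg.Agent.Lib.NormalAbelian.normal_inf_center_ne_bot (N.subgroupOf M) (by
        intro he
        apply hNne
        have h2 : Nat.card (N.subgroupOf M) = Nat.card N :=
          Nat.card_congr (subgroupOfEquivOfLe hNM).toEquiv
        rw [he, Subgroup.card_bot] at h2
        exact Subgroup.card_eq_one.1 h2.symm)
      intro hZ
      apply h1
      rw [eq_bot_iff]
      rintro x ⟨hx1, hx2⟩
      have hxZ : (x : G) ∈ Z := by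
        refine ⟨hx1, mem_centralizer_iff.2 ?_⟩
        intro m hm
        exact congrArg (fun z : M => (z : G)) (mem_center_iff.1 hx2 ⟨m, hm⟩)
      rw [hZ, mem_bot] at hxZ
      rw [mem_bot]
      exact Subtype.ext hxZ
    have hZH := hsup Z hZn hZne
    have hJ : M ⊓ H = ⊥ := by
      apply hcore _ _ inf_le_right
      refine normal_of_sup Z H _ hZH ?_ ?_
      · rintro z hz j ⟨hj1, hj2⟩
        have h3 : j * z = z * j := mem_centralizer_iff.1 hz.2 j hj1
        rw [← h3, mul_inv_cancel_right]
        exact ⟨hj1, hj2⟩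
      · rintro h hh j ⟨hj1, hj2⟩
        exact ⟨hM.conj_mem j hj1 h, H.mul_mem (H.mul_mem hh hj2) (H.inv_mem hh)⟩
    exact hMne (le_antisymm hNM (le_of_inf_le N H M hNH hNM (by rw [hJ]; exact bot_le)))
  · exact Nat.Coprime.pow _ _ ((Nat.coprime_primes hq hp).2 hpq)

theorem exists_section [Finite G] (K H : Subgroup G) [hK : K.Normal] (hKH : K ≤ H)
    (hmax : IsCoatom H) (hcore : ∀ X : Subgroup G, X.Normal → X ≤ H → X ≤ K)
    (hsolv : Group.IsSolvable (G ⧸ K)) :
    ∃ N : Subgroup G, N.Normal ∧ K ≤ N ∧ N ≠ K ∧ N ⊔ H = ⊤ ∧ N ⊓ H = K ∧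
      (N = ⊤ ∨ ∃ M : Subgroup G, M.Normal ∧ N < M ∧ (∀ x ∈ M, ∀ y ∈ M, x * y * x⁻¹ * y⁻¹ ∈ N) ∧
        (N.relIndex M).Coprime H.index) := by
  classical
  let π := QuotientGroup.mk' K
  have hπ : Function.Surjective π := QuotientGroup.mk'_surjective K
  have hker : π.ker = K := QuotientGroup.ker_mk' K
  have hcm : ∀ X : Subgroup G, K ≤ X → (X.map π).comap π = X := by
    intro X hX
    rw [comap_map_eq, hker, sup_eq_left.2 hX]
  have hKc : ∀ Y : Subgroup (G ⧸ K), K ≤ Y.comap π := by
    intro Y x hx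
    have hx' : x ∈ π.ker := by rw [hker]; exact hx
    rw [mem_comap, (MonoidHom.mem_ker).1 hx']
    exact Y.one_mem
  have hmc : ∀ Y : Subgroup (G ⧸ K), (Y.comap π).map π = Y := fun Y =>
    map_comap_eq_self_of_surjective hπ Y
  have hmax' : IsCoatom (H.map π) := by
    constructor
    · intro he
      apply hmax.1
      rw [← hcm H hKH, he, comap_top]
    · intro Y hY
      have h1 : H < Y.comap π := by
        refine lt_of_le_of_ne ?_ ?_
        · rw [← hcm H hKH]
          exact comap_mono hY.le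
        · intro he
          apply hY.ne
          rw [he, hmc]
      have h2 := hmax.2 _ h1
      rw [← hmc Y, h2]
      exact map_top_of_surjective π hπ
  have hcore' : ∀ X : Subgroup (G ⧸ K), X.Normal → X ≤ H.map π → X = ⊥ := by
    intro X hX hXH
    have h1 : X.comap π ≤ K := by
      apply hcore _ inferInstance
      rw [← hcm H hKH]
      exact comap_mono hXH
    rw [eq_bot_iff, ← hmc X]
    rw [map_le_iff_le_comap]
    intro x hx
    rw [mem_comap, mem_bot]
    exact (QuotientGroup.eq_one_iff x).2 (h1 hx)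
  obtain ⟨N', hN', hNne, hNH, hinf, hcases⟩ := exists_section_bot (H.map π) hmax' hcore'
  refine ⟨N'.comap π, inferInstance, hKc _, ?_, ?_, ?_, ?_⟩
  · intro he
    apply hNne
    rw [← hmc N', he, eq_bot_iff, map_le_iff_le_comap]
    intro x hx
    rw [mem_comap, mem_bot]
    exact (QuotientGroup.eq_one_iff x).2 hx
  · rw [← hcm H hKH, comap_sup_eq _ _ _ hπ, hNH, comap_top]
  · rw [← hcm H hKH, ← comap_inf, hinf, MonoidHom.comap_bot]
    exact hker
  · rcases hcases with h | ⟨M', hM', hNM, hcomm, hcop⟩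
    · left
      rw [h, comap_top]
    · right
      refine ⟨M'.comap π, inferInstance, ?_, ?_, ?_⟩
      · refine lt_of_le_of_ne (comap_mono hNM.le) ?_
        intro he
        apply hNM.ne
        rw [← hmc N', he, hmc]
      · intro x hx y hy
        have := hcomm _ hx _ hy
        rw [mem_comap]
        rw [map_mul, map_mul, map_mul, map_inv, map_inv]
        exact this
      · have h1 : (N'.comap π).relIndex (M'.comap π) = N'.relIndex M' := by
          rw [relIndex_comap, hmc]
        have h2 : (H.map π).index = H.index := by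
          rw [← index_comap_of_surjective (H.map π) hπ, hcm H hKH]
        rw [h1, ← h2]
        exact hcop

end Cfsg.Agent.CharactersDeep.MaxSection
end

-- part: S0890
section
set_option autoImplicit false
open Cfsg

namespace Cfsg.Agent.S0890

open Cfsg.Agent.Characters.Core Cfsg.Agent.CharactersDeep.MaxInduced
  Cfsg.Agent.CharactersDeep.MaxSection

/-- Let L ≤ H < G with L normal in G, H a maximal subgroup and G / L solvable. Let ϑ be an irreducible character of H whose restriction to L is irreducible and whose induction χ to G is irreducible. Then there is a normal subgroup M of G containing L such that the restriction of χ to M is not a natural-number multiple of a single irreducible character of M. -/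
theorem result {G : Type*} [Group G] [Fintype G] (L H : Subgroup G) [L.Normal] (hLH : L ≤ H) (hmax : IsCoatom H) (hsolv : Group.IsSolvable (G ⧸ L)) (ϑ : H → ℂ) (hϑ : Cfsg.IsIrrCharacter H ϑ) (hϑL : Cfsg.IsIrrCharacter L (fun x : L => ϑ ⟨(x : G), hLH x.2⟩)) (hind : Cfsg.IsIrrCharacter G (Cfsg.indFun H ϑ)) : ∃ M : Subgroup G, M.Normal ∧ L ≤ M ∧ ¬ ∃ (φ : M → ℂ) (e : ℕ), Cfsg.IsIrrCharacter M φ ∧ (fun m : M => Cfsg.indFun H ϑ m) = (e : ℂ) • φ := by
  classical
  by_contra hcon
  push Not at hcon
  set K : Subgroup G := H.normalCore with hKdef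
  have hK : K.Normal := inferInstance
  have hKH : K ≤ H := H.normalCore_le
  have hLK : L ≤ K := Subgroup.normal_le_normalCore.2 hLH
  -- restriction to intermediate subgroups
  have hirrC : ∀ C : Subgroup G, ∀ (_ : L ≤ C) (hCH : C ≤ H),
      IsIrrCharacter C (fun c : C => ϑ ⟨c, hCH c.2⟩) := by
    intro C hLC hCH
    have h1 : IsCharacter C (fun c : C => ϑ ⟨c, hCH c.2⟩) :=
      isCharacter_comp (Subgroup.inclusion hCH) (isIrr_isCharacter hϑ)
    exact isIrr_of_comp (Subgroup.inclusion hLC) h1 hϑL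
  have hsumC : ∀ C : Subgroup G, K ≤ C → C ≤ H →
      sumSq C (extendByZero H ϑ) = Nat.card C := by
    intro C hKC hCH
    apply sumSq_of_irr
    have h1 : (fun x : C => extendByZero H ϑ x) = fun c : C => ϑ ⟨c, hCH c.2⟩ := by
      funext x
      exact extendByZero_of_mem H ϑ (hCH x.2)
    rw [h1]
    exact hirrC C (hLK.trans hKC) hCH
  -- invariance
  obtain ⟨φ, e, hφ, he⟩ := hcon K hK hLK
  have hinv := invariant_of_homogeneous K H hKH ϑ (hirrC K hLK hKH) φ hφ e he
  -- the sections
  have hsolvK : Group.IsSolvable (G ⧸ K) := by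
    let f : G ⧸ L →* G ⧸ K := QuotientGroup.map L K (MonoidHom.id G) (by
      rw [Subgroup.comap_id]; exact hLK)
    have hf : Function.Surjective f := by
      intro x
      obtain ⟨g, rfl⟩ := QuotientGroup.mk_surjective x
      exact ⟨(g : G ⧸ L), rfl⟩
    exact solvable_of_surjective hf
  obtain ⟨N, hN, hKN, hNK, hNH, hNinf, hcases⟩ := exists_section K H hKH hmax
    (fun X hX hXH => Subgroup.normal_le_normalCore.2 hXH) hsolvK
  rcases hcases with hNtop | ⟨M, hM, hNM, hcomm, hcop⟩
  · -- `N = ⊤`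
    have h1 := sumSq_indFun N K H hNH hNinf ϑ hinv (hsumC K le_rfl hKH)
    rw [hNtop, sumSq_top_irr hind, Subgroup.card_top] at h1
    have hG0 : (Nat.card G : ℝ) ≠ 0 := Nat.cast_ne_zero.2 Nat.card_pos.ne'
    have h2 : (H.index : ℝ) = 1 := by
      have : (1 : ℝ) * Nat.card G = H.index * Nat.card G := by rw [one_mul]; exact h1
      exact (mul_right_cancel₀ hG0 this).symm
    have h3 : H.index = 1 := by exact_mod_cast h2
    exact hmax.1 (Subgroup.index_eq_one.1 h3)
  · obtain ⟨η, f, hη, hf⟩ := hcon M hM (hLK.trans (hKN.trans hNM.le))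
    have hMH : M ⊔ H = ⊤ := by
      rw [eq_top_iff, ← hNH]
      exact sup_le_sup_right hNM.le H
    let ϑ' : (H.subgroupOf M) → ℂ := fun j => ϑ ⟨(j : M), Subgroup.mem_subgroupOf.1 j.2⟩
    have hres : indFun (H.subgroupOf M) ϑ' = (f : ℂ) • η := by
      rw [← hf]
      funext m
      exact (indFun_restrict M H hMH ϑ (isIrr_isClassFunction hϑ) m).symm
    have hext : ∀ x : M, extendByZero (H.subgroupOf M) ϑ' x = extendByZero H ϑ (x : G) := by
      intro x
      by_cases hx : (x : G) ∈ H
      · rw [extendByZero_of_mem H ϑ hx,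
          extendByZero_of_mem (H.subgroupOf M) ϑ' (Subgroup.mem_subgroupOf.2 hx)]
      · rw [extendByZero_of_notMem H ϑ hx,
          extendByZero_of_notMem (H.subgroupOf M) ϑ' (fun h => hx (Subgroup.mem_subgroupOf.1 h))]
    have hJn : (H.subgroupOf M).Normal := by
      refine normal_of_homogeneous (N.subgroupOf M) (K.subgroupOf M) (H.subgroupOf M)
        ?_ ?_ ?_ ?_ ϑ' ?_ ?_ η hη f hres
      · -- sup
        rw [eq_top_iff]
        intro m _
        have hm : (m : G) ∈ N ⊔ H := by rw [hNH]; exact Subgroup.mem_top _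
        obtain ⟨z, hz, x, hx, hzx⟩ := Subgroup.mem_sup_of_normal_left.1 hm
        have hzM : z ∈ M := hNM.le hz
        have hxM : x ∈ M := by
          have := M.mul_mem (M.inv_mem hzM) m.2
          rwa [← hzx, inv_mul_cancel_left] at this
        have : m = (⟨z, hzM⟩ : M) * ⟨x, hxM⟩ := Subtype.ext hzx.symm
        rw [this]
        exact Subgroup.mul_mem_sup (Subgroup.mem_subgroupOf.2 hz) (Subgroup.mem_subgroupOf.2 hx)
      · -- inf
        rw [← hNinf]
        rfl
      · -- commutators
        intro x y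
        exact Subgroup.mem_subgroupOf.2 (hcomm x x.2 y y.2)
      · -- coprime
        have h1 : (H.subgroupOf M).index = H.index := by
          have h2 := card_mul_card_eq M (M ⊓ H) H hMH rfl
          have e1 : Nat.card (H.subgroupOf M) = Nat.card (M ⊓ H : Subgroup G) := by
            rw [← Subgroup.inf_subgroupOf_left]
            exact Nat.card_congr (Subgroup.subgroupOfEquivOfLe inf_le_left).toEquiv
          have h3 := Subgroup.index_mul_card (H.subgroupOf M)
          have h4 := Subgroup.index_mul_card H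
          rw [← e1, ← h3, ← h4] at h2
          have hpos : 0 < Nat.card (H.subgroupOf M) * Nat.card H :=
            Nat.mul_pos Nat.card_pos Nat.card_pos
          refine Nat.eq_of_mul_eq_mul_right hpos ?_
          linarith
        rw [h1]
        exact hcop
      · intro C hKC hCJ
        have hCirr : IsIrrCharacter C (fun c : C => extendByZero (H.subgroupOf M) ϑ' c) := by
          have hCH : ∀ c : C, ((c : M) : G) ∈ H := fun c => Subgroup.mem_subgroupOf.1 (hCJ c.2)
          let ι : C →* H :=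
            { toFun := fun c => ⟨((c : M) : G), hCH c⟩
              map_one' := rfl
              map_mul' := fun _ _ => rfl }
          have h1 : (fun c : C => extendByZero (H.subgroupOf M) ϑ' c) = ϑ ∘ ι := by
            funext c
            rw [hext]
            exact extendByZero_of_mem H ϑ (hCH c)
          rw [h1]
          have hLM : ∀ x : L, (x : G) ∈ M := fun x => hNM.le (hKN (hLK x.2))
          let κ : L →* C :=
            { toFun := fun x => ⟨⟨(x : G), hLM x⟩, hKC (Subgroup.mem_subgroupOf.2 (hLK x.2))⟩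
              map_one' := rfl
              map_mul' := fun _ _ => rfl }
          exact isIrr_of_comp κ (isCharacter_comp ι (isIrr_isCharacter hϑ)) hϑL
        exact sumSq_of_irr C _ hCirr
      · intro g k hk
        rw [hext, hext]
        exact hinv g k (Subgroup.mem_subgroupOf.1 hk)
    -- now `M ⊓ H` is normal in `G`
    have hJ : (M ⊓ H).Normal := by
      refine normal_of_sup M H _ hMH ?_ ?_
      · rintro z hz j ⟨hj1, hj2⟩
        have h1 := hJn.conj_mem ⟨j, hj1⟩ (Subgroup.mem_subgroupOf.2 hj2) ⟨z, hz⟩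
        exact ⟨M.mul_mem (M.mul_mem hz hj1) (M.inv_mem hz), Subgroup.mem_subgroupOf.1 h1⟩
      · rintro h hh j ⟨hj1, hj2⟩
        exact ⟨hM.conj_mem j hj1 h, H.mul_mem (H.mul_mem hh hj2) (H.inv_mem hh)⟩
    have hJK : M ⊓ H ≤ K := Subgroup.normal_le_normalCore.2 inf_le_right
    exact hNM.ne (le_antisymm hNM.le (le_of_inf_le N H M hNH hNM.le (hJK.trans hKN)))

end Cfsg.Agent.S0890
end
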