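-- Proof of statement S0893: characters of extraspecial groups induced from maximal abelian
-- subgroups.
import Cfsg.Statements.S0893
import Cfsg.Agent.CharactersDeep.Extraspecial
import Cfsg.Agent.S0150
set_option linter.all false

set_option autoImplicit false
open Cfsg

namespace Cfsg.Agent.S0893

open scoped ComplexConjugate
open Cfsg.Agent.CharactersDeep.Extraspecial Cfsg.Agent.Characters

/-- Inducing a character of a subgroup gives a character. -/
theorem isCharacter_indFun {G : Type*} [Group G] [Fintype G] (H : Subgroup G) {ψ : H → ℂ}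
    (hψ : IsCharacter H ψ) : IsCharacter G (indFun H ψ) := by
  classical
  have : Finite (IrrCharacter G) := Core.finite_irr
  have : Fintype (IrrCharacter G) := Fintype.ofFinite _
  have : Fintype H := Fintype.ofFinite _
  rw [Core.isCharacter_iff]
  have h1 : ∀ χ : IrrCharacter G, ∃ n : ℕ, classInner (indFun H ψ) (χ : G → ℂ) = n := by
    intro χ
    rw [S0150.classInner_indFun H ψ _ (Core.isIrr_isClassFunction χ.2)]
    exact Core.classInner_isNat hψ
      (Core.isCharacter_comp H.subtype (Core.isIrr_isCharacter χ.2))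
  choose m hm using h1
  refine ⟨m, ?_⟩
  rw [Core.classFunction_eq_sum (S0150.indFun_isClassFunction H ψ)]
  refine Finset.sum_congr rfl fun χ _ => ?_
  rw [hm χ, Nat.cast_smul_eq_nsmul]

/-- Let P be an extraspecial p-group of order p ^ (2 * n + 1), A an abelian subgroup of order p ^ (n + 1), and λ a character of A of degree 1 that is not identically 1 on the elements of A lying in the centre of P. Then the function induced from λ to P is an irreducible character of P and vanishes at every element outside the centre. -/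
theorem result {P : Type*} [Group P] [Fintype P] (p n : ℕ) [Fact p.Prime] (hP : Cfsg.IsExtraspecial p P) (hcard : Nat.card P = p ^ (2 * n + 1)) (A : Subgroup P) (hab : ∀ a ∈ A, ∀ b ∈ A, a * b = b * a) (hA : Nat.card A = p ^ (n + 1)) (lam : A → ℂ) (hlam : Cfsg.IsCharacter A lam ∧ lam 1 = 1) (hZ : ∃ a : A, (a : P) ∈ Subgroup.center P ∧ lam a ≠ 1) : Cfsg.IsIrrCharacter P (Cfsg.indFun A lam) ∧ ∀ x : P, x ∉ Subgroup.center P → Cfsg.indFun A lam x = 0 := by
  classical
  have hp0 : (p : ℂ) ≠ 0 := by exact_mod_cast (Fact.out : p.Prime).ne_zero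
  obtain ⟨f, rfl⟩ := Linear.exists_hom_of_isCharacter hlam.1 hlam.2
  have hchar := isCharacter_indFun A hlam.1
  obtain ⟨a, haZ, ha1⟩ := hZ
  obtain ⟨⟨-, -, hcomm⟩, hcardZ⟩ := hP
  -- the centre is contained in `A`
  have hane : (⟨a, haZ⟩ : Subgroup.center P) ≠ 1 := by
    intro h
    have h' : (a : P) = 1 := congrArg (fun z : Subgroup.center P => (z : P)) h
    have : a = 1 := Subtype.ext h'
    apply ha1
    rw [this]
    simp
  have hZA : Subgroup.center P ≤ A := by
    intro z hz
    obtain ⟨k, hk⟩ := Subgroup.mem_zpowers_iff.1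
      (mem_zpowers_of_prime_card (g' := (⟨z, hz⟩ : Subgroup.center P)) hcardZ hane)
    have : z = (a : P) ^ k := (congrArg (fun z : Subgroup.center P => (z : P)) hk).symm
    rw [this]
    exact zpow_mem a.2 k
  let c : Subgroup.center P →* ℂˣ := f.comp (Subgroup.inclusion hZA)
  have hc : c ≠ 1 := by
    intro h
    apply ha1
    have := congrArg (fun g : Subgroup.center P →* ℂˣ => (g ⟨a, haZ⟩ : ℂ)) h
    simpa [c, Subgroup.inclusion] using this
  have hc1 : ∀ z : Subgroup.center P, z ≠ 1 → (c z : ℂ) ≠ 1 := by
    intro z hz h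
    exact hom_ne_one_of_prime_card hcardZ c hc hz (Units.ext h)
  have hext : ∀ (x : P) (z : Subgroup.center P),
      extendByZero A (fun g => (f g : ℂ)) (x * z) =
        extendByZero A (fun g => (f g : ℂ)) x * c z := by
    intro x z
    by_cases hx : x ∈ A
    · have h1 := S0150.extendByZero_coe A (fun g => (f g : ℂ)) (⟨x, hx⟩ * ⟨z, hZA z.2⟩)
      have h2 := S0150.extendByZero_coe A (fun g => (f g : ℂ)) ⟨x, hx⟩
      simp only [Subgroup.coe_mul] at h1 h2
      rw [h1, h2, map_mul, Units.val_mul]
      rfl
    · have hxz : x * z ∉ A := fun h => hx ((Subgroup.mul_mem_cancel_right A (hZA z.2)).1 h)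
      rw [S0150.extendByZero_of_notMem A _ hx, S0150.extendByZero_of_notMem A _ hxz, zero_mul]
  have hmul : ∀ (x : P) (z : Subgroup.center P),
      indFun A (fun g => (f g : ℂ)) (x * z) = indFun A (fun g => (f g : ℂ)) x * c z := by
    intro x z
    rw [S0150.indFun_apply, S0150.indFun_apply, mul_assoc, Finset.sum_mul]
    congr 1
    refine Finset.sum_congr rfl fun y _ => ?_
    rw [← hext]
    congr 1
    have hzy : (z : P) * y = y * z := (Subgroup.mem_center_iff.1 z.2 y).symm
    calc y⁻¹ * (x * z) * y = y⁻¹ * x * (z * y) := by group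
      _ = _ := by rw [hzy]; group
  have hzero : ∀ x : P, x ∉ Subgroup.center P → indFun A (fun g => (f g : ℂ)) x = 0 := by
    intro x hx
    exact eq_zero_of_notMem_center hcomm.le
      (S0150.indFun_isClassFunction A _) (fun z => (c z : ℂ)) hc1 hmul hx
  refine ⟨?_, hzero⟩
  have hone : indFun A (fun g => (f g : ℂ)) 1 = (p : ℂ) ^ n := by
    rw [S0150.indFun_apply]
    have h1 : ∀ y : P, extendByZero A (fun g => (f g : ℂ)) (y⁻¹ * 1 * y) = 1 := by
      intro y
      have h2 := S0150.extendByZero_coe A (fun g => (f g : ℂ)) 1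
      simp only [OneMemClass.coe_one, map_one, Units.val_one] at h2
      rw [mul_one, inv_mul_cancel, h2]
    rw [Finset.sum_congr rfl (fun y _ => h1 y), Finset.sum_const, Finset.card_univ,
      nsmul_eq_mul, mul_one, ← Nat.card_eq_fintype_card, hcard, hA]
    push_cast
    field_simp
    ring
  have hcen : ∀ z : Subgroup.center P,
      indFun A (fun g => (f g : ℂ)) z = (p : ℂ) ^ n * c z := by
    intro z
    have := hmul 1 z
    rwa [one_mul, hone] at this
  rw [Core.isIrr_iff_classInner_self hchar, classInner_of_center _ c hzero hcen, hcard, hcardZ]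
  rw [map_pow, Complex.conj_natCast]
  push_cast
  field_simp
  ring

end Cfsg.Agent.S0893
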