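import Cfsg.Statements.S0896
import Cfsg.Agent.Characters.Core
import Cfsg.Agent.CharactersDeep.RChar
import Cfsg.Agent.CharactersDeep.PElem
import Cfsg.Agent.CharactersDeep.DadeAux
set_option linter.all false
-- import your own Cfsg.Agent.* helpers here

set_option autoImplicit false
open scoped ComplexConjugate
open Cfsg

namespace Cfsg.Agent.S0896

open Cfsg.Agent.Characters.Core Cfsg.Agent.CharactersDeep.RChar
open Cfsg.Agent.CharactersDeep.DadeAux Cfsg.Agent.CharactersDeep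

section aux

variable {G : Type*} [Group G] [Fintype G] (N : Subgroup G) [hN : N.Normal]

/-- conjugation of `E` on `E ⊓ N` -/
noncomputable def conjHom (E : Subgroup G) : E →* MulAut ↥(E ⊓ N) where
  toFun e :=
    { toFun := fun m => ⟨e * m * (e : G)⁻¹, E.mul_mem (E.mul_mem e.2 m.2.1) (E.inv_mem e.2),
        hN.conj_mem (m : G) m.2.2 e⟩
      invFun := fun m => ⟨(e : G)⁻¹ * m * e, E.mul_mem (E.mul_mem (E.inv_mem e.2) m.2.1) e.2, by
        have := hN.conj_mem (m : G) m.2.2 (e : G)⁻¹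
        rwa [inv_inv] at this⟩
      left_inv := fun m => by ext; simp [mul_assoc]
      right_inv := fun m => by ext; simp [mul_assoc]
      map_mul' := fun a b => by ext; simp [mul_assoc] }
  map_one' := by ext; simp
  map_mul' a b := by ext; simp [mul_assoc]

omit [Fintype G] in
theorem conjHom_apply (E : Subgroup G) (e : E) (m : ↥(E ⊓ N)) :
    ((conjHom N E e m : ↥(E ⊓ N)) : G) = e * m * (e : G)⁻¹ := rfl

/-- The key divisibility: if the multiplicities are all divisible by `p`, then pairing a function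
induced from a `p`-elementary subgroup with `ϑ * conj ϑ` gives a multiple of `p`. -/
theorem pDiv_average {p : ℕ} (hp : p.Prime) (hind : ∃ k : ℕ, N.index = p ^ k) (ϑ : N → ℂ)
    (hϑ : IsIrrCharacter N ϑ)
    (hinv : ∀ (g : G) (n : N), ϑ ⟨g * n * g⁻¹, hN.conj_mem (n : G) n.2 g⟩ = ϑ n)
    (E : Subgroup G)
    (hE : E ⊔ N = ⊤ → ∀ φ : ↥(E ⊓ N) → ℂ, IsIrrCharacter ↥(E ⊓ N) φ →
      (∀ (e : E) m, φ (conjHom N E e m) = φ m) → ∀ [Fintype ↥(E ⊓ N)],
        PDiv p (classInner (fun m : ↥(E ⊓ N) => ϑ ⟨m, m.2.2⟩) φ))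
    (ψ : E → ℂ) (hψ : IsRChar E ψ) [Fintype N] :
    PDiv p ((Nat.card N : ℂ)⁻¹ * ∑ n : N, indFun E ψ n * (ϑ n * conj (ϑ n))) := by
  classical
  have : Fintype ↥(E ⊓ N) := Fintype.ofFinite _
  rw [average_indFun E N ψ (fun n => ϑ n * conj (ϑ n)) (fun g n => by
    simp only [hinv g n])]
  have hθM : IsCharacter ↥(E ⊓ N) (fun m : ↥(E ⊓ N) => ϑ ⟨m, m.2.2⟩) :=
    isCharacter_comp (Subgroup.inclusion (inf_le_right : E ⊓ N ≤ N)) (isIrr_isCharacter hϑ)
  have hψM : IsRChar ↥(E ⊓ N) (fun m : ↥(E ⊓ N) => ψ ⟨m, m.2.1⟩) :=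
    hψ.comp (Subgroup.inclusion (inf_le_left : E ⊓ N ≤ E))
  have hη : IsRChar ↥(E ⊓ N)
      ((fun m : ↥(E ⊓ N) => ψ ⟨m, m.2.1⟩) * (fun m : ↥(E ⊓ N) => ϑ ⟨m, m.2.2⟩)) :=
    hψM.mul (isRChar_of_isCharacter hθM)
  have hrw : (Nat.card ↥(E ⊓ N) : ℂ)⁻¹ * ∑ m : ↥(E ⊓ N), ψ ⟨m, m.2.1⟩ *
      (ϑ ⟨m, m.2.2⟩ * conj (ϑ ⟨m, m.2.2⟩)) =
      classInner ((fun m : ↥(E ⊓ N) => ψ ⟨m, m.2.1⟩) * (fun m : ↥(E ⊓ N) => ϑ ⟨m, m.2.2⟩))
        (fun m : ↥(E ⊓ N) => ϑ ⟨m, m.2.2⟩) := by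
    show _ = (Nat.card ↥(E ⊓ N) : ℂ)⁻¹ * ∑ m : ↥(E ⊓ N), (ψ ⟨m, m.2.1⟩ * ϑ ⟨m, m.2.2⟩) *
      conj (ϑ ⟨m, m.2.2⟩)
    congr 1
    exact Finset.sum_congr rfl (fun m _ => by rw [mul_assoc])
  rw [hrw]
  by_cases htop : E ⊔ N = ⊤
  · refine PDiv.mul_left (RChar.isIntegral_natCast _) ?_
    refine pDiv_classInner (conjHom N E) hp ((E ⊓ N).subgroupOf E) ?_ ?_ hη hθM ?_ ?_ ?_
    · obtain ⟨k, hk⟩ := hind
      have h1 : (E ⊓ N).relIndex E ∣ p ^ k := by
        rw [Subgroup.inf_relIndex_left, ← hk]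
        exact Subgroup.relIndex_dvd_index_of_normal N E
      obtain ⟨j, _, hj⟩ := (Nat.dvd_prime_pow hp).1 h1
      exact ⟨j, hj⟩
    · intro k hk φ hφ m
      have hk' : (k : G) ∈ E ⊓ N := Subgroup.mem_subgroupOf.1 hk
      exact hφ m ⟨k, hk'⟩
    · intro e m
      have h1 : ψ ⟨(e : G) * m * (e : G)⁻¹, (conjHom N E e m).2.1⟩ = ψ ⟨m, m.2.1⟩ :=
        hψ.1 ⟨m, m.2.1⟩ e
      have h2 : ϑ ⟨(e : G) * m * (e : G)⁻¹, (conjHom N E e m).2.2⟩ = ϑ ⟨m, m.2.2⟩ :=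
        hinv e ⟨m, m.2.2⟩
      show ψ ⟨(e : G) * m * (e : G)⁻¹, (conjHom N E e m).2.1⟩ *
        ϑ ⟨(e : G) * m * (e : G)⁻¹, (conjHom N E e m).2.2⟩ = _
      rw [h1, h2]
      rfl
    · intro e m
      exact hinv e ⟨m, m.2.2⟩
    · intro φ hφ hφinv
      exact hE htop φ hφ hφinv
  · refine PDiv.mul_right (hη.classInner_isIntegral hθM) (pDiv_natCast ?_)
    obtain ⟨k, hk⟩ := hind
    have h1 : (E ⊔ N).index ∣ p ^ k := by
      rw [← hk]
      exact Subgroup.index_dvd_of_le le_sup_right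
    obtain ⟨j, _, hj⟩ := (Nat.dvd_prime_pow hp).1 h1
    rcases Nat.eq_zero_or_pos j with h0 | h0
    · subst h0
      rw [pow_zero, Subgroup.index_eq_one] at hj
      exact absurd hj htop
    · rw [hj]
      exact dvd_pow_self p h0.ne'

end aux

/-- Let N be a normal subgroup of the finite group G with the index of N a power of the prime p, and ϑ an irreducible character of N invariant under conjugation by G. Then there are a p-elementary subgroup E of G with E ⊔ N = ⊤ and an irreducible character φ of the subgroup E ⊓ N, invariant under conjugation by E, such that the inner product of the restriction of ϑ to E ⊓ N with φ is an integer not divisible by p. -/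
theorem result {G : Type*} [Group G] [Fintype G] (p : ℕ) (hp : p.Prime) (N : Subgroup G) [hN : N.Normal] (hind : ∃ k : ℕ, N.index = p ^ k) (ϑ : N → ℂ) (hϑ : Cfsg.IsIrrCharacter N ϑ) (hinv : ∀ (g : G) (n : N), ϑ ⟨g * n * g⁻¹, hN.conj_mem (n : G) n.2 g⟩ = ϑ n) : ∃ (E : Subgroup G) (φ : ↥(E ⊓ N) → ℂ), Cfsg.IsElementary p E ∧ E ⊔ N = ⊤ ∧ Cfsg.IsIrrCharacter ↥(E ⊓ N) φ ∧ (∀ (g : G) (hg : g ∈ E) (x : ↥(E ⊓ N)), φ ⟨g * x * g⁻¹, ⟨(E.mul_mem (E.mul_mem hg x.2.1) (E.inv_mem hg)), hN.conj_mem (x : G) x.2.2 g⟩⟩ = φ x) ∧ ∃ m : ℕ, ¬ p ∣ m ∧ (Nat.card ↥(E ⊓ N) : ℂ)⁻¹ * ∑ᶠ x : ↥(E ⊓ N), ϑ ⟨(x : G), x.2.2⟩ * conj (φ x) = (m : ℂ) := by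
  classical
  by_contra hcon
  push Not at hcon
  have hpf : Fact p.Prime := ⟨hp⟩
  have : Fintype N := Fintype.ofFinite N
  -- all relevant multiplicities are divisible by `p`
  have hmult : ∀ E : Subgroup G, IsElementary p E → E ⊔ N = ⊤ → ∀ φ : ↥(E ⊓ N) → ℂ,
      IsIrrCharacter ↥(E ⊓ N) φ → (∀ (e : E) m, φ (conjHom N E e m) = φ m) →
      ∀ [Fintype ↥(E ⊓ N)], PDiv p (classInner (fun m : ↥(E ⊓ N) => ϑ ⟨m, m.2.2⟩) φ) := by
    intro E hE htop φ hφ hφinv _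
    have hθM : IsCharacter ↥(E ⊓ N) (fun m : ↥(E ⊓ N) => ϑ ⟨m, m.2.2⟩) :=
      isCharacter_comp (Subgroup.inclusion (inf_le_right : E ⊓ N ≤ N)) (isIrr_isCharacter hϑ)
    obtain ⟨m, hm⟩ := classInner_isNat hθM (isIrr_isCharacter hφ)
    rw [hm]
    apply pDiv_natCast
    by_contra hpm
    refine hcon E φ hE htop hφ (fun g hg x => hφinv ⟨g, hg⟩ x) m hpm ?_
    rw [finsum_eq_sum_of_fintype]
    exact hm
  obtain ⟨E, ψ, hE, hψ, hval⟩ := PElem.exists_local G p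
  have hfin : Fintype (ConjClasses G) := Fintype.ofFinite _
  set f : G → ℂ := ∑ c, indFun (E c) (ψ c) with hf
  have hfR : IsRChar G f := isRChar_sum _ _ (fun c _ => isRChar_indFun (E c) (hψ c))
  have hfval : ∀ y, ∃ z : ℤ, ¬ (p : ℤ) ∣ z ∧ f y = z := by
    intro y
    obtain ⟨z, hz, hz'⟩ := hval y
    refine ⟨z, hz, ?_⟩
    rw [finsum_eq_sum_of_fintype] at hz'
    rw [hf, Finset.sum_apply, hz']
  choose z hz hfz using hfval
  obtain ⟨b, m', hm', hNcard⟩ := Nat.exists_eq_pow_mul_and_not_dvd (n := Nat.card N)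
    (Nat.card_pos.ne') p hp.ne_one
  set k := (p ^ (b + 1)).totient with hk
  have hkpos : 0 < k := Nat.totient_pos.2 (pow_pos hp.pos _)
  -- the pairing
  have hT1 : PDiv p ((Nat.card N : ℂ)⁻¹ * ∑ n : N, (f ^ k) n * (ϑ n * conj (ϑ n))) := by
    have h1 : f ^ k = ∑ c, indFun (E c) (fun e => ψ c e * (f ^ (k - 1)) e) := by
      conv_lhs => rw [show k = 1 + (k - 1) by omega, pow_add, pow_one]
      conv_lhs => rw [hf]
      rw [Finset.sum_mul]
      refine Finset.sum_congr rfl (fun c _ => ?_)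
      exact NormalInd.indFun_mul (E c) (ψ c) _ (hfR.pow (k - 1)).1
    have h2 : (Nat.card N : ℂ)⁻¹ * ∑ n : N, (f ^ k) n * (ϑ n * conj (ϑ n)) =
        ∑ c, (Nat.card N : ℂ)⁻¹ * ∑ n : N, indFun (E c) (fun e => ψ c e * (f ^ (k - 1)) e) n *
          (ϑ n * conj (ϑ n)) := by
      rw [← Finset.mul_sum, Finset.sum_comm]
      congr 1
      refine Finset.sum_congr rfl (fun n _ => ?_)
      rw [h1, Finset.sum_apply, Finset.sum_mul]
    rw [h2]
    refine PDiv.sum _ _ (fun c _ => ?_)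
    refine pDiv_average N hp hind ϑ hϑ hinv (E c) (hmult (E c) (hE c)) _ ?_
    exact (hψ c).mul ((hfR.pow (k - 1)).restrict (E c))
  -- congruence
  have hcong : ∀ y : G, ∃ t : ℤ, (z y) ^ k = 1 + (p : ℤ) ^ (b + 1) * t := by
    intro y
    have h1 : IsCoprime (z y) ((p : ℤ) ^ (b + 1)) := by
      apply IsCoprime.pow_right
      rw [isCoprime_comm, Prime.coprime_iff_not_dvd (Nat.prime_iff_prime_int.1 hp)]
      exact hz y
    have h2 : (z y) ^ k ≡ 1 [ZMOD ((p ^ (b + 1) : ℕ) : ℤ)] := by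
      have h3 : IsUnit ((z y : ℤ) : ZMod (p ^ (b + 1))) := by
        obtain ⟨u, v, huv⟩ := h1
        refine IsUnit.of_mul_eq_one (u : ZMod (p ^ (b + 1))) ?_
        have h4 := congrArg (fun s : ℤ => (s : ZMod (p ^ (b + 1)))) huv
        have h5 : ((p : ZMod (p ^ (b + 1))) ^ (b + 1)) = 0 := by
          have := ZMod.natCast_self (p ^ (b + 1))
          exact_mod_cast this
        simp only [Int.cast_add, Int.cast_mul, Int.cast_pow, Int.cast_natCast, Int.cast_one, h5,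
          mul_zero, add_zero] at h4
        rw [mul_comm]
        exact h4
      obtain ⟨u, hu⟩ := h3
      have h6 : ((z y : ℤ) : ZMod (p ^ (b + 1))) ^ k = 1 := by
        rw [← hu, ← Units.val_pow_eq_pow_val, hk, ZMod.pow_totient, Units.val_one]
      rw [← ZMod.intCast_eq_intCast_iff]
      push_cast
      exact h6
    obtain ⟨t, ht⟩ := (Int.modEq_iff_dvd.1 h2.symm)
    refine ⟨t, ?_⟩
    push_cast at ht
    linarith
  choose t ht using hcong
  have hT2 : (Nat.card N : ℂ)⁻¹ * ∑ n : N, (f ^ k) n * (ϑ n * conj (ϑ n)) =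
      1 + (m' : ℂ)⁻¹ * (p * ∑ n : N, (t n : ℂ) * (ϑ n * conj (ϑ n))) := by
    have h1 : ∀ n : N, (f ^ k) n * (ϑ n * conj (ϑ n)) = ϑ n * conj (ϑ n) +
        (p : ℂ) ^ b * (p * ((t n : ℂ) * (ϑ n * conj (ϑ n)))) := by
      intro n
      rw [Pi.pow_apply, hfz]
      have := congrArg (fun s : ℤ => (s : ℂ)) (ht n)
      simp only [Int.cast_pow, Int.cast_add, Int.cast_one, Int.cast_mul, Int.cast_natCast] at this
      rw [this]
      ring
    rw [Finset.sum_congr rfl (fun n _ => h1 n), Finset.sum_add_distrib, mul_add]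
    have h2 : (Nat.card N : ℂ)⁻¹ * ∑ n : N, ϑ n * conj (ϑ n) = 1 := classInner_irr_self hϑ
    rw [h2, ← Finset.mul_sum, ← Finset.mul_sum, hNcard]
    congr 1
    have hp0 : (p : ℂ) ≠ 0 := by exact_mod_cast hp.ne_zero
    have hm0 : (m' : ℂ) ≠ 0 := by
      have : m' ≠ 0 := fun h => hm' (h ▸ dvd_zero p)
      exact_mod_cast this
    push_cast
    field_simp
  obtain ⟨w, hw, hTw⟩ := hT1
  rw [hT2] at hTw
  have hm0 : (m' : ℂ) ≠ 0 := by
    have : m' ≠ 0 := fun h => hm' (h ▸ dvd_zero p)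
    exact_mod_cast this
  have hfinal : ((m' : ℤ) : ℂ) = p * (m' * w - ∑ n : N, (t n : ℂ) * (ϑ n * conj (ϑ n))) := by
    have h1 : (m' : ℂ) * (1 + (m' : ℂ)⁻¹ * (p * ∑ n : N, (t n : ℂ) * (ϑ n * conj (ϑ n)))) =
        m' * (p * w) := by rw [hTw]
    rw [mul_add, mul_one, mul_inv_cancel_left₀ hm0] at h1
    push_cast
    linear_combination h1
  have hint : IsIntegral ℤ (m' * w - ∑ n : N, (t n : ℂ) * (ϑ n * conj (ϑ n))) := by
    refine ((RChar.isIntegral_natCast m').mul hw).sub (IsIntegral.sum _ (fun n _ => ?_))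
    have h1 : IsIntegral ℤ (ϑ n) := isIntegral_character (isIrr_isCharacter hϑ) n
    exact (RChar.isIntegral_intCast _).mul (h1.mul (isIntegral_conj h1))
  have := dvd_of_isIntegral hp.ne_zero hint hfinal
  exact hm' (by exact_mod_cast this)

end Cfsg.Agent.S0896
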