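import Cfsg.Statements.S0897
import Cfsg.Agent.Characters.Core
import Cfsg.Agent.Characters.Linear
import Cfsg.Agent.CharactersDeep.DadeAux
import Cfsg.Agent.CharactersDeep.PrimeIndex
import Cfsg.Agent.CharactersDeep.ElemExt
import Cfsg.Agent.Lib.NormalHall
import Cfsg.Agent.S0148
import Cfsg.Agent.S0896
set_option linter.all false
-- import your own Cfsg.Agent.* helpers here

set_option autoImplicit false
open Cfsg

namespace Cfsg.Agent.S0897

open Cfsg.Agent.Characters.Core
open Cfsg.Agent.CharactersDeep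

/-- An irreducible character of an abelian group has degree one. -/
theorem irr_one_eq_one {G : Type*} [Group G] [Finite G] (hcomm : ∀ a b : G, a * b = b * a)
    {φ : G → ℂ} (hφ : IsIrrCharacter G φ) : φ 1 = 1 := by
  obtain ⟨n, ρ, hirr, rfl⟩ := hφ
  have hc : IsMulCommutative G := ⟨⟨hcomm⟩⟩
  have h1 := Representation.IsIrreducible.finrank_eq_one_of_isMulCommutative ρ
  rw [Representation.char_one, h1]
  simp

/-- Let N be a normal subgroup of the finite group G with the index of N a power of the prime p, and P a Sylow p-subgroup of G such that P ⊓ N lies in the centre of P and every character of degree 1 of P ⊓ N is the restriction of a character of degree 1 of P. Then every irreducible character of N invariant under conjugation by G is the restriction of an irreducible character of G. -/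
theorem result {G : Type*} [Group G] [Fintype G] (p : ℕ) [Fact p.Prime] (N : Subgroup G) [hN : N.Normal] (hind : ∃ k : ℕ, N.index = p ^ k) (P : Sylow p G) (hcent : ∀ x ∈ (P : Subgroup G) ⊓ N, ∀ y ∈ (P : Subgroup G), x * y = y * x) (hlin : ∀ lam : ↥((P : Subgroup G) ⊓ N) → ℂ, Cfsg.IsCharacter ↥((P : Subgroup G) ⊓ N) lam → lam 1 = 1 → ∃ μ : ↥(P : Subgroup G) → ℂ, Cfsg.IsCharacter ↥(P : Subgroup G) μ ∧ μ 1 = 1 ∧ ∀ x : ↥((P : Subgroup G) ⊓ N), μ ⟨(x : G), x.2.1⟩ = lam x) (ϑ : N → ℂ) (hϑ : Cfsg.IsIrrCharacter N ϑ) (hinv : ∀ (g : G) (n : N), ϑ ⟨g * n * g⁻¹, hN.conj_mem (n : G) n.2 g⟩ = ϑ n) : ∃ χ : G → ℂ, Cfsg.IsIrrCharacter G χ ∧ ∀ n : N, χ n = ϑ n := by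
  classical
  have hp : p.Prime := Fact.out
  have : Fintype N := Fintype.ofFinite N
  obtain ⟨E, φ, hE, hEN, hφ, hφinv, m, hpm, hm⟩ := S0896.result p hp N hind ϑ hϑ hinv
  have : Fintype ↥(E ⊓ N) := Fintype.ofFinite _
  obtain ⟨z, hz, hzp, hzi⟩ := hE
  obtain ⟨k, hk⟩ := hind
  -- `z` lies in `N`
  have hzN : (z : G) ∈ N := by
    apply Lib.NormalHall.mem_of_orderOf_coprime_index N
    rw [Subgroup.orderOf_coe, hk]
    exact Nat.Coprime.pow_right k hzp
  -- a Sylow subgroup of `E`, conjugate into `P`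
  let S : Sylow p E := default
  obtain ⟨g, hg⟩ : ∃ g : G, ∀ s : E, s ∈ S → g * s * g⁻¹ ∈ (P : Subgroup G) := by
    have h1 : IsPGroup p ((S : Subgroup E).map E.subtype) := S.isPGroup'.map E.subtype
    obtain ⟨Q, hQ⟩ := h1.exists_le_sylow
    obtain ⟨g, hg⟩ := MulAction.exists_smul_eq G Q P
    refine ⟨g, fun s hs => ?_⟩
    rw [← hg]
    have h2 : (s : G) ∈ (Q : Subgroup G) := hQ ⟨s, hs, rfl⟩
    rw [Sylow.coe_subgroup_smul]
    exact ⟨s, h2, rfl⟩
  -- the decomposition of elements of `E`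
  have hdec : ∀ e : E, ∃ (i : ℤ) (s : E), s ∈ S ∧ e = z ^ i * s := by
    have hnorm : ((Subgroup.zpowers z) ⊔ (S : Subgroup E)) = ⊤ := by
      rw [← Subgroup.index_eq_one]
      obtain ⟨j, hj⟩ := hzi
      have h1 : ((Subgroup.zpowers z) ⊔ (S : Subgroup E)).index ∣ p ^ j := by
        rw [← hj]
        exact Subgroup.index_dvd_of_le le_sup_left
      have h2 : ((Subgroup.zpowers z) ⊔ (S : Subgroup E)).index ∣ (S : Subgroup E).index :=
        Subgroup.index_dvd_of_le le_sup_right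
      obtain ⟨i, _, hi⟩ := (Nat.dvd_prime_pow hp).1 h1
      rcases Nat.eq_zero_or_pos i with h0 | h0
      · rw [hi, h0, pow_zero]
      · exfalso
        apply S.not_dvd_index
        exact ((dvd_pow_self p h0.ne').trans (hi ▸ dvd_rfl)).trans h2
    have hzn : (Subgroup.zpowers z).Normal := by
      constructor
      intro a ha b
      obtain ⟨i, rfl⟩ := Subgroup.mem_zpowers_iff.1 ha
      have hc : Commute b (z ^ i) := (show Commute b z from Subgroup.mem_center_iff.1 hz b).zpow_right i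
      rw [hc.eq, mul_inv_cancel_right]
      exact Subgroup.zpow_mem_zpowers z i
    intro e
    have he : e ∈ (Subgroup.zpowers z) ⊔ (S : Subgroup E) := by rw [hnorm]; exact Subgroup.mem_top e
    obtain ⟨a, ha, s, hs, has⟩ := Subgroup.mem_sup_of_normal_left.1 he
    obtain ⟨i, rfl⟩ := Subgroup.mem_zpowers_iff.1 ha
    exact ⟨i, s, hs, has.symm⟩
  -- `E ⊓ N` is abelian
  have hcommS : ∀ s t : E, s ∈ S → t ∈ S → (s : G) ∈ N → s * t = t * s := by
    intro s t hs ht hsN
    have h1 := hcent (g * s * g⁻¹) ⟨hg s hs, hN.conj_mem _ hsN g⟩ (g * t * g⁻¹) (hg t ht)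
    apply Subtype.ext
    show (s : G) * t = t * s
    have h2 : g * (s : G) * g⁻¹ * (g * t * g⁻¹) = g * ((s : G) * t) * g⁻¹ := by group
    have h3 : g * (t : G) * g⁻¹ * (g * s * g⁻¹) = g * ((t : G) * s) * g⁻¹ := by group
    rw [h2, h3] at h1
    exact mul_left_cancel (mul_right_cancel h1)
  have hMcomm : ∀ a b : ↥(E ⊓ N), a * b = b * a := by
    intro a b
    obtain ⟨i, s, hs, has⟩ := hdec ⟨a, a.2.1⟩
    obtain ⟨j, t, ht, hbt⟩ := hdec ⟨b, b.2.1⟩
    have hsN : (s : G) ∈ N := by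
      have h1 : (s : G) = ((z : G) ^ i)⁻¹ * a := by
        have := congrArg Subtype.val has
        change (a : G) = (z : G) ^ i * s at this
        rw [this, inv_mul_cancel_left]
      rw [h1]
      exact N.mul_mem (N.inv_mem (N.zpow_mem hzN i)) a.2.2
    have hzc : ∀ (n : ℤ) (e : E), Commute (z ^ n) e := fun n e =>
      (show Commute z e from (Subgroup.mem_center_iff.1 hz e).symm).zpow_left n
    have h2 : (⟨a, a.2.1⟩ : E) * ⟨b, b.2.1⟩ = ⟨b, b.2.1⟩ * ⟨a, a.2.1⟩ := by
      rw [has, hbt]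
      have hst : Commute s t := hcommS s t hs ht hsN
      exact ((hzc i _).mul_left ((hzc j s).symm.mul_right hst)).eq
    have h3 : (a : G) * b = b * a := congrArg Subtype.val h2
    exact Subtype.ext h3
  have hφ1 : φ 1 = 1 := irr_one_eq_one hMcomm hφ
  obtain ⟨φ', hφ'⟩ := Characters.Linear.exists_hom_of_isIrrCharacter hφ hφ1
  -- extend to `E`
  have hPNcomm : ∀ a b : ↥((P : Subgroup G) ⊓ N), a * b = b * a := fun a b =>
    Subtype.ext (hcent a a.2 b b.2.1)
  let M : Subgroup E := N.subgroupOf E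
  obtain ⟨χE, hχE⟩ : ∃ χE : E →* ℂˣ, ∀ x : ↥(E ⊓ N), χE ⟨x, x.2.1⟩ = φ' x := by
    let φM : M →* ℂˣ := φ'.comp
      { toFun := fun x => ⟨(x : E), (x : E).2, Subgroup.mem_subgroupOf.1 x.2⟩
        map_one' := rfl
        map_mul' := fun _ _ => rfl }
    have hlinS : ∀ β : ↥(M ⊓ (S : Subgroup E)) →* ℂˣ, ∃ μ : (S : Subgroup E) →* ℂˣ,
        ∀ s : ↥(M ⊓ (S : Subgroup E)), μ ⟨s, s.2.2⟩ = β s := by
      intro β
      let c : (S : Subgroup E) →* (P : Subgroup G) :=
        { toFun := fun s => ⟨g * ((s : E) : G) * g⁻¹, hg s s.2⟩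
          map_one' := by ext; simp
          map_mul' := fun a b => by ext; simp }
      let j : ↥(M ⊓ (S : Subgroup E)) →* ↥((P : Subgroup G) ⊓ N) :=
        { toFun := fun s => ⟨g * ((s : E) : G) * g⁻¹, hg s s.2.2,
            hN.conj_mem _ (Subgroup.mem_subgroupOf.1 s.2.1) g⟩
          map_one' := by ext; simp
          map_mul' := fun a b => by ext; simp }
      have hj : Function.Injective j := by
        intro a b hab
        have h1 : g * ((a : E) : G) * g⁻¹ = g * ((b : E) : G) * g⁻¹ := congrArg Subtype.val hab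
        exact Subtype.ext (Subtype.ext (mul_left_cancel (mul_right_cancel h1)))
      obtain ⟨β', hβ'⟩ := ElemExt.exists_ext_of_injective hPNcomm j hj β
      obtain ⟨μ, hμ, hμ1, hμx⟩ := hlin (fun x => (β' x : ℂ)) (Characters.Linear.isCharacter_hom β')
        (by simp)
      obtain ⟨μ', hμ'⟩ := Characters.Linear.exists_hom_of_isCharacter hμ hμ1
      refine ⟨μ'.comp c, fun s => ?_⟩
      apply Units.ext
      rw [← hβ' s, ← hμx (j s)]
      rw [hμ']
      rfl
    obtain ⟨χE, h⟩ := ElemExt.exists_linear_extension z hz hzp hzi M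
      (Subgroup.mem_subgroupOf.2 hzN) S hlinS φM
    refine ⟨χE, fun x => ?_⟩
    exact h ⟨⟨x, x.2.1⟩, Subgroup.mem_subgroupOf.2 x.2.2⟩
  -- induce to `G`
  set Ψ : G → ℂ := indFun E (fun e => (χE e : ℂ)) with hΨ
  have hΨc : IsCharacter G Ψ := S0148.result E _ (Characters.Linear.isCharacter_hom χE)
  have hΨin : classInner (fun n : N => Ψ n) ϑ = m := by
    have h1 := DadeAux.average_indFun E N (fun e => (χE e : ℂ)) (fun n => starRingEnd ℂ (ϑ n))
      (fun g n => by rw [hinv g n])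
    have h2 : classInner (fun n : N => Ψ n) ϑ =
        (Nat.card N : ℂ)⁻¹ * ∑ n : N, indFun E (fun e => (χE e : ℂ)) n * starRingEnd ℂ (ϑ n) := rfl
    rw [h2, h1, hEN, Subgroup.index_top, Nat.cast_one, one_mul]
    have h3 := congrArg (starRingEnd ℂ) hm
    rw [finsum_eq_sum_of_fintype, map_mul, map_sum, map_inv₀, Complex.conj_natCast,
      Complex.conj_natCast] at h3
    rw [← h3]
    congr 1
    refine Finset.sum_congr rfl (fun x _ => ?_)
    rw [map_mul, Complex.conj_conj, hχE, hφ', mul_comm]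
  -- choose a constituent
  have := finite_irr (G := G)
  have := Fintype.ofFinite (IrrCharacter G)
  obtain ⟨a, ha⟩ := isCharacter_iff.1 hΨc
  choose b hb using fun χ : IrrCharacter G =>
    classInner_isNat (isCharacter_comp N.subtype (isIrr_isCharacter χ.2)) (isIrr_isCharacter hϑ)
  have hsum : m = ∑ χ : IrrCharacter G, a χ * b χ := by
    have h1 : (fun n : N => Ψ n) = ∑ χ : IrrCharacter G, (a χ : ℂ) • ((χ : G → ℂ) ∘ N.subtype) := by
      funext n
      rw [ha]
      simp only [Finset.sum_apply, Pi.smul_apply, smul_eq_mul, nsmul_eq_mul, Function.comp]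
      rfl
    rw [h1, classInner_sum_left] at hΨin
    simp only [classInner_smul_left, hb] at hΨin
    exact_mod_cast hΨin.symm
  obtain ⟨χ, hχ⟩ : ∃ χ : IrrCharacter G, ¬ p ∣ b χ := by
    by_contra hcon
    push Not at hcon
    apply hpm
    rw [hsum]
    exact Finset.dvd_sum (fun χ _ => (hcon χ).mul_left _)
  exact ⟨χ, χ.2, PrimeIndex.restrict_eq_of_not_dvd N hp ⟨k, hk⟩ hϑ hinv χ.2 (hb χ) hχ⟩

end Cfsg.Agent.S0897
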