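import Cfsg.Statements.S0903
import Mathlib.GroupTheory.PGroup
import Mathlib.GroupTheory.GroupAction.ConjAct
import Mathlib.Tactic
set_option linter.all false

set_option autoImplicit false
open Cfsg

namespace Cfsg.Agent.S0903

/-- Let P be a p-subgroup of the finite group G, let c centralize P and let g, h ∈ G. The number of pairs (x, y) with x conjugate to g, y conjugate to h and x * y = c is congruent modulo p to the number of such pairs in which x and y both centralize P. (This is why the Brauer map on class sums is multiplicative.) -/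
theorem result {G : Type*} [Group G] [Finite G] (p : ℕ) [Fact p.Prime] (P : Subgroup G) (hP : IsPGroup p P) (c : G) (hc : c ∈ Subgroup.centralizer (P : Set G)) (g h : G) : Nat.card {xy : G × G // IsConj g xy.1 ∧ IsConj h xy.2 ∧ xy.1 * xy.2 = c} ≡ Nat.card {xy : G × G // IsConj g xy.1 ∧ IsConj h xy.2 ∧ xy.1 * xy.2 = c ∧ xy.1 ∈ Subgroup.centralizer (P : Set G) ∧ xy.2 ∈ Subgroup.centralizer (P : Set G)} [MOD p] := by
  classical
  have hc' : ∀ u : G, u ∈ P → u * c * u⁻¹ = c := by
    intro u hu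
    rw [Subgroup.mem_centralizer_iff.1 hc u hu, mul_inv_cancel_right]
  let act : MulAction P {xy : G × G // IsConj g xy.1 ∧ IsConj h xy.2 ∧ xy.1 * xy.2 = c} :=
    { smul := fun u xy => ⟨((u : G) * xy.1.1 * (u : G)⁻¹, (u : G) * xy.1.2 * (u : G)⁻¹),
        xy.2.1.trans (isConj_iff.2 ⟨u, rfl⟩), xy.2.2.1.trans (isConj_iff.2 ⟨u, rfl⟩), by
          show (u : G) * xy.1.1 * (u : G)⁻¹ * ((u : G) * xy.1.2 * (u : G)⁻¹) = c
          have h1 := xy.2.2.2
          calc (u : G) * xy.1.1 * (u : G)⁻¹ * ((u : G) * xy.1.2 * (u : G)⁻¹)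
              = (u : G) * (xy.1.1 * xy.1.2) * (u : G)⁻¹ := by group
            _ = c := by rw [h1]; exact hc' u u.2⟩
      one_smul := fun xy => Subtype.ext (Prod.ext
        (by show ((1 : P) : G) * xy.1.1 * ((1 : P) : G)⁻¹ = xy.1.1; simp)
        (by show ((1 : P) : G) * xy.1.2 * ((1 : P) : G)⁻¹ = xy.1.2; simp))
      mul_smul := fun u v xy => Subtype.ext (Prod.ext
        (by
          show ((u * v : P) : G) * xy.1.1 * ((u * v : P) : G)⁻¹ =
            (u : G) * ((v : G) * xy.1.1 * (v : G)⁻¹) * (u : G)⁻¹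
          push_cast; group)
        (by
          show ((u * v : P) : G) * xy.1.2 * ((u * v : P) : G)⁻¹ =
            (u : G) * ((v : G) * xy.1.2 * (v : G)⁻¹) * (u : G)⁻¹
          push_cast; group)) }
  have key := hP.card_modEq_card_fixedPoints
    {xy : G × G // IsConj g xy.1 ∧ IsConj h xy.2 ∧ xy.1 * xy.2 = c}
  refine key.trans ?_
  have hcard : Nat.card (MulAction.fixedPoints P
      {xy : G × G // IsConj g xy.1 ∧ IsConj h xy.2 ∧ xy.1 * xy.2 = c}) =
      Nat.card {xy : G × G // IsConj g xy.1 ∧ IsConj h xy.2 ∧ xy.1 * xy.2 = c ∧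
        xy.1 ∈ Subgroup.centralizer (P : Set G) ∧ xy.2 ∈ Subgroup.centralizer (P : Set G)} := by
    refine Nat.card_congr
      { toFun := fun z => ⟨z.1.1, z.1.2.1, z.1.2.2.1, z.1.2.2.2, ?_, ?_⟩
        invFun := fun z => ⟨⟨z.1, z.2.1, z.2.2.1, z.2.2.2.1⟩, ?_⟩
        left_inv := fun z => rfl
        right_inv := fun z => rfl }
    · rw [Subgroup.mem_centralizer_iff]
      intro u hu
      have h1 : (u * z.1.1.1 * u⁻¹ : G) = z.1.1.1 :=
        congrArg (fun w => w.1.1) (z.2 ⟨u, hu⟩)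
      exact mul_inv_eq_iff_eq_mul.1 h1
    · rw [Subgroup.mem_centralizer_iff]
      intro u hu
      have h1 : (u * z.1.1.2 * u⁻¹ : G) = z.1.1.2 :=
        congrArg (fun w => w.1.2) (z.2 ⟨u, hu⟩)
      exact mul_inv_eq_iff_eq_mul.1 h1
    · intro u
      refine Subtype.ext (Prod.ext ?_ ?_)
      · show (u : G) * z.1.1 * (u : G)⁻¹ = z.1.1
        rw [Subgroup.mem_centralizer_iff.1 z.2.2.2.2.1 u u.2, mul_inv_cancel_right]
      · show (u : G) * z.1.2 * (u : G)⁻¹ = z.1.2
        rw [Subgroup.mem_centralizer_iff.1 z.2.2.2.2.2 u u.2, mul_inv_cancel_right]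
  rw [hcard]

end Cfsg.Agent.S0903
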