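import Mathlib
import Cfsg.Agent.Blocks.OrbitSum
import Cfsg.Agent.Lib.PGroupFixedVector
import Cfsg.Statements.S0905
import Cfsg.Agent.Lib.Cores
set_option linter.all false

-- part: Blocks/ClassSumNilpotent
section
/-!
# Class sums not meeting the centralizer of a normal `p`-subgroup are nilpotent

`isNilpotent_sum_single`: `P` a normal `p`-subgroup of the finite group `H`, `X` a finite set of
elements of `H`, stable under conjugation by `P`, disjoint from `C_H(P)`, whose sum `z` in `F[H]` is
central, `F` a field of characteristic `p`.  Then `z` is nilpotent.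
-/

set_option autoImplicit false

namespace Cfsg.Agent.Blocks.ClassSumNilpotent

open MonoidAlgebra

/-- Nilpotency of sums of group elements over a set not meeting the centralizer of a normal
`p`-subgroup. -/
theorem isNilpotent_sum_single {H F : Type*} [Group H] [Finite H] [Field F] {p : ℕ} [Fact p.Prime]
    [CharP F p] (P : Subgroup H) [hPn : P.Normal] (hP : IsPGroup p P) (X : Finset H)
    (hX : ∀ u ∈ P, ∀ x ∈ X, u * x * u⁻¹ ∈ X)
    (hXC : ∀ x ∈ X, x ∉ Subgroup.centralizer (P : Set H))
    (hz : ∀ h : H, (∑ x ∈ X, (single x (1 : F) : MonoidAlgebra F H)) * single h 1 =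
      single h 1 * ∑ x ∈ X, (single x (1 : F) : MonoidAlgebra F H)) :
    IsNilpotent (∑ x ∈ X, (single x (1 : F) : MonoidAlgebra F H)) := by
  classical
  have := Fintype.ofFinite H
  set z : MonoidAlgebra F H := ∑ x ∈ X, single x (1 : F) with hzdef
  obtain ⟨k, -, hk⟩ := Module.End.exists_ker_pow_eq_ker_pow_succ (LinearMap.mulLeft F z)
  refine ⟨k, ?_⟩
  by_contra hne
  have hzpow : ∀ (n : ℕ) (h : H), z ^ n * single h 1 = single h 1 * z ^ n := by
    intro n h
    exact (show Commute (z ^ n) (single h 1) from (show Commute z (single h 1) from hz h).pow_left n)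
  let act : DistribMulAction P (MonoidAlgebra F H) :=
    { smul := fun u a => single (u : H) 1 * a
      one_smul := fun a => by
        change single ((1 : P) : H) (1 : F) * a = a
        rw [Subgroup.coe_one, ← one_def, one_mul]
      mul_smul := fun u v a => by
        change single ((u * v : P) : H) (1 : F) * a = single (u : H) (1 : F) *
          (single (v : H) (1 : F) * a)
        rw [← mul_assoc, single_mul_single, Subgroup.coe_mul, mul_one]
      smul_zero := fun u => mul_zero _
      smul_add := fun u a b => mul_add _ _ _ }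
  have hsmul : ∀ (u : P) (a : MonoidAlgebra F H), u • a = single (u : H) 1 * a := fun _ _ => rfl
  have hA : ∀ a : MonoidAlgebra F H, p • a = 0 := by
    intro a
    rw [← Nat.cast_smul_eq_nsmul F p a, CharP.cast_eq_zero, zero_smul]
  obtain ⟨w, hw, hw0, hwfix⟩ := Cfsg.Agent.Lib.PGroupFixedVector.exists_mem_ne_zero_fixed hP hA
    (AddMonoidHom.mulLeft (z ^ k)).range (by
      rintro u _ ⟨b, rfl⟩
      refine ⟨single (u : H) 1 * b, ?_⟩
      rw [AddMonoidHom.coe_mulLeft, hsmul, ← mul_assoc, hzpow, mul_assoc])
    (v := z ^ k) ⟨1, by rw [AddMonoidHom.coe_mulLeft, mul_one]⟩ hne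
  obtain ⟨b, hbw⟩ := hw
  rw [AddMonoidHom.coe_mulLeft] at hbw
  have hzw : z * w = 0 := by
    rw [hzdef, Finset.sum_mul]
    obtain ⟨a, ha⟩ := Cfsg.Agent.Blocks.OrbitSum.sum_eq_smul_of_disjoint_centralizer P hP X hX hXC
      (fun x => single x (1 : F) * w) (by
        intro u hu x _
        have h1 : single u⁻¹ (1 : F) * w = w := by
          have := hwfix ⟨u⁻¹, P.inv_mem hu⟩
          rwa [hsmul] at this
        have h2 : single (x⁻¹ * u * x) (1 : F) * w = w := by
          have hmem : x⁻¹ * u * x ∈ P := by
            have := hPn.conj_mem u hu x⁻¹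
            rwa [inv_inv] at this
          have := hwfix ⟨x⁻¹ * u * x, hmem⟩
          rwa [hsmul] at this
        calc single (u * x * u⁻¹) (1 : F) * w
            = single (u * x) (1 : F) * (single u⁻¹ (1 : F) * w) := by
              rw [← mul_assoc, single_mul_single, mul_one]
          _ = single (u * x) (1 : F) * w := by rw [h1]
          _ = single x (1 : F) * (single (x⁻¹ * u * x) (1 : F) * w) := by
              rw [← mul_assoc, single_mul_single, mul_one]
              congr 2
              group
          _ = single x (1 : F) * w := by rw [h2])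
    rw [ha]
    exact hA a
  have hb : b ∈ LinearMap.ker ((LinearMap.mulLeft F z) ^ (k + 1)) := by
    rw [LinearMap.mem_ker, LinearMap.pow_mulLeft, LinearMap.mulLeft_apply, pow_succ', mul_assoc,
      hbw]
    exact hzw
  rw [← Nat.succ_eq_add_one, ← hk, LinearMap.mem_ker, LinearMap.pow_mulLeft,
    LinearMap.mulLeft_apply] at hb
  exact hw0 (hbw ▸ hb)

end Cfsg.Agent.Blocks.ClassSumNilpotent
end

-- part: S0905
section
set_option autoImplicit false
open Cfsg

namespace Cfsg.Agent.S0905

/-- Let F be a field of characteristic p and let g be an element of the finite group G no conjugate of which centralizes O_p(G). Then the class sum of g is a nilpotent element of the group algebra F[G]. -/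
theorem result {G : Type*} [Group G] [Finite G] (p : ℕ) [Fact p.Prime] (F : Type*) [Field F] [CharP F p] (g : G) (hg : ∀ x : G, IsConj g x → x ∉ Subgroup.centralizer (Cfsg.pCore p G : Set G)) : IsNilpotent (∑ᶠ x ∈ ConjClasses.carrier (ConjClasses.mk g), MonoidAlgebra.single x (1 : F) : MonoidAlgebra F G) := by
  classical
  have hfin : (ConjClasses.carrier (ConjClasses.mk g)).Finite := Set.toFinite _
  rw [finsum_mem_eq_finite_toFinset_sum _ hfin]
  have hmem : ∀ x, x ∈ hfin.toFinset ↔ IsConj g x := by
    intro x
    rw [hfin.mem_toFinset, ConjClasses.mem_carrier_iff_mk_eq, ConjClasses.mk_eq_mk_iff_isConj]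
    exact isConj_comm
  have hconj : ∀ u x : G, x ∈ hfin.toFinset → u * x * u⁻¹ ∈ hfin.toFinset := by
    intro u x hx
    rw [hmem] at hx ⊢
    exact hx.trans (isConj_iff.2 ⟨u, rfl⟩)
  have := Cfsg.Agent.Lib.Cores.pCore_normal (G := G) p
  refine Cfsg.Agent.Blocks.ClassSumNilpotent.isNilpotent_sum_single (Cfsg.pCore p G)
    (Cfsg.Agent.Lib.Cores.pCore_isPGroup p) hfin.toFinset (fun u _ x hx => hconj u x hx)
    (fun x hx => hg x ((hmem x).1 hx)) ?_
  intro h
  rw [Finset.sum_mul, Finset.mul_sum]
  refine Finset.sum_bij' (fun x _ => h⁻¹ * x * h) (fun x _ => h * x * h⁻¹) ?_ ?_ ?_ ?_ ?_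
  · intro x hx
    simpa using hconj h⁻¹ x hx
  · intro x hx
    exact hconj h x hx
  · intro x _
    group
  · intro x _
    group
  · intro x _
    rw [MonoidAlgebra.single_mul_single, MonoidAlgebra.single_mul_single]
    congr 1
    group

end Cfsg.Agent.S0905
end
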