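import Cfsg.Statements.S0932
import Mathlib
set_option linter.all false
-- import your own Cfsg.Agent.* helpers here

set_option autoImplicit false
open Cfsg

namespace Cfsg.Agent.S0932

/-- Summing over all conjugates: each member of the class of `g` is hit `|C(g)|` times. -/
theorem sum_conj_eq {G : Type*} [Group G] [Fintype G] (g : G) (F : G → ℂ) :
    ∑ x : G, F (x⁻¹ * g * x)
      = (Nat.card (Subgroup.centralizer ({g} : Set G)) : ℂ) * ∑ᶠ y ∈ {y : G | IsConj g y}, F y := by
  classical
  have hfin : ∑ᶠ y ∈ {y : G | IsConj g y}, F y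
      = ∑ y ∈ Finset.univ.filter (fun y : G => IsConj g y), F y := by
    rw [← finsum_mem_coe_finset]
    simp
  rw [hfin, Finset.mul_sum]
  rw [← Finset.sum_fiberwise_of_maps_to (s := Finset.univ)
    (t := Finset.univ.filter (fun y : G => IsConj g y)) (g := fun x : G => x⁻¹ * g * x)
    (f := fun x => F (x⁻¹ * g * x))]
  · refine Finset.sum_congr rfl (fun y hy => ?_)
    have hy' : IsConj g y := (Finset.mem_filter.1 hy).2
    obtain ⟨c, hc⟩ := isConj_iff.1 hy'
    have h1 : ∑ x ∈ Finset.univ.filter (fun x : G => x⁻¹ * g * x = y), F (x⁻¹ * g * x)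
        = ∑ x ∈ Finset.univ.filter (fun x : G => x⁻¹ * g * x = y), F y := by
      refine Finset.sum_congr rfl (fun x hx => ?_)
      rw [(Finset.mem_filter.1 hx).2]
    rw [h1, Finset.sum_const, nsmul_eq_mul]
    congr 2
    have h2 : (Finset.univ.filter (fun x : G => x⁻¹ * g * x = y)).card
        = (Finset.univ.filter (fun x : G => x ∈ Subgroup.centralizer ({g} : Set G))).card := by
      refine Finset.card_bij' (fun x _ => x * c) (fun x _ => x * c⁻¹) ?_ ?_ ?_ ?_
      · intro x hx
        have hx' := (Finset.mem_filter.1 hx).2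
        refine Finset.mem_filter.2 ⟨Finset.mem_univ _, ?_⟩
        rw [Subgroup.mem_centralizer_singleton_iff]
        rw [← hc] at hx'
        have : g = x * (c * g * c⁻¹) * x⁻¹ := by rw [← hx']; group
        calc x * c * g = (x * (c * g * c⁻¹) * x⁻¹) * (x * c) := by group
          _ = g * (x * c) := by rw [← this]
      · intro x hx
        have hx' := (Finset.mem_filter.1 hx).2
        rw [Subgroup.mem_centralizer_singleton_iff] at hx'
        refine Finset.mem_filter.2 ⟨Finset.mem_univ _, ?_⟩
        rw [← hc]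
        calc (x * c⁻¹)⁻¹ * g * (x * c⁻¹) = c * (x⁻¹ * (g * x)) * c⁻¹ := by group
          _ = c * (x⁻¹ * (x * g)) * c⁻¹ := by rw [hx']
          _ = c * g * c⁻¹ := by group
      · intro x _; group
      · intro x _; group
    rw [h2, Nat.card_eq_fintype_card, Fintype.card_subtype]
  · intro x _
    refine Finset.mem_filter.2 ⟨Finset.mem_univ _, isConj_iff.2 ⟨x⁻¹, by group⟩⟩

theorem extendByZero_coe {G : Type*} [Group G] (H : Subgroup G) (ξ : H → ℂ) (h : H) :
    extendByZero H ξ (h : G) = ξ h :=
  Function.Injective.extend_apply Subtype.val_injective ξ 0 h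

theorem extendByZero_of_notMem {G : Type*} [Group G] (H : Subgroup G) (ξ : H → ℂ) (y : G)
    (hy : y ∉ H) : extendByZero H ξ y = 0 :=
  Function.extend_apply' (f := (Subtype.val : H → G)) ξ (0 : G → ℂ) y
    (by rintro ⟨a, rfl⟩; exact hy a.2)

/-- Restricting a sum over a conjugacy class to the elements of a subgroup. -/
theorem finsum_extendByZero {G : Type*} [Group G] (H : Subgroup G) (ξ : H → ℂ) (g : G) :
    ∑ᶠ y ∈ {y : G | IsConj g y}, extendByZero H ξ y
      = ∑ᶠ h ∈ {h : H | IsConj g (h : G)}, ξ h := by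
  classical
  have e1 : ∑ᶠ y ∈ {y : G | IsConj g y}, extendByZero H ξ y
      = ∑ᶠ y ∈ (Subtype.val '' {h : H | IsConj g (h : G)} : Set G), extendByZero H ξ y := by
    refine finsum_mem_inter_support_eq' _ _ _ ?_
    intro y hne
    have hyH : y ∈ H := by
      by_contra hy
      exact hne (extendByZero_of_notMem H ξ y hy)
    constructor
    · intro hc
      exact ⟨⟨y, hyH⟩, hc, rfl⟩
    · rintro ⟨a, ha, rfl⟩
      exact ha
  rw [e1, finsum_mem_image (Subtype.val_injective.injOn)]
  exact finsum_mem_congr rfl (fun h _ => extendByZero_coe H ξ h)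

/-- Let H be a subgroup of the finite group G and ξ a character of H. For every g ∈ G, the sum of ξ h / ξ 1 over the elements h ∈ H that are conjugate in G to g equals the central character at g of the character of G induced from ξ (class size times value divided by degree). -/
theorem result {G : Type*} [Group G] [Fintype G] (H : Subgroup G) (ξ : H → ℂ) (hξ : Cfsg.IsCharacter H ξ) (g : G) : Cfsg.inducedCentralChar H ξ g = Cfsg.centralChar (Cfsg.indFun H ξ) g := by
  classical
  have hG : (Nat.card G : ℂ) ≠ 0 := by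
    exact_mod_cast Nat.card_pos.ne'
  have hC : (Nat.card (Subgroup.centralizer ({g} : Set G)) : ℂ) ≠ 0 := by
    exact_mod_cast Nat.card_pos.ne'
  have hH : (Nat.card H : ℂ) ≠ 0 := by
    exact_mod_cast Nat.card_pos.ne'
  have hidx : ((Subgroup.centralizer ({g} : Set G)).index : ℂ)
      * (Nat.card (Subgroup.centralizer ({g} : Set G)) : ℂ) = (Nat.card G : ℂ) := by
    exact_mod_cast Subgroup.index_mul_card _
  have h1 : indFun H ξ 1 = (Nat.card H : ℂ)⁻¹ * ((Nat.card G : ℂ) * ξ 1) := by
    have h : indFun H ξ 1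
        = (Nat.card H : ℂ)⁻¹ * ∑ x : G, extendByZero H ξ (x⁻¹ * 1 * x) := rfl
    rw [h]
    have this : ∀ x : G, extendByZero H ξ (x⁻¹ * 1 * x) = ξ 1 := by
      intro x
      have hx : x⁻¹ * 1 * x = ((1 : H) : G) := by simp
      rw [hx]
      exact extendByZero_coe H ξ 1
    rw [Finset.sum_congr rfl (fun x _ => this x), Finset.sum_const, nsmul_eq_mul,
      Finset.card_univ, Nat.card_eq_fintype_card (α := G)]
  have h2 : indFun H ξ g = (Nat.card H : ℂ)⁻¹ *
      ((Nat.card (Subgroup.centralizer ({g} : Set G)) : ℂ) *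
        ∑ᶠ h ∈ {h : H | IsConj g (h : G)}, ξ h) := by
    have h : indFun H ξ g
        = (Nat.card H : ℂ)⁻¹ * ∑ x : G, extendByZero H ξ (x⁻¹ * g * x) := rfl
    rw [h, sum_conj_eq, finsum_extendByZero]
  have h3 : inducedCentralChar H ξ g = (∑ᶠ h ∈ {h : H | IsConj g (h : G)}, ξ h) / ξ 1 := by
    have h : inducedCentralChar H ξ g = ∑ᶠ h ∈ {h : H | IsConj g (h : G)}, ξ h / ξ 1 := rfl
    rw [h, div_eq_mul_inv, finsum_mem_mul]
    exact finsum_mem_congr rfl (fun h _ => div_eq_mul_inv _ _)
  have h4 : centralChar (indFun H ξ) g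
      = ((Subgroup.centralizer ({g} : Set G)).index : ℂ) * indFun H ξ g / indFun H ξ 1 := rfl
  rw [h4, h3, h1, h2, ← hidx]
  set S := ∑ᶠ h ∈ {h : H | IsConj g (h : G)}, ξ h with hS
  by_cases hx : ξ 1 = 0
  · simp [hx]
  · have hI : ((Subgroup.centralizer ({g} : Set G)).index : ℂ) ≠ 0 := by
      intro h0
      rw [h0, zero_mul] at hidx
      exact hG hidx.symm
    field_simp

end Cfsg.Agent.S0932
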