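import Cfsg.Statements.S0957
import Mathlib
import Cfsg.Agent.Blocks.OrbitCount
set_option linter.all false
-- import your own Cfsg.Agent.* helpers here

set_option autoImplicit false
open Cfsg

namespace Cfsg.Agent.S0957

/-- Let P be a Sylow p-subgroup of the finite group G, let g, h ∈ G and let p ^ d be the order of a Sylow p-subgroup of the centralizer of g. Then the number of pairs (y, z) with y conjugate to g, z conjugate to h and z * y⁻¹ ∈ P is divisible by the order of P divided by p ^ d. -/
theorem result {G : Type*} [Group G] [Finite G] (p : ℕ) [Fact p.Prime] (P : Sylow p G) (g h : G) (S : Sylow p (Subgroup.centralizer ({g} : Set G))) : Nat.card P / Nat.card S ∣ Nat.card {yz : G × G // IsConj g yz.1 ∧ IsConj h yz.2 ∧ yz.2 * yz.1⁻¹ ∈ (P : Subgroup G)} := by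
  classical
  -- `P` acts by simultaneous conjugation on the pairs
  let X := {yz : G × G // IsConj g yz.1 ∧ IsConj h yz.2 ∧ yz.2 * yz.1⁻¹ ∈ (P : Subgroup G)}
  have hconj : ∀ (u : P) (a b : G), IsConj a b → IsConj a ((u : G) * b * (u : G)⁻¹) := by
    intro u a b hab
    exact hab.trans (isConj_iff.mpr ⟨(u : G), rfl⟩)
  let act : MulAction P X :=
    { smul := fun u x => ⟨((u : G) * x.1.1 * (u : G)⁻¹, (u : G) * x.1.2 * (u : G)⁻¹),
        hconj u _ _ x.2.1, hconj u _ _ x.2.2.1, by
          have h3 := x.2.2.2
          have : (u : G) * x.1.2 * (u : G)⁻¹ * ((u : G) * x.1.1 * (u : G)⁻¹)⁻¹ =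
              (u : G) * (x.1.2 * x.1.1⁻¹) * (u : G)⁻¹ := by group
          rw [this]
          exact (P : Subgroup G).mul_mem ((P : Subgroup G).mul_mem u.2 h3)
            ((P : Subgroup G).inv_mem u.2)⟩
      one_smul := by
        intro x
        apply Subtype.ext
        change (((1 : P) : G) * x.1.1 * ((1 : P) : G)⁻¹, ((1 : P) : G) * x.1.2 * ((1 : P) : G)⁻¹) = x.1
        simp
      mul_smul := by
        intro u v x
        apply Subtype.ext
        change (((u * v : P) : G) * x.1.1 * ((u * v : P) : G)⁻¹,
            ((u * v : P) : G) * x.1.2 * ((u * v : P) : G)⁻¹) =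
          ((u : G) * ((v : G) * x.1.1 * (v : G)⁻¹) * (u : G)⁻¹,
            (u : G) * ((v : G) * x.1.2 * (v : G)⁻¹) * (u : G)⁻¹)
        ext <;> simp [mul_assoc] }
  refine Cfsg.Agent.Blocks.OrbitCount.dvd_card_of_forall_orbit (P := P) (X := X) _ fun x => ?_
  -- the stabilizer embeds in the centralizer of `x.1.1`
  obtain ⟨c, hc⟩ := isConj_iff.mp x.2.1
  have hstab : Nat.card (MulAction.stabilizer P x) ∣ Nat.card S := by
    let f : MulAction.stabilizer P x →* Subgroup.centralizer ({g} : Set G) :=
      { toFun := fun u => ⟨c⁻¹ * ((u : P) : G) * c, by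
          have hu : (u : P) • x = x := u.2
          have hu1 : ((u : P) : G) * x.1.1 * ((u : P) : G)⁻¹ = x.1.1 :=
            congrArg (fun t : X => t.1.1) hu
          rw [Subgroup.mem_centralizer_singleton_iff]
          rw [← hc] at hu1
          have h2 : ((u : P) : G) * (c * g * c⁻¹) = (c * g * c⁻¹) * ((u : P) : G) := by
            rw [mul_inv_eq_iff_eq_mul] at hu1
            exact hu1
          calc c⁻¹ * ((u : P) : G) * c * g = c⁻¹ * (((u : P) : G) * (c * g * c⁻¹)) * c := by group
            _ = c⁻¹ * ((c * g * c⁻¹) * ((u : P) : G)) * c := by rw [h2]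
            _ = g * (c⁻¹ * ((u : P) : G) * c) := by group⟩
        map_one' := by
          apply Subtype.ext
          simp
        map_mul' := by
          intro u v
          apply Subtype.ext
          simp [mul_assoc] }
    have hf : Function.Injective f := by
      intro u v huv
      have := congrArg (fun t : Subgroup.centralizer ({g} : Set G) => (t : G)) huv
      simp only [f, MonoidHom.coe_mk, OneHom.coe_mk] at this
      have h3 : ((u : P) : G) = ((v : P) : G) := by simpa using this
      exact Subtype.ext (Subtype.ext h3)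
    have hcard : Nat.card (MulAction.stabilizer P x) = Nat.card f.range :=
      Nat.card_congr (MonoidHom.ofInjective hf).toEquiv
    rw [hcard]
    apply Cfsg.Agent.Blocks.OrbitCount.card_dvd_card_sylow p S
    have hpP : IsPGroup p (MulAction.stabilizer P x) := P.2.to_subgroup _
    exact hpP.of_surjective f.rangeRestrict f.rangeRestrict_surjective
  have horb : Nat.card (MulAction.orbit P x) * Nat.card (MulAction.stabilizer P x) = Nat.card P := by
    rw [← Nat.card_prod]
    exact Nat.card_congr (MulAction.orbitProdStabilizerEquivGroup P x)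
  obtain ⟨k, hk⟩ := hstab
  have hSP : Nat.card S ∣ Nat.card P := by
    obtain ⟨n, hn⟩ := IsPGroup.iff_card.mp S.2
    rw [hn]
    apply Sylow.pow_dvd_card_of_pow_dvd_card
    rw [← hn]
    exact (Subgroup.card_subgroup_dvd_card (S : Subgroup (Subgroup.centralizer ({g} : Set G)))).trans
      (Subgroup.card_subgroup_dvd_card _)
  obtain ⟨m, hm⟩ := hSP
  have hS0 : 0 < Nat.card S := Nat.card_pos
  rw [hm, Nat.mul_div_cancel_left _ hS0]
  have hst0 : 0 < Nat.card (MulAction.stabilizer P x) := Nat.card_pos
  have h4 : Nat.card (MulAction.orbit P x) * Nat.card (MulAction.stabilizer P x) =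
      Nat.card (MulAction.stabilizer P x) * (k * m) := by
    rw [horb, hm, hk]; ring
  have h5 : Nat.card (MulAction.orbit P x) = k * m := by
    rw [mul_comm] at h4
    exact Nat.eq_of_mul_eq_mul_left hst0 h4
  exact ⟨k, by rw [h5]; ring⟩

end Cfsg.Agent.S0957
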