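import Cfsg.Statements.S0987
import Mathlib
set_option linter.all false

set_option autoImplicit false
open Cfsg

namespace Cfsg.Agent.S0987

/-- If a finite group has order pqr for primes p < q < r, then its Sylow r-subgroups are normal. -/
theorem result {G : Type*} [Group G] [Finite G] (p q r : ℕ) (hp : p.Prime) (hq : q.Prime) [Fact r.Prime] (hpq : p < q) (hqr : q < r) (hG : Nat.card G = p * q * r) (R : Sylow r G) : (R : Subgroup G).Normal := by
  classical
  have hr : r.Prime := Fact.out
  haveI : Fact p.Prime := ⟨hp⟩
  haveI : Fact q.Prime := ⟨hq⟩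
  -- the smallest prime divisor is `p`
  have hmin : (Nat.card G).minFac = p := by
    rw [hG]
    have hne : p * q * r ≠ 1 := by
      intro h
      have := Nat.eq_one_of_mul_eq_one_left h
      exact hr.one_lt.ne' this
    have hpr := Nat.minFac_prime hne
    have hdv := Nat.minFac_dvd (p * q * r)
    have hle : (p * q * r).minFac ≤ p :=
      Nat.minFac_le_of_dvd hp.two_le (Dvd.intro _ (by ring : p * (q * r) = p * q * r))
    rcases (Nat.Prime.dvd_mul hpr).1 hdv with h | h
    · rcases (Nat.Prime.dvd_mul hpr).1 h with h | h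
      · exact (Nat.prime_dvd_prime_iff_eq hpr hp).1 h
      · have := (Nat.prime_dvd_prime_iff_eq hpr hq).1 h
        omega
    · have := (Nat.prime_dvd_prime_iff_eq hpr hr).1 h
      omega
  -- the Sylow `p`-subgroups have order `p`, hence are cyclic
  obtain ⟨P⟩ : Nonempty (Sylow p G) := inferInstance
  have hpq' : ¬ p ∣ q := fun h => by
    have := (Nat.prime_dvd_prime_iff_eq hp hq).1 h; omega
  have hpr' : ¬ p ∣ r := fun h => by
    have := (Nat.prime_dvd_prime_iff_eq hp hr).1 h; omega
  have hcardP : Nat.card P = p := by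
    rw [P.card_eq_multiplicity, hG, mul_assoc,
      Nat.factorization_mul hp.ne_zero (Nat.mul_ne_zero hq.ne_zero hr.ne_zero),
      Nat.factorization_mul hq.ne_zero hr.ne_zero]
    simp [Nat.factorization_eq_zero_of_not_dvd hpq', Nat.factorization_eq_zero_of_not_dvd hpr',
      hp.factorization_self]
  have hPc : IsCyclic P := isCyclic_of_prime_card hcardP
  have hcompl := hPc.isComplement' hmin
  set K : Subgroup G := (MonoidHom.transferSylow P (hPc.normalizer_le_centralizer hmin)).ker
    with hK
  have hcardK : Nat.card K = q * r := by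
    have := hcompl.card_mul
    rw [hcardP, hG] at this
    have h2 : p * Nat.card K = p * (q * r) := by rw [mul_comm, this]; ring
    exact Nat.eq_of_mul_eq_mul_left hp.pos h2
  have hKidx : K.index = p := by
    rw [hcompl.symm.index_eq_card, hcardP]
  -- `R ≤ K`
  have hRK : (R : Subgroup G) ≤ K := by
    intro x hx
    rw [← QuotientGroup.eq_one_iff]
    have h1 : orderOf (x : G ⧸ K) ∣ p := by
      have h0 : orderOf (x : G ⧸ K) ∣ K.index := orderOf_dvd_natCard _
      rwa [hKidx] at h0
    obtain ⟨n, hn⟩ := (IsPGroup.iff_orderOf.1 R.isPGroup') ⟨x, hx⟩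
    have h2 : orderOf (x : G ⧸ K) ∣ r ^ n := by
      have h3 : orderOf (x : G ⧸ K) ∣ orderOf x := orderOf_map_dvd (QuotientGroup.mk' K) x
      have h4 : orderOf x = r ^ n := by rw [← hn, Subgroup.orderOf_mk]
      rwa [h4] at h3
    have hcop : Nat.Coprime p (r ^ n) :=
      Nat.Coprime.pow_right _ ((Nat.coprime_primes hp hr).2 (by omega))
    exact orderOf_eq_one_iff.1 (Nat.eq_one_of_dvd_coprimes hcop h1 h2)
  -- in `K` the Sylow `r`-subgroup is unique
  have hsub : Subsingleton (Sylow r K) := by
    have h1 := card_sylow_modEq_one r K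
    let R' : Sylow r K := R.subtype hRK
    have hcardR' : Nat.card R' = r := by
      rw [R'.card_eq_multiplicity, hcardK, Nat.factorization_mul hq.ne_zero hr.ne_zero]
      have : ¬ r ∣ q := fun h => by
        have := (Nat.prime_dvd_prime_iff_eq hr hq).1 h; omega
      simp [Nat.factorization_eq_zero_of_not_dvd this, hr.factorization_self]
    have hidx : (R' : Subgroup K).index = q := by
      have := (R' : Subgroup K).card_mul_index
      rw [hcardR', hcardK, mul_comm] at this
      exact Nat.eq_of_mul_eq_mul_right hr.pos this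
    have h2 : Nat.card (Sylow r K) ∣ q := by
      rw [← hidx]
      exact R'.card_dvd_index
    have h3 : Nat.card (Sylow r K) = 1 := by
      have h4 : Nat.card (Sylow r K) ≤ q := Nat.le_of_dvd hq.pos h2
      have h5 : Nat.card (Sylow r K) < r := lt_of_le_of_lt h4 hqr
      have h6 := h1
      rw [Nat.ModEq, Nat.mod_eq_of_lt h5, Nat.mod_eq_of_lt hr.one_lt] at h6
      exact h6
    exact (Nat.card_eq_one_iff_unique.1 h3).1
  have hchar : ((R.subtype hRK : Sylow r K) : Subgroup K).Characteristic := inferInstance
  have hnorm : ((R.subtype hRK : Subgroup K).map K.subtype).Normal :=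
    ConjAct.normal_of_characteristic_of_normal
  rwa [Sylow.coe_subtype, Subgroup.subgroupOf_map_subtype, inf_eq_left.2 hRK] at hnorm

end Cfsg.Agent.S0987
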