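import Cfsg.Statements.S0988
import Cfsg.Agent.SmallSimple.PSqQR
set_option linter.all false

set_option autoImplicit false
open Cfsg

namespace Cfsg.Agent.S0988

/-- If a finite simple group has order p^2 * q * r with p, q and r prime, then its order is 60. -/
theorem result {G : Type*} [Group G] [Finite G] [IsSimpleGroup G] (p q r : ℕ) (hp : p.Prime) (hq : q.Prime) (hr : r.Prime) (hG : Nat.card G = p ^ 2 * q * r) : Nat.card G = 60 := by
  by_cases hpq : p = q
  · subst hpq
    by_cases hpr : p = r
    · subst hpr
      exfalso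
      have : Fact p.Prime := ⟨hp⟩
      have h4 : Nat.card G = p ^ 4 := by rw [hG]; ring
      have h1 : Nat.card G = p :=
        Cfsg.Agent.SmallSimple.Burnside.card_eq_of_simple_isPGroup (IsPGroup.of_card h4)
      rw [h4] at h1
      have h2 : p ^ 1 < p ^ 4 := Nat.pow_lt_pow_right hp.one_lt (by norm_num)
      rw [pow_one, h1] at h2
      exact lt_irrefl _ h2
    · exact (Cfsg.Agent.SmallSimple.PSqQR.no_simple_pcube_r hp hr hpr (by rw [hG]; ring)).elim
  · by_cases hpr : p = r
    · subst hpr
      exact (Cfsg.Agent.SmallSimple.PSqQR.no_simple_pcube_r hp hq hpq (by rw [hG]; ring)).elim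
    · by_cases hqr : q = r
      · subst hqr
        rcases lt_or_gt_of_ne hpq with h | h
        · exact (Cfsg.Agent.SmallSimple.PSqQR.no_simple_psq_qsq hp hq h (by rw [hG]; ring)).elim
        · exact (Cfsg.Agent.SmallSimple.PSqQR.no_simple_psq_qsq hq hp h (by rw [hG]; ring)).elim
      · exact Cfsg.Agent.SmallSimple.PSqQR.card_eq_sixty_of_distinct hp hq hr hpq hpr hqr hG

end Cfsg.Agent.S0988
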