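import Cfsg.Statements.S1002
import Mathlib
import Cfsg.Agent.SmallSimple.SelfCentSum
import Cfsg.Agent.SmallSimple.SelfCentPrime
import Cfsg.Agent.SmallSimple.BurnsideNC
import Cfsg.Agent.SmallSimple.SylowCount
set_option linter.all false

set_option autoImplicit false
open Cfsg

namespace Cfsg.Agent.S1002

open Subgroup Cfsg.Agent.SmallSimple

/-- A Sylow `p`-subgroup of prime order `p` with `|N(P)| = 3p`, where `3 ∣ p - 1` fails to be
`1`: it is the centralizer of each of its elements `≠ 1`. -/
theorem centralizer_eq {G : Type*} [Group G] [Finite G] [IsSimpleGroup G] {p : ℕ} [hp : Fact p.Prime]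
    (hne : Nat.card G ≠ p) (P : Sylow p G) (hP : Nat.card P = p)
    (hN : Nat.card (Sylow p G) * (3 * p) = Nat.card G) :
    ∀ x ∈ P, x ≠ 1 → centralizer ({x} : Set G) = (P : Subgroup G) := by
  obtain ⟨e, he1, he2, he3, he4, he5, he6⟩ := BurnsideNC.exists_automizer_of_card_eq_prime hne P hP
  have hpos : 0 < Nat.card (Sylow p G) := Nat.card_pos
  have h1 : Nat.card (normalizer (P : Set G)) = 3 * p :=
    Nat.eq_of_mul_eq_mul_left hpos (he5.trans hN.symm)
  obtain ⟨k, hk⟩ := he6
  have hppos := hp.out.pos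
  have h2 : k * e = 3 := by
    rw [h1, hk] at he4
    have : p * (k * e) = p * 3 := by rw [← mul_assoc, ← he4, mul_comm]
    exact Nat.eq_of_mul_eq_mul_left hppos this
  have h3 : k = 1 := by
    have h4 : e ∣ 3 := Dvd.intro_left k h2
    rcases (Nat.dvd_prime Nat.prime_three).1 h4 with h | h
    · exact absurd h he2
    · subst h; omega
  have h5 : Nat.card (centralizer (P : Set G)) = p := by rw [hk, h3, mul_one]
  have hcyc : IsCyclic P := isCyclic_of_prime_card hP
  have hPC : (P : Subgroup G) ≤ centralizer (P : Set G) := by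
    intro x hx
    rw [Subgroup.mem_centralizer_iff]
    intro y hy
    exact congrArg Subtype.val (hcyc.commGroup.mul_comm (⟨y, hy⟩ : P) ⟨x, hx⟩)
  have h6 : (P : Subgroup G) = centralizer (P : Set G) :=
    Subgroup.eq_of_le_of_card_ge hPC (by rw [h5]; exact hP.ge)
  intro x hx hx1
  have h7 : zpowers x = (P : Subgroup G) := by
    apply Subgroup.eq_of_le_of_card_ge
    · rw [zpowers_le]; exact hx
    · have h8 : Nat.card (zpowers x) ∣ p := by
        rw [← hP]; exact Subgroup.card_dvd_of_le (by rw [zpowers_le]; exact hx)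
      rcases (Nat.dvd_prime hp.out).1 h8 with h | h
      · exfalso
        rw [Nat.card_zpowers, orderOf_eq_one_iff] at h
        exact hx1 h
      · rw [h]; exact hP.le
  rw [← SelfCentPrime.centralizer_zpowers, h7]
  exact h6.symm

/-- the arithmetic of a degree of an irreducible character different from `1` -/
theorem arith (d m m' : ℕ) (hd : d ∣ 1004913) (hd1 : d ≠ 1) (h1 : d ≤ m) (h2 : d ^ 2 ≤ 409 * m)
    (h3 : d ≤ m') (h4 : d ^ 2 ≤ 13 * m') :
    167281 + 60 * d ^ 2 + 3200 * d ^ 2 ≤ 60 * (409 * m) + 3200 * (13 * m') + d ^ 2 := by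
  by_cases h : d < 409
  · have key : ∀ d ∈ (Nat.divisors 1004913).filter (· < 409), d = 1 ∨ d = 3 ∨
        (7 ≤ d ∧ d ≤ 351) := by
      have : (Nat.divisors 1004913).filter (· < 409) =
          (Finset.range 409).filter (fun d => d ∣ 1004913 ∧ d ≠ 0) := by
        ext x
        simp only [Finset.mem_filter, Nat.mem_divisors, Finset.mem_range]
        constructor
        · rintro ⟨⟨h, -⟩, h'⟩
          refine ⟨h', h, ?_⟩
          rintro rfl
          simp at h
        · rintro ⟨h', h, -⟩
          exact ⟨⟨h, by norm_num⟩, h'⟩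
      rw [this]
      decide +kernel
    rcases key d (Finset.mem_filter.2 ⟨Nat.mem_divisors.2 ⟨hd, by norm_num⟩, h⟩) with h | h | h
    · exact absurd h hd1
    · subst h; omega
    · obtain ⟨h5, h6⟩ := h
      -- `409 m - d² ≥ d (409 - d) ≥ 2814`
      have h7 : 2814 + d ^ 2 ≤ 409 * d := by nlinarith
      have h8 : 409 * d ≤ 409 * m := Nat.mul_le_mul_left _ h1
      omega
  · push Not at h
    have h5 : 409 * 409 ≤ d ^ 2 := by rw [sq]; exact Nat.mul_le_mul h h
    omega

open scoped Pointwise in
theorem divisors_key : ∀ n ∈ (Nat.divisors 77301), n % 13 = 1 → n = 1 ∨ n = 27 ∨ n = 25767 := by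
  have hdiv : Nat.divisors 77301 = (Nat.divisors (27 * 7)) * (Nat.divisors 409) := by
    rw [← Nat.divisors_mul]
  rw [hdiv, Nat.Prime.divisors (by norm_num : Nat.Prime 409)]
  decide +kernel

/-- No finite simple group has order 1004913 = 3^3 * 7 * 13 * 409. -/
theorem result {G : Type*} [Group G] [Finite G] [IsSimpleGroup G] : Nat.card G ≠ 1004913 := by
  intro hcard
  classical
  have : Fact (Nat.Prime 409) := ⟨by norm_num⟩
  have : Fact (Nat.Prime 13) := ⟨by norm_num⟩
  have hnp : ¬ (Nat.card G).Prime := by rw [hcard]; norm_num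
  -- Sylow 409
  obtain ⟨Q⟩ : Nonempty (Sylow 409 G) := inferInstance
  obtain ⟨P⟩ : Nonempty (Sylow 13 G) := inferInstance
  have hQ : Nat.card Q = 409 := by
    rw [Q.card_eq_multiplicity, hcard]
    have : (1004913 : ℕ).factorization 409 = 1 := by
      rw [show (1004913 : ℕ) = 409 * 2457 by norm_num,
        Nat.factorization_mul (by norm_num) (by norm_num), Finsupp.add_apply,
        Nat.Prime.factorization_self (by norm_num),
        Nat.factorization_eq_zero_of_not_dvd (by norm_num)]
    rw [this, pow_one]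
  have hP : Nat.card P = 13 := by
    rw [P.card_eq_multiplicity, hcard]
    have : (1004913 : ℕ).factorization 13 = 1 := by
      rw [show (1004913 : ℕ) = 13 * 77301 by norm_num,
        Nat.factorization_mul (by norm_num) (by norm_num), Finsupp.add_apply,
        Nat.Prime.factorization_self (by norm_num),
        Nat.factorization_eq_zero_of_not_dvd (by norm_num)]
    rw [this, pow_one]
  have hQi : (Q : Subgroup G).index = 2457 := by
    have h := (Q : Subgroup G).card_mul_index
    have h' : Nat.card (Q : Subgroup G) = 409 := hQ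
    rw [h', hcard] at h
    omega
  have hPi : (P : Subgroup G).index = 77301 := by
    have h := (P : Subgroup G).card_mul_index
    have h' : Nat.card (P : Subgroup G) = 13 := hP
    rw [h', hcard] at h
    omega
  have hnQ : Nat.card (Sylow 409 G) = 819 := by
    have h1 := Q.card_dvd_index
    rw [hQi] at h1
    have h2 := card_sylow_modEq_one 409 G
    have h3 := SylowCount.card_sylow_ne_one (G := G) (p := 409) (by rw [hcard]; norm_num)
      (by rw [hcard]; norm_num)
    have key : ∀ n ∈ (Finset.range 2458), n ∣ 2457 → n % 409 = 1 → n = 1 ∨ n = 819 := by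
      decide +kernel
    rcases key _ (Finset.mem_range.2 (Nat.lt_succ_of_le (Nat.le_of_dvd (by norm_num) h1))) h1 h2
      with h | h
    · exact absurd h h3
    · exact h
  have hnP : Nat.card (Sylow 13 G) = 25767 := by
    have h1 := P.card_dvd_index
    rw [hPi] at h1
    have h2 := card_sylow_modEq_one 13 G
    have h3 := SylowCount.card_sylow_ne_one (G := G) (p := 13) (by rw [hcard]; norm_num)
      (by rw [hcard]; norm_num)
    have h4 := SylowCount.card_dvd_factorial_card_sylow (G := G) (p := 13)
      (by rw [hcard]; norm_num) (by rw [hcard]; norm_num)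
    rcases divisors_key _ (Nat.mem_divisors.2 ⟨h1, by norm_num⟩) h2 with h | h | h
    · exact absurd h h3
    · exfalso
      rw [h, hcard] at h4
      have h5 : 409 ∣ Nat.factorial 27 := dvd_trans (by norm_num) h4
      rw [Nat.Prime.dvd_factorial (by norm_num)] at h5
      omega
    · exact h
  have hCQ := centralizer_eq (p := 409) (by rw [hcard]; norm_num) Q hQ (by rw [hnQ, hcard])
  have hCP := centralizer_eq (p := 13) (by rw [hcard]; norm_num) P hP (by rw [hnP, hcard])
  -- number of classes
  have hQne : (Q : Subgroup G) ≠ ⊥ := by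
    intro h
    have h' : Nat.card (Q : Subgroup G) = 409 := hQ
    rw [h, Subgroup.card_bot] at h'
    omega
  obtain ⟨z, hzQ, hz1⟩ := (Subgroup.ne_bot_iff_exists_ne_one.1 hQne) |>.elim
    (fun z hz => (⟨z.1, z.2, fun h => hz (Subtype.ext h)⟩ :
      ∃ z : G, z ∈ (Q : Subgroup G) ∧ z ≠ 1))
  have hCz := hCQ z hzQ hz1
  have hzord : orderOf z = 409 := by
    have h8 : orderOf z ∣ 409 := by
      have := Subgroup.orderOf_dvd_natCard (Q : Subgroup G) hzQ
      have h' : Nat.card (Q : Subgroup G) = 409 := hQ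
      rwa [h'] at this
    rcases (Nat.dvd_prime (by norm_num)).1 h8 with h | h
    · exact absurd (orderOf_eq_one_iff.1 h) hz1
    · exact h
  have hzQ' : (Q : Subgroup G) = zpowers z := by
    symm
    apply Subgroup.eq_of_le_of_card_ge
    · rw [zpowers_le]; exact hzQ
    · rw [Nat.card_zpowers, hzord]; exact hQ.le
  have hclasses : 136 ≤ Nat.card (ConjClasses G) := by
    have h := SelfCentPrime.card_classes_mul hzord (hCz.trans hzQ')
    rw [hcard, hnQ] at h
    have h' : Nat.card {c : ConjClasses G // ∃ g : G, ConjClasses.mk g = c ∧ orderOf g = 409} = 136 := by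
      omega
    rw [← h']
    exact Nat.card_le_card_of_injective _ Subtype.val_injective
  -- characters
  have hfin := Cfsg.Agent.Characters.Core.finite_irr (G := G)
  have := Fintype.ofFinite (IrrCharacter G)
  have : Fintype G := Fintype.ofFinite G
  have : Fintype Q := Fintype.ofFinite Q
  have : Fintype P := Fintype.ofFinite P
  have hirr : 136 ≤ Fintype.card (IrrCharacter G) := by
    rw [← Nat.card_eq_fintype_card, Cfsg.Agent.Characters.Core.card_irr]
    exact hclasses
  have hQc : ∀ a ∈ (Q : Subgroup G), ∀ b ∈ (Q : Subgroup G), a * b = b * a := by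
    have hcyc : IsCyclic Q := isCyclic_of_prime_card hQ
    intro a ha b hb
    exact congrArg Subtype.val (hcyc.commGroup.mul_comm (⟨a, ha⟩ : Q) ⟨b, hb⟩)
  have hPc : ∀ a ∈ (P : Subgroup G), ∀ b ∈ (P : Subgroup G), a * b = b * a := by
    have hcyc : IsCyclic P := isCyclic_of_prime_card hP
    intro a ha b hb
    exact congrArg Subtype.val (hcyc.commGroup.mul_comm (⟨a, ha⟩ : P) ⟨b, hb⟩)
  have hQ' : Nat.card (Q : Subgroup G) = 409 := hQ
  have hP' : Nat.card (P : Subgroup G) = 13 := hP
  choose m d hm hd hdm hdm2 hdG using fun χ : IrrCharacter G =>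
    SelfCentSum.exists_data (Q : Subgroup G) hQc χ.2
  choose m' d' hm' hd' hdm' hdm2' hdG' using fun χ : IrrCharacter G =>
    SelfCentSum.exists_data (P : Subgroup G) hPc χ.2
  have hdd : ∀ χ, d' χ = d χ := fun χ => by
    have := (hd' χ).symm.trans (hd χ)
    exact_mod_cast this
  have hsQ := SelfCentSum.sum_sum_norm_sq (Q : Subgroup G) 409 (fun x hx hx1 => by
    rw [hCQ x hx hx1]; exact hQ)
  have hsP := SelfCentSum.sum_sum_norm_sq (P : Subgroup G) 13 (fun x hx hx1 => by
    rw [hCP x hx hx1]; exact hP)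
  rw [Finset.sum_congr rfl fun χ _ => hm χ, hQ', hcard] at hsQ
  rw [Finset.sum_congr rfl fun χ _ => hm' χ, hP', hcard] at hsP
  have hs1 : (∑ χ : IrrCharacter G, (d χ : ℝ) ^ 2) = 1004913 := by
    have h := SelfCentSum.sum_norm_sq (1 : G)
    have h3 : Subgroup.centralizer ({(1 : G)} : Set G) = ⊤ := by
      rw [Subgroup.centralizer_eq_top_iff_subset]
      intro y hy
      rw [Set.mem_singleton_iff] at hy
      rw [hy]
      exact one_mem _
    rw [h3, Subgroup.card_top, hcard] at h
    rw [show (1004913 : ℝ) = ((1004913 : ℕ) : ℝ) by norm_num, ← h]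
    refine Finset.sum_congr rfl fun χ _ => ?_
    rw [hd χ]
    simp
  have hsQN : ∑ χ : IrrCharacter G, 409 * m χ = 1004913 + 408 * 409 := by
    have : ((∑ χ : IrrCharacter G, 409 * m χ : ℕ) : ℝ) = ((1004913 + 408 * 409 : ℕ) : ℝ) := by
      push_cast
      push_cast at hsQ
      rw [hsQ]; norm_num
    exact_mod_cast this
  have hsPN : ∑ χ : IrrCharacter G, 13 * m' χ = 1004913 + 12 * 13 := by
    have : ((∑ χ : IrrCharacter G, 13 * m' χ : ℕ) : ℝ) = ((1004913 + 12 * 13 : ℕ) : ℝ) := by
      push_cast
      push_cast at hsP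
      rw [hsP]; norm_num
    exact_mod_cast this
  have hs1N : ∑ χ : IrrCharacter G, (d χ) ^ 2 = 1004913 := by
    exact_mod_cast hs1
  -- each nontrivial character contributes a lot
  let one : IrrCharacter G := ⟨1, Cfsg.Agent.Characters.Core.isIrr_one⟩
  have hterm : ∀ χ : IrrCharacter G, χ ≠ one →
      167281 + 60 * d χ ^ 2 + 3200 * d χ ^ 2 ≤ 60 * (409 * m χ) + 3200 * (13 * m' χ) + d χ ^ 2 := by
    intro χ hχ
    apply arith
    · rw [← hcard]; exact hdG χ
    · intro h
      apply hχ
      apply Subtype.ext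
      exact SelfCentSum.eq_one_of_apply_one hnp χ.2 (by rw [hd χ, h, Nat.cast_one])
    · exact hdm χ
    · have := hdm2 χ; rwa [hQ'] at this
    · rw [← hdd χ]; exact hdm' χ
    · rw [← hdd χ]; have := hdm2' χ; rwa [hP'] at this
  have hsum : ∑ χ ∈ Finset.univ.erase one, (167281 + 60 * d χ ^ 2 + 3200 * d χ ^ 2) ≤
      ∑ χ ∈ Finset.univ.erase one, (60 * (409 * m χ) + 3200 * (13 * m' χ) + d χ ^ 2) :=
    Finset.sum_le_sum fun χ hχ => hterm χ (Finset.ne_of_mem_erase hχ)
  have hdone : d one = 1 := by
    have h := hd one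
    have h' : ((one : IrrCharacter G) : G → ℂ) 1 = 1 := rfl
    rw [h'] at h
    exact_mod_cast h.symm
  have e1 : ∑ χ ∈ Finset.univ.erase one, d χ ^ 2 + 1 = 1004913 := by
    rw [← hs1N, ← Finset.sum_erase_add _ _ (Finset.mem_univ one), hdone, one_pow]
  have e2 : ∑ χ ∈ Finset.univ.erase one, 409 * m χ ≤ 1004913 + 408 * 409 := by
    rw [← hsQN]
    exact Finset.sum_le_sum_of_subset (Finset.subset_univ _)
  have e3 : ∑ χ ∈ Finset.univ.erase one, 13 * m' χ ≤ 1004913 + 12 * 13 := by
    rw [← hsPN]
    exact Finset.sum_le_sum_of_subset (Finset.subset_univ _)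
  have e4 : 135 ≤ (Finset.univ.erase one).card := by
    rw [Finset.card_erase_of_mem (Finset.mem_univ _), Finset.card_univ]
    omega
  simp only [Finset.sum_add_distrib, ← Finset.mul_sum, Finset.sum_const, smul_eq_mul] at hsum
  simp only [← Finset.mul_sum] at e2 e3
  omega

end Cfsg.Agent.S1002
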