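import Cfsg.Statements.S1004
import Cfsg.Agent.SmallSimple.Simple168Classes
set_option linter.all false

set_option autoImplicit false
open Cfsg

namespace Cfsg.Agent.S1004

/-- Let G be a simple group of order 168 and T a Sylow 2-subgroup. Then T is dihedral of order 8, T is its own normalizer, and T is the centralizer of any non-identity element of T that commutes with every element of T. -/
theorem result {G : Type*} [Group G] [Finite G] [IsSimpleGroup G] (h : Nat.card G = 168) (T : Sylow 2 G) : Nonempty (↥(T : Subgroup G) ≃* DihedralGroup 4) ∧ Subgroup.normalizer ((T : Subgroup G) : Set G) = T ∧ ∀ z : G, z ∈ (T : Subgroup G) → z ≠ 1 → (∀ t ∈ (T : Subgroup G), t * z = z * t) → Subgroup.centralizer ({z} : Set G) = T := by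
  open Cfsg.Agent.SmallSimple in
  exact ⟨Simple168Classes.sylow_two_dihedral h T, Simple168.normalizer_sylow_two h T,
    fun z hz hz1 hc => Simple168Classes.centralizer_eq_of_central h T z hz hz1 hc⟩

end Cfsg.Agent.S1004
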