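import Cfsg.Statements.S1014
import Mathlib
import Cfsg.Agent.SmallSimple.DegreePPlusOne
set_option linter.all false

set_option autoImplicit false
open Cfsg

namespace Cfsg.Agent.S1014

/-- No finite simple group has order 1104 = 2^4 * 3 * 23. -/
theorem result {G : Type*} [Group G] [Finite G] [IsSimpleGroup G] : Nat.card G ≠ 1104 := by
  intro hG
  have hp : Fact (Nat.Prime 23) := ⟨by norm_num⟩
  have hdvd : 23 ∣ Nat.card G := by rw [hG]; norm_num
  have hn1 : Nat.card (Sylow 23 G) ≠ 1 :=
    SmallSimple.SylowCount.card_sylow_ne_one hdvd (by rw [hG]; norm_num)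
  obtain ⟨P⟩ : Nonempty (Sylow 23 G) := inferInstance
  have hcardP : Nat.card P = 23 := by
    rw [P.card_eq_multiplicity, hG]
    have h1 : (1104 : ℕ).factorization 23 = 1 := by
      rw [show (1104 : ℕ) = 48 * 23 from rfl, Nat.factorization_mul (by norm_num) (by norm_num),
        Finsupp.add_apply, Nat.factorization_eq_zero_of_not_dvd (by norm_num),
        Nat.Prime.factorization_self (by norm_num)]
    rw [h1, pow_one]
  have hidx : (P : Subgroup G).index = 48 := by
    have h1 := (P : Subgroup G).card_mul_index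
    rw [hG] at h1
    have h2 : Nat.card (P : Subgroup G) = 23 := hcardP
    rw [h2] at h1
    omega
  have hn2 : Nat.card (Sylow 23 G) ∣ 48 := hidx ▸ P.card_dvd_index
  have hn3 : Nat.card (Sylow 23 G) ≡ 1 [MOD 23] := card_sylow_modEq_one 23 G
  have hn : Nat.card (Sylow 23 G) = 23 + 1 := by
    have h4 : Nat.card (Sylow 23 G) ≤ 48 := Nat.le_of_dvd (by norm_num) hn2
    generalize Nat.card (Sylow 23 G) = n at *
    unfold Nat.ModEq at hn3
    have h5 : n % 23 = 1 := hn3
    obtain ⟨c, hc⟩ := hn2
    have h6 : n = 1 ∨ n = 24 ∨ n = 47 := by omega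
    rcases h6 with h | h | h
    · exact absurd h hn1
    · exact h
    · rw [h] at hc; omega
  apply SmallSimple.DegreePPlusOne.card_ne (G := G) (p := 23) (by norm_num) _ hn
  · rw [hG]
  · rw [hG]; norm_num

end Cfsg.Agent.S1014
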