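import Cfsg.Statements.S1015
import Cfsg.Agent.SmallSimple.SylowCount
set_option linter.all false

set_option autoImplicit false
open Cfsg

namespace Cfsg.Agent.S1015

open Subgroup Cfsg.Agent.SmallSimple.SylowCount

/-- No finite simple group has order 1200 = 2^4 * 3 * 5^2. -/
theorem result {G : Type*} [Group G] [Finite G] [IsSimpleGroup G] : Nat.card G ≠ 1200 := by
  intro hG
  have hp : Fact (Nat.Prime 5) := ⟨by norm_num⟩
  have hdvd : 5 ∣ Nat.card G := by rw [hG]; norm_num
  have hne : Nat.card G ≠ 5 := by rw [hG]; norm_num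
  -- order of a Sylow 5-subgroup
  have hcardP : ∀ P : Sylow 5 G, Nat.card (P : Subgroup G) = 25 := by
    intro P
    have h1 := P.card_eq_multiplicity
    have h2 : (Nat.card G).factorization 5 = 2 := by
      rw [hG, show (1200 : ℕ) = 48 * 5 ^ 2 by norm_num,
        Nat.factorization_mul (by norm_num) (by norm_num), hp.out.factorization_pow,
        Finsupp.add_apply, Nat.factorization_eq_zero_of_not_dvd (by norm_num)]
      simp
    rw [h2] at h1
    exact h1.trans (by norm_num)
  have hcomm : ∀ P : Sylow 5 G, ∀ x ∈ P, ∀ y ∈ P, x * y = y * x := by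
    intro P x hx y hy
    have h1 : IsMulCommutative P :=
      IsPGroup.isMulCommutative_of_card_eq_prime_sq (p := 5) ((hcardP P).trans (by norm_num))
    exact congrArg Subtype.val (h1.is_comm.comm (⟨x, hx⟩ : P) ⟨y, hy⟩)
  obtain ⟨P⟩ : Nonempty (Sylow 5 G) := inferInstance
  have hindex : (P : Subgroup G).index = 48 := by
    have h1 := (P : Subgroup G).card_mul_index
    rw [hcardP P, hG] at h1
    omega
  have h1 := P.card_dvd_index
  rw [hindex] at h1
  have h2 := card_sylow_modEq_one 5 G
  have h3 := card_sylow_ne_one hdvd hne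
  have h4 := card_dvd_factorial_card_sylow hdvd hne
  have h5 : Nat.card (Sylow 5 G) ≤ 48 := Nat.le_of_dvd (by norm_num) h1
  have h16 : Nat.card (Sylow 5 G) = 16 := by
    rw [hG] at h4
    generalize Nat.card (Sylow 5 G) = n at *
    have h6 : n = 6 ∨ n = 16 := by
      unfold Nat.ModEq at h2
      interval_cases n <;> simp_all
    rcases h6 with rfl | rfl
    · exfalso
      revert h4
      decide
    · rfl
  -- another Sylow subgroup
  obtain ⟨Q, hQ⟩ : ∃ Q : Sylow 5 G, Q ≠ P := by
    by_contra hcon
    push Not at hcon
    have : Subsingleton (Sylow 5 G) := ⟨fun a b => (hcon a).trans (hcon b).symm⟩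
    have := Nat.card_of_subsingleton (α := Sylow 5 G) P
    omega
  -- the intersection has order 5
  have hNQ : (normalizer (Q : Set G)).index = 16 := by
    rw [← h16, Q.card_eq_index_normalizer]
  have hrel : (normalizer (Q : Set G)).relIndex P ≤ 16 := by
    rw [← hNQ, ← relIndex_top_right]
    exact relIndex_le_of_le_right le_top (by rw [relIndex_top_right, hNQ]; norm_num)
  have hinf : (normalizer (Q : Set G)).relIndex P = (Q : Subgroup G).relIndex P := by
    rw [← inf_relIndex_left, P.isPGroup'.inf_normalizer_sylow Q, inf_relIndex_left]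
  rw [hinf] at hrel
  have hmul : Nat.card ((P : Subgroup G) ⊓ (Q : Subgroup G) : Subgroup G) *
      (Q : Subgroup G).relIndex P = 25 := by
    rw [← hcardP P, ← (card_mul_index ((Q : Subgroup G).subgroupOf (P : Subgroup G)))]
    congr 1
    rw [← Subgroup.inf_subgroupOf_left]
    exact (Nat.card_congr (Subgroup.subgroupOfEquivOfLe inf_le_left).toEquiv).symm
  set D : Subgroup G := (P : Subgroup G) ⊓ (Q : Subgroup G) with hD
  have hDne : Nat.card D ≠ 1 := by
    intro h
    rw [h] at hmul
    omega
  have hDne' : Nat.card D ≠ 25 := by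
    intro h
    have h6 : D = P := Subgroup.eq_of_le_of_card_ge inf_le_left (by rw [h, hcardP P])
    have h7 : D = Q := Subgroup.eq_of_le_of_card_ge inf_le_right (by rw [h, hcardP Q])
    exact hQ (Sylow.ext (h7.symm.trans h6))
  have hDrel : (Q : Subgroup G).relIndex P = 5 := by
    have h6 : Nat.card D ∣ 25 := ⟨_, hmul.symm⟩
    have h7 : Nat.card D ∣ 5 ^ 2 := by simpa using h6
    rw [Nat.dvd_prime_pow (by norm_num)] at h7
    obtain ⟨k, hk, hk'⟩ := h7
    interval_cases k
    · exact absurd (hk'.trans (by norm_num)) hDne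
    · rw [hk'] at hmul
      omega
    · exact absurd (hk'.trans (by norm_num)) hDne'
  -- the normalizer of D
  have hPN : (P : Subgroup G) ≤ normalizer (D : Set G) := by
    refine le_trans ?_ (centralizer_le_normalizer _)
    intro x hx
    rw [mem_centralizer_iff]
    intro y hy
    exact hcomm P y ((mem_inf.1 hy).1) x hx
  have hQN : (Q : Subgroup G) ≤ normalizer (D : Set G) := by
    refine le_trans ?_ (centralizer_le_normalizer _)
    intro x hx
    rw [mem_centralizer_iff]
    intro y hy
    exact hcomm Q y ((mem_inf.1 hy).2) x hx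
  have hNtop : normalizer (D : Set G) ≠ ⊤ := by
    intro h
    rcases (normalizer_eq_top_iff.1 h).eq_bot_or_eq_top with h | h
    · rw [h] at hDne
      exact hDne card_bot
    · rw [h, hDrel, card_top, hG] at hmul
      omega
  have h6 := card_dvd_factorial_index _ hNtop
  have h7 : (normalizer (D : Set G)).index ≤ 9 := by
    have h8 : 5 ≤ (Q : Subgroup G).relIndex (normalizer (D : Set G)) := by
      refine hDrel.symm.le.trans (relIndex_le_of_le_right hPN ?_)
      exact index_ne_zero_of_finite
    have h9 := (Q : Subgroup G).relIndex_mul_index hQN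
    have h10 : (Q : Subgroup G).index = 48 := by
      have h1 := (Q : Subgroup G).card_mul_index
      rw [hcardP Q, hG] at h1
      omega
    rw [h10] at h9
    nlinarith
  have h8 := h6.trans (Nat.factorial_dvd_factorial h7)
  rw [hG] at h8
  revert h8
  decide

end Cfsg.Agent.S1015
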