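import Cfsg.Statements.S1018
import Cfsg.Agent.SmallSimple.SylowPrime
set_option linter.all false

set_option autoImplicit false
open Cfsg

namespace Cfsg.Agent.S1018

/-- Let P be a Sylow p-subgroup of order p of a finite group G, and consider the action of G on the left cosets of the normalizer N of P. Then every element of order p fixes exactly one coset, and an element of N that does not centralize P fixes at most as many cosets as there are orbits of P. -/
theorem result {G : Type*} [Group G] [Finite G] (p : ℕ) [Fact p.Prime] (P : Sylow p G) (hP : Nat.card ↥(P : Subgroup G) = p) : (∀ y : G, orderOf y = p → Nat.card (MulAction.fixedBy (G ⧸ Subgroup.normalizer ((P : Subgroup G) : Set G)) y) = 1) ∧ ∀ x : G, x ∈ Subgroup.normalizer ((P : Subgroup G) : Set G) → x ∉ Subgroup.centralizer ((P : Subgroup G) : Set G) → Nat.card (MulAction.fixedBy (G ⧸ Subgroup.normalizer ((P : Subgroup G) : Set G)) x) ≤ Nat.card (MulAction.orbitRel.Quotient ↥(P : Subgroup G) (G ⧸ Subgroup.normalizer ((P : Subgroup G) : Set G))) := by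
  refine ⟨?_, fun x hxN hxC =>
    SmallSimple.SylowPrime.card_fixedBy_le_card_orbits (Fact.out : p.Prime) hP hxN hxC⟩
  intro y hy
  have hp : p.Prime := Fact.out
  have key : ∀ g : G, (QuotientGroup.mk g : G ⧸ Subgroup.normalizer ((P : Subgroup G) : Set G)) ∈
      MulAction.fixedBy (G ⧸ Subgroup.normalizer ((P : Subgroup G) : Set G)) y ↔
      ((g • P : Sylow p G) : Subgroup G) = Subgroup.zpowers y := by
    intro g
    have hcard : Nat.card (g • P : Sylow p G) = p :=
      (Nat.card_congr (P.equivSMul g).symm.toEquiv).trans hP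
    rw [← SmallSimple.SylowPrime.smul_sylow_eq_iff hcard hy, MulAction.mem_fixedBy,
      eq_comm, MulAction.Quotient.smul_mk, QuotientGroup.eq, smul_eq_mul]
    show _ ∈ Subgroup.normalizer (P : Set G) ↔ _
    rw [← Sylow.smul_eq_iff_mem_normalizer, mul_smul, inv_smul_eq_iff, mul_smul]
  rw [Nat.card_eq_one_iff_unique]
  constructor
  · constructor
    rintro ⟨a, ha⟩ ⟨b, hb⟩
    obtain ⟨g, rfl⟩ := QuotientGroup.mk_surjective a
    obtain ⟨h, rfl⟩ := QuotientGroup.mk_surjective b
    have h1 := (key g).1 ha
    have h2 := (key h).1 hb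
    ext
    show (QuotientGroup.mk g : G ⧸ Subgroup.normalizer ((P : Subgroup G) : Set G)) = QuotientGroup.mk h
    rw [QuotientGroup.eq]
    show _ ∈ Subgroup.normalizer (P : Set G)
    rw [← Sylow.smul_eq_iff_mem_normalizer, mul_smul, inv_smul_eq_iff]
    exact Sylow.ext (h2.trans h1.symm)
  · have h1 : IsPGroup p (Subgroup.zpowers y) :=
      IsPGroup.of_card (n := 1) (by rw [Nat.card_zpowers, hy, pow_one])
    obtain ⟨Q, hQ⟩ := h1.exists_le_sylow
    obtain ⟨g, hg⟩ := MulAction.exists_smul_eq G P Q
    refine ⟨⟨QuotientGroup.mk g, (key g).2 ?_⟩⟩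
    rw [hg]
    have hcard : Nat.card Q = p :=
      (Nat.card_congr (Sylow.equiv Q P).toEquiv).trans hP
    symm
    apply Subgroup.eq_of_le_of_card_ge hQ
    rw [Nat.card_zpowers, hy]
    exact hcard.le

end Cfsg.Agent.S1018
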