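import Cfsg.Statements.S1022
import Cfsg.Agent.SmallSimple.RelSylow
import Cfsg.Agent.SmallSimple.BurnsideNC
import Cfsg.Agent.SmallSimple.SylowCount
import Cfsg.Agent.SmallSimple.SylowPrimeCount
set_option linter.all false

/-!
There is no simple group of order `459648 = 2^7 * 3^3 * 7 * 19`: an elementary proof by
counting Sylow 19-subgroups inside centralizers of involutions.
-/

set_option autoImplicit false
open Cfsg

namespace Cfsg.Agent.S1022

open Subgroup MulAction
open Cfsg.Agent.SmallSimple

section General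

variable {G : Type*} [Group G]

/-- For an element `y` of prime order `q`, the number of fixed points is congruent to the number
of points modulo `q`. -/
theorem card_fixedBy_modEq {X : Type*} [MulAction G X] [Finite X] {q : ℕ} [hq : Fact q.Prime]
    {y : G} (hy : orderOf y = q) :
    Nat.card X ≡ Nat.card (fixedBy X y) [MOD q] := by
  have h1 : IsPGroup q (zpowers y) :=
    IsPGroup.of_card (n := 1) (by rw [Nat.card_zpowers, hy, pow_one])
  have h2 := h1.card_modEq_card_fixedPoints X
  have h3 : fixedPoints (zpowers y) X = fixedBy X y := by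
    ext a
    constructor
    · intro h
      exact h ⟨y, mem_zpowers y⟩
    · rintro h ⟨g, hg⟩
      obtain ⟨k, rfl⟩ := mem_zpowers_iff.1 hg
      have h4 : y ∈ stabilizer G a := h
      exact zpow_mem h4 k
  rwa [h3] at h2

/-- A subgroup whose elements conjugate a generating set of `R` into `R` normalizes `R`. -/
theorem le_normalizer_closure (S : Set G) (K : Subgroup G)
    (h : ∀ k ∈ K, ∀ x ∈ S, k * x * k⁻¹ ∈ closure S) :
    K ≤ normalizer ((closure S : Subgroup G) : Set G) := by
  have h1 : ∀ k ∈ K, ∀ x ∈ closure S, k * x * k⁻¹ ∈ closure S := by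
    intro k hk x hx
    induction hx using Subgroup.closure_induction with
    | mem x hx => exact h k hk x hx
    | one => simp
    | mul x y _ _ hx hy =>
      have : k * (x * y) * k⁻¹ = (k * x * k⁻¹) * (k * y * k⁻¹) := by group
      rw [this]
      exact mul_mem hx hy
    | inv x _ hx =>
      have : k * x⁻¹ * k⁻¹ = (k * x * k⁻¹)⁻¹ := by group
      rw [this]
      exact inv_mem hx
  intro k hk
  rw [Subgroup.mem_normalizer_iff]
  intro x
  constructor
  · exact h1 k hk x
  · intro hx
    have := h1 k⁻¹ (inv_mem hk) _ hx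
    have h2 : k⁻¹ * (k * x * k⁻¹) * k⁻¹⁻¹ = x := by group
    rwa [h2] at this

end General

theorem divisors_aux : ∀ k < 1274, 24192 % (1 + 19 * k) = 0 → k = 0 ∨ k = 5 ∨ k = 53 := by
  decide +kernel

theorem divisors_aux2 : ∀ r < 1009, 1008 % r = 0 → r % 19 = 1 → r = 1 ∨ r = 1008 := by
  decide +kernel

theorem divisors_aux3 : ∀ r < 97, 459648 % r = 0 → r % 19 = 1 → r = 1 ∨ r = 96 := by
  decide +kernel

/-- Divisors of `459648` congruent to one modulo 19. -/
theorem eq_of_dvd_of_modEq {r : ℕ} (hd : r ∣ 459648) (hr : r ≡ 1 [MOD 19]) :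
    r = 1 ∨ r = 96 ∨ r = 1008 := by
  have hcop : Nat.Coprime r 19 := by
    rw [Nat.coprime_comm, Nat.Prime.coprime_iff_not_dvd (by norm_num)]
    intro h
    have : r % 19 = 1 % 19 := hr
    omega
  have h1 : r ∣ 24192 := by
    have h2 : (459648 : ℕ) = 24192 * 19 := by norm_num
    rw [h2] at hd
    exact hcop.dvd_of_dvd_mul_right hd
  have hle : r ≤ 24192 := Nat.le_of_dvd (by norm_num) h1
  have hmod : r % 19 = 1 % 19 := hr
  obtain ⟨k, hk⟩ : ∃ k, r = 1 + 19 * k := ⟨r / 19, by omega⟩
  have h3 := divisors_aux k (by omega) (by rw [← hk]; exact Nat.mod_eq_zero_of_dvd h1)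
  omega

section Main

variable {G : Type*} [Group G] [Finite G] [IsSimpleGroup G]

/-- The key contradiction: there is no proper subgroup with exactly 96 Sylow 19-subgroups and
index less than 96, when `G` has 1008 Sylow 19-subgroups. -/
theorem no_subgroup (h : Nat.card G = 459648) [Fact (Nat.Prime 19)] (P : Sylow 19 G)
    (hP : Nat.card (P : Subgroup G) = 19)
    (hn : Nat.card (normalizer ((P : Subgroup G) : Set G)) = 456)
    (H : Subgroup G) (hPH : (P : Subgroup G) ≤ H) (hH : H ≠ ⊤)
    (hr : (normalizer ((P : Subgroup G) : Set G)).relIndex H = 96) (hidx : H.index < 96) :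
    False := by
  set N : Subgroup G := normalizer ((P : Subgroup G) : Set G) with hN
  have hNidx : N.index = 1008 := by
    have := N.card_mul_index
    rw [hn, h] at this
    omega
  have hpow : ∀ x ∈ (P : Subgroup G), x ^ 19 = 1 := by
    intro x hx
    have := pow_card_eq_one' (x := (⟨x, hx⟩ : (P : Subgroup G)))
    rw [hP] at this
    exact congrArg Subtype.val this
  set S : Set G := {x | x ∈ H ∧ x ^ 19 = 1} with hS
  set R : Subgroup G := closure S with hR
  have hRH : R ≤ H := by
    rw [hR, closure_le]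
    intro x hx
    exact hx.1
  have hPR : (P : Subgroup G) ≤ R := by
    intro x hx
    exact Subgroup.subset_closure ⟨hPH hx, hpow x hx⟩
  have hconjpow : ∀ k x : G, x ^ 19 = 1 → (k * x * k⁻¹) ^ 19 = 1 := by
    intro k x hx
    rw [conj_pow, hx]; group
  set M : Subgroup G := normalizer (R : Set G) with hM
  have hHM : H ≤ M := by
    apply le_normalizer_closure
    intro k hk x hx
    exact Subgroup.subset_closure ⟨H.mul_mem (H.mul_mem hk hx.1) (H.inv_mem hk), hconjpow k x hx.2⟩
  have hNM : N ≤ M := by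
    apply le_normalizer_closure
    intro n hnN x hx
    apply Subgroup.subset_closure
    refine ⟨?_, hconjpow n x hx.2⟩
    obtain ⟨k, hk, z, hz, rfl⟩ := RelSylow.exists_conj_of_pow_eq_one P H hPH hx.1 hx.2
    -- `D = H ∩ H^n`
    set K : Subgroup G := H.comap (MulAut.conj n).toMonoidHom with hK
    have hmemK : ∀ g : G, g ∈ K ↔ n * g * n⁻¹ ∈ H := fun g => Iff.rfl
    have hKidx : K.index = H.index :=
      Subgroup.index_comap_of_surjective H (MulAut.conj n).surjective
    have hPK : (P : Subgroup G) ≤ K := by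
      intro y hy
      rw [hmemK]
      exact hPH ((mem_normalizer_iff.1 hnN y).1 hy)
    have hPD : (P : Subgroup G) ≤ H ⊓ K := le_inf hPH hPK
    have hrD : N.relIndex (H ⊓ K) = 1 ∨ N.relIndex (H ⊓ K) = 96 := by
      have h1 : N.relIndex (H ⊓ K) ≡ 1 [MOD 19] := RelSylow.relIndex_modEq_one P _ hPD
      have h2 : N.relIndex (H ⊓ K) ≤ 96 := hr ▸ RelSylow.relIndex_mono_right N _ H inf_le_left
      have h3 : N.relIndex (H ⊓ K) ∣ 459648 := by
        rw [← h]
        exact (Subgroup.relIndex_dvd_card N (H ⊓ K)).trans (Subgroup.card_subgroup_dvd_card _)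
      exact divisors_aux3 _ (by omega) (Nat.mod_eq_zero_of_dvd h3) h1
    rcases hrD with h1 | h96
    · exfalso
      have hDN : H ⊓ K ≤ N := Subgroup.relIndex_eq_one.1 h1
      have hle : Nat.card (H ⊓ K : Subgroup G) ≤ Nat.card (H ⊓ N : Subgroup G) :=
        Subgroup.card_le_of_le (le_inf inf_le_left hDN)
      have e1 := RelSylow.relIndex_mul_card_inf N H
      have e2 := RelSylow.relIndex_mul_card_inf K H
      rw [hr] at e1
      have h3 : K.relIndex H < 96 := by
        have := RelSylow.relIndex_le_index K H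
        omega
      have hpos : 0 < Nat.card (H ⊓ N : Subgroup G) := Nat.card_pos
      have h4 : K.relIndex H * Nat.card (H ⊓ K : Subgroup G) ≤
          K.relIndex H * Nat.card (H ⊓ N : Subgroup G) := Nat.mul_le_mul_left _ hle
      have h5 : K.relIndex H * Nat.card (H ⊓ N : Subgroup G) < 96 * Nat.card (H ⊓ N : Subgroup G) :=
        Nat.mul_lt_mul_of_pos_right h3 hpos
      omega
    · have h2 := RelSylow.conj_mem_of_relIndex_eq (P : Subgroup G) (H ⊓ K) H hPD inf_le_left
        (by rw [← hN, h96, hr]) hk hz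
      exact (hmemK _).1 h2.2
  have hrM : N.relIndex M * M.index = 1008 := by
    rw [Subgroup.relIndex_mul_index hNM, hNidx]
  have hrM1 : N.relIndex M ≡ 1 [MOD 19] := RelSylow.relIndex_modEq_one P M (hPH.trans hHM)
  have hrM2 : 96 ≤ N.relIndex M := hr ▸ RelSylow.relIndex_mono_right N H M hHM
  have hdvd : N.relIndex M ∣ 1008 := ⟨_, hrM.symm⟩
  have hle : N.relIndex M ≤ 1008 := Nat.le_of_dvd (by norm_num) hdvd
  have h1008 : N.relIndex M = 1008 := by
    rcases divisors_aux2 _ (by omega) (Nat.mod_eq_zero_of_dvd hdvd) hrM1 with h1 | h1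
    · omega
    · exact h1
  rw [h1008] at hrM
  have hMidx : M.index = 1 := by omega
  have hMtop : M = ⊤ := Subgroup.index_eq_one.1 hMidx
  have hRn : R.Normal := Subgroup.normalizer_eq_top_iff.1 hMtop
  rcases IsSimpleGroup.eq_bot_or_eq_top_of_normal R hRn with hb | ht
  · rw [hb, le_bot_iff] at hPR
    rw [hPR, Subgroup.card_bot] at hP
    omega
  · apply hH
    rw [eq_top_iff, ← ht]
    exact hRH

/-- There are exactly 1008 Sylow 19-subgroups. -/
theorem card_sylow (h : Nat.card G = 459648) [Fact (Nat.Prime 19)] (P : Sylow 19 G)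
    (hP : Nat.card (P : Subgroup G) = 19) : Nat.card (Sylow 19 G) = 1008 := by
  have h1 : Nat.card (Sylow 19 G) ≡ 1 [MOD 19] := card_sylow_modEq_one 19 G
  have hmul := BurnsideNC.card_sylow_mul_card_normalizer P
  have h2 : Nat.card (Sylow 19 G) ∣ 459648 := by
    rw [← h, ← hmul]; exact Dvd.intro _ rfl
  have hne1 : Nat.card (Sylow 19 G) ≠ 1 :=
    SylowCount.card_sylow_ne_one (by rw [h]; norm_num) (by rw [h]; norm_num)
  rcases eq_of_dvd_of_modEq h2 h1 with h3 | h3 | h3
  · exact absurd h3 hne1
  · exfalso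
    rw [h3, h] at hmul
    have hN : Nat.card (normalizer (P : Set G)) = 4788 := by omega
    have hC := BurnsideNC.card_normalizer_eq (P : Subgroup G)
    have he := BurnsideNC.relIndex_dvd_of_card_eq_prime P hP
    have h7 : 7 ∣ Nat.card (centralizer (P : Set G)) := by
      have h8 : 7 ∣ Nat.card (centralizer (P : Set G)) *
          (centralizer (P : Set G)).relIndex (normalizer (P : Set G)) := by
        have h9 : Nat.card (normalizer (P : Set G)) = Nat.card (centralizer (P : Set G)) *
          (centralizer (P : Set G)).relIndex (normalizer (P : Set G)) := hC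
        rw [← h9, hN]; norm_num
      rcases (Nat.Prime.dvd_mul (by norm_num)).1 h8 with h9 | h9
      · exact h9
      · exfalso
        have := h9.trans he
        norm_num at this
    have : Fact (Nat.Prime 7) := ⟨by norm_num⟩
    obtain ⟨⟨y, hy⟩, hy7⟩ := exists_prime_orderOf_dvd_card' 7 h7
    rw [Subgroup.orderOf_mk] at hy7
    have hfix := SylowPrimeCount.card_fixedBy_modEq_one P hy
    have hfix7 := card_fixedBy_modEq (X := Sylow 19 G) hy7
    have hlt := SylowPrimeCount.card_fixedBy_lt (p := 19) hne1 (u := y) (by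
      rintro rfl
      rw [orderOf_one] at hy7
      omega)
    rw [h3] at hfix7 hlt
    unfold Nat.ModEq at hfix hfix7
    omega
  · exact h3

/-- An involution `u` of a 2-group `T₀` of order at least 4 has centralizer of order at least
three in `T₀`. -/
theorem three_le_card_centralizer {T : Type*} [Group T] [Finite T] {k : ℕ}
    (hT : Nat.card T = 2 ^ k) (hk : 2 ≤ k) (u : T) :
    3 ≤ Nat.card (centralizer ({u} : Set T)) := by
  have : Fact (Nat.Prime 2) := ⟨Nat.prime_two⟩
  have hp : IsPGroup 2 T := IsPGroup.of_card hT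
  have : Nontrivial T := by
    rw [← Finite.one_lt_card_iff_nontrivial, hT]
    exact Nat.one_lt_two_pow (by omega)
  have h4 : 4 ≤ Nat.card T := by
    rw [hT]
    calc 4 = 2 ^ 2 := by norm_num
      _ ≤ 2 ^ k := Nat.pow_le_pow_right (by norm_num) hk
  have hZ : Nontrivial (center T) := hp.center_nontrivial
  have hZle : center T ≤ centralizer ({u} : Set T) := by
    intro z hz
    rw [mem_centralizer_singleton_iff]
    exact ((mem_center_iff.1 hz) u).symm
  by_cases hu : u ∈ center T
  · have h1 : centralizer ({u} : Set T) = ⊤ := by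
      rw [eq_top_iff]
      intro x _
      rw [mem_centralizer_singleton_iff]
      exact (mem_center_iff.1 hu) x
    rw [h1, Subgroup.card_top]
    omega
  · have h2 : 2 ≤ Nat.card (center T) := Finite.one_lt_card_iff_nontrivial.2 hZ
    have h3 : center T < centralizer ({u} : Set T) := by
      refine lt_of_le_of_ne hZle ?_
      intro heq
      apply hu
      rw [heq, mem_centralizer_singleton_iff]
    have h5 : Nat.card (center T) < Nat.card (centralizer ({u} : Set T)) := by
      by_contra hle
      push Not at hle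
      exact h3.ne (Subgroup.eq_of_le_of_card_ge h3.le hle)
    omega

/-- No finite simple group has order 459648 = 2^7 * 3^3 * 7 * 19. -/
theorem main (h : Nat.card G = 459648) : False := by
  have hp19 : Fact (Nat.Prime 19) := ⟨by norm_num⟩
  have hp2 : Fact (Nat.Prime 2) := ⟨Nat.prime_two⟩
  let P : Sylow 19 G := default
  have hP : Nat.card (P : Subgroup G) = 19 := by
    have := P.card_eq_multiplicity
    rw [h] at this
    have h2 : (459648 : ℕ).factorization 19 = 1 := by
      rw [show (459648 : ℕ) = 24192 * 19 by norm_num,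
        Nat.factorization_mul (by norm_num) (by norm_num), Finsupp.add_apply,
        Nat.Prime.factorization_self (by norm_num),
        Nat.factorization_eq_zero_of_not_dvd (by norm_num)]
    rw [h2, pow_one] at this
    exact this
  have hsyl := card_sylow h P hP
  have hmul := BurnsideNC.card_sylow_mul_card_normalizer P
  rw [hsyl, h] at hmul
  set N : Subgroup G := normalizer ((P : Subgroup G) : Set G) with hNdef
  have hN : Nat.card N = 456 := by
    have : 1008 * Nat.card N = 459648 := hmul
    omega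
  set C : Subgroup G := centralizer ((P : Subgroup G) : Set G) with hC
  -- a subgroup `T ≤ N(P)` of order 8
  obtain ⟨T', hT'⟩ := Sylow.exists_subgroup_card_pow_prime (G := N) 2 (n := 3)
    (by rw [hN]; norm_num)
  set T : Subgroup G := T'.map N.subtype with hTdef
  have hTN : T ≤ N := by
    rintro _ ⟨x, _, rfl⟩
    exact x.2
  have hT : Nat.card T = 2 ^ 3 := by
    rw [← hT']
    exact (Nat.card_congr (T'.equivMapOfInjective _ N.subtype_injective).toEquiv).symm
  obtain ⟨T₁, hT₁, hTT₁⟩ := Sylow.exists_subgroup_card_pow_succ (G := G) (p := 2) (n := 3)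
    (by rw [h]; norm_num) hT
  have hnorm : T₁ ≤ normalizer (T : Set G) := by
    have h1 : T.relIndex T₁ = 2 := by
      have e1 := RelSylow.relIndex_mul_card_inf T T₁
      rw [inf_of_le_right hTT₁, hT, hT₁] at e1
      omega
    have h2 : (T.subgroupOf T₁).Normal := Subgroup.normal_of_index_eq_two h1
    exact (Subgroup.normal_subgroupOf_iff_le_normalizer hTT₁).1 h2
  have hnle : ¬ T₁ ≤ N := by
    intro hle
    have h1 := Subgroup.card_dvd_of_le hle
    rw [hT₁, hN] at h1
    norm_num at h1
  obtain ⟨g, hgT₁, hgN⟩ := SetLike.not_le_iff_exists.1 hnle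
  have hgT : g ∈ normalizer (T : Set G) := hnorm hgT₁
  -- `T ⊓ C` has index at most two in `T`
  have hCT : C.relIndex T ∣ 2 := by
    have h1 : C.relIndex T ∣ 8 := by
      have := Subgroup.relIndex_dvd_card C T
      rwa [hT] at this
    have h2 : C.relIndex T ∣ 18 := by
      have hCn : (C.subgroupOf N).Normal := by
        have : C.subgroupOf N = ((P : Subgroup G).normalizerMonoidHom).ker :=
          (Subgroup.normalizerMonoidHom_ker (P : Subgroup G)).symm
        rw [this]
        infer_instance
      have h3 : (C.subgroupOf N).relIndex (T.subgroupOf N) ∣ (C.subgroupOf N).index :=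
        Subgroup.relIndex_dvd_index_of_normal _ _
      rw [Subgroup.relIndex_subgroupOf hTN] at h3
      exact h3.trans (BurnsideNC.relIndex_dvd_of_card_eq_prime P hP)
    exact (Nat.dvd_gcd h1 h2).trans (by norm_num)
  have hCTle : C.relIndex T ≤ 2 := Nat.le_of_dvd (by norm_num) hCT
  set T₀ : Subgroup G := T ⊓ C with hT₀def
  have hT₀T : T₀ ≤ T := inf_le_left
  have hT₀C : T₀ ≤ C := inf_le_right
  have e1 : C.relIndex T * Nat.card T₀ = 8 := by
    have := RelSylow.relIndex_mul_card_inf C T
    rw [hT] at this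
    exact this
  have hT₀dvd : Nat.card T₀ ∣ 8 := ⟨_, by rw [← e1, mul_comm]⟩
  have hT₀card : 4 ≤ Nat.card T₀ := by
    by_contra hlt
    push Not at hlt
    have : C.relIndex T * Nat.card T₀ ≤ 2 * 3 := Nat.mul_le_mul hCTle (by omega)
    omega
  -- the conjugate `K₀ = g T₀ g⁻¹`
  set K₀ : Subgroup G := T₀.comap (MulAut.conj g⁻¹).toMonoidHom with hK₀def
  have hmemK₀ : ∀ x : G, x ∈ K₀ ↔ g⁻¹ * x * g⁻¹⁻¹ ∈ T₀ := fun x => Iff.rfl
  have hK₀T : K₀ ≤ T := by
    intro x hx
    have h1 : g⁻¹ * x * g⁻¹⁻¹ ∈ T := hT₀T ((hmemK₀ x).1 hx)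
    have h2 : g * (g⁻¹ * x * g⁻¹⁻¹) * g⁻¹ ∈ T := (mem_normalizer_iff.1 hgT _).1 h1
    have h3 : g * (g⁻¹ * x * g⁻¹⁻¹) * g⁻¹ = x := by group
    rwa [h3] at h2
  have hK₀card : Nat.card K₀ = Nat.card T₀ := by
    have h1 : K₀ = T₀.map (MulAut.conj g).toMonoidHom := by
      ext x
      rw [hmemK₀]
      constructor
      · intro hx
        refine ⟨_, hx, ?_⟩
        show g * (g⁻¹ * x * g⁻¹⁻¹) * g⁻¹ = x
        group
      · rintro ⟨y, hy, rfl⟩
        have h2 : g⁻¹ * ((MulAut.conj g).toMonoidHom y) * g⁻¹⁻¹ = y := by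
          show g⁻¹ * (g * y * g⁻¹) * g⁻¹⁻¹ = y
          group
        rw [h2]
        exact hy
    rw [h1]
    exact (Nat.card_congr (T₀.equivMapOfInjective _ (MulAut.conj g).injective).toEquiv).symm
  have hI : 2 ≤ Nat.card (T₀ ⊓ K₀ : Subgroup G) := by
    have h1 := RelSylow.relIndex_mul_card_inf K₀ T₀
    have h2 := RelSylow.relIndex_mul_card_inf K₀ T
    rw [inf_of_le_right hK₀T, hT] at h2
    have h3 := RelSylow.relIndex_mono_right K₀ T₀ T hT₀T
    have h4 : K₀.relIndex T ≤ 2 := by
      by_contra hlt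
      push Not at hlt
      have : 3 * 4 ≤ K₀.relIndex T * Nat.card K₀ := Nat.mul_le_mul hlt (by omega)
      omega
    by_contra hlt
    push Not at hlt
    have : K₀.relIndex T₀ * Nat.card (T₀ ⊓ K₀ : Subgroup G) ≤ 2 * 1 :=
      Nat.mul_le_mul (by omega) (by omega)
    omega
  have hIdvd : Nat.card (T₀ ⊓ K₀ : Subgroup G) ∣ 8 :=
    (Subgroup.card_dvd_of_le inf_le_left).trans hT₀dvd
  have hIeven : 2 ∣ Nat.card (T₀ ⊓ K₀ : Subgroup G) := by
    have h8 : Nat.card (T₀ ⊓ K₀ : Subgroup G) ∣ 2 ^ 3 := hIdvd
    obtain ⟨k, _, hk⟩ := (Nat.dvd_prime_pow Nat.prime_two).1 h8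
    rw [hk] at hI ⊢
    rcases Nat.eq_zero_or_pos k with h0 | h0
    · rw [h0] at hI; norm_num at hI
    · exact dvd_pow_self 2 (by omega)
  obtain ⟨⟨u, hu⟩, hu2⟩ := exists_prime_orderOf_dvd_card' 2 hIeven
  rw [Subgroup.orderOf_mk] at hu2
  have huT₀ : u ∈ T₀ := hu.1
  have huK₀ : g⁻¹ * u * g⁻¹⁻¹ ∈ T₀ := (hmemK₀ u).1 hu.2
  set H : Subgroup G := centralizer {u} with hHdef
  have hPH : (P : Subgroup G) ≤ H := by
    intro x hx
    rw [hHdef, mem_centralizer_singleton_iff]
    exact (mem_centralizer_iff.1 (hT₀C huT₀)) x hx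
  have hPgH : ∀ x ∈ (P : Subgroup G), g * x * g⁻¹ ∈ H := by
    intro x hx
    rw [hHdef, mem_centralizer_singleton_iff]
    have h1 : x * (g⁻¹ * u * g⁻¹⁻¹) = g⁻¹ * u * g⁻¹⁻¹ * x :=
      (mem_centralizer_iff.1 (hT₀C huK₀)) x hx
    have h2 : g * (x * (g⁻¹ * u * g⁻¹⁻¹)) * g⁻¹ = g * (g⁻¹ * u * g⁻¹⁻¹ * x) * g⁻¹ := by rw [h1]
    have h3 : g * (x * (g⁻¹ * u * g⁻¹⁻¹)) * g⁻¹ = g * x * g⁻¹ * u := by group
    have h4 : g * (g⁻¹ * u * g⁻¹⁻¹ * x) * g⁻¹ = u * (g * x * g⁻¹) := by group
    rw [h3, h4] at h2
    exact h2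
  have hNtop : N ≠ ⊤ := by
    intro htop
    have : Nat.card N = Nat.card G := by rw [htop, Subgroup.card_top]
    omega
  have hHtop : H ≠ ⊤ := by
    intro htop
    have huc : u ∈ center G := by
      rw [mem_center_iff]
      intro x
      have hx : x ∈ H := by rw [htop]; exact mem_top x
      rw [hHdef, mem_centralizer_singleton_iff] at hx
      exact hx
    rcases IsSimpleGroup.eq_bot_or_eq_top_of_normal (center G) inferInstance with hb | ht
    · rw [hb, mem_bot] at huc
      rw [huc, orderOf_one] at hu2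
      omega
    · apply hNtop
      rw [eq_top_iff]
      intro x _
      rw [hNdef, mem_normalizer_iff]
      intro y
      have hy : y ∈ center G := by rw [ht]; exact mem_top y
      have h1 : x * y * x⁻¹ = y := by
        rw [mem_center_iff.1 hy x]; group
      rw [h1]
  -- the number of Sylow subgroups of `H`
  have hr1 : N.relIndex H ≠ 1 := by
    intro h1
    have hHN : H ≤ N := Subgroup.relIndex_eq_one.1 h1
    apply hgN
    rw [hNdef, Subgroup.mem_normalizer_iff_map_conj_eq]
    apply Subgroup.eq_of_le_of_card_ge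
    · rintro _ ⟨x, hx, rfl⟩
      show g * x * g⁻¹ ∈ (P : Subgroup G)
      by_cases hx1 : x = 1
      · rw [hx1]
        simp
      · have hxo : orderOf x = 19 := by
          have h2 : orderOf x ∣ 19 := by
            have := Subgroup.orderOf_dvd_natCard (P : Subgroup G) hx
            rwa [hP] at this
          rcases (Nat.dvd_prime (by norm_num)).1 h2 with h3 | h3
          · exact absurd (orderOf_eq_one_iff.1 h3) hx1
          · exact h3
        have hgo : orderOf (g * x * g⁻¹) = 19 := by
          rw [← hxo]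
          exact orderOf_injective (MulAut.conj g).toMonoidHom (MulAut.conj g).injective x
        exact SylowPrime.mem_of_mem_normalizer_sylow (P := P) hgo (hHN (hPgH x hx))
    · exact (Nat.card_congr
        ((P : Subgroup G).equivMapOfInjective _ (MulAut.conj g).injective).toEquiv).le
  have hrm : N.relIndex H ≡ 1 [MOD 19] := RelSylow.relIndex_modEq_one P H hPH
  have hrd : N.relIndex H ∣ 459648 := by
    rw [← h]
    exact (Subgroup.relIndex_dvd_card N H).trans (Subgroup.card_subgroup_dvd_card _)
  have hHN := RelSylow.relIndex_mul_card_inf N H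
  -- `76` divides the order of `H ⊓ N`
  have h76 : 76 ≤ Nat.card (H ⊓ N : Subgroup G) := by
    have h19 : 19 ∣ Nat.card (H ⊓ N : Subgroup G) := by
      have h1 : (P : Subgroup G) ≤ H ⊓ N := le_inf hPH Subgroup.le_normalizer
      have h2 := Subgroup.card_dvd_of_le h1
      rwa [hP] at h2
    have h4 : 4 ∣ Nat.card (H ⊓ N : Subgroup G) := by
      have h1 : H ⊓ T₀ ≤ H ⊓ N := inf_le_inf_left _ (hT₀T.trans hTN)
      refine dvd_trans ?_ (Subgroup.card_dvd_of_le h1)
      obtain ⟨k, _, hk⟩ := (Nat.dvd_prime_pow (m := 3) Nat.prime_two).1 hT₀dvd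
      have hk2 : 2 ≤ k := by
        by_contra hlt
        push Not at hlt
        have : 2 ^ k ≤ 2 ^ 1 := Nat.pow_le_pow_right (by norm_num) (by omega)
        omega
      have h3 := three_le_card_centralizer hk hk2 (⟨u, huT₀⟩ : T₀)
      have h5 : Nat.card (centralizer ({(⟨u, huT₀⟩ : T₀)} : Set T₀)) =
          Nat.card (H ⊓ T₀ : Subgroup G) := by
        refine Nat.card_congr
          { toFun := fun x => ⟨x.1.1, ?_, x.1.2⟩
            invFun := fun x => ⟨⟨x.1, x.2.2⟩, ?_⟩
            left_inv := fun x => rfl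
            right_inv := fun x => rfl }
        · rw [hHdef]
          exact mem_centralizer_singleton_iff.2
            (congrArg Subtype.val (mem_centralizer_singleton_iff.1 x.2))
        · rw [mem_centralizer_singleton_iff]
          apply Subtype.ext
          have hx : x.1 ∈ centralizer ({u} : Set G) := x.2.1
          exact mem_centralizer_singleton_iff.1 hx
      rw [h5] at h3
      have h6 : Nat.card (H ⊓ T₀ : Subgroup G) ∣ 2 ^ 3 :=
        (Subgroup.card_dvd_of_le inf_le_right).trans hT₀dvd
      obtain ⟨j, _, hj⟩ := (Nat.dvd_prime_pow Nat.prime_two).1 h6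
      rw [hj] at h3 ⊢
      have hj2 : 2 ≤ j := by
        by_contra hlt
        push Not at hlt
        have : 2 ^ j ≤ 2 ^ 1 := Nat.pow_le_pow_right (by norm_num) (by omega)
        omega
      exact (pow_dvd_pow 2 hj2 : 2 ^ 2 ∣ 2 ^ j)
    have h76 : 4 * 19 ∣ Nat.card (H ⊓ N : Subgroup G) :=
      Nat.Coprime.mul_dvd_of_dvd_of_dvd (by norm_num) h4 h19
    exact Nat.le_of_dvd Nat.card_pos h76
  have hHidx := H.card_mul_index
  rw [h] at hHidx
  rcases eq_of_dvd_of_modEq hrd hrm with h1 | h1 | h1
  · exact hr1 h1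
  · refine no_subgroup h P hP hN H hPH hHtop h1 ?_
    rw [h1] at hHN
    by_contra hlt
    push Not at hlt
    have h2 : 96 * 76 ≤ Nat.card H := by rw [← hHN]; exact Nat.mul_le_mul_left _ h76
    have h3 : 96 * 76 * 96 ≤ Nat.card H * H.index := Nat.mul_le_mul h2 hlt
    omega
  · rw [h1] at hHN
    have h2 : 1008 * 76 ≤ Nat.card H := by rw [← hHN]; exact Nat.mul_le_mul_left _ h76
    have h3 : H.index ≤ 6 := by
      by_contra hlt
      push Not at hlt
      have : 1008 * 76 * 7 ≤ Nat.card H * H.index := Nat.mul_le_mul h2 hlt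
      omega
    have h4 := SylowCount.card_dvd_factorial_index H hHtop
    rw [h] at h4
    have h5 := Nat.le_of_dvd (Nat.factorial_pos _) h4
    have h6 : H.index.factorial ≤ (6 : ℕ).factorial := Nat.factorial_le h3
    have h7 : (6 : ℕ).factorial = 720 := by decide
    omega

end Main

/-- No finite simple group has order 459648 = 2^7 * 3^3 * 7 * 19. -/
theorem result {G : Type*} [Group G] [Finite G] [IsSimpleGroup G] : Nat.card G ≠ 459648 := by
  intro h
  exact main h

end Cfsg.Agent.S1022
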