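import Cfsg.Statements.S1041
set_option linter.all false

set_option autoImplicit false
open Cfsg

namespace Cfsg.Agent.S1041

/-- every root of each of the seven tables is positive or negative -/
theorem pos_or_neg (D : Cfsg.Lie.ChevalleyDatum)
    (hD : D ∈ [Cfsg.Lie.chevG2, Cfsg.Lie.chevB2, Cfsg.Lie.chevD4, Cfsg.Lie.chevF4, Cfsg.Lie.chevE6,
      Cfsg.Lie.chevE7, Cfsg.Lie.chevE8]) :
    ∀ r < D.nroots, D.IsPosRoot r ∨ D.IsNegRoot r := by
  simp only [List.mem_cons, List.not_mem_nil, or_false] at hD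
  rcases hD with rfl | rfl | rfl | rfl | rfl | rfl | rfl
  all_goals decide +kernel

/-- `U` and `V` generate the whole Chevalley group. -/
theorem result {F : Type*} [Field F] (D : Cfsg.Lie.ChevalleyDatum) (hD : D ∈ [Cfsg.Lie.chevG2, Cfsg.Lie.chevB2, Cfsg.Lie.chevD4, Cfsg.Lie.chevF4, Cfsg.Lie.chevE6, Cfsg.Lie.chevE7, Cfsg.Lie.chevE8]) : D.posUnipotent F ⊔ D.negUnipotent F = D.group F := by
  apply le_antisymm
  · apply sup_le
    · refine (Subgroup.closure_le _).2 ?_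
      rintro g ⟨r, t, hr, hg⟩
      refine Subgroup.subset_closure ⟨⟨r, hr.1⟩, t, ?_⟩
      rw [hg, Cfsg.Lie.ChevalleyDatum.x, dif_pos hr.1]
    · refine (Subgroup.closure_le _).2 ?_
      rintro g ⟨r, t, hr, hg⟩
      refine Subgroup.subset_closure ⟨⟨r, hr.1⟩, t, ?_⟩
      rw [hg, Cfsg.Lie.ChevalleyDatum.x, dif_pos hr.1]
  · refine (Subgroup.closure_le _).2 ?_
    rintro g ⟨r, t, hg⟩
    have hx : (g : Matrix D.Idx D.Idx F) = D.x F r t := by
      rw [hg, Cfsg.Lie.ChevalleyDatum.x, dif_pos r.2]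
    rcases pos_or_neg D hD r r.2 with h | h
    · exact (le_sup_left : D.posUnipotent F ≤ _) (Subgroup.subset_closure ⟨r, t, h, hx⟩)
    · exact (le_sup_right : D.negUnipotent F ≤ _) (Subgroup.subset_closure ⟨r, t, h, hx⟩)

end Cfsg.Agent.S1041
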