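import Cfsg.Prelude.Def_ChevB2
import Cfsg.Agent.ChevStructure.FieldMap
import Cfsg.Statements.S1058
set_option linter.all false

-- part: ChevStructure/B2Two
section
/-!
`B₂(2) ≅ S₆`.  The long root vectors of the adjoint module over `ZMod 2` form an orbit of 15 vectors `T i j`
(`i ≠ j` in `Fin 6`), on which the group acts like `S₆` on pairs; this gives an explicit homomorphism
`rho : Perm (Fin 6) → GL₁₀(2)` with image the Chevalley group.
-/

set_option autoImplicit false

namespace Cfsg.Agent.ChevStructure.B2Two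

open Cfsg.Lie Equiv

abbrev K := ZMod 2
abbrev I := chevB2.Idx

instance fact_two : Fact (Nat.Prime 2) := ⟨Nat.prime_two⟩

/-- The table of the vectors `T i j` as bit masks. -/
def mask : List (List ℕ) := [[0, 512, 519, 44, 84, 126], [512, 0, 4, 687, 855, 1021], [519, 4, 0, 672, 832, 994],
  [44, 687, 672, 0, 98, 64], [84, 855, 832, 98, 0, 32], [126, 1021, 994, 64, 32, 0]]

def bit (m k : ℕ) : K := if m.testBit k then 1 else 0

/-- The long root vectors, labelled by pairs. -/
def T (i j : Fin 6) : I → K := fun c =>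
  match c with
  | Sum.inl a => bit ((mask.getD i.val []).getD j.val 0) a.val
  | Sum.inr b => bit ((mask.getD i.val []).getD j.val 0) (2 + b.val)

/-- Expressions of the basis vectors as sums of `T i j`'s. -/
def pairs : List (List (Fin 6 × Fin 6)) :=
  [[(0, 1), (0, 2), (0, 3), (0, 4), (0, 5)], [(3, 4), (3, 5), (4, 5)], [(1, 2)], [(0, 3), (1, 2), (4, 5)],
   [(0, 4), (1, 2), (3, 5)], [(4, 5)], [(3, 5)], [(0, 1), (2, 3), (4, 5)], [(0, 1), (2, 4), (3, 5)], [(0, 1)]]

def S : I → List (Fin 6 × Fin 6) := fun c =>
  match c with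
  | Sum.inl a => pairs.getD a.val []
  | Sum.inr b => pairs.getD (2 + b.val) []

/-- The matrix of a permutation of six letters on the adjoint module. -/
def rho (π : Perm (Fin 6)) : Matrix I I K :=
  Matrix.of fun row col => ((S col).map fun p => T (π p.1) (π p.2) row).sum

theorem rho_apply (π : Perm (Fin 6)) (row col : I) :
    rho π row col = ((S col).map fun p => T (π p.1) (π p.2) row).sum := rfl

/-- The equivariance property. -/
def Good (π : Perm (Fin 6)) : Prop := ∀ i j : Fin 6, (rho π).mulVec (T i j) = T (π i) (π j)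

theorem rho_one : rho 1 = 1 := by
  decide +kernel

theorem good_one : Good 1 := by
  intro i j
  rw [rho_one, Matrix.one_mulVec]
  rfl

theorem good_swap (k : Fin 5) : Good (swap k.castSucc k.succ) := by
  have h : ∀ (k : Fin 5) (i j : Fin 6) (row : I),
      (rho (swap k.castSucc k.succ)).mulVec (T i j) row =
        T (swap k.castSucc k.succ i) (swap k.castSucc k.succ j) row := by
    decide +kernel
  intro i j
  funext row
  exact h k i j row

theorem rho_mul_of_good {π : Perm (Fin 6)} (h : Good π) (π' : Perm (Fin 6)) :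
    rho (π * π') = rho π * rho π' := by
  ext row col
  rw [Matrix.mul_apply, rho_apply]
  simp only [rho_apply π' _ col]
  simp only [← List.sum_map_mul_left]
  have key : ∀ l : List (Fin 6 × Fin 6),
      (l.map fun p => T ((π * π') p.1) ((π * π') p.2) row).sum =
        ∑ k, (l.map fun p => rho π row k * T (π' p.1) (π' p.2) k).sum := by
    intro l
    induction l with
    | nil => simp
    | cons p l ih =>
      simp only [List.map_cons, List.sum_cons, Finset.sum_add_distrib]
      rw [ih]
      congr 1
      have := congrFun (h (π' p.1) (π' p.2)) row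
      rw [Perm.mul_apply, Perm.mul_apply, ← this]
      rfl
  exact key (S col)

theorem good_mul {π π' : Perm (Fin 6)} (h : Good π) (h' : Good π') : Good (π * π') := by
  intro i j
  rw [rho_mul_of_good h, ← Matrix.mulVec_mulVec, h', h]
  rfl

theorem good (π : Perm (Fin 6)) : Good π := by
  have hmem : π ∈ Submonoid.closure (Set.range fun i : Fin 5 => swap i.castSucc i.succ) := by
    rw [Equiv.Perm.mclosure_swap_castSucc_succ]
    trivial
  induction hmem using Submonoid.closure_induction with
  | mem x hx =>
    obtain ⟨k, rfl⟩ := hx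
    exact good_swap k
  | one => exact good_one
  | mul x y _ _ hx hy => exact good_mul hx hy

/-- The representation as a monoid homomorphism into matrices. -/
def rhoHom : Perm (Fin 6) →* Matrix I I K where
  toFun := rho
  map_one' := rho_one
  map_mul' π π' := rho_mul_of_good (good π) π'

/-- The representation. -/
def rhoGL : Perm (Fin 6) →* GL I K := rhoHom.toHomUnits

theorem rhoGL_coe (π : Perm (Fin 6)) : ((rhoGL π : GL I K) : Matrix I I K) = rho π := rfl

theorem T_inj : ∀ i j k l : Fin 6, i ≠ j → (T i j = T k l) → (k = i ∧ l = j) ∨ (k = j ∧ l = i) := by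
  decide +kernel

theorem rhoGL_injective : Function.Injective rhoGL := by
  rw [injective_iff_map_eq_one]
  intro π h
  have h1 : rho π = 1 := by
    rw [← rhoGL_coe, h]
    rfl
  have h2 : ∀ i j, T i j = T (π i) (π j) := by
    intro i j
    have := good π i j
    rwa [h1, Matrix.one_mulVec] at this
  have h3 : ∀ i j, i ≠ j → (π i = i ∧ π j = j) ∨ (π i = j ∧ π j = i) :=
    fun i j hij => T_inj i j (π i) (π j) hij (h2 i j)
  ext i
  rw [Perm.one_apply]
  congr 1
  -- choose j, k distinct from i
  have h4 : ∀ i : Fin 6, ∃ j k : Fin 6, i ≠ j ∧ i ≠ k ∧ j ≠ k := by decide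
  obtain ⟨j, k, hij, hik, hjk⟩ := h4 i
  rcases h3 i j hij with h | h
  · exact h.1
  · rcases h3 i k hik with h' | h'
    · exact h'.1
    · exact absurd (h.1.symm.trans h'.1) hjk

/-- The permutations corresponding to the eight root elements. -/
def rootPerm : Fin chevB2.nroots → Perm (Fin 6) := fun r =>
  match r.val with
  | 0 => swap 1 2
  | 1 => swap 0 3 * (swap 1 2 * swap 4 5)
  | 2 => swap 0 4 * (swap 1 2 * swap 3 5)
  | 3 => swap 4 5
  | 4 => swap 3 5
  | 5 => swap 0 1 * (swap 2 3 * swap 4 5)
  | 6 => swap 0 1 * (swap 2 4 * swap 3 5)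
  | _ => swap 0 1

theorem xMat_one : ∀ r : Fin chevB2.nroots, chevB2.xMat K r 1 = rho (rootPerm r) := by
  decide +kernel

theorem xMat_zero : ∀ r : Fin chevB2.nroots, chevB2.xMat K r 0 = 1 := by
  decide +kernel

theorem closure_rootPerm : Subgroup.closure (Set.range rootPerm) = ⊤ := by
  have hgen : ∀ k : Fin 5, swap k.castSucc k.succ ∈ Subgroup.closure (Set.range rootPerm) := by
    have hr : ∀ r, rootPerm r ∈ Subgroup.closure (Set.range rootPerm) :=
      fun r => Subgroup.subset_closure ⟨r, rfl⟩
    have hr' : ∀ (π : Perm (Fin 6)), (∃ r, rootPerm r = π) → π ∈ Subgroup.closure (Set.range rootPerm) := by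
      rintro _ ⟨r, rfl⟩
      exact hr r
    have h0 : swap (1 : Fin 6) 2 ∈ Subgroup.closure (Set.range rootPerm) := hr' _ (by decide +kernel)
    have h3 : swap (4 : Fin 6) 5 ∈ Subgroup.closure (Set.range rootPerm) := hr' _ (by decide +kernel)
    have h4 : swap (3 : Fin 6) 5 ∈ Subgroup.closure (Set.range rootPerm) := hr' _ (by decide +kernel)
    have h5 : swap (0 : Fin 6) 1 * (swap 2 3 * swap 4 5) ∈ Subgroup.closure (Set.range rootPerm) :=
      hr' _ (by decide +kernel)
    have h7 : swap (0 : Fin 6) 1 ∈ Subgroup.closure (Set.range rootPerm) := hr' _ (by decide +kernel)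
    intro k
    fin_cases k
    · exact h7
    · exact h0
    · have := mul_mem h7 (mul_mem h5 h3)
      have e : swap (0 : Fin 6) 1 * (swap 0 1 * (swap 2 3 * swap 4 5) * swap 4 5) = swap 2 3 := by decide
      rw [e] at this
      exact this
    · have := mul_mem h3 (mul_mem h4 h3)
      have e : swap (4 : Fin 6) 5 * (swap 3 5 * swap 4 5) = swap 3 4 := by decide
      rw [e] at this
      exact this
    · exact h3
  rw [eq_top_iff]
  intro π _
  have hmem : π ∈ Submonoid.closure (Set.range fun i : Fin 5 => swap i.castSucc i.succ) := by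
    rw [Equiv.Perm.mclosure_swap_castSucc_succ]
    trivial
  have hle : Submonoid.closure (Set.range fun i : Fin 5 => swap i.castSucc i.succ) ≤
      (Subgroup.closure (Set.range rootPerm)).toSubmonoid := by
    rw [Submonoid.closure_le]
    rintro _ ⟨k, rfl⟩
    exact hgen k
  exact hle hmem

theorem range_rhoGL : rhoGL.range = chevB2.group K := by
  rw [MonoidHom.range_eq_map, ← closure_rootPerm, MonoidHom.map_closure]
  unfold ChevalleyDatum.group
  apply le_antisymm
  · rw [Subgroup.closure_le]
    rintro _ ⟨_, ⟨r, rfl⟩, rfl⟩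
    apply Subgroup.subset_closure
    exact ⟨r, 1, (xMat_one r).symm⟩
  · rw [Subgroup.closure_le]
    rintro g ⟨r, t, h⟩
    have ht' : ∀ t : K, t = 0 ∨ t = 1 := by decide
    have ht : t = 0 ∨ t = 1 := ht' t
    rcases ht with rfl | rfl
    · have : g = 1 := by
        apply Units.ext
        rw [h, xMat_zero]
        rfl
      rw [this]
      exact one_mem _
    · apply Subgroup.subset_closure
      refine ⟨rootPerm r, ⟨r, rfl⟩, ?_⟩
      apply Units.ext
      rw [rhoGL_coe, h, xMat_one]

theorem nonempty_equiv : Nonempty (chevB2.group K ≃* Perm (Fin 6)) :=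
  ⟨((MonoidHom.ofInjective rhoGL_injective).trans (MulEquiv.subgroupCongr range_rhoGL)).symm⟩

end Cfsg.Agent.ChevStructure.B2Two
end

-- part: S1058
section
set_option autoImplicit false
open Cfsg

namespace Cfsg.Agent.S1058

/-- B₂(2) ≅ S₆. -/
theorem result {F : Type*} [Field F] [Fintype F] (hF : Fintype.card F = 2) :
    Nonempty (↥(Cfsg.Lie.chevB2.group F) ≃* Equiv.Perm (Fin 6)) := by
  have e : F ≃+* ZMod 2 := (ZMod.ringEquivOfPrime F Nat.prime_two hF).symm
  obtain ⟨f⟩ := Cfsg.Agent.ChevStructure.B2Two.nonempty_equiv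
  exact ⟨(Cfsg.Agent.ChevStructure.FieldMap.groupEquivOfRingEquiv Cfsg.Lie.chevB2 e).trans f⟩

end Cfsg.Agent.S1058
end
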