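import Mathlib
import Cfsg.Prelude.Def_Classical
import Cfsg.Prelude.Def_ClassicalGeometry
import Cfsg.Agent.ClassicalGeometry.Reflection
import Cfsg.Agent.ClassicalGeometry.GenReflections
import Cfsg.Agent.LieClassical.CliffordFive
import Cfsg.Agent.ClassicalGeometry.WittQuad
import Cfsg.Agent.LieClassical.SympPerfect
import Cfsg.Statements.S1083
import Cfsg.Agent.ChevalleyStructure.B2Sp4
set_option linter.all false

-- part: LieClassical/SpinSix
section
/-!
# Half-spin representations of `O₆⁺` in all characteristics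

`sk w` and `sks w` are alternating 4 by 4 matrices with `sk w * sks w = -Q w`. Every isometry of
the six-dimensional hyperbolic space is induced by a pair of invertible 4 by 4 matrices.
-/

set_option autoImplicit false

namespace Cfsg.Agent.LieClassical.SpinSix

open Matrix QuadraticMap
open Cfsg.Agent.LieClassical.CliffordFive Cfsg.Agent.ClassicalGeometry.Reflection

/-- index type of the 6-dimensional space -/
abbrev I6 : Type := Fin 3 ⊕ Fin 3

variable {F : Type*} [Field F]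

theorem quadFormPlus_three (v : I6 → F) : Cfsg.quadFormPlus 3 F v =
    v (.inl 0) * v (.inr 0) + v (.inl 1) * v (.inr 1) + v (.inl 2) * v (.inr 2) := by
  change ∑ i : Fin 3, v (.inl i) * v (.inr i) = _
  rw [Fin.sum_univ_three]

theorem polar_quadFormPlus_three (v w : I6 → F) : polar (Cfsg.quadFormPlus 3 F) v w =
    v (.inl 0) * w (.inr 0) + v (.inr 0) * w (.inl 0) + v (.inl 1) * w (.inr 1)
      + v (.inr 1) * w (.inl 1) + v (.inl 2) * w (.inr 2) + v (.inr 2) * w (.inl 2) := by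
  simp only [polar, quadFormPlus_three, Pi.add_apply]
  ring

variable (F) in
/-- `quadFormPlus 3 F` as a `QuadraticForm`. -/
def Q6 : QuadraticForm F (I6 → F) :=
  QuadraticMap.ofPolar (Cfsg.quadFormPlus 3 F)
    (fun a x => by simp only [quadFormPlus_three, Pi.smul_apply, smul_eq_mul]; ring)
    (fun x x' y => by simp only [polar_quadFormPlus_three, Pi.add_apply]; ring)
    (fun a x y => by simp only [polar_quadFormPlus_three, Pi.smul_apply, smul_eq_mul]; ring)

theorem coe_Q6 : ⇑(Q6 F) = Cfsg.quadFormPlus 3 F := rfl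

theorem Q6_apply (v : I6 → F) : Q6 F v =
    v (.inl 0) * v (.inr 0) + v (.inl 1) * v (.inr 1) + v (.inl 2) * v (.inr 2) :=
  quadFormPlus_three v

theorem polar_Q6 (v w : I6 → F) : polar (⇑(Q6 F)) v w =
    v (.inl 0) * w (.inr 0) + v (.inr 0) * w (.inl 0) + v (.inl 1) * w (.inr 1)
      + v (.inr 1) * w (.inl 1) + v (.inl 2) * w (.inr 2) + v (.inr 2) * w (.inl 2) :=
  polar_quadFormPlus_three v w

theorem eq_zero_of_polar_Q6 (v : I6 → F) (h : ∀ w, polar (⇑(Q6 F)) v w = 0) : v = 0 := by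
  have h0 := h (Pi.single (.inl 0) 1)
  have h1 := h (Pi.single (.inl 1) 1)
  have h2 := h (Pi.single (.inl 2) 1)
  have h3 := h (Pi.single (.inr 0) 1)
  have h4 := h (Pi.single (.inr 1) 1)
  have h5 := h (Pi.single (.inr 2) 1)
  clear h
  simp [polar_Q6] at h0 h1 h2 h3 h4 h5
  funext k
  rcases k with k | k
  · fin_cases k
    · exact h3
    · exact h4
    · exact h5
  · fin_cases k
    · exact h0
    · exact h1
    · exact h2

theorem nondegenerate_Q6 : (polarBilin (Q6 F)).Nondegenerate := by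
  refine ⟨fun v hv => eq_zero_of_polar_Q6 v hv, fun v hv => eq_zero_of_polar_Q6 v fun w => ?_⟩
  rw [polar_comm]
  exact hv w

/-- alternating matrix -/
def sk (w : I6 → F) : Matrix I4 I4 F :=
  Matrix.fromBlocks
    !![0, w (.inl 1); -w (.inl 1), 0]
    !![-w (.inl 2), -w (.inl 0); -w (.inr 0), w (.inr 2)]
    !![w (.inl 2), w (.inr 0); w (.inl 0), -w (.inr 2)]
    !![0, w (.inr 1); -w (.inr 1), 0]

/-- the Pfaffian adjoint of `sk w` -/
def sks (w : I6 → F) : Matrix I4 I4 F :=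
  Matrix.fromBlocks
    !![0, w (.inr 1); -w (.inr 1), 0]
    !![-w (.inr 2), -w (.inr 0); -w (.inl 0), w (.inl 2)]
    !![w (.inr 2), w (.inl 0); w (.inr 0), -w (.inl 2)]
    !![0, w (.inl 1); -w (.inl 1), 0]

theorem sk_def (w : I6 → F) : sk w = Matrix.fromBlocks
    !![0, w (.inl 1); -w (.inl 1), 0]
    !![-w (.inl 2), -w (.inl 0); -w (.inr 0), w (.inr 2)]
    !![w (.inl 2), w (.inr 0); w (.inl 0), -w (.inr 2)]
    !![0, w (.inr 1); -w (.inr 1), 0] := rfl

theorem sks_def (w : I6 → F) : sks w = Matrix.fromBlocks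
    !![0, w (.inr 1); -w (.inr 1), 0]
    !![-w (.inr 2), -w (.inr 0); -w (.inl 0), w (.inl 2)]
    !![w (.inr 2), w (.inl 0); w (.inr 0), -w (.inl 2)]
    !![0, w (.inl 1); -w (.inl 1), 0] := rfl

theorem sk_mul_sks (w : I6 → F) : sk w * sks w = -Q6 F w • (1 : Matrix I4 I4 F) := by
  rw [Q6_apply]
  ext i j
  rcases i with i | i <;> rcases j with j | j <;> fin_cases i <;> fin_cases j <;>
    simp [sk_def, sks_def, Matrix.mul_apply, Fin.sum_univ_two] <;> ring

theorem sks_mul_sk (w : I6 → F) : sks w * sk w = -Q6 F w • (1 : Matrix I4 I4 F) := by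
  rw [Q6_apply]
  ext i j
  rcases i with i | i <;> rcases j with j | j <;> fin_cases i <;> fin_cases j <;>
    simp [sk_def, sks_def, Matrix.mul_apply, Fin.sum_univ_two] <;> ring

theorem sk_add (v w : I6 → F) : sk (v + w) = sk v + sk w := by
  ext i j
  rcases i with i | i <;> rcases j with j | j <;> fin_cases i <;> fin_cases j <;>
    simp [sk_def] <;> ring

theorem sk_smul (c : F) (v : I6 → F) : sk (c • v) = c • sk v := by
  ext i j
  rcases i with i | i <;> rcases j with j | j <;> fin_cases i <;> fin_cases j <;>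
    simp [sk_def]

theorem sks_add (v w : I6 → F) : sks (v + w) = sks v + sks w := by
  ext i j
  rcases i with i | i <;> rcases j with j | j <;> fin_cases i <;> fin_cases j <;>
    simp [sks_def] <;> ring

theorem sks_smul (c : F) (v : I6 → F) : sks (c • v) = c • sks v := by
  ext i j
  rcases i with i | i <;> rcases j with j | j <;> fin_cases i <;> fin_cases j <;>
    simp [sks_def]

theorem sk_mul_sks_add (v w : I6 → F) :
    sk v * sks w + sk w * sks v = -polar (⇑(Q6 F)) v w • (1 : Matrix I4 I4 F) := by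
  rw [polar_Q6]
  ext i j
  rcases i with i | i <;> rcases j with j | j <;> fin_cases i <;> fin_cases j <;>
    simp [sk_def, sks_def, Matrix.mul_apply, Fin.sum_univ_two] <;> ring

theorem sks_mul_sk_add (v w : I6 → F) :
    sks v * sk w + sks w * sk v = -polar (⇑(Q6 F)) v w • (1 : Matrix I4 I4 F) := by
  rw [polar_Q6]
  ext i j
  rcases i with i | i <;> rcases j with j | j <;> fin_cases i <;> fin_cases j <;>
    simp [sk_def, sks_def, Matrix.mul_apply, Fin.sum_univ_two] <;> ring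

theorem sk_refl (a w : I6 → F) (ha : Q6 F a ≠ 0) :
    sk (Cfsg.reflectionMatrix (⇑(Q6 F)) a *ᵥ w) * sks a = -(sk a * sks w) := by
  rw [reflectionMatrix_mulVec, sub_eq_add_neg, ← neg_smul, sk_add, sk_smul, Matrix.add_mul,
    Matrix.smul_mul, sk_mul_sks, smul_smul]
  have h := sk_mul_sks_add a w
  have e : sk w * sks a = -polar (⇑(Q6 F)) a w • (1 : Matrix I4 I4 F) - sk a * sks w := by
    rw [← h]; abel
  have e' : -((Q6 F a)⁻¹ * polar (⇑(Q6 F)) a w) * -Q6 F a = polar (⇑(Q6 F)) a w := by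
    field_simp
  rw [e, e', neg_smul]
  abel

theorem sks_refl (a w : I6 → F) (ha : Q6 F a ≠ 0) :
    sks (Cfsg.reflectionMatrix (⇑(Q6 F)) a *ᵥ w) * sk a = -(sks a * sk w) := by
  rw [reflectionMatrix_mulVec, sub_eq_add_neg, ← neg_smul, sks_add, sks_smul, Matrix.add_mul,
    Matrix.smul_mul, sks_mul_sk, smul_smul]
  have h := sks_mul_sk_add a w
  have e : sks w * sk a = -polar (⇑(Q6 F)) a w • (1 : Matrix I4 I4 F) - sks a * sk w := by
    rw [← h]; abel
  have e' : -((Q6 F a)⁻¹ * polar (⇑(Q6 F)) a w) * -Q6 F a = polar (⇑(Q6 F)) a w := by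
    field_simp
  rw [e, e', neg_smul]
  abel

/-- Type 1 relation: `T` preserves the two half-spin spaces. -/
def EvenT (T : Matrix I6 I6 F) : Prop :=
  ∃ (g h g' h' : Matrix I4 I4 F) (ε : F), g * g' = 1 ∧ h * h' = 1 ∧ ε ≠ 0 ∧
    ∀ w, sk (T *ᵥ w) * h = ε • (g * sk w) ∧ sks (T *ᵥ w) * g = ε • (h * sks w)

/-- Type 2 relation: `T` exchanges the two half-spin spaces. -/
def OddT (T : Matrix I6 I6 F) : Prop :=
  ∃ (g h g' h' : Matrix I4 I4 F) (ε : F), g * g' = 1 ∧ h * h' = 1 ∧ ε ≠ 0 ∧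
    ∀ w, sk (T *ᵥ w) * h = ε • (g * sks w) ∧ sks (T *ᵥ w) * g = ε • (h * sk w)

theorem sk_mul_inv (a : I6 → F) (ha : Q6 F a ≠ 0) (h h' : Matrix I4 I4 F) (hh : h * h' = 1) :
    sk a * h * (h' * (-(Q6 F a)⁻¹ • sks a)) = 1 := by
  calc sk a * h * (h' * (-(Q6 F a)⁻¹ • sks a)) = sk a * (h * h') * (-(Q6 F a)⁻¹ • sks a) := by
        simp only [Matrix.mul_assoc]
    _ = 1 := by
        rw [hh, Matrix.mul_one, Matrix.mul_smul, sk_mul_sks, smul_smul, neg_mul_neg,
          inv_mul_cancel₀ ha, one_smul]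

theorem sks_mul_inv (a : I6 → F) (ha : Q6 F a ≠ 0) (h h' : Matrix I4 I4 F) (hh : h * h' = 1) :
    sks a * h * (h' * (-(Q6 F a)⁻¹ • sk a)) = 1 := by
  calc sks a * h * (h' * (-(Q6 F a)⁻¹ • sk a)) = sks a * (h * h') * (-(Q6 F a)⁻¹ • sk a) := by
        simp only [Matrix.mul_assoc]
    _ = 1 := by
        rw [hh, Matrix.mul_one, Matrix.mul_smul, sks_mul_sk, smul_smul, neg_mul_neg,
          inv_mul_cancel₀ ha, one_smul]

theorem EvenT.refl_mul {T : Matrix I6 I6 F} (hT : EvenT T) (a : I6 → F) (ha : Q6 F a ≠ 0) :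
    OddT (Cfsg.reflectionMatrix (⇑(Q6 F)) a * T) := by
  obtain ⟨g, h, g', h', ε, hg, hh, hε, H⟩ := hT
  refine ⟨sk a * h, sks a * g, _, _, -ε, sk_mul_inv a ha h h' hh, sks_mul_inv a ha g g' hg,
    neg_ne_zero.2 hε, fun w => ⟨?_, ?_⟩⟩
  · rw [← Matrix.mulVec_mulVec, ← Matrix.mul_assoc, sk_refl a _ ha, Matrix.neg_mul,
      Matrix.mul_assoc, (H w).2, Matrix.mul_smul, neg_smul, Matrix.mul_assoc]
  · rw [← Matrix.mulVec_mulVec, ← Matrix.mul_assoc, sks_refl a _ ha, Matrix.neg_mul,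
      Matrix.mul_assoc, (H w).1, Matrix.mul_smul, neg_smul, Matrix.mul_assoc]

theorem OddT.refl_mul {T : Matrix I6 I6 F} (hT : OddT T) (a : I6 → F) (ha : Q6 F a ≠ 0) :
    EvenT (Cfsg.reflectionMatrix (⇑(Q6 F)) a * T) := by
  obtain ⟨g, h, g', h', ε, hg, hh, hε, H⟩ := hT
  refine ⟨sk a * h, sks a * g, _, _, -ε, sk_mul_inv a ha h h' hh, sks_mul_inv a ha g g' hg,
    neg_ne_zero.2 hε, fun w => ⟨?_, ?_⟩⟩
  · rw [← Matrix.mulVec_mulVec, ← Matrix.mul_assoc, sk_refl a _ ha, Matrix.neg_mul,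
      Matrix.mul_assoc, (H w).2, Matrix.mul_smul, neg_smul, Matrix.mul_assoc]
  · rw [← Matrix.mulVec_mulVec, ← Matrix.mul_assoc, sks_refl a _ ha, Matrix.neg_mul,
      Matrix.mul_assoc, (H w).1, Matrix.mul_smul, neg_smul, Matrix.mul_assoc]

theorem even_one : EvenT (1 : Matrix I6 I6 F) :=
  ⟨1, 1, 1, 1, 1, by simp, by simp, one_ne_zero, fun w => by simp⟩

/-- Every isometry of the six-dimensional hyperbolic space is of one of the two types. -/
theorem even_or_odd (T : Cfsg.isometryGroup F (⇑(Q6 F))) :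
    EvenT ((T : Matrix.GeneralLinearGroup I6 F) : Matrix I6 I6 F) ∨
    OddT ((T : Matrix.GeneralLinearGroup I6 F) : Matrix I6 I6 F) := by
  have hcl := Cfsg.Agent.ClassicalGeometry.GenReflections.closure_reflections_eq_top (Q6 F)
    nondegenerate_Q6 (Or.inr (by simp))
  have hT : T ∈ Subgroup.closure {g : Cfsg.isometryGroup F (⇑(Q6 F)) | ∃ v : I6 → F, Q6 F v ≠ 0 ∧
    ((g : Matrix.GeneralLinearGroup I6 F) : Matrix I6 I6 F) = Cfsg.reflectionMatrix (⇑(Q6 F)) v} := by
    rw [hcl]; exact Subgroup.mem_top _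
  induction hT using Subgroup.closure_induction_left with
  | one => exact Or.inl even_one
  | mul_left x hx y hy ih =>
    obtain ⟨v, hv, hx⟩ := hx
    change EvenT (((x : Matrix.GeneralLinearGroup I6 F) : Matrix I6 I6 F) *
      ((y : Matrix.GeneralLinearGroup I6 F) : Matrix I6 I6 F)) ∨
      OddT (((x : Matrix.GeneralLinearGroup I6 F) : Matrix I6 I6 F) *
      ((y : Matrix.GeneralLinearGroup I6 F) : Matrix I6 I6 F))
    rw [hx]
    rcases ih with h | h
    · exact Or.inr (h.refl_mul v hv)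
    · exact Or.inl (h.refl_mul v hv)
  | inv_mul_cancel x hx y hy ih =>
    obtain ⟨v, hv, hx⟩ := hx
    have hx' : x = reflIso (Q6 F) v hv := Subtype.ext (Units.ext hx)
    rw [hx', reflIso_inv]
    change EvenT (Cfsg.reflectionMatrix (⇑(Q6 F)) v *
      ((y : Matrix.GeneralLinearGroup I6 F) : Matrix I6 I6 F)) ∨
      OddT (Cfsg.reflectionMatrix (⇑(Q6 F)) v *
      ((y : Matrix.GeneralLinearGroup I6 F) : Matrix I6 I6 F))
    rcases ih with h | h
    · exact Or.inr (h.refl_mul v hv)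
    · exact Or.inl (h.refl_mul v hv)

end Cfsg.Agent.LieClassical.SpinSix
end

-- part: LieClassical/OmegaFiveAll
section
/-!
# `PΩ₅(F) ≅ PSp₄(F)` for every field with more than two elements
-/

set_option autoImplicit false

namespace Cfsg.Agent.LieClassical.OmegaFiveAll

open scoped commutatorElement
open Matrix QuadraticMap
open Cfsg.Agent.LieClassical.CliffordFive Cfsg.Agent.LieClassical.SpinSix
  Cfsg.Agent.ClassicalGeometry.Reflection

variable {F : Type*} [Field F]

/-- the isometry group `O₅` -/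
abbrev O5 (F : Type*) [Field F] : Subgroup (Matrix.GeneralLinearGroup I5 F) :=
  Cfsg.isometryGroup F (Cfsg.quadFormOdd 2 F)

/-- The matrix of an element of `O₅`. -/
abbrev mt (T : O5 F) : Matrix I5 I5 F := ((T : Matrix.GeneralLinearGroup I5 F) : Matrix I5 I5 F)

theorem Q5_mt (T : O5 F) (v : I5 → F) : Q5 F (mt T *ᵥ v) = Q5 F v :=
  (mem_isometryGroup_iff (Cfsg.quadFormOdd 2 F) T.1).1 T.2 v

/-! ### Embedding in the six-dimensional space -/

/-- the embedding -/
def emb (F : Type*) [Field F] : (I5 → F) →ₗ[F] (I6 → F) where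
  toFun v := fun k =>
    match k with
    | .inl 0 => v (.inr (.inl 0))
    | .inl 1 => v (.inr (.inl 1))
    | .inl 2 => v (.inl ())
    | .inr 0 => v (.inr (.inr 0))
    | .inr 1 => v (.inr (.inr 1))
    | .inr 2 => v (.inl ())
  map_add' v w := by
    funext k
    rcases k with k | k <;> fin_cases k <;> rfl
  map_smul' c v := by
    funext k
    rcases k with k | k <;> fin_cases k <;> rfl

theorem emb_injective : Function.Injective (emb F) := by
  intro v w h
  funext k
  rcases k with k | k | k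
  · exact congrFun h (.inl 2)
  · fin_cases k
    · exact congrFun h (.inl 0)
    · exact congrFun h (.inl 1)
  · fin_cases k
    · exact congrFun h (.inr 0)
    · exact congrFun h (.inr 1)

theorem Q6_emb (v : I5 → F) : Q6 F (emb F v) = Q5 F v := by
  rw [Q6_apply, Q5_apply]
  change v (.inr (.inl 0)) * v (.inr (.inr 0)) + v (.inr (.inl 1)) * v (.inr (.inr 1)) +
    v (.inl ()) * v (.inl ()) = _
  ring

theorem sk_emb (v : I5 → F) : sk (emb F v) = cl v * Matrix.J (Fin 2) F := by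
  ext i j
  rcases i with i | i <;> rcases j with j | j <;> fin_cases i <;> fin_cases j <;>
    simp [cl_def, sk_def, emb, Matrix.J, Matrix.mul_apply, Matrix.one_apply]

/-- the vector orthogonal to the hyperplane -/
def wJ (F : Type*) [Field F] : I6 → F := fun k =>
  match k with
  | .inl 0 => 0
  | .inl 1 => 0
  | .inl 2 => 1
  | .inr 0 => 0
  | .inr 1 => 0
  | .inr 2 => -1

theorem sk_wJ : sk (wJ F) = Matrix.J (Fin 2) F := by
  ext i j
  rcases i with i | i <;> rcases j with j | j <;> fin_cases i <;> fin_cases j <;>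
    simp [sk_def, wJ, Matrix.J, Matrix.one_apply]

theorem Q6_wJ : Q6 F (wJ F) = -1 := by
  rw [Q6_apply]
  simp [wJ]

theorem polar_emb_wJ (v : I5 → F) : polar (⇑(Q6 F)) (wJ F) (emb F v) = 0 := by
  rw [polar_Q6]
  simp [wJ, emb]

/-- vectors orthogonal to the hyperplane are multiples of `wJ` -/
theorem eq_smul_wJ (w : I6 → F) (h : ∀ v, polar (⇑(Q6 F)) w (emb F v) = 0) :
    w = w (.inl 2) • wJ F := by
  have h0 := h (Pi.single (.inl ()) 1)
  have h1 := h (Pi.single (.inr (.inl 0)) 1)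
  have h2 := h (Pi.single (.inr (.inl 1)) 1)
  have h3 := h (Pi.single (.inr (.inr 0)) 1)
  have h4 := h (Pi.single (.inr (.inr 1)) 1)
  clear h
  simp [polar_Q6, emb] at h0 h1 h2 h3 h4
  funext k
  rcases k with k | k
  · fin_cases k
    · simp [wJ, h3]
    · simp [wJ, h4]
    · simp [wJ]
  · fin_cases k
    · simp [wJ, h1]
    · simp [wJ, h2]
    · simp [wJ]
      linear_combination h0

/-! ### conjugation by similitudes, any characteristic -/

theorem J_mul_J : Matrix.J (Fin 2) F * Matrix.J (Fin 2) F = -1 := Matrix.J_squared _ _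

/-- read off coordinates of an alternating matrix -/
def unsk (Y : Matrix I4 I4 F) : I6 → F := fun k =>
  match k with
  | .inl 0 => -Y (.inl 0) (.inr 1)
  | .inl 1 => Y (.inl 0) (.inl 1)
  | .inl 2 => -Y (.inl 0) (.inr 0)
  | .inr 0 => -Y (.inl 1) (.inr 0)
  | .inr 1 => Y (.inr 0) (.inr 1)
  | .inr 2 => Y (.inl 1) (.inr 1)

theorem sk_unsk (Y : Matrix I4 I4 F) (h0 : ∀ i, Y i i = 0) (h1 : ∀ i j, Y j i = -Y i j) :
    sk (unsk Y) = Y := by
  have e1 := h1 (.inl 0) (.inl 1)
  have e2 := h1 (.inl 0) (.inr 0)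
  have e3 := h1 (.inl 0) (.inr 1)
  have e4 := h1 (.inl 1) (.inr 0)
  have e5 := h1 (.inl 1) (.inr 1)
  have e6 := h1 (.inr 0) (.inr 1)
  ext i j
  rcases i with i | i <;> rcases j with j | j <;> fin_cases i <;> fin_cases j <;>
    simp [sk_def, unsk, h0, e1, e2, e3, e4, e5, e6]

theorem conj_sk (g : Matrix I4 I4 F) (w : I6 → F) :
    sk (unsk (g * sk w * gᵀ)) = g * sk w * gᵀ := by
  apply sk_unsk
  · intro i
    simp [Matrix.mul_apply, Fintype.sum_sum_type, Fin.sum_univ_two, sk_def]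
    ring
  · intro i j
    simp [Matrix.mul_apply, Fintype.sum_sum_type, Fin.sum_univ_two, sk_def]
    ring

theorem conj_sk_emb (g : Matrix I4 I4 F) (μ : F)
    (hJ : gᵀ * Matrix.J (Fin 2) F * g = μ • Matrix.J (Fin 2) F) (v : I5 → F) :
    unsk (g * sk (emb F v) * gᵀ) (.inl 2) = unsk (g * sk (emb F v) * gᵀ) (.inr 2) := by
  have h := fun i j => congrFun (congrFun hJ i) j
  have e1 := h (.inl 0) (.inl 1)
  have e2 := h (.inl 0) (.inr 0)
  have e3 := h (.inl 0) (.inr 1)
  have e4 := h (.inl 1) (.inr 0)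
  have e5 := h (.inl 1) (.inr 1)
  have e6 := h (.inr 0) (.inr 1)
  clear h hJ
  simp [Matrix.mul_apply, Fintype.sum_sum_type, Fin.sum_univ_two, Matrix.J, Matrix.one_apply] at e1 e2 e3 e4 e5 e6
  simp [unsk, Matrix.mul_apply, Fintype.sum_sum_type, Fin.sum_univ_two, sk_def, emb]
  linear_combination v (.inr (.inl 1)) * e1 - v (.inl ()) * e2 - v (.inr (.inl 0)) * e3
    - v (.inr (.inr 0)) * e4 + v (.inl ()) * e5 + v (.inr (.inr 1)) * e6

/-- vectors in the hyperplane -/
def prj (w : I6 → F) : I5 → F := fun k =>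
  match k with
  | .inl _ => w (.inl 2)
  | .inr (.inl 0) => w (.inl 0)
  | .inr (.inl 1) => w (.inl 1)
  | .inr (.inr 0) => w (.inr 0)
  | .inr (.inr 1) => w (.inr 1)

theorem emb_prj (w : I6 → F) (h : w (.inl 2) = w (.inr 2)) : emb F (prj w) = w := by
  funext k
  rcases k with k | k <;> fin_cases k
  · rfl
  · rfl
  · rfl
  · rfl
  · rfl
  · exact h

theorem exists_cl_conj (g h : Matrix I4 I4 F) (hgh : g * h = 1) (μ : F)
    (hμ : μ ≠ 0) (hJ : g * Matrix.J (Fin 2) F * gᵀ = μ • Matrix.J (Fin 2) F) (v : I5 → F) :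
    ∃ v', g * cl v * h = cl v' := by
  have hhg : h * g = 1 := mul_eq_one_comm.1 hgh
  have e1 : Matrix.J (Fin 2) F * gᵀ = μ • (h * Matrix.J (Fin 2) F) := by
    calc Matrix.J (Fin 2) F * gᵀ = h * (g * Matrix.J (Fin 2) F * gᵀ) := by
          rw [← Matrix.mul_assoc, ← Matrix.mul_assoc, hhg, Matrix.one_mul]
      _ = _ := by rw [hJ, Matrix.mul_smul]
  -- `gᵀ J g = μ J`
  have e2 : gᵀ * Matrix.J (Fin 2) F * g = μ • Matrix.J (Fin 2) F := by
    have e3 : g * (Matrix.J (Fin 2) F * gᵀ * (-μ⁻¹ • Matrix.J (Fin 2) F)) = 1 := by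
      calc g * (Matrix.J (Fin 2) F * gᵀ * (-μ⁻¹ • Matrix.J (Fin 2) F))
          = (g * Matrix.J (Fin 2) F * gᵀ) * (-μ⁻¹ • Matrix.J (Fin 2) F) := by
            simp only [Matrix.mul_assoc]
        _ = 1 := by
            rw [hJ, Matrix.smul_mul, Matrix.mul_smul, J_mul_J, smul_smul, smul_neg, mul_neg,
              mul_inv_cancel₀ hμ, neg_smul, one_smul, neg_neg]
    have e4 := mul_eq_one_comm.1 e3
    have e5 : Matrix.J (Fin 2) F * gᵀ * Matrix.J (Fin 2) F * g = -μ • (1 : Matrix I4 I4 F) := by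
      have : -μ • (Matrix.J (Fin 2) F * gᵀ * (-μ⁻¹ • Matrix.J (Fin 2) F) * g) = -μ • (1 : Matrix I4 I4 F) := by
        rw [e4]
      rw [Matrix.mul_smul, Matrix.smul_mul, smul_smul, neg_mul_neg, mul_inv_cancel₀ hμ, one_smul] at this
      exact this
    calc gᵀ * Matrix.J (Fin 2) F * g = -(Matrix.J (Fin 2) F * Matrix.J (Fin 2) F) * (gᵀ * Matrix.J (Fin 2) F * g) := by
          rw [J_mul_J, neg_neg, Matrix.one_mul]
      _ = -(Matrix.J (Fin 2) F * (Matrix.J (Fin 2) F * gᵀ * Matrix.J (Fin 2) F * g)) := by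
          rw [Matrix.neg_mul]; simp only [Matrix.mul_assoc]
      _ = _ := by rw [e5, Matrix.mul_smul, Matrix.mul_one, neg_smul, neg_neg]
  have e6 := conj_sk g (emb F v)
  rw [← emb_prj _ (conj_sk_emb g μ e2 v), sk_emb, sk_emb] at e6
  refine ⟨μ⁻¹ • prj (unsk (g * sk (emb F v) * gᵀ)), ?_⟩
  rw [sk_emb]
  set v' := prj (unsk (g * (cl v * Matrix.J (Fin 2) F) * gᵀ))
  rw [cl_smul]
  have e7 : cl v' = μ • (g * cl v * h) := by
    calc cl v' = -(cl v' * Matrix.J (Fin 2) F * Matrix.J (Fin 2) F) := by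
          rw [Matrix.mul_assoc, J_mul_J, Matrix.mul_neg, neg_neg, Matrix.mul_one]
      _ = -(g * cl v * (Matrix.J (Fin 2) F * gᵀ) * Matrix.J (Fin 2) F) := by
          rw [e6]; simp only [Matrix.mul_assoc]
      _ = _ := by
          rw [e1, Matrix.mul_smul, Matrix.smul_mul, Matrix.mul_assoc, Matrix.mul_assoc h, J_mul_J,
            Matrix.mul_neg, Matrix.mul_one, Matrix.mul_neg, smul_neg, neg_neg]
  rw [e7, smul_smul, inv_mul_cancel₀ hμ, one_smul]

/-! ### The homomorphism `Sp₄ → O₅` in all characteristics -/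

theorem conj_cl_sp (g : Matrix.symplecticGroup (Fin 2) F) (v : I5 → F) :
    cl (uncl (g.1 * cl v * (g⁻¹).1)) = g.1 * cl v * (g⁻¹).1 := by
  obtain ⟨v', hv'⟩ := exists_cl_conj g.1 (g⁻¹).1 (congrArg Subtype.val (mul_inv_cancel g)) 1
    one_ne_zero (by rw [one_smul]; exact SymplecticGroup.mem_iff.1 g.2) v
  rw [hv', uncl_cl]

/-- conjugation preserves the quadratic form -/
theorem Q5_conj (g : Matrix.symplecticGroup (Fin 2) F) (v : I5 → F) :
    Q5 F (uncl (g.1 * cl v * (g⁻¹).1)) = Q5 F v := by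
  have h1 : (g⁻¹).1 * g.1 = 1 := congrArg Subtype.val (inv_mul_cancel g)
  have h1' : g.1 * (g⁻¹).1 = 1 := congrArg Subtype.val (mul_inv_cancel g)
  have h := cl_mul_self (uncl (g.1 * cl v * (g⁻¹).1))
  rw [conj_cl_sp] at h
  have h3 : g.1 * cl v * (g⁻¹).1 * (g.1 * cl v * (g⁻¹).1) = g.1 * (cl v * cl v) * (g⁻¹).1 := by
    rw [Matrix.mul_assoc (g.1 * cl v), ← Matrix.mul_assoc (g⁻¹).1, ← Matrix.mul_assoc (g⁻¹).1, h1,
      Matrix.one_mul]
    simp only [Matrix.mul_assoc]
  rw [h3, cl_mul_self, Matrix.mul_smul, Matrix.smul_mul, Matrix.mul_one, h1'] at h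
  have := congrFun (congrFun h (.inl 0)) (.inl 0)
  simp at this
  exact this.symm

/-- The homomorphism `Sp₄ → O₅`, first as matrices. -/
def rhoMat (F : Type*) [Field F] : Matrix.symplecticGroup (Fin 2) F →* Matrix I5 I5 F where
  toFun g := conjMat g.1 (g⁻¹).1
  map_one' := by
    apply ext_mulVec
    intro v
    rw [conjMat_mulVec, inv_one, Matrix.one_mulVec]
    change uncl (1 * cl v * 1) = v
    rw [Matrix.one_mul, Matrix.mul_one, uncl_cl]
  map_mul' g h := by
    apply ext_mulVec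
    intro v
    rw [conjMat_mulVec, ← Matrix.mulVec_mulVec, conjMat_mulVec, conjMat_mulVec, conj_cl_sp,
      _root_.mul_inv_rev]
    change uncl (g.1 * h.1 * cl v * ((h⁻¹).1 * (g⁻¹).1)) = _
    simp only [Matrix.mul_assoc]

/-- The homomorphism `Sp₄ → O₅`. -/
def rho (F : Type*) [Field F] : Matrix.symplecticGroup (Fin 2) F →* O5 F :=
  (rhoMat F).toHomUnits.codRestrict _ (fun g => by
    refine (mem_isometryGroup_iff (Cfsg.quadFormOdd 2 F) _).2 ?_
    intro x
    change Q5 F (conjMat g.1 (g⁻¹).1 *ᵥ x) = Q5 F x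
    rw [conjMat_mulVec, Q5_conj])

theorem rho_mulVec (g : Matrix.symplecticGroup (Fin 2) F) (v : I5 → F) :
    mt (rho F g) *ᵥ v = uncl (g.1 * cl v * (g⁻¹).1) := conjMat_mulVec _ _ _

theorem cl_rho_mulVec (g : Matrix.symplecticGroup (Fin 2) F) (v : I5 → F) :
    cl (mt (rho F g) *ᵥ v) * g.1 = g.1 * cl v := by
  have h1 : (g⁻¹).1 * g.1 = 1 := congrArg Subtype.val (inv_mul_cancel g)
  rw [rho_mulVec, conj_cl_sp, Matrix.mul_assoc, h1, Matrix.mul_one]

/-- characterisation of `rho` -/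
theorem rho_eq_of (g : Matrix.symplecticGroup (Fin 2) F) (T : O5 F)
    (h : ∀ v, cl (mt T *ᵥ v) * g.1 = g.1 * cl v) : rho F g = T := by
  have h1 : g.1 * (g⁻¹).1 = 1 := congrArg Subtype.val (mul_inv_cancel g)
  apply Subtype.ext
  apply Units.ext
  apply ext_mulVec
  intro v
  change mt (rho F g) *ᵥ v = mt T *ᵥ v
  rw [rho_mulVec, ← h v, Matrix.mul_assoc, h1, Matrix.mul_one, uncl_cl]

/-- A matrix commuting with the Clifford space is scalar. -/
theorem eq_smul_one_of_commute (h : Matrix I4 I4 F)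
    (H : ∀ v, cl v * h = h * cl v) : h = h (.inl 0) (.inl 0) • (1 : Matrix I4 I4 F) := by
  have H1 := fun i j => congrFun (congrFun (H (Pi.single (.inr (.inl 0)) 1)) i) j
  have H2 := fun i j => congrFun (congrFun (H (Pi.single (.inr (.inl 1)) 1)) i) j
  have H3 := fun i j => congrFun (congrFun (H (Pi.single (.inr (.inr 0)) 1)) i) j
  have H4 := fun i j => congrFun (congrFun (H (Pi.single (.inr (.inr 1)) 1)) i) j
  clear H
  have b1 := H1 (.inl 0) (.inl 1)
  have b2 := H1 (.inl 0) (.inr 1)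
  have b3 := H1 (.inl 0) (.inl 0)
  have b4 := H1 (.inr 1) (.inr 0)
  have b5 := H1 (.inr 1) (.inr 1)
  have c1 := H2 (.inl 0) (.inr 1)
  have c2 := H2 (.inl 0) (.inl 1)
  have c3 := H2 (.inl 0) (.inl 0)
  have c4 := H2 (.inl 1) (.inl 0)
  have c5 := H2 (.inl 1) (.inl 1)
  have d1 := H3 (.inl 1) (.inl 1)
  have d2 := H3 (.inl 1) (.inr 1)
  have d3 := H3 (.inl 1) (.inr 0)
  have d4 := H3 (.inr 0) (.inr 0)
  have e1 := H4 (.inr 1) (.inr 1)
  have e2 := H4 (.inr 0) (.inr 0)
  have e3 := H4 (.inr 1) (.inr 0)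
  clear H1 H2 H3 H4
  simp [cl_def, Matrix.mul_apply, Fin.sum_univ_two] at b1 b2 b3 b4 b5 c1 c2 c3 c4 c5 d1 d2 d3 d4 e1 e2 e3
  ext i j
  rcases i with i | i <;> rcases j with j | j <;> fin_cases i <;> fin_cases j <;>
    simp [b1, b2, b3, b4, b5, c1, c2, c3, c4, c5, d1, d3, d4, e1, e2]

/-! ### Every isometry comes from a similitude -/

/-- the linear equivalence of an isometry -/
def lin (T : O5 F) : (I5 → F) ≃ₗ[F] (I5 → F) :=
  LinearEquiv.ofLinearMap (Matrix.mulVecLin (mt T)) (Matrix.mulVecLin (mt T⁻¹))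
    (by
      rw [← Matrix.mulVecLin_mul]
      have : mt T * mt T⁻¹ = 1 := Units.mul_inv T.1
      rw [this, Matrix.mulVecLin_one])
    (by
      rw [← Matrix.mulVecLin_mul]
      have : mt T⁻¹ * mt T = 1 := Units.inv_mul T.1
      rw [this, Matrix.mulVecLin_one])

theorem lin_apply (T : O5 F) (v : I5 → F) : lin T v = mt T *ᵥ v := rfl

theorem exists_isometry_extension (T : O5 F) :
    ∃ M : Cfsg.isometryGroup F (⇑(Q6 F)), ∀ v,
      ((M : Matrix.GeneralLinearGroup I6 F) : Matrix I6 I6 F) *ᵥ emb F v = emb F (mt T *ᵥ v) := by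
  set e : (I5 → F) ≃ₗ[F] LinearMap.range (emb F) := LinearEquiv.ofInjective (emb F) emb_injective with he
  set φ : LinearMap.range (emb F) ≃ₗ[F] LinearMap.range (emb F) := e.symm ≪≫ₗ lin T ≪≫ₗ e with hφ
  have hφe : ∀ v, (φ (e v) : I6 → F) = emb F (mt T *ᵥ v) := by
    intro v
    rw [hφ, LinearEquiv.trans_apply, LinearEquiv.trans_apply, LinearEquiv.symm_apply_apply, lin_apply]
    rfl
  obtain ⟨g, hg, hgx⟩ := Cfsg.Agent.ClassicalGeometry.WittQuad.extend (Q6 F) nondegenerate_Q6 _ _ φ (by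
    intro x
    obtain ⟨v, rfl⟩ := e.surjective x
    rw [hφe]
    change Q6 F (emb F (mt T *ᵥ v)) = Q6 F (emb F v)
    rw [Q6_emb, Q6_emb, Q5_mt])
  have h1 : LinearMap.toMatrix' (g : (I6 → F) →ₗ[F] (I6 → F)) *
      LinearMap.toMatrix' (g.symm : (I6 → F) →ₗ[F] (I6 → F)) = 1 := by
    rw [← LinearMap.toMatrix'_comp, LinearEquiv.comp_symm, LinearMap.toMatrix'_id]
  refine ⟨⟨⟨LinearMap.toMatrix' (g : (I6 → F) →ₗ[F] (I6 → F)),
    LinearMap.toMatrix' (g.symm : (I6 → F) →ₗ[F] (I6 → F)), h1, mul_eq_one_comm.1 h1⟩, ?_⟩, ?_⟩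
  · rw [mem_isometryGroup_iff]
    intro x
    change Q6 F (LinearMap.toMatrix' (g : (I6 → F) →ₗ[F] (I6 → F)) *ᵥ x) = Q6 F x
    rw [LinearMap.toMatrix'_mulVec]
    exact hg x
  · intro v
    change LinearMap.toMatrix' (g : (I6 → F) →ₗ[F] (I6 → F)) *ᵥ emb F v = _
    rw [LinearMap.toMatrix'_mulVec]
    exact (hgx (e v)).trans (hφe v)

theorem exists_even_extension (T : O5 F) :
    ∃ M : Matrix I6 I6 F, EvenT M ∧ (∀ w, Q6 F (M *ᵥ w) = Q6 F w) ∧
      ∀ v, M *ᵥ emb F v = emb F (mt T *ᵥ v) := by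
  obtain ⟨M, hM⟩ := exists_isometry_extension T
  have hQ := (mem_isometryGroup_iff _ _).1 M.2
  rcases even_or_odd M with h | h
  · exact ⟨_, h, hQ, hM⟩
  · have hw : Q6 F (wJ F) ≠ 0 := by rw [Q6_wJ]; exact neg_ne_zero.2 one_ne_zero
    refine ⟨_, h.refl_mul (wJ F) hw, fun w => ?_, fun v => ?_⟩
    · rw [← Matrix.mulVec_mulVec, reflectionMatrix_isometry _ _ hw, hQ]
    · rw [← Matrix.mulVec_mulVec, hM,
        reflectionMatrix_mulVec_of_polar_eq_zero _ _ _ (polar_emb_wJ _)]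

theorem exists_intertwiner (T : O5 F) :
    ∃ (g g' : Matrix I4 I4 F) (c : F), g * g' = 1 ∧ c ≠ 0 ∧
      ∀ v, cl (mt T *ᵥ v) * g = c • (g * cl v) := by
  obtain ⟨M, hE, hQ, hM⟩ := exists_even_extension T
  have hpol : ∀ v, polar (⇑(Q6 F)) (M *ᵥ wJ F) (emb F v) = 0 := by
    intro v
    have h1 : mt T *ᵥ (mt T⁻¹ *ᵥ v) = v := by
      rw [Matrix.mulVec_mulVec]
      have : mt T * mt T⁻¹ = 1 := Units.mul_inv T.1
      rw [this, Matrix.one_mulVec]
    rw [← h1, ← hM, polar_mulVec_of_isometry (Q6 F) M hQ]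
    exact polar_emb_wJ _
  have hc := eq_smul_wJ _ hpol
  set c : F := (M *ᵥ wJ F) (.inl 2) with hcdef
  have hc0 : c ≠ 0 := by
    intro h0
    have h1 := hQ (wJ F)
    rw [hc, h0, zero_smul, QuadraticMap.map_zero, Q6_wJ] at h1
    exact neg_ne_zero.2 one_ne_zero h1.symm
  obtain ⟨g, h, g', h', ε, hg, hh, hε, H⟩ := hE
  refine ⟨g, g', c, hg, hc0, fun v => ?_⟩
  have e1 := (H (wJ F)).1
  rw [hc, sk_smul, sk_wJ, Matrix.smul_mul] at e1
  have e2 : Matrix.J (Fin 2) F * h = (c⁻¹ * ε) • (g * Matrix.J (Fin 2) F) := by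
    rw [← smul_smul, ← e1, smul_smul, inv_mul_cancel₀ hc0, one_smul]
  have e3 := (H (emb F v)).1
  rw [hM, sk_emb, sk_emb, Matrix.mul_assoc, e2, Matrix.mul_smul] at e3
  -- cancel J
  have e4 : (c⁻¹ * ε) • (cl (mt T *ᵥ v) * g) = ε • (g * cl v) := by
    have := congrArg (fun X => -(X * Matrix.J (Fin 2) F)) e3
    simp only [Matrix.smul_mul] at this
    rw [Matrix.mul_assoc (cl (mt T *ᵥ v)), Matrix.mul_assoc g, J_mul_J, Matrix.mul_assoc g,
      Matrix.mul_assoc (cl v), J_mul_J] at this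
    simpa using this
  have e5 : (c⁻¹ * ε) ≠ 0 := mul_ne_zero (inv_ne_zero hc0) hε
  have e6 : cl (mt T *ᵥ v) * g = ((c⁻¹ * ε)⁻¹ * ε) • (g * cl v) := by
    rw [← smul_smul, ← e4, smul_smul, inv_mul_cancel₀ e5, one_smul]
  rw [e6]
  congr 1
  field_simp

theorem exists_mem_clifford (T : O5 F) : ∃ x ∈ cliffordSubgroup F, x.1 = T := by
  obtain ⟨g, g', c, hg, hc0, H⟩ := exists_intertwiner T
  have hg' : g' * g = 1 := mul_eq_one_comm.1 hg
  have H' : ∀ v, g' * cl (mt T *ᵥ v) = c • (cl v * g') := by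
    intro v
    calc g' * cl (mt T *ᵥ v) = g' * (cl (mt T *ᵥ v) * g) * g' := by
          rw [Matrix.mul_assoc, Matrix.mul_assoc, hg, Matrix.mul_one]
      _ = c • (g' * g * cl v * g') := by
          rw [H v, Matrix.mul_smul, Matrix.smul_mul]
          simp only [Matrix.mul_assoc]
      _ = _ := by rw [hg', Matrix.one_mul]
  set N : Matrix I4 I4 F := g' * Matrix.J (Fin 2) F * g'ᵀ with hN
  have hcomm : ∀ v, cl v * (N * Matrix.J (Fin 2) F) = (N * Matrix.J (Fin 2) F) * cl v := by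
    intro v
    have e1 : c • (cl v * N) = c • (N * (cl v)ᵀ) := by
      calc c • (cl v * N) = (c • (cl v * g')) * Matrix.J (Fin 2) F * g'ᵀ := by
            rw [hN, Matrix.smul_mul, Matrix.smul_mul]
            simp only [Matrix.mul_assoc]
        _ = g' * (cl (mt T *ᵥ v) * Matrix.J (Fin 2) F) * g'ᵀ := by
            rw [← H' v]; simp only [Matrix.mul_assoc]
        _ = g' * Matrix.J (Fin 2) F * (g' * cl (mt T *ᵥ v))ᵀ := by
            rw [cl_mul_J, Matrix.transpose_mul]; simp only [Matrix.mul_assoc]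
        _ = _ := by
            rw [H' v, Matrix.transpose_smul, Matrix.transpose_mul, Matrix.mul_smul, hN]
            simp only [Matrix.mul_assoc]
    have e2 : cl v * N = N * (cl v)ᵀ := smul_right_injective _ hc0 e1
    have e3 : (cl v)ᵀ * Matrix.J (Fin 2) F = Matrix.J (Fin 2) F * cl v := by
      have := congrArg (fun X => Matrix.J (Fin 2) F * X * Matrix.J (Fin 2) F) (cl_mul_J v)
      simp only [Matrix.mul_assoc, J_mul_J] at this
      rw [← Matrix.mul_assoc (Matrix.J (Fin 2) F) (Matrix.J (Fin 2) F), J_mul_J] at this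
      simpa using this.symm
    rw [← Matrix.mul_assoc, e2, Matrix.mul_assoc, e3, ← Matrix.mul_assoc]
  have hs := eq_smul_one_of_commute _ hcomm
  set s : F := (N * Matrix.J (Fin 2) F) (.inl 0) (.inl 0) with hsdef
  have hN' : N = -s • Matrix.J (Fin 2) F := by
    have := congrArg (fun X => -(X * Matrix.J (Fin 2) F)) hs
    simp only [Matrix.mul_assoc, J_mul_J, Matrix.smul_mul, Matrix.one_mul] at this
    simpa using this
  have hJ : Matrix.J (Fin 2) F = -s • (g * Matrix.J (Fin 2) F * gᵀ) := by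
    calc Matrix.J (Fin 2) F = (g * g') * Matrix.J (Fin 2) F * (g * g')ᵀ := by
          rw [hg, Matrix.transpose_one, Matrix.one_mul, Matrix.mul_one]
      _ = g * N * gᵀ := by
          rw [hN, Matrix.transpose_mul]; simp only [Matrix.mul_assoc]
      _ = _ := by rw [hN', Matrix.mul_smul, Matrix.smul_mul]
  have hs0 : -s ≠ 0 := by
    intro h0
    rw [h0, zero_smul] at hJ
    have := congrFun (congrFun hJ (.inr 0)) (.inl 0)
    simp [Matrix.J] at this
  refine ⟨(T, ⟨g, g', hg, hg'⟩, Units.mk0 (-s)⁻¹ (inv_ne_zero hs0), Units.mk0 c hc0), ⟨H, ?_⟩, rfl⟩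
  change g * Matrix.J (Fin 2) F * gᵀ = (-s)⁻¹ • Matrix.J (Fin 2) F
  conv_rhs => rw [hJ]
  rw [smul_smul, inv_mul_cancel₀ hs0, one_smul]

/-- The commutator subgroup of `O₅` is contained in the image of `Sp₄`. -/
theorem commutator_le_range : commutator (O5 F) ≤ (rho F).range := by
  set f : cliffordSubgroup F →* O5 F :=
    (MonoidHom.fst _ _).comp (cliffordSubgroup F).subtype with hf
  have hsurj : Function.Surjective f := by
    intro T
    obtain ⟨x, hx, hT⟩ := exists_mem_clifford T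
    exact ⟨⟨x, hx⟩, hT⟩
  set p : cliffordSubgroup F →* Fˣ × Fˣ :=
    (MonoidHom.snd _ _).comp ((MonoidHom.snd _ _).comp (cliffordSubgroup F).subtype) with hp
  have hcomm : commutator (cliffordSubgroup F) ≤ p.ker := Abelianization.commutator_subset_ker p
  have hmap : (commutator (cliffordSubgroup F)).map f = commutator (O5 F) := by
    rw [commutator_def, commutator_def, Subgroup.map_commutator,
      ← MonoidHom.range_eq_map, MonoidHom.range_eq_top.2 hsurj]
  rw [← hmap]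
  rintro _ ⟨x, hx, rfl⟩
  have hx' := hcomm hx
  rw [MonoidHom.mem_ker] at hx'
  have hμ : x.1.2.2.1 = 1 := congrArg Prod.fst hx'
  have hε : x.1.2.2.2 = 1 := congrArg Prod.snd hx'
  have h1 := x.2.1
  have h2' := x.2.2
  rw [hε, Units.val_one] at h1
  rw [hμ, Units.val_one, one_smul] at h2'
  refine ⟨⟨(x.1.2.1 : Matrix I4 I4 F), SymplecticGroup.mem_iff.2 h2'⟩, ?_⟩
  apply rho_eq_of
  intro v
  have := h1 v
  rw [one_smul] at this
  exact this

/-! ### Perfectness and the centre -/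

/-- `Sp₄(F)` is perfect for every field with more than two elements. -/
theorem commutator_sp_eq_top (hF : ∃ a : F, a ≠ 0 ∧ a ≠ 1) :
    commutator (Matrix.symplecticGroup (Fin 2) F) = ⊤ := by
  classical
  by_cases ha : ∃ a : F, a ≠ 0 ∧ a ^ 2 ≠ 1
  · obtain ⟨a, ha0, ha1⟩ := ha
    rw [eq_top_iff]
    intro g _
    rw [← Abelianization.ker_of, MonoidHom.mem_ker]
    have hg : g ∈ Subgroup.closure {A : Matrix.symplecticGroup (Fin 2) F |
        ∃ (w : Fin 2 ⊕ Fin 2 → F) (c : F), (A : Matrix (Fin 2 ⊕ Fin 2) (Fin 2 ⊕ Fin 2) F) =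
          Cfsg.sympTransvection 2 w c} := by
      rw [Cfsg.Agent.S0765.result]
      exact Subgroup.mem_top g
    induction hg using Subgroup.closure_induction with
    | mem x hx =>
      obtain ⟨w, c, hx⟩ := hx
      have : x = Cfsg.Agent.ClassicalGeometry.SympBasic.transv w c := Subtype.ext hx
      rw [this]
      by_cases hw : w = 0
      · have h1 : Cfsg.Agent.ClassicalGeometry.SympBasic.transv w c =
            Cfsg.Agent.ClassicalGeometry.SympBasic.transv ((0 : F) • w) c := by rw [zero_smul, hw]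
        rw [h1, Cfsg.Agent.LieClassical.SympPerfect.transv_smul, zero_pow two_ne_zero, zero_mul,
          Cfsg.Agent.LieClassical.SympPerfect.transv_zero, map_one]
      · exact Cfsg.Agent.LieClassical.SympPerfect.map_transv_eq_one_of_sq _ hw ha0 ha1 c
    | one => exact map_one _
    | mul x y _ _ hx hy => rw [map_mul, hx trivial, hy trivial, one_mul]
    | inv x _ hx => rw [map_inv, hx trivial, inv_one]
  · push Not at ha
    have hcases : ∀ a : F, a ∈ ({0, 1, -1} : Finset F) := by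
      intro a
      by_cases h0 : a = 0
      · simp [h0]
      · rcases sq_eq_one_iff.1 (ha a h0) with h | h <;> simp [h]
    have : Fintype F := ⟨{0, 1, -1}, hcases⟩
    refine Cfsg.Agent.LieClassical.SympPerfect.commutator_eq_top (Or.inr (Or.inl ⟨rfl, ?_⟩))
    obtain ⟨a, ha0, ha1⟩ := hF
    have h3 : ({0, 1, a} : Finset F).card = 3 := by
      rw [Finset.card_eq_three]
      exact ⟨0, 1, a, zero_ne_one, ha0.symm, ha1.symm, rfl⟩
    rw [← h3, ← Finset.card_univ]
    exact Finset.card_le_card (Finset.subset_univ _)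

/-- Grün's lemma: a perfect central extension `φ : G → H` induces `H / Z(H) ≃ G / Z(G)`. -/
theorem quotient_center_equiv {G H : Type*} [Group G] [Group H] (φ : G →* H)
    (hs : Function.Surjective φ) (hk : φ.ker ≤ Subgroup.center G) (hp : commutator G = ⊤) :
    Nonempty (H ⧸ Subgroup.center H ≃* G ⧸ Subgroup.center G) := by
  set ψ : G →* H ⧸ Subgroup.center H := (QuotientGroup.mk' (Subgroup.center H)).comp φ with hψ
  have hsurj : Function.Surjective ψ := (QuotientGroup.mk'_surjective _).comp hs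
  have hker : ψ.ker = Subgroup.center G := by
    apply le_antisymm
    · have h1 : ⁅ψ.ker, (⊤ : Subgroup G)⁆ ≤ Subgroup.center G := by
        refine le_trans ?_ hk
        rw [Subgroup.commutator_le]
        intro g hg h _
        rw [MonoidHom.mem_ker, hψ, MonoidHom.comp_apply, QuotientGroup.mk'_apply,
          QuotientGroup.eq_one_iff, Subgroup.mem_center_iff] at hg
        rw [MonoidHom.mem_ker, map_commutatorElement, commutatorElement_eq_one_iff_mul_comm]
        exact (hg (φ h)).symm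
      have h2 : ⁅⁅ψ.ker, (⊤ : Subgroup G)⁆, (⊤ : Subgroup G)⁆ = ⊥ := by
        rw [eq_bot_iff, Subgroup.commutator_le]
        intro g hg h _
        rw [Subgroup.mem_bot, commutatorElement_eq_one_iff_mul_comm]
        exact (Subgroup.mem_center_iff.1 (h1 hg) h).symm
      have h3 : ⁅⁅(⊤ : Subgroup G), ψ.ker⁆, (⊤ : Subgroup G)⁆ = ⊥ := by
        rw [Subgroup.commutator_comm (⊤ : Subgroup G) ψ.ker, h2]
      have h4 : ⁅⁅(⊤ : Subgroup G), (⊤ : Subgroup G)⁆, ψ.ker⁆ = ⊥ :=
        Subgroup.commutator_commutator_eq_bot_of_rotate h3 h2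
      rw [← commutator_def, hp] at h4
      intro g hg
      rw [Subgroup.mem_center_iff]
      intro h
      have h5 : ⁅h, g⁆ ∈ ⁅(⊤ : Subgroup G), ψ.ker⁆ :=
        Subgroup.commutator_mem_commutator (Subgroup.mem_top h) hg
      rw [h4, Subgroup.mem_bot, commutatorElement_eq_one_iff_mul_comm] at h5
      exact h5
    · intro g hg
      rw [MonoidHom.mem_ker, hψ, MonoidHom.comp_apply, QuotientGroup.mk'_apply,
        QuotientGroup.eq_one_iff, Subgroup.mem_center_iff]
      intro x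
      obtain ⟨h, rfl⟩ := hs x
      rw [← map_mul, ← map_mul, Subgroup.mem_center_iff.1 hg h]
  exact ⟨((QuotientGroup.quotientMulEquivOfEq hker.symm).trans
    (QuotientGroup.quotientKerEquivOfSurjective ψ hsurj)).symm⟩

theorem ker_rho_le : (rho F).ker ≤ Subgroup.center (Matrix.symplecticGroup (Fin 2) F) := by
  intro g hg
  rw [MonoidHom.mem_ker] at hg
  have H : ∀ v, cl v * g.1 = g.1 * cl v := by
    intro v
    have := cl_rho_mulVec g v
    rw [hg] at this
    change cl ((1 : Matrix I5 I5 F) *ᵥ v) * g.1 = g.1 * cl v at this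
    rwa [Matrix.one_mulVec] at this
  have hs := eq_smul_one_of_commute _ H
  rw [Subgroup.mem_center_iff]
  intro h
  apply Subtype.ext
  change h.1 * g.1 = g.1 * h.1
  rw [hs]
  simp

/-- The commutator subgroup of `O₅` is the image of `Sp₄`. -/
theorem range_rho (hF : ∃ a : F, a ≠ 0 ∧ a ≠ 1) : (rho F).range = commutator (O5 F) := by
  apply le_antisymm
  · rw [MonoidHom.range_eq_map, ← commutator_sp_eq_top hF, commutator_def, Subgroup.map_commutator]
    exact Subgroup.commutator_mono le_top le_top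
  · exact commutator_le_range

/-- `PΩ₅(F) ≅ PSp₄(F)` for all fields with more than two elements. -/
theorem nonempty_equiv_all (hF : ∃ a : F, a ≠ 0 ∧ a ≠ 1) :
    Nonempty (Cfsg.POmega F (Cfsg.quadFormOdd 2 F) ≃* Cfsg.PSp 2 F) := by
  set φ : Matrix.symplecticGroup (Fin 2) F →* Cfsg.Omega F (Cfsg.quadFormOdd 2 F) :=
    (rho F).codRestrict _ (fun g => by
      have : rho F g ∈ (rho F).range := ⟨g, rfl⟩
      rw [range_rho hF] at this
      exact this) with hφ
  have hs : Function.Surjective φ := by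
    rintro ⟨T, hT⟩
    obtain ⟨g, hg⟩ := commutator_le_range hT
    exact ⟨g, Subtype.ext hg⟩
  have hk : φ.ker ≤ Subgroup.center (Matrix.symplecticGroup (Fin 2) F) := by
    intro g hg
    apply ker_rho_le
    rw [MonoidHom.mem_ker] at hg ⊢
    exact congrArg Subtype.val hg
  exact quotient_center_equiv φ hs hk (commutator_sp_eq_top hF)

end Cfsg.Agent.LieClassical.OmegaFiveAll
end

-- part: S1083
section
set_option autoImplicit false
open Cfsg

namespace Cfsg.Agent.S1083

/-- B₂(F) ≅ PΩ₅(F) for the form `x₀² + x₁y₁ + x₂y₂`, over every field with more than two elements. -/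
theorem result {F : Type*} [Field F] (hF : ∃ a : F, a ≠ 0 ∧ a ≠ 1) :
    Nonempty (↥(Cfsg.Lie.chevB2.group F) ≃* Cfsg.POmega F (Cfsg.quadFormOdd 2 F)) := by
  obtain ⟨e1⟩ := Cfsg.Agent.ChevalleyStructure.B2Sp4.chevB2_equiv_PSp F
  obtain ⟨e2⟩ := Cfsg.Agent.LieClassical.OmegaFiveAll.nonempty_equiv_all hF
  exact ⟨e1.trans e2.symm⟩

end Cfsg.Agent.S1083
end
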