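import Cfsg.Statements.S1084
import Cfsg.Agent.ChevalleyStructure.E6Min.Torus
import Cfsg.Agent.ChevalleyStructure.E6Min.Adjoint
set_option linter.all false

set_option autoImplicit false
open Cfsg

namespace Cfsg.Agent.S1084

/-- E₆ via the 27-dimensional cubic form: for a finite field with at least three elements, (isometries of the cubic form) / centre ≅ the Chevalley group E₆(F). -/
theorem result {F : Type*} [Field F] [Fintype F] (hF : 3 ≤ Fintype.card F) : Nonempty (Cfsg.Lie.E6 F ≃* ↥(Cfsg.Lie.chevE6.group F)) := by
  have h := Cfsg.Agent.ChevalleyStructure.E6Min.Adjoint.quot_center_equiv (F := F)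
  rw [Cfsg.Agent.ChevalleyStructure.E6Min.Torus.Zgrp_eq hF] at h
  exact h

end Cfsg.Agent.S1084
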