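import Cfsg.Statements.S1096
import Cfsg.Agent.ChevalleyStructure.SharpSign
import Cfsg.Agent.S1033
set_option linter.all false

set_option autoImplicit false
open Cfsg

namespace Cfsg.Agent.S1096

open Cfsg.Lie Cfsg.Agent.ChevalleyStructure.Elts Cfsg.Agent.ChevalleyStructure.MonomialNormal
  Cfsg.Agent.ChevalleyStructure.SharpSign

theorem hG_simple_mul {F : Type*} [Field F] {D : ChevalleyDatum} (hD : InList D) {j : ℕ} (hj : j < D.rank) {a b : F}
    (ha : a ≠ 0) (hb : b ≠ 0) : hG hD (D.simple j) a * hG hD (D.simple j) b = hG hD (D.simple j) (a * b) := by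
  apply Units.ext
  rw [Units.val_mul, coe_hG, coe_hG, coe_hG, Cfsg.Agent.S1033.result D hD j hj a ha,
    Cfsg.Agent.S1033.result D hD j hj b hb, Cfsg.Agent.S1033.result D hD j hj (a * b) (mul_ne_zero ha hb),
    Matrix.diagonal_mul_diagonal]
  congr 1
  funext c
  rcases c with c | c
  · simp
  · simp [mul_zpow]

theorem conj_hG {F : Type*} [Field F] {D : ChevalleyDatum} (hD : InList D) {i j : ℕ} (hi : i < D.rank)
    (hj : j < D.rank) (t : F) (ht : t ≠ 0) :
    nG hD (D.simple i) 1 * hG hD (D.simple j) t * (nG hD (D.simple i) 1)⁻¹ =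
      hG hD (D.reflectRoot i (D.simple j)) t := by
  obtain ⟨η, hη, h⟩ := nG_conj hD (sharp (F := F) hD) hi (simple_lt hD j hj)
  have hn : (-1 : F) ≠ 0 := neg_ne_zero.2 one_ne_zero
  rcases hη with rfl | rfl
  · rw [← nG_mul_inv hD (D.reflectRoot i (D.simple j)) t, ← nG_mul_inv hD (D.simple j) t]
    have h1 := h t
    have h2 := h 1
    rw [one_mul] at h1 h2
    rw [← h1, ← h2]
    group
  · have h3 : hG hD (D.simple j) t = nG hD (D.simple j) (-t) * (nG hD (D.simple j) (-1))⁻¹ := by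
      rw [nG_mul_nG_inv, eq_mul_inv_iff_mul_eq, hG_simple_mul hD hj ht hn]
      congr 1
      ring
    have h1 := h (-t)
    have h2 := h (-1)
    rw [neg_one_mul, neg_neg] at h1 h2
    rw [h3, ← nG_mul_inv hD (D.reflectRoot i (D.simple j)) t, ← h1, ← h2]
    group

/-- `n_p h_{p_j}(t) n_p⁻¹ = h_{w_p(p_j)}(t)` for fundamental `p`, `p_j` and `t ≠ 0`, stated as `n_p h_{p_j}(t) = h_{w_p(p_j)}(t) n_p`. -/
theorem result {F : Type*} [Field F] (D : Cfsg.Lie.ChevalleyDatum) (hD : D ∈ [Cfsg.Lie.chevG2, Cfsg.Lie.chevB2, Cfsg.Lie.chevD4, Cfsg.Lie.chevF4, Cfsg.Lie.chevE6, Cfsg.Lie.chevE7, Cfsg.Lie.chevE8]) (i j : ℕ) (hi : i < D.rank) (hj : j < D.rank) (t : F) (ht : t ≠ 0) :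
    D.nMat F (D.simple i) 1 * D.hMat F (D.simple j) t = D.hMat F (D.reflectRoot i (D.simple j)) t * D.nMat F (D.simple i) 1 := by
  have h := conj_hG (F := F) hD hi hj t ht
  rw [mul_inv_eq_iff_eq_mul] at h
  have h' := congrArg (fun g : GL D.Idx F => (g : Matrix D.Idx D.Idx F)) h
  simpa only [Units.val_mul, coe_nG, coe_hG] using h'

end Cfsg.Agent.S1096
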