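import Cfsg.Statements.S1118
import Cfsg.Agent.S1119
set_option linter.all false

set_option autoImplicit false
open Cfsg

namespace Cfsg.Agent.S1118

theorem normalizer_le {G Ω : Type*} [Group G] [MulAction G Ω] {a : Ω} {t : G} {Q : Subgroup G}
    (hS : Cfsg.IsRankOneSetup G Ω a t Q) (X : Set G) (hX : X ⊆ (Q : Set G))
    (hne : ∃ x ∈ X, x ≠ 1) : Subgroup.normalizer X ≤ MulAction.stabilizer G a := by
  intro g hg
  obtain ⟨x, hx, hx1⟩ := hne
  have h1 : g * x * g⁻¹ ∈ X := (hg x).mp hx
  by_contra hga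
  have hga' : g • a ≠ a := fun h => hga h
  have h2 : (g * x * g⁻¹) • (g • a) = g • a := by
    rw [mul_smul, inv_smul_smul, mul_smul, Cfsg.Agent.S1119.smul_a hS (hX hx)]
  have h3 := Cfsg.Agent.S1119.eq_one_of_smul_eq hS hga' (hX h1) h2
  apply hx1
  have : x = g⁻¹ * (g * x * g⁻¹) * g := by group
  rw [this, h3]; group

theorem exists_ne_one {G Ω : Type*} [Group G] [Finite G] [MulAction G Ω] {a : Ω} {t : G}
    {Q : Subgroup G} (hS : Cfsg.IsRankOneSetup G Ω a t Q) : ∃ x ∈ (Q : Set G), x ≠ 1 := by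
  by_contra hcon
  push Not at hcon
  have hQ : Q = ⊥ := by
    rw [eq_bot_iff]
    intro x hx
    exact Subgroup.mem_bot.mpr (hcon x hx)
  have := hS.even_card
  rw [hQ, Subgroup.card_bot] at this
  exact absurd this (by decide)

/-- In the rank-one set-up (`G` finite and doubly transitive on `Ω`, `t` an involution moving `a`, `Q` normal in `G_a` with `G_a = Q D`, `Q ⊓ D = 1` for the two-point stabiliser `D = G_a ⊓ G_{t • a}`, `|Q|` even, `|D|` odd), the normaliser of a subset of `Q` containing a non-identity element lies in `G_a`; consequently `N_G(Q) = N_G(G_a) = G_a`. -/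
theorem result {G Ω : Type*} [Group G] [Finite G] [MulAction G Ω] {a : Ω} {t : G} {Q : Subgroup G}
    (hS : Cfsg.IsRankOneSetup G Ω a t Q) :
    (∀ X : Set G, X ⊆ (Q : Set G) → (∃ x ∈ X, x ≠ 1) → Subgroup.normalizer X ≤ MulAction.stabilizer G a) ∧
      Subgroup.normalizer (Q : Set G) = MulAction.stabilizer G a ∧
      Subgroup.normalizer (MulAction.stabilizer G a : Set G) = MulAction.stabilizer G a := by
  refine ⟨fun X hX hne => normalizer_le hS X hX hne, ?_, ?_⟩
  · apply le_antisymm (normalizer_le hS _ (le_refl _) (exists_ne_one hS))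
    intro g hg x
    constructor
    · intro hx
      exact hS.conj_mem g hg x hx
    · intro hx
      have := hS.conj_mem g⁻¹ (inv_mem hg) _ hx
      simpa [mul_assoc] using this
  · apply le_antisymm _ Subgroup.le_normalizer
    intro g hg
    by_contra hga
    have hga' : g • a ≠ a := fun h => hga h
    obtain ⟨x, hx, hx1⟩ := exists_ne_one hS
    -- `x ∈ Q ≤ G_a`, so `g x g⁻¹ ∈ G_a`... use `g⁻¹`
    have hinv : g⁻¹ ∈ Subgroup.normalizer (MulAction.stabilizer G a : Set G) := inv_mem hg
    have hga'' : g⁻¹ • a ≠ a := by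
      intro h
      exact hga' (by rw [inv_smul_eq_iff] at h; exact h.symm)
    have h1 : g * x * g⁻¹ ∈ MulAction.stabilizer G a := (hg x).mp (hS.le hx)
    have h2 : x • (g⁻¹ • a) = g⁻¹ • a := by
      have h3 : (g * x * g⁻¹) • a = a := h1
      rw [mul_smul, mul_smul] at h3
      rw [eq_inv_smul_iff, h3]
    exact hx1 (Cfsg.Agent.S1119.eq_one_of_smul_eq hS hga'' hx h2)

end Cfsg.Agent.S1118
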