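import Cfsg.Statements.S1133
import Cfsg.Agent.S1122
import Cfsg.Agent.S1123
import Cfsg.Agent.S1127
import Cfsg.Agent.S1128
import Cfsg.Agent.S1130
import Cfsg.Agent.S1131
import Cfsg.Agent.LieRecognition.FieldSemilinear
set_option linter.all false

set_option autoImplicit false
open Cfsg

namespace Cfsg.Agent.S1133

/-- In the rank-one set-up (`G` finite and doubly transitive on `Ω`, `t` an involution moving `a`, `Q` normal in `G_a` with `G_a = Q D`, `Q ⊓ D = 1` for the two-point stabiliser `D = G_a ⊓ G_{t • a}`, `|Q|` even, `|D|` odd), with the action faithful and `G` containing two distinct commuting involutions, with `V = C_D(t)`, `K` the elements of `D` inverted by `t` and `W = C_V(K)`: `V/W` is cyclic, i.e. `V = W ⟨v⟩` for some `v ∈ V`. -/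
theorem result {G Ω : Type*} [Group G] [Finite G] [MulAction G Ω] [FaithfulSMul G Ω] {a : Ω} {t : G} {Q : Subgroup G}
    (hS : Cfsg.IsRankOneSetup G Ω a t Q)
    (h2 : ∃ x y : G, x ≠ 1 ∧ y ≠ 1 ∧ x ≠ y ∧ x * x = 1 ∧ y * y = 1 ∧ x * y = y * x) :
    ∃ v ∈ (MulAction.stabilizer G a ⊓ MulAction.stabilizer G (t • a)) ⊓ Subgroup.centralizer {t},
      ((MulAction.stabilizer G a ⊓ MulAction.stabilizer G (t • a)) ⊓ Subgroup.centralizer {t} ⊓ Subgroup.centralizer (Cfsg.invertedBy (MulAction.stabilizer G a ⊓ MulAction.stabilizer G (t • a)) t)) ⊔ Subgroup.closure {v} =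
        (MulAction.stabilizer G a ⊓ MulAction.stabilizer G (t • a)) ⊓ Subgroup.centralizer {t} := by
  classical
  obtain ⟨C, hC, hCcyc, hCnorm⟩ := Cfsg.Agent.S1131.result hS h2
  obtain ⟨hcent, hclosed⟩ := Cfsg.Agent.S1130.result hS h2
  obtain ⟨⟨s, r⟩, ⟨hs, hr, hsr⟩, -⟩ := Cfsg.Agent.S1123.result hS
  simp only at hs hr hsr
  obtain ⟨h127a, h127b⟩ := Cfsg.Agent.S1127.result hS
  have hVs := h127a s r hs hr hsr
  have htrans := (Cfsg.Agent.S1122.result hS).2
  set A := MulAction.stabilizer G a with hA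
  set D := MulAction.stabilizer G a ⊓ MulAction.stabilizer G (t • a) with hD
  have hDA : ∀ x : G, x ∈ D → x ∈ A := fun x hx => (Subgroup.mem_inf.1 hx).1
  have hCD : ∀ c : G, c ∈ C → c ∈ D := by
    intro c hc
    have : c ∈ (C : Set G) := hc
    rw [hC] at this
    exact this.1
  -- the elementary abelian group of involutions
  let E : Subgroup G :=
    { carrier := {x | x ∈ A ∧ x * x = 1}
      one_mem' := ⟨A.one_mem, one_mul 1⟩
      mul_mem' := by
        rintro x y ⟨hxA, hx2⟩ ⟨hyA, hy2⟩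
        by_cases hx1 : x = 1
        · subst hx1; simpa using ⟨hyA, hy2⟩
        by_cases hy1 : y = 1
        · subst hy1; simpa using ⟨hxA, hx2⟩
        rcases hclosed x ⟨hxA, hx1, hx2⟩ y ⟨hyA, hy1, hy2⟩ with h | h
        · exact ⟨A.mul_mem hxA hyA, by rw [h, one_mul]⟩
        · exact ⟨A.mul_mem hxA hyA, h.2.2⟩
      inv_mem' := by
        rintro x ⟨hxA, hx2⟩
        refine ⟨A.inv_mem hxA, ?_⟩
        rw [← mul_inv_rev, hx2, inv_one] }
  have hEmem : ∀ x : G, x ∈ E ↔ x ∈ A ∧ x * x = 1 := fun x => Iff.rfl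
  have hEinv : ∀ x : G, x ∈ E → x ≠ 1 → x ∈ Cfsg.involutionsIn (A : Set G) :=
    fun x hx hx1 => ⟨hx.1, hx1, hx.2⟩
  letI : CommGroup E :=
    { (inferInstance : Group E) with
      mul_comm := by
        rintro ⟨x, hx⟩ ⟨y, hy⟩
        apply Subtype.ext
        show x * y = y * x
        have hxy : (x * y) * (x * y) = 1 := (E.mul_mem hx hy).2
        have hxi : x⁻¹ = x := inv_eq_of_mul_eq_one_left hx.2
        have hyi : y⁻¹ = y := inv_eq_of_mul_eq_one_left hy.2
        calc x * y = (x * y)⁻¹ := (inv_eq_of_mul_eq_one_left hxy).symm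
          _ = y * x := by rw [mul_inv_rev, hxi, hyi] }
  have hconj : ∀ g : G, g ∈ A → ∀ x : G, x ∈ E → g * x * g⁻¹ ∈ E := by
    rintro g hg x ⟨hxA, hx2⟩
    refine ⟨A.mul_mem (A.mul_mem hg hxA) (A.inv_mem hg), ?_⟩
    calc g * x * g⁻¹ * (g * x * g⁻¹) = g * (x * x) * g⁻¹ := by group
      _ = 1 := by rw [hx2]; group
  letI actA : DistribMulAction A (Additive E) :=
    { smul := fun g x => Additive.ofMul ⟨(g : G) * ((Additive.toMul x : E) : G) * (g : G)⁻¹,
        hconj g g.2 _ (Additive.toMul x).2⟩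
      one_smul := by
        intro x
        apply Additive.toMul.injective
        apply Subtype.ext
        show ((1 : A) : G) * ((Additive.toMul x : E) : G) * ((1 : A) : G)⁻¹ = ((Additive.toMul x : E) : G)
        simp
      mul_smul := by
        intro g h x
        apply Additive.toMul.injective
        apply Subtype.ext
        show ((g * h : A) : G) * ((Additive.toMul x : E) : G) * ((g * h : A) : G)⁻¹ =
          (g : G) * ((h : G) * ((Additive.toMul x : E) : G) * (h : G)⁻¹) * (g : G)⁻¹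
        rw [Subgroup.coe_mul]; group
      smul_zero := by
        intro g
        apply Additive.toMul.injective
        apply Subtype.ext
        show (g : G) * ((1 : E) : G) * (g : G)⁻¹ = ((1 : E) : G)
        simp
      smul_add := by
        intro g x y
        apply Additive.toMul.injective
        apply Subtype.ext
        show (g : G) * (((Additive.toMul x : E) : G) * ((Additive.toMul y : E) : G)) * (g : G)⁻¹ =
          ((g : G) * ((Additive.toMul x : E) : G) * (g : G)⁻¹) * ((g : G) * ((Additive.toMul y : E) : G) * (g : G)⁻¹)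
        group }
  have hsmul : ∀ (g : A) (x : Additive E), ((Additive.toMul (g • x) : E) : G) =
      (g : G) * ((Additive.toMul x : E) : G) * (g : G)⁻¹ := fun g x => rfl
  have hext : ∀ x y : Additive E, ((Additive.toMul x : E) : G) = ((Additive.toMul y : E) : G) → x = y :=
    fun x y h => Additive.toMul.injective (Subtype.ext h)
  set V := D ⊓ Subgroup.centralizer {t} with hV
  have hVA : V ≤ A := fun v hv => hDA v (Subgroup.mem_inf.1 hv).1
  have hCA : C ≤ A := fun c hc => hDA c (hCD c hc)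
  letI actC : DistribMulAction C (Additive E) := DistribMulAction.compHom _ (Subgroup.inclusion hCA)
  letI actV : DistribMulAction V (Additive E) := DistribMulAction.compHom _ (Subgroup.inclusion hVA)
  have hsmulC : ∀ (g : C) (x : Additive E), ((Additive.toMul (g • x) : E) : G) =
      (g : G) * ((Additive.toMul x : E) : G) * (g : G)⁻¹ := fun g x => rfl
  have hsmulV : ∀ (g : V) (x : Additive E), ((Additive.toMul (g • x) : E) : G) =
      (g : G) * ((Additive.toMul x : E) : G) * (g : G)⁻¹ := fun g x => rfl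
  let e0 : Additive E := Additive.ofMul ⟨s, hs.1, hs.2.2⟩
  have he0 : ((Additive.toMul e0 : E) : G) = s := rfl
  have hne : ∀ x : Additive E, x ≠ 0 → ((Additive.toMul x : E) : G) ≠ 1 := by
    intro x hx h
    exact hx (hext x 0 h)
  have h0 : e0 ≠ 0 := by
    intro h
    exact hs.2.1 (congrArg (fun x : Additive E => ((Additive.toMul x : E) : G)) h)
  have hcomm : ∀ c d : C, c * d = d * c := by
    letI := IsCyclic.commGroup (α := C)
    exact fun c d => mul_comm c d
  have hreg : ∀ x : Additive E, x ≠ 0 → ∃ k : C, k • e0 = x := by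
    intro x hx
    obtain ⟨k, hk, hks⟩ := htrans s hs _ (hEinv _ (Additive.toMul x).2 (hne x hx))
    have hkC : k ∈ C := by
      have : k ∈ (C : Set G) := by rw [hC]; exact hk
      exact this
    refine ⟨⟨k⁻¹, C.inv_mem hkC⟩, hext _ _ ?_⟩
    rw [hsmulC, he0]
    show k⁻¹ * s * (k⁻¹)⁻¹ = _
    rw [inv_inv, hks]
  have hinj : ∀ k l : C, k • e0 = l • e0 → k = l := by
    intro k l hkl
    by_contra hne'
    have h1 : ((Additive.toMul (k • e0) : E) : G) = ((Additive.toMul (l • e0) : E) : G) := by rw [hkl]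
    rw [hsmulC, hsmulC, he0] at h1
    have h3 : (l : G)⁻¹ * (k : G) ∈ C := C.mul_mem (C.inv_mem l.2) k.2
    have h4 : (l : G)⁻¹ * (k : G) ∈ Cfsg.invertedBy D t := by
      have : (l : G)⁻¹ * (k : G) ∈ (C : Set G) := h3
      rwa [hC] at this
    have h5 : (l : G)⁻¹ * (k : G) ≠ 1 := by
      intro h
      apply hne'
      apply Subtype.ext
      have : (l : G) * ((l : G)⁻¹ * (k : G)) = (l : G) * 1 := by rw [h]
      simpa using this
    have h6 := Cfsg.Agent.S1128.result hS h2 _ h4 h5
    have h7 : s ∈ Q ⊓ Subgroup.centralizer {(l : G)⁻¹ * (k : G)} := by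
      refine Subgroup.mem_inf.2 ⟨(hcent s hs).1, ?_⟩
      rw [Subgroup.mem_centralizer_singleton_iff]
      have h8 : (k : G) * s = ((l : G) * s * (l : G)⁻¹) * (k : G) := by
        rw [← h1]; group
      calc s * ((l : G)⁻¹ * (k : G)) = (l : G)⁻¹ * (((l : G) * s * (l : G)⁻¹) * (k : G)) := by group
        _ = (l : G)⁻¹ * ((k : G) * s) := by rw [← h8]
        _ = (l : G)⁻¹ * (k : G) * s := by group
    rw [h6] at h7
    exact hs.2.1 (Subgroup.mem_bot.1 h7)
  have hnorm : ∀ (v : V) (k : C), ∃ k' : C, ∀ x : Additive E, v • k • x = k' • v • x := by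
    intro v k
    refine ⟨⟨(v : G) * (k : G) * (v : G)⁻¹, hCnorm v (Subgroup.mem_inf.1 v.2).1 k k.2⟩, fun x => hext _ _ ?_⟩
    rw [hsmulV, hsmulC, hsmulC, hsmulV]
    show _ = ((v : G) * (k : G) * (v : G)⁻¹) * _ * ((v : G) * (k : G) * (v : G)⁻¹)⁻¹
    group
  have hfix : ∀ v : V, v • e0 = e0 := by
    intro v
    apply hext
    rw [hsmulV, he0]
    have : (v : G) ∈ D ⊓ Subgroup.centralizer {s} := by rw [← hVs]; exact v.2
    have h3 := Subgroup.mem_centralizer_singleton_iff.1 (Subgroup.mem_inf.1 this).2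
    rw [h3]; group
  obtain ⟨v0, hv0⟩ := LieRecognition.FieldSemilinear.exists_generator e0 h0 hcomm hreg hinj hnorm hfix
  refine ⟨v0, v0.2, le_antisymm ?_ ?_⟩
  · refine sup_le inf_le_left ?_
    rw [Subgroup.closure_le]
    rintro x rfl
    exact v0.2
  · intro v hv
    obtain ⟨n, hn⟩ := hv0 ⟨v, hv⟩
    have hw : v * (v0 : G) ^ n ∈ D ⊓ Subgroup.centralizer {t} ⊓ Subgroup.centralizer (Cfsg.invertedBy D t) := by
      rw [h127b]
      refine Subgroup.mem_inf.2 ⟨?_, ?_⟩
      · exact D.mul_mem (Subgroup.mem_inf.1 hv).1 (D.zpow_mem (Subgroup.mem_inf.1 v0.2).1 n)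
      · rw [Subgroup.mem_centralizer_iff]
        intro u hu
        have h3 := hn (Additive.ofMul ⟨u, hu.1, hu.2.2⟩)
        have h4 := congrArg (fun x : Additive E => ((Additive.toMul x : E) : G)) h3
        simp only [hsmulV] at h4
        have h5 : (v * (v0 : G) ^ n) * u * (v * (v0 : G) ^ n)⁻¹ = u := by
          simpa using h4
        calc u * (v * (v0 : G) ^ n) = (v * (v0 : G) ^ n) * u * (v * (v0 : G) ^ n)⁻¹ * (v * (v0 : G) ^ n) := by
              rw [h5]
          _ = v * (v0 : G) ^ n * u := by group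
    have hv0c : ((v0 : G) ^ n)⁻¹ ∈ Subgroup.closure {(v0 : G)} :=
      Subgroup.inv_mem _ (Subgroup.zpow_mem _ (Subgroup.subset_closure (Set.mem_singleton (v0 : G))) n)
    have hfin := Subgroup.mul_mem_sup hw hv0c
    have hveq : (v * (v0 : G) ^ n) * ((v0 : G) ^ n)⁻¹ = v := by group
    rw [hveq] at hfin
    exact hfin

end Cfsg.Agent.S1133
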