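import Cfsg.Statements.S1134
import Cfsg.Agent.S1119
import Cfsg.Agent.S1123
import Cfsg.Agent.S1125
set_option linter.all false

set_option autoImplicit false
open Cfsg

namespace Cfsg.Agent.S1134

/-- `t` normalises the two-point stabiliser `D`. -/
theorem conj_mem_D {G Ω : Type*} [Group G] [MulAction G Ω] {a : Ω} {t : G} (ht : t * t = 1) {x : G}
    (hx : x ∈ MulAction.stabilizer G a ⊓ MulAction.stabilizer G (t • a)) :
    t * x * t ∈ MulAction.stabilizer G a ⊓ MulAction.stabilizer G (t • a) := by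
  rw [Subgroup.mem_inf, MulAction.mem_stabilizer_iff, MulAction.mem_stabilizer_iff] at hx ⊢
  constructor
  · rw [mul_smul, mul_smul, hx.2, ← mul_smul, ht, one_smul]
  · rw [mul_smul, ← mul_smul t t a, ht, one_smul, mul_smul, hx.1]

/-- Dihedral conjugacy: if `z = t * t'` has odd order and `t`, `t'` are involutions, then some power `w` of `z`
conjugates `t` to `t'`. -/
theorem exists_pow_conj {G : Type*} [Group G] {t t' : G} (ht : t * t = 1) (ht' : t' * t' = 1)
    (hodd : Odd (orderOf (t * t'))) :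
    ∃ n : ℕ, ((t * t') ^ n)⁻¹ * t * (t * t') ^ n = t' := by
  obtain ⟨k, hk⟩ := hodd
  refine ⟨k + 1, ?_⟩
  have htinv : t⁻¹ = t := inv_eq_of_mul_eq_one_left ht
  have htinv' : t'⁻¹ = t' := inv_eq_of_mul_eq_one_left ht'
  have hinv : ∀ n : ℕ, t * (t * t') ^ n * t = ((t * t') ^ n)⁻¹ := by
    intro n
    induction n with
    | zero => simp [ht]
    | succ n ih =>
      rw [pow_succ, mul_inv_rev, ← ih, mul_inv_rev, htinv, htinv']
      have : t * ((t * t') ^ n * (t * t')) * t = (t * (t * t') ^ n * t) * (t * (t * t') * t) := by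
        calc t * ((t * t') ^ n * (t * t')) * t = t * (t * t') ^ n * 1 * (t * t') * t := by group
          _ = t * (t * t') ^ n * (t * t) * (t * t') * t := by rw [ht]
          _ = _ := by group
      rw [this, ih]
      have h2 : t * (t * t') * t = t' * t := by
        calc t * (t * t') * t = (t * t) * t' * t := by group
          _ = t' * t := by rw [ht, one_mul]
      rw [h2]
      -- ((tt')^n)⁻¹ * (t' t) = t' t * ((tt')^n)⁻¹
      have h3 : t' * t = (t * t')⁻¹ := by rw [mul_inv_rev, htinv, htinv']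
      rw [h3]
      exact ((Commute.refl (t * t')).pow_left n).inv_inv.eq
  have h1 : t * (t * t') ^ (k + 1) = ((t * t') ^ (k + 1))⁻¹ * t := by
    rw [← hinv (k + 1), mul_assoc, ht, mul_one]
  have h2 : ((t * t') ^ (k + 1))⁻¹ * ((t * t') ^ (k + 1))⁻¹ = (t * t')⁻¹ := by
    rw [← mul_inv_rev, ← pow_add]
    congr 1
    have : k + 1 + (k + 1) = (2 * k + 1) + 1 := by ring
    rw [this, ← hk, pow_succ, pow_orderOf_eq_one, one_mul]
  rw [mul_assoc, h1, ← mul_assoc, h2, mul_inv_rev, htinv, htinv', mul_assoc, ht, mul_one]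

/-- In the rank-one set-up (`G` finite and doubly transitive on `Ω`, `t` an involution moving `a`, `Q` normal in `G_a` with `G_a = Q D`, `Q ⊓ D = 1` for the two-point stabiliser `D = G_a ⊓ G_{t • a}`, `|Q|` even, `|D|` odd), with the action faithful and `G` containing two distinct commuting involutions, with `V = C_D(t)`: subsets of `V` conjugate in `G` are conjugate in `V`. -/
theorem result {G Ω : Type*} [Group G] [Finite G] [MulAction G Ω] [FaithfulSMul G Ω] {a : Ω} {t : G} {Q : Subgroup G}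
    (hS : Cfsg.IsRankOneSetup G Ω a t Q)
    (h2 : ∃ x y : G, x ≠ 1 ∧ y ≠ 1 ∧ x ≠ y ∧ x * x = 1 ∧ y * y = 1 ∧ x * y = y * x)
    (X : Set G) (hX : X ⊆ (((MulAction.stabilizer G a ⊓ MulAction.stabilizer G (t • a)) ⊓ Subgroup.centralizer {t} : Subgroup G) : Set G)) (g : G)
    (hY : (fun x => g * x * g⁻¹) '' X ⊆ (((MulAction.stabilizer G a ⊓ MulAction.stabilizer G (t • a)) ⊓ Subgroup.centralizer {t} : Subgroup G) : Set G)) :
    ∃ v ∈ (MulAction.stabilizer G a ⊓ MulAction.stabilizer G (t • a)) ⊓ Subgroup.centralizer {t}, (fun x => v * x * v⁻¹) '' X = (fun x => g * x * g⁻¹) '' X := by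
  have ht := hS.mul_self
  have htinv : t⁻¹ = t := inv_eq_of_mul_eq_one_left ht
  have hta : t • a ≠ a := fun h => hS.not_mem (MulAction.mem_stabilizer_iff.2 h)
  -- membership in V
  have hV : ∀ v : G, v ∈ (((MulAction.stabilizer G a ⊓ MulAction.stabilizer G (t • a)) ⊓ Subgroup.centralizer {t} : Subgroup G)) ↔
      (v ∈ MulAction.stabilizer G a ⊓ MulAction.stabilizer G (t • a)) ∧ t * v = v * t := by
    intro v
    rw [Subgroup.mem_inf, Subgroup.mem_centralizer_singleton_iff]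
    constructor
    · rintro ⟨h1, h2⟩; exact ⟨h1, h2.symm⟩
    · rintro ⟨h1, h2⟩; exact ⟨h1, h2.symm⟩
  -- the distinguished involution
  obtain ⟨⟨s, r⟩, ⟨hs, hr, hsr⟩, huniq⟩ := Cfsg.Agent.S1123.result hS
  simp only at hs hr hsr
  have hVs : ∀ v : G, v ∈ (((MulAction.stabilizer G a ⊓ MulAction.stabilizer G (t • a)) ⊓ Subgroup.centralizer {t} : Subgroup G)) →
      v * s * v⁻¹ = s := by
    intro v hv
    obtain ⟨hvD, hvt⟩ := (hV v).1 hv
    have hva : v ∈ MulAction.stabilizer G a := (Subgroup.mem_inf.1 hvD).1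
    have := huniq (v * s * v⁻¹, v * r * v⁻¹) ⟨⟨?_, ?_, ?_⟩, ?_, ?_⟩
    · simpa using congrArg Prod.fst this
    · exact (MulAction.stabilizer G a).mul_mem ((MulAction.stabilizer G a).mul_mem hva hs.1)
        ((MulAction.stabilizer G a).inv_mem hva)
    · intro h
      apply hs.2.1
      have : v⁻¹ * (v * s * v⁻¹) * v = v⁻¹ * 1 * v := by
        simp only at h
        rw [h]
      simpa [mul_assoc] using this
    · have h := hs.2.2
      show v * s * v⁻¹ * (v * s * v⁻¹) = 1
      calc v * s * v⁻¹ * (v * s * v⁻¹) = v * (s * s) * v⁻¹ := by group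
        _ = 1 := by rw [h]; group
    · exact hS.conj_mem v hva r hr
    · show t * (v * s * v⁻¹) * t = (v * r * v⁻¹)⁻¹ * t * (v * r * v⁻¹)
      have hvt' : v⁻¹ * t = t * v⁻¹ := by
        have : v⁻¹ * (t * v) * v⁻¹ = v⁻¹ * (v * t) * v⁻¹ := by rw [hvt]
        simpa [mul_assoc] using this
      calc t * (v * s * v⁻¹) * t = (t * v) * s * (v⁻¹ * t) := by group
        _ = v * (t * s * t) * v⁻¹ := by rw [hvt, hvt']; group
        _ = v * (r⁻¹ * t * r) * v⁻¹ := by rw [hsr]
        _ = v * r⁻¹ * (v⁻¹ * v) * t * (v⁻¹ * v) * r * v⁻¹ := by group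
        _ = v * r⁻¹ * v⁻¹ * (v * t) * v⁻¹ * v * r * v⁻¹ := by group
        _ = v * r⁻¹ * v⁻¹ * (t * v) * v⁻¹ * v * r * v⁻¹ := by rw [hvt]
        _ = (v * r * v⁻¹)⁻¹ * t * (v * r * v⁻¹) := by group
  -- s moves t • a
  have hreg := (Cfsg.Agent.S1119.result hS).1
  have hsa : s • a = a := MulAction.mem_stabilizer_iff.1 hs.1
  have hsb : s • (t • a) ≠ t • a := by
    intro h
    have hsD : s ∈ MulAction.stabilizer G a ⊓ MulAction.stabilizer G (t • a) :=
      Subgroup.mem_inf.2 ⟨hs.1, MulAction.mem_stabilizer_iff.2 h⟩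
    have hodd := hS.odd_card
    have h2' : orderOf s = 2 := by
      apply orderOf_eq_prime
      · rw [pow_two]; exact hs.2.2
      · exact hs.2.1
    have hdvd : orderOf (⟨s, hsD⟩ : ↥(MulAction.stabilizer G a ⊓ MulAction.stabilizer G (t • a))) ∣
        Nat.card ↥(MulAction.stabilizer G a ⊓ MulAction.stabilizer G (t • a)) := orderOf_dvd_natCard _
    rw [Subgroup.orderOf_mk, h2'] at hdvd
    exact (Nat.not_even_iff_odd.2 hodd) (even_iff_two_dvd.2 hdvd)
  have hsb' : s • (t • a) ≠ a := by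
    intro h
    apply hta
    have : s • s • (t • a) = s • a := by rw [h]
    rw [← mul_smul, hs.2.2, one_smul, hsa] at this
    exact this
  -- elements of V fix a, t • a, s • t • a
  have hfix : ∀ v : G, v ∈ (((MulAction.stabilizer G a ⊓ MulAction.stabilizer G (t • a)) ⊓ Subgroup.centralizer {t} : Subgroup G)) →
      v • a = a ∧ v • (t • a) = t • a ∧ v • (s • (t • a)) = s • (t • a) := by
    intro v hv
    obtain ⟨hvD, hvt⟩ := (hV v).1 hv
    obtain ⟨h1, h2⟩ := Subgroup.mem_inf.1 hvD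
    have h1' := MulAction.mem_stabilizer_iff.1 h1
    have h2' := MulAction.mem_stabilizer_iff.1 h2
    refine ⟨h1', h2', ?_⟩
    have hvs : v * s = s * v := by
      have := hVs v hv
      calc v * s = v * s * v⁻¹ * v := by group
        _ = s * v := by rw [this]
    rw [← mul_smul, hvs, mul_smul, h2']
  set Y : Set G := (fun x => g * x * g⁻¹) '' X with hYdef
  have hYD : Y ⊆ ((MulAction.stabilizer G a ⊓ MulAction.stabilizer G (t • a)) : Set G) := by
    intro y hy
    exact (Subgroup.mem_inf.1 (hY hy)).1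
  have h3 : ∃ b c d : Ω, b ≠ c ∧ b ≠ d ∧ c ≠ d ∧ ∀ x ∈ Y, x • b = b ∧ x • c = c ∧ x • d = d :=
    ⟨a, t • a, s • (t • a), hta.symm, hsb'.symm, hsb.symm, fun x hx => hfix x (hY hx)⟩
  obtain ⟨h2t, -, -⟩ := Cfsg.Agent.S1125.result hS Y hYD h3
  have hgY : ∀ y ∈ Y, y • (g • a) = g • a ∧ y • (g • (t • a)) = g • (t • a) := by
    rintro y ⟨x, hx, rfl⟩
    obtain ⟨h1, h2, -⟩ := hfix x (hX hx)
    constructor
    · simp only [mul_smul, inv_smul_smul, h1]
    · simp only [mul_smul, inv_smul_smul, h2]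
  obtain ⟨c, hcY, hca, hcta⟩ := h2t (g • a) (g • (t • a)) a (t • a)
    (fun x hx => ⟨(hgY x hx).1, (hgY x hx).2, (hfix x (hY hx)).1, (hfix x (hY hx)).2.1⟩)
    (fun h => hta.symm ((MulAction.injective g) h)) hta.symm
  -- d = c g
  set d : G := c * g with hd
  have hdD : d ∈ MulAction.stabilizer G a ⊓ MulAction.stabilizer G (t • a) := by
    rw [Subgroup.mem_inf, MulAction.mem_stabilizer_iff, MulAction.mem_stabilizer_iff, hd, mul_smul, mul_smul]
    exact ⟨hca, hcta⟩
  have hdx : ∀ x ∈ X, d * x * d⁻¹ = g * x * g⁻¹ := by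
    intro x hx
    have hc := Subgroup.mem_centralizer_iff.1 hcY (g * x * g⁻¹) ⟨x, hx, rfl⟩
    calc d * x * d⁻¹ = c * (g * x * g⁻¹) * c⁻¹ := by rw [hd]; group
      _ = (g * x * g⁻¹) * c * c⁻¹ := by rw [hc]
      _ = g * x * g⁻¹ := by group
  -- t' = d⁻¹ t d
  set t' : G := d⁻¹ * t * d with ht'
  have ht'2 : t' * t' = 1 := by
    calc t' * t' = d⁻¹ * (t * t) * d := by rw [ht']; group
      _ = 1 := by rw [ht]; group
  have hzD : t * t' ∈ MulAction.stabilizer G a ⊓ MulAction.stabilizer G (t • a) := by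
    have h1 := conj_mem_D (G := G) (Ω := Ω) (a := a) ht ((MulAction.stabilizer G a ⊓ MulAction.stabilizer G (t • a)).inv_mem hdD)
    have : t * t' = (t * d⁻¹ * t) * d := by rw [ht']; group
    rw [this]
    exact Subgroup.mul_mem _ h1 hdD
  have hzodd : Odd (orderOf (t * t')) := by
    have hdvd : orderOf (⟨t * t', hzD⟩ : ↥(MulAction.stabilizer G a ⊓ MulAction.stabilizer G (t • a))) ∣
        Nat.card ↥(MulAction.stabilizer G a ⊓ MulAction.stabilizer G (t • a)) := orderOf_dvd_natCard _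
    rw [Subgroup.orderOf_mk] at hdvd
    exact Odd.of_dvd_nat hS.odd_card hdvd
  obtain ⟨n, hn⟩ := exists_pow_conj ht ht'2 hzodd
  set w : G := (t * t') ^ n with hw
  have hwD : w ∈ MulAction.stabilizer G a ⊓ MulAction.stabilizer G (t • a) := Subgroup.pow_mem _ hzD n
  -- w centralises X
  have hzX : ∀ x ∈ X, Commute (t * t') x := by
    intro x hx
    have h1 : t * x = x * t := ((hV x).1 (hX hx)).2
    have h2 : t * (g * x * g⁻¹) = (g * x * g⁻¹) * t := ((hV _).1 (hY ⟨x, hx, rfl⟩)).2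
    have h3 : t' * x = x * t' := by
      have hdx' := hdx x hx
      calc t' * x = d⁻¹ * (t * (d * x * d⁻¹)) * d := by rw [ht']; group
        _ = d⁻¹ * ((d * x * d⁻¹) * t) * d := by rw [hdx', h2]
        _ = x * t' := by rw [ht']; group
    have c1 : Commute t x := h1
    have c2 : Commute t' x := h3
    exact c1.mul_left c2
  have hwX : ∀ x ∈ X, w * x = x * w := fun x hx => ((hzX x hx).pow_left n).eq
  refine ⟨d * w⁻¹, ?_, ?_⟩
  · rw [hV]
    refine ⟨Subgroup.mul_mem _ hdD (Subgroup.inv_mem _ hwD), ?_⟩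
    -- t d w⁻¹ = d w⁻¹ t
    have h1 : t * d = d * t' := by rw [ht']; group
    have h2 : t' = w⁻¹ * t * w := hn.symm
    calc t * (d * w⁻¹) = (t * d) * w⁻¹ := by group
      _ = d * (w⁻¹ * t * w) * w⁻¹ := by rw [h1, h2]
      _ = d * w⁻¹ * t := by group
  · apply Set.image_congr
    intro x hx
    have hwx := hwX x hx
    calc d * w⁻¹ * x * (d * w⁻¹)⁻¹ = d * (w⁻¹ * (x * w)) * d⁻¹ := by group
      _ = d * (w⁻¹ * (w * x)) * d⁻¹ := by rw [hwx]
      _ = d * x * d⁻¹ := by group
      _ = g * x * g⁻¹ := hdx x hx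

end Cfsg.Agent.S1134
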