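-- Statement S1139.
import Mathlib
import Cfsg.Prelude.Def_LieRecognition
import Cfsg.Agent.LieRecognition.HigmanTypeA
import Cfsg.Statements.S1139
import Cfsg.Agent.S1137
set_option linter.all false

-- part: LieRecognition/HigmanTypeA2
section
/-!
Tools for S1139: the group `suzukiTypeA F φ`.
-/

set_option autoImplicit false
set_option linter.style.haveILetI false

namespace Cfsg.Agent.LieRecognition.HigmanTypeA2

open Cfsg Matrix Cfsg.Agent.LieRecognition.HigmanTypeA

section TypeA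

variable {F : Type*} [Field F] (φ : F →+* F)

/-- the matrix with parameters `x, y` -/
def mat (x y : F) : Matrix (Fin 3) (Fin 3) F := !![1, 0, 0; x, 1, 0; y, φ x, 1]

theorem mat_mul (x y x' y' : F) :
    mat φ x y * mat φ x' y' = mat φ (x + x') (y + φ x * x' + y') := by
  unfold mat
  ext i j
  fin_cases i <;> fin_cases j <;> simp [Matrix.mul_apply, Fin.sum_univ_three]

theorem mat_zero : mat φ 0 0 = 1 := by
  unfold mat
  ext i j
  fin_cases i <;> fin_cases j <;> simp

theorem mat_mul_inv (x y : F) : mat φ x y * mat φ (-x) (φ x * x - y) = 1 := by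
  rw [mat_mul, ← mat_zero φ]
  congr 1 <;> ring

theorem mat_inv_mul (x y : F) : mat φ (-x) (φ x * x - y) * mat φ x y = 1 := by
  rw [mat_mul, ← mat_zero φ, map_neg]
  congr 1 <;> ring

/-- the element of `GL` with parameters `x, y` -/
def elt (x y : F) : GL (Fin 3) F := ⟨mat φ x y, mat φ (-x) (φ x * x - y), mat_mul_inv φ x y, mat_inv_mul φ x y⟩

theorem elt_mul (x y x' y' : F) :
    elt φ x y * elt φ x' y' = elt φ (x + x') (y + φ x * x' + y') :=
  Units.ext (mat_mul φ x y x' y')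

theorem elt_zero : elt φ 0 0 = 1 := Units.ext (mat_zero φ)

theorem elt_inv (x y : F) : (elt φ x y)⁻¹ = elt φ (-x) (φ x * x - y) := by
  rw [inv_eq_iff_mul_eq_one, elt_mul, ← elt_zero φ]
  congr 1 <;> ring

theorem elt_mem (x y : F) : elt φ x y ∈ suzukiTypeA F φ :=
  Subgroup.subset_closure ⟨x, y, rfl⟩

theorem exists_elt (g : GL (Fin 3) F) (hg : g ∈ suzukiTypeA F φ) : ∃ x y : F, g = elt φ x y := by
  induction hg using Subgroup.closure_induction with
  | mem g hg =>
    obtain ⟨x, y, h⟩ := hg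
    exact ⟨x, y, Units.ext h⟩
  | one => exact ⟨0, 0, (elt_zero φ).symm⟩
  | mul a b _ _ ha hb =>
    obtain ⟨x, y, rfl⟩ := ha
    obtain ⟨x', y', rfl⟩ := hb
    exact ⟨_, _, elt_mul φ x y x' y'⟩
  | inv a _ ha =>
    obtain ⟨x, y, rfl⟩ := ha
    exact ⟨_, _, elt_inv φ x y⟩

/-- first parameter -/
def par (g : GL (Fin 3) F) : F := (g : Matrix (Fin 3) (Fin 3) F) 1 0

/-- second parameter -/
def par₂ (g : GL (Fin 3) F) : F := (g : Matrix (Fin 3) (Fin 3) F) 2 0

theorem par_elt (x y : F) : par (elt φ x y) = x := rfl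

theorem par₂_elt (x y : F) : par₂ (elt φ x y) = y := rfl

/-- projection of `suzukiTypeA F φ` onto the additive group of `F` -/
def proj : suzukiTypeA F φ →* Multiplicative F where
  toFun g := Multiplicative.ofAdd (par g.1)
  map_one' := by
    have : par (1 : GL (Fin 3) F) = 0 := by rw [← elt_zero φ, par_elt]
    exact congrArg Multiplicative.ofAdd this
  map_mul' := by
    rintro ⟨a, ha⟩ ⟨b, hb⟩
    obtain ⟨x, y, rfl⟩ := exists_elt φ a ha
    obtain ⟨x', y', rfl⟩ := exists_elt φ b hb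
    have : par (elt φ x y * elt φ x' y') = x + x' := by rw [elt_mul, par_elt]
    exact congrArg Multiplicative.ofAdd this

theorem proj_elt (x y : F) : proj φ ⟨elt φ x y, elt_mem φ x y⟩ = Multiplicative.ofAdd x := rfl

theorem proj_surjective : Function.Surjective (proj φ) := fun x =>
  ⟨⟨elt φ x.toAdd 0, elt_mem φ _ _⟩, rfl⟩

theorem mem_ker {g : suzukiTypeA F φ} : g ∈ (proj φ).ker ↔ ∃ y, g.1 = elt φ 0 y := by
  obtain ⟨g, hg⟩ := g
  obtain ⟨x, y, rfl⟩ := exists_elt φ g hg
  constructor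
  · intro h
    have hx : x = 0 := h
    exact ⟨y, by change elt φ x y = elt φ 0 y; rw [hx]⟩
  · rintro ⟨y', hy⟩
    have hx : x = 0 := by
      have := congrArg par hy
      exact this
    change proj φ ⟨elt φ x y, _⟩ = 1
    rw [proj_elt, hx]
    rfl

theorem ker_le_center : (proj φ).ker ≤ Subgroup.center (suzukiTypeA F φ) := by
  intro g hg
  obtain ⟨y, hy⟩ := (mem_ker φ).mp hg
  rw [Subgroup.mem_center_iff]
  rintro ⟨h, hh⟩
  obtain ⟨x', y', rfl⟩ := exists_elt φ h hh
  apply Subtype.ext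
  change elt φ x' y' * g.1 = g.1 * elt φ x' y'
  rw [hy, elt_mul, elt_mul]
  congr 1
  · ring
  · rw [map_zero]; ring

/-- the kernel of the projection is the additive group of `F` -/
def kerEquiv : (proj φ).ker ≃* Multiplicative F where
  toFun g := Multiplicative.ofAdd (par₂ g.1.1)
  invFun y := ⟨⟨elt φ 0 y.toAdd, elt_mem φ _ _⟩, (mem_ker φ).mpr ⟨_, rfl⟩⟩
  left_inv := by
    rintro ⟨g, hg⟩
    apply Subtype.ext
    apply Subtype.ext
    obtain ⟨y, hy⟩ := (mem_ker φ).mp hg
    change elt φ 0 (par₂ g.1) = g.1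
    rw [hy, par₂_elt]
  right_inv := by intro y; rfl
  map_mul' := by
    rintro ⟨g, hg⟩ ⟨h, hh⟩
    obtain ⟨y, hy⟩ := (mem_ker φ).mp hg
    obtain ⟨y', hy'⟩ := (mem_ker φ).mp hh
    have : par₂ (g.1 * h.1) = par₂ g.1 + par₂ h.1 := by
      rw [hy, hy', elt_mul, par₂_elt, par₂_elt, par₂_elt]
      ring
    exact congrArg Multiplicative.ofAdd this

theorem sq_mem_ker [CharP F 2] (g : suzukiTypeA F φ) : g * g ∈ (proj φ).ker := by
  obtain ⟨g, hg⟩ := g
  obtain ⟨x, y, rfl⟩ := exists_elt φ g hg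
  refine (mem_ker φ).mpr ⟨φ x * x, ?_⟩
  change elt φ x y * elt φ x y = _
  rw [elt_mul]
  have h2 : ∀ x : F, x + x = 0 := fun x => CharTwo.add_self_eq_zero x
  congr 1
  · exact h2 x
  · rw [add_comm y, add_assoc, h2, add_zero]

theorem kerEquiv_sq [CharP F 2] (g : suzukiTypeA F φ) :
    (kerEquiv φ ⟨g * g, sq_mem_ker φ g⟩).toAdd = (proj φ g).toAdd * φ (proj φ g).toAdd := by
  obtain ⟨g, hg⟩ := g
  obtain ⟨x, y, rfl⟩ := exists_elt φ g hg
  change par₂ (elt φ x y * elt φ x y) = x * φ x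
  rw [elt_mul, par₂_elt]
  have h2 : ∀ x : F, x + x = 0 := fun x => CharTwo.add_self_eq_zero x
  rw [add_comm y, add_assoc, h2, add_zero, mul_comm]

end TypeA

/-- The main argument: a 2-group `P` with `Z(P)` elementary abelian containing all involutions,
`|P| = |Z(P)|²`, an automorphism `ξ` of finite order whose powers permute the involutions transitively and
of which no non-trivial power fixes an involution. -/
theorem main {P : Type*} [Group P] [Finite P] (hP2 : IsPGroup 2 P)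
    (hna : ∃ x y : P, x * y ≠ y * x)
    (hinv : ∀ x : P, x * x = 1 → x ∈ Subgroup.center P)
    (hZ : ∀ z ∈ Subgroup.center P, z * z = 1)
    (hcard : Nat.card P = Nat.card (Subgroup.center P) ^ 2)
    (ξ : MulAut P)
    (htrans : ∀ x ∈ Subgroup.center P, ∀ y ∈ Subgroup.center P, x ≠ 1 → y ≠ 1 →
      ∃ i : ℕ, (ξ ^ i) x = y)
    (hfree : ∀ i : ℕ, ∀ x ∈ Subgroup.center P, x ≠ 1 → (ξ ^ i) x = x → ξ ^ i = 1) :
    ∃ (F : Type) (_ : Field F) (_ : Fintype F) (φ : F ≃+* F),
      Fintype.card F = Nat.card (Subgroup.center P) ∧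
      φ ≠ RingEquiv.refl F ∧ Odd (orderOf φ) ∧ Nonempty (P ≃* Cfsg.suzukiTypeA F (φ : F →+* F)) := by
  classical
  set Z : Subgroup P := Subgroup.center P with hZdef
  haveI : Fact (Nat.Prime 2) := ⟨Nat.prime_two⟩
  -- `Z` is invariant
  have hξZ : ∀ i : ℕ, ∀ x, x ∈ Z ↔ (ξ ^ i) x ∈ Z := by
    intro i x
    rw [hZdef, Subgroup.mem_center_iff, Subgroup.mem_center_iff]
    constructor
    · intro h g
      have := congrArg (ξ ^ i) (h ((ξ ^ i)⁻¹ g))
      rw [map_mul, map_mul] at this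
      simpa using this
    · intro h g
      have := h ((ξ ^ i) g)
      rw [← map_mul, ← map_mul] at this
      exact (ξ ^ i).injective this
  -- no nontrivial power of `ξ` has a fixed point
  have hfix : ∀ i : ℕ, ∀ x : P, x ≠ 1 → (ξ ^ i) x = x → ξ ^ i = 1 := by
    intro i x hx hix
    obtain ⟨k, hk⟩ := (IsPGroup.iff_orderOf.mp hP2) x
    have hk0 : k ≠ 0 := by
      rintro rfl
      rw [pow_zero] at hk
      exact hx (orderOf_eq_one_iff.mp hk)
    obtain ⟨k, rfl⟩ := Nat.exists_eq_succ_of_ne_zero hk0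
    have h1 : (x ^ (2 ^ k)) * (x ^ (2 ^ k)) = 1 := by
      rw [← pow_add, ← two_mul, ← pow_succ', ← Nat.succ_eq_add_one, ← hk, pow_orderOf_eq_one]
    have h2 : x ^ (2 ^ k) ≠ 1 := by
      intro h
      have := orderOf_dvd_of_pow_eq_one h
      rw [hk] at this
      have := (Nat.pow_dvd_pow_iff_le_right (by norm_num)).mp this
      omega
    refine hfree i _ (hinv _ h1) h2 ?_
    rw [map_pow, hix]
  -- nor on `P / Z`
  have hfixq : ∀ i : ℕ, ∀ x : P, x ∉ Z → x⁻¹ * (ξ ^ i) x ∈ Z → ξ ^ i = 1 := by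
    intro i x hx hix
    -- `(ξ^i)(x²) = x²`
    have hx1 : x * x ≠ 1 := fun h => hx (hinv x h)
    apply hfix i (x * x) hx1
    have h1 : (ξ ^ i) x = x * (x⁻¹ * (ξ ^ i) x) := by group
    have h2 := Subgroup.mem_center_iff.mp hix x
    rw [map_mul]
    calc (ξ ^ i) x * (ξ ^ i) x = (x * (x⁻¹ * (ξ ^ i) x)) * (x * (x⁻¹ * (ξ ^ i) x)) := by rw [← h1]
      _ = x * ((x⁻¹ * (ξ ^ i) x) * x) * (x⁻¹ * (ξ ^ i) x) := by group
      _ = x * (x * (x⁻¹ * (ξ ^ i) x)) * (x⁻¹ * (ξ ^ i) x) := by rw [← h2]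
      _ = x * x * ((x⁻¹ * (ξ ^ i) x) * (x⁻¹ * (ξ ^ i) x)) := by group
      _ = x * x := by rw [hZ _ hix, mul_one]
  -- cardinalities
  have hZpos : 0 < Nat.card Z := Nat.card_pos
  have hcardQ : Nat.card (P ⧸ Z) = Nat.card Z := by
    have h1 := Subgroup.card_eq_card_quotient_mul_card_subgroup Z
    rw [hcard, pow_two] at h1
    exact (Nat.eq_of_mul_eq_mul_right hZpos h1).symm
  obtain ⟨x0, y0, hxy0⟩ := hna
  have hx0 : x0 ∉ Z := by
    intro h
    exact hxy0 ((Subgroup.mem_center_iff.mp h) y0).symm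
  haveI : Nontrivial P := ⟨x0, 1, fun h => hx0 (h ▸ one_mem Z)⟩
  haveI : Nontrivial Z := hP2.center_nontrivial
  obtain ⟨z0, hz0⟩ := exists_ne (1 : Z)
  -- the induced endomorphism on the quotient
  have hξZ1 : Z ≤ Z.comap (ξ : P ≃* P).toMonoidHom := by
    intro x hx
    have := (hξZ 1 x).mp hx
    rw [pow_one] at this
    exact this
  let f : P ⧸ Z →* P ⧸ Z := QuotientGroup.map Z Z (ξ : P ≃* P).toMonoidHom hξZ1
  have hf : ∀ (i : ℕ) (g : P), f^[i] (g : P ⧸ Z) = ((ξ ^ i) g : P) := by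
    intro i
    induction i with
    | zero => intro g; rfl
    | succ n ih =>
      intro g
      rw [Function.iterate_succ_apply, pow_succ]
      exact ih (ξ g)
  have hnemk : ∀ x : P, (x : P ⧸ Z) ≠ 1 ↔ x ∉ Z := by
    intro x
    rw [Ne, QuotientGroup.eq_one_iff]
  let N : Submonoid (MulAut P) := Submonoid.powers ξ
  -- regularity on the quotient
  have htransQ : ∀ v w : P ⧸ Z, v ≠ 1 → w ≠ 1 → ∃ i : ℕ, f^[i] v = w := by
    intro v w hv hw
    obtain ⟨x, rfl⟩ := QuotientGroup.mk_surjective v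
    rw [hnemk] at hv
    let a : N → {z : Z // z ≠ 1} := fun k =>
      ⟨⟨(k : MulAut P) z0, by
        obtain ⟨i, hi⟩ := k.2
        rw [← hi]
        exact (hξZ i _).mp z0.2⟩, by
        intro h
        apply hz0
        have h1 : (k : MulAut P) (z0 : P) = 1 := congrArg Subtype.val h
        apply Subtype.ext
        exact (MulEquiv.map_eq_one_iff (k : P ≃* P)).mp h1⟩
    let b : N → {v : P ⧸ Z // v ≠ 1} := fun k =>
      ⟨(((k : MulAut P) x : P) : P ⧸ Z), by
        rw [hnemk]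
        obtain ⟨i, hi⟩ := k.2
        intro h
        rw [← hi] at h
        exact hv ((hξZ i _).mpr h)⟩
    have ha : Function.Surjective a := by
      rintro ⟨z, hz⟩
      obtain ⟨i, hi⟩ := htrans z0 z0.2 z z.2 (fun h => hz0 (Subtype.ext h))
        (fun h => hz (Subtype.ext h))
      refine ⟨⟨ξ ^ i, ⟨i, rfl⟩⟩, ?_⟩
      apply Subtype.ext
      apply Subtype.ext
      exact hi
    have hb : Function.Injective b := by
      have key : ∀ i j : ℕ, i ≤ j →
          (((ξ ^ i) x : P) : P ⧸ Z) = (((ξ ^ j) x : P) : P ⧸ Z) → ξ ^ i = ξ ^ j := by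
        intro i j hij h
        obtain ⟨k, rfl⟩ := Nat.exists_eq_add_of_le hij
        have h1 : (ξ ^ (i + k)) x = (ξ ^ i) ((ξ ^ k) x) := by rw [pow_add]; rfl
        rw [h1, QuotientGroup.eq, ← map_inv, ← map_mul, ← hξZ] at h
        have h2 := hfixq k x hv h
        rw [pow_add, h2, mul_one]
      rintro ⟨_, i, rfl⟩ ⟨_, j, rfl⟩ h
      have h1 : (((ξ ^ i) x : P) : P ⧸ Z) = (((ξ ^ j) x : P) : P ⧸ Z) := congrArg Subtype.val h
      apply Subtype.ext
      rcases le_total i j with hij | hij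
      · exact key i j hij h1
      · exact (key j i hij h1.symm).symm
    have hcardeq : Nat.card {v : P ⧸ Z // v ≠ 1} ≤ Nat.card N := by
      have h1 : Nat.card {v : P ⧸ Z // v ≠ 1} = Nat.card {z : Z // z ≠ 1} := by
        letI := Fintype.ofFinite (P ⧸ Z)
        letI := Fintype.ofFinite Z
        rw [Nat.card_eq_fintype_card, Nat.card_eq_fintype_card, Fintype.card_subtype_compl,
          Fintype.card_subtype_compl, Fintype.card_subtype_eq, Fintype.card_subtype_eq,
          ← Nat.card_eq_fintype_card, ← Nat.card_eq_fintype_card, hcardQ]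
      rw [h1]
      exact Nat.card_le_card_of_surjective a ha
    have hbb := Function.Injective.bijective_of_nat_card_le hb hcardeq
    obtain ⟨⟨_, i, rfl⟩, hi⟩ := hbb.2 ⟨w, hw⟩
    refine ⟨i, ?_⟩
    rw [hf]
    exact congrArg Subtype.val hi
  -- the quotient is elementary abelian
  have hsqQ : ∀ v : P ⧸ Z, v * v = 1 := by
    haveI : Nontrivial (P ⧸ Z) := ⟨(x0 : P ⧸ Z), 1, (hnemk x0).mpr hx0⟩
    have hQ2 : IsPGroup 2 (P ⧸ Z) := hP2.to_quotient Z
    obtain ⟨v0, hv0⟩ : ∃ v0 : P ⧸ Z, orderOf v0 = 2 := by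
      obtain ⟨k, hk⟩ := hQ2.exists_card_eq
      have hk0 : k ≠ 0 := by
        rintro rfl
        rw [pow_zero] at hk
        exact (Finite.one_lt_card (α := P ⧸ Z)).ne' hk
      exact exists_prime_orderOf_dvd_card' 2 (hk ▸ dvd_pow_self 2 hk0)
    have hv01 : v0 ≠ 1 := by
      rintro rfl
      rw [orderOf_one] at hv0
      omega
    intro v
    by_cases hv : v = 1
    · rw [hv, one_mul]
    obtain ⟨i, rfl⟩ := htransQ v0 v hv01 hv
    have h1 : v0 * v0 = 1 := by rw [← pow_two, ← hv0, pow_orderOf_eq_one]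
    have h2 : ∀ j : ℕ, f^[j] (v0 * v0) = f^[j] v0 * f^[j] v0 := by
      intro j
      induction j with
      | zero => rfl
      | succ n ih =>
        rw [Function.iterate_succ_apply', ih, map_mul, Function.iterate_succ_apply']
    have h3 : ∀ j : ℕ, f^[j] (1 : P ⧸ Z) = 1 := by
      intro j
      induction j with
      | zero => rfl
      | succ n ih => rw [Function.iterate_succ_apply', ih, map_one]
    rw [← h2, h1, h3]
  have hcommQ : ∀ a b : P ⧸ Z, a * b = b * a := by
    intro a b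
    have hinv : ∀ c : P ⧸ Z, c⁻¹ = c := fun c => inv_eq_of_mul_eq_one_left (hsqQ c)
    calc a * b = (a * b)⁻¹ := (hinv _).symm
      _ = b⁻¹ * a⁻¹ := mul_inv_rev a b
      _ = b * a := by rw [hinv, hinv]
  have hsqP : ∀ g : P, g * g ∈ Z := by
    intro g
    rw [← QuotientGroup.eq_one_iff, QuotientGroup.mk_mul]
    exact hsqQ _
  -- the field
  obtain ⟨m, hm⟩ : ∃ m, Nat.card Z = 2 ^ m := (hP2.to_subgroup Z).exists_card_eq
  have hm0 : m ≠ 0 := by
    rintro rfl
    rw [pow_zero] at hm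
    exact (Finite.one_lt_card (α := Z)).ne' hm
  let F : Type := GaloisField 2 m
  letI : Fintype F := Fintype.ofFinite F
  haveI : CharP F 2 := inferInstanceAs (CharP (GaloisField 2 m) 2)
  have hcardF : Fintype.card F = Nat.card Z := by
    rw [← Nat.card_eq_fintype_card, hm]
    exact GaloisField.card 2 m hm0
  haveI : Nontrivial (P ⧸ Z) := ⟨(x0 : P ⧸ Z), 1, (hnemk x0).mpr hx0⟩
  have hfinj : Function.Injective f := by
    rw [injective_iff_map_eq_one]
    intro v hv
    obtain ⟨x, rfl⟩ := QuotientGroup.mk_surjective v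
    have h1 := hf 1 x
    rw [pow_one] at h1
    have h2 : ((ξ x : P) : P ⧸ Z) = 1 := by
      rw [← h1]; exact hv
    rw [QuotientGroup.eq_one_iff] at h2 ⊢
    have := hξZ 1 x
    rw [pow_one] at this
    exact this.mpr h2
  obtain ⟨e, l, he⟩ := exists_field_model' hcommQ f hfinj htransQ F (hcardF.trans hcardQ.symm)
  -- the endomorphism of `Z`
  let fZ : Z →* Z := ((ξ : P ≃* P).toMonoidHom.comp Z.subtype).codRestrict Z (fun z => hξZ1 z.2)
  have hfZ : ∀ (i : ℕ) (z : Z), ((fZ^[i] z : Z) : P) = (ξ ^ i) (z : P) := by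
    intro i
    induction i with
    | zero => intro z; rfl
    | succ n ih =>
      intro z
      rw [Function.iterate_succ_apply, ih, pow_succ]
      rfl
  have hfZinj : Function.Injective fZ := by
    intro a b hab
    apply Subtype.ext
    exact (ξ : P ≃* P).injective (congrArg Subtype.val hab)
  have htransZ : ∀ v w : Z, v ≠ 1 → w ≠ 1 → ∃ i : ℕ, fZ^[i] v = w := by
    intro v w hv hw
    obtain ⟨i, hi⟩ := htrans v v.2 w w.2 (fun h => hv (Subtype.ext h)) (fun h => hw (Subtype.ext h))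
    exact ⟨i, Subtype.ext ((hfZ i v).trans hi)⟩
  obtain ⟨b₀, μ, hb₀⟩ := exists_field_model' (V := Z)
    (fun a c => Subtype.ext ((Subgroup.mem_center_iff.mp c.2) a)) fZ hfZinj htransZ F hcardF
  -- the projection `P → F`
  let π : P →* Multiplicative F := e.toMonoidHom.comp (QuotientGroup.mk' Z)
  have hπ : ∀ g : P, π g = e (g : P ⧸ Z) := fun g => rfl
  have hπsurj : Function.Surjective π := e.surjective.comp (QuotientGroup.mk'_surjective Z)
  have hπker : ∀ g : P, g ∈ π.ker ↔ g ∈ Z := by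
    intro g
    rw [MonoidHom.mem_ker, hπ, MulEquiv.map_eq_one_iff, QuotientGroup.eq_one_iff]
  have hπker' : π.ker = Z := by ext g; exact hπker g
  have hπξ : ∀ (g : P), (π (ξ g)).toAdd = l * (π g).toAdd := by
    intro g
    exact he (g : P ⧸ Z)
  -- representatives
  let rep : F → P := fun x => (hπsurj (Multiplicative.ofAdd x)).choose
  have hrep : ∀ x, π (rep x) = Multiplicative.ofAdd x := fun x =>
    (hπsurj (Multiplicative.ofAdd x)).choose_spec
  have hdiff : ∀ g h : P, π g = π h → g⁻¹ * h ∈ Z := by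
    intro g h hgh
    rw [← hπker, MonoidHom.mem_ker, map_mul, map_inv, hgh, inv_mul_cancel]
  have hsqwd : ∀ g h : P, π g = π h → g * g = h * h := by
    intro g h hgh
    have h1 := hdiff g h hgh
    have h2 : h = g * (g⁻¹ * h) := by group
    have h3 := Subgroup.mem_center_iff.mp h1 g
    symm
    calc h * h = (g * (g⁻¹ * h)) * (g * (g⁻¹ * h)) := by rw [← h2]
      _ = g * ((g⁻¹ * h) * g) * (g⁻¹ * h) := by group
      _ = g * (g * (g⁻¹ * h)) * (g⁻¹ * h) := by rw [← h3]
      _ = g * g * ((g⁻¹ * h) * (g⁻¹ * h)) := by group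
      _ = g * g := by rw [hZ _ h1, mul_one]
  -- normalised identification of `Z` with `F`
  have hrep1 : rep 1 ∉ Z := by
    intro h
    have h1 := (hπker _).mpr h
    rw [MonoidHom.mem_ker, hrep] at h1
    exact one_ne_zero (α := F) h1
  have hsq1 : (⟨rep 1 * rep 1, hsqP _⟩ : Z) ≠ 1 := by
    intro h
    exact hrep1 (hinv _ (congrArg Subtype.val h))
  set c : F := (b₀ ⟨rep 1 * rep 1, hsqP _⟩).toAdd with hcdef
  have hc0 : c ≠ 0 := by
    intro h
    apply hsq1
    exact (MulEquiv.map_eq_one_iff b₀).mp h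
  let scale : Multiplicative F ≃* Multiplicative F :=
    { toFun := fun x => Multiplicative.ofAdd (c⁻¹ * x.toAdd)
      invFun := fun x => Multiplicative.ofAdd (c * x.toAdd)
      left_inv := by
        intro x
        change Multiplicative.ofAdd (c * (c⁻¹ * x.toAdd)) = x
        rw [mul_inv_cancel_left₀ hc0]
        rfl
      right_inv := by
        intro x
        change Multiplicative.ofAdd (c⁻¹ * (c * x.toAdd)) = x
        rw [inv_mul_cancel_left₀ hc0]
        rfl
      map_mul' := by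
        intro x y
        change Multiplicative.ofAdd (c⁻¹ * (x.toAdd + y.toAdd)) = _
        rw [mul_add]
        rfl }
  let β : Z ≃* Multiplicative F := b₀.trans scale
  have hβdef : ∀ z, (β z).toAdd = c⁻¹ * (b₀ z).toAdd := fun z => rfl
  have hβ : ∀ z, (β (fZ z)).toAdd = μ * (β z).toAdd := by
    intro z
    rw [hβdef, hβdef, hb₀]
    ring
  have hβmul : ∀ z w : Z, (β (z * w)).toAdd = (β z).toAdd + (β w).toAdd := by
    intro z w
    rw [map_mul]; rfl
  let s : F → F := fun x => (β ⟨rep x * rep x, hsqP _⟩).toAdd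
  have hs : ∀ g : P, s (π g).toAdd = (β ⟨g * g, hsqP g⟩).toAdd := by
    intro g
    change (β ⟨rep (π g).toAdd * rep (π g).toAdd, hsqP _⟩).toAdd = _
    have h1 : rep (π g).toAdd * rep (π g).toAdd = g * g := hsqwd _ _ (hrep _)
    have h2 : (⟨rep (π g).toAdd * rep (π g).toAdd, hsqP _⟩ : Z) = ⟨g * g, hsqP g⟩ := Subtype.ext h1
    rw [h2]
  have hs1 : s 1 = 1 := by
    change c⁻¹ * (b₀ ⟨rep 1 * rep 1, hsqP _⟩).toAdd = 1
    exact inv_mul_cancel₀ hc0
  -- commutators
  have hcommZ : ∀ g h : P, g * h * g⁻¹ * h⁻¹ ∈ Z := by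
    intro g h
    rw [← QuotientGroup.eq_one_iff, QuotientGroup.mk_mul, QuotientGroup.mk_mul,
      QuotientGroup.mk_mul, QuotientGroup.mk_inv, QuotientGroup.mk_inv,
      hcommQ (g : P ⧸ Z) (h : P ⧸ Z)]
    group
  let cm : P → P → Z := fun g h => ⟨g * h * g⁻¹ * h⁻¹, hcommZ g h⟩
  have hcm_mul_left : ∀ g g' h, cm (g * g') h = cm g h * cm g' h := by
    intro g g' h
    apply Subtype.ext
    change g * g' * h * (g * g')⁻¹ * h⁻¹ = (g * h * g⁻¹ * h⁻¹) * (g' * h * g'⁻¹ * h⁻¹)
    have h1 := Subgroup.mem_center_iff.mp (hcommZ g' h)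
    calc g * g' * h * (g * g')⁻¹ * h⁻¹ = g * ((g' * h * g'⁻¹ * h⁻¹) * (h * g⁻¹ * h⁻¹)) := by group
      _ = g * ((h * g⁻¹ * h⁻¹) * (g' * h * g'⁻¹ * h⁻¹)) := by rw [← h1]
      _ = (g * h * g⁻¹ * h⁻¹) * (g' * h * g'⁻¹ * h⁻¹) := by group
  have hcm_mul_right : ∀ g h h', cm g (h * h') = cm g h * cm g h' := by
    intro g h h'
    apply Subtype.ext
    change g * (h * h') * g⁻¹ * (h * h')⁻¹ = (g * h * g⁻¹ * h⁻¹) * (g * h' * g⁻¹ * h'⁻¹)
    have h1 := Subgroup.mem_center_iff.mp (hcommZ g h')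
    calc g * (h * h') * g⁻¹ * (h * h')⁻¹ = g * h * g⁻¹ * (g * h' * g⁻¹ * h'⁻¹) * h⁻¹ := by group
      _ = g * h * g⁻¹ * (h⁻¹ * (g * h' * g⁻¹ * h'⁻¹)) := by rw [h1 h⁻¹]; group
      _ = (g * h * g⁻¹ * h⁻¹) * (g * h' * g⁻¹ * h'⁻¹) := by group
  have hcm_left : ∀ z ∈ Z, ∀ h, cm z h = 1 := by
    intro z hz h
    apply Subtype.ext
    change z * h * z⁻¹ * h⁻¹ = 1
    rw [← Subgroup.mem_center_iff.mp hz h]
    group
  have hcm_right : ∀ z ∈ Z, ∀ h, cm h z = 1 := by
    intro z hz h
    apply Subtype.ext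
    change h * z * h⁻¹ * z⁻¹ = 1
    rw [Subgroup.mem_center_iff.mp hz h]
    group
  have hcmwd : ∀ g g' h h', π g = π g' → π h = π h' → cm g h = cm g' h' := by
    intro g g' h h' hg hh
    have h1 : g' = g * (g⁻¹ * g') := by group
    have h2 : h' = h * (h⁻¹ * h') := by group
    rw [h1, h2, hcm_mul_left, hcm_left _ (hdiff g g' hg), mul_one, hcm_mul_right,
      hcm_right _ (hdiff h h' hh), mul_one]
  let B : F →+ F →+ F := AddMonoidHom.mk' (fun x => AddMonoidHom.mk'
    (fun y => (β (cm (rep x) (rep y))).toAdd) (by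
      intro y y'
      rw [← hβmul, ← hcm_mul_right]
      congr 2
      apply hcmwd _ _ _ _ rfl
      rw [map_mul, hrep, hrep, hrep]
      rfl)) (by
    intro x x'
    ext y
    change (β (cm (rep (x + x')) (rep y))).toAdd = (β (cm (rep x) (rep y))).toAdd + (β (cm (rep x') (rep y))).toAdd
    rw [← hβmul, ← hcm_mul_left]
    congr 2
    apply hcmwd _ _ _ _ _ rfl
    rw [map_mul, hrep, hrep, hrep]
    rfl)
  have hBdef : ∀ g h : P, B (π g).toAdd (π h).toAdd = (β (cm g h)).toAdd := by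
    intro g h
    change (β (cm (rep (π g).toAdd) (rep (π h).toAdd))).toAdd = _
    congr 2
    exact hcmwd _ _ _ _ (hrep _) (hrep _)
  have hBs : ∀ x y, s (x + y) = s x + s y + B x y := by
    intro x y
    have hx : x = (π (rep x)).toAdd := by rw [hrep]; rfl
    have hy : y = (π (rep y)).toAdd := by rw [hrep]; rfl
    have hxy : x + y = (π (rep x * rep y)).toAdd := by rw [map_mul, hrep, hrep]; rfl
    generalize rep x = g at hx hxy
    generalize rep y = h at hy hxy
    rw [hxy, hs, hx, hy, hs, hs, hBdef, ← hβmul, ← hβmul]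
    congr 2
    apply Subtype.ext
    change (g * h) * (g * h) = (g * g) * (h * h) * (g * h * g⁻¹ * h⁻¹)
    have h1 := Subgroup.mem_center_iff.mp (hcommZ g h)
    have h2 := hZ _ (hcommZ g h)
    generalize hc' : g * h * g⁻¹ * h⁻¹ = c' at h1 h2
    have h3 : h * g * c' = g * h := by rw [h1, ← hc']; group
    have h4 : h * g = g * h * c' := by
      calc h * g = h * g * (c' * c') := by rw [h2, mul_one]
        _ = (h * g * c') * c' := by group
        _ = g * h * c' := by rw [h3]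
    calc (g * h) * (g * h) = g * (h * g) * h := by group
      _ = g * (g * h * c') * h := by rw [h4]
      _ = g * g * h * (c' * h) := by group
      _ = g * g * h * (h * c') := by rw [h1 h]
      _ = (g * g) * (h * h) * c' := by group
  have hB0 : ∃ x y, B x y ≠ 0 := by
    refine ⟨(π x0).toAdd, (π y0).toAdd, ?_⟩
    rw [hBdef]
    intro h
    have h1 : β (cm x0 y0) = 1 := h
    rw [MulEquiv.map_eq_one_iff] at h1
    have h2 : x0 * y0 * x0⁻¹ * y0⁻¹ = 1 := congrArg Subtype.val h1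
    apply hxy0
    calc x0 * y0 = (x0 * y0 * x0⁻¹ * y0⁻¹) * (y0 * x0) := by group
      _ = y0 * x0 := by rw [h2, one_mul]
  have hsl : ∀ x, s (l * x) = μ * s x := by
    intro x
    have hx : x = (π (rep x)).toAdd := by rw [hrep]; rfl
    generalize rep x = g at hx
    rw [hx, ← hπξ, hs, hs, ← hβ]
    congr 2
    apply Subtype.ext
    change ξ g * ξ g = ξ (g * g)
    rw [map_mul]
  have hlpow : ∀ (i : ℕ) (v : P ⧸ Z), (e (f^[i] v)).toAdd = l ^ i * (e v).toAdd := by
    intro i
    induction i with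
    | zero => intro v; rw [pow_zero, one_mul]; rfl
    | succ n ih =>
      intro v
      rw [Function.iterate_succ_apply, ih, he, pow_succ]
      ring
  have hμpow : ∀ (i : ℕ) (v : Z), (β (fZ^[i] v)).toAdd = μ ^ i * (β v).toAdd := by
    intro i
    induction i with
    | zero => intro v; rw [pow_zero, one_mul]; rfl
    | succ n ih =>
      intro v
      rw [Function.iterate_succ_apply, ih, hβ, pow_succ]
      ring
  have hgen : ∀ x : F, x ≠ 0 → ∃ i : ℕ, x = l ^ i := by
    intro x hx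
    obtain ⟨i, hi⟩ := htransQ (e.symm (Multiplicative.ofAdd 1)) (e.symm (Multiplicative.ofAdd x)) (by
      intro h
      have h1 := (MulEquiv.map_eq_one_iff e.symm).mp h
      exact one_ne_zero (α := F) h1) (by
      intro h
      have h1 := (MulEquiv.map_eq_one_iff e.symm).mp h
      exact hx h1)
    refine ⟨i, ?_⟩
    have h1 := hlpow i (e.symm (Multiplicative.ofAdd 1))
    rw [hi, MulEquiv.apply_symm_apply, MulEquiv.apply_symm_apply] at h1
    simpa using h1
  obtain ⟨σ, τ, hστ, hsσ⟩ := squaring_monomial s B hBs hB0 l μ hsl hgen hs1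
  -- the type A structure
  let φ : F ≃+* F := τ.trans σ.symm
  have hφ : ∀ x, σ (φ x) = τ x := fun x => by
    change σ (σ.symm (τ x)) = τ x
    rw [RingEquiv.apply_symm_apply]
  have hsφ : ∀ x, σ.symm (s x) = x * φ x := by
    intro x
    apply σ.injective
    rw [RingEquiv.apply_symm_apply, map_mul, hφ, hsσ]
  have hφne : φ ≠ RingEquiv.refl F := by
    intro h
    apply hστ
    ext x
    rw [← hφ, h]
    rfl
  have hspow : ∀ i : ℕ, s (l ^ i) = μ ^ i := by
    intro i
    induction i with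
    | zero => rw [pow_zero, pow_zero, hs1]
    | succ n ih => rw [pow_succ', hsl, ih, pow_succ']
  have hφodd : Odd (orderOf φ) := by
    apply odd_orderOf
    intro x hx
    have hx0' : x ≠ 0 := by
      rintro rfl
      rw [zero_mul] at hx
      exact zero_ne_one hx
    obtain ⟨i, rfl⟩ := hgen x hx0'
    rw [← hsφ, hspow] at hx
    have h1 : μ ^ i = 1 := by
      rw [← map_one σ.symm] at hx
      exact σ.symm.injective hx
    have h2 : fZ^[i] z0 = z0 := by
      apply β.injective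
      have h3 := hμpow i z0
      rw [h1, one_mul] at h3
      exact h3
    have h3 : (ξ ^ i) (z0 : P) = z0 := by
      rw [← hfZ, h2]
    have h4 := hfree i z0 z0.2 (fun h => hz0 (Subtype.ext h)) h3
    have h5 := hlpow i (e.symm (Multiplicative.ofAdd 1))
    have h6 : f^[i] (e.symm (Multiplicative.ofAdd (1 : F))) = e.symm (Multiplicative.ofAdd 1) := by
      obtain ⟨g, hg⟩ := QuotientGroup.mk_surjective (e.symm (Multiplicative.ofAdd (1 : F)))
      rw [← hg, hf, h4]
      rfl
    rw [h6, MulEquiv.apply_symm_apply] at h5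
    simpa using h5.symm
  -- the isomorphism
  let κ : Z ≃* Multiplicative F := β.trans (AddEquiv.toMultiplicative σ.symm.toAddEquiv)
  have hκ : ∀ z, (κ z).toAdd = σ.symm (β z).toAdd := fun z => rfl
  have h₁ : ∀ g : P, g * g ∈ π.ker := fun g => (hπker _).mpr (hsqP g)
  let κ' : π.ker ≃* Z := MulEquiv.subgroupCongr hπker'
  let θ : π.ker ≃* (proj (φ : F →+* F)).ker := (κ'.trans κ).trans (kerEquiv (φ : F →+* F)).symm
  refine ⟨F, inferInstance, inferInstance, φ, hcardF, hφne, hφodd, ?_⟩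
  refine mulEquiv_of_same_squares π (proj (φ : F →+* F)) hπsurj (proj_surjective _)
    (hπker'.le) (ker_le_center _) θ h₁ (sq_mem_ker _) ?_
  intro g₁ g₂ h12
  apply (kerEquiv (φ : F →+* F)).injective
  change (kerEquiv (φ : F →+* F)) ((kerEquiv (φ : F →+* F)).symm (κ (κ' _))) = _
  rw [MulEquiv.apply_symm_apply]
  have h3 : (κ (κ' ⟨g₁ * g₁, h₁ g₁⟩)).toAdd = (π g₁).toAdd * φ (π g₁).toAdd := by
    rw [hκ, ← hsφ, hs]
    rfl
  have h4 := kerEquiv_sq (φ : F →+* F) g₂
  rw [← h12] at h4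
  exact congrArg Multiplicative.ofAdd (h3.trans h4.symm)

end Cfsg.Agent.LieRecognition.HigmanTypeA2
end

-- part: S1139
section
set_option autoImplicit false
open Cfsg

namespace Cfsg.Agent.S1139

/-- A Suzuki 2-group `P` with `|P| = |Z(P)|²` is of type A: for some finite field `F` with `|F| = |Z(P)|` and some field automorphism `φ ≠ 1` of odd order, `P` is isomorphic to the group of lower unitriangular matrices with rows `(1,0,0)`, `(x,1,0)`, `(y, φ x, 1)`. -/
theorem result {P : Type*} [Group P] (hP : Cfsg.IsSuzukiTwoGroup P)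
    (hcard : Nat.card P = Nat.card (Subgroup.center P) ^ 2) :
    ∃ (F : Type) (_ : Field F) (_ : Fintype F) (φ : F ≃+* F), Fintype.card F = Nat.card (Subgroup.center P) ∧
      φ ≠ RingEquiv.refl F ∧ Odd (orderOf φ) ∧ Nonempty (P ≃* Cfsg.suzukiTypeA F (φ : F →+* F)) := by
  obtain ⟨h37a, h37b⟩ := Cfsg.Agent.S1137.result hP
  obtain ⟨hfin, hP2, hna, _, K, hKc, hKreg⟩ := hP
  haveI := hfin
  obtain ⟨ξ, hξ⟩ := hKc.exists_generator
  have hfinA : Finite (MulAut P) :=
    Finite.of_injective (fun σ : MulAut P => (σ : P → P)) DFunLike.coe_injective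
  have hpow : ∀ k : K, ∃ i : ℕ, (ξ : MulAut P) ^ i = k := by
    intro k
    have h1 : k ∈ Submonoid.powers ξ := mem_powers_iff_mem_zpowers.mpr (hξ k)
    obtain ⟨i, hi⟩ := h1
    exact ⟨i, by rw [← hi]; rfl⟩
  refine Cfsg.Agent.LieRecognition.HigmanTypeA2.main hP2 hna ?_ h37b hcard (ξ : MulAut P) ?_ ?_
  · intro x hx
    by_cases h1 : x = 1
    · rw [h1]; exact one_mem _
    · exact ((h37a x).mp ⟨h1, hx⟩).1
  · intro x hx y hy hx1 hy1
    obtain ⟨k, hk, _⟩ := hKreg x y hx1 (h37b x hx) hy1 (h37b y hy)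
    obtain ⟨i, hi⟩ := hpow k
    exact ⟨i, by rw [hi]; exact hk⟩
  · intro i x hx hx1 hix
    obtain ⟨k, _, hku⟩ := hKreg x x hx1 (h37b x hx) hx1 (h37b x hx)
    have h1 : ξ ^ i = k := hku (ξ ^ i) (by
      change ((ξ ^ i : K) : MulAut P) x = x
      rw [Subgroup.coe_pow]
      exact hix)
    have h2 : (1 : K) = k := hku 1 rfl
    rw [← h2] at h1
    exact congrArg Subtype.val h1

end Cfsg.Agent.S1139
end
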