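-- Statement S1147: assembled from S0347 (order), S1137, S1139 (Higman), S0739, S1119, S1122.
import Cfsg.Statements.S1147
import Cfsg.Agent.S0347
import Cfsg.Agent.S1137
import Cfsg.Agent.S1139
import Cfsg.Agent.S1119
import Cfsg.Agent.S1122
import Cfsg.Agent.CharactersDeep.ZassenhausOdd
import Cfsg.Agent.LieExceptional.ZassenhausOdd
set_option linter.all false

set_option autoImplicit false
open Cfsg

namespace Cfsg.Agent.S1147

/-- an equality of the form `2 ^ k * odd = 2 ^ l * odd` forces `k = l` -/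
theorem pow_eq_of_mul_eq {k l m n : ℕ} (hm : Odd m) (hn : Odd n) (h : 2 ^ k * m = 2 ^ l * n) :
    k = l := by
  have h1 : 2 ^ k ∣ 2 ^ l := by
    have : 2 ^ k ∣ 2 ^ l * n := ⟨m, h.symm⟩
    exact (Nat.Coprime.pow_left k (Nat.coprime_two_left.mpr hn)).dvd_of_dvd_mul_right this
  have h2 : 2 ^ l ∣ 2 ^ k := by
    have : 2 ^ l ∣ 2 ^ k * m := ⟨n, h⟩
    exact (Nat.Coprime.pow_left l (Nat.coprime_two_left.mpr hm)).dvd_of_dvd_mul_right this
  exact le_antisymm ((Nat.pow_dvd_pow_iff_le_right (by norm_num)).mp h1)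
    ((Nat.pow_dvd_pow_iff_le_right (by norm_num)).mp h2)

/-- Let a finite simple Zassenhaus group `G` on `Ω` have a normal subgroup `U` of `G_a`, regular on `Ω` minus `a`, which is a non-abelian 2-group. Then `|Ω| = 2^(2n) + 1` with `n` odd, `n > 1`, a two-point stabiliser `G_a ⊓ G_b` is cyclic of order `2^n - 1`, and `U` is isomorphic to the type-A group over a field with `2^n` elements for some field automorphism `φ`. -/
theorem result {G Ω : Type*} [Group G] [Finite G] [MulAction G Ω] [Finite Ω]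
    (hZ : Cfsg.IsZassenhausGroup G Ω) [IsSimpleGroup G] {a b : Ω} (hab : a ≠ b)
    (U : Subgroup G) (hUle : U ≤ MulAction.stabilizer G a)
    (hUn : ∀ h ∈ MulAction.stabilizer G a, ∀ u ∈ U, h * u * h⁻¹ ∈ U)
    (hreg : ∀ c d : Ω, c ≠ a → d ≠ a → ∃! u : U, (u : G) • c = d)
    (hU2 : IsPGroup 2 U) (hUna : ∃ u ∈ U, ∃ v ∈ U, u * v ≠ v * u) :
    ∃ n : ℕ, Odd n ∧ 1 < n ∧ Nat.card Ω = 2 ^ (2 * n) + 1 ∧
      IsCyclic ↥(MulAction.stabilizer G a ⊓ MulAction.stabilizer G b) ∧
      Nat.card ↥(MulAction.stabilizer G a ⊓ MulAction.stabilizer G b) = 2 ^ n - 1 ∧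
      ∃ (F : Type) (_ : Field F) (_ : Fintype F) (φ : F ≃+* F), Fintype.card F = 2 ^ n ∧
        Nonempty (U ≃* Cfsg.suzukiTypeA F (φ : F →+* F)) := by
  classical
  haveI : Fact (Nat.Prime 2) := ⟨Nat.prime_two⟩
  -- basic data
  obtain ⟨hfaith, htwo, hthree, hfix, hno⟩ := id hZ
  haveI := hfaith
  haveI : Fintype Ω := Fintype.ofFinite Ω
  have hUnt : Nontrivial U := by
    obtain ⟨u, hu, v, hv, huv⟩ := hUna
    refine ⟨⟨⟨u, hu⟩, 1, ?_⟩⟩
    intro h1
    apply huv
    have : u = 1 := congrArg Subtype.val h1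
    rw [this, one_mul, mul_one]
  obtain ⟨kU, hkU⟩ := IsPGroup.iff_card.mp hU2
  have hkU0 : kU ≠ 0 := by
    rintro rfl
    have h1 : 1 < Nat.card U := Finite.one_lt_card
    rw [hkU] at h1
    simp at h1
  have hUeven : Even (Nat.card U) := by
    rw [hkU]
    exact Nat.even_pow.mpr ⟨even_two, hkU0⟩
  -- `|Ω| = |U| + 1`
  have huniq : ∀ u ∈ U, ∀ v ∈ U, u • b = v • b → u = v := by
    intro u hu v hv h
    have hub : u • b ≠ a := by
      intro h1
      apply hab
      have h2 : u • a = a := hUle hu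
      exact smul_left_cancel u (h2.trans h1.symm)
    obtain ⟨w, _, hw⟩ := hreg b (u • b) hab.symm hub
    have e1 := hw ⟨u, hu⟩ rfl
    have e2 := hw ⟨v, hv⟩ h.symm
    exact congrArg Subtype.val (e1.trans e2.symm)
  have hcardΩ : Nat.card Ω = Nat.card U + 1 := by
    have e : U ≃ {x : Ω // x ≠ a} := by
      refine Equiv.ofBijective (fun u => ⟨(u : G) • b, ?_⟩) ⟨?_, ?_⟩
      · intro h1
        apply hab
        have h2 : (u : G) • a = a := hUle u.2
        exact smul_left_cancel (u : G) (h2.trans h1.symm)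
      · intro u v h
        exact Subtype.ext (huniq u u.2 v v.2 (congrArg Subtype.val h))
      · rintro ⟨c, hc⟩
        obtain ⟨w, hw, _⟩ := hreg b c hab.symm hc
        exact ⟨w, Subtype.ext hw⟩
    rw [Nat.card_congr e, Nat.card_eq_fintype_card, Nat.card_eq_fintype_card,
      Fintype.card_subtype_compl, Fintype.card_subtype_eq]
    have : 0 < Fintype.card Ω := Fintype.card_pos_iff.mpr ⟨a⟩
    omega
  have hΩodd : Odd (Fintype.card Ω) := by
    rw [← Nat.card_eq_fintype_card, hcardΩ]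
    exact hUeven.add_one
  have hO : Cfsg.Agent.LieExceptional.ZassenhausOdd.OddZ G Ω :=
    ⟨hfaith, MulAction.is_two_pretransitive_iff.mp htwo, hthree, hΩodd⟩
  -- the two-point stabiliser
  set H : Subgroup G := MulAction.stabilizer G a ⊓ MulAction.stabilizer G b with hH
  have hHodd : Odd (Nat.card H) := by
    rw [← Nat.not_even_iff_odd, even_iff_two_dvd]
    intro h2
    obtain ⟨x, hx⟩ := exists_prime_orderOf_dvd_card' 2 h2
    have h3 := hO.odd_order hab (d := (x : G)) x.2.1 x.2.2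
    rw [Subgroup.orderOf_coe, hx] at h3
    exact absurd h3 (by decide)
  obtain ⟨t, hta, htb⟩ := hO.two hab hab.symm
  have htt : t * t = 1 := hO.swap_sq hab hta htb
  have ht1 : t ≠ 1 := by
    rintro rfl
    rw [one_smul] at hta
    exact hab hta
  have hHcyc : IsCyclic H :=
    Cfsg.Agent.CharactersDeep.ZassenhausOdd.isCyclic_two_point hZ hab hHodd
  -- an element of `H` commuting with a nontrivial element of `U` is trivial
  have hfpf : ∀ h ∈ H, ∀ u ∈ U, u ≠ 1 → h * u * h⁻¹ = u → h = 1 := by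
    intro h hh u hu hu1 hhu
    have h1 : h • (u • b) = u • b := by
      have : h * u = u * h := mul_inv_eq_iff_eq_mul.mp hhu
      rw [← mul_smul, this, mul_smul, (show h • b = b from hh.2)]
    have hua : u • b ≠ a := by
      intro h1
      apply hab
      have h2 : u • a = a := hUle hu
      exact smul_left_cancel u (h2.trans h1.symm)
    have hub : u • b ≠ b := by
      intro h1
      apply hu1
      exact huniq u hu 1 U.one_mem (by rw [h1, one_smul])
    exact hO.three h a b (u • b) hab hub.symm hua.symm hh.1 hh.2 h1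
  -- the rank-one set-up
  have hS : Cfsg.IsRankOneSetup G Ω a t U := by
    refine ⟨htwo, htt, ht1, ?_, hUle, hUn, ?_, ?_, hUeven, ?_⟩
    · intro h1
      exact hab ((show t • a = a from h1).symm.trans hta)
    · rw [hta, eq_bot_iff]
      rintro u ⟨hu, hub⟩
      exact huniq u hu 1 U.one_mem (by rw [one_smul]; exact hub)
    · rw [hta]
      apply le_antisymm
      · exact sup_le hUle inf_le_left
      · intro g hg
        have hga : g • a = a := hg
        have hgb : g • b ≠ a := by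
          intro h1
          exact hab (smul_left_cancel g (hga.trans h1.symm))
        obtain ⟨w, hw, _⟩ := hreg b (g • b) hab.symm hgb
        have h1 : (w : G)⁻¹ * g ∈ MulAction.stabilizer G a ⊓ MulAction.stabilizer G b := by
          have hwa : (w : G) • a = a := hUle w.2
          refine ⟨?_, ?_⟩
          · change ((w : G)⁻¹ * g) • a = a
            rw [mul_smul, hga, inv_smul_eq_iff, hwa]
          · change ((w : G)⁻¹ * g) • b = b
            rw [mul_smul, inv_smul_eq_iff]
            exact hw.symm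
        have h2 : g = (w : G) * ((w : G)⁻¹ * g) := by group
        rw [h2]
        exact Subgroup.mul_mem_sup w.2 h1
    · rw [hta]; exact hHodd
  -- orders
  have hcardG : Nat.card G = Nat.card U * Nat.card H * (Nat.card U + 1) := by
    have := (Cfsg.Agent.S1119.result hS).2.2.1
    rw [hta] at this
    exact this
  obtain ⟨m, hm, hcardG'⟩ := (Cfsg.Agent.S0347.result hZ a U hUle (by
      refine ⟨?_⟩
      rintro ⟨n, hn⟩ hnU ⟨g, hg⟩
      exact hUn g hg n hnU) hU2 (by
      obtain ⟨u, hu, v, hv, huv⟩ := hUna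
      exact ⟨⟨u, hu⟩, ⟨v, hv⟩, fun h => huv (congrArg Subtype.val h)⟩) hreg).2
  set Q : ℕ := 2 ^ (2 * m + 1) with hQ
  have hQpos : 1 < Q := Nat.one_lt_two_pow (by omega)
  have hQeven : Even Q := Nat.even_pow.mpr ⟨even_two, by omega⟩
  have hkU2 : kU = (2 * m + 1) * 2 := by
    have e1 : 2 ^ kU * (Nat.card H * (2 ^ kU + 1)) =
        2 ^ ((2 * m + 1) * 2) * ((Q ^ 2 + 1) * (Q - 1)) := by
      rw [pow_mul, ← hQ, ← hkU, ← mul_assoc, ← mul_assoc, ← hcardG, hcardG']
    refine pow_eq_of_mul_eq (hHodd.mul ?_) (Odd.mul ?_ ?_) e1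
    · rw [← hkU]; exact hUeven.add_one
    · exact (Nat.even_pow.mpr ⟨hQeven, by norm_num⟩).add_one
    · exact Nat.Even.sub_odd hQpos.le hQeven odd_one
  have hcardU : Nat.card U = Q ^ 2 := by
    rw [hkU, hkU2, pow_mul]
  have hcardH : Nat.card H = Q - 1 := by
    rw [hcardU, hcardG'] at hcardG
    have h1 : 0 < Q ^ 2 := by positivity
    have h2 : Q ^ 2 * (Q ^ 2 + 1) * (Q - 1) = Q ^ 2 * (Q ^ 2 + 1) * Nat.card H := by
      rw [hcardG]; ring
    exact (Nat.eq_of_mul_eq_mul_left (by positivity) h2).symm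
  -- involutions of `G_a` lie in `U`
  have hinvU : ∀ s : G, s • a = a → s * s = 1 → s ∈ U := by
    intro s hsa hss
    by_cases hs1 : s = 1
    · rw [hs1]; exact U.one_mem
    have hsb : s • b ≠ a := by
      intro h1
      exact hab (smul_left_cancel s (hsa.trans h1.symm))
    -- take an involution `z` of `U`
    obtain ⟨z, hz⟩ := exists_prime_orderOf_dvd_card' 2 (even_iff_two_dvd.mp hUeven)
    have hz1 : (z : G) ≠ 1 := by
      intro h1
      have : z = 1 := Subtype.ext h1
      rw [this, orderOf_one] at hz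
      omega
    have hz2 : (z : G) * z = 1 := by
      have := pow_orderOf_eq_one z
      rw [hz, pow_two] at this
      exact congrArg Subtype.val this
    have htr := (Cfsg.Agent.S1122.result hS).2 (z : G) ⟨hUle z.2, hz1, hz2⟩ s ⟨hsa, hs1, hss⟩
    obtain ⟨k, hk, hks⟩ := htr
    have hka : k ∈ MulAction.stabilizer G a := hk.1.1
    have := hUn k⁻¹ (inv_mem hka) z z.2
    rw [inv_inv, hks] at this
    exact this
  -- `H` acts on `U`
  have hHU : ∀ h ∈ H, ∀ u ∈ U, h * u * h⁻¹ ∈ U := fun h hh u hu => hUn h hh.1 u hu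
  let act : H →* MulAut U :=
    { toFun := fun h =>
        { toFun := fun u => ⟨h * u * (h : G)⁻¹, hHU h h.2 u u.2⟩
          invFun := fun u => ⟨(h : G)⁻¹ * u * h, by
            have := hHU (h : G)⁻¹ (inv_mem h.2) u u.2
            rwa [inv_inv] at this⟩
          left_inv := fun u => Subtype.ext (by simp [mul_assoc])
          right_inv := fun u => Subtype.ext (by simp [mul_assoc])
          map_mul' := fun u v => Subtype.ext (by simp [mul_assoc]) }
      map_one' := by ext u; simp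
      map_mul' := fun g h => by ext u; simp [mul_assoc] }
  have hact : ∀ (h : H) (u : U), ((act h u : U) : G) = (h : G) * u * (h : G)⁻¹ := fun h u => rfl
  -- transitivity on involutions
  have htrans : ∀ x y : U, x ≠ 1 → x * x = 1 → y ≠ 1 → y * y = 1 → ∃ h : H, act h x = y := by
    intro x y hx1 hx2 hy1 hy2
    have hx1' : (x : G) ≠ 1 := fun h => hx1 (Subtype.ext h)
    have hy1' : (y : G) ≠ 1 := fun h => hy1 (Subtype.ext h)
    have hx2' : (x : G) * x = 1 := congrArg Subtype.val hx2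
    have hy2' : (y : G) * y = 1 := congrArg Subtype.val hy2
    obtain ⟨k, hk, hkxy⟩ := (Cfsg.Agent.S1122.result hS).2 (x : G) ⟨hUle x.2, hx1', hx2'⟩
      (y : G) ⟨hUle y.2, hy1', hy2'⟩
    have hkH : k ∈ H := by
      have := hk.1
      rw [hta] at this
      exact this
    refine ⟨⟨k, hkH⟩⁻¹, Subtype.ext ?_⟩
    rw [hact]
    simpa using hkxy
  have hfree : ∀ (g h : H) (x : U), x ≠ 1 → act g x = act h x → g = h := by
    intro g h x hx1 hgh
    have hx1' : (x : G) ≠ 1 := fun h => hx1 (Subtype.ext h)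
    have h1 : (g : G) * x * (g : G)⁻¹ = (h : G) * x * (h : G)⁻¹ := congrArg Subtype.val hgh
    have h2 : ((h : G)⁻¹ * g) * x * ((h : G)⁻¹ * g)⁻¹ = x := by
      have h3 : ((h : G)⁻¹ * g) * x * ((h : G)⁻¹ * g)⁻¹ =
          (h : G)⁻¹ * ((g : G) * x * (g : G)⁻¹) * h := by group
      rw [h3, h1]; group
    have h3 := hfpf _ (mul_mem (inv_mem h.2) g.2) x x.2 hx1' h2
    exact Subtype.ext (inv_mul_eq_one.mp h3).symm
  have hHlt : 1 < Nat.card H := by
    rw [hcardH]
    have : 2 ^ 3 ≤ Q := Nat.pow_le_pow_right (by norm_num) (by omega)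
    omega
  have hHnt : Nontrivial H := Finite.one_lt_card_iff_nontrivial.mp hHlt
  obtain ⟨z₀, hz₀⟩ := exists_prime_orderOf_dvd_card' 2 (even_iff_two_dvd.mp hUeven)
  have hz₀1 : z₀ ≠ 1 := by
    rintro rfl
    rw [orderOf_one] at hz₀
    omega
  have hz₀2 : z₀ * z₀ = 1 := by
    rw [← pow_two, ← hz₀]
    exact pow_orderOf_eq_one z₀
  have hSuz : Cfsg.IsSuzukiTwoGroup U := by
    refine ⟨inferInstance, hU2, ?_, ?_, act.range, ?_, ?_⟩
    · obtain ⟨u, hu, v, hv, huv⟩ := hUna
      exact ⟨⟨u, hu⟩, ⟨v, hv⟩, fun h => huv (congrArg Subtype.val h)⟩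
    · obtain ⟨h, hh⟩ := exists_ne (1 : H)
      refine ⟨z₀, act h z₀, ?_, hz₀1, hz₀2, ?_, ?_⟩
      · intro h1
        apply hh
        apply hfree h 1 z₀ hz₀1
        rw [map_one, MulAut.one_apply]
        exact h1.symm
      · intro h1
        apply hz₀1
        exact (MulEquiv.map_eq_one_iff (act h)).mp h1
      · rw [← map_mul, hz₀2, map_one]
    · exact isCyclic_of_surjective act.rangeRestrict act.rangeRestrict_surjective
    · intro x y hx1 hx2 hy1 hy2
      obtain ⟨h, hh⟩ := htrans x y hx1 hx2 hy1 hy2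
      refine ⟨⟨act h, ⟨h, rfl⟩⟩, hh, ?_⟩
      rintro ⟨_, ⟨g, rfl⟩⟩ hg
      have : g = h := hfree g h x hx1 (hg.trans hh.symm)
      rw [this]
  -- the centre
  obtain ⟨hcen, hcen2⟩ := Cfsg.Agent.S1137.result hSuz
  have hcardZ : Nat.card (Subgroup.center U) = Q := by
    have e : Option H ≃ Subgroup.center U := by
      have hmem : ∀ h : H, act h z₀ ∈ Subgroup.center U := fun h =>
        ((hcen _).mp ⟨fun h1 => hz₀1 ((MulEquiv.map_eq_one_iff (act h)).mp h1), by
          rw [← map_mul, hz₀2, map_one]⟩).1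
      refine Equiv.ofBijective (fun o => o.elim 1 fun h => ⟨act h z₀, hmem h⟩) ⟨?_, ?_⟩
      · rintro (_ | g) (_ | h) hgh
        · rfl
        · exfalso
          have h1 : (1 : U) = act h z₀ := congrArg Subtype.val hgh
          exact hz₀1 ((MulEquiv.map_eq_one_iff (act h)).mp h1.symm)
        · exfalso
          have h1 : act g z₀ = (1 : U) := congrArg Subtype.val hgh
          exact hz₀1 ((MulEquiv.map_eq_one_iff (act g)).mp h1)
        · have h1 : act g z₀ = act h z₀ := congrArg Subtype.val hgh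
          rw [hfree g h z₀ hz₀1 h1]
      · rintro ⟨x, hx⟩
        by_cases hx1 : x = 1
        · exact ⟨none, Subtype.ext hx1.symm⟩
        · obtain ⟨h, hh⟩ := htrans z₀ x hz₀1 hz₀2 hx1 (hcen2 x hx)
          exact ⟨some h, Subtype.ext hh⟩
    rw [← Nat.card_congr e, Finite.card_option, hcardH]
    omega
  obtain ⟨F, hF, hF', φ, hcardF, -, -, hφ⟩ := Cfsg.Agent.S1139.result hSuz (by
    rw [hcardU, hcardZ])
  refine ⟨2 * m + 1, ⟨m, rfl⟩, by omega, ?_, hHcyc, hcardH, F, hF, hF', φ, ?_, hφ⟩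
  · rw [hcardΩ, hcardU, hQ, ← pow_mul, mul_comm]
  · rw [hcardF, hcardZ]

end Cfsg.Agent.S1147
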