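-- Statement S1148: recognition of `PSU₃(q)`, `q` odd, by a split (B,N)-pair of rank one.
import Cfsg.Agent.ONan.FromBN
import Cfsg.Prelude.Def_Classical
import Cfsg.Agent.LieClassical.SUBasic
import Cfsg.Agent.LieClassical.HermBasic
import Cfsg.Agent.S0280
import Mathlib
import Cfsg.Agent.ONan.SL2Hom
import Cfsg.Agent.ONan.FieldOfTorus
import Cfsg.Agent.ONan.PairCoord
import Cfsg.Statements.S1148
set_option linter.all false

-- part: ONan/StructU1
section
/-!
# Odd unitary type: the structure of `U`, part 1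

A cleaned up version `Core` of `CoordData` and the determination of the inverses of the elements of `U`
in coordinates.
-/

set_option autoImplicit false

namespace Cfsg.Agent.ONan.StructU1

/-- admissible coordinates, with the involutory automorphism `σ` -/
def Pt {F : Type*} [Field F] (σ : F →+* F) (e v y : F) : Prop := y - σ y = 2 * e * (v * σ v)

/-- `CoordData`, restated with the automorphism `σ` of order 2 of `F`. -/
structure Core {G Ω F : Type*} [Group G] [MulAction G Ω] [Field F] (σ : F →+* F) (e : F)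
    (Λ : Subgroup Fˣ) (inf : Ω) (pt : F → F → Ω) (U H : Subgroup G) (w t : G) : Prop where
  σσ : ∀ x, σ (σ x) = x
  σe : σ e = -e
  e0 : e ≠ 0
  two : (2 : F) ≠ 0
  odd : Odd (Nat.card U)
  pt_ne : ∀ v y, Pt σ e v y → pt v y ≠ inf
  pt_inj : ∀ v y v' y', Pt σ e v y → Pt σ e v' y' → pt v y = pt v' y' → v = v' ∧ y = y'
  pt_surj : ∀ P, P ≠ inf → ∃ v y, Pt σ e v y ∧ pt v y = P
  U_inf : ∀ u ∈ U, u • inf = inf
  U_norm : ∀ g : G, g • inf = inf → ∀ u ∈ U, g * u * g⁻¹ ∈ U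
  U_trans : ∀ P Q, P ≠ inf → Q ≠ inf → ∃ u ∈ U, u • P = Q
  U_free : ∀ P, P ≠ inf → ∀ u ∈ U, u • P = P → u = 1
  mem_H : ∀ g : G, g ∈ H ↔ g • inf = inf ∧ g • pt 0 0 = pt 0 0
  H_act : ∀ h ∈ H, ∃ ψ ∈ Λ, ∀ v y, Pt σ e v y →
    h • pt v y = pt (σ (ψ : F) * v) ((ψ : F) * σ ψ * y)
  exists_H : ∀ ψ ∈ Λ, ∃ h ∈ H, ∀ v y, Pt σ e v y →
    h • pt v y = pt (σ (ψ : F) * v) ((ψ : F) * σ ψ * y)
  t_mem : t ∈ H
  t_ne : t ≠ 1
  t_sq : t * t = 1
  t_unique : ∀ x ∈ H, x * x = 1 → x = 1 ∨ x = t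
  t_act : ∀ v y, Pt σ e v y → t • pt v y = pt (-v) y
  w_sq : w * w = 1
  w_inf : w • inf = pt 0 0
  w_act : ∀ v y, Pt σ e v y → y ≠ 0 → w • pt v y = pt (e * v / y) (e ^ 2 / y)
  w_class : ∀ g, IsConj t g → g • inf = pt 0 0 → ∃ h ∈ H, g = h * w * h⁻¹
  exists_T : ∀ s : F, σ s = s → ∃ u ∈ U, u * t = t * u ∧
    ∀ v y, Pt σ e v y → u • pt v y = pt v (y + s)
  T_comm : ∀ u ∈ U, u * t = t * u → ∀ u' ∈ U, u * u' = u' * u

section

variable {G Ω F : Type*} [Group G] [MulAction G Ω] [Field F] {σ : F →+* F} {e : F}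
  {Λ : Subgroup Fˣ} {inf : Ω} {pt : F → F → Ω} {U H : Subgroup G} {w t : G}

variable (σ e pt U) in
/-- `u ∈ U` maps `(0,0)` to the point `(a, A)` -/
def Co (u : G) (a A : F) : Prop := u ∈ U ∧ Pt σ e a A ∧ u • pt 0 0 = pt a A

theorem pt00 : Pt σ e 0 0 := by simp [Pt]

theorem pt_fix_iff {s : F} : Pt σ e 0 s ↔ σ s = s := by
  unfold Pt
  simp only [zero_mul, mul_zero, sub_eq_zero]
  exact eq_comm

theorem pt_add {v y s : F} (h : Pt σ e v y) (hs : σ s = s) : Pt σ e v (y + s) := by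
  unfold Pt at h ⊢
  rw [map_add, hs, ← h]
  ring

theorem pt_sub {v y y' : F} (h : Pt σ e v y) (h' : Pt σ e v y') : σ (y' - y) = y' - y := by
  unfold Pt at h h'
  rw [map_sub]
  linear_combination h - h'

variable (D : Core σ e Λ inf pt U H w t)

include D

theorem t_inv : t⁻¹ = t := inv_eq_of_mul_eq_one_right D.t_sq

theorem w_inv : w⁻¹ = w := inv_eq_of_mul_eq_one_right D.w_sq

theorem O_ne : pt 0 0 ≠ inf := D.pt_ne 0 0 pt00

theorem w_O : w • pt 0 0 = inf := by
  rw [← D.w_inf, smul_smul, D.w_sq, one_smul]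

theorem t_inf : t • inf = inf := ((D.mem_H t).1 D.t_mem).1

theorem t_O : t • pt 0 0 = pt 0 0 := ((D.mem_H t).1 D.t_mem).2

theorem Uinv_inf {u : G} (hu : u ∈ U) : u⁻¹ • inf = inf := D.U_inf _ (inv_mem hu)

theorem smul_ne_inf {u : G} (hu : u ∈ U) {P : Ω} (hP : P ≠ inf) : u • P ≠ inf := by
  intro h
  apply hP
  have : u⁻¹ • u • P = u⁻¹ • inf := by rw [h]
  rwa [inv_smul_smul, Uinv_inf D hu] at this

theorem co_ex {u : G} (hu : u ∈ U) : ∃ a A, Co σ e pt U u a A := by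
  obtain ⟨a, A, h1, h2⟩ := D.pt_surj (u • pt 0 0) (smul_ne_inf D hu (O_ne D))
  exact ⟨a, A, hu, h1, h2.symm⟩

theorem co_surj {a A : F} (h : Pt σ e a A) : ∃ u, Co σ e pt U u a A := by
  obtain ⟨u, hu, h2⟩ := D.U_trans (pt 0 0) (pt a A) (O_ne D) (D.pt_ne _ _ h)
  exact ⟨u, hu, h, h2⟩

theorem co_inj {u u' : G} {a A : F} (h : Co σ e pt U u a A) (h' : Co σ e pt U u' a A) :
    u = u' := by
  have h1 : (u'⁻¹ * u) • pt 0 0 = pt 0 0 := by
    rw [mul_smul, h.2.2, ← h'.2.2, inv_smul_smul]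
  have h2 := D.U_free _ (O_ne D) _ (mul_mem (inv_mem h'.1) h.1) h1
  exact (inv_mul_eq_one.1 h2).symm

theorem co_fun {u : G} {a A a' A' : F} (h : Co σ e pt U u a A) (h' : Co σ e pt U u a' A') :
    a = a' ∧ A = A' :=
  D.pt_inj _ _ _ _ h.2.1 h'.2.1 (h.2.2.symm.trans h'.2.2)

omit D in
theorem co_one : Co σ e pt U 1 0 0 := ⟨one_mem _, pt00, one_smul _ _⟩

theorem tconj_mem {u : G} (hu : u ∈ U) : t * u * t⁻¹ ∈ U := D.U_norm t (t_inf D) u hu

theorem co_tconj {u : G} {a A : F} (h : Co σ e pt U u a A) :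
    Co σ e pt U (t * u * t⁻¹) (-a) A := by
  refine ⟨tconj_mem D h.1, ?_, ?_⟩
  · have := h.2.1
    unfold Pt at this ⊢
    rw [this, map_neg]
    ring
  · rw [t_inv D, mul_smul, mul_smul, t_O D, h.2.2, D.t_act _ _ h.2.1]

theorem co_zero_of_comm {u : G} {a A : F} (h : Co σ e pt U u a A) (hc : u * t = t * u) :
    a = 0 := by
  have h1 := co_tconj D h
  have h2 : t * u * t⁻¹ = u := by rw [← hc, mul_inv_cancel_right]
  rw [h2] at h1
  have h3 := (co_fun D h h1).1
  have h4 : (2 : F) * a = 0 := by linear_combination h3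
  exact (mul_eq_zero.1 h4).resolve_left D.two

/-- the elements of `U` with first coordinate 0 -/
theorem T_of_co {τ : G} {s : F} (h : Co σ e pt U τ 0 s) :
    τ * t = t * τ ∧ (∀ v y, Pt σ e v y → τ • pt v y = pt v (y + s)) ∧
      ∀ u ∈ U, τ * u = u * τ := by
  have hs : σ s = s := pt_fix_iff.1 h.2.1
  obtain ⟨u, hu, hut, hact⟩ := D.exists_T s hs
  have h1 : Co σ e pt U u 0 s := by
    refine ⟨hu, h.2.1, ?_⟩
    rw [hact 0 0 pt00, zero_add]
  have h2 := co_inj D h h1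
  subst h2
  exact ⟨hut, hact, D.T_comm _ hu hut⟩

theorem co_T_mul {τ u : G} {s a A : F} (h : Co σ e pt U τ 0 s) (hu : Co σ e pt U u a A) :
    Co σ e pt U (τ * u) a (A + s) := by
  refine ⟨mul_mem h.1 hu.1, pt_add hu.2.1 (pt_fix_iff.1 h.2.1), ?_⟩
  rw [mul_smul, hu.2.2, (T_of_co D h).2.1 _ _ hu.2.1]

theorem co_T_inv {τ : G} {s : F} (h : Co σ e pt U τ 0 s) : Co σ e pt U τ⁻¹ 0 (-s) := by
  have hs : σ s = s := pt_fix_iff.1 h.2.1
  have h1 : Pt σ e 0 (-s) := pt_fix_iff.2 (by rw [map_neg, hs])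
  obtain ⟨u, hu⟩ := co_surj D h1
  have h2 := co_T_mul D h hu
  rw [neg_add_cancel] at h2
  have h3 := co_inj D h2 co_one
  rw [← eq_inv_of_mul_eq_one_right h3]
  exact hu

/-- `s = τ u` if `u`, `s` have the same first coordinate -/
theorem co_eq_T_mul {u s : G} {a A B : F} (hu : Co σ e pt U u a A) (hs : Co σ e pt U s a B) :
    ∃ τ, Co σ e pt U τ 0 (B - A) ∧ s = τ * u := by
  obtain ⟨τ, hτ⟩ := co_surj D (pt_fix_iff.2 (pt_sub hu.2.1 hs.2.1))
  refine ⟨τ, hτ, ?_⟩
  have h2 := co_T_mul D hτ hu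
  rw [add_sub_cancel] at h2
  exact co_inj D hs h2

theorem pow_card_U {b : G} (hb : b ∈ U) : b ^ (Nat.card U) = 1 := by
  have := pow_card_eq_one' (x := (⟨b, hb⟩ : U))
  have h2 := congrArg (Subtype.val) this
  simpa only [SubmonoidClass.coe_pow, OneMemClass.coe_one] using h2

/-- square roots of inverted elements -/
theorem exists_root {b : G} (hb : b ∈ U) (hbt : t * b * t⁻¹ = b⁻¹) :
    ∃ c ∈ U, t * c * t⁻¹ = c⁻¹ ∧ c * c = b := by
  obtain ⟨k, hk⟩ := D.odd
  refine ⟨b ^ (k + 1), pow_mem hb _, ?_, ?_⟩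
  · rw [← conj_pow, hbt, inv_pow]
  · rw [← pow_add]
    have : k + 1 + (k + 1) = Nat.card U + 1 := by omega
    rw [this, pow_succ, pow_card_U D hb, one_mul]

theorem exists_Sv {u : G} {a A : F} (h : Co σ e pt U u a A) :
    ∃ s B, Co σ e pt U s a B ∧ t * s * t⁻¹ = s⁻¹ := by
  have htt : t * t = 1 := D.t_sq
  set b : G := u * (t * u⁻¹ * t⁻¹) with hb
  have hbU : b ∈ U := mul_mem h.1 (tconj_mem D (inv_mem h.1))
  have hbt : t * b * t⁻¹ = b⁻¹ := by
    rw [hb, t_inv D]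
    simp only [mul_inv_rev, inv_inv, t_inv D]
    calc t * (u * (t * u⁻¹ * t)) * t = t * u * t * u⁻¹ * (t * t) := by group
      _ = t * (u * t) * u⁻¹ := by rw [htt]; group
  obtain ⟨c, hc, hct, hcc⟩ := exists_root D hbU hbt
  have hr : c⁻¹ * u ∈ U := mul_mem (inv_mem hc) h.1
  have hrt : (c⁻¹ * u) * t = t * (c⁻¹ * u) := by
    have h1 : t * c⁻¹ * t⁻¹ = c := by
      have := congrArg (·⁻¹) hct
      simpa [mul_assoc] using this
    have h2 : c * (t * u * t⁻¹) = c⁻¹ * u := by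
      have h3 : c * c * (t * u * t⁻¹) = u := by
        rw [hcc, hb]; group
      rw [mul_assoc] at h3
      exact eq_inv_mul_of_mul_eq h3
    have h4 : t * (c⁻¹ * u) * t⁻¹ = c⁻¹ * u := by
      calc t * (c⁻¹ * u) * t⁻¹ = (t * c⁻¹ * t⁻¹) * (t * u * t⁻¹) := by group
        _ = c⁻¹ * u := by rw [h1, h2]
    calc (c⁻¹ * u) * t = (t * (c⁻¹ * u) * t⁻¹) * t := by rw [h4]
      _ = t * (c⁻¹ * u) := by group
  obtain ⟨r, R, hR⟩ := co_ex D hr
  have hr0 := co_zero_of_comm D hR hrt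
  subst hr0
  have hR' := co_T_inv D hR
  have h5 := co_T_mul D hR' h
  have h6 : (c⁻¹ * u)⁻¹ * u = c := by
    have hcen := (T_of_co D hR).2.2 c hc
    calc (c⁻¹ * u)⁻¹ * u = (c⁻¹ * u)⁻¹ * (c * (c⁻¹ * u)) := by group
      _ = (c⁻¹ * u)⁻¹ * ((c⁻¹ * u) * c) := by rw [hcen]
      _ = c := by group
  rw [h6] at h5
  exact ⟨c, _, h5, hct⟩

theorem Sv_exists {a : F} : ∃ s B, Co σ e pt U s a B ∧ t * s * t⁻¹ = s⁻¹ := by
  have : Pt σ e a (e * (a * σ a)) := by
    unfold Pt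
    rw [map_mul, map_mul, D.σe, D.σσ]
    ring
  obtain ⟨u, hu⟩ := co_surj D this
  exact exists_Sv D hu

theorem co_Sv_inv {s : G} {a B : F} (h : Co σ e pt U s a B) (hs : t * s * t⁻¹ = s⁻¹) :
    Co σ e pt U s⁻¹ (-a) B := by
  rw [← hs]
  exact co_tconj D h

theorem Sv_unique {s s' : G} {a B B' : F} (h : Co σ e pt U s a B) (hs : t * s * t⁻¹ = s⁻¹)
    (h' : Co σ e pt U s' a B') (hs' : t * s' * t⁻¹ = s'⁻¹) : B = B' := by
  obtain ⟨τ, hτ, he⟩ := co_eq_T_mul D h h'
  obtain ⟨h1, -, h3⟩ := T_of_co D hτ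
  have h4 : t * s' * t⁻¹ = τ * s⁻¹ := by
    rw [he]
    calc t * (τ * s) * t⁻¹ = (t * τ) * t⁻¹ * (t * s * t⁻¹) := by group
      _ = τ * s⁻¹ := by rw [← h1, hs]; group
  rw [hs', he, mul_inv_rev] at h4
  have h5 : τ * s⁻¹ = s⁻¹ * τ := h3 _ (inv_mem h.1)
  rw [h5] at h4
  have h6 : τ⁻¹ = τ := mul_left_cancel h4
  have h7 := co_T_inv D hτ
  rw [h6] at h7
  have h8 := (co_fun D hτ h7).2
  have h9 : (2 : F) * (B' - B) = 0 := by linear_combination h8
  have h10 := (mul_eq_zero.1 h9).resolve_left D.two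
  exact (sub_eq_zero.1 h10).symm

/-- coordinates of inverses -/
theorem co_inv_aux {u s : G} {a A B : F} (h : Co σ e pt U u a A) (hsc : Co σ e pt U s a B)
    (hs : t * s * t⁻¹ = s⁻¹) : Co σ e pt U u⁻¹ (-a) (2 * B - A) := by
  obtain ⟨τ, hτ, he⟩ := co_eq_T_mul D hsc h
  have h1 := co_T_mul D (co_T_inv D hτ) (co_Sv_inv D hsc hs)
  have h2 : u⁻¹ = τ⁻¹ * s⁻¹ := by
    rw [he, (T_of_co D hτ).2.2 s hsc.1, mul_inv_rev]
  rw [h2]
  convert h1 using 1
  ring

/-! ### the action of `H` -/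

theorem pt_H {ψ v y : F} (h : Pt σ e v y) : Pt σ e (σ ψ * v) (ψ * σ ψ * y) := by
  unfold Pt at h ⊢
  simp only [map_mul, D.σσ]
  linear_combination (ψ * σ ψ) * h

theorem co_hconj {h : G} (hh : h ∈ H) {ψ : F}
    (hact : ∀ v y, Pt σ e v y → h • pt v y = pt (σ ψ * v) (ψ * σ ψ * y)) {u : G} {a A : F}
    (hu : Co σ e pt U u a A) : Co σ e pt U (h * u * h⁻¹) (σ ψ * a) (ψ * σ ψ * A) := by
  obtain ⟨h1, h2⟩ := (D.mem_H h).1 hh
  refine ⟨D.U_norm h h1 u hu.1, pt_H D hu.2.1, ?_⟩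
  have h3 : h⁻¹ • pt 0 0 = pt 0 0 := by
    rw [inv_smul_eq_iff, h2]
  rw [mul_smul, mul_smul, h3, hu.2.2, hact _ _ hu.2.1]

theorem h_comm_t {h : G} (hh : h ∈ H) : h * t * h⁻¹ = t := by
  have h1 : h * t * h⁻¹ ∈ H := mul_mem (mul_mem hh D.t_mem) (inv_mem hh)
  have h2 : (h * t * h⁻¹) * (h * t * h⁻¹) = 1 := by
    calc (h * t * h⁻¹) * (h * t * h⁻¹) = h * (t * t) * h⁻¹ := by group
      _ = 1 := by rw [D.t_sq]; group
  rcases D.t_unique _ h1 h2 with h3 | h3
  · exact absurd (by simpa [mul_inv_eq_one] using h3) D.t_ne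
  · exact h3

theorem Sv_hconj {h : G} (hh : h ∈ H) {s : G} (hs : t * s * t⁻¹ = s⁻¹) :
    t * (h * s * h⁻¹) * t⁻¹ = (h * s * h⁻¹)⁻¹ := by
  have h1 : h * t = t * h := by
    have := h_comm_t D hh
    calc h * t = (h * t * h⁻¹) * h := by group
      _ = t * h := by rw [this]
  have h2 : h⁻¹ * t⁻¹ = t⁻¹ * h⁻¹ := by
    rw [← mul_inv_rev, ← mul_inv_rev, h1]
  calc t * (h * s * h⁻¹) * t⁻¹ = (t * h) * s * (h⁻¹ * t⁻¹) := by group
    _ = h * (t * s * t⁻¹) * h⁻¹ := by rw [← h1, h2]; group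
    _ = (h * s * h⁻¹)⁻¹ := by rw [hs]; group

/-! ### the function `rr` -/

omit D in
variable (σ e) in
/-- the invariant of a point -/
noncomputable def rr (v y : F) : F := y / (v * σ v) - e

omit D in
theorem rr_H {ψ v y : F} (hψ : ψ ≠ 0) (hv : v ≠ 0) (hσσ : ∀ x, σ (σ x) = x) :
    rr σ e (σ ψ * v) (ψ * σ ψ * y) = rr σ e v y := by
  have h1 : σ ψ ≠ 0 := (map_ne_zero σ).2 hψ
  have h2 : σ v ≠ 0 := (map_ne_zero σ).2 hv
  unfold rr
  rw [map_mul, hσσ]
  congr 1
  field_simp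

theorem y_ne {v y : F} (h : Pt σ e v y) (hv : v ≠ 0) : y ≠ 0 := by
  rintro rfl
  unfold Pt at h
  rw [map_zero, sub_zero] at h
  have h2 : σ v ≠ 0 := (map_ne_zero σ).2 hv
  exact (mul_ne_zero (mul_ne_zero D.two D.e0) (mul_ne_zero hv h2)) h.symm

theorem pt_w {v y : F} (h : Pt σ e v y) (hy : y ≠ 0) : Pt σ e (e * v / y) (e ^ 2 / y) := by
  have h1 : σ y ≠ 0 := (map_ne_zero σ).2 hy
  unfold Pt at h ⊢
  simp only [map_div₀, map_mul, map_pow, D.σe]
  field_simp
  linear_combination (-e ^ 2) * h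

theorem rr_w {v y : F} (h : Pt σ e v y) (hv : v ≠ 0) :
    rr σ e (e * v / y) (e ^ 2 / y) = - rr σ e v y := by
  have hy := y_ne D h hv
  have h1 : σ y ≠ 0 := (map_ne_zero σ).2 hy
  have h2 : σ v ≠ 0 := (map_ne_zero σ).2 hv
  have he := D.e0
  unfold Pt at h
  unfold rr
  simp only [map_div₀, map_mul, D.σe]
  field_simp
  linear_combination h

omit D in
theorem rr_neg {v y : F} : rr σ e (-v) y = rr σ e v y := by
  unfold rr
  rw [map_neg, neg_mul_neg]

theorem fix_w {v y : F} (h : Pt σ e v y) (hv : v ≠ 0) (hw : w • pt v y = pt v y) :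
    rr σ e v y = 0 := by
  have hy := y_ne D h hv
  rw [D.w_act v y h hy] at hw
  have h1 := (D.pt_inj _ _ _ _ (pt_w D h hy) h hw)
  have h2 := rr_w D h hv
  rw [h1.1, h1.2] at h2
  have h3 : (2 : F) * rr σ e v y = 0 := by linear_combination h2
  exact (mul_eq_zero.1 h3).resolve_left D.two

/-- the key relation -/
theorem rr_rel {s s' : G} {a B B'' : F} (ha : a ≠ 0) (h : Co σ e pt U s a B)
    (hs : t * s * t⁻¹ = s⁻¹) (h' : Co σ e pt U s' (e * a / B) B'')
    (hs' : t * s' * t⁻¹ = s'⁻¹) : rr σ e a B + 2 * rr σ e (e * a / B) B'' = 0 := by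
  have hB := y_ne D h.2.1 ha
  have he := D.e0
  have hP := pt_w D h.2.1 hB
  obtain ⟨u', hu'⟩ := co_surj D hP
  have hinv := co_inv_aux D hu' h' hs'
  obtain ⟨u1, hu1, hu1t, hu1s⟩ := exists_root D h.1 hs
  -- `s t` is conjugate to `t`
  have hst : s * t = u1 * t * u1⁻¹ := by
    have h1 : t * u1⁻¹ = u1 * t := by
      have := congrArg (·⁻¹) hu1t
      simp only [mul_inv_rev, inv_inv, t_inv D] at this
      calc t * u1⁻¹ = (t * (u1⁻¹ * t)) * t := by
            rw [mul_assoc, mul_assoc, D.t_sq, mul_one]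
        _ = u1 * t := by rw [this]
    rw [mul_assoc, h1, ← mul_assoc, hu1s]
  set x : G := u'⁻¹ * (w * (s * t) * w) * u' with hx
  have hxc : IsConj t x := by
    rw [isConj_iff]
    refine ⟨u'⁻¹ * w * u1, ?_⟩
    rw [hx, hst]
    simp only [mul_inv_rev, inv_inv, w_inv D]
    group
  have hxinf : x • inf = pt 0 0 := by
    rw [hx]
    simp only [mul_smul]
    rw [D.U_inf _ hu'.1, D.w_inf, t_O D, h.2.2, D.w_act _ _ h.2.1 hB, ← hu'.2.2, inv_smul_smul]
  obtain ⟨k, hk, hkx⟩ := D.w_class x hxc hxinf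
  have hfix : x • (u'⁻¹ • pt 0 0) = u'⁻¹ • pt 0 0 := by
    rw [hx]
    simp only [mul_smul]
    rw [smul_inv_smul, w_O D, t_inf D, D.U_inf _ h.1, D.w_inf]
  rw [hinv.2.2, hkx] at hfix
  obtain ⟨ψ, hψ, hact⟩ := D.H_act _ (inv_mem hk)
  have hfix2 : w • (k⁻¹ • pt (-(e * a / B)) (2 * B'' - e ^ 2 / B)) =
      k⁻¹ • pt (-(e * a / B)) (2 * B'' - e ^ 2 / B) := by
    conv_rhs => rw [← hfix]
    simp only [mul_smul, inv_smul_smul]
  rw [hact _ _ hinv.2.1] at hfix2
  have ha' : e * a / B ≠ 0 := div_ne_zero (mul_ne_zero he ha) hB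
  have h5 := fix_w D (pt_H D hinv.2.1) (mul_ne_zero ((map_ne_zero σ).2 ψ.ne_zero)
    (neg_ne_zero.2 ha')) hfix2
  rw [rr_H ψ.ne_zero (neg_ne_zero.2 ha') D.σσ, rr_neg] at h5
  have h6 := rr_w D h.2.1 ha
  have h7 : rr σ e (e * a / B) (2 * B'' - e ^ 2 / B) =
      2 * rr σ e (e * a / B) B'' - rr σ e (e * a / B) (e ^ 2 / B) := by
    unfold rr
    ring
  rw [h7, h6] at h5
  linear_combination h5

/-! ### the function `ρ` -/

omit D in
theorem exists_rho (D : Core σ e Λ inf pt U H w t) : ∃ ρ : F → F,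
    (∀ a s B, Co σ e pt U s a B → t * s * t⁻¹ = s⁻¹ → rr σ e a B = ρ a) := by
  classical
  have : ∀ a, ∃ r, ∀ s B, Co σ e pt U s a B → t * s * t⁻¹ = s⁻¹ → rr σ e a B = r := by
    intro a
    obtain ⟨s, B, h1, h2⟩ := Sv_exists D (a := a)
    refine ⟨rr σ e a B, fun s' B' h3 h4 => ?_⟩
    rw [Sv_unique D h1 h2 h3 h4]
  choose ρ hρ using this
  exact ⟨ρ, hρ⟩

theorem rho_H {ρ : F → F} (hρ : ∀ a s B, Co σ e pt U s a B → t * s * t⁻¹ = s⁻¹ →
    rr σ e a B = ρ a) {ψ : Fˣ} (hψ : ψ ∈ Λ) {a : F} (ha : a ≠ 0) : ρ (σ ψ * a) = ρ a := by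
  obtain ⟨h, hh, hact⟩ := D.exists_H ψ hψ
  obtain ⟨s, B, h1, h2⟩ := Sv_exists D (a := a)
  have h3 := hρ _ _ _ (co_hconj D hh hact h1) (Sv_hconj D hh h2)
  rw [← h3, rr_H ψ.ne_zero ha D.σσ]
  exact hρ _ _ _ h1 h2

theorem rho_rel {ρ : F → F} (hρ : ∀ a s B, Co σ e pt U s a B → t * s * t⁻¹ = s⁻¹ →
    rr σ e a B = ρ a) {a : F} (ha : a ≠ 0) : ∃ a', a' ≠ 0 ∧ ρ a + 2 * ρ a' = 0 := by
  obtain ⟨s, B, h1, h2⟩ := Sv_exists D (a := a)
  obtain ⟨s', B', h3, h4⟩ := Sv_exists D (a := e * a / B)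
  have h5 := rr_rel D ha h1 h2 h3 h4
  rw [hρ _ _ _ h1 h2, hρ _ _ _ h3 h4] at h5
  exact ⟨_, div_ne_zero (mul_ne_zero D.e0 ha) (y_ne D h1.2.1 ha), h5⟩

end

end Cfsg.Agent.ONan.StructU1
end

-- part: ONan/StructU2
section
/-!
# Odd unitary type: the structure of `U`, part 2: the inverses
-/

set_option autoImplicit false

namespace Cfsg.Agent.ONan.StructU2

open Cfsg.Agent.ONan.StructU1

section

variable {G Ω F : Type*} [Group G] [MulAction G Ω] [Field F] {σ : F →+* F} {e : F}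
  {Λ : Subgroup Fˣ} {inf : Ω} {pt : F → F → Ω} {U H : Subgroup G} {w t : G}

variable (D : Core σ e Λ inf pt U H w t)

include D

theorem rho_class {ρ : F → F} (hρ : ∀ a s B, Co σ e pt U s a B → t * s * t⁻¹ = s⁻¹ →
    rr σ e a B = ρ a) (hΛ : ∀ χ ∈ Λ, ∃ ψ ∈ Λ, (ψ : F) = σ (χ : Fˣ)) {χ : Fˣ} (hχ : χ ∈ Λ) {a : F}
    (ha : a ≠ 0) : ρ (χ * a) = ρ a := by
  obtain ⟨ψ, hψ, he⟩ := hΛ χ hχ
  have h := rho_H D hρ hψ ha
  rwa [he, D.σσ] at h

theorem rho_zero_three_ne {ρ : F → F} (hρ : ∀ a s B, Co σ e pt U s a B → t * s * t⁻¹ = s⁻¹ →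
    rr σ e a B = ρ a) (hΛ : ∀ χ ∈ Λ, ∃ ψ ∈ Λ, (ψ : F) = σ (χ : Fˣ)) (h3 : (3 : F) ≠ 0)
    [Finite (Fˣ ⧸ Λ)] (hc : Nat.card (Fˣ ⧸ Λ) ≤ 3) {a : F} (ha : a ≠ 0) : ρ a = 0 := by
  have hcl : ∀ x y : Fˣ, (x : Fˣ ⧸ Λ) = y → ρ x = ρ y := by
    intro x y hxy
    have h1 : x⁻¹ * y ∈ Λ := QuotientGroup.eq.1 hxy
    have h2 := rho_class D hρ hΛ h1 x.ne_zero
    rw [← h2]
    congr 1
    push_cast
    field_simp
  have hnext : ∀ x : Fˣ, ∃ y : Fˣ, ρ x + 2 * ρ y = 0 := by
    intro x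
    obtain ⟨a', ha', h⟩ := rho_rel D hρ x.ne_zero
    exact ⟨Units.mk0 a' ha', by simpa using h⟩
  choose f hf using hnext
  set x0 : Fˣ := Units.mk0 a ha with hx0
  have e01 := hf x0
  have e12 := hf (f x0)
  have e23 := hf (f (f x0))
  have : Fintype (Fˣ ⧸ Λ) := Fintype.ofFinite _
  have hlt : Fintype.card (Fˣ ⧸ Λ) < Fintype.card (Fin 4) := by
    rw [← Nat.card_eq_fintype_card, Fintype.card_fin]
    omega
  obtain ⟨i, j, hij, hfij⟩ := Fintype.exists_ne_map_eq_of_card_lt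
    (fun i : Fin 4 => ((![x0, f x0, f (f x0), f (f (f x0))] i : Fˣ) : Fˣ ⧸ Λ)) hlt
  have h9 : (3 : F) * (3 * ρ x0) = 0 := by
    have hh := hcl _ _ hfij
    fin_cases i <;> fin_cases j <;> simp at hij hh <;> grind
  have h10 : ρ x0 = 0 := by
    rcases mul_eq_zero.1 h9 with h | h
    · exact absurd h h3
    · exact (mul_eq_zero.1 h).resolve_left h3
  exact h10

omit D in
omit [MulAction G Ω] [Field F] in
theorem Sv_pow {s : G} (hs : t * s * t⁻¹ = s⁻¹) (m : ℕ) :
    t * s ^ m * t⁻¹ = (s ^ m)⁻¹ := by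
  rw [← conj_pow, hs, inv_pow]

theorem exists_rho_zero {ρ : F → F} (hρ : ∀ a s B, Co σ e pt U s a B → t * s * t⁻¹ = s⁻¹ →
    rr σ e a B = ρ a) {m : ℕ} (hU : Nat.card U = 3 ^ m) : ∃ b, b ≠ 0 ∧ ρ b = 0 := by
  have hp3 : Nat.Prime 3 := by norm_num
  -- an element of order three inverted by `t`
  obtain ⟨s, B, hs, hst⟩ := Sv_exists D (a := (1 : F))
  have hs1 : s ≠ 1 := by
    rintro rfl
    have := (co_fun D hs co_one).1
    exact one_ne_zero this
  have hsU := hs.1
  have hord : orderOf s ∣ 3 ^ m := by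
    rw [← hU]
    exact orderOf_dvd_of_pow_eq_one (pow_card_U D hsU)
  obtain ⟨k, -, hk⟩ := (Nat.dvd_prime_pow hp3).1 hord
  obtain ⟨j, rfl⟩ : ∃ j, k = j + 1 := by
    rcases k with - | j
    · exfalso; rw [pow_zero, orderOf_eq_one_iff] at hk; exact hs1 hk
    · exact ⟨j, rfl⟩
  set u : G := s ^ (3 ^ j) with hu
  have hu3 : u * (u * u) = 1 := by
    have : u ^ 3 = 1 := by
      rw [hu, ← pow_mul, ← pow_succ, ← hk, pow_orderOf_eq_one]
    rwa [pow_succ', pow_two] at this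
  have hu1 : u ≠ 1 := by
    intro h
    have h1 := orderOf_dvd_of_pow_eq_one h
    rw [hk] at h1
    have h2 := (Nat.pow_dvd_pow_iff_le_right (by norm_num)).1 h1
    omega
  have huU : u ∈ U := pow_mem hsU _
  have hut : t * u * t⁻¹ = u⁻¹ := Sv_pow hst _
  have hcomm : ¬ (u * t = t * u) := by
    intro h
    rw [← h, mul_inv_cancel_right] at hut
    apply hu1
    have h1 : u * u = 1 := by
      nth_rewrite 2 [hut]
      exact mul_inv_cancel u
    rw [h1, mul_one] at hu3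
    exact hu3
  have hU_free := D.U_free
  have huO : u • pt 0 0 ≠ pt 0 0 := fun h => hu1 (hU_free _ (O_ne D) u huU h)
  have hu2O : (u * u) • pt 0 0 ≠ pt 0 0 := by
    intro h
    have h1 := hU_free _ (O_ne D) (u * u) (mul_mem huU huU) h
    rw [h1, mul_one] at hu3
    exact hu1 hu3
  have hu3O : u • u • u • pt 0 0 = pt 0 0 := by
    rw [← mul_smul, ← mul_smul, mul_assoc, hu3, one_smul]
  -- `g` maps `O` to `inf` and `u O` to `O`
  have hY : w • u • pt 0 0 ≠ inf := by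
    intro h
    apply huO
    have : w • w • u • pt 0 0 = w • inf := by rw [h]
    rwa [smul_smul, D.w_sq, one_smul, D.w_inf] at this
  obtain ⟨u2, hu2, hu2Y⟩ := D.U_trans _ _ hY (O_ne D)
  set g : G := u2 * w with hg
  have hgO : g • pt 0 0 = inf := by rw [hg, mul_smul, w_O D, D.U_inf _ hu2]
  have hguO : g • u • pt 0 0 = pt 0 0 := by rw [hg, mul_smul, hu2Y]
  have hgi : g⁻¹ • inf = pt 0 0 := by rw [← hgO, inv_smul_smul]
  have hgO' : g⁻¹ • pt 0 0 = u • pt 0 0 := by rw [inv_smul_eq_iff, hguO]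
  set x : Ω := g • u • u • pt 0 0 with hx
  have hxi : x ≠ inf := by
    intro h
    have : g⁻¹ • x = g⁻¹ • inf := by rw [h]
    rw [hx, inv_smul_smul, hgi, ← mul_smul] at this
    exact hu2O this
  obtain ⟨b, B', hbP, hbx⟩ := D.pt_surj x hxi
  have hb : b ≠ 0 := by
    intro hb0
    have htx : t • x = x := by
      rw [← hbx, D.t_act _ _ hbP, hb0, neg_zero]
    set τ : G := g⁻¹ * t * g with hτ
    have hτ1 : τ • pt 0 0 = pt 0 0 := by
      rw [hτ, mul_smul, mul_smul, hgO, t_inf D, hgi]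
    have hτ2 : τ • u • pt 0 0 = u • pt 0 0 := by
      rw [hτ, mul_smul, mul_smul, hguO, t_O D, hgO']
    have hτ3 : τ • u • u • pt 0 0 = u • u • pt 0 0 := by
      rw [hτ, mul_smul, mul_smul, ← hx, htx, hx, inv_smul_smul]
    have hττ : τ * τ = 1 := by
      rw [hτ]
      calc g⁻¹ * t * g * (g⁻¹ * t * g) = g⁻¹ * (t * t) * g := by group
        _ = 1 := by rw [D.t_sq]; group
    have hτne : τ ≠ 1 := by
      intro h
      apply D.t_ne
      calc t = g * (g⁻¹ * t * g) * g⁻¹ := by group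
        _ = 1 := by rw [← hτ, h]; group
    -- uniqueness
    have key : ∀ y : G, y • pt 0 0 = pt 0 0 → y • u • pt 0 0 = u • pt 0 0 → y * y = 1 → y ≠ 1 →
        y = τ := by
      intro y h1 h2 h3 h4
      have h5 : g * y * g⁻¹ ∈ H := by
        rw [D.mem_H]
        constructor
        · rw [mul_smul, mul_smul, hgi, h1, hgO]
        · rw [mul_smul, mul_smul, hgO', h2, hguO]
      have h6 : g * y * g⁻¹ * (g * y * g⁻¹) = 1 := by
        calc g * y * g⁻¹ * (g * y * g⁻¹) = g * (y * y) * g⁻¹ := by group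
          _ = 1 := by rw [h3]; group
      rcases D.t_unique _ h5 h6 with h7 | h7
      · exfalso
        apply h4
        calc y = g⁻¹ * (g * y * g⁻¹) * g := by group
          _ = 1 := by rw [h7]; group
      · rw [hτ, ← h7]; group
    have hinvu : u⁻¹ • pt 0 0 = u • u • pt 0 0 := by
      rw [inv_smul_eq_iff]; exact hu3O.symm
    have h1 : u * τ * u⁻¹ = τ := by
      apply key
      · rw [mul_smul, mul_smul, hinvu, hτ3, hu3O]
      · rw [mul_smul, mul_smul, inv_smul_smul, hτ1]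
      · calc u * τ * u⁻¹ * (u * τ * u⁻¹) = u * (τ * τ) * u⁻¹ := by group
          _ = 1 := by rw [hττ]; group
      · intro h
        apply hτne
        calc τ = u⁻¹ * (u * τ * u⁻¹) * u := by group
          _ = 1 := by rw [h]; group
    have h2 : u * τ = τ * u := by
      calc u * τ = (u * τ * u⁻¹) * u := by group
        _ = τ * u := by rw [h1]
    have h3 : τ • inf = inf := by
      by_contra hne
      apply hu1
      apply hU_free _ hne u huU
      rw [← mul_smul, h2, mul_smul, D.U_inf u huU]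
    have h4 : τ ∈ H := (D.mem_H τ).2 ⟨h3, hτ1⟩
    rcases D.t_unique τ h4 hττ with h5 | h5
    · exact hτne h5
    · apply hcomm
      rw [← h5]; exact h2
  -- the element `k` of order three
  set k : G := g * u * g⁻¹ with hk'
  have hk1 : k • inf = pt 0 0 := by rw [hk', mul_smul, mul_smul, hgi, hguO]
  have hk2 : k • pt 0 0 = x := by rw [hk', mul_smul, mul_smul, hgO', hx]
  have hk3 : k • x = inf := by
    rw [hk', mul_smul, mul_smul, hx, inv_smul_smul, hu3O, hgO]
  obtain ⟨u1, hu1c⟩ := co_surj D hbP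
  set m' : G := w * k * u1 with hm'
  have hmH : m' ∈ H := by
    rw [D.mem_H]
    constructor
    · rw [hm', mul_smul, mul_smul, D.U_inf _ hu1c.1, hk1, w_O D]
    · rw [hm', mul_smul, mul_smul, hu1c.2.2, hbx, hk3, D.w_inf]
  obtain ⟨s', B'', hs', hst'⟩ := Sv_exists D (a := b)
  have hinv := co_inv_aux D hu1c hs' hst'
  have hB'ne := y_ne D hbP hb
  have hmm : m' • (u1⁻¹ • pt 0 0) = pt (e * b / B') (e ^ 2 / B') := by
    rw [hm', mul_smul, mul_smul, smul_inv_smul, hk2, ← hbx, D.w_act _ _ hbP hB'ne]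
  obtain ⟨ψ, -, hact⟩ := D.H_act m' hmH
  rw [hinv.2.2, hact _ _ hinv.2.1] at hmm
  have hcoord := D.pt_inj _ _ _ _ (pt_H D hinv.2.1) (pt_w D hbP hB'ne) hmm
  have h1 := rr_w D hbP hb
  rw [← hcoord.1, ← hcoord.2, rr_H ψ.ne_zero (neg_ne_zero.2 hb) D.σσ, rr_neg] at h1
  have h7 : rr σ e b (2 * B'' - B') = 2 * rr σ e b B'' - rr σ e b B' := by
    unfold rr
    ring
  rw [h7] at h1
  have h8 : (2 : F) * rr σ e b B'' = 0 := by linear_combination h1
  have h9 := (mul_eq_zero.1 h8).resolve_left D.two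
  rw [hρ _ _ _ hs' hst'] at h9
  exact ⟨b, hb, h9⟩

theorem rho_zero_three {ρ : F → F} (hρ : ∀ a s B, Co σ e pt U s a B → t * s * t⁻¹ = s⁻¹ →
    rr σ e a B = ρ a) (hΛ : ∀ χ ∈ Λ, ∃ ψ ∈ Λ, (ψ : F) = σ (χ : Fˣ)) (htop : Λ = ⊤)
    {m : ℕ} (hU : Nat.card U = 3 ^ m) {a : F} (ha : a ≠ 0) : ρ a = 0 := by
  obtain ⟨b, hb, h9⟩ := exists_rho_zero D hρ hU
  have h10 := rho_class D hρ hΛ (χ := Units.mk0 (a / b) (div_ne_zero ha hb)) (by simp [htop]) hb
  rw [h9] at h10
  have h11 : ((Units.mk0 (a / b) (div_ne_zero ha hb) : Fˣ) : F) * b = a := by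
    rw [Units.val_mk0, div_mul_cancel₀ a hb]
  rwa [h11] at h10

/-- coordinates of inverses -/
theorem co_inv {ρ : F → F} (hρ : ∀ a s B, Co σ e pt U s a B → t * s * t⁻¹ = s⁻¹ →
    rr σ e a B = ρ a) (hρ0 : ∀ a, a ≠ 0 → ρ a = 0) {u : G} {a A : F} (h : Co σ e pt U u a A) :
    Co σ e pt U u⁻¹ (-a) (- σ A) := by
  by_cases ha : a = 0
  · subst ha
    have h1 := co_T_inv D h
    rw [neg_zero, pt_fix_iff.1 h.2.1]
    exact h1
  · obtain ⟨s, B, hs, hst⟩ := Sv_exists D (a := a)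
    have h1 := co_inv_aux D h hs hst
    have h2 := hρ _ _ _ hs hst
    rw [hρ0 a ha] at h2
    have h3 : B = e * (a * σ a) := by
      unfold rr at h2
      have h4 : a * σ a ≠ 0 := mul_ne_zero ha ((map_ne_zero σ).2 ha)
      exact (div_eq_iff h4).1 (sub_eq_zero.1 h2)
    have h4 := h.2.1
    unfold Pt at h4
    have h5 : 2 * B - A = - σ A := by
      rw [h3]
      linear_combination (-1 : F) * h4
    rwa [h5] at h1

end

end Cfsg.Agent.ONan.StructU2
end

-- part: ONan/StructU3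
section
/-!
# Odd unitary type: the structure of `U`, part 3: the first coordinate is additive
-/

set_option autoImplicit false

namespace Cfsg.Agent.ONan.StructU3

open Cfsg.Agent.ONan.StructU1

section

variable {G Ω F : Type*} [Group G] [MulAction G Ω] [Field F] {σ : F →+* F} {e : F}
  {Λ : Subgroup Fˣ} {inf : Ω} {pt : F → F → Ω} {U H : Subgroup G} {w t : G}

variable (D : Core σ e Λ inf pt U H w t)

include D

theorem pt_u2 {a A : F} (h : Pt σ e a A) (hA : A ≠ 0) : Pt σ e (-(e * a / σ A)) (e ^ 2 / A) := by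
  have h1 : σ A ≠ 0 := (map_ne_zero σ).2 hA
  unfold Pt at h ⊢
  simp only [map_neg, map_div₀, map_mul, map_pow, D.σe, D.σσ]
  field_simp
  linear_combination (-e ^ 2) * h

theorem conj_w (hinv : ∀ u a A, Co σ e pt U u a A → Co σ e pt U u⁻¹ (-a) (- σ A))
    {u u1 u2 : G} {a A : F} (ha : a ≠ 0) (h : Co σ e pt U u a A)
    (h1 : Co σ e pt U u1 (e * a / A) (e ^ 2 / A))
    (h2 : Co σ e pt U u2 (-(e * a / σ A)) (e ^ 2 / A)) :
    ∃ k ∈ H, w * u * w = u1 * k * w * u2 ∧ ∀ v y, Pt σ e v y →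
      Pt σ e (e * σ A / A ^ 2 * v) (-(e ^ 2 / (A * σ A)) * y) ∧
      k • pt v y = pt (e * σ A / A ^ 2 * v) (-(e ^ 2 / (A * σ A)) * y) := by
  have hA := y_ne D h.2.1 ha
  have hσA : σ A ≠ 0 := (map_ne_zero σ).2 hA
  have he := D.e0
  have hc0 : e ^ 2 / A ≠ 0 := div_ne_zero (pow_ne_zero 2 he) hA
  set k : G := u1⁻¹ * (w * u * w) * u2⁻¹ * w with hk
  have hi := hinv _ _ _ h
  have hu2i := hinv _ _ _ h2
  have hkw : w * u * w = u1 * k * w * u2 := by
    rw [hk]
    calc w * u * w = (w * u * w) * u2⁻¹ * (1 : G) * u2 := by group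
      _ = u1 * (u1⁻¹ * (w * u * w) * u2⁻¹ * w) * w * u2 := by rw [← D.w_sq]; group
  have hwu : w • u⁻¹ • pt 0 0 = u2⁻¹ • pt 0 0 := by
    rw [hi.2.2, hu2i.2.2, D.w_act _ _ hi.2.1 (neg_ne_zero.2 hσA)]
    congr 1
    · rw [neg_neg]; field_simp
    · simp only [map_div₀, map_pow, D.σe]
      field_simp
  have hkinf : k • inf = inf := by
    rw [hk]
    simp only [mul_smul]
    rw [D.w_inf, ← hwu]
    have : w • w • u⁻¹ • pt 0 0 = u⁻¹ • pt 0 0 := by rw [smul_smul, D.w_sq, one_smul]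
    rw [this, smul_inv_smul, w_O D, Uinv_inf D h1.1]
  have hkO : k • pt 0 0 = pt 0 0 := by
    rw [hk]
    simp only [mul_smul]
    rw [w_O D, Uinv_inf D h2.1, D.w_inf, h.2.2, D.w_act _ _ h.2.1 hA, ← h1.2.2, inv_smul_smul]
  have hkH : k ∈ H := (D.mem_H k).2 ⟨hkinf, hkO⟩
  refine ⟨k, hkH, hkw, ?_⟩
  obtain ⟨ψ, -, hact⟩ := D.H_act k hkH
  -- evaluate at `w u2 O`
  have hu1i := hinv _ _ _ h1
  have hev : k • (w • u2 • pt 0 0) = u1⁻¹ • pt 0 0 := by
    have h3 : k * w * u2 = u1⁻¹ * (w * u * w) := by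
      rw [hkw]; group
    rw [← mul_smul, ← mul_smul, h3]
    simp only [mul_smul]
    rw [w_O D, D.U_inf _ h.1, D.w_inf]
  rw [h2.2.2, D.w_act _ _ h2.2.1 hc0, hact _ _ (pt_w D h2.2.1 hc0), hu1i.2.2] at hev
  obtain ⟨g1, g2⟩ := D.pt_inj _ _ _ _ (pt_H D (pt_w D h2.2.1 hc0)) hu1i.2.1 hev
  have e1 : σ (ψ : F) = e * σ A / A ^ 2 := by
    have hσψ : σ (ψ : F) ≠ 0 := (map_ne_zero σ).2 ψ.ne_zero
    field_simp at g1 ⊢
    linear_combination (-1 : F) * g1
  have e2 : (ψ : F) * σ ψ = -(e ^ 2 / (A * σ A)) := by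
    simp only [map_div₀, map_pow, D.σe] at g2
    field_simp at g2 ⊢
    linear_combination g2
  intro v y hP
  have hH := pt_H D (ψ := (ψ : F)) hP
  rw [e2, e1] at hH
  exact ⟨hH, by rw [hact v y hP, e2, e1]⟩

/-- the basic product -/
theorem basic (hinv : ∀ u a A, Co σ e pt U u a A → Co σ e pt U u⁻¹ (-a) (- σ A))
    {a A s : F} (ha : a ≠ 0) (hP : Pt σ e a A) (hs : σ s = s) (hs0 : s ≠ 0) :
    ∃ u1 u3 A1 A3 X, Co σ e pt U u1 (e * a / A) A1 ∧
      Co σ e pt U u3 (-(e ^ 3 * a / (A * (e ^ 2 + s * A)))) A3 ∧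
      Co σ e pt U (u1 * u3) (e * a / (A + e ^ 2 / s)) X := by
  have hA := y_ne D hP ha
  have hσA : σ A ≠ 0 := (map_ne_zero σ).2 hA
  have he := D.e0
  obtain ⟨u, h⟩ := co_surj D hP
  obtain ⟨u1, h1⟩ := co_surj D (pt_w D hP hA)
  obtain ⟨u2, h2⟩ := co_surj D (pt_u2 D hP hA)
  obtain ⟨k, hk, hkw, hact⟩ := conj_w D hinv ha h h1 h2
  have hσe2 : σ (e ^ 2) = e ^ 2 := by rw [map_pow, D.σe]; ring
  have hs' : σ (e ^ 2 / s) = e ^ 2 / s := by rw [map_div₀, hσe2, hs]
  obtain ⟨τ, hτ⟩ := co_surj D (pt_fix_iff.2 hs)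
  obtain ⟨τ', hτ'⟩ := co_surj D (pt_fix_iff.2 hs')
  -- left side
  have hL1 : w • pt 0 s = pt 0 (e ^ 2 / s) := by
    rw [D.w_act _ _ (pt_fix_iff.2 hs) hs0, mul_zero, zero_div]
  have hPa : Pt σ e a (A + e ^ 2 / s) := pt_add hP hs'
  have hPa0 := y_ne D hPa ha
  have hL2 : u • pt 0 (e ^ 2 / s) = pt a (A + e ^ 2 / s) := by
    rw [← hτ'.2.2, ← mul_smul, ← (T_of_co D hτ').2.2 u h.1, mul_smul, h.2.2,
      (T_of_co D hτ').2.1 _ _ hP]
  have hL : (w * u * w) • pt 0 s = pt (e * a / (A + e ^ 2 / s)) (e ^ 2 / (A + e ^ 2 / s)) := by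
    rw [mul_smul, mul_smul, hL1, hL2, D.w_act _ _ hPa hPa0]
  -- right side
  have hv2 : -(e * a / σ A) ≠ 0 := neg_ne_zero.2 (div_ne_zero (mul_ne_zero he ha) hσA)
  have hPb : Pt σ e (-(e * a / σ A)) (e ^ 2 / A + s) := pt_add h2.2.1 hs
  have hPb0 := y_ne D hPb hv2
  have hR1 : u2 • pt 0 s = pt (-(e * a / σ A)) (e ^ 2 / A + s) := by
    rw [← hτ.2.2, ← mul_smul, ← (T_of_co D hτ).2.2 u2 h2.1, mul_smul, h2.2.2,
      (T_of_co D hτ).2.1 _ _ h2.2.1]
  have hden : e ^ 2 + s * A ≠ 0 := by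
    intro h0
    apply hPb0
    field_simp
    linear_combination h0
  have hPc := pt_w D hPb hPb0
  have hsum : e ^ 2 / A + s = (e ^ 2 + s * A) / A := by field_simp
  obtain ⟨hPd, hkpt⟩ := hact _ _ hPc
  have hv4 : e * σ A / A ^ 2 * (e * -(e * a / σ A) / (e ^ 2 / A + s)) =
      -(e ^ 3 * a / (A * (e ^ 2 + s * A))) := by
    rw [hsum]
    field_simp
  rw [hv4] at hPd hkpt
  obtain ⟨u3, h3⟩ := co_surj D hPd
  have hR : (u1 * k * w * u2) • pt 0 s = (u1 * u3) • pt 0 0 := by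
    simp only [mul_smul]
    rw [hR1, D.w_act _ _ hPb hPb0, hkpt, h3.2.2]
  rw [← hkw, hL] at hR
  exact ⟨u1, u3, _, _, _, h1, h3, mul_mem h1.1 h3.1, pt_w D hPa hPa0, hR.symm⟩

theorem add_pair (hinv : ∀ u a A, Co σ e pt U u a A → Co σ e pt U u⁻¹ (-a) (- σ A))
    {v v' : F} (hv : v ≠ 0) (hξ : σ (v' / v) ≠ v' / v) :
    ∃ u1 u3 A1 A3 X, Co σ e pt U u1 v A1 ∧ Co σ e pt U u3 v' A3 ∧
      Co σ e pt U (u1 * u3) (v + v') X := by
  have he := D.e0
  have h2 := D.two
  set ξ : F := v' / v with hξd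
  have hv' : v' = ξ * v := by rw [hξd, div_mul_cancel₀ _ hv]
  have hξ0 : ξ ≠ 0 := by
    intro h
    apply hξ
    rw [h, map_zero]
  have hξ1 : ξ + 1 ≠ 0 := by
    intro h
    apply hξ
    have : ξ = -1 := by linear_combination h
    rw [this, map_neg, map_one]
  have hσξ0 : σ ξ ≠ 0 := (map_ne_zero σ).2 hξ0
  have hσξ1 : σ ξ + 1 ≠ 0 := by
    have := (map_ne_zero σ).2 hξ1
    rwa [map_add, map_one] at this
  have hd : σ ξ - ξ ≠ 0 := sub_ne_zero.2 hξ
  have hσv : σ v ≠ 0 := (map_ne_zero σ).2 hv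
  set s : F := 2 * e * (v * σ v) * ((ξ + 1) * (σ ξ + 1)) / (σ ξ - ξ) with hs
  have hs0 : s ≠ 0 := by
    rw [hs]
    exact div_ne_zero (mul_ne_zero (mul_ne_zero (mul_ne_zero h2 he) (mul_ne_zero hv hσv))
      (mul_ne_zero hξ1 hσξ1)) hd
  have hd' : ξ - σ ξ ≠ 0 := sub_ne_zero.2 (Ne.symm hξ)
  have hσs : σ s = s := by
    rw [hs]
    simp only [map_div₀, map_mul, map_sub, map_add, map_one, D.σσ, D.σe, map_ofNat]
    rw [div_eq_div_iff hd' hd]
    ring
  set A : F := -(e ^ 2 * (ξ + 1) / (ξ * s)) with hA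
  have hA0 : A ≠ 0 := by
    rw [hA]
    exact neg_ne_zero.2 (div_ne_zero (mul_ne_zero (pow_ne_zero 2 he) hξ1) (mul_ne_zero hξ0 hs0))
  set a : F := v * A / e with ha
  have ha0 : a ≠ 0 := by
    rw [ha]
    exact div_ne_zero (mul_ne_zero hv hA0) he
  have hP : Pt σ e a A := by
    unfold Pt
    have hσA : σ A = -(e ^ 2 * (σ ξ + 1) / (σ ξ * s)) := by
      rw [hA]
      simp only [map_neg, map_div₀, map_mul, map_add, map_one, map_pow, D.σe, hσs]
      ring
    have hσa : σ a = - (σ v * σ A / e) := by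
      rw [ha]
      simp only [map_div₀, map_mul, D.σe]
      field_simp
    rw [hσa, ha, hσA, hA]
    have hs2 : s * (σ ξ - ξ) = 2 * e * (v * σ v) * ((ξ + 1) * (σ ξ + 1)) := by
      rw [hs, div_mul_cancel₀ _ hd]
    field_simp
    linear_combination (-1 : F) * hs2
  obtain ⟨u1, u3, A1, A3, X, h1, h3, h13⟩ := basic D hinv ha0 hP hσs hs0
  have q1 : e * a / A = v := by
    rw [ha]
    field_simp
  have hden : e ^ 2 + s * A = - (e ^ 2 / ξ) := by
    rw [hA]
    field_simp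
    ring
  have q3 : -(e ^ 3 * a / (A * (e ^ 2 + s * A))) = v' := by
    rw [hden, ha, hv']
    field_simp
  have q13 : e * a / (A + e ^ 2 / s) = v + v' := by
    have h5 : A + e ^ 2 / s = -(e ^ 2 / (ξ * s)) := by
      rw [hA]
      field_simp
      ring
    rw [h5, ha, hv', hA]
    field_simp
    ring
  rw [q1] at h1
  rw [q3] at h3
  rw [q13] at h13
  exact ⟨u1, u3, A1, A3, X, h1, h3, h13⟩

theorem co_mul_of {u1 u3 u u' : G} {a b A1 A3 A B X : F} (h1 : Co σ e pt U u1 a A1)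
    (h3 : Co σ e pt U u3 b A3) (h13 : Co σ e pt U (u1 * u3) (a + b) X)
    (h : Co σ e pt U u a A) (h' : Co σ e pt U u' b B) :
    Co σ e pt U (u * u') (a + b) (X + (A - A1) + (B - A3)) := by
  obtain ⟨τ, hτ, rfl⟩ := co_eq_T_mul D h1 h
  obtain ⟨τ', hτ', rfl⟩ := co_eq_T_mul D h3 h'
  have h4 := co_T_mul D hτ (co_T_mul D hτ' h13)
  have h5 : τ * u1 * (τ' * u3) = τ * (τ' * (u1 * u3)) := by
    have := (T_of_co D hτ').2.2 u1 h1.1
    calc τ * u1 * (τ' * u3) = τ * (u1 * τ') * u3 := by group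
      _ = τ * (τ' * (u1 * u3)) := by rw [← this]; group
  rw [h5]
  convert h4 using 1
  ring

/-- first coordinates are additive -/
theorem add_all (hinv : ∀ u a A, Co σ e pt U u a A → Co σ e pt U u⁻¹ (-a) (- σ A))
    (a b : F) : ∃ u1 u3 A1 A3 X, Co σ e pt U u1 a A1 ∧ Co σ e pt U u3 b A3 ∧
      Co σ e pt U (u1 * u3) (a + b) X := by
  have he := D.e0
  have hex : ∀ a, ∃ u A, Co σ e pt U u a A := by
    intro a
    obtain ⟨s, B, h, -⟩ := Sv_exists D (a := a)
    exact ⟨s, B, h⟩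
  obtain ⟨u, A, hu⟩ := hex a
  obtain ⟨u', B, hu'⟩ := hex b
  by_cases ha : a = 0
  · subst ha
    refine ⟨u, u', A, B, B + A, hu, hu', ?_⟩
    rw [zero_add]
    exact co_T_mul D hu hu'
  by_cases hb : b = 0
  · subst hb
    refine ⟨u, u', A, B, A + B, hu, hu', ?_⟩
    rw [add_zero, ← (T_of_co D hu').2.2 u hu.1]
    exact co_T_mul D hu' hu
  by_cases hξ : σ (b / a) = b / a
  swap
  · exact add_pair D hinv ha hξ
  -- the remaining case
  have hσe' : ∀ x : F, x ≠ 0 → σ x = x → σ (e * x) ≠ e * x := by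
    intro x hx hσx h
    rw [map_mul, D.σe, hσx] at h
    have : (2 : F) * (e * x) = 0 := by linear_combination (-1 : F) * h
    rcases mul_eq_zero.1 this with h' | h'
    · exact D.two h'
    · exact mul_ne_zero he hx h'
  have hba : b / a ≠ 0 := div_ne_zero hb ha
  have hab : σ (a / b) = a / b := by
    have : (σ (b / a))⁻¹ = (b / a)⁻¹ := by rw [hξ]
    rw [← map_inv₀, inv_div] at this
    exact this
  set v0 : F := e * a with hv0
  obtain ⟨u0, A0, hu0⟩ := hex v0
  -- `b + v0`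
  have h1 : σ (v0 / b) ≠ v0 / b := by
    have : v0 / b = e * (a / b) := by rw [hv0, mul_div_assoc]
    rw [this]
    exact hσe' _ (div_ne_zero ha hb) hab
  obtain ⟨p1, p3, P1, P3, PX, hp1, hp3, hp13⟩ := add_pair D hinv hb h1
  have hX1 := co_mul_of D hp1 hp3 hp13 hu' hu0
  -- `a + (b + v0)`
  have h2 : σ ((b + v0) / a) ≠ (b + v0) / a := by
    have : (b + v0) / a = b / a + e := by rw [hv0]; field_simp
    rw [this, map_add, hξ, D.σe]
    intro h
    have : (2 : F) * e = 0 := by linear_combination (-1 : F) * h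
    exact (mul_ne_zero D.two he) this
  obtain ⟨r1, r3, R1, R3, RX, hr1, hr3, hr13⟩ := add_pair D hinv ha h2
  have hX2 := co_mul_of D hr1 hr3 hr13 hu hX1
  -- `(a + b) + v0`
  obtain ⟨g, C, hg⟩ := hex (a + b)
  have h3 : ∃ Z, Co σ e pt U (g * u0) (a + b + v0) Z := by
    by_cases hab0 : a + b = 0
    · rw [hab0] at hg ⊢
      rw [zero_add]
      exact ⟨_, co_T_mul D hg hu0⟩
    · have h4 : σ (v0 / (a + b)) ≠ v0 / (a + b) := by
        have h5 : v0 / (a + b) = e * (a / (a + b)) := by rw [hv0, mul_div_assoc]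
        rw [h5]
        apply hσe' _ (div_ne_zero ha hab0)
        have h6 : a / (a + b) = (1 + b / a)⁻¹ := by
          have : 1 + b / a = (a + b) / a := by field_simp
          rw [this, inv_div]
        rw [h6, map_inv₀, map_add, map_one, hξ]
      obtain ⟨q1, q3, Q1, Q3, QX, hq1, hq3, hq13⟩ := add_pair D hinv hab0 h4
      exact ⟨_, co_mul_of D hq1 hq3 hq13 hg hu0⟩
  obtain ⟨Z, hZ⟩ := h3
  have h7 : a + (b + v0) = a + b + v0 := by ring
  rw [h7] at hX2
  obtain ⟨τ, hτ, hτe⟩ := co_eq_T_mul D hZ hX2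
  have h8 : u * u' = τ * g := by
    have : u * (u' * u0) = (u * u') * u0 := by group
    rw [this, ← mul_assoc] at hτe
    exact mul_right_cancel hτe
  have h9 := co_T_mul D hτ hg
  rw [← h8] at h9
  exact ⟨u, u', A, B, _, hu, hu', h9⟩

/-- the multiplication of `U` in coordinates -/
theorem exists_Phi (hinv : ∀ u a A, Co σ e pt U u a A → Co σ e pt U u⁻¹ (-a) (- σ A)) :
    ∃ Φ : F → F → F, ∀ u u' a A b B, Co σ e pt U u a A → Co σ e pt U u' b B →
      Co σ e pt U (u * u') (a + b) (A + B + Φ a b) := by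
  choose u1 u3 A1 A3 X h1 h3 h13 using fun a b => add_all D hinv a b
  refine ⟨fun a b => X a b - A1 a b - A3 a b, fun u u' a A b B hu hu' => ?_⟩
  have := co_mul_of D (h1 a b) (h3 a b) (h13 a b) hu hu'
  convert this using 1
  ring

end

end Cfsg.Agent.ONan.StructU3
end

-- part: ONan/StructU4
section
/-!
# Odd unitary type: the structure of `U`, part 4: the cocycle
-/

set_option autoImplicit false

namespace Cfsg.Agent.ONan.StructU4

open Cfsg.Agent.ONan.StructU1 Cfsg.Agent.ONan.StructU3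

/-! ### pure algebra: a cocycle with values in the fixed field -/

section Alg

variable {F : Type*} [Field F] {σ : F →+* F} {e : F}

/-- a skew cocycle is biadditive -/
theorem additive_of_cocycle (two : (2 : F) ≠ 0) {φ : F → F → F}
    (hskew : ∀ a b, φ b a = - φ a b)
    (hcoc : ∀ a b c, φ a b + φ (a + b) c = φ b c + φ a (b + c)) (a b c : F) :
    φ (a + b) c = φ a c + φ b c := by
  have h1 := hcoc a b c
  have h2 := hcoc a c b
  have h3 := hcoc c a b
  have s1 := hskew a c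
  have s2 := hskew b c
  have s3 := hskew (a + b) c
  have e1 : a + c = c + a := add_comm _ _
  have e2 : b + c = c + b := add_comm _ _
  rw [e1] at h2
  rw [← e2] at h2
  have h4 : (2 : F) * (φ (a + b) c - φ a c - φ b c) = 0 := by
    linear_combination h1 - h2 + h3 + s3 - s1 - s2
  have h5 := (mul_eq_zero.1 h4).resolve_left two
  linear_combination h5

theorem linear_of_quadratic {q : ℕ} (hq0 : (q : F) = 0)
    (hσq : ∀ x, σ x = x ^ q) {φ : F → F → F} (hskew : ∀ a b, φ b a = - φ a b)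
    (hadd : ∀ a b c, φ (a + b) c = φ a c + φ b c)
    (hquad : ∀ r, r ≠ 0 → σ r = r → ∀ a b, φ (r * a) (r * b) = r ^ 2 * φ a b)
    {r : F} (hr : σ r = r) (a b : F) : φ a (r * b) = r * φ a b := by
  have hadd' : ∀ a b c, φ a (b + c) = φ a b + φ a c := by
    intro a b c
    rw [hskew (b + c) a, hadd, hskew b a, hskew c a]
    ring
  have h0l : ∀ c, φ 0 c = 0 := by
    intro c
    have := hadd 0 0 c
    rw [add_zero] at this
    linear_combination (-1 : F) * this
  have h0r : ∀ c, φ c 0 = 0 := by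
    intro c
    rw [hskew 0 c, h0l, neg_zero]
  by_cases hr0 : r = 0
  · subst hr0
    rw [zero_mul, zero_mul, h0r]
  have hquad' : ∀ s, σ s = s → ∀ a b, φ (s * a) (s * b) = s ^ 2 * φ a b := by
    intro s hs a b
    by_cases hs0 : s = 0
    · subst hs0
      rw [zero_mul, zero_mul, h0r]
      ring
    · exact hquad s hs0 hs a b
  have hpol : ∀ a b, φ (r * a) b + φ a (r * b) = 2 * r * φ a b := by
    intro a b
    have h1 := hquad' (r + 1) (by rw [map_add, hr, map_one]) a b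
    have h2 := hquad' r hr a b
    have e1 : (r + 1) * a = r * a + a := by ring
    have e2 : (r + 1) * b = r * b + b := by ring
    rw [e1, e2, hadd, hadd', hadd', h2] at h1
    linear_combination h1
  have hpol2 : ∀ b, φ a (r * (r * b)) - r * φ a (r * b) = r * (φ a (r * b) - r * φ a b) := by
    intro b
    have h1 := hpol a (r * b)
    rw [hquad' r hr] at h1
    linear_combination h1
  have hind1 : ∀ n : ℕ, φ a (r * (r ^ n * b)) - r * φ a (r ^ n * b) =
      r ^ n * (φ a (r * b) - r * φ a b) := by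
    intro n
    induction n with
    | zero => simp
    | succ n ih =>
      have h1 := hpol2 (r ^ n * b)
      have e1 : r ^ (n + 1) * b = r * (r ^ n * b) := by ring
      rw [e1, h1, ih]
      ring
  have hind2 : ∀ n : ℕ, φ a (r ^ n * b) * r =
      r ^ (n + 1) * φ a b + n * (r ^ n * (φ a (r * b) - r * φ a b)) := by
    intro n
    induction n with
    | zero => simp; ring
    | succ n ih =>
      have h1 := hind1 n
      have e1 : r ^ (n + 1) * b = r * (r ^ n * b) := by ring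
      have h2 : φ a (r * (r ^ n * b)) = r * φ a (r ^ n * b) +
        r ^ n * (φ a (r * b) - r * φ a b) := by linear_combination h1
      rw [e1, h2]
      push_cast
      linear_combination r * ih
  have h1 := hind2 q
  have h2 : r ^ q = r := by rw [← hσq, hr]
  rw [hq0, zero_mul, add_zero, pow_succ, h2] at h1
  have h3 : (φ a (r * b) - r * φ a b) * r = 0 := by linear_combination h1
  have h4 := (mul_eq_zero.1 h3).resolve_right hr0
  linear_combination h4

/-- an alternating form over the fixed field -/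
theorem form_eq (two : (2 : F) ≠ 0) (e0 : e ≠ 0) (hσσ : ∀ x, σ (σ x) = x) (hσe : σ e = -e)
    {φ : F → F → F} (hskew : ∀ a b, φ b a = - φ a b)
    (hadd : ∀ a b c, φ (a + b) c = φ a c + φ b c)
    (hlin : ∀ r, σ r = r → ∀ a b, φ a (r * b) = r * φ a b) (a b : F) :
    φ a b = (φ 1 e / (2 * e ^ 2)) * (e * (σ a * b - a * σ b)) := by
  have hadd' : ∀ a b c, φ a (b + c) = φ a b + φ a c := by
    intro a b c
    rw [hskew (b + c) a, hadd, hskew b a, hskew c a]
    ring
  have hlin' : ∀ r, σ r = r → ∀ a b, φ (r * a) b = r * φ a b := by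
    intro r hr a b
    rw [hskew b (r * a), hlin r hr, hskew a b]
    ring
  have halt : ∀ a, φ a a = 0 := by
    intro a
    have h := hskew a a
    have : (2 : F) * φ a a = 0 := by linear_combination h
    exact (mul_eq_zero.1 this).resolve_left two
  have hx : ∀ x : F, x = ((x + σ x) / 2) * 1 + ((x - σ x) / (2 * e)) * e := by
    intro x
    field_simp
    ring
  have hf1 : ∀ x : F, σ ((x + σ x) / 2) = (x + σ x) / 2 := by
    intro x
    rw [map_div₀, map_add, hσσ, map_ofNat, add_comm]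
  have hf2 : ∀ x : F, σ ((x - σ x) / (2 * e)) = (x - σ x) / (2 * e) := by
    intro x
    rw [map_div₀, map_sub, hσσ, map_mul, map_ofNat, hσe]
    field_simp
    ring
  conv_lhs => rw [hx a, hx b]
  rw [hadd, hadd', hadd', hlin _ (hf1 b), hlin _ (hf2 b), hlin _ (hf1 b), hlin _ (hf2 b),
    hlin' _ (hf1 a), hlin' _ (hf1 a), hlin' _ (hf2 a), hlin' _ (hf2 a), halt, halt, hskew 1 e]
  field_simp
  ring

end Alg

section

variable {G Ω F : Type*} [Group G] [MulAction G Ω] [Field F] {σ : F →+* F} {e : F}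
  {Λ : Subgroup Fˣ} {inf : Ω} {pt : F → F → Ω} {U H : Subgroup G} {w t : G}

theorem mul_formula (D : Core σ e Λ inf pt U H w t)
    (hinv : ∀ u a A, Co σ e pt U u a A → Co σ e pt U u⁻¹ (-a) (- σ A))
    {q : ℕ} (hq0 : (q : F) = 0) (hσq : ∀ x, σ x = x ^ q)
    (hfix : ∀ r : F, r ≠ 0 → σ r = r → ∃ h ∈ H, ∀ v y, Pt σ e v y →
      h • pt v y = pt (σ r * v) (r * σ r * y)) :
    ∀ u a A, Co σ e pt U u a A → ∀ v y, Pt σ e v y →
      u • pt v y = pt (a + v) (A + y + 2 * e * σ a * v) := by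
  obtain ⟨Φ, hΦ⟩ := exists_Phi D hinv
  have he := D.e0
  have two := D.two
  have hex : ∀ a, ∃ u A, Co σ e pt U u a A := by
    intro a
    obtain ⟨s, B, h, -⟩ := Sv_exists D (a := a)
    exact ⟨s, B, h⟩
  -- action
  have hact : ∀ u a A, Co σ e pt U u a A → ∀ v y, Pt σ e v y →
      Pt σ e (a + v) (A + y + Φ a v) ∧ u • pt v y = pt (a + v) (A + y + Φ a v) := by
    intro u a A h v y hvy
    obtain ⟨u', hu'⟩ := co_surj D hvy
    have h1 := hΦ u u' a A v y h hu'
    refine ⟨h1.2.1, ?_⟩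
    rw [← hu'.2.2, ← mul_smul, h1.2.2]
  -- properties of `Φ`
  have hneg : ∀ a b, Φ (-a) (-b) = Φ a b := by
    intro a b
    obtain ⟨u, A, hu⟩ := hex a
    obtain ⟨u', B, hu'⟩ := hex b
    have h1 := co_tconj D (hΦ u u' a A b B hu hu')
    have h2 := hΦ _ _ _ _ _ _ (co_tconj D hu) (co_tconj D hu')
    have h3 : t * (u * u') * t⁻¹ = t * u * t⁻¹ * (t * u' * t⁻¹) := by group
    rw [h3] at h1
    have h4 := (co_fun D h1 h2).2
    linear_combination (-1 : F) * h4
  have hbar : ∀ a b, Φ b a = - σ (Φ a b) := by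
    intro a b
    obtain ⟨u, A, hu⟩ := hex a
    obtain ⟨u', B, hu'⟩ := hex b
    have h1 := hinv _ _ _ (hΦ u u' a A b B hu hu')
    have h2 := hΦ _ _ _ _ _ _ (hinv _ _ _ hu') (hinv _ _ _ hu)
    rw [← mul_inv_rev] at h2
    have h4 := (co_fun D h1 h2).2
    rw [hneg, map_add, map_add] at h4
    linear_combination (-1 : F) * h4
  have hcoc : ∀ a b c, Φ a b + Φ (a + b) c = Φ b c + Φ a (b + c) := by
    intro a b c
    obtain ⟨u, A, hu⟩ := hex a
    obtain ⟨u', B, hu'⟩ := hex b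
    obtain ⟨u'', C, hu''⟩ := hex c
    have h1 := hΦ _ _ _ _ _ _ (hΦ u u' a A b B hu hu') hu''
    have h2 := hΦ _ _ _ _ _ _ hu (hΦ u' u'' b B c C hu' hu'')
    rw [mul_assoc] at h1
    have h4 := (co_fun D h1 h2).2
    linear_combination h4
  have htr : ∀ a b, Φ a b - σ (Φ a b) = 2 * e * (a * σ b + b * σ a) := by
    intro a b
    obtain ⟨u, A, hu⟩ := hex a
    obtain ⟨u', B, hu'⟩ := hex b
    have h1 := (hΦ u u' a A b B hu hu').2.1
    have h2 := hu.2.1
    have h3 := hu'.2.1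
    unfold Pt at h1 h2 h3
    simp only [map_add] at h1
    linear_combination h1 - h2 - h3
  have hH : ∀ r, r ≠ 0 → σ r = r → ∀ a b, Φ (r * a) (r * b) = r ^ 2 * Φ a b := by
    intro r hr hσr a b
    obtain ⟨h, hh, hact⟩ := hfix r hr hσr
    obtain ⟨u, A, hu⟩ := hex a
    obtain ⟨u', B, hu'⟩ := hex b
    have h1 := co_hconj D hh hact (hΦ u u' a A b B hu hu')
    have h2 := hΦ _ _ _ _ _ _ (co_hconj D hh hact hu) (co_hconj D hh hact hu')
    have h3 : h * (u * u') * h⁻¹ = h * u * h⁻¹ * (h * u' * h⁻¹) := by group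
    rw [h3] at h1
    have h4 := (co_fun D h1 h2).2
    rw [hσr] at h4
    linear_combination (-1 : F) * h4
  -- the form `φ`
  set φ : F → F → F := fun a b => Φ a b - e * (a * σ b + b * σ a) with hφ
  have hskew : ∀ a b, φ b a = - φ a b := by
    intro a b
    simp only [hφ]
    rw [hbar a b]
    linear_combination htr a b
  have hcoc' : ∀ a b c, φ a b + φ (a + b) c = φ b c + φ a (b + c) := by
    intro a b c
    simp only [hφ, map_add]
    linear_combination hcoc a b c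
  have hadd := additive_of_cocycle two hskew hcoc'
  have hquad : ∀ r, r ≠ 0 → σ r = r → ∀ a b, φ (r * a) (r * b) = r ^ 2 * φ a b := by
    intro r hr hσr a b
    simp only [hφ, map_mul, hσr]
    rw [hH r hr hσr]
    ring
  have hlin : ∀ r, σ r = r → ∀ a b, φ a (r * b) = r * φ a b :=
    fun r hr a b => linear_of_quadratic hq0 hσq hskew hadd hquad hr a b
  have hform := form_eq two he D.σσ D.σe hskew hadd hlin
  set κ : F := φ 1 e / (2 * e ^ 2) with hκ
  have hΦκ : ∀ a b, Φ a b = e * (a * σ b + b * σ a) + κ * (e * (σ a * b - a * σ b)) := by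
    intro a b
    rw [← hform a b]
    simp only [hφ]
    ring
  -- determination of `κ`
  have hκ1 : κ = 1 := by
    have hP1 : Pt σ e 1 e := by
      unfold Pt
      rw [D.σe, map_one]
      ring
    obtain ⟨u, hu⟩ := co_surj D hP1
    have hu1 : Co σ e pt U u (e * 1 / e) (e ^ 2 / e) := by
      have e1 : e * 1 / e = 1 := by field_simp
      have e2 : e ^ 2 / e = e := by field_simp
      rw [e1, e2]; exact hu
    have hu2 : Co σ e pt U u (-(e * 1 / σ e)) (e ^ 2 / e) := by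
      have e1 : -(e * 1 / σ e) = 1 := by rw [D.σe]; field_simp
      have e2 : e ^ 2 / e = e := by field_simp
      rw [e1, e2]; exact hu
    obtain ⟨k, hk, hkw, hkact⟩ := conj_w D hinv one_ne_zero hu hu1 hu2
    have hkact' : ∀ v y, Pt σ e v y → Pt σ e (-v) y ∧ k • pt v y = pt (-v) y := by
      intro v y h
      have := hkact v y h
      have e1 : e * σ e / e ^ 2 * v = -v := by rw [D.σe]; field_simp
      have e2 : -(e ^ 2 / (e * σ e)) * y = y := by rw [D.σe]; field_simp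
      rw [e1, e2] at this
      exact this
    -- the point
    have hP : Pt σ e 1 (1 + e) := by
      unfold Pt
      rw [map_add, D.σe, map_one]
      ring
    have hfixne : ∀ c : F, σ c = c → c ≠ 0 → (1 : F) + c * e ≠ 0 := by
      intro c hc hc0 h
      have h1 : σ (1 + c * e) = 0 := by rw [h, map_zero]
      rw [map_add, map_mul, map_one, hc, D.σe] at h1
      have h2 : (2 : F) = 0 := by linear_combination h + h1
      exact two h2
    have n1 : (1 : F) + e ≠ 0 := by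
      have := hfixne 1 (map_one σ) one_ne_zero
      rwa [one_mul] at this
    have n1' : (1 : F) - e ≠ 0 := by
      have := (map_ne_zero σ).2 n1
      rw [map_add, map_one, D.σe] at this
      rwa [sub_eq_add_neg]
    have n2 : (1 : F) + 2 * e ≠ 0 := hfixne 2 (map_ofNat σ 2) two
    have four : (4 : F) ≠ 0 := by
      have : (4 : F) = 2 * 2 := by norm_num
      rw [this]; exact mul_ne_zero two two
    have n4 : (1 : F) + 4 * e ≠ 0 := hfixne 4 (map_ofNat σ 4) four
    -- left side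
    have hwP := pt_w D hP n1
    obtain ⟨L1, L2⟩ := hact u 1 e hu _ _ hwP
    have hvne : (1 : F) + e * 1 / (1 + e) ≠ 0 := by
      have : (1 : F) + e * 1 / (1 + e) = (1 + 2 * e) / (1 + e) := by field_simp; ring
      rw [this]
      exact div_ne_zero n2 n1
    have hDne := y_ne D L1 hvne
    have hL : (w * u * w) • pt 1 (1 + e) =
        pt (e * (1 + e * 1 / (1 + e)) / (e + e ^ 2 / (1 + e) + Φ 1 (e * 1 / (1 + e))))
          (e ^ 2 / (e + e ^ 2 / (1 + e) + Φ 1 (e * 1 / (1 + e)))) := by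
      rw [mul_smul, mul_smul, D.w_act _ _ hP n1, L2, D.w_act _ _ L1 hDne]
    -- right side
    obtain ⟨R1, R2⟩ := hact u 1 e hu _ _ hP
    have h11 : Φ 1 1 = 2 * e := by
      rw [hΦκ, map_one]; ring
    have hy4 : e + (1 + e) + Φ 1 1 = 1 + 4 * e := by rw [h11]; ring
    have h2v : (1 : F) + 1 = 2 := by norm_num
    rw [hy4, h2v] at R1 R2
    have hwR := pt_w D R1 n4
    obtain ⟨K1, K2⟩ := hkact' _ _ hwR
    obtain ⟨Q1, Q2⟩ := hact u 1 e hu _ _ K1
    have hR : (u * k * w * u) • pt 1 (1 + e) = pt (1 + -(e * 2 / (1 + 4 * e)))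
        (e + e ^ 2 / (1 + 4 * e) + Φ 1 (-(e * 2 / (1 + 4 * e)))) := by
      rw [mul_smul, mul_smul, mul_smul, R2, D.w_act _ _ R1 n4, K2, Q2]
    rw [hkw, hR] at hL
    have hv := (D.pt_inj _ _ _ _ Q1 (pt_w D L1 hDne) hL).1
    have hB : σ (e * 1 / (1 + e)) = -(e / (1 - e)) := by
      rw [map_div₀, map_mul, map_add, D.σe, map_one, ← sub_eq_add_neg]
      ring
    have hDval : (1 + e) * (e + e ^ 2 / (1 + e) + Φ 1 (e * 1 / (1 + e))) =
        e + 2 * e ^ 2 + 2 * e ^ 2 * (κ - e) / (1 - e) := by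
      rw [hΦκ, hB, map_one]
      field_simp
      ring
    set DD : F := e + e ^ 2 / (1 + e) + Φ 1 (e * 1 / (1 + e)) with hDD
    -- compare
    have h5 : (1 + e) * DD = e * (1 + 4 * e) := by
      have h6 : (1 : F) + -(e * 2 / (1 + 4 * e)) = (1 + 2 * e) / (1 + 4 * e) := by
        rw [eq_div_iff n4]
        have : e * 2 / (1 + 4 * e) * (1 + 4 * e) = e * 2 := div_mul_cancel₀ _ n4
        linear_combination (-1 : F) * this
      have h7 : e * (1 + e * 1 / (1 + e)) / DD = e * (1 + 2 * e) / ((1 + e) * DD) := by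
        field_simp
        ring
      rw [h6, h7] at hv
      have n5 : (1 + e) * DD ≠ 0 := mul_ne_zero n1 hDne
      rw [div_eq_div_iff n4 n5] at hv
      have h8 : (1 + 2 * e) * ((1 + e) * DD - e * (1 + 4 * e)) = 0 := by
        linear_combination hv
      have h9 := (mul_eq_zero.1 h8).resolve_left n2
      linear_combination h9
    rw [hDval] at h5
    have h6 : 2 * e ^ 2 * (κ - 1) = 0 := by
      field_simp at h5
      have h7 : e * (e * (2 * (κ - 1))) = 0 := by linear_combination e * h5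
      linear_combination h7
    have h7 := (mul_eq_zero.1 h6).resolve_left (mul_ne_zero two (pow_ne_zero 2 he))
    linear_combination h7
  intro u a A h v y hvy
  rw [(hact u a A h v y hvy).2, hΦκ, hκ1]
  congr 1
  ring

end

end Cfsg.Agent.ONan.StructU4
end

-- part: ONan/StructU
section
/-!
# Odd unitary type: the structure of `U`
-/

set_option autoImplicit false

namespace Cfsg.Agent.ONan.StructU

open Cfsg.Agent.ONan.Coord Cfsg.Agent.ONan.StructU1 Cfsg.Agent.ONan.StructU2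
  Cfsg.Agent.ONan.StructU3 Cfsg.Agent.ONan.StructU4

/-- in a finite cyclic group of order `m * n` the solutions of `x ^ m = 1` are `n`-th powers -/
theorem exists_pow_of_cyclic {A : Type*} [CommGroup A] [Finite A] [IsCyclic A] {m n : ℕ}
    (hm : 0 < m) (hA : Nat.card A = m * n) {x : A} (hx : x ^ m = 1) : ∃ y : A, y ^ n = x := by
  obtain ⟨g, hg⟩ := IsCyclic.exists_generator (α := A)
  obtain ⟨k, hk⟩ := Subgroup.mem_zpowers_iff.1 (hg x)
  have ho : orderOf g = m * n := by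
    rw [← hA, orderOf_eq_card_of_forall_mem_zpowers hg]
  have h1 : g ^ (k * m) = 1 := by
    rw [zpow_mul, hk, zpow_natCast, hx]
  have h2 : ((m * n : ℕ) : ℤ) ∣ k * m := by
    rw [← ho]
    exact orderOf_dvd_iff_zpow_eq_one.2 h1
  have h3 : (n : ℤ) ∣ k := by
    have hm' : (m : ℤ) ≠ 0 := by exact_mod_cast hm.ne'
    rw [Nat.cast_mul, mul_comm k] at h2
    exact (mul_dvd_mul_iff_left hm').1 h2
  obtain ⟨j, hj⟩ := h3
  refine ⟨g ^ j, ?_⟩
  rw [← hk, hj, ← zpow_natCast, ← zpow_mul, mul_comm]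

theorem unitaryAct_of_coordData {G Ω F : Type*} [Group G] [Finite G] [MulAction G Ω]
    [FaithfulSMul G Ω] [Field F] [Fintype F] {p n q : ℕ} (hp : p.Prime) (hp2 : p ≠ 2)
    (hn : 1 ≤ n) (hq : q = p ^ n) (hF : Fintype.card F = q ^ 2) {e : F} (he : e ^ q = -e)
    (he0 : e ≠ 0) {Λ : Subgroup Fˣ} {inf : Ω} {pt : F → F → Ω} {U H : Subgroup G} {w t : G}
    (D : CoordData q e Λ inf pt U H w t) : UnitaryAct q e inf pt U w := by
  classical
  have : Fact p.Prime := ⟨hp⟩
  have hF' : Fintype.card F = p ^ (n * 2) := by rw [hF, hq, pow_mul]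
  have : CharP F p := charP_of_card_eq_prime_pow hF'
  have : ExpChar F p := ExpChar.prime hp
  set σ : F →+* F := iterateFrobenius F p n with hσ
  have hσq : ∀ x, σ x = x ^ q := by
    intro x
    rw [hσ, iterateFrobenius_def, hq]
  have hσσ : ∀ x, σ (σ x) = x := by
    intro x
    rw [hσq, hσq, ← pow_mul, ← pow_two, ← hF, FiniteField.pow_card]
  have hσe : σ e = -e := by rw [hσq, he]
  have two : (2 : F) ≠ 0 := by
    intro h
    have h2 : ((2 : ℕ) : F) = 0 := by exact_mod_cast h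
    rw [CharP.cast_eq_zero_iff F p] at h2
    exact hp2 ((Nat.prime_dvd_prime_iff_eq hp Nat.prime_two).1 h2)
  have hqodd : Odd q := by
    rw [hq]
    exact (hp.odd_of_ne_two hp2).pow
  have hq0 : (q : F) = 0 := by
    rw [hq, Nat.cast_pow, CharP.cast_eq_zero, zero_pow (by omega)]
  have hq1 : 1 < q := by
    rw [hq]
    exact Nat.one_lt_pow (by omega) hp.one_lt
  have hpt : ∀ v y : F, IsPt q e v y ↔ Pt σ e v y := by
    intro v y
    unfold IsPt Pt
    rw [hσq, hσq, pow_succ, mul_comm (v ^ q) v]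
  have hψ : ∀ ψ : F, ψ ^ (q + 1) = ψ * σ ψ := by
    intro ψ
    rw [hσq, pow_succ, mul_comm]
  have C : Core σ e Λ inf pt U H w t := by
    refine
      { σσ := hσσ, σe := hσe, e0 := he0, two := two
        odd := by rw [D.U_card]; exact hqodd.pow
        pt_ne := fun v y h => D.pt_ne v y ((hpt v y).2 h)
        pt_inj := fun v y v' y' h h' => D.pt_inj v y v' y' ((hpt v y).2 h) ((hpt v' y').2 h')
        pt_surj := ?_, U_inf := D.U_inf, U_norm := D.U_norm, U_trans := D.U_trans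
        U_free := D.U_free, mem_H := D.mem_H, H_act := ?_, exists_H := ?_
        t_mem := D.t_mem, t_ne := D.t_ne, t_sq := D.t_sq, t_unique := D.t_unique
        t_act := fun v y h => D.t_act v y ((hpt v y).2 h)
        w_sq := D.w_sq, w_inf := D.w_inf
        w_act := fun v y h => D.w_act v y ((hpt v y).2 h)
        w_class := D.w_class, exists_T := ?_, T_comm := D.T_comm }
    · intro P hP
      obtain ⟨v, y, h1, h2⟩ := D.pt_surj P hP
      exact ⟨v, y, (hpt v y).1 h1, h2⟩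
    · intro h hh
      obtain ⟨ψ, h1, h2⟩ := D.H_act h hh
      refine ⟨ψ, h1, fun v y hvy => ?_⟩
      rw [← hψ, hσq]
      exact h2 v y ((hpt v y).2 hvy)
    · intro ψ hψΛ
      obtain ⟨h, h1, h2⟩ := D.exists_H ψ hψΛ
      refine ⟨h, h1, fun v y hvy => ?_⟩
      rw [← hψ, hσq]
      exact h2 v y ((hpt v y).2 hvy)
    · intro s hs
      obtain ⟨u, h1, h2, h3⟩ := D.exists_T s (by rw [← hσq, hs])
      exact ⟨u, h1, h2, fun v y hvy => h3 v y ((hpt v y).2 hvy)⟩
  -- facts about `Λ`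
  have hΛ : ∀ χ ∈ Λ, ∃ ψ ∈ Λ, (ψ : F) = σ (χ : Fˣ) := by
    intro χ hχ
    exact ⟨χ ^ q, pow_mem hχ q, by rw [hσq, Units.val_pow_eq_pow_val]⟩
  have hcardQ : Nat.card (Fˣ ⧸ Λ) = Nat.gcd 3 (q + 1) := by
    rw [← Subgroup.index_eq_card, D.Λ_index]
  have hfixΛ : ∀ r : Fˣ, σ (r : F) = r → r ∈ Λ := by
    intro r hr
    rw [hσq] at hr
    have h1 : r ^ (q - 1) = 1 := by
      have h2 : r ^ q = r := by
        ext
        rw [Units.val_pow_eq_pow_val, hr]
      have h3 : r ^ (q - 1) * r = 1 * r := by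
        rw [← pow_succ, Nat.sub_add_cancel hq1.le, h2, one_mul]
      exact mul_right_cancel h3
    have hcard : Nat.card Fˣ = (q - 1) * (q + 1) := by
      rw [Nat.card_eq_fintype_card, Fintype.card_units, hF]
      have := Nat.sq_sub_sq q 1
      rw [one_pow] at this
      rw [this, mul_comm]
    obtain ⟨y, hy⟩ := exists_pow_of_cyclic (by omega) hcard h1
    have hd : Λ.index ∣ q + 1 := by
      rw [D.Λ_index]
      exact Nat.gcd_dvd_right _ _
    obtain ⟨c, hc⟩ := hd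
    rw [← hy, hc, mul_comm, pow_mul]
    exact Subgroup.pow_index_mem Λ _
  obtain ⟨ρ, hρ⟩ := exists_rho C
  have hρ0 : ∀ a, a ≠ 0 → ρ a = 0 := by
    intro a ha
    by_cases h3 : (3 : F) = 0
    · have hp3 : p = 3 := by
        have h2 : ((3 : ℕ) : F) = 0 := by exact_mod_cast h3
        rw [CharP.cast_eq_zero_iff F p] at h2
        exact (Nat.prime_dvd_prime_iff_eq hp Nat.prime_three).1 h2
      have htop : Λ = ⊤ := by
        rw [← Subgroup.index_eq_one, D.Λ_index, hq, hp3]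
        obtain ⟨k, rfl⟩ : ∃ k, n = k + 1 := ⟨n - 1, by omega⟩
        have : Nat.Coprime 3 (3 ^ (k + 1) + 1) := by
          rw [pow_succ, mul_comm]
          simp
        exact this
      refine rho_zero_three C hρ hΛ htop (m := n * 3) ?_ ha
      rw [D.U_card, hq, hp3, pow_mul]
    · refine rho_zero_three_ne C hρ hΛ h3 ?_ ha
      rw [hcardQ]
      exact Nat.gcd_le_left _ (by norm_num)
  have hinv : ∀ u a A, Co σ e pt U u a A → Co σ e pt U u⁻¹ (-a) (- σ A) :=
    fun u a A h => co_inv C hρ hρ0 h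
  have hfix : ∀ r : F, r ≠ 0 → σ r = r → ∃ h ∈ H, ∀ v y, Pt σ e v y →
      h • pt v y = pt (σ r * v) (r * σ r * y) := by
    intro r hr hσr
    exact C.exists_H (Units.mk0 r hr) (hfixΛ (Units.mk0 r hr) hσr)
  have hmul := mul_formula C hinv hq0 hσq hfix
  refine
    { pt_ne := D.pt_ne, pt_inj := D.pt_inj, pt_surj := D.pt_surj, U_inf := D.U_inf
      U_act := ?_, w_inf := D.w_inf, w_zero := w_O C, w_act := D.w_act }
  intro u hu
  obtain ⟨a, A, h⟩ := co_ex C hu
  refine ⟨a, A, (hpt a A).2 h.2.1, fun v y hvy => ?_⟩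
  rw [hmul u a A h v y ((hpt v y).1 hvy), hσq]

end Cfsg.Agent.ONan.StructU
end

-- part: ONan/Identify
section
/-!
# Identification of a group acting by the unitary formulas with `PSU₃(q)` (for S1148)

`G` acts faithfully on the points `inf`, `pt v y` and is generated by `U` and `w`, which act by the
formulas of the unitary group. We identify the points with the isotropic points of the Hermitian form
`(1/e) (x₀ y₁^q - x₁ y₀^q) - 2 x₂ y₂^q`, by `inf ↦ (1,0,0)`, `pt v y ↦ (y,1,v)`.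
-/

set_option autoImplicit false

namespace Cfsg.Agent.ONan.Identify

open Matrix Cfsg.Agent.ONan.Coord Cfsg.Agent.LieClassical

variable {F : Type*} [Field F]

/-- The change of coordinates from the standard Hermitian form to the one above. -/
def Tm (e i z : F) : Matrix (Fin 3) (Fin 3) F :=
  !![1, -(2 * e)⁻¹, 0; i, i * (2 * e)⁻¹, 0; 0, 0, z]

theorem det_Tm {e i z : F} (he : e ≠ 0) (h2 : (2 : F) ≠ 0) : (Tm e i z).det = z * i * e⁻¹ := by
  rw [Tm, Matrix.det_fin_three]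
  simp
  field_simp
  ring

/-- The Hermitian form in the new coordinates. -/
def fm (q : ℕ) (e : F) (u v : Fin 3 → F) : F :=
  e⁻¹ * (u 0 * v 1 ^ q - u 1 * v 0 ^ q) - 2 * (u 2 * v 2 ^ q)

theorem two_pow_q [Fintype F] {q : ℕ} (hF : Fintype.card F = q ^ 2) : (2 : F) ^ q = 2 := by
  have h := HermBasic.add_pow_q hF (1 : F) 1
  rw [one_pow] at h
  norm_num at h
  exact h

theorem Tm_mulVec (e i z : F) (u : Fin 3 → F) :
    Tm e i z *ᵥ u = ![u 0 - (2 * e)⁻¹ * u 1, i * u 0 + i * (2 * e)⁻¹ * u 1, z * u 2] := by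
  funext k
  fin_cases k
  · simp [Tm, Matrix.mulVec, dotProduct, Fin.sum_univ_three]
    ring
  · simp [Tm, Matrix.mulVec, dotProduct, Fin.sum_univ_three]
  · simp [Tm, Matrix.mulVec, dotProduct, Fin.sum_univ_three]

theorem herm_Tm [Fintype F] {q : ℕ} (hF : Fintype.card F = q ^ 2) {e i z : F} (he : e ^ q = -e)
    (he0 : e ≠ 0) (h2 : (2 : F) ≠ 0) (hi : i * i ^ q = -1) (hz : z * z ^ q = -2)
    (u v : Fin 3 → F) :
    Cfsg.hermForm 3 F q (Tm e i z *ᵥ u) (Tm e i z *ᵥ v) = fm q e u v := by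
  have h2q : (2 : F) ^ q = 2 := two_pow_q hF
  have hinv : ((2 * e)⁻¹ : F) ^ q = -(2 * e)⁻¹ := by
    rw [inv_pow, mul_pow, h2q, he]
    field_simp
  have hb : (2 * e)⁻¹ + (2 * e)⁻¹ = e⁻¹ := by field_simp; norm_num
  rw [Tm_mulVec, Tm_mulVec]
  simp only [SUBasic.hermForm_apply, fm, Fin.sum_univ_three]
  simp only [Matrix.cons_val_zero, Matrix.cons_val_one, Matrix.cons_val]
  generalize (2 * e)⁻¹ = b at hinv hb ⊢
  rw [HermBasic.sub_pow_q hF, HermBasic.add_pow_q hF]
  simp only [mul_pow, hinv]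
  rw [← hb]
  linear_combination (u 0 + b * u 1) * (v 0 ^ q - b * v 1 ^ q) * hi + u 2 * v 2 ^ q * hz

section Vec

variable {G Ω : Type*} [Group G] [MulAction G Ω] {q : ℕ} {e : F} {inf : Ω} {pt : F → F → Ω}
  {U : Subgroup G} {w : G}

open Classical in
/-- The isotropic vector representing a point. -/
noncomputable def vec (D : UnitaryAct q e inf pt U w) (P : Ω) : Fin 3 → F :=
  if h : P = inf then ![1, 0, 0]
  else ![(D.pt_surj P h).choose_spec.choose, 1, (D.pt_surj P h).choose]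

theorem vec_inf (D : UnitaryAct q e inf pt U w) : vec D inf = ![1, 0, 0] := by
  rw [vec, dif_pos rfl]

theorem vec_pt (D : UnitaryAct q e inf pt U w) {v y : F} (h : IsPt q e v y) :
    vec D (pt v y) = ![y, 1, v] := by
  rw [vec, dif_neg (D.pt_ne v y h)]
  have hs := (D.pt_surj (pt v y) (D.pt_ne v y h)).choose_spec.choose_spec
  obtain ⟨h1, h2⟩ := D.pt_inj _ _ _ _ hs.1 h hs.2
  funext k
  fin_cases k
  · exact h2
  · rfl
  · exact h1

theorem isPt_zero (hq : q ≠ 0) : IsPt q e 0 0 := by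
  simp [IsPt, hq]

theorem cases_pt (D : UnitaryAct q e inf pt U w) (P : Ω) :
    P = inf ∨ ∃ v y, IsPt q e v y ∧ P = pt v y := by
  by_cases h : P = inf
  · exact Or.inl h
  · obtain ⟨v, y, h1, h2⟩ := D.pt_surj P h
    exact Or.inr ⟨v, y, h1, h2.symm⟩

/-- Proportional representatives belong to the same point. -/
theorem eq_of_vec_smul (D : UnitaryAct q e inf pt U w) {P Q : Ω} {c : F}
    (h : vec D P = c • vec D Q) : P = Q := by
  rcases cases_pt D P with rfl | ⟨v, y, hP, rfl⟩ <;> rcases cases_pt D Q with rfl | ⟨v', y', hQ, rfl⟩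
  · rfl
  · rw [vec_inf, vec_pt D hQ] at h
    have h1 := congrFun h 1
    have h0 := congrFun h 0
    simp at h1 h0
    rw [← h1] at h0
    simp at h0
  · rw [vec_inf, vec_pt D hP] at h
    have h1 := congrFun h 1
    simp at h1
  · rw [vec_pt D hP, vec_pt D hQ] at h
    have h1 := congrFun h 1
    have h0 := congrFun h 0
    have h2 := congrFun h 2
    simp at h1 h0 h2
    rw [← h1] at h0 h2
    rw [h0, h2, one_mul, one_mul]

end Vec

/-- The determinant one matrix of an element of `U`. -/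
def uM (q : ℕ) (e a A : F) : Matrix (Fin 3) (Fin 3) F :=
  !![1, A, 2 * e * a ^ q; 0, 1, 0; 0, a, 1]

theorem det_uM (q : ℕ) (e a A : F) : (uM q e a A).det = 1 := by
  rw [uM, Matrix.det_fin_three]
  simp

theorem uM_mulVec (q : ℕ) (e a A : F) (x : Fin 3 → F) :
    uM q e a A *ᵥ x = ![x 0 + A * x 1 + 2 * e * a ^ q * x 2, x 1, a * x 1 + x 2] := by
  funext k
  fin_cases k <;> simp [uM, Matrix.mulVec, dotProduct, Fin.sum_univ_three]

theorem fm_uM [Fintype F] {q : ℕ} (hF : Fintype.card F = q ^ 2) {e a A : F} (he : e ^ q = -e)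
    (he0 : e ≠ 0) (h : IsPt q e a A) (u v : Fin 3 → F) :
    fm q e (uM q e a A *ᵥ u) (uM q e a A *ᵥ v) = fm q e u v := by
  rw [uM_mulVec, uM_mulVec]
  simp only [fm, Matrix.cons_val_zero, Matrix.cons_val_one, Matrix.cons_val]
  simp only [HermBasic.add_pow_q hF, mul_pow, HermBasic.pow_q_pow_q hF, he, two_pow_q hF]
  have h' : A = A ^ q + 2 * e * (a * a ^ q) := by
    have := h
    rw [IsPt, pow_succ'] at this
    linear_combination this
  have hA : A - A ^ q - 2 * e * (a * a ^ q) = 0 := by linear_combination h'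
  field_simp
  linear_combination (u 1 * v 1 ^ q) * hA

/-- The determinant one matrix of `w`. -/
def wM (e : F) : Matrix (Fin 3) (Fin 3) F :=
  !![0, -e, 0; -e⁻¹, 0, 0; 0, 0, -1]

theorem det_wM {e : F} (he0 : e ≠ 0) : (wM e).det = 1 := by
  rw [wM, Matrix.det_fin_three]
  simp [he0]

theorem wM_mulVec (e : F) (x : Fin 3 → F) :
    wM e *ᵥ x = ![-e * x 1, -e⁻¹ * x 0, - x 2] := by
  funext k
  fin_cases k <;> simp [wM, Matrix.mulVec, dotProduct, Fin.sum_univ_three]

theorem fm_wM [Fintype F] {q : ℕ} (hF : Fintype.card F = q ^ 2) {e : F} (he : e ^ q = -e)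
    (he0 : e ≠ 0) (u v : Fin 3 → F) :
    fm q e (wM e *ᵥ u) (wM e *ᵥ v) = fm q e u v := by
  rw [wM_mulVec, wM_mulVec]
  simp only [fm, Matrix.cons_val_zero, Matrix.cons_val_one, Matrix.cons_val]
  simp only [mul_pow, HermBasic.neg_pow_q hF, he, inv_pow]
  field_simp
  ring

/-! ### The abstract identification -/

/-- A group related to a central quotient. -/
theorem nonempty_mulEquiv_of_rel {S G : Type*} [Group S] [Group G] [Finite S] [Finite G]
    (N : Subgroup S) [N.Normal] (R : Subgroup (S × G)) (ha : ∀ g, ∃ s, (s, g) ∈ R)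
    (hb : ∀ s, (s, (1 : G)) ∈ R → s ∈ N) (hc : ∀ s g, (s, g) ∈ R → s ∈ N → g = 1)
    (hcard : Nat.card G = Nat.card (S ⧸ N)) : Nonempty (G ≃* S ⧸ N) := by
  classical
  choose f hf using ha
  let φ : G →* S ⧸ N := MonoidHom.mk' (fun g => (f g : S ⧸ N)) (by
    intro g h
    rw [← QuotientGroup.mk_mul, QuotientGroup.eq]
    apply hb
    have h1 := R.mul_mem (R.inv_mem (hf (g * h))) (R.mul_mem (hf g) (hf h))
    have h2 : (f (g * h), g * h)⁻¹ * ((f g, g) * (f h, h)) =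
        ((f (g * h))⁻¹ * (f g * f h), (1 : G)) := by
      ext <;> simp
    rwa [h2] at h1)
  have hinj : Function.Injective φ := by
    rw [injective_iff_map_eq_one]
    intro g hg
    exact hc (f g) g (hf g) ((QuotientGroup.eq_one_iff _).1 hg)
  have hbij : Function.Bijective φ := by
    have := Fintype.ofFinite G
    have := Fintype.ofFinite (S ⧸ N)
    rw [Fintype.bijective_iff_injective_and_card]
    refine ⟨hinj, ?_⟩
    rw [← Nat.card_eq_fintype_card, ← Nat.card_eq_fintype_card, hcard]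
  exact ⟨MulEquiv.ofBijective φ hbij⟩

/-- The matrix of an element of `SU`. -/
abbrev mat {F : Type*} [Field F] {q : ℕ} (s : Cfsg.SU 3 F q) : Matrix (Fin 3) (Fin 3) F :=
  ((s : Matrix.SpecialLinearGroup (Fin 3) F) : Matrix (Fin 3) (Fin 3) F)

theorem mat_mul {q : ℕ} (s s' : Cfsg.SU 3 F q) : mat (s * s') = mat s * mat s' := rfl

theorem mat_one {q : ℕ} : mat (1 : Cfsg.SU 3 F q) = 1 := rfl

theorem mat_inv_mul {q : ℕ} (s : Cfsg.SU 3 F q) : mat s⁻¹ * mat s = 1 := by
  rw [← mat_mul, inv_mul_cancel, mat_one]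

section Rel

variable {G Ω : Type*} [Group G] [MulAction G Ω] {q : ℕ} {e : F} {inf : Ω} {pt : F → F → Ω}
  {U : Subgroup G} {w : G}

/-- Pairs of elements acting compatibly on the points. -/
def relR (D : UnitaryAct q e inf pt U w) (T : Matrix (Fin 3) (Fin 3) F) :
    Subgroup (Cfsg.SU 3 F q × G) where
  carrier := {x | ∀ P, ∃ c : F, c ≠ 0 ∧
    mat x.1 *ᵥ (T *ᵥ vec D P) = c • (T *ᵥ vec D (x.2 • P))}
  one_mem' := by
    intro P
    refine ⟨1, one_ne_zero, ?_⟩
    rw [Prod.fst_one, Prod.snd_one, mat_one, Matrix.one_mulVec, one_smul, one_smul]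
  mul_mem' := by
    intro x y hx hy P
    obtain ⟨c, hc, h1⟩ := hy P
    obtain ⟨c', hc', h2⟩ := hx (y.2 • P)
    refine ⟨c * c', mul_ne_zero hc hc', ?_⟩
    rw [Prod.fst_mul, Prod.snd_mul, mat_mul, ← Matrix.mulVec_mulVec, h1, Matrix.mulVec_smul, h2,
      mul_smul c c', mul_smul x.2 y.2]
  inv_mem' := by
    intro x hx P
    obtain ⟨c, hc, h⟩ := hx (x.2⁻¹ • P)
    refine ⟨c⁻¹, inv_ne_zero hc, ?_⟩
    rw [smul_inv_smul] at h
    have h3 := congrArg (fun v => mat x.1⁻¹ *ᵥ v) h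
    simp only [Matrix.mulVec_mulVec, Matrix.mulVec_smul] at h3
    rw [← Matrix.mul_assoc, mat_inv_mul, Matrix.one_mul] at h3
    rw [Prod.fst_inv, Prod.snd_inv, Matrix.mulVec_mulVec, h3, smul_smul, inv_mul_cancel₀ hc,
      one_smul]

theorem mem_relR (D : UnitaryAct q e inf pt U w) (T : Matrix (Fin 3) (Fin 3) F)
    (s : Cfsg.SU 3 F q) (g : G) :
    (s, g) ∈ relR D T ↔ ∀ P, ∃ c : F, c ≠ 0 ∧
      mat s *ᵥ (T *ᵥ vec D P) = c • (T *ᵥ vec D (g • P)) := Iff.rfl

/-- Lifting matrices that preserve the form `fm`. -/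
theorem exists_lift [Fintype F] (hF : Fintype.card F = q ^ 2) (he : e ^ q = -e) (he0 : e ≠ 0)
    (h2 : (2 : F) ≠ 0) {i z : F} (hi : i * i ^ q = -1) (hz : z * z ^ q = -2)
    {T' : Matrix (Fin 3) (Fin 3) F} (hT : Tm e i z * T' = 1) {M : Matrix (Fin 3) (Fin 3) F}
    (hM : M.det = 1) (hfm : ∀ u v, fm q e (M *ᵥ u) (M *ᵥ v) = fm q e u v) :
    ∃ s : Cfsg.SU 3 F q, mat s * Tm e i z = Tm e i z * M := by
  have hT' : T' * Tm e i z = 1 := mul_eq_one_comm.1 hT
  have hd : (Tm e i z * M * T').det = 1 := by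
    rw [Matrix.det_mul, Matrix.det_mul, hM, mul_one, ← Matrix.det_mul, hT, Matrix.det_one]
  refine ⟨⟨⟨Tm e i z * M * T', hd⟩, (SUBasic.mem_SU_iff _).2 ?_⟩, ?_⟩
  · intro u v
    change Cfsg.hermForm 3 F q ((Tm e i z * M * T') *ᵥ u) ((Tm e i z * M * T') *ᵥ v) = _
    rw [← Matrix.mulVec_mulVec, ← Matrix.mulVec_mulVec, ← Matrix.mulVec_mulVec,
      ← Matrix.mulVec_mulVec, herm_Tm hF he he0 h2 hi hz, hfm, ← herm_Tm hF he he0 h2 hi hz,
      Matrix.mulVec_mulVec, Matrix.mulVec_mulVec, hT, Matrix.one_mulVec, Matrix.one_mulVec]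
  · change Tm e i z * M * T' * Tm e i z = _
    rw [Matrix.mul_assoc, hT', Matrix.mul_one]

theorem uM_vec (D : UnitaryAct q e inf pt U w) {u : G} {a A : F}
    (hui : u • inf = inf)
    (hu : ∀ v y, IsPt q e v y → u • pt v y = pt (a + v) (A + y + 2 * e * a ^ q * v))
    (hpt : ∀ v y, IsPt q e v y → IsPt q e (a + v) (A + y + 2 * e * a ^ q * v)) (P : Ω) :
    uM q e a A *ᵥ vec D P = vec D (u • P) := by
  rcases cases_pt D P with rfl | ⟨v, y, hP, rfl⟩
  · rw [hui, vec_inf, uM_mulVec]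
    funext k
    fin_cases k <;> simp
  · rw [hu v y hP, vec_pt D hP, vec_pt D (hpt v y hP), uM_mulVec]
    funext k
    fin_cases k
    · simp
      ring
    · simp
    · simp

theorem isPt_add [Fintype F] (hF : Fintype.card F = q ^ 2) (he : e ^ q = -e) {a A v y : F}
    (hA : IsPt q e a A) (hv : IsPt q e v y) :
    IsPt q e (a + v) (A + y + 2 * e * a ^ q * v) := by
  simp only [IsPt, pow_succ'] at hA hv ⊢
  simp only [HermBasic.add_pow_q hF, mul_pow, HermBasic.pow_q_pow_q hF, he, two_pow_q hF]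
  linear_combination hA + hv

theorem isPt_inv [Fintype F] (hF : Fintype.card F = q ^ 2) (he : e ^ q = -e) {v y : F}
    (hv : IsPt q e v y) (hy : y ≠ 0) : IsPt q e (e * v / y) (e ^ 2 / y) := by
  have hyq : y ^ q ≠ 0 := fun h => hy ((HermBasic.pow_q_eq_zero hF).1 h)
  simp only [IsPt, pow_succ'] at hv ⊢
  simp only [div_pow, mul_pow, he, pow_zero, mul_one]
  field_simp
  linear_combination (-e^2) * hv

theorem wM_vec [Fintype F] (hF : Fintype.card F = q ^ 2) (he0 : e ≠ 0) (h2 : (2 : F) ≠ 0)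
    (he : e ^ q = -e) (D : UnitaryAct q e inf pt U w) (P : Ω) :
    ∃ c : F, c ≠ 0 ∧ wM e *ᵥ vec D P = c • vec D (w • P) := by
  have hq0 : q ≠ 0 := (HermBasic.q_pos hF).ne'
  rcases cases_pt D P with rfl | ⟨v, y, hP, rfl⟩
  · refine ⟨-e⁻¹, neg_ne_zero.2 (inv_ne_zero he0), ?_⟩
    rw [D.w_inf, vec_inf, vec_pt D (isPt_zero hq0), wM_mulVec]
    funext k
    fin_cases k <;> simp
  · by_cases hy : y = 0
    · subst hy
      have hv : v = 0 := by
        have h := hP
        rw [IsPt, zero_pow hq0, sub_zero, eq_comm, mul_eq_zero, mul_eq_zero] at h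
        rcases h with (h | h) | h
        · exact absurd h h2
        · exact absurd h he0
        · exact (pow_eq_zero_iff (Nat.succ_ne_zero q)).1 h
      subst hv
      refine ⟨-e, neg_ne_zero.2 he0, ?_⟩
      rw [D.w_zero, vec_inf, vec_pt D (isPt_zero hq0), wM_mulVec]
      funext k
      fin_cases k <;> simp
    · refine ⟨-(y / e), neg_ne_zero.2 (div_ne_zero hy he0), ?_⟩
      rw [D.w_act v y hP hy, vec_pt D hP, vec_pt D (isPt_inv hF he hP hy), wM_mulVec]
      funext k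
      fin_cases k
      · simp
        field_simp
      · simp
        field_simp
      · simp
        field_simp

theorem isPt_e_one (he : e ^ q = -e) : IsPt q e 1 e := by
  rw [IsPt, he, one_pow]
  ring

theorem isPt_e_neg_one (hodd : Odd q) (he : e ^ q = -e) : IsPt q e (-1) e := by
  rw [IsPt, he, hodd.add_one.neg_one_pow]
  ring

/-- Elements of `SU` fixing all the points are scalar. -/
theorem scalar_of_fix (hq0 : q ≠ 0) (hodd : Odd q) (he : e ^ q = -e) (he0 : e ≠ 0)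
    (h2 : (2 : F) ≠ 0) (D : UnitaryAct q e inf pt U w) {M : Matrix (Fin 3) (Fin 3) F}
    (h : ∀ P, ∃ c : F, M *ᵥ vec D P = c • vec D P) : ∃ c : F, M = c • (1 : Matrix _ _ F) := by
  obtain ⟨c0, h0⟩ := h inf
  obtain ⟨c1, h1⟩ := h (pt 0 0)
  obtain ⟨c2, h2'⟩ := h (pt 1 e)
  obtain ⟨c3, h3⟩ := h (pt (-1) e)
  rw [vec_inf] at h0
  rw [vec_pt D (isPt_zero hq0)] at h1
  rw [vec_pt D (isPt_e_one he)] at h2'
  rw [vec_pt D (isPt_e_neg_one hodd he)] at h3
  have e00 := congrFun h0 0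
  have e01 := congrFun h0 1
  have e02 := congrFun h0 2
  have e10 := congrFun h1 0
  have e11 := congrFun h1 1
  have e12 := congrFun h1 2
  have e20 := congrFun h2' 0
  have e21 := congrFun h2' 1
  have e22 := congrFun h2' 2
  have e30 := congrFun h3 0
  have e31 := congrFun h3 1
  have e32 := congrFun h3 2
  simp [Matrix.mulVec, dotProduct, Fin.sum_univ_three] at e00 e01 e02 e10 e11 e12 e20 e21 e22 e30 e31 e32
  rw [e02, e12] at e22 e32
  rw [e01] at e21 e31
  rw [e10] at e20 e30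
  have hc : M 2 2 = c2 := by linear_combination e22
  have hc3 : c3 = c2 := by linear_combination hc + e32
  rw [hc3] at e31 e30
  have h12 : M 1 2 = 0 := by
    have : (2 : F) * M 1 2 = 0 := by linear_combination e21 - e31
    exact (mul_eq_zero.1 this).resolve_left h2
  have h11 : M 1 1 = c2 := by linear_combination e21 - h12
  have h02 : M 0 2 = 0 := by
    have : (2 : F) * M 0 2 = 0 := by linear_combination e20 - e30
    exact (mul_eq_zero.1 this).resolve_left h2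
  have h00 : M 0 0 = c2 := by
    have : (M 0 0 - c2) * e = 0 := by linear_combination e20 - h02
    exact sub_eq_zero.1 ((mul_eq_zero.1 this).resolve_right he0)
  refine ⟨c2, ?_⟩
  ext i j
  fin_cases i <;> fin_cases j <;> simp [e01, e02, e10, e12, hc, h12, h11, h02, h00]

/-- `G` is the projective special unitary group. -/
theorem nonempty_mulEquiv_of_act [Finite G] [FaithfulSMul G Ω] [Fintype F]
    (hF : Fintype.card F = q ^ 2) (hodd : Odd q) (he : e ^ q = -e) (he0 : e ≠ 0)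
    (h2 : (2 : F) ≠ 0) (D : UnitaryAct q e inf pt U w)
    (hgen : Subgroup.closure ((U : Set G) ∪ {w}) = ⊤)
    (hcard : Nat.card G = Nat.card (Cfsg.PSU 3 F q)) : Nonempty (G ≃* Cfsg.PSU 3 F q) := by
  have hq0 : q ≠ 0 := (HermBasic.q_pos hF).ne'
  have h2q : (2 : F) ^ q = 2 := two_pow_q hF
  obtain ⟨i, hi⟩ := HermBasic.exists_norm_eq hF (c := (-1 : F))
    (by rw [HermBasic.neg_pow_q hF, one_pow])
  obtain ⟨z, hz⟩ := HermBasic.exists_norm_eq hF (c := (-2 : F))
    (by rw [HermBasic.neg_pow_q hF, h2q])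
  have hi0 : i ≠ 0 := by
    rintro rfl
    rw [zero_mul] at hi
    exact one_ne_zero (neg_eq_zero.1 hi.symm)
  have hz0 : z ≠ 0 := by
    rintro rfl
    rw [zero_mul] at hz
    exact h2 (neg_eq_zero.1 hz.symm)
  have hdet : IsUnit (Tm e i z).det := by
    rw [det_Tm he0 h2]
    exact (mul_ne_zero (mul_ne_zero hz0 hi0) (inv_ne_zero he0)).isUnit
  have hT : Tm e i z * (Tm e i z)⁻¹ = 1 := Matrix.mul_nonsing_inv _ hdet
  have hT' : (Tm e i z)⁻¹ * Tm e i z = 1 := Matrix.nonsing_inv_mul _ hdet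
  have hTinj : ∀ x y, Tm e i z *ᵥ x = Tm e i z *ᵥ y → x = y := by
    intro x y h
    have h' := congrArg (fun v => (Tm e i z)⁻¹ *ᵥ v) h
    simpa only [Matrix.mulVec_mulVec, hT', Matrix.one_mulVec] using h'
  refine nonempty_mulEquiv_of_rel _ (relR D (Tm e i z)) ?_ ?_ ?_ hcard
  · -- surjectivity
    have hle : (⊤ : Subgroup G) ≤ (relR D (Tm e i z)).map (MonoidHom.snd _ _) := by
      rw [← hgen, Subgroup.closure_le]
      rintro g (hg | hg)
      · obtain ⟨a, A, hA, hu⟩ := D.U_act g hg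
        obtain ⟨s, hs⟩ := exists_lift hF he he0 h2 hi hz hT (det_uM q e a A)
          (fm_uM hF he he0 hA)
        refine ⟨(s, g), ?_, rfl⟩
        rw [SetLike.mem_coe, mem_relR]
        intro P
        refine ⟨1, one_ne_zero, ?_⟩
        rw [Matrix.mulVec_mulVec, hs, ← Matrix.mulVec_mulVec,
          uM_vec D (D.U_inf g hg) hu (fun v y h => isPt_add hF he hA h), one_smul]
      · rw [Set.mem_singleton_iff] at hg
        subst hg
        obtain ⟨s, hs⟩ := exists_lift hF he he0 h2 hi hz hT (det_wM he0) (fm_wM hF he he0)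
        refine ⟨(s, g), ?_, rfl⟩
        rw [SetLike.mem_coe, mem_relR]
        intro P
        obtain ⟨c, hc, h⟩ := wM_vec hF he0 h2 he D P
        refine ⟨c, hc, ?_⟩
        rw [Matrix.mulVec_mulVec, hs, ← Matrix.mulVec_mulVec, h, Matrix.mulVec_smul]
    intro g
    obtain ⟨⟨s, g'⟩, hs, hg⟩ := hle (Subgroup.mem_top g)
    change g' = g at hg
    subst hg
    exact ⟨s, hs⟩
  · -- elements fixing the points are central
    intro s hs
    rw [mem_relR] at hs
    obtain ⟨c, hc⟩ := scalar_of_fix (M := (Tm e i z)⁻¹ * mat s * Tm e i z) hq0 hodd he he0 h2 D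
      (fun P => by
        obtain ⟨c, -, h⟩ := hs P
        refine ⟨c, ?_⟩
        rw [one_smul, Matrix.mulVec_mulVec] at h
        rw [Matrix.mul_assoc, ← Matrix.mulVec_mulVec, h, Matrix.mulVec_smul,
          Matrix.mulVec_mulVec, hT', Matrix.one_mulVec])
    have hsc : mat s = c • (1 : Matrix (Fin 3) (Fin 3) F) := by
      have h1 : Tm e i z * ((Tm e i z)⁻¹ * mat s * Tm e i z) * (Tm e i z)⁻¹ = mat s := by
        rw [Matrix.mul_assoc, Matrix.mul_assoc, hT, Matrix.mul_one, ← Matrix.mul_assoc, hT,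
          Matrix.one_mul]
      rw [← h1, hc, Matrix.mul_smul, Matrix.mul_one, Matrix.smul_mul, hT]
    rw [Subgroup.mem_center_iff]
    intro B
    apply Subtype.ext
    apply Subtype.ext
    change mat B * mat s = mat s * mat B
    rw [hsc, Matrix.mul_smul, Matrix.mul_one, Matrix.smul_mul, Matrix.one_mul]
  · -- faithfulness
    intro s g hs hsZ
    rw [mem_relR] at hs
    obtain ⟨c, hcn, hcq, rfl⟩ := (SUBasic.mem_center_SU_iff hF le_rfl s).1 hsZ
    have hc0 : c ≠ 0 := by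
      rintro rfl
      rw [zero_pow three_ne_zero] at hcn
      exact zero_ne_one hcn
    refine FaithfulSMul.eq_of_smul_eq_smul (α := Ω) fun P => ?_
    rw [one_smul]
    obtain ⟨c', hc', h⟩ := hs P
    have hm : mat (SUBasic.suScalar q c hcn hcq) = c • (1 : Matrix (Fin 3) (Fin 3) F) := by
      rw [mat, SUBasic.coe_suScalar, Matrix.smul_one_eq_diagonal]
    rw [hm, Matrix.smul_mulVec, Matrix.one_mulVec, ← Matrix.mulVec_smul, ← Matrix.mulVec_smul] at h
    have h' := hTinj _ _ h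
    refine (eq_of_vec_smul D (c := c⁻¹ * c') ?_).symm
    rw [mul_smul, ← h', smul_smul, inv_mul_cancel₀ hc0, one_smul]

end Rel

theorem nonempty_mulEquiv_PSU {G Ω F : Type*} [Group G] [Finite G] [MulAction G Ω]
    [FaithfulSMul G Ω] [Field F] [Fintype F] {p n q : ℕ} (hp : p.Prime) (hp2 : p ≠ 2) (hn : 1 ≤ n)
    (hq : q = p ^ n) (hF : Fintype.card F = q ^ 2) {e : F} (he : e ^ q = -e) (he0 : e ≠ 0)
    {inf : Ω} {pt : F → F → Ω} {U : Subgroup G} {w : G}
    (D : UnitaryAct q e inf pt U w) (hgen : Subgroup.closure ((U : Set G) ∪ {w}) = ⊤)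
    (hG : Nat.gcd 3 (q + 1) * Nat.card G = q ^ 3 * (q ^ 3 + 1) * (q ^ 2 - 1)) :
    Nonempty (G ≃* Cfsg.PSU 3 F q) := by
  have hodd : Odd q := by
    rw [hq]
    exact (hp.odd_of_ne_two hp2).pow
  have h2 : (2 : F) ≠ 0 := by
    intro h
    obtain ⟨r, k, hr, hchar, hk, hk0⟩ := HermBasic.exists_prime_pow hF
    have h3 : r ∣ 2 := (CharP.cast_eq_zero_iff F r 2).1 (by exact_mod_cast h)
    have h4 : r = 2 := (Nat.prime_dvd_prime_iff_eq hr Nat.prime_two).1 h3
    rw [hk, h4] at hodd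
    exact (Nat.not_odd_iff_even.2 ((even_two).pow_of_ne_zero hk0.ne')) hodd
  refine nonempty_mulEquiv_of_act hF hodd he he0 h2 D hgen ?_
  have h := Cfsg.Agent.S0280.result hF 3 (by norm_num)
  have hprod : (∏ i ∈ Finset.range 3, (if Even i then q ^ (i + 1) + 1 else q ^ (i + 1) - 1)) =
      (q + 1) * (q ^ 2 - 1) * (q ^ 3 + 1) := by
    rw [Finset.prod_range_succ, Finset.prod_range_succ, Finset.prod_range_succ,
      Finset.prod_range_zero]
    norm_num
  rw [hprod] at h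
  norm_num at h
  have hg0 : 0 < Nat.gcd 3 (q + 1) := Nat.gcd_pos_of_pos_left _ (by norm_num)
  have h5 : Nat.gcd 3 (q + 1) * (q + 1) * Nat.card G =
      Nat.gcd 3 (q + 1) * (q + 1) * Nat.card (Cfsg.PSU 3 F q) := by
    have h6 : Nat.gcd 3 (q + 1) * (q + 1) * Nat.card G =
        (q + 1) * (Nat.gcd 3 (q + 1) * Nat.card G) := by ring
    rw [h6, hG]
    have h7 : Nat.gcd 3 (q + 1) * (q + 1) * Nat.card (Cfsg.PSU 3 F q) =
      Nat.gcd 3 (q + 1) * ((q + 1) * Nat.card (Cfsg.PSU 3 F q)) := by ring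
    rw [h7, h]
    ring
  exact Nat.eq_of_mul_eq_mul_left (Nat.mul_pos hg0 (Nat.succ_pos q)) h5

end Cfsg.Agent.ONan.Identify
end

-- part: ONan/Frame
section
/-!
# The centraliser of the involution `t` in a group of odd unitary type

From `StageData` we get a homomorphism from `SL₂(k)`, `|k| = q`, to the centraliser of `t`.
-/

set_option autoImplicit false
set_option linter.style.haveILetI false

namespace Cfsg.Agent.ONan.Frame

open Cfsg.Agent.ONan.Stage Cfsg.Agent.ONan.RankOne Cfsg.Agent.ONan.SL2Hom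

section stage

variable {G Ω : Type*} [Group G] [MulAction G Ω] {p n q d : ℕ} {inf zero : Ω} {U H : Subgroup G}
  {t w : G}

theorem q_odd (S : StageData p n q d inf zero U H t w) : Odd q := by
  rw [S.hq]
  exact (S.hp.odd_of_ne_two S.hp2).pow

theorem q_ge (S : StageData p n q d inf zero U H t w) : 3 ≤ q := by
  have h1 : 3 ≤ p := by
    have := S.hp.two_le
    have := S.hp2
    omega
  rw [S.hq]
  calc 3 ≤ p := h1
    _ = p ^ 1 := (pow_one p).symm
    _ ≤ p ^ n := Nat.pow_le_pow_right S.hp.pos S.hn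

theorem H_comm (S : StageData p n q d inf zero U H t w) :
    ∀ x ∈ H, ∀ y ∈ H, x * y = y * x := by
  intro x hx y hy
  obtain ⟨g, hg⟩ := S.H_cyc.exists_generator
  obtain ⟨i, hi⟩ := Subgroup.mem_zpowers_iff.mp (hg ⟨x, hx⟩)
  obtain ⟨j, hj⟩ := Subgroup.mem_zpowers_iff.mp (hg ⟨y, hy⟩)
  have h : (⟨x, hx⟩ : H) * ⟨y, hy⟩ = ⟨y, hy⟩ * ⟨x, hx⟩ := by
    rw [← hi, ← hj, ← zpow_add, ← zpow_add, add_comm]
  exact congrArg Subtype.val h

theorem H_inf (S : StageData p n q d inf zero U H t w) {h : G} (hh : h ∈ H) : h • inf = inf :=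
  ((S.mem_H h).mp hh).1

theorem H_zero (S : StageData p n q d inf zero U H t w) {h : G} (hh : h ∈ H) : h • zero = zero :=
  ((S.mem_H h).mp hh).2

theorem w_h (S : StageData p n q d inf zero U H t w) {h : G} (hh : h ∈ H) :
    w * h = (h ^ q)⁻¹ * w := by
  have h1 := S.w_pow h hh
  have h2 : w * h * w = (h ^ q)⁻¹ := eq_inv_of_mul_eq_one_left h1
  rw [← h2, mul_assoc, S.w_sq, mul_one]

theorem h_w (S : StageData p n q d inf zero U H t w) {h : G} (hh : h ∈ H) :
    h * w = w * (h ^ q)⁻¹ := by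
  have h1 := S.w_pow h hh
  have h2 : w * h * w = (h ^ q)⁻¹ := eq_inv_of_mul_eq_one_left h1
  rw [← h2, mul_assoc w h w, ← mul_assoc w w, S.w_sq, one_mul]

theorem t_pow (S : StageData p n q d inf zero U H t w) : t ^ q = t := by
  obtain ⟨a, ha⟩ := q_odd S
  rw [ha, pow_succ, pow_mul, pow_two, S.t_sq, one_pow, one_mul]

theorem t_inv (S : StageData p n q d inf zero U H t w) : t⁻¹ = t :=
  inv_eq_of_mul_eq_one_right S.t_sq

theorem w_inv (S : StageData p n q d inf zero U H t w) : w⁻¹ = w :=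
  inv_eq_of_mul_eq_one_right S.w_sq

theorem w_w (S : StageData p n q d inf zero U H t w) (P : Ω) : w • w • P = P := by
  rw [← mul_smul, S.w_sq, one_smul]

theorem t_t (S : StageData p n q d inf zero U H t w) (P : Ω) : t • t • P = P := by
  rw [← mul_smul, S.t_sq, one_smul]

theorem w_t (S : StageData p n q d inf zero U H t w) : w * t = t * w := by
  rw [w_h S S.t_mem, t_pow S, t_inv S]

theorem h_t (S : StageData p n q d inf zero U H t w) {h : G} (hh : h ∈ H) : h * t = t * h :=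
  H_comm S h hh t S.t_mem

theorem pow_eq_one (S : StageData p n q d inf zero U H t w) {h : G} (hh : h ∈ H) :
    h ^ (q ^ 2 - 1) = 1 := by
  have h1 : (⟨h, hh⟩ : H) ^ Nat.card H = 1 := pow_card_eq_one'
  have h2 : h ^ Nat.card H = 1 := congrArg Subtype.val h1
  rw [← S.H_card, mul_comm, pow_mul, h2, one_pow]

/-- rank one data of the whole group -/
theorem r1 (S : StageData p n q d inf zero U H t w) :
    R1 (⊤ : Subgroup G) Set.univ inf zero U H where
  ne := S.ne
  a_mem := trivial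
  b_mem := trivial
  inv := fun _ _ _ _ => trivial
  Q_le := le_top
  D_le := le_top
  Q_fix := S.U_inf
  norm := fun g _ hg u hu => S.U_norm g hg u hu
  trans := fun c _ hc => S.U_trans zero c S.ne.symm hc
  free := fun u hu h => S.U_free zero S.ne.symm u hu h
  D_a := fun _ hx => H_inf S hx
  D_b := fun _ hx => H_zero S hx
  mem_D := fun g _ h1 h2 => (S.mem_H g).mpr ⟨h1, h2⟩
  comm := H_comm S
  moves := ⟨w, trivial, by rw [S.w_inf]; exact S.ne.symm⟩

end stage

/-- `StageData` with coordinates on the centraliser of `t` in `U`. -/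
structure TFrame {G Ω k : Type*} [Group G] [MulAction G Ω] [Field k] (p n q d : ℕ) (inf zero : Ω)
    (U H : Subgroup G) (t w : G) (T : k → G) (χ : G → k) : Prop where
  S : StageData p n q d inf zero U H t w
  T_add : ∀ a b, T (a + b) = T a * T b
  T_inj : ∀ a b, T a = T b → a = b
  T_mem : ∀ a, T a ∈ U
  T_t : ∀ a, T a * t = t * T a
  T_surj : ∀ u ∈ U, u * t = t * u → ∃ a, T a = u
  χ_ne : ∀ h ∈ H, χ h ≠ 0
  χ_mul : ∀ h ∈ H, ∀ h' ∈ H, χ (h * h') = χ h * χ h'
  χ_surj : ∀ r, r ≠ 0 → ∃ h ∈ H, χ h = r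
  conj : ∀ h ∈ H, ∀ a, h * T a * h⁻¹ = T (χ h * a)
  frob : ∀ a : k, a ^ q = a
  two_ne : (2 : k) ≠ 0

theorem exists_frame {G Ω : Type*} [Group G] [Finite G] [MulAction G Ω] {p n q d : ℕ}
    {inf zero : Ω} {U H : Subgroup G} {t w : G} (S : StageData p n q d inf zero U H t w)
    (k : Type*) [Field k] [Fintype k] (hk : Fintype.card k = q) :
    ∃ (T : k → G) (χ : G → k), TFrame p n q d inf zero U H t w T χ := by
  have hq3 := q_ge S
  -- a non-identity element of `Q`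
  obtain ⟨⟨s, hs⟩, hs1⟩ : ∃ s : (U ⊓ Subgroup.centralizer {t} : Subgroup G), s ≠ 1 := by
    haveI : Nontrivial (U ⊓ Subgroup.centralizer {t} : Subgroup G) := by
      apply Finite.one_lt_card_iff_nontrivial.mp
      rw [S.Q_card]
      omega
    exact exists_ne 1
  have hmem : ∀ {x : G}, x ∈ (U ⊓ Subgroup.centralizer {t} : Subgroup G) ↔ x ∈ U ∧ x * t = t * x := by
    intro x
    rw [Subgroup.mem_inf, Subgroup.mem_centralizer_singleton_iff]
  have hs1' : s ≠ 1 := fun h => hs1 (Subtype.ext h)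
  have hsU := hmem.mp hs
  obtain ⟨T, χ, h1, h2, h3, h4, h5, h6, h7, h8⟩ := FieldOfTorus.exists_coord
    (U ⊓ Subgroup.centralizer {t} : Subgroup G) H
    (fun x hx y hy => S.T_comm x (hmem.mp hx).1 (hmem.mp hx).2 y (hmem.mp hy).1)
    (H_comm S) (by
      intro h hh x hx
      obtain ⟨hx1, hx2⟩ := hmem.mp hx
      refine hmem.mpr ⟨S.U_norm h (H_inf S hh) x hx1, ?_⟩
      have h3 := h_t S hh
      have h4 : h⁻¹ * t = t * h⁻¹ := h_t S (H.inv_mem hh)
      rw [mul_assoc, h4, ← mul_assoc, mul_assoc h x t, hx2, ← mul_assoc, h3]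
      group) s hs hs1' (by
      intro x hx hx1
      obtain ⟨hxU, hxt⟩ := hmem.mp hx
      exact S.H_trans s hsU.1 hsU.2 hs1' x hxU hxt hx1) (by
      intro h hh hhs x hx
      have h1 := S.K_of h hh s hsU.1 hsU.2 hs1' hhs
      exact (S.K_cent h hh h1 x (hmem.mp hx).2).symm) k (by rw [hk, S.Q_card])
  refine ⟨T, χ, S, h1, h2, fun a => (hmem.mp (h3 a)).1, fun a => (hmem.mp (h3 a)).2,
    fun u hu hut => h4 u (hmem.mpr ⟨hu, hut⟩), h5, h6, h7, h8, ?_, ?_⟩
  · intro a
    rw [← hk]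
    exact FiniteField.pow_card a
  · intro h20
    have hchar : ringChar k = 2 := by
      have h21 : ringChar k ∣ 2 := (ringChar.spec k 2).mp (by exact_mod_cast h20)
      rcases (Nat.dvd_prime Nat.prime_two).mp h21 with h | h
      · exact absurd h (CharP.ringChar_ne_one)
      · exact h
    haveI : Fact (Nat.Prime 2) := ⟨Nat.prime_two⟩
    haveI : CharP k 2 := hchar ▸ ringChar.charP k
    obtain ⟨m, _, hm⟩ := FiniteField.card k 2
    have hodd := q_odd S
    rw [← hk, hm] at hodd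
    exact (Nat.not_even_iff_odd.mpr hodd) ((Nat.even_pow' m.ne_zero).mpr even_two)

section frame

variable {G Ω k : Type*} [Group G] [MulAction G Ω] [Field k] {p n q d : ℕ} {inf zero : Ω}
  {U H : Subgroup G} {t w : G} {T : k → G} {χ : G → k}

theorem TFrame.T_zero (F : TFrame p n q d inf zero U H t w T χ) : T 0 = 1 := by
  have h := F.T_add 0 0
  rw [add_zero] at h
  exact (mul_eq_left.mp h.symm)

theorem TFrame.T_neg (F : TFrame p n q d inf zero U H t w T χ) (a : k) : T (-a) = (T a)⁻¹ := by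
  apply eq_inv_of_mul_eq_one_left
  rw [← F.T_add, neg_add_cancel, F.T_zero]

theorem TFrame.T_inf (F : TFrame p n q d inf zero U H t w T χ) (a : k) : T a • inf = inf :=
  F.S.U_inf _ (F.T_mem a)

theorem TFrame.T_smul_ne (F : TFrame p n q d inf zero U H t w T χ) (a : k) : T a • zero ≠ inf :=
  (r1 F.S).smul_ne (F.T_mem a) F.S.ne.symm

theorem TFrame.T_smul_inj (F : TFrame p n q d inf zero U H t w T χ) {a b : k}
    (h : T a • zero = T b • zero) : a = b := by
  have h1 : T (-b + a) • zero = zero := by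
    rw [F.T_add, F.T_neg, mul_smul, h, inv_smul_smul]
  have h2 := F.S.U_free zero F.S.ne.symm _ (F.T_mem _) h1
  rw [← F.T_zero] at h2
  have h3 := F.T_inj _ _ h2
  linear_combination h3

theorem TFrame.t_T (F : TFrame p n q d inf zero U H t w T χ) (a : k) : t • T a • zero = T a • zero := by
  rw [← mul_smul, ← F.T_t, mul_smul, H_zero F.S F.S.t_mem]

theorem TFrame.fix_t (F : TFrame p n q d inf zero U H t w T χ) {P : Ω} (hP : P ≠ inf)
    (ht : t • P = P) : ∃ a, T a • zero = P := by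
  obtain ⟨u, hu, rfl⟩ := F.S.U_trans zero P F.S.ne.symm hP
  have h1 : t * u * t⁻¹ ∈ U := F.S.U_norm t (H_inf F.S F.S.t_mem) u hu
  have h2 : (u⁻¹ * (t * u * t⁻¹)) • zero = zero := by
    rw [mul_smul, mul_smul, mul_smul, t_inv F.S, H_zero F.S F.S.t_mem, ht, inv_smul_smul]
  have h3 := F.S.U_free zero F.S.ne.symm _ (U.mul_mem (U.inv_mem hu) h1) h2
  have h4 : u = t * u * t⁻¹ := inv_mul_eq_one.mp h3
  have h5 : u * t = t * u := by
    calc u * t = t * u * t⁻¹ * t := by rw [← h4]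
      _ = t * u := by group
  obtain ⟨a, ha⟩ := F.T_surj u hu h5
  exact ⟨a, by rw [ha]⟩

theorem TFrame.h_T (F : TFrame p n q d inf zero U H t w T χ) {h : G} (hh : h ∈ H) (a : k) :
    h * T a = T (χ h * a) * h := by
  rw [← F.conj h hh a]
  group

theorem TFrame.h_smul (F : TFrame p n q d inf zero U H t w T χ) {h : G} (hh : h ∈ H) (a : k) :
    h • T a • zero = T (χ h * a) • zero := by
  rw [← mul_smul, F.h_T hh, mul_smul, H_zero F.S hh]

theorem TFrame.χ_one (F : TFrame p n q d inf zero U H t w T χ) : χ 1 = 1 := by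
  have h1 := F.χ_mul 1 H.one_mem 1 H.one_mem
  rw [one_mul] at h1
  have h2 := F.χ_ne 1 H.one_mem
  exact mul_left_cancel₀ h2 (by rw [← h1, mul_one])

theorem TFrame.χ_inv (F : TFrame p n q d inf zero U H t w T χ) {h : G} (hh : h ∈ H) :
    χ h⁻¹ = (χ h)⁻¹ := by
  apply eq_inv_of_mul_eq_one_left
  rw [← F.χ_mul _ (H.inv_mem hh) _ hh, inv_mul_cancel, F.χ_one]

theorem TFrame.χ_pow (F : TFrame p n q d inf zero U H t w T χ) {h : G} (hh : h ∈ H) (j : ℕ) :
    χ (h ^ j) = χ h ^ j := by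
  induction j with
  | zero => rw [pow_zero, pow_zero, F.χ_one]
  | succ j ih => rw [pow_succ, pow_succ, F.χ_mul _ (H.pow_mem hh j) _ hh, ih]

theorem TFrame.χ_pow_q (F : TFrame p n q d inf zero U H t w T χ) {h : G} (hh : h ∈ H) :
    χ ((h ^ q)⁻¹) = (χ h)⁻¹ := by
  rw [F.χ_inv (H.pow_mem hh q), F.χ_pow hh, F.frob]

/-- the elements of the kernel of `χ` -/
theorem TFrame.pow_of_χ (F : TFrame p n q d inf zero U H t w T χ) {h : G} (hh : h ∈ H)
    (h1 : χ h = 1) : h ^ (q + 1) = 1 := by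
  have hT1 : T 1 ≠ 1 := by
    rw [← F.T_zero]
    intro h
    exact one_ne_zero (F.T_inj _ _ h)
  refine F.S.K_of h hh (T 1) (F.T_mem 1) (F.T_t 1) hT1 ?_
  rw [F.h_T hh, h1, one_mul]

theorem TFrame.χ_of_pow (F : TFrame p n q d inf zero U H t w T χ) {h : G} (hh : h ∈ H)
    (h1 : h ^ (q + 1) = 1) : χ h = 1 := by
  have h2 := F.S.K_cent h hh h1 (T 1) (F.T_t 1)
  rw [F.h_T hh] at h2
  have h3 := F.T_inj _ _ (mul_right_cancel h2)
  rw [mul_one] at h3
  exact h3.symm

theorem TFrame.exists_c (F : TFrame p n q d inf zero U H t w T χ) :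
    ∃ c : k, c ≠ 0 ∧ ∀ a, a ≠ 0 → w • T a • zero = T (c / a) • zero := by
  have key : ∀ a, a ≠ 0 → ∃ b, b ≠ 0 ∧ w • T a • zero = T b • zero := by
    intro a ha
    have h1 : w • T a • zero ≠ inf := by
      intro h
      have h2 : T a • zero = T 0 • zero := by
        have h4 := w_w F.S (T a • zero)
        rw [h, F.S.w_inf] at h4
        rw [F.T_zero, one_smul, ← h4]
      exact ha (F.T_smul_inj h2)
    have h2 : t • w • T a • zero = w • T a • zero := by
      rw [← mul_smul, ← w_t F.S, mul_smul, F.t_T]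
    obtain ⟨b, hb⟩ := F.fix_t h1 h2
    refine ⟨b, ?_, hb.symm⟩
    rintro rfl
    rw [F.T_zero, one_smul] at hb
    have h3 : T a • zero = inf := by
      have h4 := w_w F.S (T a • zero)
      rw [← hb, F.S.w_zero] at h4
      exact h4.symm
    exact F.T_smul_ne a h3
  obtain ⟨c, hc, h1⟩ := key 1 one_ne_zero
  refine ⟨c, hc, fun a ha => ?_⟩
  obtain ⟨h, hh, rfl⟩ := F.χ_surj a ha
  have h2 : T (χ h) • zero = h • T 1 • zero := by rw [F.h_smul hh, mul_one]
  rw [h2, ← mul_smul, w_h F.S hh, mul_smul, h1, F.h_smul (H.inv_mem (H.pow_mem hh q)), F.χ_pow_q hh]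
  congr 2
  field_simp

/-- the elements `w T_s w` -/
theorem TFrame.exists_hs (F : TFrame p n q d inf zero U H t w T χ) {c : k} (hc : c ≠ 0)
    (hw : ∀ a, a ≠ 0 → w • T a • zero = T (c / a) • zero) (s : k) (hs : s ≠ 0) :
    ∃ h ∈ H, χ h = -(c / s ^ 2) ∧ w * T s * w = T (c / s) * h * w * T (c / s) := by
  have hcs : c / s ≠ 0 := div_ne_zero hc hs
  let h : G := T (-(c / s)) * (w * T s * w) * T (-(c / s)) * w
  have hh : h ∈ H := by
    rw [F.S.mem_H]
    constructor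
    · show (T (-(c / s)) * (w * T s * w) * T (-(c / s)) * w) • inf = inf
      rw [mul_smul, mul_smul, mul_smul, mul_smul, mul_smul, F.S.w_inf, hw _ (neg_ne_zero.mpr hcs)]
      have e1 : c / -(c / s) = -s := by field_simp
      rw [e1, ← mul_smul (T s), ← F.T_add, add_neg_cancel, F.T_zero, one_smul, F.S.w_zero, F.T_inf]
    · show (T (-(c / s)) * (w * T s * w) * T (-(c / s)) * w) • zero = zero
      rw [mul_smul, mul_smul, mul_smul, mul_smul, mul_smul, F.S.w_zero, F.T_inf, F.S.w_inf,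
        hw _ hs, ← mul_smul (T _), ← F.T_add, neg_add_cancel, F.T_zero, one_smul]
  have hrel : w * T s * w = T (c / s) * h * w * T (c / s) := by
    show w * T s * w = T (c / s) * (T (-(c / s)) * (w * T s * w) * T (-(c / s)) * w) * w * T (c / s)
    rw [F.T_neg]
    calc w * T s * w = T (c / s) * (T (c / s))⁻¹ * (w * T s * w) * (T (c / s))⁻¹ * T (c / s) := by
          group
      _ = T (c / s) * (T (c / s))⁻¹ * (w * T s * w) * (T (c / s))⁻¹ * (w * w) * T (c / s) := by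
          rw [F.S.w_sq, mul_one]
      _ = _ := by group
  refine ⟨h, hh, ?_, hrel⟩
  -- apply the relation to `zero`
  have h1 : (w * T s * w) • zero = zero := by
    rw [mul_smul, mul_smul, F.S.w_zero, F.T_inf, F.S.w_inf]
  rw [hrel, mul_smul, mul_smul, mul_smul, hw _ hcs, F.h_smul hh, ← mul_smul, ← F.T_add] at h1
  have h2 : T (c / s + χ h * (c / (c / s))) • zero = T 0 • zero := by
    rw [h1, F.T_zero, one_smul]
  have h3 := F.T_smul_inj h2
  have e2 : c / (c / s) = s := by field_simp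
  rw [e2] at h3
  have h4 : χ h * s = -(c / s) := by linear_combination h3
  have h5 : χ h = -(c / s) / s := by rw [← h4]; field_simp
  rw [h5]
  field_simp

/-- the element of `H` in the relation is unique -/
theorem TFrame.hs_unique (_F : TFrame p n q d inf zero U H t w T χ) {a : k} {x y : G}
    (h : T a * x * w * T a = T a * y * w * T a) : x = y := by
  have h1 : T a * x * w = T a * y * w := mul_right_cancel h
  exact mul_left_cancel (mul_right_cancel h1)

end frame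

/-- `TFrame` with a torus and the relations of `SL₂`. -/
structure SFrame {G Ω k : Type*} [Group G] [MulAction G Ω] [Field k] (p n q d : ℕ) (inf zero : Ω)
    (U H : Subgroup G) (t w : G) (T : k → G) (χ : G → k) (ν : k → G) (η : G) (c : k) : Prop where
  F : TFrame p n q d inf zero U H t w T χ
  w_T : ∀ a, a ≠ 0 → w • T a • zero = T (c / a) • zero
  ν_χ : ∀ h ∈ H, ν (χ h) = h ^ (q + 1)
  η_mem : η ∈ H
  χ_η : χ η = -c
  η_pow : η ^ (q - 1) = t
  ν_neg : ν (-1) = t
  rel : Rel T ν (η * w) c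

section exists_sframe

variable {G Ω k : Type*} [Group G] [MulAction G Ω] [Field k] {p n q d : ℕ} {inf zero : Ω}
  {U H : Subgroup G} {t w : G} {T : k → G} {χ : G → k}

theorem TFrame.exists_sframe (F : TFrame p n q d inf zero U H t w T χ) :
    ∃ (ν : k → G) (η : G) (c : k), SFrame p n q d inf zero U H t w T χ ν η c := by
  classical
  obtain ⟨c, hc, hw⟩ := F.exists_c
  have hq3 := q_ge F.S
  have hcomm := H_comm F.S
  choose! g hgH hgχ using F.χ_surj
  let ν : k → G := fun r => g r ^ (q + 1)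
  -- commuting powers
  have hmulpow : ∀ x ∈ H, ∀ y ∈ H, ∀ j : ℕ, (x * y) ^ j = x ^ j * y ^ j := fun x hx y hy j =>
    (show Commute x y from hcomm x hx y hy).mul_pow j
  have hνχ : ∀ h ∈ H, ν (χ h) = h ^ (q + 1) := by
    intro h hh
    have h0 := F.χ_ne h hh
    have h1 : χ (h⁻¹ * g (χ h)) = 1 := by
      rw [F.χ_mul _ (H.inv_mem hh) _ (hgH _ h0), F.χ_inv hh, hgχ _ h0, inv_mul_cancel₀ h0]
    have h2 := F.pow_of_χ (H.mul_mem (H.inv_mem hh) (hgH _ h0)) h1
    rw [hmulpow _ (H.inv_mem hh) _ (hgH _ h0), inv_pow] at h2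
    exact (inv_mul_eq_one.mp h2).symm
  have hνH : ∀ r, r ≠ 0 → ν r ∈ H := fun r hr => H.pow_mem (hgH r hr) _
  have hχν : ∀ r, r ≠ 0 → χ (ν r) = r ^ 2 := by
    intro r hr
    show χ (g r ^ (q + 1)) = _
    rw [F.χ_pow (hgH r hr), hgχ r hr, pow_succ, F.frob, pow_two]
  have hνmul : ∀ r s, r ≠ 0 → s ≠ 0 → ν (r * s) = ν r * ν s := by
    intro r s hr hs
    have h1 : r * s = χ (g r * g s) := by rw [F.χ_mul _ (hgH r hr) _ (hgH s hs), hgχ r hr, hgχ s hs]
    rw [h1, hνχ _ (H.mul_mem (hgH r hr) (hgH s hs)), hmulpow _ (hgH r hr) _ (hgH s hs)]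
  have hν1 : ν 1 = 1 := by
    have h := hνmul 1 1 one_ne_zero one_ne_zero
    rw [one_mul] at h
    exact (mul_eq_left.mp h.symm)
  -- `w ν(r) = ν(r)⁻¹ w`
  have hwν : ∀ r, r ≠ 0 → w * ν r = (ν r)⁻¹ * w := by
    intro r hr
    rw [w_h F.S (hνH r hr)]
    congr 2
    show (g r ^ (q + 1)) ^ q = g r ^ (q + 1)
    have h1 := pow_eq_one F.S (hgH r hr)
    have e1 : (q + 1) * q = (q ^ 2 - 1) + (q + 1) := by
      have : 1 ≤ q ^ 2 := Nat.one_le_pow _ _ (by omega)
      zify [this]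
      ring
    rw [← pow_mul, e1, pow_add, h1, one_mul]
  have hneg : (-1 : k) ≠ 0 := neg_ne_zero.mpr one_ne_zero
  have hνneg : ν (-1) = t := by
    have h1 : ν (-1) * ν (-1) = 1 := by
      rw [← hνmul _ _ hneg hneg, neg_mul_neg, one_mul, hν1]
    rcases F.S.t_unique _ (hνH _ hneg) h1 with h | h
    · exfalso
      have h2 : g (-1) ^ (q + 1) = 1 := h
      have h3 := F.χ_of_pow (hgH _ hneg) h2
      rw [hgχ _ hneg] at h3
      apply F.two_ne
      linear_combination -h3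
    · exact h
  -- the elements `h(s)`
  choose! hs hsH hsχ hsrel using fun s hs => F.exists_hs hc hw s hs
  have hinv : ∀ r : k, r ≠ 0 → ∀ s : k, s ≠ 0 → hs (s / r) = hs s * ν r := by
    intro r hr s hs0
    have hg := hgH r hr
    have hsr : s / r ≠ 0 := div_ne_zero hs0 hr
    -- conjugate the relation by `g r`
    have e1 : g r * (w * T s * w) * (g r)⁻¹ = w * T (s / r) * w := by
      have a1 : g r * w = w * ((g r) ^ q)⁻¹ := h_w F.S hg
      have a2 : w * (g r)⁻¹ = (g r) ^ q * w := by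
        rw [w_h F.S (H.inv_mem hg), inv_pow, inv_inv]
      have a3 : ((g r) ^ q)⁻¹ * T s = T (s / r) * ((g r) ^ q)⁻¹ := by
        rw [F.h_T (H.inv_mem (H.pow_mem hg q)), F.χ_pow_q hg, hgχ r hr, div_eq_inv_mul]
      calc g r * (w * T s * w) * (g r)⁻¹ = (g r * w) * T s * (w * (g r)⁻¹) := by group
        _ = w * ((((g r) ^ q)⁻¹ * T s)) * ((g r) ^ q * w) := by rw [a1, a2]; group
        _ = _ := by rw [a3]; group
    have e2 : g r * (T (c / s) * hs s * w * T (c / s)) * (g r)⁻¹ =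
        T (c / (s / r)) * (hs s * ν r) * w * T (c / (s / r)) := by
      have a1 : g r * T (c / s) = T (c / (s / r)) * g r := by
        rw [F.h_T hg, hgχ r hr]
        congr 2
        field_simp
      have a2 : T (c / s) * (g r)⁻¹ = (g r)⁻¹ * T (c / (s / r)) := by
        rw [F.h_T (H.inv_mem hg), F.χ_inv hg, hgχ r hr]
        congr 2
        field_simp
      have a3 : w * (g r)⁻¹ = (g r) ^ q * w := by
        rw [w_h F.S (H.inv_mem hg), inv_pow, inv_inv]
      have a4 : g r * hs s * (g r) ^ q = hs s * (g r) ^ (q + 1) := by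
        rw [hcomm _ hg _ (hsH s hs0), pow_succ']
        group
      calc g r * (T (c / s) * hs s * w * T (c / s)) * (g r)⁻¹
          = (g r * T (c / s)) * hs s * w * (T (c / s) * (g r)⁻¹) := by group
        _ = T (c / (s / r)) * (g r * hs s) * (w * (g r)⁻¹) * T (c / (s / r)) := by
            rw [a1, a2]; group
        _ = T (c / (s / r)) * (g r * hs s * (g r) ^ q) * w * T (c / (s / r)) := by
            rw [a3]; group
        _ = _ := by rw [a4]
    have e3 := hsrel (s / r) hsr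
    rw [← e1, hsrel s hs0, e2] at e3
    exact (F.hs_unique e3).symm
  have hhs : ∀ s, s ≠ 0 → hs s = hs 1 * ν s⁻¹ := by
    intro s hs0
    have h1 := hinv s⁻¹ (inv_ne_zero hs0) 1 one_ne_zero
    rw [one_div, inv_inv] at h1
    exact h1
  have hη : hs 1 ∈ H := hsH 1 one_ne_zero
  have hχη : χ (hs 1) = -c := by
    rw [hsχ 1 one_ne_zero]
    simp
  have hηpow : hs 1 ^ (q - 1) = t := by
    have a1 : (w * T 1 * w)⁻¹ = w * T (-1) * w := by
      rw [F.T_neg, mul_inv_rev, mul_inv_rev, w_inv F.S, mul_assoc]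
    rw [hsrel 1 one_ne_zero, hsrel (-1) hneg] at a1
    have a2 : (T (c / 1) * hs 1 * w * T (c / 1))⁻¹ =
        T (c / -1) * hs 1 ^ q * w * T (c / -1) := by
      have a3 : T (c / -1) = (T (c / 1))⁻¹ := by rw [← F.T_neg, div_one, div_neg, div_one]
      have a4 : w * (hs 1)⁻¹ = hs 1 ^ q * w := by
        rw [w_h F.S (H.inv_mem hη), inv_pow, inv_inv]
      rw [a3, mul_inv_rev, mul_inv_rev, mul_inv_rev, w_inv F.S]
      calc (T (c / 1))⁻¹ * (w * ((hs 1)⁻¹ * (T (c / 1))⁻¹)) =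
          (T (c / 1))⁻¹ * (w * (hs 1)⁻¹) * (T (c / 1))⁻¹ := by group
        _ = _ := by rw [a4]; group
    rw [a2] at a1
    have a5 := F.hs_unique a1
    have a6 := hinv (-1) hneg 1 one_ne_zero
    rw [one_div, inv_neg, inv_one, hνneg] at a6
    rw [a6] at a5
    have a7 : hs 1 ^ q = hs 1 * hs 1 ^ (q - 1) := by
      rw [← pow_succ']
      congr 1
      omega
    rw [a7] at a5
    exact mul_left_cancel a5
  refine ⟨ν, hs 1, c, F, hw, hνχ, hη, hχη, hηpow, hνneg, hc, F.T_add, hνmul, ?_, ?_, ?_, ?_⟩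
  · intro r s hr
    rw [F.h_T (hνH r hr), hχν r hr]
  · intro r hr
    have h1 : ν r⁻¹ = (ν r)⁻¹ := by
      apply eq_inv_of_mul_eq_one_left
      rw [← hνmul _ _ (inv_ne_zero hr) hr, inv_mul_cancel₀ hr, hν1]
    have h2 := hcomm _ hη _ (H.inv_mem (hνH r hr))
    rw [mul_assoc, hwν r hr, h1, ← mul_assoc, h2, mul_assoc]
  · rw [hνneg]
    have h1 : w * hs 1 = (hs 1 ^ q)⁻¹ * w := w_h F.S hη
    calc hs 1 * w * (hs 1 * w) = hs 1 * (w * hs 1) * w := by group
      _ = hs 1 * (hs 1 ^ q)⁻¹ * (w * w) := by rw [h1]; group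
      _ = hs 1 * (hs 1 * hs 1 ^ (q - 1))⁻¹ := by
          rw [F.S.w_sq, mul_one, ← pow_succ']
          congr 3
          omega
      _ = t := by
          rw [hηpow, mul_inv_rev, t_inv F.S, ← mul_assoc, h_t F.S hη]
          group
  · intro a ha
    have hca : -(a / c) ≠ 0 := neg_ne_zero.mpr (div_ne_zero ha hc)
    have a1 : T a * hs 1 = hs 1 * T (-(a / c)) := by
      rw [F.h_T hη, hχη]
      congr 2
      field_simp
    have a2 : w * hs 1 = (hs 1 ^ q)⁻¹ * w := w_h F.S hη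
    have a3 : hs 1 * (hs 1 ^ q)⁻¹ = t := by
      have : hs 1 ^ q = hs 1 * hs 1 ^ (q - 1) := by
        rw [← pow_succ']
        congr 1
        omega
      rw [this, hηpow, mul_inv_rev, t_inv F.S, ← mul_assoc, h_t F.S hη]
      group
    have a4 := hsrel _ hca
    have e1 : c / -(a / c) = -(c ^ 2 / a) := by field_simp
    rw [e1, hhs _ hca] at a4
    have e2 : (-(a / c))⁻¹ = -(c / a) := by field_simp
    rw [e2] at a4
    have a5 : t * T (-(c ^ 2 / a)) = T (-(c ^ 2 / a)) * t := (F.T_t _).symm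
    have a6 : t * (hs 1 * ν (-(c / a))) = ν (c / a) * hs 1 := by
      have h1 : ν (c / a) = t * ν (-(c / a)) := by
        rw [← hνneg, ← hνmul _ _ hneg (neg_ne_zero.mpr (div_ne_zero hc ha)), neg_mul_neg, one_mul]
      rw [h1, mul_assoc, hcomm _ (hνH _ (neg_ne_zero.mpr (div_ne_zero hc ha))) _ hη]
    have a7 : T (-(c ^ 2 / a)) * ν (c / a) = ν (c / a) * T (-a) := by
      have hca' : c / a ≠ 0 := div_ne_zero hc ha
      rw [F.h_T (hνH _ hca'), hχν _ hca']
      congr 2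
      field_simp
    calc hs 1 * w * T a * (hs 1 * w) = hs 1 * w * (T a * hs 1) * w := by group
      _ = hs 1 * (w * hs 1) * T (-(a / c)) * w := by rw [a1]; group
      _ = hs 1 * (hs 1 ^ q)⁻¹ * (w * T (-(a / c)) * w) := by rw [a2]; group
      _ = t * T (-(c ^ 2 / a)) * (hs 1 * ν (-(c / a))) * w * T (-(c ^ 2 / a)) := by
          rw [a3, a4]; group
      _ = T (-(c ^ 2 / a)) * (t * (hs 1 * ν (-(c / a)))) * w * T (-(c ^ 2 / a)) := by
          rw [a5]; group
      _ = (T (-(c ^ 2 / a)) * ν (c / a)) * hs 1 * w * T (-(c ^ 2 / a)) := by rw [a6]; group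
      _ = _ := by rw [a7]; group

end exists_sframe

end Cfsg.Agent.ONan.Frame
end

-- part: ONan/FrameGeom
section
/-!
# The action of `SL₂(k)` on the points not fixed by `t`
-/

set_option autoImplicit false

namespace Cfsg.Agent.ONan.FrameGeom

open Cfsg.Agent.ONan.Stage Cfsg.Agent.ONan.RankOne Cfsg.Agent.ONan.SL2Hom Cfsg.Agent.ONan.Frame
open Matrix (SpecialLinearGroup)

variable {G Ω k : Type*} [Group G] [MulAction G Ω] [Field k] {p n q d : ℕ} {inf zero : Ω}
  {U H : Subgroup G} {t w : G} {T : k → G} {χ : G → k} {ν : k → G} {η : G} {c : k}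

theorem ν_mem (M : SFrame p n q d inf zero U H t w T χ ν η c) {r : k} (hr : r ≠ 0) : ν r ∈ H := by
  obtain ⟨h, hh, rfl⟩ := M.F.χ_surj r hr
  rw [M.ν_χ h hh]
  exact H.pow_mem hh _

theorem χ_ν (M : SFrame p n q d inf zero U H t w T χ ν η c) {r : k} (hr : r ≠ 0) :
    χ (ν r) = r ^ 2 := by
  obtain ⟨h, hh, rfl⟩ := M.F.χ_surj r hr
  rw [M.ν_χ h hh, M.F.χ_pow hh, pow_succ, M.F.frob, pow_two]

theorem ν_inj_one (M : SFrame p n q d inf zero U H t w T χ ν η c) {r : k} (hr : r ≠ 0)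
    (h1 : ν r = 1) : r = 1 := by
  obtain ⟨h, hh, rfl⟩ := M.F.χ_surj r hr
  rw [M.ν_χ h hh] at h1
  exact M.F.χ_of_pow hh h1

/-- the elements of `SL₂(k)` commute with `t` -/
theorem hom_t (M : SFrame p n q d inf zero U H t w T χ ν η c) (g : SpecialLinearGroup (Fin 2) k) :
    M.rel.hom g * t = t * M.rel.hom g := by
  have hT : ∀ a, Commute (T a) t := M.F.T_t
  have hν : ∀ r, r ≠ 0 → Commute (ν r) t := fun r hr => h_t M.F.S (ν_mem M hr)
  have hm : Commute (η * w) t :=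
    (show Commute η t from h_t M.F.S M.η_mem).mul_left (show Commute w t from w_t M.F.S)
  show Commute (M.rel.hom g) t
  rcases decomp M.rel.c_ne g with ⟨r, hr, x, rfl⟩ | ⟨r, hr, x, y, rfl⟩
  · rw [map_mul, M.rel.hom_nM, M.rel.hom_tM]
    exact (hν r hr).mul_left (hT x)
  · rw [map_mul, map_mul, map_mul, M.rel.hom_nM, M.rel.hom_tM, M.rel.hom_mM, M.rel.hom_tM]
    exact (hT x).mul_left ((hν r hr).mul_left (hm.mul_left (hT y)))

theorem hom_inj (M : SFrame p n q d inf zero U H t w T χ ν η c)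
    {g : SpecialLinearGroup (Fin 2) k} (h : M.rel.hom g = 1) : g = 1 := by
  have hd := det_eq g
  by_cases h0 : g.1 1 0 = 0
  · have h1 : M.rel.hom g = ν (g.1 0 0) * T (g.1 0 1 / g.1 0 0) := Phi_of_eq h0
    rw [h0, mul_zero, sub_zero] at hd
    have h00 : g.1 0 0 ≠ 0 := left_ne_zero_of_mul_eq_one hd
    have h11 : g.1 1 1 = (g.1 0 0)⁻¹ := eq_inv_of_mul_eq_one_right hd
    rw [h] at h1
    have h2 : (1 : G) • zero = (ν (g.1 0 0) * T (g.1 0 1 / g.1 0 0)) • zero := by rw [← h1]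
    rw [one_smul, mul_smul, M.F.h_smul (ν_mem M h00)] at h2
    have h3 : T 0 • zero = T (χ (ν (g.1 0 0)) * (g.1 0 1 / g.1 0 0)) • zero := by
      rw [M.F.T_zero, one_smul]
      exact h2
    have h4 := M.F.T_smul_inj h3
    rw [χ_ν M h00] at h4
    have h01 : g.1 0 1 = 0 := by
      rcases mul_eq_zero.mp h4.symm with h5 | h5
      · exact absurd h5 (pow_ne_zero 2 h00)
      · exact (div_eq_zero_iff.mp h5).resolve_right h00
    rw [h01, zero_div, M.F.T_zero, mul_one] at h1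
    have h5 := ν_inj_one M h00 h1.symm
    refine ext' h5 h01 h0 ?_
    rw [h11, h5, inv_one]
    rfl
  · exfalso
    have h1 : M.rel.hom g = T (g.1 0 0 / g.1 1 0) * ν (1 / (c * g.1 1 0)) * (η * w) *
      T (g.1 1 1 / g.1 1 0) := Phi_of_ne h0
    have hr : 1 / (c * g.1 1 0) ≠ 0 := one_div_ne_zero (mul_ne_zero M.rel.c_ne h0)
    have h2 : M.rel.hom g • inf = inf := by rw [h, one_smul]
    rw [h1, mul_smul, mul_smul, mul_smul, mul_smul, M.F.T_inf, M.F.S.w_inf,
      H_zero M.F.S M.η_mem, H_zero M.F.S (ν_mem M hr)] at h2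
    exact M.F.T_smul_ne _ h2

theorem hom_injective (M : SFrame p n q d inf zero U H t w T χ ν η c)
    {g g' : SpecialLinearGroup (Fin 2) k} (h : M.rel.hom g = M.rel.hom g') : g = g' := by
  have h1 : M.rel.hom (g⁻¹ * g') = 1 := by rw [map_mul, map_inv, h, inv_mul_cancel]
  exact inv_mul_eq_one.mp (hom_inj M h1)

theorem hom_neg_one (M : SFrame p n q d inf zero U H t w T χ ν η c)
    {g : SpecialLinearGroup (Fin 2) k} (h00 : g.1 0 0 = -1) (h01 : g.1 0 1 = 0) (h10 : g.1 1 0 = 0) :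
    M.rel.hom g = t := by
  have h1 : M.rel.hom g = ν (g.1 0 0) * T (g.1 0 1 / g.1 0 0) := Phi_of_eq h10
  rw [h1, h00, h01, zero_div, M.F.T_zero, mul_one, M.ν_neg]

/-- conjugation by elements of `H` -/
theorem h_hom (M : SFrame p n q d inf zero U H t w T χ ν η c) {h : G} (hh : h ∈ H)
    (g : SpecialLinearGroup (Fin 2) k) :
    h * M.rel.hom g * h⁻¹ = M.rel.hom (dconj (χ h) (M.F.χ_ne h hh) g) := by
  apply M.rel.dconj_hom
  · exact M.F.conj h hh
  · intro r hr
    rw [H_comm M.F.S h hh _ (ν_mem M hr)]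
    group
  · have h1 : w * h⁻¹ = h ^ q * w := by
      rw [w_h M.F.S (H.inv_mem hh), inv_pow, inv_inv]
    rw [M.ν_χ h hh, pow_succ']
    calc h * (η * w) * h⁻¹ = h * η * (w * h⁻¹) := by group
      _ = (h * η) * h ^ q * w := by rw [h1]; group
      _ = h * (η * h ^ q) * w := by group
      _ = h * h ^ q * (η * w) := by
          rw [H_comm M.F.S η M.η_mem _ (H.pow_mem hh q)]
          group

/-- the conjugate by `w` -/
def wconj (c : k) (hc : c ≠ 0) (g : SpecialLinearGroup (Fin 2) k) :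
    SpecialLinearGroup (Fin 2) k :=
  mk (g.1 1 1) (c * g.1 1 0) (c⁻¹ * g.1 0 1) (g.1 0 0) (by
    have := det_eq g
    field_simp
    linear_combination this)

theorem w_hom (M : SFrame p n q d inf zero U H t w T χ ν η c) (g : SpecialLinearGroup (Fin 2) k) :
    w * M.rel.hom g * w⁻¹ = M.rel.hom (wconj c M.rel.c_ne g) := by
  have hη' : η⁻¹ ∈ H := H.inv_mem M.η_mem
  have hc := M.rel.c_ne
  have h1 : w * M.rel.hom g * w⁻¹ =
      η⁻¹ * M.rel.hom (mM c M.rel.c_ne * g * (mM c M.rel.c_ne)⁻¹) * η⁻¹⁻¹ := by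
    rw [map_mul, map_mul, map_inv, M.rel.hom_mM]
    group
  rw [h1, h_hom M hη']
  congr 1
  have e : χ η⁻¹ = (-c)⁻¹ := by rw [M.F.χ_inv M.η_mem, M.χ_η]
  have hi : (mM c M.rel.c_ne)⁻¹ = mk 0 c (-c⁻¹) 0 (by field_simp; ring) := by
    apply inv_eq_of_mul_eq_one_right
    apply ext'
    · rw [mul_apply']; show 0 * 0 + -c * -c⁻¹ = (1 : k); field_simp; ring
    · rw [mul_apply']; show 0 * c + -c * 0 = (0 : k); ring
    · rw [mul_apply']; show c⁻¹ * 0 + 0 * _ = (0 : k); ring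
    · rw [mul_apply']; show c⁻¹ * c + 0 * 0 = (1 : k); field_simp; ring
  apply ext'
  · show (mM c M.rel.c_ne * g * (mM c M.rel.c_ne)⁻¹).1 0 0 = g.1 1 1
    rw [hi]
    simp only [mul_apply', mM_00, mM_01, mk_00, mk_10]
    field_simp
    ring
  · show χ η⁻¹ * (mM c M.rel.c_ne * g * (mM c M.rel.c_ne)⁻¹).1 0 1 = c * g.1 1 0
    rw [hi, e]
    simp only [mul_apply', mM_00, mM_01, mk_01, mk_11]
    field_simp
    ring
  · show (χ η⁻¹)⁻¹ * (mM c M.rel.c_ne * g * (mM c M.rel.c_ne)⁻¹).1 1 0 = c⁻¹ * g.1 0 1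
    rw [hi, e]
    simp only [mul_apply', mM_10, mM_11, mk_00, mk_10]
    field_simp
    ring
  · show (mM c M.rel.c_ne * g * (mM c M.rel.c_ne)⁻¹).1 1 1 = g.1 0 0
    rw [hi]
    simp only [mul_apply', mM_10, mM_11, mk_01, mk_11]
    field_simp
    ring

/-- a fixed point of `w` -/
theorem exists_fix_w (S : StageData p n q d inf zero U H t w) : ∃ ω : Ω, w • ω = ω := by
  obtain ⟨g, hg⟩ := isConj_iff.mp S.w_conj
  refine ⟨g • inf, ?_⟩
  rw [← hg, ← mul_smul]
  have h1 : g * t * g⁻¹ * g = g * t := by group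
  rw [h1, mul_smul, H_inf S S.t_mem]

theorem exists_g0 (S : StageData p n q d inf zero U H t w) {ω : Ω} (hω : w • ω = ω) :
    ∃ g : G, g • inf = ω ∧ g • zero = t • ω ∧ g * w * g⁻¹ = t := by
  have hne : t • ω ≠ ω := fun h => S.no_common ω h hω
  obtain ⟨g, -, h1, h2⟩ := (r1 S).two_trans (c := ω) (d := t • ω) trivial trivial hne.symm
  have h3 : (g⁻¹ * t * g) • inf = zero := by
    rw [mul_smul, mul_smul, h1, ← h2, inv_smul_smul]
  have h4 : IsConj t (g⁻¹ * t * g) := isConj_iff.mpr ⟨g⁻¹, by group⟩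
  obtain ⟨h, hh, h5⟩ := S.w_class _ h4 h3
  refine ⟨g * h, by rw [mul_smul, H_inf S hh, h1], by rw [mul_smul, H_zero S hh, h2], ?_⟩
  calc g * h * w * (g * h)⁻¹ = g * (h * w * h⁻¹) * g⁻¹ := by group
    _ = g * (g⁻¹ * t * g) * g⁻¹ := by rw [h5]
    _ = t := by group

/-- the stabiliser of `ω` in the centraliser of `t` -/
theorem stab_ω (S : StageData p n q d inf zero U H t w) {ω : Ω} {g0 : G} (h1 : g0 • inf = ω)
    (h2 : g0 • zero = t • ω) (h3 : g0 * w * g0⁻¹ = t) {x : G} (hxt : x * t = t * x)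
    (hx : x • ω = ω) : ∃ y ∈ H, y ^ (q + 1) = 1 ∧ y * w = w * y ∧ x = g0 * y * g0⁻¹ := by
  have hH : g0⁻¹ * x * g0 ∈ H := by
    rw [S.mem_H]
    constructor
    · rw [mul_smul, mul_smul, h1, hx, ← h1, inv_smul_smul]
    · rw [mul_smul, mul_smul, h2, ← mul_smul x, hxt, mul_smul, hx, ← h2, inv_smul_smul]
  have hw : (g0⁻¹ * x * g0) * w = w * (g0⁻¹ * x * g0) := by
    have h4 : w = g0⁻¹ * t * g0 := by rw [← h3]; group
    rw [h4]
    calc g0⁻¹ * x * g0 * (g0⁻¹ * t * g0) = g0⁻¹ * (x * t) * g0 := by group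
      _ = _ := by rw [hxt]; group
  refine ⟨_, hH, ?_, hw, by group⟩
  have h5 := S.w_pow _ hH
  rw [← hw, mul_assoc (g0⁻¹ * x * g0) w w, S.w_sq, mul_one] at h5
  rw [pow_succ']
  exact h5

/-- the stabiliser of `ω` in the centraliser of `t` commutes with `w` -/
theorem stab_comm (S : StageData p n q d inf zero U H t w) {ω : Ω} (hω : w • ω = ω) {x y : G}
    (hxt : x * t = t * x) (hx : x • ω = ω) (hyt : y * t = t * y) (hy : y • ω = ω) :
    x * y = y * x := by
  obtain ⟨g0, h1, h2, h3⟩ := exists_g0 S hω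
  obtain ⟨x1, hx1, -, -, rfl⟩ := stab_ω S h1 h2 h3 hxt hx
  obtain ⟨y1, hy1, -, -, rfl⟩ := stab_ω S h1 h2 h3 hyt hy
  calc g0 * x1 * g0⁻¹ * (g0 * y1 * g0⁻¹) = g0 * (x1 * y1) * g0⁻¹ := by group
    _ = g0 * (y1 * x1) * g0⁻¹ := by rw [H_comm S x1 hx1 y1 hy1]
    _ = _ := by group

/-- `SL₂(k)` acts semiregularly on the orbit of `ω`. -/
theorem hom_ω (M : SFrame p n q d inf zero U H t w T χ ν η c) [Finite k] {ω : Ω}
    (hω : w • ω = ω) {g : SpecialLinearGroup (Fin 2) k} (hg : M.rel.hom g • ω = ω) : g = 1 := by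
  have S := M.F.S
  have hd := det_eq g
  have hc := M.rel.c_ne
  have htω : t • ω ≠ ω := fun h => S.no_common ω h hω
  obtain ⟨g0, h1, h2, h3⟩ := exists_g0 S hω
  have hxt := hom_t M g
  -- `g` commutes with `w`
  have hcomm := stab_comm S hω hxt hg (w_t S) hω
  have hfix : wconj c M.rel.c_ne g = g := by
    apply hom_injective M
    rw [← w_hom M, ← hcomm]
    group
  have e11 : g.1 1 1 = g.1 0 0 := congrArg (fun z : SpecialLinearGroup (Fin 2) k => z.1 0 0) hfix
  have e01 : c * g.1 1 0 = g.1 0 1 := congrArg (fun z : SpecialLinearGroup (Fin 2) k => z.1 0 1) hfix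
  rw [e11, ← e01] at hd
  obtain ⟨x1, hx1, hx1K, hx1w, hx1g⟩ := stab_ω S h1 h2 h3 hxt hg
  -- square of `x1`
  have hsq : x1 * x1 = 1 → g = 1 := by
    intro hxx
    have h4 : M.rel.hom (g * g) = 1 := by
      rw [map_mul, hx1g]
      calc g0 * x1 * g0⁻¹ * (g0 * x1 * g0⁻¹) = g0 * (x1 * x1) * g0⁻¹ := by group
        _ = 1 := by rw [hxx]; group
    have h5 := hom_inj M h4
    have h6 : g.1 1 0 * g.1 0 0 + g.1 1 1 * g.1 1 0 = 0 := by
      rw [← mul_apply', h5]
      rfl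
    rw [e11] at h6
    have h7 : 2 * (g.1 1 0 * g.1 0 0) = 0 := by linear_combination h6
    have h8 : g.1 0 0 * g.1 0 0 + g.1 0 1 * g.1 1 0 = 1 := by
      rw [← mul_apply', h5]
      rfl
    rcases mul_eq_zero.mp ((mul_eq_zero.mp h7).resolve_left M.F.two_ne) with h9 | h9
    · -- `g = ± 1`
      have h01 : g.1 0 1 = 0 := by rw [← e01, h9, mul_zero]
      have hd' : g.1 0 0 * g.1 0 0 = 1 := by
        linear_combination hd + c * g.1 1 0 * h9
      rcases mul_self_eq_one_iff.mp hd' with h10 | h10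
      · exact ext' h10 h01 h9 (by rw [e11, h10]; rfl)
      · exfalso
        apply htω
        rw [hom_neg_one M h10 h01 h9] at hg
        exact hg
    · -- `g` has order four, so its square is `-1`
      exfalso
      rw [h9] at hd h8
      have h10 : (1 : k) + 1 = 0 := by
        linear_combination (-1 : k) * hd - h8 - g.1 1 0 * e01
      apply M.F.two_ne
      rw [← h10]
      norm_num
  by_contra hne
  have hxx : x1 * x1 ≠ 1 := fun h => hne (hsq h)
  -- an element inverting `g`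
  obtain ⟨u, v, huv⟩ : ∃ u v : k, -u ^ 2 + c * v ^ 2 = 1 := by
    have : Fintype k := Fintype.ofFinite k
    have h2k : ringChar k ≠ 2 := by
      intro h
      apply M.F.two_ne
      have := (ringChar.spec k 2).mpr (by rw [h])
      exact_mod_cast this
    obtain ⟨a, b, hab⟩ := FiniteField.exists_root_sum_quadratic
      (f := -(Polynomial.X : Polynomial k) ^ 2)
      (g := Polynomial.C c * Polynomial.X ^ 2 - 1) (by
        rw [Polynomial.degree_neg, Polynomial.degree_X_pow]; rfl) (by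
        rw [Polynomial.degree_sub_eq_left_of_degree_lt, Polynomial.degree_C_mul_X_pow 2 hc]
        · rfl
        · rw [Polynomial.degree_C_mul_X_pow 2 hc, Polynomial.degree_one]
          exact Nat.cast_pos.mpr two_pos) (by
        have := FiniteField.odd_card_of_char_ne_two h2k
        exact Nat.odd_iff.mp (Nat.odd_iff.mpr this))
    refine ⟨a, b, ?_⟩
    simp only [Polynomial.eval_neg, Polynomial.eval_pow, Polynomial.eval_X, Polynomial.eval_sub,
      Polynomial.eval_mul, Polynomial.eval_C, Polynomial.eval_one] at hab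
    linear_combination hab
  have hm : ∃ m : SpecialLinearGroup (Fin 2) k, m * g * m⁻¹ = g⁻¹ := by
    refine ⟨mk u (-(c * v)) v (-u) (by linear_combination huv), ?_⟩
    rw [mul_inv_eq_iff_eq_mul, eq_inv_mul_iff_mul_eq, ← mul_assoc]
    apply ext'
    · simp only [mul_apply', mk_00, mk_01, mk_10, mk_11]
      rw [← e01]
      linear_combination u * hd
    · simp only [mul_apply', mk_00, mk_01, mk_10, mk_11]
      rw [e11, ← e01]
      linear_combination (-(c * v)) * hd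
    · simp only [mul_apply', mk_00, mk_01, mk_10, mk_11]
      rw [e11]
      linear_combination v * hd
    · simp only [mul_apply', mk_00, mk_01, mk_10, mk_11]
      rw [e11, ← e01]
      linear_combination (-u) * hd
  obtain ⟨m, hm⟩ := hm
  have h4 : M.rel.hom m * M.rel.hom g * (M.rel.hom m)⁻¹ = (M.rel.hom g)⁻¹ := by
    rw [← map_mul, ← map_inv, ← map_mul, hm, map_inv]
  rw [hx1g] at h4
  -- `g' x1 g'⁻¹ = x1⁻¹`
  have h5 : (g0⁻¹ * M.rel.hom m * g0) * x1 = x1⁻¹ * (g0⁻¹ * M.rel.hom m * g0) := by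
    calc (g0⁻¹ * M.rel.hom m * g0) * x1
        = g0⁻¹ * (M.rel.hom m * (g0 * x1 * g0⁻¹) * (M.rel.hom m)⁻¹) * M.rel.hom m * g0 := by group
      _ = g0⁻¹ * (g0 * x1 * g0⁻¹)⁻¹ * M.rel.hom m * g0 := by rw [h4]
      _ = _ := by group
  have hfixP : ∀ P : Ω, x1 • P = P → x1 • (g0⁻¹ * M.rel.hom m * g0) • P =
      (g0⁻¹ * M.rel.hom m * g0) • P := by
    intro P hP
    have h6 : (g0⁻¹ * M.rel.hom m * g0) • P = x1⁻¹ • (g0⁻¹ * M.rel.hom m * g0) • P := by
      rw [← mul_smul x1⁻¹, ← h5, mul_smul _ x1, hP]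
    calc x1 • (g0⁻¹ * M.rel.hom m * g0) • P
        = x1 • x1⁻¹ • (g0⁻¹ * M.rel.hom m * g0) • P := by rw [← h6]
      _ = _ := smul_inv_smul _ _
  have hT1 : x1 • T 1 • zero = T 1 • zero := by
    rw [M.F.h_smul hx1, M.F.χ_of_pow hx1 hx1K, one_mul]
  have h6 := (r1 S).commute_of_third hx1 (c₀ := T 1 • zero) trivial (M.F.T_smul_ne 1) (by
    intro h
    have h7 : T 1 • zero = T 0 • zero := by rw [h, M.F.T_zero, one_smul]
    exact one_ne_zero (M.F.T_smul_inj h7)) hT1 (g := g0⁻¹ * M.rel.hom m * g0) trivial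
    (hfixP inf (H_inf S hx1)) (hfixP zero (H_zero S hx1))
  rw [h5] at h6
  have h7 := mul_right_cancel h6
  exact hxx (inv_eq_iff_mul_eq_one.mp h7)

end Cfsg.Agent.ONan.FrameGeom
end

-- part: ONan/MakeCoord
section
/-!
# From `StageData` to `CoordData`
-/

set_option autoImplicit false

namespace Cfsg.Agent.ONan.MakeCoord

open Cfsg.Agent.ONan.Stage Cfsg.Agent.ONan.RankOne Cfsg.Agent.ONan.SL2Hom Cfsg.Agent.ONan.Frame
open Cfsg.Agent.ONan.FrameGeom Cfsg.Agent.ONan.PairCoord Cfsg.Agent.ONan.Coord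
open Matrix (SpecialLinearGroup)

section isPt

variable {k F : Type*} [Field k] [Field F] {q : ℕ} {ι : k →+* F} {e : F} {c : k}

theorem isPt_zero (E : Emb q ι e c) (a : k) : IsPt q e 0 (ι a) := by
  show ι a - ι a ^ q = 2 * e * 0 ^ (q + 1)
  rw [E.frobι, sub_self, zero_pow (Nat.succ_ne_zero q), mul_zero]

theorem isPt_vec (E : Emb q ι e c) (m : SpecialLinearGroup (Fin 2) k) :
    IsPt q e (1 / be ι e m) (al ι e m / be ι e m) := by
  have h1 := E.form m
  have h2 := E.be_ne m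
  have h3 : be ι e m ^ q ≠ 0 := pow_ne_zero q h2
  show al ι e m / be ι e m - (al ι e m / be ι e m) ^ q = 2 * e * (1 / be ι e m) ^ (q + 1)
  rw [div_pow, one_div, inv_pow, pow_succ, ← h1]
  field_simp

theorem isPt_cases (E : Emb q ι e c) {v y : F} (h : IsPt q e v y) :
    (v = 0 ∧ ∃ a, y = ι a) ∨ ∃ m, v = 1 / be ι e m ∧ y = al ι e m / be ι e m := by
  have h : y - y ^ q = 2 * e * v ^ (q + 1) := h
  by_cases hv : v = 0
  · left
    refine ⟨hv, ?_⟩
    rw [hv, zero_pow (Nat.succ_ne_zero q), mul_zero] at h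
    obtain ⟨a, ha⟩ := E.fix y (sub_eq_zero.mp h).symm
    exact ⟨a, ha.symm⟩
  · right
    have hvq : v ^ q ≠ 0 := pow_ne_zero q hv
    have h1 : (y / v) * (1 / v) ^ q - (y / v) ^ q * (1 / v) = 2 * e := by
      rw [pow_succ] at h
      rw [div_pow, div_pow, one_pow]
      field_simp
      linear_combination h
    obtain ⟨m, hm1, hm2⟩ := E.surj h1
    refine ⟨m, ?_, ?_⟩
    · rw [hm2, one_div_one_div]
    · rw [hm1, hm2]
      field_simp

theorem vec_eq (E : Emb q ι e c) {m m' : SpecialLinearGroup (Fin 2) k}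
    (h1 : 1 / be ι e m = 1 / be ι e m') (h2 : al ι e m / be ι e m = al ι e m' / be ι e m') :
    m = m' := by
  have hb := E.be_ne m
  have hb' := E.be_ne m'
  have h3 : be ι e m = be ι e m' := by
    rw [one_div, one_div] at h1
    exact inv_injective h1
  rw [h3] at h2
  exact E.inj ((div_left_inj' hb').mp h2) h3

end isPt

section pt

variable {G Ω k F : Type*} [Group G] [MulAction G Ω] [Field k] [Field F]

open Classical in
/-- the points -/
noncomputable def pt (hom : SpecialLinearGroup (Fin 2) k →* G) (ι : k →+* F) (e : F) (T : k → G)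
    (zero ω : Ω) (v y : F) : Ω :=
  if v = 0 then (if h : ∃ a, ι a = y then T h.choose • zero else zero)
  else if h : ∃ m, v = 1 / be ι e m ∧ y = al ι e m / be ι e m then hom h.choose • ω else zero

variable {hom : SpecialLinearGroup (Fin 2) k →* G} {ι : k →+* F} {e : F} {T : k → G}
    {zero ω : Ω} {q : ℕ} {c : k}

theorem pt_zero (a : k) : pt hom ι e T zero ω 0 (ι a) = T a • zero := by
  have h : ∃ b, ι b = ι a := ⟨a, rfl⟩
  have h1 : pt hom ι e T zero ω 0 (ι a) = T h.choose • zero := by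
    unfold pt
    rw [if_pos rfl, dif_pos h]
  rw [h1]
  congr 2
  exact ι.injective h.choose_spec

theorem pt_vec (E : Emb q ι e c) (m : SpecialLinearGroup (Fin 2) k) :
    pt hom ι e T zero ω (1 / be ι e m) (al ι e m / be ι e m) = hom m • ω := by
  have h : ∃ m', 1 / be ι e m = 1 / be ι e m' ∧
      al ι e m / be ι e m = al ι e m' / be ι e m' := ⟨m, rfl, rfl⟩
  have h1 : pt hom ι e T zero ω (1 / be ι e m) (al ι e m / be ι e m) = hom h.choose • ω := by
    unfold pt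
    rw [if_neg (one_div_ne_zero (E.be_ne m)), dif_pos h]
  rw [h1]
  congr 2
  exact (vec_eq E h.choose_spec.1 h.choose_spec.2).symm

end pt

section main

variable {G Ω k F : Type*} [Group G] [MulAction G Ω] [Field k] [Field F] {p n q d : ℕ}
  {inf zero ω : Ω} {U H : Subgroup G} {t w : G} {T : k → G} {χ : G → k} {ν : k → G} {η : G} {c : k}
  {ι : k →+* F} {e : F}

theorem ω_move (M : SFrame p n q d inf zero U H t w T χ ν η c) (hω : w • ω = ω)
    (m : SpecialLinearGroup (Fin 2) k) : t • M.rel.hom m • ω ≠ M.rel.hom m • ω := by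
  intro h
  rw [← mul_smul, ← hom_t M, mul_smul] at h
  exact M.F.S.no_common ω (smul_left_cancel _ h) hω

theorem hom_ω_inj [Finite k] (M : SFrame p n q d inf zero U H t w T χ ν η c) (hω : w • ω = ω)
    {m m' : SpecialLinearGroup (Fin 2) k} (h : M.rel.hom m • ω = M.rel.hom m' • ω) : m = m' := by
  have h1 : M.rel.hom (m'⁻¹ * m) • ω = ω := by
    rw [map_mul, map_inv, mul_smul, h, inv_smul_smul]
  exact (inv_mul_eq_one.mp (hom_ω M hω h1)).symm

theorem hom_ω_ne_inf (M : SFrame p n q d inf zero U H t w T χ ν η c) (hω : w • ω = ω)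
    (m : SpecialLinearGroup (Fin 2) k) : M.rel.hom m • ω ≠ inf := by
  intro h
  apply ω_move M hω m
  rw [h, H_inf M.F.S M.F.S.t_mem]

/-- the points -/
noncomputable abbrev P (M : SFrame p n q d inf zero U H t w T χ ν η c) (ι : k →+* F) (e : F)
    (ω : Ω) : F → F → Ω := pt M.rel.hom ι e T zero ω

theorem P_ne (M : SFrame p n q d inf zero U H t w T χ ν η c) (E : Emb q ι e c) (hω : w • ω = ω)
    (v y : F) (h : IsPt q e v y) : P M ι e ω v y ≠ inf := by
  rcases isPt_cases E h with ⟨rfl, a, rfl⟩ | ⟨m, rfl, rfl⟩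
  · rw [P, pt_zero]
    exact M.F.T_smul_ne a
  · rw [P, pt_vec E]
    exact hom_ω_ne_inf M hω m

theorem P_inj [Finite k] (M : SFrame p n q d inf zero U H t w T χ ν η c) (E : Emb q ι e c)
    (hω : w • ω = ω) (v y v' y' : F) (h : IsPt q e v y) (h' : IsPt q e v' y')
    (hP : P M ι e ω v y = P M ι e ω v' y') : v = v' ∧ y = y' := by
  rcases isPt_cases E h with ⟨rfl, a, rfl⟩ | ⟨m, rfl, rfl⟩ <;>
    rcases isPt_cases E h' with ⟨rfl, a', rfl⟩ | ⟨m', rfl, rfl⟩
  · rw [P, pt_zero, pt_zero] at hP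
    exact ⟨rfl, by rw [M.F.T_smul_inj hP]⟩
  · rw [P, pt_zero, pt_vec E] at hP
    exact absurd (by rw [← hP, M.F.t_T]) (ω_move M hω m')
  · rw [P, pt_zero, pt_vec E] at hP
    exact absurd (by rw [hP, M.F.t_T]) (ω_move M hω m)
  · rw [P, pt_vec E, pt_vec E] at hP
    rw [hom_ω_inj M hω hP]
    exact ⟨rfl, rfl⟩

theorem P_surj [Finite G] [Finite k] [Finite F] (M : SFrame p n q d inf zero U H t w T χ ν η c)
    (E : Emb q ι e c) (hω : w • ω = ω) (hF : Nat.card F = q ^ 2) (hk : Nat.card k = q)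
    (X : Ω) (hX : X ≠ inf) : ∃ v y, IsPt q e v y ∧ P M ι e ω v y = X := by
  have S := M.F.S
  have hpt : ∀ (v : F) (s : k), IsPt q e v (e * v ^ (q + 1) + ι s) := by
    intro v s
    show e * v ^ (q + 1) + ι s - (e * v ^ (q + 1) + ι s) ^ q = 2 * e * v ^ (q + 1)
    rw [E.frob_add, mul_pow, E.norm_mem, E.e_q, E.frobι]
    ring
  let f : F × k → {X : Ω // X ≠ inf} := fun z =>
    ⟨P M ι e ω z.1 (e * z.1 ^ (q + 1) + ι z.2), P_ne M E hω _ _ (hpt _ _)⟩
  have hf : Function.Injective f := by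
    rintro ⟨v, s⟩ ⟨v', s'⟩ h
    obtain ⟨h1, h2⟩ := P_inj M E hω _ _ _ _ (hpt v s) (hpt v' s') (congrArg Subtype.val h)
    subst h1
    have h3 : s = s' := ι.injective (add_left_cancel h2)
    rw [h3]
  let φ : U → {X : Ω // X ≠ inf} := fun u => ⟨(u : G) • zero, (r1 S).smul_ne u.2 S.ne.symm⟩
  have hφ : Function.Bijective φ := by
    constructor
    · rintro ⟨u, hu⟩ ⟨v, hv⟩ h
      have h1 : u • zero = v • zero := congrArg Subtype.val h
      have h2 : (v⁻¹ * u) • zero = zero := by rw [mul_smul, h1, inv_smul_smul]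
      have h3 := S.U_free zero S.ne.symm _ (U.mul_mem (U.inv_mem hv) hu) h2
      exact Subtype.ext (inv_mul_eq_one.mp h3).symm
    · rintro ⟨X, hX⟩
      obtain ⟨u, hu, h⟩ := S.U_trans zero X S.ne.symm hX
      exact ⟨⟨u, hu⟩, Subtype.ext h⟩
  have hfin : Finite {X : Ω // X ≠ inf} := Finite.of_surjective φ hφ.2
  have hcard : Nat.card (F × k) = Nat.card {X : Ω // X ≠ inf} := by
    rw [← Nat.card_eq_of_bijective φ hφ, S.U_card, Nat.card_prod, hF, hk]
    ring
  have hbij := (Nat.bijective_iff_injective_and_card f).mpr ⟨hf, hcard⟩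
  obtain ⟨⟨v, s⟩, h⟩ := hbij.2 ⟨X, hX⟩
  exact ⟨v, _, hpt v s, congrArg Subtype.val h⟩

/-- every point moved by `t` is the image of `ω` under an element of `SL₂(k)` -/
theorem exists_hom_ω [Finite G] [Finite k] [Finite F]
    (M : SFrame p n q d inf zero U H t w T χ ν η c)
    (E : Emb q ι e c) (hω : w • ω = ω) (hF : Nat.card F = q ^ 2) (hk : Nat.card k = q)
    (X : Ω) (hX : t • X ≠ X) : ∃ m, M.rel.hom m • ω = X := by
  have hX' : X ≠ inf := by
    rintro rfl
    exact hX (H_inf M.F.S M.F.S.t_mem)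
  obtain ⟨v, y, h, rfl⟩ := P_surj M E hω hF hk X hX'
  rcases isPt_cases E h with ⟨rfl, a, rfl⟩ | ⟨m, rfl, rfl⟩
  · exfalso
    apply hX
    rw [P, pt_zero, M.F.t_T]
  · exact ⟨m, by rw [P, pt_vec E]⟩

/-- `h` acts on the vectors as `l * diag(χ h, 1)` -/
def Good (M : SFrame p n q d inf zero U H t w T χ ν η c) (ι : k →+* F) (e : F) (ω : Ω) (h : G)
    (l : F) : Prop :=
  ∃ m, h • ω = M.rel.hom m • ω ∧ al ι e m = l * ι (χ h) * e ∧ be ι e m = l

theorem Good.act {M : SFrame p n q d inf zero U H t w T χ ν η c} {h : G} {l : F} (hh : h ∈ H)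
    (hg : Good M ι e ω h l) (m : SpecialLinearGroup (Fin 2) k) :
    ∃ m', h • M.rel.hom m • ω = M.rel.hom m' • ω ∧ al ι e m' = l * ι (χ h) * al ι e m ∧
      be ι e m' = l * be ι e m := by
  obtain ⟨m0, h1, h2, h3⟩ := hg
  have hχ := M.F.χ_ne h hh
  refine ⟨dconj (χ h) hχ m * m0, ?_, ?_, ?_⟩
  · rw [map_mul, ← h_hom M hh, mul_smul, ← h1, mul_smul, mul_smul, inv_smul_smul]
  · rw [al_mul, h2, h3]
    show ι (m.1 0 0) * (l * ι (χ h) * e) + ι (χ h * m.1 0 1) * l =
      l * ι (χ h) * (ι (m.1 0 0) * e + ι (m.1 0 1))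
    rw [map_mul]
    ring
  · rw [be_mul, h2, h3]
    show ι ((χ h)⁻¹ * m.1 1 0) * (l * ι (χ h) * e) + ι (m.1 1 1) * l =
      l * (ι (m.1 1 0) * e + ι (m.1 1 1))
    have h4 : ι (χ h) ≠ 0 := (map_ne_zero ι).mpr hχ
    rw [map_mul, map_inv₀]
    field_simp

theorem Good.mul {M : SFrame p n q d inf zero U H t w T χ ν η c} {h h' : G} {l l' : F}
    (hh : h ∈ H) (hh' : h' ∈ H) (hg : Good M ι e ω h l) (hg' : Good M ι e ω h' l') :
    Good M ι e ω (h * h') (l * l') := by
  obtain ⟨m0, h1, h2, h3⟩ := hg'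
  obtain ⟨m, h4, h5, h6⟩ := hg.act hh m0
  refine ⟨m, ?_, ?_, ?_⟩
  · rw [mul_smul, h1, h4]
  · rw [h5, h2, M.F.χ_mul h hh h' hh', map_mul]
    ring
  · rw [h6, h3]

theorem Good.unique [Finite k] {M : SFrame p n q d inf zero U H t w T χ ν η c}
    (hω : w • ω = ω) {h : G} {l l' : F} (hg : Good M ι e ω h l) (hg' : Good M ι e ω h l') :
    l = l' := by
  obtain ⟨m, h1, -, h3⟩ := hg
  obtain ⟨m', h1', -, h3'⟩ := hg'
  rw [h1] at h1'
  rw [← h3, ← h3', hom_ω_inj M hω h1']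

theorem Good.norm {M : SFrame p n q d inf zero U H t w T χ ν η c} (E : Emb q ι e c) {h : G}
    {l : F} (hg : Good M ι e ω h l) : l ^ (q + 1) * ι (χ h) = 1 := by
  obtain ⟨m, -, h2, h3⟩ := hg
  have h4 := E.form m
  rw [h2, h3, mul_pow, mul_pow, E.frobι, E.e_q] at h4
  have h5 : (2 * e) * (l ^ (q + 1) * ι (χ h) - 1) = 0 := by
    rw [pow_succ]
    linear_combination h4
  exact sub_eq_zero.mp ((mul_eq_zero.mp h5).resolve_left (mul_ne_zero E.two_ne' E.e_ne))

/-- the elements of the kernel of `χ` are good -/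
theorem good_K [Finite G] [Finite k] [Finite F] (M : SFrame p n q d inf zero U H t w T χ ν η c)
    (E : Emb q ι e c) (hω : w • ω = ω) (hF : Nat.card F = q ^ 2) (hk : Nat.card k = q) {h : G}
    (hh : h ∈ H) (h1 : h ^ (q + 1) = 1) :
    ∃ m : SpecialLinearGroup (Fin 2) k, m.1 1 1 = m.1 0 0 ∧ m.1 0 1 = c * m.1 1 0 ∧
      h • ω = M.rel.hom m • ω := by
  have S := M.F.S
  have hht := h_t S hh
  have hX : t • h • ω ≠ h • ω := by
    intro h2
    rw [← mul_smul, ← hht, mul_smul] at h2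
    exact S.no_common ω (smul_left_cancel _ h2) hω
  obtain ⟨m, hm⟩ := exists_hom_ω M E hω hF hk _ hX
  -- `h⁻¹ m` fixes `ω`, so commutes with `w`
  have h3 : (h⁻¹ * M.rel.hom m) • ω = ω := by rw [mul_smul, hm, inv_smul_smul]
  have h4 : (h⁻¹ * M.rel.hom m) * t = t * (h⁻¹ * M.rel.hom m) := by
    have h5 : Commute h⁻¹ t := h_t S (H.inv_mem hh)
    have h6 : Commute (M.rel.hom m) t := hom_t M m
    exact h5.mul_left h6
  have h5 := stab_comm S hω h4 h3 (w_t S) hω
  have h6 : Commute h w := by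
    show h * w = w * h
    rw [w_h S hh]
    have h7 : h = (h ^ q)⁻¹ := by
      apply eq_inv_of_mul_eq_one_left
      rw [← pow_succ']
      exact h1
    rw [← h7]
  have h7 : M.rel.hom m * w = w * M.rel.hom m := by
    have h8 : Commute (h * (h⁻¹ * M.rel.hom m)) w := h6.mul_left h5
    rwa [mul_inv_cancel_left] at h8
  have h8 : wconj c M.rel.c_ne m = m := by
    apply hom_injective M
    rw [← w_hom M, ← h7]
    group
  exact ⟨m, congrArg (fun z : SpecialLinearGroup (Fin 2) k => z.1 0 0) h8,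
    (congrArg (fun z : SpecialLinearGroup (Fin 2) k => z.1 0 1) h8).symm, hm.symm⟩

theorem good_of_K [Finite G] [Finite k] [Finite F]
    (M : SFrame p n q d inf zero U H t w T χ ν η c)
    (E : Emb q ι e c) (hω : w • ω = ω) (hF : Nat.card F = q ^ 2) (hk : Nat.card k = q) {h : G}
    (hh : h ∈ H) (h1 : h ^ (q + 1) = 1) : ∃ l, Good M ι e ω h l := by
  obtain ⟨m, h2, h3, h4⟩ := good_K M E hω hF hk hh h1
  refine ⟨be ι e m, m, h4, ?_, rfl⟩
  rw [M.F.χ_of_pow hh h1, map_one, mul_one]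
  unfold al be
  rw [h2, h3, map_mul, ← E.e_sq]
  ring

theorem good_ν (M : SFrame p n q d inf zero U H t w T χ ν η c) {r : k} (hr : r ≠ 0) :
    Good M ι e ω (ν r) (ι r⁻¹) := by
  refine ⟨nM r hr, by rw [M.rel.hom_nM], ?_, ?_⟩
  · rw [χ_ν M hr]
    show ι r * e + ι 0 = ι r⁻¹ * ι (r ^ 2) * e
    rw [← map_mul, map_zero, add_zero]
    congr 2
    field_simp
  · show ι 0 * e + ι r⁻¹ = ι r⁻¹
    rw [map_zero, zero_mul, zero_add]

theorem good_η (M : SFrame p n q d inf zero U H t w T χ ν η c) (E : Emb q ι e c)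
    (hω : w • ω = ω) : Good M ι e ω η e⁻¹ := by
  have he := E.e_ne
  have hc := M.rel.c_ne
  refine ⟨mM c M.rel.c_ne, by rw [M.rel.hom_mM, mul_smul, hω], ?_, ?_⟩
  · rw [M.χ_η]
    show ι 0 * e + ι (-c) = e⁻¹ * ι (-c) * e
    rw [map_zero, zero_mul, zero_add]
    field_simp
  · show ι c⁻¹ * e + ι 0 = e⁻¹
    rw [map_zero, add_zero, map_inv₀, ← E.e_sq]
    field_simp

/-- `c` is not a square in `k` -/
theorem c_nonsq (M : SFrame p n q d inf zero U H t w T χ ν η c) (s : k) : s ^ 2 ≠ c := by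
  intro h
  have hs : s ≠ 0 := by
    rintro rfl
    exact M.rel.c_ne (by rw [← h]; ring)
  apply M.F.S.no_common (T s • zero) (M.F.t_T s)
  rw [M.w_T s hs, ← h]
  congr 2
  field_simp

/-- in a finite field of odd order the quotient of two non-squares is a square -/
theorem sq_or [Finite k] (h2 : (2 : k) ≠ 0) {a b : k} (ha : a ≠ 0) (hb : b ≠ 0)
    (hna : ¬ IsSquare a) (hnb : ¬ IsSquare b) : ∃ r, r ≠ 0 ∧ a = b * r ^ 2 := by
  have : Fintype k := Fintype.ofFinite k
  have h2k : ringChar k ≠ 2 := by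
    intro h
    apply h2
    have := (ringChar.spec k 2).mpr (by rw [h])
    exact_mod_cast this
  have h3 : IsSquare (a / b) := by
    have hab : a / b ≠ 0 := div_ne_zero ha hb
    rw [FiniteField.isSquare_iff h2k hab, div_pow]
    have h4 := (FiniteField.pow_dichotomy h2k ha).resolve_left
      (fun h => hna ((FiniteField.isSquare_iff h2k ha).mpr h))
    have h5 := (FiniteField.pow_dichotomy h2k hb).resolve_left
      (fun h => hnb ((FiniteField.isSquare_iff h2k hb).mpr h))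
    rw [h4, h5, div_self (neg_ne_zero.mpr one_ne_zero)]
  obtain ⟨r, hr⟩ := h3
  have hr' : a = b * r ^ 2 := by
    rw [pow_two, ← hr]
    field_simp
  refine ⟨r, ?_, hr'⟩
  rintro rfl
  apply ha
  rw [hr']
  ring

theorem good_all [Finite G] [Finite k] [Finite F]
    (M : SFrame p n q d inf zero U H t w T χ ν η c)
    (E : Emb q ι e c) (hω : w • ω = ω) (hF : Nat.card F = q ^ 2) (hk : Nat.card k = q) {h : G}
    (hh : h ∈ H) : ∃ l, Good M ι e ω h l := by
  have S := M.F.S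
  have hc := M.rel.c_ne
  have hχ := M.F.χ_ne h hh
  have hcsq : ¬ IsSquare c := by
    rintro ⟨s, hs⟩
    exact c_nonsq M s (by rw [hs, pow_two])
  by_cases hm1 : IsSquare (-1 : k)
  · -- `q ≡ 1 (mod 4)`
    have hnc : ¬ IsSquare (-c) := by
      intro h1
      apply hcsq
      have h2 := hm1.mul h1
      rwa [neg_mul_neg, one_mul] at h2
    by_cases hs : IsSquare (χ h)
    · obtain ⟨r, hr⟩ := hs
      have hr0 : r ≠ 0 := by
        rintro rfl
        exact hχ (by rw [hr, mul_zero])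
      have hνH := ν_mem M hr0
      have hk' : (ν r)⁻¹ * h ∈ H := H.mul_mem (H.inv_mem hνH) hh
      have hχ' : χ ((ν r)⁻¹ * h) = 1 := by
        rw [M.F.χ_mul _ (H.inv_mem hνH) _ hh, M.F.χ_inv hνH, χ_ν M hr0, hr]
        field_simp
      obtain ⟨l, hl⟩ := good_of_K M E hω hF hk hk' (M.F.pow_of_χ hk' hχ')
      have h1 := (good_ν (ι := ι) (e := e) (ω := ω) M hr0).mul hνH hk' hl
      rw [mul_inv_cancel_left] at h1
      exact ⟨_, h1⟩
    · obtain ⟨r, hr0, hr⟩ := sq_or M.F.two_ne hχ (neg_ne_zero.mpr hc) hs hnc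
      have hνH := ν_mem M hr0
      have hη := M.η_mem
      have hx : η * ν r ∈ H := H.mul_mem hη hνH
      have hk' : (η * ν r)⁻¹ * h ∈ H := H.mul_mem (H.inv_mem hx) hh
      have hχ' : χ ((η * ν r)⁻¹ * h) = 1 := by
        rw [M.F.χ_mul _ (H.inv_mem hx) _ hh, M.F.χ_inv hx, M.F.χ_mul _ hη _ hνH, χ_ν M hr0,
          M.χ_η, hr]
        have : -c ≠ 0 := neg_ne_zero.mpr hc
        field_simp
      obtain ⟨l, hl⟩ := good_of_K M E hω hF hk hk' (M.F.pow_of_χ hk' hχ')
      have h1 := (good_η M E hω).mul hη hνH (good_ν (ι := ι) (e := e) (ω := ω) M hr0)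
      have h2 := h1.mul hx hk' hl
      rw [mul_inv_cancel_left] at h2
      exact ⟨_, h2⟩
  · -- `q ≡ 3 (mod 4)`
    have hq3 := q_ge S
    have hodd := q_odd S
    obtain ⟨j, hj⟩ := hodd
    have hjodd : Odd j := by
      by_contra hj2
      rw [Nat.not_odd_iff_even] at hj2
      obtain ⟨i, hi⟩ := hj2
      apply hm1
      have : Fintype k := Fintype.ofFinite k
      rw [FiniteField.isSquare_neg_one_iff, ← Nat.card_eq_fintype_card, hk, hj, hi]
      omega
    -- the element `κ = η ^ j` has square `t`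
    have hκH : η ^ j ∈ H := H.pow_mem M.η_mem j
    have hκ2 : η ^ j * η ^ j = t := by
      rw [← pow_add, ← M.η_pow]
      congr 1
      omega
    have hκK : (η ^ j) ^ (q + 1) = 1 := by
      obtain ⟨i, hi⟩ := hjodd
      have e1 : q + 1 = 2 * (2 * (i + 1)) := by omega
      rw [e1, pow_mul, pow_two, hκ2, pow_mul, pow_two, S.t_sq, one_pow]
    obtain ⟨m, hm1', hm2, hm3⟩ := good_K M E hω hF hk hκH hκK
    have hχκ : χ (η ^ j) = 1 := M.F.χ_of_pow hκH hκK
    -- `δ ^ 2 = -1`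
    have hgκ : Good M ι e ω (η ^ j) (be ι e m) := by
      refine ⟨m, hm3, ?_, rfl⟩
      rw [hχκ, map_one, mul_one]
      unfold al be
      rw [hm1', hm2, map_mul, ← E.e_sq]
      ring
    have hgt : Good M ι e ω t (-1) := by
      have hneg : (-1 : k) ≠ 0 := neg_ne_zero.mpr one_ne_zero
      have h1 := good_ν (ι := ι) (e := e) (ω := ω) M hneg
      rw [M.ν_neg, inv_neg, inv_one, map_neg, map_one] at h1
      exact h1
    have hδ : be ι e m * be ι e m = -1 := by
      have h1 := hgκ.mul hκH hκH hgκ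
      rw [hκ2] at h1
      exact h1.unique hω hgt
    have hy : m.1 1 0 ≠ 0 := by
      intro h1
      unfold be at hδ
      rw [h1, map_zero, zero_mul, zero_add, ← map_mul, ← map_one ι, ← map_neg] at hδ
      exact hm1 ⟨_, (ι.injective hδ).symm⟩
    -- `h` commutes with `κ`
    have hX : t • h • ω ≠ h • ω := by
      intro h2
      rw [← mul_smul, ← h_t S hh, mul_smul] at h2
      exact S.no_common ω (smul_left_cancel _ h2) hω
    obtain ⟨m', hm'⟩ := exists_hom_ω M E hω hF hk _ hX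
    have e1 : (h * η ^ j) • ω = M.rel.hom (dconj (χ h) hχ m * m') • ω := by
      rw [mul_smul, hm3, map_mul, ← h_hom M hh, mul_smul, hm', mul_smul, mul_smul, inv_smul_smul]
    have e2 : (η ^ j * h) • ω = M.rel.hom (m' * m) • ω := by
      have h3 := h_hom M hκH m'
      have h4 : dconj (χ (η ^ j)) (M.F.χ_ne _ hκH) m' = m' := by
        apply ext'
        · rfl
        · show χ (η ^ j) * m'.1 0 1 = m'.1 0 1
          rw [hχκ, one_mul]
        · show (χ (η ^ j))⁻¹ * m'.1 1 0 = m'.1 1 0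
          rw [hχκ, inv_one, one_mul]
        · rfl
      rw [h4] at h3
      have h5 : η ^ j * M.rel.hom m' = M.rel.hom m' * η ^ j := by
        calc η ^ j * M.rel.hom m' = η ^ j * M.rel.hom m' * (η ^ j)⁻¹ * η ^ j := by group
          _ = _ := by rw [h3]
      rw [mul_smul, ← hm', ← mul_smul, h5, mul_smul, hm3, map_mul, mul_smul]
    have e3 : dconj (χ h) hχ m * m' = m' * m := by
      apply hom_ω_inj M hω
      rw [← e1, ← e2, H_comm S h hh _ hκH]
    have e4 := congrArg (be ι e) e3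
    rw [be_mul, be_mul] at e4
    have e5 : al ι e m = be ι e m * e := by
      unfold al be
      rw [hm1', hm2, map_mul, ← E.e_sq]
      ring
    rw [e5] at e4
    have e6 : ι ((dconj (χ h) hχ m).1 1 0) = (ι (χ h))⁻¹ * ι (m.1 1 0) := by
      show ι ((χ h)⁻¹ * m.1 1 0) = _
      rw [map_mul, map_inv₀]
    have e7 : ι ((dconj (χ h) hχ m).1 1 1) = ι (m.1 0 0) := by
      show ι (m.1 1 1) = _
      rw [hm1']
    rw [e6, e7] at e4
    have hιχ : ι (χ h) ≠ 0 := (map_ne_zero ι).mpr hχ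
    have hιy : ι (m.1 1 0) ≠ 0 := (map_ne_zero ι).mpr hy
    refine ⟨be ι e m', m', hm'.symm, ?_, rfl⟩
    -- `ι y * α = ι y * (χ e β)`
    have e8 : ι (m.1 1 0) * al ι e m' = ι (m.1 1 0) * (be ι e m' * ι (χ h) * e) := by
      have e9 : be ι e m = ι (m.1 1 0) * e + ι (m.1 0 0) := by
        unfold be
        rw [hm1']
      have e10 : (ι (χ h))⁻¹ * ι (m.1 1 0) * al ι e m' + ι (m.1 0 0) * be ι e m' =
          be ι e m * (ι (m'.1 1 0) * e + ι (m'.1 1 1)) := by
        linear_combination e4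
      have e11 : ι (m'.1 1 0) * e + ι (m'.1 1 1) = be ι e m' := rfl
      rw [e11, e9] at e10
      field_simp at e10
      linear_combination e10
    exact mul_left_cancel₀ hιy e8

/-- the quadratic extension -/
theorem exists_emb {F : Type*} [Field F] [Fintype F] [Finite k]
    (M : SFrame p n q d inf zero U H t w T χ ν η c) (hF : Fintype.card F = q ^ 2) (ι : k →+* F)
    (hfix : ∀ x : F, x ^ q = x → ∃ a, ι a = x)
    (hadd : ∀ x y : F, (x + y) ^ q = x ^ q + y ^ q) (h2q : ∀ x : F, (x ^ q) ^ q = x) :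
    ∃ e : F, Emb q ι e c := by
  have S := M.F.S
  have hq3 := q_ge S
  have hodd := q_odd S
  have h2 : (2 : F) ≠ 0 := by
    rw [← map_ofNat ι 2]
    intro h
    exact M.F.two_ne ((map_eq_zero ι).mp h)
  have h2F : ringChar F ≠ 2 := by
    intro h
    apply h2
    have := (ringChar.spec F 2).mpr (by rw [h])
    exact_mod_cast this
  have hιc : ι c ≠ 0 := (map_ne_zero ι).mpr M.rel.c_ne
  have hsq : IsSquare (ι c) := by
    rw [FiniteField.isSquare_iff h2F hιc, hF]
    obtain ⟨j, hj⟩ := hodd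
    have e1 : q ^ 2 / 2 = (q - 1) * (j + 1) := by
      have e2 : q ^ 2 = 2 * ((q - 1) * (j + 1)) + 1 := by
        have e3 : q - 1 = 2 * j := by omega
        rw [e3, hj]
        ring
      omega
    rw [e1, pow_mul]
    have e4 : c ^ (q - 1) = 1 := by
      have e5 := M.F.frob c
      have e6 : c ^ q = c ^ (q - 1) * c := by
        rw [← pow_succ]
        congr 1
        omega
      rw [e6] at e5
      exact mul_right_cancel₀ M.rel.c_ne (by rw [e5, one_mul])
    rw [← map_pow, e4, map_one, one_pow]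
  obtain ⟨e, he⟩ := hsq
  have he0 : e ≠ 0 := by
    rintro rfl
    exact hιc (by rw [he, mul_zero])
  have h3 : e ^ q * e ^ q = e * e := by
    rw [← mul_pow, ← he, ← map_pow, M.F.frob]
  have h4 : e ^ q = -e := by
    rcases mul_self_eq_mul_self_iff.mp h3 with h | h
    · exfalso
      obtain ⟨s, rfl⟩ := hfix e h
      apply c_nonsq M s
      apply ι.injective
      rw [he, pow_two, map_mul]
    · exact h
  exact ⟨e, M.F.frob, hfix, hadd, h2q, he.symm, h4, he0, M.F.two_ne, hodd⟩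

end main

open Classical in
theorem exists_coordData {G Ω F : Type*} [Group G] [Finite G] [MulAction G Ω] [FaithfulSMul G Ω]
    [Field F] [Fintype F] {p n q d : ℕ} (hF : Fintype.card F = q ^ 2) {inf zero : Ω}
    {U H : Subgroup G} {t w : G} (S : StageData p n q d inf zero U H t w) :
    ∃ (e : F) (Λ : Subgroup Fˣ) (pt : F → F → Ω), e ^ q = -e ∧ e ≠ 0 ∧ pt 0 0 = zero ∧
      CoordData q e Λ inf pt U H w t := by
  obtain ⟨k, _, _, ι, hk, hfix, hadd, h2q⟩ := exists_subfield S.hp S.hn S.hq hF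
  obtain ⟨T, χ, T0⟩ := exists_frame S k hk
  obtain ⟨ν, η, c, M⟩ := T0.exists_sframe
  obtain ⟨e, E⟩ := exists_emb M hF ι hfix hadd h2q
  obtain ⟨ω, hω⟩ := exists_fix_w S
  have hF' : Nat.card F = q ^ 2 := by rw [Nat.card_eq_fintype_card, hF]
  have hk' : Nat.card k = q := by rw [Nat.card_eq_fintype_card, hk]
  have hq3 := q_ge S
  have he := E.e_ne
  -- the multipliers
  choose! l hl using fun (h : G) (hh : h ∈ H) => good_all M E hω hF' hk' hh
  have hl0 : ∀ h ∈ H, l h ≠ 0 := by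
    intro h hh h0
    have h1 := (hl h hh).norm E
    rw [h0, zero_pow (Nat.succ_ne_zero q), zero_mul] at h1
    exact zero_ne_one h1
  have hlm : ∀ h ∈ H, ∀ h' ∈ H, l (h * h') = l h * l h' := fun h hh h' hh' =>
    (hl _ (H.mul_mem hh hh')).unique hω ((hl h hh).mul hh hh' (hl h' hh'))
  have hlψ : ∀ h (hh : h ∈ H), ((l h ^ q)⁻¹) ^ q = (l h)⁻¹ := by
    intro h hh
    rw [inv_pow, E.frob2]
  have hlψ' : ∀ h (hh : h ∈ H), ((l h ^ q)⁻¹) ^ (q + 1) = ι (χ h) := by
    intro h hh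
    have h1 := (hl h hh).norm E
    rw [pow_succ, hlψ h hh]
    have h2 := pow_ne_zero q (hl0 h hh)
    have h3 := hl0 h hh
    rw [pow_succ] at h1
    field_simp
    linear_combination -h1
  let ψ : H →* Fˣ := MonoidHom.mk' (fun h => Units.mk0 ((l (h : G) ^ q)⁻¹)
    (inv_ne_zero (pow_ne_zero q (hl0 h h.2)))) (by
      intro h h'
      apply Units.ext
      show (l ((h * h' : H) : G) ^ q)⁻¹ = (l (h : G) ^ q)⁻¹ * (l (h' : G) ^ q)⁻¹
      rw [Subgroup.coe_mul, hlm h h.2 h' h'.2, mul_pow, mul_inv])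
  have hψ : ∀ h : H, ((ψ h : Fˣ) : F) = (l (h : G) ^ q)⁻¹ := fun h => rfl
  -- the action of `H`
  have hact : ∀ h (hh : h ∈ H), ∀ v y, IsPt q e v y → h • P M ι e ω v y =
      P M ι e ω (((l h ^ q)⁻¹) ^ q * v) (((l h ^ q)⁻¹) ^ (q + 1) * y) := by
    intro h hh v y hvy
    rw [hlψ h hh, hlψ' h hh]
    rcases isPt_cases E hvy with ⟨rfl, a, rfl⟩ | ⟨m, rfl, rfl⟩
    · rw [mul_zero, ← map_mul, P, pt_zero, pt_zero, M.F.h_smul hh]
    · obtain ⟨m', h1, h2, h3⟩ := (hl h hh).act hh m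
      have h4 : (l h)⁻¹ * (1 / be ι e m) = 1 / be ι e m' := by
        rw [h3]
        have := hl0 h hh
        have := E.be_ne m
        field_simp
      have h5 : ι (χ h) * (al ι e m / be ι e m) = al ι e m' / be ι e m' := by
        rw [h2, h3]
        have := hl0 h hh
        have := E.be_ne m
        field_simp
      rw [h4, h5, P, pt_vec E, pt_vec E, h1]
  -- injectivity
  have hψinj : Function.Injective ψ := by
    rw [injective_iff_map_eq_one]
    rintro ⟨h, hh⟩ h1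
    have h2 : (l h ^ q)⁻¹ = 1 := by
      have := congrArg (fun u : Fˣ => (u : F)) h1
      exact this
    have h3 : ∀ X : Ω, h • X = (1 : G) • X := by
      intro X
      rw [one_smul]
      by_cases hX : X = inf
      · rw [hX, H_inf S hh]
      · obtain ⟨v, y, hvy, rfl⟩ := P_surj M E hω hF' hk' X hX
        rw [hact h hh v y hvy, h2, one_pow, one_pow, one_mul, one_mul]
    exact Subtype.ext (FaithfulSMul.eq_of_smul_eq_smul h3)
  have hP0 : P M ι e ω 0 0 = zero := by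
    have h1 := pt_zero (hom := M.rel.hom) (ι := ι) (e := e) (T := T) (zero := zero) (ω := ω) 0
    rw [map_zero, T0.T_zero, one_smul] at h1
    exact h1
  refine ⟨e, ψ.range, P M ι e ω, E.e_q, he, hP0, ?_⟩
  constructor
  · exact P_ne M E hω
  · exact P_inj M E hω
  · exact P_surj M E hω hF' hk'
  · exact S.U_inf
  · exact S.U_norm
  · exact S.U_trans
  · exact S.U_free
  · exact S.U_card
  · intro g
    rw [hP0]
    exact S.mem_H g
  · intro h hh
    exact ⟨ψ ⟨h, hh⟩, ⟨⟨h, hh⟩, rfl⟩, hact h hh⟩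
  · rintro _ ⟨⟨h, hh⟩, rfl⟩
    exact ⟨h, hh, hact h hh⟩
  · have h1 : Nat.card ψ.range = Nat.card H :=
      (Nat.card_congr (MonoidHom.ofInjective hψinj).toEquiv).symm
    have h2 : Nat.card ψ.range * ψ.range.index = Nat.card Fˣ := Subgroup.card_mul_index _
    have h3 : Nat.card Fˣ = q ^ 2 - 1 := by
      rw [Nat.card_eq_fintype_card, Fintype.card_units, hF]
    have h4 := S.H_card
    have h5 : 0 < Nat.card H := Nat.card_pos
    rw [h1, h3, ← h4, mul_comm d] at h2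
    rw [← S.hd]
    exact Nat.eq_of_mul_eq_mul_left h5 h2
  · exact S.t_mem
  · exact S.t_ne
  · exact S.t_sq
  · exact S.t_unique
  · intro v y hvy
    rcases isPt_cases E hvy with ⟨rfl, a, rfl⟩ | ⟨m, rfl, rfl⟩
    · rw [neg_zero, P, pt_zero, T0.t_T]
    · have hneg : (-1 : k) ≠ 0 := neg_ne_zero.mpr one_ne_zero
      have h1 : t • M.rel.hom m • ω = M.rel.hom (nM (-1) hneg * m) • ω := by
        rw [map_mul, M.rel.hom_nM, M.ν_neg, mul_smul]
      have h2 : be ι e (nM (-1) hneg * m) = -be ι e m := by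
        rw [be_mul, nM_10, nM_11, map_zero, inv_neg, inv_one, map_neg, map_one]
        ring
      have h3 : al ι e (nM (-1) hneg * m) = -al ι e m := by
        rw [al_mul, nM_00, nM_01, map_zero, map_neg, map_one]
        ring
      have h4 : -(1 / be ι e m) = 1 / be ι e (nM (-1) hneg * m) := by rw [h2, div_neg]
      have h5 : al ι e m / be ι e m = al ι e (nM (-1) hneg * m) / be ι e (nM (-1) hneg * m) := by
        rw [h2, h3, neg_div_neg_eq]
      rw [h4, P, pt_vec E]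
      rw [h5, pt_vec E, h1]
  · exact S.w_sq
  · rw [hP0, S.w_inf]
  · intro v y hvy hy
    rcases isPt_cases E hvy with ⟨rfl, a, rfl⟩ | ⟨m, rfl, rfl⟩
    · have ha : a ≠ 0 := by
        rintro rfl
        exact hy (map_zero ι)
      have h1 : e ^ 2 / ι a = ι (c / a) := by rw [map_div₀, ← E.e_sq, pow_two]
      rw [mul_zero, zero_div, h1, P, pt_zero, pt_zero, M.w_T a ha]
    · have h1 : w • M.rel.hom m • ω = M.rel.hom (wconj c M.rel.c_ne m) • ω := by
        rw [← w_hom M, mul_smul, mul_smul, inv_smul_eq_iff.mpr hω.symm]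
      have hb := E.be_ne m
      have ha := E.al_ne m
      have h2 : be ι e (wconj c M.rel.c_ne m) = al ι e m / e := by
        show ι (c⁻¹ * m.1 0 1) * e + ι (m.1 0 0) = (ι (m.1 0 0) * e + ι (m.1 0 1)) / e
        rw [map_mul, map_inv₀, ← E.e_sq]
        field_simp
        ring
      have h3 : al ι e (wconj c M.rel.c_ne m) = e * be ι e m := by
        show ι (m.1 1 1) * e + ι (c * m.1 1 0) = e * (ι (m.1 1 0) * e + ι (m.1 1 1))
        rw [map_mul, ← E.e_sq]
        ring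
      have h4 : e * (1 / be ι e m) / (al ι e m / be ι e m) =
          1 / be ι e (wconj c M.rel.c_ne m) := by
        rw [h2]
        field_simp
      have h5 : e ^ 2 / (al ι e m / be ι e m) =
          al ι e (wconj c M.rel.c_ne m) / be ι e (wconj c M.rel.c_ne m) := by
        rw [h2, h3]
        field_simp
      rw [h4, h5, P, pt_vec E, pt_vec E, h1]
  · exact S.w_conj
  · intro g hg1 hg2
    rw [hP0] at hg2
    exact S.w_class g hg1 hg2
  · intro s hs
    obtain ⟨b, rfl⟩ := hfix s hs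
    refine ⟨T b, T0.T_mem b, T0.T_t b, fun v y hvy => ?_⟩
    rcases isPt_cases E hvy with ⟨rfl, a, rfl⟩ | ⟨m, rfl, rfl⟩
    · rw [← map_add, P, pt_zero, pt_zero, ← mul_smul, ← T0.T_add, add_comm]
    · have h1 : T b • M.rel.hom m • ω = M.rel.hom (tM b * m) • ω := by
        rw [map_mul, M.rel.hom_tM, mul_smul]
      have h2 : be ι e (tM b * m) = be ι e m := by
        rw [be_mul, tM_10, tM_11, map_zero, map_one]
        ring
      have h3 : al ι e (tM b * m) = al ι e m + ι b * be ι e m := by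
        rw [al_mul, tM_00, tM_01, map_one]
        ring
      have hb := E.be_ne m
      have h4 : al ι e m / be ι e m + ι b = al ι e (tM b * m) / be ι e (tM b * m) := by
        rw [h2, h3]
        field_simp
      have h5 : 1 / be ι e m = 1 / be ι e (tM b * m) := by rw [h2]
      rw [h4, P, pt_vec E]
      nth_rewrite 1 [h5]
      rw [pt_vec E, h1]
  · exact S.T_comm

end Cfsg.Agent.ONan.MakeCoord
end

-- part: S1148
section
set_option autoImplicit false
open Cfsg

namespace Cfsg.Agent.S1148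

open Cfsg.Agent.ONan.RankOne Cfsg.Agent.ONan.Global Cfsg.Agent.ONan.FromBN

/-- `G` is generated by `U` and `w`. -/
theorem closure_eq_top {G Ω : Type*} [Group G] [MulAction G Ω] [Finite G] [Finite Ω]
    [FaithfulSMul G Ω] [IsSimpleGroup G] {p n q d : ℕ} {inf zero : Ω} {U H : Subgroup G} {t w : G}
    (S : Glob p n q d inf zero U H t w) : Subgroup.closure ((U : Set G) ∪ {w}) = ⊤ := by
  have hwi : w⁻¹ = w := S.w_inv
  let M : Subgroup G := U ⊔ U.map (MulAut.conj w).toMonoidHom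
  have hmapw : ∀ u ∈ U, w * u * w⁻¹ ∈ U.map (MulAut.conj w).toMonoidHom := fun u hu => ⟨u, hu, rfl⟩
  have hUM : U ≤ M := le_sup_left
  have hwM : U.map (MulAut.conj w).toMonoidHom ≤ M := le_sup_right
  have hle : M ≤ Subgroup.closure ((U : Set G) ∪ {w}) := by
    apply sup_le
    · exact fun u hu => Subgroup.subset_closure (Or.inl hu)
    · rintro _ ⟨u, hu, rfl⟩
      have h1 : w ∈ Subgroup.closure ((U : Set G) ∪ {w}) := Subgroup.subset_closure (Or.inr rfl)
      exact Subgroup.mul_mem _ (Subgroup.mul_mem _ h1 (Subgroup.subset_closure (Or.inl hu)))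
        (Subgroup.inv_mem _ h1)
  -- conjugation by `g` maps `M` into `M` as soon as it does so for the two generating subgroups
  have key : ∀ g : G, (∀ u ∈ U, g * u * g⁻¹ ∈ M) → (∀ u ∈ U, g * (w * u * w⁻¹) * g⁻¹ ∈ M) →
      ∀ m ∈ M, g * m * g⁻¹ ∈ M := by
    intro g h1 h2 m hm
    have h3 : M ≤ M.comap (MulAut.conj g).toMonoidHom := by
      apply sup_le
      · exact fun u hu => h1 u hu
      · rintro _ ⟨u, hu, rfl⟩
        exact h2 u hu
    exact h3 hm
  have hU : ∀ v ∈ U, ∀ m ∈ M, v * m * v⁻¹ ∈ M := fun v hv m hm =>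
    M.mul_mem (M.mul_mem (hUM hv) hm) (M.inv_mem (hUM hv))
  have hw : ∀ m ∈ M, w * m * w⁻¹ ∈ M := by
    apply key
    · exact fun u hu => hwM (hmapw u hu)
    · intro u hu
      have : w * (w * u * w⁻¹) * w⁻¹ = u := by
        rw [hwi]
        calc w * (w * u * w) * w = (w * w) * u * (w * w) := by group
          _ = u := by rw [S.w_sq]; group
      rw [this]
      exact hUM hu
  have hH : ∀ h ∈ H, ∀ m ∈ M, h * m * h⁻¹ ∈ M := by
    intro h hh
    have hn : ∀ x ∈ H, ∀ u ∈ U, x * u * x⁻¹ ∈ U := fun x hx u hu =>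
      S.R.norm x (Subgroup.mem_top _) (S.R.D_a x hx) u hu
    apply key
    · exact fun u hu => hUM (hn h hh u hu)
    · intro u hu
      have h1 := S.w_norm hh
      have e : h * (w * u * w⁻¹) * h⁻¹ = w * ((w * h * w) * u * (w * h * w)⁻¹) * w⁻¹ := by
        have h2 : (w * h * w)⁻¹ = w * h⁻¹ * w := by
          rw [mul_inv_rev, mul_inv_rev, hwi, mul_assoc]
        rw [h2, hwi]
        calc h * (w * u * w) * h⁻¹ = 1 * h * w * u * w * h⁻¹ * 1 := by group
          _ = (w * w) * h * w * u * w * h⁻¹ * (w * w) := by rw [S.w_sq]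
          _ = w * (w * h * w * u * (w * h⁻¹ * w)) * w := by group
      rw [e]
      exact hwM (hmapw _ (hn _ h1 u hu))
  -- `M` is normal
  have hB : ∀ g : G, g • inf = inf → ∀ m ∈ M, g * m * g⁻¹ ∈ M := by
    intro g hg m hm
    obtain ⟨u, hu, h⟩ := S.R.trans (g • zero) (Set.mem_univ _) (fun h => S.R.ne (by
      have : g • inf = g • zero := by rw [hg, h]
      exact smul_left_cancel g this))
    have h1 : u⁻¹ * g ∈ H := S.R.mem_D _ (Subgroup.mem_top _)
      (by rw [mul_smul, hg, inv_smul_eq_iff, S.R.Q_fix u hu]) (by rw [mul_smul, ← h, inv_smul_smul])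
    have h2 := hU u hu _ (hH _ h1 m hm)
    have e : u * (u⁻¹ * g * m * (u⁻¹ * g)⁻¹) * u⁻¹ = g * m * g⁻¹ := by group
    rwa [e] at h2
  have hn : M.Normal := by
    refine ⟨fun m hm g => ?_⟩
    by_cases hg : g • inf = inf
    · exact hB g hg m hm
    · obtain ⟨u, hu, h⟩ := S.R.trans (g • inf) (Set.mem_univ _) hg
      have h1 : ((u * w)⁻¹ * g) • inf = inf := by
        rw [mul_smul, inv_smul_eq_iff, mul_smul, S.w_inf, h]
      have h2 := hU u hu _ (hw _ (hB _ h1 m hm))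
      have e : u * (w * ((u * w)⁻¹ * g * m * ((u * w)⁻¹ * g)⁻¹) * w⁻¹) * u⁻¹ = g * m * g⁻¹ := by group
      rwa [e] at h2
  rcases IsSimpleGroup.eq_bot_or_eq_top_of_normal M hn with h | h
  · exfalso
    have h1 : U = ⊥ := by
      rw [eq_bot_iff, ← h]
      exact hUM
    have h2 := S.hU
    rw [h1, Subgroup.card_bot] at h2
    have := S.q_ge
    have h3 : 1 < q ^ 3 := Nat.one_lt_pow (by norm_num) (by omega)
    omega
  · rw [eq_top_iff, ← h]
    exact hle

/-- Let `G` be finite simple with a (B,N)-pair of rank 1, `B = U H` with `U` nilpotent normal in `B`, `H = B ⊓ N`, `U ⊓ H = 1`, where `[G : B] = p^(3n) + 1` for an odd prime `p`, `|U| = p^(3n)` and `H` is cyclic of order `(p^(2n) - 1)/gcd(3, p^n + 1)`. Then `G ≅ PSU₃(p^n)`. -/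
theorem result {G : Type*} [Group G] [Finite G] [IsSimpleGroup G]
    (P : Cfsg.BNPair G) (h1 : P.rank = 1) {p n : ℕ} (hp : p.Prime) (hp2 : p ≠ 2) (hn : 1 ≤ n)
    (U : Subgroup G) (hUB : U ≤ P.B) (hUn : ∀ b ∈ P.B, ∀ u ∈ U, b * u * b⁻¹ ∈ U)
    (hUnil : Group.IsNilpotent U) (hsplit : U ⊔ (P.B ⊓ P.N) = P.B) (hdisj : U ⊓ (P.B ⊓ P.N) = ⊥)
    (hind : P.B.index = p ^ (3 * n) + 1) (hU : Nat.card U = p ^ (3 * n))
    (hHc : IsCyclic ↥(P.B ⊓ P.N))
    (hH : Nat.gcd 3 (p ^ n + 1) * Nat.card ↥(P.B ⊓ P.N) = p ^ (2 * n) - 1) :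
    ∃ (F : Type) (_ : Field F) (_ : Fintype F), Fintype.card F = (p ^ n) ^ 2 ∧
      Nonempty (G ≃* Cfsg.PSU 3 F (p ^ n)) := by
  have hBtop : P.B ≠ ⊤ := by
    intro h
    rw [h, Subgroup.index_top] at hind
    have : 0 < p ^ (3 * n) := pow_pos hp.pos _
    omega
  have hfaith := faithful_of_simple hBtop
  obtain ⟨s, R⟩ := exists_R1 P h1 U hUB hUn hsplit hdisj (by rw [hind, hU]) hHc
  obtain ⟨t, w, S⟩ := exists_glob (q := p ^ n) (d := Nat.gcd 3 (p ^ n + 1)) hp hp2 hn rfl rfl R hHc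
    (by rw [hU, ← pow_mul, mul_comm]) (by rw [hH, ← pow_mul, mul_comm])
  have : Fact p.Prime := ⟨hp⟩
  have hfin : Finite (GaloisField p (2 * n)) := inferInstance
  let _ : Fintype (GaloisField p (2 * n)) := Fintype.ofFinite _
  have hF : Fintype.card (GaloisField p (2 * n)) = (p ^ n) ^ 2 := by
    rw [← Nat.card_eq_fintype_card, GaloisField.card p (2 * n) (by omega), ← pow_mul, mul_comm]
  obtain ⟨e, Λ, pt, he, he0, -, D⟩ :=
    Cfsg.Agent.ONan.MakeCoord.exists_coordData (F := GaloisField p (2 * n)) hF S.stageData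
  have D' := Cfsg.Agent.ONan.StructU.unitaryAct_of_coordData hp hp2 hn rfl hF he he0 D
  refine ⟨GaloisField p (2 * n), inferInstance, inferInstance, hF, ?_⟩
  apply Cfsg.Agent.ONan.Identify.nonempty_mulEquiv_PSU hp hp2 hn rfl hF he he0 D' (closure_eq_top S)
  rw [S.card_G]
  calc Nat.gcd 3 (p ^ n + 1) * (((p ^ n) ^ 3 + 1) * (p ^ n) ^ 3 * Nat.card ↥(P.B ⊓ P.N))
      = (p ^ n) ^ 3 * ((p ^ n) ^ 3 + 1) * (Nat.gcd 3 (p ^ n + 1) * Nat.card ↥(P.B ⊓ P.N)) := by ring
    _ = (p ^ n) ^ 3 * ((p ^ n) ^ 3 + 1) * ((p ^ n) ^ 2 - 1) := by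
      have e2 : (p ^ n) ^ 2 = p ^ (2 * n) := by rw [← pow_mul, mul_comm]
      rw [hH, e2]

end Cfsg.Agent.S1148
end
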