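import Cfsg.Statements.S1165
import Cfsg.Agent.LieRecognition.RankOneForm
set_option linter.all false

set_option autoImplicit false
open Cfsg

namespace Cfsg.Agent.S1165

open Cfsg.Agent.LieRecognition.RankOneForm in
/-- In the rank-one set-up (`G` finite and doubly transitive on `Ω`, `t` an involution moving `a`, `Q` normal in `G_a` with `G_a = Q D`, `Q ⊓ D = 1` for the two-point stabiliser `D = G_a ⊓ G_{t • a}`, `|Q|` even, `|D|` odd): every `x ∈ Q`, `x ≠ 1`, determines unique `g, f ∈ Q`, `h ∈ D` with `t x t = g h t f` (a consequence of the canonical form). For these: (H1) the `f`-part of `x⁻¹` is `g⁻¹`; (H2) the `f`-part of `f` is `x`; (H3) for `a ∈ D` the `f`-part of `a⁻¹ x a` is `(t a t)⁻¹ f (t a t)`; (H4) the `h`-part of `a⁻¹ x a` is `(t a t)⁻¹ h a`, that of `x⁻¹` is `t h⁻¹ t`, and that of `f` is `h⁻¹`. -/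
theorem result {G Ω : Type*} [Group G] [Finite G] [MulAction G Ω] {a : Ω} {t : G} {Q : Subgroup G}
    (hS : Cfsg.IsRankOneSetup G Ω a t Q)
    (x g h f : G) (hx : x ∈ Q) (hx1 : x ≠ 1) (hg : g ∈ Q) (hh : h ∈ (MulAction.stabilizer G a ⊓ MulAction.stabilizer G (t • a))) (hf : f ∈ Q)
    (heq : t * x * t = g * h * t * f) :
    (∀ g₁ h₁ f₁ : G, g₁ ∈ Q → h₁ ∈ (MulAction.stabilizer G a ⊓ MulAction.stabilizer G (t • a)) → f₁ ∈ Q → t * x⁻¹ * t = g₁ * h₁ * t * f₁ →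
        f₁ = g⁻¹ ∧ h₁ = t * h⁻¹ * t) ∧
      (∀ g₂ h₂ f₂ : G, g₂ ∈ Q → h₂ ∈ (MulAction.stabilizer G a ⊓ MulAction.stabilizer G (t • a)) → f₂ ∈ Q → t * f * t = g₂ * h₂ * t * f₂ →
        f₂ = x ∧ h₂ = h⁻¹) ∧
      ∀ c ∈ (MulAction.stabilizer G a ⊓ MulAction.stabilizer G (t • a)), ∀ g₃ h₃ f₃ : G, g₃ ∈ Q → h₃ ∈ (MulAction.stabilizer G a ⊓ MulAction.stabilizer G (t • a)) → f₃ ∈ Q →
        t * (c⁻¹ * x * c) * t = g₃ * h₃ * t * f₃ →
          f₃ = (t * c * t)⁻¹ * f * (t * c * t) ∧ h₃ = (t * c * t)⁻¹ * h * c := by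
  have tt := hS.mul_self
  have tinv := tt_inv hS
  refine ⟨?_, ?_, ?_⟩
  · intro g₁ h₁ f₁ hg₁ hh₁ hf₁ e
    have e1 : t * x⁻¹ * t = f⁻¹ * (t * h⁻¹ * t) * t * g⁻¹ := by
      have e2 : t * x⁻¹ * t = (t * x * t)⁻¹ := by
        rw [mul_inv_rev, mul_inv_rev, tinv, mul_assoc]
      rw [e2, heq, mul_inv_rev, mul_inv_rev, mul_inv_rev, tinv]
      simp only [mul_assoc]
      rw [ttx hS]
    rw [e] at e1
    obtain ⟨-, h2, h3⟩ := canonical_unique hS hg₁ hh₁ hf₁ (inv_mem hf)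
      (conj_mem_D hS (inv_mem hh)) (inv_mem hg) e1
    exact ⟨h3, h2⟩
  · intro g₂ h₂ f₂ hg₂ hh₂ hf₂ e
    have e1 : t * f * t = (h⁻¹ * g⁻¹ * h⁻¹⁻¹) * h⁻¹ * t * x := by
      have e2 : t * f = h⁻¹ * g⁻¹ * (t * x * t) := by rw [heq]; group
      rw [e2]
      simp only [mul_assoc]
      rw [tt]
      simp
    rw [e] at e1
    obtain ⟨-, h2, h3⟩ := canonical_unique hS hg₂ hh₂ hf₂ (conj_Q hS (inv_mem hh) (inv_mem hg))
      (inv_mem hh) hx e1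
    exact ⟨h3, h2⟩
  · intro c hc g₃ h₃ f₃ hg₃ hh₃ hf₃ e
    have hct := conj_mem_D hS hc
    have e1 : t * (c⁻¹ * x * c) * t = ((t * c * t)⁻¹ * g * (t * c * t)⁻¹⁻¹) *
        ((t * c * t)⁻¹ * h * c) * t * ((t * c * t)⁻¹ * f * (t * c * t)) := by
      have e2 : t * (c⁻¹ * x * c) * t = (t * c * t)⁻¹ * (t * x * t) * (t * c * t) := by
        rw [mul_inv_rev, mul_inv_rev, tinv]
        simp only [mul_assoc]
        rw [ttx hS, ttx hS]
      rw [e2, heq]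
      simp only [mul_inv_rev, tinv, mul_assoc, inv_inv, ttx hS, mul_inv_cancel_left]
    rw [e] at e1
    obtain ⟨-, h2, h3⟩ := canonical_unique hS hg₃ hh₃ hf₃ (conj_Q hS (inv_mem hct) hg)
      (mul_mem (mul_mem (inv_mem hct) hh) hc) (by
        have := conj_Q hS (inv_mem hct) hf
        rwa [inv_inv] at this) e1
    exact ⟨h3, h2⟩

end Cfsg.Agent.S1165
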