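import Mathlib
import Cfsg.Prelude.Def_LieExceptional
import Cfsg.Agent.LieRecognition.ZassEven
import Cfsg.Statements.S1167
set_option linter.all false

-- part: LieRecognition/ZassEvenGroup
section
set_option autoImplicit false

namespace Cfsg.Agent.LieRecognition.ZassEvenGroup

variable {G Ω : Type*} [Group G] [MulAction G Ω]

/-- involutions have exactly one fixed point, when the degree is odd and no three points are fixed -/
theorem involution_fixed [Finite Ω] (hodd : Odd (Nat.card Ω))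
    (h3 : ∀ g : G, ∀ a b c : Ω, a ≠ b → b ≠ c → a ≠ c → g • a = a → g • b = b → g • c = c → g = 1)
    (z : G) (hz1 : z ≠ 1) (hz2 : z * z = 1) : ∃ c : Ω, z • c = c ∧ ∀ d : Ω, z • d = d → d = c := by
  classical
  have := Fintype.ofFinite Ω
  have : Fact (Nat.Prime 2) := ⟨Nat.prime_two⟩
  let f : Function.End Ω := fun x => z • x
  have hf : f ^ 2 ^ 1 = 1 := by
    rw [pow_one, pow_two]
    funext x
    show z • z • x = x
    rw [smul_smul, hz2, one_smul]
  have h := Equiv.Perm.card_fixedPoints_modEq hf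
  rw [← Nat.card_eq_fintype_card] at h
  set F : Finset Ω := Finset.univ.filter (fun x => z • x = x) with hF
  have hcard : Fintype.card f.fixedPoints = F.card := by
    rw [hF]
    exact Fintype.card_subtype _
  rw [hcard] at h
  have hFodd : F.card % 2 = 1 := by
    rw [← h]; exact Nat.odd_iff.mp hodd
  have hle : ¬ 2 < F.card := by
    intro h2
    rw [Finset.two_lt_card] at h2
    obtain ⟨x, hx, y, hy, w, hw, hxy, hxw, hyw⟩ := h2
    simp only [hF, Finset.mem_filter, Finset.mem_univ, true_and] at hx hy hw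
    exact hz1 (h3 z x y w hxy hyw hxw hx hy hw)
  have h1 : F.card = 1 := by omega
  rw [Finset.card_eq_one] at h1
  obtain ⟨c, hc⟩ := h1
  refine ⟨c, ?_, ?_⟩
  · have : c ∈ F := by rw [hc]; simp
    simpa [hF] using this
  · intro d hd
    have : d ∈ F := by simp [hF, hd]
    rw [hc] at this
    simpa using this

/-- the degree is odd -/
theorem card_odd [Finite Ω] {a : Ω} (U : Subgroup G) (hUle : U ≤ MulAction.stabilizer G a)
    (hreg : ∀ c d : Ω, c ≠ a → d ≠ a → ∃! u : U, (u : G) • c = d) (hU2 : IsPGroup 2 U)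
    (b d : Ω) (hb : b ≠ a) (hd : d ≠ a) (hbd : b ≠ d) : Odd (Nat.card Ω) := by
  classical
  have : Fact (Nat.Prime 2) := ⟨Nat.prime_two⟩
  obtain ⟨u, hu, -⟩ := hreg b d hb hd
  have h := hU2.card_modEq_card_fixedPoints Ω
  have hfix : MulAction.fixedPoints U Ω = {a} := by
    ext x
    simp only [MulAction.mem_fixedPoints, Set.mem_singleton_iff]
    constructor
    · intro hx
      by_contra hxa
      have hu1 : u ≠ 1 := by
        rintro rfl
        exact hbd (by simpa using hu)
      obtain ⟨w, hw, hw'⟩ := hreg x x hxa hxa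
      have e1 := hw' u (hx u)
      have e2 := hw' 1 (by simp)
      exact hu1 (e1.trans e2.symm)
    · rintro rfl g
      exact hUle g.2
  rw [hfix] at h
  rw [Nat.odd_iff]
  simpa [Nat.ModEq] using h

/-- a square root in an involution-free situation -/
theorem exists_sqrt [Finite G] (h : G) (hno : ∀ n : ℕ, (h ^ n) * (h ^ n) = 1 → h ^ n = 1) :
    ∃ n : ℕ, (h ^ n) * (h ^ n) = h := by
  have hodd : Odd (orderOf h) := by
    by_contra hne
    rw [Nat.not_odd_iff_even] at hne
    obtain ⟨m, hm⟩ := hne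
    have h1 : h ^ m = 1 := hno m (by rw [← pow_add, ← hm, pow_orderOf_eq_one])
    have hpos : 0 < orderOf h := orderOf_pos h
    have := Nat.le_of_dvd (by omega) (orderOf_dvd_of_pow_eq_one h1)
    omega
  obtain ⟨m, hm⟩ := hodd
  refine ⟨m + 1, ?_⟩
  rw [← pow_add]
  have : m + 1 + (m + 1) = (2 * m + 1) + 1 := by ring
  rw [this, ← hm, pow_succ, pow_orderOf_eq_one, one_mul]

/-- `v` inverts the stabiliser of the two points it interchanges -/
theorem inverts [Finite G]
    (h3 : ∀ g : G, ∀ a b c : Ω, a ≠ b → b ≠ c → a ≠ c → g • a = a → g • b = b → g • c = c → g = 1)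
    {a b : Ω} (hab : a ≠ b) (v : G) (hv2 : v * v = 1) (hva : v • a = b) (hvb : v • b = a)
    (c : Ω) (hvc : v • c = c) (hvu : ∀ d : Ω, v • d = d → d = c)
    (h : G) (ha : h • a = a) (hb : h • b = b) : v * h * v = h⁻¹ := by
  classical
  have hvinv : v⁻¹ = v := inv_eq_of_mul_eq_one_left hv2
  let H : Subgroup G := MulAction.stabilizer G a ⊓ MulAction.stabilizer G b
  have hmem : ∀ x : G, x ∈ H ↔ x • a = a ∧ x • b = b := fun x => Iff.rfl
  have hvH : ∀ x ∈ H, v * x * v ∈ H := by
    intro x hx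
    rw [hmem] at hx ⊢
    simp only [mul_smul, hva, hvb, hx.1, hx.2, and_self]
  let φ : H →* H :=
    { toFun := fun x => ⟨v * x * v, hvH x x.2⟩
      map_one' := by ext; simp [hv2]
      map_mul' := by
        intro x y
        ext
        show v * (x * y : G) * v = v * x * v * (v * y * v)
        have : v * x * v * (v * y * v) = v * x * (v * v) * y * v := by group
        rw [this, hv2]; group }
  have hfix : MonoidHom.FixedPointFree φ := by
    intro x hx
    have hx' : v * (x : G) * v = x := congrArg Subtype.val hx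
    have hx'' := (hmem x).1 x.2
    ext
    have hxc : (x : G) • c = c := by
      apply hvu
      have : v * x = x * v := by
        calc v * (x : G) = v * x * (v * v) := by rw [hv2, mul_one]
          _ = (v * x * v) * v := by group
          _ = x * v := by rw [hx']
      rw [← mul_smul, this, mul_smul, hvc]
    have hca : c ≠ a := by
      rintro rfl
      exact hab (hvc.symm.trans hva)
    have hcb : c ≠ b := by
      rintro rfl
      exact hab (hvb.symm.trans hvc)
    exact h3 x a b c hab hcb.symm hca.symm hx''.1 hx''.2 hxc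
  have hinv : Function.Involutive φ := by
    intro x
    ext
    show v * (v * x * v) * v = (x : G)
    have : v * (v * x * v) * v = (v * v) * x * (v * v) := by group
    rw [this, hv2]; group
  have := MonoidHom.FixedPointFree.coe_eq_inv_of_involutive hfix hinv
  have h1 := congrFun this ⟨h, (hmem h).2 ⟨ha, hb⟩⟩
  exact congrArg Subtype.val h1

end Cfsg.Agent.LieRecognition.ZassEvenGroup
end

-- part: S1167
section
set_option autoImplicit false
open Cfsg

namespace Cfsg.Agent.S1167

/-- Let `G` be a finite simple Zassenhaus group on `Ω`, `U` a normal subgroup of `G_a` regular on `Ω` minus `a` which is an abelian 2-group, and `v` an involution with `v • a ≠ a`. Then there is a unique `u₀ ∈ U`, `u₀ ≠ 1`, with `v u₀ v = u₀ v u₀`. -/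
theorem result {G Ω : Type*} [Group G] [Finite G] [MulAction G Ω] [Finite Ω]
    (hZ : Cfsg.IsZassenhausGroup G Ω) [IsSimpleGroup G] {a : Ω}
    (U : Subgroup G) (hUle : U ≤ MulAction.stabilizer G a)
    (hUn : ∀ h ∈ MulAction.stabilizer G a, ∀ u ∈ U, h * u * h⁻¹ ∈ U)
    (hreg : ∀ c d : Ω, c ≠ a → d ≠ a → ∃! u : U, (u : G) • c = d)
    (hU2 : IsPGroup 2 U) (hUab : ∀ u ∈ U, ∀ u' ∈ U, u * u' = u' * u)
    (v : G) (hv1 : v ≠ 1) (hv2 : v * v = 1) (hva : v • a ≠ a) :
    ∃! u₀ : G, u₀ ∈ U ∧ u₀ ≠ 1 ∧ v * u₀ * v = u₀ * v * u₀ := by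
  classical
  obtain ⟨hfaith, h2t, h3, ⟨g0, hg0, a0, b0, hab0, hga0, hgb0⟩, -⟩ := hZ
  obtain ⟨b, hb⟩ : ∃ b, v • a = b := ⟨_, rfl⟩
  have hba : b ≠ a := by rw [← hb]; exact hva
  have hvb : v • b = a := by rw [← hb, smul_smul, hv2, one_smul]
  have hvinv : v⁻¹ = v := inv_eq_of_mul_eq_one_left hv2
  have hvv : ∀ x : Ω, v • v • x = x := fun x => by rw [smul_smul, hv2, one_smul]
  -- regularity in convenient form
  have hUa : ∀ u ∈ U, u • a = a := fun u hu => hUle hu
  have hreg1 : ∀ u ∈ U, ∀ w ∈ U, ∀ c : Ω, c ≠ a → u • c = w • c → u = w := by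
    intro u hu w hw c hc huw
    have hwc : w • c ≠ a := by
      intro h
      apply hc
      have : w • c = w • a := by rw [h, hUa w hw]
      exact smul_left_cancel w this
    obtain ⟨x, -, hx'⟩ := hreg c (w • c) hc hwc
    have e1 := hx' ⟨u, hu⟩ huw
    have e2 := hx' ⟨w, hw⟩ rfl
    exact congrArg Subtype.val (e1.trans e2.symm)
  have hreg2 : ∀ d : Ω, d ≠ a → ∃ u ∈ U, u • b = d := by
    intro d hd
    obtain ⟨x, hx, -⟩ := hreg b d hba hd
    exact ⟨x, x.2, hx⟩
  -- a non-trivial element of H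
  obtain ⟨h0, hh0, hh0a, hh0b⟩ : ∃ h0 : G, h0 ≠ 1 ∧ h0 • a = a ∧ h0 • b = b := by
    obtain ⟨g, hg1, hg2⟩ := MulAction.is_two_pretransitive_iff.1 h2t hab0 hba.symm
    refine ⟨g * g0 * g⁻¹, ?_, ?_, ?_⟩
    · intro h
      apply hg0
      have := congrArg (fun t => g⁻¹ * t * g) h
      simpa [mul_assoc] using this
    · rw [← hg1]; simp [mul_smul, hga0]
    · rw [← hg2]; simp [mul_smul, hgb0]
  -- a third point
  obtain ⟨d, hda, hdb⟩ : ∃ d : Ω, d ≠ a ∧ d ≠ b := by
    by_contra hcon
    push Not at hcon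
    apply hh0
    apply hfaith.eq_of_smul_eq_smul
    intro x
    rw [one_smul]
    by_cases hxa : x = a
    · rw [hxa, hh0a]
    · rw [hcon x hxa, hh0b]
  have hodd : Odd (Nat.card Ω) :=
    LieRecognition.ZassEvenGroup.card_odd U hUle hreg hU2 b d hba hda hdb.symm
  have hfix := fun z hz1 hz2 => LieRecognition.ZassEvenGroup.involution_fixed (G := G) hodd h3 z hz1 hz2
  -- H has no involutions
  have hH2 : ∀ h : G, h • a = a → h • b = b → h * h = 1 → h = 1 := by
    intro h ha' hb' hh
    by_contra hne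
    obtain ⟨c, -, hc'⟩ := hfix h hne hh
    exact hba ((hc' b hb').trans (hc' a ha').symm)
  have hsqrt : ∀ h : G, h • a = a → h • b = b → ∃ k : G, k • a = a ∧ k • b = b ∧ k * k = h := by
    intro h ha' hb'
    have hpa : ∀ n : ℕ, (h ^ n) • a = a := fun n =>
      (MulAction.stabilizer G a).pow_mem (x := h) ha' n
    have hpb : ∀ n : ℕ, (h ^ n) • b = b := fun n =>
      (MulAction.stabilizer G b).pow_mem (x := h) hb' n
    obtain ⟨n, hn⟩ := LieRecognition.ZassEvenGroup.exists_sqrt h
      (fun n hn => hH2 (h ^ n) (hpa n) (hpb n) hn)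
    exact ⟨h ^ n, hpa n, hpb n, hn⟩
  -- the fixed point of v
  obtain ⟨c, hvc, hvc'⟩ := hfix v hv1 hv2
  have hca : c ≠ a := by
    intro h
    apply hva
    rw [← h]; exact hvc
  have hcb : c ≠ b := by
    intro h
    apply hba
    rw [h, hvb] at hvc
    exact hvc.symm
  -- v inverts H
  have hinv : ∀ h : G, h • a = a → h • b = b → v * h * v = h⁻¹ := fun h ha' hb' =>
    LieRecognition.ZassEvenGroup.inverts h3 hba.symm v hv2 hb hvb c hvc hvc' h ha' hb'
  have hinv' : ∀ h : G, h • a = a → h • b = b → v * h = h⁻¹ * v := by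
    intro h ha' hb'
    rw [← hinv h ha' hb']
    rw [mul_assoc, hv2, mul_one]
  have hinvp : ∀ h : G, h • a = a → h • b = b → ∀ x : Ω, v • h • x = h⁻¹ • v • x := by
    intro h ha' hb' x
    rw [← mul_smul, hinv' h ha' hb', mul_smul]
  have hcomm : ∀ h k : G, h • a = a → h • b = b → k • a = a → k • b = b → h * k = k * h := by
    intro h k h1 h2 k1 k2
    have e1 := hinv (h * k) (by rw [mul_smul, k1, h1]) (by rw [mul_smul, k2, h2])
    have e2 : v * (h * k) * v = (v * h * v) * (v * k * v) := by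
      have : (v * h * v) * (v * k * v) = v * h * (v * v) * k * v := by group
      rw [this, hv2]; group
    rw [e2, hinv h h1 h2, hinv k k1 k2] at e1
    have := congrArg (fun t => t⁻¹) e1
    simpa using this.symm
  -- involutions of G_a lie in U
  have hinvU : ∀ z : G, z • a = a → z * z = 1 → z ∈ U := by
    intro z hza hzz
    have hzb : z • b ≠ a := by
      intro h
      apply hba
      have : z • b = z • a := by rw [h, hza]
      exact smul_left_cancel z this
    obtain ⟨u, hu, hub⟩ := hreg2 (z • b) hzb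
    have hha : (u⁻¹ * z) • a = a := by
      rw [mul_smul, hza, inv_smul_eq_iff, hUa u hu]
    have hhb : (u⁻¹ * z) • b = b := by
      rw [mul_smul, inv_smul_eq_iff, hub]
    set h := u⁻¹ * z with hh
    have hz : z = u * h := by rw [hh]; group
    have hconj : h * u * h⁻¹ ∈ U := hUn h hha u hu
    have hprod : u * (h * u * h⁻¹) * (h * h) = 1 := by
      have : u * (h * u * h⁻¹) * (h * h) = (u * h) * (u * h) := by group
      rw [this, ← hz, hzz]
    have hhh : h * h ∈ U := by
      have h1 : h * h = (u * (h * u * h⁻¹))⁻¹ := (inv_eq_of_mul_eq_one_right hprod).symm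
      rw [h1]
      exact U.inv_mem (U.mul_mem hu hconj)
    have hhh1 : h * h = 1 := by
      apply hreg1 _ hhh 1 U.one_mem b hba
      rw [mul_smul, hhb, hhb, one_smul]
    have h1 := hH2 h hha hhb hhh1
    rw [hz, h1, mul_one]
    exact hu
  -- the pair (s, r)
  obtain ⟨r, hrU, hrb⟩ := hreg2 c hca
  have hr1 : r ≠ 1 := by
    intro h
    rw [h, one_smul] at hrb
    exact hcb hrb.symm
  obtain ⟨s, hs⟩ : ∃ s, v * r⁻¹ * v * r * v = s := ⟨_, rfl⟩
  have hrinvc : r⁻¹ • c = b := by rw [inv_smul_eq_iff, hrb]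
  have hss : s * s = 1 := by
    rw [← hs]
    have : v * r⁻¹ * v * r * v * (v * r⁻¹ * v * r * v) = v * r⁻¹ * v * r * (v * v) * r⁻¹ * v * r * v := by group
    rw [this, hv2]
    have : v * r⁻¹ * v * r * 1 * r⁻¹ * v * r * v = v * r⁻¹ * (v * v) * r * v := by group
    rw [this, hv2]
    have : v * r⁻¹ * 1 * r * v = v * v := by group
    rw [this, hv2]
  have hsa : s • a = a := by
    rw [← hs]
    simp only [mul_smul, hb, hrb, hvc, hrinvc, hvb]
  have hsU : s ∈ U := hinvU s hsa hss
  have hsinv : s⁻¹ = s := inv_eq_of_mul_eq_one_left hss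
  have hvsv : v * s * v = r⁻¹ * v * r := by
    rw [← hs]
    have : v * (v * r⁻¹ * v * r * v) * v = (v * v) * r⁻¹ * v * r * (v * v) := by group
    rw [this, hv2]; group
  have hvrv : v * r * v = r * v * s := by
    rw [← hs]
    have : r * v * (v * r⁻¹ * v * r * v) = r * (v * v) * r⁻¹ * v * r * v := by group
    rw [this, hv2]; group
  have hvriv : v * r⁻¹ * v = s * v * r⁻¹ := by
    have := congrArg (fun t => t⁻¹) hvrv
    simp only [mul_inv_rev, hvinv, hsinv] at this
    rw [← mul_assoc, ← mul_assoc] at this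
    exact this
  -- uniqueness of the pair
  have hpair : ∀ s1 ∈ U, ∀ r1 ∈ U, v * s1 * v = r1⁻¹ * v * r1 → r1 = r ∧ s1 = s := by
    intro s1 hs1 r1 hr1 h1
    have e1 : v * r1 * v = r1 * v * s1 := by
      have : r1 * v * s1 = r1 * (v * s1 * v) * v := by
        have : r1 * (v * s1 * v) * v = r1 * v * s1 * (v * v) := by group
        rw [this, hv2, mul_one]
      rw [this, h1]; group
    have e2 : v • r1 • b = r1 • b := by
      calc v • r1 • b = (v * r1 * v) • a := by rw [mul_smul, mul_smul, hb]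
        _ = r1 • b := by rw [e1, mul_smul, mul_smul, hUa s1 hs1, hb]
    have e3 : r1 = r := hreg1 r1 hr1 r hrU b hba ((hvc' _ e2).trans hrb.symm)
    refine ⟨e3, ?_⟩
    rw [e3, ← hvsv] at h1
    have := mul_right_cancel h1
    exact mul_left_cancel this
  -- H is transitive on the involutions of U
  have htrans : ∀ t ∈ U, t ≠ 1 → t * t = 1 → ∃ k : G, k • a = a ∧ k • b = b ∧ t = k * s * k⁻¹ := by
    intro t htU ht1 htt
    have htb : v • t • b ≠ a := by
      intro h
      apply ht1
      apply hreg1 t htU 1 U.one_mem b hba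
      rw [one_smul, ← hvv (t • b), h, hb]
    obtain ⟨w, hw, hwb⟩ := hreg2 _ htb
    -- w⁻¹ v t v w swaps a and b
    obtain ⟨z, hz⟩ : ∃ z, w⁻¹ * (v * t * v) * w = z := ⟨_, rfl⟩
    have hza : z • a = b := by
      rw [← hz]
      simp only [mul_smul, hUa w hw, hb]
      rw [inv_smul_eq_iff, hwb]
    have hzz : z * z = 1 := by
      rw [← hz]
      have : w⁻¹ * (v * t * v) * w * (w⁻¹ * (v * t * v) * w) = w⁻¹ * (v * t * (v * v) * t * v) * w := by group
      rw [this, hv2]
      have : w⁻¹ * (v * t * 1 * t * v) * w = w⁻¹ * (v * (t * t) * v) * w := by group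
      rw [this, htt]
      have : w⁻¹ * (v * 1 * v) * w = w⁻¹ * (v * v) * w := by group
      rw [this, hv2]; group
    have hzb : z • b = a := by rw [← hza, smul_smul, hzz, one_smul]
    obtain ⟨k, hka, hkb, hkk⟩ := hsqrt (z * v) (by rw [mul_smul, hb, hzb]) (by rw [mul_smul, hvb, hza])
    have hzk : z = k * v * k⁻¹ := by
      have e1 : z = k * k * v := by
        rw [hkk, mul_assoc, hv2, mul_one]
      have e2 := hinv' k⁻¹ (by rw [inv_smul_eq_iff, hka]) (by rw [inv_smul_eq_iff, hkb])
      rw [inv_inv] at e2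
      rw [e1, mul_assoc k v, e2, mul_assoc]
    -- v t v = w k v k⁻¹ w⁻¹
    have hkw : k⁻¹ * w⁻¹ * k ∈ U := by
      have := hUn k⁻¹ (by rw [MulAction.mem_stabilizer_iff, inv_smul_eq_iff, hka]) w⁻¹ (U.inv_mem hw)
      simpa using this
    have hkt : k * t * k⁻¹ ∈ U := hUn k hka t htU
    have hmain : v * (k * t * k⁻¹) * v = (k⁻¹ * w⁻¹ * k)⁻¹ * v * (k⁻¹ * w⁻¹ * k) := by
      have e1 : v * t * v = w * (k * v * k⁻¹) * w⁻¹ := by
        rw [← hzk, ← hz]; group
      have e2 := hinv' k hka hkb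
      have e3 : k⁻¹ * v = v * k := e2.symm
      have e4 : v * k⁻¹ = k * v := by
        have := hinv' k⁻¹ (by rw [inv_smul_eq_iff, hka]) (by rw [inv_smul_eq_iff, hkb])
        rwa [inv_inv] at this
      calc v * (k * t * k⁻¹) * v = (v * k) * t * (k⁻¹ * v) := by group
        _ = (k⁻¹ * v) * t * (v * k) := by rw [e3]
        _ = k⁻¹ * (v * t * v) * k := by group
        _ = _ := by rw [e1]; group
    obtain ⟨-, hks⟩ := hpair _ hkt _ hkw hmain
    refine ⟨k⁻¹, by rw [inv_smul_eq_iff, hka], by rw [inv_smul_eq_iff, hkb], ?_⟩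
    rw [← hks]; group
  -- main claim: r = s
  have hfree : ∀ k : G, k • a = a → k • b = b → k ≠ 1 → ∀ u ∈ U, k * u * k⁻¹ = u → u = 1 := by
    intro k hka hkb hk1 u hu hku
    by_contra hu1
    apply hk1
    have e1 : k • u • b = u • b := by
      have : k * u = u * k := by
        calc k * u = k * u * k⁻¹ * k := by group
          _ = u * k := by rw [hku]
      rw [← mul_smul, this, mul_smul, hkb]
    have e2 : u • b ≠ b := by
      intro h
      exact hu1 (hreg1 u hu 1 U.one_mem b hba (by rw [h, one_smul]))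
    have e3 : u • b ≠ a := by
      intro h
      apply hba
      have : u • b = u • a := by rw [h, hUa u hu]
      exact smul_left_cancel u this
    exact h3 k a b (u • b) hba.symm e2.symm e3.symm hka hkb e1
  have hvsb : v • s • b = r⁻¹ • b := by
    calc v • s • b = (v * s * v) • a := by rw [mul_smul, mul_smul, hb]
      _ = r⁻¹ • b := by rw [hvsv, mul_smul, mul_smul, hUa r hrU, hb]
  have hvrib : v • r⁻¹ • b = s • b := by
    calc v • r⁻¹ • b = (v * r⁻¹ * v) • a := by rw [mul_smul, mul_smul, hb]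
      _ = s • b := by rw [hvriv, mul_smul, mul_smul, hUa r⁻¹ (U.inv_mem hrU), hb]
  have hvrb : v • r • b = r • b := by rw [hrb, hvc]
  have hA1 : ∀ x : Ω, v • r • x = r • v • s • v • x := by
    intro x
    calc v • r • x = (v * r * v) • v • x := by rw [mul_smul, mul_smul, hvv]
      _ = _ := by rw [hvrv, mul_smul, mul_smul]
  have hA2 : ∀ x : Ω, v • r⁻¹ • x = s • v • r⁻¹ • v • x := by
    intro x
    calc v • r⁻¹ • x = (v * r⁻¹ * v) • v • x := by rw [mul_smul, mul_smul, hvv]
      _ = _ := by rw [hvriv, mul_smul, mul_smul]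
  have hP1 : ∀ k q : G, k • a = a → k • b = b → q • a = a → q • b = b →
      k * s * k⁻¹ * s = q * s * q⁻¹ → v • r • k • r⁻¹ • b = r • k • q⁻¹ • r⁻¹ • b := by
    intro k q hka hkb hqa hqb hkq
    have hka' : k⁻¹ • a = a := by rw [inv_smul_eq_iff, hka]
    have hkb' : k⁻¹ • b = b := by rw [inv_smul_eq_iff, hkb]
    have hqb' : q⁻¹ • b = b := by rw [inv_smul_eq_iff, hqb]
    have e1 : s • k⁻¹ • s • b = k⁻¹ • q • s • b := by
      have : s • k⁻¹ • s • b = k⁻¹ • (k * s * k⁻¹ * s) • b := by
        simp only [mul_smul, inv_smul_smul]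
      rw [this, hkq, mul_smul, mul_smul, hqb']
    calc v • r • k • r⁻¹ • b = r • v • s • k⁻¹ • v • r⁻¹ • b := by
          rw [hA1, hinvp k hka hkb]
      _ = r • v • k⁻¹ • q • s • b := by rw [hvrib, e1]
      _ = r • k • q⁻¹ • v • s • b := by
          rw [hinvp k⁻¹ hka' hkb', inv_inv, hinvp q hqa hqb]
      _ = r • k • q⁻¹ • r⁻¹ • b := by rw [hvsb]
  have hrs : r = s := by
    obtain ⟨k, hk⟩ : ∃ k, k = h0 := ⟨_, rfl⟩
    have hka : k • a = a := by rw [hk]; exact hh0a
    have hkb : k • b = b := by rw [hk]; exact hh0b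
    have hk1 : k ≠ 1 := by rw [hk]; exact hh0
    have hka' : k⁻¹ • a = a := by rw [inv_smul_eq_iff, hka]
    have hkb' : k⁻¹ • b = b := by rw [inv_smul_eq_iff, hkb]
    have hs1 : s ≠ 1 := by
      intro h
      rw [h, mul_one, hv2] at hvsv
      apply hv1
      have := congrArg (fun t => r * t * r⁻¹) hvsv
      simp only [mul_one] at this
      have e2 : r * (r⁻¹ * v * r) * r⁻¹ = v := by group
      rw [e2, mul_inv_cancel] at this
      exact this.symm
    have hksU : k * s * k⁻¹ ∈ U := hUn k hka s hsU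
    obtain ⟨q, hqa, hqb, hkq⟩ : ∃ q : G, q • a = a ∧ q • b = b ∧ k * s * k⁻¹ * s = q * s * q⁻¹ := by
      apply htrans _ (U.mul_mem hksU hsU)
      · intro h
        apply hs1
        apply hfree k hka hkb hk1 s hsU
        rw [← hsinv]
        rw [hsinv]
        exact eq_inv_of_mul_eq_one_left h |>.trans hsinv
      · have e1 := hUab _ hksU _ hsU
        have : k * s * k⁻¹ * s * (k * s * k⁻¹ * s) = k * s * k⁻¹ * (s * (k * s * k⁻¹)) * s := by group
        rw [this, ← e1]
        have : k * s * k⁻¹ * (k * s * k⁻¹ * s) * s = k * (s * s) * k⁻¹ * (s * s) := by group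
        rw [this, hss]; group
    have hqa' : q⁻¹ • a = a := by rw [inv_smul_eq_iff, hqa]
    have hqb' : q⁻¹ • b = b := by rw [inv_smul_eq_iff, hqb]
    have hkqc : k * q = q * k := hcomm k q hka hkb hqa hqb
    -- relation for `k⁻¹`
    have hkp : k⁻¹ * s * k⁻¹⁻¹ * s = (k⁻¹ * q) * s * (k⁻¹ * q)⁻¹ := by
      have e1 : (k⁻¹ * q) * s * (k⁻¹ * q)⁻¹ = k⁻¹ * (q * s * q⁻¹) * k := by group
      rw [e1, ← hkq]
      have e2 : k⁻¹ * (k * s * k⁻¹ * s) * k = s * (k⁻¹ * s * k) := by group
      rw [e2, inv_inv]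
      refine hUab _ ?_ _ hsU
      have := hUn k⁻¹ hka' s hsU
      simpa using this
    have hC1 : r⁻¹ * (k * r * k⁻¹) = (k * r * k⁻¹) * r⁻¹ :=
      hUab _ (U.inv_mem hrU) _ (hUn k hka r hrU)
    have hC2 : r⁻¹ * (k⁻¹ * r * k) = (k⁻¹ * r * k) * r⁻¹ := by
      refine hUab _ (U.inv_mem hrU) _ ?_
      have := hUn k⁻¹ hka' r hrU
      simpa using this
    have hL : v • r⁻¹ • k • r • b = s • k • r • k • q⁻¹ • r⁻¹ • b := by
      have e1 : r⁻¹ • k⁻¹ • r • b = k⁻¹ • r • k • r⁻¹ • b := by
        have := congrArg (fun t => t • b) hC2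
        simp only [mul_smul, hkb] at this
        exact this
      rw [hA2, hinvp k hka hkb, hvrb, e1, hinvp k⁻¹ hka' hkb', inv_inv, hP1 k q hka hkb hqa hqb hkq]
    have hR : v • r⁻¹ • k • r • b = k⁻¹ • r • q⁻¹ • r⁻¹ • b := by
      have e1 : r⁻¹ • k • r • b = k • r • k⁻¹ • r⁻¹ • b := by
        have := congrArg (fun t => t • b) hC1
        simp only [mul_smul, hkb'] at this
        exact this
      rw [e1, hinvp k hka hkb, hP1 k⁻¹ (k⁻¹ * q) hka' hkb' (by rw [mul_smul, hqa, hka'])
        (by rw [mul_smul, hqb, hkb']) hkp]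
      have : ∀ x : Ω, k⁻¹ • (k⁻¹ * q)⁻¹ • x = q⁻¹ • x := by
        intro x
        rw [← mul_smul]
        congr 1
        have : k⁻¹ * (k⁻¹ * q)⁻¹ = (q * (k⁻¹ * k)) ⁻¹ := by
          rw [← mul_inv_rev]
          congr 1
          rw [mul_assoc, ← hkqc]; group
        rw [this]; group
      rw [this]
    have hmain : k • q • s • k • r • k • q⁻¹ • r⁻¹ • b = q • r • q⁻¹ • r⁻¹ • b := by
      have e2 : k • q • s • k • r • k • q⁻¹ • r⁻¹ • b = k • q • k⁻¹ • r • q⁻¹ • r⁻¹ • b :=
        congrArg (fun t => k • q • t) (hL.symm.trans hR)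
      have e3 : k • q • k⁻¹ • r • q⁻¹ • r⁻¹ • b = q • k • k⁻¹ • r • q⁻¹ • r⁻¹ • b := by
        rw [← mul_smul, hkqc, mul_smul]
      rw [e2, e3, smul_inv_smul]
    have hqrU : q * r * q⁻¹ ∈ U := hUn q hqa r hrU
    have hqsU : q * s * q⁻¹ ∈ U := hUn q hqa s hsU
    have hstar : (q * r * q⁻¹) * r⁻¹ = (k * (q * s * q⁻¹) * k⁻¹) * (k * (k * (q * r * q⁻¹) * k⁻¹) * k⁻¹)
        * (k * (k * (k * r * k⁻¹) * k⁻¹) * k⁻¹)⁻¹ := by
      refine hreg1 _ (U.mul_mem hqrU (U.inv_mem hrU)) _ ?_ b hba ?_
      · exact U.mul_mem (U.mul_mem (hUn k hka _ hqsU) (hUn k hka _ (hUn k hka _ hqrU)))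
          (U.inv_mem (hUn k hka _ (hUn k hka _ (hUn k hka _ hrU))))
      · have e1 : ∀ x : Ω, q⁻¹ • k • x = k • q⁻¹ • x := by
          intro x
          rw [← mul_smul, ← mul_smul]
          congr 1
          calc q⁻¹ * k = q⁻¹ * (k * q) * q⁻¹ := by group
            _ = k * q⁻¹ := by rw [hkqc]; group
        simp only [mul_smul, mul_inv_rev, inv_inv, inv_smul_smul, hkb', e1]
        rw [hmain]
    -- apply the abstract lemma
    let _ : CommGroup U :=
      { (inferInstance : Group U) with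
        mul_comm := fun x y => Subtype.ext (hUab x x.2 y y.2) }
    let cj : ∀ h : G, h • a = a → (U →* U) := fun h hh =>
      { toFun := fun u => ⟨h * u * h⁻¹, hUn h hh u u.2⟩
        map_one' := by ext; simp
        map_mul' := by
          intro x y
          ext
          show h * (x * y : G) * h⁻¹ = h * x * h⁻¹ * (h * y * h⁻¹)
          group }
    have hcjinj : ∀ (h : G) (hh : h • a = a), Function.Injective (cj h hh) := by
      intro h hh x y hxy
      have h1 : h * (x : G) * h⁻¹ = h * y * h⁻¹ := congrArg Subtype.val hxy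
      ext
      exact mul_left_cancel (mul_right_cancel h1)
    obtain ⟨j, hj⟩ := hU2 ⟨r, hrU⟩
    have key := LieRecognition.ZassEven.abs_key (A := Additive U)
      (MonoidHom.toAdditive (cj k hka)) (MonoidHom.toAdditive (cj q hqa))
      (fun x y h => hcjinj k hka h) (fun x y h => hcjinj q hqa h)
      (Additive.ofMul ⟨r, hrU⟩) (Additive.ofMul ⟨s, hsU⟩) ?_ j ?_ ?_ ?_ ?_ ?_
    · exact congrArg Subtype.val key
    · intro h
      exact hr1 (congrArg Subtype.val h)
    · exact hj
    · exact Subtype.ext hss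
    · apply Subtype.ext
      show (q * r * q⁻¹) / r = (k * (q * s * q⁻¹) * k⁻¹) * (k * (k * (q * r * q⁻¹) * k⁻¹) * k⁻¹)
        / (k * (k * (k * r * k⁻¹) * k⁻¹) * k⁻¹)
      rw [div_eq_mul_inv, div_eq_mul_inv]
      exact hstar
    · rintro ⟨T, hTU⟩ hT
      apply Subtype.ext
      show q * T * q⁻¹ = k * T * k⁻¹ * T
      have hTT : T * T = 1 := congrArg Subtype.val hT
      by_cases hT1 : T = 1
      · rw [hT1]; group
      · obtain ⟨l, hla, hlb, hl⟩ := htrans T hTU hT1 hTT
        have e1 : q * T * q⁻¹ = l * (q * s * q⁻¹) * l⁻¹ := by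
          have := hcomm q l hqa hqb hla hlb
          calc q * T * q⁻¹ = (q * l) * s * (q * l)⁻¹ := by rw [hl]; group
            _ = _ := by rw [this]; group
        have e2 : k * T * k⁻¹ * T = l * (k * s * k⁻¹ * s) * l⁻¹ := by
          have := hcomm k l hka hkb hla hlb
          calc k * T * k⁻¹ * T = (k * l) * s * (k * l)⁻¹ * (l * s * l⁻¹) := by rw [hl]; group
            _ = _ := by rw [this]; group
        rw [e1, e2, hkq]
    · rintro ⟨T, hTU⟩ hT
      have hTT : k * T * k⁻¹ = T := congrArg Subtype.val hT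
      exact Subtype.ext (hfree k hka hkb hk1 T hTU hTT)
  refine ⟨s, ⟨hsU, ?_, ?_⟩, ?_⟩
  · rw [← hrs]; exact hr1
  · rw [hvsv, hrs, hsinv]
  · rintro u ⟨huU, hu1, hu⟩
    -- u is an involution
    have huu : u * u = 1 := by
      have e1 : u = u * v * (u * u) * v := by
        calc u = (v * v) * u * (v * v) := by rw [hv2]; group
          _ = v * (v * u * v) * v := by group
          _ = v * (u * v * u) * v := by rw [hu]
          _ = (v * u * v) * u * v := by group
          _ = u * v * (u * u) * v := by rw [hu]; group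
      have e2 : v * (u * u) * v = 1 := by
        have := congrArg (fun t => u⁻¹ * t) e1
        simp only [inv_mul_cancel] at this
        rw [this]; group
      calc u * u = (v * v) * (u * u) * (v * v) := by rw [hv2]; group
        _ = v * (v * (u * u) * v) * v := by group
        _ = 1 := by rw [e2, mul_one, hv2]
    have := hpair u huU u huU (by
      rw [hu]
      have : u⁻¹ = u := inv_eq_of_mul_eq_one_left huu
      rw [this])
    exact this.2

end Cfsg.Agent.S1167
end
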