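import Cfsg.Statements.S1177
import Mathlib
set_option linter.all false

set_option autoImplicit false
open Cfsg

namespace Cfsg.Agent.S1177

/-- Let A be a nontrivial elementary abelian 2-subgroup of a finite group G which is a T.I. set (each conjugate of A meets A trivially or equals A) and which does not commute elementwise with any conjugate of A other than A itself. Then for every a ∈ A, a ≠ 1, every conjugate of A contained in C_G(a) is equal to A (A is weakly closed in C_G(a)). -/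
theorem result {G : Type*} [Group G] [Finite G] (A : Subgroup G) (hA : Cfsg.IsElementaryAbelian 2 A) (hA1 : A ≠ ⊥) (hTI : ∀ g : G, A.map (MulAut.conj g).toMonoidHom ⊓ A = ⊥ ∨ A.map (MulAut.conj g).toMonoidHom = A) (hb : ∀ g : G, (∀ a ∈ A, ∀ b ∈ A.map (MulAut.conj g).toMonoidHom, a * b = b * a) → A.map (MulAut.conj g).toMonoidHom = A) (a : G) (ha : a ∈ A) (ha1 : a ≠ 1) (g : G) (hg : A.map (MulAut.conj g).toMonoidHom ≤ Subgroup.centralizer ({a} : Set G)) : A.map (MulAut.conj g).toMonoidHom = A := by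
  obtain ⟨hcomm, hsq⟩ := hA
  have hcA : ∀ x ∈ A, ∀ y ∈ A, x * y = y * x := fun x hx y hy => by
    have := hcomm.is_comm.comm ⟨x, hx⟩ ⟨y, hy⟩
    exact congrArg Subtype.val this
  have hinv : ∀ x ∈ A, x⁻¹ = x := fun x hx => by
    have := hsq x hx
    rw [pow_two] at this
    exact (eq_inv_of_mul_eq_one_left this).symm
  -- membership in conjugates
  have hmem : ∀ (k x : G), x ∈ A.map (MulAut.conj k).toMonoidHom ↔ k⁻¹ * x * k ∈ A := by
    intro k x
    constructor
    · rintro ⟨y, hy, rfl⟩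
      have : k⁻¹ * ((MulAut.conj k).toMonoidHom y) * k = y := by
        simp [mul_assoc]
      rw [this]; exact hy
    · intro h
      exact ⟨k⁻¹ * x * k, h, by simp [mul_assoc]⟩
  -- if `k` centralizes a nontrivial element of `A`, then `k` normalizes `A`
  have hnorm : ∀ k x : G, x ∈ A → x ≠ 1 → k * x = x * k → ∀ y ∈ A, k * y * k⁻¹ ∈ A := by
    intro k x hx hx1 hkx y hy
    rcases hTI k with h | h
    · exfalso
      apply hx1
      have : x ∈ A.map (MulAut.conj k).toMonoidHom ⊓ A := by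
        refine ⟨(hmem k x).2 ?_, hx⟩
        have : k⁻¹ * x * k = x := by rw [mul_assoc, ← hkx]; simp
        rw [this]; exact hx
      rw [h] at this
      exact Subgroup.mem_bot.1 this
    · rw [← h]
      exact ⟨y, hy, rfl⟩
  set B := A.map (MulAut.conj g).toMonoidHom with hB
  by_contra hne
  have hint : B ⊓ A = ⊥ := by
    rcases hTI g with h | h
    · exact h
    · exact absurd h hne
  have hcB : ∀ x ∈ B, ∀ y ∈ B, x * y = y * x := by
    rintro _ ⟨x, hx, rfl⟩ _ ⟨y, hy, rfl⟩
    rw [← map_mul, ← map_mul, hcA x hx y hy]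
  have hinvB : ∀ x ∈ B, x⁻¹ = x := by
    rintro _ ⟨x, hx, rfl⟩
    rw [← map_inv, hinv x hx]
  -- `B` normalizes `A`
  have hBA : ∀ b ∈ B, ∀ y ∈ A, b * y * b⁻¹ ∈ A := by
    intro b hb'
    have := hg hb'
    rw [Subgroup.mem_centralizer_iff] at this
    exact hnorm b a ha ha1 (this a rfl).symm
  -- if `k` centralizes a nontrivial element of `B`, then `k` normalizes `B`
  have hnormB : ∀ k x : G, x ∈ B → x ≠ 1 → k * x = x * k → ∀ y ∈ B, k * y * k⁻¹ ∈ B := by
    intro k x hx hx1 hkx y hy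
    rw [hB, hmem] at hx hy ⊢
    have hk1 : g⁻¹ * x * g ≠ 1 := by
      intro h
      apply hx1
      have : x = g * (g⁻¹ * x * g) * g⁻¹ := by group
      rw [this, h]; group
    have := hnorm (g⁻¹ * k * g) _ hx hk1 (by
      calc g⁻¹ * k * g * (g⁻¹ * x * g) = g⁻¹ * (k * x) * g := by group
        _ = g⁻¹ * (x * k) * g := by rw [hkx]
        _ = g⁻¹ * x * g * (g⁻¹ * k * g) := by group) _ hy
    have h2 : g⁻¹ * (k * y * k⁻¹) * g = g⁻¹ * k * g * (g⁻¹ * y * g) * (g⁻¹ * k * g)⁻¹ := by group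
    rw [h2]; exact this
  -- `C_A(b) = C_A(B)` for nontrivial `b ∈ B`
  have hkey : ∀ b ∈ B, b ≠ 1 → ∀ y ∈ A, y * b = b * y → ∀ c ∈ B, y * c = c * y := by
    intro b hbB hb1 y hy hyb c hc
    have h1 : y * c * y⁻¹ ∈ B := hnormB y b hbB hb1 hyb c hc
    have h2 : y * c * y⁻¹ * c⁻¹ ∈ B ⊓ A := by
      refine ⟨B.mul_mem h1 (B.inv_mem hc), ?_⟩
      have : y * c * y⁻¹ * c⁻¹ = y * (c * y⁻¹ * c⁻¹) := by group
      rw [this]
      exact A.mul_mem hy (hBA c hc _ (A.inv_mem hy))
    rw [hint, Subgroup.mem_bot] at h2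
    have h3 : y * c * y⁻¹ = c := by
      rw [← mul_inv_eq_one]; exact h2
    calc y * c = (y * c * y⁻¹) * y := by group
      _ = c * y := by rw [h3]
  -- there is `y ∈ A` not centralizing `B`
  have hex : ∃ y ∈ A, ∃ c ∈ B, y * c ≠ c * y := by
    by_contra hcon
    push Not at hcon
    exact hne (hb g hcon)
  obtain ⟨y, hy, c, hc, hyc⟩ := hex
  -- `C_A(B)`
  set C : Subgroup G := A ⊓ Subgroup.centralizer (B : Set G) with hC
  have hCmem : ∀ x, x ∈ C ↔ x ∈ A ∧ ∀ d ∈ B, x * d = d * x := by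
    intro x
    rw [hC, Subgroup.mem_inf, Subgroup.mem_centralizer_iff]
    constructor
    · rintro ⟨h1, h2⟩
      exact ⟨h1, fun d hd => (h2 d hd).symm⟩
    · rintro ⟨h1, h2⟩
      exact ⟨h1, fun d hd => (h2 d hd).symm⟩
  have hyC : y ∉ C := fun h => hyc (((hCmem y).1 h).2 c hc)
  have hcomm_mem : ∀ b ∈ B, y * (b * y * b⁻¹) ∈ C := by
    intro b hbB
    by_cases hb1 : b = 1
    · subst hb1
      have : y * (1 * y * 1⁻¹) = 1 := by
        have := hsq y hy
        rw [pow_two] at this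
        simpa using this
      rw [this]; exact C.one_mem
    rw [hCmem]
    have hbyA : b * y * b⁻¹ ∈ A := hBA b hbB y hy
    refine ⟨A.mul_mem hy hbyA, ?_⟩
    apply hkey b hbB hb1 _ (A.mul_mem hy hbyA)
    have hbi := hinvB b hbB
    have hbb : b * b = 1 := by
      nth_rewrite 2 [← hbi]
      simp
    calc y * (b * y * b⁻¹) * b = y * (b * y) := by group
      _ = (b * b) * (y * (b * y)) := by rw [hbb, one_mul]
      _ = b * ((b * y * b) * y) := by group
      _ = b * ((b * y * b⁻¹) * y) := by rw [hbi]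
      _ = b * (y * (b * y * b⁻¹)) := by rw [hcA _ hbyA y hy]
  have hle : Nat.card B ≤ Nat.card C := by
    refine Nat.card_le_card_of_injective (fun b : B => (⟨_, hcomm_mem b b.2⟩ : C)) ?_
    rintro ⟨b, hbB⟩ ⟨d, hdB⟩ h
    simp only [Subtype.mk.injEq] at h
    have h1 : b * y * b⁻¹ = d * y * d⁻¹ := mul_left_cancel h
    by_contra hbd
    have hbd' : d⁻¹ * b ≠ 1 := by
      intro h'
      apply hbd
      have : b = d := by
        calc b = d * (d⁻¹ * b) := by group
          _ = d := by rw [h']; simp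
      exact Subtype.ext this
    have hmemB : d⁻¹ * b ∈ B := B.mul_mem (B.inv_mem hdB) hbB
    apply hyc
    apply hkey (d⁻¹ * b) hmemB hbd' y hy ?_ c hc
    calc y * (d⁻¹ * b) = d⁻¹ * (d * y * d⁻¹) * b := by group
      _ = d⁻¹ * (b * y * b⁻¹) * b := by rw [h1]
      _ = d⁻¹ * b * y := by group
  have hcard : Nat.card B = Nat.card A := by
    rw [hB]
    exact Nat.card_congr (A.equivMapOfInjective _ (MulAut.conj g).injective).toEquiv.symm
  have hCA : C ≤ A := inf_le_left
  have hCeq : C = A := by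
    apply Subgroup.eq_of_le_of_card_ge hCA
    rw [← hcard]; exact hle
  exact hyC (hCeq ▸ hy)

end Cfsg.Agent.S1177
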