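import Cfsg.Statements.S1178
import Mathlib
set_option linter.all false

set_option autoImplicit false
open Cfsg

namespace Cfsg.Agent.S1178

/-- Two elementwise commuting `p`-subgroups generate a `p`-subgroup. -/
theorem isPGroup_sup_of_commute {G : Type*} [Group G] {p : ℕ} {A B : Subgroup G}
    (hA : IsPGroup p A) (hB : IsPGroup p B)
    (hc : ∀ a ∈ A, ∀ b ∈ B, a * b = b * a) : IsPGroup p ↥(A ⊔ B) := by
  have hAB : A ≤ Subgroup.centralizer (B : Set G) := by
    intro a ha
    rw [Subgroup.mem_centralizer_iff]
    intro b hb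
    exact (hc a ha b hb).symm
  refine IsPGroup.to_sup_of_normal_right' hA hB ?_
  intro a ha
  have := hAB ha
  exact Subgroup.centralizer_le_normalizer _ this

theorem map_conj_map_conj {G : Type*} [Group G] (A : Subgroup G) (g h : G) :
    (A.map (MulAut.conj g).toMonoidHom).map (MulAut.conj h).toMonoidHom
      = A.map (MulAut.conj (h * g)).toMonoidHom := by
  rw [Subgroup.map_map]
  congr 1
  ext x
  simp [mul_assoc]

/-- Let A be a subgroup of a Sylow 2-subgroup S of the finite group G which is weakly closed in S. If a conjugate g A g⁻¹ commutes elementwise with A, then g A g⁻¹ = A. -/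
theorem result {G : Type*} [Group G] [Finite G] (S : Sylow 2 G) (A : Subgroup G) (hW : Cfsg.IsWeaklyClosed A (S : Subgroup G)) (g : G) (hc : ∀ a ∈ A, ∀ b ∈ A.map (MulAut.conj g).toMonoidHom, a * b = b * a) : A.map (MulAut.conj g).toMonoidHom = A := by
  have hA : IsPGroup 2 A := S.isPGroup'.to_le hW.1
  have hB : IsPGroup 2 (A.map (MulAut.conj g).toMonoidHom) := hA.map _
  obtain ⟨T, hT⟩ := (isPGroup_sup_of_commute hA hB hc).exists_le_sylow
  obtain ⟨h, hh⟩ := MulAction.exists_smul_eq G T S
  have hTS : (T : Subgroup G).map (MulAut.conj h).toMonoidHom = (S : Subgroup G) := by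
    rw [← hh]
    rfl
  have h1 : A.map (MulAut.conj h).toMonoidHom = A := by
    apply hW.2 h
    rw [← hTS]
    exact Subgroup.map_mono (le_trans le_sup_left hT)
  have h2 : A.map (MulAut.conj (h * g)).toMonoidHom = A := by
    apply hW.2 (h * g)
    rw [← hTS, ← map_conj_map_conj]
    exact Subgroup.map_mono (le_trans le_sup_right hT)
  have h3 : (A.map (MulAut.conj g).toMonoidHom).map (MulAut.conj h).toMonoidHom
      = A.map (MulAut.conj h).toMonoidHom := by
    rw [map_conj_map_conj, h2, h1]
  exact Subgroup.map_injective (MulAut.conj h).injective h3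

end Cfsg.Agent.S1178
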