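import Cfsg.Statements.S1184
import Cfsg.Agent.TwoFusion.Isolated
set_option linter.all false

set_option autoImplicit false
open Cfsg

namespace Cfsg.Agent.S1184

open Cfsg.Agent.TwoFusion

/-- Let z be an isolated involution of the finite group G. If s and t are distinct conjugates of z, then st does not commute with z. -/
theorem result {G : Type*} [Group G] [Finite G] (z : G) (hz : Cfsg.IsIsolatedInvolution z) (g h : G) (hne : g * z * g⁻¹ ≠ h * z * h⁻¹) : ¬ Commute (g * z * g⁻¹ * (h * z * h⁻¹)) z := by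
  intro hcom
  apply hne
  have hss : (g * z * g⁻¹) * (g * z * g⁻¹) = 1 := Isolated.mul_self (Isolated.conj hz g)
  have htt : (h * z * h⁻¹) * (h * z * h⁻¹) = 1 := Isolated.mul_self (Isolated.conj hz h)
  -- `y = s t` has odd order
  have hodd : Odd (orderOf (g * z * g⁻¹ * (h * z * h⁻¹))) := by
    have h1 := Isolated.odd_orderOf_conj_mul (Isolated.conj hz h) (g * h⁻¹)
    have h2 : g * h⁻¹ * (h * z * h⁻¹) * (g * h⁻¹)⁻¹ = g * z * g⁻¹ := by group
    rwa [h2] at h1
  have hodd2 : Odd (orderOf (h * z * h⁻¹ * z)) := Isolated.odd_orderOf_conj_mul hz h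
  -- `t` inverts `y`
  have hinv : (h * z * h⁻¹) * (g * z * g⁻¹ * (h * z * h⁻¹)) * (h * z * h⁻¹)⁻¹ =
      (g * z * g⁻¹ * (h * z * h⁻¹))⁻¹ := Isolated.inverts_mul htt hss
  revert hcom hss htt hodd hodd2 hinv
  generalize g * z * g⁻¹ = s
  generalize h * z * h⁻¹ = t
  intro hcom hss htt hodd hodd2 hinv
  -- `t z` inverts `y`
  have hy : t * z * (s * t) * (t * z)⁻¹ = (s * t)⁻¹ := by
    calc t * z * (s * t) * (t * z)⁻¹ = t * (z * (s * t) * z⁻¹) * t⁻¹ := by group
      _ = t * (s * t * z * z⁻¹) * t⁻¹ := by rw [hcom.eq]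
      _ = t * (s * t) * t⁻¹ := by group
      _ = (s * t)⁻¹ := hinv
  have h3 : (s * t)⁻¹ = s * t := Isolated.inv_eq_of_odd_inverts hodd2 hy
  have h6 : (s * t) ^ 2 = 1 ^ 2 := by
    rw [one_pow, pow_two]
    nth_rewrite 1 [← h3]
    exact inv_mul_cancel _
  have h7 : s * t = 1 := Isolated.eq_of_sq_eq_of_odd hodd (by simp) h6
  have h8 : s = t⁻¹ := eq_inv_of_mul_eq_one_left h7
  rw [h8]
  exact inv_eq_of_mul_eq_one_left htt

end Cfsg.Agent.S1184
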