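import Cfsg.Statements.S1188
import Cfsg.Agent.S0215
import Cfsg.Agent.S1180
set_option linter.all false

set_option autoImplicit false
open Cfsg

namespace Cfsg.Agent.S1188

/-- The soluble Z*-Theorem: let z be an isolated involution of the finite group G whose centralizer C_G(z) is solvable. Then z is central modulo O(G): every commutator z g z⁻¹ g⁻¹ lies in the largest normal subgroup of odd order. -/
theorem result {G : Type*} [Group G] [Finite G] (z : G) (hz : Cfsg.IsIsolatedInvolution z) (hsol : Group.IsSolvable ↥(Subgroup.centralizer ({z} : Set G))) : ∀ g : G, z * g * z⁻¹ * g⁻¹ ∈ Cfsg.oddCore G := by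
  classical
  have hf : Fact (Nat.Prime 2) := ⟨Nat.prime_two⟩
  have hzp : IsPGroup 2 (Subgroup.zpowers z) := by
    apply IsPGroup.of_card (n := 1)
    rw [Nat.card_zpowers, hz.1, pow_one]
  obtain ⟨P, hP⟩ := hzp.exists_le_sylow
  have hzP : z ∈ P := hP (Subgroup.mem_zpowers z)
  obtain ⟨N, hN, hodd, hNz⟩ := Cfsg.Agent.S0215.result P z hz.1 hzP
    (fun g hg => Cfsg.Agent.S1180.eq_of_conj_mem_isPGroup z hz P P.isPGroup' hzP g hg)
  intro g
  have hle : N ≤ Cfsg.oddCore G := by
    exact le_sSup ⟨hN, Nat.coprime_two_right.mpr hodd⟩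
  exact hle (hNz g)

end Cfsg.Agent.S1188
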