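import Cfsg.Statements.S1229
import Cfsg.Agent.TwoFusion.ElemCentSylow
set_option linter.all false

set_option autoImplicit false
open Cfsg

namespace Cfsg.Agent.S1229

/-- Let G be a finite group with a Sylow 2-subgroup T that is neither cyclic nor normal, such that the centralizer of every involution is an elementary abelian 2-group; put H = N_G(T) and X = G/H. Then G is triply transitive on X, an element fixing three distinct points of X is the identity, and T acts regularly on X minus the point H. -/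
theorem result {G : Type*} [Group G] [Finite G] (T : Sylow 2 G) (hnc : ¬ IsCyclic (T : Subgroup G)) (hnn : ¬ (T : Subgroup G).Normal) (hC : ∀ t : G, orderOf t = 2 → IsMulCommutative (Subgroup.centralizer ({t} : Set G)) ∧ ∀ c ∈ Subgroup.centralizer ({t} : Set G), c ^ 2 = 1) : (∀ x₁ x₂ x₃ y₁ y₂ y₃ : G ⧸ Subgroup.normalizer ((T : Subgroup G) : Set G), x₁ ≠ x₂ → x₁ ≠ x₃ → x₂ ≠ x₃ → y₁ ≠ y₂ → y₁ ≠ y₃ → y₂ ≠ y₃ → ∃ g : G, g • x₁ = y₁ ∧ g • x₂ = y₂ ∧ g • x₃ = y₃) ∧ (∀ g : G, ∀ x₁ x₂ x₃ : G ⧸ Subgroup.normalizer ((T : Subgroup G) : Set G), x₁ ≠ x₂ → x₁ ≠ x₃ → x₂ ≠ x₃ → g • x₁ = x₁ → g • x₂ = x₂ → g • x₃ = x₃ → g = 1) ∧ (∀ x y : G ⧸ Subgroup.normalizer ((T : Subgroup G) : Set G), x ≠ QuotientGroup.mk 1 → y ≠ QuotientGroup.mk 1 → ∃! t : G, t ∈ T ∧ t • x = y) := by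
  have c := Cfsg.Agent.TwoFusion.ElemCentSylow.ctx_of T hnc hnn hC
  have hst : Subgroup.normalizer ((T : Subgroup G) : Set G) = MulAction.stabilizer G T :=
    (Sylow.stabilizer_eq_normalizer T).symm
  rw [hst]
  let f := MulAction.ofQuotientStabilizer G T
  have hf : Function.Injective f := MulAction.injective_ofQuotientStabilizer G T
  have hfs : ∀ (g : G) x, f (g • x) = g • f x := fun g x => MulAction.ofQuotientStabilizer_smul G T g x
  have hf1 : f (QuotientGroup.mk 1) = T := one_smul G T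
  refine ⟨?_, ?_, ?_⟩
  · intro x₁ x₂ x₃ y₁ y₂ y₃ h12 h13 h23 k12 k13 k23
    obtain ⟨g, g1, g2, g3⟩ := c.three_transitive (f x₁) (f x₂) (f x₃) (f y₁) (f y₂) (f y₃)
      (hf.ne h12) (hf.ne h13) (hf.ne h23) (hf.ne k12) (hf.ne k13) (hf.ne k23)
    exact ⟨g, hf (by rw [hfs, g1]), hf (by rw [hfs, g2]), hf (by rw [hfs, g3])⟩
  · intro g x₁ x₂ x₃ h12 h13 h23 g1 g2 g3
    exact c.eq_one_of_fix_three (hf.ne h12) (hf.ne h13) (hf.ne h23)
      (by rw [← hfs, g1]) (by rw [← hfs, g2]) (by rw [← hfs, g3])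
  · intro x y hx hy
    have hx' : f x ≠ T := by rw [← hf1]; exact hf.ne hx
    have hy' : f y ≠ T := by rw [← hf1]; exact hf.ne hy
    obtain ⟨u, ⟨hu, hu2⟩, huniq⟩ := c.regular hx' hy'
    refine ⟨u, ⟨hu, hf (by rw [hfs, hu2])⟩, ?_⟩
    rintro v ⟨hv, hv2⟩
    exact huniq v ⟨hv, by rw [← hfs, hv2]⟩

end Cfsg.Agent.S1229
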