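import Cfsg.Statements.S1253
import Cfsg.Agent.TwoFusion.IsolatedSylow
import Cfsg.Agent.S1187
set_option linter.all false

set_option autoImplicit false
open Cfsg

namespace Cfsg.Agent.S1253

/-- Let z be an isolated involution of the finite group G with centralizer C, p an odd prime and P a Sylow p-subgroup of G normalized by z. Then P ∩ C has p-power-free index in C (it is a Sylow p-subgroup of C), and |P : C_P(z)| equals the number of elements x ∈ P with z x z⁻¹ = x⁻¹. -/
theorem result {G : Type*} [Group G] [Finite G] (z : G) (hz : Cfsg.IsIsolatedInvolution z) {p : ℕ} [Fact p.Prime] (hp : p ≠ 2) (P : Sylow p G) (hzP : z ∈ Subgroup.normalizer ((P : Subgroup G) : Set G)) : ¬ p ∣ ((P : Subgroup G) ⊓ Subgroup.centralizer ({z} : Set G)).relIndex (Subgroup.centralizer ({z} : Set G)) ∧ ((P : Subgroup G) ⊓ Subgroup.centralizer ({z} : Set G)).relIndex (P : Subgroup G) = Nat.card {x : G // x ∈ P ∧ z * x * z⁻¹ = x⁻¹} := by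
  constructor
  · obtain ⟨R⟩ : Nonempty (Sylow p (Subgroup.centralizer ({z} : Set G))) := inferInstance
    have hR : IsPGroup p ((R : Subgroup (Subgroup.centralizer ({z} : Set G))).map
        (Subgroup.centralizer ({z} : Set G)).subtype : Subgroup G) := R.isPGroup'.map _
    have hzR : z ∈ Subgroup.normalizer ((((R : Subgroup (Subgroup.centralizer ({z} : Set G))).map
        (Subgroup.centralizer ({z} : Set G)).subtype : Subgroup G)) : Set G) := by
      rw [Subgroup.mem_normalizer_iff]
      have key : ∀ x ∈ ((R : Subgroup (Subgroup.centralizer ({z} : Set G))).map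
          (Subgroup.centralizer ({z} : Set G)).subtype : Subgroup G), z * x = x * z := by
        intro x hx
        have h1 := Subgroup.map_subtype_le _ hx
        rw [Subgroup.mem_centralizer_singleton_iff] at h1
        exact h1.symm
      intro x
      constructor
      · intro hx
        rw [key x hx, mul_inv_cancel_right]
        exact hx
      · intro hx
        have h2 := key _ hx
        have h3 : z * x * z⁻¹ = x := by
          have h4 : z * (z * x * z⁻¹) = z * x := by rw [h2]; group
          exact mul_left_cancel h4
        rw [h3] at hx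
        exact hx
    obtain ⟨M, hRM, hM, hzM, hmax⟩ :=
      TwoFusion.IsolatedSylow.exists_le_maximal_invariant z _ hR hzR
    obtain ⟨Q, hQ⟩ := Cfsg.Agent.S1187.result z hz M hM hzM hmax
    refine TwoFusion.IsolatedSylow.not_dvd_relIndex_of_le_invariant hz P Q hzP ?_ R ?_
    · rw [hQ]; exact hzM
    · rw [hQ]; exact hRM
  · have hzz : z * z = 1 := by
      have := pow_orderOf_eq_one z
      rw [hz.1, pow_two] at this
      exact this
    have hodd : Odd (Nat.card (P : Subgroup G)) := by
      obtain ⟨n, hn⟩ := IsPGroup.iff_card.mp P.isPGroup'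
      have h2 : Nat.card (P : Subgroup G) = p ^ n := hn
      rw [h2]
      exact ((Fact.out : p.Prime).odd_of_ne_two hp).pow
    exact TwoFusion.IsolatedSylow.relIndex_centralizer_eq_card_inverted hzz _ hodd hzP

end Cfsg.Agent.S1253
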