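import Cfsg.Statements.S1256
import Cfsg.Agent.TwoFusion.DihedralFour
set_option linter.all false

set_option autoImplicit false
open Cfsg

namespace Cfsg.Agent.S1256

open Cfsg.Agent.TwoFusion.DihedralFour

/-- Let X be a finite group whose Sylow 2-subgroup S is dihedral of order 2m ≥ 4. If |S| = 4, any two Klein four-subgroups of X are conjugate; if |S| > 4, there are Klein four-subgroups U₁, U₂ of X that are not conjugate, and every Klein four-subgroup of X is conjugate to U₁ or to U₂. -/
theorem result {X : Type*} [Group X] [Finite X] (S : Sylow 2 X) (m : ℕ) (hm : 2 ≤ m) (eS : (S : Subgroup X) ≃* DihedralGroup m) : (Nat.card S = 4 → ∀ U V : Subgroup X, IsKleinFour U → IsKleinFour V → (∃ x : X, U.map (MulAut.conj x).toMonoidHom = V)) ∧ (4 < Nat.card S → ∃ U₁ U₂ : Subgroup X, IsKleinFour U₁ ∧ IsKleinFour U₂ ∧ ¬ (∃ x : X, U₁.map (MulAut.conj x).toMonoidHom = U₂) ∧ ∀ V : Subgroup X, IsKleinFour V → (∃ x : X, V.map (MulAut.conj x).toMonoidHom = U₁) ∨ (∃ x : X, V.map (MulAut.conj x).toMonoidHom = U₂))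 := by
  classical
  -- every 2-subgroup has a conjugate in `S`
  have hconjS : ∀ V : Subgroup X, IsKleinFour V →
      ∃ x : X, V.map (MulAut.conj x).toMonoidHom ≤ S := by
    intro V hV
    have hVp : IsPGroup 2 V := IsPGroup.of_card (n := 2) (by rw [hV.card_four]; norm_num)
    obtain ⟨Q, hQ⟩ := hVp.exists_le_sylow
    obtain ⟨x, hx⟩ := MulAction.exists_smul_eq X Q S
    refine ⟨x, ?_⟩
    rw [← hx, Sylow.coe_subgroup_smul]
    exact Subgroup.map_mono hQ
  constructor
  · intro h4 U V hU hV
    have key : ∀ W : Subgroup X, IsKleinFour W →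
        ∃ x : X, W.map (MulAut.conj x).toMonoidHom = S := by
      intro W hW
      obtain ⟨x, hx⟩ := hconjS W hW
      refine ⟨x, Subgroup.eq_of_le_of_card_ge hx ?_⟩
      rw [(isKleinFour_map_conj x W hW).card_four]
      exact h4.le
    obtain ⟨x, hx⟩ := key U hU
    obtain ⟨y, hy⟩ := key V hV
    refine ⟨y⁻¹ * x, ?_⟩
    rw [← map_conj_map_conj, hx, ← hy, map_conj_map_conj, inv_mul_cancel, map_conj_one]
  · intro h4
    have hcardS : Nat.card S = 2 * m := by
      rw [Nat.card_congr eS.toEquiv, DihedralGroup.nat_card]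
    have hm2 : 2 < m := by omega
    -- `m` is divisible by 4
    obtain ⟨k, hk⟩ := IsPGroup.iff_card.1 S.isPGroup'
    have hk' : 2 * m = 2 ^ k := by rw [← hcardS]; exact hk
    have hk3 : 3 ≤ k := by
      by_contra hcon
      have : k ≤ 2 := by omega
      have : 2 ^ k ≤ 2 ^ 2 := Nat.pow_le_pow_right (by norm_num) this
      omega
    obtain ⟨l, rfl⟩ := Nat.exists_eq_add_of_le hk3
    have hml : m = 2 * (2 * 2 ^ l) := by
      rw [pow_add] at hk'; omega
    obtain ⟨h, hh, hmh⟩ : ∃ h, 0 < h ∧ m = 2 * h := ⟨2 * 2 ^ l, by positivity, hml⟩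
    have hnz : NeZero m := ⟨by omega⟩
    let φ : DihedralGroup m →* X := (S : Subgroup X).subtype.comp eS.symm.toMonoidHom
    have hφ : Function.Injective φ :=
      (Subgroup.subtype_injective _).comp eS.symm.injective
    have hr : φ.range = S := by
      rw [MonoidHom.range_eq_map, ← Subgroup.map_map]
      have : Subgroup.map eS.symm.toMonoidHom ⊤ = ⊤ := by
        rw [← MonoidHom.range_eq_map, MonoidHom.range_eq_top]
        exact eS.symm.surjective
      rw [this, ← MonoidHom.range_eq_map, Subgroup.range_subtype]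
    have hKF : ∀ i, IsKleinFour ((K m h hmh i).map φ) := fun i =>
      isKleinFour_map φ hφ _ (isKleinFour_K hmh hh i)
    -- conjugation by `φ (r j)`
    have hconjK : ∀ i j, ((K m h hmh i).map φ).map
        (MulAut.conj (φ (DihedralGroup.r j))).toMonoidHom = (K m h hmh (i - 2 * j)).map φ := by
      intro i j
      rw [← K_map_conj, Subgroup.map_map, Subgroup.map_map]
      congr 1
      ext z
      simp only [MonoidHom.comp_apply, MulEquiv.coe_toMonoidHom, MulAut.conj_apply, map_mul,
        map_inv]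
    -- every four-group is conjugate to `K 0` or `K 1`
    have hK01 : ∀ i : ZMod m, ∃ x : X,
        ((K m h hmh i).map φ).map (MulAut.conj x).toMonoidHom = (K m h hmh 0).map φ ∨
        ((K m h hmh i).map φ).map (MulAut.conj x).toMonoidHom = (K m h hmh 1).map φ := by
      intro i
      obtain ⟨v, rfl⟩ : ∃ v : ℕ, (v : ZMod m) = i := ⟨i.val, ZMod.natCast_zmod_val i⟩
      rcases Nat.even_or_odd' v with ⟨c, hc | hc⟩
      · refine ⟨φ (DihedralGroup.r (c : ZMod m)), Or.inl ?_⟩
        rw [hconjK]
        congr 2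
        rw [hc]; push_cast; ring
      · refine ⟨φ (DihedralGroup.r (c : ZMod m)), Or.inr ?_⟩
        rw [hconjK]
        congr 2
        rw [hc]; push_cast; ring
    have hall : ∀ V : Subgroup X, IsKleinFour V →
        (∃ x : X, V.map (MulAut.conj x).toMonoidHom = (K m h hmh 0).map φ) ∨
        (∃ x : X, V.map (MulAut.conj x).toMonoidHom = (K m h hmh 1).map φ) := by
      intro V hV
      obtain ⟨x, hx⟩ := hconjS V hV
      have h1 := isKleinFour_map_conj x V hV
      set W := V.map (MulAut.conj x).toMonoidHom with hW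
      have h2 : (W.comap φ).map φ = W := by
        rw [Subgroup.map_comap_eq, hr]
        exact inf_eq_right.2 hx
      have h3 : IsKleinFour (W.comap φ) := by
        refine isKleinFour_of_mulEquiv ?_ h1
        have e1 := (W.comap φ).equivMapOfInjective φ hφ
        rw [h2] at e1
        exact e1.symm
      obtain ⟨i, hi⟩ := exists_eq_K hmh hh _ h3 (exists_sr_mem hmh hh _ h3)
      rw [hi] at h2
      obtain ⟨y, hy⟩ := hK01 i
      rw [h2, hW, map_conj_map_conj] at hy
      rcases hy with hy | hy
      · exact Or.inl ⟨_, hy⟩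
      · exact Or.inr ⟨_, hy⟩
    refine ⟨(K m h hmh 0).map φ, (K m h hmh 1).map φ, hKF 0, hKF 1, ?_, hall⟩
    rintro ⟨x, hx⟩
    set U := (K m h hmh 0).map φ with hU
    have hUall : ∀ i : ZMod m, ∃ g : X,
        U.map (MulAut.conj g).toMonoidHom = (K m h hmh i).map φ := by
      intro i
      obtain ⟨y, hy⟩ := hK01 i
      rcases hy with hy | hy
      · refine ⟨y⁻¹, ?_⟩
        rw [← hy, map_conj_map_conj, inv_mul_cancel, map_conj_one]
      · refine ⟨y⁻¹ * x, ?_⟩
        rw [← map_conj_map_conj, hx, ← hy, map_conj_map_conj, inv_mul_cancel, map_conj_one]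
    have hUp : IsPGroup 2 U := IsPGroup.of_card (n := 2) (by rw [(hKF 0).card_four]; norm_num)
    obtain ⟨b, hb, hcard⟩ := exists_odd_mul_card_normalizer S U hUp
    rw [card_cosets (S : Subgroup X) hmh hh φ hφ hr U (hKF 0) hUall] at hcard
    have h8 : 2 ^ 3 ∣ Nat.card X := by
      have h9 : Nat.card S ∣ Nat.card X := Subgroup.card_subgroup_dvd_card _
      refine dvd_trans ?_ h9
      rw [hcardS, hk']
      exact pow_dvd_pow 2 (by omega)
    have hcardU : Nat.card U = 2 ^ 2 := by rw [(hKF 0).card_four]; norm_num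
    have h10 : 2 ^ 3 ∣ Nat.card (Subgroup.normalizer (U : Set X)) :=
      Sylow.prime_pow_dvd_card_normalizer h8 hcardU
    obtain ⟨c, hc⟩ := h10
    rw [hc, hcardS, hmh] at hcard
    apply hb
    refine ⟨c, ?_⟩
    have h11 : h * (8 * c) = h * (4 * b) := by
      calc h * (8 * c) = 2 ^ 3 * c * h := by ring
        _ = 2 * (2 * h) * b := hcard
        _ = h * (4 * b) := by ring
    have h12 := Nat.eq_of_mul_eq_mul_left hh h11
    omega

end Cfsg.Agent.S1256
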