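import Mathlib
import Cfsg.Prelude.Def_Balance
import Cfsg.Agent.Lib.Cores
import Cfsg.Agent.SignalizersComponents.BalanceAux
import Cfsg.Statements.S1271
import Cfsg.Agent.S1270
import Cfsg.Agent.SignalizersComponents.BalanceCore
import Cfsg.Agent.SignalizersComponents.CoreOfCentralizer
set_option linter.all false

-- part: SignalizersComponents/BalanceNorm
section
/-!
# `O_{p'}(C_G(x))` is normalized by each `y` with `⁅y, x⁆ ∈ O_p(G)`

* `mem_normalizer_map_pPrimeCore`: an element normalizing `C` normalizes `O_{p'}(C)`;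
* `mem_normalizer_core`: for `x` of order `p`, `O_{p'}(C_G(x))` is normalized by every `y` with
  `⁅y, x⁆ ∈ O_p(G)`.
-/

set_option autoImplicit false

namespace Cfsg.Agent.SignalizersComponents.BalanceNorm

open Cfsg Subgroup
open scoped commutatorElement
open Cfsg.Agent.SignalizersComponents.BalanceAux
open Cfsg.Agent.SignalizersComponents.CoreOfCentralizer

variable {G : Type*} [Group G]

/-- An element normalizing `C` normalizes `O_{p'}(C)`. -/
theorem mem_normalizer_map_pPrimeCore (p : ℕ) {C : Subgroup G} {g : G}
    (hg : g ∈ normalizer (C : Set G)) :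
    g ∈ normalizer (((pPrimeCore p C).map C.subtype : Subgroup G) : Set G) := by
  have key : ∀ h ∈ normalizer (C : Set G), ∀ n ∈ (pPrimeCore p C).map C.subtype,
      h * n * h⁻¹ ∈ (pPrimeCore p C).map C.subtype := by
    rintro h hh _ ⟨y, hy, rfl⟩
    let e : C ≃* C := C.normalizerMonoidHom ⟨h, hh⟩
    have h1 := Lib.Cores.map_equiv_pPrimeCore e p
    have h2 : e y ∈ pPrimeCore p C := by
      rw [← h1]
      exact mem_map_of_mem _ hy
    exact ⟨e y, h2, rfl⟩
  rw [mem_normalizer_iff]
  intro n
  constructor
  · exact key g hg n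
  · intro hn
    have := key g⁻¹ (inv_mem hg) _ hn
    have h3 : g⁻¹ * (g * n * g⁻¹) * g⁻¹⁻¹ = n := by group
    rwa [h3] at this

/-- `O_{p'}(C_G(x))` is normalized by each `y` with `⁅y, x⁆ ∈ O_p(G)`. -/
theorem mem_normalizer_core [Finite G] (p : ℕ) [Fact p.Prime] (x : G) (hx : orderOf x = p)
    {y : G} (hy : ⁅y, x⁆ ∈ pCore p G) :
    y ∈ normalizer (centralizerPPrimeCore p x : Set G) := by
  have hN : (pCore p G).Normal := Lib.Cores.pCore_normal p
  have hDc := core_le_centralizer_pCore p x hx
  set Q : Subgroup G := pCore p G ⊔ zpowers x with hQ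
  set C : Subgroup G := centralizer (Q : Set G) with hC
  have hxQ : x ∈ Q := (le_sup_right : zpowers x ≤ Q) (mem_zpowers x)
  have hmemC : ∀ c : G, c ∈ C ↔ c ∈ centralizer (pCore p G : Set G) ∧
      c ∈ centralizer ({x} : Set G) := by
    intro c
    constructor
    · intro hc
      refine ⟨centralizer_le (le_sup_left : pCore p G ≤ Q) hc, ?_⟩
      rw [mem_centralizer_iff] at hc ⊢
      intro h hh
      rw [Set.mem_singleton_iff.mp hh]
      exact hc x hxQ
    · rintro ⟨h1, h2⟩
      have h3 : Q ≤ centralizer ({c} : Set G) := by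
        refine sup_le ?_ ?_
        · intro z hz
          rw [mem_centralizer_iff]
          intro h hh
          rw [Set.mem_singleton_iff.mp hh]
          exact (mem_centralizer_iff.mp h1 z hz).symm
        · rw [zpowers_le, mem_centralizer_iff]
          intro h hh
          rw [Set.mem_singleton_iff.mp hh]
          exact (mem_centralizer_iff.mp h2 x rfl).symm
      rw [mem_centralizer_iff]
      intro h hh
      exact (mem_centralizer_iff.mp (h3 hh) c rfl).symm
  -- elements that normalize `Q` normalize `C`
  have hnorm : ∀ g : G, ⁅g, x⁆ ∈ pCore p G → g ∈ normalizer (C : Set G) := by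
    have hstep : ∀ g : G, ⁅g, x⁆ ∈ pCore p G → ∀ c ∈ C, g * c * g⁻¹ ∈ C := by
      intro g hg c hc
      rw [hmemC] at hc ⊢
      obtain ⟨h1, h2⟩ := hc
      have h4 : g * c * g⁻¹ ∈ centralizer (pCore p G : Set G) :=
        (inferInstance : (centralizer (pCore p G : Set G)).Normal).conj_mem c h1 g
      refine ⟨h4, ?_⟩
      rw [mem_centralizer_iff]
      intro z hz
      rw [Set.mem_singleton_iff.mp hz]
      have h5 : x = ⁅g, x⁆⁻¹ * (g * x * g⁻¹) := by rw [commutatorElement_def]; group
      have h6 : Commute (g * x * g⁻¹) (g * c * g⁻¹) := by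
        have : Commute x c := mem_centralizer_iff.mp h2 x rfl
        exact (Commute.conj_iff g).mpr this
      have h7 : Commute ⁅g, x⁆ (g * c * g⁻¹) := mem_centralizer_iff.mp h4 _ hg
      have h8 : Commute x (g * c * g⁻¹) := by
        rw [h5]
        exact h7.inv_left.mul_left h6
      exact h8.eq
    intro g hg
    rw [mem_normalizer_iff]
    intro c
    refine ⟨hstep g hg c, fun hc => ?_⟩
    have h9 : ⁅g⁻¹, x⁆ ∈ pCore p G := by
      have : ⁅g⁻¹, x⁆ = g⁻¹ * ⁅g, x⁆⁻¹ * g⁻¹⁻¹ := by
        rw [commutatorElement_def, commutatorElement_def]; group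
      rw [this]
      exact hN.conj_mem _ (inv_mem hg) _
    have := hstep g⁻¹ h9 _ hc
    have h3 : g⁻¹ * (g * c * g⁻¹) * g⁻¹⁻¹ = c := by group
    rwa [h3] at this
  set D₁ : Subgroup G := (pPrimeCore p C).map C.subtype with hD₁
  have hD₁n : ∀ g : G, ⁅g, x⁆ ∈ pCore p G → g ∈ normalizer (D₁ : Set G) :=
    fun g hg => mem_normalizer_map_pPrimeCore p (hnorm g hg)
  have hD₁C : D₁ ≤ C := map_subtype_le _
  have hcx : ∀ c : G, c ∈ centralizer ({x} : Set G) → ⁅c, x⁆ ∈ pCore p G := by
    intro c hc
    have : ⁅c, x⁆ = 1 := commutatorElement_eq_one_iff_mul_comm.mpr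
      (mem_centralizer_iff.mp hc x rfl).symm
    rw [this]
    exact one_mem _
  have hcardD₁ : (Nat.card D₁).Coprime p := by
    have h1 : Nat.card D₁ = Nat.card (pPrimeCore p C) :=
      Nat.card_congr ((pPrimeCore p C).equivMapOfInjective _ (subtype_injective _)).symm.toEquiv
    rw [h1]
    exact Lib.Cores.pPrimeCore_coprime p
  have hDC : centralizerPPrimeCore p x ≤ C := fun d hd =>
    (hmemC d).mpr ⟨hDc hd, centralizerPPrimeCore_le p x hd⟩
  -- `D = D₁`
  have h1 : centralizerPPrimeCore p x ≤ D₁ := by
    have hn : ((centralizerPPrimeCore p x).subgroupOf C).Normal := by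
      apply normal_subgroupOf_of_le_normalizer
      intro c hc
      exact centralizer_le_normalizer_centralizerPPrimeCore p x ((hmemC c).mp hc).2
    have hc : (Nat.card ((centralizerPPrimeCore p x).subgroupOf C)).Coprime p := by
      rw [Nat.card_congr (subgroupOfEquivOfLe hDC).toEquiv]
      exact card_centralizerPPrimeCore_coprime p x
    have := Lib.Cores.le_pPrimeCore hn hc
    intro d hd
    exact ⟨⟨d, hDC hd⟩, this hd, rfl⟩
  have h2 : D₁ ≤ centralizerPPrimeCore p x :=
    le_centralizerPPrimeCore (fun d hd => ((hmemC d).mp (hD₁C hd)).2) hcardD₁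
      (fun c hc => hD₁n c (hcx c hc))
  rw [le_antisymm h1 h2]
  exact hD₁n y hy

end Cfsg.Agent.SignalizersComponents.BalanceNorm
end

-- part: S1271
section
set_option autoImplicit false
open Cfsg

namespace Cfsg.Agent.S1271

open Subgroup
open scoped commutatorElement
open SignalizersComponents.BalanceAux SignalizersComponents.BalanceCore
open SignalizersComponents.BalanceNorm SignalizersComponents.CoreOfCentralizer

/-- Let G be finite with O_{p'}(G) = 1. Suppose that for every component L of G and every subgroup H ≥ L in which L is normal, the quotient H / C_H(L) is balanced for the prime p. Then G is balanced for p. -/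
theorem result {G : Type*} [Group G] [Finite G] (p : ℕ) [Fact p.Prime] (hO : Cfsg.pPrimeCore p G = ⊥) (h : ∀ L : Subgroup G, Cfsg.IsComponent L → ∀ H : Subgroup G, L ≤ H → (L.subgroupOf H).Normal → ∀ [((Subgroup.centralizer (L : Set G)).subgroupOf H).Normal], Cfsg.IsBalancedFor p (↥H ⧸ (Subgroup.centralizer (L : Set G)).subgroupOf H)) : Cfsg.IsBalancedFor p G := by
  intro x hx
  have hp : p.Prime := Fact.out
  have hcop := card_centralizerPPrimeCore_coprime p x
  have hxD : ∀ d ∈ centralizerPPrimeCore p x, x * d = d * x := fun d hd =>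
    mem_centralizer_iff.mp (centralizerPPrimeCore_le p x hd) x rfl
  rw [hO, le_bot_iff]
  apply eq_bot_of_le_centralizer_components p hO _ hcop (core_le_centralizer_pCore p x hx)
  intro K hK
  by_cases hne : ⁅K, zpowers x⁆ = K
  · -- `x` normalizes `K` and acts nontrivially on it
    have hxK : x ∈ normalizer (K : Set G) := mem_normalizer_of_commutator_eq hne
    have hDK := core_le_normalizer_component p hO x hx K hK
    have hDn := centralizer_le_normalizer_centralizerPPrimeCore p x
    have hDy : ∀ y : G, ⁅y, x⁆ ∈ pCore p G →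
        y ∈ normalizer (centralizerPPrimeCore p x : Set G) := fun y hy =>
      mem_normalizer_core p x hx hy
    set D := centralizerPPrimeCore p x with hDdef
    set A : Subgroup G := centralizer ({x} : Set G) ⊓ normalizer (K : Set G) with hA
    have hxA : x ∈ A := ⟨mem_centralizer_singleton_iff.mpr rfl, hxK⟩
    have hDA : D ≤ A := le_inf (centralizerPPrimeCore_le p x) hDK
    set H : Subgroup G := K ⊔ A with hH
    have hKH : K ≤ H := le_sup_left
    have hAH : A ≤ H := le_sup_right
    have hDH : D ≤ H := hDA.trans hAH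
    have hxH : x ∈ H := hAH hxA
    have hHn : H ≤ normalizer (K : Set G) := sup_le le_normalizer inf_le_right
    have hn : (K.subgroupOf H).Normal := normal_subgroupOf_of_le_normalizer hHn
    have hC : ((centralizer (K : Set G)).subgroupOf H).Normal :=
      centralizer_subgroupOf_normal hHn
    have hbal := h K hK H hKH hn
    have hbot := pPrimeCore_quotient_centralizer_eq_bot p hO hK hKH hn
    set C := (centralizer (K : Set G)).subgroupOf H with hCdef
    have hord : orderOf (QuotientGroup.mk' C ⟨x, hxH⟩) = p := by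
      apply orderOf_eq_prime
      · rw [← map_pow]
        have : (⟨x, hxH⟩ : H) ^ p = 1 := by
          apply Subtype.ext
          show x ^ p = 1
          rw [← hx]
          exact pow_orderOf_eq_one x
        rw [this, map_one]
      · intro h1
        have h1' : (⟨x, hxH⟩ : H) ∈ C := (QuotientGroup.eq_one_iff (⟨x, hxH⟩ : H)).mp h1
        have h2 : x ∈ centralizer (K : Set G) := h1'
        have h3 : ⁅K, zpowers x⁆ = ⊥ := by
          rw [commutator_comm, commutator_eq_bot_iff_le_centralizer, zpowers_le]
          exact h2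
        rw [h3] at hne
        exact SignalizersComponents.Components.component_ne_bot hK hne.symm
    have h1 := hbal _ hord
    rw [hbot, le_bot_iff] at h1
    -- the image `M` of `D`
    set M : Subgroup (H ⧸ C) := (D.subgroupOf H).map (QuotientGroup.mk' C) with hM
    have hMle : M ≤ centralizerPPrimeCore p (QuotientGroup.mk' C ⟨x, hxH⟩) := by
      apply le_centralizerPPrimeCore
      · rintro _ ⟨d, hd, rfl⟩
        rw [mem_centralizer_singleton_iff, ← map_mul, ← map_mul]
        congr 1
        exact Subtype.ext (hxD d hd).symm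
      · refine Nat.Coprime.coprime_dvd_left (card_map_dvd _ _) ?_
        rw [Nat.card_congr (subgroupOfEquivOfLe hDH).toEquiv]
        exact hcop
      · intro c hc
        obtain ⟨g, rfl⟩ := QuotientGroup.mk'_surjective C c
        rw [mem_centralizer_singleton_iff, ← map_mul, ← map_mul] at hc
        -- `g` normalizes `D`
        have hg : (g : G) ∈ normalizer (D : Set G) := by
          have h2 : (g : G) ∈ ((K ⊔ A : Subgroup G) : Set G) := g.2
          rw [sup_comm, coe_mul_of_left_le_normalizer_right A K inf_le_right] at h2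
          obtain ⟨a, ha, k, hk, hak⟩ := h2
          have ha1 : a * x = x * a := mem_centralizer_singleton_iff.mp ha.1
          have h3 : (⟨x, hxH⟩ * g)⁻¹ * (g * ⟨x, hxH⟩) ∈ C := QuotientGroup.eq.mp hc.symm
          have h4 : (x * (g : G))⁻¹ * (g * x) ∈ centralizer (K : Set G) := h3
          have h5 : (x * (g : G))⁻¹ * (g * x) = k⁻¹ * (x⁻¹ * k * x) := by
            rw [← hak]
            calc (x * (a * k))⁻¹ * (a * k * x) = k⁻¹ * ((x * a)⁻¹ * a * k * x) := by group
              _ = k⁻¹ * ((a * x)⁻¹ * a * k * x) := by rw [ha1]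
              _ = k⁻¹ * (x⁻¹ * k * x) := by group
          rw [h5] at h4
          have h6 : k⁻¹ * (x⁻¹ * k * x) ∈ K := by
            refine mul_mem (inv_mem hk) ?_
            have := (mem_normalizer_iff.mp (inv_mem hxK) k).mp hk
            rwa [inv_inv] at this
          have h7 := center_component_le_pCore p hO hK ⟨h6, h4⟩
          have hN : (pCore p G).Normal := Lib.Cores.pCore_normal p
          have h8 : ⁅k, x⁆ = (x * k) * (k⁻¹ * (x⁻¹ * k * x)) * (x * k)⁻¹ := by
            rw [commutatorElement_def]; group
          have h9 : k ∈ normalizer (D : Set G) := by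
            apply hDy
            rw [h8]
            exact hN.conj_mem _ h7 _
          rw [← hak]
          exact mul_mem (hDn ha.1) h9
        have key : ∀ g : H, (g : G) ∈ normalizer (D : Set G) → ∀ m ∈ M,
            QuotientGroup.mk' C g * m * (QuotientGroup.mk' C g)⁻¹ ∈ M := by
          rintro g hg _ ⟨d, hd, rfl⟩
          rw [← map_inv, ← map_mul, ← map_mul]
          exact ⟨g * d * g⁻¹, (mem_normalizer_iff.mp hg d).mp hd, rfl⟩
        rw [mem_normalizer_iff]
        intro m
        refine ⟨key g hg m, fun hm => ?_⟩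
        have h2 := key g⁻¹ (inv_mem hg) _ hm
        have h3 : QuotientGroup.mk' C g⁻¹ * (QuotientGroup.mk' C g * m *
            (QuotientGroup.mk' C g)⁻¹) * (QuotientGroup.mk' C g⁻¹)⁻¹ = m := by
          rw [map_inv]; group
        rwa [h3] at h2
    intro d hd
    have h2 : QuotientGroup.mk' C ⟨d, hDH hd⟩ ∈ M := ⟨⟨d, hDH hd⟩, hd, rfl⟩
    have h3 := hMle h2
    rw [h1, mem_bot] at h3
    exact (QuotientGroup.eq_one_iff (⟨d, hDH hd⟩ : H)).mp h3
  · have h1 := S1270.result p hO x hx K hK hne
    rw [commutator_comm, commutator_eq_bot_iff_le_centralizer] at h1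
    exact h1

end Cfsg.Agent.S1271
end
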