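import Cfsg.Statements.S1275
import Cfsg.Agent.SignalizersComponents.PCompQuot
set_option linter.all false

set_option autoImplicit false
open Cfsg

namespace Cfsg.Agent.S1275

/-- For a 2-component K of a finite group X, the quotient of K by its core O(K) is quasisimple. -/
theorem result {X : Type*} [Group X] [Finite X] (K : Subgroup X) (hK : Cfsg.IsPComponent 2 K) : Cfsg.IsQuasisimple (↥K ⧸ Cfsg.oddCore ↥K) :=
  Cfsg.Agent.SignalizersComponents.PCompQuot.quasisimple_quotient hK

end Cfsg.Agent.S1275
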