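import Cfsg.Statements.S1276
import Cfsg.Agent.SignalizersComponents.PCompQuot
set_option linter.all false

set_option autoImplicit false
open Cfsg

namespace Cfsg.Agent.S1276

/-- Let K be a 2-component of the finite group X. Then K is quasisimple if and only if ⁅K, O(K)⁆ = 1. -/
theorem result {X : Type*} [Group X] [Finite X] (K : Subgroup X) (hK : Cfsg.IsPComponent 2 K) : Cfsg.IsQuasisimple ↥K ↔ ⁅K, ((Cfsg.oddCore ↥K).map K.subtype)⁆ = ⊥ :=
  Cfsg.Agent.SignalizersComponents.PCompQuot.quasisimple_iff_commutator hK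

end Cfsg.Agent.S1276
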