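import Cfsg.Statements.S1277
import Cfsg.Agent.Lib.PComponents
import Cfsg.Agent.SignalizersComponents.ComponentImage
set_option linter.all false

set_option autoImplicit false
open Cfsg

namespace Cfsg.Agent.S1277

/-- For a finite group X with core O(X): the image of E(X) in X / O(X) is all of E(X / O(X)) if and only if every 2-component of X is a component, i.e. L_{2'}(X) ≤ E(X). -/
theorem result {X : Type*} [Group X] [Finite X] : (Cfsg.layer X).map (QuotientGroup.mk' (Cfsg.oddCore X)) = Cfsg.layer (X ⧸ Cfsg.oddCore X) ↔ Cfsg.pLayer 2 X ≤ Cfsg.layer X := by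
  have hp : Fact (Nat.Prime 2) := ⟨Nat.prime_two⟩
  have hsurj := QuotientGroup.mk'_surjective (Cfsg.oddCore X)
  have hmap : (Cfsg.pLayer 2 X).map (QuotientGroup.mk' (Cfsg.oddCore X)) =
      Cfsg.layer (X ⧸ Cfsg.oddCore X) := Cfsg.Agent.Lib.PComponents.map_pLayer
  constructor
  · intro h
    refine sSup_le fun K hK => ?_
    have hKc : Cfsg.IsComponent (K.map (QuotientGroup.mk' (Cfsg.oddCore X))) := hK.2.1
    have hle : K.map (QuotientGroup.mk' (Cfsg.oddCore X)) ≤
        (Cfsg.layer X).map (QuotientGroup.mk' (Cfsg.oddCore X)) := by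
      rw [h]
      exact le_sSup hKc
    obtain ⟨L, hL, hLK⟩ :=
      Cfsg.Agent.SignalizersComponents.ComponentImage.exists_component_map_eq hsurj hKc hle
    have hne : L.map (QuotientGroup.mk' (Cfsg.oddCore X)) ≠ ⊥ := by
      rw [hLK]
      intro h0
      apply Cfsg.Agent.SignalizersComponents.ComponentImage.commutator_ne_bot hKc
      rw [h0, Subgroup.commutator_bot_left]
    have hL2 : Cfsg.IsPComponent 2 L :=
      Cfsg.Agent.SignalizersComponents.ComponentImage.isPComponent_of_isComponent hL hne
    rw [Cfsg.Agent.Lib.PComponents.pcomp_unique hK hL2 hLK.symm]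
    exact le_sSup hL
  · intro h
    apply le_antisymm
    · exact Cfsg.Agent.SignalizersComponents.ComponentImage.map_layer_le hsurj
    · rw [← hmap]
      exact Subgroup.map_mono h

end Cfsg.Agent.S1277
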