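import Cfsg.Statements.S1278
import Cfsg.Agent.Lib.PComponents
set_option linter.all false

set_option autoImplicit false
open Cfsg

namespace Cfsg.Agent.S1278

open Cfsg.Agent.Lib Cfsg.Agent.Lib.PComponents Cfsg.Agent.Lib.ComponentSolvable

/-- Let K ≠ L be 2-components of the finite group X. Then ⁅K, L⁆ ≤ O(K) ⊓ O(L), and if K is quasisimple then ⁅K, L⁆ = 1. -/
theorem result {X : Type*} [Group X] [Finite X] (K L : Subgroup X) (hK : Cfsg.IsPComponent 2 K) (hL : Cfsg.IsPComponent 2 L) (hne : K ≠ L) : ⁅K, L⁆ ≤ ((Cfsg.oddCore ↥K).map K.subtype) ⊓ ((Cfsg.oddCore ↥L).map L.subtype) ∧ (Cfsg.IsQuasisimple ↥K → ⁅K, L⁆ = ⊥) := by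
  have hp : Fact (Nat.Prime 2) := ⟨Nat.prime_two⟩
  have h1 : ⁅K, L⁆ ≤ pPrimeCore 2 X := commutator_pcomp_le_core hK hL hne
  have h2 : ⁅K, L⁆ ≤ K := Subgroup.le_normalizer_iff_commutator_le_left.mp
    (pcomp_le_normalizer hL hK)
  have h3 : ⁅K, L⁆ ≤ L := Subgroup.le_normalizer_iff_commutator_le_right.mp
    (pcomp_le_normalizer hK hL)
  have h4 : ⁅K, L⁆ ≤ (Cfsg.oddCore ↥K).map K.subtype :=
    (le_inf h2 h1).trans (inf_pPrimeCore_le K)
  refine ⟨le_inf h4 ((le_inf h3 h1).trans (inf_pPrimeCore_le L)), fun hq => ?_⟩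
  have h5 : Cfsg.oddCore ↥K ≤ Subgroup.center K := by
    rcases quasisimple_normal_cases hq (inferInstance : (Cfsg.oddCore ↥K).Normal) with h | h
    · exfalso
      have hc := Cores.pPrimeCore_coprime (G := K) 2
      have h6 : pPrimeCore 2 K = ⊤ := h
      rw [h6, Nat.card_congr (Subgroup.topEquiv (G := K)).toEquiv] at hc
      exact Nat.not_coprime_of_dvd_of_dvd one_lt_two (prime_dvd_card_pcomp hK) dvd_rfl hc
    · exact h
  rw [Subgroup.commutator_comm]
  apply commutator_eq_bot_of_perfect hq.1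
  rw [Subgroup.commutator_eq_bot_iff_le_centralizer, Subgroup.commutator_comm]
  intro x hx
  obtain ⟨y, hy, rfl⟩ := h4 hx
  rw [Subgroup.mem_centralizer_iff]
  intro k hk
  exact congrArg Subtype.val (Subgroup.mem_center_iff.mp (h5 hy) ⟨k, hk⟩)

end Cfsg.Agent.S1278
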