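import Cfsg.Statements.S1284
import Cfsg.Agent.SignalizersComponents.SignalizerMax
set_option linter.all false

set_option autoImplicit false
open Cfsg

namespace Cfsg.Agent.S1284

/-- Let θ be a solvable A-signalizer functor on the finite group G, A elementary abelian of rank at least 3, q a prime dividing some |θ a|, and Q maximal among the q-subgroups in the family of θ. Then (a) for every member H of the family, some c in the intersection of the θ a (a ∈ A non-identity) makes c Q c⁻¹ ∩ H a Sylow q-subgroup of H; and (b) for every nontrivial subgroup B ≤ A, C_Q(B) is a Sylow q-subgroup of the intersection of the θ b over the non-identity b ∈ B. -/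
theorem result {G : Type*} [Group G] [Finite G] (p : ℕ) [Fact p.Prime] (A : Subgroup G) (hA : Cfsg.IsElementaryAbelian p A) (hA3 : p ^ 3 ≤ Nat.card ↥A) (θ : G → Subgroup G) (hθ : Cfsg.IsSolvableSignalizerFunctor p A θ) (q : ℕ) [Fact q.Prime] (hq : ∃ a ∈ A, a ≠ 1 ∧ q ∣ Nat.card ↥(θ a)) (Q : Subgroup G) (hQW : Q ∈ Cfsg.signalizerFamily p A θ) (hQq : IsPGroup q ↥Q) (hQmax : ∀ R ∈ Cfsg.signalizerFamily p A θ, IsPGroup q ↥R → Q ≤ R → R = Q) : (∀ H : Subgroup G, H ∈ Cfsg.signalizerFamily p A θ → ∃ c ∈ Cfsg.signalizerInf A θ, ∃ S : Sylow q ↥H, (S : Subgroup ↥H).map H.subtype = Q.map (MulAut.conj c).toMonoidHom ⊓ H) ∧ (∀ B : Subgroup G, B ≤ A → B ≠ ⊥ → ∃ S : Sylow q ↥(Cfsg.signalizerInf B θ), (S : Subgroup ↥(Cfsg.signalizerInf B θ)).map (Cfsg.signalizerInf B θ).subtype = Q ⊓ Subgroup.centralizer (B : Set G)) := by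
  have hQ : SignalizersComponents.SignalizerMax.IsMaxQ p A θ q Q := ⟨hQW, hQq, hQmax⟩
  have hAp := SignalizersComponents.SignalizerMax.isPGroup_of_isElementaryAbelian hA
  have key : ∀ H : Subgroup G, H ∈ Cfsg.signalizerFamily p A θ → ∃ c ∈ Cfsg.signalizerInf A θ,
      ∃ S : Sylow q ↥H, (S : Subgroup ↥H).map H.subtype = Q.map (MulAut.conj c).toMonoidHom ⊓ H := by
    intro H hH
    obtain ⟨T, hT, hAT⟩ := Lib.PGroupCoprimeAction.exists_invariant_sylow hAp hH.2.1 hH.2.2.1 q
    have hT' := Blocks.SylowIn.exists_sylow_map_eq_iff.mp hT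
    obtain ⟨S, hS, hTS⟩ := SignalizersComponents.SignalizerMax.exists_isMaxQ_ge
      (SignalizersComponents.SignalizerMax.mem_family_of_le hH hT'.1 hAT) hT'.2.1
    obtain ⟨c, hc, hcQ⟩ := SignalizersComponents.SignalizerMax.transitivity hA hA3 hθ hQ hS
    refine ⟨c, hc, ?_⟩
    rw [hcQ]
    have h1 : S ⊓ H = T := hT'.2.2 (S ⊓ H) inf_le_right (hS.2.1.to_le inf_le_left) (le_inf hTS hT'.1)
    rw [h1]
    exact hT
  refine ⟨key, fun B hBA hB => ?_⟩
  -- `⋂_{b ∈ B} θ b` is a member of the family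
  obtain ⟨b, hb, hb1⟩ : ∃ b ∈ B, b ≠ 1 := by
    by_contra hcon
    push Not at hcon
    exact hB ((Subgroup.eq_bot_iff_forall B).mpr hcon)
  have hinf : Cfsg.signalizerInf B θ ∈ Cfsg.signalizerFamily p A θ := by
    refine SignalizersComponents.SignalizerMax.mem_family_of_le
      (SignalizersComponents.SignalizerMax.theta_mem_family hθ (hBA hb) hb1) ?_ ?_
    · intro x hx
      exact SignalizersComponents.SignalizerMax.mem_inf_iff.mp hx b hb hb1
    · intro c hc u hu
      rw [SignalizersComponents.SignalizerMax.mem_inf_iff] at hu ⊢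
      intro d hd hd1
      exact hθ.1.2.2.1 d (hBA hd) hd1 c hc u (hu d hd hd1)
  obtain ⟨c, hc, hS⟩ := key _ hinf
  -- `c` lies in the intersection over `A`, hence in the intersection over `B`
  have hcB : c ∈ Cfsg.signalizerInf B θ := by
    rw [SignalizersComponents.SignalizerMax.mem_inf_iff]
    intro d hd hd1
    exact SignalizersComponents.SignalizerMax.mem_inf_iff.mp hc d (hBA hd) hd1
  have hQB : Q ⊓ Cfsg.signalizerInf B θ = Q ⊓ Subgroup.centralizer (B : Set G) := by
    ext x
    constructor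
    · rintro ⟨hx, hxB⟩
      refine ⟨hx, ?_⟩
      change x ∈ Subgroup.centralizer (B : Set G)
      rw [Subgroup.mem_centralizer_iff]
      intro d hd
      by_cases hd1 : d = 1
      · rw [hd1]; simp
      · exact Subgroup.mem_centralizer_iff.mp (hθ.1.1 d (hBA hd) hd1
          (SignalizersComponents.SignalizerMax.mem_inf_iff.mp hxB d hd hd1)) d (by simp)
    · rintro ⟨hx, hxB⟩
      refine ⟨hx, ?_⟩
      change x ∈ Cfsg.signalizerInf B θ
      rw [SignalizersComponents.SignalizerMax.mem_inf_iff]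
      intro d hd hd1
      refine hQW.2.2.2 d (hBA hd) hd1 ⟨hx, ?_⟩
      change x ∈ Subgroup.centralizer ({d} : Set G)
      rw [Subgroup.mem_centralizer_iff]
      intro y hy
      rw [Set.mem_singleton_iff.mp hy]
      exact Subgroup.mem_centralizer_iff.mp hxB d hd
  rw [← hQB]
  rw [Blocks.SylowIn.exists_sylow_map_eq_iff] at hS ⊢
  obtain ⟨-, h2, h3⟩ := hS
  refine ⟨inf_le_right, hQq.to_le inf_le_left, ?_⟩
  intro R hRB hRq hle
  have hconj : (Cfsg.signalizerInf B θ).map (MulAut.conj c).toMonoidHom = Cfsg.signalizerInf B θ := by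
    ext x
    constructor
    · rintro ⟨y, hy, rfl⟩
      exact mul_mem (mul_mem hcB hy) (inv_mem hcB)
    · intro hx
      refine ⟨c⁻¹ * x * c, mul_mem (mul_mem (inv_mem hcB) hx) hcB, ?_⟩
      change c * (c⁻¹ * x * c) * c⁻¹ = x
      group
  have h4 := h3 (R.map (MulAut.conj c).toMonoidHom) (by
    rw [← hconj]
    exact Subgroup.map_mono hRB) (hRq.map _) (by
    have h5 := Subgroup.map_mono (f := (MulAut.conj c).toMonoidHom) hle
    rw [Subgroup.map_inf _ _ _ (MulAut.conj c).injective, hconj] at h5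
    exact h5)
  have h6 : (Q ⊓ Cfsg.signalizerInf B θ).map (MulAut.conj c).toMonoidHom =
      Q.map (MulAut.conj c).toMonoidHom ⊓ Cfsg.signalizerInf B θ := by
    rw [Subgroup.map_inf _ _ _ (MulAut.conj c).injective, hconj]
  rw [← h6] at h4
  exact Subgroup.map_injective (MulAut.conj c).injective h4

end Cfsg.Agent.S1284
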