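import Mathlib
import Cfsg.Statements.S1286
set_option linter.all false

set_option autoImplicit false
open Cfsg

namespace Cfsg.Agent.S1286

/-- The symmetric group of degree 5. -/
abbrev X : Type := Equiv.Perm (Fin 5)

/-- A finite set of permutations closed under multiplication and inversion, as a subgroup. -/
def sg (F : Finset X) (h1 : (1 : X) ∈ F) (hm : ∀ a ∈ F, ∀ b ∈ F, a * b ∈ F)
    (hi : ∀ a ∈ F, a⁻¹ ∈ F) : Subgroup X where
  carrier := {x | x ∈ F}
  mul_mem' := fun {a b} ha hb => hm a ha b hb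
  one_mem' := h1
  inv_mem' := fun {a} ha => hi a ha

theorem mem_sg {F : Finset X} {h1 : (1 : X) ∈ F} {hm : ∀ a ∈ F, ∀ b ∈ F, a * b ∈ F}
    {hi : ∀ a ∈ F, a⁻¹ ∈ F} {x : X} : x ∈ sg F h1 hm hi ↔ x ∈ F := Iff.rfl

theorem card_sg {F : Finset X} {h1 : (1 : X) ∈ F} {hm : ∀ a ∈ F, ∀ b ∈ F, a * b ∈ F}
    {hi : ∀ a ∈ F, a⁻¹ ∈ F} : Nat.card ↥(sg F h1 hm hi) = F.card := by
  show Nat.card {x : X // x ∈ F} = F.card
  rw [Nat.card_eq_fintype_card, Fintype.card_coe]

/-- The transposition (0 1). -/
def s : X := Equiv.swap 0 1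
/-- The transposition (2 3). -/
def t : X := Equiv.swap 2 3
/-- A 3-cycle on {2,3,4}. -/
def x : X := Equiv.swap 2 3 * Equiv.swap 3 4
/-- A 3-cycle on {0,1,4}. -/
def y : X := Equiv.swap 0 1 * Equiv.swap 1 4

def FA : Finset X := {1, s, t, s * t}
def FP : Finset X := {1, x, x * x}
def FQ : Finset X := {1, y, y * y}

/-- The four-group. -/
def A : Subgroup X := sg FA (by decide +kernel) (by decide +kernel) (by decide +kernel)
/-- The value of the functor at (0 1). -/
def P : Subgroup X := sg FP (by decide +kernel) (by decide +kernel) (by decide +kernel)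
/-- The value of the functor at (2 3). -/
def Q : Subgroup X := sg FQ (by decide +kernel) (by decide +kernel) (by decide +kernel)

/-- The functor. -/
def θ (g : X) : Subgroup X := if g = s then P else if g = t then Q else ⊥

theorem mem_A {g : X} : g ∈ A ↔ g ∈ FA := Iff.rfl
theorem mem_P {g : X} : g ∈ P ↔ g ∈ FP := Iff.rfl
theorem mem_Q {g : X} : g ∈ Q ↔ g ∈ FQ := Iff.rfl

theorem θ_s : θ s = P := by unfold θ; rw [if_pos rfl]
theorem θ_t : θ t = Q := by
  unfold θ; rw [if_neg (by decide +kernel), if_pos rfl]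
theorem θ_st : θ (s * t) = ⊥ := by
  unfold θ; rw [if_neg (by decide +kernel), if_neg (by decide +kernel)]

theorem mem_centralizer_singleton {g h : X} : g ∈ Subgroup.centralizer ({h} : Set X) ↔ h * g = g * h := by
  rw [Subgroup.mem_centralizer_iff]
  simp

theorem card_A : Nat.card ↥A = 4 := by
  refine (card_sg (F := FA)).trans ?_; decide +kernel
theorem card_P : Nat.card ↥P = 3 := by
  refine (card_sg (F := FP)).trans ?_; decide +kernel
theorem card_Q : Nat.card ↥Q = 3 := by
  refine (card_sg (F := FQ)).trans ?_; decide +kernel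

theorem cases_A {a : X} (ha : a ∈ A) (h1 : a ≠ 1) : a = s ∨ a = t ∨ a = s * t := by
  have : a ∈ FA := ha
  simp only [FA, Finset.mem_insert, Finset.mem_singleton] at this
  tauto

theorem solv_P : Group.IsSolvable ↥P :=
  Group.isSolvable_of_comm fun a b => Subtype.ext (by
    have h : ∀ a ∈ FP, ∀ b ∈ FP, a * b = b * a := by decide +kernel
    exact h a a.2 b b.2)
theorem solv_Q : Group.IsSolvable ↥Q :=
  Group.isSolvable_of_comm fun a b => Subtype.ext (by
    have h : ∀ a ∈ FQ, ∀ b ∈ FQ, a * b = b * a := by decide +kernel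
    exact h a a.2 b b.2)

theorem functor : IsSignalizerFunctor 2 A θ := by
  refine ⟨?_, ?_, ?_, ?_⟩
  · intro a ha h1
    rcases cases_A ha h1 with rfl | rfl | rfl
    · rw [θ_s]
      intro g hg
      rw [mem_centralizer_singleton]
      have h : ∀ g ∈ FP, s * g = g * s := by decide +kernel
      exact h g hg
    · rw [θ_t]
      intro g hg
      rw [mem_centralizer_singleton]
      have h : ∀ g ∈ FQ, t * g = g * t := by decide +kernel
      exact h g hg
    · rw [θ_st]; exact bot_le
  · intro a ha h1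
    rcases cases_A ha h1 with rfl | rfl | rfl
    · rw [θ_s, card_P]; decide +kernel
    · rw [θ_t, card_Q]; decide +kernel
    · rw [θ_st, Subgroup.card_bot]; decide +kernel
  · intro a ha h1 b hb g hg
    rcases cases_A ha h1 with rfl | rfl | rfl
    · rw [θ_s] at hg ⊢
      have h : ∀ b ∈ FA, ∀ g ∈ FP, b * g * b⁻¹ ∈ FP := by decide +kernel
      exact h b hb g hg
    · rw [θ_t] at hg ⊢
      have h : ∀ b ∈ FA, ∀ g ∈ FQ, b * g * b⁻¹ ∈ FQ := by decide +kernel
      exact h b hb g hg
    · rw [θ_st] at hg ⊢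
      rw [Subgroup.mem_bot] at hg ⊢
      rw [hg]; group
  · intro a ha h1 b hb hb1 g hg
    obtain ⟨hg1, hg2⟩ := hg
    replace hg2 : b * g = g * b := mem_centralizer_singleton.mp hg2
    replace hg1 : g ∈ θ a := hg1
    rcases cases_A ha h1 with rfl | rfl | rfl
    · rw [θ_s] at hg1
      rcases cases_A hb hb1 with rfl | rfl | rfl
      · rw [θ_s]; exact hg1
      · have h : ∀ g ∈ FP, t * g = g * t → g = 1 := by decide +kernel
        rw [h g hg1 hg2]; exact one_mem _
      · have h : ∀ g ∈ FP, (s * t) * g = g * (s * t) → g = 1 := by decide +kernel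
        rw [h g hg1 hg2]; exact one_mem _
    · rw [θ_t] at hg1
      rcases cases_A hb hb1 with rfl | rfl | rfl
      · have h : ∀ g ∈ FQ, s * g = g * s → g = 1 := by decide +kernel
        rw [h g hg1 hg2]; exact one_mem _
      · rw [θ_t]; exact hg1
      · have h : ∀ g ∈ FQ, (s * t) * g = g * (s * t) → g = 1 := by decide +kernel
        rw [h g hg1 hg2]; exact one_mem _
    · rw [θ_st] at hg1
      rw [(Subgroup.mem_bot.mp hg1)]; exact one_mem _

theorem not_complete : ¬ IsCompleteSignalizerFunctor 2 A θ := by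
  rintro ⟨-, W, -, hW, hc⟩
  have hs : s ∈ A := by rw [mem_A]; decide +kernel
  have ht : t ∈ A := by rw [mem_A]; decide +kernel
  have hx : x ∈ W := by
    have h : x ∈ θ s := by rw [θ_s, mem_P]; decide +kernel
    rw [← hc s hs (by decide +kernel)] at h
    exact h.1
  have hy : y ∈ W := by
    have h : y ∈ θ t := by rw [θ_t, mem_Q]; decide +kernel
    rw [← hc t ht (by decide +kernel)] at h
    exact h.1
  have hmem : x * y * x * y⁻¹ ∈ W :=
    W.mul_mem (W.mul_mem (W.mul_mem hx hy) hx) (W.inv_mem hy)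
  have h2 : (x * y * x * y⁻¹) ^ 2 = 1 := by decide +kernel
  have h3 : x * y * x * y⁻¹ ≠ 1 := by decide +kernel
  have h4 : orderOf (x * y * x * y⁻¹) = 2 := orderOf_eq_prime h2 h3
  apply hW
  have h5 : orderOf (⟨_, hmem⟩ : W) ∣ Nat.card W := orderOf_dvd_natCard _
  rwa [Subgroup.orderOf_mk, h4] at h5

/-- There exist a finite group X, an elementary abelian subgroup A of order 4 and a solvable A-signalizer functor θ on X for the prime 2 which is not complete. -/
theorem result : ∃ (X : Type) (_ : Group X) (_ : Finite X) (A : Subgroup X) (θ : X → Subgroup X), Cfsg.IsElementaryAbelian 2 A ∧ Nat.card ↥A = 4 ∧ Cfsg.IsSolvableSignalizerFunctor 2 A θ ∧ ¬ Cfsg.IsCompleteSignalizerFunctor 2 A θ := by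
  refine ⟨X, inferInstance, inferInstance, A, θ, ⟨⟨⟨?_⟩⟩, ?_⟩, card_A, ⟨functor, ?_⟩, not_complete⟩
  · intro a b
    apply Subtype.ext
    have h : ∀ a ∈ FA, ∀ b ∈ FA, a * b = b * a := by decide +kernel
    exact h a a.2 b b.2
  · have h : ∀ a ∈ FA, a ^ 2 = 1 := by decide +kernel
    exact h
  · intro a ha h1
    rcases cases_A ha h1 with rfl | rfl | rfl
    · rw [θ_s]; exact solv_P
    · rw [θ_t]; exact solv_Q
    · rw [θ_st]; infer_instance

end Cfsg.Agent.S1286
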