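import Cfsg.Statements.S1297
import Cfsg.Agent.SignalizersComponents.BalanceDelta
set_option linter.all false

set_option autoImplicit false
open Cfsg

namespace Cfsg.Agent.S1297

/-- Let G be finite. Suppose that for every involution x, writing C = C_G(x), every component K of C / O(C) has K / Z(K) locally balanced. Then G is balanced. -/
theorem result {G : Type*} [Group G] [Finite G] (h : ∀ x : G, orderOf x = 2 → ∀ K : Subgroup (↥(Subgroup.centralizer ({x} : Set G)) ⧸ Cfsg.oddCore ↥(Subgroup.centralizer ({x} : Set G))), Cfsg.IsComponent K → Cfsg.IsLocallyBalanced (↥K ⧸ Subgroup.center ↥K)) : Cfsg.IsBalanced G := by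
  have : Fact (Nat.Prime 2) := ⟨Nat.prime_two⟩
  have hkb : Cfsg.IsKBalanced 2 1 G := by
    apply SignalizersComponents.BalanceDelta.isKBalanced_of_local 2 1 le_rfl
    intro x hx K hK H hH A hA hAc
    have h1 := h x hx K hK H hH
    rw [pow_one] at hAc
    have h2 : A ≠ ⊥ := by
      intro h2
      rw [h2, Subgroup.card_bot] at hAc
      omega
    obtain ⟨a, ha, ha1⟩ := (Subgroup.bot_or_exists_ne_one A).resolve_left h2
    have h3 := h1 a (orderOf_eq_prime (hA.2 a ha) ha1)
    rw [eq_bot_iff, ← h3]
    exact iInf_le (fun a : {a : ↥H // a ∈ A ∧ a ≠ 1} => Cfsg.centralizerPPrimeCore 2 (a : ↥H))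
      ⟨a, ha, ha1⟩
  have key : ∀ x y : G, orderOf x = 2 → orderOf y = 2 → x * y = y * x →
      Cfsg.centralizerPPrimeCore 2 x ⊓ Subgroup.centralizer {y} ≤
        Cfsg.centralizerPPrimeCore 2 y := by
    intro x y hx hy hxy
    have h1 := hkb (Subgroup.zpowers x) (by
      constructor
      · infer_instance
      · intro a ha
        obtain ⟨n, rfl⟩ := Subgroup.mem_zpowers_iff.mp ha
        have hx2 : x ^ 2 = 1 := hx ▸ pow_orderOf_eq_one x
        rw [← zpow_natCast, ← zpow_mul, mul_comm, zpow_mul, zpow_natCast, hx2, one_zpow])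
      (by rw [Nat.card_zpowers, hx, pow_one]) y hy (by
        intro a ha
        obtain ⟨n, rfl⟩ := Subgroup.mem_zpowers_iff.mp ha
        exact (Commute.zpow_left hxy n))
    refine le_trans (inf_le_inf_right _ ?_) h1
    unfold Cfsg.signalizerDelta
    refine le_iInf ?_
    rintro ⟨a, ha, ha1⟩
    obtain ⟨n, rfl⟩ := Subgroup.mem_zpowers_iff.mp ha
    have h2 : x ^ n = x := by
      have hx2 : x ^ (2 : ℤ) = 1 := by
        have := pow_orderOf_eq_one x
        rw [hx] at this
        exact_mod_cast this
      rcases Int.even_or_odd' n with ⟨m, hm | hm⟩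
      · exfalso
        apply ha1
        rw [hm, zpow_mul, hx2, one_zpow]
      · rw [hm, zpow_add, zpow_mul, hx2, one_zpow, one_mul, zpow_one]
    show Cfsg.centralizerPPrimeCore 2 x ≤ Cfsg.centralizerPPrimeCore 2 (x ^ n)
    rw [h2]
  intro x y hx hy hxy
  apply le_antisymm
  · refine le_inf (key x y hx hy hxy) (inf_le_left.trans ?_)
    exact SignalizersComponents.CoreOfCentralizer.centralizerPPrimeCore_le 2 x
  · refine le_inf (key y x hy hx hxy.symm) (inf_le_left.trans ?_)
    exact SignalizersComponents.CoreOfCentralizer.centralizerPPrimeCore_le 2 y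

end Cfsg.Agent.S1297
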