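import Mathlib
import Cfsg.Statements.S1300
set_option linter.all false
-- import your own Cfsg.Agent.* helpers here

set_option autoImplicit false
open Cfsg

namespace Cfsg.Agent.S1300

/-- `O_{p'}(C_G(x)) ≤ C_G(x)`. -/
theorem core_le {G : Type*} [Group G] (p : ℕ) (x : G) :
    centralizerPPrimeCore p x ≤ Subgroup.centralizer ({x} : Set G) := by
  rintro _ ⟨y, -, rfl⟩
  exact y.2

/-- For a finite group G, balance in the sense of commuting involutions is the same as 1-balance for the prime 2. -/
theorem result {G : Type*} [Group G] [Finite G] : Cfsg.IsBalanced G ↔ Cfsg.IsKBalanced 2 1 G := by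
  constructor
  · intro h A hA hcard b hb hAb
    have hne : ∃ a ∈ A, a ≠ 1 := by
      by_contra hcon
      push Not at hcon
      have hbot : A = ⊥ := by
        rw [Subgroup.eq_bot_iff_forall]
        exact hcon
      rw [hbot, Subgroup.card_bot] at hcard
      norm_num at hcard
    obtain ⟨a, haA, ha1⟩ := hne
    have ha2 : orderOf a = 2 := orderOf_eq_prime (hA.2 a haA) ha1
    have h1 := h a b ha2 hb (hAb a haA)
    intro x hx
    have hx1 : x ∈ centralizerPPrimeCore 2 a := by
      have := (Subgroup.mem_iInf.mp hx.1) ⟨a, haA, ha1⟩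
      exact this
    have hx2 : x ∈ centralizerPPrimeCore 2 a ⊓ Subgroup.centralizer {b} := ⟨hx1, hx.2⟩
    rw [h1] at hx2
    exact hx2.1
  · intro h
    have key : ∀ x y : G, orderOf x = 2 → orderOf y = 2 → x * y = y * x →
        centralizerPPrimeCore 2 x ⊓ Subgroup.centralizer {y} ≤
          centralizerPPrimeCore 2 y ⊓ Subgroup.centralizer {x} := by
      intro x y hx hy hxy
      have hmem : ∀ a ∈ Subgroup.zpowers x, a = 1 ∨ a = x := by
        intro a ha
        rw [Subgroup.mem_zpowers_iff] at ha
        obtain ⟨k, rfl⟩ := ha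
        have hx2 : x ^ (2 : ℕ) = 1 := by rw [← hx]; exact pow_orderOf_eq_one x
        rcases Int.even_or_odd' k with ⟨m, rfl | rfl⟩
        · left
          rw [zpow_mul, zpow_ofNat, hx2, one_zpow]
        · right
          rw [zpow_add, zpow_mul, zpow_ofNat, hx2, one_zpow, one_mul, zpow_one]
      have hA : IsElementaryAbelian 2 (Subgroup.zpowers x) := by
        refine ⟨inferInstance, ?_⟩
        intro a ha
        rcases hmem a ha with rfl | rfl
        · exact one_pow 2
        · rw [← hx]; exact pow_orderOf_eq_one _
      have hcard : Nat.card (Subgroup.zpowers x) = 2 ^ 1 := by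
        rw [Nat.card_zpowers, hx]; norm_num
      have hcomm : ∀ a ∈ Subgroup.zpowers x, a * y = y * a := by
        intro a ha
        rcases hmem a ha with rfl | rfl
        · rw [one_mul, mul_one]
        · exact hxy
      have h1 := h _ hA hcard y hy hcomm
      intro g hg
      refine ⟨h1 ⟨?_, hg.2⟩, core_le 2 x hg.1⟩
      refine Subgroup.mem_iInf.mpr ?_
      rintro ⟨a, ha, ha1⟩
      rcases hmem a ha with rfl | rfl
      · exact absurd rfl ha1
      · exact hg.1
    intro x y hx hy hxy
    exact le_antisymm (key x y hx hy hxy) (key y x hy hx hxy.symm)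

end Cfsg.Agent.S1300
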