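import Cfsg.Statements.S1316
import Mathlib
import Cfsg.Agent.SignalizersComponents.LayerBasic
set_option linter.all false

set_option autoImplicit false
open Cfsg

namespace Cfsg.Agent.S1316

theorem commutator_sup_le {G : Type*} [Group G] (E D : Subgroup G) (hE : E.Normal) :
    ⁅E ⊔ D, E ⊔ D⁆ ≤ E ⊔ ⁅D, D⁆ := by
  have h : (⁅E ⊔ D, E ⊔ D⁆).map (QuotientGroup.mk' E) = (⁅D, D⁆).map (QuotientGroup.mk' E) := by
    rw [Subgroup.map_commutator, Subgroup.map_commutator, Subgroup.map_sup]
    have : E.map (QuotientGroup.mk' E) = ⊥ := by
      rw [Subgroup.map_eq_bot_iff, QuotientGroup.ker_mk']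
    rw [this, bot_sup_eq]
  have h2 := (Subgroup.map_le_iff_le_comap.mp h.le)
  rw [Subgroup.comap_map_eq, QuotientGroup.ker_mk', sup_comm ⁅D, D⁆] at h2
  exact h2

/-- For a finite group X, E(X) equals the intersection of the derived series of F*(X) (its last term). -/
theorem result {X : Type*} [Group X] [Finite X] : (⨅ n : ℕ, (derivedSeries ↥(Cfsg.generalizedFittingSubgroup X) n).map (Cfsg.generalizedFittingSubgroup X).subtype) = Cfsg.layer X := by
  have hn : (Cfsg.layer X).Normal := SignalizersComponents.LayerBasic.layer_normal X
  refine le_antisymm ?_ (le_iInf ?_)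
  · have key : ∀ n : ℕ, (derivedSeries ↥(Cfsg.generalizedFittingSubgroup X) n).map
        (Cfsg.generalizedFittingSubgroup X).subtype ≤
        Cfsg.layer X ⊔ (derivedSeries ↥(Cfsg.fittingSubgroup X) n).map
          (Cfsg.fittingSubgroup X).subtype := by
      intro n
      induction n with
      | zero =>
        rw [derivedSeries_zero, derivedSeries_zero, ← MonoidHom.range_eq_map,
          ← MonoidHom.range_eq_map, Subgroup.range_subtype, Subgroup.range_subtype]
        exact le_rfl
      | succ n ih =>
        rw [derivedSeries_succ, derivedSeries_succ, Subgroup.map_commutator,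
          Subgroup.map_commutator]
        exact (Subgroup.commutator_mono ih ih).trans (commutator_sup_le _ _ hn)
    obtain ⟨n, hs⟩ :=
      SignalizersComponents.LayerBasic.fittingSubgroup_isSolvable X
    refine (iInf_le _ n).trans ((key n).trans ?_)
    rw [hs, Subgroup.map_bot, sup_bot_eq]
  · intro n
    induction n with
    | zero =>
      rw [derivedSeries_zero, ← MonoidHom.range_eq_map, Subgroup.range_subtype]
      exact le_sup_left
    | succ n ih =>
      rw [derivedSeries_succ, Subgroup.map_commutator]
      exact (SignalizersComponents.LayerBasic.layer_perfect X).ge.trans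
        (Subgroup.commutator_mono ih ih)

end Cfsg.Agent.S1316
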