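import Cfsg.Statements.S1321
import Cfsg.Agent.SignalizersComponents.Components
set_option linter.all false

set_option autoImplicit false
open Cfsg

namespace Cfsg.Agent.S1321

open Cfsg.Agent.SignalizersComponents.Components in
/-- Let X be finite and U ≤ X. Then E(X) is generated by C_{E(X)}(U) together with ⁅E(X), U⁆ (indeed it is their product, ⁅E(X), U⁆ being normal in E(X)). -/
theorem result {X : Type*} [Group X] [Finite X] (U : Subgroup X) : Cfsg.layer X = (Cfsg.layer X ⊓ Subgroup.centralizer (U : Set X)) ⊔ ⁅Cfsg.layer X, U⁆ ∧ ⁅Cfsg.layer X, U⁆ ≤ Cfsg.layer X := by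
  have hle : ⁅Cfsg.layer X, U⁆ ≤ Cfsg.layer X := by
    have := layer_normal X
    exact Subgroup.commutator_le_left _ _
  refine ⟨le_antisymm ?_ (sup_le inf_le_left hle), hle⟩
  rw [layer_le_iff]
  intro K hK
  have hKE : K ≤ Cfsg.layer X := component_le_layer hK
  rcases component_le_or_commutator_eq_bot_of_le_normalizer hK
    (hKE.trans (Subgroup.normalizer_commutator_ge_left (Cfsg.layer X) U)) with h | h
  · exact h.trans le_sup_right
  · refine le_trans (le_inf hKE ?_) le_sup_left
    rw [← Subgroup.commutator_eq_bot_iff_le_centralizer, Subgroup.commutator_comm]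
    refine commutator_eq_bot_of_commutator_commutator_eq_bot hK.2.1 ?_
    rw [Subgroup.commutator_comm U K, Subgroup.commutator_comm, eq_bot_iff, ← h]
    exact Subgroup.commutator_mono le_rfl (Subgroup.commutator_mono hKE le_rfl)

end Cfsg.Agent.S1321
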