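import Cfsg.Statements.S1326
import Cfsg.Agent.SignalizersComponents.ComponentExists
import Cfsg.Agent.SignalizersComponents.FStarPCore
set_option linter.all false

set_option autoImplicit false
open Cfsg

namespace Cfsg.Agent.S1326

/-- For a finite group X: the Fitting subgroup contains its centralizer if and only if the layer of X is trivial. -/
theorem result {X : Type*} [Group X] [Finite X] : Subgroup.centralizer (Cfsg.fittingSubgroup X : Set X) ≤ Cfsg.fittingSubgroup X ↔ Cfsg.layer X = ⊥ := by
  constructor
  · intro h
    have h1 := Cfsg.Agent.SignalizersComponents.ComponentExists.fittingSubgroup_normal X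
    have h2 : Group.IsNilpotent (Cfsg.fittingSubgroup X) :=
      Cfsg.Agent.Lib.Cores.fittingSubgroup_isNilpotent
    exact Cfsg.Agent.SignalizersComponents.FStarPCore.layer_eq_bot_of_centralizer_le h1
      inferInstance h
  · exact Cfsg.Agent.SignalizersComponents.ComponentExists.centralizer_fitting_le_of_layer_eq_bot

end Cfsg.Agent.S1326
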