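import Cfsg.Statements.S1328
import Cfsg.Agent.SignalizersComponents.OddFixed
import Cfsg.Agent.Lib.ThompsonPQ
set_option linter.all false

set_option autoImplicit false
open Cfsg

namespace Cfsg.Agent.S1328

open Subgroup
open scoped Pointwise

/-- Let G be finite, H ≤ G with O(H) = 1, t an involution of G normalizing H, and Y a nontrivial subgroup of O(C_H(t)). Then some component E of H is normalized by t and by Y and centralized by neither t nor Y. -/
theorem result {G : Type*} [Group G] [Finite G] (H : Subgroup G) (hO : Cfsg.oddCore ↥H = ⊥) (t : G) (ht : orderOf t = 2) (htH : t ∈ Subgroup.normalizer (H : Set G)) (Y : Subgroup G) (hY1 : Y ≠ ⊥) (hY : Y ≤ (Cfsg.oddCore ↥(H ⊓ Subgroup.centralizer ({t} : Set G))).map (H ⊓ Subgroup.centralizer ({t} : Set G)).subtype) : ∃ E : Subgroup ↥H, Cfsg.IsComponent E ∧ (E.map H.subtype).map (MulAut.conj t).toMonoidHom = E.map H.subtype ∧ Y ≤ Subgroup.normalizer ((E.map H.subtype : Subgroup G) : Set G) ∧ ¬ (t ∈ Subgroup.centralizer ((E.map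 H.subtype : Subgroup G) : Set G)) ∧ ¬ (Y ≤ Subgroup.centralizer ((E.map H.subtype : Subgroup G) : Set G)) := by
  have ht2 : t * t = 1 := by
    rw [← pow_two, ← ht, pow_orderOf_eq_one]
  have htinv : t⁻¹ = t := inv_eq_of_mul_eq_one_left ht2
  have htmem : ∀ x, t * x * t⁻¹ ∈ H ↔ x ∈ H := fun x => (mem_normalizer_iff.mp htH x).symm
  -- the automorphism of `H` induced by `t`
  let τ : MulAut H :=
    { toFun := fun x => ⟨t * x * t⁻¹, (htmem x).mpr x.2⟩
      invFun := fun x => ⟨t * x * t⁻¹, (htmem x).mpr x.2⟩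
      left_inv := fun x => by
        ext
        change t * (t * (x : G) * t⁻¹) * t⁻¹ = x
        rw [htinv]
        calc t * (t * (x : G) * t) * t = (t * t) * x * (t * t) := by group
          _ = x := by rw [ht2]; group
      right_inv := fun x => by
        ext
        change t * (t * (x : G) * t⁻¹) * t⁻¹ = x
        rw [htinv]
        calc t * (t * (x : G) * t) * t = (t * t) * x * (t * t) := by group
          _ = x := by rw [ht2]; group
      map_mul' := fun x y => by
        ext
        change t * ((x : G) * y) * t⁻¹ = (t * x * t⁻¹) * (t * y * t⁻¹)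
        group }
  have hτdef : ∀ x : H, ((τ x : H) : G) = t * x * t⁻¹ := fun x => rfl
  have hτ : ∀ x, τ (τ x) = x := τ.left_inv
  have hτfix : ∀ x : H, τ x = x ↔ (x : G) * t = t * x := by
    intro x
    rw [Subtype.ext_iff, hτdef, mul_inv_eq_iff_eq_mul]
    exact eq_comm
  -- the group `D`
  let C : Subgroup G := H ⊓ centralizer ({t} : Set G)
  let DG : Subgroup G := (oddCore ↥C).map C.subtype
  have hDGC : DG ≤ C := map_subtype_le _
  have hDGH : DG ≤ H := hDGC.trans inf_le_left
  have hDGt : ∀ d ∈ DG, d * t = t * d := by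
    intro d hd
    have := mem_centralizer_iff.mp (hDGC hd).2 t rfl
    exact this.symm
  have hmemC : ∀ c : H, τ c = c → (c : G) ∈ C := by
    intro c hc
    refine Subgroup.mem_inf.mpr ⟨c.2, ?_⟩
    rw [mem_centralizer_iff]
    intro s hs
    rw [Set.mem_singleton_iff.mp hs]
    exact ((hτfix c).mp hc).symm
  have hDGn : ∀ c ∈ C, ∀ d ∈ DG, c * d * c⁻¹ ∈ DG := by
    rintro c hc _ ⟨d, hd, rfl⟩
    exact ⟨⟨c, hc⟩ * d * ⟨c, hc⟩⁻¹, (Lib.Cores.pPrimeCore_normal 2).conj_mem d hd _, rfl⟩
  have hDGp : (Nat.card DG).Coprime 2 := by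
    have h1 : Nat.card DG = Nat.card (oddCore ↥C) :=
      Nat.card_congr ((oddCore ↥C).equivMapOfInjective _ (subtype_injective _)).symm.toEquiv
    rw [h1]
    exact Lib.Cores.pPrimeCore_coprime 2
  let D : Subgroup H := DG.subgroupOf H
  have hDp : (Nat.card D).Coprime 2 := by
    have h1 : Nat.card D = Nat.card DG := Nat.card_congr (subgroupOfEquivOfLe hDGH).toEquiv
    rw [h1]
    exact hDGp
  have hDτ : ∀ d ∈ D, τ d = d := by
    intro d hd
    rw [hτfix]
    exact hDGt _ hd
  have hDn : ∀ c : H, τ c = c → ∀ d ∈ D, c * d * c⁻¹ ∈ D := by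
    intro c hc d hd
    exact hDGn _ (hmemC c hc) _ hd
  -- `D` centralizes `O_2(H)`
  have hDU : ∀ d ∈ D, ∀ u ∈ pCore 2 H, Commute d u := by
    have hchar := Lib.Cores.pCore_characteristic (G := H) 2
    have hnorm := Lib.Cores.pCore_normal (G := H) 2
    let U : Subgroup G := (pCore 2 H).map H.subtype
    have hUp : IsPGroup 2 U := (Lib.Cores.pCore_isPGroup (G := H) 2).map _
    have htU : t ∈ normalizer (U : Set G) := by
      have h1 : ∀ u ∈ U, t * u * t⁻¹ ∈ U := by
        rintro _ ⟨u, hu, rfl⟩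
        refine ⟨τ u, ?_, rfl⟩
        have h2 := (characteristic_iff_map_le.mp hchar) τ
        exact h2 (mem_map_of_mem _ hu)
      rw [mem_normalizer_iff]
      intro u
      refine ⟨h1 u, fun hu => ?_⟩
      have h2 := h1 _ hu
      have h3 : t * (t * u * t⁻¹) * t⁻¹ = u := by
        rw [htinv]
        calc t * (t * u * t) * t = (t * t) * u * (t * t) := by group
          _ = u := by rw [ht2]; group
      rwa [h3] at h2
    have hHU : H ≤ normalizer (U : Set G) := by
      have h1 := le_normalizer_map (H := pCore 2 H) H.subtype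
      rw [Subgroup.normalizer_eq_top_iff.mpr hnorm, ← MonoidHom.range_eq_map, range_subtype] at h1
      exact h1
    have hPQ : zpowers t ≤ centralizer (DG : Set G) := by
      rw [zpowers_le, mem_centralizer_iff]
      intro d hd
      exact hDGt d hd
    have hP2 : IsPGroup 2 (zpowers t) := by
      apply IsPGroup.of_card (n := 1)
      rw [Nat.card_zpowers, ht, pow_one]
    have key := Lib.ThompsonPQ.thompson_p_times_q 2 (zpowers t) DG U hP2 hDGp hUp hPQ
      (by rw [zpowers_le]; exact htU) (hDGH.trans hHU) ?_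
    · intro d hd u hu
      have h1 : (u : G) ∈ U := ⟨u, hu, rfl⟩
      have h2 := mem_centralizer_iff.mp (key hd) (u : G) h1
      apply Subtype.ext
      exact h2.symm
    · rintro u ⟨huU, huC⟩
      rw [mem_centralizer_iff]
      intro d hd
      have hut : t * u = u * t := mem_centralizer_iff.mp huC t (mem_zpowers t)
      have huH : u ∈ H := (map_subtype_le _ : U ≤ H) huU
      have huCC : u ∈ C := by
        refine Subgroup.mem_inf.mpr ⟨huH, ?_⟩
        rw [mem_centralizer_iff]
        intro s hs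
        rw [Set.mem_singleton_iff.mp hs]
        exact hut
      have h1 : u * d * u⁻¹ * d⁻¹ ∈ DG := mul_mem (hDGn u huCC d hd) (inv_mem hd)
      have h2 : u * d * u⁻¹ * d⁻¹ ∈ U := by
        have h3 : d * u⁻¹ * d⁻¹ ∈ U := (mem_normalizer_iff.mp (hHU (hDGH hd)) _).mp (inv_mem huU)
        have h4 := mul_mem huU h3
        have h5 : u * (d * u⁻¹ * d⁻¹) = u * d * u⁻¹ * d⁻¹ := by group
        rwa [h5] at h4
      obtain ⟨n, hn⟩ := hUp ⟨_, h2⟩
      have h6 := SignalizersComponents.OddFixed.eq_one_of_mem_of_pow hDGp h1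
        (congrArg Subtype.val hn)
      rw [mul_inv_eq_one, mul_inv_eq_iff_eq_mul] at h6
      exact h6.symm
  -- the subgroup `Y` of `H`
  have hYD : Y.subgroupOf H ≤ D := fun y hy => hY hy
  have hYH : Y ≤ H := hY.trans hDGH
  have hYne : Y.subgroupOf H ≠ ⊥ := by
    intro h
    apply hY1
    have h1 := congrArg (Subgroup.map H.subtype) h
    rwa [map_subgroupOf_eq_of_le hYH, Subgroup.map_bot] at h1
  obtain ⟨E, hE, hτE, hYE, ⟨e, he, hte⟩, ⟨y, hy, f, hf, hyf⟩⟩ :=
    SignalizersComponents.OddFixed.exists_component hO τ hτ hDτ hDn hDp hDU hYD hYne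
  have hmapτ : ∀ x ∈ E, τ x ∈ E := by
    intro x hx
    have := SignalizersComponents.OddFixed.mem_smul_of_mem τ hx
    rwa [hτE] at this
  refine ⟨E, hE, ?_, ?_, ?_, ?_⟩
  · apply le_antisymm
    · rintro _ ⟨_, ⟨x, hx, rfl⟩, rfl⟩
      exact ⟨τ x, hmapτ x hx, rfl⟩
    · rintro _ ⟨x, hx, rfl⟩
      refine ⟨_, ⟨τ x, hmapτ x hx, rfl⟩, ?_⟩
      have h1 := congrArg (Subtype.val) (hτ x)
      exact h1
  · have h1 : ∀ y ∈ Y, ∀ x ∈ E.map H.subtype, y * x * y⁻¹ ∈ E.map H.subtype := by
      rintro y hy _ ⟨x, hx, rfl⟩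
      have h2 := SignalizersComponents.OddFixed.conj_mem_smul (⟨y, hYH hy⟩ : H) hx
      rw [hYE ⟨y, hYH hy⟩ hy] at h2
      exact ⟨_, h2, rfl⟩
    intro y hy
    rw [mem_normalizer_iff]
    intro x
    refine ⟨h1 y hy x, fun hx => ?_⟩
    have h2 := h1 y⁻¹ (inv_mem hy) _ hx
    have h3 : y⁻¹ * (y * x * y⁻¹) * y⁻¹⁻¹ = x := by group
    rwa [h3] at h2
  · intro h
    apply hte
    rw [hτfix]
    exact mem_centralizer_iff.mp h (e : G) ⟨e, he, rfl⟩
  · intro h
    apply hyf
    have h1 := mem_centralizer_iff.mp (h hy) (f : G) ⟨f, hf, rfl⟩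
    ext
    exact h1.symm

end Cfsg.Agent.S1328
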