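import Cfsg.Statements.S1331
import Cfsg.Agent.Lib.CoprimeHyperplane
set_option linter.all false

set_option autoImplicit false
open Cfsg

namespace Cfsg.Agent.S1331

theorem isElementaryAbelian_mono {G : Type*} [Group G] {p : ℕ} {A B : Subgroup G}
    (hA : Cfsg.IsElementaryAbelian p A) (hB : B ≤ A) : Cfsg.IsElementaryAbelian p B := by
  refine ⟨⟨⟨fun x y => ?_⟩⟩, fun a ha => hA.2 a (hB ha)⟩
  have h2 := hA.1.is_comm.comm ⟨x.1, hB x.2⟩ ⟨y.1, hB y.2⟩
  have h3 : (x : G) * y = y * x := congrArg (Subtype.val : A → G) h2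
  exact Subtype.ext h3

theorem le_normalizer_of_conj {G : Type*} [Group G] {A X : Subgroup G}
    (h : ∀ b ∈ A, ∀ u ∈ X, b * u * b⁻¹ ∈ X) : A ≤ Subgroup.normalizer (X : Set G) := by
  intro b hb
  rw [Subgroup.mem_normalizer_iff]
  intro u
  refine ⟨fun hu => h b hb u hu, fun hu => ?_⟩
  have := h b⁻¹ (A.inv_mem hb) _ hu
  simpa [mul_assoc] using this

/-- Let θ be a solvable A-signalizer functor on the finite group G for the prime p, A elementary abelian of rank at least 3, X a member of the family of θ, and B ≤ A with |B| ≥ p². Then X is generated by the subgroups X ∩ ⋂_{d ∈ D, d ≠ 1} θ d, D ranging over the subgroups of index p in B. -/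
theorem result {G : Type*} [Group G] [Finite G] (p : ℕ) [Fact p.Prime] (A : Subgroup G) (hA : Cfsg.IsElementaryAbelian p A) (hA3 : p ^ 3 ≤ Nat.card ↥A) (θ : G → Subgroup G) (hθ : Cfsg.IsSolvableSignalizerFunctor p A θ) (X : Subgroup G) (hX : X ∈ Cfsg.signalizerFamily p A θ) (B : Subgroup G) (hB : B ≤ A) (hB2 : p ^ 2 ≤ Nat.card ↥B) : X = ⨆ D : {D : Subgroup G // D ≤ B ∧ D.relIndex B = p}, X ⊓ Cfsg.signalizerInf (D : Subgroup G) θ := by
  have hp : p.Prime := Fact.out
  obtain ⟨hXs, hXp, hXA, hXθ⟩ := hX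
  have hB1 : B ≠ ⊥ := by
    rintro rfl
    rw [Subgroup.card_bot] at hB2
    have := Nat.one_lt_pow (n := 2) (by norm_num) hp.one_lt
    omega
  have hcop : (Nat.card X).Coprime p := ((Nat.Prime.coprime_iff_not_dvd hp).mpr hXp).symm
  have hBX : B ≤ Subgroup.normalizer (X : Set G) := hB.trans (le_normalizer_of_conj hXA)
  apply le_antisymm
  · conv_lhs => rw [Cfsg.Agent.Lib.CoprimeHyperplane.le_iSup_hyperplane B X
      (isElementaryAbelian_mono hA hB) hB1 hcop hBX]
    refine iSup_le fun D => ?_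
    refine le_trans ?_ (le_iSup (fun D : {D : Subgroup G // D ≤ B ∧ D.relIndex B = p} =>
      X ⊓ Cfsg.signalizerInf (D : Subgroup G) θ) D)
    refine le_inf inf_le_left ?_
    refine le_iInf fun a => ?_
    refine le_trans ?_ (hXθ a.1 (hB (D.2.1 a.2.1)) a.2.2)
    refine inf_le_inf_left _ (Subgroup.centralizer_le ?_)
    intro z hz
    rw [Set.mem_singleton_iff] at hz
    subst hz
    exact a.2.1
  · exact iSup_le fun D => inf_le_left

end Cfsg.Agent.S1331
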