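import Cfsg.Statements.S1336
set_option linter.all false

set_option autoImplicit false
open Cfsg
open scoped Pointwise

namespace Cfsg.Agent.S1336

section Aux

variable {G : Type*} [Group G]

/-- vertices of the rank-one commuting graph -/
def V1 (p : ℕ) (A : Subgroup G) : Prop := IsElementaryAbelian p A ∧ p ^ 1 ≤ Nat.card ↥A

/-- edges of the rank-one commuting graph -/
def R1 (p : ℕ) (A B : Subgroup G) : Prop :=
  IsElementaryAbelian p A ∧ p ^ 1 ≤ Nat.card ↥A ∧ IsElementaryAbelian p B ∧
        p ^ 1 ≤ Nat.card ↥B ∧ ∀ a ∈ A, ∀ b ∈ B, a * b = b * a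

theorem R1_symm {p : ℕ} {A B : Subgroup G} (h : R1 p A B) : R1 p B A :=
  ⟨h.2.2.1, h.2.2.2.1, h.1, h.2.1, fun a ha b hb => (h.2.2.2.2 b hb a ha).symm⟩

theorem chain_symm {p : ℕ} {A B : Subgroup G} (h : Relation.ReflTransGen (R1 p) A B) :
    Relation.ReflTransGen (R1 p) B A := by
  induction h with
  | refl => exact Relation.ReflTransGen.refl
  | tail _ h2 ih => exact Relation.ReflTransGen.head (R1_symm h2) ih

theorem elem_smul {p : ℕ} {A : Subgroup G} (h : IsElementaryAbelian p A) (g : G) :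
    IsElementaryAbelian p (MulAut.conj g • A) := by
  constructor
  · constructor
    constructor
    rintro ⟨a, ha⟩ ⟨b, hb⟩
    obtain ⟨a', ha', rfl⟩ := ha
    obtain ⟨b', hb', rfl⟩ := hb
    apply Subtype.ext
    have h2 : a' * b' = b' * a' := congrArg Subtype.val (h.1.is_comm.comm ⟨a', ha'⟩ ⟨b', hb'⟩)
    change (MulAut.conj g a') * (MulAut.conj g b') = (MulAut.conj g b') * (MulAut.conj g a')
    rw [← map_mul, ← map_mul, h2]
  · rintro _ ⟨a, ha, rfl⟩
    change (MulAut.conj g a) ^ p = 1
    rw [← map_pow, h.2 a ha, map_one]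

theorem card_smul (A : Subgroup G) (g : G) : Nat.card ↥(MulAut.conj g • A) = Nat.card ↥A :=
  (Nat.card_congr (Subgroup.equivSMul (MulAut.conj g) A).toEquiv).symm

theorem V1_smul {p : ℕ} {A : Subgroup G} (h : V1 p A) (g : G) : V1 p (MulAut.conj g • A) :=
  ⟨elem_smul h.1 g, by rw [card_smul]; exact h.2⟩

theorem R1_smul {p : ℕ} {A B : Subgroup G} (h : R1 p A B) (g : G) :
    R1 p (MulAut.conj g • A) (MulAut.conj g • B) := by
  refine ⟨elem_smul h.1 g, by rw [card_smul]; exact h.2.1, elem_smul h.2.2.1 g,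
    by rw [card_smul]; exact h.2.2.2.1, ?_⟩
  rintro _ ⟨a, ha, rfl⟩ _ ⟨b, hb, rfl⟩
  change (MulAut.conj g a) * (MulAut.conj g b) = (MulAut.conj g b) * (MulAut.conj g a)
  rw [← map_mul, ← map_mul, h.2.2.2.2 a ha b hb]

theorem chain_smul {p : ℕ} {A B : Subgroup G} (h : Relation.ReflTransGen (R1 p) A B) (g : G) :
    Relation.ReflTransGen (R1 p) (MulAut.conj g • A) (MulAut.conj g • B) := by
  induction h with
  | refl => exact Relation.ReflTransGen.refl
  | tail _ h2 ih => exact Relation.ReflTransGen.tail ih (R1_smul h2 g)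

theorem V1_zpowers {p : ℕ} {x : G} (hx : orderOf x = p) : V1 p (Subgroup.zpowers x) := by
  refine ⟨⟨inferInstance, ?_⟩, ?_⟩
  · rintro _ ⟨k, rfl⟩
    change (x ^ k) ^ p = 1
    rw [← zpow_natCast, zpow_comm, zpow_natCast, ← hx, pow_orderOf_eq_one, one_zpow]
  · rw [Nat.card_zpowers, hx, pow_one]

/-- a vertex contains an element of order `p` -/
theorem exists_order_p {p : ℕ} [hp : Fact p.Prime] [Finite G] {A : Subgroup G} (h : V1 p A) :
    ∃ x ∈ A, orderOf x = p := by
  have h1 : 1 < Nat.card ↥A := lt_of_lt_of_le (by rw [pow_one]; exact hp.out.one_lt) h.2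
  have : Nontrivial ↥A := Finite.one_lt_card_iff_nontrivial.mp h1
  obtain ⟨⟨x, hx⟩, hne⟩ := exists_ne (1 : ↥A)
  refine ⟨x, hx, orderOf_eq_prime (h.1.2 x hx) ?_⟩
  intro h2
  exact hne (Subtype.ext h2)

theorem isPGroup_of_V1 {p : ℕ} {A : Subgroup G} (h : IsElementaryAbelian p A) :
    IsPGroup p A := by
  rw [isPGroup_iff_pow_pow_eq_one]
  rintro ⟨a, ha⟩
  exact ⟨1, Subtype.ext (by rw [pow_one]; exact h.2 a ha)⟩

end Aux

/-- Let G be finite and p prime. Then G has a proper subgroup H with p ∣ |H| and p ∤ |H ∩ gHg⁻¹| for every g ∉ H (a strongly p-embedded subgroup) if and only if G is not 1-connected for p. -/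
theorem result {G : Type*} [Group G] [Finite G] (p : ℕ) [Fact p.Prime] : (∃ H : Subgroup G, H ≠ ⊤ ∧ p ∣ Nat.card ↥H ∧ ∀ g : G, g ∉ H → ¬ p ∣ Nat.card ↥(H ⊓ H.map (MulAut.conj g).toMonoidHom)) ↔ ¬ Cfsg.IsKConnected p 1 G := by
  have hp : p.Prime := Fact.out
  constructor
  · rintro ⟨H, hH, hpH, hstr⟩ hconn
    obtain ⟨⟨x, hxH⟩, hx⟩ := exists_prime_orderOf_dvd_card' p hpH
    have hx' : orderOf x = p := by rw [← hx, Subgroup.orderOf_mk]
    obtain ⟨g, -, hg⟩ := SetLike.exists_of_lt (lt_top_iff_ne_top.mpr hH)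
    have hVE := V1_zpowers hx'
    have hVE' := V1_smul hVE g
    have hch := hconn (Subgroup.zpowers x) (MulAut.conj g • Subgroup.zpowers x) hVE.1 hVE.2 hVE'.1 hVE'.2
    have key : ∀ B : Subgroup G, Relation.ReflTransGen (R1 p) (Subgroup.zpowers x) B → B ≤ H := by
      intro B hB
      induction hB with
      | refl => rw [Subgroup.zpowers_le]; exact hxH
      | @tail B C _ hBC ih =>
        intro c hc
        by_contra hcH
        apply hstr c hcH
        have hle : B ≤ H ⊓ H.map (MulAut.conj c).toMonoidHom := by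
          refine le_inf ih ?_
          intro b hb
          refine ⟨b, ih hb, ?_⟩
          change c * b * c⁻¹ = b
          rw [← hBC.2.2.2.2 b hb c hc, mul_inv_cancel_right]
        obtain ⟨y, hy, hyo⟩ := exists_order_p (p := p) (A := B) ⟨hBC.1, hBC.2.1⟩
        rw [← hyo]
        have := orderOf_dvd_natCard (⟨y, hle hy⟩ : ↥(H ⊓ H.map (MulAut.conj c).toMonoidHom))
        rwa [Subgroup.orderOf_mk] at this
    have h1 := key _ hch
    apply hstr g hg
    have hmem : g * x * g⁻¹ ∈ H ⊓ H.map (MulAut.conj g).toMonoidHom := by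
      refine ⟨h1 ⟨x, Subgroup.mem_zpowers x, rfl⟩, ⟨x, hxH, rfl⟩⟩
    have := orderOf_dvd_natCard (⟨_, hmem⟩ : ↥(H ⊓ H.map (MulAut.conj g).toMonoidHom))
    rw [Subgroup.orderOf_mk] at this
    have h2 : orderOf (g * x * g⁻¹) = p := by
      have := MulEquiv.orderOf_eq (MulAut.conj g) x
      rw [MulAut.conj_apply] at this
      rw [this, hx']
    rwa [h2] at this
  · intro hnc
    have hnc' : ∃ E E' : Subgroup G, V1 p E ∧ V1 p E' ∧ ¬ Relation.ReflTransGen (R1 p) E E' := by
      by_contra hcon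
      apply hnc
      intro E E' h1 h2 h3 h4
      by_contra h5
      exact hcon ⟨E, E', ⟨h1, h2⟩, ⟨h3, h4⟩, h5⟩
    obtain ⟨E, E', hE, hE', hEE'⟩ := hnc'
    obtain ⟨P, hEP⟩ := (isPGroup_of_V1 hE.1).exists_le_sylow
    -- central element of order p in P
    have hPnt : Nontrivial ↥(P : Subgroup G) := by
      obtain ⟨x, hx, hxo⟩ := exists_order_p hE
      refine ⟨⟨⟨x, hEP hx⟩, 1, ?_⟩⟩
      intro h
      have h2 : x = 1 := congrArg Subtype.val h
      rw [h2, orderOf_one] at hxo
      exact hp.one_lt.ne hxo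
    have hZnt := P.isPGroup'.center_nontrivial
    have hZp : p ∣ Nat.card ↥(Subgroup.center ↥(P : Subgroup G)) :=
      ((P.isPGroup'.to_subgroup _).card_eq_or_dvd).resolve_left
        (fun h => by
          have := Finite.one_lt_card_iff_nontrivial.mpr hZnt
          omega)
    obtain ⟨⟨⟨z, hzP⟩, hzc⟩, hzo⟩ := exists_prime_orderOf_dvd_card' p hZp
    have hzo' : orderOf z = p := by rw [← hzo, Subgroup.orderOf_mk, Subgroup.orderOf_mk]
    have hzcomm : ∀ y ∈ (P : Subgroup G), y * z = z * y := by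
      intro y hy
      exact congrArg Subtype.val (Subgroup.mem_center_iff.mp hzc ⟨y, hy⟩)
    have hVz := V1_zpowers hzo'
    have edgeZ : ∀ A : Subgroup G, V1 p A → A ≤ (P : Subgroup G) → R1 p A (Subgroup.zpowers z) := by
      intro A hA hAP
      refine ⟨hA.1, hA.2, hVz.1, hVz.2, ?_⟩
      rintro a ha _ ⟨k, rfl⟩
      have : Commute a z := hzcomm a (hAP ha)
      exact (this.zpow_right k).eq
    have claim1 : ∀ A : Subgroup G, V1 p A → A ≤ (P : Subgroup G) →
        Relation.ReflTransGen (R1 p) E A := by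
      intro A hA hAP
      exact (Relation.ReflTransGen.single (edgeZ E hE hEP)).tail (R1_symm (edgeZ A hA hAP))
    let H : Subgroup G :=
      { carrier := {g | Relation.ReflTransGen (R1 p) E (MulAut.conj g • E)}
        one_mem' := by
          change Relation.ReflTransGen (R1 p) E (MulAut.conj (1 : G) • E)
          rw [map_one, one_smul]
        mul_mem' := by
          intro a b ha hb
          change Relation.ReflTransGen (R1 p) E (MulAut.conj (a * b) • E)
          rw [map_mul, mul_smul]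
          exact Relation.ReflTransGen.trans ha (chain_smul hb a)
        inv_mem' := by
          intro a ha
          change Relation.ReflTransGen (R1 p) E (MulAut.conj a⁻¹ • E)
          have h1 := chain_smul ha a⁻¹
          rw [← mul_smul, ← map_mul, inv_mul_cancel, map_one, one_smul] at h1
          exact chain_symm h1 }
    have memH : ∀ g, g ∈ H ↔ Relation.ReflTransGen (R1 p) E (MulAut.conj g • E) := fun g => Iff.rfl
    have hPH : (P : Subgroup G) ≤ H := by
      intro g hg
      rw [memH]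
      apply claim1 _ (V1_smul hE g)
      rintro _ ⟨x, hx, rfl⟩
      exact mul_mem (mul_mem hg (hEP hx)) (inv_mem hg)
    have claim3 : ∀ x ∈ H, orderOf x = p → Relation.ReflTransGen (R1 p) E (Subgroup.zpowers x) := by
      intro x hxH hxo
      have hpg : IsPGroup p ↥(Subgroup.zpowers (⟨x, hxH⟩ : ↥H)) := by
        refine isPGroup_of_V1 (V1_zpowers ?_).1
        rw [Subgroup.orderOf_mk, hxo]
      obtain ⟨Q, hQ⟩ := hpg.exists_le_sylow
      obtain ⟨h, hh⟩ := MulAction.exists_smul_eq ↥H (P.subtype hPH) Q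
      have hxQ : (⟨x, hxH⟩ : ↥H) ∈ (Q : Subgroup ↥H) := hQ (Subgroup.mem_zpowers _)
      rw [← hh] at hxQ
      obtain ⟨y, hy, hyx⟩ := hxQ
      have hyP : (y : G) ∈ (P : Subgroup G) := hy
      have hyx' : (h : G) * (y : G) * (h : G)⁻¹ = x := congrArg Subtype.val hyx
      have hyo : orderOf (y : G) = p := by
        have := MulEquiv.orderOf_eq (MulAut.conj (h : G)) (y : G)
        rw [MulAut.conj_apply, hyx'] at this
        rw [← this, hxo]
      have h1 := claim1 (Subgroup.zpowers (y : G)) (V1_zpowers hyo) (by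
        rw [Subgroup.zpowers_le]; exact hyP)
      have h2 := chain_smul h1 (h : G)
      have h3 : MulAut.conj (h : G) • Subgroup.zpowers (y : G) = Subgroup.zpowers x := by
        rw [← hyx']
        change (Subgroup.zpowers (y : G)).map (MulDistribMulAction.toMonoidHom G (MulAut.conj (h : G))) = _
        rw [MonoidHom.map_zpowers]
        rfl
      rw [h3] at h2
      exact Relation.ReflTransGen.trans ((memH _).mp h.2) h2
    refine ⟨H, ?_, ?_, ?_⟩
    · intro hHtop
      apply hEE'
      obtain ⟨x, hx, hxo⟩ := exists_order_p hE'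
      have h1 := claim3 x (by rw [hHtop]; trivial) hxo
      refine h1.tail ⟨(V1_zpowers hxo).1, (V1_zpowers hxo).2, hE'.1, hE'.2, ?_⟩
      rintro _ ⟨k, rfl⟩ b hb
      have : Commute x b := congrArg Subtype.val (hE'.1.1.is_comm.comm ⟨x, hx⟩ ⟨b, hb⟩)
      exact (this.zpow_left k).eq
    · obtain ⟨x, hx, hxo⟩ := exists_order_p hE
      have := orderOf_dvd_natCard (⟨x, hPH (hEP hx)⟩ : ↥H)
      rwa [Subgroup.orderOf_mk, hxo] at this
    · intro g hg hdvd
      obtain ⟨⟨x, hxm⟩, hxo⟩ := exists_prime_orderOf_dvd_card' p hdvd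
      rw [Subgroup.orderOf_mk] at hxo
      obtain ⟨hx1, ⟨y, hyH, hyx⟩⟩ := Subgroup.mem_inf.mp hxm
      have hyx' : g * y * g⁻¹ = x := hyx
      have hyo : orderOf y = p := by
        have := MulEquiv.orderOf_eq (MulAut.conj g) y
        rw [MulAut.conj_apply, hyx'] at this
        rw [← this, hxo]
      apply hg
      rw [memH]
      have h1 := claim3 x hx1 hxo
      have h2 := chain_smul (claim3 y hyH hyo) g
      have h3 : MulAut.conj g • Subgroup.zpowers y = Subgroup.zpowers x := by
        rw [← hyx']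
        change (Subgroup.zpowers y).map (MulDistribMulAction.toMonoidHom G (MulAut.conj g)) = _
        rw [MonoidHom.map_zpowers]
        rfl
      rw [h3] at h2
      exact Relation.ReflTransGen.trans h1 (chain_symm h2)

end Cfsg.Agent.S1336
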