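import Cfsg.Statements.S1337
import Cfsg.Agent.SignalizersComponents.NormalRankTwo
import Cfsg.Agent.OddOrderLocal.Rank
set_option linter.all false

set_option autoImplicit false
open Cfsg

namespace Cfsg.Agent.S1337

open Cfsg.Agent.OddOrderLocal.Rank Cfsg.Agent.SignalizersComponents.NormalRankTwo

universe u

variable {G : Type u} [Group G]

/-- The subgroup generated by a central element `z` of order `p` and an element `a` of order `p` outside
`⟨z⟩` has order `p ^ 2`. -/
theorem card_sup_zpowers [Finite G] {p : ℕ} [hp : Fact p.Prime] {z a : G} (hz : orderOf z = p)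
    (hzc : z ∈ Subgroup.center G) (ha : a ^ p = 1) (haz : a ∉ Subgroup.zpowers z) :
    Nat.card ↥(Subgroup.zpowers z ⊔ Subgroup.zpowers a) = p ^ 2 := by
  have hZn : (Subgroup.zpowers z).Normal := by
    constructor
    rintro _ ⟨k, rfl⟩ g
    have h1 : Commute g z := Subgroup.mem_center_iff.mp hzc g
    have h2 : g * z ^ k * g⁻¹ = z ^ k := by rw [(h1.zpow_right k).eq, mul_inv_cancel_right]
    change g * z ^ k * g⁻¹ ∈ Subgroup.zpowers z
    rw [h2]
    exact ⟨k, rfl⟩
  have h1 := Subgroup.relIndex_mul_relIndex ⊥ (Subgroup.zpowers z)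
    (Subgroup.zpowers z ⊔ Subgroup.zpowers a) bot_le le_sup_left
  rw [Subgroup.relIndex_bot_left, Subgroup.relIndex_bot_left, Subgroup.relIndex_sup_left,
    ← Subgroup.inf_relIndex_right, Nat.card_zpowers, hz] at h1
  have ha1 : a ≠ 1 := fun h => haz (h ▸ one_mem _)
  have hao : orderOf a = p := orderOf_eq_prime ha ha1
  have hca : Nat.card ↥(Subgroup.zpowers a) = p := by rw [Nat.card_zpowers, hao]
  have h2 : Subgroup.zpowers z ⊓ Subgroup.zpowers a = ⊥ := by
    by_contra hne
    have h3 : Nat.card ↥(Subgroup.zpowers z ⊓ Subgroup.zpowers a) ∣ p := by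
      rw [← hca]
      exact Subgroup.card_dvd_of_le inf_le_right
    rcases (Nat.dvd_prime hp.out).mp h3 with h4 | h4
    · exact hne (Subgroup.card_eq_one.mp h4)
    · have h5 : Subgroup.zpowers z ⊓ Subgroup.zpowers a = Subgroup.zpowers a :=
        Subgroup.eq_of_le_of_card_ge inf_le_right (by rw [h4, hca])
      apply haz
      have h6 : a ∈ Subgroup.zpowers z ⊓ Subgroup.zpowers a := by
        rw [h5]; exact Subgroup.mem_zpowers a
      exact h6.1
  rw [h2, Subgroup.relIndex_bot_left, hca] at h1
  rw [← h1, sq]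

/-- The centralizer of a normal elementary abelian subgroup of order `p ^ 2` in a finite `p`-group has index
at most `p`; so it meets every subgroup in a subgroup of index at most `p`. -/
theorem card_le_mul_card_inf_centralizer [Finite G] {p : ℕ} [hp : Fact p.Prime] (hG : IsPGroup p G)
    {U : Subgroup G} (hU : U.Normal) (hUe : IsElementaryAbelian p U) (hUc : Nat.card U = p ^ 2)
    (B : Subgroup G) : Nat.card B ≤ p * Nat.card ↥(B ⊓ Subgroup.centralizer (U : Set G)) := by
  have hnil : Group.IsNilpotent G := hG.isNilpotent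
  have hp1 := hp.out.one_lt
  have hUne : U ≠ ⊥ := by
    intro h
    rw [h, Subgroup.card_bot] at hUc
    nlinarith
  -- a central element of order p in U
  have hNZ := Lib.NormalAbelian.normal_inf_center_ne_bot U hUne
  have hdvd : p ∣ Nat.card ↥(U ⊓ Subgroup.center G) := by
    refine ((hG.to_subgroup _).card_eq_or_dvd).resolve_left ?_
    intro h
    exact hNZ (Subgroup.card_eq_one.mp h)
  obtain ⟨⟨z, hzUc⟩, hzo⟩ := exists_prime_orderOf_dvd_card' p hdvd
  rw [Subgroup.orderOf_mk] at hzo
  obtain ⟨hzU, hzc⟩ := Subgroup.mem_inf.mp hzUc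
  have hZn : (Subgroup.zpowers z).Normal := by
    constructor
    rintro _ ⟨k, rfl⟩ g
    have h1 : Commute g z := Subgroup.mem_center_iff.mp hzc g
    have h2 : g * z ^ k * g⁻¹ = z ^ k := by rw [(h1.zpow_right k).eq, mul_inv_cancel_right]
    change g * z ^ k * g⁻¹ ∈ Subgroup.zpowers z
    rw [h2]
    exact ⟨k, rfl⟩
  have hUZ : ¬ U ≤ Subgroup.zpowers z := by
    intro h
    have h1 := Subgroup.card_le_of_le h
    rw [hUc, Nat.card_zpowers, hzo] at h1
    nlinarith
  obtain ⟨u, huU, huZ, -, huc⟩ := exists_central_order_p_mod hG hZn hU hUZ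
  have hsup : Subgroup.zpowers z ⊔ Subgroup.zpowers u = U := by
    apply Subgroup.eq_of_le_of_card_ge
    · rw [sup_le_iff, Subgroup.zpowers_le, Subgroup.zpowers_le]; exact ⟨hzU, huU⟩
    · rw [hUc, card_sup_zpowers hzo hzc (hUe.2 u huU) huZ]
  have hcent : Subgroup.centralizer (U : Set G) = Subgroup.centralizer {u} := by
    apply le_antisymm
    · exact Subgroup.centralizer_le (by simpa using huU)
    · intro g hg
      rw [Subgroup.mem_centralizer_singleton_iff] at hg
      rw [Subgroup.mem_centralizer_iff]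
      intro y hy
      rw [SetLike.mem_coe, ← hsup] at hy
      obtain ⟨_, ⟨i, rfl⟩, _, ⟨j, rfl⟩, rfl⟩ := Subgroup.mem_sup_of_normal_left.mp hy
      have h1 : Commute g z := Subgroup.mem_center_iff.mp hzc g
      have h2 : Commute g u := hg
      exact ((h1.zpow_right i).mul_right (h2.zpow_right j)).eq.symm
  -- the homomorphism g ↦ [u, g]
  have hcz : ∀ g h : G, h * (u * g * u⁻¹ * g⁻¹) = (u * g * u⁻¹ * g⁻¹) * h := by
    intro g h
    have h1 : Subgroup.zpowers z ≤ Subgroup.center G := by rw [Subgroup.zpowers_le]; exact hzc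
    exact Subgroup.mem_center_iff.mp (h1 (huc g)) h
  let φ : G →* G := MonoidHom.mk' (fun g => u * g * u⁻¹ * g⁻¹) (by
    intro g h
    have h1 : u * (g * h) * u⁻¹ * (g * h)⁻¹ = u * g * u⁻¹ * ((u * h * u⁻¹ * h⁻¹) * g⁻¹) := by group
    rw [h1, ← hcz h g⁻¹]
    group)
  have hφ : ∀ g, φ g = u * g * u⁻¹ * g⁻¹ := fun g => rfl
  have hker : φ.ker = Subgroup.centralizer {u} := by
    ext g
    rw [MonoidHom.mem_ker, hφ, Subgroup.mem_centralizer_singleton_iff, mul_inv_eq_one,
      mul_inv_eq_iff_eq_mul]
    exact eq_comm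
  have hidx : (Subgroup.centralizer (U : Set G)).index ≤ p := by
    rw [hcent, ← hker, Subgroup.index_ker]
    have h1 : φ.range ≤ Subgroup.zpowers z := by
      rintro _ ⟨g, rfl⟩
      exact huc g
    have h2 := Subgroup.card_le_of_le h1
    rwa [Nat.card_zpowers, hzo] at h2
  have hCn : (Subgroup.centralizer (U : Set G)).Normal := inferInstance
  have h1 := Subgroup.relIndex_mul_relIndex ⊥ (B ⊓ Subgroup.centralizer (U : Set G)) B bot_le inf_le_left
  rw [Subgroup.relIndex_bot_left, Subgroup.relIndex_bot_left, Subgroup.inf_relIndex_left] at h1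
  have h2 : (Subgroup.centralizer (U : Set G)).relIndex B ≤ p :=
    le_trans (Nat.le_of_dvd (Nat.pos_of_ne_zero Subgroup.index_ne_zero_of_finite)
      (Subgroup.relIndex_dvd_index_of_normal _ _)) hidx
  rw [← h1, mul_comm p]
  exact Nat.mul_le_mul_left _ h2

/-- Let P be a finite p-group of p-rank greater than 2. Then P has a normal elementary abelian subgroup U of order p², and for every elementary abelian X ≤ P with |X| ≥ p²: X is joined to U by a chain of pairwise commuting elementary abelian subgroups of order ≥ p² if and only if C_P(X) has p-rank greater than 2. -/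
theorem result {P : Type*} [Group P] [Finite P] (p : ℕ) [Fact p.Prime] (hP : IsPGroup p P) (hrk : ¬ Cfsg.PRankLE p 2 P) : ∃ U : Subgroup P, U.Normal ∧ Cfsg.IsElementaryAbelian p U ∧ Nat.card ↥U = p ^ 2 ∧ ∀ X : Subgroup P, Cfsg.IsElementaryAbelian p X → p ^ 2 ≤ Nat.card ↥X → (Relation.ReflTransGen (fun A B : Subgroup P => Cfsg.IsElementaryAbelian p A ∧ p ^ 2 ≤ Nat.card ↥A ∧ Cfsg.IsElementaryAbelian p B ∧ p ^ 2 ≤ Nat.card ↥B ∧ ∀ a ∈ A, ∀ b ∈ B, a * b = b * a) X U ↔ ¬ Cfsg.PRankLE p 2 ↥(Subgroup.centralizer (X : Set P))) := by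
  have hp : p.Prime := Fact.out
  have hp1 := hp.one_lt
  obtain ⟨A, hA, hAc⟩ := exists_elemAb_of_not_pRankLE_top hrk
  have hAc' : p ^ 2 < Nat.card A := by rw [hAc]; exact Nat.pow_lt_pow_right hp1 (by norm_num)
  obtain ⟨U, hU, hUe, hUc⟩ := exists_normal_elem_sq hP A hA hAc'
  have hcard := card_le_mul_card_inf_centralizer hP hU hUe hUc
  have hpow : ∀ B : Subgroup P, p < Nat.card B → p ^ 2 ≤ Nat.card B := by
    intro B hB
    obtain ⟨n, hn⟩ := IsPGroup.iff_card.mp (hP.to_subgroup B)
    rw [hn] at hB ⊢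
    apply Nat.pow_le_pow_right hp.pos
    by_contra hlt
    have : n ≤ 1 := by omega
    have h2 := Nat.pow_le_pow_right hp.pos this
    rw [pow_one] at h2
    omega
  refine ⟨U, hU, hUe, hUc, ?_⟩
  intro X hX hXc
  constructor
  · intro hchain
    have key : ∀ X : Subgroup P, Relation.ReflTransGen (fun A B : Subgroup P => Cfsg.IsElementaryAbelian p A ∧ p ^ 2 ≤ Nat.card ↥A ∧ Cfsg.IsElementaryAbelian p B ∧ p ^ 2 ≤ Nat.card ↥B ∧ ∀ a ∈ A, ∀ b ∈ B, a * b = b * a) X U →
        ∃ B : Subgroup P, B ≤ Subgroup.centralizer (X : Set P) ∧ IsElementaryAbelian p B ∧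
          p ^ 2 < Nat.card B := by
      intro X hX
      induction hX using Relation.ReflTransGen.head_induction_on with
      | refl =>
        have hUU : U ≤ Subgroup.centralizer (U : Set P) := by
          intro y hy
          rw [Subgroup.mem_centralizer_iff]
          intro w hw
          exact (elemAb_def.mp hUe).1 w hw y hy
        have h1 := hcard A
        have h2 : p < Nat.card ↥(A ⊓ Subgroup.centralizer (U : Set P)) := by
          by_contra hle
          have h3 := Nat.mul_le_mul_left p (not_lt.mp hle)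
          rw [← sq] at h3
          omega
        have h3 := hpow _ h2
        by_cases hle : A ⊓ Subgroup.centralizer (U : Set P) ≤ U
        · have h4 : A ⊓ Subgroup.centralizer (U : Set P) = U :=
            Subgroup.eq_of_le_of_card_ge hle (by rw [hUc]; exact h3)
          refine ⟨A, ?_, hA, hAc'⟩
          intro a ha
          rw [Subgroup.mem_centralizer_iff]
          intro y hy
          rw [← h4] at hy
          exact (elemAb_def.mp hA).1 y hy.1 a ha
        · refine ⟨(A ⊓ Subgroup.centralizer (U : Set P)) ⊔ U, sup_le inf_le_right hUU,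
            elemAb_sup (elemAb_mono hA inf_le_left) hUe ?_, ?_⟩
          · intro a ha b hb
            exact (Subgroup.mem_centralizer_iff.mp ha.2 b hb).symm
          · rw [← hUc]
            by_contra hle2
            apply hle
            have h5 : U = (A ⊓ Subgroup.centralizer (U : Set P)) ⊔ U :=
              Subgroup.eq_of_le_of_card_ge le_sup_right (not_lt.mp hle2)
            exact sup_eq_right.mp h5.symm
      | @head X Y hXY _ ih =>
        obtain ⟨hX, hXc, hY, hYc, hcomm⟩ := hXY
        by_cases hlt : p ^ 2 < Nat.card ↥(X ⊔ Y)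
        · refine ⟨X ⊔ Y, ?_, elemAb_sup hX hY hcomm, hlt⟩
          apply sup_le
          · intro y hy
            rw [Subgroup.mem_centralizer_iff]
            intro w hw
            exact (elemAb_def.mp hX).1 w hw y hy
          · intro y hy
            rw [Subgroup.mem_centralizer_iff]
            intro w hw
            exact hcomm w hw y hy
        · have h1 : X = X ⊔ Y := Subgroup.eq_of_le_of_card_ge le_sup_left (by omega)
          have h2 : Y = X ⊔ Y := Subgroup.eq_of_le_of_card_ge le_sup_right (by omega)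
          have h3 : X = Y := h1.trans h2.symm
          rw [h3]
          exact ih
    obtain ⟨B, hBC, hB, hBc⟩ := key X hchain
    exact not_pRankLE_of_elemAb hBC hB hBc
  · intro hrkX
    obtain ⟨B, hBC, hB, hBc⟩ := exists_elemAb_of_not_pRankLE hrkX
    have hBc' : p ^ 2 < Nat.card B := by rw [hBc]; exact Nat.pow_lt_pow_right hp1 (by norm_num)
    have h1 := hcard B
    have h2 : p < Nat.card ↥(B ⊓ Subgroup.centralizer (U : Set P)) := by
      by_contra hle
      have h3 := Nat.mul_le_mul_left p (not_lt.mp hle)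
      rw [← sq] at h3
      omega
    have h3 := hpow _ h2
    have e1 : Relation.ReflTransGen (fun A B : Subgroup P => Cfsg.IsElementaryAbelian p A ∧ p ^ 2 ≤ Nat.card ↥A ∧ Cfsg.IsElementaryAbelian p B ∧ p ^ 2 ≤ Nat.card ↥B ∧ ∀ a ∈ A, ∀ b ∈ B, a * b = b * a) X B := by
      refine Relation.ReflTransGen.single ⟨hX, hXc, hB, hBc'.le, ?_⟩
      intro a ha b hb
      exact Subgroup.mem_centralizer_iff.mp (hBC hb) a ha
    refine (e1.tail ⟨hB, hBc'.le, elemAb_mono hB inf_le_left, h3, ?_⟩).tail
      ⟨elemAb_mono hB inf_le_left, h3, hUe, hUc.ge, ?_⟩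
    · intro a ha b hb
      exact (elemAb_def.mp hB).1 a ha b hb.1
    · intro a ha b hb
      exact (Subgroup.mem_centralizer_iff.mp ha.2 b hb).symm

end Cfsg.Agent.S1337
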