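import Cfsg.Statements.S1338
import Cfsg.Agent.Lib.NormalRankFour
set_option linter.all false

set_option autoImplicit false
open Cfsg

namespace Cfsg.Agent.S1338

open Subgroup
open Cfsg.Agent.Lib.NormalRankFour

theorem card_le_ker_mul_map {V W : Type*} [Group V] [Group W] [Finite V] (f : V →* W)
    (R : Subgroup V) : Nat.card R ≤ Nat.card f.ker * Nat.card (R.map f) := by
  have h1 : Nat.card (f.domRestrict R).ker * (f.domRestrict R).ker.index = Nat.card R :=
    Subgroup.card_mul_index _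
  rw [Subgroup.index_ker, MonoidHom.domRestrict_range] at h1
  rw [← h1]
  refine Nat.mul_le_mul_right _ ?_
  let g : (f.domRestrict R).ker → f.ker := fun x => ⟨((x : R) : V), x.2⟩
  have h2 : Function.Injective g := by
    intro x y hxy
    have h3 : ((x : R) : V) = ((y : R) : V) := congrArg (fun z : f.ker => (z : V)) hxy
    exact Subtype.ext (Subtype.ext h3)
  exact Nat.card_le_card_of_injective _ h2

theorem comm_id {V : Type*} [Group V] (hcomm : ∀ a b : V, a * b = b * a) (a b c : V)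
    (hb : b ^ 3 = 1) (hc : c ^ 3 = 1) :
    ((a⁻¹ * b)⁻¹ * (b⁻¹ * c))⁻¹ * ((b⁻¹ * c)⁻¹ * (c⁻¹ * a)) = 1 := by
  let _ : CommGroup V := { (inferInstance : Group V) with mul_comm := hcomm }
  have h : ∀ (A : Type _) [AddCommGroup A] (a b c : A),
      -(-(-a + b) + (-b + c)) + (-(-b + c) + (-c + a)) = 3 • b - 3 • c := by
    intros; abel
  have h1 := h (Additive V) (Additive.ofMul a) (Additive.ofMul b) (Additive.ofMul c)
  have h2 : ((a⁻¹ * b)⁻¹ * (b⁻¹ * c))⁻¹ * ((b⁻¹ * c)⁻¹ * (c⁻¹ * a)) = b ^ 3 / c ^ 3 := h1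
  rw [h2, hb, hc, div_one]

/-- An element of order `3` normalising an elementary abelian `3`-subgroup `V` acts with Jordan blocks of size
at most `3`. -/
theorem card_le_cube {P : Type*} [Group P] [Finite P] (V : Subgroup P)
    (hV : IsElementaryAbelian 3 V) (x : P) (hx : x ^ 3 = 1) (hn : ∀ v ∈ V, x * v * x⁻¹ ∈ V) :
    Nat.card V ≤ Nat.card (V ⊓ centralizer ({x} : Set P) : Subgroup P) ^ 3 := by
  have hcomm : ∀ a b : V, a * b = b * a := fun a b => Subtype.ext (elem_comm hV a.2 b.2).eq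
  let f : V →* V :=
    { toFun := fun v => ⟨(v : P)⁻¹ * (x * v * x⁻¹), V.mul_mem (V.inv_mem v.2) (hn v v.2)⟩
      map_one' := by apply Subtype.ext; simp
      map_mul' := by
        intro a b
        apply Subtype.ext
        have h1 : ((⟨(b : P)⁻¹, V.inv_mem b.2⟩ : V) : P) = (b : P)⁻¹ := rfl
        have hc1 : (a : P)⁻¹ * (x * a * x⁻¹) * (b : P)⁻¹ = (b : P)⁻¹ * ((a : P)⁻¹ * (x * a * x⁻¹)) :=
          (elem_comm hV (V.mul_mem (V.inv_mem a.2) (hn a a.2)) (V.inv_mem b.2)).eq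
        show ((a : P) * b)⁻¹ * (x * ((a : P) * b) * x⁻¹) =
          ((a : P)⁻¹ * (x * a * x⁻¹)) * ((b : P)⁻¹ * (x * b * x⁻¹))
        calc ((a : P) * b)⁻¹ * (x * ((a : P) * b) * x⁻¹)
            = (b : P)⁻¹ * ((a : P)⁻¹ * (x * a * x⁻¹)) * (x * b * x⁻¹) := by group
          _ = ((a : P)⁻¹ * (x * a * x⁻¹) * (b : P)⁻¹) * (x * b * x⁻¹) := by rw [hc1]
          _ = ((a : P)⁻¹ * (x * a * x⁻¹)) * ((b : P)⁻¹ * (x * b * x⁻¹)) := by group }
  have hf : ∀ v : V, ((f v : V) : P) = (v : P)⁻¹ * (x * v * x⁻¹) := fun v => rfl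
  have hker : Nat.card f.ker ≤ Nat.card (V ⊓ centralizer ({x} : Set P) : Subgroup P) := by
    have hmem : ∀ v : V, v ∈ f.ker → (v : P) ∈ V ⊓ centralizer ({x} : Set P) := by
      intro v hv
      have h1 : (v : P)⁻¹ * (x * v * x⁻¹) = 1 := by
        have := congrArg Subtype.val (MonoidHom.mem_ker.1 hv)
        rw [hf] at this
        exact this
      refine mem_inf.2 ⟨v.2, mem_centralizer_singleton_iff.2 ?_⟩
      have h2 : x * v * x⁻¹ = v := (inv_mul_eq_one.1 h1).symm
      calc (v : P) * x = x * v * x⁻¹ * x := by rw [h2]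
        _ = x * v := by group
    let g : f.ker → (V ⊓ centralizer ({x} : Set P) : Subgroup P) :=
      fun v => ⟨((v : V) : P), hmem v v.2⟩
    have h2 : Function.Injective g := by
      intro v w hvw
      have h3 : ((v : V) : P) = ((w : V) : P) := congrArg
        (fun z : (V ⊓ centralizer ({x} : Set P) : Subgroup P) => (z : P)) hvw
      exact Subtype.ext (Subtype.ext h3)
    exact Nat.card_le_card_of_injective _ h2
  have hcube : ∀ v : V, f (f (f v)) = 1 := by
    intro v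
    let s : V → V := fun v => ⟨x * v * x⁻¹, hn v v.2⟩
    have hfs : ∀ v, f v = v⁻¹ * s v := fun v => rfl
    have hsf : ∀ v w : V, s (v⁻¹ * w) = (s v)⁻¹ * s w := by
      intro v w
      apply Subtype.ext
      show x * ((v : P)⁻¹ * w) * x⁻¹ = (x * v * x⁻¹)⁻¹ * (x * w * x⁻¹)
      group
    have hs3 : s (s (s v)) = v := by
      apply Subtype.ext
      show x * (x * (x * v * x⁻¹) * x⁻¹) * x⁻¹ = v
      have : x * (x * (x * (v : P) * x⁻¹) * x⁻¹) * x⁻¹ = x ^ 3 * v * (x ^ 3)⁻¹ := by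
        simp only [pow_succ, pow_zero, one_mul]; group
      rw [this, hx]; group
    have h3 : ∀ w : V, w ^ 3 = 1 := fun w => Subtype.ext (hV.2 w w.2)
    rw [hfs (f (f v)), hfs (f v), hfs v]
    simp only [hsf]
    rw [hs3]
    exact comm_id hcomm v (s v) (s (s v)) (h3 _) (h3 _)
  have h1 : Nat.card V ≤ Nat.card f.ker * Nat.card ((⊤ : Subgroup V).map f) := by
    have := card_le_ker_mul_map f (⊤ : Subgroup V)
    rwa [Subgroup.card_top] at this
  have h2 := card_le_ker_mul_map f ((⊤ : Subgroup V).map f)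
  have h3 : Nat.card (((⊤ : Subgroup V).map f).map f) ≤ Nat.card f.ker := by
    refine Subgroup.card_le_of_le ?_
    rintro _ ⟨_, ⟨v, -, rfl⟩, rfl⟩
    exact MonoidHom.mem_ker.2 (hcube v)
  calc Nat.card V ≤ Nat.card f.ker * Nat.card ((⊤ : Subgroup V).map f) := h1
    _ ≤ Nat.card f.ker * (Nat.card f.ker * Nat.card f.ker) :=
      Nat.mul_le_mul_left _ (h2.trans (Nat.mul_le_mul_left _ h3))
    _ = Nat.card f.ker ^ 3 := by ring
    _ ≤ _ := Nat.pow_le_pow_left hker 3

theorem card_zpowers_mul {P : Type*} [Group P] [Finite P] (hP : IsPGroup 3 P)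
    {W X : Subgroup P} {n : ℕ} (h : W < X) (hn : n ≤ Nat.card W) : 3 * n ≤ Nat.card X := by
  have : Fact (Nat.Prime 3) := ⟨Nat.prime_three⟩
  exact (Nat.mul_le_mul_left 3 hn).trans (mul_card_le_of_lt hP h)

theorem elem_zpowers {P : Type*} [Group P] {p : ℕ} {x : P} (hx : x ^ p = 1) :
    IsElementaryAbelian p (zpowers x) := by
  refine ⟨⟨⟨?_⟩⟩, ?_⟩
  · rintro ⟨a, ha⟩ ⟨b, hb⟩
    obtain ⟨i, rfl⟩ := mem_zpowers_iff.1 ha
    obtain ⟨j, rfl⟩ := mem_zpowers_iff.1 hb
    apply Subtype.ext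
    show x ^ i * x ^ j = x ^ j * x ^ i
    rw [← zpow_add, ← zpow_add, add_comm]
  · intro a ha
    obtain ⟨i, rfl⟩ := mem_zpowers_iff.1 ha
    rw [← zpow_natCast, ← zpow_mul, mul_comm, zpow_mul, zpow_natCast, hx, one_zpow]

/-- Every elementary abelian subgroup of order at least `9` commutes with one of order at least `27`. -/
theorem exists_big {P : Type*} [Group P] [Finite P] (hP : IsPGroup 3 P) (V : Subgroup P)
    [hVn : V.Normal] (hV : IsElementaryAbelian 3 V) (hVc : 3 ^ 4 ≤ Nat.card V) (E : Subgroup P)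
    (hE : IsElementaryAbelian 3 E) (hEc : 3 ^ 2 ≤ Nat.card E) :
    ∃ F : Subgroup P, IsElementaryAbelian 3 F ∧ 3 ^ 3 ≤ Nat.card F ∧
      ∀ e ∈ E, ∀ f ∈ F, Commute e f := by
  have : Fact (Nat.Prime 3) := ⟨Nat.prime_three⟩
  by_cases hE27 : 3 ^ 3 ≤ Nat.card E
  · exact ⟨E, hE, hE27, fun e he f hf => elem_comm hE he hf⟩
  have hE9 : Nat.card E = 3 ^ 2 := by
    obtain ⟨a, ha⟩ := (IsPGroup.iff_card.1 (hP.to_subgroup E))
    rw [ha] at hEc hE27 ⊢
    have h1 := (Nat.pow_le_pow_iff_right (by norm_num : 1 < 3)).1 hEc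
    have h2 : a < 3 := by
      by_contra h
      exact hE27 (Nat.pow_le_pow_right (by norm_num) (by omega))
    have : a = 2 := by omega
    rw [this]
  -- a central element of order `3` in `V`
  have : Group.IsNilpotent P := hP.isNilpotent
  obtain ⟨Z, hZV, hZn, hZc⟩ := exists_normal_le_card_eq (p := 3) hP 1 (Nat.card V) V hVn le_rfl (by
    calc 3 ^ 1 ≤ 3 ^ 4 := by norm_num
      _ ≤ Nat.card V := hVc)
  have hZcen : Z ≤ center P := le_center_of_card_le (p := 3) hP Z (by rw [hZc]; norm_num)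
  by_cases hZE : Z ≤ E
  swap
  · refine ⟨E ⊔ Z, elem_sup hE (elem_mono hZV hV) ?_, ?_, ?_⟩
    · intro a _ z hz
      exact (mem_center_iff.1 (hZcen hz)) a
    · have h1 : E < E ⊔ Z := by
        refine lt_of_le_of_ne le_sup_left ?_
        intro h
        apply hZE
        rw [h]; exact le_sup_right
      have := card_zpowers_mul hP h1 hEc
      calc 3 ^ 3 = 3 * 3 ^ 2 := by norm_num
        _ ≤ _ := this
    · intro e he f hf
      have hc : IsElementaryAbelian 3 (E ⊔ Z : Subgroup P) :=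
        elem_sup hE (elem_mono hZV hV) (fun a _ z hz => (mem_center_iff.1 (hZcen hz)) a)
      exact elem_comm hc ((le_sup_left : E ≤ E ⊔ Z) he) hf
  by_cases hEV : E ≤ V
  · refine ⟨V, hV, ?_, fun e he f hf => elem_comm hV (hEV he) hf⟩
    exact le_trans (by norm_num) hVc
  obtain ⟨x, hxE, hxV⟩ := SetLike.not_le_iff_exists.1 hEV
  have hx3 : x ^ 3 = 1 := hE.2 x hxE
  set W : Subgroup P := V ⊓ centralizer ({x} : Set P) with hW
  have hWc : 3 ^ 2 ≤ Nat.card W := by
    have h1 := card_le_cube V hV x hx3 (fun v hv => hVn.conj_mem v hv x)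
    rw [← hW] at h1
    obtain ⟨a, ha⟩ := (IsPGroup.iff_card.1 (hP.to_subgroup W))
    rw [ha] at h1 ⊢
    have h2 : 3 ^ 4 ≤ 3 ^ (a * 3) := by
      rw [pow_mul]; exact hVc.trans h1
    have h3 := (Nat.pow_le_pow_iff_right (by norm_num : 1 < 3)).1 h2
    exact Nat.pow_le_pow_right (by norm_num) (by omega)
  have hWe : IsElementaryAbelian 3 W := elem_mono inf_le_left hV
  have hxW : ∀ w ∈ W, ∀ y ∈ zpowers x, Commute w y := by
    intro w hw y hy
    obtain ⟨i, rfl⟩ := mem_zpowers_iff.1 hy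
    have h1 : Commute w x := mem_centralizer_singleton_iff.1 hw.2
    exact h1.zpow_right i
  have hF : IsElementaryAbelian 3 (W ⊔ zpowers x : Subgroup P) :=
    elem_sup hWe (elem_zpowers hx3) hxW
  refine ⟨W ⊔ zpowers x, hF, ?_, ?_⟩
  · have h1 : W < W ⊔ zpowers x := by
      refine lt_of_le_of_ne le_sup_left ?_
      intro h
      apply hxV
      have : x ∈ W := by
        rw [h]; exact (le_sup_right : zpowers x ≤ W ⊔ zpowers x) (mem_zpowers x)
      exact this.1
    have := card_zpowers_mul hP h1 hWc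
    calc 3 ^ 3 = 3 * 3 ^ 2 := by norm_num
      _ ≤ _ := this
  · -- `E = Z ⊔ ⟨x⟩`
    have hle : Z ⊔ zpowers x ≤ E := sup_le hZE (zpowers_le.2 hxE)
    have hlt : Z < Z ⊔ zpowers x := by
      refine lt_of_le_of_ne le_sup_left ?_
      intro h
      apply hxV
      apply hZV
      rw [h]; exact (le_sup_right : zpowers x ≤ Z ⊔ zpowers x) (mem_zpowers x)
    have hc := card_zpowers_mul hP hlt hZc.ge
    have heq : Z ⊔ zpowers x = E := by
      refine Subgroup.eq_of_le_of_card_ge hle ?_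
      rw [hE9]
      calc 3 ^ 2 = 3 * 3 ^ 1 := by norm_num
        _ ≤ _ := hc
    intro e he f hf
    have h1 : E ≤ centralizer ((W ⊔ zpowers x : Subgroup P) : Set P) := by
      rw [← heq]
      refine sup_le ?_ (zpowers_le.2 ?_)
      · intro z hz
        rw [mem_centralizer_iff]
        intro h _
        exact (mem_center_iff.1 (hZcen hz)) h
      · rw [mem_centralizer_iff]
        intro h hh
        exact elem_comm hF hh ((le_sup_right : zpowers x ≤ W ⊔ zpowers x) (mem_zpowers x))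
    exact ((mem_centralizer_iff.1 (h1 he)) f hf).symm

/-- A finite 3-group of 3-rank at least 4 is 2-connected for the prime 3: its commuting graph on elementary abelian subgroups of order ≥ 9 is connected. -/
theorem result {P : Type*} [Group P] [Finite P] (hP : IsPGroup 3 P) (hrk : ¬ Cfsg.PRankLE 3 3 P) : Cfsg.IsKConnected 3 2 P := by
  have : Fact (Nat.Prime 3) := ⟨Nat.prime_three⟩
  -- an elementary abelian subgroup of order at least `81`
  obtain ⟨A, hA, hAc⟩ : ∃ A : Subgroup P, IsElementaryAbelian 3 A ∧ 3 ^ 4 ≤ Nat.card A := by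
    by_contra hcon
    push Not at hcon
    apply hrk
    intro A hA1 hA2
    have h1 := hcon A ⟨hA1, hA2⟩
    obtain ⟨a, ha⟩ := (IsPGroup.iff_card.1 (hP.to_subgroup A))
    rw [ha] at h1 ⊢
    have := (Nat.pow_lt_pow_iff_right (by norm_num : 1 < 3)).1 h1
    exact Nat.pow_le_pow_right (by norm_num) (by omega)
  obtain ⟨V, hVn, hV, hVc⟩ := exists_normal_card_four (p := 3) (by norm_num) hP A hA hAc
  obtain ⟨U, hUV, hUn, hUc⟩ := exists_normal_le_card_eq (p := 3) hP 2 (Nat.card V) V hVn le_rfl (by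
    rw [hVc]; norm_num)
  have hU : IsElementaryAbelian 3 U := elem_mono hUV hV
  set R : Subgroup P → Subgroup P → Prop := fun A B : Subgroup P =>
    IsElementaryAbelian 3 A ∧ 3 ^ 2 ≤ Nat.card ↥A ∧ IsElementaryAbelian 3 B ∧
        3 ^ 2 ≤ Nat.card ↥B ∧ ∀ a ∈ A, ∀ b ∈ B, a * b = b * a with hR
  have hsymm : Std.Symm R := by
    constructor
    rintro X Y ⟨h1, h2, h3, h4, h5⟩
    exact ⟨h3, h4, h1, h2, fun a ha b hb => (h5 b hb a ha).symm⟩
  have key : ∀ E : Subgroup P, IsElementaryAbelian 3 E → 3 ^ 2 ≤ Nat.card E →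
      Relation.ReflTransGen R E U := by
    intro E hE hEc
    obtain ⟨F, hF, hFc, hEF⟩ := exists_big hP V hV hVc.ge E hE hEc
    have hF' : 3 ^ 2 ≤ Nat.card (F ⊓ centralizer (U : Set P) : Subgroup P) := by
      have h1 := card_le_mul_centralizer (p := 3) hP U hUc.le F
      have h2 : 3 * 3 ^ 2 ≤ 3 * Nat.card (F ⊓ centralizer (U : Set P) : Subgroup P) := by
        calc 3 * 3 ^ 2 = 3 ^ 3 := by norm_num
          _ ≤ Nat.card F := hFc
          _ ≤ _ := h1
      exact Nat.le_of_mul_le_mul_left h2 (by norm_num)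
    have hFe : IsElementaryAbelian 3 (F ⊓ centralizer (U : Set P) : Subgroup P) :=
      elem_mono inf_le_left hF
    have s1 : R E (F ⊓ centralizer (U : Set P)) :=
      ⟨hE, hEc, hFe, hF', fun a ha b hb => hEF a ha b hb.1⟩
    have s2 : R (F ⊓ centralizer (U : Set P)) U :=
      ⟨hFe, hF', hU, hUc.ge, fun a ha b hb => ((mem_centralizer_iff.1 ha.2) b hb).symm⟩
    exact (Relation.ReflTransGen.single s1).tail s2
  intro E E' hE hEc hE' hEc'
  exact (key E hE hEc).trans ((Relation.ReflTransGen.stdSymm (r := R)).symm _ _ (key E' hE' hEc'))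

end Cfsg.Agent.S1338
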