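import Cfsg.Statements.S1344
import Cfsg.Agent.SignalizersComponents.PCompCore
set_option linter.all false

set_option autoImplicit false
open Cfsg

namespace Cfsg.Agent.S1344

/-- Let K be a 2-component of the finite group X. Then K ≤ L*_{2'}(X) and K is normal in L*_{2'}(X). -/
theorem result {X : Type*} [Group X] [Finite X] (K : Subgroup X) (hK : Cfsg.IsPComponent 2 K) : K ≤ Cfsg.extendedTwoLayer X ∧ (K.subgroupOf (Cfsg.extendedTwoLayer X)).Normal := by
  have hKL : K ≤ pLayer 2 X := le_sSup hK
  refine ⟨hKL.trans (le_sup_left.trans le_sup_left), Subgroup.normal_subgroupOf_of_le_normalizer ?_⟩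
  refine sup_le (sup_le (Cfsg.Agent.SignalizersComponents.PCompCore.pLayer_le_normalizer hK)
    (Cfsg.Agent.SignalizersComponents.PCompCore.pPrimeCore_le_normalizer hK))
    (iSup_le fun T => ?_)
  exact (Subgroup.map_subtype_le _).trans
    (Cfsg.Agent.SignalizersComponents.PCompCore.centralizer_sylow_le_normalizer hK
      (hKL.trans le_sup_left) T)

end Cfsg.Agent.S1344
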