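import Cfsg.Statements.S1348
import Cfsg.Agent.LieClassical.SLGen
import Cfsg.Agent.SignalizersComponents.Components
set_option linter.all false

set_option autoImplicit false
open Cfsg

namespace Cfsg.Agent.S1348

open Matrix Cfsg.Agent.SignalizersComponents

section

variable {F : Type*} [Field F] {m : ℕ}

/-- block diagonal matrix with blocks `A` and `1` -/
def embM (A : Matrix (Fin m) (Fin m) F) : Matrix (Fin (m + 1)) (Fin (m + 1)) F :=
  Matrix.reindex finSumFinEquiv finSumFinEquiv
    (Matrix.fromBlocks A 0 0 (1 : Matrix (Fin 1) (Fin 1) F))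

theorem embM_mul (A B : Matrix (Fin m) (Fin m) F) : embM (A * B) = embM A * embM B := by
  unfold embM
  rw [Matrix.reindex_apply, Matrix.reindex_apply, Matrix.reindex_apply,
    Matrix.submatrix_mul_equiv, Matrix.fromBlocks_multiply]
  simp

theorem embM_one : embM (1 : Matrix (Fin m) (Fin m) F) = 1 := by
  unfold embM
  rw [Matrix.fromBlocks_one]
  simp

theorem embM_det (A : Matrix (Fin m) (Fin m) F) : (embM A).det = A.det := by
  unfold embM
  rw [Matrix.det_reindex_self, Matrix.det_fromBlocks_zero₂₁, Matrix.det_one, mul_one]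

theorem symm_castSucc (i : Fin m) :
    (finSumFinEquiv : Fin m ⊕ Fin 1 ≃ Fin (m + 1)).symm (Fin.castSucc i) = Sum.inl i := by
  rw [Equiv.symm_apply_eq]
  rfl

theorem symm_last :
    (finSumFinEquiv : Fin m ⊕ Fin 1 ≃ Fin (m + 1)).symm (Fin.last m) = Sum.inr 0 := by
  rw [Equiv.symm_apply_eq]
  rfl

theorem embM_cc (A : Matrix (Fin m) (Fin m) F) (i j : Fin m) :
    embM A i.castSucc j.castSucc = A i j := by
  unfold embM
  rw [Matrix.reindex_apply, Matrix.submatrix_apply, symm_castSucc, symm_castSucc]
  rfl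

theorem embM_cl (A : Matrix (Fin m) (Fin m) F) (i : Fin m) :
    embM A i.castSucc (Fin.last m) = 0 := by
  unfold embM
  rw [Matrix.reindex_apply, Matrix.submatrix_apply, symm_castSucc, symm_last]
  rfl

theorem embM_lc (A : Matrix (Fin m) (Fin m) F) (i : Fin m) :
    embM A (Fin.last m) i.castSucc = 0 := by
  unfold embM
  rw [Matrix.reindex_apply, Matrix.submatrix_apply, symm_castSucc, symm_last]
  rfl

theorem embM_ll (A : Matrix (Fin m) (Fin m) F) :
    embM A (Fin.last m) (Fin.last m) = 1 := by
  unfold embM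
  rw [Matrix.reindex_apply, Matrix.submatrix_apply, symm_last]
  rfl

/-- The embedding `SL_m → SL_{m+1}`. -/
def emb : SpecialLinearGroup (Fin m) F →* SpecialLinearGroup (Fin (m + 1)) F where
  toFun A := ⟨embM (A : Matrix (Fin m) (Fin m) F), by rw [embM_det]; exact A.2⟩
  map_one' := Subtype.ext embM_one
  map_mul' A B := Subtype.ext (embM_mul _ _)

theorem emb_coe (A : SpecialLinearGroup (Fin m) F) :
    ((emb A : SpecialLinearGroup (Fin (m + 1)) F) : Matrix (Fin (m + 1)) (Fin (m + 1)) F) =
      embM (A : Matrix (Fin m) (Fin m) F) := rfl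

theorem emb_injective :
    Function.Injective (emb : SpecialLinearGroup (Fin m) F →* SpecialLinearGroup (Fin (m + 1)) F) := by
  intro A B h
  apply Subtype.ext
  ext i j
  have h1 := congrArg (fun g : SpecialLinearGroup (Fin (m + 1)) F =>
    (g : Matrix (Fin (m + 1)) (Fin (m + 1)) F) i.castSucc j.castSucc) h
  simp only [emb_coe, embM_cc] at h1
  exact h1

/-- The image of the embedding. -/
def K (F : Type*) [Field F] (m : ℕ) : Subgroup (SpecialLinearGroup (Fin (m + 1)) F) :=
  (emb : SpecialLinearGroup (Fin m) F →* SpecialLinearGroup (Fin (m + 1)) F).range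

/-- The block diagonal elements. -/
def IsBlock (g : SpecialLinearGroup (Fin (m + 1)) F) : Prop :=
  (∀ i : Fin m, (g : Matrix (Fin (m + 1)) (Fin (m + 1)) F) i.castSucc (Fin.last m) = 0) ∧
  (∀ i : Fin m, (g : Matrix (Fin (m + 1)) (Fin (m + 1)) F) (Fin.last m) i.castSucc = 0)

theorem mem_K (g : SpecialLinearGroup (Fin (m + 1)) F) :
    g ∈ K F m ↔ IsBlock g ∧
      (g : Matrix (Fin (m + 1)) (Fin (m + 1)) F) (Fin.last m) (Fin.last m) = 1 := by
  constructor
  · rintro ⟨A, rfl⟩
    refine ⟨⟨fun i => ?_, fun i => ?_⟩, ?_⟩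
    · rw [emb_coe, embM_cl]
    · rw [emb_coe, embM_lc]
    · rw [emb_coe, embM_ll]
  · rintro ⟨⟨h1, h2⟩, h3⟩
    set A : Matrix (Fin m) (Fin m) F :=
      (g : Matrix (Fin (m + 1)) (Fin (m + 1)) F).submatrix Fin.castSucc Fin.castSucc with hA
    have hg : embM A = (g : Matrix (Fin (m + 1)) (Fin (m + 1)) F) := by
      ext i j
      induction i using Fin.lastCases with
      | last =>
        induction j using Fin.lastCases with
        | last => rw [embM_ll, h3]
        | cast j => rw [embM_lc, h2]
      | cast i =>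
        induction j using Fin.lastCases with
        | last => rw [embM_cl, h1]
        | cast j => rw [embM_cc]; rfl
    have hdet : A.det = 1 := by
      rw [← embM_det, hg]
      exact g.2
    exact ⟨⟨A, hdet⟩, Subtype.ext hg⟩

theorem K_isQuasisimple (hm : 3 ≤ m) : IsQuasisimple ↥(K F m) := by
  have e : SpecialLinearGroup (Fin m) F ≃* ↥(K F m) := MonoidHom.ofInjective emb_injective
  apply Components.isQuasisimple_of_mulEquiv e
  have hc : 3 ≤ Fintype.card (Fin m) := by simpa using hm
  refine ⟨⟨?_⟩, ?_⟩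
  · exact Cfsg.Agent.LieClassical.SLGen.commutator_eq_top hc
  · exact Cfsg.Agent.LieClassical.SLGen.psl_isSimpleGroup hc

end

section

variable {F : Type*} [Field F] {m : ℕ}

theorem two_ne_zero_of_odd [Fintype F] (hF : Odd (Fintype.card F)) : (2 : F) ≠ 0 := by
  intro h
  have h1 : ringChar F = 2 := by
    have h2 : ringChar F ∣ 2 := by
      rw [← ringChar.spec F 2]
      exact_mod_cast h
    rcases (Nat.dvd_prime Nat.prime_two).mp h2 with h3 | h3
    · exfalso
      have := CharP.ringChar_ne_one (R := F)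
      exact this h3
    · exact h3
  have h3 := FiniteField.even_card_of_char_two h1
  rw [Nat.odd_iff] at hF
  omega

/-- the entries of `t` -/
def tdiag (F : Type*) [Field F] (m : ℕ) : Fin (m + 1) → F :=
  fun i => if (i : ℕ) + 1 = m + 1 then (1 : F) else -1

theorem tdiag_last : tdiag F m (Fin.last m) = 1 := by
  simp [tdiag]

theorem tdiag_castSucc (i : Fin m) : tdiag F m i.castSucc = -1 := by
  have := i.2
  simp only [tdiag, Fin.val_castSucc]
  rw [if_neg (by omega)]

theorem mem_centralizer_t (h2 : (2 : F) ≠ 0) (t : SpecialLinearGroup (Fin (m + 1)) F)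
    (ht : (t : Matrix (Fin (m + 1)) (Fin (m + 1)) F) = Matrix.diagonal (tdiag F m))
    (g : SpecialLinearGroup (Fin (m + 1)) F) :
    g ∈ Subgroup.centralizer ({t} : Set (SpecialLinearGroup (Fin (m + 1)) F)) ↔ IsBlock g := by
  rw [Subgroup.mem_centralizer_singleton_iff]
  constructor
  · intro h
    have h' : (g : Matrix (Fin (m + 1)) (Fin (m + 1)) F) * (t : Matrix (Fin (m + 1)) (Fin (m + 1)) F) =
        (t : Matrix (Fin (m + 1)) (Fin (m + 1)) F) * (g : Matrix (Fin (m + 1)) (Fin (m + 1)) F) :=
      congrArg Subtype.val h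
    rw [ht] at h'
    have key : ∀ i j, (g : Matrix (Fin (m + 1)) (Fin (m + 1)) F) i j * tdiag F m j =
        tdiag F m i * (g : Matrix (Fin (m + 1)) (Fin (m + 1)) F) i j := by
      intro i j
      have := congrFun (congrFun h' i) j
      rwa [Matrix.mul_diagonal, Matrix.diagonal_mul] at this
    constructor
    · intro i
      have := key i.castSucc (Fin.last m)
      rw [tdiag_last, tdiag_castSucc] at this
      have h3 : (2 : F) * (g : Matrix (Fin (m + 1)) (Fin (m + 1)) F) i.castSucc (Fin.last m) = 0 := by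
        linear_combination this
      exact (mul_eq_zero.mp h3).resolve_left h2
    · intro i
      have := key (Fin.last m) i.castSucc
      rw [tdiag_last, tdiag_castSucc] at this
      have h3 : (2 : F) * (g : Matrix (Fin (m + 1)) (Fin (m + 1)) F) (Fin.last m) i.castSucc = 0 := by
        linear_combination -this
      exact (mul_eq_zero.mp h3).resolve_left h2
  · rintro ⟨h1, h2⟩
    apply Subtype.ext
    show (g : Matrix (Fin (m + 1)) (Fin (m + 1)) F) * (t : Matrix (Fin (m + 1)) (Fin (m + 1)) F) =
      (t : Matrix (Fin (m + 1)) (Fin (m + 1)) F) * (g : Matrix (Fin (m + 1)) (Fin (m + 1)) F)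
    rw [ht]
    ext i j
    rw [Matrix.mul_diagonal, Matrix.diagonal_mul]
    induction i using Fin.lastCases with
    | last =>
      induction j using Fin.lastCases with
      | last => rw [mul_comm]
      | cast j => rw [h2]; ring
    | cast i =>
      induction j using Fin.lastCases with
      | last => rw [h1]; ring
      | cast j => rw [tdiag_castSucc, tdiag_castSucc]; ring

/-- The lower right entry as a homomorphism on the centralizer of `t`. -/
def chi (C : Subgroup (SpecialLinearGroup (Fin (m + 1)) F)) (hC : ∀ g ∈ C, IsBlock g) : ↥C →* F where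
  toFun g := ((g : SpecialLinearGroup (Fin (m + 1)) F) : Matrix (Fin (m + 1)) (Fin (m + 1)) F)
    (Fin.last m) (Fin.last m)
  map_one' := by simp
  map_mul' g h := by
    have h1 := (hC g g.2).2
    show (((g : SpecialLinearGroup (Fin (m + 1)) F) : Matrix (Fin (m + 1)) (Fin (m + 1)) F) *
      ((h : SpecialLinearGroup (Fin (m + 1)) F) : Matrix (Fin (m + 1)) (Fin (m + 1)) F))
        (Fin.last m) (Fin.last m) = _
    rw [Matrix.mul_apply, Fin.sum_univ_castSucc]
    simp [h1]

theorem chi_apply (C : Subgroup (SpecialLinearGroup (Fin (m + 1)) F)) (hC : ∀ g ∈ C, IsBlock g)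
    (g : ↥C) : chi C hC g = ((g : SpecialLinearGroup (Fin (m + 1)) F) :
      Matrix (Fin (m + 1)) (Fin (m + 1)) F) (Fin.last m) (Fin.last m) := rfl

theorem ker_chi (C : Subgroup (SpecialLinearGroup (Fin (m + 1)) F))
    (hC : ∀ g, g ∈ C ↔ IsBlock g) :
    (chi C (fun g hg => (hC g).mp hg)).ker = (K F m).subgroupOf C := by
  ext g
  rw [MonoidHom.mem_ker, Subgroup.mem_subgroupOf, mem_K, chi_apply]
  exact ⟨fun h => ⟨(hC g).mp g.2, h⟩, fun h => h.2⟩

theorem layer_eq (hm : 3 ≤ m) (C : Subgroup (SpecialLinearGroup (Fin (m + 1)) F))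
    (hC : ∀ g, g ∈ C ↔ IsBlock g) :
    layer ↥C = (K F m).subgroupOf C := by
  have hKC : K F m ≤ C := fun g hg => (hC g).mpr ((mem_K g).mp hg).1
  apply le_antisymm
  · rw [Components.layer_le_iff]
    intro L hL
    rw [← Components.component_commutator_self hL, ← ker_chi C hC, Subgroup.commutator_le]
    intro a _ b _
    rw [MonoidHom.mem_ker, commutatorElement_def, map_mul, map_mul, map_mul]
    set χ := chi C (fun g hg => (hC g).mp hg)
    have ha : χ a * χ a⁻¹ = 1 := by rw [← map_mul, mul_inv_cancel, map_one]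
    have hb : χ b * χ b⁻¹ = 1 := by rw [← map_mul, mul_inv_cancel, map_one]
    linear_combination (χ b * χ b⁻¹) * ha + hb
  · apply Components.component_le_layer
    constructor
    · have : ((K F m).subgroupOf C).Normal := by
        rw [← ker_chi C hC]; infer_instance
      exact this.isSubnormal
    · exact Components.isQuasisimple_of_mulEquiv (Subgroup.subgroupOfEquivOfLe hKC).symm
        (K_isQuasisimple hm)

theorem map_layer_eq (hm : 3 ≤ m) (C : Subgroup (SpecialLinearGroup (Fin (m + 1)) F))
    (hC : ∀ g, g ∈ C ↔ IsBlock g) :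
    (layer ↥C).map C.subtype = K F m := by
  have hKC : K F m ≤ C := fun g hg => (hC g).mpr ((mem_K g).mp hg).1
  rw [layer_eq hm C hC, Subgroup.map_subgroupOf_eq_of_le hKC]

/-- Elements centralizing `K` are diagonal with the first `m` entries equal. -/
theorem centralizer_K (hm : 3 ≤ m) (g : SpecialLinearGroup (Fin (m + 1)) F)
    (hg : g ∈ Subgroup.centralizer (K F m : Set (SpecialLinearGroup (Fin (m + 1)) F))) :
    ∃ a b : F, (g : Matrix (Fin (m + 1)) (Fin (m + 1)) F) =
      Matrix.diagonal (fun i => if i = Fin.last m then b else a) ∧ a ^ m * b = 1 := by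
  rw [Subgroup.mem_centralizer_iff] at hg
  set M : Matrix (Fin (m + 1)) (Fin (m + 1)) F := (g : Matrix (Fin (m + 1)) (Fin (m + 1)) F) with hM
  -- commutation with elementary matrices
  have key : ∀ i j : Fin m, i ≠ j →
      Matrix.single i.castSucc j.castSucc (1 : F) * M = M * Matrix.single i.castSucc j.castSucc 1 := by
    intro i j hij
    have h1 := hg (emb (SpecialLinearGroup.transvection hij 1)) ⟨_, rfl⟩
    have h2 : ((emb (SpecialLinearGroup.transvection hij (1 : F)) :
        SpecialLinearGroup (Fin (m + 1)) F) : Matrix (Fin (m + 1)) (Fin (m + 1)) F) =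
        1 + Matrix.single i.castSucc j.castSucc 1 := by
      rw [emb_coe]
      have h3 : ((SpecialLinearGroup.transvection hij (1 : F) : SpecialLinearGroup (Fin m) F) :
        Matrix (Fin m) (Fin m) F) = 1 + Matrix.single i j 1 := rfl
      rw [h3]
      ext k l
      induction k using Fin.lastCases with
      | last =>
        induction l using Fin.lastCases with
        | last =>
          rw [embM_ll]
          simp [Matrix.single_apply, Fin.castSucc_ne_last]
        | cast l =>
          rw [embM_lc]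
          have : Fin.last m ≠ l.castSucc := (Fin.castSucc_ne_last l).symm
          simp [Matrix.single_apply, Matrix.one_apply, this, Fin.castSucc_ne_last]
      | cast k =>
        induction l using Fin.lastCases with
        | last =>
          rw [embM_cl]
          simp [Matrix.single_apply, Matrix.one_apply, Fin.castSucc_ne_last]
        | cast l =>
          rw [embM_cc]
          simp [Matrix.single_apply, Matrix.one_apply]
    have h3 : ((emb (SpecialLinearGroup.transvection hij (1 : F)) :
        SpecialLinearGroup (Fin (m + 1)) F) : Matrix (Fin (m + 1)) (Fin (m + 1)) F) * M =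
        M * ((emb (SpecialLinearGroup.transvection hij (1 : F)) :
        SpecialLinearGroup (Fin (m + 1)) F) : Matrix (Fin (m + 1)) (Fin (m + 1)) F) :=
      congrArg Subtype.val h1
    rw [h2, add_mul, mul_add, one_mul, mul_one] at h3
    exact add_left_cancel h3
  have hoff1 : ∀ (i : Fin m) (k : Fin (m + 1)), k ≠ i.castSucc → M k i.castSucc = 0 := by
    intro i k hk
    obtain ⟨j, hj⟩ : ∃ j : Fin m, i ≠ j := by
      have : Nontrivial (Fin m) := Fin.nontrivial_iff_two_le.mpr (by omega)
      obtain ⟨j, hj⟩ := exists_ne i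
      exact ⟨j, hj.symm⟩
    have h1 := congrFun (congrFun (key i j hj) k) j.castSucc
    rw [Matrix.mul_single_apply_same, mul_one, Matrix.single_mul_apply_of_ne _ _ _ _ _ hk] at h1
    exact h1.symm
  have hoff2 : ∀ (j : Fin m) (l : Fin (m + 1)), l ≠ j.castSucc → M j.castSucc l = 0 := by
    intro j l hl
    obtain ⟨i, hi⟩ : ∃ i : Fin m, i ≠ j := by
      have : Nontrivial (Fin m) := Fin.nontrivial_iff_two_le.mpr (by omega)
      exact exists_ne j
    have h1 := congrFun (congrFun (key i j hi) i.castSucc) l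
    rw [Matrix.single_mul_apply_same, one_mul, Matrix.mul_single_apply_of_ne _ _ _ _ _ hl] at h1
    exact h1
  have hdiag : ∀ i j : Fin m, M i.castSucc i.castSucc = M j.castSucc j.castSucc := by
    intro i j
    by_cases hij : i = j
    · rw [hij]
    · have h1 := congrFun (congrFun (key i j hij) i.castSucc) j.castSucc
      rw [Matrix.single_mul_apply_same, one_mul, Matrix.mul_single_apply_same, mul_one] at h1
      exact h1.symm
  let i0 : Fin m := ⟨0, by omega⟩
  have hMd : M = Matrix.diagonal (fun i => if i = Fin.last m then M (Fin.last m) (Fin.last m)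
      else M i0.castSucc i0.castSucc) := by
    ext k l
    rw [Matrix.diagonal_apply]
    split_ifs with h1 h2
    · rw [← h1, h2]
    · subst h1
      induction k using Fin.lastCases with
      | last => exact absurd rfl h2
      | cast k => exact hdiag k i0
    · induction k using Fin.lastCases with
      | last =>
        induction l using Fin.lastCases with
        | last => exact absurd rfl h1
        | cast l => exact hoff1 l _ h1
      | cast k => exact hoff2 k l (Ne.symm h1)
  refine ⟨M i0.castSucc i0.castSucc, M (Fin.last m) (Fin.last m), hMd, ?_⟩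
  have hdet : M.det = 1 := g.2
  rw [hMd, Matrix.det_diagonal, Fin.prod_univ_castSucc] at hdet
  simpa [Fin.castSucc_ne_last] using hdet

theorem le_normalizer_K (C : Subgroup (SpecialLinearGroup (Fin (m + 1)) F))
    (hC : ∀ g, g ∈ C ↔ IsBlock g) :
    C ≤ Subgroup.normalizer (K F m : Set (SpecialLinearGroup (Fin (m + 1)) F)) := by
  have hKC : K F m ≤ C := fun g hg => (hC g).mpr ((mem_K g).mp hg).1
  rw [← Subgroup.normal_subgroupOf_iff_le_normalizer hKC, ← ker_chi C hC]
  infer_instance

theorem comm_centralizer_K (hm : 3 ≤ m) (x y : SpecialLinearGroup (Fin (m + 1)) F)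
    (hx : x ∈ Subgroup.centralizer (K F m : Set (SpecialLinearGroup (Fin (m + 1)) F)))
    (hy : y ∈ Subgroup.centralizer (K F m : Set (SpecialLinearGroup (Fin (m + 1)) F))) :
    x * y = y * x := by
  obtain ⟨a, b, hab, _⟩ := centralizer_K hm x hx
  obtain ⟨c, d, hcd, _⟩ := centralizer_K hm y hy
  apply Subtype.ext
  show (x : Matrix (Fin (m + 1)) (Fin (m + 1)) F) * (y : Matrix (Fin (m + 1)) (Fin (m + 1)) F) =
    (y : Matrix (Fin (m + 1)) (Fin (m + 1)) F) * (x : Matrix (Fin (m + 1)) (Fin (m + 1)) F)
  rw [hab, hcd, Matrix.diagonal_mul_diagonal, Matrix.diagonal_mul_diagonal]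
  congr 1
  funext i
  exact mul_comm _ _

theorem eq_t (hm : 3 ≤ m) (hme : Even m) (t : SpecialLinearGroup (Fin (m + 1)) F)
    (ht : (t : Matrix (Fin (m + 1)) (Fin (m + 1)) F) = Matrix.diagonal (tdiag F m))
    (x : SpecialLinearGroup (Fin (m + 1)) F)
    (hx : x ∈ Subgroup.centralizer (K F m : Set (SpecialLinearGroup (Fin (m + 1)) F)))
    (hxx : x * x = 1) (hx1 : x ≠ 1) : x = t := by
  obtain ⟨a, b, hab, hdet⟩ := centralizer_K hm x hx
  have h1 : (x : Matrix (Fin (m + 1)) (Fin (m + 1)) F) *
      (x : Matrix (Fin (m + 1)) (Fin (m + 1)) F) = 1 := congrArg Subtype.val hxx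
  rw [hab, Matrix.diagonal_mul_diagonal] at h1
  have haa : a * a = 1 := by
    have := congrFun (congrFun h1 (Fin.castSucc ⟨0, by omega⟩)) (Fin.castSucc ⟨0, by omega⟩)
    rw [Matrix.diagonal_apply_eq, Matrix.one_apply_eq, if_neg (Fin.castSucc_ne_last _)] at this
    exact this
  have hb : b = 1 := by
    obtain ⟨k, rfl⟩ := hme
    have h3 : a ^ (k + k) = 1 := by
      rw [← two_mul, pow_mul, pow_two, haa, one_pow]
    rwa [h3, one_mul] at hdet
  have ha : a = -1 := by
    have h3 : (a - 1) * (a + 1) = 0 := by linear_combination haa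
    rcases mul_eq_zero.mp h3 with h4 | h4
    · exfalso
      apply hx1
      apply Subtype.ext
      show (x : Matrix (Fin (m + 1)) (Fin (m + 1)) F) = 1
      rw [hab, hb, sub_eq_zero.mp h4]
      simp
    · exact eq_neg_of_add_eq_zero_left h4
  apply Subtype.ext
  show (x : Matrix (Fin (m + 1)) (Fin (m + 1)) F) = (t : Matrix (Fin (m + 1)) (Fin (m + 1)) F)
  rw [hab, ht, ha, hb]
  congr 1
  funext i
  induction i using Fin.lastCases with
  | last => rw [if_pos rfl, tdiag_last]
  | cast i => rw [if_neg (Fin.castSucc_ne_last _), tdiag_castSucc]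

theorem t_ne_one (h2 : (2 : F) ≠ 0) (hm : 3 ≤ m) (t : SpecialLinearGroup (Fin (m + 1)) F)
    (ht : (t : Matrix (Fin (m + 1)) (Fin (m + 1)) F) = Matrix.diagonal (tdiag F m)) : t ≠ 1 := by
  rintro rfl
  have h3 : (1 : Matrix (Fin (m + 1)) (Fin (m + 1)) F) = Matrix.diagonal (tdiag F m) := ht
  have := congrFun (congrFun h3 (Fin.castSucc ⟨0, by omega⟩)) (Fin.castSucc ⟨0, by omega⟩)
  rw [Matrix.diagonal_apply_eq, Matrix.one_apply_eq, tdiag_castSucc] at this
  apply h2
  linear_combination this

theorem t_mul_t (t : SpecialLinearGroup (Fin (m + 1)) F)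
    (ht : (t : Matrix (Fin (m + 1)) (Fin (m + 1)) F) = Matrix.diagonal (tdiag F m)) :
    t * t = 1 := by
  apply Subtype.ext
  show (t : Matrix (Fin (m + 1)) (Fin (m + 1)) F) *
      (t : Matrix (Fin (m + 1)) (Fin (m + 1)) F) = 1
  rw [ht, Matrix.diagonal_mul_diagonal, ← Matrix.diagonal_one]
  congr 1
  funext i
  induction i using Fin.lastCases with
  | last => rw [tdiag_last, mul_one]
  | cast i => rw [tdiag_castSucc]; ring

theorem main [Fintype F] (hF : Odd (Fintype.card F)) (hm : 6 ≤ m) (hme : Even m)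
    (t : SpecialLinearGroup (Fin (m + 1)) F)
    (ht : (t : Matrix (Fin (m + 1)) (Fin (m + 1)) F) = Matrix.diagonal (tdiag F m)) :
    IsStandardSubgroup (K F m) := by
  have h2 := two_ne_zero_of_odd hF
  have hm3 : 3 ≤ m := by omega
  have hC := mem_centralizer_t h2 t ht
  set C : Subgroup (SpecialLinearGroup (Fin (m + 1)) F) := Subgroup.centralizer {t} with hCdef
  set Z : Subgroup (SpecialLinearGroup (Fin (m + 1)) F) :=
    Subgroup.centralizer (K F m : Set (SpecialLinearGroup (Fin (m + 1)) F)) with hZ
  have hq : IsQuasisimple ↥(K F m) := K_isQuasisimple hm3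
  have htZ : t ∈ Z := by
    rw [hZ, Subgroup.mem_centralizer_iff]
    intro k hk
    have : k ∈ C := (hC k).mpr ((mem_K k).mp hk).1
    exact Subgroup.mem_centralizer_singleton_iff.mp this
  have ht2 : t * t = 1 := t_mul_t t ht
  have ht1 : t ≠ 1 := t_ne_one h2 hm3 t ht
  have hordt : orderOf t = 2 := orderOf_eq_prime (by rw [pow_two, ht2]) ht1
  have huniq : ∀ x ∈ Z, orderOf x = 2 → x = t := by
    intro x hx ho
    apply eq_t hm3 hme t ht x hx
    · rw [← pow_two, ← ho, pow_orderOf_eq_one]
    · rintro rfl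
      rw [orderOf_one] at ho
      omega
  -- the centralizer of `t` normalizes `K` and `Z`
  have hCK : C ≤ Subgroup.normalizer (K F m : Set (SpecialLinearGroup (Fin (m + 1)) F)) :=
    le_normalizer_K C hC
  have hnormKZ : Subgroup.normalizer (K F m : Set (SpecialLinearGroup (Fin (m + 1)) F)) ≤
      Subgroup.normalizer (Z : Set (SpecialLinearGroup (Fin (m + 1)) F)) := by
    rw [Subgroup.le_normalizer_iff]
    intro g hg z hz
    rw [hZ, Subgroup.mem_centralizer_iff] at hz ⊢
    intro k hk
    have hk' : g⁻¹ * k * g ∈ K F m := by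
      have := (Subgroup.mem_normalizer_iff.mp (inv_mem hg) k).mp hk
      simpa using this
    have := hz _ hk'
    calc k * (g * z * g⁻¹) = g * ((g⁻¹ * k * g) * z) * g⁻¹ := by group
      _ = g * (z * (g⁻¹ * k * g)) * g⁻¹ := by rw [this]
      _ = g * z * g⁻¹ * k := by group
  have hgt : ∀ g : SpecialLinearGroup (Fin (m + 1)) F, g * t * g⁻¹ = t → g ∈ C := by
    intro g hg
    rw [hCdef, Subgroup.mem_centralizer_singleton_iff]
    rw [mul_inv_eq_iff_eq_mul] at hg
    exact hg
  have hordconj : ∀ g : SpecialLinearGroup (Fin (m + 1)) F, orderOf (g * t * g⁻¹) = 2 := by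
    intro g
    rw [← hordt]
    exact orderOf_injective (MulAut.conj g).toMonoidHom (MulAut.conj g).injective t
  refine ⟨hq, ⟨?_, ?_⟩, ?_, ?_⟩
  · -- even order
    rw [even_iff_two_dvd, ← hordt]
    have : orderOf (⟨t, htZ⟩ : ↥Z) ∣ Nat.card ↥Z := orderOf_dvd_natCard _
    rwa [Subgroup.orderOf_mk] at this
  · -- tightly embedded
    intro g hg
    by_contra hodd
    rw [Nat.not_odd_iff_even, even_iff_two_dvd] at hodd
    have : Fact (Nat.Prime 2) := ⟨Nat.prime_two⟩
    obtain ⟨x, hx⟩ := exists_prime_orderOf_dvd_card' 2 hodd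
    have hx1 : (x : SpecialLinearGroup (Fin (m + 1)) F) ∈ Z := x.2.1
    have hx2 : orderOf (x : SpecialLinearGroup (Fin (m + 1)) F) = 2 := by
      rw [Subgroup.orderOf_coe, hx]
    have hxt := huniq _ hx1 hx2
    obtain ⟨y, hy, hyx⟩ := x.2.2
    have hyx' : g * y * g⁻¹ = t := by rw [← hxt]; exact hyx
    have hyo : orderOf y = 2 := by
      have h3 : y = g⁻¹ * t * (g⁻¹)⁻¹ := by rw [← hyx']; group
      rw [h3]
      exact hordconj g⁻¹
    have hyt := huniq y hy hyo
    rw [hyt] at hyx'
    exact hg (hnormKZ (hCK (hgt g hyx')))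
  · -- conjugates do not commute
    intro g _ hcomm
    rw [Subgroup.commutator_eq_bot_iff_le_centralizer] at hcomm
    apply Components.quasisimple_not_isMulCommutative hq
    rw [Subgroup.le_centralizer_iff] at hcomm
    refine ⟨⟨fun a b => ?_⟩⟩
    have ha := hcomm (Subgroup.mem_map_of_mem (MulAut.conj g).toMonoidHom a.2)
    have hb := hcomm (Subgroup.mem_map_of_mem (MulAut.conj g).toMonoidHom b.2)
    have h3 := comm_centralizer_K hm3 _ _ ha hb
    rw [← map_mul, ← map_mul] at h3
    exact Subtype.ext ((MulAut.conj g).injective h3)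
  · apply le_antisymm hnormKZ
    intro g hg
    apply hCK
    apply hgt
    apply huniq _ _ (hordconj g)
    exact (Subgroup.mem_normalizer_iff.mp hg t).mp htZ

end

/-- Let F be a finite field of odd order, n ≥ 7 odd, and t ∈ SL(n, F) the diagonal matrix with entries −1, …, −1, 1. Then E(C(t)) is a standard subgroup of SL(n, F). -/
theorem result {F : Type*} [Field F] [Fintype F] [DecidableEq F] (hF : Odd (Fintype.card F)) (n : ℕ) (hn : 7 ≤ n) (hodd : Odd n) (t : Matrix.SpecialLinearGroup (Fin n) F) (ht : (t : Matrix (Fin n) (Fin n) F) = Matrix.diagonal (fun i : Fin n => if (i : ℕ) + 1 = n then (1 : F) else -1)) : Cfsg.IsStandardSubgroup ((Cfsg.layer ↥(Subgroup.centralizer ({t} : Set (Matrix.SpecialLinearGroup (Fin n) F)))).map (Subgroup.centralizer ({t} : Set (Matrix.SpecialLinearGroup (Fin n) F))).subtype) := by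
  obtain ⟨m, rfl⟩ : ∃ m, n = m + 1 := ⟨n - 1, by omega⟩
  have hme : Even m := by
    rcases Nat.even_or_odd m with h | h
    · exact h
    · exfalso
      obtain ⟨k, hk⟩ := h
      obtain ⟨l, hl⟩ := hodd
      omega
  have ht' : (t : Matrix (Fin (m + 1)) (Fin (m + 1)) F) = Matrix.diagonal (tdiag F m) := ht
  rw [map_layer_eq (by omega) _ (mem_centralizer_t (two_ne_zero_of_odd hF) t ht')]
  exact main hF (by omega) hme t ht'

end Cfsg.Agent.S1348
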