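import Cfsg.Statements.S1440
import Cfsg.Agent.S0205
set_option linter.all false
-- import your own Cfsg.Agent.* helpers here

set_option autoImplicit false
open Cfsg

namespace Cfsg.Agent.S1440

/-- Let G be a minimal simple group of odd order, M a maximal subgroup with standard factorisation M = K U M_σ, H = M_F, and g ∉ M such that X = F(M) ∩ gF(M)g⁻¹ is nontrivial. Then X ≤ H and X is cyclic; M' = F(M), which is generated by M_σ and O_{σ(M)'}(F(M)); and one of: (1) K = 1 and H is abelian of rank exactly 2; (2) p = #X is a prime in σ(M) but not in β(M), O_p(H) is nonabelian, O_{p'}(H) is cyclic, and the exponent of M/H divides q − 1 for every prime q dividing #H; (3) p = #X is a prime in σ(M) but not β(M), O_{p'}(H) is cyclic, O_p(H) is nonabelian of order p ^ 3, K ≠ 1, U = 1, and the index of H in M divides p + 1. -/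
theorem result {G : Type*} [Group G] [Finite G] (hG : Cfsg.IsMinSimpleOddOrder G)
    (M : Subgroup G) (hM : IsCoatom M) (K U : Subgroup G) (hKU : Cfsg.IsSigmaDecomposition M K U) (g : G) (hg : g ∉ M) (hX : Cfsg.fittingOf M ⊓ (Cfsg.fittingOf M).map (MulAut.conj g).toMonoidHom ≠ ⊥) :
    (Cfsg.fittingOf M ⊓ (Cfsg.fittingOf M).map (MulAut.conj g).toMonoidHom ≤ Cfsg.fittingHallOf M ∧ IsCyclic ↥(Cfsg.fittingOf M ⊓ (Cfsg.fittingOf M).map (MulAut.conj g).toMonoidHom)) ∧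
      (⁅M, M⁆ = Cfsg.fittingOf M ∧ Cfsg.fittingOf M = Cfsg.sigmaCore M ⊔ Cfsg.piCoreOf {q | q.Prime ∧ q ∉ Cfsg.sigma M} (Cfsg.fittingOf M)) ∧
      ((K = ⊥ ∧ IsMulCommutative (Cfsg.fittingHallOf M) ∧ Cfsg.RankLE 2 (Cfsg.fittingHallOf M) ∧ ¬ Cfsg.RankLE 1 (Cfsg.fittingHallOf M)) ∨
       (∃ p : ℕ, p.Prime ∧ Nat.card ↥(Cfsg.fittingOf M ⊓ (Cfsg.fittingOf M).map (MulAut.conj g).toMonoidHom) = p ∧ p ∈ Cfsg.sigma M ∧ p ∉ Cfsg.beta M ∧
          ¬ IsMulCommutative (Cfsg.pCore p ↥(Cfsg.fittingHallOf M)) ∧ IsCyclic (Cfsg.pPrimeCore p ↥(Cfsg.fittingHallOf M)) ∧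
          ∀ q : ℕ, q.Prime → q ∣ Nat.card (Cfsg.fittingHallOf M) → Monoid.exponent (↥M ⧸ Cfsg.fittingHall ↥M) ∣ q - 1) ∨
       (∃ p : ℕ, p.Prime ∧ Nat.card ↥(Cfsg.fittingOf M ⊓ (Cfsg.fittingOf M).map (MulAut.conj g).toMonoidHom) = p ∧ p ∈ Cfsg.sigma M ∧ p ∉ Cfsg.beta M ∧
          IsCyclic (Cfsg.pPrimeCore p ↥(Cfsg.fittingHallOf M)) ∧ Nat.card (Cfsg.pCore p ↥(Cfsg.fittingHallOf M)) = p ^ 3 ∧
          ¬ IsMulCommutative (Cfsg.pCore p ↥(Cfsg.fittingHallOf M)) ∧ K ≠ ⊥ ∧ U = ⊥ ∧ (Cfsg.fittingHallOf M).relIndex M ∣ p + 1)) := by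
  exact (Cfsg.Agent.S0205.no_minSimple hG).elim

end Cfsg.Agent.S1440
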