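-- Proof of S1380, conditional on S1350, S1351, S1352, S1354, S1355, S1357, S1359, S1360, S1364, S1375, S1404,
-- S1417, S1418, S1419, S1432, S1440.
import Cfsg.Statements.S1380
import Mathlib
import Cfsg.Agent.OddOrderLocal.TypeFData
import Cfsg.Agent.S1381
import Cfsg.Agent.OddOrderLocal.TypeITrich
import Cfsg.Agent.S1364
import Cfsg.Agent.S1404
import Cfsg.Agent.S1440
import Cfsg.Agent.Prune
set_option linter.all false
open scoped Cfsg.Agent.FastGrp

set_option autoImplicit false
open Cfsg

namespace Cfsg.Agent.S1380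

open Cfsg.Agent.OddOrderLocal

/-- Let G be a minimal simple group of odd order and M a maximal subgroup with standard factorisation M = K U M_σ. Then M is of Type I if and only if K = 1 and U ≠ 1. -/
theorem result {G : Type*} [Group G] [Finite G] (hG : Cfsg.IsMinSimpleOddOrder G)
    (M : Subgroup G) (hM : IsCoatom M) (K U : Subgroup G) (hKU : Cfsg.IsSigmaDecomposition M K U) :
    Cfsg.IsOfTypeI M ↔ (K = ⊥ ∧ U ≠ ⊥) := by
  constructor
  · intro hI
    have hK : K = ⊥ := by
      by_contra hK1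
      obtain ⟨-, h1, h2, -⟩ := Cfsg.Agent.S1364.result hG M hM K U hKU hK1
      refine TypeFData.not_isOfTypeF_of_fixed hI.1 hKU.hall.1 hK1
        (FitAux.coprime_of_isPiHallOf hKU.hall) ?_ h1 h2 ?_
      · have h3 := SigmaDecomp.coprime_card_sigmaCore (M := M) hKU.hall.2.1
        exact Nat.Coprime.coprime_dvd_right
          (Subgroup.card_dvd_of_le (Cfsg.Agent.S1355.result hG M hM).2.1) h3
      · intro x hx _ y hy
        exact Subgroup.mem_centralizer_iff.mp hy.2 x hx
    exact ⟨hK, TypeFSigma.ne_bot_of_eq_bot hG hM hKU hK⟩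
  · rintro ⟨hK, hU⟩
    refine ⟨TypeFSigma.isOfTypeF_of_eq_bot hG hM hKU hK, ?_⟩
    have hF := TypeFSigma.fittingHallOf_eq_sigmaCore hG hM hKU hU
    by_cases hTI : Cfsg.IsTISubset (Cfsg.fittingHallOf M : Set G)
    · exact Or.inl hTI
    right
    obtain ⟨g, hg, x, hx, hgx, hx1⟩ : ∃ g : G, g ∉ Subgroup.normalizer (Cfsg.fittingHallOf M : Set G) ∧
        ∃ x, x ∈ (Cfsg.fittingHallOf M : Set G) ∧ g * x * g⁻¹ ∈ (Cfsg.fittingHallOf M : Set G) ∧ x ≠ 1 := by
      unfold Cfsg.IsTISubset at hTI
      push Not at hTI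
      obtain ⟨g, hg, x, hx, hgx, hx1⟩ := hTI
      exact ⟨g, hg, x, hx, hgx, hx1⟩
    have hgM : g ∉ M := fun h => hg (FitAux.le_normalizer_fittingHallOf M h)
    have hHF := FitAux.fittingHallOf_le_fittingOf M
    set X : Subgroup G := Cfsg.fittingOf M ⊓ (Cfsg.fittingOf M).map (MulAut.conj g).toMonoidHom with hXdef
    have hyX : g * x * g⁻¹ ∈ X := ⟨hHF hgx, x, hHF hx, rfl⟩
    have hy1 : g * x * g⁻¹ ≠ 1 := by
      intro h
      apply hx1
      have := congrArg (fun z => g⁻¹ * z * g) h
      simpa [mul_assoc] using this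
    have hX : X ≠ ⊥ := by
      intro h
      rw [h, Subgroup.mem_bot] at hyX
      exact hy1 hyX
    obtain ⟨⟨hXH, -⟩, ⟨hder, -⟩, hcases⟩ := Cfsg.Agent.S1440.result hG M hM K U hKU g hgM hX
    rcases hcases with ⟨-, hab, hr2, hr1⟩ | ⟨p, hp, hXc, hpσ, -, hPna, hQc, hexp⟩ | ⟨p, -, -, -, -, -, -, -, hK1, -⟩
    · exact Or.inl ⟨hab, hr2, hr1⟩
    · right
      refine ⟨hexp, p, hp, ?_, ?_⟩
      · rw [← hXc]
        exact Subgroup.card_dvd_of_le hXH
      · have : Fact p.Prime := ⟨hp⟩
        have hyo : orderOf (g * x * g⁻¹) = p := by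
          have h1 : orderOf (g * x * g⁻¹) ∣ p := by
            have := orderOf_dvd_natCard (⟨g * x * g⁻¹, hyX⟩ : X)
            rwa [Subgroup.orderOf_mk, hXc] at this
          rcases (Nat.dvd_prime hp).mp h1 with h | h
          · exact absurd (orderOf_eq_one_iff.mp h) hy1
          · exact h
        have hxo : orderOf x = p := by
          rw [← hyo]
          exact (orderOf_injective (MulAut.conj g).toMonoidHom (MulAut.conj g).injective x).symm
        refine TypeITrich.isCyclic_pPrimeCore hG hM hKU hK hF hx hxo ?_ hPna hQc hder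
        intro hxM
        -- fusion control
        have hxMm : x ∈ M := FitAux.fittingHallOf_le M hx
        have hz : IsPGroup p (Subgroup.zpowers x) := by
          refine IsPGroup.of_card (n := 1) ?_
          rw [Nat.card_zpowers, hxo, pow_one]
        obtain ⟨m, hm, c, hc, hgmc⟩ := (Cfsg.Agent.S1404.result hG M hM p hpσ (Subgroup.zpowers x) hz
          (by rwa [Ne, Subgroup.zpowers_eq_bot]) ((Subgroup.zpowers_le).mpr hxMm)).1 g (by
            rw [MonoidHom.map_zpowers, Subgroup.zpowers_le]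
            exact FitAux.fittingHallOf_le M hgx)
        apply hgM
        rw [hgmc]
        refine M.mul_mem hm (hxM ?_)
        apply TypeITrich.mem_centralizer_singleton
        exact (Subgroup.mem_centralizer_iff.mp hc x (Subgroup.mem_zpowers x)).symm
    · exact absurd hK hK1

end Cfsg.Agent.S1380
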