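import Cfsg.Statements.S1384
import Mathlib
import Cfsg.Agent.OddOrderLocal.MinSimpleBasic
import Cfsg.Agent.OddOrderLocal.SigmaBasic
import Cfsg.Agent.OddOrderLocal.Rank
import Cfsg.Agent.OddOrderLocal.RankOneCyclic
import Cfsg.Agent.S1350
import Cfsg.Agent.S1351
import Cfsg.Agent.S1354
import Cfsg.Agent.S1405
import Cfsg.Agent.S1417
import Cfsg.Agent.S1425
import Cfsg.Agent.S1431
import Cfsg.Agent.S1438
set_option linter.all false

set_option autoImplicit false
open Cfsg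

namespace Cfsg.Agent.S1384

open Cfsg.Agent.OddOrderLocal
open scoped Pointwise

section helpers

variable {G : Type*} [Group G]

theorem conj_mem_sigmaCore (M : Subgroup G) {m x : G} (hm : m ∈ M) (hx : x ∈ sigmaCore M) :
    m * x * m⁻¹ ∈ sigmaCore M := by
  obtain ⟨y, hy, rfl⟩ := hx
  exact ⟨⟨m, hm⟩ * y * ⟨m, hm⟩⁻¹, (piCore_normal (sigma M) M).conj_mem y hy ⟨m, hm⟩, by simp⟩

theorem card_mul_relIndex {H K : Subgroup G} (h : H ≤ K) :
    Nat.card H * H.relIndex K = Nat.card K := by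
  have := Subgroup.relIndex_mul_relIndex (⊥ : Subgroup G) H K bot_le h
  simpa using this

variable [Finite G]

/-- A nilpotent Hall subgroup contains Sylow subgroups of the whole group. -/
theorem exists_sylow_le_of_hall {H : Subgroup G} (hHall : (Nat.card H).Coprime H.index)
    {r : ℕ} [hr : Fact r.Prime] (hrH : r ∣ Nat.card H) :
    ∃ R : Sylow r G, (R : Subgroup G) ≤ H := by
  obtain ⟨R₀⟩ : Nonempty (Sylow r H) := inferInstance
  have h1 : IsPGroup r ((R₀ : Subgroup H).map H.subtype) := R₀.isPGroup'.map _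
  have h2 : ¬ r ∣ ((R₀ : Subgroup H).map H.subtype).index := by
    intro hd
    rw [Subgroup.index_map_subtype] at hd
    rcases (hr.out.dvd_mul).mp hd with h3 | h3
    · exact R₀.not_dvd_index h3
    · have h4 : r ∣ Nat.gcd (Nat.card H) H.index := Nat.dvd_gcd hrH h3
      rw [hHall.gcd_eq_one] at h4
      exact hr.out.one_lt.ne' (Nat.dvd_one.mp h4)
  exact ⟨h1.toSylow h2, Subgroup.map_subtype_le _⟩

/-- Sylow subgroups for different primes of a nilpotent group commute. -/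
theorem sylow_commute {H : Subgroup G} (hHn : Group.IsNilpotent H) {p q : ℕ} [hp : Fact p.Prime]
    [hq : Fact q.Prime] (hpq : p ≠ q) (P : Sylow p G) (Q : Sylow q G) (hPH : (P : Subgroup G) ≤ H)
    (hQH : (Q : Subgroup G) ≤ H) :
    ∀ x ∈ (P : Subgroup G), ∀ y ∈ (Q : Subgroup G), x * y = y * x := by
  intro x hx y hy
  have hP : ((P.subtype hPH : Sylow p H) : Subgroup H).Normal := inferInstance
  have hQ : ((Q.subtype hQH : Sylow q H) : Subgroup H).Normal := inferInstance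
  have hdis : Disjoint ((P.subtype hPH : Sylow p H) : Subgroup H)
      ((Q.subtype hQH : Sylow q H) : Subgroup H) :=
    IsPGroup.disjoint_of_ne p q hpq _ _ (P.subtype hPH).isPGroup' (Q.subtype hQH).isPGroup'
  have h := Subgroup.commute_of_normal_of_disjoint _ _ hP hQ hdis ⟨x, hPH hx⟩ ⟨y, hQH hy⟩
    (by rw [Sylow.coe_subtype]; exact hx) (by rw [Sylow.coe_subtype]; exact hy)
  exact congrArg Subtype.val h

/-- Commuting Sylow subgroups: if `P ≤ M_σ` then the prime of `Q` lies in `σ(M)`. -/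
theorem mem_sigma_of_commuting_sylow (hG : IsMinSimpleOddOrder G) (M : Subgroup G)
    (hM : IsCoatom M) {p q : ℕ} [hp : Fact p.Prime] [hqp : Fact q.Prime] (P : Sylow p G)
    (Q : Sylow q G) (hP1 : (P : Subgroup G) ≠ ⊥) (hqG : q ∣ Nat.card G)
    (hPM : (P : Subgroup G) ≤ sigmaCore M) (hpσ : p ∈ sigma M)
    (hcomm : ∀ x ∈ (P : Subgroup G), ∀ y ∈ (Q : Subgroup G), x * y = y * x) :
    q ∈ sigma M := by
  by_contra hq
  have hS := (S1350.result hG M hM).1
  have hSM : sigmaCore M ≤ M := hS.1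
  obtain ⟨P', hP'⟩ := MinSimpleBasic.exists_sylow_subtype P (hPM.trans hSM)
  have hNP : Subgroup.normalizer ((P : Subgroup G) : Set G) ≤ M := by
    have := SigmaBasic.normalizer_sylow_le hpσ P'
    rwa [hP'] at this
  have hQM : (Q : Subgroup G) ≤ M := by
    refine le_trans ?_ hNP
    rw [Subgroup.le_normalizer_iff]
    intro y hy x hx
    rw [← hcomm x hx y hy, mul_inv_cancel_right]; exact hx
  obtain ⟨Q', hQ'⟩ := MinSimpleBasic.exists_sylow_subtype Q hQM
  have hQ1 : (Q : Subgroup G) ≠ ⊥ := Q.ne_bot_of_dvd_card hqG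
  have hqQ : q ∣ Nat.card (Q : Subgroup G) := Q.dvd_card_of_dvd_card hqG
  have hqM : q ∣ Nat.card M := hqQ.trans (Subgroup.card_dvd_of_le hQM)
  have hq2 : q ≠ 2 := MinSimpleBasic.prime_ne_two_of_dvd hG hqG
  obtain ⟨x₀, hx₀Q, hx₀1⟩ := (Subgroup.bot_or_exists_ne_one (Q : Subgroup G)).resolve_left hQ1
  obtain ⟨y₀, hy₀P, hy₀1⟩ := (Subgroup.bot_or_exists_ne_one (P : Subgroup G)).resolve_left hP1
  -- the `q`-rank of `M` is at most two
  have hrank2 : PRankLE q 2 M := by
    by_contra h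
    have hα : q ∈ alpha M := ⟨hqp.out, h⟩
    have h405 := S1405.result hG M hM
    apply hq
    refine hS.2.1 q hqp.out ?_
    refine dvd_trans ?_ (Subgroup.card_dvd_of_le h405.2.2.1)
    have h1 := h405.1.2.2 q hqp.out hα
    have h2 : Nat.card (alphaCore M) * (alphaCore M).relIndex M = Nat.card M :=
      card_mul_relIndex h405.1.1
    rw [← h2] at hqM
    exact (hqp.out.dvd_mul.mp hqM).resolve_right h1
  -- the `q`-rank of `M` is at most one
  have hrank1 : PRankLE q 1 M := by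
    by_contra h
    have hτ : q ∈ tau2 M := ⟨hqp.out, hq, hrank2, h⟩
    have h1 : ¬ PRankLE q 1 ↥((Q' : Subgroup M).map M.subtype) := by
      rw [Rank.pRankLE_map_sylow Q']; exact h
    rw [hQ'] at h1
    obtain ⟨A, hAQ, hA, hAc⟩ := Rank.exists_elemAb_of_not_pRankLE h1
    have h17 := S1417.result hG M hM q hτ A ⟨hAQ.trans hQM, hA, hAc⟩
    have h2 := h17.2.2.2.1
    apply hP1
    rw [eq_bot_iff, ← h2]
    refine le_inf hPM ?_
    intro x hx
    rw [Subgroup.mem_centralizer_iff]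
    intro y hy
    exact (hcomm x hx y (hAQ hy)).symm
  have hcyc : ∀ R : Sylow q M, IsCyclic R := fun R =>
    RankOneCyclic.isCyclic_sylow_of_pRankLE_one hq2 hrank1 R
  -- every Sylow `q`-subgroup of `M` contains a conjugate of `x₀`
  have hconj : ∀ R : Sylow q M, ∃ m : M, R = m • Q' := by
    intro R
    obtain ⟨m, hm⟩ := MulAction.exists_smul_eq M Q' R
    exact ⟨m, hm.symm⟩
  have hmem : ∀ (m : M), ∀ z ∈ (Q : Subgroup G), ∀ w : M, (w : G) = (m : G) * z * (m : G)⁻¹ →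
      w ∈ ((m • Q' : Sylow q M) : Subgroup M) := by
    intro m z hz w hw
    rw [← hQ'] at hz
    obtain ⟨z', hz', rfl⟩ := hz
    have h1 : w = m * z' * m⁻¹ := Subtype.ext hw
    have h2 : ((m • Q' : Sylow q M) : Subgroup M) = MulAut.conj m • (Q' : Subgroup M) := rfl
    rw [h1, h2]
    have := Subgroup.smul_mem_pointwise_smul z' (MulAut.conj m) (Q' : Subgroup M) hz'
    simpa [MulAut.smul_def] using this
  have hκ : q ∈ kappa M := by
    refine ⟨hqp.out, hqM, hq, fun R => ⟨hcyc R, ?_⟩⟩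
    obtain ⟨m, rfl⟩ := hconj R
    refine ⟨m * ⟨x₀, hQM hx₀Q⟩ * m⁻¹, hmem m x₀ hx₀Q _ (by simp), ?_,
      (m : G) * y₀ * (m : G)⁻¹, conj_mem_sigmaCore M m.2 (hPM hy₀P), ?_, ?_⟩
    · intro h1
      apply hx₀1
      have h2 : (m : G) * x₀ * (m : G)⁻¹ = 1 := congrArg Subtype.val h1
      have h3 : x₀ = (m : G)⁻¹ * ((m : G) * x₀ * (m : G)⁻¹) * (m : G) := by group
      rw [h3, h2]; group
    · intro h2
      apply hy₀1
      have h3 : y₀ = (m : G)⁻¹ * ((m : G) * y₀ * (m : G)⁻¹) * (m : G) := by group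
      rw [h3, h2]; group
    · have h1 := hcomm y₀ hy₀P x₀ hx₀Q
      push_cast
      calc (m : G) * x₀ * (m : G)⁻¹ * ((m : G) * y₀ * (m : G)⁻¹)
          = (m : G) * (x₀ * y₀) * (m : G)⁻¹ := by group
        _ = (m : G) * (y₀ * x₀) * (m : G)⁻¹ := by rw [h1]
        _ = (m : G) * y₀ * (m : G)⁻¹ * ((m : G) * x₀ * (m : G)⁻¹) := by group
  obtain ⟨⟨K, hK⟩, hKcyc⟩ := S1351.result hG M hM
  have hqK : q ∣ Nat.card K := by
    have h1 := hK.2.2 q hqp.out hκ
    have h2 : Nat.card K * K.relIndex M = Nat.card M := card_mul_relIndex hK.1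
    rw [← h2] at hqM
    exact (hqp.out.dvd_mul.mp hqM).resolve_right h1
  have hK1 : K ≠ ⊥ := by
    rintro rfl
    rw [Subgroup.card_bot] at hqK
    exact hqp.out.one_lt.ne' (Nat.dvd_one.mp hqK)
  have h54 := (S1354.result hG M hM K (hKcyc K hK) hK).2 hK1
  -- a Sylow `q`-subgroup of `M` inside `K`
  obtain ⟨R, hRK⟩ : ∃ R : Sylow q M, (R : Subgroup M) ≤ K.subgroupOf M := by
    obtain ⟨R₀⟩ : Nonempty (Sylow q (K.subgroupOf M)) := inferInstance
    have h1 : IsPGroup q ((R₀ : Subgroup (K.subgroupOf M)).map (K.subgroupOf M).subtype) :=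
      R₀.isPGroup'.map _
    have h2 : ¬ q ∣ ((R₀ : Subgroup (K.subgroupOf M)).map (K.subgroupOf M).subtype).index := by
      intro hd
      rw [Subgroup.index_map_subtype] at hd
      rcases (hqp.out.dvd_mul).mp hd with h3 | h3
      · exact R₀.not_dvd_index h3
      · exact hK.2.2 q hqp.out hκ h3
    exact ⟨h1.toSylow h2, Subgroup.map_subtype_le _⟩
  obtain ⟨m, rfl⟩ := hconj R
  have hdis : K ⊓ sigmaCore M = ⊥ := by
    refine (Subgroup.disjoint_of_coprime_natCard ?_).eq_bot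
    rw [Nat.coprime_iff_gcd_eq_one]
    by_contra hne
    obtain ⟨r, hr, hrd⟩ := Nat.exists_prime_and_dvd hne
    exact (hK.2.1 r hr (hrd.trans (Nat.gcd_dvd_left _ _))).2.2.1
      (hS.2.1 r hr (hrd.trans (Nat.gcd_dvd_right _ _)))
  set k : G := (m : G) * x₀ * (m : G)⁻¹ with hk
  have hkK : k ∈ K := by
    have h1 : (⟨k, M.mul_mem (M.mul_mem m.2 (hQM hx₀Q)) (M.inv_mem m.2)⟩ : M) ∈
        ((m • Q' : Sylow q M) : Subgroup M) := hmem m x₀ hx₀Q _ rfl
    exact hRK h1
  have hk1 : k ≠ 1 := by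
    intro h2
    apply hx₀1
    have h3 : x₀ = (m : G)⁻¹ * ((m : G) * x₀ * (m : G)⁻¹) * (m : G) := by group
    rw [h3, ← hk, h2]; group
  have h54k := h54 k hkK hk1
  set Ks := sigmaCore M ⊓ Subgroup.centralizer (K : Set G) with hKs
  -- the conjugate of `P` by `m` lies in `K*`
  have hP₁K : (((m : G) • P : Sylow p G) : Subgroup G) ≤ Ks := by
    intro y hy
    have hy' : ∃ y' ∈ (P : Subgroup G), y = (m : G) * y' * (m : G)⁻¹ := by
      have h2 : (((m : G) • P : Sylow p G) : Subgroup G) = MulAut.conj (m : G) • (P : Subgroup G) := rfl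
      rw [h2] at hy
      obtain ⟨y', hy', rfl⟩ := hy
      exact ⟨y', hy', rfl⟩
    obtain ⟨y', hy', rfl⟩ := hy'
    have hyS : (m : G) * y' * (m : G)⁻¹ ∈ sigmaCore M := conj_mem_sigmaCore M m.2 (hPM hy')
    have hyC : (m : G) * y' * (m : G)⁻¹ ∈ M ⊓ Subgroup.centralizer ({k} : Set G) := by
      refine ⟨hSM hyS, ?_⟩
      refine Subgroup.mem_centralizer_iff.mpr ?_
      intro z hz
      rw [Set.mem_singleton_iff] at hz
      rw [hz, hk]
      have h1 := hcomm y' hy' x₀ hx₀Q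
      calc (m : G) * x₀ * (m : G)⁻¹ * ((m : G) * y' * (m : G)⁻¹)
          = (m : G) * (x₀ * y') * (m : G)⁻¹ := by group
        _ = (m : G) * (y' * x₀) * (m : G)⁻¹ := by rw [h1]
        _ = (m : G) * y' * (m : G)⁻¹ * ((m : G) * x₀ * (m : G)⁻¹) := by group
    rw [h54k] at hyC
    have hKN : K ≤ Subgroup.normalizer (Ks : Set G) := by
      rw [Subgroup.le_normalizer_iff]
      intro k' hk' z hz
      have : k' * z = z * k' := Subgroup.mem_centralizer_iff.mp hz.2 k' hk'
      rw [this, mul_inv_cancel_right]; exact hz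
    have h1 : ((m : G) * y' * (m : G)⁻¹) ∈ (↑(K ⊔ Ks) : Set G) := hyC
    rw [Subgroup.coe_mul_of_left_le_normalizer_right K Ks hKN] at h1
    obtain ⟨k', hk', s, hs, hks⟩ := Set.mem_mul.mp h1
    have hk'S : k' ∈ K ⊓ sigmaCore M := by
      refine ⟨hk', ?_⟩
      have h3 : k' = (m : G) * y' * (m : G)⁻¹ * s⁻¹ := by rw [← hks]; group
      rw [h3]
      exact (sigmaCore M).mul_mem hyS ((sigmaCore M).inv_mem hs.1)
    rw [hdis, Subgroup.mem_bot] at hk'S
    rw [← hks, hk'S, one_mul]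
    exact hs
  have hP₁1 : p ∣ Nat.card (((m : G) • P : Sylow p G) : Subgroup G) := by
    have hpG : p ∣ Nat.card G := by
      have hpM := hpσ.2.1
      exact hpM.trans (Subgroup.card_subgroup_dvd_card M)
    exact ((m : G) • P : Sylow p G).dvd_card_of_dvd_card hpG
  obtain ⟨S, hSeq⟩ := MinSimpleBasic.exists_sylow_subtype ((m : G) • P : Sylow p G)
    (hP₁K.trans inf_le_left)
  have h31 := (S1431.result hG M hM K hK hK1).2.2.1 p hp.out
    (hP₁1.trans (Subgroup.card_dvd_of_le hP₁K)) S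
  apply h31.2.2
  rw [hSeq]
  exact hP₁K

end helpers

/-- Let G be a minimal simple group of odd order and H a nilpotent subgroup whose order is coprime to its index. If x ∈ H and gxg⁻¹ ∈ H for some g ∈ G, then nxn⁻¹ = gxg⁻¹ for some n in the normalizer of H. -/
theorem result {G : Type*} [Group G] [Finite G] (hG : Cfsg.IsMinSimpleOddOrder G)
    (H : Subgroup G) (hHn : Group.IsNilpotent H) (hHall : (Nat.card H).Coprime H.index) :
    ∀ x ∈ H, ∀ g : G, g * x * g⁻¹ ∈ H → ∃ n ∈ Subgroup.normalizer (H : Set G), n * x * n⁻¹ = g * x * g⁻¹ := by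
  intro x hx g hgx
  by_cases hH1 : H = ⊥
  · subst hH1
    rw [Subgroup.mem_bot] at hx
    subst hx
    exact ⟨1, one_mem _, by group⟩
  have hc1 : Nat.card H ≠ 1 := fun h => hH1 ((Subgroup.card_eq_one).mp h)
  obtain ⟨p, hp, hpH⟩ := Nat.exists_prime_and_dvd hc1
  have hpF : Fact p.Prime := ⟨hp⟩
  obtain ⟨P, hPH⟩ := exists_sylow_le_of_hall hHall hpH
  have hpG : p ∣ Nat.card G := hpH.trans (Subgroup.card_subgroup_dvd_card H)
  have hP1 : (P : Subgroup G) ≠ ⊥ := P.ne_bot_of_dvd_card hpG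
  have hPT : (P : Subgroup G) ≠ ⊤ := MinSimpleBasic.sylow_ne_top hG P
  obtain ⟨M, hM, hNM⟩ := MinSimpleBasic.exists_coatom_normalizer_le hG hP1 hPT
  have hpσ : p ∈ sigma M := MinSimpleBasic.mem_sigma_of_normalizer_le P hP1 hNM
  have hPσ : ∀ r : ℕ, r.Prime → r ∣ Nat.card (P : Subgroup G) → r ∈ sigma M := by
    intro r hr hrP
    obtain ⟨n, hn⟩ := IsPGroup.iff_card.mp P.isPGroup'
    rw [hn] at hrP
    rw [(Nat.prime_dvd_prime_iff_eq hr hp).mp (hr.dvd_of_dvd_pow hrP)]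
    exact hpσ
  obtain ⟨b, hb⟩ := S1425.result hG M hM (P : Subgroup G) hP1 hPσ
  have hHσ : ∀ q : ℕ, q.Prime → q ∣ Nat.card H → q ∈ sigma M := by
    intro q hq hqH
    by_cases hpq : p = q
    · exact hpq ▸ hpσ
    have hqF : Fact q.Prime := ⟨hq⟩
    obtain ⟨Q, hQH⟩ := exists_sylow_le_of_hall hHall hqH
    have hqG : q ∣ Nat.card G := hqH.trans (Subgroup.card_subgroup_dvd_card H)
    have hcomm := sylow_commute hHn hpq P Q hPH hQH
    have hP1' : ((b • P : Sylow p G) : Subgroup G) ≠ ⊥ := (b • P).ne_bot_of_dvd_card hpG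
    have hPM' : ((b • P : Sylow p G) : Subgroup G) ≤ sigmaCore M := hb
    refine mem_sigma_of_commuting_sylow hG M hM (b • P) (b • Q) hP1' hqG hPM' hpσ ?_
    intro x hx y hy
    have h2 : ((b • P : Sylow p G) : Subgroup G) = MulAut.conj b • (P : Subgroup G) := rfl
    have h3 : ((b • Q : Sylow q G) : Subgroup G) = MulAut.conj b • (Q : Subgroup G) := rfl
    rw [h2] at hx
    rw [h3] at hy
    obtain ⟨x', hx', rfl⟩ := hx
    obtain ⟨y', hy', rfl⟩ := hy
    have h4 := hcomm x' hx' y' hy'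
    simp only [MulDistribMulAction.toMonoidEnd_apply, MulDistribMulAction.toMonoidHom_apply,
      MulAut.smul_def]
    rw [← map_mul, ← map_mul, h4]
  obtain ⟨a, ha⟩ := S1425.result hG M hM H hH1 hHσ
  set H' := H.map (MulAut.conj a).toMonoidHom with hH'
  have hH'1 : H' ≠ ⊥ := by
    intro h
    apply hH1
    rw [hH', Subgroup.map_eq_bot_iff_of_injective _ (MulAut.conj a).injective] at h
    exact h
  have hcard : Nat.card H' = Nat.card H := MinSimpleBasic.card_map_conj H a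
  have hindex : H'.index = H.index := by
    have h1 := H'.card_mul_index
    have h2 := H.card_mul_index
    rw [hcard, ← h2] at h1
    exact Nat.eq_of_mul_eq_mul_left Nat.card_pos h1
  have hcop : (Nat.card H').Coprime (H'.relIndex (sigmaCore M)) := by
    rw [hcard]
    refine Nat.Coprime.coprime_dvd_right ?_ hHall
    rw [← hindex]
    exact Subgroup.relIndex_dvd_index_of_le ha
  have h38 := (S1438.result hG M hM H' ha hH'1 hcop).2
  obtain ⟨n, hn, hnx⟩ := h38 (a * x * a⁻¹) (MinSimpleBasic.conj_mem_map_conj hx) (a * g * a⁻¹)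
    (by
      have h1 : a * g * a⁻¹ * (a * x * a⁻¹) * (a * g * a⁻¹)⁻¹ = a * (g * x * g⁻¹) * a⁻¹ := by group
      rw [h1]
      exact MinSimpleBasic.conj_mem_map_conj hgx)
  refine ⟨a⁻¹ * n * a, ?_, ?_⟩
  · have hn2 : n ∈ Subgroup.normalizer (H' : Set G) := hn.2
    rw [MinSimpleBasic.mem_normalizer_iff_map_conj, hH'] at hn2
    have h1 : (a⁻¹ * n * a) = a⁻¹ * (n * a) := by group
    rw [MinSimpleBasic.mem_normalizer_iff_map_conj, h1, MinSimpleBasic.map_conj_mul,
      MinSimpleBasic.map_conj_mul, hn2, ← MinSimpleBasic.map_conj_mul, inv_mul_cancel,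
      MinSimpleBasic.map_conj_one]
  · calc a⁻¹ * n * a * x * (a⁻¹ * n * a)⁻¹ = a⁻¹ * (n * (a * x * a⁻¹) * n⁻¹) * a := by group
      _ = a⁻¹ * (a * g * a⁻¹ * (a * x * a⁻¹) * (a * g * a⁻¹)⁻¹) * a := by rw [hnx]
      _ = g * x * g⁻¹ := by group

end Cfsg.Agent.S1384
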