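-- Proof of S1385 (B & G, Theorem I), conditional on S1351, S1352, S1355, S1364, S1365, S1366, S1368, S1369,
-- S1370, S1380, S1381, S1382, S1383.
import Cfsg.Statements.S1385
import Mathlib
import Cfsg.Agent.OddOrderLocal.FitAux
import Cfsg.Agent.OddOrderLocal.PiCore
import Cfsg.Agent.S1351
import Cfsg.Agent.S1352
import Cfsg.Agent.S1355
import Cfsg.Agent.S1364
import Cfsg.Agent.S1365
import Cfsg.Agent.S1366
import Cfsg.Agent.S1368
import Cfsg.Agent.S1369
import Cfsg.Agent.S1370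
import Cfsg.Agent.S1380
import Cfsg.Agent.S1381
import Cfsg.Agent.S1382
import Cfsg.Agent.S1383
import Cfsg.Agent.FastGrp
import Cfsg.Agent.Prune
set_option linter.all false
open scoped Cfsg.Agent.FastGrp

set_option autoImplicit false
open Cfsg

namespace Cfsg.Agent.S1385

open Subgroup
open Cfsg.Agent.OddOrderLocal

/-- `K ∩ M_σ = 1` for a `κ(M)`-subgroup `K`. -/
theorem inf_sigmaCore_eq_bot {G : Type*} [Group G] [Finite G] {M K : Subgroup G}
    (hK : IsPiHallOf (kappa M) K M) : K ⊓ sigmaCore M = ⊥ := by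
  refine Subgroup.inf_eq_bot_of_coprime ?_
  rw [Nat.coprime_iff_gcd_eq_one]
  by_contra hne
  obtain ⟨p, hp, hd⟩ := Nat.exists_prime_and_dvd hne
  have h1 := hK.2.1 p hp (hd.trans (Nat.gcd_dvd_left _ _))
  have h2 : p ∣ Nat.card (piCore (sigma M) M) := by
    have h3 : Nat.card (sigmaCore M) = Nat.card (piCore (sigma M) M) :=
      Nat.card_congr ((piCore (sigma M) M).equivMapOfInjective M.subtype
        (Subgroup.subtype_injective M)).symm.toEquiv
    rw [← h3]
    exact hd.trans (Nat.gcd_dvd_right _ _)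
  exact h1.2.2.1 (PiCore.piCore_isPi (sigma M) p hp h2)

/-- `K` is a complement of `M'` in `M` when `K ≠ 1`. -/
theorem isComplIn_commutator {G : Type*} [Group G] [Finite G] (hG : Cfsg.IsMinSimpleOddOrder G)
    (M : Subgroup G) (hM : IsCoatom M) (K U : Subgroup G) (hKU : Cfsg.IsSigmaDecomposition M K U)
    (hK1 : K ≠ ⊥) : Cfsg.IsComplIn ⁅M, M⁆ K M := by
  have hder := (S1365.result hG M hM K U hKU hK1).1
  obtain ⟨hUM, hKM, hinf, hfac⟩ := hKU.compl
  have hn := FitAux.le_normalizer_sigmaCore M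
  have hUn : U ≤ Subgroup.normalizer (sigmaCore M : Set G) := hUM.trans hn
  have hKn : K ≤ Subgroup.normalizer (sigmaCore M : Set G) := (hKU.hall.1).trans hn
  refine ⟨?_, hKU.hall.1, ?_, ?_⟩
  · rw [hder]
    exact sup_le hUM (FitAux.sigmaCore_le M)
  · rw [eq_bot_iff]
    rintro x ⟨hx1, hx2⟩
    rw [hder] at hx1
    have hx3 : x ∈ ((U ⊔ sigmaCore M : Subgroup G) : Set G) := hx1
    rw [Subgroup.coe_mul_of_left_le_normalizer_right U (sigmaCore M) hUn] at hx3
    obtain ⟨u, hu, s, hs, rfl⟩ := hx3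
    have hu1 : u ∈ U ⊓ (K ⊔ sigmaCore M) := by
      refine ⟨hu, ?_⟩
      have : u = (u * s) * s⁻¹ := by group
      rw [this]
      exact mul_mem (mem_sup_left hx2) (mem_sup_right (inv_mem hs))
    rw [hinf, Subgroup.mem_bot] at hu1
    subst hu1
    have h4 : 1 * s ∈ K ⊓ sigmaCore M := by
      refine ⟨hx2, ?_⟩
      rw [one_mul]; exact hs
    rw [inf_sigmaCore_eq_bot hKU.hall] at h4
    exact h4
  · intro m hm
    obtain ⟨u, hu, c, hc, rfl⟩ := hfac m hm
    have hc3 : c ∈ ((sigmaCore M ⊔ K : Subgroup G) : Set G) := by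
      rw [sup_comm]; exact hc
    rw [Subgroup.coe_mul_of_right_le_normalizer_left (sigmaCore M) K hKn] at hc3
    obtain ⟨s, hs, k, hk, rfl⟩ := hc3
    refine ⟨u * s, ?_, k, hk, ?_⟩
    · rw [hder]
      exact mul_mem (mem_sup_left hu) (mem_sup_right hs)
    · exact (mul_assoc u s k).symm

/-- Types of maximal subgroups with `κ ≠ ∅`. -/
theorem type_two_to_five {G : Type*} [Group G] [Finite G] (hG : Cfsg.IsMinSimpleOddOrder G)
    (M : Subgroup G) (hM : IsCoatom M) (K U : Subgroup G) (hKU : Cfsg.IsSigmaDecomposition M K U)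
    (hK1 : K ≠ ⊥) :
    Cfsg.IsOfTypeII M ∨ Cfsg.IsOfTypeIII M ∨ Cfsg.IsOfTypeIV M ∨ Cfsg.IsOfTypeV M := by
  by_cases hU : U = ⊥
  · by_cases hF : Cfsg.fittingHallOf M = Cfsg.sigmaCore M
    · exact Or.inr (Or.inr (Or.inr ((S1383.result hG M hM K U hKU).2 ⟨hK1, hU, hF⟩)))
    · rcases (S1382.result hG M hM K U hKU).2 ⟨hK1, hU, hF⟩ with h | h
      · exact Or.inr (Or.inl h)
      · exact Or.inr (Or.inr (Or.inl h))
  · exact Or.inl ((S1381.result hG M hM K U hKU).2 ⟨hK1, hU⟩)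

/-- A standard factorisation exists. -/
theorem exists_decomposition {G : Type*} [Group G] [Finite G] (hG : Cfsg.IsMinSimpleOddOrder G)
    (M : Subgroup G) (hM : IsCoatom M) : ∃ K U : Subgroup G, Cfsg.IsSigmaDecomposition M K U := by
  obtain ⟨⟨K, hK⟩, hcyc⟩ := S1351.result hG M hM
  obtain ⟨⟨U, hU⟩, -⟩ := S1352.result hG M hM K (hcyc K hK) hK
  exact ⟨K, U, hU⟩

/-- If `κ(M) = ∅` then `M` is of Type I. -/
theorem typeI_of_kappa_empty {G : Type*} [Group G] [Finite G] (hG : Cfsg.IsMinSimpleOddOrder G)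
    (M : Subgroup G) (hM : IsCoatom M) (hk : ¬ (Cfsg.kappa M).Nonempty) : Cfsg.IsOfTypeI M := by
  obtain ⟨K, U, hKU⟩ := exists_decomposition hG M hM
  have hK : K = ⊥ := by
    by_contra hK1
    have h1 : Nat.card K ≠ 1 := fun h => hK1 (Subgroup.card_eq_one.mp h)
    obtain ⟨p, hp, hd⟩ := Nat.exists_prime_and_dvd h1
    exact hk ⟨p, hKU.hall.2.1 p hp hd⟩
  refine (S1380.result hG M hM K U hKU).2 ⟨hK, ?_⟩
  intro hU
  obtain ⟨-, -, h3, h4, -⟩ := S1355.result hG M hM
  have h5 : M ≤ sigmaCore M := by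
    intro m hm
    obtain ⟨u, hu, c, hc, rfl⟩ := hKU.compl.2.2.2 m hm
    rw [hU, Subgroup.mem_bot] at hu
    rw [hK, bot_sup_eq] at hc
    rw [hu, one_mul]
    exact hc
  exact absurd (h5.trans h3) (not_le_of_gt h4)

/-- If `κ(M) ≠ ∅` then the Hall `κ(M)`-subgroup is nontrivial. -/
theorem ne_bot_of_kappa_nonempty {G : Type*} [Group G] [Finite G]
    {M K : Subgroup G} (hK : IsPiHallOf (kappa M) K M) (hk : (Cfsg.kappa M).Nonempty) : K ≠ ⊥ := by
  rintro rfl
  obtain ⟨p, hp⟩ := hk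
  refine hK.2.2 p hp.1 hp ?_
  rw [Subgroup.relIndex_bot_left]
  exact hp.2.1

/-- the pair `K, K*` is a self-normalizing cyclic pair. -/
theorem isSelfNormalizingCyclic {G : Type*} [Group G] [Finite G] (hG : Cfsg.IsMinSimpleOddOrder G)
    (M : Subgroup G) (hM : IsCoatom M) (K U : Subgroup G) (hKU : Cfsg.IsSigmaDecomposition M K U)
    (hK1 : K ≠ ⊥)
    (hcyc : IsCyclic ↥(K ⊔ (Cfsg.sigmaCore M ⊓ Subgroup.centralizer (K : Set G)))) :
    Cfsg.IsSelfNormalizingCyclic K (Cfsg.sigmaCore M ⊓ Subgroup.centralizer (K : Set G)) := by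
  obtain ⟨hTI, hN⟩ := S1370.result hG M hM K U hKU hK1
  have hs := (S1364.result hG M hM K U hKU hK1).2.1
  set Ks : Subgroup G := Cfsg.sigmaCore M ⊓ Subgroup.centralizer (K : Set G) with hKs
  refine ⟨hK1, hs, ?_, ?_, hcyc, ?_⟩
  · rw [eq_bot_iff, ← inf_sigmaCore_eq_bot hKU.hall]
    exact inf_le_inf_left K inf_le_left
  · intro a ha b hb
    exact Subgroup.mem_centralizer_iff.mp hb.2 a ha
  · intro X hX hne
    have hcomm : ∀ a ∈ K ⊔ Ks, ∀ b ∈ K ⊔ Ks, a * b = b * a := by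
      intro a ha b hb
      have hc : IsMulCommutative ↥(K ⊔ Ks) := IsCyclic.isMulCommutative
      exact congrArg Subtype.val (hc.1.1 ⟨a, ha⟩ ⟨b, hb⟩)
    apply le_antisymm
    · intro g hg
      obtain ⟨x, hx⟩ := hne
      rw [← hN]
      by_contra hgn
      have h1 := (Subgroup.mem_set_normalizer_iff.mp hg x).1 hx
      have h2 := hTI g hgn x (hX hx) (hX h1)
      have h3 := (hX hx).2
      apply h3
      left
      rw [h2]
      exact K.one_mem
    · intro g hg
      rw [Subgroup.mem_set_normalizer_iff]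
      intro x
      constructor
      · intro hx
        have h1 := hcomm g hg x (hX hx).1
        rw [h1, mul_inv_cancel_right]
        exact hx
      · intro hx
        have h1 : x ∈ K ⊔ Ks := by
          have h2 : x = g⁻¹ * (g * x * g⁻¹) * g := by group
          rw [h2]
          exact mul_mem (mul_mem (inv_mem hg) (hX hx).1) hg
        have h3 := hcomm g hg x h1
        rwa [h3, mul_inv_cancel_right] at hx

/-- Let G be a minimal simple group of odd order. Then either every maximal subgroup of G is of Type I, or there are nontrivial subgroups W₁, W₂ generating a cyclic group W that is the normalizer of every nonempty subset of W outside W₁ ∪ W₂, and maximal subgroups S, T with W₁ a complement to S' in S, W₂ a complement to T' in T, S ∩ T = W, S or T of Type II, each of S, T of Type II, III, IV or V, and every maximal subgroup of G of Type I or conjugate to S or to T. -/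
theorem result {G : Type*} [Group G] [Finite G] (hG : Cfsg.IsMinSimpleOddOrder G) :
    (∀ M : Subgroup G, IsCoatom M → Cfsg.IsOfTypeI M) ∨
      ∃ W₁ W₂ S T : Subgroup G, Cfsg.IsSelfNormalizingCyclic W₁ W₂ ∧ IsCoatom S ∧ IsCoatom T ∧
        Cfsg.IsComplIn ⁅S, S⁆ W₁ S ∧ Cfsg.IsComplIn ⁅T, T⁆ W₂ T ∧ S ⊓ T = W₁ ⊔ W₂ ∧
        (Cfsg.IsOfTypeII S ∨ Cfsg.IsOfTypeII T) ∧
        (Cfsg.IsOfTypeII S ∨ Cfsg.IsOfTypeIII S ∨ Cfsg.IsOfTypeIV S ∨ Cfsg.IsOfTypeV S) ∧
        (Cfsg.IsOfTypeII T ∨ Cfsg.IsOfTypeIII T ∨ Cfsg.IsOfTypeIV T ∨ Cfsg.IsOfTypeV T) ∧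
        ∀ M : Subgroup G, IsCoatom M → Cfsg.IsOfTypeI M ∨ ∃ g : G, M = S.map (MulAut.conj g).toMonoidHom ∨ M = T.map (MulAut.conj g).toMonoidHom := by
  by_cases hex : ∃ M : Subgroup G, IsCoatom M ∧ (Cfsg.kappa M).Nonempty
  · right
    obtain ⟨M, hM, hkM⟩ := hex
    obtain ⟨K, U, hKU⟩ := exists_decomposition hG M hM
    have hK1 : K ≠ ⊥ := ne_bot_of_kappa_nonempty hKU.hall hkM
    obtain ⟨Ms, ⟨hMs, hKst, hKstH⟩, -⟩ := S1366.result hG M hM K U hKU hK1
    obtain ⟨hcs, hsne, -, -⟩ := S1364.result hG M hM K U hKU hK1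
    obtain ⟨hinter, hcyc⟩ := S1368.result hG M hM K U hKU hK1 Ms hMs hKst hKstH
    obtain ⟨hP2, hclass⟩ := S1369.result hG M hM K U hKU hK1 Ms hMs hKst hKstH
    obtain ⟨⟨Us, hKUs⟩, -⟩ := S1352.result hG Ms hMs _ hcs hKstH
    refine ⟨K, _, M, Ms, isSelfNormalizingCyclic hG M hM K U hKU hK1 hcyc, hM, hMs,
      isComplIn_commutator hG M hM K U hKU hK1,
      isComplIn_commutator hG Ms hMs _ Us hKUs hsne, hinter, ?_,
      type_two_to_five hG M hM K U hKU hK1, type_two_to_five hG Ms hMs _ Us hKUs hsne, ?_⟩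
    · rcases hP2 with h | h
      · exact Or.inl ((S1381.result hG M hM K U hKU).2 ⟨hK1, h⟩)
      · exact Or.inr ((S1381.result hG Ms hMs _ Us hKUs).2 ⟨hsne, h Us hKUs⟩)
    · intro H hH
      by_cases hkH : (Cfsg.kappa H).Nonempty
      · exact Or.inr (hclass H hH hkH)
      · exact Or.inl (typeI_of_kappa_empty hG H hH hkH)
  · left
    intro M hM
    exact typeI_of_kappa_empty hG M hM fun h => hex ⟨M, hM, h⟩

end Cfsg.Agent.S1385
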