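-- Proof of S1390, conditional on S1350, S1351, S1352, S1357, S1358, S1361, S1362, S1365, S1380, S1381, S1382.
import Cfsg.Statements.S1390
import Mathlib
import Cfsg.Agent.S1389
import Cfsg.Agent.OddOrderLocal.MinSimpleBasic
import Cfsg.Agent.S0004
import Cfsg.Agent.S1350
import Cfsg.Agent.S1352
import Cfsg.Agent.S1358
import Cfsg.Agent.S1361
import Cfsg.Agent.S1362
import Cfsg.Agent.S1365
import Cfsg.Agent.S1380
import Cfsg.Agent.S1381
import Cfsg.Agent.S1382
import Cfsg.Agent.Prune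
set_option linter.all false
open scoped Cfsg.Agent.FastGrp

set_option autoImplicit false
open Cfsg

namespace Cfsg.Agent.S1390

open Cfsg.Agent.OddOrderLocal
open scoped Pointwise

/-- Conjugating a standard factorisation by an element of `M`. -/
theorem conj_decomp {G : Type*} [Group G] [Finite G] {M K U : Subgroup G}
    (h : Cfsg.IsSigmaDecomposition M K U) {g : G} (hg : g ∈ M) :
    Cfsg.IsSigmaDecomposition M (K.map (MulAut.conj g).toMonoidHom)
      (U.map (MulAut.conj g).toMonoidHom) := by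
  obtain ⟨hU, hL, hinf, hfac⟩ := h.compl
  have hM : M.map (MulAut.conj g).toMonoidHom = M := MinSimpleBasic.map_conj_of_mem hg
  have hS : (Cfsg.sigmaCore M).map (MulAut.conj g).toMonoidHom = Cfsg.sigmaCore M := by
    have := Cfsg.Agent.S1352.le_normalizer_sigmaCore M hg
    exact MinSimpleBasic.mem_normalizer_iff_map_conj.mp this
  have hinj : Function.Injective (MulAut.conj g).toMonoidHom := (MulAut.conj g).injective
  refine ⟨?_, ⟨?_, ?_, ?_⟩, ⟨?_, ?_, ?_, ?_⟩, ?_⟩
  · have := h.cyclic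
    exact isCyclic_of_surjective _ ((MulAut.conj g).toMonoidHom.subgroupMap_surjective K)
  · rw [← hM]; exact Subgroup.map_mono h.hall.1
  · intro p hp hd
    rw [MinSimpleBasic.card_map_conj] at hd
    exact h.hall.2.1 p hp hd
  · intro p hp hk hd
    have h9 : (K.map (MulAut.conj g).toMonoidHom).relIndex M = K.relIndex M := by
      conv_lhs => rw [← hM]
      exact Subgroup.relIndex_map_map_of_injective _ _ hinj
    rw [h9] at hd
    exact h.hall.2.2 p hp hk hd
  · rw [← hM]; exact Subgroup.map_mono hU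
  · rw [← hS, ← Subgroup.map_sup, ← hM]
    refine Subgroup.map_mono ?_
    rw [hM]; exact hL
  · rw [← hS, ← Subgroup.map_sup, ← Subgroup.map_inf _ _ _ hinj, hinf, Subgroup.map_bot]
  · intro m hm
    rw [← hM] at hm
    obtain ⟨m', hm', rfl⟩ := hm
    obtain ⟨a, ha, b, hb, rfl⟩ := hfac m' hm'
    refine ⟨_, Subgroup.mem_map_of_mem _ ha, _, ?_, map_mul _ a b⟩
    rw [← hS, ← Subgroup.map_sup]
    exact Subgroup.mem_map_of_mem _ hb
  · intro x hx
    obtain ⟨k, hk, rfl⟩ := hx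
    have h1 := h.normal hk
    rw [MinSimpleBasic.mem_normalizer_iff_map_conj] at h1 ⊢
    change (U.map (MulAut.conj g).toMonoidHom).map (MulAut.conj (g * k * g⁻¹)).toMonoidHom = _
    rw [← MinSimpleBasic.map_conj_mul, inv_mul_cancel_right, MinSimpleBasic.map_conj_mul, h1]

/-- Two complements (in the sense of `IsComplIn`, one on each side) of a Hall subgroup `H` of the solvable
group `D`, `H` normalized by `D`, are conjugate. -/
theorem compl_conj {G : Type*} [Group G] [Finite G] {D H U V : Subgroup G}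
    (hD : Group.IsSolvable D) (hH : (Nat.card H).Coprime (H.relIndex D))
    (hU : Cfsg.IsComplIn H U D) (hVD : V ≤ D) (hVi : V ⊓ H = ⊥)
    (hVf : ∀ m ∈ D, ∃ a ∈ V, ∃ b ∈ H, m = a * b) :
    ∃ g ∈ D, V.map (MulAut.conj g).toMonoidHom = U := by
  obtain ⟨hHD, hUD, hUi, hUf⟩ := hU
  have hcH : Nat.card (H.subgroupOf D) = Nat.card H :=
    Nat.card_congr (Subgroup.subgroupOfEquivOfLe hHD).toEquiv
  have hcU : Nat.card (U.subgroupOf D) = Nat.card U :=
    Nat.card_congr (Subgroup.subgroupOfEquivOfLe hUD).toEquiv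
  have hcV : Nat.card (V.subgroupOf D) = Nat.card V :=
    Nat.card_congr (Subgroup.subgroupOfEquivOfLe hVD).toEquiv
  have c1 : Subgroup.IsComplement' (H.subgroupOf D) (U.subgroupOf D) := by
    apply Subgroup.isComplement'_of_disjoint_and_mul_eq_univ
    · rw [disjoint_iff]
      rw [← Subgroup.map_eq_bot_iff_of_injective _ D.subtype_injective,
        Subgroup.map_inf _ _ _ D.subtype_injective, Subgroup.subgroupOf_map_subtype,
        Subgroup.subgroupOf_map_subtype, inf_eq_left.mpr hHD, inf_eq_left.mpr hUD]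
      exact hUi
    · rw [Set.eq_univ_iff_forall]
      rintro ⟨m, hm⟩
      obtain ⟨a, ha, b, hb, hab⟩ := hUf m hm
      exact Set.mem_mul.mpr ⟨⟨a, hHD ha⟩, ha, ⟨b, hUD hb⟩, hb, Subtype.ext hab.symm⟩
  have c2 : Subgroup.IsComplement' (V.subgroupOf D) (H.subgroupOf D) := by
    apply Subgroup.isComplement'_of_disjoint_and_mul_eq_univ
    · rw [disjoint_iff]
      rw [← Subgroup.map_eq_bot_iff_of_injective _ D.subtype_injective,
        Subgroup.map_inf _ _ _ D.subtype_injective, Subgroup.subgroupOf_map_subtype,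
        Subgroup.subgroupOf_map_subtype, inf_eq_left.mpr hHD, inf_eq_left.mpr hVD]
      exact hVi
    · rw [Set.eq_univ_iff_forall]
      rintro ⟨m, hm⟩
      obtain ⟨a, ha, b, hb, hab⟩ := hVf m hm
      exact Set.mem_mul.mpr ⟨⟨a, hVD ha⟩, ha, ⟨b, hHD hb⟩, hb, Subtype.ext hab.symm⟩
  have e1 : Nat.card (U.subgroupOf D) = (H.subgroupOf D).index := c1.symm.index_eq_card.symm
  have e2 : Nat.card (V.subgroupOf D) = (H.subgroupOf D).index := c2.index_eq_card.symm
  have hcard : Nat.card D = (H.subgroupOf D).index * Nat.card (H.subgroupOf D) := by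
    rw [mul_comm]; exact (Subgroup.card_mul_index _).symm
  have hcop : ((H.subgroupOf D).index).Coprime (Nat.card (H.subgroupOf D)) := by
    rw [hcH]; exact hH.symm
  obtain ⟨g, hg⟩ := Cfsg.Agent.S0004.result _ _ hcard hcop (V.subgroupOf D) (U.subgroupOf D) e2 e1
  refine ⟨g, g.2, ?_⟩
  have h3 := congrArg (Subgroup.map D.subtype) hg
  rw [Subgroup.subgroupOf_map_subtype, inf_eq_left.mpr hUD] at h3
  rw [← h3]
  conv_lhs => rw [← inf_eq_left.mpr hVD, ← Subgroup.subgroupOf_map_subtype]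
  change _ = (((V.subgroupOf D).map (MulAut.conj g).toMonoidHom).map D.subtype)
  rw [Subgroup.map_map, Subgroup.map_map]
  congr 1

/-- The given complement is the `U` of a standard factorisation. -/
theorem exists_decomp {G : Type*} [Group G] [Finite G] (hG : Cfsg.IsMinSimpleOddOrder G)
    (M : Subgroup G) (hM : IsCoatom M) (U : Subgroup G)
    (hU : (Cfsg.IsOfTypeI M ∧ Cfsg.IsComplIn (Cfsg.fittingHallOf M) U M) ∨ (Cfsg.IsOfTypeII M ∧ Cfsg.IsComplIn (Cfsg.fittingHallOf M) U ⁅M, M⁆)) :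
    Cfsg.fittingHallOf M = Cfsg.sigmaCore M ∧ (∃ K, Cfsg.IsSigmaDecomposition M K U) ∧
      Cfsg.typeA M = {a | a ∈ U ⊔ Cfsg.sigmaCore M ∧ a ≠ 1 ∧ ∃ x ∈ Cfsg.sigmaCore M, x ≠ 1 ∧ a * x = x * a} := by
  obtain ⟨K, V, hKV⟩ := TypeCore.exists_sigmaDecomposition hG M hM
  obtain ⟨⟨hSM, hS1, hS2⟩, -, -⟩ := Cfsg.Agent.S1350.result hG M hM
  rcases hU with ⟨hT, hc⟩ | ⟨hT, hc⟩
  · obtain ⟨hK, hV⟩ := (Cfsg.Agent.S1380.result hG M hM K V hKV).mp hT
    have hF := TypeCore.fittingHallOf_eq_of_K_eq_bot hG hM hKV hK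
    rw [hF] at hc
    obtain ⟨hc1, hc2, hc3, hc4⟩ := hc
    have hsup : U ⊔ Cfsg.sigmaCore M = M := by
      apply le_antisymm (sup_le hc2 hc1)
      intro m hm
      obtain ⟨a, ha, b, hb, rfl⟩ := hc4 m hm
      exact mul_mem ((le_sup_right : Cfsg.sigmaCore M ≤ U ⊔ Cfsg.sigmaCore M) ha)
        ((le_sup_left : U ≤ U ⊔ Cfsg.sigmaCore M) hb)
    refine ⟨hF, ⟨⊥, ?_, ?_, ⟨hc2, ?_, ?_, ?_⟩, bot_le⟩, ?_⟩
    · infer_instance
    · rw [← hK]; exact hKV.hall
    · rw [bot_sup_eq]; exact hc1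
    · rw [bot_sup_eq, inf_comm]; exact hc3
    · intro m hm
      obtain ⟨a, ha, b, hb, hab⟩ := hc4 m⁻¹ (M.inv_mem hm)
      refine ⟨b⁻¹, U.inv_mem hb, a⁻¹, ?_, ?_⟩
      · rw [bot_sup_eq]; exact (Cfsg.sigmaCore M).inv_mem ha
      · rw [← mul_inv_rev, ← hab, inv_inv]
    · unfold Cfsg.typeA
      rw [if_pos hT, hF, hsup]
  · obtain ⟨hK, hV⟩ := (Cfsg.Agent.S1381.result hG M hM K V hKV).mp hT
    have hF := TypeCore.fittingHallOf_eq_of_U_ne_bot hG hM hKV hV
    have hD := (Cfsg.Agent.S1365.result hG M hM K V hKV hK).1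
    have hDM : ⁅M, M⁆ ≤ M := Subgroup.commutator_le.mpr fun a ha b hb =>
      M.mul_mem (M.mul_mem (M.mul_mem ha hb) (M.inv_mem ha)) (M.inv_mem hb)
    rw [hF] at hc
    obtain ⟨hc1, hc2, hc3, hc4⟩ := hc
    have hsup : U ⊔ Cfsg.sigmaCore M = ⁅M, M⁆ := by
      apply le_antisymm (sup_le hc2 hc1)
      intro m hm
      obtain ⟨a, ha, b, hb, rfl⟩ := hc4 m hm
      exact mul_mem ((le_sup_right : Cfsg.sigmaCore M ≤ U ⊔ Cfsg.sigmaCore M) ha)
        ((le_sup_left : U ≤ U ⊔ Cfsg.sigmaCore M) hb)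
    have hVD : V ≤ ⁅M, M⁆ := by rw [hD]; exact le_sup_left
    obtain ⟨hV1, hV2, hV3, hV4⟩ := hKV.compl
    have hnotI : ¬ Cfsg.IsOfTypeI M := fun h =>
      hK ((Cfsg.Agent.S1380.result hG M hM K V hKV).mp h).1
    have hsolv : Group.IsSolvable ↥⁅M, M⁆ :=
      MinSimpleBasic.isSolvable_of_ne_top hG (fun h => hM.1 (top_le_iff.mp (h ▸ hDM)))
    have hcop : (Nat.card (Cfsg.sigmaCore M)).Coprime ((Cfsg.sigmaCore M).relIndex ⁅M, M⁆) := by
      by_contra hne
      obtain ⟨p, hp, h1, h2⟩ := Nat.Prime.not_coprime_iff_dvd.mp hne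
      exact hS2 p hp (hS1 p hp h1) (h2.trans
        (Dvd.intro _ (Subgroup.relIndex_mul_relIndex _ _ _ hc1 hDM)))
    obtain ⟨g, hg, hgU⟩ := compl_conj hsolv hcop ⟨hc1, hc2, hc3, hc4⟩ hVD
      (le_bot_iff.mp ((inf_le_inf_left V le_sup_right).trans hV3.le)) (by
        intro m hm
        rw [hD] at hm
        have hn : V ≤ Subgroup.normalizer (Cfsg.sigmaCore M : Set G) :=
          hV1.trans (Cfsg.Agent.S1352.le_normalizer_sigmaCore M)
        have h7 : m ∈ (↑(V ⊔ Cfsg.sigmaCore M) : Set G) := hm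
        rw [Subgroup.coe_mul_of_left_le_normalizer_right _ _ hn] at h7
        obtain ⟨a, ha, b, hb, hab⟩ := Set.mem_mul.mp h7
        exact ⟨a, ha, b, hb, hab.symm⟩)
    refine ⟨hF, ⟨K.map (MulAut.conj g).toMonoidHom, ?_⟩, ?_⟩
    · rw [← hgU]; exact conj_decomp hKV (hDM hg)
    · unfold Cfsg.typeA
      rw [if_neg hnotI, TypeCore.typeCore_eq_sigmaCore hG M hM, hsup]

/-- Let G be a minimal simple group of odd order, M a maximal subgroup and H = M_F; suppose M is of Type I and U is a complement to H in M, or M is of Type II and U is a complement to H in M'. Then every Sylow subgroup of U is abelian with no elementary abelian subgroup of order p ^ 3; for every nonempty set X of non-identity elements of U centralizing a non-identity element of H, C_G(X) ≤ M and M is the unique maximal subgroup containing C_G(X); and A(M) with A₁(M) removed is a TI-subset of G. -/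
theorem result {G : Type*} [Group G] [Finite G] (hG : Cfsg.IsMinSimpleOddOrder G)
    (M : Subgroup G) (hM : IsCoatom M) (U : Subgroup G)
    (hU : (Cfsg.IsOfTypeI M ∧ Cfsg.IsComplIn (Cfsg.fittingHallOf M) U M) ∨ (Cfsg.IsOfTypeII M ∧ Cfsg.IsComplIn (Cfsg.fittingHallOf M) U ⁅M, M⁆)) :
    (∀ (p : ℕ), p.Prime → ∀ P : Sylow p U, IsMulCommutative (P : Subgroup U) ∧ Cfsg.PRankLE p 2 (P : Subgroup U)) ∧
      (∀ X : Set G, X ⊆ (U : Set G) \ {1} → X.Nonempty → Cfsg.fittingHallOf M ⊓ Subgroup.centralizer X ≠ ⊥ →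
        Subgroup.centralizer X ≤ M ∧ ∀ L : Subgroup G, IsCoatom L → Subgroup.centralizer X ≤ L → L = M) ∧
      Cfsg.IsTISubset (Cfsg.typeA M \ Cfsg.typeA1 M) := by
  obtain ⟨hF, ⟨K, hK⟩, hA⟩ := exists_decomp hG M hM U hU
  refine ⟨Cfsg.Agent.S1358.result hG M hM K U hK, ?_, ?_⟩
  · intro X hX hne hc
    rw [hF] at hc
    have hcl : Subgroup.centralizer ((Subgroup.closure X : Subgroup G) : Set G) =
        Subgroup.centralizer X := Subgroup.centralizer_closure X
    have h1 : Subgroup.closure X ≤ U := by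
      rw [Subgroup.closure_le]
      exact fun x hx => (hX hx).1
    have h2 : Subgroup.closure X ≠ ⊥ := by
      obtain ⟨x, hx⟩ := hne
      intro h
      rw [Subgroup.closure_eq_bot_iff] at h
      exact (hX hx).2 (h hx)
    have := Cfsg.Agent.S1361.result hG M hM K U hK (Subgroup.closure X) h1 h2 (by rw [hcl]; exact hc)
    rw [hcl] at this
    exact this
  · have h := Cfsg.Agent.S1362.result hG M hM K U hK
    have : Cfsg.typeA M \ Cfsg.typeA1 M = Cfsg.sigmaA M U \ (Cfsg.sigmaCore M : Set G) := by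
      have hUM : U ⊔ Cfsg.sigmaCore M ≤ M :=
        sup_le hK.compl.1 (le_sup_right.trans hK.compl.2.1)
      unfold Cfsg.typeA1
      rw [TypeCore.typeCore_eq_sigmaCore hG M hM, hA]
      ext a
      constructor
      · rintro ⟨⟨h1, h2, x, h3, h4, h5⟩, h6⟩
        exact ⟨⟨⟨hUM h1, x, h3, h4, h5⟩, h1⟩, fun h7 => h6 ⟨h7, h2⟩⟩
      · rintro ⟨⟨⟨-, x, h3, h4, h5⟩, h1⟩, h6⟩
        refine ⟨⟨h1, ?_, x, h3, h4, h5⟩, fun h7 => h6 h7.1⟩
        rintro rfl
        exact h6 (Cfsg.sigmaCore M).one_mem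
    rw [this]
    exact h

end Cfsg.Agent.S1390
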