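import Mathlib
import Cfsg.Prelude.Def_OddOrderLocal
import Cfsg.Agent.S1389
import Cfsg.Agent.S1416
import Cfsg.Agent.OddOrderLocal.DecompBasic
import Cfsg.Agent.OddOrderLocal.MinSimpleBasic
import Cfsg.Agent.S0001
import Cfsg.Agent.S1354
import Cfsg.Agent.S1380
import Cfsg.Statements.S1391
import Cfsg.Agent.OddOrderLocal.Equivariance
import Cfsg.Agent.OddOrderLocal.FittingHall
import Cfsg.Agent.S0034
import Cfsg.Agent.S0042
import Cfsg.Agent.S1362
import Cfsg.Agent.S1371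
import Cfsg.Agent.S1375
import Cfsg.Agent.S1376
import Cfsg.Agent.S1378
import Cfsg.Agent.S1381
import Cfsg.Agent.S1432
import Cfsg.Agent.S1436
import Cfsg.Agent.S1438
import Cfsg.Agent.FastGrp
import Cfsg.Agent.Prune
set_option linter.all false
open scoped Cfsg.Agent.FastGrp

-- part: OddOrderLocal/TypeSets
section
/-!
The sets `A(M)`, `A₀(M)` in the language of types (`Cfsg.typeA`, `Cfsg.typeA0`) in terms of the
`σ`-sets `Cfsg.sigmaA`, `Cfsg.sigmaHat` and the standard factorisation `M = K U M_σ`.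
-/

set_option autoImplicit false
set_option linter.unusedSectionVars false

namespace Cfsg.Agent.OddOrderLocal.TypeSets

open Cfsg

variable {G : Type*} [Group G] [Finite G]

/-- no element of `K ⊓ (U M_σ)`. -/
theorem coprime_K (hG : IsMinSimpleOddOrder G) {M K U : Subgroup G} (hM : IsCoatom M)
    (hKU : IsSigmaDecomposition M K U) :
    (Nat.card K).Coprime (Nat.card ↥(U ⊔ sigmaCore M)) := by
  have hs := (Cfsg.Agent.S1350.result hG M hM).1
  have hU := DecompBasic.isPiHallOf_compl hs hKU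
  rw [← DecompBasic.card_eq_of_isComplIn (DecompBasic.isComplIn_sup hs hKU)]
  by_contra hne
  rw [Nat.Prime.not_coprime_iff_dvd] at hne
  obtain ⟨p, hp, h1, h2⟩ := hne
  have hk := hKU.hall.2.1 p hp h1
  rcases (hp.dvd_mul).mp h2 with h3 | h3
  · exact (hU.2.1 p hp h3).2.1 hk
  · exact hk.2.2.1 (hs.2.1 p hp h3)

theorem inf_K (hG : IsMinSimpleOddOrder G) {M K U : Subgroup G} (hM : IsCoatom M)
    (hKU : IsSigmaDecomposition M K U) : (U ⊔ sigmaCore M) ⊓ K = ⊥ :=
  (Subgroup.disjoint_of_coprime_natCard (coprime_K hG hM hKU).symm).eq_bot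

/-- `M = (U M_σ) K`. -/
theorem isComplIn_K (hG : IsMinSimpleOddOrder G) {M K U : Subgroup G} (hM : IsCoatom M)
    (hKU : IsSigmaDecomposition M K U) : IsComplIn (U ⊔ sigmaCore M) K M := by
  have hKM : K ≤ M := hKU.hall.1
  refine ⟨sup_le hKU.compl.1 (SigmaElements.sigmaCore_le M), hKM, inf_K hG hM hKU, ?_⟩
  intro m hm
  obtain ⟨u, hu, x, hx, rfl⟩ := hKU.compl.2.2.2 m hm
  have hn : K ≤ Subgroup.normalizer (sigmaCore M : Set G) :=
    hKM.trans (SigmaElements.le_normalizer_sigmaCore M)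
  rw [sup_comm, ← SetLike.mem_coe, Subgroup.coe_mul_of_right_le_normalizer_left _ _ hn] at hx
  obtain ⟨s, hs, k, hk, rfl⟩ := hx
  exact ⟨u * s, mul_mem ((le_sup_left : U ≤ U ⊔ sigmaCore M) hu)
    ((le_sup_right : sigmaCore M ≤ U ⊔ sigmaCore M) hs), k, hk, by simp [mul_assoc]⟩

/-- if `K = 1` then `M = U M_σ`. -/
theorem sup_eq_of_K_eq_bot {M K U : Subgroup G}
    (hKU : IsSigmaDecomposition M K U) (hK : K = ⊥) : U ⊔ sigmaCore M = M := by
  apply le_antisymm
  · exact sup_le hKU.compl.1 (SigmaElements.sigmaCore_le M)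
  · intro m hm
    obtain ⟨u, hu, x, hx, rfl⟩ := hKU.compl.2.2.2 m hm
    rw [hK, bot_sup_eq] at hx
    exact mul_mem ((le_sup_left : U ≤ U ⊔ sigmaCore M) hu)
      ((le_sup_right : sigmaCore M ≤ U ⊔ sigmaCore M) hx)

/-- `K = 1` and `U = 1` is impossible. -/
theorem K_ne_bot_of_U_eq_bot (hG : IsMinSimpleOddOrder G) {M K U : Subgroup G} (hM : IsCoatom M)
    (hKU : IsSigmaDecomposition M K U) (hU : U = ⊥) : K ≠ ⊥ := by
  intro hK
  have h1 := sup_eq_of_K_eq_bot hKU hK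
  rw [hU, bot_sup_eq] at h1
  obtain ⟨-, -, h2, h3, -⟩ := Cfsg.Agent.S1355.result hG M hM
  rw [h1] at h2
  exact absurd h2 (not_le_of_gt h3)

theorem not_isOfTypeI_iff (hG : IsMinSimpleOddOrder G) {M K U : Subgroup G} (hM : IsCoatom M)
    (hKU : IsSigmaDecomposition M K U) : ¬ IsOfTypeI M ↔ K ≠ ⊥ := by
  rw [Cfsg.Agent.S1380.result hG M hM K U hKU]
  constructor
  · intro h hK
    by_cases hU : U = ⊥
    · exact K_ne_bot_of_U_eq_bot hG hM hKU hU hK
    · exact h ⟨hK, hU⟩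
  · rintro h ⟨h1, -⟩
    exact h h1

/-- `A(M)` is `sigmaA M U` without the identity. -/
theorem typeA_eq (hG : IsMinSimpleOddOrder G) (M : Subgroup G) (hM : IsCoatom M) (K U : Subgroup G)
    (hKU : IsSigmaDecomposition M K U) : typeA M = sigmaA M U \ {1} := by
  by_cases hI : IsOfTypeI M
  · obtain ⟨hK, hU⟩ := (Cfsg.Agent.S1380.result hG M hM K U hKU).1 hI
    have hF := TypeCore.fittingHallOf_eq_of_K_eq_bot hG hM hKU hK
    have hM' := sup_eq_of_K_eq_bot hKU hK
    unfold typeA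
    rw [if_pos hI, hF]
    ext a
    constructor
    · rintro ⟨ha, ha1, x, hx, hx1, hax⟩
      exact ⟨⟨⟨ha, x, hx, hx1, hax⟩, by rw [SetLike.mem_coe, hM']; exact ha⟩, ha1⟩
    · rintro ⟨⟨⟨ha, x, hx, hx1, hax⟩, -⟩, ha1⟩
      exact ⟨ha, ha1, x, hx, hx1, hax⟩
  · have hK := (not_isOfTypeI_iff hG hM hKU).1 hI
    have hM' := (Cfsg.Agent.S1365.result hG M hM K U hKU hK).1
    unfold typeA
    rw [if_neg hI, TypeCore.typeCore_eq_sigmaCore hG M hM, hM']
    ext a
    constructor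
    · rintro ⟨ha, ha1, x, hx, hx1, hax⟩
      exact ⟨⟨⟨(isComplIn_K hG hM hKU).1 ha, x, hx, hx1, hax⟩, ha⟩, ha1⟩
    · rintro ⟨⟨⟨-, x, hx, hx1, hax⟩, ha⟩, ha1⟩
      exact ⟨ha, ha1, x, hx, hx1, hax⟩

/-- Data of type P for `M` are conjugate in `M` to `(K, K*)`. -/
theorem exists_conj_of_isTypePWith (hG : IsMinSimpleOddOrder G) {M K U : Subgroup G} (hM : IsCoatom M)
    (hKU : IsSigmaDecomposition M K U) (hK : K ≠ ⊥) {W₁ V W₂ : Subgroup G}
    (hP : IsTypePWith M W₁ V W₂) :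
    ∃ m ∈ M, W₁ = K.map (MulAut.conj m).toMonoidHom ∧
      W₂ = (sigmaCore M ⊓ Subgroup.centralizer (K : Set G)).map (MulAut.conj m).toMonoidHom := by
  have hM' := (Cfsg.Agent.S1365.result hG M hM K U hKU hK).1
  have hcK := isComplIn_K hG hM hKU
  rw [← hM'] at hcK
  have hcW := hP.W₁_compl
  have hsol : Group.IsSolvable M := MinSimpleBasic.isSolvable_of_isCoatom hG hM
  -- the complements inside `M`
  have hcop : (Nat.card K).Coprime (Nat.card ↥⁅M, M⁆) := by rw [hM']; exact coprime_K hG hM hKU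
  have hDM : ⁅M, M⁆ ≤ M := hcK.1
  have hcardD : Nat.card ↥(⁅M, M⁆.subgroupOf M) = Nat.card ↥⁅M, M⁆ :=
    Nat.card_congr (Subgroup.subgroupOfEquivOfLe hDM).toEquiv
  have hcardeq : Nat.card W₁ = Nat.card K := by
    have h1 := DecompBasic.card_eq_of_isComplIn hcK
    have h2 := DecompBasic.card_eq_of_isComplIn hcW
    rw [← h1] at h2
    exact Nat.eq_of_mul_eq_mul_left Nat.card_pos h2
  have key : ∀ W : Subgroup G, IsComplIn ⁅M, M⁆ W M → Nat.card W = Nat.card K →
      Subgroup.IsComplement' (⁅M, M⁆.subgroupOf M) (W.subgroupOf M) := by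
    intro W hW hc
    have hcardW : Nat.card ↥(W.subgroupOf M) = Nat.card W :=
      Nat.card_congr (Subgroup.subgroupOfEquivOfLe hW.2.1).toEquiv
    apply Subgroup.isComplement'_of_coprime
    · rw [hcardD, hcardW]
      exact DecompBasic.card_eq_of_isComplIn hW
    · rw [hcardD, hcardW, hc]
      exact hcop.symm
  have hDn : (⁅M, M⁆.subgroupOf M).Normal := by
    rw [Subgroup.normal_subgroupOf_iff_le_normalizer hDM, hM']
    exact DecompBasic.le_normalizer_sup hKU
  have hidx : (⁅M, M⁆.subgroupOf M).index = Nat.card K :=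
    (DecompBasic.relIndex_eq_of_isComplIn hcK).1
  obtain ⟨m, hm⟩ := Cfsg.Agent.S0001.result (⁅M, M⁆.subgroupOf M)
    (by rw [hcardD, hidx]; exact hcop.symm) (Or.inl inferInstance) (K.subgroupOf M) (W₁.subgroupOf M)
    (key K hcK rfl) (key W₁ hcW hcardeq)
  have hW₁ : W₁ = K.map (MulAut.conj (m : G)).toMonoidHom := by
    ext x
    rw [Subgroup.mem_map]
    constructor
    · intro hx
      have h1 : (⟨x, hcW.2.1 hx⟩ : M) ∈ W₁.subgroupOf M := Subgroup.mem_subgroupOf.2 hx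
      rw [← hm, Subgroup.mem_smul_pointwise_iff_exists] at h1
      obtain ⟨k, hk, hkx⟩ := h1
      refine ⟨k, Subgroup.mem_subgroupOf.1 hk, ?_⟩
      exact congrArg Subtype.val hkx
    · rintro ⟨k, hk, rfl⟩
      have h1 : (MulAut.conj m) ⟨k, hKU.hall.1 hk⟩ ∈ W₁.subgroupOf M := by
        rw [← hm]
        exact Subgroup.smul_mem_pointwise_smul _ (MulAut.conj m) _ (Subgroup.mem_subgroupOf.2 hk)
      exact Subgroup.mem_subgroupOf.1 h1
  refine ⟨m, m.2, hW₁, ?_⟩
  obtain ⟨k, hk, hk1⟩ := (Subgroup.bot_or_exists_ne_one K).resolve_left hK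
  have hkW : (m : G) * k * (m : G)⁻¹ ∈ W₁ := by
    rw [hW₁]; exact ⟨k, hk, rfl⟩
  have hkW1 : (m : G) * k * (m : G)⁻¹ ≠ 1 := by
    intro h
    apply hk1
    rw [mul_inv_eq_one] at h
    exact mul_eq_left.1 h
  have h54 := (Cfsg.Agent.S1354.result hG M hM K hKU.cyclic hKU.hall).2 hK k hk hk1
  have hDs : sigmaCore M ≤ ⁅M, M⁆ := by rw [hM']; exact le_sup_right
  have hDK : ⁅M, M⁆ ⊓ K = ⊥ := hcK.2.2.1
  have hDk : ∀ x : G, x ∈ ⁅M, M⁆ ∧ k * x = x * k ↔
      x ∈ sigmaCore M ⊓ Subgroup.centralizer (K : Set G) := by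
    intro x
    constructor
    · rintro ⟨hx, hkx⟩
      have h1 : x ∈ M ⊓ Subgroup.centralizer ({k} : Set G) :=
        ⟨hDM hx, Subgroup.mem_centralizer_singleton_iff.2 hkx.symm⟩
      rw [h54] at h1
      have hn : K ≤ Subgroup.normalizer
          ((sigmaCore M ⊓ Subgroup.centralizer (K : Set G) : Subgroup G) : Set G) := by
        intro a ha
        have h2 := SigmaElements.le_normalizer_sigmaCore M (hKU.hall.1 ha)
        have h3 : a ∈ Subgroup.normalizer (Subgroup.centralizer (K : Set G) : Set G) := by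
          rw [Subgroup.mem_normalizer_iff]
          intro y
          have h4 : ∀ a ∈ K, ∀ y ∈ Subgroup.centralizer (K : Set G),
              a * y * a⁻¹ ∈ Subgroup.centralizer (K : Set G) := by
            intro a ha y hy
            rw [(Subgroup.mem_centralizer_iff.1 hy) a ha, mul_inv_cancel_right]
            exact hy
          refine ⟨h4 a ha y, fun hy => ?_⟩
          have h5 := h4 a⁻¹ (inv_mem ha) _ hy
          simpa [mul_assoc] using h5
        rw [Subgroup.mem_normalizer_iff] at h2 h3 ⊢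
        intro y
        simp only [Subgroup.mem_inf]
        exact and_congr (h2 y) (h3 y)
      rw [← SetLike.mem_coe, Subgroup.coe_mul_of_left_le_normalizer_right _ _ hn] at h1
      obtain ⟨a, ha, b, hb, rfl⟩ := h1
      have h6 : a ∈ ⁅M, M⁆ ⊓ K := by
        refine ⟨?_, ha⟩
        have := mul_mem hx (inv_mem (hDs hb.1))
        simpa using this
      rw [hDK, Subgroup.mem_bot] at h6
      have h6' : a = 1 := h6
      simpa [h6'] using hb
    · rintro ⟨hx, hxK⟩
      exact ⟨hDs hx, (Subgroup.mem_centralizer_iff.1 hxK) k hk⟩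
  rw [← hP.W₂_centralizer _ hkW hkW1]
  ext x
  rw [Subgroup.mem_inf, Subgroup.mem_centralizer_singleton_iff, Subgroup.mem_map]
  constructor
  · rintro ⟨hx, hcx⟩
    refine ⟨(m : G)⁻¹ * x * m, (hDk _).1 ⟨?_, ?_⟩, by simp [mul_assoc]⟩
    · have h7 := (Subgroup.normal_subgroupOf_iff_le_normalizer hDM).1 hDn (inv_mem m.2)
      have h8 := (Subgroup.mem_normalizer_iff.1 h7 x).1 hx
      simpa using h8
    · have : k = (m : G)⁻¹ * ((m : G) * k * (m : G)⁻¹) * m := by group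
      rw [this]
      calc (m : G)⁻¹ * ((m : G) * k * (m : G)⁻¹) * m * ((m : G)⁻¹ * x * m)
          = (m : G)⁻¹ * (((m : G) * k * (m : G)⁻¹) * x) * m := by group
        _ = (m : G)⁻¹ * (x * ((m : G) * k * (m : G)⁻¹)) * m := by rw [hcx]
        _ = _ := by group
  · rintro ⟨y, hy, rfl⟩
    obtain ⟨h9, h10⟩ := (hDk y).2 hy
    constructor
    · have h7 := (Subgroup.normal_subgroupOf_iff_le_normalizer hDM).1 hDn m.2
      exact (Subgroup.mem_normalizer_iff.1 h7 y).1 h9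
    · show (m : G) * y * (m : G)⁻¹ * ((m : G) * k * (m : G)⁻¹) =
        ((m : G) * k * (m : G)⁻¹) * ((m : G) * y * (m : G)⁻¹)
      calc (m : G) * y * (m : G)⁻¹ * ((m : G) * k * (m : G)⁻¹) = (m : G) * (y * k) * (m : G)⁻¹ := by group
        _ = (m : G) * (k * y) * (m : G)⁻¹ := by rw [h10]
        _ = _ := by group

/-- The elements of `A₀(M)` outside `A(M)` are `M`-conjugates of elements of `K K*` outside `K ∪ K*`. -/
theorem mem_typeA0 (hG : IsMinSimpleOddOrder G) {M K U : Subgroup G} (hM : IsCoatom M)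
    (hKU : IsSigmaDecomposition M K U) {v : G} (hv : v ∈ typeA0 M) (hv' : v ∉ typeA M) :
    K ≠ ⊥ ∧ ∃ m ∈ M, ∃ z ∈ ((↑(K ⊔ (sigmaCore M ⊓ Subgroup.centralizer (K : Set G))) : Set G) \
      ((K : Set G) ∪ ↑(sigmaCore M ⊓ Subgroup.centralizer (K : Set G)))), v = m * z * m⁻¹ := by
  rcases hv with hv | ⟨hI, W₁, V, W₂, hP, m, hm, w, hw, hw1, hw2, rfl⟩
  · exact absurd hv hv'
  · have hK := (not_isOfTypeI_iff hG hM hKU).1 hI
    obtain ⟨n, hn, rfl, rfl⟩ := exists_conj_of_isTypePWith hG hM hKU hK hP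
    refine ⟨hK, m * n, mul_mem hm hn, n⁻¹ * w * n, ⟨?_, ?_⟩, by simp [mul_assoc]⟩
    · rw [← Subgroup.map_sup] at hw
      obtain ⟨y, hy, rfl⟩ := hw
      simpa [mul_assoc] using hy
    · rintro (h | h)
      · exact hw1 ⟨_, h, by simp [mul_assoc]⟩
      · exact hw2 ⟨_, h, by simp [mul_assoc]⟩

theorem typeA_subset_typeA0 (M : Subgroup G) : typeA M ⊆ typeA0 M := Set.subset_union_left

end Cfsg.Agent.OddOrderLocal.TypeSets
end

-- part: S1391
section
set_option autoImplicit false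
set_option linter.unusedSectionVars false
open Cfsg

namespace Cfsg.Agent.S1391

open Cfsg.Agent.OddOrderLocal
open Pointwise

section Frobenius

variable {X : Type*} [Group X] [Finite X]

/-- The kernel of a finite Frobenius group is its largest normal nilpotent Hall subgroup. -/
theorem frobeniusKernel_eq_fittingHall (E : Subgroup X) (hE : IsFrobeniusComplement E) :
    frobeniusKernel E = ((fittingHall X : Subgroup X) : Set X) := by
  obtain ⟨N, hN, hNn, hNnil⟩ := Cfsg.Agent.S0042.result E hE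
  obtain ⟨hcard, hmod⟩ := Cfsg.Agent.S0034.result E hE
  have hNE : Nat.card N = E.index := by
    rw [← hcard, ← hN]; rfl
  have hcop : (Nat.card N).Coprime (Nat.card E) := by
    rw [hNE]
    have h1 : Nat.gcd (E.index % Nat.card E) (Nat.card E) = Nat.gcd (1 % Nat.card E) (Nat.card E) := by
      rw [hmod]
    rw [← Nat.gcd_rec, ← Nat.gcd_rec] at h1
    rw [Nat.coprime_comm, Nat.coprime_iff_gcd_eq_one, h1, Nat.gcd_one_right]
  have hNi : N.index = Nat.card E := by
    have h1 := N.card_mul_index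
    have h2 := E.card_mul_index
    rw [← h2, mul_comm (Nat.card E), ← hNE] at h1
    exact Nat.eq_of_mul_eq_mul_left Nat.card_pos h1
  have hNF : N ≤ fittingHall X := FittingHall.le_fittingHall hNn hNnil (by rw [hNi]; exact hcop)
  have hFnil : Group.IsNilpotent (fittingHall X) := FittingHall.fittingHall_isNilpotent
  have hN1 : N ≠ ⊥ := by
    intro h
    apply hE.2.1
    rw [h, Subgroup.card_bot] at hNE
    exact Subgroup.index_eq_one.1 hNE.symm
  rw [← hN]
  apply Set.Subset.antisymm (SetLike.coe_subset_coe.2 hNF)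
  intro x hx
  rw [hN]
  by_contra hxk
  have hx1 : x ≠ 1 := fun h => hxk (Or.inl h)
  have hxg : ∃ g : X, x ∈ MulAut.conj g • E := by
    by_contra h
    push Not at h
    exact hxk (Or.inr h)
  obtain ⟨g, hxg⟩ := hxg
  rw [Subgroup.mem_smul_pointwise_iff_exists] at hxg
  obtain ⟨e, he, rfl⟩ := hxg
  have he1 : e ≠ 1 := by
    rintro rfl
    exact hx1 (smul_one _)
  obtain ⟨n, hn, hn1⟩ := (Subgroup.bot_or_exists_ne_one N).resolve_left hN1
  have hord : orderOf (MulAut.conj g • e) = orderOf e := by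
    rw [MulAut.smul_def]
    exact orderOf_injective (MulAut.conj g).toMonoidHom (MulAut.conj g).injective e
  have hco : (orderOf n).Coprime (orderOf (MulAut.conj g • e)) := by
    rw [hord]
    refine Nat.Coprime.coprime_dvd_left ?_ (Nat.Coprime.coprime_dvd_right ?_ hcop)
    · rw [← Subgroup.orderOf_mk n hn]; exact orderOf_dvd_natCard _
    · rw [← Subgroup.orderOf_mk e he]; exact orderOf_dvd_natCard _
  have hcomm := FittingHall.commute_of_mem_of_coprime_orderOf hFnil (hNF hn) hx hco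
  -- `g⁻¹ n g ∈ E`
  have hmem : g⁻¹ * n * g ∈ E := by
    by_contra hne
    have h1 := hE.2.2 _ hne
    have h2 : e ∈ E ⊓ (MulAut.conj (g⁻¹ * n * g) • E) := by
      refine ⟨he, Subgroup.mem_smul_pointwise_iff_exists _ _ _ |>.2 ⟨e, he, ?_⟩⟩
      have h3 : n * (g * e * g⁻¹) = (g * e * g⁻¹) * n := hcomm.eq
      show (g⁻¹ * n * g) * e * (g⁻¹ * n * g)⁻¹ = e
      calc (g⁻¹ * n * g) * e * (g⁻¹ * n * g)⁻¹ = g⁻¹ * (n * (g * e * g⁻¹)) * n⁻¹ * g := by group
        _ = g⁻¹ * ((g * e * g⁻¹) * n) * n⁻¹ * g := by rw [h3]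
        _ = e := by group
    rw [h1, Subgroup.mem_bot] at h2
    exact he1 h2
  have hnk : n ∈ frobeniusKernel E := by rw [← hN]; exact hn
  rcases hnk with h | h
  · exact hn1 h
  · apply h g
    rw [Subgroup.mem_smul_pointwise_iff_exists]
    exact ⟨_, hmem, by show g * (g⁻¹ * n * g) * g⁻¹ = n; group⟩

end Frobenius

section Tame

variable {G : Type*} [Group G] [Finite G]

/-- Conjugating elements of a TI-subset of `M` which is normalized by `M` lie in `M`. -/
theorem mem_of_TI (hG : IsMinSimpleOddOrder G) {M : Subgroup G} (hM : IsCoatom M) {T : Set G}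
    (hT : IsTISubset T) (hTM : ∀ t ∈ T, t ∈ M) (hMT : ∀ m ∈ M, ∀ t ∈ T, m * t * m⁻¹ ∈ T)
    {x : G} (hx : x ∈ T) (hx1 : x ≠ 1) {g : G} (hg : g * x * g⁻¹ ∈ T) : g ∈ M := by
  have hgn : g ∈ Subgroup.normalizer T := by
    by_contra h
    exact hx1 (hT g h x hx hg)
  have hMn : M ≤ Subgroup.normalizer T := by
    intro m hm
    rw [Subgroup.mem_set_normalizer_iff]
    intro t
    refine ⟨hMT m hm t, fun ht => ?_⟩
    have := hMT m⁻¹ (inv_mem hm) _ ht
    simpa [mul_assoc] using this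
  rcases hM.le_iff.1 hMn with h | h
  · exfalso
    have hcl : (Subgroup.closure T).Normal := by
      refine ⟨fun n hn g => ?_⟩
      have hgT : g ∈ Subgroup.normalizer T := by rw [h]; trivial
      have h2 : (MulAut.conj g).toMonoidHom n ∈ (Subgroup.closure T).map (MulAut.conj g).toMonoidHom :=
        ⟨n, hn, rfl⟩
      rw [MonoidHom.map_closure] at h2
      refine Subgroup.closure_mono ?_ h2
      rintro _ ⟨t, ht, rfl⟩
      exact (Subgroup.mem_set_normalizer_iff.1 hgT t).1 ht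
    have hle : Subgroup.closure T ≤ M := (Subgroup.closure_le _).2 hTM
    rcases MinSimpleBasic.eq_bot_or_eq_top_of_normal hG (Subgroup.closure T) with h3 | h3
    · apply hx1
      have : x ∈ Subgroup.closure T := Subgroup.subset_closure hx
      rwa [h3, Subgroup.mem_bot] at this
    · rw [h3] at hle
      exact hM.1 (top_le_iff.1 hle)
  · rw [h] at hgn
    exact hgn

theorem orderOf_conj (g x : G) : orderOf (g * x * g⁻¹) = orderOf x :=
  orderOf_injective (MulAut.conj g).toMonoidHom (MulAut.conj g).injective x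

/-- A subgroup that is a nontrivial Hall `κ(M)`-subgroup yields a prime in `κ(M)`. -/
theorem kappa_nonempty {M K : Subgroup G} (hK : IsPiHallOf (kappa M) K M) (hK1 : K ≠ ⊥) :
    (kappa M).Nonempty := by
  have h1 : Nat.card K ≠ 1 := fun h => hK1 (Subgroup.eq_bot_of_card_eq K h)
  obtain ⟨p, hp, hd⟩ := Nat.exists_prime_and_dvd h1
  exact ⟨p, hK.2.1 p hp hd⟩

/-- An element of `U M_σ` has order prime to `κ(M)`. -/
theorem not_dvd_orderOf (hG : IsMinSimpleOddOrder G) {M K U : Subgroup G} (hM : IsCoatom M)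
    (hKU : IsSigmaDecomposition M K U) {x : G} (hx : x ∈ U ⊔ sigmaCore M) {p : ℕ}
    (hp : p ∈ kappa M) : ¬ p ∣ orderOf x := by
  intro hd
  have h1 : p ∣ Nat.card ↥(U ⊔ sigmaCore M) := by
    refine hd.trans ?_
    rw [← Subgroup.orderOf_mk x hx]; exact orderOf_dvd_natCard _
  have h2 : p ∣ Nat.card K := by
    have h3 := DecompBasic.card_mul_relIndex hKU.hall.1
    have h4 : p ∣ Nat.card K * K.relIndex M := by rw [h3]; exact hp.2.1
    rcases (hp.1.dvd_mul).1 h4 with h5 | h5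
    · exact h5
    · exact absurd h5 (hKU.hall.2.2 p hp.1 hp)
  exact Nat.Prime.not_coprime_iff_dvd.2 ⟨p, hp.1, h2, h1⟩ (TypeSets.coprime_K hG hM hKU)

/-- Elements of `A₀(M)` outside `A(M)` have order divisible by a prime of `κ(M)`. -/
theorem exists_dvd_orderOf {M K U : Subgroup G}
    (hKU : IsSigmaDecomposition M K U) {x : G}
    (hx : x ∈ {a : G | ∃ m ∈ M, ∃ z ∈ ((↑(K ⊔ (sigmaCore M ⊓ Subgroup.centralizer (K : Set G))) : Set G) \ ((K : Set G) ∪ ↑(sigmaCore M ⊓ Subgroup.centralizer (K : Set G)))), a = m * z * m⁻¹}) :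
    ∃ p ∈ kappa M, p ∣ orderOf x := by
  obtain ⟨m, hm, z, ⟨hz, hz'⟩, rfl⟩ := hx
  rw [orderOf_conj]
  have hn : K ≤ Subgroup.normalizer
      ((sigmaCore M ⊓ Subgroup.centralizer (K : Set G) : Subgroup G) : Set G) := by
    intro a ha
    rw [Subgroup.mem_normalizer_iff]
    have h4 : ∀ a ∈ K, ∀ y ∈ Subgroup.centralizer (K : Set G), a * y * a⁻¹ = y := by
      intro a ha y hy
      rw [(Subgroup.mem_centralizer_iff.1 hy) a ha, mul_inv_cancel_right]
    intro y
    constructor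
    · intro hy
      rw [h4 a ha y hy.2]; exact hy
    · intro hy
      have h5 := h4 a⁻¹ (inv_mem ha) _ hy.2
      have h6 : y = a * y * a⁻¹ := by
        rw [← h5]; group
      rw [h6]; exact hy
  rw [Subgroup.coe_mul_of_left_le_normalizer_right _ _ hn] at hz
  obtain ⟨k, hk, y, hy, rfl⟩ := hz
  have hk1 : k ≠ 1 := by
    rintro rfl
    apply hz'
    right
    simpa using hy
  obtain ⟨p, hp, hpk⟩ := SigmaElements.exists_prime_dvd_orderOf hk1
  have hpκ : p ∈ kappa M := by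
    apply hKU.hall.2.1 p hp
    refine hpk.trans ?_
    rw [← Subgroup.orderOf_mk k hk]; exact orderOf_dvd_natCard _
  refine ⟨p, hpκ, hpk.trans ?_⟩
  -- order of `k` divides the order of `k * y`
  have hcomm : Commute k y := (Subgroup.mem_centralizer_iff.1 hy.2) k hk
  apply orderOf_dvd_of_pow_eq_one
  have h1 : (k * y) ^ orderOf (k * y) = 1 := pow_orderOf_eq_one _
  rw [hcomm.mul_pow] at h1
  have h2 : k ^ orderOf (k * y) ∈ K := pow_mem hk _
  have h3 : k ^ orderOf (k * y) ∈ sigmaCore M := by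
    rw [mul_eq_one_iff_eq_inv] at h1
    rw [h1]
    exact inv_mem (pow_mem hy.1 _)
  by_contra hne
  obtain ⟨q, hq, hqk⟩ := SigmaElements.exists_prime_dvd_orderOf hne
  have h5 := SigmaElements.mem_sigma_of_dvd_orderOf h3 hq hqk
  have h6 : q ∈ kappa M := by
    apply hKU.hall.2.1 q hq
    refine hqk.trans ?_
    rw [← Subgroup.orderOf_mk _ h2]; exact orderOf_dvd_natCard _
  exact h6.2.2.1 h5

/-- If `κ(M) = τ₂(M) = ∅`, elements of `M` commuting with a non-identity element of `M_σ` lie in `M_σ`. -/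
theorem mem_sigmaCore_of_commute (hG : IsMinSimpleOddOrder G) {M : Subgroup G} (hM : IsCoatom M)
    (hκ : kappa M = ∅) (hτ : tau2 M = ∅) {z w : G} (hz : z ∈ sigmaCore M) (hz1 : z ≠ 1)
    (hw : w ∈ M) (hwz : w * z = z * w) : w ∈ sigmaCore M := by
  have hs := (Cfsg.Agent.S1350.result hG M hM).1
  refine SigmaElements.mem_sigmaCore_of_orderOf hs hw ?_
  intro r hr hrw
  by_contra hrσ
  set w' := w ^ (orderOf w / r) with hw'
  have hpos : 0 < orderOf w := orderOf_pos w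
  have how' : orderOf w' = r := orderOf_pow_orderOf_div hpos.ne' hrw
  have hw'M : w' ∈ M := pow_mem hw _
  have hw'1 : w' ≠ 1 := by
    intro h
    rw [h, orderOf_one] at how'
    exact hr.one_lt.ne how'
  have hcomm : Commute w' z := (show Commute w z from hwz).pow_left _
  have h1 := Cfsg.Agent.S1432.result hG M hM z hz hz1 w'
    ⟨hw'M, Subgroup.mem_centralizer_singleton_iff.2 hcomm.eq⟩ hw'1 (by
      intro p hp hpd
      rw [how'] at hpd
      rw [(Nat.prime_dvd_prime_iff_eq hp hr).1 hpd]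
      exact hrσ)
  rcases h1 with ⟨h2, -⟩ | ⟨h2, -⟩
  · have := h2 r hr (by rw [how'])
    rw [hκ] at this
    exact this
  · have := h2 r hr (by rw [how'])
    rw [hτ] at this
    exact this

/-- The three kinds of elements of `A₀(M)`. -/
theorem cases_of_mem (hG : IsMinSimpleOddOrder G) {M K U : Subgroup G} (hM : IsCoatom M)
    (hKU : IsSigmaDecomposition M K U) {X : Set G} (hX : X = typeA M ∨ X = typeA0 M) {x : G} (hx : x ∈ X) :
    (x ∈ sigmaCore M ∧ x ≠ 1) ∨ (x ∈ sigmaA M U \ (sigmaCore M : Set G) ∧ x ≠ 1) ∨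
      (K ≠ ⊥ ∧ x ≠ 1 ∧ x ∈ {a : G | ∃ m ∈ M, ∃ z ∈ ((↑(K ⊔ (sigmaCore M ⊓ Subgroup.centralizer (K : Set G))) : Set G) \ ((K : Set G) ∪ ↑(sigmaCore M ⊓ Subgroup.centralizer (K : Set G)))), a = m * z * m⁻¹}) := by
  have hxA0 : x ∈ typeA0 M := by
    rcases hX with rfl | rfl
    · exact TypeSets.typeA_subset_typeA0 M hx
    · exact hx
  by_cases hxA : x ∈ typeA M
  · rw [TypeSets.typeA_eq hG M hM K U hKU] at hxA
    by_cases hxS : x ∈ sigmaCore M
    · exact Or.inl ⟨hxS, hxA.2⟩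
    · exact Or.inr (Or.inl ⟨⟨hxA.1, hxS⟩, hxA.2⟩)
  · obtain ⟨hK, hx'⟩ := TypeSets.mem_typeA0 hG hM hKU hxA0 hxA
    refine Or.inr (Or.inr ⟨hK, ?_, hx'⟩)
    rintro rfl
    obtain ⟨m, hm, z, hz, h1⟩ := hx'
    apply hz.2
    left
    have : z = 1 := by
      have h2 : m * z * m⁻¹ = 1 := h1.symm
      rw [mul_inv_eq_one] at h2
      exact mul_eq_left.1 h2
    rw [this]
    exact K.one_mem

theorem mem_M_of_mem (hG : IsMinSimpleOddOrder G) {M K U : Subgroup G} (hM : IsCoatom M)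
    (hKU : IsSigmaDecomposition M K U) {X : Set G} (hX : X = typeA M ∨ X = typeA0 M) {x : G} (hx : x ∈ X) :
    x ∈ M := by
  rcases cases_of_mem hG hM hKU hX hx with ⟨h, -⟩ | ⟨h, -⟩ | ⟨-, -, m, hm, z, hz, rfl⟩
  · exact SigmaElements.sigmaCore_le M h
  · exact h.1.1.1
  · have : z ∈ M := by
      have h1 : K ⊔ (sigmaCore M ⊓ Subgroup.centralizer (K : Set G)) ≤ M :=
        sup_le hKU.hall.1 (inf_le_left.trans (SigmaElements.sigmaCore_le M))
      exact h1 hz.1
    exact mul_mem (mul_mem hm this) (inv_mem hm)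

theorem conj_mem_sigmaA {M K U : Subgroup G} 
    (hKU : IsSigmaDecomposition M K U) {m t : G} (hm : m ∈ M) (ht : t ∈ sigmaA M U \ (sigmaCore M : Set G)) :
    m * t * m⁻¹ ∈ sigmaA M U \ (sigmaCore M : Set G) := by
  obtain ⟨⟨⟨htM, y, hy, hy1, hty⟩, ht2⟩, ht3⟩ := ht
  have hn1 := SigmaElements.le_normalizer_sigmaCore M hm
  have hn2 := DecompBasic.le_normalizer_sup hKU hm
  refine ⟨⟨⟨mul_mem (mul_mem hm htM) (inv_mem hm), m * y * m⁻¹,
    (Subgroup.mem_normalizer_iff.1 hn1 y).1 hy, ?_, ?_⟩, ?_⟩, ?_⟩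
  · intro h
    rw [mul_inv_eq_one] at h
    exact hy1 (mul_eq_left.1 h)
  · calc m * t * m⁻¹ * (m * y * m⁻¹) = m * (t * y) * m⁻¹ := by group
      _ = m * (y * t) * m⁻¹ := by rw [hty]
      _ = _ := by group
  · exact (Subgroup.mem_normalizer_iff.1 hn2 t).1 ht2
  · intro h
    exact ht3 ((Subgroup.mem_normalizer_iff.1 hn1 t).2 h)

/-- If a non-identity `x ∈ A₀(M)` and its conjugate `g x g⁻¹` both lie in one of the two TI pieces then `g ∈ M`. -/
theorem mem_of_second (hG : IsMinSimpleOddOrder G) {M K U : Subgroup G} (hM : IsCoatom M)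
    (hKU : IsSigmaDecomposition M K U) {x g : G} (hx : x ∈ sigmaA M U \ (sigmaCore M : Set G)) (hx1 : x ≠ 1)
    (hg : g * x * g⁻¹ ∈ sigmaA M U \ (sigmaCore M : Set G)) : g ∈ M :=
  mem_of_TI hG hM (Cfsg.Agent.S1362.result hG M hM K U hKU) (fun _ ht => ht.1.1.1)
    (fun _ hm _ ht => conj_mem_sigmaA hKU hm ht) hx hx1 hg

theorem mem_of_third (hG : IsMinSimpleOddOrder G) {M K U : Subgroup G} (hM : IsCoatom M)
    (hKU : IsSigmaDecomposition M K U) (hK : K ≠ ⊥) {x g : G}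
    (hx : x ∈ {a : G | ∃ m ∈ M, ∃ z ∈ ((↑(K ⊔ (sigmaCore M ⊓ Subgroup.centralizer (K : Set G))) : Set G) \ ((K : Set G) ∪ ↑(sigmaCore M ⊓ Subgroup.centralizer (K : Set G)))), a = m * z * m⁻¹})
    (hx1 : x ≠ 1)
    (hg : g * x * g⁻¹ ∈ {a : G | ∃ m ∈ M, ∃ z ∈ ((↑(K ⊔ (sigmaCore M ⊓ Subgroup.centralizer (K : Set G))) : Set G) \ ((K : Set G) ∪ ↑(sigmaCore M ⊓ Subgroup.centralizer (K : Set G)))), a = m * z * m⁻¹}) : g ∈ M := by
  obtain ⟨h1, h2⟩ := Cfsg.Agent.S1371.result hG M hM K U hKU hK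
  rw [← h1] at h2
  refine mem_of_TI hG hM h2 ?_ ?_ hx hx1 hg
  · rintro _ ⟨m, hm, z, hz, rfl⟩
    have : z ∈ M := by
      have h1 : K ⊔ (sigmaCore M ⊓ Subgroup.centralizer (K : Set G)) ≤ M :=
        sup_le hKU.hall.1 (inf_le_left.trans (SigmaElements.sigmaCore_le M))
      exact h1 hz.1
    exact mul_mem (mul_mem hm this) (inv_mem hm)
  · rintro n hn _ ⟨m, hm, z, hz, rfl⟩
    exact ⟨n * m, mul_mem hn hm, z, hz, by group⟩

/-- Fusion. -/
theorem fusion (hG : IsMinSimpleOddOrder G) {M K U : Subgroup G} (hM : IsCoatom M)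
    (hKU : IsSigmaDecomposition M K U) {X : Set G} (hX : X = typeA M ∨ X = typeA0 M) :
    ∀ x ∈ X, ∀ g : G, g * x * g⁻¹ ∈ X → ∃ m ∈ M, m * x * m⁻¹ = g * x * g⁻¹ := by
  intro x hx g hg
  have hs := (Cfsg.Agent.S1350.result hG M hM).1
  have hxM := mem_M_of_mem hG hM hKU hX hx
  have hyM := mem_M_of_mem hG hM hKU hX hg
  have hord := orderOf_conj g x
  have hS : x ∈ sigmaCore M ↔ g * x * g⁻¹ ∈ sigmaCore M := by
    constructor
    · intro h
      refine SigmaElements.mem_sigmaCore_of_orderOf hs hyM ?_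
      intro p hp hpd
      rw [hord] at hpd
      exact SigmaElements.mem_sigma_of_dvd_orderOf h hp hpd
    · intro h
      refine SigmaElements.mem_sigmaCore_of_orderOf hs hxM ?_
      intro p hp hpd
      rw [← hord] at hpd
      exact SigmaElements.mem_sigma_of_dvd_orderOf h hp hpd
  by_cases hxS : x ∈ sigmaCore M
  · have hyS := hS.1 hxS
    by_cases hx1 : x = 1
    · exact ⟨1, one_mem _, by rw [hx1]; simp⟩
    have hS1 : sigmaCore M ≠ ⊥ := by
      intro h
      rw [h, Subgroup.mem_bot] at hxS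
      exact hx1 hxS
    obtain ⟨n, hn, hnx⟩ := (Cfsg.Agent.S1438.result hG M hM (sigmaCore M) le_rfl hS1
      (by rw [Subgroup.relIndex_self]; exact Nat.coprime_one_right _)).2 x hxS g hyS
    exact ⟨n, hn.1, hnx⟩
  · have hyS : g * x * g⁻¹ ∉ sigmaCore M := fun h => hxS (hS.2 h)
    rcases cases_of_mem hG hM hKU hX hx with ⟨h, -⟩ | ⟨hx2, hx1⟩ | ⟨hK, hx1, hx3⟩
    · exact absurd h hxS
    · rcases cases_of_mem hG hM hKU hX hg with ⟨h, -⟩ | ⟨hy2, hy1⟩ | ⟨hK, hy1, hy3⟩
      · exact absurd h hyS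
      · exact ⟨g, mem_of_second hG hM hKU hx2 hx1 hy2, rfl⟩
      · exfalso
        obtain ⟨p, hp, hpd⟩ := exists_dvd_orderOf hKU hy3
        rw [hord] at hpd
        exact not_dvd_orderOf hG hM hKU hx2.1.2 hp hpd
    · rcases cases_of_mem hG hM hKU hX hg with ⟨h, -⟩ | ⟨hy2, hy1⟩ | ⟨hK, hy1, hy3⟩
      · exact absurd h hyS
      · exfalso
        obtain ⟨p, hp, hpd⟩ := exists_dvd_orderOf hKU hx3
        rw [← hord] at hpd
        exact not_dvd_orderOf hG hM hKU hy2.1.2 hp hpd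
      · exact ⟨g, mem_of_third hG hM hKU hK hx3 hx1 hy3, rfl⟩

/-- If `C_G(x)` is not contained in `M` then `x ∈ M_σ`. -/
theorem mem_sigmaCore_of_not_le (hG : IsMinSimpleOddOrder G) {M K U : Subgroup G} (hM : IsCoatom M)
    (hKU : IsSigmaDecomposition M K U) {X : Set G} (hX : X = typeA M ∨ X = typeA0 M) {x : G} (hx : x ∈ X)
    (hxM : ¬ Subgroup.centralizer ({x} : Set G) ≤ M) : x ∈ sigmaCore M ∧ x ≠ 1 := by
  rcases cases_of_mem hG hM hKU hX hx with h | ⟨hx2, hx1⟩ | ⟨hK, hx1, hx3⟩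
  · exact h
  · exfalso
    apply hxM
    intro g hg
    have h1 : g * x * g⁻¹ = x := by
      rw [Subgroup.mem_centralizer_singleton_iff] at hg
      rw [hg, mul_inv_cancel_right]
    exact mem_of_second hG hM hKU hx2 hx1 (by rw [h1]; exact hx2)
  · exfalso
    apply hxM
    intro g hg
    have h1 : g * x * g⁻¹ = x := by
      rw [Subgroup.mem_centralizer_singleton_iff] at hg
      rw [hg, mul_inv_cancel_right]
    exact mem_of_third hG hM hKU hK hx3 hx1 (by rw [h1]; exact hx3)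

theorem isComplIn_swap {A B M : Subgroup G} (h : IsComplIn A B M) : IsComplIn B A M := by
  obtain ⟨h1, h2, h3, h4⟩ := h
  refine ⟨h2, h1, by rw [inf_comm]; exact h3, fun m hm => ?_⟩
  obtain ⟨a, ha, b, hb, hab⟩ := h4 m⁻¹ (inv_mem hm)
  refine ⟨b⁻¹, inv_mem hb, a⁻¹, inv_mem ha, ?_⟩
  rw [← mul_inv_rev, ← hab, inv_inv]

end Tame

/-- Let G be a minimal simple group of odd order, M a maximal subgroup, X = A(M) or A₀(M), and D the set of x ∈ X with C_G(x) not contained in M. Then two elements of X conjugate in G are conjugate in M; D ⊆ A₁(M) and for x ∈ D the centralizer C_G(x) lies in exactly one maximal subgroup; and for x ∈ D and the maximal subgroup L containing C_G(x): M ∩ L complements L_F in L, C_M(x) complements the normal subgroup C_{L_F}(x) of C_G(x), the order of L_F is coprime to that of C_M(y) for every y ∈ X, x ∈ A(L) but x ∉ A₁(L), L is of Type I or II, and if L is of Type II then M is a Frobenius group with kernel M_F.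 -/
theorem result {G : Type*} [Group G] [Finite G] (hG : Cfsg.IsMinSimpleOddOrder G)
    (M : Subgroup G) (hM : IsCoatom M) (X : Set G) (hX : X = Cfsg.typeA M ∨ X = Cfsg.typeA0 M) :
    (∀ x ∈ X, ∀ g : G, g * x * g⁻¹ ∈ X → ∃ m ∈ M, m * x * m⁻¹ = g * x * g⁻¹) ∧
      (∀ x ∈ X, ¬ Subgroup.centralizer ({x} : Set G) ≤ M → x ∈ Cfsg.typeA1 M ∧ ∃! L : Subgroup G, IsCoatom L ∧ Subgroup.centralizer ({x} : Set G) ≤ L) ∧
      ∀ x ∈ X, ¬ Subgroup.centralizer ({x} : Set G) ≤ M → ∀ L : Subgroup G, IsCoatom L → Subgroup.centralizer ({x} : Set G) ≤ L →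
        Cfsg.IsComplIn (Cfsg.fittingHallOf L) (M ⊓ L) L ∧
        Subgroup.centralizer ({x} : Set G) ≤ Subgroup.normalizer ((Cfsg.fittingHallOf L ⊓ Subgroup.centralizer ({x} : Set G) : Subgroup G) : Set G) ∧
        Cfsg.IsComplIn (Cfsg.fittingHallOf L ⊓ Subgroup.centralizer ({x} : Set G)) (M ⊓ Subgroup.centralizer ({x} : Set G)) (Subgroup.centralizer ({x} : Set G)) ∧
        (∀ y ∈ X, (Nat.card (Cfsg.fittingHallOf L)).Coprime (Nat.card ↥(M ⊓ Subgroup.centralizer ({y} : Set G)))) ∧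
        (x ∈ Cfsg.typeA L ∧ x ∉ Cfsg.typeA1 L) ∧
        (Cfsg.IsOfTypeI L ∨ Cfsg.IsOfTypeII L) ∧
        (Cfsg.IsOfTypeII L → ∃ E : Subgroup ↥M, Cfsg.IsFrobeniusComplement E ∧ Cfsg.frobeniusKernel E = ((Cfsg.fittingHall ↥M : Subgroup ↥M) : Set ↥M)) := by
  obtain ⟨K, U, hKU⟩ := TypeCore.exists_sigmaDecomposition hG M hM
  have hs := (Cfsg.Agent.S1350.result hG M hM).1
  have hA1 : typeA1 M = (sigmaCore M : Set G) \ {1} := by
    unfold typeA1
    rw [TypeCore.typeCore_eq_sigmaCore hG M hM]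
  refine ⟨fusion hG hM hKU hX, ?_, ?_⟩
  · intro x hx hxM
    obtain ⟨hxS, hx1⟩ := mem_sigmaCore_of_not_le hG hM hKU hX hx hxM
    refine ⟨by rw [hA1]; exact ⟨hxS, hx1⟩, ?_⟩
    obtain ⟨N, hN, hNu, -⟩ := Cfsg.Agent.S1375.result hG M hM x hxS hx1 hxM
    exact ⟨N, hN, fun L hL => hNu L hL.1 hL.2⟩
  · intro x hx hxM L hL hxL
    obtain ⟨hxS, hx1⟩ := mem_sigmaCore_of_not_le hG hM hKU hX hx hxM
    obtain ⟨N, hN, hNu, hNσ, hNn, hNc, hNM, hNd⟩ := Cfsg.Agent.S1375.result hG M hM x hxS hx1 hxM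
    obtain rfl := hNu L hL hxL
    rw [hNσ] at hNn hNc hNM
    obtain ⟨K', U', hKU'⟩ := TypeCore.exists_sigmaDecomposition hG L hL
    obtain ⟨hU', hxA, hxL'⟩ := hNd K' U' hKU'
    have hsL := (Cfsg.Agent.S1350.result hG L hL).1
    refine ⟨isComplIn_swap hNM, hNn, isComplIn_swap hNc, ?_, ⟨?_, ?_⟩, ?_, ?_⟩
    · intro y hy
      by_contra hne
      rw [Nat.Prime.not_coprime_iff_dvd] at hne
      obtain ⟨p, hp, hpL, hpy⟩ := hne
      rw [← hNσ] at hpL
      have hpσ : p ∈ sigma L := SigmaElements.mem_sigma_of_dvd_card_sigmaCore hp hpL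
      have hpM : p ∣ Nat.card M := hpy.trans (Subgroup.card_dvd_of_le inf_le_left)
      obtain ⟨hκ, hτ⟩ := (Cfsg.Agent.S1436.result hG M hM x hxS hx1 hxM L hL hxL).1 ⟨p, hpσ, hpM⟩
      have hK : K = ⊥ := by
        by_contra hK
        have := kappa_nonempty hKU.hall hK
        rw [hκ] at this
        exact Set.not_nonempty_empty this
      have hyS : y ∈ sigmaCore M ∧ y ≠ 1 := by
        rcases cases_of_mem hG hM hKU hX hy with h | ⟨h, -⟩ | ⟨h, -⟩
        · exact h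
        · exfalso
          obtain ⟨⟨⟨hyM, z, hz, hz1, hyz⟩, -⟩, h2⟩ := h
          exact h2 (mem_sigmaCore_of_commute hG hM hκ hτ hz hz1 hyM hyz)
        · exact absurd hK h
      have := Fact.mk hp
      obtain ⟨w, hw⟩ := exists_prime_orderOf_dvd_card' (G := ↥(M ⊓ Subgroup.centralizer ({y} : Set G))) p hpy
      have hwS : (w : G) ∈ sigmaCore M := by
        refine mem_sigmaCore_of_commute hG hM hκ hτ hyS.1 hyS.2 w.2.1 ?_
        exact Subgroup.mem_centralizer_singleton_iff.1 w.2.2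
      have hpσM : p ∈ sigma M := by
        refine SigmaElements.mem_sigma_of_dvd_orderOf hwS hp ?_
        rw [Subgroup.orderOf_coe, hw]
      obtain ⟨g, hg⟩ := (Cfsg.Agent.S1378.result hG).2 M L hM hL ⟨p, hpσM, hpσ⟩
      have hσeq : sigma L = sigma M := by rw [hg, Equivariance.sigma_map]
      apply hxL'
      refine SigmaElements.mem_sigmaCore_of_orderOf hsL ?_ ?_
      · exact hxL (Subgroup.mem_centralizer_singleton_iff.2 rfl)
      · intro r hr hrx
        rw [hσeq]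
        exact SigmaElements.mem_sigma_of_dvd_orderOf hxS hr hrx
    · rw [TypeSets.typeA_eq hG L hL K' U' hKU']
      exact ⟨hxA, hx1⟩
    · unfold typeA1
      rw [TypeCore.typeCore_eq_sigmaCore hG L hL]
      exact fun h => hxL' h.1
    · by_cases hK' : K' = ⊥
      · exact Or.inl ((Cfsg.Agent.S1380.result hG L hL K' U' hKU').2 ⟨hK', hU'⟩)
      · exact Or.inr ((Cfsg.Agent.S1381.result hG L hL K' U' hKU').2 ⟨hK', hU'⟩)
    · intro hII
      have hK' := ((Cfsg.Agent.S1381.result hG L hL K' U' hKU').1 hII).1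
      obtain ⟨-, ⟨E, hE, -⟩, -⟩ := Cfsg.Agent.S1376.result hG M hM x hxS hx1 hxM L hL hxL
        (kappa_nonempty hKU'.hall hK')
      exact ⟨E, hE, frobeniusKernel_eq_fittingHall E hE⟩

end Cfsg.Agent.S1391
end
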