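import Cfsg.Statements.S1413
import Cfsg.Agent.OddOrderLocal.MinSimpleBasic
import Cfsg.Agent.S1404
import Cfsg.Agent.S1410
import Cfsg.Agent.S1461
set_option linter.all false

set_option autoImplicit false
set_option linter.style.haveILetI false
open Cfsg

namespace Cfsg.Agent.S1413

open Cfsg.Agent.OddOrderLocal.MinSimpleBasic

/-- Part (c): the normalizer of a Sylow subgroup controls fusion of subgroups. -/
theorem sub_sylow_trans {G : Type*} [Group G] [Finite G] (hG : Cfsg.IsMinSimpleOddOrder G) (p : ℕ)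
    [hp : Fact p.Prime] (P : Sylow p G) (Q : Subgroup G) (x : G) (hQP : Q ≤ (P : Subgroup G))
    (hxQP : Q.map (MulAut.conj x).toMonoidHom ≤ (P : Subgroup G)) :
    ∃ y ∈ Subgroup.normalizer ((P : Subgroup G) : Set G),
      Q.map (MulAut.conj x).toMonoidHom = Q.map (MulAut.conj y).toMonoidHom := by
  by_cases hQ1 : Q = ⊥
  · subst hQ1
    exact ⟨1, one_mem _, by rw [Subgroup.map_bot, Subgroup.map_bot]⟩
  have hP1 : (P : Subgroup G) ≠ ⊥ := fun h => hQ1 (le_bot_iff.mp (h ▸ hQP))
  obtain ⟨M, hM, hNM⟩ := exists_coatom_normalizer_le hG hP1 (sylow_ne_top hG P)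
  have hPM : (P : Subgroup G) ≤ M := Subgroup.le_normalizer.trans hNM
  have hsig : p ∈ sigma M := mem_sigma_of_normalizer_le P hP1 hNM
  have hQp : IsPGroup p Q := P.isPGroup'.to_le hQP
  obtain ⟨m, hm, c, hc, hmc⟩ := (Cfsg.Agent.S1404.result hG M hM p hsig Q hQp hQ1
    (hQP.trans hPM)).1 x (hxQP.trans hPM)
  have hxm : Q.map (MulAut.conj x).toMonoidHom = Q.map (MulAut.conj m).toMonoidHom := by
    rw [hmc, map_conj_mul, map_conj_of_mem_centralizer hc]
  -- work in `M`
  have hpl : PLengthLE p 1 M := Cfsg.Agent.S1410.result hG p M hM.1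
  haveI : Group.IsSolvable M := isSolvable_of_isCoatom hG hM
  obtain ⟨P', hP'⟩ := exists_sylow_subtype P hPM
  have hmem : ∀ z : M, z ∈ (P' : Subgroup M) ↔ (z : G) ∈ (P : Subgroup G) := by
    intro z
    rw [← hP']
    constructor
    · intro h; exact ⟨z, h, rfl⟩
    · rintro ⟨w, hw, hwz⟩
      have : w = z := Subtype.ext hwz
      exact this ▸ hw
  have hYP : ((Q.subgroupOf M : Subgroup M) : Set M) ⊆ ((P' : Subgroup M) : Set M) := by
    intro z hz
    exact (hmem z).mpr (hQP hz)
  have hYxP : (fun y => (⟨m, hm⟩ : M) * y * (⟨m, hm⟩ : M)⁻¹) ''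
      ((Q.subgroupOf M : Subgroup M) : Set M) ⊆ ((P' : Subgroup M) : Set M) := by
    rintro _ ⟨z, hz, rfl⟩
    refine (hmem _).mpr (hxQP ?_)
    rw [hxm]
    exact conj_mem_map_conj (g := m) (x := (z : G)) hz
  obtain ⟨g, hg, c', hc', hgc⟩ := (Cfsg.Agent.S1461.result p hpl P').2.1 _ _ hYP hYxP
  have hgN : (g : G) ∈ Subgroup.normalizer ((P : Subgroup G) : Set G) := by
    rw [Subgroup.mem_normalizer_iff]
    intro h
    constructor
    · intro hh
      have h1 := (Subgroup.mem_normalizer_iff.mp hg ⟨h, hPM hh⟩).mp ((hmem _).mpr hh)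
      exact (hmem _).mp h1
    · intro hh
      have hhM : h ∈ M := by
        have h1 := M.mul_mem (M.mul_mem (M.inv_mem g.2) (hPM hh)) g.2
        simpa [mul_assoc] using h1
      have h1 := (Subgroup.mem_normalizer_iff.mp hg ⟨h, hhM⟩).mpr ((hmem _).mpr hh)
      exact (hmem _).mp h1
  refine ⟨g, hgN, ?_⟩
  have hmgc : m = (g : G) * (c' : G) := by
    have := congrArg Subtype.val hgc
    exact this.symm
  have hc'' : (c' : G) ∈ Subgroup.centralizer (Q : Set G) := by
    rw [Subgroup.mem_centralizer_iff]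
    intro q hq
    have h1 := Subgroup.mem_centralizer_iff.mp hc' (⟨q, hPM (hQP hq)⟩ : M) hq
    exact congrArg Subtype.val h1
  rw [hxm, hmgc, map_conj_mul, map_conj_of_mem_centralizer hc'']

/-- Let G be a minimal simple group of odd order, p a prime and P a Sylow p-subgroup. (c) If Q ≤ P and xQx⁻¹ ≤ P then xQx⁻¹ = yQy⁻¹ for some y ∈ N_G(P). (d) For every Q ≤ P, p does not divide the index of N_P(Q) in N_G(Q). (e) If R is a p-subgroup and Q ≤ P ∩ R is normal in N_G(P), then Q is normal in N_G(R). -/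
theorem result {G : Type*} [Group G] [Finite G] (hG : Cfsg.IsMinSimpleOddOrder G) (p : ℕ) [Fact p.Prime] (P : Sylow p G) :
    (∀ (Q : Subgroup G) (x : G), Q ≤ (P : Subgroup G) → Q.map (MulAut.conj x).toMonoidHom ≤ (P : Subgroup G) →
        ∃ y ∈ Subgroup.normalizer ((P : Subgroup G) : Set G), Q.map (MulAut.conj x).toMonoidHom = Q.map (MulAut.conj y).toMonoidHom) ∧
      (∀ Q : Subgroup G, Q ≤ (P : Subgroup G) →
        ¬ p ∣ ((P : Subgroup G) ⊓ Subgroup.normalizer (Q : Set G)).relIndex (Subgroup.normalizer (Q : Set G))) ∧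
      (∀ (R Q : Subgroup G), IsPGroup p R → Q ≤ (P : Subgroup G) ⊓ R →
        Subgroup.normalizer ((P : Subgroup G) : Set G) ≤ Subgroup.normalizer (Q : Set G) →
        Subgroup.normalizer (R : Set G) ≤ Subgroup.normalizer (Q : Set G)) := by
  have hc := sub_sylow_trans hG p P
  refine ⟨hc, ?_, ?_⟩
  · intro Q hQP
    set N := Subgroup.normalizer (Q : Set G) with hN
    -- a Sylow subgroup of `N`
    obtain ⟨S⟩ : Nonempty (Sylow p N) := inferInstance
    set S' : Subgroup G := (S : Subgroup N).map N.subtype with hS'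
    have hS'p : IsPGroup p S' := S.isPGroup'.map _
    have hS'N : S' ≤ N := Subgroup.map_subtype_le _
    have hQN : Q ≤ N := Subgroup.le_normalizer
    -- `Q ≤ S'` as `Q` is a normal `p`-subgroup of `N`.
    have hQS : Q ≤ S' := by
      have hQp : IsPGroup p (Q.subgroupOf N) :=
        (P.isPGroup'.to_le hQP).comap_of_injective N.subtype N.subtype_injective
      haveI : (Q.subgroupOf N).Normal := Subgroup.normal_in_normalizer
      have h1 : Q.subgroupOf N ≤ (S : Subgroup N) := hQp.le_sylow_of_normal S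
      intro q hq
      exact ⟨⟨q, hQN hq⟩, h1 hq, rfl⟩
    obtain ⟨x, hx⟩ := exists_map_conj_le_sylow P hS'p
    have hQxP : Q.map (MulAut.conj x).toMonoidHom ≤ (P : Subgroup G) :=
      (Subgroup.map_mono hQS).trans hx
    obtain ⟨y, hy, hxy⟩ := hc Q x hQP hQxP
    -- `y⁻¹ x` normalizes `Q`, and conjugates `S'` into `P`.
    have hyx : y⁻¹ * x ∈ N := by
      rw [hN, mem_normalizer_iff_map_conj, map_conj_mul, hxy, ← map_conj_mul, inv_mul_cancel,
        map_conj_one]
    have hSP : S'.map (MulAut.conj (y⁻¹ * x)).toMonoidHom ≤ (P : Subgroup G) ⊓ N := by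
      refine le_inf ?_ ?_
      · rw [map_conj_mul]
        have : (P : Subgroup G).map (MulAut.conj y⁻¹).toMonoidHom = P :=
          mem_normalizer_iff_map_conj.mp (inv_mem hy)
        calc _ ≤ (P : Subgroup G).map (MulAut.conj y⁻¹).toMonoidHom := Subgroup.map_mono hx
          _ = P := this
      · calc _ ≤ N.map (MulAut.conj (y⁻¹ * x)).toMonoidHom := Subgroup.map_mono hS'N
          _ = N := map_conj_of_mem hyx
    have hcard : Nat.card (S : Subgroup N) ∣ Nat.card ((P : Subgroup G) ⊓ N : Subgroup G) := by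
      have h1 := Subgroup.card_dvd_of_le hSP
      rw [card_map_conj] at h1
      have h2 : Nat.card S' = Nat.card (S : Subgroup N) :=
        Nat.card_congr (Subgroup.equivMapOfInjective _ _ N.subtype_injective).toEquiv.symm
      rwa [h2] at h1
    have hidx : ((P : Subgroup G) ⊓ N).relIndex N ∣ (S : Subgroup N).index := by
      have h1 : Nat.card ((P : Subgroup G) ⊓ N : Subgroup G) * ((P : Subgroup G) ⊓ N).relIndex N
          = Nat.card N := by
        have h0 := Subgroup.relIndex_mul_relIndex (⊥ : Subgroup G) ((P : Subgroup G) ⊓ N) N bot_le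
          inf_le_right
        simpa only [Subgroup.relIndex_bot_left] using h0
      have h2 : Nat.card (S : Subgroup N) * (S : Subgroup N).index = Nat.card N :=
        Subgroup.card_mul_index _
      obtain ⟨k, hk⟩ := hcard
      refine ⟨k, ?_⟩
      have h3 : Nat.card (S : Subgroup N) * (S : Subgroup N).index =
          Nat.card (S : Subgroup N) * (((P : Subgroup G) ⊓ N).relIndex N * k) := by
        rw [h2, ← h1, hk]; ring
      exact Nat.eq_of_mul_eq_mul_left Nat.card_pos h3
    intro hdvd
    exact S.not_dvd_index (hdvd.trans hidx)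
  · intro R Q hR hQ hN g hg
    obtain ⟨z, hz⟩ := exists_map_conj_le_sylow P hR
    have key : ∀ u : G, Q.map (MulAut.conj u).toMonoidHom ≤ (P : Subgroup G) →
        u ∈ Subgroup.normalizer (Q : Set G) := by
      intro u hu
      obtain ⟨y, hy, huy⟩ := hc Q u (hQ.trans inf_le_left) hu
      rw [mem_normalizer_iff_map_conj, huy]
      exact mem_normalizer_iff_map_conj.mp (hN hy)
    have h1 : z ∈ Subgroup.normalizer (Q : Set G) :=
      key z ((Subgroup.map_mono (hQ.trans inf_le_right)).trans hz)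
    have h2 : z * g ∈ Subgroup.normalizer (Q : Set G) := by
      apply key
      rw [map_conj_mul]
      refine (Subgroup.map_mono ?_).trans hz
      calc Q.map (MulAut.conj g).toMonoidHom ≤ R.map (MulAut.conj g).toMonoidHom :=
            Subgroup.map_mono (hQ.trans inf_le_right)
        _ = R := mem_normalizer_iff_map_conj.mp hg
    have h3 := mul_mem (inv_mem h1) h2
    simpa using h3

end Cfsg.Agent.S1413
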