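import Cfsg.Statements.S1441
import Cfsg.Agent.Lib.CoprimeStab
set_option linter.all false

set_option autoImplicit false
open Cfsg

namespace Cfsg.Agent.S1441

/-- Let G be a finite group, H a solvable subgroup and A a subgroup normalizing H. Suppose there is a chain H = H₀ ≥ H₁ ≥ ⋯ ≥ H_n = 1 of subgroups normal in H and normalized by A such that A acts trivially on each factor H_{i-1}/H_i (that is, [H_{i-1}, A] ≤ H_i). Then every prime dividing the index of C_A(H) in A divides the order of H. -/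
theorem result {G : Type*} [Group G] [Finite G] (H A : Subgroup G) (hH : Group.IsSolvable H) (hA : (A ≤ Subgroup.normalizer (H : Set G)))
    (n : ℕ) (c : Fin (n + 1) → Subgroup G) (hc0 : c 0 = H) (hcn : c (Fin.last n) = ⊥) (hanti : Antitone c)
    (hcN : ∀ i, H ≤ Subgroup.normalizer ((c i : Subgroup G) : Set G)) (hcA : ∀ i, A ≤ Subgroup.normalizer ((c i : Subgroup G) : Set G))
    (htriv : ∀ i : Fin n, ⁅c i.castSucc, A⁆ ≤ c i.succ) :
    ∀ p : ℕ, p.Prime → p ∣ (A ⊓ Subgroup.centralizer (H : Set G)).relIndex A → p ∣ Nat.card H := by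
  classical
  intro p hp hdvd
  by_contra hnd
  have : Fact p.Prime := ⟨hp⟩
  have hcH : ∀ i, c i ≤ H := fun i => by rw [← hc0]; exact hanti (Fin.zero_le i)
  -- every p-element of A centralises H
  have key : ∀ a ∈ A, (∃ k : ℕ, orderOf a = p ^ k) → a ∈ A ⊓ Subgroup.centralizer (H : Set G) := by
    rintro a ha ⟨k, hk⟩
    refine Subgroup.mem_inf.mpr ⟨ha, ?_⟩
    rw [Subgroup.mem_centralizer_iff]
    intro x hx
    have hcop : (orderOf a).Coprime (Nat.card H) := by
      rw [hk]
      exact Nat.Coprime.pow_left k ((Nat.Prime.coprime_iff_not_dvd hp).mpr hnd)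
    refine (Cfsg.Agent.Lib.CoprimeStab.commute_of_chain hcop n c hcH hcn ?_ 0 x ?_).eq
    · intro i y hy
      exact htriv i (Subgroup.commutator_mem_commutator hy ha)
    · rwa [hc0]
  -- a Sylow p-subgroup of A lies in the kernel
  obtain ⟨P⟩ : Nonempty (Sylow p A) := inferInstance
  have hP : (P : Subgroup A) ≤ (A ⊓ Subgroup.centralizer (H : Set G)).subgroupOf A := by
    intro x hx
    rw [Subgroup.mem_subgroupOf]
    refine key x x.2 ?_
    obtain ⟨k, hk⟩ := IsPGroup.iff_orderOf.mp P.isPGroup' ⟨x, hx⟩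
    refine ⟨k, ?_⟩
    rw [Subgroup.orderOf_coe, ← hk]
    exact (Subgroup.orderOf_mk x hx).symm
  have h1 : ((A ⊓ Subgroup.centralizer (H : Set G)).subgroupOf A).index ∣ (P : Subgroup A).index :=
    Subgroup.index_dvd_of_le hP
  exact P.not_dvd_index (hdvd.trans h1)

end Cfsg.Agent.S1441
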