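import Cfsg.Statements.S1449
import Cfsg.Agent.OddOrderLocal.AutRankTwo
set_option linter.all false

set_option autoImplicit false
open Cfsg

namespace Cfsg.Agent.S1449

/-- Let G be a finite group, p an odd prime, R a p-subgroup with no elementary abelian subgroup of order p ^ 3, and A a solvable subgroup of odd order normalizing R with A ∩ C_G(R) = 1. Then the derived subgroup [A, A] is a p-group. -/
theorem result {G : Type*} [Group G] [Finite G] (p : ℕ) [Fact p.Prime] (hp : p ≠ 2) (R A : Subgroup G) (hR : IsPGroup p R) (hr : Cfsg.PRankLE p 2 R)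
    (hA : (A ≤ Subgroup.normalizer (R : Set G))) (hAs : Group.IsSolvable A) (hAodd : Odd (Nat.card A)) (hfaith : A ⊓ Subgroup.centralizer (R : Set G) = ⊥) :
    IsPGroup p ↥⁅A, A⁆ := by
  let φ : A →* MulAut R := (R.normalizerMonoidHom).comp (Subgroup.inclusion hA)
  have hφ : Function.Injective φ := by
    rw [injective_iff_map_eq_one]
    intro a ha
    have h1 : (a : G) ∈ A ⊓ Subgroup.centralizer (R : Set G) := by
      refine Subgroup.mem_inf.2 ⟨a.2, ?_⟩
      rw [Subgroup.mem_centralizer_iff]
      intro r hr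
      have h2 : φ a ⟨r, hr⟩ = ⟨r, hr⟩ := by rw [ha]; rfl
      have h3 : (a : G) * r * (a : G)⁻¹ = r := congrArg Subtype.val h2
      rw [mul_inv_eq_iff_eq_mul] at h3
      exact h3.symm
    rw [hfaith, Subgroup.mem_bot] at h1
    exact Subtype.ext h1
  have h := Cfsg.Agent.OddOrderLocal.AutRankTwo.isPGroup_commutator hAs hAodd hp hR hr φ hφ
  have h1 : ⁅A, A⁆ = (commutator A).map A.subtype := by
    rw [commutator_def, Subgroup.map_commutator, ← MonoidHom.range_eq_map, Subgroup.range_subtype]
  rw [h1]
  exact h.map A.subtype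

end Cfsg.Agent.S1449
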