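import Cfsg.Statements.S1462
import Cfsg.Agent.OddOrderLocal.PLengthOne
import Cfsg.Agent.Lib.Cores
import Cfsg.Agent.Lib.CoprimeStab
import Cfsg.Agent.Lib.ThompsonPQ
import Cfsg.Agent.Lib.HallHigman
import Cfsg.Agent.PLocal.ThompsonJ
set_option linter.all false

set_option autoImplicit false
open Cfsg

namespace Cfsg.Agent.S1462

open Cfsg.Agent.OddOrderLocal.PLengthOne
open Cfsg.Agent.PLocal.ThompsonJ
open scoped commutatorElement

/-- adjoining a commuting element of order `p` to an elementary abelian group -/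
theorem isElementaryAbelian_sup_zpowers {G : Type*} [Group G] {p : ℕ} {E : Subgroup G}
    (hE : IsElementaryAbelian p E) {s : G} (hs : s ^ p = 1) (hc : ∀ e ∈ E, e * s = s * e) :
    IsElementaryAbelian p (E ⊔ Subgroup.zpowers s) := by
  have hcomm : ∀ x ∈ (E : Set G) ∪ {s}, ∀ y ∈ (E : Set G) ∪ {s}, x * y = y * x := by
    rintro x (hx | hx) y (hy | hy)
    · exact isElementaryAbelian_comm hE hx hy
    · rw [Set.mem_singleton_iff.1 hy]; exact hc x hx
    · rw [Set.mem_singleton_iff.1 hx]; exact (hc y hy).symm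
    · rw [Set.mem_singleton_iff.1 hx, Set.mem_singleton_iff.1 hy]
  have heq : E ⊔ Subgroup.zpowers s = Subgroup.closure ((E : Set G) ∪ {s}) := by
    rw [Subgroup.closure_union, Subgroup.closure_eq, Subgroup.zpowers_eq_closure]
  rw [heq]
  have h1 : ∀ x ∈ Subgroup.closure ((E : Set G) ∪ {s}), ∀ y ∈ Subgroup.closure ((E : Set G) ∪ {s}),
      x * y = y * x := by
    intro x hx y hy
    have h2 : Subgroup.closure ((E : Set G) ∪ {s}) ≤
        Subgroup.centralizer (Subgroup.closure ((E : Set G) ∪ {s}) : Set G) := by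
      rw [Subgroup.centralizer_closure]
      rw [Subgroup.closure_le]
      intro x hx
      simp only [SetLike.mem_coe]
      rw [Subgroup.mem_centralizer_iff]
      intro y hy
      exact hcomm y hy x hx
    exact (Subgroup.mem_centralizer_iff.1 (h2 hx) y hy).symm
  rw [isElementaryAbelian_iff]
  refine ⟨h1, ?_⟩
  intro x hx
  induction hx using Subgroup.closure_induction with
  | mem x hx =>
    rcases hx with hx | hx
    · exact hE.2 x hx
    · rw [Set.mem_singleton_iff.1 hx]; exact hs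
  | one => exact one_pow p
  | mul x y hx hy ihx ihy =>
    have : Commute x y := h1 x hx y hy
    rw [this.mul_pow, ihx, ihy, one_mul]
  | inv x hx ih => rw [inv_pow, ih, inv_one]

/-- Let G be a finite solvable group, p an odd prime with G = O_{p',p,p'}(G), E an elementary abelian p-subgroup contained in no larger elementary abelian p-subgroup of G, and L a subgroup of order coprime to p normalized by E. Then L ≤ O_{p'}(G). -/
theorem result {G : Type*} [Group G] [Finite G] [Group.IsSolvable G] (p : ℕ) [Fact p.Prime] (hp : p ≠ 2) (hpl : Cfsg.PLengthLE p 1 G) (E L : Subgroup G) (hE : Cfsg.IsElementaryAbelian p E)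
    (hEmax : ∀ B : Subgroup G, Cfsg.IsElementaryAbelian p B → E ≤ B → B = E) (hL : (Nat.card L).Coprime p) (hEL : E ≤ Subgroup.normalizer (L : Set G)) :
    L ≤ Cfsg.pPrimeCore p G := by
  have hpp : p.Prime := Fact.out
  have hEp : IsPGroup p E := by
    intro x
    refine ⟨1, ?_⟩
    rw [pow_one]
    exact Subtype.ext (hE.2 x x.2)
  obtain ⟨S, hES⟩ := hEp.exists_le_sylow
  set K := pPrimeCore p G with hK
  set π := QuotientGroup.mk' K with hπ
  have hπs : Function.Surjective π := QuotientGroup.mk'_surjective K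
  have hinf : K ⊓ (S : Subgroup G) = ⊥ := pPrimeCore_inf_sylow S
  set P : Subgroup (G ⧸ K) := (S : Subgroup G).map π with hP
  have hPn : P.Normal := by
    have h1 := (sup_sylow_normal hpl S).map π hπs
    rw [Subgroup.map_sup] at h1
    have h2 : K.map π = ⊥ := by
      rw [Subgroup.map_eq_bot_iff, hπ, QuotientGroup.ker_mk']
    rwa [← hK, h2, bot_sup_eq] at h1
  have hPp : IsPGroup p P := S.2.map π
  have hPle : P ≤ pCore p (G ⧸ K) := Cfsg.Agent.Lib.Cores.le_pCore hPn hPp
  have hleP : pCore p (G ⧸ K) ≤ P :=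
    Cfsg.Agent.Lib.Cores.pCore_le_sylow (S.mapSurjective hπs)
  have hPeq : P = pCore p (G ⧸ K) := le_antisymm hPle hleP
  have hCP : Subgroup.centralizer (P : Set (G ⧸ K)) ≤ P := by
    rw [hPeq]
    exact Cfsg.Agent.Lib.HallHigman.centralizer_pCore_le_of_solvable p
      (Cfsg.Agent.Lib.Cores.pPrimeCore_quotient_pPrimeCore p)
  set B : Subgroup (G ⧸ K) := E.map π with hB
  set A : Subgroup (G ⧸ K) := L.map π with hA
  have hBP : B ≤ P := Subgroup.map_mono hES
  have hAc : (Nat.card A).Coprime p :=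
    Nat.Coprime.coprime_dvd_left (Subgroup.card_map_dvd _ _) hL
  have hBA : ∀ b ∈ B, ∀ a ∈ A, b * a = a * b := by
    rintro _ ⟨e, he, rfl⟩ _ ⟨l, hl, rfl⟩
    have h1 : π ⁅e, l⁆ ∈ P := by
      rw [map_commutatorElement, commutatorElement_def]
      have h2 : π l * (π e)⁻¹ * (π l)⁻¹ ∈ P :=
        hPn.conj_mem _ (inv_mem (hBP ⟨e, he, rfl⟩)) (π l)
      have h3 := mul_mem (hBP ⟨e, he, rfl⟩ : π e ∈ P) h2
      simpa [mul_assoc] using h3
    have h2 : π ⁅e, l⁆ ∈ A := by
      have h3 : e * l * e⁻¹ ∈ L := (Subgroup.mem_normalizer_iff.1 (hEL he) l).1 hl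
      refine ⟨⁅e, l⁆, ?_, rfl⟩
      rw [commutatorElement_def]
      exact mul_mem h3 (inv_mem hl)
    have h3 : π ⁅e, l⁆ = 1 := by
      have hdis : A ⊓ P = ⊥ := by
        apply Disjoint.eq_bot
        apply Subgroup.disjoint_of_coprime_natCard
        obtain ⟨n, hn⟩ := IsPGroup.iff_card.1 hPp
        rw [hn]
        exact Nat.Coprime.pow_right n hAc
      have h4 : π ⁅e, l⁆ ∈ A ⊓ P := ⟨h2, h1⟩
      rwa [hdis, Subgroup.mem_bot] at h4
    rw [map_commutatorElement, commutatorElement_eq_one_iff_mul_comm] at h3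
    exact h3
  have hAnP : A ≤ Subgroup.normalizer (P : Set (G ⧸ K)) := by
    rw [Subgroup.normalizer_eq_top_iff.2 hPn]; exact le_top
  -- elements of order `p` in `P ⊓ C(B)` are in `B`
  have hΩ : ∀ x ∈ P ⊓ Subgroup.centralizer (B : Set (G ⧸ K)), x ^ p = 1 → x ∈ B := by
    rintro _ ⟨⟨s, hs, rfl⟩, hsB⟩ hxp
    have h1 : s ^ p = 1 := by
      have h2 : s ^ p ∈ K := by
        rw [← map_pow] at hxp
        exact (QuotientGroup.eq_one_iff _).1 hxp
      have h3 : s ^ p ∈ K ⊓ (S : Subgroup G) := ⟨h2, pow_mem hs p⟩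
      rwa [hinf, Subgroup.mem_bot] at h3
    have h2 : ∀ e ∈ E, e * s = s * e := by
      intro e he
      have h3 : π e * π s = π s * π e :=
        Subgroup.mem_centralizer_iff.1 hsB (π e) ⟨e, he, rfl⟩
      have h4 : π ⁅e, s⁆ = 1 := by
        rw [map_commutatorElement, commutatorElement_eq_one_iff_mul_comm]; exact h3
      have h5 : ⁅e, s⁆ ∈ K ⊓ (S : Subgroup G) := by
        refine Subgroup.mem_inf.2 ⟨(QuotientGroup.eq_one_iff _).1 h4, ?_⟩
        rw [commutatorElement_def]
        exact mul_mem (mul_mem (mul_mem (hES he) hs) (inv_mem (hES he))) (inv_mem hs)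
      rw [hinf, Subgroup.mem_bot, commutatorElement_eq_one_iff_mul_comm] at h5
      exact h5
    have h3 := hEmax _ (isElementaryAbelian_sup_zpowers hE h1 h2) le_sup_left
    have h4 : s ∈ E := by
      rw [← h3]
      exact Subgroup.mem_sup_right (Subgroup.mem_zpowers s)
    exact ⟨s, h4, rfl⟩
  have hCn : A ≤ Subgroup.normalizer ((P ⊓ Subgroup.centralizer (B : Set (G ⧸ K)) : Subgroup (G ⧸ K)) : Set (G ⧸ K)) := by
    intro a ha
    rw [Subgroup.mem_normalizer_iff]
    intro x
    have key : ∀ a ∈ A, ∀ x ∈ P ⊓ Subgroup.centralizer (B : Set (G ⧸ K)),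
        a * x * a⁻¹ ∈ P ⊓ Subgroup.centralizer (B : Set (G ⧸ K)) := by
      rintro a ha x ⟨hx1, hx2⟩
      refine Subgroup.mem_inf.2 ⟨hPn.conj_mem x hx1 a, ?_⟩
      rw [Subgroup.mem_centralizer_iff]
      intro b hb
      have h1 : Commute b a := hBA b hb a ha
      have h2 : Commute b x := Subgroup.mem_centralizer_iff.1 hx2 b hb
      exact ((h1.mul_right h2).mul_right h1.inv_right)
    constructor
    · exact key a ha x
    · intro hx
      have h1 := key a⁻¹ (inv_mem ha) _ hx
      have h2 : a⁻¹ * (a * x * a⁻¹) * a⁻¹⁻¹ = x := by group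
      rwa [h2] at h1
  have hC1 : A ≤ Subgroup.centralizer ((P ⊓ Subgroup.centralizer (B : Set (G ⧸ K)) : Subgroup (G ⧸ K)) : Set (G ⧸ K)) := by
    apply Cfsg.Agent.Lib.CoprimeStab.le_centralizer_of_omega p hp A hAc _
      (hPp.to_le inf_le_left) hCn
    intro x hx hxp a ha
    exact hBA x (hΩ x hx hxp) a ha
  have hAP : A ≤ Subgroup.centralizer (P : Set (G ⧸ K)) := by
    apply Cfsg.Agent.Lib.ThompsonPQ.thompson_p_times_q p B A P (hPp.to_le hBP) hAc hPp ?_
      (hBP.trans Subgroup.le_normalizer) hAnP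
    · intro x hx
      rw [Subgroup.mem_centralizer_iff]
      intro a ha
      exact (Subgroup.mem_centralizer_iff.1 (hC1 ha) x hx).symm
    · intro b hb
      rw [Subgroup.mem_centralizer_iff]
      intro a ha
      exact (hBA b hb a ha).symm
  have hAbot : A = ⊥ := by
    have h1 : A ≤ P := hAP.trans hCP
    have hdis : A ⊓ P = ⊥ := by
      apply Disjoint.eq_bot
      apply Subgroup.disjoint_of_coprime_natCard
      obtain ⟨n, hn⟩ := IsPGroup.iff_card.1 hPp
      rw [hn]
      exact Nat.Coprime.pow_right n hAc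
    rwa [inf_eq_left.2 h1] at hdis
  rw [hA, Subgroup.map_eq_bot_iff, hπ, QuotientGroup.ker_mk'] at hAbot
  exact hAbot

end Cfsg.Agent.S1462
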