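import Cfsg.Statements.S1463
set_option linter.all false
-- import your own Cfsg.Agent.* helpers here

set_option autoImplicit false
open scoped MatrixGroups
open Cfsg

namespace Cfsg.Agent.S1463

/-- If for every prime `r ≠ p` the Sylow `r`-subgroups are central in their normalizers, then
the `p`-elements form a normal `p`-subgroup. -/
theorem exists_normal_of_transfer {G : Type*} [Group G] [Finite G] (p : ℕ) [Fact p.Prime]
    (h : ∀ r : ℕ, ∀ _ : Fact r.Prime, r ≠ p → ∀ R : Sylow r G,
      Subgroup.normalizer (R : Set G) ≤ Subgroup.centralizer (R : Set G)) :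
    ∃ D : Subgroup G, D.Normal ∧ IsPGroup p D ∧ ∀ g : G, (∃ k : ℕ, g ^ p ^ k = 1) → g ∈ D := by
  have key : ∀ r : {r : ℕ // r.Prime ∧ r ≠ p}, ∃ N : Subgroup G, N.Normal ∧
      ¬ (r : ℕ) ∣ Nat.card N ∧ ∃ k, N.index = (r : ℕ) ^ k := by
    rintro ⟨r, hr, hrp⟩
    have := Fact.mk hr
    obtain ⟨R⟩ := (inferInstance : Nonempty (Sylow r G))
    refine ⟨(MonoidHom.transferSylow R (h r ⟨hr⟩ hrp R)).ker, inferInstance,
      MonoidHom.not_dvd_card_ker_transferSylow R _, ?_⟩
    obtain ⟨k, hk⟩ := R.2.exists_card_eq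
    refine ⟨k, ?_⟩
    rw [← hk]
    exact (MonoidHom.ker_transferSylow_isComplement' R (h r ⟨hr⟩ hrp R)).symm.index_eq_card
  choose N hN hcard hindex using key
  refine ⟨⨅ r, N r, Subgroup.normal_iInf_normal hN, ?_, ?_⟩
  · rw [IsPGroup.iff_orderOf]
    rintro ⟨x, hx⟩
    rw [Subgroup.mem_iInf] at hx
    have hxo : ∀ q : ℕ, q.Prime → q ∣ orderOf x → q = p := by
      intro q hq hqd
      by_contra hqp
      apply hcard ⟨q, hq, hqp⟩
      have h1 : orderOf (⟨x, hx ⟨q, hq, hqp⟩⟩ : N ⟨q, hq, hqp⟩) = orderOf x :=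
        (Subgroup.orderOf_mk _ _)
      rw [← h1] at hqd
      exact hqd.trans (orderOf_dvd_natCard _)
    refine ⟨(orderOf x).primeFactorsList.length, ?_⟩
    rw [Subgroup.orderOf_mk]
    apply Nat.eq_prime_pow_of_unique_prime_dvd (orderOf_pos x).ne'
    intro q hq hqd
    exact hxo q hq hqd
  · rintro g ⟨k, hk⟩
    rw [Subgroup.mem_iInf]
    rintro ⟨r, hr, hrp⟩
    have := hN ⟨r, hr, hrp⟩
    rw [← QuotientGroup.eq_one_iff]
    obtain ⟨m, hm⟩ := hindex ⟨r, hr, hrp⟩
    have h1 : (g : G ⧸ N ⟨r, hr, hrp⟩) ^ (p ^ k) = 1 := by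
      rw [← QuotientGroup.mk_pow, hk, QuotientGroup.mk_one]
    have h2 : (g : G ⧸ N ⟨r, hr, hrp⟩) ^ (r ^ m) = 1 := by
      have : Nat.card (G ⧸ N ⟨r, hr, hrp⟩) = r ^ m := hm
      rw [← this]
      exact pow_card_eq_one'
    have hcop : Nat.Coprime (p ^ k) (r ^ m) :=
      Nat.Coprime.pow _ _ ((Nat.coprime_primes (Fact.out) hr).2 (Ne.symm hrp))
    have := pow_gcd_eq_one.2 ⟨h1, h2⟩
    rwa [hcop.gcd_eq_one, pow_one] at this

open Matrix

theorem commute_nonscalar {F : Type*} [Field F] (M N : Matrix (Fin 2) (Fin 2) F)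
    (hM : ∀ c : F, M ≠ c • (1 : Matrix (Fin 2) (Fin 2) F)) (h : M * N = N * M) :
    ∃ α β : F, N = α • (1 : Matrix (Fin 2) (Fin 2) F) + β • M := by
  have e00 := congrFun (congrFun h 0) 0
  have e01 := congrFun (congrFun h 0) 1
  have e10 := congrFun (congrFun h 1) 0
  have e11 := congrFun (congrFun h 1) 1
  simp only [Matrix.mul_apply, Fin.sum_univ_two] at e00 e01 e10 e11
  have ext' : ∀ α β : F, N 0 0 = α + β * M 0 0 → N 0 1 = β * M 0 1 → N 1 0 = β * M 1 0 →
      N 1 1 = α + β * M 1 1 → ∃ α β : F, N = α • (1 : Matrix (Fin 2) (Fin 2) F) + β • M := by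
    intro α β h1 h2 h3 h4
    refine ⟨α, β, ?_⟩
    ext i j
    fin_cases i <;> fin_cases j <;> simp [h1, h2, h3, h4]
  by_cases hb : M 0 1 = 0
  · by_cases hc : M 1 0 = 0
    · by_cases had : M 0 0 = M 1 1
      · exfalso
        apply hM (M 0 0)
        ext i j
        fin_cases i <;> fin_cases j <;> simp [hb, hc, had]
      · have had' : M 0 0 - M 1 1 ≠ 0 := sub_ne_zero.2 had
        apply ext' (N 0 0 - (N 0 0 - N 1 1) / (M 0 0 - M 1 1) * M 0 0)
          ((N 0 0 - N 1 1) / (M 0 0 - M 1 1))
        · ring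
        · rw [hb, mul_zero]
          have : (M 0 0 - M 1 1) * N 0 1 = 0 := by rw [hb] at e01; linear_combination e01
          exact (mul_eq_zero.1 this).resolve_left had'
        · rw [hc, mul_zero]
          have : (M 0 0 - M 1 1) * N 1 0 = 0 := by rw [hc] at e10; linear_combination -e10
          exact (mul_eq_zero.1 this).resolve_left had'
        · field_simp
          ring
    · apply ext' (N 0 0 - (N 1 0) / (M 1 0) * M 0 0) ((N 1 0) / (M 1 0))
      · ring
      · field_simp
        linear_combination (-e00)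
      · field_simp
      · field_simp
        linear_combination (-e10)
  · apply ext' (N 0 0 - (N 0 1) / (M 0 1) * M 0 0) ((N 0 1) / (M 0 1))
    · ring
    · field_simp
    · field_simp
      linear_combination (e00)
    · field_simp
      linear_combination (e01)

/-- Cayley-Hamilton for 2 × 2 matrices of determinant one. -/
theorem sq_eq {F : Type*} [Field F] (z : Matrix (Fin 2) (Fin 2) F) (hz : z.det = 1) :
    z * z = z.trace • z - 1 := by
  rw [Matrix.det_fin_two] at hz
  ext i j
  fin_cases i <;> fin_cases j <;>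
    simp [Matrix.mul_apply, Fin.sum_univ_two, Matrix.trace_fin_two]
  · linear_combination -hz
  · ring
  · ring
  · linear_combination -hz

theorem torus {F : Type*} [Field F] (h2 : (2 : F) ≠ 0) (z w : Matrix (Fin 2) (Fin 2) F)
    (hz : z.det = 1) (hw : w.det = 1) (htr : w.trace = z.trace) (ht : z.trace ≠ 2)
    (ht' : z.trace ≠ -2) (α β : F) (hab : w = α • (1 : Matrix (Fin 2) (Fin 2) F) + β • z) :
    w = z ∨ w * z = 1 := by
  have h00 : w 0 0 = α + β * z 0 0 := by rw [hab]; simp
  have h01 : w 0 1 = β * z 0 1 := by rw [hab]; simp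
  have h10 : w 1 0 = β * z 1 0 := by rw [hab]; simp
  have h11 : w 1 1 = α + β * z 1 1 := by rw [hab]; simp
  rw [Matrix.trace_fin_two, h00, h11, Matrix.trace_fin_two] at htr
  rw [Matrix.det_fin_two, h00, h01, h10, h11] at hw
  rw [Matrix.trace_fin_two] at ht ht'
  have hz' := hz
  rw [Matrix.det_fin_two] at hz'
  have hα : 2 * α = (z 0 0 + z 1 1) * (1 - β) := by linear_combination htr
  have key : (1 - β) * (1 + β) * ((z 0 0 + z 1 1 - 2) * (z 0 0 + z 1 1 + 2)) = 0 := by
    linear_combination 4 * hw - 4 * β ^ 2 * hz' -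
      (2 * α + (z 0 0 + z 1 1) * (1 + β)) * hα
  rcases mul_eq_zero.1 key with h | h
  · rcases mul_eq_zero.1 h with h | h
    · left
      have hβ : β = 1 := by linear_combination -h
      have hα0 : α = 0 := by
        have : 2 * α = 0 := by rw [hα, hβ]; ring
        exact (mul_eq_zero.1 this).resolve_left h2
      rw [hab, hβ, hα0]; simp
    · right
      have hβ : β = -1 := by linear_combination h
      have hα0 : α = z 0 0 + z 1 1 := by
        have : 2 * (α - (z 0 0 + z 1 1)) = 0 := by
          rw [mul_sub, hα, hβ]; ring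
        exact sub_eq_zero.1 ((mul_eq_zero.1 this).resolve_left h2)
      rw [hab, add_mul, Matrix.smul_mul, Matrix.smul_mul, sq_eq z hz, hβ, hα0,
        Matrix.trace_fin_two]
      simp
  · exfalso
    rcases mul_eq_zero.1 h with h | h
    · exact ht (by linear_combination h)
    · exact ht' (by linear_combination h)

theorem pow_p_of_trace_two {F : Type*} [Field F] (p : ℕ) [Fact p.Prime] [CharP F p]
    (z : Matrix (Fin 2) (Fin 2) F) (hz : z.det = 1) (ht : z.trace = 2) : z ^ p = 1 := by
  have h1 : (z - 1) ^ 2 = 0 := by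
    rw [pow_two, sub_mul, mul_sub, sq_eq z hz, ht]
    simp only [mul_one, one_mul, two_smul]
    abel
  have h2 : (z - 1) ^ p = z ^ p - 1 := by
    have := sub_pow_char_of_commute (p := p) (Commute.one_right z)
    rwa [one_pow] at this
  have h3 : (z - 1) ^ p = 0 := by
    obtain ⟨k, hk⟩ := Nat.exists_eq_add_of_le (Nat.Prime.two_le (Fact.out : p.Prime))
    rw [hk, pow_add, h1, zero_mul]
  rw [h3] at h2
  exact (sub_eq_zero.1 h2.symm)

theorem pow_p_of_trace_neg_two {F : Type*} [Field F] (p : ℕ) [Fact p.Prime] [CharP F p]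
    (z : Matrix (Fin 2) (Fin 2) F) (hz : z.det = 1) (ht : z.trace = -2) : z ^ (2 * p) = 1 := by
  have h1 : (-z) ^ p = 1 := by
    apply pow_p_of_trace_two p (-z)
    · rw [Matrix.det_neg, hz]; simp
    · rw [Matrix.trace_neg, ht]; simp
  rw [mul_comm, pow_mul, ← neg_sq, ← mul_one (z ^ p)]
  rw [neg_pow] at h1
  rcases neg_one_pow_eq_or (Matrix (Fin 2) (Fin 2) F) p with h | h
  · rw [h, one_mul] at h1
    rw [h1]; simp
  · rw [h, neg_one_mul] at h1
    rw [mul_one, h1]; simp


/-- In a finite subgroup of odd order of the matrices of determinant one, Sylow subgroups for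
primes other than the characteristic are central in their normalizers. -/
theorem normalizer_le_centralizer {F : Type*} [Field F] (p : ℕ) [Fact p.Prime] [CharP F p]
    (h2 : (2 : F) ≠ 0) {K : Type*} [Group K] [Finite K] (hodd : Odd (Nat.card K))
    (ρ : K →* Matrix (Fin 2) (Fin 2) F) (hρ : Function.Injective ρ) (hdet : ∀ g, (ρ g).det = 1)
    (r : ℕ) [Fact r.Prime] (hrp : r ≠ p) (R : Sylow r K) :
    Subgroup.normalizer (R : Set K) ≤ Subgroup.centralizer (R : Set K) := by
  have hpow1 : ∀ (x : K) (n : ℕ), ρ x ^ n = 1 → x ^ n = 1 := by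
    intro x n h
    apply hρ
    rw [map_pow, h, map_one]
  -- elements of odd order with square one are trivial
  have hsq : ∀ x : K, x ^ 2 = 1 → x = 1 := by
    intro x hx
    have h3 : x ^ Nat.card K = 1 := pow_card_eq_one'
    have := pow_gcd_eq_one.2 ⟨hx, h3⟩
    rwa [(Nat.coprime_two_left.2 hodd).gcd_eq_one, pow_one] at this
  by_cases hR : (R : Subgroup K) = ⊥
  · intro g _
    rw [Subgroup.mem_centralizer_iff]
    intro x hx
    have : x ∈ (R : Subgroup K) := hx
    rw [hR, Subgroup.mem_bot] at this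
    rw [this, one_mul, mul_one]
  · have hnt : Nontrivial (R : Subgroup K) := (Subgroup.nontrivial_iff_ne_bot _).2 hR
    have hRp : IsPGroup r (R : Subgroup K) := R.2
    have := hRp.center_nontrivial
    obtain ⟨⟨⟨z, hzR⟩, hzc⟩, hz1⟩ := exists_ne (1 : Subgroup.center (R : Subgroup K))
    have hz1' : z ≠ 1 := by
      intro h
      apply hz1
      apply Subtype.ext
      apply Subtype.ext
      exact h
    have hzcomm : ∀ x ∈ (R : Subgroup K), x * z = z * x := by
      intro x hx
      have := (Subgroup.mem_center_iff.1 hzc) ⟨x, hx⟩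
      exact congrArg Subtype.val this
    -- z is not scalar
    have hns : ∀ c : F, ρ z ≠ c • (1 : Matrix (Fin 2) (Fin 2) F) := by
      intro c hc
      apply hz1'
      apply hsq
      apply hpow1
      have hd := hdet z
      rw [hc, Matrix.det_smul, Matrix.det_one, mul_one, Fintype.card_fin] at hd
      rw [hc, smul_pow, hd, one_pow, one_smul]
    obtain ⟨k, hk⟩ := hRp ⟨z, hzR⟩
    have hk' : z ^ r ^ k = 1 := congrArg Subtype.val hk
    have hzp : z ^ p ≠ 1 := by
      intro h
      apply hz1'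
      have hcop : Nat.Coprime p (r ^ k) :=
        Nat.Coprime.pow_right _ ((Nat.coprime_primes (Fact.out) (Fact.out)).2 (Ne.symm hrp))
      have := pow_gcd_eq_one.2 ⟨h, hk'⟩
      rwa [hcop.gcd_eq_one, pow_one] at this
    have ht1 : (ρ z).trace ≠ 2 := fun h => hzp (hpow1 _ _ (pow_p_of_trace_two p _ (hdet z) h))
    have ht2 : (ρ z).trace ≠ -2 := by
      intro h
      have h4 := hpow1 _ _ (pow_p_of_trace_neg_two p _ (hdet z) h)
      rw [mul_comm, pow_mul] at h4
      exact hzp (hsq _ h4)
    -- the centralizer of z is commutative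
    have hcent : ∀ x : K, x * z = z * x → ∃ α β : F,
        ρ x = α • (1 : Matrix (Fin 2) (Fin 2) F) + β • ρ z := by
      intro x hx
      apply commute_nonscalar _ _ hns
      rw [← map_mul, ← map_mul, hx]
    have hcomm2 : ∀ g x : K, g * z = z * g → x * z = z * x → g * x = x * g := by
      intro g x hg hx
      obtain ⟨α, β, h⟩ := hcent x hx
      apply hρ
      rw [map_mul, map_mul, h, mul_add, add_mul, Matrix.mul_smul, Matrix.mul_smul,
        Matrix.smul_mul, Matrix.smul_mul, mul_one, one_mul, ← map_mul, ← map_mul, hg]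
    intro g hg
    have hgz : g * z = z * g := by
      have hw : g * z * g⁻¹ ∈ (R : Subgroup K) := by
        have := (Subgroup.mem_normalizer_iff.1 hg z).1 hzR
        exact this
      obtain ⟨α, β, hab⟩ := hcent _ (hzcomm _ hw)
      have htr : (ρ (g * z * g⁻¹)).trace = (ρ z).trace := by
        rw [map_mul, Matrix.trace_mul_comm, ← map_mul]
        simp
      rcases torus h2 (ρ z) (ρ (g * z * g⁻¹)) (hdet z) (hdet _) htr ht1 ht2 α β hab with h | h
      · have h20 := hρ h
        rw [mul_inv_eq_iff_eq_mul] at h20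
        exact h20
      · exfalso
        have h5 : g * z * g⁻¹ * z = 1 := by
          apply hρ
          rw [map_mul, h, map_one]
        have h6 : g * z * g⁻¹ = z⁻¹ := by
          rw [mul_eq_one_iff_eq_inv] at h5
          exact h5
        have h7 : g ^ 2 * z = z * g ^ 2 := by
          have h8 : g * (g * z * g⁻¹) * g⁻¹ = z := by
            rw [h6]
            have : g * z⁻¹ * g⁻¹ = (g * z * g⁻¹)⁻¹ := by group
            rw [this, h6, inv_inv]
          calc g ^ 2 * z = (g * (g * z * g⁻¹) * g⁻¹) * g ^ 2 := by rw [pow_two]; group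
            _ = z * g ^ 2 := by rw [h8]
        obtain ⟨m, hm⟩ := hodd
        have h9 : g ^ (2 * m + 1) = 1 := by rw [← hm]; exact pow_card_eq_one'
        have h10 : Commute (g ^ 2) z := h7
        have h11 : Commute (g ^ (2 * m)) z := by rw [pow_mul]; exact h10.pow_left m
        have h12 : g⁻¹ = g ^ (2 * m) := by
          rw [pow_succ] at h9
          exact (eq_inv_of_mul_eq_one_left h9).symm
        rw [← h12] at h11
        have h13 : Commute g z := by
          have := h11.inv_left
          rwa [inv_inv] at this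
        have h14 : g * z * g⁻¹ = z := by rw [h13.eq]; group
        rw [h14] at h6
        apply hz1'
        apply hsq
        rw [pow_two]
        nth_rewrite 1 [h6]
        exact inv_mul_cancel z
    rw [Subgroup.mem_centralizer_iff]
    intro x hx
    exact (hcomm2 g x hgz (hzcomm x hx)).symm

/-- Let F be a field of odd characteristic p and H a finite subgroup of odd order of GL(2, F) that leaves no 1-dimensional subspace of F² invariant. Then p does not divide the order of H. -/
theorem result {F : Type*} [Field F] (p : ℕ) [Fact p.Prime] [CharP F p] (hp : p ≠ 2)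
    (H : Subgroup (GL (Fin 2) F)) [Finite H] (hodd : Odd (Nat.card H))
    (hirr : ∀ v : Fin 2 → F, v ≠ 0 → ∃ g ∈ H, (g : Matrix (Fin 2) (Fin 2) F).mulVec v ∉ Submodule.span F {v}) :
    ¬ p ∣ Nat.card H := by
  intro hpd
  have hpp : p.Prime := Fact.out
  have h2 : (2 : F) ≠ 0 := by
    intro h
    have h' : ((2 : ℕ) : F) = 0 := by exact_mod_cast h
    rw [CharP.cast_eq_zero_iff F p 2] at h'
    exact hp ((Nat.prime_dvd_prime_iff_eq hpp Nat.prime_two).1 h')
  -- scalars of p-power order are trivial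
  have hsc : ∀ (c : F) (k : ℕ), c ^ p ^ k = 1 → c = 1 := by
    intro c k hc
    have : (c - 1) ^ p ^ k = 0 := by rw [sub_pow_char_pow, hc, one_pow, sub_self]
    exact sub_eq_zero.1 (pow_eq_zero_iff (pow_pos hpp.pos k).ne' |>.1 this)
  let d : H →* Fˣ := Matrix.GeneralLinearGroup.det.comp H.subtype
  let ρ : d.ker →* Matrix (Fin 2) (Fin 2) F :=
    (Units.coeHom _).comp (H.subtype.comp d.ker.subtype)
  have hρ : Function.Injective ρ := by
    intro a b hab
    apply Subtype.ext
    apply Subtype.ext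
    exact Units.ext hab
  have hρdet : ∀ g, (ρ g).det = 1 := by
    rintro ⟨g, hg⟩
    have : d g = 1 := hg
    exact congrArg Units.val this
  have hKodd : Odd (Nat.card d.ker) := Odd.of_dvd_nat hodd (Subgroup.card_subgroup_dvd_card _)
  obtain ⟨D, hDn, hDp, hD⟩ := exists_normal_of_transfer (G := d.ker) p
    (fun r hr hrp R => by
      have := hr
      exact normalizer_le_centralizer p h2 hKodd ρ hρ hρdet r hrp R)
  -- p-elements of H are in D
  have hdker : ∀ (g : H), (∃ k : ℕ, g ^ p ^ k = 1) → g ∈ d.ker := by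
    rintro g ⟨k, hk⟩
    have h3 : (d g) ^ p ^ k = 1 := by rw [← map_pow, hk, map_one]
    have h4 : ((d g : Fˣ) : F) ^ p ^ k = 1 := by
      rw [← Units.val_pow_eq_pow_val, h3, Units.val_one]
    exact Units.ext (hsc _ _ h4)
  obtain ⟨z₀, hz₀⟩ := exists_prime_orderOf_dvd_card' p hpd
  have hz₀K : z₀ ∈ d.ker := hdker z₀ ⟨1, by rw [pow_one, ← hz₀, pow_orderOf_eq_one]⟩
  have hz₀D : (⟨z₀, hz₀K⟩ : d.ker) ∈ D := by
    apply hD
    refine ⟨1, ?_⟩
    apply Subtype.ext
    change z₀ ^ p ^ 1 = 1
    rw [pow_one, ← hz₀, pow_orderOf_eq_one]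
  have hDnt : Nontrivial D := by
    refine ⟨⟨⟨z₀, hz₀K⟩, hz₀D⟩, 1, ?_⟩
    intro h
    have h5 : z₀ = 1 := congrArg Subtype.val (congrArg Subtype.val h)
    rw [h5, orderOf_one] at hz₀
    exact hpp.one_lt.ne hz₀
  have := hDp.center_nontrivial
  obtain ⟨⟨⟨z, hzD⟩, hzc⟩, hz1⟩ := exists_ne (1 : Subgroup.center D)
  have hz1' : z ≠ 1 := by
    intro h
    apply hz1
    apply Subtype.ext
    apply Subtype.ext
    exact h
  have hzcomm : ∀ x ∈ D, x * z = z * x := by
    intro x hx
    have := (Subgroup.mem_center_iff.1 hzc) ⟨x, hx⟩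
    exact congrArg Subtype.val this
  obtain ⟨k, hk⟩ := hDp ⟨z, hzD⟩
  have hk' : z ^ p ^ k = 1 := congrArg Subtype.val hk
  have hρz : ρ z ≠ 1 := by
    intro h
    apply hz1'
    apply hρ
    rw [h, map_one]
  -- det (z - 1) = 0
  have hdet0 : (ρ z - 1).det = 0 := by
    have h6 : (ρ z - 1) ^ p ^ k = 0 := by
      have := sub_pow_char_pow_of_commute (p := p) (n := k) (Commute.one_right (ρ z))
      rw [this, ← map_pow, hk', map_one, one_pow, sub_self]
    have h7 := congrArg Matrix.det h6
    rw [Matrix.det_pow, Matrix.det_zero] at h7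
    · exact (pow_eq_zero_iff (pow_pos hpp.pos k).ne').1 h7
  obtain ⟨v, hv0, hv⟩ := Matrix.exists_mulVec_eq_zero_iff.2 hdet0
  have hkey : ∀ w : Fin 2 → F, (ρ z).mulVec w = w → w ∈ Submodule.span F {v} := by
    intro w hw
    have hw' : (ρ z - 1).mulVec w = 0 := by
      rw [Matrix.sub_mulVec, hw, Matrix.one_mulVec, sub_self]
    by_contra hnot
    -- the matrix with columns v, w is invertible
    have hdd : v 0 * w 1 - v 1 * w 0 ≠ 0 := by
      intro h
      apply hnot
      rw [Submodule.mem_span_singleton]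
      by_cases hv00 : v 0 = 0
      · have hv1 : v 1 ≠ 0 := by
          intro h'
          apply hv0
          ext i
          fin_cases i
          · exact hv00
          · exact h'
        refine ⟨w 1 / v 1, ?_⟩
        ext i
        fin_cases i
        · simp only [Fin.zero_eta, Fin.isValue, Pi.smul_apply, smul_eq_mul]
          rw [hv00] at h
          have : v 1 * w 0 = 0 := by linear_combination -h
          rw [hv00, mul_zero]
          exact ((mul_eq_zero.1 this).resolve_left hv1).symm
        · simp only [Fin.mk_one, Fin.isValue, Pi.smul_apply, smul_eq_mul]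
          field_simp
      · refine ⟨w 0 / v 0, ?_⟩
        ext i
        fin_cases i
        · simp only [Fin.zero_eta, Fin.isValue, Pi.smul_apply, smul_eq_mul]
          field_simp
        · simp only [Fin.mk_one, Fin.isValue, Pi.smul_apply, smul_eq_mul]
          field_simp
          linear_combination -h
    apply hρz
    rw [← sub_eq_zero]
    have e0 := congrFun hv 0
    have e1 := congrFun hv 1
    have f0 := congrFun hw' 0
    have f1 := congrFun hw' 1
    simp only [Matrix.mulVec, dotProduct, Fin.sum_univ_two, Pi.zero_apply] at e0 e1 f0 f1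
    ext i j
    have aux : ∀ a b : F, a * v 0 + b * v 1 = 0 → a * w 0 + b * w 1 = 0 → a = 0 ∧ b = 0 := by
      intro a b h1 h2
      constructor
      · have : a * (v 0 * w 1 - v 1 * w 0) = 0 := by linear_combination w 1 * h1 - v 1 * h2
        exact (mul_eq_zero.1 this).resolve_right hdd
      · have : b * (v 0 * w 1 - v 1 * w 0) = 0 := by linear_combination -w 0 * h1 + v 0 * h2
        exact (mul_eq_zero.1 this).resolve_right hdd
    have g0 := aux _ _ e0 f0
    have g1 := aux _ _ e1 f1
    fin_cases i <;> fin_cases j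
    · exact g0.1
    · exact g0.2
    · exact g1.1
    · exact g1.2
  have hzv : (ρ z).mulVec v = v := by
    rw [Matrix.sub_mulVec, Matrix.one_mulVec, sub_eq_zero] at hv
    exact hv
  -- every element of D fixes v
  have hDv : ∀ x ∈ D, (ρ x).mulVec v = v := by
    intro x hx
    have h8 : (ρ x).mulVec v ∈ Submodule.span F {v} := by
      apply hkey
      rw [Matrix.mulVec_mulVec, ← map_mul, ← hzcomm x hx, map_mul, ← Matrix.mulVec_mulVec, hzv]
    obtain ⟨c, hc⟩ := Submodule.mem_span_singleton.1 h8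
    have h9 : ∀ n : ℕ, (ρ x ^ n).mulVec v = c ^ n • v := by
      intro n
      induction n with
      | zero => simp
      | succ n ih =>
        rw [pow_succ', ← Matrix.mulVec_mulVec, ih, Matrix.mulVec_smul, ← hc, smul_smul, pow_succ]
    obtain ⟨m, hm⟩ := hDp ⟨x, hx⟩
    have hm' : x ^ p ^ m = 1 := congrArg Subtype.val hm
    have h10 := h9 (p ^ m)
    rw [← map_pow, hm', map_one, Matrix.one_mulVec] at h10
    have h11 : (c ^ p ^ m - 1) • v = 0 := by rw [sub_smul, one_smul, ← h10, sub_self]
    have h12 : c ^ p ^ m = 1 := sub_eq_zero.1 ((smul_eq_zero.1 h11).resolve_right hv0)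
    rw [← hc, hsc c m h12, one_smul]
  obtain ⟨g, hgH, hg⟩ := hirr v hv0
  apply hg
  apply hkey
  -- z g v = g (g⁻¹ z g) v = g v
  let g' : H := ⟨g, hgH⟩
  have h13 : g'⁻¹ * (z : H) * g' ∈ d.ker := by
    have := (inferInstance : (d.ker).Normal).conj_mem (z : H) z.2 g'⁻¹
    rwa [inv_inv] at this
  have h14 : (⟨g'⁻¹ * (z : H) * g', h13⟩ : d.ker) ∈ D := by
    apply hD
    refine ⟨k, ?_⟩
    apply Subtype.ext
    change (g'⁻¹ * (z : H) * g') ^ p ^ k = 1
    have h15 : (z : H) ^ p ^ k = 1 := congrArg Subtype.val hk'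
    have h16 := conj_pow (i := p ^ k) (a := g'⁻¹) (b := (z : H))
    rw [inv_inv] at h16
    rw [h16, h15]
    group
  have h17 := hDv _ h14
  have h18 : ρ z * (g : Matrix (Fin 2) (Fin 2) F) =
      (g : Matrix (Fin 2) (Fin 2) F) * ρ ⟨g'⁻¹ * (z : H) * g', h13⟩ := by
    have h19 : (((z : H) : GL (Fin 2) F)) * g = g * (((g'⁻¹ * (z : H) * g' : H)) : GL (Fin 2) F) := by
      have : (z : H) * g' = g' * (g'⁻¹ * (z : H) * g') := by group
      exact congrArg Subtype.val this
    exact congrArg Units.val h19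
  rw [Matrix.mulVec_mulVec, h18, ← Matrix.mulVec_mulVec, h17]

end Cfsg.Agent.S1463
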