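import Cfsg.Statements.S1468
import Cfsg.Agent.S1465
import Cfsg.Agent.OddOrderLocal.PuigMain
set_option linter.all false

set_option autoImplicit false
open Cfsg

namespace Cfsg.Agent.S1468

/-- Let p be an odd prime, G a solvable group of odd order with O_{p'}(G) = 1, S a Sylow p-subgroup and T = O_p(G). Then, viewing the Puig subgroups of S and of T inside G, L_*(S) ≤ L_*(T) ≤ L(T) ≤ L(S). -/
theorem result {G : Type*} [Group G] [Finite G] [Group.IsSolvable G] (hodd : Odd (Nat.card G)) (p : ℕ) [Fact p.Prime] (hp : p ≠ 2) (hO : Cfsg.pPrimeCore p G = ⊥) (S : Sylow p G) :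
    (Cfsg.puigLower ↥(S : Subgroup G)).map (S : Subgroup G).subtype ≤ (Cfsg.puigLower ↥(Cfsg.pCore p G)).map (Cfsg.pCore p G).subtype ∧
      (Cfsg.puigLower ↥(Cfsg.pCore p G)).map (Cfsg.pCore p G).subtype ≤ (Cfsg.puigSubgroup ↥(Cfsg.pCore p G)).map (Cfsg.pCore p G).subtype ∧
      (Cfsg.puigSubgroup ↥(Cfsg.pCore p G)).map (Cfsg.pCore p G).subtype ≤ (Cfsg.puigSubgroup ↥(S : Subgroup G)).map (S : Subgroup G).subtype := by
  have h2 : ∀ P : Subgroup G, P.Normal → IsPGroup p P →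
      pCore p G ⊓ Subgroup.centralizer (P : Set G) ≤ P →
      ∀ F : Set (Subgroup G), (∀ B ∈ F, IsMulCommutative B ∧ IsPGroup p B ∧
        P ≤ Subgroup.normalizer (B : Set G)) → sSup F ≤ pCore p G := by
    intro P hPn hP hPc F hF
    exact (Cfsg.Agent.S1465.result hodd p hp P hP F hF).2 hO hPc
  have h3 := Cfsg.Agent.OddOrderLocal.PuigMain.lowerIn_le_upperIn_compare S h2
  rw [Cfsg.Agent.OddOrderLocal.PuigIn.map_subtype_puigLower,
    Cfsg.Agent.OddOrderLocal.PuigIn.map_subtype_puigLower,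
    Cfsg.Agent.OddOrderLocal.PuigIn.map_subtype_puigSubgroup,
    Cfsg.Agent.OddOrderLocal.PuigIn.map_subtype_puigSubgroup]
  exact ⟨h3.1, Cfsg.Agent.OddOrderLocal.PuigIn.lowerIn_le_upperIn _, h3.2⟩

end Cfsg.Agent.S1468
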