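import Cfsg.Agent.OddOrderLocal.CNSylowTI
import Cfsg.Statements.S1478
set_option linter.all false

-- part: OddOrderLocal/CNNoThreeStep
section
/-!
No three-step subgroups in a minimal simple CN-group of odd order.
-/

set_option autoImplicit false
set_option linter.style.haveILetI false
set_option linter.unusedSectionVars false

namespace Cfsg.Agent.OddOrderLocal.CNNoThreeStep

open Subgroup Cfsg
open scoped Pointwise

variable {G : Type*} [Group G] [Finite G]

/-- If Sylow `q`-subgroups of `G` are TI-subgroups then a subgroup `H` with `O_q(H) ≠ 1` has a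
normal Sylow `q`-subgroup. -/
theorem sylow_normal_of_pCore_ne_bot (hG : IsMinSimpleOddOrder G) (hCN : IsCNGroup G) (q : ℕ)
    [Fact q.Prime] (H : Subgroup G) (hH : pCore q H ≠ ⊥) (T : Sylow q H) :
    (T : Subgroup H).Normal := by
  obtain ⟨P, hP⟩ := (T.isPGroup'.map H.subtype).exists_le_sylow
  have hTP : (P : Subgroup G).subgroupOf H = (T : Subgroup H) := by
    apply T.3 P.isPGroup'.comap_subtype
    intro x hx
    exact hP ⟨x, hx, rfl⟩
  have hmem : ∀ x : H, x ∈ (T : Subgroup H) ↔ (x : G) ∈ (P : Subgroup G) := by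
    intro x
    rw [← hTP, mem_subgroupOf]
  constructor
  intro t ht h
  have key : MulAut.conj (h : G) • (P : Subgroup G) = P := by
    by_contra hne
    have hbot := CNSylowTI.sylow_inf_conj_eq_bot hG hCN q P h hne
    apply hH
    rw [eq_bot_iff]
    intro x hx
    have h1 : (x : G) ∈ (P : Subgroup G) := (hmem x).mp (Lib.Cores.pCore_le_sylow T hx)
    have h2 : (x : G) ∈ MulAut.conj (h : G) • (P : Subgroup G) := by
      rw [Subgroup.mem_pointwise_smul_iff_inv_smul_mem, ← map_inv, MulAut.smul_def,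
        MulAut.conj_apply, inv_inv]
      have h3 : h⁻¹ * x * (h⁻¹)⁻¹ ∈ pCore q H :=
        (inferInstance : (pCore q H).Normal).conj_mem x hx h⁻¹
      rw [inv_inv] at h3
      exact (hmem _).mp (Lib.Cores.pCore_le_sylow T h3)
    have h4 : (x : G) ∈ (P : Subgroup G) ⊓ MulAut.conj (h : G) • (P : Subgroup G) :=
      Subgroup.mem_inf.mpr ⟨h1, h2⟩
    rw [hbot, Subgroup.mem_bot] at h4
    exact Subgroup.mem_bot.mpr (Subtype.ext h4)
  rw [hmem] at ht ⊢
  rw [← key]
  rw [Subgroup.mem_pointwise_smul_iff_inv_smul_mem, ← map_inv, MulAut.smul_def,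
    MulAut.conj_apply, inv_inv]
  have h5 : (h : G)⁻¹ * ((h * t * h⁻¹ : H) : G) * (h : G) = t := by
    simp only [Subgroup.coe_mul, Subgroup.coe_inv]; group
  rw [h5]
  exact ht

theorem no_three_step (hG : IsMinSimpleOddOrder G) (hCN : IsCNGroup G) (H : Subgroup G) (p : ℕ) :
    ¬ IsThreeStepGroup p ↥H := by
  rintro ⟨hO, A, -, -, -, -, -, hne, ⟨n, hn⟩, -, -⟩
  -- `H` is proper
  have hHtop : H ≠ ⊤ := by
    rintro rfl
    haveI : (pCore p (⊤ : Subgroup G)).Characteristic := Lib.Cores.pCore_characteristic p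
    have h1 : ((pCore p (⊤ : Subgroup G)).map (⊤ : Subgroup G).subtype).Normal := inferInstance
    rcases MinSimpleBasic.eq_bot_or_eq_top_of_normal hG
      ((pCore p (⊤ : Subgroup G)).map (⊤ : Subgroup G).subtype) with h | h
    · exact hO ((Subgroup.map_eq_bot_iff_of_injective _ (subtype_injective _)).mp h)
    · apply hne
      rw [eq_top_iff]
      intro x _
      have hx : (x : G) ∈ (pCore p (⊤ : Subgroup G)).map (⊤ : Subgroup G).subtype := by
        rw [h]; trivial
      obtain ⟨y, hy, hyx⟩ := hx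
      have : y = x := Subtype.ext hyx
      rw [← this]
      exact (le_sup_left : pCore p (⊤ : Subgroup G) ≤ _) hy
  haveI hsol : Group.IsSolvable H := MinSimpleBasic.isSolvable_of_ne_top hG hHtop
  haveI : Nontrivial (pCore p H) := (Subgroup.nontrivial_iff_ne_bot _).mpr hO
  obtain ⟨q, hq, V, hVchar, -, hVq, hVne⟩ :=
    Lib.SolvableMinNormal.exists_characteristic_pgroup (G := pCore p H)
  haveI := Fact.mk hq
  -- `q` divides `p`
  have hqp : q ∣ p := by
    obtain ⟨v, hv⟩ := (Subgroup.ne_bot_iff_exists_ne_one).mp hVne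
    have h1 : q ∣ orderOf v := hVq.dvd_orderOf hv
    have h2 := (Lib.Cores.pCore_isPGroup (G := H) p)
    rw [isPGroup_iff_orderOf_dvd_pow] at h2
    obtain ⟨k, hk⟩ := h2 (v : pCore p H)
    rw [Subgroup.orderOf_coe] at hk
    exact hq.dvd_of_dvd_pow (h1.trans hk)
  have hVn : (V.map (pCore p H).subtype).Normal := inferInstance
  have hVO : V.map (pCore p H).subtype ≤ pCore q H := Lib.Cores.le_pCore hVn (hVq.map _)
  have hOq : pCore q H ≠ ⊥ := by
    intro h
    rw [h, le_bot_iff, Subgroup.map_eq_bot_iff_of_injective _ (subtype_injective _)] at hVO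
    exact hVne hVO
  obtain ⟨T⟩ := (inferInstance : Nonempty (Sylow q H))
  have hTn := sylow_normal_of_pCore_ne_bot hG hCN q H hOq T
  have hTO : (T : Subgroup H) ≤ pCore p H :=
    Lib.Cores.le_pCore hTn (T.isPGroup'.mono hqp)
  have hdvd : (pCore p H ⊔ A).index ∣ (T : Subgroup H).index :=
    index_dvd_of_le (hTO.trans le_sup_left)
  have hn0 : n ≠ 0 := by
    rintro rfl
    rw [pow_zero, Subgroup.index_eq_one] at hn
    exact hne hn
  apply T.not_dvd_index
  refine dvd_trans ?_ hdvd
  rw [hn]
  exact hqp.trans (dvd_pow_self p hn0)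

end Cfsg.Agent.OddOrderLocal.CNNoThreeStep
end

-- part: S1478
section
set_option autoImplicit false
open Cfsg

namespace Cfsg.Agent.S1478

/-- Let G be a minimal simple group of odd order in which every non-identity element has nilpotent centralizer. Then no subgroup of G is a three-step group with respect to any prime. -/
theorem result {G : Type*} [Group G] [Finite G] (hG : Cfsg.IsMinSimpleOddOrder G) (hCN : Cfsg.IsCNGroup G) :
    ∀ (H : Subgroup G) (p : ℕ), ¬ Cfsg.IsThreeStepGroup p ↥H := by
  exact fun H p => OddOrderLocal.CNNoThreeStep.no_three_step hG hCN H p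

end Cfsg.Agent.S1478
end
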