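import Mathlib
import Cfsg.Prelude.Def_Local
import Cfsg.Agent.Lib.Cores
import Cfsg.Agent.Lib.ThompsonPQ
import Cfsg.Agent.PLocal.PConstrained
import Cfsg.Prelude.Def_Transfer
import Cfsg.Agent.OddOrderLocal.HyperplaneFixed
import Cfsg.Agent.SignalizersComponents.CoprimeFix
import Cfsg.Agent.Blocks.SylowIn
import Cfsg.Prelude.Def_OddOrderLocal
import Cfsg.Agent.S1302
import Cfsg.Agent.OddOrderLocal.Transitivity
import Cfsg.Agent.Lib.PGroupCoprimeAction
import Cfsg.Statements.S1480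
set_option linter.all false

-- part: OddOrderLocal/ConstrainedSignalizer
section
/-!
# Invariant `p'`-subgroups of a `p`-constrained group, class two case

If `X` is `p`-constrained and the `p`-subgroup `A` contains every `p`-element of `C_X(A)` and satisfies
`[S, A] ≤ C_X(A)` for some Sylow `p`-subgroup `S` containing `A` (for instance because `S` has class at most two),
then every `A`-invariant `p'`-subgroup of `X` lies in `O_{p'}(X)`. No restriction on the prime `p`.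
-/

set_option autoImplicit false
open Cfsg

namespace Cfsg.Agent.OddOrderLocal.ConstrainedSignalizer

open Subgroup

/-- Core computation: `R` a self-centralizing normal `p`-subgroup of `Y`, `A` a `p`-subgroup normalized by `R` modulo
nothing (`[R, A] ≤ A`) and with `C_R(A) ≤ A`; then an `A`-invariant `p'`-subgroup is trivial. -/
theorem eq_bot {Y : Type*} [Group Y] [Finite Y] (p : ℕ) [Fact p.Prime]
    (R : Subgroup Y) (hRn : R.Normal) (hRp : IsPGroup p R)
    (hcent : centralizer (R : Set Y) ≤ R) (A Q : Subgroup Y) (hAp : IsPGroup p A)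
    (hQ : (Nat.card Q).Coprime p) (hAQ : A ≤ normalizer (Q : Set Y))
    (hRA' : ∀ r ∈ R, ∀ a ∈ A, r * a * r⁻¹ * a⁻¹ ∈ A)
    (hCR' : R ⊓ centralizer (A : Set Y) ≤ A) : Q = ⊥ := by
  have hRQ : R ⊓ Q = ⊥ := by
    obtain ⟨n, hn⟩ := IsPGroup.iff_card.mp hRp
    apply Disjoint.eq_bot
    apply Subgroup.disjoint_of_coprime_natCard
    rw [hn]
    exact Nat.Coprime.pow_left n hQ.symm
  have hRA : ∀ r ∈ R, ∀ a ∈ A, r * a * r⁻¹ * a⁻¹ ∈ R ⊓ A := by
    intro r hr a ha
    refine ⟨?_, hRA' r hr a ha⟩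
    have : r * a * r⁻¹ * a⁻¹ = r * (a * r⁻¹ * a⁻¹) := by group
    rw [this]
    exact R.mul_mem hr (hRn.conj_mem _ (R.inv_mem hr) _)
  have hCR : R ⊓ centralizer (A : Set Y) ≤ R ⊓ A := le_inf inf_le_left hCR'
  -- `R ⊓ A` centralizes `Q`
  have hDQ : ∀ d ∈ R ⊓ A, ∀ q ∈ Q, d * q = q * d := by
    intro d hd q hq
    have h1 : d * q * d⁻¹ * q⁻¹ ∈ R ⊓ Q := by
      refine ⟨?_, ?_⟩
      · have : d * q * d⁻¹ * q⁻¹ = d * (q * d⁻¹ * q⁻¹) := by group
        rw [this]
        exact R.mul_mem hd.1 (hRn.conj_mem _ (R.inv_mem hd.1) q)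
      · exact Q.mul_mem (Subgroup.le_normalizer_iff.mp hAQ d hd.2 q hq) (Q.inv_mem hq)
    rw [hRQ, Subgroup.mem_bot] at h1
    exact mul_inv_eq_iff_eq_mul.mp (mul_inv_eq_one.mp h1)
  -- `R ⊓ A` is normalized by `R` and `A`
  have hDR : ∀ r ∈ R, ∀ d ∈ R ⊓ A, r * d * r⁻¹ ∈ R ⊓ A := by
    intro r hr d hd
    have h1 := hRA r hr d hd.2
    have h2 : r * d * r⁻¹ = (r * d * r⁻¹ * d⁻¹) * d := by group
    rw [h2]
    exact (R ⊓ A).mul_mem h1 hd
  have hDA : ∀ a ∈ A, ∀ d ∈ R ⊓ A, a * d * a⁻¹ ∈ R ⊓ A := by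
    intro a ha d hd
    exact ⟨hRn.conj_mem _ hd.1 a, A.mul_mem (A.mul_mem ha hd.2) (A.inv_mem ha)⟩
  have hself : Q ≤ centralizer (R : Set Y) → Q = ⊥ := by
    intro h
    rw [eq_bot_iff, ← hRQ]
    exact le_inf (h.trans hcent) le_rfl
  -- `[Q, A] = 1`
  have hQA : ∀ q ∈ Q, ∀ a ∈ A, q * a = a * q := by
    intro q hq a ha
    obtain ⟨c, hc⟩ : ∃ c, c = q * a * q⁻¹ * a⁻¹ := ⟨_, rfl⟩
    have hcQ : c ∈ Q := by
      have h1 : c = q * (a * q⁻¹ * a⁻¹) := by rw [hc]; group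
      rw [h1]
      exact Q.mul_mem hq (Subgroup.le_normalizer_iff.mp hAQ a ha _ (Q.inv_mem hq))
    have hcR : ∀ r ∈ R, Commute r c⁻¹ := by
      apply Lib.ThompsonPQ.commute_of_commutator_commute (U := R) (x := c⁻¹)
      · obtain ⟨n, hn⟩ := IsPGroup.iff_card.mp hRp
        rw [hn, orderOf_inv]
        apply Nat.Coprime.pow_right
        refine Nat.Coprime.coprime_dvd_left ?_ hQ
        rw [← Subgroup.orderOf_mk c hcQ]
        exact orderOf_dvd_natCard _
      · rw [Subgroup.normalizer_eq_top]; trivial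
      · intro u hu
        -- `a⁻¹ u a = u d₁`
        obtain ⟨d1, hd1def⟩ : ∃ d, d = u⁻¹ * a⁻¹ * u * a := ⟨_, rfl⟩
        have hd1 : d1 ∈ R ⊓ A := by
          have := hRA u⁻¹ (R.inv_mem hu) a⁻¹ (A.inv_mem ha)
          rwa [inv_inv, inv_inv, ← hd1def] at this
        obtain ⟨u', hu'⟩ : ∃ u', u' = q⁻¹ * u * q := ⟨_, rfl⟩
        have hu'R : u' ∈ R := by
          have := hRn.conj_mem u hu q⁻¹
          rwa [inv_inv, ← hu'] at this
        obtain ⟨d2, hd2def⟩ : ∃ d, d = u'⁻¹ * a * u' * a⁻¹ := ⟨_, rfl⟩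
        have hd2 : d2 ∈ R ⊓ A := by
          have := hRA u'⁻¹ (R.inv_mem hu'R) a ha
          rwa [inv_inv, ← hd2def] at this
        obtain ⟨d3, hd3def⟩ : ∃ d, d = d2 * (a * d1 * a⁻¹) := ⟨_, rfl⟩
        have hd3 : d3 ∈ R ⊓ A := by
          rw [hd3def]
          exact (R ⊓ A).mul_mem hd2 (hDA a ha d1 hd1)
        have e1 : q⁻¹ * (u * d1) * q = u' * d1 := by
          have := hDQ d1 hd1 q hq
          calc q⁻¹ * (u * d1) * q = q⁻¹ * u * (d1 * q) := by group
            _ = q⁻¹ * u * (q * d1) := by rw [this]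
            _ = u' * d1 := by rw [hu']; group
        have e2 : q * (u' * d3) * q⁻¹ = u * d3 := by
          have h3 : d3 * q⁻¹ = q⁻¹ * d3 := hDQ d3 hd3 q⁻¹ (Q.inv_mem hq)
          calc q * (u' * d3) * q⁻¹ = q * u' * (d3 * q⁻¹) := by group
            _ = q * u' * (q⁻¹ * d3) := by rw [h3]
            _ = u * d3 := by rw [hu']; group
        have e3 : c * u * c⁻¹ = u * d3 := by
          have h5 : a⁻¹ * u * a = u * d1 := by rw [hd1def]; group
          have h6 : a * (u' * d1) * a⁻¹ = u' * d3 := by rw [hd3def, hd2def]; group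
          calc c * u * c⁻¹ = q * (a * (q⁻¹ * (a⁻¹ * u * a) * q) * a⁻¹) * q⁻¹ := by rw [hc]; group
            _ = q * (a * (q⁻¹ * (u * d1) * q) * a⁻¹) * q⁻¹ := by rw [h5]
            _ = q * (a * (u' * d1) * a⁻¹) * q⁻¹ := by rw [e1]
            _ = q * (u' * d3) * q⁻¹ := by rw [h6]
            _ = u * d3 := e2
        have e4 : (c⁻¹)⁻¹ * u * c⁻¹ * u⁻¹ = u * d3 * u⁻¹ := by
          rw [inv_inv, e3]
        rw [e4]
        have h7 : u * d3 * u⁻¹ ∈ R ⊓ A := hDR u hu d3 hd3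
        have h8 : Commute (u * d3 * u⁻¹) c := hDQ _ h7 c hcQ
        exact h8.inv_right
    have hc1 : c ∈ R ⊓ Q := by
      refine ⟨hcent ?_, hcQ⟩
      rw [Subgroup.mem_centralizer_iff]
      intro r hr
      exact ((Commute.inv_right_iff).mp (hcR r hr)).eq
    rw [hRQ, Subgroup.mem_bot, hc] at hc1
    exact mul_inv_eq_iff_eq_mul.mp (mul_inv_eq_one.mp hc1)
  apply hself
  refine Lib.ThompsonPQ.thompson_p_times_q p A Q R hAp hQ hRp ?_ ?_ ?_ ?_
  · intro a ha
    rw [Subgroup.mem_centralizer_iff]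
    intro q hq
    exact hQA q hq a ha
  · exact Subgroup.le_normalizer_of_normal
  · exact Subgroup.le_normalizer_of_normal
  · intro z hz
    rw [Subgroup.mem_centralizer_iff]
    intro q hq
    exact (hDQ z (hCR hz) q hq).symm

/-- `X` `p`-constrained, `A ≤ S ∈ Syl_p`, `[S, A]` centralizes `A`, `A` contains the `p`-elements of its centralizer:
then every `A`-invariant `p'`-subgroup lies in `O_{p'}(X)`. -/
theorem le_pPrimeCore {X : Type*} [Group X] [Finite X] (p : ℕ) [Fact p.Prime]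
    (hX : Cfsg.IsPConstrained p X) (A : Subgroup X) (S : Sylow p X) (hAS : A ≤ (S : Subgroup X))
    (hcl : ⁅(S : Subgroup X), A⁆ ≤ centralizer (A : Set X))
    (hfull : ∀ x ∈ centralizer (A : Set X), x ∈ (S : Subgroup X) → x ∈ A)
    (Q : Subgroup X) (hQ : ¬ p ∣ Nat.card ↥Q) (hAQ : A ≤ normalizer (Q : Set X)) :
    Q ≤ Cfsg.pPrimeCore p X := by
  have hpp : p.Prime := Fact.out
  have hcharP := PLocal.PConstrained.isPConstrained_iff.mp hX
  have hOn : (pPrimeCore p X).Normal := Lib.Cores.pPrimeCore_normal p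
  have hOc := PLocal.PConstrained.coprime_card_pPrimeCore p X
  have hπ : Function.Surjective (QuotientGroup.mk' (pPrimeCore p X)) := QuotientGroup.mk'_surjective _
  have hSO : (S : Subgroup X) ⊓ pPrimeCore p X = ⊥ :=
    PLocal.PConstrained.inf_eq_bot_of_isPGroup_of_coprime S.2 hOc
  have hRn : (pCore p (X ⧸ pPrimeCore p X)).Normal := Lib.Cores.pCore_normal p
  have hRp : IsPGroup p (pCore p (X ⧸ pPrimeCore p X)) := Lib.Cores.pCore_isPGroup p
  -- elements of `R` lift to `S`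
  have hlift : ∀ r ∈ pCore p (X ⧸ pPrimeCore p X), ∃ s ∈ (S : Subgroup X),
      QuotientGroup.mk' (pPrimeCore p X) s = r := by
    intro r hr
    have h1 : pCore p (X ⧸ pPrimeCore p X) ≤
        ((S.mapSurjective hπ : Sylow p (X ⧸ pPrimeCore p X)) : Subgroup (X ⧸ pPrimeCore p X)) :=
      Lib.Cores.pCore_le_sylow _
    rw [Sylow.coe_mapSurjective] at h1
    obtain ⟨s, hs, rfl⟩ := h1 hr
    exact ⟨s, hs, rfl⟩
  have hbot : Q.map (QuotientGroup.mk' (pPrimeCore p X)) = ⊥ := by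
    refine eq_bot p _ hRn hRp hcharP (A.map (QuotientGroup.mk' (pPrimeCore p X))) _
      ((S.2.to_le hAS).map _) ?_ ?_ ?_ ?_
    · refine Nat.Coprime.coprime_dvd_left (Subgroup.card_map_dvd Q _) ?_
      exact ((Nat.Prime.coprime_iff_not_dvd hpp).mpr hQ).symm
    · rw [Subgroup.le_normalizer_iff]
      rintro _ ⟨a, ha, rfl⟩ _ ⟨q, hq, rfl⟩
      refine ⟨a * q * a⁻¹, Subgroup.le_normalizer_iff.mp hAQ a ha q hq, ?_⟩
      simp only [map_mul, map_inv]
    · rintro r hr _ ⟨a, ha, rfl⟩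
      obtain ⟨s, hs, rfl⟩ := hlift r hr
      refine ⟨s * a * s⁻¹ * a⁻¹, ?_, by simp only [map_mul, map_inv]⟩
      apply hfull
      · exact hcl (Subgroup.commutator_mem_commutator hs ha)
      · exact mul_mem (mul_mem (mul_mem hs (hAS ha)) (inv_mem hs)) (inv_mem (hAS ha))
    · rintro z ⟨hzR, hzA⟩
      obtain ⟨s, hs, rfl⟩ := hlift z hzR
      refine ⟨s, hfull s ?_ hs, rfl⟩
      rw [Subgroup.mem_centralizer_iff]
      intro a ha
      have h1 : a * s * a⁻¹ * s⁻¹ ∈ (S : Subgroup X) ⊓ pPrimeCore p X := by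
        refine ⟨(S : Subgroup X).mul_mem ((S : Subgroup X).mul_mem ((S : Subgroup X).mul_mem (hAS ha) hs)
          ((S : Subgroup X).inv_mem (hAS ha))) ((S : Subgroup X).inv_mem hs), ?_⟩
        have h2 := Subgroup.mem_centralizer_iff.mp hzA (QuotientGroup.mk' (pPrimeCore p X) a) ⟨a, ha, rfl⟩
        have h3 : QuotientGroup.mk' (pPrimeCore p X) (a * s * a⁻¹ * s⁻¹) = 1 := by
          simp only [map_mul, map_inv]
          rw [h2]
          group
        exact (QuotientGroup.eq_one_iff _).mp h3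
      rw [hSO, Subgroup.mem_bot] at h1
      exact mul_inv_eq_iff_eq_mul.mp (mul_inv_eq_one.mp h1)
  intro q hq
  have h1 : QuotientGroup.mk' (pPrimeCore p X) q ∈ Q.map (QuotientGroup.mk' (pPrimeCore p X)) := ⟨q, hq, rfl⟩
  rw [hbot, Subgroup.mem_bot] at h1
  exact (QuotientGroup.eq_one_iff q).mp h1

end Cfsg.Agent.OddOrderLocal.ConstrainedSignalizer
end

-- part: OddOrderLocal/HyperplaneSection
section
/-!
# Coprime action: a hyperplane with fixed points outside a normal subgroup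

An elementary abelian `p`-subgroup `B` acting on a `q`-group `R` (`q ≠ p`) with an invariant proper normal
subgroup `D`: some `B₁ ≤ B` of index at most `p` centralizes an element of `R` outside `D`.
-/

set_option autoImplicit false
open Cfsg

namespace Cfsg.Agent.OddOrderLocal.HyperplaneSection

open Subgroup

theorem exists_fixed_not_mem {G : Type*} [Group G] [Finite G] {p q : ℕ} (hp : p.Prime) (hq : q.Prime)
    (hpq : p ≠ q) (B R D : Subgroup G) (hB : Cfsg.IsElementaryAbelian p B) (hR : IsPGroup q R)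
    (hDR : D ≤ R) (hne : D ≠ R) (hRD : R ≤ normalizer (D : Set G))
    (hBR : B ≤ normalizer (R : Set G)) (hBD : B ≤ normalizer (D : Set G)) :
    ∃ B₁ : Subgroup G, B₁ ≤ B ∧ B₁.relIndex B ≤ p ∧ ∃ r ∈ R, r ∉ D ∧ ∀ b ∈ B₁, b * r = r * b := by
  have := Fact.mk hp
  have := Fact.mk hq
  obtain ⟨N, hN⟩ : ∃ N : Subgroup G, N = normalizer (D : Set G) := ⟨_, rfl⟩
  rw [← hN] at hRD hBD
  have hDN : D ≤ N := hDR.trans hRD
  have hD'n : (D.subgroupOf N).Normal := by
    rw [Subgroup.normal_subgroupOf_iff_le_normalizer hDN, hN]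
  obtain ⟨π, hπ⟩ : ∃ π : N →* N ⧸ D.subgroupOf N, π = QuotientGroup.mk' (D.subgroupOf N) := ⟨_, rfl⟩
  have hπk : ∀ x : N, π x = 1 ↔ (x : G) ∈ D := by
    intro x
    rw [hπ]
    exact QuotientGroup.eq_one_iff x
  obtain ⟨hBc, hBp⟩ := hB
  have hBcomm : ∀ a ∈ B, ∀ b ∈ B, a * b = b * a := by
    intro a ha b hb
    have := hBc.is_comm.comm ⟨a, ha⟩ ⟨b, hb⟩
    exact congrArg Subtype.val this
  obtain ⟨B1', hB1B, hB1i, hB1f⟩ := HyperplaneFixed.exists_relIndex_le hp hq hpq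
    ((B.subgroupOf N).map π) ((R.subgroupOf N).map π) (by
      refine ⟨⟨⟨?_⟩⟩, ?_⟩
      · rintro ⟨_, a, ha, rfl⟩ ⟨_, b, hb, rfl⟩
        apply Subtype.ext
        show π a * π b = π b * π a
        rw [← map_mul, ← map_mul]
        congr 1
        exact Subtype.ext (hBcomm a ha b hb)
      · rintro _ ⟨a, ha, rfl⟩
        rw [← map_pow]
        have : a ^ p = 1 := Subtype.ext (hBp a ha)
        rw [this, map_one])
    ((hR.comap_subtype (K := N)).map π)
    (by
      intro hbot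
      apply hne
      apply le_antisymm hDR
      intro r hr
      have h1 : π ⟨r, hRD hr⟩ ∈ (R.subgroupOf N).map π := ⟨_, hr, rfl⟩
      rw [hbot, Subgroup.mem_bot, hπk] at h1
      exact h1)
    (by
      rw [Subgroup.le_normalizer_iff]
      rintro _ ⟨a, ha, rfl⟩ _ ⟨r, hr, rfl⟩
      refine ⟨a * r * a⁻¹, ?_, by simp only [map_mul, map_inv]⟩
      exact Subgroup.le_normalizer_iff.mp hBR a ha r hr)
  -- lift `B₁`
  refine ⟨((B1'.comap π) ⊓ B.subgroupOf N).map N.subtype, ?_, ?_, ?_⟩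
  · rintro _ ⟨a, ha, rfl⟩
    exact ha.2
  · have h1 : B = (B.subgroupOf N).map N.subtype := (Subgroup.map_subgroupOf_eq_of_le hBD).symm
    have h2 : (((B1'.comap π) ⊓ B.subgroupOf N).map N.subtype).relIndex B =
        (((B1'.comap π) ⊓ B.subgroupOf N).map N.subtype).relIndex ((B.subgroupOf N).map N.subtype) := by
      rw [← h1]
    rw [h2, Subgroup.relIndex_map_map_of_injective _ _ N.subtype_injective, Subgroup.inf_relIndex_right,
      Subgroup.relIndex_comap]
    exact hB1i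
  · obtain ⟨z, hz⟩ := Subgroup.ne_bot_iff_exists_ne_one.mp hB1f
    obtain ⟨⟨y, hyR, hyz⟩, hzc⟩ := z.2
    have hyD : (y : G) ∉ D := by
      intro h
      apply hz
      apply Subtype.ext
      show z.1 = 1
      rw [← hyz]
      exact (hπk y).mpr h
    have hDp : ¬ p ∣ Nat.card D := by
      obtain ⟨n, hn⟩ := IsPGroup.iff_card.mp (hR.to_le hDR)
      rw [hn]
      intro h
      exact hpq ((Nat.prime_dvd_prime_iff_eq hp hq).mp (hp.dvd_of_dvd_pow h))
    have hBpg : IsPGroup p B := by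
      intro b
      exact ⟨1, by rw [pow_one]; exact Subtype.ext (hBp b b.2)⟩
    obtain ⟨w, hw, hwf⟩ := SignalizersComponents.CoprimeFix.exists_fixed_in_coset
      (((B1'.comap π) ⊓ B.subgroupOf N).map N.subtype)
      (hBpg.to_le (by rintro _ ⟨a, ha, rfl⟩; exact ha.2)) D hDp
      (by
        rintro _ ⟨a, ha, rfl⟩ d hd
        have : (a : G) ∈ normalizer (D : Set G) := hN ▸ a.2
        exact (Subgroup.mem_normalizer_iff.mp this d).mp hd)
      (y : G)
      (by
        rintro _ ⟨a, ha, rfl⟩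
        show (y : G)⁻¹ * ((a : G) * y * (a : G)⁻¹) ∈ D
        have h1 : π (y⁻¹ * (a * y * a⁻¹)) = 1 := by
          have h2 := Subgroup.mem_centralizer_iff.mp hzc (π a) ha.1
          rw [← hyz] at h2
          simp only [map_mul, map_inv]
          rw [h2]
          group
        exact (hπk _).mp h1)
    refine ⟨w, ?_, ?_, ?_⟩
    · have h3 : w = y * ((y : G)⁻¹ * w) := by group
      rw [h3]
      exact R.mul_mem hyR (hDR hw)
    · intro h
      apply hyD
      have h3 : (y : G) = w * ((y : G)⁻¹ * w)⁻¹ := by group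
      rw [h3]
      exact D.mul_mem h (D.inv_mem hw)
    · intro b hb
      exact mul_inv_eq_iff_eq_mul.mp (hwf b hb)

end Cfsg.Agent.OddOrderLocal.HyperplaneSection
end

-- part: OddOrderLocal/TransitivityConstrained
section
/-!
# The transitivity theorem for groups with `p`-constrained `p`-local subgroups
-/

set_option autoImplicit false
open Cfsg

namespace Cfsg.Agent.OddOrderLocal.TransitivityConstrained

open Subgroup Cfsg.Agent.OddOrderLocal.PiCoreOf Cfsg.Agent.OddOrderLocal.Transitivity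

/-- If the Sylow `p`-subgroups have class at most two then `[[S, S], S] = 1` for every `p`-subgroup. -/
theorem commutator_eq_bot_of_class_two {G : Type*} [Group G] (p : ℕ)
    (h2 : ∀ S : Sylow p G, Group.IsNilpotent (S : Subgroup G) ∧ Group.nilpotencyClass (S : Subgroup G) ≤ 2)
    (S : Subgroup G) (hS : IsPGroup p S) : ⁅⁅S, S⁆, S⁆ = ⊥ := by
  obtain ⟨P, hP⟩ := hS.exists_le_sylow
  obtain ⟨hnil, hcl⟩ := h2 P
  have h := Subgroup.lowerCentralSeries_eq_bot_of_nilpotencyClass_le (S := (P : Subgroup G)) hcl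
  rw [Subgroup.lowerCentralSeries_succ, Subgroup.lowerCentralSeries_succ, Subgroup.lowerCentralSeries_zero] at h
  rw [eq_bot_iff, ← h]
  exact Subgroup.commutator_mono (Subgroup.commutator_mono hP hP) hP

/-- Under the hypotheses of the transitivity theorem: for `1 ≠ x ∈ E`, every `E`-invariant `p'`-subgroup of `C_G(x)`
lies in `O_{p'}(N_G(⟨x⟩))`. -/
theorem le_core {G : Type*} [Group G] [Finite G] (p : ℕ) [Fact p.Prime]
    (hloc : ∀ T : Subgroup G, IsPGroup p T → T ≠ ⊥ → Cfsg.IsPConstrained p ↥(Subgroup.normalizer (T : Set G)))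
    (h2 : p = 2 → ∀ S : Sylow p G, Group.IsNilpotent (S : Subgroup G) ∧ Group.nilpotencyClass (S : Subgroup G) ≤ 2)
    (E : Subgroup G) (hEp : IsPGroup p E) (hEc : IsMulCommutative E)
    (hEfull : ∀ x ∈ Subgroup.centralizer (E : Set G), IsPGroup p (Subgroup.zpowers x) → x ∈ E)
    (x : G) (hx : x ∈ E) (hx1 : x ≠ 1) (Q : Subgroup G) (hQ : ¬ p ∣ Nat.card Q)
    (hEQ : E ≤ normalizer (Q : Set G)) (hQx : ∀ y ∈ Q, y * x = x * y) :
    Q ≤ (pPrimeCore p ↥(normalizer (zpowers x : Set G))).map (normalizer (zpowers x : Set G)).subtype := by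
  obtain ⟨N, hN⟩ : ∃ N : Subgroup G, N = normalizer ((zpowers x : Subgroup G) : Set G) := ⟨_, rfl⟩
  have hEcomm : ∀ a ∈ E, ∀ b ∈ E, a * b = b * a := by
    intro a ha b hb
    have := hEc.is_comm.comm ⟨a, ha⟩ ⟨b, hb⟩
    exact congrArg Subtype.val this
  have hcN : ∀ y : G, y * x = x * y → y ∈ N := by
    intro y hy
    rw [hN]
    apply Subgroup.centralizer_le_normalizer
    rw [Subgroup.mem_centralizer_iff]
    rintro _ ⟨k, rfl⟩
    have h1 : Commute x y := hy.symm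
    exact (h1.zpow_left k).eq
  have hEN : E ≤ N := fun a ha => hcN a (hEcomm a ha x hx)
  have hQN : Q ≤ N := fun a ha => hcN a (hQx a ha)
  have hT : IsPGroup p (zpowers x) := hEp.to_le (by rwa [zpowers_le])
  have hT1 : zpowers x ≠ ⊥ := by rwa [Ne, zpowers_eq_bot]
  have hcon : IsPConstrained p ↥N := by rw [hN]; exact hloc _ hT hT1
  rw [← hN]
  have hcardQ : ¬ p ∣ Nat.card (Q.subgroupOf N) := by
    rw [Nat.card_congr (Subgroup.subgroupOfEquivOfLe hQN).toEquiv]
    exact hQ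
  have hnorm : E.subgroupOf N ≤ normalizer (Q.subgroupOf N : Set N) := by
    rw [Subgroup.le_normalizer_iff]
    intro a ha q hq
    exact Subgroup.le_normalizer_iff.mp hEQ a ha q hq
  have hcentr : ∀ y : N, y ∈ centralizer (E.subgroupOf N : Set N) → (y : G) ∈ centralizer (E : Set G) := by
    intro y hy
    rw [Subgroup.mem_centralizer_iff] at hy ⊢
    intro a ha
    exact congrArg Subtype.val (hy ⟨a, hEN ha⟩ ha)
  have key : Q.subgroupOf N ≤ pPrimeCore p N := by
    by_cases hp : p = 2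
    · have hEp' : IsPGroup p (E.subgroupOf N) := hEp.comap_subtype
      obtain ⟨S, hS⟩ := hEp'.exists_le_sylow
      refine ConstrainedSignalizer.le_pPrimeCore p hcon (E.subgroupOf N) S hS ?_ ?_ _ hcardQ hnorm
      · have hSp : IsPGroup p ((S : Subgroup N).map N.subtype) := S.2.map _
        have h3 := commutator_eq_bot_of_class_two p (h2 hp) _ hSp
        rw [← Subgroup.commutator_eq_bot_iff_le_centralizer]
        have h4 : (⁅⁅(S : Subgroup N), E.subgroupOf N⁆, E.subgroupOf N⁆).map N.subtype = ⊥ := by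
          rw [eq_bot_iff, ← h3, Subgroup.map_commutator, Subgroup.map_commutator]
          exact Subgroup.commutator_mono (Subgroup.commutator_mono le_rfl (Subgroup.map_mono hS))
            (Subgroup.map_mono hS)
        rwa [Subgroup.map_eq_bot_iff_of_injective _ N.subtype_injective] at h4
      · intro y hy hyS
        apply hEfull y (hcentr y hy)
        have h5 : IsPGroup p (zpowers y) := S.2.to_le (by rwa [zpowers_le])
        have h6 : (zpowers y).map N.subtype = zpowers (y : G) := by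
          rw [MonoidHom.map_zpowers]; rfl
        rw [← h6]
        exact h5.map _
    · refine Cfsg.Agent.S1302.result p hp hcon (E.subgroupOf N) ?_ hEp.comap_subtype ?_ _ hcardQ hnorm
      · refine ⟨⟨?_⟩⟩
        rintro ⟨a, ha⟩ ⟨b, hb⟩
        apply Subtype.ext
        apply Subtype.ext
        exact hEcomm a ha b hb
      · intro y hy hyo
        apply hEfull y (hcentr y hy)
        rw [IsPGroup.iff_card]
        refine ⟨1, ?_⟩
        rw [Nat.card_zpowers, Subgroup.orderOf_coe, hyo, pow_one]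
  have h7 := Subgroup.map_mono (f := N.subtype) key
  rwa [Subgroup.map_subgroupOf_eq_of_le hQN] at h7

theorem le_normalizer_inf {G : Type*} [Group G] {E A B : Subgroup G} (hA : E ≤ normalizer (A : Set G))
    (hB : E ≤ normalizer (B : Set G)) : E ≤ normalizer ((A ⊓ B : Subgroup G) : Set G) := by
  rw [Subgroup.le_normalizer_iff] at hA hB ⊢
  intro e he x hx
  exact ⟨hA e he x hx.1, hB e he x hx.2⟩

theorem le_normalizer_sup {G : Type*} [Group G] {E A B : Subgroup G} (hA : E ≤ normalizer (A : Set G))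
    (hB : E ≤ normalizer (B : Set G)) : E ≤ normalizer ((A ⊔ B : Subgroup G) : Set G) := by
  intro e he
  rw [mem_normalizer_iff_conj, Subgroup.map_sup, mem_normalizer_iff_conj.mp (hA he),
    mem_normalizer_iff_conj.mp (hB he)]

theorem card_lt_of_mem {G : Type*} [Group G] [Finite G] {D F : Subgroup G} (h : D ≤ F) {r : G}
    (hr : r ∈ F) (hrD : r ∉ D) : Nat.card D < Nat.card F := by
  refine lt_of_le_of_ne (Subgroup.card_le_of_le h) ?_
  intro hc
  have h1 := Subgroup.eq_of_le_of_card_ge h hc.ge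
  rw [h1] at hrD
  exact hrD hr

/-- Abstract form of the transitivity argument. -/
theorem transitive_aux {G : Type*} [Group G] [Finite G] (p q : ℕ) [Fact p.Prime] [Fact q.Prime]
    (hqp : q ≠ p) (E E₀ : Subgroup G) (hEp : IsPGroup p E) (hEcomm : ∀ a ∈ E, ∀ b ∈ E, a * b = b * a)
    (hE₀E : E₀ ≤ E) (hE₀ : IsElementaryAbelian p E₀) (hcard : p ^ 2 < Nat.card E₀)
    (hcore : ∀ x ∈ E, x ≠ 1 → ∃ L : Subgroup G, ¬ p ∣ Nat.card L ∧
      centralizer ({x} : Set G) ≤ normalizer (L : Set G) ∧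
      ∀ Q : Subgroup G, IsPGroup q Q → E ≤ normalizer (Q : Set G) → (∀ y ∈ Q, y * x = x * y) → Q ≤ L)
    (K : Subgroup G)
    (hK : ∀ L : Subgroup G, ¬ p ∣ Nat.card L → centralizer (E : Set G) ≤ normalizer (L : Set G) →
      L ⊓ centralizer (E : Set G) ≤ K) (n : ℕ) :
    ∀ Q₁ ∈ maxInvSubgroups ⊤ E {q}, ∀ Q₂ ∈ maxInvSubgroups ⊤ E {q},
      Nat.card G ≤ Nat.card ↥(Q₁ ⊓ Q₂) + n → ∃ k ∈ K, Q₂ = Q₁.map (MulAut.conj k).toMonoidHom := by
  have hp : p.Prime := Fact.out
  have hq : q.Prime := Fact.out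
  induction n with
  | zero =>
    intro Q₁ h₁ Q₂ h₂ hc
    have h3 : Q₁ ⊓ Q₂ = ⊤ := Subgroup.eq_top_of_le_card _ (by simpa using hc)
    have h4 : Q₁ = ⊤ := top_le_iff.mp (h3 ▸ inf_le_left)
    have h5 : Q₂ = ⊤ := top_le_iff.mp (h3 ▸ inf_le_right)
    refine ⟨1, K.one_mem, ?_⟩
    rw [h4, h5, map_one]
    ext x
    simp
  | succ n ih =>
    intro Q₁ h₁ Q₂ h₂ hc
    by_cases hne : Q₁ = Q₂
    · refine ⟨1, K.one_mem, ?_⟩
      rw [hne, map_one]
      ext x
      simp
    obtain ⟨D, hD⟩ : ∃ D : Subgroup G, D = Q₁ ⊓ Q₂ := ⟨_, rfl⟩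
    rw [← hD] at hc
    obtain ⟨N, hN⟩ : ∃ N : Subgroup G, N = normalizer (D : Set G) := ⟨_, rfl⟩
    have hED : E ≤ normalizer (D : Set G) := by
      rw [hD]
      exact le_normalizer_inf h₁.1.2.2 h₂.1.2.2
    have hEN : E ≤ N := hN ▸ hED
    -- the common step for `Q₁` and `Q₂`
    have step : ∀ Q ∈ maxInvSubgroups ⊤ E {q}, D ≤ Q → D ≠ Q →
        ∃ B : Subgroup G, B ≤ E₀ ∧ B.relIndex E₀ ≤ p ∧ ∃ r ∈ N ⊓ Q, r ∉ D ∧ ∀ b ∈ B, b * r = r * b := by
      intro Q hQ hDQ hDne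
      have hQq : IsPGroup q Q := (isPi_singleton_iff hq Q).mp hQ.1.2.1
      refine HyperplaneSection.exists_fixed_not_mem hp hq hqp.symm E₀ (N ⊓ Q) D hE₀ (hQq.to_le inf_le_right)
        (le_inf (hN ▸ Subgroup.le_normalizer) hDQ) ?_ (hN ▸ inf_le_left) ?_ (hE₀E.trans hED)
      · intro heq
        apply hDne
        refine (Blocks.SylowIn.eq_of_normalizer_inf_le hQq hDQ ?_).symm
        rw [← hN, ← heq]
      · exact hE₀E.trans (le_normalizer_inf (hEN.trans Subgroup.le_normalizer) hQ.1.2.2)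
    have hD1 : D ≠ Q₁ := by
      intro h
      apply hne
      have : Q₁ ≤ Q₂ := by rw [← h, hD]; exact inf_le_right
      exact (h₁.2 Q₂ h₂.1 this).symm
    have hD2 : D ≠ Q₂ := by
      intro h
      apply hne
      have : Q₂ ≤ Q₁ := by rw [← h, hD]; exact inf_le_left
      exact (h₂.2 Q₁ h₁.1 this)
    obtain ⟨B₁, hB₁E, hB₁i, r₁, hr₁, hr₁D, hr₁B⟩ := step Q₁ h₁ (hD ▸ inf_le_left) hD1
    obtain ⟨B₂, hB₂E, hB₂i, r₂, hr₂, hr₂D, hr₂B⟩ := step Q₂ h₂ (hD ▸ inf_le_right) hD2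
    have hBne : B₁ ⊓ B₂ ≠ ⊥ := by
      intro hbot
      have h3 : (B₁ ⊓ B₂).relIndex E₀ ≤ B₁.relIndex E₀ * B₂.relIndex E₀ := Subgroup.relIndex_inf_le
      rw [hbot, Subgroup.relIndex_bot_left] at h3
      have h4 : B₁.relIndex E₀ * B₂.relIndex E₀ ≤ p * p := Nat.mul_le_mul hB₁i hB₂i
      rw [pow_two] at hcard
      omega
    obtain ⟨⟨x, hxB⟩, hx⟩ := Subgroup.ne_bot_iff_exists_ne_one.mp hBne
    have hx1 : x ≠ 1 := fun h => hx (Subtype.ext h)
    have hxE : x ∈ E := hE₀E (hB₁E hxB.1)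
    obtain ⟨L, hLp, hLn, hLQ⟩ := hcore x hxE hx1
    have hEx : E ≤ centralizer ({x} : Set G) := by
      intro a ha
      rw [Subgroup.mem_centralizer_singleton_iff]
      exact hEcomm a ha x hxE
    have hEL : E ≤ normalizer (L : Set G) := hEx.trans hLn
    have hEL₀ : E ≤ normalizer ((L ⊓ N : Subgroup G) : Set G) :=
      le_normalizer_inf hEL (hEN.trans Subgroup.le_normalizer)
    have hL₀p : ¬ p ∣ Nat.card ↥(L ⊓ N) := fun h => hLp (h.trans (Subgroup.card_dvd_of_le inf_le_left))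
    have hEL₀' := Subgroup.le_normalizer_iff.mp hEL₀
    -- the invariant subgroups `C_{N_Q(D)}(x)`
    have hC : ∀ Q ∈ maxInvSubgroups ⊤ E {q},
        IsPGroup q ↥(centralizer ({x} : Set G) ⊓ (N ⊓ Q)) ∧
        E ≤ normalizer ((centralizer ({x} : Set G) ⊓ (N ⊓ Q) : Subgroup G) : Set G) ∧
        centralizer ({x} : Set G) ⊓ (N ⊓ Q) ≤ L ⊓ N := by
      intro Q hQ
      have hQq : IsPGroup q Q := (isPi_singleton_iff hq Q).mp hQ.1.2.1
      have hCq : IsPGroup q ↥(centralizer ({x} : Set G) ⊓ (N ⊓ Q)) :=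
        hQq.to_le (inf_le_right.trans inf_le_right)
      have hCE : E ≤ normalizer ((centralizer ({x} : Set G) ⊓ (N ⊓ Q) : Subgroup G) : Set G) :=
        le_normalizer_inf (hEx.trans Subgroup.le_normalizer)
          (le_normalizer_inf (hEN.trans Subgroup.le_normalizer) hQ.1.2.2)
      refine ⟨hCq, hCE, le_inf (hLQ _ hCq hCE ?_) (inf_le_right.trans inf_le_left)⟩
      intro y hy
      exact Subgroup.mem_centralizer_singleton_iff.mp hy.1
    obtain ⟨hC₁q, hC₁E, hC₁L⟩ := hC Q₁ h₁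
    obtain ⟨hC₂q, hC₂E, hC₂L⟩ := hC Q₂ h₂
    obtain ⟨S₁, hS₁, hS₁E, hCS₁⟩ := Lib.PGroupCoprimeAction.exists_invariant_sylow_ge hEp hL₀p hEL₀'
      hC₁L hC₁q (Subgroup.le_normalizer_iff.mp hC₁E)
    obtain ⟨S₂, hS₂, hS₂E, hCS₂⟩ := Lib.PGroupCoprimeAction.exists_invariant_sylow_ge hEp hL₀p hEL₀'
      hC₂L hC₂q (Subgroup.le_normalizer_iff.mp hC₂E)
    obtain ⟨c, hc', hcS⟩ := Lib.PGroupCoprimeAction.exists_centralizer_conj hEp hL₀p hEL₀' hS₁ hS₂
      hS₁E hS₂E
    have hcK : c ∈ K := by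
      refine hK L hLp ?_ ⟨hc'.1.1, hc'.2⟩
      refine le_trans ?_ hLn
      intro y hy
      rw [Subgroup.mem_centralizer_singleton_iff]
      exact (Subgroup.mem_centralizer_iff.mp hy x hxE).symm
    have hcD : c ∈ normalizer (D : Set G) := hN ▸ hc'.1.2
    obtain ⟨hS₂L, hS₂q, -⟩ := Blocks.SylowIn.exists_sylow_map_eq_iff.mp hS₂
    have hS₂D : S₂ ≤ normalizer (D : Set G) := hN ▸ (hS₂L.trans inf_le_right)
    have hDq : IsPGroup q D := by
      have : IsPGroup q Q₁ := (isPi_singleton_iff hq Q₁).mp h₁.1.2.1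
      exact this.to_le (hD ▸ inf_le_left)
    have hYq : IsPGroup q ↥(S₂ ⊔ D) := IsPGroup.to_sup_of_normal_right' hS₂q hDq hS₂D
    obtain ⟨Q₃, h₃, hYQ₃⟩ := exists_maxInv_ge (H := ⊤) (A := E) (π := {q}) (Y := S₂ ⊔ D)
      ⟨le_top, (isPi_singleton_iff hq _).mpr hYq,
        le_normalizer_sup (Subgroup.le_normalizer_iff.mpr hS₂E) hED⟩
    have hS₂Q₃ : S₂ ≤ Q₃ := le_sup_left.trans hYQ₃
    have hDQ₃ : D ≤ Q₃ := le_sup_right.trans hYQ₃
    have hcE : c ∈ normalizer (E : Set G) := Subgroup.centralizer_le_normalizer _ hc'.2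
    have h₁c := conj_mem_maxInv_top h₁ hcE
    have hr₁C : r₁ ∈ centralizer ({x} : Set G) ⊓ (N ⊓ Q₁) := by
      refine ⟨Subgroup.mem_centralizer_singleton_iff.mpr ?_, hr₁⟩
      exact (hr₁B x hxB.1).symm
    have hr₂C : r₂ ∈ centralizer ({x} : Set G) ⊓ (N ⊓ Q₂) := by
      refine ⟨Subgroup.mem_centralizer_singleton_iff.mpr ?_, hr₂⟩
      exact (hr₂B x hxB.2).symm
    -- first intersection
    have hlt1 : Nat.card D < Nat.card ↥(Q₁.map (MulAut.conj c).toMonoidHom ⊓ Q₃) := by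
      refine card_lt_of_mem (r := c * r₁ * c⁻¹) (le_inf ?_ hDQ₃) ⟨⟨r₁, hr₁.2, rfl⟩, ?_⟩ ?_
      · rw [← mem_normalizer_iff_conj.mp hcD]
        exact Subgroup.map_mono (hD ▸ inf_le_left)
      · apply hS₂Q₃
        rw [← hcS]
        exact ⟨r₁, hCS₁ hr₁C, rfl⟩
      · intro h
        exact hr₁D ((Subgroup.mem_normalizer_iff.mp hcD r₁).mpr h)
    have hlt2 : Nat.card D < Nat.card ↥(Q₃ ⊓ Q₂) :=
      card_lt_of_mem (r := r₂) (le_inf hDQ₃ (hD ▸ inf_le_right)) ⟨hS₂Q₃ (hCS₂ hr₂C), hr₂.2⟩ hr₂D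
    obtain ⟨k₁, hk₁, hk₁'⟩ := ih _ h₁c Q₃ h₃ (by omega)
    obtain ⟨k₂, hk₂, hk₂'⟩ := ih Q₃ h₃ Q₂ h₂ (by omega)
    refine ⟨k₂ * k₁ * c, K.mul_mem (K.mul_mem hk₂ hk₁) hcK, ?_⟩
    rw [hk₂', hk₁', Subgroup.map_map, Subgroup.map_map]
    congr 1
    ext y
    simp [mul_assoc]

/-- **Transitivity theorem** for groups with `p`-constrained `p`-local subgroups. -/
theorem transitive {G : Type*} [Group G] [Finite G] (p : ℕ) [Fact p.Prime]
    (hloc : ∀ T : Subgroup G, IsPGroup p T → T ≠ ⊥ → Cfsg.IsPConstrained p ↥(Subgroup.normalizer (T : Set G)))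
    (h2 : p = 2 → ∀ S : Sylow p G, Group.IsNilpotent (S : Subgroup G) ∧ Group.nilpotencyClass (S : Subgroup G) ≤ 2)
    (E : Subgroup G) (hEp : IsPGroup p E) (hEc : IsMulCommutative E) (hE3 : ¬ Cfsg.PRankLE p 2 E)
    (hEfull : ∀ x ∈ Subgroup.centralizer (E : Set G), IsPGroup p (Subgroup.zpowers x) → x ∈ E)
    (q : ℕ) [Fact q.Prime] (hqp : q ≠ p) :
    ∀ Q₁ ∈ Cfsg.maxInvSubgroups ⊤ E {q}, ∀ Q₂ ∈ Cfsg.maxInvSubgroups ⊤ E {q},
        ∃ k ∈ Cfsg.piCoreOf (Cfsg.primesNotDvd p) (Subgroup.centralizer (E : Set G)),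
          Q₂ = Q₁.map (MulAut.conj k).toMonoidHom := by
  have hp : p.Prime := Fact.out
  have hq : q.Prime := Fact.out
  have hEcomm : ∀ a ∈ E, ∀ b ∈ E, a * b = b * a := by
    intro a ha b hb
    have := hEc.is_comm.comm ⟨a, ha⟩ ⟨b, hb⟩
    exact congrArg Subtype.val this
  unfold PRankLE at hE3
  push Not at hE3
  obtain ⟨A, hAc, hAp, hAcard⟩ := hE3
  have hE₀E : A.map E.subtype ≤ E := Subgroup.map_subtype_le A
  intro Q₁ h₁ Q₂ h₂
  refine transitive_aux p q hqp E (A.map E.subtype) hEp hEcomm hE₀E ?_ ?_ ?_ _ ?_ (Nat.card G)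
    Q₁ h₁ Q₂ h₂ (Nat.le_add_left _ _)
  · refine ⟨⟨⟨?_⟩⟩, ?_⟩
    · intro a b
      exact Subtype.ext (hEcomm a (hE₀E a.2) b (hE₀E b.2))
    · rintro _ ⟨a, ha, rfl⟩
      rw [← map_pow, hAp a ha, map_one]
  · rwa [Subgroup.card_map_of_injective E.subtype_injective]
  · intro x hx hx1
    obtain ⟨N, hN⟩ : ∃ N : Subgroup G, N = normalizer ((zpowers x : Subgroup G) : Set G) := ⟨_, rfl⟩
    have hNn : (pPrimeCore p N).Normal := Lib.Cores.pPrimeCore_normal p
    refine ⟨(pPrimeCore p N).map N.subtype, ?_, ?_, ?_⟩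
    · rw [Subgroup.card_map_of_injective N.subtype_injective]
      exact (Nat.Prime.coprime_iff_not_dvd hp).mp (Lib.Cores.pPrimeCore_coprime p).symm
    · have h1 : centralizer ({x} : Set G) ≤ N := by
        intro y hy
        rw [hN]
        apply Subgroup.centralizer_le_normalizer
        rw [Subgroup.mem_centralizer_iff]
        rintro _ ⟨k, rfl⟩
        have h1 : Commute x y := (Subgroup.mem_centralizer_singleton_iff.mp hy).symm
        exact (h1.zpow_left k).eq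
      refine h1.trans ?_
      rw [Subgroup.le_normalizer_iff]
      rintro a ha _ ⟨b, hb, rfl⟩
      exact ⟨⟨a, ha⟩ * b * ⟨a, ha⟩⁻¹, hNn.conj_mem b hb _, rfl⟩
    · intro Q hQ hEQ hQx
      rw [hN]
      refine le_core p hloc h2 E hEp hEc hEfull x hx hx1 Q ?_ hEQ hQx
      obtain ⟨n, hn⟩ := IsPGroup.iff_card.mp hQ
      rw [hn]
      intro h
      exact hqp ((Nat.prime_dvd_prime_iff_eq hp hq).mp (hp.dvd_of_dvd_pow h)).symm
  · intro L hL hLn
    refine le_piCoreOf inf_le_right (le_normalizer_inf hLn Subgroup.le_normalizer) ?_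
    rw [isPi_primesNotDvd_iff]
    refine ((Nat.Prime.coprime_iff_not_dvd hp).mpr ?_).symm
    exact fun h => hL (h.trans (Subgroup.card_dvd_of_le inf_le_left))

end Cfsg.Agent.OddOrderLocal.TransitivityConstrained
end

-- part: S1480
section
set_option autoImplicit false
open Cfsg

namespace Cfsg.Agent.S1480

/-- Let G be a finite group and p a prime such that the normalizer of every nontrivial p-subgroup of G is p-constrained; if p = 2 assume also that the Sylow 2-subgroups of G have nilpotency class at most 2. Let E be an abelian p-subgroup containing an elementary abelian subgroup of order p ^ 3 and containing every element of p-power order of C_G(E). Then for every prime q ≠ p, any two maximal E-invariant q-subgroups of G are conjugate by an element of O_{p'}(C_G(E)). -/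
theorem result {G : Type*} [Group G] [Finite G] (p : ℕ) [Fact p.Prime]
    (hloc : ∀ T : Subgroup G, IsPGroup p T → T ≠ ⊥ → Cfsg.IsPConstrained p ↥(Subgroup.normalizer (T : Set G)))
    (h2 : p = 2 → ∀ S : Sylow p G, Group.IsNilpotent (S : Subgroup G) ∧ Group.nilpotencyClass (S : Subgroup G) ≤ 2)
    (E : Subgroup G) (hEp : IsPGroup p E) (hEc : IsMulCommutative E) (hE3 : ¬ Cfsg.PRankLE p 2 E)
    (hEfull : ∀ x ∈ Subgroup.centralizer (E : Set G), IsPGroup p (Subgroup.zpowers x) → x ∈ E)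
    (q : ℕ) [Fact q.Prime] (hqp : q ≠ p) :
    ∀ Q₁ ∈ Cfsg.maxInvSubgroups ⊤ E {q}, ∀ Q₂ ∈ Cfsg.maxInvSubgroups ⊤ E {q},
        ∃ k ∈ Cfsg.piCoreOf (Cfsg.primesNotDvd p) (Subgroup.centralizer (E : Set G)), Q₂ = Q₁.map (MulAut.conj k).toMonoidHom := by
  exact Cfsg.Agent.OddOrderLocal.TransitivityConstrained.transitive p hloc h2 E hEp hEc hE3 hEfull q hqp

end Cfsg.Agent.S1480
end
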