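import Mathlib
import Cfsg.Prelude.Def_OddOrderLocal
import Cfsg.Agent.Lib.Cores
import Cfsg.Agent.Lib.ThompsonPQ
import Cfsg.Agent.OddOrderLocal.PiCoreOf
import Cfsg.Agent.OddOrderLocal.Transitivity
import Cfsg.Agent.OddOrderLocal.FittingHall
import Cfsg.Agent.SignalizersComponents.CoprimeBasic
import Cfsg.Agent.SignalizersComponents.CoreOfCentralizer
import Cfsg.Agent.S0024
import Cfsg.Agent.S0025
import Cfsg.Agent.S0026
import Cfsg.Agent.S0044
import Cfsg.Statements.S1481
set_option linter.all false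

-- part: OddOrderLocal/BenderInvariant
section
/-!
# Bender's method: invariant `q`-subgroups for a self-centralizing subgroup of `F(H)`, `H` a maximal local subgroup
-/

set_option autoImplicit false
open Cfsg

namespace Cfsg.Agent.OddOrderLocal.BenderInvariant

open Subgroup Cfsg.Agent.OddOrderLocal.PiCoreOf Cfsg.Agent.OddOrderLocal.Transitivity

variable {G : Type*} [Group G]

theorem le_normalizer_inf {E A B : Subgroup G} (hA : E ≤ normalizer (A : Set G))
    (hB : E ≤ normalizer (B : Set G)) : E ≤ normalizer ((A ⊓ B : Subgroup G) : Set G) := by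
  rw [Subgroup.le_normalizer_iff] at hA hB ⊢
  intro e he x hx
  exact ⟨hA e he x hx.1, hB e he x hx.2⟩

/-- `O_p(F)` for a subgroup `F`. -/
def part (F : Subgroup G) (p : ℕ) : Subgroup G := piCoreOf {p} F

theorem part_def (F : Subgroup G) (p : ℕ) : part F p = piCoreOf {p} F := rfl

theorem part_le (F : Subgroup G) (p : ℕ) : part F p ≤ F := piCoreOf_le _ _

theorem normalizer_le_normalizer_part [Finite G] (F : Subgroup G) (p : ℕ) :
    normalizer (F : Set G) ≤ normalizer (part F p : Set G) :=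
  normalizer_le_normalizer_piCoreOf _ _

theorem part_isPGroup [Finite G] (F : Subgroup G) (p : ℕ) [hp : Fact p.Prime] : IsPGroup p (part F p) :=
  (isPi_singleton_iff hp.out _).mp (piCoreOf_isPi _ _)

/-- Different parts commute elementwise. -/
theorem part_le_centralizer [Finite G] (F : Subgroup G) {p r : ℕ} [hp : Fact p.Prime] [hr : Fact r.Prime]
    (hpr : p ≠ r) : part F p ≤ centralizer (part F r : Set G) := by
  have h1 : part F p ⊓ part F r = ⊥ := by
    obtain ⟨m, hm⟩ := IsPGroup.iff_card.mp (part_isPGroup F p)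
    obtain ⟨n, hn⟩ := IsPGroup.iff_card.mp (part_isPGroup F r)
    apply Disjoint.eq_bot
    apply Subgroup.disjoint_of_coprime_natCard
    rw [hm, hn]
    exact Nat.Coprime.pow _ _ ((Nat.coprime_primes hp.out hr.out).mpr hpr)
  intro x hx
  rw [Subgroup.mem_centralizer_iff]
  intro y hy
  have hFp : F ≤ normalizer (part F p : Set G) := Subgroup.le_normalizer.trans (normalizer_le_normalizer_part F p)
  have hFr : F ≤ normalizer (part F r : Set G) := Subgroup.le_normalizer.trans (normalizer_le_normalizer_part F r)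
  rw [Subgroup.le_normalizer_iff] at hFp hFr
  have h2 : y * x * y⁻¹ * x⁻¹ ∈ part F p ⊓ part F r := by
    refine ⟨?_, ?_⟩
    · exact (part F p).mul_mem (hFp y (part_le F r hy) x hx) ((part F p).inv_mem hx)
    · have : y * x * y⁻¹ * x⁻¹ = y * (x * y⁻¹ * x⁻¹) := by group
      rw [this]
      exact (part F r).mul_mem hy (hFr x (part_le F p hx) _ ((part F r).inv_mem hy))
  rw [h1, Subgroup.mem_bot] at h2
  exact mul_inv_eq_iff_eq_mul.mp (mul_inv_eq_one.mp h2)

/-- In a nilpotent `F`, every `p`-subgroup lies in `part F p`. -/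
theorem le_part [Finite G] {F : Subgroup G} (hF : Group.IsNilpotent F) {p : ℕ} [hp : Fact p.Prime]
    {P : Subgroup G} (hPF : P ≤ F) (hP : IsPGroup p P) : P ≤ part F p := by
  have hP' : IsPGroup p (P.subgroupOf F) := hP.comap_subtype
  obtain ⟨S, hS⟩ := hP'.exists_le_sylow
  have hSn : (S : Subgroup F).Normal := by
    have h := (Group.isNilpotent_of_finite_tfae (G := F)).out 0 3
    exact (h.mp hF) p hp S
  have h1 : P ≤ (S : Subgroup F).map F.subtype := by
    have := Subgroup.map_mono (f := F.subtype) hS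
    rwa [Subgroup.map_subgroupOf_eq_of_le hPF] at this
  refine h1.trans (le_piCoreOf (Subgroup.map_subtype_le _) ?_ ?_)
  · rw [Subgroup.le_normalizer_iff]
    rintro a ha _ ⟨b, hb, rfl⟩
    exact ⟨⟨a, ha⟩ * b * ⟨a, ha⟩⁻¹, hSn.conj_mem b hb _, rfl⟩
  · exact (isPi_singleton_iff hp.out _).mpr (S.2.map _)

/-- A subgroup `M` of a nilpotent `F` is generated by its intersections with the parts of `F`. -/
theorem le_of_parts [Finite G] {F : Subgroup G} (hF : Group.IsNilpotent F) {M K : Subgroup G} (hM : M ≤ F)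
    (h : ∀ p : ℕ, p.Prime → M ⊓ part F p ≤ K) : M ≤ K := by
  have h1 : K.subgroupOf M = ⊤ := by
    apply Lib.Cores.eq_top_of_sylow_le
    intro p hp
    obtain ⟨P⟩ : Nonempty (Sylow p M) := inferInstance
    refine ⟨P, ?_⟩
    intro x hx
    rw [Subgroup.mem_subgroupOf]
    apply h p hp.out
    refine ⟨x.2, ?_⟩
    have h2 : (P : Subgroup M).map M.subtype ≤ part F p :=
      le_part hF ((Subgroup.map_subtype_le _).trans hM) (P.2.map _)
    exact h2 ⟨x, hx, rfl⟩
  intro x hx
  have h2 : (⟨x, hx⟩ : M) ∈ K.subgroupOf M := by rw [h1]; trivial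
  exact h2

theorem part_eq_bot [Finite G] (F : Subgroup G) {p : ℕ} [hp : Fact p.Prime] (h : ¬ p ∣ Nat.card F) :
    part F p = ⊥ := by
  obtain ⟨n, hn⟩ := IsPGroup.iff_card.mp (part_isPGroup F p)
  have h1 : Nat.card (part F p) ∣ Nat.card F := Subgroup.card_dvd_of_le (part_le F p)
  rw [hn] at h1
  rcases Nat.eq_zero_or_pos n with rfl | hpos
  · rw [pow_zero] at hn
    exact Subgroup.eq_bot_of_card_eq _ hn
  · exact absurd ((dvd_pow_self p hpos.ne').trans h1) h

theorem part_ne_bot [Finite G] {F : Subgroup G} (hF : Group.IsNilpotent F) {p : ℕ} [hp : Fact p.Prime]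
    (h : p ∣ Nat.card F) : part F p ≠ ⊥ := by
  obtain ⟨x, hx⟩ := exists_prime_orderOf_dvd_card' p h
  intro hbot
  have h1 : zpowers (x : G) ≤ part F p := by
    apply le_part hF (by rw [zpowers_le]; exact x.2)
    rw [IsPGroup.iff_card]
    refine ⟨1, ?_⟩
    rw [Nat.card_zpowers, Subgroup.orderOf_coe, hx, pow_one]
  rw [hbot, le_bot_iff, zpowers_eq_bot] at h1
  have h2 : x = 1 := Subtype.ext h1
  rw [h2, orderOf_one] at hx
  exact hp.out.one_lt.ne hx

/-- `R ∩ C_H(F(H)) ≤ F(H)` if `R` is solvable and normalized by `C_H(F(H))`. -/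
theorem inf_centralizer_le_fitting [Finite G] (H R : Subgroup G) (hR : Group.IsSolvable R)
    (hXR : H ⊓ centralizer (fittingOf H : Set G) ≤ normalizer (R : Set G)) :
    R ⊓ (H ⊓ centralizer (fittingOf H : Set G)) ≤ fittingOf H := by
  obtain ⟨X, hX⟩ : ∃ X : Subgroup G, X = H ⊓ centralizer (fittingOf H : Set G) := ⟨_, rfl⟩
  rw [← hX] at hXR ⊢
  have hHX : H ≤ normalizer (X : Set G) := by
    rw [hX]
    refine le_normalizer_inf Subgroup.le_normalizer ?_
    exact (FittingHall.le_normalizer_fittingOf H).trans (normalizer_centralizer_ge _)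
  have hXS : X ≤ normalizer ((R ⊓ X : Subgroup G) : Set G) := le_normalizer_inf hXR Subgroup.le_normalizer
  have hS : Group.IsSolvable ↥(R ⊓ X) := by
    exact Group.isSolvable_of_isSolvable_injective (f := Subgroup.inclusion (inf_le_left : R ⊓ X ≤ R))
      (Subgroup.inclusion_injective _)
  have h1 : fittingOf (R ⊓ X) ≤ fittingOf X :=
    FittingHall.le_fittingOf ((FittingHall.fittingOf_le _).trans inf_le_right)
      (hXS.trans (FittingHall.normalizer_le_normalizer_fittingOf _)) (FittingHall.fittingOf_isNilpotent _)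
  have h2 : fittingOf X ≤ fittingOf H :=
    FittingHall.le_fittingOf ((FittingHall.fittingOf_le _).trans (hX ▸ inf_le_left))
      (hHX.trans (FittingHall.normalizer_le_normalizer_fittingOf _)) (FittingHall.fittingOf_isNilpotent _)
  have h3 := S0044.centralizer_fitting_le ↥(R ⊓ X) (S0044.fittingSubgroup_normal _)
  refine le_trans ?_ (h1.trans h2)
  intro s hs
  have h4 : (⟨s, hs⟩ : ↥(R ⊓ X)) ∈ centralizer (fittingSubgroup ↥(R ⊓ X) : Set ↥(R ⊓ X)) := by
    rw [Subgroup.mem_centralizer_iff]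
    intro f hf
    apply Subtype.ext
    have h5 : (f : G) ∈ fittingOf H := h2 (h1 ⟨f, hf, rfl⟩)
    have h6 : s ∈ centralizer (fittingOf H : Set G) := by
      have : s ∈ X := hs.2
      rw [hX] at this
      exact this.2
    exact Subgroup.mem_centralizer_iff.mp h6 _ h5
  exact ⟨⟨s, hs⟩, h3 h4, rfl⟩

/-- Standing data: `H` a maximal local subgroup, `F = F(H)`, `M ≤ F` with `C_F(M) ≤ M`. -/
structure Data (H M : Subgroup G) : Prop where
  max : ∀ L : Subgroup G, Cfsg.IsLocalSubgroup L → H ≤ L → L = H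
  hM : M ≤ fittingOf H
  hCM : fittingOf H ⊓ centralizer (M : Set G) ≤ M

variable [Finite G] {H M : Subgroup G}

/-- `C_G(M_p) ≤ H` for `p` dividing the order of `F(H)`. -/
theorem Data.centralizer_le (hD : Data H M) {p : ℕ} [hp : Fact p.Prime] (hpF : p ∣ Nat.card (fittingOf H)) :
    centralizer ((M ⊓ part (fittingOf H) p : Subgroup G) : Set G) ≤ H := by
  obtain ⟨F, hF⟩ : ∃ F : Subgroup G, F = fittingOf H := ⟨_, rfl⟩
  have hFn : Group.IsNilpotent F := hF ▸ FittingHall.fittingOf_isNilpotent H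
  have hHF : H ≤ normalizer (F : Set G) := hF ▸ FittingHall.le_normalizer_fittingOf H
  have hM := hD.hM
  have hCM := hD.hCM
  rw [← hF] at hpF hM hCM ⊢
  obtain ⟨P, hP⟩ : ∃ P : Subgroup G, P = part F p := ⟨_, rfl⟩
  have hPp : IsPGroup p P := hP ▸ part_isPGroup F p
  have hPF : P ≤ F := hP ▸ part_le F p
  have hPne : P ≠ ⊥ := hP ▸ part_ne_bot hFn hpF
  -- `Z = Z(P)`
  obtain ⟨Z, hZ⟩ : ∃ Z : Subgroup G, Z = P ⊓ centralizer (P : Set G) := ⟨_, rfl⟩
  have hZP : Z ≤ P := hZ ▸ inf_le_left
  have hZne : Z ≠ ⊥ := by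
    have : Nontrivial P := (Subgroup.nontrivial_iff_ne_bot P).mpr hPne
    have := hPp.center_nontrivial
    obtain ⟨z, hz⟩ := exists_ne (1 : center P)
    intro hbot
    apply hz
    have h1 : ((z : P) : G) ∈ Z := by
      rw [hZ]
      refine ⟨(z : P).2, ?_⟩
      refine Subgroup.mem_centralizer_iff.mpr fun y hy => ?_
      have h2 := Subgroup.mem_center_iff.mp z.2 ⟨y, hy⟩
      exact congrArg Subtype.val h2
    rw [hbot, Subgroup.mem_bot] at h1
    exact Subtype.ext (Subtype.ext h1)
  have hFZ : F ≤ centralizer (Z : Set G) := by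
    refine le_of_parts hFn le_rfl ?_
    intro r hr
    have := Fact.mk hr
    refine inf_le_right.trans ?_
    by_cases hrp : r = p
    · subst hrp
      intro x hx
      rw [Subgroup.mem_centralizer_iff]
      intro z hz
      have h1 : z ∈ P ⊓ centralizer (P : Set G) := hZ ▸ hz
      exact (Subgroup.mem_centralizer_iff.mp h1.2 x (hP ▸ hx)).symm
    · refine (part_le_centralizer F hrp).trans ?_
      exact Subgroup.centralizer_le (hP ▸ hZP)
  have hZM : Z ≤ M := by
    refine le_trans (le_inf (hZP.trans hPF) ?_) hCM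
    intro z hz
    rw [Subgroup.mem_centralizer_iff]
    intro m hm
    exact (Subgroup.mem_centralizer_iff.mp (hFZ (hM hm)) z hz).symm
  have hHP : H ≤ normalizer (P : Set G) := hP ▸ hHF.trans (normalizer_le_normalizer_part F p)
  have hHZ : H ≤ normalizer (Z : Set G) := by
    rw [hZ]
    exact le_normalizer_inf hHP (hHP.trans (normalizer_centralizer_ge _))
  have h3 : normalizer (Z : Set G) = H :=
    hD.max _ ⟨p, Z, hp.out, hPp.to_le hZP, hZne, rfl⟩ hHZ
  rw [← h3]
  refine le_trans (Subgroup.centralizer_le ?_) (Subgroup.centralizer_le_normalizer _)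
  exact le_inf hZM (hP ▸ hZP)

/-- A subgroup `C ≤ H` of order prime to `p` centralizing `M_p` centralizes `O_p(F(H))`. -/
theorem Data.le_centralizer_part (hD : Data H M) {p : ℕ} [hp : Fact p.Prime] {C : Subgroup G} (hCH : C ≤ H)
    (hC : C ≤ centralizer ((M ⊓ part (fittingOf H) p : Subgroup G) : Set G)) (hCp : (Nat.card C).Coprime p) :
    C ≤ centralizer (part (fittingOf H) p : Set G) := by
  obtain ⟨F, hF⟩ : ∃ F : Subgroup G, F = fittingOf H := ⟨_, rfl⟩
  have hFn : Group.IsNilpotent F := hF ▸ FittingHall.fittingOf_isNilpotent H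
  have hHF : H ≤ normalizer (F : Set G) := hF ▸ FittingHall.le_normalizer_fittingOf H
  have hM := hD.hM
  have hCM := hD.hCM
  rw [← hF] at hM hCM hC ⊢
  refine Lib.ThompsonPQ.thompson_p_times_q p (M ⊓ part F p) C (part F p)
    ((part_isPGroup F p).to_le inf_le_right) hCp (part_isPGroup F p) ?_ ?_ ?_ ?_
  · intro x hx
    rw [Subgroup.mem_centralizer_iff]
    intro c hc
    exact (Subgroup.mem_centralizer_iff.mp (hC hc) x hx).symm
  · exact inf_le_right.trans Subgroup.le_normalizer
  · exact hCH.trans (hHF.trans (normalizer_le_normalizer_part F p))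
  · rintro u ⟨huP, huC⟩
    rw [Subgroup.mem_centralizer_iff]
    intro c hc
    have h1 : u ∈ M := by
      apply hCM
      refine ⟨part_le F p huP, ?_⟩
      have h2 : M ≤ centralizer ({u} : Set G) := by
        refine le_of_parts hFn hM ?_
        intro r hr
        have := Fact.mk hr
        intro x hx
        rw [Subgroup.mem_centralizer_singleton_iff]
        by_cases hrp : r = p
        · subst hrp
          exact Subgroup.mem_centralizer_iff.mp huC x hx
        · exact (Subgroup.mem_centralizer_iff.mp (part_le_centralizer F hrp hx.2) u huP).symm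
      refine Subgroup.mem_centralizer_iff.mpr fun m hm => ?_
      exact Subgroup.mem_centralizer_singleton_iff.mp (h2 hm)
    exact (Subgroup.mem_centralizer_iff.mp (hC hc) u ⟨h1, huP⟩).symm

/-- An `M`-invariant subgroup `Y` of the solvable group `R`, of order prime to that of `F(H)`, meets `C(M_p)`
trivially. -/
theorem Data.inf_centralizer_eq_bot (hD : Data H M) (R : Subgroup G) (hR : Group.IsSolvable R)
    (hXR : H ⊓ centralizer (fittingOf H : Set G) ≤ normalizer (R : Set G)) {Y : Subgroup G} (hYR : Y ≤ R)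
    (hMY : M ≤ normalizer (Y : Set G)) (hY : (Nat.card Y).Coprime (Nat.card (fittingOf H)))
    {p : ℕ} [hp : Fact p.Prime] (hpF : p ∣ Nat.card (fittingOf H)) :
    Y ⊓ centralizer ((M ⊓ part (fittingOf H) p : Subgroup G) : Set G) = ⊥ := by
  have hXle := inf_centralizer_le_fitting H R hR hXR
  have hCH' := hD.centralizer_le hpF
  obtain ⟨F, hF⟩ : ∃ F : Subgroup G, F = fittingOf H := ⟨_, rfl⟩
  have hFn : Group.IsNilpotent F := hF ▸ FittingHall.fittingOf_isNilpotent H
  have hHF : H ≤ normalizer (F : Set G) := hF ▸ FittingHall.le_normalizer_fittingOf H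
  have hM := hD.hM
  have hCM := hD.hCM
  have hpart : ∀ s : ℕ, ∀ hs : s.Prime, ∀ C : Subgroup G, C ≤ H →
      C ≤ centralizer ((M ⊓ part F s : Subgroup G) : Set G) → (Nat.card C).Coprime s →
      C ≤ centralizer (part F s : Set G) := by
    intro s hs C hC1 hC2 hC3
    have := Fact.mk hs
    rw [hF] at hC2 ⊢
    exact hD.le_centralizer_part hC1 hC2 hC3
  rw [← hF] at hM hCM hpF hY hXle hCH' ⊢
  obtain ⟨C, hCdef⟩ : ∃ C : Subgroup G, C = Y ⊓ centralizer ((M ⊓ part F p : Subgroup G) : Set G) := ⟨_, rfl⟩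
  rw [← hCdef]
  have hCY : C ≤ Y := hCdef ▸ inf_le_left
  have hCH : C ≤ H := by rw [hCdef]; exact inf_le_right.trans hCH'
  have hCcard : (Nat.card C).Coprime (Nat.card F) :=
    Nat.Coprime.coprime_dvd_left (Subgroup.card_dvd_of_le hCY) hY
  have hMpart : ∀ s : ℕ, M ≤ normalizer ((M ⊓ part F s : Subgroup G) : Set G) := fun s =>
    le_normalizer_inf Subgroup.le_normalizer
      (hM.trans (Subgroup.le_normalizer.trans (normalizer_le_normalizer_part F s)))
  have hMC : M ≤ normalizer (C : Set G) := by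
    rw [hCdef]
    exact le_normalizer_inf hMY ((hMpart p).trans (normalizer_centralizer_ge _))
  -- `C` centralizes all `M_s`
  have h1 : ∀ s : ℕ, s.Prime → C ≤ centralizer ((M ⊓ part F s : Subgroup G) : Set G) := by
    intro s hs
    have hbot : C ⊓ part F s = ⊥ := by
      apply Disjoint.eq_bot
      apply Subgroup.disjoint_of_coprime_natCard
      exact Nat.Coprime.coprime_dvd_right (Subgroup.card_dvd_of_le (part_le F s)) hCcard
    intro c hc
    rw [Subgroup.mem_centralizer_iff]
    intro m hm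
    have h2 : m * c * m⁻¹ * c⁻¹ ∈ C ⊓ part F s := by
      refine ⟨?_, ?_⟩
      · exact C.mul_mem (Subgroup.le_normalizer_iff.mp hMC m hm.1 c hc) (C.inv_mem hc)
      · have h3 : m * c * m⁻¹ * c⁻¹ = m * (c * m⁻¹ * c⁻¹) := by group
        rw [h3]
        refine (part F s).mul_mem hm.2 ?_
        exact Subgroup.le_normalizer_iff.mp (hHF.trans (normalizer_le_normalizer_part F s)) c (hCH hc) _
          ((part F s).inv_mem hm.2)
    rw [hbot, Subgroup.mem_bot] at h2
    exact mul_inv_eq_iff_eq_mul.mp (mul_inv_eq_one.mp h2)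
  -- `C` centralizes `F`
  have h2 : F ≤ centralizer (C : Set G) := by
    refine le_of_parts hFn le_rfl ?_
    intro s hs
    have := Fact.mk hs
    refine inf_le_right.trans ?_
    by_cases hsF : s ∣ Nat.card F
    · have h3 := hpart s hs C hCH (h1 s hs) (Nat.Coprime.coprime_dvd_right hsF hCcard)
      intro x hx
      rw [Subgroup.mem_centralizer_iff]
      intro c hc
      exact (Subgroup.mem_centralizer_iff.mp (h3 hc) x hx).symm
    · rw [part_eq_bot F hsF]
      exact bot_le
  have h3 : C ≤ F := by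
    refine le_trans (le_inf (hCY.trans hYR) (le_inf hCH ?_)) hXle
    intro c hc
    rw [Subgroup.mem_centralizer_iff]
    intro x hx
    exact (Subgroup.mem_centralizer_iff.mp (h2 hx) c hc).symm
  have h4 : Nat.card C ∣ Nat.card F := Subgroup.card_dvd_of_le h3
  have h5 : Nat.card C = 1 := Nat.Coprime.eq_one_of_dvd hCcard h4
  exact Subgroup.eq_bot_of_card_eq _ h5

/-- `M_r ≤ O_{p'}(RM)` for different primes `p`, `r` dividing the order of `F(H)`. -/
theorem Data.part_le_core (hD : Data H M) (R : Subgroup G) (hR : Group.IsSolvable R)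
    (hMR : M ≤ normalizer (R : Set G)) {p r : ℕ} [hp : Fact p.Prime] [hr : Fact r.Prime] (hpr : r ≠ p)
    (hpF : p ∣ Nat.card (fittingOf H)) :
    M ⊓ part (fittingOf H) r ≤ (pPrimeCore p ↥(R ⊔ M)).map (R ⊔ M).subtype := by
  have hCH' := hD.centralizer_le hpF
  obtain ⟨F, hF⟩ : ∃ F : Subgroup G, F = fittingOf H := ⟨_, rfl⟩
  have hFn : Group.IsNilpotent F := hF ▸ FittingHall.fittingOf_isNilpotent H
  have hHF : H ≤ normalizer (F : Set G) := hF ▸ FittingHall.le_normalizer_fittingOf H
  have hM := hD.hM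
  rw [← hF] at hCH' hM ⊢
  have hMn : Group.IsNilpotent M := (Group.isNilpotent_congr (Subgroup.subgroupOfEquivOfLe hM)).mp inferInstance
  have hMs : Group.IsSolvable M := inferInstance
  have hL : Group.IsSolvable ↥(R ⊔ M) :=
    SignalizersComponents.CoprimeBasic.isSolvable_sup hMR hR hMs
  obtain ⟨L, hLdef⟩ : ∃ L : Subgroup G, L = R ⊔ M := ⟨_, rfl⟩
  rw [← hLdef] at hL ⊢
  have hML : M ≤ L := hLdef ▸ le_sup_right
  have key : (part F r).subgroupOf L ≤ pPrimeCore p L := by
    refine SignalizersComponents.CoreOfCentralizer.le_pPrimeCore_of_centralizer_normalizes hL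
      ((M ⊓ part F p).subgroupOf L) ((part_isPGroup F p).to_le inf_le_right).comap_subtype
      ((part F r).subgroupOf L) ?_ ?_ ?_
    · obtain ⟨n, hn⟩ := IsPGroup.iff_card.mp ((part_isPGroup F r).comap_subtype (K := L))
      change (Nat.card ↥((part F r).comap L.subtype)).Coprime p
      rw [hn]
      exact Nat.Coprime.pow_left n ((Nat.coprime_primes hr.out hp.out).mpr hpr)
    · intro x hx
      rw [Subgroup.mem_centralizer_iff]
      intro y hy
      apply Subtype.ext
      exact Subgroup.mem_centralizer_iff.mp (part_le_centralizer F hpr hx) (y : G) hy.2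
    · intro y hy
      have h1 : (y : G) ∈ H := by
        apply hCH'
        rw [Subgroup.mem_centralizer_iff] at hy ⊢
        intro m hm
        exact congrArg Subtype.val (hy ⟨m, hML hm.1⟩ hm)
      have h2 : (y : G) ∈ normalizer (part F r : Set G) := (hHF.trans (normalizer_le_normalizer_part F r)) h1
      rw [Subgroup.mem_normalizer_iff] at h2 ⊢
      intro z
      exact h2 z
  have h3 := Subgroup.map_mono (f := L.subtype) key
  rw [Subgroup.subgroupOf_map_subtype] at h3
  refine le_trans (le_inf inf_le_right (inf_le_left.trans hML)) h3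

/-- Every `M`-invariant `q`-subgroup of `R` (`q` prime to `|F(H)|`) lies in `O_{π(F(H))'}(R)`. -/
theorem Data.le_piCoreOf (hD : Data H M) (hF2 : 2 ≤ (Nat.card (fittingOf H)).primeFactors.card)
    (R : Subgroup G) (hR : Group.IsSolvable R) (hMR : M ≤ normalizer (R : Set G))
    (hXR : H ⊓ centralizer (fittingOf H : Set G) ≤ normalizer (R : Set G))
    {q : ℕ} [hq : Fact q.Prime] (hqF : ¬ q ∣ Nat.card (fittingOf H))
    {Q : Subgroup G} (hQR : Q ≤ R) (hQ : IsPGroup q Q) (hMQ : M ≤ normalizer (Q : Set G)) :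
    Q ≤ piCoreOf (primesNotDvd (Nat.card (fittingOf H))) R := by
  have hQcop : (Nat.card Q).Coprime (Nat.card (fittingOf H)) := by
    obtain ⟨n, hn⟩ := IsPGroup.iff_card.mp hQ
    rw [hn]
    exact Nat.Coprime.pow_left n ((Nat.Prime.coprime_iff_not_dvd hq.out).mpr hqF)
  obtain ⟨W, hW⟩ : ∃ W : ℕ → Subgroup G, ∀ p, W p = (pPrimeCore p ↥(R ⊔ M)).map (R ⊔ M).subtype :=
    ⟨_, fun _ => rfl⟩
  have hWn : ∀ p, R ⊔ M ≤ normalizer (W p : Set G) := by
    intro p
    rw [hW, Subgroup.le_normalizer_iff]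
    rintro a ha _ ⟨b, hb, rfl⟩
    exact ⟨⟨a, ha⟩ * b * ⟨a, ha⟩⁻¹, (Lib.Cores.pPrimeCore_normal p).conj_mem b hb _, rfl⟩
  have hQW : ∀ p : ℕ, p.Prime → p ∣ Nat.card (fittingOf H) → Q ≤ W p := by
    intro p hp hpF
    have := Fact.mk hp
    -- another prime
    obtain ⟨r, hrF, hrp⟩ : ∃ r ∈ (Nat.card (fittingOf H)).primeFactors, r ≠ p :=
      Finset.exists_mem_ne (by omega) p
    have hr : r.Prime := Nat.prime_of_mem_primeFactors hrF
    have := Fact.mk hr
    have hrd : r ∣ Nat.card (fittingOf H) := Nat.dvd_of_mem_primeFactors hrF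
    have h1 := hD.inf_centralizer_eq_bot R hR hXR hQR hMQ hQcop hrd
    have hsol : Group.IsSolvable ↥(M ⊓ part (fittingOf H) r) := by
      have : Group.IsNilpotent ↥(M ⊓ part (fittingOf H) r) :=
        ((part_isPGroup (fittingOf H) r).to_le inf_le_right).isNilpotent
      infer_instance
    have h2 := S0026.result (M ⊓ part (fittingOf H) r) Q (inf_le_left.trans hMQ) ?_
      (Or.inl hsol)
    · rw [h1, sup_bot_eq] at h2
      rw [← h2]
      have h3 : M ⊓ part (fittingOf H) r ≤ W p := by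
        rw [hW]
        exact hD.part_le_core R hR hMR hrp hpF
      refine (Subgroup.commutator_mono (le_refl Q) h3).trans ?_
      refine Subgroup.le_normalizer_iff_commutator_le_right.mp ?_
      exact hQR.trans (le_sup_left.trans (hWn p))
    · refine Nat.Coprime.coprime_dvd_left ?_ hQcop.symm
      exact Subgroup.card_dvd_of_le (inf_le_right.trans (part_le _ _))
  -- the intersection
  obtain ⟨V, hV⟩ : ∃ V : Subgroup G, V = R ⊓ ⨅ p : {p : ℕ // p.Prime ∧ p ∣ Nat.card (fittingOf H)}, W p :=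
    ⟨_, rfl⟩
  have hQV : Q ≤ V := by
    rw [hV]
    exact le_inf hQR (le_iInf fun p => hQW p p.2.1 p.2.2)
  refine hQV.trans (PiCoreOf.le_piCoreOf (hV ▸ inf_le_left) ?_ ?_)
  · rw [hV]
    refine le_normalizer_inf Subgroup.le_normalizer ?_
    rw [Subgroup.le_normalizer_iff]
    intro a ha x hx
    rw [Subgroup.mem_iInf] at hx ⊢
    intro p
    exact Subgroup.le_normalizer_iff.mp (le_sup_left.trans (hWn p)) a ha x (hx p)
  · intro s hs hsV
    refine ⟨hs, fun hsF => ?_⟩
    have := Fact.mk hs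
    have h4 : V ≤ W s := by
      rw [hV]
      exact inf_le_right.trans (iInf_le (fun p : {p : ℕ // p.Prime ∧ p ∣ Nat.card (fittingOf H)} => W p) ⟨s, hs, hsF⟩)
    have h5 : s ∣ Nat.card (W s) := hsV.trans (Subgroup.card_dvd_of_le h4)
    rw [hW, Subgroup.card_map_of_injective (R ⊔ M).subtype_injective] at h5
    have h6 := Lib.Cores.pPrimeCore_coprime (G := ↥(R ⊔ M)) s
    exact hs.one_lt.ne' (Nat.Coprime.eq_one_of_dvd h6.symm h5)

/-- Main result: for `q` prime to `|F(H)|` there is exactly one maximal `M`-invariant `q`-subgroup of `R`, and it is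
a Sylow `q`-subgroup of `O_{π(F(H))'}(R)`. -/
theorem Data.main (hD : Data H M) (hF2 : 2 ≤ (Nat.card (fittingOf H)).primeFactors.card)
    (R : Subgroup G) (hR : Group.IsSolvable R) (hMR : M ≤ normalizer (R : Set G))
    (hXR : H ⊓ centralizer (fittingOf H : Set G) ≤ normalizer (R : Set G))
    (q : ℕ) [hq : Fact q.Prime] (hqF : ¬ q ∣ Nat.card (fittingOf H)) :
    ∃! Q : Subgroup G, Q ∈ Cfsg.maxInvSubgroups R M {q} ∧
      (∀ Q' : Subgroup G, Q' ∈ Cfsg.maxInvSubgroups R M {q} →
        Q' ≤ Cfsg.piCoreOf (Cfsg.primesNotDvd (Nat.card (Cfsg.fittingOf H))) R ∧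
        ¬ q ∣ Q'.relIndex (Cfsg.piCoreOf (Cfsg.primesNotDvd (Nat.card (Cfsg.fittingOf H))) R)) := by
  obtain ⟨O, hO⟩ : ∃ O : Subgroup G, O = piCoreOf (primesNotDvd (Nat.card (fittingOf H))) R := ⟨_, rfl⟩
  have hOR : O ≤ R := hO ▸ piCoreOf_le _ _
  have hMO : M ≤ normalizer (O : Set G) := hO ▸ hMR.trans (normalizer_le_normalizer_piCoreOf _ _)
  have hOcop : (Nat.card O).Coprime (Nat.card (fittingOf H)) :=
    hO ▸ coprime_of_isPi_primesNotDvd (piCoreOf_isPi _ _)
  have hMF : Nat.card M ∣ Nat.card (fittingOf H) := Subgroup.card_dvd_of_le hD.hM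
  have hcop : (Nat.card M).Coprime (Nat.card O) := Nat.Coprime.coprime_dvd_left hMF hOcop.symm
  have hFn : Group.IsNilpotent (fittingOf H) := FittingHall.fittingOf_isNilpotent H
  have hMn : Group.IsNilpotent M := (Group.isNilpotent_congr (Subgroup.subgroupOfEquivOfLe hD.hM)).mp inferInstance
  have hMs : Group.IsSolvable M := inferInstance
  -- each maximal invariant subgroup is a Sylow subgroup of `O`
  have hmax : ∀ Q ∈ maxInvSubgroups R M {q}, ∃ P : Sylow q O, (P : Subgroup O).map O.subtype = Q := by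
    intro Q hQ
    have hQq : IsPGroup q Q := (isPi_singleton_iff hq.out Q).mp hQ.1.2.1
    have hQO : Q ≤ O := hO ▸ hD.le_piCoreOf hF2 R hR hMR hXR hqF hQ.1.1 hQq hQ.1.2.2
    obtain ⟨P, hQP, hPM⟩ := S0025.result M O hMO hcop (Or.inl hMs) q Q hQO hQq hQ.1.2.2
    refine ⟨P, hQ.2 _ ⟨(Subgroup.map_subtype_le _).trans hOR, ?_, hPM⟩ hQP⟩
    exact (isPi_singleton_iff hq.out _).mpr (P.2.map _)
  obtain ⟨Q, hQ, -⟩ := exists_maxInv_ge (bot_mem_inv R M {q})
  rw [← hO]
  refine ⟨Q, ⟨hQ, ?_⟩, ?_⟩
  · intro Q' hQ'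
    obtain ⟨P, rfl⟩ := hmax Q' hQ'
    refine ⟨Subgroup.map_subtype_le _, ?_⟩
    have h1 : ((P : Subgroup O).map O.subtype).relIndex O = (P : Subgroup O).index := by
      rw [Subgroup.relIndex, Subgroup.subgroupOf, Subgroup.comap_map_eq_self_of_injective O.subtype_injective]
    rw [h1]
    exact P.not_dvd_index
  · rintro Q' ⟨hQ', -⟩
    obtain ⟨P', hP'⟩ := hmax Q' hQ'
    obtain ⟨P, hP⟩ := hmax Q hQ
    obtain ⟨c, hc, hcP⟩ := S0024.result M O hMO hcop (Or.inl hMs) q P' P
      (by rw [hP']; exact hQ'.1.2.2) (by rw [hP]; exact hQ.1.2.2)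
    obtain ⟨p, hpF⟩ : ∃ p, p ∈ (Nat.card (fittingOf H)).primeFactors := by
      rw [← Finset.Nonempty, ← Finset.card_pos]
      omega
    have hp : p.Prime := Nat.prime_of_mem_primeFactors hpF
    have := Fact.mk hp
    have h1 := hD.inf_centralizer_eq_bot R hR hXR hOR hMO hOcop (Nat.dvd_of_mem_primeFactors hpF)
    have h2 : (c : G) ∈ O ⊓ centralizer ((M ⊓ part (fittingOf H) p : Subgroup G) : Set G) :=
      ⟨c.2, Subgroup.centralizer_le (by exact fun x hx => hx.1) hc⟩
    rw [h1, Subgroup.mem_bot] at h2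
    have h3 : c = 1 := Subtype.ext h2
    rw [h3, map_one, one_smul] at hcP
    rw [← hP', ← hP, hcP]

end Cfsg.Agent.OddOrderLocal.BenderInvariant
end

-- part: S1481
section
set_option autoImplicit false
open Cfsg

namespace Cfsg.Agent.S1481

/-- Let G be a finite group and H a local subgroup (the normalizer of a nontrivial subgroup of prime-power order) not properly contained in any local subgroup; let F = F(H), suppose at least two primes divide #F, put X = H ∩ C_G(F), let M ≤ F with F ∩ C_G(M) ≤ M, and let R be a solvable subgroup normalized by M and by X. Then for every prime q not dividing #F there is exactly one maximal M-invariant q-subgroup of R, and it is a Sylow q-subgroup of the largest normal subgroup of R of order coprime to #F. -/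
theorem result {G : Type*} [Group G] [Finite G] (H : Subgroup G) (hH : Cfsg.IsLocalSubgroup H) (hHmax : ∀ L : Subgroup G, Cfsg.IsLocalSubgroup L → H ≤ L → L = H)
    (hF2 : 2 ≤ (Nat.card (Cfsg.fittingOf H)).primeFactors.card)
    (M : Subgroup G) (hM : M ≤ Cfsg.fittingOf H) (hCM : Cfsg.fittingOf H ⊓ Subgroup.centralizer (M : Set G) ≤ M)
    (R : Subgroup G) (hR : Group.IsSolvable R) (hMR : M ≤ Subgroup.normalizer (R : Set G))
    (hXR : H ⊓ Subgroup.centralizer (Cfsg.fittingOf H : Set G) ≤ Subgroup.normalizer (R : Set G))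
    (q : ℕ) [Fact q.Prime] (hq : ¬ q ∣ Nat.card (Cfsg.fittingOf H)) :
    ∃! Q : Subgroup G, Q ∈ Cfsg.maxInvSubgroups R M {q} ∧
      (∀ Q' : Subgroup G, Q' ∈ Cfsg.maxInvSubgroups R M {q} →
        Q' ≤ Cfsg.piCoreOf (Cfsg.primesNotDvd (Nat.card (Cfsg.fittingOf H))) R ∧
        ¬ q ∣ Q'.relIndex (Cfsg.piCoreOf (Cfsg.primesNotDvd (Nat.card (Cfsg.fittingOf H))) R)) := by
  exact (Cfsg.Agent.OddOrderLocal.BenderInvariant.Data.mk hHmax hM hCM).main hF2 R hR hMR hXR q hq

end Cfsg.Agent.S1481
end
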