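import Cfsg.Statements.S1482
import Cfsg.Agent.Lib.BenderMaximal
set_option linter.all false

set_option autoImplicit false
set_option linter.style.haveILetI false
open Cfsg

namespace Cfsg.Agent.S1482

open Subgroup Cfsg.Agent.Lib.LocalCore Cfsg.Agent.Lib.BenderMaximal

/-- The `r`-part of the centre of `F(H)`. -/
theorem center_part {G : Type*} [Group G] [Finite G] (H : Subgroup G) (r : ℕ) [Fact r.Prime]
    (h : (pCore r H).map H.subtype ≠ ⊥) :
    (pCore r H).map H.subtype ⊓
      centralizer (((fittingSubgroup H).map H.subtype : Subgroup G) : Set G) ≠ ⊥ := by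
  set P := (pCore r H).map H.subtype with hP
  haveI : Nontrivial P := (nontrivial_iff_ne_bot P).mpr h
  have hPp : IsPGroup r P := isPGroup_map_pCore r H
  haveI := hPp.center_nontrivial
  obtain ⟨z, hz⟩ := exists_ne (1 : center P)
  have hz1 : ((z : P) : G) ≠ 1 := by
    intro h1
    exact hz (Subtype.ext (Subtype.ext h1))
  have hzc : zpowers ((z : P) : G) ≤
      centralizer (((fittingSubgroup H).map H.subtype : Subgroup G) : Set G) := by
    apply le_centralizer_fitting
    intro q hq
    haveI := Fact.mk hq
    by_cases hqr : q = r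
    · subst hqr
      rw [zpowers_le, mem_centralizer_iff]
      intro y hy
      have h2 := mem_center_iff.mp z.2 ⟨y, hy⟩
      exact congrArg Subtype.val h2
    · rw [zpowers_le]
      have h2 : P ≤ centralizer (((pCore q H).map H.subtype : Subgroup G) : Set G) :=
        le_centralizer_symm ((map_pCore_le_centralizer_map_pPrimeCore q H).trans
          (centralizer_le (map_pCore_le_map_pPrimeCore hq hqr H)))
      exact h2 (z : P).2
  intro hb
  have h3 : ((z : P) : G) ∈ P ⊓
      centralizer (((fittingSubgroup H).map H.subtype : Subgroup G) : Set G) :=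
    ⟨(z : P).2, hzc (mem_zpowers _)⟩
  rw [hb, mem_bot] at h3
  exact hz1 h3

theorem normalizer_le_normalizer_centralizer {G : Type*} [Group G] (A : Subgroup G) :
    normalizer (A : Set G) ≤ normalizer ((centralizer (A : Set G) : Subgroup G) : Set G) := by
  have key : ∀ g ∈ normalizer (A : Set G), ∀ x ∈ centralizer (A : Set G),
      g * x * g⁻¹ ∈ centralizer (A : Set G) := by
    intro g hg x hx
    rw [mem_centralizer_iff] at hx ⊢
    intro a ha
    have h1 : g⁻¹ * a * g ∈ A := by
      have := (mem_normalizer_iff.mp (inv_mem hg) a).mp ha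
      simpa using this
    have h2 := hx _ h1
    calc a * (g * x * g⁻¹) = g * ((g⁻¹ * a * g) * x) * g⁻¹ := by group
      _ = g * (x * (g⁻¹ * a * g)) * g⁻¹ := by rw [h2]
      _ = g * x * g⁻¹ * a := by group
  intro g hg
  rw [mem_normalizer_iff]
  intro x
  refine ⟨key g hg x, fun h => ?_⟩
  have := key g⁻¹ (inv_mem hg) _ h
  simpa [mul_assoc] using this

/-- Let G be a minimal simple group of odd order, H a maximal subgroup whose Fitting subgroup F has at least two prime divisors, and M a subgroup of F containing the centre of F such that the only M-invariant subgroup of G of order coprime to #F is the trivial one. Then H is the only maximal subgroup of G containing M. -/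
theorem result {G : Type*} [Group G] [Finite G] (hG : Cfsg.IsMinSimpleOddOrder G) (H : Subgroup G) (hH : IsCoatom H) (hF2 : 2 ≤ (Nat.card (Cfsg.fittingOf H)).primeFactors.card)
    (M : Subgroup G) (hM : M ≤ Cfsg.fittingOf H) (hZM : Cfsg.fittingOf H ⊓ Subgroup.centralizer (Cfsg.fittingOf H : Set G) ≤ M)
    (hinv : ∀ Y ∈ Cfsg.invSubgroups ⊤ M (Cfsg.primesNotDvd (Nat.card (Cfsg.fittingOf H))), Y = ⊥) :
    ∀ L : Subgroup G, IsCoatom L → M ≤ L → L = H := by
  intro L hL hML
  haveI : IsSimpleGroup G := hG.2.1
  have hsH : Group.IsSolvable H := hG.2.2.2 H hH.1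
  have hsL : Group.IsSolvable L := hG.2.2.2 L hL.1
  change 2 ≤ (Nat.card ((fittingSubgroup H).map H.subtype : Subgroup G)).primeFactors.card at hF2
  change M ≤ (fittingSubgroup H).map H.subtype at hM
  change (fittingSubgroup H).map H.subtype ⊓
    centralizer (((fittingSubgroup H).map H.subtype : Subgroup G) : Set G) ≤ M at hZM
  change ∀ Y ∈ Cfsg.invSubgroups ⊤ M (Cfsg.primesNotDvd
    (Nat.card ((fittingSubgroup H).map H.subtype : Subgroup G))), Y = ⊥ at hinv
  set F := (fittingSubgroup H).map H.subtype with hF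
  have hHF : H ≤ normalizer (F : Set G) := le_normalizer_map_fittingSubgroup H
  -- the `r`-part of the centre of `F`
  obtain ⟨Z, hZ⟩ : ∃ Z : ℕ → Subgroup G, ∀ r, Z r = (pCore r H).map H.subtype ⊓
      centralizer (F : Set G) := ⟨_, fun r => rfl⟩
  have hZle : ∀ r, Z r ≤ (pCore r H).map H.subtype := fun r => by rw [hZ]; exact inf_le_left
  have hZH : ∀ r, Z r ≤ H := fun r => (hZle r).trans (map_subtype_le _)
  have hZp : ∀ r, IsPGroup r (Z r) := fun r => (isPGroup_map_pCore r H).to_le (hZle r)
  have hZn : ∀ r, H ≤ normalizer (Z r : Set G) := by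
    intro r x hx
    rw [hZ]
    exact inf_normalizer_le_normalizer_inf ⟨le_normalizer_map_pCore r H hx,
      normalizer_le_normalizer_centralizer F (hHF hx)⟩
  have hZne : ∀ r ∈ (Nat.card F).primeFactors, Z r ≠ ⊥ := by
    intro r hr
    haveI := Fact.mk (Nat.prime_of_mem_primeFactors hr)
    rw [hZ]
    exact center_part H r (map_pCore_ne_bot (Nat.dvd_of_mem_primeFactors hr))
  have hZN : ∀ r ∈ (Nat.card F).primeFactors, normalizer (Z r : Set G) = H := fun r hr =>
    normalizer_eq_of_isCoatom hH (hZH r) (hZne r hr) (hZn r)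
  have hZL : ∀ r, r.Prime → Z r ≤ L := by
    intro r hr
    haveI := Fact.mk hr
    refine le_trans ?_ hML
    refine le_trans ?_ hZM
    rw [hZ]
    exact inf_le_inf_right _ (map_pCore_le_map_fittingSubgroup H r)
  have hcore : ∀ q ∈ (Nat.card F).primeFactors,
      (pPrimeCore q H).map H.subtype ⊓ L ≤ (pPrimeCore q L).map L.subtype := by
    intro q hq
    haveI := Fact.mk (Nat.prime_of_mem_primeFactors hq)
    refine pPrimeCoreOf_inf_le q H L (Z q) hsL (hZp q)
      (hZL q (Nat.prime_of_mem_primeFactors hq)) (hZn q) ?_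
    rw [hZN q hq]
    exact inf_le_right
  have hZcore : ∀ q ∈ (Nat.card F).primeFactors, ∀ r ∈ (Nat.card F).primeFactors, r ≠ q →
      Z r ≤ (pPrimeCore q L).map L.subtype := by
    intro q hq r hr hrq
    have hq' := Nat.prime_of_mem_primeFactors hq
    have hr' := Nat.prime_of_mem_primeFactors hr
    haveI := Fact.mk hq'
    haveI := Fact.mk hr'
    exact (le_inf ((hZle r).trans (map_pCore_le_map_pPrimeCore hq' (Ne.symm hrq) H))
      (hZL r hr')).trans (hcore q hq)
  have hcomm : ∀ q ∈ (Nat.card F).primeFactors, ∀ r ∈ (Nat.card F).primeFactors, r ≠ q →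
      (pCore q L).map L.subtype ≤ centralizer (Z r : Set G) := by
    intro q hq r hr hrq
    haveI := Fact.mk (Nat.prime_of_mem_primeFactors hq)
    exact (map_pCore_le_centralizer_map_pPrimeCore q L).trans
      (centralizer_le (hZcore q hq r hr hrq))
  have hbot : ∀ q : ℕ, q.Prime → q ∉ (Nat.card F).primeFactors →
      (pCore q L).map L.subtype = ⊥ := by
    intro q hq hqF
    haveI := Fact.mk hq
    apply hinv
    refine ⟨le_top, ?_, hML.trans (le_normalizer_map_pCore q L)⟩
    intro p hp hpd
    obtain ⟨k, hk⟩ := IsPGroup.iff_card.mp (isPGroup_map_pCore q L)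
    rw [hk] at hpd
    have hpq : p = q := (Nat.prime_dvd_prime_iff_eq hp hq).mp (hp.dvd_of_dvd_pow hpd)
    subst hpq
    refine ⟨hq, fun hd => hqF ?_⟩
    exact Nat.mem_primeFactors.mpr ⟨hq, hd, Nat.card_pos.ne'⟩
  have hother : ∀ q : ℕ, ∃ r ∈ (Nat.card F).primeFactors, r ≠ q := by
    intro q
    exact Finset.exists_mem_ne hF2 q
  -- `F(L) ≤ H`
  have hFL : (fittingSubgroup L).map L.subtype ≤ H := by
    rw [map_fittingSubgroup_eq_iSup]
    refine iSup_le fun q => ?_
    by_cases hq : (q : ℕ) ∈ (Nat.card F).primeFactors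
    · obtain ⟨r, hr, hrq⟩ := hother q
      refine (hcomm q hq r hr hrq).trans ((centralizer_le_normalizer' _).trans ?_)
      rw [hZN r hr]
    · rw [hbot q q.2 hq]; exact bot_le
  -- `O_q(L) ≠ 1`
  have hne : ∀ q ∈ (Nat.card F).primeFactors, (pCore q L).map L.subtype ≠ ⊥ := by
    intro q hq hb
    have hq' := Nat.prime_of_mem_primeFactors hq
    haveI := Fact.mk hq'
    apply hZne q hq
    have htriv : ∀ r, (pCore r L).map L.subtype = ⊥ →
        Z q ≤ centralizer (((pCore r L).map L.subtype : Subgroup G) : Set G) := by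
      intro r hr
      rw [hr]
      intro x _
      rw [mem_centralizer_iff]
      intro y hy
      rw [coe_bot, Set.mem_singleton_iff] at hy
      rw [hy, one_mul, mul_one]
    have h1 : Z q ≤ centralizer (((fittingSubgroup L).map L.subtype : Subgroup G) : Set G) := by
      apply le_centralizer_fitting
      intro r hr
      by_cases hrF : r ∈ (Nat.card F).primeFactors
      · by_cases hrq : r = q
        · subst hrq; exact htriv r hb
        · exact le_centralizer_symm (hcomm r hrF q hq (Ne.symm hrq))
      · exact htriv r (hbot r hr hrF)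
    have h2 : Z q ≤ (fittingSubgroup L).map L.subtype :=
      (le_inf (hZL q hq') h1).trans (inf_centralizer_fitting_le hsL)
    have h3 := le_map_pCore_of_le_fitting (hZp q) h2
    rwa [hb, le_bot_iff] at h3
  have hNL : ∀ q ∈ (Nat.card F).primeFactors,
      normalizer (((pCore q L).map L.subtype : Subgroup G) : Set G) = L := fun q hq =>
    normalizer_eq_of_isCoatom hL (map_subtype_le _) (hne q hq) (le_normalizer_map_pCore q L)
  -- `F(H) ≤ L`
  have hFH : (fittingSubgroup H).map H.subtype ≤ L := by
    rw [map_fittingSubgroup_eq_iSup]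
    refine iSup_le fun q => ?_
    haveI := Fact.mk q.2
    by_cases hq : (q : ℕ) ∈ (Nat.card F).primeFactors
    · obtain ⟨r, hr, hrq⟩ := hother q
      have hr' := Nat.prime_of_mem_primeFactors hr
      haveI := Fact.mk hr'
      have h1 := pPrimeCoreOf_inf_le (q : ℕ) L H ((pCore q L).map L.subtype) hsH
        (isPGroup_map_pCore q L) ((map_pCore_le_map_fittingSubgroup L q).trans hFL)
        (le_normalizer_map_pCore q L) (by rw [hNL q hq]; exact inf_le_right)
      have h2 : (pCore r L).map L.subtype ≤ (pPrimeCore q H).map H.subtype :=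
        (le_inf (map_pCore_le_map_pPrimeCore q.2 (Ne.symm hrq) L)
          ((map_pCore_le_map_fittingSubgroup L r).trans hFL)).trans h1
      refine (map_pCore_le_centralizer_map_pPrimeCore q H).trans ((centralizer_le h2).trans
        ((centralizer_le_normalizer' _).trans ?_))
      rw [hNL r hr]
    · have h1 : (pCore q H).map H.subtype = ⊥ := by
        by_contra h
        exact hq (Nat.mem_primeFactors.mpr
          ⟨q.2, dvd_card_of_map_pCore_ne_bot h, Nat.card_pos.ne'⟩)
      rw [h1]; exact bot_le
  exact (eq_of_fitting_le hH hL hsH hsL hFH hFL hF2).symm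

end Cfsg.Agent.S1482
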