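import Cfsg.Statements.S1484
import Cfsg.Agent.OddOrderLocal.CNMaxNil
import Cfsg.Agent.S1479
set_option linter.all false

set_option autoImplicit false
open Cfsg

namespace Cfsg.Agent.S1484

open Cfsg.Agent.OddOrderLocal.CNMaxNil

/-- Properties of a maximal subgroup of a minimal simple CN-group of odd order. -/
theorem fittingHallOf_spec {G : Type*} [Group G] [Finite G] (hG : Cfsg.IsMinSimpleOddOrder G)
    (hCN : Cfsg.IsCNGroup G) (M : Subgroup G) (hM : IsCoatom M) :
    IsMaxNil (Cfsg.fittingHallOf M) ∧ M = Subgroup.normalizer (Cfsg.fittingHallOf M : Set G) ∧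
      ∀ N : Subgroup G, Group.IsNilpotent N → N ≤ M → M ≤ Subgroup.normalizer (N : Set G) →
        N ≤ Cfsg.fittingHallOf M := by
  classical
  obtain ⟨H, E, hnil, hmax, hMN, hE, hH1, hE1, hfree⟩ := (Cfsg.Agent.S1479.result hG hCN).2 M hM
  have hmn : IsMaxNil H := ⟨hnil, hmax⟩
  obtain ⟨hHall, hTI, -, E', hE', -, hfree'⟩ := (Cfsg.Agent.S1479.result hG hCN).1 H hnil hmax
  have hC : ∀ x ∈ H, x ≠ 1 → Subgroup.centralizer ({x} : Set G) ≤ H :=
    fun x hx hx1 => centralizer_le_of_ti_of_compl H E' hTI hE' hfree' hx hx1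
  have hHM : H ≤ M := hE.1
  -- every nilpotent normal subgroup of `M` is in `H`
  have hle : ∀ N : Subgroup G, Group.IsNilpotent N → N ≤ M → M ≤ Subgroup.normalizer (N : Set G) → N ≤ H := by
    intro N hN hNM hMNn
    by_cases hne : H ⊓ N = ⊥
    · -- `[H,N] = 1`
      obtain ⟨⟨x, hx⟩, hx1⟩ := Subgroup.ne_bot_iff_exists_ne_one.1 hH1
      have hx1' : x ≠ 1 := fun h => hx1 (Subtype.ext h)
      intro n hn
      apply hC x hx hx1'
      rw [Subgroup.mem_centralizer_singleton_iff]
      have h1 : n * x * n⁻¹ * x⁻¹ ∈ H ⊓ N := by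
        refine Subgroup.mem_inf.2 ⟨?_, ?_⟩
        · exact H.mul_mem ((Subgroup.mem_normalizer_iff.1 (hMN (hNM hn)) x).1 hx) (H.inv_mem hx)
        · have h2 := (Subgroup.mem_normalizer_iff.1 (hMNn (hHM hx)) n⁻¹).1 (N.inv_mem hn)
          have := N.mul_mem hn h2
          simpa [mul_assoc] using this
      rw [hne, Subgroup.mem_bot] at h1
      calc n * x = (n * x * n⁻¹ * x⁻¹) * (x * n) := by group
        _ = x * n := by rw [h1, one_mul]
    · exact le_of_nilpotent_of_normal_inf hC hN (hNM.trans hMN) hne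
  -- `fittingHallOf M = H`
  have heq : Cfsg.fittingHallOf M = H := by
    apply le_antisymm
    · show (Cfsg.fittingHall M).map M.subtype ≤ H
      rw [Subgroup.map_le_iff_le_comap]
      apply sSup_le
      rintro N ⟨hNn, hNnil, -⟩
      rw [← Subgroup.map_le_iff_le_comap]
      apply hle
      · have := hNnil
        exact Group.nilpotent_of_mulEquiv (N.equivMapOfInjective M.subtype M.subtype_injective)
      · exact Subgroup.map_subtype_le N
      · intro m hm
        rw [Subgroup.mem_normalizer_iff]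
        intro y
        constructor
        · rintro ⟨n, hn, rfl⟩
          exact ⟨⟨m, hm⟩ * n * ⟨m, hm⟩⁻¹, hNn.conj_mem n hn _, rfl⟩
        · rintro ⟨n, hn, hny⟩
          refine ⟨⟨m, hm⟩⁻¹ * n * ⟨m, hm⟩, by simpa using hNn.conj_mem n hn (⟨m, hm⟩⁻¹), ?_⟩
          have h3 : (n : G) = m * y * m⁻¹ := hny
          show m⁻¹ * (n : G) * m = y
          rw [h3]; group
    · -- `H ≤ fittingHallOf M`
      have h4 : H.subgroupOf M ≤ Cfsg.fittingHall M := by
        apply le_sSup
        refine ⟨⟨fun n hn g => ?_⟩, ?_, ?_⟩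
        · rw [Subgroup.mem_subgroupOf] at hn ⊢
          exact (Subgroup.mem_normalizer_iff.1 (hMN g.2) _).1 hn
        · have := hnil
          exact Group.nilpotent_of_mulEquiv (Subgroup.subgroupOfEquivOfLe hHM).symm
        · have h5 : Nat.card (H.subgroupOf M) = Nat.card H :=
            Nat.card_congr (Subgroup.subgroupOfEquivOfLe hHM).toEquiv
          rw [h5]
          exact hHall.coprime_dvd_right (Subgroup.relIndex_dvd_index_of_le hHM)
      intro x hx
      exact ⟨⟨x, hHM hx⟩, h4 hx, rfl⟩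
  rw [heq]
  refine ⟨hmn, ?_, hle⟩
  -- `M = N_G(H)`
  by_contra hne
  have hlt : M < Subgroup.normalizer (H : Set G) := lt_of_le_of_ne hMN hne
  have htop := hM.2 _ hlt
  have hHn : H.Normal := Subgroup.normalizer_eq_top_iff.1 htop
  have hsimple := hG.2.1
  rcases hsimple.eq_bot_or_eq_top_of_normal H hHn with h | h
  · exact hH1 h
  · apply hM.1
    rw [eq_top_iff, ← h]
    exact hHM

/-- Let G be a minimal simple group of odd order in which every non-identity element has nilpotent centralizer, and M₁, …, M_k maximal subgroups, pairwise non-conjugate, such that every maximal subgroup is conjugate to some M_i. Let H_i be the largest normal nilpotent Hall subgroup of M_i. Then the orders of the H_i are pairwise coprime, their product is the order of G, and every element of G is conjugate to an element of some H_i. -/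
theorem result {G : Type*} [Group G] [Finite G] (hG : Cfsg.IsMinSimpleOddOrder G) (hCN : Cfsg.IsCNGroup G) (k : ℕ) (Mrep : Fin k → Subgroup G) (hmax : ∀ i, IsCoatom (Mrep i))
    (hnc : ∀ i j, i ≠ j → ∀ g : G, Mrep j ≠ (Mrep i).map (MulAut.conj g).toMonoidHom) (hall : ∀ M : Subgroup G, IsCoatom M → ∃ i, ∃ g : G, M = (Mrep i).map (MulAut.conj g).toMonoidHom) :
    (∀ i j, i ≠ j → (Nat.card (Cfsg.fittingHallOf (Mrep i))).Coprime (Nat.card (Cfsg.fittingHallOf (Mrep j)))) ∧
      ∏ i, Nat.card (Cfsg.fittingHallOf (Mrep i)) = Nat.card G ∧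
      ∀ x : G, ∃ i, ∃ g : G, g * x * g⁻¹ ∈ Cfsg.fittingHallOf (Mrep i) := by
  classical
  have hspec := fun i => fittingHallOf_spec hG hCN (Mrep i) (hmax i)
  have hHallA : ∀ H : Subgroup G, IsMaxNil H → (Nat.card H).Coprime H.index :=
    fun H hH => ((Cfsg.Agent.S1479.result hG hCN).1 H hH.1 hH.2).1
  have hCA : ∀ H : Subgroup G, IsMaxNil H → ∀ x ∈ H, x ≠ 1 → Subgroup.centralizer ({x} : Set G) ≤ H := by
    intro H hH x hx hx1
    obtain ⟨-, hTI, -, E', hE', -, hfree'⟩ := (Cfsg.Agent.S1479.result hG hCN).1 H hH.1 hH.2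
    exact centralizer_le_of_ti_of_compl H E' hTI hE' hfree' hx hx1
  -- part 1
  have hcop : ∀ i j, i ≠ j → (Nat.card (Cfsg.fittingHallOf (Mrep i))).Coprime (Nat.card (Cfsg.fittingHallOf (Mrep j))) := by
    intro i j hij
    refine (conj_or_coprime (hspec i).1 (hspec j).1 (hHallA _ (hspec i).1) (hCA _ (hspec i).1)).resolve_left ?_
    rintro ⟨g, hg⟩
    apply hnc i j hij g
    rw [(hspec j).2.1, hg, normalizer_map_conj, ← (hspec i).2.1]
  -- every maximal nilpotent subgroup is conjugate to some `fittingHallOf (Mrep i)`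
  have hconj : ∀ H : Subgroup G, IsMaxNil H → ∃ i, ∃ g : G, ∀ x ∈ H, g * x * g⁻¹ ∈ Cfsg.fittingHallOf (Mrep i) := by
    intro H hH
    obtain ⟨-, -, hco, -⟩ := (Cfsg.Agent.S1479.result hG hCN).1 H hH.1 hH.2
    obtain ⟨i, g, hig⟩ := hall _ hco
    refine ⟨i, g⁻¹, ?_⟩
    -- `H^(g⁻¹)` is a normal nilpotent subgroup of `Mrep i`
    have h1 : Mrep i = Subgroup.normalizer ((H.map (MulAut.conj g⁻¹).toMonoidHom : Subgroup G) : Set G) := by
      rw [normalizer_map_conj]
      exact eq_map_conj_symm hig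
    have h2 := (hspec i).2.2 (H.map (MulAut.conj g⁻¹).toMonoidHom) (isMaxNil_map_conj hH _).1
      (by
        conv_rhs => rw [h1]
        exact Subgroup.le_normalizer) (le_of_eq h1)
    intro x hx
    exact h2 ⟨x, hx, rfl⟩
  refine ⟨hcop, ?_, ?_⟩
  · -- the product formula
    apply Nat.dvd_antisymm
    · apply Finset.prod_dvd_of_isRelPrime
      · intro i _ j _ hij
        exact (Nat.coprime_iff_isRelPrime.1 (hcop i j hij))
      · intro i _
        exact Subgroup.card_subgroup_dvd_card _
    · rw [← Nat.factorization_le_iff_dvd Nat.card_pos.ne'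
        (Finset.prod_ne_zero_iff.2 fun i _ => Nat.card_pos.ne')]
      intro p
      by_cases hp : p.Prime
      swap
      · rw [Nat.factorization_eq_zero_of_not_prime _ hp]; exact Nat.zero_le _
      have : Fact p.Prime := ⟨hp⟩
      obtain ⟨P⟩ : Nonempty (Sylow p G) := inferInstance
      obtain ⟨H, hH, hPH⟩ := exists_isMaxNil_ge (P : Subgroup G) P.isPGroup'.isNilpotent
      obtain ⟨i, g, hig⟩ := hconj H hH
      have hcard : Nat.card (P : Subgroup G) ∣ Nat.card (Cfsg.fittingHallOf (Mrep i)) := by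
        have h3 : (P : Subgroup G).map (MulAut.conj g).toMonoidHom ≤ Cfsg.fittingHallOf (Mrep i) := by
          rintro _ ⟨x, hx, rfl⟩
          exact hig x (hPH hx)
        have h4 := Subgroup.card_dvd_of_le h3
        rwa [Nat.card_congr ((P : Subgroup G).equivMapOfInjective _ (MulAut.conj g).injective).symm.toEquiv] at h4
      rw [P.card_eq_multiplicity] at hcard
      apply (hp.pow_dvd_iff_le_factorization (Finset.prod_ne_zero_iff.2 fun i _ => Nat.card_pos.ne')).1
      exact hcard.trans (Finset.dvd_prod_of_mem _ (Finset.mem_univ i))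
  · intro x
    have hz : Group.IsNilpotent (Subgroup.zpowers x) := by
      letI : CommGroup (Subgroup.zpowers x) :=
        { (inferInstance : Group (Subgroup.zpowers x)) with
          mul_comm := fun u v => by
            obtain ⟨a, ha⟩ := Subgroup.mem_zpowers_iff.1 u.2
            obtain ⟨b, hb⟩ := Subgroup.mem_zpowers_iff.1 v.2
            apply Subtype.ext
            show (u : G) * v = v * u
            rw [← ha, ← hb, ← zpow_add, ← zpow_add, add_comm] }
      infer_instance
    obtain ⟨H, hH, hxH⟩ := exists_isMaxNil_ge _ hz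
    obtain ⟨i, g, hig⟩ := hconj H hH
    exact ⟨i, g, hig x (hxH (Subgroup.mem_zpowers x))⟩

end Cfsg.Agent.S1484
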