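import Cfsg.Statements.S1487
import Cfsg.Agent.OddOrderCharacters.NormalInduced
import Mathlib
set_option linter.all false

set_option autoImplicit false
open Cfsg

namespace Cfsg.Agent.S1487

open Cfsg.Agent.OddOrderCharacters.NormalInduced

/-- If the average of a character over a finite group `A` equals the degree, `A` acts trivially. -/
theorem eq_one_of_sum_character {A V : Type*} [Group A] [Fintype A] [AddCommGroup V] [Module ℂ V]
    [FiniteDimensional ℂ V] (ρ : Representation ℂ A V)
    (h : ∑ a : A, ρ.character a = (Nat.card A : ℂ) * ρ.character 1) (a : A) : ρ a = 1 := by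
  have hcard : (Nat.card A : ℂ) ≠ 0 := by exact_mod_cast Nat.card_pos.ne'
  haveI : Invertible (Nat.card A : ℂ) := invertibleOfNonzero hcard
  have h1 := Representation.card_inv_mul_sum_char_eq_finrank ρ
  rw [h, inv_mul_cancel_left₀ hcard, Representation.char_one] at h1
  have h2 : Module.finrank ℂ (Representation.invariants ρ) = Module.finrank ℂ V := by
    exact_mod_cast h1.symm
  have h3 : Representation.invariants ρ = ⊤ := Submodule.eq_top_of_finrank_eq h2
  ext v
  have : v ∈ Representation.invariants ρ := h3 ▸ Submodule.mem_top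
  simpa using this a

/-- Let A ≤ H be normal subgroups of the finite group G and θ an irreducible character of H. Then θ takes the value θ 1 on all of A if and only if the function induced from θ to G takes its value at 1 on all of A. -/
theorem result {G : Type*} [Group G] [Fintype G] (A H : Subgroup G) [A.Normal] [H.Normal] (hAH : A ≤ H) (θ : H → ℂ) (hθ : Cfsg.IsIrrCharacter H θ) : (∀ a : H, (a : G) ∈ A → θ a = θ 1) ↔ (∀ a : G, a ∈ A → Cfsg.indFun H θ a = Cfsg.indFun H θ 1) := by
  classical
  obtain ⟨n, ρ, hρ, hχ⟩ := hθ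
  have hA : A.Normal := inferInstance
  have hH : H.Normal := inferInstance
  constructor
  · intro h a ha
    have e1 := indFun_coe H θ ⟨a, hAH ha⟩
    have e2 := indFun_coe H θ 1
    rw [show ((⟨a, hAH ha⟩ : H) : G) = a from rfl] at e1
    rw [Subgroup.coe_one] at e2
    rw [e1, e2]
    congr 1
    refine Finset.sum_congr rfl fun g _ => ?_
    rw [conjFn_apply, conjFn_apply, h _ (hA.conj_mem a ha g)]
    congr 1
    ext
    simp
  · intro h
    have hG : (Nat.card G : ℂ) ≠ 0 := by exact_mod_cast Nat.card_pos.ne'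
    have hHc : (Nat.card H : ℂ) ≠ 0 := by exact_mod_cast Nat.card_pos.ne'
    have hAc : (Nat.card A : ℂ) ≠ 0 := by exact_mod_cast Nat.card_pos.ne'
    -- the value at `1`
    have key : ∀ a : G, ∀ ha : a ∈ A, ∑ g : G, conjFn H θ g ⟨a, hAH ha⟩ = (Nat.card G : ℂ) * θ 1 := by
      intro a ha
      have e0 := h a ha
      have e1 := indFun_coe H θ ⟨a, hAH ha⟩
      have e2 := indFun_coe H θ 1
      rw [show ((⟨a, hAH ha⟩ : H) : G) = a from rfl] at e1
      rw [Subgroup.coe_one] at e2
      rw [e1, e2] at e0
      have e3 := mul_left_cancel₀ (inv_ne_zero hHc) e0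
      rw [e3, Nat.card_eq_fintype_card, ← Finset.card_univ, ← nsmul_eq_mul, ← Finset.sum_const]
      refine Finset.sum_congr rfl fun g _ => ?_
      rw [conjFn_apply]
      congr 1
      ext
      simp
    -- sum over `A`
    have hsum : ∀ g : G, ∑ a : A, conjFn H θ g ⟨a, hAH a.2⟩ = ∑ a : A, θ ⟨a, hAH a.2⟩ := by
      intro g
      refine Fintype.sum_equiv (MulAut.conjNormal g).toEquiv _ _ fun a => ?_
      rw [conjFn_apply]
      congr 1
    have htot : (Nat.card G : ℂ) * ∑ a : A, θ ⟨a, hAH a.2⟩ =
        (Nat.card G : ℂ) * ((Nat.card A : ℂ) * θ 1) := by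
      calc (Nat.card G : ℂ) * ∑ a : A, θ ⟨a, hAH a.2⟩
          = ∑ g : G, ∑ a : A, conjFn H θ g ⟨a, hAH a.2⟩ := by
            rw [Finset.sum_congr rfl (fun g _ => hsum g), Finset.sum_const, Finset.card_univ,
              nsmul_eq_mul, Nat.card_eq_fintype_card]
        _ = ∑ a : A, ∑ g : G, conjFn H θ g ⟨a, hAH a.2⟩ := Finset.sum_comm
        _ = ∑ a : A, (Nat.card G : ℂ) * θ 1 := by
            refine Finset.sum_congr rfl fun a _ => key a a.2
        _ = _ := by
            rw [Finset.sum_const, Finset.card_univ, nsmul_eq_mul, Nat.card_eq_fintype_card (α := A)]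
            ring
    have hfin := mul_left_cancel₀ hG htot
    -- the restriction of `ρ` to `A`
    let σ : Representation ℂ A (Fin n → ℂ) := ρ.comp (Subgroup.inclusion hAH)
    have hσ : ∀ a : A, σ.character a = θ ⟨a, hAH a.2⟩ := by
      intro a
      rw [← hχ]
      rfl
    have h1 : ∑ a : A, σ.character a = (Nat.card A : ℂ) * σ.character 1 := by
      rw [Finset.sum_congr rfl (fun a _ => hσ a), hfin, hσ 1]
      rfl
    intro a ha
    have h2 := eq_one_of_sum_character σ h1 ⟨a, ha⟩
    have h3 : ρ a = ρ 1 := by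
      rw [map_one]
      exact h2
    rw [← hχ]
    show LinearMap.trace ℂ _ (ρ a) = LinearMap.trace ℂ _ (ρ 1)
    rw [h3]

end Cfsg.Agent.S1487
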