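import Cfsg.Statements.S1488
import Mathlib
set_option linter.all false
-- import your own Cfsg.Agent.* helpers here

set_option autoImplicit false
open Cfsg

namespace Cfsg.Agent.S1488

/-- Sum over `G` of a function pulled back from `G ⧸ A`. -/
theorem sum_comp_mk {G : Type*} [Group G] [Fintype G] (A : Subgroup G) [A.Normal]
    [Fintype (G ⧸ A)] (F : G ⧸ A → ℂ) :
    ∑ x : G, F (QuotientGroup.mk' A x) = (Nat.card A : ℂ) * ∑ y : G ⧸ A, F y := by
  classical
  have h1 : ∑ x : G, F (QuotientGroup.mk' A x)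
      = ∑ p : (G ⧸ A) × A, F p.1 := by
    refine Fintype.sum_equiv (Subgroup.groupEquivQuotientProdSubgroup (s := A)) _ _ ?_
    intro x
    rfl
  rw [h1, Fintype.sum_prod_type]
  simp [Finset.mul_sum]

theorem ext_apply_mem {G : Type*} [Group G] (H : Subgroup G) (θ : H → ℂ) (y : G) (hy : y ∈ H) :
    extendByZero H θ y = θ ⟨y, hy⟩ := by
  change Function.extend (Subtype.val : H → G) θ 0 y = _
  exact Subtype.val_injective.extend_apply θ 0 (⟨y, hy⟩ : H)

theorem ext_apply_not_mem {G : Type*} [Group G] (H : Subgroup G) (θ : H → ℂ) (y : G)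
    (hy : y ∉ H) : extendByZero H θ y = 0 := by
  change Function.extend (Subtype.val : H → G) θ 0 y = _
  rw [Function.extend_apply']
  · rfl
  · rintro ⟨a, rfl⟩
    exact hy a.2

/-- Let A be a normal subgroup of the finite group G contained in the subgroup H, let θ be a function on H and θ₁ a function on the image of H in G ⧸ A whose composite with the projection is θ. Then the function induced from θ₁ to G ⧸ A, composed with the projection G → G ⧸ A, equals the function induced from θ to G. -/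
theorem result {G : Type*} [Group G] [Fintype G] (A H : Subgroup G) [A.Normal] (hAH : A ≤ H) [Fintype (G ⧸ A)] [Fintype ↥(H.map (QuotientGroup.mk' A))] (θ : H → ℂ) (θ₁ : ↥(H.map (QuotientGroup.mk' A)) → ℂ) (hθ : ∀ x : H, θ₁ ⟨QuotientGroup.mk' A x, Subgroup.mem_map_of_mem _ x.2⟩ = θ x) (g : G) : Cfsg.indFun (H.map (QuotientGroup.mk' A)) θ₁ (QuotientGroup.mk' A g) = Cfsg.indFun H θ g := by
  classical
  have hmem : ∀ y : G, QuotientGroup.mk' A y ∈ H.map (QuotientGroup.mk' A) ↔ y ∈ H := by
    intro y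
    have h := Subgroup.mem_comap (f := QuotientGroup.mk' A) (K := H.map (QuotientGroup.mk' A)) (x := y)
    rw [← h, Subgroup.comap_map_eq, QuotientGroup.ker_mk', sup_eq_left.mpr hAH]
  have hext : ∀ y : G, extendByZero H θ y
      = extendByZero (H.map (QuotientGroup.mk' A)) θ₁ (QuotientGroup.mk' A y) := by
    intro y
    by_cases hy : y ∈ H
    · rw [ext_apply_mem H θ y hy, ext_apply_mem _ θ₁ _ ((hmem y).2 hy)]
      exact (hθ ⟨y, hy⟩).symm
    · rw [ext_apply_not_mem H θ y hy, ext_apply_not_mem _ θ₁ _ (fun h => hy ((hmem y).1 h))]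
  have hcard : (Nat.card H : ℂ) = (Nat.card A : ℂ) * (Nat.card (H.map (QuotientGroup.mk' A)) : ℂ) := by
    have h1 : (Nat.card H : ℂ) = ∑ x : G, (if x ∈ H then (1 : ℂ) else 0) := by
      rw [Finset.sum_boole, Nat.card_eq_fintype_card, Fintype.card_subtype]
    have h2 : (Nat.card (H.map (QuotientGroup.mk' A)) : ℂ)
        = ∑ x : G ⧸ A, (if x ∈ H.map (QuotientGroup.mk' A) then (1 : ℂ) else 0) := by
      rw [Finset.sum_boole, Nat.card_eq_fintype_card, Fintype.card_subtype]
    rw [h1, h2, ← sum_comp_mk A]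
    refine Finset.sum_congr rfl fun x _ => ?_
    simp only [hmem]
  have hA0 : (Nat.card A : ℂ) ≠ 0 := by
    exact_mod_cast Nat.card_pos.ne'
  have hB0 : (Nat.card (H.map (QuotientGroup.mk' A)) : ℂ) ≠ 0 := by
    exact_mod_cast Nat.card_pos.ne'
  have hL : Cfsg.indFun (H.map (QuotientGroup.mk' A)) θ₁ (QuotientGroup.mk' A g)
      = (Nat.card (H.map (QuotientGroup.mk' A)) : ℂ)⁻¹ *
        ∑ y : G ⧸ A, extendByZero (H.map (QuotientGroup.mk' A)) θ₁
          (y⁻¹ * (QuotientGroup.mk' A g) * y) := rfl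
  have hR : Cfsg.indFun H θ g = (Nat.card H : ℂ)⁻¹ *
      ∑ x : G, extendByZero H θ (x⁻¹ * g * x) := rfl
  have hsum : ∑ x : G, extendByZero H θ (x⁻¹ * g * x) = (Nat.card A : ℂ) *
      ∑ y : G ⧸ A, extendByZero (H.map (QuotientGroup.mk' A)) θ₁
          (y⁻¹ * (QuotientGroup.mk' A g) * y) := by
    rw [← sum_comp_mk A]
    refine Finset.sum_congr rfl fun x _ => ?_
    rw [hext]
    simp only [map_mul, map_inv]
  rw [hL, hR, hsum, hcard]
  field_simp

end Cfsg.Agent.S1488
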