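import Cfsg.Statements.S1493
import Cfsg.Agent.OddOrderCharacters.GaloisTwist
set_option linter.all false

set_option autoImplicit false
open Cfsg

namespace Cfsg.Agent.S1493

/-- Let G be a finite group of order a * b with a and b coprime, let k be coprime to a, and let χ be a character of G. Then there is a character χ' of G such that χ'(g) = χ(g ^ k) whenever the order of g divides a and χ'(g) = χ(g) whenever the order of g is coprime to a; moreover χ' is irreducible if χ is. -/
theorem result {G : Type*} [Group G] [Finite G] (a b k : ℕ) (hab : Nat.card G = a * b) (hcop : Nat.Coprime a b) (hk : Nat.Coprime k a) (χ : G → ℂ) (hχ : Cfsg.IsCharacter G χ) : ∃ χ' : G → ℂ, Cfsg.IsCharacter G χ' ∧ (Cfsg.IsIrrCharacter G χ → Cfsg.IsIrrCharacter G χ') ∧ (∀ g : G, orderOf g ∣ a → χ' g = χ (g ^ k)) ∧ (∀ g : G, Nat.Coprime (orderOf g) a → χ' g = χ g) := by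
  obtain ⟨m, hma, hmb⟩ := Nat.chineseRemainder hcop k 1
  have hmcop : m.Coprime (Nat.card G) := by
    rw [hab]
    refine Nat.Coprime.mul_right ?_ ?_
    · rw [Nat.coprime_iff_gcd_eq_one] at hk ⊢
      rw [hma.gcd_eq, hk]
    · rw [Nat.coprime_iff_gcd_eq_one, hmb.gcd_eq, Nat.gcd_one_left]
  obtain ⟨σ, hσ⟩ := Cfsg.Agent.Characters.Galois.exists_ringEquiv_complex
    (Nat.card_pos (α := G)).ne' hmcop
  have hval : ∀ g : G, σ (χ g) = χ (g ^ m) := fun g =>
    OddOrderCharacters.GaloisTwist.map_apply σ Nat.card_pos.ne' hσ hχ g pow_card_eq_one'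
  refine ⟨fun g => σ (χ g), OddOrderCharacters.GaloisTwist.isCharacter_map σ hχ,
    OddOrderCharacters.GaloisTwist.isIrrCharacter_map σ, ?_, ?_⟩
  · intro g hg
    show σ (χ g) = χ (g ^ k)
    rw [hval]
    congr 1
    exact pow_eq_pow_iff_modEq.2 (hma.of_dvd hg)
  · intro g hg
    show σ (χ g) = χ g
    rw [hval]
    congr 1
    have hdvd : orderOf g ∣ b := by
      have h1 : orderOf g ∣ a * b := by
        rw [← hab]
        exact orderOf_dvd_natCard g
      exact hg.dvd_of_dvd_mul_left h1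
    have h2 : g ^ m = g ^ 1 := pow_eq_pow_iff_modEq.2 (hmb.of_dvd hdvd)
    rw [h2, pow_one]

end Cfsg.Agent.S1493
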