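import Cfsg.Statements.S1497
set_option linter.all false

set_option autoImplicit false
open Cfsg

namespace Cfsg.Agent.S1497

/-- Let A be a nonempty subset of the finite group G not containing 1 and L a subgroup. Then A is a TI-subset whose normaliser is L if and only if the Dade hypothesis holds for A, L and the constant choice H(a) = ⊥. -/
theorem result {G : Type*} [Group G] [Finite G] (A : Set G) (hA : A.Nonempty) (h1 : (1 : G) ∉ A) (L : Subgroup G) : (Cfsg.IsTISubset A ∧ Subgroup.normalizer A = L) ↔ Cfsg.DadeHypothesis A L (fun _ => ⊥) := by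
  constructor
  · rintro ⟨hTI, rfl⟩
    have key : ∀ a ∈ A, ∀ g : G, g * a * g⁻¹ ∈ A → g ∈ Subgroup.normalizer A := by
      intro a ha g hg
      by_contra hn
      exact h1 ((hTI g hn a ha hg) ▸ ha)
    have hcent : ∀ a ∈ A, Subgroup.centralizer ({a} : Set G) ≤ Subgroup.normalizer A := by
      intro a ha c hc
      apply key a ha
      rw [Subgroup.mem_centralizer_singleton_iff] at hc
      rw [hc]
      simpa using ha
    refine ⟨h1, ?_, ?_, ?_, ?_, ?_, ?_, ?_, ?_⟩
    · intro a ha
      exact key a ha a (by simpa using ha)
    · intro x hx a ha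
      exact (Subgroup.mem_set_normalizer_iff.mp hx a).mp ha
    · intro a ha g hg
      exact ⟨g, key a ha g hg, rfl⟩
    · intro a ha
      exact bot_le
    · intro a ha c hc u hu
      rw [Subgroup.mem_bot] at hu ⊢
      simp [hu]
    · intro a ha
      exact bot_inf_eq _
    · intro a ha
      rw [bot_sup_eq]
      exact inf_eq_right.mpr (hcent a ha)
    · intro a ha b hb
      simp
  · intro hD
    have hLN : L ≤ Subgroup.normalizer A := by
      intro x hx
      rw [Subgroup.mem_set_normalizer_iff]
      intro h
      constructor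
      · intro hh
        exact hD.conj_mem x hx h hh
      · intro hh
        have := hD.conj_mem x⁻¹ (L.inv_mem hx) _ hh
        simpa [mul_assoc] using this
    have key : ∀ a ∈ A, ∀ g : G, g * a * g⁻¹ ∈ A → g ∈ L := by
      intro a ha g hg
      obtain ⟨x, hx, hxe⟩ := hD.fusion a ha g hg
      have hc : x⁻¹ * g ∈ Subgroup.centralizer ({a} : Set G) := by
        rw [Subgroup.mem_centralizer_singleton_iff]
        calc x⁻¹ * g * a = x⁻¹ * (g * a * g⁻¹) * g := by group
          _ = x⁻¹ * (x * a * x⁻¹) * g := by rw [hxe]
          _ = a * (x⁻¹ * g) := by group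
      have hs := hD.sup_eq a ha
      rw [bot_sup_eq] at hs
      rw [← hs] at hc
      have := L.mul_mem hx hc.1
      simpa using this
    refine ⟨?_, le_antisymm ?_ hLN⟩
    · intro g hg a ha hga
      exact absurd (hLN (key a ha g hga)) hg
    · intro g hg
      obtain ⟨a, ha⟩ := hA
      exact key a ha g ((Subgroup.mem_set_normalizer_iff.mp hg a).mp ha)

end Cfsg.Agent.S1497
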