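import Cfsg.Statements.S1503
import Mathlib
import Cfsg.Agent.OddOrderCharacters.CyclicTIAlpha
set_option linter.all false

set_option autoImplicit false
open Cfsg

namespace Cfsg.Agent.S1503

open scoped ComplexConjugate
open Cfsg.Agent.OddOrderCharacters.CyclicTI Cfsg.Agent.OddOrderCharacters.CyclicTIAlpha

/-- Let W₁, W₂ ≤ G with W = W₁ ⊔ W₂ and let χ an orthonormal family of irreducible characters of G up to sign, indexed by the linear characters ω of W, with χ_1 = 1, χ_ω = ω on W outside W₁ ∪ W₂, and the induction identity for (1 − φ)(1 − ψ). If θ is an irreducible character of G orthogonal to χ ω for every linear character ω of W, then θ vanishes at every element of W lying outside W₁ ∪ W₂. -/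
theorem result {G : Type*} [Group G] [Fintype G] (W₁ W₂ : Subgroup G) (hW : Cfsg.IsSelfNormalizingCyclic W₁ W₂) (χ : (↥(W₁ ⊔ W₂) →* ℂˣ) → (G → ℂ)) (hχ : Cfsg.IsCyclicTIFamily W₁ W₂ χ) (θ : G → ℂ) (hθ : Cfsg.IsIrrCharacter G θ) (horth : ∀ ω, Cfsg.classInner θ (χ ω) = 0) (w : ↥(W₁ ⊔ W₂)) (hw₁ : (w : G) ∉ W₁) (hw₂ : (w : G) ∉ W₂) : θ w = 0 := by
  classical
  have hcl : IsClassFunction G θ := by
    obtain ⟨n, ρ, -, rfl⟩ := hθ
    intro g h
    exact ρ.char_conj g h
  refine vanishes_of_orthogonal W₁ W₂ hW θ hcl ?_ w hw₁ hw₂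
  intro φ ψ hφ1 hψ1 hφ hψ
  rw [hχ.induced_eq φ ψ hφ1 hψ1 hφ hψ]
  have h0 : ∀ ω, classInner (χ ω) θ = 0 := by
    intro ω
    rw [← ci_conj_symm, horth, map_zero]
  have h1 : (fun _ : G => (1 : ℂ)) = χ 1 := hχ.map_one.symm
  have h2 : (fun g => 1 - χ φ g - χ ψ g + χ (φ * ψ) g) =
      fun g => χ 1 g - χ φ g - χ ψ g + χ (φ * ψ) g := by
    rw [← h1]
  rw [h2, ci_add_left, ci_sub_left, ci_sub_left, h0, h0, h0, h0]
  simp

end Cfsg.Agent.S1503
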