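import Cfsg.Statements.S1504
import Mathlib
import Cfsg.Agent.OddOrderCharacters.CyclicTIAlpha
set_option linter.all false

set_option autoImplicit false
open Cfsg

namespace Cfsg.Agent.S1504

open scoped ComplexConjugate
open Cfsg.Agent.OddOrderCharacters.CyclicTI Cfsg.Agent.OddOrderCharacters.CyclicTIAlpha

/-- Let W₁, W₂ be subgroups of a finite group with W₁ ⊓ W₂ = ⊥ whose elements commute, and W = W₁ ⊔ W₂. For linear characters φ, ψ of W with φ trivial on W₂ and ψ trivial on W₁, the function (1 − φ)(1 − ψ) vanishes on W₁ ∪ W₂; and the family of these functions, indexed by pairs (φ, ψ) with φ ≠ 1 ≠ ψ, is linearly independent over ℂ. -/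
theorem result {G : Type*} [Group G] [Finite G] (W₁ W₂ : Subgroup G) (hdisj : W₁ ⊓ W₂ = ⊥) (hcomm : ∀ a ∈ W₁, ∀ b ∈ W₂, a * b = b * a) : (∀ φ ψ : ↥(W₁ ⊔ W₂) →* ℂˣ, (∀ w : ↥(W₁ ⊔ W₂), (w : G) ∈ W₂ → φ w = 1) → (∀ w : ↥(W₁ ⊔ W₂), (w : G) ∈ W₁ → ψ w = 1) → ∀ w : ↥(W₁ ⊔ W₂), ((w : G) ∈ W₁ ∨ (w : G) ∈ W₂) → (1 - (φ w : ℂ) - (ψ w : ℂ) + (φ w : ℂ) * (ψ w : ℂ)) = 0) ∧ LinearIndependent ℂ (fun p : {p : (↥(W₁ ⊔ W₂) →* ℂˣ) × (↥(W₁ ⊔ W₂) →* ℂˣ) // p.1 ≠ 1 ∧ p.2 ≠ 1 ∧ (∀ w : ↥(W₁ ⊔ W₂), (w : G) ∈ W₂ → p.1 w = 1) ∧ (∀ w : ↥(W₁ ⊔ W₂), (w : G) ∈ W₁ → p.2 w = 1)} => fun w : ↥(W₁ ⊔ W₂) => 1 - (p.1.1 w : ℂ) - (p.1.2 w : ℂ) + (p.1.1 w : ℂ) * (p.1.2 w : ℂ)) := by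
  classical
  refine ⟨fun φ ψ hφ hψ w hw => alpha_eq_zero hφ hψ w hw, ?_⟩
  have : Fintype ↥(W₁ ⊔ W₂) := Fintype.ofFinite _
  rw [linearIndependent_iff']
  intro s c hc i hi
  have h1 : classInner (∑ j ∈ s, c j • fun w : ↥(W₁ ⊔ W₂) =>
      1 - (j.1.1 w : ℂ) - (j.1.2 w : ℂ) + (j.1.1 w : ℂ) * (j.1.2 w : ℂ))
      (fun w => (i.1.1 w : ℂ) * (i.1.2 w : ℂ)) = 0 := by
    rw [hc]
    simp [ci_def]
  have h2 : ∀ j, classInner (fun w : ↥(W₁ ⊔ W₂) =>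
      1 - (j.1.1 w : ℂ) - (j.1.2 w : ℂ) + (j.1.1 w : ℂ) * (j.1.2 w : ℂ))
      (fun w => (i.1.1 w : ℂ) * (i.1.2 w : ℂ)) = if j = i then 1 else 0 := by
    intro j
    rw [classInner_alpha_prod hcomm j.2.2.2.1 i.2.2.2.1 j.2.2.2.2 i.2.2.2.2]
    rw [if_neg (Ne.symm i.2.1), if_neg (Ne.symm i.2.2.1)]
    by_cases hji : j = i
    · subst hji
      simp
    · rw [if_neg hji]
      by_cases h3 : j.1.1 = i.1.1
      · have h4 : j.1.2 ≠ i.1.2 := fun h => hji (Subtype.ext (Prod.ext h3 h))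
        rw [if_neg h4]; ring
      · rw [if_neg h3]; ring
  have h3 : classInner (∑ j ∈ s, c j • fun w : ↥(W₁ ⊔ W₂) =>
      1 - (j.1.1 w : ℂ) - (j.1.2 w : ℂ) + (j.1.1 w : ℂ) * (j.1.2 w : ℂ))
      (fun w => (i.1.1 w : ℂ) * (i.1.2 w : ℂ)) =
      ∑ j ∈ s, c j * classInner (fun w : ↥(W₁ ⊔ W₂) =>
      1 - (j.1.1 w : ℂ) - (j.1.2 w : ℂ) + (j.1.1 w : ℂ) * (j.1.2 w : ℂ))
      (fun w => (i.1.1 w : ℂ) * (i.1.2 w : ℂ)) := by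
    simp only [ci_def, Finset.sum_apply, Pi.smul_apply, smul_eq_mul, Finset.sum_mul,
      Finset.mul_sum]
    rw [Finset.sum_comm]
    refine Finset.sum_congr rfl fun j _ => Finset.sum_congr rfl fun w _ => ?_
    ring
  rw [h3] at h1
  simp only [h2] at h1
  simpa [hi] using h1

end Cfsg.Agent.S1504
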