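import Cfsg.Statements.S1508
import Cfsg.Agent.OddOrderCharacters.CyclicTIUnique
import Cfsg.Agent.Characters.Galois
import Cfsg.Agent.OddOrderCharacters.ClassSum
set_option linter.all false
-- import your own Cfsg.Agent.* helpers here

set_option autoImplicit false
open Cfsg

namespace Cfsg.Agent.S1508

open Cfsg.Agent.OddOrderCharacters

theorem isIntegral_of_irr_or_neg {X : Type*} [Group X] [Finite X] {α : X → ℂ}
    (hα : Cfsg.IsIrrCharacter X α ∨ Cfsg.IsIrrCharacter X (-α)) (g : X) : IsIntegral ℤ (α g) := by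
  have key : ∀ β : X → ℂ, Cfsg.IsIrrCharacter X β → IsIntegral ℤ (β g) := by
    rintro β ⟨n, ρ, -, rfl⟩
    exact ClassSum.character_isIntegral ρ g
  rcases hα with h | h
  · exact key α h
  · have := (key _ h).neg
    rwa [Pi.neg_apply, neg_neg] at this

theorem map_irr_or_neg {X : Type*} [Group X] {α : X → ℂ}
    (hα : Cfsg.IsIrrCharacter X α ∨ Cfsg.IsIrrCharacter X (-α)) (σ : ℂ ≃+* ℂ) {n m : ℕ}
    (hn : n ≠ 0) (hσ : ∀ z : ℂ, z ^ n = 1 → σ z = z ^ m) (g : X) (hg : g ^ n = 1) :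
    σ (α g) = α (g ^ m) := by
  rcases hα with h | h
  · exact GaloisTwist.map_apply σ hn hσ (Cfsg.Agent.Characters.Core.isIrr_isCharacter h) g hg
  · have := GaloisTwist.map_apply σ hn hσ (Cfsg.Agent.Characters.Core.isIrr_isCharacter h) g hg
    rw [Pi.neg_apply, Pi.neg_apply, map_neg] at this
    exact neg_injective this

/-- Let W₁, W₂ ≤ G form a self-normalising cyclic subgroup W = W₁ ⊔ W₂ of odd order and χ an orthonormal family of irreducible characters of G up to sign, indexed by the linear characters ω of W, with χ_1 = 1, χ_ω = ω on W outside W₁ ∪ W₂, and the induction identity for (1 − φ)(1 − ψ). Let ω be a linear character of W and g an element of G whose order is coprime to the order of ω. Then χ ω g is an integer. -/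
theorem result {G : Type*} [Group G] [Fintype G] (W₁ W₂ : Subgroup G) (hW : Cfsg.IsSelfNormalizingCyclic W₁ W₂) (hodd : Odd (Nat.card ↥(W₁ ⊔ W₂))) (χ : (↥(W₁ ⊔ W₂) →* ℂˣ) → (G → ℂ)) (hχ : Cfsg.IsCyclicTIFamily W₁ W₂ χ) (ω : ↥(W₁ ⊔ W₂) →* ℂˣ) (g : G) (hg : Nat.Coprime (orderOf g) (orderOf ω)) : ∃ n : ℤ, χ ω g = n := by
  apply Cfsg.Agent.Characters.Galois.exists_int_of_forall_ringEquiv
  · exact isIntegral_of_irr_or_neg (hχ.irr_or_neg ω) g
  intro σ
  have hn : orderOf g ≠ 0 := (orderOf_pos g).ne'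
  have ha : orderOf ω ≠ 0 := by
    intro h0
    have hcard : Nat.card ↥(W₁ ⊔ W₂) ≠ 0 := Nat.card_pos.ne'
    have : orderOf ω ∣ Nat.card ↥(W₁ ⊔ W₂) := by
      apply orderOf_dvd_of_pow_eq_one
      apply MonoidHom.ext
      intro w
      change (ω w) ^ (Nat.card ↥(W₁ ⊔ W₂)) = 1
      rw [← map_pow, pow_card_eq_one', map_one]
    rw [h0, zero_dvd_iff] at this
    exact hcard this
  obtain ⟨m, hm, hσ⟩ := Cfsg.Agent.Characters.Galois.exists_pow_of_ringHom (σ : ℂ →+* ℂ) hn
  obtain ⟨k, hk₁, hk₂⟩ := Nat.chineseRemainder hg m 1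
  have hkg : k.Coprime (orderOf g) := by
    have := hk₁.gcd_eq
    rw [Nat.Coprime, this]; exact hm
  have hka : k.Coprime (orderOf ω) := by
    have := hk₂.gcd_eq
    rw [Nat.Coprime, this]; exact Nat.gcd_one_left _
  obtain ⟨τ, hτ⟩ := Cfsg.Agent.Characters.Galois.exists_ringEquiv_complex
    (mul_ne_zero hn ha) (hkg.mul_right hka)
  have hτn : ∀ z : ℂ, z ^ (orderOf g) = 1 → τ z = z ^ k := by
    intro z hz
    apply hτ
    rw [pow_mul, hz, one_pow]
  have h1 : σ (χ ω g) = χ ω (g ^ m) :=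
    map_irr_or_neg (hχ.irr_or_neg ω) σ hn hσ g (pow_orderOf_eq_one g)
  have h2 : τ (χ ω g) = χ ω (g ^ k) :=
    map_irr_or_neg (hχ.irr_or_neg ω) τ hn hτn g (pow_orderOf_eq_one g)
  have h3 : g ^ k = g ^ m := pow_eq_pow_iff_modEq.mpr hk₁
  have h4 : CyclicTIUnique.mapHom τ ω = ω := by
    apply MonoidHom.ext
    intro w
    apply Units.ext
    rw [CyclicTIUnique.mapHom_apply]
    have h5 : (ω w : ℂ) ^ (orderOf ω) = 1 := by
      have h6 : (ω ^ (orderOf ω)) w = 1 := by
        have h7 := pow_orderOf_eq_one ω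
        exact DFunLike.congr_fun h7 w
      rw [← Units.val_pow_eq_pow_val]
      exact congrArg Units.val h6
    rw [hτ _ (by rw [mul_comm, pow_mul, h5, one_pow])]
    have h6 : (ω w : ℂ) ^ k = (ω w : ℂ) ^ 1 := by
      apply pow_eq_pow_of_modEq _ h5
      exact hk₂
    rw [h6, pow_one]
  have h7 : τ (χ ω g) = χ ω g := by
    have := congrFun (CyclicTIUnique.map_family hW hodd hχ τ ω) g
    rw [h4] at this
    exact this
  rw [h1, ← h3, ← h2, h7]

end Cfsg.Agent.S1508
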