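import Cfsg.Statements.S1509
import Mathlib.Tactic
import Cfsg.Agent.Characters.Core
set_option linter.all false
-- import your own Cfsg.Agent.* helpers here

set_option autoImplicit false
open Cfsg

namespace Cfsg.Agent.S1509

open Cfsg.Agent.Characters.Core

/-- Two irreducible characters up to sign which are not orthogonal agree up to sign. -/
theorem eq_or_eq_neg_of_inner_ne_zero {X : Type*} [Group X] [Fintype X] {α β : X → ℂ}
    (hα : Cfsg.IsIrrCharacter X α ∨ Cfsg.IsIrrCharacter X (-α))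
    (hβ : Cfsg.IsIrrCharacter X β ∨ Cfsg.IsIrrCharacter X (-β))
    (h : Cfsg.classInner α β ≠ 0) : α = β ∨ α = -β := by
  by_contra hne
  push Not at hne
  apply h
  rcases hα with hα | hα <;> rcases hβ with hβ | hβ
  · exact classInner_irr_ne hα hβ hne.1
  · have := classInner_irr_ne hα hβ hne.2
    rwa [classInner_neg_right, neg_eq_zero] at this
  · have := classInner_irr_ne hα hβ (fun h1 => hne.2 (by rw [← h1, neg_neg]))
    rwa [classInner_neg_left, neg_eq_zero] at this
  · have := classInner_irr_ne hα hβ (fun h1 => hne.1 (neg_injective h1))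
    rwa [classInner_neg_left, classInner_neg_right, neg_neg] at this

theorem inner_self {X : Type*} [Group X] [Fintype X] {α : X → ℂ}
    (hα : Cfsg.IsIrrCharacter X α ∨ Cfsg.IsIrrCharacter X (-α)) :
    Cfsg.classInner α α = 1 := by
  rcases hα with hα | hα
  · exact classInner_irr_self hα
  · have := classInner_irr_self hα
    rwa [classInner_neg_left, classInner_neg_right, neg_neg] at this

theorem apply_one_ne_zero {X : Type*} [Group X] {α : X → ℂ}
    (hα : Cfsg.IsIrrCharacter X α ∨ Cfsg.IsIrrCharacter X (-α)) : α 1 ≠ 0 := by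
  rcases hα with hα | hα
  · obtain ⟨n, hn, h⟩ := isIrr_apply_one hα
    rw [h]; exact_mod_cast hn.ne'
  · obtain ⟨n, hn, h⟩ := isIrr_apply_one hα
    intro h0
    rw [Pi.neg_apply, h0, neg_zero] at h
    exact hn.ne' (by exact_mod_cast h.symm)

/-- The asymmetric core of the statement: one of the four products vanishes. -/
theorem core {X : Type*} [Group X] [Fintype X] (α β γ δ : X → ℂ) (hα : Cfsg.IsIrrCharacter X α ∨ Cfsg.IsIrrCharacter X (-α)) (hβ : Cfsg.IsIrrCharacter X β ∨ Cfsg.IsIrrCharacter X (-β)) (hγ : Cfsg.IsIrrCharacter X γ ∨ Cfsg.IsIrrCharacter X (-γ)) (hδ : Cfsg.IsIrrCharacter X δ ∨ Cfsg.IsIrrCharacter X (-δ)) (u v : ℝ) (hu : u ≠ 0) (hv : v ≠ 0) (hab : Cfsg.classInner α β = 0) (hcd : Cfsg.classInner γ δ = 0) (hmix : Cfsg.classInner (α - β) ((u : ℂ) • γ - (v : ℂ) • δ) = 0) (h1 : α 1 = β 1) (h2 : (u : ℂ) * γ 1 = (v : ℂ) * δ 1) : Cfsg.classInner α γ = 0 := by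
  by_contra hne
  have hu' : (u : ℂ) ≠ 0 := by exact_mod_cast hu
  have hv' : (v : ℂ) ≠ 0 := by exact_mod_cast hv
  rw [classInner_sub_left, classInner_sub_right, classInner_sub_right, classInner_smul_right,
    classInner_smul_right, classInner_smul_right, classInner_smul_right, Complex.conj_ofReal,
    Complex.conj_ofReal] at hmix
  have hγ1 := apply_one_ne_zero hγ
  have hγγ := inner_self hγ
  have hδδ := inner_self hδ
  -- α = ± γ
  have hαδ : classInner α δ = 0 := by
    rcases eq_or_eq_neg_of_inner_ne_zero hα hγ hne with h | h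
    · rw [h, hcd]
    · rw [h, classInner_neg_left, hcd, neg_zero]
  have hβγ : classInner β γ = 0 := by
    have hba : classInner β α = 0 := by
      rw [← classInner_conj_symm, hab, map_zero]
    rcases eq_or_eq_neg_of_inner_ne_zero hα hγ hne with h | h
    · rw [← h, hba]
    · have h' : γ = -α := by rw [h, neg_neg]
      rw [h', classInner_neg_right, hba, neg_zero]
  rw [hαδ, hβγ] at hmix
  have hβδ : classInner β δ ≠ 0 := by
    intro h
    rw [h] at hmix
    simp only [mul_zero, sub_zero] at hmix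
    rcases mul_eq_zero.mp hmix with h' | h'
    · exact hu' h'
    · exact hne h'
  have hfin : (u : ℂ) * γ 1 = 0 → False := by
    intro this
    rcases mul_eq_zero.mp this with h3 | h3
    · exact absurd h3 hu'
    · exact hγ1 h3
  rcases eq_or_eq_neg_of_inner_ne_zero hα hγ hne with h | h <;>
  rcases eq_or_eq_neg_of_inner_ne_zero hβ hδ hβδ with h' | h'
  · rw [h, h', hγγ, hδδ] at hmix
    rw [h, h'] at h1
    apply hfin
    linear_combination (-1/2 : ℂ) * (v : ℂ) * h1 + (1/2 : ℂ) * h2 + (1/2 : ℂ) * hmix * γ 1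
  · rw [h, h', classInner_neg_left, hγγ, hδδ] at hmix
    rw [h, h', Pi.neg_apply] at h1
    apply hfin
    linear_combination (1/2 : ℂ) * (v : ℂ) * h1 + (1/2 : ℂ) * h2 + (1/2 : ℂ) * hmix * γ 1
  · rw [h, h', classInner_neg_left, hγγ, hδδ] at hmix
    rw [h, h', Pi.neg_apply] at h1
    apply hfin
    linear_combination (-1/2 : ℂ) * (v : ℂ) * h1 + (1/2 : ℂ) * h2 - (1/2 : ℂ) * hmix * γ 1
  · rw [h, h', classInner_neg_left, classInner_neg_left, hγγ, hδδ] at hmix
    rw [h, h', Pi.neg_apply, Pi.neg_apply] at h1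
    apply hfin
    linear_combination (1/2 : ℂ) * (v : ℂ) * h1 + (1/2 : ℂ) * h2 - (1/2 : ℂ) * hmix * γ 1

/-- Let α, β, γ, δ be functions on a finite group X each of which is an irreducible character or the negative of one, and u, v nonzero real numbers. Suppose ⟨α, β⟩ = ⟨γ, δ⟩ = 0, ⟨α − β, uγ − vδ⟩ = 0, α 1 = β 1 and u γ 1 = v δ 1. Then also ⟨α, γ⟩ = ⟨α, δ⟩ = ⟨β, γ⟩ = ⟨β, δ⟩ = 0. -/
theorem result {X : Type*} [Group X] [Fintype X] (α β γ δ : X → ℂ) (hα : Cfsg.IsIrrCharacter X α ∨ Cfsg.IsIrrCharacter X (-α)) (hβ : Cfsg.IsIrrCharacter X β ∨ Cfsg.IsIrrCharacter X (-β)) (hγ : Cfsg.IsIrrCharacter X γ ∨ Cfsg.IsIrrCharacter X (-γ)) (hδ : Cfsg.IsIrrCharacter X δ ∨ Cfsg.IsIrrCharacter X (-δ)) (u v : ℝ) (hu : u ≠ 0) (hv : v ≠ 0) (hab : Cfsg.classInner α β = 0) (hcd : Cfsg.classInner γ δ = 0) (hmix : Cfsg.classInner (α - β) ((u : ℂ) • γ - (v : ℂ) • δ) = 0) (h1 : α 1 = β 1) (h2 : (u : ℂ) * γ 1 = (v : ℂ) * δ 1) : Cfsg.classInner α γ = 0 ∧ Cfsg.classInner α δ =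 0 ∧ Cfsg.classInner β γ = 0 ∧ Cfsg.classInner β δ = 0 := by
  have hba : classInner β α = 0 := by rw [← classInner_conj_symm, hab, map_zero]
  have hdc : classInner δ γ = 0 := by rw [← classInner_conj_symm, hcd, map_zero]
  have hmix1 : classInner (β - α) ((u : ℂ) • γ - (v : ℂ) • δ) = 0 := by
    rw [← neg_sub, classInner_neg_left, hmix, neg_zero]
  have hmix2 : classInner (α - β) ((v : ℂ) • δ - (u : ℂ) • γ) = 0 := by
    rw [← neg_sub ((u : ℂ) • γ), classInner_neg_right, hmix, neg_zero]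
  have hmix3 : classInner (β - α) ((v : ℂ) • δ - (u : ℂ) • γ) = 0 := by
    rw [← neg_sub, classInner_neg_left, hmix2, neg_zero]
  exact ⟨core α β γ δ hα hβ hγ hδ u v hu hv hab hcd hmix h1 h2,
    core α β δ γ hα hβ hδ hγ v u hv hu hab hdc hmix2 h1 h2.symm,
    core β α γ δ hβ hα hγ hδ u v hu hv hba hcd hmix1 h1.symm h2,
    core β α δ γ hβ hα hδ hγ v u hv hu hba hdc hmix3 h1.symm h2.symm⟩

end Cfsg.Agent.S1509
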