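import Cfsg.Statements.S1510
import Mathlib.GroupTheory.SpecificGroups.Cyclic
import Mathlib.GroupTheory.Complement
import Mathlib.GroupTheory.NoncommCoprod
import Mathlib.Tactic
set_option linter.all false
-- import your own Cfsg.Agent.* helpers here

set_option autoImplicit false
open Cfsg

namespace Cfsg.Agent.S1510

/-- Let L be a finite group with a normal subgroup K and a nontrivial cyclic subgroup W₁ of order coprime to its index, K ⊓ W₁ = ⊥ and K ⊔ W₁ = ⊤; let W₂ ≠ ⊥ be a cyclic subgroup of K with K ⊓ C_L(x) = W₂ for every non-identity x ∈ W₁, and suppose W₁ ⊔ W₂ has odd order. Then (W₁, W₂) is a self-normalising cyclic pair in L. -/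
theorem result {L : Type*} [Group L] [Fintype L] (K W₁ W₂ : Subgroup L) [hK : K.Normal] (hKW₁ : K ⊓ W₁ = ⊥) (hKW₁' : K ⊔ W₁ = ⊤) (hW₁ : W₁ ≠ ⊥) (hW₁c : IsCyclic W₁) (hHall : Nat.Coprime (Nat.card W₁) W₁.index) (hW₂ : W₂ ≠ ⊥) (hW₂c : IsCyclic W₂) (hW₂K : W₂ ≤ K) (hC : ∀ x ∈ W₁, x ≠ 1 → K ⊓ Subgroup.centralizer ({x} : Set L) = W₂) (hodd : Odd (Nat.card ↥(W₁ ⊔ W₂))) : Cfsg.IsSelfNormalizingCyclic W₁ W₂ := by
  have hinf : W₁ ⊓ W₂ = ⊥ := by
    rw [eq_bot_iff]
    intro x hx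
    rw [← hKW₁]
    exact ⟨hW₂K hx.2, hx.1⟩
  have hcomm : ∀ a ∈ W₁, ∀ b ∈ W₂, a * b = b * a := by
    intro a ha b hb
    by_cases h1 : a = 1
    · simp [h1]
    · have : b ∈ K ⊓ Subgroup.centralizer ({a} : Set L) := by rw [hC a ha h1]; exact hb
      exact (Subgroup.mem_centralizer_singleton_iff.mp this.2).symm
  have hcompl : Subgroup.IsComplement' W₁ K := by
    apply Subgroup.isComplement'_of_disjoint_and_mul_eq_univ
    · rw [disjoint_iff, inf_comm]; exact hKW₁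
    · rw [← Subgroup.mul_normal, sup_comm, hKW₁']; rfl
  have hcard : W₁.index = Nat.card K := hcompl.symm.index_eq_card
  have hcop : Nat.Coprime (Nat.card W₁) (Nat.card W₂) := by
    rw [hcard] at hHall
    exact Nat.Coprime.coprime_dvd_right (Subgroup.card_dvd_of_le hW₂K) hHall
  have hcm : ∀ (a : W₁) (b : W₂), Commute (W₁.subtype a) (W₂.subtype b) :=
    fun a b => hcomm a a.2 b b.2
  have hrange : (MonoidHom.noncommCoprod W₁.subtype W₂.subtype hcm).range = W₁ ⊔ W₂ := by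
    rw [MonoidHom.noncommCoprod_range, Subgroup.range_subtype, Subgroup.range_subtype]
  have hmem : ∀ w ∈ W₁ ⊔ W₂, ∃ a ∈ W₁, ∃ b ∈ W₂, a * b = w := by
    intro w hw
    rw [← hrange] at hw
    obtain ⟨⟨a, b⟩, rfl⟩ := hw
    exact ⟨a, a.2, b, b.2, rfl⟩
  have hcyc : IsCyclic ↥(W₁ ⊔ W₂) := by
    have : IsCyclic (W₁ × W₂) := Group.isCyclic_prod_iff.mpr ⟨hW₁c, hW₂c, hcop⟩
    rw [← hrange]
    exact isCyclic_of_surjective _ (MonoidHom.rangeRestrict_surjective _)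
  refine ⟨hW₁, hW₂, hinf, hcomm, hcyc, ?_⟩
  intro X hX hXne
  have habel : ∀ a ∈ W₁ ⊔ W₂, ∀ b ∈ W₁ ⊔ W₂, a * b = b * a := by
    intro a ha b hb
    letI := IsCyclic.commGroup (α := ↥(W₁ ⊔ W₂))
    have := mul_comm (⟨a, ha⟩ : ↥(W₁ ⊔ W₂)) ⟨b, hb⟩
    exact congrArg Subtype.val this
  apply le_antisymm
  · intro g hg
    obtain ⟨x, hx⟩ := hXne
    have hxW := hX hx
    have hy : g * x * g⁻¹ ∈ X := (hg x).mp hx
    have hyW := hX hy
    obtain ⟨a, ha, b, hb, hab⟩ := hmem x hxW.1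
    obtain ⟨a', ha', b', hb', hab'⟩ := hmem (g * x * g⁻¹) hyW.1
    have ha1 : a ≠ 1 := by
      rintro rfl
      apply hxW.2
      right
      rw [← hab, one_mul]; exact hb
    have hpow : ∀ c ∈ W₂, c ^ (Nat.card W₂) = 1 := by
      intro c hc
      have := pow_card_eq_one' (G := W₂) (x := ⟨c, hc⟩)
      exact congrArg Subtype.val this
    have hxn : x ^ (Nat.card W₂) = a ^ (Nat.card W₂) := by
      rw [← hab, (show Commute a b from hcomm a ha b hb).mul_pow, hpow b hb, mul_one]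
    have hyn : (g * x * g⁻¹) ^ (Nat.card W₂) = a' ^ (Nat.card W₂) := by
      rw [← hab', (show Commute a' b' from hcomm a' ha' b' hb').mul_pow, hpow b' hb', mul_one]
    have hcne : a ^ (Nat.card W₂) ≠ 1 := by
      intro h
      apply ha1
      have h2 : a ^ (Nat.card W₁) = 1 := by
        have := pow_card_eq_one' (G := W₁) (x := ⟨a, ha⟩)
        exact congrArg Subtype.val this
      have h3 : orderOf a ∣ Nat.gcd (Nat.card W₁) (Nat.card W₂) :=
        Nat.dvd_gcd (orderOf_dvd_of_pow_eq_one h2) (orderOf_dvd_of_pow_eq_one h)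
      rw [hcop] at h3
      exact orderOf_eq_one_iff.mp (Nat.dvd_one.mp h3)
    set c := a ^ (Nat.card W₂) with hc
    have hcW : c ∈ W₁ := W₁.pow_mem ha _
    have hgc : g * c * g⁻¹ ∈ W₁ := by
      rw [← hxn, ← conj_pow, hyn]
      exact W₁.pow_mem ha' _
    -- write g = w * k
    have hgtop : g ∈ (↑(W₁ ⊔ K) : Set L) := by
      rw [sup_comm, hKW₁']; trivial
    rw [Subgroup.mul_normal] at hgtop
    obtain ⟨w, hw, k, hk, rfl⟩ := Set.mem_mul.mp hgtop
    have hkc : k * c * k⁻¹ ∈ W₁ := by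
      have : k * c * k⁻¹ = w⁻¹ * (w * k * c * (w * k)⁻¹) * w := by group
      rw [this]
      exact W₁.mul_mem (W₁.mul_mem (W₁.inv_mem hw) hgc) hw
    have hk1 : k * c * k⁻¹ * c⁻¹ = 1 := by
      rw [← Subgroup.mem_bot, ← hKW₁]
      refine ⟨?_, W₁.mul_mem hkc (W₁.inv_mem hcW)⟩
      have : k * c * k⁻¹ * c⁻¹ = k * (c * k⁻¹ * c⁻¹) := by group
      rw [this]
      exact K.mul_mem hk (hK.conj_mem _ (K.inv_mem hk) _)
    have hkcomm : k * c = c * k := by
      have h5 : k * c * k⁻¹ = c := mul_inv_eq_one.mp hk1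
      exact mul_inv_eq_iff_eq_mul.mp h5
    have hkW2 : k ∈ W₂ := by
      rw [← hC c hcW hcne]
      exact ⟨hk, Subgroup.mem_centralizer_singleton_iff.mpr hkcomm⟩
    exact (W₁ ⊔ W₂).mul_mem (Subgroup.mem_sup_left hw) (Subgroup.mem_sup_right hkW2)
  · have key : ∀ g ∈ W₁ ⊔ W₂, ∀ x ∈ X, g * x * g⁻¹ = x := by
      intro g hg x hx
      rw [habel g hg x (hX hx).1, mul_assoc, mul_inv_cancel, mul_one]
    intro g hg x
    constructor
    · intro hx
      rw [key g hg x hx]; exact hx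
    · intro hx
      have h1 := key g⁻¹ ((W₁ ⊔ W₂).inv_mem hg) _ hx
      have h2 : g⁻¹ * (g * x * g⁻¹) * g⁻¹⁻¹ = x := by group
      rw [h2] at h1
      rw [h1]; exact hx

end Cfsg.Agent.S1510
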