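import Cfsg.Statements.S1511
import Cfsg.Agent.OddOrderCharacters.PrimeTI
import Cfsg.Agent.OddOrderCharacters.PrimeTIGroup
set_option linter.all false
-- import your own Cfsg.Agent.* helpers here

set_option autoImplicit false
open Cfsg

namespace Cfsg.Agent.S1511

open Cfsg.Agent.OddOrderCharacters.PrimeTI Cfsg.Agent.OddOrderCharacters.PrimeTIGroup

/-- Let L be a finite group with K normal with complement W₁ ≠ 1 a cyclic Hall subgroup, and W₂ ≠ 1 a cyclic subgroup of K equal to C_K(x) for every non-identity x ∈ W₁, with W₁W₂ of odd order. Then there are a map μ from the linear characters of W = W₁ ⊔ W₂ to irreducible characters of L, injective, and a sign δ(ω) ∈ {1, −1} depending only on the values of ω on W₂, such that: for ω, ω' agreeing on W₂, the function induced to L from ω − ω' equals δ(ω) • (μ ω − μ ω');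 μ ω x = δ(ω) ω x for x ∈ W outside W₂; every irreducible character of L not of the form μ ω vanishes on W outside W₂; and μ ω 1 − δ(ω) is an integer multiple of Nat.card W₁. -/
theorem result {L : Type*} [Group L] [Fintype L] (K W₁ W₂ : Subgroup L) [hK : K.Normal] (hKW₁ : K ⊓ W₁ = ⊥) (hKW₁' : K ⊔ W₁ = ⊤) (hW₁ : W₁ ≠ ⊥) (hW₁c : IsCyclic W₁) (hHall : Nat.Coprime (Nat.card W₁) W₁.index) (hW₂ : W₂ ≠ ⊥) (hW₂c : IsCyclic W₂) (hW₂K : W₂ ≤ K) (hC : ∀ x ∈ W₁, x ≠ 1 → K ⊓ Subgroup.centralizer ({x} : Set L) = W₂) (hodd : Odd (Nat.card ↥(W₁ ⊔ W₂))) : ∃ (μ : (↥(W₁ ⊔ W₂) →* ℂˣ) → (L → ℂ)) (δ : (↥(W₁ ⊔ W₂) →* ℂˣ) → ℂ), Function.Injective μ ∧ (∀ ω, Cfsg.IsIrrCharacter L (μ ω)) ∧ (∀ ω, δ ω = 1 ∨ δ ω = -1) ∧ (∀ ω ω' : ↥(W₁ ⊔ W₂) →* ℂˣ, (∀ w : ↥(W₁ ⊔ W₂), (w : L) ∈ W₂ → ω w = ω' w) → δ ω = δ ω' ∧ Cfsg.indFun (W₁ ⊔ W₂) (fun w => (ω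 w : ℂ) - (ω' w : ℂ)) = δ ω • (μ ω - μ ω')) ∧ (∀ ω, ∀ w : ↥(W₁ ⊔ W₂), (w : L) ∉ W₂ → μ ω w = δ ω * (ω w : ℂ)) ∧ (∀ θ : L → ℂ, Cfsg.IsIrrCharacter L θ → (∀ ω, θ ≠ μ ω) → ∀ w : ↥(W₁ ⊔ W₂), (w : L) ∉ W₂ → θ w = 0) ∧ (∀ ω, ∃ n : ℤ, μ ω 1 - δ ω = n * (Nat.card W₁ : ℂ)) := by
  have hcop := card_coprime K W₁ W₂ hKW₁ hKW₁' hHall hW₂K
  have h₁ : IsMulCommutative W₁ := ⟨⟨fun a b => by
    obtain ⟨g, hg⟩ := hW₁c.exists_generator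
    obtain ⟨m, rfl⟩ := Subgroup.mem_zpowers_iff.1 (hg a)
    obtain ⟨n, rfl⟩ := Subgroup.mem_zpowers_iff.1 (hg b)
    exact ((Commute.refl g).zpow_zpow m n).eq⟩⟩
  have h₂ : IsMulCommutative W₂ := ⟨⟨fun a b => by
    obtain ⟨g, hg⟩ := hW₂c.exists_generator
    obtain ⟨m, rfl⟩ := Subgroup.mem_zpowers_iff.1 (hg a)
    obtain ⟨n, rfl⟩ := Subgroup.mem_zpowers_iff.1 (hg b)
    exact ((Commute.refl g).zpow_zpow m n).eq⟩⟩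
  have hcomm : ∀ x ∈ W₁, ∀ y ∈ W₂, x * y = y * x := fun x hx y hy => commute_of_mem hC hx hy
  have hW : IsMulCommutative ↥(W₁ ⊔ W₂) := isMulCommutative_sup h₁ h₂ hcomm
  have hdisj : W₁ ⊓ W₂ = ⊥ := by
    rw [eq_bot_iff, ← hKW₁]
    exact fun x hx => ⟨hW₂K hx.2, hx.1⟩
  have hne : ∃ w ∈ W₁ ⊔ W₂, w ∉ W₂ := by
    obtain ⟨x, hx, hx1⟩ := (Subgroup.ne_bot_iff_exists_ne_one.1 hW₁ |>.imp fun x hx => hx :
      ∃ x : W₁, x ≠ 1) |> fun ⟨x, hx⟩ => (⟨x, x.2, fun h => hx (Subtype.ext h)⟩ :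
        ∃ x : L, x ∈ W₁ ∧ x ≠ 1)
    refine ⟨x, Subgroup.mem_sup_left hx, fun hx2 => hx1 ?_⟩
    have : x ∈ W₁ ⊓ W₂ := ⟨hx, hx2⟩
    rwa [hdisj, Subgroup.mem_bot] at this
  obtain ⟨μ, δ, h1, h2, h3, h4, h5, h6, h7⟩ := exists_exceptional hW
    (fun g w hw hw2 hg => mem_of_conj_mem K W₁ W₂ hKW₁ hKW₁' h₁ hcop hC g w hw hw2 hg) hne
  exact ⟨μ, δ, h1, h2, h3, h4, h5, h6, h7 W₁ le_sup_left hdisj⟩

end Cfsg.Agent.S1511
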