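import Cfsg.Statements.S1529
import Cfsg.Agent.OddOrderCharacters.FeitCoherence
set_option linter.all false

set_option autoImplicit false
open Cfsg Cfsg.Agent.Characters.Core Cfsg.Agent.OddOrderCharacters.FeitCoherence

namespace Cfsg.Agent.S1529

/-- Let N be a subgroup of the finite group G, S a set of irreducible characters of N with at least two members, and τ₁ a linear isometry on the integer combinations of S with virtual-character values such that τ₁ α vanishes at 1 whenever α ∈ ℤ[S] does. Then there is ε ∈ {1, −1} such that ε • τ₁ χ is an irreducible character of G for every χ ∈ S, and distinct members of S give distinct characters. -/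
theorem result {G : Type*} [Group G] [Fintype G] (N : Subgroup G) [Fintype N] (S : Set (N → ℂ)) (hirr : ∀ χ ∈ S, Cfsg.IsIrrCharacter N χ) (htwo : ∃ χ ∈ S, ∃ ψ ∈ S, χ ≠ ψ) (τ₁ : (N → ℂ) → (G → ℂ)) (hτ₁ : Cfsg.IsLinearIsometryOn (Cfsg.zspan S) τ₁) (h0 : ∀ α ∈ Cfsg.zspan S, α 1 = 0 → τ₁ α 1 = 0) : ∃ ε : ℂ, (ε = 1 ∨ ε = -1) ∧ (∀ χ ∈ S, Cfsg.IsIrrCharacter G (ε • τ₁ χ)) ∧ (∀ χ ∈ S, ∀ ψ ∈ S, τ₁ χ = τ₁ ψ → χ = ψ) := by
  classical
  have hgen : ∀ χ ∈ S, IsGeneralizedCharacter G (τ₁ χ) := fun χ hχ =>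
    hτ₁.2.2.2 χ (subset_zspan hχ)
  have hnorm : ∀ χ ∈ S, classInner (τ₁ χ) (τ₁ χ) = 1 := fun χ hχ => by
    rw [hτ₁.2.2.1 χ (subset_zspan hχ) χ (subset_zspan hχ)]
    exact classInner_irr_self (hirr χ hχ)
  have hrel : ∀ χ ∈ S, ∀ ψ ∈ S, ψ 1 * τ₁ χ 1 = χ 1 * τ₁ ψ 1 := by
    intro χ hχ ψ hψ
    obtain ⟨m, hm, hm'⟩ := isIrr_apply_one (hirr χ hχ)
    obtain ⟨n, hn, hn'⟩ := isIrr_apply_one (hirr ψ hψ)
    have hmem : ((n : ℤ) • χ - (m : ℤ) • ψ) ∈ zspan S :=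
      zspan_sub (zspan_zsmul _ (subset_zspan hχ)) (zspan_zsmul _ (subset_zspan hψ))
    have h := h0 _ hmem (by
      simp only [Pi.sub_apply, zsmul_apply_eq, hm', hn']
      push_cast
      ring)
    rw [isom_zsmul_sub_zsmul hτ₁ hχ hψ] at h
    simp only [Pi.sub_apply, zsmul_apply_eq] at h
    push_cast at h
    rw [hm', hn']
    exact sub_eq_zero.1 h
  have hinj : ∀ χ ∈ S, ∀ ψ ∈ S, τ₁ χ = τ₁ ψ → χ = ψ := by
    intro χ hχ ψ hψ h
    by_contra hne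
    have h1 := hτ₁.2.2.1 χ (subset_zspan hχ) ψ (subset_zspan hψ)
    rw [classInner_irr_ne (hirr χ hχ) (hirr ψ hψ) hne, ← h, hnorm χ hχ] at h1
    exact one_ne_zero h1
  obtain ⟨χ₀, hχ₀, -, -, -⟩ := htwo
  obtain ⟨ε, hε, hirr₀⟩ : ∃ ε : ℂ, (ε = 1 ∨ ε = -1) ∧ IsIrrCharacter G (ε • τ₁ χ₀) := by
    rcases isIrr_of_generalized (hgen χ₀ hχ₀) (hnorm χ₀ hχ₀) with h | h
    · exact ⟨1, Or.inl rfl, by rwa [one_smul]⟩
    · exact ⟨-1, Or.inr rfl, by rwa [neg_one_smul]⟩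
  refine ⟨ε, hε, fun ψ hψ => ?_, hinj⟩
  have hεε : ε * ε = 1 := by rcases hε with rfl | rfl <;> norm_num
  -- the two degrees have the same sign
  obtain ⟨m, hm, hm'⟩ := isIrr_apply_one (hirr χ₀ hχ₀)
  obtain ⟨n, hn, hn'⟩ := isIrr_apply_one (hirr ψ hψ)
  obtain ⟨k, hk, hk'⟩ := isIrr_apply_one hirr₀
  have hr := hrel χ₀ hχ₀ ψ hψ
  rw [hm', hn'] at hr
  simp only [Pi.smul_apply, smul_eq_mul] at hk'
  have hr' : (m : ℂ) * (ε * τ₁ ψ 1) = n * k := by
    rw [← hk']; linear_combination (-ε) * hr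
  rcases isIrr_of_generalized (hgen ψ hψ) (hnorm ψ hψ) with h | h
  · rcases hε with rfl | rfl
    · rwa [one_smul]
    · exfalso
      obtain ⟨l, hl, hl'⟩ := isIrr_apply_one h
      rw [hl'] at hr'
      have : ((m : ℤ) : ℂ) * (-1 * (l : ℤ)) = ((n : ℤ) : ℂ) * ((k : ℤ) : ℂ) := by
        push_cast; exact hr'
      have h2 : (m : ℤ) * (-1 * l) = n * k := by exact_mod_cast this
      have h3 : 0 < (m : ℤ) * l := by positivity
      have h4 : 0 < (n : ℤ) * k := by positivity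
      linarith
  · rcases hε with rfl | rfl
    · exfalso
      obtain ⟨l, hl, hl'⟩ := isIrr_apply_one h
      rw [Pi.neg_apply] at hl'
      have hl'' : τ₁ ψ 1 = -(l : ℂ) := by rw [← hl', neg_neg]
      rw [hl''] at hr'
      have : ((m : ℤ) : ℂ) * (1 * (-(l : ℤ))) = ((n : ℤ) : ℂ) * ((k : ℤ) : ℂ) := by
        push_cast; exact hr'
      have h2 : (m : ℤ) * (1 * (-l)) = n * k := by exact_mod_cast this
      have h3 : 0 < (m : ℤ) * l := by positivity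
      have h4 : 0 < (n : ℤ) * k := by positivity
      linarith
    · rwa [neg_one_smul]

end Cfsg.Agent.S1529
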