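import Cfsg.Statements.S1532
import Cfsg.Agent.OddOrderCharacters.SibleyCentral_mg
set_option linter.all false

set_option autoImplicit false
open Cfsg

namespace Cfsg.Agent.S1532

/-- Let G be a finite group, p an odd prime and P a Sylow p-subgroup that is non-abelian, whose underlying set is a TI-subset of G, with P properly contained in its set normaliser N and C_G(x) ≤ P for every non-identity x ∈ P. Let Z be a nontrivial subgroup of the centre of P normalised by N. Then the set of irreducible characters χ of N with χ z ≠ χ 1 for some z ∈ Z is coherent for the map induced by induction from N to G. -/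
theorem result {G : Type*} [Group G] [Fintype G] (p : ℕ) [Fact p.Prime] (hp : p ≠ 2) (P : Sylow p G) (hna : ¬ IsMulCommutative (P : Subgroup G)) (hTI : Cfsg.IsTISubset ((P : Subgroup G) : Set G)) (hlt : (P : Subgroup G) < Subgroup.normalizer ((P : Subgroup G) : Set G)) (hC : ∀ k ∈ (P : Subgroup G), k ≠ 1 → Subgroup.centralizer ({k} : Set G) ≤ (P : Subgroup G)) [Fintype ↥(Subgroup.normalizer ((P : Subgroup G) : Set G))] (Z : Subgroup G) (hZ1 : Z ≠ ⊥) (hZP : ∀ z ∈ Z, z ∈ (P : Subgroup G) ∧ ∀ y ∈ (P : Subgroup G), z * y = y * z) (hZn : ∀ x ∈ Subgroup.normalizer ((P : Subgroup G) : Set G), ∀ z ∈ Z, x * z * x⁻¹ ∈ Z) : Cfsg.IsCoherent {χ : ↥(Subgroup.normalizer ((P : Subgroup G) : Set G)) → ℂ | Cfsg.IsIrrCharacter ↥(Subgroup.normalizer ((P : Subgroup G) : Set G)) χ ∧ ∃ z : ↥(Subgroup.normalizer ((P : Subgroup G) : Set G)), (z : G) ∈ Z ∧ χ z ≠ χ 1} {1}ᶜ (fun α => Cfsg.indFun (Subgroup.normalizer ((P : Subgroup G) : Set G)) α) := by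
  have hp1 : p.Prime := Fact.out
  have hodd : Odd (Nat.card (Subgroup.normalizer ((P : Subgroup G) : Set G))) := by
    refine Cfsg.Agent.OddOrderCharacters.SibleyGroup.odd_card_normalizer (P : Subgroup G) ?_ hC ?_
    · obtain ⟨n, hn⟩ := IsPGroup.iff_card.1 P.isPGroup'
      rw [hn]
      exact (hp1.odd_of_ne_two hp).pow
    · intro h
      exact hna ⟨⟨fun a b => Subtype.ext (h a a.2 b b.2)⟩⟩
  have he : ((P : Subgroup G).subgroupOf
      (Subgroup.normalizer ((P : Subgroup G) : Set G))).index.Coprime p := by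
    have h1 : ((P : Subgroup G).subgroupOf
        (Subgroup.normalizer ((P : Subgroup G) : Set G))).index ∣ (P : Subgroup G).index :=
      Subgroup.relIndex_dvd_index_of_le Subgroup.le_normalizer
    exact Nat.Coprime.coprime_dvd_left h1
      (((Nat.Prime.coprime_iff_not_dvd hp1).2 P.not_dvd_index).symm)
  exact Cfsg.Agent.OddOrderCharacters.SibleyCentral.isCoherent_nonKer_central (P : Subgroup G) p hp
    P.isPGroup' hTI hC hodd he Z hZ1 hZP hZn

end Cfsg.Agent.S1532
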