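import Cfsg.Agent.OddOrderCharacters.TypeExclusive
import Cfsg.Prelude.Def_OddOrderChar
import Cfsg.Agent.S1391
import Cfsg.Agent.S1355
import Cfsg.Statements.S1537
import Cfsg.Agent.Prune
set_option linter.all false
open scoped Cfsg.Agent.FastGrp

-- part: OddOrderCharacters/DadeMaximal
section
/-!
The Dade hypothesis for `A₁(M)`, `A(M)`, `A₀(M)` of a maximal subgroup `M` of a minimal simple group of odd
order, from the tame embedding statement S1391 and `1 ≠ M_F ≤ M_σ ≤ M'` (S1355).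
-/

set_option autoImplicit false

namespace Cfsg.Agent.OddOrderCharacters.DadeMaximal

open Cfsg Cfsg.Agent.OddOrderCharacters.TypeSetsBasic Cfsg.Agent.OddOrderCharacters.TypeExclusive

universe u

variable {G : Type u} [Group G] [Finite G]

/-- `M_F ≤ M'` for maximal `M`. -/
theorem fittingHallOf_le_commutator (hG : IsMinSimpleOddOrder G) {M : Subgroup G}
    (hM : IsCoatom M) : fittingHallOf M ≤ ⁅M, M⁆ :=
  have h := Cfsg.Agent.S1355.result hG M hM
  h.2.1.trans h.2.2.1

theorem fittingHallOf_ne_bot (hG : IsMinSimpleOddOrder G) {M : Subgroup G}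
    (hM : IsCoatom M) : fittingHallOf M ≠ ⊥ :=
  (Cfsg.Agent.S1355.result hG M hM).1

theorem typeCore_le_commutator (hG : IsMinSimpleOddOrder G) {M : Subgroup G}
    (hM : IsCoatom M) : typeCore M ≤ ⁅M, M⁆ := by
  rcases typeCore_eq M with h | h <;> rw [h]
  exact fittingHallOf_le_commutator hG hM

theorem fittingHallOf_le_typeCore (hG : IsMinSimpleOddOrder G) {M : Subgroup G}
    (hM : IsCoatom M) : fittingHallOf M ≤ typeCore M := by
  rcases typeCore_eq M with h | h <;> rw [h]
  exact fittingHallOf_le_commutator hG hM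

theorem typeA1_subset_typeA (hG : IsMinSimpleOddOrder G) {M : Subgroup G}
    (hM : IsCoatom M) : typeA1 M ⊆ typeA M := by
  intro a ha
  rw [mem_typeA1] at ha
  by_cases hI : IsOfTypeI M
  · rw [mem_typeA_of_I hI]
    exact ⟨typeCore_le M ha.1, ha.2, a, typeCore_of_I hI ▸ ha.1, ha.2, rfl⟩
  · rw [mem_typeA_of_not_I hI]
    exact ⟨typeCore_le_commutator hG hM ha.1, ha.2, a, ha.1, ha.2, rfl⟩

/-- Any of the three sets contains a non-identity element. -/
theorem exists_mem_typeA1 (hG : IsMinSimpleOddOrder G) {M : Subgroup G} (hM : IsCoatom M) :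
    ∃ a ∈ typeA1 M, a ≠ 1 := by
  obtain ⟨⟨x, hx⟩, hx1⟩ := Subgroup.ne_bot_iff_exists_ne_one.1 (fittingHallOf_ne_bot hG hM)
  have hx2 : x ≠ 1 := fun h => hx1 (Subtype.ext h)
  exact ⟨x, mem_typeA1.2 ⟨fittingHallOf_le_typeCore hG hM hx, hx2⟩, hx2⟩

/-- The Dade hypothesis for a subset `A` of `A(M)` or `A₀(M)` stable under `M`. -/
theorem dadeHypothesis_of_subset (hG : IsMinSimpleOddOrder G) {M : Subgroup G} (hM : IsCoatom M)
    {A X : Set G} (hX : X = typeA M ∨ X = typeA0 M) (hAX : A ⊆ X)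
    (hA : ∀ x ∈ M, ∀ a ∈ A, x * a * x⁻¹ ∈ A) : DadeHypothesis A M (supportR M) := by
  obtain ⟨hfus, hD, hL⟩ := Cfsg.Agent.S1391.result hG M hM X hX
  have hX1 : (1 : G) ∉ X := by
    rcases hX with rfl | rfl
    · exact one_not_mem_typeA M
    · exact one_not_mem_typeA0 M
  have hXM : X ⊆ (M : Set G) := by
    rcases hX with rfl | rfl
    · exact typeA_subset M
    · exact typeA0_subset M
  -- the two cases for an element of `X`
  have key : ∀ a ∈ X, (Subgroup.centralizer ({a} : Set G) ≤ M ∧ supportR M a = ⊥) ∨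
      ∃ L : Subgroup G, IsCoatom L ∧ Subgroup.centralizer ({a} : Set G) ≤ L ∧
        ¬ Subgroup.centralizer ({a} : Set G) ≤ M ∧
        supportR M a = fittingHallOf L ⊓ Subgroup.centralizer ({a} : Set G) := by
    intro a ha
    by_cases hc : Subgroup.centralizer ({a} : Set G) ≤ M
    · exact Or.inl ⟨hc, supportR_of_centralizer_le hc⟩
    · obtain ⟨L, ⟨hL1, hL2⟩, hL3⟩ := (hD a ha hc).2
      exact Or.inr ⟨L, hL1, hL2, hc,
        supportR_of_unique hc hL1 hL2 fun L' h1 h2 => hL3 L' ⟨h1, h2⟩⟩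
  refine ⟨fun h => hX1 (hAX h), fun a ha => hXM (hAX ha), hA, ?_, ?_, ?_, ?_, ?_, ?_⟩
  · intro a ha g hg
    exact hfus a (hAX ha) g (hAX hg)
  · intro a _
    exact supportR_le_centralizer M a
  · intro a ha c hc u hu
    rcases key a (hAX ha) with ⟨-, h2⟩ | ⟨L, h1, h2, h3, h4⟩
    · rw [h2, Subgroup.mem_bot] at hu
      rw [h2, hu, Subgroup.mem_bot]
      simp
    · rw [h4] at hu ⊢
      exact Subgroup.le_normalizer_iff.1 (hL a (hAX ha) h3 L h1 h2).2.1 c hc u hu
  · intro a ha
    rcases key a (hAX ha) with ⟨-, h2⟩ | ⟨L, h1, h2, h3, h4⟩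
    · rw [h2, bot_inf_eq]
    · rw [h4]
      exact (hL a (hAX ha) h3 L h1 h2).2.2.1.2.2.1
  · intro a ha
    rcases key a (hAX ha) with ⟨h1, h2⟩ | ⟨L, h1, h2, h3, h4⟩
    · rw [h2, bot_sup_eq]
      exact inf_eq_right.2 h1
    · rw [h4]
      obtain ⟨h5, h6, -, h7⟩ := (hL a (hAX ha) h3 L h1 h2).2.2.1
      refine le_antisymm (sup_le h5 h6) ?_
      intro m hm
      obtain ⟨x, hx, y, hy, rfl⟩ := h7 m hm
      exact Subgroup.mul_mem_sup hx hy
  · intro a ha b hb
    rcases key a (hAX ha) with ⟨h1, h2⟩ | ⟨L, h1, h2, h3, h4⟩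
    · rw [h2]
      simp
    · rw [h4]
      exact Nat.Coprime.coprime_dvd_left (Subgroup.card_dvd_of_le inf_le_left)
        ((hL a (hAX ha) h3 L h1 h2).2.2.2.1 b (hAX hb))

end Cfsg.Agent.OddOrderCharacters.DadeMaximal
end

-- part: S1537
section
set_option autoImplicit false
open Cfsg

namespace Cfsg.Agent.S1537

open Cfsg.Agent.OddOrderCharacters.TypeSetsBasic Cfsg.Agent.OddOrderCharacters.DadeMaximal

/-- Let G be a minimal simple group of odd order and M a maximal subgroup. For A equal to A₁(M), A(M) or A₀(M): the set normaliser of A is M, and the Dade hypothesis holds for A, M and the function a ↦ R(a). -/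
theorem result {G : Type*} [Group G] [Finite G] (hG : Cfsg.IsMinSimpleOddOrder G) (M : Subgroup G) (hM : IsCoatom M) (A : Set G) (hA : A = Cfsg.typeA1 M ∨ A = Cfsg.typeA M ∨ A = Cfsg.typeA0 M) : Subgroup.normalizer A = M ∧ Cfsg.DadeHypothesis A M (Cfsg.supportR M) := by
  have hS : IsSimpleGroup G := hG.2.1
  have h0 := typeA1_subset_typeA hG hM
  have h1 : A ⊆ (M : Set G) := by
    rcases hA with rfl | rfl | rfl
    · exact typeA1_subset M
    · exact typeA_subset M
    · exact typeA0_subset M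
  have h2 : ∀ m ∈ M, ∀ a ∈ A, m * a * m⁻¹ ∈ A := by
    rcases hA with rfl | rfl | rfl
    · exact fun m hm a ha => typeA1_conj_mem hm ha
    · exact fun m hm a ha => typeA_conj_mem hm ha
    · exact fun m hm a ha => typeA0_conj_mem hm ha
  have h3 : typeA1 M ⊆ A := by
    rcases hA with rfl | rfl | rfl
    · exact subset_rfl
    · exact h0
    · exact h0.trans (typeA_subset_typeA0 M)
  obtain ⟨a, ha, ha1⟩ := exists_mem_typeA1 hG hM
  refine ⟨normalizer_eq_of_coatom hM h1 h2 (h3 ha) ha1, ?_⟩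
  rcases hA with rfl | rfl | rfl
  · exact dadeHypothesis_of_subset hG hM (Or.inl rfl) h0 h2
  · exact dadeHypothesis_of_subset hG hM (Or.inl rfl) subset_rfl h2
  · exact dadeHypothesis_of_subset hG hM (Or.inr rfl) subset_rfl h2

end Cfsg.Agent.S1537
end
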