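import Cfsg.Statements.S1538
import Cfsg.Agent.S1537
import Cfsg.Agent.FastGrp
import Cfsg.Agent.Prune
set_option linter.all false
open scoped Cfsg.Agent.FastGrp

set_option autoImplicit false
open Cfsg

namespace Cfsg.Agent.S1538

open Cfsg.Agent.OddOrderCharacters.TypeSetsBasic Cfsg.Agent.OddOrderCharacters.TypeExclusive
  Cfsg.Agent.OddOrderCharacters.DadeMaximal

/-- In a maximal subgroup of type II every element of `A₀(M)` has its centraliser in `M`. -/
theorem centralizer_le {G : Type*} [Group G] [Finite G] (hG : Cfsg.IsMinSimpleOddOrder G)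
    (M : Subgroup G) (hM : IsCoatom M) (hII : Cfsg.IsOfTypeII M) (x : G) (hx : x ∈ typeA0 M) :
    Subgroup.centralizer ({x} : Set G) ≤ M := by
  by_contra hc
  have hS : IsSimpleGroup G := hG.2.1
  obtain ⟨-, hD, -⟩ := Cfsg.Agent.S1391.result hG M hM (typeA0 M) (Or.inr rfl)
  have hx1 := mem_typeA1.1 (hD x hx hc).1
  rw [typeCore_of_II hII] at hx1
  obtain ⟨W₁, U, W₂, hP, -, -, hTI, -⟩ := hII
  have hFx : x ∈ fittingOf M := by
    rw [← hP.fitting_eq]
    exact Subgroup.mem_sup_left hx1.1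
  have hN : Subgroup.normalizer (fittingOf M : Set G) = M :=
    normalizer_eq_of_coatom hM (fittingOf_le M)
      (fun m hm a ha => map_subtype_conj_mem _ hm ha) hFx hx1.2
  apply hc
  intro c hcx
  by_contra hcM
  have hcx' : c * x * c⁻¹ = x := by
    rw [mem_centralizer_singleton.1 hcx, mul_inv_cancel_right]
  apply hx1.2
  refine hTI c (by rw [hN]; exact hcM) x hFx ?_
  rw [hcx']
  exact hFx

/-- Let G be a minimal simple group of odd order and M a maximal subgroup of Type II. Then each of A₀(M), A(M), A₁(M) is a TI-subset of G whose set normaliser is M. -/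
theorem result {G : Type*} [Group G] [Finite G] (hG : Cfsg.IsMinSimpleOddOrder G) (M : Subgroup G) (hM : IsCoatom M) (hII : Cfsg.IsOfTypeII M) : (Cfsg.IsTISubset (Cfsg.typeA0 M) ∧ Subgroup.normalizer (Cfsg.typeA0 M) = M) ∧ (Cfsg.IsTISubset (Cfsg.typeA M) ∧ Subgroup.normalizer (Cfsg.typeA M) = M) ∧ (Cfsg.IsTISubset (Cfsg.typeA1 M) ∧ Subgroup.normalizer (Cfsg.typeA1 M) = M) := by
  have key : ∀ X : Set G, (X = Cfsg.typeA1 M ∨ X = Cfsg.typeA M ∨ X = Cfsg.typeA0 M) →
      X ⊆ typeA0 M → Cfsg.IsTISubset X ∧ Subgroup.normalizer X = M := by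
    intro X hX hX0
    obtain ⟨h1, h2⟩ := Cfsg.Agent.S1537.result hG M hM X hX
    refine ⟨?_, h1⟩
    intro g hg x hx hgx
    exfalso
    apply hg
    rw [h1]
    obtain ⟨m, hm, hmx⟩ := h2.fusion x hx g hgx
    have h3 : m⁻¹ * g ∈ Subgroup.centralizer ({x} : Set G) := by
      rw [mem_centralizer_singleton]
      calc m⁻¹ * g * x = m⁻¹ * (g * x * g⁻¹) * g := by group
        _ = m⁻¹ * (m * x * m⁻¹) * g := by rw [hmx]
        _ = x * (m⁻¹ * g) := by group
    have h4 := centralizer_le hG M hM hII x (hX0 hx) h3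
    have h5 : g = m * (m⁻¹ * g) := by group
    rw [h5]
    exact M.mul_mem hm h4
  exact ⟨key _ (Or.inr (Or.inr rfl)) subset_rfl,
    key _ (Or.inr (Or.inl rfl)) (typeA_subset_typeA0 M),
    key _ (Or.inl rfl) ((typeA1_subset_typeA hG hM).trans (typeA_subset_typeA0 M))⟩

end Cfsg.Agent.S1538
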