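import Cfsg.Statements.S1541
import Cfsg.Agent.S1350
import Cfsg.Agent.S1351
import Cfsg.Agent.S1352
import Cfsg.Agent.S1355
import Cfsg.Agent.S1357
import Cfsg.Agent.S1378
import Cfsg.Agent.S1379
import Cfsg.Agent.S1380
import Cfsg.Agent.S1391
import Cfsg.Agent.S1526
import Cfsg.Agent.S1527
import Cfsg.Agent.S1540
import Cfsg.Agent.FastGrp
import Cfsg.Agent.Prune
set_option linter.all false
open scoped Cfsg.Agent.FastGrp

set_option autoImplicit false
open Cfsg

namespace Cfsg.Agent.S1541

theorem map_fittingHall_le {A B : Type*} [Group A] [Group B] (e : A ≃* B) :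
    (fittingHall A).map e.toMonoidHom ≤ fittingHall B := by
  unfold fittingHall
  rw [Subgroup.map_le_iff_le_comap, sSup_le_iff]
  rintro N ⟨hN, hNn, hNc⟩
  rw [← Subgroup.map_le_iff_le_comap]
  apply le_sSup
  refine ⟨?_, ?_, ?_⟩
  · exact hN.map e.toMonoidHom e.surjective
  · have := hNn
    exact Group.nilpotent_of_mulEquiv (e.subgroupMap N)
  · have h1 : Nat.card (N.map e.toMonoidHom) = Nat.card N :=
      Nat.card_congr (e.subgroupMap N).toEquiv.symm
    have h2 : (N.map e.toMonoidHom).index = N.index := by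
      exact Subgroup.index_map_equiv N e
    rw [h1, h2]; exact hNc

theorem fittingHallOf_conj {G : Type*} [Group G] (M : Subgroup G) (g : G) :
    (fittingHallOf M).map (MulAut.conj g).toMonoidHom ≤
      fittingHallOf (M.map (MulAut.conj g).toMonoidHom) := by
  intro x hx
  obtain ⟨y, hy, rfl⟩ := hx
  obtain ⟨z, hz, rfl⟩ := hy
  set e : M ≃* M.map (MulAut.conj g).toMonoidHom := (MulAut.conj g).subgroupMap M with he
  have := map_fittingHall_le e (Subgroup.mem_map_of_mem _ hz)
  refine ⟨e z, this, ?_⟩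
  rfl

theorem conj_mem_fittingHallOf {G : Type*} [Group G] (M : Subgroup G) (x : G) (hx : x ∈ M) (h : G)
    (hh : h ∈ fittingHallOf M) : x * h * x⁻¹ ∈ fittingHallOf M := by
  obtain ⟨z, hz, rfl⟩ := hh
  refine ⟨⟨x, hx⟩ * z * (⟨x, hx⟩)⁻¹, (fittingHall_normal M).conj_mem z hz ⟨x, hx⟩, rfl⟩

theorem le_normalizer_fittingHallOf {G : Type*} [Group G] (M : Subgroup G) :
    M ≤ Subgroup.normalizer (fittingHallOf M : Set G) := by
  intro x hx
  rw [Subgroup.mem_normalizer_iff]
  intro h
  refine ⟨fun hh => conj_mem_fittingHallOf M x hx h hh, fun hh => ?_⟩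
  have := conj_mem_fittingHallOf M x⁻¹ (inv_mem hx) _ hh
  simpa [mul_assoc] using this

/-- Being conjugate, on maximal subgroups. -/
def conjSetoid (G : Type*) [Group G] : Setoid {M : Subgroup G // IsCoatom M} where
  r M N := ∃ g : G, N.1 = M.1.map (MulAut.conj g).toMonoidHom
  iseqv := by
    refine ⟨fun M => ⟨1, ?_⟩, ?_, ?_⟩
    · ext x; simp
    · rintro M N ⟨g, hg⟩
      refine ⟨g⁻¹, ?_⟩
      rw [hg, Subgroup.map_map]
      ext x; simp [mul_assoc]
    · rintro M N P ⟨g, hg⟩ ⟨h, hh⟩
      refine ⟨h * g, ?_⟩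
      rw [hh, hg, Subgroup.map_map]
      congr 1
      ext x; simp [mul_assoc]

/-- Let G be a minimal simple group of odd order. Then some maximal subgroup of G is not of Type I. -/
theorem result {G : Type*} [Group G] [Finite G] (hG : Cfsg.IsMinSimpleOddOrder G) : ∃ M : Subgroup G, IsCoatom M ∧ ¬ Cfsg.IsOfTypeI M := by
  by_contra hcon
  have hI : ∀ M : Subgroup G, IsCoatom M → IsOfTypeI M := fun M hM => by
    by_contra h; exact hcon ⟨M, hM, h⟩
  have hsimple : IsSimpleGroup G := hG.2.1
  have hfrob : ∀ M : Subgroup G, IsCoatom M → ∀ x ∈ fittingHallOf M, x ≠ 1 →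
      M ⊓ Subgroup.centralizer ({x} : Set G) ≤ fittingHallOf M :=
    fun M hM => S1540.result hG M hM (hI M hM)
  have hle : ∀ M : Subgroup G, fittingHallOf M ≤ M := fun M => Subgroup.map_subtype_le _
  have hbot : ∀ M : Subgroup G, IsCoatom M → fittingHallOf M ≠ ⊥ := fun M hM =>
    (S1355.result hG M hM).1
  have hlt : ∀ M : Subgroup G, IsCoatom M → fittingHallOf M < M := fun M hM => by
    obtain ⟨h1, h2, h3, h4, -⟩ := S1355.result hG M hM
    exact lt_of_le_of_lt (h2.trans h3) h4
  have hN : ∀ M : Subgroup G, IsCoatom M →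
      Subgroup.normalizer (fittingHallOf M : Set G) = M := fun M hM => by
    rcases hM.le_iff.1 (le_normalizer_fittingHallOf M) with h | h
    · exfalso
      have hnor : (fittingHallOf M).Normal := by
        rw [← Subgroup.normalizer_eq_top_iff]; exact h
      rcases hnor.eq_bot_or_eq_top with h' | h'
      · exact hbot M hM h'
      · have := hlt M hM
        rw [h'] at this
        exact not_top_lt this
    · exact h
  -- standard factorisations
  have hdec : ∀ M : Subgroup G, IsCoatom M → kappa M = ∅ ∧ fittingHallOf M = sigmaCore M := by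
    intro M hM
    obtain ⟨⟨K, hK⟩, hKc⟩ := S1351.result hG M hM
    obtain ⟨⟨U, hU⟩, -⟩ := S1352.result hG M hM K (hKc K hK) hK
    obtain ⟨hK1, hU1⟩ := (S1380.result hG M hM K U hU).1 (hI M hM)
    refine ⟨?_, ?_⟩
    · rw [Set.eq_empty_iff_forall_notMem]
      intro p hp
      have hp' := hp
      obtain ⟨hpp, hpd, -⟩ := hp'
      refine hK.2.2 p hpp hp ?_
      rw [hK1, Subgroup.relIndex_bot_left]
      exact hpd
    · by_contra hne
      exact hU1 (S1357.result hG M hM K U hU hne).1
  -- centralisers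
  have hcent : ∀ M : Subgroup G, IsCoatom M → ∀ x ∈ fittingHallOf M, x ≠ 1 →
      Subgroup.centralizer ({x} : Set G) ≤ M := by
    intro M hM x hx hx1
    by_contra hn
    have hxA : x ∈ typeA M := by
      unfold typeA
      rw [if_pos (hI M hM)]
      exact ⟨hle M hx, hx1, x, hx, hx1, rfl⟩
    obtain ⟨-, h2, h3⟩ := S1391.result hG M hM (typeA M) (Or.inl rfl)
    obtain ⟨-, L, ⟨hL, hxL⟩, -⟩ := h2 x hxA hn
    obtain ⟨-, -, -, -, ⟨h4, h5⟩, -⟩ := h3 x hxA hn L hL hxL
    apply h5
    have h6 : x ∈ fittingHallOf L := by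
      unfold typeA at h4
      rw [if_pos (hI L hL)] at h4
      obtain ⟨hxL, -, y, hy, hy1, hxy⟩ := h4
      have hxy' : x ∈ Subgroup.centralizer ({y} : Set G) := by
        rw [Subgroup.mem_centralizer_iff]
        rintro _ rfl
        exact hxy.symm
      exact hfrob L hL y hy hy1 (Subgroup.mem_inf.2 ⟨hxL, hxy'⟩)
    refine ⟨?_, hx1⟩
    unfold typeCore
    split_ifs
    · obtain ⟨-, k2, k3, -⟩ := S1355.result hG L hL
      exact k3 (k2 h6)
    · exact h6
  have hTI : ∀ M : Subgroup G, IsCoatom M → IsTISubset (fittingHallOf M : Set G) := by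
    intro M hM g hg x hx hgx
    by_contra hx1
    apply hg
    rw [hN M hM]
    have hmem : ∀ y ∈ fittingHallOf M, y ≠ 1 → y ∈ typeA M := by
      intro y hy hy1
      unfold typeA
      rw [if_pos (hI M hM)]
      exact ⟨hle M hy, hy1, y, hy, hy1, rfl⟩
    have hgx1 : g * x * g⁻¹ ≠ 1 := by
      intro h
      apply hx1
      exact conj_eq_one_iff.1 h
    obtain ⟨h1, -, -⟩ := S1391.result hG M hM (typeA M) (Or.inl rfl)
    obtain ⟨m, hm, hmx⟩ := h1 x (hmem x hx hx1) g (hmem _ hgx hgx1)
    have h2 : m⁻¹ * g ∈ Subgroup.centralizer ({x} : Set G) := by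
      rw [Subgroup.mem_centralizer_iff]
      intro z hz
      rw [Set.mem_singleton_iff] at hz
      subst hz
      have : g * z = m * z * m⁻¹ * g := by rw [hmx]; group
      rw [mul_assoc m⁻¹ g, this]; group
    have h3 := hcent M hM x hx hx1 h2
    have := mul_mem hm h3
    simpa using this
  -- primes
  have hsig : ∀ M : Subgroup G, IsCoatom M → ∀ p : ℕ, p.Prime → p ∣ Nat.card (fittingHallOf M) →
      p ∈ sigma M := by
    intro M hM p hp hpd
    rw [(hdec M hM).2] at hpd
    exact (S1350.result hG M hM).1.2.1 p hp hpd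
  -- index set
  let ι := Quotient (conjSetoid G)
  have hfin : Finite ι := Quotient.finite _
  let hfint : Fintype ι := Fintype.ofFinite ι
  let L : ι → Subgroup G := fun i => (Quotient.out i).1
  have hLmax : ∀ i, IsCoatom (L i) := fun i => (Quotient.out i).2
  let H : ι → Subgroup G := fun i => fittingHallOf (L i)
  have hcop : ∀ i j, i ≠ j → Nat.Coprime (Nat.card (H i)) (Nat.card (H j)) := by
    intro i j hij
    rw [Nat.coprime_iff_isRelPrime]
    by_contra hc
    rw [← Nat.coprime_iff_isRelPrime, Nat.Prime.not_coprime_iff_dvd] at hc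
    obtain ⟨p, hp, hpi, hpj⟩ := hc
    obtain ⟨g, hg⟩ := (S1378.result hG).2 (L i) (L j) (hLmax i) (hLmax j)
      ⟨p, hsig _ (hLmax i) p hp hpi, hsig _ (hLmax j) p hp hpj⟩
    apply hij
    rw [← Quotient.out_eq i, ← Quotient.out_eq j]
    exact Quotient.sound ⟨g, hg⟩
  have hcover : ∀ g : G, g ≠ 1 → ∃ i, ∃ x : G, x * g * x⁻¹ ∈ H i := by
    intro g hg
    obtain ⟨-, h2, -⟩ := S1379.result hG
    obtain ⟨M, hM, hgM⟩ := h2 (fun M hM => (hdec M hM).1) g hg
    obtain ⟨a, ⟨ha, ha1⟩, r, hr, y, hy⟩ := hgM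
    rw [← (hdec M hM).2] at ha
    have hr1 : r = 1 := by
      unfold supportR at hr
      rw [dif_neg] at hr
      · simpa using hr
      · rintro ⟨h, -⟩
        exact h (hcent M hM a ha ha1)
    subst hr1
    let i : ι := Quotient.mk (conjSetoid G) ⟨M, hM⟩
    have hi : (conjSetoid G).r ⟨M, hM⟩ (Quotient.out i) := by
      have : Quotient.mk (conjSetoid G) ⟨M, hM⟩ = Quotient.mk (conjSetoid G) (Quotient.out i) := by
        rw [Quotient.out_eq]
      exact Quotient.exact this
    obtain ⟨z, hz⟩ := hi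
    refine ⟨i, z * y⁻¹, ?_⟩
    have h4 : (MulAut.conj z) a ∈ H i := by
      show (MulAut.conj z) a ∈ fittingHallOf (Quotient.out i).1
      rw [hz]
      exact fittingHallOf_conj M z (Subgroup.mem_map_of_mem _ ha)
    rw [hy]
    convert h4 using 1
    rw [MulAut.conj_apply]; group
  -- the number of classes
  have hnt : Nontrivial G := inferInstance
  have hcard : 2 ≤ Fintype.card ι := by
    by_contra hc
    have hsub : Fintype.card ι ≤ 1 := by omega
    obtain ⟨g, hg⟩ := exists_ne (1 : G)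
    obtain ⟨i, -⟩ := hcover g hg
    have hsing : ∀ j, j = i := fun j => Fintype.card_le_one_iff.1 hsub j i
    have h1 := S1527.result H hcop (fun i => hTI _ (hLmax i)) hcover
    rw [Fintype.sum_eq_single i (fun j hj => absurd (hsing j) hj), hN _ (hLmax i)] at h1
    have h2 : (L i).index * Nat.card (L i) = Nat.card G := Subgroup.index_mul_card _
    have h3 : 2 ≤ (L i).index := by
      have h4 : (L i).index ≠ 1 := fun h => (hLmax i).1 (Subgroup.index_eq_one.1 h)
      have h5 : (L i).index ≠ 0 := Subgroup.index_ne_zero_of_finite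
      omega
    have h4 : Nat.card (H i) ≤ Nat.card (L i) := Subgroup.card_le_of_le (hle _)
    have h5 : 1 ≤ Nat.card (H i) := Nat.card_pos
    have h6 : (L i).index * (Nat.card (H i) - 1) + (L i).index ≤ Nat.card G := by
      rw [← Nat.mul_succ, ← h2]
      apply Nat.mul_le_mul_left
      show Nat.card (H i) - 1 + 1 ≤ _
      omega
    omega
  exact S1526.result hG.1 hcard L H (fun i => hlt _ (hLmax i)) (fun i => hbot _ (hLmax i))
    (fun i x hx h hh => conj_mem_fittingHallOf (L i) x hx h hh) (fun i => hfrob _ (hLmax i)) hcop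
    (fun i => ⟨hTI _ (hLmax i), hN _ (hLmax i)⟩) hcover

end Cfsg.Agent.S1541
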