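import Cfsg.Statements.S1542
import Cfsg.Agent.Characters.Core
import Cfsg.Agent.OddOrderLocal.FitAux
import Cfsg.Agent.S0040
import Cfsg.Agent.S0148
import Cfsg.Agent.S0150
import Cfsg.Agent.S0171
import Cfsg.Agent.S0194
import Cfsg.Agent.S1500
import Cfsg.Agent.S1501
import Cfsg.Agent.S1514
import Cfsg.Agent.S1521
import Cfsg.Agent.S1524
import Cfsg.Agent.S1537
import Cfsg.Agent.FastGrp
import Cfsg.Agent.Prune
set_option linter.all false
open scoped Cfsg.Agent.FastGrp

set_option autoImplicit false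
open Cfsg

namespace Cfsg.Agent.S1542

open scoped ComplexConjugate
open Cfsg.Agent.Characters

/-! ### The Dade map is additive, and vanishes at the identity -/

section dade

variable {G : Type*} [Group G] (A : Set G) (L : Subgroup G) (H : G → Subgroup G)

theorem dadeIsometry_add (α β : L → ℂ) :
    dadeIsometry A L H (α + β) = dadeIsometry A L H α + dadeIsometry A L H β := by
  classical
  funext g
  simp only [Pi.add_apply]
  by_cases h : ∃ a : ↥L, (a : G) ∈ A ∧ ∃ x : G, ∃ u ∈ H (a : G), x * g * x⁻¹ = (a : G) * u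
  · simp only [dadeIsometry, dif_pos h, Pi.add_apply]
  · simp only [dadeIsometry, dif_neg h, add_zero]

theorem dadeIsometry_zsmul (n : ℤ) (α : L → ℂ) :
    dadeIsometry A L H (n • α) = n • dadeIsometry A L H α := by
  classical
  funext g
  simp only [Pi.smul_apply]
  by_cases h : ∃ a : ↥L, (a : G) ∈ A ∧ ∃ x : G, ∃ u ∈ H (a : G), x * g * x⁻¹ = (a : G) * u
  · simp only [dadeIsometry, dif_pos h, Pi.smul_apply]
  · simp only [dadeIsometry, dif_neg h, smul_zero]

theorem dadeIsometry_one (hD : DadeHypothesis A L H) (α : L → ℂ) :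
    dadeIsometry A L H α 1 = 0 := by
  classical
  have h : ¬ ∃ a : ↥L, (a : G) ∈ A ∧ ∃ x : G, ∃ u ∈ H (a : G), x * 1 * x⁻¹ = (a : G) * u := by
    rintro ⟨a, ha, x, u, hu, hx⟩
    have h1 : (a : G) * u = 1 := by rw [← hx]; group
    have h2 : (a : G) ∈ H (a : G) := by
      have : (a : G) = u⁻¹ := eq_inv_of_mul_eq_one_left h1
      have h3 := inv_mem hu
      rwa [← this] at h3
    have h3 : (a : G) ∈ H (a : G) ⊓ (L ⊓ Subgroup.centralizer ({(a : G)} : Set G)) := by
      refine Subgroup.mem_inf.2 ⟨h2, Subgroup.mem_inf.2 ⟨a.2, ?_⟩⟩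
      rw [Subgroup.mem_centralizer_iff]
      intro y hy
      rw [Set.mem_singleton_iff] at hy
      rw [hy]
    rw [hD.inf_eq_bot a ha, Subgroup.mem_bot] at h3
    apply hD.one_not_mem
    rw [← h3]; exact ha
  simp only [dadeIsometry, dif_neg h]

end dade

/-! ### Integer spans -/

theorem isGen_isClassFunction {G : Type*} [Group G] {α : G → ℂ} (h : IsGeneralizedCharacter G α) :
    IsClassFunction G α := by
  obtain ⟨χ, ψ, hχ, hψ, rfl⟩ := h
  intro g h
  simp only [Pi.sub_apply]
  rw [Core.isCharacter_isClassFunction hχ g h, Core.isCharacter_isClassFunction hψ g h]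

theorem isGen_of_mem_zspan {G : Type*} [Group G] {S : Set (G → ℂ)}
    (hS : ∀ χ ∈ S, IsCharacter G χ) {α : G → ℂ} (hα : α ∈ zspan S) :
    IsGeneralizedCharacter G α := by
  have hα' : α ∈ Submodule.span ℤ S := hα
  have hadd : ∀ β γ : G → ℂ, IsGeneralizedCharacter G β → IsGeneralizedCharacter G γ →
      IsGeneralizedCharacter G (β + γ) := by
    rintro β γ ⟨χ, ψ, hχ, hψ, rfl⟩ ⟨χ', ψ', hχ', hψ', rfl⟩
    exact ⟨χ + χ', ψ + ψ', Core.isCharacter_add hχ hχ', Core.isCharacter_add hψ hψ', by abel⟩
  have hneg : ∀ β : G → ℂ, IsGeneralizedCharacter G β → IsGeneralizedCharacter G (-β) := by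
    rintro β ⟨χ, ψ, hχ, hψ, rfl⟩
    exact ⟨ψ, χ, hψ, hχ, by abel⟩
  have hzero : IsGeneralizedCharacter G (0 : G → ℂ) :=
    ⟨0, 0, Core.isCharacter_zero, Core.isCharacter_zero, by simp⟩
  let T : AddSubgroup (G → ℂ) :=
    { carrier := {β | IsGeneralizedCharacter G β}
      add_mem' := fun {a b} ha hb => hadd a b ha hb
      zero_mem' := hzero
      neg_mem' := fun {a} ha => hneg a ha }
  induction hα' using Submodule.span_induction with
  | mem x hx => exact ⟨x, 0, hS x hx, Core.isCharacter_zero, by simp⟩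
  | zero => exact hzero
  | add x y _ _ hx hy => exact hadd x y (hx (by assumption)) (hy (by assumption))
  | smul a x _ hx => exact T.zsmul_mem (hx (by assumption)) a

theorem zspan_vanish {X : Type*} {S : Set (X → ℂ)} {x : X} (hS : ∀ χ ∈ S, χ x = 0) {α : X → ℂ}
    (hα : α ∈ zspan S) : α x = 0 := by
  have hα' : α ∈ Submodule.span ℤ S := hα
  induction hα' using Submodule.span_induction with
  | mem y hy => exact hS y hy
  | zero => rfl
  | add y z _ _ hy hz => rw [Pi.add_apply, hy (by assumption), hz (by assumption), add_zero]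
  | smul a y _ hy => rw [Pi.smul_apply, hy (by assumption), smul_zero]

/-! ### The Dade map for a TI-set is induction -/

theorem indFun_eq_dade {G : Type*} [Group G] [Fintype G] (L : Subgroup G)
    (A : Set G) (R : G → Subgroup G) (hA : ∀ a ∈ A, R a = ⊥)
    (hN : ∀ a ∈ A, ∀ g : G, g * a * g⁻¹ ∈ A → g ∈ L) (α : L → ℂ) (hα : IsClassFunction L α)
    (hαA : ∀ x : L, (x : G) ∉ A → α x = 0) : indFun L α = dadeIsometry A L R α := by
  classical
  funext g
  by_cases h : ∃ a : ↥L, (a : G) ∈ A ∧ ∃ x : G, ∃ u ∈ R (a : G), x * g * x⁻¹ = (a : G) * u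
  · simp only [dadeIsometry, dif_pos h]
    obtain ⟨ha, x, u, hu, hx⟩ := Classical.choose_spec h
    generalize Classical.choose h = a at *
    rw [hA _ ha, Subgroup.mem_bot] at hu
    rw [hu, mul_one] at hx
    rw [← S0150.indFun_isClassFunction L α g x, hx, S0150.indFun_apply]
    have key : ∀ y : G, extendByZero L α (y⁻¹ * (a : G) * y) = if y ∈ L then α a else 0 := by
      intro y
      split_ifs with hy
      · have h1 : y⁻¹ * (a : G) * y = (((⟨y, hy⟩ : L)⁻¹ * a * ((⟨y, hy⟩ : L)⁻¹)⁻¹ : L) : G) := by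
          simp
        rw [h1, S0150.extendByZero_coe, hα]
      · by_cases hyL : y⁻¹ * (a : G) * y ∈ L
        · have h1 : y⁻¹ * (a : G) * y = ((⟨_, hyL⟩ : L) : G) := rfl
          rw [h1, S0150.extendByZero_coe]
          apply hαA
          intro h2
          have h3 := hN _ ha y⁻¹ (by simpa using h2)
          exact hy (by simpa using inv_mem h3)
        · exact S0150.extendByZero_of_notMem L α hyL
    simp only [key]
    rw [← Finset.sum_filter, Finset.sum_const, nsmul_eq_mul]
    have hcard : (Finset.univ.filter (fun y : G => y ∈ L)).card = Nat.card L := by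
      rw [Nat.card_eq_fintype_card, Fintype.card_subtype]
    rw [hcard, ← mul_assoc, inv_mul_cancel₀, one_mul]
    exact_mod_cast Nat.card_pos.ne'
  · simp only [dadeIsometry, dif_neg h]
    rw [S0150.indFun_apply, Finset.sum_eq_zero, mul_zero]
    intro y _
    by_cases hyL : y⁻¹ * g * y ∈ L
    · have h1 : y⁻¹ * g * y = ((⟨_, hyL⟩ : L) : G) := rfl
      rw [h1, S0150.extendByZero_coe]
      apply hαA
      intro h2
      exact h ⟨⟨_, hyL⟩, h2, y⁻¹, 1, one_mem _, by simp⟩
    · exact S0150.extendByZero_of_notMem L α hyL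

/-- induced functions vanish off a normal subgroup -/
theorem indFun_of_notMem {G : Type*} [Group G] [Fintype G] (N : Subgroup G) [hN : N.Normal]
    (θ : N → ℂ) {g : G} (hg : g ∉ N) : indFun N θ g = 0 := by
  rw [S0150.indFun_apply, Finset.sum_eq_zero, mul_zero]
  intro y _
  apply S0150.extendByZero_of_notMem
  intro h
  apply hg
  have := hN.conj_mem _ h y
  simpa [mul_assoc] using this

theorem mem_fittingHallOf_coe {G : Type*} [Group G] {L : Subgroup G} {x : L} :
    (x : G) ∈ fittingHallOf L ↔ x ∈ fittingHall L := by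
  constructor
  · rintro ⟨y, hy, hxy⟩
    have : y = x := Subtype.ext hxy
    rwa [← this]
  · intro hx
    exact ⟨x, hx, rfl⟩

/-- conjugation commutes with induction -/
theorem conjFun_indFun {G : Type*} [Group G] [Fintype G] (N : Subgroup G) (θ : N → ℂ) :
    conjFun (indFun N θ) = indFun N (conjFun θ) := by
  funext g
  show conj (indFun N θ g) = indFun N (conjFun θ) g
  rw [S0150.indFun_apply, S0150.indFun_apply, map_mul, map_sum, map_inv₀, Complex.conj_natCast]
  congr 1
  refine Finset.sum_congr rfl fun x _ => ?_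
  by_cases hx : x⁻¹ * g * x ∈ N
  · have h1 : x⁻¹ * g * x = ((⟨_, hx⟩ : N) : G) := rfl
    rw [h1, S0150.extendByZero_coe, S0150.extendByZero_coe]
    rfl
  · rw [S0150.extendByZero_of_notMem N θ hx, S0150.extendByZero_of_notMem N (conjFun θ) hx,
      map_zero]

/-- a nontrivial finite group has a nonprincipal irreducible character -/
theorem exists_irr_ne_one {G : Type*} [Group G] [Finite G] [Nontrivial G] :
    ∃ θ : G → ℂ, IsIrrCharacter G θ ∧ θ ≠ (fun _ => 1) := by
  by_contra hcon
  have h1 : ∀ θ : IrrCharacter G, θ = ⟨1, Core.isIrr_one⟩ := by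
    intro θ
    by_contra h
    exact hcon ⟨θ.1, θ.2, fun h' => h (Subtype.ext h')⟩
  have h2 : Nat.card (IrrCharacter G) = 1 := by
    rw [Nat.card_eq_one_iff_unique]
    exact ⟨⟨fun a b => by rw [h1 a, h1 b]⟩, ⟨⟨1, Core.isIrr_one⟩⟩⟩
  rw [Core.card_irr, Nat.card_eq_one_iff_unique] at h2
  obtain ⟨g, hg⟩ := exists_ne (1 : G)
  have h3 := h2.1.elim (ConjClasses.mk g) (ConjClasses.mk 1)
  rw [ConjClasses.mk_eq_mk_iff_isConj, isConj_one_left] at h3
  exact hg h3

/-- Let G be a minimal simple group of odd order and L a maximal subgroup of Type I in which every non-identity element of H = L_F has its centraliser within L inside H. Let S be the set of functions on L induced from non-principal irreducible characters of H. Then every member of S is an irreducible character of L, and (S, L minus 1, τ) is coherent for τ the Dade map relative to A(L), L and a ↦ R(a). -/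
theorem result {G : Type*} [Group G] [Fintype G] (hG : Cfsg.IsMinSimpleOddOrder G) (L : Subgroup G) [Fintype L] (hL : IsCoatom L) (hI : Cfsg.IsOfTypeI L) (hfrob : ∀ x ∈ Cfsg.fittingHallOf L, x ≠ 1 → L ⊓ Subgroup.centralizer ({x} : Set G) ≤ Cfsg.fittingHallOf L) : (∀ χ ∈ Cfsg.inducedIrrAbove (Cfsg.fittingHall L) ⊥, Cfsg.IsIrrCharacter L χ) ∧ Cfsg.IsCoherent (Cfsg.inducedIrrAbove (Cfsg.fittingHall L) ⊥) {1}ᶜ (Cfsg.dadeIsometry (Cfsg.typeA L) L (Cfsg.supportR L)) := by
  classical
  have hI' := hI
  obtain ⟨⟨hsolv, hodd, hKbot, hKtop, U, hUbot, hcompl, -, -⟩, hcases⟩ := hI'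
  set K : Subgroup L := fittingHall L with hKdef
  have hKn : K.Normal := fittingHall_normal L
  -- the Frobenius condition inside `L`
  have hC : ∀ k ∈ K, k ≠ 1 → ∀ y : L, y * k = k * y → y ∈ K := by
    intro k hk hk1 y hy
    have h1 : (k : G) ∈ fittingHallOf L := mem_fittingHallOf_coe.2 hk
    have h2 : (k : G) ≠ 1 := by simpa using hk1
    rw [← mem_fittingHallOf_coe]
    refine hfrob k h1 h2 (Subgroup.mem_inf.2 ⟨y.2, ?_⟩)
    rw [Subgroup.mem_centralizer_iff]
    intro z hz
    rw [Set.mem_singleton_iff] at hz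
    subst hz
    exact_mod_cast hy.symm
  have hfpf : ∀ u ∈ U, u ≠ 1 → ∀ k ∈ K, u * k = k * u → k = 1 := by
    intro u hu hu1 k hk huk
    by_contra hk1
    have h1 := hC k hk hk1 u huk
    have h2 : u ∈ K ⊓ U := Subgroup.mem_inf.2 ⟨h1, hu⟩
    rw [hcompl.disjoint.eq_bot] at h2
    exact hu1 (Subgroup.mem_bot.1 h2)
  have hsup : K ⊔ U = ⊤ := hcompl.sup_eq_top
  have hinf : K ⊓ U = ⊥ := hcompl.disjoint.eq_bot
  -- irreducibility
  have hirr : ∀ χ ∈ inducedIrrAbove K ⊥, IsIrrCharacter L χ := by
    rintro _ ⟨θ, hθ, hθ1, -, rfl⟩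
    exact S0171.result K U hinf hsup hfpf θ hθ hθ1
  refine ⟨hirr, ?_⟩
  set S : Set (L → ℂ) := inducedIrrAbove K ⊥ with hSdef
  set τ : (L → ℂ) → (G → ℂ) := dadeIsometry (typeA L) L (supportR L) with hτdef
  have hAeq : ∀ x : L, (x : G) ∈ typeA L ↔ x ∈ K ∧ x ≠ 1 := by
    intro x
    unfold typeA
    rw [if_pos hI]
    constructor
    · rintro ⟨-, h1, y, hy, hy1, hxy⟩
      refine ⟨?_, by simpa using h1⟩
      have h2 : (x : G) ∈ fittingHallOf L := by
        refine hfrob y hy hy1 (Subgroup.mem_inf.2 ⟨x.2, ?_⟩)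
        rw [Subgroup.mem_centralizer_iff]
        intro z hz
        rw [Set.mem_singleton_iff] at hz
        subst hz
        exact hxy.symm
      exact mem_fittingHallOf_coe.1 h2
    · rintro ⟨h1, h2⟩
      exact ⟨x.2, by simpa using h2, x, mem_fittingHallOf_coe.2 h1, by simpa using h2, rfl⟩
  have hD : DadeHypothesis (typeA L) L (supportR L) :=
    (S1537.result hG L hL (typeA L) (Or.inr (Or.inl rfl))).2
  have hgen : ∀ α ∈ zspan S, IsGeneralizedCharacter L α := fun α hα =>
    isGen_of_mem_zspan (fun χ hχ => Core.isIrr_isCharacter (hirr χ hχ)) hα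
  have hvan : ∀ α ∈ zspanOn S {1}ᶜ, ∀ x : L, (x : G) ∉ typeA L → α x = 0 := by
    intro α hα x hx
    rw [hAeq] at hx
    by_cases hxK : x ∈ K
    · have hx1 : x = 1 := by
        by_contra h; exact hx ⟨hxK, h⟩
      exact hα.2 x (by simp [hx1])
    · refine zspan_vanish ?_ hα.1
      rintro _ ⟨θ, hθ, hθ1, -, rfl⟩
      exact indFun_of_notMem K θ hxK
  have hadd : ∀ α ∈ zspanOn S {1}ᶜ, ∀ β ∈ zspanOn S {1}ᶜ, τ (α + β) = τ α + τ β := fun α _ β _ =>
    dadeIsometry_add _ _ _ α β
  have hiso : IsLinearIsometryOn (zspanOn S {1}ᶜ) τ := by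
    refine ⟨hadd, fun α _ n => dadeIsometry_zsmul _ _ _ n α, ?_, ?_⟩
    · intro α hα β hβ
      exact (S1500.result (typeA L) L (supportR L) hD α (isGen_isClassFunction (hgen α hα.1))
        (hvan α hα)).1 β (isGen_isClassFunction (hgen β hβ.1)) (hvan β hβ)
    · intro α hα
      exact S1501.result (typeA L) L (supportR L) hD α (hgen α hα.1) (hvan α hα)
  have hτ1 : ∀ α ∈ zspanOn S {1}ᶜ, τ α 1 = 0 := fun α _ => dadeIsometry_one _ _ _ hD α
  -- conjugation
  have hconj : ∀ χ ∈ S, conjFun χ ∈ S ∧ conjFun χ ≠ χ := by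
    rintro χ hχ
    obtain ⟨θ, hθ, hθ1, -, hχθ⟩ := id hχ
    constructor
    · refine ⟨conjFun θ, Core.isIrr_conj hθ, ?_, ?_, ?_⟩
      · intro h
        apply hθ1
        funext x
        have := congrFun h x
        simp only [conjFun] at this
        have h2 := congrArg (starRingEnd ℂ) this
        simpa using h2
      · intro a ha
        have : a = 1 := by
          have h1 := Subgroup.mem_bot.1 ha
          exact_mod_cast h1
        rw [this]
      · rw [hχθ]; exact conjFun_indFun K θ
    · intro h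
      have h1 := S0194.result hodd K θ hθ hθ1
      rw [← hχθ] at h1
      change classInner (conjFun χ) χ = 0 at h1
      rw [h, Core.classInner_irr_self (hirr χ hχ)] at h1
      exact one_ne_zero h1
  have hKnt : Nontrivial K := (Subgroup.nontrivial_iff_ne_bot K).2 hKbot
  have hne : S.Nonempty := by
    obtain ⟨θ, hθ, hθ1⟩ := exists_irr_ne_one (G := K)
    refine ⟨indFun K θ, θ, hθ, hθ1, ?_, rfl⟩
    intro a ha
    have : a = 1 := by
      have h1 := Subgroup.mem_bot.1 ha
      exact_mod_cast h1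
    rw [this]
  obtain ⟨R, hR⟩ := S1514.result S hne hirr hconj τ hiso hτ1
  have heK : K ≃* fittingHallOf L := K.equivMapOfInjective L.subtype L.subtype_injective
  have hKnil : Group.IsNilpotent K :=
    (Group.isNilpotent_congr heK).2 (OddOrderLocal.FitAux.isNilpotent_fittingHallOf L)
  have hcardK : Nat.card (fittingHallOf L) = Nat.card K := (Nat.card_congr heK.toEquiv).symm
  -- the coherence criterion `S1521`
  have hcoh : ((∃ N : Subgroup L, N.Normal ∧ ⁅K, K⁆ ⊔ ⊥ < N ∧ N < K) ∨
      4 * K.index ^ 2 + 1 < (⁅K, K⁆ ⊔ ⊥).relIndex K ∨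
      (¬ ∃ p m : ℕ, p.Prime ∧ (⊥ : Subgroup L).relIndex K = p ^ m) ∨ ⁅K, K⁆ ≤ ⊥ ∨
      (∃ p m : ℕ, p.Prime ∧ (⊥ : Subgroup L).relIndex K = p ^ m ∧ K.index ∣ p - 1)) →
      IsCoherent S {1}ᶜ τ := by
    intro hgood
    refine S1521.result K ?_ τ R hR hodd ⊥ bot_le ?_ (⁅K, K⁆ ⊔ ⊥) rfl ?_ ?_ ?_ hgood
    · infer_instance
    · infer_instance
    · rw [sup_bot_eq]
      exact Group.IsSolvable.commutator_lt_of_ne_bot hKbot
    · exact lt_top_iff_ne_top.2 hKtop
    · intro k hk hk1 x hx
      rw [sup_bot_eq] at hk1 hx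
      by_contra hxK
      have hDK : ⁅K, K⁆ ≤ K := Subgroup.commutator_le_left K K
      have hDn : (⁅K, K⁆ : Subgroup L).Normal := Subgroup.commutator_normal K K
      have hinj : ∀ a ∈ K, ∀ b ∈ K, x * a * x⁻¹ * a⁻¹ = x * b * x⁻¹ * b⁻¹ → a = b := by
        intro a ha b hb hab
        by_contra hne
        have h1 : b⁻¹ * a ∈ K := mul_mem (inv_mem hb) ha
        have h2 : b⁻¹ * a ≠ 1 := fun h => hne (by
          have := congrArg (fun z => b * z) h
          simpa using this)
        have h3 : x * (b⁻¹ * a) = (b⁻¹ * a) * x := by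
          have h4 : a * x⁻¹ * a⁻¹ = b * x⁻¹ * b⁻¹ := by
            have := congrArg (fun z => x⁻¹ * z) hab
            simpa [mul_assoc] using this
          have h5 : a * x * a⁻¹ = b * x * b⁻¹ := by
            have := congrArg (fun z => z⁻¹) h4
            simpa [mul_assoc] using this
          calc x * (b⁻¹ * a) = b⁻¹ * (b * x * b⁻¹) * a := by group
            _ = b⁻¹ * (a * x * a⁻¹) * a := by rw [h5]
            _ = (b⁻¹ * a) * x := by group
        exact hxK (hC _ h1 h2 x h3)
      let f : (⁅K, K⁆ : Subgroup L) → (⁅K, K⁆ : Subgroup L) := fun d =>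
        ⟨x * d * x⁻¹ * (d : L)⁻¹, mul_mem (hDn.conj_mem d d.2 x) (inv_mem d.2)⟩
      have hf : Function.Injective f := by
        intro a b hab
        have h1 := congrArg Subtype.val hab
        exact Subtype.ext (hinj a (hDK a.2) b (hDK b.2) h1)
      obtain ⟨d, hd⟩ := (Finite.injective_iff_surjective.1 hf) ⟨_, hx⟩
      have h1 := congrArg Subtype.val hd
      have h2 := hinj d (hDK d.2) k hk h1
      exact hk1 (h2 ▸ d.2)
  rcases hcases with hTI | hab | ⟨hexp, -⟩
  · -- the trivial intersection case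
    have hHbot : fittingHallOf L ≠ ⊥ := by
      intro h
      apply hKbot
      rw [← Subgroup.card_eq_one, ← hcardK, h, Subgroup.card_bot]
    have hLnorm : L ≤ Subgroup.normalizer (fittingHallOf L : Set G) :=
      OddOrderLocal.FitAux.le_normalizer_fittingHallOf L
    have hN : Subgroup.normalizer (fittingHallOf L : Set G) = L := by
      rcases hL.le_iff.1 hLnorm with h | h
      · exfalso
        have hnor : (fittingHallOf L).Normal := by
          rw [← Subgroup.normalizer_eq_top_iff]; exact h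
        have hsimple : IsSimpleGroup G := hG.2.1
        rcases hnor.eq_bot_or_eq_top with h' | h'
        · exact hHbot h'
        · have h1 := OddOrderLocal.FitAux.fittingHallOf_le L
          rw [h', top_le_iff] at h1
          exact hL.1 h1
      · exact h
    have hinf' : fittingHallOf L ⊓ U.map L.subtype = ⊥ := by
      show K.map L.subtype ⊓ U.map L.subtype = ⊥
      rw [← Subgroup.map_inf_eq _ _ _ L.subtype_injective, hinf, Subgroup.map_bot]
    have hsup' : fittingHallOf L ⊔ U.map L.subtype = L := by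
      show K.map L.subtype ⊔ U.map L.subtype = L
      rw [← Subgroup.map_sup, hsup, ← MonoidHom.range_eq_map, Subgroup.range_subtype]
    have hcohTI := S1524.result (fittingHallOf L) L (U.map L.subtype) hodd
      (OddOrderLocal.FitAux.fittingHallOf_le L) (Subgroup.map_subtype_le U) hHbot
      (by
        intro h
        exact hUbot ((Subgroup.map_eq_bot_iff_of_injective U L.subtype_injective).1 h))
      (OddOrderLocal.FitAux.isNilpotent_fittingHallOf L)
      (fun x hx h hh => (Subgroup.mem_normalizer_iff.1 (hLnorm hx) h).1 hh) hinf' hsup'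
      (by
        rintro _ ⟨w, hw, rfl⟩ hw1 h hh hwh
        obtain ⟨k, hk, rfl⟩ := hh
        have h1 := hfpf w hw (fun h => hw1 (by rw [h]; rfl)) k hk (Subtype.ext hwh)
        rw [h1]; rfl)
      hTI hN
    have hsub : (fittingHallOf L).subgroupOf L = K :=
      Subgroup.comap_map_eq_self_of_injective L.subtype_injective K
    rw [hsub] at hcohTI
    have hmemA : ∀ a ∈ typeA L, a ∈ fittingHallOf L ∧ a ≠ 1 := by
      intro a ha
      have haL : a ∈ L := hD.subset ha
      obtain ⟨h1, h2⟩ := (hAeq ⟨a, haL⟩).1 ha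
      exact ⟨⟨_, h1, rfl⟩, fun h => h2 (Subtype.ext h)⟩
    have hNL : ∀ a ∈ typeA L, ∀ g : G, g * a * g⁻¹ ∈ typeA L → g ∈ L := by
      intro a ha g hg
      by_contra hgL
      rw [← hN] at hgL
      exact (hmemA a ha).2 (hTI g hgL a (hmemA a ha).1 (hmemA _ hg).1)
    have hR' : ∀ a ∈ typeA L, supportR L a = ⊥ := by
      intro a ha
      unfold supportR
      rw [dif_neg]
      rintro ⟨h, -⟩
      apply h
      intro c hc
      apply hNL a ha c
      have : c * a * c⁻¹ = a := by
        rw [Subgroup.mem_centralizer_iff] at hc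
        rw [← hc a rfl]; group
      rw [this]; exact ha
    have hind : ∀ α ∈ zspanOn S {1}ᶜ, indFun L α = τ α := by
      intro α hα
      exact indFun_eq_dade L (typeA L) (supportR L) hR' hNL α
        (isGen_isClassFunction (hgen α hα.1)) (hvan α hα)
    obtain ⟨h1, τ₁, h2, h3⟩ := hcohTI
    exact ⟨h1, τ₁, h2, fun α hα => (h3 α hα).trans (hind α hα)⟩
  · apply hcoh
    right; right; right; left
    obtain ⟨hab, -, -⟩ := hab
    rw [le_bot_iff, Subgroup.commutator_eq_bot_iff_le_centralizer]
    intro a ha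
    rw [Subgroup.mem_centralizer_iff]
    intro b hb
    have h1 := hab.is_comm.comm (heK ⟨b, hb⟩) (heK ⟨a, ha⟩)
    rw [← map_mul, ← map_mul] at h1
    have h2 := congrArg Subtype.val (heK.injective h1)
    exact h2
  · apply hcoh
    right; right
    by_cases hpp : ∃ p m : ℕ, p.Prime ∧ (⊥ : Subgroup L).relIndex K = p ^ m
    · right; right
      obtain ⟨p, m, hp, hpm⟩ := hpp
      refine ⟨p, m, hp, hpm, ?_⟩
      rw [Subgroup.relIndex_bot_left] at hpm
      have hm : m ≠ 0 := by
        rintro rfl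
        rw [pow_zero, Subgroup.card_eq_one] at hpm
        exact hKbot hpm
      have hdvd : p ∣ Nat.card (fittingHallOf L) := by
        rw [hcardK, hpm]; exact dvd_pow_self p hm
      have hexp' := hexp p hp hdvd
      have hZ : IsZGroup U := by
        rw [isZGroup_iff]
        intro q hq P
        have : Fact q.Prime := ⟨hq⟩
        have hfpf' : ∀ h ∈ U, h ≠ 1 → K ⊓ Subgroup.centralizer {h} = ⊥ := by
          intro h hh hh1
          rw [eq_bot_iff]
          intro k hk
          obtain ⟨hk1, hk2⟩ := Subgroup.mem_inf.1 hk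
          rw [Subgroup.mem_centralizer_iff] at hk2
          exact Subgroup.mem_bot.2 (hfpf h hh hh1 k hk1 (hk2 h rfl))
        rcases S0040.result K U hcompl hKbot hfpf' q P with h | ⟨n, ⟨e⟩⟩
        · exact h
        · exfalso
          have h1 : Nat.card P = 4 * 2 ^ n := by
            have : NeZero (2 ^ n) := ⟨by positivity⟩
            rw [Nat.card_congr e.toEquiv, Nat.card_eq_fintype_card, QuaternionGroup.card]
          have h2 : Nat.card P ∣ Nat.card L :=
            (Subgroup.card_subgroup_dvd_card (P : Subgroup U)).trans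
              (Subgroup.card_subgroup_dvd_card U)
          rw [h1] at h2
          have h3 : 2 ∣ Nat.card L := ((by norm_num : 2 ∣ 4).mul_right _).trans h2
          exact (Nat.not_even_iff_odd.2 hodd) (even_iff_two_dvd.2 h3)
      have hZ' : IsZGroup (L ⧸ K) :=
        IsZGroup.of_injective (f := (hcompl.symm.QuotientMulEquiv).toMonoidHom)
          (hcompl.symm.QuotientMulEquiv).injective
      have h1 : Monoid.exponent (L ⧸ K) = K.index := by
        rw [IsZGroup.exponent_eq_card, Subgroup.index_eq_card]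
      rw [← h1]
      exact hexp'
    · left; exact hpp

end Cfsg.Agent.S1542
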