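import Cfsg.Statements.S1558
import Cfsg.Agent.GolayTrio.Stab
import Cfsg.Agent.GolayTrio.Trans
set_option linter.all false

set_option autoImplicit false
open scoped Pointwise
open Cfsg

namespace Cfsg.Agent.S1558

open Cfsg.Agent.GolayTrio.Std Cfsg.Agent.GolayTrio.Stab Cfsg.Agent.GolayTrio.Trans

/-- every permutation of the three octads is induced -/
theorem first_part (T : Finset (Finset GolayPt)) (hT : T ∈ trios) (e : Equiv.Perm ↥T) :
    ∃ g ∈ MulAction.stabilizer M24 T, ∀ o : ↥T,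
      (g : Equiv.Perm GolayPt) • (o : Finset GolayPt) = ((e o : ↥T) : Finset GolayPt) := by
  obtain ⟨a, b, c, hTe, hab0, hac0, hbc0, ha, hb, hc, hab, hac, hbc⟩ := exists_triple hT
  have hma : a ∈ T := by rw [hTe]; simp
  have hmb : b ∈ T := by rw [hTe]; simp
  have hmc : c ∈ T := by rw [hTe]; simp
  have hne : ∀ {x y : Finset GolayPt} (hx : x ∈ T) (hy : y ∈ T), x ≠ y →
      ((e ⟨x, hx⟩ : ↥T) : Finset GolayPt) ≠ ((e ⟨y, hy⟩ : ↥T) : Finset GolayPt) := by
    intro x y hx hy hxy h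
    have := e.injective (Subtype.ext h)
    exact hxy (congrArg Subtype.val this)
  obtain ⟨g, hg, h1, h2, h3⟩ := exists_ordered ha hb hc hab hac hbc
    (hT.2.1 _ (e ⟨a, hma⟩).2) (hT.2.1 _ (e ⟨b, hmb⟩).2) (hT.2.1 _ (e ⟨c, hmc⟩).2)
    (hT.2.2 _ (e ⟨a, hma⟩).2 _ (e ⟨b, hmb⟩).2 (hne hma hmb hab0))
    (hT.2.2 _ (e ⟨a, hma⟩).2 _ (e ⟨c, hmc⟩).2 (hne hma hmc hac0))
    (hT.2.2 _ (e ⟨b, hmb⟩).2 _ (e ⟨c, hmc⟩).2 (hne hmb hmc hbc0))
  have key : ∀ o : ↥T, g • (o : Finset GolayPt) = ((e o : ↥T) : Finset GolayPt) := by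
    rintro ⟨o, ho⟩
    have ho' := ho
    rw [hTe, Finset.mem_insert, Finset.mem_insert, Finset.mem_singleton] at ho'
    rcases ho' with rfl | rfl | rfl
    · exact h1
    · exact h2
    · exact h3
  refine ⟨⟨g, hg⟩, ?_, key⟩
  rw [MulAction.mem_stabilizer_iff]
  show g • T = T
  apply Finset.eq_of_subset_of_card_le
  · intro o ho
    obtain ⟨o', ho', rfl⟩ := Finset.mem_smul_finset.1 ho
    rw [key ⟨o', ho'⟩]
    exact (e ⟨o', ho'⟩).2
  · rw [Finset.card_smul_finset]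

/-- Structure of a trio stabiliser: every permutation of the three octads is induced, and there is a normal subgroup of order 64 of elements squaring to the identity whose quotient is isomorphic to the product of GL(3, 2) with the symmetric group of degree 3. -/
theorem result (T : Finset (Finset Cfsg.GolayPt)) (hT : T ∈ Cfsg.trios) : (∀ e : Equiv.Perm ↥T, ∃ g ∈ MulAction.stabilizer Cfsg.M24 T, ∀ o : ↥T, (g : Equiv.Perm Cfsg.GolayPt) • (o : Finset Cfsg.GolayPt) = ((e o : ↥T) : Finset Cfsg.GolayPt)) ∧ ∃ (N : Subgroup ↥(MulAction.stabilizer Cfsg.M24 T)) (_ : N.Normal), Nat.card N = 64 ∧ (∀ x ∈ N, x * x = 1) ∧ Nonempty (↥(MulAction.stabilizer Cfsg.M24 T) ⧸ N ≃* GL (Fin 3) (ZMod 2) × Equiv.Perm (Fin 3)) := by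
  refine ⟨first_part T hT, ?_⟩
  obtain ⟨h, hh⟩ := exists_smul_trio hT T0_mem
  let ε : MulAction.stabilizer M24 T ≃* MulAction.stabilizer M24 T0 :=
    MulAction.stabilizerEquivStabilizer hh.symm
  let ψ : MulAction.stabilizer M24 T →* GL (Fin 3) (ZMod 2) × Equiv.Perm (Fin 3) :=
    phi.comp ε.toMonoidHom
  have hψ : Function.Surjective ψ := phi_surjective.comp ε.surjective
  have hmem : ∀ x, x ∈ ψ.ker ↔ ε x ∈ phi.ker := fun x => Iff.rfl
  refine ⟨ψ.ker, inferInstance, ?_, ?_, ⟨QuotientGroup.quotientKerEquivOfSurjective ψ hψ⟩⟩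
  · rw [← card_ker]
    exact Nat.card_congr (ε.toEquiv.subtypeEquiv hmem)
  · intro x hx
    have h1 := ker_mul_self ((hmem x).1 hx)
    rw [← map_mul] at h1
    exact (map_eq_one_iff ε ε.injective).1 h1

end Cfsg.Agent.S1558
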