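import Mathlib
import Cfsg.Prelude.Def_Sporadic_a
import Cfsg.Agent.SporadicA.SteinerCount
import Cfsg.Agent.S0363
import Cfsg.Agent.SporadicStructure.M24Frame
import Cfsg.Statements.S1562
set_option linter.all false

-- part: SporadicStructure/TriadCount
section
/-!
In a Steiner system `S(5, 8, 24)`: for a 3-subset `T` there are exactly 210 3-subsets disjoint
from `T` lying with `T` in a common block, and 1120 others.
-/

set_option autoImplicit false

namespace Cfsg.Agent.SporadicStructure.TriadCount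

open Finset Cfsg

variable {α : Type*} [Fintype α] [DecidableEq α]

/-- In `S(5, 8, 24)` a 3-subset lies in 21 blocks. -/
theorem card_blocks_triad (hα : Fintype.card α = 24) {B : Set (Finset α)}
    (hB : IsSteinerSystem 5 8 B) (F : Finset (Finset α)) (hF : ∀ b, b ∈ F ↔ b ∈ B)
    {T : Finset α} (hT : T.card = 3) : (F.filter (fun b => T ⊆ b)).card = 21 := by
  have h := SporadicA.SteinerCount.card_blocks_containing hB F hF T (by omega)
  rw [hα, hT] at h
  have h1 : (8 - 3).choose (5 - 3) = 10 := by decide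
  have h2 : (24 - 3).choose (5 - 3) = 210 := by decide
  rw [h1, h2] at h
  omega

theorem ncard_triads_common (hα : Fintype.card α = 24) {B : Set (Finset α)}
    (hB : IsSteinerSystem 5 8 B) {T : Finset α} (hT : T.card = 3) :
    {U : Finset α | U.card = 3 ∧ Disjoint T U ∧ (∃ o ∈ B, T ∪ U ⊆ o)}.ncard = 210 := by
  classical
  set F : Finset (Finset α) := (Set.toFinite B).toFinset with hFdef
  have hF : ∀ b, b ∈ F ↔ b ∈ B := fun b => by rw [hFdef, Set.Finite.mem_toFinset]
  have key : {U : Finset α | U.card = 3 ∧ Disjoint T U ∧ (∃ o ∈ B, T ∪ U ⊆ o)} =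
      (((F.filter (fun b => T ⊆ b)).biUnion (fun b => (b \ T).powersetCard 3) :
        Finset (Finset α)) : Set (Finset α)) := by
    ext U
    rw [Set.mem_ofPred_eq, Finset.mem_coe, Finset.mem_biUnion]
    constructor
    · rintro ⟨hU, hd, o, ho, hs⟩
      refine ⟨o, ?_, ?_⟩
      · rw [Finset.mem_filter, hF]
        exact ⟨ho, Finset.union_subset_left hs⟩
      · rw [Finset.mem_powersetCard]
        refine ⟨?_, hU⟩
        intro x hx
        rw [Finset.mem_sdiff]
        exact ⟨Finset.union_subset_right hs hx, fun hxT => Finset.disjoint_left.1 hd hxT hx⟩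
    · rintro ⟨o, ho, hU⟩
      rw [Finset.mem_filter, hF] at ho
      rw [Finset.mem_powersetCard] at hU
      refine ⟨hU.2, ?_, o, ho.1, ?_⟩
      · rw [Finset.disjoint_left]
        intro x hxT hxU
        exact (Finset.mem_sdiff.1 (hU.1 hxU)).2 hxT
      · exact Finset.union_subset ho.2 (hU.1.trans Finset.sdiff_subset)
  rw [key, Set.ncard_coe_finset, Finset.card_biUnion]
  · rw [Finset.sum_const_nat (m := 10), card_blocks_triad hα hB F hF hT]
    intro b hb
    rw [Finset.mem_filter, hF] at hb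
    rw [Finset.card_powersetCard, Finset.card_sdiff_of_subset hb.2, hB.1 b hb.1, hT]
    decide
  · intro b hb c hc hbc
    rw [Finset.mem_coe, Finset.mem_filter, hF] at hb hc
    change Disjoint ((b \ T).powersetCard 3) ((c \ T).powersetCard 3)
    rw [Finset.disjoint_left]
    intro U hUb hUc
    rw [Finset.mem_powersetCard] at hUb hUc
    have hlt := SporadicA.SteinerCount.card_inter_lt hB hb.1 hc.1 hbc
    have hsub : T ∪ U ⊆ b ∩ c := by
      refine Finset.subset_inter ?_ ?_
      · exact Finset.union_subset hb.2 (hUb.1.trans Finset.sdiff_subset)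
      · exact Finset.union_subset hc.2 (hUc.1.trans Finset.sdiff_subset)
    have hd : Disjoint T U := by
      rw [Finset.disjoint_left]
      intro x hxT hxU
      exact (Finset.mem_sdiff.1 (hUb.1 hxU)).2 hxT
    have hc6 : (T ∪ U).card = 6 := by
      rw [Finset.card_union_of_disjoint hd, hT, hUb.2]
    have := Finset.card_le_card hsub
    omega

theorem ncard_triads_disjoint (hα : Fintype.card α = 24) {T : Finset α} (hT : T.card = 3) :
    {U : Finset α | U.card = 3 ∧ Disjoint T U}.ncard = 1330 := by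
  classical
  have key : {U : Finset α | U.card = 3 ∧ Disjoint T U} =
      (((Tᶜ).powersetCard 3 : Finset (Finset α)) : Set (Finset α)) := by
    ext U
    rw [Set.mem_ofPred_eq, Finset.mem_coe, Finset.mem_powersetCard, and_comm]
    refine and_congr_left fun _ => ?_
    rw [Finset.subset_compl_comm, Finset.disjoint_left, Finset.subset_iff]
    simp only [Finset.mem_compl]
  rw [key, Set.ncard_coe_finset, Finset.card_powersetCard, Finset.card_compl, hα, hT]
  decide

theorem ncard_triads_not_common (hα : Fintype.card α = 24) {B : Set (Finset α)}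
    (hB : IsSteinerSystem 5 8 B) {T : Finset α} (hT : T.card = 3) :
    {U : Finset α | U.card = 3 ∧ Disjoint T U ∧ ¬ (∃ o ∈ B, T ∪ U ⊆ o)}.ncard = 1120 := by
  have h1 := ncard_triads_common hα hB hT
  have h2 := ncard_triads_disjoint hα hT
  have key : {U : Finset α | U.card = 3 ∧ Disjoint T U} =
      {U : Finset α | U.card = 3 ∧ Disjoint T U ∧ (∃ o ∈ B, T ∪ U ⊆ o)} ∪
      {U : Finset α | U.card = 3 ∧ Disjoint T U ∧ ¬ (∃ o ∈ B, T ∪ U ⊆ o)} := by
    ext U
    rw [Set.mem_union, Set.mem_ofPred_eq, Set.mem_ofPred_eq, Set.mem_ofPred_eq]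
    by_cases h : ∃ o ∈ B, T ∪ U ⊆ o
    · exact ⟨fun h' => Or.inl ⟨h'.1, h'.2, h⟩, fun h' => h'.elim (fun h' => ⟨h'.1, h'.2.1⟩)
        (fun h' => ⟨h'.1, h'.2.1⟩)⟩
    · exact ⟨fun h' => Or.inr ⟨h'.1, h'.2, h⟩, fun h' => h'.elim (fun h' => ⟨h'.1, h'.2.1⟩)
        (fun h' => ⟨h'.1, h'.2.1⟩)⟩
  rw [key, Set.ncard_union_eq ?_ (Set.toFinite _) (Set.toFinite _), h1] at h2
  · omega
  · rw [Set.disjoint_left]
    rintro U ⟨_, _, h⟩ ⟨_, _, h'⟩
    exact h' h

end Cfsg.Agent.SporadicStructure.TriadCount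
end

-- part: SporadicStructure/TriadMap
section
/-!
The stabiliser in `M24` of a 3-subset `T` is transitive on the disjoint 3-subsets in a common octad
with `T`, and on the other disjoint 3-subsets.
-/

set_option autoImplicit false

namespace Cfsg.Agent.SporadicStructure.TriadMap

open Finset Cfsg
open scoped Pointwise

theorem card_golayPt : Fintype.card GolayPt = 24 := by
  simp [GolayPt, ZMod.card]

/-- An admissible 7-tuple: six distinct points of an octad and a point outside it. -/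
def Adm (a : Fin 7 → GolayPt) : Prop :=
  Function.Injective a ∧ ∃ o ∈ octads, (∀ i : Fin 7, i < 6 → a i ∈ o) ∧ a 6 ∉ o

theorem exists_map_adm (a b : Fin 7 → GolayPt) (ha : Adm a) (hb : Adm b) :
    ∃ g : Equiv.Perm GolayPt, g ∈ M24 ∧ ∀ i, g (a i) = b i := by
  obtain ⟨hai, o, ho, hao, ha6⟩ := ha
  obtain ⟨hbi, o', ho', hbo, hb6⟩ := hb
  obtain ⟨g, ⟨hg, h1, h2⟩, -⟩ := M24Frame.exists_unique_frame_map (a := fun i => a i.castSucc)
    (a' := fun i => b i.castSucc) ho ho'
    (hai.comp (Fin.castSucc_injective 6)) (hbi.comp (Fin.castSucc_injective 6))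
    (fun i => hao _ (Fin.castSucc_lt_last i)) (fun i => hbo _ (Fin.castSucc_lt_last i)) ha6 hb6
  refine ⟨g, hg, fun i => ?_⟩
  refine Fin.lastCases ?_ (fun j => ?_) i
  · exact h2
  · exact h1 j

/-- Adapted 7-tuples for a pair of disjoint 3-subsets in a common octad. -/
theorem exists_adm_common {T U : Finset GolayPt} (hT : T.card = 3) (hU : U.card = 3)
    (hd : Disjoint T U) (h : ∃ o ∈ octads, T ∪ U ⊆ o) :
    ∃ a : Fin 7 → GolayPt, Adm a ∧ T = {a 0, a 1, a 2} ∧
      U = {a 3, a 4, a 5} := by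
  obtain ⟨o, ho, hs⟩ := h
  obtain ⟨x, y, z, hxy, hxz, hyz, rfl⟩ := Finset.card_eq_three.1 hT
  obtain ⟨u, v, w, huv, huw, hvw, rfl⟩ := Finset.card_eq_three.1 hU
  have hne : ∃ p, p ∉ o := by
    by_contra hcon
    push Not at hcon
    have h1 : o = Finset.univ := Finset.eq_univ_iff_forall.2 hcon
    have h2 : o.card = 8 := ho.2
    rw [h1, Finset.card_univ, card_golayPt] at h2
    omega
  obtain ⟨p, hp⟩ := hne
  have hsub : ∀ q ∈ ({x, y, z} ∪ {u, v, w} : Finset GolayPt), q ∈ o := fun q hq => hs hq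
  have hx : x ∈ o := hsub x (by simp)
  have hy : y ∈ o := hsub y (by simp)
  have hz : z ∈ o := hsub z (by simp)
  have hu : u ∈ o := hsub u (by simp)
  have hv : v ∈ o := hsub v (by simp)
  have hw : w ∈ o := hsub w (by simp)
  have hdis : ∀ q ∈ ({x, y, z} : Finset GolayPt), ∀ r ∈ ({u, v, w} : Finset GolayPt), q ≠ r :=
    fun q hq r hr hqr => Finset.disjoint_left.1 hd hq (hqr ▸ hr)
  have h1 := hdis x (by simp) u (by simp)
  have h2 := hdis x (by simp) v (by simp)
  have h3 := hdis x (by simp) w (by simp)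
  have h4 := hdis y (by simp) u (by simp)
  have h5 := hdis y (by simp) v (by simp)
  have h6 := hdis y (by simp) w (by simp)
  have h7 := hdis z (by simp) u (by simp)
  have h8 := hdis z (by simp) v (by simp)
  have h9 := hdis z (by simp) w (by simp)
  have hpo : ∀ q, q ∈ o → q ≠ p := fun q hq hqp => hp (hqp ▸ hq)
  refine ⟨![x, y, z, u, v, w, p], ⟨?_, o, ho, ?_, hp⟩, rfl, rfl⟩
  · have hinj : List.Nodup [x, y, z, u, v, w, p] := by
      simp only [List.nodup_cons, List.mem_cons, List.not_mem_nil, or_false, not_or,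
        List.nodup_nil, and_true, not_false_iff]
      exact ⟨⟨hxy, hxz, h1, h2, h3, hpo x hx⟩, ⟨hyz, h4, h5, h6, hpo y hy⟩,
        ⟨h7, h8, h9, hpo z hz⟩, ⟨huv, huw, hpo u hu⟩, ⟨hvw, hpo v hv⟩, hpo w hw⟩
    have h7 : (List.ofFn (![x, y, z, u, v, w, p] : Fin 7 → GolayPt)).Nodup := hinj
    exact List.nodup_ofFn.1 h7
  · intro i hi
    fin_cases i
    · exact hx
    · exact hy
    · exact hz
    · exact hu
    · exact hv
    · exact hw
    · exact absurd hi (by decide)

/-- Adapted 7-tuples for a pair of disjoint 3-subsets not in a common octad. -/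
theorem exists_adm_not_common {T U : Finset GolayPt} (hT : T.card = 3) (hU : U.card = 3)
    (hd : Disjoint T U) (h : ¬ ∃ o ∈ octads, T ∪ U ⊆ o) :
    ∃ a : Fin 7 → GolayPt, Adm a ∧ T = {a 0, a 1, a 2} ∧
      U = {a 3, a 4, a 6} := by
  obtain ⟨x, y, z, hxy, hxz, hyz, rfl⟩ := Finset.card_eq_three.1 hT
  obtain ⟨u, v, w, huv, huw, hvw, rfl⟩ := Finset.card_eq_three.1 hU
  have hdis : ∀ q ∈ ({x, y, z} : Finset GolayPt), ∀ r ∈ ({u, v, w} : Finset GolayPt), q ≠ r :=
    fun q hq r hr hqr => Finset.disjoint_left.1 hd hq (hqr ▸ hr)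
  have h1 := hdis x (by simp) u (by simp)
  have h2 := hdis x (by simp) v (by simp)
  have h3 := hdis x (by simp) w (by simp)
  have h4 := hdis y (by simp) u (by simp)
  have h5 := hdis y (by simp) v (by simp)
  have h6 := hdis y (by simp) w (by simp)
  have h7 := hdis z (by simp) u (by simp)
  have h8 := hdis z (by simp) v (by simp)
  have h9 := hdis z (by simp) w (by simp)
  have hcard : ({x, y, z, u, v} : Finset GolayPt).card = 5 := by
    rw [Finset.card_insert_of_notMem, Finset.card_insert_of_notMem, Finset.card_insert_of_notMem,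
      Finset.card_insert_of_notMem, Finset.card_singleton]
    · simpa using huv
    · simp only [Finset.mem_insert, Finset.mem_singleton, not_or]
      exact ⟨h7, h8⟩
    · simp only [Finset.mem_insert, Finset.mem_singleton, not_or]
      exact ⟨hyz, h4, h5⟩
    · simp only [Finset.mem_insert, Finset.mem_singleton, not_or]
      exact ⟨hxy, hxz, h1, h2⟩
  obtain ⟨o, ⟨ho, hs⟩, -⟩ := Cfsg.Agent.S0363.result.2 {x, y, z, u, v} hcard
  have hx : x ∈ o := hs (by simp)
  have hy : y ∈ o := hs (by simp)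
  have hz : z ∈ o := hs (by simp)
  have hu : u ∈ o := hs (by simp)
  have hv : v ∈ o := hs (by simp)
  have hw : w ∉ o := by
    intro hw
    refine h ⟨o, ho, ?_⟩
    intro q hq
    simp only [Finset.mem_union, Finset.mem_insert, Finset.mem_singleton] at hq
    rcases hq with (rfl | rfl | rfl) | (rfl | rfl | rfl) <;> assumption
  have hne : ∃ p, p ∈ o ∧ p ∉ ({x, y, z, u, v} : Finset GolayPt) := by
    have hlt : ({x, y, z, u, v} : Finset GolayPt).card < o.card := by
      rw [hcard, ho.2]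
      omega
    exact Finset.exists_mem_notMem_of_card_lt_card hlt
  obtain ⟨p, hp, hpn⟩ := hne
  simp only [Finset.mem_insert, Finset.mem_singleton, not_or] at hpn
  obtain ⟨hpx, hpy, hpz, hpu, hpv⟩ := hpn
  have hpo : ∀ q, q ∈ o → q ≠ w := fun q hq hqp => hw (hqp ▸ hq)
  refine ⟨![x, y, z, u, v, p, w], ⟨?_, o, ho, ?_, hw⟩, rfl, rfl⟩
  · have hinj : List.Nodup [x, y, z, u, v, p, w] := by
      simp only [List.nodup_cons, List.mem_cons, List.not_mem_nil, or_false, not_or,
        List.nodup_nil, and_true, not_false_iff]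
      exact ⟨⟨hxy, hxz, h1, h2, Ne.symm hpx, h3⟩, ⟨hyz, h4, h5, Ne.symm hpy, h6⟩,
        ⟨h7, h8, Ne.symm hpz, h9⟩, ⟨huv, Ne.symm hpu, huw⟩, ⟨Ne.symm hpv, hvw⟩, hpo p hp⟩
    have h7 : (List.ofFn (![x, y, z, u, v, p, w] : Fin 7 → GolayPt)).Nodup := hinj
    exact List.nodup_ofFn.1 h7
  · intro i hi
    fin_cases i
    · exact hx
    · exact hy
    · exact hz
    · exact hu
    · exact hv
    · exact hp
    · exact absurd hi (by decide)

theorem smul_triple (g : Equiv.Perm GolayPt) (x y z : GolayPt) :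
    g • ({x, y, z} : Finset GolayPt) = {g x, g y, g z} := by
  rw [Finset.smul_finset_insert, Finset.smul_finset_insert, Finset.smul_finset_singleton]
  rfl

theorem exists_map {T U U' : Finset GolayPt} (hT : T.card = 3) (hU : U.card = 3)
    (hU' : U'.card = 3) (hd : Disjoint T U) (hd' : Disjoint T U')
    (h : (∃ o ∈ octads, T ∪ U ⊆ o) ↔ (∃ o ∈ octads, T ∪ U' ⊆ o)) :
    ∃ g : Equiv.Perm GolayPt, g ∈ M24 ∧ g • T = T ∧ g • U = U' := by
  by_cases hc : ∃ o ∈ octads, T ∪ U ⊆ o
  · obtain ⟨a, ha, hTa, hUa⟩ := exists_adm_common hT hU hd hc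
    obtain ⟨b, hb, hTb, hUb⟩ := exists_adm_common hT hU' hd' (h.1 hc)
    obtain ⟨g, hg, hgab⟩ := exists_map_adm a b ha hb
    refine ⟨g, hg, ?_, ?_⟩
    · conv_lhs => rw [hTa]
      rw [smul_triple, hgab, hgab, hgab, hTb]
    · rw [hUa, smul_triple, hgab, hgab, hgab, hUb]
  · obtain ⟨a, ha, hTa, hUa⟩ := exists_adm_not_common hT hU hd hc
    obtain ⟨b, hb, hTb, hUb⟩ := exists_adm_not_common hT hU' hd' (fun h' => hc (h.2 h'))
    obtain ⟨g, hg, hgab⟩ := exists_map_adm a b ha hb
    refine ⟨g, hg, ?_, ?_⟩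
    · conv_lhs => rw [hTa]
      rw [smul_triple, hgab, hgab, hgab, hTb]
    · rw [hUa, smul_triple, hgab, hgab, hgab, hUb]

end Cfsg.Agent.SporadicStructure.TriadMap
end

-- part: S1562
section
set_option autoImplicit false
open scoped Pointwise
open Cfsg

namespace Cfsg.Agent.S1562

/-- Orbits of a triad stabiliser on the triads disjoint from it: the 210 triads inside a common octad with it form one orbit and the remaining 1120 another. -/
theorem result (T : Finset Cfsg.GolayPt) (hT : T.card = 3) : {U : Finset Cfsg.GolayPt | U.card = 3 ∧ Disjoint T U ∧ (∃ o ∈ Cfsg.octads, T ∪ U ⊆ o)}.ncard = 210 ∧ {U : Finset Cfsg.GolayPt | U.card = 3 ∧ Disjoint T U ∧ ¬ (∃ o ∈ Cfsg.octads, T ∪ U ⊆ o)}.ncard = 1120 ∧ ∀ U U' : Finset Cfsg.GolayPt, U.card = 3 → U'.card = 3 → Disjoint T U → Disjoint T U' → ((∃ o ∈ Cfsg.octads, T ∪ U ⊆ o) ↔ (∃ o ∈ Cfsg.octads, T ∪ U' ⊆ o)) → ∃ g : Equiv.Perm Cfsg.GolayPt, g ∈ Cfsg.M24 ∧ g • T = T ∧ g • U = U' := by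
  have hc : Fintype.card GolayPt = 24 := SporadicStructure.TriadMap.card_golayPt
  exact ⟨SporadicStructure.TriadCount.ncard_triads_common hc Cfsg.Agent.S0363.result hT,
    SporadicStructure.TriadCount.ncard_triads_not_common hc Cfsg.Agent.S0363.result hT,
    fun U U' hU hU' hd hd' h => SporadicStructure.TriadMap.exists_map hT hU hU' hd hd' h⟩

end Cfsg.Agent.S1562
end
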