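import Cfsg.Agent.SporadicA.LeechSet
import Cfsg.Agent.SporadicA.GolayBase
import Cfsg.Agent.S0358
import Cfsg.Statements.S1568
import Cfsg.Agent.S0360
import Cfsg.Agent.S0361
set_option linter.all false

-- part: Leech/Shapes48
section
/-!
# Shapes of the lattice vectors of sum of squares 48
-/

set_option autoImplicit false

namespace Cfsg.Agent.Leech.Shapes48

open Cfsg Finset

/-! ### Counting subsets of given parity -/

theorem card_even_powerset {α : Type*} [DecidableEq α] {c : Finset α} (hc : c.Nonempty) :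
    2 * (c.powerset.filter fun s => Even s.card).card = 2 ^ c.card ∧
      2 * (c.powerset.filter fun s => ¬ Even s.card).card = 2 ^ c.card := by
  have h1 := Finset.sum_powerset_neg_one_pow_card_of_nonempty hc
  have h2 := Finset.card_filter_add_card_filter_not (s := c.powerset) (fun s => Even s.card)
  rw [Finset.card_powerset] at h2
  rw [← Finset.sum_filter_add_sum_filter_not c.powerset (fun s => Even s.card)] at h1
  rw [Finset.sum_congr rfl (g := fun _ => (1 : ℤ))
      (fun s hs => Even.neg_one_pow (Finset.mem_filter.1 hs).2),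
    Finset.sum_congr rfl (g := fun _ => (-1 : ℤ))
      (fun s hs => Odd.neg_one_pow (Nat.not_even_iff_odd.1 (Finset.mem_filter.1 hs).2))] at h1
  simp only [Finset.sum_const, nsmul_eq_mul, mul_one, mul_neg] at h1
  have h3 : (c.powerset.filter fun s => Even s.card).card =
      (c.powerset.filter fun s => ¬ Even s.card).card := by
    zify; linarith
  omega

/-! ### Indicator functions -/

/-- The indicator function of a set. -/
def δ {α : Type*} [DecidableEq α] (s : Finset α) (i : α) : ℤ := if i ∈ s then 1 else 0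

theorem δ_pos {α : Type*} [DecidableEq α] {s : Finset α} {i : α} (h : i ∈ s) : δ s i = 1 :=
  if_pos h

theorem δ_neg {α : Type*} [DecidableEq α] {s : Finset α} {i : α} (h : i ∉ s) : δ s i = 0 :=
  if_neg h

theorem sum_δ {α : Type*} [Fintype α] [DecidableEq α] (s : Finset α) :
    ∑ i, δ s i = s.card := by
  have : ∀ i, δ s i = if i ∈ s then (1 : ℤ) else 0 := fun i => rfl
  simp only [this]
  rw [Finset.sum_ite_mem, Finset.univ_inter, Finset.sum_const, nsmul_eq_mul, mul_one]

/-! ### The lattice -/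

theorem card_pt : Fintype.card GolayPt = 24 := by decide

/-- The code as a family of subsets. -/
abbrev code : Set (Finset GolayPt) := supports (golayCode : Set (GolayPt → ZMod 2))

theorem cast_half_even (a : ℤ) : ((a : ℤ) : ZMod 2) = if a % 2 = 1 then 1 else 0 := by
  have h20 : (2 : ZMod 2) = 0 := by decide
  by_cases h : a % 2 = 1
  · rw [if_pos h]
    have : a = 2 * (a / 2) + 1 := by omega
    rw [this]
    push_cast
    rw [h20]
    ring
  · rw [if_neg h]
    have : a = 2 * (a / 2) := by omega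
    rw [this]
    push_cast
    rw [h20]
    ring

/-- Working description of the lattice: even and odd vectors. -/
theorem mem_iff (x : GolayPt → ℤ) : x ∈ leechLattice ↔
    (∃ c ∈ code, (∀ i, x i % 4 = if i ∈ c then 2 else 0) ∧ (∑ i, x i) % 8 = 0) ∨
    (∃ c ∈ code, (∀ i, x i % 4 = if i ∈ c then 3 else 1) ∧ (∑ i, x i) % 8 = 4) := by
  constructor
  · intro hx
    rw [Cfsg.Agent.SporadicA.LeechSet.mem_leechLattice_iff] at hx
    obtain ⟨m, hm, hs, hk⟩ := hx
    rcases Int.even_or_odd' m with ⟨n, hn | hn⟩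
    · left
      refine ⟨_, hk 2, fun i => ?_, ?_⟩
      · have h1 := hm i
        simp only [Finset.mem_filter, Finset.mem_univ, true_and]
        unfold Int.ModEq at h1 ⊢
        split_ifs with h
        · omega
        · omega
      · unfold Int.ModEq at hs
        omega
    · right
      refine ⟨_, hk 3, fun i => ?_, ?_⟩
      · have h1 := hm i
        simp only [Finset.mem_filter, Finset.mem_univ, true_and]
        unfold Int.ModEq at h1 ⊢
        split_ifs with h
        · omega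
        · omega
      · unfold Int.ModEq at hs
        omega
  · intro h
    rw [Cfsg.Agent.SporadicA.LeechSet.mem_leechLattice_iff']
    rcases h with ⟨c, hc, hi, hs⟩ | ⟨c, hc, hi, hs⟩
    · refine ⟨0, fun i => x i / 2, fun i => ?_, ?_, ?_⟩
      · have h1 := hi i
        dsimp only
        split_ifs at h1 <;> omega
      · unfold Int.ModEq
        omega
      · rw [Cfsg.Agent.SporadicA.LeechSet.mem_supports_iff] at hc
        have key : (fun i => ((x i / 2 : ℤ) : ZMod 2)) =
            fun a => if a ∈ c then (1 : ZMod 2) else 0 := by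
          funext i
          rw [cast_half_even]
          have h1 := hi i
          by_cases h : i ∈ c
          · rw [if_pos h] at h1 ⊢
            rw [if_pos (by omega)]
          · rw [if_neg h] at h1 ⊢
            rw [if_neg (by omega)]
        change (fun i => ((x i / 2 : ℤ) : ZMod 2)) ∈ golayCode
        rw [key]
        exact hc
    · refine ⟨1, fun i => (x i - 1) / 2, fun i => ?_, ?_, ?_⟩
      · have h1 := hi i
        dsimp only
        split_ifs at h1 <;> omega
      · unfold Int.ModEq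
        omega
      · rw [Cfsg.Agent.SporadicA.LeechSet.mem_supports_iff] at hc
        have key : (fun i => (((x i - 1) / 2 : ℤ) : ZMod 2)) =
            fun a => if a ∈ c then (1 : ZMod 2) else 0 := by
          funext i
          rw [cast_half_even]
          have h1 := hi i
          by_cases h : i ∈ c
          · rw [if_pos h] at h1 ⊢
            rw [if_pos (by omega)]
          · rw [if_neg h] at h1 ⊢
            rw [if_neg (by omega)]
        change (fun i => (((x i - 1) / 2 : ℤ) : ZMod 2)) ∈ golayCode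
        rw [key]
        exact hc

theorem code_card {c : Finset GolayPt} (hc : c ∈ code) :
    c.card = 0 ∨ c.card = 8 ∨ c.card = 12 ∨ c.card = 16 ∨ c.card = 24 :=
  Cfsg.Agent.SporadicA.GolayBase.card_of_mem_supports hc

theorem sqNorm_eq (x : GolayPt → ℤ) : sqNorm x = ∑ i, x i ^ 2 := rfl

theorem code_finite : code.Finite := Set.toFinite _

/-- The codewords of weight `n` as a finset. -/
noncomputable def codeW (n : ℕ) : Finset (Finset GolayPt) :=
  (code_finite.toFinset).filter fun c => c.card = n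

theorem mem_codeW {n : ℕ} {c : Finset GolayPt} : c ∈ codeW n ↔ c ∈ code ∧ c.card = n := by
  rw [codeW, Finset.mem_filter, Set.Finite.mem_toFinset]

theorem card_codeW_eq (n : ℕ) :
    (codeW n).card = (wordsOfWeight (golayCode : Set (GolayPt → ZMod 2)) n).ncard := by
  rw [← Set.ncard_coe_finset]
  congr 1
  ext c
  rw [Finset.mem_coe, mem_codeW]
  rfl

/-! ### Shape (±2^12, 0^12) -/

/-- The vector equal to `-2` on `s`, to `2` on `c \ s` and to `0` off `c` (for `s ⊆ c`). -/
def v1 (c s : Finset GolayPt) : GolayPt → ℤ := fun i => 2 * δ c i - 4 * δ s i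

theorem sum_v1 (c s : Finset GolayPt) : ∑ i, v1 c s i = 2 * c.card - 4 * s.card := by
  change ∑ i, (2 * δ c i - 4 * δ s i) = _
  rw [Finset.sum_sub_distrib, ← Finset.mul_sum, ← Finset.mul_sum, sum_δ, sum_δ]

theorem v1_cases {c s : Finset GolayPt} (h : s ⊆ c) (i : GolayPt) :
    (i ∈ s ∧ i ∈ c ∧ v1 c s i = -2) ∨ (i ∉ s ∧ i ∈ c ∧ v1 c s i = 2) ∨
      (i ∉ s ∧ i ∉ c ∧ v1 c s i = 0) := by
  change (i ∈ s ∧ i ∈ c ∧ 2 * δ c i - 4 * δ s i = -2) ∨
    (i ∉ s ∧ i ∈ c ∧ 2 * δ c i - 4 * δ s i = 2) ∨ (i ∉ s ∧ i ∉ c ∧ 2 * δ c i - 4 * δ s i = 0)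
  by_cases hs : i ∈ s
  · left
    refine ⟨hs, h hs, ?_⟩
    rw [δ_pos hs, δ_pos (h hs)]; norm_num
  · right
    by_cases hc : i ∈ c
    · left
      refine ⟨hs, hc, ?_⟩
      rw [δ_neg hs, δ_pos hc]; norm_num
    · right
      refine ⟨hs, hc, ?_⟩
      rw [δ_neg hs, δ_neg hc]; norm_num

theorem norm_v1 {c s : Finset GolayPt} (h : s ⊆ c) : sqNorm (v1 c s) = 4 * c.card := by
  rw [sqNorm_eq, ← sum_δ, Finset.mul_sum]
  refine Finset.sum_congr rfl fun i _ => ?_
  rcases v1_cases h i with ⟨_, h2, h3⟩ | ⟨_, h2, h3⟩ | ⟨_, h2, h3⟩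
  · rw [h3, δ_pos h2]; norm_num
  · rw [h3, δ_pos h2]; norm_num
  · rw [h3, δ_neg h2]; norm_num

theorem v1_inj {c s c' s' : Finset GolayPt} (h : s ⊆ c) (h' : s' ⊆ c')
    (he : v1 c s = v1 c' s') : c = c' ∧ s = s' := by
  have key : ∀ i, v1 c s i = v1 c' s' i := fun i => congrFun he i
  constructor <;> ext i <;> have hi := key i <;>
  rcases v1_cases h i with ⟨h1, h2, h3⟩ | ⟨h1, h2, h3⟩ | ⟨h1, h2, h3⟩ <;>
  rcases v1_cases h' i with ⟨h4, h5, h6⟩ | ⟨h4, h5, h6⟩ | ⟨h4, h5, h6⟩ <;>
  rw [h3, h6] at hi <;> first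
    | (simp only [h1, h2, h4, h5]; done)
    | (norm_num at hi)

/-- The index set of the first shape. -/
noncomputable def D1 : Finset (Σ _ : Finset GolayPt, Finset GolayPt) :=
  (codeW 12).sigma fun c => c.powerset.filter fun s => Even s.card

theorem mem_D1 {p : Σ _ : Finset GolayPt, Finset GolayPt} :
    p ∈ D1 ↔ (p.1 ∈ code ∧ p.1.card = 12) ∧ p.2 ⊆ p.1 ∧ Even p.2.card := by
  rw [D1, Finset.mem_sigma, Finset.mem_filter, Finset.mem_powerset, mem_codeW]

theorem card_D1 : D1.card = (codeW 12).card * 2048 := by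
  rw [D1, Finset.card_sigma, Finset.sum_const_nat]
  intro c hc
  rw [mem_codeW] at hc
  have := (card_even_powerset (c := c) (by rw [← Finset.card_pos]; omega)).1
  rw [hc.2] at this
  omega

theorem set1_eq : {x : GolayPt → ℤ | x ∈ leechLattice ∧ sqNorm x = 48 ∧
    ∀ i, x i = 0 ∨ x i = 2 ∨ x i = -2} = ((D1.image fun p => v1 p.1 p.2 : Finset _) : Set _) := by
  ext x
  rw [Finset.coe_image]
  constructor
  · rintro ⟨hx, hn, h3⟩
    rw [mem_iff] at hx
    rcases hx with ⟨c, hc, hi, hs⟩ | ⟨c, hc, hi, hs⟩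
    · set s : Finset GolayPt := Finset.univ.filter fun i => x i = -2 with hsd
      have hms : ∀ i, i ∈ s ↔ x i = -2 := fun i => by rw [hsd]; simp
      have hsc : s ⊆ c := by
        intro i his
        rw [hms] at his
        by_contra hic
        have := hi i
        rw [if_neg hic, his] at this
        omega
      have hxv : x = v1 c s := by
        funext i
        have hii := hi i
        have h3i := h3 i
        rcases v1_cases hsc i with ⟨h1, h2, h4⟩ | ⟨h1, h2, h4⟩ | ⟨h1, h2, h4⟩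
        · rw [h4]; exact (hms i).1 h1
        · rw [if_pos h2] at hii
          have : x i ≠ -2 := fun h => h1 ((hms i).2 h)
          rw [h4]; omega
        · rw [if_neg h2] at hii
          rw [h4]; omega
      have h12 : c.card = 12 := by
        rw [hxv, norm_v1 hsc] at hn
        omega
      have hev : Even s.card := by
        rw [hxv, sum_v1, h12] at hs
        rw [Nat.even_iff]
        omega
      exact ⟨⟨c, s⟩, mem_D1.2 ⟨⟨hc, h12⟩, hsc, hev⟩, hxv.symm⟩
    · exfalso
      have h1 := hi none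
      have h2 := h3 none
      split_ifs at h1 <;> omega
  · rintro ⟨⟨c, s⟩, hp, rfl⟩
    rw [Finset.mem_coe, mem_D1] at hp
    obtain ⟨⟨hc, h12⟩, hsc, hev⟩ := hp
    dsimp only at hc h12 hsc hev ⊢
    refine ⟨?_, ?_, ?_⟩
    · rw [mem_iff]
      left
      refine ⟨c, hc, fun i => ?_, ?_⟩
      · rcases v1_cases hsc i with ⟨h1, h2, h4⟩ | ⟨h1, h2, h4⟩ | ⟨h1, h2, h4⟩
        · rw [h4, if_pos h2]; rfl
        · rw [h4, if_pos h2]; rfl
        · rw [h4, if_neg h2]; rfl
      · rw [sum_v1, h12]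
        rw [Nat.even_iff] at hev
        omega
    · rw [norm_v1 hsc, h12]; rfl
    · intro i
      rcases v1_cases hsc i with ⟨h1, h2, h4⟩ | ⟨h1, h2, h4⟩ | ⟨h1, h2, h4⟩
      · exact Or.inr (Or.inr h4)
      · exact Or.inr (Or.inl h4)
      · exact Or.inl h4

theorem set1_ncard : {x : GolayPt → ℤ | x ∈ leechLattice ∧ sqNorm x = 48 ∧
    ∀ i, x i = 0 ∨ x i = 2 ∨ x i = -2}.ncard = (codeW 12).card * 2048 := by
  rw [set1_eq, Set.ncard_coe_finset, Finset.card_image_of_injOn, card_D1]
  rintro ⟨c, s⟩ hp ⟨c', s'⟩ hp' he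
  rw [Finset.mem_coe, mem_D1] at hp hp'
  obtain ⟨h1, h2⟩ := v1_inj hp.2.1 hp'.2.1 he
  dsimp only at h1 h2
  subst h1 h2
  rfl

/-! ### Shape (±4, ±2^8, 0^15) -/

theorem sq_eq_four {a : ℤ} (h : a ^ 2 = 4) : a = 2 ∨ a = -2 := by
  have h1 : (a - 2) * (a + 2) = 0 := by linear_combination h
  rcases mul_eq_zero.1 h1 with h2 | h2
  · left; omega
  · right; omega

/-- The vector equal to `t` at `p`, to `-2` on `s`, to `2` on `c \ s` and to `0` elsewhere. -/
def v3 (c : Finset GolayPt) (p : GolayPt) (t : ℤ) (s : Finset GolayPt) : GolayPt → ℤ :=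
  fun i => v1 c s i + t * δ {p} i

theorem sum_v3 (c : Finset GolayPt) (p : GolayPt) (t : ℤ) (s : Finset GolayPt) :
    ∑ i, v3 c p t s i = 2 * c.card - 4 * s.card + t := by
  change ∑ i, (v1 c s i + t * δ {p} i) = _
  rw [Finset.sum_add_distrib, sum_v1, ← Finset.mul_sum, sum_δ, Finset.card_singleton]
  norm_num

theorem v3_cases {c : Finset GolayPt} {p : GolayPt} (t : ℤ) {s : Finset GolayPt} (h : s ⊆ c)
    (hp : p ∉ c) (i : GolayPt) :
    (i = p ∧ i ∉ s ∧ i ∉ c ∧ v3 c p t s i = t) ∨ (i ≠ p ∧ i ∈ s ∧ i ∈ c ∧ v3 c p t s i = -2) ∨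
      (i ≠ p ∧ i ∉ s ∧ i ∈ c ∧ v3 c p t s i = 2) ∨
      (i ≠ p ∧ i ∉ s ∧ i ∉ c ∧ v3 c p t s i = 0) := by
  have hv : v3 c p t s i = v1 c s i + t * δ {p} i := rfl
  by_cases hip : i = p
  · left
    subst hip
    have hs : i ∉ s := fun hh => hp (h hh)
    refine ⟨rfl, hs, hp, ?_⟩
    rw [hv, δ_pos (Finset.mem_singleton_self i)]
    rcases v1_cases h i with ⟨h1, h2, h3⟩ | ⟨h1, h2, h3⟩ | ⟨h1, h2, h3⟩
    · exact absurd h2 hp
    · exact absurd h2 hp
    · rw [h3]; ring
  · right
    have hd : δ {p} i = 0 := δ_neg (by rw [Finset.mem_singleton]; exact hip)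
    rw [hv, hd, mul_zero, add_zero]
    rcases v1_cases h i with ⟨h1, h2, h3⟩ | ⟨h1, h2, h3⟩ | ⟨h1, h2, h3⟩
    · exact Or.inl ⟨hip, h1, h2, h3⟩
    · exact Or.inr (Or.inl ⟨hip, h1, h2, h3⟩)
    · exact Or.inr (Or.inr ⟨hip, h1, h2, h3⟩)

theorem norm_v3 {c : Finset GolayPt} {p : GolayPt} (t : ℤ) {s : Finset GolayPt} (h : s ⊆ c)
    (hp : p ∉ c) : sqNorm (v3 c p t s) = 4 * c.card + t ^ 2 := by
  have : ∀ i, v3 c p t s i ^ 2 = 4 * δ c i + t ^ 2 * δ {p} i := by
    intro i
    rcases v3_cases t h hp i with ⟨h0, h1, h2, h3⟩ | ⟨h0, h1, h2, h3⟩ | ⟨h0, h1, h2, h3⟩ |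
      ⟨h0, h1, h2, h3⟩
    · rw [h3, δ_neg h2, h0, δ_pos (Finset.mem_singleton_self _)]; ring
    · rw [h3, δ_pos h2, δ_neg (by rw [Finset.mem_singleton]; exact h0)]; ring
    · rw [h3, δ_pos h2, δ_neg (by rw [Finset.mem_singleton]; exact h0)]; ring
    · rw [h3, δ_neg h2, δ_neg (by rw [Finset.mem_singleton]; exact h0)]; ring
  rw [sqNorm_eq, Finset.sum_congr rfl fun i _ => this i, Finset.sum_add_distrib,
    ← Finset.mul_sum, ← Finset.mul_sum, sum_δ, sum_δ, Finset.card_singleton]
  ring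

theorem v3_inj {c c' : Finset GolayPt} {p p' : GolayPt} {t t' : ℤ} {s s' : Finset GolayPt}
    (h : s ⊆ c) (h' : s' ⊆ c') (hp : p ∉ c) (hp' : p' ∉ c') (ht : t = 4 ∨ t = -4)
    (ht' : t' = 4 ∨ t' = -4) (he : v3 c p t s = v3 c' p' t' s') :
    c = c' ∧ p = p' ∧ t = t' ∧ s = s' := by
  have key : ∀ i, v3 c p t s i = v3 c' p' t' s' i := fun i => congrFun he i
  have hpp : p = p' := by
    have hi := key p
    rcases v3_cases t h hp p with ⟨h0, h1, h2, h3⟩ | ⟨h0, h1, h2, h3⟩ | ⟨h0, h1, h2, h3⟩ |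
      ⟨h0, h1, h2, h3⟩
    · rcases v3_cases t' h' hp' p with ⟨g0, g1, g2, g3⟩ | ⟨g0, g1, g2, g3⟩ | ⟨g0, g1, g2, g3⟩ |
        ⟨g0, g1, g2, g3⟩
      · exact g0
      · exfalso; rw [h3, g3] at hi; omega
      · exfalso; rw [h3, g3] at hi; omega
      · exfalso; rw [h3, g3] at hi; omega
    · exact absurd rfl h0
    · exact absurd rfl h0
    · exact absurd rfl h0
  subst hpp
  have htt : t = t' := by
    have hi := key p
    rcases v3_cases t h hp p with ⟨h0, h1, h2, h3⟩ | ⟨h0, h1, h2, h3⟩ | ⟨h0, h1, h2, h3⟩ |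
      ⟨h0, h1, h2, h3⟩
    · rcases v3_cases t' h' hp' p with ⟨g0, g1, g2, g3⟩ | ⟨g0, g1, g2, g3⟩ | ⟨g0, g1, g2, g3⟩ |
        ⟨g0, g1, g2, g3⟩
      · rw [h3, g3] at hi; exact hi
      · exact absurd rfl g0
      · exact absurd rfl g0
      · exact absurd rfl g0
    · exact absurd rfl h0
    · exact absurd rfl h0
    · exact absurd rfl h0
  have hv : v1 c s = v1 c' s' := by
    funext i
    have hi := key i
    change v1 c s i + t * δ {p} i = v1 c' s' i + t' * δ {p} i at hi
    rw [htt] at hi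
    exact add_right_cancel hi
  obtain ⟨h1, h2⟩ := v1_inj h h' hv
  exact ⟨h1, rfl, htt, h2⟩

/-- The index set of the third shape. -/
noncomputable def D3 : Finset (Σ _ : Finset GolayPt, GolayPt × ℤ × Finset GolayPt) :=
  (codeW 8).sigma fun c =>
    (Finset.univ \ c) ×ˢ (({4, -4} : Finset ℤ) ×ˢ (c.powerset.filter fun s => ¬ Even s.card))

theorem mem_D3 {q : Σ _ : Finset GolayPt, GolayPt × ℤ × Finset GolayPt} :
    q ∈ D3 ↔ (q.1 ∈ code ∧ q.1.card = 8) ∧ q.2.1 ∉ q.1 ∧ (q.2.2.1 = 4 ∨ q.2.2.1 = -4) ∧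
      q.2.2.2 ⊆ q.1 ∧ ¬ Even q.2.2.2.card := by
  rw [D3, Finset.mem_sigma, Finset.mem_product, Finset.mem_product, Finset.mem_filter,
    Finset.mem_powerset, mem_codeW, Finset.mem_sdiff, Finset.mem_insert, Finset.mem_singleton]
  simp only [Finset.mem_univ, true_and]

theorem card_D3 : D3.card = (codeW 8).card * 4096 := by
  rw [D3, Finset.card_sigma, Finset.sum_const_nat]
  intro c hc
  rw [mem_codeW] at hc
  have h1 := (card_even_powerset (c := c) (by rw [← Finset.card_pos]; omega)).2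
  rw [hc.2] at h1
  rw [Finset.card_product, Finset.card_product, Finset.card_sdiff_of_subset
    (Finset.subset_univ _), Finset.card_univ, card_pt, hc.2]
  have h2 : (c.powerset.filter fun s => ¬ Even s.card).card = 128 := by omega
  rw [h2]
  rfl

theorem set3_eq : {x : GolayPt → ℤ | x ∈ leechLattice ∧ sqNorm x = 48 ∧ ∃ i, |x i| = 4} =
    ((D3.image fun q => v3 q.1 q.2.1 q.2.2.1 q.2.2.2 : Finset _) : Set _) := by
  ext x
  rw [Finset.coe_image]
  constructor
  · rintro ⟨hx, hn, p, hp⟩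
    have hp4 : x p = 4 ∨ x p = -4 := by
      rcases abs_cases (x p) with ⟨h, _⟩ | ⟨h, _⟩ <;> omega
    rw [mem_iff] at hx
    rcases hx with ⟨c, hc, hi, hs⟩ | ⟨c, hc, hi, hs⟩
    · have hpc : p ∉ c := by
        intro h
        have := hi p
        rw [if_pos h] at this
        omega
      have hle : ∀ i ∈ (Finset.univ : Finset GolayPt),
          4 * δ c i + 16 * δ {p} i ≤ x i ^ 2 := by
        intro i _
        have hii := hi i
        by_cases hic : i ∈ c
        · have hip : i ≠ p := fun h => hpc (h ▸ hic)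
          rw [if_pos hic] at hii
          rw [δ_pos hic, δ_neg (by rw [Finset.mem_singleton]; exact hip)]
          have : x i ≤ -2 ∨ 2 ≤ x i := by omega
          rcases this with h | h <;> nlinarith
        · by_cases hip : i = p
          · rw [δ_neg hic, hip, δ_pos (Finset.mem_singleton_self _)]
            rcases hp4 with h | h <;> rw [h] <;> norm_num
          · rw [δ_neg hic, δ_neg (by rw [Finset.mem_singleton]; exact hip)]
            have := sq_nonneg (x i)
            linarith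
      have hsum : ∑ i, (4 * δ c i + 16 * δ {p} i) = 4 * c.card + 16 := by
        rw [Finset.sum_add_distrib, ← Finset.mul_sum, ← Finset.mul_sum, sum_δ, sum_δ,
          Finset.card_singleton]
        norm_num
      have hcle : (c.card : ℤ) ≤ 8 := by
        have := Finset.sum_le_sum hle
        rw [hsum, ← sqNorm_eq, hn] at this
        linarith
      have h8 : c.card = 8 := by
        rcases code_card hc with h | h | h | h | h
        · -- all coordinates divisible by 4
          exfalso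
          have hdvd : (32 : ℤ) ∣ ∑ i, (x i ^ 2 - 4 * x i) := by
            refine Finset.dvd_sum fun i _ => ?_
            have hii := hi i
            rw [Finset.card_eq_zero.1 h, if_neg (Finset.notMem_empty i)] at hii
            obtain ⟨y, hy⟩ : ∃ y, x i = 4 * y := ⟨x i / 4, by omega⟩
            rw [hy]
            rcases Int.even_or_odd' y with ⟨k, hk | hk⟩
            · exact ⟨2 * k ^ 2 - k, by rw [hk]; ring⟩
            · exact ⟨2 * k ^ 2 + k, by rw [hk]; ring⟩
          rw [Finset.sum_sub_distrib, ← sqNorm_eq, hn, ← Finset.mul_sum] at hdvd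
          omega
        · exact h
        all_goals omega
      have heq : ∀ i, 4 * δ c i + 16 * δ {p} i = x i ^ 2 := by
        have := (Finset.sum_eq_sum_iff_of_le hle).1 (by
          rw [hsum, ← sqNorm_eq, hn, h8]; norm_num)
        exact fun i => this i (Finset.mem_univ i)
      set s : Finset GolayPt := Finset.univ.filter fun i => x i = -2 with hsd
      have hms : ∀ i, i ∈ s ↔ x i = -2 := fun i => by rw [hsd]; simp
      have hsc : s ⊆ c := by
        intro i his
        rw [hms] at his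
        by_contra hic
        have := hi i
        rw [if_neg hic, his] at this
        omega
      have hxv : x = v3 c p (x p) s := by
        funext i
        have hii := heq i
        rcases v3_cases (x p) hsc hpc i with ⟨h0, h1, h2, h4⟩ | ⟨h0, h1, h2, h4⟩ |
          ⟨h0, h1, h2, h4⟩ | ⟨h0, h1, h2, h4⟩
        · rw [h4, h0]
        · rw [h4]; exact (hms i).1 h1
        · rw [h4]
          rw [δ_pos h2, δ_neg (by rw [Finset.mem_singleton]; exact h0)] at hii
          rcases sq_eq_four (a := x i) (by linarith) with h | h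
          · exact h
          · exact absurd ((hms i).2 h) h1
        · rw [h4]
          rw [δ_neg h2, δ_neg (by rw [Finset.mem_singleton]; exact h0)] at hii
          have : x i ^ 2 = 0 := by linarith
          exact pow_eq_zero_iff (two_ne_zero) |>.1 this
      have hev : ¬ Even s.card := by
        rw [hxv, sum_v3, h8] at hs
        rw [Nat.even_iff]
        omega
      exact ⟨⟨c, p, x p, s⟩, mem_D3.2 ⟨⟨hc, h8⟩, hpc, hp4, hsc, hev⟩, hxv.symm⟩
    · exfalso
      have h1 := hi p
      split_ifs at h1 <;> omega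
  · rintro ⟨⟨c, p, t, s⟩, hq, rfl⟩
    rw [Finset.mem_coe, mem_D3] at hq
    obtain ⟨⟨hc, h8⟩, hpc, ht, hsc, hev⟩ := hq
    dsimp only at hc h8 hpc ht hsc hev ⊢
    refine ⟨?_, ?_, p, ?_⟩
    · rw [mem_iff]
      left
      refine ⟨c, hc, fun i => ?_, ?_⟩
      · rcases v3_cases t hsc hpc i with ⟨h0, h1, h2, h4⟩ | ⟨h0, h1, h2, h4⟩ |
          ⟨h0, h1, h2, h4⟩ | ⟨h0, h1, h2, h4⟩
        · rw [h4, if_neg h2]; omega
        · rw [h4, if_pos h2]; rfl
        · rw [h4, if_pos h2]; rfl
        · rw [h4, if_neg h2]; rfl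
      · rw [sum_v3, h8]
        rw [Nat.even_iff] at hev
        omega
    · rw [norm_v3 t hsc hpc, h8]
      rcases ht with h | h <;> rw [h] <;> norm_num
    · rcases v3_cases t hsc hpc p with ⟨h0, h1, h2, h4⟩ | ⟨h0, h1, h2, h4⟩ |
          ⟨h0, h1, h2, h4⟩ | ⟨h0, h1, h2, h4⟩
      · rw [h4]
        rcases ht with h | h <;> rw [h] <;> norm_num
      · exact absurd rfl h0
      · exact absurd rfl h0
      · exact absurd rfl h0

theorem set3_ncard : {x : GolayPt → ℤ | x ∈ leechLattice ∧ sqNorm x = 48 ∧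
    ∃ i, |x i| = 4}.ncard = (codeW 8).card * 4096 := by
  rw [set3_eq, Set.ncard_coe_finset, Finset.card_image_of_injOn, card_D3]
  rintro ⟨c, p, t, s⟩ hq ⟨c', p', t', s'⟩ hq' he
  rw [Finset.mem_coe, mem_D3] at hq hq'
  obtain ⟨h1, h2, h3, h4⟩ := v3_inj hq.2.2.2.1 hq'.2.2.2.1 hq.2.1 hq'.2.1 hq.2.2.1 hq'.2.2.1 he
  dsimp only at h1 h2 h3 h4
  subst h1 h2 h3 h4
  rfl

/-! ### Odd vectors -/

/-- The odd vector with sign set `c` and reduced part `f`: entries `±(1 + 4 f)`. -/
def vo (c : Finset GolayPt) (f : GolayPt → ℤ) : GolayPt → ℤ := fun i => (1 - 2 * δ c i) * (1 + 4 * f i)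

theorem vo_cases (c : Finset GolayPt) (f : GolayPt → ℤ) (i : GolayPt) :
    (i ∈ c ∧ vo c f i = -(1 + 4 * f i)) ∨ (i ∉ c ∧ vo c f i = 1 + 4 * f i) := by
  change (i ∈ c ∧ (1 - 2 * δ c i) * (1 + 4 * f i) = _) ∨
    (i ∉ c ∧ (1 - 2 * δ c i) * (1 + 4 * f i) = _)
  by_cases h : i ∈ c
  · left
    refine ⟨h, ?_⟩
    rw [δ_pos h]; ring
  · right
    refine ⟨h, ?_⟩
    rw [δ_neg h]; ring

theorem sum_vo (c : Finset GolayPt) (f : GolayPt → ℤ) :
    ∑ i, vo c f i = 24 + 4 * ∑ i, f i - 2 * c.card - 8 * ∑ i, δ c i * f i := by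
  have : ∀ i, vo c f i = 1 + 4 * f i - 2 * δ c i - 8 * (δ c i * f i) := by
    intro i
    change (1 - 2 * δ c i) * (1 + 4 * f i) = _
    ring
  rw [Finset.sum_congr rfl fun i _ => this i, Finset.sum_sub_distrib, Finset.sum_sub_distrib,
    Finset.sum_add_distrib, ← Finset.mul_sum, ← Finset.mul_sum, ← Finset.mul_sum, sum_δ,
    Finset.sum_const, Finset.card_univ, card_pt]
  norm_num

theorem norm_vo (c : Finset GolayPt) (f : GolayPt → ℤ) :
    sqNorm (vo c f) = ∑ i, (1 + 4 * f i) ^ 2 := by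
  rw [sqNorm_eq]
  refine Finset.sum_congr rfl fun i _ => ?_
  rcases vo_cases c f i with ⟨_, h⟩ | ⟨_, h⟩ <;> rw [h] <;> ring

theorem vo_mem {c : Finset GolayPt} (hc : c ∈ code) {f : GolayPt → ℤ}
    (hf : (∑ i, f i) % 2 = 1) : vo c f ∈ leechLattice := by
  rw [mem_iff]
  right
  refine ⟨c, hc, fun i => ?_, ?_⟩
  · rcases vo_cases c f i with ⟨h, h1⟩ | ⟨h, h1⟩
    · rw [h1, if_pos h]; omega
    · rw [h1, if_neg h]; omega
  · rw [sum_vo]
    have h4 : c.card % 4 = 0 := by
      rcases code_card hc with h | h | h | h | h <;> rw [h]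
    omega

theorem vo_inj {c c' : Finset GolayPt} {f f' : GolayPt → ℤ} (he : vo c f = vo c' f') :
    c = c' ∧ f = f' := by
  have key : ∀ i, vo c f i = vo c' f' i := fun i => congrFun he i
  have hc : c = c' := by
    ext i
    have hi := key i
    rcases vo_cases c f i with ⟨h, h1⟩ | ⟨h, h1⟩ <;>
    rcases vo_cases c' f' i with ⟨h', h1'⟩ | ⟨h', h1'⟩
    · exact ⟨fun _ => h', fun _ => h⟩
    · exfalso; rw [h1, h1'] at hi; omega
    · exfalso; rw [h1, h1'] at hi; omega
    · exact ⟨fun hh => absurd hh h, fun hh => absurd hh h'⟩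
  refine ⟨hc, ?_⟩
  subst hc
  funext i
  have hi := key i
  rcases vo_cases c f i with ⟨h, h1⟩ | ⟨h, h1⟩ <;>
  rcases vo_cases c f' i with ⟨h', h1'⟩ | ⟨h', h1'⟩
  · rw [h1, h1'] at hi; omega
  · exact absurd h h'
  · exact absurd h' h
  · rw [h1, h1'] at hi; omega

/-- A lattice vector with an odd coordinate is an odd vector. -/
theorem exists_vo {x : GolayPt → ℤ} (hx : x ∈ leechLattice) {p : GolayPt} (hp : x p % 2 = 1) :
    ∃ c ∈ code, ∃ f : GolayPt → ℤ, x = vo c f ∧ (∑ i, f i) % 2 = 1 := by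
  rw [mem_iff] at hx
  rcases hx with ⟨c, hc, hi, hs⟩ | ⟨c, hc, hi, hs⟩
  · exfalso
    have := hi p
    split_ifs at this <;> omega
  · have hxv : x = vo c fun i => ((1 - 2 * δ c i) * x i - 1) / 4 := by
      funext i
      have hii := hi i
      rcases vo_cases c (fun i => ((1 - 2 * δ c i) * x i - 1) / 4) i with ⟨h, h1⟩ | ⟨h, h1⟩
      · rw [h1, δ_pos h]
        rw [if_pos h] at hii
        omega
      · rw [h1, δ_neg h]
        rw [if_neg h] at hii
        omega
    refine ⟨c, hc, _, hxv, ?_⟩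
    rw [hxv, sum_vo] at hs
    have h4 : c.card % 4 = 0 := by
      rcases code_card hc with h | h | h | h | h <;> rw [h]
    omega

theorem sq_eq_one {a : ℤ} (h : a ^ 2 = 1) : a = 1 ∨ a = -1 := by
  have h1 : (a - 1) * (a + 1) = 0 := by linear_combination h
  rcases mul_eq_zero.1 h1 with h2 | h2
  · left; omega
  · right; omega

theorem sq_eq_nine {a : ℤ} (h : a ^ 2 = 9) : a = 3 ∨ a = -3 := by
  have h1 : (a - 3) * (a + 3) = 0 := by linear_combination h
  rcases mul_eq_zero.1 h1 with h2 | h2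
  · left; omega
  · right; omega

theorem sq_eq_25 {a : ℤ} (h : a ^ 2 = 25) : a = 5 ∨ a = -5 := by
  have h1 : (a - 5) * (a + 5) = 0 := by linear_combination h
  rcases mul_eq_zero.1 h1 with h2 | h2
  · left; omega
  · right; omega

theorem one_le_odd_sq (a : ℤ) : 1 ≤ (1 + 4 * a) ^ 2 := by
  have : 1 + 4 * a ≤ -1 ∨ 1 ≤ 1 + 4 * a := by omega
  rcases this with h | h <;> nlinarith

/-- If an odd vector of norm 48 has three coordinates of absolute value at least 3, it is of the
second shape. -/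
theorem odd_shape {f : GolayPt → ℤ} {T : Finset GolayPt} {k : ℤ}
    (hT : ∀ i ∈ T, (1 + 4 * f i) ^ 2 = 1 + k) (hn : ∑ i, (1 + 4 * f i) ^ 2 = 24 + k * T.card) :
    ∀ i, (1 + 4 * f i) ^ 2 = 1 + k * δ T i := by
  have hle : ∀ i ∈ (Finset.univ : Finset GolayPt), 1 + k * δ T i ≤ (1 + 4 * f i) ^ 2 := by
    intro i _
    by_cases h : i ∈ T
    · rw [δ_pos h, hT i h, mul_one]
    · rw [δ_neg h, mul_zero, add_zero]
      exact one_le_odd_sq _
  have hsum : ∑ i, (1 + k * δ T i) = 24 + k * T.card := by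
    rw [Finset.sum_add_distrib, ← Finset.mul_sum, sum_δ, Finset.sum_const, Finset.card_univ,
      card_pt]
    norm_num
  have := (Finset.sum_eq_sum_iff_of_le hle).1 (by rw [hsum, hn])
  exact fun i => (this i (Finset.mem_univ i)).symm

/-! ### Shape (±3^3, ±1^21) -/

/-- The index set of the second shape. -/
noncomputable def D2 : Finset (Finset GolayPt × Finset GolayPt) :=
  code_finite.toFinset ×ˢ Finset.univ.powersetCard 3

theorem mem_D2 {q : Finset GolayPt × Finset GolayPt} :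
    q ∈ D2 ↔ q.1 ∈ code ∧ q.2.card = 3 := by
  rw [D2, Finset.mem_product, Set.Finite.mem_toFinset, Finset.mem_powersetCard]
  simp only [Finset.subset_univ, true_and]

theorem card_D2 : D2.card = code.ncard * 2024 := by
  rw [D2, Finset.card_product, Finset.card_powersetCard, Finset.card_univ, card_pt,
    ← Set.ncard_eq_toFinset_card]
  rfl

theorem set2_eq : {x : GolayPt → ℤ | x ∈ leechLattice ∧ sqNorm x = 48 ∧
    ∃ i j k, i ≠ j ∧ j ≠ k ∧ i ≠ k ∧ |x i| = 3 ∧ |x j| = 3 ∧ |x k| = 3} =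
    ((D2.image fun q => vo q.1 fun i => -δ q.2 i : Finset _) : Set _) := by
  ext x
  rw [Finset.coe_image]
  constructor
  · rintro ⟨hx, hn, i, j, k, hij, hjk, hik, hi, hj, hk⟩
    have h3 : ∀ {a : ℤ}, |a| = 3 → a = 3 ∨ a = -3 := by
      intro a ha
      rcases abs_cases a with ⟨h, _⟩ | ⟨h, _⟩ <;> omega
    have hi3 := h3 hi
    obtain ⟨c, hc, f, hxv, hf⟩ := exists_vo hx (p := i) (by omega)
    subst hxv
    set T : Finset GolayPt := {i, j, k} with hTd
    have hT3 : T.card = 3 := Finset.card_eq_three.2 ⟨i, j, k, hij, hik, hjk, rfl⟩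
    have habs : ∀ l, |vo c f l| = 3 → (1 + 4 * f l) ^ 2 = 1 + 8 := by
      intro l hl
      rcases vo_cases c f l with ⟨_, h⟩ | ⟨_, h⟩ <;> rw [h] at hl <;>
      rcases h3 hl with h4 | h4
      · have : 1 + 4 * f l = -3 := by linarith
        rw [this]; norm_num
      · have : 1 + 4 * f l = 3 := by linarith
        rw [this]; norm_num
      · rw [h4]; norm_num
      · rw [h4]; norm_num
    have hT : ∀ l ∈ T, (1 + 4 * f l) ^ 2 = 1 + 8 := by
      intro l hl
      rw [hTd, Finset.mem_insert, Finset.mem_insert, Finset.mem_singleton] at hl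
      rcases hl with rfl | rfl | rfl
      · exact habs _ hi
      · exact habs _ hj
      · exact habs _ hk
    have hall := odd_shape hT (by rw [← norm_vo c f, hn, hT3]; norm_num)
    have hfT : f = fun l => -δ T l := by
      funext l
      have hl := hall l
      by_cases hlT : l ∈ T
      · rw [δ_pos hlT] at hl ⊢
        rcases sq_eq_nine (a := 1 + 4 * f l) (by linarith) with h | h <;> omega
      · rw [δ_neg hlT] at hl ⊢
        rcases sq_eq_one (a := 1 + 4 * f l) (by linarith) with h | h <;> omega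
    exact ⟨⟨c, T⟩, mem_D2.2 ⟨hc, hT3⟩, by rw [hfT]⟩
  · rintro ⟨⟨c, T⟩, hq, rfl⟩
    rw [Finset.mem_coe, mem_D2] at hq
    obtain ⟨hc, hT⟩ := hq
    dsimp only at hc hT ⊢
    refine ⟨vo_mem hc ?_, ?_, ?_⟩
    · rw [Finset.sum_neg_distrib, sum_δ, hT]; rfl
    · rw [norm_vo]
      have : ∀ i, (1 + 4 * (-δ T i)) ^ 2 = 1 + 8 * δ T i := by
        intro i
        by_cases h : i ∈ T
        · rw [δ_pos h]; norm_num
        · rw [δ_neg h]; norm_num
      rw [Finset.sum_congr rfl fun i _ => this i, Finset.sum_add_distrib, ← Finset.mul_sum, sum_δ,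
        hT, Finset.sum_const, Finset.card_univ, card_pt]
      norm_num
    · obtain ⟨i, j, k, hij, hik, hjk, hTe⟩ := Finset.card_eq_three.1 hT
      have habs : ∀ l ∈ T, |vo c (fun i => -δ T i) l| = 3 := by
        intro l hl
        rcases vo_cases c (fun i => -δ T i) l with ⟨_, h⟩ | ⟨_, h⟩ <;> rw [h, δ_pos hl] <;> norm_num
      refine ⟨i, j, k, hij, hjk, hik, habs i ?_, habs j ?_, habs k ?_⟩ <;> rw [hTe] <;> simp

theorem set2_ncard : {x : GolayPt → ℤ | x ∈ leechLattice ∧ sqNorm x = 48 ∧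
    ∃ i j k, i ≠ j ∧ j ≠ k ∧ i ≠ k ∧ |x i| = 3 ∧ |x j| = 3 ∧ |x k| = 3}.ncard =
    code.ncard * 2024 := by
  rw [set2_eq, Set.ncard_coe_finset, Finset.card_image_of_injOn, card_D2]
  rintro ⟨c, T⟩ hq ⟨c', T'⟩ hq' he
  obtain ⟨h1, h2⟩ := vo_inj he
  dsimp only at h1 h2
  have h3 : T = T' := by
    ext i
    have := congrFun h2 i
    by_cases h : i ∈ T <;> by_cases h' : i ∈ T'
    · exact ⟨fun _ => h', fun _ => h⟩
    · rw [δ_pos h, δ_neg h'] at this; norm_num at this
    · rw [δ_neg h, δ_pos h'] at this; norm_num at this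
    · exact ⟨fun hh => absurd hh h, fun hh => absurd hh h'⟩
  subst h1 h3
  rfl

/-! ### Shape (±5, ±1^23) -/

/-- The index set of the fourth shape. -/
noncomputable def D4 : Finset (Finset GolayPt × GolayPt) :=
  code_finite.toFinset ×ˢ Finset.univ

theorem mem_D4 {q : Finset GolayPt × GolayPt} : q ∈ D4 ↔ q.1 ∈ code := by
  rw [D4, Finset.mem_product, Set.Finite.mem_toFinset]
  simp only [Finset.mem_univ, and_true]

theorem card_D4 : D4.card = code.ncard * 24 := by
  rw [D4, Finset.card_product, Finset.card_univ, card_pt, ← Set.ncard_eq_toFinset_card]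

theorem set4_eq : {x : GolayPt → ℤ | x ∈ leechLattice ∧ sqNorm x = 48 ∧ ∃ i, |x i| = 5} =
    ((D4.image fun q => vo q.1 fun i => δ {q.2} i : Finset _) : Set _) := by
  ext x
  rw [Finset.coe_image]
  constructor
  · rintro ⟨hx, hn, p, hp⟩
    have h5 : ∀ {a : ℤ}, |a| = 5 → a = 5 ∨ a = -5 := by
      intro a ha
      rcases abs_cases a with ⟨h, _⟩ | ⟨h, _⟩ <;> omega
    have hp5 := h5 hp
    obtain ⟨c, hc, f, hxv, hf⟩ := exists_vo hx (p := p) (by omega)
    subst hxv
    have hT : ∀ l ∈ ({p} : Finset GolayPt), (1 + 4 * f l) ^ 2 = 1 + 24 := by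
      intro l hl
      rw [Finset.mem_singleton] at hl
      subst hl
      rcases vo_cases c f l with ⟨_, h⟩ | ⟨_, h⟩ <;> rw [h] at hp5 <;>
      rcases hp5 with h4 | h4
      · have : 1 + 4 * f l = -5 := by linarith
        rw [this]; norm_num
      · have : 1 + 4 * f l = 5 := by linarith
        rw [this]; norm_num
      · rw [h4]; norm_num
      · rw [h4]; norm_num
    have hall := odd_shape hT (by rw [← norm_vo c f, hn, Finset.card_singleton]; norm_num)
    have hfT : f = fun l => δ {p} l := by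
      funext l
      have hl := hall l
      by_cases hlT : l ∈ ({p} : Finset GolayPt)
      · rw [δ_pos hlT] at hl ⊢
        rcases sq_eq_25 (a := 1 + 4 * f l) (by linarith) with h | h <;> omega
      · rw [δ_neg hlT] at hl ⊢
        rcases sq_eq_one (a := 1 + 4 * f l) (by linarith) with h | h <;> omega
    exact ⟨⟨c, p⟩, mem_D4.2 hc, by rw [hfT]⟩
  · rintro ⟨⟨c, p⟩, hq, rfl⟩
    rw [Finset.mem_coe, mem_D4] at hq
    dsimp only at hq ⊢
    refine ⟨vo_mem hq ?_, ?_, p, ?_⟩
    · rw [sum_δ, Finset.card_singleton]; rfl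
    · rw [norm_vo]
      have : ∀ i, (1 + 4 * (δ {p} i)) ^ 2 = 1 + 24 * δ {p} i := by
        intro i
        by_cases h : i ∈ ({p} : Finset GolayPt)
        · rw [δ_pos h]; norm_num
        · rw [δ_neg h]; norm_num
      rw [Finset.sum_congr rfl fun i _ => this i, Finset.sum_add_distrib, ← Finset.mul_sum, sum_δ,
        Finset.card_singleton, Finset.sum_const, Finset.card_univ, card_pt]
      norm_num
    · rcases vo_cases c (fun i => δ {p} i) p with ⟨_, h⟩ | ⟨_, h⟩ <;>
      rw [h, δ_pos (Finset.mem_singleton_self p)] <;> norm_num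

theorem set4_ncard : {x : GolayPt → ℤ | x ∈ leechLattice ∧ sqNorm x = 48 ∧
    ∃ i, |x i| = 5}.ncard = code.ncard * 24 := by
  rw [set4_eq, Set.ncard_coe_finset, Finset.card_image_of_injOn, card_D4]
  rintro ⟨c, p⟩ hq ⟨c', p'⟩ hq' he
  obtain ⟨h1, h2⟩ := vo_inj he
  dsimp only at h1 h2
  have h3 : p = p' := by
    have := congrFun h2 p
    rw [δ_pos (Finset.mem_singleton_self p)] at this
    by_contra hne
    rw [δ_neg (by rw [Finset.mem_singleton]; exact hne)] at this
    norm_num at this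
  subst h1 h3
  rfl

/-- The number of code words. -/
theorem code_ncard : code.ncard = 4096 := by
  change (support₂ '' (golayCode : Set (GolayPt → ZMod 2))).ncard = 4096
  rw [Set.ncard_image_of_injective _ Cfsg.Agent.SporadicA.LeechSet.support₂_injective]
  exact Cfsg.Agent.S0358.card_golayCode

end Cfsg.Agent.Leech.Shapes48
end

-- part: S1568
section
set_option autoImplicit false
open Cfsg

namespace Cfsg.Agent.S1568

open Cfsg.Agent.Leech.Shapes48

/-- Shape census of the lattice vectors of sum of squares 48 (customary norm 6): the four families (2^12, 0^12), (±3^3, ±1^21), (±4, ±2^8, 0^15) and (±5, ±1^23) have 5275648, 8290304, 3108864 and 98304 members. -/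
theorem result : {x : Cfsg.GolayPt → ℤ | x ∈ Cfsg.leechLattice ∧ Cfsg.sqNorm x = 48 ∧ ∀ i, x i = 0 ∨ x i = 2 ∨ x i = -2}.ncard = 5275648 ∧ {x : Cfsg.GolayPt → ℤ | x ∈ Cfsg.leechLattice ∧ Cfsg.sqNorm x = 48 ∧ ∃ i j k, i ≠ j ∧ j ≠ k ∧ i ≠ k ∧ |x i| = 3 ∧ |x j| = 3 ∧ |x k| = 3}.ncard = 8290304 ∧ {x : Cfsg.GolayPt → ℤ | x ∈ Cfsg.leechLattice ∧ Cfsg.sqNorm x = 48 ∧ ∃ i, |x i| = 4}.ncard = 3108864 ∧ {x : Cfsg.GolayPt → ℤ | x ∈ Cfsg.leechLattice ∧ Cfsg.sqNorm x = 48 ∧ ∃ i, |x i| = 5}.ncard = 98304 := by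
  refine ⟨?_, ?_, ?_, ?_⟩
  · rw [set1_ncard, card_codeW_eq]
    change dodecads.ncard * 2048 = _
    rw [Cfsg.Agent.S0361.result]
  · rw [set2_ncard, code_ncard]
  · rw [set3_ncard, card_codeW_eq]
    change octads.ncard * 4096 = _
    rw [Cfsg.Agent.S0360.result]
  · rw [set4_ncard, code_ncard]

end Cfsg.Agent.S1568
end
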