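import Mathlib
import Cfsg.Agent.SporStruct.LatMod2
import Cfsg.Statements.S1588
set_option linter.all false

-- part: SporStruct/LatFrames
section
/-! Even integral lattices without roots: counting congruence classes modulo 2.
Used for S1588. -/

set_option autoImplicit false

namespace Cfsg.Agent.SporStruct.LatFrames

open Matrix
open Cfsg.Agent.SporStruct.LatMod2

variable {n : ℕ}

/-- A finite set of pairwise orthogonal vectors of nonzero norm in `ℤ^n` has at most `n`
elements. -/
theorem card_le_of_orthogonal (B : Matrix (Fin n) (Fin n) ℤ) (T : Finset (Fin n → ℤ))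
    (h0 : ∀ x ∈ T, x ⬝ᵥ (B *ᵥ x) ≠ 0)
    (horth : ∀ x ∈ T, ∀ y ∈ T, x ≠ y → x ⬝ᵥ (B *ᵥ y) = 0) : T.card ≤ n := by
  have hli : LinearIndependent ℤ (fun x : T => (x : Fin n → ℤ)) := by
    rw [linearIndependent_iff']
    intro s w hs i hi
    have h1 : (∑ j ∈ s, w j • (j : Fin n → ℤ)) ⬝ᵥ (B *ᵥ (i : Fin n → ℤ)) = 0 := by
      rw [hs, zero_dotProduct]
    rw [sum_dotProduct] at h1
    rw [Finset.sum_eq_single_of_mem i hi] at h1
    · rw [smul_dotProduct, smul_eq_mul] at h1
      rcases mul_eq_zero.1 h1 with h | h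
      · exact h
      · exact absurd h (h0 _ i.2)
    · intro j _ hji
      rw [smul_dotProduct, horth _ j.2 _ i.2 (fun h => hji (Subtype.ext h)), smul_zero]
  have h2 := hli.fintype_card_le_finrank
  simpa using h2

/-- The number of vectors of norm 8 in a class modulo 2 is at most `2 n`. -/
theorem card_le_two_mul (B : Matrix (Fin n) (Fin n) ℤ)
    (T : Finset (Fin n → ℤ))
    (h0 : ∀ x ∈ T, x ⬝ᵥ (B *ᵥ x) ≠ 0)
    (horth : ∀ x ∈ T, ∀ y ∈ T, y = x ∨ y = -x ∨ x ⬝ᵥ (B *ᵥ y) = 0) : T.card ≤ 2 * n := by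
  classical
  -- positive half
  let P := T.filter (fun x => 0 < toLex x)
  let N := T.filter (fun x => ¬ 0 < toLex x)
  have hne : ∀ x ∈ T, x ≠ 0 := by
    intro x hx h
    apply h0 x hx
    rw [h, zero_dotProduct]
  have hP : P.card ≤ n := by
    apply card_le_of_orthogonal B P
    · intro x hx
      exact h0 x (Finset.mem_filter.1 hx).1
    · intro x hx y hy hxy
      obtain ⟨hx1, hx2⟩ := Finset.mem_filter.1 hx
      obtain ⟨hy1, hy2⟩ := Finset.mem_filter.1 hy
      rcases horth x hx1 y hy1 with h | h | h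
      · exact absurd h.symm hxy
      · exfalso
        rw [h, toLex_neg] at hy2
        have h3 : toLex x < 0 := by simpa using hy2
        exact lt_asymm hx2 h3
      · exact h
  have hN : N.card ≤ n := by
    apply card_le_of_orthogonal B N
    · intro x hx
      exact h0 x (Finset.mem_filter.1 hx).1
    · intro x hx y hy hxy
      obtain ⟨hx1, hx2⟩ := Finset.mem_filter.1 hx
      obtain ⟨hy1, hy2⟩ := Finset.mem_filter.1 hy
      rcases horth x hx1 y hy1 with h | h | h
      · exact absurd h.symm hxy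
      · exfalso
        rw [h, toLex_neg] at hy2
        have h3 : toLex x ≤ 0 := not_lt.1 hx2
        have h4 : toLex x ≠ 0 := fun h5 => hne x hx1 (by simpa using h5)
        have h6 : toLex x < 0 := lt_of_le_of_ne h3 h4
        exact hy2 (by simpa using h6)
      · exact h
  have := Finset.card_filter_add_card_filter_not (s := T) (fun x => 0 < toLex x)
  change P.card + N.card = T.card at this
  omega

/-- Reduction modulo 2. -/
def red (x : Fin n → ℤ) : Fin n → ZMod 2 := fun i => ((x i : ℤ) : ZMod 2)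

theorem red_eq_iff (x y : Fin n → ℤ) : red x = red y ↔ ∀ i, (2 : ℤ) ∣ (x - y) i := by
  constructor
  · intro h i
    have h1 := congrFun h i
    have h2 : (((x - y) i : ℤ) : ZMod 2) = 0 := by
      simp only [Pi.sub_apply, Int.cast_sub]
      exact sub_eq_zero.2 h1
    exact_mod_cast (ZMod.intCast_zmod_eq_zero_iff_dvd _ 2).1 h2
  · intro h
    funext i
    have h2 := (ZMod.intCast_zmod_eq_zero_iff_dvd ((x - y) i) 2).2 (by exact_mod_cast h i)
    simp only [Pi.sub_apply, Int.cast_sub] at h2
    exact sub_eq_zero.1 h2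

/-- The set of vectors of norm `k`. -/
def shell (B : Matrix (Fin n) (Fin n) ℤ) (k : ℤ) : Set (Fin n → ℤ) :=
  {x | x ⬝ᵥ (B *ᵥ x) = k}

theorem mem_shell {B : Matrix (Fin n) (Fin n) ℤ} {k : ℤ} {x : Fin n → ℤ} :
    x ∈ shell B k ↔ x ⬝ᵥ (B *ᵥ x) = k := Iff.rfl

theorem frames (B : Matrix (Fin 24) (Fin 24) ℤ) (hsymm : B.IsSymm)
    (hpos : ∀ x : Fin 24 → ℤ, x ≠ 0 → 0 < x ⬝ᵥ (B *ᵥ x))
    (heven : ∀ x : Fin 24 → ℤ, (2 : ℤ) ∣ x ⬝ᵥ (B *ᵥ x))
    (h2 : ∀ x : Fin 24 → ℤ, x ⬝ᵥ (B *ᵥ x) ≠ 2)
    (h4 : (shell B 4).ncard = 196560) (h6 : (shell B 6).ncard = 16773120)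
    (h8 : (shell B 8).ncard = 398034000) (x : Fin 24 → ℤ) (hx : x ∈ shell B 8) :
    {y : Fin 24 → ℤ | y ∈ shell B 8 ∧ red x = red y}.ncard = 48 := by
  classical
  have f4 : (shell B 4).Finite := Set.finite_of_ncard_ne_zero (by rw [h4]; norm_num)
  have f6 : (shell B 6).Finite := Set.finite_of_ncard_ne_zero (by rw [h6]; norm_num)
  have f8 : (shell B 8).Finite := Set.finite_of_ncard_ne_zero (by rw [h8]; norm_num)
  obtain ⟨S4, hS4⟩ := f4.exists_finset_coe
  obtain ⟨S6, hS6⟩ := f6.exists_finset_coe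
  obtain ⟨S8, hS8⟩ := f8.exists_finset_coe
  rw [← hS4, Set.ncard_coe_finset] at h4
  rw [← hS6, Set.ncard_coe_finset] at h6
  rw [← hS8, Set.ncard_coe_finset] at h8
  have m4 : ∀ y, y ∈ S4 ↔ y ⬝ᵥ (B *ᵥ y) = 4 := by
    intro y; rw [← Finset.mem_coe, hS4]; exact Iff.rfl
  have m6 : ∀ y, y ∈ S6 ↔ y ⬝ᵥ (B *ᵥ y) = 6 := by
    intro y; rw [← Finset.mem_coe, hS6]; exact Iff.rfl
  have m8 : ∀ y, y ∈ S8 ↔ y ⬝ᵥ (B *ᵥ y) = 8 := by
    intro y; rw [← Finset.mem_coe, hS8]; exact Iff.rfl
  clear hS4 hS6 hS8
  have hnz : ∀ y : Fin 24 → ℤ, y ⬝ᵥ (B *ᵥ y) ≠ 0 → y ≠ 0 := by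
    intro y hy h
    apply hy
    rw [h, zero_dotProduct]
  have hzero : ((0 : Fin 24 → ℤ)) ⬝ᵥ (B *ᵥ (0 : Fin 24 → ℤ)) = 0 := zero_dotProduct _
  -- the congruence dichotomy
  have key : ∀ u v : Fin 24 → ℤ, u ⬝ᵥ (B *ᵥ u) ≤ 8 → v ⬝ᵥ (B *ᵥ v) ≤ 8 → red u = red v →
      v = u ∨ v = -u ∨ (u ⬝ᵥ (B *ᵥ u) = 8 ∧ v ⬝ᵥ (B *ᵥ v) = 8 ∧ u ⬝ᵥ (B *ᵥ v) = 0) := by
    intro u v hu hv huv
    exact congr_cases B hsymm hpos heven h2 u v hu hv ((red_eq_iff u v).1 huv)
  -- class counts
  let a4 : (Fin 24 → ZMod 2) → ℕ := fun c => (S4.filter (fun y => red y = c)).card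
  let a6 : (Fin 24 → ZMod 2) → ℕ := fun c => (S6.filter (fun y => red y = c)).card
  let a8 : (Fin 24 → ZMod 2) → ℕ := fun c => (S8.filter (fun y => red y = c)).card
  let a0 : (Fin 24 → ZMod 2) → ℕ := fun c => if red (0 : Fin 24 → ℤ) = c then 1 else 0
  have t4 : ∑ c, a4 c = 196560 := by
    rw [← h4]; exact (Finset.card_eq_sum_card_fiberwise (fun y _ => Finset.mem_univ (red y))).symm
  have t6 : ∑ c, a6 c = 16773120 := by
    rw [← h6]; exact (Finset.card_eq_sum_card_fiberwise (fun y _ => Finset.mem_univ (red y))).symm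
  have t8 : ∑ c, a8 c = 398034000 := by
    rw [← h8]; exact (Finset.card_eq_sum_card_fiberwise (fun y _ => Finset.mem_univ (red y))).symm
  have t0 : ∑ c, a0 c = 1 := by
    simp [a0]
  have hneg : ∀ u : Fin 24 → ℤ, (-u) ⬝ᵥ (B *ᵥ (-u)) = u ⬝ᵥ (B *ᵥ u) := by
    intro u; rw [mulVec_neg, dotProduct_neg, neg_dotProduct, neg_neg]
  -- the pointwise bound
  have bound : ∀ c, 48 * a0 c + 24 * a4 c + 24 * a6 c + a8 c ≤ 48 := by
    intro c
    by_cases e0 : red (0 : Fin 24 → ℤ) = c
    · -- the zero class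
      have n4 : a4 c = 0 := by
        rw [Finset.card_eq_zero, Finset.filter_eq_empty_iff]
        intro y hy hyc
        have := (m4 y).1 hy
        rcases key 0 y (by rw [hzero]; norm_num) (by omega) (by rw [e0, hyc]) with h | h | h
        · rw [h, hzero] at this; omega
        · rw [h, neg_zero, hzero] at this; omega
        · rw [hzero] at h; omega
      have n6 : a6 c = 0 := by
        rw [Finset.card_eq_zero, Finset.filter_eq_empty_iff]
        intro y hy hyc
        have := (m6 y).1 hy
        rcases key 0 y (by rw [hzero]; norm_num) (by omega) (by rw [e0, hyc]) with h | h | h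
        · rw [h, hzero] at this; omega
        · rw [h, neg_zero, hzero] at this; omega
        · rw [hzero] at h; omega
      have n8 : a8 c = 0 := by
        rw [Finset.card_eq_zero, Finset.filter_eq_empty_iff]
        intro y hy hyc
        have := (m8 y).1 hy
        rcases key 0 y (by rw [hzero]; norm_num) (by omega) (by rw [e0, hyc]) with h | h | h
        · rw [h, hzero] at this; omega
        · rw [h, neg_zero, hzero] at this; omega
        · rw [hzero] at h; omega
      rw [n4, n6, n8]
      simp [a0, e0]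
    · have n0 : a0 c = 0 := by simp [a0, e0]
      rw [n0]
      by_cases e4 : ∃ u ∈ S4, red u = c
      · obtain ⟨u, hu, huc⟩ := e4
        have hu' := (m4 u).1 hu
        have n4 : a4 c ≤ 2 := by
          calc a4 c ≤ ({u, -u} : Finset (Fin 24 → ℤ)).card := by
                apply Finset.card_le_card
                intro y hy
                obtain ⟨hy1, hy2⟩ := Finset.mem_filter.1 hy
                have := (m4 y).1 hy1
                rcases key u y (by omega) (by omega) (by rw [huc, hy2]) with h | h | h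
                · simp [h]
                · simp [h]
                · omega
            _ ≤ 2 := Finset.card_le_two
        have n6 : a6 c = 0 := by
          rw [Finset.card_eq_zero, Finset.filter_eq_empty_iff]
          intro y hy hyc
          have := (m6 y).1 hy
          rcases key u y (by omega) (by omega) (by rw [huc, hyc]) with h | h | h
          · rw [h] at this; omega
          · rw [h, hneg] at this; omega
          · omega
        have n8 : a8 c = 0 := by
          rw [Finset.card_eq_zero, Finset.filter_eq_empty_iff]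
          intro y hy hyc
          have := (m8 y).1 hy
          rcases key u y (by omega) (by omega) (by rw [huc, hyc]) with h | h | h
          · rw [h] at this; omega
          · rw [h, hneg] at this; omega
          · omega
        omega
      · have n4 : a4 c = 0 := by
          rw [Finset.card_eq_zero, Finset.filter_eq_empty_iff]
          intro y hy hyc
          exact e4 ⟨y, hy, hyc⟩
        by_cases e6 : ∃ u ∈ S6, red u = c
        · obtain ⟨u, hu, huc⟩ := e6
          have hu' := (m6 u).1 hu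
          have n6 : a6 c ≤ 2 := by
            calc a6 c ≤ ({u, -u} : Finset (Fin 24 → ℤ)).card := by
                  apply Finset.card_le_card
                  intro y hy
                  obtain ⟨hy1, hy2⟩ := Finset.mem_filter.1 hy
                  have := (m6 y).1 hy1
                  rcases key u y (by omega) (by omega) (by rw [huc, hy2]) with h | h | h
                  · simp [h]
                  · simp [h]
                  · omega
              _ ≤ 2 := Finset.card_le_two
          have n8 : a8 c = 0 := by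
            rw [Finset.card_eq_zero, Finset.filter_eq_empty_iff]
            intro y hy hyc
            have := (m8 y).1 hy
            rcases key u y (by omega) (by omega) (by rw [huc, hyc]) with h | h | h
            · rw [h] at this; omega
            · rw [h, hneg] at this; omega
            · omega
          omega
        · have n6 : a6 c = 0 := by
            rw [Finset.card_eq_zero, Finset.filter_eq_empty_iff]
            intro y hy hyc
            exact e6 ⟨y, hy, hyc⟩
          have n8 : a8 c ≤ 2 * 24 := by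
            apply card_le_two_mul B
            · intro y hy
              rw [(m8 y).1 (Finset.mem_filter.1 hy).1]
              norm_num
            · intro y hy z hz
              obtain ⟨hy1, hy2⟩ := Finset.mem_filter.1 hy
              obtain ⟨hz1, hz2⟩ := Finset.mem_filter.1 hz
              rcases key y z ((m8 y).1 hy1).le ((m8 z).1 hz1).le (by rw [hy2, hz2]) with h | h | h
              · exact Or.inl h
              · exact Or.inr (Or.inl h)
              · exact Or.inr (Or.inr h.2.2)
          omega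
  -- equality
  have htot : ∑ c, (48 * a0 c + 24 * a4 c + 24 * a6 c + a8 c) =
      ∑ _c : (Fin 24 → ZMod 2), 48 := by
    rw [Finset.sum_add_distrib, Finset.sum_add_distrib, Finset.sum_add_distrib,
      ← Finset.mul_sum, ← Finset.mul_sum, ← Finset.mul_sum, t0, t4, t6, t8]
    simp
  have heq := (Finset.sum_eq_sum_iff_of_le (fun c _ => bound c)).1 htot (red x) (Finset.mem_univ _)
  have hx' : x ⬝ᵥ (B *ᵥ x) = 8 := hx
  have n0 : a0 (red x) = 0 := by
    simp only [a0]
    rw [if_neg]
    intro h
    rcases key 0 x (by rw [hzero]; norm_num) (by omega) h with h | h | h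
    · rw [h, hzero] at hx'; omega
    · rw [h, neg_zero, hzero] at hx'; omega
    · rw [hzero] at h; omega
  have n4 : a4 (red x) = 0 := by
    rw [Finset.card_eq_zero, Finset.filter_eq_empty_iff]
    intro y hy hyc
    have := (m4 y).1 hy
    rcases key x y (by omega) (by omega) hyc.symm with h | h | h
    · rw [h] at this; omega
    · rw [h, hneg] at this; omega
    · omega
  have n6 : a6 (red x) = 0 := by
    rw [Finset.card_eq_zero, Finset.filter_eq_empty_iff]
    intro y hy hyc
    have := (m6 y).1 hy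
    rcases key x y (by omega) (by omega) hyc.symm with h | h | h
    · rw [h] at this; omega
    · rw [h, hneg] at this; omega
    · omega
  have n8 : a8 (red x) = 48 := by omega
  have hset : {y : Fin 24 → ℤ | y ∈ shell B 8 ∧ red x = red y} =
      ((S8.filter (fun y => red y = red x) : Finset (Fin 24 → ℤ)) : Set (Fin 24 → ℤ)) := by
    ext y
    simp only [Set.mem_setOf_eq, Finset.coe_filter, m8, mem_shell]
    constructor
    · rintro ⟨h, h'⟩; exact ⟨h, h'.symm⟩
    · rintro ⟨h, h'⟩; exact ⟨h, h'.symm⟩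
  rw [hset, Set.ncard_coe_finset]
  exact n8

end Cfsg.Agent.SporStruct.LatFrames
end

-- part: S1588
section
set_option autoImplicit false
open Matrix
open Cfsg

namespace Cfsg.Agent.S1588

/-- Second step of the characterisation: under the vector counts of the rank-24 lattice, the norm-8 vectors fall into congruence classes of exactly 48 modulo twice the lattice. -/
theorem result (B : Matrix (Fin 24) (Fin 24) ℤ) (hsymm : B.IsSymm) (hpos : ∀ x : Fin 24 → ℤ, x ≠ 0 → 0 < x ⬝ᵥ (B *ᵥ x)) (heven : ∀ x : Fin 24 → ℤ, (2 : ℤ) ∣ x ⬝ᵥ (B *ᵥ x)) (h2 : ∀ x : Fin 24 → ℤ, x ⬝ᵥ (B *ᵥ x) ≠ 2) (h4 : {x : Fin 24 → ℤ | x ⬝ᵥ (B *ᵥ x) = 4}.ncard = 196560) (h6 : {x : Fin 24 → ℤ | x ⬝ᵥ (B *ᵥ x) = 6}.ncard = 16773120) (h8 : {x : Fin 24 → ℤ | x ⬝ᵥ (B *ᵥ x) = 8}.ncard = 398034000) (x : Fin 24 → ℤ) (hx : x ⬝ᵥ (B *ᵥ x) = 8) : {y : Fin 24 → ℤ | y ⬝ᵥ (B *ᵥ y) = 8 ∧ ∀ i, (2 : ℤ) ∣ (x - y) i}.ncard = 48 := by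
  have h := Cfsg.Agent.SporStruct.LatFrames.frames B hsymm hpos heven h2 h4 h6 h8 x hx
  have hset : {y : Fin 24 → ℤ | y ⬝ᵥ (B *ᵥ y) = 8 ∧ ∀ i, (2 : ℤ) ∣ (x - y) i} =
      {y : Fin 24 → ℤ | y ∈ Cfsg.Agent.SporStruct.LatFrames.shell B 8 ∧
        Cfsg.Agent.SporStruct.LatFrames.red x = Cfsg.Agent.SporStruct.LatFrames.red y} := by
    ext y
    simp only [Set.mem_setOf_eq, Cfsg.Agent.SporStruct.LatFrames.red_eq_iff,
      Cfsg.Agent.SporStruct.LatFrames.mem_shell]
  rw [hset]
  exact h

end Cfsg.Agent.S1588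
end
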