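import Mathlib
import Cfsg.Prelude.Def_SporadicCombinatorics
import Cfsg.Statements.S1590
set_option linter.all false

-- part: SporadicStructure/TernaryGolay
section
/-!
The ternary code of length 12: explicit enumeration of its 729 words.
-/

set_option autoImplicit false

namespace Cfsg.Agent.SporadicStructure.TernaryGolay

open Cfsg

/-- explicit description of the tetracode -/
theorem mem_tetracode_iff (t : Fin 4 → ZMod 3) :
    t ∈ tetracode ↔ ∃ a b : ZMod 3, t = ![b, a, a + b, a + 2 * b] := by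
  unfold tetracode
  rw [Submodule.mem_span_pair]
  constructor
  · rintro ⟨a, b, rfl⟩
    refine ⟨a, b, ?_⟩
    funext i
    fin_cases i <;> (simp; try ring)
  · rintro ⟨a, b, rfl⟩
    refine ⟨a, b, ?_⟩
    funext i
    fin_cases i <;> (simp; try ring)

/-- explicit description of the ternary code -/
theorem mem_code_iff (x : ArrayPt → ZMod 3) :
    x ∈ ternaryGolayCode ↔ ∃ s : ZMod 3, (∀ i : Fin 4, ∑ r : ZMod 3, x (i, r) = -s) ∧
      ∀ a b : ZMod 3, x (0, b) + x (1, a) + x (2, a + b) + x (3, a + 2 * b) = s := by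
  show (∃ s : ZMod 3, (∀ i : Fin 4, ∑ r : ZMod 3, x (i, r) = -s) ∧
    ∀ t ∈ tetracode, ∑ i : Fin 4, x (i, t i) = s) ↔ _
  refine exists_congr fun s => and_congr_right fun _ => ?_
  constructor
  · intro h a b
    have := h _ ((mem_tetracode_iff _).2 ⟨a, b, rfl⟩)
    rw [Fin.sum_univ_four] at this
    simpa using this
  · intro h t ht
    obtain ⟨a, b, rfl⟩ := (mem_tetracode_iff _).1 ht
    rw [Fin.sum_univ_four]
    simpa using h a b

/-- residues modulo 3 -/
def z3 : ℕ → ZMod 3
  | 0 => 0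
  | 1 => 1
  | _ => 2

/-- index of an array position: `3 * column + row` -/
def aidx (p : ArrayPt) : ℕ := 3 * p.1.val + p.2.val

/-- the `i`-th digit in base 3 -/
def dig (k i : ℕ) : ℕ := k / 3 ^ i % 3

/-- the `j`-th coordinate of word number `k` -/
def cw (k : ℕ) : ℕ → ℕ
  | 0 => dig k 0
  | 1 => dig k 1
  | 2 => dig k 2
  | 3 => dig k 3
  | 4 => dig k 4
  | 5 => (dig k 0 + dig k 1 + dig k 2 + 2 * dig k 3 + 2 * dig k 4) % 3
  | 6 => dig k 5
  | 7 => (2 * dig k 1 + dig k 2 + 2 * dig k 3 + dig k 4 + dig k 5) % 3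
  | 8 => (dig k 0 + 2 * dig k 1 + dig k 3 + 2 * dig k 4 + dig k 5) % 3
  | 9 => (dig k 0 + 2 * dig k 1 + 2 * dig k 2 + 2 * dig k 3 + 2 * dig k 5) % 3
  | 10 => (dig k 0 + dig k 2 + dig k 3 + dig k 4 + 2 * dig k 5) % 3
  | _ => (2 * dig k 0 + 2 * dig k 1 + dig k 2 + 2 * dig k 4 + 2 * dig k 5) % 3

/-- word number `k` -/
def word (k : ℕ) : ArrayPt → ZMod 3 := fun p => z3 (cw k (aidx p))

/-- the weight of word number `k` -/
def wt (k : ℕ) : ℕ :=
  (List.range 12).foldr (fun j n => if cw k j = 0 then n else n + 1) 0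

/-- the number of the word with given information symbols -/
def num (x : ArrayPt → ZMod 3) : ℕ :=
  (x (0, 0)).val + 3 * (x (0, 1)).val + 9 * (x (0, 2)).val + 27 * (x (1, 0)).val +
    81 * (x (1, 1)).val + 243 * (x (2, 0)).val

theorem num_lt (x : ArrayPt → ZMod 3) : num x < 729 := by
  have h := fun p => ZMod.val_lt (x p)
  have h1 := h (0, 0); have h2 := h (0, 1); have h3 := h (0, 2)
  have h4 := h (1, 0); have h5 := h (1, 1); have h6 := h (2, 0)
  unfold num
  omega

theorem word_mem_aux : ∀ k : Fin 729, ∃ s : ZMod 3,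
    (∀ i : Fin 4, ∑ r : ZMod 3, word k (i, r) = -s) ∧
      ∀ a b : ZMod 3, word k (0, b) + word k (1, a) + word k (2, a + b) +
        word k (3, a + 2 * b) = s := by
  decide +kernel

theorem word_mem {k : ℕ} (hk : k < 729) : word k ∈ ternaryGolayCode :=
  (mem_code_iff _).2 (word_mem_aux ⟨k, hk⟩)

theorem num_word_aux : ∀ k : Fin 729, num (word k) = k := by
  decide +kernel

theorem num_word {k : ℕ} (hk : k < 729) : num (word k) = k := num_word_aux ⟨k, hk⟩

theorem word_num_info_aux : ∀ a b c d e f : ZMod 3,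
    let k := a.val + 3 * b.val + 9 * c.val + 27 * d.val + 81 * e.val + 243 * f.val
    word k (0, 0) = a ∧ word k (0, 1) = b ∧ word k (0, 2) = c ∧ word k (1, 0) = d ∧
      word k (1, 1) = e ∧ word k (2, 0) = f := by
  decide +kernel

theorem eq_zero_aux : ∀ a b c d e f s : ZMod 3,
    (0 + 0 + 0 = -s) → (0 + 0 + a = -s) → (0 + b + c = -s) → (d + e + f = -s) →
    (0 + 0 + 0 + d = s) → (0 + 0 + b + f = s) → (0 + 0 + c + e = s) →
    (0 + 0 + b + e = s) → (0 + 0 + c + d = s) → (0 + 0 + 0 + f = s) →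
    (0 + a + c + f = s) → (0 + a + 0 + e = s) → (0 + a + b + d = s) →
    a = 0 ∧ b = 0 ∧ c = 0 ∧ d = 0 ∧ e = 0 ∧ f = 0 := by
  decide +kernel

theorem sum_zmod3 (f : ZMod 3 → ZMod 3) : ∑ r : ZMod 3, f r = f 0 + f 1 + f 2 :=
  Fin.sum_univ_three f

theorem eq_zero_of_info {x : ArrayPt → ZMod 3} (hx : x ∈ ternaryGolayCode)
    (h0 : x (0, 0) = 0) (h1 : x (0, 1) = 0) (h2 : x (0, 2) = 0) (h3 : x (1, 0) = 0)
    (h4 : x (1, 1) = 0) (h6 : x (2, 0) = 0) : x = 0 := by
  obtain ⟨s, hs, ht⟩ := (mem_code_iff _).1 hx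
  have c0 := hs 0
  have c1 := hs 1
  have c2 := hs 2
  have c3 := hs 3
  rw [sum_zmod3] at c0 c1 c2 c3
  have t00 := ht 0 0
  have t01 := ht 0 1
  have t02 := ht 0 2
  have t10 := ht 1 0
  have t11 := ht 1 1
  have t12 := ht 1 2
  have t20 := ht 2 0
  have t21 := ht 2 1
  have t22 := ht 2 2
  have e11 : (1 : ZMod 3) + 1 = 2 := rfl
  have e12 : (1 : ZMod 3) + 2 = 0 := rfl
  have e21 : (2 : ZMod 3) + 1 = 0 := rfl
  have e22 : (2 : ZMod 3) + 2 = 1 := rfl
  have m0 : (2 : ZMod 3) * 0 = 0 := rfl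
  have m1 : (2 : ZMod 3) * 1 = 2 := rfl
  have m2 : (2 : ZMod 3) * 2 = 1 := rfl
  have z1 : (0 : ZMod 3) + 1 = 1 := rfl
  have z2 : (0 : ZMod 3) + 2 = 2 := rfl
  have z0 : (0 : ZMod 3) + 0 = 0 := rfl
  have y1 : (1 : ZMod 3) + 0 = 1 := rfl
  have y2 : (2 : ZMod 3) + 0 = 2 := rfl
  rw [m0] at t00 t10 t20
  rw [m1] at t01 t11 t21
  rw [m2] at t02 t12 t22
  rw [z0] at t00
  rw [z1, z2] at t01
  rw [z2, z1] at t02
  rw [y1] at t10
  rw [e11, e12] at t11
  rw [e12, e11] at t12
  rw [y2] at t20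
  rw [e21, e22] at t21
  rw [e22, e21] at t22
  rw [h0, h1, h2] at c0
  rw [h3, h4] at c1
  rw [h6] at c2
  rw [h0, h3, h6] at t00
  rw [h1, h3] at t01
  rw [h2, h3] at t02
  rw [h0, h4] at t10
  rw [h1, h4] at t11
  rw [h2, h4, h6] at t12
  rw [h0] at t20
  rw [h1, h6] at t21
  rw [h2] at t22
  have key := eq_zero_aux (x (1, 2)) (x (2, 1)) (x (2, 2)) (x (3, 0)) (x (3, 1)) (x (3, 2)) s
    c0 c1 c2 c3 t00 t01 t02 t10 t11 t12 t20 t21 t22
  obtain ⟨k1, k2, k3, k4, k5, k6⟩ := key
  funext ⟨i, r⟩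
  fin_cases i <;> fin_cases r <;> assumption

theorem word_num {x : ArrayPt → ZMod 3} (hx : x ∈ ternaryGolayCode) : word (num x) = x := by
  have hy : word (num x) - x ∈ ternaryGolayCode :=
    Submodule.sub_mem _ (word_mem (num_lt x)) hx
  obtain ⟨a1, a2, a3, a4, a5, a6⟩ := word_num_info_aux (x (0, 0)) (x (0, 1)) (x (0, 2))
    (x (1, 0)) (x (1, 1)) (x (2, 0))
  have := eq_zero_of_info hy (sub_eq_zero.2 a1) (sub_eq_zero.2 a2) (sub_eq_zero.2 a3)
    (sub_eq_zero.2 a4) (sub_eq_zero.2 a5) (sub_eq_zero.2 a6)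
  exact sub_eq_zero.1 this

/-- The words of the code are numbered by the naturals below 729. -/
theorem mem_code_iff_exists (x : ArrayPt → ZMod 3) :
    x ∈ ternaryGolayCode ↔ ∃ k < 729, word k = x :=
  ⟨fun h => ⟨num x, num_lt x, word_num h⟩, by rintro ⟨k, hk, rfl⟩; exact word_mem hk⟩

theorem word_injOn : Set.InjOn word {k | k < 729} := by
  intro a ha b hb h
  have := congrArg num h
  rwa [num_word ha, num_word hb] at this

theorem wt_word_aux : ∀ k : Fin 729, (ternarySupport (word k)).card = wt k := by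
  decide +kernel

theorem wt_word {k : ℕ} (hk : k < 729) : (ternarySupport (word k)).card = wt k :=
  wt_word_aux ⟨k, hk⟩

theorem card_filter_range (n : ℕ) (p : ℕ → Bool) :
    ((Finset.range n).filter (fun k => p k = true)).card = ((List.range n).filter p).length := by
  have : (List.range n).filter p = (List.range n).filter (fun k => decide (p k = true)) := by
    simp
  rw [this]
  rfl

/-- counting words of the code with a property decided on the number of the word -/
theorem ncard_eq (P : (ArrayPt → ZMod 3) → Prop) (p : ℕ → Bool)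
    (h : ∀ k < 729, P (word k) ↔ p k = true) :
    {x : ArrayPt → ZMod 3 | x ∈ ternaryGolayCode ∧ P x}.ncard =
      ((List.range 729).filter p).length := by
  have e : {x : ArrayPt → ZMod 3 | x ∈ ternaryGolayCode ∧ P x} =
      word '' ↑((Finset.range 729).filter fun k => p k = true) := by
    ext x
    simp only [Set.mem_ofPred_eq, Set.mem_image, Finset.coe_filter, Finset.mem_range]
    constructor
    · rintro ⟨hx, hP⟩
      refine ⟨num x, ⟨num_lt x, ?_⟩, word_num hx⟩
      rw [← h _ (num_lt x), word_num hx]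
      exact hP
    · rintro ⟨k, ⟨hk, hp⟩, rfl⟩
      exact ⟨word_mem hk, (h k hk).2 hp⟩
  rw [e, Set.InjOn.ncard_image, Set.ncard_coe_finset]
  · exact card_filter_range 729 p
  · intro a ha b hb
    exact word_injOn (by simpa using (Finset.mem_filter.1 ha).1)
      (by simpa using (Finset.mem_filter.1 hb).1)

/-- The code has 729 words. -/
theorem card_code : Nat.card ↥ternaryGolayCode = 729 := by
  have := ncard_eq (fun _ => True) (fun _ => true) (by simp)
  simp only [and_true] at this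
  have e : Nat.card ↥ternaryGolayCode = {x | x ∈ ternaryGolayCode}.ncard := rfl
  rw [e, this]
  decide +kernel

theorem wt_cases : ∀ k : Fin 729, k ≠ 0 → wt k = 6 ∨ wt k = 9 ∨ wt k = 12 := by
  decide +kernel

theorem count6 : ((List.range 729).filter fun k => decide (wt k = 6)).length = 264 := by
  decide +kernel

theorem count9 : ((List.range 729).filter fun k => decide (wt k = 9)).length = 440 := by
  decide +kernel

theorem count12 : ((List.range 729).filter fun k => decide (wt k = 12)).length = 24 := by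
  decide +kernel

theorem word_zero : word 0 = 0 := by
  funext ⟨i, r⟩
  fin_cases i <;> fin_cases r <;> rfl

theorem weight_cases {x : ArrayPt → ZMod 3} (hx : x ∈ ternaryGolayCode) (h0 : x ≠ 0) :
    (ternarySupport x).card = 6 ∨ (ternarySupport x).card = 9 ∨
      (ternarySupport x).card = 12 := by
  have hk := num_lt x
  have hw := word_num hx
  rw [← hw, wt_word hk]
  refine wt_cases ⟨num x, hk⟩ ?_
  intro h
  apply h0
  rw [← hw]
  have : num x = 0 := congrArg Fin.val h
  rw [this, word_zero]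

theorem ncard_weight (n : ℕ) :
    {x : ArrayPt → ZMod 3 | x ∈ ternaryGolayCode ∧ (ternarySupport x).card = n}.ncard =
      ((List.range 729).filter fun k => decide (wt k = n)).length :=
  ncard_eq _ _ fun k hk => by rw [wt_word hk]; simp

end Cfsg.Agent.SporadicStructure.TernaryGolay
end

-- part: S1590
section
set_option autoImplicit false
open Cfsg

namespace Cfsg.Agent.S1590

open Cfsg.Agent.SporadicStructure.TernaryGolay

/-- The length-12 ternary code has 729 words with weight distribution 0^1 6^264 9^440 12^24. -/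
theorem result : Nat.card ↥Cfsg.ternaryGolayCode = 729 ∧ (∀ x ∈ Cfsg.ternaryGolayCode, x ≠ 0 → (Cfsg.ternarySupport x).card = 6 ∨ (Cfsg.ternarySupport x).card = 9 ∨ (Cfsg.ternarySupport x).card = 12) ∧ {x : Cfsg.ArrayPt → ZMod 3 | x ∈ Cfsg.ternaryGolayCode ∧ (Cfsg.ternarySupport x).card = 6}.ncard = 264 ∧ {x : Cfsg.ArrayPt → ZMod 3 | x ∈ Cfsg.ternaryGolayCode ∧ (Cfsg.ternarySupport x).card = 9}.ncard = 440 ∧ {x : Cfsg.ArrayPt → ZMod 3 | x ∈ Cfsg.ternaryGolayCode ∧ (Cfsg.ternarySupport x).card = 12}.ncard = 24 := by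
  refine ⟨card_code, fun x hx h0 => weight_cases hx h0, ?_, ?_, ?_⟩
  · rw [ncard_weight, count6]
  · rw [ncard_weight, count9]
  · rw [ncard_weight, count12]

end Cfsg.Agent.S1590
end
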