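import Cfsg.Statements.S1592
import Cfsg.Agent.TernaryGolay.Masks
set_option linter.all false

set_option autoImplicit false
open Cfsg

namespace Cfsg.Agent.S1592

open Cfsg.Agent.TernaryGolay.Masks

theorem steiner_check_aux : ∀ a < 64, ∀ b < 64, popc (a + 64 * b) = 5 →
    (hexMasks.filter (fun h => (a + 64 * b) &&& h == (a + 64 * b))).length = 1 := by
  decide +kernel

theorem steiner_check (m : ℕ) (hm : m < 4096) (h5 : popc m = 5) :
    (hexMasks.filter (fun h => m &&& h == m)).length = 1 := by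
  have h := steiner_check_aux (m % 64) (by omega) (m / 64) (by omega)
  have e : m % 64 + 64 * (m / 64) = m := Nat.mod_add_div m 64
  rw [e] at h
  exact h h5

/-- The supports of the weight-6 words of the length-12 ternary code form a Steiner system S(5, 6, 12) with 132 blocks. -/
theorem result : Cfsg.IsSteinerSystem 5 6 {h : Finset Cfsg.ArrayPt | ∃ x ∈ Cfsg.ternaryGolayCode, Cfsg.ternarySupport x = h ∧ h.card = 6} ∧ {h : Finset Cfsg.ArrayPt | ∃ x ∈ Cfsg.ternaryGolayCode, Cfsg.ternarySupport x = h ∧ h.card = 6}.ncard = 132 := by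
  rw [hexads_eq]
  refine ⟨⟨?_, ?_⟩, ?_⟩
  · rintro b ⟨m, hm, rfl⟩
    rw [card_ofMask, hexMasks_popc m hm]
  · intro s hs
    obtain ⟨m, hm, rfl⟩ : ∃ m < 4096, ofMask m = s := ⟨toMask s, toMask_lt s, ofMask_toMask s⟩
    rw [card_ofMask] at hs
    obtain ⟨h, hh⟩ := List.length_eq_one_iff.1 (steiner_check m hm hs)
    have hmem : ∀ k, (k ∈ hexMasks ∧ m &&& k = m) ↔ k = h := by
      intro k
      have : k ∈ hexMasks.filter (fun h => m &&& h == m) ↔ k = h := by
        rw [hh, List.mem_singleton]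
      rw [← this, List.mem_filter]
      simp
    have h1 := (hmem h).2 rfl
    refine ⟨ofMask h, ⟨⟨h, h1.1, rfl⟩, (ofMask_subset_iff hm).2 h1.2⟩, ?_⟩
    rintro _ ⟨⟨k, hk, rfl⟩, hk2⟩
    rw [(hmem k).1 ⟨hk, (ofMask_subset_iff hm).1 hk2⟩]
  · have h1 : ofMask '' {m | m ∈ hexMasks} = ((hexMasks.toFinset.image ofMask :
        Finset (Finset ArrayPt)) : Set (Finset ArrayPt)) := by
      ext x
      simp
    rw [h1, Set.ncard_coe_finset, Finset.card_image_of_injOn, List.toFinset_card_of_nodup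
      hexMasks_nodup, hexMasks_length]
    intro a ha b hb hab
    exact ofMask_inj (hexMasks_lt a (List.mem_toFinset.1 ha)) (hexMasks_lt b (List.mem_toFinset.1 hb)) hab

end Cfsg.Agent.S1592
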