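import Cfsg.Agent.TernaryGolay.Masks
import Cfsg.Statements.S1593
set_option linter.all false

-- part: TernaryGolay/Diagonal
section
/-!
Diagonal automorphisms of the length-12 ternary code are scalars.
-/

set_option autoImplicit false
open Cfsg Cfsg.Agent.TernaryGolay.Core Cfsg.Agent.TernaryGolay.Masks

namespace Cfsg.Agent.TernaryGolay.Diagonal

/-- If the coordinatewise product with `c` preserves the code, then `c` is constant. -/
theorem const_of_mul_mem (c : ArrayPt → ZMod 3)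
    (h : ∀ x ∈ ternaryGolayCode, (fun p => c p * x p) ∈ ternaryGolayCode) (p : ArrayPt) :
    c p = c (0, 0) := by
  have key : ∀ A B C D E F : ℕ, _ := fun A B C D E F =>
    (mem_iff _).1 (h _ (enc_mem A B C D E F))
  have key0 : ∀ A B C D E F : ℕ, c (0, 0) * ((2 * A + 2 * C + 2 * D + 2 * E + F : ℕ) : ZMod 3) =
      2 * (c (1, 2) * (A : ZMod 3)) + 2 * (c (2, 2) * (C : ZMod 3)) +
      2 * (c (3, 0) * (D : ZMod 3)) + 2 * (c (3, 1) * (E : ZMod 3)) + c (3, 2) * (F : ZMod 3) :=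
    fun A B C D E F => (key A B C D E F).1
  have key1 : ∀ A B C D E F : ℕ, c (0, 1) * ((2 * A + B + C + D + F : ℕ) : ZMod 3) =
      2 * (c (1, 2) * (A : ZMod 3)) + c (2, 1) * (B : ZMod 3) + c (2, 2) * (C : ZMod 3) +
      c (3, 0) * (D : ZMod 3) + c (3, 2) * (F : ZMod 3) :=
    fun A B C D E F => (key A B C D E F).2.1
  have key2 : ∀ A B C D E F : ℕ, c (0, 2) *
      ((2 * A + 2 * B + D + 2 * E + 2 * F : ℕ) : ZMod 3) =
      2 * (c (1, 2) * (A : ZMod 3)) + 2 * (c (2, 1) * (B : ZMod 3)) +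
      c (3, 0) * (D : ZMod 3) + 2 * (c (3, 1) * (E : ZMod 3)) + 2 * (c (3, 2) * (F : ZMod 3)) :=
    fun A B C D E F => (key A B C D E F).2.2.1
  have key3 : ∀ A B C D E F : ℕ, c (1, 0) *
      ((A + B + 2 * C + D + 2 * E : ℕ) : ZMod 3) =
      c (1, 2) * (A : ZMod 3) + c (2, 1) * (B : ZMod 3) + 2 * (c (2, 2) * (C : ZMod 3)) +
      c (3, 0) * (D : ZMod 3) + 2 * (c (3, 1) * (E : ZMod 3)) :=
    fun A B C D E F => (key A B C D E F).2.2.2.1
  have key4 : ∀ A B C D E F : ℕ, c (1, 1) *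
      ((A + 2 * B + C + 2 * E + F : ℕ) : ZMod 3) =
      c (1, 2) * (A : ZMod 3) + 2 * (c (2, 1) * (B : ZMod 3)) + c (2, 2) * (C : ZMod 3) +
      2 * (c (3, 1) * (E : ZMod 3)) + c (3, 2) * (F : ZMod 3) :=
    fun A B C D E F => (key A B C D E F).2.2.2.2.1
  have key6 : ∀ A B C D E F : ℕ, c (2, 0) *
      ((2 * B + 2 * C + D + E + F : ℕ) : ZMod 3) =
      2 * (c (2, 1) * (B : ZMod 3)) + 2 * (c (2, 2) * (C : ZMod 3)) +
      c (3, 0) * (D : ZMod 3) + c (3, 1) * (E : ZMod 3) + c (3, 2) * (F : ZMod 3) :=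
    fun A B C D E F => (key A B C D E F).2.2.2.2.2
  clear key h
  have a0 := key0 1 0 0 0 0 0
  have a1 := key1 1 0 0 0 0 0
  have a2 := key2 1 0 0 0 0 0
  have a3 := key3 1 0 0 0 0 0
  have a4 := key4 1 0 0 0 0 0
  have b1 := key1 0 1 0 0 0 0
  have b6 := key6 0 1 0 0 0 0
  have d1 := key1 0 0 1 0 0 0
  have f1 := key1 0 0 0 1 0 0
  have g0 := key0 0 0 0 0 1 0
  have i0 := key0 0 0 0 0 0 1
  clear key0 key1 key2 key3 key4 key6
  simp only [Nat.cast_add, Nat.cast_mul, Nat.cast_one, Nat.cast_zero, Nat.cast_ofNat, mul_zero,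
    mul_one, add_zero, zero_add] at a0 a1 a2 a3 a4 b1 b6 d1 f1 g0 i0
  revert p
  refine forall_pt ⟨?_, ?_, ?_, ?_, ?_, ?_, ?_, ?_, ?_, ?_, ?_, ?_⟩ <;> grind

end Cfsg.Agent.TernaryGolay.Diagonal
end

-- part: S1593
section
set_option autoImplicit false
open Cfsg

namespace Cfsg.Agent.S1593

/-- The only sign changes preserving the length-12 ternary code are the identity and negation of all coordinates. -/
theorem result (c : Cfsg.ArrayPt → (ZMod 3)ˣ) (h : (∀ x ∈ Cfsg.ternaryGolayCode, Cfsg.monomialMap 1 c x ∈ Cfsg.ternaryGolayCode)) : (∀ p, c p = 1) ∨ (∀ p, c p = -1) := by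
  have h1 : ∀ p, c p = c (0, 0) := by
    intro p
    apply Units.ext
    exact Cfsg.Agent.TernaryGolay.Diagonal.const_of_mul_mem (fun p => (c p : ZMod 3)) h p
  have h2 : ∀ u : (ZMod 3)ˣ, u = 1 ∨ u = -1 := by decide
  rcases h2 (c (0, 0)) with h3 | h3
  · exact Or.inl fun p => (h1 p).trans h3
  · exact Or.inr fun p => (h1 p).trans h3

end Cfsg.Agent.S1593
end
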