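import Cfsg.Prelude.Def_SporadicCombinatorics
import Cfsg.Statements.S1594
set_option linter.all false

-- part: TernaryGolay/AutCode
section
/-!
The ternary Golay code in systematic form, for the computation of its monomial group.
(helper909, for S1594)
-/

set_option autoImplicit false

namespace Cfsg.Agent.TernaryGolay.AutCode

open Cfsg

/-- Explicit parity checks (systematic form: the pivots `(0,*)`, `(1,0)`, `(1,1)`, `(2,0)` in terms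
of the other six coordinates). -/
def Chk (x : ArrayPt → ZMod 3) : Prop :=
  x (0, 0) = 2 * x (1, 2) + 2 * x (2, 2) + 2 * x (3, 0) + 2 * x (3, 1) + x (3, 2) ∧
  x (0, 1) = 2 * x (1, 2) + x (2, 1) + x (2, 2) + x (3, 0) + x (3, 2) ∧
  x (0, 2) = 2 * x (1, 2) + 2 * x (2, 1) + x (3, 0) + 2 * x (3, 1) + 2 * x (3, 2) ∧
  x (1, 0) = x (1, 2) + x (2, 1) + 2 * x (2, 2) + x (3, 0) + 2 * x (3, 1) ∧
  x (1, 1) = x (1, 2) + 2 * x (2, 1) + x (2, 2) + 2 * x (3, 1) + x (3, 2) ∧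
  x (2, 0) = 2 * x (2, 1) + 2 * x (2, 2) + x (3, 0) + x (3, 1) + x (3, 2)

instance instDecidableChk (x : ArrayPt → ZMod 3) : Decidable (Chk x) := by
  unfold Chk; infer_instance

theorem mem_tetracode_iff (t : Fin 4 → ZMod 3) :
    t ∈ tetracode ↔ ∃ a b : ZMod 3, t = ![b, a, a + b, a + 2 * b] := by
  unfold tetracode
  rw [Submodule.mem_span_pair]
  constructor
  · rintro ⟨a, b, rfl⟩
    refine ⟨a, b, ?_⟩
    funext i
    fin_cases i <;> simp [mul_comm]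
  · rintro ⟨a, b, rfl⟩
    refine ⟨a, b, ?_⟩
    funext i
    fin_cases i <;> simp [mul_comm]

theorem isWord_iff (x : ArrayPt → ZMod 3) : IsTernaryGolayWord x ↔
    ∃ s : ZMod 3, (∀ i : Fin 4, x (i, 0) + x (i, 1) + x (i, 2) = -s) ∧
      ∀ a b : ZMod 3, x (0, b) + x (1, a) + x (2, a + b) + x (3, a + 2 * b) = s := by
  unfold IsTernaryGolayWord
  refine exists_congr fun s => and_congr ?_ ?_
  · refine forall_congr' fun i => ?_
    have : ∑ r : ZMod 3, x (i, r) = x (i, 0) + x (i, 1) + x (i, 2) := by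
      exact Fin.sum_univ_three (fun r : Fin 3 => x (i, r))
    rw [this]
  · constructor
    · intro h a b
      have := h _ ((mem_tetracode_iff _).2 ⟨a, b, rfl⟩)
      rw [Fin.sum_univ_four] at this
      simpa using this
    · intro h t ht
      obtain ⟨a, b, rfl⟩ := (mem_tetracode_iff _).1 ht
      rw [Fin.sum_univ_four]
      simpa using h a b

theorem mem_iff (x : ArrayPt → ZMod 3) : x ∈ ternaryGolayCode ↔ Chk x := by
  have h3 : (3 : ZMod 3) = 0 := rfl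
  change IsTernaryGolayWord x ↔ _
  rw [isWord_iff]
  constructor
  · rintro ⟨s, hc, ht⟩
    have hc0 := hc 0
    have hc1 := hc 1
    have hc2 := hc 2
    have hc3 := hc 3
    have ht00 := ht 0 0
    have ht01 := ht 0 1
    have ht10 := ht 1 0
    rw [show (0 : ZMod 3) + 0 = 0 from rfl, show (0 : ZMod 3) + 2 * 0 = 0 from rfl] at ht00
    rw [show (0 : ZMod 3) + 1 = 1 from rfl, show (0 : ZMod 3) + 2 * 1 = 2 from rfl] at ht01
    rw [show (1 : ZMod 3) + 0 = 1 from rfl, show (1 : ZMod 3) + 2 * 0 = 1 from rfl] at ht10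
    refine ⟨?_, ?_, ?_, ?_, ?_, ?_⟩
    · linear_combination 1 * hc1 + 1 * hc2 + 2 * hc3 + 2 * ht00 + 2 * ht10 + ((-1) * x (0, 0) + (-1) * x (1, 0) + (-1) * x (1, 1) + (-1) * x (1, 2) + (-1) * x (2, 0) + (-1) * x (2, 1) + (-1) * x (2, 2) + (-2) * x (3, 0) + (-2) * x (3, 1) + (-1) * x (3, 2)) * h3
    · linear_combination 1 * hc1 + 2 * hc2 + 1 * hc3 + 1 * ht00 + 1 * ht01 + 2 * ht10 + ((-1) * x (0, 0) + (-1) * x (1, 0) + (-1) * x (1, 1) + (-1) * x (1, 2) + (-1) * x (2, 0) + (-2) * x (2, 1) + (-1) * x (2, 2) + (-1) * x (3, 0) + (-1) * x (3, 1) + (-1) * x (3, 2)) * h3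
    · linear_combination 1 * hc0 + 1 * hc1 + 2 * hc3 + 2 * ht01 + 2 * ht10 + ((-1) * x (0, 0) + (-1) * x (0, 1) + (-1) * x (1, 0) + (-1) * x (1, 1) + (-1) * x (1, 2) + (-2) * x (2, 1) + (-1) * x (3, 0) + (-2) * x (3, 1) + (-2) * x (3, 2)) * h3
    · linear_combination 2 * hc1 + 1 * hc2 + 2 * ht00 + 1 * ht10 + ((-1) * x (0, 0) + (-1) * x (1, 0) + (-1) * x (1, 1) + (-1) * x (1, 2) + (-1) * x (2, 0) + (-1) * x (2, 1) + (-1) * x (2, 2) + (-1) * x (3, 0) + (-1) * x (3, 1)) * h3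
    · linear_combination 2 * hc1 + 2 * hc2 + 2 * hc3 + 1 * ht00 + 2 * ht10 + ((-1) * x (0, 0) + (-1) * x (1, 0) + (-1) * x (1, 1) + (-1) * x (1, 2) + (-1) * x (2, 0) + (-2) * x (2, 1) + (-1) * x (2, 2) + (-1) * x (3, 0) + (-2) * x (3, 1) + (-1) * x (3, 2) + (-1) * s) * h3
    · linear_combination 1 * hc2 + 2 * hc3 + ((-1) * x (2, 1) + (-1) * x (2, 2) + (-1) * x (3, 0) + (-1) * x (3, 1) + (-1) * x (3, 2) + (-1) * s) * h3
  · rintro ⟨e0, e1, e2, e3, e4, e6⟩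
    refine ⟨-(x (3, 0) + x (3, 1) + x (3, 2)), ?_, ?_⟩
    · intro i
      fin_cases i
      · simp only [Fin.zero_eta, Fin.isValue]
        rw [e0, e1, e2]
        generalize x (1, 2) = y1, x (2, 1) = y2, x (2, 2) = y3, x (3, 0) = y4, x (3, 1) = y5,
          x (3, 2) = y6
        revert y1 y2 y3 y4 y5 y6
        decide +kernel
      · simp only [Fin.mk_one, Fin.isValue]
        rw [e3, e4]
        generalize x (1, 2) = y1, x (2, 1) = y2, x (2, 2) = y3, x (3, 0) = y4, x (3, 1) = y5,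
          x (3, 2) = y6
        revert y1 y2 y3 y4 y5 y6
        decide +kernel
      · simp only [Fin.reduceFinMk, Fin.isValue]
        rw [e6]
        generalize x (1, 2) = y1, x (2, 1) = y2, x (2, 2) = y3, x (3, 0) = y4, x (3, 1) = y5,
          x (3, 2) = y6
        revert y1 y2 y3 y4 y5 y6
        decide +kernel
      · simp only [Fin.reduceFinMk, Fin.isValue, neg_neg]
    · intro a b
      have ha : a = 0 ∨ a = 1 ∨ a = 2 := by revert a; decide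
      have hb : b = 0 ∨ b = 1 ∨ b = 2 := by revert b; decide
      rcases ha with rfl | rfl | rfl <;> rcases hb with rfl | rfl | rfl
      · simp only [show (0 : ZMod 3) + 0 = 0 from rfl, show (0 : ZMod 3) + 2 * 0 = 0 from rfl]
        rw [e0, e3, e6]
        generalize x (1, 2) = y1, x (2, 1) = y2, x (2, 2) = y3, x (3, 0) = y4, x (3, 1) = y5,
          x (3, 2) = y6
        revert y1 y2 y3 y4 y5 y6
        decide +kernel
      · simp only [show (0 : ZMod 3) + 1 = 1 from rfl, show (0 : ZMod 3) + 2 * 1 = 2 from rfl]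
        rw [e1, e3]
        generalize x (1, 2) = y1, x (2, 1) = y2, x (2, 2) = y3, x (3, 0) = y4, x (3, 1) = y5,
          x (3, 2) = y6
        revert y1 y2 y3 y4 y5 y6
        decide +kernel
      · simp only [show (0 : ZMod 3) + 2 = 2 from rfl, show (0 : ZMod 3) + 2 * 2 = 1 from rfl]
        rw [e2, e3]
        generalize x (1, 2) = y1, x (2, 1) = y2, x (2, 2) = y3, x (3, 0) = y4, x (3, 1) = y5,
          x (3, 2) = y6
        revert y1 y2 y3 y4 y5 y6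
        decide +kernel
      · simp only [show (1 : ZMod 3) + 0 = 1 from rfl, show (1 : ZMod 3) + 2 * 0 = 1 from rfl]
        rw [e0, e4]
        generalize x (1, 2) = y1, x (2, 1) = y2, x (2, 2) = y3, x (3, 0) = y4, x (3, 1) = y5,
          x (3, 2) = y6
        revert y1 y2 y3 y4 y5 y6
        decide +kernel
      · simp only [show (1 : ZMod 3) + 1 = 2 from rfl, show (1 : ZMod 3) + 2 * 1 = 0 from rfl]
        rw [e1, e4]
        generalize x (1, 2) = y1, x (2, 1) = y2, x (2, 2) = y3, x (3, 0) = y4, x (3, 1) = y5,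
          x (3, 2) = y6
        revert y1 y2 y3 y4 y5 y6
        decide +kernel
      · simp only [show (1 : ZMod 3) + 2 = 0 from rfl, show (1 : ZMod 3) + 2 * 2 = 2 from rfl]
        rw [e2, e4, e6]
        generalize x (1, 2) = y1, x (2, 1) = y2, x (2, 2) = y3, x (3, 0) = y4, x (3, 1) = y5,
          x (3, 2) = y6
        revert y1 y2 y3 y4 y5 y6
        decide +kernel
      · simp only [show (2 : ZMod 3) + 0 = 2 from rfl, show (2 : ZMod 3) + 2 * 0 = 2 from rfl]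
        rw [e0]
        generalize x (1, 2) = y1, x (2, 1) = y2, x (2, 2) = y3, x (3, 0) = y4, x (3, 1) = y5,
          x (3, 2) = y6
        revert y1 y2 y3 y4 y5 y6
        decide +kernel
      · simp only [show (2 : ZMod 3) + 1 = 0 from rfl, show (2 : ZMod 3) + 2 * 1 = 1 from rfl]
        rw [e1, e6]
        generalize x (1, 2) = y1, x (2, 1) = y2, x (2, 2) = y3, x (3, 0) = y4, x (3, 1) = y5,
          x (3, 2) = y6
        revert y1 y2 y3 y4 y5 y6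
        decide +kernel
      · simp only [show (2 : ZMod 3) + 2 = 1 from rfl, show (2 : ZMod 3) + 2 * 2 = 0 from rfl]
        rw [e2]
        generalize x (1, 2) = y1, x (2, 1) = y2, x (2, 2) = y3, x (3, 0) = y4, x (3, 1) = y5,
          x (3, 2) = y6
        revert y1 y2 y3 y4 y5 y6
        decide +kernel

end Cfsg.Agent.TernaryGolay.AutCode
end

-- part: TernaryGolay/AutData
section
/-!
Kernel-checked data for the monomial group of the ternary Golay code: 46 explicit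
monomial automorphisms (coset representatives along the stabiliser chain of five base points), the
132 hexads as bitmasks, and a rigidity test.  (helper909, for S1594)
-/

set_option autoImplicit false

namespace Cfsg.Agent.TernaryGolay.AutData

open Cfsg Cfsg.Agent.TernaryGolay.AutCode

/-- index of a point, `(i, r) ↦ 3 * i + r` -/
def idx (p : ArrayPt) : ℕ := 3 * p.1.val + p.2.val

/-- residue of a natural number modulo 3 -/
def r3 (n : ℕ) : ZMod 3 := (Fin.ofNat 3 n : Fin 3)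

/-- point with a given index -/
def pt (n : ℕ) : ArrayPt := (Fin.ofNat 4 (n / 3), r3 n)

theorem pt_idx (p : ArrayPt) : pt (idx p) = p := by
  revert p; decide +kernel

/-- a word from a list of 12 entries -/
def wordOf (l : List ℕ) (p : ArrayPt) : ZMod 3 := r3 (l.getD (idx p) 0)

/-- The systematic basis of the code. -/
def basTab : List (List ℕ) :=
  [[2, 2, 2, 1, 1, 1, 0, 0, 0, 0, 0, 0],
   [0, 1, 2, 1, 2, 0, 2, 1, 0, 0, 0, 0],
   [2, 1, 0, 2, 1, 0, 2, 0, 1, 0, 0, 0],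
   [2, 1, 1, 1, 0, 0, 1, 0, 0, 1, 0, 0],
   [2, 0, 2, 2, 2, 0, 1, 0, 0, 0, 1, 0],
   [1, 1, 2, 0, 1, 0, 1, 0, 0, 0, 0, 1]]

/-- The systematic basis of the code. -/
def bas (j : Fin 6) : ArrayPt → ZMod 3 := wordOf (basTab.getD j.val [])

/-- point map from a table -/
def tab (l : List ℕ) (p : ArrayPt) : ArrayPt := pt (l.getD (idx p) 0)

/-- signs from a table (entry `2` means `-1`) -/
def sgn (l : List ℕ) (p : ArrayPt) : (ZMod 3)ˣ := if l.getD (idx p) 0 = 2 then -1 else 1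

/-- `l` is the table of a permutation with inverse table `l'`, and together with the signs `c` it
maps the basis of the code into the code. -/
def Good (l l' c : List ℕ) : Prop :=
  (∀ p, tab l' (tab l p) = p) ∧ (∀ p, tab l (tab l' p) = p) ∧
    ∀ j : Fin 6, Chk (fun p => (sgn c p : ZMod 3) * bas j (tab l' p))

instance instDecidableGood (l l' c : List ℕ) : Decidable (Good l l' c) := by
  unfold Good; infer_instance

/-- Coset representatives. -/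
def table : List (List ℕ × List ℕ × List ℕ) := [
    ([0, 1, 2, 3, 4, 5, 6, 7, 8, 9, 10, 11], [0, 1, 2, 3, 4, 5, 6, 7, 8, 9, 10, 11], [1, 1, 1, 1, 1, 1, 1, 1, 1, 1, 1, 1]),
    ([1, 0, 2, 3, 4, 5, 11, 9, 10, 7, 8, 6], [1, 0, 2, 3, 4, 5, 11, 9, 10, 7, 8, 6], [1, 1, 1, 1, 1, 1, 1, 1, 1, 1, 1, 1]),
    ([2, 0, 1, 3, 4, 5, 8, 6, 7, 10, 11, 9], [1, 2, 0, 3, 4, 5, 7, 8, 6, 11, 9, 10], [1, 1, 1, 1, 1, 1, 1, 1, 1, 1, 1, 1]),
    ([3, 0, 1, 2, 4, 5, 10, 7, 6, 8, 9, 11], [1, 2, 3, 0, 4, 5, 8, 7, 9, 10, 6, 11], [1, 1, 2, 2, 1, 1, 2, 2, 1, 2, 1, 2]),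
    ([4, 0, 1, 2, 3, 5, 6, 9, 10, 11, 7, 8], [1, 2, 3, 4, 0, 5, 6, 10, 11, 7, 8, 9], [1, 1, 2, 1, 2, 1, 1, 2, 2, 2, 2, 1]),
    ([5, 0, 1, 2, 3, 4, 9, 6, 8, 7, 11, 10], [1, 2, 3, 4, 5, 0, 7, 9, 8, 6, 11, 10], [1, 1, 2, 1, 1, 2, 2, 1, 2, 1, 2, 2]),
    ([6, 0, 1, 2, 3, 9, 5, 4, 7, 10, 8, 11], [1, 2, 3, 4, 7, 6, 0, 8, 10, 5, 9, 11], [1, 2, 1, 1, 2, 1, 2, 2, 2, 1, 1, 2]),
    ([7, 0, 1, 2, 3, 11, 10, 8, 9, 4, 5, 6], [1, 2, 3, 4, 9, 10, 11, 0, 7, 8, 6, 5], [1, 2, 2, 2, 2, 1, 1, 1, 1, 1, 2, 2]),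
    ([8, 0, 1, 2, 3, 10, 7, 11, 4, 6, 9, 5], [1, 2, 3, 4, 8, 11, 9, 6, 0, 10, 5, 7], [1, 1, 1, 2, 1, 1, 2, 2, 1, 1, 2, 1]),
    ([9, 0, 1, 2, 3, 6, 4, 5, 11, 8, 10, 7], [1, 2, 3, 4, 6, 7, 5, 11, 9, 0, 10, 8], [1, 2, 1, 1, 1, 2, 1, 2, 1, 2, 2, 2]),
    ([10, 0, 1, 2, 3, 8, 11, 7, 5, 9, 6, 4], [1, 2, 3, 4, 11, 8, 10, 7, 5, 9, 0, 6], [1, 1, 1, 2, 1, 1, 1, 1, 2, 2, 1, 2]),
    ([11, 0, 1, 2, 3, 7, 8, 10, 6, 5, 4, 9], [1, 2, 3, 4, 10, 9, 8, 5, 6, 11, 7, 0], [1, 2, 2, 2, 1, 2, 1, 2, 2, 1, 1, 1]),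
    ([0, 2, 1, 3, 4, 5, 9, 10, 11, 6, 7, 8], [0, 2, 1, 3, 4, 5, 9, 10, 11, 6, 7, 8], [1, 1, 1, 1, 1, 1, 1, 1, 1, 1, 1, 1]),
    ([0, 3, 1, 2, 4, 5, 11, 8, 9, 7, 6, 10], [0, 2, 3, 1, 4, 5, 10, 9, 7, 8, 11, 6], [1, 1, 2, 2, 1, 1, 2, 2, 1, 2, 1, 2]),
    ([0, 4, 1, 2, 3, 5, 8, 11, 7, 9, 10, 6], [0, 2, 3, 4, 1, 5, 11, 8, 6, 9, 10, 7], [1, 1, 2, 1, 2, 1, 1, 2, 2, 2, 2, 1]),
    ([0, 5, 1, 2, 3, 4, 10, 7, 11, 6, 8, 9], [0, 2, 3, 4, 5, 1, 9, 7, 10, 11, 6, 8], [1, 1, 2, 1, 1, 2, 2, 1, 2, 1, 2, 2]),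
    ([0, 6, 1, 2, 3, 9, 11, 10, 8, 4, 7, 5], [0, 2, 3, 4, 9, 11, 1, 10, 8, 5, 7, 6], [1, 2, 1, 1, 2, 1, 2, 2, 2, 1, 1, 2]),
    ([0, 7, 1, 2, 3, 11, 6, 4, 5, 8, 9, 10], [0, 2, 3, 4, 7, 8, 6, 1, 9, 10, 11, 5], [1, 2, 2, 2, 2, 1, 1, 1, 1, 1, 2, 2]),
    ([0, 8, 1, 2, 3, 10, 5, 6, 9, 11, 4, 7], [0, 2, 3, 4, 10, 6, 7, 11, 1, 8, 5, 9], [1, 1, 1, 2, 1, 1, 2, 2, 1, 1, 2, 1]),
    ([0, 9, 1, 2, 3, 6, 7, 8, 10, 5, 11, 4], [0, 2, 3, 4, 11, 9, 5, 6, 7, 1, 8, 10], [1, 2, 1, 1, 1, 2, 1, 2, 1, 2, 2, 2]),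
    ([0, 10, 1, 2, 3, 8, 4, 9, 6, 7, 5, 11], [0, 2, 3, 4, 6, 10, 8, 9, 5, 7, 1, 11], [1, 1, 1, 2, 1, 1, 1, 1, 2, 2, 1, 2]),
    ([0, 11, 1, 2, 3, 7, 9, 5, 4, 10, 6, 8], [0, 2, 3, 4, 8, 7, 10, 5, 11, 6, 9, 1], [1, 2, 2, 2, 1, 2, 1, 2, 2, 1, 1, 1]),
    ([0, 1, 3, 2, 4, 5, 7, 6, 10, 11, 8, 9], [0, 1, 3, 2, 4, 5, 7, 6, 10, 11, 8, 9], [1, 1, 2, 2, 1, 1, 2, 2, 1, 2, 1, 2]),
    ([0, 1, 4, 2, 3, 5, 9, 10, 6, 8, 11, 7], [0, 1, 3, 4, 2, 5, 8, 11, 9, 6, 7, 10], [1, 1, 2, 1, 2, 1, 1, 2, 2, 2, 2, 1]),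
    ([0, 1, 5, 2, 3, 4, 6, 8, 9, 10, 7, 11], [0, 1, 3, 4, 5, 2, 6, 10, 7, 8, 9, 11], [1, 1, 2, 1, 1, 2, 2, 1, 2, 1, 2, 2]),
    ([0, 1, 6, 2, 3, 9, 4, 7, 5, 11, 10, 8], [0, 1, 3, 4, 6, 8, 2, 7, 11, 5, 10, 9], [1, 2, 1, 1, 2, 1, 2, 2, 2, 1, 1, 2]),
    ([0, 1, 7, 2, 3, 11, 8, 9, 10, 6, 4, 5], [0, 1, 3, 4, 10, 11, 9, 2, 6, 7, 8, 5], [1, 2, 2, 2, 2, 1, 1, 1, 1, 1, 2, 2]),
    ([0, 1, 8, 2, 3, 10, 11, 4, 7, 5, 6, 9], [0, 1, 3, 4, 7, 9, 10, 8, 2, 11, 5, 6], [1, 1, 1, 2, 1, 1, 2, 2, 1, 1, 2, 1]),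
    ([0, 1, 9, 2, 3, 6, 5, 11, 4, 7, 8, 10], [0, 1, 3, 4, 8, 6, 5, 9, 10, 2, 11, 7], [1, 2, 1, 1, 1, 2, 1, 2, 1, 2, 2, 2]),
    ([0, 1, 10, 2, 3, 8, 7, 5, 11, 4, 9, 6], [0, 1, 3, 4, 9, 7, 11, 6, 5, 10, 2, 8], [1, 1, 1, 2, 1, 1, 1, 1, 2, 2, 1, 2]),
    ([0, 1, 11, 2, 3, 7, 10, 6, 8, 9, 5, 4], [0, 1, 3, 4, 11, 10, 7, 5, 8, 9, 6, 2], [1, 2, 2, 2, 1, 2, 1, 2, 2, 1, 1, 1]),
    ([0, 1, 2, 4, 3, 5, 10, 9, 11, 7, 6, 8], [0, 1, 2, 4, 3, 5, 10, 9, 11, 7, 6, 8], [1, 1, 1, 1, 1, 1, 1, 1, 1, 1, 1, 1]),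
    ([0, 1, 2, 5, 3, 4, 8, 6, 7, 11, 9, 10], [0, 1, 2, 4, 5, 3, 7, 8, 6, 10, 11, 9], [1, 1, 1, 1, 1, 1, 1, 1, 1, 1, 1, 1]),
    ([0, 1, 2, 6, 3, 9, 7, 4, 10, 8, 5, 11], [0, 1, 2, 4, 7, 10, 3, 6, 9, 5, 8, 11], [1, 2, 2, 1, 1, 1, 1, 1, 1, 1, 1, 1]),
    ([0, 1, 2, 7, 3, 11, 9, 8, 4, 5, 10, 6], [0, 1, 2, 4, 8, 9, 11, 3, 7, 6, 10, 5], [1, 2, 1, 2, 2, 2, 2, 2, 2, 2, 2, 2]),
    ([0, 1, 2, 8, 3, 10, 4, 11, 6, 9, 7, 5], [0, 1, 2, 4, 6, 11, 8, 10, 3, 9, 5, 7], [1, 1, 2, 2, 2, 2, 2, 2, 2, 2, 2, 2]),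
    ([0, 1, 2, 9, 3, 6, 11, 5, 8, 10, 4, 7], [0, 1, 2, 4, 10, 7, 5, 11, 8, 3, 9, 6], [1, 2, 2, 1, 1, 1, 1, 1, 1, 1, 1, 1]),
    ([0, 1, 2, 10, 3, 8, 5, 7, 9, 6, 11, 4], [0, 1, 2, 4, 11, 6, 9, 7, 5, 8, 3, 10], [1, 1, 2, 2, 2, 2, 2, 2, 2, 2, 2, 2]),
    ([0, 1, 2, 11, 3, 7, 6, 10, 5, 4, 8, 9], [0, 1, 2, 4, 9, 8, 6, 5, 10, 11, 7, 3], [1, 2, 1, 2, 2, 2, 2, 2, 2, 2, 2, 2]),
    ([0, 1, 2, 3, 5, 4, 9, 11, 10, 6, 8, 7], [0, 1, 2, 3, 5, 4, 9, 11, 10, 6, 8, 7], [1, 1, 1, 1, 1, 1, 1, 1, 1, 1, 1, 1]),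
    ([0, 1, 2, 3, 6, 9, 5, 8, 11, 4, 7, 10], [0, 1, 2, 3, 9, 6, 4, 10, 7, 5, 11, 8], [1, 2, 2, 1, 1, 1, 1, 1, 1, 1, 1, 1]),
    ([0, 1, 2, 3, 7, 11, 10, 5, 6, 8, 9, 4], [0, 1, 2, 3, 11, 7, 8, 4, 9, 10, 6, 5], [1, 2, 1, 2, 2, 2, 2, 2, 2, 2, 2, 2]),
    ([0, 1, 2, 3, 8, 10, 7, 9, 5, 11, 4, 6], [0, 1, 2, 3, 10, 8, 11, 6, 4, 7, 5, 9], [1, 1, 2, 2, 2, 2, 2, 2, 2, 2, 2, 2]),
    ([0, 1, 2, 3, 9, 6, 4, 10, 7, 5, 11, 8], [0, 1, 2, 3, 6, 9, 5, 8, 11, 4, 7, 10], [1, 2, 2, 1, 1, 1, 1, 1, 1, 1, 1, 1]),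
    ([0, 1, 2, 3, 10, 8, 11, 6, 4, 7, 5, 9], [0, 1, 2, 3, 8, 10, 7, 9, 5, 11, 4, 6], [1, 1, 2, 2, 2, 2, 2, 2, 2, 2, 2, 2]),
    ([0, 1, 2, 3, 11, 7, 8, 4, 9, 10, 6, 5], [0, 1, 2, 3, 7, 11, 10, 5, 6, 8, 9, 4], [1, 2, 1, 2, 2, 2, 2, 2, 2, 2, 2, 2])]

theorem table_good : ∀ e ∈ table, Good e.1 e.2.1 e.2.2 := by decide +kernel

/-- Base points. -/
def base (k : Fin 5) : ArrayPt := pt k.val

theorem base_injective : Function.Injective base := by decide +kernel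

theorem table_trans : ∀ k : Fin 5, ∀ y : ArrayPt, (∀ j : Fin 5, j < k → y ≠ base j) →
    ∃ e ∈ table, (∀ j : Fin 5, j < k → tab e.1 (base j) = base j) ∧ tab e.1 (base k) = y := by
  decide +kernel

/-- Bitmasks of the 132 hexads. -/
def hexMasks : List ℕ :=
    [63, 222, 237, 243, 347, 366, 373, 413, 427, 438, 455, 504, 591, 630, 633, 667, 679, 700,
    725, 746, 791, 813, 826, 860, 867, 910, 945, 969, 978, 996, 1117, 1127, 1146, 1175, 1198,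
    1209, 1227, 1268, 1295, 1331, 1340, 1366, 1385, 1434, 1445, 1484, 1489, 1506, 1566, 1579,
    1589, 1619, 1644, 1677, 1714, 1734, 1752, 1761, 1817, 1830, 1861, 1866, 1904, 1923, 1940,
    1960, 2135, 2155, 2172, 2191, 2229, 2234, 2265, 2278, 2334, 2343, 2361, 2381, 2418, 2451,
    2476, 2506, 2516, 2529, 2589, 2606, 2611, 2650, 2661, 2710, 2729, 2755, 2764, 2800, 2827,
    2868, 2886, 2897, 2920, 2949, 2968, 2978, 3099, 3117, 3126, 3150, 3185, 3228, 3235, 3269,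
    3282, 3304, 3349, 3370, 3395, 3416, 3428, 3462, 3465, 3504, 3591, 3640, 3657, 3668, 3682,
    3722, 3729, 3748, 3852, 3858, 3873, 4032]

/-- bitmask of a set of points -/
def maskOf (h : Finset ArrayPt) : ℕ := ∑ p : ArrayPt, if p ∈ h then 2 ^ idx p else 0

/-- word from its six free coordinates -/
def enc (y1 y2 y3 y4 y5 y6 : ZMod 3) (p : ArrayPt) : ZMod 3 :=
  y1 * bas 0 p + y2 * bas 1 p + y3 * bas 2 p + y4 * bas 3 p + y5 * bas 4 p + y6 * bas 5 p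

/-- bitmask of the support of a word -/
def wmask (x : ArrayPt → ZMod 3) : ℕ := ∑ p : ArrayPt, if x p ≠ 0 then 2 ^ idx p else 0

/-- weight of a word -/
def wt (x : ArrayPt → ZMod 3) : ℕ := ∑ p : ArrayPt, if x p ≠ 0 then 1 else 0

theorem mask_mem_enc : ∀ y1 y2 y3 y4 y5 y6 : ZMod 3, wt (enc y1 y2 y3 y4 y5 y6) = 6 →
    wmask (enc y1 y2 y3 y4 y5 y6) ∈ hexMasks := by
  decide +kernel

/-- Some hexads (as lists of indices) with codewords. -/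
def hexData : List (List ℕ × List ℕ) := [
    ([0, 1, 2, 3, 4, 5], [1, 1, 1, 2, 2, 2, 0, 0, 0, 0, 0, 0]),
    ([0, 1, 4, 5, 6, 7], [1, 2, 0, 0, 1, 2, 2, 1, 0, 0, 0, 0]),
    ([0, 2, 3, 5, 6, 7], [1, 0, 2, 1, 0, 2, 1, 2, 0, 0, 0, 0]),
    ([1, 2, 3, 4, 6, 7], [0, 1, 2, 1, 2, 0, 2, 1, 0, 0, 0, 0]),
    ([0, 1, 3, 4, 6, 8], [1, 2, 0, 1, 2, 0, 1, 0, 2, 0, 0, 0]),
    ([0, 2, 4, 5, 6, 8], [1, 0, 2, 0, 2, 1, 2, 0, 1, 0, 0, 0]),
    ([1, 2, 3, 5, 6, 8], [0, 1, 2, 2, 0, 1, 1, 0, 2, 0, 0, 0]),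
    ([0, 1, 2, 3, 6, 9], [1, 2, 2, 2, 0, 0, 2, 0, 0, 2, 0, 0]),
    ([0, 3, 4, 5, 6, 9], [1, 0, 0, 2, 1, 1, 1, 0, 0, 1, 0, 0]),
    ([1, 2, 4, 5, 6, 9], [0, 1, 1, 0, 1, 1, 2, 0, 0, 2, 0, 0]),
    ([0, 1, 2, 5, 6, 10], [1, 2, 1, 0, 0, 1, 1, 0, 0, 0, 1, 0]),
    ([0, 2, 3, 4, 6, 10], [1, 0, 1, 1, 1, 0, 2, 0, 0, 0, 2, 0]),
    ([1, 3, 4, 5, 6, 10], [0, 1, 0, 1, 1, 2, 1, 0, 0, 0, 1, 0]),
    ([0, 1, 2, 4, 6, 11], [1, 1, 2, 0, 1, 0, 1, 0, 0, 0, 0, 1]),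
    ([0, 1, 3, 5, 6, 11], [1, 1, 0, 1, 0, 1, 2, 0, 0, 0, 0, 2]),
    ([2, 3, 4, 5, 6, 11], [0, 0, 1, 1, 2, 1, 1, 0, 0, 0, 0, 1])]

theorem hexData_spec : ∀ e ∈ hexData, Chk (wordOf e.2) ∧
    ternarySupport (wordOf e.2) = (e.1.map pt).toFinset ∧ ((e.1.map pt).toFinset).card = 6 := by
  decide +kernel

theorem rigid0 : ∀ y : ArrayPt, maskOf {pt 0, pt 1, pt 2, pt 3, pt 4, y} ∈ hexMasks → y = pt 5 := by
  decide +kernel

/-- `a, b, c, d, y, y'` form a hexad (mask test). -/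
def Six (a b c d : ℕ) (y y' : ArrayPt) : Prop :=
  maskOf {pt a, pt b, pt c, pt d, y, y'} ∈ hexMasks

instance instDecidableSix (a b c d : ℕ) (y y' : ArrayPt) : Decidable (Six a b c d y y') := by
  unfold Six; infer_instance

theorem rigid7 : ∀ y y' : ArrayPt, Six 0 1 4 5 y y' ∧ Six 0 2 3 5 y y' ∧ Six 1 2 3 4 y y' →
    (y = pt 6 ∧ y' = pt 7) ∨ (y = pt 7 ∧ y' = pt 6) := by
  decide +kernel

theorem rigid8 : ∀ y y' : ArrayPt, Six 0 1 3 4 y y' ∧ Six 0 2 4 5 y y' ∧ Six 1 2 3 5 y y' →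
    (y = pt 6 ∧ y' = pt 8) ∨ (y = pt 8 ∧ y' = pt 6) := by
  decide +kernel

theorem rigid9 : ∀ y y' : ArrayPt, Six 0 1 2 3 y y' ∧ Six 0 3 4 5 y y' ∧ Six 1 2 4 5 y y' →
    (y = pt 6 ∧ y' = pt 9) ∨ (y = pt 9 ∧ y' = pt 6) := by
  decide +kernel

theorem rigid10 : ∀ y y' : ArrayPt, Six 0 1 2 5 y y' ∧ Six 0 2 3 4 y y' ∧ Six 1 3 4 5 y y' →
    (y = pt 6 ∧ y' = pt 10) ∨ (y = pt 10 ∧ y' = pt 6) := by
  decide +kernel

theorem rigid11 : ∀ y y' : ArrayPt, Six 0 1 2 4 y y' ∧ Six 0 1 3 5 y y' ∧ Six 2 3 4 5 y y' →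
    (y = pt 6 ∧ y' = pt 11) ∨ (y = pt 11 ∧ y' = pt 6) := by
  decide +kernel

end Cfsg.Agent.TernaryGolay.AutData
end

-- part: TernaryGolay/AutGroup
section
/-!
The monomial group of the ternary Golay code and the automorphism group of its hexad system.
(helper909, for S1594)
-/

set_option autoImplicit false

namespace Cfsg.Agent.TernaryGolay.AutGroup

open Cfsg Cfsg.Agent.TernaryGolay.AutCode Cfsg.Agent.TernaryGolay.AutData
open scoped Pointwise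

/-- the monomial map preserves the code -/
def Pres (σ : Equiv.Perm ArrayPt) (c : ArrayPt → (ZMod 3)ˣ) : Prop :=
  ∀ x ∈ ternaryGolayCode, monomialMap σ c x ∈ ternaryGolayCode

theorem eq_enc (x : ArrayPt → ZMod 3) (hx : Chk x) :
    x = enc (x (1, 2)) (x (2, 1)) (x (2, 2)) (x (3, 0)) (x (3, 1)) (x (3, 2)) := by
  obtain ⟨h0, h1, h2, h3, h4, h6⟩ := hx
  have e0 : x (0, 0) = x (1, 2) * 2 + x (2, 1) * 0 + x (2, 2) * 2 + x (3, 0) * 2 + x (3, 1) * 2 + x (3, 2) * 1 := by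
    rw [h0]; ring
  have e1 : x (0, 1) = x (1, 2) * 2 + x (2, 1) * 1 + x (2, 2) * 1 + x (3, 0) * 1 + x (3, 1) * 0 + x (3, 2) * 1 := by
    rw [h1]; ring
  have e2 : x (0, 2) = x (1, 2) * 2 + x (2, 1) * 2 + x (2, 2) * 0 + x (3, 0) * 1 + x (3, 1) * 2 + x (3, 2) * 2 := by
    rw [h2]; ring
  have e3 : x (1, 0) = x (1, 2) * 1 + x (2, 1) * 1 + x (2, 2) * 2 + x (3, 0) * 1 + x (3, 1) * 2 + x (3, 2) * 0 := by
    rw [h3]; ring
  have e4 : x (1, 1) = x (1, 2) * 1 + x (2, 1) * 2 + x (2, 2) * 1 + x (3, 0) * 0 + x (3, 1) * 2 + x (3, 2) * 1 := by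
    rw [h4]; ring
  have e5 : x (1, 2) = x (1, 2) * 1 + x (2, 1) * 0 + x (2, 2) * 0 + x (3, 0) * 0 + x (3, 1) * 0 + x (3, 2) * 0 := by
    ring
  have e6 : x (2, 0) = x (1, 2) * 0 + x (2, 1) * 2 + x (2, 2) * 2 + x (3, 0) * 1 + x (3, 1) * 1 + x (3, 2) * 1 := by
    rw [h6]; ring
  have e7 : x (2, 1) = x (1, 2) * 0 + x (2, 1) * 1 + x (2, 2) * 0 + x (3, 0) * 0 + x (3, 1) * 0 + x (3, 2) * 0 := by
    ring
  have e8 : x (2, 2) = x (1, 2) * 0 + x (2, 1) * 0 + x (2, 2) * 1 + x (3, 0) * 0 + x (3, 1) * 0 + x (3, 2) * 0 := by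
    ring
  have e9 : x (3, 0) = x (1, 2) * 0 + x (2, 1) * 0 + x (2, 2) * 0 + x (3, 0) * 1 + x (3, 1) * 0 + x (3, 2) * 0 := by
    ring
  have e10 : x (3, 1) = x (1, 2) * 0 + x (2, 1) * 0 + x (2, 2) * 0 + x (3, 0) * 0 + x (3, 1) * 1 + x (3, 2) * 0 := by
    ring
  have e11 : x (3, 2) = x (1, 2) * 0 + x (2, 1) * 0 + x (2, 2) * 0 + x (3, 0) * 0 + x (3, 1) * 0 + x (3, 2) * 1 := by
    ring
  funext p
  obtain ⟨i, r⟩ := p
  have hr : r = 0 ∨ r = 1 ∨ r = 2 := by revert r; decide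
  have hi : i = 0 ∨ i = 1 ∨ i = 2 ∨ i = 3 := by revert i; decide
  rcases hi with rfl | rfl | rfl | rfl <;> rcases hr with rfl | rfl | rfl
  · exact e0
  · exact e1
  · exact e2
  · exact e3
  · exact e4
  · exact e5
  · exact e6
  · exact e7
  · exact e8
  · exact e9
  · exact e10
  · exact e11

theorem monomialMap_add (σ : Equiv.Perm ArrayPt) (c : ArrayPt → (ZMod 3)ˣ)
    (x y : ArrayPt → ZMod 3) : monomialMap σ c (x + y) = monomialMap σ c x + monomialMap σ c y := by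
  funext p
  change (c p : ZMod 3) * (x (σ.symm p) + y (σ.symm p)) =
    (c p : ZMod 3) * x (σ.symm p) + (c p : ZMod 3) * y (σ.symm p)
  ring

theorem pres_of_bas (σ : Equiv.Perm ArrayPt) (c : ArrayPt → (ZMod 3)ˣ)
    (h : ∀ j : Fin 6, Chk (monomialMap σ c (bas j))) : Pres σ c := by
  intro x hx
  have hx' := (mem_iff x).1 hx
  have hb : ∀ j : Fin 6, monomialMap σ c (bas j) ∈ ternaryGolayCode := fun j => (mem_iff _).2 (h j)
  rw [eq_enc x hx']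
  generalize x (1, 2) = y1, x (2, 1) = y2, x (2, 2) = y3, x (3, 0) = y4, x (3, 1) = y5,
    x (3, 2) = y6
  have : monomialMap σ c (enc y1 y2 y3 y4 y5 y6) =
      y1 • monomialMap σ c (bas 0) + y2 • monomialMap σ c (bas 1) + y3 • monomialMap σ c (bas 2) +
      y4 • monomialMap σ c (bas 3) + y5 • monomialMap σ c (bas 4) + y6 • monomialMap σ c (bas 5) := by
    funext p
    change (c p : ZMod 3) * (y1 * bas 0 (σ.symm p) + y2 * bas 1 (σ.symm p) +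
      y3 * bas 2 (σ.symm p) + y4 * bas 3 (σ.symm p) + y5 * bas 4 (σ.symm p) +
      y6 * bas 5 (σ.symm p)) =
      y1 * ((c p : ZMod 3) * bas 0 (σ.symm p)) + y2 * ((c p : ZMod 3) * bas 1 (σ.symm p)) +
      y3 * ((c p : ZMod 3) * bas 2 (σ.symm p)) + y4 * ((c p : ZMod 3) * bas 3 (σ.symm p)) +
      y5 * ((c p : ZMod 3) * bas 4 (σ.symm p)) + y6 * ((c p : ZMod 3) * bas 5 (σ.symm p))
    ring
  rw [this]
  exact Submodule.add_mem _ (Submodule.add_mem _ (Submodule.add_mem _ (Submodule.add_mem _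
    (Submodule.add_mem _ (Submodule.smul_mem _ _ (hb 0)) (Submodule.smul_mem _ _ (hb 1)))
    (Submodule.smul_mem _ _ (hb 2))) (Submodule.smul_mem _ _ (hb 3)))
    (Submodule.smul_mem _ _ (hb 4))) (Submodule.smul_mem _ _ (hb 5))

theorem monomialMap_mul (σ τ : Equiv.Perm ArrayPt) (c d : ArrayPt → (ZMod 3)ˣ)
    (x : ArrayPt → ZMod 3) :
    monomialMap (σ * τ) (fun i => c i * d (σ.symm i)) x = monomialMap σ c (monomialMap τ d x) := by
  funext p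
  change ((c p * d (σ.symm p) : (ZMod 3)ˣ) : ZMod 3) * x (τ.symm (σ.symm p)) =
    (c p : ZMod 3) * ((d (σ.symm p) : ZMod 3) * x (τ.symm (σ.symm p)))
  rw [Units.val_mul, mul_assoc]

theorem Pres.mul {σ τ : Equiv.Perm ArrayPt} {c d : ArrayPt → (ZMod 3)ˣ} (h : Pres σ c)
    (h' : Pres τ d) : Pres (σ * τ) (fun i => c i * d (σ.symm i)) := by
  intro x hx
  rw [monomialMap_mul]
  exact h _ (h' _ hx)

/-- permutation from tables -/
def permOf (l l' c : List ℕ) (h : Good l l' c) : Equiv.Perm ArrayPt := ⟨tab l, tab l', h.1, h.2.1⟩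

theorem permOf_pres (l l' c : List ℕ) (h : Good l l' c) : Pres (permOf l l' c h) (sgn c) :=
  pres_of_bas _ _ h.2.2

/-- permutation parts of the monomial automorphisms -/
def G : Set (Equiv.Perm ArrayPt) := {σ | ∃ c, Pres σ c}

theorem one_mem_G : (1 : Equiv.Perm ArrayPt) ∈ G := by
  refine ⟨fun _ => 1, fun x hx => ?_⟩
  have : monomialMap (1 : Equiv.Perm ArrayPt) (fun _ => (1 : (ZMod 3)ˣ)) x = x := by
    funext p
    change ((1 : (ZMod 3)ˣ) : ZMod 3) * x p = x p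
    rw [Units.val_one, one_mul]
  rw [this]
  exact hx

theorem mul_mem_G {σ τ : Equiv.Perm ArrayPt} (h : σ ∈ G) (h' : τ ∈ G) : σ * τ ∈ G := by
  obtain ⟨c, hc⟩ := h
  obtain ⟨d, hd⟩ := h'
  exact ⟨_, hc.mul hd⟩

theorem exists_rep (k : Fin 5) (y : ArrayPt) (hy : ∀ j : Fin 5, j < k → y ≠ base j) :
    ∃ g ∈ G, (∀ j : Fin 5, j < k → g (base j) = base j) ∧ g (base k) = y := by
  obtain ⟨e, he, h1, h2⟩ := table_trans k y hy
  have hg := table_good e he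
  exact ⟨permOf _ _ _ hg, ⟨_, permOf_pres _ _ _ hg⟩, h1, h2⟩

theorem exists_map_aux (y : Fin 5 → ArrayPt) (hy : Function.Injective y) (n : ℕ) (hn : n ≤ 5) :
    ∃ g ∈ G, ∀ i : Fin 5, i.val < n → g (base i) = y i := by
  induction n with
  | zero => exact ⟨1, one_mem_G, fun i hi => absurd hi (Nat.not_lt_zero _)⟩
  | succ n ih =>
    obtain ⟨g, hg, hgi⟩ := ih (by omega)
    have hn5 : n < 5 := by omega
    obtain ⟨h, hh, h1, h2⟩ := exists_rep ⟨n, hn5⟩ (g.symm (y ⟨n, hn5⟩)) (by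
      intro j hj heq
      have := hgi j hj
      rw [← heq, Equiv.apply_symm_apply] at this
      have := hy this
      rw [← this] at hj
      exact lt_irrefl _ hj)
    refine ⟨g * h, mul_mem_G hg hh, fun i hi => ?_⟩
    rw [Equiv.Perm.mul_apply]
    rcases Nat.lt_or_ge i.val n with hlt | hge
    · rw [h1 i hlt, hgi i hlt]
    · have hin : i = ⟨n, hn5⟩ := Fin.ext (by change i.val = n; omega)
      rw [hin, h2, Equiv.apply_symm_apply]

/-- The group is 5-transitive. -/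
theorem exists_map (y : Fin 5 → ArrayPt) (hy : Function.Injective y) :
    ∃ g ∈ G, ∀ i : Fin 5, g (base i) = y i := by
  obtain ⟨g, hg, h⟩ := exists_map_aux y hy 5 le_rfl
  exact ⟨g, hg, fun i => h i i.isLt⟩

/-- The hexads. -/
def Hex : Set (Finset ArrayPt) := {h | ∃ x ∈ ternaryGolayCode, ternarySupport x = h ∧ h.card = 6}

theorem mem_support (x : ArrayPt → ZMod 3) (p : ArrayPt) : p ∈ ternarySupport x ↔ x p ≠ 0 := by
  unfold ternarySupport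
  simp

theorem support_monomialMap (σ : Equiv.Perm ArrayPt) (c : ArrayPt → (ZMod 3)ˣ)
    (x : ArrayPt → ZMod 3) : ternarySupport (monomialMap σ c x) = σ • ternarySupport x := by
  ext p
  rw [mem_support, ← Finset.inv_smul_mem_iff, mem_support]
  change (c p : ZMod 3) * x (σ.symm p) ≠ 0 ↔ x (σ.symm p) ≠ 0
  simp

theorem G_subset : G ⊆ (setSystemAut Hex : Set (Equiv.Perm ArrayPt)) := by
  rintro σ ⟨c, hc⟩
  rw [SetLike.mem_coe, MulAction.mem_stabilizer_set' (Set.toFinite _)]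
  rintro h ⟨x, hx, hxh, h6⟩
  exact ⟨_, hc x hx, by rw [support_monomialMap, hxh], by rw [Finset.card_smul_finset, h6]⟩

theorem mask_mem {h : Finset ArrayPt} (hh : h ∈ Hex) : maskOf h ∈ hexMasks := by
  obtain ⟨x, hx, hxh, h6⟩ := hh
  have hx' := (mem_iff x).1 hx
  have e := eq_enc x hx'
  have hm : maskOf h = wmask x := by
    unfold maskOf wmask
    refine Finset.sum_congr rfl fun p _ => ?_
    rw [← hxh]
    simp only [mem_support]
  have hw : wt x = 6 := by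
    rw [← h6, ← hxh]
    unfold wt ternarySupport
    rw [Finset.card_filter]
  rw [hm]
  rw [e] at hw ⊢
  exact mask_mem_enc _ _ _ _ _ _ hw

theorem hexData_mem : ∀ e ∈ hexData, (e.1.map pt).toFinset ∈ Hex := by
  intro e he
  obtain ⟨h1, h2, h3⟩ := hexData_spec e he
  exact ⟨_, (mem_iff _).2 h1, h2, h3⟩

theorem hexData_test {τ : Equiv.Perm ArrayPt} (hτ : τ ∈ setSystemAut Hex) :
    ∀ e ∈ hexData, maskOf (((e.1.map pt).map τ).toFinset) ∈ hexMasks := by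
  intro e he
  rw [MulAction.mem_stabilizer_set' (Set.toFinite _)] at hτ
  have := mask_mem (hτ (hexData_mem e he))
  convert this using 2
  ext p
  rw [Finset.smul_finset_def, Finset.mem_image]
  simp only [List.mem_toFinset, List.mem_map, Equiv.Perm.smul_def]

/-- An automorphism of the hexad system fixing the five base points is trivial. -/
theorem rigid {τ : Equiv.Perm ArrayPt} (hτ : τ ∈ setSystemAut Hex)
    (hb : ∀ i : Fin 5, τ (base i) = base i) : τ = 1 := by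
  have h0 : τ (pt 0) = pt 0 := hb 0
  have h1 : τ (pt 1) = pt 1 := hb 1
  have h2 : τ (pt 2) = pt 2 := hb 2
  have h3 : τ (pt 3) = pt 3 := hb 3
  have h4 : τ (pt 4) = pt 4 := hb 4
  have key := hexData_test hτ
  simp only [hexData, List.forall_mem_cons, List.map_cons, List.map_nil, List.toFinset_cons,
    List.toFinset_nil, insert_empty_eq, h0, h1, h2, h3, h4] at key
  obtain ⟨k0, k⟩ := key
  have h5 : τ (pt 5) = pt 5 := rigid0 _ k0
  simp only [h5] at k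
  obtain ⟨a1, a2, a3, b1, b2, b3, c1, c2, c3, d1, d2, d3, e1, e2, e3, -⟩ := k
  have r7 := rigid7 _ _ ⟨a1, a2, a3⟩
  have r8 := rigid8 _ _ ⟨b1, b2, b3⟩
  have r9 := rigid9 _ _ ⟨c1, c2, c3⟩
  have r10 := rigid10 _ _ ⟨d1, d2, d3⟩
  have r11 := rigid11 _ _ ⟨e1, e2, e3⟩
  have h6 : τ (pt 6) = pt 6 := by
    rcases r7 with h | h
    · exact h.1
    · rcases r8 with h' | h'
      · exact h'.1
      · exact absurd (h.1.symm.trans h'.1) (by decide)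
  have n7 : pt 6 ≠ pt 7 := by decide
  have n8 : pt 6 ≠ pt 8 := by decide
  have n9 : pt 6 ≠ pt 9 := by decide
  have n10 : pt 6 ≠ pt 10 := by decide
  have n11 : pt 6 ≠ pt 11 := by decide
  rw [h6] at r7 r8 r9 r10 r11
  have h7 : τ (pt 7) = pt 7 := by
    rcases r7 with h | h
    · exact h.2
    · exact absurd h.1 n7
  have h8 : τ (pt 8) = pt 8 := by
    rcases r8 with h | h
    · exact h.2
    · exact absurd h.1 n8
  have h9 : τ (pt 9) = pt 9 := by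
    rcases r9 with h | h
    · exact h.2
    · exact absurd h.1 n9
  have h10 : τ (pt 10) = pt 10 := by
    rcases r10 with h | h
    · exact h.2
    · exact absurd h.1 n10
  have h11 : τ (pt 11) = pt 11 := by
    rcases r11 with h | h
    · exact h.2
    · exact absurd h.1 n11
  have hall : ∀ n : Fin 12, τ (pt n.val) = pt n.val := by
    intro n
    match n with
    | 0 => exact h0
    | 1 => exact h1
    | 2 => exact h2
    | 3 => exact h3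
    | 4 => exact h4
    | 5 => exact h5
    | 6 => exact h6
    | 7 => exact h7
    | 8 => exact h8
    | 9 => exact h9
    | 10 => exact h10
    | 11 => exact h11
  ext1 p
  have hp : ∃ n : Fin 12, pt n.val = p := by revert p; decide +kernel
  obtain ⟨n, rfl⟩ := hp
  exact hall n

/-- Permutation parts of monomial automorphisms = automorphisms of the hexad system. -/
theorem G_eq : G = (setSystemAut Hex : Set (Equiv.Perm ArrayPt)) := by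
  apply Set.Subset.antisymm G_subset
  intro τ hτ
  obtain ⟨g, hg, hgi⟩ := exists_map (fun i => τ (base i)) (τ.injective.comp base_injective)
  have hg' : g ∈ setSystemAut Hex := G_subset hg
  have hmem : g⁻¹ * τ ∈ setSystemAut Hex := mul_mem (inv_mem hg') hτ
  have : g⁻¹ * τ = 1 := rigid hmem (by
    intro i
    rw [Equiv.Perm.mul_apply, ← hgi i]
    exact g.symm_apply_apply _)
  have h : τ = g := (inv_mul_eq_one.1 this).symm
  rw [h]
  exact hg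

/-- The automorphism group of the hexad system is sharply 5-transitive. -/
noncomputable def autEquiv : setSystemAut Hex ≃ (Fin 5 ↪ ArrayPt) :=
  Equiv.ofBijective (fun τ => ⟨fun i => τ.1 (base i), τ.1.injective.comp base_injective⟩) (by
    constructor
    · intro τ τ' h
      have hi : ∀ i, τ.1 (base i) = τ'.1 (base i) := fun i => congrArg (fun f => f i) h
      have h1 : τ'⁻¹ * τ = 1 := by
        apply Subtype.ext
        refine rigid (τ'⁻¹ * τ).2 ?_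
        intro i
        change τ'.1.symm (τ.1 (base i)) = base i
        rw [hi i]
        exact τ'.1.symm_apply_apply _
      exact (inv_mul_eq_one.1 h1).symm
    · intro y
      obtain ⟨g, hg, hgi⟩ := exists_map y y.injective
      exact ⟨⟨g, G_subset hg⟩, DFunLike.ext _ _ hgi⟩)

theorem card_aut : Nat.card (setSystemAut Hex) = 95040 := by
  rw [Nat.card_congr autEquiv, Nat.card_eq_fintype_card, Fintype.card_embedding_eq]
  decide +kernel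

/-- Diagonal automorphisms are scalars. -/
theorem diag {d : ArrayPt → (ZMod 3)ˣ}
    (h : ∀ x ∈ ternaryGolayCode, (fun p => (d p : ZMod 3) * x p) ∈ ternaryGolayCode) (p : ArrayPt) :
    d p = d (0, 0) := by
  have hj : ∀ j : Fin 6, Chk (fun p => (d p : ZMod 3) * bas j p) := by
    intro j
    refine (mem_iff _).1 (h _ ((mem_iff _).2 ?_))
    revert j
    decide +kernel
  have h3 : (3 : ZMod 3) = 0 := rfl
  have g0 : (d (0, 0) : ZMod 3) * 2 = 2 * (d (1, 2) * 1) + 2 * (d (2, 2) * 0) +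
    2 * (d (3, 0) * 0) + 2 * (d (3, 1) * 0) + d (3, 2) * 0 := (hj 0).1
  have g1 : (d (0, 1) : ZMod 3) * 2 = 2 * (d (1, 2) * 1) + d (2, 1) * 0 + d (2, 2) * 0 +
    d (3, 0) * 0 + d (3, 2) * 0 := (hj 0).2.1
  have g2 : (d (0, 2) : ZMod 3) * 2 = 2 * (d (1, 2) * 1) + 2 * (d (2, 1) * 0) + d (3, 0) * 0 +
    2 * (d (3, 1) * 0) + 2 * (d (3, 2) * 0) := (hj 0).2.2.1
  have g3 : (d (1, 0) : ZMod 3) * 1 = d (1, 2) * 1 + d (2, 1) * 0 + 2 * (d (2, 2) * 0) +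
    d (3, 0) * 0 + 2 * (d (3, 1) * 0) := (hj 0).2.2.2.1
  have g4 : (d (1, 1) : ZMod 3) * 1 = d (1, 2) * 1 + 2 * (d (2, 1) * 0) + d (2, 2) * 0 +
    2 * (d (3, 1) * 0) + d (3, 2) * 0 := (hj 0).2.2.2.2.1
  have g7 : (d (0, 1) : ZMod 3) * 1 = 2 * (d (1, 2) * 0) + d (2, 1) * 1 + d (2, 2) * 0 +
    d (3, 0) * 0 + d (3, 2) * 0 := (hj 1).2.1
  have g6 : (d (2, 0) : ZMod 3) * 2 = 2 * (d (2, 1) * 1) + 2 * (d (2, 2) * 0) + d (3, 0) * 0 +
    d (3, 1) * 0 + d (3, 2) * 0 := (hj 1).2.2.2.2.2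
  have g8 : (d (0, 1) : ZMod 3) * 1 = 2 * (d (1, 2) * 0) + d (2, 1) * 0 + d (2, 2) * 1 +
    d (3, 0) * 0 + d (3, 2) * 0 := (hj 2).2.1
  have g9 : (d (0, 1) : ZMod 3) * 1 = 2 * (d (1, 2) * 0) + d (2, 1) * 0 + d (2, 2) * 0 +
    d (3, 0) * 1 + d (3, 2) * 0 := (hj 3).2.1
  have g10 : (d (2, 0) : ZMod 3) * 1 = 2 * (d (2, 1) * 0) + 2 * (d (2, 2) * 0) + d (3, 0) * 0 +
    d (3, 1) * 1 + d (3, 2) * 0 := (hj 4).2.2.2.2.2
  have g11 : (d (0, 0) : ZMod 3) * 1 = 2 * (d (1, 2) * 0) + 2 * (d (2, 2) * 0) +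
    2 * (d (3, 0) * 0) + 2 * (d (3, 1) * 0) + d (3, 2) * 1 := (hj 5).1
  have e5 : (d (1, 2) : ZMod 3) = d (0, 0) := by
    linear_combination -2 * g0 + ((d (0, 0) : ZMod 3) - d (1, 2)) * h3
  have e1 : (d (0, 1) : ZMod 3) = d (0, 0) := by
    linear_combination 2 * g1 + e5 - ((d (0, 1) : ZMod 3) - d (1, 2)) * h3
  have e2 : (d (0, 2) : ZMod 3) = d (0, 0) := by
    linear_combination 2 * g2 + e5 - ((d (0, 2) : ZMod 3) - d (1, 2)) * h3
  have e3 : (d (1, 0) : ZMod 3) = d (0, 0) := by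
    linear_combination g3 + e5
  have e4 : (d (1, 1) : ZMod 3) = d (0, 0) := by
    linear_combination g4 + e5
  have e7 : (d (2, 1) : ZMod 3) = d (0, 0) := by
    linear_combination -g7 + e1
  have e6 : (d (2, 0) : ZMod 3) = d (0, 0) := by
    linear_combination 2 * g6 + e7 - ((d (2, 0) : ZMod 3) - d (2, 1)) * h3
  have e8 : (d (2, 2) : ZMod 3) = d (0, 0) := by
    linear_combination -g8 + e1
  have e9 : (d (3, 0) : ZMod 3) = d (0, 0) := by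
    linear_combination -g9 + e1
  have e10 : (d (3, 1) : ZMod 3) = d (0, 0) := by
    linear_combination -g10 + e6
  have e11 : (d (3, 2) : ZMod 3) = d (0, 0) := by
    linear_combination -g11
  apply Units.ext
  obtain ⟨i, r⟩ := p
  have hr : r = 0 ∨ r = 1 ∨ r = 2 := by revert r; decide
  have hi : i = 0 ∨ i = 1 ∨ i = 2 ∨ i = 3 := by revert i; decide
  rcases hi with rfl | rfl | rfl | rfl <;> rcases hr with rfl | rfl | rfl
  · rfl
  · exact e1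
  · exact e2
  · exact e3
  · exact e4
  · exact e5
  · exact e6
  · exact e7
  · exact e8
  · exact e9
  · exact e10
  · exact e11

/-- Every codeword is in the image of a monomial automorphism. -/
theorem Pres.surj {σ : Equiv.Perm ArrayPt} {c : ArrayPt → (ZMod 3)ˣ} (h : Pres σ c)
    (y : ArrayPt → ZMod 3) (hy : y ∈ ternaryGolayCode) :
    ∃ x ∈ ternaryGolayCode, monomialMap σ c x = y := by
  have hinj : Function.Injective (fun x : ternaryGolayCode =>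
      (⟨monomialMap σ c x.1, h x.1 x.2⟩ : ternaryGolayCode)) := by
    intro x x' hxx
    have h1 : monomialMap σ c x.1 = monomialMap σ c x'.1 := congrArg Subtype.val hxx
    apply Subtype.ext
    funext p
    have h2 := congrFun h1 (σ p)
    change (c (σ p) : ZMod 3) * x.1 (σ.symm (σ p)) = (c (σ p) : ZMod 3) * x'.1 (σ.symm (σ p)) at h2
    rw [Equiv.symm_apply_apply] at h2
    exact (Units.mul_right_inj (c (σ p))).1 h2
  obtain ⟨x, hx⟩ := Finite.surjective_of_injective hinj ⟨y, hy⟩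
  exact ⟨x.1, x.2, congrArg Subtype.val hx⟩

/-- The signs of a monomial automorphism are determined by the permutation up to a scalar. -/
theorem signs_unique {σ : Equiv.Perm ArrayPt} {c c' : ArrayPt → (ZMod 3)ˣ} (h : Pres σ c)
    (h' : Pres σ c') (h0 : c (0, 0) = c' (0, 0)) : c = c' := by
  have key : ∀ x ∈ ternaryGolayCode,
      (fun p => (((c' p) * (c p)⁻¹ : (ZMod 3)ˣ) : ZMod 3) * x p) ∈ ternaryGolayCode := by
    intro y hy
    obtain ⟨x, hx, rfl⟩ := h.surj y hy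
    have := h' x hx
    convert this using 1
    funext p
    change (((c' p) * (c p)⁻¹ : (ZMod 3)ˣ) : ZMod 3) * ((c p : ZMod 3) * x (σ.symm p)) =
      (c' p : ZMod 3) * x (σ.symm p)
    rw [← mul_assoc, ← Units.val_mul, mul_assoc, inv_mul_cancel, mul_one]
  funext p
  have h1 := diag (d := fun p => (c' p) * (c p)⁻¹) key p
  simp only [h0, mul_inv_cancel] at h1
  exact (mul_inv_eq_one.1 h1).symm

theorem pres_neg {σ : Equiv.Perm ArrayPt} {c : ArrayPt → (ZMod 3)ˣ} (h : Pres σ c) (u : (ZMod 3)ˣ) :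
    Pres σ (fun p => u * c p) := by
  intro x hx
  have := Submodule.smul_mem ternaryGolayCode (u : ZMod 3) (h x hx)
  convert this using 1
  funext p
  change ((u * c p : (ZMod 3)ˣ) : ZMod 3) * x (σ.symm p) = (u : ZMod 3) * ((c p : ZMod 3) * x (σ.symm p))
  rw [Units.val_mul, mul_assoc]

/-- Monomial automorphisms correspond to pairs of an automorphism of the hexad system and a sign. -/
noncomputable def monoEquiv :
    {f : Equiv.Perm ArrayPt × (ArrayPt → (ZMod 3)ˣ) // Pres f.1 f.2} ≃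
      setSystemAut Hex × (ZMod 3)ˣ :=
  Equiv.ofBijective (fun f => (⟨f.1.1, G_subset ⟨f.1.2, f.2⟩⟩, f.1.2 (0, 0))) (by
    constructor
    · rintro ⟨⟨σ, c⟩, h⟩ ⟨⟨σ', c'⟩, h'⟩ heq
      have h1 : σ = σ' := congrArg (fun z => z.1.1) heq
      have h2 : c (0, 0) = c' (0, 0) := congrArg (fun z => z.2) heq
      subst h1
      have h3 : c = c' := signs_unique h h' h2
      subst h3
      rfl
    · rintro ⟨⟨σ, hσ⟩, u⟩
      have hG : σ ∈ G := by rw [G_eq]; exact hσ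
      obtain ⟨c, hc⟩ := hG
      refine ⟨⟨⟨σ, fun p => (u * (c (0, 0))⁻¹) * c p⟩, pres_neg hc _⟩, ?_⟩
      refine Prod.ext rfl ?_
      change (u * (c (0, 0))⁻¹) * c (0, 0) = u
      rw [mul_assoc, inv_mul_cancel, mul_one])

theorem card_mono :
    Nat.card {f : Equiv.Perm ArrayPt × (ArrayPt → (ZMod 3)ˣ) // Pres f.1 f.2} = 190080 := by
  rw [Nat.card_congr monoEquiv, Nat.card_prod, card_aut, Nat.card_eq_fintype_card,
    ZMod.card_units_eq_totient]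
  decide +kernel

end Cfsg.Agent.TernaryGolay.AutGroup
end

-- part: S1594
section
set_option autoImplicit false
open Cfsg

namespace Cfsg.Agent.S1594

/-- The monomial automorphism group of the length-12 ternary code has order 190080 and its permutation parts are exactly the automorphisms of its hexad system. -/
theorem result : Nat.card {f : Equiv.Perm Cfsg.ArrayPt × (Cfsg.ArrayPt → (ZMod 3)ˣ) // (∀ x ∈ Cfsg.ternaryGolayCode, Cfsg.monomialMap f.1 f.2 x ∈ Cfsg.ternaryGolayCode)} = 190080 ∧ {σ : Equiv.Perm Cfsg.ArrayPt | ∃ c : Cfsg.ArrayPt → (ZMod 3)ˣ, (∀ x ∈ Cfsg.ternaryGolayCode, Cfsg.monomialMap σ c x ∈ Cfsg.ternaryGolayCode)} = (Cfsg.setSystemAut {h : Finset Cfsg.ArrayPt | ∃ x ∈ Cfsg.ternaryGolayCode, Cfsg.ternarySupport x = h ∧ h.card = 6} : Set (Equiv.Perm Cfsg.ArrayPt)) := by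
  exact ⟨Cfsg.Agent.TernaryGolay.AutGroup.card_mono, Cfsg.Agent.TernaryGolay.AutGroup.G_eq⟩

end Cfsg.Agent.S1594
end
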