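import Cfsg.Prelude.Def_Sporadic_a
import Cfsg.Statements.S1595
set_option linter.all false

-- part: SporadicStructure/SteinerCount
section
/-!
Counting lemmas for Steiner systems (`Cfsg.IsSteinerSystem`): double counting step, the
number of blocks through `j` points of an `S(5,6,12)`, and the number of blocks meeting a given
block in a prescribed subset.  (helper909)
-/

set_option autoImplicit false

namespace Cfsg.Agent.SporadicStructure.SteinerCount

open Finset

variable {α : Type*} [Fintype α] [DecidableEq α]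

/-- Double counting step: if every `(j+1)`-subset lies in `m` members of a `k`-uniform family on
`v` points, then `(k - j) * λ(s) = (v - j) * m` for each `j`-subset `s`. -/
theorem count_step {k j m : ℕ} (𝓑 : Finset (Finset α)) (hk : ∀ b ∈ 𝓑, b.card = k)
    (hm : ∀ s : Finset α, s.card = j + 1 → #{c ∈ 𝓑 | s ⊆ c} = m)
    (s : Finset α) (hs : s.card = j) :
    (k - j) * #{c ∈ 𝓑 | s ⊆ c} = (Fintype.card α - j) * m := by
  have h := Finset.sum_card_bipartiteAbove_eq_sum_card_bipartiteBelow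
    (s := sᶜ) (t := {c ∈ 𝓑 | s ⊆ c}) (fun (x : α) (b : Finset α) => x ∈ b)
  have h1 : ∑ x ∈ sᶜ, #({c ∈ 𝓑 | s ⊆ c}.bipartiteAbove (fun (x : α) (b : Finset α) => x ∈ b) x)
      = (Fintype.card α - j) * m := by
    have : ∀ x ∈ sᶜ, #({c ∈ 𝓑 | s ⊆ c}.bipartiteAbove (fun (x : α) (b : Finset α) => x ∈ b) x)
        = m := by
      intro x hx
      rw [← hm (insert x s) (by rw [card_insert_of_notMem (by simpa using hx), hs])]
      congr 1
      ext c
      simp only [Finset.bipartiteAbove, mem_filter, insert_subset_iff]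
      tauto
    rw [sum_congr rfl this, sum_const, smul_eq_mul, card_compl, hs]
  have h2 : ∑ b ∈ {c ∈ 𝓑 | s ⊆ c}, #(sᶜ.bipartiteBelow (fun (x : α) (b : Finset α) => x ∈ b) b)
      = (k - j) * #{c ∈ 𝓑 | s ⊆ c} := by
    have : ∀ b ∈ {c ∈ 𝓑 | s ⊆ c},
        #(sᶜ.bipartiteBelow (fun (x : α) (b : Finset α) => x ∈ b) b) = k - j := by
      intro b hb
      rw [mem_filter] at hb
      have : sᶜ.bipartiteBelow (fun (x : α) (b : Finset α) => x ∈ b) b = b \ s := by
        ext x
        simp only [Finset.bipartiteBelow, mem_filter, mem_compl, mem_sdiff]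
        tauto
      rw [this, card_sdiff_of_subset hb.2, hk b hb.1, hs]
    rw [sum_congr rfl this, sum_const, smul_eq_mul, mul_comm]
  rw [← h1, ← h2, h]

/-- The numbers of blocks through a subset of a `S(5,6,12)`, as a function of its size. -/
theorem card_blocks_ge (hα : Fintype.card α = 12) (𝓑 : Finset (Finset α))
    (hk : ∀ b ∈ 𝓑, b.card = 6)
    (h5 : ∀ s : Finset α, s.card = 5 → #{c ∈ 𝓑 | s ⊆ c} = 1) :
    (∀ s : Finset α, s.card = 4 → #{c ∈ 𝓑 | s ⊆ c} = 4) ∧
    (∀ s : Finset α, s.card = 3 → #{c ∈ 𝓑 | s ⊆ c} = 12) ∧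
    (∀ s : Finset α, s.card = 2 → #{c ∈ 𝓑 | s ⊆ c} = 30) ∧
    (∀ s : Finset α, s.card = 1 → #{c ∈ 𝓑 | s ⊆ c} = 66) ∧
    (∀ s : Finset α, s.card = 0 → #{c ∈ 𝓑 | s ⊆ c} = 132) := by
  have h4 : ∀ s : Finset α, s.card = 4 → #{c ∈ 𝓑 | s ⊆ c} = 4 := fun s hs => by
    have := count_step 𝓑 hk h5 s hs
    omega
  have h3 : ∀ s : Finset α, s.card = 3 → #{c ∈ 𝓑 | s ⊆ c} = 12 := fun s hs => by
    have := count_step 𝓑 hk h4 s hs
    omega
  have h2 : ∀ s : Finset α, s.card = 2 → #{c ∈ 𝓑 | s ⊆ c} = 30 := fun s hs => by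
    have := count_step 𝓑 hk h3 s hs
    omega
  have h1 : ∀ s : Finset α, s.card = 1 → #{c ∈ 𝓑 | s ⊆ c} = 66 := fun s hs => by
    have := count_step 𝓑 hk h2 s hs
    omega
  have h0 : ∀ s : Finset α, s.card = 0 → #{c ∈ 𝓑 | s ⊆ c} = 132 := fun s hs => by
    have := count_step 𝓑 hk h1 s hs
    omega
  exact ⟨h4, h3, h2, h1, h0⟩

omit [Fintype α] in
/-- Decomposition of the blocks containing `s ⊆ b` by their intersection with `b`. -/
theorem card_ge_eq_sum (𝓑 : Finset (Finset α)) (b s : Finset α) (hs : s ⊆ b) :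
    #{c ∈ 𝓑 | s ⊆ c} = ∑ u ∈ (b \ s).powerset, #{c ∈ 𝓑 | b ∩ c = s ∪ u} := by
  rw [card_eq_sum_card_fiberwise (f := fun c => (b ∩ c) \ s) (t := (b \ s).powerset)]
  · refine sum_congr rfl fun u hu => ?_
    rw [mem_powerset] at hu
    congr 1
    ext c
    simp only [mem_filter]
    constructor
    · rintro ⟨⟨h1, h2⟩, h3⟩
      refine ⟨h1, ?_⟩
      rw [← h3]
      ext x
      simp only [mem_inter, mem_union, mem_sdiff]
      constructor
      · rintro ⟨hb, hc⟩
        by_cases hx : x ∈ s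
        · exact Or.inl hx
        · exact Or.inr ⟨⟨hb, hc⟩, hx⟩
      · rintro (hx | hx)
        · exact ⟨hs hx, h2 hx⟩
        · exact hx.1
    · rintro ⟨h1, h3⟩
      refine ⟨⟨h1, ?_⟩, ?_⟩
      · intro x hx
        have : x ∈ b ∩ c := by rw [h3]; exact mem_union_left _ hx
        exact (mem_inter.1 this).2
      · rw [h3]
        ext x
        simp only [mem_union, mem_sdiff]
        constructor
        · rintro ⟨h | h, hn⟩
          · exact absurd h hn
          · exact h
        · intro hx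
          exact ⟨Or.inr hx, (mem_sdiff.1 (hu hx)).2⟩
  · intro c _
    simp only [coe_powerset, Set.mem_preimage, Set.mem_powerset_iff, coe_subset]
    exact sdiff_subset_sdiff inter_subset_left (Subset.refl _)

omit [Fintype α] in
/-- If the number of blocks meeting `b` exactly in `t` is `n t.card` for all `t ⊆ b` with more
elements than `s`, then the number for `s` is determined. -/
theorem card_exact_of (𝓑 : Finset (Finset α)) (b s : Finset α) (hs : s ⊆ b) (n : ℕ → ℕ)
    (hn : ∀ t ⊆ b, s.card < t.card → #{c ∈ 𝓑 | b ∩ c = t} = n t.card) :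
    #{c ∈ 𝓑 | s ⊆ c} = #{c ∈ 𝓑 | b ∩ c = s} +
      ∑ m ∈ range (b.card - s.card),
        (b.card - s.card).choose (m + 1) * n (s.card + (m + 1)) := by
  rw [card_ge_eq_sum 𝓑 b s hs]
  obtain ⟨f, hf⟩ : ∃ f : ℕ → ℕ,
      f = fun m => if m = 0 then #{c ∈ 𝓑 | b ∩ c = s} else n (s.card + m) := ⟨_, rfl⟩
  have hf0 : f 0 = #{c ∈ 𝓑 | b ∩ c = s} := by rw [hf]; rfl
  have hfs : ∀ m, f (m + 1) = n (s.card + (m + 1)) := by
    intro m; rw [hf]; rfl
  have key : ∀ u ∈ (b \ s).powerset, #{c ∈ 𝓑 | b ∩ c = s ∪ u} = f u.card := by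
    intro u hu
    rw [mem_powerset] at hu
    rcases Nat.eq_zero_or_pos u.card with h0 | h0
    · rw [h0, hf0]
      rw [card_eq_zero] at h0
      subst h0
      simp
    · obtain ⟨m, hm⟩ : ∃ m, u.card = m + 1 := ⟨u.card - 1, by omega⟩
      rw [hm, hfs, ← hm]
      have hd : Disjoint s u := by
        rw [disjoint_left]
        intro x hx hx'
        exact (mem_sdiff.1 (hu hx')).2 hx
      have hc : (s ∪ u).card = s.card + u.card := card_union_of_disjoint hd
      rw [← hc]
      apply hn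
      · exact union_subset hs (hu.trans sdiff_subset)
      · omega
  rw [sum_congr rfl key, Finset.sum_powerset_apply_card f, card_sdiff_of_subset hs,
    sum_range_succ', hf0, add_comm]
  simp only [Nat.choose_zero_right, one_mul, smul_eq_mul, hfs]

/-- Intersection numbers of an `S(5,6,12)` relative to a block. -/
theorem card_exact (hα : Fintype.card α = 12) (𝓑 : Finset (Finset α))
    (hk : ∀ b ∈ 𝓑, b.card = 6)
    (h5 : ∀ s : Finset α, s.card = 5 → #{c ∈ 𝓑 | s ⊆ c} = 1) (b : Finset α) (hb : b ∈ 𝓑)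
    (s : Finset α) (hs : s ⊆ b) :
    #{c ∈ 𝓑 | b ∩ c = s} = (fun j => if j = 6 then 1 else if j = 5 then 0 else if j = 4 then 3
      else if j = 3 then 2 else if j = 2 then 3 else if j = 1 then 0 else 1) s.card := by
  obtain ⟨h4, h3, h2, h1, h0⟩ := card_blocks_ge hα 𝓑 hk h5
  have hbc := hk b hb
  set n : ℕ → ℕ := fun j => if j = 6 then 1 else if j = 5 then 0 else if j = 4 then 3
      else if j = 3 then 2 else if j = 2 then 3 else if j = 1 then 0 else 1 with hn
  -- downward induction on the size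
  have e6 : ∀ s ⊆ b, s.card = 6 → #{c ∈ 𝓑 | b ∩ c = s} = 1 := by
    intro s hs hc
    have hsb : s = b := eq_of_subset_of_card_le hs (by omega)
    subst hsb
    rw [card_eq_one]
    refine ⟨s, ?_⟩
    ext c
    simp only [mem_filter, mem_singleton]
    constructor
    · rintro ⟨hcB, h⟩
      exact (eq_of_subset_of_card_le (inter_eq_left.1 h) (by rw [hk c hcB]; omega)).symm
    · rintro rfl
      exact ⟨hb, inter_self _⟩
  have step : ∀ j, j ≤ 5 → ∀ l, (∀ s : Finset α, s.card = j → #{c ∈ 𝓑 | s ⊆ c} = l) →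
      (∀ t ⊆ b, j < t.card → #{c ∈ 𝓑 | b ∩ c = t} = n t.card) →
      l = n j + ∑ m ∈ range (6 - j), (6 - j).choose (m + 1) * n (j + (m + 1)) →
      ∀ t ⊆ b, t.card = j → #{c ∈ 𝓑 | b ∩ c = t} = n j := by
    intro j hj l hl hex hval t ht htc
    have := card_exact_of 𝓑 b t ht n (by intro t' ht' hc; exact hex t' ht' (by omega))
    rw [htc, hbc, hl t htc, hval] at this
    omega
  have a6 : ∀ t ⊆ b, 5 < t.card → #{c ∈ 𝓑 | b ∩ c = t} = n t.card := by
    intro t ht hc
    have : t.card ≤ 6 := hbc ▸ card_le_card ht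
    have h6 : t.card = 6 := by omega
    rw [h6, e6 t ht h6]
    rfl
  have a5 : ∀ t ⊆ b, 4 < t.card → #{c ∈ 𝓑 | b ∩ c = t} = n t.card := by
    intro t ht hc
    rcases Nat.lt_or_ge 5 t.card with h | h
    · exact a6 t ht h
    · have h' : t.card = 5 := by omega
      rw [h']
      exact step 5 (by norm_num) 1 h5 a6 (by decide) t ht h'
  have a4 : ∀ t ⊆ b, 3 < t.card → #{c ∈ 𝓑 | b ∩ c = t} = n t.card := by
    intro t ht hc
    rcases Nat.lt_or_ge 4 t.card with h | h
    · exact a5 t ht h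
    · have h' : t.card = 4 := by omega
      rw [h']
      exact step 4 (by norm_num) 4 h4 a5 (by decide) t ht h'
  have a3 : ∀ t ⊆ b, 2 < t.card → #{c ∈ 𝓑 | b ∩ c = t} = n t.card := by
    intro t ht hc
    rcases Nat.lt_or_ge 3 t.card with h | h
    · exact a4 t ht h
    · have h' : t.card = 3 := by omega
      rw [h']
      exact step 3 (by norm_num) 12 h3 a4 (by decide) t ht h'
  have a2 : ∀ t ⊆ b, 1 < t.card → #{c ∈ 𝓑 | b ∩ c = t} = n t.card := by
    intro t ht hc
    rcases Nat.lt_or_ge 2 t.card with h | h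
    · exact a3 t ht h
    · have h' : t.card = 2 := by omega
      rw [h']
      exact step 2 (by norm_num) 30 h2 a3 (by decide) t ht h'
  have a1 : ∀ t ⊆ b, 0 < t.card → #{c ∈ 𝓑 | b ∩ c = t} = n t.card := by
    intro t ht hc
    rcases Nat.lt_or_ge 1 t.card with h | h
    · exact a2 t ht h
    · have h' : t.card = 1 := by omega
      rw [h']
      exact step 1 (by norm_num) 66 h1 a2 (by decide) t ht h'
  rcases Nat.eq_zero_or_pos s.card with h | h
  · rw [h]
    exact step 0 (by norm_num) 132 h0 a1 (by decide) s hs h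
  · exact a1 s hs h

end Cfsg.Agent.SporadicStructure.SteinerCount
end

-- part: S1595
section
set_option autoImplicit false
open Cfsg

namespace Cfsg.Agent.S1595

/-- Leech triangle of S(5, 6, 12): blocks meet in 0, 2, 3 or 4 points, and a block is met exactly in a given 2-, 3- or 4-subset by 3, 2, 3 blocks respectively. -/
theorem result {α : Type*} [Fintype α] [DecidableEq α] (hα : Fintype.card α = 12) {B : Set (Finset α)} (hB : Cfsg.IsSteinerSystem 5 6 B) (b : Finset α) (hb : b ∈ B) : (∀ c ∈ B, c ≠ b → (b ∩ c).card = 0 ∨ (b ∩ c).card = 2 ∨ (b ∩ c).card = 3 ∨ (b ∩ c).card = 4) ∧ ∀ s ⊆ b, (s.card = 2 → {c : Finset α | c ∈ B ∧ b ∩ c = s}.ncard = 3) ∧ (s.card = 3 → {c : Finset α | c ∈ B ∧ b ∩ c = s}.ncard = 2) ∧ (s.card = 4 → {c : Finset α | c ∈ B ∧ b ∩ c = s}.ncard = 3) := by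
  classical
  set 𝓑 : Finset (Finset α) := Finset.univ.filter (· ∈ B) with h𝓑
  have mem𝓑 : ∀ c, c ∈ 𝓑 ↔ c ∈ B := fun c => by simp [h𝓑]
  have hk : ∀ c ∈ 𝓑, c.card = 6 := fun c hc => hB.1 c ((mem𝓑 c).1 hc)
  have h5 : ∀ s : Finset α, s.card = 5 → (𝓑.filter (fun c => s ⊆ c)).card = 1 := by
    intro s hs
    obtain ⟨c, ⟨hc1, hc2⟩, huniq⟩ := hB.2 s hs
    rw [Finset.card_eq_one]
    refine ⟨c, ?_⟩
    ext d
    simp only [Finset.mem_filter, Finset.mem_singleton, mem𝓑]
    exact ⟨fun h => huniq d h, fun h => h ▸ ⟨hc1, hc2⟩⟩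
  have hex := Cfsg.Agent.SporadicStructure.SteinerCount.card_exact hα 𝓑 hk h5 b ((mem𝓑 b).2 hb)
  have hncard : ∀ s : Finset α, {c : Finset α | c ∈ B ∧ b ∩ c = s}.ncard =
      (𝓑.filter (fun c => b ∩ c = s)).card := by
    intro s
    rw [← Set.ncard_coe_finset]
    congr 1
    ext c
    simp [mem𝓑]
  refine ⟨?_, ?_⟩
  · intro c hc hne
    have h := hex (b ∩ c) Finset.inter_subset_left
    have hpos : 0 < (𝓑.filter (fun d => b ∩ d = b ∩ c)).card :=
      Finset.card_pos.2 ⟨c, by simp [mem𝓑, hc]⟩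
    have hle : (b ∩ c).card ≤ 6 := by
      rw [← hB.1 b hb]; exact Finset.card_le_card Finset.inter_subset_left
    have h6 : (b ∩ c).card ≠ 6 := by
      intro h6
      have e1 : b ∩ c = b := Finset.eq_of_subset_of_card_le Finset.inter_subset_left
        (by rw [hB.1 b hb, h6])
      have e2 : b ∩ c = c := Finset.eq_of_subset_of_card_le Finset.inter_subset_right
        (by rw [hB.1 c hc, h6])
      exact hne (e2.symm.trans e1)
    rw [h] at hpos
    generalize (b ∩ c).card = j at hpos hle h6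
    interval_cases j <;> simp_all
  · intro s hs
    rw [hncard s, hex s hs]
    refine ⟨fun h => ?_, fun h => ?_, fun h => ?_⟩ <;> rw [h] <;> rfl

end Cfsg.Agent.S1595
end
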