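import Cfsg.Statements.S1597
import Cfsg.Agent.SporadicStructure.QuartetGolay
import Cfsg.Agent.S0384
set_option linter.all false

set_option autoImplicit false
open scoped Pointwise
open Cfsg

namespace Cfsg.Agent.S1597

/-- A dodecad has 220 quartets and its stabiliser is transitive on them. -/
theorem result (d : Finset Cfsg.GolayPt) (hd : d ∈ Cfsg.dodecads) : (Cfsg.quartets d).ncard = 220 ∧ ∀ Q ∈ Cfsg.quartets d, ∀ Q' ∈ Cfsg.quartets d, ∃ g : Equiv.Perm Cfsg.GolayPt, g ∈ Cfsg.M24 ∧ g • d = d ∧ g • Q = Q' := by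
  refine ⟨Cfsg.Agent.SporadicStructure.QuartetGolay.ncard_quartets hd,
    Cfsg.Agent.SporadicStructure.QuartetGolay.quartets_transitive_of hd ?_⟩
  intro x y hx hy
  obtain ⟨g, hg, -⟩ := Cfsg.Agent.S0384.result d hd x y hx hy
  exact ⟨((g : Cfsg.M24) : Equiv.Perm Cfsg.GolayPt), (g : Cfsg.M24).2, g.2, hg⟩

end Cfsg.Agent.S1597
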