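import Cfsg.Statements.S1598
import Cfsg.Agent.SporadicStructure.QuartetNormal
set_option linter.all false

set_option autoImplicit false
open scoped Pointwise
open Cfsg

namespace Cfsg.Agent.S1598

/-- A quartet stabiliser inside the dodecad stabiliser has order 432, a normal subgroup of order 9 with quotient GL(2, 3), and is transitive on the dodecad. -/
theorem result (d : Finset Cfsg.GolayPt) (hd : d ∈ Cfsg.dodecads) (Q : Finset (Finset Cfsg.GolayPt)) (hQ : Q ∈ Cfsg.quartets d) : Nat.card ↥(MulAction.stabilizer Cfsg.M24 d ⊓ MulAction.stabilizer Cfsg.M24 Q) = 432 ∧ (∃ (N : Subgroup ↥(MulAction.stabilizer Cfsg.M24 d ⊓ MulAction.stabilizer Cfsg.M24 Q)) (_ : N.Normal), Nat.card N = 9 ∧ Nonempty (↥(MulAction.stabilizer Cfsg.M24 d ⊓ MulAction.stabilizer Cfsg.M24 Q) ⧸ N ≃* GL (Fin 2) (ZMod 3))) ∧ ∀ p ∈ d, ∀ q ∈ d, ∃ g ∈ (MulAction.stabilizer Cfsg.M24 d ⊓ MulAction.stabilizer Cfsg.M24 Q), ((g : ↥Cfsg.M24) : Equiv.Perm Cfsg.GolayPt) p = q :=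 by
  obtain ⟨g, rfl, rfl⟩ := Cfsg.Agent.SporadicStructure.QuartetNormal.exists_smul_eq hd hQ
  exact ⟨Cfsg.Agent.SporadicStructure.QuartetNormal.card_HH hd hQ,
    Cfsg.Agent.SporadicStructure.QuartetNormal.structure_transport
      (Cfsg.Agent.SporadicStructure.QuartetNormal.conjEquiv g _ _)
      Cfsg.Agent.SporadicStructure.QuartetNormal.structure_H0,
    Cfsg.Agent.SporadicStructure.QuartetNormal.transitive_HH hd hQ⟩

end Cfsg.Agent.S1598
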