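import Cfsg.Agent.SporadicStructure.QuartetNormal
import Cfsg.Statements.S1599
set_option linter.all false

-- part: SporadicStructure/QuartetOrbits
section
/-!
The orbits of the base quartet stabiliser on the 220 quartets of the base dodecad.
-/

set_option autoImplicit false

namespace Cfsg.Agent.SporadicStructure.QuartetOrbits

open Cfsg Cfsg.Agent.SporadicA.GolayBase Cfsg.Agent.SporadicA.GolayPerm
open Cfsg.Agent.SporadicStructure.QuartetCode Cfsg.Agent.SporadicStructure.QuartetStab
open Cfsg.Agent.SporadicStructure.QuartetNormal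
open scoped Pointwise

/-- The steps on quartets. -/
def stepQ (i : Bool) (l : List ℕ) : List ℕ := bif i then aimg PB l else aimg PA l

/-- Representative of the orbit number 1. -/
def c1 : List ℕ := [7, 584, 73744, 266496]

/-- The codes of the 12 quartets in the orbit number 1. -/
def O1 : List (List ℕ) := [
  [7, 584, 73744, 266496], [7, 4120, 8960, 327744], [7, 12352, 65800, 262672],
  [25, 8260, 70144, 262402], [74, 8449, 70144, 262164], [268, 8210, 70144, 262209],
  [336, 522, 12292, 327681], [336, 4105, 73730, 262660], [336, 8705, 65548, 266242],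
  [532, 4354, 65601, 270344], [578, 4113, 65796, 270344], [769, 4164, 65554, 270344]]

/-- A walk through the orbit number 1. -/
def W1 : List (Bool × List ℕ) := [
  (false, [336, 8705, 65548, 266242]), (true, [769, 4164, 65554, 270344]),
  (true, [25, 8260, 70144, 262402]), (true, [336, 8705, 65548, 266242]),
  (true, [769, 4164, 65554, 270344]), (false, [578, 4113, 65796, 270344]),
  (true, [268, 8210, 70144, 262209]), (true, [336, 4105, 73730, 262660]),
  (false, [7, 12352, 65800, 262672]), (true, [7, 584, 73744, 266496]),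
  (true, [7, 4120, 8960, 327744]), (false, [336, 522, 12292, 327681]),
  (true, [532, 4354, 65601, 270344]), (true, [74, 8449, 70144, 262164])]

/-- Packed permutation taking the base quartet to the representative number 1. -/
def PM1 : ℕ := 233316853902872543326145845508179969
theorem permM1 : isPerm PM1 = true := by decide +kernel
theorem autM1 : isAut PM1 = true := by decide +kernel
theorem fixM1 : Nat.beq (pimg PM1 340831) 340831 = true := by decide +kernel
theorem mapM1 : eqB (aimg PM1 q0) c1 = true := by decide +kernel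

theorem chk1 : chk stepQ c1 W1 = true := by decide +kernel
theorem sub1 : subB O1 (c1 :: W1.map Prod.snd) = true := by decide +kernel
theorem memc1 : memB c1 O1 = true := by decide +kernel
theorem clA1 : subB (O1.map (aimg PA)) O1 = true := by decide +kernel
theorem clB1 : subB (O1.map (aimg PB)) O1 = true := by decide +kernel

/-- Representative of the orbit number 2. -/
def c2 : List ℕ := [11, 4864, 65616, 270340]

/-- The codes of the 27 quartets in the orbit number 2. -/
def O2 : List (List ℕ) := [
  [11, 4864, 65616, 270340], [13, 784, 69696, 270338], [14, 4416, 66064, 270337],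
  [19, 324, 8712, 331776], [21, 322, 12800, 327688], [22, 321, 66056, 274432],
  [67, 276, 74240, 266248], [69, 274, 69640, 270848], [70, 273, 73736, 266752],
  [81, 262, 77824, 262664], [82, 261, 12296, 328192], [84, 259, 4616, 335872],
  [88, 4612, 65539, 270592], [280, 517, 69634, 270400], [328, 4102, 66049, 270352],
  [515, 8216, 69636, 262464], [518, 8272, 69633, 262408], [592, 8198, 69888, 262153],
  [832, 8204, 69648, 262147], [4099, 8464, 66052, 262216], [4101, 8456, 66050, 262224],
  [4176, 8202, 66304, 262149], [4368, 8195, 66112, 262156], [4609, 8264, 65542, 262416],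
  [4610, 8512, 65541, 262168], [4624, 8197, 65856, 262154], [4672, 8201, 65808, 262150]]

/-- A walk through the orbit number 2. -/
def W2 : List (Bool × List ℕ) := [
  (false, [4610, 8512, 65541, 262168]), (true, [22, 321, 66056, 274432]),
  (false, [67, 276, 74240, 266248]), (true, [4176, 8202, 66304, 262149]),
  (false, [4101, 8456, 66050, 262224]), (true, [81, 262, 77824, 262664]),
  (true, [4368, 8195, 66112, 262156]), (false, [328, 4102, 66049, 270352]),
  (true, [84, 259, 4616, 335872]), (true, [4624, 8197, 65856, 262154]),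
  (false, [88, 4612, 65539, 270592]), (true, [21, 322, 12800, 327688]),
  (true, [14, 4416, 66064, 270337]), (false, [4099, 8464, 66052, 262216]),
  (true, [82, 261, 12296, 328192]), (true, [592, 8198, 69888, 262153]),
  (false, [280, 517, 69634, 270400]), (true, [70, 273, 73736, 266752]),
  (true, [832, 8204, 69648, 262147]), (false, [515, 8216, 69636, 262464]),
  (true, [69, 274, 69640, 270848]), (true, [4672, 8201, 65808, 262150]),
  (false, [4609, 8264, 65542, 262416]), (true, [19, 324, 8712, 331776]),
  (true, [13, 784, 69696, 270338]), (false, [518, 8272, 69633, 262408])]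

/-- Packed permutation taking the base quartet to the representative number 2. -/
def PM2 : ℕ := 444170248474828710716033276811221508
theorem permM2 : isPerm PM2 = true := by decide +kernel
theorem autM2 : isAut PM2 = true := by decide +kernel
theorem fixM2 : Nat.beq (pimg PM2 340831) 340831 = true := by decide +kernel
theorem mapM2 : eqB (aimg PM2 q0) c2 = true := by decide +kernel

theorem chk2 : chk stepQ c2 W2 = true := by decide +kernel
theorem sub2 : subB O2 (c2 :: W2.map Prod.snd) = true := by decide +kernel
theorem memc2 : memB c2 O2 = true := by decide +kernel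
theorem clA2 : subB (O2.map (aimg PA)) O2 = true := by decide +kernel
theorem clB2 : subB (O2.map (aimg PB)) O2 = true := by decide +kernel

/-- Representative of the orbit number 3. -/
def c3 : List ℕ := [11, 580, 77824, 262416]

/-- The codes of the 72 quartets in the orbit number 3. -/
def O3 : List (List ℕ) := [
  [11, 580, 77824, 262416], [11, 4116, 8512, 328192], [13, 4114, 74240, 262464],
  [13, 8272, 65794, 266752], [14, 577, 8464, 331776], [14, 12800, 65793, 262224],
  [19, 4108, 66304, 270400], [19, 4672, 73732, 262408], [21, 4106, 66112, 270592],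
  [21, 8264, 69888, 262658], [22, 4864, 73729, 262216], [22, 8456, 69696, 262657],
  [26, 832, 4101, 335872], [28, 4099, 65856, 270848], [67, 524, 69888, 270352],
  [67, 4624, 8456, 327684], [69, 4864, 8216, 327682], [69, 12290, 66064, 262408],
  [70, 521, 69648, 270592], [70, 12289, 66304, 262168], [73, 518, 4368, 335872],
  [76, 515, 65808, 274432], [81, 4360, 66052, 270338], [81, 4610, 8204, 327936],
  [82, 776, 69636, 270337], [82, 4609, 73984, 262156], [84, 8201, 69634, 262912],
  [84, 12544, 66049, 262154], [88, 770, 8197, 331776], [88, 4353, 74240, 262150],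
  [259, 8264, 66064, 266244], [259, 8708, 69696, 262168], [261, 4672, 65546, 270352],
  [261, 8706, 69648, 262216], [262, 4624, 65545, 270400], [262, 8216, 66112, 266241],
  [265, 4176, 65542, 270848], [266, 592, 65541, 274432], [273, 4168, 66050, 270340],
  [273, 8768, 69636, 262154], [274, 4612, 73792, 262153], [274, 8204, 66049, 266304],
  [276, 4610, 65608, 270337], [276, 8202, 69633, 262720], [280, 4161, 8198, 328192],
  [280, 12800, 65604, 262147], [321, 4612, 8202, 327696], [321, 8720, 69634, 262156],
  [322, 536, 69633, 270340], [322, 8201, 66052, 266256], [324, 4609, 65560, 270338],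
  [324, 12304, 66050, 262153], [328, 530, 77824, 262149], [328, 8195, 65556, 266752],
  [515, 4176, 8452, 327688], [517, 4416, 73736, 262162], [517, 8450, 65616, 266248],
  [518, 12296, 65856, 262161], [529, 8512, 69640, 262150], [592, 4099, 73736, 262404],
  [772, 8195, 69640, 262224], [784, 4102, 8257, 327688], [784, 12296, 65539, 262212],
  [832, 8209, 65542, 266248], [4101, 8258, 65808, 262664], [4102, 8712, 65616, 262401],
  [4162, 8197, 66056, 262416], [4356, 8272, 66056, 262147], [4368, 8712, 65541, 262210],
  [4416, 8212, 65539, 262664], [4616, 8198, 65553, 262464], [4616, 8464, 65602, 262149]]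

/-- A walk through the orbit number 3. -/
def W3 : List (Bool × List ℕ) := [
  (true, [4368, 8712, 65541, 262210]), (true, [22, 8456, 69696, 262657]),
  (false, [276, 8202, 69633, 262720]), (false, [22, 8456, 69696, 262657]),
  (true, [11, 580, 77824, 262416]), (false, [529, 8512, 69640, 262150]),
  (true, [76, 515, 65808, 274432]), (true, [69, 4864, 8216, 327682]),
  (false, [81, 4610, 8204, 327936]), (true, [321, 8720, 69634, 262156]),
  (false, [67, 524, 69888, 270352]), (true, [4616, 8464, 65602, 262149]),
  (false, [14, 12800, 65793, 262224]), (true, [4416, 8212, 65539, 262664]),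
  (true, [21, 4106, 66112, 270592]), (false, [84, 12544, 66049, 262154]),
  (false, [21, 4106, 66112, 270592]), (true, [14, 12800, 65793, 262224]),
  (true, [4416, 8212, 65539, 262664]), (false, [28, 4099, 65856, 270848]),
  (true, [261, 4672, 65546, 270352]), (false, [82, 4609, 73984, 262156]),
  (true, [324, 12304, 66050, 262153]), (false, [19, 4108, 66304, 270400]),
  (true, [13, 8272, 65794, 266752]), (true, [832, 8209, 65542, 266248]),
  (true, [19, 4108, 66304, 270400]), (false, [324, 12304, 66050, 262153]),
  (true, [81, 4360, 66052, 270338]), (false, [69, 12290, 66064, 262408]),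
  (true, [88, 4353, 74240, 262150]), (false, [4162, 8197, 66056, 262416]),
  (true, [4102, 8712, 65616, 262401]), (true, [259, 8708, 69696, 262168]),
  (false, [322, 536, 69633, 270340]), (true, [276, 4610, 65608, 270337]),
  (false, [22, 4864, 73729, 262216]), (true, [11, 4116, 8512, 328192]),
  (true, [266, 592, 65541, 274432]), (false, [517, 8450, 65616, 266248]),
  (true, [70, 12289, 66304, 262168]), (false, [273, 4168, 66050, 270340]),
  (false, [70, 12289, 66304, 262168]), (true, [4356, 8272, 66056, 262147]),
  (false, [13, 4114, 74240, 262464]), (true, [265, 4176, 65542, 270848]),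
  (false, [4101, 8258, 65808, 262664]), (true, [262, 8216, 66112, 266241]),
  (false, [274, 8204, 66049, 266304]), (true, [84, 8201, 69634, 262912]),
  (false, [21, 8264, 69888, 262658]), (true, [14, 577, 8464, 331776]),
  (true, [784, 12296, 65539, 262212]), (false, [518, 12296, 65856, 262161]),
  (false, [784, 12296, 65539, 262212]), (true, [21, 8264, 69888, 262658]),
  (false, [84, 8201, 69634, 262912]), (true, [273, 8768, 69636, 262154]),
  (false, [70, 521, 69648, 270592]), (true, [280, 12800, 65604, 262147]),
  (false, [4616, 8198, 65553, 262464]), (false, [280, 12800, 65604, 262147]),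
  (true, [517, 4416, 73736, 262162]), (false, [592, 4099, 73736, 262404]),
  (true, [261, 8706, 69648, 262216]), (true, [280, 4161, 8198, 328192]),
  (true, [592, 4099, 73736, 262404]), (true, [261, 8706, 69648, 262216]),
  (false, [82, 776, 69636, 270337]), (true, [274, 4612, 73792, 262153]),
  (false, [262, 4624, 65545, 270400]), (true, [328, 8195, 65556, 266752]),
  (true, [26, 832, 4101, 335872]), (false, [515, 4176, 8452, 327688]),
  (false, [26, 832, 4101, 335872]), (true, [262, 4624, 65545, 270400]),
  (false, [274, 4612, 73792, 262153]), (true, [322, 8201, 66052, 266256]),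
  (false, [259, 8264, 66064, 266244]), (true, [88, 770, 8197, 331776]),
  (true, [784, 4102, 8257, 327688]), (false, [73, 518, 4368, 335872]),
  (true, [67, 4624, 8456, 327684]), (false, [321, 4612, 8202, 327696]),
  (false, [67, 4624, 8456, 327684]), (true, [328, 530, 77824, 262149]),
  (false, [772, 8195, 69640, 262224]), (true, [4101, 8258, 65808, 262664]),
  (false, [265, 4176, 65542, 270848]), (true, [19, 4672, 73732, 262408]),
  (false, [324, 4609, 65560, 270338])]

/-- Packed permutation taking the base quartet to the representative number 3. -/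
def PM3 : ℕ := 434464079095705783632075491222565389
theorem permM3 : isPerm PM3 = true := by decide +kernel
theorem autM3 : isAut PM3 = true := by decide +kernel
theorem fixM3 : Nat.beq (pimg PM3 340831) 340831 = true := by decide +kernel
theorem mapM3 : eqB (aimg PM3 q0) c3 = true := by decide +kernel

theorem chk3 : chk stepQ c3 W3 = true := by decide +kernel
theorem sub3 : subB O3 (c3 :: W3.map Prod.snd) = true := by decide +kernel
theorem memc3 : memB c3 O3 = true := by decide +kernel
theorem clA3 : subB (O3.map (aimg PA)) O3 = true := by decide +kernel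
theorem clB3 : subB (O3.map (aimg PB)) O3 = true := by decide +kernel

/-- Representative of the orbit number 4. -/
def c4 : List ℕ := [11, 8720, 65796, 266304]

/-- The codes of the 108 quartets in the orbit number 4. -/
def O4 : List (List ℕ) := [
  [11, 8720, 65796, 266304], [13, 578, 12544, 327696], [14, 4113, 73792, 262912],
  [19, 12544, 65608, 262660], [21, 776, 73730, 266304], [22, 4105, 8768, 327936],
  [25, 772, 65602, 274432], [25, 4102, 73984, 262720], [25, 4416, 8706, 327684],
  [26, 8452, 65601, 266752], [26, 8705, 69888, 262212], [26, 12352, 66052, 262401],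
  [28, 769, 77824, 262210], [28, 4672, 8450, 327681], [28, 8257, 66050, 266496],
  [67, 12292, 65560, 262912], [69, 522, 73984, 266256], [70, 4360, 8720, 327681],
  [73, 8212, 66304, 266242], [73, 8450, 69636, 262672], [73, 12800, 65554, 262404],
  [74, 517, 12304, 327936], [74, 784, 73732, 266241], [74, 4356, 65553, 270848],
  [76, 4354, 8209, 328192], [76, 4624, 73730, 262401], [76, 8960, 69633, 262162],
  [81, 8960, 65546, 266244], [82, 8708, 65545, 266496], [84, 8706, 65800, 266241],
  [88, 12290, 65796, 262657], [259, 12304, 65548, 262720], [261, 536, 73792, 266242],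
  [262, 4168, 8705, 327696], [265, 532, 8258, 331776], [265, 4610, 73744, 262212],
  [265, 12292, 66112, 262162], [266, 4164, 74240, 262161], [266, 4609, 8212, 327744],
  [266, 8257, 69648, 262660], [268, 529, 4162, 335872], [268, 8768, 65539, 266256],
  [268, 12289, 65616, 262658], [273, 524, 12290, 327744], [274, 584, 12289, 327684],
  [276, 521, 12352, 327682], [280, 578, 73729, 266244], [321, 4120, 73732, 262658],
  [322, 4108, 73744, 262657], [324, 4106, 73729, 262672], [328, 4113, 8708, 327682],
  [515, 4360, 73792, 262164], [518, 8449, 65560, 266304], [521, 4354, 73732, 262224],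
  [521, 8210, 65856, 266244], [522, 4353, 65556, 270400], [522, 8209, 69696, 262404],
  [524, 4176, 73729, 262402], [524, 8512, 65554, 266241], [529, 8202, 65604, 266496],
  [529, 12292, 65794, 262216], [530, 4161, 65548, 270592], [530, 4356, 8201, 327744],
  [530, 8260, 65793, 266248], [532, 4168, 73984, 262147], [532, 12289, 65546, 262464],
  [536, 4164, 8195, 327936], [536, 12544, 65542, 262209], [577, 4114, 65800, 270340],
  [577, 4356, 73730, 262168], [577, 12296, 65556, 262402], [578, 8212, 69640, 262401],
  [580, 4120, 65794, 270337], [580, 4353, 8210, 327688], [580, 8456, 65553, 266242],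
  [584, 4116, 65793, 270338], [584, 8452, 69634, 262161], [592, 4108, 8449, 327682],
  [769, 4106, 8272, 327684], [769, 8198, 65608, 266256], [770, 4105, 65604, 270352],
  [770, 4116, 73736, 262209], [770, 12352, 65553, 262156], [772, 4114, 8264, 327681],
  [772, 4161, 73744, 262154], [776, 4099, 8260, 327696], [776, 12304, 65601, 262150],
  [832, 12290, 65545, 262164], [4101, 8720, 65608, 262402], [4105, 8452, 66064, 262210],
  [4106, 8708, 65808, 262209], [4108, 8706, 65601, 262416], [4113, 8450, 66056, 262212],
  [4114, 8449, 65604, 262664], [4116, 8705, 65602, 262408], [4120, 8258, 66049, 262404],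
  [4161, 8712, 65794, 262164], [4162, 8216, 65793, 262660], [4162, 8960, 65556, 262153],
  [4164, 8464, 65545, 262658], [4168, 8210, 65541, 262912], [4353, 8204, 65602, 262672],
  [4354, 8768, 65560, 262149], [4360, 8197, 65554, 262720], [4368, 8260, 65546, 262657],
  [4612, 8209, 65800, 262210], [4616, 8257, 65796, 262162], [4864, 8258, 65548, 262161]]

/-- A walk through the orbit number 4. -/
def W4 : List (Bool × List ℕ) := [
  (true, [4168, 8210, 65541, 262912]), (false, [268, 12289, 65616, 262658]),
  (true, [577, 4356, 73730, 262168]), (false, [577, 4114, 65800, 270340]),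
  (true, [265, 4610, 73744, 262212]), (true, [321, 4120, 73732, 262658]),
  (false, [67, 12292, 65560, 262912]), (true, [4354, 8768, 65560, 262149]),
  (false, [521, 4354, 73732, 262224]), (true, [4114, 8449, 65604, 262664]),
  (true, [265, 12292, 66112, 262162]), (false, [4120, 8258, 66049, 262404]),
  (true, [84, 8706, 65800, 266241]), (true, [772, 4161, 73744, 262154]),
  (false, [530, 4161, 65548, 270592]), (true, [73, 12800, 65554, 262404]),
  (true, [25, 4416, 8706, 327684]), (false, [776, 4099, 8260, 327696]),
  (true, [261, 536, 73792, 266242]), (true, [769, 8198, 65608, 266256]),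
  (false, [280, 578, 73729, 266244]), (true, [770, 4116, 73736, 262209]),
  (true, [266, 8257, 69648, 262660]), (false, [73, 8450, 69636, 262672]),
  (true, [274, 584, 12289, 327684]), (true, [530, 4356, 8201, 327744]),
  (false, [772, 4114, 8264, 327681]), (true, [265, 532, 8258, 331776]),
  (true, [74, 784, 73732, 266241]), (false, [518, 8449, 65560, 266304]),
  (true, [67, 12292, 65560, 262912]), (true, [4354, 8768, 65560, 262149]),
  (false, [521, 4354, 73732, 262224]), (true, [4114, 8449, 65604, 262664]),
  (false, [74, 4356, 65553, 270848]), (true, [28, 4672, 8450, 327681]),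
  (false, [266, 4609, 8212, 327744]), (true, [324, 4106, 73729, 262672]),
  (false, [19, 12544, 65608, 262660]), (true, [13, 578, 12544, 327696]),
  (false, [769, 4106, 8272, 327684]), (true, [530, 8260, 65793, 266248]),
  (false, [25, 772, 65602, 274432]), (true, [4864, 8258, 65548, 262161]),
  (true, [524, 8512, 65554, 266241]), (true, [25, 772, 65602, 274432]),
  (false, [530, 8260, 65793, 266248]), (true, [73, 8212, 66304, 266242]),
  (false, [28, 8257, 66050, 266496]), (true, [81, 8960, 65546, 266244]),
  (false, [69, 522, 73984, 266256]), (true, [776, 12304, 65601, 262150]),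
  (false, [4108, 8706, 65601, 262416]), (true, [4161, 8712, 65794, 262164]),
  (true, [522, 8209, 69696, 262404]), (false, [76, 8960, 69633, 262162]),
  (true, [276, 521, 12352, 327682]), (false, [22, 4105, 8768, 327936]),
  (false, [276, 521, 12352, 327682]), (true, [529, 8202, 65604, 266496]),
  (false, [580, 8456, 65553, 266242]), (true, [28, 769, 77824, 262210]),
  (true, [4368, 8260, 65546, 262657]), (false, [25, 4102, 73984, 262720]),
  (true, [259, 12304, 65548, 262720]), (false, [322, 4108, 73744, 262657]),
  (true, [580, 4120, 65794, 270337]), (true, [4612, 8209, 65800, 262210]),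
  (false, [76, 4624, 73730, 262401]), (true, [328, 4113, 8708, 327682]),
  (true, [268, 529, 4162, 335872]), (false, [580, 4353, 8210, 327688]),
  (true, [4105, 8452, 66064, 262210]), (true, [88, 12290, 65796, 262657]),
  (false, [4360, 8197, 65554, 262720]), (false, [88, 12290, 65796, 262657]),
  (true, [580, 4353, 8210, 327688]), (true, [4105, 8452, 66064, 262210]),
  (false, [26, 12352, 66052, 262401]), (true, [82, 8708, 65545, 266496]),
  (true, [4162, 8960, 65556, 262153]), (false, [522, 4353, 65556, 270400]),
  (true, [26, 8452, 65601, 266752]), (true, [832, 12290, 65545, 262164]),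
  (false, [515, 4360, 73792, 262164]), (true, [69, 522, 73984, 266256]),
  (false, [81, 8960, 65546, 266244]), (true, [770, 12352, 65553, 262156]),
  (false, [770, 4105, 65604, 270352]), (true, [4616, 8257, 65796, 262162]),
  (true, [521, 8210, 65856, 266244]), (false, [268, 8768, 65539, 266256]),
  (true, [21, 776, 73730, 266304]), (true, [14, 4113, 73792, 262912]),
  (false, [4164, 8464, 65545, 262658]), (true, [577, 12296, 65556, 262402]),
  (true, [26, 8705, 69888, 262212]), (false, [584, 8452, 69634, 262161]),
  (true, [273, 524, 12290, 327744]), (false, [70, 4360, 8720, 327681]),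
  (true, [532, 4168, 73984, 262147]), (false, [532, 12289, 65546, 262464]),
  (false, [532, 4168, 73984, 262147]), (true, [74, 517, 12304, 327936]),
  (false, [592, 4108, 8449, 327682]), (true, [529, 12292, 65794, 262216]),
  (true, [76, 4354, 8209, 328192]), (true, [592, 4108, 8449, 327682]),
  (false, [74, 517, 12304, 327936]), (true, [70, 4360, 8720, 327681]),
  (false, [273, 524, 12290, 327744]), (true, [4353, 8204, 65602, 262672]),
  (false, [4162, 8216, 65793, 262660]), (true, [578, 8212, 69640, 262401]),
  (true, [4106, 8708, 65808, 262209]), (false, [536, 12544, 65542, 262209]),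
  (true, [19, 12544, 65608, 262660]), (false, [324, 4106, 73729, 262672]),
  (true, [584, 4116, 65793, 270338]), (false, [4116, 8705, 65602, 262408]),
  (true, [266, 4164, 74240, 262161]), (false, [4113, 8450, 66056, 262212]),
  (false, [266, 4164, 74240, 262161]), (true, [524, 4176, 73729, 262402]),
  (false, [4101, 8720, 65608, 262402]), (true, [262, 4168, 8705, 327696]),
  (true, [536, 4164, 8195, 327936])]

/-- Packed permutation taking the base quartet to the representative number 4. -/
def PM4 : ℕ := 466596444423921274378904389274910978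
theorem permM4 : isPerm PM4 = true := by decide +kernel
theorem autM4 : isAut PM4 = true := by decide +kernel
theorem fixM4 : Nat.beq (pimg PM4 340831) 340831 = true := by decide +kernel
theorem mapM4 : eqB (aimg PM4 q0) c4 = true := by decide +kernel

theorem chk4 : chk stepQ c4 W4 = true := by decide +kernel
theorem sub4 : subB O4 (c4 :: W4.map Prod.snd) = true := by decide +kernel
theorem memc4 : memB c4 O4 = true := by decide +kernel
theorem clA4 : subB (O4.map (aimg PA)) O4 = true := by decide +kernel
theorem clB4 : subB (O4.map (aimg PB)) O4 = true := by decide +kernel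

/-! ### General facts -/

theorem inv_eq_pow (h : M24) : ∃ n : ℕ, h⁻¹ = h ^ n := by
  refine ⟨orderOf h - 1, ?_⟩
  apply inv_eq_of_mul_eq_one_right
  rw [← pow_succ', Nat.sub_add_cancel (orderOf_pos h), pow_orderOf_eq_one]

/-- A family of codes closed under the two generators is closed under the stabiliser. -/
theorem closed_of {O : List (List ℕ)} (hA : subB (O.map (aimg PA)) O = true)
    (hB : subB (O.map (aimg PB)) O = true) {h : M24} (hh : h ∈ H0) :
    ∀ y ∈ O, ∃ z ∈ O, h • fam y = fam z := by
  rw [H0_eq_closure] at hh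
  induction hh using Subgroup.closure_induction with
  | mem g hg =>
    intro y hy
    rcases hg with rfl | hg
    · exact ⟨aimg PA y, mem_of_subB hA (List.mem_map_of_mem hy), mElt_smul_fam _ _ _⟩
    · rw [Set.mem_singleton_iff] at hg
      subst hg
      exact ⟨aimg PB y, mem_of_subB hB (List.mem_map_of_mem hy), mElt_smul_fam _ _ _⟩
  | one => exact fun y hy => ⟨y, hy, one_smul _ _⟩
  | mul g k _ _ ig ik =>
    intro y hy
    obtain ⟨z, hz, e⟩ := ik y hy
    obtain ⟨w, hw, e'⟩ := ig z hz
    exact ⟨w, hw, by rw [mul_smul, e, e']⟩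
  | inv g _ ig =>
    obtain ⟨n, hn⟩ := inv_eq_pow g
    rw [hn]
    clear hn
    induction n with
    | zero => exact fun y hy => ⟨y, hy, by rw [pow_zero, one_smul]⟩
    | succ n ih =>
      intro y hy
      obtain ⟨z, hz, e⟩ := ig y hy
      obtain ⟨w, hw, e'⟩ := ih z hz
      exact ⟨w, hw, by rw [pow_succ, mul_smul, e, e']⟩

theorem reached_of {c : List ℕ} {W : List (Bool × List ℕ)} (hW : chk stepQ c W = true)
    {y : List ℕ} (hy : y ∈ c :: W.map Prod.snd) : ∃ k ∈ H0, k • fam c = fam y := by
  refine chk_induction (f := stepQ) (C := fun y => ∃ k ∈ H0, k • fam c = fam y) ?_ W c hW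
    ⟨1, H0.one_mem, one_smul _ _⟩ y hy
  rintro i x ⟨k, hk, e⟩
  cases i with
  | false => exact ⟨ga * k, H0.mul_mem ga_mem hk, by rw [mul_smul, e]; exact mElt_smul_fam _ _ _⟩
  | true => exact ⟨gb * k, H0.mul_mem gb_mem hk, by rw [mul_smul, e]; exact mElt_smul_fam _ _ _⟩

/-- The orbit of the representative is the coded family. -/
theorem orbit_eq {c : List ℕ} {W : List (Bool × List ℕ)} {O : List (List ℕ)}
    (hW : chk stepQ c W = true) (hs : subB O (c :: W.map Prod.snd) = true)
    (hc : memB c O = true) (hA : subB (O.map (aimg PA)) O = true)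
    (hB : subB (O.map (aimg PB)) O = true) :
    MulAction.orbit H0 (fam c) = fam '' {y | y ∈ O} := by
  ext X
  constructor
  · rintro ⟨h, rfl⟩
    obtain ⟨z, hz, e⟩ := closed_of hA hB h.2 c (mem_of_memB hc)
    exact ⟨z, hz, e.symm⟩
  · rintro ⟨y, hy, rfl⟩
    obtain ⟨k, hk, e⟩ := reached_of hW (mem_of_subB hs hy)
    exact ⟨⟨k, hk⟩, e⟩

theorem mem_quartets_of {P : ℕ} (hP : isPerm P = true) (hA : isAut P = true)
    (h1 : Nat.beq (pimg P 340831) 340831 = true) {c : List ℕ} (h2 : eqB (aimg P q0) c = true) :
    fam c ∈ quartets d0 := by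
  have h := Cfsg.Agent.SporadicStructure.QuartetGolay.smul_mem_quartets
    (permOf_mem_M24 hP hA) Q0_mem
  have e1 : permOf P hP • d0 = d0 := by
    rw [d0, smul_fin hP, Nat.eq_of_beq_eq_true h1]
  have e2 : permOf P hP • Q0 = fam c := by
    rw [Q0, smul_fam hP, eq_of_eqB h2]
  rwa [e1, e2] at h

/-- The stabiliser permutes the quartets. -/
theorem orbit_subset {X : Finset (Finset GolayPt)} (hX : X ∈ quartets d0) :
    MulAction.orbit H0 X ⊆ quartets d0 := by
  rintro _ ⟨h, rfl⟩
  have h1 := Cfsg.Agent.SporadicStructure.QuartetGolay.smul_mem_quartets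
    (g := ((h : M24) : Equiv.Perm GolayPt)) (h : M24).2 hX
  have h2 : ((h : M24) : Equiv.Perm GolayPt) • d0 = d0 := h.2.1
  rw [h2] at h1
  exact h1

/-! ### All quartets -/

/-- The codes of all quartets. -/
def allQ : List (List ℕ) := q0 :: (O1 ++ (O2 ++ (O3 ++ O4)))

/-- Distinctness test. -/
def nodupB : List ℕ → Bool
  | [] => true
  | a :: l => (l.all fun b => !(Nat.beq a b)) && nodupB l

theorem nodup_of_nodupB {l : List ℕ} (h : nodupB l = true) : l.Nodup := by
  induction l with
  | nil => exact List.nodup_nil
  | cons a l ih =>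
    rw [nodupB, Bool.and_eq_true] at h
    rw [List.nodup_cons]
    refine ⟨?_, ih h.2⟩
    intro ha
    have := List.all_eq_true.1 h.1 a ha
    rw [Nat.beq_refl] at this
    exact absurd this (by decide)

theorem allQ_keys : nodupB (allQ.map keyL) = true := by decide +kernel

theorem allQ_good : (allQ.all fun l => nodupB l && l.all fun m => Nat.blt m 16777216) = true := by
  decide +kernel

theorem allQ_length : allQ.length = 220 := by decide +kernel

theorem keyF_allQ {l : List ℕ} (hl : l ∈ allQ) : keyF (fam l) = keyL l := by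
  have h := List.all_eq_true.1 allQ_good l hl
  rw [Bool.and_eq_true] at h
  refine keyF_fam (nodup_of_nodupB h.1) ?_
  intro m hm
  have := List.all_eq_true.1 h.2 m hm
  exact Nat.blt_eq.mp this

theorem fam_injOn : Set.InjOn fam {y | y ∈ allQ} := by
  intro l hl l' hl' e
  have h := congrArg keyF e
  rw [keyF_allQ hl, keyF_allQ hl'] at h
  exact List.inj_on_of_nodup_map (nodup_of_nodupB allQ_keys) hl hl' h

theorem allQ_nodup : allQ.Nodup := (nodup_of_nodupB allQ_keys).of_map _

theorem ncard_fam_image {O : List (List ℕ)} (hO : O.Nodup) (hsub : ∀ y ∈ O, y ∈ allQ) :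
    (fam '' {y | y ∈ O}).ncard = O.length := by
  classical
  have hs : {y | y ∈ O} ⊆ {y | y ∈ allQ} := hsub
  rw [Set.InjOn.ncard_image (fam_injOn.mono hs)]
  have : {y | y ∈ O} = (O.toFinset : Set (List ℕ)) := by
    ext y; simp
  rw [this, Set.ncard_coe_finset, List.toFinset_card_of_nodup hO]

theorem nodup1 : O1.Nodup := (List.nodup_append.1 (List.nodup_cons.1 allQ_nodup).2).1
theorem nodup234 : (O2 ++ (O3 ++ O4)).Nodup :=
  (List.nodup_append.1 (List.nodup_cons.1 allQ_nodup).2).2.1
theorem nodup2 : O2.Nodup := (List.nodup_append.1 nodup234).1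
theorem nodup34 : (O3 ++ O4).Nodup := (List.nodup_append.1 nodup234).2.1
theorem nodup3 : O3.Nodup := (List.nodup_append.1 nodup34).1
theorem nodup4 : O4.Nodup := (List.nodup_append.1 nodup34).2.1

theorem mem_allQ {y : List ℕ} : y ∈ allQ ↔ y = q0 ∨ y ∈ O1 ∨ y ∈ O2 ∨ y ∈ O3 ∨ y ∈ O4 := by
  simp only [allQ, List.mem_cons, List.mem_append]

theorem orbit1 : MulAction.orbit H0 (fam c1) = fam '' {y | y ∈ O1} :=
  orbit_eq chk1 sub1 memc1 clA1 clB1
theorem orbit2 : MulAction.orbit H0 (fam c2) = fam '' {y | y ∈ O2} :=
  orbit_eq chk2 sub2 memc2 clA2 clB2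
theorem orbit3 : MulAction.orbit H0 (fam c3) = fam '' {y | y ∈ O3} :=
  orbit_eq chk3 sub3 memc3 clA3 clB3
theorem orbit4 : MulAction.orbit H0 (fam c4) = fam '' {y | y ∈ O4} :=
  orbit_eq chk4 sub4 memc4 clA4 clB4

theorem ncard1 : (MulAction.orbit H0 (fam c1)).ncard = 12 := by
  rw [orbit1, ncard_fam_image nodup1 (fun y hy => mem_allQ.2 (Or.inr (Or.inl hy)))]
  decide +kernel
theorem ncard2 : (MulAction.orbit H0 (fam c2)).ncard = 27 := by
  rw [orbit2, ncard_fam_image nodup2 (fun y hy => mem_allQ.2 (Or.inr (Or.inr (Or.inl hy))))]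
  decide +kernel
theorem ncard3 : (MulAction.orbit H0 (fam c3)).ncard = 72 := by
  rw [orbit3, ncard_fam_image nodup3
    (fun y hy => mem_allQ.2 (Or.inr (Or.inr (Or.inr (Or.inl hy)))))]
  decide +kernel
theorem ncard4 : (MulAction.orbit H0 (fam c4)).ncard = 108 := by
  rw [orbit4, ncard_fam_image nodup4
    (fun y hy => mem_allQ.2 (Or.inr (Or.inr (Or.inr (Or.inr hy)))))]
  decide +kernel

theorem mem1 : fam c1 ∈ quartets d0 := mem_quartets_of permM1 autM1 fixM1 mapM1
theorem mem2 : fam c2 ∈ quartets d0 := mem_quartets_of permM2 autM2 fixM2 mapM2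
theorem mem3 : fam c3 ∈ quartets d0 := mem_quartets_of permM3 autM3 fixM3 mapM3
theorem mem4 : fam c4 ∈ quartets d0 := mem_quartets_of permM4 autM4 fixM4 mapM4

theorem union_eq : {Q0} ∪ MulAction.orbit H0 (fam c1) ∪ MulAction.orbit H0 (fam c2) ∪
    MulAction.orbit H0 (fam c3) ∪ MulAction.orbit H0 (fam c4) = fam '' {y | y ∈ allQ} := by
  rw [orbit1, orbit2, orbit3, orbit4]
  have h0 : ({Q0} : Set (Finset (Finset GolayPt))) = fam '' {y | y = q0} := by
    ext X
    simp only [Set.mem_singleton_iff, Set.mem_image, Set.mem_ofPred_eq, exists_eq_left]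
    exact eq_comm
  rw [h0, ← Set.image_union, ← Set.image_union, ← Set.image_union, ← Set.image_union]
  congr 1
  ext y
  simp only [Set.mem_union, Set.mem_ofPred_eq, mem_allQ]
  tauto

theorem quartets_eq : quartets d0 = {Q0} ∪ MulAction.orbit H0 (fam c1) ∪
    MulAction.orbit H0 (fam c2) ∪ MulAction.orbit H0 (fam c3) ∪ MulAction.orbit H0 (fam c4) := by
  symm
  have hsub : {Q0} ∪ MulAction.orbit H0 (fam c1) ∪ MulAction.orbit H0 (fam c2) ∪
      MulAction.orbit H0 (fam c3) ∪ MulAction.orbit H0 (fam c4) ⊆ quartets d0 := by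
    refine Set.union_subset (Set.union_subset (Set.union_subset (Set.union_subset ?_ ?_) ?_) ?_) ?_
    · rw [Set.singleton_subset_iff]; exact Q0_mem
    · exact orbit_subset mem1
    · exact orbit_subset mem2
    · exact orbit_subset mem3
    · exact orbit_subset mem4
  refine Set.eq_of_subset_of_ncard_le hsub ?_ (Set.toFinite _)
  rw [(Cfsg.Agent.S1597.result d0 d0_mem).1, union_eq,
    ncard_fam_image allQ_nodup (fun y hy => hy), allQ_length]

/-! ### Transport -/

theorem orbit_smul (g : M24) (d : Finset GolayPt) (Q X : Finset (Finset GolayPt)) :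
    MulAction.orbit (HH (g • d) (g • Q)) (g • X) = (fun Y => g • Y) '' MulAction.orbit (HH d Q) X := by
  ext Z
  constructor
  · rintro ⟨h, rfl⟩
    have hh : (h : M24) ∈ (HH d Q).map (MulAut.conj g).toMonoidHom := by
      rw [← HH_smul]; exact h.2
    obtain ⟨k, hk, e⟩ := hh
    refine ⟨k • X, ⟨⟨k, hk⟩, rfl⟩, ?_⟩
    show g • k • X = (h : M24) • g • X
    rw [← e]
    show g • k • X = (g * k * g⁻¹) • g • X
    rw [mul_smul, mul_smul, inv_smul_smul]
  · rintro ⟨_, ⟨k, rfl⟩, rfl⟩
    have hh : g * (k : M24) * g⁻¹ ∈ HH (g • d) (g • Q) := by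
      rw [HH_smul]
      exact ⟨k, k.2, rfl⟩
    refine ⟨⟨_, hh⟩, ?_⟩
    show (g * (k : M24) * g⁻¹) • g • X = g • (k : M24) • X
    rw [mul_smul, mul_smul, inv_smul_smul]

theorem quartets_smul (g : M24) (d : Finset GolayPt) :
    quartets (g • d) = (fun Y => g • Y) '' quartets d := by
  ext Z
  constructor
  · intro hZ
    refine ⟨g⁻¹ • Z, ?_, smul_inv_smul _ _⟩
    have h := Cfsg.Agent.SporadicStructure.QuartetGolay.smul_mem_quartets
      (g := ((g⁻¹ : M24) : Equiv.Perm GolayPt)) (g⁻¹ : M24).2 hZ
    have e : ((g⁻¹ : M24) : Equiv.Perm GolayPt) • (g • d) = d := inv_smul_smul g d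
    rw [e] at h
    exact h
  · rintro ⟨Y, hY, rfl⟩
    exact Cfsg.Agent.SporadicStructure.QuartetGolay.smul_mem_quartets
      (g := (g : Equiv.Perm GolayPt)) g.2 hY

theorem ncard_orbit_smul (g : M24) (d : Finset GolayPt) (Q X : Finset (Finset GolayPt)) :
    (MulAction.orbit (HH (g • d) (g • Q)) (g • X)).ncard = (MulAction.orbit (HH d Q) X).ncard := by
  rw [orbit_smul, Set.ncard_image_of_injective _ (MulAction.injective g)]

/-- The main statement. -/
theorem orbits (g : M24) : ∃ X₁ ∈ quartets (g • d0), ∃ X₂ ∈ quartets (g • d0),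
    ∃ X₃ ∈ quartets (g • d0), ∃ X₄ ∈ quartets (g • d0),
    (MulAction.orbit (HH (g • d0) (g • Q0)) X₁).ncard = 12 ∧
    (MulAction.orbit (HH (g • d0) (g • Q0)) X₂).ncard = 27 ∧
    (MulAction.orbit (HH (g • d0) (g • Q0)) X₃).ncard = 72 ∧
    (MulAction.orbit (HH (g • d0) (g • Q0)) X₄).ncard = 108 ∧
    quartets (g • d0) = {g • Q0} ∪ MulAction.orbit (HH (g • d0) (g • Q0)) X₁ ∪
      MulAction.orbit (HH (g • d0) (g • Q0)) X₂ ∪ MulAction.orbit (HH (g • d0) (g • Q0)) X₃ ∪
      MulAction.orbit (HH (g • d0) (g • Q0)) X₄ := by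
  have hm : ∀ {X : Finset (Finset GolayPt)}, X ∈ quartets d0 → g • X ∈ quartets (g • d0) := by
    intro X hX
    rw [quartets_smul]
    exact ⟨X, hX, rfl⟩
  refine ⟨g • fam c1, hm mem1, g • fam c2, hm mem2, g • fam c3, hm mem3, g • fam c4, hm mem4,
    ?_, ?_, ?_, ?_, ?_⟩
  · rw [ncard_orbit_smul]; exact ncard1
  · rw [ncard_orbit_smul]; exact ncard2
  · rw [ncard_orbit_smul]; exact ncard3
  · rw [ncard_orbit_smul]; exact ncard4
  · rw [quartets_smul, orbit_smul, orbit_smul, orbit_smul, orbit_smul, quartets_eq,
      Set.image_union, Set.image_union, Set.image_union, Set.image_union, Set.image_singleton]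

end Cfsg.Agent.SporadicStructure.QuartetOrbits
end

-- part: S1599
section
set_option autoImplicit false
open scoped Pointwise
open Cfsg

namespace Cfsg.Agent.S1599

/-- A quartet stabiliser has five orbits on the quartets of its dodecad, of sizes 1, 12, 27, 72, 108. -/
theorem result (d : Finset Cfsg.GolayPt) (hd : d ∈ Cfsg.dodecads) (Q : Finset (Finset Cfsg.GolayPt)) (hQ : Q ∈ Cfsg.quartets d) : ∃ X₁ ∈ Cfsg.quartets d, ∃ X₂ ∈ Cfsg.quartets d, ∃ X₃ ∈ Cfsg.quartets d, ∃ X₄ ∈ Cfsg.quartets d, (MulAction.orbit ↥(MulAction.stabilizer Cfsg.M24 d ⊓ MulAction.stabilizer Cfsg.M24 Q) X₁).ncard = 12 ∧ (MulAction.orbit ↥(MulAction.stabilizer Cfsg.M24 d ⊓ MulAction.stabilizer Cfsg.M24 Q) X₂).ncard = 27 ∧ (MulAction.orbit ↥(MulAction.stabilizer Cfsg.M24 d ⊓ MulAction.stabilizer Cfsg.M24 Q) X₃).ncard = 72 ∧ (MulAction.orbit ↥(MulAction.stabilizer Cfsg.M24 d ⊓ MulAction.stabilizer Cfsg.M24 Q) X₄).ncard = 108 ∧ Cfsg.quartets d = {Q} ∪ MulAction.orbit ↥(MulAction.stabilizer Cfsg.M24 d ⊓ MulAction.stabilizer Cfsg.M24 Q) X₁ ∪ MulAction.orbit ↥(MulAction.stabilizer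 Cfsg.M24 d ⊓ MulAction.stabilizer Cfsg.M24 Q) X₂ ∪ MulAction.orbit ↥(MulAction.stabilizer Cfsg.M24 d ⊓ MulAction.stabilizer Cfsg.M24 Q) X₃ ∪ MulAction.orbit ↥(MulAction.stabilizer Cfsg.M24 d ⊓ MulAction.stabilizer Cfsg.M24 Q) X₄ := by
  obtain ⟨g, rfl, rfl⟩ := Cfsg.Agent.SporadicStructure.QuartetNormal.exists_smul_eq hd hQ
  exact Cfsg.Agent.SporadicStructure.QuartetOrbits.orbits g

end Cfsg.Agent.S1599
end
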