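import Cfsg.Statements.S1600
import Cfsg.Agent.SporadicStructure.DodecadStab
set_option linter.all false

set_option autoImplicit false
open scoped Pointwise
open Cfsg

namespace Cfsg.Agent.S1600

open Cfsg.Agent.SporadicStructure.M12Core Cfsg.Agent.SporadicStructure.DodecadM12
  Cfsg.Agent.SporadicStructure.DodecadStab

/-- two elements of M24 fixing the base dodecad and the positions 23, 0, 1 -/
def compGens : List ℕ := [0xb92322aa6d61e09a2d0f1bab630820, 0xbae05955537208fb444c3a5b430c20]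

theorem compGens_ok : (compGens.all fun t => goodFix [23, 0, 1] t && act t d0 == d0) = true := by
  decide +kernel

theorem comp_reach : reach compGens 12 (1 <<< 4) ||| d0 = 2 ^ 24 - 1 := by decide +kernel

/-- the three base points -/
def b3 : List GolayPt := [ofPos 23, ofPos 0, ofPos 1]

theorem comp_trans (y : GolayPt) (hy : y ∉ D0) : ∃ g ∈ DFix D0 b3, g (ofPos 4) = y := by
  have h1 : y ∈ fin (reach compGens 12 (1 <<< 4) ||| d0) := by
    rw [comp_reach, mem_fin, Nat.testBit_two_pow_sub_one]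
    simpa using pos_lt y
  rw [fin_or, Finset.mem_union] at h1
  rcases h1 with h1 | h1
  · refine reach_sound (l := compGens) ?_ (ofPos 4) 12 (1 <<< 4) ?_ y h1
    · intro t ht
      have h := List.all_eq_true.mp compGens_ok t ht
      rw [Bool.and_eq_true, beq_iff_eq] at h
      have hv : valid t = true := by
        have h' := h.1
        rw [goodFix, Bool.and_eq_true] at h'
        exact valid_of_good h'.1
      refine ⟨hv, (perm_mem_FixL h.1).1, ?_, ?_⟩
      · rw [D0, smul_fin hv, h.2]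
      · have h2 := (perm_mem_FixL h.1).2
        simp only [List.mem_cons, List.not_mem_nil, or_false, forall_eq_or_imp, forall_eq] at h2
        simp only [b3, List.mem_cons, List.not_mem_nil, or_false, forall_eq_or_imp, forall_eq]
        exact h2
    · intro p hp
      rw [mem_fin, Nat.one_shiftLeft, Nat.testBit_two_pow, decide_eq_true_eq] at hp
      exact ⟨1, one_mem _, by rw [hp, ofPos_pos]; rfl⟩
  · exact absurd h1 hy

theorem b3_nodup : b3.Nodup := by
  unfold b3
  decide +kernel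

theorem b3_sub : ∀ p ∈ b3, p ∈ D0 := by
  intro p hp
  rw [D0, mem_fin]
  simp only [b3, List.mem_cons, List.not_mem_nil, or_false] at hp
  rcases hp with rfl | rfl | rfl <;> decide +kernel

theorem mem_stab_iff (d : Finset GolayPt) (p q r : GolayPt) (g : M24) :
    g ∈ (MulAction.stabilizer Cfsg.M24 d ⊓ MulAction.stabilizer Cfsg.M24 p ⊓
      MulAction.stabilizer Cfsg.M24 q ⊓ MulAction.stabilizer Cfsg.M24 r) ↔
      (g : Equiv.Perm GolayPt) ∈ DFix d [p, q, r] := by
  simp only [Subgroup.mem_inf, MulAction.mem_stabilizer_iff, mem_DFix, List.mem_cons,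
    List.not_mem_nil, or_false, forall_eq_or_imp, forall_eq]
  constructor
  · rintro ⟨⟨⟨h1, h2⟩, h3⟩, h4⟩
    exact ⟨g.2, h1, h2, h3, h4⟩
  · rintro ⟨-, h1, h2, h3, h4⟩
    exact ⟨⟨⟨h1, h2⟩, h3⟩, h4⟩

/-- The pointwise stabiliser of three points of a dodecad inside the dodecad stabiliser (order 72) is transitive on the complementary dodecad. -/
theorem result (d : Finset Cfsg.GolayPt) (hd : d ∈ Cfsg.dodecads) (p q r : Cfsg.GolayPt) (hp : p ∈ d) (hq : q ∈ d) (hr : r ∈ d) (hpq : p ≠ q) (hpr : p ≠ r) (hqr : q ≠ r) : Nat.card ↥(MulAction.stabilizer Cfsg.M24 d ⊓ MulAction.stabilizer Cfsg.M24 p ⊓ MulAction.stabilizer Cfsg.M24 q ⊓ MulAction.stabilizer Cfsg.M24 r) = 72 ∧ ∀ x ∉ d, ∀ y ∉ d, ∃ g ∈ (MulAction.stabilizer Cfsg.M24 d ⊓ MulAction.stabilizer Cfsg.M24 p ⊓ MulAction.stabilizer Cfsg.M24 q ⊓ MulAction.stabilizer Cfsg.M24 r), ((g : ↥Cfsg.M24) : Equiv.Perm Cfsg.GolayPt) x = y := by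
  have hnd : [p, q, r].Nodup := by simp [hpq, hpr, hqr]
  have hsub : ∀ x ∈ [p, q, r], x ∈ d := by simp [hp, hq, hr]
  constructor
  · have h1 : Nat.card (DFix d [p, q, r]) = 72 := card_DFix hd [p, q, r] hnd hsub (by simp)
    rw [← h1]
    apply Nat.card_congr
    exact
      { toFun := fun g => ⟨g.1.1, (mem_stab_iff d p q r g.1).mp g.2⟩
        invFun := fun g => ⟨⟨g.1, g.2.1⟩, (mem_stab_iff d p q r ⟨g.1, g.2.1⟩).mpr g.2⟩
        left_inv := fun g => rfl
        right_inv := fun g => rfl }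
  · intro x hx y hy
    obtain ⟨g, hg, hgd, hgl⟩ := exists_map_list D0_mem hd b3 [p, q, r] b3_nodup hnd b3_sub hsub
      (by simp [b3]) (by simp [b3])
    have hout : ∀ z, z ∉ d → g⁻¹ z ∉ D0 := by
      intro z hz hc
      apply hz
      rw [← hgd, ← Finset.inv_smul_mem_iff, Equiv.Perm.smul_def]
      exact hc
    obtain ⟨u, hu, hux⟩ := comp_trans (g⁻¹ x) (hout x hx)
    obtain ⟨v, hv, hvy⟩ := comp_trans (g⁻¹ y) (hout y hy)
    have hk : v * u⁻¹ ∈ DFix D0 b3 := mul_mem hv (inv_mem hu)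
    have hmem : g * (v * u⁻¹) * g⁻¹ ∈ DFix d [p, q, r] := by
      refine ⟨mul_mem (mul_mem hg hk.1) (inv_mem hg), ?_, ?_⟩
      · rw [mul_smul, mul_smul, ← hgd, inv_smul_smul, hk.2.1]
      · intro z hz
        rw [← hgl, List.mem_map] at hz
        obtain ⟨w, hw, rfl⟩ := hz
        have h3 : g⁻¹ (g w) = w := by rw [Equiv.Perm.inv_eq_iff_eq]
        rw [Equiv.Perm.mul_apply, Equiv.Perm.mul_apply, h3, hk.2.2 w hw]
    refine ⟨⟨g * (v * u⁻¹) * g⁻¹, hmem.1⟩, (mem_stab_iff d p q r _).mpr hmem, ?_⟩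
    have h4 : u⁻¹ (g⁻¹ x) = ofPos 4 := by rw [Equiv.Perm.inv_eq_iff_eq, hux]
    change (g * (v * u⁻¹) * g⁻¹) x = y
    rw [Equiv.Perm.mul_apply, Equiv.Perm.mul_apply, Equiv.Perm.mul_apply, h4, hvy]
    exact Equiv.apply_symm_apply g y

end Cfsg.Agent.S1600
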