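import Cfsg.Statements.S1602
import Cfsg.Agent.SporadicA.Dodecad
import Cfsg.Agent.S0384
import Cfsg.Agent.S0389
set_option linter.all false

set_option autoImplicit false
open scoped Pointwise
open Cfsg

namespace Cfsg.Agent.S1602

open Cfsg.Agent.SporadicA.Dodecad

theorem smul_octad (g : M24) {o : Finset GolayPt} (ho : o ∈ octads) : g • o ∈ octads := by
  refine ⟨?_, ?_⟩
  · have h := g.2
    rw [MulAction.mem_stabilizer_iff] at h
    rw [← h]
    exact Set.smul_mem_smul_set ho.1
  · rw [← ho.2]
    exact Finset.card_smul_finset g o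

theorem exists_emb3 (a b c : GolayPt) (hab : a ≠ b) (hac : a ≠ c) (hbc : b ≠ c) :
    ∃ x : Fin 3 ↪ GolayPt, x 0 = a ∧ x 1 = b ∧ x 2 = c := by
  refine ⟨⟨![a, b, c], ?_⟩, rfl, rfl, rfl⟩
  intro i j h
  fin_cases i <;> fin_cases j <;> simp_all

/-- Through a point `p` of a dodecad `d` and a pair of points off `d` there is an octad meeting the
complement of `d` exactly in the pair. -/
theorem exists_octad (d : Finset GolayPt) (hd : d ∈ dodecads) (p q q' : GolayPt) (hp : p ∈ d)
    (hq : q ∉ d) (hq' : q' ∉ d) (hqq' : q ≠ q') :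
    ∃ o ∈ octads, p ∈ o ∧ o \ d = {q, q'} := by
  -- an octad through p and four other points of d
  have hd12 : d.card = 12 := hd.2
  have h11 : 4 ≤ (d.erase p).card := by
    rw [Finset.card_erase_of_mem hp, hd12]; norm_num
  obtain ⟨t, ht, ht4⟩ := Finset.exists_subset_card_eq h11
  have hpt : p ∉ t := fun h => by
    have := ht h
    simp at this
  have hs5 : (insert p t).card = 5 := by rw [Finset.card_insert_of_notMem hpt, ht4]
  obtain ⟨o, ⟨ho, hso⟩, -⟩ := Cfsg.Agent.S0363.result.2 (insert p t) hs5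
  have hpo : p ∈ o := hso (Finset.mem_insert_self _ _)
  have hsd : insert p t ⊆ o ∩ d := by
    intro x hx
    refine Finset.mem_inter.2 ⟨hso hx, ?_⟩
    rcases Finset.mem_insert.1 hx with rfl | hx
    · exact hp
    · exact Finset.mem_of_mem_erase (ht hx)
  have h5 : 5 ≤ (o ∩ d).card := by
    rw [← hs5]; exact Finset.card_le_card hsd
  have h6 : (o ∩ d).card = 6 := by
    rcases octad_inter_dodecad ho hd with h | h | h <;> omega
  have h2 : (o \ d).card = 2 := by
    have h := Finset.card_sdiff_add_card_inter o d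
    rw [ho.2] at h
    omega
  obtain ⟨a, b, hab, hod⟩ := Finset.card_eq_two.1 h2
  have ha : a ∉ d := by
    have : a ∈ o \ d := by rw [hod]; simp
    exact (Finset.mem_sdiff.1 this).2
  have hb : b ∉ d := by
    have : b ∈ o \ d := by rw [hod]; simp
    exact (Finset.mem_sdiff.1 this).2
  -- third points, to use three-transitivity
  have hcompl : dᶜ.card = 12 := (compl_dodecad hd).2
  have hthird : ∀ u v : GolayPt, ∃ w, w ∉ d ∧ u ≠ w ∧ v ≠ w := by
    intro u v
    have h0 : 0 < ((dᶜ.erase u).erase v).card := by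
      have h1 := Finset.pred_card_le_card_erase (s := dᶜ) (a := u)
      have h2 := Finset.pred_card_le_card_erase (s := dᶜ.erase u) (a := v)
      omega
    obtain ⟨w, hw⟩ := Finset.card_pos.1 h0
    simp only [Finset.mem_erase, Finset.mem_compl] at hw
    exact ⟨w, hw.2.2, hw.2.1.symm, hw.1.symm⟩
  obtain ⟨c, hc, hac, hbc⟩ := hthird a b
  obtain ⟨r, hr, hqr, hqr'⟩ := hthird q q'
  obtain ⟨x, hx0, hx1, hx2⟩ := exists_emb3 a b c hab hac hbc
  obtain ⟨y, hy0, hy1, hy2⟩ := exists_emb3 q q' r hqq' hqr hqr'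
  have hxd : ∀ i, x i ∉ d := by
    intro i
    fin_cases i
    · show x 0 ∉ d
      rw [hx0]; exact ha
    · show x 1 ∉ d
      rw [hx1]; exact hb
    · show x 2 ∉ d
      rw [hx2]; exact hc
  have hyd : ∀ i, y i ∉ d := by
    intro i
    fin_cases i
    · show y 0 ∉ d
      rw [hy0]; exact hq
    · show y 1 ∉ d
      rw [hy1]; exact hq'
    · show y 2 ∉ d
      rw [hy2]; exact hr
  obtain ⟨g, hg, hgx⟩ := Cfsg.Agent.S0389.result d hd p hp x y hxd hyd
  have hgd : g • d = d := hg.1
  have hgp : g • p = p := hg.2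
  have hga : g • a = q := by rw [← hx0, ← hy0]; exact hgx 0
  have hgb : g • b = q' := by rw [← hx1, ← hy1]; exact hgx 1
  refine ⟨g • o, smul_octad g ho, ?_, ?_⟩
  · rw [← hgp]
    exact Finset.smul_mem_smul_finset hpo
  · have h1 : (g • o) \ d = g • (o \ d) := by
      conv_lhs => rw [← hgd]
      exact (Finset.smul_finset_sdiff).symm
    rw [h1, hod, Finset.smul_finset_insert, Finset.smul_finset_singleton, hga, hgb]

/-- In the 12-point action of the smallest Mathieu group the setwise stabiliser of a pair is isomorphic to the symmetric group of degree 5. -/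
theorem result (d : Finset Cfsg.GolayPt) (hd : d ∈ Cfsg.dodecads) (p q q' : Cfsg.GolayPt) (hp : p ∈ d) (hq : q ∉ d) (hq' : q' ∉ d) (hqq' : q ≠ q') : Nonempty (↥(MulAction.stabilizer Cfsg.M24 d ⊓ MulAction.stabilizer Cfsg.M24 p ⊓ MulAction.stabilizer Cfsg.M24 ({q, q'} : Finset Cfsg.GolayPt)) ≃* Equiv.Perm (Fin 5)) := by
  obtain ⟨o, ho, hpo, hod⟩ := exists_octad d hd p q q' hp hq hq' hqq'
  -- the five other points of `d` in `o`
  set s : Finset GolayPt := (o ∩ d).erase p with hs
  have hpod : p ∈ o ∩ d := Finset.mem_inter.2 ⟨hpo, hp⟩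
  have h2 : (o \ d).card = 2 := by rw [hod]; exact Finset.card_pair hqq'
  have hs5 : s.card = 5 := by
    have h := Finset.card_sdiff_add_card_inter o d
    rw [ho.2] at h
    rw [hs, Finset.card_erase_of_mem hpod]
    omega
  have hsd : s ⊆ d := fun x hx => (Finset.mem_inter.1 (Finset.mem_of_mem_erase hx)).2
  have hso : s ⊆ o := fun x hx => (Finset.mem_inter.1 (Finset.mem_of_mem_erase hx)).1
  let e : Fin 5 ≃ s := (Finset.equivFinOfCardEq hs5).symm
  let x : Fin 5 ↪ GolayPt := e.toEmbedding.trans (Function.Embedding.subtype _)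
  have hxs : ∀ i, x i ∈ s := fun i => (e i).2
  have hxd : ∀ i, x i ∈ d := fun i => hsd (hxs i)
  have hsx : ∀ a ∈ s, ∃ i, x i = a := fun a ha => ⟨e.symm ⟨a, ha⟩, by
    show ((e (e.symm ⟨a, ha⟩) : s) : GolayPt) = a
    rw [Equiv.apply_symm_apply]⟩
  -- elements of the group preserve `s`
  have key1 : ∀ g : M24, g • d = d → (∀ a ∈ s, g • a ∈ s) → g • p = p ∧ g • ({q, q'} : Finset GolayPt) = {q, q'} := by
    intro g hgd hgs
    have hgs' : s ⊆ g • o := by
      have : g • s = s := by
        apply Finset.eq_of_subset_of_card_le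
        · intro b hb
          obtain ⟨a, ha, rfl⟩ := Finset.mem_smul_finset.1 hb
          exact hgs a ha
        · rw [Finset.card_smul_finset]
      rw [← this]
      exact Finset.smul_finset_subset_smul_finset hso
    have hgo : g • o = o := octad_eq_of_five (smul_octad g ho) ho hs5.ge hgs' hso
    have hgss : g • s = s := by
      apply Finset.eq_of_subset_of_card_le
      · intro b hb
        obtain ⟨a, ha, rfl⟩ := Finset.mem_smul_finset.1 hb
        exact hgs a ha
      · rw [Finset.card_smul_finset]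
    have hgod : g • (o ∩ d) = o ∩ d := by
      rw [Finset.smul_finset_inter, hgo, hgd]
    refine ⟨?_, ?_⟩
    · by_contra hne
      have h1 : g • p ∈ o ∩ d := by
        rw [← hgod]; exact Finset.smul_mem_smul_finset hpod
      have h3 : g • p ∈ s := Finset.mem_erase.2 ⟨hne, h1⟩
      rw [← hgss, Finset.smul_mem_smul_finset_iff] at h3
      exact absurd h3 (by simp [hs])
    · rw [← hod, Finset.smul_finset_sdiff, hgo, hgd]
  have key2 : ∀ g : M24, g • d = d → g • p = p → g • ({q, q'} : Finset GolayPt) = {q, q'} → ∀ a ∈ s, g • a ∈ s := by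
    intro g hgd hgp hgq a ha
    -- `g • o = o`
    have hgod : (g • o) \ d = {q, q'} := by
      conv_lhs => rw [← hgd]
      rw [← Finset.smul_finset_sdiff, hod, hgq]
    have hgpo : p ∈ g • o := by
      have h := Finset.smul_mem_smul_finset (a := g) hpo
      rwa [hgp] at h
    have hgo : g • o = o := by
      have hsym := card_mem_supports (symmDiff_mem_supports (smul_octad g ho).1 ho.1)
      have hsub : symmDiff (g • o) o ⊆ d.erase p := by
        intro b hb
        rw [Finset.mem_symmDiff] at hb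
        rw [Finset.mem_erase]
        refine ⟨?_, ?_⟩
        · rintro rfl
          rcases hb with hb | hb
          · exact hb.2 hpo
          · exact hb.2 hgpo
        · by_contra hbd
          rcases hb with hb | hb
          · have : b ∈ (g • o) \ d := Finset.mem_sdiff.2 ⟨hb.1, hbd⟩
            rw [hgod, ← hod] at this
            exact hb.2 (Finset.mem_sdiff.1 this).1
          · have : b ∈ o \ d := Finset.mem_sdiff.2 ⟨hb.1, hbd⟩
            rw [hod, ← hgod] at this
            exact hb.2 (Finset.mem_sdiff.1 this).1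
      have hsubd : symmDiff (g • o) o ⊆ d := hsub.trans (Finset.erase_subset _ _)
      have hc11 : (symmDiff (g • o) o).card ≤ 11 := by
        have h := Finset.card_le_card hsub
        rw [Finset.card_erase_of_mem hp, hd.2] at h
        exact h
      have hsym2 := card_mem_supports (symmDiff_mem_supports
        (symmDiff_mem_supports (smul_octad g ho).1 ho.1) hd.1)
      have hc : (symmDiff (symmDiff (g • o) o) d).card = 12 - (symmDiff (g • o) o).card := by
        rw [symmDiff_of_le hsubd, Finset.card_sdiff_of_subset hsubd, hd.2]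
      have h0 : (symmDiff (g • o) o).card = 0 := by omega
      exact symmDiff_eq_bot.1 (Finset.card_eq_zero.1 h0)
    have h1 : g • a ∈ g • (o ∩ d) :=
      Finset.smul_mem_smul_finset (Finset.mem_of_mem_erase ha)
    rw [Finset.smul_finset_inter, hgo, hgd] at h1
    refine Finset.mem_erase.2 ⟨?_, h1⟩
    intro h
    rw [← hgp] at h
    exact absurd (smul_left_cancel g h) (Finset.ne_of_mem_erase ha)
  -- the homomorphism
  have hex : ∀ σ : Equiv.Perm (Fin 5), ∃! g : MulAction.stabilizer M24 d,
      ∀ i, ((g : M24) : Equiv.Perm GolayPt) (x i) = x (σ i) := fun σ =>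
    Cfsg.Agent.S0384.result d hd x (σ.toEmbedding.trans x) hxd (fun i => hxd _)
  choose f hf hfu using hex
  have hf' : ∀ σ i, ((f σ : M24) : Equiv.Perm GolayPt) (x i) = x (σ i) := fun σ i => hf σ i
  have hmem : ∀ σ, ((f σ : M24)) ∈ MulAction.stabilizer M24 d ⊓ MulAction.stabilizer M24 p ⊓ MulAction.stabilizer M24 ({q, q'} : Finset GolayPt) := by
    intro σ
    have hfd : (f σ : M24) • d = d := (f σ).2
    obtain ⟨h1, h2⟩ := key1 (f σ : M24) hfd (by
      intro a ha
      obtain ⟨i, rfl⟩ := hsx a ha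
      have : (f σ : M24) • x i = x (σ i) := hf' σ i
      rw [this]
      exact hxs _)
    exact ⟨⟨hfd, h1⟩, h2⟩
  let F : Equiv.Perm (Fin 5) →* ↥(MulAction.stabilizer M24 d ⊓ MulAction.stabilizer M24 p ⊓ MulAction.stabilizer M24 ({q, q'} : Finset GolayPt)) :=
    MonoidHom.mk' (fun σ => ⟨(f σ : M24), hmem σ⟩) (by
      intro σ τ
      apply Subtype.ext
      show ((f (σ * τ) : M24)) = (f σ : M24) * (f τ : M24)
      have h : f σ * f τ = f (σ * τ) := by
        apply hfu (σ * τ)
        intro i
        show ((f σ : M24) : Equiv.Perm GolayPt) (((f τ : M24) : Equiv.Perm GolayPt) (x i)) = _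
        rw [hf' τ i, hf' σ (τ i)]
        rfl
      rw [← h]
      rfl)
  refine ⟨(MulEquiv.ofBijective F ⟨?_, ?_⟩).symm⟩
  · intro σ τ h
    have h1 : (f σ : M24) = (f τ : M24) := by
      have h0 : (F σ).1 = (F τ).1 := by rw [h]
      exact h0
    ext i
    have h2 := hf' σ i
    rw [h1, hf' τ i] at h2
    rw [x.injective h2]
  · rintro ⟨g, ⟨hgd, hgp⟩, hgq⟩
    have hgs := key2 g hgd hgp hgq
    let σ0 : Fin 5 → Fin 5 := fun i => e.symm ⟨g • x i, hgs _ (hxs i)⟩
    have hσ0 : ∀ i, x (σ0 i) = g • x i := by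
      intro i
      show ((e (e.symm ⟨g • x i, hgs _ (hxs i)⟩) : s) : GolayPt) = g • x i
      rw [Equiv.apply_symm_apply]
    have hinj : Function.Injective σ0 := by
      intro i j hij
      have : g • x i = g • x j := by rw [← hσ0, ← hσ0, hij]
      exact x.injective (smul_left_cancel g this)
    let σ : Equiv.Perm (Fin 5) := Equiv.ofBijective σ0 (Finite.injective_iff_bijective.1 hinj)
    refine ⟨σ, ?_⟩
    apply Subtype.ext
    show (f σ : M24) = g
    have h : (⟨g, hgd⟩ : MulAction.stabilizer M24 d) = f σ := by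
      apply hfu σ
      intro i
      show g • x i = x (σ0 i)
      exact (hσ0 i).symm
    rw [← h]

end Cfsg.Agent.S1602
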