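import Cfsg.Statements.S1610
set_option linter.all false

set_option autoImplicit false
open Cfsg

namespace Cfsg.Agent.S1610

/-- addition table of the field with four elements `0, 1, ω, ω+1` coded as `0,1,2,3`. -/
def addK : Fin 4 → Fin 4 → Fin 4 :=
  ![![0, 1, 2, 3], ![1, 0, 3, 2], ![2, 3, 0, 1], ![3, 2, 1, 0]]

/-- multiplication table of the field with four elements. -/
def mulK : Fin 4 → Fin 4 → Fin 4 :=
  ![![0, 0, 0, 0], ![0, 1, 2, 3], ![0, 2, 3, 1], ![0, 3, 1, 2]]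

def g1 : Fin 6 → Fin 4 := ![2, 3, 3, 2, 3, 2]
def g2 : Fin 6 → Fin 4 := ![3, 2, 2, 3, 3, 2]
def g3 : Fin 6 → Fin 4 := ![3, 2, 3, 2, 2, 3]

def wordK (a b c : Fin 4) (i : Fin 6) : Fin 4 :=
  addK (addK (mulK a (g1 i)) (mulK b (g2 i))) (mulK c (g3 i))

def wtK (a b c : Fin 4) : ℕ := (Finset.univ.filter fun i => wordK a b c i ≠ 0).card

theorem wtK_dist : ∀ a b c : Fin 4, (a, b, c) ≠ (0, 0, 0) → wtK a b c = 4 ∨ wtK a b c = 6 := by
  decide +kernel

theorem wtK_zero : wtK 0 0 0 = 0 := by decide +kernel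

theorem wtK_four : (Finset.univ.filter fun p : Fin 4 × Fin 4 × Fin 4 =>
    wtK p.1 p.2.1 p.2.2 = 4).card = 45 := by decide +kernel

theorem wtK_six : (Finset.univ.filter fun p : Fin 4 × Fin 4 × Fin 4 =>
    wtK p.1 p.2.1 p.2.2 = 6).card = 18 := by decide +kernel

theorem wordK_inj : ∀ a b c a' b' c' : Fin 4, (∀ i, wordK a b c i = wordK a' b' c' i) →
    a = a' ∧ b = b' ∧ c = c' := by decide +kernel

section
variable {F : Type*} [Field F]

def toF (ω : F) : Fin 4 → F := ![0, 1, ω, ω + 1]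

variable {ω : F}

theorem two_eq_zero [Fintype F] (hF : Fintype.card F = 4) : (2 : F) = 0 := by
  have h : ((Fintype.card F : ℕ) : F) = 0 := Nat.cast_card_eq_zero F
  rw [hF] at h
  have h4 : (2 : F) * 2 = 0 := by
    have : ((4 : ℕ) : F) = 2 * 2 := by norm_num
    rw [← this]; exact h
  rcases mul_eq_zero.mp h4 with h | h <;> exact h

theorem toF_add (h2 : (2 : F) = 0) (a b : Fin 4) :
    toF ω (addK a b) = toF ω a + toF ω b := by
  fin_cases a <;> fin_cases b <;> simp [toF, addK] <;>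
  first
  | done
  | ring1
  | linear_combination (-1 : F) * h2
  | linear_combination (-ω) * h2
  | linear_combination (-1 - ω) * h2

theorem toF_mul (h2 : (2 : F) = 0) (hω : ω ^ 2 + ω + 1 = 0) (a b : Fin 4) :
    toF ω (mulK a b) = toF ω a * toF ω b := by
  fin_cases a <;> fin_cases b <;> simp [toF, mulK] <;>
  first
  | done
  | ring1
  | linear_combination (1 + ω) * h2 - hω
  | linear_combination (ω + 1) * h2 - hω
  | linear_combination - hω
  | grind

theorem ne_zero_of (hω : ω ^ 2 + ω + 1 = 0) : ω ≠ 0 := by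
  rintro rfl; simp at hω

theorem ne_one_of (h2 : (2 : F) = 0) (hω : ω ^ 2 + ω + 1 = 0) : ω ≠ 1 := by
  rintro rfl
  have h1 : (1 : F) = 0 := by linear_combination hω - h2
  exact one_ne_zero h1

theorem add_one_ne_zero_of (h2 : (2 : F) = 0) (hω : ω ^ 2 + ω + 1 = 0) : ω + 1 ≠ 0 := by
  intro h
  apply ne_one_of h2 hω
  linear_combination h - h2

theorem toF_inj (h2 : (2 : F) = 0) (hω : ω ^ 2 + ω + 1 = 0) :
    Function.Injective (toF ω) := by
  have h0 := ne_zero_of hω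
  have h1 := ne_one_of h2 hω
  have h3 := add_one_ne_zero_of h2 hω
  intro a b hab
  fin_cases a <;> fin_cases b <;> simp [toF] at hab ⊢ <;>
  first
  | exact absurd hab h0
  | exact absurd hab h1
  | exact absurd hab.symm h0
  | exact absurd hab.symm h1
  | exact absurd hab h3
  | exact absurd hab.symm h3

theorem toF_bij [Fintype F] (hF : Fintype.card F = 4) (hω : ω ^ 2 + ω + 1 = 0) :
    Function.Bijective (toF ω) := by
  have h2 := two_eq_zero hF
  exact (Fintype.bijective_iff_injective_and_card _).mpr ⟨toF_inj h2 hω, by simp [hF]⟩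

theorem toF_eq_zero_iff (h2 : (2 : F) = 0) (hω : ω ^ 2 + ω + 1 = 0) (a : Fin 4) :
    toF ω a = 0 ↔ a = 0 := by
  constructor
  · intro h; exact toF_inj h2 hω (by rw [h]; simp [toF])
  · rintro rfl; simp [toF]

def word (ω : F) (p : Fin 4 × Fin 4 × Fin 4) : Fin 6 → F :=
  fun i => toF ω (wordK p.1 p.2.1 p.2.2 i)

theorem sq_eq (h2 : (2 : F) = 0) (hω : ω ^ 2 + ω + 1 = 0) : ω ^ 2 = ω + 1 := by
  linear_combination hω - (ω + 1) * h2

theorem word_eq (h2 : (2 : F) = 0) (hω : ω ^ 2 + ω + 1 = 0) (p : Fin 4 × Fin 4 × Fin 4) :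
    word ω p = toF ω p.1 • ![ω, ω ^ 2, ω ^ 2, ω, ω ^ 2, ω]
      + toF ω p.2.1 • ![ω ^ 2, ω, ω, ω ^ 2, ω ^ 2, ω]
      + toF ω p.2.2 • ![ω ^ 2, ω, ω ^ 2, ω, ω, ω ^ 2] := by
  have e2 : toF ω 2 = ω := by simp [toF]
  have e3 : toF ω 3 = ω ^ 2 := by rw [sq_eq h2 hω]; simp [toF]
  funext i
  simp only [word, wordK, toF_add h2, toF_mul h2 hω]
  fin_cases i <;> simp [g1, g2, g3, e2, e3]

theorem word_range [Fintype F] (hF : Fintype.card F = 4) (hω : ω ^ 2 + ω + 1 = 0) :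
    (Cfsg.hexacode F ω : Set (Fin 6 → F)) = Set.range (word ω) := by
  have h2 := two_eq_zero hF
  have hb := toF_bij hF hω
  ext x
  simp only [Cfsg.hexacode, SetLike.mem_coe, Submodule.mem_span_insert,
    Submodule.mem_span_singleton, Set.mem_range]
  constructor
  · rintro ⟨a, y, ⟨b, z, ⟨c, rfl⟩, rfl⟩, rfl⟩
    obtain ⟨a, rfl⟩ := hb.2 a
    obtain ⟨b, rfl⟩ := hb.2 b
    obtain ⟨c, rfl⟩ := hb.2 c
    refine ⟨(a, b, c), ?_⟩
    rw [word_eq h2 hω]
    simp only [add_assoc]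
  · rintro ⟨p, rfl⟩
    refine ⟨toF ω p.1, _, ⟨toF ω p.2.1, _, ⟨toF ω p.2.2, rfl⟩, rfl⟩, ?_⟩
    rw [word_eq h2 hω]
    simp only [add_assoc]

theorem word_inj (h2 : (2 : F) = 0) (hω : ω ^ 2 + ω + 1 = 0) :
    Function.Injective (word ω) := by
  rintro ⟨a, b, c⟩ ⟨a', b', c'⟩ h
  have := wordK_inj a b c a' b' c' (fun i => toF_inj h2 hω (congrFun h i))
  simp [this]

theorem word_wt [DecidableEq F] (h2 : (2 : F) = 0) (hω : ω ^ 2 + ω + 1 = 0)
    (p : Fin 4 × Fin 4 × Fin 4) :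
    (Finset.univ.filter fun i => word ω p i ≠ 0).card = wtK p.1 p.2.1 p.2.2 := by
  unfold wtK word
  congr 1
  ext i
  simp [toF_eq_zero_iff h2 hω]

theorem ncard_wt [Fintype F] [DecidableEq F] (hF : Fintype.card F = 4) (hω : ω ^ 2 + ω + 1 = 0)
    (n : ℕ) :
    {x : Fin 6 → F | x ∈ Cfsg.hexacode F ω ∧ (Finset.univ.filter fun i => x i ≠ 0).card = n}.ncard
      = (Finset.univ.filter fun p : Fin 4 × Fin 4 × Fin 4 => wtK p.1 p.2.1 p.2.2 = n).card := by
  have h2 := two_eq_zero hF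
  have hr := word_range hF hω
  have : {x : Fin 6 → F | x ∈ Cfsg.hexacode F ω ∧
      (Finset.univ.filter fun i => x i ≠ 0).card = n} =
      word ω '' {p : Fin 4 × Fin 4 × Fin 4 | wtK p.1 p.2.1 p.2.2 = n} := by
    ext x
    simp only [Set.mem_ofPred_eq, Set.mem_image]
    constructor
    · rintro ⟨hx, hn⟩
      have hx' : x ∈ (Cfsg.hexacode F ω : Set (Fin 6 → F)) := hx
      rw [hr] at hx'
      obtain ⟨p, rfl⟩ := hx'
      refine ⟨p, ?_, rfl⟩
      rw [← hn, word_wt h2 hω]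
    · rintro ⟨p, hp, rfl⟩
      refine ⟨?_, ?_⟩
      · have : word ω p ∈ (Cfsg.hexacode F ω : Set (Fin 6 → F)) := by
          rw [hr]; exact ⟨p, rfl⟩
        exact this
      · rw [word_wt h2 hω]; exact hp
  rw [this, Set.ncard_image_of_injective _ (word_inj h2 hω)]
  rw [Set.ncard_eq_toFinset_card']
  congr 1
  ext p
  simp

end

/-- The hexacode has 64 words, minimum weight 4, and weight distribution 0^1 4^45 6^18. -/
theorem result (F : Type*) [Field F] [Fintype F] [DecidableEq F] (hF : Fintype.card F = 4) (ω : F) (hω : ω ^ 2 + ω + 1 = 0) : Nat.card ↥(Cfsg.hexacode F ω) = 64 ∧ (∀ x ∈ Cfsg.hexacode F ω, x ≠ 0 → (Finset.univ.filter fun i => x i ≠ 0).card = 4 ∨ (Finset.univ.filter fun i => x i ≠ 0).card = 6) ∧ {x : Fin 6 → F | x ∈ Cfsg.hexacode F ω ∧ (Finset.univ.filter fun i => x i ≠ 0).card = 4}.ncard = 45 ∧ {x : Fin 6 → F | x ∈ Cfsg.hexacode F ω ∧ (Finset.univ.filter fun i => x i ≠ 0).card = 6}.ncard = 18 := by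
  have h2 := two_eq_zero hF
  have hr := word_range hF hω
  refine ⟨?_, ?_, ?_, ?_⟩
  · have h1 : Nat.card ↥(Cfsg.hexacode F ω) = Nat.card (Set.range (word ω)) := by
      rw [← hr]; rfl
    rw [h1, Nat.card_range_of_injective (word_inj h2 hω)]
    simp
  · intro x hx hx0
    have hx' : x ∈ (Cfsg.hexacode F ω : Set (Fin 6 → F)) := hx
    rw [hr] at hx'
    obtain ⟨⟨a, b, c⟩, rfl⟩ := hx'
    rw [word_wt h2 hω]
    apply wtK_dist
    intro h
    apply hx0
    simp only [Prod.mk.injEq] at h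
    obtain ⟨rfl, rfl, rfl⟩ := h
    rw [word_eq h2 hω]
    simp [toF]
  · rw [ncard_wt hF hω, wtK_four]
  · rw [ncard_wt hF hω, wtK_six]

end Cfsg.Agent.S1610
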