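import Cfsg.Statements.S1611
import Cfsg.Agent.S1610
set_option linter.all false

set_option autoImplicit false
open Cfsg

namespace Cfsg.Agent.S1611

open Cfsg.Agent.S1610

/-- table of multipliers for the 3-cycles, base 4 digits -/
def tab : Fin 6 → Fin 6 → Fin 6 → ℕ :=
  ![![![1365, 1365, 1365, 1365, 1365, 1365], ![1365, 1365, 2901, 3669, 1461, 1509], ![1365, 3669, 1365, 2901, 2925, 2937], ![1365, 2901, 3669, 1365, 3801, 3741], ![1365, 1509, 1725, 1977, 1365, 1461], ![1365, 1461, 3561, 2541, 1509, 1365]],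
    ![![1365, 1365, 3669, 2901, 1509, 1461], ![1365, 1365, 1365, 1365, 1365, 1365], ![2901, 1365, 1365, 3669, 2541, 1977], ![3669, 1365, 2901, 1365, 3561, 1725], ![1461, 1365, 3741, 2937, 1365, 1509], ![1509, 1365, 3801, 2925, 1461, 1365]],
    ![![1365, 2901, 1365, 3669, 1725, 3561], ![3669, 1365, 1365, 2901, 3741, 3801], ![1365, 1365, 1365, 1365, 1365, 1365], ![2901, 3669, 1365, 1365, 2733, 4089], ![2925, 2541, 1365, 4089, 1365, 2733], ![2937, 1977, 1365, 2733, 4089, 1365]],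
    ![![1365, 3669, 2901, 1365, 1977, 2541], ![2901, 1365, 3669, 1365, 2937, 2925], ![3669, 2901, 1365, 1365, 4089, 2733], ![1365, 1365, 1365, 1365, 1365, 1365], ![3801, 3561, 2733, 1365, 1365, 4089], ![3741, 1725, 4089, 1365, 2733, 1365]],
    ![![1365, 1461, 2925, 3801, 1365, 1509], ![1509, 1365, 2541, 3561, 1365, 1461], ![1725, 3741, 1365, 2733, 1365, 4089], ![1977, 2937, 4089, 1365, 1365, 2733], ![1365, 1365, 1365, 1365, 1365, 1365], ![1461, 1509, 2733, 4089, 1365, 1365]],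
    ![![1365, 1509, 2937, 3741, 1461, 1365], ![1461, 1365, 1977, 1725, 1509, 1365], ![3561, 3801, 1365, 4089, 2733, 1365], ![2541, 2925, 2733, 1365, 4089, 1365], ![1509, 1461, 4089, 2733, 1365, 1365], ![1365, 1365, 1365, 1365, 1365, 1365]]]

def dig (n : ℕ) (i : Fin 6) : Fin 4 := ⟨(n / 4 ^ (i : ℕ)) % 4, Nat.mod_lt _ (by norm_num)⟩

/-- conjugates of the generators -/
def cg : Fin 3 → Fin 6 → Fin 4 := ![![3, 2, 2, 3, 2, 3], ![2, 3, 3, 2, 2, 3], ![2, 3, 2, 3, 3, 2]]

def gg : Fin 3 → Fin 6 → Fin 4 := ![g1, g2, g3]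

/-- the parity checks -/
def chk (k : Fin 3) (x : Fin 6 → Fin 4) : Fin 4 :=
  addK (addK (addK (mulK (x 0) (cg k 0)) (mulK (x 1) (cg k 1)))
      (addK (mulK (x 2) (cg k 2)) (mulK (x 3) (cg k 3))))
    (addK (mulK (x 4) (cg k 4)) (mulK (x 5) (cg k 5)))

theorem chk_word : ∀ (k : Fin 3) (a b c : Fin 4), chk k (wordK a b c) = 0 := by
  decide +kernel

theorem chk_complete : ∀ x0 x1 x2 x3 x4 x5 : Fin 4,
    chk 0 ![x0, x1, x2, x3, x4, x5] = 0 → chk 1 ![x0, x1, x2, x3, x4, x5] = 0 →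
    chk 2 ![x0, x1, x2, x3, x4, x5] = 0 →
    ∃ a b c : Fin 4, ∀ i, wordK a b c i = ![x0, x1, x2, x3, x4, x5] i := by
  decide +kernel

theorem chk_complete' (x : Fin 6 → Fin 4) (h : ∀ k, chk k x = 0) :
    ∃ a b c : Fin 4, wordK a b c = x := by
  have e : x = ![x 0, x 1, x 2, x 3, x 4, x 5] := by
    funext i; fin_cases i <;> rfl
  have h0 := h 0
  have h1 := h 1
  have h2 := h 2
  rw [e] at h0 h1 h2
  obtain ⟨a, b, c, hh⟩ := chk_complete _ _ _ _ _ _ h0 h1 h2
  exact ⟨a, b, c, by rw [e]; exact funext hh⟩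

/-- image of a generator under the monomial map with permutation inverse `τ` -/
def im (τ : Fin 6 → Fin 6) (c : Fin 6 → Fin 4) (k : Fin 3) : Fin 6 → Fin 4 :=
  fun i => mulK (c i) (gg k (τ i))

theorem three_ok : ∀ a b c : Fin 6, a ≠ b → b ≠ c → a ≠ c → ∀ k l : Fin 3,
    chk l (im (fun i => Equiv.swap b c (Equiv.swap a b i)) (dig (tab a b c)) k) = 0 := by
  decide +kernel

theorem dig_ne : ∀ a b c : Fin 6, ∀ i, dig (tab a b c) i ≠ 0 := by
  decide +kernel

/-- the nonzero elements -/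
def nz : Fin 3 → Fin 4 := ![1, 2, 3]

theorem diag_ok : ∀ c0 c1 c2 c3 c4 c5 : Fin 3,
    (∀ k l : Fin 3, chk l (im (fun i => i) (fun i => nz (![c0, c1, c2, c3, c4, c5] i)) k) = 0) →
    (c1 = c0 ∧ c2 = c0 ∧ c3 = c0 ∧ c4 = c0 ∧ c5 = c0) := by
  decide +kernel

theorem swap_bad : ∀ c0 c1 c2 c3 c4 c5 : Fin 3,
    ¬ (∀ k l : Fin 3, chk l (im (fun i => Equiv.swap 0 1 i)
      (fun i => nz (![c0, c1, c2, c3, c4, c5] i)) k) = 0) := by
  decide +kernel

section
variable {F : Type*} [Field F] {ω : F}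

/-- model code words give code words, and conversely -/
theorem mem_iff [Fintype F] (hF : Fintype.card F = 4) (hω : ω ^ 2 + ω + 1 = 0)
    (x : Fin 6 → Fin 4) :
    (fun i => toF ω (x i)) ∈ Cfsg.hexacode F ω ↔ ∀ k, chk k x = 0 := by
  have h2 := two_eq_zero hF
  have hr := word_range hF hω
  have hm : (fun i => toF ω (x i)) ∈ Cfsg.hexacode F ω ↔
      (fun i => toF ω (x i)) ∈ Set.range (word ω) := by
    rw [← hr]; rfl
  rw [hm]
  constructor
  · rintro ⟨p, hp⟩ k
    have : x = wordK p.1 p.2.1 p.2.2 := by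
      funext i
      exact (toF_inj h2 hω (congrFun hp i)).symm
    rw [this]
    exact chk_word _ _ _ _
  · intro h
    obtain ⟨a, b, c, hh⟩ := chk_complete' x h
    exact ⟨(a, b, c), by rw [← hh]; rfl⟩

/-- the property of preserving the hexacode -/
def Good (ω : F) (σ : Equiv.Perm (Fin 6)) (c : Fin 6 → Fˣ) : Prop :=
  ∀ x ∈ Cfsg.hexacode F ω, Cfsg.monomialMap σ c x ∈ Cfsg.hexacode F ω

theorem mono_add (σ : Equiv.Perm (Fin 6)) (c : Fin 6 → Fˣ) (x y : Fin 6 → F) :
    Cfsg.monomialMap σ c (x + y) = Cfsg.monomialMap σ c x + Cfsg.monomialMap σ c y := by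
  funext i
  show (c i : F) * (x (σ.symm i) + y (σ.symm i)) = (c i : F) * x (σ.symm i) + (c i : F) * y (σ.symm i)
  ring

theorem mono_smul (σ : Equiv.Perm (Fin 6)) (c : Fin 6 → Fˣ) (a : F) (x : Fin 6 → F) :
    Cfsg.monomialMap σ c (a • x) = a • Cfsg.monomialMap σ c x := by
  funext i
  show (c i : F) * (a * x (σ.symm i)) = a * ((c i : F) * x (σ.symm i))
  ring

theorem mono_comp (σ τ : Equiv.Perm (Fin 6)) (c d : Fin 6 → Fˣ) (x : Fin 6 → F) :
    Cfsg.monomialMap σ c (Cfsg.monomialMap τ d x) =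
      Cfsg.monomialMap (σ * τ) (fun i => c i * d (σ.symm i)) x := by
  funext i
  show (c i : F) * ((d (σ.symm i) : F) * x (τ.symm (σ.symm i))) =
    ((c i * d (σ.symm i) : Fˣ) : F) * x ((σ * τ).symm i)
  rw [Units.val_mul, mul_assoc]
  rfl

/-- the generators of the hexacode in the model -/
theorem hexacode_eq [Fintype F] (hF : Fintype.card F = 4) (hω : ω ^ 2 + ω + 1 = 0) :
    Cfsg.hexacode F ω = Submodule.span F (Set.range fun k : Fin 3 => fun i => toF ω (gg k i)) := by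
  have h2 := two_eq_zero hF
  have e2 : toF ω 2 = ω := by simp [toF]
  have e3 : toF ω 3 = ω ^ 2 := by rw [sq_eq h2 hω]; simp [toF]
  unfold Cfsg.hexacode
  congr 1
  ext v
  simp only [Set.mem_insert_iff, Set.mem_singleton_iff, Set.mem_range]
  have k0 : (fun i => toF ω (gg 0 i)) = ![ω, ω ^ 2, ω ^ 2, ω, ω ^ 2, ω] := by
    funext i; fin_cases i <;> simp [gg, g1, e2, e3]
  have k1 : (fun i => toF ω (gg 1 i)) = ![ω ^ 2, ω, ω, ω ^ 2, ω ^ 2, ω] := by
    funext i; fin_cases i <;> simp [gg, g2, e2, e3]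
  have k2 : (fun i => toF ω (gg 2 i)) = ![ω ^ 2, ω, ω ^ 2, ω, ω, ω ^ 2] := by
    funext i; fin_cases i <;> simp [gg, g3, e2, e3]
  constructor
  · rintro (h | h | h)
    · exact ⟨0, by rw [h]; exact k0⟩
    · exact ⟨1, by rw [h]; exact k1⟩
    · exact ⟨2, by rw [h]; exact k2⟩
  · rintro ⟨k, rfl⟩
    fin_cases k
    · exact Or.inl k0
    · exact Or.inr (Or.inl k1)
    · exact Or.inr (Or.inr k2)

/-- goodness in the model -/
theorem good_iff [Fintype F] (hF : Fintype.card F = 4) (hω : ω ^ 2 + ω + 1 = 0)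
    (σ : Equiv.Perm (Fin 6)) (c : Fin 6 → Fˣ) (d : Fin 6 → Fin 4)
    (hd : ∀ i, toF ω (d i) = (c i : F)) :
    Good ω σ c ↔ ∀ k l : Fin 3, chk l (im (fun i => σ.symm i) d k) = 0 := by
  have h2 := two_eq_zero hF
  have key : ∀ k : Fin 3, Cfsg.monomialMap σ c (fun i => toF ω (gg k i)) =
      fun i => toF ω (im (fun i => σ.symm i) d k i) := by
    intro k
    funext i
    show (c i : F) * toF ω (gg k (σ.symm i)) = toF ω (mulK (d i) (gg k (σ.symm i)))
    rw [toF_mul h2 hω, hd]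
  constructor
  · intro h k
    have h1 : (fun i => toF ω (gg k i)) ∈ Cfsg.hexacode F ω := by
      rw [hexacode_eq hF hω]
      exact Submodule.subset_span ⟨k, rfl⟩
    have h3 := h _ h1
    rw [key] at h3
    exact (mem_iff hF hω _).1 h3
  · intro h x hx
    rw [hexacode_eq hF hω] at hx
    induction hx using Submodule.span_induction with
    | mem y hy =>
      obtain ⟨k, rfl⟩ := hy
      show Cfsg.monomialMap σ c (fun i => toF ω (gg k i)) ∈ _
      rw [key]
      exact (mem_iff hF hω _).2 (h k)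
    | zero =>
      have : Cfsg.monomialMap σ c (0 : Fin 6 → F) = 0 := by
        funext i
        show (c i : F) * 0 = 0
        rw [mul_zero]
      rw [this]
      exact Submodule.zero_mem _
    | add y z _ _ hy hz =>
      rw [mono_add]
      exact Submodule.add_mem _ hy hz
    | smul a y _ hy =>
      rw [mono_smul]
      exact Submodule.smul_mem _ _ hy

theorem exists_model [Fintype F] (hF : Fintype.card F = 4) (hω : ω ^ 2 + ω + 1 = 0)
    (c : Fin 6 → Fˣ) : ∃ e : Fin 6 → Fin 3, ∀ i, toF ω (nz (e i)) = (c i : F) := by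
  have h2 := two_eq_zero hF
  have hb := toF_bij hF hω
  have : ∀ i, ∃ e : Fin 3, toF ω (nz e) = (c i : F) := by
    intro i
    obtain ⟨d, hd⟩ := hb.2 (c i : F)
    have hne : d ≠ 0 := by
      intro h
      have h0 := (toF_eq_zero_iff h2 hω d).2 h
      rw [hd] at h0
      exact (c i).ne_zero h0
    have h3 : ∀ d : Fin 4, d ≠ 0 → ∃ e : Fin 3, nz e = d := by decide
    obtain ⟨e, he⟩ := h3 d hne
    exact ⟨e, by rw [he, hd]⟩
  choose e he using this
  exact ⟨e, he⟩

theorem vec6 {α : Type*} (x : Fin 6 → α) : x = ![x 0, x 1, x 2, x 3, x 4, x 5] := by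
  funext i; fin_cases i <;> rfl

/-- diagonal automorphisms are scalars -/
theorem good_one [Fintype F] (hF : Fintype.card F = 4) (hω : ω ^ 2 + ω + 1 = 0)
    (c : Fin 6 → Fˣ) (h : Good ω 1 c) (i : Fin 6) : c i = c 0 := by
  obtain ⟨e, he⟩ := exists_model hF hω c
  have h1 := (good_iff hF hω 1 c (fun i => nz (e i)) he).1 h
  have h1' : ∀ k l : Fin 3, chk l (im (fun i => i)
      (fun i => nz (![e 0, e 1, e 2, e 3, e 4, e 5] i)) k) = 0 := by
    rw [← vec6 e]
    exact h1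
  obtain ⟨a1, a2, a3, a4, a5⟩ := diag_ok _ _ _ _ _ _ h1'
  have h5 : e i = e 0 := by
    fin_cases i
    · rfl
    · exact a1
    · exact a2
    · exact a3
    · exact a4
    · exact a5
  apply Units.ext
  rw [← he, ← he, h5]

theorem not_good_swap [Fintype F] (hF : Fintype.card F = 4) (hω : ω ^ 2 + ω + 1 = 0)
    (c : Fin 6 → Fˣ) : ¬ Good ω (Equiv.swap 0 1) c := by
  intro h
  obtain ⟨e, he⟩ := exists_model hF hω c
  have h1 := (good_iff hF hω (Equiv.swap 0 1) c (fun i => nz (e i)) he).1 h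
  have h1' : ∀ k l : Fin 3, chk l (im (fun i => Equiv.swap 0 1 i)
      (fun i => nz (![e 0, e 1, e 2, e 3, e 4, e 5] i)) k) = 0 := by
    rw [← vec6 e]
    exact h1
  exact swap_bad _ _ _ _ _ _ h1'

theorem exists_good_three [Fintype F] (hF : Fintype.card F = 4) (hω : ω ^ 2 + ω + 1 = 0)
    (a b c : Fin 6) (hab : a ≠ b) (hbc : b ≠ c) (hac : a ≠ c) :
    ∃ u : Fin 6 → Fˣ, Good ω (Equiv.swap a b * Equiv.swap b c) u := by
  have h2 := two_eq_zero hF
  have hne : ∀ i, toF ω (dig (tab a b c) i) ≠ 0 := by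
    intro i h
    exact dig_ne a b c i ((toF_eq_zero_iff h2 hω _).1 h)
  refine ⟨fun i => Units.mk0 _ (hne i), ?_⟩
  rw [good_iff hF hω _ _ (dig (tab a b c)) (fun i => rfl)]
  exact three_ok a b c hab hbc hac

theorem good_mul {σ τ : Equiv.Perm (Fin 6)} {c d : Fin 6 → Fˣ} (h1 : Good ω σ c)
    (h2 : Good ω τ d) : Good ω (σ * τ) (fun i => c i * d (σ.symm i)) := by
  intro x hx
  rw [← mono_comp]
  exact h1 _ (h2 _ hx)

theorem good_surj [Fintype F] {σ : Equiv.Perm (Fin 6)} {c : Fin 6 → Fˣ} (h : Good ω σ c)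
    (x : Fin 6 → F) (hx : x ∈ Cfsg.hexacode F ω) :
    ∃ y ∈ Cfsg.hexacode F ω, Cfsg.monomialMap σ c y = x := by
  let f : Cfsg.hexacode F ω → Cfsg.hexacode F ω := fun y => ⟨_, h y.1 y.2⟩
  have hinj : Function.Injective f := by
    intro y z hyz
    have h1 : Cfsg.monomialMap σ c y.1 = Cfsg.monomialMap σ c z.1 := congrArg Subtype.val hyz
    apply Subtype.ext
    funext i
    have h3 : (c (σ i) : F) * y.1 (σ.symm (σ i)) = (c (σ i) : F) * z.1 (σ.symm (σ i)) :=
      congrFun h1 (σ i)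
    rw [Equiv.symm_apply_apply] at h3
    exact mul_left_cancel₀ (Units.ne_zero _) h3
  have hsurj : Function.Surjective f := Finite.surjective_of_injective hinj
  obtain ⟨y, hy⟩ := hsurj ⟨x, hx⟩
  exact ⟨y.1, y.2, congrArg Subtype.val hy⟩

theorem good_inv [Fintype F] {σ : Equiv.Perm (Fin 6)} {c : Fin 6 → Fˣ} (h : Good ω σ c) :
    Good ω σ⁻¹ (fun i => (c (σ i))⁻¹) := by
  intro x hx
  obtain ⟨y, hy, rfl⟩ := good_surj h x hx
  have : Cfsg.monomialMap σ⁻¹ (fun i => (c (σ i))⁻¹) (Cfsg.monomialMap σ c y) = y := by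
    funext i
    show ((c (σ i))⁻¹ : Fˣ) * ((c (σ i) : F) * y (σ.symm (σ i))) = y i
    rw [Equiv.symm_apply_apply, ← mul_assoc, Units.inv_mul, one_mul]
  rw [this]
  exact hy

/-- the group of permutation parts -/
def permPart [Fintype F] (ω : F) : Subgroup (Equiv.Perm (Fin 6)) where
  carrier := {σ | ∃ c : Fin 6 → Fˣ, Good ω σ c}
  mul_mem' := by
    rintro σ τ ⟨c, hc⟩ ⟨d, hd⟩
    exact ⟨_, good_mul hc hd⟩
  one_mem' := ⟨1, by
    intro x hx
    have : Cfsg.monomialMap (1 : Equiv.Perm (Fin 6)) (1 : Fin 6 → Fˣ) x = x := by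
      funext i
      show ((1 : Fˣ) : F) * x i = x i
      rw [Units.val_one, one_mul]
    rw [this]
    exact hx⟩
  inv_mem' := by
    rintro σ ⟨c, hc⟩
    exact ⟨_, good_inv hc⟩

theorem permPart_eq [Fintype F] (hF : Fintype.card F = 4) (hω : ω ^ 2 + ω + 1 = 0) :
    permPart ω = alternatingGroup (Fin 6) := by
  have hle : alternatingGroup (Fin 6) ≤ permPart ω := by
    rw [← Equiv.Perm.closure_three_cycles_eq_alternating, Subgroup.closure_le]
    intro σ hσ
    have hσ' : σ.IsThreeCycle := hσ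
    obtain ⟨a, ha⟩ : σ.support.Nonempty := by
      rw [← Finset.card_pos, hσ'.card_support]; norm_num
    have e := (hσ'.eq_swap_mul_swap_iff_mem_support (a := a)).2 ha
    have hnd := (hσ'.nodup_iff_mem_support (a := a)).2 ha
    simp only [List.nodup_cons, List.mem_cons, List.not_mem_nil, or_false, not_or,
      List.nodup_nil, and_true, not_false_eq_true] at hnd
    obtain ⟨⟨n1, n2⟩, n3⟩ := hnd
    obtain ⟨u, hu⟩ := exists_good_three hF hω a (σ a) (σ (σ a)) n1 n3 n2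
    rw [← e] at hu
    exact ⟨u, hu⟩
  refine le_antisymm ?_ hle
  intro σ hσ
  rw [Equiv.Perm.mem_alternatingGroup]
  by_contra hne
  have hs : Equiv.Perm.sign σ = -1 := by
    rcases Int.units_eq_one_or (Equiv.Perm.sign σ) with h | h
    · exact absurd h hne
    · exact h
  have h1 : σ⁻¹ * Equiv.swap 0 1 ∈ alternatingGroup (Fin 6) := by
    rw [Equiv.Perm.mem_alternatingGroup, Equiv.Perm.sign_mul, Equiv.Perm.sign_inv, hs,
      Equiv.Perm.sign_swap (by decide)]
    decide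
  have h2 : Equiv.swap 0 1 ∈ permPart ω := by
    have := (permPart ω).mul_mem hσ (hle h1)
    rwa [mul_inv_cancel_left] at this
  obtain ⟨c, hc⟩ := h2
  exact not_good_swap hF hω c hc

end

/-- The monomial automorphism group of the hexacode has order 1080: its diagonal part is the scalars and its permutation parts form the alternating group of degree 6. -/
theorem result (F : Type*) [Field F] [Fintype F] [DecidableEq F] (hF : Fintype.card F = 4) (ω : F) (hω : ω ^ 2 + ω + 1 = 0) : Nat.card {f : Equiv.Perm (Fin 6) × (Fin 6 → Fˣ) // (∀ x ∈ Cfsg.hexacode F ω, Cfsg.monomialMap f.1 f.2 x ∈ Cfsg.hexacode F ω)} = 1080 ∧ (∀ c : Fin 6 → Fˣ, (∀ x ∈ Cfsg.hexacode F ω, Cfsg.monomialMap 1 c x ∈ Cfsg.hexacode F ω) → ∀ i j, c i = c j) ∧ {σ : Equiv.Perm (Fin 6) | ∃ c : Fin 6 → Fˣ, (∀ x ∈ Cfsg.hexacode F ω, Cfsg.monomialMap σ c x ∈ Cfsg.hexacode F ω)} = (alternatingGroup (Fin 6) : Set (Equiv.Perm (Fin 6))) := by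
  have h3 : {σ : Equiv.Perm (Fin 6) | ∃ c : Fin 6 → Fˣ, Good ω σ c} =
      (alternatingGroup (Fin 6) : Set (Equiv.Perm (Fin 6))) := by
    rw [← permPart_eq hF hω]
    rfl
  refine ⟨?_, ?_, h3⟩
  · -- the order
    have hex : ∀ σ : alternatingGroup (Fin 6), ∃ c : Fin 6 → Fˣ, Good ω σ.1 c := by
      intro σ
      have : σ.1 ∈ (alternatingGroup (Fin 6) : Set (Equiv.Perm (Fin 6))) := σ.2
      rw [← h3] at this
      exact this
    choose cs hcs using hex
    have hscal : ∀ (σ : Equiv.Perm (Fin 6)) (c : Fin 6 → Fˣ) (u : Fˣ), Good ω σ c →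
        Good ω σ (fun i => u * c i) := by
      intro σ c u h x hx
      have : Cfsg.monomialMap σ (fun i => u * c i) x = (u : F) • Cfsg.monomialMap σ c x := by
        funext i
        show ((u * c i : Fˣ) : F) * x (σ.symm i) = (u : F) * ((c i : F) * x (σ.symm i))
        rw [Units.val_mul, mul_assoc]
      rw [this]
      exact Submodule.smul_mem _ _ (h x hx)
    let f : alternatingGroup (Fin 6) × Fˣ →
        {f : Equiv.Perm (Fin 6) × (Fin 6 → Fˣ) // (∀ x ∈ Cfsg.hexacode F ω, Cfsg.monomialMap f.1 f.2 x ∈ Cfsg.hexacode F ω)} :=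
      fun p => ⟨(p.1.1, fun i => p.2 * cs p.1 i), hscal _ _ _ (hcs p.1)⟩
    have hf : Function.Bijective f := by
      constructor
      · rintro ⟨σ, u⟩ ⟨τ, v⟩ h
        have h1 : ((σ.1, fun i => u * cs σ i) : Equiv.Perm (Fin 6) × (Fin 6 → Fˣ)) =
          (τ.1, fun i => v * cs τ i) := congrArg Subtype.val h
        have h2 : σ = τ := Subtype.ext (Prod.ext_iff.1 h1).1
        subst h2
        have h4 := congrFun (Prod.ext_iff.1 h1).2 0
        have h5 : u = v := mul_right_cancel h4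
        rw [h5]
      · rintro ⟨⟨σ, c⟩, hc⟩
        have hc' : Good ω σ c := hc
        have hσ : σ ∈ (alternatingGroup (Fin 6) : Set (Equiv.Perm (Fin 6))) := by
          rw [← h3]; exact ⟨c, hc'⟩
        have hg := good_mul hc' (good_inv (hcs ⟨σ, hσ⟩))
        rw [mul_inv_cancel] at hg
        have hg1 := good_one hF hω _ hg
        refine ⟨(⟨σ, hσ⟩, c 0 * (cs ⟨σ, hσ⟩ 0)⁻¹), ?_⟩
        apply Subtype.ext
        show (σ, fun i => c 0 * (cs ⟨σ, hσ⟩ 0)⁻¹ * cs ⟨σ, hσ⟩ i) = (σ, c)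
        rw [Prod.mk.injEq]
        refine ⟨rfl, ?_⟩
        funext i
        have h6 := hg1 i
        simp only [Equiv.apply_symm_apply] at h6
        rw [← h6, inv_mul_cancel_right]
    rw [← Nat.card_congr (Equiv.ofBijective f hf), Nat.card_prod]
    have hA : Nat.card (alternatingGroup (Fin 6)) = 360 := by
      rw [nat_card_alternatingGroup, Nat.card_eq_fintype_card, Fintype.card_fin]
      rfl
    have hU : Nat.card Fˣ = 3 := by
      rw [Nat.card_units, Nat.card_eq_fintype_card, hF]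
    rw [hA, hU]
  · intro c hc i j
    rw [good_one hF hω c hc i, good_one hF hω c hc j]

end Cfsg.Agent.S1611
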