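import Cfsg.Statements.S1612
import Cfsg.Agent.S1613
import Cfsg.Agent.SporadicStructure.ThreeTransSylow
set_option linter.all false

set_option autoImplicit false
open Cfsg

namespace Cfsg.Agent.S1612

open Cfsg.Agent.SporadicStructure.ThreeTransSylow

/-- In a 3-transposition group (no solvable normal subgroup, perfect derived group), the normaliser of a commuting set of transpositions of maximum size contains a Sylow 2-subgroup and is doubly transitive on the set. -/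
theorem result {G : Type*} [Group G] [Finite G] (hsol : ∀ N : Subgroup G, N.Normal → Group.IsSolvable ↥N → N = ⊥) (hperf : ⁅commutator G, commutator G⁆ = commutator G) {D : Set G} (hD : Cfsg.IsThreeTranspositionClass D) {E : Set G} (hE : E ⊆ D) (hc : ∀ a ∈ E, ∀ b ∈ E, Commute a b) (hmax : ∀ E' : Set G, E' ⊆ D → (∀ a ∈ E', ∀ b ∈ E', Commute a b) → E'.ncard ≤ E.ncard) : (∃ P : Sylow 2 G, (P : Subgroup G) ≤ Subgroup.normalizer E) ∧ ∀ a ∈ E, ∀ b ∈ E, ∀ c ∈ E, ∀ d ∈ E, a ≠ b → c ≠ d → ∃ g ∈ Subgroup.normalizer E, g * a * g⁻¹ = c ∧ g * b * g⁻¹ = d := by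
  have : Fact (Nat.Prime 2) := ⟨Nat.prime_two⟩
  obtain ⟨hset, ⟨d0, hd0, hDd⟩, hgen⟩ := id hD
  have hDc : ∀ g : G, ∀ d ∈ D, g * d * g⁻¹ ∈ D := by
    intro g d hd
    rw [hDd] at hd ⊢
    have hd' : IsConj d0 d := hd
    exact hd'.trans (isConj_iff.2 ⟨g, rfl⟩)
  have hDt : ∀ x ∈ D, ∀ y ∈ D, ∃ g : G, g * x * g⁻¹ = y := by
    intro x hx y hy
    rw [hDd] at hx hy
    have hx' : IsConj d0 x := hx
    have hy' : IsConj d0 y := hy
    exact isConj_iff.1 (hx'.symm.trans hy')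
  -- conjugates of `E`
  have hconj : ∀ (g : G) (C : Subgroup G), (∀ x ∈ E, x ∈ C) → (∀ x ∈ E, g * x * g⁻¹ ∈ C) →
      ∃ h ∈ C, h⁻¹ * g ∈ Subgroup.normalizer E := by
    intro g C hC hC'
    have himg : ∀ x, x ∈ (fun y => g * y * g⁻¹) '' E ↔ g⁻¹ * x * g ∈ E := by
      intro x
      constructor
      · rintro ⟨y, hy, rfl⟩
        rwa [show g⁻¹ * (g * y * g⁻¹) * g = y by group]
      · intro hx
        exact ⟨_, hx, by group⟩
    obtain ⟨h, hh, hx⟩ := exists_conj hset hDc hE (E' := (fun y => g * y * g⁻¹) '' E)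
      (by rintro _ ⟨y, hy, rfl⟩; exact hDc g y (hE hy)) hc
      (by
        rintro _ ⟨y, hy, rfl⟩ _ ⟨z, hz, rfl⟩
        have := hc y hy z hz
        show g * y * g⁻¹ * (g * z * g⁻¹) = g * z * g⁻¹ * (g * y * g⁻¹)
        rw [show g * y * g⁻¹ * (g * z * g⁻¹) = g * (y * z) * g⁻¹ by group,
          show g * z * g⁻¹ * (g * y * g⁻¹) = g * (z * y) * g⁻¹ by group, this.eq])
      hmax (Set.ncard_image_of_injective _ (fun x y hxy => by
        exact mul_left_cancel (mul_right_cancel hxy))) C hC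
      (by rintro _ ⟨y, hy, rfl⟩; exact hC' y hy)
    refine ⟨h, hh, ?_⟩
    rw [Subgroup.mem_set_normalizer_iff]
    intro n
    rw [hx (h⁻¹ * g * n * (h⁻¹ * g)⁻¹), himg]
    have : g⁻¹ * (h * (h⁻¹ * g * n * (h⁻¹ * g)⁻¹) * h⁻¹) * g = n := by group
    rw [this]
  refine ⟨?_, ?_⟩
  · have h1 : IsPGroup 2 (Subgroup.closure E) :=
      isPGroup_closure (fun e he => mul_self_of_orderOf_two (hset.1 e (hE he))) hc
    obtain ⟨S, hS⟩ := h1.exists_le_sylow
    refine ⟨S, ?_⟩
    have h2 := set_eq_of_sylow hset hE hmax S.isPGroup' (fun x hx => hS (Subgroup.subset_closure hx))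
    rw [Subgroup.le_set_normalizer_iff]
    intro s hs x hx
    rw [h2] at hx ⊢
    exact ⟨mul_mem (mul_mem hs hx.1) (inv_mem hs), hDc s x hx.2⟩
  · intro a ha b hb c hcE d hd hab hcd
    obtain ⟨g, hg⟩ := hDt a (hE ha) c (hE hcE)
    obtain ⟨h, hh, hn⟩ := hconj g (Subgroup.centralizer {c})
      (by
        intro x hx
        rw [Subgroup.mem_centralizer_singleton_iff]
        exact (hc x hx c hcE).eq)
      (by
        intro x hx
        rw [Subgroup.mem_centralizer_singleton_iff, ← hg]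
        have := hc x hx a ha
        rw [show g * x * g⁻¹ * (g * a * g⁻¹) = g * (x * a) * g⁻¹ by group,
          show g * a * g⁻¹ * (g * x * g⁻¹) = g * (a * x) * g⁻¹ by group, this.eq])
    set n1 := h⁻¹ * g with hn1
    have hn1a : n1 * a * n1⁻¹ = c := by
      have h1 : h * c = c * h := Subgroup.mem_centralizer_singleton_iff.1 hh
      rw [hn1, show h⁻¹ * g * a * (h⁻¹ * g)⁻¹ = h⁻¹ * (g * a * g⁻¹) * h by group, hg, mul_assoc,
        ← h1, inv_mul_cancel_left]
    have hb1 : n1 * b * n1⁻¹ ∈ E := ((Subgroup.mem_set_normalizer_iff).1 hn b).1 hb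
    have hb1c : n1 * b * n1⁻¹ ≠ c := by
      intro h
      rw [← hn1a] at h
      exact hab (mul_left_cancel (mul_right_cancel h)).symm
    obtain ⟨g2, hg2, hg2b⟩ := Cfsg.Agent.S1613.result hsol hperf hD c (hE hcE)
      (n1 * b * n1⁻¹) ⟨hE hb1, hb1c, hc c hcE _ hb1⟩ d ⟨hE hd, Ne.symm hcd, hc c hcE d hd⟩
    have hg2c : g2 * c * g2⁻¹ = c := by
      have h1 : Subgroup.closure {y : G | y ∈ D ∧ y ≠ c ∧ Commute c y} ≤ Subgroup.centralizer {c} := by
        rw [Subgroup.closure_le]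
        rintro y ⟨_, _, hy⟩
        rw [SetLike.mem_coe, Subgroup.mem_centralizer_singleton_iff]
        exact hy.symm.eq
      have h2 := Subgroup.mem_centralizer_singleton_iff.1 (h1 hg2)
      rw [h2, mul_inv_cancel_right]
    obtain ⟨h2, hh2, hn2⟩ := hconj g2 (Subgroup.centralizer {c, d})
      (by
        intro x hx
        rw [Subgroup.mem_centralizer_iff]
        intro y hy
        rcases hy with rfl | rfl
        · exact (hc _ hcE x hx).eq
        · exact (hc _ hd x hx).eq)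
      (by
        intro x hx
        rw [Subgroup.mem_centralizer_iff]
        intro y hy
        have key : ∀ z ∈ E, g2 * z * g2⁻¹ * (g2 * x * g2⁻¹) = g2 * x * g2⁻¹ * (g2 * z * g2⁻¹) := by
          intro z hz
          rw [show g2 * z * g2⁻¹ * (g2 * x * g2⁻¹) = g2 * (z * x) * g2⁻¹ by group,
            show g2 * x * g2⁻¹ * (g2 * z * g2⁻¹) = g2 * (x * z) * g2⁻¹ by group, (hc z hz x hx).eq]
        rcases hy with rfl | rfl
        · have := key _ hcE
          rwa [hg2c] at this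
        · have := key _ hb1
          rwa [hg2b] at this)
    refine ⟨h2⁻¹ * g2 * n1, mul_mem hn2 hn, ?_, ?_⟩
    · have h3 : c * h2 = h2 * c := (Subgroup.mem_centralizer_iff.1 hh2) c (by simp)
      rw [show h2⁻¹ * g2 * n1 * a * (h2⁻¹ * g2 * n1)⁻¹ = h2⁻¹ * (g2 * (n1 * a * n1⁻¹) * g2⁻¹) * h2 by
        group, hn1a, hg2c, mul_assoc, h3, inv_mul_cancel_left]
    · have h3 : d * h2 = h2 * d := (Subgroup.mem_centralizer_iff.1 hh2) d (by simp)
      rw [show h2⁻¹ * g2 * n1 * b * (h2⁻¹ * g2 * n1)⁻¹ = h2⁻¹ * (g2 * (n1 * b * n1⁻¹) * g2⁻¹) * h2 by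
        group, hg2b, mul_assoc, h3, inv_mul_cancel_left]

end Cfsg.Agent.S1612
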