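import Mathlib
import Cfsg.Prelude.Def_SporadicB
import Cfsg.Agent.S0200
import Cfsg.Agent.S0215
import Cfsg.Statements.S1617
import Cfsg.Agent.S0205
import Cfsg.Agent.FastGrp
import Cfsg.Agent.Prune
set_option linter.all false
prune_inst 0x7ffcfef9afbcbddfffff7e7fffffdffffbfdffffffdffffbffedfbffffff6be7fbe5fbafffecd8fffef7e2be30f87b53fb7eefffef6bdd7ffffd5ff45fffff9fbfefbf8d71f7bc3e1ffe6ffffbfb7fbffffffffffffffffffffffffffffffffffffdffffffff
open scoped Cfsg.Agent.FastGrp

-- part: SporadicStructure/RankThreeBase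
section
/-!
# Classes of involutions with products of order 1, 2, p : basic facts

`D` is a set of involutions closed under conjugation, the product of two noncommuting members has
order dividing `p`, where `p` is a prime at least 5.
-/

set_option autoImplicit false

namespace Cfsg.Agent.SporadicStructure.RankThreeBase

variable {G : Type*} [Group G]

/-- Basic hypotheses on a set of involutions. -/
structure Odd5 (D : Set G) (p : ℕ) : Prop where
  prime : p.Prime
  five : 5 ≤ p
  sq : ∀ x ∈ D, x * x = 1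
  ne_one : ∀ x ∈ D, x ≠ 1
  conj : ∀ x ∈ D, ∀ g : G, g * x * g⁻¹ ∈ D
  pow : ∀ x ∈ D, ∀ y ∈ D, ¬ Commute x y → (x * y) ^ p = 1

theorem eq_one_of_pow {a : G} {m n : ℕ} (h : Nat.Coprime m n) (hm : a ^ m = 1) (hn : a ^ n = 1) :
    a = 1 := by
  have := pow_gcd_eq_one.mpr ⟨hm, hn⟩
  rwa [Nat.Coprime.gcd_eq_one h, pow_one] at this

theorem inv_eq_self {x : G} (h : x * x = 1) : x⁻¹ = x := inv_eq_of_mul_eq_one_left h

/-- involutions commute iff their product squares to one -/
theorem commute_iff {x y : G} (hx : x * x = 1) (hy : y * y = 1) :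
    Commute x y ↔ (x * y) * (x * y) = 1 := by
  constructor
  · intro h
    calc (x * y) * (x * y) = (x * y) * (y * x) := by rw [h.eq]
      _ = x * (y * y) * x := by group
      _ = 1 := by rw [hy, mul_one, hx]
  · intro h
    have h1 : x * y = (x * y)⁻¹ := eq_inv_of_mul_eq_one_left h
    rw [mul_inv_rev, inv_eq_self hx, inv_eq_self hy] at h1
    exact h1

theorem conj_self {x y : G} (hx : x * x = 1) (hy : y * y = 1) : x * (x * y) * x = (x * y)⁻¹ := by
  rw [mul_inv_rev, inv_eq_self hx, inv_eq_self hy, ← mul_assoc, hx, one_mul]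

theorem conj_pow_inv {x c : G} (hx : x * x = 1) (hc : x * c * x = c⁻¹) (k : ℕ) :
    x * c ^ k * x = (c ^ k)⁻¹ := by
  have : x * c ^ k * x⁻¹ = (x * c * x⁻¹) ^ k := by rw [conj_pow]
  rw [inv_eq_self hx] at this
  rw [this, hc, inv_pow]

namespace Odd5

variable {D : Set G} {p : ℕ}

theorem odd (H : Odd5 D p) : Odd p := H.prime.odd_of_ne_two (by have := H.five; omega)

theorem coprime_two_pow (H : Odd5 D p) (k : ℕ) : Nat.Coprime (2 ^ k) p :=
  Nat.Coprime.pow_left k (Nat.coprime_two_left.mpr H.odd)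

theorem coprime_three (H : Odd5 D p) : Nat.Coprime 3 p := by
  rw [Nat.coprime_primes Nat.prime_three H.prime]
  have := H.five; omega

theorem conj' (H : Odd5 D p) {x y : G} (hx : x ∈ D) (hy : y ∈ D) : y * x * y ∈ D := by
  have := H.conj x hx y
  rwa [inv_eq_self (H.sq y hy)] at this

/-- points of a line -/
theorem line_mem (H : Odd5 D p) {x c : G} (hx : x ∈ D) (hc : x * c * x = c⁻¹) (hp : c ^ p = 1)
    (k : ℕ) : x * c ^ k ∈ D := by
  obtain ⟨q, hq⟩ := H.odd
  have h1 : x * c ^ k = (c ^ (k * (q + 1)))⁻¹ * x * ((c ^ (k * (q + 1)))⁻¹)⁻¹ := by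
    have h2 := conj_pow_inv (H.sq x hx) hc (k * (q + 1))
    have h3 : (c ^ (k * (q + 1)))⁻¹ * x = x * c ^ (k * (q + 1)) := by
      rw [← h2, mul_assoc, H.sq x hx, mul_one]
    rw [inv_inv, h3, mul_assoc, ← pow_add]
    congr 1
    have h4 : k * (q + 1) + k * (q + 1) = p * k + k := by rw [hq]; ring
    rw [h4, pow_add, pow_mul, hp, one_pow, one_mul]
  rw [h1]
  exact H.conj x hx _

theorem pow' (H : Odd5 D p) {x y : G} (hx : x ∈ D) (hy : y ∈ D) (h : ¬ Commute x y) :
    (x * y) ^ p = 1 := H.pow x hx y hy h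

/-- a power of two cannot kill the product of two noncommuting members. -/
theorem pow_two_pow_ne (H : Odd5 D p) {x y : G} (hx : x ∈ D) (hy : y ∈ D) (h : ¬ Commute x y)
    (k : ℕ) : (x * y) ^ (2 ^ k) ≠ 1 := by
  intro h1
  have := eq_one_of_pow (H.coprime_two_pow k) h1 (H.pow' hx hy h)
  apply h
  rw [commute_iff (H.sq x hx) (H.sq y hy), this, mul_one]

theorem commute_of_pow_two_pow (H : Odd5 D p) {x y : G} (hx : x ∈ D) (hy : y ∈ D)
    (k : ℕ) (h : (x * y) ^ (2 ^ k) = 1) : Commute x y := by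
  by_contra h1
  exact H.pow_two_pow_ne hx hy h1 k h

theorem commute_of_four (H : Odd5 D p) {x y : G} (hx : x ∈ D) (hy : y ∈ D)
    (h : (x * y) ^ 4 = 1) : Commute x y :=
  H.commute_of_pow_two_pow hx hy 2 h

/-- If `u` and its conjugate under `w` commute then `u` and `w` commute. -/
theorem commute_of_commute_conj (H : Odd5 D p) {u w : G} (hu : u ∈ D) (hw : w ∈ D)
    (h : Commute u (w * u * w)) : Commute u w := by
  apply H.commute_of_four hu hw
  have h1 := (commute_iff (H.sq u hu) (H.sq _ (H.conj' hu hw))).mp h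
  calc (u * w) ^ 4 = u * (w * u * w) * (u * (w * u * w)) := by
        simp only [pow_succ, pow_zero, one_mul]; group
    _ = 1 := h1

/-- existence of midpoints -/
theorem exists_mid (H : Odd5 D p) {u v : G} (hu : u ∈ D) (hv : v ∈ D) (h : ¬ Commute u v) :
    ∃ w ∈ D, w * u * w = v ∧ (∀ g : G, Commute g u → Commute g v → Commute g w) := by
  obtain ⟨q, hq⟩ := H.odd
  have hc := conj_self (H.sq u hu) (H.sq v hv)
  have hp := H.pow' hu hv h
  refine ⟨u * (u * v) ^ (q + 1), H.line_mem hu hc hp _, ?_, ?_⟩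
  · have h2 := conj_pow_inv (H.sq u hu) hc (q + 1)
    have h3 : u * (u * v) ^ (q + 1) * u * (u * (u * v) ^ (q + 1))
        = u * ((u * v) ^ (q + 1) * (u * u) * (u * v) ^ (q + 1)) := by
      simp only [mul_assoc]
    rw [h3, H.sq u hu, mul_one, ← pow_add]
    have h4 : q + 1 + (q + 1) = p + 1 := by rw [hq]; ring
    rw [h4, pow_succ, hp, one_mul, ← mul_assoc, H.sq u hu, one_mul]
  · intro g h1 h2
    exact h1.mul_right ((h1.mul_right h2).pow_right _)

/-- uniqueness of midpoints -/
theorem mid_unique [Finite G] (H : Odd5 D p) {u w w' : G} (hu : u ∈ D) (hw : w ∈ D) (hw' : w' ∈ D)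
    (h : ¬ Commute w u) (h' : ¬ Commute w' u) (he : w * u * w = w' * u * w') : w = w' := by
  classical
  let B : Type _ := {w : G // w ∈ D ∧ ¬ Commute w u}
  have hfin : Finite B := inferInstance
  let φ : B → B := fun w => ⟨w.1 * u * w.1, H.conj' hu w.2.1, fun hc => w.2.2
    (H.commute_of_commute_conj hu w.2.1 hc.symm).symm⟩
  have hsurj : Function.Surjective φ := by
    rintro ⟨v, hv, hvu⟩
    obtain ⟨w, hw, hwv, -⟩ := H.exists_mid hu hv (fun hc => hvu hc.symm)
    refine ⟨⟨w, hw, ?_⟩, ?_⟩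
    · intro hc
      apply hvu
      rw [← hwv, hc.eq, mul_assoc, H.sq w hw, mul_one]
    · apply Subtype.ext
      exact hwv
  have hinj := Finite.injective_iff_surjective.mpr hsurj
  have := @hinj ⟨w, hw, h⟩ ⟨w', hw', h'⟩ (Subtype.ext he)
  exact congrArg Subtype.val this

/-- (F0) -/
theorem commute_left_of_commute_mul (H : Odd5 D p) {x e y : G} (hx : x ∈ D) (he : e ∈ D)
    (hy : y ∈ D) (hne : x ≠ e) (hc : Commute x e) (h : Commute y (x * e)) : Commute y x := by
  by_contra hn
  have hn' : ¬ Commute x y := fun h => hn h.symm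
  have hp := H.pow' hx hy hn'
  -- e * y = (x*e) * (x*y)
  have hz2 : (x * e) * (x * e) = 1 := (commute_iff (H.sq x hx) (H.sq e he)).mp hc
  have hxz : Commute x (x * e) := (Commute.refl x).mul_right hc
  have hey : e * y = (x * e) * (x * y) := by
    rw [hc.eq]
    calc e * y = e * (x * x) * y := by rw [H.sq x hx, mul_one]
      _ = e * x * (x * y) := by group
  have hcomm : Commute (x * e) (x * y) := (hxz.symm).mul_right h.symm
  by_cases hey' : Commute e y
  · have h1 := (commute_iff (H.sq e he) (H.sq y hy)).mp hey'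
    rw [hey] at h1
    have h2 : (x * y) ^ 2 = 1 := by
      have : (x * e * (x * y)) * (x * e * (x * y)) = ((x * e) * (x * e)) * ((x * y) * (x * y)) := by
        calc (x * e * (x * y)) * (x * e * (x * y)) = x * e * ((x * y) * (x * e)) * (x * y) := by
              simp only [mul_assoc]
          _ = x * e * ((x * e) * (x * y)) * (x * y) := by rw [hcomm.eq]
          _ = _ := by simp only [mul_assoc]
      rw [this, hz2, one_mul] at h1
      rw [pow_two]; exact h1
    exact H.pow_two_pow_ne hx hy hn' 1 (by simpa using h2)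
  · have h1 := H.pow' he hy hey'
    rw [hey, hcomm.mul_pow, hp, mul_one] at h1
    have h2 : (x * e) ^ 2 = 1 := by rw [pow_two]; exact hz2
    have h3 := eq_one_of_pow (H.coprime_two_pow 1) (by simpa using h2) h1
    exact hne (by rw [← inv_eq_self (H.sq x hx)]; exact inv_eq_of_mul_eq_one_right h3)

theorem commute_right_of_commute_mul (H : Odd5 D p) {x e y : G} (hx : x ∈ D) (he : e ∈ D)
    (hy : y ∈ D) (hne : x ≠ e) (hc : Commute x e) (h : Commute y (x * e)) : Commute y e :=
  H.commute_left_of_commute_mul he hx hy hne.symm hc.symm (hc.eq ▸ h)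

end Odd5

end Cfsg.Agent.SporadicStructure.RankThreeBase
end

-- part: SporadicStructure/RankThreeClq
section
/-!
# Maximal commuting subsets ("cliques") of a class of involutions with products of order 1, 2, p
-/

set_option autoImplicit false

namespace Cfsg.Agent.SporadicStructure.RankThreeClq

open Cfsg.Agent.SporadicStructure.RankThreeBase

variable {G : Type*} [Group G]

/-- the conjugate of a set -/
def cj (g : G) (E : Set G) : Set G := {y | g⁻¹ * y * g ∈ E}

theorem mem_cj {g : G} {E : Set G} {y : G} : y ∈ cj g E ↔ g⁻¹ * y * g ∈ E := Iff.rfl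

theorem conj_mem_cj {g : G} {E : Set G} {y : G} : g * y * g⁻¹ ∈ cj g E ↔ y ∈ E := by
  rw [mem_cj]
  have : g⁻¹ * (g * y * g⁻¹) * g = y := by group
  rw [this]

theorem cj_mul (g h : G) (E : Set G) : cj (g * h) E = cj g (cj h E) := by
  ext y
  simp only [mem_cj]
  have : (g * h)⁻¹ * y * (g * h) = h⁻¹ * (g⁻¹ * y * g) * h := by group
  rw [this]

theorem cj_one (E : Set G) : cj 1 E = E := by
  ext y; simp [mem_cj]

theorem cj_eq_image (g : G) (E : Set G) : cj g E = (fun y => g * y * g⁻¹) '' E := by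
  ext y
  constructor
  · intro h
    exact ⟨g⁻¹ * y * g, h, by group⟩
  · rintro ⟨x, hx, rfl⟩
    exact conj_mem_cj.mpr hx

theorem ncard_cj (g : G) (E : Set G) : (cj g E).ncard = E.ncard := by
  rw [cj_eq_image]
  apply Set.ncard_image_of_injective
  intro a b h
  simpa only [_root_.mul_left_inj, _root_.mul_right_inj] using h

theorem cj_of_commute {g : G} {E : Set G} (h : ∀ a ∈ E, Commute g a) : cj g E = E := by
  rw [cj_eq_image]
  ext y
  constructor
  · rintro ⟨x, hx, rfl⟩
    have := (h x hx).eq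
    simpa [this] using hx
  · intro hy
    refine ⟨y, hy, ?_⟩
    have := (h y hy).eq
    simp [this]

theorem commute_conj_iff {g x y : G} : Commute (g * x * g⁻¹) (g * y * g⁻¹) ↔ Commute x y := by
  constructor
  · intro h
    have h1 := h.eq
    have : g * (x * y) * g⁻¹ = g * (y * x) * g⁻¹ := by
      calc g * (x * y) * g⁻¹ = g * x * g⁻¹ * (g * y * g⁻¹) := by group
        _ = g * y * g⁻¹ * (g * x * g⁻¹) := h1
        _ = g * (y * x) * g⁻¹ := by group
    exact mul_left_cancel (mul_right_cancel this)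
  · intro h
    have h1 := h.eq
    show g * x * g⁻¹ * (g * y * g⁻¹) = g * y * g⁻¹ * (g * x * g⁻¹)
    calc g * x * g⁻¹ * (g * y * g⁻¹) = g * (x * y) * g⁻¹ := by group
      _ = g * (y * x) * g⁻¹ := by rw [h1]
      _ = _ := by group

/-- Maximal pairwise commuting subsets of `D ∩ C(S)`. -/
structure IsClq (D S E : Set G) : Prop where
  sub : E ⊆ D
  cen : ∀ a ∈ E, ∀ s ∈ S, Commute a s
  comm : ∀ a ∈ E, ∀ b ∈ E, Commute a b
  max : ∀ u ∈ D, (∀ s ∈ S, Commute u s) → (∀ a ∈ E, Commute u a) → u ∈ E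

theorem exists_clq [Finite G] {D S F : Set G} (h1 : F ⊆ D) (h2 : ∀ a ∈ F, ∀ s ∈ S, Commute a s)
    (h3 : ∀ a ∈ F, ∀ b ∈ F, Commute a b) : ∃ E, IsClq D S E ∧ F ⊆ E := by
  classical
  let 𝒮 : Set (Set G) := {E | E ⊆ D ∧ (∀ a ∈ E, ∀ s ∈ S, Commute a s) ∧
    (∀ a ∈ E, ∀ b ∈ E, Commute a b) ∧ F ⊆ E}
  have hne : 𝒮.Nonempty := ⟨F, h1, h2, h3, le_refl _⟩
  obtain ⟨E, hE, hmax⟩ := Set.exists_max_image 𝒮 (fun E => E.ncard) (Set.toFinite _) hne
  refine ⟨E, ⟨hE.1, hE.2.1, hE.2.2.1, ?_⟩, hE.2.2.2⟩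
  intro u hu huS huE
  by_contra hn
  have hins : insert u E ∈ 𝒮 := by
    refine ⟨Set.insert_subset hu hE.1, ?_, ?_, hE.2.2.2.trans (Set.subset_insert _ _)⟩
    · intro a ha s hs
      rcases Set.mem_insert_iff.mp ha with rfl | ha
      · exact huS s hs
      · exact hE.2.1 a ha s hs
    · intro a ha b hb
      rcases Set.mem_insert_iff.mp ha with ha' | ha'
      · rcases Set.mem_insert_iff.mp hb with hb' | hb'
        · rw [ha', hb']
        · rw [ha']; exact huE b hb'
      · rcases Set.mem_insert_iff.mp hb with hb' | hb'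
        · rw [hb']; exact (huE a ha').symm
        · exact hE.2.2.1 a ha' b hb'
  have := hmax _ hins
  rw [Set.ncard_insert_of_notMem hn (Set.toFinite _)] at this
  omega

theorem IsClq.cj {D S E : Set G} (h : IsClq D S E) (hD : ∀ x ∈ D, ∀ g : G, g * x * g⁻¹ ∈ D) (g : G) :
    IsClq D (cj g S) (RankThreeClq.cj g E) := by
  have hD' : ∀ y : G, y ∈ D ↔ g⁻¹ * y * g ∈ D := fun y =>
    ⟨fun hy => by simpa using hD y hy g⁻¹, fun hy => by
      have := hD _ hy g
      have h2 : g * (g⁻¹ * y * g) * g⁻¹ = y := by group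
      rwa [h2] at this⟩
  have hcc : ∀ x y : G, Commute x y ↔ Commute (g⁻¹ * x * g) (g⁻¹ * y * g) := fun x y => by
    have := @commute_conj_iff G _ g⁻¹ x y
    rw [inv_inv] at this
    exact this.symm
  refine ⟨?_, ?_, ?_, ?_⟩
  · intro y hy
    exact (hD' y).mpr (h.sub hy)
  · intro a ha s hs
    exact (hcc a s).mpr (h.cen _ ha _ hs)
  · intro a ha b hb
    exact (hcc a b).mpr (h.comm _ ha _ hb)
  · intro u hu huS huE
    refine h.max _ ((hD' u).mp hu) ?_ ?_
    · intro s hs
      have h1 : g * s * g⁻¹ ∈ RankThreeClq.cj g S := conj_mem_cj.mpr hs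
      have h2 := (hcc _ _).mp (huS _ h1)
      have h3 : g⁻¹ * (g * s * g⁻¹) * g = s := by group
      rwa [h3] at h2
    · intro s hs
      have h1 : g * s * g⁻¹ ∈ RankThreeClq.cj g E := conj_mem_cj.mpr hs
      have h2 := (hcc _ _).mp (huE _ h1)
      have h3 : g⁻¹ * (g * s * g⁻¹) * g = s := by group
      rwa [h3] at h2

/-- Two elements of `D` in a common 2-subgroup commute. -/
theorem commute_of_two_group {D : Set G} {p : ℕ} (H : Odd5 D p) {T : Subgroup G}
    (hT : IsPGroup 2 T) {x y : G} (hx : x ∈ D) (hy : y ∈ D) (hxT : x ∈ T) (hyT : y ∈ T) :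
    Commute x y := by
  obtain ⟨k, hk⟩ := hT ⟨x * y, T.mul_mem hxT hyT⟩
  apply H.commute_of_pow_two_pow hx hy k
  simpa only [_root_.SubmonoidClass.mk_pow, _root_.OneMemClass.coe_one] using congrArg Subtype.val hk

theorem closure_sq {D : Set G} {p : ℕ} (H : Odd5 D p) {E : Set G} (hE : E ⊆ D)
    (hc : ∀ a ∈ E, ∀ b ∈ E, Commute a b) : ∀ g ∈ Subgroup.closure E, g * g = 1 := by
  have hcomm : ∀ g ∈ Subgroup.closure E, ∀ h ∈ Subgroup.closure E, Commute g h := by
    intro g hg h hh
    have h1 : Subgroup.closure E ≤ Subgroup.centralizer (Subgroup.closure E : Set G) := by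
      rw [Subgroup.closure_le]
      intro a ha
      rw [SetLike.mem_coe, Subgroup.mem_centralizer_iff]
      intro b hb
      have h2 : Subgroup.closure E ≤ Subgroup.centralizer {a} := by
        rw [Subgroup.closure_le]
        intro c hcE
        rw [SetLike.mem_coe, Subgroup.mem_centralizer_singleton_iff]
        exact (hc c hcE a ha).eq
      exact Subgroup.mem_centralizer_singleton_iff.mp (h2 hb)
    exact (Subgroup.mem_centralizer_iff.mp (h1 hg) h hh).symm
  intro g hg
  induction hg using Subgroup.closure_induction with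
  | mem x hx => exact H.sq x (hE hx)
  | one => simp
  | mul x y hx hy ihx ihy =>
    have := (hcomm x hx y hy).eq
    calc x * y * (x * y) = x * (y * x) * y := by group
      _ = x * (x * y) * y := by rw [this]
      _ = (x * x) * (y * y) := by group
      _ = 1 := by rw [ihx, ihy, mul_one]
  | inv x hx ih =>
    rw [← mul_inv_rev, ih, inv_one]

/-- Cliques of `D ∩ C(S)` are conjugate under `C(S)`. -/
theorem clq_conj [Finite G] {D : Set G} {p : ℕ} (H : Odd5 D p) {S E₁ E₂ : Set G}
    (h₁ : IsClq D S E₁) (h₂ : IsClq D S E₂) :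
    ∃ h : G, (∀ s ∈ S, Commute h s) ∧ E₂ = cj h E₁ := by
  classical
  have : Fact (Nat.Prime 2) := ⟨Nat.prime_two⟩
  let K : Subgroup G := Subgroup.centralizer S
  have key : ∀ E : Set G, IsClq D S E → ∃ T : Sylow 2 K,
      E = {y | y ∈ D ∧ y ∈ (T : Subgroup K).map K.subtype} := by
    intro E hE
    have hEK : E ⊆ K := fun a ha => Subgroup.mem_centralizer_iff.mpr fun s hs => (hE.cen a ha s hs).eq.symm
    have hle : Subgroup.closure E ≤ K := (Subgroup.closure_le _).mpr hEK
    have h2 : IsPGroup 2 ((Subgroup.closure E).subgroupOf K) := by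
      rintro ⟨g, hg⟩
      refine ⟨1, ?_⟩
      have := closure_sq H hE.sub hE.comm g.1 (Subgroup.mem_subgroupOf.mp hg)
      apply Subtype.ext
      apply Subtype.ext
      simpa only [pow_two, _root_.pow_one, _root_.MulMemClass.mk_mul_mk, _root_.Subgroup.coe_mul, _root_.OneMemClass.coe_one] using this
    obtain ⟨T, hT⟩ := h2.exists_le_sylow
    refine ⟨T, ?_⟩
    have hTp : IsPGroup 2 ((T : Subgroup K).map K.subtype) := T.isPGroup'.map K.subtype
    have hET : ∀ a ∈ E, a ∈ (T : Subgroup K).map K.subtype := by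
      intro a ha
      refine ⟨⟨a, hEK ha⟩, hT ?_, rfl⟩
      exact Subgroup.mem_subgroupOf.mpr (Subgroup.subset_closure ha)
    ext y
    constructor
    · intro hy
      exact ⟨hE.sub hy, hET y hy⟩
    · rintro ⟨hyD, hyT⟩
      refine hE.max y hyD ?_ ?_
      · intro s hs
        obtain ⟨k, -, rfl⟩ := hyT
        exact (Subgroup.mem_centralizer_iff.mp k.2 s hs).symm
      · intro a ha
        exact commute_of_two_group H hTp hyD (hE.sub ha) hyT (hET a ha)
  obtain ⟨T₁, hT₁⟩ := key E₁ h₁
  obtain ⟨T₂, hT₂⟩ := key E₂ h₂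
  obtain ⟨h, hh⟩ := MulAction.exists_smul_eq K T₁ T₂
  refine ⟨h, fun s hs => (Subgroup.mem_centralizer_iff.mp h.2 s hs).symm, ?_⟩
  have hD' : ∀ y : G, y ∈ D ↔ (h : G)⁻¹ * y * h ∈ D := fun y =>
    ⟨fun hy => by simpa only [_root_.inv_inv] using H.conj y hy (h : G)⁻¹, fun hy => by
      have := H.conj _ hy h
      have h2 : (h : G) * ((h : G)⁻¹ * y * h) * (h : G)⁻¹ = y := by group
      rwa [h2] at this⟩
  ext y
  rw [mem_cj, hT₁, hT₂, Set.mem_ofPred_eq, Set.mem_ofPred_eq, ← hD' y]
  refine and_congr_right fun _ => ?_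
  rw [← hh]
  constructor
  · rintro ⟨k, hk, rfl⟩
    rw [Sylow.coe_subgroup_smul] at hk
    have h3 := Subgroup.mem_pointwise_smul_iff_inv_smul_mem.mp hk
    refine ⟨_, h3, ?_⟩
    simp only [MulAut.smul_def, _root_.MulAut.inv_apply, _root_.MulAut.conj_symm_apply, _root_.Subgroup.subtype_apply, _root_.Subgroup.coe_mul, _root_.InvMemClass.coe_inv]
  · rintro ⟨k, hk, hky⟩
    refine ⟨h * k * h⁻¹, ?_, ?_⟩
    · rw [Sylow.coe_subgroup_smul]
      apply Subgroup.mem_pointwise_smul_iff_inv_smul_mem.mpr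
      convert hk using 1
      simp only [MulAut.smul_def, mul_assoc, _root_.smul_mul', _root_.MulAut.inv_apply, _root_.MulAut.conj_symm_apply, _root_.inv_mul_cancel, _root_.one_mul, _root_.smul_inv', _root_.mul_inv_cancel, _root_.mul_one, _root_.mul_inv_cancel_left, _root_.Sylow.coe_coe, _root_.SetLike.mem_coe]
      exact Iff.rfl
    · have : (K.subtype k : G) = (h : G)⁻¹ * y * h := hky
      simp only [map_mul, map_inv, this, Subgroup.coe_subtype]
      group

theorem ncard_clq [Finite G] {D : Set G} {p : ℕ} (H : Odd5 D p) {S E₁ E₂ : Set G}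
    (h₁ : IsClq D S E₁) (h₂ : IsClq D S E₂) : E₂.ncard = E₁.ncard := by
  obtain ⟨h, -, rfl⟩ := clq_conj H h₁ h₂
  exact ncard_cj _ _

end Cfsg.Agent.SporadicStructure.RankThreeClq
end

-- part: SporadicStructure/RankThreeTypes
section
/-!
# Types of triples and quadruples
-/

set_option autoImplicit false

namespace Cfsg.Agent.SporadicStructure.RankThreeTypes

open Cfsg.Agent.SporadicStructure.RankThreeBase Cfsg.Agent.SporadicStructure.RankThreeClq

variable {G : Type*} [Group G] {D : Set G} {p : ℕ}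

/-- No product of two distinct commuting members lies in `D`. -/
def NP (D : Set G) : Prop := ∀ a ∈ D, ∀ b ∈ D, a ≠ b → Commute a b → a * b ∉ D

theorem comm_of_pow {c z : G} {k : ℕ} (hp : c ^ p = 1) (hk : Nat.Coprime k p)
    (h : Commute z (c ^ k)) : Commute z c := by
  have h1 : Nat.Coprime k (orderOf c) := Nat.Coprime.coprime_dvd_right (orderOf_dvd_of_pow_eq_one hp) hk
  obtain ⟨m, hm⟩ := exists_pow_eq_self_of_coprime h1
  have := h.pow_right m
  rwa [hm] at this

/-- An element commuting with `x` and `d x d` commutes with `d`. -/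
theorem comm_of_line (H : Odd5 D p) {x d g : G} (hx : x ∈ D) (hd : d ∈ D) (hn : ¬ Commute x d)
    (h1 : Commute g x) (h2 : Commute g (d * x * d)) : Commute g d := by
  have h3 : Commute g ((x * d) ^ 2) := by
    have : (x * d) ^ 2 = x * (d * x * d) := by rw [pow_two]; group
    rw [this]; exact h1.mul_right h2
  have h4 := comm_of_pow (H.pow' hx hd hn) (by simpa using H.coprime_two_pow 1) h3
  have h5 : d = x * (x * d) := by rw [← mul_assoc, H.sq x hx, one_mul]
  rw [h5]; exact h1.mul_right h4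

section
variable {x e d : G}

/-- The basic dichotomy. -/
theorem types (H : Odd5 D p) (_hNP : NP D) (hx : x ∈ D) (he : e ∈ D) (hd : d ∈ D) (hne : x ≠ e)
    (hxe : Commute x e) (hdx : ¬ Commute d x) (hde : ¬ Commute d e) :
    (d * (x * e)) ^ 4 = 1 ∨ ∃ y ∈ D, y ≠ x ∧ y ≠ e ∧ Commute y x ∧ Commute y e ∧ ¬ Commute d y ∧
      Commute d (x * e * y) ∧ (∀ v : G, Commute v d → Commute v (x * e) → Commute v y) := by
  set z := x * e with hz
  have hz2 : z * z = 1 := (commute_iff (H.sq x hx) (H.sq e he)).mp hxe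
  have hd2 := H.sq d hd
  have hzi : z⁻¹ = z := inv_eq_self hz2
  have hdz : ¬ Commute d z := fun h => hdx (H.commute_left_of_commute_mul hx he hd hne hxe h)
  have hdzD : z * d * z ∈ D := by have := H.conj d hd z; rwa [hzi] at this
  have hsq : (d * z) ^ 2 = d * (z * d * z) := by rw [pow_two]; group
  by_cases hc : Commute d (z * d * z)
  · left
    have := (commute_iff hd2 (H.sq _ hdzD)).mp hc
    calc (d * z) ^ 4 = ((d * z) ^ 2) * ((d * z) ^ 2) := by rw [← pow_add]
      _ = 1 := by rw [hsq]; exact this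
  · right
    have hp := H.pow' hd hdzD hc
    rw [← hsq, ← pow_mul, mul_comm, pow_mul] at hp
    -- hp : ((d*z)^p)^2 = 1
    set g := d * z with hg
    have hdg : d * g * d = g⁻¹ := by
      rw [hg, mul_inv_rev, hzi, inv_eq_self hd2, ← mul_assoc, hd2, one_mul]
    have hzg : z * g * z = g⁻¹ := by
      rw [hg, mul_inv_rev, hzi, inv_eq_self hd2]
      calc z * (d * z) * z = z * d * (z * z) := by group
        _ = z * d := by rw [hz2, mul_one]
    set w := g ^ p with hw
    have hw2 : w * w = 1 := by rw [← pow_two]; exact hp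
    have hwi : w⁻¹ = w := inv_eq_self hw2
    have hdw : Commute d w := by
      have := conj_pow_inv hd2 hdg p
      rw [← hw, hwi] at this
      show d * w = w * d
      calc d * w = d * w * (d * d) := by rw [hd2, mul_one]
        _ = d * w * d * d := by group
        _ = w * d := by rw [this]
    have hzw : Commute z w := by
      have := conj_pow_inv hz2 hzg p
      rw [← hw, hwi] at this
      show z * w = w * z
      calc z * w = z * w * (z * z) := by rw [hz2, mul_one]
        _ = z * w * z * z := by group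
        _ = w * z := by rw [this]
    obtain ⟨q, hq⟩ := H.odd
    have hyD : z * w ∈ D := by
      have h1 : z * w = (g ^ (q + 1))⁻¹ * d * ((g ^ (q + 1))⁻¹)⁻¹ := by
        have h2 := conj_pow_inv hd2 hdg (q + 1)
        have h3 : (g ^ (q + 1))⁻¹ * d = d * g ^ (q + 1) := by
          rw [← h2, mul_assoc, hd2, mul_one]
        rw [inv_inv, h3, mul_assoc d, ← pow_add]
        have h4 : q + 1 + (q + 1) = p + 1 := by rw [hq]; ring
        rw [h4, pow_succ', ← mul_assoc, hg, ← mul_assoc, hd2, one_mul]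
      rw [h1]
      exact H.conj d hd _
    have hyz : Commute (z * w) z := (Commute.refl z).mul_left hzw.symm
    have hyx := H.commute_left_of_commute_mul hx he hyD hne hxe hyz
    have hye := H.commute_right_of_commute_mul hx he hyD hne hxe hyz
    have hzy : z * (z * w) = w := by rw [← mul_assoc, hz2, one_mul]
    refine ⟨z * w, hyD, ?_, ?_, hyx, hye, ?_, ?_, ?_⟩
    · intro h
      apply hde
      have : e = w := by
        rw [← hzy, h, hz, hxe.eq, mul_assoc, H.sq x hx, mul_one]
      rw [this]; exact hdw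
    · intro h
      apply hdx
      have : x = w := by
        rw [← hzy, h, hz, mul_assoc, H.sq e he, mul_one]
      rw [this]; exact hdw
    · intro h
      apply hdz
      have : z = (z * w) * w := by rw [mul_assoc, hw2, mul_one]
      rw [this]; exact h.mul_right hdw
    · rw [hzy]; exact hdw
    · intro v h1 h2
      exact h2.mul_right ((h1.mul_right h2).pow_right p)

/-- Type 4 propagates along the line. -/
theorem type_four_next (H : Odd5 D p) (hNP : NP D) (hx : x ∈ D) (he : e ∈ D) (hd : d ∈ D)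
    (hne : x ≠ e) (hxe : Commute x e) (hdx : ¬ Commute d x) (hde : ¬ Commute d e)
    (h4 : (d * (x * e)) ^ 4 = 1) : ((d * x * d) * (x * e)) ^ 4 = 1 := by
  set z := x * e with hz
  have hxd : ¬ Commute x d := fun h => hdx h.symm
  have hz2 : z * z = 1 := (commute_iff (H.sq x hx) (H.sq e he)).mp hxe
  have hd2D : d * x * d ∈ D := H.conj' hx hd
  have hn1 : ¬ Commute (d * x * d) x := fun h => hxd (H.commute_of_commute_conj hx hd h.symm)
  have hn2 : ¬ Commute (d * x * d) e := fun h =>
    hde (comm_of_line H hx hd hxd hxe.symm h.symm).symm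
  have hdz : ¬ Commute d z := fun h => hdx (H.commute_left_of_commute_mul hx he hd hne hxe h)
  rcases types H hNP hx he hd2D hne hxe hn1 hn2 with h | ⟨y, hyD, hyx, hye, hcyx, hcye, hdy, hdw, -⟩
  · exact h
  · exfalso
    set w := x * e * y with hw
    have hxz : Commute x z := (Commute.refl x).mul_right hxe
    have hyz : Commute y z := hcyx.mul_right hcye
    have hwx : Commute w x := (hxz.symm).mul_left hcyx
    have hwz : Commute w z := (Commute.refl z).mul_left hyz
    have hwd : Commute w d := comm_of_line H hx hd hxd hwx hdw.symm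
    have hw2 : w * w = 1 := by
      have : w * w = (z * z) * (y * y) := by
        rw [hw]
        calc z * y * (z * y) = z * (y * z) * y := by group
          _ = z * (z * y) * y := by rw [hyz.eq]
          _ = _ := by group
      rw [this, hz2, H.sq y hyD, mul_one]
    have hyw : y = z * w := by rw [hw, ← mul_assoc, hz2, one_mul]
    have hcomm : Commute (d * z) w := (hwd.symm).mul_left hwz.symm
    have h5 : (d * y) ^ 2 = (d * z) ^ 2 := by
      rw [hyw, ← mul_assoc, hcomm.mul_pow, pow_two w, hw2, mul_one]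
    have h6 : Commute d y := by
      apply H.commute_of_four hd hyD
      calc (d * y) ^ 4 = ((d * y) ^ 2) ^ 2 := by rw [← pow_mul]
        _ = ((d * z) ^ 2) ^ 2 := by rw [h5]
        _ = (d * z) ^ 4 := by rw [← pow_mul]
        _ = 1 := h4
    have h7 := (commute_iff (H.sq d hd) (H.sq y hyD)).mp h6
    rw [← pow_two, h5, pow_two] at h7
    exact hdz ((commute_iff (H.sq d hd) hz2).mpr h7)

/-- A triple of type 4 gives a quadruple. -/
theorem quad_of_type_four (H : Odd5 D p) (hNP : NP D) (hx : x ∈ D) (he : e ∈ D) (hd : d ∈ D)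
    (hne : x ≠ e) (hxe : Commute x e) (hdx : ¬ Commute d x) (hde : ¬ Commute d e)
    (h4 : (d * (x * e)) ^ 4 = 1) :
    ∃ v ∈ D, ∃ v' ∈ D, v ≠ x ∧ v ≠ e ∧ Commute v x ∧ Commute v e ∧ Commute v' x ∧ Commute v' e ∧
      Commute v v' ∧ v * v' = x * e := by
  have h42 := type_four_next H hNP hx he hd hne hxe hdx hde h4
  set z := x * e with hz
  have hxd : ¬ Commute x d := fun h => hdx h.symm
  have hx2 := H.sq x hx
  have hd2 := H.sq d hd
  have hz2 : z * z = 1 := (commute_iff hx2 (H.sq e he)).mp hxe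
  have hzi : z⁻¹ = z := inv_eq_self hz2
  have hxi : x⁻¹ = x := inv_eq_self hx2
  have hdi : d⁻¹ = d := inv_eq_self hd2
  have hxz : Commute x z := (Commute.refl x).mul_right hxe
  have hd2D : d * x * d ∈ D := H.conj' hx hd
  have hn1 : ¬ Commute (d * x * d) x := fun h => hxd (H.commute_of_commute_conj hx hd h.symm)
  -- commuting with conjugates
  have conj_comm : ∀ u : G, u * u = 1 → (u * z) ^ 4 = 1 → Commute (u * z * u) z := by
    intro u hu h
    have hu' : (u * z * u) * (u * z * u) = 1 := by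
      calc (u * z * u) * (u * z * u) = u * z * (u * u) * z * u := by group
        _ = u * (z * z) * u := by rw [hu]; group
        _ = 1 := by rw [hz2, mul_one, hu]
    rw [commute_iff hu' hz2]
    calc u * z * u * z * (u * z * u * z) = (u * z) ^ 4 := by
          simp only [pow_succ, pow_zero, one_mul]; group
      _ = 1 := h
  have hA : Commute (d * z * d) z := conj_comm d hd2 h4
  have hB : Commute ((d * x * d) * z * (d * x * d)) z := conj_comm _ (H.sq _ hd2D) h42
  -- conjugation by x preserves z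
  have hcx : ∀ u : G, Commute u z → Commute (x * u * x) z := by
    intro u hu
    have h1 := (@commute_conj_iff G _ x u z).mpr hu
    have h2 : x * z * x⁻¹ = z := by rw [hxz.eq]; group
    rw [h2, hxi] at h1
    exact h1
  have hz1z : Commute (x * (d * z * d) * x) z := hcx _ hA
  set z1 := x * (d * z * d) * x with hz1
  set c := x * d with hc
  have hcp : c ^ p = 1 := H.pow' hx hd hxd
  have hci : c⁻¹ = d * x := by rw [hc, mul_inv_rev, hxi, hdi]
  have hz1c : z1 = c * z * c⁻¹ := by
    rw [hci, hz1, hc]; group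
  have hz1sq : z1 * z1 = 1 := by
    rw [hz1c]
    calc c * z * c⁻¹ * (c * z * c⁻¹) = c * (z * z) * c⁻¹ := by group
      _ = 1 := by rw [hz2]; group
  have hz1i : z1⁻¹ = z1 := inv_eq_self hz1sq
  have hzm : x * z1 * x = d * z * d := by
    rw [hz1]
    calc x * (x * (d * z * d) * x) * x = (x * x) * (d * z * d) * (x * x) := by group
      _ = d * z * d := by rw [hx2]; group
  have hzm' : d * z * d = c⁻¹ * z * c := by
    rw [hci, hc]
    calc d * z * d = d * (z * (x * x)) * d := by rw [hx2, mul_one]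
      _ = d * ((z * x) * x) * d := by group
      _ = d * ((x * z) * x) * d := by rw [hxz.eq]
      _ = _ := by group
  -- z commutes with z2 = c^2 z c^-2
  have hz2z : Commute (c * z1 * c⁻¹) z := by
    have h1 := hcx _ hB
    have h2 : x * (d * x * d * z * (d * x * d)) * x = c * z1 * c⁻¹ := by
      rw [hz1c, hci, hc]; group
    rwa [h2] at h1
  -- z1 and z_{-1} commute
  have hz1zm : Commute z1 (d * z * d) := by
    rw [hzm']
    have h1 := (@commute_conj_iff G _ c⁻¹ (c * z1 * c⁻¹) z).mpr hz2z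
    have h2 : c⁻¹ * (c * z1 * c⁻¹) * c⁻¹⁻¹ = z1 := by group
    rw [h2, inv_inv] at h1
    exact h1
  have hvD : z1 * x * z1 ∈ D := by have := H.conj x hx z1; rwa [hz1i] at this
  have hv'D : z1 * e * z1 ∈ D := by have := H.conj e he z1; rwa [hz1i] at this
  have hvx1 : z1 * x * z1 * x = z1 * (d * z * d) := by
    rw [← hzm]; group
  have hzmsq : (d * z * d) * (d * z * d) = 1 := by
    calc (d * z * d) * (d * z * d) = d * z * (d * d) * z * d := by group
      _ = d * (z * z) * d := by rw [hd2]; group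
      _ = 1 := by rw [hz2, mul_one, hd2]
  have hvx : Commute (z1 * x * z1) x := by
    rw [commute_iff (H.sq _ hvD) hx2, hvx1]
    exact (commute_iff hz1sq hzmsq).mp hz1zm
  have hvv' : z1 * x * z1 * (z1 * e * z1) = z := by
    calc z1 * x * z1 * (z1 * e * z1) = z1 * x * (z1 * z1) * e * z1 := by group
      _ = z1 * (x * e) * z1 := by rw [hz1sq]; group
      _ = z1 * z * z1 := rfl
      _ = z * (z1 * z1) := by rw [hz1z.eq]; group
      _ = z := by rw [hz1sq, mul_one]
  have hcvv' : Commute (z1 * x * z1) (z1 * e * z1) := by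
    have := (@commute_conj_iff G _ z1 x e).mpr hxe
    rwa [hz1i] at this
  have hvz : Commute (z1 * x * z1) z := by
    rw [← hvv']; exact (Commute.refl _).mul_right hcvv'
  have hv'z : Commute (z1 * e * z1) z := by
    rw [← hvv']; exact hcvv'.symm.mul_right (Commute.refl _)
  have hexz : e = x * z := by rw [hz, ← mul_assoc, hx2, one_mul]
  have hv'vz : z1 * e * z1 = (z1 * x * z1) * z := by
    calc z1 * e * z1 = (z1 * x * z1) * (z1 * x * z1) * (z1 * e * z1) := by
          rw [H.sq _ hvD, one_mul]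
      _ = (z1 * x * z1) * ((z1 * x * z1) * (z1 * e * z1)) := mul_assoc _ _ _
      _ = (z1 * x * z1) * z := by rw [hvv']
  have hv'x : Commute (z1 * e * z1) x := by
    rw [hv'vz]; exact hvx.mul_left hxz.symm
  have hne1 : z1 * x * z1 ≠ x := by
    intro h
    -- z1 commutes with x
    have h1 : Commute z1 x := by
      show z1 * x = x * z1
      calc z1 * x = z1 * x * (z1 * z1) := by rw [hz1sq, mul_one]
        _ = (z1 * x * z1) * z1 := by group
        _ = x * z1 := by rw [h]
    rw [hz1c] at h1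
    have h2 := (@commute_conj_iff G _ c⁻¹ (c * z * c⁻¹) x).mpr h1
    have h3 : c⁻¹ * (c * z * c⁻¹) * c⁻¹⁻¹ = z := by group
    have h4 : c⁻¹ * x * c⁻¹⁻¹ = d * x * d := by
      rw [inv_inv, hci, hc]
      calc d * x * x * (x * d) = d * (x * x) * x * d := by group
        _ = d * x * d := by rw [hx2]; group
    rw [h3, h4] at h2
    exact hn1 (H.commute_left_of_commute_mul hx he hd2D hne hxe h2.symm)
  refine ⟨z1 * x * z1, hvD, z1 * e * z1, hv'D, hne1, ?_, hvx, ?_, hv'x, ?_, hcvv', hvv'⟩
  · intro h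
    -- z1 * zm = z
    have h1 : z1 * (d * z * d) = z := by
      rw [← hvx1, h, hz, hxe.eq]
    have h2 : d * z * d = z1 * z := by
      calc d * z * d = (z1 * z1) * (d * z * d) := by rw [hz1sq, one_mul]
        _ = z1 * (z1 * (d * z * d)) := by group
        _ = z1 * z := by rw [h1]
    -- conjugate h1 by c
    have h3 : (c * z1 * c⁻¹) * z = z1 := by
      have : c * (z1 * (d * z * d)) * c⁻¹ = c * z * c⁻¹ := by rw [h1]
      rw [hzm'] at this
      calc (c * z1 * c⁻¹) * z = c * (z1 * (c⁻¹ * z * c)) * c⁻¹ := by group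
        _ = c * z * c⁻¹ := this
        _ = z1 := hz1c.symm
    have h5 : c * z1 * c⁻¹ = z1 * z := by
      calc c * z1 * c⁻¹ = (c * z1 * c⁻¹) * (z * z) := by rw [hz2, mul_one]
        _ = (c * z1 * c⁻¹) * z * z := by group
        _ = z1 * z := by rw [h3]
    have h6 : c * (c * z * c⁻¹) * c⁻¹ = c⁻¹ * z * c := by
      rw [← hzm', h2, ← h5, hz1c]
    have h7 : Commute z (c ^ 3) := by
      show z * c ^ 3 = c ^ 3 * z
      have : c * (c * (c * z * c⁻¹) * c⁻¹) * c⁻¹ = c * (c⁻¹ * z * c) * c⁻¹ := by rw [h6]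
      have h8 : c ^ 3 * z * (c ^ 3)⁻¹ = z := by
        calc c ^ 3 * z * (c ^ 3)⁻¹ = c * (c * (c * z * c⁻¹) * c⁻¹) * c⁻¹ := by
              simp only [pow_succ, pow_zero, one_mul]; group
          _ = c * (c⁻¹ * z * c) * c⁻¹ := this
          _ = z := by group
      calc z * c ^ 3 = (c ^ 3 * z * (c ^ 3)⁻¹) * c ^ 3 := by rw [h8]
        _ = c ^ 3 * z := by group
    have h8 : Commute z c := comm_of_pow hcp H.coprime_three h7
    apply hne1
    have h9 : z1 = z := by rw [hz1c, ← h8.eq]; group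
    rw [h9, ← hxz.eq, mul_assoc, hz2, mul_one]
  · have := hvx.mul_right hvz
    rwa [← hexz] at this
  · have := hv'x.mul_right hv'z
    rwa [← hexz] at this

end

end Cfsg.Agent.SporadicStructure.RankThreeTypes
end

-- part: SporadicStructure/RankThreeCaseTwo
section
/-!
# Rank three classes, the case where maximal intersections of cliques have co-size one
-/

set_option autoImplicit false

namespace Cfsg.Agent.SporadicStructure.RankThreeCaseTwo

open Cfsg.Agent.SporadicStructure.RankThreeBase Cfsg.Agent.SporadicStructure.RankThreeClq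
  Cfsg.Agent.SporadicStructure.RankThreeTypes

variable {G : Type*} [Group G] {D : Set G} {p : ℕ}

/-- Rank three situation with products of order 2, p. -/
structure Rk3 (D : Set G) (p : ℕ) : Prop extends Odd5 D p where
  transN : ∀ x ∈ D, ∀ y ∈ D, ∀ x' ∈ D, ∀ y' ∈ D, ¬ Commute x y → ¬ Commute x' y' →
    ∃ g : G, g * x * g⁻¹ = x' ∧ g * y * g⁻¹ = y'
  transC : ∀ x ∈ D, ∀ y ∈ D, ∀ x' ∈ D, ∀ y' ∈ D, x ≠ y → x' ≠ y' → Commute x y → Commute x' y' →
    ∃ g : G, g * x * g⁻¹ = x' ∧ g * y * g⁻¹ = y'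
  no2 : ∀ N : Subgroup G, N.Normal → IsPGroup 2 N → N = ⊥

theorem np_of (R : Rk3 D p) {x y d : G} (hx : x ∈ D) (hy : y ∈ D) (hd : d ∈ D)
    (hxy : Commute x y) (hdy : Commute d y) (hdx : ¬ Commute d x) : NP D := by
  intro a ha b hb hab hc hm
  have hne : x ≠ y := fun h => hdx (h ▸ hdy)
  obtain ⟨g, hg1, hg2⟩ := R.transC a ha b hb x hx y hy hab hne hc hxy
  have hxyD : x * y ∈ D := by
    have := R.conj _ hm g
    have h2 : g * (a * b) * g⁻¹ = x * y := by
      rw [← hg1, ← hg2]; group
    rwa [h2] at this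
  have h1 : x * (x * y) = y := by rw [← mul_assoc, R.sq x hx, one_mul]
  have h2 : x ≠ x * y := by
    intro h
    exact R.ne_one y hy (mul_left_cancel (a := x) (by rw [← h, mul_one]))
  exact hdx (R.commute_left_of_commute_mul hx hxyD hd h2 ((Commute.refl x).mul_right hxy)
    (by rw [h1]; exact hdy))

/-- every commuting pair lies in a quadruple. -/
def Quad (D : Set G) : Prop := ∀ a ∈ D, ∀ b ∈ D, a ≠ b → Commute a b →
  ∃ v ∈ D, ∃ v' ∈ D, v ≠ a ∧ v ≠ b ∧ Commute v a ∧ Commute v b ∧ Commute v' a ∧ Commute v' b ∧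
      Commute v v' ∧ v * v' = a * b

theorem quad_of (R : Rk3 D p) (hNP : NP D) {x e d : G} (hx : x ∈ D) (he : e ∈ D) (hd : d ∈ D)
    (hne : x ≠ e) (hxe : Commute x e) (hdx : ¬ Commute d x) (hde : ¬ Commute d e)
    (h4 : (d * (x * e)) ^ 4 = 1) : Quad D := by
  intro a ha b hb hab hc
  obtain ⟨g, rfl, rfl⟩ := R.transC x hx e he a ha b hb hne hab hxe hc
  obtain ⟨v, hv, v', hv', h1, h2, h3, h4, h5, h6, h7, h8⟩ :=
    quad_of_type_four R.toOdd5 hNP hx he hd hne hxe hdx hde h4
  refine ⟨g * v * g⁻¹, R.conj v hv g, g * v' * g⁻¹, R.conj v' hv' g, ?_, ?_,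
    commute_conj_iff.mpr h3, commute_conj_iff.mpr h4, commute_conj_iff.mpr h5,
    commute_conj_iff.mpr h6, commute_conj_iff.mpr h7, ?_⟩
  · intro h; exact h1 (by simpa only [_root_.mul_left_inj, _root_.mul_right_inj] using h)
  · intro h; exact h2 (by simpa only [_root_.mul_left_inj, _root_.mul_right_inj] using h)
  · calc g * v * g⁻¹ * (g * v' * g⁻¹) = g * (v * v') * g⁻¹ := by group
      _ = g * (x * e) * g⁻¹ := by rw [h8]
      _ = _ := by group

variable [Finite G]

theorem ncard_two (R : Rk3 D p) {E E' : Set G} (h : IsClq D ∅ E) (h' : IsClq D ∅ E') :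
    E'.ncard = E.ncard := ncard_clq R.toOdd5 h h'

/-- sizes of cliques of `D ∩ C(x,y)`, `x,y` noncommuting, are all equal. -/
theorem ncard_rel (R : Rk3 D p) {x y x' y' : G} (hx : x ∈ D) (hy : y ∈ D) (hx' : x' ∈ D)
    (hy' : y' ∈ D) (hn : ¬ Commute x y) (hn' : ¬ Commute x' y') {F F' : Set G}
    (hF : IsClq D {x, y} F) (hF' : IsClq D {x', y'} F') : F'.ncard = F.ncard := by
  obtain ⟨g, rfl, rfl⟩ := R.transN x hx y hy x' hx' y' hy' hn hn'
  have h1 := hF.cj R.conj g
  have h2 : cj g {x, y} = {g * x * g⁻¹, g * y * g⁻¹} := by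
    rw [cj_eq_image]
    simp only [Set.image_pair]
  rw [h2] at h1
  rw [ncard_clq R.toOdd5 h1 hF', ncard_cj]

/-- The members of a set commuting with `d`. -/
def cE (E : Set G) (d : G) : Set G := {a | a ∈ E ∧ Commute a d}

/-- Case II : if `m = f₀ + 1` then for commuting `x ≠ e` every `d` commutes with `x` or `e`. -/
theorem case_two (R : Rk3 D p)
    (hm : ∀ x ∈ D, ∀ y ∈ D, ¬ Commute x y → ∀ E F : Set G, IsClq D ∅ E → IsClq D {x, y} F →
      E.ncard = F.ncard + 1)
    {x e d : G} (hx : x ∈ D) (he : e ∈ D) (hd : d ∈ D) (hne : x ≠ e) (hxe : Commute x e) :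
    Commute d x ∨ Commute d e := by
  classical
  by_contra hcon
  rw [not_or] at hcon
  obtain ⟨hdx, hde⟩ := hcon
  have H := R.toOdd5
  -- a clique which loses exactly one member
  obtain ⟨F, hF, -⟩ := exists_clq (D := D) (S := {x, d}) (F := ∅) (Set.empty_subset _)
    (by simp) (by simp)
  have hxF : x ∉ F := fun h => hdx ((hF.cen x h d (by simp)).symm)
  obtain ⟨E₁, hE₁, hsub⟩ := exists_clq (D := D) (S := ∅) (F := insert x F)
    (Set.insert_subset hx hF.sub) (by simp) (by
      intro a ha b hb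
      rcases Set.mem_insert_iff.mp ha with ha' | ha'
      · rcases Set.mem_insert_iff.mp hb with hb' | hb'
        · rw [ha', hb']
        · rw [ha']; exact (hF.cen b hb' x (by simp)).symm
      · rcases Set.mem_insert_iff.mp hb with hb' | hb'
        · rw [hb']; exact (hF.cen a ha' x (by simp))
        · exact hF.comm a ha' b hb')
  have hcard := hm x hx d hd (fun h => hdx h.symm) E₁ F hE₁ hF
  have hE₁eq : insert x F = E₁ := by
    apply Set.eq_of_subset_of_ncard_le hsub _ (Set.toFinite _)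
    rw [Set.ncard_insert_of_notMem hxF (Set.toFinite _), hcard]
  -- F is nonempty
  have hm2 : 2 ≤ E₁.ncard := by
    obtain ⟨E₂, hE₂, hsub2⟩ := exists_clq (D := D) (S := ∅) (F := {x, e})
      (by intro a ha; rcases ha with rfl | rfl <;> assumption) (by simp) (by
        intro a ha b hb
        rcases ha with rfl | rfl <;> rcases hb with rfl | rfl
        · exact Commute.refl _
        · exact hxe
        · exact hxe.symm
        · exact Commute.refl _)
    rw [ncard_two R hE₂ hE₁, ← Set.ncard_pair hne]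
    exact Set.ncard_le_ncard hsub2 (Set.toFinite _)
  have hFne : F.Nonempty := by
    rw [← Set.ncard_pos (Set.toFinite _)]; omega
  obtain ⟨y, hy⟩ := hFne
  have hyx : Commute y x := hF.cen y hy x (by simp)
  have hyd : Commute y d := hF.cen y hy d (by simp)
  have hNP : NP D := np_of R hx (hF.sub hy) hd hyx.symm hyd.symm hdx
  -- no quadruples
  have hnq : ¬ Quad D := by
    intro hq
    have hxy : x ≠ y := fun h => hxF (h ▸ hy)
    obtain ⟨v, hv, v', hv', h1, h2, h3, h4, h5, h6, h7, h8⟩ := hq x hx y (hF.sub hy) hxy hyx.symm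
    have hvv' : v ≠ v' := by
      intro h
      rw [← h, H.sq v hv] at h8
      exact hxy (by rw [← inv_eq_self (H.sq x hx)]; exact inv_eq_of_mul_eq_one_right h8.symm)
    have hcomm : ∀ a ∈ E₁, Commute a v ∧ Commute a v' := by
      intro a ha
      have hax : Commute a x := hE₁.comm a ha x (hsub (Set.mem_insert _ _))
      have hay : Commute a y := hE₁.comm a ha y (hsub (Set.mem_insert_of_mem _ hy))
      have h9 : Commute a (v * v') := by rw [h8]; exact hax.mul_right hay
      exact ⟨H.commute_left_of_commute_mul hv hv' (hE₁.sub ha) hvv' h7 h9,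
        H.commute_right_of_commute_mul hv hv' (hE₁.sub ha) hvv' h7 h9⟩
    have hvE : v ∈ E₁ := hE₁.max v hv (by simp) fun a ha => (hcomm a ha).1.symm
    have hv'E : v' ∈ E₁ := hE₁.max v' hv' (by simp) fun a ha => (hcomm a ha).2.symm
    have hv'x : v' ≠ x := by
      intro h
      apply h2
      rw [h] at h8 h7
      rw [h7.eq] at h8
      exact mul_left_cancel h8
    rw [← hE₁eq] at hvE hv'E
    have hvF : v ∈ F := (Set.mem_insert_iff.mp hvE).resolve_left h1
    have hv'F : v' ∈ F := (Set.mem_insert_iff.mp hv'E).resolve_left hv'x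
    apply hdx
    have hxe' : x = v * v' * y := by rw [h8, mul_assoc, H.sq y (hF.sub hy), mul_one]
    rw [hxe']
    exact ((hF.cen v hvF d (by simp)).symm.mul_right (hF.cen v' hv'F d (by simp)).symm).mul_right
      hyd.symm
  -- hence all triples are of type 2p
  have htyp : ∀ x ∈ D, ∀ e ∈ D, ∀ d ∈ D, x ≠ e → Commute x e → ¬ Commute d x → ¬ Commute d e →
      ∃ y ∈ D, y ≠ x ∧ y ≠ e ∧ Commute y x ∧ Commute y e ∧ ¬ Commute d y ∧
      (∀ v : G, Commute v d → Commute v (x * e) → Commute v y) := by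
    intro x hx e he d hd hne hxe hdx hde
    rcases types H hNP hx he hd hne hxe hdx hde with h | ⟨y, a1, a2, a3, a4, a5, a6, -, a8⟩
    · exact absurd (quad_of R hNP hx he hd hne hxe hdx hde h) hnq
    · exact ⟨y, a1, a2, a3, a4, a5, a6, a8⟩
  -- (II.1)
  have hII1 : ∀ E : Set G, IsClq D ∅ E → ∀ x ∈ E, ∀ e ∈ E, ∀ d ∈ D, x ≠ e → ¬ Commute d x →
      ¬ Commute d e → ¬ (∀ a ∈ E, a ≠ x → a ≠ e → Commute a d) := by
    intro E hE x hx e he d hd hne hdx hde hall
    obtain ⟨y, hyD, hyx, hye, hcyx, hcye, hdy, hv⟩ := htyp x (hE.sub hx) e (hE.sub he) d hd hne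
      (hE.comm x hx e he) hdx hde
    have hyE : y ∈ E := by
      refine hE.max y hyD (by simp) fun a ha => ?_
      by_cases hax : a = x
      · rw [hax]; exact hcyx
      by_cases hae : a = e
      · rw [hae]; exact hcye
      exact (hv a (hall a ha hax hae) ((hE.comm a ha x hx).mul_right (hE.comm a ha e he))).symm
    exact hdy (hall y hyE hyx hye).symm
  -- choose (E, d) with C_E(d) maximal
  obtain ⟨E₂, hE₂, hsub2⟩ := exists_clq (D := D) (S := ∅) (F := {x, e})
    (by intro a ha; rcases ha with rfl | rfl <;> assumption) (by simp) (by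
      intro a ha b hb
      rcases ha with rfl | rfl <;> rcases hb with rfl | rfl
      · exact Commute.refl _
      · exact hxe
      · exact hxe.symm
      · exact Commute.refl _)
  let 𝒮 : Set (Set G × G) := {q | IsClq D ∅ q.1 ∧ q.2 ∈ D ∧ ∃ a ∈ q.1, ∃ b ∈ q.1, a ≠ b ∧
    ¬ Commute q.2 a ∧ ¬ Commute q.2 b}
  have h𝒮 : 𝒮.Nonempty := ⟨(E₂, d), hE₂, hd, x, hsub2 (by simp), e, hsub2 (by simp), hne, hdx, hde⟩
  obtain ⟨⟨E, t⟩, ⟨hE, ht, a, ha, b, hb, hab, hta, htb⟩, hmax⟩ :=
    Set.exists_max_image 𝒮 (fun q => (cE q.1 q.2).ncard) (Set.toFinite _) h𝒮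
  simp only at hE ht ha hb hta htb
  have hmax' : ∀ E' : Set G, ∀ t' ∈ D, IsClq D ∅ E' → (∃ a ∈ E', ∃ b ∈ E', a ≠ b ∧
      ¬ Commute t' a ∧ ¬ Commute t' b) → (cE E' t').ncard ≤ (cE E t).ncard :=
    fun E' t' ht' hE' h => hmax (E', t') ⟨hE', ht', h⟩
  set F' := cE E t with hF'
  have haD := hE.sub ha
  -- extend F' to a relative clique for (a, t)
  obtain ⟨F₂, hF₂, hsubF⟩ := exists_clq (D := D) (S := {a, t}) (F := F')
    (fun u hu => hE.sub hu.1) (by
      intro u hu s hs
      rcases hs with rfl | rfl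
      · exact hE.comm u hu.1 _ ha
      · exact hu.2) (fun u hu v hv => hE.comm u hu.1 v hv.1)
  have hcard2 := hm a haD t ht (fun h => hta h.symm) E F₂ hE hF₂
  -- F' has size at most m - 2
  have hF'card : F'.ncard + 2 ≤ E.ncard := by
    have hd1 : Disjoint F' {a, b} := by
      rw [Set.disjoint_left]
      intro u hu hu'
      rcases hu' with rfl | rfl
      · exact hta hu.2.symm
      · exact htb hu.2.symm
    have h1 : F' ∪ {a, b} ⊆ E := by
      apply Set.union_subset (fun u hu => hu.1)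
      intro u hu; rcases hu with rfl | rfl <;> assumption
    have h2 := Set.ncard_le_ncard h1 (Set.toFinite _)
    rw [Set.ncard_union_eq hd1 (Set.toFinite _) (Set.toFinite _), Set.ncard_pair hab] at h2
    exact h2
  obtain ⟨u, huF₂, huF'⟩ : ∃ u ∈ F₂, u ∉ F' := by
    by_contra hh
    push Not at hh
    have := Set.ncard_le_ncard (show F₂ ⊆ F' from hh) (Set.toFinite _)
    omega
  have huD := hF₂.sub huF₂
  have hua : Commute u a := hF₂.cen u huF₂ a (by simp)
  have hut : Commute u t := hF₂.cen u huF₂ t (by simp)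
  have huE : u ∉ E := fun h => huF' ⟨h, hut⟩
  have huF'c : ∀ v ∈ F', Commute v u := fun v hv => hF₂.comm v (hsubF hv) u huF₂
  -- C_E(u) is bigger
  have hEu : F'.ncard + 1 ≤ (cE E u).ncard := by
    have h1 : insert a F' ⊆ cE E u := by
      refine Set.insert_subset (show a ∈ cE E u from ⟨ha, hua.symm⟩) ?_
      intro v hv; exact ⟨hv.1, huF'c v hv⟩
    have h2 : a ∉ F' := fun h => hta h.2.symm
    have := Set.ncard_le_ncard h1 (Set.toFinite _)
    rwa [Set.ncard_insert_of_notMem h2 (Set.toFinite _)] at this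
  have huniq : ∀ v ∈ E, ∀ w ∈ E, ¬ Commute u v → ¬ Commute u w → v = w := by
    intro v hv w hw h1 h2
    by_contra hvw
    have := hmax' E u huD hE ⟨v, hv, w, hw, hvw, h1, h2⟩
    omega
  obtain ⟨r, hrE, hru⟩ : ∃ r ∈ E, ¬ Commute u r := by
    by_contra hh
    push Not at hh
    exact huE (hE.max u huD (by simp) hh)
  have hrest : ∀ v ∈ E, v ≠ r → Commute u v := by
    intro v hv hvr
    by_contra h
    exact hvr (huniq v hv r hrE h hru)
  have hrF' : r ∉ F' := fun h => hru (huF'c r h).symm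
  -- the new clique
  have hE₃c : ∀ v ∈ insert u (E \ {r}), ∀ w ∈ insert u (E \ {r}), Commute v w := by
    intro v hv w hw
    rcases Set.mem_insert_iff.mp hv with hv' | hv'
    · rcases Set.mem_insert_iff.mp hw with hw' | hw'
      · rw [hv', hw']
      · rw [hv']; exact hrest w hw'.1 (by simpa using hw'.2)
    · rcases Set.mem_insert_iff.mp hw with hw' | hw'
      · rw [hw']; exact (hrest v hv'.1 (by simpa using hv'.2)).symm
      · exact hE.comm v hv'.1 w hw'.1
  have hE₃D : insert u (E \ {r}) ⊆ D := Set.insert_subset huD fun v hv => hE.sub hv.1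
  obtain ⟨E₃, hE₃, hsub3⟩ := exists_clq (D := D) (S := ∅) hE₃D (by simp) hE₃c
  have hE₃card : (insert u (E \ {r})).ncard = E.ncard := by
    rw [Set.ncard_insert_of_notMem (fun h => huE h.1) (Set.toFinite _)]
    exact Set.ncard_sdiff_singleton_add_one hrE (Set.toFinite _)
  have hE₃eq : insert u (E \ {r}) = E₃ := by
    apply Set.eq_of_subset_of_ncard_le hsub3 _ (Set.toFinite _)
    rw [hE₃card, ncard_two R hE hE₃]
  have hF'3 : insert u F' ⊆ cE E₃ t := by
    rw [← hE₃eq]
    refine Set.insert_subset (show u ∈ cE _ t from ⟨Set.mem_insert _ _, hut⟩) ?_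
    intro v hv
    exact ⟨Set.mem_insert_of_mem _ ⟨hv.1, fun h => hrF' (by rw [← Set.mem_singleton_iff.mp h]; exact hv)⟩, hv.2⟩
  have hcard3 : F'.ncard + 1 ≤ (cE E₃ t).ncard := by
    have := Set.ncard_le_ncard hF'3 (Set.toFinite _)
    rwa [Set.ncard_insert_of_notMem huF' (Set.toFinite _)] at this
  have huniq3 : ∀ v ∈ E₃, ∀ w ∈ E₃, ¬ Commute t v → ¬ Commute t w → v = w := by
    intro v hv w hw h1 h2
    by_contra hvw
    have := hmax' E₃ t ht hE₃ ⟨v, hv, w, hw, hvw, h1, h2⟩
    omega
  -- all members of E except two commute with t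
  have hfin : ∀ v ∈ E, ¬ Commute t v → v = r ∨ ∀ w ∈ E, w ≠ r → ¬ Commute t w → w = v := by
    intro v hv htv
    by_cases hvr : v = r
    · exact Or.inl hvr
    · right
      intro w hw hwr htw
      apply huniq3
      · rw [← hE₃eq]; exact Set.mem_insert_of_mem _ ⟨hw, by simpa using hwr⟩
      · rw [← hE₃eq]; exact Set.mem_insert_of_mem _ ⟨hv, by simpa using hvr⟩
      · exact htw
      · exact htv
  refine hII1 E hE a ha b hb t ht hab hta htb ?_
  intro v hv hva hvb
  by_contra hvt
  have hvt' : ¬ Commute t v := fun h => hvt h.symm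
  by_cases har : a = r
  · -- then b ≠ r, v ≠ r
    have hbr : b ≠ r := fun h => hab (har.trans h.symm)
    have hvr : v ≠ r := fun h => hva (h.trans har.symm)
    rcases hfin b hb htb with h | h
    · exact hbr h
    · exact hvb (h v hv hvr hvt')
  · rcases hfin a ha hta with h | h
    · exact har h
    · by_cases hvr : v = r
      · have hbr : b ≠ r := fun h => hvb (hvr.trans h.symm)
        exact hab (h b hb hbr htb).symm
      · exact hva (h v hv hvr hvt')

end Cfsg.Agent.SporadicStructure.RankThreeCaseTwo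
end

-- part: SporadicStructure/RankThreeReduce
section
/-!
# Rank three involution classes: reductions

`D` is a generating conjugacy class of involutions such that the centraliser of each member has
exactly three orbits on `D`.  If two distinct members commute then the group is transitive on
commuting pairs and on noncommuting pairs, the noncommuting pairs have products of one fixed order,
which is `4` or an odd prime `p`; order `4` gives a normal 2-subgroup.
-/

set_option autoImplicit false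

namespace Cfsg.Agent.SporadicStructure.RankThreeReduce

open RankThreeBase

variable {G : Type*} [Group G]

/-- orbit of `y` under the centraliser of `x`. -/
def orb (x y : G) : Set G := {w : G | ∃ g : G, Commute g x ∧ g * y * g⁻¹ = w}

theorem orb_self (x : G) : orb x x = {x} := by
  ext w
  constructor
  · rintro ⟨g, hg, rfl⟩
    rw [Set.mem_singleton_iff, hg.eq, mul_inv_cancel_right]
  · intro h
    rw [Set.mem_singleton_iff] at h
    exact ⟨1, Commute.one_left x, by rw [h]; group⟩

theorem commute_iff_of_mem_orb {x y w : G} (h : w ∈ orb x y) : Commute w x ↔ Commute y x := by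
  obtain ⟨g, hg, rfl⟩ := h
  constructor
  · intro hc
    have h1 : Commute (g⁻¹ * (g * y * g⁻¹) * g) x := (hg.inv_left.mul_left hc).mul_left hg
    have h2 : g⁻¹ * (g * y * g⁻¹) * g = y := by group
    rwa [h2] at h1
  · intro hc
    exact (hg.mul_left hc).mul_left hg.inv_left

theorem mem_orb_of_mem {x y u w : G} (hu : u ∈ orb x y) (hw : w ∈ orb x y) : w ∈ orb x u := by
  obtain ⟨g, hg, rfl⟩ := hu
  obtain ⟨h, hh, rfl⟩ := hw
  exact ⟨h * g⁻¹, hh.mul_left hg.inv_left, by group⟩

/-- The hypotheses of the theorem. -/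
structure Rank (D : Set G) : Prop where
  inv : ∀ d ∈ D, orderOf d = 2
  conj : ∃ d ∈ D, D = conjugatesOf d
  gen : Subgroup.closure D = ⊤
  rank : ∀ x ∈ D, ∃ y ∈ D, ∃ z ∈ D, orb x y ≠ orb x x ∧ orb x z ≠ orb x x ∧ orb x y ≠ orb x z ∧
    D = orb x x ∪ orb x y ∪ orb x z

variable {D : Set G}

namespace Rank

theorem sq (R : Rank D) {x : G} (hx : x ∈ D) : x * x = 1 := by
  have := pow_orderOf_eq_one x
  rwa [R.inv x hx, pow_two] at this

theorem ne_one (R : Rank D) {x : G} (hx : x ∈ D) : x ≠ 1 := by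
  intro h
  have := R.inv x hx
  rw [h, orderOf_one] at this
  omega

theorem inv_self (R : Rank D) {x : G} (hx : x ∈ D) : x⁻¹ = x := inv_eq_self (R.sq hx)

theorem mem_conj (R : Rank D) {x : G} (hx : x ∈ D) (g : G) : g * x * g⁻¹ ∈ D := by
  obtain ⟨d, -, hD⟩ := R.conj
  rw [hD] at hx ⊢
  have hx' : IsConj d x := hx
  exact hx'.trans (isConj_iff.mpr ⟨g, rfl⟩)

theorem exists_conj (R : Rank D) {x y : G} (hx : x ∈ D) (hy : y ∈ D) : ∃ g : G, g * x * g⁻¹ = y := by
  obtain ⟨d, -, hD⟩ := R.conj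
  rw [hD] at hx hy
  have hx' : IsConj d x := hx
  have hy' : IsConj d y := hy
  exact isConj_iff.mp (hx'.symm.trans hy')

/-- an element commuting with all of `D` is central -/
theorem central_of (R : Rank D) {x : G} (h : ∀ d ∈ D, Commute d x) (g : G) : Commute g x := by
  have hle : Subgroup.closure D ≤ Subgroup.centralizer ({x} : Set G) := by
    rw [Subgroup.closure_le]
    intro d hd
    rw [SetLike.mem_coe, Subgroup.mem_centralizer_singleton_iff]
    exact (h d hd).eq
  have hg : g ∈ Subgroup.centralizer ({x} : Set G) := hle (by rw [R.gen]; trivial)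
  rw [Subgroup.mem_centralizer_singleton_iff] at hg
  exact hg

theorem not_central (R : Rank D) {x : G} (hx : x ∈ D) (h : ∀ g : G, Commute g x) : False := by
  obtain ⟨y, hy, z, hz, h1, h2, h3, h4⟩ := R.rank x hx
  obtain ⟨g, hg⟩ := R.exists_conj hx hy
  rw [(h g).eq, mul_inv_cancel_right] at hg
  exact h1 (by rw [hg])

/-- Either distinct members never commute, or the centraliser of `x ∈ D` is transitive on the
members of `D` other than `x` of the same commuting type. -/
theorem trans_stab (R : Rank D) {x₀ y₀ : G} (hx₀ : x₀ ∈ D) (hy₀ : y₀ ∈ D) (hne : x₀ ≠ y₀)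
    (hc : Commute x₀ y₀) {x u w : G} (hx : x ∈ D) (hu : u ∈ D) (hw : w ∈ D) (hux : u ≠ x)
    (hwx : w ≠ x) (huw : Commute u x ↔ Commute w x) : w ∈ orb x u := by
  obtain ⟨y, hy, z, hz, h1, h2, h3, h4⟩ := R.rank x hx
  obtain ⟨g, hg⟩ := R.exists_conj hx₀ hx
  have hmem : ∀ v ∈ D, v ≠ x → v ∈ orb x y ∨ v ∈ orb x z := by
    intro v hv hvx
    have hv' : v ∈ orb x x ∪ orb x y ∪ orb x z := h4 ▸ hv
    rcases hv' with (hv' | hv') | hv'
    · rw [orb_self, Set.mem_singleton_iff] at hv'
      exact absurd hv' hvx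
    · exact Or.inl hv'
    · exact Or.inr hv'
  have hy1 : g * y₀ * g⁻¹ ∈ D := R.mem_conj hy₀ g
  have hy2 : g * y₀ * g⁻¹ ≠ x := by
    intro h
    rw [← hg] at h
    exact hne (mul_left_cancel (mul_right_cancel h)).symm
  have hy3 : Commute (g * y₀ * g⁻¹) x := by
    rw [← hg]
    have := hc.symm.eq
    show g * y₀ * g⁻¹ * (g * x₀ * g⁻¹) = g * x₀ * g⁻¹ * (g * y₀ * g⁻¹)
    calc g * y₀ * g⁻¹ * (g * x₀ * g⁻¹) = g * (y₀ * x₀) * g⁻¹ := by group
      _ = g * (x₀ * y₀) * g⁻¹ := by rw [this]
      _ = g * x₀ * g⁻¹ * (g * y₀ * g⁻¹) := by group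
  have hsome : Commute y x ∨ Commute z x := by
    rcases hmem _ hy1 hy2 with h | h
    · exact Or.inl ((commute_iff_of_mem_orb h).mp hy3)
    · exact Or.inr ((commute_iff_of_mem_orb h).mp hy3)
  have hnot : ¬ (Commute y x ∧ Commute z x) := by
    rintro ⟨ha, hb⟩
    refine R.not_central hx (R.central_of ?_)
    intro d hd
    by_cases hdx : d = x
    · rw [hdx]
    · rcases hmem d hd hdx with h | h
      · exact (commute_iff_of_mem_orb h).mpr ha
      · exact (commute_iff_of_mem_orb h).mpr hb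
  rcases hmem u hu hux with hu' | hu' <;> rcases hmem w hw hwx with hw' | hw'
  · exact mem_orb_of_mem hu' hw'
  · exfalso
    have e1 := commute_iff_of_mem_orb hu'
    have e2 := commute_iff_of_mem_orb hw'
    (clear * - huw hsome hnot e1 e2; tauto)
  · exfalso
    have e1 := commute_iff_of_mem_orb hu'
    have e2 := commute_iff_of_mem_orb hw'
    (clear * - huw hsome hnot e1 e2; tauto)
  · exact mem_orb_of_mem hu' hw'

theorem conj_commute_iff {x y g : G} : Commute (g * x * g⁻¹) (g * y * g⁻¹) ↔ Commute x y := by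
  constructor
  · intro h
    have h1 : g * x * g⁻¹ * (g * y * g⁻¹) = g * y * g⁻¹ * (g * x * g⁻¹) := h
    have h2 : g * (x * y) * g⁻¹ = g * (y * x) * g⁻¹ := by
      calc g * (x * y) * g⁻¹ = g * x * g⁻¹ * (g * y * g⁻¹) := by group
        _ = g * y * g⁻¹ * (g * x * g⁻¹) := h1
        _ = g * (y * x) * g⁻¹ := by group
    exact mul_left_cancel (mul_right_cancel h2)
  · intro h
    show g * x * g⁻¹ * (g * y * g⁻¹) = g * y * g⁻¹ * (g * x * g⁻¹)
    calc g * x * g⁻¹ * (g * y * g⁻¹) = g * (x * y) * g⁻¹ := by group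
      _ = g * (y * x) * g⁻¹ := by rw [h.eq]
      _ = g * y * g⁻¹ * (g * x * g⁻¹) := by group

/-- transitivity on pairs of distinct members of the same commuting type -/
theorem trans_pairs (R : Rank D) {x₀ y₀ : G} (hx₀ : x₀ ∈ D) (hy₀ : y₀ ∈ D) (hne : x₀ ≠ y₀)
    (hc : Commute x₀ y₀) {x y x' y' : G} (hx : x ∈ D) (hy : y ∈ D) (hx' : x' ∈ D) (hy' : y' ∈ D)
    (h : x ≠ y) (h' : x' ≠ y') (hi : Commute x y ↔ Commute x' y') :
    ∃ g : G, g * x * g⁻¹ = x' ∧ g * y * g⁻¹ = y' := by
  obtain ⟨g, hg⟩ := R.exists_conj hx hx'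
  have h1 : g * y * g⁻¹ ≠ x' := by
    intro hh
    rw [← hg] at hh
    exact h (mul_left_cancel (mul_right_cancel hh)).symm
  have h2 : Commute (g * y * g⁻¹) x' ↔ Commute y' x' := by
    rw [← hg, conj_commute_iff, hg]
    constructor
    · intro hh; exact (hi.mp hh.symm).symm
    · intro hh; exact (hi.mpr hh.symm).symm
  obtain ⟨k, hk, hk'⟩ := R.trans_stab hx₀ hy₀ hne hc hx' (R.mem_conj hy g) hy' h1 h'.symm h2
  refine ⟨k * g, ?_, ?_⟩
  · calc k * g * x * (k * g)⁻¹ = k * (g * x * g⁻¹) * k⁻¹ := by group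
      _ = k * x' * k⁻¹ := by rw [hg]
      _ = x' * k * k⁻¹ := by rw [hk.eq]
      _ = x' := by group
  · calc k * g * y * (k * g)⁻¹ = k * (g * y * g⁻¹) * k⁻¹ := by group
      _ = y' := hk'

/-- there are noncommuting members -/
theorem exists_not_commute (R : Rank D) {x : G} (hx : x ∈ D) : ∃ y ∈ D, ¬ Commute y x := by
  by_contra hcon
  push Not at hcon
  exact R.not_central hx (R.central_of hcon)

theorem conj_pow_eq (R : Rank D) {x y : G} (hx : x ∈ D) (hy : y ∈ D) (k : ℕ) :
    (x * y) ^ k * x * ((x * y) ^ k)⁻¹ = (x * y) ^ (2 * k) * x := by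
  have h := conj_pow_inv (R.sq hx) (conj_self (R.sq hx) (R.sq hy)) k
  have h2 : x * ((x * y) ^ k)⁻¹ = (x * y) ^ k * x := by
    rw [← h]
    calc x * (x * (x * y) ^ k * x) = (x * x) * (x * y) ^ k * x := by group
      _ = _ := by rw [R.sq hx, one_mul]
  rw [mul_assoc, h2, ← mul_assoc, ← pow_add]
  congr 2
  ring

/-- The order of a noncommuting product is `4` or an odd prime. -/
theorem order_cases [Finite G] (R : Rank D) {x₀ y₀ : G} (hx₀ : x₀ ∈ D) (hy₀ : y₀ ∈ D)
    (hne : x₀ ≠ y₀) (hc : Commute x₀ y₀) :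
    ∃ n : ℕ, (n = 4 ∨ (n.Prime ∧ n ≠ 2)) ∧ ∀ x ∈ D, ∀ y ∈ D, ¬ Commute x y → orderOf (x * y) = n := by
  obtain ⟨z₀, hz₀, hz₀'⟩ := R.exists_not_commute hx₀
  have hall : ∀ x ∈ D, ∀ y ∈ D, ¬ Commute x y → orderOf (x * y) = orderOf (z₀ * x₀) := by
    intro x hx y hy hxy
    have h1 : x ≠ y := fun h => hxy (h ▸ Commute.refl x)
    have h2 : z₀ ≠ x₀ := fun h => hz₀' (h ▸ Commute.refl _)
    obtain ⟨g, hg1, hg2⟩ := R.trans_pairs hx₀ hy₀ hne hc hz₀ hx₀ hx hy h2 h1
      ⟨fun h => absurd h hz₀', fun h => absurd h hxy⟩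
    have h3 : x * y = g * (z₀ * x₀) * g⁻¹ := by
      rw [← hg1, ← hg2]; group
    rw [h3]
    refine (SemiconjBy.orderOf_eq g ?_).symm
    show g * (z₀ * x₀) = g * (z₀ * x₀) * g⁻¹ * g
    group
  refine ⟨orderOf (z₀ * x₀), ?_, hall⟩
  set r := z₀ * x₀ with hr
  set n := orderOf r with hn
  have hnpos : 0 < n := orderOf_pos r
  have hr2 : r * r ≠ 1 := fun h => hz₀' ((commute_iff (R.sq hz₀) (R.sq hx₀)).mpr h)
  have hkey : ∀ k : ℕ, (r ^ (2 * k)) ^ 2 = 1 ∨ orderOf (r ^ (2 * k)) = n := by
    intro k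
    have h1 : r ^ k * z₀ * (r ^ k)⁻¹ ∈ D := R.mem_conj hz₀ _
    have h2 : r ^ (2 * k) = (r ^ k * z₀ * (r ^ k)⁻¹) * z₀ := by
      rw [hr, R.conj_pow_eq hz₀ hx₀ k, mul_assoc, R.sq hz₀, mul_one]
    by_cases hcm : Commute (r ^ k * z₀ * (r ^ k)⁻¹) z₀
    · left
      rw [h2, pow_two]
      exact (commute_iff (R.sq h1) (R.sq hz₀)).mp hcm
    · right
      rw [h2]
      exact hall _ h1 _ hz₀ hcm
  have hn1 : n ≠ 1 := by
    intro h
    have := orderOf_eq_one_iff.mp h
    exact hr2 (by rw [this, one_mul])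
  have hn2 : n ≠ 2 := by
    intro h
    have := pow_orderOf_eq_one r
    rw [← hn, h, pow_two] at this
    exact hr2 this
  rcases Nat.even_or_odd n with he | ho
  · left
    obtain ⟨m, hm⟩ := he
    have h1 : orderOf (r ^ (2 * 1)) = m := by
      rw [mul_one, orderOf_pow, ← hn, hm]
      have : Nat.gcd (m + m) 2 = 2 := Nat.gcd_eq_right ⟨m, by ring⟩
      rw [this]; omega
    rcases hkey 1 with h | h
    · have h4 : r ^ 4 = 1 := by rw [← pow_mul] at h; exact h
      have h5 : n ∣ 4 := orderOf_dvd_of_pow_eq_one h4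
      have h6 : n ≤ 4 := Nat.le_of_dvd (by norm_num) h5
      interval_cases n <;> omega
    · omega
  · right
    refine ⟨?_, hn2⟩
    obtain ⟨p, hp, m, hm⟩ := Nat.exists_prime_and_dvd hn1
    have hpodd : p ≠ 2 := by
      intro h
      rw [h] at hm
      rw [hm] at ho
      exact (Nat.not_even_iff_odd.mpr ho) (even_two_mul m)
    have hmpos : 0 < m := by
      rcases Nat.eq_zero_or_pos m with h | h
      · rw [h, mul_zero] at hm; omega
      · exact h
    have h1 : orderOf (r ^ (2 * m)) = p := by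
      rw [orderOf_pow, ← hn, hm]
      have : Nat.gcd (p * m) (2 * m) = m := by
        rw [Nat.gcd_mul_right, (Nat.coprime_primes hp Nat.prime_two).mpr hpodd, one_mul]
      rw [this, Nat.mul_div_cancel _ hmpos]
    rcases hkey m with h | h
    · exfalso
      have h2 : p ∣ 2 := h1 ▸ orderOf_dvd_of_pow_eq_one h
      exact hpodd ((Nat.prime_dvd_prime_iff_eq hp Nat.prime_two).mp h2)
    · rw [← h, h1]; exact hp

/-- Order 4 is impossible. -/
theorem not_four [Finite G] (R : Rank D) (no2 : ∀ N : Subgroup G, N.Normal → IsPGroup 2 N → N = ⊥)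
    (h4 : ∀ x ∈ D, ∀ y ∈ D, ¬ Commute x y → orderOf (x * y) = 4) : False := by
  obtain ⟨x, hx, -⟩ := R.conj
  obtain ⟨h, hh1, hhodd, hinv⟩ := Cfsg.Agent.S0200.result x (R.inv x hx) (by
    intro N hN hN2 hxN
    rw [no2 N hN hN2, Subgroup.mem_bot] at hxN
    exact R.ne_one hx hxN)
  obtain ⟨m, hm⟩ := hhodd
  -- `g = h ^ (m+1)` satisfies `g ^ 2 = h`
  have hg : h ^ (m + 1) * h ^ (m + 1) = h := by
    rw [← pow_add]
    have : m + 1 + (m + 1) = orderOf h + 1 := by omega
    rw [this, pow_succ, pow_orderOf_eq_one, one_mul]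
  have hginv : x * h ^ (m + 1) * x⁻¹ = (h ^ (m + 1))⁻¹ := by
    rw [← conj_pow, hinv, inv_pow]
  have h1 : h ^ (m + 1) * x * (h ^ (m + 1))⁻¹ ∈ D := R.mem_conj hx _
  have h2 : (h ^ (m + 1) * x * (h ^ (m + 1))⁻¹) * x = h := by
    rw [← hginv]
    calc h ^ (m + 1) * x * (x * h ^ (m + 1) * x⁻¹) * x
        = h ^ (m + 1) * (x * x) * h ^ (m + 1) := by group
      _ = h := by rw [R.sq hx, mul_one, hg]
  by_cases hc : Commute (h ^ (m + 1) * x * (h ^ (m + 1))⁻¹) x
  · have h3 := (commute_iff (R.sq h1) (R.sq hx)).mp hc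
    rw [h2] at h3
    have h4 : orderOf h ∣ 2 := orderOf_dvd_of_pow_eq_one (by rw [pow_two]; exact h3)
    have h5 : orderOf h ≤ 2 := Nat.le_of_dvd (by norm_num) h4
    have h6 : orderOf h = 1 := by omega
    exact hh1 (orderOf_eq_one_iff.mp h6)
  · have h3 := h4 _ h1 _ hx hc
    rw [h2] at h3
    omega

/-- The case of primes at least 5, from the main theorem on rank three classes. -/
theorem not_ge_five (R : Rank D) {x₀ y₀ : G} (hx₀ : x₀ ∈ D) (hy₀ : y₀ ∈ D)
    (hne : x₀ ≠ y₀) (hc : Commute x₀ y₀)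
    (hmain : ∀ x ∈ D, ∀ e ∈ D, ∀ d ∈ D, x ≠ e → Commute x e → Commute d x ∨ Commute d e) :
    False := by
  -- `K` is generated by `x₀` and everything in `D` not commuting with `x₀`.
  set S : Set G := {d | d ∈ D ∧ (d = x₀ ∨ ¬ Commute d x₀)} with hS
  set K : Subgroup G := Subgroup.closure S with hK
  -- members of `D` commuting with `x₀`, other than `x₀`, centralise `K`
  have hcent : ∀ b ∈ D, b ≠ x₀ → Commute x₀ b → ∀ k ∈ K, Commute k b := by
    intro b hb hbx hxb k hk
    have hle : K ≤ Subgroup.centralizer ({b} : Set G) := by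
      rw [hK, Subgroup.closure_le]
      rintro d ⟨hd, hd'⟩
      rw [SetLike.mem_coe, Subgroup.mem_centralizer_singleton_iff]
      rcases hd' with rfl | hd'
      · exact hxb.eq
      · rcases hmain x₀ hx₀ b hb d hd hbx.symm hxb with h | h
        · exact absurd h hd'
        · exact h.eq
    have := hle hk
    rw [Subgroup.mem_centralizer_singleton_iff] at this
    exact this
  have hnorm : K.Normal := by
    have htop : (⊤ : Subgroup G) ≤ Subgroup.normalizer (K : Set G) := by
      rw [← R.gen, Subgroup.closure_le]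
      intro d hd
      by_cases hdS : d ∈ S
      · exact Subgroup.le_normalizer (Subgroup.subset_closure hdS)
      · have hdx : d ≠ x₀ := fun h => hdS ⟨hd, Or.inl h⟩
        have hdc : Commute d x₀ := by
          by_contra h
          exact hdS ⟨hd, Or.inr h⟩
        rw [SetLike.mem_coe, Subgroup.mem_normalizer_iff]
        intro k
        constructor
        · intro hk
          have h1 := hcent d hd hdx hdc.symm k hk
          rw [h1.symm.eq, mul_inv_cancel_right]
          exact hk
        · intro hk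
          have h1 := hcent d hd hdx hdc.symm _ hk
          have h2 : d⁻¹ * (d * k * d⁻¹) * d = d * k * d⁻¹ := by
            rw [mul_assoc, h1.eq, inv_mul_cancel_left]
          have h3 : d⁻¹ * (d * k * d⁻¹) * d = k := by group
          rw [← h3, h2]
          exact hk
    exact Subgroup.normalizer_eq_top_iff.mp (top_le_iff.mp htop)
  have hDK : D ⊆ K := by
    intro d hd
    obtain ⟨g, hg⟩ := R.exists_conj hx₀ hd
    rw [← hg]
    exact hnorm.conj_mem x₀ (Subgroup.subset_closure ⟨hx₀, Or.inl rfl⟩) g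
  refine R.not_central hy₀ (R.central_of ?_)
  intro d hd
  exact hcent y₀ hy₀ hne.symm hc d (hDK hd)

end Rank

end Cfsg.Agent.SporadicStructure.RankThreeReduce
end

-- part: SporadicStructure/RankThreeIsolated
section
/-!
# Rank three involution classes: the case without commuting pairs

If distinct members of `D` never commute, then products of two members have odd order, and by
Glauberman's Z*-theorem the group has a normal subgroup of odd order containing all `[x, g]`,
`x ∈ D`.
-/

set_option autoImplicit false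

namespace Cfsg.Agent.SporadicStructure.RankThreeIsolated

open RankThreeBase RankThreeReduce

variable {G : Type*} [Group G] {D : Set G}

theorem odd_products [Finite G] (R : Rank D) (hI : ∀ x ∈ D, ∀ y ∈ D, Commute x y → x = y)
    {x y : G} (hx : x ∈ D) (hy : y ∈ D) : Odd (orderOf (x * y)) := by
  rw [← Nat.not_even_iff_odd]
  rintro ⟨m, hm⟩
  have hmpos : 0 < m := by
    have := orderOf_pos (x * y)
    omega
  -- `j = (x y)^m` is an involution commuting with `x`, and `x j ∈ D`.
  have hj2 : (x * y) ^ m * (x * y) ^ m = 1 := by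
    rw [← pow_add, ← hm, pow_orderOf_eq_one]
  have hj1 : (x * y) ^ m ≠ 1 := by
    intro h
    have := orderOf_dvd_of_pow_eq_one h
    have := Nat.le_of_dvd hmpos this
    omega
  have hjinv : ((x * y) ^ m)⁻¹ = (x * y) ^ m := inv_eq_self hj2
  have hjx : x * (x * y) ^ m * x = (x * y) ^ m := by
    rw [conj_pow_inv (R.sq hx) (conj_self (R.sq hx) (R.sq hy)) m, hjinv]
  have hcomm : x * (x * y) ^ m = (x * y) ^ m * x := by
    calc x * (x * y) ^ m = x * (x * y) ^ m * x * x := by
          rw [mul_assoc (x * (x * y) ^ m) x x, R.sq hx, mul_one]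
      _ = _ := by rw [hjx]
  have hmem : (x * y) ^ m * x ∈ D := by
    rcases Nat.even_or_odd m with ⟨k, hk⟩ | ⟨k, hk⟩
    · have h1 := R.conj_pow_eq hx hy k
      have h2 : 2 * k = m := by omega
      rw [h2] at h1
      rw [← h1]
      exact R.mem_conj hx _
    · -- `(x y)^m x = (x y)^(2k) (x y x)`, a conjugate of `x y x`
      have h1 := R.conj_pow_eq hx hy k
      have h2 : (x * y) ^ m * x = (x * y) ^ k * (x * y * x⁻¹) * ((x * y) ^ k)⁻¹ := by
        have h3 : (x * y) ^ k * (x * y * x⁻¹) * ((x * y) ^ k)⁻¹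
            = (x * y) * ((x * y) ^ k * x * ((x * y) ^ k)⁻¹) := by
          rw [R.inv_self hx]
          have h4 : (x * y) ^ k * (x * y) = (x * y) * (x * y) ^ k := by
            rw [← pow_succ, pow_succ']
          calc (x * y) ^ k * (x * y * x) * ((x * y) ^ k)⁻¹
              = ((x * y) ^ k * (x * y)) * x * ((x * y) ^ k)⁻¹ := by group
            _ = ((x * y) * (x * y) ^ k) * x * ((x * y) ^ k)⁻¹ := by rw [h4]
            _ = _ := by group
        rw [h3, h1, ← mul_assoc, ← pow_succ', hk]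
      rw [h2]
      exact R.mem_conj (R.mem_conj hy x) _
  have hc : Commute x ((x * y) ^ m * x) := by
    show x * ((x * y) ^ m * x) = (x * y) ^ m * x * x
    rw [← mul_assoc, hcomm]
  have h := hI x hx _ hmem hc
  exact hj1 (mul_right_cancel (b := x) (by rw [one_mul, ← h]))

/-- Members of `D` are isolated involutions. -/
theorem isolated [Finite G] (R : Rank D) (hI : ∀ x ∈ D, ∀ y ∈ D, Commute x y → x = y)
    {x : G} (hx : x ∈ D) :
    ∃ N : Subgroup G, N.Normal ∧ Odd (Nat.card N) ∧ ∀ g : G, (x * g * x⁻¹ * g⁻¹) ∈ N := by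
  have fact2 : Fact (Nat.Prime 2) := ⟨Nat.prime_two⟩
  have hxp : IsPGroup 2 (Subgroup.zpowers x) := by
    rw [IsPGroup.iff_card]
    exact ⟨1, by rw [Nat.card_zpowers, R.inv x hx, pow_one]⟩
  obtain ⟨P, hP⟩ := hxp.exists_le_sylow
  have hxP : x ∈ P := hP (Subgroup.mem_zpowers x)
  refine Cfsg.Agent.S0215.result P x (R.inv x hx) hxP ?_
  intro g hg
  have hD := R.mem_conj hx g
  have hodd := odd_products R hI hx hD
  have hxy : x * (g * x * g⁻¹) ∈ P := mul_mem hxP hg
  obtain ⟨k, hk⟩ := P.isPGroup' ⟨_, hxy⟩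
  have hk' : (x * (g * x * g⁻¹)) ^ 2 ^ k = 1 := by
    have := congrArg Subtype.val hk
    simpa only [_root_.SubmonoidClass.mk_pow, _root_.OneMemClass.coe_one] using this
  have h1 : orderOf (x * (g * x * g⁻¹)) ∣ 2 ^ k := orderOf_dvd_of_pow_eq_one hk'
  have h2 : Nat.Coprime (orderOf (x * (g * x * g⁻¹))) (2 ^ k) :=
    Nat.Coprime.pow_right _ (Nat.coprime_two_right.mpr hodd)
  have h3 : orderOf (x * (g * x * g⁻¹)) = 1 := Nat.eq_one_of_dvd_coprimes h2 dvd_rfl h1
  have h4 := orderOf_eq_one_iff.mp h3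
  exact (inv_eq_of_mul_eq_one_right h4).symm.trans (R.inv_self hx)

end Cfsg.Agent.SporadicStructure.RankThreeIsolated
end

-- part: SporadicStructure/RankThreeMain
section
/-!
# Rank three classes of involutions with products of order 2, p, `p ≥ 5`
-/

set_option autoImplicit false

namespace Cfsg.Agent.SporadicStructure.RankThreeMain

open Cfsg.Agent.SporadicStructure.RankThreeBase Cfsg.Agent.SporadicStructure.RankThreeClq
  Cfsg.Agent.SporadicStructure.RankThreeTypes Cfsg.Agent.SporadicStructure.RankThreeCaseTwo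

variable {G : Type*} [Group G] {D : Set G} {p : ℕ}

/-- The members of `D` outside `F` commuting with `F`. -/
def DF (D F : Set G) : Set G := {u | u ∈ D ∧ u ∉ F ∧ ∀ a ∈ F, Commute u a}

/-- The cliques containing `F`. -/
def Om (D F : Set G) : Set (Set G) := {E | IsClq D ∅ E ∧ F ⊆ E}

/-- The data of case I: `F` is a maximal commuting subset of `D ∩ C(x₀,d₀)`. -/
structure Cs (D : Set G) (p : ℕ) (F : Set G) (x₀ d₀ : G) : Prop extends Rk3 D p where
  hx₀ : x₀ ∈ D
  hd₀ : d₀ ∈ D
  hn₀ : ¬ Commute x₀ d₀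
  hF : IsClq D {x₀, d₀} F
  two : ∀ E : Set G, IsClq D ∅ E → F.ncard + 2 ≤ E.ncard

namespace Cs

variable {F : Set G} {x₀ d₀ : G}

theorem clq_sub_DF {E : Set G} (hE : E ∈ Om D F) {u : G} (hu : u ∈ E) (huF : u ∉ F) :
    u ∈ DF D F :=
  ⟨hE.1.sub hu, huF, fun a ha => hE.1.comm u hu a (hE.2 ha)⟩

variable [Finite G] (C : Cs D p F x₀ d₀)
include C

theorem mem_of_commute {u e : G} {E : Set G} (hu : u ∈ DF D F) (hE : E ∈ Om D F) (he : e ∈ E)
    (heF : e ∉ F) (h : Commute u e) : u ∈ E := by
  by_contra huE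
  obtain ⟨x, hx, hux⟩ : ∃ x ∈ E, ¬ Commute u x := by
    by_contra hh
    push Not at hh
    exact huE (hE.1.max u hu.1 (by simp) hh)
  obtain ⟨F₂, hF₂, hsub⟩ := exists_clq (D := D) (S := {x, u}) (F := cE E u)
    (fun a ha => hE.1.sub ha.1) (by
      intro a ha s hs
      rcases hs with rfl | rfl
      · exact hE.1.comm a ha.1 _ hx
      · exact ha.2) (fun a ha b hb => hE.1.comm a ha.1 b hb.1)
  have hcard := ncard_rel C.toRk3 C.hx₀ C.hd₀ (hE.1.sub hx) hu.1 C.hn₀ (fun h => hux h.symm) C.hF hF₂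
  have h1 : insert e F ⊆ cE E u := by
    refine Set.insert_subset (show e ∈ cE E u from ⟨he, h.symm⟩) ?_
    intro a ha
    exact ⟨hE.2 ha, (hu.2.2 a ha).symm⟩
  have h2 := Set.ncard_le_ncard (h1.trans hsub) (Set.toFinite _)
  rw [Set.ncard_insert_of_notMem heF (Set.toFinite _)] at h2
  omega

theorem exists_om {u : G} (hu : u ∈ DF D F) : ∃ E ∈ Om D F, u ∈ E := by
  obtain ⟨E, hE, hsub⟩ := exists_clq (D := D) (S := ∅) (F := insert u F)
    (Set.insert_subset hu.1 C.hF.sub) (by simp) (by
      intro a ha b hb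
      rcases Set.mem_insert_iff.mp ha with ha' | ha'
      · rcases Set.mem_insert_iff.mp hb with hb' | hb'
        · rw [ha', hb']
        · rw [ha']; exact hu.2.2 b hb'
      · rcases Set.mem_insert_iff.mp hb with hb' | hb'
        · rw [hb']; exact (hu.2.2 a ha').symm
        · exact C.hF.comm a ha' b hb')
  exact ⟨E, ⟨hE, (Set.subset_insert _ _).trans hsub⟩, hsub (Set.mem_insert _ _)⟩

theorem om_unique {u : G} {E E' : Set G} (hu : u ∉ F) (hE : E ∈ Om D F) (hE' : E' ∈ Om D F)
    (h : u ∈ E) (h' : u ∈ E') : E = E' := by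
  have key : ∀ E E' : Set G, E ∈ Om D F → E' ∈ Om D F → u ∈ E → u ∈ E' → E' ⊆ E := by
    intro E E' hE hE' h h' v hv
    by_cases hvF : v ∈ F
    · exact hE.2 hvF
    · exact C.mem_of_commute (clq_sub_DF hE' hv hvF) hE h hu (hE'.1.comm v hv u h')
  exact Set.Subset.antisymm (key E' E hE' hE h' h) (key E E' hE hE' h h')

theorem exists_not_mem {E : Set G} (hE : E ∈ Om D F) : ∃ x ∈ E, x ∉ F := by
  by_contra hh
  push Not at hh
  have := Set.ncard_le_ncard (show E ⊆ F from hh) (Set.toFinite _)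
  have := C.two E hE.1
  omega

theorem exists_two {E : Set G} (hE : E ∈ Om D F) : ∃ x ∈ E, x ∉ F ∧ ∃ e ∈ E, e ∉ F ∧ x ≠ e := by
  obtain ⟨x, hx, hxF⟩ := C.exists_not_mem hE
  by_contra hh
  push Not at hh
  have h1 : E ⊆ insert x F := by
    intro e he
    by_cases heF : e ∈ F
    · exact Set.mem_insert_of_mem _ heF
    · rw [← hh x hx hxF e he heF]; exact Set.mem_insert _ _
  have h2 := Set.ncard_le_ncard h1 (Set.toFinite _)
  rw [Set.ncard_insert_of_notMem hxF (Set.toFinite _)] at h2
  have := C.two E hE.1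
  omega

theorem not_commute {x x' : G} {E E' : Set G} (hE : E ∈ Om D F) (hE' : E' ∈ Om D F) (hne : E ≠ E')
    (hx : x ∈ E) (hxF : x ∉ F) (hx' : x' ∈ E') (hxF' : x' ∉ F) : ¬ Commute x x' := by
  intro h
  exact hne (C.om_unique hxF hE hE' hx (C.mem_of_commute (clq_sub_DF hE hx hxF) hE' hx' hxF' h))

theorem cj_mem {d : G} (hd : d ∈ DF D F) {E : Set G} (hE : E ∈ Om D F) : cj d E ∈ Om D F := by
  constructor
  · have := hE.1.cj C.conj d
    have h2 : cj d (∅ : Set G) = ∅ := by ext y; simp [mem_cj]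
    rwa [h2] at this
  · intro a ha
    rw [mem_cj]
    have := (hd.2.2 a ha).eq
    have h2 : d⁻¹ * a * d = a := by rw [mul_assoc, ← this]; group
    rw [h2]; exact hE.2 ha

theorem mem_of_cj_eq {d : G} (hd : d ∈ DF D F) {E : Set G} (hE : E ∈ Om D F) (h : cj d E = E) :
    d ∈ E := by
  obtain ⟨x, hx, hxF⟩ := C.exists_not_mem hE
  have h1 : d * x * d ∈ E := by
    have : d * x * d⁻¹ ∈ cj d E := conj_mem_cj.mpr hx
    rwa [h, inv_eq_self (C.sq d hd.1)] at this
  have h2 := hE.1.comm x hx _ h1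
  exact C.mem_of_commute hd hE hx hxF
    (C.commute_of_commute_conj (hE.1.sub hx) hd.1 h2).symm

theorem cj_eq_of_mem {d : G} {E : Set G} (hE : E ∈ Om D F) (h : d ∈ E) : cj d E = E :=
  cj_of_commute fun a ha => hE.1.comm d h a ha

theorem isClq_pair {x d : G} (hx : x ∈ DF D F) (hd : d ∈ DF D F) (hn : ¬ Commute x d) :
    IsClq D {x, d} F := by
  refine ⟨C.hF.sub, ?_, C.hF.comm, ?_⟩
  · intro a ha s hs
    rcases hs with rfl | rfl
    · exact (hx.2.2 a ha).symm
    · exact (hd.2.2 a ha).symm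
  · intro u hu hus hua
    by_contra huF
    have huDF : u ∈ DF D F := ⟨hu, huF, hua⟩
    obtain ⟨E, hE, hxE⟩ := C.exists_om hx
    obtain ⟨E', hE', hdE'⟩ := C.exists_om hd
    have h1 := C.mem_of_commute huDF hE hxE hx.2.1 (hus x (by simp))
    have h2 := C.mem_of_commute huDF hE' hdE' hd.2.1 (hus d (by simp))
    have h3 := C.om_unique huF hE hE' h1 h2
    exact hn (hE.1.comm x hxE d (h3 ▸ hdE'))

/-- `N_G(F)` is transitive on noncommuting pairs of `DF`. -/
theorem trans_pairs {x d x' d' : G} (hx : x ∈ DF D F) (hd : d ∈ DF D F) (hn : ¬ Commute x d)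
    (hx' : x' ∈ DF D F) (hd' : d' ∈ DF D F) (hn' : ¬ Commute x' d') :
    ∃ g : G, g * x * g⁻¹ = x' ∧ g * d * g⁻¹ = d' ∧ cj g F = F := by
  obtain ⟨g, hg1, hg2⟩ := C.transN x hx.1 d hd.1 x' hx'.1 d' hd'.1 hn hn'
  have h1 := (C.isClq_pair hx hd hn).cj C.conj g
  have h2 : cj g {x, d} = {x', d'} := by
    rw [cj_eq_image]
    simp only [Set.image_pair, hg1, hg2]
  rw [h2] at h1
  obtain ⟨h, hh, hF⟩ := clq_conj C.toOdd5 h1 (C.isClq_pair hx' hd' hn')
  refine ⟨h * g, ?_, ?_, ?_⟩
  · have h3 := (hh x' (by simp)).eq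
    calc h * g * x * (h * g)⁻¹ = h * (g * x * g⁻¹) * h⁻¹ := by group
      _ = h * x' * h⁻¹ := by rw [hg1]
      _ = x' := by rw [h3]; group
  · have h3 := (hh d' (by simp)).eq
    calc h * g * d * (h * g)⁻¹ = h * (g * d * g⁻¹) * h⁻¹ := by group
      _ = h * d' * h⁻¹ := by rw [hg2]
      _ = d' := by rw [h3]; group
  · rw [cj_mul]; exact hF.symm

theorem om_cj {g : G} (hg : cj g F = F) {E : Set G} (hE : E ∈ Om D F) : cj g E ∈ Om D F := by
  constructor
  · have := hE.1.cj C.conj g
    have h2 : cj g (∅ : Set G) = ∅ := by ext y; simp [mem_cj]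
    rwa [h2] at this
  · rw [← hg]
    intro a ha
    exact hE.2 ha

theorem ncard_diff {E : Set G} (hE : E ∈ Om D F) {E' : Set G} (hE' : E' ∈ Om D F) :
    (E' \ F).ncard = (E \ F).ncard := by
  rw [Set.ncard_sdiff hE.2 (Set.toFinite _), Set.ncard_sdiff hE'.2 (Set.toFinite _),
    ncard_two C.toRk3 hE.1 hE'.1]

/-- the map `d ↦ d e d` is injective on elements moving `E`. -/
theorem inj_on {E : Set G} (hE : E ∈ Om D F) {e : G} (he : e ∈ E) (heF : e ∉ F) {w w' : G}
    (hw : w ∈ DF D F) (hw' : w' ∈ DF D F) (h1 : w ∉ E) (h2 : w' ∉ E)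
    (h : w * e * w = w' * e * w') : w = w' := by
  apply C.mid_unique (hE.1.sub he) hw.1 hw'.1 _ _ h
  · intro hc; exact h1 (C.mem_of_commute hw hE he heF hc)
  · intro hc; exact h2 (C.mem_of_commute hw' hE he heF hc)

/-- (I.1) -/
theorem cj_ne {x d : G} (hx : x ∈ DF D F) (hd : d ∈ DF D F) (hn : ¬ Commute x d) {E : Set G}
    (hE : E ∈ Om D F) : cj x E ≠ cj d E := by
  classical
  intro heq
  -- all noncommuting pairs have this property
  have hall : ∀ x' ∈ DF D F, ∀ d' ∈ DF D F, ¬ Commute x' d' → ∃ E' ∈ Om D F, cj x' E' = cj d' E' := by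
    intro x' hx' d' hd' hn'
    obtain ⟨g, rfl, rfl, hg⟩ := C.trans_pairs hx hd hn hx' hd' hn'
    refine ⟨cj g E, C.om_cj hg hE, ?_⟩
    rw [← cj_mul, ← cj_mul]
    have h1 : g * x * g⁻¹ * g = g * x := by group
    have h2 : g * d * g⁻¹ * g = g * d := by group
    rw [h1, h2, cj_mul, cj_mul, heq]
  -- finite sets
  have := Fintype.ofFinite G
  have : Fintype (Set G) := Fintype.ofFinite _
  let Ω : Finset (Set G) := Finset.univ.filter fun E' => E' ∈ Om D F ∧ x ∉ E'
  let B : Finset G := Finset.univ.filter fun u => u ∈ DF D F ∧ ¬ Commute x u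
  let T : Set G → Finset G := fun E' => Finset.univ.filter fun u =>
    u ∈ DF D F ∧ u ≠ x ∧ cj u E' = cj x E'
  let P : Set G → Finset G := fun E' => Finset.univ.filter fun u => u ∈ E' \ F
  obtain ⟨E₀, hE₀, hxE₀⟩ := C.exists_om hx
  set r := (E₀ \ F).ncard with hr
  have hPcard : ∀ E' ∈ Om D F, (P E').card = r := by
    intro E' hE'
    rw [hr, ← C.ncard_diff hE₀ hE', Set.ncard_eq_toFinset_card' (E' \ F)]
    congr 1
    ext u; simp [P]
  have hrpos : 0 < r := by
    rw [hr, Set.ncard_pos (Set.toFinite _)]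
    exact ⟨x, hxE₀, hx.2.1⟩
  -- lower bound
  have hdisj : ∀ E₁ ∈ Ω, ∀ E₂ ∈ Ω, E₁ ≠ E₂ → Disjoint (P E₁) (P E₂) := by
    intro E₁ h1 E₂ h2 hne
    rw [Finset.disjoint_left]
    intro u hu1 hu2
    simp only [P, Finset.mem_filter, Finset.mem_univ, true_and] at hu1 hu2
    simp only [Ω, Finset.mem_filter, Finset.mem_univ, true_and] at h1 h2
    exact hne (C.om_unique hu1.2 h1.1 h2.1 hu1.1 hu2.1)
  have hlow : Ω.card * r ≤ B.card := by
    have h1 : (Ω.biUnion P) ⊆ B := by
      intro u hu
      rw [Finset.mem_biUnion] at hu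
      obtain ⟨E', hE', hu'⟩ := hu
      simp only [P, Finset.mem_filter, Finset.mem_univ, true_and] at hu'
      simp only [Ω, Finset.mem_filter, Finset.mem_univ, true_and] at hE'
      simp only [B, Finset.mem_filter, Finset.mem_univ, true_and]
      refine ⟨clq_sub_DF hE'.1 hu'.1 hu'.2, ?_⟩
      intro hc
      exact hE'.2 (C.mem_of_commute hx hE'.1 hu'.1 hu'.2 hc)
    have h2 := Finset.card_le_card h1
    rw [Finset.card_biUnion hdisj] at h2
    have h3 : ∑ E' ∈ Ω, (P E').card = Ω.card * r := by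
      rw [Finset.sum_congr rfl (fun E' hE' => hPcard E' ?_), Finset.sum_const, smul_eq_mul]
      simp only [Ω, Finset.mem_filter, Finset.mem_univ, true_and] at hE'
      exact hE'.1
    rwa [h3] at h2
  -- upper bound
  have hT : ∀ E' ∈ Ω, (T E').card + 1 ≤ r := by
    intro E' hE'
    simp only [Ω, Finset.mem_filter, Finset.mem_univ, true_and] at hE'
    obtain ⟨e, he, heF⟩ := C.exists_not_mem hE'.1
    have hmem : cj x E' ∈ Om D F := C.cj_mem hx hE'.1
    rw [← hPcard _ hmem]
    have hxT : x ∉ T E' := by simp [T]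
    rw [← Finset.card_insert_of_notMem hxT]
    have hins : ∀ u ∈ insert x (T E'), u ∈ DF D F ∧ cj u E' = cj x E' := by
      intro u hu
      rcases Finset.mem_insert.mp hu with rfl | hu
      · exact ⟨hx, rfl⟩
      · simp only [T, Finset.mem_filter, Finset.mem_univ, true_and] at hu
        exact ⟨hu.1, hu.2.2⟩
    have hnE : ∀ u ∈ insert x (T E'), u ∉ E' := by
      intro u hu huE
      have h1 := (hins u hu).2
      rw [C.cj_eq_of_mem hE'.1 huE] at h1
      exact hE'.2 (C.mem_of_cj_eq hx hE'.1 h1.symm)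
    apply Finset.card_le_card_of_injOn (fun u => u * e * u)
    · intro u hu
      have hu' : u ∈ insert x (T E') := hu
      obtain ⟨h1, h2⟩ := hins u hu'
      have h3 : u * e * u ∈ cj x E' := by
        rw [← h2]
        have : u * e * u⁻¹ ∈ cj u E' := conj_mem_cj.mpr he
        rwa [inv_eq_self (C.sq u h1.1)] at this
      have h4 : u * e * u ∉ F := by
        intro h5
        apply heF
        have h6 := (h1.2.2 _ h5).eq
        have h7 : u * e * u = e := by
          calc u * e * u = (u * e * u) * (u * u) := by rw [C.sq u h1.1, mul_one]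
            _ = (u * e * u) * u * u := by group
            _ = u * (u * e * u) * u := by rw [h6]
            _ = (u * u) * e * (u * u) := by group
            _ = e := by rw [C.sq u h1.1]; group
        rwa [h7] at h5
      simp only [P, Finset.coe_filter, Finset.mem_univ, true_and]
      exact ⟨h3, h4⟩
    · intro u hu u' hu' h
      exact C.inj_on hE'.1 he heF (hins u hu).1 (hins u' hu').1 (hnE u hu) (hnE u' hu') h
  have hup : B ⊆ Ω.biUnion T := by
    intro u hu
    simp only [B, Finset.mem_filter, Finset.mem_univ, true_and] at hu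
    obtain ⟨E', hE', hEq⟩ := hall x hx u hu.1 hu.2
    rw [Finset.mem_biUnion]
    refine ⟨E', ?_, ?_⟩
    · simp only [Ω, Finset.mem_filter, Finset.mem_univ, true_and]
      refine ⟨hE', fun hxE' => ?_⟩
      rw [C.cj_eq_of_mem hE' hxE'] at hEq
      exact hu.2 (hE'.1.comm x hxE' u (C.mem_of_cj_eq hu.1 hE' hEq.symm))
    · simp only [T, Finset.mem_filter, Finset.mem_univ, true_and]
      exact ⟨hu.1, fun h => hu.2 (by rw [h]), hEq.symm⟩
  have hup2 : B.card ≤ Ω.card * (r - 1) := by
    calc B.card ≤ (Ω.biUnion T).card := Finset.card_le_card hup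
      _ ≤ ∑ E' ∈ Ω, (T E').card := Finset.card_biUnion_le
      _ ≤ ∑ E' ∈ Ω, (r - 1) := Finset.sum_le_sum fun E' hE' => by
          have := hT E' hE'; omega
      _ = Ω.card * (r - 1) := by rw [Finset.sum_const, smul_eq_mul]
  -- Ω is nonempty
  have hΩ : 0 < Ω.card := by
    rw [Finset.card_pos]
    refine ⟨E, ?_⟩
    simp only [Ω, Finset.mem_filter, Finset.mem_univ, true_and]
    refine ⟨hE, fun hxE => ?_⟩
    rw [C.cj_eq_of_mem hE hxE] at heq
    exact hn (hE.1.comm x hxE d (C.mem_of_cj_eq hd hE heq.symm))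
  have : Ω.card * (r - 1) < Ω.card * r := by
    apply Nat.mul_lt_mul_of_pos_left _ hΩ
    omega
  omega

/-- (I.4) all elements of one clique act in the same way on `Om`. -/
theorem cj_eq_cj {x e : G} {E₂ : Set G} (hE₂ : E₂ ∈ Om D F) (hx : x ∈ E₂) (hxF : x ∉ F)
    (he : e ∈ E₂) (heF : e ∉ F) {E : Set G} (hE : E ∈ Om D F) : cj x E = cj e E := by
  classical
  by_cases hEE : E = E₂
  · subst hEE
    rw [C.cj_eq_of_mem hE hx, C.cj_eq_of_mem hE he]
  have hxDF := clq_sub_DF hE₂ hx hxF
  have heDF := clq_sub_DF hE₂ he heF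
  have hxE : x ∉ E := fun h => hEE (C.om_unique hxF hE hE₂ h hx)
  set E' := cj x E with hE'def
  have hE' : E' ∈ Om D F := C.cj_mem hxDF hE
  have hne : E ≠ E' := fun h => hxE (C.mem_of_cj_eq hxDF hE h.symm)
  obtain ⟨e₀, he₀, he₀F⟩ := C.exists_not_mem hE
  let T : Set G := {u | u ∈ DF D F ∧ cj u E = E'}
  have hTsub : T ⊆ E₂ \ F := by
    intro u hu
    refine ⟨?_, hu.1.2.1⟩
    apply C.mem_of_commute hu.1 hE₂ hx hxF
    by_contra hc
    exact C.cj_ne hu.1 hxDF hc hE hu.2
  have hcard : (E' \ F).ncard ≤ T.ncard := by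
    -- choose midpoints
    have hmid : ∀ x' ∈ E' \ F, ∃ w ∈ T, w * e₀ * w = x' := by
      intro x' hx'
      have hnc : ¬ Commute e₀ x' := C.not_commute hE hE' hne he₀ he₀F hx'.1 hx'.2
      obtain ⟨w, hw, hwe, hcw⟩ := C.exists_mid (hE.1.sub he₀) (hE'.1.sub hx'.1) hnc
      have hwF : ∀ a ∈ F, Commute w a := fun a ha =>
        (hcw a (hE.1.comm a (hE.2 ha) e₀ he₀) (hE'.1.comm a (hE'.2 ha) x' hx'.1)).symm
      have hwnF : w ∉ F := by
        intro h
        apply hnc
        have h1 : Commute w e₀ := hE.1.comm w (hE.2 h) e₀ he₀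
        rw [← hwe, h1.eq, mul_assoc, C.sq w hw, mul_one]
      have hwDF : w ∈ DF D F := ⟨hw, hwnF, hwF⟩
      refine ⟨w, ⟨hwDF, ?_⟩, hwe⟩
      apply C.om_unique hx'.2 (C.cj_mem hwDF hE) hE' _ hx'.1
      have : w * e₀ * w⁻¹ ∈ cj w E := conj_mem_cj.mpr he₀
      rwa [inv_eq_self (C.sq w hw), hwe] at this
    choose! f hf1 hf2 using hmid
    apply Set.ncard_le_ncard_of_injOn f hf1 _ (Set.toFinite _)
    intro a ha b hb hab
    rw [← hf2 a ha, ← hf2 b hb, hab]
  have hTeq : T = E₂ \ F := by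
    apply Set.eq_of_subset_of_ncard_le hTsub _ (Set.toFinite _)
    rw [C.ncard_diff hE' hE₂]
    exact hcard
  have heT : e ∈ T := by rw [hTeq]; exact ⟨he, heF⟩
  exact heT.2.symm

/-- products of two elements of one clique (outside `F`) fix all members of `Om`. -/
theorem cj_mul_eq {x e : G} {E₂ : Set G} (hE₂ : E₂ ∈ Om D F) (hx : x ∈ E₂) (hxF : x ∉ F)
    (he : e ∈ E₂) (heF : e ∉ F) {E : Set G} (hE : E ∈ Om D F) : cj (x * e) E = E := by
  rw [cj_mul, ← C.cj_eq_cj hE₂ hx hxF he heF hE, ← cj_mul, C.sq x (hE₂.1.sub hx), cj_one]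

/-- all triples in `DF` are of type 4 -/
theorem type_four {x e d : G} {E E' : Set G} (hE : E ∈ Om D F) (hE' : E' ∈ Om D F)
    (hx : x ∈ E) (hxF : x ∉ F) (he : e ∈ E) (heF : e ∉ F) (hd : d ∈ E') :
    (d * (x * e)) ^ 4 = 1 := by
  have hz2 : (x * e) * (x * e) = 1 :=
    (commute_iff (C.sq x (hE.1.sub hx)) (C.sq e (hE.1.sub he))).mp (hE.1.comm x hx e he)
  have h1 : (x * e) * d * (x * e) ∈ E' := by
    have : (x * e) * d * (x * e)⁻¹ ∈ cj (x * e) E' := conj_mem_cj.mpr hd
    rwa [C.cj_mul_eq hE hx hxF he heF hE', inv_eq_self hz2] at this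
  have h2 := (commute_iff (C.sq d (hE'.1.sub hd)) (C.sq _ (hE'.1.sub h1))).mp
    (hE'.1.comm d hd _ h1)
  calc (d * (x * e)) ^ 4 = d * (x * e * d * (x * e)) * (d * (x * e * d * (x * e))) := by
        simp only [pow_succ, pow_zero, one_mul]; group
    _ = 1 := h2

/-- two different members of `Om` -/
theorem exists_ne : ∃ E ∈ Om D F, ∃ E' ∈ Om D F, E ≠ E' := by
  have h1 : x₀ ∈ DF D F := ⟨C.hx₀, fun h => C.hn₀ (C.hF.cen x₀ h d₀ (by simp)),
    fun a ha => (C.hF.cen a ha x₀ (by simp)).symm⟩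
  have h2 : d₀ ∈ DF D F := ⟨C.hd₀, fun h => C.hn₀ (C.hF.cen d₀ h x₀ (by simp)).symm,
    fun a ha => (C.hF.cen a ha d₀ (by simp)).symm⟩
  obtain ⟨E, hE, hxE⟩ := C.exists_om h1
  obtain ⟨E', hE', hdE'⟩ := C.exists_om h2
  refine ⟨E, hE, E', hE', fun h => ?_⟩
  exact C.hn₀ (hE.1.comm _ hxE _ (h ▸ hdE'))

/-- `F` nonempty is contradictory. -/
theorem false_of_nonempty (hFne : F.Nonempty) : False := by
  have H := C.toOdd5
  obtain ⟨y, hy⟩ := hFne
  have hyD : y ∈ D := C.hF.sub hy
  obtain ⟨E, hE, E', hE', hne⟩ := C.exists_ne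
  obtain ⟨x, hx, hxF, e, he, heF, hxe⟩ := C.exists_two hE
  obtain ⟨d, hd, hdF⟩ := C.exists_not_mem hE'
  have hxD := hE.1.sub hx
  have heD := hE.1.sub he
  have hdD := hE'.1.sub hd
  have hdx : ¬ Commute d x := C.not_commute hE' hE hne.symm hd hdF hx hxF
  have hde : ¬ Commute d e := C.not_commute hE' hE hne.symm hd hdF he heF
  have hxy : Commute x y := hE.1.comm x hx y (hE.2 hy)
  have hdy : Commute d y := hE'.1.comm d hd y (hE'.2 hy)
  have hNP : NP D := np_of C.toRk3 hxD hyD hdD hxy hdy hdx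
  have hQ : Quad D := quad_of C.toRk3 hNP hxD heD hdD hxe (hE.1.comm x hx e he) hdx hde
    (C.type_four hE hE' hx hxF he heF hd)
  have hxyne : x ≠ y := fun h => hxF (h ▸ hy)
  obtain ⟨v, hv, v', hv', h1, h2, h3, h4, h5, h6, h7, h8⟩ := hQ x hxD y hyD hxyne hxy
  have hvv' : v ≠ v' := by
    intro h
    rw [← h, H.sq v hv] at h8
    exact hxyne (by rw [← inv_eq_self (H.sq x hxD)]; exact inv_eq_of_mul_eq_one_right h8.symm)
  have hcomm : ∀ a ∈ E, Commute a v ∧ Commute a v' := by
    intro a ha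
    have h9 : Commute a (v * v') := by
      rw [h8]; exact (hE.1.comm a ha x hx).mul_right (hE.1.comm a ha y (hE.2 hy))
    exact ⟨H.commute_left_of_commute_mul hv hv' (hE.1.sub ha) hvv' h7 h9,
      H.commute_right_of_commute_mul hv hv' (hE.1.sub ha) hvv' h7 h9⟩
  have hvE : v ∈ E := hE.1.max v hv (by simp) fun a ha => (hcomm a ha).1.symm
  have hv'E : v' ∈ E := hE.1.max v' hv' (by simp) fun a ha => (hcomm a ha).2.symm
  have hv'x : v' ≠ x := by
    intro h
    apply h2
    rw [h] at h8 h7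
    rw [h7.eq] at h8
    exact mul_left_cancel h8
  have hx2 := H.sq x hxD
  have hy2 := H.sq y hyD
  have hv2 := H.sq v hv
  have hv'2 := H.sq v' hv'
  -- x * v = v' * y
  have hxv : x * v = v' * y := by
    calc x * v = x * (y * y) * v := by rw [hy2, mul_one]
      _ = (x * y) * (y * v) := by group
      _ = (v * v') * (y * v) := by rw [h8]
      _ = (v' * v) * (y * v) := by rw [h7.eq]
      _ = v' * v * (v * y) := by rw [h4.eq]
      _ = v' * (v * v) * y := by group
      _ = v' * y := by rw [hv2, mul_one]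
  have hxv' : x * v' = v * y := by
    calc x * v' = x * (y * y) * v' := by rw [hy2, mul_one]
      _ = (x * y) * (y * v') := by group
      _ = (v * v') * (y * v') := by rw [h8]
      _ = (v * v') * (v' * y) := by rw [h6.eq]
      _ = v * (v' * v') * y := by group
      _ = v * y := by rw [hv'2, mul_one]
  have hvF : v ∉ F := by
    intro h
    apply hdx
    apply H.commute_left_of_commute_mul hxD hv' hdD hv'x.symm h5.symm
    rw [hxv']
    exact (hE'.1.comm d hd v (hE'.2 h)).mul_right hdy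
  have hv'F : v' ∉ F := by
    intro h
    apply hdx
    apply H.commute_left_of_commute_mul hxD hv hdD h1.symm h3.symm
    rw [hxv]
    exact (hE'.1.comm d hd v' (hE'.2 h)).mul_right hdy
  have h4' := C.type_four hE hE' hx hxF hvE hvF hd
  rw [hxv, ← mul_assoc] at h4'
  have hc2 : Commute (d * v') y := hdy.mul_left h6
  rw [hc2.mul_pow] at h4'
  have hy4 : y ^ 4 = 1 := by
    calc y ^ 4 = (y * y) * (y * y) := by simp only [pow_succ, pow_zero, one_mul]; group
      _ = 1 := by rw [hy2, mul_one]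
  rw [hy4, mul_one] at h4'
  exact C.not_commute hE' hE hne.symm hd hdF hv'E hv'F (H.commute_of_four hdD hv' h4')

/-- `F` empty is contradictory. -/
theorem false_of_empty (hFe : F = ∅) : False := by
  classical
  subst hFe
  have H := C.toOdd5
  have : Fact (Nat.Prime 2) := ⟨Nat.prime_two⟩
  let S : Set G := {z | ∃ x ∈ D, ∃ e ∈ D, Commute x e ∧ z = x * e}
  let N : Subgroup G := Subgroup.normalClosure S
  have hSconj : Group.conjugatesOfSet S ⊆ S := by
    intro z hz
    rw [Group.mem_conjugatesOfSet_iff] at hz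
    obtain ⟨a, ⟨x, hx, e, he, hc, rfl⟩, hconj⟩ := hz
    obtain ⟨g, hg⟩ := isConj_iff.mp hconj
    refine ⟨g * x * g⁻¹, H.conj x hx g, g * e * g⁻¹, H.conj e he g, commute_conj_iff.mpr hc, ?_⟩
    rw [← hg]; group
  have hOm : ∀ E : Set G, IsClq D ∅ E → E ∈ Om D ∅ := fun E hE => ⟨hE, Set.empty_subset _⟩
  have hclq : ∀ x ∈ D, ∀ e ∈ D, Commute x e → ∃ E, IsClq D ∅ E ∧ x ∈ E ∧ e ∈ E := by
    intro x hx e he hc
    obtain ⟨E, hE, hsub⟩ := exists_clq (D := D) (S := ∅) (F := {x, e})
      (by intro a ha; rcases ha with rfl | rfl <;> assumption) (by simp) (by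
        intro a ha b hb
        rcases ha with rfl | rfl <;> rcases hb with rfl | rfl
        · exact Commute.refl _
        · exact hc
        · exact hc.symm
        · exact Commute.refl _)
    exact ⟨E, hE, hsub (by simp), hsub (by simp)⟩
  -- N fixes every clique
  have hfix : ∀ g ∈ N, ∀ E : Set G, IsClq D ∅ E → cj g E = E := by
    intro g hg
    induction hg using Subgroup.closure_induction with
    | mem z hz =>
      intro E hE
      obtain ⟨x, hx, e, he, hc, rfl⟩ := hSconj hz
      obtain ⟨E₂, hE₂, hxE, heE⟩ := hclq x hx e he hc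
      exact C.cj_mul_eq (hOm _ hE₂) hxE (by simp) heE (by simp) (hOm _ hE)
    | one => intro E _; exact cj_one E
    | mul a b _ _ iha ihb => intro E hE; rw [cj_mul, ihb E hE, iha E hE]
    | inv a _ iha =>
      intro E hE
      have := iha E hE
      calc cj a⁻¹ E = cj a⁻¹ (cj a E) := by rw [this]
        _ = cj (a⁻¹ * a) E := (cj_mul _ _ _).symm
        _ = E := by rw [inv_mul_cancel, cj_one]
  -- the subgroups A_E
  let A : Set G → Subgroup G := fun E => Subgroup.closure {z | ∃ x ∈ E, ∃ e ∈ E, z = x * e}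
  have hAle : ∀ E : Set G, A E ≤ Subgroup.closure E := by
    intro E
    rw [Subgroup.closure_le]
    rintro z ⟨x, hx, e, he, rfl⟩
    exact Subgroup.mul_mem _ (Subgroup.subset_closure hx) (Subgroup.subset_closure he)
  have hAN : ∀ E : Set G, IsClq D ∅ E → ∀ g ∈ N, ∀ a ∈ A E, g * a * g⁻¹ ∈ A E := by
    intro E hE g hg a ha
    induction ha using Subgroup.closure_induction with
    | mem z hz =>
      obtain ⟨x, hx, e, he, rfl⟩ := hz
      apply Subgroup.subset_closure
      refine ⟨g * x * g⁻¹, ?_, g * e * g⁻¹, ?_, by group⟩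
      · rw [← hfix g hg E hE]; exact conj_mem_cj.mpr hx
      · rw [← hfix g hg E hE]; exact conj_mem_cj.mpr he
    | one => simp
    | mul a b _ _ iha ihb =>
      have : g * (a * b) * g⁻¹ = (g * a * g⁻¹) * (g * b * g⁻¹) := by group
      rw [this]; exact Subgroup.mul_mem _ iha ihb
    | inv a _ iha =>
      have : g * a⁻¹ * g⁻¹ = (g * a * g⁻¹)⁻¹ := by group
      rw [this]; exact Subgroup.inv_mem _ iha
  -- N is a 2-group
  have hNp : IsPGroup 2 N := by
    obtain ⟨P⟩ : Nonempty (Sylow 2 N) := inferInstance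
    have hAP : ∀ E : Set G, IsClq D ∅ E → (A E).subgroupOf N ≤ (P : Subgroup N) := by
      intro E hE
      have hnorm : ((A E).subgroupOf N).Normal := by
        constructor
        intro a ha g
        rw [Subgroup.mem_subgroupOf] at ha ⊢
        simpa only [_root_.Subgroup.coe_mul, _root_.InvMemClass.coe_inv] using hAN E hE g.1 g.2 a.1 ha
      have hp : IsPGroup 2 ((A E).subgroupOf N) := by
        rintro ⟨g, hg⟩
        refine ⟨1, ?_⟩
        have := closure_sq H hE.sub hE.comm g.1 (hAle E (Subgroup.mem_subgroupOf.mp hg))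
        apply Subtype.ext
        apply Subtype.ext
        simpa only [pow_two, _root_.pow_one, _root_.MulMemClass.mk_mul_mk, _root_.Subgroup.coe_mul, _root_.OneMemClass.coe_one] using this
      have h1 : IsPGroup 2 (((A E).subgroupOf N) ⊔ (P : Subgroup N) : Subgroup N) :=
        hp.to_sup_of_normal_left P.isPGroup'
      have h2 := P.is_maximal' h1 le_sup_right
      rw [← h2]; exact le_sup_left
    have hle : N ≤ (P : Subgroup N).map N.subtype := by
      have : Subgroup.closure (Group.conjugatesOfSet S) ≤ (P : Subgroup N).map N.subtype := by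
        rw [Subgroup.closure_le]
        intro z hz
        have hzN : z ∈ N := Subgroup.subset_closure hz
        obtain ⟨x, hx, e, he, hc, rfl⟩ := hSconj hz
        obtain ⟨E₂, hE₂, hxE, heE⟩ := hclq x hx e he hc
        refine ⟨⟨x * e, hzN⟩, hAP E₂ hE₂ ?_, rfl⟩
        rw [Subgroup.mem_subgroupOf]
        exact Subgroup.subset_closure ⟨x, hxE, e, heE, rfl⟩
      exact this
    exact (P.isPGroup'.map N.subtype).to_le hle
  have hbot := C.no2 N Subgroup.normalClosure_normal hNp
  obtain ⟨E, hE, -, -, -⟩ := C.exists_ne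
  obtain ⟨x, hx, hxF, e, he, heF, hxe⟩ := C.exists_two hE
  have h1 : x * e ∈ N := Subgroup.subset_normalClosure
    ⟨x, hE.1.sub hx, e, hE.1.sub he, hE.1.comm x hx e he, rfl⟩
  rw [hbot, Subgroup.mem_bot] at h1
  exact hxe (by rw [← inv_eq_self (H.sq x (hE.1.sub hx))]; exact inv_eq_of_mul_eq_one_right h1)

theorem false : False := by
  rcases F.eq_empty_or_nonempty with h | h
  · exact C.false_of_empty h
  · exact C.false_of_nonempty h

end Cs

/-- Main theorem: in the rank three situation with products of order 2, p (p ≥ 5), noncommuting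
(or equal) is an equivalence relation. -/
theorem main [Finite G] (R : Rk3 D p) {x e d : G} (hx : x ∈ D) (he : e ∈ D) (hd : d ∈ D)
    (hne : x ≠ e) (hxe : Commute x e) : Commute d x ∨ Commute d e := by
  refine case_two R ?_ hx he hd hne hxe
  intro x hx y hy hn E F hE hF
  have hxF : x ∉ F := fun h => hn ((hF.cen x h y (by simp)))
  have hge : F.ncard + 1 ≤ E.ncard := by
    obtain ⟨E₁, hE₁, hsub⟩ := exists_clq (D := D) (S := ∅) (F := insert x F)
      (Set.insert_subset hx hF.sub) (by simp) (by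
        intro a ha b hb
        rcases Set.mem_insert_iff.mp ha with ha' | ha'
        · rcases Set.mem_insert_iff.mp hb with hb' | hb'
          · rw [ha', hb']
          · rw [ha']; exact (hF.cen b hb' x (by simp)).symm
        · rcases Set.mem_insert_iff.mp hb with hb' | hb'
          · rw [hb']; exact (hF.cen a ha' x (by simp))
          · exact hF.comm a ha' b hb')
    rw [ncard_two R hE₁ hE, ← Set.ncard_insert_of_notMem hxF (Set.toFinite _)]
    exact Set.ncard_le_ncard hsub (Set.toFinite _)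
  by_contra hcon
  have hC : Cs D p F x y := ⟨R, hx, hy, hn, hF, fun E' hE' => by
    have := ncard_two R hE hE'
    omega⟩
  exact hC.false

end Cfsg.Agent.SporadicStructure.RankThreeMain
end

-- part: S1617
section
set_option autoImplicit false
open Cfsg

namespace Cfsg.Agent.S1617

open Cfsg.Agent.SporadicStructure

/-- A generating conjugacy class of involutions on which the group (with trivial solvable radical) acts with rank 3 is a class of 3-transpositions. -/
theorem result {G : Type*} [Group G] [Finite G] (hsol : ∀ N : Subgroup G, N.Normal → Group.IsSolvable ↥N → N = ⊥) {D : Set G} (hinv : ∀ d ∈ D, orderOf d = 2) (hconj : ∃ d ∈ D, D = conjugatesOf d) (hgen : Subgroup.closure D = ⊤) (hrank : ∀ x ∈ D, ∃ y ∈ D, ∃ z ∈ D, {w : G | ∃ g : G, Commute g x ∧ g * y * g⁻¹ = w} ≠ {w : G | ∃ g : G, Commute g x ∧ g * x * g⁻¹ = w} ∧ {w : G | ∃ g : G, Commute g x ∧ g * z * g⁻¹ = w} ≠ {w : G | ∃ g : G, Commute g x ∧ g * x * g⁻¹ = w} ∧ {w : G | ∃ g : G, Commute g x ∧ g * y * g⁻¹ = w}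 ≠ {w : G | ∃ g : G, Commute g x ∧ g * z * g⁻¹ = w} ∧ D = {w : G | ∃ g : G, Commute g x ∧ g * x * g⁻¹ = w} ∪ {w : G | ∃ g : G, Commute g x ∧ g * y * g⁻¹ = w} ∪ {w : G | ∃ g : G, Commute g x ∧ g * z * g⁻¹ = w}) : Cfsg.IsThreeTranspositionClass D := by
  have R : RankThreeReduce.Rank D := ⟨hinv, hconj, hgen, hrank⟩
  by_cases hI : ∀ x ∈ D, ∀ y ∈ D, Commute x y → x = y
  · exfalso
    obtain ⟨x, hx, -⟩ := hconj
    obtain ⟨N, hN, hNodd, hNx⟩ := RankThreeIsolated.isolated R hI hx
    have hb : N = ⊥ := hsol N hN (Cfsg.Agent.S0205.result hNodd)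
    refine R.not_central hx ?_
    intro g
    have h1 := hNx g
    rw [hb, Subgroup.mem_bot] at h1
    have h2 : x * g = g * x := by
      calc x * g = (x * g * x⁻¹ * g⁻¹) * g * x := by group
        _ = g * x := by rw [h1, one_mul]
    exact h2.symm
  · push Not at hI
    obtain ⟨x, hx, y, hy, hc, hne⟩ := hI
    obtain ⟨n, hn, hord⟩ := R.order_cases hx hy hne hc
    have no2 : ∀ N : Subgroup G, N.Normal → IsPGroup 2 N → N = ⊥ := by
      intro N hN h2
      have : Fact (Nat.Prime 2) := ⟨Nat.prime_two⟩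
      have h3 : Group.IsNilpotent N := h2.isNilpotent
      exact hsol N hN inferInstance
    rcases hn with rfl | ⟨hp, hp2⟩
    · exact (R.not_four no2 hord).elim
    · by_cases h3 : n = 3
      · refine ⟨⟨hinv, ?_⟩, hconj, hgen⟩
        intro d hd e he
        by_cases hde : Commute d e
        · left
          rw [pow_two]
          exact (RankThreeBase.commute_iff (R.sq hd) (R.sq he)).mp hde
        · right
          rw [← h3, ← hord d hd e he hde]
          exact pow_orderOf_eq_one _
      · exfalso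
        have h5 : 5 ≤ n := by
          have h2 := hp.two_le
          by_contra hlt
          push Not at hlt
          interval_cases n
          · exact hp2 rfl
          · exact h3 rfl
          · exact absurd hp (by decide)
        have RK : RankThreeCaseTwo.Rk3 D n :=
          { prime := hp
            five := h5
            sq := fun x hx => R.sq hx
            ne_one := fun x hx => R.ne_one hx
            conj := fun x hx g => R.mem_conj hx g
            pow := by
              intro a ha b hb hab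
              rw [← hord a ha b hb hab]
              exact pow_orderOf_eq_one _
            transN := by
              intro a ha b hb a' ha' b' hb' h h'
              exact R.trans_pairs hx hy hne hc ha hb ha' hb' (fun e => h (e ▸ Commute.refl a))
                (fun e => h' (e ▸ Commute.refl a')) ⟨fun e => absurd e h, fun e => absurd e h'⟩
            transC := by
              intro a ha b hb a' ha' b' hb' h h' h1 h2
              exact R.trans_pairs hx hy hne hc ha hb ha' hb' h h' ⟨fun _ => h2, fun _ => h1⟩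
            no2 := no2 }
        exact R.not_ge_five hx hy hne hc (fun x hx e he d hd hxe hcxe =>
          RankThreeMain.main RK hx he hd hxe hcxe)

end Cfsg.Agent.S1617
end
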