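import Cfsg.Statements.S1626
import Cfsg.Agent.J3.Orbits
set_option linter.all false

set_option autoImplicit false
open scoped MatrixGroups
open Matrix
open Cfsg

namespace Cfsg.Agent.S1626

open Cfsg.Spor Cfsg.Agent.Lib.BitSet Cfsg.Agent.J3.Core Cfsg.Agent.J3.Orbits

theorem dec_one {F : Type*} [Field F] (ω : F) : dec ω 1 = Pi.single (0 : F9) (1 : F) := by
  have h := dec_two_pow (ω := ω) (0 : F9)
  have e : idx (0 : F9) = 0 := by decide
  rw [e] at h
  exact h

theorem eq_of_ne_zero {F : Type*} [Field F] [Fintype F] (hF : Fintype.card F = 4) {ω : F}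
    (H : Good ω) (x : F) (hx : x ≠ 0) : x = 1 ∨ x = ω ∨ x = ω * ω := by
  have h1 : x ^ 3 = 1 := by
    have := FiniteField.pow_card_sub_one_eq_one x hx
    rwa [hF] at this
  have h2 := H.om
  have h3 : (x - 1) * ((x - ω) * (x - ω * ω)) = 0 := by
    linear_combination h1 + (x - x ^ 2 + (ω - 1) * x - (ω - 1)) * h2
  rcases mul_eq_zero.mp h3 with h | h
  · exact Or.inl (sub_eq_zero.mp h)
  · rcases mul_eq_zero.mp h with h | h
    · exact Or.inr (Or.inl (sub_eq_zero.mp h))
    · exact Or.inr (Or.inr (sub_eq_zero.mp h))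

theorem ncard_lines {F : Type*} [Field F] [Fintype F] (hF : Fintype.card F = 4) {ω : F}
    (H : Good ω) (S a c : ℕ)
    (h2 : ∀ n < 2 ^ 18, (S.testBit n = true ↔
        ∃ g ∈ threeJ3 F ω, dec ω n = (g : Matrix F9 F9 F) *ᵥ dec ω a))
    (h3 : img 18 opsW S = S) (h4 : pc 18 S = 3 * c) (h5 : S.testBit 0 = false) :
    {L : Submodule F (F9 → F) | ∃ g ∈ threeJ3 F ω,
      L = Submodule.span F {(g : Matrix F9 F9 F) *ᵥ dec ω a}}.ncard = c := by
  classical
  set N : Finset ℕ := (Finset.range (2 ^ 18)).filter (fun n => S.testBit n = true) with hN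
  have hcard : N.card = 3 * c := by rw [hN, ← pc_eq_card, h4]
  set f : ℕ → Submodule F (F9 → F) := fun n => Submodule.span F {dec ω n} with hf
  have hset : {L : Submodule F (F9 → F) | ∃ g ∈ threeJ3 F ω,
      L = Submodule.span F {(g : Matrix F9 F9 F) *ᵥ dec ω a}} = ↑(N.image f) := by
    ext L
    rw [Set.mem_ofPred_eq, Finset.mem_coe, Finset.mem_image]
    constructor
    · rintro ⟨g, hg, rfl⟩
      obtain ⟨n, hn, e⟩ := exists_dec hF H ((g : Matrix F9 F9 F) *ᵥ dec ω a)
      refine ⟨n, ?_, ?_⟩
      · rw [hN, Finset.mem_filter, Finset.mem_range]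
        exact ⟨hn, (h2 n hn).mpr ⟨g, hg, e⟩⟩
      · show Submodule.span F {dec ω n} = _
        rw [e]
    · rintro ⟨n, hn, rfl⟩
      rw [hN, Finset.mem_filter, Finset.mem_range] at hn
      obtain ⟨g, hg, e⟩ := (h2 n hn.1).mp hn.2
      exact ⟨g, hg, by rw [← e]⟩
  rw [hset, Set.ncard_coe_finset]
  have hfib : ∀ L ∈ N.image f, (N.filter (fun n => f n = L)).card = 3 := by
    intro L hL
    obtain ⟨n, hn, rfl⟩ := Finset.mem_image.mp hL
    have hn' := hn
    rw [hN, Finset.mem_filter, Finset.mem_range] at hn'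
    obtain ⟨hn1, hn2⟩ := hn'
    set m := act opsW n with hm
    set p := act opsW m with hp
    have hm1 : m < 2 ^ 18 := act_lt opsW_ok hn1
    have hp1 : p < 2 ^ 18 := act_lt opsW_ok hm1
    have hm2 : S.testBit m = true := by
      rw [← h3, hm, img_testBit_act opsW_ok hn1, hn2]
    have hp2 : S.testBit p = true := by
      rw [← h3, hp, img_testBit_act opsW_ok hm1, hm2]
    have em : dec ω m = ω • dec ω n := dec_act_opsW H n hn1
    have ep : dec ω p = (ω * ω) • dec ω n := by
      rw [hp, dec_act_opsW H m hm1, em, smul_smul]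
    have hn0 : dec ω n ≠ 0 := by
      intro h
      rw [← dec_zero (ω := ω)] at h
      have := dec_injOn H hn1 (by norm_num) h
      rw [this, h5] at hn2
      exact absurd hn2 (by decide)
    have hw0 := H.ne_zero
    have hw1 := H.ne_one
    have hne : ∀ x y : F, x ≠ y → x • dec ω n ≠ y • dec ω n := by
      intro x y hxy h
      have : (x - y) • dec ω n = 0 := by rw [sub_smul, h, sub_self]
      rcases smul_eq_zero.mp this with h | h
      · exact hxy (sub_eq_zero.mp h)
      · exact hn0 h
    have d1 : n ≠ m := by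
      intro h
      refine hne 1 ω (Ne.symm hw1) ?_
      rw [one_smul, ← em, ← h]
    have d2 : n ≠ p := by
      intro h
      refine hne 1 (ω * ω) ?_ ?_
      · intro h'
        rw [H.mul_self] at h'
        apply hw0
        linear_combination -h'
      · rw [one_smul, ← ep, ← h]
    have d3 : m ≠ p := by
      intro h
      refine hne ω (ω * ω) ?_ ?_
      · intro h'
        apply hw1
        have h6 : ω * (ω - 1) = 0 := by linear_combination -h'
        rcases mul_eq_zero.mp h6 with h | h
        · exact absurd h hw0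
        · exact sub_eq_zero.mp h
      · rw [← em, ← ep, ← h]
    have hfil : N.filter (fun n' => f n' = f n) = {n, m, p} := by
      ext q
      rw [Finset.mem_filter, Finset.mem_insert, Finset.mem_insert, Finset.mem_singleton]
      constructor
      · rintro ⟨hq, hq2⟩
        rw [hN, Finset.mem_filter, Finset.mem_range] at hq
        have hq3 : Submodule.span F {dec ω n} = Submodule.span F {dec ω q} := hq2.symm
        rw [Submodule.span_singleton_eq_span_singleton] at hq3
        obtain ⟨z, hz⟩ := hq3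
        have hz' : (z : F) • dec ω n = dec ω q := hz
        rcases eq_of_ne_zero hF H (z : F) z.ne_zero with h | h | h
        · left
          rw [h, one_smul] at hz'
          exact (dec_injOn H hn1 hq.1 hz').symm
        · right; left
          rw [h, ← em] at hz'
          exact (dec_injOn H hm1 hq.1 hz').symm
        · right; right
          rw [h, ← ep] at hz'
          exact (dec_injOn H hp1 hq.1 hz').symm
      · have hspan : ∀ x : F, x ≠ 0 → Submodule.span F {x • dec ω n} = Submodule.span F {dec ω n} :=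
          fun x hx => Submodule.span_singleton_smul_eq (IsUnit.mk0 x hx) _
        rintro (rfl | rfl | rfl)
        · exact ⟨hn, rfl⟩
        · refine ⟨?_, ?_⟩
          · rw [hN, Finset.mem_filter, Finset.mem_range]; exact ⟨hm1, hm2⟩
          · show Submodule.span F {dec ω m} = Submodule.span F {dec ω n}
            rw [em]; exact hspan ω hw0
        · refine ⟨?_, ?_⟩
          · rw [hN, Finset.mem_filter, Finset.mem_range]; exact ⟨hp1, hp2⟩
          · show Submodule.span F {dec ω p} = Submodule.span F {dec ω n}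
            rw [ep]; exact hspan (ω * ω) (mul_ne_zero hw0 hw0)
    rw [hfil, Finset.card_insert_of_notMem, Finset.card_pair d3]
    rw [Finset.mem_insert, Finset.mem_singleton]
    rintro (h | h)
    · exact d1 h
    · exact d2 h
  have htot := Finset.card_eq_sum_card_image f N
  rw [Finset.sum_congr rfl hfib, Finset.sum_const, smul_eq_mul, hcard] at htot
  omega

theorem val_cube {F : Type*} [Field F] {ω : F} (H : Good ω) (c : ℕ) :
    (val ω c) ^ 3 = if (c.testBit 0 || c.testBit 1) = true then 1 else 0 := by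
  have h3 := H.cube
  have h2 := H.sq
  unfold val
  cases c.testBit 0 <;> cases c.testBit 1
  · simp
  · simp [h3]
  · simp
  · simp only [if_true, Bool.or_self]
    rw [← h2, ← pow_mul, mul_comm 2 3, pow_mul, h3, one_pow]

theorem ite_add_ite {F : Type*} [Field F] {ω : F} (H : Good ω) (a b : Bool) :
    ((if a = true then 1 else 0 : F) + if b = true then 1 else 0) =
      if (a ^^ b) = true then 1 else 0 := by
  cases a <;> cases b
  · simp
  · simp
  · simp
  · simp [H.two]

theorem sum_cube {F : Type*} [Field F] {ω : F} (H : Good ω) (n : ℕ) :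
    ∑ z, (dec ω n z) ^ 3 = if par n = true then 1 else 0 := by
  have hsum : ∀ f : ZMod 3 → F, ∑ x, f x = f 0 + f 1 + f 2 := fun f => Fin.sum_univ_three f
  have hterm : ∀ z : F9, (dec ω n z) ^ 3 =
      if (n.testBit (2 * idx z) || n.testBit (2 * idx z + 1)) = true then 1 else 0 := by
    intro z
    rw [dec_apply, val_cube H, Nat.testBit_shiftRight, Nat.testBit_shiftRight]
    rfl
  rw [Fintype.sum_prod_type, hsum, hsum, hsum, hsum]
  rw [hterm, hterm, hterm, hterm, hterm, hterm, hterm, hterm, hterm]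
  have e0 : idx (0, 0) = 0 := by decide
  have e1 : idx (0, 1) = 1 := by decide
  have e2 : idx (0, 2) = 2 := by decide
  have e3 : idx (1, 0) = 3 := by decide
  have e4 : idx (1, 1) = 4 := by decide
  have e5 : idx (1, 2) = 5 := by decide
  have e6 : idx (2, 0) = 6 := by decide
  have e7 : idx (2, 1) = 7 := by decide
  have e8 : idx (2, 2) = 8 := by decide
  rw [e0, e1, e2, e3, e4, e5, e6, e7, e8]
  rw [ite_add_ite H, ite_add_ite H, ite_add_ite H, ite_add_ite H, ite_add_ite H, ite_add_ite H,
    ite_add_ite H, ite_add_ite H]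
  unfold par
  simp only [List.foldl_cons, List.foldl_nil, Bool.false_xor, Bool.xor_assoc]

/-- Orbits of the triple cover of the third Janko group on lines of its 9-space over the field with 4 elements: the line through the first basis vector has exactly 23256 images, and the isotropic lines (nonzero v with Σ v_z³ = 0) form a single orbit. -/
theorem result (F : Type) [Field F] [Fintype F] (hF : Fintype.card F = 4) (ω : F) (hω : ω ^ 2 + ω + 1 = 0) : {L : Submodule F (Cfsg.Spor.F9 → F) | ∃ g ∈ Cfsg.Spor.threeJ3 F ω, L = F ∙ ((g : Matrix Cfsg.Spor.F9 Cfsg.Spor.F9 F) *ᵥ (Pi.single (0 : Cfsg.Spor.F9) (1 : F) : Cfsg.Spor.F9 → F))}.ncard = 23256 ∧ ∀ v w : Cfsg.Spor.F9 → F, v ≠ 0 → w ≠ 0 → ∑ z, (v z) ^ 3 = 0 → ∑ z, (w z) ^ 3 = 0 → ∃ g ∈ Cfsg.Spor.threeJ3 F ω, ∃ c : F, c ≠ 0 ∧ (g : Matrix Cfsg.Spor.F9 Cfsg.Spor.F9 F) *ᵥ v = c • w := by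
  have H := good_of_card hF hω
  refine ⟨?_, ?_⟩
  · obtain ⟨S, _, h2, h3, h4, h5⟩ := exists_orbit0 hF H
    have h := ncard_lines hF H S 1 23256 h2 h3 h4 h5
    rw [dec_one] at h
    exact h
  · have key : ∀ v : F9 → F, v ≠ 0 → ∑ z, (v z) ^ 3 = 0 →
        ∃ g ∈ threeJ3 F ω, v = (g : Matrix F9 F9 F) *ᵥ dec ω 4160 := by
      intro v hv hs
      obtain ⟨n, hn, rfl⟩ := exists_dec hF H v
      refine (exists_orbit1 hF H n hn).mp ⟨?_, ?_⟩
      · rintro rfl
        exact hv dec_zero
      · rw [sum_cube H] at hs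
        by_contra h
        rw [Bool.not_eq_false] at h
        rw [if_pos h] at hs
        exact one_ne_zero hs
    intro v w hv hw hv2 hw2
    obtain ⟨g, hg, eg⟩ := key v hv hv2
    obtain ⟨g', hg', eg'⟩ := key w hw hw2
    refine ⟨g' * g⁻¹, mul_mem hg' (inv_mem hg), 1, one_ne_zero, ?_⟩
    rw [one_smul, eg', Units.val_mul, ← Matrix.mulVec_mulVec, eg,
      Matrix.mulVec_mulVec (dec ω 4160) ((g⁻¹ : GL F9 F) : Matrix F9 F9 F),
      ← Units.val_mul, inv_mul_cancel, Units.val_one, Matrix.one_mulVec]

end Cfsg.Agent.S1626
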