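import Mathlib
import Cfsg.Statements.S1632
set_option linter.all false

-- part: SporadicStructure/ThetaPoisson
section
/-!
Poisson summation for real positive definite quadratic forms in `n` variables, by induction on the
dimension from the one-variable formula of Mathlib.
-/

set_option autoImplicit false

namespace Cfsg.Agent.SporadicStructure.ThetaPoisson

open Complex Matrix
open scoped Real

/-- the value of the quadratic form with matrix `A` -/
noncomputable def quad {n : ℕ} (A : Matrix (Fin n) (Fin n) ℝ) (x : Fin n → ℝ) : ℝ :=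
  ∑ i, ∑ j, A i j * x i * x j

theorem quad_eq_dotProduct {n : ℕ} (A : Matrix (Fin n) (Fin n) ℝ) (x : Fin n → ℝ) :
    quad A x = x ⬝ᵥ (A *ᵥ x) := by
  simp only [quad, dotProduct, mulVec, Finset.mul_sum]
  refine Finset.sum_congr rfl fun i _ => Finset.sum_congr rfl fun j _ => ?_
  ring

/-- positive definite (no symmetry required) -/
def Pos {n : ℕ} (A : Matrix (Fin n) (Fin n) ℝ) : Prop := ∀ x : Fin n → ℝ, x ≠ 0 → 0 < quad A x

variable {n : ℕ}

/-- off-diagonal part of the first row -/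
def bvec (A : Matrix (Fin (n + 1)) (Fin (n + 1)) ℝ) : Fin n → ℝ := fun i => A 0 i.succ

/-- Schur complement -/
noncomputable def schur (A : Matrix (Fin (n + 1)) (Fin (n + 1)) ℝ) : Matrix (Fin n) (Fin n) ℝ :=
  fun i j => A i.succ j.succ - A 0 i.succ * A 0 j.succ / A 0 0

/-- lower right block -/
def low (A : Matrix (Fin (n + 1)) (Fin (n + 1)) ℝ) : Matrix (Fin n) (Fin n) ℝ :=
  fun i j => A i.succ j.succ

theorem quad_cons_expand (A : Matrix (Fin (n + 1)) (Fin (n + 1)) ℝ) (hA : A.IsSymm)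
    (x₀ : ℝ) (y : Fin n → ℝ) :
    quad A (Fin.cons x₀ y) = A 0 0 * x₀ ^ 2 + 2 * x₀ * (∑ i, A 0 (Fin.succ i) * y i)
      + ∑ i, ∑ j, A (Fin.succ i) (Fin.succ j) * y i * y j := by
  simp only [quad, Fin.sum_univ_succ, Fin.cons_zero, Fin.cons_succ]
  have h1 : ∀ i : Fin n, A i.succ 0 = A 0 i.succ := fun i => hA.apply 0 i.succ
  simp only [h1, Finset.sum_add_distrib, Finset.mul_sum]
  have : ∀ i : Fin n, 2 * x₀ * (A 0 i.succ * y i) = A 0 i.succ * x₀ * y i + A 0 i.succ * y i * x₀ := by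
    intro i; ring
  simp only [this, Finset.sum_add_distrib]
  ring

theorem quad_cons (A : Matrix (Fin (n + 1)) (Fin (n + 1)) ℝ) (hA : A.IsSymm) (h0 : A 0 0 ≠ 0)
    (x₀ : ℝ) (y : Fin n → ℝ) :
    quad A (Fin.cons x₀ y) = A 0 0 * (x₀ + (bvec A ⬝ᵥ y) / A 0 0) ^ 2 + quad (schur A) y := by
  rw [quad_cons_expand A hA]
  have h2 : quad (schur A) y = (∑ i, ∑ j, A (Fin.succ i) (Fin.succ j) * y i * y j)
      - (bvec A ⬝ᵥ y) ^ 2 / A 0 0 := by
    simp only [quad, schur, dotProduct, bvec, sq, Finset.sum_mul_sum, Finset.sum_div,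
      ← Finset.sum_sub_distrib]
    refine Finset.sum_congr rfl fun i _ => Finset.sum_congr rfl fun j _ => ?_
    ring
  rw [h2]
  have h3 : (∑ i, A 0 (Fin.succ i) * y i) = bvec A ⬝ᵥ y := rfl
  rw [h3]
  field_simp
  ring

theorem pos_zero_zero (A : Matrix (Fin (n + 1)) (Fin (n + 1)) ℝ) (hA : A.IsSymm) (hp : Pos A) :
    0 < A 0 0 := by
  have h := hp (Fin.cons 1 0) (by
    intro h
    have := congrFun h 0
    simp at this)
  rw [quad_cons_expand A hA] at h
  simpa using h

theorem pos_schur (A : Matrix (Fin (n + 1)) (Fin (n + 1)) ℝ) (hA : A.IsSymm) (hp : Pos A) :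
    Pos (schur A) := by
  intro y hy
  have h0 := pos_zero_zero A hA hp
  have h := hp (Fin.cons (-(bvec A ⬝ᵥ y) / A 0 0) y) (by
    intro h
    apply hy
    funext i
    have := congrFun h i.succ
    simpa using this)
  rw [quad_cons A hA h0.ne'] at h
  have : -(bvec A ⬝ᵥ y) / A 0 0 + bvec A ⬝ᵥ y / A 0 0 = 0 := by ring
  rw [this] at h
  simpa using h

theorem schur_symm (A : Matrix (Fin (n + 1)) (Fin (n + 1)) ℝ) (hA : A.IsSymm) :
    (schur A).IsSymm := by
  ext i j
  simp only [schur, transpose_apply]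
  rw [hA.apply i.succ j.succ]
  ring

theorem low_symm (A : Matrix (Fin (n + 1)) (Fin (n + 1)) ℝ) (hA : A.IsSymm) :
    (low A).IsSymm := by
  ext i j
  simp only [low, transpose_apply]
  rw [hA.apply i.succ j.succ]

theorem mul_eq_one_entries (A A' : Matrix (Fin (n + 1)) (Fin (n + 1)) ℝ) (h : A * A' = 1)
    (i j : Fin (n + 1)) :
    A i 0 * A' 0 j + ∑ k : Fin n, A i k.succ * A' k.succ j = if i = j then 1 else 0 := by
  have := congrFun (congrFun h i) j
  rw [Matrix.mul_apply, Fin.sum_univ_succ] at this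
  rw [this, Matrix.one_apply]

theorem schur_mul_low (A A' : Matrix (Fin (n + 1)) (Fin (n + 1)) ℝ) (hA : A.IsSymm)
    (h0 : A 0 0 ≠ 0) (h : A * A' = 1) : schur A * low A' = 1 := by
  ext i j
  rw [Matrix.mul_apply, Matrix.one_apply]
  have h1 := mul_eq_one_entries A A' h i.succ j.succ
  have h2 := mul_eq_one_entries A A' h 0 j.succ
  rw [if_neg (Fin.succ_ne_zero j).symm] at h2
  have h3 : ∑ k, schur A i k * low A' k j
      = (∑ k : Fin n, A i.succ k.succ * A' k.succ j.succ)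
        - A 0 i.succ / A 0 0 * ∑ k : Fin n, A 0 k.succ * A' k.succ j.succ := by
    simp only [schur, low, Finset.mul_sum, ← Finset.sum_sub_distrib]
    refine Finset.sum_congr rfl fun k _ => ?_
    ring
  have h4 : A i.succ 0 = A 0 i.succ := hA.apply 0 i.succ
  rw [h3]
  have h5 : (∑ k : Fin n, A i.succ k.succ * A' k.succ j.succ)
      = (if i.succ = j.succ then 1 else 0) - A 0 i.succ * A' 0 j.succ := by
    rw [← h1, h4]; ring
  have h6 : (∑ k : Fin n, A 0 k.succ * A' k.succ j.succ) = - (A 0 0 * A' 0 j.succ) := by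
    linarith
  rw [h5, h6]
  simp only [Fin.succ_inj]
  field_simp
  ring

theorem quad_inv_cons (A A' : Matrix (Fin (n + 1)) (Fin (n + 1)) ℝ)
    (hA' : A'.IsSymm) (h0 : A 0 0 ≠ 0) (h : A * A' = 1) (x₀ : ℝ) (y : Fin n → ℝ) :
    quad A' (Fin.cons x₀ y) = x₀ ^ 2 / A 0 0 + quad (low A') (y - (x₀ / A 0 0) • bvec A) := by
  rw [quad_cons_expand A' hA']
  -- formulas for the first row of A'
  have hrow : ∀ j : Fin n, A' 0 j.succ = - (1 / A 0 0) * ∑ k : Fin n, bvec A k * low A' k j := by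
    intro j
    have h2 := mul_eq_one_entries A A' h 0 j.succ
    rw [if_neg (Fin.succ_ne_zero j).symm] at h2
    have : (∑ k : Fin n, bvec A k * low A' k j) = - (A 0 0 * A' 0 j.succ) := by
      simp only [bvec, low]; linarith
    rw [this]; field_simp
  have h00 : A' 0 0 = 1 / A 0 0 + (1 / A 0 0 ^ 2) * ∑ k, ∑ l, bvec A k * low A' k l * bvec A l := by
    have h2 := mul_eq_one_entries A A' h 0 0
    rw [if_pos rfl] at h2
    have h3 : (∑ k : Fin n, A 0 k.succ * A' k.succ 0)
        = - (1 / A 0 0) * ∑ k, ∑ l, bvec A k * low A' k l * bvec A l := by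
      have : ∀ k : Fin n, A' k.succ 0 = A' 0 k.succ := fun k => hA'.apply 0 k.succ
      simp only [this, hrow]
      simp only [Finset.mul_sum]
      rw [Finset.sum_comm]
      refine Finset.sum_congr rfl fun k _ => Finset.sum_congr rfl fun l _ => ?_
      simp only [bvec]
      ring
    rw [h3] at h2
    have h4 : A' 0 0 = (1 + (1 / A 0 0) * ∑ k, ∑ l, bvec A k * low A' k l * bvec A l) / A 0 0 := by
      field_simp
      field_simp at h2
      linarith
    rw [h4]; field_simp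
  have hlow : (low A').IsSymm := low_symm A' hA'
  have hquad : quad (low A') (y - (x₀ / A 0 0) • bvec A)
      = quad (low A') y - 2 * (x₀ / A 0 0) * (∑ k, ∑ l, bvec A k * low A' k l * y l)
        + (x₀ / A 0 0) ^ 2 * ∑ k, ∑ l, bvec A k * low A' k l * bvec A l := by
    have hswap : (∑ k, ∑ l, y k * low A' k l * bvec A l) = ∑ k, ∑ l, bvec A k * low A' k l * y l := by
      rw [Finset.sum_comm]
      refine Finset.sum_congr rfl fun k _ => Finset.sum_congr rfl fun l _ => ?_
      rw [hlow.apply k l]; ring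
    have : 2 * (x₀ / A 0 0) * (∑ k, ∑ l, bvec A k * low A' k l * y l)
        = (x₀ / A 0 0) * (∑ k, ∑ l, bvec A k * low A' k l * y l)
          + (x₀ / A 0 0) * (∑ k, ∑ l, y k * low A' k l * bvec A l) := by rw [hswap]; ring
    rw [this]
    simp only [quad, Finset.mul_sum, ← Finset.sum_add_distrib, ← Finset.sum_sub_distrib,
      Pi.sub_apply, Pi.smul_apply, smul_eq_mul]
    refine Finset.sum_congr rfl fun k _ => Finset.sum_congr rfl fun l _ => ?_
    ring
  rw [hquad, h00]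
  have h5 : (∑ i : Fin n, A' 0 i.succ * y i)
      = - (1 / A 0 0) * ∑ k, ∑ l, bvec A k * low A' k l * y l := by
    simp only [hrow, Finset.mul_sum, Finset.sum_mul]
    rw [Finset.sum_comm]
    refine Finset.sum_congr rfl fun k _ => Finset.sum_congr rfl fun l _ => ?_
    ring
  rw [h5]
  have h6 : (∑ i : Fin n, ∑ j : Fin n, A' i.succ j.succ * y i * y j) = quad (low A') y := rfl
  rw [h6]
  field_simp
  ring

theorem quad_smul (A : Matrix (Fin n) (Fin n) ℝ) (c : ℝ) (x : Fin n → ℝ) :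
    quad A (c • x) = c ^ 2 * quad A x := by
  simp only [quad, Pi.smul_apply, smul_eq_mul, Finset.mul_sum]
  refine Finset.sum_congr rfl fun k _ => Finset.sum_congr rfl fun l _ => ?_
  ring

theorem quad_zero (A : Matrix (Fin n) (Fin n) ℝ) : quad A 0 = 0 := by
  simp [quad]

theorem continuous_quad (A : Matrix (Fin n) (Fin n) ℝ) : Continuous (quad A) := by
  unfold quad
  fun_prop

theorem exists_lower_bound (A : Matrix (Fin n) (Fin n) ℝ) (hp : Pos A) :
    ∃ c : ℝ, 0 < c ∧ ∀ x : Fin n → ℝ, c * ∑ i, x i ^ 2 ≤ quad A x := by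
  let K : Set (Fin n → ℝ) := {x | ∑ i, x i ^ 2 = 1}
  have hKc : IsClosed K := isClosed_eq (by fun_prop) continuous_const
  have hKb : Bornology.IsBounded K := by
    refine (Metric.isBounded_iff_subset_closedBall 0).2 ⟨1, fun x hx => ?_⟩
    rw [mem_closedBall_zero_iff, pi_norm_le_iff_of_nonneg zero_le_one]
    intro i
    have h1 : x i ^ 2 ≤ 1 := by
      have : x i ^ 2 ≤ ∑ i, x i ^ 2 :=
        Finset.single_le_sum (f := fun i => x i ^ 2) (fun i _ => sq_nonneg _) (Finset.mem_univ i)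
      have hx' : ∑ i, x i ^ 2 = 1 := hx
      linarith
    rw [Real.norm_eq_abs]
    exact abs_le_one_iff_mul_self_le_one.2 (by nlinarith)
  have hK : IsCompact K := Metric.isCompact_of_isClosed_isBounded hKc hKb
  rcases K.eq_empty_or_nonempty with hE | hne
  · refine ⟨1, one_pos, fun x => ?_⟩
    have hx : x = 0 := by
      by_contra hx
      have hs : 0 < ∑ i, x i ^ 2 := by
        obtain ⟨i, hi⟩ := Function.ne_iff.1 hx
        refine Finset.sum_pos' (fun i _ => sq_nonneg _) ⟨i, Finset.mem_univ i, ?_⟩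
        exact pow_pos (abs_pos.2 hi) 2 |>.trans_le (by rw [sq_abs])
      have : (1 / Real.sqrt (∑ i, x i ^ 2)) • x ∈ K := by
        show ∑ i, ((1 / Real.sqrt (∑ i, x i ^ 2)) • x) i ^ 2 = 1
        simp only [Pi.smul_apply, smul_eq_mul, mul_pow, ← Finset.mul_sum, div_pow, one_pow]
        rw [Real.sq_sqrt hs.le]
        field_simp
      rw [hE] at this
      exact this
    subst hx
    simp [quad]
  · obtain ⟨u, huK, hu⟩ := hK.exists_isMinOn hne (continuous_quad A).continuousOn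
    have hu0 : u ≠ 0 := by
      rintro rfl
      have : ∑ i : Fin n, ((0 : Fin n → ℝ) i) ^ 2 = 1 := huK
      simp at this
    refine ⟨quad A u, hp u hu0, fun x => ?_⟩
    by_cases hx : x = 0
    · subst hx; simp [quad]
    · have hs : 0 < ∑ i, x i ^ 2 := by
        obtain ⟨i, hi⟩ := Function.ne_iff.1 hx
        refine Finset.sum_pos' (fun i _ => sq_nonneg _) ⟨i, Finset.mem_univ i, ?_⟩
        exact pow_pos (abs_pos.2 hi) 2 |>.trans_le (by rw [sq_abs])
      have hmem : (1 / Real.sqrt (∑ i, x i ^ 2)) • x ∈ K := by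
        show ∑ i, ((1 / Real.sqrt (∑ i, x i ^ 2)) • x) i ^ 2 = 1
        simp only [Pi.smul_apply, smul_eq_mul, mul_pow, ← Finset.mul_sum, div_pow, one_pow]
        rw [Real.sq_sqrt hs.le]
        field_simp
      have h1 : quad A u ≤ quad A ((1 / Real.sqrt (∑ i, x i ^ 2)) • x) := hu hmem
      rw [quad_smul, div_pow, one_pow, Real.sq_sqrt hs.le] at h1
      have h2 := mul_le_mul_of_nonneg_right h1 hs.le
      have h3 : 1 / (∑ i, x i ^ 2) * quad A x * ∑ i, x i ^ 2 = quad A x := by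
        field_simp
      linarith

theorem summable_exp_neg_sq_int {c : ℝ} (hc : 0 < c) :
    Summable fun k : ℤ => Real.exp (-c * (k : ℝ) ^ 2) := by
  have h := ((summable_jacobiTheta₂_term_iff 0 ((c / π : ℝ) * I)).2 (by simp; positivity)).norm
  refine h.congr fun k => ?_
  rw [norm_jacobiTheta₂_term]
  congr 1
  have hpi : π ≠ 0 := Real.pi_ne_zero
  simp
  field_simp

theorem summable_exp_neg_sq_pi {c : ℝ} (hc : 0 < c) (n : ℕ) :
    Summable fun k : Fin n → ℤ => Real.exp (-c * ∑ i, (k i : ℝ) ^ 2) := by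
  induction n with
  | zero => exact Summable.of_finite
  | succ n ih =>
    rw [← (Fin.consEquiv (fun _ : Fin (n + 1) => ℤ)).summable_iff]
    have := (summable_exp_neg_sq_int hc).mul_of_nonneg ih (fun _ => (Real.exp_pos _).le)
      (fun _ => (Real.exp_pos _).le)
    refine this.congr fun p => ?_
    simp only [Function.comp_apply, Fin.consEquiv_apply, Fin.sum_univ_succ, Fin.cons_zero,
      Fin.cons_succ]
    rw [← Real.exp_add]
    congr 1
    ring

theorem summable_gauss (A : Matrix (Fin n) (Fin n) ℝ) (hp : Pos A) {c : ℝ} (hc : 0 < c)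
    (v : Fin n → ℝ) :
    Summable fun k : Fin n → ℤ => Real.exp (-c * quad A (fun i => (k i : ℝ) - v i)) := by
  obtain ⟨c₀, hc₀, hb⟩ := exists_lower_bound A hp
  have hs := (summable_exp_neg_sq_pi (c := c * c₀ / 2) (by positivity) n).mul_left
    (Real.exp (c * c₀ * ∑ i, v i ^ 2))
  refine Summable.of_nonneg_of_le (fun _ => (Real.exp_pos _).le) (fun k => ?_) hs
  rw [← Real.exp_add]
  apply Real.exp_le_exp.2
  have h1 := hb (fun i => (k i : ℝ) - v i)
  have h2 : (1 / 2) * (∑ i, (k i : ℝ) ^ 2) - ∑ i, v i ^ 2 ≤ ∑ i, ((k i : ℝ) - v i) ^ 2 := by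
    rw [Finset.mul_sum, ← Finset.sum_sub_distrib]
    refine Finset.sum_le_sum fun i _ => ?_
    nlinarith [sq_nonneg ((k i : ℝ) - 2 * v i)]
  have h3 := mul_le_mul_of_nonneg_left h2 hc₀.le
  have h4 := mul_le_mul_of_nonneg_left (h3.trans h1) hc.le
  nlinarith

theorem pos_low (A : Matrix (Fin (n + 1)) (Fin (n + 1)) ℝ) (hA : A.IsSymm) (hp : Pos A) :
    Pos (low A) := by
  intro y hy
  have h := hp (Fin.cons 0 y) (by
    intro h
    apply hy
    funext i
    have := congrFun h i.succ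
    simpa using this)
  rw [quad_cons_expand A hA] at h
  simpa [quad, low] using h

/-- summands of the theta series with a character -/
noncomputable def lhsTerm (A : Matrix (Fin n) (Fin n) ℝ) (s : ℂ) (v : Fin n → ℝ)
    (x : Fin n → ℤ) : ℂ :=
  cexp (-π * s * (quad A (fun i => (x i : ℝ)) : ℝ) + 2 * π * I * ((∑ i, v i * (x i : ℝ) : ℝ) : ℂ))

/-- summands of the shifted theta series -/
noncomputable def rhsTerm (A : Matrix (Fin n) (Fin n) ℝ) (s : ℂ) (v : Fin n → ℝ)
    (x : Fin n → ℤ) : ℂ :=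
  cexp (-π / s * (quad A (fun i => (x i : ℝ) - v i) : ℝ))

theorem norm_lhsTerm (A : Matrix (Fin n) (Fin n) ℝ) (s : ℂ) (v : Fin n → ℝ)
    (x : Fin n → ℤ) : ‖lhsTerm A s v x‖ = Real.exp (-(π * s.re) * quad A (fun i => (x i : ℝ))) := by
  rw [lhsTerm, Complex.norm_exp]
  congr 1
  have : 2 * π * I * ((∑ i, v i * (x i : ℝ) : ℝ) : ℂ)
    = ((2 * π * (∑ i, v i * (x i : ℝ)) : ℝ) : ℂ) * I := by push_cast; ring
  rw [this]
  have h2 : -π * s * (quad A (fun i => (x i : ℝ)) : ℝ)
    = ((-π * quad A (fun i => (x i : ℝ)) : ℝ) : ℂ) * s := by push_cast; ring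
  rw [h2, Complex.add_re, Complex.re_ofReal_mul, Complex.re_ofReal_mul, I_re]
  ring

theorem summable_lhsTerm (A : Matrix (Fin n) (Fin n) ℝ) (hp : Pos A) (s : ℂ) (hs : 0 < s.re)
    (v : Fin n → ℝ) : Summable (lhsTerm A s v) := by
  have h := summable_gauss A hp (c := π * s.re) (by positivity) 0
  refine Summable.of_norm (h.congr fun x => ?_)
  rw [norm_lhsTerm]
  simp

theorem re_inv_pos {s : ℂ} (hs : 0 < s.re) : 0 < (1 / s).re := by
  rw [one_div, Complex.inv_re]
  have : s ≠ 0 := by rintro rfl; simp at hs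
  exact div_pos hs (Complex.normSq_pos.2 this)

theorem norm_rhsTerm (A : Matrix (Fin n) (Fin n) ℝ) (s : ℂ) (v : Fin n → ℝ)
    (x : Fin n → ℤ) :
    ‖rhsTerm A s v x‖ = Real.exp (-(π * (1 / s).re) * quad A (fun i => (x i : ℝ) - v i)) := by
  rw [rhsTerm, Complex.norm_exp]
  congr 1
  have h2 : -π / s * (quad A (fun i => (x i : ℝ) - v i) : ℝ)
    = ((-π * quad A (fun i => (x i : ℝ) - v i) : ℝ) : ℂ) * (1 / s) := by push_cast; ring
  rw [h2, Complex.re_ofReal_mul]
  ring

theorem summable_rhsTerm (A : Matrix (Fin n) (Fin n) ℝ) (hp : Pos A) (s : ℂ) (hs : 0 < s.re)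
    (v : Fin n → ℝ) : Summable (rhsTerm A s v) := by
  have h := summable_gauss A hp (c := π * (1 / s).re) (mul_pos Real.pi_pos (re_inv_pos hs)) v
  refine Summable.of_norm (h.congr fun x => ?_)
  rw [norm_rhsTerm]

/-- the mixed family in the induction step -/
noncomputable def mixed (A : Matrix (Fin (n + 1)) (Fin (n + 1)) ℝ) (s : ℂ) (v : Fin (n + 1) → ℝ)
    (k₀ : ℤ) (y : Fin n → ℤ) : ℂ :=
  cexp (-π / (s * (A 0 0 : ℝ)) * (((k₀ : ℝ) - v 0 : ℝ) : ℂ) ^ 2) *
    lhsTerm (schur A) s (fun i => v i.succ + ((k₀ : ℝ) - v 0) / A 0 0 * A 0 i.succ) y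

theorem inner_sum (A : Matrix (Fin (n + 1)) (Fin (n + 1)) ℝ) (hA : A.IsSymm) (hp : Pos A)
    (s : ℂ) (hs : 0 < s.re) (v : Fin (n + 1) → ℝ) (y : Fin n → ℤ) :
    ∑' x₀ : ℤ, lhsTerm A s v (Fin.cons x₀ y)
      = ∑' k₀ : ℤ, (1 / (s * (A 0 0 : ℝ)) ^ (1 / 2 : ℂ)) * mixed A s v k₀ y := by
  have ha := pos_zero_zero A hA hp
  have hs0 : s ≠ 0 := by rintro rfl; simp at hs
  have ha' : ((A 0 0 : ℝ) : ℂ) ≠ 0 := by exact_mod_cast ha.ne'
  set β : ℝ := bvec A ⬝ᵥ (fun i => (y i : ℝ)) with hβ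
  have h1 : ∀ x₀ : ℤ, lhsTerm A s v (Fin.cons x₀ y)
      = cexp (-π * (s * (A 0 0 : ℝ)) * (x₀ : ℂ) ^ 2 + 2 * π * (I * v 0 - s * β) * x₀)
        * cexp (-π * s * ((β ^ 2 / A 0 0 + quad (schur A) (fun i => (y i : ℝ)) : ℝ) : ℂ)
          + 2 * π * I * ((∑ i : Fin n, v i.succ * (y i : ℝ) : ℝ) : ℂ)) := by
    intro x₀
    rw [lhsTerm, ← Complex.exp_add]
    congr 1
    have hc : (fun i => ((Fin.cons x₀ y : Fin (n + 1) → ℤ) i : ℝ))
        = (Fin.cons (x₀ : ℝ) (fun i => (y i : ℝ)) : Fin (n + 1) → ℝ) := by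
      funext i
      refine Fin.cases ?_ (fun i => ?_) i <;> simp
    rw [hc, quad_cons A hA ha.ne', Fin.sum_univ_succ]
    simp only [Fin.cons_zero, Fin.cons_succ]
    rw [← hβ]
    push_cast
    field_simp
    ring
  simp_rw [h1]
  rw [tsum_mul_right, Complex.tsum_exp_neg_quadratic (a := s * (A 0 0 : ℝ))
    (by rw [mul_comm, Complex.re_ofReal_mul]; positivity), mul_assoc, ← tsum_mul_right,
    ← tsum_mul_left]
  refine tsum_congr fun k₀ => ?_
  congr 1
  rw [mixed, lhsTerm, ← Complex.exp_add, ← Complex.exp_add]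
  congr 1
  have hsum : (∑ i : Fin n, (v i.succ + ((k₀ : ℝ) - v 0) / A 0 0 * A 0 i.succ) * (y i : ℝ))
      = (∑ i : Fin n, v i.succ * (y i : ℝ)) + ((k₀ : ℝ) - v 0) / A 0 0 * β := by
    rw [hβ]
    simp only [dotProduct, bvec, Finset.mul_sum, ← Finset.sum_add_distrib]
    refine Finset.sum_congr rfl fun i _ => ?_
    ring
  rw [hsum]
  have hI : (I : ℂ) ^ 2 = -1 := I_sq
  have key : ((k₀ : ℂ) + I * (I * (v 0 : ℂ) - s * (β : ℂ))) ^ 2
      = ((k₀ : ℂ) - v 0) ^ 2 - 2 * I * s * β * ((k₀ : ℂ) - v 0) - s ^ 2 * β ^ 2 := by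
    linear_combination (2 * (k₀ : ℂ) * v 0 + I ^ 2 * (v 0 : ℂ) ^ 2 - (v 0 : ℂ) ^ 2
      - 2 * I * s * v 0 * β + s ^ 2 * β ^ 2) * hI
  rw [key]
  push_cast
  field_simp
  ring

theorem norm_mixed (A : Matrix (Fin (n + 1)) (Fin (n + 1)) ℝ)
    (s : ℂ) (v : Fin (n + 1) → ℝ) (k₀ : ℤ) (y : Fin n → ℤ) :
    ‖mixed A s v k₀ y‖ = Real.exp (-(π / A 0 0 * (1 / s).re) * ((k₀ : ℝ) - v 0) ^ 2) *
      Real.exp (-(π * s.re) * quad (schur A) (fun i => (y i : ℝ))) := by
  rw [mixed, norm_mul, norm_lhsTerm, Complex.norm_exp]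
  congr 2
  have h2 : -π / (s * (A 0 0 : ℝ)) * (((k₀ : ℝ) - v 0 : ℝ) : ℂ) ^ 2
    = ((-π / A 0 0 * ((k₀ : ℝ) - v 0) ^ 2 : ℝ) : ℂ) * (1 / s) := by
      push_cast
      rw [div_mul_eq_mul_div, div_mul_eq_mul_div, ← mul_div_assoc, mul_one, div_div, mul_comm s]
  rw [h2, Complex.re_ofReal_mul]
  ring

theorem summable_gauss_int {c : ℝ} (hc : 0 < c) (v : ℝ) :
    Summable fun k : ℤ => Real.exp (-c * ((k : ℝ) - v) ^ 2) := by
  have hs := (summable_exp_neg_sq_int (c := c / 2) (by positivity)).mul_left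
    (Real.exp (c * v ^ 2))
  refine Summable.of_nonneg_of_le (fun _ => (Real.exp_pos _).le) (fun k => ?_) hs
  rw [← Real.exp_add]
  apply Real.exp_le_exp.2
  nlinarith [mul_nonneg hc.le (sq_nonneg ((k : ℝ) - 2 * v))]

theorem summable_mixed (A : Matrix (Fin (n + 1)) (Fin (n + 1)) ℝ) (hA : A.IsSymm) (hp : Pos A)
    (s : ℂ) (hs : 0 < s.re) (v : Fin (n + 1) → ℝ) :
    Summable (fun p : ℤ × (Fin n → ℤ) => mixed A s v p.1 p.2) := by
  have ha := pos_zero_zero A hA hp
  have h1 := summable_gauss_int (c := π / A 0 0 * (1 / s).re)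
    (mul_pos (div_pos Real.pi_pos ha) (re_inv_pos hs)) (v 0)
  have h2 := summable_gauss (schur A) (pos_schur A hA hp) (c := π * s.re) (by positivity) 0
  refine Summable.of_norm ?_
  refine (h1.mul_of_nonneg h2 (fun _ => (Real.exp_pos _).le)
    (fun _ => (Real.exp_pos _).le)).congr fun p => ?_
  rw [norm_mixed]
  simp

theorem rhsTerm_cons (A A' : Matrix (Fin (n + 1)) (Fin (n + 1)) ℝ)
    (hA' : A'.IsSymm) (h0 : A 0 0 ≠ 0) (h : A * A' = 1)
    (s : ℂ) (v : Fin (n + 1) → ℝ) (k₀ : ℤ) (k : Fin n → ℤ) :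
    rhsTerm A' s v (Fin.cons k₀ k) =
      cexp (-π / (s * (A 0 0 : ℝ)) * (((k₀ : ℝ) - v 0 : ℝ) : ℂ) ^ 2) *
      rhsTerm (low A') s (fun i => v i.succ + ((k₀ : ℝ) - v 0) / A 0 0 * A 0 i.succ) k := by
  rw [rhsTerm, rhsTerm, ← Complex.exp_add]
  congr 1
  have hc : (fun i => ((Fin.cons k₀ k : Fin (n + 1) → ℤ) i : ℝ) - v i)
      = (Fin.cons ((k₀ : ℝ) - v 0) (fun i => (k i : ℝ) - v i.succ) : Fin (n + 1) → ℝ) := by
    funext i
    refine Fin.cases ?_ (fun i => ?_) i <;> simp
  rw [hc, quad_inv_cons A A' hA' h0 h]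
  have hv : ((fun i => (k i : ℝ) - v i.succ) - (((k₀ : ℝ) - v 0) / A 0 0) • bvec A)
      = fun i => (k i : ℝ) - (v i.succ + ((k₀ : ℝ) - v 0) / A 0 0 * A 0 i.succ) := by
    funext i
    simp [bvec]
    ring
  rw [hv]
  generalize quad (low A') _ = Q
  push_cast
  by_cases hs : s = 0
  · subst hs; simp
  · have ha' : ((A 0 0 : ℝ) : ℂ) ≠ 0 := by exact_mod_cast h0
    field_simp
    ring

theorem ofReal_mul_cpow {a : ℝ} (ha : 0 < a) {s : ℂ} (hs : s ≠ 0) (r : ℂ) :
    ((a : ℂ) * s) ^ r = (a : ℂ) ^ r * s ^ r := by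
  have ha' : (a : ℂ) ≠ 0 := by exact_mod_cast ha.ne'
  rw [Complex.cpow_def_of_ne_zero (mul_ne_zero ha' hs), Complex.cpow_def_of_ne_zero ha',
    Complex.cpow_def_of_ne_zero hs, ← Complex.exp_add, Complex.log_ofReal_mul ha hs,
    Complex.ofReal_log ha.le]
  congr 1
  ring

theorem theta_transform (n : ℕ) : ∀ (A A' : Matrix (Fin n) (Fin n) ℝ), A.IsSymm → A'.IsSymm →
    Pos A → Pos A' → A * A' = 1 → ∃ C : ℂ, ∀ s : ℂ, 0 < s.re → ∀ v : Fin n → ℝ,
      ∑' x : Fin n → ℤ, lhsTerm A s v x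
        = C / (s ^ (1 / 2 : ℂ)) ^ n * ∑' k : Fin n → ℤ, rhsTerm A' s v k := by
  induction n with
  | zero =>
    intro A A' _ _ _ _ _
    refine ⟨1, fun s _ v => ?_⟩
    rw [tsum_fintype, tsum_fintype]
    simp [lhsTerm, rhsTerm, quad]
  | succ n ih =>
    intro A A' hA hA' hp hp' hinv
    have ha := pos_zero_zero A hA hp
    obtain ⟨C, hC⟩ := ih (schur A) (low A') (schur_symm A hA) (low_symm A' hA')
      (pos_schur A hA hp) (pos_low A' hA' hp') (schur_mul_low A A' hA ha.ne' hinv)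
    refine ⟨C / ((A 0 0 : ℝ) : ℂ) ^ (1 / 2 : ℂ), fun s hs v => ?_⟩
    have hs0 : s ≠ 0 := by rintro rfl; simp at hs
    set K : ℂ := 1 / (s * (A 0 0 : ℝ)) ^ (1 / 2 : ℂ) with hK
    have hK' : K = 1 / (((A 0 0 : ℝ) : ℂ) ^ (1 / 2 : ℂ) * s ^ (1 / 2 : ℂ)) := by
      rw [hK, mul_comm s, ofReal_mul_cpow ha hs0]
    calc ∑' x : Fin (n + 1) → ℤ, lhsTerm A s v x
        = ∑' p : ℤ × (Fin n → ℤ), lhsTerm A s v (Fin.cons p.1 p.2) :=
          ((Fin.consEquiv (fun _ : Fin (n + 1) => ℤ)).tsum_eq (lhsTerm A s v)).symm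
      _ = ∑' p : (Fin n → ℤ) × ℤ, lhsTerm A s v (Fin.cons p.2 p.1) :=
          ((Equiv.prodComm (Fin n → ℤ) ℤ).tsum_eq
            (fun p : ℤ × (Fin n → ℤ) => lhsTerm A s v (Fin.cons p.1 p.2))).symm
      _ = ∑' y : Fin n → ℤ, ∑' x₀ : ℤ, lhsTerm A s v (Fin.cons x₀ y) := by
          have hsum : Summable (fun p : (Fin n → ℤ) × ℤ => lhsTerm A s v (Fin.cons p.2 p.1)) := by
            have h1 := (Fin.consEquiv (fun _ : Fin (n + 1) => ℤ)).summable_iff.2
              (summable_lhsTerm A hp s hs v)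
            exact (Equiv.prodComm (Fin n → ℤ) ℤ).summable_iff.2 h1
          exact hsum.tsum_prod
      _ = ∑' y : Fin n → ℤ, ∑' k₀ : ℤ, K * mixed A s v k₀ y := by
          refine tsum_congr fun y => ?_
          rw [inner_sum A hA hp s hs v y]
      _ = K * ∑' k₀ : ℤ, ∑' y : Fin n → ℤ, mixed A s v k₀ y := by
          simp_rw [tsum_mul_left]
          congr 1
          have hsum := summable_mixed A hA hp s hs v
          exact (Summable.tsum_comm (f := fun k₀ y => mixed A s v k₀ y) hsum)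
      _ = K * ∑' k₀ : ℤ, ∑' k : Fin n → ℤ,
            C / (s ^ (1 / 2 : ℂ)) ^ n * rhsTerm A' s v (Fin.cons k₀ k) := by
          congr 1
          refine tsum_congr fun k₀ => ?_
          simp_rw [mixed, tsum_mul_left]
          rw [hC s hs]
          simp_rw [rhsTerm_cons A A' hA' ha.ne' hinv, tsum_mul_left]
          ring
      _ = K * (C / (s ^ (1 / 2 : ℂ)) ^ n) * ∑' p : ℤ × (Fin n → ℤ),
            rhsTerm A' s v (Fin.cons p.1 p.2) := by
          have hsum : Summable (fun p : ℤ × (Fin n → ℤ) => rhsTerm A' s v (Fin.cons p.1 p.2)) :=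
            (Fin.consEquiv (fun _ : Fin (n + 1) => ℤ)).summable_iff.2
              (summable_rhsTerm A' hp' s hs v)
          rw [hsum.tsum_prod]
          simp_rw [tsum_mul_left]
          ring
      _ = _ := by
          rw [← (Fin.consEquiv (fun _ : Fin (n + 1) => ℤ)).tsum_eq (rhsTerm A' s v)]
          have h3 : K * (C / (s ^ (1 / 2 : ℂ)) ^ n)
              = C / ((A 0 0 : ℝ) : ℂ) ^ (1 / 2 : ℂ) / (s ^ (1 / 2 : ℂ)) ^ (n + 1) := by
            rw [hK', pow_succ]
            ring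
          rw [h3]
          rfl

end Cfsg.Agent.SporadicStructure.ThetaPoisson
end

-- part: SporadicStructure/ThetaModular
section
/-!
The theta series of a positive definite even unimodular integral quadratic form in 24 variables is a
modular form of weight 12 and level one.
-/

set_option autoImplicit false

namespace Cfsg.Agent.SporadicStructure.ThetaModular

open Complex Matrix Cfsg.Agent.SporadicStructure.ThetaPoisson
open scoped Real

/-- the real matrix of an integral form -/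
noncomputable def realMat {n : ℕ} (B : Matrix (Fin n) (Fin n) ℤ) : Matrix (Fin n) (Fin n) ℝ :=
  B.map (Int.cast : ℤ → ℝ)

/-- integral quadratic form -/
def iquad {n : ℕ} (B : Matrix (Fin n) (Fin n) ℤ) (x : Fin n → ℤ) : ℤ := x ⬝ᵥ (B *ᵥ x)

theorem quad_realMat {n : ℕ} (B : Matrix (Fin n) (Fin n) ℤ) (x : Fin n → ℤ) :
    quad (realMat B) (fun i => (x i : ℝ)) = (iquad B x : ℝ) := by
  rw [quad_eq_dotProduct, iquad]
  simp only [dotProduct, mulVec, realMat, Matrix.map_apply]
  push_cast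
  rfl

theorem realMat_symm {n : ℕ} {B : Matrix (Fin n) (Fin n) ℤ} (h : B.IsSymm) :
    (realMat B).IsSymm := by
  ext i j
  simp only [realMat, transpose_apply, Matrix.map_apply]
  rw [h.apply i j]

theorem realMat_mul {n : ℕ} {B B' : Matrix (Fin n) (Fin n) ℤ} (h : B * B' = 1) :
    realMat B * realMat B' = 1 := by
  have : realMat B * realMat B' = realMat (B * B') := by
    simp only [realMat]
    exact (Matrix.map_mul (f := Int.castRingHom ℝ)).symm
  rw [this, h, realMat, Matrix.map_one _ Int.cast_zero Int.cast_one]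

theorem quad_nonneg_of_int {n : ℕ} {B : Matrix (Fin n) (Fin n) ℤ}
    (hpos : ∀ x : Fin n → ℤ, x ≠ 0 → 0 < iquad B x) (x : Fin n → ℝ) :
    0 ≤ quad (realMat B) x := by
  have hdense : DenseRange (Pi.map (fun (_ : Fin n) (q : ℚ) => (q : ℝ))) :=
    DenseRange.piMap fun _ => Rat.denseRange_cast
  refine hdense.induction_on (p := fun x => 0 ≤ quad (realMat B) x) x
    (isClosed_le continuous_const (continuous_quad _)) ?_
  intro q
  -- common denominator
  let N : ℕ := ∏ i, (q i).den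
  have hN : 0 < N := Finset.prod_pos fun i _ => (q i).den_pos
  let m : Fin n → ℤ := fun i => (q i).num * (N / (q i).den : ℕ)
  have hm : ∀ i, (m i : ℝ) = N * (q i : ℝ) := by
    intro i
    have hd : (q i).den ∣ N := Finset.dvd_prod_of_mem _ (Finset.mem_univ i)
    have h1 : ((N / (q i).den : ℕ) : ℝ) = (N : ℝ) / (q i).den :=
      Nat.cast_div hd (by exact_mod_cast (q i).den_ne_zero)
    have h2 : ((q i : ℚ) : ℝ) = (q i).num / (q i).den := by
      rw [Rat.cast_def]
    simp only [m]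
    rw [Int.cast_mul, Int.cast_natCast, h1, h2]
    ring
  have h3 : (Pi.map (fun (_ : Fin n) (q : ℚ) => (q : ℝ))) q = (1 / (N : ℝ)) • fun i => (m i : ℝ) := by
    funext i
    simp only [Pi.map_apply, Pi.smul_apply, smul_eq_mul, hm]
    have : (N : ℝ) ≠ 0 := by exact_mod_cast hN.ne'
    field_simp
  show 0 ≤ quad (realMat B) ((Pi.map (fun (_ : Fin n) (q : ℚ) => (q : ℝ))) q)
  rw [h3, quad_smul, quad_realMat]
  have h4 : 0 ≤ iquad B m := by
    by_cases hm0 : m = 0
    · rw [hm0]; simp [iquad]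
    · exact (hpos m hm0).le
  positivity

theorem pos_realMat {n : ℕ} {B B' : Matrix (Fin n) (Fin n) ℤ} (hs : B.IsSymm)
    (hpos : ∀ x : Fin n → ℤ, x ≠ 0 → 0 < iquad B x) (hinv : B * B' = 1) : Pos (realMat B) := by
  intro x hx
  have hnn := quad_nonneg_of_int hpos x
  rcases hnn.lt_or_eq with h | h
  · exact h
  exfalso
  have hpsd : (realMat B).PosSemidef := by
    refine Matrix.PosSemidef.of_dotProduct_mulVec_nonneg ?_ ?_
    · ext i j
      simp only [conjTranspose_apply, star_trivial]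
      exact (realMat_symm hs).apply i j
    · intro y
      have := quad_nonneg_of_int hpos y
      rw [quad_eq_dotProduct] at this
      simpa using this
  have h0 : realMat B *ᵥ x = 0 := by
    rw [← hpsd.dotProduct_mulVec_zero_iff]
    rw [quad_eq_dotProduct] at h
    simpa using h.symm
  have hinv' : realMat B' * realMat B = 1 := by
    rw [mul_eq_one_comm]
    exact realMat_mul hinv
  apply hx
  have : (realMat B' * realMat B) *ᵥ x = 0 := by
    rw [← Matrix.mulVec_mulVec, h0, Matrix.mulVec_zero]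
  rwa [hinv', Matrix.one_mulVec] at this

theorem pos_inv {n : ℕ} {A A' : Matrix (Fin n) (Fin n) ℝ} (hA : Pos A) (hinv : A * A' = 1) :
    Pos A' := by
  intro x hx
  have h1 : A *ᵥ (A' *ᵥ x) = x := by rw [Matrix.mulVec_mulVec, hinv, Matrix.one_mulVec]
  have h2 := hA (A' *ᵥ x) (by
    intro h
    rw [h, Matrix.mulVec_zero] at h1
    exact hx h1.symm)
  rw [quad_eq_dotProduct, h1] at h2
  rw [quad_eq_dotProduct, dotProduct_comm]
  exact h2

theorem symm_inv {n : ℕ} {B B' : Matrix (Fin n) (Fin n) ℤ} (hs : B.IsSymm) (hinv : B * B' = 1) :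
    B'.IsSymm := by
  have h1 : B' * B = 1 := mul_eq_one_comm.1 hinv
  have h2 : B'.transpose * B = 1 := by
    have := congrArg Matrix.transpose hinv
    rw [Matrix.transpose_mul, Matrix.transpose_one, hs.eq] at this
    exact this
  have : B'.transpose = B' := by
    calc B'.transpose = B'.transpose * (B * B') := by rw [hinv, Matrix.mul_one]
      _ = B' := by rw [← Matrix.mul_assoc, h2, Matrix.one_mul]
  exact this

/-- the data used below: a symmetric positive definite unimodular integral matrix with inverse -/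
structure Unimod {n : ℕ} (B B' : Matrix (Fin n) (Fin n) ℤ) : Prop where
  symm : B.IsSymm
  pos : ∀ x : Fin n → ℤ, x ≠ 0 → 0 < iquad B x
  inv : B * B' = 1

variable {n : ℕ} {B B' : Matrix (Fin n) (Fin n) ℤ}

theorem Unimod.posR (h : Unimod B B') : Pos (realMat B) := pos_realMat h.symm h.pos h.inv

/-- the theta series as a function of `s`, `Re s > 0` -/
noncomputable def Theta (B : Matrix (Fin n) (Fin n) ℤ) (s : ℂ) : ℂ :=
  ∑' x : Fin n → ℤ, cexp (-π * s * (iquad B x : ℂ))

theorem lhsTerm_eq (B : Matrix (Fin n) (Fin n) ℤ) (s : ℂ) (x : Fin n → ℤ) :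
    lhsTerm (realMat B) s 0 x = cexp (-π * s * (iquad B x : ℂ)) := by
  rw [lhsTerm, quad_realMat]
  simp

theorem summable_theta (h : Unimod B B') {s : ℂ} (hs : 0 < s.re) :
    Summable fun x : Fin n → ℤ => cexp (-π * s * (iquad B x : ℂ)) :=
  (summable_lhsTerm (realMat B) h.posR s hs 0).congr fun x => lhsTerm_eq B s x

theorem rhs_reindex (h : Unimod B B') (s : ℂ) :
    ∑' k : Fin n → ℤ, rhsTerm (realMat B') s 0 k = Theta B (1 / s) := by
  have h' : B' * B = 1 := mul_eq_one_comm.1 h.inv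
  let e : (Fin n → ℤ) ≃ (Fin n → ℤ) :=
    { toFun := fun x => B *ᵥ x
      invFun := fun x => B' *ᵥ x
      left_inv := fun x => by
        show B' *ᵥ (B *ᵥ x) = x
        rw [Matrix.mulVec_mulVec, h', Matrix.one_mulVec]
      right_inv := fun x => by
        show B *ᵥ (B' *ᵥ x) = x
        rw [Matrix.mulVec_mulVec, h.inv, Matrix.one_mulVec] }
  rw [← e.tsum_eq, Theta]
  refine tsum_congr fun x => ?_
  rw [rhsTerm]
  simp only [Pi.zero_apply, sub_zero]
  have : iquad B' (e x) = iquad B x := by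
    show (B *ᵥ x) ⬝ᵥ (B' *ᵥ (B *ᵥ x)) = x ⬝ᵥ (B *ᵥ x)
    rw [Matrix.mulVec_mulVec, h', Matrix.one_mulVec, dotProduct_comm]
  rw [quad_realMat, this]
  congr 1
  push_cast
  ring

theorem theta_const (h : Unimod B B') : ∃ C : ℂ, ∀ s : ℂ, 0 < s.re →
    Theta B s = C / (s ^ (1 / 2 : ℂ)) ^ n * Theta B (1 / s) := by
  obtain ⟨C, hC⟩ := theta_transform n (realMat B) (realMat B') (realMat_symm h.symm)
    (realMat_symm (symm_inv h.symm h.inv)) h.posR (pos_inv h.posR (realMat_mul h.inv))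
    (realMat_mul h.inv)
  refine ⟨C, fun s hs => ?_⟩
  have := hC s hs 0
  rw [rhs_reindex h] at this
  rw [← this, Theta]
  exact tsum_congr fun x => (lhsTerm_eq B s x).symm

theorem theta_one_ne_zero (h : Unimod B B') : Theta B 1 ≠ 0 := by
  have h1 : Theta B 1 = ((∑' x : Fin n → ℤ, Real.exp (-π * iquad B x) : ℝ) : ℂ) := by
    rw [Theta, Complex.ofReal_tsum]
    refine tsum_congr fun x => ?_
    push_cast
    ring_nf
  rw [h1]
  have hsum : Summable fun x : Fin n → ℤ => Real.exp (-π * iquad B x) := by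
    have := summable_gauss (realMat B) h.posR Real.pi_pos 0
    refine this.congr fun x => ?_
    simp [quad_realMat]
  have : 0 < ∑' x : Fin n → ℤ, Real.exp (-π * iquad B x) :=
    hsum.tsum_pos (fun x => (Real.exp_pos _).le) 0 (Real.exp_pos _)
  exact_mod_cast this.ne'

theorem theta_inversion (h : Unimod B B') {s : ℂ} (hs : 0 < s.re) :
    Theta B s = 1 / (s ^ (1 / 2 : ℂ)) ^ n * Theta B (1 / s) := by
  obtain ⟨C, hC⟩ := theta_const h
  have h1 := hC 1 (by simp)
  simp only [Complex.one_cpow, one_pow, div_one] at h1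
  have hC1 : C = 1 := by
    have h2 : (C - 1) * Theta B 1 = 0 := by linear_combination -h1
    rcases mul_eq_zero.1 h2 with h3 | h3
    · linear_combination h3
    · exact absurd h3 (theta_one_ne_zero h)
  rw [hC s hs, hC1]

/-- the theta function on the upper half-plane -/
noncomputable def thetaH (B : Matrix (Fin n) (Fin n) ℤ) (τ : UpperHalfPlane) : ℂ :=
  Theta B (-I * τ)

theorem re_neg_I_mul (τ : UpperHalfPlane) : 0 < (-I * (τ : ℂ)).re := by
  have : (-I * (τ : ℂ)).re = τ.im := by simp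
  rw [this]
  exact τ.im_pos

/-- half the value of the form -/
def half (B : Matrix (Fin n) (Fin n) ℤ) (x : Fin n → ℤ) : ℕ := (iquad B x / 2).toNat

theorem two_mul_half (h : Unimod B B') (he : ∀ x : Fin n → ℤ, (2 : ℤ) ∣ iquad B x)
    (x : Fin n → ℤ) : (2 : ℤ) * (half B x : ℤ) = iquad B x := by
  have h0 : 0 ≤ iquad B x := by
    by_cases hx : x = 0
    · rw [hx]; simp [iquad]
    · exact (h.pos x hx).le
  obtain ⟨m, hm⟩ := he x
  rw [half, Int.toNat_of_nonneg (by omega)]
  omega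

theorem exp_eq_q_pow (h : Unimod B B') (he : ∀ x : Fin n → ℤ, (2 : ℤ) ∣ iquad B x)
    (τ : ℂ) (x : Fin n → ℤ) :
    cexp (-π * (-I * τ) * (iquad B x : ℂ)) = Function.Periodic.qParam 1 τ ^ half B x := by
  rw [Function.Periodic.qParam, ← Complex.exp_nat_mul]
  congr 1
  have h1 : (iquad B x : ℂ) = 2 * (half B x : ℂ) := by
    have := two_mul_half h he x
    exact_mod_cast this.symm
  rw [h1]
  push_cast
  ring

theorem finite_fiber (h : Unimod B B') (m : ℕ) : {x : Fin n → ℤ | half B x = m}.Finite := by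
  have hsum : Summable fun x : Fin n → ℤ => Real.exp (-π * iquad B x) := by
    have := summable_gauss (realMat B) h.posR Real.pi_pos 0
    refine this.congr fun x => ?_
    simp [quad_realMat]
  have h1 := hsum.tendsto_cofinite_zero
  have h2 : ∀ᶠ x : Fin n → ℤ in Filter.cofinite,
      Real.exp (-π * iquad B x) < Real.exp (-π * (2 * m + 2)) :=
    h1.eventually (gt_mem_nhds (Real.exp_pos _))
  rw [Filter.eventually_cofinite] at h2
  refine h2.subset ?_
  intro x hx
  simp only [Set.mem_ofPred_eq] at hx ⊢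
  rw [not_lt, Real.exp_le_exp]
  have h3 : iquad B x ≤ 2 * m + 2 := by
    rw [half] at hx
    omega
  have h4 : (iquad B x : ℝ) ≤ 2 * m + 2 := by exact_mod_cast h3
  nlinarith [Real.pi_pos]

/-- number of vectors with half norm `m` -/
noncomputable def count (B : Matrix (Fin n) (Fin n) ℤ) (m : ℕ) : ℕ :=
  {x : Fin n → ℤ | half B x = m}.ncard

theorem hasSum_thetaH (h : Unimod B B') (he : ∀ x : Fin n → ℤ, (2 : ℤ) ∣ iquad B x)
    (τ : UpperHalfPlane) :
    HasSum (fun m : ℕ => (count B m : ℂ) • Function.Periodic.qParam 1 (τ : ℂ) ^ m)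
      (thetaH B τ) := by
  have h1 : HasSum (fun x : Fin n → ℤ => Function.Periodic.qParam 1 (τ : ℂ) ^ half B x)
      (thetaH B τ) := by
    have := (summable_theta h (re_neg_I_mul τ)).hasSum
    rw [show (∑' x : Fin n → ℤ, cexp (-π * (-I * τ) * (iquad B x : ℂ))) = thetaH B τ from rfl] at this
    exact this.congr_fun (fun x => (exp_eq_q_pow h he τ x).symm)
  have h2 := (Equiv.sigmaFiberEquiv (half B)).hasSum_iff.2 h1
  refine h2.sigma fun m => ?_
  have hfin := finite_fiber h m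
  have : Fintype {x : Fin n → ℤ // half B x = m} := hfin.fintype
  have h3 : ∀ c : {x : Fin n → ℤ // half B x = m},
      ((fun x : Fin n → ℤ => Function.Periodic.qParam 1 (τ : ℂ) ^ half B x) ∘
        (Equiv.sigmaFiberEquiv (half B))) ⟨m, c⟩ = Function.Periodic.qParam 1 (τ : ℂ) ^ m := by
    intro c
    simp only [Function.comp_apply, Equiv.sigmaFiberEquiv_apply]
    rw [c.2]
  simp only [h3]
  convert hasSum_fintype (fun _ : {x : Fin n → ℤ // half B x = m} =>
    Function.Periodic.qParam 1 (τ : ℂ) ^ m) using 1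
  rw [Finset.sum_const, Finset.card_univ, nsmul_eq_mul, smul_eq_mul, count]
  congr 2
  rw [← Nat.card_coe_set_eq, ← Nat.card_eq_fintype_card]
  rfl

theorem thetaH_bounded (h : Unimod B B') (he : ∀ x : Fin n → ℤ, (2 : ℤ) ∣ iquad B x) :
    UpperHalfPlane.IsBoundedAtImInfty (thetaH B) :=
  UpperHalfPlane.isBoundedAtImInfty_of_hasSum_qExpansion one_pos (hasSum_thetaH h he)

theorem norm_term (B : Matrix (Fin n) (Fin n) ℤ) (τ : ℂ) (x : Fin n → ℤ) :
    ‖cexp (-π * (-I * τ) * (iquad B x : ℂ))‖ = Real.exp (-π * τ.im * iquad B x) := by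
  rw [Complex.norm_exp]
  congr 1
  have : -π * (-I * τ) * (iquad B x : ℂ) = ((π * iquad B x : ℝ) : ℂ) * (I * τ) := by
    push_cast; ring
  rw [this, Complex.re_ofReal_mul]
  simp
  ring

theorem differentiableOn_theta (h : Unimod B B') :
    DifferentiableOn ℂ (fun τ : ℂ => Theta B (-I * τ)) {z | 0 < z.im} := by
  intro z hz
  have hz' : 0 < z.im := hz
  have hopen : IsOpen {w : ℂ | z.im / 2 < w.im} := isOpen_lt continuous_const Complex.continuous_im
  have hsum : Summable fun x : Fin n → ℤ => Real.exp (-π * (z.im / 2) * iquad B x) := by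
    have := summable_gauss (realMat B) h.posR (c := π * (z.im / 2)) (by positivity) 0
    refine this.congr fun x => ?_
    simp [quad_realMat]
  have hd := differentiableOn_tsum_of_summable_norm
    (F := fun (x : Fin n → ℤ) (τ : ℂ) => cexp (-π * (-I * τ) * (iquad B x : ℂ)))
    (U := {w : ℂ | z.im / 2 < w.im}) hsum
    (fun x => by
      apply Differentiable.differentiableOn
      fun_prop) hopen
    (fun x w hw => by
      rw [norm_term]
      apply Real.exp_le_exp.2
      have hw' : z.im / 2 < w.im := hw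
      have h0 : (0 : ℝ) ≤ iquad B x := by
        by_cases hx : x = 0
        · rw [hx]; simp [iquad]
        · exact_mod_cast (h.pos x hx).le
      have := mul_le_mul_of_nonneg_right hw'.le h0
      nlinarith [Real.pi_pos, mul_le_mul_of_nonneg_left this Real.pi_pos.le])
  have hmem : z ∈ {w : ℂ | z.im / 2 < w.im} := by
    show z.im / 2 < z.im
    linarith
  exact ((hd z hmem).differentiableAt (hopen.mem_nhds hmem)).differentiableWithinAt

theorem mdiff_thetaH (h : Unimod B B') :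
    MDifferentiable (modelWithCornersSelf ℂ ℂ) (modelWithCornersSelf ℂ ℂ) (thetaH B) := by
  rw [UpperHalfPlane.mdifferentiable_iff]
  refine (differentiableOn_theta h).congr fun z hz => ?_
  simp only [Function.comp_apply, thetaH]
  rw [UpperHalfPlane.ofComplex_apply_of_im_pos hz]

theorem thetaH_T (h : Unimod B B') (he : ∀ x : Fin n → ℤ, (2 : ℤ) ∣ iquad B x)
    (τ : UpperHalfPlane) : thetaH B ((1 : ℝ) +ᵥ τ) = thetaH B τ := by
  rw [thetaH, thetaH, Theta, Theta]
  refine tsum_congr fun x => ?_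
  rw [exp_eq_q_pow h he, exp_eq_q_pow h he]
  congr 1
  rw [UpperHalfPlane.coe_vadd, Function.Periodic.qParam, Function.Periodic.qParam]
  rw [show (2 * π * I * (((1 : ℝ) : ℂ) + (τ : ℂ)) / ((1 : ℝ) : ℂ))
    = 2 * π * I * (τ : ℂ) / ((1 : ℝ) : ℂ) + 2 * π * I by push_cast; ring]
  exact Complex.exp_periodic _

theorem thetaH_S {B B' : Matrix (Fin 24) (Fin 24) ℤ} (h : Unimod B B')
    (τ : UpperHalfPlane) :
    Theta B (-I * (-(τ : ℂ))⁻¹) = (τ : ℂ) ^ 12 * thetaH B τ := by
  have hs := re_neg_I_mul τ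
  have h1 := theta_inversion h hs
  have hτ : (τ : ℂ) ≠ 0 := τ.ne_zero
  have h2 : 1 / (-I * (τ : ℂ)) = -I * (-(τ : ℂ))⁻¹ := by
    have hI : (I : ℂ) ≠ 0 := Complex.I_ne_zero
    field_simp
    rw [Complex.I_sq]
  have h3 : ((-I * (τ : ℂ)) ^ (1 / 2 : ℂ)) ^ 24 = (τ : ℂ) ^ 12 := by
    rw [← Complex.cpow_nat_mul]
    rw [show ((24 : ℕ) : ℂ) * (1 / 2 : ℂ) = ((12 : ℕ) : ℂ) by norm_num, Complex.cpow_natCast,
      mul_pow, neg_pow, show (12 : ℕ) = 4 * 3 by norm_num, pow_mul I, Complex.I_pow_four]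
    norm_num
  rw [h2, h3] at h1
  rw [thetaH, h1]
  field_simp

open UpperHalfPlane ModularForm MatrixGroups SlashInvariantForm in
theorem thetaH_slash_T {B B' : Matrix (Fin 24) (Fin 24) ℤ} (h : Unimod B B')
    (he : ∀ x : Fin 24 → ℤ, (2 : ℤ) ∣ iquad B x) :
    (thetaH B) ∣[(12 : ℤ)] ModularGroup.T = thetaH B := by
  ext z
  rw [SL_slash_apply, modular_T_smul, thetaH_T h he]
  have : denom (ModularGroup.T : SL(2, ℤ)) z = 1 := by
    rw [ModularGroup.denom_apply]
    simp [ModularGroup.T]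
  rw [this]
  simp

open UpperHalfPlane ModularForm MatrixGroups SlashInvariantForm in
theorem thetaH_slash_S {B B' : Matrix (Fin 24) (Fin 24) ℤ} (h : Unimod B B') :
    (thetaH B) ∣[(12 : ℤ)] ModularGroup.S = thetaH B := by
  ext z
  rw [SL_slash_apply, UpperHalfPlane.modular_S_smul]
  have h1 : denom (ModularGroup.S : SL(2, ℤ)) z = z := ModularGroup.denom_S z
  rw [h1]
  have h2 : thetaH B (UpperHalfPlane.mk (-z : ℂ)⁻¹ z.im_inv_neg_coe_pos)
      = (z : ℂ) ^ 12 * thetaH B z := thetaH_S h z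
  rw [h2]
  have hz : (z : ℂ) ≠ 0 := z.ne_zero
  rw [_root_.zpow_neg, show ((12 : ℤ)) = ((12 : ℕ) : ℤ) from rfl, _root_.zpow_natCast]
  field_simp

open UpperHalfPlane ModularForm MatrixGroups SlashInvariantForm in
/-- the theta series as a modular form -/
noncomputable def thetaForm {B B' : Matrix (Fin 24) (Fin 24) ℤ} (h : Unimod B B')
    (he : ∀ x : Fin 24 → ℤ, (2 : ℤ) ∣ iquad B x) : ModularForm 𝒮ℒ 12 where
  toFun := thetaH B
  slash_action_eq' A hA := by
    obtain ⟨A, rfl⟩ := hA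
    exact slash_action_generators_SL2Z (thetaH_slash_S h) (thetaH_slash_T h he) A
  holo' := mdiff_thetaH h
  bdd_at_cusps' {c} hc := by
    rw [Subgroup.IsArithmetic.isCusp_iff_isCusp_SL2Z] at hc
    rw [OnePoint.isBoundedAt_iff_forall_SL2Z hc]
    intro γ _
    rw [slash_action_generators_SL2Z (thetaH_slash_S h) (thetaH_slash_T h he)]
    exact thetaH_bounded h he

open UpperHalfPlane ModularForm MatrixGroups SlashInvariantForm in
theorem thetaForm_coeff {B B' : Matrix (Fin 24) (Fin 24) ℤ} (h : Unimod B B')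
    (he : ∀ x : Fin 24 → ℤ, (2 : ℤ) ∣ iquad B x) (m : ℕ) :
    (qExpansion 1 (thetaForm h he)).coeff m = (count B m : ℂ) :=
  (ModularFormClass.qExpansion_coeff_unique (f := thetaForm h he) one_pos
    one_mem_strictPeriods_SL (hasSum_thetaH h he) m).symm

theorem count_eq (h : Unimod B B') (he : ∀ x : Fin n → ℤ, (2 : ℤ) ∣ iquad B x) (m : ℕ) :
    count B m = {x : Fin n → ℤ | x ⬝ᵥ (B *ᵥ x) = 2 * (m : ℤ)}.ncard := by
  rw [count]
  congr 1
  ext x
  have h1 := two_mul_half h he x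
  have h2 : iquad B x = x ⬝ᵥ (B *ᵥ x) := rfl
  simp only [Set.mem_ofPred_eq]
  rw [← h2, ← h1]
  constructor
  · intro h; rw [h]
  · intro h; exact_mod_cast mul_left_cancel₀ two_ne_zero h

theorem count_zero (h : Unimod B B') (he : ∀ x : Fin n → ℤ, (2 : ℤ) ∣ iquad B x) :
    count B 0 = 1 := by
  rw [count_eq h he, Set.ncard_eq_one]
  refine ⟨0, ?_⟩
  ext x
  simp only [Set.mem_ofPred_eq, Set.mem_singleton_iff]
  constructor
  · intro h0
    by_contra hx
    have := h.pos x hx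
    rw [iquad, h0] at this
    simp at this
  · rintro rfl
    simp

end Cfsg.Agent.SporadicStructure.ThetaModular
end

-- part: SporadicStructure/Weight12
section
/-! Modular forms of weight 12 and level one with `q`-expansion `1 + 0 q + ...`.
Used for S1632 (part B). -/

set_option autoImplicit false

namespace Cfsg.Agent.SporadicStructure.Weight12

open UpperHalfPlane ModularForm ModularFormClass MatrixGroups EisensteinSeries

theorem bern4 : bernoulli 4 = -1 / 30 := by decide +kernel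

theorem bern6 : bernoulli 6 = 1 / 42 := by decide +kernel

theorem sigma3_two : ArithmeticFunction.sigma 3 2 = 9 := by decide +kernel
theorem sigma3_three : ArithmeticFunction.sigma 3 3 = 28 := by decide +kernel
theorem sigma3_four : ArithmeticFunction.sigma 3 4 = 73 := by decide +kernel
theorem sigma5_two : ArithmeticFunction.sigma 5 2 = 33 := by decide +kernel
theorem sigma5_three : ArithmeticFunction.sigma 5 3 = 244 := by decide +kernel
theorem sigma5_four : ArithmeticFunction.sigma 5 4 = 1057 := by decide +kernel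

theorem E4_0 : (qExpansion 1 E₄).coeff 0 = 1 := E_qExpansion_coeff_zero _ ⟨2, rfl⟩
theorem E4_1 : (qExpansion 1 E₄).coeff 1 = 240 := E₄_qExpansion_coeff_one
theorem E4_2 : (qExpansion 1 E₄).coeff 2 = 2160 := by
  norm_num [E_qExpansion_coeff _ ⟨2, rfl⟩, bern4, sigma3_two]
theorem E4_3 : (qExpansion 1 E₄).coeff 3 = 6720 := by
  norm_num [E_qExpansion_coeff _ ⟨2, rfl⟩, bern4, sigma3_three]
theorem E4_4 : (qExpansion 1 E₄).coeff 4 = 17520 := by
  norm_num [E_qExpansion_coeff _ ⟨2, rfl⟩, bern4, sigma3_four]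

theorem E6_0 : (qExpansion 1 E₆).coeff 0 = 1 := E_qExpansion_coeff_zero _ ⟨3, rfl⟩
theorem E6_1 : (qExpansion 1 E₆).coeff 1 = -504 := E₆_qExpansion_coeff_one
theorem E6_2 : (qExpansion 1 E₆).coeff 2 = -16632 := by
  norm_num [E_qExpansion_coeff _ ⟨3, rfl⟩, bern6, sigma5_two]
theorem E6_3 : (qExpansion 1 E₆).coeff 3 = -122976 := by
  norm_num [E_qExpansion_coeff _ ⟨3, rfl⟩, bern6, sigma5_three]
theorem E6_4 : (qExpansion 1 E₆).coeff 4 = -532728 := by
  norm_num [E_qExpansion_coeff _ ⟨3, rfl⟩, bern6, sigma5_four]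

/-- The form `(7 E₄³ + 5 E₆²) / 12`. -/
noncomputable def G : ModularForm 𝒮ℒ 12 :=
  (7 / 12 : ℂ) • ModularForm.mcast (by decide) (E₄.pow 3) +
    (5 / 12 : ℂ) • ModularForm.mcast (by decide) (E₆.pow 2)

theorem qExpansion_G : qExpansion 1 G =
    (7 / 12 : ℂ) • (qExpansion 1 E₄ * (qExpansion 1 E₄ * qExpansion 1 E₄)) +
      (5 / 12 : ℂ) • (qExpansion 1 E₆ * qExpansion 1 E₆) := by
  have h4 : qExpansion 1 (ModularForm.mcast (b := 12) (by decide) (E₄.pow 3) :
      ModularForm 𝒮ℒ 12) = qExpansion 1 E₄ ^ 3 := by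
    rw [ModularForm.qExpansion_mcast,
      ModularForm.qExpansion_pow one_pos one_mem_strictPeriods_SL]
  have h6 : qExpansion 1 (ModularForm.mcast (b := 12) (by decide) (E₆.pow 2) :
      ModularForm 𝒮ℒ 12) = qExpansion 1 E₆ ^ 2 := by
    rw [ModularForm.qExpansion_mcast,
      ModularForm.qExpansion_pow one_pos one_mem_strictPeriods_SL]
  rw [G, FunLike.coe_add, ModularForm.qExpansion_add one_pos one_mem_strictPeriods_SL,
    FunLike.coe_smul, FunLike.coe_smul,
    ModularForm.qExpansion_smul one_pos one_mem_strictPeriods_SL,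
    ModularForm.qExpansion_smul one_pos one_mem_strictPeriods_SL, h4, h6,
    pow_succ' (qExpansion 1 E₄) 2, pow_two (qExpansion 1 E₄), pow_two (qExpansion 1 E₆)]

theorem G_0 : (qExpansion 1 G).coeff 0 = 1 := by
  rw [qExpansion_G]
  norm_num [PowerSeries.coeff_smul, PowerSeries.coeff_mul,
    E4_0, E6_0, -PowerSeries.coeff_zero_eq_constantCoeff]

theorem G_1 : (qExpansion 1 G).coeff 1 = 0 := by
  rw [qExpansion_G]
  norm_num [PowerSeries.coeff_smul, PowerSeries.coeff_mul, Finset.Nat.antidiagonal_succ,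
    E4_0, E6_0, E4_1, E6_1, -PowerSeries.coeff_zero_eq_constantCoeff]

theorem G_2 : (qExpansion 1 G).coeff 2 = 196560 := by
  rw [qExpansion_G]
  norm_num [PowerSeries.coeff_smul, PowerSeries.coeff_mul, Finset.Nat.antidiagonal_succ,
    E4_0, E6_0, E4_1, E6_1, E4_2, E6_2, -PowerSeries.coeff_zero_eq_constantCoeff]

theorem G_3 : (qExpansion 1 G).coeff 3 = 16773120 := by
  rw [qExpansion_G]
  norm_num [PowerSeries.coeff_smul, PowerSeries.coeff_mul, Finset.Nat.antidiagonal_succ,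
    E4_0, E6_0, E4_1, E6_1, E4_2, E6_2, E4_3, E6_3, -PowerSeries.coeff_zero_eq_constantCoeff]

theorem G_4 : (qExpansion 1 G).coeff 4 = 398034000 := by
  rw [qExpansion_G]
  norm_num [PowerSeries.coeff_smul, PowerSeries.coeff_mul, Finset.Nat.antidiagonal_succ,
    E4_0, E6_0, E4_1, E6_1, E4_2, E6_2, E4_3, E6_3, E4_4, E6_4,
    -PowerSeries.coeff_zero_eq_constantCoeff]

theorem coeffs_of_weight_twelve (f : ModularForm 𝒮ℒ 12)
    (h0 : (qExpansion 1 f).coeff 0 = 1) (h1 : (qExpansion 1 f).coeff 1 = 0) :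
    (qExpansion 1 f).coeff 2 = 196560 ∧ (qExpansion 1 f).coeff 3 = 16773120 ∧
      (qExpansion 1 f).coeff 4 = 398034000 := by
  have hfG : f = G := by
    have hq : qExpansion 1 (f - G : ModularForm 𝒮ℒ 12) = qExpansion 1 f - qExpansion 1 G := by
      rw [FunLike.coe_sub, ModularForm.qExpansion_sub one_pos one_mem_strictPeriods_SL]
    have hz : ModularForm.mcast (a := 12) (b := ((12 : ℕ) : ℤ)) (by norm_num) (f - G) = 0 := by
      apply sturm_bound_levelOne_nat
      rw [ModularForm.qExpansion_mcast, hq]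
      have h2 : ((2 : ℕ) : ℕ∞) ≤ (qExpansion 1 f - qExpansion 1 G).order := by
        apply PowerSeries.nat_le_order
        intro i hi
        interval_cases i
        · rw [map_sub, h0, G_0, sub_self]
        · rw [map_sub, h1, G_1, sub_self]
      refine lt_of_lt_of_le ?_ h2
      norm_num
    rw [mcast_eq_zero_iff] at hz
    exact sub_eq_zero.1 hz
  rw [hfG]
  exact ⟨G_2, G_3, G_4⟩

end Cfsg.Agent.SporadicStructure.Weight12
end

-- part: S1632
section
set_option autoImplicit false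
open Matrix
open Cfsg

namespace Cfsg.Agent.S1632

/-- An even unimodular lattice of rank 24 without roots has 196560, 16773120 and 398034000 vectors of norms 4, 6 and 8. -/
theorem result (B : Matrix (Fin 24) (Fin 24) ℤ) (hsymm : B.IsSymm) (hpos : ∀ x : Fin 24 → ℤ, x ≠ 0 → 0 < x ⬝ᵥ (B *ᵥ x)) (heven : ∀ x : Fin 24 → ℤ, (2 : ℤ) ∣ x ⬝ᵥ (B *ᵥ x)) (hdet : B.det = 1) (h2 : ∀ x : Fin 24 → ℤ, x ⬝ᵥ (B *ᵥ x) ≠ 2) : {x : Fin 24 → ℤ | x ⬝ᵥ (B *ᵥ x) = 4}.ncard = 196560 ∧ {x : Fin 24 → ℤ | x ⬝ᵥ (B *ᵥ x) = 6}.ncard = 16773120 ∧ {x : Fin 24 → ℤ | x ⬝ᵥ (B *ᵥ x) = 8}.ncard = 398034000 := by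
  have hBu : B * B⁻¹ = 1 := Matrix.mul_nonsing_inv B (by rw [hdet]; exact isUnit_one)
  have hU : SporadicStructure.ThetaModular.Unimod B B⁻¹ := ⟨hsymm, hpos, hBu⟩
  have hc := SporadicStructure.ThetaModular.thetaForm_coeff hU heven
  have h0 : SporadicStructure.ThetaModular.count B 0 = 1 :=
    SporadicStructure.ThetaModular.count_zero hU heven
  have h1 : SporadicStructure.ThetaModular.count B 1 = 0 := by
    rw [SporadicStructure.ThetaModular.count_eq hU heven]
    have : {x : Fin 24 → ℤ | x ⬝ᵥ (B *ᵥ x) = 2 * ((1 : ℕ) : ℤ)} = ∅ := by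
      ext x
      simpa using h2 x
    rw [this, Set.ncard_empty]
  obtain ⟨e2, e3, e4⟩ := SporadicStructure.Weight12.coeffs_of_weight_twelve
    (SporadicStructure.ThetaModular.thetaForm hU heven)
    (by rw [hc, h0]; norm_num) (by rw [hc, h1]; norm_num)
  rw [hc] at e2 e3 e4
  refine ⟨?_, ?_, ?_⟩
  · have := SporadicStructure.ThetaModular.count_eq hU heven 2
    norm_num at this
    rw [← this]
    exact_mod_cast e2
  · have := SporadicStructure.ThetaModular.count_eq hU heven 3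
    norm_num at this
    rw [← this]
    exact_mod_cast e3
  · have := SporadicStructure.ThetaModular.count_eq hU heven 4
    norm_num at this
    rw [← this]
    exact_mod_cast e4

end Cfsg.Agent.S1632
end
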