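import Cfsg.Statements.S1642
import Cfsg.Agent.SporadicStructure.HSPair
set_option linter.all false

set_option autoImplicit false
open Cfsg

namespace Cfsg.Agent.S1642

open Cfsg.Agent.SporadicA Cfsg.Agent.SporadicStructure Cfsg.Agent.SporadicStructure.HSPair

/-- The word whose sign change is the involution: the complement of the dodecad of squares. -/
def wd : GolayPt → ZMod 2 := 1 + qrWord 0

theorem wd_mem : wd ∈ golayCode := Submodule.add_mem _ Co0Basic.one_mem (Co0Basic.qrWord_mem 0)

/-- 2 on the dodecad of squares. -/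
def vf : GolayPt → ℤ := fun p => if qrWord 0 p = 0 then 0 else 2

/-- -2 on the dodecad of squares, except for 2 at two of its points. -/
def wf : GolayPt → ℤ := fun p => if p = some 0 ∨ p = some 1 then 2 else if qrWord 0 p = 0 then 0 else -2

theorem vf_mem : vf ∈ leechLattice := by
  rw [LeechBase.mem_leech_iff]
  refine ⟨0, fun p => if qrWord 0 p = 0 then 0 else 1, ?_, by decide +kernel, by decide +kernel⟩
  have : LeechBase.red (fun p => if qrWord 0 p = 0 then 0 else 1) = qrWord 0 := by
    have h : ∀ p : GolayPt, LeechBase.red (fun p => if qrWord 0 p = 0 then 0 else 1) p = qrWord 0 p := by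
      decide +kernel
    exact funext h
  rw [this]
  exact Co0Basic.qrWord_mem 0

theorem wf_mem : wf ∈ leechLattice := by
  rw [LeechBase.mem_leech_iff]
  refine ⟨0, fun p => if p = some 0 ∨ p = some 1 then 1 else if qrWord 0 p = 0 then 0 else -1, ?_,
    by decide +kernel, by decide +kernel⟩
  have : LeechBase.red (fun p => if p = some 0 ∨ p = some 1 then 1 else if qrWord 0 p = 0 then 0 else -1)
      = qrWord 0 := by
    have h : ∀ p : GolayPt, LeechBase.red (fun p => if p = some 0 ∨ p = some 1 then 1 else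
        if qrWord 0 p = 0 then 0 else -1) p = qrWord 0 p := by
      decide +kernel
    exact funext h
  rw [this]
  exact Co0Basic.qrWord_mem 0

/-- The first vector as an element of the lattice. -/
def v1 : ↥leechLattice := ⟨vf, vf_mem⟩

/-- The second vector as an element of the lattice. -/
def w1 : ↥leechLattice := ⟨wf, wf_mem⟩

theorem v1_norm : sqNorm (v1 : GolayPt → ℤ) = 48 := by decide +kernel

theorem w1_norm : sqNorm (w1 : GolayPt → ℤ) = 48 := by decide +kernel

theorem v1_dot_w1 : dotInt (v1 : GolayPt → ℤ) (w1 : GolayPt → ℤ) = -32 := by decide +kernel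

theorem smul_v1 : Co0Basic.signCo0 wd wd_mem • v1 = v1 := by
  apply Subtype.ext
  funext i
  rw [smul_eq, Co0Basic.signCo0_apply]
  revert i
  decide +kernel

theorem smul_w1 : Co0Basic.signCo0 wd wd_mem • w1 = w1 := by
  apply Subtype.ext
  funext i
  rw [smul_eq, Co0Basic.signCo0_apply]
  revert i
  decide +kernel

theorem wd_iff (i : GolayPt) : wd i = 0 ↔ qrWord 0 i ≠ 0 := by
  revert i; decide +kernel

/-- No fixed vector of sum of squares 32 has dot product 24 with the first vector. -/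
theorem no_fixed (y : ↥leechLattice) (hy : sqNorm (y : GolayPt → ℤ) = 32)
    (hd : dotInt (v1 : GolayPt → ℤ) (y : GolayPt → ℤ) = 24) :
    Co0Basic.signCo0 wd wd_mem • y ≠ y := by
  intro hfix
  have h0 : ∀ i, qrWord 0 i = 0 → (y : GolayPt → ℤ) i = 0 := by
    intro i hi
    have h1 := congrArg (fun u : ↥leechLattice => (u : GolayPt → ℤ) i) hfix
    simp only [smul_eq] at h1
    rw [Co0Basic.signCo0_apply, if_neg (by rw [wd_iff]; exact fun h => h hi)] at h1
    omega
  obtain ⟨m, z, hz, -, hyz⟩ := (LeechBase.mem_leech_iff _).1 y.2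
  have hm : m = -2 * z none := by
    have h1 := h0 none (by decide +kernel)
    rw [hyz] at h1
    omega
  -- the halved vector
  obtain ⟨c, hc⟩ : ∃ c : GolayPt → ℤ, c = fun i => z i - z none := ⟨_, rfl⟩
  have hyc : ∀ i, (y : GolayPt → ℤ) i = 2 * c i := by
    intro i
    rw [hyz i, hm, hc]
    ring
  have hcode : LeechBase.red c ∈ golayCode := by
    have : LeechBase.red c = LeechBase.red z - ((z none : ℤ) : ZMod 2) • (1 : GolayPt → ZMod 2) := by
      funext i
      simp [LeechBase.red, hc]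
    rw [this]
    exact Submodule.sub_mem _ hz (Submodule.smul_mem _ _ Co0Basic.one_mem)
  have hc0 : ∀ i, qrWord 0 i = 0 → c i = 0 := by
    intro i hi
    have h1 := h0 i hi
    rw [hyc i] at h1
    omega
  have hsq : ∑ i, c i ^ 2 = 8 := by
    have h1 : sqNorm (y : GolayPt → ℤ) = 4 * ∑ i, c i ^ 2 := by
      unfold sqNorm
      rw [Finset.mul_sum]
      exact Finset.sum_congr rfl fun i _ => by rw [hyc i]; ring
    rw [hy] at h1
    omega
  have hsum : ∑ i, c i = 6 := by
    have h1 : dotInt (v1 : GolayPt → ℤ) (y : GolayPt → ℤ) = 4 * ∑ i, c i := by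
      unfold dotInt
      rw [Finset.mul_sum]
      refine Finset.sum_congr rfl fun i _ => ?_
      rw [hyc i]
      show (if qrWord 0 i = 0 then 0 else 2) * _ = _
      split_ifs with h
      · rw [hc0 i h]; ring
      · ring
    rw [hd] at h1
    omega
  -- the supports
  have hC : support₂ (LeechBase.red c) ∈ supports (golayCode : Set (GolayPt → ZMod 2)) :=
    ⟨_, hcode, rfl⟩
  have hD : support₂ (qrWord 0) ∈ supports (golayCode : Set (GolayPt → ZMod 2)) :=
    ⟨_, Co0Basic.qrWord_mem 0, rfl⟩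
  have hsub : support₂ (LeechBase.red c) ⊆ support₂ (qrWord 0) := by
    intro i hi
    rw [LeechBase.mem_support₂] at hi ⊢
    intro h
    apply hi
    rw [LeechBase.red_apply, hc0 i h, Int.cast_zero]
  have hDc : (support₂ (qrWord 0)).card = 12 := by decide +kernel
  have h1 := GolayBase.card_of_mem_supports hC
  have h2 := GolayBase.card_of_mem_supports (GolayBase.symmDiff_mem_supports hC hD)
  have h3 := GolayBase.card_symmDiff_add (support₂ (LeechBase.red c)) (support₂ (qrWord 0))
  rw [Finset.inter_eq_left.2 hsub] at h3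
  have h4 : (support₂ (LeechBase.red c)).card = 0 ∨ (support₂ (LeechBase.red c)).card = 12 := by
    have := Finset.card_le_card hsub
    omega
  rcases h4 with h4 | h4
  · rw [Finset.card_eq_zero] at h4
    have hev : ∀ i, 2 * c i ≤ c i ^ 2 := by
      intro i
      have h5 : i ∉ support₂ (LeechBase.red c) := by rw [h4]; exact Finset.notMem_empty i
      rw [LeechBase.mem_support₂_red, Int.modEq_iff_dvd] at h5
      obtain ⟨t, ht⟩ : ∃ t, c i = 2 * t := ⟨c i / 2, by omega⟩
      rw [ht]
      nlinarith [Int.le_self_sq t]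
    have h6 : ∑ i, 2 * c i ≤ ∑ i, c i ^ 2 := Finset.sum_le_sum fun i _ => hev i
    rw [← Finset.mul_sum, hsum, hsq] at h6
    norm_num at h6
  · have h5 : ∑ i ∈ support₂ (LeechBase.red c), (1 : ℤ) ≤ ∑ i ∈ support₂ (LeechBase.red c), c i ^ 2 := by
      refine Finset.sum_le_sum fun i hi => ?_
      rw [LeechBase.mem_support₂_red, Int.modEq_iff_dvd] at hi
      have h6 : c i ≠ 0 := by omega
      have := Int.one_le_abs h6
      nlinarith [sq_abs (c i), abs_nonneg (c i)]
    have h6 : ∑ i ∈ support₂ (LeechBase.red c), c i ^ 2 ≤ ∑ i, c i ^ 2 :=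
      Finset.sum_le_sum_of_subset_of_nonneg (Finset.subset_univ _) fun i _ _ => sq_nonneg _
    rw [Finset.sum_const, h4, hsq] at *
    norm_num at h5
    omega

theorem sign_sq : Co0Basic.signCo0 wd wd_mem * Co0Basic.signCo0 wd wd_mem = 1 := by
  apply Subtype.ext
  apply Equiv.ext
  intro v
  exact Subtype.ext (Co0Basic.signFun_signFun wd v)

theorem sign_ne_one : Co0Basic.signCo0 wd wd_mem ≠ 1 := by
  intro h
  have h1 := congrArg (fun g : ↥Co0 => ((g • Co0Basic.e8 none : ↥leechLattice) : GolayPt → ℤ) none) h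
  simp only [one_smul, smul_eq] at h1
  rw [Co0Basic.signCo0_apply, if_neg (by decide +kernel), Co0Basic.e8_apply, if_pos rfl] at h1
  norm_num at h1

/-- Some involution of the Higman–Sims group acts without fixed points on its 100 points. -/
theorem result (v w : ↥Cfsg.leechLattice) (hv : Cfsg.sqNorm (v : Cfsg.GolayPt → ℤ) = 48) (hw : Cfsg.sqNorm (w : Cfsg.GolayPt → ℤ) = 48) (hvw : Cfsg.dotInt (v : Cfsg.GolayPt → ℤ) (w : Cfsg.GolayPt → ℤ) = -32) : ∃ g : ↥Cfsg.Co0, g • v = v ∧ g • w = w ∧ orderOf g = 2 ∧ ∀ x ∈ {x : ↥Cfsg.leechLattice | Cfsg.sqNorm (x : Cfsg.GolayPt → ℤ) = 32 ∧ Cfsg.dotInt (v : Cfsg.GolayPt → ℤ) (x : Cfsg.GolayPt → ℤ) = 24 ∧ Cfsg.dotInt (w : Cfsg.GolayPt → ℤ) (x : Cfsg.GolayPt → ℤ) = -24}, g • x ≠ x := by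
  obtain ⟨h, h1, h2⟩ := exists_smul_eq_of_pair48 v w v1 w1 hv hw hvw v1_norm w1_norm v1_dot_w1
  obtain ⟨s, hs⟩ : ∃ s : ↥Co0, s = Co0Basic.signCo0 wd wd_mem := ⟨_, rfl⟩
  refine ⟨h⁻¹ * s * h, ?_, ?_, ?_, ?_⟩
  · rw [mul_smul, mul_smul, h1, hs, smul_v1, inv_smul_eq_iff, h1]
  · rw [mul_smul, mul_smul, h2, hs, smul_w1, inv_smul_eq_iff, h2]
  · apply orderOf_eq_prime
    · rw [pow_two]
      have : h⁻¹ * s * h * (h⁻¹ * s * h) = h⁻¹ * (s * s) * h := by group
      rw [this, hs, sign_sq]
      group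
    · intro h3
      apply sign_ne_one
      rw [← hs]
      have : s = h * (h⁻¹ * s * h) * h⁻¹ := by group
      rw [this, h3]
      group
  · rintro x ⟨hx1, hx2, -⟩ hfix
    rw [mul_smul, mul_smul, inv_smul_eq_iff, hs] at hfix
    refine no_fixed (h • x) ?_ ?_ hfix
    · rw [smul_norm]; exact hx1
    · rw [← h1, smul_dot]; exact hx2

end Cfsg.Agent.S1642
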