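import Cfsg.Agent.SporRec.TwoAn
import Cfsg.Agent.SporRec.LyReduce
import Cfsg.Statements.S1645
import Cfsg.Agent.SporRec.TwoNine.Main
set_option linter.all false

-- part: SporRec/LyGeTwelve
section
/-!
# Centralisers of involutions in double covers of alternating groups of degree at least 12

`no_auto`: let `u` be a non-central involution of a double cover `C` of `A_n`, `n ≥ 12`. No automorphism of `C_C(u)`
maps the central involution `z` to `u`.
-/

set_option autoImplicit false

namespace Cfsg.Agent.SporRec.LyGeTwelve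

open Subgroup Equiv Cfsg.Agent.SporRec.TwoAn

section blocks

variable {α : Type*} (σ : Perm α) (hσ : ∀ x, σ (σ x) = x)

/-- the moved points modulo `σ` -/
def blockSetoid : Setoid {x : α // σ x ≠ x} where
  r x y := (y : α) = x ∨ (y : α) = σ x
  iseqv := by
    refine ⟨fun x => Or.inl rfl, ?_, ?_⟩
    · rintro x y (h | h)
      · exact Or.inl h.symm
      · right; rw [h, hσ]
    · rintro x y w (h | h) (h' | h')
      · left; rw [h', h]
      · right; rw [h', h]
      · right; rw [h', h]
      · left; rw [h', h, hσ]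

/-- the blocks of `σ` -/
abbrev Bl : Type _ := Quotient (blockSetoid σ hσ)

variable {σ}

theorem comm_apply {τ : Perm α} (h : τ ∈ Subgroup.centralizer ({σ} : Set (Perm α))) (x : α) :
    τ (σ x) = σ (τ x) := by
  rw [Subgroup.mem_centralizer_singleton_iff] at h
  have := congrFun (congrArg DFunLike.coe h) x
  rw [Perm.mul_apply, Perm.mul_apply] at this
  exact this

/-- the action on moved points -/
def mv {τ : Perm α} (h : τ ∈ Subgroup.centralizer ({σ} : Set (Perm α))) (x : {x : α // σ x ≠ x}) :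
    {x : α // σ x ≠ x} :=
  ⟨τ x, fun e => x.2 (τ.injective (by rw [comm_apply h, e]))⟩

/-- the action on blocks -/
@[instance_reducible] def act : MulAction (Subgroup.centralizer ({σ} : Set (Perm α))) (Bl σ hσ) where
  smul τ q := Quotient.map (mv τ.2) (by
    rintro x y (h | h)
    · left; show τ.1 y = τ.1 x; rw [h]
    · right; show τ.1 y = σ (τ.1 x); rw [h, comm_apply τ.2]) q
  one_smul q := by
    induction q using Quotient.inductionOn with
    | h x => rfl
  mul_smul τ ρ q := by
    induction q using Quotient.inductionOn with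
    | h x => rfl

/-- the permutation of the blocks -/
def toBl : Subgroup.centralizer ({σ} : Set (Perm α)) →* Perm (Bl σ hσ) :=
  @MulAction.toPermHom _ _ _ (act hσ)

theorem toBl_mk (τ : Subgroup.centralizer ({σ} : Set (Perm α))) (x : {x : α // σ x ≠ x}) :
    toBl hσ τ (Quotient.mk _ x) = Quotient.mk _ (mv τ.2 x) := rfl

theorem mk_eq {x y : {x : α // σ x ≠ x}} :
    (Quotient.mk (blockSetoid σ hσ) x) = Quotient.mk _ y ↔ (y : α) = x ∨ (y : α) = σ x :=
  Quotient.eq

theorem toBl_eq_one {τ : Subgroup.centralizer ({σ} : Set (Perm α))} (h : toBl hσ τ = 1) {x : α} (hx : σ x ≠ x) :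
    τ.1 x = x ∨ τ.1 x = σ x := by
  have h1 := toBl_mk hσ τ ⟨x, hx⟩
  rw [h, Perm.one_apply, mk_eq] at h1
  exact h1

variable [DecidableEq α]

/-- a 3-cycle and its `σ`-conjugate -/
def cc (σ : Perm α) (a b e : α) : Perm α := swap a b * swap b e * (swap (σ a) (σ b) * swap (σ b) (σ e))

theorem c3_apply {a b e : α} (hab : a ≠ b) (hae : a ≠ e) (hbe : b ≠ e) (x : α) :
    (swap a b * swap b e) x = if x = a then b else if x = b then e else if x = e then a else x := by
  rw [Perm.mul_apply]
  split_ifs with h1 h2 h3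
  · rw [h1, swap_apply_of_ne_of_ne hab hae, swap_apply_left]
  · rw [h2, swap_apply_left, swap_apply_of_ne_of_ne hae.symm hbe.symm]
  · rw [h3, swap_apply_right, swap_apply_right]
  · rw [swap_apply_of_ne_of_ne h2 h3, swap_apply_of_ne_of_ne h1 h2]

include hσ in
theorem cc_apply {a b e : α} (hab : a ≠ b) (hab' : a ≠ σ b)
    (hae : a ≠ e) (hae' : a ≠ σ e) (hbe : b ≠ e) (hbe' : b ≠ σ e) (ha : σ a ≠ a) (hb : σ b ≠ b) (he : σ e ≠ e)
    (x : α) :
    cc σ a b e x = if x = a then b else if x = b then e else if x = e then a else if x = σ a then σ b else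
      if x = σ b then σ e else if x = σ e then σ a else x := by
  have h1 : σ a ≠ σ b := fun h => hab (σ.injective h)
  have h2 : σ a ≠ σ e := fun h => hae (σ.injective h)
  have h3 : σ b ≠ σ e := fun h => hbe (σ.injective h)
  have h4 : σ a ≠ b := fun h => hab' (by rw [← h, hσ])
  have h5 : σ a ≠ e := fun h => hae' (by rw [← h, hσ])
  have h6 : σ b ≠ e := fun h => hbe' (by rw [← h, hσ])
  rw [cc, Perm.mul_apply, c3_apply h1 h2 h3]
  by_cases x1 : x = a
  · rw [if_pos x1, x1, if_neg ha.symm, if_neg hab', if_neg hae', c3_apply hab hae hbe, if_pos rfl]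
  rw [if_neg x1]
  by_cases x2 : x = b
  · rw [if_pos x2, x2, if_neg h4.symm, if_neg hb.symm, if_neg hbe', c3_apply hab hae hbe, if_neg hab.symm,
      if_pos rfl]
  rw [if_neg x2]
  by_cases x3 : x = e
  · rw [if_pos x3, x3, if_neg h5.symm, if_neg h6.symm, if_neg he.symm, c3_apply hab hae hbe, if_neg hae.symm,
      if_neg hbe.symm, if_pos rfl]
  rw [if_neg x3]
  by_cases x4 : x = σ a
  · rw [if_pos x4, c3_apply hab hae hbe, if_neg hab'.symm, if_neg hb, if_neg h6]
  rw [if_neg x4]
  by_cases x5 : x = σ b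
  · rw [if_pos x5, c3_apply hab hae hbe, if_neg hae'.symm, if_neg hbe'.symm, if_neg he]
  rw [if_neg x5]
  by_cases x6 : x = σ e
  · rw [if_pos x6, c3_apply hab hae hbe, if_neg ha, if_neg h4, if_neg h5]
  rw [if_neg x6, c3_apply hab hae hbe, if_neg x1, if_neg x2, if_neg x3]

include hσ in
theorem cc_mem {a b e : α} (hab : a ≠ b) (hab' : a ≠ σ b)
    (hae : a ≠ e) (hae' : a ≠ σ e) (hbe : b ≠ e) (hbe' : b ≠ σ e) (ha : σ a ≠ a) (hb : σ b ≠ b) (he : σ e ≠ e) :
    cc σ a b e ∈ Subgroup.centralizer ({σ} : Set (Perm α)) := by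
  have h4 : σ a ≠ b := fun h => hab' (by rw [← h, hσ])
  have h5 : σ a ≠ e := fun h => hae' (by rw [← h, hσ])
  have h6 : σ b ≠ e := fun h => hbe' (by rw [← h, hσ])
  have key : ∀ x, cc σ a b e (σ x) = σ (cc σ a b e x) := by
    intro x
    rw [cc_apply hσ hab hab' hae hae' hbe hbe' ha hb he x]
    split_ifs with x1 x2 x3 x4 x5 x6
    · rw [x1, cc_apply hσ hab hab' hae hae' hbe hbe' ha hb he, if_neg ha, if_neg h4, if_neg h5, if_pos rfl]
    · rw [x2, cc_apply hσ hab hab' hae hae' hbe hbe' ha hb he, if_neg hab'.symm, if_neg hb, if_neg h6,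
        if_neg (σ.injective.ne hab.symm), if_pos rfl]
    · rw [x3, cc_apply hσ hab hab' hae hae' hbe hbe' ha hb he, if_neg hae'.symm, if_neg hbe'.symm, if_neg he,
        if_neg (σ.injective.ne hae.symm), if_neg (σ.injective.ne hbe.symm), if_pos rfl]
    · rw [x4, hσ, hσ, cc_apply hσ hab hab' hae hae' hbe hbe' ha hb he, if_pos rfl]
    · rw [x5, hσ, hσ, cc_apply hσ hab hab' hae hae' hbe hbe' ha hb he, if_neg hab.symm, if_pos rfl]
    · rw [x6, hσ, hσ, cc_apply hσ hab hab' hae hae' hbe hbe' ha hb he, if_neg hae.symm, if_neg hbe.symm, if_pos rfl]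
    · have y1 : σ x ≠ a := fun h => x4 (by rw [← h, hσ])
      have y2 : σ x ≠ b := fun h => x5 (by rw [← h, hσ])
      have y3 : σ x ≠ e := fun h => x6 (by rw [← h, hσ])
      rw [cc_apply hσ hab hab' hae hae' hbe hbe' ha hb he, if_neg y1, if_neg y2, if_neg y3,
        if_neg (σ.injective.ne x1), if_neg (σ.injective.ne x2), if_neg (σ.injective.ne x3)]
  rw [Subgroup.mem_centralizer_singleton_iff]
  ext x
  rw [Perm.mul_apply, Perm.mul_apply]
  exact key x

include hσ in
theorem cc_cube {a b e : α} (hab : a ≠ b) (hab' : a ≠ σ b)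
    (hae : a ≠ e) (hae' : a ≠ σ e) (hbe : b ≠ e) (hbe' : b ≠ σ e) (ha : σ a ≠ a) (hb : σ b ≠ b) (he : σ e ≠ e) :
    cc σ a b e ^ 3 = 1 := by
  have h1 : σ a ≠ σ b := fun h => hab (σ.injective h)
  have h2 : σ a ≠ σ e := fun h => hae (σ.injective h)
  have h3 : σ b ≠ σ e := fun h => hbe (σ.injective h)
  have h4 : σ a ≠ b := fun h => hab' (by rw [← h, hσ])
  have h5 : σ a ≠ e := fun h => hae' (by rw [← h, hσ])
  have h6 : σ b ≠ e := fun h => hbe' (by rw [← h, hσ])
  have hd : Perm.Disjoint (swap a b * swap b e) (swap (σ a) (σ b) * swap (σ b) (σ e)) := by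
    intro x
    by_cases x1 : x = a
    · right; rw [x1, c3_apply h1 h2 h3, if_neg ha.symm, if_neg hab', if_neg hae']
    by_cases x2 : x = b
    · right; rw [x2, c3_apply h1 h2 h3, if_neg h4.symm, if_neg hb.symm, if_neg hbe']
    by_cases x3 : x = e
    · right; rw [x3, c3_apply h1 h2 h3, if_neg h5.symm, if_neg h6.symm, if_neg he.symm]
    left
    rw [c3_apply hab hae hbe, if_neg x1, if_neg x2, if_neg x3]
  rw [cc, hd.commute.mul_pow, Cfsg.Agent.Lib.AltCarmichael.three_cube hab hae hbe,
    Cfsg.Agent.Lib.AltCarmichael.three_cube h1 h2 h3, one_mul]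

theorem toBl_cc [DecidableEq (Bl σ hσ)] {a b e : {x : α // σ x ≠ x}}
    (hAB : (Quotient.mk (blockSetoid σ hσ) a) ≠ Quotient.mk _ b)
    (hAE : (Quotient.mk (blockSetoid σ hσ) a) ≠ Quotient.mk _ e)
    (hBE : (Quotient.mk (blockSetoid σ hσ) b) ≠ Quotient.mk _ e) :
    ∃ τ : Subgroup.centralizer ({σ} : Set (Perm α)), τ.1 ^ 3 = 1 ∧
      toBl hσ τ = swap (Quotient.mk _ a) (Quotient.mk _ b) * swap (Quotient.mk _ b) (Quotient.mk _ e) := by
  rw [Ne, mk_eq, not_or] at hAB hAE hBE
  have hab : (a : α) ≠ b := fun h => hAB.1 h.symm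
  have hab' : (a : α) ≠ σ b := fun h => hAB.2 (by rw [h, hσ])
  have hae : (a : α) ≠ e := fun h => hAE.1 h.symm
  have hae' : (a : α) ≠ σ e := fun h => hAE.2 (by rw [h, hσ])
  have hbe : (b : α) ≠ e := fun h => hBE.1 h.symm
  have hbe' : (b : α) ≠ σ e := fun h => hBE.2 (by rw [h, hσ])
  refine ⟨⟨cc σ a b e, cc_mem hσ hab hab' hae hae' hbe hbe' a.2 b.2 e.2⟩,
    cc_cube hσ hab hab' hae hae' hbe hbe' a.2 b.2 e.2, ?_⟩
  have hAB' : (Quotient.mk (blockSetoid σ hσ) a) ≠ Quotient.mk _ b := by rw [Ne, mk_eq, not_or]; exact hAB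
  have hAE' : (Quotient.mk (blockSetoid σ hσ) a) ≠ Quotient.mk _ e := by rw [Ne, mk_eq, not_or]; exact hAE
  have hBE' : (Quotient.mk (blockSetoid σ hσ) b) ≠ Quotient.mk _ e := by rw [Ne, mk_eq, not_or]; exact hBE
  ext q
  induction q using Quotient.inductionOn with
  | h x =>
    rw [toBl_mk, c3_apply hAB' hAE' hBE']
    have hval := cc_apply hσ hab hab' hae hae' hbe hbe' a.2 b.2 e.2 x
    by_cases x1 : (Quotient.mk (blockSetoid σ hσ) x) = Quotient.mk _ a
    · rw [if_pos x1, mk_eq]
      rw [mk_eq] at x1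
      show (b : α) = cc σ a b e x ∨ (b : α) = σ (cc σ a b e x)
      rcases x1 with h | h
      · left; rw [hval, if_pos h.symm]
      · right
        have : (x : α) = σ a := by rw [h, hσ]
        rw [this, comm_apply (cc_mem hσ hab hab' hae hae' hbe hbe' a.2 b.2 e.2),
          cc_apply hσ hab hab' hae hae' hbe hbe' a.2 b.2 e.2, if_pos rfl, hσ]
    rw [if_neg x1]
    by_cases x2 : (Quotient.mk (blockSetoid σ hσ) x) = Quotient.mk _ b
    · rw [if_pos x2, mk_eq]
      rw [mk_eq] at x2
      show (e : α) = cc σ a b e x ∨ (e : α) = σ (cc σ a b e x)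
      rcases x2 with h | h
      · left; rw [← h, cc_apply hσ hab hab' hae hae' hbe hbe' a.2 b.2 e.2, if_neg hab.symm, if_pos rfl]
      · right
        have : (x : α) = σ b := by rw [h, hσ]
        rw [this, comm_apply (cc_mem hσ hab hab' hae hae' hbe hbe' a.2 b.2 e.2),
          cc_apply hσ hab hab' hae hae' hbe hbe' a.2 b.2 e.2, if_neg hab.symm, if_pos rfl, hσ]
    rw [if_neg x2]
    by_cases x3 : (Quotient.mk (blockSetoid σ hσ) x) = Quotient.mk _ e
    · rw [if_pos x3, mk_eq]
      rw [mk_eq] at x3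
      show (a : α) = cc σ a b e x ∨ (a : α) = σ (cc σ a b e x)
      rcases x3 with h | h
      · left; rw [← h, cc_apply hσ hab hab' hae hae' hbe hbe' a.2 b.2 e.2, if_neg hae.symm, if_neg hbe.symm,
          if_pos rfl]
      · right
        have : (x : α) = σ e := by rw [h, hσ]
        rw [this, comm_apply (cc_mem hσ hab hab' hae hae' hbe hbe' a.2 b.2 e.2),
          cc_apply hσ hab hab' hae hae' hbe hbe' a.2 b.2 e.2, if_neg hae.symm, if_neg hbe.symm, if_pos rfl, hσ]
    rw [if_neg x3]
    have hx : mv (cc_mem hσ hab hab' hae hae' hbe hbe' a.2 b.2 e.2) x = x := by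
      apply Subtype.ext
      show cc σ a b e x = x
      rw [mk_eq, not_or] at x1 x2 x3
      rw [hval, if_neg (fun h => x1.1 h.symm), if_neg (fun h => x2.1 h.symm), if_neg (fun h => x3.1 h.symm),
        if_neg (fun h => x1.2 (by rw [h, hσ])), if_neg (fun h => x2.2 (by rw [h, hσ])),
        if_neg (fun h => x3.2 (by rw [h, hσ]))]
    rw [hx]

omit [DecidableEq α] in
theorem card_bl [Finite α] : Nat.card {x : α // σ x ≠ x} = 2 * Nat.card (Bl σ hσ) := by
  classical
  have : Fintype (Bl σ hσ) := Fintype.ofFinite _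
  rw [← Nat.card_congr (Equiv.sigmaFiberEquiv (Quotient.mk (blockSetoid σ hσ))), Nat.card_sigma]
  have h2 : ∀ q : Bl σ hσ, Nat.card {x // Quotient.mk (blockSetoid σ hσ) x = q} = 2 := by
    intro q
    induction q using Quotient.inductionOn with
    | h a =>
      rw [Nat.card_eq_two_iff]
      have h3 : σ (σ a.1) ≠ σ a.1 := fun h => a.2 (σ.injective h)
      refine ⟨⟨a, rfl⟩, ⟨⟨σ a.1, h3⟩, ?_⟩, ?_, ?_⟩
      · rw [mk_eq]; right
        show (a : α) = σ (σ a.1)
        rw [hσ]
      · intro h
        have := congrArg (fun x => x.1.1) h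
        exact a.2 this.symm
      · rw [Set.eq_univ_iff_forall]
        rintro ⟨x, hx⟩
        rw [mk_eq] at hx
        rcases hx with h | h
        · left; exact Subtype.ext (Subtype.ext h.symm)
        · right
          rw [Set.mem_singleton_iff]
          apply Subtype.ext
          apply Subtype.ext
          show (x : α) = σ a.1
          rw [h, hσ]
  rw [Finset.sum_congr rfl (fun q _ => h2 q), Finset.sum_const, Finset.card_univ, smul_eq_mul, mul_comm,
    Nat.card_eq_fintype_card]

end blocks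

section perms

/-- Commuting elements of orders dividing 3 and 4 on four points. -/
theorem four_points {β : Type*} [Fintype β] (hβ : Fintype.card β = 4) {p y : Perm β} (hp : p ^ 4 = 1)
    (hy : y ^ 3 = 1) (h : p * y = y * p) : p = 1 ∨ y = 1 := by
  have key : ∀ q : Perm (Fin 4) × Perm (Fin 4), (q.1 ^ 4 = 1 ∧ q.2 ^ 3 = 1 ∧ q.1 * q.2 = q.2 * q.1) →
      q.1 = 1 ∨ q.2 = 1 := by decide +kernel
  obtain ⟨e⟩ : Nonempty (β ≃ Fin 4) := ⟨Fintype.equivFinOfCardEq hβ⟩
  have h1 := key (e.permCongrHom p, e.permCongrHom y) ⟨by rw [← map_pow, hp, map_one],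
    by rw [← map_pow, hy, map_one], by rw [← map_mul, ← map_mul, h]⟩
  rwa [MulEquiv.map_eq_one_iff, MulEquiv.map_eq_one_iff] at h1

/-- A subgroup of exponent dividing 4 normalised by all 3-cycles is trivial on at least five points. -/
theorem five_points {β : Type*} [Fintype β] [DecidableEq β] (hβ : 5 ≤ Fintype.card β) (P : Subgroup (Perm β))
    (hP : ∀ p ∈ P, p ^ 4 = 1) (hn : ∀ c : Perm β, c.IsThreeCycle → ∀ p ∈ P, c * p * c⁻¹ ∈ P) : P = ⊥ := by
  have hsimple : IsSimpleGroup (alternatingGroup β) :=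
    alternatingGroup.isSimpleGroup (by rw [Nat.card_eq_fintype_card]; exact hβ)
  have hnA : ∀ g ∈ alternatingGroup β, ∀ p ∈ P, g * p * g⁻¹ ∈ P := by
    intro g hg
    rw [← Perm.closure_three_cycles_eq_alternating] at hg
    refine closure_induction (p := fun g _ => ∀ p ∈ P, g * p * g⁻¹ ∈ P) ?_ ?_ ?_ ?_ hg
    · intro c hc; exact hn c hc
    · intro p hp; simpa using hp
    · intro x y _ _ hx hy p hp
      have := hx _ (hy p hp)
      rw [mul_inv_rev]
      convert this using 1
      group
    · intro x _ hx p hp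
      -- `x` has finite order: use the finiteness of the group
      have hxn : x ^ (orderOf x - 1) = x⁻¹ := by
        rw [eq_inv_iff_mul_eq_one, ← pow_succ, Nat.sub_add_cancel (orderOf_pos x), pow_orderOf_eq_one]
      have hpow : ∀ k : ℕ, ∀ p ∈ P, x ^ k * p * (x ^ k)⁻¹ ∈ P := by
        intro k
        induction k with
        | zero => intro p hp; simpa using hp
        | succ k ih =>
          intro p hp
          have := hx _ (ih p hp)
          rw [pow_succ', mul_inv_rev]
          convert this using 1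
          group
      have := hpow (orderOf x - 1) p hp
      rw [hxn] at this
      exact this
  have hN : (P.subgroupOf (alternatingGroup β)).Normal := by
    constructor
    intro n hn' g
    rw [mem_subgroupOf] at hn' ⊢
    exact hnA g g.2 n hn'
  obtain ⟨f⟩ : Nonempty (Fin 5 ↪ β) := Function.Embedding.nonempty_of_card_le (by simpa using hβ)
  have hne : ∀ i j : Fin 5, i ≠ j → f i ≠ f j := fun i j h e => h (f.injective e)
  rcases hN.eq_bot_or_eq_top with hb | ht
  · -- `P` centralises the alternating group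
    rw [eq_bot_iff]
    intro p hp
    rw [mem_bot]
    have hcomm : ∀ c : Perm β, c.IsThreeCycle → c * p = p * c := by
      intro c hc
      have h1 : c * p * c⁻¹ * p⁻¹ ∈ P := mul_mem (hn c hc p hp) (inv_mem hp)
      have h2 : c * p * c⁻¹ * p⁻¹ ∈ alternatingGroup β := by
        rw [Perm.mem_alternatingGroup]
        simp only [map_mul, map_inv]
        rw [hc.sign]
        simp
      have h3 : (⟨c * p * c⁻¹ * p⁻¹, h2⟩ : alternatingGroup β) ∈ P.subgroupOf (alternatingGroup β) := by
        rw [mem_subgroupOf]; exact h1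
      rw [hb, mem_bot] at h3
      have h4 : c * p * c⁻¹ * p⁻¹ = 1 := congrArg Subtype.val h3
      rw [mul_inv_eq_one, mul_inv_eq_iff_eq_mul] at h4
      exact h4
    ext x
    rw [Perm.one_apply]
    by_contra hx
    -- choose two further points
    have hc1 : ({x, p x} : Finset β).card ≤ 2 := Finset.card_le_two
    obtain ⟨y, hy⟩ : ∃ y, y ∉ ({x, p x} : Finset β) := by
      by_contra h
      push Not at h
      have : Finset.univ ⊆ ({x, p x} : Finset β) := fun y _ => h y
      have := Finset.card_le_card this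
      rw [Finset.card_univ] at this
      omega
    have hc2 : ({x, p x, y} : Finset β).card ≤ 3 := Finset.card_le_three
    obtain ⟨w, hw⟩ : ∃ w, w ∉ ({x, p x, y} : Finset β) := by
      by_contra h
      push Not at h
      have : Finset.univ ⊆ ({x, p x, y} : Finset β) := fun y _ => h y
      have := Finset.card_le_card this
      rw [Finset.card_univ] at this
      omega
    simp only [Finset.mem_insert, Finset.mem_singleton, not_or] at hy hw
    have h3 : (swap (p x) y * swap y w).IsThreeCycle := by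
      rw [← Equiv.swap_comm y (p x)]
      exact Perm.isThreeCycle_swap_mul_swap_same (Ne.intro hy.2) (fun h => hw.2.2 h.symm) (fun h => hw.2.1 h.symm)
    have h4 := congrFun (congrArg DFunLike.coe (hcomm _ h3)) x
    rw [Perm.mul_apply _ p x, Perm.mul_apply p _ x,
      c3_apply (fun h => hy.2 h.symm) (fun h => hw.2.1 h.symm) (fun h => hw.2.2 h.symm) (p x), if_pos rfl,
      c3_apply (fun h => hy.2 h.symm) (fun h => hw.2.1 h.symm) (fun h => hw.2.2 h.symm) x,
      if_neg (fun h => hx h.symm), if_neg (fun h => hy.1 h.symm), if_neg (fun h => hw.1 h.symm)] at h4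
    exact hy.2 h4
  · exfalso
    have hc : (swap (f 0) (f 1) * swap (f 1) (f 2)) ∈ alternatingGroup β := by
      rw [Perm.mem_alternatingGroup, map_mul, Perm.sign_swap (hne _ _ (by decide)), Perm.sign_swap (hne _ _ (by decide))]
      decide
    have h1 : (⟨_, hc⟩ : alternatingGroup β) ∈ P.subgroupOf (alternatingGroup β) := by rw [ht]; exact mem_top _
    rw [mem_subgroupOf] at h1
    have h2 := hP _ h1
    have h3 : (swap (f 0) (f 1) * swap (f 1) (f 2)) ^ 3 = 1 :=
      Cfsg.Agent.Lib.AltCarmichael.three_cube (hne _ _ (by decide)) (hne _ _ (by decide)) (hne _ _ (by decide))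
    rw [pow_succ] at h2
    have h2' : (swap (f 0) (f 1) * swap (f 1) (f 2)) ^ 3 * (swap (f 0) (f 1) * swap (f 1) (f 2)) = 1 := h2
    rw [h3, one_mul] at h2'
    have h4 := congrFun (congrArg DFunLike.coe h2') (f 0)
    rw [c3_apply (hne _ _ (by decide)) (hne _ _ (by decide)) (hne _ _ (by decide)), if_pos rfl, Perm.one_apply] at h4
    exact hne 1 0 (by decide) h4

end perms

section main

variable {α : Type*} [Fintype α] [DecidableEq α] {C : Type*} [Group C] (K : Cover α C)

omit [Fintype α] in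
/-- cancelling a common transposition -/
theorem swap_cancel {a a' c c' e e' : α} (hac : a ≠ c) (hac' : a ≠ c') (ha'c : a' ≠ c) (ha'c' : a' ≠ c') :
    swap a a' * swap c c' * (swap a a' * swap e e') = swap c c' * swap e e' := by
  have h : swap a a' * swap c c' = swap c c' * swap a a' := by
    apply Perm.Disjoint.commute
    intro x
    by_cases h1 : x = a
    · right; rw [h1, swap_apply_of_ne_of_ne hac hac']
    by_cases h2 : x = a'
    · right; rw [h2, swap_apply_of_ne_of_ne ha'c ha'c']
    · left; rw [swap_apply_of_ne_of_ne h1 h2]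
  rw [h, mul_assoc, ← mul_assoc (swap a a'), swap_mul_self, one_mul]

/-- lifts of `(a a')(c c')` and `(a a')(e e')` anticommute -/
theorem anti {a a' c c' e e' : α} (haa : a ≠ a') (hcc : c ≠ c') (hee : e ≠ e') (hac : a ≠ c) (hac' : a ≠ c')
    (ha'c : a' ≠ c) (ha'c' : a' ≠ c') (hae : a ≠ e) (hae' : a ≠ e') (ha'e : a' ≠ e) (ha'e' : a' ≠ e')
    (hce : c ≠ e) (hce' : c ≠ e') (hc'e : c' ≠ e) (hc'e' : c' ≠ e') {g h : C}
    (hg : K.π g = swap a a' * swap c c') (hh : K.π h = swap a a' * swap e e') : g * h = h * g * K.z := by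
  have h1 : g * g = K.z := K.dbl a a' c c' haa hac hac' ha'c ha'c' hcc g hg
  have h2 : h * h = K.z := K.dbl a a' e e' haa hae hae' ha'e ha'e' hee h hh
  have h3 : h * g * (h * g) = K.z := K.dbl e e' c c' hee hce.symm hc'e.symm hce'.symm hc'e'.symm hcc (h * g) (by
    rw [map_mul, hg, hh, swap_cancel hae hae' ha'e ha'e'])
  have e1 : h * (g * h) * g = K.z := by rw [← h3]; group
  have e2 : g * h = h⁻¹ * K.z * g⁻¹ := by rw [← e1]; group
  have e3 : g⁻¹ = g * K.z := by
    rw [inv_eq_iff_mul_eq_one, ← mul_assoc, h1, K.z_mul_z]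
  have e4 : h⁻¹ = h * K.z := by
    rw [inv_eq_iff_mul_eq_one, ← mul_assoc, h2, K.z_mul_z]
  rw [e2, e3, e4, mul_assoc h, K.z_mul_z, mul_one, mul_assoc]

variable {u : C}

/-- the projection of the centraliser of `u` -/
def toC (u : C) : Subgroup.centralizer ({u} : Set C) →* Subgroup.centralizer ({K.π u} : Set (Perm α)) where
  toFun d := ⟨K.π d, by
    rw [Subgroup.mem_centralizer_singleton_iff, ← map_mul, ← map_mul]
    have := Subgroup.mem_centralizer_singleton_iff.1 d.2
    rw [this]⟩
  map_one' := Subtype.ext (map_one K.π)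
  map_mul' x y := Subtype.ext (map_mul K.π _ _)

theorem toC_coe (d : Subgroup.centralizer ({u} : Set C)) :
    ((toC K u d : Subgroup.centralizer ({K.π u} : Set (Perm α))) : Perm α) = K.π d := rfl

theorem mem_cent {g : C} : g ∈ Subgroup.centralizer ({u} : Set C) ↔ g * u = u * g := by
  rw [Subgroup.mem_centralizer_singleton_iff]

theorem cover_invol (hu : u * u = 1) (x : α) : K.π u (K.π u x) = x := by
  have h : K.π u * K.π u = 1 := by rw [← map_mul, hu, map_one]
  have := congrFun (congrArg DFunLike.coe h) x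
  simpa using this

/-- the block permutation of an element of the centraliser -/
def bl (hu : u * u = 1) : Subgroup.centralizer ({u} : Set C) →* Perm (Bl (K.π u) (cover_invol K hu)) :=
  (toBl (cover_invol K hu)).comp (toC K u)

theorem bl_eq_one (hu : u * u = 1) {d : Subgroup.centralizer ({u} : Set C)} (h : bl K hu d = 1) {x : α}
    (hx : K.π u x ≠ x) : K.π d x = x ∨ K.π d x = K.π u x :=
  toBl_eq_one (cover_invol K hu) h hx

theorem cent_apply (d : Subgroup.centralizer ({u} : Set C)) (x : α) : K.π d (K.π u x) = K.π u (K.π d x) :=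
  comm_apply (toC K u d).2 x

/-- Two elements acting trivially on the blocks cannot have commutator `u`. -/
theorem not_comm (hu : u * u = 1) {p q : Subgroup.centralizer ({u} : Set C)} (hp : bl K hu p = 1)
    (hq : bl K hu q = 1) {x : α} (hx : K.π u x ≠ x) (h : (p : C) * q = q * p * u) : False := by
  have h1 := congrArg (fun g => K.π g x) h
  simp only [map_mul, Perm.mul_apply] at h1
  rw [cent_apply K p, cent_apply K q] at h1
  rcases bl_eq_one K hu hp hx with h2 | h2 <;> rcases bl_eq_one K hu hq hx with h3 | h3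
  · rw [h3, h2, h3] at h1; exact hx h1.symm
  · rw [h3, cent_apply K p, h2, h3, cover_invol K hu] at h1; exact hx h1
  · rw [h3, h2, cent_apply K q, h3, cover_invol K hu] at h1; exact hx h1
  · rw [h3, cent_apply K p, h2, cent_apply K q, h3, cover_invol K hu] at h1
    exact hx h1.symm

/-- An element of order 3 acting trivially on the blocks acts trivially on the moved points. -/
theorem triv_of_cube (hu : u * u = 1) {p : Subgroup.centralizer ({u} : Set C)} (hp : bl K hu p = 1)
    (hp3 : p ^ 3 = 1) {x : α} (hx : K.π u x ≠ x) : K.π p x = x := by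
  rcases bl_eq_one K hu hp hx with h2 | h2
  · exact h2
  · exfalso
    have h3 : (p : C) * p * p = 1 := by
      have := congrArg Subtype.val hp3
      rw [pow_succ, pow_two] at this
      exact this
    have h4 := congrArg (fun g => K.π g x) h3
    simp only [map_mul, Perm.mul_apply, map_one, Perm.one_apply] at h4
    rw [h2, cent_apply K p, h2, cover_invol K hu, h2] at h4
    exact hx h4

/-- elements preserving every block and fixing the fixed points -/
def NN (u : C) (hu : u * u = 1) : Subgroup (Subgroup.centralizer ({u} : Set C)) where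
  carrier := {d | ∀ x, K.π d x = x ∨ K.π d x = K.π u x}
  mul_mem' {p q} hp hq x := by
    show K.π (p * q : C) x = x ∨ K.π (p * q : C) x = K.π u x
    rw [map_mul, Perm.mul_apply]
    rcases hq x with h | h
    · rw [h]; exact hp x
    · rw [h, cent_apply K p]
      rcases hp x with h' | h'
      · right; rw [h']
      · left; rw [h', cover_invol K hu]
  one_mem' x := by
    left
    show K.π (1 : C) x = x
    rw [map_one, Perm.one_apply]
  inv_mem' {p} hp x := by
    show K.π ((p : C)⁻¹) x = x ∨ K.π ((p : C)⁻¹) x = K.π u x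
    rw [map_inv, Perm.inv_eq_iff_eq, Perm.inv_eq_iff_eq]
    rcases hp x with h | h
    · left; exact h.symm
    · right; rw [cent_apply K p, h, cover_invol K hu]

theorem mem_NN {hu : u * u = 1} {d : Subgroup.centralizer ({u} : Set C)} :
    d ∈ NN K u hu ↔ ∀ x, K.π d x = x ∨ K.π d x = K.π u x := Iff.rfl

theorem NN_conj (hu : u * u = 1) (g : Subgroup.centralizer ({u} : Set C)) {d : Subgroup.centralizer ({u} : Set C)}
    (hd : d ∈ NN K u hu) : g * d * g⁻¹ ∈ NN K u hu := by
  intro x
  have h1 : K.π ((g * d * g⁻¹ : Subgroup.centralizer ({u} : Set C)) : C) x = K.π g (K.π d ((K.π g)⁻¹ x)) := by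
    show K.π ((g : C) * d * (g : C)⁻¹) x = _
    rw [map_mul, map_mul, map_inv, Perm.mul_apply, Perm.mul_apply]
  rw [h1]
  rcases hd ((K.π g)⁻¹ x) with h | h
  · left; rw [h, ← Perm.mul_apply, mul_inv_cancel, Perm.one_apply]
  · right; rw [h, cent_apply K g, ← Perm.mul_apply (K.π g), mul_inv_cancel, Perm.one_apply]

theorem NN_pow (hu : u * u = 1) {d : Subgroup.centralizer ({u} : Set C)} (hd : d ∈ NN K u hu) : d ^ 4 = 1 := by
  have h1 : K.π ((d : C) * d) = 1 := by
    ext x
    rw [map_mul, Perm.mul_apply, Perm.one_apply]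
    rcases hd x with h | h
    · rw [h, h]
    · rw [h, cent_apply K d, h, cover_invol K hu]
  have h2 : (d : C) * d * (d * d) = 1 := by
    rcases (K.ker _).1 h1 with h | h
    · rw [h, one_mul]
    · rw [h, K.z_mul_z]
  apply Subtype.ext
  show (d : C) ^ 4 = 1
  rw [← h2]; simp only [pow_succ, pow_zero, one_mul, mul_assoc]

/-- a double transposition over `u` lifts to an element of `NN` -/
theorem exists_NN (hu : u * u = 1) {a c : α} (ha : K.π u a ≠ a) (hc : K.π u c ≠ c) (hca : c ≠ a)
    (hcb : c ≠ K.π u a) : ∃ d ∈ NN K u hu, K.π (d : Subgroup.centralizer ({u} : Set C)) =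
      swap a (K.π u a) * swap c (K.π u c) := by
  have hσσ : K.π u * K.π u = 1 := by rw [← map_mul, hu, map_one]
  obtain ⟨w, hw⟩ := K.exists_lift (Cover.swap_mul_swap_mem a (K.π u a) c (K.π u c) ha.symm hc.symm)
  have hval := Cover.split_apply hσσ ha hc hca hcb
  rw [← hw, ← map_inv, ← map_mul] at hval
  have hdis : (K.π w).Disjoint (K.π (w⁻¹ * u)) := by
    intro x
    rw [hval x]
    split_ifs with hx
    · right; rfl
    · left
      push Not at hx
      rw [hw, Perm.mul_apply, swap_apply_of_ne_of_ne hx.2.2.1 hx.2.2.2, swap_apply_of_ne_of_ne hx.1 hx.2.1]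
  have hcom := K.commute_of_disjoint hdis
  have hwu : w * u = u * w := by
    rw [mul_inv_cancel_left, mul_assoc, eq_inv_mul_iff_mul_eq] at hcom
    exact hcom
  refine ⟨⟨w, mem_cent.2 hwu⟩, ?_, hw⟩
  intro x
  show K.π w x = x ∨ K.π w x = K.π u x
  have hda : K.π u c ≠ a := fun h => hcb (by rw [← h, cover_invol K hu])
  have hdb : K.π u c ≠ K.π u a := fun h => hca ((K.π u).injective h)
  rw [hw, Perm.mul_apply]
  by_cases h1 : x = a
  · right; rw [h1, swap_apply_of_ne_of_ne hca.symm hda.symm, swap_apply_left]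
  by_cases h2 : x = K.π u a
  · right; rw [h2, swap_apply_of_ne_of_ne hcb.symm hdb.symm, swap_apply_right, cover_invol K hu]
  by_cases h3 : x = c
  · right; rw [h3, swap_apply_left, swap_apply_of_ne_of_ne hda hdb]
  by_cases h4 : x = K.π u c
  · right; rw [h4, swap_apply_right, swap_apply_of_ne_of_ne hca hcb, cover_invol K hu]
  left
  rw [swap_apply_of_ne_of_ne h3 h4, swap_apply_of_ne_of_ne h1 h2]

/-- there are two anticommuting elements in `NN` -/
theorem exists_anti (hu : u * u = 1) (hcard : 8 ≤ (K.π u).support.card) :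
    ∃ p ∈ NN K u hu, ∃ q ∈ NN K u hu, (p : C) * q = q * p * K.z := by
  have hσσ := cover_invol K hu
  -- three blocks
  obtain ⟨a, ha⟩ : ∃ a, a ∈ (K.π u).support := Finset.card_pos.1 (by omega)
  have hc2 : ({a, K.π u a} : Finset α).card ≤ 2 := Finset.card_le_two
  obtain ⟨c, hc⟩ : ((K.π u).support \ {a, K.π u a}).Nonempty := by
    rw [← Finset.card_pos]
    have := Finset.le_card_sdiff ({a, K.π u a} : Finset α) (K.π u).support
    omega
  have hc4 : ({a, K.π u a, c, K.π u c} : Finset α).card ≤ 4 := Finset.card_le_four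
  obtain ⟨e, he⟩ : ((K.π u).support \ {a, K.π u a, c, K.π u c}).Nonempty := by
    rw [← Finset.card_pos]
    have := Finset.le_card_sdiff ({a, K.π u a, c, K.π u c} : Finset α) (K.π u).support
    omega
  simp only [Finset.mem_sdiff, Finset.mem_insert, Finset.mem_singleton, Perm.mem_support, not_or] at ha hc he
  obtain ⟨hc, hca', hcb'⟩ := hc
  obtain ⟨he, hea', heb', hec', hed'⟩ := he
  have hca : c ≠ a := hca'
  have hcb : c ≠ K.π u a := hcb'
  have hea : e ≠ a := hea'
  have heb : e ≠ K.π u a := heb'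
  have hec : e ≠ c := hec'
  have hed : e ≠ K.π u c := hed'
  obtain ⟨p, hp, hp'⟩ := exists_NN K hu ha hc hca hcb
  obtain ⟨q, hq, hq'⟩ := exists_NN K hu ha he hea heb
  refine ⟨p, hp, q, hq, ?_⟩
  exact anti K ha.symm hc.symm he.symm hca.symm (fun h => hcb (by rw [h, hσσ])) hcb.symm
    (fun h => hca ((K.π u).injective h.symm)) hea.symm (fun h => heb (by rw [h, hσσ])) heb.symm
    (fun h => hea ((K.π u).injective h.symm)) hec.symm (fun h => hed (by rw [h, hσσ])) hed.symm
    (fun h => hec ((K.π u).injective h.symm)) hp' hq'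

/-- a 3-cycle of blocks is induced by an element of the centraliser -/
theorem exists_bl (hu : u * u = 1) [DecidableEq (Bl (K.π u) (cover_invol K hu))]
    {A B E : Bl (K.π u) (cover_invol K hu)} (hAB : A ≠ B) (hAE : A ≠ E) (hBE : B ≠ E) :
    ∃ d, bl K hu d = swap A B * swap B E := by
  obtain ⟨a, rfl⟩ := Quotient.exists_rep A
  obtain ⟨b, rfl⟩ := Quotient.exists_rep B
  obtain ⟨e, rfl⟩ := Quotient.exists_rep E
  obtain ⟨τ, hτ3, hτ⟩ := toBl_cc (cover_invol K hu) hAB hAE hBE
  have hτe : (τ : Perm α) ∈ alternatingGroup α := by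
    rw [Perm.mem_alternatingGroup]
    have h1 : Perm.sign (τ : Perm α) ^ 3 = 1 := by rw [← map_pow, hτ3, map_one]
    rcases Int.units_eq_one_or (Perm.sign (τ : Perm α)) with h | h
    · exact h
    · rw [h] at h1; exact absurd h1 (by decide)
  obtain ⟨g, hg, hg3⟩ := K.exists_odd_lift hτe (n := 3) (by decide) hτ3
  have hgu : g * u = u * g := by
    apply K.commute_of_odd (n := 3) (by decide) hg3
    rw [hg]
    exact (Subgroup.mem_centralizer_singleton_iff.1 τ.2)
  refine ⟨⟨g, mem_cent.2 hgu⟩, ?_⟩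
  have : toC K u ⟨g, mem_cent.2 hgu⟩ = τ := Subtype.ext hg
  rw [bl, MonoidHom.comp_apply, this, hτ]

theorem card_bl' (hu : u * u = 1) : (K.π u).support.card = 2 * Nat.card (Bl (K.π u) (cover_invol K hu)) := by
  rw [← card_bl, Nat.card_eq_fintype_card, Fintype.card_subtype]
  congr 1

/-- The centraliser of a non-central involution `u` of the double cover of `A_n`, `n ≥ 12`, has no automorphism
mapping `z` to `u`. -/
theorem no_auto (hα : 12 ≤ Fintype.card α) (hu : u * u = 1) (hu1 : u ≠ 1) (huz : u ≠ K.z)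
    (φ : Subgroup.centralizer ({u} : Set C) ≃* Subgroup.centralizer ({u} : Set C))
    (hφ : ((φ ⟨K.z, mem_cent.2 (K.z_comm u).symm⟩ : Subgroup.centralizer ({u} : Set C)) : C) = u) : False := by
  classical
  have hσσ := cover_invol K hu
  have hσ1 : K.π u ≠ 1 := fun h => by
    rcases (K.ker u).1 h with h | h
    · exact hu1 h
    · exact huz h
  obtain ⟨-, m, hm⟩ := K.sq_eq_one_iff.1 hu
  have hm0 : m ≠ 0 := by
    rintro rfl
    rw [mul_zero, Finset.card_eq_zero, Perm.support_eq_empty_iff] at hm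
    exact hσ1 hm
  obtain ⟨x, hx⟩ : ∃ x, K.π u x ≠ x := by
    by_contra h
    push Not at h
    exact hσ1 (Perm.ext h)
  have hcard := card_bl' K hu
  let z' : Subgroup.centralizer ({u} : Set C) := ⟨K.z, mem_cent.2 (K.z_comm u).symm⟩
  obtain ⟨p, hp, q, hq, hpq⟩ := exists_anti K hu (by omega)
  have hpq' : ((φ p : Subgroup.centralizer ({u} : Set C)) : C) * φ q = φ q * φ p * u := by
    have h1 : p * q = q * p * z' := Subtype.ext hpq
    have h2 := congrArg (fun g => ((φ g : Subgroup.centralizer ({u} : Set C)) : C)) h1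
    simp only [map_mul, Subgroup.coe_mul] at h2
    rw [h2]
    congr 1
  have hfin : Finite (Bl (K.π u) hσσ) := inferInstance
  have hft : Fintype (Bl (K.π u) hσσ) := Fintype.ofFinite _
  -- the image of `φ N` in the group of block permutations
  set P : Subgroup (Perm (Bl (K.π u) hσσ)) := ((NN K u hu).map φ.toMonoidHom).map (bl K hu) with hPdef
  have hPmem : ∀ {g}, g ∈ NN K u hu → bl K hu (φ g) ∈ P := fun {g} hg => ⟨φ g, ⟨g, hg, rfl⟩, rfl⟩
  have hP4 : ∀ p ∈ P, p ^ 4 = 1 := by
    rintro _ ⟨_, ⟨g, hg, rfl⟩, rfl⟩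
    rw [← map_pow]
    show bl K hu (φ g ^ 4) = 1
    rw [← map_pow, NN_pow K hu hg, map_one, map_one]
  have hPn : ∀ c : Perm (Bl (K.π u) hσσ), c.IsThreeCycle → ∀ p ∈ P, c * p * c⁻¹ ∈ P := by
    rintro c hc _ ⟨_, ⟨g, hg, rfl⟩, rfl⟩
    obtain ⟨A, hA⟩ : c.support.Nonempty := by
      rw [← Finset.card_pos, hc.card_support]; norm_num
    obtain ⟨d, rfl⟩ : ∃ d, bl K hu d = c := by
      have hnd := hc.nodup_iff_mem_support.2 hA
      have hce := hc.eq_swap_mul_swap_iff_mem_support.2 hA
      have n1 : A ≠ c A := by grind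
      have n2 : A ≠ c (c A) := by grind
      have n3 : c A ≠ c (c A) := by grind
      obtain ⟨d, hd⟩ := exists_bl K hu n1 n2 n3
      exact ⟨d, hd.trans hce.symm⟩
    refine ⟨d * φ g * d⁻¹, ?_, ?_⟩
    · refine ⟨φ.symm d * g * (φ.symm d)⁻¹, NN_conj K hu _ hg, ?_⟩
      show φ (φ.symm d * g * (φ.symm d)⁻¹) = d * φ g * d⁻¹
      rw [map_mul, map_mul, map_inv, MulEquiv.apply_symm_apply]
    · rw [map_mul, map_mul, map_inv]
      rfl
  by_cases hbig : 5 ≤ Nat.card (Bl (K.π u) hσσ)
  · have hb := five_points (by rwa [← Nat.card_eq_fintype_card]) P hP4 hPn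
    have h1 : ∀ {g}, g ∈ NN K u hu → bl K hu (φ g) = 1 := fun {g} hg => by
      have := hPmem hg
      rw [hb, mem_bot] at this
      exact this
    exact not_comm K hu (h1 hp) (h1 hq) hx hpq'
  · -- four blocks
    have hfour : Nat.card (Bl (K.π u) hσσ) = 4 := by omega
    by_cases hall : bl K hu (φ p) = 1 ∧ bl K hu (φ q) = 1
    · exact not_comm K hu hall.1 hall.2 hx hpq'
    obtain ⟨r, hr, hr1⟩ : ∃ r ∈ NN K u hu, bl K hu (φ r) ≠ 1 := by
      by_contra h
      push Not at h
      exact hall ⟨h p hp, h q hq⟩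
    -- four fixed points
    have hfix : 4 ≤ ((K.π u).supportᶜ).card := by
      rw [Finset.card_compl]; omega
    obtain ⟨f⟩ : Nonempty (Fin 4 ↪ ((K.π u).supportᶜ : Finset α)) :=
      Function.Embedding.nonempty_of_card_le (by rw [Fintype.card_fin, Fintype.card_coe]; exact hfix)
    have hne : ∀ i j : Fin 4, i ≠ j → (f i : α) ≠ f j := fun i j h e => h (f.injective (Subtype.ext e))
    have hff : ∀ i, K.π u (f i) = f i := fun i => by
      have := (f i).2
      rw [Finset.mem_compl, Perm.mem_support, not_not] at this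
      exact this
    have hcyc : ∀ i : Fin 4, i ≠ 2 → i ≠ 3 → ∃ X : Subgroup.centralizer ({u} : Set C), X ^ 3 = 1 ∧
        K.π X = swap (f i : α) (f 2) * swap (f 2 : α) (f 3) ∧ ∀ g ∈ NN K u hu, X * g = g * X := by
      intro i hi2 hi3
      have hmem : swap (f i : α) (f 2) * swap (f 2 : α) (f 3) ∈ alternatingGroup α := by
        rw [Perm.mem_alternatingGroup, map_mul, Perm.sign_swap (hne _ _ hi2), Perm.sign_swap (hne _ _ (by decide))]
        decide
      have h3 := Cfsg.Agent.Lib.AltCarmichael.three_cube (hne _ _ hi2) (hne _ _ hi3) (hne 2 3 (by decide))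
      obtain ⟨X, hX, hX3⟩ := K.exists_odd_lift hmem (n := 3) (by decide) h3
      have hval : ∀ x : α, (∀ j, x ≠ (f j : α)) → K.π X x = x := by
        intro x hx
        rw [hX, c3_apply (hne _ _ hi2) (hne _ _ hi3) (hne 2 3 (by decide)), if_neg (hx _), if_neg (hx _), if_neg (hx _)]
      have hdisj : ∀ g : C, (∀ x, K.π u x = x → K.π g x = x) → X * g = g * X := by
        intro g hg
        apply K.commute_of_disjoint
        intro x
        by_cases hxf : ∃ j, x = (f j : α)
        · obtain ⟨j, rfl⟩ := hxf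
          right; exact hg _ (hff j)
        · push Not at hxf
          left; exact hval x hxf
      refine ⟨⟨X, mem_cent.2 (hdisj u fun x hx => hx)⟩, Subtype.ext hX3, hX, ?_⟩
      intro g hg
      apply Subtype.ext
      apply hdisj
      intro x hx
      rcases hg x with h | h
      · exact h
      · rw [h, hx]
    obtain ⟨X, hX3, hX, hXN⟩ := hcyc 0 (by decide) (by decide)
    obtain ⟨Y, hY3, hY, hYN⟩ := hcyc 1 (by decide) (by decide)
    have hXY : X * Y * (X * Y) = z' := by
      apply Subtype.ext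
      apply K.dbl (f 0) (f 2) (f 1) (f 3) (hne _ _ (by decide)) (hne _ _ (by decide)) (hne _ _ (by decide))
        (hne _ _ (by decide)) (hne _ _ (by decide)) (hne _ _ (by decide)) ((X * Y : Subgroup.centralizer ({u} : Set C)) : C)
      show K.π ((X : C) * Y) = _
      rw [map_mul, hX, hY]
      have h2 : swap (f 2 : α) (f 3) * swap (f 1 : α) (f 2) * swap (f 2 : α) (f 3) = swap (f 1 : α) (f 3) := by
        have := Cfsg.Agent.Lib.AltCarmichael.swap_conj (a := (f 3 : α)) (b := f 2) (c := f 1)
          (hne _ _ (by decide)) (hne _ _ (by decide))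
        rw [Equiv.swap_comm (f 3 : α) (f 2), Equiv.swap_comm (f 2 : α) (f 1), Equiv.swap_comm (f 3 : α) (f 1)] at this
        exact this
      rw [mul_assoc, ← mul_assoc (swap (f 2 : α) (f 3)), h2]
    have hkill : ∀ W : Subgroup.centralizer ({u} : Set C), W ^ 3 = 1 → (∀ g ∈ NN K u hu, W * g = g * W) →
        ∀ x, K.π u x ≠ x → K.π (φ W : Subgroup.centralizer ({u} : Set C)) x = x := by
      intro W hW3 hWN x hx
      have h1 : bl K hu (φ W) ^ 3 = 1 := by rw [← map_pow, ← map_pow, hW3, map_one, map_one]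
      have h2 : bl K hu (φ r) * bl K hu (φ W) = bl K hu (φ W) * bl K hu (φ r) := by
        rw [← map_mul, ← map_mul, ← map_mul, ← map_mul, hWN r hr]
      rcases four_points (by rwa [← Nat.card_eq_fintype_card]) (hP4 _ (hPmem hr)) h1 h2 with h | h
      · exact absurd h hr1
      · exact triv_of_cube K hu h (by rw [← map_pow, hW3, map_one]) hx
    have h5 : ((φ (X * Y * (X * Y)) : Subgroup.centralizer ({u} : Set C)) : C) = u := by rw [hXY]; exact hφ
    have h6 := congrArg (fun g => K.π g x) h5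
    simp only [map_mul, Subgroup.coe_mul, Perm.mul_apply] at h6
    have hy : ∀ y, K.π u y ≠ y → K.π (φ X : Subgroup.centralizer ({u} : Set C))
        (K.π (φ Y : Subgroup.centralizer ({u} : Set C)) y) = y := by
      intro y hy
      rw [hkill Y hY3 hYN y hy, hkill X hX3 hXN y hy]
    rw [hy x hx, hy x hx] at h6
    exact hx h6.symm

/-- Version for `IsCover`. -/
theorem ge_twelve {n : ℕ} (hn : 12 ≤ n) {π : C →* alternatingGroup (Fin n)} {z : C}
    (h : Cfsg.Agent.SporadicRecognition.AltCover.IsCover π z) (hu : u * u = 1) (hu1 : u ≠ 1) (huz : u ≠ z)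
    (φ : Subgroup.centralizer ({u} : Set C) ≃* Subgroup.centralizer ({u} : Set C))
    (hφ : ((φ ⟨z, mem_cent.2 (h.z_comm u).symm⟩ : Subgroup.centralizer ({u} : Set C)) : C) = u) : False :=
  no_auto (ofIsCover (by omega) h) (by rw [Fintype.card_fin]; exact hn) hu hu1 huz φ hφ

end main

end Cfsg.Agent.SporRec.LyGeTwelve
end

-- part: SporRec/LyDegree
section
set_option autoImplicit false

namespace Cfsg.Agent.SporRec.LyDegree

open Subgroup Cfsg.Agent.SporadicRecognition.AltCover Cfsg.Agent.SporRec.LyReduce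

/-- `n ≥ 12` is impossible, packaged for the assembly of S1645. -/
theorem degree_lt {G : Type*} [Group G] {n : ℕ} {z : G}
    {π : centralizer ({z} : Set G) →* alternatingGroup (Fin n)}
    (h : IsCover π ⟨z, mem_centralizer_singleton_iff.2 rfl⟩)
    {u g : G} (huu : u * u = 1) (hu1 : u ≠ 1) (huz : u ≠ z) (hc : u * z = z * u)
    (hgz : g * z * g⁻¹ = u) (hgu : g * u * g⁻¹ = z * u) : n < 12 := by
  by_contra hn
  have hn : 12 ≤ n := by omega
  have hu' : u ∈ centralizer ({z} : Set G) := mem_centralizer_singleton_iff.2 hc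
  set U : centralizer ({z} : Set G) := ⟨u, hu'⟩ with hU
  set Z : centralizer ({z} : Set G) := ⟨z, mem_centralizer_singleton_iff.2 rfl⟩ with hZ
  have hgzu : g * (z * u) * g⁻¹ = z := by
    have : g * (z * u) * g⁻¹ = (g * z * g⁻¹) * (g * u * g⁻¹) := by group
    rw [this, hgz, hgu, ← mul_assoc, hc, mul_assoc, huu, mul_one]
  -- conjugation by g on C_G(z) ∩ C_G(u)
  have key : ∀ x : G, x * z = z * x → x * u = u * x →
      (g * x * g⁻¹) * z = z * (g * x * g⁻¹) ∧ (g * x * g⁻¹) * u = u * (g * x * g⁻¹) := by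
    intro x hxz hxu
    have hzu : x * (z * u) = (z * u) * x := by rw [← mul_assoc, hxz, mul_assoc, hxu, mul_assoc]
    refine ⟨?_, ?_⟩
    · calc (g * x * g⁻¹) * z = (g * x * g⁻¹) * (g * (z * u) * g⁻¹) := by rw [hgzu]
        _ = g * (x * (z * u)) * g⁻¹ := by group
        _ = g * ((z * u) * x) * g⁻¹ := by rw [hzu]
        _ = (g * (z * u) * g⁻¹) * (g * x * g⁻¹) := by group
        _ = z * (g * x * g⁻¹) := by rw [hgzu]
    · calc (g * x * g⁻¹) * u = (g * x * g⁻¹) * (g * z * g⁻¹) := by rw [hgz]
        _ = g * (x * z) * g⁻¹ := by group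
        _ = g * (z * x) * g⁻¹ := by rw [hxz]
        _ = (g * z * g⁻¹) * (g * x * g⁻¹) := by group
        _ = u * (g * x * g⁻¹) := by rw [hgz]
  have hginv_u : g⁻¹ * u * g = z := by
    have h1 : g⁻¹ * (g * z * g⁻¹) * g = z := by group
    rwa [hgz] at h1
  have hginv_zu : g⁻¹ * (z * u) * g = u := by
    have h1 : g⁻¹ * (g * u * g⁻¹) * g = u := by group
    rwa [hgu] at h1
  have key' : ∀ x : G, x * z = z * x → x * u = u * x →
      (g⁻¹ * x * g) * z = z * (g⁻¹ * x * g) ∧ (g⁻¹ * x * g) * u = u * (g⁻¹ * x * g) := by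
    intro x hxz hxu
    have hzu : x * (z * u) = (z * u) * x := by rw [← mul_assoc, hxz, mul_assoc, hxu, mul_assoc]
    refine ⟨?_, ?_⟩
    · calc (g⁻¹ * x * g) * z = (g⁻¹ * x * g) * (g⁻¹ * u * g) := by rw [hginv_u]
        _ = g⁻¹ * (x * u) * g := by group
        _ = g⁻¹ * (u * x) * g := by rw [hxu]
        _ = (g⁻¹ * u * g) * (g⁻¹ * x * g) := by group
        _ = z * (g⁻¹ * x * g) := by rw [hginv_u]
    · calc (g⁻¹ * x * g) * u = (g⁻¹ * x * g) * (g⁻¹ * (z * u) * g) := by rw [hginv_zu]
        _ = g⁻¹ * (x * (z * u)) * g := by group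
        _ = g⁻¹ * ((z * u) * x) * g := by rw [hzu]
        _ = (g⁻¹ * (z * u) * g) * (g⁻¹ * x * g) := by group
        _ = u * (g⁻¹ * x * g) := by rw [hginv_zu]
  have mem1 : ∀ x : centralizer ({U} : Set (centralizer ({z} : Set G))),
      (x : G) * z = z * (x : G) ∧ (x : G) * u = u * (x : G) := by
    intro x
    refine ⟨mem_centralizer_singleton_iff.1 x.1.2, ?_⟩
    have := mem_centralizer_singleton_iff.1 x.2
    exact congrArg (Subtype.val) this
  let φ : centralizer ({U} : Set (centralizer ({z} : Set G))) ≃*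
      centralizer ({U} : Set (centralizer ({z} : Set G))) :=
    { toFun := fun x => ⟨⟨g * (x : G) * g⁻¹, mem_centralizer_singleton_iff.2
          (key x (mem1 x).1 (mem1 x).2).1⟩, mem_centralizer_singleton_iff.2
          (Subtype.ext (key x (mem1 x).1 (mem1 x).2).2)⟩
      invFun := fun x => ⟨⟨g⁻¹ * (x : G) * g, mem_centralizer_singleton_iff.2
          (key' x (mem1 x).1 (mem1 x).2).1⟩, mem_centralizer_singleton_iff.2
          (Subtype.ext (key' x (mem1 x).1 (mem1 x).2).2)⟩
      left_inv := fun x => by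
        apply Subtype.ext; apply Subtype.ext
        change g⁻¹ * (g * (x : G) * g⁻¹) * g = x
        group
      right_inv := fun x => by
        apply Subtype.ext; apply Subtype.ext
        change g * (g⁻¹ * (x : G) * g) * g⁻¹ = x
        group
      map_mul' := fun x y => by
        apply Subtype.ext; apply Subtype.ext
        change g * ((x : G) * (y : G)) * g⁻¹ = (g * (x : G) * g⁻¹) * (g * (y : G) * g⁻¹)
        group }
  refine LyGeTwelve.ge_twelve (C := centralizer ({z} : Set G)) hn h (u := U) ?_ ?_ ?_ φ ?_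
  · exact Subtype.ext huu
  · intro hh; exact hu1 (congrArg Subtype.val hh)
  · intro hh; exact huz (congrArg Subtype.val hh)
  · apply Subtype.ext
    exact hgz

end Cfsg.Agent.SporRec.LyDegree
end

-- part: S1645
section
set_option autoImplicit false
open Cfsg

namespace Cfsg.Agent.S1645

/-- If some involution of a finite simple group has centraliser a non-split double cover of the alternating group of degree n ≥ 5, then n is 8 or 11 (the McLaughlin and Lyons cases). -/
theorem result {G : Type*} [Group G] [Finite G] [IsSimpleGroup G] (n : ℕ) (hn : 5 ≤ n) (z : G) (hz : orderOf z = 2) (hcov : Cfsg.IsNonsplitDoubleCover (Subgroup.centralizer ({z} : Set G)) (alternatingGroup (Fin n))) : n = 8 ∨ n = 11 := by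
  obtain ⟨h8, π, h, u, huu, hu1, huz, hc, g, hgz, hgu⟩ :=
    Cfsg.Agent.SporRec.LyReduce.reduce n hn z hz hcov
  have h12 := Cfsg.Agent.SporRec.LyDegree.degree_lt h huu hu1 huz hc hgz hgu
  by_contra hno
  have hn9 : n = 9 ∨ n = 10 := by omega
  exact Cfsg.Agent.SporRec.TwoNine.Main.nine_ten hn9 h huu hu1 huz hc ⟨g, hgz⟩

end Cfsg.Agent.S1645
end
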