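import Mathlib
import Cfsg.Agent.J2Type.COdd
import Cfsg.Agent.J3Type.FarPairs
import Cfsg.Agent.J3Type.CThree
import Cfsg.Agent.J3Type.ExistsW
import Cfsg.Statements.S1652
set_option linter.all false

-- part: J3Type/CubeRel
section
set_option autoImplicit false

/-!
# The cube relation in `2^{1+4}_-:A₅`
-/

namespace Cfsg.Agent.J3Type.CubeRel

open Cfsg.Agent.J2Type.Model Cfsg.Agent.J2Type.SPFacts Cfsg.Agent.J2Type.CStruct
open Cfsg.Agent.J2Type.COdd

/-- permutations inverting `τ3` -/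
def wσ (k : Fin 3) : Equiv.Perm (Fin 5) :=
  if k = 0 then Equiv.swap 0 1 * Equiv.swap 3 4
  else if k = 1 then Equiv.swap 1 2 * Equiv.swap 3 4 else Equiv.swap 0 2 * Equiv.swap 3 4

/-- Klein four-group involutions on `{0,1,2,3}` and `{0,1,2,4}` -/
def xσ (k : Fin 3) (l : Fin 2) : Equiv.Perm (Fin 5) :=
  let m : Fin 5 := if l = 0 then 3 else 4
  if k = 0 then Equiv.swap 0 1 * Equiv.swap 2 m
  else if k = 1 then Equiv.swap 1 2 * Equiv.swap 0 m else Equiv.swap 0 2 * Equiv.swap 1 m

/-- candidates for `w` -/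
def LW : Finset SP :=
  (Finset.univ : Finset (Fin 3 × ZMod 2)).image fun p =>
    ⟨wσ p.1, fun i => if i = 3 ∨ i = 4 then p.2 else 0⟩

/-- candidates for `x` -/
def LX : Finset SP :=
  (Finset.univ : Finset (Fin 3 × Fin 2 × ZMod 2)).image fun p =>
    ⟨xσ p.1 p.2.1, fun i =>
      if i = (if p.2.1 = 0 then 3 else 4) ∨ i = (xσ p.1 p.2.1) (if p.2.1 = 0 then 3 else 4) then p.2.2
      else 0⟩

theorem W_aux1 : ∀ σ : Equiv.Perm (Fin 5), Equiv.Perm.sign σ = 1 → σ * σ = 1 →
    σ * τ3 = τ3⁻¹ * σ → ∃ k : Fin 3, σ = wσ k := by decide +kernel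

theorem W_aux2 : ∀ (k : Fin 3) (s : Fin 5 → ZMod 2), ∑ i, s i = 0 →
    (⟨wσ k, s⟩ : SP) * ⟨wσ k, s⟩ = 1 → (⟨wσ k, s⟩ : SP) * g3 = g3⁻¹ * ⟨wσ k, s⟩ →
    (⟨wσ k, s⟩ : SP) ∈ LW := by decide +kernel

theorem W_mem {W : SP} (h1 : Equiv.Perm.sign W.σ = 1) (h2 : ∑ i, W.s i = 0) (h3 : W * W = 1)
    (h4 : W * g3 = g3⁻¹ * W) : W ∈ LW := by
  obtain ⟨σ, s⟩ := W
  obtain ⟨k, rfl⟩ := W_aux1 σ h1 (congrArg SP.σ h3) (congrArg SP.σ h4)
  exact W_aux2 k s h2 h3 h4

theorem X_aux1 : ∀ σ : Equiv.Perm (Fin 5), Equiv.Perm.sign σ = 1 → σ * σ = 1 → σ ≠ 1 →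
    σ * (τ3 * σ * τ3⁻¹) = τ3 * τ3 * σ * τ3⁻¹ * τ3⁻¹ → ∃ (k : Fin 3) (l : Fin 2), σ = xσ k l := by
  decide +kernel

theorem X_aux2 : ∀ (k : Fin 3) (l : Fin 2) (s : Fin 5 → ZMod 2), ∑ i, s i = 0 →
    (⟨xσ k l, s⟩ : SP) * ⟨xσ k l, s⟩ = 1 →
    (⟨xσ k l, s⟩ : SP) * (g3 * ⟨xσ k l, s⟩ * g3⁻¹) = g3 * g3 * ⟨xσ k l, s⟩ * g3⁻¹ * g3⁻¹ →
    (⟨xσ k l, s⟩ : SP) ∈ LX := by decide +kernel

theorem X_mem {X : SP} (h1 : Equiv.Perm.sign X.σ = 1) (h2 : ∑ i, X.s i = 0) (h3 : X * X = 1)
    (hne : X.σ ≠ 1) (h4 : X * (g3 * X * g3⁻¹) = g3 * g3 * X * g3⁻¹ * g3⁻¹) : X ∈ LX := by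
  obtain ⟨σ, s⟩ := X
  obtain ⟨k, l, rfl⟩ := X_aux1 σ h1 (congrArg SP.σ h3) hne (congrArg SP.σ h4)
  exact X_aux2 k l s h2 h3 h4

theorem cube_aux : ∀ W ∈ LW, ∀ X ∈ LX, ∃ i : Fin 3,
    (W * (g3 ^ (i : ℕ) * X * (g3 ^ (i : ℕ))⁻¹)) * (W * (g3 ^ (i : ℕ) * X * (g3 ^ (i : ℕ))⁻¹)) *
      (W * (g3 ^ (i : ℕ) * X * (g3 ^ (i : ℕ))⁻¹)) = 1 := by decide +kernel

theorem LW_ne : ∀ W ∈ LW, W.σ ≠ 1 := by decide +kernel

variable {C : Type*} [Group C] [Finite C] {Q : Subgroup C} {z : C} {v : Fin 5 → C} {ρ : C →* SP}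

/-- **P4**: the cube relation. -/
theorem cube (M : IsModel Q z v ρ) (hcard : Nat.card C = 1920) {u : C} (hu : u * u = 1)
    (huQ : u ∉ Q) {g w x : C} (hg : orderOf g = 3) (hw : w * w = 1 ∨ w * w = z)
    (hwg : w * g * w⁻¹ = g⁻¹) (hx : x * x = 1) (hxQ : x ∉ Q)
    (hxg : x * (g * x * g⁻¹) = g * g * x * g⁻¹ * g⁻¹) :
    w * w = 1 ∧ ∃ i < 3, (w * (g ^ i * x * (g ^ i)⁻¹)) ^ 3 = 1 ∨
      (z * w * (g ^ i * x * (g ^ i)⁻¹)) ^ 3 = 1 := by
  obtain ⟨c3, h3, h33⟩ := exists_odd_lift M (n := 3) (by decide) g3_E g3_pow3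
  obtain ⟨k, hk⟩ := conj_three M hcard hg h3 h33
  -- SP-level elements
  set W : SP := ρ (k * w * k⁻¹) with hW
  set X : SP := ρ (k * x * k⁻¹) with hX
  have hWE := (M.range W).1 ⟨_, rfl⟩
  have hXE := (M.range X).1 ⟨_, rfl⟩
  have hWW : W * W = 1 := by
    rw [hW, ← map_mul]
    have e : k * w * k⁻¹ * (k * w * k⁻¹) = k * (w * w) * k⁻¹ := by group
    rw [e]
    rcases hw with h | h
    · rw [h]
      have : k * 1 * k⁻¹ = 1 := by group
      rw [this, map_one]
    · rw [h, M.z_comm]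
      have : z * k * k⁻¹ = z := by group
      rw [this]; exact rho_z M
  have hXX : X * X = 1 := by
    rw [hX, ← map_mul]
    have e : k * x * k⁻¹ * (k * x * k⁻¹) = k * (x * x) * k⁻¹ := by group
    rw [e, hx]
    have : k * 1 * k⁻¹ = 1 := by group
    rw [this, map_one]
  have hWg : W * g3 = g3⁻¹ * W := by
    rw [hW, ← h3, ← hk, ← map_mul, ← map_inv, ← map_mul]
    congr 1
    calc k * w * k⁻¹ * (k * g * k⁻¹) = k * (w * g * w⁻¹) * w * k⁻¹ := by group
      _ = k * g⁻¹ * w * k⁻¹ := by rw [hwg]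
      _ = _ := by group
  have hXne : X.σ ≠ 1 := by
    intro h
    apply hxQ
    rw [M.mem_Q]
    have h2 : X.σ = (ρ k).σ * (ρ x).σ * (ρ k).σ⁻¹ := by
      rw [hX, map_mul, map_mul, map_inv, mul_σ, mul_σ, inv_σ]
    rw [h2] at h
    calc (ρ x).σ = (ρ k).σ⁻¹ * ((ρ k).σ * (ρ x).σ * (ρ k).σ⁻¹) * (ρ k).σ := by group
      _ = 1 := by rw [h]; group
  have hXg : X * (g3 * X * g3⁻¹) = g3 * g3 * X * g3⁻¹ * g3⁻¹ := by
    rw [hX, ← h3, ← hk]
    simp only [← map_mul, ← map_inv]
    congr 1
    calc k * x * k⁻¹ * (k * g * k⁻¹ * (k * x * k⁻¹) * (k * g * k⁻¹)⁻¹)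
        = k * (x * (g * x * g⁻¹)) * k⁻¹ := by group
      _ = k * (g * g * x * g⁻¹ * g⁻¹) * k⁻¹ := by rw [hxg]
      _ = _ := by group
  have hWm := W_mem hWE.1 hWE.2 hWW hWg
  have hXm := X_mem hXE.1 hXE.2 hXX hXne hXg
  obtain ⟨i, hi⟩ := cube_aux W hWm X hXm
  have hW1 : (ρ w).σ ≠ 1 := by
    intro h
    apply LW_ne W hWm
    rw [hW, map_mul, map_mul, map_inv, mul_σ, mul_σ, inv_σ, h]
    group
  have hρw : ρ w * ρ w = 1 := by
    rw [← map_mul]
    rcases hw with h | h
    · rw [h, map_one]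
    · rw [h]; exact rho_z M
  have hww : w * w = 1 := sq_of_rho_sq M hu huQ hρw hW1
  refine ⟨hww, (i : ℕ), i.2, ?_⟩
  have hcube : ρ ((w * (g ^ (i : ℕ) * x * (g ^ (i : ℕ))⁻¹)) ^ 3) = 1 := by
    have e1 : ρ (k * ((w * (g ^ (i : ℕ) * x * (g ^ (i : ℕ))⁻¹)) ^ 3) * k⁻¹) = 1 := by
      rw [← hi, hW, hX, ← h3, ← hk]
      simp only [← map_mul, ← map_inv, ← map_pow]
      congr 1
      rw [conj_pow, pow_succ, pow_two]
      group
    rw [map_mul, map_mul, map_inv, mul_inv_eq_one] at e1
    exact mul_eq_left.mp e1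
  rcases (M.ker _).1 hcube with h | h
  · left; exact h
  · right
    have hc : Commute z (w * (g ^ (i : ℕ) * x * (g ^ (i : ℕ))⁻¹)) := (M.z_comm _).symm
    rw [mul_assoc, hc.mul_pow, h, pow_succ, pow_two, M.z_sq, one_mul, M.z_sq]

end Cfsg.Agent.J3Type.CubeRel
end

-- part: J3Type/RankOneSL2
section
set_option autoImplicit false

/-!
# Recognition of `SL₂(K)` in characteristic 2 from rank one data

`SL2Data K G`: a family of elements `u k` (root group), `h a` (torus), `w` of a group `G`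
satisfying the Steinberg relations in characteristic 2. Then `φ : SL₂(K) →* G` exists.
-/

namespace Cfsg.Agent.J3Type.RankOneSL2

open Matrix

/-- Rank one data in characteristic two. -/
structure SL2Data (K G : Type*) [Field K] [Group G] where
  u : K → G
  h : Kˣ → G
  w : G
  char2 : ∀ k : K, k + k = 0
  u_add : ∀ a b, u (a + b) = u a * u b
  h_mul : ∀ a b, h (a * b) = h a * h b
  hu : ∀ (a : Kˣ) (k : K), h a * u k = u ((a : K) * a * k) * h a
  ww : w * w = 1
  wh : ∀ a, w * h a = h a⁻¹ * w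
  rel : w * u 1 * w = u 1 * w * u 1

namespace SL2Data

variable {K G : Type*} [Field K] [Group G] (D : SL2Data K G)

theorem u_zero : D.u 0 = 1 := by
  have := D.u_add 0 0
  rw [add_zero] at this
  exact (mul_eq_left.mp this.symm)

theorem h_one : D.h 1 = 1 := by
  have := D.h_mul 1 1
  rw [mul_one] at this
  exact (mul_eq_left.mp this.symm)

include D in
theorem neg_eq (k : K) : -k = k := by
  rw [neg_eq_iff_add_eq_zero]; exact D.char2 k

theorem h_inv (a : Kˣ) : (D.h a)⁻¹ = D.h a⁻¹ := by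
  rw [inv_eq_iff_mul_eq_one, ← D.h_mul, mul_inv_cancel, D.h_one]

/-- The key relation for all nonzero `k`, written with a square `a * a`. -/
theorem rel_sq (a : Kˣ) :
    D.w * D.u ((a : K) * a) * D.w
      = D.u ((a⁻¹ : Kˣ) * (a⁻¹ : Kˣ)) * D.w * D.h (a * a) * D.u ((a⁻¹ : Kˣ) * (a⁻¹ : Kˣ)) := by
  have h1 : D.u ((a : K) * a) = D.h a * D.u 1 * D.h a⁻¹ := by
    rw [D.hu, mul_one, mul_assoc, ← D.h_mul, mul_inv_cancel, D.h_one, mul_one]
  have h2 : ∀ k : K, D.h a⁻¹ * D.u k = D.u ((a⁻¹ : Kˣ) * (a⁻¹ : Kˣ) * k) * D.h a⁻¹ := fun k =>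
    D.hu a⁻¹ k
  have h3 : D.h a⁻¹ * D.w = D.w * D.h a := by
    rw [D.wh]
  have hd : D.h a * D.u ((a⁻¹ : Kˣ) * (a⁻¹ : Kˣ)) = D.u 1 * D.h a := by
    rw [D.hu]
    congr 2
    have : (a : K) * ((a⁻¹ : Kˣ) : K) = 1 := by simp
    calc (a : K) * a * (((a⁻¹ : Kˣ) : K) * ((a⁻¹ : Kˣ) : K))
        = ((a : K) * ((a⁻¹ : Kˣ) : K)) * ((a : K) * ((a⁻¹ : Kˣ) : K)) := by ring
      _ = 1 := by rw [this, one_mul]
  have hc : D.h a⁻¹ * D.u 1 = D.u ((a⁻¹ : Kˣ) * (a⁻¹ : Kˣ)) * D.h a⁻¹ := by
    rw [h2, mul_one]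
  calc D.w * D.u ((a : K) * a) * D.w
      = (D.w * D.h a) * D.u 1 * (D.h a⁻¹ * D.w) := by rw [h1]; group
    _ = (D.h a⁻¹ * D.w) * D.u 1 * (D.w * D.h a) := by rw [D.wh, h3]
    _ = D.h a⁻¹ * (D.w * D.u 1 * D.w) * D.h a := by group
    _ = D.h a⁻¹ * (D.u 1 * D.w * D.u 1) * D.h a := by rw [D.rel]
    _ = (D.h a⁻¹ * D.u 1) * D.w * (D.u 1 * D.h a) := by group
    _ = D.u ((a⁻¹ : Kˣ) * (a⁻¹ : Kˣ)) * D.h a⁻¹ * D.w * (D.h a * D.u ((a⁻¹ : Kˣ) * (a⁻¹ : Kˣ))) := by
        rw [hc, hd]
    _ = D.u ((a⁻¹ : Kˣ) * (a⁻¹ : Kˣ)) * (D.h a⁻¹ * D.w) * D.h a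
          * D.u ((a⁻¹ : Kˣ) * (a⁻¹ : Kˣ)) := by group
    _ = D.u ((a⁻¹ : Kˣ) * (a⁻¹ : Kˣ)) * D.w * (D.h a * D.h a)
          * D.u ((a⁻¹ : Kˣ) * (a⁻¹ : Kˣ)) := by rw [h3]; group
    _ = _ := by rw [← D.h_mul]

/-- The map on matrices, given on `Matrix (Fin 2) (Fin 2) K` with entries `a b c d`. -/
noncomputable def fn (a b c d : K) : G :=
  open Classical in
  if hc : c = 0 then
    if ha : a = 0 then 1 else D.u (b * a) * D.h (Units.mk0 a ha)
  else D.u (a / c) * D.w * D.h (Units.mk0 c hc) * D.u (d / c)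

theorem fn_c0 {a b c d : K} (hc : c = 0) (ha : a ≠ 0) :
    D.fn a b c d = D.u (b * a) * D.h (Units.mk0 a ha) := by
  unfold fn
  rw [dif_pos hc, dif_neg ha]

theorem fn_cne {a b c d : K} (hc : c ≠ 0) :
    D.fn a b c d = D.u (a / c) * D.w * D.h (Units.mk0 c hc) * D.u (d / c) := by
  unfold fn
  rw [dif_neg hc]

/-- Left multiplication by a root element. -/
theorem fn_u (k : K) {a b c d : K} (hdet : a * d - b * c = 1) :
    D.fn (a + k * c) (b + k * d) c d = D.u k * D.fn a b c d := by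
  by_cases hc : c = 0
  · subst hc
    have ha : a ≠ 0 := by rintro rfl; simp at hdet
    have ha' : a + k * 0 ≠ 0 := by simpa using ha
    rw [D.fn_c0 rfl ha', D.fn_c0 rfl ha, ← mul_assoc, ← D.u_add]
    have h1 : (b + k * d) * (a + k * 0) = k + b * a := by
      have : a * d = 1 := by simpa using hdet
      linear_combination k * this
    rw [h1]
    congr 2
    ext; simp
  · rw [D.fn_cne hc, D.fn_cne hc]
    rw [← mul_assoc, ← mul_assoc, ← mul_assoc, ← D.u_add]
    congr 5
    field_simp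
    ring

/-- Left multiplication by a torus element. -/
theorem fn_h (t : Kˣ) {a b c d : K} (hdet : a * d - b * c = 1) :
    D.fn (t * a) (t * b) ((t⁻¹ : Kˣ) * c) ((t⁻¹ : Kˣ) * d) = D.h t * D.fn a b c d := by
  by_cases hc : c = 0
  · subst hc
    have ha : a ≠ 0 := by rintro rfl; simp at hdet
    have ha' : (t : K) * a ≠ 0 := mul_ne_zero t.ne_zero ha
    rw [D.fn_c0 (by simp) ha', D.fn_c0 rfl ha, ← mul_assoc (D.h t), D.hu, mul_assoc (D.u _) (D.h t),
      ← D.h_mul]
    congr 2
    · ring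
    · ext; simp
  · have hc' : ((t⁻¹ : Kˣ) : K) * c ≠ 0 := mul_ne_zero (t⁻¹).ne_zero hc
    rw [D.fn_cne hc, D.fn_cne hc']
    have e1 : Units.mk0 (((t⁻¹ : Kˣ) : K) * c) hc' = t⁻¹ * Units.mk0 c hc := by ext; simp
    rw [e1, D.h_mul]
    have e2 : (t : K) * a / (((t⁻¹ : Kˣ) : K) * c) = t * t * (a / c) := by
      have : (t : K) ≠ 0 := t.ne_zero
      rw [Units.val_inv_eq_inv_val]
      field_simp
    have e3 : ((t⁻¹ : Kˣ) : K) * d / (((t⁻¹ : Kˣ) : K) * c) = d / c := by
      have : (t : K) ≠ 0 := t.ne_zero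
      rw [Units.val_inv_eq_inv_val]
      field_simp
    rw [e2, e3]
    calc D.u (t * t * (a / c)) * D.w * (D.h t⁻¹ * D.h (Units.mk0 c hc)) * D.u (d / c)
        = D.u (t * t * (a / c)) * (D.w * D.h t⁻¹) * D.h (Units.mk0 c hc) * D.u (d / c) := by group
      _ = (D.u (t * t * (a / c)) * D.h t) * D.w * D.h (Units.mk0 c hc) * D.u (d / c) := by
          rw [D.wh, inv_inv]; group
      _ = _ := by rw [← D.hu]; group

/-- Left multiplication by `w`. Requires that every element of `K` is a square. -/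
theorem fn_w (hsq : ∀ k : K, ∃ r : K, r * r = k) {a b c d : K} (hdet : a * d - b * c = 1) :
    D.fn c d a b = D.w * D.fn a b c d := by
  have hneg := D.neg_eq
  by_cases hc : c = 0
  · subst hc
    have ha : a ≠ 0 := by rintro rfl; simp at hdet
    rw [D.fn_cne ha, D.fn_c0 rfl ha]
    have h0 : (0 : K) / a = 0 := by simp
    rw [h0, D.u_zero, one_mul, mul_assoc, D.hu]
    congr 3
    simp only [Units.val_mk0]
    field_simp
  · by_cases ha : a = 0
    · subst ha
      have hb : b ≠ 0 := by rintro rfl; simp at hdet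
      rw [D.fn_c0 rfl hc, D.fn_cne hc]
      have h0 : (0 : K) / c = 0 := by simp
      rw [h0, D.u_zero, one_mul]
      rw [← mul_assoc, ← mul_assoc, D.ww, one_mul, D.hu]
      congr 2
      simp only [Units.val_mk0]
      field_simp
    · rw [D.fn_cne ha, D.fn_cne hc]
      obtain ⟨r, hr⟩ := hsq (a / c)
      have hr0 : r ≠ 0 := by
        rintro rfl
        have : a / c ≠ 0 := div_ne_zero ha hc
        apply this; rw [← hr]; simp
      set R : Kˣ := Units.mk0 r hr0 with hR
      have hRv : (R : K) = r := rfl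
      have hsqv : ((R⁻¹ : Kˣ) : K) * ((R⁻¹ : Kˣ) : K) = c / a := by
        rw [Units.val_inv_eq_inv_val, hRv, ← mul_inv, hr, inv_div]
      have key := D.rel_sq R
      rw [hRv, hr, hsqv] at key
      have hRR : R * R * Units.mk0 c hc = Units.mk0 a ha := by
        ext; simp only [Units.val_mul, Units.val_mk0, hRv, hr]; field_simp
      calc D.u (c / a) * D.w * D.h (Units.mk0 a ha) * D.u (b / a)
          = D.u (c / a) * D.w * (D.h (R * R * Units.mk0 c hc)) * D.u (b / a) := by rw [hRR]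
        _ = D.u (c / a) * D.w * (D.h (R * R) * D.h (Units.mk0 c hc)) * D.u (b / a) := by
            rw [D.h_mul (R * R)]
        _ = D.u (c / a) * D.w * D.h (R * R) * (D.h (Units.mk0 c hc) * D.u (1 / (a * c)))
              * D.u (d / c) := by
            have : b / a = 1 / (a * c) + d / c := by
              have hc2 : b * c = a * d + 1 := by
                have h11 : (1 : K) + 1 = 0 := D.char2 1
                linear_combination -hdet - h11
              field_simp
              linear_combination hc2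
            rw [this, D.u_add]; group
        _ = D.u (c / a) * D.w * D.h (R * R) * (D.u (c / a) * D.h (Units.mk0 c hc))
              * D.u (d / c) := by
            rw [D.hu]
            congr 4
            simp only [Units.val_mk0]
            field_simp
        _ = (D.u (c / a) * D.w * D.h (R * R) * D.u (c / a)) * D.h (Units.mk0 c hc)
              * D.u (d / c) := by group
        _ = (D.w * D.u (a / c) * D.w) * D.h (Units.mk0 c hc) * D.u (d / c) := by rw [key]
        _ = _ := by group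

/-- The map on `SL₂(K)`. -/
noncomputable def map (M : SpecialLinearGroup (Fin 2) K) : G :=
  D.fn (M.1 0 0) (M.1 0 1) (M.1 1 0) (M.1 1 1)

theorem det_eq (M : SpecialLinearGroup (Fin 2) K) : M.1 0 0 * M.1 1 1 - M.1 0 1 * M.1 1 0 = 1 := by
  have := M.det_coe
  rwa [Matrix.det_fin_two] at this

/-- Upper unitriangular matrix. -/
def uM (k : K) : SpecialLinearGroup (Fin 2) K := ⟨!![1, k; 0, 1], by simp⟩

/-- Diagonal matrix. -/
def hM (t : Kˣ) : SpecialLinearGroup (Fin 2) K :=
  ⟨!![(t : K), 0; 0, ((t⁻¹ : Kˣ) : K)], by simp⟩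

/-- The Weyl element. -/
def wM : SpecialLinearGroup (Fin 2) K :=
  ⟨!![0, 1; 1, 0], by
    have h := D.neg_eq (1 : K)
    simp [h]⟩

theorem map_uM (k : K) : D.map (uM k) = D.u k := by
  unfold map
  have : D.fn 1 k 0 1 = D.u k := by
    rw [D.fn_c0 rfl one_ne_zero]
    have : Units.mk0 (1 : K) one_ne_zero = 1 := by ext; simp
    rw [this, D.h_one, mul_one, mul_one]
  simpa [uM] using this

theorem map_hM (t : Kˣ) : D.map (hM t) = D.h t := by
  unfold map
  have : D.fn (t : K) 0 0 ((t⁻¹ : Kˣ) : K) = D.h t := by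
    rw [D.fn_c0 rfl t.ne_zero, zero_mul, D.u_zero, one_mul, Units.mk0_val]
  simpa [hM] using this

theorem map_wM : D.map D.wM = D.w := by
  unfold map
  have : D.fn 0 1 1 0 = D.w := by
    rw [D.fn_cne one_ne_zero]
    have : Units.mk0 (1 : K) one_ne_zero = 1 := by ext; simp
    rw [this, D.h_one, mul_one, zero_div, D.u_zero, one_mul, mul_one]
  simpa [wM] using this

omit [Group G] in
theorem mul_entry (A B : SpecialLinearGroup (Fin 2) K) (i j : Fin 2) :
    (A * B).1 i j = A.1 i 0 * B.1 0 j + A.1 i 1 * B.1 1 j := by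
  have : (A * B).1 = A.1 * B.1 := rfl
  rw [this, Matrix.mul_apply, Fin.sum_univ_two]

theorem map_uM_mul (k : K) (M : SpecialLinearGroup (Fin 2) K) :
    D.map (uM k * M) = D.map (uM k) * D.map M := by
  rw [map_uM]
  have := D.fn_u k (det_eq M)
  unfold map
  rw [← this]
  simp only [mul_entry]
  simp [uM]

theorem map_hM_mul (t : Kˣ) (M : SpecialLinearGroup (Fin 2) K) :
    D.map (hM t * M) = D.map (hM t) * D.map M := by
  rw [map_hM]
  have := D.fn_h t (det_eq M)
  unfold map
  rw [← this]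
  simp only [mul_entry]
  simp [hM]

theorem map_wM_mul (hsq : ∀ k : K, ∃ r : K, r * r = k) (M : SpecialLinearGroup (Fin 2) K) :
    D.map (D.wM * M) = D.map D.wM * D.map M := by
  rw [map_wM]
  have := D.fn_w hsq (det_eq M)
  unfold map
  rw [← this]
  simp only [mul_entry]
  simp [wM]

theorem decomp_c0 (M : SpecialLinearGroup (Fin 2) K) (hc : M.1 1 0 = 0) :
    ∃ (k : K) (t : Kˣ), M = uM k * hM t := by
  have hdet := det_eq M
  rw [hc, mul_zero, sub_zero] at hdet
  have ha : M.1 0 0 ≠ 0 := by intro h; rw [h] at hdet; simp at hdet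
  have hd : M.1 1 1 = (M.1 0 0)⁻¹ := eq_inv_of_mul_eq_one_right hdet
  refine ⟨M.1 0 1 * M.1 0 0, Units.mk0 (M.1 0 0) ha, ?_⟩
  apply Subtype.ext
  change M.1 = !![1, M.1 0 1 * M.1 0 0; 0, 1] *
    !![((Units.mk0 (M.1 0 0) ha : Kˣ) : K), 0; 0, (((Units.mk0 (M.1 0 0) ha)⁻¹ : Kˣ) : K)]
  conv_lhs => rw [Matrix.eta_fin_two M.1]
  rw [Matrix.mul_fin_two, hc, hd]
  simp [ha]

theorem decomp_cne (M : SpecialLinearGroup (Fin 2) K) (hc : M.1 1 0 ≠ 0) :
    M = uM (M.1 0 0 / M.1 1 0) * D.wM * hM (Units.mk0 (M.1 1 0) hc) * uM (M.1 1 1 / M.1 1 0) := by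
  have hdet := det_eq M
  have h11 : (1 : K) + 1 = 0 := D.char2 1
  apply Subtype.ext
  change M.1 = !![1, M.1 0 0 / M.1 1 0; 0, 1] * !![0, 1; 1, 0] *
    !![((Units.mk0 (M.1 1 0) hc : Kˣ) : K), 0; 0, (((Units.mk0 (M.1 1 0) hc)⁻¹ : Kˣ) : K)] *
    !![1, M.1 1 1 / M.1 1 0; 0, 1]
  conv_lhs => rw [Matrix.eta_fin_two M.1]
  rw [Matrix.mul_fin_two, Matrix.mul_fin_two, Matrix.mul_fin_two]
  have e01 : M.1 0 1 = (M.1 1 0)⁻¹ + M.1 0 0 * (M.1 1 1 / M.1 1 0) := by
    field_simp
    linear_combination -hdet - h11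
  have e11 : M.1 1 0 * (M.1 1 1 / M.1 1 0) = M.1 1 1 := by field_simp
  have e00 : M.1 0 0 / M.1 1 0 * M.1 1 0 = M.1 0 0 := by field_simp
  simp only [Units.val_mk0, Units.val_inv_eq_inv_val, mul_one, one_mul, mul_zero, zero_mul,
    add_zero, zero_add]
  rw [e00, e11, ← e01.trans (add_comm _ _)]

theorem map_mul (hsq : ∀ k : K, ∃ r : K, r * r = k) (M N : SpecialLinearGroup (Fin 2) K) :
    D.map (M * N) = D.map M * D.map N := by
  have hP : ∀ g g' : SpecialLinearGroup (Fin 2) K,
      (∀ N, D.map (g * N) = D.map g * D.map N) → (∀ N, D.map (g' * N) = D.map g' * D.map N) →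
      ∀ N, D.map (g * g' * N) = D.map (g * g') * D.map N := by
    intro g g' h1 h2 N
    rw [mul_assoc, h1, h2, h1, mul_assoc]
  by_cases hc : M.1 1 0 = 0
  · obtain ⟨k, t, rfl⟩ := decomp_c0 M hc
    exact hP _ _ (D.map_uM_mul k) (D.map_hM_mul t) N
  · rw [D.decomp_cne M hc]
    exact hP _ _ (hP _ _ (hP _ _ (D.map_uM_mul _) (D.map_wM_mul hsq)) (D.map_hM_mul _))
      (D.map_uM_mul _) N

/-- The homomorphism `SL₂(K) →* G`. -/
noncomputable def hom (hsq : ∀ k : K, ∃ r : K, r * r = k) :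
    SpecialLinearGroup (Fin 2) K →* G :=
  MonoidHom.mk' D.map (D.map_mul hsq)

theorem hom_apply (hsq : ∀ k : K, ∃ r : K, r * r = k) (M : SpecialLinearGroup (Fin 2) K) :
    D.hom hsq M = D.map M := rfl

theorem hom_injective (hsq : ∀ k : K, ∃ r : K, r * r = k)
    (huh : ∀ k t, D.u k * D.h t = 1 → k = 0 ∧ t = 1)
    (hw : ∀ k t, D.w ≠ D.u k * D.h t) : Function.Injective (D.hom hsq) := by
  rw [injective_iff_map_eq_one]
  intro M hM1
  rw [hom_apply] at hM1
  by_cases hc : M.1 1 0 = 0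
  · obtain ⟨k, t, rfl⟩ := decomp_c0 M hc
    rw [D.map_uM_mul, D.map_uM, D.map_hM] at hM1
    obtain ⟨rfl, rfl⟩ := huh k t hM1
    apply Subtype.ext
    change !![1, 0; 0, 1] * !![((1 : Kˣ) : K), 0; 0, (((1 : Kˣ)⁻¹ : Kˣ) : K)] =
      (1 : Matrix (Fin 2) (Fin 2) K)
    rw [Matrix.mul_fin_two, Matrix.one_fin_two]
    simp
  · exfalso
    unfold map at hM1
    rw [D.fn_cne hc] at hM1
    set a := M.1 0 0 / M.1 1 0
    set d := M.1 1 1 / M.1 1 0
    set t := Units.mk0 (M.1 1 0) hc
    have h1 : D.w = (D.u a)⁻¹ * (D.h t * D.u d)⁻¹ := by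
      have : D.u a * D.w * (D.h t * D.u d) = 1 := by rw [← hM1]; group
      rw [eq_inv_mul_iff_mul_eq, eq_inv_iff_mul_eq_one, this]
    have hinv : (D.u a)⁻¹ = D.u (-a) := by
      rw [inv_eq_iff_mul_eq_one, ← D.u_add, add_neg_cancel, D.u_zero]
    have h2 : (D.h t * D.u d)⁻¹ = D.u (-d) * D.h t⁻¹ := by
      rw [_root_.mul_inv_rev, D.h_inv]
      congr 1
      rw [inv_eq_iff_mul_eq_one, ← D.u_add, add_neg_cancel, D.u_zero]
    rw [hinv, h2, ← mul_assoc, ← D.u_add] at h1
    exact hw _ _ h1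

theorem hom_range (hsq : ∀ k : K, ∃ r : K, r * r = k) :
    (D.hom hsq).range = Subgroup.closure (Set.range D.u ∪ Set.range D.h ∪ {D.w}) := by
  apply le_antisymm
  · rintro _ ⟨M, rfl⟩
    rw [hom_apply]
    have hu : ∀ k, D.u k ∈ Subgroup.closure (Set.range D.u ∪ Set.range D.h ∪ {D.w}) :=
      fun k => Subgroup.subset_closure (Or.inl (Or.inl ⟨k, rfl⟩))
    have hh : ∀ k, D.h k ∈ Subgroup.closure (Set.range D.u ∪ Set.range D.h ∪ {D.w}) :=
      fun k => Subgroup.subset_closure (Or.inl (Or.inr ⟨k, rfl⟩))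
    have hw : D.w ∈ Subgroup.closure (Set.range D.u ∪ Set.range D.h ∪ {D.w}) :=
      Subgroup.subset_closure (Or.inr rfl)
    by_cases hc : M.1 1 0 = 0
    · obtain ⟨k, t, rfl⟩ := decomp_c0 M hc
      rw [D.map_uM_mul, D.map_uM, D.map_hM]
      exact mul_mem (hu _) (hh _)
    · unfold map
      rw [D.fn_cne hc]
      exact mul_mem (mul_mem (mul_mem (hu _) hw) (hh _)) (hu _)
  · rw [Subgroup.closure_le]
    rintro _ ((⟨k, rfl⟩ | ⟨k, rfl⟩) | rfl)
    · exact ⟨uM k, D.map_uM k⟩
    · exact ⟨hM k, D.map_hM k⟩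
    · exact ⟨D.wM, D.map_wM⟩

end SL2Data

end Cfsg.Agent.J3Type.RankOneSL2
end

-- part: J3Type/RankOneField
section
set_option autoImplicit false

/-!
# From a sharply transitive abelian automorphism group to a field, and recognition of `SL₂(2^n)`
-/

namespace Cfsg.Agent.J3Type.RankOneField

section Fld

variable {T A : Type*} [CommGroup T] [AddCommGroup A] [DistribMulAction T A] (x : A)

/-- orbit map extended by zero -/
def toA : WithZero T → A
  | 0 => 0
  | (h : T) => h • x

theorem toA_zero : toA x (0 : WithZero T) = 0 := rfl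

theorem toA_coe (h : T) : toA x (h : WithZero T) = h • x := rfl

theorem toA_one : toA x (1 : WithZero T) = x := by
  change toA x ((1 : T) : WithZero T) = x
  rw [toA_coe, one_smul]

theorem toA_coe_mul (h : T) (k : WithZero T) : toA x ((h : WithZero T) * k) = h • toA x k := by
  induction k using WithZero.recZeroCoe with
  | zero => rw [mul_zero, toA_zero, smul_zero]
  | coe k => rw [← WithZero.coe_mul, toA_coe, toA_coe, mul_smul]

theorem toA_bijective (hx : x ≠ 0) (hreg : ∀ a : A, a ≠ 0 → ∃ h : T, h • x = a)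
    (hinj : ∀ h : T, h • x = x → h = 1) : Function.Bijective (toA (T := T) x) := by
  have hne : ∀ h : T, h • x ≠ 0 := by
    intro h h0
    apply hx
    have : h⁻¹ • (h • x) = h⁻¹ • (0 : A) := by rw [h0]
    rwa [smul_smul, inv_mul_cancel, one_smul, smul_zero] at this
  constructor
  · intro a b hab
    induction a using WithZero.recZeroCoe with
    | zero =>
      induction b using WithZero.recZeroCoe with
      | zero => rfl
      | coe b => exact absurd hab.symm (hne b)
    | coe a =>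
      induction b using WithZero.recZeroCoe with
      | zero => exact absurd hab (hne a)
      | coe b =>
        rw [toA_coe, toA_coe] at hab
        have : (b⁻¹ * a) • x = x := by
          rw [mul_smul, hab, smul_smul, inv_mul_cancel, one_smul]
        have := hinj _ this
        rw [inv_mul_eq_one] at this
        rw [this]
  · intro a
    by_cases ha : a = 0
    · exact ⟨0, by rw [toA_zero, ha]⟩
    · obtain ⟨h, hh⟩ := hreg a ha
      exact ⟨h, hh⟩

/-- The equivalence `WithZero T ≃ A`. -/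
noncomputable def eqv (hb : Function.Bijective (toA (T := T) x)) : WithZero T ≃ A :=
  Equiv.ofBijective _ hb

theorem eqv_apply (hb : Function.Bijective (toA (T := T) x)) (k : WithZero T) :
    eqv x hb k = toA x k := rfl

/-- The additive group structure on `WithZero T`. -/
@[reducible] noncomputable def acg (hb : Function.Bijective (toA (T := T) x)) :
    AddCommGroup (WithZero T) :=
  letI : Add (WithZero T) := ⟨fun a b => (eqv x hb).symm (eqv x hb a + eqv x hb b)⟩
  letI : Neg (WithZero T) := ⟨fun a => (eqv x hb).symm (- eqv x hb a)⟩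
  { AddGroup.ofLeftAxioms (G := WithZero T)
      (by
        intro a b c
        change (eqv x hb).symm (eqv x hb ((eqv x hb).symm (eqv x hb a + eqv x hb b)) + eqv x hb c)
          = (eqv x hb).symm (eqv x hb a + eqv x hb ((eqv x hb).symm (eqv x hb b + eqv x hb c)))
        rw [Equiv.apply_symm_apply, Equiv.apply_symm_apply, add_assoc])
      (by
        intro a
        change (eqv x hb).symm (eqv x hb 0 + eqv x hb a) = a
        rw [eqv_apply x hb 0, toA_zero, zero_add, Equiv.symm_apply_apply])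
      (by
        intro a
        change (eqv x hb).symm (eqv x hb ((eqv x hb).symm (- eqv x hb a)) + eqv x hb a) = 0
        rw [Equiv.apply_symm_apply, neg_add_cancel, Equiv.symm_apply_eq, eqv_apply, toA_zero]) with
    add_comm := by
      intro a b
      change (eqv x hb).symm (eqv x hb a + eqv x hb b) = (eqv x hb).symm (eqv x hb b + eqv x hb a)
      rw [add_comm] }

theorem acg_add (hb : Function.Bijective (toA (T := T) x)) (a b : WithZero T) :
    (acg x hb).add a b = (eqv x hb).symm (eqv x hb a + eqv x hb b) := rfl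

/-- The field structure on `WithZero T`. -/
@[reducible] noncomputable def fld (hb : Function.Bijective (toA (T := T) x)) :
    Field (WithZero T) :=
  { (inferInstance : CommGroupWithZero (WithZero T)), acg x hb with
    left_distrib := by
      intro a b c
      change a * (eqv x hb).symm (eqv x hb b + eqv x hb c)
        = (eqv x hb).symm (eqv x hb (a * b) + eqv x hb (a * c))
      rw [Equiv.eq_symm_apply]
      induction a using WithZero.recZeroCoe with
      | zero =>
        rw [zero_mul, zero_mul, zero_mul, eqv_apply x hb 0, toA_zero, add_zero]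
      | coe a =>
        rw [eqv_apply x hb (_ * _), eqv_apply x hb (_ * b), eqv_apply x hb (_ * c), toA_coe_mul,
          toA_coe_mul, toA_coe_mul, ← eqv_apply x hb, Equiv.apply_symm_apply, smul_add,
          eqv_apply, eqv_apply]
    right_distrib := by
      intro b c a
      change (eqv x hb).symm (eqv x hb b + eqv x hb c) * a
        = (eqv x hb).symm (eqv x hb (b * a) + eqv x hb (c * a))
      rw [mul_comm _ a, mul_comm b a, mul_comm c a, Equiv.eq_symm_apply]
      induction a using WithZero.recZeroCoe with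
      | zero =>
        rw [zero_mul, zero_mul, zero_mul, eqv_apply x hb 0, toA_zero, add_zero]
      | coe a =>
        rw [eqv_apply x hb (_ * _), eqv_apply x hb (_ * b), eqv_apply x hb (_ * c), toA_coe_mul,
          toA_coe_mul, toA_coe_mul, ← eqv_apply x hb, Equiv.apply_symm_apply, smul_add,
          eqv_apply, eqv_apply]
    nnqsmul := _
    nnqsmul_def := fun _ _ => rfl
    qsmul := _
    qsmul_def := fun _ _ => rfl }

theorem fld_add (hb : Function.Bijective (toA (T := T) x)) (a b : WithZero T) :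
    toA x ((fld x hb).add a b) = toA x a + toA x b := by
  change toA x ((eqv x hb).symm (eqv x hb a + eqv x hb b)) = _
  rw [← eqv_apply x hb, Equiv.apply_symm_apply, eqv_apply, eqv_apply]

theorem fld_mul (hb : Function.Bijective (toA (T := T) x)) (a b : WithZero T) :
    (fld x hb).mul a b = a * b := rfl

theorem fld_zero (hb : Function.Bijective (toA (T := T) x)) :
    (fld x hb).zero = 0 := rfl

theorem fld_one (hb : Function.Bijective (toA (T := T) x)) :
    (fld x hb).one = 1 := rfl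

/-- Any finite field `K` of the right cardinality is identified with `WithZero T`. -/
theorem exists_sigma [Finite T] (hb : Function.Bijective (toA (T := T) x)) (K : Type*) [Field K]
    [Fintype K] (hK : Fintype.card K = Nat.card T + 1) :
    ∃ σ : K → WithZero T, Function.Bijective σ ∧ σ 0 = 0 ∧ σ 1 = 1 ∧
      (∀ a b, σ (a * b) = σ a * σ b) ∧ (∀ a b, toA x (σ (a + b)) = toA x (σ a) + toA x (σ b)) := by
  classical
  haveI : Fintype T := Fintype.ofFinite T
  letI F : Field (WithZero T) := fld x hb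
  letI : Fintype (WithZero T) := (inferInstance : Fintype (Option T))
  have hc : Fintype.card K = Fintype.card (WithZero T) := by
    have h2 : Fintype.card (WithZero T) = Fintype.card (Option T) := rfl
    rw [hK, Nat.card_eq_fintype_card, h2, Fintype.card_option]
  let e : K ≃+* WithZero T := FiniteField.ringEquivOfCardEq (K := K) (K' := WithZero T) hc
  refine ⟨e, e.bijective, map_zero e, map_one e, fun a b => map_mul e a b, fun a b => ?_⟩
  have h : e (a + b) = (fld x hb).add (e a) (e b) := map_add e a b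
  rw [h]
  exact fld_add x hb (e a) (e b)

end Fld

section Main

open Matrix

/-- Recognition of `SL₂(K)`, `K` of characteristic two, inside a group. -/
theorem exists_SL2 {G : Type*} [Group G] [Finite G] (A T : Subgroup G) (w x : G)
    (hA : ∀ a ∈ A, ∀ b ∈ A, a * b = b * a) (hA2 : ∀ a ∈ A, a * a = 1)
    (hT : ∀ a ∈ T, ∀ b ∈ T, a * b = b * a)
    (hTA : ∀ h ∈ T, ∀ a ∈ A, h * a * h⁻¹ ∈ A)
    (hx : x ∈ A) (hx1 : x ≠ 1)
    (hreg : ∀ a ∈ A, a ≠ 1 → ∃ h ∈ T, h * x * h⁻¹ = a)
    (hinj : ∀ h ∈ T, h * x = x * h → h = 1)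
    (hw : w * w = 1) (hwT : ∀ h ∈ T, w * h * w = h⁻¹) (hne : ∃ h ∈ T, h * h ≠ 1)
    (hrel : w * x * w = x * w * x)
    (K : Type) [Field K] [Fintype K] (hK : Fintype.card K = Nat.card T + 1) :
    ∃ φ : SpecialLinearGroup (Fin 2) K →* G, Function.Injective φ ∧
      φ.range = Subgroup.closure ((A : Set G) ∪ T ∪ {w}) ∧
      (∀ t : Kˣ, φ (RankOneSL2.SL2Data.hM t) ∈ T) ∧
      (∀ h ∈ T, ∃ t : Kˣ, φ (RankOneSL2.SL2Data.hM t) = h) ∧
      (∀ k : K, φ (RankOneSL2.SL2Data.uM k) ∈ A) ∧
      (∀ a ∈ A, ∃ k : K, φ (RankOneSL2.SL2Data.uM k) = a) := by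
  classical
  -- instances
  letI iT : CommGroup T := { (inferInstance : Group T) with
    mul_comm := fun a b => Subtype.ext (hT a a.2 b b.2) }
  letI iA : CommGroup A := { (inferInstance : Group A) with
    mul_comm := fun a b => Subtype.ext (hA a a.2 b b.2) }
  letI act : DistribMulAction T (Additive A) :=
    { smul := fun h a => Additive.ofMul ⟨h * (Additive.toMul a : A) * (h : G)⁻¹,
        hTA h h.2 _ (Additive.toMul a).2⟩
      one_smul := by
        intro a
        apply Additive.toMul.injective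
        apply Subtype.ext
        change ((1 : T) : G) * (Additive.toMul a : A) * ((1 : T) : G)⁻¹ = (Additive.toMul a : A)
        simp
      mul_smul := by
        intro h k a
        apply Additive.toMul.injective
        apply Subtype.ext
        change ((h * k : T) : G) * (Additive.toMul a : A) * ((h * k : T) : G)⁻¹
          = (h : G) * ((k : G) * (Additive.toMul a : A) * (k : G)⁻¹) * (h : G)⁻¹
        rw [Subgroup.coe_mul]; group
      smul_zero := by
        intro h
        apply Additive.toMul.injective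
        apply Subtype.ext
        change (h : G) * ((1 : A) : G) * (h : G)⁻¹ = ((1 : A) : G)
        simp
      smul_add := by
        intro h a b
        apply Additive.toMul.injective
        apply Subtype.ext
        change (h : G) * ((Additive.toMul a : A) * (Additive.toMul b : A)) * (h : G)⁻¹
          = ((h : G) * (Additive.toMul a : A) * (h : G)⁻¹) *
            ((h : G) * (Additive.toMul b : A) * (h : G)⁻¹)
        group }
  have smul_def : ∀ (h : T) (a : Additive A),
      ((Additive.toMul (h • a) : A) : G) = h * (Additive.toMul a : A) * (h : G)⁻¹ :=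
    fun h a => rfl
  let x' : Additive A := Additive.ofMul ⟨x, hx⟩
  have hx' : x' ≠ 0 := by
    intro h
    apply hx1
    have : (⟨x, hx⟩ : A) = 1 := h
    exact congrArg Subtype.val this
  have hb : Function.Bijective (toA (T := T) x') := by
    apply toA_bijective x' hx'
    · intro a ha
      have ha' : ((Additive.toMul a : A) : G) ≠ 1 := by
        intro h
        apply ha
        apply Additive.toMul.injective
        apply Subtype.ext
        exact h
      obtain ⟨h, hh, e⟩ := hreg _ (Additive.toMul a).2 ha'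
      refine ⟨⟨h, hh⟩, ?_⟩
      apply Additive.toMul.injective
      apply Subtype.ext
      exact e
    · intro h e
      have e' : ((Additive.toMul (h • x') : A) : G) = x := by rw [e]; rfl
      rw [smul_def] at e'
      apply Subtype.ext
      apply hinj h h.2
      have : (h : G) * x * (h : G)⁻¹ = x := e'
      rwa [mul_inv_eq_iff_eq_mul] at this
  obtain ⟨σ, hσb, hσ0, hσ1, hσm, hσa⟩ := exists_sigma x' hb K hK
  -- the torus element
  have hσne : ∀ t : Kˣ, σ t ≠ 0 := by
    intro t h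
    have : (t : K) = 0 := hσb.1 (h.trans hσ0.symm)
    exact t.ne_zero this
  let τ : Kˣ → T := fun t => WithZero.unzero (hσne t)
  have hτ : ∀ t : Kˣ, ((τ t : T) : WithZero T) = σ t := fun t => WithZero.coe_unzero (hσne t)
  have hτm : ∀ a b : Kˣ, τ (a * b) = τ a * τ b := by
    intro a b
    apply WithZero.coe_injective
    rw [WithZero.coe_mul, hτ, hτ, hτ, Units.val_mul, hσm]
  have hτ1 : τ 1 = 1 := by
    apply WithZero.coe_injective
    rw [hτ, Units.val_one, hσ1, WithZero.coe_one]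
  let U : K → G := fun k => ((Additive.toMul (toA x' (σ k)) : A) : G)
  have hU : ∀ k, U k ∈ A := fun k => (Additive.toMul (toA x' (σ k))).2
  have hUadd : ∀ a b, U (a + b) = U a * U b := by
    intro a b
    change ((Additive.toMul (toA x' (σ (a + b))) : A) : G) = _
    rw [hσa]; rfl
  have hU1 : U 1 = x := by
    change ((Additive.toMul (toA x' (σ 1)) : A) : G) = x
    rw [hσ1, toA_one]; rfl
  have hU0 : U 0 = 1 := by
    have := hUadd 0 0
    rw [add_zero] at this
    exact (mul_eq_left.mp this.symm)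
  have hUsurj : ∀ a ∈ A, ∃ k, U k = a := by
    intro a ha
    obtain ⟨k', hk'⟩ := hb.2 (Additive.ofMul ⟨a, ha⟩)
    obtain ⟨k, hk⟩ := hσb.2 k'
    refine ⟨k, ?_⟩
    change ((Additive.toMul (toA x' (σ k)) : A) : G) = a
    rw [hk, hk']; rfl
  have hUinj : Function.Injective U := by
    intro a b hab
    apply hσb.1
    apply hb.1
    apply Additive.toMul.injective
    exact Subtype.ext hab
  have hUmul : ∀ (t : Kˣ) (k : K), (τ t : G) * U k * (τ t : G)⁻¹ = U (t * k) := by
    intro t k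
    change _ = ((Additive.toMul (toA x' (σ (t * k))) : A) : G)
    rw [hσm, ← hτ, toA_coe_mul, smul_def]
  have hchar : ∀ k : K, k + k = 0 := by
    intro k
    apply hUinj
    rw [hUadd, hU0, hA2 _ (hU k)]
  -- squares
  have hsqinj : Function.Injective (fun k : K => k * k) := by
    intro a b hab
    have hab' : a * a = b * b := hab
    have h2 : (a + b) * (a + b) = 0 := by
      have e1 := hchar (a * b)
      have e2 := hchar (b * b)
      linear_combination hab' + e1 + e2
    have h3 : a + b = 0 := mul_self_eq_zero.mp h2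
    have h4 := hchar b
    linear_combination h3 - h4
  have hsq : ∀ k : K, ∃ r : K, r * r = k := (Finite.injective_iff_surjective.mp hsqinj)
  have hTsurj : ∀ h : T, ∃ t : Kˣ, τ t * τ t = h := by
    intro h
    obtain ⟨k, hk⟩ := hσb.2 (h : WithZero T)
    obtain ⟨r, hr⟩ := hsq k
    have hk0 : k ≠ 0 := by
      rintro rfl
      rw [hσ0] at hk
      exact WithZero.coe_ne_zero hk.symm
    have hr0 : r ≠ 0 := by
      rintro rfl
      rw [mul_zero] at hr
      exact hk0 hr.symm
    refine ⟨Units.mk0 r hr0, ?_⟩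
    rw [← hτm]
    apply WithZero.coe_injective
    rw [hτ, Units.val_mul, Units.val_mk0, hr, hk]
  have hTA1 : ∀ h ∈ T, h ∈ A → h = 1 := fun h hh ha => hinj h hh (hA _ ha _ hx)
  let D : RankOneSL2.SL2Data K G :=
    { u := U
      h := fun t => ((τ t * τ t : T) : G)
      w := w
      char2 := hchar
      u_add := hUadd
      h_mul := by
        intro a b
        rw [hτm, ← Subgroup.coe_mul]
        congr 1
        rw [mul_mul_mul_comm]
      hu := by
        intro a k
        rw [← mul_inv_eq_iff_eq_mul, mul_assoc (a : K), ← hUmul, ← hUmul, Subgroup.coe_mul]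
        group
      ww := hw
      wh := by
        intro a
        have h1 := hwT _ (τ a * τ a).2
        have h2 : (((τ a⁻¹ * τ a⁻¹ : T)) : G) = ((τ a * τ a : T) : G)⁻¹ := by
          rw [← Subgroup.coe_inv]
          congr 1
          rw [← hτm, ← hτm, eq_inv_iff_mul_eq_one, ← hτm]
          rw [show a⁻¹ * a⁻¹ * (a * a) = 1 by group, hτ1]
        rw [h2, ← h1]
        calc w * ((τ a * τ a : T) : G) = w * ((τ a * τ a : T) : G) * (w * w) := by
              rw [hw, mul_one]
          _ = _ := by group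
      rel := by rw [hU1]; exact hrel }
  refine ⟨D.hom hsq, D.hom_injective hsq ?_ ?_, ?_, ?_, ?_, ?_, ?_⟩
  · intro k t h
    have h' : U k * ((τ t * τ t : T) : G) = 1 := h
    have h1 : ((τ t * τ t : T) : G) ∈ A := by
      have : ((τ t * τ t : T) : G) = (U k)⁻¹ := eq_inv_of_mul_eq_one_right h'
      rw [this]; exact A.inv_mem (hU k)
    have h2 := hTA1 _ (τ t * τ t).2 h1
    rw [h2, mul_one] at h'
    constructor
    · apply hUinj; rw [h', hU0]
    · have h3 : τ (t * t) = 1 := by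
        rw [hτm]; exact Subtype.ext h2
      have h4 : (t : K) * t = 1 * 1 := by
        apply hσb.1
        rw [← Units.val_mul, ← hτ, h3, mul_one, hσ1, WithZero.coe_one]
      exact Units.ext (hsqinj h4)
  · intro k t h
    have h' : w = U k * ((τ t * τ t : T) : G) := h
    obtain ⟨s, hs, hss⟩ := hne
    apply hss
    set r : G := ((τ t * τ t : T) : G) with hr
    have hrT : r ∈ T := (τ t * τ t).2
    have h1 : w * s * w = s⁻¹ := hwT s hs
    have hwi : w⁻¹ = w := inv_eq_of_mul_eq_one_left hw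
    have h2 : w * s * w⁻¹ = U k * s * (U k)⁻¹ := by
      rw [h']
      have : r * s * r⁻¹ = s := by rw [hT r hrT s hs]; group
      calc U k * r * s * (U k * r)⁻¹ = U k * (r * s * r⁻¹) * (U k)⁻¹ := by group
        _ = _ := by rw [this]
    rw [hwi, h1] at h2
    -- s⁻¹ = u s u⁻¹, so s⁻¹ * s⁻¹ = u * (s * u⁻¹ * s⁻¹) ∈ A
    have h3 : s⁻¹ * s⁻¹ ∈ A := by
      have : s⁻¹ * s⁻¹ = U k * (s * (U k)⁻¹ * s⁻¹) := by rw [← mul_assoc, ← mul_assoc, ← h2]
      rw [this]
      exact A.mul_mem (hU k) (hTA s hs _ (A.inv_mem (hU k)))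
    have h4 := hTA1 _ (T.mul_mem (T.inv_mem hs) (T.inv_mem hs)) h3
    have h5 : (s * s)⁻¹ = 1 := by rw [_root_.mul_inv_rev, h4]
    exact inv_eq_one.mp h5
  · rw [D.hom_range hsq]
    congr 2
    congr 1
    · ext a
      constructor
      · rintro ⟨k, rfl⟩; exact hU k
      · intro ha; exact hUsurj a ha
    · ext a
      constructor
      · rintro ⟨t, rfl⟩; exact (τ t * τ t).2
      · intro ha
        obtain ⟨t, ht⟩ := hTsurj ⟨a, ha⟩
        exact ⟨t, congrArg Subtype.val ht⟩
  · intro t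
    rw [D.hom_apply, D.map_hM]
    exact (τ t * τ t).2
  · intro h hh
    obtain ⟨t, ht⟩ := hTsurj ⟨h, hh⟩
    refine ⟨t, ?_⟩
    rw [D.hom_apply, D.map_hM]
    exact congrArg Subtype.val ht
  · intro k
    rw [D.hom_apply, D.map_uM]
    exact hU k
  · intro a ha
    obtain ⟨k, hk⟩ := hUsurj a ha
    refine ⟨k, ?_⟩
    rw [D.hom_apply, D.map_uM]
    exact hk

end Main

end Cfsg.Agent.J3Type.RankOneField
end

-- part: J3Type/L216
section
set_option autoImplicit false

/-!
# `L₂(16):2` from a regular torus of order 15 and one relation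
-/

namespace Cfsg.Agent.J3Type.L216

open Cfsg.Agent.J3Type

section Basic

variable {G : Type*} [Group G]

/-- If `w` centralises the element `y` of the torus, contradiction. -/
theorem no_centralize (A T : Subgroup G) (w x y g : G)
    (hA : ∀ a ∈ A, ∀ b ∈ A, a * b = b * a) (hA2 : ∀ a ∈ A, a * a = 1)
    (hTA : ∀ h ∈ T, ∀ a ∈ A, h * a * h⁻¹ ∈ A)
    (hx : x ∈ A) (hreg : ∀ a ∈ A, a ≠ 1 → ∃ h ∈ T, h * x * h⁻¹ = a)
    (hw : w * w = 1) (hwT : ∀ h ∈ T, w * h * w ∈ T) (hyT : y ∈ T)
    (hrel : w * x * w = x * w * x) (hwy : w * y = y * w) (hyx : y * x ≠ x * y)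
    (hgT : g ∈ T) (hg3 : g ^ 3 = 1) (hg1 : g ≠ 1) (hwg : w * g * w = g⁻¹) : False := by
  have hxx : x * x = 1 := hA2 x hx
  have hxi : x⁻¹ = x := inv_eq_of_mul_eq_one_left hxx
  have hwi : w⁻¹ = w := inv_eq_of_mul_eq_one_left hw
  -- `w ∉ A`
  have hwA : w ∉ A := by
    intro hwA
    have h1 : w * (g * w⁻¹ * g⁻¹) ∈ A := A.mul_mem hwA (hTA g hgT _ (A.inv_mem hwA))
    have h2 : w * (g * w⁻¹ * g⁻¹) = g := by
      rw [hwi]
      calc w * (g * w * g⁻¹) = (w * g * w) * g⁻¹ := by group
        _ = g⁻¹ * g⁻¹ := by rw [hwg]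
        _ = g⁻¹ * g⁻¹ * g ^ 3 := by rw [hg3, mul_one]
        _ = g := by group
    rw [h2] at h1
    have h3 := hA2 g h1
    apply hg1
    calc g = g ^ 3 * (g * g)⁻¹ := by group
      _ = 1 := by rw [hg3, h3]; simp
  -- `w a w ∉ A` for `a ∈ A#`
  have hkey : ∀ a ∈ A, a ≠ 1 → w * a * w ∉ A := by
    intro a ha ha1 hwa
    obtain ⟨h, hh, rfl⟩ := hreg a ha ha1
    have hτ := hwT h hh
    have e : w * (h * x * h⁻¹) * w = (w * h * w) * (x * w * x) * (w * h * w)⁻¹ := by
      rw [← hrel]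
      have : (w * h * w)⁻¹ = w * h⁻¹ * w := by
        rw [mul_inv_rev, mul_inv_rev, hwi]; group
      rw [this]
      calc w * (h * x * h⁻¹) * w = w * h * 1 * x * 1 * h⁻¹ * w := by group
        _ = w * h * (w * w) * x * (w * w) * h⁻¹ * w := by rw [hw]
        _ = _ := by group
    rw [e] at hwa
    have h2 := hTA _ (T.inv_mem hτ) _ hwa
    have h3 : x * w * x ∈ A := by
      convert h2 using 1
      group
    apply hwA
    have h4 := A.mul_mem (A.mul_mem hx h3) hx
    convert h4 using 1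
    calc w = 1 * w * 1 := by group
      _ = (x * x) * w * (x * x) := by rw [hxx]
      _ = _ := by group
  -- `w = (x w) x (x w)⁻¹`
  have hwe : (x * w) * x * (w * x) = w := by
    calc (x * w) * x * (w * x) = x * (w * x * w) * x := by group
      _ = x * (x * w * x) * x := by rw [hrel]
      _ = (x * x) * w * (x * x) := by group
      _ = w := by rw [hxx]; group
  -- z commutes with x
  set z := (w * x) * y * (x * w) with hz
  have hzx : z * x = x * z := by
    have e1 : y * ((x * w) * x * (w * x)) = ((x * w) * x * (w * x)) * y := by rw [hwe, hwy]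
    calc z * x = (w * x) * (y * ((x * w) * x * (w * x))) * (x * w) := by
          rw [hz]
          calc (w * x) * y * (x * w) * x = (w * x) * y * (x * w) * x * 1 := by group
            _ = (w * x) * y * (x * w) * x * (w * (x * x) * w) := by rw [hxx, mul_one w, hw]
            _ = _ := by group
      _ = (w * x) * (((x * w) * x * (w * x)) * y) * (x * w) := by rw [e1]
      _ = w * (x * x) * w * x * ((w * x) * y * (x * w)) := by group
      _ = x * z := by rw [hxx, mul_one, hw, one_mul, hz]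
  -- u
  set u := y⁻¹ * x * y * x with hu
  have huA : u ∈ A := by
    have := hTA _ (T.inv_mem hyT) x hx
    rw [inv_inv] at this
    exact A.mul_mem this hx
  have hu1 : u ≠ 1 := by
    intro h
    apply hyx
    have h2 : y⁻¹ * x * y = x⁻¹ := by
      rw [hu] at h
      exact eq_inv_of_mul_eq_one_left h
    rw [hxi] at h2
    calc y * x = y * (y⁻¹ * x * y) := by rw [h2]
      _ = x * y := by group
  have hzu : z = y * (w * u * w) := by
    rw [hz, hu]
    calc w * x * y * (x * w) = w * (y * y⁻¹) * x * y * x * w := by group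
      _ = (w * y) * (y⁻¹ * x * y * x) * w := by group
      _ = (y * w) * (y⁻¹ * x * y * x) * w := by rw [hwy]
      _ = _ := by group
  obtain ⟨h, hh, hhu⟩ := hreg u huA hu1
  set τ := w * h * w with hτ
  have hτT : τ ∈ T := hwT h hh
  have hτi : τ⁻¹ = w * h⁻¹ * w := by
    rw [hτ, mul_inv_rev, mul_inv_rev, hwi]; group
  have hwuw : w * u * w = τ * (x * w * x) * τ⁻¹ := by
    rw [← hhu, ← hrel, hτi, hτ]
    calc w * (h * x * h⁻¹) * w = w * h * 1 * x * 1 * h⁻¹ * w := by group
      _ = w * h * (w * w) * x * (w * w) * h⁻¹ * w := by rw [hw]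
      _ = _ := by group
  -- a1
  have ha1 : τ⁻¹ * x * τ ∈ A := by
    have := hTA _ (T.inv_mem hτT) x hx
    rwa [inv_inv] at this
  have ha1ne : τ⁻¹ * x * τ ≠ 1 := by
    intro h0
    have hx1 : x = 1 := by
      calc x = τ * (τ⁻¹ * x * τ) * τ⁻¹ := by group
        _ = 1 := by rw [h0]; group
    apply hyx
    rw [hx1]; group
  apply hkey _ ha1 ha1ne
  -- w (τ⁻¹ x τ) w = (y τ x)⁻¹ x (y τ x)
  have hyτ : y * τ ∈ T := T.mul_mem hyT hτT
  have h5 : (y * τ)⁻¹ * x * (y * τ) ∈ A := by
    have := hTA _ (T.inv_mem hyτ) x hx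
    rwa [inv_inv] at this
  have h6 : x * ((y * τ)⁻¹ * x * (y * τ)) * x ∈ A := A.mul_mem (A.mul_mem hx h5) hx
  convert h6 using 1
  have hzz : z = (y * τ) * x * w * x * τ⁻¹ := by
    rw [hzu, hwuw]; group
  rw [hzz] at hzx
  -- hzx : yτ x w x τ⁻¹ x = x yτ x w x τ⁻¹
  have hcomm : x * (τ⁻¹ * x * τ) = (τ⁻¹ * x * τ) * x := hA _ hx _ ha1
  have e3 : x * τ⁻¹ * x * τ * x = τ⁻¹ * x * τ := by
    calc x * τ⁻¹ * x * τ * x = (x * (τ⁻¹ * x * τ)) * x := by group
      _ = (τ⁻¹ * x * τ) * (x * x) := by rw [hcomm]; group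
      _ = _ := by rw [hxx, mul_one]
  calc w * (τ⁻¹ * x * τ) * w = w * (x * τ⁻¹ * x * τ * x) * w := by rw [e3]
    _ = 1 * w * (x * τ⁻¹ * x * τ * x) * w := by group
    _ = (x * x) * w * (x * τ⁻¹ * x * τ * x) * w := by rw [hxx]
    _ = x * (y * τ)⁻¹ * ((y * τ) * x * w * x * τ⁻¹ * x) * τ * x * w := by group
    _ = x * (y * τ)⁻¹ * (x * ((y * τ) * x * w * x * τ⁻¹)) * τ * x * w := by rw [hzx]
    _ = x * (y * τ)⁻¹ * x * (y * τ) * x * w * (x * x) * w := by group
    _ = x * (y * τ)⁻¹ * x * (y * τ) * x * (w * w) := by rw [hxx]; group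
    _ = x * ((y * τ)⁻¹ * x * (y * τ)) * x := by rw [hw]; group

end Basic

section Main

theorem mod5_aux (k : ℕ) (hkk : k * k % 5 = 1) : k % 5 = 1 ∨ k % 5 = 4 := by
  have h5 : k % 5 < 5 := Nat.mod_lt _ (by norm_num)
  rw [Nat.mul_mod] at hkk
  generalize k % 5 = m at *
  interval_cases m <;> simp_all

/-- The final step: `L₂(16):2`. -/
theorem exists_L216 {G : Type*} [Group G] [Finite G] (A : Subgroup G) (g y φ w x : G)
    (hcard : Nat.card A = 16)
    (hA : ∀ a ∈ A, ∀ b ∈ A, a * b = b * a) (hA2 : ∀ a ∈ A, a * a = 1)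
    (hg : orderOf g = 3) (hy : orderOf y = 5) (hφ : orderOf φ = 2)
    (hgy : g * y = y * g) (hgφ : g * φ = φ * g) (hφy : φ * y * φ⁻¹ = y⁻¹)
    (hN : ∀ a ∈ A, g * a * g⁻¹ ∈ A ∧ y * a * y⁻¹ ∈ A ∧ φ * a * φ⁻¹ ∈ A)
    (htrans : ∀ a ∈ A, ∀ b ∈ A, a ≠ 1 → b ≠ 1 →
      ∃ i < 3, ∃ j < 5, (g ^ i * y ^ j) * a * (g ^ i * y ^ j)⁻¹ = b)
    (hw : w * w = 1) (hwφ : w * φ = φ * w) (hwg : w * g * w⁻¹ = g⁻¹)
    (hwy : ∃ k : ℕ, w * y * w⁻¹ = y ^ k)
    (hx : x ∈ A) (hx1 : x ≠ 1) (hwx : (w * x) ^ 3 = 1) :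
    ∃ (H : Subgroup G) (N : Subgroup H) (K : Type) (_ : Field K) (_ : Fintype K),
      N.Normal ∧ N.index = 2 ∧ Fintype.card K = 16 ∧
      Nonempty (N ≃* Matrix.SpecialLinearGroup (Fin 2) K) := by
  classical
  have hg3 : g ^ 3 = 1 := by rw [← hg]; exact pow_orderOf_eq_one g
  have hy5 : y ^ 5 = 1 := by rw [← hy]; exact pow_orderOf_eq_one y
  have hwi : w⁻¹ = w := inv_eq_of_mul_eq_one_left hw
  have hxx : x * x = 1 := hA2 x hx
  have hxi : x⁻¹ = x := inv_eq_of_mul_eq_one_left hxx
  have hcomm : Commute g y := hgy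
  set T : Subgroup G := Subgroup.zpowers (g * y) with hTdef
  have ho : orderOf (g * y) = 15 := by
    rw [hcomm.orderOf_mul_eq_mul_orderOf_of_coprime (by rw [hg, hy]; norm_num), hg, hy]
  have hTcard : Nat.card T = 15 := by rw [hTdef, Nat.card_zpowers, ho]
  have hgT : g ∈ T := by
    have : (g * y) ^ 10 = g := by
      rw [hcomm.mul_pow]
      calc g ^ 10 * y ^ 10 = (g ^ 3) ^ 3 * g * (y ^ 5) ^ 2 := by group
        _ = g := by rw [hg3, hy5]; group
    rw [← this]
    exact Subgroup.npow_mem_zpowers _ _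
  have hyT : y ∈ T := by
    have : (g * y) ^ 6 = y := by
      rw [hcomm.mul_pow]
      calc g ^ 6 * y ^ 6 = (g ^ 3) ^ 2 * ((y ^ 5) * y) := by group
        _ = y := by rw [hg3, hy5]; group
    rw [← this]
    exact Subgroup.npow_mem_zpowers _ _
  have hT : ∀ a ∈ T, ∀ b ∈ T, a * b = b * a := by
    rintro _ ⟨i, rfl⟩ _ ⟨j, rfl⟩
    change (g * y) ^ i * (g * y) ^ j = (g * y) ^ j * (g * y) ^ i
    rw [← zpow_add, ← zpow_add, add_comm]
  have hgN : g ∈ Subgroup.normalizer (A : Set G) :=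
    Subgroup.mem_normalizer_fintype fun a ha => (hN a ha).1
  have hyN : y ∈ Subgroup.normalizer (A : Set G) :=
    Subgroup.mem_normalizer_fintype fun a ha => (hN a ha).2.1
  have hφN : φ ∈ Subgroup.normalizer (A : Set G) :=
    Subgroup.mem_normalizer_fintype fun a ha => (hN a ha).2.2
  have hTN : T ≤ Subgroup.normalizer (A : Set G) := by
    rw [hTdef, Subgroup.zpowers_le]
    exact Subgroup.mul_mem _ hgN hyN
  have hTA : ∀ h ∈ T, ∀ a ∈ A, h * a * h⁻¹ ∈ A := by
    intro h hh a ha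
    exact ((Subgroup.mem_normalizer_iff).mp (hTN hh) a).mp ha
  have hreg : ∀ a ∈ A, a ≠ 1 → ∃ h ∈ T, h * x * h⁻¹ = a := by
    intro a ha ha1
    obtain ⟨i, _, j, _, e⟩ := htrans x hx a ha hx1 ha1
    exact ⟨g ^ i * y ^ j, T.mul_mem (T.pow_mem hgT _) (T.pow_mem hyT _), e⟩
  -- injectivity by counting
  have hinj : ∀ h ∈ T, h * x = x * h → h = 1 := by
    let X := {a : A // a ≠ 1}
    let f : T → X := fun h => ⟨⟨h * x * (h : G)⁻¹, hTA h h.2 x hx⟩, by
      intro h0
      apply hx1
      have h1 : (h : G) * x * (h : G)⁻¹ = 1 := congrArg Subtype.val h0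
      calc x = (h : G)⁻¹ * ((h : G) * x * (h : G)⁻¹) * h := by group
        _ = 1 := by rw [h1]; group⟩
    have hfs : Function.Surjective f := by
      rintro ⟨⟨a, ha⟩, ha1⟩
      have ha1' : a ≠ 1 := fun h => ha1 (Subtype.ext h)
      obtain ⟨h, hh, e⟩ := hreg a ha ha1'
      refine ⟨⟨h, hh⟩, ?_⟩
      apply Subtype.ext
      apply Subtype.ext
      exact e
    have hXc : Nat.card X = 15 := by
      haveI : Fintype A := Fintype.ofFinite A
      have h1 : Fintype.card {a : A // a ≠ 1} = Fintype.card A - Fintype.card {a : A // a = 1} :=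
        Fintype.card_subtype_compl _
      rw [Fintype.card_subtype_eq] at h1
      rw [Nat.card_eq_fintype_card, h1, ← Nat.card_eq_fintype_card, hcard]
    have hfi : Function.Injective f := by
      have hbij : Function.Bijective f := by
        rw [Nat.bijective_iff_surjective_and_card]
        exact ⟨hfs, by rw [hTcard, hXc]⟩
      exact hbij.1
    intro h hh hc
    have h1 : f ⟨h, hh⟩ = f 1 := by
      apply Subtype.ext
      apply Subtype.ext
      change h * x * h⁻¹ = ((1 : T) : G) * x * ((1 : T) : G)⁻¹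
      rw [hc]
      simp
    exact congrArg Subtype.val (hfi h1)
  -- w acts on T
  obtain ⟨k, hk⟩ := hwy
  have hwgy : w * (g * y) * w⁻¹ = g⁻¹ * y ^ k := by
    calc w * (g * y) * w⁻¹ = (w * g * w⁻¹) * (w * y * w⁻¹) := by group
      _ = _ := by rw [hwg, hk]
  have hwT : ∀ h ∈ T, w * h * w ∈ T := by
    rintro _ ⟨n, rfl⟩
    change w * (g * y) ^ n * w ∈ T
    have : w * (g * y) ^ n * w = (w * (g * y) * w⁻¹) ^ n := by
      rw [conj_zpow, hwi]
    rw [this, hwgy]
    exact T.zpow_mem (T.mul_mem (T.inv_mem hgT) (T.pow_mem hyT _)) _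
  have hrel : w * x * w = x * w * x := by
    have h1 : (w * x * w) * (x * w * x) = 1 := by
      rw [← hwx, pow_succ, pow_two]; group
    have h2 : (x * w * x)⁻¹ = x * w * x := by
      rw [mul_inv_rev, mul_inv_rev, hxi, hwi]; group
    rw [← h2]
    exact eq_inv_of_mul_eq_one_left h1
  have hyk : y ^ (k * k) = y := by
    have h1 : w * (w * y * w⁻¹) * w⁻¹ = y := by
      calc w * (w * y * w⁻¹) * w⁻¹ = (w * w) * y * (w * w)⁻¹ := by group
        _ = y := by rw [hw]; group
    rw [hk] at h1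
    have h2 : w * y ^ k * w⁻¹ = (w * y * w⁻¹) ^ k := by rw [conj_pow]
    rw [h2, hk, ← pow_mul] at h1
    exact h1
  have hkk : k * k % 5 = 1 := by
    have h1 : y ^ (k * k) = y ^ 1 := by rw [hyk, pow_one]
    rw [pow_inj_mod, hy] at h1
    simpa using h1
  have hk5 : y ^ k = y ^ (k % 5) := by
    rw [← hy]; exact (pow_mod_orderOf y k).symm
  have hk14 : k % 5 = 1 ∨ k % 5 = 4 := mod5_aux k hkk
  have hg1 : g ≠ 1 := by
    intro h; rw [h, orderOf_one] at hg; norm_num at hg
  have hy1 : y ≠ 1 := by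
    intro h; rw [h, orderOf_one] at hy; norm_num at hy
  rcases hk14 with hk1 | hk4
  · -- y centralised
    exfalso
    rw [hk5, hk1, pow_one] at hk
    have hwy' : w * y = y * w := by
      rw [mul_inv_eq_iff_eq_mul] at hk; exact hk
    have hwg' : w * g * w = g⁻¹ := by rw [← hwg, hwi]
    exact no_centralize A T w x y g hA hA2 hTA hx hreg hw hwT hyT hrel hwy'
      (fun h => hy1 (hinj y hyT h)) hgT hg3 hg1 hwg'
  · -- w inverts T
    have hky : w * y * w⁻¹ = y⁻¹ := by
      rw [hk, hk5, hk4]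
      apply eq_inv_of_mul_eq_one_left
      rw [← pow_succ, hy5]
    have hwT' : ∀ h ∈ T, w * h * w = h⁻¹ := by
      rintro _ ⟨n, rfl⟩
      change w * (g * y) ^ n * w = ((g * y) ^ n)⁻¹
      have h1 : w * (g * y) ^ n * w = (w * (g * y) * w⁻¹) ^ n := by
        rw [conj_zpow, hwi]
      have h2 : w * (g * y) * w⁻¹ = (g * y)⁻¹ := by
        calc w * (g * y) * w⁻¹ = (w * g * w⁻¹) * (w * y * w⁻¹) := by group
          _ = g⁻¹ * y⁻¹ := by rw [hwg, hky]
          _ = (y * g)⁻¹ := by rw [mul_inv_rev]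
          _ = _ := by rw [hgy]
      rw [h1, h2, inv_zpow]
    have hne : ∃ h ∈ T, h * h ≠ 1 := by
      refine ⟨g, hgT, ?_⟩
      intro h
      apply hg1
      calc g = g ^ 3 * (g * g)⁻¹ := by group
        _ = 1 := by rw [hg3, h]; group
    let K := GaloisField 2 4
    haveI : Fintype K := Fintype.ofFinite K
    have hK : Fintype.card K = 16 := by
      rw [← Nat.card_eq_fintype_card]
      have := GaloisField.card 2 4 (by norm_num)
      rw [this]; norm_num
    obtain ⟨f, hfi, hfr, hfT, hfT', hfA, hfA'⟩ := RankOneField.exists_SL2 A T w x hA hA2 hT hTA hx hx1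
      hreg hinj hw hwT' hne hrel K (by rw [hK, hTcard])
    set L := f.range with hL
    have hAL : A ≤ L := by
      rw [hfr]; exact fun a ha => Subgroup.subset_closure (Or.inl (Or.inl ha))
    have hTL : T ≤ L := by
      rw [hfr]; exact fun a ha => Subgroup.subset_closure (Or.inl (Or.inr ha))
    have hwL : w ∈ L := by
      rw [hfr]; exact Subgroup.subset_closure (Or.inr rfl)
    -- φ normalises L
    have hφL : ∀ l ∈ L, φ * l * φ⁻¹ ∈ L := by
      intro l hl
      have hl' : l ∈ Subgroup.closure ((A : Set G) ∪ T ∪ {w}) := by rw [← hfr]; exact hl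
      induction hl' using Subgroup.closure_induction with
      | mem a ha =>
        rcases ha with (ha | ha) | ha
        · exact hAL (hN a ha).2.2
        · obtain ⟨n, rfl⟩ := ha
          change φ * (g * y) ^ n * φ⁻¹ ∈ L
          rw [← conj_zpow]
          have h2 : φ * (g * y) * φ⁻¹ = g * y⁻¹ := by
            calc φ * (g * y) * φ⁻¹ = (φ * g) * y * φ⁻¹ := by group
              _ = (g * φ) * y * φ⁻¹ := by rw [hgφ]
              _ = g * (φ * y * φ⁻¹) := by group
              _ = _ := by rw [hφy]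
          rw [h2]
          exact L.zpow_mem (L.mul_mem (hTL hgT) (L.inv_mem (hTL hyT))) _
        · have ha' : a = w := ha
          rw [ha', ← hwφ]
          have : w * φ * φ⁻¹ = w := by group
          rw [this]; exact hwL
      | one => simp
      | mul a b ha hb iha ihb =>
        have ha' : a ∈ L := by rw [hfr]; exact ha
        have hb' : b ∈ L := by rw [hfr]; exact hb
        have : φ * (a * b) * φ⁻¹ = (φ * a * φ⁻¹) * (φ * b * φ⁻¹) := by group
        rw [this]
        exact L.mul_mem (iha ha') (ihb hb')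
      | inv a ha iha =>
        have ha' : a ∈ L := by rw [hfr]; exact ha
        have : φ * a⁻¹ * φ⁻¹ = (φ * a * φ⁻¹)⁻¹ := by group
        rw [this]
        exact L.inv_mem (iha ha')
    have hφφ : φ * φ = 1 := by
      have := pow_orderOf_eq_one φ
      rwa [hφ, pow_two] at this
    have hφ1 : φ ≠ 1 := by
      intro h; rw [h, orderOf_one] at hφ; norm_num at hφ
    -- φ ∉ L
    have hφnL : φ ∉ L := by
      rintro ⟨M, hM⟩
      obtain ⟨t, ht⟩ := hfT' g hgT
      have hc : M * RankOneSL2.SL2Data.hM t = RankOneSL2.SL2Data.hM t * M := by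
        apply hfi
        rw [map_mul, map_mul, ht, hM, hgφ]
      have ht2 : (t : K) * t ≠ 1 := by
        intro h
        have ht1 : t * t = 1 := Units.ext h
        have h1 : RankOneSL2.SL2Data.hM t * RankOneSL2.SL2Data.hM t = 1 := by
          apply Subtype.ext
          change !![(t : K), 0; 0, ((t⁻¹ : Kˣ) : K)] * !![(t : K), 0; 0, ((t⁻¹ : Kˣ) : K)]
            = (1 : Matrix (Fin 2) (Fin 2) K)
          rw [Matrix.mul_fin_two, Matrix.one_fin_two]
          have h3 : ((t⁻¹ : Kˣ) : K) * ((t⁻¹ : Kˣ) : K) = 1 := by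
            rw [← Units.val_mul, ← mul_inv, ht1]; simp
          simp only [mul_zero, zero_mul, add_zero, zero_add, h, h3]
        have h2 : g * g = 1 := by rw [← ht, ← map_mul, h1, map_one]
        apply hg1
        calc g = g ^ 3 * (g * g)⁻¹ := by group
          _ = 1 := by rw [hg3, h2]; group
      have h01 : M.1 0 1 = 0 := by
        have h : (M * RankOneSL2.SL2Data.hM t).1 0 1 = (RankOneSL2.SL2Data.hM t * M).1 0 1 := by
          rw [hc]
        rw [RankOneSL2.SL2Data.mul_entry, RankOneSL2.SL2Data.mul_entry] at h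
        have h' : M.1 0 0 * 0 + M.1 0 1 * ((t⁻¹ : Kˣ) : K) = (t : K) * M.1 0 1 + 0 * M.1 1 1 := h
        rw [mul_zero, zero_add, zero_mul, add_zero, Units.val_inv_eq_inv_val] at h'
        have ht0 : (t : K) ≠ 0 := t.ne_zero
        have h'' : M.1 0 1 * ((t : K) * t - 1) = 0 := by
          have h3 : M.1 0 1 * (t : K)⁻¹ * t = (t : K) * M.1 0 1 * t := by rw [h']
          rw [inv_mul_cancel_right₀ ht0] at h3
          linear_combination -h3
        rcases mul_eq_zero.mp h'' with h3 | h3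
        · exact h3
        · exact absurd (sub_eq_zero.mp h3) ht2
      have h10 : M.1 1 0 = 0 := by
        have h : (M * RankOneSL2.SL2Data.hM t).1 1 0 = (RankOneSL2.SL2Data.hM t * M).1 1 0 := by
          rw [hc]
        rw [RankOneSL2.SL2Data.mul_entry, RankOneSL2.SL2Data.mul_entry] at h
        have h' : M.1 1 0 * (t : K) + M.1 1 1 * 0 = 0 * M.1 0 0 + ((t⁻¹ : Kˣ) : K) * M.1 1 0 := h
        rw [mul_zero, zero_mul, zero_add, add_zero, Units.val_inv_eq_inv_val] at h'
        have ht0 : (t : K) ≠ 0 := t.ne_zero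
        have h'' : M.1 1 0 * ((t : K) * t - 1) = 0 := by
          have h3 : M.1 1 0 * (t : K) * t = (t : K)⁻¹ * M.1 1 0 * t := by rw [h']
          have h4 : (t : K)⁻¹ * M.1 1 0 * t = M.1 1 0 := by
            rw [mul_comm (t : K)⁻¹, inv_mul_cancel_right₀ ht0]
          rw [h4] at h3
          linear_combination h3
        rcases mul_eq_zero.mp h'' with h3 | h3
        · exact h3
        · exact absurd (sub_eq_zero.mp h3) ht2
      have hdet := RankOneSL2.SL2Data.det_eq M
      rw [h01, zero_mul, sub_zero] at hdet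
      have h00 : M.1 0 0 ≠ 0 := by intro h; rw [h, zero_mul] at hdet; exact zero_ne_one hdet
      have hMeq : M = RankOneSL2.SL2Data.hM (Units.mk0 _ h00) := by
        apply Subtype.ext
        change M.1 = !![((Units.mk0 (M.1 0 0) h00 : Kˣ) : K), 0; 0,
          (((Units.mk0 (M.1 0 0) h00)⁻¹ : Kˣ) : K)]
        conv_lhs => rw [Matrix.eta_fin_two M.1]
        have hd : M.1 1 1 = (M.1 0 0)⁻¹ := eq_inv_of_mul_eq_one_right hdet
        rw [h01, h10, hd]
        simp
      have hφT : φ ∈ T := by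
        rw [← hM, hMeq]; exact hfT _
      have h15 : φ ^ 15 = 1 := by
        have := pow_card_eq_one' (x := (⟨φ, hφT⟩ : T))
        rw [hTcard] at this
        exact congrArg Subtype.val this
      apply hφ1
      calc φ = (φ * φ) ^ 7 * φ := by rw [hφφ]; simp
        _ = φ ^ 15 := by rw [← pow_two, ← pow_mul, ← pow_succ]
        _ = 1 := h15
    -- the subgroup H
    set H : Subgroup G := L ⊔ Subgroup.zpowers φ with hH
    have hLH : L ≤ H := le_sup_left
    have hφH : φ ∈ H := (le_sup_right : Subgroup.zpowers φ ≤ H) (Subgroup.mem_zpowers φ)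
    have hφLn : φ ∈ Subgroup.normalizer (L : Set G) :=
      Subgroup.mem_normalizer_fintype fun a ha => hφL a ha
    have hHn : H ≤ Subgroup.normalizer (L : Set G) := by
      rw [hH, sup_le_iff]
      refine ⟨Subgroup.le_normalizer, ?_⟩
      rw [Subgroup.zpowers_le]
      exact hφLn
    have hHmem : ∀ b ∈ H, b ∈ L ∨ b * φ ∈ L := by
      intro b hb
      have hb' : b ∈ Subgroup.closure ((L : Set G) ∪ {φ}) := by
        have : H ≤ Subgroup.closure ((L : Set G) ∪ {φ}) := by
          rw [hH, sup_le_iff]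
          refine ⟨fun a ha => Subgroup.subset_closure (Or.inl ha), ?_⟩
          rw [Subgroup.zpowers_le]
          exact Subgroup.subset_closure (Or.inr rfl)
        exact this hb
      have hφi : φ⁻¹ = φ := inv_eq_of_mul_eq_one_left hφφ
      have hφL' : ∀ l ∈ L, φ * l * φ ∈ L := by
        intro l hl
        have := hφL l hl
        rwa [hφi] at this
      clear hb
      induction hb' using Subgroup.closure_induction with
      | mem a ha =>
        rcases ha with ha | ha
        · exact Or.inl ha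
        · have ha' : a = φ := ha
          right; rw [ha', hφφ]; exact L.one_mem
      | one => exact Or.inl L.one_mem
      | mul a b _ _ iha ihb =>
        rcases iha with ha | ha <;> rcases ihb with hb | hb
        · exact Or.inl (L.mul_mem ha hb)
        · right; rw [mul_assoc]; exact L.mul_mem ha hb
        · right
          have : a * b * φ = (a * φ) * (φ * b * φ) := by
            calc a * b * φ = a * 1 * b * φ := by group
              _ = a * (φ * φ) * b * φ := by rw [hφφ]
              _ = _ := by group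
          rw [this]; exact L.mul_mem ha (hφL' b hb)
        · left
          have : a * b = (a * φ) * (φ * (b * φ) * φ) := by
            calc a * b = a * 1 * b * 1 := by group
              _ = a * (φ * φ) * b * (φ * φ) := by rw [hφφ]
              _ = _ := by group
          rw [this]; exact L.mul_mem ha (hφL' _ hb)
      | inv a _ iha =>
        rcases iha with ha | ha
        · exact Or.inl (L.inv_mem ha)
        · right
          have : a⁻¹ * φ = φ * (a * φ)⁻¹ * φ := by
            rw [mul_inv_rev, hφi]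
            calc a⁻¹ * φ = 1 * a⁻¹ * φ := by group
              _ = (φ * φ) * a⁻¹ * φ := by rw [hφφ]
              _ = _ := by group
          rw [this]; exact hφL' _ (L.inv_mem ha)
    refine ⟨H, L.subgroupOf H, K, inferInstance, inferInstance, ?_, ?_, hK, ?_⟩
    · exact (Subgroup.normal_subgroupOf_iff_le_normalizer hLH).mpr hHn
    · change L.relIndex H = 2
      rw [Subgroup.relIndex_eq_two_iff_exists_notMem_and]
      refine ⟨φ, hφH, hφnL, ?_⟩
      intro b hb
      exact (hHmem b hb).symm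
    · exact ⟨(Subgroup.subgroupOfEquivOfLe hLH).trans (MonoidHom.ofInjective hfi).symm⟩

end Main

end Cfsg.Agent.J3Type.L216
end

-- part: J3Type/Assembly
section
set_option autoImplicit false

/-!
# `L₂(16):2` in groups with one class of involutions
-/

namespace Cfsg.Agent.J3Type.Assembly

open Cfsg.Agent.J2Type.Model Cfsg.Agent.J2Type.SPFacts Cfsg.Agent.J2Type.CStruct
open Cfsg.Agent.J3Type.OneClass Cfsg.Agent.J3Type.NormA Cfsg.Agent.J3Type.FarPairs

variable {G : Type*} [Group G] [Finite G]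

theorem comm_of_sq {A : Subgroup G} (h : ∀ a ∈ A, a * a = 1) : ∀ a ∈ A, ∀ b ∈ A, a * b = b * a := by
  intro a ha b hb
  have h1 := h _ (A.mul_mem ha hb)
  have h2 := h a ha
  have h3 := h b hb
  calc a * b = (a * b) * 1 := by group
    _ = (a * b) * ((a * a) * (b * b)) := by rw [h2, h3]; group
    _ = (a * (b * a)) * a * (b * b) := by group
    _ = (a * (b * a)) * 1 * (a * (b * b)) := by group
    _ = (a * (b * a)) * ((a * b) * (a * b)) * (a * (b * b)) := by rw [h1]
    _ = (a * b) * (a * a) * b * a * b * a * (b * b) := by group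
    _ = (a * b) * b * a * b * a * (b * b) := by rw [h2]; group
    _ = a * (b * b) * a * b * a * (b * b) := by group
    _ = b * a := by rw [h3]; simp only [mul_one]; rw [h2]; group

/-- Main assembly. -/
theorem main (hone : ∀ s r : G, orderOf s = 2 → orderOf r = 2 → IsConj s r) (hS : AllSplit G)
    (t : G) (ht : orderOf t = 2) :
    ∃ (H : Subgroup G) (N : Subgroup H) (K : Type) (_ : Field K) (_ : Fintype K),
      N.Normal ∧ N.index = 2 ∧ Fintype.card K = 16 ∧
      Nonempty (N ≃* Matrix.SpecialLinearGroup (Fin 2) K) := by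
  -- a far pair
  obtain ⟨hc, Q, v, ρ, M, u, hu, huQ⟩ := hS t ht
  have hu1 : (u : G) ≠ 1 := by
    intro h
    apply huQ
    have : u = 1 := Subtype.ext h
    rw [this]; exact Q.one_mem
  have huo : orderOf (u : G) = 2 := orderOf_eq_two (congrArg Subtype.val hu) hu1
  have hut : (u : G) * t = t * u := Subgroup.mem_centralizer_singleton_iff.1 u.2
  have hfar : far t (u : G) := (far_iff ht huo hc M hut).2 huQ
  -- P2
  have hP2 := P2 hone (far_conj hS hone) (far_sq hS) (far_V hS) (far_near hS) t u hfar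
  set A : Subgroup G := Subgroup.centralizer ({t} : Set G) ⊓ Subgroup.centralizer ({(u : G)} : Set G)
    with hAdef
  obtain ⟨-, g, y, φ, hg, hy, hφ, hgy, hgφ, hφy, hN, hφA, hgfix, htrans, hV⟩ := hP2
  have hAcard : Nat.card A = 16 := hfar.2.2.2
  have hA2 : ∀ a ∈ A, a * a = 1 := by
    intro a ha
    exact far_sq hS t u a hfar (Subgroup.mem_centralizer_singleton_iff.1 ha.1)
      (Subgroup.mem_centralizer_singleton_iff.1 ha.2)
  have hAc : ∀ a ∈ A, ∀ b ∈ A, a * b = b * a := comm_of_sq hA2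
  have hφφ : φ * φ = 1 := sq_one_of_orderOf hφ
  have hφi : φ⁻¹ = φ := inv_eq_of_mul_eq_one_left hφφ
  have hφ1 : φ ≠ 1 := ne_one_of_orderOf hφ
  -- the centraliser of φ
  obtain ⟨hcφ, Qφ, vφ, ρφ, Mφ, uφ, huφ, huφQ⟩ := hS φ hφ
  -- the inverting element
  let gC : Subgroup.centralizer ({φ} : Set G) := toC hgφ
  have hgC : orderOf gC = 3 := by
    rw [← hg]; exact (Subgroup.orderOf_mk g _)
  obtain ⟨n, hn⟩ := CThree.exists_inverting Mφ hcφ hgC
  have hnφ : (n : G) * φ = φ * n := Subgroup.mem_centralizer_singleton_iff.1 n.2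
  have hng : (n : G) * g * (n : G)⁻¹ = g⁻¹ := congrArg Subtype.val hn
  have hD : ∀ s : G, orderOf s = 2 → s * g = g * s → ∃ D : Subgroup G,
      Nonempty (D ≃* DihedralGroup 4) ∧ (∀ d ∈ D, d * s = s * d ∧ d * g = g * d) ∧
      ∀ c : G, c * s = s * c → c * g = g * c → ∃ d ∈ D, ∃ k : ℕ, c = d * g ^ k := by
    intro s hs hsg
    obtain ⟨hcs, Qs, vs, ρs, Ms, -⟩ := hS s hs
    let gs : Subgroup.centralizer ({s} : Set G) := toC hsg.symm
    have hgs : orderOf gs = 3 := by
      rw [← hg]; exact (Subgroup.orderOf_mk g _)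
    obtain ⟨D, ⟨e⟩, hD1, hD2⟩ := CThree.exists_D Ms hcs hgs
    refine ⟨D.map (Subgroup.centralizer ({s} : Set G)).subtype, ⟨?_⟩, ?_, ?_⟩
    · exact ((Subgroup.equivMapOfInjective D _ (Subgroup.subtype_injective _)).symm).trans e
    · rintro _ ⟨d, hd, rfl⟩
      exact ⟨Subgroup.mem_centralizer_singleton_iff.1 d.2, congrArg Subtype.val (hD1 d hd)⟩
    · intro c hcs' hcg
      obtain ⟨d, hd, k, hk⟩ := hD2 (toC hcs') (Subtype.ext hcg)
      refine ⟨d, ⟨d, hd, rfl⟩, k, ?_⟩
      have := congrArg Subtype.val hk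
      exact this
  obtain ⟨-, w, hwφ, hwg, ⟨k, hwy⟩, hww⟩ := ExistsW.exists_w g y φ n hg hy hφ hgy hgφ hφy hnφ hng hD
  -- an element x of A# commuting with φ
  obtain ⟨x, hxA, hx1, hxφ⟩ : ∃ x ∈ A, x ≠ 1 ∧ x * φ = φ * x := by
    -- take t * (φ t φ⁻¹) if ≠ 1, else t
    have htA : t ∈ A := ⟨Subgroup.mem_centralizer_singleton_iff.2 rfl,
      Subgroup.mem_centralizer_singleton_iff.2 hut.symm⟩
    by_cases h : t * φ = φ * t
    · exact ⟨t, htA, ne_one_of_orderOf ht, h⟩
    · refine ⟨t * (φ * t * φ⁻¹), A.mul_mem htA (hN t htA).2.2, ?_, ?_⟩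
      · intro h1
        apply h
        have h2 : φ * t * φ⁻¹ = t := by
          rw [← inv_eq_of_mul_eq_one_right h1]
          exact inv_eq_of_mul_eq_one_left (sq_one_of_orderOf ht)
        rw [mul_inv_eq_iff_eq_mul] at h2
        exact h2.symm
      · have hcm := hAc t htA _ (hN t htA).2.2
        rw [hφi] at hcm ⊢
        calc t * (φ * t * φ) * φ = t * φ * t * (φ * φ) := by group
          _ = 1 * (t * φ * t) := by rw [hφφ]; group
          _ = (φ * φ) * (t * φ * t) := by rw [hφφ]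
          _ = φ * ((φ * t * φ) * t) := by group
          _ = φ * (t * (φ * t * φ)) := by rw [hcm]
  have hgA : ∀ i : ℕ, ∀ a ∈ A, g ^ i * a * (g ^ i)⁻¹ ∈ A := by
    intro i
    induction i with
    | zero => intro a ha; simpa using ha
    | succ i ih =>
      intro a ha
      have := (hN _ (ih a ha)).1
      convert this using 1
      rw [pow_succ']; group
  -- structure of V'
  have hgx : g * x * g⁻¹ ∈ A := (hN x hxA).1
  have hgxφ : (g * x * g⁻¹) * φ = φ * (g * x * g⁻¹) := by
    calc (g * x * g⁻¹) * φ = g * x * (g⁻¹ * φ) := by group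
      _ = g * x * (φ * g⁻¹) := by
          have : g⁻¹ * φ = φ * g⁻¹ := by
            rw [inv_mul_eq_iff_eq_mul, ← mul_assoc, hgφ]; group
          rw [this]
      _ = g * (x * φ) * g⁻¹ := by group
      _ = (g * φ) * x * g⁻¹ := by rw [hxφ]; group
      _ = _ := by rw [hgφ]; group
  have hx2 : x * x = 1 := hA2 x hxA
  have hxi : x⁻¹ = x := inv_eq_of_mul_eq_one_left hx2
  have hxg : x * (g * x * g⁻¹) = g * g * x * g⁻¹ * g⁻¹ := by
    have h1 : x * (g * x * g⁻¹) ∈ A := A.mul_mem hxA hgx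
    have h2 : (x * (g * x * g⁻¹)) * φ = φ * (x * (g * x * g⁻¹)) := by
      rw [mul_assoc, hgxφ, ← mul_assoc, hxφ, mul_assoc]
    have h3 : x * (g * x * g⁻¹) ≠ 1 := by
      intro h4
      apply (hgfix x hxA hx1).1
      rw [← inv_eq_of_mul_eq_one_right h4, hxi]
    obtain ⟨i, hi, h5⟩ := hV x hxA hxφ hx1 _ h1 h2 h3
    interval_cases i
    · exfalso
      rw [pow_zero, inv_one, mul_one, one_mul] at h5
      have h6 : g * x * g⁻¹ = 1 := mul_eq_left.mp h5
      apply hx1
      calc x = g⁻¹ * (g * x * g⁻¹) * g := by group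
        _ = 1 := by rw [h6]; group
    · exfalso
      rw [pow_one] at h5
      exact hx1 (mul_eq_right.mp h5)
    · rw [h5, pow_two]; group
  -- x is far from φ
  have hxo : orderOf x = 2 := orderOf_eq_two hx2 hx1
  have hfx : ¬ (¬ far φ x) := by
    intro hnf
    have hnf' : ¬ far x φ := fun h => hnf (FarPairs.far_symm h)
    have hgx1 : g * x * g⁻¹ ≠ 1 := by
      intro h6
      apply hx1
      calc x = g⁻¹ * (g * x * g⁻¹) * g := by group
        _ = 1 := by rw [h6]; group
    have hgxo : orderOf (g * x * g⁻¹) = 2 := orderOf_eq_two (hA2 _ hgx) hgx1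
    rcases far_near hS x (g * x * g⁻¹) φ hxo hgxo hφ (hAc x hxA _ hgx) hxφ hgxφ
      (fun h => (hgfix x hxA hx1).1 h.symm) (fun h => hφA (h ▸ hxA)) (hgfix x hxA hx1).2 hnf' with h | h
    · exact hφA (h ▸ hgx)
    · exact hφA (h ▸ A.mul_mem hxA hgx)
  rw [not_not] at hfx
  have hxQ : toC hxφ ∉ Qφ := (far_iff hφ hxo hcφ Mφ hxφ).1 hfx
  -- P4
  have hP4 := CubeRel.cube Mφ hcφ huφ huφQ (g := gC) (w := toC hwφ) (x := toC hxφ) hgC
    (by
      rcases hww with h | h
      · left; exact Subtype.ext h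
      · right; exact Subtype.ext h)
    (Subtype.ext hwg) (Subtype.ext hx2) hxQ (Subtype.ext hxg)
  obtain ⟨hw2, i, hi, hcube⟩ := hP4
  have hw2' : w * w = 1 := congrArg Subtype.val hw2
  set xi := g ^ i * x * (g ^ i)⁻¹ with hxidef
  have hxiA : xi ∈ A := hgA i x hxA
  have hxi1 : xi ≠ 1 := by
    intro h6
    apply hx1
    calc x = (g ^ i)⁻¹ * (g ^ i * x * (g ^ i)⁻¹) * g ^ i := by group
      _ = 1 := by rw [← hxidef, h6]; group
  rcases hcube with h | h
  · have h' : (w * xi) ^ 3 = 1 := congrArg Subtype.val h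
    exact L216.exists_L216 A g y φ w xi hAcard hAc hA2 hg hy hφ hgy hgφ hφy hN htrans hw2' hwφ hwg
      ⟨k, hwy⟩ hxiA hxi1 h'
  · have h' : (φ * w * xi) ^ 3 = 1 := congrArg Subtype.val h
    refine L216.exists_L216 A g y φ (φ * w) xi hAcard hAc hA2 hg hy hφ hgy hgφ hφy hN htrans ?_ ?_ ?_
      ?_ hxiA hxi1 h'
    · calc φ * w * (φ * w) = φ * (w * φ) * w := by group
        _ = (φ * φ) * (w * w) := by rw [hwφ]; group
        _ = 1 := by rw [hφφ, hw2', one_mul]
    · calc φ * w * φ = φ * (w * φ) := by group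
        _ = φ * (φ * w) := by rw [hwφ]
    · calc φ * w * g * (φ * w)⁻¹ = φ * (w * g * w⁻¹) * φ⁻¹ := by group
        _ = φ * g⁻¹ * φ⁻¹ := by rw [hwg]
        _ = (φ * g * φ⁻¹)⁻¹ := by group
        _ = g⁻¹ := by rw [← hgφ]; group
    · refine ⟨4 * k, ?_⟩
      have hy5 : y ^ 5 = 1 := by rw [← hy]; exact pow_orderOf_eq_one y
      have hyi : y⁻¹ = y ^ 4 := by
        apply inv_eq_of_mul_eq_one_left
        rw [← pow_succ, hy5]
      calc φ * w * y * (φ * w)⁻¹ = φ * (w * y * w⁻¹) * φ⁻¹ := by group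
        _ = φ * y ^ k * φ⁻¹ := by rw [hwy]
        _ = (φ * y * φ⁻¹) ^ k := by rw [conj_pow]
        _ = (y ^ 4) ^ k := by rw [hφy, hyi]
        _ = y ^ (4 * k) := by rw [pow_mul]

end Cfsg.Agent.J3Type.Assembly
end

-- part: S1652
section
set_option autoImplicit false
open Cfsg

namespace Cfsg.Agent.S1652

open Cfsg.Agent.J2Type.Model Cfsg.Agent.J2Type.SPFacts Cfsg.Agent.J2Type.CStruct
open Cfsg.Agent.J3Type.OneClass Cfsg.Agent.J3Type.FarPairs

theorem allSplit {G : Type*} [Group G] [Finite G] (t : G) (ht : orderOf t = 2)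
    (Q : Subgroup (Subgroup.centralizer ({t} : Set G))) [Q.Normal] (hQ : Cfsg.IsExtraspecial 2 Q)
    (hcard : Nat.card Q = 32)
    (h2c : Subgroup.centralizer (Q : Set (Subgroup.centralizer ({t} : Set G))) ≤ Q)
    (h60 : Nat.card ((Subgroup.centralizer ({t} : Set G)) ⧸ Q) = 60)
    (hone : ∀ x y : G, orderOf x = 2 → orderOf y = 2 → IsConj x y) : AllSplit G := by
  obtain ⟨z', v, ρ, M⟩ := Cfsg.Agent.J2Type.ModelExists.exists_model Q hQ hcard h2c h60
  have h1920 : Nat.card (Subgroup.centralizer ({t} : Set G)) = 1920 := by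
    have := Subgroup.card_eq_card_quotient_mul_card_subgroup Q
    rw [h60, hcard] at this
    omega
  have hz' : z' = zc t := by
    rcases Cfsg.Agent.J2Type.Fusion.eq_of_comm_v M (c := zc t)
      (fun i => Subtype.ext (Subgroup.mem_centralizer_singleton_iff.1 (v i).2).symm) with h | h
    · exfalso
      exact ne_one_of_orderOf ht (congrArg Subtype.val h)
    · exact h.symm
  subst hz'
  have hv2 : orderOf (v 0 : G) = 2 := by
    apply orderOf_eq_two
    · exact congrArg Subtype.val (M.v_sq 0)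
    · intro h
      apply v_ne_one M 0 0
      rw [zp_zero, one_mul]
      exact Subtype.ext h
  obtain ⟨u, hu, huQ⟩ := exists_outer M 0 (isConj_iff.1 (hone t (v 0) ht hv2))
  intro s hs
  obtain ⟨g, hg⟩ := isConj_iff.1 (hone t s ht hs)
  set e := conjEquiv g t s hg with he
  have M' := transport e M
  have hz : e (zc t) = zc s := Subtype.ext hg
  rw [hz] at M'
  refine ⟨?_, _, _, _, M', e u, ?_, ?_⟩
  · rw [← h1920]
    exact (Nat.card_congr e.toEquiv).symm
  · rw [← map_mul, hu, map_one]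
  · rintro ⟨q, hq, hqe⟩
    have : q = u := e.injective hqe
    rw [this] at hq
    exact huQ hq

/-- A group of J₃ type contains SL(2,16):2: let a finite simple group have a single conjugacy class of involutions and an involution t whose centraliser C has a normal extraspecial subgroup Q of order 32 with no elementary abelian subgroup of order 8, whose centraliser in C lies in Q, with C / Q isomorphic to the alternating group of degree 5. Then some subgroup H has a normal subgroup of index 2 isomorphic to the special linear group of dimension 2 over a field with 16 elements. -/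
theorem result {G : Type*} [Group G] [Finite G] [IsSimpleGroup G] (t : G) (ht : orderOf t = 2) (Q : Subgroup (Subgroup.centralizer ({t} : Set G))) [Q.Normal] (hQ : Cfsg.IsExtraspecial 2 Q) (hcard : Nat.card Q = 32) (hminus : ∀ E : Subgroup Q, Cfsg.IsElementaryAbelian 2 E → Nat.card E ≤ 2 ^ 2) (h2c : Subgroup.centralizer (Q : Set (Subgroup.centralizer ({t} : Set G))) ≤ Q) (e : (Subgroup.centralizer ({t} : Set G)) ⧸ Q ≃* alternatingGroup (Fin 5)) (hone : ∀ x y : G, orderOf x = 2 → orderOf y = 2 → IsConj x y) : ∃ (H : Subgroup G) (N : Subgroup H) (K : Type) (_ : Field K) (_ : Fintype K), N.Normal ∧ N.index = 2 ∧ Fintype.card K = 16 ∧ Nonempty (N ≃* Matrix.SpecialLinearGroup (Fin 2) K) := by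
  have h60 : Nat.card ((Subgroup.centralizer ({t} : Set G)) ⧸ Q) = 60 := by
    rw [Nat.card_congr e.toEquiv, Nat.card_eq_fintype_card]
    rfl
  exact Cfsg.Agent.J3Type.Assembly.main hone (allSplit t ht Q hQ hcard h2c h60 hone) t ht

end Cfsg.Agent.S1652
end
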