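import Cfsg.Statements.S1666
import Cfsg.Agent.SporadicRecognition.HSAssemble
set_option linter.all false

set_option autoImplicit false
open Cfsg

namespace Cfsg.Agent.S1666

open MulAction Cfsg.Agent.SporadicRecognition.RankThree Cfsg.Agent.SporadicRecognition.HSAssemble in
/-- Recognition of the Higman–Sims group as a rank 3 permutation group: a transitive permutation group on 100 points in which the stabiliser of a point is isomorphic to the Mathieu group M₂₂ and has two further orbits, of sizes 22 and 77, is isomorphic to the Higman–Sims group. -/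
theorem result {Ω : Type*} [Fintype Ω] [DecidableEq Ω] (hΩ : Fintype.card Ω = 100) (G : Subgroup (Equiv.Perm Ω)) [MulAction.IsPretransitive G Ω] (a : Ω)  (e : MulAction.stabilizer G a ≃* Cfsg.Spor.M22) (b c : Ω) (hb : (MulAction.orbit (MulAction.stabilizer G a) b).ncard = 22) (hc : (MulAction.orbit (MulAction.stabilizer G a) c).ncard = 77) : Cfsg.Spor.IsoHS G := by
  have h : IsRankThree G a b c 22 77 :=
    ⟨inferInstance, by rw [Nat.card_eq_fintype_card, hΩ], hb, hc, by norm_num, by norm_num, by norm_num⟩
  have hG : Nat.card G = 44352000 := by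
    have h1 := (stabilizer G a).card_mul_index
    have h2 : Nat.card Ω = 100 := by rw [Nat.card_eq_fintype_card, hΩ]
    rw [index_stabilizer, orbit_eq_univ, Set.ncard_univ, h2, Nat.card_congr e.toEquiv, card_M22] at h1
    rw [← h1]
  obtain ⟨H, Y, i1, i2, i3, i4, a', b', c', hr, hH, hs, ⟨f⟩⟩ := hs_rank
  obtain ⟨f'⟩ := nonempty_of_rank h hr hG hH hs
  exact ⟨f'.trans f⟩

end Cfsg.Agent.S1666
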