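import Cfsg.Statements.S1667
import Cfsg.Agent.SporadicRecognition.McLAssemble
set_option linter.all false

set_option autoImplicit false
open Cfsg

namespace Cfsg.Agent.S1667

open MulAction Cfsg.Agent.SporadicRecognition.RankThree Cfsg.Agent.SporadicRecognition.McLAssemble in
/-- Recognition of the McLaughlin group as a rank 3 permutation group: a transitive permutation group on 275 points in which the stabiliser of a point is isomorphic to the unitary group U₄(3) and has two further orbits, of sizes 112 and 162, is isomorphic to the McLaughlin group. -/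
theorem result {Ω : Type*} [Fintype Ω] [DecidableEq Ω] (hΩ : Fintype.card Ω = 275) (G : Subgroup (Equiv.Perm Ω)) [MulAction.IsPretransitive G Ω] (a : Ω) (K : Type) [Field K] [Fintype K] (hK : Fintype.card K = 9) (e : MulAction.stabilizer G a ≃* Cfsg.PSU 4 K 3) (b c : Ω) (hb : (MulAction.orbit (MulAction.stabilizer G a) b).ncard = 112) (hc : (MulAction.orbit (MulAction.stabilizer G a) c).ncard = 162) : Cfsg.Spor.IsoMcL G := by
  have h : IsRankThree G a b c 112 162 :=
    ⟨inferInstance, by rw [Nat.card_eq_fintype_card, hΩ], hb, hc, by norm_num, by norm_num, by norm_num⟩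
  have hG : Nat.card G = 898128000 := by
    have h1 := (stabilizer G a).card_mul_index
    have h2 : Nat.card Ω = 275 := by rw [Nat.card_eq_fintype_card, hΩ]
    rw [index_stabilizer, orbit_eq_univ, Set.ncard_univ, h2, Nat.card_congr e.toEquiv, card_psu K hK] at h1
    rw [← h1]
  obtain ⟨H, Y, i1, i2, i3, i4, a', b', c', hr, hH, hs, ⟨f⟩⟩ := mcl_rank
  obtain ⟨f'⟩ := nonempty_of_rank h hr hG hH hs
  exact ⟨f'.trans f⟩

end Cfsg.Agent.S1667
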