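import Cfsg.Agent.SporRec.R3.SuzAut
import Cfsg.Statements.S1668
import Cfsg.Agent.SporRec.R3.SuzLink
set_option linter.all false

-- part: SporRec/R3/SuzFinal
section
/-! Any rank three configuration with the right parameters over `H` has group `Sp`. -/

set_option autoImplicit false

noncomputable section

namespace Cfsg.Agent.SporRec.R3.SuzFinal

open Finset
open Cfsg.Agent.SporRec.R3.Config Cfsg.Agent.SporRec.R3.YPart
open Cfsg.Agent.SporRec.R3.Kernel Cfsg.Agent.SporRec.R3.SuzData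
open Cfsg.Agent.SporRec.R3.Scheme Cfsg.Agent.SporRec.R3.SchemeK Cfsg.Agent.SporRec.R3.SuzAct
open Cfsg.Agent.SporRec.R3.Orb Cfsg.Agent.SporRec.R3.SuzP1 Cfsg.Agent.SporRec.R3.SuzS
open Cfsg.Agent.SporRec.R3.Glue Cfsg.Agent.SporRec.R3.SuzAut

variable {Ω : Type*} [Fintype Ω] [DecidableEq Ω]

theorem orb_Λ (C : Conf Ω Hs) {c : Ω} (hc : c ∈ C.Λ) : orb C.act ⊤ c = C.Λ := by
  ext x
  constructor
  · rintro ⟨p, _, rfl⟩; exact C.hΛ _ _ hc
  · intro hx
    obtain ⟨h, hh⟩ := C.tΛ c hc x hx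
    exact ⟨h, trivial, hh⟩

/-- `Λ` is the set of points of the hexagon -/
theorem exists_M (hH : Nat.card Hs = 251596800) (C : Conf Ω Hs) (hΔ : C.Δ.card = 416)
    (hΛ : C.Λ.card = 1365) : Nonempty (YMap C ρP) := by
  classical
  have : Finite Hs := Nat.finite_of_card_ne_zero (by rw [hH]; norm_num)
  obtain ⟨c, hc⟩ := C.neΛ
  have hP : Nat.card (stab C.act c) = 184320 := by
    have h1 := orb_card C.act ⊤ c
    rw [orb_Λ C hc, Set.ncard_coe_finset, hΛ, top_inf_eq, Nat.card_congr Subgroup.topEquiv.toEquiv, hH] at h1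
    omega
  rcases parabolic hH _ hP with ⟨y, hy⟩ | ⟨l, hl⟩
  · exact ⟨ofStab C ρP hc y (fun z => by
      obtain ⟨u, hu⟩ := trP z
      obtain ⟨v, hv⟩ := trP y
      exact ⟨u * v⁻¹, by rw [map_mul, Equiv.Perm.mul_apply, ← hv, map_inv]; simp [hu]⟩) hy⟩
  · exact (no_lines C hΔ (ofStab C ρL hc l (fun z => by
      obtain ⟨u, hu⟩ := trL z
      obtain ⟨v, hv⟩ := trL l
      exact ⟨u * v⁻¹, by rw [map_mul, Equiv.Perm.mul_apply, ← hv, map_inv]; simp [hu]⟩) hl)).elim

theorem S_act_inv {C : Conf Ω Hs} (M : YMap C ρP) (h : Hs) (d : Ω) (y : Fin 1365) :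
    y ∈ M.S (C.act h d) ↔ ρP h⁻¹ y ∈ M.S d := by
  have := M.S_act h d (ρP h⁻¹ y)
  rw [ρ_inv_apply] at this
  exact this

theorem A_all {C : Conf Ω Hs} (hΔ : C.Δ.card = 416) (M : YMap C ρP) (h : Hs) (z : Fin 1365) :
    z ∈ M.A (ρP h y0) ↔ cl (ρP h⁻¹ z) = 2 := by
  obtain ⟨_, _, hA⟩ := params C hΔ M stP
  rw [mem_A_rho, hA, mem_D]

section
variable (htr : ∀ x y : Fin 1782, ∃ g ∈ Sp, g x = y)
  (hst : ∀ g ∈ Sp, g o0 = o0 → ∃ h : Hs, ρO h = g)

theorem A_eq {C : Conf Ω Hs} (hΔ : C.Δ.card = 416) (M : YMap C ρP) (y : Fin 1365) :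
    M.A y = (M0 htr hst).A y := by
  obtain ⟨h, rfl⟩ := trP y
  ext z
  rw [A_all hΔ M, A_all (C := C0 htr hst) card_Δ0 (M0 htr hst)]

/-- a point with the same neighbourhood as `d0` -/
theorem exists_d {C : Conf Ω Hs} (hΔ : C.Δ.card = 416) (M : YMap C ρP) :
    ∃ d ∈ C.Δ, M.S d = (M0 htr hst).S d0 := by
  obtain ⟨d, hd, hS⟩ := points C hΔ M
  obtain ⟨d', hd', hS'⟩ := points (C0 htr hst) card_Δ0 (M0 htr hst)
  obtain ⟨k, hk⟩ := reachΔ d' hd'
  refine ⟨C.act k d, C.hΔ _ _ hd, ?_⟩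
  ext y
  rw [S_act_inv, hS]
  have h1 := S_act_inv (M0 htr hst) k d' y
  change y ∈ (M0 htr hst).S (ρO k d') ↔ _ at h1
  rw [hk] at h1
  rw [h1, hS']

variable {htr hst}

theorem stab_iff {C : Conf Ω Hs} (hΔ : C.Δ.card = 416) (M : YMap C ρP) {d : Ω} (hd : d ∈ C.Δ)
    (hS : M.S d = (M0 htr hst).S d0) (h : Hs) : C.act h d = d ↔ ρO h d0 = d0 := by
  have hd0 : d0 ∈ (C0 htr hst).Δ := by
    change d0 ∈ Δ0
    rw [mem_Δ0]; simp [d0]
  constructor
  · intro hh
    exact stab_sub (C := C) (M := M) (C' := C0 htr hst) (M' := M0 htr hst) hS hd0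
      (fun e he he' => S_injective (C0 htr hst) card_Δ0 (M0 htr hst) he hd0 he') h hh
  · intro hh
    exact stab_sub (C := C0 htr hst) (M := M0 htr hst) (C' := C) (M' := M) hS.symm hd
      (fun e he he' => S_injective C hΔ M he hd he') h hh

theorem act_eq_iff {C : Conf Ω Hs} (hΔ : C.Δ.card = 416) (M : YMap C ρP) {d : Ω} (hd : d ∈ C.Δ)
    (hS : M.S d = (M0 htr hst).S d0) (h k : Hs) : C.act h d = C.act k d ↔ ρO h d0 = ρO k d0 := by
  have h1 := stab_iff hΔ M hd hS (k⁻¹ * h)
  rw [map_mul, map_mul, Equiv.Perm.mul_apply, Equiv.Perm.mul_apply, map_inv, map_inv,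
    Equiv.Perm.inv_eq_iff_eq, Equiv.Perm.inv_eq_iff_eq] at h1
  exact h1

theorem adj_char {C : Conf Ω Hs} (hΔ : C.Δ.card = 416) (M : YMap C ρP) {d : Ω} (hd : d ∈ C.Δ)
    (hS : M.S d = (M0 htr hst).S d0) (h : Hs) :
    C.adj d (C.act h d) ↔ 317 ≤ (ρO h d0).val := by
  classical
  obtain ⟨_, hlam, _⟩ := params C hΔ M stP
  have hN : (C.Δ.filter fun z => C.adj d z).card = 100 := by rw [C.card_Δ_adj' hd, hlam]
  have hd0 : d0 ∈ Δ0 := by rw [mem_Δ0]; simp [d0]
  -- transport to `Δ0`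
  have hφ : ∀ z ∈ C.Δ.filter (fun z => C.adj d z), ∃ k, C.act k d = z := by
    intro z hz
    rw [mem_filter] at hz
    exact C.tΔ d hd z hz.1
  choose! φ hφ' using hφ
  let N' : Finset (Fin 1782) := (C.Δ.filter fun z => C.adj d z).image fun z => ρO (φ z) d0
  have hN'card : N'.card = 100 := by
    rw [← hN]
    apply card_image_of_injOn
    intro z hz w hw e
    have e' : ρO (φ z) d0 = ρO (φ w) d0 := e
    rw [← act_eq_iff hΔ M hd hS, hφ' z hz, hφ' w hw] at e'
    exact e'
  have hmem : ∀ k : Hs, ρO k d0 ∈ N' ↔ C.adj d (C.act k d) := by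
    intro k
    constructor
    · intro hk
      rw [mem_image] at hk
      obtain ⟨z, hz, e⟩ := hk
      rw [← act_eq_iff hΔ M hd hS, hφ' z hz] at e
      rw [← e]
      exact (mem_filter.1 hz).2
    · intro hk
      have hz : C.act k d ∈ C.Δ.filter (fun z => C.adj d z) := mem_filter.2 ⟨C.hΔ _ _ hd, hk⟩
      rw [mem_image]
      refine ⟨C.act k d, hz, ?_⟩
      rw [← act_eq_iff hΔ M hd hS, hφ' _ hz]
  -- no element below 317
  have hlow : ∀ x ∈ N', 317 ≤ x.val ∧ x.val < 417 := by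
    intro x hx
    have hx' := hx
    rw [mem_image] at hx'
    obtain ⟨z, hz, rfl⟩ := hx'
    have hxΔ := invΔ (φ z) d0 hd0
    rw [mem_Δ0] at hxΔ
    refine ⟨?_, hxΔ.2⟩
    by_contra hlt
    push Not at hlt
    -- x is not d0
    have hne : (ρO (φ z) d0).val ≠ 1 := by
      intro e
      have e' : ρO (φ z) d0 = d0 := Fin.ext e
      have h1 := (hmem (φ z)).1 hx
      rw [(stab_iff hΔ M hd hS _).2 e'] at h1
      exact C.not_adj_self _ h1
    have hsub : (Finset.univ.filter fun y : Fin 1782 => 2 ≤ y.val ∧ y.val < 2 + 315) ⊆ N' := by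
      intro y hy
      rw [mem_filter] at hy
      obtain ⟨u, hu, hu'⟩ := reach_of_chk tabO gen ρO hgenO _ 2 315 hreachJ1 (ρO (φ z) d0)
        (by omega) (by omega)
      obtain ⟨v, hv, hv'⟩ := reach_of_chk tabO gen ρO hgenO _ 2 315 hreachJ1 y hy.2.1 hy.2.2
      have e : ρO (v⁻¹ * u * φ z) d0 = y := by
        rw [map_mul, map_mul, Equiv.Perm.mul_apply, Equiv.Perm.mul_apply, map_inv,
          Equiv.Perm.inv_eq_iff_eq]
        exact Fin.ext (by rw [hu', hv'])
      rw [← e, hmem]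
      have hfix : C.act (v⁻¹ * u) d = d := by
        rw [stab_iff hΔ M hd hS]
        exact J_fix _ (Subgroup.mul_mem _ (Subgroup.inv_mem _ hv) hu)
      have h1 := C.adj_act (v⁻¹ * u) d (C.act (φ z) d)
      rw [hfix, ← Equiv.Perm.mul_apply, ← map_mul] at h1
      exact h1.2 ((hmem _).1 hx)
    have h315 : (Finset.univ.filter fun y : Fin 1782 => 2 ≤ y.val ∧ y.val < 2 + 315).card = 315 := by
      have : (Finset.univ.filter fun y : Fin 1782 => 2 ≤ y.val ∧ y.val < 2 + 315).card =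
          ((Finset.range 1782).filter fun i => 2 ≤ i ∧ i < 2 + 315).card := by
        rw [card_filter, card_filter, Finset.sum_range]
      have h2 : ((Finset.range 1782).filter fun i => 2 ≤ i ∧ i < 2 + 315) = Finset.Ico 2 317 := by
        ext i
        rw [mem_filter, Finset.mem_range, Finset.mem_Ico]
        omega
      rw [this, h2, Nat.card_Ico]
    have := card_le_card hsub
    rw [h315, hN'card] at this
    omega
  -- hence equality
  have h100 : (Finset.univ.filter fun y : Fin 1782 => 317 ≤ y.val ∧ y.val < 417).card = 100 := by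
    have : (Finset.univ.filter fun y : Fin 1782 => 317 ≤ y.val ∧ y.val < 417).card =
        ((Finset.range 1782).filter fun i => 317 ≤ i ∧ i < 417).card := by
      rw [card_filter, card_filter, Finset.sum_range]
    have h2 : ((Finset.range 1782).filter fun i => 317 ≤ i ∧ i < 417) = Finset.Ico 317 417 := by
      ext i
      rw [mem_filter, Finset.mem_range, Finset.mem_Ico]
      omega
    rw [this, h2, Nat.card_Ico]
  have heq : N' = Finset.univ.filter fun y : Fin 1782 => 317 ≤ y.val ∧ y.val < 417 :=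
    eq_of_subset_of_card_le (fun x hx => mem_filter.2 ⟨mem_univ _, hlow x hx⟩) (by rw [h100, hN'card])
  rw [← hmem h, heq, mem_filter]
  have hxΔ := invΔ h d0 hd0
  rw [mem_Δ0] at hxΔ
  exact ⟨fun h' => h'.2.1, fun h' => ⟨mem_univ _, h', hxΔ.2⟩⟩

variable (htr hst)

theorem card_G (hH : Nat.card Hs = 251596800) (C : Conf Ω Hs) (hΩ : Fintype.card Ω = 1782)
    (hinj : Function.Injective C.act) : Nat.card C.G = 448345497600 := by
  have h1 := orb_card (MonoidHom.id (Equiv.Perm Ω)) C.G C.α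
  have h2 : orb (MonoidHom.id (Equiv.Perm Ω)) C.G C.α = Set.univ := by
    ext x
    obtain ⟨g, hg, e⟩ := C.trans C.α x
    exact ⟨fun _ => trivial, fun _ => ⟨g, hg, e⟩⟩
  have h3 : Nat.card (C.G ⊓ stab (MonoidHom.id (Equiv.Perm Ω)) C.α : Subgroup (Equiv.Perm Ω)) =
      Nat.card Hs := by
    symm
    apply Nat.card_congr
    apply Equiv.ofBijective (fun h : Hs => (⟨C.act h, C.act_mem h, C.act_fix h⟩ :
      (C.G ⊓ stab (MonoidHom.id (Equiv.Perm Ω)) C.α : Subgroup (Equiv.Perm Ω))))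
    constructor
    · intro h k e
      exact hinj (congrArg Subtype.val e)
    · rintro ⟨g, hg, hg'⟩
      obtain ⟨h, hh⟩ := C.act_surj g hg hg'
      exact ⟨h, Subtype.ext hh⟩
  rw [h2, h3, Set.ncard_univ, Nat.card_eq_fintype_card, hH] at h1
  rw [← h1]
  calc Fintype.card Ω * 251596800 = 1782 * 251596800 := congrArg (· * 251596800) hΩ
    _ = 448345497600 := by norm_num

include hst htr in
theorem final (hH : Nat.card Hs = 251596800) (hSp : Nat.card Sp = 448345497600)
    (hsimple : IsSimpleGroup Sp) (C : Conf Ω Hs) (hΩ : Fintype.card Ω = 1782)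
    (hΔ : C.Δ.card = 416) (hΛ : C.Λ.card = 1365) (hinj : Function.Injective C.act) :
    Nonempty (C.G ≃* Sp) := by
  classical
  obtain ⟨M⟩ := exists_M hH C hΔ hΛ
  obtain ⟨d, hd, hS⟩ := exists_d htr hst hΔ M
  have hd0 : d0 ∈ (C0 htr hst).Δ := by
    change d0 ∈ Δ0
    rw [mem_Δ0]; simp [d0]
  obtain ⟨F, _, hF⟩ := glue (C := C) (M := M) (C' := C0 htr hst) (M' := M0 htr hst) hd hd0 hS
    (A_eq htr hst hΔ M)
    (fun h => by
      rw [adj_char hΔ M hd hS h]
      exact (adj_char (C := C0 htr hst) card_Δ0 (M0 htr hst) hd0 rfl h).symm)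
    (fun e he he' => S_injective C hΔ M he hd he')
    (fun e he he' => S_injective (C0 htr hst) card_Δ0 (M0 htr hst) he hd0 he')
  refine iso_of_bound C (C0 htr hst) F hF hsimple ?_ ?_ ?_
  · change Nat.card C.G = Nat.card Sp
    rw [hSp, card_G hH C hΩ hinj]
  · change 2 < Nat.card Sp
    rw [hSp]; norm_num
  · change Nat.card (Aut (C0 htr hst)) ≤ 2 * Nat.card Sp
    rw [hSp]
    exact card_Aut card_Δ0 (M0 htr hst) (Fintype.card_fin _)

end

end Cfsg.Agent.SporRec.R3.SuzFinal
end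
end

-- part: S1668
section
set_option autoImplicit false
set_option linter.unusedSectionVars false
open Cfsg

namespace Cfsg.Agent.S1668

open Cfsg.Agent.SporRec.R3 Cfsg.Agent.SporRec.R3.Config

section
variable {Ω : Type*} [Fintype Ω] [DecidableEq Ω] {G : Subgroup (Equiv.Perm Ω)}
  {a : Ω} {H : Type*} [Group H]

/-- the orbit as a finset -/
noncomputable def orbF (G : Subgroup (Equiv.Perm Ω)) (a b : Ω) : Finset Ω :=
  (Set.toFinite (MulAction.orbit (MulAction.stabilizer G a) b)).toFinset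

theorem mem_orbF (b x : Ω) : x ∈ orbF G a b ↔ x ∈ MulAction.orbit (MulAction.stabilizer G a) b := by
  simp [orbF]

theorem card_orbF (b : Ω) : (orbF G a b).card = (MulAction.orbit (MulAction.stabilizer G a) b).ncard := by
  rw [Set.ncard_eq_toFinset_card _ (Set.toFinite _)]; rfl

/-- the homomorphism of the stabiliser -/
def actHom (G : Subgroup (Equiv.Perm Ω)) (a : Ω) (e : H ≃* MulAction.stabilizer G a) : H →* Equiv.Perm Ω :=
  (G.subtype.comp (MulAction.stabilizer G a).subtype).comp e.toMonoidHom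

theorem actHom_apply (e : H ≃* MulAction.stabilizer G a) (h : H) (x : Ω) :
    actHom G a e h x = (e h) • x := rfl

theorem actHom_inj (e : H ≃* MulAction.stabilizer G a) : Function.Injective (actHom G a e) := by
  intro x y h
  apply e.injective
  exact Subtype.ext (Subtype.ext h)

theorem orb_a_self (x : Ω) (hx : x ∈ MulAction.orbit (MulAction.stabilizer G a) a) : x = a := by
  obtain ⟨s, rfl⟩ := hx
  exact s.2

theorem notMem_orbF (b : Ω) (hb : (MulAction.orbit (MulAction.stabilizer G a) b).ncard ≠ 1) :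
    a ∉ orbF G a b := by
  rw [mem_orbF]
  intro h
  apply hb
  rw [← MulAction.orbit_eq_iff] at h
  rw [← h]
  have : MulAction.orbit (MulAction.stabilizer G a) a = {a} := by
    ext x
    exact ⟨fun hx => orb_a_self x hx, fun hx => by
      rw [Set.mem_singleton_iff] at hx
      rw [hx]; exact MulAction.mem_orbit_self a⟩
  rw [this, Set.ncard_singleton]

theorem disj_orbF (b c : Ω) (h : (MulAction.orbit (MulAction.stabilizer G a) b).ncard ≠
    (MulAction.orbit (MulAction.stabilizer G a) c).ncard) : Disjoint (orbF G a b) (orbF G a c) := by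
  rw [Finset.disjoint_left]
  intro x hx hx'
  rw [mem_orbF, ← MulAction.orbit_eq_iff] at hx hx'
  apply h
  rw [← hx, ← hx']

theorem cover_orbF (hΩ : Fintype.card Ω = 1782) (b c : Ω)
    (hb : (MulAction.orbit (MulAction.stabilizer G a) b).ncard = 416)
    (hc : (MulAction.orbit (MulAction.stabilizer G a) c).ncard = 1365) (x : Ω) :
    x = a ∨ x ∈ orbF G a b ∨ x ∈ orbF G a c := by
  have h1 : a ∉ orbF G a b ∪ orbF G a c := by
    rw [Finset.mem_union, not_or]
    exact ⟨notMem_orbF b (by rw [hb]; norm_num), notMem_orbF c (by rw [hc]; norm_num)⟩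
  have h2 : (insert a (orbF G a b ∪ orbF G a c)).card = 1782 := by
    rw [Finset.card_insert_of_notMem h1, Finset.card_union_of_disjoint
      (disj_orbF b c (by rw [hb, hc]; norm_num)), card_orbF, card_orbF, hb, hc]
  have h3 : insert a (orbF G a b ∪ orbF G a c) = Finset.univ := by
    apply Finset.eq_univ_of_card
    rw [h2]; exact hΩ.symm
  have h4 : x ∈ insert a (orbF G a b ∪ orbF G a c) := by rw [h3]; exact Finset.mem_univ _
  rw [Finset.mem_insert, Finset.mem_union] at h4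
  exact h4

/-- the configuration -/
noncomputable def conf (hΩ : Fintype.card Ω = 1782) [MulAction.IsPretransitive G Ω]
    (e : H ≃* MulAction.stabilizer G a) (b c : Ω)
    (hb : (MulAction.orbit (MulAction.stabilizer G a) b).ncard = 416)
    (hc : (MulAction.orbit (MulAction.stabilizer G a) c).ncard = 1365) : Conf Ω H where
  G := G
  α := a
  act := actHom G a e
  Δ := orbF G a b
  Λ := orbF G a c
  trans x y := by
    obtain ⟨g, hg⟩ := MulAction.exists_smul_eq G x y
    exact ⟨g, g.2, hg⟩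
  act_mem h := (e h : G).2
  act_fix h := (e h).2
  act_surj g hg hga := by
    refine ⟨e.symm ⟨⟨g, hg⟩, hga⟩, ?_⟩
    unfold actHom
    simp
  hΔ h x hx := by
    rw [mem_orbF] at hx ⊢
    rw [actHom_apply]
    exact MulAction.mem_orbit_of_mem_orbit _ hx
  hΛ h x hx := by
    rw [mem_orbF] at hx ⊢
    rw [actHom_apply]
    exact MulAction.mem_orbit_of_mem_orbit _ hx
  tΔ x hx y hy := by
    rw [mem_orbF] at hx hy
    rw [← MulAction.orbit_eq_iff] at hx
    rw [← hx] at hy
    obtain ⟨s, hs⟩ := hy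
    exact ⟨e.symm s, by rw [actHom_apply, MulEquiv.apply_symm_apply]; exact hs⟩
  tΛ x hx y hy := by
    rw [mem_orbF] at hx hy
    rw [← MulAction.orbit_eq_iff] at hx
    rw [← hx] at hy
    obtain ⟨s, hs⟩ := hy
    exact ⟨e.symm s, by rw [actHom_apply, MulEquiv.apply_symm_apply]; exact hs⟩
  cover := cover_orbF hΩ b c hb hc
  αΔ := notMem_orbF b (by rw [hb]; norm_num)
  αΛ := notMem_orbF c (by rw [hc]; norm_num)
  disj := disj_orbF b c (by rw [hb, hc]; norm_num)
  neΔ := ⟨b, by rw [mem_orbF]; exact MulAction.mem_orbit_self b⟩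
  neΛ := ⟨c, by rw [mem_orbF]; exact MulAction.mem_orbit_self c⟩
  card_ne := by rw [card_orbF, card_orbF, hb, hc]; norm_num

end

/-- Recognition of the sporadic Suzuki group as a rank 3 permutation group: a transitive permutation group on 1782 points in which the stabiliser of a point is isomorphic to the Chevalley group G₂(4) and has two further orbits, of sizes 416 and 1365, is isomorphic to the sporadic Suzuki group. -/
theorem result {Ω : Type*} [Fintype Ω] [DecidableEq Ω] (hΩ : Fintype.card Ω = 1782) (G : Subgroup (Equiv.Perm Ω)) [MulAction.IsPretransitive G Ω] (a : Ω) (K : Type) [Field K] [Fintype K] (hK : Fintype.card K = 4) (e : MulAction.stabilizer G a ≃* Cfsg.Lie.chevG2.group K) (b c : Ω) (hb : (MulAction.orbit (MulAction.stabilizer G a) b).ncard = 416) (hc : (MulAction.orbit (MulAction.stabilizer G a) c).ncard = 1365) : Cfsg.Spor.IsoSuz G := by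
  obtain ⟨f⟩ := SuzLink.link_H K hK
  let e' : SuzAct.Hs ≃* MulAction.stabilizer G a := f.symm.trans e.symm
  obtain ⟨u⟩ := SuzFinal.final SuzLink.Sp_trans SuzLink.Sp_stab SuzLink.card_Hs SuzLink.card_Sp
    SuzLink.simple_Sp (conf hΩ e' b c hb hc) hΩ ((card_orbF b).trans hb) ((card_orbF c).trans hc)
    (actHom_inj e')
  obtain ⟨v⟩ := SuzLink.link_Sp
  exact ⟨MulEquiv.trans (show G ≃* SuzAct.Sp from u) v.symm⟩

end Cfsg.Agent.S1668
end
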