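import Cfsg.Agent.SporRec.Ru.CertData_mg
import Cfsg.Agent.SporRec.R3.SchemeK
import Cfsg.Agent.SporRec.Ru.Unique
import Cfsg.Statements.S1669
import Cfsg.Agent.RuLat.Main
set_option linter.all false

-- part: SporRec/Ru/Setup
section
/-! The rank three configuration of a group as in S1669. -/

set_option autoImplicit false
set_option maxRecDepth 4000
set_option linter.unusedSectionVars false

namespace Cfsg.Agent.SporRec.Ru.Setup

open Finset Cfsg.Agent.SporRec.R3.Config Cfsg.Agent.SporRec.R3.YPart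
open Cfsg.Agent.SporRec.Ru.Rep Cfsg.Agent.SporRec.Ru.Point
open Cfsg.Agent.ChevalleyStructure.Tits.Order

variable {Ω : Type*} [Fintype Ω] [DecidableEq Ω]

/-- the action of `H0` transported by an isomorphism with the point stabiliser -/
noncomputable def actG {G : Subgroup (Equiv.Perm Ω)} {a : Ω} (e : MulAction.stabilizer G a ≃* H0) :
    H0 →* Equiv.Perm Ω :=
  G.subtype.comp ((MulAction.stabilizer G a).subtype.comp e.symm.toMonoidHom)

theorem actG_mem {G : Subgroup (Equiv.Perm Ω)} {a : Ω} (e : MulAction.stabilizer G a ≃* H0) (h : H0) :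
    actG e h ∈ G := ((e.symm h : MulAction.stabilizer G a) : G).2

theorem actG_fix {G : Subgroup (Equiv.Perm Ω)} {a : Ω} (e : MulAction.stabilizer G a ≃* H0) (h : H0) :
    actG e h a = a := (e.symm h : MulAction.stabilizer G a).2

theorem actG_surj {G : Subgroup (Equiv.Perm Ω)} {a : Ω} (e : MulAction.stabilizer G a ≃* H0)
    (g : Equiv.Perm Ω) (hg : g ∈ G) (h : g a = a) : ∃ k, actG e k = g := by
  refine ⟨e ⟨⟨g, hg⟩, h⟩, ?_⟩
  show (((e.symm (e ⟨⟨g, hg⟩, h⟩) : MulAction.stabilizer G a) : G) : Equiv.Perm Ω) = g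
  rw [MulEquiv.symm_apply_apply]

theorem mem_orbit_iff {G : Subgroup (Equiv.Perm Ω)} {a : Ω} (e : MulAction.stabilizer G a ≃* H0) (b x : Ω) :
    x ∈ MulAction.orbit (MulAction.stabilizer G a) b ↔ ∃ h, actG e h b = x := by
  constructor
  · rintro ⟨s, rfl⟩
    refine ⟨e s, ?_⟩
    show (((e.symm (e s) : MulAction.stabilizer G a) : G) : Equiv.Perm Ω) b = _
    rw [MulEquiv.symm_apply_apply]
    rfl
  · rintro ⟨h, rfl⟩
    exact ⟨e.symm h, rfl⟩

open scoped Classical in
/-- the orbit of `b` as a finset -/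
noncomputable def orb {G : Subgroup (Equiv.Perm Ω)} {a : Ω} (e : MulAction.stabilizer G a ≃* H0) (b : Ω) :
    Finset Ω := univ.filter fun x => ∃ h, actG e h b = x

theorem mem_orb {G : Subgroup (Equiv.Perm Ω)} {a : Ω} (e : MulAction.stabilizer G a ≃* H0) (b x : Ω) :
    x ∈ orb e b ↔ ∃ h, actG e h b = x := by simp [orb]

theorem card_orb {G : Subgroup (Equiv.Perm Ω)} {a : Ω} (e : MulAction.stabilizer G a ≃* H0) (b : Ω) :
    (orb e b).card = (MulAction.orbit (MulAction.stabilizer G a) b).ncard := by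
  rw [← Set.ncard_coe_finset]
  congr 1
  ext x
  rw [mem_coe, mem_orb, mem_orbit_iff e]

theorem orb_inv {G : Subgroup (Equiv.Perm Ω)} {a : Ω} (e : MulAction.stabilizer G a ≃* H0) (b : Ω)
    (h : H0) (x : Ω) (hx : x ∈ orb e b) : actG e h x ∈ orb e b := by
  rw [mem_orb] at hx ⊢
  obtain ⟨k, rfl⟩ := hx
  exact ⟨h * k, by rw [map_mul, Equiv.Perm.mul_apply]⟩

theorem orb_trans {G : Subgroup (Equiv.Perm Ω)} {a : Ω} (e : MulAction.stabilizer G a ≃* H0) (b : Ω)
    (x y : Ω) (hx : x ∈ orb e b) (hy : y ∈ orb e b) : ∃ h, actG e h x = y := by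
  rw [mem_orb] at hx hy
  obtain ⟨k, rfl⟩ := hx
  obtain ⟨l, rfl⟩ := hy
  exact ⟨l * k⁻¹, by rw [map_mul, Equiv.Perm.mul_apply, map_inv, Equiv.Perm.coe_inv, Equiv.symm_apply_apply]⟩

theorem orb_eq_of_mem {G : Subgroup (Equiv.Perm Ω)} {a : Ω} (e : MulAction.stabilizer G a ≃* H0) (b c : Ω)
    (h : c ∈ orb e b) : orb e b = orb e c := by
  have hsub : ∀ b c, c ∈ orb e b → orb e c ⊆ orb e b := by
    intro b c h x hx
    rw [mem_orb] at h hx ⊢
    obtain ⟨k, rfl⟩ := h
    obtain ⟨l, rfl⟩ := hx
    exact ⟨l * k, by rw [map_mul, Equiv.Perm.mul_apply]⟩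
  apply Finset.Subset.antisymm
  · apply hsub
    rw [mem_orb] at h ⊢
    obtain ⟨k, rfl⟩ := h
    exact ⟨k⁻¹, by rw [map_inv, Equiv.Perm.coe_inv, Equiv.symm_apply_apply]⟩
  · exact hsub b c h

theorem orb_self {G : Subgroup (Equiv.Perm Ω)} {a : Ω} (e : MulAction.stabilizer G a ≃* H0) (b : Ω) :
    b ∈ orb e b := by rw [mem_orb]; exact ⟨1, by rw [map_one]; rfl⟩

theorem orb_base {G : Subgroup (Equiv.Perm Ω)} {a : Ω} (e : MulAction.stabilizer G a ≃* H0) :
    orb e a = {a} := by
  ext x
  rw [mem_orb, mem_singleton]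
  constructor
  · rintro ⟨h, rfl⟩; exact actG_fix e h
  · rintro rfl; exact ⟨1, by rw [map_one]; rfl⟩

/-- the configuration -/
noncomputable def conf (hΩ : Fintype.card Ω = 4060) (G : Subgroup (Equiv.Perm Ω))
    [MulAction.IsPretransitive G Ω] (a : Ω) (e : MulAction.stabilizer G a ≃* H0) (b c : Ω)
    (hb : (orb e b).card = 1755) (hc : (orb e c).card = 2304) : Conf Ω H0 where
  G := G
  α := a
  act := actG e
  Δ := orb e c
  Λ := orb e b
  trans := fun x y => by
    obtain ⟨g, hg⟩ := MulAction.exists_smul_eq G x y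
    exact ⟨g, g.2, hg⟩
  act_mem := actG_mem e
  act_fix := actG_fix e
  act_surj := actG_surj e
  hΔ := fun h x hx => orb_inv e c h x hx
  hΛ := fun h x hx => orb_inv e b h x hx
  tΔ := fun x hx y hy => orb_trans e c x y hx hy
  tΛ := fun x hx y hy => orb_trans e b x y hx hy
  cover := by
    have h1 : Disjoint (orb e b) (orb e c) := by
      rw [Finset.disjoint_left]
      intro x hx hx'
      have e1 := orb_eq_of_mem e b x hx
      have e2 := orb_eq_of_mem e c x hx'
      rw [e1, ← e2, hc] at hb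
      norm_num at hb
    have h2 : Disjoint {a} (orb e b ∪ orb e c) := by
      rw [Finset.disjoint_singleton_left, mem_union, not_or]
      constructor
      · intro h
        have e1 := orb_eq_of_mem e b a h
        rw [e1, orb_base, card_singleton] at hb
        norm_num at hb
      · intro h
        have e1 := orb_eq_of_mem e c a h
        rw [e1, orb_base, card_singleton] at hc
        norm_num at hc
    have h3 : ({a} ∪ (orb e b ∪ orb e c) : Finset Ω) = univ := by
      rw [← card_eq_iff_eq_univ, card_union_of_disjoint h2, card_union_of_disjoint h1, hb, hc, hΩ, card_singleton]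
    intro x
    have h4 : x ∈ ({a} ∪ (orb e b ∪ orb e c) : Finset Ω) := by rw [h3]; exact mem_univ _
    rw [mem_union, mem_union, mem_singleton] at h4
    rcases h4 with h4 | h4 | h4
    · exact Or.inl h4
    · exact Or.inr (Or.inr h4)
    · exact Or.inr (Or.inl h4)
  αΔ := by
    intro h
    have e1 := orb_eq_of_mem e c a h
    rw [e1, orb_base, card_singleton] at hc
    norm_num at hc
  αΛ := by
    intro h
    have e1 := orb_eq_of_mem e b a h
    rw [e1, orb_base, card_singleton] at hb
    norm_num at hb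
  disj := by
    rw [Finset.disjoint_left]
    intro x hx hx'
    have e1 := orb_eq_of_mem e c x hx
    have e2 := orb_eq_of_mem e b x hx'
    rw [e1, ← e2, hb] at hc
    norm_num at hc
  neΔ := ⟨c, orb_self e c⟩
  neΛ := ⟨b, orb_self e b⟩
  card_ne := by rw [hb, hc]; norm_num

/-- the part `Λ` is the octagon -/
theorem exists_ymap {C : Conf Ω H0} (hΛ : C.Λ.card = 1755) : Nonempty (YMap C ρ) := by
  classical
  obtain ⟨b, hb⟩ := C.neΛ
  set P : Subgroup H0 := (MulAction.stabilizer (Equiv.Perm Ω) b).comap C.act with hP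
  have hmem : ∀ h, h ∈ P ↔ C.act h b = b := fun h => Iff.rfl
  have hidx : P.index = 1755 := by
    let _ : MulAction H0 Ω := MulAction.compHom _ C.act
    have h1 := MulAction.index_stabilizer H0 b
    have h2 : MulAction.orbit H0 b = (C.Λ : Set Ω) := by
      ext x
      constructor
      · rintro ⟨h, rfl⟩; exact C.hΛ h b hb
      · intro hx
        obtain ⟨h, hh⟩ := C.tΛ b hb x hx
        exact ⟨h, hh⟩
    rw [h2, Set.ncard_coe_finset, hΛ] at h1
    exact h1
  obtain ⟨y, hy⟩ := point P hidx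
  have hst : ∀ h, ρ h y = y ↔ C.act h b = b := by
    intro h
    rw [← hmem, hy]
    exact Iff.rfl
  choose t ht using fun z => trans y z
  have key : ∀ h k, ρ h y = ρ k y ↔ C.act h b = C.act k b := by
    intro h k
    have := hst (k⁻¹ * h)
    rw [map_mul, map_mul, Equiv.Perm.mul_apply, Equiv.Perm.mul_apply, map_inv, map_inv,
      Equiv.Perm.inv_eq_iff_eq, Equiv.Perm.inv_eq_iff_eq] at this
    constructor
    · intro h1; exact (this.1 h1)
    · intro h1; exact (this.2 h1)
  refine ⟨⟨fun z => C.act (t z) b, ?_, fun z => C.hΛ _ _ hb, ?_, ?_⟩⟩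
  · intro z w hzw
    have := (key _ _).2 hzw
    rwa [ht, ht] at this
  · intro x hx
    obtain ⟨h, hh⟩ := C.tΛ b hb x hx
    refine ⟨ρ h y, ?_⟩
    rw [← hh]
    apply (key _ _).1
    rw [ht]
  · intro h z
    show C.act (t (ρ h z)) b = C.act h (C.act (t z) b)
    rw [← Equiv.Perm.mul_apply, ← map_mul]
    apply (key _ _).1
    rw [ht, map_mul, Equiv.Perm.mul_apply, ht]

end Cfsg.Agent.SporRec.Ru.Setup
end

-- part: SporRec/Ru/RankThree
section
/-! A rank three group as in S1669 is isomorphic with the automorphism group of the Rudvalis graph. -/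

set_option autoImplicit false
set_option maxRecDepth 4000
set_option linter.unusedSectionVars false

namespace Cfsg.Agent.SporRec.Ru.RankThree

open Finset Cfsg.Agent.SporRec.R3.Config Cfsg.Agent.SporRec.R3.YPart
open Cfsg.Agent.SporRec.Ru.Rep Cfsg.Agent.SporRec.Ru.Lift Cfsg.Agent.SporRec.Ru.Unique
open Cfsg.Agent.SporRec.Ru.Setup
open Cfsg.Agent.ChevalleyStructure.Tits.Mat Cfsg.Agent.ChevalleyStructure.Tits.Order
open Cfsg.Agent.SporadicB.RuData Cfsg.Agent.Lib.BitNet

open scoped MatrixGroups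

variable {Ω : Type*} [Fintype Ω] [DecidableEq Ω]

/-- the transported group preserves the Rudvalis graph -/
theorem conj_mem {C : Conf Ω H0} (hΔ : C.Δ.card = 2304) (hΩ : Fintype.card Ω = 4060) (M : YMap C ρ)
    (Θ : Fin 4060 ≃ Ω) (hΘ : ∀ u, Θ u = theta hΔ hΩ M u) (g : Equiv.Perm Ω) (hg : g ∈ C.G) :
    Θ.symm.permCongr g ∈ Aut 4060 row := by
  rw [mem_Aut]
  intro u v
  have key : ort (Θ.symm.permCongr g u) (Θ.symm.permCongr g v) ↔ ort u v := by
    by_cases h : u = v
    · subst h
      exact ⟨fun h => absurd h (ort_irrefl _), fun h => absurd h (ort_irrefl _)⟩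
    · have h2 : Θ.symm.permCongr g u ≠ Θ.symm.permCongr g v := fun h' => h ((Θ.symm.permCongr g).injective h')
      have h3 := adj_theta hΔ hΩ M u v h
      have h4 := adj_theta hΔ hΩ M _ _ h2
      rw [← hΘ, ← hΘ] at h3 h4
      have e : ∀ w, Θ (Θ.symm.permCongr g w) = g (Θ w) := by
        intro w
        rw [Equiv.permCongr_apply]; simp
      rw [e, e, C.adj_smul hg] at h4
      rw [h3] at h4
      exact (not_iff_not.1 h4).symm
  unfold ort at key
  exact Bool.eq_iff_iff.2 key

theorem aux (hΩ : Fintype.card Ω = 4060) (G : Subgroup (Equiv.Perm Ω))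
    [MulAction.IsPretransitive G Ω] (a : Ω) (e : MulAction.stabilizer G a ≃* H0) (b c : Ω)
    (hb : (MulAction.orbit (MulAction.stabilizer G a) b).ncard = 1755)
    (hc : (MulAction.orbit (MulAction.stabilizer G a) c).ncard = 2304) :
    Nonempty (G ≃* Cfsg.Agent.SporadicB.RuOrder.H) := by
  have hb' : (orb e b).card = 1755 := by rw [card_orb, hb]
  have hc' : (orb e c).card = 2304 := by rw [card_orb, hc]
  set C := conf hΩ G a e b c hb' hc' with hC
  have hΔ : C.Δ.card = 2304 := hc'
  obtain ⟨M⟩ : Nonempty (YMap C ρ) := exists_ymap hb'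
  set Θ : Fin 4060 ≃ Ω := Equiv.ofBijective _ (theta_bij hΔ hΩ M) with hΘ
  have hmem : ∀ g : G, (Θ.symm.permCongrHom.toMonoidHom.comp G.subtype) g ∈ Cfsg.Agent.SporadicB.RuOrder.H :=
    fun g => conj_mem hΔ hΩ M Θ (fun u => rfl) g.1 g.2
  set φ : G →* Cfsg.Agent.SporadicB.RuOrder.H :=
    (Θ.symm.permCongrHom.toMonoidHom.comp G.subtype).codRestrict _ hmem with hφ
  have hinj : Function.Injective φ := by
    intro g k h
    have h1 := congrArg Subtype.val h
    apply Subtype.ext
    exact Θ.symm.permCongrHom.injective h1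
  have hcG : Nat.card G = 145926144000 := by
    have h1 := Subgroup.card_mul_index (MulAction.stabilizer G a)
    rw [MulAction.index_stabilizer_of_transitive, Nat.card_eq_fintype_card (α := Ω), hΩ,
      Nat.card_congr e.toEquiv, card_H0] at h1
    omega
  have hbij : Function.Bijective φ := by
    rw [Nat.bijective_iff_injective_and_card]
    exact ⟨hinj, by rw [hcG, Cfsg.Agent.SporadicB.RuOrder.card_H]⟩
  exact ⟨MulEquiv.ofBijective φ hbij⟩

/-- main theorem for subgroups equal to `H0` -/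
theorem aux2 (K : Subgroup (GL I52 (ZMod 2))) (hK : K = H0) (hΩ : Fintype.card Ω = 4060)
    (G : Subgroup (Equiv.Perm Ω)) [MulAction.IsPretransitive G Ω] (a : Ω)
    (e : MulAction.stabilizer G a ≃* K) (b c : Ω)
    (hb : (MulAction.orbit (MulAction.stabilizer G a) b).ncard = 1755)
    (hc : (MulAction.orbit (MulAction.stabilizer G a) c).ncard = 2304) :
    Nonempty (G ≃* Cfsg.Agent.SporadicB.RuOrder.H) := by
  subst hK
  exact aux hΩ G a e b c hb hc

/-- A transitive group on 4060 points with point stabiliser `²F₄(2)` and suborbits 1755 and 2304 is isomorphic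
with the automorphism group of the Rudvalis graph. -/
theorem main (hΩ : Fintype.card Ω = 4060) (G : Subgroup (Equiv.Perm Ω)) [MulAction.IsPretransitive G Ω] (a : Ω)
    (e : MulAction.stabilizer G a ≃* Cfsg.Lie.twistedF4 (ZMod 2) 1) (b c : Ω)
    (hb : (MulAction.orbit (MulAction.stabilizer G a) b).ncard = 1755)
    (hc : (MulAction.orbit (MulAction.stabilizer G a) c).ncard = 2304) :
    Nonempty (G ≃* Cfsg.Agent.SporadicB.RuOrder.H) :=
  aux2 (Cfsg.Lie.twistedF4 (ZMod 2) 1) Cfsg.Agent.ChevalleyStructure.Tits.Main.T0_eq_H0 hΩ G a e b c hb hc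

end Cfsg.Agent.SporRec.Ru.RankThree
end

-- part: S1669
section
set_option autoImplicit false
open Cfsg

namespace Cfsg.Agent.S1669

/-- Recognition of the Rudvalis group as a rank 3 permutation group: a transitive permutation group on 4060 points in which the stabiliser of a point is isomorphic to the Ree group ²F₄(2) and has two further orbits, of sizes 1755 and 2304, is isomorphic to the Rudvalis group. -/
theorem result {Ω : Type*} [Fintype Ω] [DecidableEq Ω] (hΩ : Fintype.card Ω = 4060) (G : Subgroup (Equiv.Perm Ω)) [MulAction.IsPretransitive G Ω] (a : Ω)  (e : MulAction.stabilizer G a ≃* Cfsg.Lie.twistedF4 (ZMod 2) 1) (b c : Ω) (hb : (MulAction.orbit (MulAction.stabilizer G a) b).ncard = 1755) (hc : (MulAction.orbit (MulAction.stabilizer G a) c).ncard = 2304) : Cfsg.Spor.IsoRu G := by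
  obtain ⟨φ⟩ := Cfsg.Agent.SporRec.Ru.RankThree.main hΩ G a e b c hb hc
  exact ⟨φ.trans Cfsg.Agent.RuLat.Main.equiv.symm⟩

end Cfsg.Agent.S1669
end
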