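import Cfsg.Statements.S1717
import Cfsg.Agent.SporadicRecognition.TransvectionCentralizer
set_option linter.all false

set_option autoImplicit false
open Cfsg

namespace Cfsg.Agent.S1717

/-- Let G be a finite group with an involution z whose centraliser C is isomorphic to the centraliser of a transvection of SL(5, 2). Then a Sylow 2-subgroup of C, viewed in G, is a Sylow 2-subgroup of G (its index in G is odd). -/
theorem result {G : Type*} [Group G] [Finite G] (s : Matrix.SpecialLinearGroup (Fin 5) (ZMod 2)) (hs : (s : Matrix (Fin 5) (Fin 5) (ZMod 2)) = Matrix.transvection 0 1 1) (z : G) (hz : orderOf z = 2) (e : (Subgroup.centralizer ({z} : Set G)) ≃* Subgroup.centralizer ({s} : Set (Matrix.SpecialLinearGroup (Fin 5) (ZMod 2)))) (T : Sylow 2 (Subgroup.centralizer ({z} : Set G))) : ¬ 2 ∣ ((T : Subgroup (Subgroup.centralizer ({z} : Set G))).map (Subgroup.subtype (Subgroup.centralizer ({z} : Set G)))).index := by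
  have hzC : z ∈ Subgroup.centralizer ({z} : Set G) := by
    rw [Subgroup.mem_centralizer_singleton_iff]
  have hmap := SporadicRecognition.TransvectionCentralizer.map_z hs z hz e hzC
  have hQle := SporadicRecognition.TransvectionCentralizer.Qgrp_le_centralizer hs
  refine SporadicRecognition.TransvectionCentralizer.sylow_of_centralizer_le z _ rfl
    ((SporadicRecognition.TransvectionCentralizer.Qgrp.subgroupOf
      (Subgroup.centralizer ({s} : Set (Matrix.SpecialLinearGroup (Fin 5) (ZMod 2))))).comap
      e.toMonoidHom) ?_ ?_ ?_ T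
  · intro g
    refine ⟨2, ?_⟩
    apply Subtype.ext
    have h1 : ((e (g : Subgroup.centralizer ({z} : Set G)) :
        Subgroup.centralizer ({s} : Set (Matrix.SpecialLinearGroup (Fin 5) (ZMod 2)))) :
        Matrix.SpecialLinearGroup (Fin 5) (ZMod 2)) ∈
        SporadicRecognition.TransvectionCentralizer.Qgrp := g.2
    have h2 := SporadicRecognition.TransvectionCentralizer.Qgrp_pow_four h1
    have h3 : e (g : Subgroup.centralizer ({z} : Set G)) ^ 4 = 1 := Subtype.ext h2
    rw [← map_pow, MulEquiv.map_eq_one_iff] at h3
    exact h3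
  · refine ⟨⟨z, hzC⟩, ?_, rfl⟩
    show ((e ⟨z, hzC⟩ : _) : Matrix.SpecialLinearGroup (Fin 5) (ZMod 2)) ∈
      SporadicRecognition.TransvectionCentralizer.Qgrp
    rw [hmap]
    exact SporadicRecognition.TransvectionCentralizer.s_mem_Qgrp hs
  · intro x hx
    rcases SporadicRecognition.TransvectionCentralizer.eq_one_or_eq_of_commute (x := ((e x : _) :
      Matrix.SpecialLinearGroup (Fin 5) (ZMod 2))) hs (by
      intro y hy
      have h1 := hx (e.symm ⟨y, hQle hy⟩) (by
        show ((e (e.symm ⟨y, hQle hy⟩) : _) : Matrix.SpecialLinearGroup (Fin 5) (ZMod 2)) ∈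
          SporadicRecognition.TransvectionCentralizer.Qgrp
        rw [MulEquiv.apply_symm_apply]
        exact hy)
      have h2 := congrArg e h1
      rw [map_mul, map_mul, MulEquiv.apply_symm_apply] at h2
      exact congrArg Subtype.val h2) with h | h
    · left
      have h1 : e x = 1 := Subtype.ext h
      rw [MulEquiv.map_eq_one_iff] at h1
      rw [h1]; rfl
    · right
      have h1 : e x = e ⟨z, hzC⟩ := Subtype.ext (h.trans hmap.symm)
      rw [e.injective h1]

end Cfsg.Agent.S1717
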