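import Cfsg.Statements.S1753
set_option linter.all false
-- import your own Cfsg.Agent.* helpers here

set_option autoImplicit false
universe u
open Cfsg

namespace Cfsg.Agent.S1753

/-- If all finite nonabelian simple groups of order less than `|G|` satisfy `K`, then `G` is `K`-proper. -/
theorem isKProperWith_of_lt (K : ∀ (X : Type u) [Group X], Prop) (G : Type u) [Group G] [Finite G]
    (h : ∀ (X : Type u) [Group X] [Finite X],
      IsSimpleGroup X → ¬ IsMulCommutative X → Nat.card X < Nat.card G → K X) :
    Cfsg.IsKProperWith K G := by
  intro H hH L N _ hs hc
  have h1 : Nat.card (L ⧸ N) ≤ Nat.card L := by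
    have := Subgroup.card_eq_card_quotient_mul_card_subgroup N
    rw [this]
    exact Nat.le_mul_of_pos_right _ Nat.card_pos
  have h2 : Nat.card L ≤ Nat.card H := Nat.card_le_card_of_injective _ Subtype.val_injective
  have h3 : Nat.card H < Nat.card G := by
    have hle : Nat.card H ≤ Nat.card G := Nat.card_le_card_of_injective _ Subtype.val_injective
    refine lt_of_le_of_ne hle ?_
    intro heq
    exact hH (Subgroup.eq_top_of_card_eq H heq)
  exact h _ hs hc (lt_of_le_of_lt (h1.trans h2) h3)

/-- Let K be any property of groups. (1) If G is a minimal counterexample relative to K — a finite non-abelian simple group not satisfying K such that every finite non-abelian simple group of smaller order satisfies K — then every proper subgroup of G is a K-group (all its non-abelian simple sections satisfy K), since such sections have smaller order than G. (2) Consequently (induction on the order), if every finite non-abelian simple group all of whose proper subgroups are K-groups satisfies K, then every finite non-abelian simple group satisfies K. -/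
theorem result (K : ∀ (X : Type u) [Group X], Prop) :
    (∀ (G : Type u) [Group G], Cfsg.IsMinCounterexampleWith K G → Cfsg.IsKProperWith K G) ∧
      ((∀ (X : Type u) [Group X] [Finite X], IsSimpleGroup X → ¬ IsMulCommutative X → Cfsg.IsKProperWith K X → K X) →
        ∀ (G : Type u) [Group G] [Finite G], IsSimpleGroup G → ¬ IsMulCommutative G → K G) := by
  constructor
  · intro G _ hG
    obtain ⟨hfin, _, _, _, h⟩ := hG
    exact isKProperWith_of_lt K G h
  · intro hK
    have key : ∀ (n : ℕ) (G : Type u) [Group G] [Finite G], Nat.card G = n →
        IsSimpleGroup G → ¬ IsMulCommutative G → K G := by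
      intro n
      induction n using Nat.strong_induction_on with
      | _ n ih =>
        intro G _ _ hn hs hc
        refine hK G hs hc (isKProperWith_of_lt K G ?_)
        intro X _ _ hXs hXc hlt
        exact ih (Nat.card X) (hn ▸ hlt) X rfl hXs hXc
    intro G _ _ hs hc
    exact key (Nat.card G) G rfl hs hc

end Cfsg.Agent.S1753
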