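import Cfsg.Statements.S1756
import Cfsg.Agent.ClassificationK.Extraspecial
set_option linter.all false

set_option autoImplicit false
open Cfsg

namespace Cfsg.Agent.S1756

/-- The core computation: `σ` an automorphism of order two of `Q` fixing pointwise a set `C` of index
two, all squares central, centre inside `C`. Then `σ q * q⁻¹` is central. -/
theorem aux {Q : Type*} [Group Q] (hsq : ∀ q : Q, q * q ∈ Subgroup.center Q)
    (σ : Q →* Q) (hσσ : ∀ q, σ (σ q) = q) (C : Subgroup Q) (hC : ∀ q, q ∈ C ↔ σ q = q)
    (hCi : C.index = 2) (hZ : Subgroup.center Q ≤ C) (q : Q) :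
    σ q * q⁻¹ ∈ Subgroup.center Q := by
  by_cases hq : q ∈ C
  · rw [(hC q).mp hq, mul_inv_cancel]
    exact Subgroup.one_mem _
  · have hq' : σ q ∉ C := by
      intro h
      apply hq
      rw [hC]
      have := (hC _).mp h
      rw [hσσ] at this
      exact this.symm
    have hCn : C.Normal := Subgroup.normal_of_index_eq_two hCi
    set u : Q := q⁻¹ * σ q with hu
    have hσq : σ q = q * u := by rw [hu]; group
    have huC : u ∈ C := by
      rw [hu, Subgroup.mul_mem_iff_of_index_two hCi]
      rw [Subgroup.inv_mem_iff]
      tauto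
    have hσu : σ u = u := (hC u).mp huC
    have huu : u * u = 1 := by
      have h1 : σ (σ q) = q := hσσ q
      rw [hσq, map_mul, hσq, hσu] at h1
      calc u * u = q⁻¹ * (q * u * u) := by group
        _ = 1 := by rw [h1]; group
    have huC' : ∀ c ∈ C, u * c = c * u := by
      intro c hc
      have h1 : q * c * q⁻¹ ∈ C := hCn.conj_mem c hc q
      have h2 : σ (q * c * q⁻¹) = q * c * q⁻¹ := (hC _).mp h1
      rw [map_mul, map_mul, map_inv, (hC c).mp hc, hσq] at h2
      calc u * c = q⁻¹ * (q * u * c * (q * u)⁻¹) * (q * u) := by group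
        _ = q⁻¹ * (q * c * q⁻¹) * (q * u) := by rw [h2]
        _ = c * u := by group
    have huq : u * q = q * u := by
      have h1 : σ (q * q) = q * q := (hC _).mp (hZ (hsq q))
      rw [map_mul, hσq] at h1
      have h2 : u * q * u = q := by
        calc u * q * u = q⁻¹ * (q * u * (q * u)) := by group
          _ = q := by rw [h1]; group
      calc u * q = (u * q * u) * u⁻¹ := by group
        _ = q * u⁻¹ := by rw [h2]
        _ = q * u := by
          congr 1
          exact inv_eq_of_mul_eq_one_left huu
    have hucen : u ∈ Subgroup.center Q := by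
      rw [Subgroup.mem_center_iff]
      intro r
      by_cases hr : r ∈ C
      · exact (huC' r hr).symm
      · have h1 : q⁻¹ * r ∈ C := by
          rw [Subgroup.mul_mem_iff_of_index_two hCi, Subgroup.inv_mem_iff]
          tauto
        have h2 := huC' _ h1
        calc r * u = q * ((q⁻¹ * r) * u) := by group
          _ = q * (u * (q⁻¹ * r)) := by rw [h2]
          _ = (q * u) * (q⁻¹ * r) := by group
          _ = (u * q) * (q⁻¹ * r) := by rw [huq]
          _ = u * r := by group
    have : σ q * q⁻¹ = u := by
      rw [hσq, ← huq]; group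
    rw [this]
    exact hucen

/-- Let Q be an extraspecial 2-subgroup of the finite group G (special with centre of order 2) and t an involution of G normalizing Q such that the centralizer of t in Q has index at most 2 in Q. Then t lies in the product of Q with the centralizer of Q. -/
theorem result {G : Type*} [Group G] [Finite G] (Q : Subgroup G)
    (hQ : Cfsg.IsExtraspecial 2 ↥Q) (t : G) (ht : orderOf t = 2) (htN : t ∈ Subgroup.normalizer (Q : Set G))
    (hi : (Subgroup.centralizer ({t} : Set G) ⊓ Q).relIndex Q ≤ 2) :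
    t ∈ Q ⊔ Subgroup.centralizer (Q : Set G) := by
  classical
  obtain ⟨⟨_, _, hcomm⟩, hcard⟩ := hQ
  have htt : t * t = 1 := by
    have := pow_orderOf_eq_one t
    rw [ht, pow_two] at this
    exact this
  -- the subgroup `C` of fixed points, inside `Q`
  set C : Subgroup Q := (Subgroup.centralizer ({t} : Set G) ⊓ Q).subgroupOf Q with hCdef
  have hCmem : ∀ q : Q, q ∈ C ↔ t * q.1 * t⁻¹ = q.1 := by
    intro q
    rw [hCdef, Subgroup.mem_subgroupOf, Subgroup.mem_inf, Subgroup.mem_centralizer_singleton_iff]
    constructor
    · rintro ⟨h, _⟩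
      rw [← h]; group
    · intro h
      refine ⟨?_, q.2⟩
      calc q.1 * t = (t * q.1 * t⁻¹) * t := by rw [h]
        _ = t * q.1 := by group
  have hmem : ∀ q ∈ Q, t * q * t⁻¹ ∈ Q := fun q hq =>
    (Subgroup.mem_normalizer_iff.mp htN q).mp hq
  have hidx : C.index ≤ 2 := hi
  have hidx0 : C.index ≠ 0 := Subgroup.index_ne_zero_of_finite
  rcases (by omega : C.index = 1 ∨ C.index = 2) with h1 | h2
  · -- `t` centralizes `Q`
    apply Subgroup.mem_sup_right
    rw [Subgroup.mem_centralizer_iff]
    intro q hq
    have hCtop : C = ⊤ := Subgroup.index_eq_one.mp h1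
    have : (⟨q, hq⟩ : Q) ∈ C := by rw [hCtop]; exact Subgroup.mem_top _
    have h3 := (hCmem _).mp this
    calc q * t = (t * q * t⁻¹) * t := by rw [h3]
      _ = t * q := by group
  · let σ : Q →* Q :=
      { toFun := fun q => ⟨t * q.1 * t⁻¹, hmem q.1 q.2⟩
        map_one' := by apply Subtype.ext; simp
        map_mul' := fun q r => by
          apply Subtype.ext
          show t * (q.1 * r.1) * t⁻¹ = (t * q.1 * t⁻¹) * (t * r.1 * t⁻¹)
          group }
    have hσ : ∀ q : Q, (σ q : G) = t * q.1 * t⁻¹ := fun q => rfl
    have hσσ : ∀ q, σ (σ q) = q := by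
      intro q
      apply Subtype.ext
      rw [hσ, hσ]
      have ht' : t⁻¹ = t := inv_eq_of_mul_eq_one_left htt
      calc t * (t * q.1 * t⁻¹) * t⁻¹ = (t * t) * q.1 * (t * t)⁻¹ := by group
        _ = q.1 := by rw [htt]; group
    have hC : ∀ q, q ∈ C ↔ σ q = q := by
      intro q
      rw [hCmem, Subtype.ext_iff, hσ]
    -- elements of the centre are fixed
    have hZ : Subgroup.center Q ≤ C := by
      intro z hz
      rw [hC]
      have hσz : σ z ∈ Subgroup.center Q := by
        rw [Subgroup.mem_center_iff]
        intro r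
        have h3 := Subgroup.mem_center_iff.mp hz (σ r)
        have h4 : σ (σ r * z) = σ (z * σ r) := by rw [h3]
        rw [map_mul, map_mul, hσσ] at h4
        exact h4
      -- two elements only
      by_cases hz1 : z = 1
      · rw [hz1, map_one]
      · have hσz1 : σ z ≠ 1 := by
          intro h
          apply hz1
          rw [← hσσ z, h, map_one]
        by_contra hne
        have hcard' : Nat.card (Subgroup.center Q) = 2 := hcard
        rw [Nat.card_eq_two_iff] at hcard'
        obtain ⟨a, b, hab, huniv⟩ := hcard'
        have hall : ∀ w : Subgroup.center Q, w = a ∨ w = b := by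
          intro w
          have : w ∈ ({a, b} : Set (Subgroup.center Q)) := by rw [huniv]; exact Set.mem_univ _
          simpa using this
        have e1 := hall 1
        have e2 := hall ⟨z, hz⟩
        have e3 := hall ⟨σ z, hσz⟩
        have n1 : (⟨z, hz⟩ : Subgroup.center Q) ≠ 1 := fun h => hz1 (congrArg Subtype.val h)
        have n2 : (⟨σ z, hσz⟩ : Subgroup.center Q) ≠ 1 := fun h => hσz1 (congrArg Subtype.val h)
        have n3 : (⟨σ z, hσz⟩ : Subgroup.center Q) ≠ ⟨z, hz⟩ := fun h => hne (congrArg Subtype.val h)
        rcases e1 with e1 | e1 <;> rcases e2 with e2 | e2 <;> rcases e3 with e3 | e3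
        all_goals first
          | exact n1 (e2.trans e1.symm)
          | exact n2 (e3.trans e1.symm)
          | exact n3 (e3.trans e2.symm)
    -- squares are central
    have hsq : ∀ q : Q, q * q ∈ Subgroup.center Q := by
      intro q
      rw [Subgroup.mem_center_iff]
      intro r
      open scoped commutatorElement in
      have hc : ⁅r, q⁆ ∈ Subgroup.center Q := by
        rw [← hcomm]
        exact Subgroup.commutator_mem_commutator (Subgroup.mem_top _) (Subgroup.mem_top _)
      have hc2 : (⁅r, q⁆ : Q) * ⁅r, q⁆ = 1 := by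
        have : (⟨⁅r, q⁆, hc⟩ : Subgroup.center Q) ^ 2 = 1 := by
          have h5 : Nat.card (Subgroup.center Q) = 2 := hcard
          rw [← h5]
          exact pow_card_eq_one'
        have := congrArg Subtype.val this
        rw [pow_two] at this
        exact this
      have hc3 : q * ⁅r, q⁆ = ⁅r, q⁆ * q := Subgroup.mem_center_iff.mp hc q
      calc r * (q * q) = ⁅r, q⁆ * (q * r) * q := by
            simp only [commutatorElement_def]; group
        _ = (⁅r, q⁆ * q) * (r * q) := by group
        _ = (q * ⁅r, q⁆) * (r * q) := by rw [hc3]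
        _ = q * ⁅r, q⁆ * (⁅r, q⁆ * (q * r)) := by
            congr 1
            simp only [commutatorElement_def]; group
        _ = q * (⁅r, q⁆ * ⁅r, q⁆) * (q * r) := by group
        _ = q * q * r := by rw [hc2]; group
    obtain ⟨x, hx⟩ := Cfsg.Agent.ClassificationK.Extraspecial.exists_inner hcomm Nat.prime_two hcard σ
      (aux hsq σ hσσ C hC h2 hZ)
    have hxt : x.1⁻¹ * t ∈ Subgroup.centralizer (Q : Set G) := by
      rw [Subgroup.mem_centralizer_iff]
      intro q hq
      have h3 := congrArg Subtype.val (hx ⟨q, hq⟩)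
      rw [hσ] at h3
      change t * q * t⁻¹ = x.1 * q * x.1⁻¹ at h3
      calc q * (x.1⁻¹ * t) = x.1⁻¹ * (x.1 * q * x.1⁻¹) * t := by group
        _ = x.1⁻¹ * (t * q * t⁻¹) * t := by rw [h3]
        _ = x.1⁻¹ * t * q := by group
    have : t = x.1 * (x.1⁻¹ * t) := by group
    rw [this]
    exact Subgroup.mul_mem_sup x.2 hxt

end Cfsg.Agent.S1756
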