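import Cfsg.Statements.S1775
import Cfsg.Agent.ClassificationK.PCompTransport
set_option linter.all false
-- import your own Cfsg.Agent.* helpers here

set_option autoImplicit false
open Cfsg

namespace Cfsg.Agent.S1775

open Subgroup Cfsg.Agent.ClassificationK.PCompTransport
open scoped commutatorElement IsMulCommutative

/-- The centralizer of an involution is proper when `F*(G)` is simple non-abelian. -/
theorem centralizer_ne_top {G : Type*} [Group G]
    (hF : IsSimpleGroup ↥(Cfsg.generalizedFittingSubgroup G))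
    (hF' : ¬ IsMulCommutative ↥(Cfsg.generalizedFittingSubgroup G)) (y : G) (hy : orderOf y = 2) :
    Subgroup.centralizer ({y} : Set G) ≠ ⊤ := by
  intro htop
  have hyc : ∀ g : G, g * y = y * g := by
    intro g
    have : g ∈ Subgroup.centralizer ({y} : Set G) := by rw [htop]; trivial
    exact Subgroup.mem_centralizer_singleton_iff.mp this
  have hyne : y ≠ 1 := by
    rintro rfl
    simp at hy
  have hnor : (Subgroup.zpowers y).Normal := by
    constructor
    rintro _ ⟨n, rfl⟩ g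
    have : g * y ^ n * g⁻¹ = y ^ n := by
      have h1 : Commute g (y ^ n) := Commute.zpow_right (hyc g) n
      rw [h1.eq, mul_inv_cancel_right]
    change g * y ^ n * g⁻¹ ∈ _
    rw [this]
    exact ⟨n, rfl⟩
  have hle : Subgroup.zpowers y ≤ Cfsg.generalizedFittingSubgroup G :=
    (Lib.Cores.le_fittingSubgroup hnor inferInstance).trans le_sup_right
  let z : ↥(Cfsg.generalizedFittingSubgroup G) := ⟨y, hle (Subgroup.mem_zpowers y)⟩
  have hzc : z ∈ Subgroup.center ↥(Cfsg.generalizedFittingSubgroup G) := by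
    rw [Subgroup.mem_center_iff]
    intro g
    exact Subtype.ext (hyc g)
  have hzne : z ≠ 1 := fun h => hyne (congrArg Subtype.val h)
  have hcen : Subgroup.center ↥(Cfsg.generalizedFittingSubgroup G) = ⊤ := by
    rcases (inferInstance : (Subgroup.center
      ↥(Cfsg.generalizedFittingSubgroup G)).Normal).eq_bot_or_eq_top with h | h
    · rw [h, Subgroup.mem_bot] at hzc
      exact absurd hzc hzne
    · exact h
  apply hF'
  refine ⟨⟨fun a b => ?_⟩⟩
  have ha : b ∈ Subgroup.center ↥(Cfsg.generalizedFittingSubgroup G) := by rw [hcen]; trivial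
  exact Subgroup.mem_center_iff.mp ha a

/-- Let G be a finite group whose generalized Fitting subgroup is a non-abelian simple group and in which every proper section (every quotient H/N of a proper subgroup H, or of G by a nontrivial normal subgroup) has the B-property. Let x, y be commuting involutions, let D be the intersection of the 2-layer of C_G(x) with C_G(y), and let J be a 2-component of D. Write Q for the quotient of C_G(y) by its largest normal odd-order subgroup. Then (i) the image of J in Q is a component of the centralizer in Q of the image of x; and (ii) for every J-invariant subgroup E of odd order of C_G(x) ∩ C_G(y), the commutator subgroup [J, E] lies in the largest normal odd-order subgroup of C_G(y). -/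
theorem result {G : Type*} [Group G] [Finite G]
    (hF : IsSimpleGroup ↥(Cfsg.generalizedFittingSubgroup G)) (hF' : ¬ IsMulCommutative ↥(Cfsg.generalizedFittingSubgroup G))
    (hsec : ∀ (H : Subgroup G) (N : Subgroup ↥H) [N.Normal], (H ≠ ⊤ ∨ N ≠ ⊥) → Cfsg.HasBProperty (↥H ⧸ N))
    (x y : G) (hx : orderOf x = 2) (hy : orderOf y = 2) (hxy : x * y = y * x)
    (J : Subgroup ↥((Cfsg.pLayer 2 ↥(Subgroup.centralizer ({x} : Set G))).map (Subgroup.centralizer ({x} : Set G)).subtype ⊓ Subgroup.centralizer ({y} : Set G)))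
    (hJ : Cfsg.IsPComponent 2 J) :
    Cfsg.IsComponent
        ((((J.map (Subgroup.subtype _)).subgroupOf (Subgroup.centralizer ({y} : Set G))).map (QuotientGroup.mk' (Cfsg.oddCore ↥(Subgroup.centralizer ({y} : Set G))))).subgroupOf
          (Subgroup.centralizer ({(QuotientGroup.mk' (Cfsg.oddCore ↥(Subgroup.centralizer ({y} : Set G))) ⟨x, Subgroup.mem_centralizer_singleton_iff.mpr hxy⟩ : ↥(Subgroup.centralizer ({y} : Set G)) ⧸ Cfsg.oddCore ↥(Subgroup.centralizer ({y} : Set G)))} : Set _))) ∧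
      ∀ E : Subgroup G, E ≤ Subgroup.centralizer ({x} : Set G) ⊓ Subgroup.centralizer ({y} : Set G) → Odd (Nat.card ↥E) →
        (∀ j ∈ J.map (Subgroup.subtype _), ∀ e ∈ E, j * e * j⁻¹ ∈ E) →
          ⁅J.map (Subgroup.subtype _), E⁆ ≤ (Cfsg.oddCore ↥(Subgroup.centralizer ({y} : Set G))).map (Subgroup.centralizer ({y} : Set G)).subtype := by
  classical
  -- abbreviations
  let Cx : Subgroup G := Subgroup.centralizer ({x} : Set G)
  let Cy : Subgroup G := Subgroup.centralizer ({y} : Set G)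
  let L : Subgroup G := (Cfsg.pLayer 2 ↥Cx).map Cx.subtype
  change Subgroup ↥(L ⊓ Cy) at J
  have hCyne : Cy ≠ ⊤ := centralizer_ne_top hF hF' y hy
  have hxCy : x ∈ Cy := Subgroup.mem_centralizer_singleton_iff.mpr hxy
  let Q := ↥Cy ⧸ Cfsg.oddCore ↥Cy
  let π : ↥Cy →* Q := QuotientGroup.mk' (Cfsg.oddCore ↥Cy)
  let xb : Q := π ⟨x, hxCy⟩
  have hxx : x * x = 1 := by
    have := pow_orderOf_eq_one x
    rwa [hx, pow_two] at this
  have hLCx : L ≤ Cx := Subgroup.map_subtype_le _
  -- the homomorphism `ψ` from `C(x) ∩ C(y)` onto `C_Q(x̄)`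
  let M : Subgroup G := Cx ⊓ Cy
  have hψmem : ∀ m : M, π (Subgroup.inclusion inf_le_right m) ∈
      Subgroup.centralizer ({xb} : Set Q) := by
    intro m
    rw [Subgroup.mem_centralizer_singleton_iff]
    change π _ * π _ = π _ * π _
    rw [← map_mul, ← map_mul]
    congr 1
    apply Subtype.ext
    exact Subgroup.mem_centralizer_singleton_iff.mp m.2.1
  let ψ : M →* ↥(Subgroup.centralizer ({xb} : Set Q)) :=
    (π.comp (Subgroup.inclusion inf_le_right)).codRestrict _ hψmem
  have hψ : ∀ m : M, ((ψ m : ↥(Subgroup.centralizer ({xb} : Set Q))) : Q) =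
      π (Subgroup.inclusion inf_le_right m) := fun m => rfl
  have hodd : (Nat.card (Cfsg.oddCore ↥Cy)).Coprime 2 := Lib.Cores.pPrimeCore_coprime 2
  have hψsurj : Function.Surjective ψ := by
    rintro ⟨q, hq⟩
    obtain ⟨c, rfl⟩ := QuotientGroup.mk'_surjective (Cfsg.oddCore ↥Cy) q
    rw [Subgroup.mem_centralizer_singleton_iff] at hq
    have h1 : c * ⟨x, hxCy⟩ * c⁻¹ * (⟨x, hxCy⟩ : ↥Cy)⁻¹ ∈ Cfsg.oddCore ↥Cy := by
      rw [← QuotientGroup.eq_one_iff]
      change π (c * ⟨x, hxCy⟩ * c⁻¹ * (⟨x, hxCy⟩ : ↥Cy)⁻¹) = 1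
      rw [map_mul, map_mul, map_mul, map_inv, map_inv]
      rw [mul_inv_eq_one, mul_inv_eq_iff_eq_mul]
      exact hq
    obtain ⟨v, hv, hvc⟩ := exists_mem_mul_commute (Cfsg.oddCore ↥Cy) hodd
      (⟨x, hxCy⟩ : ↥Cy) c (Subtype.ext hxx) h1
    refine ⟨⟨((v⁻¹ * c : ↥Cy) : G), ⟨?_, (v⁻¹ * c : ↥Cy).2⟩⟩, ?_⟩
    · exact Subgroup.mem_centralizer_singleton_iff.mpr (congrArg Subtype.val hvc)
    · apply Subtype.ext
      rw [hψ]
      change π (v⁻¹ * c) = π c
      rw [map_mul, map_inv]
      have : π v = 1 := (QuotientGroup.eq_one_iff v).mpr hv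
      rw [this, inv_one, one_mul]
  -- the inclusion of `D`
  have hDM : L ⊓ Cy ≤ M := inf_le_inf_right _ hLCx
  have hDnormal : ((L ⊓ Cy).subgroupOf M).Normal := by
    have hLn : (Cfsg.pLayer 2 ↥Cx).Normal := pLayer_normal 2
    constructor
    intro d hd m
    rw [Subgroup.mem_subgroupOf] at hd ⊢
    refine ⟨?_, (Cy.mul_mem (Cy.mul_mem m.2.2 hd.2) (Cy.inv_mem m.2.2))⟩
    obtain ⟨l, hl, hle⟩ := hd.1
    refine ⟨⟨(m : G), m.2.1⟩ * l * (⟨(m : G), m.2.1⟩ : ↥Cx)⁻¹, hLn.conj_mem l hl _, ?_⟩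
    simp only [map_mul, map_inv, hle]
    rfl
  let ι : ↥(L ⊓ Cy) →* M := Subgroup.inclusion hDM
  let φ : ↥(L ⊓ Cy) →* ↥(Subgroup.centralizer ({xb} : Set Q)) := ψ.comp ι
  have hφ : ∀ d : ↥(L ⊓ Cy), ((φ d : ↥(Subgroup.centralizer ({xb} : Set Q))) : Q) =
      π ⟨(d : G), d.2.2⟩ := fun d => rfl
  have hφrange : φ.range.IsSubnormal := by
    have h1 : φ.range = ((L ⊓ Cy).subgroupOf M).map ψ := by
      ext z
      constructor
      · rintro ⟨d, rfl⟩
        exact ⟨ι d, d.2, rfl⟩
      · rintro ⟨m, hm, rfl⟩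
        exact ⟨⟨(m : G), hm⟩, rfl⟩
    rw [h1]
    exact (hDnormal.map ψ hψsurj).isSubnormal
  have hφker : (Nat.card φ.ker).Coprime 2 := by
    have h1 : Nat.card φ.ker ∣ Nat.card (Cfsg.oddCore ↥Cy) := by
      refine Subgroup.card_dvd_of_injective
        (((Subgroup.inclusion (inf_le_right : L ⊓ Cy ≤ Cy)).comp φ.ker.subtype).codRestrict
          (Cfsg.oddCore ↥Cy) (fun d => ?_)) ?_
      · have h2 : φ (d : ↥(L ⊓ Cy)) = 1 := d.2
        have h3 : π ⟨((d : ↥(L ⊓ Cy)) : G), (d : ↥(L ⊓ Cy)).2.2⟩ = 1 := by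
          rw [← hφ, h2]
          rfl
        exact (QuotientGroup.eq_one_iff _).mp h3
      · intro a b hab
        have := congrArg (fun z : ↥(Cfsg.oddCore ↥Cy) => ((z : ↥Cy) : G)) hab
        exact Subtype.ext (Subtype.ext this)
    exact hodd.coprime_dvd_left h1
  have hK : Cfsg.IsPComponent 2 (J.map φ) := isPComponent_map 2 φ hφker hφrange hJ
  -- B-property of `Q`
  have hB : Cfsg.HasBProperty Q := hsec Cy (Cfsg.oddCore ↥Cy) (Or.inl hCyne)
  have hxb : orderOf xb = 2 := by
    apply orderOf_eq_prime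
    · change π ⟨x, hxCy⟩ ^ 2 = 1
      rw [← map_pow]
      have : (⟨x, hxCy⟩ : ↥Cy) ^ 2 = 1 := by
        apply Subtype.ext
        change x ^ 2 = 1
        rw [pow_two, hxx]
      rw [this, map_one]
    · intro h
      have h1 : (⟨x, hxCy⟩ : ↥Cy) ∈ Cfsg.oddCore ↥Cy := (QuotientGroup.eq_one_iff _).mp h
      have h2 : orderOf (⟨x, hxCy⟩ : ↥Cy) ∣ Nat.card (Cfsg.oddCore ↥Cy) :=
        Subgroup.orderOf_dvd_natCard _ h1
      rw [Subgroup.orderOf_mk, hx] at h2
      have h3 := Nat.coprime_two_right.mp hodd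
      exact (Nat.not_even_iff_odd.mpr h3) (even_iff_two_dvd.mpr h2)
  have hBx := hB xb hxb
  have hOQ : Cfsg.oddCore Q = ⊥ := Lib.Cores.pPrimeCore_quotient_pPrimeCore 2
  rw [hOQ, le_bot_iff, Subgroup.map_eq_bot_iff_of_injective _
    (Subgroup.subtype_injective _)] at hBx
  have hKc : ⁅J.map φ, Cfsg.pPrimeCore 2 ↥(Subgroup.centralizer ({xb} : Set Q))⁆ = ⊥ := by
    rw [eq_bot_iff, ← hBx]
    exact Subgroup.commutator_mono (le_sSup hK) le_rfl
  have hKcomp : Cfsg.IsComponent (J.map φ) := isComponent_of_isPComponent 2 hK hKc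
  refine ⟨?_, ?_⟩
  · have heq : ((((J.map (Subgroup.subtype _)).subgroupOf Cy).map π).subgroupOf
        (Subgroup.centralizer ({xb} : Set Q))) = J.map φ := by
      ext ⟨q, hq⟩
      constructor
      · rintro ⟨c, ⟨j, hj, hjc⟩, hcq⟩
        refine ⟨j, hj, ?_⟩
        apply Subtype.ext
        refine Eq.trans ?_ hcq
        have hjc' : (⟨(j : G), j.2.2⟩ : ↥Cy) = c := Subtype.ext hjc
        rw [hφ]
        exact congrArg π hjc'
      · rintro ⟨j, hj, hjq⟩
        refine ⟨⟨(j : G), j.2.2⟩, ⟨j, hj, rfl⟩, ?_⟩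
        have := congrArg Subtype.val hjq
        rw [hφ] at this
        exact this
    have := hKcomp
    rw [← heq] at this
    exact this
  · intro E hE hEodd hinv
    let E' : Subgroup ↥(Subgroup.centralizer ({xb} : Set Q)) := (E.subgroupOf M).map ψ
    have hE'odd : (Nat.card E').Coprime 2 := by
      have h1 : Nat.card E' ∣ Nat.card (E.subgroupOf M) := Subgroup.card_map_dvd _ _
      have h2 : Nat.card (E.subgroupOf M) = Nat.card E :=
        Nat.card_congr (Subgroup.subgroupOfEquivOfLe hE).toEquiv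
      rw [h2] at h1
      exact (Nat.coprime_two_right.mpr hEodd).coprime_dvd_left h1
    have hnorm : J.map φ ≤ Subgroup.normalizer (E' : Set _) := by
      have hconj : ∀ k ∈ J.map φ, ∀ e ∈ E', k * e * k⁻¹ ∈ E' := by
        rintro _ ⟨j, hj, rfl⟩ _ ⟨e, he, rfl⟩
        refine ⟨ι j * e * (ι j)⁻¹, ?_, ?_⟩
        · have := hinv (j : G) ⟨j, hj, rfl⟩ (e : G) he
          exact this
        · rw [map_mul, map_mul, map_inv]
          rfl
      intro k hk
      rw [Subgroup.mem_normalizer_iff]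
      intro e
      constructor
      · exact hconj k hk e
      · intro h
        have := hconj k⁻¹ ((J.map φ).inv_mem hk) _ h
        simpa [mul_assoc] using this
    have hcases := SignalizersComponents.Components.component_le_or_commutator_eq_bot_of_le_normalizer
      hKcomp hnorm
    have hcomm : ⁅J.map φ, E'⁆ = ⊥ := by
      rcases hcases with h | h
      · exfalso
        exact isPComponent_not_coprime 2 hK (hE'odd.coprime_dvd_left (Subgroup.card_dvd_of_le h))
      · exact h
    rw [Subgroup.commutator_le]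
    rintro _ ⟨j, hj, rfl⟩ e he
    have hjM : (j : G) ∈ M := hDM j.2
    have heM : e ∈ M := hE he
    have h1 : ⁅φ j, ψ ⟨e, heM⟩⁆ ∈ ⁅J.map φ, E'⁆ :=
      Subgroup.commutator_mem_commutator ⟨j, hj, rfl⟩ ⟨⟨e, heM⟩, he, rfl⟩
    rw [hcomm, Subgroup.mem_bot] at h1
    have h2 : π ⁅(⟨(j : G), hjM.2⟩ : ↥Cy), ⟨e, heM.2⟩⁆ = 1 := by
      rw [map_commutatorElement]
      exact congrArg Subtype.val h1
    exact ⟨_, (QuotientGroup.eq_one_iff _).mp h2, rfl⟩

end Cfsg.Agent.S1775
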