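import Cfsg.Statements.S1780
set_option linter.all false

set_option autoImplicit false
open Cfsg

namespace Cfsg.Agent.S1780

/-- Let A be a finite abelian 2-group and t an automorphism of A whose order is a power of 2. If every element of A fixed by t² is fixed by t, then t fixes every element of A. -/
theorem result {A : Type*} [CommGroup A] [Finite A]
    (hA : IsPGroup 2 A) (t : MulAut A) (ht : ∃ k : ℕ, orderOf t = 2 ^ k) (hC : ∀ a : A, t (t a) = a → t a = a) :
    ∀ a : A, t a = a := by
  -- the claim on elements of the range of `a ↦ t a / a`
  have key : ∀ n : ℕ, ∀ a : A, (t a / a) ^ 2 = 1 → (t ^ (2 ^ n)) (t a / a) = t a / a → t a / a = 1 := by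
    intro n
    induction n with
    | zero =>
      intro a h2 hfix
      have h1 : t (t a / a) = t a / a := by simpa using hfix
      have h3 : t (t a) = a := by
        have h4 : t (t a) = (t a / a) * t a := by
          rw [← h1, map_div]; simp
        rw [h4]
        have h5 : t a = (t a / a) * a := by simp
        calc (t a / a) * t a = (t a / a) * ((t a / a) * a) := by rw [← h5]
          _ = (t a / a) ^ 2 * a := by rw [← mul_assoc, sq]
          _ = a := by rw [h2, one_mul]
      rw [hC a h3, div_self']
    | succ n ih =>
      intro a h2 hfix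
      set s : MulAut A := t ^ (2 ^ n) with hs
      have hss : ∀ x : A, (t ^ (2 ^ (n + 1))) x = s (s x) := by
        intro x
        rw [hs, pow_succ, pow_mul, sq]
        rfl
      have hcomm : ∀ x : A, t (s x) = s (t x) := by
        intro x
        have : t * s = s * t := by rw [hs, (Commute.self_pow t _).eq]
        exact DFunLike.congr_fun this x
      -- c = s b / b = t (s a / a) / (s a / a)
      have hc : s (t a / a) / (t a / a) = t (s a / a) / (s a / a) := by
        rw [map_div, map_div, hcomm]
        rw [div_div_div_comm]
      have hc1 : t (s a / a) / (s a / a) = 1 := by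
        apply ih
        · rw [← hc, div_pow, ← map_pow, h2, map_one, div_one]
        · rw [← hc, map_div, ← hss, hfix]
          have h6 : (s (t a / a) / (t a / a)) ^ 2 = 1 := by
            rw [div_pow, ← map_pow, h2, map_one, div_one]
          have h7 : (s (t a / a) / (t a / a))⁻¹ = s (t a / a) / (t a / a) := by
            rw [inv_eq_iff_mul_eq_one, ← sq, h6]
          rw [← h7, inv_div]
      apply ih a h2
      rw [← div_eq_one, hc, hc1]
  obtain ⟨k, hk⟩ := ht
  have key2 : ∀ a : A, (t a / a) ^ 2 = 1 → t a / a = 1 := by
    intro a h2
    apply key k a h2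
    rw [← hk, pow_orderOf_eq_one]
    rfl
  have key3 : ∀ m : ℕ, ∀ a : A, (t a / a) ^ (2 ^ m) = 1 → t a / a = 1 := by
    intro m
    induction m with
    | zero => intro a h; simpa using h
    | succ m ih =>
      intro a h
      apply ih a
      have h1 : (t a / a) ^ (2 ^ m) = t (a ^ (2 ^ m)) / a ^ (2 ^ m) := by
        rw [div_pow, map_pow]
      rw [h1]
      apply key2
      rw [← h1, ← pow_mul, ← pow_succ, h]
  intro a
  obtain ⟨m, hm⟩ := hA (t a / a)
  exact div_eq_one.mp (key3 m a hm)

end Cfsg.Agent.S1780
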