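import Cfsg.Statements.S1781
import Cfsg.Agent.S1780
import Mathlib
set_option linter.all false

set_option autoImplicit false
open Cfsg

namespace Cfsg.Agent.S1781

open Subgroup

theorem mem_normalizer_iff_map_toMonoidHom {G : Type*} [Group G] (A : Subgroup G) (g : G) :
    g ∈ Subgroup.normalizer (A : Set G) ↔ A.map (MulAut.conj g).toMonoidHom = A :=
  Subgroup.mem_normalizer_iff_map_conj_eq

/-- Key step: if `t ∈ A` has `t ^ 2 ≠ 1` and normalizes `B`, then `t` centralizes `B` and `B` normalizes `A`. -/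
theorem aux {G : Type*} [Group G] [Finite G] (A B : Subgroup G)
    (hA2 : IsPGroup 2 ↥A) (hB2 : IsPGroup 2 ↥B) (hBa : IsMulCommutative ↥B)
    (hti : ∀ h : G, A.map (MulAut.conj h).toMonoidHom = A ∨ A.map (MulAut.conj h).toMonoidHom ⊓ A = ⊥)
    (hAB : A ⊓ B = ⊥) (t : G) (htA : t ∈ A) (htB : t ∈ Subgroup.normalizer (B : Set G)) (ht2 : t ^ 2 ≠ 1) :
    (∀ b ∈ B, t * b * t⁻¹ = b) ∧ B ≤ Subgroup.normalizer (A : Set G) := by
  -- an element commuting with a nontrivial element of `A` normalizes `A`
  have hcent : ∀ x ∈ A, x ≠ 1 → ∀ b : G, b * x = x * b → b ∈ Subgroup.normalizer (A : Set G) := by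
    intro x hx hx1 b hb
    rw [mem_normalizer_iff_map_toMonoidHom]
    rcases hti b with h | h
    · exact h
    · exfalso
      apply hx1
      have : x ∈ A.map (MulAut.conj b).toMonoidHom ⊓ A := by
        refine ⟨⟨x, hx, ?_⟩, hx⟩
        simp [hb]
      rw [h] at this
      exact this
  have h1 : ∀ b ∈ B, t * b * t⁻¹ = b := by
    letI : CommGroup ↥B := { (inferInstance : Group ↥B) with mul_comm := fun a b => mul_comm' a b }
    let τ : MulAut ↥B := B.normalizerMonoidHom ⟨t, htB⟩
    have hτ : ∀ b : ↥B, ((τ b : ↥B) : G) = t * (b : G) * t⁻¹ := fun b => rfl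
    have hτ2 : ∃ k : ℕ, orderOf τ = 2 ^ k := by
      obtain ⟨k, hk⟩ := hA2 ⟨t, htA⟩
      have hk' : t ^ (2 ^ k) = 1 := by
        have := congrArg (Subtype.val) hk
        simpa using this
      have h2 : orderOf τ ∣ 2 ^ k := by
        apply orderOf_dvd_of_pow_eq_one
        rw [← map_pow]
        have : (⟨t, htB⟩ : ↥(Subgroup.normalizer (B : Set G))) ^ (2 ^ k) = 1 := by
          ext; simpa using hk'
        rw [this, map_one]
      obtain ⟨m, -, hm⟩ := (Nat.dvd_prime_pow Nat.prime_two).mp h2
      exact ⟨m, hm⟩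
    have hfix : ∀ b : ↥B, τ (τ b) = b → τ b = b := by
      intro b hb
      have hb' : t ^ 2 * (b : G) = (b : G) * t ^ 2 := by
        have := congrArg (Subtype.val) hb
        rw [hτ, hτ] at this
        have h3 : t * (t * (b : G) * t⁻¹) * t⁻¹ = t ^ 2 * b * (t ^ 2)⁻¹ := by
          rw [sq, mul_inv_rev]; simp only [mul_assoc]
        rw [h3] at this
        exact mul_inv_eq_iff_eq_mul.mp this
      have hbN : (b : G) ∈ Subgroup.normalizer (A : Set G) :=
        hcent (t ^ 2) (A.pow_mem htA 2) ht2 b hb'.symm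
      have h4 : t * (b : G) * t⁻¹ * (b : G)⁻¹ ∈ A ⊓ B := by
        constructor
        · have : (b : G) * t⁻¹ * (b : G)⁻¹ ∈ A :=
            (Subgroup.mem_normalizer_iff.mp hbN t⁻¹).mp (A.inv_mem htA)
          have h5 : t * (b : G) * t⁻¹ * (b : G)⁻¹ = t * ((b : G) * t⁻¹ * (b : G)⁻¹) := by group
          rw [h5]
          exact A.mul_mem htA this
        · exact B.mul_mem ((Subgroup.mem_normalizer_iff.mp htB b).mp b.2) (B.inv_mem b.2)
      rw [hAB, Subgroup.mem_bot] at h4
      ext
      rw [hτ]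
      exact mul_inv_eq_one.mp h4
    have h6 := Cfsg.Agent.S1780.result hB2 τ hτ2 hfix
    intro b hb
    have := congrArg (Subtype.val) (h6 ⟨b, hb⟩)
    rw [hτ] at this
    exact this
  refine ⟨h1, fun b hb => ?_⟩
  apply hcent t htA (fun h => ht2 (by rw [h, one_pow])) b
  exact (mul_inv_eq_iff_eq_mul.mp (h1 b hb)).symm

/-- Let A be an abelian 2-subgroup of the finite group G such that every conjugate of A equals A or meets A trivially, and let g ∈ G with g A g⁻¹ ≠ A. Then either the subgroup of those elements of A that normalize g A g⁻¹ is an elementary abelian 2-group, or A and g A g⁻¹ commute elementwise. -/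
theorem result {G : Type*} [Group G] [Finite G] (A : Subgroup G)
    (hA2 : IsPGroup 2 ↥A) (hAa : IsMulCommutative ↥A)
    (hti : ∀ h : G, A.map (MulAut.conj h).toMonoidHom = A ∨ A.map (MulAut.conj h).toMonoidHom ⊓ A = ⊥)
    (g : G) (hg : A.map (MulAut.conj g).toMonoidHom ≠ A) :
    Cfsg.IsElementaryAbelian 2 (A ⊓ Subgroup.normalizer ((A.map (MulAut.conj g).toMonoidHom : Subgroup G) : Set G)) ∨
      ⁅A, A.map (MulAut.conj g).toMonoidHom⁆ = ⊥ := by
  set B : Subgroup G := A.map (MulAut.conj g).toMonoidHom with hB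
  have hBA : B ⊓ A = ⊥ := (hti g).resolve_left hg
  have hAB : A ⊓ B = ⊥ := by rw [inf_comm, hBA]
  have hBa : IsMulCommutative ↥B := by rw [hB]; infer_instance
  have hB2 : IsPGroup 2 ↥B := hA2.map _
  by_cases hel : ∀ a ∈ A, a ∈ Subgroup.normalizer (B : Set G) → a ^ 2 = 1
  · left
    refine ⟨?_, fun a ha => hel a ha.1 ha.2⟩
    rw [isMulCommutative_iff]
    intro a b
    ext
    exact setLike_mul_comm a.2.1 b.2.1
  · right
    push Not at hel
    obtain ⟨t, htA, htB, ht2⟩ := hel
    obtain ⟨-, hBN⟩ := aux A B hA2 hB2 hBa hti hAB t htA htB ht2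
    -- TI property for `B`
    have htiB : ∀ h : G, B.map (MulAut.conj h).toMonoidHom = B ∨ B.map (MulAut.conj h).toMonoidHom ⊓ B = ⊥ := by
      intro h
      have hcomp : ∀ x : G, B.map (MulAut.conj x).toMonoidHom = A.map (MulAut.conj (x * g)).toMonoidHom := by
        intro x
        rw [hB, Subgroup.map_map]
        congr 1
        ext y
        simp [mul_assoc]
      rcases hti (g⁻¹ * h * g) with h1 | h1
      · left
        rw [hcomp, show h * g = g * (g⁻¹ * h * g) by group]
        have : A.map (MulAut.conj (g * (g⁻¹ * h * g))).toMonoidHom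
            = (A.map (MulAut.conj (g⁻¹ * h * g)).toMonoidHom).map (MulAut.conj g).toMonoidHom := by
          rw [Subgroup.map_map]
          congr 1
          ext y
          simp [mul_assoc]
        rw [this, h1]
      · right
        rw [hcomp, show h * g = g * (g⁻¹ * h * g) by group]
        have : A.map (MulAut.conj (g * (g⁻¹ * h * g))).toMonoidHom
            = (A.map (MulAut.conj (g⁻¹ * h * g)).toMonoidHom).map (MulAut.conj g).toMonoidHom := by
          rw [Subgroup.map_map]
          congr 1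
          ext y
          simp [mul_assoc]
        rw [this, hB, ← Subgroup.map_inf _ _ _ (MulAut.conj g).injective, h1, Subgroup.map_bot]
    -- the element of `B` corresponding to `t`
    have hs : g * t * g⁻¹ ∈ B := ⟨t, htA, by simp⟩
    have hs2 : (g * t * g⁻¹) ^ 2 ≠ 1 := by
      intro h
      apply ht2
      have : (g * t * g⁻¹) ^ 2 = g * t ^ 2 * g⁻¹ := conj_pow
      rw [this] at h
      have h' : g * t ^ 2 = g := by
        have := mul_inv_eq_one.mp h
        exact this
      simpa using h'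
    obtain ⟨-, hAN⟩ := aux B A hB2 hA2 hAa htiB hBA (g * t * g⁻¹) hs (hBN hs) hs2
    rw [Subgroup.commutator_eq_bot_iff_le_centralizer]
    intro a ha
    rw [Subgroup.mem_centralizer_iff]
    intro b hb
    have h4 : a * b * a⁻¹ * b⁻¹ ∈ A ⊓ B := by
      constructor
      · have : b * a⁻¹ * b⁻¹ ∈ A := (Subgroup.mem_normalizer_iff.mp (hBN hb) a⁻¹).mp (A.inv_mem ha)
        have h5 : a * b * a⁻¹ * b⁻¹ = a * (b * a⁻¹ * b⁻¹) := by group
        rw [h5]
        exact A.mul_mem ha this
      · exact B.mul_mem ((Subgroup.mem_normalizer_iff.mp (hAN ha) b).mp hb) (B.inv_mem hb)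
    rw [hAB, Subgroup.mem_bot] at h4
    have := mul_inv_eq_one.mp h4
    exact (mul_inv_eq_iff_eq_mul.mp this).symm

end Cfsg.Agent.S1781
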