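import Cfsg.Statements.S1782
import Cfsg.Agent.ClassificationK.TIFamily
import Cfsg.Agent.Lib.FrattiniPGroup
set_option linter.all false

set_option autoImplicit false
open Cfsg

namespace Cfsg.Agent.S1782

/-- If the Frattini subgroup of the finite 2-group `R` is nontrivial then some square is nontrivial. -/
theorem exists_sq_ne_one {S : Type*} [Group S] [Finite S] (R : Subgroup S)
    (hΦ : frattini ↥R ≠ ⊥) : ∃ r ∈ R, r ^ 2 ≠ 1 := by
  by_contra hcon
  push Not at hcon
  apply hΦ
  have hp : Fact (Nat.Prime 2) := ⟨Nat.prime_two⟩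
  have hsq : ∀ x : R, x ^ 2 = 1 := fun x => Subtype.ext (hcon x x.2)
  have hcomm : ∀ x y : R, x * y = y * x := by
    intro x y
    have h1 : ∀ z : R, z⁻¹ = z := fun z => by
      rw [inv_eq_iff_mul_eq_one, ← pow_two]
      exact hsq z
    have h2 := h1 (x * y)
    rw [mul_inv_rev, h1, h1] at h2
    exact h2.symm
  rw [eq_bot_iff]
  refine Cfsg.Agent.Lib.FrattiniPGroup.frattini_le (p := 2) (⊥ : Subgroup R) ?_ ?_
  · intro x y
    rw [Subgroup.mem_bot, commutatorElement_eq_one_iff_mul_comm]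
    exact hcomm x y
  · intro x
    rw [Subgroup.mem_bot]
    exact hsq x

/-- Let S be a finite 2-group and Δ a set of subgroups of S closed under conjugation by S, all of the same order, each with nontrivial Frattini subgroup, and such that two distinct members of Δ meet trivially. Then any two distinct members of Δ commute elementwise. -/
theorem result {S : Type*} [Group S] [Finite S] (hS : IsPGroup 2 S)
    (Δ : Set (Subgroup S)) (hinv : ∀ s : S, ∀ R ∈ Δ, R.map (MulAut.conj s).toMonoidHom ∈ Δ)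
    (hΦ : ∀ R ∈ Δ, frattini ↥R ≠ ⊥) (hord : ∀ R ∈ Δ, ∀ T ∈ Δ, Nat.card ↥R = Nat.card ↥T)
    (hti : ∀ R ∈ Δ, ∀ T ∈ Δ, R = T ∨ R ⊓ T = ⊥) :
    ∀ R ∈ Δ, ∀ T ∈ Δ, R ≠ T → ⁅R, T⁆ = ⊥ := by
  intro R hR T hT hRT
  have h := Cfsg.Agent.ClassificationK.TIFamily.commute_of_family hS Δ hinv
    (fun R hR => exists_sq_ne_one R (hΦ R hR)) hord hti R hR T hT hRT
  rw [eq_bot_iff, Subgroup.commutator_le]
  intro x hx y hy
  rw [Subgroup.mem_bot, commutatorElement_eq_one_iff_mul_comm]
  exact h x hx y hy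

end Cfsg.Agent.S1782
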