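import Cfsg.Agent.ClassificationK.TIFamily
import Cfsg.Statements.S1783
import Cfsg.Agent.Lib.FrattiniPGroup
import Cfsg.Agent.SignalizersComponents.CharP
set_option linter.all false

-- part: ClassificationK/TIFamilySub
section
/-!
# Families of TI-subgroups inside a 2-subgroup

`commute_of_family_sub` is the version of `TIFamily.commute_of_family` for a family of subgroups of an
ambient group all lying in a 2-subgroup `S` and permuted by `S`.
-/

set_option autoImplicit false

open scoped commutatorElement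

namespace Cfsg.Agent.ClassificationK.TIFamilySub

open Cfsg.Agent.ClassificationK.TIFamily

variable {G : Type*} [Group G]

theorem map_subtype_conj {S : Subgroup G} (s : S) (X : Subgroup S) :
    (X.map (MulAut.conj s).toMonoidHom).map S.subtype =
      (X.map S.subtype).map (MulAut.conj (s : G)).toMonoidHom := by
  rw [Subgroup.map_map, Subgroup.map_map]
  congr 1

/-- Version of `commute_of_family` for a family of subgroups of an ambient group. -/
theorem commute_of_family_sub [Finite G] {S : Subgroup G} (hS : IsPGroup 2 S) (Δ : Set (Subgroup G))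
    (hle : ∀ R ∈ Δ, R ≤ S)
    (hinv : ∀ s ∈ S, ∀ R ∈ Δ, R.map (MulAut.conj s).toMonoidHom ∈ Δ)
    (hsq : ∀ R ∈ Δ, ∃ r ∈ R, r ^ 2 ≠ 1)
    (hord : ∀ R ∈ Δ, ∀ T ∈ Δ, Nat.card ↥R = Nat.card ↥T)
    (hti : ∀ R ∈ Δ, ∀ T ∈ Δ, R = T ∨ R ⊓ T = ⊥) :
    ∀ R ∈ Δ, ∀ T ∈ Δ, R ≠ T → ∀ x ∈ R, ∀ y ∈ T, x * y = y * x := by
  intro R hR T hT hRT x hx y hy
  have hmap : ∀ R ∈ Δ, (R.subgroupOf S).map S.subtype = R := fun R hR =>
    Subgroup.map_subgroupOf_eq_of_le (hle R hR)
  have hcard : ∀ X : Subgroup S, Nat.card (X.map S.subtype) = Nat.card X := fun X =>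
    Nat.card_congr (X.equivMapOfInjective S.subtype S.subtype_injective).symm.toEquiv
  have key := commute_of_family hS {X : Subgroup S | X.map S.subtype ∈ Δ}
    (by
      intro s X hX
      change (X.map (MulAut.conj s).toMonoidHom).map S.subtype ∈ Δ
      rw [map_subtype_conj]
      exact hinv s s.2 _ hX)
    (by
      intro X hX
      obtain ⟨r, ⟨z, hz, rfl⟩, hr2⟩ := hsq _ hX
      refine ⟨z, hz, fun h => hr2 ?_⟩
      have := congrArg Subtype.val h
      simpa using this)
    (by
      intro X hX Y hY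
      rw [← hcard X, ← hcard Y]
      exact hord _ hX _ hY)
    (by
      intro X hX Y hY
      rcases hti _ hX _ hY with h | h
      · left
        exact Subgroup.map_injective S.subtype_injective h
      · right
        apply Subgroup.map_injective S.subtype_injective
        rw [Subgroup.map_inf _ _ _ S.subtype_injective, h, Subgroup.map_bot])
    (R.subgroupOf S) (by change (R.subgroupOf S).map S.subtype ∈ Δ; rwa [hmap R hR])
    (T.subgroupOf S) (by change (T.subgroupOf S).map S.subtype ∈ Δ; rwa [hmap T hT])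
    (by
      intro h
      apply hRT
      rw [← hmap R hR, ← hmap T hT, h])
    ⟨x, hle R hR hx⟩ (by rw [Subgroup.mem_subgroupOf]; exact hx)
    ⟨y, hle T hT hy⟩ (by rw [Subgroup.mem_subgroupOf]; exact hy)
  exact congrArg Subtype.val key

end Cfsg.Agent.ClassificationK.TIFamilySub
end

-- part: S1783
section
set_option autoImplicit false
open Cfsg

namespace Cfsg.Agent.S1783

open Cfsg.Agent.ClassificationK.TIFamily Cfsg.Agent.ClassificationK.TIFamilySub

/-- The subgroup generated by the squares of a nontrivial finite 2-group is proper. -/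
theorem closure_sq_lt {G : Type*} [Group G] [Finite G] {M : Subgroup G} (hM : IsPGroup 2 M)
    (hne : M ≠ ⊥) : Subgroup.closure ((fun a : G => a ^ 2) '' (M : Set G)) < M := by
  have h2 : Fact (Nat.Prime 2) := ⟨Nat.prime_two⟩
  have hnt : Nontrivial M := (Subgroup.nontrivial_iff_ne_bot M).mpr hne
  obtain ⟨K, hK, -⟩ := (eq_top_or_exists_le_coatom (⊥ : Subgroup M)).resolve_left bot_ne_top
  have hKlt : K.map M.subtype < M := by
    refine lt_of_le_of_ne (Subgroup.map_subtype_le K) ?_
    intro h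
    apply hK.1
    rw [eq_top_iff]
    intro x _
    have h3 : (x : G) ∈ K.map M.subtype := by
      rw [h]; exact x.2
    obtain ⟨y, hy, hyx⟩ := h3
    have : y = x := Subtype.ext hyx
    exact this ▸ hy
  refine lt_of_le_of_lt ?_ hKlt
  rw [Subgroup.closure_le]
  rintro _ ⟨a, ha, rfl⟩
  have h1 := Cfsg.Agent.Lib.FrattiniPGroup.pow_mem_frattini hM (⟨a, ha⟩ : M)
  exact ⟨_, frattini_le_coatom hK h1, rfl⟩

/-- The subgroup generated by the squares of a normal subgroup is normal. -/
theorem closure_sq_normal {G : Type*} [Group G] {M : Subgroup G} (hM : M.Normal) :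
    (Subgroup.closure ((fun a : G => a ^ 2) '' (M : Set G))).Normal := by
  refine ⟨?_⟩
  intro n hn g
  have : MulAut.conj g n ∈ (Subgroup.closure ((fun a : G => a ^ 2) '' (M : Set G))).map
      (MulAut.conj g).toMonoidHom := ⟨n, hn, rfl⟩
  rw [MonoidHom.map_closure] at this
  refine Subgroup.closure_mono ?_ this
  rintro _ ⟨_, ⟨a, ha, rfl⟩, rfl⟩
  refine ⟨g * a * g⁻¹, hM.conj_mem a ha g, ?_⟩
  change (g * a * g⁻¹) ^ 2 = g * a ^ 2 * g⁻¹
  exact conj_pow

/-- A quadratic-type lemma: if `Q` is a normal 2-subgroup containing its centralizer, `A` is a set of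
elements `a` commuting with all their commutators with `Q`, then the squares of `A` lie in `Q`. -/
theorem sq_mem_of_commute {X : Type*} [Group X] [Finite X]
    (hX : Subgroup.centralizer (Cfsg.pCore 2 X : Set X) ≤ Cfsg.pCore 2 X) {a : X}
    (ha : ∀ q ∈ Cfsg.pCore 2 X, Commute (q * a * q⁻¹) a) : a ^ 2 ∈ Cfsg.pCore 2 X := by
  have h2 : Fact (Nat.Prime 2) := ⟨Nat.prime_two⟩
  have hQn : (Cfsg.pCore 2 X).Normal := Cfsg.Agent.Lib.Cores.pCore_normal 2
  have hQp : IsPGroup 2 (Cfsg.pCore 2 X) := Cfsg.Agent.Lib.Cores.pCore_isPGroup 2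
  suffices h : Subgroup.normalClosure {a ^ 2} ≤ Cfsg.pCore 2 X from
    h (Subgroup.subset_normalClosure rfl)
  refine Cfsg.Agent.SignalizersComponents.CharP.le_pCore_of_forall inferInstance ?_
  intro x hx hxo
  have key : ∀ n : ℕ, ∀ M : Subgroup X, M.Normal → M ≤ Cfsg.pCore 2 X → Nat.card M = n →
      ∀ m ∈ M, x * m * x⁻¹ = m := by
    intro n
    induction n using Nat.strong_induction_on with
    | _ n ih =>
      intro M hMn hMQ hn m hm
      by_cases hbot : M = ⊥
      · rw [hbot, Subgroup.mem_bot] at hm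
        rw [hm]; group
      obtain ⟨N, hN⟩ : ∃ N, N = Subgroup.closure ((fun a : X => a ^ 2) '' (M : Set X)) := ⟨_, rfl⟩
      have hNn : N.Normal := hN ▸ closure_sq_normal hMn
      have hlt : N < M := hN ▸ closure_sq_lt (hQp.to_le hMQ) hbot
      have hcard : Nat.card N < n := by
        rw [← hn]
        exact Set.ncard_lt_ncard hlt (Set.toFinite _)
      have hxN := ih _ hcard N hNn (hlt.le.trans hMQ) rfl
      -- `x` centralizes `M / N`
      have hC : ((Subgroup.centralizer ((M.map (QuotientGroup.mk' N) : Subgroup (X ⧸ N)) : Set (X ⧸ N))).comap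
          (QuotientGroup.mk' N)).Normal := by
        have : (M.map (QuotientGroup.mk' N)).Normal :=
          hMn.map _ (QuotientGroup.mk'_surjective N)
        infer_instance
      have hxC : x ∈ (Subgroup.centralizer ((M.map (QuotientGroup.mk' N) : Subgroup (X ⧸ N)) : Set (X ⧸ N))).comap
          (QuotientGroup.mk' N) := by
        refine (Subgroup.normalClosure_le_normal ?_) hx
        rintro _ rfl
        rw [SetLike.mem_coe, Subgroup.mem_comap, Subgroup.mem_centralizer_iff]
        rintro _ ⟨q, hq, rfl⟩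
        change (QuotientGroup.mk' N) q * (QuotientGroup.mk' N) (a ^ 2) =
          (QuotientGroup.mk' N) (a ^ 2) * (QuotientGroup.mk' N) q
        rw [← map_mul, ← map_mul]
        -- c = q a q⁻¹ a⁻¹
        obtain ⟨c, hc⟩ : ∃ c, c = q * a * q⁻¹ * a⁻¹ := ⟨_, rfl⟩
        have hcM : c ∈ M := by
          have : c = q * (a * q⁻¹ * a⁻¹) := by rw [hc]; group
          rw [this]
          exact M.mul_mem hq (hMn.conj_mem _ (M.inv_mem hq) a)
        have hca : Commute c a := by
          rw [hc]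
          exact (ha q (hMQ hq)).mul_left (Commute.refl a).inv_left
        have e1 : q * a * q⁻¹ = c * a := by rw [hc]; group
        have e2 : q * a ^ 2 * q⁻¹ = c ^ 2 * a ^ 2 := by
          rw [← conj_pow, e1, hca.mul_pow]
        have e3 : q * a ^ 2 = c ^ 2 * (a ^ 2 * q) := by
          rw [mul_inv_eq_iff_eq_mul] at e2
          rw [e2]; group
        rw [e3, map_mul]
        have e4 : (QuotientGroup.mk' N) (c ^ 2) = 1 := by
          rw [QuotientGroup.mk'_apply, QuotientGroup.eq_one_iff, hN]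
          exact Subgroup.subset_closure ⟨c, hcM, rfl⟩
        rw [e4, one_mul]
      -- hence `x m x⁻¹ = m n`
      obtain ⟨z, hz⟩ : ∃ z, z = m⁻¹ * (x * m * x⁻¹) := ⟨_, rfl⟩
      have hzN : z ∈ N := by
        rw [Subgroup.mem_comap, Subgroup.mem_centralizer_iff] at hxC
        have e1 := hxC ((QuotientGroup.mk' N) m) ⟨m, hm, rfl⟩
        rw [← QuotientGroup.eq_one_iff, hz]
        change (QuotientGroup.mk' N) (m⁻¹ * (x * m * x⁻¹)) = 1
        rw [map_mul, map_mul, map_mul, map_inv, map_inv, ← e1]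
        group
      have e0 : x * m * x⁻¹ = m * z := by rw [hz]; group
      have e1 : ∀ k : ℕ, x ^ k * m * (x ^ k)⁻¹ = m * z ^ k := by
        intro k
        induction k with
        | zero => simp
        | succ k ihk =>
          have e2 : x ^ (k + 1) * m * (x ^ (k + 1))⁻¹ = x * (x ^ k * m * (x ^ k)⁻¹) * x⁻¹ := by
            rw [pow_succ']; group
          have e3 : x * z ^ k * x⁻¹ = z ^ k := hxN _ (N.pow_mem hzN k)
          rw [e2, ihk]
          have e4 : x * (m * z ^ k) * x⁻¹ = (x * m * x⁻¹) * (x * z ^ k * x⁻¹) := by group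
          rw [e4, e0, e3, pow_succ', mul_assoc]
      have e5 := e1 (orderOf x)
      rw [pow_orderOf_eq_one, inv_one, mul_one, one_mul, left_eq_mul] at e5
      have e6 : z = 1 := by
        obtain ⟨j, hj⟩ := (hQp.to_le (hlt.le.trans hMQ)) ⟨z, hzN⟩
        have hj' : z ^ 2 ^ j = 1 := congrArg Subtype.val hj
        have d1 : orderOf z ∣ orderOf x := orderOf_dvd_of_pow_eq_one e5
        have d2 : orderOf z ∣ 2 ^ j := orderOf_dvd_of_pow_eq_one hj'
        have d3 : orderOf z = 1 := Nat.eq_one_of_dvd_coprimes (hxo.pow_right j) d1 d2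
        exact orderOf_eq_one_iff.mp d3
      rw [e0, e6, mul_one]
  have hxQ : x ∈ Cfsg.pCore 2 X := by
    apply hX
    rw [Subgroup.mem_centralizer_iff]
    intro q hq
    have := key _ _ hQn le_rfl rfl q hq
    rw [mul_inv_eq_iff_eq_mul] at this
    exact this.symm
  obtain ⟨k, hk⟩ := hQp ⟨x, hxQ⟩
  have hk2 : x ^ 2 ^ k = 1 := congrArg Subtype.val hk
  have h6 : orderOf x ∣ 2 ^ k := orderOf_dvd_of_pow_eq_one hk2
  have h7 : orderOf x = 1 := Nat.Coprime.eq_one_of_dvd (hxo.pow_right k) h6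
  exact orderOf_eq_one_iff.mp h7

theorem map_closure_sq {X : Type*} [Group X] (A : Subgroup X) (g : X) :
    (Subgroup.closure ((fun a : X => a ^ 2) '' (A : Set X))).map (MulAut.conj g).toMonoidHom =
      Subgroup.closure ((fun a : X => a ^ 2) ''
        ((A.map (MulAut.conj g).toMonoidHom : Subgroup X) : Set X)) := by
  rw [MonoidHom.map_closure]
  congr 1
  ext x
  constructor
  · rintro ⟨_, ⟨a, ha, rfl⟩, rfl⟩
    exact ⟨(MulAut.conj g) a, ⟨a, ha, rfl⟩, (map_pow _ _ _).symm⟩
  · rintro ⟨_, ⟨a, ha, rfl⟩, rfl⟩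
    exact ⟨a ^ 2, ⟨a, ha, rfl⟩, map_pow _ _ _⟩

theorem closure_sq_le {X : Type*} [Group X] (A : Subgroup X) :
    Subgroup.closure ((fun a : X => a ^ 2) '' (A : Set X)) ≤ A := by
  rw [Subgroup.closure_le]
  rintro _ ⟨a, ha, rfl⟩
  exact A.pow_mem ha 2

/-- Let X be a finite group whose generalized Fitting subgroup equals its largest normal 2-subgroup Q, and let A be an abelian 2-subgroup of X such that every conjugate of A equals A or meets A trivially. Let B be the subgroup generated by the squares of the elements of A. Then B lies in Q, and if B is not an elementary abelian 2-group then the normal closure of B in X is commutative. -/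
theorem result {X : Type*} [Group X] [Finite X]
    (hX : Cfsg.generalizedFittingSubgroup X = Cfsg.pCore 2 X) (A : Subgroup X) (hA2 : IsPGroup 2 ↥A) (hAa : IsMulCommutative ↥A)
    (hti : ∀ h : X, A.map (MulAut.conj h).toMonoidHom = A ∨ A.map (MulAut.conj h).toMonoidHom ⊓ A = ⊥) :
    Subgroup.closure ((fun a : X => a ^ 2) '' (A : Set X)) ≤ Cfsg.pCore 2 X ∧
      (¬ Cfsg.IsElementaryAbelian 2 (Subgroup.closure ((fun a : X => a ^ 2) '' (A : Set X))) →
        IsMulCommutative ↥(Subgroup.normalClosure ((fun a : X => a ^ 2) '' (A : Set X)))) := by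
  have h2 : Fact (Nat.Prime 2) := ⟨Nat.prime_two⟩
  have hQn : (Cfsg.pCore 2 X).Normal := Cfsg.Agent.Lib.Cores.pCore_normal 2
  have hQp : IsPGroup 2 (Cfsg.pCore 2 X) := Cfsg.Agent.Lib.Cores.pCore_isPGroup 2
  have hCQ := Cfsg.Agent.SignalizersComponents.CharP.centralizer_pCore_le_of_genFitting_eq hX
  have hAcomm : ∀ x ∈ A, ∀ y ∈ A, x * y = y * x := fun x hx y hy =>
    congrArg Subtype.val (hAa.is_comm.comm (⟨x, hx⟩ : A) ⟨y, hy⟩)
  have hcardconj : ∀ (R : Subgroup X) (g : X),
      Nat.card (R.map (MulAut.conj g).toMonoidHom) = Nat.card R := fun R g =>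
    Nat.card_congr (R.equivMapOfInjective (MulAut.conj g).toMonoidHom (MulAut.conj g).injective).symm.toEquiv
  -- two conjugates of `A` are equal or meet trivially
  have hti2 : ∀ g h : X, A.map (MulAut.conj g).toMonoidHom = A.map (MulAut.conj h).toMonoidHom ∨
      A.map (MulAut.conj g).toMonoidHom ⊓ A.map (MulAut.conj h).toMonoidHom = ⊥ := by
    intro g h
    rcases hti (h⁻¹ * g) with e | e
    · left
      have := congrArg (Subgroup.map (MulAut.conj h).toMonoidHom) e
      rwa [← cj_mul, mul_inv_cancel_left] at this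
    · right
      have := congrArg (Subgroup.map (MulAut.conj h).toMonoidHom) e
      rwa [Subgroup.map_inf _ _ _ (MulAut.conj h).injective, ← cj_mul, mul_inv_cancel_left,
        Subgroup.map_bot] at this
  have part1 : Subgroup.closure ((fun a : X => a ^ 2) '' (A : Set X)) ≤ Cfsg.pCore 2 X := by
    by_cases hel : ∀ a ∈ A, a ^ 2 = 1
    · rw [Subgroup.closure_le]
      rintro _ ⟨a, ha, rfl⟩
      change a ^ 2 ∈ Cfsg.pCore 2 X
      rw [hel a ha]
      exact one_mem _
    push Not at hel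
    obtain ⟨a₀, ha₀, ha₀2⟩ := hel
    have hS : IsPGroup 2 (A ⊔ Cfsg.pCore 2 X : Subgroup X) :=
      hA2.to_sup_of_normal_right hQp
    have hfam := commute_of_family_sub hS
      {R | ∃ g ∈ A ⊔ Cfsg.pCore 2 X, R = A.map (MulAut.conj g).toMonoidHom}
      (by
        rintro _ ⟨g, hg, rfl⟩ _ ⟨a, ha, rfl⟩
        exact mul_mem (mul_mem hg ((le_sup_left : A ≤ A ⊔ Cfsg.pCore 2 X) ha)) (inv_mem hg))
      (by
        rintro s hs _ ⟨g, hg, rfl⟩
        exact ⟨s * g, mul_mem hs hg, (cj_mul s g A).symm⟩)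
      (by
        rintro _ ⟨g, hg, rfl⟩
        refine ⟨g * a₀ * g⁻¹, conj_mem_cj ha₀, ?_⟩
        rw [conj_pow]
        intro h
        exact ha₀2 (conj_eq_one_iff.mp h))
      (by
        rintro _ ⟨g, hg, rfl⟩ _ ⟨h, hh, rfl⟩
        rw [hcardconj, hcardconj])
      (by
        rintro _ ⟨g, hg, rfl⟩ _ ⟨h, hh, rfl⟩
        exact hti2 g h)
    rw [Subgroup.closure_le]
    rintro _ ⟨a, ha, rfl⟩
    refine sq_mem_of_commute hCQ ?_
    intro q hq
    by_cases hqA : A.map (MulAut.conj q).toMonoidHom = A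
    · exact hAcomm _ (conj_mem_of_cj_eq hqA ha) _ ha
    · exact hfam _ ⟨q, (le_sup_right : Cfsg.pCore 2 X ≤ A ⊔ Cfsg.pCore 2 X) hq, rfl⟩ A
        ⟨1, one_mem _, (cj_one A).symm⟩ hqA _ (conj_mem_cj ha) _ ha
  refine ⟨part1, ?_⟩
  intro hB
  obtain ⟨B, hBdef⟩ : ∃ B, B = Subgroup.closure ((fun a : X => a ^ 2) '' (A : Set X)) := ⟨_, rfl⟩
  rw [← hBdef] at hB part1
  have hBA : B ≤ A := hBdef ▸ closure_sq_le A
  have hBcomm : ∀ x ∈ B, ∀ y ∈ B, x * y = y * x := fun x hx y hy =>
    hAcomm x (hBA hx) y (hBA hy)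
  have hBel : ∃ b ∈ B, b ^ 2 ≠ 1 := by
    by_contra hcon
    push Not at hcon
    exact hB ⟨⟨⟨fun x y => Subtype.ext (hBcomm x x.2 y y.2)⟩⟩, hcon⟩
  obtain ⟨b₀, hb₀, hb₀2⟩ := hBel
  have hfam := commute_of_family_sub hQp
    {R | ∃ g : X, R = B.map (MulAut.conj g).toMonoidHom}
    (by
      rintro _ ⟨g, rfl⟩ _ ⟨b, hb, rfl⟩
      exact hQn.conj_mem b (part1 hb) g)
    (by
      rintro s - _ ⟨g, rfl⟩
      exact ⟨s * g, (cj_mul s g B).symm⟩)
    (by
      rintro _ ⟨g, rfl⟩
      refine ⟨g * b₀ * g⁻¹, conj_mem_cj hb₀, ?_⟩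
      rw [conj_pow]
      intro h
      exact hb₀2 (conj_eq_one_iff.mp h))
    (by
      rintro _ ⟨g, rfl⟩ _ ⟨h, rfl⟩
      rw [hcardconj, hcardconj])
    (by
      rintro _ ⟨g, rfl⟩ _ ⟨h, rfl⟩
      rcases hti2 g h with e | e
      · left
        rw [hBdef, map_closure_sq, map_closure_sq, e]
      · right
        rw [eq_bot_iff, ← e]
        exact inf_le_inf (Subgroup.map_mono hBA) (Subgroup.map_mono hBA))
  have hconj : ∀ x ∈ Group.conjugatesOfSet ((fun a : X => a ^ 2) '' (A : Set X)),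
      ∀ y ∈ Group.conjugatesOfSet ((fun a : X => a ^ 2) '' (A : Set X)), x * y = y * x := by
    intro x hx y hy
    rw [Group.mem_conjugatesOfSet_iff] at hx hy
    obtain ⟨a, ha, hxa⟩ := hx
    obtain ⟨b, hb, hyb⟩ := hy
    obtain ⟨g, rfl⟩ := isConj_iff.mp hxa
    obtain ⟨h, rfl⟩ := isConj_iff.mp hyb
    have haB : a ∈ B := hBdef ▸ Subgroup.subset_closure ha
    have hbB : b ∈ B := hBdef ▸ Subgroup.subset_closure hb
    by_cases heq : B.map (MulAut.conj g).toMonoidHom = B.map (MulAut.conj h).toMonoidHom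
    · have h3 : h * b * h⁻¹ ∈ B.map (MulAut.conj g).toMonoidHom := heq ▸ conj_mem_cj hbB
      obtain ⟨c, hc, hce⟩ := h3
      rw [← hce]
      change g * a * g⁻¹ * (g * c * g⁻¹) = g * c * g⁻¹ * (g * a * g⁻¹)
      have := hBcomm a haB c hc
      have e1 : g * a * g⁻¹ * (g * c * g⁻¹) = g * (a * c) * g⁻¹ := by group
      have e2 : g * c * g⁻¹ * (g * a * g⁻¹) = g * (c * a) * g⁻¹ := by group
      rw [e1, e2, this]
    · exact hfam _ ⟨g, rfl⟩ _ ⟨h, rfl⟩ heq _ (conj_mem_cj haB) _ (conj_mem_cj hbB)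
  exact Subgroup.isMulCommutative_closure hconj

end Cfsg.Agent.S1783
end
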