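import Cfsg.Statements.S1784
import Cfsg.Agent.S1265
import Cfsg.Agent.ClassificationK.GF2Basics
set_option linter.all false

set_option autoImplicit false
open Cfsg

namespace Cfsg.Agent.S1784

open Subgroup in
/-- The centralizer of a point of a finite group acts on `Q = F*(C_G(z))`: an element of `C_G(z)`
outside `Q` moves some element of `Q`. -/
theorem exists_conj_ne {C : Type*} [Group C] [Finite C]
    (a : C) (ha : a ∉ Cfsg.generalizedFittingSubgroup C) :
    ∃ x ∈ Cfsg.generalizedFittingSubgroup C, a * x * a⁻¹ ≠ x := by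
  by_contra hcon
  push Not at hcon
  apply ha
  apply Cfsg.Agent.S1265.result
  rw [mem_centralizer_iff]
  intro x hx
  have := hcon x hx
  calc x * a = (a * x * a⁻¹) * a := by rw [this]
    _ = a * x := by group

/-- Let G be a finite group and let z be an involution of G such that Q, the generalized Fitting subgroup of the centralizer C of z, is a 2-group of symplectic type (every characteristic abelian subgroup of Q is cyclic); suppose Q is extraspecial, and view Q inside G. Let α be an involution of C that is not in Q, and let Q₀ be the subgroup of those q ∈ Q whose commutator with α lies in the subgroup generated by z. Then (a) the subgroup generated by the commutators α q α⁻¹ q⁻¹, q ∈ Q, equals the centre of Q₀; and (b) if Q₀ is not contained in the product of the centralizer of α in Q with the subgroup generated by z, then some element of Q conjugates α to α z. -/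
theorem result {G : Type*} [Group G] [Finite G] (z : G) (hz : orderOf z = 2) (hQ : Cfsg.IsOfSymplecticType ↥(Cfsg.generalizedFittingSubgroup ↥(Subgroup.centralizer ({z} : Set G)))) (hE : Cfsg.IsExtraspecial 2 ↥(Cfsg.generalizedFittingSubgroup ↥(Subgroup.centralizer ({z} : Set G))))
    (α : G) (hα : orderOf α = 2) (hαC : α ∈ Subgroup.centralizer ({z} : Set G)) (hαQ : α ∉ (Cfsg.generalizedFittingSubgroup ↥(Subgroup.centralizer ({z} : Set G))).map (Subgroup.centralizer ({z} : Set G)).subtype)
    (Q₀ : Subgroup G) (hQ₀ : ∀ q : G, q ∈ Q₀ ↔ (q ∈ (Cfsg.generalizedFittingSubgroup ↥(Subgroup.centralizer ({z} : Set G))).map (Subgroup.centralizer ({z} : Set G)).subtype ∧ α * q * α⁻¹ * q⁻¹ ∈ Subgroup.zpowers z)) :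
    Subgroup.closure ((fun q : G => α * q * α⁻¹ * q⁻¹) '' ((Cfsg.generalizedFittingSubgroup ↥(Subgroup.centralizer ({z} : Set G))).map (Subgroup.centralizer ({z} : Set G)).subtype : Set G)) = (Subgroup.center ↥Q₀).map Q₀.subtype ∧
      (¬ Q₀ ≤ ((Cfsg.generalizedFittingSubgroup ↥(Subgroup.centralizer ({z} : Set G))).map (Subgroup.centralizer ({z} : Set G)).subtype ⊓ Subgroup.centralizer ({α} : Set G)) ⊔ Subgroup.zpowers z →
        ∃ q ∈ (Cfsg.generalizedFittingSubgroup ↥(Subgroup.centralizer ({z} : Set G))).map (Subgroup.centralizer ({z} : Set G)).subtype, q * α * q⁻¹ = α * z) := by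
  classical
  set C := Subgroup.centralizer ({z} : Set G) with hC
  set F := Cfsg.generalizedFittingSubgroup ↥C with hF
  have hzz : z * z = 1 := by
    have := pow_orderOf_eq_one z
    rw [hz, sq] at this
    exact this
  have hz1 : z ≠ 1 := by
    intro h
    rw [h, orderOf_one] at hz
    omega
  have hαα : α * α = 1 := by
    have := pow_orderOf_eq_one α
    rw [hα, sq] at this
    exact this
  have hαinv : α⁻¹ = α := inv_eq_of_mul_eq_one_left hαα
  have hzpow : ∀ g : G, g ∈ Subgroup.zpowers z ↔ (g = 1 ∨ g = z) := by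
    intro g
    rw [Subgroup.mem_zpowers_iff]
    constructor
    · rintro ⟨k, rfl⟩
      rcases Int.even_or_odd' k with ⟨m, hm | hm⟩
      · left
        rw [hm, zpow_mul]
        have : z ^ (2 : ℤ) = 1 := by
          have h2 : z ^ (2 : ℤ) = z * z := by
            have := zpow_natCast z 2
            rw [sq] at this
            exact_mod_cast this
          rw [h2, hzz]
        rw [this, one_zpow]
      · right
        rw [hm, zpow_add, zpow_mul]
        have : z ^ (2 : ℤ) = 1 := by
          have h2 : z ^ (2 : ℤ) = z * z := by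
            have := zpow_natCast z 2
            rw [sq] at this
            exact_mod_cast this
          rw [h2, hzz]
        rw [this, one_zpow, zpow_one, one_mul]
    · rintro (rfl | rfl)
      · exact ⟨0, zpow_zero z⟩
      · exact ⟨1, zpow_one _⟩
  have hnorm : F.Normal := ClassificationK.GF2Basics.genFitting_normal_of_isPGroup hE.1.1
  -- `z` as an element of `F`
  have hzC : z ∈ C := Subgroup.mem_centralizer_singleton_iff.mpr rfl
  have hzcenC : (⟨z, hzC⟩ : C) ∈ Subgroup.center C :=
    ClassificationK.GF2Basics.mem_center_centralizer z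
  have hzF : (⟨z, hzC⟩ : C) ∈ F := ClassificationK.GF2Basics.center_le_genFitting C hzcenC
  let z' : F := ⟨⟨z, hzC⟩, hzF⟩
  have hz'cen : z' ∈ Subgroup.center F := by
    rw [Subgroup.mem_center_iff]
    intro g
    apply Subtype.ext
    exact (Subgroup.mem_center_iff.mp hzcenC) g
  have hcen : ∀ x : F, x ∈ Subgroup.center F ↔ ((x : C) : G) ∈ Subgroup.zpowers z := by
    intro x
    rw [hzpow]
    constructor
    · intro hx
      by_contra hcon
      push Not at hcon
      have hlt : 2 < Nat.card (Subgroup.center F) := by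
        have := Fintype.ofFinite (Subgroup.center F)
        rw [Nat.card_eq_fintype_card, Fintype.two_lt_card_iff]
        refine ⟨⟨x, hx⟩, ⟨z', hz'cen⟩, 1, fun h => ?_, fun h => ?_, fun h => ?_⟩
        · apply hcon.2
          have := congrArg (fun y : Subgroup.center F => (((y : F) : C) : G)) h
          exact this
        · apply hcon.1
          have := congrArg (fun y : Subgroup.center F => (((y : F) : C) : G)) h
          exact this
        · apply hz1
          have := congrArg (fun y : Subgroup.center F => (((y : F) : C) : G)) h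
          exact this
      have := hE.2
      omega
    · rintro (h | h)
      · have : x = 1 := Subtype.ext (Subtype.ext h)
        rw [this]; exact one_mem _
      · have : x = z' := Subtype.ext (Subtype.ext h)
        rw [this]; exact hz'cen
  -- the automorphism
  let a : C := ⟨α, hαC⟩
  let σ : F ≃* F := MulAut.conjNormal a
  have hσ : ∀ x : F, (((σ x : F) : C) : G) = α * ((x : C) : G) * α⁻¹ := by
    intro x
    have := MulAut.conjNormal_apply a x
    have h2 := congrArg (fun y : C => (y : G)) this
    exact h2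
  have hσ2 : ∀ x, σ (σ x) = x := by
    intro x
    apply Subtype.ext
    apply Subtype.ext
    rw [hσ, hσ, hαinv]
    calc α * (α * ((x : C) : G) * α) * α = (α * α) * ((x : C) : G) * (α * α) := by group
      _ = ((x : C) : G) := by rw [hαα]; group
  have haF : a ∉ F := by
    intro h
    exact hαQ ⟨a, h, rfl⟩
  have hσne : ∃ x, σ x ≠ x := by
    obtain ⟨x, hx, hne⟩ := exists_conj_ne a haF
    refine ⟨⟨x, hx⟩, fun h => hne ?_⟩
    have := congrArg (fun y : F => (y : C)) h
    exact this
  have key := ClassificationK.GF2Basics.mem_commAut_iff hE σ hσ2 hσne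
  let ι : F →* G := C.subtype.comp F.subtype
  have hι : ∀ x : F, ι x = ((x : C) : G) := fun x => rfl
  have hιinj : Function.Injective ι := by
    intro x y h
    exact Subtype.ext (Subtype.ext h)
  have hmem : ∀ g : G, g ∈ F.map C.subtype ↔ ∃ x : F, ι x = g := by
    intro g
    constructor
    · rintro ⟨c, hc, rfl⟩
      exact ⟨⟨c, hc⟩, rfl⟩
    · rintro ⟨x, rfl⟩
      exact ⟨x, x.2, rfl⟩
  have hcomm : ∀ x : F, α * ι x * α⁻¹ * (ι x)⁻¹ = ι (σ x * x⁻¹) := by
    intro x
    rw [map_mul, map_inv, hι (σ x), hσ]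
    rfl
  have hmemQ₀ : ∀ x : F, ι x ∈ Q₀ ↔ σ x * x⁻¹ ∈ Subgroup.center F := by
    intro x
    rw [hQ₀, hcen, hcomm]
    constructor
    · rintro ⟨-, h⟩
      exact h
    · intro h
      exact ⟨(hmem _).mpr ⟨x, rfl⟩, h⟩
  constructor
  · have h1 : ((fun q : G => α * q * α⁻¹ * q⁻¹) '' (F.map C.subtype : Set G))
        = ι '' (Set.range fun q => σ q * q⁻¹) := by
      ext g
      constructor
      · rintro ⟨q, hq, rfl⟩
        obtain ⟨x, rfl⟩ := (hmem q).mp hq
        exact ⟨σ x * x⁻¹, ⟨x, rfl⟩, (hcomm x).symm⟩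
      · rintro ⟨_, ⟨x, rfl⟩, rfl⟩
        exact ⟨ι x, (hmem _).mpr ⟨x, rfl⟩, hcomm x⟩
    rw [h1, ← MonoidHom.map_closure, ← ClassificationK.GF2Basics.commAut_def]
    ext g
    constructor
    · rintro ⟨x, hx, rfl⟩
      rw [SetLike.mem_coe, key] at hx
      have hxQ₀ : ι x ∈ Q₀ := (hmemQ₀ x).mpr hx.1
      refine ⟨⟨ι x, hxQ₀⟩, ?_, rfl⟩
      rw [SetLike.mem_coe, Subgroup.mem_center_iff]
      rintro ⟨y, hy⟩
      obtain ⟨y', rfl⟩ := (hmem y).mp ((hQ₀ y).mp hy).1
      have h2 := hx.2 y' ((hmemQ₀ y').mp hy)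
      apply Subtype.ext
      exact congrArg ι h2
    · rintro ⟨⟨g, hg⟩, hgc, rfl⟩
      obtain ⟨x, rfl⟩ := (hmem g).mp ((hQ₀ g).mp hg).1
      refine ⟨x, ?_, rfl⟩
      rw [SetLike.mem_coe, key]
      refine ⟨(hmemQ₀ x).mp hg, fun y hy => ?_⟩
      have hyQ₀ : ι y ∈ Q₀ := (hmemQ₀ y).mpr hy
      have h3 := (Subgroup.mem_center_iff.mp hgc) ⟨ι y, hyQ₀⟩
      apply hιinj
      have h4 : ι y * ι x = ι x * ι y := congrArg Subtype.val h3
      rw [map_mul, map_mul, h4]
  · intro hnle
    obtain ⟨q, hq, hqn⟩ := SetLike.not_le_iff_exists.mp hnle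
    have hqQ := ((hQ₀ q).mp hq).1
    have hqz := ((hQ₀ q).mp hq).2
    refine ⟨q, hqQ, ?_⟩
    rw [hzpow] at hqz
    rcases hqz with h | h
    · exfalso
      apply hqn
      apply Subgroup.mem_sup_left
      refine Subgroup.mem_inf.mpr ⟨hqQ, ?_⟩
      rw [Subgroup.mem_centralizer_singleton_iff]
      have h4 : α * q = q * α := by
        calc α * q = (α * q * α⁻¹ * q⁻¹) * (q * α) := by group
          _ = q * α := by rw [h, one_mul]
      exact h4.symm
    · -- `α q α⁻¹ q⁻¹ = z`, so `q α⁻¹ q⁻¹ = α⁻¹ z`
      have h5 : q * α⁻¹ * q⁻¹ = α⁻¹ * (α * q * α⁻¹ * q⁻¹) := by group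
      rw [h, hαinv] at h5
      exact h5

end Cfsg.Agent.S1784
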