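-- S1785
import Mathlib
import Cfsg.Statements.S1785
set_option linter.all false

set_option autoImplicit false
open Cfsg

namespace Cfsg.Agent.S1785

variable {X : Type*} [Group X]

/-- adjoining a commuting involution -/
def adj (B : Subgroup X) (z : X) (hz2 : z * z = 1) (hc : ∀ b ∈ B, b * z = z * b) : Subgroup X where
  carrier := {x | x ∈ B ∨ x * z ∈ B}
  one_mem' := Or.inl B.one_mem
  mul_mem' := by
    have key : ∀ y, y * z ∈ B → y * z = z * y := by
      intro y hy
      have h1 := hc _ hy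
      rw [mul_assoc, hz2, mul_one, ← mul_assoc] at h1
      have h2 : y * z = z * y * z * z := by rw [← h1]
      rw [h2, mul_assoc (z * y), hz2, mul_one]
    rintro x y (hx | hx) (hy | hy)
    · exact Or.inl (B.mul_mem hx hy)
    · right
      rw [mul_assoc]
      exact B.mul_mem hx hy
    · right
      rw [mul_assoc, hc y hy, ← mul_assoc]
      exact B.mul_mem hx hy
    · left
      have h3 : x * y = (x * z) * (y * z) := by
        rw [key y hy, mul_assoc, ← mul_assoc z z y, hz2, one_mul]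
      rw [h3]
      exact B.mul_mem hx hy
  inv_mem' := by
    rintro x (hx | hx)
    · exact Or.inl (B.inv_mem hx)
    · right
      have h1 := B.inv_mem hx
      have hzi : z⁻¹ = z := inv_eq_of_mul_eq_one_left hz2
      rw [mul_inv_rev, hzi] at h1
      have h2 := hc _ h1
      rw [← mul_assoc, hz2, one_mul] at h2
      have h3 : x⁻¹ * z = z * x⁻¹ := by
        calc x⁻¹ * z = (z * x⁻¹ * z) * z := by rw [h2]
          _ = z * x⁻¹ := by rw [mul_assoc, hz2, mul_one]
      change x⁻¹ * z ∈ B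
      rw [h3]
      exact h1

theorem mem_adj {B : Subgroup X} {z : X} {hz2 : z * z = 1} {hc : ∀ b ∈ B, b * z = z * b} {x : X} :
    x ∈ adj B z hz2 hc ↔ x ∈ B ∨ x * z ∈ B := Iff.rfl

theorem le_adj {B : Subgroup X} {z : X} {hz2 : z * z = 1} {hc : ∀ b ∈ B, b * z = z * b} :
    B ≤ adj B z hz2 hc := fun _ hx => Or.inl hx

theorem self_mem_adj {B : Subgroup X} {z : X} {hz2 : z * z = 1} {hc : ∀ b ∈ B, b * z = z * b} :
    z ∈ adj B z hz2 hc := Or.inr (by rw [hz2]; exact B.one_mem)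

theorem adj_le {B : Subgroup X} {z : X} {hz2 : z * z = 1} {hc : ∀ b ∈ B, b * z = z * b}
    {A : Subgroup X} (hB : B ≤ A) (hz : z ∈ A) : adj B z hz2 hc ≤ A := by
  rintro x (hx | hx)
  · exact hB hx
  · have := A.mul_mem (hB hx) hz
    rwa [mul_assoc, hz2, mul_one] at this

theorem card_adj [Finite X] {B : Subgroup X} {z : X} {hz2 : z * z = 1} {hc : ∀ b ∈ B, b * z = z * b}
    (hz : z ∉ B) : Nat.card ↥(adj B z hz2 hc) = 2 * Nat.card ↥B := by
  have h1 : B.relIndex (adj B z hz2 hc) = 2 := by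
    rw [Subgroup.relIndex_eq_two_iff]
    refine ⟨z, self_mem_adj, ?_⟩
    rintro b (hb | hb)
    · right
      refine ⟨hb, fun h => hz ?_⟩
      exact (B.mul_mem_cancel_left hb).1 h
    · left
      refine ⟨hb, fun h => hz ?_⟩
      exact (B.mul_mem_cancel_left h).1 hb
  have h2 := Subgroup.relIndex_mul_relIndex ⊥ B (adj B z hz2 hc) bot_le le_adj
  rw [Subgroup.relIndex_bot_left, Subgroup.relIndex_bot_left, h1] at h2
  omega

/-- commuting and involutive version -/
theorem ea_iff {A : Subgroup X} : Cfsg.IsElementaryAbelian 2 A ↔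
    (∀ a ∈ A, ∀ b ∈ A, a * b = b * a) ∧ ∀ a ∈ A, a * a = 1 := by
  constructor
  · rintro ⟨h1, h2⟩
    refine ⟨fun a ha b hb => ?_, fun a ha => ?_⟩
    · have := h1.is_comm.comm ⟨a, ha⟩ ⟨b, hb⟩
      exact congrArg Subtype.val this
    · have := h2 a ha
      rwa [pow_two] at this
  · rintro ⟨h1, h2⟩
    refine ⟨⟨⟨fun a b => Subtype.ext (h1 _ a.2 _ b.2)⟩⟩, fun a ha => ?_⟩
    rw [pow_two]; exact h2 a ha

theorem ea_adj {B : Subgroup X} {z : X} {hz2 : z * z = 1} {hc : ∀ b ∈ B, b * z = z * b}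
    (hB : Cfsg.IsElementaryAbelian 2 B) : Cfsg.IsElementaryAbelian 2 (adj B z hz2 hc) := by
  rw [ea_iff] at hB ⊢
  obtain ⟨h1, h2⟩ := hB
  have key : ∀ x ∈ adj B z hz2 hc, ∃ b ∈ B, x = b ∨ x = b * z := by
    rintro x (hx | hx)
    · exact ⟨x, hx, Or.inl rfl⟩
    · exact ⟨x * z, hx, Or.inr (by rw [mul_assoc, hz2, mul_one])⟩
  constructor
  · intro x hx y hy
    obtain ⟨a, ha, rfl | rfl⟩ := key x hx <;> obtain ⟨b, hb, rfl | rfl⟩ := key y hy
    · exact h1 _ ha _ hb
    · rw [← mul_assoc, h1 _ ha _ hb, mul_assoc, hc _ ha, mul_assoc]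
    · rw [← mul_assoc, ← h1 _ ha _ hb, mul_assoc, ← hc _ hb, mul_assoc]
    · rw [mul_assoc, ← mul_assoc z b, ← hc _ hb, mul_assoc b z, ← mul_assoc a b, hz2, mul_one,
        mul_assoc b, ← mul_assoc z a, ← hc _ ha, mul_assoc a z, ← mul_assoc b a, hz2, mul_one]
      exact h1 _ ha _ hb
  · intro x hx
    obtain ⟨a, ha, rfl | rfl⟩ := key x hx
    · exact h2 _ ha
    · rw [mul_assoc, ← mul_assoc z a, ← hc _ ha, mul_assoc a z, ← mul_assoc a a, hz2, mul_one]
      exact h2 _ ha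

/-- fixed points of one involution -/
theorem fix_one [Finite X] (D : Subgroup X) (hD : ∀ a ∈ D, ∀ b ∈ D, a * b = b * a)
    (hD2 : ∀ a ∈ D, a * a = 1) (a : X) (ha : a * a = 1) (hn : ∀ d ∈ D, a * d * a⁻¹ ∈ D) :
    Nat.card ↥D ≤ Nat.card ↥(D ⊓ Subgroup.centralizer {a}) ^ 2 := by
  let f : ↥D →* X :=
    { toFun := fun d => d * (a * d * a⁻¹)
      map_one' := by simp
      map_mul' := by
        intro x y
        have h1 := hD _ (hn _ x.2) _ y.2
        show (x : X) * y * (a * (x * y) * a⁻¹) = x * (a * x * a⁻¹) * (y * (a * y * a⁻¹))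
        calc (x : X) * y * (a * (x * y) * a⁻¹) = x * (y * (a * x * a⁻¹)) * (a * y * a⁻¹) := by group
          _ = x * ((a * x * a⁻¹) * y) * (a * y * a⁻¹) := by rw [h1]
          _ = _ := by group }
  have hcard : Nat.card ↥D = Nat.card ↥f.ker * Nat.card ↥f.range := by
    rw [← Subgroup.card_mul_index f.ker, Subgroup.index_ker]
  have hai : a⁻¹ = a := inv_eq_of_mul_eq_one_left ha
  have h1 : Nat.card ↥f.ker ≤ Nat.card ↥(D ⊓ Subgroup.centralizer {a}) := by
    have : ∀ x : ↥f.ker, ((x : ↥D) : X) ∈ D ⊓ Subgroup.centralizer {a} := by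
      intro x
      refine Subgroup.mem_inf.2 ⟨x.1.2, ?_⟩
      rw [Subgroup.mem_centralizer_singleton_iff]
      have hx : ((x : ↥D) : X) * (a * x * a⁻¹) = 1 := x.2
      have hxi : ((x : ↥D) : X)⁻¹ = x := inv_eq_of_mul_eq_one_left (hD2 _ x.1.2)
      have h3 : a * ((x : ↥D) : X) * a⁻¹ = x := by
        rw [← mul_eq_one_iff_inv_eq.1 hx]; exact hxi
      have h4 : a * ((x : ↥D) : X) = x * a := by
        rw [mul_inv_eq_iff_eq_mul] at h3
        exact h3
      first | exact h4 | exact h4.symm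
    exact Nat.card_le_card_of_injective (fun x => (⟨_, this x⟩ : ↥(D ⊓ Subgroup.centralizer {a})))
      (fun x y h => Subtype.ext (Subtype.ext (Subtype.mk.inj h)))
  have h2 : Nat.card ↥f.range ≤ Nat.card ↥(D ⊓ Subgroup.centralizer {a}) := by
    apply Subgroup.card_le_of_le
    rintro _ ⟨x, rfl⟩
    refine Subgroup.mem_inf.2 ⟨D.mul_mem x.2 (hn _ x.2), ?_⟩
    rw [Subgroup.mem_centralizer_singleton_iff]
    have h3 := hD _ x.2 _ (hn _ x.2)
    have h5 : (x : X) * (a * x * a⁻¹) * a = a * (x * (a * x * a⁻¹)) := by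
      rw [hai] at h3 ⊢
      calc (x : X) * (a * x * a) * a = x * (a * x) * (a * a) := by simp only [mul_assoc]
        _ = (a * a) * (x * a * x) := by rw [ha]; simp only [mul_assoc, one_mul, mul_one]
        _ = a * ((a * x * a) * x) := by simp only [mul_assoc]
        _ = a * (x * (a * x * a)) := by rw [h3]
    exact h5
  rw [hcard, pow_two]
  exact Nat.mul_le_mul h1 h2

theorem fix_bound [Finite X] (E : Subgroup X) [E.Normal] (hE : Cfsg.IsElementaryAbelian 2 E)
    (A : Subgroup X) (hA : Cfsg.IsElementaryAbelian 2 A) :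
    Nat.card ↥E ≤ Nat.card ↥(E ⊓ Subgroup.centralizer (A : Set X)) ^ ((A ⊓ E).relIndex A) := by
  have hE' := ea_iff.1 hE
  have hA' := ea_iff.1 hA
  let S : Set (Subgroup X) := {B | A ⊓ E ≤ B ∧ B ≤ A ∧
    Nat.card ↥E ≤ Nat.card ↥(E ⊓ Subgroup.centralizer (B : Set X)) ^ ((A ⊓ E).relIndex B)}
  have hne : S.Nonempty := by
    refine ⟨A ⊓ E, le_rfl, inf_le_left, ?_⟩
    rw [Subgroup.relIndex_self, pow_one]
    apply Subgroup.card_le_of_le
    intro x hx
    refine Subgroup.mem_inf.2 ⟨hx, ?_⟩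
    rw [Subgroup.mem_centralizer_iff]
    intro b hb
    exact hE'.1 _ (Subgroup.mem_inf.1 hb).2 _ hx
  obtain ⟨B, hB⟩ := (Set.toFinite S).exists_maximal hne
  obtain ⟨h1, h2, h3⟩ := hB.prop
  rcases eq_or_lt_of_le h2 with h4 | h4
  · rw [h4] at h3; exact h3
  · exfalso
    obtain ⟨a, haA, haB⟩ := SetLike.exists_of_lt h4
    have ha2 := hA'.2 a haA
    have hc : ∀ b ∈ B, b * a = a * b := fun b hb => hA'.1 _ (h2 hb) _ haA
    have h5 : adj B a ha2 hc ∈ S := by
      refine ⟨h1.trans le_adj, adj_le h2 haA, ?_⟩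
      have h6 := Subgroup.relIndex_mul_relIndex (A ⊓ E) B (adj B a ha2 hc) h1 le_adj
      have h7 : B.relIndex (adj B a ha2 hc) = 2 := by
        have h8 := Subgroup.relIndex_mul_relIndex ⊥ B (adj B a ha2 hc) bot_le le_adj
        rw [Subgroup.relIndex_bot_left, Subgroup.relIndex_bot_left, card_adj haB] at h8
        have h9 : 0 < Nat.card ↥B := Nat.card_pos
        nlinarith
      rw [← h6, h7, mul_comm, pow_mul]
      refine h3.trans (Nat.pow_le_pow_left ?_ _)
      have h10 := fix_one (E ⊓ Subgroup.centralizer (B : Set X))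
        (fun x hx y hy => hE'.1 _ (Subgroup.mem_inf.1 hx).1 _ (Subgroup.mem_inf.1 hy).1)
        (fun x hx => hE'.2 _ (Subgroup.mem_inf.1 hx).1) a ha2 (by
          intro d hd
          obtain ⟨hd1, hd2⟩ := Subgroup.mem_inf.1 hd
          refine Subgroup.mem_inf.2 ⟨Subgroup.Normal.conj_mem inferInstance _ hd1 _, ?_⟩
          rw [Subgroup.mem_centralizer_iff] at hd2 ⊢
          intro b hb
          have e1 := hd2 b hb
          have e2 := hc b hb
          have e3 : b * a⁻¹ = a⁻¹ * b := by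
            rw [eq_inv_mul_iff_mul_eq, ← mul_assoc, ← e2, mul_assoc, mul_inv_cancel, mul_one]
          calc b * (a * d * a⁻¹) = (b * a) * d * a⁻¹ := by simp only [mul_assoc]
            _ = a * (b * d) * a⁻¹ := by rw [e2]; simp only [mul_assoc]
            _ = a * d * (b * a⁻¹) := by rw [e1]; simp only [mul_assoc]
            _ = a * d * a⁻¹ * b := by rw [e3]; simp only [mul_assoc])
      refine h10.trans (Nat.pow_le_pow_left (Subgroup.card_le_of_le ?_) 2)
      intro x hx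
      obtain ⟨hx1, hx2⟩ := Subgroup.mem_inf.1 hx
      obtain ⟨hx3, hx4⟩ := Subgroup.mem_inf.1 hx1
      refine Subgroup.mem_inf.2 ⟨hx3, ?_⟩
      rw [Subgroup.mem_centralizer_singleton_iff] at hx2
      rw [Subgroup.mem_centralizer_iff] at hx4 ⊢
      rintro y (hy | hy)
      · exact hx4 y hy
      · have e1 := hx4 _ hy
        have e2 : y = y * a * a := by rw [mul_assoc, ha2, mul_one]
        rw [e2, mul_assoc, ← hx2, ← mul_assoc, e1, mul_assoc x]
    exact absurd (hB.le_of_ge h5 le_adj self_mem_adj) haB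

theorem exists_z [Finite X] (E : Subgroup X) [E.Normal] (hE : Cfsg.IsElementaryAbelian 2 E)
    (hE32 : 32 ≤ Nat.card ↥E)
    (A : Subgroup X) (hA : Cfsg.IsElementaryAbelian 2 A) (hA8 : Nat.card ↥A ≤ 8) :
    ∃ z ∈ E, z ∉ A ∧ ∀ a ∈ A, a * z = z * a := by
  by_contra hcon
  push Not at hcon
  have h1 := fix_bound E hE A hA
  have h2 : E ⊓ Subgroup.centralizer (A : Set X) ≤ A ⊓ E := by
    intro x hx
    obtain ⟨hx1, hx2⟩ := Subgroup.mem_inf.1 hx
    rw [Subgroup.mem_centralizer_iff] at hx2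
    refine Subgroup.mem_inf.2 ⟨?_, hx1⟩
    by_contra h3
    obtain ⟨a, ha, h4⟩ := hcon x hx1 h3
    exact h4 (hx2 a ha)
  have h3 := Subgroup.card_le_of_le h2
  have h4 := Subgroup.relIndex_mul_relIndex ⊥ (A ⊓ E) A bot_le inf_le_left
  rw [Subgroup.relIndex_bot_left, Subgroup.relIndex_bot_left] at h4
  set m := Nat.card ↥(A ⊓ E) with hm
  set r := (A ⊓ E).relIndex A with hr
  have h5 : 32 ≤ m ^ r := hE32.trans (h1.trans (Nat.pow_le_pow_left h3 _))
  have h6 : 0 < m := Nat.card_pos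
  have h7 : m * r ≤ 8 := by rw [h4]; exact hA8
  have h8 : 0 < r := by
    rcases Nat.eq_zero_or_pos r with h | h
    · rw [h] at h5; norm_num at h5
    · exact h
  have h9 : m ≤ 8 := by nlinarith
  have h10 : r ≤ 8 := by nlinarith
  clear_value m r
  clear hm hr h1 h3 h4
  interval_cases m <;> interval_cases r <;> omega

def R (C D : Subgroup X) : Prop := Cfsg.IsElementaryAbelian 2 C ∧ Nat.card ↥C = 8 ∧
  Cfsg.IsElementaryAbelian 2 D ∧ Nat.card ↥D = 8 ∧ ⁅C, D⁆ = ⊥

theorem R_symm (C D : Subgroup X) (h : R C D) : R D C :=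
  ⟨h.2.2.1, h.2.2.2.1, h.1, h.2.1, by rw [Subgroup.commutator_comm]; exact h.2.2.2.2⟩

theorem comm_bot {C D : Subgroup X} (h : ∀ c ∈ C, ∀ d ∈ D, c * d = d * c) : ⁅C, D⁆ = ⊥ := by
  rw [Subgroup.commutator_eq_bot_iff_le_centralizer]
  intro c hc
  rw [Subgroup.mem_centralizer_iff]
  intro d hd
  exact (h c hc d hd).symm

theorem chain [Finite X] (E : Subgroup X) [E.Normal] (hE : Cfsg.IsElementaryAbelian 2 E)
    (hE32 : 32 ≤ Nat.card ↥E) : ∀ (n : ℕ) (A : Subgroup X), Cfsg.IsElementaryAbelian 2 A →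
    Nat.card ↥A = 8 → 8 - Nat.card ↥(A ⊓ E) = n →
    ∃ A' : Subgroup X, A' ≤ E ∧ Cfsg.IsElementaryAbelian 2 A' ∧ Nat.card ↥A' = 8 ∧
      Relation.ReflTransGen R A A' := by
  intro n
  induction n using Nat.strong_induction_on with
  | _ n ih =>
    intro A hA hA8 hn
    by_cases hAE : A ≤ E
    · exact ⟨A, hAE, hA, hA8, Relation.ReflTransGen.refl⟩
    have hE' := ea_iff.1 hE
    have hA' := ea_iff.1 hA
    obtain ⟨z, hzE, hzA, hz⟩ := exists_z E hE hE32 A hA hA8.le
    have hz2 := hE'.2 z hzE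
    let S : Set (Subgroup X) := {B | A ⊓ E ≤ B ∧ B < A}
    have hne : S.Nonempty := by
      refine ⟨A ⊓ E, le_rfl, lt_of_le_of_ne inf_le_left ?_⟩
      intro h
      exact hAE (inf_eq_left.1 h)
    obtain ⟨B, hB⟩ := (Set.toFinite S).exists_maximal hne
    obtain ⟨h1, h2⟩ := hB.prop
    obtain ⟨a, haA, haB⟩ := SetLike.exists_of_lt h2
    have ha2 := hA'.2 a haA
    have hc : ∀ b ∈ B, b * a = a * b := fun b hb => hA'.1 _ (h2.le hb) _ haA
    have h3 : adj B a ha2 hc = A := by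
      by_contra h3
      have h4 : adj B a ha2 hc ∈ S := ⟨h1.trans le_adj, lt_of_le_of_ne (adj_le h2.le haA) h3⟩
      exact absurd (hB.le_of_ge h4 le_adj self_mem_adj) haB
    have h5 : Nat.card ↥B = 4 := by
      have := card_adj (hz2 := ha2) (hc := hc) haB
      rw [h3, hA8] at this
      omega
    have hzB : z ∉ B := fun h => hzA (h2.le h)
    have hcz : ∀ b ∈ B, b * z = z * b := fun b hb => hz b (h2.le hb)
    have hBea : Cfsg.IsElementaryAbelian 2 B :=
      ea_iff.2 ⟨fun x hx y hy => hA'.1 _ (h2.le hx) _ (h2.le hy), fun x hx => hA'.2 _ (h2.le hx)⟩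
    have h6 : Nat.card ↥(adj B z hz2 hcz) = 8 := by rw [card_adj hzB, h5]
    have h7 : Cfsg.IsElementaryAbelian 2 (adj B z hz2 hcz) := ea_adj hBea
    have h8 : R A (adj B z hz2 hcz) := by
      refine ⟨hA, hA8, h7, h6, comm_bot ?_⟩
      rintro c hc d (hd | hd)
      · exact hA'.1 _ hc _ (h2.le hd)
      · have e1 := hA'.1 _ hc _ (h2.le hd)
        have e2 := hz c hc
        have e3 : d = d * z * z := by rw [mul_assoc, hz2, mul_one]
        rw [e3, ← mul_assoc, e1, mul_assoc (d * z), e2, ← mul_assoc]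
    have h9 : Nat.card ↥(A ⊓ E) < Nat.card ↥(adj B z hz2 hcz ⊓ E) := by
      have h10 : A ⊓ E < adj B z hz2 hcz ⊓ E := by
        refine lt_of_le_of_ne (le_inf (h1.trans le_adj) inf_le_right) ?_
        intro h
        have : z ∈ adj B z hz2 hcz ⊓ E := Subgroup.mem_inf.2 ⟨self_mem_adj, hzE⟩
        rw [← h] at this
        exact hzA (Subgroup.mem_inf.1 this).1
      by_contra h11
      exact h10.ne (Subgroup.eq_of_le_of_card_ge h10.le (not_lt.1 h11))
    have h12 : Nat.card ↥(adj B z hz2 hcz ⊓ E) ≤ 8 := by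
      rw [← h6]
      exact Subgroup.card_le_of_le inf_le_left
    obtain ⟨A', h13, h14, h15, h16⟩ := ih (8 - Nat.card ↥(adj B z hz2 hcz ⊓ E)) (by omega)
      (adj B z hz2 hcz) h7 h6 rfl
    exact ⟨A', h13, h14, h15, Relation.ReflTransGen.head h8 h16⟩

/-- Let X be a finite 2-group having a normal elementary abelian subgroup of order at least 32. Then (a) for any two elementary abelian subgroups A, B of X of order 8 there is a chain A = A₁, A₂, …, Aₙ = B of elementary abelian subgroups of order 8 in which consecutive members commute elementwise; and (b) every elementary abelian subgroup of X of order 4 is contained in an elementary abelian subgroup of order 8. -/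
theorem result {X : Type*} [Group X] [Finite X]
    (hX : IsPGroup 2 X) (E : Subgroup X) [E.Normal] (hE : Cfsg.IsElementaryAbelian 2 E) (hE32 : 32 ≤ Nat.card ↥E) :
    (∀ A B : Subgroup X, Cfsg.IsElementaryAbelian 2 A → Nat.card ↥A = 8 → Cfsg.IsElementaryAbelian 2 B → Nat.card ↥B = 8 →
        Relation.ReflTransGen
          (fun C D : Subgroup X => Cfsg.IsElementaryAbelian 2 C ∧ Nat.card ↥C = 8 ∧ Cfsg.IsElementaryAbelian 2 D ∧ Nat.card ↥D = 8 ∧ ⁅C, D⁆ = ⊥)
          A B) ∧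
      (∀ V : Subgroup X, Cfsg.IsElementaryAbelian 2 V → Nat.card ↥V = 4 →
        ∃ A : Subgroup X, V ≤ A ∧ Cfsg.IsElementaryAbelian 2 A ∧ Nat.card ↥A = 8) := by
  have hE' := ea_iff.1 hE
  constructor
  · intro A B hA hA8 hB hB8
    change Relation.ReflTransGen R A B
    obtain ⟨A', h1, h2, h3, h4⟩ := chain E hE hE32 _ A hA hA8 rfl
    obtain ⟨B', h5, h6, h7, h8⟩ := chain E hE hE32 _ B hB hB8 rfl
    have h9 : Relation.ReflTransGen R B' B := by
      have : Std.Symm (R (X := X)) := ⟨fun C D h => R_symm C D h⟩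
      exact (Relation.ReflTransGen.stdSymm (r := R (X := X))).symm _ _ h8
    refine (h4.tail ⟨h2, h3, h6, h7, comm_bot ?_⟩).trans h9
    intro c hc d hd
    exact hE'.1 _ (h1 hc) _ (h5 hd)
  · intro V hV hV4
    have hV' := ea_iff.1 hV
    obtain ⟨z, hzE, hzV, hz⟩ := exists_z E hE hE32 V hV (by omega)
    have hz2 := hE'.2 z hzE
    exact ⟨adj V z hz2 hz, le_adj, ea_adj hV, by rw [card_adj hzV, hV4]⟩

end Cfsg.Agent.S1785
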