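import Cfsg.Agent.ClassificationK.TIPairBasic
import Cfsg.Agent.Lib.FrattiniBasic
import Cfsg.Agent.ClassificationK.SpreadField
import Cfsg.Agent.ClassificationK.SLTwoAction
import Cfsg.Statements.S1786
import Cfsg.Agent.SignalizersComponents.CharP
set_option linter.all false

-- part: ClassificationK/TIPairClass
section
/-!
# TI-subgroups: `P = C_Q(V)` has class two with `P / V` elementary abelian (for S1786)
-/

set_option autoImplicit false

namespace Cfsg.Agent.ClassificationK.TIPair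

open Subgroup
open Cfsg.Agent.ClassificationK.TIFamily (mem_cj cj_mul cj_one cj_inj cj_inv_of_eq cj_mul_of_eq cj_of_mem)

variable {G : Type*} [Group G] {V Q : Subgroup G}

/-- `P = C_Q(V)`. -/
abbrev PP (V Q : Subgroup G) : Subgroup G := Q ⊓ centralizer (V : Set G)

theorem mem_PP {x : G} : x ∈ PP V Q ↔ x ∈ Q ∧ ∀ v ∈ V, v * x = x * v := by
  rw [mem_inf, mem_centralizer_iff]
  rfl

theorem TIData.le_PP (h : TIData V Q) : V ≤ PP V Q := fun v hv =>
  mem_PP.mpr ⟨h.le hv, fun w hw => h.comm w hw v hv⟩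

theorem TIData.conj_V (h : TIData V Q) {m : G} (hm : m ∈ normalizer (V : Set G)) {v : G}
    (hv : v ∈ V) : m * v * m⁻¹ ∈ V := (mem_normalizer_iff.mp hm v).mp hv

theorem TIData.conj_V' (h : TIData V Q) {m : G} (hm : m ∈ normalizer (V : Set G)) {v : G}
    (hv : v ∈ V) : m⁻¹ * v * m ∈ V := by
  have := h.conj_V ((normalizer (V : Set G)).inv_mem hm) hv
  simpa using this

theorem TIData.PP_conj (h : TIData V Q) {m : G} (hm : m ∈ normalizer (V : Set G)) {x : G}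
    (hx : x ∈ PP V Q) : m * x * m⁻¹ ∈ PP V Q := by
  rw [mem_PP] at hx ⊢
  refine ⟨h.Qn m hm x hx.1, fun v hv => ?_⟩
  have h1 := hx.2 _ (h.conj_V' hm hv)
  calc v * (m * x * m⁻¹) = m * ((m⁻¹ * v * m) * x) * m⁻¹ := by group
    _ = m * x * m⁻¹ * v := by rw [h1]; group

theorem TIData.PP_le (h : TIData V Q) : PP V Q ≤ normalizer (V : Set G) :=
  inf_le_left.trans h.Qle

theorem TIData.PP2 (h : TIData V Q) : IsPGroup 2 (PP V Q) := h.Q2.to_le inf_le_left

/-- elements of `V` are central in `P` -/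
theorem TIData.comm_VP (_h : TIData V Q) {v x : G} (hv : v ∈ V) (hx : x ∈ PP V Q) : v * x = x * v :=
  (mem_PP.mp hx).2 v hv

theorem TIData.center_le (h : TIData V Q) {x : G} (hx : x ∈ PP V Q)
    (hc : ∀ y ∈ PP V Q, x * y = y * x) : x ∈ V := by
  have key : PP V Q ⊓ centralizer ((PP V Q : Subgroup G) : Set G) = V := by
    apply h.max
    · intro v hv
      refine mem_inf.mpr ⟨h.le_PP hv, ?_⟩
      rw [mem_centralizer_iff]
      intro y hy
      exact (h.comm_VP hv hy).symm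
    · exact inf_le_left.trans h.PP_le
    · intro a ha b hb
      exact (mem_centralizer_iff.mp hb.2 a ha.1)
    · intro m hm a ha
      refine mem_inf.mpr ⟨h.PP_conj hm ha.1, ?_⟩
      rw [mem_centralizer_iff]
      intro y hy
      have h1 : m⁻¹ * y * m ∈ PP V Q := by
        have := h.PP_conj ((normalizer (V : Set G)).inv_mem hm) hy
        simpa using this
      have h2 := mem_centralizer_iff.mp ha.2 _ h1
      calc y * (m * a * m⁻¹) = m * ((m⁻¹ * y * m) * a) * m⁻¹ := by group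
        _ = m * a * m⁻¹ * y := by rw [h2]; group
  rw [← key]
  refine mem_inf.mpr ⟨hx, ?_⟩
  rw [mem_centralizer_iff]
  intro y hy
  exact (hc y hy).symm

/-- the second centre of `P` relative to `V` -/
def Z2 (h : TIData V Q) : Subgroup G where
  carrier := {z | z ∈ PP V Q ∧ ∀ y ∈ PP V Q, z * y * z⁻¹ * y⁻¹ ∈ V}
  one_mem' := ⟨one_mem _, fun y _ => by simp⟩
  mul_mem' := by
    rintro a b ⟨ha, ha2⟩ ⟨hb, hb2⟩
    refine ⟨mul_mem ha hb, fun y hy => ?_⟩
    have h1 := hb2 y hy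
    have h2 := ha2 y hy
    have h3 := h.comm_VP h1 ha
    have : a * b * y * (a * b)⁻¹ * y⁻¹ = (b * y * b⁻¹ * y⁻¹) * (a * y * a⁻¹ * y⁻¹) := by
      calc a * b * y * (a * b)⁻¹ * y⁻¹ = a * (b * y * b⁻¹ * y⁻¹) * (y * a⁻¹ * y⁻¹) := by group
        _ = (b * y * b⁻¹ * y⁻¹) * a * (y * a⁻¹ * y⁻¹) := by rw [h3]
        _ = _ := by group
    rw [this]
    exact mul_mem h1 h2
  inv_mem' := by
    rintro a ⟨ha, ha2⟩
    refine ⟨inv_mem ha, fun y hy => ?_⟩
    have h2 := inv_mem (ha2 y hy)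
    have h3 := h.comm_VP h2 (inv_mem ha)
    have : a⁻¹ * y * a⁻¹⁻¹ * y⁻¹ = (a * y * a⁻¹ * y⁻¹)⁻¹ := by
      calc a⁻¹ * y * a⁻¹⁻¹ * y⁻¹ = a⁻¹ * (a * y * a⁻¹ * y⁻¹)⁻¹ * a := by group
        _ = (a * y * a⁻¹ * y⁻¹)⁻¹ * a⁻¹ * a := by rw [h3]
        _ = _ := by group
    rw [this]
    exact h2

theorem mem_Z2 (h : TIData V Q) {z : G} :
    z ∈ Z2 h ↔ z ∈ PP V Q ∧ ∀ y ∈ PP V Q, z * y * z⁻¹ * y⁻¹ ∈ V := Iff.rfl

theorem Z2_comm_sq (h : TIData V Q) {z x : G} (hz : z ∈ Z2 h) (hx : x ∈ PP V Q) :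
    z * (x * x) = (x * x) * z := by
  have h1 := hz.2 x hx
  set c := z * x * z⁻¹ * x⁻¹ with hc
  have h2 : z * x = c * x * z := by rw [hc]; group
  have h3 := h.comm_VP h1 hx
  calc z * (x * x) = (z * x) * x := by group
    _ = (c * x * z) * x := by rw [h2]
    _ = c * x * (z * x) := by group
    _ = c * x * (c * x * z) := by rw [h2]
    _ = c * (x * c) * x * z := by group
    _ = (c * c) * (x * x) * z := by rw [← h3]; group
    _ = (x * x) * z := by rw [h.sq c h1, one_mul]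

/-- the subgroup generated by `V` and the squares of `P` -/
def SQ (V Q : Subgroup G) : Subgroup G := closure {y | y ∈ V ∨ ∃ x ∈ PP V Q, y = x * x}

theorem SQ_le (h : TIData V Q) : SQ V Q ≤ PP V Q := by
  rw [SQ, closure_le]
  rintro y (hy | ⟨x, hx, rfl⟩)
  · exact h.le_PP hy
  · exact mul_mem hx hx

theorem SQ_comm (h : TIData V Q) {s z : G} (hs : s ∈ SQ V Q) (hz : z ∈ Z2 h) : s * z = z * s := by
  have h1 : SQ V Q ≤ centralizer ((Z2 h : Subgroup G) : Set G) := by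
    rw [SQ, closure_le]
    intro y hy
    rw [SetLike.mem_coe, mem_centralizer_iff]
    intro w hw
    rcases hy with hy | ⟨x, hx, rfl⟩
    · exact (h.comm_VP hy hw.1).symm
    · exact Z2_comm_sq h hw hx
  exact (mem_centralizer_iff.mp (h1 hs) z hz).symm

theorem SQ_conj (h : TIData V Q) {m : G} (hm : m ∈ normalizer (V : Set G)) {x : G}
    (hx : x ∈ SQ V Q) : m * x * m⁻¹ ∈ SQ V Q := by
  have h1 : SQ V Q ≤ (SQ V Q).comap (MulAut.conj m).toMonoidHom := by
    conv_lhs => rw [SQ]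
    rw [closure_le]
    rintro y (hy | ⟨x, hx, rfl⟩)
    · change m * y * m⁻¹ ∈ SQ V Q
      exact subset_closure (Or.inl (h.conj_V hm hy))
    · change m * (x * x) * m⁻¹ ∈ SQ V Q
      refine subset_closure (Or.inr ⟨m * x * m⁻¹, h.PP_conj hm hx, by group⟩)
  exact h1 hx

variable [Finite G]

theorem SQ_eq (h : TIData V Q) : SQ V Q = V := by
  have hA : Z2 h ⊓ SQ V Q = V := by
    apply h.max
    · intro v hv
      refine ⟨⟨h.le_PP hv, fun y hy => ?_⟩, subset_closure (Or.inl hv)⟩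
      have : v * y * v⁻¹ * y⁻¹ = 1 := by rw [h.comm_VP hv hy]; group
      rw [this]
      exact one_mem _
    · exact (inf_le_right.trans (SQ_le h)).trans h.PP_le
    · intro a ha b hb
      exact SQ_comm h ha.2 hb.1
    · intro m hm a ha
      refine ⟨⟨h.PP_conj hm ha.1.1, fun y hy => ?_⟩, SQ_conj h hm ha.2⟩
      have h1 : m⁻¹ * y * m ∈ PP V Q := by
        have := h.PP_conj ((normalizer (V : Set G)).inv_mem hm) hy
        simpa using this
      have h2 := h.conj_V hm (ha.1.2 _ h1)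
      convert h2 using 1; group
  apply le_antisymm
  · by_contra hne
    obtain ⟨z, hz, hzV, hz2⟩ := exists_fixed_mod (p := 2) (P := PP V Q) (V := V) (N := SQ V Q) h.PP2
      (h.PP2.to_le (SQ_le h)) hne (fun x hx v hv => h.conj_V (h.PP_le hx) hv)
      (fun x hx n hn => SQ_conj h (h.PP_le hx) hn)
    apply hzV
    rw [← hA]
    refine ⟨⟨SQ_le h hz, fun y hy => ?_⟩, hz⟩
    have h1 := hz2 y hy
    set v := z⁻¹ * (y * z * y⁻¹) with hv
    have h3 : y * z * y⁻¹ = z * v := by rw [hv]; group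
    have h4 : v⁻¹ * z = z * v⁻¹ := h.comm_VP (inv_mem h1) (SQ_le h hz)
    have : z * y * z⁻¹ * y⁻¹ = v⁻¹ := by
      calc z * y * z⁻¹ * y⁻¹ = z * (y * z * y⁻¹)⁻¹ := by group
        _ = z * v⁻¹ * z⁻¹ := by rw [h3]; group
        _ = v⁻¹ * z * z⁻¹ := by rw [h4]
        _ = v⁻¹ := by group
    rw [this]
    exact inv_mem h1
  · exact fun v hv => subset_closure (Or.inl hv)

theorem TIData.sq_mem (h : TIData V Q) {x : G} (hx : x ∈ PP V Q) : x * x ∈ V := by
  rw [← SQ_eq h]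
  exact subset_closure (Or.inr ⟨x, hx, rfl⟩)

theorem TIData.comm_mem (h : TIData V Q) {x y : G} (hx : x ∈ PP V Q) (hy : y ∈ PP V Q) :
    x * y * x⁻¹ * y⁻¹ ∈ V := by
  have h1 := h.sq_mem (mul_mem hx hy)
  have h2 := h.sq_mem (mul_mem (mul_mem (inv_mem hy) (inv_mem hx)) hy)
  have h3 := h.sq_mem (inv_mem hy)
  have : x * y * x⁻¹ * y⁻¹ = (x * y * (x * y)) * ((y⁻¹ * x⁻¹ * y) * (y⁻¹ * x⁻¹ * y)) * (y⁻¹ * y⁻¹) := by
    group
  rw [this]
  exact mul_mem (mul_mem h1 h2) h3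

/-- conjugates of `V` meet trivially or are equal -/
theorem TIData.cj_eq (h : TIData V Q) {a b w : G} (hw : w ≠ 1) (ha : w ∈ cj a V) (hb : w ∈ cj b V) :
    cj a V = cj b V := by
  rw [mem_cj] at ha hb
  have h1 : b⁻¹ * a ∈ normalizer (V : Set G) := by
    refine h.ti _ _ ha ?_ ?_
    · intro h1
      apply hw
      calc w = a * (a⁻¹ * w * a) * a⁻¹ := by group
        _ = 1 := by rw [h1]; group
    · convert hb using 1; group
  have h2 := cj_eq_of_mem_normalizer h1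
  calc cj a V = cj (b * (b⁻¹ * a)) V := by rw [mul_inv_cancel_left]
    _ = cj b (cj (b⁻¹ * a) V) := cj_mul _ _ _
    _ = cj b V := by rw [h2]

/-- `U` is a conjugate of `V` different from `V` and contained in `P`. -/
structure Other (V Q U : Subgroup G) : Prop where
  ex : ∃ k : G, U = cj k V
  ne : U ≠ V
  le : U ≤ PP V Q

theorem card_cj (k : G) (V : Subgroup G) : Nat.card (cj k V) = Nat.card V :=
  Subgroup.card_map_of_injective (MulAut.conj k).injective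

theorem Other.card {U : Subgroup G} (hU : Other V Q U) : Nat.card U = Nat.card V := by
  obtain ⟨k, rfl⟩ := hU.ex
  exact card_cj k V

theorem Other.inter {U : Subgroup G} (h : TIData V Q) (hU : Other V Q U) {w : G} (h1 : w ∈ U)
    (h2 : w ∈ V) : w = 1 := by
  by_contra hw
  obtain ⟨k, hk⟩ := hU.ex
  apply hU.ne
  rw [hk] at h1 ⊢
  have := h.cj_eq hw h1 (b := 1) (by rw [mem_cj]; simpa using h2)
  rw [this]
  exact cj_one V

theorem Other.conj {U : Subgroup G} (h : TIData V Q) (hU : Other V Q U) {m : G}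
    (hm : m ∈ normalizer (V : Set G)) : Other V Q (cj m U) where
  ex := by
    obtain ⟨k, hk⟩ := hU.ex
    exact ⟨m * k, by rw [hk]; exact (cj_mul m k V).symm⟩
  ne := by
    intro h1
    apply hU.ne
    apply cj_inj (g := m)
    change cj m U = cj m V
    rw [h1, cj_eq_of_mem_normalizer hm]
  le := by
    intro x hx
    rw [mem_cj] at hx
    have := h.PP_conj hm (hU.le hx)
    simpa [mul_assoc] using this

/-- an element of `P` centralizing one nontrivial element of `U` centralizes `U` -/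
theorem Other.comm_of_comm {U : Subgroup G} (h : TIData V Q) (hU : Other V Q U) {x u w : G}
    (hx : x ∈ PP V Q) (hu : u ∈ U) (hu1 : u ≠ 1) (hxu : x * u = u * x) (hw : w ∈ U) :
    x * w = w * x := by
  obtain ⟨k, hk⟩ := hU.ex
  have hUd : TIData U (cj k Q) := hk ▸ h.cjD k
  have hxN : x ∈ normalizer (U : Set G) := by
    refine hUd.ti x u hu hu1 ?_
    have : x * u * x⁻¹ = u := by rw [hxu]; group
    rw [this]
    exact hu
  have h1 : x * w * x⁻¹ * w⁻¹ ∈ U := mul_mem (hUd.conj_V hxN hw) (inv_mem hw)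
  have h2 := h.comm_mem hx (hU.le hw)
  have h3 := hU.inter h h1 h2
  calc x * w = (x * w * x⁻¹ * w⁻¹) * w * x := by group
    _ = w * x := by rw [h3, one_mul]

/-- existence of a conjugate in `P` not commuting with `U` -/
theorem Other.exists_noncomm {U : Subgroup G} (h : TIData V Q) (hU : Other V Q U) :
    ∃ m ∈ normalizer (V : Set G), ∃ x ∈ U, ∃ y ∈ cj m U, x * y ≠ y * x := by
  by_contra hcon
  push Not at hcon
  have hcomm : ∀ m ∈ normalizer (V : Set G), ∀ n ∈ normalizer (V : Set G), ∀ x ∈ U, ∀ y ∈ U,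
      (m * x * m⁻¹) * (n * y * n⁻¹) = (n * y * n⁻¹) * (m * x * m⁻¹) := by
    intro m hm n hn x hx y hy
    have h1 := hcon (m⁻¹ * n) (mul_mem (inv_mem hm) hn) x hx ((m⁻¹ * n) * y * (m⁻¹ * n)⁻¹) (by
      rw [mem_cj]
      simpa [mul_assoc] using hy)
    calc (m * x * m⁻¹) * (n * y * n⁻¹) = m * (x * ((m⁻¹ * n) * y * (m⁻¹ * n)⁻¹)) * m⁻¹ := by group
      _ = (n * y * n⁻¹) * (m * x * m⁻¹) := by rw [h1]; group
  set S : Set G := {y | y ∈ V ∨ ∃ m ∈ normalizer (V : Set G), ∃ u ∈ U, y = m * u * m⁻¹} with hS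
  have hSP : S ⊆ PP V Q := by
    rintro y (hy | ⟨m, hm, u, hu, rfl⟩)
    · exact h.le_PP hy
    · exact h.PP_conj hm (hU.le hu)
  have hSc : ∀ x ∈ S, ∀ y ∈ S, x * y = y * x := by
    rintro x (hx | ⟨m, hm, u, hu, rfl⟩) y (hy | ⟨n, hn, w, hw, rfl⟩)
    · exact h.comm x hx y hy
    · exact h.comm_VP hx (h.PP_conj hn (hU.le hw))
    · exact (h.comm_VP hy (h.PP_conj hm (hU.le hu))).symm
    · exact hcomm m hm n hn u hu w hw
  have hA : closure S = V := by
    apply h.max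
    · exact fun v hv => subset_closure (Or.inl hv)
    · rw [closure_le]
      exact fun y hy => h.PP_le (hSP hy)
    · have h1 : closure S ≤ centralizer S := by
        rw [closure_le]
        intro x hx
        rw [SetLike.mem_coe, mem_centralizer_iff]
        intro y hy
        exact hSc y hy x hx
      have h2 : closure S ≤ centralizer ((closure S : Subgroup G) : Set G) := by
        rw [closure_le]
        intro x hx
        rw [SetLike.mem_coe, mem_centralizer_iff]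
        intro y hy
        exact (mem_centralizer_iff.mp (h1 hy) x hx).symm
      intro a ha b hb
      exact mem_centralizer_iff.mp (h2 hb) a ha
    · intro m hm a ha
      have h1 : closure S ≤ (closure S).comap (MulAut.conj m).toMonoidHom := by
        rw [closure_le]
        rintro y (hy | ⟨n, hn, u, hu, rfl⟩)
        · exact subset_closure (Or.inl (h.conj_V hm hy))
        · change m * (n * u * n⁻¹) * m⁻¹ ∈ closure S
          exact subset_closure (Or.inr ⟨m * n, mul_mem hm hn, u, hu, by group⟩)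
      exact h1 ha
  have h1 : U ≤ V := by
    intro u hu
    rw [← hA]
    exact subset_closure (Or.inr ⟨1, one_mem _, u, hu, by simp⟩)
  apply hU.ne
  apply Subgroup.eq_of_le_of_card_ge h1
  rw [hU.card]

/-- a pair of non commuting conjugates in `P` -/
structure NPair (V Q U U₂ : Subgroup G) : Prop where
  o : Other V Q U
  o₂ : Other V Q U₂
  nc : ∃ x ∈ U, ∃ y ∈ U₂, x * y ≠ y * x

theorem NPair.symm {U U₂ : Subgroup G} (hn : NPair V Q U U₂) : NPair V Q U₂ U where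
  o := hn.o₂
  o₂ := hn.o
  nc := by
    obtain ⟨x, hx, y, hy, hxy⟩ := hn.nc
    exact ⟨y, hy, x, hx, hxy.symm⟩

theorem NPair.eq_one {U U₂ : Subgroup G} (h : TIData V Q) (hn : NPair V Q U U₂) {x y : G}
    (hx : x ∈ U) (hx1 : x ≠ 1) (hy : y ∈ U₂) (hxy : x * y = y * x) : y = 1 := by
  by_contra hy1
  obtain ⟨a, ha, b, hb, hab⟩ := hn.nc
  apply hab
  -- `y` centralizes `U`
  have h1 : ∀ w ∈ U, y * w = w * y := fun w hw =>
    hn.o.comm_of_comm h (hn.o₂.le hy) hx hx1 hxy.symm hw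
  exact hn.o₂.comm_of_comm h (hn.o.le ha) hy hy1 (h1 a ha).symm hb

theorem NPair.surj {U U₂ : Subgroup G} (h : TIData V Q) (hn : NPair V Q U U₂) {x : G}
    (hx : x ∈ U) (hx1 : x ≠ 1) {v : G} (hv : v ∈ V) : ∃ y ∈ U₂, y * x * y⁻¹ = v * x := by
  let f : U₂ → V := fun y => ⟨y.1 * x * y.1⁻¹ * x⁻¹, h.comm_mem (hn.o₂.le y.2) (hn.o.le hx)⟩
  have hinj : Function.Injective f := by
    intro y z hyz
    have h1 : y.1 * x * y.1⁻¹ * x⁻¹ = z.1 * x * z.1⁻¹ * x⁻¹ := congrArg Subtype.val hyz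
    have h2 : y.1 * x * y.1⁻¹ = z.1 * x * z.1⁻¹ := mul_right_cancel h1
    have h3 : x * (z.1⁻¹ * y.1) = (z.1⁻¹ * y.1) * x := by
      calc x * (z.1⁻¹ * y.1) = z.1⁻¹ * (z.1 * x * z.1⁻¹) * y.1 := by group
        _ = (z.1⁻¹ * y.1) * x := by rw [← h2]; group
    have h4 := hn.eq_one h hx hx1 (mul_mem (inv_mem z.2) y.2) h3
    exact Subtype.ext (inv_mul_eq_one.mp h4).symm
  have hbij : Function.Bijective f := by
    have := Fintype.ofFinite U₂
    have := Fintype.ofFinite V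
    rw [Fintype.bijective_iff_injective_and_card]
    refine ⟨hinj, ?_⟩
    rw [← Nat.card_eq_fintype_card, ← Nat.card_eq_fintype_card, hn.o₂.card]
  obtain ⟨y, hy⟩ := hbij.2 ⟨v, hv⟩
  refine ⟨y.1, y.2, ?_⟩
  have h1 : y.1 * x * y.1⁻¹ * x⁻¹ = v := congrArg Subtype.val hy
  rw [← h1]
  group

end Cfsg.Agent.ClassificationK.TIPair
end

-- part: ClassificationK/TIPairSym
section
/-!
# TI-subgroups: partition of `W = V U` and the symmetry `V ≤ O_2(N(U))` (for S1786)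
-/

set_option autoImplicit false

namespace Cfsg.Agent.ClassificationK.TIPair

open Subgroup
open Cfsg.Agent.ClassificationK.TIFamily (mem_cj cj_mul cj_one cj_inj cj_inv_of_eq cj_mul_of_eq cj_of_mem)

variable {G : Type*} [Group G] {V Q U U₂ Q' : Subgroup G}

theorem mem_sup_of_comm {A B : Subgroup G} (hc : ∀ a ∈ A, ∀ b ∈ B, a * b = b * a) {x : G} :
    x ∈ A ⊔ B ↔ ∃ a ∈ A, ∃ b ∈ B, x = a * b := by
  constructor
  · let T : Subgroup G :=
      { carrier := {x | ∃ a ∈ A, ∃ b ∈ B, x = a * b}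
        one_mem' := ⟨1, one_mem _, 1, one_mem _, by simp⟩
        mul_mem' := by
          rintro _ _ ⟨a, ha, b, hb, rfl⟩ ⟨c, hc', d, hd, rfl⟩
          refine ⟨a * c, mul_mem ha hc', b * d, mul_mem hb hd, ?_⟩
          have := hc c hc' b hb
          calc a * b * (c * d) = a * (b * c) * d := by group
            _ = a * c * (b * d) := by rw [← this]; group
        inv_mem' := by
          rintro _ ⟨a, ha, b, hb, rfl⟩
          refine ⟨a⁻¹, inv_mem ha, b⁻¹, inv_mem hb, ?_⟩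
          rw [hc a ha b hb]
          group }
    have hT : A ⊔ B ≤ T :=
      sup_le (fun a ha => ⟨a, ha, 1, one_mem _, by simp⟩) (fun b hb => ⟨1, one_mem _, b, hb, by simp⟩)
    exact fun hx => hT hx
  · rintro ⟨a, ha, b, hb, rfl⟩
    exact mul_mem (mem_sup_left ha) (mem_sup_right hb)

variable [Finite G]

theorem Other.comm (h : TIData V Q) (hU : Other V Q U) {v u : G} (hv : v ∈ V) (hu : u ∈ U) :
    v * u = u * v := h.comm_VP hv (hU.le hu)

theorem Other.sq (h : TIData V Q) (hU : Other V Q U) {u : G} (hu : u ∈ U) : u * u = 1 := by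
  obtain ⟨k, hk⟩ := hU.ex
  have hUd : TIData U (cj k Q) := hk ▸ h.cjD k
  exact hUd.sq u hu

theorem Other.mul_comm (h : TIData V Q) (hU : Other V Q U) {u w : G} (hu : u ∈ U) (hw : w ∈ U) :
    u * w = w * u := by
  obtain ⟨k, hk⟩ := hU.ex
  have hUd : TIData U (cj k Q) := hk ▸ h.cjD k
  exact hUd.comm u hu w hw

theorem Other.mem_W (h : TIData V Q) (hU : Other V Q U) {x : G} :
    x ∈ V ⊔ U ↔ ∃ v ∈ V, ∃ u ∈ U, x = v * u :=
  mem_sup_of_comm (fun _ hv _ hu => hU.comm h hv hu)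

theorem Other.ne_bot (hU : Other V Q U) : V ≠ ⊥ := by
  rintro rfl
  apply hU.ne
  have := hU.card
  rw [Subgroup.card_bot] at this
  exact Subgroup.card_eq_one.mp this

theorem Other.W_le (h : TIData V Q) (hU : Other V Q U) : V ⊔ U ≤ PP V Q := sup_le h.le_PP hU.le

/-- `P` normalizes `W` -/
theorem Other.conj_W (h : TIData V Q) (hU : Other V Q U) {x w : G} (hx : x ∈ PP V Q)
    (hw : w ∈ V ⊔ U) : x * w * x⁻¹ ∈ V ⊔ U := by
  have h1 := h.comm_mem hx (hU.W_le h hw)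
  have : x * w * x⁻¹ = (x * w * x⁻¹ * w⁻¹) * w := by group
  rw [this]
  exact mul_mem (mem_sup_left h1) hw

theorem cj_le_of_conj {A : Subgroup G} {x : G} (hx : ∀ w ∈ A, x * w * x⁻¹ ∈ A) : cj x A ≤ A := by
  rintro _ ⟨w, hw, rfl⟩
  exact hx w hw

theorem cj_eq_of_le {A : Subgroup G} {x : G} (hx : cj x A ≤ A) : cj x A = A :=
  Subgroup.eq_of_le_of_card_ge hx (card_cj x A).ge

theorem Other.cj_W (h : TIData V Q) (hU : Other V Q U) {x : G} (hx : x ∈ PP V Q) :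
    cj x (V ⊔ U) = V ⊔ U := cj_eq_of_le (cj_le_of_conj fun _ hw => hU.conj_W h hx hw)

theorem NPair.cover (h : TIData V Q) (hn : NPair V Q U U₂) {x : G} (hx : x ∈ V ⊔ U) (hxV : x ∉ V) :
    ∃ y ∈ U₂, x ∈ cj y U := by
  obtain ⟨v, hv, u, hu, rfl⟩ := (hn.o.mem_W h).mp hx
  have hu1 : u ≠ 1 := by
    rintro rfl
    exact hxV (by simpa using hv)
  obtain ⟨y, hy, hyu⟩ := hn.surj h hu hu1 hv
  exact ⟨y, hy, by rw [← hyu]; exact ⟨u, hu, rfl⟩⟩

theorem cj_mono {A B : Subgroup G} (x : G) (hAB : A ≤ B) : cj x A ≤ cj x B := Subgroup.map_mono hAB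

theorem exists_cj_ne_one (hV : V ≠ ⊥) (k : G) : ∃ w ∈ cj k V, w ≠ 1 := by
  by_contra hcon
  push Not at hcon
  apply hV
  rw [eq_bot_iff]
  intro v hv
  have := hcon (k * v * k⁻¹) ⟨v, hv, rfl⟩
  rw [mem_bot]
  calc v = k⁻¹ * (k * v * k⁻¹) * k := by group
    _ = 1 := by rw [this]; group

/-- every conjugate of `V` meeting `W` nontrivially is `V` or `U ^ y`, and is contained in `W` -/
theorem NPair.conj_in_W (h : TIData V Q) (hn : NPair V Q U U₂) {k w : G} (hk : w ∈ cj k V)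
    (hw1 : w ≠ 1) (hwW : w ∈ V ⊔ U) : cj k V = V ∨ ∃ y ∈ U₂, cj k V = cj y U := by
  by_cases hwV : w ∈ V
  · left
    have := h.cj_eq hw1 hk (b := 1) (by rw [mem_cj]; simpa using hwV)
    rw [this]
    exact cj_one V
  · right
    obtain ⟨y, hy, hyw⟩ := hn.cover h hwW hwV
    refine ⟨y, hy, ?_⟩
    obtain ⟨g, hg⟩ := hn.o.ex
    have h1 : cj y U = cj (y * g) V := by rw [hg]; exact (cj_mul y g V).symm
    rw [h1] at hyw ⊢
    exact h.cj_eq hw1 hk hyw

theorem NPair.conj_le_W (h : TIData V Q) (hn : NPair V Q U U₂) {k w : G} (hk : w ∈ cj k V)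
    (hw1 : w ≠ 1) (hwW : w ∈ V ⊔ U) : cj k V ≤ V ⊔ U := by
  rcases hn.conj_in_W h hk hw1 hwW with h1 | ⟨y, hy, h1⟩
  · rw [h1]
    exact le_sup_left
  · rw [h1, ← hn.o.cj_W h (hn.o₂.le hy)]
    exact cj_mono y le_sup_right

/-- `D1`: `P = U₂ C_P(U)` -/
theorem NPair.decomp (h : TIData V Q) (hn : NPair V Q U U₂) {x : G} (hx : x ∈ PP V Q) :
    ∃ y ∈ U₂, ∀ u ∈ U, (y⁻¹ * x) * u = u * (y⁻¹ * x) := by
  obtain ⟨a, ha, b, hb, hab⟩ := hn.nc
  have ha1 : a ≠ 1 := by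
    rintro rfl
    exact hab (by simp)
  obtain ⟨y, hy, hya⟩ := hn.surj h ha ha1 (h.comm_mem hx (hn.o.le ha))
  refine ⟨y, hy, fun u hu => ?_⟩
  have hyx : y⁻¹ * x ∈ PP V Q := mul_mem (inv_mem (hn.o₂.le hy)) hx
  refine hn.o.comm_of_comm h hyx ha ha1 ?_ hu
  have h1 : y * a * y⁻¹ = x * a * x⁻¹ := by rw [hya]; group
  calc y⁻¹ * x * a = y⁻¹ * (x * a * x⁻¹) * x := by group
    _ = a * (y⁻¹ * x) := by rw [← h1]; group

/-- `C_P(C_P(U)) ≤ W` -/
theorem NPair.cpc (h : TIData V Q) (hn : NPair V Q U U₂) {y : G} (hy : y ∈ PP V Q)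
    (hc : ∀ c ∈ PP V Q, (∀ u ∈ U, c * u = u * c) → y * c = c * y) : y ∈ V ⊔ U := by
  obtain ⟨u, hu, hu2⟩ := hn.symm.decomp h hy
  have hd : u⁻¹ * y ∈ V := by
    apply h.center_le (mul_mem (inv_mem (hn.o.le hu)) hy)
    intro x hx
    obtain ⟨y₂, hy₂, hc₂⟩ := hn.decomp h hx
    have h1 : (u⁻¹ * y) * y₂ = y₂ * (u⁻¹ * y) := hu2 y₂ hy₂
    have h2 : y * (y₂⁻¹ * x) = (y₂⁻¹ * x) * y :=
      hc _ (mul_mem (inv_mem (hn.o₂.le hy₂)) hx) hc₂
    have h3 : (y₂⁻¹ * x) * u⁻¹ = u⁻¹ * (y₂⁻¹ * x) := hc₂ _ (inv_mem hu)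
    calc u⁻¹ * y * x = (u⁻¹ * y * y₂) * (y₂⁻¹ * x) := by group
      _ = y₂ * u⁻¹ * (y * (y₂⁻¹ * x)) := by rw [h1]; group
      _ = y₂ * (u⁻¹ * (y₂⁻¹ * x)) * y := by rw [h2]; group
      _ = x * (u⁻¹ * y) := by rw [← h3]; group
  have : y = (u⁻¹ * y) * u := by
    rw [hn.o.comm h hd hu]
    group
  rw [this]
  exact mul_mem (mem_sup_left hd) (mem_sup_right hu)

/-- An element of `N(V)` centralizing `P` lies in `Q`. -/
theorem TIData.mem_of_centralizes (h : TIData V Q) {y : G} (hy : y ∈ normalizer (V : Set G))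
    (hc : ∀ x ∈ PP V Q, y * x = x * y) : y ∈ Q := by
  have hK : normalizer (V : Set G) ⊓ centralizer ((PP V Q : Subgroup G) : Set G) ≤ Q := by
    apply h.Qmax
    · exact inf_le_left
    · rintro ⟨z, hz⟩
      have hzN : z ∈ normalizer (V : Set G) := hz.1
      have hzc : ∀ x ∈ PP V Q, z * x = x * z := fun x hx =>
        (mem_centralizer_iff.mp hz.2 x hx).symm
      obtain ⟨n, m, hm, hnm⟩ := Nat.exists_eq_pow_mul_and_not_dvd (orderOf_pos z).ne' 2 (by norm_num)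
      refine ⟨n, Subtype.ext ?_⟩
      change z ^ 2 ^ n = 1
      set t := z ^ 2 ^ n with ht
      have htm : t ^ m = 1 := by
        rw [ht, ← pow_mul, ← hnm, pow_orderOf_eq_one]
      have htN : t ∈ normalizer (V : Set G) := pow_mem hzN _
      have htc : ∀ x ∈ PP V Q, t * x = x * t := by
        intro x hx
        exact ((show Commute z x from hzc x hx).pow_left _)
      have htQ : t ∈ Q := by
        apply h.Qc t htN
        intro x hx
        set c := x⁻¹ * (t * x * t⁻¹) with hcdef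
        have hcQ : c ∈ Q := mul_mem (inv_mem hx) (h.Qn t htN x hx)
        have hcP : c ∈ PP V Q := by
          rw [mem_PP]
          refine ⟨hcQ, fun v hv => ?_⟩
          have h1 : x * v * x⁻¹ ∈ V := h.conj_V (h.Qle hx) hv
          have h2 := htc _ (h.le_PP h1)
          have h3 := htc _ (h.le_PP hv)
          have h4 : t⁻¹ * v = v * t⁻¹ := by
            calc t⁻¹ * v = t⁻¹ * (v * t) * t⁻¹ := by group
              _ = v * t⁻¹ := by rw [← h3]; group
          calc v * c = x⁻¹ * ((x * v * x⁻¹) * t) * x * t⁻¹ := by rw [hcdef]; group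
            _ = x⁻¹ * t * x * (v * t⁻¹) := by rw [← h2]; group
            _ = c * v := by rw [← h4, hcdef]; group
        have h1 : Commute t c := htc c hcP
        have h2 : t * x * t⁻¹ = x * c := by rw [hcdef]; group
        have h3 : ∀ k : ℕ, t ^ k * x * (t ^ k)⁻¹ = x * c ^ k := by
          intro k
          induction k with
          | zero => simp
          | succ k ih =>
            have h4 : t * c ^ k * t⁻¹ = c ^ k := by
              rw [(h1.pow_right k).eq]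
              group
            calc t ^ (k + 1) * x * (t ^ (k + 1))⁻¹ = t * (t ^ k * x * (t ^ k)⁻¹) * t⁻¹ := by
                  rw [pow_succ']; group
              _ = (t * x * t⁻¹) * (t * c ^ k * t⁻¹) := by rw [ih]; group
              _ = x * c ^ (k + 1) := by rw [h4, h2, pow_succ']; group
        have h4 := h3 m
        rw [htm] at h4
        have h5 : c ^ m = 1 := by
          have : x * c ^ m = x := by rw [← h4]; group
          exact mul_eq_left.mp this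
        obtain ⟨j, hj⟩ := h.Q2 ⟨c, hcQ⟩
        have h6 : c ^ 2 ^ j = 1 := congrArg Subtype.val hj
        have h7 : Nat.Coprime (2 ^ j) m := by
          apply Nat.Coprime.pow_left
          exact (Nat.Prime.coprime_iff_not_dvd Nat.prime_two).mpr hm
        have h8 : c = 1 := by
          have h9 : orderOf c ∣ Nat.gcd (2 ^ j) m :=
            Nat.dvd_gcd (orderOf_dvd_of_pow_eq_one h6) (orderOf_dvd_of_pow_eq_one h5)
          rw [h7] at h9
          exact orderOf_eq_one_iff.mp (Nat.dvd_one.mp h9)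
        rw [h8, mul_one] at h2
        calc t * x = (t * x * t⁻¹) * t := by group
          _ = x * t := by rw [h2]
      obtain ⟨j, hj⟩ := h.Q2 ⟨t, htQ⟩
      have h6 : t ^ 2 ^ j = 1 := congrArg Subtype.val hj
      have h7 : Nat.Coprime (2 ^ j) m := by
        apply Nat.Coprime.pow_left
        exact (Nat.Prime.coprime_iff_not_dvd Nat.prime_two).mpr hm
      have h9 : orderOf t ∣ Nat.gcd (2 ^ j) m :=
        Nat.dvd_gcd (orderOf_dvd_of_pow_eq_one h6) (orderOf_dvd_of_pow_eq_one htm)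
      rw [h7] at h9
      exact orderOf_eq_one_iff.mp (Nat.dvd_one.mp h9)
    · intro m hm x hx
      refine mem_inf.mpr ⟨mul_mem (mul_mem hm hx.1) (inv_mem hm), ?_⟩
      rw [mem_centralizer_iff]
      intro y hy
      have h1 : m⁻¹ * y * m ∈ PP V Q := by
        have := h.PP_conj (inv_mem hm) hy
        simpa using this
      have h2 := mem_centralizer_iff.mp hx.2 _ h1
      calc y * (m * x * m⁻¹) = m * ((m⁻¹ * y * m) * x) * m⁻¹ := by group
        _ = m * x * m⁻¹ * y := by rw [h2]; group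
  apply hK
  refine mem_inf.mpr ⟨hy, ?_⟩
  rw [mem_centralizer_iff]
  intro x hx
  exact (hc x hx).symm

end Cfsg.Agent.ClassificationK.TIPair
end

-- part: ClassificationK/TIPairSwap
section
/-!
# TI-subgroups: `N(W)` moves `V` (for S1786)
-/

set_option autoImplicit false

namespace Cfsg.Agent.ClassificationK.TIPair

open Subgroup
open Cfsg.Agent.ClassificationK.TIFamily (mem_cj cj_mul cj_one cj_inj cj_inv_of_eq cj_mul_of_eq cj_of_mem)

variable {G : Type*} [Group G] {V Q U U₂ Q' : Subgroup G} [Finite G]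

/-- The contradiction hypothesis: `N(W) ≤ N(V)`. -/
structure Bad (V Q U U₂ Q' : Subgroup G) : Prop where
  h : TIData V Q
  h' : TIData U Q'
  hn : NPair V Q U U₂
  hN : ∀ x ∈ normalizer ((V ⊔ U : Subgroup G) : Set G), x ∈ normalizer (V : Set G)

omit [Finite G] in
theorem mem_normalizer_of_commute {A : Subgroup G} {x : G} (hx : ∀ a ∈ A, x * a = a * x) :
    x ∈ normalizer (A : Set G) := by
  apply centralizer_le_normalizer
  rw [mem_centralizer_iff]
  intro a ha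
  exact (hx a ha).symm

theorem Bad.V_le_NU (b : Bad V Q U U₂ Q') {v : G} (hv : v ∈ V) : v ∈ normalizer (U : Set G) :=
  mem_normalizer_of_commute fun _ hu => b.hn.o.comm b.h hv hu

theorem Bad.a1 (b : Bad V Q U U₂ Q') {v x : G} (hv : v ∈ V) (hv1 : v ≠ 1) (hx : x ∈ PP U Q')
    (hxv : x * v * x⁻¹ * v⁻¹ ∈ U) : x * v = v * x := by
  have hw : x * v * x⁻¹ ∈ V ⊔ U := by
    have : x * v * x⁻¹ = (x * v * x⁻¹ * v⁻¹) * v := by group
    rw [this]
    exact mul_mem (mem_sup_right hxv) (mem_sup_left hv)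
  have hw1 : x * v * x⁻¹ ≠ 1 := by
    intro h1
    apply hv1
    calc v = x⁻¹ * (x * v * x⁻¹) * x := by group
      _ = 1 := by rw [h1]; group
  have h1 : cj x V ≤ V ⊔ U := b.hn.conj_le_W b.h ⟨v, hv, rfl⟩ hw1 hw
  have h2 : cj x U ≤ V ⊔ U := by
    rw [cj_eq_of_mem_normalizer (b.h'.PP_le hx)]
    exact le_sup_right
  have h3 : cj x (V ⊔ U) ≤ V ⊔ U := by
    change (V ⊔ U).map _ ≤ _
    rw [Subgroup.map_sup]
    exact sup_le h1 h2
  have h4 := b.hN x (normalizer_of_cj_eq (cj_eq_of_le h3))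
  have h5 : x * v * x⁻¹ * v⁻¹ ∈ V := mul_mem (b.h.conj_V h4 hv) (inv_mem hv)
  have h6 := b.hn.o.inter b.h hxv h5
  calc x * v = (x * v * x⁻¹ * v⁻¹) * v * x := by group
    _ = v * x := by rw [h6, one_mul]

theorem Bad.a2 (b : Bad V Q U U₂ Q') {v : G} (hv : v ∈ V) (hvP : v ∈ PP U Q') : v = 1 := by
  by_contra hv1
  apply hv1
  refine b.hn.o.inter b.h (b.h'.center_le hvP fun y hy => ?_) hv
  exact (b.a1 hv hv1 hy (b.h'.comm_mem hy hvP)).symm

theorem Bad.a2' (b : Bad V Q U U₂ Q') {v : G} (hv : v ∈ V) (hvQ : v ∈ Q') : v = 1 :=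
  b.a2 hv (mem_PP.mpr ⟨hvQ, fun _ hu => (b.hn.o.comm b.h hv hu).symm⟩)

theorem Bad.a3 (b : Bad V Q U U₂ Q') {v x w : G} (hv : v ∈ V) (hv1 : v ≠ 1) (hx : x ∈ PP U Q')
    (hxv : x * v = v * x) (hw : w ∈ V) : x * w = w * x := by
  have hxN : x ∈ normalizer (V : Set G) := by
    refine b.h.ti x v hv hv1 ?_
    have : x * v * x⁻¹ = v := by rw [hxv]; group
    rwa [this]
  have h1 : x * w * x⁻¹ * w⁻¹ ∈ V := mul_mem (b.h.conj_V hxN hw) (inv_mem hw)
  have h2 : x * w * x⁻¹ * w⁻¹ ∈ PP U Q' := by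
    have : x * w * x⁻¹ * w⁻¹ = x * (w * x⁻¹ * w⁻¹) := by group
    rw [this]
    exact mul_mem hx (b.h'.PP_conj (b.V_le_NU hw) (inv_mem hx))
  have h3 := b.a2 h1 h2
  calc x * w = (x * w * x⁻¹ * w⁻¹) * w * x := by group
    _ = w * x := by rw [h3, one_mul]

/-- `P ∩ P' ≤ U` -/
theorem Bad.a4 (b : Bad V Q U U₂ Q') {y : G} (hy : y ∈ PP V Q) (hy' : y ∈ PP U Q') : y ∈ U := by
  have h1 : y ∈ V ⊔ U := by
    apply b.hn.cpc b.h hy
    intro c hc hcU
    have hcN : c ∈ normalizer (U : Set G) := mem_normalizer_of_commute hcU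
    have h1 : y * c * y⁻¹ * c⁻¹ ∈ V := b.h.comm_mem hy hc
    have h2 : y * c * y⁻¹ * c⁻¹ ∈ PP U Q' := by
      have : y * c * y⁻¹ * c⁻¹ = y * (c * y⁻¹ * c⁻¹) := by group
      rw [this]
      exact mul_mem hy' (b.h'.PP_conj hcN (inv_mem hy'))
    have h3 := b.a2 h1 h2
    calc y * c = (y * c * y⁻¹ * c⁻¹) * c * y := by group
      _ = c * y := by rw [h3, one_mul]
  obtain ⟨v, hv, u, hu, rfl⟩ := (b.hn.o.mem_W b.h).mp h1
  have hvP : v ∈ PP U Q' := by
    have : v = (v * u) * u⁻¹ := by group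
    rw [this]
    exact mul_mem hy' (inv_mem (b.h'.le_PP hu))
  rw [b.a2 hv hvP, one_mul]
  exact hu

/-- `C = C_P(U)` as a subgroup -/
abbrev CC (V Q U : Subgroup G) : Subgroup G := PP V Q ⊓ centralizer (U : Set G)

omit [Finite G] in
theorem mem_CC {x : G} : x ∈ CC V Q U ↔ x ∈ PP V Q ∧ ∀ u ∈ U, u * x = x * u := by
  rw [mem_inf, mem_centralizer_iff]
  rfl

omit [Finite G] in
theorem CC_le_N {x : G} (hx : x ∈ CC V Q U) : x ∈ normalizer (U : Set G) :=
  mem_normalizer_of_commute fun u hu => ((mem_CC.mp hx).2 u hu).symm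

/-- `[C, C'] ≤ U` -/
theorem Bad.a5 (b : Bad V Q U U₂ Q') {c d : G} (hc : c ∈ CC V Q U) (hd : d ∈ CC U Q' V) :
    c * d * c⁻¹ * d⁻¹ ∈ U := by
  apply b.a4
  · have : c * d * c⁻¹ * d⁻¹ = c * (d * c⁻¹ * d⁻¹) := by group
    rw [this]
    exact mul_mem (mem_CC.mp hc).1 (b.h.PP_conj (CC_le_N hd) (inv_mem (mem_CC.mp hc).1))
  · exact mul_mem (b.h'.PP_conj (CC_le_N hc) (mem_CC.mp hd).1) (inv_mem (mem_CC.mp hd).1)

/-- `x ∈ P'` with `[x, v] ∈ U` for one `v ≠ 1` lies in `C' = C_{P'}(V)` -/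
theorem Bad.mem_CC' (b : Bad V Q U U₂ Q') {v x : G} (hv : v ∈ V) (hv1 : v ≠ 1) (hx : x ∈ PP U Q')
    (hxv : x * v * x⁻¹ * v⁻¹ ∈ U) : x ∈ CC U Q' V :=
  mem_CC.mpr ⟨hx, fun _ hw => (b.a3 hv hv1 hx (b.a1 hv hv1 hx hxv) hw).symm⟩

theorem Bad.a6 (b : Bad V Q U U₂ Q') {v x : G} (hv : v ∈ V) (hx : x ∈ PP U Q') :
    x * v * x⁻¹ * v⁻¹ ∈ CC U Q' V := by
  by_cases hv1 : v = 1
  · have : x * v * x⁻¹ * v⁻¹ = 1 := by rw [hv1]; group
    rw [this]
    exact one_mem _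
  set y := x * v * x⁻¹ * v⁻¹ with hy
  have hyP : y ∈ PP U Q' := by
    have : y = x * (v * x⁻¹ * v⁻¹) := by rw [hy]; group
    rw [this]
    exact mul_mem hx (b.h'.PP_conj (b.V_le_NU hv) (inv_mem hx))
  refine b.mem_CC' hv hv1 hyP ?_
  have hvv : v⁻¹ = v := inv_eq_of_mul_eq_one_left (b.h.sq v hv)
  have h1 : v * y⁻¹ * v⁻¹ = y := by
    rw [hy]
    calc v * (x * v * x⁻¹ * v⁻¹)⁻¹ * v⁻¹ = v * v * x * v⁻¹ * x⁻¹ * v⁻¹ := by group
      _ = x * v * x⁻¹ * v⁻¹ := by rw [b.h.sq v hv, hvv]; group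
  have h2 : y * v * y⁻¹ * v⁻¹ = y * y := by
    calc y * v * y⁻¹ * v⁻¹ = y * (v * y⁻¹ * v⁻¹) := by group
      _ = y * y := by rw [h1]
  rw [h2]
  exact b.h'.sq_mem hyP

/-- `[P', C] ≤ C'` -/
theorem Bad.a7 (b : Bad V Q U U₂ Q') (hV : ∃ v ∈ V, v ≠ 1) {c x : G} (hc : c ∈ CC V Q U)
    (hx : x ∈ PP U Q') : x⁻¹ * (c * x * c⁻¹) ∈ CC U Q' V := by
  obtain ⟨v, hv, hv1⟩ := hV
  set t := x⁻¹ * (c * x * c⁻¹) with ht
  have htP : t ∈ PP U Q' := mul_mem (inv_mem hx) (b.h'.PP_conj (CC_le_N hc) hx)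
  refine b.mem_CC' hv hv1 htP ?_
  set y := x * v * x⁻¹ * v⁻¹ with hy
  have hyC : y ∈ CC U Q' V := b.a6 hv hx
  have h1 := b.a5 hc hyC
  have hcv : v * c = c * v := b.h.comm_VP hv (mem_CC.mp hc).1
  have h2 : c * v * c⁻¹ = v := by rw [← hcv]; group
  have h2' : c * v⁻¹ * c⁻¹ = v⁻¹ := by
    calc c * v⁻¹ * c⁻¹ = (c * v * c⁻¹)⁻¹ := by group
      _ = v⁻¹ := by rw [h2]
  have h3 : c * y * c⁻¹ = (x * t) * v * (x * t)⁻¹ * v⁻¹ := by
    have h4 : x * t = c * x * c⁻¹ := by rw [ht]; group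
    rw [h4, hy]
    calc c * (x * v * x⁻¹ * v⁻¹) * c⁻¹
        = (c * x * c⁻¹) * (c * v * c⁻¹) * (c * x * c⁻¹)⁻¹ * (c * v⁻¹ * c⁻¹) := by group
      _ = _ := by rw [h2, h2']
  have h5 : t * v * t⁻¹ * v⁻¹ = x⁻¹ * (c * y * c⁻¹ * y⁻¹) * x := by
    rw [h3, hy]
    group
  rw [h5]
  exact b.h'.conj_V' (b.h'.PP_le hx) h1

/-- `[C, C]` centralizes `P'` modulo `U` -/
theorem Bad.a8 (b : Bad V Q U U₂ Q') (hV : ∃ v ∈ V, v ≠ 1) {c d x : G} (hc : c ∈ CC V Q U)
    (hd : d ∈ CC V Q U) (hx : x ∈ PP U Q') :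
    x * (c * d * c⁻¹ * d⁻¹) * x⁻¹ * (c * d * c⁻¹ * d⁻¹)⁻¹ ∈ U := by
  -- conjugation by `c` on `P'`: `c x c⁻¹ = x t` with `t ∈ C'`
  have key : ∀ c ∈ CC V Q U, ∀ d ∈ CC V Q U, ∀ x ∈ PP U Q',
      ∃ u ∈ U, (c * d) * x * (c * d)⁻¹ =
        x * (x⁻¹ * (c * x * c⁻¹)) * (x⁻¹ * (d * x * d⁻¹)) * u := by
    intro c hc d hd x hx
    set s := x⁻¹ * (c * x * c⁻¹) with hs
    set t := x⁻¹ * (d * x * d⁻¹) with ht
    have htC : t ∈ CC U Q' V := b.a7 hV hd hx
    have h1 := b.a5 hc htC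
    have h1' : t⁻¹ * (c * t * c⁻¹) ∈ U := by
      have h2 := b.h'.conj_V' (b.h'.PP_le (mem_CC.mp htC).1) h1
      convert h2 using 1
      group
    refine ⟨t⁻¹ * (c * t * c⁻¹), h1', ?_⟩
    rw [hs, ht]
    group
  have e1 : ∀ x ∈ PP U Q', (c * d) * x * (c * d)⁻¹ * ((d * c) * x * (d * c)⁻¹)⁻¹ ∈ U := by
    intro x hx
    obtain ⟨u, hu, h1⟩ := key c hc d hd x hx
    obtain ⟨w, hw, h2⟩ := key d hd c hc x hx
    set s := x⁻¹ * (c * x * c⁻¹) with hs
    set t := x⁻¹ * (d * x * d⁻¹) with ht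
    have hsP : s ∈ PP U Q' := (mem_CC.mp (b.a7 hV hc hx)).1
    have htP : t ∈ PP U Q' := (mem_CC.mp (b.a7 hV hd hx)).1
    rw [h1, h2]
    have h3 : x * s * t * u * (x * t * s * w)⁻¹ = x * (s * t * (u * w⁻¹) * s⁻¹ * t⁻¹) * x⁻¹ := by
      group
    rw [h3]
    apply b.h'.conj_V (b.h'.PP_le hx)
    have huw : u * w⁻¹ ∈ U := mul_mem hu (inv_mem hw)
    have h4 : (u * w⁻¹) * (s⁻¹ * t⁻¹) = (s⁻¹ * t⁻¹) * (u * w⁻¹) :=
      b.h'.comm_VP huw (mul_mem (inv_mem hsP) (inv_mem htP))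
    have h5 : s * t * (u * w⁻¹) * s⁻¹ * t⁻¹ = (s * t * s⁻¹ * t⁻¹) * (u * w⁻¹) := by
      calc s * t * (u * w⁻¹) * s⁻¹ * t⁻¹ = s * t * ((u * w⁻¹) * (s⁻¹ * t⁻¹)) := by group
        _ = _ := by rw [h4]; group
    rw [h5]
    exact mul_mem (b.h'.comm_mem hsP htP) huw
  -- apply to `x' = (dc)⁻¹ x (dc)`
  have hdc : (d * c)⁻¹ ∈ normalizer (U : Set G) :=
    inv_mem (mul_mem (CC_le_N hd) (CC_le_N hc))
  have hx' : (d * c)⁻¹ * x * (d * c)⁻¹⁻¹ ∈ PP U Q' := b.h'.PP_conj hdc hx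
  have h1 := inv_mem (e1 _ hx')
  convert h1 using 1
  group

/-- `V` does not centralize `P'` -/
theorem Bad.a9 (b : Bad V Q U U₂ Q') (hc : ∀ x ∈ PP U Q', ∀ w ∈ V, x * w = w * x) : False := by
  apply b.hn.o.ne_bot
  rw [eq_bot_iff]
  intro v hv
  rw [mem_bot]
  refine b.a2' hv (b.h'.mem_of_centralizes (b.V_le_NU hv) fun x hx => (hc x hx v hv).symm)

theorem Bad.exists_ne_one (b : Bad V Q U U₂ Q') : ∃ v ∈ V, v ≠ 1 := by
  obtain ⟨w, hw, hw1⟩ := exists_cj_ne_one b.hn.o.ne_bot 1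
  refine ⟨w, ?_, hw1⟩
  rw [mem_cj] at hw
  simpa using hw

/-- `C` is abelian -/
theorem Bad.a10 (b : Bad V Q U U₂ Q') {c d : G} (hc : c ∈ CC V Q U) (hd : d ∈ CC V Q U) :
    c * d = d * c := by
  by_contra hcd
  have he : c * d * c⁻¹ * d⁻¹ ∈ V := b.h.comm_mem (mem_CC.mp hc).1 (mem_CC.mp hd).1
  have he1 : c * d * c⁻¹ * d⁻¹ ≠ 1 := by
    intro h1
    apply hcd
    calc c * d = (c * d * c⁻¹ * d⁻¹) * d * c := by group
      _ = d * c := by rw [h1, one_mul]
  refine b.a9 fun x hx w hw => ?_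
  exact ((mem_CC.mp (b.mem_CC' he he1 hx (b.a8 b.exists_ne_one hc hd hx))).2 w hw).symm

theorem Bad.CC_le (b : Bad V Q U U₂ Q') {c : G} (hc : c ∈ CC V Q U) : c ∈ V ⊔ U :=
  b.hn.cpc b.h (mem_CC.mp hc).1 fun d hd hdU =>
    b.a10 hc (mem_CC.mpr ⟨hd, fun u hu => (hdU u hu).symm⟩)

/-- Case `C = W`: involutions of `P` -/
theorem NPair.sq_one (h : TIData V Q) (hn : NPair V Q U U₂) (hC : ∀ c ∈ CC V Q U, c ∈ V ⊔ U) {x : G}
    (hx : x ∈ PP V Q) (hx2 : x * x = 1) : x ∈ V ⊔ U ∨ x ∈ V ⊔ U₂ := by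
  obtain ⟨y, hy, hyU⟩ := hn.decomp h hx
  have hyx : y⁻¹ * x ∈ CC V Q U :=
    mem_CC.mpr ⟨mul_mem (inv_mem (hn.o₂.le hy)) hx, fun u hu => (hyU u hu).symm⟩
  obtain ⟨v, hv, u, hu, hvu⟩ := (hn.o.mem_W h).mp (hC _ hyx)
  have hxe : x = y * (v * u) := by rw [← hvu]; group
  by_cases hu1 : u = 1
  · right
    rw [hxe, hu1, mul_one]
    exact mul_mem (mem_sup_right hy) (mem_sup_left hv)
  · left
    have h1 : y = 1 := by
      refine hn.eq_one h hu hu1 hy ?_
      have hvy := h.comm_VP hv (hn.o₂.le hy)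
      have hvu' := h.comm_VP hv (hn.o.le hu)
      have h2 : x * x = (v * v) * (y * u * (y * u)) := by
        rw [hxe]
        calc y * (v * u) * (y * (v * u)) = (y * v) * u * (y * v) * u := by group
          _ = v * y * u * v * y * u := by rw [← hvy]; group
          _ = v * y * (v * u) * y * u := by rw [hvu']; group
          _ = v * (y * v) * u * y * u := by group
          _ = (v * v) * (y * u * (y * u)) := by rw [← hvy]; group
      rw [hx2, h.sq v hv, one_mul] at h2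
      have h3 : (y * u)⁻¹ = y * u := inv_eq_of_mul_eq_one_left h2.symm
      have h4 : u⁻¹ = u := inv_eq_of_mul_eq_one_left (hn.o.sq h hu)
      have h5 : y⁻¹ = y := inv_eq_of_mul_eq_one_left (hn.o₂.sq h hy)
      calc u * y = u⁻¹ * y⁻¹ := by rw [h4, h5]
        _ = (y * u)⁻¹ := by group
        _ = y * u := h3
    rw [hxe, h1, one_mul]
    exact mul_mem (mem_sup_left hv) (mem_sup_right hu)

omit [Finite G] in
theorem le_or_le_of_union {A B C : Subgroup G} (h : ∀ x ∈ A, x ∈ B ∨ x ∈ C) : A ≤ B ∨ A ≤ C := by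
  by_contra hcon
  push Not at hcon
  obtain ⟨h1, h2⟩ := hcon
  obtain ⟨x, hx, hxB⟩ := SetLike.not_le_iff_exists.mp h1
  obtain ⟨y, hy, hyC⟩ := SetLike.not_le_iff_exists.mp h2
  have hxC : x ∈ C := (h x hx).resolve_left hxB
  have hyB : y ∈ B := (h y hy).resolve_right hyC
  rcases h _ (mul_mem hx hy) with h3 | h3
  · exact hxB ((B.mul_mem_cancel_right hyB).mp h3)
  · exact hyC ((C.mul_mem_cancel_left hxC).mp h3)

/-- Case `C = W`: `N(V)` permutes `W` and `W₂`. -/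
theorem NPair.cj_cases (h : TIData V Q) (hn : NPair V Q U U₂) (hC : ∀ c ∈ CC V Q U, c ∈ V ⊔ U)
    (hcard : Nat.card (V ⊔ U₂ : Subgroup G) = Nat.card (V ⊔ U : Subgroup G)) {m : G}
    (hm : m ∈ normalizer (V : Set G)) : cj m (V ⊔ U) = V ⊔ U ∨ cj m (V ⊔ U) = V ⊔ U₂ := by
  have h1 : cj m (V ⊔ U) ≤ V ⊔ U ∨ cj m (V ⊔ U) ≤ V ⊔ U₂ := by
    apply le_or_le_of_union
    rintro _ ⟨w, hw, rfl⟩
    change m * w * m⁻¹ ∈ _ ∨ m * w * m⁻¹ ∈ _
    apply hn.sq_one h hC (h.PP_conj hm (hn.o.W_le h hw))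
    obtain ⟨v, hv, u, hu, rfl⟩ := (hn.o.mem_W h).mp hw
    have h2 : (v * u) * (v * u) = 1 := by
      have hvu' := h.comm_VP hv (hn.o.le hu)
      calc (v * u) * (v * u) = v * (u * v) * u := by group
        _ = (v * v) * (u * u) := by rw [← hvu']; group
        _ = 1 := by rw [h.sq v hv, hn.o.sq h hu, one_mul]
    calc m * (v * u) * m⁻¹ * (m * (v * u) * m⁻¹) = m * ((v * u) * (v * u)) * m⁻¹ := by group
      _ = 1 := by rw [h2]; group
  rcases h1 with h1 | h1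
  · exact Or.inl (Subgroup.eq_of_le_of_card_ge h1 (card_cj m _).ge)
  · exact Or.inr (Subgroup.eq_of_le_of_card_ge h1 (by rw [card_cj, hcard]))

theorem NPair.W_inf (h : TIData V Q) (hn : NPair V Q U U₂) {w : G} (h1 : w ∈ V ⊔ U)
    (h2 : w ∈ V ⊔ U₂) : w ∈ V := by
  obtain ⟨v, hv, u, hu, rfl⟩ := (hn.o.mem_W h).mp h1
  obtain ⟨v', hv', u', hu', he⟩ := (hn.o₂.mem_W h).mp h2
  obtain ⟨a, ha, ha1⟩ := exists_cj_ne_one hn.o.ne_bot 1
  obtain ⟨a, ha, b, hb, hab⟩ := hn.nc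
  have ha1 : a ≠ 1 := by
    rintro rfl
    exact hab (by simp)
  have h3 : u' = 1 := by
    refine hn.eq_one h ha ha1 hu' ?_
    have h4 : u' = (v'⁻¹ * v) * u := by
      calc u' = v'⁻¹ * (v' * u') := by group
        _ = (v'⁻¹ * v) * u := by rw [← he]; group
    have h5 := h.comm_VP (mul_mem (inv_mem hv') hv) (hn.o.le ha)
    rw [h4]
    calc a * (v'⁻¹ * v * u) = (a * (v'⁻¹ * v)) * u := by group
      _ = (v'⁻¹ * v) * (a * u) := by rw [← h5]; group
      _ = v'⁻¹ * v * u * a := by rw [hn.o.mul_comm h ha hu]; group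
  rw [he, h3, mul_one]
  exact hv'

theorem NPair.centralizer_W (h : TIData V Q) (hn : NPair V Q U U₂) (hC : ∀ c ∈ CC V Q U, c ∈ V ⊔ U)
    {x a : G} (hx : x ∈ PP V Q) (ha : a ∈ V ⊔ U) (haV : a ∉ V) (hxa : x * a = a * x) :
    x ∈ V ⊔ U := by
  obtain ⟨v, hv, u, hu, rfl⟩ := (hn.o.mem_W h).mp ha
  have hu1 : u ≠ 1 := by
    rintro rfl
    exact haV (by simpa using hv)
  apply hC
  refine mem_CC.mpr ⟨hx, fun w hw => ?_⟩
  refine (hn.o.comm_of_comm h hx hu hu1 ?_ hw).symm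
  have h1 := h.comm_VP hv hx
  have h2 : v * (x * u) = v * (u * x) := by
    calc v * (x * u) = (v * x) * u := by group
      _ = x * (v * u) := by rw [h1]; group
      _ = v * (u * x) := by rw [hxa]; group
  exact mul_left_cancel h2

end Cfsg.Agent.ClassificationK.TIPair
end

-- part: ClassificationK/TIPairCube
section
/-!
# TI-subgroups: the case `|P| = |V| ^ 3` and the swap (for S1786)
-/

set_option autoImplicit false

namespace Cfsg.Agent.ClassificationK.TIPair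

open Subgroup
open Cfsg.Agent.ClassificationK.TIFamily (mem_cj cj_mul cj_one cj_inj cj_inv_of_eq cj_mul_of_eq cj_of_mem)

variable {G : Type*} [Group G] {V Q U U₂ Q' : Subgroup G}

theorem cj_cj (a b : G) (A : Subgroup G) : cj a (cj b A) = cj (a * b) A := (cj_mul a b A).symm

theorem cj_sup (a : G) (A B : Subgroup G) : cj a (A ⊔ B) = cj a A ⊔ cj a B :=
  Subgroup.map_sup A B _

theorem mem_PP_cj {g x : G} : x ∈ PP (cj g V) (cj g Q) ↔ g⁻¹ * x * g ∈ PP V Q := by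
  rw [mem_PP, mem_PP, mem_cj]
  constructor
  · rintro ⟨h1, h2⟩
    refine ⟨h1, fun v hv => ?_⟩
    have h3 := h2 (g * v * g⁻¹) ⟨v, hv, rfl⟩
    calc v * (g⁻¹ * x * g) = g⁻¹ * ((g * v * g⁻¹) * x) * g := by group
      _ = g⁻¹ * x * g * v := by rw [h3]; group
  · rintro ⟨h1, h2⟩
    refine ⟨h1, fun v hv => ?_⟩
    rw [mem_cj] at hv
    have h3 := h2 _ hv
    calc v * x = g * ((g⁻¹ * v * g) * (g⁻¹ * x * g)) * g⁻¹ := by group
      _ = x * v := by rw [h3]; group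

variable [Finite G]

theorem isPGroup_zpowers_of_sq {v : G} (hv : v * v = 1) : IsPGroup 2 (zpowers v) := by
  rw [← pow_two] at hv
  have h1 : orderOf v ∣ 2 := orderOf_dvd_of_pow_eq_one hv
  rcases (Nat.dvd_prime Nat.prime_two).mp h1 with h2 | h2
  · apply IsPGroup.of_card (n := 0)
    rw [Nat.card_zpowers, h2, pow_zero]
  · apply IsPGroup.of_card (n := 1)
    rw [Nat.card_zpowers, h2, pow_one]

/-- The core contradiction when `C_P(U) = W`. -/
theorem Bad.false_of_D (b : Bad V Q U U₂ Q') {D₁ D₂ : Subgroup G} {v : G} (hv : v ∈ V) (hv1 : v ≠ 1)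
    (hU₁ : U ≤ D₁) (hU₂ : U ≤ D₂) (hD₁ : D₁ ≤ PP U Q') (hD₂ : D₂ ≤ PP U Q')
    (hn₁ : ¬ D₁ ≤ U) (hn₂ : ¬ D₂ ≤ U) (hv₁ : cj v D₁ = D₁) (hv₂ : cj v D₂ = D₂)
    (hc₁ : ∀ x ∈ PP U Q', ∀ a ∈ D₁, a ∉ U → x * a = a * x → x ∈ D₁)
    (hc₂ : ∀ x ∈ PP U Q', ∀ a ∈ D₂, a ∉ U → x * a = a * x → x ∈ D₂)
    (hi : ∀ x ∈ D₁, x ∈ D₂ → x ∈ U) : False := by
  have key : ∀ D : Subgroup G, D ≤ PP U Q' → ¬ D ≤ U → cj v D = D →
      ∃ a ∈ D, a ∉ U ∧ a ∈ CC U Q' V := by
    intro D hD hnD hvD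
    have hvN := normalizer_of_cj_eq hvD
    obtain ⟨z, hz, hzU, hz2⟩ := exists_fixed_mod (p := 2) (P := zpowers v) (V := U) (N := D)
      (isPGroup_zpowers_of_sq (b.h.sq v hv)) (b.h'.PP2.to_le hD) hnD
      (fun x hx w hw => b.h'.conj_V ((zpowers_le.mpr (b.V_le_NU hv)) hx) hw)
      (fun x hx w hw => (mem_normalizer_iff.mp ((zpowers_le.mpr hvN) hx) w).mp hw)
    refine ⟨z, hz, hzU, b.mem_CC' hv hv1 (hD hz) ?_⟩
    have h1 := hz2 v (mem_zpowers v)
    have h2 := b.h'.conj_V (b.h'.PP_le (hD hz)) (inv_mem h1)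
    convert h2 using 1
    group
  obtain ⟨a₁, ha₁, ha₁U, ha₁C⟩ := key D₁ hD₁ hn₁ hv₁
  obtain ⟨a₂, ha₂, ha₂U, ha₂C⟩ := key D₂ hD₂ hn₂ hv₂
  -- elements of `C'` commute with `[x, w]`
  have hcomm : ∀ c ∈ CC U Q' V, ∀ x ∈ PP U Q', ∀ w ∈ V,
      (x * w * x⁻¹ * w⁻¹) * c = c * (x * w * x⁻¹ * w⁻¹) := by
    intro c hc x hx w hw
    have hz := b.h'.comm_mem (mem_CC.mp hc).1 hx
    set z := c * x * c⁻¹ * x⁻¹ with hzdef
    have hzx : z * x = x * z := b.h'.comm_VP hz hx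
    have hzw : w * z = z * w := b.hn.o.comm b.h hw hz
    have hcw : w * c = c * w := (mem_CC.mp hc).2 w hw
    have h1 : c * x * c⁻¹ = z * x := by rw [hzdef]; group
    have h2 : c * w * c⁻¹ = w := by rw [← hcw]; group
    have h3 : c * (x * w * x⁻¹ * w⁻¹) * c⁻¹ = x * w * x⁻¹ * w⁻¹ := by
      have hzxw : z * (x * w * x⁻¹) = (x * w * x⁻¹) * z := by
        have e1 : Commute z x := hzx
        have e2 : Commute z w := hzw.symm
        exact (e1.mul_right e2).mul_right e1.inv_right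
      calc c * (x * w * x⁻¹ * w⁻¹) * c⁻¹
          = (c * x * c⁻¹) * (c * w * c⁻¹) * (c * x * c⁻¹)⁻¹ * (c * w * c⁻¹)⁻¹ := by group
        _ = (z * x) * w * (z * x)⁻¹ * w⁻¹ := by rw [h1, h2]
        _ = (z * (x * w * x⁻¹)) * z⁻¹ * w⁻¹ := by group
        _ = x * w * x⁻¹ * w⁻¹ := by rw [hzxw]; group
    calc (x * w * x⁻¹ * w⁻¹) * c = (c * (x * w * x⁻¹ * w⁻¹) * c⁻¹) * c := by rw [h3]
      _ = c * (x * w * x⁻¹ * w⁻¹) := by group
  refine b.a9 fun x hx w hw => ?_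
  by_cases hw1 : w = 1
  · rw [hw1]; simp
  have hyC := b.a6 hw hx
  have hyP := (mem_CC.mp hyC).1
  have h1 := hc₁ _ hyP a₁ ha₁ ha₁U (hcomm a₁ ha₁C x hx w hw)
  have h2 := hc₂ _ hyP a₂ ha₂ ha₂U (hcomm a₂ ha₂C x hx w hw)
  exact b.a1 hw hw1 hx (hi _ h1 h2)

/-- The case `|V| = 2`. -/
theorem NPair.false_of_card_two (h : TIData V Q) {m₀ : G} (hm₀ : m₀ ∈ normalizer (V : Set G))
    (hn : NPair V Q U (cj m₀ U)) (hC : ∀ c ∈ CC V Q U, c ∈ V ⊔ U)
    (hV : ∀ v ∈ V, ∀ w ∈ V, v ≠ 1 → w ≠ 1 → v = w) : False := by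
  have hW2 : cj m₀ (V ⊔ U) = V ⊔ cj m₀ U := by
    rw [cj_sup, cj_eq_of_mem_normalizer hm₀]
  have hcard : Nat.card (V ⊔ cj m₀ U : Subgroup G) = Nat.card (V ⊔ U : Subgroup G) := by
    rw [← hW2, card_cj]
  have hne : V ⊔ cj m₀ U ≠ V ⊔ U := by
    intro h1
    apply hn.o.ne
    apply Subgroup.eq_of_le_of_card_ge
    · intro u hu
      exact hn.W_inf h (mem_sup_right hu) (h1 ▸ mem_sup_right hu)
    · rw [hn.o.card]
  have hVc : ∀ m ∈ normalizer (V : Set G), ∀ v ∈ V, m * v = v * m := by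
    intro m hm v hv
    by_cases hv1 : v = 1
    · rw [hv1]; simp
    have h1 := hV (m * v * m⁻¹) (h.conj_V hm hv) v hv (by
      intro h2
      apply hv1
      calc v = m⁻¹ * (m * v * m⁻¹) * m := by group
        _ = 1 := by rw [h2]; group) hv1
    calc m * v = (m * v * m⁻¹) * m := by group
      _ = v * m := by rw [h1]
  have hQP : ∀ x ∈ Q, x ∈ PP V Q := fun x hx =>
    mem_PP.mpr ⟨hx, fun v hv => (hVc x (h.Qle hx) v hv).symm⟩
  -- squares fix `W` and `W₂`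
  have hcases : ∀ m ∈ normalizer (V : Set G), cj m (V ⊔ U) = V ⊔ U ∨ cj m (V ⊔ U) = V ⊔ cj m₀ U :=
    fun m hm => hn.cj_cases h hC hcard hm
  have hcases2 : ∀ m ∈ normalizer (V : Set G),
      cj m (V ⊔ cj m₀ U) = V ⊔ U ∨ cj m (V ⊔ cj m₀ U) = V ⊔ cj m₀ U := by
    intro m hm
    rw [← hW2, cj_cj]
    rcases hcases _ (mul_mem hm hm₀) with h1 | h1
    · exact Or.inl h1
    · right; rw [h1, hW2]
  have hsq : ∀ m ∈ normalizer (V : Set G), cj (m * m) (V ⊔ U) = V ⊔ U ∧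
      cj (m * m) (V ⊔ cj m₀ U) = V ⊔ cj m₀ U := by
    intro m hm
    rw [← cj_cj, ← cj_cj]
    rcases hcases m hm with h1 | h1 <;> rcases hcases2 m hm with h2 | h2
    · exfalso
      apply hne
      apply cj_inj (g := m)
      change cj m _ = cj m _
      rw [h2, h1]
    · rw [h1, h1, h2, h2]
      exact ⟨rfl, rfl⟩
    · rw [h1, h2, h1]
      exact ⟨rfl, rfl⟩
    · exfalso
      apply hne
      apply cj_inj (g := m)
      change cj m _ = cj m _
      rw [h2, h1]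
  -- an element fixing `V ⊔ T` has square centralizing `T`, for `T` another conjugate
  have hfix : ∀ T : Subgroup G, Other V Q T → ∀ m ∈ normalizer (V : Set G), cj m (V ⊔ T) = V ⊔ T →
      ∀ t ∈ T, (m * m) * t = t * (m * m) := by
    intro T hT m hm hmT t ht
    by_cases ht1 : t = 1
    · rw [ht1]; simp
    have hcard2 : ∀ s ∈ T, ∀ r ∈ T, s ≠ 1 → r ≠ 1 → s = r := by
      obtain ⟨k, rfl⟩ := hT.ex
      intro s hs r hr hs1 hr1
      rw [mem_cj] at hs hr
      have := hV _ hs _ hr (by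
        intro h2
        apply hs1
        calc s = k * (k⁻¹ * s * k) * k⁻¹ := by group
          _ = 1 := by rw [h2]; group) (by
        intro h2
        apply hr1
        calc r = k * (k⁻¹ * r * k) * k⁻¹ := by group
          _ = 1 := by rw [h2]; group)
      calc s = k * (k⁻¹ * s * k) * k⁻¹ := by group
        _ = r := by rw [this]; group
    have h1 : m * t * m⁻¹ ∈ V ⊔ T := by
      rw [← hmT]
      exact ⟨t, mem_sup_right ht, rfl⟩
    obtain ⟨v, hv, s, hs, hvs⟩ := (hT.mem_W h).mp h1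
    have hs1 : s ≠ 1 := by
      rintro rfl
      rw [mul_one] at hvs
      have h2 : t ∈ V := by
        have := h.conj_V' hm (hvs ▸ hv : m * t * m⁻¹ ∈ V)
        convert this using 1; group
      exact ht1 (hT.inter h ht h2)
    have hst : s = t := hcard2 s hs t ht hs1 ht1
    rw [hst] at hvs
    have h3 : m * t = v * t * m := by
      calc m * t = (m * t * m⁻¹) * m := by group
        _ = v * t * m := by rw [hvs]
    calc m * m * t = m * (m * t) := by group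
      _ = m * v * t * m := by rw [h3]; group
      _ = v * (m * t) * m := by rw [hVc m hm v hv]; group
      _ = (v * v) * t * (m * m) := by rw [h3]; group
      _ = t * (m * m) := by rw [h.sq v hv, one_mul]
  have h4 : ∀ m ∈ normalizer (V : Set G), (m * m) * (m * m) ∈ Q := by
    intro m hm
    have hmm := mul_mem hm hm
    obtain ⟨f1, f2⟩ := hsq m hm
    have g1 := hfix U hn.o (m * m) hmm f1
    have g2 := hfix (cj m₀ U) hn.o₂ (m * m) hmm f2
    refine h.Qc _ (mul_mem hmm hmm) fun x hx => ?_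
    have hxP := hQP x hx
    obtain ⟨y, hy, hyU⟩ := hn.decomp h hxP
    have hyx : y⁻¹ * x ∈ CC V Q U :=
      mem_CC.mpr ⟨mul_mem (inv_mem (hn.o₂.le hy)) hxP, fun u hu => (hyU u hu).symm⟩
    obtain ⟨v, hv, u, hu, hvu⟩ := (hn.o.mem_W h).mp (hC _ hyx)
    have hxe : x = y * (v * u) := by rw [← hvu]; group
    have e1 : Commute (m * m * (m * m)) y := g2 y hy
    have e2 : Commute (m * m * (m * m)) u := g1 u hu
    have e3 : Commute (m * m * (m * m)) v := hVc _ (mul_mem hmm hmm) v hv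
    rw [hxe]
    exact e1.mul_right (e3.mul_right e2)
  have h5 : normalizer (V : Set G) ≤ Q := by
    refine h.Qmax _ le_rfl ?_ (fun m hm x hx => mul_mem (mul_mem hm hx) (inv_mem hm))
    rintro ⟨m, hm⟩
    obtain ⟨k, hk⟩ := h.Q2 ⟨_, h4 m hm⟩
    have hk' : (m * m * (m * m)) ^ 2 ^ k = 1 := congrArg Subtype.val hk
    refine ⟨k + 2, Subtype.ext ?_⟩
    change m ^ 2 ^ (k + 2) = 1
    rw [← hk']
    have : m * m * (m * m) = m ^ 4 := by simp only [pow_succ, pow_zero, one_mul, mul_assoc]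
    rw [this, ← pow_mul]
    congr 1
    ring
  apply hne
  rw [← hW2]
  exact hn.o.cj_W h (hQP m₀ (h5 hm₀))

/-- `N(W)` is not contained in `N(V)`. -/
theorem not_bad (h : TIData V Q) {g m₀ : G} (hm₀ : m₀ ∈ normalizer (V : Set G))
    (hn : NPair V Q (cj g V) (cj m₀ (cj g V))) :
    ∃ x ∈ normalizer ((V ⊔ cj g V : Subgroup G) : Set G), x ∉ normalizer (V : Set G) := by
  by_contra hcon
  push Not at hcon
  have b : Bad V Q (cj g V) (cj m₀ (cj g V)) (cj g Q) := ⟨h, h.cjD g, hn, hcon⟩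
  set U := cj g V with hU
  have hC : ∀ c ∈ CC V Q U, c ∈ V ⊔ U := fun c hc => b.CC_le hc
  have hW2 : cj m₀ (V ⊔ U) = V ⊔ cj m₀ U := by
    rw [cj_sup, cj_eq_of_mem_normalizer hm₀]
  have hcard : Nat.card (V ⊔ cj m₀ U : Subgroup G) = Nat.card (V ⊔ U : Subgroup G) := by
    rw [← hW2, card_cj]
  have hne : V ⊔ cj m₀ U ≠ V ⊔ U := by
    intro h1
    apply hn.o.ne
    apply Subgroup.eq_of_le_of_card_ge
    · intro u hu
      exact hn.W_inf h (mem_sup_right hu) (h1 ▸ mem_sup_right hu)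
    · rw [hn.o.card]
  -- centralizers in `P`
  have hcent₁ : ∀ x ∈ PP V Q, ∀ a ∈ V ⊔ U, a ∉ V → x * a = a * x → x ∈ V ⊔ U :=
    fun x hx a ha haV hxa => hn.centralizer_W h hC hx ha haV hxa
  have hcent₂ : ∀ x ∈ PP V Q, ∀ a ∈ V ⊔ cj m₀ U, a ∉ V → x * a = a * x → x ∈ V ⊔ cj m₀ U := by
    intro x hx a ha haV hxa
    rw [← hW2, mem_cj] at ha ⊢
    refine hcent₁ _ ?_ _ ha ?_ ?_
    · have := h.PP_conj (inv_mem hm₀) hx
      simpa using this
    · intro h1
      apply haV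
      have := h.conj_V hm₀ h1
      convert this using 1; group
    · calc m₀⁻¹ * x * m₀ * (m₀⁻¹ * a * m₀) = m₀⁻¹ * (x * a) * m₀ := by group
        _ = m₀⁻¹ * a * m₀ * (m₀⁻¹ * x * m₀) := by rw [hxa]; group
  have hcases : ∀ m ∈ normalizer (V : Set G), cj m (V ⊔ U) = V ⊔ U ∨ cj m (V ⊔ U) = V ⊔ cj m₀ U :=
    fun m hm => hn.cj_cases h hC hcard hm
  -- transfer to `U`
  set D₁ := cj g (V ⊔ U) with hD₁
  set D₂ := cj g (V ⊔ cj m₀ U) with hD₂
  have hDne : D₂ ≠ D₁ := by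
    intro h1
    exact hne (cj_inj (g := g) h1)
  have hDcases : ∀ m ∈ normalizer (U : Set G), cj m D₁ = D₁ ∨ cj m D₁ = D₂ := by
    intro m hm
    have hm' : g⁻¹ * m * g ∈ normalizer (V : Set G) := mem_normalizer_cj.mp hm
    have e1 : cj m D₁ = cj g (cj (g⁻¹ * m * g) (V ⊔ U)) := by
      rw [hD₁, cj_cj, cj_cj]
      congr 1
      group
    rw [e1]
    rcases hcases _ hm' with h1 | h1
    · left; rw [h1]
    · right; rw [h1]
  have hD2 : D₂ = cj (g * m₀ * g⁻¹) D₁ := by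
    rw [hD₁, hD₂, ← hW2, cj_cj, cj_cj]
    congr 1
    group
  have hgm : g * m₀ * g⁻¹ ∈ normalizer (U : Set G) := by
    apply mem_normalizer_cj.mpr
    convert hm₀ using 1
    group
  have hUD₁ : U ≤ D₁ := cj_mono g le_sup_left
  have hUD₂ : U ≤ D₂ := cj_mono g le_sup_left
  have hD₁P : D₁ ≤ PP U (cj g Q) := by
    intro x hx
    rw [hD₁, mem_cj] at hx
    exact mem_PP_cj.mpr (hn.o.W_le h hx)
  have hD₂P : D₂ ≤ PP U (cj g Q) := by
    intro x hx
    rw [hD₂, mem_cj] at hx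
    exact mem_PP_cj.mpr (hn.o₂.W_le h hx)
  have hnD : ∀ T : Subgroup G, Other V Q T → ¬ cj g (V ⊔ T) ≤ U := by
    intro T hT h1
    have h2 : V ⊔ T ≤ V := by
      intro x hx
      have h3 := h1 ⟨x, hx, rfl⟩
      rw [hU, mem_cj] at h3
      change g⁻¹ * (g * x * g⁻¹) * g ∈ V at h3
      convert h3 using 1; group
    apply hT.ne
    exact Subgroup.eq_of_le_of_card_ge (le_sup_right.trans h2) (by rw [hT.card])
  have hDc₁ : ∀ x ∈ PP U (cj g Q), ∀ a ∈ D₁, a ∉ U → x * a = a * x → x ∈ D₁ := by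
    intro x hx a ha haU hxa
    rw [hD₁, mem_cj] at ha ⊢
    refine hcent₁ _ (mem_PP_cj.mp hx) _ ha (fun h1 => haU (by rw [hU, mem_cj]; exact h1)) ?_
    calc g⁻¹ * x * g * (g⁻¹ * a * g) = g⁻¹ * (x * a) * g := by group
      _ = g⁻¹ * a * g * (g⁻¹ * x * g) := by rw [hxa]; group
  have hDc₂ : ∀ x ∈ PP U (cj g Q), ∀ a ∈ D₂, a ∉ U → x * a = a * x → x ∈ D₂ := by
    intro x hx a ha haU hxa
    rw [hD₂, mem_cj] at ha ⊢
    refine hcent₂ _ (mem_PP_cj.mp hx) _ ha (fun h1 => haU (by rw [hU, mem_cj]; exact h1)) ?_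
    calc g⁻¹ * x * g * (g⁻¹ * a * g) = g⁻¹ * (x * a) * g := by group
      _ = g⁻¹ * a * g * (g⁻¹ * x * g) := by rw [hxa]; group
  have hDi : ∀ x ∈ D₁, x ∈ D₂ → x ∈ U := by
    intro x hx₁ hx₂
    rw [hD₁, mem_cj] at hx₁
    rw [hD₂, mem_cj] at hx₂
    rw [hU, mem_cj]
    exact hn.W_inf h hx₁ hx₂
  by_cases hex : ∃ v ∈ V, v ≠ 1 ∧ cj v D₁ = D₁
  · obtain ⟨v, hv, hv1, hvD⟩ := hex
    have hvD₂ : cj v D₂ = D₂ := by
      rw [hD2, cj_cj]
      rcases hDcases _ (mul_mem (b.V_le_NU hv) hgm) with h1 | h1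
      · exfalso
        apply hDne
        apply cj_inj (g := v)
        change cj v _ = cj v _
        rw [hvD, hD2, cj_cj, h1]
      · rw [h1, ← hD2]
    exact b.false_of_D hv hv1 hUD₁ hUD₂ hD₁P hD₂P (hnD U hn.o) (hnD _ hn.o₂) hvD hvD₂ hDc₁ hDc₂ hDi
  · push Not at hex
    refine hn.false_of_card_two h hm₀ hC fun v hv w hw hv1 hw1 => ?_
    have e1 : cj v D₁ = D₂ := (hDcases v (b.V_le_NU hv)).resolve_left (hex v hv hv1)
    have e2 : cj w D₁ = D₂ := (hDcases w (b.V_le_NU hw)).resolve_left (hex w hw hw1)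
    by_contra hvw
    apply hex (v⁻¹ * w) (mul_mem (inv_mem hv) hw) (fun h1 => hvw (inv_mul_eq_one.mp h1))
    rw [← cj_cj, e2, ← e1, cj_cj, inv_mul_cancel]
    exact cj_one D₁

/-- The swap. -/
theorem exists_swap (h : TIData V Q) {g m₀ : G} (hm₀ : m₀ ∈ normalizer (V : Set G))
    (hn : NPair V Q (cj g V) (cj m₀ (cj g V))) :
    ∃ k ∈ normalizer ((V ⊔ cj g V : Subgroup G) : Set G), cj k V = cj g V ∧ cj k (cj g V) = V := by
  obtain ⟨x, hx, hxV⟩ := not_bad h hm₀ hn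
  set U := cj g V with hU
  have hW : ∀ y ∈ PP V Q, y ∈ normalizer ((V ⊔ U : Subgroup G) : Set G) := fun y hy =>
    normalizer_of_cj_eq (hn.o.cj_W h hy)
  have hxW : cj x (V ⊔ U) = V ⊔ U := cj_eq_of_mem_normalizer hx
  -- a conjugate of `V` under `N(W)` different from `V` is a `U ^ y`
  have key : ∀ z ∈ normalizer ((V ⊔ U : Subgroup G) : Set G), cj z V ≠ V →
      ∃ y ∈ cj m₀ U, cj z V = cj y U := by
    intro z hz hzV
    obtain ⟨w, hw, hw1⟩ := exists_cj_ne_one hn.o.ne_bot z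
    have hwW : w ∈ V ⊔ U := by
      rw [← cj_eq_of_mem_normalizer hz]
      exact cj_mono z le_sup_left hw
    exact (hn.conj_in_W h hw hw1 hwW).resolve_left hzV
  obtain ⟨y, hy, hyx⟩ := key x hx (fun h1 => hxV (normalizer_of_cj_eq h1))
  have hyP := hn.o₂.le hy
  set k := y⁻¹ * x with hk
  have hkW : k ∈ normalizer ((V ⊔ U : Subgroup G) : Set G) := mul_mem (inv_mem (hW y hyP)) hx
  have hkV : cj k V = U := by
    rw [hk, ← cj_cj, hyx, cj_cj, inv_mul_cancel]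
    exact cj_one U
  have hk' : cj k⁻¹ V ≠ V := by
    intro h1
    apply hn.o.ne
    have h2 : cj k (cj k⁻¹ V) = cj k V := by rw [h1]
    rw [cj_cj, mul_inv_cancel, hkV] at h2
    rw [← h2]
    exact cj_one V
  obtain ⟨y', hy', hyk⟩ := key k⁻¹ (inv_mem hkW) hk'
  have hyP' := hn.o₂.le hy'
  refine ⟨k * y', mul_mem hkW (hW y' hyP'), ?_, ?_⟩
  · rw [← cj_cj, cj_eq_of_mem_normalizer (h.PP_le hyP'), hkV]
  · rw [← cj_cj, ← hyk, cj_cj, mul_inv_cancel]
    exact cj_one V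

end Cfsg.Agent.ClassificationK.TIPair
end

-- part: ClassificationK/TIPairFinal
section
/-!
# TI-subgroups: final consequences (for S1786)
-/

set_option autoImplicit false

namespace Cfsg.Agent.ClassificationK.TIPair

open Subgroup
open scoped commutatorElement
open Cfsg.Agent.ClassificationK.TIFamily (mem_cj cj_mul cj_one cj_inj cj_inv_of_eq cj_mul_of_eq cj_of_mem)

variable {G : Type*} [Group G] {V Q U U₂ Q' : Subgroup G} [Finite G]

theorem Other.exists_ne_one (hU : Other V Q U) : ∃ u ∈ U, u ≠ 1 := by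
  obtain ⟨k, hk⟩ := hU.ex
  rw [hk]
  exact exists_cj_ne_one hU.ne_bot k

/-- `N(V)` is transitive on `V \ 1` -/
theorem NPair.transitive (h : TIData V Q) (hn : NPair V Q U U₂) {k : G} (hkV : cj k V = U)
    (hkU : cj k U = V) {v₁ v₂ : G} (hv₁ : v₁ ∈ V) (h₁ : v₁ ≠ 1) (hv₂ : v₂ ∈ V) (h₂ : v₂ ≠ 1) :
    ∃ m ∈ normalizer (V : Set G), m * v₁ * m⁻¹ = v₂ := by
  obtain ⟨u, hu, hu1⟩ := hn.o.exists_ne_one
  have key : ∀ v ∈ V, v ≠ 1 → ∃ n : G, n * v * n⁻¹ = u := by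
    intro v hv hv1
    obtain ⟨y, -, hy⟩ := hn.surj h hu hu1 hv
    have hv' : k⁻¹ * v * k ∈ U := by
      rw [← hkU, mem_cj] at hv
      exact hv
    have hv1' : k⁻¹ * v * k ≠ 1 := by
      intro h1
      apply hv1
      calc v = k * (k⁻¹ * v * k) * k⁻¹ := by group
        _ = 1 := by rw [h1]; group
    have hu' : k⁻¹ * u * k ∈ V := by
      rw [← hkV, mem_cj] at hu
      exact hu
    obtain ⟨z, -, hz⟩ := hn.surj h hv' hv1' hu'
    have hz' : (k * z * k⁻¹) * v * (k * z * k⁻¹)⁻¹ = u * v := by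
      calc (k * z * k⁻¹) * v * (k * z * k⁻¹)⁻¹ = k * (z * (k⁻¹ * v * k) * z⁻¹) * k⁻¹ := by group
        _ = u * v := by rw [hz]; group
    refine ⟨y⁻¹ * (k * z * k⁻¹), ?_⟩
    calc y⁻¹ * (k * z * k⁻¹) * v * (y⁻¹ * (k * z * k⁻¹))⁻¹
        = y⁻¹ * ((k * z * k⁻¹) * v * (k * z * k⁻¹)⁻¹) * y := by group
      _ = y⁻¹ * (v * u) * y := by rw [hz', hn.o.comm h hv hu]
      _ = u := by rw [← hy]; group
  obtain ⟨n₁, hn₁⟩ := key v₁ hv₁ h₁
  obtain ⟨n₂, hn₂⟩ := key v₂ hv₂ h₂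
  have hm : (n₂⁻¹ * n₁) * v₁ * (n₂⁻¹ * n₁)⁻¹ = v₂ := by
    calc (n₂⁻¹ * n₁) * v₁ * (n₂⁻¹ * n₁)⁻¹ = n₂⁻¹ * (n₁ * v₁ * n₁⁻¹) * n₂ := by group
      _ = v₂ := by rw [hn₁, ← hn₂]; group
  exact ⟨_, h.ti _ _ hv₁ h₁ (hm ▸ hv₂), hm⟩

/-- `Q` centralizes `V` -/
theorem NPair.Q_le (h : TIData V Q) (hn : NPair V Q U U₂) {k : G} (hkV : cj k V = U)
    (hkU : cj k U = V) : Q ≤ PP V Q := by
  obtain ⟨z, hz, hz1, hzQ⟩ := exists_fixed (p := 2) h.Q2 (h.Q2.to_le h.le) hn.o.ne_bot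
    (fun x hx v hv => h.conj_V (h.Qle hx) hv)
  intro x hx
  refine mem_PP.mpr ⟨hx, fun v hv => ?_⟩
  by_cases hv1 : v = 1
  · rw [hv1]; simp
  obtain ⟨m, hm, hmz⟩ := hn.transitive h hkV hkU hz hz1 hv hv1
  have h1 := hzQ _ (by simpa using h.Qn _ (inv_mem hm) x hx : m⁻¹ * x * m ∈ Q)
  rw [← hmz]
  calc m * z * m⁻¹ * x = m * (z * (m⁻¹ * x * m)) * m⁻¹ := by group
    _ = x * (m * z * m⁻¹) := by rw [← h1]; group

theorem map_center_eq (h : TIData V Q) (hQ : Q ≤ PP V Q) : (center Q).map Q.subtype = V := by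
  ext x
  constructor
  · rintro ⟨y, hy, rfl⟩
    refine h.center_le (hQ y.2) fun z hz => ?_
    have := mem_center_iff.mp hy ⟨z, (mem_PP.mp hz).1⟩
    exact (congrArg Subtype.val this).symm
  · intro hx
    refine ⟨⟨x, h.le hx⟩, ?_, rfl⟩
    rw [SetLike.mem_coe, mem_center_iff]
    intro y
    exact Subtype.ext ((mem_PP.mp (hQ y.2)).2 x hx).symm

theorem commutator_le_V (h : TIData V Q) (hQ : Q ≤ PP V Q) : commutator Q ≤ V.subgroupOf Q := by
  rw [commutator_def, commutator_le]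
  intro a _ b _
  rw [mem_subgroupOf]
  exact h.comm_mem (hQ a.2) (hQ b.2)

theorem V_le_commutator (h : TIData V Q) (hn : NPair V Q U U₂) : V.subgroupOf Q ≤ commutator Q := by
  intro v hv
  rw [mem_subgroupOf] at hv
  obtain ⟨u, hu, hu1⟩ := hn.o.exists_ne_one
  obtain ⟨y, hy, hyu⟩ := hn.surj h hu hu1 hv
  have h1 : v = ⁅(⟨y, (mem_PP.mp (hn.o₂.le hy)).1⟩ : Q), ⟨u, (mem_PP.mp (hn.o.le hu)).1⟩⁆ := by
    apply Subtype.ext
    change v.1 = y * u * y⁻¹ * u⁻¹
    rw [hyu]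
    group
  rw [h1, commutator_def]
  exact commutator_mem_commutator (mem_top _) (mem_top _)

theorem map_commutator_eq (h : TIData V Q) (hn : NPair V Q U U₂) (hQ : Q ≤ PP V Q) :
    (commutator Q).map Q.subtype = V := by
  rw [le_antisymm (commutator_le_V h hQ) (V_le_commutator h hn), map_subgroupOf_eq_of_le h.le]

theorem map_frattini_eq (h : TIData V Q) (hn : NPair V Q U U₂) (hQ : Q ≤ PP V Q) :
    (frattini Q).map Q.subtype = V := by
  have h1 : frattini Q = V.subgroupOf Q := by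
    apply le_antisymm
    · apply Cfsg.Agent.Lib.FrattiniBasic.frattini_le_of_elementary (p := 2) _ (commutator_le_V h hQ)
      intro x
      rw [mem_subgroupOf, pow_two]
      exact h.sq_mem (hQ x.2)
    · exact (V_le_commutator h hn).trans (Cfsg.Agent.Lib.FrattiniBasic.commutator_le_frattini h.Q2)
  rw [h1, map_subgroupOf_eq_of_le h.le]

/-- transport of a pair under the swap -/
theorem NPair.swap {k : G} (hkV : cj k V = U) (hkU : cj k U = V) (hn : NPair V Q U U₂)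
    (hQ : cj k Q = Q') : NPair U Q' V (cj k U₂) := by
  have hPP : ∀ T : Subgroup G, T ≤ PP V Q → cj k T ≤ PP U Q' := by
    intro T hT x hx
    rw [mem_cj] at hx
    rw [← hkV, ← hQ]
    exact mem_PP_cj.mpr (hT hx)
  refine ⟨⟨?_, ?_, ?_⟩, ⟨?_, ?_, ?_⟩, ?_⟩
  · obtain ⟨a, ha⟩ := hn.o.ex
    refine ⟨a⁻¹, ?_⟩
    rw [ha, cj_cj, inv_mul_cancel]
    exact (cj_one V).symm
  · exact fun h1 => hn.o.ne h1.symm
  · rw [← hkU]
    exact hPP U hn.o.le
  · obtain ⟨a, ha⟩ := hn.o₂.ex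
    refine ⟨k * a * k⁻¹, ?_⟩
    rw [← hkV, cj_cj, ha, cj_cj]
    congr 1
    group
  · intro h1
    apply hn.o₂.ne
    apply cj_inj (g := k)
    change cj k U₂ = cj k V
    rw [h1, hkV]
  · exact hPP U₂ hn.o₂.le
  · obtain ⟨a, ha, b, hb, hab⟩ := hn.nc
    refine ⟨k * a * k⁻¹, ?_, k * b * k⁻¹, ⟨b, hb, rfl⟩, ?_⟩
    · rw [← hkU]
      exact ⟨a, ha, rfl⟩
    · intro h1
      apply hab
      calc a * b = k⁻¹ * (k * a * k⁻¹ * (k * b * k⁻¹)) * k := by group
        _ = b * a := by rw [h1]; group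

/-- `cj k Q` depends only on `cj k V` -/
theorem TIData.cj_Q_eq (h : TIData V Q) {k g : G} (hk : cj k V = cj g V) : cj k Q = cj g Q := by
  have h1 : g⁻¹ * k ∈ normalizer (V : Set G) := by
    apply normalizer_of_cj_eq
    rw [← cj_cj, hk, cj_cj, inv_mul_cancel]
    exact cj_one V
  have h2 : cj (g⁻¹ * k) Q = Q :=
    cj_eq_of_le (cj_le_of_conj fun w hw => h.Qn _ h1 w hw)
  calc cj k Q = cj (g * (g⁻¹ * k)) Q := by rw [mul_inv_cancel_left]
    _ = cj g Q := by rw [← cj_cj, h2]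

end Cfsg.Agent.ClassificationK.TIPair
end

-- part: ClassificationK/TIPairSLTwo
section
/-!
# TI-subgroups: the group induced on `W = V U` is `SL₂(|V|)` (for S1786)
-/

set_option autoImplicit false

namespace Cfsg.Agent.ClassificationK.TIPairSLTwo

open Subgroup
open Cfsg.Agent.ClassificationK.TIPair
open Cfsg.Agent.ClassificationK.TIFamily (mem_cj cj_mul cj_one cj_inj cj_inv_of_eq cj_mul_of_eq cj_of_mem)

variable {G : Type*} [Group G] [Finite G] {V Q U Q' U₂ V₂ : Subgroup G}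

/-- uniqueness of the decomposition in `W = V × U` -/
theorem decomp_unique (h : TIData V Q) (hU : Other V Q U) {v v' u u' : G} (hv : v ∈ V) (hv' : v' ∈ V)
    (hu : u ∈ U) (hu' : u' ∈ U) (he : v * u = v' * u') : v = v' ∧ u = u' := by
  have h1 : v'⁻¹ * v = u' * u⁻¹ := by
    calc v'⁻¹ * v = v'⁻¹ * (v * u) * u⁻¹ := by group
      _ = u' * u⁻¹ := by rw [he]; group
  have h2 : v'⁻¹ * v = 1 :=
    hU.inter h (h1 ▸ mul_mem hu' (inv_mem hu)) (mul_mem (inv_mem hv') hv)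
  have h3 : u' * u⁻¹ = 1 := h1 ▸ h2
  exact ⟨(inv_mul_eq_one.mp h2).symm, (mul_inv_eq_one.mp h3).symm⟩

/-- the inverse pair -/
theorem exists_inv (h : TIData V Q) (h' : TIData U Q') (hn : NPair V Q U U₂)
    (hn' : NPair U Q' V V₂) {p : G} (hp : p ∈ PP V Q) (hne : ∃ u ∈ U, p * u * p⁻¹ * u⁻¹ ≠ 1) :
    ∃ y ∈ PP U Q', (∀ u ∈ U, y * (p * u * p⁻¹ * u⁻¹) * y⁻¹ * (p * u * p⁻¹ * u⁻¹)⁻¹ = u) ∧
      (∀ v ∈ V, p * (y * v * y⁻¹ * v⁻¹) * p⁻¹ * (y * v * y⁻¹ * v⁻¹)⁻¹ = v) := by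
  obtain ⟨u₀, hu₀, hpu₀⟩ := hne
  obtain ⟨u₁, hu₁, hu₁1⟩ := hn.o.exists_ne_one
  have hw : p * u₁ * p⁻¹ ∈ U ⊔ V := by
    rw [sup_comm]
    exact hn.o.conj_W h hp (mem_sup_right hu₁)
  have hw1 : p * u₁ * p⁻¹ ≠ 1 := by
    intro h1
    apply hu₁1
    calc u₁ = p⁻¹ * (p * u₁ * p⁻¹) * p := by group
      _ = 1 := by rw [h1]; group
  rcases hn'.conj_in_W h' (k := p) ⟨u₁, hu₁, rfl⟩ hw1 hw with h1 | ⟨y, hy, h1⟩
  · exfalso
    apply hpu₀
    refine hn.o.inter h ?_ (h.comm_mem hp (hn.o.le hu₀))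
    exact mul_mem (h'.conj_V (normalizer_of_cj_eq h1) hu₀) (inv_mem hu₀)
  · have hyP : y ∈ PP U Q' := hn'.o₂.le hy
    refine ⟨y, hyP, ?_, ?_⟩
    · intro u hu
      set w := p * u * p⁻¹ * u⁻¹ with hwdef
      have hwV : w ∈ V := h.comm_mem hp (hn.o.le hu)
      have h2 : p * u * p⁻¹ ∈ cj y V := by
        rw [← h1]
        exact ⟨u, hu, rfl⟩
      obtain ⟨v, hv, hvy⟩ := h2
      change y * v * y⁻¹ = p * u * p⁻¹ at hvy
      have h3 : y * v * y⁻¹ * v⁻¹ ∈ U := h'.comm_mem hyP (hn'.o.le hv)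
      have h4 : w * u = v * (y * v * y⁻¹ * v⁻¹) := by
        rw [hn.o.comm h hv h3, hwdef]
        calc p * u * p⁻¹ * u⁻¹ * u = y * v * y⁻¹ := by rw [hvy]; group
          _ = y * v * y⁻¹ * v⁻¹ * v := by group
      obtain ⟨h5, h6⟩ := decomp_unique h hn.o hwV hv hu h3 h4
      rw [h5]
      exact h6.symm
    · intro v hv
      set w := y * v * y⁻¹ * v⁻¹ with hwdef
      have hwU : w ∈ U := h'.comm_mem hyP (hn'.o.le hv)
      have h2 : y * v * y⁻¹ ∈ cj p U := by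
        rw [h1]
        exact ⟨v, hv, rfl⟩
      obtain ⟨u, hu, hup⟩ := h2
      change p * u * p⁻¹ = y * v * y⁻¹ at hup
      have h3 : p * u * p⁻¹ * u⁻¹ ∈ V := h.comm_mem hp (hn.o.le hu)
      have h4 : v * w = (p * u * p⁻¹ * u⁻¹) * u := by
        rw [hn.o.comm h hv hwU, hwdef]
        calc y * v * y⁻¹ * v⁻¹ * v = p * u * p⁻¹ := by rw [hup]; group
          _ = p * u * p⁻¹ * u⁻¹ * u := by group
      obtain ⟨h5, h6⟩ := decomp_unique h hn.o hv h3 hwU hu h4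
      rw [h6]
      exact h5.symm

/-- the commutator `[p, u]` -/
def br (p u : G) : G := p * u * p⁻¹ * u⁻¹

theorem br_def (p u : G) : br p u = p * u * p⁻¹ * u⁻¹ := rfl

theorem br_mem (h : TIData V Q) (hU : Other V Q U) {p u : G} (hp : p ∈ PP V Q) (hu : u ∈ U) :
    br p u ∈ V := h.comm_mem hp (hU.le hu)

theorem br_mul_right (h : TIData V Q) (hU : Other V Q U) {p u w : G} (hp : p ∈ PP V Q) (hu : u ∈ U)
    (hw : w ∈ U) : br p (u * w) = br p u * br p w := by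
  have h2 := hU.comm h (br_mem h hU hp hw) (inv_mem hu)
  calc br p (u * w) = (p * u * p⁻¹) * (br p w * u⁻¹) := by simp only [br_def]; group
    _ = br p u * br p w := by rw [h2]; simp only [br_def]; group

theorem br_mul_left (h : TIData V Q) (hU : Other V Q U) {p q u : G} (hp : p ∈ PP V Q)
    (hq : q ∈ PP V Q) (hu : u ∈ U) : br (p * q) u = br p u * br q u := by
  have h1 := br_mem h hU hq hu
  have h2 := h.comm_VP h1 hp
  calc br (p * q) u = (p * br q u) * u * p⁻¹ * u⁻¹ := by simp only [br_def]; group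
    _ = br q u * br p u := by rw [← h2]; simp only [br_def]; group
    _ = _ := h.comm _ h1 _ (br_mem h hU hp hu)

theorem br_one_left (u : G) : br 1 u = 1 := by simp [br_def]

theorem br_one_right (p : G) : br p 1 = 1 := by simp [br_def]

theorem br_inv_left (h : TIData V Q) (hU : Other V Q U) {p u : G} (hp : p ∈ PP V Q) (hu : u ∈ U) :
    br p⁻¹ u = (br p u)⁻¹ := by
  apply eq_inv_of_mul_eq_one_left
  rw [← br_mul_left h hU (inv_mem hp) hp hu, inv_mul_cancel, br_one_left]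

/-- `br p u = 1` for one nontrivial `u` forces `br p = 1` on `U` -/
theorem br_eq_one (h : TIData V Q) (hU : Other V Q U) {p u w : G} (hp : p ∈ PP V Q) (hu : u ∈ U)
    (hu1 : u ≠ 1) (hb : br p u = 1) (hw : w ∈ U) : br p w = 1 := by
  have h1 : p * u = u * p := by
    calc p * u = br p u * u * p := by rw [br_def]; group
      _ = u * p := by rw [hb, one_mul]
  have h2 := hU.comm_of_comm h hp hu hu1 h1 hw
  rw [br_def, h2]
  group

theorem br_eq (h : TIData V Q) (hU : Other V Q U) {p q u w : G} (hp : p ∈ PP V Q) (hq : q ∈ PP V Q)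
    (hu : u ∈ U) (hu1 : u ≠ 1) (hb : br p u = br q u) (hw : w ∈ U) : br p w = br q w := by
  have h1 : br (q⁻¹ * p) u = 1 := by
    rw [br_mul_left h hU (inv_mem hq) hp hu, br_inv_left h hU hq hu, hb, inv_mul_cancel]
  have h2 := br_eq_one h hU (mul_mem (inv_mem hq) hp) hu hu1 h1 hw
  rw [br_mul_left h hU (inv_mem hq) hp hw, br_inv_left h hU hq hw] at h2
  exact (inv_mul_eq_one.mp h2).symm

theorem core {A : Type*} [AddCommGroup A] [Finite A] [Nontrivial A] (ψ : A → G)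
    (hadd : ∀ a b, ψ (a + b) = ψ a * ψ b) (hinj : Function.Injective ψ) (hmem : ∀ a, ψ a ∈ V)
    (hsurj : ∀ g ∈ V, ∃ a, ψ a = g) (h : TIData V Q) (h' : TIData U Q') (hn : NPair V Q U U₂)
    (hn' : NPair U Q' V V₂)
    (hN : ((Subgroup.centralizer ((V ⊔ U : Subgroup G) : Set G)).subgroupOf
      (PP V Q ⊔ PP U Q')).Normal) :
    ∃ (F : Type) (_ : Field F) (_ : Fintype F), Fintype.card F = Nat.card A ∧
      Nonempty (↥(PP V Q ⊔ PP U Q') ⧸
        (Subgroup.centralizer ((V ⊔ U : Subgroup G) : Set G)).subgroupOf (PP V Q ⊔ PP U Q') ≃*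
        Matrix.SpecialLinearGroup (Fin 2) F) := by
  classical
  have hψ0 : ψ 0 = 1 := by
    have := hadd 0 0
    rw [add_zero] at this
    exact mul_eq_left.mp this.symm
  have hψn : ∀ a, ψ (-a) = (ψ a)⁻¹ := by
    intro a
    apply eq_inv_of_mul_eq_one_left
    rw [← hadd, neg_add_cancel, hψ0]
  have h2 : ∀ a : A, a + a = 0 := by
    intro a
    apply hinj
    rw [hadd, hψ0, h.sq _ (hmem a)]
  -- the base element
  obtain ⟨p₀, hp₀U, hp₀1⟩ := hn.o₂.exists_ne_one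
  have hp₀ : p₀ ∈ PP V Q := hn.o₂.le hp₀U
  -- `χ`
  have hχ : ∀ a : A, ∃ u ∈ U, br p₀ u = ψ a := by
    intro a
    obtain ⟨y, hy, hyp⟩ := hn.symm.surj h hp₀U hp₀1 (hmem a)
    -- `y p₀ y⁻¹ = ψ a p₀`
    refine ⟨y, hy, ?_⟩
    have h3 : y * p₀ * y⁻¹ * p₀⁻¹ = ψ a := by rw [hyp]; group
    have h4 : br p₀ y = (ψ a)⁻¹ := by rw [br_def, ← h3]; group
    rw [h4]
    exact inv_eq_of_mul_eq_one_left (h.sq _ (hmem a))
  choose χ hχU hχψ using hχ
  have hbr_inj : ∀ u ∈ U, ∀ w ∈ U, br p₀ u = br p₀ w → u = w := by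
    intro u hu w hw huw
    have h3 : br p₀ (u * w⁻¹) = 1 := by
      have h4 : br p₀ w * br p₀ w⁻¹ = 1 := by
        rw [← br_mul_right h hn.o hp₀ hw (inv_mem hw), mul_inv_cancel, br_one_right]
      rw [br_mul_right h hn.o hp₀ hu (inv_mem hw), huw, h4]
    by_contra hne
    have h5 : u * w⁻¹ ≠ 1 := fun h6 => hne (mul_inv_eq_one.mp h6)
    apply hp₀1
    refine hn.eq_one h (mul_mem hu (inv_mem hw)) h5 hp₀U ?_
    calc (u * w⁻¹) * p₀ = (br p₀ (u * w⁻¹)) * (u * w⁻¹) * p₀ := by rw [h3, one_mul]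
      _ = p₀ * (u * w⁻¹) := by rw [br_def]; group
  have hχinj : Function.Injective χ := by
    intro a b hab
    apply hinj
    rw [← hχψ a, ← hχψ b, hab]
  have hχadd : ∀ a b, χ (a + b) = χ a * χ b := by
    intro a b
    apply hbr_inj _ (hχU _) _ (mul_mem (hχU a) (hχU b))
    rw [br_mul_right h hn.o hp₀ (hχU a) (hχU b), hχψ, hχψ, hχψ, hadd]
  have hχ0 : χ 0 = 1 := by
    have := hχadd 0 0
    rw [add_zero] at this
    exact mul_eq_left.mp this.symm
  have hχn : ∀ a, χ (-a) = (χ a)⁻¹ := by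
    intro a
    apply eq_inv_of_mul_eq_one_left
    rw [← hχadd, neg_add_cancel, hχ0]
  have hχsurj : ∀ u ∈ U, ∃ a, χ a = u := by
    intro u hu
    obtain ⟨a, ha⟩ := hsurj _ (br_mem h hn.o hp₀ hu)
    refine ⟨a, hbr_inj _ (hχU a) _ hu ?_⟩
    rw [hχψ, ha]
  -- endomorphisms from elements
  have mkK : ∀ p ∈ PP V Q, ∃ k : AddMonoid.End A, ∀ a, ψ (k a) = br p (χ a) := by
    intro p hp
    have h3 : ∀ a, ∃ b, ψ b = br p (χ a) := fun a => hsurj _ (br_mem h hn.o hp (hχU a))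
    choose k hk using h3
    refine ⟨AddMonoidHom.mk' k ?_, hk⟩
    intro a b
    apply hinj
    rw [hk, hadd, hk, hk, hχadd, br_mul_right h hn.o hp (hχU a) (hχU b)]
  have mkL : ∀ y ∈ PP U Q', ∃ l : AddMonoid.End A, ∀ a, χ (l a) = br y (ψ a) := by
    intro y hy
    have h3 : ∀ a, ∃ b, χ b = br y (ψ a) := fun a => hχsurj _ (br_mem h' hn'.o hy (hmem a))
    choose l hl using h3
    refine ⟨AddMonoidHom.mk' l ?_, hl⟩
    intro a b
    apply hχinj
    rw [hl, hχadd, hl, hl, hadd, br_mul_right h' hn'.o hy (hmem a) (hmem b)]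
  let K : AddSubgroup (AddMonoid.End A) :=
    { carrier := {k | ∃ p ∈ PP V Q, ∀ a, ψ (k a) = br p (χ a)}
      zero_mem' := ⟨1, one_mem _, fun a => by
        rw [br_one_left]
        exact hψ0⟩
      add_mem' := by
        rintro k l ⟨p, hp, hk⟩ ⟨q, hq, hl⟩
        refine ⟨p * q, mul_mem hp hq, fun a => ?_⟩
        change ψ (k a + l a) = _
        rw [hadd, hk, hl, br_mul_left h hn.o hp hq (hχU a)]
      neg_mem' := by
        rintro k ⟨p, hp, hk⟩
        refine ⟨p⁻¹, inv_mem hp, fun a => ?_⟩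
        change ψ (-(k a)) = _
        rw [hψn, hk, br_inv_left h hn.o hp (hχU a)] }
  let L : AddSubgroup (AddMonoid.End A) :=
    { carrier := {l | ∃ y ∈ PP U Q', ∀ a, χ (l a) = br y (ψ a)}
      zero_mem' := ⟨1, one_mem _, fun a => by
        rw [br_one_left]
        exact hχ0⟩
      add_mem' := by
        rintro k l ⟨p, hp, hk⟩ ⟨q, hq, hl⟩
        refine ⟨p * q, mul_mem hp hq, fun a => ?_⟩
        change χ (k a + l a) = _
        rw [hχadd, hk, hl, br_mul_left h' hn'.o hp hq (hmem a)]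
      neg_mem' := by
        rintro k ⟨p, hp, hk⟩
        refine ⟨p⁻¹, inv_mem hp, fun a => ?_⟩
        change χ (-(k a)) = _
        rw [hχn, hk, br_inv_left h' hn'.o hp (hmem a)] }
  have memK : ∀ k : AddMonoid.End A, k ∈ K ↔ ∃ p ∈ PP V Q, ∀ a, ψ (k a) = br p (χ a) :=
    fun _ => Iff.rfl
  have memL : ∀ l : AddMonoid.End A, l ∈ L ↔ ∃ y ∈ PP U Q', ∀ a, χ (l a) = br y (ψ a) :=
    fun _ => Iff.rfl
  have hone : (1 : AddMonoid.End A) ∈ K := (memK 1).mpr ⟨p₀, hp₀, fun a => (hχψ a).symm⟩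
  obtain ⟨a₁, ha₁⟩ := exists_ne (0 : A)
  have hχa₁ : χ a₁ ≠ 1 := by
    intro h3
    apply ha₁
    apply hχinj
    rw [h3, hχ0]
  have hcard : Nat.card K = Nat.card A := by
    apply Nat.card_congr
    refine Equiv.ofBijective (fun k : K => k.1 a₁) ⟨?_, ?_⟩
    · rintro ⟨k, hk⟩ ⟨l, hl⟩ hkl
      change k a₁ = l a₁ at hkl
      obtain ⟨p, hp, hpk⟩ := (memK k).mp hk
      obtain ⟨q, hq, hql⟩ := (memK l).mp hl
      apply Subtype.ext
      apply AddMonoidHom.ext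
      intro a
      apply hinj
      have h3 : br p (χ a₁) = br q (χ a₁) := by rw [← hpk, ← hql, hkl]
      have h4 := br_eq h hn.o hp hq (hχU a₁) hχa₁ h3 (hχU a)
      change ψ (k a) = ψ (l a)
      rw [hpk, hql, h4]
    · intro a
      obtain ⟨y, hy, hyx⟩ := hn.surj h (hχU a₁) hχa₁ (hmem a)
      have hyP := hn.o₂.le hy
      obtain ⟨k, hk⟩ := mkK y hyP
      refine ⟨⟨k, (memK k).mpr ⟨y, hyP, hk⟩⟩, ?_⟩
      change k a₁ = a
      apply hinj
      rw [hk, br_def, hyx]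
      group
  have hKL : ∀ k ∈ K, k ≠ 0 → ∃ l ∈ L, k * l = 1 ∧ l * k = 1 := by
    intro k hk hk0
    obtain ⟨p, hp, hpk⟩ := (memK k).mp hk
    have hne : ∃ u ∈ U, p * u * p⁻¹ * u⁻¹ ≠ 1 := by
      by_contra hcon
      push Not at hcon
      apply hk0
      apply AddMonoidHom.ext
      intro a
      apply hinj
      change ψ (k a) = ψ 0
      rw [hpk, br_def, hcon _ (hχU a), hψ0]
    obtain ⟨y, hy, hy1, hy2⟩ := exists_inv h h' hn hn' hp hne
    obtain ⟨l, hl⟩ := mkL y hy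
    refine ⟨l, (memL l).mpr ⟨y, hy, hl⟩, ?_, ?_⟩
    · apply AddMonoidHom.ext
      intro a
      apply hinj
      change ψ (k (l a)) = ψ a
      rw [hpk, hl]
      exact hy2 _ (hmem a)
    · apply AddMonoidHom.ext
      intro a
      apply hχinj
      change χ (l (k a)) = χ a
      rw [hl, hpk]
      exact hy1 _ (hχU a)
  have hLK : ∀ l ∈ L, l ≠ 0 → ∃ k ∈ K, k * l = 1 ∧ l * k = 1 := by
    intro l hl hl0
    obtain ⟨y, hy, hyl⟩ := (memL l).mp hl
    have hne : ∃ v ∈ V, y * v * y⁻¹ * v⁻¹ ≠ 1 := by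
      by_contra hcon
      push Not at hcon
      apply hl0
      apply AddMonoidHom.ext
      intro a
      apply hχinj
      change χ (l a) = χ 0
      rw [hyl, br_def, hcon _ (hmem a), hχ0]
    obtain ⟨p, hp, hp1, hp2⟩ := exists_inv h' h hn' hn hy hne
    obtain ⟨k, hk⟩ := mkK p hp
    refine ⟨k, (memK k).mpr ⟨p, hp, hk⟩, ?_, ?_⟩
    · apply AddMonoidHom.ext
      intro a
      apply hinj
      change ψ (k (l a)) = ψ a
      rw [hk, hyl]
      exact hp1 _ (hmem a)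
    · apply AddMonoidHom.ext
      intro a
      apply hχinj
      change χ (l (k a)) = χ a
      rw [hyl, hk]
      exact hp2 _ (hχU a)
  obtain ⟨F, iF, iFin, hF, e, heK, heL⟩ :=
    SpreadField.exists_field h2 K L hcard hone hKL hLK
  refine ⟨F, iF, iFin, hF, ?_⟩
  have hα : ∀ a b : F, ψ (e.symm (a + b)) = ψ (e.symm a) * ψ (e.symm b) := fun a b => by
    rw [map_add, hadd]
  have hβ : ∀ a b : F, χ (e.symm (a + b)) = χ (e.symm a) * χ (e.symm b) := fun a b => by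
    rw [map_add, hχadd]
  refine SLTwoAction.quotient_equiv_SL2 (F := F) (fun a => ψ (e.symm a)) (fun b => χ (e.symm b))
    hα hβ ?_ ?_ (V ⊔ U) (PP V Q) (PP U Q') ?_ ?_ ?_ ?_ ?_
  · intro a b
    exact hn.o.comm h (hmem _) (hχU _)
  · intro a b hab
    have h3 := decomp_unique h hn.o (hmem (e.symm a)) (one_mem V) (hχU (e.symm b)) (one_mem U)
      (by rw [hab]; simp)
    constructor
    · apply e.symm.injective
      apply hinj
      rw [h3.1, map_zero, hψ0]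
    · apply e.symm.injective
      apply hχinj
      rw [h3.2, map_zero, hχ0]
  · intro w
    rw [hn.o.mem_W h]
    constructor
    · rintro ⟨v, hv, u, hu, rfl⟩
      obtain ⟨a, rfl⟩ := hsurj v hv
      obtain ⟨b, rfl⟩ := hχsurj u hu
      exact ⟨e a, e b, by simp⟩
    · rintro ⟨a, b, rfl⟩
      exact ⟨_, hmem _, _, hχU _, rfl⟩
  · intro p hp
    obtain ⟨k, hk⟩ := mkK p hp
    obtain ⟨c, hc⟩ := (heK k).mp ((memK k).mpr ⟨p, hp, hk⟩)
    refine ⟨c, fun a b => ?_⟩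
    have h3 : br p (χ (e.symm b)) = ψ (e.symm (c * b)) := by
      rw [← hk]
      congr 1
      apply e.injective
      rw [hc]
      simp
    have h4 := h.comm_VP (hmem (e.symm a)) hp
    calc p * (ψ (e.symm a) * χ (e.symm b)) * p⁻¹
        = (p * ψ (e.symm a)) * χ (e.symm b) * p⁻¹ := by group
      _ = ψ (e.symm a) * br p (χ (e.symm b)) * χ (e.symm b) := by rw [← h4, br_def]; group
      _ = _ := by rw [h3, hα]
  · intro c
    let k : AddMonoid.End A := AddMonoidHom.mk' (fun a => e.symm (c * e a)) (by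
      intro a b
      rw [map_add, mul_add, map_add])
    have hka : ∀ a, k a = e.symm (c * e a) := fun _ => rfl
    have hkK : k ∈ K := (heK k).mpr ⟨c, fun a => by rw [hka, AddEquiv.apply_symm_apply]⟩
    obtain ⟨p, hp, hk⟩ := (memK k).mp hkK
    refine ⟨p, hp, fun a b => ?_⟩
    have h3 : br p (χ (e.symm b)) = ψ (e.symm (c * b)) := by
      rw [← hk, hka, AddEquiv.apply_symm_apply]
    have h4 := h.comm_VP (hmem (e.symm a)) hp
    calc p * (ψ (e.symm a) * χ (e.symm b)) * p⁻¹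
        = (p * ψ (e.symm a)) * χ (e.symm b) * p⁻¹ := by group
      _ = ψ (e.symm a) * br p (χ (e.symm b)) * χ (e.symm b) := by rw [← h4, br_def]; group
      _ = _ := by rw [h3, hα]
  · intro p hp
    obtain ⟨l, hl⟩ := mkL p hp
    obtain ⟨c, hc⟩ := (heL l).mp ((memL l).mpr ⟨p, hp, hl⟩)
    refine ⟨c, fun a b => ?_⟩
    have h3 : br p (ψ (e.symm a)) = χ (e.symm (c * a)) := by
      rw [← hl]
      congr 1
      apply e.injective
      rw [hc]
      simp
    have h4 := h'.comm_VP (hχU (e.symm b)) hp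
    have h5 := hn.o.comm h (hmem (e.symm a)) (hχU (e.symm (c * a)))
    have h6 := hn.o.mul_comm h (hχU (e.symm b)) (hχU (e.symm (c * a)))
    calc p * (ψ (e.symm a) * χ (e.symm b)) * p⁻¹
        = (p * ψ (e.symm a) * p⁻¹) * (p * χ (e.symm b)) * p⁻¹ := by group
      _ = br p (ψ (e.symm a)) * ψ (e.symm a) * χ (e.symm b) := by rw [← h4, br_def]; group
      _ = ψ (e.symm a) * (χ (e.symm b) * χ (e.symm (c * a))) := by
          rw [h3, ← h5, h6]; group
      _ = _ := by rw [hβ]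
  · intro c
    let l : AddMonoid.End A := AddMonoidHom.mk' (fun a => e.symm (c * e a)) (by
      intro a b
      rw [map_add, mul_add, map_add])
    have hla : ∀ a, l a = e.symm (c * e a) := fun _ => rfl
    have hlL : l ∈ L := (heL l).mpr ⟨c, fun a => by rw [hla, AddEquiv.apply_symm_apply]⟩
    obtain ⟨p, hp, hl⟩ := (memL l).mp hlL
    refine ⟨p, hp, fun a b => ?_⟩
    have h3 : br p (ψ (e.symm a)) = χ (e.symm (c * a)) := by
      rw [← hl, hla, AddEquiv.apply_symm_apply]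
    have h4 := h'.comm_VP (hχU (e.symm b)) hp
    have h5 := hn.o.comm h (hmem (e.symm a)) (hχU (e.symm (c * a)))
    have h6 := hn.o.mul_comm h (hχU (e.symm b)) (hχU (e.symm (c * a)))
    calc p * (ψ (e.symm a) * χ (e.symm b)) * p⁻¹
        = (p * ψ (e.symm a) * p⁻¹) * (p * χ (e.symm b)) * p⁻¹ := by group
      _ = br p (ψ (e.symm a)) * ψ (e.symm a) * χ (e.symm b) := by rw [← h4, br_def]; group
      _ = ψ (e.symm a) * (χ (e.symm b) * χ (e.symm (c * a))) := by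
          rw [h3, ← h5, h6]; group
      _ = _ := by rw [hβ]

theorem exists_SL2 {G : Type*} [Group G] [Finite G] {V Q U Q' U₂ V₂ : Subgroup G} (h : TIData V Q) (h' : TIData U Q') (hn : NPair V Q U U₂) (hn' : NPair U Q' V V₂) (hN : ((Subgroup.centralizer ((V ⊔ U : Subgroup G) : Set G)).subgroupOf (PP V Q ⊔ PP U Q')).Normal) : ∃ (F : Type) (_ : Field F) (_ : Fintype F), Fintype.card F = Nat.card ↥V ∧ Nonempty (↥(PP V Q ⊔ PP U Q') ⧸ (Subgroup.centralizer ((V ⊔ U : Subgroup G) : Set G)).subgroupOf (PP V Q ⊔ PP U Q') ≃* Matrix.SpecialLinearGroup (Fin 2) F) := by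
  classical
  let iV : CommGroup V := { (inferInstance : Group V) with
    mul_comm := fun a b => Subtype.ext (h.comm a a.2 b b.2) }
  have hnt : Nontrivial (Additive V) := by
    have : Nontrivial V := (Subgroup.nontrivial_iff_ne_bot V).mpr hn.o.ne_bot
    infer_instance
  have hfin : Finite (Additive V) := inferInstanceAs (Finite V)
  have key := core (A := Additive V) (fun a => ((Additive.toMul a : V) : G)) (fun a b => rfl)
    (fun a b hab => Additive.toMul.injective (Subtype.ext hab)) (fun a => (Additive.toMul a : V).2)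
    (fun g hg => ⟨Additive.ofMul ⟨g, hg⟩, rfl⟩) h h' hn hn' hN
  obtain ⟨F, iF, iFin, hF, hiso⟩ := key
  exact ⟨F, iF, iFin, hF, hiso⟩

end Cfsg.Agent.ClassificationK.TIPairSLTwo
end

-- part: S1786
section
set_option autoImplicit false
open Cfsg

namespace Cfsg.Agent.S1786

open Cfsg.Agent.ClassificationK.TIPair in
theorem exists_data {G : Type*} [Group G] [Finite G] (V : Subgroup G)
    (hV : Cfsg.IsElementaryAbelian 2 V)
    (h1 : (Cfsg.generalizedFittingSubgroup ↥(Subgroup.normalizer (V : Set G))).map (Subgroup.normalizer (V : Set G)).subtype =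
      (Cfsg.pCore 2 ↥(Subgroup.normalizer (V : Set G))).map (Subgroup.normalizer (V : Set G)).subtype)
    (h2 : ∀ A : Subgroup G, V ≤ A → A ≤ Subgroup.normalizer (V : Set G) → IsMulCommutative ↥A →
      (∀ m ∈ Subgroup.normalizer (V : Set G), ∀ a ∈ A, m * a * m⁻¹ ∈ A) → A = V)
    (hti : ∀ x : G, V.map (MulAut.conj x).toMonoidHom = V ∨ V.map (MulAut.conj x).toMonoidHom ⊓ V = ⊥) :
    TIData V ((Cfsg.pCore 2 ↥(Subgroup.normalizer (V : Set G))).map (Subgroup.normalizer (V : Set G)).subtype) := by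
  have hVN : V ≤ Subgroup.normalizer (V : Set G) := Subgroup.le_normalizer
  have h1' : Cfsg.generalizedFittingSubgroup ↥(Subgroup.normalizer (V : Set G)) =
      Cfsg.pCore 2 ↥(Subgroup.normalizer (V : Set G)) :=
    Subgroup.map_injective (Subgroup.subtype_injective _) h1
  have hc := Cfsg.Agent.SignalizersComponents.CharP.centralizer_pCore_le_of_genFitting_eq h1'
  have hVa : ∀ a ∈ V, ∀ b ∈ V, a * b = b * a := by
    intro a ha b hb
    exact congrArg Subtype.val (hV.1.is_comm.comm (⟨a, ha⟩ : V) ⟨b, hb⟩)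
  have hV2 : ∀ a ∈ V, a * a = 1 := fun a ha => by
    rw [← pow_two]
    exact hV.2 a ha
  have hmax : ∀ K : Subgroup G, K ≤ Subgroup.normalizer (V : Set G) → IsPGroup 2 K →
      (∀ m ∈ Subgroup.normalizer (V : Set G), ∀ x ∈ K, m * x * m⁻¹ ∈ K) →
      K ≤ (Cfsg.pCore 2 ↥(Subgroup.normalizer (V : Set G))).map (Subgroup.normalizer (V : Set G)).subtype := by
    intro K hK hK2 hKn
    have h3 : K.subgroupOf (Subgroup.normalizer (V : Set G)) ≤
        Cfsg.pCore 2 ↥(Subgroup.normalizer (V : Set G)) := by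
      apply Cfsg.Agent.Lib.Cores.le_pCore
      · constructor
        intro n hn g
        rw [Subgroup.mem_subgroupOf] at hn ⊢
        exact hKn g g.2 n hn
      · exact hK2.comap_subtype
    intro x hx
    exact ⟨⟨x, hK hx⟩, h3 (Subgroup.mem_subgroupOf.mpr hx), rfl⟩
  refine ⟨hV2, hVa, ?_, Subgroup.map_subtype_le _, ?_, ?_, ?_, hmax, ?_, ?_⟩
  · refine hmax V hVN ?_ fun m hm x hx => (Subgroup.mem_normalizer_iff.mp hm x).mp hx
    rintro ⟨v, hv⟩
    refine ⟨1, Subtype.ext ?_⟩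
    change v ^ 2 ^ 1 = 1
    rw [pow_one, pow_two]
    exact hV2 v hv
  · rintro m hm _ ⟨x, hx, rfl⟩
    exact ⟨⟨m, hm⟩ * x * ⟨m, hm⟩⁻¹,
      (Cfsg.Agent.Lib.Cores.pCore_normal 2).conj_mem x hx ⟨m, hm⟩, rfl⟩
  · exact (Cfsg.Agent.Lib.Cores.pCore_isPGroup 2).map _
  · intro x hx hxc
    refine ⟨⟨x, hx⟩, hc ?_, rfl⟩
    rw [Subgroup.mem_centralizer_iff]
    intro y hy
    exact Subtype.ext (hxc y ⟨y, hy, rfl⟩).symm
  · intro A hVA hAN hAc hAn
    exact h2 A hVA hAN ⟨⟨fun a b => Subtype.ext (hAc a a.2 b b.2)⟩⟩ hAn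
  · intro x v hv hv1 hx
    rcases hti x with h3 | h3
    · exact normalizer_of_cj_eq h3
    · exfalso
      have h4 : x * v * x⁻¹ ∈ V.map (MulAut.conj x).toMonoidHom ⊓ V :=
        Subgroup.mem_inf.mpr ⟨⟨v, hv, rfl⟩, hx⟩
      rw [h3, Subgroup.mem_bot] at h4
      apply hv1
      calc v = x⁻¹ * (x * v * x⁻¹) * x := by group
        _ = 1 := by rw [h4]; group

/-- Let G be a finite group, V an elementary abelian 2-subgroup of G and M the normalizer of V; write Q for the largest normal 2-subgroup of M. Suppose (1) the generalized Fitting subgroup of M equals Q; (2) V is a maximal abelian normal subgroup of M; (3) every conjugate of V equals V or meets V trivially, and for some g ∈ G the conjugate V' = g V g⁻¹ is different from V and contained in Q. Let P be the centralizer of V in Q, W the subgroup generated by V and V', and H the subgroup generated by P and g P g⁻¹. Then: (a) V is contained in g Q g⁻¹; (b) every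 non-identity element of W lies in exactly one conjugate of V contained in W, H normalizes W, and H modulo the centralizer of W in H is isomorphic to the special linear group of dimension 2 over the field with |V| elements; (c) P = Q, and V equals the Frattini subgroup, the centre and the commutator subgroup of Q. -/
theorem result {G : Type*} [Group G] [Finite G] (V : Subgroup G)
    (hV : Cfsg.IsElementaryAbelian 2 V)
    (h1 : (Cfsg.generalizedFittingSubgroup ↥(Subgroup.normalizer (V : Set G))).map (Subgroup.normalizer (V : Set G)).subtype =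
      (Cfsg.pCore 2 ↥(Subgroup.normalizer (V : Set G))).map (Subgroup.normalizer (V : Set G)).subtype)
    (h2 : ∀ A : Subgroup G, V ≤ A → A ≤ Subgroup.normalizer (V : Set G) → IsMulCommutative ↥A →
      (∀ m ∈ Subgroup.normalizer (V : Set G), ∀ a ∈ A, m * a * m⁻¹ ∈ A) → A = V)
    (hti : ∀ x : G, V.map (MulAut.conj x).toMonoidHom = V ∨ V.map (MulAut.conj x).toMonoidHom ⊓ V = ⊥)
    (g : G) (hg : V.map (MulAut.conj g).toMonoidHom ≠ V)
    (hgQ : V.map (MulAut.conj g).toMonoidHom ≤ (Cfsg.pCore 2 ↥(Subgroup.normalizer (V : Set G))).map (Subgroup.normalizer (V : Set G)).subtype) :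
    let Q : Subgroup G := (Cfsg.pCore 2 ↥(Subgroup.normalizer (V : Set G))).map (Subgroup.normalizer (V : Set G)).subtype
    let P : Subgroup G := Q ⊓ Subgroup.centralizer (V : Set G)
    let W : Subgroup G := V ⊔ V.map (MulAut.conj g).toMonoidHom
    let H : Subgroup G := P ⊔ P.map (MulAut.conj g).toMonoidHom
    V ≤ Q.map (MulAut.conj g).toMonoidHom ∧
      (∀ w ∈ W, w ≠ 1 → ∃! U : Subgroup G, (∃ x : G, U = V.map (MulAut.conj x).toMonoidHom) ∧ U ≤ W ∧ w ∈ U) ∧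
      H ≤ Subgroup.normalizer (W : Set G) ∧
      (∀ hN : ((Subgroup.centralizer (W : Set G)).subgroupOf H).Normal, ∃ (F : Type) (_ : Field F) (_ : Fintype F), Fintype.card F = Nat.card ↥V ∧
        Nonempty (↥H ⧸ (Subgroup.centralizer (W : Set G)).subgroupOf H ≃* Matrix.SpecialLinearGroup (Fin 2) F)) ∧
      P = Q ∧ (frattini ↥Q).map Q.subtype = V ∧ (Subgroup.center ↥Q).map Q.subtype = V ∧ (commutator ↥Q).map Q.subtype = V := by
  open Cfsg.Agent.ClassificationK.TIPair in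
  intro Q P W H
  have h : TIData V Q := exists_data V hV h1 h2 hti
  have h' : TIData (cj g V) (cj g Q) := h.cjD g
  -- `V'` commutes with `V`
  have hVp : ∀ x : G, IsPGroup 2 (cj x V) := fun x => (h.Q2.to_le h.le).map _
  have hcomm : ⁅V, cj g V⁆ = ⊥ := by
    refine Cfsg.Agent.S1757.result 2 V (cj g V) (h.Q2.to_le h.le) (hVp g) hti ?_ (card_cj g V).ge ?_ ?_
    · intro x
      by_cases hx : cj x (cj g V) = cj g V
      · exact Or.inl hx
      · right
        rw [eq_bot_iff]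
        intro w hw
        rw [Subgroup.mem_bot]
        by_contra hw1
        apply hx
        change cj x (cj g V) = cj g V
        have hw2 : w ∈ cj (x * g) V := by
          rw [← cj_cj]
          exact hw.1
        rw [cj_cj]
        exact h.cj_eq hw1 hw2 hw.2
    · rw [inf_comm]
      exact (hti g).resolve_left hg
    · exact hgQ.trans h.Qle
  have hcomm' : ∀ v ∈ V, ∀ w ∈ cj g V, v * w = w * v := by
    intro v hv w hw
    rw [Subgroup.commutator_eq_bot_iff_le_centralizer] at hcomm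
    exact (Subgroup.mem_centralizer_iff.mp (hcomm hv) w hw).symm
  have hO : Other V Q (cj g V) :=
    ⟨⟨g, rfl⟩, hg, fun w hw => mem_PP.mpr ⟨hgQ hw, fun v hv => hcomm' v hv w hw⟩⟩
  obtain ⟨m₀, hm₀, hnc⟩ := hO.exists_noncomm h
  have hn : NPair V Q (cj g V) (cj m₀ (cj g V)) := ⟨hO, hO.conj h hm₀, hnc⟩
  obtain ⟨k, hkW, hkV, hkU⟩ := exists_swap h hm₀ hn
  have hkQ : cj k Q = cj g Q := h.cj_Q_eq hkV
  have hn' : NPair (cj g V) (cj g Q) V (cj k (cj m₀ (cj g V))) := hn.swap hkV hkU hkQ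
  have hPPeq : P = PP V Q := rfl
  have hPP' : P.map (MulAut.conj g).toMonoidHom = PP (cj g V) (cj g Q) := by
    ext x
    change x ∈ cj g (PP V Q) ↔ _
    rw [mem_PP_cj, Cfsg.Agent.ClassificationK.TIFamily.mem_cj]
  have hQP : Q ≤ PP V Q := hn.Q_le h hkV hkU
  have hWk : cj k (V ⊔ cj g V) = V ⊔ cj g V := cj_eq_of_mem_normalizer hkW
  refine ⟨?_, ?_, ?_, ?_, ?_, map_frattini_eq h hn hQP, map_center_eq h hQP,
    map_commutator_eq h hn hQP⟩
  · -- (a)
    change V ≤ cj g Q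
    rw [← hkQ]
    conv_lhs => rw [← hkU]
    exact cj_mono k hgQ
  · -- partition
    intro w hw hw1
    by_cases hwV : w ∈ V
    · refine ⟨V, ⟨⟨1, (Cfsg.Agent.ClassificationK.TIFamily.cj_one V).symm⟩, le_sup_left, hwV⟩, ?_⟩
      rintro U' ⟨⟨x, rfl⟩, -, hwx⟩
      have := h.cj_eq hw1 hwx (b := 1) (by
        rw [Cfsg.Agent.ClassificationK.TIFamily.mem_cj]; simpa using hwV)
      change cj x V = V
      rw [this]
      exact Cfsg.Agent.ClassificationK.TIFamily.cj_one V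
    · obtain ⟨y, hy, hwy⟩ := hn.cover h hw hwV
      have hyP := hn.o₂.le hy
      refine ⟨cj y (cj g V), ⟨⟨y * g, cj_cj y g V⟩, ?_, hwy⟩, ?_⟩
      · change _ ≤ V ⊔ cj g V
        rw [← hn.o.cj_W h hyP]
        exact cj_mono y le_sup_right
      · rintro U' ⟨⟨x, rfl⟩, -, hwx⟩
        change cj x V = cj y (cj g V)
        rw [cj_cj] at hwy ⊢
        exact h.cj_eq hw1 hwx hwy
  · -- `H ≤ N(W)`
    apply sup_le
    · intro y hy
      exact normalizer_of_cj_eq (hn.o.cj_W h hy)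
    · rw [hPP']
      intro y hy
      have h3 := hn'.o.cj_W h' hy
      rw [sup_comm] at h3
      exact normalizer_of_cj_eq h3
  · intro hN
    have key := Cfsg.Agent.ClassificationK.TIPairSLTwo.exists_SL2 h h' hn hn'
    have hH : H = PP V Q ⊔ PP (cj g V) (cj g Q) := by
      change P ⊔ P.map (MulAut.conj g).toMonoidHom = _
      rw [hPP']
    revert hN
    rw [hH]
    exact key
  · exact le_antisymm inf_le_left hQP

end Cfsg.Agent.S1786
end
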