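import Mathlib
import Cfsg.Agent.OddOrderLocal.GLTwoOdd
import Cfsg.Prelude.Def_OddOrderLocal
import Cfsg.Agent.Lib.ElemAbGL
import Cfsg.Agent.OddOrderLocal.RankTwoAction
import Cfsg.Agent.OddOrderLocal.RankOneCyclic
import Cfsg.Agent.Lib.FrattiniPGroup
import Cfsg.Prelude.Def_Quasithin
import Cfsg.Agent.Lib.Cores
import Cfsg.Agent.QTUniq.Local
import Cfsg.Agent.S0023
import Cfsg.Agent.S0024
import Cfsg.Agent.S0636
import Cfsg.Agent.OddOrderLocal.RankTwoPrimeAut
import Cfsg.Agent.Lib.NormalAbelian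
import Cfsg.Agent.Lib.SylowNormalInf
import Cfsg.Agent.Lib.CoprimeCommutator
import Cfsg.Agent.QTComp.Main
import Cfsg.Agent.Lib.GenFitting
import Cfsg.Agent.SignalizersComponents.Components
import Cfsg.Agent.QTUniq.Main
import Cfsg.Statements.S1822
import Cfsg.Agent.S0205
import Cfsg.Agent.FastGrp
import Cfsg.Agent.Prune
set_option linter.all false

section
prune_inst 0x7ffcbcf9abb8bddfffff7ffffedddffc39905fffefdff94bffece9ff2fdf230a09e56bad0de010fe1ed6e01410b87813f9ffc67fea6bdc7ffffd5ff45ffbee0fe5ffbd0c5196ac340fbc6fff93f07f8e7f3fffffffffffffffffffffffffffbeffbfffffffff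

-- part: QTSolv/Build_mg
section
prune_inst 0x10000000000000000000000000000008800000000000000000000000000000000000000000000000000000000000000000000000000000000000000000000000000000
set_option linter.all false
open scoped Cfsg.Agent.FastGrp

-- part: QTSolv/GLTwo
section
/-!
# Elements of order `p` of `SL(n, r)`, `n ≤ 2`, `p` odd, `p ≠ r`

Two commuting elements of order `p` and determinant 1 generate a cyclic group.
-/

set_option autoImplicit false

namespace Cfsg.Agent.QTSolv.GLTwo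

open Matrix Cfsg.Agent.OddOrderLocal.GLTwoOdd

section Field

variable {K : Type*} [Field K]

/-- A matrix of determinant 1 with a fixed vector and order prime to the characteristic is trivial. -/
theorem eq_one_of_fixed {p : ℕ} (hp : (p : K) ≠ 0) (M : Matrix (Fin 2) (Fin 2) K) (hd : M.det = 1)
    {v : Fin 2 → K} (hv0 : v ≠ 0) (hv : M *ᵥ v = v) (hMp : M ^ p = 1) : M = 1 := by
  have hw : ∀ w : Fin 2 → K, ∃ c : K, M *ᵥ w = w + c • v := by
    intro w
    have h1 := dd_mulVec M v w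
    rw [hd, one_mul, hv] at h1
    have h2 : dd v (M *ᵥ w + (-1 : K) • w) = 0 := by
      rw [dd_add_right, dd_smul_right, h1]
      ring
    obtain ⟨c, hc⟩ := exists_smul_of_dd_eq_zero hv0 h2
    refine ⟨c, ?_⟩
    rw [← hc]
    simp only [_root_.Matrix.mulVec_fin_two, _root_.Nat.succ_eq_add_one, _root_.Nat.reduceAdd, _root_.Fin.isValue, _root_.neg_smul, _root_.one_smul, _root_.Matrix.cons_add, _root_.Matrix.head_neg, _root_.Matrix.tail_neg, _root_.Matrix.neg_empty, _root_.Matrix.empty_add_empty, _root_.Matrix.add_cons, _root_.add_neg_cancel_comm_assoc]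
  have hpow : ∀ (n : ℕ) (w : Fin 2 → K) (c : K), M *ᵥ w = w + c • v → M ^ n *ᵥ w = w + (n * c) • v := by
    intro n w c hc
    induction n with
    | zero => simp
    | succ n ih =>
      rw [pow_succ', ← Matrix.mulVec_mulVec, ih, Matrix.mulVec_add, Matrix.mulVec_smul, hv, hc]
      push_cast
      rw [add_assoc, ← add_smul]
      congr 2
      ring
  ext i j
  obtain ⟨c, hc⟩ := hw (Pi.single j 1)
  have h1 := hpow p _ c hc
  rw [hMp, Matrix.one_mulVec] at h1
  have h2 : (p * c) • v = 0 := by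
    have := congrArg (fun x => x - Pi.single j 1) h1
    simpa only [_root_.smul_eq_zero, _root_.mul_eq_zero, _root_.add_sub_cancel_left, _root_.sub_self] using this.symm
  have h3 : c = 0 := by
    rcases smul_eq_zero.1 h2 with h | h
    · exact (mul_eq_zero.1 h).resolve_left hp
    · exact absurd h hv0
  rw [h3, zero_smul, add_zero] at hc
  have h4 := congrFun hc i
  rw [Matrix.mulVec_single_one] at h4
  rw [Matrix.one_apply]
  have h5 : M i j = (Pi.single j (1 : K) : Fin 2 → K) i := h4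
  rw [h5, Pi.single_apply]

/-- Over an algebraically closed field: if `X`, `Y` commute, have determinant 1 and `p`-th power 1 (`p` odd, not the
characteristic) and `X ≠ 1`, then `Y` is a power of `X`. -/
theorem exists_pow_of_isAlgClosed [IsAlgClosed K] {p : ℕ} (hpp : p.Prime) (hp2 : p ≠ 2) (hp : (p : K) ≠ 0)
    (X Y : Matrix (Fin 2) (Fin 2) K) (hXd : X.det = 1) (hYd : Y.det = 1) (hXp : X ^ p = 1) (hYp : Y ^ p = 1)
    (hXY : X * Y = Y * X) (hX : X ≠ 1) : ∃ k : ℕ, Y = X ^ k := by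
  obtain ⟨μ, hμ⟩ := Module.End.exists_eigenvalue (Matrix.toLin' X)
  obtain ⟨v, hv⟩ := hμ.exists_hasEigenvector
  have hv1 : X *ᵥ v = μ • v := by
    have := hv.apply_eq_smul
    simpa only [_root_.Matrix.mulVec_fin_two, _root_.Nat.succ_eq_add_one, _root_.Nat.reduceAdd, _root_.Fin.isValue, _root_.Matrix.toLin'_apply] using this
  have hv0 : v ≠ 0 := hv.2
  have hpowX : ∀ n : ℕ, X ^ n *ᵥ v = μ ^ n • v := by
    intro n
    induction n with
    | zero => simp
    | succ n ih => rw [pow_succ, ← Matrix.mulVec_mulVec, hv1, Matrix.mulVec_smul, ih, smul_smul, pow_succ, mul_comm]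
  have hμp : μ ^ p = 1 := by
    have h1 := hpowX p
    rw [hXp, Matrix.one_mulVec] at h1
    have h2 : (μ ^ p - 1) • v = 0 := by rw [sub_smul, one_smul, ← h1, sub_self]
    exact sub_eq_zero.1 ((smul_eq_zero.1 h2).resolve_right hv0)
  have hμ1 : μ ≠ 1 := by
    intro h
    rw [h, one_smul] at hv1
    exact hX (eq_one_of_fixed hp X hXd hv0 hv1 hXp)
  have hprim : IsPrimitiveRoot μ p := IsPrimitiveRoot.mk_of_lt μ hpp.pos hμp (by
    intro l hl0 hlp hl
    have h1 : orderOf μ ∣ l := orderOf_dvd_of_pow_eq_one hl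
    have h2 : orderOf μ ∣ p := orderOf_dvd_of_pow_eq_one hμp
    rcases (Nat.dvd_prime hpp).1 h2 with h3 | h3
    · exact hμ1 (orderOf_eq_one_iff.1 h3)
    · rw [h3] at h1
      exact absurd (Nat.le_of_dvd hl0 h1) (not_le.2 hlp))
  have hμ2 : μ ^ 2 ≠ 1 := by
    intro h
    have h1 := hprim.dvd_of_pow_eq_one 2 h
    exact hp2 ((Nat.prime_dvd_prime_iff_eq hpp Nat.prime_two).1 h1)
  -- `Y v` is a multiple of `v`
  have hYv : ∃ ν : K, Y *ᵥ v = ν • v := by
    apply exists_smul_of_dd_eq_zero hv0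
    by_contra h
    have h1 : X *ᵥ (Y *ᵥ v) = μ • (Y *ᵥ v) := by
      rw [Matrix.mulVec_mulVec, hXY, ← Matrix.mulVec_mulVec, hv1, Matrix.mulVec_smul]
    have h2 := dd_mulVec X v (Y *ᵥ v)
    rw [hXd, one_mul, hv1, h1, dd_smul_left, dd_smul_right, ← mul_assoc, ← pow_two] at h2
    apply hμ2
    apply mul_right_cancel₀ h
    rw [h2, one_mul]
  obtain ⟨ν, hν⟩ := hYv
  have hpowY : ∀ n : ℕ, Y ^ n *ᵥ v = ν ^ n • v := by
    intro n
    induction n with
    | zero => simp
    | succ n ih => rw [pow_succ, ← Matrix.mulVec_mulVec, hν, Matrix.mulVec_smul, ih, smul_smul, pow_succ, mul_comm]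
  have hνp : ν ^ p = 1 := by
    have h1 := hpowY p
    rw [hYp, Matrix.one_mulVec] at h1
    have h2 : (ν ^ p - 1) • v = 0 := by rw [sub_smul, one_smul, ← h1, sub_self]
    exact sub_eq_zero.1 ((smul_eq_zero.1 h2).resolve_right hv0)
  have hpne : NeZero p := ⟨hpp.ne_zero⟩
  obtain ⟨k, hkp, hk⟩ := hprim.eq_pow_of_pow_eq_one hνp
  refine ⟨k, ?_⟩
  -- `Y X^(p-k)` fixes `v`
  have hcomm : Commute Y X := hXY.symm
  have hcommk : Commute Y (X ^ (p - k)) := hcomm.pow_right _
  have hZ : Y * X ^ (p - k) = 1 := by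
    refine eq_one_of_fixed hp _ ?_ hv0 ?_ ?_
    · rw [Matrix.det_mul, Matrix.det_pow, hYd, hXd, one_pow, one_mul]
    · rw [← Matrix.mulVec_mulVec, hpowX, Matrix.mulVec_smul, hν, smul_smul, ← hk, ← pow_add,
        Nat.sub_add_cancel hkp.le, hμp, one_smul]
    · rw [hcommk.mul_pow, hYp, one_mul, ← pow_mul, mul_comm, pow_mul, hXp, one_pow]
  calc Y = Y * X ^ p := by rw [hXp, mul_one]
    _ = (Y * X ^ (p - k)) * X ^ k := by rw [mul_assoc, ← pow_add, Nat.sub_add_cancel hkp.le]
    _ = X ^ k := by rw [hZ, one_mul]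

/-- The same over any field. -/
theorem exists_pow {p : ℕ} (hpp : p.Prime) (hp2 : p ≠ 2) (hp : (p : K) ≠ 0)
    (X Y : Matrix (Fin 2) (Fin 2) K) (hXd : X.det = 1) (hYd : Y.det = 1) (hXp : X ^ p = 1) (hYp : Y ^ p = 1)
    (hXY : X * Y = Y * X) (hX : X ≠ 1) : ∃ k : ℕ, Y = X ^ k := by
  let ι : K →+* AlgebraicClosure K := algebraMap K (AlgebraicClosure K)
  have hι : Function.Injective ι := ι.injective
  have hι' : Function.Injective (ι.mapMatrix : Matrix (Fin 2) (Fin 2) K →+* _) := by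
    intro A B h
    ext i j
    exact hι (congrFun (congrFun h i) j)
  obtain ⟨k, hk⟩ := exists_pow_of_isAlgClosed (K := AlgebraicClosure K) hpp hp2 (by
      intro h
      apply hp
      apply hι
      rw [map_natCast, h, map_zero]) (ι.mapMatrix X) (ι.mapMatrix Y)
    (by rw [← RingHom.map_det, hXd, map_one]) (by rw [← RingHom.map_det, hYd, map_one])
    (by rw [← map_pow, hXp, map_one]) (by rw [← map_pow, hYp, map_one])
    (by rw [← map_mul, hXY, map_mul]) (by
      intro h
      apply hX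
      apply hι'
      rw [h, map_one])
  refine ⟨k, hι' ?_⟩
  rw [hk, map_pow]

end Field

/-- **A `p`-subgroup of `SL(n, r)`, `n ≤ 2`, has `p`-rank at most 1** (`p` odd, `p ≠ r`). -/
theorem exists_pow_GL {r p : ℕ} [Fact r.Prime] (hpp : p.Prime) (hp2 : p ≠ 2) (hpr : p ≠ r) {n : ℕ} (hn : n ≤ 2)
    (X Y : GL (Fin n) (ZMod r)) (hXd : Matrix.GeneralLinearGroup.det X = 1)
    (hYd : Matrix.GeneralLinearGroup.det Y = 1) (hXp : X ^ p = 1) (hYp : Y ^ p = 1)
    (hXY : X * Y = Y * X) (hX : X ≠ 1) : ∃ k : ℕ, Y = X ^ k := by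
  have hp : ((p : ℕ) : ZMod r) ≠ 0 := by
    rw [Ne, ZMod.natCast_eq_zero_iff]
    intro h
    exact hpr ((Nat.prime_dvd_prime_iff_eq Fact.out hpp).1 h).symm
  interval_cases n
  · exact absurd (Subsingleton.elim _ _) hX
  · exfalso
    apply hX
    apply Units.ext
    ext i j
    fin_cases i
    fin_cases j
    have hd := congrArg Units.val hXd
    simpa only [Matrix.GeneralLinearGroup.det, _root_.Fin.zero_eta, _root_.Fin.isValue, _root_.Units.val_one, _root_.Matrix.one_apply_eq, _root_.Matrix.det_unique, _root_.Fin.default_eq_zero, _root_.Matrix.coe_units_inv, _root_.Matrix.inv_subsingleton, _root_.Ring.inverse_eq_inv', _root_.Matrix.diagonal_apply_eq, _root_.MonoidHom.coe_mk, _root_.OneHom.coe_mk] using hd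
  · obtain ⟨k, hk⟩ := exists_pow hpp hp2 hp (X : Matrix (Fin 2) (Fin 2) (ZMod r)) (Y : Matrix (Fin 2) (Fin 2) (ZMod r))
      (by have := congrArg Units.val hXd; exact this) (by have := congrArg Units.val hYd; exact this)
      (by have := congrArg Units.val hXp; simpa using this) (by have := congrArg Units.val hYp; simpa using this)
      (by have := congrArg Units.val hXY; simpa only [_root_.Units.val_mul] using this)
      (by intro h; exact hX (Units.ext (by simpa using h)))
    exact ⟨k, Units.ext (by simpa using hk)⟩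

end Cfsg.Agent.QTSolv.GLTwo
end

-- part: QTSolv/Star
section
/-!
# Actions of `P` on `r`-groups of rank at most two

`Star P S` : no proper `S`-invariant normal subgroup of `P` has a cyclic quotient.
-/

set_option autoImplicit false
set_option linter.dupNamespace false

open scoped commutatorElement

namespace Cfsg.Agent.QTSolv.Star

open Subgroup Cfsg
open Cfsg.Agent.OddOrderLocal

variable {H : Type*} [Group H]

/-- no proper `S`-invariant normal subgroup of `P` has a cyclic quotient -/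
def Star (P S : Subgroup H) : Prop :=
  ∀ P₀ : Subgroup H, P₀ ≤ P → P ≤ normalizer (P₀ : Set H) → S ≤ normalizer (P₀ : Set H) →
    ∀ g ∈ P, P ≤ P₀ ⊔ zpowers g → P₀ = P

/-- a homomorphism with cyclic image of `P` is trivial on `P` -/
theorem map_eq_one {N P S : Subgroup H} (hPN : P ≤ N) (hSN : S ≤ N) (hSP : S ≤ normalizer (P : Set H))
    (h : Star P S) {B : Type*} [Group B] (f : ↥N →* B) (hc : IsCyclic ↥((P.subgroupOf N).map f)) :
    ∀ x (hx : x ∈ P), f ⟨x, hPN hx⟩ = 1 := by
  set P₀ : Subgroup H := (P.subgroupOf N ⊓ f.ker).map N.subtype with hP₀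
  have hmem : ∀ x : H, x ∈ P₀ ↔ ∃ hx : x ∈ P, f ⟨x, hPN hx⟩ = 1 := by
    intro x
    constructor
    · rintro ⟨y, ⟨hy1, hy2⟩, rfl⟩
      exact ⟨hy1, hy2⟩
    · rintro ⟨hx, h1⟩
      exact ⟨⟨x, hPN hx⟩, ⟨hx, h1⟩, rfl⟩
  have hinv : ∀ s ∈ N, s ∈ normalizer (P : Set H) → s ∈ normalizer (P₀ : Set H) := by
    have key : ∀ s ∈ N, s ∈ normalizer (P : Set H) → ∀ x ∈ P₀, s * x * s⁻¹ ∈ P₀ := by
      intro s hs hsP x hx
      obtain ⟨hx1, hx2⟩ := (hmem x).1 hx
      refine (hmem _).2 ⟨(mem_normalizer_iff.1 hsP x).1 hx1, ?_⟩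
      have : (⟨s * x * s⁻¹, hPN ((mem_normalizer_iff.1 hsP x).1 hx1)⟩ : ↥N) = ⟨s, hs⟩ * ⟨x, hPN hx1⟩ * ⟨s, hs⟩⁻¹ :=
        Subtype.ext rfl
      rw [this, map_mul, map_mul, hx2, mul_one, map_inv, mul_inv_cancel]
    intro s hs hsP
    rw [mem_normalizer_iff]
    intro x
    refine ⟨key s hs hsP x, fun hx => ?_⟩
    have h1 := key s⁻¹ (N.inv_mem hs) (inv_mem hsP) _ hx
    rw [inv_inv] at h1
    have h2 : s⁻¹ * (s * x * s⁻¹) * s = x := by group
    rwa [h2] at h1
  obtain ⟨⟨_, g, hg, rfl⟩, hgen⟩ := hc.exists_generator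
  have h1 : P₀ = P := by
    refine h P₀ ?_ (fun s hs => hinv s (hPN hs) (le_normalizer hs)) (fun s hs => hinv s (hSN hs) (hSP hs)) g hg ?_
    · intro x hx
      exact ((hmem x).1 hx).1
    · intro x hx
      obtain ⟨k, hk⟩ := mem_zpowers_iff.1 (hgen ⟨f ⟨x, hPN hx⟩, ⟨x, hPN hx⟩, hx, rfl⟩)
      have hk' : (f g) ^ k = f ⟨x, hPN hx⟩ := congrArg Subtype.val hk
      have h2 : x * ((g : H) ^ k)⁻¹ ∈ P₀ := by
        refine (hmem _).2 ⟨P.mul_mem hx (P.inv_mem (P.zpow_mem hg k)), ?_⟩
        have : (⟨x * ((g : H) ^ k)⁻¹, hPN (P.mul_mem hx (P.inv_mem (P.zpow_mem hg k)))⟩ : ↥N)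
            = ⟨x, hPN hx⟩ * (g ^ k)⁻¹ := Subtype.ext rfl
        rw [this, map_mul, map_inv, map_zpow, hk', mul_inv_cancel]
      have h3 : x = (x * ((g : H) ^ k)⁻¹) * (g : H) ^ k := by group
      rw [h3]
      exact mul_mem (mem_sup_left h2) (mem_sup_right (zpow_mem (mem_zpowers _) k))
  intro x hx
  have h2 : x ∈ P₀ := by rw [h1]; exact hx
  exact ((hmem x).1 h2).2

/-- The order of a `p`-group of automorphisms of an elementary abelian `p`-group of rank at most two divides `p`. -/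
theorem card_map_dvd {A : Type*} [Group A] [Finite A] {p : ℕ} [hpf : Fact p.Prime] {P : Subgroup A} (hP : IsPGroup p P)
    {V : Type*} [CommGroup V] [Finite V] (hV : ∀ v : V, v ^ p = 1) (hVc : Nat.card V ≤ p ^ 2)
    (f : A →* MulAut V) : Nat.card (P.map f) ∣ p := by
  have hp : p.Prime := hpf.out
  have hVr : IsPGroup p V := fun v => ⟨1, by rw [pow_one]; exact hV v⟩
  obtain ⟨n, hn⟩ := IsPGroup.iff_card.1 hVr
  have hn2 : n ≤ 2 := by
    rw [hn] at hVc
    exact (Nat.pow_le_pow_iff_right hp.one_lt).1 hVc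
  obtain ⟨e⟩ := Lib.ElemAbGL.mulAut_equiv_GL p n hV hn
  have h1 : Nat.card (P.map f) ∣ Nat.card (GL (Fin n) (ZMod p)) := by
    rw [← Nat.card_congr e.toEquiv]
    exact card_subgroup_dvd_card _
  obtain ⟨k, hk⟩ := IsPGroup.iff_card.1 (hP.map f)
  have h2 : k ≤ 1 := by
    by_contra hk2
    push Not at hk2
    have h3 : p ^ 2 ∣ Nat.card (GL (Fin n) (ZMod p)) := (pow_dvd_pow p hk2).trans (hk ▸ h1)
    rw [Matrix.card_GL_field, ZMod.card] at h3
    interval_cases n
    · simp only [_root_.Finset.univ_eq_empty, _root_.pow_zero, _root_.Finset.prod_empty, _root_.Nat.dvd_one, _root_.pow_eq_one_iff, _root_.OfNat.ofNat_ne_zero, _root_.or_false] at h3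
      exact hp.one_lt.ne' h3
    · simp only [_root_.Finset.univ_unique, _root_.Fin.default_eq_zero, _root_.Fin.isValue, _root_.pow_one, _root_.Fin.val_eq_zero, _root_.pow_zero, _root_.Finset.prod_const, _root_.Finset.card_singleton] at h3
      have h4 : p ^ 2 ≤ p - 1 := Nat.le_of_dvd (Nat.sub_pos_of_lt hp.one_lt) h3
      have h5 : p ≤ p ^ 2 := Nat.le_self_pow two_ne_zero p
      have := hp.one_lt
      omega
    · rw [Fin.prod_univ_two] at h3
      simp only [Fin.val_zero, Fin.val_one, pow_zero, pow_one] at h3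
      have h4 : (p ^ 2 - 1) * (p ^ 2 - p) = p * ((p ^ 2 - 1) * (p - 1)) := by
        have : p ^ 2 - p = p * (p - 1) := by rw [Nat.mul_sub, mul_one, pow_two]
        rw [this]
        ring
      rw [h4, pow_two p] at h3
      have h5 : p ∣ (p ^ 2 - 1) * (p - 1) := Nat.dvd_of_mul_dvd_mul_left hp.pos (by rw [pow_two] at *; exact h3)
      rcases (Nat.Prime.dvd_mul hp).1 h5 with h6 | h6
      · have h7 : p ∣ p ^ 2 := dvd_pow_self p two_ne_zero
        have h8 : 1 ≤ p ^ 2 := Nat.one_le_pow _ _ hp.pos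
        have h9 : p ∣ 1 := by
          have := (Nat.dvd_sub h7 h6)
          rwa [Nat.sub_sub_self h8] at this
        exact hp.one_lt.ne' (Nat.dvd_one.1 h9)
      · have := Nat.le_of_dvd (Nat.sub_pos_of_lt hp.one_lt) h6
        have := hp.one_lt
        omega
  rw [hk]
  exact (pow_dvd_pow p h2).trans (by rw [pow_one])

/-- A `p`-group acting on an elementary abelian `r`-group of rank at most two, normalised by `S` with `Star P S`, acts
trivially. -/
theorem trivial_of_card_le [Finite H] {p r : ℕ} (hp : p.Prime) (hp2 : p ≠ 2) [hr : Fact r.Prime] {N P S : Subgroup H}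
    (hPN : P ≤ N) (hSN : S ≤ N) (hSP : S ≤ normalizer (P : Set H)) (h : Star P S) (hP : IsPGroup p P)
    {V : Type*} [CommGroup V] [Finite V] (hV : ∀ v : V, v ^ r = 1) (hVc : Nat.card V ≤ r ^ 2)
    (f : ↥N →* MulAut V) : ∀ x (hx : x ∈ P), f ⟨x, hPN hx⟩ = 1 := by
  have hpf : Fact p.Prime := ⟨hp⟩
  have hVr : IsPGroup r V := fun v => ⟨1, by rw [pow_one]; exact hV v⟩
  obtain ⟨n, hn⟩ := IsPGroup.iff_card.1 hVr
  have hn2 : n ≤ 2 := by
    rw [hn] at hVc
    exact (Nat.pow_le_pow_iff_right hr.out.one_lt).1 hVc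
  obtain ⟨e⟩ := Lib.ElemAbGL.mulAut_equiv_GL r n hV hn
  set f' : ↥N →* GL (Fin n) (ZMod r) := e.toMonoidHom.comp f with hf'
  have hred : (∀ x (hx : x ∈ P), f' ⟨x, hPN hx⟩ = 1) → ∀ x (hx : x ∈ P), f ⟨x, hPN hx⟩ = 1 := by
    intro h1 x hx
    apply e.injective
    rw [map_one]
    exact h1 x hx
  apply hred
  have hPN' : IsPGroup p (P.subgroupOf N) := hP.comap_of_injective N.subtype N.subtype_injective
  have himg : IsPGroup p ((P.subgroupOf N).map f') := hPN'.map f'
  apply map_eq_one hPN hSN hSP h f'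
  by_cases hpr : p = r
  · -- the image has order at most `p`
    subst hpr
    apply isCyclic_of_card_dvd_prime (p := p)
    have h1 : Nat.card ((P.subgroupOf N).map f') = Nat.card ((P.subgroupOf N).map f) := by
      rw [hf', ← Subgroup.map_map]
      exact (Nat.card_congr (equivMapOfInjective _ e.toMonoidHom e.injective).toEquiv).symm
    rw [h1]
    exact card_map_dvd hPN' hV hVc f
  · -- determinant one
    have hdet : ∀ x (hx : x ∈ P), (Matrix.GeneralLinearGroup.det.comp f') ⟨x, hPN hx⟩ = 1 :=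
      map_eq_one hPN hSN hSP h (Matrix.GeneralLinearGroup.det.comp f') inferInstance
    apply RankOneCyclic.isCyclic_of_pRankLE_one hp2 himg
    intro A hA hAp
    rw [pow_one]
    -- all elements of `A` are powers of one of them
    have hAdet : ∀ a ∈ A, Matrix.GeneralLinearGroup.det (a : GL (Fin n) (ZMod r)) = 1 := by
      rintro ⟨_, g, hg, rfl⟩ ha
      exact hdet g hg
    by_cases hA1 : ∀ a ∈ A, a = 1
    · have : A = ⊥ := (eq_bot_iff_forall A).2 hA1
      rw [this, card_bot]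
      exact hp.one_lt.le
    push Not at hA1
    obtain ⟨a, ha, ha1⟩ := hA1
    have h2 : A ≤ zpowers a := by
      intro b hb
      obtain ⟨k, hk⟩ := GLTwo.exists_pow_GL hp hp2 hpr hn2 (a : GL (Fin n) (ZMod r)) (b : GL (Fin n) (ZMod r))
        (hAdet a ha) (hAdet b hb) (congrArg Subtype.val (hAp a ha)) (congrArg Subtype.val (hAp b hb))
        (congrArg (fun z : A => ((z : ↥((P.subgroupOf N).map f')) : GL (Fin n) (ZMod r)))
          (hA.is_comm.comm (⟨a, ha⟩ : A) ⟨b, hb⟩))
        (fun h3 => ha1 (Subtype.ext h3))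
      rw [show b = a ^ k from Subtype.ext hk]
      exact pow_mem (mem_zpowers a) k
    calc Nat.card A ≤ Nat.card (zpowers a) := card_le_of_le h2
      _ = orderOf a := Nat.card_zpowers a
      _ ≤ p := orderOf_le_of_pow_eq_one hp.pos (hAp a ha)

/-- `P` acts trivially on an `r`-group of rank at most two, `r ≠ p` odd. -/
theorem le_centralizer_of_rank [Finite H] {p r : ℕ} (hp : p.Prime) (hp2 : p ≠ 2) [hr : Fact r.Prime] (hr2 : r ≠ 2)
    (hpr : p ≠ r) {R P S : Subgroup H} (hR : IsPGroup r R) (hrk : PRankLE r 2 R) (hP : IsPGroup p P)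
    (hPR : P ≤ normalizer (R : Set H)) (hSR : S ≤ normalizer (R : Set H)) (hSP : S ≤ normalizer (P : Set H))
    (h : Star P S) : P ≤ centralizer (R : Set H) := by
  obtain ⟨D, θ, hexp, hcard, hθ⟩ := RankTwoAction.exists_module hr2 hR hrk
  have h1 := trivial_of_card_le hp hp2 (r := r) hPR hSR hSP h hP hexp hcard (θ.comp (normalizerMonoidHom R))
  intro x hx
  have h2 : normalizerMonoidHom R ⟨x, hPR hx⟩ = 1 := by
    apply hθ _ _ (h1 x hx)
    have h3 : orderOf (normalizerMonoidHom R ⟨x, hPR hx⟩) ∣ orderOf (⟨x, hPR hx⟩ : ↥(normalizer (R : Set H))) :=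
      orderOf_map_dvd _ _
    obtain ⟨k, hk⟩ := hP ⟨x, hx⟩
    have hk' : x ^ p ^ k = 1 := congrArg Subtype.val hk
    have h4 : (⟨x, hPR hx⟩ : ↥(normalizer (R : Set H))) ^ p ^ k = 1 := Subtype.ext hk'
    have h5 : orderOf (⟨x, hPR hx⟩ : ↥(normalizer (R : Set H))) ∣ p ^ k := orderOf_dvd_of_pow_eq_one h4
    exact Nat.Coprime.coprime_dvd_left (h3.trans h5)
      (Nat.Coprime.pow_left k ((Nat.coprime_primes hp hr.out).2 hpr))
  have h3 : (⟨x, hPR hx⟩ : ↥(normalizer (R : Set H))) ∈ (normalizerMonoidHom R).ker := h2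
  rw [normalizerMonoidHom_ker] at h3
  exact h3

/-- If `s` and `c s` with `c` centralising `P`: the invariance of subgroups of `P` agrees. -/
theorem star_of_modify {P S S' : Subgroup H} (hSP : S ≤ normalizer (P : Set H))
    (hS : ∀ s ∈ S, ∃ c ∈ centralizer (P : Set H), c * s ∈ S') (h : Star P S) : Star P S' := by
  intro P₀ hP₀ hn hS' g hg hle
  refine h P₀ hP₀ hn ?_ g hg hle
  have key : ∀ s ∈ S, ∀ x ∈ P₀, s * x * s⁻¹ ∈ P₀ := by
    intro s hs x hx
    obtain ⟨c, hc, hcs⟩ := hS s hs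
    have h1 : (c * s) * x * (c * s)⁻¹ ∈ P₀ := (mem_normalizer_iff.1 (hS' hcs) x).1 hx
    have h2 : s * x * s⁻¹ ∈ P := (mem_normalizer_iff.1 (hSP hs) x).1 (hP₀ hx)
    have h3 : (c * s) * x * (c * s)⁻¹ = s * x * s⁻¹ := by
      have h4 := (mem_centralizer_iff.1 hc) _ h2
      calc (c * s) * x * (c * s)⁻¹ = c * (s * x * s⁻¹) * c⁻¹ := by group
        _ = s * x * s⁻¹ := by rw [← h4]; group
    rwa [h3] at h1
  rw [le_normalizer_iff]
  exact key

end Cfsg.Agent.QTSolv.Star
end

-- part: QTSolv/Data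
section
/-!
# The pair `(P, S)` with `S` irreducible on `P / F`, `|P / F| = p²`
-/

set_option autoImplicit false

open scoped commutatorElement Pointwise

namespace Cfsg.Agent.QTSolv.Data

open Subgroup Cfsg
open Cfsg.Agent.QTSolv.Star

variable {H : Type*} [Group H]

/-- `P` a `p`-group, `F = Φ(P)` of order 1 or `p` and index `p²`, `S` normalises `P` and is irreducible on `P / F`. -/
structure Dat (p : ℕ) (P S F : Subgroup H) : Prop where
  prime : p.Prime
  odd : p ≠ 2
  pgroup : IsPGroup p P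
  S_le : S ≤ normalizer (P : Set H)
  F_le : F ≤ P
  F_norm : S ≤ normalizer (F : Set H)
  irr : ∀ Y : Subgroup H, F ≤ Y → Y ≤ P → S ≤ normalizer (Y : Set H) → Y = F ∨ Y = P
  card : Nat.card P = p ^ 2 * Nat.card F
  F_card : Nat.card F ∣ p
  comm : ⁅P, P⁆ ≤ F
  pow : ∀ x ∈ P, x ^ p ∈ F
  ngen : ∀ Y : Subgroup H, Y ≤ P → Y ⊔ F = P → Y = P
  cent : F ≤ centralizer (P : Set H)

variable {p : ℕ} {P S F : Subgroup H}

theorem mem_normalizer_of_conj [Finite H] {Y : Subgroup H} {s : H} (h : ∀ y ∈ Y, s * y * s⁻¹ ∈ Y) :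
    s ∈ normalizer (Y : Set H) := by
  have h4 : Y.map (MulAut.conj s).toMonoidHom = Y := by
    apply eq_of_le_of_card_ge
    · rintro _ ⟨y, hy, rfl⟩
      exact h y hy
    · exact (Nat.card_congr (equivMapOfInjective _ (MulAut.conj s).toMonoidHom (MulAut.conj s).injective).toEquiv).le
  rw [mem_normalizer_iff]
  intro x
  refine ⟨h x, fun hx => ?_⟩
  rw [← h4] at hx
  obtain ⟨y, hy, hyx⟩ := hx
  have h5 : s * y * s⁻¹ = s * x * s⁻¹ := hyx
  have h6 : y = x := mul_left_cancel (mul_right_cancel h5)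
  rwa [← h6]

/-- normalising a join -/
theorem mem_normalizer_sup {A B : Subgroup H} {s : H} (hA : s ∈ normalizer (A : Set H))
    (hB : s ∈ normalizer (B : Set H)) : s ∈ normalizer ((A ⊔ B : Subgroup H) : Set H) := by
  have key : ∀ t : H, t ∈ normalizer (A : Set H) → t ∈ normalizer (B : Set H) → ∀ x ∈ A ⊔ B, t * x * t⁻¹ ∈ A ⊔ B := by
    intro t ht1 ht2
    have h1 : A ⊔ B ≤ (A ⊔ B).comap (MulAut.conj t).toMonoidHom := by
      apply sup_le
      · intro a ha
        exact mem_sup_left ((mem_normalizer_iff.1 ht1 a).1 ha)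
      · intro b hb
        exact mem_sup_right ((mem_normalizer_iff.1 ht2 b).1 hb)
    intro x hx
    exact h1 hx
  rw [mem_normalizer_iff]
  intro x
  refine ⟨key s hA hB x, fun hx => ?_⟩
  have h2 := key s⁻¹ (inv_mem hA) (inv_mem hB) _ hx
  have h3 : s⁻¹ * (s * x * s⁻¹) * s⁻¹⁻¹ = x := by group
  rwa [h3] at h2

namespace Dat

theorem ne_top_zpowers [Finite H] (D : Dat p P S F) {g : H} (hg : g ∈ P) : zpowers g ⊔ F ≠ P := by
  intro h
  have h1 := D.ngen (zpowers g) ((zpowers_le).2 hg) h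
  have h2 : g ^ p ∈ F := D.pow g hg
  have h3 : Nat.card P = orderOf g := by rw [← h1, Nat.card_zpowers]
  -- the order of `g` divides `p * |F|`
  have h4 : g ^ (p * Nat.card F) = 1 := by
    rw [pow_mul]
    have h5 : (⟨g ^ p, h2⟩ : F) ^ Nat.card F = 1 := pow_card_eq_one'
    exact congrArg Subtype.val h5
  have h5 : orderOf g ∣ p * Nat.card F := orderOf_dvd_of_pow_eq_one h4
  have h6 : 0 < Nat.card F := Nat.card_pos
  have h7 := Nat.le_of_dvd (Nat.mul_pos D.prime.pos h6) h5
  rw [← h3, D.card] at h7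
  have h8 : p ^ 2 ≤ p := Nat.le_of_mul_le_mul_right h7 h6
  have := D.prime.one_lt
  nlinarith only [h8, this]

theorem exists_not_mem [Finite H] (D : Dat p P S F) : ∃ x ∈ P, x ∉ F := by
  by_contra hcon
  push Not at hcon
  have h1 : P = F := le_antisymm hcon D.F_le
  have h2 := D.card
  rw [← h1] at h2
  have h3 : 0 < Nat.card P := Nat.card_pos
  have h4 : p ^ 2 = 1 := by
    have : 1 * Nat.card P = p ^ 2 * Nat.card P := by rw [one_mul]; exact h2
    exact (Nat.eq_of_mul_eq_mul_right h3 this).symm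
  have := D.prime.one_lt
  nlinarith only [h4, this]

theorem star [Finite H] (D : Dat p P S F) : _root_.Cfsg.Agent.QTSolv.Star.Star P S := by
  intro P₀ hP₀ hn hS g hg hle
  have h1 := D.irr (P₀ ⊔ F) le_sup_right (sup_le hP₀ D.F_le) (fun s hs => mem_normalizer_sup (hS hs) (D.F_norm hs))
  rcases h1 with h1 | h1
  · exfalso
    have h2 : P₀ ≤ F := by rw [← h1]; exact le_sup_left
    apply D.ne_top_zpowers hg
    apply le_antisymm (sup_le ((zpowers_le).2 hg) D.F_le)
    refine hle.trans (sup_le (h2.trans le_sup_right) le_sup_left)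
  · exact D.ngen P₀ hP₀ h1

theorem F_central (D : Dat p P S F) {x y : H} (hx : x ∈ F) (hy : y ∈ P) : x * y = y * x :=
  ((mem_centralizer_iff.1 (D.cent hx)) y hy).symm

theorem F_pow (D : Dat p P S F) {x : H} (hx : x ∈ F) : x ^ p = 1 := by
  have h5 : (⟨x, hx⟩ : F) ^ Nat.card F = 1 := pow_card_eq_one'
  obtain ⟨k, hk⟩ := D.F_card
  have h6 : x ^ Nat.card F = 1 := congrArg Subtype.val h5
  rw [hk, pow_mul, h6, one_pow]

/-- the `p`-th power map is multiplicative on `P` -/
theorem mul_pow (D : Dat p P S F) {x y : H} (hx : x ∈ P) (hy : y ∈ P) : (x * y) ^ p = x ^ p * y ^ p := by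
  set z : H := ⁅y, x⁆ with hz
  have hzF : z ∈ F := D.comm (commutator_mem_commutator hy hx)
  have hyx : y * x = z * (x * y) := by rw [hz, commutatorElement_def]; group
  have hzx : z * x = x * z := D.F_central hzF hx
  have hzy : z * y = y * z := D.F_central hzF hy
  -- `y ^ n * x = z ^ n * x * y ^ n`
  have hzyn : ∀ n : ℕ, z * y ^ n = y ^ n * z := fun n => ((show Commute z y from hzy).pow_right n).eq
  have h1 : ∀ n : ℕ, y ^ n * x = z ^ n * (x * y ^ n) := by
    intro n
    induction n with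
    | zero => simp
    | succ n ih =>
      calc y ^ (n + 1) * x = y ^ n * (y * x) := by rw [pow_succ, mul_assoc]
        _ = y ^ n * (z * (x * y)) := by rw [hyx]
        _ = z * (y ^ n * x) * y := by rw [← mul_assoc, ← hzyn, mul_assoc, mul_assoc, ← mul_assoc (y ^ n)]
        _ = z * (z ^ n * (x * y ^ n)) * y := by rw [ih]
        _ = z ^ (n + 1) * (x * y ^ (n + 1)) := by rw [pow_succ', pow_succ]; group
  have hzxn : ∀ n k : ℕ, z ^ k * x ^ n = x ^ n * z ^ k := fun n k =>
    (((show Commute z x from hzx).pow_right n).pow_left k).eq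
  have h2 : ∀ n : ℕ, (x * y) ^ n = z ^ (n * (n - 1) / 2) * (x ^ n * y ^ n) := by
    intro n
    induction n with
    | zero => simp
    | succ n ih =>
      have h3 : (n + 1) * (n + 1 - 1) / 2 = n * (n - 1) / 2 + n := by
        rw [Nat.add_sub_cancel]
        have h4 : (n + 1) * n = n * (n - 1) + 2 * n := by
          cases n with
          | zero => simp
          | succ m => rw [Nat.add_sub_cancel]; ring
        rw [h4, Nat.add_mul_div_left _ _ two_pos]
      calc (x * y) ^ (n + 1) = (x * y) ^ n * (x * y) := pow_succ _ _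
        _ = z ^ (n * (n - 1) / 2) * (x ^ n * y ^ n) * (x * y) := by rw [ih]
        _ = z ^ (n * (n - 1) / 2) * (x ^ n * (y ^ n * x) * y) := by group
        _ = z ^ (n * (n - 1) / 2) * (x ^ n * (z ^ n * (x * y ^ n)) * y) := by rw [h1]
        _ = z ^ (n * (n - 1) / 2) * ((x ^ n * z ^ n) * x * y ^ n * y) := by group
        _ = z ^ (n * (n - 1) / 2) * ((z ^ n * x ^ n) * x * y ^ n * y) := by rw [hzxn]
        _ = z ^ (n * (n - 1) / 2 + n) * (x ^ (n + 1) * y ^ (n + 1)) := by
            rw [pow_add, pow_succ, pow_succ]; group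
        _ = _ := by rw [h3]
  rw [h2 p]
  have h3 : z ^ (p * (p - 1) / 2) = 1 := by
    have h4 : p * (p - 1) / 2 = p * ((p - 1) / 2) := by
      apply Nat.mul_div_assoc
      rcases D.prime.eq_two_or_odd with h | h
      · exact absurd h D.odd
      · omega
    rw [h4, pow_mul, D.F_pow hzF, one_pow]
  rw [h3, one_mul]

/-- `P` has exponent `p`. -/
theorem pow_eq_one [Finite H] (D : Dat p P S F) : ∀ x ∈ P, x ^ p = 1 := by
  -- the elements of order dividing `p`
  let Ω : Subgroup H :=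
    { carrier := {x | x ∈ P ∧ x ^ p = 1}
      mul_mem' := fun {a b} ha hb => ⟨P.mul_mem ha.1 hb.1, by rw [D.mul_pow ha.1 hb.1, ha.2, hb.2, one_mul]⟩
      one_mem' := ⟨P.one_mem, one_pow _⟩
      inv_mem' := fun {a} ha => ⟨P.inv_mem ha.1, by rw [inv_pow, ha.2, inv_one]⟩ }
  have hΩ : ∀ x : H, x ∈ Ω ↔ x ∈ P ∧ x ^ p = 1 := fun x => Iff.rfl
  have h1 : Ω = F ∨ Ω = P := by
    apply D.irr
    · intro x hx
      exact ⟨D.F_le hx, D.F_pow hx⟩
    · intro x hx
      exact hx.1
    · intro s hs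
      have key : ∀ t ∈ normalizer (P : Set H), ∀ x ∈ Ω, t * x * t⁻¹ ∈ Ω := by
        intro t ht x hx
        refine ⟨(mem_normalizer_iff.1 ht x).1 hx.1, ?_⟩
        rw [conj_pow, hx.2, mul_one, mul_inv_cancel]
      exact mem_normalizer_of_conj (key s (D.S_le hs))
  rcases h1 with h1 | h1
  · exfalso
    -- `P / Ω` embeds in `F`
    let f : P →* F :=
      { toFun := fun x => ⟨x ^ p, D.pow x x.2⟩
        map_one' := Subtype.ext (one_pow p)
        map_mul' := fun x y => Subtype.ext (D.mul_pow x.2 y.2) }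
    have h2 : Nat.card f.range * Nat.card f.ker = Nat.card P := by
      rw [mul_comm, ← Subgroup.index_ker, mul_comm]
      rw [mul_comm]
      exact card_mul_index f.ker
    have h3 : Nat.card f.ker = Nat.card F := by
      have h4 : f.ker.map P.subtype = F := by
        refine Eq.trans ?_ h1
        ext x
        constructor
        · rintro ⟨y, hy, rfl⟩
          exact ⟨y.2, congrArg Subtype.val (MonoidHom.mem_ker.1 hy)⟩
        · rintro ⟨hx, hx1⟩
          exact ⟨⟨x, hx⟩, MonoidHom.mem_ker.2 (Subtype.ext hx1), rfl⟩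
      exact (Nat.card_congr (equivMapOfInjective f.ker P.subtype P.subtype_injective).toEquiv).trans
        (congrArg (fun K : Subgroup H => Nat.card K) h4)
    have h4 : Nat.card f.range ≤ Nat.card F := Nat.card_le_card_of_injective _ Subtype.val_injective
    have h5 : 0 < Nat.card F := Nat.card_pos
    have h6 : Nat.card F ≤ p := Nat.le_of_dvd D.prime.pos D.F_card
    rw [h3, D.card] at h2
    have h7 : Nat.card f.range = p ^ 2 := Nat.eq_of_mul_eq_mul_right h5 h2
    have := D.prime.one_lt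
    nlinarith only [h4, h6, h7, this]
  · intro x hx
    rw [← h1] at hx
    exact hx.2

/-- Every subgroup between `F` and `P` which is a `⟨y⟩ F` is `F`, if invariant. -/
theorem mem_F_of_invariant [Finite H] (D : Dat p P S F) {y : H} (hy : y ∈ P)
    (h : ∀ s ∈ S, s * y * s⁻¹ ∈ zpowers y ⊔ F) : y ∈ F := by
  have h1 := D.irr (zpowers y ⊔ F) le_sup_right (sup_le ((zpowers_le).2 hy) D.F_le) ?_
  · rcases h1 with h1 | h1
    · rw [← h1]
      exact mem_sup_left (mem_zpowers y)
    · exact absurd h1 (D.ne_top_zpowers hy)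
  · intro s hs
    apply mem_normalizer_of_conj
    have h2 : zpowers y ⊔ F ≤ (zpowers y ⊔ F).comap (MulAut.conj s).toMonoidHom := by
      apply sup_le
      · rw [zpowers_le]
        exact h s hs
      · intro b hb
        exact mem_sup_right ((mem_normalizer_iff.1 (D.F_norm hs) b).1 hb)
    intro x hx
    exact h2 hx

/-- `P = [P, S₁]` for a subgroup `S₁` of index at most two in `S`. -/
theorem le_commutator [Finite H] (D : Dat p P S F) {S₁ : Subgroup H} (hle : S₁ ≤ S)
    (hn : S ≤ normalizer (S₁ : Set H)) (hi : ∀ s ∈ S, ∀ t ∈ S, s ∉ S₁ → t ∉ S₁ → s * t ∈ S₁) : P ≤ ⁅P, S₁⁆ := by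
  have hcP : ⁅P, S₁⁆ ≤ P := by
    rw [commutator_le]
    intro x hx s hs
    rw [commutatorElement_def]
    have h1 : s * x⁻¹ * s⁻¹ ∈ P := (mem_normalizer_iff.1 (D.S_le (hle hs)) _).1 (P.inv_mem hx)
    have h2 : x * s * x⁻¹ * s⁻¹ = x * (s * x⁻¹ * s⁻¹) := by group
    rw [h2]
    exact P.mul_mem hx h1
  have h1 := D.irr (⁅P, S₁⁆ ⊔ F) le_sup_right (sup_le hcP D.F_le) (by
    intro s hs
    apply mem_normalizer_sup ?_ (D.F_norm hs)
    apply mem_normalizer_of_conj
    have h2 : ⁅P, S₁⁆ ≤ (⁅P, S₁⁆).comap (MulAut.conj s).toMonoidHom := by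
      rw [commutator_le]
      intro x hx t ht
      change s * ⁅x, t⁆ * s⁻¹ ∈ ⁅P, S₁⁆
      have h3 : s * ⁅x, t⁆ * s⁻¹ = ⁅s * x * s⁻¹, s * t * s⁻¹⁆ := by
        rw [commutatorElement_def, commutatorElement_def]; group
      rw [h3]
      exact commutator_mem_commutator ((mem_normalizer_iff.1 (D.S_le hs) x).1 hx) ((mem_normalizer_iff.1 (hn hs) t).1 ht)
    intro x hx
    exact h2 hx)
  rcases h1 with h1 | h1
  · exfalso
    have hS₁F : ∀ x ∈ P, ∀ s ∈ S₁, s * x * s⁻¹ * x⁻¹ ∈ F := by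
      intro x hx s hs
      have h2 : ⁅x, s⁆ ∈ F := by
        rw [← h1]
        exact mem_sup_left (commutator_mem_commutator hx hs)
      have h3 : s * x * s⁻¹ * x⁻¹ = ⁅x, s⁆⁻¹ := by rw [commutatorElement_def]; group
      rw [h3]
      exact F.inv_mem h2
    have hcommF : ∀ x ∈ P, ∀ y ∈ P, x * y * x⁻¹ * y⁻¹ ∈ F := fun x hx y hy =>
      D.comm (commutator_mem_commutator hx hy)
    -- for `s ∈ S \ S₁`, all products `x (s x s⁻¹)` lie in `F`
    have key : ∀ s ∈ S, s ∉ S₁ → ∀ x ∈ P, x * (s * x * s⁻¹) ∈ F := by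
      intro s hs hs1 x hx
      have hsx : s * x * s⁻¹ ∈ P := (mem_normalizer_iff.1 (D.S_le hs) x).1 hx
      set y : H := x * (s * x * s⁻¹) with hy
      have hyP : y ∈ P := P.mul_mem hx hsx
      apply D.mem_F_of_invariant hyP
      intro t ht
      by_cases ht1 : t ∈ S₁
      · have h2 := hS₁F y hyP t ht1
        have h3 : t * y * t⁻¹ = (t * y * t⁻¹ * y⁻¹) * y := by group
        rw [h3]
        exact mul_mem (mem_sup_right h2) (mem_sup_left (mem_zpowers y))
      · -- `t = u s` with `u ∈ S₁`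
        have h2 : t * s ∈ S₁ := hi t ht s hs ht1 hs1
        have h3 : s * s ∈ S₁ := hi s hs s hs hs1 hs1
        have htx : t * x * t⁻¹ ∈ P := (mem_normalizer_iff.1 (D.S_le ht) x).1 hx
        -- `t x t⁻¹ ≡ s x s⁻¹`
        have hu : t * s⁻¹ ∈ S₁ := by
          have : t * s⁻¹ = (t * s) * (s * s)⁻¹ := by group
          rw [this]
          exact S₁.mul_mem h2 (S₁.inv_mem h3)
        have h4 : (t * x * t⁻¹) * (s * x * s⁻¹)⁻¹ ∈ F := by
          have h5 := hS₁F _ hsx _ hu
          have h6 : t * s⁻¹ * (s * x * s⁻¹) * (t * s⁻¹)⁻¹ * (s * x * s⁻¹)⁻¹ =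
              (t * x * t⁻¹) * (s * x * s⁻¹)⁻¹ := by group
          rwa [h6] at h5
        have h5 : ((t * s) * x * (t * s)⁻¹) * x⁻¹ ∈ F := hS₁F x hx _ h2
        -- `t y t⁻¹ = (t x t⁻¹) ((t s) x (t s)⁻¹)`
        set a := t * x * t⁻¹ with ha
        set b := s * x * s⁻¹ with hb
        set c := (t * s) * x * (t * s)⁻¹ with hc
        have h6 : t * y * t⁻¹ = a * c := by
          rw [hy, ha, hc, hb]; group
        have hcP' : c ∈ P := by
          have : c = (c * x⁻¹) * x := by group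
          rw [this]
          exact P.mul_mem (D.F_le h5) hx
        rw [h6]
        -- `a c = (a b⁻¹) b (c x⁻¹) x = f₁ b f₂ x`
        have h7 : a * c = (a * b⁻¹) * (b * (c * x⁻¹) * b⁻¹) * (b * x * b⁻¹ * x⁻¹) * y := by
          rw [hy]
          group
        have h8 : b * x * b⁻¹ * x⁻¹ ∈ F := hcommF b hsx x hx
        have h9 : b * (c * x⁻¹) * b⁻¹ ∈ F := by
          have h10 : b * (c * x⁻¹) * b⁻¹ = c * x⁻¹ := by
            rw [← D.F_central h5 hsx, mul_inv_cancel_right]
          rwa [h10]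
        rw [h7]
        exact mul_mem (mem_sup_right (F.mul_mem (F.mul_mem h4 h9) h8)) (mem_sup_left (mem_zpowers y))
    obtain ⟨x, hx, hxF⟩ := D.exists_not_mem
    apply hxF
    apply D.mem_F_of_invariant hx
    intro s hs
    by_cases hs1 : s ∈ S₁
    · have h2 := hS₁F x hx s hs1
      have h3 : s * x * s⁻¹ = (s * x * s⁻¹ * x⁻¹) * x := by group
      rw [h3]
      exact mul_mem (mem_sup_right h2) (mem_sup_left (mem_zpowers x))
    · have h2 := key s hs hs1 x hx
      have h3 : s * x * s⁻¹ = x⁻¹ * (x * (s * x * s⁻¹)) := by group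
      rw [h3]
      exact mul_mem (mem_sup_left (inv_mem (mem_zpowers x))) (mem_sup_right h2)
  · rw [D.ngen _ hcP h1]

end Dat

end Cfsg.Agent.QTSolv.Data
end

-- part: QTSolv/Frat
section
/-!
# Frattini subgroups of the groups `E_{p²}` and of the nonabelian groups of order `p³`
-/

set_option autoImplicit false

open scoped commutatorElement Pointwise

namespace Cfsg.Agent.QTSolv.Frat

open Subgroup Cfsg

variable {V : Type*} [Group V] [Finite V] {p : ℕ} [hpf : Fact p.Prime]

theorem frattini_center (hc : Nat.card V = p ^ 3) (hn : ¬ IsMulCommutative V) :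
    Nat.card (center V) = p ∧ frattini V = center V := by
  have hp := hpf.out
  have hV : IsPGroup p V := IsPGroup.of_card hc
  have : Nontrivial V := by
    rw [← Finite.one_lt_card_iff_nontrivial, hc]
    exact Nat.one_lt_pow (by norm_num) hp.one_lt
  have hZ : Nontrivial (center V) := hV.center_nontrivial
  have hcyc : ¬ IsCyclic (V ⧸ center V) := by
    intro h
    apply hn
    exact (QuotientGroup.mk' (center V)).isMulCommutative_of_isCyclic_of_ker_le_center (by rw [QuotientGroup.ker_mk'])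
  obtain ⟨k, hk3, hk⟩ := (Nat.dvd_prime_pow hp).1 (hc ▸ card_subgroup_dvd_card (center V))
  have hk0 : k ≠ 0 := by
    intro h
    rw [h, pow_zero] at hk
    exact (Finite.one_lt_card_iff_nontrivial.2 hZ).ne' hk
  have hidx : Nat.card (V ⧸ center V) * Nat.card (center V) = p ^ 3 := by
    rw [← hc]
    exact (card_eq_card_quotient_mul_card_subgroup (center V)).symm
  have hquot : Nat.card (V ⧸ center V) = p ^ (3 - k) := by
    rw [hk] at hidx
    have h1 : p ^ 3 = p ^ (3 - k) * p ^ k := by rw [← pow_add]; congr 1; omega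
    rw [h1] at hidx
    exact Nat.eq_of_mul_eq_mul_right (pow_pos hp.pos k) hidx
  have hk1 : k = 1 := by
    by_contra hne
    apply hcyc
    apply isCyclic_of_card_dvd_prime (p := p)
    rw [hquot]
    calc p ^ (3 - k) ∣ p ^ 1 := pow_dvd_pow p (by omega)
      _ = p := pow_one p
  subst hk1
  rw [pow_one] at hk
  refine ⟨hk, ?_⟩
  have hquot2 : Nat.card (V ⧸ center V) = p ^ 2 := hquot
  have hcomm : IsMulCommutative (V ⧸ center V) := IsPGroup.isMulCommutative_of_card_eq_prime_sq hquot2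
  have h1 : frattini V ≤ center V := by
    refine Lib.FrattiniPGroup.frattini_le (p := p) (center V) (fun x y => ?_) (fun x => ?_)
    · rw [← QuotientGroup.eq_one_iff]
      have h3 : ((⁅x, y⁆ : V) : V ⧸ center V) = ⁅(x : V ⧸ center V), (y : V ⧸ center V)⁆ := rfl
      rw [h3, commutatorElement_eq_one_iff_mul_comm]
      exact hcomm.is_comm.comm _ _
    · rw [← QuotientGroup.eq_one_iff, QuotientGroup.mk_pow]
      have h3 : orderOf (x : V ⧸ center V) ∣ p ^ 2 := hquot2 ▸ _root_.orderOf_dvd_natCard _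
      obtain ⟨j, hj2, hj⟩ := (Nat.dvd_prime_pow hp).1 h3
      have hj1 : j ≤ 1 := by
        by_contra hlt
        have hj2' : j = 2 := by omega
        apply hcyc
        refine isCyclic_of_orderOf_eq_card (x : V ⧸ center V) ?_
        rw [hj, hj2', hquot2]
      apply orderOf_dvd_iff_pow_eq_one.1
      rw [hj]
      calc p ^ j ∣ p ^ 1 := pow_dvd_pow p hj1
        _ = p := pow_one p
  have h2 : frattini V ≠ ⊥ := by
    intro h
    apply hn
    refine ⟨⟨fun a b => ?_⟩⟩
    have h3 := Lib.FrattiniPGroup.commutator_mem_frattini hV a b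
    rw [h, mem_bot, commutatorElement_eq_one_iff_mul_comm] at h3
    exact h3
  apply eq_of_le_of_card_ge h1
  rw [hk]
  have h3 : Nat.card (frattini V) ∣ p := hk ▸ card_dvd_of_le h1
  rcases (Nat.dvd_prime hp).1 h3 with h4 | h4
  · exact absurd (card_eq_one.1 h4) h2
  · exact h4.ge

theorem frat (h : (Nat.card V = p ^ 2 ∧ IsMulCommutative V ∧ ∀ x : V, x ^ p = 1) ∨
    (Nat.card V = p ^ 3 ∧ ¬ IsMulCommutative V)) :
    IsPGroup p V ∧ Nat.card V = p ^ 2 * Nat.card (frattini V) ∧ Nat.card (frattini V) ∣ p ∧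
      frattini V ≤ center V := by
  rcases h with ⟨h1, h2, h3⟩ | ⟨h1, h2⟩
  · have hV : IsPGroup p V := IsPGroup.of_card h1
    have h4 : frattini V = ⊥ := by
      rw [← le_bot_iff]
      refine Lib.FrattiniPGroup.frattini_le (p := p) ⊥ (fun x y => ?_) (fun x => ?_)
      · rw [mem_bot, commutatorElement_eq_one_iff_mul_comm]
        exact h2.is_comm.comm _ _
      · rw [mem_bot]
        exact h3 x
    rw [h4]
    refine ⟨hV, by rw [card_bot, mul_one, h1], by rw [card_bot]; exact one_dvd _, bot_le⟩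
  · obtain ⟨h3, h4⟩ := frattini_center h1 h2
    refine ⟨IsPGroup.of_card h1, ?_, ?_, h4.le⟩
    · rw [h4, h3, h1]; ring
    · rw [h4, h3]

end Cfsg.Agent.QTSolv.Frat
end

-- part: QTSolv/Build
section
/-!
# The pair `(P, S)` of a member `X` of `Ξ(G, T)`
-/

set_option autoImplicit false

open scoped commutatorElement Pointwise

namespace Cfsg.Agent.QTSolv.Build

open Subgroup Cfsg
open Cfsg.Agent.QTSolv.Data
open Cfsg.Agent.QTUniq.Local

/-! ### Transport of `Dat` -/

section Transport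

variable {A B : Type*} [Group A] [Group B]

theorem mem_normalizer_map {f : A →* B} {Y : Subgroup A} {s : A} (h : s ∈ normalizer (Y : Set A)) :
    f s ∈ normalizer ((Y.map f : Subgroup B) : Set B) := by
  have key : ∀ t ∈ normalizer (Y : Set A), ∀ x ∈ Y.map f, f t * x * (f t)⁻¹ ∈ Y.map f := by
    rintro t ht _ ⟨y, hy, rfl⟩
    exact ⟨t * y * t⁻¹, (mem_normalizer_iff.1 ht y).1 hy, by rw [map_mul, map_mul, map_inv]⟩
  rw [mem_normalizer_iff]
  intro x
  refine ⟨key s h x, fun hx => ?_⟩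
  have h1 := key s⁻¹ (inv_mem h) _ hx
  rw [map_inv] at h1
  have h2 : (f s)⁻¹ * (f s * x * (f s)⁻¹) * (f s)⁻¹⁻¹ = x := by group
  rwa [h2] at h1

/-- pushing forward along a homomorphism injective on `P` -/
theorem map [Finite A] [Finite B] {p : ℕ} {P S F : Subgroup A} (D : Dat p P S F) (f : A →* B)
    (hinj : ∀ x ∈ P, f x = 1 → x = 1) : Dat p (P.map f) (S.map f) (F.map f) := by
  have hinj2 : ∀ x ∈ P, ∀ y ∈ P, f x = f y → x = y := by
    intro x hx y hy h
    have h1 := hinj (x * y⁻¹) (P.mul_mem hx (P.inv_mem hy)) (by rw [map_mul, map_inv, h, mul_inv_cancel])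
    exact mul_inv_eq_one.1 h1
  have hcard : ∀ Y : Subgroup A, Y ≤ P → Nat.card (Y.map f) = Nat.card Y := by
    intro Y hY
    refine (Nat.card_congr (Equiv.ofBijective (fun y : Y => (⟨f y, y, y.2, rfl⟩ : Y.map f)) ⟨?_, ?_⟩)).symm
    · intro a b hab
      exact Subtype.ext (hinj2 a (hY a.2) b (hY b.2) (congrArg Subtype.val hab))
    · rintro ⟨_, y, hy, rfl⟩
      exact ⟨⟨y, hy⟩, rfl⟩
  refine
    { prime := D.prime
      odd := D.odd
      pgroup := D.pgroup.map f
      S_le := ?_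
      F_le := map_mono D.F_le
      F_norm := ?_
      irr := ?_
      card := by rw [hcard P le_rfl, hcard F D.F_le, D.card]
      F_card := by rw [hcard F D.F_le]; exact D.F_card
      comm := ?_
      pow := ?_
      ngen := ?_
      cent := ?_ }
  · rintro _ ⟨s, hs, rfl⟩
    exact mem_normalizer_map (D.S_le hs)
  · rintro _ ⟨s, hs, rfl⟩
    exact mem_normalizer_map (D.F_norm hs)
  · intro Y hFY hYP hSY
    set Y₀ : Subgroup A := P ⊓ Y.comap f with hY₀
    have h1 : Y₀.map f = Y := by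
      apply le_antisymm
      · rintro _ ⟨y, hy, rfl⟩
        exact hy.2
      · intro y hy
        obtain ⟨x, hx, rfl⟩ := hYP hy
        exact ⟨x, ⟨hx, hy⟩, rfl⟩
    rcases D.irr Y₀ (le_inf D.F_le (fun x hx => hFY ⟨x, hx, rfl⟩)) inf_le_left (fun s hs => by
      apply mem_normalizer_of_conj
      intro y hy
      refine ⟨(mem_normalizer_iff.1 (D.S_le hs) y).1 hy.1, ?_⟩
      have h2 := (mem_normalizer_iff.1 (hSY ⟨s, hs, rfl⟩) (f y)).1 hy.2
      change f (s * y * s⁻¹) ∈ Y
      rw [map_mul, map_mul, map_inv]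
      exact h2) with h | h
    · left
      rw [← h1, h]
    · right
      rw [← h1, h]
  · rw [← map_commutator]
    exact map_mono D.comm
  · rintro _ ⟨x, hx, rfl⟩
    exact ⟨x ^ p, D.pow x hx, map_pow f x p⟩
  · intro Y hYP hY
    set Y₀ : Subgroup A := P ⊓ Y.comap f with hY₀
    have h1 : Y₀.map f = Y := by
      apply le_antisymm
      · rintro _ ⟨y, hy, rfl⟩
        exact hy.2
      · intro y hy
        obtain ⟨x, hx, rfl⟩ := hYP hy
        exact ⟨x, ⟨hx, hy⟩, rfl⟩
    rw [← h1, ← Subgroup.map_sup] at hY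
    have h2 : Y₀ ⊔ F = P := by
      have hle : Y₀ ⊔ F ≤ P := sup_le inf_le_left D.F_le
      apply eq_of_le_of_card_ge hle
      rw [← hcard _ hle, hY, hcard P le_rfl]
    rw [← h1, D.ngen Y₀ inf_le_left h2]
  · rintro _ ⟨x, hx, rfl⟩
    rw [mem_centralizer_iff]
    rintro _ ⟨y, hy, rfl⟩
    rw [← map_mul, ← map_mul, D.F_central hx hy]

/-- reflecting along an injective homomorphism -/
theorem reflect [Finite A] [Finite B] {p : ℕ} {P S F : Subgroup A} (f : A →* B) (hf : Function.Injective f)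
    (D : Dat p (P.map f) (S.map f) (F.map f)) : Dat p P S F := by
  have hcard : ∀ Y : Subgroup A, Nat.card (Y.map f) = Nat.card Y := fun Y =>
    (Nat.card_congr (equivMapOfInjective Y f hf).toEquiv).symm
  have hnorm : ∀ (s : A) (Y : Subgroup A), f s ∈ normalizer ((Y.map f : Subgroup B) : Set B) →
      s ∈ normalizer (Y : Set A) := by
    intro s Y h
    apply mem_normalizer_of_conj
    intro y hy
    obtain ⟨z, hz, hzy⟩ := (mem_normalizer_iff.1 h (f y)).1 ⟨y, hy, rfl⟩
    have h1 : z = s * y * s⁻¹ := by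
      apply hf
      rw [hzy, map_mul, map_mul, map_inv]
    rwa [← h1]
  have hmem : ∀ (x : A) (Y : Subgroup A), f x ∈ Y.map f → x ∈ Y := by
    rintro x Y ⟨y, hy, hyx⟩
    rwa [← hf hyx]
  refine
    { prime := D.prime
      odd := D.odd
      pgroup := D.pgroup.of_equiv (equivMapOfInjective P f hf).symm
      S_le := fun s hs => hnorm s P (D.S_le ⟨s, hs, rfl⟩)
      F_le := (map_le_map_iff_of_injective hf).1 D.F_le
      F_norm := fun s hs => hnorm s F (D.F_norm ⟨s, hs, rfl⟩)
      irr := ?_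
      card := by rw [← hcard P, ← hcard F, D.card]
      F_card := by rw [← hcard F]; exact D.F_card
      comm := ?_
      pow := ?_
      ngen := ?_
      cent := ?_ }
  · intro Y hFY hYP hSY
    rcases D.irr (Y.map f) (map_mono hFY) (map_mono hYP) (by
      rintro _ ⟨s, hs, rfl⟩
      exact mem_normalizer_map (hSY hs)) with h | h
    · left
      exact map_injective hf h
    · right
      exact map_injective hf h
  · rw [← map_le_map_iff_of_injective hf, map_commutator]
    exact D.comm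
  · intro x hx
    apply hmem
    rw [map_pow]
    exact D.pow _ ⟨x, hx, rfl⟩
  · intro Y hYP hY
    apply map_injective hf
    refine D.ngen _ (map_mono hYP) ?_
    rw [← Subgroup.map_sup, hY]
  · intro x hx
    rw [mem_centralizer_iff]
    intro y hy
    apply hf
    rw [map_mul, map_mul]
    exact (mem_centralizer_iff.1 (D.cent ⟨x, hx, rfl⟩)) _ ⟨y, hy, rfl⟩

end Transport

/-! ### The pair of a member of `Ξ(G, T)` -/

variable {G : Type*} [Group G] [Finite G]

theorem normalizer_le (X : Subgroup G) :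
    normalizer (X : Set G) ≤ normalizer (((pCore 2 ↥X).map X.subtype : Subgroup G) : Set G) := by
  intro g hg
  have hchar : (pCore 2 ↥X).Characteristic := Lib.Cores.pCore_characteristic 2
  apply mem_normalizer_of_conj
  rintro _ ⟨y, hy, rfl⟩
  have h1 := (characteristic_iff_le_comap.1 hchar) (normalizerMonoidHom X ⟨g, hg⟩) hy
  exact ⟨normalizerMonoidHom X ⟨g, hg⟩ y, h1, rfl⟩

theorem normalizer_le_twoPhi (X : Subgroup G) :
    normalizer (X : Set G) ≤ normalizer (twoPhiCore X : Set G) := by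
  intro g hg
  set φ : MulAut X := normalizerMonoidHom X ⟨g, hg⟩ with hφ
  have hchar : (pCore 2 ↥X).Characteristic := Lib.Cores.pCore_characteristic 2
  have hn : (pCore 2 ↥X).Normal := Lib.Cores.pCore_normal 2
  have hφO : (pCore 2 ↥X).map φ.toMonoidHom = pCore 2 ↥X := characteristic_iff_map_eq.1 hchar φ
  set ψ : (↥X ⧸ pCore 2 ↥X) ≃* (↥X ⧸ pCore 2 ↥X) := QuotientGroup.congr _ _ φ hφO with hψ
  have hΦ : (frattini (↥X ⧸ pCore 2 ↥X)).Characteristic := inferInstance
  apply mem_normalizer_of_conj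
  rintro _ ⟨y, hy, rfl⟩
  refine ⟨φ y, ?_, rfl⟩
  have h1 := (characteristic_iff_le_comap.1 hΦ) ψ hy
  exact h1

/-- `O_2(X) ≤ T` for a `T`-invariant subgroup `X`. -/
theorem pCore_le {T : Sylow 2 G} {X : Subgroup G} (hTX : (T : Subgroup G) ≤ normalizer (X : Set G)) :
    (pCore 2 ↥X).map X.subtype ≤ (T : Subgroup G) := by
  set O : Subgroup G := (pCore 2 ↥X).map X.subtype with hO
  have hXO : normalizer (X : Set G) ≤ normalizer (O : Set G) := normalizer_le X
  -- `O T` is a 2-group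
  have hOp : IsPGroup 2 O := (Lib.Cores.pCore_isPGroup 2).map _
  have h1 : IsPGroup 2 ↥(O ⊔ (T : Subgroup G)) := by
    have := IsPGroup.to_sup_of_normal_left' hOp T.isPGroup' (hTX.trans hXO)
    exact this
  have h2 := T.is_maximal' h1 le_sup_right
  rw [← h2]
  exact le_sup_left

theorem exists_dat {T : Sylow 2 G} {X : Subgroup G} (hX : X ∈ Xi (T : Subgroup G)) :
    ∃ (p : ℕ) (P S F : Subgroup G), Dat p P S F ∧ P ≤ X ∧ S ≤ (T : Subgroup G) ∧
      X ≤ (pCore 2 ↥X).map X.subtype ⊔ P := by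
  obtain ⟨-, hTX, -, ⟨p, hp, hp2, hcase⟩, hirr⟩ := hX
  have hpf : Fact p.Prime := ⟨hp⟩
  have h2f : Fact (Nat.Prime 2) := ⟨Nat.prime_two⟩
  set O₂ : Subgroup X := pCore 2 ↥X with hO₂
  have hO₂n : O₂.Normal := Lib.Cores.pCore_normal 2
  have hO₂p : IsPGroup 2 O₂ := Lib.Cores.pCore_isPGroup 2
  set O : Subgroup G := O₂.map X.subtype with hO
  have hOX : O ≤ X := map_subtype_le _
  have hOT : O ≤ (T : Subgroup G) := pCore_le hTX
  set π := QuotientGroup.mk' O₂ with hπ
  have hπs : Function.Surjective π := QuotientGroup.mk'_surjective O₂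
  obtain ⟨hVp, hVcard, hVF, hVc⟩ := Frat.frat hcase
  set Φ : Subgroup (↥X ⧸ O₂) := frattini (↥X ⧸ O₂) with hΦ
  let P' : Sylow p X := default
  set P : Subgroup G := (P' : Subgroup X).map X.subtype with hP
  have hPX : P ≤ X := map_subtype_le _
  have hPp : IsPGroup p P := P'.isPGroup'.map _
  -- `π` is bijective on `P'`
  have hdisj : Disjoint (P' : Subgroup X) O₂ := IsPGroup.disjoint_of_ne p 2 hp2 _ _ P'.isPGroup' hO₂p
  have hinj : ∀ x ∈ (P' : Subgroup X), ∀ y ∈ (P' : Subgroup X), π x = π y → x = y := by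
    intro x hx y hy h
    have h1 : x * y⁻¹ ∈ O₂ := by
      rw [← QuotientGroup.eq_one_iff]
      change π (x * y⁻¹) = 1
      rw [map_mul, map_inv, h, mul_inv_cancel]
    have h3 := (disjoint_def.1 hdisj) ((P' : Subgroup X).mul_mem hx ((P' : Subgroup X).inv_mem hy)) h1
    exact mul_inv_eq_one.1 h3
  have hsurj : ∀ v : ↥X ⧸ O₂, ∃ x ∈ (P' : Subgroup X), π x = v := by
    have h1 : (P' : Subgroup X).map π = ⊤ := by
      rw [← index_eq_one]
      have h3 : ((P' : Subgroup X).map π).index ∣ (P' : Subgroup X).index := index_map_dvd _ hπs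
      obtain ⟨n, hn⟩ := hVp.index ((P' : Subgroup X).map π)
      cases n with
      | zero => rw [hn, pow_zero]
      | succ n =>
        exfalso
        apply P'.not_dvd_index
        refine dvd_trans ?_ h3
        rw [hn]
        exact dvd_pow_self p (Nat.succ_ne_zero n)
    intro v
    have h3 : v ∈ (P' : Subgroup X).map π := by rw [h1]; exact mem_top v
    obtain ⟨x, hx, hxv⟩ := h3
    exact ⟨x, hx, hxv⟩
  -- `X = O P`
  have hXOP : X ≤ O ⊔ P := by
    intro x hx
    obtain ⟨y, hy, hyx⟩ := hsurj (π ⟨x, hx⟩)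
    have h1 : (⟨x, hx⟩ : X) * y⁻¹ ∈ O₂ := by
      rw [← QuotientGroup.eq_one_iff]
      change π (⟨x, hx⟩ * y⁻¹) = 1
      rw [map_mul, map_inv, hyx, mul_inv_cancel]
    have h3 : x = (x * (y : G)⁻¹) * y := by group
    rw [h3]
    exact mul_mem (mem_sup_left ⟨_, h1, rfl⟩) (mem_sup_right ⟨y, hy, rfl⟩)
  set F : Subgroup G := P ⊓ twoPhiCore X with hF
  have hmemPhi : ∀ x : G, x ∈ twoPhiCore X ↔ ∃ hx : x ∈ X, π ⟨x, hx⟩ ∈ Φ := by
    intro x
    constructor
    · rintro ⟨y, hy, rfl⟩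
      exact ⟨y.2, hy⟩
    · rintro ⟨hx, h⟩
      exact ⟨⟨x, hx⟩, h, rfl⟩
  have hmemF : ∀ x : G, x ∈ F ↔ ∃ hx : x ∈ P, π ⟨x, hPX hx⟩ ∈ Φ := by
    intro x
    constructor
    · rintro ⟨hx, h⟩
      obtain ⟨h1, h3⟩ := (hmemPhi x).1 h
      exact ⟨hx, h3⟩
    · rintro ⟨hx, h⟩
      exact ⟨hx, (hmemPhi x).2 ⟨hPX hx, h⟩⟩
  have hP'mem : ∀ x : G, ∀ hx : x ∈ P, (⟨x, hPX hx⟩ : X) ∈ (P' : Subgroup X) := by
    rintro _ ⟨y, hy, rfl⟩
    exact hy
  set S : Subgroup G := (T : Subgroup G) ⊓ normalizer (P : Set G) with hS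
  have hTO : (T : Subgroup G) ≤ normalizer (O : Set G) := hTX.trans (normalizer_le X)
  -- `T ≤ O S`
  have hTOS : ∀ t ∈ (T : Subgroup G), ∃ o ∈ O, o * t ∈ S := by
    intro t ht
    set φ : MulAut X := normalizerMonoidHom X ⟨t, hTX ht⟩ with hφ
    have hφa : ∀ k : X, ((φ k : X) : G) = t * k * t⁻¹ := fun k => rfl
    obtain ⟨x, hx⟩ := MulAction.exists_smul_eq X (φ • P') P'
    -- `x = y o`
    obtain ⟨y, hy, hyx⟩ := hsurj (π x)
    set o : X := y⁻¹ * x with ho
    have hoO : o ∈ O₂ := by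
      rw [← QuotientGroup.eq_one_iff]
      change π (y⁻¹ * x) = 1
      rw [map_mul, map_inv, hyx, inv_mul_cancel]
    refine ⟨(o : G), ⟨o, hoO, rfl⟩, (T : Subgroup G).mul_mem (hOT ⟨o, hoO, rfl⟩) ht, ?_⟩
    apply mem_normalizer_of_conj
    rintro _ ⟨z, hz, rfl⟩
    have h1 : MulAut.conj x (φ z) ∈ (P' : Subgroup X) := by
      have h3 : ((x • (φ • P') : Sylow p X) : Subgroup X) = P' := by rw [hx]
      rw [← h3, Sylow.coe_subgroup_smul]
      refine ⟨φ z, ?_, rfl⟩
      change _ ∈ ((φ • P' : Sylow p X) : Subgroup X)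
      rw [Sylow.pointwise_smul_def]
      exact ⟨z, hz, rfl⟩
    have h3 : o * φ z * o⁻¹ ∈ (P' : Subgroup X) := by
      have h4 : o * φ z * o⁻¹ = y⁻¹ * (MulAut.conj x (φ z)) * y⁻¹⁻¹ := by
        rw [ho, MulAut.conj_apply]; group
      rw [h4]
      exact (P' : Subgroup X).mul_mem ((P' : Subgroup X).mul_mem ((P' : Subgroup X).inv_mem hy) h1)
        ((P' : Subgroup X).inv_mem ((P' : Subgroup X).inv_mem hy))
    refine ⟨_, h3, ?_⟩
    change ((o * φ z * o⁻¹ : X) : G) = (o : G) * t * z * ((o : G) * t)⁻¹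
    rw [Subgroup.coe_mul, Subgroup.coe_mul, hφa, Subgroup.coe_inv]
    group
  -- `P ∩ O = 1`
  have hPO : ∀ x ∈ P, x ∈ O → x = 1 := by
    rintro _ ⟨y, hy, rfl⟩ ⟨z, hz, hzy⟩
    have h1 : z = y := Subtype.ext hzy
    rw [h1] at hz
    have h3 := (disjoint_def.1 hdisj) hy hz
    rw [h3]
    rfl
  -- elements of `P` with the same image are equal
  have hPinj : ∀ x (hx : x ∈ P) y (hy : y ∈ P), π ⟨x, hPX hx⟩ = π ⟨y, hPX hy⟩ → x = y := by
    intro x hx y hy h
    exact congrArg Subtype.val (hinj _ (hP'mem x hx) _ (hP'mem y hy) h)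
  -- the bijection of `P` with the quotient
  let ε : P → ↥X ⧸ O₂ := fun x => π ⟨x, hPX x.2⟩
  have hε : Function.Bijective ε := by
    constructor
    · intro x y h
      exact Subtype.ext (hPinj x x.2 y y.2 h)
    · intro v
      obtain ⟨x, hx, hxv⟩ := hsurj v
      exact ⟨⟨x, x, hx, rfl⟩, hxv⟩
  have hPcard : Nat.card P = Nat.card (↥X ⧸ O₂) := Nat.card_congr (Equiv.ofBijective ε hε)
  have hFcard : Nat.card F = Nat.card Φ := by
    refine Nat.card_congr (Equiv.ofBijective (fun x : F => (⟨π ⟨x, hPX x.2.1⟩, ((hmemF x).1 x.2).2⟩ : Φ)) ⟨?_, ?_⟩)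
    · intro x y h
      exact Subtype.ext (hPinj x x.2.1 y y.2.1 (congrArg Subtype.val h))
    · rintro ⟨v, hv⟩
      obtain ⟨x, hx, hxv⟩ := hsurj v
      refine ⟨⟨x, (hmemF x).2 ⟨⟨x, hx, rfl⟩, ?_⟩⟩, Subtype.ext hxv⟩
      change π x ∈ Φ
      rw [hxv]
      exact hv
  refine ⟨p, P, S, F, ?_, hPX, inf_le_left, hXOP⟩
  refine
    { prime := hp
      odd := hp2
      pgroup := hPp
      S_le := inf_le_right
      F_le := inf_le_left
      F_norm := ?_
      irr := ?_
      card := by rw [hPcard, hFcard, hVcard]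
      F_card := by rw [hFcard]; exact hVF
      comm := ?_
      pow := ?_
      ngen := ?_
      cent := ?_ }
  · intro s hs
    apply mem_normalizer_of_conj
    intro y hy
    exact ⟨(mem_normalizer_iff.1 hs.2 y).1 hy.1,
      (mem_normalizer_iff.1 (normalizer_le_twoPhi X (hTX hs.1)) y).1 hy.2⟩
  · intro Y hFY hYP hSY
    -- `T` normalises `O Y`
    have hSn : ∀ s ∈ S, s ∈ normalizer ((O ⊔ Y : Subgroup G) : Set G) := fun s hs =>
      mem_normalizer_sup (hTO hs.1) (hSY hs)
    have hTn : (T : Subgroup G) ≤ normalizer ((O ⊔ Y : Subgroup G) : Set G) := by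
      intro t ht
      obtain ⟨o, hoO, hot⟩ := hTOS t ht
      have h1 : t = o⁻¹ * (o * t) := by group
      rw [h1]
      exact mul_mem (le_normalizer (mem_sup_left (O.inv_mem hoO))) (hSn _ hot)
    have hXn : P ≤ normalizer (O : Set G) := by
      intro x hx
      exact (normalizer_le X) (le_normalizer (hPX hx))
    have hYn : Y ≤ normalizer (O : Set G) := hYP.trans hXn
    -- modular law
    have hmod : ∀ x ∈ P, x ∈ O ⊔ Y → x ∈ Y := by
      intro x hx hxO
      rw [← SetLike.mem_coe, coe_mul_of_right_le_normalizer_left O Y hYn] at hxO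
      obtain ⟨o, ho, y, hy, hoy⟩ := hxO
      have h1 : o * y = x := hoy
      have h3 : o = x * y⁻¹ := by rw [← h1]; group
      have h4 : o ∈ P := by rw [h3]; exact P.mul_mem hx (P.inv_mem (hYP hy))
      have h5 := hPO o h4 ho
      rw [h5, one_mul] at h1
      rwa [← h1]
    have hPhi : twoPhiCore X ≤ O ⊔ Y := by
      intro x hx
      obtain ⟨hxX, h1⟩ := (hmemPhi x).1 hx
      obtain ⟨y, hy, hyx⟩ := hsurj (π ⟨x, hxX⟩)
      have h3 : (⟨x, hxX⟩ : X) * y⁻¹ ∈ O₂ := by
        rw [← QuotientGroup.eq_one_iff]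
        change π (⟨x, hxX⟩ * y⁻¹) = 1
        rw [map_mul, map_inv, hyx, mul_inv_cancel]
      have h4 : (y : G) ∈ F := by
        refine (hmemF _).2 ⟨⟨y, hy, rfl⟩, ?_⟩
        change π y ∈ Φ
        rw [hyx]
        exact h1
      have h5 : x = (x * (y : G)⁻¹) * y := by group
      rw [h5]
      exact mul_mem (mem_sup_left ⟨_, h3, rfl⟩) (mem_sup_right (hFY h4))
    rcases hirr (O ⊔ Y) hPhi (sup_le hOX (hYP.trans hPX)) hTn with h | h
    · left
      apply le_antisymm ?_ hFY
      intro y hy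
      refine ⟨hYP hy, ?_⟩
      rw [← h]
      exact mem_sup_right hy
    · right
      apply le_antisymm hYP
      intro x hx
      apply hmod x hx
      rw [h]
      exact hPX hx
  · rw [commutator_le]
    intro x hx y hy
    refine (hmemF _).2 ⟨?_, ?_⟩
    · rw [commutatorElement_def]
      exact P.mul_mem (P.mul_mem (P.mul_mem hx hy) (P.inv_mem hx)) (P.inv_mem hy)
    · have h1 := Lib.FrattiniPGroup.commutator_mem_frattini hVp (π ⟨x, hPX hx⟩) (π ⟨y, hPX hy⟩)
      rw [← map_commutatorElement] at h1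
      exact h1
  · intro x hx
    refine (hmemF _).2 ⟨P.pow_mem hx p, ?_⟩
    have h1 := Lib.FrattiniPGroup.pow_mem_frattini hVp (π ⟨x, hPX hx⟩)
    rw [← map_pow] at h1
    exact h1
  · intro Y hYP hY
    have h1 : (Y.subgroupOf X).map π ⊔ Φ = ⊤ := by
      rw [eq_top_iff]
      intro v _
      obtain ⟨x, hx, hxv⟩ := hsurj v
      have hxP : (x : G) ∈ Y ⊔ F := by
        rw [hY]
        exact ⟨x, hx, rfl⟩
      have h3 : x ∈ (Y ⊔ F).subgroupOf X := hxP
      rw [subgroupOf_sup (hYP.trans hPX) (inf_le_left.trans hPX : F ≤ X)] at h3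
      have h4 : π x ∈ (Y.subgroupOf X ⊔ F.subgroupOf X).map π := ⟨x, h3, rfl⟩
      rw [Subgroup.map_sup, hxv] at h4
      refine (sup_le_sup_left ?_ _ : (Y.subgroupOf X).map π ⊔ (F.subgroupOf X).map π ≤ _) h4
      rintro _ ⟨y, hy, rfl⟩
      obtain ⟨hyP, h5⟩ := (hmemF _).1 hy
      exact h5
    have h3 := frattini_nongenerating h1
    apply le_antisymm hYP
    intro x hx
    have h4 : π ⟨x, hPX hx⟩ ∈ (Y.subgroupOf X).map π := by rw [h3]; exact mem_top _
    obtain ⟨y, hy, hyx⟩ := h4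
    have h5 : (y : G) = x := hPinj y (hYP hy) x hx hyx
    rw [← h5]
    exact hy
  · intro x hx
    rw [mem_centralizer_iff]
    intro y hy
    obtain ⟨hxP, h1⟩ := (hmemF x).1 hx
    have h3 := (mem_center_iff.1 (hVc h1)) (π ⟨y, hPX hy⟩)
    rw [← map_mul, ← map_mul] at h3
    exact hPinj _ (P.mul_mem hy hxP) _ (P.mul_mem hxP hy) h3

end Cfsg.Agent.QTSolv.Build
end

-- part: QTSolv/Coprime
section
/-!
# Coprime action of `P` on `K` with `O_2(K) = 1`
-/

set_option autoImplicit false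

open scoped commutatorElement Pointwise

namespace Cfsg.Agent.QTSolv.Coprime

open Subgroup Cfsg
open Cfsg.Agent.OddOrderLocal
open Cfsg.Agent.QTSolv.Star

/-- subgroups of coprime indices -/
theorem exists_mul_of_coprime {G : Type*} [Group G] [Finite G] (S C : Subgroup G) (h : Nat.Coprime S.index C.index)
    (g : G) : ∃ s ∈ S, ∃ c ∈ C, g = s * c := by
  let F : S ⧸ C.subgroupOf S → G ⧸ C := Quotient.map' (fun s => (s : G)) (by
    intro a b hab
    rw [QuotientGroup.leftRel_apply] at hab ⊢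
    exact hab)
  have hinj : Function.Injective F := by
    intro a b
    induction a using QuotientGroup.induction_on with
    | H a =>
      induction b using QuotientGroup.induction_on with
      | H b =>
        intro hab
        have h1 : (((a : G)) : G ⧸ C) = ((b : G) : G ⧸ C) := hab
        rw [QuotientGroup.eq] at h1
        exact QuotientGroup.eq.2 h1
  have hcard : Nat.card (G ⧸ C) ≤ Nat.card (S ⧸ C.subgroupOf S) := by
    have h1 : C.relIndex S * S.index = S.relIndex C * C.index := by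
      rw [← relIndex_top_right S, ← relIndex_top_right C, ← inf_relIndex_right C S, ← inf_relIndex_right S C,
        relIndex_mul_relIndex _ _ _ inf_le_right le_top, relIndex_mul_relIndex _ _ _ inf_le_right le_top, inf_comm]
    have h2 : C.index ∣ C.relIndex S * S.index := by
      rw [h1]
      exact dvd_mul_left _ _
    have h3 : C.index ∣ C.relIndex S := h.symm.dvd_of_dvd_mul_right h2
    exact Nat.le_of_dvd (Nat.pos_of_ne_zero (index_ne_zero_of_finite)) h3
  have hbij := hinj.bijective_of_nat_card_le hcard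
  obtain ⟨s, hs⟩ := hbij.2 (g : G ⧸ C)
  induction s using QuotientGroup.induction_on with
  | H s =>
    have h1 : ((s : G) : G ⧸ C) = (g : G ⧸ C) := hs
    rw [QuotientGroup.eq] at h1
    exact ⟨s, s.2, _, h1, by group⟩

variable {H : Type*} [Group H]

/-- the conclusion from the odd Sylow subgroups -/
theorem le_centralizer_of_odd [Finite H] {p : ℕ} (hp : p.Prime) {K P : Subgroup H}
    (hP : IsPGroup p P) (hPK : P ≤ normalizer (K : Set H)) (hpK : ¬ p ∣ Nat.card K) (h2 : pCore 2 ↥K = ⊥)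
    (hodd : ∀ (r : ℕ) (_ : r.Prime), r ≠ 2 → r ∣ Nat.card K → ∃ R : Sylow r K,
      P ≤ centralizer (((R : Subgroup K).map K.subtype : Subgroup H) : Set H)) :
    P ≤ centralizer (K : Set H) := by
  have hpf : Fact p.Prime := ⟨hp⟩
  have : Fact (Nat.Prime 2) := ⟨Nat.prime_two⟩
  have hcop : (Nat.card P).Coprime (Nat.card K) := by
    obtain ⟨n, hn⟩ := IsPGroup.iff_card.1 hP
    rw [hn]
    exact Nat.Coprime.pow_left n ((Nat.Prime.coprime_iff_not_dvd hp).2 hpK)
  have hPs : Group.IsSolvable P := by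
    have := hP.isNilpotent
    infer_instance
  obtain ⟨S₂, hS₂⟩ := Cfsg.Agent.S0023.result P K hPK hcop (Or.inl hPs) 2
  set C : Subgroup K := (centralizer (P : Set H)).subgroupOf K with hC
  -- the index of `C` is a power of two
  have hCi : ∀ r : ℕ, r.Prime → r ≠ 2 → ¬ r ∣ C.index := by
    intro r hr hr2 hd
    have : Fact r.Prime := ⟨hr⟩
    obtain ⟨R, hR⟩ := hodd r hr hr2 (hd.trans (index_dvd_card C))
    have h1 : (R : Subgroup K) ≤ C := by
      intro y hy
      rw [hC, mem_subgroupOf, mem_centralizer_iff]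
      intro x hx
      exact ((mem_centralizer_iff.1 (hR hx)) (y : H) ⟨y, hy, rfl⟩).symm
    exact R.not_dvd_index (hd.trans (index_dvd_of_le h1))
  have hcop2 : Nat.Coprime (S₂ : Subgroup K).index C.index := by
    apply Nat.Coprime.symm
    rw [Nat.coprime_iff_gcd_eq_one]
    by_contra hne
    obtain ⟨r, hr, hrd⟩ := Nat.exists_prime_and_dvd hne
    have h1 : r ∣ C.index := hrd.trans (Nat.gcd_dvd_left _ _)
    have h2 : r ∣ (S₂ : Subgroup K).index := hrd.trans (Nat.gcd_dvd_right _ _)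
    by_cases hr2 : r = 2
    · subst hr2
      exact S₂.not_dvd_index h2
    · exact hCi r hr hr2 h1
  set S : Subgroup H := (S₂ : Subgroup K).map K.subtype with hS
  have hcomm : ⁅K, P⁆ ≤ S := by
    rw [commutator_le]
    intro k hk x hx
    obtain ⟨s, hs, c, hc, hsc⟩ := exists_mul_of_coprime (S₂ : Subgroup K) C hcop2 ⟨k, hk⟩
    have h1 : k = (s : H) * (c : H) := congrArg Subtype.val hsc
    have h3 : (c : H) * x = x * c := (mem_centralizer_iff.1 (mem_subgroupOf.1 hc) x hx).symm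
    have h4 : ⁅k, x⁆ = (s : H) * (x * (s : H)⁻¹ * x⁻¹) := by
      rw [h1, commutatorElement_def, mul_inv_rev]
      calc (s : H) * c * x * ((c : H)⁻¹ * (s : H)⁻¹) * x⁻¹ = (s : H) * (c * x * (c : H)⁻¹) * (s : H)⁻¹ * x⁻¹ := by group
        _ = (s : H) * (x * (s : H)⁻¹ * x⁻¹) := by rw [h3]; group
    rw [h4]
    have hsS : (s : H) ∈ S := ⟨s, hs, rfl⟩
    exact S.mul_mem hsS ((mem_normalizer_iff.1 (hS₂ hx) _).1 (S.inv_mem hsS))
  have hle : ⁅K, P⁆ ≤ K := hcomm.trans (map_subtype_le _)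
  have hbot : ⁅K, P⁆ = ⊥ := by
    have h3 : ((⁅K, P⁆).subgroupOf K).Normal := by
      have h4 : K ≤ normalizer ((⁅K, P⁆ : Subgroup H) : Set H) := normalizer_commutator_ge_left ..
      exact (normal_subgroupOf_iff_le_normalizer hle).2 h4
    have h4 : IsPGroup 2 ↥((⁅K, P⁆).subgroupOf K) := by
      have h5 : (⁅K, P⁆).subgroupOf K ≤ (S₂ : Subgroup K) := by
        intro y hy
        obtain ⟨z, hz, hzy⟩ := hcomm (mem_subgroupOf.1 hy)
        rwa [← show z = y from Subtype.ext hzy]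
      exact S₂.isPGroup'.to_le h5
    have h5 : (⁅K, P⁆).subgroupOf K ≤ pCore 2 ↥K := Lib.Cores.le_pCore h3 h4
    rw [h2, le_bot_iff, subgroupOf_eq_bot] at h5
    exact disjoint_self.1 (h5.mono_right hle)
  rw [commutator_comm] at hbot
  exact commutator_eq_bot_iff_le_centralizer.1 hbot

/-- **An invariant Sylow subgroup and a modification of `S` normalising it.** -/
theorem exists_sylow_modify [Finite H] {p : ℕ} (hp : p.Prime) {K P S : Subgroup H}
    (hP : IsPGroup p P) (hPK : P ≤ normalizer (K : Set H)) (hSK : S ≤ normalizer (K : Set H))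
    (hSP : S ≤ normalizer (P : Set H)) (hpK : ¬ p ∣ Nat.card K) (r : ℕ) [Fact r.Prime] :
    ∃ (R : Sylow r K) (S' : Subgroup H), P ≤ normalizer ((R : Subgroup K).map K.subtype : Set H) ∧
      S' ≤ normalizer ((R : Subgroup K).map K.subtype : Set H) ∧ S' ≤ normalizer (P : Set H) ∧
      ∀ s ∈ S, ∃ c ∈ centralizer (P : Set H), c * s ∈ S' := by
  have hpf : Fact p.Prime := ⟨hp⟩
  have hcop : (Nat.card P).Coprime (Nat.card K) := by
    obtain ⟨n, hn⟩ := IsPGroup.iff_card.1 hP
    rw [hn]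
    exact Nat.Coprime.pow_left n ((Nat.Prime.coprime_iff_not_dvd hp).2 hpK)
  have hPs : Group.IsSolvable P := by
    have := hP.isNilpotent
    infer_instance
  obtain ⟨R, hR⟩ := Cfsg.Agent.S0023.result P K hPK hcop (Or.inl hPs) r
  refine ⟨R, normalizer ((R : Subgroup K).map K.subtype : Set H) ⊓ normalizer (P : Set H), hR, inf_le_left,
    inf_le_right, ?_⟩
  intro s hs
  -- the conjugate of `R` under `s`
  set φ : MulAut K := normalizerMonoidHom K ⟨s, hSK hs⟩ with hφ
  have hφa : ∀ k : K, ((φ k : K) : H) = s * k * s⁻¹ := fun k => rfl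
  set R' : Sylow r K := φ • R with hR'
  have hR'm : ((R' : Subgroup K).map K.subtype : Subgroup H)
      = ((R : Subgroup K).map K.subtype).map (MulAut.conj s).toMonoidHom := by
    rw [hR', Sylow.pointwise_smul_def]
    ext x
    constructor
    · rintro ⟨y, hy, rfl⟩
      obtain ⟨z, hz, rfl⟩ := hy
      exact ⟨z, ⟨z, hz, rfl⟩, rfl⟩
    · rintro ⟨_, ⟨z, hz, rfl⟩, rfl⟩
      exact ⟨φ z, ⟨z, hz, rfl⟩, rfl⟩
  have hR'P : P ≤ normalizer ((R' : Subgroup K).map K.subtype : Set H) := by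
    rw [hR'm, le_normalizer_iff]
    rintro x hx _ ⟨y, hy, rfl⟩
    have h1 : s⁻¹ * x * s ∈ P := by
      have := (mem_normalizer_iff.1 (inv_mem (hSP hs)) x).1 hx
      rwa [inv_inv] at this
    refine ⟨(s⁻¹ * x * s) * y * (s⁻¹ * x * s)⁻¹, (mem_normalizer_iff.1 (hR h1) y).1 hy, ?_⟩
    change s * ((s⁻¹ * x * s) * y * (s⁻¹ * x * s)⁻¹) * s⁻¹ = x * (s * y * s⁻¹) * x⁻¹
    group
  obtain ⟨c, hc, hcR⟩ := Cfsg.Agent.S0024.result P K hPK hcop (Or.inl hPs) r R' R hR'P hR
  refine ⟨c, hc, ?_, ?_⟩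
  · have h1 : ∀ x ∈ (R : Subgroup K).map K.subtype, ((c : H) * s) * x * ((c : H) * s)⁻¹ ∈
        (R : Subgroup K).map K.subtype := by
      rintro _ ⟨y, hy, rfl⟩
      have h2 : MulAut.conj c (φ y) ∈ (R : Subgroup K) := by
        have h3 : (MulAut.conj c • R' : Sylow r K) = R := hcR
        rw [← h3]
        change _ ∈ ((MulAut.conj c • R' : Sylow r K) : Subgroup K)
        rw [Sylow.pointwise_smul_def]
        refine ⟨φ y, ?_, rfl⟩
        change _ ∈ ((φ • R : Sylow r K) : Subgroup K)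
        rw [Sylow.pointwise_smul_def]
        exact ⟨y, hy, rfl⟩
      refine ⟨_, h2, ?_⟩
      change ((c * φ y * c⁻¹ : K) : H) = (c : H) * s * y * ((c : H) * s)⁻¹
      rw [Subgroup.coe_mul, Subgroup.coe_mul, hφa, Subgroup.coe_inv]
      group
    -- a finite subgroup
    have h2 : ((c : H) * s) ∈ normalizer ((R : Subgroup K).map K.subtype : Set H) := by
      have h3 : ((R : Subgroup K).map K.subtype).map (MulAut.conj ((c : H) * s)).toMonoidHom ≤
          (R : Subgroup K).map K.subtype := by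
        rintro _ ⟨x, hx, rfl⟩
        exact h1 x hx
      have h4 : ((R : Subgroup K).map K.subtype).map (MulAut.conj ((c : H) * s)).toMonoidHom =
          (R : Subgroup K).map K.subtype := by
        apply eq_of_le_of_card_ge h3
        exact (Nat.card_congr (equivMapOfInjective _ (MulAut.conj ((c : H) * s)).toMonoidHom
          (MulAut.conj ((c : H) * s)).injective).toEquiv).le
      rw [mem_normalizer_iff]
      intro x
      refine ⟨h1 x, fun hx => ?_⟩
      rw [← h4] at hx
      obtain ⟨y, hy, hyx⟩ := hx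
      have h5 : ((c : H) * s) * y * ((c : H) * s)⁻¹ = ((c : H) * s) * x * ((c : H) * s)⁻¹ := hyx
      have h6 : y = x := by
        have := mul_left_cancel (mul_right_cancel h5)
        exact this
      rwa [← h6]
    exact h2
  · have h1 : (c : H) ∈ normalizer (P : Set H) := centralizer_le_normalizer _ hc
    exact mul_mem h1 (hSP hs)

/-- Case of `Star P S`. -/
theorem le_centralizer_of_star [Finite H] {p : ℕ} (hp : p.Prime) (hp2 : p ≠ 2) {K P S : Subgroup H}
    (hP : IsPGroup p P) (hPK : P ≤ normalizer (K : Set H)) (hSK : S ≤ normalizer (K : Set H))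
    (hSP : S ≤ normalizer (P : Set H)) (hpK : ¬ p ∣ Nat.card K) (h2 : pCore 2 ↥K = ⊥)
    (hr : ∀ r : ℕ, r.Prime → r ≠ 2 → PRankLE r 2 K) (h : _root_.Cfsg.Agent.QTSolv.Star.Star P S) : P ≤ centralizer (K : Set H) := by
  refine le_centralizer_of_odd hp hP hPK hpK h2 ?_
  intro r hrp hr2 hrd
  have hrf : Fact r.Prime := ⟨hrp⟩
  obtain ⟨R, S', h3, h4, h5, h6⟩ := exists_sylow_modify hp hP hPK hSK hSP hpK r
  refine ⟨R, ?_⟩
  have hpr : p ≠ r := fun h7 => hpK (h7 ▸ hrd)
  have hRr : IsPGroup r ↥((R : Subgroup K).map K.subtype) := R.isPGroup'.map _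
  have hrk : PRankLE r 2 ↥((R : Subgroup K).map K.subtype) :=
    Rank.pRankLE_mono (map_subtype_le _) (hr r hrp hr2)
  exact le_centralizer_of_rank hp hp2 hr2 hpr hRr hrk hP h3 h4 h5 (star_of_modify hSP h6 h)

/-- Case of cyclic Sylow subgroups and `P = [P, S]`. -/
theorem le_centralizer_of_cyclic [Finite H] {p : ℕ} (hp : p.Prime) {K P S : Subgroup H}
    (hP : IsPGroup p P) (hPK : P ≤ normalizer (K : Set H)) (hSK : S ≤ normalizer (K : Set H))
    (hSP : S ≤ normalizer (P : Set H)) (hpK : ¬ p ∣ Nat.card K) (h2 : pCore 2 ↥K = ⊥)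
    (hr : ∀ (r : ℕ) (R : Sylow r K), r.Prime → r ≠ 2 → IsCyclic R) (h : P ≤ ⁅P, S⁆) : P ≤ centralizer (K : Set H) := by
  refine le_centralizer_of_odd hp hP hPK hpK h2 ?_
  intro r hrp hr2 hrd
  have hrf : Fact r.Prime := ⟨hrp⟩
  obtain ⟨R, S', h3, h4, h5, h6⟩ := exists_sylow_modify hp hP hPK hSK hSP hpK r
  refine ⟨R, ?_⟩
  have hcyc := hr r R hrp hr2
  set R₁ : Subgroup H := (R : Subgroup K).map K.subtype with hR₁
  have hcyc₁ : IsCyclic R₁ := by
    rw [hR₁]
    exact (equivMapOfInjective (R : Subgroup K) K.subtype K.subtype_injective).isCyclic.1 hcyc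
  -- commutators of `N(R₁)` centralise `R₁`
  have hker : ∀ a ∈ normalizer (R₁ : Set H), ∀ b ∈ normalizer (R₁ : Set H), ⁅a, b⁆ ∈ centralizer (R₁ : Set H) := by
    intro a ha b hb
    have h7 : normalizerMonoidHom R₁ ⁅(⟨a, ha⟩ : ↥(normalizer (R₁ : Set H))), ⟨b, hb⟩⁆ = 1 := by
      rw [map_commutatorElement, commutatorElement_eq_one_iff_mul_comm]
      obtain ⟨g, hg⟩ := hcyc₁.exists_generator
      have hpow : ∀ (α : MulAut R₁), ∃ k : ℤ, ∀ x, α x = x ^ k := by
        intro α
        obtain ⟨k, hk⟩ := mem_zpowers_iff.1 (hg (α g))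
        refine ⟨k, fun x => ?_⟩
        obtain ⟨l, rfl⟩ := mem_zpowers_iff.1 (hg x)
        rw [map_zpow, ← hk, ← zpow_mul, ← zpow_mul, mul_comm]
      obtain ⟨k, hk⟩ := hpow (normalizerMonoidHom R₁ ⟨a, ha⟩)
      obtain ⟨l, hl⟩ := hpow (normalizerMonoidHom R₁ ⟨b, hb⟩)
      ext x
      rw [MulAut.mul_apply, MulAut.mul_apply, hk, hl, hl, hk, ← zpow_mul, ← zpow_mul, mul_comm]
    have h8 : (⁅(⟨a, ha⟩ : ↥(normalizer (R₁ : Set H))), ⟨b, hb⟩⁆ : ↥(normalizer (R₁ : Set H))) ∈
        (normalizerMonoidHom R₁).ker := h7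
    rw [normalizerMonoidHom_ker] at h8
    exact h8
  refine h.trans ?_
  rw [commutator_le]
  intro x hx s hs
  obtain ⟨c, hc, hcs⟩ := h6 s hs
  have h7 := hker x (h3 hx) (c * s) (h4 hcs)
  have h8 : ⁅x, c * s⁆ = ⁅x, s⁆ := by
    have h9 : s * x⁻¹ * s⁻¹ ∈ P := (mem_normalizer_iff.1 (hSP hs) _).1 (P.inv_mem hx)
    have h10 := (mem_centralizer_iff.1 hc) _ h9
    rw [commutatorElement_def, commutatorElement_def]
    calc x * (c * s) * x⁻¹ * (c * s)⁻¹ = x * (c * (s * x⁻¹ * s⁻¹) * c⁻¹) := by group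
      _ = x * s * x⁻¹ * s⁻¹ := by rw [← h10]; group
  rwa [h8] at h7

end Cfsg.Agent.QTSolv.Coprime
end

-- part: QTSolv/Rank
section
/-!
# Components of order divisible by `p`
-/

set_option autoImplicit false

open scoped commutatorElement Pointwise

namespace Cfsg.Agent.QTSolv.Rank

open Subgroup Cfsg
open Cfsg.Agent.OddOrderLocal
open Cfsg.Agent.OddOrderLocal.Rank (elemAb_zpowers elemAb_sup pRankLE_def)
open Cfsg.Agent.QTSolv.Star Cfsg.Agent.QTSolv.Data

variable {H : Type*} [Group H]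

/-- A nontrivial normal subgroup of a Sylow subgroup contains a central element of order `p`. -/
theorem exists_central [Finite H] {p : ℕ} [hpf : Fact p.Prime] {W : Subgroup H} (hW : IsPGroup p W) {N : Subgroup H}
    (hN : (N.subgroupOf W).Normal) (hne : N ⊓ W ≠ ⊥) : ∃ z ∈ N ⊓ W, z ≠ 1 ∧ z ^ p = 1 ∧ ∀ w ∈ W, w * z = z * w := by
  have : Group.IsNilpotent W := hW.isNilpotent
  have h1 : N.subgroupOf W ≠ ⊥ := by
    intro h
    rw [subgroupOf_eq_bot] at h
    exact hne (disjoint_iff.1 h)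
  have h2 := Lib.NormalAbelian.normal_inf_center_ne_bot (N.subgroupOf W) h1
  set Z : Subgroup W := N.subgroupOf W ⊓ center W with hZ
  have hZp : IsPGroup p Z := hW.to_subgroup Z
  have : Nontrivial Z := (nontrivial_iff_ne_bot Z).2 h2
  obtain ⟨k, hk0, hk⟩ := hZp.nontrivial_iff_card.1 this
  obtain ⟨z, hz⟩ := exists_prime_orderOf_dvd_card' (G := Z) p (by rw [hk]; exact dvd_pow_self p hk0.ne')
  have hz1 : z ^ p = 1 := by rw [← hz]; exact pow_orderOf_eq_one z
  refine ⟨((z : W) : H), ⟨z.2.1, (z : W).2⟩, ?_, ?_, ?_⟩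
  · intro h
    have h3 : z = 1 := Subtype.ext (Subtype.ext h)
    rw [h3, orderOf_one] at hz
    exact hpf.out.one_lt.ne hz
  · exact congrArg (fun y : Z => ((y : W) : H)) hz1
  · intro w hw
    have h3 := (mem_center_iff.1 z.2.2) ⟨w, hw⟩
    exact congrArg Subtype.val h3

theorem elemAb_pair {p : ℕ} {a b : H} (ha : a ^ p = 1) (hb : b ^ p = 1) (hab : a * b = b * a) :
    IsElementaryAbelian p (zpowers a ⊔ zpowers b : Subgroup H) := by
  refine elemAb_sup (elemAb_zpowers ha) (elemAb_zpowers hb) ?_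
  rintro _ ⟨i, rfl⟩ _ ⟨j, rfl⟩
  exact ((show Commute a b from hab).zpow_left i).zpow_right j

/-- A Sylow `p`-subgroup meets a normal subgroup of order divisible by `p`. -/
theorem inf_ne_bot [Finite H] {p : ℕ} [hpf : Fact p.Prime] (W : Sylow p H) (K : Subgroup H) [K.Normal]
    (hpK : p ∣ Nat.card K) : K ⊓ (W : Subgroup H) ≠ ⊥ := by
  intro h
  have h1 := Lib.SylowNormalInf.not_dvd_relIndex W K
  apply h1
  have h2 : (W : Subgroup H).relIndex K = Nat.card K := by
    rw [← inf_relIndex_right, inf_comm, h, relIndex_bot_left]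
  rw [h2]
  exact hpK

/-- Commutators of elements normalising a cyclic group centralise it. -/
theorem commutator_mem_centralizer {R : Subgroup H} (hc : IsCyclic R) {a b : H} (ha : a ∈ normalizer (R : Set H))
    (hb : b ∈ normalizer (R : Set H)) : ⁅a, b⁆ ∈ centralizer (R : Set H) := by
  have h7 : normalizerMonoidHom R ⁅(⟨a, ha⟩ : ↥(normalizer (R : Set H))), ⟨b, hb⟩⁆ = 1 := by
    rw [map_commutatorElement, commutatorElement_eq_one_iff_mul_comm]
    obtain ⟨g, hg⟩ := hc.exists_generator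
    have hpow : ∀ (α : MulAut R), ∃ k : ℤ, ∀ x, α x = x ^ k := by
      intro α
      obtain ⟨k, hk⟩ := mem_zpowers_iff.1 (hg (α g))
      refine ⟨k, fun x => ?_⟩
      obtain ⟨l, rfl⟩ := mem_zpowers_iff.1 (hg x)
      rw [map_zpow, ← hk, ← zpow_mul, ← zpow_mul, mul_comm]
    obtain ⟨k, hk⟩ := hpow (normalizerMonoidHom R ⟨a, ha⟩)
    obtain ⟨l, hl⟩ := hpow (normalizerMonoidHom R ⟨b, hb⟩)
    ext x
    rw [MulAut.mul_apply, MulAut.mul_apply, hk, hl, hl, hk, ← zpow_mul, ← zpow_mul, mul_comm]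
  have h8 : (⁅(⟨a, ha⟩ : ↥(normalizer (R : Set H))), ⟨b, hb⟩⁆ : ↥(normalizer (R : Set H))) ∈
      (normalizerMonoidHom R).ker := h7
  rw [normalizerMonoidHom_ker] at h8
  exact h8

/-- **(IIb)** If `P` of exponent `p` normalises two disjoint commuting subgroups of order divisible by `p` in a group
of `p`-rank at most two, then `P ≤ K L`. -/
theorem le_sup_of_commute [Finite H] {p : ℕ} [hpf : Fact p.Prime] (hr : PRankLE p 2 H) {K L P : Subgroup H}
    (hK : K.Normal) (hL : L.Normal) (hd : Disjoint K L) (hpK : p ∣ Nat.card K) (hpL : p ∣ Nat.card L)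
    (hP : IsPGroup p P) (hexp : ∀ x ∈ P, x ^ p = 1) : P ≤ K ⊔ L := by
  obtain ⟨W, hPW⟩ := hP.exists_le_sylow
  have hKW : (K.subgroupOf (W : Subgroup H)).Normal := inferInstance
  have hLW : (L.subgroupOf (W : Subgroup H)).Normal := inferInstance
  obtain ⟨a, ha, ha1, hap, haW⟩ := exists_central W.isPGroup' hKW (inf_ne_bot W K hpK)
  obtain ⟨b, hb, hb1, hbp, hbW⟩ := exists_central W.isPGroup' hLW (inf_ne_bot W L hpL)
  have hab : a * b = b * a := hbW a ha.2
  have hE := elemAb_pair hap hbp hab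
  have hcard : Nat.card ↥(zpowers a ⊔ zpowers b : Subgroup H) = p ^ 2 := by
    refine le_antisymm (pRankLE_def.mp hr _ hE) ?_
    have hlt : zpowers a < zpowers a ⊔ zpowers b := by
      refine lt_of_le_of_ne le_sup_left fun h => hb1 ?_
      have h1 : b ∈ zpowers a := by rw [h]; exact mem_sup_right (mem_zpowers b)
      have h2 : zpowers a ≤ K := (zpowers_le).2 ha.1
      exact (disjoint_def.1 hd) (h2 h1) hb.1
    have hEp : IsPGroup p ↥(zpowers a ⊔ zpowers b : Subgroup H) := OddOrderLocal.Rank.elemAb_isPGroup hE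
    obtain ⟨k, hk⟩ := IsPGroup.iff_card.1 hEp
    have h3 : Nat.card (zpowers a) = p := by
      rw [Nat.card_zpowers]
      exact orderOf_eq_prime hap ha1
    have h4 : Nat.card (zpowers a) < Nat.card ↥(zpowers a ⊔ zpowers b : Subgroup H) := by
      refine lt_of_le_of_ne (card_le_of_le hlt.le) fun h => hlt.ne (eq_of_le_of_card_ge hlt.le h.ge)
    rw [hk, h3] at h4
    rw [hk]
    apply Nat.pow_le_pow_right hpf.out.pos
    by_contra hk2
    push Not at hk2
    have : p ^ k ≤ p ^ 1 := Nat.pow_le_pow_right hpf.out.pos (by omega)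
    rw [pow_one] at this
    omega
  have hle : zpowers a ⊔ zpowers b ≤ K ⊔ L :=
    sup_le_sup ((zpowers_le).2 ha.1) ((zpowers_le).2 hb.1)
  intro x hx
  apply hle
  apply RankTwoPrimeAut.mem_of_commute hr _ hE hcard (hexp x hx)
  have h1 : zpowers a ⊔ zpowers b ≤ centralizer ({x} : Set H) := by
    refine sup_le ?_ ?_
    · rw [zpowers_le, mem_centralizer_singleton_iff]
      exact (haW x (hPW hx)).symm
    · rw [zpowers_le, mem_centralizer_singleton_iff]
      exact (hbW x (hPW hx)).symm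
  intro m hm
  have h2 := h1 hm
  rwa [mem_centralizer_singleton_iff] at h2

/-- `P ∩ K ≤ F` for a normal subgroup `K` not containing `P`. -/
theorem inf_le_F [Finite H] {p : ℕ} {P S F : Subgroup H} (D : Dat p P S F) {K : Subgroup H} (hK : K.Normal)
    (hPK : ¬ P ≤ K) : P ⊓ K ≤ F := by
  have hn : ∀ s ∈ S, s ∈ normalizer ((P ⊓ K : Subgroup H) : Set H) := by
    intro s hs
    apply mem_normalizer_of_conj
    intro y hy
    exact ⟨(mem_normalizer_iff.1 (D.S_le hs) y).1 hy.1, hK.conj_mem y hy.2 s⟩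
  rcases D.irr ((P ⊓ K) ⊔ F) le_sup_right (sup_le inf_le_left D.F_le)
    (fun s hs => mem_normalizer_sup (hn s hs) (D.F_norm hs)) with h | h
  · rw [← h]
    exact le_sup_left
  · exfalso
    apply hPK
    have h1 := D.ngen _ inf_le_left h
    rw [← h1]
    exact inf_le_right

/-- **(IIc1)** Noncyclic Sylow intersection. -/
theorem false_of_noncyclic [Finite H] {p : ℕ} {P S F : Subgroup H} (D : Dat p P S F) (hr : PRankLE p 2 H)
    {K : Subgroup H} (hK : K.Normal) (hPK : P ⊓ K ≤ F) (W : Sylow p H) (hPW : P ≤ W)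
    (hc : ¬ IsCyclic ↥(K.subgroupOf (W : Subgroup H))) : False := by
  have hpf : Fact p.Prime := ⟨D.prime⟩
  obtain ⟨A₁, hA₁K, hA₁n, hA₁e, hA₁c⟩ := Cfsg.Agent.S0636.result D.odd W.isPGroup' (K.subgroupOf (W : Subgroup H)) hc
  set A : Subgroup H := A₁.map (W : Subgroup H).subtype with hA
  have hAK : A ≤ K := by
    rintro _ ⟨y, hy, rfl⟩
    exact hA₁K hy
  have hWA : (W : Subgroup H) ≤ normalizer (A : Set H) := by
    rw [le_normalizer_iff]
    rintro w hw _ ⟨y, hy, rfl⟩
    exact ⟨⟨w, hw⟩ * y * ⟨w, hw⟩⁻¹, hA₁n.conj_mem y hy ⟨w, hw⟩, rfl⟩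
  have hAe : IsElementaryAbelian p A := OddOrderLocal.Rank.elemAb_map (W : Subgroup H).subtype hA₁e
  have hAc : Nat.card A = p ^ 2 := by
    rw [← hA₁c]
    exact (Nat.card_congr (equivMapOfInjective A₁ _ (W : Subgroup H).subtype_injective).toEquiv).symm
  set C : Subgroup H := P ⊓ centralizer (A : Set H) with hC
  have hCF : C ≤ F := by
    refine le_trans ?_ hPK
    intro x hx
    refine ⟨hx.1, hAK ?_⟩
    exact RankTwoPrimeAut.mem_of_commute hr A hAe hAc (D.pow_eq_one x hx.1) (fun m hm =>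
      (mem_centralizer_iff.1 hx.2) m hm)
  -- `|P : C| ≤ p`
  have hPA : P ≤ normalizer (A : Set H) := hPW.trans hWA
  let _ : CommGroup A := { (inferInstance : Group A) with mul_comm := fun a b => hAe.1.is_comm.comm a b }
  set N : Subgroup H := normalizer (A : Set H) with hN
  have hPN : IsPGroup p (P.subgroupOf N) := D.pgroup.comap_of_injective N.subtype N.subtype_injective
  have h1 : Nat.card ((P.subgroupOf N).map (normalizerMonoidHom A)) ∣ p :=
    _root_.Cfsg.Agent.QTSolv.Star.card_map_dvd hPN (V := A) (fun v => Subtype.ext (hAe.2 v v.2)) hAc.le (normalizerMonoidHom A)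
  -- the order of `P`
  have h2 : Nat.card P = Nat.card ((P.subgroupOf N).map (normalizerMonoidHom A)) * Nat.card C := by
    set g : ↥(P.subgroupOf N) →* MulAut A := (normalizerMonoidHom A).comp (P.subgroupOf N).subtype with hg
    have h3 : (P.subgroupOf N).map (normalizerMonoidHom A) = g.range := by
      rw [hg, MonoidHom.range_comp, range_subtype]
    have h4 : Nat.card g.ker = Nat.card C := by
      have h5 : g.ker.map (N.subtype.comp (P.subgroupOf N).subtype) = C := by
        ext x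
        constructor
        · rintro ⟨y, hy, rfl⟩
          refine ⟨y.2, ?_⟩
          have h6 : (y : N) ∈ (normalizerMonoidHom A).ker := hy
          rw [normalizerMonoidHom_ker] at h6
          exact h6
        · rintro ⟨hx, hx2⟩
          refine ⟨⟨⟨x, hPA hx⟩, hx⟩, ?_, rfl⟩
          have h6 : (⟨x, hPA hx⟩ : N) ∈ (normalizerMonoidHom A).ker := by
            rw [normalizerMonoidHom_ker]
            exact hx2
          exact h6
      rw [← h5]
      exact Nat.card_congr (equivMapOfInjective g.ker (N.subtype.comp (P.subgroupOf N).subtype)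
        (fun a b hab => Subtype.ext (Subtype.ext hab))).toEquiv
    have h5 : Nat.card ↥(P.subgroupOf N) = Nat.card P := Nat.card_congr (subgroupOfEquivOfLe hPA).toEquiv
    rw [h3, ← h4, ← h5, ← index_ker, mul_comm]
    exact (card_mul_index g.ker).symm
  have h3 : Nat.card C ≤ Nat.card F := card_le_of_le hCF
  have h4 := Nat.le_of_dvd D.prime.pos h1
  have h5 : p ^ 2 * Nat.card F ≤ p * Nat.card F := by
    rw [← D.card, h2]
    exact Nat.mul_le_mul h4 h3
  have h6 : 0 < Nat.card F := Nat.card_pos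
  have h7 : p ^ 2 ≤ p := Nat.le_of_mul_le_mul_right h5 h6
  have := D.prime.one_lt
  nlinarith only [h7, this]

/-- Burnside: in a perfect group of order divisible by `p`, a Sylow `p`-subgroup is not central in its normaliser. -/
theorem exists_mem_normalizer_not_centralizer {K : Type*} [Group K] [Finite K] {p : ℕ} [Fact p.Prime]
    (hperf : commutator K = ⊤) (Q : Sylow p K) (hp : p ∣ Nat.card K) :
    ∃ n : K, n ∈ normalizer (Q : Set K) ∧ n ∉ centralizer (Q : Set K) := by
  by_contra hcon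
  push Not at hcon
  have hle : normalizer (Q : Set K) ≤ centralizer (Q : Set K) := fun n hn => hcon n hn
  have h1 := MonoidHom.ker_transferSylow_isComplement' Q hle
  have hcomm : IsMulCommutative Q := ⟨⟨fun a b => Subtype.ext (hle (le_normalizer b.2) a a.2)⟩⟩
  have h2 : (MonoidHom.transferSylow Q hle).ker = ⊤ := by
    rw [eq_top_iff, ← hperf, commutator_def, commutator_le]
    intro a _ b _
    rw [MonoidHom.mem_ker, map_commutatorElement, commutatorElement_eq_one_iff_mul_comm]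
    exact hcomm.is_comm.comm _ _
  rw [h2] at h1
  have h3 : (Q : Subgroup K) = ⊥ := by
    have := h1.disjoint
    rwa [top_disjoint] at this
  have h4 := Q.ne_bot_of_dvd_card hp
  exact h4 h3

/-- The element `m ∈ K ∩ N(W)` not centralising `K ∩ W`. -/
theorem exists_mem_normalizer [Finite H] {p : ℕ} [hpf : Fact p.Prime] {K : Subgroup H} (hK : K.Normal)
    (hperf : ⁅K, K⁆ = K) (hpK : p ∣ Nat.card K) (W : Sylow p H) (hc : IsCyclic ↥(K ⊓ (W : Subgroup H) : Subgroup H)) :
    ∃ m ∈ K, m ∈ normalizer ((W : Subgroup H) : Set H) ∧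
      m ∉ centralizer ((K ⊓ (W : Subgroup H) : Subgroup H) : Set H) := by
  set Q₀ : Subgroup H := K ⊓ (W : Subgroup H) with hQ₀
  let Q : Sylow p K := (Lib.SylowNormalInf.isPGroup_subgroupOf W K).toSylow (Lib.SylowNormalInf.not_dvd_relIndex W K)
  have hQ : (Q : Subgroup K) = (W : Subgroup H).subgroupOf K := rfl
  have hKp : commutator K = ⊤ := by
    have := (isPerfect_iff.2 hperf : Group.IsPerfect K)
    exact this.commutator_eq_top
  obtain ⟨n, hn1, hn2⟩ := exists_mem_normalizer_not_centralizer hKp Q hpK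
  -- `n` normalises `Q₀`
  have hnQ : (n : H) ∈ normalizer (Q₀ : Set H) := by
    apply mem_normalizer_of_conj
    intro y hy
    have h1 : (⟨y, hy.1⟩ : K) ∈ (Q : Subgroup K) := hy.2
    have h2 := (mem_normalizer_iff.1 hn1 _).1 h1
    exact ⟨K.mul_mem (K.mul_mem n.2 hy.1) (K.inv_mem n.2), h2⟩
  have hnC : (n : H) ∉ centralizer (Q₀ : Set H) := by
    intro h
    apply hn2
    rw [mem_centralizer_iff]
    intro y hy
    apply Subtype.ext
    exact (mem_centralizer_iff.1 h) (y : H) ⟨y.2, hy⟩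
  have hWQ : (W : Subgroup H) ≤ normalizer (Q₀ : Set H) := by
    intro w hw
    apply mem_normalizer_of_conj
    intro y hy
    exact ⟨hK.conj_mem y hy.1 w, (W : Subgroup H).mul_mem ((W : Subgroup H).mul_mem hw hy.2) ((W : Subgroup H).inv_mem hw)⟩
  set C₁ : Subgroup H := K ⊓ centralizer (Q₀ : Set H) with hC₁
  have hWC : (W : Subgroup H) ≤ normalizer (C₁ : Set H) := by
    intro w hw
    apply mem_normalizer_of_conj
    intro y hy
    refine ⟨hK.conj_mem y hy.1 w, mem_centralizer_iff.2 fun x hx => ?_⟩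
    have h1 : w⁻¹ * x * w ∈ Q₀ := by
      have := (mem_normalizer_iff.1 (inv_mem (hWQ hw)) x).1 hx
      rwa [inv_inv] at this
    have h2 := (mem_centralizer_iff.1 hy.2) _ h1
    calc x * (w * y * w⁻¹) = w * ((w⁻¹ * x * w) * y) * w⁻¹ := by group
      _ = w * (y * (w⁻¹ * x * w)) * w⁻¹ := by rw [h2]
      _ = w * y * w⁻¹ * x := by group
  set Y : Subgroup H := C₁ ⊔ (W : Subgroup H) with hY
  have hWY : (W : Subgroup H) ≤ Y := le_sup_right
  have hnWY : (((n : H) • W : Sylow p H) : Subgroup H) ≤ Y := by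
    rintro _ ⟨w, hw, rfl⟩
    change (n : H) * w * (n : H)⁻¹ ∈ Y
    have h1 : (n : H) * w * (n : H)⁻¹ = ⁅(n : H), w⁆ * w := by rw [commutatorElement_def]; group
    have h2 : ⁅(n : H), w⁆ ∈ C₁ := by
      refine ⟨?_, commutator_mem_centralizer hc hnQ (hWQ hw)⟩
      have h3 : ⁅(n : H), w⁆ = n * (w * (n : H)⁻¹ * w⁻¹) := by rw [commutatorElement_def]; group
      rw [h3]
      exact K.mul_mem n.2 (hK.conj_mem _ (K.inv_mem n.2) w)
    rw [h1]
    exact mul_mem (mem_sup_left h2) (mem_sup_right hw)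
  obtain ⟨y, hy⟩ := MulAction.exists_smul_eq Y (W.subtype hWY) (((n : H) • W).subtype hnWY)
  rw [Sylow.smul_subtype] at hy
  have hy' : (y : H) • W = (n : H) • W := Sylow.subtype_injective hy
  have hm : ((y : H)⁻¹ * n) ∈ normalizer ((W : Subgroup H) : Set H) := by
    have h1 : ((y : H)⁻¹ * n) • W = W := by rw [mul_smul, ← hy', inv_smul_smul]
    exact Sylow.smul_eq_iff_mem_normalizer.1 h1
  -- `y = c w`
  have hyY : (y : H) ∈ ((C₁ : Set H) * ((W : Subgroup H) : Set H)) := by
    rw [← coe_mul_of_right_le_normalizer_left C₁ (W : Subgroup H) hWC]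
    exact y.2
  obtain ⟨c, hc1, w, hw, hcw⟩ := hyY
  have hcw' : c * w = (y : H) := hcw
  refine ⟨c⁻¹ * n, K.mul_mem (K.inv_mem hc1.1) n.2, ?_, ?_⟩
  · have h1 : c⁻¹ * n = w * ((y : H)⁻¹ * n) := by rw [← hcw']; group
    rw [h1]
    exact mul_mem (le_normalizer hw) hm
  · intro h
    apply hnC
    have h1 : (n : H) = c * (c⁻¹ * n) := by group
    rw [h1]
    exact mul_mem hc1.2 h

/-- **(IIc2)** Cyclic Sylow intersection. -/
theorem le_of_cyclic [Finite H] {p : ℕ} {P S F : Subgroup H} (D : Dat p P S F) (hr : PRankLE p 2 H)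
    {K : Subgroup H} (hK : K.Normal) (hperf : ⁅K, K⁆ = K) (hpK : p ∣ Nat.card K) (W : Sylow p H) (hPW : P ≤ W)
    (hc : IsCyclic ↥(K ⊓ (W : Subgroup H) : Subgroup H)) : P ≤ K := by
  have hpf : Fact p.Prime := ⟨D.prime⟩
  obtain ⟨m, hmK, hmW, hmC⟩ := exists_mem_normalizer hK hperf hpK W hc
  set Q₀ : Subgroup H := K ⊓ (W : Subgroup H) with hQ₀
  have hQ₀p : IsPGroup p Q₀ := W.isPGroup'.to_le inf_le_right
  -- an element of prime power order
  have hex : ∃ (q : ℕ) (n : H), q.Prime ∧ q ≠ p ∧ n ∈ K ∧ n ∈ normalizer ((W : Subgroup H) : Set H) ∧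
      n ∉ centralizer (Q₀ : Set H) ∧ ∃ k : ℕ, n ^ q ^ k = 1 := by
    by_contra hcon
    push Not at hcon
    apply hmC
    refine Lib.CoprimeCommutator.induction_prime_power (K ⊓ normalizer ((W : Subgroup H) : Set H))
      (fun g => g ∈ centralizer (Q₀ : Set H)) (one_mem _) (fun a _ b _ ha hb => mul_mem ha hb) ?_ m ⟨hmK, hmW⟩
    intro q k hq a ha hak
    by_cases hqp : q = p
    · subst hqp
      -- `a ∈ W`
      have h1 : IsPGroup q (zpowers a) := by
        rw [IsPGroup.iff_card]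
        rw [Nat.card_zpowers]
        obtain ⟨j, -, hj⟩ := (Nat.dvd_prime_pow hq).1 (orderOf_dvd_of_pow_eq_one hak)
        exact ⟨j, hj⟩
      have h2 : zpowers a ≤ normalizer ((W : Subgroup H) : Set H) := (zpowers_le).2 ha.2
      have h3 := h1.inf_normalizer_sylow W
      have h4 : a ∈ (W : Subgroup H) := by
        have h5 : a ∈ zpowers a ⊓ normalizer (W : Set H) := ⟨mem_zpowers a, ha.2⟩
        rw [h3] at h5
        exact h5.2
      rw [mem_centralizer_iff]
      intro x hx
      exact congrArg Subtype.val (hc.isMulCommutative.is_comm.comm (⟨x, hx⟩ : Q₀) ⟨a, ha.1, h4⟩)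
    · by_contra hna
      exact hcon q a hq hqp ha.1 ha.2 hna k hak
  obtain ⟨q, n, hq, hqp, hnK, hnW, hnC, k, hnk⟩ := hex
  have hqf : Fact q.Prime := ⟨hq⟩
  have hnQ : n ∈ normalizer (Q₀ : Set H) := by
    apply mem_normalizer_of_conj
    intro y hy
    exact ⟨hK.conj_mem y hy.1 n, (mem_normalizer_iff.1 hnW y).1 hy.2⟩
  have hNp : IsPGroup q (zpowers n) := by
    rw [IsPGroup.iff_card, Nat.card_zpowers]
    obtain ⟨j, -, hj⟩ := (Nat.dvd_prime_pow hq).1 (orderOf_dvd_of_pow_eq_one hnk)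
    exact ⟨j, hj⟩
  -- an element of order `p` of `Q₀` not centralised by `n`
  have hx : ∃ x ∈ Q₀, x ^ p = 1 ∧ n * x * n⁻¹ ≠ x := by
    by_contra hcon
    push Not at hcon
    obtain ⟨E, hE, hEexp, -, hfaith⟩ := OddOrderLocal.OmegaCritical.exists_omega_critical D.odd hQ₀p
    have h1 : normalizerMonoidHom Q₀ ⟨n, hnQ⟩ = 1 := by
      apply hfaith
      · have h2 : orderOf (normalizerMonoidHom Q₀ ⟨n, hnQ⟩) ∣ orderOf (⟨n, hnQ⟩ : ↥(normalizer (Q₀ : Set H))) :=
          orderOf_map_dvd _ _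
        have h3 : (⟨n, hnQ⟩ : ↥(normalizer (Q₀ : Set H))) ^ q ^ k = 1 := Subtype.ext hnk
        exact Nat.Coprime.coprime_dvd_left (h2.trans (orderOf_dvd_of_pow_eq_one h3))
          (Nat.Coprime.pow_left k ((Nat.coprime_primes hq hpf.out).2 hqp))
      · intro x hx
        apply Subtype.ext
        exact hcon x x.2 (congrArg Subtype.val (hEexp x hx))
    apply hnC
    have h2 : (⟨n, hnQ⟩ : ↥(normalizer (Q₀ : Set H))) ∈ (normalizerMonoidHom Q₀).ker := h1
    rw [normalizerMonoidHom_ker] at h2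
    exact h2
  obtain ⟨x, hxQ, hxp, hnx⟩ := hx
  set C : Subgroup H := (W : Subgroup H) ⊓ centralizer ((zpowers n : Subgroup H) : Set H) with hC
  have hCp : IsPGroup p C := W.isPGroup'.to_le inf_le_left
  -- `C ∩ K = 1`
  have hCK : Disjoint C K := by
    rw [disjoint_iff]
    by_contra hne
    have h1 : IsPGroup p ↥(C ⊓ K : Subgroup H) := hCp.to_le inf_le_left
    have : Nontrivial ↥(C ⊓ K : Subgroup H) := (nontrivial_iff_ne_bot _).2 hne
    obtain ⟨j, hj0, hj⟩ := h1.nontrivial_iff_card.1 this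
    obtain ⟨y, hy⟩ := exists_prime_orderOf_dvd_card' (G := ↥(C ⊓ K : Subgroup H)) p
      (by rw [hj]; exact dvd_pow_self p hj0.ne')
    -- `x` is a power of `y`
    have hyQ : (y : H) ∈ Q₀ := ⟨y.2.2, y.2.1.1⟩
    have hyo : orderOf (⟨(y : H), hyQ⟩ : Q₀) = p := by
      rw [← hy, ← Subgroup.orderOf_coe, ← Subgroup.orderOf_coe]
    have h2 : (⟨x, hxQ⟩ : Q₀) ∈ zpowers (⟨(y : H), hyQ⟩ : Q₀) := by
      have h6 := RankOneCyclic.pRankLE_one_of_isCyclic (p := p) hc
      have hyp : (⟨(y : H), hyQ⟩ : Q₀) ^ p = 1 := by rw [← hyo]; exact pow_orderOf_eq_one _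
      have h7 : IsElementaryAbelian p (zpowers (⟨(y : H), hyQ⟩ : Q₀) ⊔ zpowers (⟨x, hxQ⟩ : Q₀) : Subgroup Q₀) :=
        elemAb_pair hyp (Subtype.ext hxp) (hc.isMulCommutative.is_comm.comm _ _)
      have h8 := pRankLE_def.mp h6 _ h7
      have h9 : zpowers (⟨(y : H), hyQ⟩ : Q₀) = zpowers (⟨(y : H), hyQ⟩ : Q₀) ⊔ zpowers (⟨x, hxQ⟩ : Q₀) := by
        apply eq_of_le_of_card_ge le_sup_left
        rw [Nat.card_zpowers, hyo]
        rwa [pow_one] at h8
      rw [h9]
      exact mem_sup_right (mem_zpowers _)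
    obtain ⟨i, hi⟩ := mem_zpowers_iff.1 h2
    have h3 : (y : H) ^ i = x := congrArg Subtype.val hi
    have h4 : n * (y : H) = y * n := (mem_centralizer_iff.1 y.2.1.2) n (mem_zpowers n)
    apply hnx
    rw [← h3]
    have h5 : Commute n ((y : H) ^ i) := (show Commute n (y : H) from h4).zpow_right i
    rw [h5.eq, mul_inv_cancel_right]
  -- `C` is cyclic
  have hKW : (K.subgroupOf (W : Subgroup H)).Normal := inferInstance
  obtain ⟨z, hz, hz1, hzp, hzW⟩ := exists_central W.isPGroup' hKW (inf_ne_bot W K hpK)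
  have hCc : IsCyclic C := by
    apply RankOneCyclic.isCyclic_of_pRankLE_one D.odd hCp
    intro A hA hAp
    set A' : Subgroup H := A.map C.subtype with hA'
    have hAe : IsElementaryAbelian p A := ⟨hA, hAp⟩
    have hA'e : IsElementaryAbelian p A' := OddOrderLocal.Rank.elemAb_map C.subtype hAe
    have hcard : Nat.card A' = Nat.card A :=
      (Nat.card_congr (equivMapOfInjective A _ C.subtype_injective).toEquiv).symm
    have h1 : Nat.card A' ≤ p ^ 2 := pRankLE_def.mp hr _ hA'e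
    rw [pow_one]
    by_contra hlt
    push Not at hlt
    obtain ⟨j, hj⟩ := IsPGroup.iff_card.1 (OddOrderLocal.Rank.elemAb_isPGroup hA'e)
    have hj2 : j = 2 := by
      rw [hj] at h1
      have h2 := (Nat.pow_le_pow_iff_right hpf.out.one_lt).1 h1
      rw [← hcard, hj] at hlt
      have h3 : ¬ j ≤ 1 := fun h => by
        have := Nat.pow_le_pow_right hpf.out.pos h
        rw [pow_one] at this
        omega
      omega
    rw [hj2] at hj
    have hA'C : A' ≤ C := map_subtype_le A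
    have h2 : z ∈ A' := RankTwoPrimeAut.mem_of_commute hr A' hA'e hj hzp (fun a ha => hzW a (hA'C ha).1)
    exact hz1 ((disjoint_def.1 hCK) (hA'C h2) hz.1)
  -- `W = Q₀ C`
  have hWC : (W : Subgroup H) ≤ C ⊔ K := by
    intro w hw
    obtain ⟨c, hc1, hc2⟩ := Lib.CoprimeCommutator.exists_fixed_in_coset q (zpowers n) Q₀ hNp ((zpowers_le).2 hnQ) (by
      intro hd
      obtain ⟨j, hj⟩ := IsPGroup.iff_card.1 hQ₀p
      rw [hj] at hd
      exact hqp ((Nat.prime_dvd_prime_iff_eq hq hpf.out).1 (hq.dvd_of_dvd_pow hd))) w (by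
      intro a ha
      have haK : a ∈ K := ((zpowers_le).2 hnK) ha
      have haW : a ∈ normalizer ((W : Subgroup H) : Set H) := ((zpowers_le).2 hnW) ha
      refine ⟨?_, ?_⟩
      · have h1 : w⁻¹ * (a * w * a⁻¹) = (w⁻¹ * a * w⁻¹⁻¹) * a⁻¹ := by group
        rw [h1]
        exact K.mul_mem (hK.conj_mem a haK w⁻¹) (K.inv_mem haK)
      · exact (W : Subgroup H).mul_mem ((W : Subgroup H).inv_mem hw) ((mem_normalizer_iff.1 haW w).1 hw))
    have hcW : c ∈ (W : Subgroup H) := by
      have h1 : c = w * (w⁻¹ * c) := by group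
      rw [h1]
      exact (W : Subgroup H).mul_mem hw hc2.2
    have h1 : w = c * (w⁻¹ * c)⁻¹ := by group
    rw [h1]
    exact mul_mem (mem_sup_left ⟨hcW, hc1⟩) (mem_sup_right (K.inv_mem hc2.1))
  -- the image in `H / K` is cyclic
  have hcyc : IsCyclic ↥((P.subgroupOf ⊤).map ((QuotientGroup.mk' K).comp (⊤ : Subgroup H).subtype)) := by
    have h1 : (P.subgroupOf ⊤).map ((QuotientGroup.mk' K).comp (⊤ : Subgroup H).subtype) ≤
        C.map (QuotientGroup.mk' K) := by
      rintro _ ⟨y, hy, rfl⟩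
      have h2 : (y : H) ∈ C ⊔ K := hWC (hPW hy)
      rw [← SetLike.mem_coe, mul_normal] at h2
      obtain ⟨c, hc1, e, he, hce⟩ := h2
      refine ⟨c, hc1, ?_⟩
      change ((c : H) : H ⧸ K) = ((y : H) : H ⧸ K)
      rw [QuotientGroup.eq]
      have : c⁻¹ * (y : H) = e := by rw [← hce]; group
      rw [this]
      exact he
    have h2 : IsCyclic ↥(C.map (QuotientGroup.mk' K)) :=
      isCyclic_of_surjective ((QuotientGroup.mk' K).subgroupMap C) ((QuotientGroup.mk' K).subgroupMap_surjective C)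
    exact isCyclic_of_le h1
  have h1 := Star.map_eq_one (N := ⊤) le_top le_top D.S_le D.star
    ((QuotientGroup.mk' K).comp (⊤ : Subgroup H).subtype) hcyc
  intro y hy
  exact (QuotientGroup.eq_one_iff y).1 (h1 y hy)

/-- **(IIc)** `P` lies in every perfect normal subgroup of order divisible by `p`. -/
theorem le_of_dvd [Finite H] {p : ℕ} {P S F : Subgroup H} (D : Dat p P S F) (hr : PRankLE p 2 H)
    {K : Subgroup H} (hK : K.Normal) (hperf : ⁅K, K⁆ = K) (hpK : p ∣ Nat.card K) : P ≤ K := by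
  have hpf : Fact p.Prime := ⟨D.prime⟩
  obtain ⟨W, hPW⟩ := D.pgroup.exists_le_sylow
  by_cases hc : IsCyclic ↥(K ⊓ (W : Subgroup H) : Subgroup H)
  · exact le_of_cyclic D hr hK hperf hpK W hPW hc
  · by_contra hPK
    refine false_of_noncyclic D hr hK (inf_le_F D hK hPK) W hPW fun hc1 => hc ?_
    have e : ↥(K.subgroupOf (W : Subgroup H)) ≃* ↥(K ⊓ (W : Subgroup H) : Subgroup H) := by
      have e1 := equivMapOfInjective (K.subgroupOf (W : Subgroup H)) (W : Subgroup H).subtype
        (W : Subgroup H).subtype_injective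
      rw [subgroupOf_map_subtype] at e1
      exact e1
    exact e.isCyclic.1 hc1

end Cfsg.Agent.QTSolv.Rank
end
end

-- part: S1822
section
prune_inst 0x14202144400000000000001200003c46da000100006b000111600d02048e5f6009002f21cc801c12102aaa440030000000000050001000000000000001010080002a12069108a104200006803007180c00000000000000000000000000041004000000000
set_option linter.all false
open scoped Cfsg.Agent.FastGrp

-- part: QTSolv/Comp
section
/-!
# `𝒞`-components and `P`
-/

set_option autoImplicit false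

open scoped commutatorElement Pointwise

namespace Cfsg.Agent.QTSolv.Comp

open Subgroup Cfsg
open Cfsg.Agent.OddOrderLocal
open Cfsg.Agent.QTComp
open Cfsg.Agent.QTSolv.Star Cfsg.Agent.QTSolv.Data

universe u

variable {H : Type u} [Group H]

theorem mem_of_index_two {N : Subgroup H} (hN : N.index = 2) {p : ℕ} (hp : p.Prime) (hp2 : p ≠ 2) {P : Subgroup H}
    (hP : IsPGroup p P) : P ≤ N := by
  intro x hx
  obtain ⟨k, hk⟩ := hP ⟨x, hx⟩
  have hk' : x ^ p ^ k = 1 := congrArg Subtype.val hk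
  have h1 : x * x ∈ N := mul_self_mem_of_index_two hN x
  have hodd : Odd (p ^ k) := (hp.odd_of_ne_two hp2).pow
  obtain ⟨m, hm⟩ := hodd
  rw [hm, pow_succ, pow_mul, pow_two] at hk'
  have h2 : x = ((x * x) ^ m)⁻¹ := by
    rw [eq_inv_iff_mul_eq_one]
    rw [← hk']
    exact ((Commute.refl x).mul_right (Commute.refl x)).pow_right m
  rw [h2]
  exact N.inv_mem (N.pow_mem h1 m)

/-- **(II)** `O_2(H) = 1`: `P` centralises the `𝒞`-component `K` or lies in its normal closure. -/
theorem centralizer_or_le (hFT : Quat.FT.{0}) [Finite H] (hr : ∀ p : ℕ, p.Prime → p ≠ 2 → PRankLE p 2 H)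
    (h2 : pCore 2 H = ⊥) {K : Subgroup H} (hK : K ∈ calC H) {p : ℕ} {P S F : Subgroup H} (D : Dat p P S F) :
    P ≤ centralizer (K : Set H) ∨ P ≤ normalClosure (K : Set H) := by
  have hp := D.prime
  have hpf : Fact p.Prime := ⟨hp⟩
  have hK2 : pCore 2 ↥K = ⊥ := by
    have h3 := Two.pCore_map_eq (G := H) hK.2.2.1
    rw [h2, inf_bot_eq, map_eq_bot_iff_of_injective _ K.subtype_injective] at h3
    exact h3
  by_cases hn : K.Normal
  · have hnt : ∀ X : Subgroup H, X ≤ normalizer (K : Set H) := fun X => by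
      rw [normalizer_eq_top_iff.2 hn]
      exact le_top
    by_cases hpK : p ∣ Nat.card K
    · right
      exact (Rank.le_of_dvd D (hr p hp D.odd) hn hK.2.1 hpK).trans le_normalClosure
    · left
      exact Coprime.le_centralizer_of_star hp D.odd D.pgroup (hnt P) (hnt S) D.S_le hpK hK2
        (fun r hrp hr2 => OddOrderLocal.Rank.pRankLE_subgroup (hr r hrp hr2)) D.star
  · -- two conjugates
    have h3 := (Three.three hFT hr hK hn).1
    have hg : ∃ g : H, K.map (MulAut.conj g).toMonoidHom ≠ K := by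
      by_contra hcon
      push Not at hcon
      apply hn
      constructor
      intro x hx g
      rw [← hcon g]
      exact ⟨x, hx, rfl⟩
    obtain ⟨g, hg⟩ := hg
    obtain ⟨hs, hcyc⟩ := Three.simple_of_ne hFT hr h2 hK hg
    set N : Subgroup H := normalizer (K : Set H) with hN
    have hNn : N.Normal := normal_of_index_eq_two h3
    have hPN : P ≤ N := mem_of_index_two h3 hp D.odd D.pgroup
    by_cases hpK : p ∣ Nat.card K
    · right
      set L : Subgroup H := K.map (MulAut.conj g).toMonoidHom with hL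
      have hLC : L ∈ calC H := Basic.calC_conj g hK
      have hcomm := Two.calC_commutator_eq_bot hFT hr h2 hK hLC hg.symm
      have hcent : L ≤ centralizer (K : Set H) := by
        rw [commutator_comm] at hcomm
        exact commutator_eq_bot_iff_le_centralizer.1 hcomm
      have hKcard : Nat.card L = Nat.card K :=
        (Nat.card_congr (equivMapOfInjective K (MulAut.conj g).toMonoidHom (MulAut.conj g).injective).toEquiv).symm
      have hNL : normalizer (L : Set H) = N := by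
        have h4 : N ≤ normalizer (L : Set H) := by
          intro x hx
          apply mem_normalizer_of_conj
          rintro _ ⟨y, hy, rfl⟩
          have h5 : g⁻¹ * x * g ∈ N := by
            have := hNn.conj_mem x hx g⁻¹
            rwa [inv_inv] at this
          refine ⟨(g⁻¹ * x * g) * y * (g⁻¹ * x * g)⁻¹, (mem_normalizer_iff.1 h5 y).1 hy, ?_⟩
          change g * ((g⁻¹ * x * g) * y * (g⁻¹ * x * g)⁻¹) * g⁻¹ = x * (g * y * g⁻¹) * x⁻¹
          group
        apply le_antisymm ?_ h4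
        intro x hx
        have h5 : g⁻¹ * x * g ∈ N := by
          apply mem_normalizer_of_conj
          intro y hy
          have h6 : g * y * g⁻¹ ∈ L := ⟨y, hy, rfl⟩
          obtain ⟨z, hz, hzx⟩ := (mem_normalizer_iff.1 hx _).1 h6
          have h7 : g * z * g⁻¹ = x * (g * y * g⁻¹) * x⁻¹ := hzx
          have h8 : g⁻¹ * x * g * y * (g⁻¹ * x * g)⁻¹ = z := by
            have : z = g⁻¹ * (g * z * g⁻¹) * g := by group
            rw [this, h7]
            group
          rw [h8]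
          exact hz
        have h6 := hNn.conj_mem _ h5 g
        have h7 : g * (g⁻¹ * x * g) * g⁻¹ = x := by group
        rwa [h7] at h6
      have hLN : L ≤ N := hcent.trans (centralizer_le_normalizer _)
      have hKN : K ≤ N := le_normalizer
      -- inside `N`
      have h4 : (K.subgroupOf N).Normal := (normal_subgroupOf_iff_le_normalizer hKN).2 le_rfl
      have h5 : (L.subgroupOf N).Normal := (normal_subgroupOf_iff_le_normalizer hLN).2 hNL.ge
      have hd : Disjoint K L := by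
        rw [disjoint_iff, eq_bot_iff]
        rintro x ⟨hx1, hx2⟩
        have h6 : (⟨x, hx1⟩ : K) ∈ center K := by
          rw [mem_center_iff]
          intro y
          exact Subtype.ext ((mem_centralizer_iff.1 (hcent hx2)) y y.2)
        have h7 : center K = ⊥ := Three.center_eq_bot_of_simple (isPerfect_iff.2 hK.2.1).commutator_eq_top
        rw [h7, mem_bot] at h6
        exact congrArg Subtype.val h6
      have h6 : Disjoint (K.subgroupOf N) (L.subgroupOf N) := by
        rw [disjoint_def]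
        intro x hx1 hx2
        exact Subtype.ext (disjoint_def.1 hd hx1 hx2)
      have h7 : P.subgroupOf N ≤ K.subgroupOf N ⊔ L.subgroupOf N := by
        refine Rank.le_sup_of_commute (OddOrderLocal.Rank.pRankLE_subgroup (hr p hp D.odd)) h4 h5 h6 ?_ ?_
          (D.pgroup.comap_of_injective N.subtype N.subtype_injective) ?_
        · rw [Nat.card_congr (subgroupOfEquivOfLe hKN).toEquiv]
          exact hpK
        · rw [Nat.card_congr (subgroupOfEquivOfLe hLN).toEquiv, hKcard]
          exact hpK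
        · intro x hx
          exact Subtype.ext (D.pow_eq_one x hx)
      intro x hx
      have h8 : (⟨x, hPN hx⟩ : N) ∈ K.subgroupOf N ⊔ L.subgroupOf N := h7 hx
      rw [← subgroupOf_sup hKN hLN] at h8
      have h9 : x ∈ K ⊔ L := h8
      refine (sup_le le_normalClosure ?_ : K ⊔ L ≤ normalClosure (K : Set H)) h9
      rintro _ ⟨y, hy, rfl⟩
      exact normalClosure_normal.conj_mem y (subset_normalClosure hy) g
    · left
      refine Coprime.le_centralizer_of_cyclic (S := S ⊓ N) hp D.pgroup hPN inf_le_right (inf_le_left.trans D.S_le)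
        hpK hK2 (fun r R hrp hr2 => hcyc r R hrp hr2) (D.le_commutator inf_le_left ?_ ?_)
      · intro s hs
        apply mem_normalizer_of_conj
        intro y hy
        exact ⟨S.mul_mem (S.mul_mem hs hy.1) (S.inv_mem hs), hNn.conj_mem y hy.2 s⟩
      · intro s hs t ht hs1 ht1
        refine ⟨S.mul_mem hs ht, ?_⟩
        have hs2 : s ∉ N := fun h => hs1 ⟨hs, h⟩
        have ht2 : t ∉ N := fun h => ht1 ⟨ht, h⟩
        exact (mul_mem_iff_of_index_two h3).2 (iff_of_false hs2 ht2)

end Cfsg.Agent.QTSolv.Comp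
end

-- part: QTSolv/Fit
section
/-!
# `P ≤ O_p(H)`
-/

set_option autoImplicit false

open scoped commutatorElement Pointwise

namespace Cfsg.Agent.QTSolv.Fit

open Subgroup Cfsg
open Cfsg.Agent.OddOrderLocal
open Cfsg.Agent.QTSolv.Star Cfsg.Agent.QTSolv.Data
open Cfsg.Agent.Lib.Cores Cfsg.Agent.Lib.GenFitting

variable {H : Type*} [Group H]

/-- a group whose `p'`-elements (of prime power order) are central is nilpotent -/
theorem isNilpotent_of_central {C : Type*} [Group C] [Finite C] {p : ℕ} [hpf : Fact p.Prime]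
    (h : ∀ (r k : ℕ), r.Prime → r ≠ p → ∀ g : C, g ^ r ^ k = 1 → g ∈ center C) : Group.IsNilpotent C := by
  apply Group.of_quotient_center_nilpotent
  have hp : IsPGroup p (C ⧸ center C) := by
    intro x
    obtain ⟨g, rfl⟩ := QuotientGroup.mk_surjective x
    -- the `p'`-part
    obtain ⟨a, m, hm, ham⟩ := Nat.exists_eq_pow_mul_and_not_dvd (orderOf_pos g).ne' p hpf.out.ne_one
    refine ⟨a, ?_⟩
    have h1 : g ^ p ^ a ∈ center C := by
      have h2 : orderOf (g ^ p ^ a) ∣ m := by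
        apply orderOf_dvd_of_pow_eq_one
        rw [← pow_mul, ← ham, pow_orderOf_eq_one]
      have h3 : ∀ y ∈ zpowers (g ^ p ^ a), y ∈ center C := by
        refine Lib.CoprimeCommutator.induction_prime_power _ (fun y => y ∈ center C) (one_mem _)
          (fun a _ b _ ha hb => mul_mem ha hb) ?_
        intro r n hr y hy hyn
        by_cases hrp : r = p
        · subst hrp
          -- the order of `y` divides `m` and a power of `p`
          have h4 : orderOf y ∣ m := (orderOf_dvd_of_mem_zpowers hy).trans h2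
          have h5 : orderOf y ∣ r ^ n := orderOf_dvd_of_pow_eq_one hyn
          have h6 : orderOf y ∣ 1 := by
            have : Nat.Coprime (r ^ n) m := Nat.Coprime.pow_left n ((Nat.Prime.coprime_iff_not_dvd hr).2 hm)
            rw [← this]
            exact Nat.dvd_gcd h5 h4
          have h7 : y = 1 := orderOf_eq_one_iff.1 (Nat.dvd_one.1 h6)
          rw [h7]
          exact one_mem _
        · exact h r n hr hrp y hyn
      exact h3 _ (mem_zpowers _)
    rw [← QuotientGroup.mk_pow, QuotientGroup.eq_one_iff]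
    exact h1
  exact hp.isNilpotent

/-- **(III)** `P ≤ O_p(H)`. -/
theorem le_pCore [Finite H] (hr : ∀ p : ℕ, p.Prime → p ≠ 2 → PRankLE p 2 H) (h2 : pCore 2 H = ⊥) {p : ℕ}
    {P S F : Subgroup H} (D : Dat p P S F) (hcomp : ∀ K : Subgroup H, IsComponent K → P ≤ centralizer (K : Set H)) :
    P ≤ pCore p H := by
  have hp := D.prime
  have hpf : Fact p.Prime := ⟨hp⟩
  set Q : Subgroup H := pCore p H with hQ
  have hQn : Q.Normal := Lib.Cores.pCore_normal p
  have hQp : IsPGroup p Q := pCore_isPGroup p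
  have hQr : PRankLE p 2 Q := OddOrderLocal.Rank.pRankLE_subgroup (hr p hp D.odd)
  obtain ⟨E, θ, hexp, hcard, hθ⟩ := RankTwoAction.exists_module D.odd hQp hQr
  set φ : H →* MulAut Q := MulAut.conjNormal with hφ
  set f : H →* MulAut (Abelianization E) := θ.comp φ with hf
  have hPf : P ≤ f.ker := by
    have h1 := trivial_of_card_le hp D.odd (r := p) (N := ⊤) le_top le_top D.S_le D.star D.pgroup hexp hcard
      (f.comp (⊤ : Subgroup H).subtype)
    intro x hx
    exact h1 x hx
  -- the normal subgroup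
  set C₁ : Subgroup H := f.ker ⊓ (centralizer (layer H : Set H) ⊓
    ⨅ r : {r : ℕ // r.Prime ∧ r ≠ p}, centralizer (pCore r H : Set H)) with hC₁
  have hlay : (layer H).Normal := Cfsg.Agent.SignalizersComponents.Components.layer_normal H
  have hC₁n : C₁.Normal := by
    have h1 : ∀ r : {r : ℕ // r.Prime ∧ r ≠ p}, (centralizer (pCore r H : Set H)).Normal := fun r => by
      have : (pCore (r : ℕ) H).Normal := Lib.Cores.pCore_normal _
      infer_instance
    have h3 : (⨅ r : {r : ℕ // r.Prime ∧ r ≠ p}, centralizer (pCore r H : Set H)).Normal := normal_iInf_normal h1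
    infer_instance
  have hPC : P ≤ C₁ := by
    refine le_inf hPf (le_inf ?_ ?_)
    · rw [le_centralizer_iff, layer]
      refine sSup_le fun K hK => ?_
      rw [← le_centralizer_iff]
      exact hcomp K hK
    · refine le_iInf ?_
      rintro ⟨r, hrp, hne⟩
      have hrf : Fact r.Prime := ⟨hrp⟩
      have hn : (pCore r H).Normal := Lib.Cores.pCore_normal r
      by_cases hr2 : r = 2
      · subst hr2
        intro x _
        rw [mem_centralizer_iff]
        intro y hy
        have hy' : y ∈ pCore 2 H := hy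
        rw [h2, mem_bot] at hy'
        rw [hy', one_mul, mul_one]
      · exact le_centralizer_of_rank hp D.odd hr2 (Ne.symm hne) (pCore_isPGroup r)
          (OddOrderLocal.Rank.pRankLE_subgroup (hr r hrp hr2)) D.pgroup
          (by rw [normalizer_eq_top_iff.2 hn]; exact le_top) (by rw [normalizer_eq_top_iff.2 hn]; exact le_top)
          D.S_le D.star
  -- `p'`-elements of `C₁`
  have hkey : ∀ (r k : ℕ), r.Prime → r ≠ p → ∀ g ∈ C₁, g ^ r ^ k = 1 → ∀ x ∈ C₁, x * g = g * x := by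
    intro r k hrp hne g hg hgk x hx
    have hrf : Fact r.Prime := ⟨hrp⟩
    -- `g` centralises `Q`
    have h1 : g ∈ centralizer (Q : Set H) := by
      have h3 : φ g = 1 := by
        apply hθ (φ g) ?_ (MonoidHom.mem_ker.1 hg.1)
        exact Nat.Coprime.coprime_dvd_left ((orderOf_map_dvd φ g).trans (orderOf_dvd_of_pow_eq_one hgk))
          (Nat.Coprime.pow_left k ((Nat.coprime_primes hrp hp).2 hne))
      rw [mem_centralizer_iff]
      intro y hy
      have h4 : ((φ g ⟨y, hy⟩ : Q) : H) = y := by rw [h3]; rfl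
      have h5 : ((φ g ⟨y, hy⟩ : Q) : H) = g * y * g⁻¹ := MulAut.conjNormal_apply g ⟨y, hy⟩
      rw [h5] at h4
      exact (mul_inv_eq_iff_eq_mul.1 h4).symm
    have h3 : g ∈ centralizer (generalizedFittingSubgroup H : Set H) := by
      have h4 : generalizedFittingSubgroup H ≤ centralizer ({g} : Set H) := by
        refine sup_le ?_ ?_
        · intro y hy
          rw [mem_centralizer_singleton_iff]
          exact (mem_centralizer_iff.1 hg.2.1) y hy
        · rw [fittingSubgroup_eq_iSup_pCore]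
          refine iSup_le fun q => ?_
          intro y hy
          rw [mem_centralizer_singleton_iff]
          by_cases hqp : (q : ℕ) = p
          · have hy' : y ∈ Q := by rw [hQ, ← hqp]; exact hy
            exact (mem_centralizer_iff.1 h1) y hy'
          · have h5 := (mem_iInf.1 hg.2.2) ⟨q, q.2, hqp⟩
            exact (mem_centralizer_iff.1 h5) y hy
      rw [mem_centralizer_iff]
      intro y hy
      exact mem_centralizer_singleton_iff.1 (h4 hy)
    -- the abelian normal subgroup `Z = C(F*(H))`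
    set Z : Subgroup H := centralizer (generalizedFittingSubgroup H : Set H) with hZ
    have hFn : (generalizedFittingSubgroup H).Normal := genFitting_normal
    have hZn : Z.Normal := inferInstance
    have hZc : IsMulCommutative Z := ⟨⟨fun a b => Subtype.ext
      ((mem_centralizer_iff.1 b.2) a (centralizer_genFitting_le a.2))⟩⟩
    have hZnil : Group.IsNilpotent Z := by
      let _ : CommGroup Z := { (inferInstance : Group Z) with mul_comm := hZc.is_comm.comm }
      infer_instance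
    have h4 : g ∈ pCore r H := mem_pCore_of_mem_nilpotent_normal hZn hZnil h3 hgk
    have h5 := (mem_iInf.1 hx.2.2) ⟨r, hrp, hne⟩
    exact ((mem_centralizer_iff.1 h5) g h4).symm
  have hnil : Group.IsNilpotent C₁ := by
    refine isNilpotent_of_central (p := p) ?_
    intro r k hrp hne g hgk
    rw [mem_center_iff]
    intro x
    exact Subtype.ext (hkey r k hrp hne g g.2 (congrArg Subtype.val hgk) x x.2)
  intro x hx
  obtain ⟨k, hk⟩ := D.pgroup ⟨x, hx⟩
  have hk' : x ^ p ^ k = 1 := congrArg Subtype.val hk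
  exact mem_pCore_of_mem_nilpotent_normal hC₁n hnil (hPC hx) hk'

end Cfsg.Agent.QTSolv.Fit
end

-- part: QTSolv/PCore
section
/-!
# `P ≤ Q`, `Q` a normal `p`-subgroup of rank at most two: `P = {x ∈ Q : x ^ p = 1}`
-/

set_option autoImplicit false

open scoped commutatorElement Pointwise

namespace Cfsg.Agent.QTSolv.PCore

open Subgroup Cfsg
open Cfsg.Agent.OddOrderLocal
open Cfsg.Agent.OddOrderLocal.Rank (elemAb_zpowers elemAb_sup pRankLE_def elemAb_isPGroup)
open Cfsg.Agent.QTSolv.Star Cfsg.Agent.QTSolv.Data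

variable {H : Type*} [Group H] [Finite H] {p : ℕ} {P S F : Subgroup H}

omit [Finite H] in
theorem conj_zpow {a b c : H} (hab : a * b * a⁻¹ = c * b) (hca : Commute c a) (k : ℤ) :
    a ^ k * b * (a ^ k)⁻¹ = c ^ k * b := by
  induction k using Int.induction_on with
  | zero => simp
  | succ k ih =>
    rw [zpow_add_one, zpow_add_one]
    calc a ^ (k : ℤ) * a * b * (a ^ (k : ℤ) * a)⁻¹ = a ^ (k : ℤ) * (a * b * a⁻¹) * (a ^ (k : ℤ))⁻¹ := by group
      _ = a ^ (k : ℤ) * (c * b) * (a ^ (k : ℤ))⁻¹ := by rw [hab]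
      _ = c * (a ^ (k : ℤ) * b * (a ^ (k : ℤ))⁻¹) := by
          rw [← mul_assoc (a ^ (k : ℤ)) c b, ← (hca.zpow_right k).eq]; group
      _ = c * (c ^ (k : ℤ) * b) := by rw [ih]
      _ = c ^ (k : ℤ) * c * b := by rw [← mul_assoc, (Commute.zpow_self c k).eq]
  | pred k ih =>
    have h6 : a⁻¹ * b * a = c⁻¹ * b := by
      have h8 : a⁻¹ * (c * b) * a = b := by rw [← hab]; group
      have h7 : a⁻¹ * (c * b) * a = c * (a⁻¹ * b * a) := by
        rw [← mul_assoc, ← (hca.inv_right).eq]; group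
      rw [h7] at h8
      rw [eq_inv_mul_iff_mul_eq]
      exact h8
    rw [zpow_sub_one, zpow_sub_one]
    calc a ^ (-(k : ℤ)) * a⁻¹ * b * (a ^ (-(k : ℤ)) * a⁻¹)⁻¹ =
        a ^ (-(k : ℤ)) * (a⁻¹ * b * a) * (a ^ (-(k : ℤ)))⁻¹ := by group
      _ = a ^ (-(k : ℤ)) * (c⁻¹ * b) * (a ^ (-(k : ℤ)))⁻¹ := by rw [h6]
      _ = c⁻¹ * (a ^ (-(k : ℤ)) * b * (a ^ (-(k : ℤ)))⁻¹) := by
          rw [← mul_assoc (a ^ (-(k : ℤ))) c⁻¹ b, ← (hca.inv_left.zpow_right (-(k : ℤ))).eq]; group
      _ = c⁻¹ * (c ^ (-(k : ℤ)) * b) := by rw [ih]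
      _ = c ^ (-(k : ℤ)) * c⁻¹ * b := by
          rw [← mul_assoc, ((Commute.refl c).inv_left.zpow_right (-(k : ℤ))).eq]

omit [Finite H] in
theorem F_elemAb (D : Dat p P S F) : IsElementaryAbelian p F :=
  ⟨⟨⟨fun a b => Subtype.ext (D.F_central a.2 (D.F_le b.2))⟩⟩, fun _ ha => D.F_pow ha⟩

/-- `⟨a⟩ F` is elementary abelian. -/
theorem elemAb_of (D : Dat p P S F) {a : H} (ha : a ∈ P) : IsElementaryAbelian p (F ⊔ zpowers a : Subgroup H) := by
  refine elemAb_sup (F_elemAb D) (elemAb_zpowers (D.pow_eq_one a ha)) ?_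
  rintro b hb _ ⟨i, rfl⟩
  exact (show Commute b a from D.F_central hb ha).zpow_right i

theorem card_of (D : Dat p P S F) (hF : Nat.card F = p) {a : H} (ha : a ∈ P) (haF : a ∉ F) (hr : PRankLE p 2 H) :
    Nat.card (F ⊔ zpowers a : Subgroup H) = p ^ 2 := by
  have hpf : Fact p.Prime := ⟨D.prime⟩
  refine le_antisymm (pRankLE_def.mp hr _ (elemAb_of D ha)) ?_
  have hlt : F < F ⊔ zpowers a := by
    refine lt_of_le_of_ne le_sup_left fun h => haF ?_
    rw [h]
    exact mem_sup_right (mem_zpowers a)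
  have hEp : IsPGroup p ↥(F ⊔ zpowers a : Subgroup H) := elemAb_isPGroup (elemAb_of D ha)
  obtain ⟨k, hk⟩ := IsPGroup.iff_card.1 hEp
  have h4 : Nat.card F < Nat.card ↥(F ⊔ zpowers a : Subgroup H) := by
    refine lt_of_le_of_ne (card_le_of_le hlt.le) fun h => hlt.ne (eq_of_le_of_card_ge hlt.le h.ge)
  rw [hk, hF] at h4
  rw [hk]
  apply Nat.pow_le_pow_right D.prime.pos
  by_contra hk2
  push Not at hk2
  have : p ^ k ≤ p ^ 1 := Nat.pow_le_pow_right D.prime.pos (by omega)
  rw [pow_one] at this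
  omega

theorem mem_of_commute (D : Dat p P S F) (hF : Nat.card F = p) {a : H} (ha : a ∈ P) (haF : a ∉ F)
    (hr : PRankLE p 2 H) {x : H} (hx : x ^ p = 1) (hxa : a * x = x * a) (hxF : ∀ f ∈ F, f * x = x * f) :
    x ∈ F ⊔ zpowers a := by
  have hpf : Fact p.Prime := ⟨D.prime⟩
  refine RankTwoPrimeAut.mem_of_commute hr _ (elemAb_of D ha) (card_of D hF ha haF hr) hx ?_
  have h1 : F ⊔ zpowers a ≤ centralizer ({x} : Set H) := by
    refine sup_le ?_ ?_
    · intro f hf
      rw [mem_centralizer_singleton_iff]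
      exact hxF f hf
    · rw [zpowers_le, mem_centralizer_singleton_iff]
      exact hxa
  intro m hm
  have h2 := h1 hm
  rwa [mem_centralizer_singleton_iff] at h2

/-- the elements of order dividing `p` of the centre of `Q` -/
def omegaZ (p : ℕ) (Q : Subgroup H) : Subgroup H where
  carrier := {x | x ∈ Q ∧ x ^ p = 1 ∧ ∀ y ∈ Q, y * x = x * y}
  one_mem' := ⟨Q.one_mem, one_pow _, fun y _ => by rw [mul_one, one_mul]⟩
  mul_mem' := by
    rintro a b ⟨ha, ha1, ha2⟩ ⟨hb, hb1, hb2⟩
    refine ⟨Q.mul_mem ha hb, ?_, fun y hy => ?_⟩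
    · have h : Commute a b := hb2 a ha
      rw [h.mul_pow, ha1, hb1, one_mul]
    · exact ((show Commute y a from ha2 y hy).mul_right (show Commute y b from hb2 y hy)).eq
  inv_mem' := by
    rintro a ⟨ha, ha1, ha2⟩
    refine ⟨Q.inv_mem ha, by rw [inv_pow, ha1, inv_one], fun y hy => ?_⟩
    exact ((show Commute y a from ha2 y hy).inv_right).eq

theorem omegaZ_normalizer {Q : Subgroup H} (hQn : Q.Normal) (s : H) : s ∈ normalizer (omegaZ p Q : Set H) := by
  apply mem_normalizer_of_conj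
  rintro x ⟨hx, hx1, hx2⟩
  refine ⟨hQn.conj_mem x hx s, ?_, fun y hy => ?_⟩
  · rw [conj_pow, hx1, mul_one, mul_inv_cancel]
  · have h1 : s⁻¹ * y * s ∈ Q := by
      have := hQn.conj_mem y hy s⁻¹
      rwa [inv_inv] at this
    have h2 := hx2 _ h1
    calc y * (s * x * s⁻¹) = s * ((s⁻¹ * y * s) * x) * s⁻¹ := by group
      _ = s * (x * (s⁻¹ * y * s)) * s⁻¹ := by rw [h2]
      _ = s * x * s⁻¹ * y := by group

theorem omegaZ_ne_bot {Q : Subgroup H} (hp : p.Prime) (hQp : IsPGroup p Q) (hQ : Q ≠ ⊥) : omegaZ p Q ≠ ⊥ := by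
  have hpf : Fact p.Prime := ⟨hp⟩
  obtain ⟨z, hz, hz1, hzp, hzW⟩ := Rank.exists_central (N := Q) hQp (by rw [subgroupOf_self]; infer_instance)
    (by rw [inf_idem]; exact hQ)
  intro h
  have h1 : z ∈ omegaZ p Q := ⟨hz.1, hzp, hzW⟩
  rw [h, mem_bot] at h1
  exact hz1 h1

theorem P_ne_bot (D : Dat p P S F) : P ≠ ⊥ := by
  obtain ⟨x, hx, hxF⟩ := D.exists_not_mem
  intro h
  rw [h, mem_bot] at hx
  rw [hx] at hxF
  exact hxF F.one_mem

/-- `|F| = 1` -/
theorem mem_of_pow_one (D : Dat p P S F) (hF : Nat.card F = 1) (hr : PRankLE p 2 H) {Q : Subgroup H} (hQn : Q.Normal)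
    (hQp : IsPGroup p Q) (hPQ : P ≤ Q) : ∀ x ∈ Q, x ^ p = 1 → x ∈ P := by
  have hpf : Fact p.Prime := ⟨D.prime⟩
  have hFb : F = ⊥ := card_eq_one.1 hF
  have hPc : Nat.card P = p ^ 2 := by rw [D.card, hF, mul_one]
  have hPe : IsElementaryAbelian p P := by
    refine ⟨⟨⟨fun a b => ?_⟩⟩, D.pow_eq_one⟩
    have h1 := D.comm (commutator_mem_commutator a.2 b.2)
    rw [hFb, mem_bot, commutatorElement_eq_one_iff_mul_comm] at h1
    exact Subtype.ext h1
  have hQ : Q ≠ ⊥ := fun h => P_ne_bot D (by rw [h] at hPQ; exact le_bot_iff.1 hPQ)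
  have h1 : omegaZ p Q ≤ P := by
    intro x hx
    exact RankTwoPrimeAut.mem_of_commute hr P hPe hPc hx.2.1 (fun m hm => hx.2.2 m (hPQ hm))
  have h2 : omegaZ p Q = P := by
    rcases D.irr (omegaZ p Q) (by rw [hFb]; exact bot_le) h1 (fun s _ => omegaZ_normalizer hQn s) with h | h
    · exact absurd (h.trans hFb) (omegaZ_ne_bot D.prime hQp hQ)
    · exact h
  intro x hx hxp
  refine RankTwoPrimeAut.mem_of_commute hr P hPe hPc hxp (fun m hm => ?_)
  rw [← h2] at hm
  exact (hm.2.2 x hx).symm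

/-- `|F| = p` -/
theorem mem_of_pow_prime (D : Dat p P S F) (hF : Nat.card F = p) (hr : PRankLE p 2 H) {Q : Subgroup H}
    (hQn : Q.Normal) (hQp : IsPGroup p Q) (hPQ : P ≤ Q) : ∀ x ∈ Q, x ^ p = 1 → x ∈ P := by
  have hpf : Fact p.Prime := ⟨D.prime⟩
  have hPc : Nat.card P = p ^ 3 := by rw [D.card, hF]; ring
  have hQ : Q ≠ ⊥ := fun h => P_ne_bot D (by rw [h] at hPQ; exact le_bot_iff.1 hPQ)
  -- `P` is not abelian
  have hPna : ¬ IsMulCommutative P := by
    intro h
    have h1 := pRankLE_def.mp hr P ⟨h, D.pow_eq_one⟩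
    rw [hPc] at h1
    have := (Nat.pow_le_pow_iff_right D.prime.one_lt).1 h1
    omega
  obtain ⟨a₀, ha₀, ha₀F⟩ := D.exists_not_mem
  have h1 : omegaZ p Q ≤ P := by
    intro x hx
    have h2 := mem_of_commute D hF ha₀ ha₀F hr hx.2.1 (hx.2.2 a₀ (hPQ ha₀)) (fun f hf => hx.2.2 f (hPQ (D.F_le hf)))
    exact (sup_le D.F_le ((zpowers_le).2 ha₀) : F ⊔ zpowers a₀ ≤ P) h2
  have h2 : omegaZ p Q ≤ F := by
    rcases D.irr (omegaZ p Q ⊔ F) le_sup_right (sup_le h1 D.F_le)
      (fun s hs => mem_normalizer_sup (omegaZ_normalizer hQn s) (D.F_norm hs)) with h | h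
    · rw [← h]
      exact le_sup_left
    · exfalso
      apply hPna
      have h3 := D.ngen _ h1 h
      refine ⟨⟨fun a b => Subtype.ext ?_⟩⟩
      have hb : (b : H) ∈ omegaZ p Q := by rw [h3]; exact b.2
      exact hb.2.2 a (hPQ a.2)
  have hFZ : omegaZ p Q = F := by
    apply eq_of_le_of_card_ge h2
    have h3 : IsPGroup p (omegaZ p Q) := hQp.to_le (fun x hx => hx.1)
    have : Nontrivial (omegaZ p Q) := (nontrivial_iff_ne_bot _).2 (omegaZ_ne_bot D.prime hQp hQ)
    obtain ⟨k, hk0, hk⟩ := h3.nontrivial_iff_card.1 this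
    rw [hF, hk]
    exact Nat.le_self_pow hk0.ne' p
  have hFQ : ∀ f ∈ F, ∀ y ∈ Q, y * f = f * y := by
    intro f hf
    rw [← hFZ] at hf
    exact hf.2.2
  -- the normaliser of `P` in `Q`
  set N : Subgroup H := Q ⊓ normalizer (P : Set H) with hN
  have hNQ : N ≤ Q := inf_le_left
  have hNp : IsPGroup p N := hQp.to_le hNQ
  have hPN : P ≤ N := le_inf hPQ le_normalizer
  have hNS : ∀ s ∈ S, s ∈ normalizer (N : Set H) := by
    intro s hs
    apply mem_normalizer_of_conj
    intro y hy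
    refine ⟨hQn.conj_mem y hy.1 s, ?_⟩
    exact (normalizer (P : Set H)).mul_mem ((normalizer (P : Set H)).mul_mem (D.S_le hs) hy.2)
      ((normalizer (P : Set H)).inv_mem (D.S_le hs))
  -- `[N, P] ≤ F`
  let Y : Subgroup H :=
    { carrier := {y | y ∈ P ∧ ∀ n ∈ N, n * y * n⁻¹ * y⁻¹ ∈ F}
      one_mem' := ⟨P.one_mem, fun n _ => by simp⟩
      mul_mem' := by
        rintro a b ⟨ha, ha2⟩ ⟨hb, hb2⟩
        refine ⟨P.mul_mem ha hb, fun n hn => ?_⟩
        have h3 : n * (a * b) * n⁻¹ * (a * b)⁻¹ = (n * a * n⁻¹ * a⁻¹) * (a * (n * b * n⁻¹ * b⁻¹) * a⁻¹) := by group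
        rw [h3, hFQ _ (hb2 n hn) a (hPQ ha), mul_inv_cancel_right]
        exact F.mul_mem (ha2 n hn) (hb2 n hn)
      inv_mem' := by
        rintro a ⟨ha, ha2⟩
        refine ⟨P.inv_mem ha, fun n hn => ?_⟩
        have h3 : n * a⁻¹ * n⁻¹ * a⁻¹⁻¹ = a⁻¹ * (n * a * n⁻¹ * a⁻¹)⁻¹ * a := by group
        rw [h3, hFQ _ (F.inv_mem (ha2 n hn)) a⁻¹ (hPQ (P.inv_mem ha)), inv_mul_cancel_right]
        exact F.inv_mem (ha2 n hn) }
  have hYP : Y = P := by
    have h3 : F ≤ Y := by
      intro f hf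
      refine ⟨D.F_le hf, fun n hn => ?_⟩
      rw [hFQ f hf n (hNQ hn), mul_inv_cancel_right, mul_inv_cancel]
      exact F.one_mem
    rcases D.irr Y h3 (fun y hy => hy.1) (fun s hs => by
      apply mem_normalizer_of_conj
      rintro y ⟨hy, hy2⟩
      refine ⟨(mem_normalizer_iff.1 (D.S_le hs) y).1 hy, fun n hn => ?_⟩
      have h4 : s⁻¹ * n * s ∈ N := by
        have := (mem_normalizer_iff.1 (inv_mem (hNS s hs)) n).1 hn
        rwa [inv_inv] at this
      have h5 := (mem_normalizer_iff.1 (D.F_norm hs) _).1 (hy2 _ h4)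
      have h6 : n * (s * y * s⁻¹) * n⁻¹ * (s * y * s⁻¹)⁻¹ =
          s * (s⁻¹ * n * s * y * (s⁻¹ * n * s)⁻¹ * y⁻¹) * s⁻¹ := by group
      rw [h6]
      exact h5) with h4 | h4
    · exfalso
      -- fixed points
      have hFN : (F.subgroupOf N).Normal := by
        constructor
        intro f hf n
        have h5 := hFQ f hf n (hNQ n.2)
        have h6 : ((n * f * n⁻¹ : N) : H) = f := by
          change (n : H) * f * (n : H)⁻¹ = f
          rw [h5, mul_inv_cancel_right]
        change ((n * f * n⁻¹ : N) : H) ∈ F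
        rw [h6]
        exact hf
      have hPNn : (P.subgroupOf N).Normal := (normal_subgroupOf_iff_le_normalizer hPN).2 inf_le_right
      set π := QuotientGroup.mk' (F.subgroupOf N) with hπ
      have : Group.IsNilpotent (↥N ⧸ F.subgroupOf N) := (hNp.to_quotient _).isNilpotent
      have h5 : ((P.subgroupOf N).map π).Normal := hPNn.map π (QuotientGroup.mk'_surjective _)
      have h6 : (P.subgroupOf N).map π ≠ ⊥ := by
        intro h
        rw [Subgroup.map_eq_bot_iff, hπ, QuotientGroup.ker_mk'] at h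
        exact ha₀F (h (show (⟨a₀, hPN ha₀⟩ : N) ∈ P.subgroupOf N from ha₀))
      have h7 := Lib.NormalAbelian.normal_inf_center_ne_bot _ h6
      have hnt : Nontrivial ↥((P.subgroupOf N).map π ⊓ center (↥N ⧸ F.subgroupOf N)) := (nontrivial_iff_ne_bot _).2 h7
      obtain ⟨w, hw1⟩ := exists_ne (1 : ↥((P.subgroupOf N).map π ⊓ center (↥N ⧸ F.subgroupOf N)))
      obtain ⟨⟨y, hyP, hyw⟩, hyc⟩ := w.2
      rw [← hyw] at hyc
      have h8 : (y : H) ∉ F := by
        intro h
        apply hw1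
        apply Subtype.ext
        rw [← hyw]
        exact (QuotientGroup.eq_one_iff y).2 h
      apply h8
      rw [← h4]
      refine ⟨hyP, fun n hn => ?_⟩
      have h9 := (mem_center_iff.1 hyc) (π ⟨n, hn⟩)
      have h10 : π (⟨n, hn⟩ * y * ⟨n, hn⟩⁻¹ * y⁻¹) = 1 := by
        rw [map_mul, map_mul, map_mul, h9, map_inv, map_inv, mul_inv_cancel_right, mul_inv_cancel]
      have h11 : (⟨n, hn⟩ * y * ⟨n, hn⟩⁻¹ * y⁻¹ : N) ∈ F.subgroupOf N := (QuotientGroup.eq_one_iff _).1 h10
      exact h11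
    · exact h4
  have hNPF : ∀ n ∈ N, ∀ y ∈ P, n * y * n⁻¹ * y⁻¹ ∈ F := by
    intro n hn y hy
    rw [← hYP] at hy
    exact hy.2 n hn
  -- generators
  have hab : ∃ a ∈ P, ∃ b ∈ P, a * b ≠ b * a := by
    by_contra hcon
    push Not at hcon
    exact hPna ⟨⟨fun a b => Subtype.ext (hcon a a.2 b b.2)⟩⟩
  obtain ⟨a, ha, b, hb, hne⟩ := hab
  have haF : a ∉ F := fun h => hne (D.F_central h hb)
  set c : H := a * b * a⁻¹ * b⁻¹ with hc
  have hcF : c ∈ F := D.comm (commutator_mem_commutator ha hb)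
  have hc1 : c ≠ 1 := by
    intro h
    apply hne
    rw [hc, mul_inv_eq_one, mul_inv_eq_iff_eq_mul] at h
    exact h
  have hFc : F = zpowers c := by
    symm
    apply eq_of_le_of_card_ge ((zpowers_le).2 hcF)
    rw [hF, Nat.card_zpowers, orderOf_eq_prime (D.F_pow hcF) hc1]
  -- `F⟨a⟩` and `b` generate
  have hcent : ∀ x ∈ Q, a * x = x * a → b * x = x * b → x ∈ centralizer (P : Set H) := by
    intro x hx hxa hxb
    set P₂ : Subgroup H := P ⊓ centralizer ({x} : Set H) with hP₂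
    have h3 : F ⊔ zpowers a ≤ P₂ := by
      refine sup_le ?_ ?_
      · intro f hf
        refine ⟨D.F_le hf, mem_centralizer_singleton_iff.2 (hFQ f hf x hx).symm⟩
      · rw [zpowers_le]
        exact ⟨ha, mem_centralizer_singleton_iff.2 hxa⟩
    have h4 : b ∈ P₂ := ⟨hb, mem_centralizer_singleton_iff.2 hxb⟩
    have h5 : b ∉ F ⊔ zpowers a := by
      intro h
      have h6 := (elemAb_of D ha).1.is_comm.comm ⟨b, h⟩ ⟨a, mem_sup_right (mem_zpowers a)⟩
      exact hne (congrArg Subtype.val h6).symm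
    have h6 : F ⊔ zpowers a < P₂ := by
      refine lt_of_le_of_ne h3 fun h => h5 ?_
      rw [h]
      exact h4
    have h7 : p ^ 2 < Nat.card P₂ := by
      rw [← card_of D hF ha haF hr]
      exact lt_of_le_of_ne (card_le_of_le h6.le) fun h => h6.ne (eq_of_le_of_card_ge h6.le h.ge)
    have h8 : P₂ = P := by
      apply eq_of_le_of_card_ge inf_le_left
      have h9 : Nat.card P₂ ∣ p ^ 3 := by
        rw [← hPc]
        exact card_dvd_of_le inf_le_left
      obtain ⟨k, hk3, hk⟩ := (Nat.dvd_prime_pow D.prime).1 h9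
      rw [hk] at h7
      have h10 := (Nat.pow_lt_pow_iff_right D.prime.one_lt).1 h7
      have h11 : k = 3 := by omega
      rw [hPc, hk, h11]
    rw [mem_centralizer_iff]
    intro y hy
    have h9 : y ∈ P₂ := by rw [h8]; exact hy
    exact mem_centralizer_singleton_iff.1 h9.2
  -- `N = P C_Q(P)`
  have hNPC : ∀ n ∈ N, ∃ h ∈ P, ∃ e ∈ Q, e ∈ centralizer (P : Set H) ∧ n = h * e := by
    intro n hn
    have hn1 := hNPF n hn a ha
    have hn2 := hNPF n hn b hb
    rw [hFc] at hn1 hn2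
    obtain ⟨i, hi⟩ := mem_zpowers_iff.1 hn1
    obtain ⟨j, hj⟩ := mem_zpowers_iff.1 hn2
    have hca : Commute c a := D.F_central hcF ha
    have hcb : Commute c b := D.F_central hcF hb
    have hba : b * a * b⁻¹ = c⁻¹ * a := by rw [hc]; group
    set t : H := b ^ (-i) with ht
    set u : H := a ^ j with hu
    have htP : t ∈ P := P.zpow_mem hb _
    have huP : u ∈ P := P.zpow_mem ha _
    have h3 : u * b * u⁻¹ = c ^ j * b := conj_zpow (by rw [hc]; group) hca j
    have h4 : t * a * t⁻¹ = c ^ i * a := by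
      rw [ht, conj_zpow hba hcb.inv_left (-i), zpow_neg, inv_zpow, inv_inv]
    have h5 : u * a * u⁻¹ = a := by
      rw [((Commute.refl a).zpow_left j).eq, mul_inv_cancel_right]
    have h6 : t * b * t⁻¹ = b := by
      rw [((Commute.refl b).zpow_left (-i)).eq, mul_inv_cancel_right]
    have hcu : ∀ k : ℤ, u * c ^ k * u⁻¹ = c ^ k := by
      intro k
      rw [((hca.symm.zpow_left j).zpow_right k).eq, mul_inv_cancel_right]
    -- `h = u t`
    have h7 : (u * t) * a * (u * t)⁻¹ = n * a * n⁻¹ := by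
      calc (u * t) * a * (u * t)⁻¹ = u * (t * a * t⁻¹) * u⁻¹ := by group
        _ = (u * c ^ i * u⁻¹) * (u * a * u⁻¹) := by rw [h4]; group
        _ = c ^ i * a := by rw [hcu, h5]
        _ = n * a * n⁻¹ := by rw [hi]; group
    have h8 : (u * t) * b * (u * t)⁻¹ = n * b * n⁻¹ := by
      calc (u * t) * b * (u * t)⁻¹ = u * (t * b * t⁻¹) * u⁻¹ := by group
        _ = c ^ j * b := by rw [h6, h3]
        _ = n * b * n⁻¹ := by rw [hj]; group
    refine ⟨u * t, P.mul_mem huP htP, (u * t)⁻¹ * n, Q.mul_mem (Q.inv_mem (hPQ (P.mul_mem huP htP))) (hNQ hn), ?_,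
      by group⟩
    apply hcent _ (Q.mul_mem (Q.inv_mem (hPQ (P.mul_mem huP htP))) (hNQ hn))
    · have : (u * t)⁻¹ * n * a = (u * t)⁻¹ * (n * a * n⁻¹) * n := by group
      rw [this, ← h7]
      group
    · have : (u * t)⁻¹ * n * b = (u * t)⁻¹ * (n * b * n⁻¹) * n := by group
      rw [this, ← h8]
      group
  -- elements of order `p` of `N` lie in `P`
  have hNP : ∀ x ∈ N, x ^ p = 1 → x ∈ P := by
    intro x hx hxp
    obtain ⟨h, hhP, e, heQ, heC, rfl⟩ := hNPC x hx
    have h3 : Commute h e := (mem_centralizer_iff.1 heC) h hhP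
    rw [h3.mul_pow, D.pow_eq_one h hhP, one_mul] at hxp
    have h4 : e ∈ F ⊔ zpowers a := by
      refine mem_of_commute D hF ha haF hr hxp ((mem_centralizer_iff.1 heC) a ha) (fun f hf => ?_)
      exact (mem_centralizer_iff.1 heC) f (D.F_le hf)
    exact P.mul_mem hhP ((sup_le D.F_le ((zpowers_le).2 ha) : F ⊔ zpowers a ≤ P) h4)
  -- `N = Q`
  have hNeq : N = Q := by
    have hnil : Group.IsNilpotent Q := hQp.isNilpotent
    have hnc := Group.normalizerCondition_of_isNilpotent (G := Q)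
    by_contra hne2
    have h3 : N.subgroupOf Q < ⊤ := by
      rw [lt_top_iff_ne_top]
      intro h
      rw [subgroupOf_eq_top] at h
      exact hne2 (le_antisymm hNQ h)
    obtain ⟨x, hx1, hx2⟩ := SetLike.exists_of_lt (hnc _ h3)
    apply hx2
    refine ⟨x.2, ?_⟩
    apply mem_normalizer_of_conj
    intro y hy
    have h4 : (⟨y, hPQ hy⟩ : Q) ∈ N.subgroupOf Q := hPN hy
    have h5 := (mem_normalizer_iff.1 hx1 _).1 h4
    refine hNP _ h5 ?_
    change ((x : H) * y * (x : H)⁻¹) ^ p = 1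
    rw [conj_pow, D.pow_eq_one y hy, mul_one, mul_inv_cancel]
  intro x hx hxp
  rw [← hNeq] at hx
  exact hNP x hx hxp

/-- **(III')** `P = {x ∈ Q : x ^ p = 1}`. -/
theorem mem_of_pow (D : Dat p P S F) (hr : PRankLE p 2 H) {Q : Subgroup H} (hQn : Q.Normal)
    (hQp : IsPGroup p Q) (hPQ : P ≤ Q) : ∀ x ∈ Q, x ^ p = 1 → x ∈ P := by
  rcases (Nat.dvd_prime D.prime).1 D.F_card with hF | hF
  · exact mem_of_pow_one D hF hr hQn hQp hPQ
  · exact mem_of_pow_prime D hF hr hQn hQp hPQ

/-- `P` is normal in `H`. -/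
theorem normal (D : Dat p P S F) (hr : PRankLE p 2 H) (hPQ : P ≤ pCore p H) : P.Normal := by
  have hQn : (pCore p H).Normal := Lib.Cores.pCore_normal p
  have hQp : IsPGroup p (pCore p H) := Lib.Cores.pCore_isPGroup p
  constructor
  intro x hx g
  refine mem_of_pow D hr hQn hQp hPQ _ (hQn.conj_mem x (hPQ hx) g) ?_
  rw [conj_pow, D.pow_eq_one x hx, mul_one, mul_inv_cancel]

end Cfsg.Agent.QTSolv.PCore
end

-- part: QTSolv/Abs
section
/-!
# `P` is normal in `H` when `O_2(H) = 1`
-/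

set_option autoImplicit false

open scoped commutatorElement Pointwise

namespace Cfsg.Agent.QTSolv.Abs

open Subgroup Cfsg
open Cfsg.Agent.QTComp
open Cfsg.Agent.QTSolv.Data

universe u

variable {H : Type u} [Group H]

/-- components are `𝒞`-components -/
theorem calC_of_component {K : Subgroup H} (hK : IsComponent K) : K ∈ calC H := by
  refine ⟨SignalizersComponents.Components.component_ne_bot hK,
    SignalizersComponents.Components.component_commutator_self hK, hK.1, ?_⟩
  rintro K' hlt ⟨h1, h2, h3⟩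
  have h4 : (K'.subgroupOf K).IsSubnormal := h3.subgroupOf
  rcases SignalizersComponents.Components.quasisimple_subnormal hK.2 h4 with h5 | h5
  · rw [subgroupOf_eq_top] at h5
    exact absurd h5 (not_le_of_gt hlt)
  · apply h1
    rw [← h2, commutator_eq_bot_iff_le_centralizer]
    intro x hx
    rw [mem_centralizer_iff]
    intro y hy
    have h6 : (⟨x, hlt.le hx⟩ : K) ∈ center K := h5 hx
    exact congrArg Subtype.val ((mem_center_iff.1 h6) ⟨y, hlt.le hy⟩)

/-- **Theorem B.** `O_2(H) = 1`, `m_r(H) ≤ 2` for odd `r`; if `P` lies in the normal closure of no component, then `P`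
is normal in `H`. -/
theorem normal_of (hFT : Quat.FT.{0}) [Finite H] (hr : ∀ p : ℕ, p.Prime → p ≠ 2 → PRankLE p 2 H)
    (h2 : pCore 2 H = ⊥) {p : ℕ} {P S F : Subgroup H} (D : Dat p P S F)
    (hcl : ∀ K : Subgroup H, IsComponent K → ¬ P ≤ normalClosure (K : Set H)) : P.Normal := by
  refine PCore.normal D (hr p D.prime D.odd) (Fit.le_pCore hr h2 D fun K hK => ?_)
  exact (Comp.centralizer_or_le hFT hr h2 (calC_of_component hK) D).resolve_right (hcl K hK)

/-- the normal closure of a component lies in `K T` -/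
theorem normalClosure_le (hFT : Quat.FT.{0}) [Finite H] (hr : ∀ p : ℕ, p.Prime → p ≠ 2 → PRankLE p 2 H)
    {K : Subgroup H} (hK : K ∈ calC H) (T : Sylow 2 H) : normalClosure (K : Set H) ≤ K ⊔ (T : Subgroup H) := by
  have h2f : Fact (Nat.Prime 2) := ⟨Nat.prime_two⟩
  by_cases hn : K.Normal
  · rw [normalClosure_eq_self K]
    exact le_sup_left
  · have h3 := (Three.three hFT hr hK hn).1
    set N : Subgroup H := normalizer (K : Set H) with hN
    have hTN : ¬ (T : Subgroup H) ≤ N := by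
      intro h
      apply T.not_dvd_index
      have h4 := index_dvd_of_le h
      rwa [h3] at h4
    obtain ⟨t, ht, htN⟩ := SetLike.not_le_iff_exists.1 hTN
    rw [normalClosure, closure_le]
    intro y hy
    rw [Group.mem_conjugatesOfSet_iff] at hy
    obtain ⟨x, hx, hxy⟩ := hy
    obtain ⟨g, hg⟩ := isConj_iff.1 hxy
    by_cases hgN : g ∈ N
    · apply mem_sup_left
      rw [← hg]
      exact (mem_normalizer_iff.1 hgN x).1 hx
    · -- `g = t n`
      have h4 : t⁻¹ * g ∈ N := by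
        rw [mul_mem_iff_of_index_two h3]
        exact iff_of_false (fun h => htN (by have := N.inv_mem h; rwa [inv_inv] at this)) hgN
      have h5 := (mem_normalizer_iff.1 h4 x).1 hx
      have h6 : y = t * (t⁻¹ * g * x * (t⁻¹ * g)⁻¹) * t⁻¹ := by rw [← hg]; group
      rw [h6]
      exact mul_mem (mul_mem (mem_sup_right ht) (mem_sup_left h5)) (mem_sup_right ((T : Subgroup H).inv_mem ht))

end Cfsg.Agent.QTSolv.Abs
end

-- part: QTSolv/Main
section
/-!
# S1822: solvable uniqueness groups, from the odd order theorem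
-/

set_option autoImplicit false

open scoped commutatorElement Pointwise

namespace Cfsg.Agent.QTSolv.Main

open Subgroup Cfsg
open Cfsg.Agent.QTComp
open Cfsg.Agent.QTUniq.Local
open Cfsg.Agent.QTSolv.Data

universe u

variable {G : Type u} [Group G] [Finite G]

/-- elements of odd order of `V = R P` are conjugate in `V` to elements of `P` -/
theorem exists_conj_mem {p : ℕ} (hp : p.Prime) (hp2 : p ≠ 2) {V P R : Subgroup G} (hPV : P ≤ V) (hRV : R ≤ V)
    (hVR : V ≤ normalizer (R : Set G)) (hV : V ≤ R ⊔ P) (hR : IsPGroup 2 R) (hP : IsPGroup p P) {v : G}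
    (hv : v ∈ V) (ho : Odd (orderOf v)) : ∃ w ∈ V, w * v * w⁻¹ ∈ P := by
  have hpf : Fact p.Prime := ⟨hp⟩
  have h2f : Fact (Nat.Prime 2) := ⟨Nat.prime_two⟩
  have hPR : P ≤ normalizer (R : Set G) := hPV.trans hVR
  have hdec : ∀ x ∈ V, ∃ r ∈ R, ∃ y ∈ P, x = r * y := by
    intro x hx
    have h1 := hV hx
    rw [← SetLike.mem_coe, coe_mul_of_right_le_normalizer_left R P hPR] at h1
    obtain ⟨r, hr, y, hy, hry⟩ := h1
    exact ⟨r, hr, y, hy, hry.symm⟩
  -- the Sylow subgroup
  obtain ⟨W, hW⟩ := (hP.comap_of_injective V.subtype V.subtype_injective).exists_le_sylow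
  have hWP : ∀ w ∈ (W : Subgroup V), (w : G) ∈ P := by
    intro w hw
    obtain ⟨r, hr, y, hy, hry⟩ := hdec w w.2
    have h1 : (⟨r, hRV hr⟩ : V) ∈ (W : Subgroup V) := by
      have h3 : (⟨r, hRV hr⟩ : V) = w * (⟨y, hPV hy⟩ : V)⁻¹ := by
        apply Subtype.ext
        change r = (w : G) * y⁻¹
        rw [hry]; group
      rw [h3]
      exact (W : Subgroup V).mul_mem hw ((W : Subgroup V).inv_mem (hW hy))
    have h3 : Disjoint (W : Subgroup V) (R.subgroupOf V) :=
      IsPGroup.disjoint_of_ne p 2 hp2 _ _ W.isPGroup' (hR.comap_of_injective V.subtype V.subtype_injective)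
    have h4 := (disjoint_def.1 h3) h1 hr
    have h5 : r = 1 := congrArg Subtype.val h4
    rw [hry, h5, one_mul]
    exact hy
  -- `v` is a `p`-element
  have hRn : (R.subgroupOf V).Normal := (normal_subgroupOf_iff_le_normalizer hRV).2 hVR
  obtain ⟨r, hr, y, hy, hry⟩ := hdec v hv
  obtain ⟨k, hk⟩ := hP ⟨y, hy⟩
  have hk' : y ^ p ^ k = 1 := congrArg Subtype.val hk
  have h1 : v ^ p ^ k ∈ R := by
    have h3 : ((⟨v, hv⟩ : V) : ↥V ⧸ R.subgroupOf V) = ((⟨y, hPV hy⟩ : V) : ↥V ⧸ R.subgroupOf V) := by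
      rw [eq_comm, QuotientGroup.eq]
      change y⁻¹ * v ∈ R
      have h4 : y⁻¹ * v = y⁻¹ * r * y⁻¹⁻¹ := by rw [hry]; group
      rw [h4]
      exact (mem_normalizer_iff.1 (inv_mem (hPR hy)) r).1 hr
    have h4 : ((⟨v, hv⟩ : V) : ↥V ⧸ R.subgroupOf V) ^ p ^ k = 1 := by
      rw [h3, ← QuotientGroup.mk_pow, QuotientGroup.eq_one_iff]
      change y ^ p ^ k ∈ R
      rw [hk']
      exact R.one_mem
    rw [← QuotientGroup.mk_pow, QuotientGroup.eq_one_iff] at h4
    exact h4
  have h3 : v ^ p ^ k = 1 := by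
    obtain ⟨j, hj⟩ := hR ⟨_, h1⟩
    have hj' : (v ^ p ^ k) ^ 2 ^ j = 1 := congrArg Subtype.val hj
    have h4 : orderOf (v ^ p ^ k) ∣ 2 ^ j := orderOf_dvd_of_pow_eq_one hj'
    have h5 : orderOf (v ^ p ^ k) ∣ orderOf v := orderOf_pow_dvd _
    have h6 : Nat.Coprime (2 ^ j) (orderOf v) :=
      Nat.Coprime.pow_left j ((Nat.Prime.coprime_iff_not_dvd Nat.prime_two).2 (fun h => by
        have := ho.not_two_dvd_nat
        exact this h))
    have h7 : orderOf (v ^ p ^ k) ∣ 1 := by
      rw [← h6]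
      exact Nat.dvd_gcd h4 h5
    exact orderOf_eq_one_iff.1 (Nat.dvd_one.1 h7)
  have h4 : IsPGroup p (zpowers (⟨v, hv⟩ : V)) := by
    refine IsPGroup.of_card_dvd_pow (n := k) ?_
    rw [Nat.card_zpowers]
    exact orderOf_dvd_of_pow_eq_one (Subtype.ext h3)
  obtain ⟨W', hW'⟩ := h4.exists_le_sylow
  obtain ⟨w, hw⟩ := MulAction.exists_smul_eq V W' W
  refine ⟨w, w.2, ?_⟩
  have h5 : w * (⟨v, hv⟩ : V) * w⁻¹ ∈ (W : Subgroup V) := by
    rw [← hw]
    exact ⟨⟨v, hv⟩, hW' (mem_zpowers _), rfl⟩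
  exact hWP _ h5

/-- `X` is normalised by every overgroup of `X T` with a nontrivial 2-core. -/
theorem le_normalizer (hFT : Quat.FT.{0}) [IsSimpleGroup G] (hG : ¬ IsMulCommutative G) (hQ : IsQuasithin G)
    (hK : IsKProper G) (T : Sylow 2 G) {X : Subgroup G} (hX : X ∈ XiStar (T : Subgroup G)) {M : Subgroup G}
    (hM : M ∈ calH G) (hXM : X ⊔ (T : Subgroup G) ≤ M) : M ≤ normalizer (X : Set G) := by
  have h2f : Fact (Nat.Prime 2) := ⟨Nat.prime_two⟩
  obtain ⟨p, P, S, F, D, hPX, hST, hXOP⟩ := Build.exists_dat hX.1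
  have hp := D.prime
  have hpf : Fact p.Prime := ⟨hp⟩
  have hTX : (T : Subgroup G) ≤ normalizer (X : Set G) := hX.1.2.1
  have hXle : X ≤ M := le_sup_left.trans hXM
  have hTM : (T : Subgroup G) ≤ M := le_sup_right.trans hXM
  have hPM : P ≤ M := hPX.trans hXle
  set R : Subgroup M := pCore 2 ↥M with hR
  have hRn : R.Normal := Lib.Cores.pCore_normal 2
  have hRp : IsPGroup 2 R := Lib.Cores.pCore_isPGroup 2
  set π := QuotientGroup.mk' R with hπ
  have hπs : Function.Surjective π := QuotientGroup.mk'_surjective R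
  obtain ⟨hrM, -⟩ := QTComp.Main.of_calH hG hQ hK hM
  have hr := Two.rank_quot hrM
  have h2 : pCore 2 (↥M ⧸ R) = ⊥ := Lib.Cores.pCore_quotient_pCore 2
  -- the data in `M / R`
  have hmap : ∀ Y : Subgroup G, Y ≤ M → (Y.subgroupOf M).map M.subtype = Y := fun Y hY => by
    rw [subgroupOf_map_subtype, inf_eq_left.2 hY]
  have D₁ : Dat p (P.subgroupOf M) (S.subgroupOf M) (F.subgroupOf M) := by
    refine Build.reflect M.subtype M.subtype_injective ?_
    rw [hmap P hPM, hmap S (hST.trans hTM), hmap F (D.F_le.trans hPM)]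
    exact D
  have D₂ : Dat p ((P.subgroupOf M).map π) ((S.subgroupOf M).map π) ((F.subgroupOf M).map π) := by
    refine Build.map D₁ π ?_
    intro x hx hx1
    have hxR : x ∈ R := (QuotientGroup.eq_one_iff x).1 hx1
    have h3 : Disjoint (P.subgroupOf M) R := IsPGroup.disjoint_of_ne p 2 D.odd _ _ D₁.pgroup hRp
    exact (disjoint_def.1 h3) hx hxR
  let TM : Sylow 2 M := T.subtype hTM
  have hTMc : (TM : Subgroup M) = (T : Subgroup G).subgroupOf M := rfl
  have hRT : R ≤ (TM : Subgroup M) := Lib.Cores.pCore_le_sylow TM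
  -- components
  have hcl : ∀ K : Subgroup (↥M ⧸ R), IsComponent K → ¬ (P.subgroupOf M).map π ≤ normalClosure (K : Set (↥M ⧸ R)) := by
    intro K hK hle
    have hKc := Abs.calC_of_component hK
    -- the Sylow 2-subgroup of the quotient
    obtain ⟨T₂, hT₂⟩ := (TM.isPGroup'.map π).exists_le_sylow
    have hT₂eq : (T₂ : Subgroup (↥M ⧸ R)) = (TM : Subgroup M).map π := by
      apply le_antisymm ?_ hT₂
      -- the preimage of `T₂` is a 2-group
      have h3 : IsPGroup 2 ↥((T₂ : Subgroup (↥M ⧸ R)).comap π) := by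
        apply T₂.isPGroup'.comap_of_ker_isPGroup
        rw [hπ, QuotientGroup.ker_mk']
        exact hRp
      have h4 : (TM : Subgroup M) ≤ (T₂ : Subgroup (↥M ⧸ R)).comap π := by
        rw [← map_le_iff_le_comap]
        exact hT₂
      have h5 := TM.is_maximal' h3 h4
      rw [← h5, map_comap_eq_self_of_surjective hπs]
    have h3 := hle.trans (Abs.normalClosure_le hFT hr hKc T₂)
    rw [hT₂eq] at h3
    -- a `𝒞`-component of `M` above `K`
    have hKs : (K.comap π).IsSubnormal := hK.1.comap π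
    have hKns : ¬ Group.IsSolvable ↥(K.comap π) := by
      intro h
      apply SignalizersComponents.Components.quasisimple_not_isSolvable hK.2
      have h4 : (K.comap π).map π = K := map_comap_eq_self_of_surjective hπs K
      have h5 : Group.IsSolvable ↥((K.comap π).map π) :=
        Group.isSolvable_of_surjective (f := π.subgroupMap (K.comap π)) (π.subgroupMap_surjective _)
      rwa [h4] at h5
    obtain ⟨L, hL, hLK⟩ := Basic.exists_calC_le hKs hKns
    have hLmap : L.map π = K := by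
      have h4 := Two.calC_map (S := R) Two.pCore_solvable hL
      exact Basic.calC_eq_of_le hKc h4.1 h4.2.1 h4.2.2.1 (by rw [map_le_iff_le_comap]; exact hLK)
    obtain ⟨e⟩ := Three.exists_equiv (G := M) hL.2.2.1
    have hLq : IsQuasisimple (↥L ⧸ pCore 2 ↥L) := by
      rw [SignalizersComponents.Components.isQuasisimple_congr e]
      have h4 : L.map (QuotientGroup.mk' (pCore 2 ↥M)) = K := hLmap
      rw [h4]
      exact hK.2
    set L₀ : Subgroup G := L.map M.subtype with hL₀
    have hL₀M : L₀ ≤ M := map_subtype_le L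
    have hL₀s : L₀.subgroupOf M = L := by
      rw [subgroupOf, comap_map_eq_self_of_injective M.subtype_injective]
    have hL₀c : L₀ ∈ calL (T : Subgroup G) :=
      QTUniq.Main.mem_calL T hL₀M hTM hM (by rw [hL₀s]; exact hL)
    have e₀ : ↥L ≃* ↥L₀ := L.equivMapOfInjective M.subtype M.subtype_injective
    have hL₀q : IsQuasisimple (↥L₀ ⧸ pCore 2 ↥L₀) := by
      have e₁ : (↥L ⧸ pCore 2 ↥L) ≃* (↥L₀ ⧸ pCore 2 ↥L₀) :=
        QuotientGroup.congr _ _ e₀ (Lib.Cores.map_equiv_pCore e₀ 2)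
      exact (SignalizersComponents.Components.isQuasisimple_congr e₁).1 hLq
    refine hX.2 L₀ hL₀c hL₀q (sup_le ?_ le_sup_right)
    -- `P ≤ L₀ T`
    have hPL : P ≤ L₀ ⊔ (T : Subgroup G) := by
      intro x hx
      have h4 : π ⟨x, hPM hx⟩ ∈ K ⊔ (TM : Subgroup M).map π := h3 ⟨⟨x, hPM hx⟩, hx, rfl⟩
      rw [← hLmap, ← Subgroup.map_sup] at h4
      obtain ⟨y, hy, hyx⟩ := h4
      have h5 : y⁻¹ * ⟨x, hPM hx⟩ ∈ R := by
        rw [← QuotientGroup.eq]
        exact hyx
      have h6 : (⟨x, hPM hx⟩ : M) ∈ L ⊔ (TM : Subgroup M) := by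
        have h7 : (⟨x, hPM hx⟩ : M) = y * (y⁻¹ * ⟨x, hPM hx⟩) := by group
        rw [h7]
        exact mul_mem hy (mem_sup_right (hRT h5))
      have h8 : x ∈ (L ⊔ (TM : Subgroup M)).map M.subtype := ⟨_, h6, rfl⟩
      rw [Subgroup.map_sup, hTMc, hmap _ hTM] at h8
      exact h8
    exact hXOP.trans (sup_le ((Build.pCore_le hTX).trans le_sup_right) hPL)
  -- `P R` is normal in `M`
  have hn := Abs.normal_of hFT hr h2 D₂ hcl
  set V : Subgroup M := ((P.subgroupOf M).map π).comap π with hV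
  have hVn : V.Normal := inferInstance
  have hVeq : V = R ⊔ P.subgroupOf M := by
    rw [hV, comap_map_eq, hπ, QuotientGroup.ker_mk', sup_comm]
  -- in `G`
  set R₀ : Subgroup G := R.map M.subtype with hR₀
  set V₀ : Subgroup G := V.map M.subtype with hV₀
  have hV₀eq : V₀ = R₀ ⊔ P := by
    rw [hV₀, hVeq, Subgroup.map_sup, hmap P hPM]
  have hMV : ∀ g ∈ M, ∀ x ∈ V₀, g * x * g⁻¹ ∈ V₀ := by
    rintro g hg _ ⟨y, hy, rfl⟩
    exact ⟨(⟨g, hg⟩ * y * ⟨g, hg⟩⁻¹ :), hVn.conj_mem y hy ⟨g, hg⟩, rfl⟩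
  have hMR : M ≤ normalizer (R₀ : Set G) := le_normalizer_map_pCore 2 M
  have hV₀M : V₀ ≤ M := map_subtype_le V
  have hR₀p : IsPGroup 2 R₀ := hRp.map _
  have hR₀T : R₀ ≤ (T : Subgroup G) := by
    rintro _ ⟨y, hy, rfl⟩
    exact hRT hy
  have hPV : P ≤ V₀ := by rw [hV₀eq]; exact le_sup_right
  -- odd elements of `V₀` lie in `X`
  have hodd1 : ∀ v ∈ V₀, Odd (orderOf v) → v ∈ X := by
    intro v hv ho
    obtain ⟨w, hw, hwv⟩ := exists_conj_mem hp D.odd hPV (by rw [hV₀eq]; exact le_sup_left : R₀ ≤ V₀)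
      (hV₀M.trans hMR) hV₀eq.le hR₀p D.pgroup hv ho
    have h3 : w ∈ normalizer (X : Set G) := by
      have h4 : V₀ ≤ normalizer (X : Set G) := by
        rw [hV₀eq]
        exact sup_le (hR₀T.trans hTX) (hPX.trans Subgroup.le_normalizer)
      exact h4 hw
    exact (mem_normalizer_iff.1 h3 v).2 (hPX hwv)
  -- odd elements of `X` lie in `V₀`
  have hodd2 : ∀ v ∈ X, Odd (orderOf v) → v ∈ V₀ := by
    intro v hv ho
    obtain ⟨w, hw, hwv⟩ := exists_conj_mem hp D.odd hPX (map_subtype_le _ : (pCore 2 ↥X).map X.subtype ≤ X)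
      (le_normalizer_map_pCore 2 X) hXOP ((Lib.Cores.pCore_isPGroup 2).map _) D.pgroup hv ho
    have h3 := hMV w⁻¹ (M.inv_mem (hXle hw)) _ (hPV hwv)
    have h4 : w⁻¹ * (w * v * w⁻¹) * w⁻¹⁻¹ = v := by group
    rwa [h4] at h3
  intro g hg
  apply mem_normalizer_of_conj
  have hXgen : oddGenerated X = X := hX.1.1
  have h3 : X ≤ X.comap (MulAut.conj g).toMonoidHom := by
    conv_lhs => rw [← hXgen]
    rw [oddGenerated, closure_le]
    rintro v ⟨hv, ho⟩
    change g * v * g⁻¹ ∈ X
    apply hodd1 _ (hMV g hg v (hodd2 v hv ho))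
    have h4 : orderOf (g * v * g⁻¹) = orderOf v := by
      have := orderOf_injective (MulAut.conj g).toMonoidHom (MulAut.conj g).injective v
      exact this
    rw [h4]
    exact ho
  intro y hy
  exact h3 hy

/-- **S1822** from the odd order theorem. -/
theorem main (hFT : Quat.FT.{0}) [IsSimpleGroup G] (hG : ¬ IsMulCommutative G) (hQ : IsQTKE G) (T : Sylow 2 G)
    (X : Subgroup G) (hX : X ∈ XiStar (T : Subgroup G)) :
    maxTwoLocalsContaining (X ⊔ (T : Subgroup G)) = {normalizer (X : Set G)} := by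
  have h2f : Fact (Nat.Prime 2) := ⟨Nat.prime_two⟩
  have hXT : pCore 2 ↥(X ⊔ (T : Subgroup G)) ≠ ⊥ := hX.1.2.2.1
  have hinv : ∀ M ∈ maxTwoLocalsContaining (X ⊔ (T : Subgroup G)), M ≤ normalizer (X : Set G) := fun M hM =>
    le_normalizer hFT hG hQ.1 hQ.2.1 T hX (pCore_ne_bot_of_twoLocal hM.1.1) hM.2
  refine maxTwoLocals_eq hXT ?_ hinv
  -- `O_2(X) ≠ 1`
  obtain ⟨M, hM⟩ := exists_maxTwoLocal hXT
  have hXM : X ≤ M := le_sup_left.trans hM.2
  have hTM : (T : Subgroup G) ≤ M := le_sup_right.trans hM.2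
  have hMX := hinv M hM
  have h1 := charTwo_of_over hQ.2.2 T hTM (pCore_ne_bot_of_twoLocal hM.1.1)
  have hn : (X.subgroupOf M).Normal := (normal_subgroupOf_iff_le_normalizer hXM).2 hMX
  have h2 := genFitting_of_subnormal h1 hn.isSubnormal
  let e : ↥(X.subgroupOf M) ≃* ↥X := subgroupOfEquivOfLe hXM
  have h3 : generalizedFittingSubgroup ↥X = pCore 2 ↥X := by
    rw [← Lib.GenFitting.map_genFitting e, h2]
    exact Lib.Cores.map_equiv_pCore e 2
  have hXnt : Nontrivial X := by
    obtain ⟨p, P, S, F, D, hPX, -, -⟩ := Build.exists_dat hX.1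
    obtain ⟨x, hx, hxF⟩ := D.exists_not_mem
    refine ⟨⟨x, hPX hx⟩, 1, fun h => hxF ?_⟩
    have h4 : x = 1 := congrArg Subtype.val h
    rw [h4]
    exact F.one_mem
  exact QTUniq.Main.pCore_ne_bot_of_genFitting h3

end Cfsg.Agent.QTSolv.Main
end

-- part: S1822
section
set_option autoImplicit false
open Cfsg

namespace Cfsg.Agent.S1822

/-- Solvable uniqueness groups in a simple QTKE-group. Let G be a non-abelian finite simple QTKE-group, T a Sylow 2-subgroup of G, and X a member of Ξ*(G, T): X = O²(X) is T-invariant with O₂(XT) ≠ 1, X/O₂(X) is elementary abelian of order p² or extraspecial of order p³ for an odd prime p, T is irreducible on the Frattini quotient of X/O₂(X), and XT lies in no ⟨L, T⟩ with L ∈ ℒ(G, T) and L/O₂(L) quasisimple. Then N_G(X) is the unique maximal 2-local subgroup of G containing XT, so that XT is a uniqueness subgroup. -/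
theorem result {G : Type*} [Group G] [Finite G] [IsSimpleGroup G]
    (hG : ¬ IsMulCommutative G) (hQ : Cfsg.IsQTKE G) (T : Sylow 2 G) (X : Subgroup G)
    (hX : X ∈ Cfsg.XiStar (T : Subgroup G)) :
    Cfsg.maxTwoLocalsContaining (X ⊔ (T : Subgroup G)) = {Subgroup.normalizer (X : Set G)} :=
  Cfsg.Agent.QTSolv.Main.main (fun _ _ _ h => Cfsg.Agent.S0205.result h) hG hQ T X hX

end Cfsg.Agent.S1822
end

private theorem dce_813b0fdd0f78 : _root_.True := by
  try have : _root_.True := by simp only [_root_.Cfsg.oddGenerated.eq_1]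
  try have : _root_.True := by simp only [_root_.Cfsg.layer.eq_1]
  exact _root_.True.intro
end
end
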