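import Cfsg.Agent.QTUniq.Local
import Cfsg.Statements.S1850
set_option linter.all false

-- part: H7/CharTwoUp
section
/-!
# Characteristic `p` of normalizers, going up a subnormal chain of `p`-subgroups

`charP_normalizer_of_le`: if `V ≤ U` are `p`-subgroups and `N_G(V)` has characteristic `p`, then so has `N_G(U)`.
-/

set_option autoImplicit false

namespace Cfsg.Agent.H7.CharTwoUp

open Subgroup Cfsg Cfsg.Agent.Lib.Cores

variable {G : Type*} [Group G] [Finite G]

/-- `N_G(V)` has characteristic `p`. -/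
def CharN (p : ℕ) (V : Subgroup G) : Prop :=
  centralizer (pCore p ↥(normalizer (V : Set G)) : Set ↥(normalizer (V : Set G))) ≤
    pCore p ↥(normalizer (V : Set G))

theorem step {p : ℕ} [hp : Fact p.Prime] {V U : Subgroup G} (hVU : V ≤ U) (hU : IsPGroup p U)
    (hn : U ≤ normalizer (V : Set G)) (hV : CharN p V) : CharN p U := by
  set N : Subgroup G := normalizer (V : Set G) with hN
  refine Cfsg.Agent.SignalizersComponents.CharP.charP_normalizer (p := p)
    (R := (pCore p ↥N).map N.subtype) (X := N) (T := U) ((pCore_isPGroup p).map _) ?_ ?_ hU hn ?_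
  · exact Cfsg.Agent.QTUniq.Local.le_normalizer_map_pCore p N
  · rintro x ⟨hxN, hx⟩
    have h1 : (⟨x, hxN⟩ : ↥N) ∈ centralizer (pCore p ↥N : Set ↥N) := by
      rw [mem_centralizer_iff]
      rintro y hy
      apply Subtype.ext
      exact (mem_centralizer_iff.1 hx) _ ⟨y, hy, rfl⟩
    exact ⟨_, hV h1, rfl⟩
  · exact (centralizer_le (show (V : Set G) ⊆ U from hVU)).trans (centralizer_le_normalizer _)

/-- If `V ≤ U` are `p`-subgroups and `N_G(V)` has characteristic `p`, then so has `N_G(U)`. -/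
theorem charP_normalizer_of_le {p : ℕ} [hp : Fact p.Prime] {V U : Subgroup G} (hVU : V ≤ U)
    (hU : IsPGroup p U) (hV : CharN p V) : CharN p U := by
  classical
  have hfin : Set.Finite {W : Subgroup G | V ≤ W ∧ W ≤ U ∧ CharN p W} := Set.toFinite _
  obtain ⟨W, hW⟩ := hfin.exists_maximal ⟨V, le_rfl, hVU, hV⟩
  obtain ⟨hVW, hWU, hWc⟩ := hW.prop
  by_cases h : W = U
  · exact h ▸ hWc
  exfalso
  have hlt : W < U := lt_of_le_of_ne hWU h
  have hnil : Group.IsNilpotent ↥U := hU.isNilpotent
  have hlt' : W.subgroupOf U < ⊤ := by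
    rw [lt_top_iff_ne_top, Ne, subgroupOf_eq_top]
    exact fun h1 => h (le_antisymm hWU h1)
  have h1 := Group.normalizerCondition_of_isNilpotent (G := ↥U) (W.subgroupOf U) hlt'
  set W' : Subgroup G := (normalizer ((W.subgroupOf U : Subgroup ↥U) : Set ↥U)).map U.subtype with hW'
  have h2 : W < W' := by
    have h3 : (W.subgroupOf U).map U.subtype < W' := by
      rw [hW']
      exact (map_lt_map_iff_of_injective U.subtype_injective).2 h1
    rwa [map_subgroupOf_eq_of_le hWU] at h3
  have h4 : W' ≤ U := map_subtype_le _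
  have h5 : W' ≤ normalizer (W : Set G) := by
    rintro _ ⟨x, hx, rfl⟩
    rw [mem_normalizer_iff]
    intro y
    constructor
    · intro hy
      exact (mem_normalizer_iff.1 hx ⟨y, hWU hy⟩).1 hy
    · intro hy
      have h6 : y ∈ U := by
        have h7 : (x : G)⁻¹ * ((x : G) * y * (x : G)⁻¹) * (x : G) ∈ U :=
          U.mul_mem (U.mul_mem (U.inv_mem x.2) (hWU hy)) x.2
        have h8 : (x : G)⁻¹ * ((x : G) * y * (x : G)⁻¹) * (x : G) = y := by group
        rwa [h8] at h7
      exact (mem_normalizer_iff.1 hx ⟨y, h6⟩).2 hy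
  have h6 : CharN p W' := step h2.le (hU.to_le h4) h5 hWc
  exact h2.not_ge (hW.2 ⟨hVW.trans h2.le, h4, h6⟩ h2.le)

end Cfsg.Agent.H7.CharTwoUp
end

-- part: S1850
section
set_option autoImplicit false
open Cfsg

namespace Cfsg.Agent.S1850

open Subgroup

/-- Let G be a non-abelian finite simple QTKE-group and T a Sylow 2-subgroup of G. If U is a nontrivial 2-subgroup of G with U ∩ Z(T) ≠ 1, then F*(N_G(U)) = O₂(N_G(U)). -/
theorem result {G : Type*} [Group G] [Finite G] [IsSimpleGroup G]
    (hG : ¬ IsMulCommutative G) (hQ : Cfsg.IsQTKE G) (T : Sylow 2 G) (U : Subgroup G)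
    (hU : IsPGroup 2 ↥U) (hZ : U ⊓ ((T : Subgroup G) ⊓ Subgroup.centralizer ((T : Subgroup G) : Set G)) ≠ ⊥) :
    Subgroup.normalizer (U : Set G) ∈ Cfsg.calHe G := by
  have h2f : Fact (Nat.Prime 2) := ⟨Nat.prime_two⟩
  change generalizedFittingSubgroup ↥(normalizer (U : Set G)) = pCore 2 ↥(normalizer (U : Set G))
  rw [Cfsg.Agent.SignalizersComponents.CharP.genFitting_eq_pCore_iff]
  set V : Subgroup G := U ⊓ ((T : Subgroup G) ⊓ centralizer ((T : Subgroup G) : Set G)) with hV
  refine H7.CharTwoUp.charP_normalizer_of_le (V := V) inf_le_left hU ?_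
  have hV2 : IsPGroup 2 ↥V := hU.to_le inf_le_left
  have hl : IsTwoLocal (normalizer (V : Set G)) := ⟨V, hV2, hZ, rfl⟩
  refine hQ.2.2 _ hl ⟨T, ?_⟩
  intro t ht
  rw [mem_normalizer_iff]
  intro x
  constructor
  · intro hx
    have h1 := (mem_centralizer_iff.1 hx.2.2) t ht
    have h2 : t * x * t⁻¹ = x := by rw [h1]; group
    rw [h2]; exact hx
  · intro hx
    have h1 := (mem_centralizer_iff.1 hx.2.2) t ht
    have h2 : x = t * x * t⁻¹ := by
      have e1 : t⁻¹ * (t * (t * x * t⁻¹)) * t = t * x := by group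
      have e2 : t⁻¹ * ((t * x * t⁻¹) * t) * t = x * t := by group
      have h3 : t * x = x * t := by rw [← e1, h1, e2]
      rw [h3]; group
    rw [h2]; exact hx

end Cfsg.Agent.S1850
end
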