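import Cfsg.Statements.S1960
import Cfsg.Agent.H39.LocalGlobal
import Cfsg.Agent.H42.Control
set_option linter.all false

set_option autoImplicit false
open Cfsg

namespace Cfsg.Agent.S1960

/-- Let p be a prime, G a finite group with Sylow p-subgroup S, and 𝓦 a set of conjugacy functors for p on G. Suppose that 𝓦 controls transfer in N_G(T) for every nonidentity subgroup T of S for which N_S(T) is a Sylow p-subgroup of N_G(T): for a Sylow p-subgroup T' of N_G(T), the intersection of T' with the derived subgroup of N_G(T) is generated by its intersections with the derived subgroups of the normalizers in N_G(T) of the W(T'), W ∈ 𝓦. Then 𝓦 controls transfer in G: S ∩ G' is generated by the subgroups S ∩ (N_G(W(S)))', W ∈ 𝓦. -/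
theorem result {G : Type*} [Group G] [Finite G] {p : ℕ} [Fact p.Prime] (S : Sylow p G) (𝓦 : Set (Subgroup G → Subgroup G)) (h𝓦 : ∀ W ∈ 𝓦, Cfsg.IsConjugacyFunctor p W) (hloc : ∀ T : Subgroup G, T ≤ (S : Subgroup G) → T ≠ ⊥ → ¬ p ∣ ((S : Subgroup G) ⊓ Subgroup.normalizer ((T : Subgroup G) : Set G)).relIndex (Subgroup.normalizer ((T : Subgroup G) : Set G)) → Cfsg.FamilyControlsTransferIn p 𝓦 (Subgroup.normalizer ((T : Subgroup G) : Set G))) : Cfsg.FamilyControlsTransferIn p 𝓦 ⊤ := by
  refine ⟨(S : Subgroup G), le_top, S.isPGroup', ?_, ?_⟩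
  · rw [Subgroup.relIndex_top_right]; exact S.not_dvd_index
  refine le_antisymm ?_ Cfsg.Agent.H39.focalW_le
  refine Cfsg.Agent.H39.focal_of_local h𝓦 S (fun V hV hV1 hVi => ?_)
  obtain ⟨R, hRH, hR, hRi, hc⟩ := hloc V hV hV1 hVi
  obtain ⟨x, hx, hxe⟩ := Cfsg.Agent.H42.Control.exists_conj_sylow_in hRH
    (inf_le_right : (S : Subgroup G) ⊓ Subgroup.normalizer (V : Set G) ≤ _) hR
    (S.isPGroup'.to_le inf_le_left) hRi hVi
  have h1 := congrArg (fun K : Subgroup G => K.map (MulAut.conj x).toMonoidHom) hc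
  simp only [Subgroup.map_iSup, Subgroup.map_inf _ _ (MulAut.conj x).toMonoidHom (MulAut.conj x).injective,
    Subgroup.map_commutator, Cfsg.Agent.H42.Control.map_conj_eq_of_mem hx,
    Cfsg.Agent.Lib.GoldschmidtFusion.map_conj_normalizer, hxe] at h1
  rw [h1]
  refine iSup₂_mono fun W hW => ?_
  have h2 := ((h𝓦 W hW) R hR).2.2 x
  rw [hxe] at h2
  rw [h2]

end Cfsg.Agent.S1960
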