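import Cfsg.Agent.H42.Control
import Cfsg.Statements.S1968
set_option linter.all false

-- part: H42/Witness
section
/-!
# Failure of weak closure is visible in the normalizer of a well-placed subgroup (S1968)
-/

set_option autoImplicit false

namespace Cfsg.Agent.H42.Witness

open Subgroup Cfsg.Agent.Lib.GoldschmidtFusion Cfsg.Agent.H42.Tower Cfsg.Agent.H42.Chain

variable {G : Type*} [Group G]

/-- If the last image of `A` under a chain differs from `A`, some step moves `A`. -/
theorem chain_witness {𝓕 : Set (Subgroup G)} {B : Set G} {g : G} (h : FChain 𝓕 B g) :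
    ∀ A : Subgroup G, B = (A : Set G) → A.map (MulAut.conj g⁻¹).toMonoidHom ≠ A →
      ∃ T ∈ 𝓕, A ≤ T ∧ ∃ x ∈ normalizer (T : Set G), A.map (MulAut.conj x).toMonoidHom ≠ A := by
  induction h with
  | nil B =>
    intro A _ hne
    rw [inv_one, map_conj_one] at hne
    exact absurd rfl hne
  | cons B T x g hT hx hB h ih =>
    intro A hBA hne
    subst hBA
    by_cases hxA : A.map (MulAut.conj x⁻¹).toMonoidHom = A
    · refine ih A ?_ ?_
      · rw [← coe_map_conj_inv, hxA]
      · intro hg
        apply hne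
        rw [mul_inv_rev, ← map_conj_map_conj, hxA, hg]
    · exact ⟨T, hT, hB, x⁻¹, inv_mem hx, hxA⟩

variable [Finite G] {p : ℕ} [hp : Fact p.Prime] {W : Subgroup G → Subgroup G}

theorem witness_step (S : Sylow p G) (hW : IsConjugacyFunctor p W)
    (hWZ : ∀ P : Subgroup G, IsPGroup p ↥P → P ⊓ Subgroup.centralizer (P : Set G) ≤ W P)
    (A : Subgroup G) (hAZ : A ≤ (S : Subgroup G) ⊓ centralizer ((S : Subgroup G) : Set G))
    (hAN : normalizer ((W (S : Subgroup G) : Subgroup G) : Set G) ≤ normalizer (A : Set G)) :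
    ∀ (n : ℕ) (T : Subgroup G), IsWellPlaced p W (S : Subgroup G) T → A ≤ T →
      (∃ x ∈ normalizer (T : Set G), A.map (MulAut.conj x).toMonoidHom ≠ A) →
      Nat.card G - Nat.card ↥((S : Subgroup G) ⊓ normalizer (T : Set G)) ≤ n →
      ∃ T : Subgroup G, IsWellPlaced p W (S : Subgroup G) T ∧ A ≤ T ∧
        normalizer ((W ((S : Subgroup G) ⊓ normalizer (T : Set G)) : Subgroup G) : Set G) ≤
          normalizer (A : Set G) ∧
        (∃ x ∈ normalizer (T : Set G), A.map (MulAut.conj x).toMonoidHom ≠ A) := by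
  have hS : IsPGroup p (S : Subgroup G) := S.isPGroup'
  intro n
  induction n with
  | zero =>
    intro T hTw hAT hx hn
    have h1 : (S : Subgroup G) ⊓ normalizer (T : Set G) = ⊤ := by
      rw [← Subgroup.card_eq_iff_eq_top]
      have := Subgroup.card_le_card_group ((S : Subgroup G) ⊓ normalizer (T : Set G))
      omega
    refine ⟨T, hTw, hAT, ?_, hx⟩
    have h2 : (S : Subgroup G) ⊓ normalizer (T : Set G) = (S : Subgroup G) := by
      rw [h1]; exact (top_le_iff.1 (h1 ▸ inf_le_left)).symm
    rw [h2]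
    exact hAN
  | succ n ih =>
    intro T hTw hAT hx hn
    set R := (S : Subgroup G) ⊓ normalizer (T : Set G) with hR
    have hRp : IsPGroup p R := hS.to_le inf_le_left
    by_cases hle : normalizer ((W R : Subgroup G) : Set G) ≤ normalizer (A : Set G)
    · exact ⟨T, hTw, hAT, hle, hx⟩
    · have hRS : R ≠ (S : Subgroup G) := by
        intro h
        rw [h] at hle
        exact hle hAN
      have hlt := lt_succ (p := p) hW hS hRS
      have hcard : Nat.card R < Nat.card ↥((S : Subgroup G) ⊓ normalizer ((W R : Subgroup G) : Set G)) := by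
        refine lt_of_le_of_ne (Subgroup.card_le_of_le hlt.le) ?_
        intro heq
        exact hlt.ne (Subgroup.eq_of_le_of_card_ge hlt.le heq.ge)
      have hAR : A ≤ W R := by
        refine le_trans (le_inf ?_ ?_) (hWZ R hRp)
        · exact le_inf (hAZ.trans inf_le_left) (hAT.trans le_normalizer)
        · refine hAZ.trans (inf_le_right.trans ?_)
          exact centralizer_le (by
            intro x hx
            exact (inf_le_left : R ≤ (S : Subgroup G)) hx)
      obtain ⟨x, hx1, hx2⟩ := SetLike.not_le_iff_exists.1 hle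
      refine ih (W R) (wellPlaced_succ hW hS hTw) hAR ⟨x, hx1, ?_⟩ (by
        have := Subgroup.card_le_card_group ((S : Subgroup G) ⊓ normalizer ((W R : Subgroup G) : Set G))
        omega)
      intro h
      exact hx2 (mem_normalizer_iff_map_conj.2 h)

/-- **S1968**: a central subgroup normalized by `N_G(W(S))` which is not weakly closed is moved in the normalizer
of a well-placed subgroup `T` with `N_G(W(N_S(T))) ≤ N_G(A)`. -/
theorem exists_witness (S : Sylow p G) (hW : IsConjugacyFunctor p W)
    (hWZ : ∀ P : Subgroup G, IsPGroup p ↥P → P ⊓ Subgroup.centralizer (P : Set G) ≤ W P)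
    (A : Subgroup G) (hAZ : A ≤ (S : Subgroup G) ⊓ centralizer ((S : Subgroup G) : Set G))
    (hAN : normalizer ((W (S : Subgroup G) : Subgroup G) : Set G) ≤ normalizer (A : Set G))
    (hnwc : ∃ g : G, A.map (MulAut.conj g).toMonoidHom ≤ (S : Subgroup G) ∧
      A.map (MulAut.conj g).toMonoidHom ≠ A) :
    ∃ T : Subgroup G, IsWellPlaced p W (S : Subgroup G) T ∧ A ≤ T ∧
        normalizer ((W ((S : Subgroup G) ⊓ normalizer (T : Set G)) : Subgroup G) : Set G) ≤
          normalizer (A : Set G) ∧
        (∃ x ∈ normalizer (T : Set G), A.map (MulAut.conj x).toMonoidHom ≠ A) := by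
  obtain ⟨g, hgS, hgA⟩ := hnwc
  have hAS : A ≤ (S : Subgroup G) := hAZ.trans inf_le_left
  have hfam := chain_of_fullyNormalized S {T | IsWellPlaced p W (S : Subgroup G) T}
    (fun U hU => hU.1) (fun T hT => by
      obtain ⟨g, hg⟩ := exists_wellPlaced S hW T hT
      exact ⟨_, hg, ⟨g, rfl⟩, hg.2 0⟩) _ A g⁻¹ hAS (by rwa [inv_inv]) le_rfl
  obtain ⟨T, hT, hAT, hx⟩ := chain_witness hfam A rfl (by rwa [inv_inv])
  exact witness_step S hW hWZ A hAZ hAN _ T hT hAT hx le_rfl

end Cfsg.Agent.H42.Witness
end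

-- part: S1968
section
set_option autoImplicit false
open Cfsg

namespace Cfsg.Agent.S1968

/-- Let p be a prime, G a finite group with Sylow p-subgroup S and W a conjugacy functor for p on G with Z(P) ≤ W(P) for every p-subgroup P. Let A be a subgroup of Z(S) normalized by N_G(W(S)) that is not weakly closed in S with respect to G. Then there is a subgroup T of S, well placed in S with respect to W, such that: A ≤ T; N_G(W(N_S(T))) normalizes A; N_S(T) is a Sylow p-subgroup of N_G(T); A ≤ Z(N_S(T)); and A is not weakly closed in N_S(T) with respect to N_G(T), that is, some N_G(T)-conjugate of A other than A lies in N_S(T). -/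
theorem result {G : Type*} [Group G] [Finite G] {p : ℕ} [Fact p.Prime] (S : Sylow p G) (W : Subgroup G → Subgroup G) (hW : Cfsg.IsConjugacyFunctor p W) (hWZ : ∀ P : Subgroup G, IsPGroup p ↥P → P ⊓ Subgroup.centralizer (P : Set G) ≤ W P) (A : Subgroup G) (hAZ : A ≤ (S : Subgroup G) ⊓ Subgroup.centralizer ((S : Subgroup G) : Set G)) (hAN : Subgroup.normalizer ((W (S : Subgroup G) : Subgroup G) : Set G) ≤ Subgroup.normalizer ((A : Subgroup G) : Set G)) (hnwc : ¬ Cfsg.IsWeaklyClosed A (S : Subgroup G)) : ∃ T : Subgroup G, Cfsg.IsWellPlaced p W (S : Subgroup G) T ∧ A ≤ T ∧ Subgroup.normalizer ((W ((S : Subgroup G) ⊓ Subgroup.normalizer ((T : Subgroup G) : Set G)) : Subgroup G) : Set G) ≤ Subgroup.normalizer ((A : Subgroup G) : Set G) ∧ ¬ p ∣ ((S : Subgroup G) ⊓ Subgroup.normalizer ((T : Subgroup G) : Set G)).relIndex (Subgroup.normalizer ((T : Subgroup G) : Set G)) ∧ A ≤ Subgroup.centralizer (((S : Subgroup G) ⊓ Subgroup.normalizer ((T : Subgroup G) : Set G) : Subgroup G) : Set G) ∧ ∃ g ∈ Subgroup.normalizer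 ((T : Subgroup G) : Set G), A.map (MulAut.conj g).toMonoidHom ≤ (S : Subgroup G) ⊓ Subgroup.normalizer ((T : Subgroup G) : Set G) ∧ A.map (MulAut.conj g).toMonoidHom ≠ A := by
  have hAS : A ≤ (S : Subgroup G) := hAZ.trans inf_le_left
  obtain ⟨T, hTw, hAT, hN, x, hx, hxA⟩ := Cfsg.Agent.H42.Witness.exists_witness S hW hWZ A hAZ hAN (by
    by_contra hcon
    push Not at hcon
    exact hnwc ⟨hAS, fun g hg => hcon g hg⟩)
  refine ⟨T, hTw, hAT, hN, hTw.2 0, ?_, x, hx, ?_, hxA⟩
  · refine hAZ.trans (inf_le_right.trans (Subgroup.centralizer_le ?_))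
    intro y hy
    exact (inf_le_left : (S : Subgroup G) ⊓ Subgroup.normalizer ((T : Subgroup G) : Set G) ≤ _) hy
  · refine le_trans (Subgroup.map_mono hAT) ?_
    have h1 := Cfsg.Agent.Lib.GoldschmidtFusion.mem_normalizer_iff_map_conj.1 hx
    rw [h1]
    exact le_inf hTw.1 Subgroup.le_normalizer

end Cfsg.Agent.S1968
end
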