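import Cfsg.Agent.H39.FTRed
import Cfsg.Agent.Walter.FieldIndex
import Cfsg.Statements.S1971
set_option linter.all false

-- part: H39/IndexP
section
/-!
# Normal subgroups of index `p` from control of transfer in all sections
-/

set_option autoImplicit false

namespace Cfsg.Agent.H39

open Subgroup Cfsg
open Cfsg.Agent.Lib.GoldschmidtFusion

universe u

variable {p : ℕ} [Fact p.Prime] {W : Fn.{u}}

/-- A non-trivial finite `p`-group is not contained in its derived group. -/
theorem not_le_commutator_self {G : Type*} [Group G] {S : Subgroup G} [Finite S]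
    (hSp : IsPGroup p S) (hS : S ≠ ⊥) : ¬ S ≤ ⁅S, S⁆ := by
  intro h
  have hn : Group.IsNilpotent S := hSp.isNilpotent
  have hsol : Group.IsSolvable S := inferInstance
  have hnt : Nontrivial S := (Subgroup.nontrivial_iff_ne_bot S).2 hS
  refine (Group.IsSolvable.commutator_lt_top_of_nontrivial S).ne ?_
  have h1 : (⁅(⊤ : Subgroup S), ⊤⁆ : Subgroup S).map S.subtype = ⁅S, S⁆ := by
    rw [map_commutator, ← MonoidHom.range_eq_map, S.range_subtype]
  rw [_root_.commutator_def, eq_top_iff]
  intro x _
  have hx : (x : G) ∈ ⁅S, S⁆ := h x.2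
  rw [← h1] at hx
  obtain ⟨y, hy, hyx⟩ := hx
  have : y = x := Subtype.ext hyx
  exact this ▸ hy

theorem le_of_not_dvd_index {G : Type*} [Group G] [Finite G] (S : Sylow p G) (N : Subgroup G)
    [hn : N.Normal] (hN : ¬ p ∣ N.index) : (S : Subgroup G) ≤ N := by
  have hp : p.Prime := Fact.out
  intro x hx
  have h1 : IsPGroup p ((S : Subgroup G).map (QuotientGroup.mk' N)) := S.isPGroup'.map _
  obtain ⟨k, hk⟩ := h1 ⟨QuotientGroup.mk' N x, mem_map_of_mem _ hx⟩
  have hk' : (QuotientGroup.mk' N x) ^ p ^ k = 1 := congrArg Subtype.val hk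
  have h2 : orderOf (QuotientGroup.mk' N x) ∣ p ^ k := orderOf_dvd_of_pow_eq_one hk'
  have h3 : orderOf (QuotientGroup.mk' N x) ∣ N.index := orderOf_dvd_natCard _
  have h4 : orderOf (QuotientGroup.mk' N x) = 1 := by
    exact Nat.eq_one_of_dvd_coprimes
      (Nat.Coprime.pow_left k ((Nat.Prime.coprime_iff_not_dvd hp).2 hN)) h2 h3
  rw [orderOf_eq_one_iff] at h4
  exact (QuotientGroup.eq_one_iff x).1 h4

theorem exists_lift_coprime {G X : Type*} [Group G] [Group X] [Finite G] (f : G →* X) {x : G}
    (hx : Nat.Coprime (orderOf (f x)) p) :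
    ∃ n k : ℕ, Nat.Coprime (orderOf (x ^ n)) p ∧ f ((x ^ n) ^ k) = f x := by
  have hp : p.Prime := Fact.out
  have h0 : orderOf x ≠ 0 := (orderOf_pos x).ne'
  obtain ⟨a, m, hm, hxm⟩ := Nat.exists_eq_pow_mul_and_not_dvd h0 p hp.ne_one
  have hcop : Nat.Coprime (p ^ a) (orderOf (f x)) := Nat.Coprime.pow_left _ hx.symm
  obtain ⟨k, hk⟩ := exists_pow_eq_self_of_coprime hcop
  refine ⟨p ^ a, k, ?_, ?_⟩
  · have h1 : orderOf (x ^ p ^ a) ∣ m := by
      apply orderOf_dvd_of_pow_eq_one
      rw [← pow_mul, ← hxm, pow_orderOf_eq_one]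
    exact Nat.Coprime.coprime_dvd_left h1 ((Nat.Prime.coprime_iff_not_dvd hp).2 hm).symm
  · rw [map_pow, map_pow, hk]

theorem not_le_commutator_of_ft {G : Type u} [Group G] [Finite G] (hW : IsCharPFunctor.{u} p W)
    (hctl : ∀ (X : Type u) [Group X] [Finite X], IsSec G X → FT p {W} X) (n : ℕ) :
    ∀ (X : Type u) [Group X] [Finite X], IsSec G X → Nat.card X ≤ n → ∀ S : Sylow p X,
      (S : Subgroup X) ≠ ⊥ →
      (∀ g ∈ normalizer ((S : Subgroup X) : Set X), Nat.Coprime (orderOf g) p →
        g ∈ centralizer ((S : Subgroup X) : Set X)) →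
      ¬ (S : Subgroup X) ≤ ⁅(⊤ : Subgroup X), ⊤⁆ := by
  have hp : p.Prime := Fact.out
  induction n with
  | zero =>
    intro X _ _ _ h
    exact absurd h (by have := Nat.card_pos (α := X); omega)
  | succ n ih =>
    intro X _ _ hX hcard S hS hN hle
    have hSp : IsPGroup p (S : Subgroup X) := S.isPGroup'
    set W0 := inducedFunctor (G := X) W (S : Subgroup X) with hW0
    have hW0ne : W0 ≠ ⊥ := induced_ne_bot hW hSp hS
    have hW0S : W0 ≤ S := induced_le W (S : Subgroup X)
    have hSL : (S : Subgroup X) ≤ normalizer (W0 : Set X) :=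
      le_normalizer_functor (isConjugacyFunctor_induced hW) hSp
    by_cases hL : normalizer (W0 : Set X) = ⊤
    · have hn : W0.Normal := normalizer_eq_top_iff.1 hL
      by_cases hSW : (S : Subgroup X) = W0
      · -- `S` is normal
        have hSn : normalizer ((S : Subgroup X) : Set X) = ⊤ := by rw [hSW]; exact hL
        refine not_le_commutator_self hSp hS (le_trans (le_inf le_rfl hle) ?_)
        refine inf_commutator_le_of_fusion S _ ?_
        intro A hA g _ a ha
        obtain ⟨s, hs, c, hc, rfl⟩ := exists_mul_of_pGroup_automizer S (B := (S : Subgroup X))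
          (by rw [hSn, inf_top_eq, relIndex_top_right]; exact S.not_dvd_index) hN
          (n := g) (by rw [hSn]; exact mem_top g)
        have h1 : c * a * c⁻¹ = a := by
          rw [← mem_centralizer_iff.1 hc a (hA ha)]; group
        have h2 : a⁻¹ * (s * c * a * (s * c)⁻¹) = a⁻¹ * s * a⁻¹⁻¹ * s⁻¹ := by
          calc a⁻¹ * (s * c * a * (s * c)⁻¹) = a⁻¹ * (s * (c * a * c⁻¹) * s⁻¹) := by group
            _ = _ := by rw [h1]; group
        rw [h2]
        exact commutator_mem_commutator (inv_mem (hA ha)) hs.1
      · -- pass to `X / W0`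
        have hW0lt : Nat.card (X ⧸ W0) < Nat.card X := by
          have h1 : Nat.card (X ⧸ W0) * Nat.card W0 = Nat.card X := by
            rw [mul_comm, ← Subgroup.index, Subgroup.card_mul_index]
          have h2 : 1 < Nat.card W0 := (Subgroup.one_lt_card_iff_ne_bot W0).2 hW0ne
          have h3 : 0 < Nat.card (X ⧸ W0) := Nat.card_pos
          nlinarith
        set f := QuotientGroup.mk' W0 with hf
        have hfs : Function.Surjective f := QuotientGroup.mk'_surjective W0
        set S' : Sylow p (X ⧸ W0) := S.mapSurjective hfs with hS'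
        have hS'eq : (S' : Subgroup (X ⧸ W0)) = (S : Subgroup X).map f := rfl
        have hker : f.ker = W0 := QuotientGroup.ker_mk' W0
        refine ih (X ⧸ W0) (hX.trans (IsSec.quotient W0)) (by omega) S' ?_ ?_ ?_
        · rw [hS'eq, Ne, Subgroup.map_eq_bot_iff, hker]
          exact fun h => hSW (le_antisymm h hW0S)
        · intro g hg hgp
          obtain ⟨x, rfl⟩ := hfs g
          have hxN : x ∈ normalizer ((S : Subgroup X) : Set X) := by
            have h1 : (((S : Subgroup X).map f).comap f) = S := by
              rw [comap_map_eq_self]; rw [hker]; exact hW0S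
            rw [mem_normalizer_iff] at hg ⊢
            intro h
            have := hg (f h)
            rw [hS'eq] at this
            rw [← h1]
            simpa [mem_comap] using this
          obtain ⟨n', k, hn', hk⟩ := exists_lift_coprime f hgp
          have h2 := hN (x ^ n') (pow_mem hxN n') hn'
          rw [← hk, map_pow]
          refine pow_mem ?_ k
          rw [hS'eq, mem_centralizer_iff]
          rintro _ ⟨s, hs, rfl⟩
          rw [← map_mul, ← map_mul, mem_centralizer_iff.1 h2 s hs]
        · rw [hS'eq]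
          refine (map_mono hle).trans ?_
          rw [map_commutator]
          exact commutator_mono le_top le_top
    · -- pass to `N(W(S))`
      set L := normalizer (W0 : Set X) with hLdef
      have hLlt : Nat.card L < Nat.card X := by
        have h0 : L < ⊤ := lt_top_iff_ne_top.2 hL
        have h1 : Nat.card ((L : Set X)) < Nat.card (((⊤ : Subgroup X) : Set X)) :=
          Set.Finite.card_lt_card (Set.toFinite _) h0
        rwa [Subgroup.coe_top, Nat.card_univ] at h1
      have h1 := hctl X hX S
      rw [focalI_singleton, top_inf_eq] at h1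
      have h2 : (S : Subgroup X) ≤ ⁅L, L⁆ := (le_inf le_rfl hle).trans (h1.trans inf_le_right)
      refine ih L (hX.trans (IsSec.subgroup L)) (by omega) (S.subtype hSL) ?_ ?_ ?_
      · rw [Sylow.coe_subtype]
        intro h
        rw [subgroupOf_eq_bot, disjoint_iff, inf_eq_left.2 hSL] at h
        exact hS h
      · intro g hg hgp
        rw [Sylow.coe_subtype] at hg ⊢
        have hgN : (g : X) ∈ normalizer ((S : Subgroup X) : Set X) := by
          rw [mem_normalizer_iff] at hg ⊢
          intro h
          constructor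
          · intro hh
            exact (hg ⟨h, hSL hh⟩).1 hh
          · intro hh
            have h3 : (g : X)⁻¹ * ((g : X) * h * (g : X)⁻¹) * (g : X) ∈ L :=
              mul_mem (mul_mem (inv_mem g.2) (hSL hh)) g.2
            have h4 : (g : X)⁻¹ * ((g : X) * h * (g : X)⁻¹) * (g : X) = h := by group
            rw [h4] at h3
            exact (hg ⟨h, h3⟩).2 hh
        have h5 := hN g hgN (by rwa [Subgroup.orderOf_coe])
        rw [mem_centralizer_iff] at h5 ⊢
        intro h hh
        exact Subtype.ext (h5 h hh)
      · rw [Sylow.coe_subtype]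
        intro x hx
        have h3 : (x : X) ∈ ⁅L, L⁆ := h2 hx
        have h4 : (⁅(⊤ : Subgroup L), ⊤⁆ : Subgroup L).map L.subtype = ⁅L, L⁆ := by
          rw [map_commutator, ← MonoidHom.range_eq_map, L.range_subtype]
        rw [← h4] at h3
        obtain ⟨y, hy, hyx⟩ := h3
        have : y = x := Subtype.ext hyx
        exact this ▸ hy

theorem exists_normal_index_of_ft {G : Type u} [Group G] [Finite G] (hW : IsCharPFunctor.{u} p W)
    (hctl : ∀ (X : Type u) [Group X] [Finite X], IsSec G X → FT p {W} X) (S : Sylow p G)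
    (hS : (S : Subgroup G) ≠ ⊥)
    (hN : ∀ g ∈ normalizer ((S : Subgroup G) : Set G), Nat.Coprime (orderOf g) p →
        g ∈ centralizer ((S : Subgroup G) : Set G)) : ∃ N : Subgroup G, N.Normal ∧ N.index = p := by
  apply Cfsg.Agent.Walter.FieldIndex.exists_normal_index_eq_prime
  by_contra hd
  exact not_le_commutator_of_ft hW hctl (Nat.card G) G (IsSec.refl G) le_rfl S hS hN
    (le_of_not_dvd_index S _ hd)

end Cfsg.Agent.H39
end

-- part: S1971
section
set_option autoImplicit false
universe u
open Cfsg

namespace Cfsg.Agent.S1971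

/-- Let p be a prime, G a finite group with nontrivial Sylow p-subgroup S, and W an isomorphism-invariant p-group functor (W assigns to every group Q a subgroup W(Q), nontrivial whenever Q is a nontrivial finite p-group, and every isomorphism from a finite p-group Q onto a group R carries W(Q) onto W(R)) that controls transfer in every section of G. If N_G(S)/C_G(S) is a p-group (every element of N_G(S) of order prime to p centralizes S), then G has a normal subgroup of index p. -/
theorem result {G : Type u} [Group G] [Finite G] {p : ℕ} [Fact p.Prime] (W : ∀ (Q : Type u) [Group Q], Subgroup Q) (hW : Cfsg.IsCharPFunctor.{u} p W) (hctl : ∀ (K R : Subgroup G) [hR : (R.subgroupOf K).Normal], Cfsg.ControlsTransferIn p (Cfsg.inducedFunctor (G := (↥K ⧸ R.subgroupOf K)) W) ⊤) (S : Sylow p G) (hS : (S : Subgroup G) ≠ ⊥) (hN : ∀ g ∈ Subgroup.normalizer (((S : Subgroup G) : Subgroup G) : Set G), (orderOf g).Coprime p → g ∈ Subgroup.centralizer ((S : Subgroup G) : Set G)) : ∃ N : Subgroup G, N.Normal ∧ N.index = p := by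

  refine H39.exists_normal_index_of_ft hW ?_ S hS hN
  intro X _ _ hX
  obtain ⟨K, R, hn, ⟨e⟩⟩ := hX.exists_quotient
  have h𝓦 : ∀ W' ∈ ({W} : Set H39.Fn.{u}), IsCharPFunctor.{u} p W' := by rintro W' rfl; exact hW
  exact ((H39.transferIn_iff hW).1 (hctl K R)).of_equiv h𝓦 e

end Cfsg.Agent.S1971
end
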