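import Mathlib
import Cfsg.Prelude.Def_LocalEven
import Cfsg.Prelude.Def_ConjugacyFunctors
import Cfsg.Agent.H35.KSeq
import Cfsg.Agent.H35.Cubic2
import Cfsg.Agent.H37.Stable
import Cfsg.Agent.H41.Functor
import Cfsg.Agent.H37.Control
import Cfsg.Statements.S1987
import Cfsg.Agent.S1969
set_option linter.all false

-- part: H37/KInf
section
/-!
# The K-infinity subgroups in groups whose sections are stable
-/

set_option autoImplicit false

universe u

namespace Cfsg.Agent.H37.KInf

open Cfsg Subgroup

/-- In a constrained group with stable quotients the lower K-infinity subgroup of a Sylow subgroup is normal. -/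
theorem kInf_normal {H : Type u} [Group H] [Finite H] {p : ℕ} [Fact p.Prime]
    (hc : centralizer (pCore p H : Set H) ≤ pCore p H)
    (hst : ∀ (N : Subgroup H) [N.Normal], IsNormalizerPStable p (H ⧸ N)) (T : Sylow p H) :
    (inducedFunctor kInfLower (T : Subgroup H)).Normal :=
  (H35.Cubic2.stable_normal_sylow T hc (fun N _ => hst N)).1

/-- In a constrained group with stable quotients the upper K-infinity subgroup of a Sylow subgroup is normal. -/
theorem kInfUpper_normal {H : Type u} [Group H] [Finite H] {p : ℕ} [Fact p.Prime]
    (hc : centralizer (pCore p H : Set H) ≤ pCore p H)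
    (hst : ∀ (N : Subgroup H) [N.Normal], IsNormalizerPStable p (H ⧸ N)) (T : Sylow p H) :
    (inducedFunctor kInfUpper (T : Subgroup H)).Normal :=
  (H35.Cubic2.stable_normal_sylow T hc (fun N _ => hst N)).2

/-- every quotient of a section of `G` is `p`-stable when all sections of `G` are -/
theorem quotient_stable {G : Type u} [Group G] {p : ℕ}
    (hst : ∀ (K R : Subgroup G) [hR : (R.subgroupOf K).Normal], IsNormalizerPStable p (↥K ⧸ R.subgroupOf K))
    {H : Type u} [Group H] (hH : H41.Functor.IsSection G H) : IsNormalizerPStable p H := by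
  obtain ⟨K, R, hR, ⟨e⟩⟩ := hH.exists_equiv
  exact H37.Stable.isNormalizerPStable_congr e (hst K R)

theorem isSection_quotient {G : Type u} [Group G] (K R : Subgroup G) [(R.subgroupOf K).Normal] :
    H41.Functor.IsSection G (↥K ⧸ R.subgroupOf K) :=
  ⟨K, QuotientGroup.mk' _, QuotientGroup.mk'_surjective _⟩

end Cfsg.Agent.H37.KInf
end

-- part: H37/SecControl
section
/-!
# Control of strong fusion by a functor in all sections

`controls_section`: if the functor `W` controls strong fusion in all sections `K / R` of `G`, it does so in every group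
isomorphic to a section.
-/

set_option autoImplicit false

universe u

namespace Cfsg.Agent.H37.SecControl

open Cfsg Subgroup

/-- a Sylow subgroup of the source of an isomorphism -/
theorem exists_sylow_comap {X Y : Type*} [Group X] [Group Y] {p : ℕ} (e : X ≃* Y) (P : Sylow p Y) :
    ∃ T : Sylow p X, (T : Subgroup X) = (P : Subgroup Y).comap e.toMonoidHom := by
  have hTr : (P : Subgroup Y) ≤ e.toMonoidHom.range := by
    rw [MonoidHom.range_eq_top.mpr e.surjective]
    exact le_top
  have hinj : Function.Injective e.toMonoidHom := e.injective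
  exact ⟨P.comapOfInjective e.toMonoidHom hinj hTr, Sylow.coe_comapOfInjective _ _ _ _⟩

/-- Transport of the control of strong fusion by a functor. -/
theorem controls_of_equiv {p : ℕ} (W : ∀ (Q : Type u) [Group Q], Subgroup Q) (hW : IsCharPFunctor.{u} p W)
    {X Y : Type u} [Group X] [Group Y] [Finite X] (e : X ≃* Y)
    (h : ∀ T : Sylow p X, ControlsStrongFusion p (inducedFunctor W (T : Subgroup X))) (P : Sylow p Y) :
    ControlsStrongFusion p (inducedFunctor W (P : Subgroup Y)) := by
  obtain ⟨T, hT⟩ := exists_sylow_comap e P
  have h2 := Control.controlsStrongFusion_congr e (h T)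
  have hTr : (P : Subgroup Y) ≤ e.toMonoidHom.range := by
    rw [MonoidHom.range_eq_top.mpr e.surjective]
    exact le_top
  have hinj : Function.Injective e.toMonoidHom := e.injective
  have h3 : (inducedFunctor W (T : Subgroup X)).map e.toMonoidHom = inducedFunctor W (P : Subgroup Y) := by
    rw [H41.Functor.map_inducedFunctor W hW e.toMonoidHom _ hinj.injOn (Sylow.isPGroup' _)]
    congr 1
    rw [hT, Subgroup.map_comap_eq_self hTr]
  rw [h3] at h2
  exact h2

/-- If `W` controls strong fusion in every section `K / R` of `G`, it does so in every group that is isomorphic to a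
section of `G`. -/
theorem controls_section {p : ℕ} (W : ∀ (Q : Type u) [Group Q], Subgroup Q) (hW : IsCharPFunctor.{u} p W)
    {G H : Type u} [Group G] [Group H] [Finite G] (hH : H41.Functor.IsSection G H)
    (hctl : ∀ (K R : Subgroup G) [hR : (R.subgroupOf K).Normal] (T : Sylow p (↥K ⧸ R.subgroupOf K)),
      ControlsStrongFusion p (inducedFunctor (G := (↥K ⧸ R.subgroupOf K)) W (T : Subgroup (↥K ⧸ R.subgroupOf K))))
    (P : Sylow p H) : ControlsStrongFusion p (inducedFunctor W (P : Subgroup H)) := by
  obtain ⟨K, R, hR, ⟨e⟩⟩ := hH.exists_equiv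
  exact controls_of_equiv W hW e (fun T => hctl K R T) P

end Cfsg.Agent.H37.SecControl
end

-- part: S1987
section
set_option autoImplicit false
universe u
open Cfsg

namespace Cfsg.Agent.S1987

/-- `K_∞` controls strong fusion in every section. -/
theorem sections {G : Type u} [Group G] [Finite G] {p : ℕ} [Fact p.Prime]
    (hst : ∀ (K R : Subgroup G) [hR : (R.subgroupOf K).Normal], Cfsg.IsNormalizerPStable p (↥K ⧸ R.subgroupOf K))
    (K R : Subgroup G) [hR : (R.subgroupOf K).Normal] (T : Sylow p (↥K ⧸ R.subgroupOf K)) :
    Cfsg.ControlsStrongFusion p (Cfsg.inducedFunctor (G := (↥K ⧸ R.subgroupOf K)) Cfsg.kInfLower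
      (T : Subgroup (↥K ⧸ R.subgroupOf K))) := by
  refine Cfsg.Agent.S1969.result Cfsg.kInfLower (H35.KSeq.isCharPFunctor_kInfLower p) ?_ K R T
  intro K R hR hc T
  refine H37.KInf.kInf_normal hc ?_ T
  intro N hN
  exact H37.KInf.quotient_stable hst ((H37.KInf.isSection_quotient K R).quotient N)

/-- Let p be an odd prime and G a finite group every section of which is p-stable in the normalizer form (in each section, an element of the normalizer of a p-subgroup Q acting quadratically on Q maps into O_p of N(Q)/C(Q)). Then for every Sylow p-subgroup S of G the lower K-infinity subgroup of S controls strong fusion in G. -/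
theorem result {G : Type u} [Group G] [Finite G] {p : ℕ} [Fact p.Prime] (hp : p ≠ 2) (hst : ∀ (K R : Subgroup G) [hR : (R.subgroupOf K).Normal], Cfsg.IsNormalizerPStable p (↥K ⧸ R.subgroupOf K)) (S : Sylow p G) : Cfsg.ControlsStrongFusion p (Cfsg.inducedFunctor Cfsg.kInfLower (S : Subgroup G)) := by
  exact H37.SecControl.controls_section Cfsg.kInfLower (H35.KSeq.isCharPFunctor_kInfLower p)
    (H41.Functor.IsSection.refl G) (fun K R _ T => sections hst K R T) S

end Cfsg.Agent.S1987
end
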