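import Cfsg.Statements.S1990
import Cfsg.Agent.H37.Stable
import Cfsg.Agent.H37.Control
import Cfsg.Agent.H41.SecReduction
import Cfsg.Agent.H41.Functor
set_option linter.all false

set_option autoImplicit false
universe u
open Cfsg

namespace Cfsg.Agent.S1990

open Cfsg.Agent.H41.Functor
open scoped commutatorElement

/-- In a group `A P` with `A` normal, `A / R` abelian, `R` a normal `p`-subgroup, `p` odd, all `2`-subgroups are
abelian. -/
theorem abTwo {H : Type u} [Group H] [Finite H] {p : ℕ} [Fact p.Prime] (hp : p ≠ 2) (P : Sylow p H)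
    (A R : Subgroup H) [A.Normal] (hR : IsPGroup p R) (hab : ⁅A, A⁆ ≤ R) (htop : A ⊔ (P : Subgroup H) = ⊤) :
    Walter.QdAbelian.AbTwo H := by
  have hcop : ∀ (K : Type u) [Group K] (x : K), (∃ k, x ^ (p ^ k) = 1) → (∃ k, x ^ (2 ^ k) = 1) → x = 1 := by
    rintro K _ x ⟨k, hk⟩ ⟨l, hl⟩
    have h1 := orderOf_dvd_of_pow_eq_one hk
    have h2 := orderOf_dvd_of_pow_eq_one hl
    have h3 : Nat.Coprime (p ^ k) (2 ^ l) :=
      Nat.Coprime.pow _ _ ((Nat.coprime_primes (Fact.out) Nat.prime_two).mpr hp)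
    have h4 := Nat.eq_one_of_dvd_coprimes h3 h1 h2
    exact orderOf_eq_one_iff.mp h4
  have hquo : IsPGroup p (H ⧸ A) := by
    have hs := QuotientGroup.mk'_surjective A
    have h1 : (P : Subgroup H).map (QuotientGroup.mk' A) = ⊤ := by
      have h2 : (A ⊔ (P : Subgroup H)).map (QuotientGroup.mk' A) = ⊤ := by
        rw [htop]; exact Subgroup.map_top_of_surjective _ hs
      rw [Subgroup.map_sup] at h2
      have h3 : A.map (QuotientGroup.mk' A) = ⊥ := by
        rw [Subgroup.map_eq_bot_iff, QuotientGroup.ker_mk']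
      rwa [h3, bot_sup_eq] at h2
    have h4 : IsPGroup p ((P : Subgroup H).map (QuotientGroup.mk' A)) := P.isPGroup'.map _
    rw [h1] at h4
    exact h4.of_equiv Subgroup.topEquiv
  intro T hT x hx y hy
  have hmem : ∀ z ∈ T, z ∈ A := by
    intro z hz
    rw [← QuotientGroup.eq_one_iff]
    refine hcop _ _ (hquo _) ?_
    obtain ⟨k, hk⟩ := hT ⟨z, hz⟩
    refine ⟨k, ?_⟩
    have h1 : z ^ 2 ^ k = 1 := congrArg Subtype.val hk
    rw [← QuotientGroup.mk_pow, h1]; rfl
  have h1 : ⁅x, y⁆ ∈ R := hab (Subgroup.commutator_mem_commutator (hmem x hx) (hmem y hy))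
  have h2 : ⁅x, y⁆ ∈ T := by
    rw [commutatorElement_def]
    exact T.mul_mem (T.mul_mem (T.mul_mem hx hy) (T.inv_mem hx)) (T.inv_mem hy)
  have h3 : ⁅x, y⁆ = 1 := by
    refine hcop _ _ ?_ ?_
    · obtain ⟨k, hk⟩ := hR ⟨_, h1⟩
      exact ⟨k, congrArg Subtype.val hk⟩
    · obtain ⟨k, hk⟩ := hT ⟨_, h2⟩
      exact ⟨k, congrArg Subtype.val hk⟩
  exact commutatorElement_eq_one_iff_mul_comm.mp h3

/-- Let p be an odd prime, G a finite group with Sylow p-subgroup S, and W an isomorphism-invariant p-group functor (W assigns to every group Q a subgroup W(Q), nontrivial whenever Q is a nontrivial finite p-group, and every isomorphism from a finite p-group Q onto a group R carries W(Q) onto W(R)). Suppose N_G(W(S)) has a normal p-complement, and W(T) controls strong fusion in every section G* = K/R of G all of whose sections are p-stable in the normalizer form, for every Sylow p-subgroup T of G*. Then G has a normal p-complement. -/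
theorem result {G : Type u} [Group G] [Finite G] {p : ℕ} [Fact p.Prime] (hp : p ≠ 2) (W : ∀ (Q : Type u) [Group Q], Subgroup Q) (hW : Cfsg.IsCharPFunctor.{u} p W) (S : Sylow p G) (hN : Cfsg.HasNormalPComplement p ↥(Subgroup.normalizer ((Cfsg.inducedFunctor (G := G) W (S : Subgroup G) : Subgroup G) : Set G))) (hctl : ∀ (K R : Subgroup G) [hR : (R.subgroupOf K).Normal], (∀ (K' R' : Subgroup (↥K ⧸ R.subgroupOf K)) [hR' : (R'.subgroupOf K').Normal], Cfsg.IsNormalizerPStable p (↥K' ⧸ R'.subgroupOf K')) → ∀ T : Sylow p (↥K ⧸ R.subgroupOf K), Cfsg.ControlsStrongFusion p (Cfsg.inducedFunctor (G := (↥K ⧸ R.subgroupOf K)) W (T : Subgroup (↥K ⧸ R.subgroupOf K)))) : Cfsg.HasNormalPComplement p G := by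
  refine H41.SecReduction.hasNormalPComplement_of_functor_class (p := p)
    (fun G _ P => Cfsg.inducedFunctor W P) (fun H _ => IsSection G H) ?_ ?_ ?_ ?_ ?_ ?_ G
    (IsSection.refl G) S hN
  · intro H _ L hH
    exact hH.subgroup L
  · intro H _ N _ hH
    exact hH.quotient N
  · intro G G' _ _ _ _ f P hf hP
    exact map_inducedFunctor W hW f P hf hP
  · intro G _ _ P _
    exact inducedFunctor_le W P
  · intro G _ _ P hP hP1
    exact inducedFunctor_ne_bot W hW P hP hP1
  · intro H _ _ hH P A hAn _ hab _ htop _ _ _ _ hN'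
    obtain ⟨K, R, hR, ⟨e⟩⟩ := hH.exists_equiv
    have hab2 : Walter.QdAbelian.AbTwo H := abTwo hp P A _ (Lib.Cores.pCore_isPGroup p) hab htop
    have hns : ¬ Lib.Involves.Involves (↥K ⧸ R.subgroupOf K) (Matrix.SpecialLinearGroup (Fin 2) (ZMod p)) := by
      intro h
      exact Walter.QdAbelian.not_involves_sl hab2 hp
        (Lib.Involves.trans (Lib.Involves.of_injective e.toMonoidHom e.injective) h)
    have hTr : (P : Subgroup H) ≤ e.toMonoidHom.range := by
      rw [MonoidHom.range_eq_top.mpr e.surjective]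
      exact le_top
    have hinj : Function.Injective e.toMonoidHom := e.injective
    obtain ⟨T0, hT0⟩ : ∃ T0 : Sylow p (↥K ⧸ R.subgroupOf K),
        (T0 : Subgroup (↥K ⧸ R.subgroupOf K)) = (P : Subgroup H).comap e.toMonoidHom :=
      ⟨P.comapOfInjective e.toMonoidHom hinj hTr, Sylow.coe_comapOfInjective _ _ _ _⟩
    have h1 := hctl K R (fun K' R' _ => H37.Stable.section_stable_of_not_involves hp hns K' R') T0
    have h2 := H37.Control.controlsStrongFusion_congr e h1
    have h3 : (Cfsg.inducedFunctor (G := (↥K ⧸ R.subgroupOf K)) W (T0 : Subgroup _)).map e.toMonoidHom =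
        Cfsg.inducedFunctor (G := H) W (P : Subgroup H) := by
      rw [map_inducedFunctor W hW e.toMonoidHom _ hinj.injOn (Sylow.isPGroup' _)]
      congr 1
      rw [hT0, Subgroup.map_comap_eq_self hTr]
    rw [h3] at h2
    exact H37.Control.hasNormalPComplement_of_controls h2 hN'

end Cfsg.Agent.S1990
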