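import Cfsg.Statements.S2007
import Cfsg.Agent.Transfer.PNilpotentBasic
set_option linter.all false

set_option autoImplicit false
open Cfsg

namespace Cfsg.Agent.S2007

open Cfsg.Agent.Transfer.PNilpotentBasic

/-- Let p be a prime, G a finite group with Sylow p-subgroup S, and T a normal subgroup of S containing C_S(T). If N_G(T)/C_G(T) is a p-group (every element of N_G(T) of order prime to p centralizes T), then N_G(T) has a normal p-complement. -/
theorem result {G : Type*} [Group G] [Finite G] {p : ℕ} [Fact p.Prime] (S : Sylow p G) (T : Subgroup G) (hTS : T ≤ (S : Subgroup G)) (hTn : (S : Subgroup G) ≤ Subgroup.normalizer ((T : Subgroup G) : Set G)) (hC : (S : Subgroup G) ⊓ Subgroup.centralizer ((T : Subgroup G) : Set G) ≤ T) (hN : ∀ g ∈ Subgroup.normalizer ((T : Subgroup G) : Set G), (orderOf g).Coprime p → g ∈ Subgroup.centralizer ((T : Subgroup G) : Set G)) : Cfsg.HasNormalPComplement p ↥(Subgroup.normalizer ((T : Subgroup G) : Set G)) := by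
  obtain ⟨N, hNdef⟩ : ∃ N : Subgroup G, N = Subgroup.normalizer ((T : Subgroup G) : Set G) := ⟨_, rfl⟩
  have hnorm : ∀ n ∈ N, ∀ t : G, t ∈ T ↔ n * t * n⁻¹ ∈ T := by
    intro n hn t
    rw [hNdef] at hn
    exact Subgroup.mem_normalizer_iff.mp hn t
  rw [← hNdef] at hTn hN ⊢
  obtain ⟨C, hCdef⟩ : ∃ C : Subgroup N, C = (Subgroup.centralizer ((T : Subgroup G) : Set G)).subgroupOf N := ⟨_, rfl⟩
  have hmemC : ∀ x : N, x ∈ C ↔ ∀ t ∈ T, t * (x : G) = x * t := by
    intro x
    rw [hCdef, Subgroup.mem_subgroupOf, Subgroup.mem_centralizer_iff]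
    rfl
  -- `p`-subgroups of `C` lie in `T`
  obtain ⟨Q⟩ : Nonempty (Sylow p C) := inferInstance
  have hQT : ∀ q : C, q ∈ (Q : Subgroup C) → ((q : N) : G) ∈ T := by
    intro q hq
    have hQp : IsPGroup p ((Q : Subgroup C).map C.subtype) := Q.isPGroup'.map _
    obtain ⟨R, hR⟩ := hQp.exists_le_sylow
    obtain ⟨g, hg⟩ := MulAction.exists_smul_eq N R (S.subtype hTn)
    have h1 : (q : N) ∈ (R : Subgroup N) := hR ⟨q, hq, rfl⟩
    have h2 : g * q * g⁻¹ ∈ (S.subtype hTn : Sylow p N) := by
      rw [← hg]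
      exact Subgroup.smul_mem_pointwise_smul _ (MulAut.conj g) _ h1
    have h3 : (g : G) * q * (g : G)⁻¹ ∈ (S : Subgroup G) := h2
    have h4 : (g : G) * q * (g : G)⁻¹ ∈ Subgroup.centralizer ((T : Subgroup G) : Set G) := by
      rw [Subgroup.mem_centralizer_iff]
      intro t ht
      have h5 : (g : G)⁻¹ * t * g ∈ T := by
        have := (hnorm _ (N.inv_mem g.2) t).mp ht
        rwa [inv_inv] at this
      have h6 := (hmemC q).mp q.2 _ h5
      calc t * ((g : G) * q * (g : G)⁻¹) = g * ((g : G)⁻¹ * t * g * q) * (g : G)⁻¹ := by group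
        _ = g * (q * ((g : G)⁻¹ * t * g)) * (g : G)⁻¹ := by rw [h6]
        _ = (g : G) * q * (g : G)⁻¹ * t := by group
    exact (hnorm g g.2 _).mpr (hC ⟨h3, h4⟩)
  -- Burnside's transfer theorem in `C`
  have hQcent : ∀ q : C, q ∈ (Q : Subgroup C) → ∀ c : C, q * c = c * q := by
    intro q hq c
    exact Subtype.ext (Subtype.ext ((hmemC c).mp c.2 _ (hQT q hq)))
  have hCc : HasNormalPComplement p C := by
    have h1 : Subgroup.normalizer ((Q : Subgroup C) : Set C) ≤ Subgroup.centralizer ((Q : Subgroup C) : Set C) := by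
      intro c _
      rw [Subgroup.mem_centralizer_iff]
      intro q hq
      exact hQcent q hq c
    exact ⟨Q, _, inferInstance, MonoidHom.ker_transferSylow_isComplement' Q h1⟩
  rw [hnc_iff] at hCc ⊢
  refine Nat.Coprime.coprime_dvd_left ?_ hCc
  have hmap : pResidual p N ≤ (pResidual p C).map C.subtype := by
    rw [pResidual, Subgroup.closure_le]
    intro x hx
    have hx' : (orderOf x).Coprime p := hx
    have h1 : x ∈ C := by
      rw [hmemC]
      have h2 := hN x x.2 (by rwa [Subgroup.orderOf_coe])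
      exact fun t ht => (Subgroup.mem_centralizer_iff.mp h2) t ht
    refine ⟨⟨x, h1⟩, Subgroup.subset_closure ?_, rfl⟩
    change (orderOf (⟨x, h1⟩ : C)).Coprime p
    rwa [Subgroup.orderOf_mk]
  exact (Subgroup.card_dvd_of_le hmap).trans (Subgroup.card_map_dvd _ _)

end Cfsg.Agent.S2007
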