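import Cfsg.Statements.S1988
import Cfsg.Agent.S1987
import Cfsg.Agent.S1990
import Cfsg.Agent.S2007
import Cfsg.Agent.S1978
set_option linter.all false

set_option autoImplicit false
universe u
open Cfsg

namespace Cfsg.Agent.S1988

/-- The centralizer of `K_∞(S)` in `S` lies in `K_∞(S)`. -/
theorem inf_centralizer_le {G : Type u} [Group G] [Finite G] {p : ℕ} [Fact p.Prime] (S : Sylow p G) :
    (S : Subgroup G) ⊓ Subgroup.centralizer ((Cfsg.inducedFunctor Cfsg.kInfLower (S : Subgroup G) : Subgroup G) : Set G) ≤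
      Cfsg.inducedFunctor Cfsg.kInfLower (S : Subgroup G) := by
  rintro x ⟨hx, hxc⟩
  have h1 := (Cfsg.Agent.S1978.result (P := ↥(S : Subgroup G)) S.isPGroup').1
  have h2 : (⟨x, hx⟩ : ↥(S : Subgroup G)) ∈ Subgroup.centralizer (Cfsg.kInfLower ↥(S : Subgroup G) : Set ↥(S : Subgroup G)) := by
    rw [Subgroup.mem_centralizer_iff]
    intro y hy
    exact Subtype.ext (Subgroup.mem_centralizer_iff.mp hxc y ⟨y, hy, rfl⟩)
  exact ⟨⟨x, hx⟩, h1 h2, rfl⟩

/-- Let p be an odd prime, G a finite group with Sylow p-subgroup S and K the lower K-infinity subgroup of S. If N_G(K) has a normal p-complement, or if N_G(K)/C_G(K) is a p-group (every element of N_G(K) of order prime to p centralizes K), then G has a normal p-complement. -/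
theorem result {G : Type u} [Group G] [Finite G] {p : ℕ} [Fact p.Prime] (hp : p ≠ 2) (S : Sylow p G) (h : Cfsg.HasNormalPComplement p ↥(Subgroup.normalizer ((Cfsg.inducedFunctor Cfsg.kInfLower (S : Subgroup G) : Subgroup G) : Set G)) ∨ ∀ g ∈ Subgroup.normalizer ((Cfsg.inducedFunctor Cfsg.kInfLower (S : Subgroup G) : Subgroup G) : Set G), (orderOf g).Coprime p → g ∈ Subgroup.centralizer ((Cfsg.inducedFunctor Cfsg.kInfLower (S : Subgroup G) : Subgroup G) : Set G)) : Cfsg.HasNormalPComplement p G := by
  have hN : Cfsg.HasNormalPComplement p ↥(Subgroup.normalizer ((Cfsg.inducedFunctor Cfsg.kInfLower (S : Subgroup G) : Subgroup G) : Set G)) := by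
    rcases h with h | h
    · exact h
    · refine Cfsg.Agent.S2007.result S _ (H41.Functor.inducedFunctor_le _ _) ?_ (inf_centralizer_le S) h
      refine Subgroup.le_normalizer.trans ?_
      exact PLocal.ComplementReduction.normalizer_le (fun G _ P => Cfsg.inducedFunctor Cfsg.kInfLower P)
        (fun G G' _ _ _ _ f P hf hP =>
          H41.Functor.map_inducedFunctor Cfsg.kInfLower (H35.KSeq.isCharPFunctor_kInfLower p) f P hf hP)
        G (S : Subgroup G) S.isPGroup'
  exact Cfsg.Agent.S1990.result hp Cfsg.kInfLower (H35.KSeq.isCharPFunctor_kInfLower p) S hN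
    (fun K R _ hst T => Cfsg.Agent.S1987.result hp hst T)

end Cfsg.Agent.S1988
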