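import Mathlib
import Cfsg.Prelude.Def_PLocal
import Cfsg.Prelude.Def_ConjugacyFunctors
import Cfsg.Agent.PLocal.QdSection
import Cfsg.Agent.H96.QdTI
import Cfsg.Agent.Lib.GoldschmidtFusion
import Cfsg.Prelude.Def_Transfer
import Cfsg.Prelude.Def_LocalEven
import Cfsg.Agent.PLocal.ThompsonJ
import Cfsg.Agent.H40.QdTwo
import Cfsg.Prelude.Def_Local
import Cfsg.Agent.Lib.Cores
import Cfsg.Agent.PLocal.PConstrained
import Cfsg.Agent.PLocal.ZJ
import Cfsg.Agent.PLocal.S4FreeNoS3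
import Cfsg.Agent.PLocal.S4FreeSection
import Cfsg.Agent.PLocal.S4FreeClosure
import Cfsg.Agent.H41.ClassTwoFactor
import Cfsg.Statements.S1999
import Cfsg.Agent.H39.FusionThm
set_option linter.all false

-- part: H40/QdNoControl
section
/-!
# No set of characteristic functors controls strong fusion in `Qd(p)`

`exists_sylow_iso`: a Sylow `p`-subgroup of `X ≃ Qd(p)` corresponds to the upper unitriangular group `T₀`.
`structure_of_char`: for `T` Sylow in `X ≃ Qd(p)` there are `Z ≤ T`, `z ∈ Z`, `h` with `h z h⁻¹ ∈ T ∖ Z` and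
`N(W) ≤ N(Z)` for every nontrivial characteristic subgroup `W` of `T`.
`not_family`: no set of functors with nontrivial characteristic values controls strong fusion in `X`.
-/

set_option autoImplicit false

namespace Cfsg.Agent.H40.QdNoControl

open Cfsg Subgroup
open Cfsg.Agent.PLocal.QdSection
open scoped commutatorElement

variable {p : ℕ}

/-- the entries of a member of `Qd(p)` -/
abbrev ent (M : ↥(Cfsg.qd p)) (i j : Fin 3) : ZMod p :=
  ((M : Matrix.SpecialLinearGroup (Fin 3) (ZMod p)) : Matrix (Fin 3) (Fin 3) (ZMod p)) i j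

theorem ent_row (M : ↥(Cfsg.qd p)) : ent M 2 0 = 0 ∧ ent M 2 1 = 0 ∧ ent M 2 2 = 1 := by
  obtain ⟨v, A, h⟩ := H96.QdTI.row_of_mem_qd M.2
  unfold ent
  rw [h, Matrix.SpecialLinearGroup.coe_mul, transl_apply, PLocal.QdSection.diag_apply]
  refine ⟨?_, ?_, ?_⟩ <;> simp [Matrix.mul_apply, Fin.sum_univ_three]

theorem ent_mul (M N : ↥(Cfsg.qd p)) (i j : Fin 3) :
    ent (M * N) i j = ent M i 0 * ent N 0 j + ent M i 1 * ent N 1 j + ent M i 2 * ent N 2 j := by
  change (((M : Matrix.SpecialLinearGroup (Fin 3) (ZMod p)) *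
    (N : Matrix.SpecialLinearGroup (Fin 3) (ZMod p)) : Matrix.SpecialLinearGroup (Fin 3) (ZMod p)) :
    Matrix (Fin 3) (Fin 3) (ZMod p)) i j = _
  rw [Matrix.SpecialLinearGroup.coe_mul, Matrix.mul_apply, Fin.sum_univ_three]

theorem ent_one (i j : Fin 3) : ent (1 : ↥(Cfsg.qd p)) i j = if i = j then 1 else 0 := by
  change ((1 : Matrix.SpecialLinearGroup (Fin 3) (ZMod p)) : Matrix (Fin 3) (Fin 3) (ZMod p)) i j = _
  rw [Matrix.SpecialLinearGroup.coe_one, Matrix.one_apply]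

theorem ent_det (M : ↥(Cfsg.qd p)) : ent M 0 0 * ent M 1 1 - ent M 0 1 * ent M 1 0 = 1 := by
  have h := (M : Matrix.SpecialLinearGroup (Fin 3) (ZMod p)).det_coe
  rw [Matrix.det_fin_three] at h
  obtain ⟨h0, h1, h2⟩ := ent_row M
  unfold ent at h0 h1 h2 ⊢
  rw [h0, h1, h2] at h
  linear_combination h

theorem ent_ext {M N : ↥(Cfsg.qd p)} (h00 : ent M 0 0 = ent N 0 0) (h01 : ent M 0 1 = ent N 0 1)
    (h02 : ent M 0 2 = ent N 0 2) (h10 : ent M 1 0 = ent N 1 0) (h11 : ent M 1 1 = ent N 1 1)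
    (h12 : ent M 1 2 = ent N 1 2) : M = N := by
  obtain ⟨a0, a1, a2⟩ := ent_row M
  obtain ⟨b0, b1, b2⟩ := ent_row N
  apply Subtype.ext
  apply Subtype.ext
  ext i j
  fin_cases i <;> fin_cases j
  · exact h00
  · exact h01
  · exact h02
  · exact h10
  · exact h11
  · exact h12
  · exact a0.trans b0.symm
  · exact a1.trans b1.symm
  · exact a2.trans b2.symm

/-- the unitriangular elements -/
def u (b x y : ZMod p) : ↥(Cfsg.qd p) :=
  ⟨⟨!![1, b, x; 0, 1, y; 0, 0, 1], by simp [Matrix.det_fin_three]⟩,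
    Subgroup.subset_closure ⟨by simp, by simp, by simp⟩⟩

theorem u_00 (b x y : ZMod p) : ent (u b x y) 0 0 = 1 := rfl
theorem u_01 (b x y : ZMod p) : ent (u b x y) 0 1 = b := rfl
theorem u_02 (b x y : ZMod p) : ent (u b x y) 0 2 = x := rfl
theorem u_10 (b x y : ZMod p) : ent (u b x y) 1 0 = 0 := rfl
theorem u_11 (b x y : ZMod p) : ent (u b x y) 1 1 = 1 := rfl
theorem u_12 (b x y : ZMod p) : ent (u b x y) 1 2 = y := rfl
theorem u_20 (b x y : ZMod p) : ent (u b x y) 2 0 = 0 := rfl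
theorem u_21 (b x y : ZMod p) : ent (u b x y) 2 1 = 0 := rfl
theorem u_22 (b x y : ZMod p) : ent (u b x y) 2 2 = 1 := rfl

theorem u_mul (b x y b' x' y' : ZMod p) : u b x y * u b' x' y' = u (b + b') (x + x' + b * y') (y + y') := by
  apply ent_ext <;> rw [ent_mul] <;>
    simp only [u_00, u_01, u_02, u_10, u_11, u_12, u_20, u_21, u_22] <;> ring

theorem u_zero : u (0 : ZMod p) 0 0 = 1 := by
  apply ent_ext <;> rw [ent_one] <;> simp [u_00, u_01, u_02, u_10, u_11, u_12]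

theorem u_inv (b x y : ZMod p) : (u b x y)⁻¹ = u (-b) (b * y - x) (-y) := by
  rw [inv_eq_iff_mul_eq_one, u_mul, ← u_zero]
  congr 1 <;> ring

theorem u_injective {b x y b' x' y' : ZMod p} (h : u b x y = u b' x' y') : b = b' ∧ x = x' ∧ y = y' := by
  refine ⟨?_, ?_, ?_⟩
  · rw [← u_01 b x y, h, u_01]
  · rw [← u_02 b x y, h, u_02]
  · rw [← u_12 b x y, h, u_12]

/-- the unitriangular group -/
def T₀ (p : ℕ) : Subgroup ↥(Cfsg.qd p) where
  carrier := {M | ∃ b x y, M = u b x y}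
  mul_mem' := by
    rintro _ _ ⟨b, x, y, rfl⟩ ⟨b', x', y', rfl⟩
    exact ⟨_, _, _, u_mul _ _ _ _ _ _⟩
  one_mem' := ⟨0, 0, 0, u_zero.symm⟩
  inv_mem' := by
    rintro _ ⟨b, x, y, rfl⟩
    exact ⟨_, _, _, u_inv _ _ _⟩

theorem mem_T₀ {M : ↥(Cfsg.qd p)} : M ∈ T₀ p ↔ ∃ b x y, M = u b x y := Iff.rfl

theorem u_mem_T₀ (b x y : ZMod p) : u b x y ∈ T₀ p := ⟨_, _, _, rfl⟩

theorem mem_T₀_iff {M : ↥(Cfsg.qd p)} : M ∈ T₀ p ↔ ent M 0 0 = 1 ∧ ent M 1 0 = 0 ∧ ent M 1 1 = 1 := by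
  constructor
  · rintro ⟨b, x, y, rfl⟩
    exact ⟨rfl, rfl, rfl⟩
  · rintro ⟨h0, h1, h2⟩
    exact ⟨ent M 0 1, ent M 0 2, ent M 1 2, ent_ext h0 rfl rfl h1 h2 rfl⟩

/-- the centre of the unitriangular group -/
def Z₀ (p : ℕ) : Subgroup ↥(Cfsg.qd p) where
  carrier := {M | ∃ x, M = u 0 x 0}
  mul_mem' := by
    rintro _ _ ⟨x, rfl⟩ ⟨x', rfl⟩
    refine ⟨x + x', ?_⟩
    rw [u_mul]
    congr 1 <;> ring
  one_mem' := ⟨0, u_zero.symm⟩
  inv_mem' := by
    rintro _ ⟨x, rfl⟩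
    refine ⟨-x, ?_⟩
    rw [u_inv]
    congr 1 <;> ring

theorem mem_Z₀ {M : ↥(Cfsg.qd p)} : M ∈ Z₀ p ↔ ∃ x, M = u 0 x 0 := Iff.rfl

theorem Z₀_le : Z₀ p ≤ T₀ p := by
  rintro _ ⟨x, rfl⟩
  exact u_mem_T₀ _ _ _

/-- the automorphism of the unitriangular group exchanging the two elementary abelian subgroups -/
def sigma (p : ℕ) : MulAut (T₀ p) where
  toFun M := ⟨u (-(ent M.1 1 2)) (ent M.1 0 1 * ent M.1 1 2 - ent M.1 0 2) (-(ent M.1 0 1)), u_mem_T₀ _ _ _⟩
  invFun M := ⟨u (-(ent M.1 1 2)) (ent M.1 0 1 * ent M.1 1 2 - ent M.1 0 2) (-(ent M.1 0 1)), u_mem_T₀ _ _ _⟩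
  left_inv := by
    rintro ⟨_, b, x, y, rfl⟩
    apply Subtype.ext
    simp only [u_01, u_02, u_12]
    congr 1 <;> ring
  right_inv := by
    rintro ⟨_, b, x, y, rfl⟩
    apply Subtype.ext
    simp only [u_01, u_02, u_12]
    congr 1 <;> ring
  map_mul' := by
    rintro ⟨_, b, x, y, rfl⟩ ⟨_, b', x', y', rfl⟩
    apply Subtype.ext
    change u (-(ent (u b x y * u b' x' y') 1 2)) (ent (u b x y * u b' x' y') 0 1 *
      ent (u b x y * u b' x' y') 1 2 - ent (u b x y * u b' x' y') 0 2) (-(ent (u b x y * u b' x' y') 0 1)) =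
      u (-y) (b * y - x) (-b) * u (-y') (b' * y' - x') (-b')
    rw [u_mul, u_mul, u_01, u_02, u_12]
    congr 1 <;> ring

theorem sigma_u (b x y : ZMod p) (h : u b x y ∈ T₀ p) :
    ((sigma p ⟨u b x y, h⟩ : T₀ p) : ↥(Cfsg.qd p)) = u (-y) (b * y - x) (-b) := rfl

/-- powers of a central element -/
theorem u_pow (x : ZMod p) (k : ℕ) : u 0 x 0 ^ k = u 0 ((k : ZMod p) * x) 0 := by
  induction k with
  | zero => rw [pow_zero, ← u_zero]; congr 1; simp
  | succ k ih =>
    rw [pow_succ, ih, u_mul]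
    congr 1
    · ring
    · push_cast; ring
    · ring

theorem u_pow' (y : ZMod p) (k : ℕ) : u 0 0 y ^ k = u 0 0 ((k : ZMod p) * y) := by
  induction k with
  | zero => rw [pow_zero, ← u_zero]; congr 1; simp
  | succ k ih =>
    rw [pow_succ, ih, u_mul]
    congr 1
    · ring
    · ring
    · push_cast; ring

theorem u_mem_of_ne [Fact p.Prime] {W : Subgroup ↥(Cfsg.qd p)} {c : ZMod p} (hc : c ≠ 0) (h : u 0 c 0 ∈ W)
    (x : ZMod p) : u 0 x 0 ∈ W := by
  have h1 := W.pow_mem h (x * c⁻¹).val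
  rw [u_pow, ZMod.natCast_zmod_val, mul_assoc, inv_mul_cancel₀ hc, mul_one] at h1
  exact h1

theorem u_mem_of_ne' [Fact p.Prime] {W : Subgroup ↥(Cfsg.qd p)} {c : ZMod p} (hc : c ≠ 0) (h : u 0 0 c ∈ W)
    (x : ZMod p) : u 0 0 x ∈ W := by
  have h1 := W.pow_mem h (x * c⁻¹).val
  rw [u_pow', ZMod.natCast_zmod_val, mul_assoc, inv_mul_cancel₀ hc, mul_one] at h1
  exact h1

/-- a nontrivial subgroup of `T₀` normalized by `T₀` contains `Z₀` -/
theorem Z₀_le_of_normal [Fact p.Prime] {W : Subgroup ↥(Cfsg.qd p)} (hW : W ≤ T₀ p) (hW1 : W ≠ ⊥)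
    (hn : ∀ t ∈ T₀ p, ∀ w ∈ W, t * w * t⁻¹ ∈ W) : Z₀ p ≤ W := by
  obtain ⟨⟨w, hw⟩, hw1⟩ := Subgroup.ne_bot_iff_exists_ne_one.mp hW1
  have hw1' : w ≠ 1 := fun h => hw1 (Subtype.ext h)
  obtain ⟨b, x, y, rfl⟩ := hW hw
  rintro _ ⟨t, rfl⟩
  by_cases hb : b = 0
  · by_cases hy : y = 0
    · subst hb hy
      have hx : x ≠ 0 := by
        rintro rfl
        exact hw1' u_zero
      exact u_mem_of_ne hx hw t
    · have h1 := mul_mem (hn (u 1 0 0) (u_mem_T₀ _ _ _) _ hw) (inv_mem hw)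
      rw [u_inv, u_inv, u_mul, u_mul, u_mul] at h1
      refine u_mem_of_ne hy ?_ t
      convert h1 using 1
      congr 1 <;> ring
  · have h1 := mul_mem (hn (u 0 0 1) (u_mem_T₀ _ _ _) _ hw) (inv_mem hw)
    rw [u_inv, u_inv, u_mul, u_mul, u_mul] at h1
    refine u_mem_of_ne (neg_ne_zero.mpr hb) ?_ t
    convert h1 using 1
    congr 1 <;> ring

theorem conj_Z₀ (M : ↥(Cfsg.qd p)) (t : ZMod p) :
    M * u 0 t 0 * M⁻¹ = u 0 (t * ent M 0 0) (t * ent M 1 0) := by
  rw [mul_inv_eq_iff_eq_mul]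
  obtain ⟨h0, h1, h2⟩ := ent_row M
  apply ent_ext <;> rw [ent_mul, ent_mul] <;>
    simp only [u_00, u_01, u_02, u_10, u_11, u_12, u_20, u_21, u_22, h0, h1, h2] <;> ring

theorem normalizes_T₀ {M : ↥(Cfsg.qd p)} (h : M * u 1 0 0 * M⁻¹ ∈ T₀ p) : ent M 1 0 = 0 := by
  obtain ⟨b, x, y, h⟩ := h
  rw [mul_inv_eq_iff_eq_mul] at h
  have h1 := congrArg (fun N => ent N 1 1) h
  simp only [ent_mul, u_00, u_01, u_02, u_10, u_11, u_12, u_20, u_21, u_22] at h1
  obtain ⟨a0, a1, a2⟩ := ent_row M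
  rw [a1] at h1
  linear_combination h1

/-- **Normalizers of characteristic subgroups of `T₀`** -/
theorem normalizer_le [Fact p.Prime] {W : Subgroup ↥(Cfsg.qd p)} (hW : W ≤ T₀ p) (hW1 : W ≠ ⊥)
    (hc : (W.subgroupOf (T₀ p)).Characteristic) : normalizer (W : Set ↥(Cfsg.qd p)) ≤
      normalizer (Z₀ p : Set ↥(Cfsg.qd p)) := by
  have hn : ∀ t ∈ T₀ p, ∀ w ∈ W, t * w * t⁻¹ ∈ W := by
    intro t ht w hw
    have h1 : (W.subgroupOf (T₀ p)).Normal := inferInstance
    exact h1.conj_mem ⟨w, hW hw⟩ hw ⟨t, ht⟩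
  have hZ := Z₀_le_of_normal hW hW1 hn
  have hσ : ∀ w (hw : w ∈ W), ((sigma p ⟨w, hW hw⟩ : T₀ p) : ↥(Cfsg.qd p)) ∈ W := by
    intro w hw
    have h1 := hc.fixed (sigma p)
    have h2 : (⟨w, hW hw⟩ : T₀ p) ∈ W.subgroupOf (T₀ p) := hw
    rw [← h1] at h2
    exact h2
  have key : ∀ M ∈ normalizer (W : Set ↥(Cfsg.qd p)), ent M 1 0 = 0 := by
    intro M hM
    by_contra hne
    have h1 : u 0 (ent M 0 0) (ent M 1 0) ∈ W := by
      have := (mem_normalizer_iff.mp hM (u 0 1 0)).mp (hZ ⟨1, rfl⟩)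
      rw [conj_Z₀, one_mul, one_mul] at this
      exact this
    have h2 : u 0 0 (ent M 1 0) ∈ W := by
      have := mul_mem (hZ ⟨-(ent M 0 0), rfl⟩) h1
      rw [u_mul] at this
      convert this using 1
      congr 1 <;> ring
    have h3 : ∀ y, u 0 0 y ∈ W := u_mem_of_ne' hne h2
    have h4 : ∀ b, u b 0 0 ∈ W := by
      intro b
      have := hσ _ (h3 (-b))
      rw [sigma_u] at this
      convert this using 1
      congr 1 <;> ring
    have h5 : T₀ p ≤ W := by
      rintro _ ⟨b, x, y, rfl⟩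
      have := mul_mem (mul_mem (h3 y) (h4 b)) (hZ ⟨x, rfl⟩)
      rw [u_mul, u_mul] at this
      convert this using 1
      congr 1 <;> ring
    apply hne
    apply normalizes_T₀
    exact hW ((mem_normalizer_iff.mp hM _).mp (h5 (u_mem_T₀ _ _ _)))
  intro M hM
  have key2 : ∀ N ∈ normalizer (W : Set ↥(Cfsg.qd p)), ∀ z ∈ Z₀ p, N * z * N⁻¹ ∈ Z₀ p := by
    rintro N hN _ ⟨t, rfl⟩
    rw [conj_Z₀, key N hN, mul_zero]
    exact ⟨_, rfl⟩
  rw [mem_normalizer_iff]
  intro h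
  refine ⟨key2 M hM h, fun hh => ?_⟩
  have h2 := key2 M⁻¹ (inv_mem hM) _ hh
  have h3 : M⁻¹ * (M * h * M⁻¹) * M⁻¹⁻¹ = h := by group
  rwa [h3] at h2

/-- a rotation moving the centre of `T₀` -/
def rot (p : ℕ) : ↥(Cfsg.qd p) :=
  ⟨⟨!![0, -1, 0; 1, 0, 0; 0, 0, 1], by simp [Matrix.det_fin_three]⟩,
    Subgroup.subset_closure ⟨by simp, by simp, by simp⟩⟩

theorem rot_conj (p : ℕ) : rot p * u 0 1 0 * (rot p)⁻¹ = u 0 0 1 := by
  rw [conj_Z₀]
  congr 1
  · change (1 : ZMod p) * 0 = 0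
    ring
  · change (1 : ZMod p) * 1 = 1
    ring

theorem rot_not_mem [Fact p.Prime] : u (0 : ZMod p) 0 1 ∉ Z₀ p := by
  rintro ⟨x, hx⟩
  exact one_ne_zero (u_injective hx).2.2

/-- `T₀` is a `p`-group -/
theorem T₀_pgroup [Fact p.Prime] : IsPGroup p (T₀ p) := by
  rintro ⟨_, b, x, y, rfl⟩
  refine ⟨2, Subtype.ext ?_⟩
  change u b x y ^ (p ^ 2) = 1
  have h1 : ∀ k : ℕ, ∃ x', u b x y ^ k = u ((k : ZMod p) * b) x' ((k : ZMod p) * y) := by
    intro k
    induction k with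
    | zero => exact ⟨0, by rw [pow_zero, ← u_zero]; congr 1 <;> simp⟩
    | succ k ih =>
      obtain ⟨x', hx'⟩ := ih
      refine ⟨x' + x + (k : ZMod p) * b * y, ?_⟩
      rw [pow_succ, hx', u_mul]
      congr 1
      · push_cast; ring
      · push_cast; ring
  obtain ⟨x', hx'⟩ := h1 p
  rw [pow_two, pow_mul, hx']
  have h2 : u ((p : ZMod p) * b) x' ((p : ZMod p) * y) = u 0 x' 0 := by
    congr 1 <;> simp
  rw [h2, u_pow, ← u_zero]
  congr 1
  simp

theorem triangular_pow (M : ↥(Cfsg.qd p)) (h : ent M 1 0 = 0) (k : ℕ) :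
    ent (M ^ k) 1 0 = 0 ∧ ent (M ^ k) 0 0 = ent M 0 0 ^ k := by
  induction k with
  | zero => rw [pow_zero, pow_zero, ent_one, ent_one]; simp
  | succ k ih =>
    obtain ⟨h0, h1, h2⟩ := ent_row M
    rw [pow_succ, ent_mul, ent_mul, ih.1, ih.2, h, h0, pow_succ]
    constructor <;> ring

/-- `T₀` is a Sylow `p`-subgroup -/
theorem T₀_maximal [Fact p.Prime] {Q : Subgroup ↥(Cfsg.qd p)} (hQ : IsPGroup p Q) (hle : T₀ p ≤ Q) :
    Q = T₀ p := by
  rcases eq_or_lt_of_le hle with h | h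
  · exact h.symm
  exfalso
  have h1 := Lib.GoldschmidtFusion.lt_inf_normalizer hQ h
  obtain ⟨M, hM, hMT⟩ := SetLike.exists_of_lt h1
  apply hMT
  have h2 : ent M 1 0 = 0 := normalizes_T₀ ((mem_normalizer_iff.mp hM.2 _).mp (u_mem_T₀ _ _ _))
  obtain ⟨k, hk⟩ := hQ ⟨M, hM.1⟩
  have hk' : M ^ p ^ k = 1 := congrArg Subtype.val hk
  have h3 := (triangular_pow M h2 (p ^ k)).2
  rw [hk', ent_one, ZMod.pow_card_pow] at h3
  have h00 : ent M 0 0 = 1 := by simpa using h3.symm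
  have h4 := ent_det M
  rw [h00, h2] at h4
  exact mem_T₀_iff.mpr ⟨h00, h2, by linear_combination h4⟩

/-- the Sylow `p`-subgroup `T₀` -/
def sylT₀ (p : ℕ) [Fact p.Prime] : Sylow p ↥(Cfsg.qd p) :=
  { T₀ p with
    isPGroup' := T₀_pgroup
    is_maximal' := fun hQ hle => T₀_maximal hQ hle }

theorem coe_sylT₀ [Fact p.Prime] : ((sylT₀ p : Sylow p ↥(Cfsg.qd p)) : Subgroup ↥(Cfsg.qd p)) = T₀ p := rfl

/-- A Sylow `p`-subgroup of a group isomorphic to `Qd(p)` can be moved onto `T₀`. -/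
theorem exists_sylow_iso [Fact p.Prime] {X : Type*} [Group X] (e : X ≃* ↥(Cfsg.qd p)) (T : Sylow p X) :
    ∃ f : X ≃* ↥(Cfsg.qd p), (T : Subgroup X).map f.toMonoidHom = T₀ p := by
  have : Finite ↥(Cfsg.qd p) := inferInstance
  have : Finite X := Finite.of_equiv _ e.symm.toEquiv
  let S : Sylow p ↥(Cfsg.qd p) := T.mapSurjective (f := e.toMonoidHom) e.surjective
  have hS : (S : Subgroup ↥(Cfsg.qd p)) = (T : Subgroup X).map e.toMonoidHom := rfl
  obtain ⟨g, hg⟩ := MulAction.exists_smul_eq ↥(Cfsg.qd p) S (sylT₀ p)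
  refine ⟨e.trans (MulAut.conj g), ?_⟩
  have h1 : ((g • S : Sylow p ↥(Cfsg.qd p)) : Subgroup ↥(Cfsg.qd p)) = T₀ p := by rw [hg]; rfl
  rw [← h1, Sylow.smul_def, Sylow.pointwise_smul_def, hS]
  change _ = ((T : Subgroup X).map e.toMonoidHom).map (MulAut.conj g).toMonoidHom
  rw [Subgroup.map_map]
  rfl

/-- characteristic subgroups are transported by isomorphisms -/
theorem characteristic_map {X Y : Type*} [Group X] [Group Y] (f : X ≃* Y) {T W : Subgroup X}
    (hc : (W.subgroupOf T).Characteristic) :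
    ((W.map f.toMonoidHom).subgroupOf (T.map f.toMonoidHom)).Characteristic := by
  rw [Subgroup.characteristic_iff_map_le]
  intro φ
  let E : ↥T ≃* ↥(T.map f.toMonoidHom) := f.subgroupMap T
  have hE : ∀ t : T, ((E t : ↥(T.map f.toMonoidHom)) : Y) = f t := fun t => rfl
  let ψ : MulAut T := (E.trans φ).trans E.symm
  rintro _ ⟨⟨_, ⟨t, ht, rfl⟩⟩, hy, rfl⟩
  have h1 : t ∈ W := by
    obtain ⟨w, hw, hwt⟩ := hy
    have : w = t := f.injective hwt
    exact this ▸ hw
  have h2 : ψ ⟨t, ht⟩ ∈ W.subgroupOf T := by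
    have h3 := (Subgroup.characteristic_iff_map_le.mp hc) ψ
    exact h3 ⟨⟨t, ht⟩, h1, rfl⟩
  have h4 : E (ψ ⟨t, ht⟩) = φ ⟨f.toMonoidHom t, ⟨t, ht, rfl⟩⟩ := by
    change E (E.symm (φ (E ⟨t, ht⟩))) = _
    rw [MulEquiv.apply_symm_apply]
    rfl
  change φ ⟨f.toMonoidHom t, _⟩ ∈ _
  rw [← h4]
  exact ⟨_, h2, rfl⟩

/-- **Characteristic subgroups of a Sylow `p`-subgroup of `Qd(p)`.** -/
theorem structure_of_char [Fact p.Prime] {X : Type*} [Group X] (e : X ≃* ↥(Cfsg.qd p)) (T : Sylow p X) :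
    ∃ Z : Subgroup X, Z ≤ T ∧ ∃ z ∈ Z, ∃ h : X, h * z * h⁻¹ ∈ (T : Subgroup X) ∧ h * z * h⁻¹ ∉ Z ∧
      ∀ W : Subgroup X, W ≤ T → W ≠ ⊥ → (W.subgroupOf (T : Subgroup X)).Characteristic →
        normalizer (W : Set X) ≤ normalizer (Z : Set X) := by
  obtain ⟨f, hf⟩ := exists_sylow_iso e T
  have hT : (T : Subgroup X) = (T₀ p).comap f.toMonoidHom := by
    rw [← hf, Subgroup.comap_map_eq_self_of_injective f.injective]
  refine ⟨(Z₀ p).comap f.toMonoidHom, ?_, f.symm (u 0 1 0), ?_, f.symm (rot p), ?_, ?_, ?_⟩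
  · rw [hT]; exact Subgroup.comap_mono Z₀_le
  · rw [mem_comap]
    change f (f.symm _) ∈ _
    rw [MulEquiv.apply_symm_apply]
    exact ⟨1, rfl⟩
  · rw [hT, mem_comap]
    change f _ ∈ _
    rw [map_mul, map_mul, map_inv, MulEquiv.apply_symm_apply, MulEquiv.apply_symm_apply, rot_conj]
    exact u_mem_T₀ _ _ _
  · rw [mem_comap]
    change f _ ∉ _
    rw [map_mul, map_mul, map_inv, MulEquiv.apply_symm_apply, MulEquiv.apply_symm_apply, rot_conj]
    exact rot_not_mem
  · intro W hWT hW1 hc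
    have hc' := characteristic_map f hc
    rw [hf] at hc'
    have h1 : W.map f.toMonoidHom ≤ T₀ p := by rw [← hf]; exact Subgroup.map_mono hWT
    have h2 : W.map f.toMonoidHom ≠ ⊥ := by
      intro h0
      exact hW1 ((Subgroup.map_eq_bot_iff_of_injective W f.injective).mp h0)
    have h3 := normalizer_le h1 h2 hc'
    intro x hx
    have h4 : f x ∈ normalizer ((W.map f.toMonoidHom : Subgroup ↥(Cfsg.qd p)) : Set ↥(Cfsg.qd p)) :=
      Subgroup.le_normalizer_map f.toMonoidHom ⟨x, hx, rfl⟩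
    have h5 := h3 h4
    rw [mem_normalizer_iff] at h5 ⊢
    intro y
    have h6 := h5 (f y)
    rw [mem_comap, mem_comap]
    change f y ∈ _ ↔ f (x * y * x⁻¹) ∈ _
    rw [map_mul, map_mul, map_inv]
    exact h6

/-- **No set of functors with nontrivial characteristic values controls strong fusion in `Qd(p)`.** -/
theorem not_family [Fact p.Prime] {X : Type*} [Group X] [Finite X] (e : X ≃* ↥(Cfsg.qd p))
    (𝓦 : Set (Subgroup X → Subgroup X))
    (h𝓦 : ∀ W ∈ 𝓦, ∀ T : Subgroup X, IsPGroup p T → T ≠ ⊥ →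
      W T ≤ T ∧ W T ≠ ⊥ ∧ ((W T).subgroupOf T).Characteristic) :
    ¬ FamilyControlsStrongFusionIn p 𝓦 ⊤ := by
  rintro ⟨T, -, hT, hidx, hctrl⟩
  rw [Subgroup.relIndex_top_right] at hidx
  obtain ⟨S, hS⟩ := hT.exists_le_sylow
  have hTS : T = (S : Subgroup X) := by
    refine le_antisymm hS ?_
    by_contra hlt
    obtain ⟨n, hn⟩ := IsPGroup.iff_card.mp S.isPGroup'
    have h1 : T.relIndex (S : Subgroup X) ∣ T.index := Subgroup.relIndex_dvd_index_of_le hS
    have h2 : T.relIndex (S : Subgroup X) ∣ Nat.card S := Subgroup.relIndex_dvd_card _ _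
    rw [hn, Nat.dvd_prime_pow Fact.out] at h2
    obtain ⟨m, -, hm⟩ := h2
    rcases Nat.eq_zero_or_pos m with rfl | hm0
    · rw [pow_zero, Subgroup.relIndex_eq_one] at hm
      exact hlt hm
    · exact hidx ((dvd_pow_self p hm0.ne').trans (hm ▸ h1))
  obtain ⟨Z, hZT, z, hz, h, hhT, hhZ, hN⟩ := structure_of_char e S
  have hzT : z ∈ T := by rw [hTS]; exact hZT hz
  have hT1 : T ≠ ⊥ := by
    rintro rfl
    rw [mem_bot] at hzT
    subst hzT
    apply hhZ
    simp only [mul_one, mul_inv_cancel]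
    exact one_mem _
  obtain ⟨n, c, hc0, hc1, hc2, hc3⟩ := hctrl {z} h (mem_top h) (by simpa using hzT) (by
    rintro _ ⟨y, hy, rfl⟩
    rw [Set.mem_singleton_iff] at hy
    subst hy
    rw [hTS]
    exact hhT)
  have key : ∀ i : Fin (n + 1), c i ∈ normalizer (Z : Set X) := by
    intro i
    induction i using Fin.induction with
    | zero => rw [hc0]; exact one_mem _
    | succ i ih =>
      obtain ⟨W, hW, hi⟩ := hc1 i
      obtain ⟨a1, a2, a3⟩ := h𝓦 W hW T hT hT1
      rw [hTS] at a1 a2 a3 hi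
      have h1 := hN _ a1 a2 a3 hi.2
      have h2 := mul_mem h1 ih
      simpa using h2
  apply hhZ
  rw [← hc3 z rfl]
  exact (mem_normalizer_iff.mp (key (Fin.last n)) z).mp hz

universe v

/-- **No set of isomorphism-invariant `p`-group functors controls strong fusion in `Qd(p)`.** -/
theorem not_family_charP [Fact p.Prime] {X : Type v} [Group X] [Finite X] (e : X ≃* ↥(Cfsg.qd p))
    (𝓦 : Set (∀ (Q : Type v) [Group Q], Subgroup Q)) (h𝓦 : ∀ W ∈ 𝓦, IsCharPFunctor.{v} p W) :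
    ¬ FamilyControlsStrongFusionIn p ((fun W => inducedFunctor (G := X) W) '' 𝓦) ⊤ := by
  refine not_family e _ ?_
  rintro _ ⟨W, hW, rfl⟩ T hT hT1
  obtain ⟨hW1, hW2⟩ := h𝓦 W hW
  have hsub : (inducedFunctor (G := X) W T).subgroupOf T = W ↥T := by
    unfold inducedFunctor
    exact Subgroup.comap_map_eq_self_of_injective T.subtype_injective _
  refine ⟨Subgroup.map_subtype_le _, ?_, ?_⟩
  · intro h0
    have : Nontrivial ↥T := (Subgroup.nontrivial_iff_ne_bot T).mpr hT1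
    exact hW1 ↥T hT this ((Subgroup.map_eq_bot_iff_of_injective _ T.subtype_injective).mp h0)
  · change ((inducedFunctor (G := X) W T).subgroupOf T).Characteristic
    rw [hsub, Subgroup.characteristic_iff_map_eq]
    intro φ
    exact hW2 ↥T ↥T hT φ

end Cfsg.Agent.H40.QdNoControl
end

-- part: H40/ZJe
section
/-!
The centre and the elementary abelian Thompson subgroup `J_e` as isomorphism-invariant functors for the prime 2
(`charP_zf`, `charP_jf`), and: if `{Z, J_e}` controls strong fusion in every section of `G` then `S₄` is not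
involved in `G` (`not_involves_of_family`).
-/

set_option autoImplicit false
universe u
open Cfsg

namespace Cfsg.Agent.H40.ZJe

open Cfsg.Agent

/-- the centre as a functor -/
def zf (Q : Type u) [Group Q] : Subgroup Q := Subgroup.center Q

/-- the elementary abelian Thompson subgroup as a functor -/
def jf (Q : Type u) [Group Q] : Subgroup Q := thompsonSubgroup 2 Q

theorem induced_zf {X : Type u} [Group X] : inducedFunctor (G := X) @zf.{u} =
    fun P : Subgroup X => P ⊓ Subgroup.centralizer ((P : Subgroup X) : Set X) := by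
  funext P
  ext x
  change x ∈ (Subgroup.center ↥P).map P.subtype ↔ _
  rw [Subgroup.mem_map, Subgroup.mem_inf, Subgroup.mem_centralizer_iff]
  constructor
  · rintro ⟨y, hy, rfl⟩
    refine ⟨y.2, fun h hh => ?_⟩
    exact congrArg Subtype.val (Subgroup.mem_center_iff.mp hy ⟨h, hh⟩)
  · rintro ⟨hx, hc⟩
    exact ⟨⟨x, hx⟩, Subgroup.mem_center_iff.mpr fun h => Subtype.ext (hc h h.2), rfl⟩

theorem induced_jf {X : Type u} [Group X] : inducedFunctor (G := X) @jf.{u} =
    fun P : Subgroup X => Cfsg.thompsonSubgroupOf 2 P := rfl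

theorem charP_zf : IsCharPFunctor.{u} 2 @zf.{u} := by
  have : Fact (Nat.Prime 2) := ⟨Nat.prime_two⟩
  refine ⟨?_, ?_⟩
  · intro Q _ _ hQ hnt h0
    have := hQ.center_nontrivial
    exact (Subgroup.nontrivial_iff_ne_bot _).mp this h0
  · intro Q R _ _ _ _ φ
    ext x
    change x ∈ (Subgroup.center Q).map φ.toMonoidHom ↔ x ∈ Subgroup.center R
    rw [Subgroup.mem_map, Subgroup.mem_center_iff]
    constructor
    · rintro ⟨y, hy, rfl⟩ g
      obtain ⟨h, rfl⟩ := φ.surjective g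
      change φ h * φ y = φ y * φ h
      rw [← map_mul, ← map_mul, Subgroup.mem_center_iff.mp hy h]
    · intro hx
      refine ⟨φ.symm x, Subgroup.mem_center_iff.mpr fun h => φ.injective ?_, φ.apply_symm_apply x⟩
      rw [map_mul, map_mul, φ.apply_symm_apply]
      exact hx (φ h)

theorem charP_jf : IsCharPFunctor.{u} 2 @jf.{u} := by
  have : Fact (Nat.Prime 2) := ⟨Nat.prime_two⟩
  refine ⟨?_, ?_⟩
  · intro Q _ _ hQ hnt
    refine PLocal.ThompsonJ.thompsonSubgroup_ne_bot ?_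
    obtain ⟨n, hn⟩ := IsPGroup.iff_card.mp hQ
    rw [hn]
    have : n ≠ 0 := by
      rintro rfl
      rw [pow_zero] at hn
      exact absurd (Finite.one_lt_card_iff_nontrivial.mpr hnt) (by omega)
    exact dvd_pow_self 2 this
  · intro Q R _ _ _ _ φ
    exact PLocal.ThompsonJ.map_mulEquiv_thompsonSubgroup 2 φ

/-- **`{Z, J_e}` does not control strong fusion in `S₄`.** -/
theorem not_family_perm {X : Type u} [Group X] [Finite X] (e : X ≃* Equiv.Perm (Fin 4)) :
    ¬ FamilyControlsStrongFusionIn 2 ({fun P : Subgroup X => P ⊓ Subgroup.centralizer ((P : Subgroup X) : Set X),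
      fun P : Subgroup X => Cfsg.thompsonSubgroupOf 2 P} : Set (Subgroup X → Subgroup X)) ⊤ := by
  obtain ⟨f⟩ := H40.QdTwo.qd_two
  have : Fact (Nat.Prime 2) := ⟨Nat.prime_two⟩
  have h := H40.QdNoControl.not_family_charP (p := 2) (e.trans f.symm) {@zf.{u}, @jf.{u}} (by
    rintro W (rfl | rfl)
    · exact charP_zf
    · exact charP_jf)
  rw [Set.image_pair, induced_zf, induced_jf] at h
  exact h

/-- **Easy direction of S1999.** -/
theorem not_involves_of_family {G : Type u} [Group G] [Finite G]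
    (h : ∀ (K R : Subgroup G) [hR : (R.subgroupOf K).Normal], Cfsg.FamilyControlsStrongFusionIn 2
      ({fun P : Subgroup (↥K ⧸ R.subgroupOf K) =>
          P ⊓ Subgroup.centralizer ((P : Subgroup (↥K ⧸ R.subgroupOf K)) : Set (↥K ⧸ R.subgroupOf K)),
        fun P : Subgroup (↥K ⧸ R.subgroupOf K) => Cfsg.thompsonSubgroupOf 2 P} :
        Set (Subgroup (↥K ⧸ R.subgroupOf K) → Subgroup (↥K ⧸ R.subgroupOf K))) ⊤) :
    ¬ Cfsg.Involves (Equiv.Perm (Fin 4)) G := by
  rintro ⟨K, R, hR, ⟨e⟩⟩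
  exact not_family_perm e (h K R)

end Cfsg.Agent.H40.ZJe
end

-- part: H40/SFourFactor
section
/-!
# `S₄`-free groups of characteristic 2: `G = C_G(Z(S)) N_G(J_e(S))`

`factor`: if `C_G(O_2(G)) ≤ O_2(G)` and `G` has no section `S₄` then `G = C_G(Z(S)) N_G(J_e(S))` for a Sylow
`2`-subgroup `S`, where `J_e(S)` is generated by the elementary abelian subgroups of `S` of largest order.
Proof: the closure theorem applied to `⟨Z^G⟩ / (⟨Z^G⟩ ∩ Z(G))` for `Z ≤ Z(S)` with `z² ∈ Z(G)` for all `z ∈ Z`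
(`max_centralizes`), and induction along `Ω_i(Z(S))`.
-/

set_option autoImplicit false

universe u

namespace Cfsg.Agent.H40.SFourFactor

open Cfsg Subgroup
open Cfsg.Agent.PLocal.S4FreeClosureBasic Cfsg.Agent.PLocal.S4FreeClosure
open Cfsg.Agent.PLocal.SFourBasic
open Cfsg.Agent.H41.ClassTwoFactor (omega mem_omega omega_normal eq_one_of_commute)

variable {G : Type u} [Group G] [Finite G]

/-- If `Z` is centralized by the Sylow `2`-subgroup `S`, `N` is a normal subgroup whose elements of odd order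
centralize `⟨Z^G⟩`, then `N ∩ S` centralizes `⟨Z^G⟩`. -/
theorem inf_sylow_centralizes (S : Sylow 2 G) (Z : Subgroup G) (hZc : ∀ z ∈ Z, ∀ s ∈ S, z * s = s * z)
    (N : Subgroup G) (hN : N.Normal)
    (hodd : ∀ g ∈ N, ∀ m : ℕ, Odd m → g ^ m = 1 → g ∈ centralizer (normalClosure (Z : Set G) : Set G)) :
    N ⊓ (S : Subgroup G) ≤ centralizer (normalClosure (Z : Set G) : Set G) := by
  have : Fact (Nat.Prime 2) := ⟨Nat.prime_two⟩
  set W := normalClosure (Z : Set G) with hW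
  have hWn : W.Normal := normalClosure_normal
  set C := centralizer (W : Set G) with hC
  have hCn : C.Normal := inferInstance
  have hpg : IsPGroup 2 (N ⧸ C.subgroupOf N) := by
    intro x
    obtain ⟨y, rfl⟩ := QuotientGroup.mk_surjective x
    obtain ⟨k, m, hm, hkm⟩ := Nat.exists_eq_two_pow_mul_odd (orderOf_pos (y : G)).ne'
    refine ⟨k, ?_⟩
    rw [← QuotientGroup.mk_pow, QuotientGroup.eq_one_iff, mem_subgroupOf]
    refine hodd _ (y ^ 2 ^ k).2 m hm ?_
    rw [Subgroup.coe_pow, ← pow_mul, ← hkm, pow_orderOf_eq_one]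
  obtain ⟨k, hk⟩ := IsPGroup.iff_card.1 hpg
  have hfr := PLocal.ZJ.frattini_sup S C N hN (k := k) hk
  set R := N ⊓ (S : Subgroup G) with hR
  -- `R` centralizes `W`
  rw [Subgroup.le_centralizer_iff, hW]
  refine Subgroup.closure_le _ |>.2 ?_
  intro w hw
  obtain ⟨z, hz, hzw⟩ := Group.mem_conjugatesOfSet_iff.1 hw
  obtain ⟨x, rfl⟩ := isConj_iff.1 hzw
  have hx : x ∈ C ⊔ normalizer (R : Set G) := by rw [hfr]; exact mem_top x
  obtain ⟨c, hc, n, hn, rfl⟩ := Subgroup.mem_sup_of_normal_left.1 hx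
  have hcz : c * (n * z * n⁻¹) * c⁻¹ = n * z * n⁻¹ := by
    have h1 : n * z * n⁻¹ ∈ W := hWn.conj_mem z (subset_normalClosure hz) n
    rw [← mem_centralizer_iff.1 hc _ h1, mul_inv_cancel_right]
  have e : c * n * z * (c * n)⁻¹ = c * (n * z * n⁻¹) * c⁻¹ := by group
  rw [e, hcz]
  change n * z * n⁻¹ ∈ centralizer (R : Set G)
  rw [mem_centralizer_iff]
  intro r hr
  have h2 : n⁻¹ * r * n ∈ R := by
    have := (mem_normalizer_iff.1 (inv_mem hn) r).1 hr
    rwa [inv_inv] at this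
  have h3 := hZc z hz _ h2.2
  calc r * (n * z * n⁻¹) = n * ((n⁻¹ * r * n) * z) * n⁻¹ := by group
    _ = n * (z * (n⁻¹ * r * n)) * n⁻¹ := by rw [h3]
    _ = n * z * n⁻¹ * r := by group

/-- The main step: the elementary abelian subgroups of largest order of `S` centralize `⟨Z^G⟩`. -/
theorem max_centralizes
    (h4 : ¬ ∃ (K R : Subgroup G) (hR : (R.subgroupOf K).Normal),
      Nonempty ((K ⧸ R.subgroupOf K) ≃* Equiv.Perm (Fin 4))) (S : Sylow 2 G)
    (hc : Subgroup.centralizer (pCore 2 G : Set G) ≤ pCore 2 G)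
    (Z : Subgroup G) (hZS : Z ≤ (S : Subgroup G)) (hZc : ∀ z ∈ Z, ∀ s ∈ S, z * s = s * z)
    (hZ2 : ∀ z ∈ Z, ∀ g : G, z * z * g = g * (z * z))
    (A : Subgroup G) (hA : A ∈ maxElementaryAbelianSubgroups 2 G) (hAS : A ≤ (S : Subgroup G)) :
    A ≤ centralizer (normalClosure (Z : Set G) : Set G) := by
  classical
  have : Fact (Nat.Prime 2) := ⟨Nat.prime_two⟩
  have hQn : (pCore 2 G).Normal := Lib.Cores.pCore_normal 2
  have hQS : pCore 2 G ≤ (S : Subgroup G) := Lib.Cores.pCore_le_sylow S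
  have hQp : IsPGroup 2 (pCore 2 G) := Lib.Cores.pCore_isPGroup 2
  rw [PLocal.ThompsonJ.mem_maxElementaryAbelianSubgroups_iff] at hA
  obtain ⟨hAe, hAmax⟩ := hA
  obtain ⟨W, hW⟩ : ∃ W : Subgroup G, W = normalClosure (Z : Set G) := ⟨_, rfl⟩
  have hWn : W.Normal := by rw [hW]; exact normalClosure_normal
  have hZW : Z ≤ W := by rw [hW]; exact subset_normalClosure
  have hZcQ : Z ≤ centralizer (pCore 2 G : Set G) := by
    intro z hz
    rw [mem_centralizer_iff]
    intro q hq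
    exact (hZc z hz q (hQS hq)).symm
  have hWcQ : W ≤ centralizer (pCore 2 G : Set G) := by
    rw [hW]
    exact normalClosure_le_normal hZcQ
  have hWQ : W ≤ pCore 2 G := hWcQ.trans hc
  have hWab : ∀ x ∈ W, ∀ y ∈ W, x * y = y * x := fun x hx y hy =>
    (mem_centralizer_iff.1 (hWcQ hx) y (hWQ hy)).symm
  have hWp : IsPGroup 2 W := hQp.to_le hWQ
  -- squares are central
  have hW2 : ∀ w ∈ W, w * w ∈ center G := by
    let P : Subgroup G :=
      { carrier := {w | w ∈ W ∧ w * w ∈ center G}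
        mul_mem' := by
          rintro x y ⟨hx, hx2⟩ ⟨hy, hy2⟩
          refine ⟨W.mul_mem hx hy, ?_⟩
          have : x * y * (x * y) = (x * x) * (y * y) := by
            calc x * y * (x * y) = x * (y * x) * y := by group
              _ = x * (x * y) * y := by rw [hWab x hx y hy]
              _ = _ := by group
          rw [this]
          exact mul_mem hx2 hy2
        one_mem' := ⟨W.one_mem, by rw [one_mul]; exact one_mem _⟩
        inv_mem' := by
          rintro x ⟨hx, hx2⟩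
          refine ⟨W.inv_mem hx, ?_⟩
          rw [← mul_inv_rev]
          exact inv_mem hx2 }
    have hPn : P.Normal := by
      refine ⟨fun w hw g => ⟨hWn.conj_mem w hw.1 g, ?_⟩⟩
      have e : g * w * g⁻¹ * (g * w * g⁻¹) = g * (w * w) * g⁻¹ := by group
      rw [e]
      exact (inferInstance : (center G).Normal).conj_mem _ hw.2 g
    have hZP : (Z : Set G) ⊆ P := by
      intro z hz
      exact ⟨hZW hz, Subgroup.mem_center_iff.2 fun g => (hZ2 z hz g).symm⟩
    intro w hw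
    rw [hW] at hw
    exact (normalClosure_le_normal hZP hw).2
  -- the abelian group `W` and its quotient `V`
  let _ : CommGroup W := { mul_comm := fun x y => Subtype.ext (hWab x x.2 y y.2) }
  obtain ⟨K, hK⟩ : ∃ K : Subgroup W, K = (center G).subgroupOf W := ⟨_, rfl⟩
  have hKmem : ∀ w : W, w ∈ K ↔ (w : G) ∈ center G := by intro w; rw [hK]; exact mem_subgroupOf
  let φ₀ : G →* MulAut W := MulAut.conjNormal
  have hφ₀ : ∀ (g : G) (v : W), ((φ₀ g v : W) : G) = g * v * g⁻¹ := fun g v => MulAut.conjNormal_apply g v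
  have hKinv : ∀ g : G, ∀ w ∈ K, φ₀ g w ∈ K := by
    intro g w hw
    rw [hKmem] at hw ⊢
    rw [hφ₀]
    exact (inferInstance : (center G).Normal).conj_mem _ hw g
  let φ : G →* MulAut (W ⧸ K) := quotHom φ₀ K hKinv
  let π : W →* W ⧸ K := QuotientGroup.mk' K
  have hπ : Function.Surjective π := QuotientGroup.mk'_surjective K
  have hφ : ∀ (g : G) (w : W), φ g (π w) = π (φ₀ g w) := fun g w => rfl
  have hexp : ∀ v : W ⧸ K, v * v = 1 := by
    intro v
    obtain ⟨w, rfl⟩ := hπ v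
    rw [← map_mul]
    refine (QuotientGroup.eq_one_iff _).2 ?_
    rw [hKmem]
    exact hW2 w w.2
  have hS3 : PLocal.SFourOffender.NoS3 φ :=
    PLocal.S4FreeNoS3.noS3_of_section h4 hWn hexp π hπ φ (fun g a => rfl)
  -- `U`
  obtain ⟨U, hU⟩ : ∃ U : Subgroup (W ⧸ K), U = (Z.subgroupOf W).map π := ⟨_, rfl⟩
  have hSU : ∀ s ∈ S, ∀ u ∈ U, φ s u = u := by
    intro s hs u hu
    rw [hU] at hu
    obtain ⟨z, hz, rfl⟩ := hu
    rw [hφ]
    congr 1
    apply Subtype.ext
    rw [hφ₀, ← hZc z hz s hs, mul_inv_cancel_right]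
  have hUoff : Unoff φ (S : Subgroup G) U := by
    refine ⟨fun a ha u hu => ?_, fun B hB _ _ b hb => ?_⟩
    · rw [hSU a ha u hu]; exact hu
    · rw [mem_cn]
      intro u hu
      exact hSU b (hB hb) u hu
  have hoff := unoff_top hexp hS3 S hUoff (by
    intro W' hUW' hW'
    have hn : ((W'.comap π).map W.subtype).Normal := by
      refine ⟨?_⟩
      rintro _ ⟨w, hw, rfl⟩ g
      refine ⟨φ₀ g w, ?_, hφ₀ g w⟩
      exact hW' g _ hw
    have h1 : W ≤ (W'.comap π).map W.subtype := by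
      conv_lhs => rw [hW]
      apply normalClosure_le_normal
      intro z hz
      refine ⟨⟨z, hZW hz⟩, hUW' ?_, rfl⟩
      rw [hU]
      exact ⟨⟨z, hZW hz⟩, hz, rfl⟩
    rw [eq_top_iff]
    intro v _
    obtain ⟨w, rfl⟩ := hπ v
    obtain ⟨w', hw', he⟩ := h1 w.2
    have : w' = w := Subtype.ext he
    rw [← this]
    exact hw')
  -- `Ω`
  obtain ⟨Om, hOm⟩ : ∃ Om : Subgroup G, Om = omega W hWab := ⟨_, rfl⟩
  have hOmn : Om.Normal := by rw [hOm]; exact omega_normal W hWab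
  have hOmmem : ∀ z, z ∈ Om ↔ z ∈ W ∧ z * z = 1 := by intro z; rw [hOm]; exact mem_omega
  have hOmW : Om ≤ W := fun z hz => ((hOmmem z).1 hz).1
  have hcomm2 : ∀ g : G, ∀ w ∈ W, g * w * g⁻¹ * w⁻¹ ∈ Om := by
    intro g w hw
    have hgw : g * w * g⁻¹ ∈ W := hWn.conj_mem w hw g
    rw [hOmmem]
    refine ⟨W.mul_mem hgw (W.inv_mem hw), ?_⟩
    calc (g * w * g⁻¹ * w⁻¹) * (g * w * g⁻¹ * w⁻¹)
        = (g * w * g⁻¹) * (w⁻¹ * (g * w * g⁻¹)) * w⁻¹ := by group
      _ = (g * w * g⁻¹) * ((g * w * g⁻¹) * w⁻¹) * w⁻¹ := by rw [hWab _ (W.inv_mem hw) _ hgw]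
      _ = g * (w * w) * g⁻¹ * (w * w)⁻¹ := by group
      _ = 1 := by
        have h1 := mem_center_iff.1 (hW2 w hw) g
        rw [h1]; group
  have hW2k : ∀ w ∈ W, ∃ k : ℕ, w ^ 2 ^ k = 1 := by
    intro w hw
    obtain ⟨k, hk⟩ := hWp ⟨w, hw⟩
    exact ⟨k, congrArg Subtype.val hk⟩
  have hcop : ∀ m k : ℕ, Odd m → m.Coprime (2 ^ k) := fun m k hm =>
    Nat.Coprime.pow_right k (Nat.coprime_two_right.mpr hm)
  have hmemC : ∀ g : G, (∀ w ∈ W, g * w * g⁻¹ * w⁻¹ = 1) → g ∈ centralizer (W : Set G) := by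
    intro g hg
    rw [mem_centralizer_iff]
    intro w hw
    have := hg w hw
    rw [mul_inv_eq_one, mul_inv_eq_iff_eq_mul] at this
    exact this.symm
  -- `N ∩ S` centralizes `W` for `N = C_G(Ω)`, `N = ker φ`
  have hcent1 : centralizer (Om : Set G) ⊓ (S : Subgroup G) ≤ centralizer (W : Set G) := by
    rw [hW]
    refine inf_sylow_centralizes S Z hZc _ inferInstance ?_
    intro g hg m hm hgm
    rw [← hW]
    apply hmemC
    intro w hw
    have h1 := hcomm2 g w hw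
    refine eq_one_of_commute rfl (mem_centralizer_iff.1 hg _ h1).symm hgm (n := 2) ?_
      (Nat.coprime_two_right.mpr hm)
    rw [pow_two]
    exact ((hOmmem _).1 h1).2
  have hkermem : ∀ g : G, g ∈ φ.ker ↔ ∀ w ∈ W, g * w * g⁻¹ * w⁻¹ ∈ center G := by
    intro g
    rw [mem_ker_quotHom]
    constructor
    · intro h w hw
      have := h ⟨w, hw⟩
      rw [hKmem] at this
      exact this
    · intro h w
      rw [hKmem]
      exact h w w.2
  have hcent2 : φ.ker ⊓ (S : Subgroup G) ≤ centralizer (W : Set G) := by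
    have key := inf_sylow_centralizes S Z hZc φ.ker inferInstance
    rw [← hW] at key
    refine key ?_
    intro g hg m hm hgm
    apply hmemC
    intro w hw
    have h1 := (hkermem g).1 hg w hw
    have h2 := hcomm2 g w hw
    refine eq_one_of_commute rfl (mem_center_iff.1 h1 g) hgm (n := 2) ?_
      (Nat.coprime_two_right.mpr hm)
    rw [pow_two]
    exact ((hOmmem _).1 h2).2
  have hAab : ∀ a ∈ A, ∀ b ∈ A, a * b = b * a := fun a ha b hb =>
    PLocal.ThompsonJ.isElementaryAbelian_comm hAe ha hb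
  have hAb : AbOn φ A ⊤ := by
    intro a ha b hb u _
    rw [← MulAut.mul_apply, ← MulAut.mul_apply, ← map_mul, ← map_mul, hAab a ha b hb]
  obtain ⟨A₀, hA₀⟩ : ∃ A₀ : Subgroup G, A₀ = A ⊓ centralizer (Om : Set G) := ⟨_, rfl⟩
  have hA₀W : A₀ ≤ centralizer (W : Set G) := by
    intro a ha
    rw [hA₀] at ha
    exact hcent1 ⟨ha.2, hAS ha.1⟩
  have hA₀ker : A₀ = A ⊓ φ.ker := by
    apply le_antisymm
    · intro a ha
      refine ⟨by rw [hA₀] at ha; exact ha.1, ?_⟩
      change a ∈ φ.ker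
      rw [hkermem]
      intro w hw
      rw [← mem_centralizer_iff.1 (hA₀W ha) w hw, mul_inv_cancel_right, mul_inv_cancel]
      exact one_mem _
    · rintro a ⟨ha1, ha2⟩
      rw [hA₀]
      exact ⟨ha1, centralizer_le hOmW (hcent2 ⟨ha2, hAS ha1⟩)⟩
  have hker : cn φ ⊤ = φ.ker := cn_top φ
  -- the offender inequality for `Ω`
  have hA₀Om : ∀ a ∈ A₀, ∀ w ∈ Om, a * w = w * a := by
    intro a ha w hw
    exact (mem_centralizer_iff.1 (hA₀W ha) w (hOmW hw)).symm
  have hE : IsElementaryAbelian 2 (A₀ ⊔ Om) := by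
    rw [PLocal.ThompsonJ.isElementaryAbelian_iff]
    have hmem : ∀ x ∈ A₀ ⊔ Om, ∃ a ∈ A₀, ∃ w ∈ Om, a * w = x := fun x hx =>
      Subgroup.mem_sup_of_normal_right.mp hx
    have hA₀A : A₀ ≤ A := by rw [hA₀]; exact inf_le_left
    refine ⟨?_, ?_⟩
    · intro x hx y hy
      obtain ⟨a, ha, w, hw, rfl⟩ := hmem x hx
      obtain ⟨b, hb, v, hv, rfl⟩ := hmem y hy
      calc a * w * (b * v) = a * (w * b) * v := by group
        _ = a * (b * w) * v := by rw [hA₀Om b hb w hw]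
        _ = (a * b) * (w * v) := by group
        _ = (b * a) * (v * w) := by
          rw [hAab a (hA₀A ha) b (hA₀A hb), hWab w (hOmW hw) v (hOmW hv)]
        _ = b * (a * v) * w := by group
        _ = b * (v * a) * w := by rw [hA₀Om a ha v hv]
        _ = b * v * (a * w) := by group
    · intro x hx
      obtain ⟨a, ha, w, hw, rfl⟩ := hmem x hx
      have h1 : a ^ 2 = 1 := PLocal.ThompsonJ.isElementaryAbelian_pow hAe (hA₀A ha)
      have h2 : w * w = 1 := ((hOmmem _).mp hw).2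
      rw [(show Commute a w from hA₀Om a ha w hw).mul_pow, h1, pow_two, h2, one_mul]
  have hoff1 : Nat.card Om ≤ (cn φ ⊤).relIndex A * Nat.card (A₀ ⊓ Om : Subgroup G) := by
    have h1 := hAmax _ hE
    have e1 : Nat.card (A₀ ⊔ Om : Subgroup G) = Nat.card Om * Om.relIndex A₀ := by
      rw [← Subgroup.relIndex_sup_right A₀ Om]
      exact (PLocal.PConstrained.card_mul_relIndex_eq le_sup_right).symm
    have e2 : Nat.card A₀ = Nat.card (A₀ ⊓ Om : Subgroup G) * Om.relIndex A₀ := by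
      rw [← Subgroup.inf_relIndex_left A₀ Om]
      exact (PLocal.PConstrained.card_mul_relIndex_eq inf_le_left).symm
    have e3 : Nat.card A = Nat.card A₀ * (cn φ ⊤).relIndex A := by
      rw [hker, ← Subgroup.inf_relIndex_left A φ.ker, ← hA₀ker]
      exact (PLocal.PConstrained.card_mul_relIndex_eq (by rw [hA₀ker]; exact inf_le_left)).symm
    have hpos : 0 < Om.relIndex A₀ := Nat.pos_of_ne_zero (Om.subgroupOf A₀).index_ne_zero_of_finite
    rw [e1, e3, e2] at h1
    have h7 : Nat.card Om * Om.relIndex A₀ ≤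
        ((cn φ ⊤).relIndex A * Nat.card (A₀ ⊓ Om : Subgroup G)) * Om.relIndex A₀ := by
      calc Nat.card Om * Om.relIndex A₀ ≤
          Nat.card (A₀ ⊓ Om : Subgroup G) * Om.relIndex A₀ * (cn φ ⊤).relIndex A := h1
        _ = _ := by ring
    exact Nat.le_of_mul_le_mul_right h7 hpos
  -- `W = Z Ω`
  have hZOm : W ≤ Z ⊔ Om := by
    have hn : (Z ⊔ Om).Normal := by
      refine ⟨fun x hx g => ?_⟩
      obtain ⟨z, hz, w, hw, rfl⟩ := Subgroup.mem_sup_of_normal_right.mp hx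
      have e : g * (z * w) * g⁻¹ = (g * z * g⁻¹ * z⁻¹) * (z * (g * w * g⁻¹)) := by group
      rw [e]
      exact mul_mem (Subgroup.mem_sup_right (hcomm2 g z (hZW hz)))
        (mul_mem (Subgroup.mem_sup_left hz) (Subgroup.mem_sup_right (hOmn.conj_mem w hw g)))
    conv_lhs => rw [hW]
    exact normalClosure_le_normal (fun z hz => Subgroup.mem_sup_left hz)
  -- transfer to `V`
  obtain ⟨T, hT⟩ : ∃ T : Subgroup W, T = (fx φ A).comap π := ⟨_, rfl⟩
  have hTmem : ∀ w : W, w ∈ T ↔ ∀ a ∈ A, φ a (π w) = π w := by intro w; rw [hT]; exact Iff.rfl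
  have hTtop : Om.subgroupOf W ⊔ T = ⊤ := by
    rw [eq_top_iff]
    rintro ⟨w, hw⟩ -
    obtain ⟨z, hz, v, hv, hzv⟩ := Subgroup.mem_sup_of_normal_right.mp (hZOm hw)
    have e : (⟨w, hw⟩ : W) = ⟨v, hOmW hv⟩ * ⟨z, hZW hz⟩ := by
      apply Subtype.ext
      change w = v * z
      rw [← hzv]
      exact hWab z (hZW hz) v (hOmW hv)
    rw [e]
    refine Subgroup.mul_mem_sup hv ?_
    rw [hTmem]
    intro a ha
    refine hSU a (hAS ha) _ ?_
    rw [hU]
    exact ⟨⟨z, hZW hz⟩, hz, rfl⟩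
  have hTidx : T.index = (fx φ A).index := by
    rw [hT]; exact index_comap_of_surjective _ hπ
  have hTle : T.index ≤ ((A₀ ⊓ Om).subgroupOf W).relIndex (Om.subgroupOf W) := by
    have h1 : T.index = T.relIndex (Om.subgroupOf W) := by
      rw [← relIndex_top_right, ← hTtop, relIndex_sup_right]
    rw [h1]
    refine Nat.le_of_dvd ?_ (relIndex_dvd_of_le_left _ ?_)
    · exact Nat.pos_of_ne_zero (Subgroup.index_ne_zero_of_finite)
    · intro w hw
      rw [hTmem]
      intro a ha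
      rw [hφ]
      congr 1
      apply Subtype.ext
      rw [hφ₀]
      have hwA : (w : G) ∈ A := by
        have : (w : G) ∈ A₀ := hw.1
        rw [hA₀] at this
        exact this.1
      rw [hAab a ha w hwA, mul_inv_cancel_right]
  have hTle2 : T.index ≤ (A₀ ⊓ Om).relIndex Om := by
    rwa [relIndex_subgroupOf hOmW] at hTle
  have hOmcard : Nat.card (A₀ ⊓ Om : Subgroup G) * (A₀ ⊓ Om).relIndex Om = Nat.card Om :=
    PLocal.PConstrained.card_mul_relIndex_eq inf_le_right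
  have hfinal : Nat.card (⊤ : Subgroup (W ⧸ K)) ≤ ms φ ⊤ A := by
    change Nat.card (⊤ : Subgroup (W ⧸ K)) ≤ (cn φ ⊤).relIndex A * Nat.card (⊤ ⊓ fx φ A : Subgroup (W ⧸ K))
    rw [top_inf_eq, Subgroup.card_top, ← (fx φ A).card_mul_index, ← hTidx, mul_comm]
    refine Nat.mul_le_mul_right _ (hTle2.trans ?_)
    have hpos : 0 < Nat.card (A₀ ⊓ Om : Subgroup G) := Nat.card_pos
    refine Nat.le_of_mul_le_mul_left ?_ hpos
    rw [hOmcard, mul_comm (Nat.card (A₀ ⊓ Om : Subgroup G))]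
    exact hoff1
  have hfin := hoff.off A hAS hAb hfinal
  rw [hker] at hfin
  have : A = A₀ := by rw [hA₀ker, inf_eq_left.2 hfin]
  rw [← hW, this]
  exact hA₀W

/-- Frattini argument for `J_e(S)`. -/
theorem frattini_thompson (S : Sylow 2 G) (D : Subgroup G) (hD : D.Normal)
    (hJ : thompsonSubgroupOf 2 (S : Subgroup G) ≤ D) (x : G) :
    ∃ d ∈ D, ∃ n ∈ normalizer (thompsonSubgroupOf 2 (S : Subgroup G) : Set G), x = d * n := by
  have : Fact (Nat.Prime 2) := ⟨Nat.prime_two⟩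
  have hfr := PLocal.ZJ.frattini_sup S D D hD (k := 0) (by rw [Subgroup.relIndex_self, pow_zero])
  have hx : x ∈ D ⊔ normalizer ((D ⊓ (S : Subgroup G) : Subgroup G) : Set G) := by rw [hfr]; exact mem_top x
  obtain ⟨d, hd, n, hn, rfl⟩ := Subgroup.mem_sup_of_normal_left.1 hx
  refine ⟨d, hd, n, ?_, rfl⟩
  obtain ⟨B, hB, hBS⟩ := PLocal.ThompsonJ.exists_max_le_sylow S
  have hBJ : B ≤ thompsonSubgroupOf 2 (S : Subgroup G) := by
    rw [PLocal.ThompsonJ.thompsonSubgroupOf_sylow_eq S]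
    exact le_sSup ⟨hB, hBS⟩
  have e : thompsonSubgroupOf 2 (D ⊓ (S : Subgroup G)) = thompsonSubgroupOf 2 (S : Subgroup G) := by
    rw [PLocal.ThompsonJ.thompsonSubgroupOf_eq_sSup hB (le_inf (hBJ.trans hJ) hBS),
      PLocal.ThompsonJ.thompsonSubgroupOf_eq_sSup hB hBS]
    congr 1
    ext A
    constructor
    · rintro ⟨h1, h2⟩
      exact ⟨h1, h2.trans inf_le_right⟩
    · rintro ⟨h1, h2⟩
      refine ⟨h1, le_inf (le_trans ?_ hJ) h2⟩
      rw [PLocal.ThompsonJ.thompsonSubgroupOf_sylow_eq S]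
      exact le_sSup ⟨h1, h2⟩
  rw [← e]
  have hn' : (D ⊓ (S : Subgroup G)).map (MulAut.conj n).toMonoidHom = D ⊓ (S : Subgroup G) := by
    ext y
    constructor
    · rintro ⟨z, hz, rfl⟩
      exact (mem_normalizer_iff.1 hn z).1 hz
    · intro hy
      refine ⟨n⁻¹ * y * n, ?_, by simp [mul_assoc]⟩
      have := (mem_normalizer_iff.1 (inv_mem hn) y).1 hy
      rwa [inv_inv] at this
  have h2 := PLocal.ThompsonJ.thompsonSubgroupOf_map_conj 2 n (D ⊓ (S : Subgroup G))
  rw [hn'] at h2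
  rw [mem_normalizer_iff]
  intro y
  constructor
  · intro hy
    rw [h2]
    exact ⟨y, hy, rfl⟩
  · intro hy
    rw [h2] at hy
    obtain ⟨z, hz, hzy⟩ := hy
    have : z = y := (MulAut.conj n).injective hzy
    rwa [← this]

/-- The inductive step. -/
theorem good_step
    (h4 : ¬ ∃ (K R : Subgroup G) (hR : (R.subgroupOf K).Normal),
      Nonempty ((K ⧸ R.subgroupOf K) ≃* Equiv.Perm (Fin 4))) (S : Sylow 2 G)
    (hc : Subgroup.centralizer (pCore 2 G : Set G) ≤ pCore 2 G)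
    (Z' Z : Subgroup G) (hZS' : Z' ≤ (S : Subgroup G)) (hZc' : ∀ z ∈ Z', ∀ s ∈ S, z * s = s * z)
    (hZS : Z ≤ (S : Subgroup G)) (hZc : ∀ z ∈ Z, ∀ s ∈ S, z * s = s * z)
    (hZ2 : ∀ z ∈ Z, z * z ∈ Z')
    (hgood : ∀ x : G, ∃ c ∈ centralizer (Z' : Set G),
      ∃ n ∈ normalizer (thompsonSubgroupOf 2 (S : Subgroup G) : Set G), x = c * n) :
    ∀ x : G, ∃ c ∈ centralizer (Z : Set G),
      ∃ n ∈ normalizer (thompsonSubgroupOf 2 (S : Subgroup G) : Set G), x = c * n := by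
  have : Fact (Nat.Prime 2) := ⟨Nat.prime_two⟩
  obtain ⟨Y, hY⟩ : ∃ Y : Subgroup G, Y = centralizer (Z' : Set G) := ⟨_, rfl⟩
  have hSY : (S : Subgroup G) ≤ Y := by
    intro s hs
    rw [hY, mem_centralizer_iff]
    intro z hz
    exact hZc' z hz s hs
  have hQn : (pCore 2 G).Normal := Lib.Cores.pCore_normal 2
  have hQS : pCore 2 G ≤ (S : Subgroup G) := Lib.Cores.pCore_le_sylow S
  have hQp : IsPGroup 2 (pCore 2 G) := Lib.Cores.pCore_isPGroup 2
  obtain ⟨B, hB, hBS⟩ := PLocal.ThompsonJ.exists_max_le_sylow S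
  have hBr : B ≤ Y.subtype.range := by rw [Y.range_subtype]; exact hBS.trans hSY
  -- the group `Y`
  have h4' : ¬ ∃ (K R : Subgroup Y) (hR : (R.subgroupOf K).Normal),
      Nonempty ((K ⧸ R.subgroupOf K) ≃* Equiv.Perm (Fin 4)) :=
    PLocal.S4FreeSection.S4Free.subgroup (G := G) h4 Y
  let SY : Sylow 2 Y := S.subtype hSY
  have hSYcoe : (SY : Subgroup Y) = (S : Subgroup G).subgroupOf Y := rfl
  have hcY : Subgroup.centralizer (pCore 2 Y : Set Y) ≤ pCore 2 Y := by
    have h1 : (pCore 2 G).subgroupOf Y ≤ pCore 2 Y :=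
      Lib.Cores.le_pCore inferInstance (hQp.comap_of_injective Y.subtype Y.subtype_injective)
    refine le_trans ?_ h1
    intro y hy
    rw [mem_subgroupOf]
    apply hc
    rw [mem_centralizer_iff]
    intro q hq
    exact congrArg Subtype.val (mem_centralizer_iff.1 hy ⟨q, hSY (hQS hq)⟩ (h1 hq))
  have key : ∀ A ∈ maxElementaryAbelianSubgroups 2 G, A ≤ (S : Subgroup G) →
      A.subgroupOf Y ≤ centralizer (normalClosure ((Z.subgroupOf Y : Subgroup Y) : Set Y) : Set Y) := by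
    intro A hA hAS
    refine max_centralizes h4' SY hcY (Z.subgroupOf Y) ?_ ?_ ?_ (A.subgroupOf Y) ?_ ?_
    · rw [hSYcoe]; exact Subgroup.comap_mono hZS
    · intro z hz s hs
      exact Subtype.ext (hZc z hz s hs)
    · intro z hz g
      apply Subtype.ext
      have h1 := hZ2 z hz
      have hg : (g : G) ∈ centralizer (Z' : Set G) := by rw [← hY]; exact g.2
      exact mem_centralizer_iff.1 hg _ h1
    · rw [← PLocal.ThompsonJ.map_mem_max_iff Y.subtype_injective hB hBr, Subgroup.subgroupOf_map_subtype,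
        inf_eq_left.2 (hAS.trans hSY)]
      exact hA
    · rw [hSYcoe]; exact Subgroup.comap_mono hAS
  have hJY : thompsonSubgroupOf 2 (SY : Subgroup Y) =
      (thompsonSubgroupOf 2 (S : Subgroup G)).subgroupOf Y := by
    have h1 := PLocal.ThompsonJ.thompsonSubgroupOf_map 2 Y.subtype_injective (SY : Subgroup Y)
    rw [hSYcoe, Subgroup.subgroupOf_map_subtype, inf_eq_left.2 hSY] at h1
    rw [hSYcoe, h1]
    exact (Subgroup.comap_map_eq_self_of_injective Y.subtype_injective _).symm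
  have hJle : thompsonSubgroupOf 2 (S : Subgroup G) ≤ S := PLocal.ThompsonJ.thompsonSubgroupOf_le_self 2 _
  have hJD : thompsonSubgroupOf 2 (SY : Subgroup Y) ≤
      centralizer (normalClosure ((Z.subgroupOf Y : Subgroup Y) : Set Y) : Set Y) := by
    rw [hJY]
    have h1 : thompsonSubgroupOf 2 (S : Subgroup G) ≤
        (centralizer (normalClosure ((Z.subgroupOf Y : Subgroup Y) : Set Y) : Set Y)).map Y.subtype := by
      rw [PLocal.ThompsonJ.thompsonSubgroupOf_sylow_eq S]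
      refine sSup_le ?_
      rintro A ⟨hA, hAS⟩
      have h2 := Subgroup.map_mono (f := Y.subtype) (key A hA hAS)
      rwa [Subgroup.subgroupOf_map_subtype, inf_eq_left.2 (hAS.trans hSY)] at h2
    have h3 := Subgroup.comap_mono (f := Y.subtype) h1
    rwa [Subgroup.comap_map_eq_self_of_injective Y.subtype_injective] at h3
  intro x
  obtain ⟨c, hc', n, hn, rfl⟩ := hgood x
  have hcY' : c ∈ Y := by rw [hY]; exact hc'
  obtain ⟨d, hd, m, hm, hdm⟩ := frattini_thompson SY _ inferInstance hJD ⟨c, hcY'⟩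
  have hcdm : c = (d : G) * m := congrArg Subtype.val hdm
  refine ⟨d, ?_, (m : G) * n, mul_mem ?_ hn, by rw [hcdm, mul_assoc]⟩
  · rw [mem_centralizer_iff]
    intro z hz
    have hzY : z ∈ Y := hSY (hZS hz)
    exact congrArg Subtype.val (mem_centralizer_iff.1 hd ⟨z, hzY⟩ (subset_normalClosure hz))
  · rw [hJY] at hm
    rw [mem_normalizer_iff]
    intro y
    constructor
    · intro hy
      exact (mem_normalizer_iff.1 hm ⟨y, hSY (hJle hy)⟩).1 hy
    · intro hy
      have hyY : y ∈ Y := by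
        have h1 := Y.mul_mem (Y.mul_mem (Y.inv_mem m.2) (hSY (hJle hy))) m.2
        have e : (m : G)⁻¹ * ((m : G) * y * (m : G)⁻¹) * m = y := by group
        rwa [e] at h1
      exact (mem_normalizer_iff.1 hm ⟨y, hyY⟩).2 hy

/-- **`G = C_G(Z(S)) N_G(J_e(S))`** -/
theorem factor
    (h4 : ¬ ∃ (K R : Subgroup G) (hR : (R.subgroupOf K).Normal),
      Nonempty ((K ⧸ R.subgroupOf K) ≃* Equiv.Perm (Fin 4))) (S : Sylow 2 G)
    (hc : Subgroup.centralizer (pCore 2 G : Set G) ≤ pCore 2 G) :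
    ∀ x : G, ∃ c ∈ centralizer (((S : Subgroup G) ⊓ centralizer ((S : Subgroup G) : Set G) : Subgroup G) : Set G),
      ∃ n ∈ normalizer (thompsonSubgroupOf 2 (S : Subgroup G) : Set G), x = c * n := by
  let Zi : ℕ → Subgroup G := fun i =>
    { carrier := {z | z ∈ S ∧ (∀ s ∈ S, z * s = s * z) ∧ z ^ 2 ^ i = 1}
      mul_mem' := by
        rintro a b ⟨ha, ha1, ha2⟩ ⟨hb, hb1, hb2⟩
        refine ⟨mul_mem ha hb, fun s hs => ?_, ?_⟩
        · rw [mul_assoc, hb1 s hs, ← mul_assoc, ha1 s hs, mul_assoc]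
        · rw [(show Commute a b from ha1 b hb).mul_pow, ha2, hb2, one_mul]
      one_mem' := ⟨one_mem S, fun s _ => by rw [one_mul, mul_one], one_pow _⟩
      inv_mem' := by
        rintro a ⟨ha, ha1, ha2⟩
        refine ⟨inv_mem ha, fun s hs => ((show Commute a s from ha1 s hs).inv_left).eq, ?_⟩
        rw [inv_pow, ha2, inv_one] }
  have hZi : ∀ i z, z ∈ Zi i ↔ z ∈ S ∧ (∀ s ∈ S, z * s = s * z) ∧ z ^ 2 ^ i = 1 := fun _ _ => Iff.rfl
  have key : ∀ i, ∀ x : G, ∃ c ∈ centralizer (Zi i : Set G),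
      ∃ n ∈ normalizer (thompsonSubgroupOf 2 (S : Subgroup G) : Set G), x = c * n := by
    intro i
    induction i with
    | zero =>
      intro x
      refine ⟨x, ?_, 1, one_mem _, (mul_one x).symm⟩
      rw [mem_centralizer_iff]
      intro z hz
      have h1 := ((hZi 0 z).1 hz).2.2
      rw [pow_zero, pow_one] at h1
      rw [h1, one_mul, mul_one]
    | succ i ih =>
      refine good_step h4 S hc (Zi i) (Zi (i + 1)) (fun z hz => hz.1) (fun z hz => hz.2.1)
        (fun z hz => hz.1) (fun z hz => hz.2.1) ?_ ih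
      intro z hz
      refine ⟨mul_mem hz.1 hz.1, fun s hs => ?_, ?_⟩
      · rw [mul_assoc, hz.2.1 s hs, ← mul_assoc, hz.2.1 s hs, mul_assoc]
      · rw [← pow_two, ← pow_mul, ← pow_succ']
        exact hz.2.2
  obtain ⟨k, hk⟩ := IsPGroup.iff_card.1 S.isPGroup'
  intro x
  obtain ⟨c, hc', n, hn, rfl⟩ := key k x
  refine ⟨c, ?_, n, hn, rfl⟩
  refine centralizer_le ?_ hc'
  intro z hz
  refine ⟨hz.1, fun s hs => (mem_centralizer_iff.1 hz.2 s hs).symm, ?_⟩
  have h1 : (⟨z, hz.1⟩ : (S : Subgroup G)) ^ Nat.card (S : Subgroup G) = 1 := pow_card_eq_one'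
  rw [hk] at h1
  exact congrArg Subtype.val h1

end Cfsg.Agent.H40.SFourFactor
end

-- part: S1999
section
set_option autoImplicit false
open Cfsg

namespace Cfsg.Agent.S1999

/-- Let G be a finite group. The symmetric group of degree 4 is not involved in G if and only if, in every section K/R of G, the pair of conjugacy functors {Z, J_e} controls strong fusion (for the prime 2): here Z(P) is the centre and J_e(P) the subgroup generated by the elementary abelian subgroups of P of largest order, and control by the pair means that 2-fusion of tuples inside a Sylow 2-subgroup T of the section is generated, staying inside T, by conjugation inside N(Z(T)) and N(J_e(T)). -/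
theorem result {G : Type*} [Group G] [Finite G] : ¬ Cfsg.Involves (Equiv.Perm (Fin 4)) G ↔ ∀ (K R : Subgroup G) [hR : (R.subgroupOf K).Normal], Cfsg.FamilyControlsStrongFusionIn 2 ({fun P : Subgroup (↥K ⧸ R.subgroupOf K) => P ⊓ Subgroup.centralizer ((P : Subgroup (↥K ⧸ R.subgroupOf K)) : Set (↥K ⧸ R.subgroupOf K)), fun P : Subgroup (↥K ⧸ R.subgroupOf K) => Cfsg.thompsonSubgroupOf 2 P} : Set (Subgroup (↥K ⧸ R.subgroupOf K) → Subgroup (↥K ⧸ R.subgroupOf K))) ⊤ := by
  constructor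
  · intro h4 K R hR
    have : Fact (Nat.Prime 2) := ⟨Nat.prime_two⟩
    have h𝓦 : ∀ W ∈ ({@H40.ZJe.zf, @H40.ZJe.jf} : Set H39.Fn), IsCharPFunctor 2 W := by
      rintro W (rfl | rfl)
      · exact H40.ZJe.charP_zf
      · exact H40.ZJe.charP_jf
    have key := (H39.fc_iff (X := ↥K ⧸ R.subgroupOf K) h𝓦).2
      (H39.fc_of_constrained (G := G) h𝓦 (fun X _ _ hX hc => by
        have h4X : ¬ ∃ (K R : Subgroup X) (hR : (R.subgroupOf K).Normal),
            Nonempty ((K ⧸ R.subgroupOf K) ≃* Equiv.Perm (Fin 4)) := by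
          obtain ⟨L, f, hf⟩ := hX
          exact (PLocal.S4FreeSection.S4Free.subgroup (G := G) h4 L).of_surjective f hf
        refine H39.fc_of_factor H40.ZJe.charP_zf H40.ZJe.charP_jf ?_
        intro T x
        obtain ⟨c, hc', n, hn, rfl⟩ := H40.SFourFactor.factor h4X T hc x
        refine ⟨c, ?_, n, ?_, rfl⟩
        · rw [H40.ZJe.induced_zf]
          exact Subgroup.centralizer_le_normalizer _ hc'
        · rw [H40.ZJe.induced_jf]
          exact hn) (↥K ⧸ R.subgroupOf K) (H39.IsSec.of_quotient K R))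
    rw [Set.image_pair, H40.ZJe.induced_zf, H40.ZJe.induced_jf] at key
    exact key
  · intro h
    exact H40.ZJe.not_involves_of_family h

end Cfsg.Agent.S1999
end
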