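import Mathlib
import Cfsg.Prelude.Def_PLocal
import Cfsg.Prelude.Def_LocalEven
import Cfsg.Agent.Lib.Involves
import Cfsg.Agent.H37.Stable
import Cfsg.Statements.S2004
set_option linter.all false

-- part: H40/SectionNorm
section
/-!
# Normalizers of `p`-subgroups of sections

`exists_normalizer_cover`: for an epimorphism `f : K →* X` of finite groups and a `p`-subgroup `Q` of `X` there is a
`p`-subgroup `T` of `K` with `f(T) = Q` and `f(N_K(T)) = N_X(Q)`; hence `N_X(Q)` is involved in `N_G(T)` for `K ≤ G`
(`involves_normalizer`).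
`section_stable_of_local`: `p` odd, no `p`-local subgroup involves `SL(2, p)`: then every section is `p`-stable.
-/

set_option autoImplicit false

namespace Cfsg.Agent.H40.SectionNorm

open Cfsg Subgroup
open scoped commutatorElement Pointwise

/-- **Lifting the normalizer of a `p`-subgroup along an epimorphism.** -/
theorem exists_normalizer_cover {K X : Type*} [Group K] [Finite K] [Group X] {p : ℕ} [Fact p.Prime]
    (f : K →* X) (hf : Function.Surjective f) (Q : Subgroup X) (hQ : IsPGroup p Q) :
    ∃ T : Subgroup K, IsPGroup p T ∧ T.map f = Q ∧ (normalizer (T : Set K)).map f = normalizer (Q : Set X) := by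
  classical
  have : Finite X := Finite.of_surjective f hf
  set L : Subgroup K := Q.comap f with hL
  obtain ⟨S⟩ : Nonempty (Sylow p L) := inferInstance
  -- the image of `S` is `Q`
  let fL : L →* Q := f.subgroupComap Q
  have hfL : Function.Surjective fL := by
    rintro ⟨q, hq⟩
    obtain ⟨k, rfl⟩ := hf q
    exact ⟨⟨k, hq⟩, rfl⟩
  have hSQ : (S : Subgroup L).map fL = ⊤ := by
    have h1 := S.mapSurjective hfL
    have h2 : ((S.mapSurjective hfL : Sylow p Q) : Subgroup Q) = ⊤ := by
      have h3 : IsPGroup p (⊤ : Subgroup Q) := hQ.to_subgroup ⊤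
      have h4 := (S.mapSurjective hfL).is_maximal' h3 le_top
      exact h4.symm
    rwa [Sylow.coe_mapSurjective] at h2
  refine ⟨(S : Subgroup L).map L.subtype, S.isPGroup'.map _, ?_, ?_⟩
  · have h1 : ((S : Subgroup L).map L.subtype).map f = ((S : Subgroup L).map fL).map Q.subtype := by
      rw [Subgroup.map_map, Subgroup.map_map]; rfl
    rw [h1, hSQ, ← MonoidHom.range_eq_map, range_subtype]
  · apply le_antisymm
    · rintro _ ⟨n, hn, rfl⟩
      have h1 : ((S : Subgroup L).map L.subtype).map f = Q := by
        have h1 : ((S : Subgroup L).map L.subtype).map f = ((S : Subgroup L).map fL).map Q.subtype := by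
          rw [Subgroup.map_map, Subgroup.map_map]; rfl
        rw [h1, hSQ, ← MonoidHom.range_eq_map, range_subtype]
      have h2 : f n ∈ normalizer ((((S : Subgroup L).map L.subtype).map f : Subgroup X) : Set X) :=
        Subgroup.le_normalizer_map f ⟨n, hn, rfl⟩
      rwa [h1] at h2
    · intro x hx
      obtain ⟨k, rfl⟩ := hf x
      -- `k` normalizes `L`
      have hkL : ∀ l : K, l ∈ L ↔ k * l * k⁻¹ ∈ L := by
        intro l
        rw [hL, mem_comap, mem_comap, map_mul, map_mul, map_inv]
        exact (mem_normalizer_iff.mp hx) (f l)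
      let φ : MulAut L :=
        { toFun := fun l => ⟨k * l * k⁻¹, (hkL l).mp l.2⟩
          invFun := fun l => ⟨k⁻¹ * l * k, (hkL _).mpr (by
            have : k * (k⁻¹ * (l : K) * k) * k⁻¹ = l := by group
            rw [this]; exact l.2)⟩
          left_inv := fun l => Subtype.ext (by simp [mul_assoc])
          right_inv := fun l => Subtype.ext (by simp [mul_assoc])
          map_mul' := fun a b => Subtype.ext (by simp [mul_assoc]) }
      have hφ : ∀ l : L, ((φ l : L) : K) = k * l * k⁻¹ := fun l => rfl
      obtain ⟨l, hl⟩ := MulAction.exists_smul_eq L (φ • S : Sylow p L) S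
      -- `n = l k` normalizes `S`
      have key : ∀ s : L, s ∈ (S : Subgroup L) ↔ l * φ s * l⁻¹ ∈ (S : Subgroup L) := by
        intro s
        have h1 : (S : Subgroup L) = (S : Subgroup L).map ((MulAut.conj l * φ : MulAut L)).toMonoidHom := by
          conv_lhs => rw [← hl]
          rw [Sylow.smul_def, Sylow.pointwise_smul_def, Sylow.pointwise_smul_def]
          change MulAut.conj l • (φ • (S : Subgroup L)) = _
          rw [← mul_smul]
          rfl
        constructor
        · intro hs
          rw [h1]
          exact ⟨s, hs, rfl⟩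
        · intro hs
          rw [h1] at hs
          obtain ⟨t, ht, hts⟩ := hs
          have : t = s := (MulAut.conj l * φ : MulAut L).injective hts
          rwa [← this]
      have hn : (l : K) * k ∈ normalizer (((S : Subgroup L).map L.subtype : Subgroup K) : Set K) := by
        rw [mem_normalizer_iff]
        intro h
        constructor
        · rintro ⟨s, hs, rfl⟩
          refine ⟨l * φ s * l⁻¹, (key s).mp hs, ?_⟩
          simp only [map_mul, map_inv, Subgroup.coe_subtype, hφ, mul_inv_rev]
          group
        · rintro ⟨s, hs, hs'⟩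
          have h1 : h ∈ L := by
            have h2 : (l : K) * k * h * ((l : K) * k)⁻¹ ∈ L := hs' ▸ s.2
            have h3 : k * h * k⁻¹ = (l : K)⁻¹ * ((l : K) * k * h * ((l : K) * k)⁻¹) * l := by group
            rw [hkL, h3]
            exact mul_mem (mul_mem (inv_mem l.2) h2) l.2
          refine ⟨⟨h, h1⟩, (key _).mpr ?_, rfl⟩
          have h6 : l * φ ⟨h, h1⟩ * l⁻¹ = s := by
            apply Subtype.ext
            change (l : K) * (k * h * k⁻¹) * (l : K)⁻¹ = (s : K)
            rw [show (s : K) = (l : K) * k * h * ((l : K) * k)⁻¹ from hs']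
            group
          rw [h6]
          exact hs
      have hfl : f (l : K) ∈ (Q : Subgroup X) := l.2
      -- correct by an element of `S`
      obtain ⟨s, hs, hsl⟩ : ∃ s : L, s ∈ (S : Subgroup L) ∧ fL s = ⟨f (l : K), hfl⟩ := by
        have : (⟨f (l : K), hfl⟩ : Q) ∈ (S : Subgroup L).map fL := by rw [hSQ]; trivial
        obtain ⟨s, hs, h⟩ := this
        exact ⟨s, hs, h⟩
      refine ⟨(s : K)⁻¹ * ((l : K) * k), mul_mem (inv_mem (le_normalizer ⟨s, hs, rfl⟩)) hn, ?_⟩
      have h5 : f (s : K) = f (l : K) := congrArg Subtype.val hsl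
      rw [map_mul, map_inv, map_mul, h5]
      group

/-- **The normalizer of a `p`-subgroup of a section is involved in the normalizer of a `p`-subgroup.** -/
theorem involves_normalizer {G X : Type*} [Group G] [Finite G] [Group X] {p : ℕ} [Fact p.Prime]
    (K : Subgroup G) (f : K →* X) (hf : Function.Surjective f) (Q : Subgroup X) (hQ : IsPGroup p Q) :
    ∃ T : Subgroup G, IsPGroup p T ∧ (T = ⊥ → Q = ⊥) ∧
      Lib.Involves.Involves ↥(normalizer (T : Set G)) ↥(normalizer (Q : Set X)) := by
  obtain ⟨T, hT, hTQ, hN⟩ := exists_normalizer_cover f hf Q hQ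
  refine ⟨T.map K.subtype, hT.map _, ?_, ?_⟩
  · intro h
    have h1 : T = ⊥ := by
      have := (Subgroup.map_eq_bot_iff_of_injective T K.subtype_injective).mp h
      exact this
    rw [← hTQ, h1, Subgroup.map_bot]
  · let i : ↥(normalizer (T : Set K)) →* ↥(normalizer ((T.map K.subtype : Subgroup G) : Set G)) :=
      { toFun := fun n => ⟨((n : K) : G), Subgroup.le_normalizer_map K.subtype ⟨n, n.2, rfl⟩⟩
        map_one' := rfl
        map_mul' := fun a b => rfl }
    have hi : Function.Injective i := by
      intro a b hab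
      have h1 : ((a : K) : G) = ((b : K) : G) :=
        congrArg (fun y : ↥(normalizer ((T.map K.subtype : Subgroup G) : Set G)) => (y : G)) hab
      exact Subtype.ext (Subtype.ext h1)
    let g : ↥(normalizer (T : Set K)) →* ↥(normalizer (Q : Set X)) :=
      { toFun := fun n => ⟨f (n : K), by rw [← hN]; exact ⟨n, n.2, rfl⟩⟩
        map_one' := Subtype.ext (map_one f)
        map_mul' := fun a b => Subtype.ext (map_mul f _ _) }
    have hg : Function.Surjective g := by
      rintro ⟨x, hx⟩
      rw [← hN] at hx
      obtain ⟨n, hn, rfl⟩ := hx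
      exact ⟨⟨n, hn⟩, rfl⟩
    exact Lib.Involves.of_injective_of_surjective i hi g hg

theorem isPStableOn_bot {G : Type*} [Group G] {p : ℕ} (P : Subgroup G) [P.Normal] (hP : P = ⊥) :
    IsPStableOn p P := by
  subst hP
  intro a _
  have h1 : (QuotientGroup.mk a : G ⧸ centralizer (((⊥ : Subgroup G) : Subgroup G) : Set G)) = 1 := by
    rw [QuotientGroup.eq_one_iff, mem_centralizer_iff]
    intro h hh
    have : h = 1 := by simpa using hh
    subst this; simp
  rw [h1]
  exact one_mem _

/-- **`p` odd, no `p`-local subgroup involves `SL(2, p)`: every section is `p`-stable.** -/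
theorem section_stable_of_local {G : Type*} [Group G] [Finite G] {p : ℕ} [Fact p.Prime] (hp : p ≠ 2)
    (h : ∀ P : Subgroup G, IsPGroup p ↥P → P ≠ ⊥ →
      ¬ Lib.Involves.Involves ↥(normalizer (P : Set G)) (Matrix.SpecialLinearGroup (Fin 2) (ZMod p)))
    (K R : Subgroup G) [hR : (R.subgroupOf K).Normal] : IsNormalizerPStable p (↥K ⧸ R.subgroupOf K) := by
  refine H37.Stable.isNormalizerPStable_of_stableOn fun Q hQ => ?_
  obtain ⟨T, hT, hT1, hTN⟩ := involves_normalizer K (QuotientGroup.mk' (R.subgroupOf K))
    (QuotientGroup.mk'_surjective _) Q hQ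
  rcases eq_or_ne T ⊥ with h0 | h0
  · refine isPStableOn_bot _ ?_
    rw [hT1 h0]
    exact Subgroup.bot_subgroupOf _
  · refine PLocal.StableOfNotInvolves.isPStableOn_of_not_involves hp ?_ _ (hQ.comap_subtype)
    rintro ⟨K', f, hf⟩
    exact h T hT h0 (Lib.Involves.trans hTN ⟨K', f, hf⟩)

end Cfsg.Agent.H40.SectionNorm
end

-- part: S2004
section
set_option autoImplicit false
open Cfsg

namespace Cfsg.Agent.S2004

/-- Let p be an odd prime and G a finite group such that SL₂(p) is not involved in N_G(P) for any nonidentity p-subgroup P of G. Then every section of G is p-stable in the normalizer form: in each section, whenever an element of the normalizer of a p-subgroup Q acts quadratically on Q, its image in N(Q)/C(Q) lies in O_p(N(Q)/C(Q)). -/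
theorem result {G : Type*} [Group G] [Finite G] {p : ℕ} [Fact p.Prime] (hp : p ≠ 2) (h : ∀ P : Subgroup G, IsPGroup p ↥P → P ≠ ⊥ → ¬ Cfsg.Involves (Matrix.SpecialLinearGroup (Fin 2) (ZMod p)) ↥(Subgroup.normalizer ((P : Subgroup G) : Set G))) : ∀ (K R : Subgroup G) [hR : (R.subgroupOf K).Normal], Cfsg.IsNormalizerPStable p (↥K ⧸ R.subgroupOf K) := by
  intro K R hR
  refine H40.SectionNorm.section_stable_of_local hp (fun P hP hP1 hinv => h P hP hP1 ?_) K R
  exact Lib.Involves.involves_iff.mp hinv

end Cfsg.Agent.S2004
end
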