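import Cfsg.Statements.S2008
import Mathlib
set_option linter.all false

set_option autoImplicit false
open Cfsg

namespace Cfsg.Agent.S2008

/-- An element acting on a finite normal subgroup without nontrivial fixed points and with square one inverts it. -/
theorem inverts {H : Type*} [Group H] [Finite H] (z : H) (hz : z * z = 1) (N : Subgroup H) (hNn : N.Normal)
    (hfix : N ⊓ Subgroup.centralizer ({z} : Set H) = ⊥) (n : H) (hn : n ∈ N) : z * n * z⁻¹ = n⁻¹ := by
  have hzi : z⁻¹ = z := by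
    rw [inv_eq_iff_mul_eq_one]; exact hz
  -- the map `m ↦ z m z⁻¹ m⁻¹` is injective on `N`, hence surjective
  let f : N → N := fun m => ⟨z * m * z⁻¹ * (m : H)⁻¹, N.mul_mem (hNn.conj_mem _ m.2 z) (N.inv_mem m.2)⟩
  have hf : Function.Injective f := by
    intro a b hab
    have h1 : z * a * z⁻¹ * (a : H)⁻¹ = z * b * z⁻¹ * (b : H)⁻¹ := congrArg Subtype.val hab
    have h2 : (b : H)⁻¹ * a ∈ N ⊓ Subgroup.centralizer ({z} : Set H) := by
      refine ⟨N.mul_mem (N.inv_mem b.2) a.2, ?_⟩
      change _ ∈ Subgroup.centralizer _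
      rw [Subgroup.mem_centralizer_singleton_iff]
      have h3 : z * ((b : H)⁻¹ * a) * z⁻¹ = (b : H)⁻¹ * a := by
        have h4 : z * a * z⁻¹ = z * b * z⁻¹ * (b : H)⁻¹ * a := by
          rw [← h1]; group
        calc z * ((b : H)⁻¹ * a) * z⁻¹ = (z * b * z⁻¹)⁻¹ * (z * a * z⁻¹) := by group
          _ = (b : H)⁻¹ * a := by rw [h4]; group
      calc ((b : H)⁻¹ * a) * z = (z * ((b : H)⁻¹ * a) * z⁻¹) * z := by rw [h3]
        _ = z * ((b : H)⁻¹ * a) := by group
    rw [hfix, Subgroup.mem_bot] at h2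
    exact Subtype.ext (inv_mul_eq_one.mp h2).symm
  obtain ⟨⟨m, hm⟩, hm2⟩ := (Finite.injective_iff_surjective.mp hf) ⟨n, hn⟩
  have h5 : z * m * z⁻¹ * m⁻¹ = n := congrArg Subtype.val hm2
  rw [← h5]
  calc z * (z * m * z⁻¹ * m⁻¹) * z⁻¹ = (z * z) * m * (z⁻¹ * (m⁻¹ * z⁻¹)) := by group
    _ = m * (z⁻¹ * (m⁻¹ * z⁻¹)) := by rw [hz]; group
    _ = m * (z * (m⁻¹ * z⁻¹)) := by rw [hzi]
    _ = (z * m * z⁻¹ * m⁻¹)⁻¹ := by group

/-- Let H be a finite group and z an involution such that every proper normal subgroup of H meets the centralizer of z trivially, and suppose z lies in a Klein four-subgroup E of H all three of whose involutions are conjugate to z in H. Then H has no non-trivial abelian normal subgroup. -/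
theorem result {H : Type*} [Group H] [Finite H] (z : H) (hz : orderOf z = 2) (hN : ∀ N : Subgroup H, N.Normal → N ≠ ⊤ → N ⊓ Subgroup.centralizer ({z} : Set H) = ⊥) (E : Subgroup H) (hE : IsKleinFour ↥E) (hzE : z ∈ E) (hc : ∀ e ∈ E, e ≠ 1 → IsConj z e) (N : Subgroup H) [N.Normal] (hab : IsMulCommutative ↥N) : N = ⊥ := by
  have hz1 : z ≠ 1 := by
    rintro rfl
    rw [orderOf_one] at hz
    omega
  -- a second involution of `E`
  obtain ⟨e, he, he1, hez⟩ : ∃ e ∈ E, e ≠ 1 ∧ e ≠ z := by
    have hcard : Nat.card E = 4 := hE.card_four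
    by_contra hcon
    push Not at hcon
    have hsub : (E : Set H) ⊆ {1, z} := by
      intro e he
      by_cases h1 : e = 1
      · exact Or.inl h1
      · exact Or.inr (hcon e he h1)
    have h2 : (E : Set H).ncard ≤ ({1, z} : Set H).ncard := Set.ncard_le_ncard hsub
    have h3 : ({1, z} : Set H).ncard ≤ 2 := Set.ncard_insert_le 1 {z} |>.trans (by simp)
    have h4 : (E : Set H).ncard = 4 := by
      rw [← hcard]; rfl
    omega
  have hEsq : ∀ x ∈ E, x * x = 1 := by
    intro x hx
    have h1 : (⟨x, hx⟩ : E) ^ 2 = 1 := by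
      have := Monoid.pow_exponent_eq_one (⟨x, hx⟩ : E)
      rwa [hE.exponent_two] at this
    have h2 := congrArg Subtype.val h1
    simpa [pow_two] using h2
  by_cases htop : N = ⊤
  · -- `H` is abelian
    exfalso
    obtain ⟨g, hg⟩ := isConj_iff.mp (hc e he he1)
    have h1 : g * z = z * g := by
      have h2 := hab.is_comm.comm (⟨g, by rw [htop]; trivial⟩ : N) (⟨z, by rw [htop]; trivial⟩ : N)
      exact congrArg Subtype.val h2
    apply hez
    rw [← hg, h1]; group
  · have hfix := hN N inferInstance htop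
    -- every nontrivial element of `E` inverts `N`
    have hinv : ∀ x ∈ E, x ≠ 1 → ∀ n ∈ N, x * n * x⁻¹ = n⁻¹ := by
      intro x hx hx1 n hn
      obtain ⟨g, hg⟩ := isConj_iff.mp (hc x hx hx1)
      have h1 := inverts z (hEsq z hzE) N inferInstance hfix (g⁻¹ * n * g)
        (by simpa using (inferInstance : N.Normal).conj_mem n hn g⁻¹)
      calc x * n * x⁻¹ = g * (z * (g⁻¹ * n * g) * z⁻¹) * g⁻¹ := by rw [← hg]; group
        _ = g * (g⁻¹ * n * g)⁻¹ * g⁻¹ := by rw [h1]
        _ = n⁻¹ := by group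
    rw [eq_bot_iff]
    intro n hn
    have hze : z * e ≠ 1 := by
      intro h0
      apply hez
      have h1 : e = z⁻¹ := eq_inv_of_mul_eq_one_right h0
      rw [h1, inv_eq_iff_mul_eq_one]
      exact hEsq z hzE
    have h1 := hinv z hzE hz1 n hn
    have h2 := hinv e he he1 n hn
    have h3 := hinv (z * e) (E.mul_mem hzE he) hze n hn
    have h4 : z * e * n * (z * e)⁻¹ = n := by
      calc z * e * n * (z * e)⁻¹ = z * (e * n * e⁻¹) * z⁻¹ := by group
        _ = z * n⁻¹ * z⁻¹ := by rw [h2]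
        _ = (z * n * z⁻¹)⁻¹ := by group
        _ = n := by rw [h1, inv_inv]
    have h5 : n = n⁻¹ := h4.symm.trans h3
    have h6 : n ∈ N ⊓ Subgroup.centralizer ({z} : Set H) := by
      refine ⟨hn, ?_⟩
      change _ ∈ Subgroup.centralizer _
      rw [Subgroup.mem_centralizer_singleton_iff]
      calc n * z = n⁻¹ * z := by rw [← h5]
        _ = (z * n * z⁻¹) * z := by rw [h1]
        _ = z * n := by group
    rw [hfix] at h6
    exact h6

end Cfsg.Agent.S2008
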