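import Cfsg.Agent.H79.SimpleGen
import Cfsg.Agent.ChevalleyStructure.RootComb
import Cfsg.Statements.S2161
set_option linter.all false

-- part: H79/PermRoot
section
/-!
# The permutation of the roots induced by a symmetry of the Dynkin diagram (one root length)

For `D` one of the tabulated data and `π` a permutation of the nodes preserving the Cartan integers, `permRoot π r` is
the root whose coroot coefficients are those of `r` permuted by `π`; it commutes with the fundamental reflections.
-/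

set_option autoImplicit false

namespace Cfsg.Agent.H79.PermRoot

open Cfsg.Lie
open Cfsg.Agent.ChevalleyStructure
open Cfsg.Agent.ChevalleyStructure.Elts
open Cfsg.Agent.ChevalleyStructure.RootCombGood

variable {D : ChevalleyDatum}

/-- `π` preserves the Cartan integers of the fundamental roots. -/
def PresCartan (D : ChevalleyDatum) (π : Equiv.Perm (Fin D.rank)) : Prop :=
  ∀ i j : Fin D.rank, D.cartan (π i) (D.simple (π j)) = D.cartan i (D.simple j)

theorem car_simple_perm (π : Equiv.Perm (Fin D.rank)) (hπ : PresCartan D π) {r s : ℕ}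
    (h : ∀ j : Fin D.rank, co D s (π j) = co D r j) (i : Fin D.rank) :
    car D s (D.simple (π i)) = car D r (D.simple i) := by
  unfold car
  rw [Finset.sum_range, Finset.sum_range]
  rw [← Equiv.sum_comp π]
  apply Finset.sum_congr rfl
  intro j _
  rw [h j, hπ j i]

theorem exists_perm (hD : InList D) (π : Equiv.Perm (Fin D.rank)) (hπ : PresCartan D π) :
    ∀ r < D.nroots, ∃ s < D.nroots, ∀ j : Fin D.rank, co D s (π j) = co D r j := by
  have G := RootComb.good_of_mem hD
  refine Reach.reach hD (fun r => ∃ s < D.nroots, ∀ j : Fin D.rank, co D s (π j) = co D r j) ?_ ?_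
  · intro i hi
    refine ⟨D.simple (π ⟨i, hi⟩), G.simple_lt (π ⟨i, hi⟩).isLt, ?_⟩
    intro j
    rw [G.co_simple (π ⟨i, hi⟩).isLt (π j).isLt, G.co_simple hi j.isLt]
    by_cases hij : i = j.val
    · have : (⟨i, hi⟩ : Fin D.rank) = j := Fin.ext hij
      rw [if_pos hij, this, if_pos rfl]
    · rw [if_neg hij, if_neg]
      intro h
      exact hij (congrArg Fin.val (π.injective (Fin.ext h)))
  · rintro i hi r hr ⟨s, hs, hsr⟩
    refine ⟨D.reflectRoot (π ⟨i, hi⟩) s, G.reflect_lt (π ⟨i, hi⟩).isLt hs, ?_⟩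
    intro j
    rw [G.co_reflect (π ⟨i, hi⟩).isLt hs (π j).isLt, G.co_reflect hi hr j.isLt, hsr j,
      car_simple_perm π hπ hsr ⟨i, hi⟩]
    congr 1
    by_cases hij : j.val = i
    · have : j = (⟨i, hi⟩ : Fin D.rank) := Fin.ext hij
      rw [if_pos hij, this, if_pos rfl]
    · rw [if_neg hij, if_neg]
      intro h
      exact hij (congrArg Fin.val (π.injective (Fin.ext h)))

theorem permRoot_spec (hD : InList D) (π : Equiv.Perm (Fin D.rank)) (hπ : PresCartan D π) {r : ℕ}
    (hr : r < D.nroots) :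
    D.permRoot π r < D.nroots ∧ ∀ j : Fin D.rank, co D (D.permRoot π r) (π j) = co D r j := by
  obtain ⟨s, hs, hsr⟩ := exists_perm hD π hπ r hr
  unfold ChevalleyDatum.permRoot
  cases hf : (List.range D.nroots).find? fun s => (List.finRange D.rank).all fun i =>
      (D.coroot.getD s #[]).getD (π i).val 0 == (D.coroot.getD r #[]).getD i.val 0 with
  | none =>
    exfalso
    rw [List.find?_eq_none] at hf
    apply hf s (List.mem_range.2 hs)
    rw [List.all_eq_true]
    intro j _
    rw [beq_iff_eq]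
    exact hsr j
  | some u =>
    have h1 := List.find?_some hf
    have h2 := List.mem_of_find?_eq_some hf
    rw [List.all_eq_true] at h1
    refine ⟨List.mem_range.1 h2, ?_⟩
    intro j
    have h3 := h1 j (List.mem_finRange j)
    rw [beq_iff_eq] at h3
    exact h3

theorem eq_permRoot (hD : InList D) (π : Equiv.Perm (Fin D.rank)) (hπ : PresCartan D π) {r s : ℕ}
    (hr : r < D.nroots) (hs : s < D.nroots) (h : ∀ j : Fin D.rank, co D s (π j) = co D r j) :
    s = D.permRoot π r := by
  have G := RootComb.good_of_mem hD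
  obtain ⟨h1, h2⟩ := permRoot_spec hD π hπ hr
  apply G.co_inj hs h1
  intro j hj
  have h3 := h (π.symm ⟨j, hj⟩)
  have h4 := h2 (π.symm ⟨j, hj⟩)
  rw [Equiv.apply_symm_apply] at h3 h4
  rw [h3]
  exact h4.symm

theorem permRoot_simple (hD : InList D) (π : Equiv.Perm (Fin D.rank)) (hπ : PresCartan D π) (i : Fin D.rank) :
    D.permRoot π (D.simple i) = D.simple (π i) := by
  have G := RootComb.good_of_mem hD
  refine (eq_permRoot hD π hπ (G.simple_lt i.isLt) (G.simple_lt (π i).isLt) ?_).symm
  intro j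
  rw [G.co_simple (π i).isLt (π j).isLt, G.co_simple i.isLt j.isLt]
  by_cases hij : i.val = j.val
  · have : i = j := Fin.ext hij
    rw [if_pos hij, this, if_pos rfl]
  · rw [if_neg hij, if_neg]
    intro h
    exact hij (congrArg Fin.val (π.injective (Fin.ext h)))

theorem permRoot_neg (hD : InList D) (π : Equiv.Perm (Fin D.rank)) (hπ : PresCartan D π) {r : ℕ}
    (hr : r < D.nroots) : D.permRoot π (D.neg r) = D.neg (D.permRoot π r) := by
  have G := RootComb.good_of_mem hD
  obtain ⟨h1, h2⟩ := permRoot_spec hD π hπ hr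
  refine (eq_permRoot hD π hπ (Reach.neg_lt hD hr) (Reach.neg_lt hD h1) ?_).symm
  intro j
  rw [G.co_neg h1 (π j).isLt, G.co_neg hr j.isLt, h2]

theorem permRoot_reflect (hD : InList D) (π : Equiv.Perm (Fin D.rank)) (hπ : PresCartan D π) (i : Fin D.rank)
    {r : ℕ} (hr : r < D.nroots) :
    D.permRoot π (D.reflectRoot i r) = D.reflectRoot (π i) (D.permRoot π r) := by
  have G := RootComb.good_of_mem hD
  obtain ⟨h1, h2⟩ := permRoot_spec hD π hπ hr
  refine (eq_permRoot hD π hπ (G.reflect_lt i.isLt hr) (G.reflect_lt (π i).isLt h1) ?_).symm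
  intro j
  rw [G.co_reflect (π i).isLt h1 (π j).isLt, G.co_reflect i.isLt hr j.isLt, h2 j,
    car_simple_perm π hπ h2 i]
  congr 1
  by_cases hij : j.val = i.val
  · have : j = i := Fin.ext hij
    rw [if_pos hij, this, if_pos rfl]
  · rw [if_neg hij, if_neg]
    intro h
    exact hij (congrArg Fin.val (π.injective (Fin.ext h)))

/-- An automorphism of the Chevalley group acting on the fundamental root elements and their negatives through `π`
sends `x_r(t)` to `x_{π r}(± t)`. -/
theorem exists_sign {F : Type*} [Field F] (hD : InList D) (π : Equiv.Perm (Fin D.rank)) (hπ : PresCartan D π)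
    (φ : ↥(D.group F) ≃* ↥(D.group F))
    (h1 : ∀ (i : Fin D.rank) (t : F), φ (SimpleGen.xS hD (D.simple i) t) = SimpleGen.xS hD (D.simple (π i)) t)
    (h2 : ∀ (i : Fin D.rank) (t : F),
      φ (SimpleGen.xS hD (D.neg (D.simple i)) t) = SimpleGen.xS hD (D.neg (D.simple (π i))) t) :
    ∀ r < D.nroots, ∃ ε : F, (ε = 1 ∨ ε = -1) ∧
      ∀ t : F, φ (SimpleGen.xS hD r t) = SimpleGen.xS hD (D.permRoot π r) (ε * t) := by
  have hn : ∀ i : Fin D.rank, φ (SimpleGen.nS hD (D.simple i) (1 : F)) = SimpleGen.nS hD (D.simple (π i)) 1 := by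
    intro i
    rw [SimpleGen.nS_def, SimpleGen.nS_def, map_mul, map_mul, h1, h2]
  refine Reach.reach hD (fun r => ∃ ε : F, (ε = 1 ∨ ε = -1) ∧
      ∀ t : F, φ (SimpleGen.xS hD r t) = SimpleGen.xS hD (D.permRoot π r) (ε * t)) ?_ ?_
  · intro i hi
    refine ⟨1, Or.inl rfl, fun t => ?_⟩
    have := permRoot_simple hD π hπ ⟨i, hi⟩
    simp only at this
    rw [this, one_mul]
    exact h1 ⟨i, hi⟩ t
  · rintro i hi r hr ⟨ε, hε, hφ⟩
    have hpr := (permRoot_spec hD π hπ hr).1
    refine ⟨((NSimple.eta D (π ⟨i, hi⟩) (D.permRoot π r) : ℤ) : F) * (ε * ((NSimple.eta D i r : ℤ) : F)), ?_, ?_⟩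
    · rcases SimpleGen.eta_cases hD hi hr with h3 | h3 <;>
      rcases SimpleGen.eta_cases hD (π ⟨i, hi⟩).isLt hpr with h4 | h4 <;>
      rcases hε with h5 | h5 <;> rw [h3, h4, h5] <;> simp
    · intro t
      rw [SimpleGen.xS_reflect hD hi hr, map_mul, map_mul, map_inv, hφ]
      have h6 := hn ⟨i, hi⟩
      simp only at h6
      rw [h6, SimpleGen.nS_mul_xS hD (π ⟨i, hi⟩).isLt hpr, mul_inv_cancel_right]
      have h7 := permRoot_reflect hD π hπ ⟨i, hi⟩ hr
      simp only at h7
      rw [h7]
      congr 1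
      ring

/-- In the types `D₄` and `E₆` a symmetry of the diagram preserves the Cartan integers. -/
theorem presCartan_of_symm (hD : D ∈ [chevD4, chevE6]) (π : Equiv.Perm (Fin D.rank))
    (hπ : D.IsDiagramSymmetry π) : PresCartan D π := by
  have key : ∀ i < D.rank, ∀ j < D.rank, i ≠ j → D.cartan i (D.simple j) = - D.bonds i j := by
    simp only [List.mem_cons, List.not_mem_nil, or_false] at hD
    rcases hD with rfl | rfl
    · decide +kernel
    · decide +kernel
  have key2 : ∀ i < D.rank, D.cartan i (D.simple i) = 2 := by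
    simp only [List.mem_cons, List.not_mem_nil, or_false] at hD
    rcases hD with rfl | rfl
    · decide +kernel
    · decide +kernel
  intro i j
  by_cases hij : i = j
  · rw [hij, key2 _ (π j).isLt, key2 _ j.isLt]
  · rw [key _ i.isLt _ j.isLt (fun h => hij (Fin.ext h)), ← hπ i j hij,
      key _ (π i).isLt _ (π j).isLt (fun h => hij (π.injective (Fin.ext h)))]

end Cfsg.Agent.H79.PermRoot
end

-- part: S2161
section
set_option autoImplicit false
open Cfsg

namespace Cfsg.Agent.S2161

/-- For the Chevalley groups of types D₄ and E₆ (one root length) over any field: if `π` is a symmetry of the Dynkin diagram and `φ` is an automorphism sending `x_{p_i}(t)` to `x_{p_{π i}}(t)` and `x_{-p_i}(t)` to `x_{-p_{π i}}(t)` for every fundamental root `p_i`, then for every root `r` there is a sign `ε = ±1` with `φ(x_r(t)) = x_{π·r}(ε t)` for all `t`, where `π·r` is the root whose coefficients are those of `r` permuted by `π`. -/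
theorem result {F : Type*} [Field F] (D : Cfsg.Lie.ChevalleyDatum) (hD : D ∈ [Cfsg.Lie.chevD4, Cfsg.Lie.chevE6])
    (π : Equiv.Perm (Fin D.rank)) (hπ : D.IsDiagramSymmetry π) (φ : ↥(D.group F) ≃* ↥(D.group F))
    (hφ : ∀ (g : ↥(D.group F)) (i : Fin D.rank) (t : F),
      (((g : GL D.Idx F) : Matrix D.Idx D.Idx F) = D.x F (D.simple i) t →
        ((φ g : GL D.Idx F) : Matrix D.Idx D.Idx F) = D.x F (D.simple (π i)) t) ∧
      (((g : GL D.Idx F) : Matrix D.Idx D.Idx F) = D.x F (D.neg (D.simple i)) t →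
        ((φ g : GL D.Idx F) : Matrix D.Idx D.Idx F) = D.x F (D.neg (D.simple (π i))) t))
    (r : ℕ) (hr : r < D.nroots) :
    ∃ ε : F, (ε = 1 ∨ ε = -1) ∧ ∀ (g : ↥(D.group F)) (t : F),
      ((g : GL D.Idx F) : Matrix D.Idx D.Idx F) = D.x F r t →
        ((φ g : GL D.Idx F) : Matrix D.Idx D.Idx F) = D.x F (D.permRoot π r) (ε * t) := by
  have hD' : D ∈ [Cfsg.Lie.chevG2, Cfsg.Lie.chevB2, Cfsg.Lie.chevD4, Cfsg.Lie.chevF4, Cfsg.Lie.chevE6, Cfsg.Lie.chevE7, Cfsg.Lie.chevE8] := by
    simp only [List.mem_cons, List.not_mem_nil, or_false] at hD ⊢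
    rcases hD with h | h <;> simp [h]
  obtain ⟨ε, hε, h⟩ := H79.PermRoot.exists_sign hD' π (H79.PermRoot.presCartan_of_symm hD π hπ) φ
    (fun i t => (H79.SimpleGen.eq_xS_iff hD' _ _ _).2 ((hφ (H79.SimpleGen.xS hD' (D.simple i) t) i t).1 rfl))
    (fun i t => (H79.SimpleGen.eq_xS_iff hD' _ _ _).2 ((hφ (H79.SimpleGen.xS hD' (D.neg (D.simple i)) t) i t).2 rfl))
    r hr
  refine ⟨ε, hε, fun g t hg => ?_⟩
  rw [(H79.SimpleGen.eq_xS_iff hD' g r t).2 hg, h]
  rfl

end Cfsg.Agent.S2161
end
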