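import Cfsg.Statements.S2307
import Cfsg.Agent.H113.BorelInd
import Cfsg.Agent.H113.NormTwoChar
import Cfsg.Agent.Characters.Clifford
set_option linter.all false

set_option autoImplicit false
open Cfsg

namespace Cfsg.Agent.S2307

open Cfsg.Agent.H113.BorelInd Cfsg.Agent.Characters.Core Cfsg.Agent.Characters.Brauer

/-- Over a finite field F with q elements, q odd, let α be the multiplicative character of F of order 2. The character of SL₂ induced from the linear character b ↦ α(b₁₁) of the upper triangular subgroup is the sum of two distinct irreducible characters, each of degree (q + 1)/2, which are conjugate under GL₂: some fixed element of GL₂ conjugates the one into the other. -/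
theorem result {F : Type*} [Field F] [Fintype F] [DecidableEq F] (hodd : Odd (Fintype.card F)) (α : MulChar F ℂ)
    (hα : α ^ 2 = 1) (hα1 : α ≠ 1) :
    ∃ χ₁ χ₂ : Matrix.SpecialLinearGroup (Fin 2) F → ℂ, Cfsg.IsIrrCharacter (Matrix.SpecialLinearGroup (Fin 2) F) χ₁ ∧ Cfsg.IsIrrCharacter (Matrix.SpecialLinearGroup (Fin 2) F) χ₂ ∧ χ₁ ≠ χ₂ ∧
      Cfsg.indFun ((Cfsg.upperTriangularGL 2 F).comap Matrix.SpecialLinearGroup.toGL) (fun b => α (((b : Matrix.SpecialLinearGroup (Fin 2) F) : Matrix (Fin 2) (Fin 2) F) 0 0)) = χ₁ + χ₂ ∧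
      χ₁ 1 = (((Fintype.card F + 1) / 2 : ℕ) : ℂ) ∧ χ₂ 1 = (((Fintype.card F + 1) / 2 : ℕ) : ℂ) ∧
      ∃ x : Matrix.GeneralLinearGroup (Fin 2) F, ∀ g h : Matrix.SpecialLinearGroup (Fin 2) F,
        Matrix.SpecialLinearGroup.toGL h = x * Matrix.SpecialLinearGroup.toGL g * x⁻¹ → χ₂ h = χ₁ g := by
  classical
  have h : (fun b : ↥((Cfsg.upperTriangularGL 2 F).comap Matrix.SpecialLinearGroup.toGL) =>
      α (((b : Matrix.SpecialLinearGroup (Fin 2) F) : Matrix (Fin 2) (Fin 2) F) 0 0)) = fun b => slLin α b :=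
    funext fun b => (slLin_apply α b).symm
  rw [h]
  have hinv : α = α⁻¹ := by
    rwa [sq, mul_eq_one_iff_eq_inv] at hα
  have hX : IsCharacter _ (indFun (slB F) (fun b => slLin α b)) :=
    isCharacter_indFun _ (isCharacter_of_monoidHom (slLin α))
  have hX2 : classInner (indFun (slB F) (fun b => slLin α b)) (indFun (slB F) (fun b => slLin α b)) = 2 := by
    rw [classInner_sl, if_pos rfl, if_pos hinv]
    norm_num
  obtain ⟨χ₁, χ₂, h1, h2, hne, hsum⟩ := Cfsg.Agent.H113.NormTwoChar.exists_add_of_norm_two hX hX2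
  -- the irreducible character of `GL₂`
  have hY : IsIrrCharacter _ (indFun (upperTriangularGL 2 F) (fun b => glLin α 1 b)) := by
    apply isIrr_of_classInner_self
    · exact isCharacter_indFun _ (isCharacter_of_monoidHom (glLin α 1))
    · rw [classInner_gl]
      simp [hα1]
  have hker : Function.Injective (Matrix.SpecialLinearGroup.toGL :
      Matrix.SpecialLinearGroup (Fin 2) F →* Matrix.GeneralLinearGroup (Fin 2) F) := by
    intro a b hab
    exact Subtype.ext (congrArg Units.val hab)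
  let N : Subgroup (Matrix.GeneralLinearGroup (Fin 2) F) :=
    (Matrix.SpecialLinearGroup.toGL : Matrix.SpecialLinearGroup (Fin 2) F →* _).range
  have hN : N = (Matrix.GeneralLinearGroup.det : Matrix.GeneralLinearGroup (Fin 2) F →* Fˣ).ker := by
    ext g
    rw [MonoidHom.mem_ker]
    constructor
    · rintro ⟨s, rfl⟩
      ext
      exact s.2
    · intro hg
      have hg' : (g : Matrix (Fin 2) (Fin 2) F).det = 1 := congrArg Units.val hg
      exact ⟨⟨_, hg'⟩, Units.ext rfl⟩
  have hNn : N.Normal := by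
    rw [hN]
    infer_instance
  let e : Matrix.SpecialLinearGroup (Fin 2) F ≃* N := MonoidHom.ofInjective hker
  have he : ∀ s, ((e s : N) : Matrix.GeneralLinearGroup (Fin 2) F) = Matrix.SpecialLinearGroup.toGL s := fun s => rfl
  let ψ₁ : N → ℂ := χ₁ ∘ e.symm
  let ψ₂ : N → ℂ := χ₂ ∘ e.symm
  have i1 : IsIrrCharacter N ψ₁ := isIrr_comp (e.symm : N →* _) e.symm.surjective h1
  have i2 : IsIrrCharacter N ψ₂ := isIrr_comp (e.symm : N →* _) e.symm.surjective h2
  have hres : (fun n : N => indFun (upperTriangularGL 2 F) (fun b => glLin α 1 b)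
      (n : Matrix.GeneralLinearGroup (Fin 2) F)) = (indFun (slB F) (fun b => slLin α b)) ∘ e.symm := by
    funext n
    obtain ⟨s, rfl⟩ := e.surjective n
    rw [Function.comp_apply, MulEquiv.symm_apply_apply, he, indFun_gl_toGL]
  have j1 : classInner (fun n : N => indFun (upperTriangularGL 2 F) (fun b => glLin α 1 b)
      (n : Matrix.GeneralLinearGroup (Fin 2) F)) ψ₁ ≠ 0 := by
    rw [hres, Cfsg.Agent.Characters.Clifford.classInner_comp_mulEquiv, hsum, classInner_add_left,
      classInner_irr_self h1, classInner_irr_ne h2 h1 (Ne.symm hne)]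
    simp
  have j2 : classInner (fun n : N => indFun (upperTriangularGL 2 F) (fun b => glLin α 1 b)
      (n : Matrix.GeneralLinearGroup (Fin 2) F)) ψ₂ ≠ 0 := by
    rw [hres, Cfsg.Agent.Characters.Clifford.classInner_comp_mulEquiv, hsum, classInner_add_left,
      classInner_irr_self h2, classInner_irr_ne h1 h2 hne]
    simp
  obtain ⟨x, hx⟩ := Cfsg.Agent.Characters.Clifford.exists_conj_of_constituents N hY i1 i2 j1 j2
  have hconj : ∀ g h : Matrix.SpecialLinearGroup (Fin 2) F,
      Matrix.SpecialLinearGroup.toGL h = x⁻¹ * Matrix.SpecialLinearGroup.toGL g * x⁻¹⁻¹ → χ₂ h = χ₁ g := by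
    intro g s hgs
    have k1 : χ₂ s = ψ₂ (e s) := by simp [ψ₂]
    have k2 : (MulAut.conjNormal x : MulAut N) (e s) = e g := by
      apply Subtype.ext
      rw [MulAut.conjNormal_apply, he, he, hgs]
      group
    rw [k1, hx, Function.comp_apply, k2]
    simp [ψ₁]
  have hdeg : χ₂ 1 = χ₁ 1 := hconj 1 1 (by simp)
  obtain ⟨n, hn⟩ := isCharacter_apply_one (isIrr_isCharacter h1)
  have htot : indFun (slB F) (fun b => slLin α b) 1 = (Fintype.card F + 1 : ℂ) := by
    rw [indFun_sl]
    have hterm : ∀ t : F, (if t * ((1 : Matrix (Fin 2) (Fin 2) F) 1 0 * t + (1 : Matrix (Fin 2) (Fin 2) F) 1 1) =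
          (1 : Matrix (Fin 2) (Fin 2) F) 0 0 * t + (1 : Matrix (Fin 2) (Fin 2) F) 0 1 then
        α ((1 : Matrix (Fin 2) (Fin 2) F) 1 0 * t + (1 : Matrix (Fin 2) (Fin 2) F) 1 1) else 0) = (1 : ℂ) := by
      intro t
      simp
    have hfirst : (if (1 : Matrix (Fin 2) (Fin 2) F) 1 0 = 0 then α ((1 : Matrix (Fin 2) (Fin 2) F) 0 0) else 0) =
        (1 : ℂ) := by
      simp
    refine (congrArg₂ (· + ·) hfirst (Finset.sum_congr rfl fun t _ => hterm t)).trans ?_
    rw [Finset.sum_const, Finset.card_univ, nsmul_eq_mul, mul_one, add_comm]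
  have hn2 : (2 * n : ℕ) = Fintype.card F + 1 := by
    have : ((2 * n : ℕ) : ℂ) = ((Fintype.card F + 1 : ℕ) : ℂ) := by
      push_cast
      rw [← htot, hsum, Pi.add_apply, hdeg, hn]
      ring
    exact_mod_cast this
  have hn3 : (Fintype.card F + 1) / 2 = n := by omega
  refine ⟨χ₁, χ₂, h1, h2, hne, hsum, ?_, ?_, x⁻¹, hconj⟩
  · rw [hn3, hn]
  · rw [hn3, hdeg, hn]

end Cfsg.Agent.S2307
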