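import Cfsg.Statements.S2315
import Cfsg.Agent.H115.PelQuot
import Cfsg.Agent.Nodes.RGDClass
set_option linter.all false

set_option autoImplicit false
open Cfsg

namespace Cfsg.Agent.S2315

open Cfsg.Agent.H115 Cfsg.Agent.Nodes.RGDChev Matrix

theorem not_dvd_pow_sub_one {p e k : ℕ} (hp : p.Prime) (he : e ≠ 0) (hk : k ≠ 0) : ¬ p ∣ (p ^ e) ^ k - 1 := by
  intro h
  have h1 : p ∣ (p ^ e) ^ k := dvd_pow (dvd_pow_self p he) hk
  have h2 : 1 ≤ (p ^ e) ^ k := Nat.one_le_pow _ _ (pow_pos hp.pos _)
  have h3 : p ∣ 1 := by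
    have := (Nat.dvd_sub_iff_right h2 h1).1 h
    exact this
  exact hp.one_lt.ne' (Nat.dvd_one.1 h3)

variable {F : Type*} [Field F] [Fintype F] (p : ℕ) [hp : Fact p.Prime] [CharP F p] (n : ℕ)

/-- the order of `GL_n` as a power of `p` times a number prime to `p` -/
theorem card_GL : ∃ (e : ℕ) (m : ℕ), Fintype.card F = p ^ e ∧ e ≠ 0 ∧ ¬ p ∣ m ∧
    Nat.card (GL (Fin n) F) = p ^ (e * (n * (n - 1) / 2)) * m := by
  classical
  obtain ⟨e, he, hq⟩ := FiniteField.card F p
  have he0 : (e : ℕ) ≠ 0 := e.2.ne'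
  refine ⟨e, ∏ i : Fin n, (Fintype.card F ^ (n - i) - 1), hq, he0, ?_, ?_⟩
  · intro h
    obtain ⟨i, -, hi⟩ := (Prime.dvd_finsetProd_iff hp.1.prime _).1 h
    rw [hq] at hi
    exact not_dvd_pow_sub_one hp.1 he0 (by have := i.2; omega) hi
  · rw [Matrix.card_GL_field]
    have h1 : ∀ i : Fin n, Fintype.card F ^ n - Fintype.card F ^ (i : ℕ) =
        Fintype.card F ^ (i : ℕ) * (Fintype.card F ^ (n - i) - 1) := by
      intro i
      rw [Nat.mul_sub, mul_one, ← pow_add, Nat.add_sub_cancel' i.2.le]
    rw [Finset.prod_congr rfl fun i _ => h1 i, Finset.prod_mul_distrib, Finset.prod_pow_eq_pow_sum,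
      Fin.sum_univ_eq_sum_range (fun i => i) n, Finset.sum_range_id, hq, ← pow_mul]

/-- the center of `SL_n` has order prime to `p` -/
theorem card_center_coprime : (Nat.card (Subgroup.center (SpecialLinearGroup (Fin n) F))).Coprime p := by
  rw [Nat.coprime_comm, hp.1.coprime_iff_not_dvd]
  intro hdvd
  obtain ⟨g, hg⟩ := exists_prime_orderOf_dvd_card' p hdvd
  obtain ⟨r, -, hr⟩ := Matrix.SpecialLinearGroup.mem_center_iff.1 g.2
  have h1 : (g : SpecialLinearGroup (Fin n) F) ^ p = 1 := by
    rw [← SubgroupClass.coe_pow, ← hg, pow_orderOf_eq_one]; rfl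
  have h2 : ((g : SpecialLinearGroup (Fin n) F) : Matrix (Fin n) (Fin n) F) = 1 := by
    rcases isEmpty_or_nonempty (Fin n) with hn | hn
    · exact Subsingleton.elim _ _
    have h3 : ((g : SpecialLinearGroup (Fin n) F) : Matrix (Fin n) (Fin n) F) ^ p = 1 := by
      have h4 := congrArg (fun a : SpecialLinearGroup (Fin n) F => (a : Matrix (Fin n) (Fin n) F)) h1
      exact (Matrix.SpecialLinearGroup.coe_pow g.1 p).symm.trans (h4.trans Matrix.SpecialLinearGroup.coe_one)
    rw [← hr, ← map_pow] at h3
    have h4 : r ^ p = 1 := by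
      have := congrFun (congrFun h3 hn.some) hn.some
      simpa using this
    have h5 : r = 1 := by
      have h6 : (r - 1) ^ p = 0 := by rw [sub_pow_char, h4, one_pow, sub_self]
      exact sub_eq_zero.1 (pow_eq_zero_iff hp.1.ne_zero |>.1 h6)
    rw [← hr, h5, map_one]
  have h3 : g = 1 := Subtype.ext (Subtype.ext h2)
  rw [h3, orderOf_one] at hg
  exact hp.1.one_lt.ne hg

/-- the elements of `p`-power order of `GL_n` are those of `SL_n` -/
theorem card_pel_GL : Nat.card {g : GL (Fin n) F // ∃ k : ℕ, orderOf g = p ^ k} =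
    Nat.card {g : SpecialLinearGroup (Fin n) F // ∃ k : ℕ, orderOf g = p ^ k} := by
  classical
  have hc : (Nat.card Fˣ).Coprime p := by
    obtain ⟨e, he, hq⟩ := FiniteField.card F p
    rw [Nat.card_units, Nat.card_eq_fintype_card, Nat.coprime_comm, hp.1.coprime_iff_not_dvd, hq,
      ← pow_one (p ^ (e : ℕ))]
    exact not_dvd_pow_sub_one hp.1 e.2.ne' one_ne_zero
  rw [card_pel_ker (Matrix.GeneralLinearGroup.det (n := Fin n) (R := F)) hc]
  have hinj : Function.Injective (Matrix.SpecialLinearGroup.toGL (n := Fin n) (R := F)) := by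
    intro a b h
    have := congrArg (fun g : GL (Fin n) F => (g : Matrix (Fin n) (Fin n) F)) h
    exact Subtype.ext this
  have hrange : (Matrix.SpecialLinearGroup.toGL (n := Fin n) (R := F)).range =
      (Matrix.GeneralLinearGroup.det (n := Fin n) (R := F)).ker := by
    ext g
    rw [MonoidHom.mem_range, MonoidHom.mem_ker]
    constructor
    · rintro ⟨a, rfl⟩
      exact Units.ext a.2
    · intro h
      exact ⟨⟨g, by have := congrArg Units.val h; exact this⟩, Units.ext rfl⟩
  exact (card_pel_equiv ((MonoidHom.ofInjective hinj).trans (MulEquiv.subgroupCongr hrange))).symm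


/-- Steinberg's count of unipotent elements for the general linear group: over a finite field with q elements of characteristic p, the number of elements of GL_n of p-power order (the unipotent matrices) is q^(n(n−1)). -/
theorem result {F : Type*} [Field F] [Fintype F] (p : ℕ) [Fact p.Prime] [CharP F p] (n : ℕ) :
    Nat.card {g : Matrix.GeneralLinearGroup (Fin n) F // ∃ k : ℕ, orderOf g = p ^ k} = Fintype.card F ^ (n * (n - 1)) := by
  have hp : p.Prime := Fact.out
  obtain ⟨e, m, hq, he0, hm, hcard⟩ := card_GL (F := F) p n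
  have heven : 2 ∣ n * (n - 1) := by
    rcases n with _ | n
    · simp
    · rw [Nat.add_sub_cancel, mul_comm]
      exact (Nat.even_mul_succ_self n).two_dvd
  have hres : Fintype.card F ^ (n * (n - 1)) = (p ^ (e * (n * (n - 1) / 2))) ^ 2 := by
    rw [hq, ← pow_mul, ← pow_mul, mul_assoc, Nat.div_mul_cancel heven]
  rw [hres]
  rcases Nat.eq_zero_or_pos n with rfl | hn
  · have h2 : Nat.card {g : GL (Fin 0) F // ∃ k : ℕ, orderOf g = p ^ k} = 1 := by
      rw [Nat.card_eq_one_iff_unique]
      exact ⟨⟨fun a b => Subtype.ext (Units.ext (Subsingleton.elim _ _))⟩, ⟨⟨1, 0, by simp⟩⟩⟩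
    exact h2.trans (by simp)
  · obtain ⟨n, rfl⟩ : ∃ k, n = k + 1 := ⟨n - 1, by omega⟩
    refine (card_pel_GL (F := F) p (n + 1)).trans ?_
    -- the order of `SL`
    have hc : (Nat.card Fˣ).Coprime p := by
      rw [Nat.card_units, Nat.card_eq_fintype_card, Nat.coprime_comm, hp.coprime_iff_not_dvd, hq,
        ← pow_one (p ^ e)]
      exact not_dvd_pow_sub_one hp he0 one_ne_zero
    have hSL : Nat.card (GL (Fin (n + 1)) F) = Nat.card (SpecialLinearGroup (Fin (n + 1)) F) * Nat.card Fˣ := by
      classical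
      have h1 := Subgroup.card_eq_card_quotient_mul_card_subgroup
        (Matrix.GeneralLinearGroup.det (n := Fin (n + 1)) (R := F)).ker
      have hsurj : Function.Surjective (Matrix.GeneralLinearGroup.det (n := Fin (n + 1)) (R := F)) := by
        intro u
        refine ⟨Matrix.GeneralLinearGroup.mkOfDetNeZero (Matrix.diagonal (Function.update 1 0 (u : F))) ?_, ?_⟩
        · rw [Matrix.det_diagonal, Finset.prod_update_of_mem (Finset.mem_univ _)]
          simp
        · apply Units.ext
          show (Matrix.diagonal (Function.update 1 0 (u : F))).det = u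
          rw [Matrix.det_diagonal, Finset.prod_update_of_mem (Finset.mem_univ _)]
          simp
      have h2 := Nat.card_congr (QuotientGroup.quotientKerEquivOfSurjective _ hsurj).toEquiv
      rw [h1, h2, mul_comm]
      congr 1
      have hinj : Function.Injective (Matrix.SpecialLinearGroup.toGL (n := Fin (n + 1)) (R := F)) := by
        intro a b h
        have := congrArg (fun g : GL (Fin (n + 1)) F => (g : Matrix (Fin (n + 1)) (Fin (n + 1)) F)) h
        exact Subtype.ext this
      have hrange : (Matrix.SpecialLinearGroup.toGL (n := Fin (n + 1)) (R := F)).range =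
          (Matrix.GeneralLinearGroup.det (n := Fin (n + 1)) (R := F)).ker := by
        ext g
        rw [MonoidHom.mem_range, MonoidHom.mem_ker]
        constructor
        · rintro ⟨a, rfl⟩
          exact Units.ext a.2
        · intro h
          exact ⟨⟨g, by have := congrArg Units.val h; exact this⟩, Units.ext rfl⟩
      exact (Nat.card_congr ((MonoidHom.ofInjective hinj).trans (MulEquiv.subgroupCongr hrange)).toEquiv).symm
    have hdvd : p ^ (e * ((n + 1) * (n + 1 - 1) / 2)) ∣ Nat.card (SpecialLinearGroup (Fin (n + 1)) F) := by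
      refine (Nat.Coprime.pow_left _ hc.symm).dvd_of_dvd_mul_right ?_
      rw [← hSL, hcard]
      exact dvd_mul_right _ _
    obtain ⟨c, hc'⟩ := hdvd
    refine card_pel_of_center (Subgroup.center (SpecialLinearGroup (Fin (n + 1)) F)) le_rfl
      (card_center_coprime p (n + 1)) (Cfsg.Agent.Nodes.RGDClass.hasRGD_PSL n) hc' ?_
    intro hpc
    apply hm
    have h4 : p ^ (e * ((n + 1) * (n + 1 - 1) / 2)) * m =
        p ^ (e * ((n + 1) * (n + 1 - 1) / 2)) * (c * Nat.card Fˣ) := by
      rw [← hcard, hSL, hc']; ring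
    have h5 : m = c * Nat.card Fˣ := mul_left_cancel₀ (pow_ne_zero _ hp.pos.ne') h4
    rw [h5]
    exact Dvd.dvd.mul_right hpc _

end Cfsg.Agent.S2315
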