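import Cfsg.Statements.S2317
import Cfsg.Agent.H174.UnipClass
set_option linter.all false

set_option autoImplicit false
open Cfsg

namespace Cfsg.Agent.S2317

/-- Over a finite field of characteristic p, the conjugacy classes of GL_n consisting of elements of p-power order (the unipotent classes) are as many as the partitions of n. -/
theorem result {F : Type*} [Field F] [Fintype F] (p : ℕ) [Fact p.Prime] [CharP F p] (n : ℕ) :
    Nat.card {C : ConjClasses (Matrix.GeneralLinearGroup (Fin n) F) //
      ∃ g : Matrix.GeneralLinearGroup (Fin n) F, (∃ k : ℕ, orderOf g = p ^ k) ∧ ConjClasses.mk g = C} =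
      Fintype.card (Nat.Partition n) := by
  have hp : p.Prime := Fact.out
  have h0 : Nat.card {C : ConjClasses (Matrix.GeneralLinearGroup (Fin n) F) //
      ∃ g : Matrix.GeneralLinearGroup (Fin n) F, (∃ k : ℕ, orderOf g = p ^ k) ∧ ConjClasses.mk g = C} =
      Nat.card {C : ConjClasses (GL (Fin n) F) //
        ∃ g : GL (Fin n) F, ConjClasses.mk g = C ∧ ∃ k : ℕ, orderOf g = p ^ k} :=
    Nat.card_congr (Equiv.subtypeEquivRight fun C => exists_congr fun g => and_comm)
  rw [h0, H174.card_unip_classes (fun g : GL (Fin n) F => ∃ k : ℕ, orderOf g = p ^ k),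
    ← Nat.card_eq_fintype_card]
  · refine Nat.card_congr (Equiv.subtypeUnivEquiv fun μ => ?_)
    have h := (H174.unip_pow_eq_one_iff (F := F) (p := p) μ n).2 (fun a ha => by
      refine le_trans ?_ (Nat.lt_pow_self hp.one_lt).le
      rw [← μ.parts_sum]
      exact Multiset.single_le_sum (fun _ _ => Nat.zero_le _) a ha)
    obtain ⟨k, _, hk⟩ := (Nat.dvd_prime_pow hp).1 (orderOf_dvd_of_pow_eq_one h)
    exact ⟨k, hk⟩
  · rintro g ⟨k, hk⟩
    refine H174.isNilpotent_of_pow (p := p) (k := k) ?_
    rw [← hk]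
    exact pow_orderOf_eq_one g
  · rintro g h hc ⟨k, hk⟩
    refine ⟨k, ?_⟩
    rw [← hk]
    obtain ⟨c, rfl⟩ := isConj_iff.1 hc
    exact (orderOf_injective (MulAut.conj c).toMonoidHom (MulAut.conj c).injective g)

end Cfsg.Agent.S2317
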