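import Cfsg.Statements.S2323
import Cfsg.Agent.H670.SL2Odd
set_option linter.all false

set_option autoImplicit false
open Cfsg

namespace Cfsg.Agent.S2323

open Cfsg.Agent.H670 Cfsg.Agent.H670.RankOne Cfsg.Agent.Characters.Core

/-- The type of an irreducible character determines its value. -/
theorem value_odd {F : Type*} [Field F] [Fintype F] [DecidableEq F] {nu : F} (hnu : ¬ IsSquare nu)
    (χ : IrrCharacter (Matrix.SpecialLinearGroup (Fin 2) F))
    (h : (SL2.data F).n χ 1 = (SL2.data F).n χ nu) :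
    (χ : Matrix.SpecialLinearGroup (Fin 2) F → ℂ) (SL2.x 1) =
      (SL2.data F).n χ 0 - (SL2.data F).n χ 1 := by
  rw [SL2.apply_x hnu, if_neg one_ne_zero, h]
  ring

theorem value_even {F : Type*} [Field F] [Fintype F] (ha : Function.Surjective (SL2.data F).a)
    (χ : IrrCharacter (Matrix.SpecialLinearGroup (Fin 2) F)) :
    (χ : Matrix.SpecialLinearGroup (Fin 2) F → ℂ) (SL2.x 1) =
      (SL2.data F).n χ 0 - (SL2.data F).n χ 1 := by
  classical
  have h1 := (SL2.data F).apply_X (χ : Matrix.SpecialLinearGroup (Fin 2) F → ℂ) 1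
  have h2 : ∀ c : F, (SL2.data F).cf (χ : Matrix.SpecialLinearGroup (Fin 2) F → ℂ) c *
      psi F (1 * c) = (if c = 0 then ((SL2.data F).n χ 0 - (SL2.data F).n χ 1 : ℂ) else 0) +
        (SL2.data F).n χ 1 * psi F (c * 1) := by
    intro c
    rw [Data.cf_eq_n]
    by_cases hc : c = 0
    · subst hc
      rw [if_pos rfl, mul_zero, zero_mul, AddChar.map_zero_eq_one]
      ring
    · rw [if_neg hc, (SL2.data F).n_eq_n_one ha χ hc, one_mul, mul_one, zero_add]
  rw [Finset.sum_congr rfl fun c _ => h2 c, Finset.sum_add_distrib,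
    Finset.sum_ite_eq' Finset.univ (0 : F), if_pos (Finset.mem_univ _), ← Finset.mul_sum, sum_psi,
    if_neg one_ne_zero, mul_zero, add_zero] at h1
  exact h1

/-- Over a finite field F with q ≥ 4 elements, let u be the upper unitriangular matrix of SL₂ with off-diagonal entry 1. An irreducible complex character of SL₂ takes at u the value 1 if its degree is q + 1 and the value −1 if its degree is q − 1. -/
theorem result {F : Type*} [Field F] [Fintype F] (hq : 4 ≤ Fintype.card F) (χ : Matrix.SpecialLinearGroup (Fin 2) F → ℂ) (hχ : Cfsg.IsIrrCharacter (Matrix.SpecialLinearGroup (Fin 2) F) χ)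
    (u : Matrix.SpecialLinearGroup (Fin 2) F) (hu : (u : Matrix (Fin 2) (Fin 2) F) = !![1, 1; 0, 1]) :
    (χ 1 = (Fintype.card F : ℂ) + 1 → χ u = 1) ∧ (χ 1 = (Fintype.card F : ℂ) - 1 → χ u = -1) := by
  classical
  have : Fintype (Matrix.SpecialLinearGroup (Fin 2) F) := Fintype.ofFinite _
  have hux : u = SL2.x 1 := by
    apply Subtype.ext
    exact hu
  rw [hux]
  rcases Nat.even_or_odd (Fintype.card F) with he | ho
  · -- even case
    have h2 : ringChar F = 2 := by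
      rw [FiniteField.even_card_iff_char_two]
      exact Nat.even_iff.1 he
    have ha : Function.Surjective (SL2.data F).a := by
      intro v
      obtain ⟨w, hw⟩ := FiniteField.isSquare_of_char_two (F := F) h2 (v : F)
      have hw0 : w ≠ 0 := by
        rintro rfl
        rw [mul_zero] at hw
        exact v.ne_zero hw
      refine ⟨SL2.tt (Units.mk0 w hw0), ?_⟩
      rw [SL2.data_a]
      apply Units.ext
      rw [Units.val_pow_eq_pow_val, Units.val_mk0, hw, pow_two]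
    have hv := value_even ha ⟨χ, hχ⟩
    have hv' : χ (SL2.x 1) = (SL2.data F).n ⟨χ, hχ⟩ 0 - (SL2.data F).n ⟨χ, hχ⟩ 1 := hv
    have hd : χ 1 = ((∑ c : F, (SL2.data F).n ⟨χ, hχ⟩ c : ℕ) : ℂ) := (SL2.data F).degree_eq ⟨χ, hχ⟩
    rw [(SL2.data F).sum_n_eq ha] at hd
    have ht := (SL2.data F).types_surj SL2.hasAnti ha ⟨χ, hχ⟩
    simp only [Finset.mem_insert, Finset.mem_singleton, Prod.mk.injEq] at ht
    rw [hv', hd]
    have e1 : (Fintype.card F : ℂ) + 1 = ((Fintype.card F + 1 : ℕ) : ℂ) := by push_cast; ring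
    have e2 : (Fintype.card F : ℂ) - 1 = ((Fintype.card F - 1 : ℕ) : ℂ) := by
      rw [Nat.cast_sub (by omega)]; push_cast; ring
    rw [e1, e2, Nat.cast_inj, Nat.cast_inj]
    rcases ht with ⟨a1, a2⟩ | ⟨a1, a2⟩ | ⟨a1, a2⟩ | ⟨a1, a2⟩ <;> rw [a1, a2]
    · exact ⟨fun _ => by norm_num, fun h => by omega⟩
    · exact ⟨fun h => by omega, fun h => by omega⟩
    · exact ⟨fun h => by omega, fun h => by omega⟩
    · exact ⟨fun h => by omega, fun _ => by norm_num⟩
  · obtain ⟨nu, hnu⟩ := SL2.exists_not_square ho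
    obtain ⟨h, hqh⟩ : ∃ h, Fintype.card F = 2 * h + 1 := by
      obtain ⟨m, hm⟩ := ho
      exact ⟨m, hm⟩
    have hd : χ 1 = (((SL2.ty nu ⟨χ, hχ⟩).1 + h * ((SL2.ty nu ⟨χ, hχ⟩).2.1 +
      (SL2.ty nu ⟨χ, hχ⟩).2.2) : ℕ) : ℂ) := SL2.degree_eq_ty hnu ⟨χ, hχ⟩ hqh
    have ht := SL2.ty_mem hnu ⟨χ, hχ⟩
    have e1 : (Fintype.card F : ℂ) + 1 = ((2 * h + 2 : ℕ) : ℂ) := by rw [hqh]; push_cast; ring
    have e2 : (Fintype.card F : ℂ) - 1 = ((2 * h : ℕ) : ℂ) := by rw [hqh]; push_cast; ring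
    rw [e1, e2, hd, Nat.cast_inj, Nat.cast_inj]
    have hv := value_odd hnu ⟨χ, hχ⟩
    have hv' : (SL2.data F).n ⟨χ, hχ⟩ 1 = (SL2.data F).n ⟨χ, hχ⟩ nu →
      χ (SL2.x 1) = (SL2.data F).n ⟨χ, hχ⟩ 0 - (SL2.data F).n ⟨χ, hχ⟩ 1 := hv
    simp only [SL2.ty, SL2.tys, Finset.mem_insert, Finset.mem_singleton, Prod.mk.injEq] at ht ⊢
    rcases ht with ⟨a1, a2, a3⟩ | ⟨a1, a2, a3⟩ | ⟨a1, a2, a3⟩ | ⟨a1, a2, a3⟩ | ⟨a1, a2, a3⟩ |
      ⟨a1, a2, a3⟩ | ⟨a1, a2, a3⟩ | ⟨a1, a2, a3⟩ <;> rw [a1, a2, a3] at hv' ⊢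
    · exact ⟨fun _ => by rw [hv' rfl]; norm_num, fun h => by omega⟩
    · exact ⟨fun h => by omega, fun h => by omega⟩
    · exact ⟨fun h => by omega, fun h => by omega⟩
    · exact ⟨fun h => by omega, fun h => by omega⟩
    · exact ⟨fun h => by omega, fun h => by omega⟩
    · exact ⟨fun h => by omega, fun _ => by rw [hv' rfl]; norm_num⟩
    · exact ⟨fun h => by omega, fun h => by omega⟩
    · exact ⟨fun h => by omega, fun h => by omega⟩

end Cfsg.Agent.S2323
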