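import Cfsg.Statements.S2324
import Cfsg.Agent.H670.SL2Odd
set_option linter.all false

set_option autoImplicit false
open Cfsg

namespace Cfsg.Agent.S2324

open Cfsg.Agent.H670 Cfsg.Agent.H670.RankOne Cfsg.Agent.Characters.Core

theorem value {F : Type*} [Field F] [Fintype F] [DecidableEq F] {nu : F} (hnu : ¬ IsSquare nu)
    (χ : IrrCharacter (Matrix.SpecialLinearGroup (Fin 2) F)) {a b c : ℕ}
    (h : SL2.ty nu χ = (a, b, c)) :
    (χ : Matrix.SpecialLinearGroup (Fin 2) F → ℂ) (SL2.x 1) =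
      a - (b + c) / 2 + (b - c) / 2 * SL2.gs F := by
  simp only [SL2.ty, Prod.mk.injEq] at h
  rw [SL2.apply_x hnu, if_neg one_ne_zero, h.1, h.2.1, h.2.2, SL2.gs_eq]
  simp only [one_mul]
  ring

theorem uniq {F : Type*} [Field F] [Fintype F] [DecidableEq F] {nu : F}
    [Fintype (IrrCharacter (Matrix.SpecialLinearGroup (Fin 2) F))] {p : ℕ × ℕ × ℕ}
    (h : SL2.N nu p = 1) {χ χ' : IrrCharacter (Matrix.SpecialLinearGroup (Fin 2) F)}
    (h1 : SL2.ty nu χ = p) (h2 : SL2.ty nu χ' = p) : χ = χ' := by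
  rw [SL2.N, Finset.card_eq_one] at h
  obtain ⟨a, ha⟩ := h
  have m1 : χ ∈ ({a} : Finset (IrrCharacter (Matrix.SpecialLinearGroup (Fin 2) F))) := by
    rw [← ha]; exact Finset.mem_filter.2 ⟨Finset.mem_univ _, h1⟩
  have m2 : χ' ∈ ({a} : Finset (IrrCharacter (Matrix.SpecialLinearGroup (Fin 2) F))) := by
    rw [← ha]; exact Finset.mem_filter.2 ⟨Finset.mem_univ _, h2⟩
  rw [Finset.mem_singleton] at m1 m2
  rw [m1, m2]

/-- Over a finite field F with q elements, q odd and q ≥ 5, let u be the upper unitriangular matrix of SL₂ with off-diagonal entry 1 and let δ = (−1)^((q−1)/2). Every irreducible complex character χ of SL₂ of degree (q + 1)/2 satisfies (2χ(u) − 1)² = δq, and every irreducible complex character χ of degree (q − 1)/2 satisfies (2χ(u) + 1)² = δq; that is, χ(u) = (1 ± √(δq))/2 in the first case and χ(u) = (−1 ± √(δq))/2 in the second. Moreover two different irreducible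 characters of degree (q + 1)/2 take the two different values (their values at u add up to 1), and likewise for degree (q − 1)/2 (values adding up to −1). -/
theorem result {F : Type*} [Field F] [Fintype F] (hodd : Odd (Fintype.card F)) (hq : 5 ≤ Fintype.card F)
    (u : Matrix.SpecialLinearGroup (Fin 2) F) (hu : (u : Matrix (Fin 2) (Fin 2) F) = !![1, 1; 0, 1]) :
    (∀ χ : Matrix.SpecialLinearGroup (Fin 2) F → ℂ, Cfsg.IsIrrCharacter (Matrix.SpecialLinearGroup (Fin 2) F) χ → χ 1 = (((Fintype.card F + 1) / 2 : ℕ) : ℂ) → (2 * χ u - 1) ^ 2 = (-1 : ℂ) ^ ((Fintype.card F - 1) / 2) * (Fintype.card F : ℂ)) ∧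
    (∀ χ : Matrix.SpecialLinearGroup (Fin 2) F → ℂ, Cfsg.IsIrrCharacter (Matrix.SpecialLinearGroup (Fin 2) F) χ → χ 1 = (((Fintype.card F - 1) / 2 : ℕ) : ℂ) → (2 * χ u + 1) ^ 2 = (-1 : ℂ) ^ ((Fintype.card F - 1) / 2) * (Fintype.card F : ℂ)) ∧
    (∀ χ₁ χ₂ : Matrix.SpecialLinearGroup (Fin 2) F → ℂ, Cfsg.IsIrrCharacter (Matrix.SpecialLinearGroup (Fin 2) F) χ₁ → Cfsg.IsIrrCharacter (Matrix.SpecialLinearGroup (Fin 2) F) χ₂ → χ₁ ≠ χ₂ →
      χ₁ 1 = (((Fintype.card F + 1) / 2 : ℕ) : ℂ) → χ₂ 1 = (((Fintype.card F + 1) / 2 : ℕ) : ℂ) → χ₁ u + χ₂ u = 1) ∧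
    (∀ χ₁ χ₂ : Matrix.SpecialLinearGroup (Fin 2) F → ℂ, Cfsg.IsIrrCharacter (Matrix.SpecialLinearGroup (Fin 2) F) χ₁ → Cfsg.IsIrrCharacter (Matrix.SpecialLinearGroup (Fin 2) F) χ₂ → χ₁ ≠ χ₂ →
      χ₁ 1 = (((Fintype.card F - 1) / 2 : ℕ) : ℂ) → χ₂ 1 = (((Fintype.card F - 1) / 2 : ℕ) : ℂ) → χ₁ u + χ₂ u = -1) := by
  classical
  have hux : u = SL2.x 1 := by
    apply Subtype.ext
    exact hu
  have := finite_irr (G := Matrix.SpecialLinearGroup (Fin 2) F)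
  have : Fintype (IrrCharacter (Matrix.SpecialLinearGroup (Fin 2) F)) := Fintype.ofFinite _
  obtain ⟨nu, hnu⟩ := SL2.exists_not_square hodd
  obtain ⟨h, hqh⟩ : ∃ h, Fintype.card F = 2 * h + 1 := by
    obtain ⟨m, hm⟩ := hodd
    exact ⟨m, hm⟩
  have hg := SL2.gs_sq (F := F) (SL2.char_ne_two hnu)
  obtain ⟨c1, c2, c3, c4, c5, c6, c7, c8⟩ := SL2.counts hnu hqh
  have e3 : (Fintype.card F + 1) / 2 = h + 1 := by omega
  have e4 : (Fintype.card F - 1) / 2 = h := by omega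
  rw [e3, e4, hux]
  rw [e4] at hg
  have hd : ∀ (χ : Matrix.SpecialLinearGroup (Fin 2) F → ℂ)
      (hχ : Cfsg.IsIrrCharacter (Matrix.SpecialLinearGroup (Fin 2) F) χ),
      χ 1 = (((SL2.ty nu ⟨χ, hχ⟩).1 + h * ((SL2.ty nu ⟨χ, hχ⟩).2.1 +
    (SL2.ty nu ⟨χ, hχ⟩).2.2) : ℕ) : ℂ) := fun χ hχ => SL2.degree_eq_ty hnu ⟨χ, hχ⟩ hqh
  -- the types
  have t1 : ∀ (χ : Matrix.SpecialLinearGroup (Fin 2) F → ℂ)
      (hχ : Cfsg.IsIrrCharacter (Matrix.SpecialLinearGroup (Fin 2) F) χ),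
      χ 1 = ((h + 1 : ℕ) : ℂ) → SL2.ty nu ⟨χ, hχ⟩ = (1, 1, 0) ∨ SL2.ty nu ⟨χ, hχ⟩ = (1, 0, 1) := by
    intro χ hχ h1
    have ht := SL2.ty_mem hnu ⟨χ, hχ⟩
    rw [hd χ hχ, Nat.cast_inj] at h1
    simp only [SL2.tys, Finset.mem_insert, Finset.mem_singleton] at ht
    rcases ht with a | a | a | a | a | a | a | a <;> rw [a] at h1 ⊢ <;> simp only at h1 <;>
      first
      | (exfalso; omega)
      | simp
  have t2 : ∀ (χ : Matrix.SpecialLinearGroup (Fin 2) F → ℂ)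
      (hχ : Cfsg.IsIrrCharacter (Matrix.SpecialLinearGroup (Fin 2) F) χ),
      χ 1 = ((h : ℕ) : ℂ) → SL2.ty nu ⟨χ, hχ⟩ = (0, 1, 0) ∨ SL2.ty nu ⟨χ, hχ⟩ = (0, 0, 1) := by
    intro χ hχ h1
    have ht := SL2.ty_mem hnu ⟨χ, hχ⟩
    rw [hd χ hχ, Nat.cast_inj] at h1
    simp only [SL2.tys, Finset.mem_insert, Finset.mem_singleton] at ht
    rcases ht with a | a | a | a | a | a | a | a <;> rw [a] at h1 ⊢ <;> simp only at h1 <;>
      first
      | (exfalso; omega)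
      | simp
  have v : ∀ (χ : Matrix.SpecialLinearGroup (Fin 2) F → ℂ)
      (hχ : Cfsg.IsIrrCharacter (Matrix.SpecialLinearGroup (Fin 2) F) χ) (a b c : ℕ),
      SL2.ty nu ⟨χ, hχ⟩ = (a, b, c) →
      χ (SL2.x 1) = a - (b + c) / 2 + (b - c) / 2 * SL2.gs F := fun χ hχ a b c hh =>
    value hnu ⟨χ, hχ⟩ hh
  refine ⟨?_, ?_, ?_, ?_⟩
  · intro χ hχ h1
    rw [← hg]
    rcases t1 χ hχ h1 with ht | ht <;> rw [v χ hχ _ _ _ ht] <;> push_cast <;> ring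
  · intro χ hχ h1
    rw [← hg]
    rcases t2 χ hχ h1 with ht | ht <;> rw [v χ hχ _ _ _ ht] <;> push_cast <;> ring
  · intro χ₁ χ₂ h1 h2 hne d1 d2
    rcases t1 χ₁ h1 d1 with a1 | a1 <;> rcases t1 χ₂ h2 d2 with a2 | a2
    · exact absurd (congrArg Subtype.val (uniq c3 a1 a2)) hne
    · rw [v χ₁ h1 _ _ _ a1, v χ₂ h2 _ _ _ a2]; push_cast; ring
    · rw [v χ₁ h1 _ _ _ a1, v χ₂ h2 _ _ _ a2]; push_cast; ring
    · exact absurd (congrArg Subtype.val (uniq c4 a1 a2)) hne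
  · intro χ₁ χ₂ h1 h2 hne d1 d2
    rcases t2 χ₁ h1 d1 with a1 | a1 <;> rcases t2 χ₂ h2 d2 with a2 | a2
    · exact absurd (congrArg Subtype.val (uniq c7 a1 a2)) hne
    · rw [v χ₁ h1 _ _ _ a1, v χ₂ h2 _ _ _ a2]; push_cast; ring
    · rw [v χ₁ h1 _ _ _ a1, v χ₂ h2 _ _ _ a2]; push_cast; ring
    · exact absurd (congrArg Subtype.val (uniq c8 a1 a2)) hne

end Cfsg.Agent.S2324
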