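import Cfsg.Statements.S2328
import Cfsg.Agent.S2311
import Cfsg.Agent.S2326
import Cfsg.Agent.S2327
import Cfsg.Agent.Characters.DefectZero
set_option linter.all false

set_option autoImplicit false
open Cfsg

namespace Cfsg.Agent.S2328

/-- In a Chevalley group of type G₂, B₂, D₄, F₄, E₆, E₇ or E₈ over a finite field of characteristic p, the Steinberg character vanishes at every element whose order is divisible by p (every element that is not semisimple). -/
theorem result {F : Type*} [Field F] [Fintype F] (p : ℕ) [Fact p.Prime] [CharP F p] (D : Cfsg.Lie.ChevalleyDatum) (hD : D ∈ [Cfsg.Lie.chevG2, Cfsg.Lie.chevB2, Cfsg.Lie.chevD4, Cfsg.Lie.chevF4, Cfsg.Lie.chevE6, Cfsg.Lie.chevE7, Cfsg.Lie.chevE8]) (g : ↥(D.group F)) (hg : p ∣ orderOf g) :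
    D.steinbergCharacter F g = 0 := by
  classical
  have : Finite ↥(D.group F) := inferInstance
  have : Fintype ↥(D.group F) := Fintype.ofFinite _
  obtain ⟨n, ρ, hρ, hc⟩ := Cfsg.Agent.S2311.result (F := F) D hD
  obtain ⟨P, hP⟩ := Cfsg.Agent.S2326.result (F := F) p D hD
  have h1 := Cfsg.Agent.S2327.result (F := F) D hD
  have hUc : Nat.card (D.posUnipotent F) = Fintype.card F ^ (D.nroots / 2) := Cfsg.Agent.S1027.result D hD
  have hPc : Nat.card (P : Subgroup ↥(D.group F)) = Fintype.card F ^ (D.nroots / 2) := by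
    rw [hP, ← hUc]
    exact Nat.card_congr (Subgroup.subgroupOfEquivOfLe
      (Cfsg.Agent.ChevalleyStructure.Elts.posUnipotent_le_group hD F)).toEquiv
  have hf := P.card_eq_multiplicity
  have hn : (n : ℂ) = ((Fintype.card F ^ (D.nroots / 2) : ℕ) : ℂ) := by
    have h2 : ρ.character 1 = (n : ℂ) := by
      rw [Representation.char_one]
      simp
    rw [← h2, hc, h1]
    push_cast
    rfl
  have hn' : n = Fintype.card F ^ (D.nroots / 2) := by exact_mod_cast hn
  have hpr : p.Prime := Fact.out
  have hfin : Module.finrank ℂ (Fin n → ℂ) = n := by simp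
  have h3 := Cfsg.Agent.Characters.DefectZero.character_inv_eq_zero ρ hρ p
    ((Nat.card ↥(D.group F)).factorization p) hpr (Nat.ordProj_dvd _ _)
    (Nat.pow_succ_factorization_not_dvd Nat.card_pos.ne' hpr)
    (by rw [hfin, hn', ← hPc, hf]) g⁻¹ (by rwa [orderOf_inv])
  rw [inv_inv, hc] at h3
  exact h3

end Cfsg.Agent.S2328
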