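import Cfsg.Statements.S2379
import Cfsg.Agent.H130.SLn
set_option linter.all false

set_option autoImplicit false
open Cfsg

namespace Cfsg.Agent.S2379

/-- Sylow subgroups of `SL_n(q)` for large primes. Let `F` be a field with `q` elements and `r` a prime with `r > n` and `r ∤ q` (so `r` does not divide the order `n!` of the Weyl group). Let `d` be the multiplicative order of `q` modulo `r`, `a` the number of integers `i` with `2 ≤ i ≤ n` divisible by `d` (the degrees of the Weyl group are `2, …, n`), and `m` the `r`-part of the value at `q` of the `d`-th cyclotomic polynomial. Then every Sylow `r`-subgroup of `SL_n(q)` is a direct product of `a` cyclic groups of order `m`. -/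
theorem result {F : Type*} [Field F] [Fintype F] {q : ℕ} (hq : Fintype.card F = q) (n : ℕ)
    (r : ℕ) [Fact r.Prime] (hrn : n < r) (hrq : ¬ r ∣ q) (P : Sylow r (Matrix.SpecialLinearGroup (Fin n) F)) :
    Nonempty (↥(P : Subgroup (Matrix.SpecialLinearGroup (Fin n) F)) ≃*
      (Fin ((Finset.Icc 2 n).filter (fun i => orderOf (q : ZMod r) ∣ i)).card →
        Multiplicative (ZMod (r ^ padicValNat r ((Polynomial.cyclotomic (orderOf (q : ZMod r)) ℤ).eval (q : ℤ)).natAbs)))) := by
  have hn : ∀ i ∈ Finset.Ioc 0 n, orderOf (q : ZMod r) ∣ i → ¬ r ∣ i := fun i hi _ hri => by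
    have h1 := Finset.mem_Ioc.1 hi
    have h2 := Nat.le_of_dvd h1.1 hri
    omega
  have hIcc : Finset.Icc 2 n = Finset.Ioc 1 n := by
    ext i
    simp only [Finset.mem_Icc, Finset.mem_Ioc]
    omega
  rcases Nat.eq_zero_or_pos n with rfl | hn0
  · have h0 : ((Finset.Icc 2 0).filter (fun i => orderOf (q : ZMod r) ∣ i)).card = 0 := by simp
    rw [h0]
    have : Subsingleton (Matrix.SpecialLinearGroup (Fin 0) F) := inferInstance
    have h1 : Subsingleton ↥(P : Subgroup (Matrix.SpecialLinearGroup (Fin 0) F)) := inferInstance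
    have h2 : Subsingleton (Fin 0 → Multiplicative (ZMod (r ^ padicValNat r
      ((Polynomial.cyclotomic (orderOf (q : ZMod r)) ℤ).eval (q : ℤ)).natAbs))) := inferInstance
    exact ⟨⟨⟨fun _ => 1, fun _ => 1, fun _ => Subsingleton.elim _ _, fun _ => Subsingleton.elim _ _⟩,
      fun _ _ => Subsingleton.elim _ _⟩⟩
  by_cases hd : orderOf (q : ZMod r) = 1
  · obtain ⟨m, rfl⟩ : ∃ m, n = m + 1 := ⟨n - 1, by omega⟩
    have h0 : ((Finset.Icc 2 (m + 1)).filter (fun i => orderOf (q : ZMod r) ∣ i)).card = m := by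
      rw [Finset.filter_true_of_mem (fun i _ => by rw [hd]; exact one_dvd i), Nat.card_Icc]
      omega
    rw [h0]
    exact Cfsg.Agent.H130.SLn.sylow_SL_of_eq_one hq hrq m hd hn P
  · have h0 : ((Finset.Icc 2 n).filter (fun i => orderOf (q : ZMod r) ∣ i)).card = n / orderOf (q : ZMod r) := by
      rw [← Nat.Ioc_filter_dvd_card_eq_div]
      congr 1
      ext i
      simp only [Finset.mem_filter, Finset.mem_Icc, Finset.mem_Ioc]
      constructor
      · rintro ⟨⟨h1, h2⟩, h3⟩
        exact ⟨⟨by omega, h2⟩, h3⟩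
      · rintro ⟨⟨h1, h2⟩, h3⟩
        refine ⟨⟨?_, h2⟩, h3⟩
        by_contra h4
        have h5 : i = 1 := by omega
        rw [h5, Nat.dvd_one] at h3
        exact hd h3
    rw [h0]
    exact Cfsg.Agent.H130.SLn.sylow_SL_of_ne_one hq hrq n hn0 hd hn P

end Cfsg.Agent.S2379
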