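import Mathlib
import Cfsg.Statements.S2394
import Cfsg.Agent.H133.SLPower
set_option linter.all false

-- part: H133/WeightCount
section
/-!
# Counting weights: commuting dihedral pairs need dimension at least `2n`

`comb`: a finite set of functions `Fin n → K` closed under inverting single coordinates and such that every coordinate
is moved on some member has at least `2 n` elements.

`two_mul_le_finrank`: if `s i`, `w i` (`i < n`) are elements of a group with `s i` commuting with `s j`, `w j` for `j ≠ i`
and `w i` inverting `s i`, and in a representation over an algebraically closed field `(s i) ^ m = 1` (`m ≠ 0` in the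
field) but `(s i) ^ 2 ≠ 1`, then the dimension is at least `2 n`.
-/

set_option autoImplicit false

namespace Cfsg.Agent.H133.WeightCount

open Module

section comb

variable {n : ℕ} {K : Type*} [Field K] [DecidableEq K]

/-- The set of the moved coordinates. -/
def supp (χ : Fin n → K) : Finset (Fin n) := Finset.univ.filter fun i => (χ i)⁻¹ ≠ χ i

theorem mem_supp {χ : Fin n → K} {i : Fin n} : i ∈ supp χ ↔ (χ i)⁻¹ ≠ χ i := by
  simp [supp]

/-- Inverting the coordinates in `T`. -/
def flip (T : Finset (Fin n)) (χ : Fin n → K) : Fin n → K := fun i => if i ∈ T then (χ i)⁻¹ else χ i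

omit [DecidableEq K] in
theorem flip_empty (χ : Fin n → K) : flip ∅ χ = χ := by
  funext i; simp [flip]

omit [DecidableEq K] in
theorem flip_insert {T : Finset (Fin n)} {a : Fin n} (ha : a ∉ T) (χ : Fin n → K) :
    flip (insert a T) χ = Function.update (flip T χ) a (flip T χ a)⁻¹ := by
  funext i
  by_cases h : i = a
  · subst h
    simp [flip, ha]
  · rw [Function.update_of_ne h]
    simp [flip, h]

theorem flip_mem {Ω : Finset (Fin n → K)} (hΩ : ∀ χ ∈ Ω, ∀ i, Function.update χ i (χ i)⁻¹ ∈ Ω)
    {χ : Fin n → K} (hχ : χ ∈ Ω) (T : Finset (Fin n)) : flip T χ ∈ Ω := by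
  induction T using Finset.induction_on with
  | empty => rwa [flip_empty]
  | insert a T ha ih => rw [flip_insert ha]; exact hΩ _ ih a

theorem supp_flip (T : Finset (Fin n)) (χ : Fin n → K) : supp (flip T χ) = supp χ := by
  ext i
  rw [mem_supp, mem_supp]
  by_cases h : i ∈ T
  · simp only [flip, if_pos h, inv_inv]
    exact ne_comm
  · simp only [flip, if_neg h]

theorem flip_inj {χ : Fin n → K} {T T' : Finset (Fin n)} (hT : T ⊆ supp χ) (hT' : T' ⊆ supp χ)
    (h : flip T χ = flip T' χ) : T = T' := by
  ext i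
  have hi := congrFun h i
  simp only [flip] at hi
  constructor
  · intro h1
    by_contra h2
    rw [if_pos h1, if_neg h2] at hi
    exact mem_supp.1 (hT h1) hi
  · intro h1
    by_contra h2
    rw [if_neg h2, if_pos h1] at hi
    exact mem_supp.1 (hT' h1) hi.symm

theorem comb {Ω : Finset (Fin n → K)} (hΩ : ∀ χ ∈ Ω, ∀ i, Function.update χ i (χ i)⁻¹ ∈ Ω)
    (hmv : ∀ i, ∃ χ ∈ Ω, (χ i)⁻¹ ≠ χ i) : 2 * n ≤ Ω.card := by
  have h1 : ∀ i : Fin n, (2 : ℚ) ≤ ∑ χ ∈ Ω, if i ∈ supp χ then ((supp χ).card : ℚ)⁻¹ else 0 := by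
    intro i
    obtain ⟨χ, hχ, hi⟩ := hmv i
    rw [← mem_supp] at hi
    have hinj : Set.InjOn (fun T => flip T χ) ((supp χ).powerset : Set (Finset (Fin n))) := by
      intro T hT T' hT' h
      exact flip_inj (Finset.mem_powerset.1 hT) (Finset.mem_powerset.1 hT') h
    have hsub : ((supp χ).powerset.image fun T => flip T χ) ⊆ Ω := by
      intro χ' h
      obtain ⟨T, -, rfl⟩ := Finset.mem_image.1 h
      exact flip_mem hΩ hχ T
    have h2 : ∑ χ' ∈ ((supp χ).powerset.image fun T => flip T χ),
        (if i ∈ supp χ' then ((supp χ').card : ℚ)⁻¹ else 0) = 2 ^ (supp χ).card * ((supp χ).card : ℚ)⁻¹ := by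
      rw [Finset.sum_image hinj]
      simp only [supp_flip, if_pos hi, Finset.sum_const, Finset.card_powerset, nsmul_eq_mul]
      push_cast
      ring
    have h3 : ∑ χ' ∈ ((supp χ).powerset.image fun T => flip T χ),
        (if i ∈ supp χ' then ((supp χ').card : ℚ)⁻¹ else 0) ≤
        ∑ χ ∈ Ω, if i ∈ supp χ then ((supp χ).card : ℚ)⁻¹ else 0 := by
      refine Finset.sum_le_sum_of_subset_of_nonneg hsub ?_
      intro χ' _ _
      split_ifs
      · positivity
      · exact le_rfl
    refine le_trans ?_ h3
    rw [h2]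
    have hk : 0 < (supp χ).card := Finset.card_pos.2 ⟨i, hi⟩
    have hk' : (0 : ℚ) < (supp χ).card := by exact_mod_cast hk
    rw [← div_eq_mul_inv, le_div_iff₀ hk']
    have : 2 * (supp χ).card ≤ 2 ^ (supp χ).card := by
      obtain ⟨k, hk⟩ : ∃ k, (supp χ).card = k + 1 := ⟨(supp χ).card - 1, by omega⟩
      rw [hk, pow_succ]
      have := Nat.lt_two_pow_self (n := k)
      omega
    exact_mod_cast this
  have h4 : ∑ i : Fin n, (2 : ℚ) ≤ ∑ i : Fin n, ∑ χ ∈ Ω, if i ∈ supp χ then ((supp χ).card : ℚ)⁻¹ else 0 :=
    Finset.sum_le_sum fun i _ => h1 i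
  rw [Finset.sum_comm] at h4
  have h5 : ∀ χ ∈ Ω, (∑ i : Fin n, if i ∈ supp χ then ((supp χ).card : ℚ)⁻¹ else 0) ≤ 1 := by
    intro χ _
    rw [← Finset.sum_filter, Finset.sum_const, nsmul_eq_mul]
    have : (Finset.univ.filter fun i => i ∈ supp χ) = supp χ := by ext i; simp
    rw [this]
    by_cases h : (supp χ).card = 0
    · rw [h]; simp
    · rw [mul_inv_cancel₀ (by exact_mod_cast h)]
  have h6 := h4.trans (Finset.sum_le_sum h5)
  simp only [Finset.sum_const, Finset.card_univ, Fintype.card_fin, nsmul_eq_mul, mul_one] at h6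
  have h7 : ((2 * n : ℕ) : ℚ) ≤ (Ω.card : ℚ) := by
    push_cast
    linarith
  exact_mod_cast h7

end comb

section rep

variable {G : Type*} [Group G] {K : Type*} [Field K] [IsAlgClosed K] {V : Type*} [AddCommGroup V] [Module K V]
  [FiniteDimensional K V]

theorem two_mul_le_finrank {n : ℕ} (ρ : G →* Module.End K V) (s w : Fin n → G)
    (hss : ∀ i j, i ≠ j → Commute (s i) (s j)) (hws : ∀ i j, i ≠ j → Commute (w i) (s j))
    (hinv : ∀ i, s i * w i = w i * (s i)⁻¹) {m : ℕ} (hm : (m : K) ≠ 0) (hsm : ∀ i, ρ (s i) ^ m = 1)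
    (hs2 : ∀ i, ρ (s i) ^ 2 ≠ 1) : 2 * n ≤ finrank K V := by
  classical
  set f : Fin n → Module.End K V := fun i => ρ (s i) with hf
  have hcomm : ∀ i j, Commute (f i) (f j) := by
    intro i j
    by_cases h : i = j
    · subst h; exact Commute.refl _
    · exact (hss i j h).map ρ
  have hsemi : ∀ i, (f i).IsSemisimple := by
    intro i
    refine Module.End.isSemisimple_of_squarefree_aeval_eq_zero (p := Polynomial.X ^ m - 1) ?_ ?_
    · have := Polynomial.separable_X_pow_sub_C (1 : K) hm one_ne_zero
      rw [Polynomial.C_1] at this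
      exact this.squarefree
    · simp only [map_sub, map_pow, Polynomial.aeval_X, map_one]
      rw [hsm i, sub_self]
  have heig : ∀ i μ, (f i).maxGenEigenspace μ = (f i).eigenspace μ := fun i μ =>
    (hsemi i).isFinitelySemisimple.maxGenEigenspace_eq_eigenspace μ
  set W : (Fin n → K) → Submodule K V := fun χ => ⨅ i, (f i).maxGenEigenspace (χ i) with hW
  have hmem : ∀ χ v, v ∈ W χ ↔ ∀ i, f i v = χ i • v := by
    intro χ v
    simp only [hW, Submodule.mem_iInf, heig, Module.End.mem_eigenspace_iff]
  have hmaps : ∀ (i j : Fin n) (φ : K),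
      Set.MapsTo (f i) ((f j).maxGenEigenspace φ) ((f j).maxGenEigenspace φ) := fun i j φ =>
    Module.End.mapsTo_maxGenEigenspace_of_comm (hcomm j i) φ
  have hind : iSupIndep W := Module.End.independent_iInf_maxGenEigenspace_of_forall_mapsTo f hmaps
  have htop : ⨆ χ, W χ = ⊤ := Module.End.iSup_iInf_maxGenEigenspace_eq_top_of_forall_mapsTo f hmaps
    fun i => Module.End.iSup_maxGenEigenspace_eq_top _
  have hfin : {χ | W χ ≠ ⊥}.Finite := WellFoundedGT.finite_ne_bot_of_iSupIndep hind
  have : Fintype {χ // W χ ≠ ⊥} := hfin.fintype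
  have hle := hind.subtype_ne_bot_le_finrank
  set Ω : Finset (Fin n → K) := hfin.toFinset with hΩ
  have hcard : Ω.card = Fintype.card {χ // W χ ≠ ⊥} := by
    exact (Fintype.card_of_subtype Ω fun χ => by rw [hΩ, Set.Finite.mem_toFinset]; rfl).symm
  rw [← hcard] at hle
  refine le_trans (comb ?_ ?_) hle
  · intro χ hχ i
    rw [hΩ, Set.Finite.mem_toFinset] at hχ ⊢
    obtain ⟨v, hv, hv0⟩ := Submodule.exists_mem_ne_zero_of_ne_bot hχ
    rw [Set.mem_ofPred_eq, Submodule.ne_bot_iff]
    have hinv' : ∀ g : G, ρ g⁻¹ (ρ g v) = v := by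
      intro g
      rw [← Module.End.mul_apply, ← map_mul, inv_mul_cancel, map_one, Module.End.one_apply]
    refine ⟨ρ (w i) v, ?_, ?_⟩
    · rw [hmem] at hv ⊢
      intro j
      by_cases hij : j = i
      · subst hij
        rw [Function.update_self]
        have hne : χ j ≠ 0 := by
          intro h0
          have := hv j
          rw [h0, zero_smul] at this
          have h2 := hinv' (s j)
          change ρ (s j)⁻¹ (f j v) = v at h2
          rw [this, map_zero] at h2
          exact hv0 h2.symm
        have h1 : ρ (s j)⁻¹ v = (χ j)⁻¹ • v := by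
          have h2 := hinv' (s j)
          change ρ (s j)⁻¹ (f j v) = v at h2
          rw [hv j, map_smul] at h2
          rw [← h2, smul_smul, inv_mul_cancel₀ hne, one_smul, h2]
        show ρ (s j) (ρ (w j) v) = _
        rw [← Module.End.mul_apply, ← map_mul, hinv, map_mul, Module.End.mul_apply, h1, map_smul]
      · rw [Function.update_of_ne hij]
        show ρ (s j) (ρ (w i) v) = _
        have h2 : s j * w i = w i * s j := ((hws i j (Ne.symm hij)).symm).eq
        rw [← Module.End.mul_apply, ← map_mul, h2, map_mul, Module.End.mul_apply]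
        show ρ (w i) (f j v) = _
        rw [hv j, map_smul]
    · intro h0
      have := hinv' (w i)
      rw [h0, map_zero] at this
      exact hv0 this.symm
  · intro i
    by_contra hcon
    push Not at hcon
    apply hs2 i
    have h1 : (⊤ : Submodule K V) ≤ LinearMap.eqLocus (f i ^ 2) 1 := by
      rw [← htop]
      refine iSup_le fun χ v hv => ?_
      rw [LinearMap.mem_eqLocus]
      by_cases hv0 : v = 0
      · rw [hv0, map_zero, map_zero]
      have hχ : χ ∈ Ω := by
        rw [hΩ, Set.Finite.mem_toFinset, Set.mem_ofPred_eq, Submodule.ne_bot_iff]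
        exact ⟨v, hv, hv0⟩
      have h2 := hcon χ hχ
      rw [hmem] at hv
      rw [pow_two, Module.End.mul_apply, hv i, map_smul, hv i, smul_smul, Module.End.one_apply]
      have hne : χ i ≠ 0 := by
        intro h0
        have h3 := hv i
        rw [h0, zero_smul] at h3
        have h4 : ρ (s i)⁻¹ (ρ (s i) v) = v := by
          rw [← Module.End.mul_apply, ← map_mul, inv_mul_cancel, map_one, Module.End.one_apply]
        change ρ (s i)⁻¹ (f i v) = v at h4
        rw [h3, map_zero] at h4
        exact hv0 h4.symm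
      have h5 : χ i * χ i = 1 := by
        nth_rewrite 1 [← h2]
        exact inv_mul_cancel₀ hne
      rw [h5, one_smul]
    ext v
    have := h1 (Submodule.mem_top (x := v))
    rwa [LinearMap.mem_eqLocus] at this

end rep

end Cfsg.Agent.H133.WeightCount
end

-- part: S2394
section
set_option autoImplicit false
open scoped MatrixGroups
open Cfsg

namespace Cfsg.Agent.S2394

open Cfsg.Agent.H133.SLPower

/-- The linear action of `GL_d(F)` on `K ^ d`, `K` an extension of `F`. -/
def toEnd (F K : Type*) [Field F] [Field K] [Algebra F K] (d : ℕ) :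
    GL (Fin d) F →* Module.End K (Fin d → K) where
  toFun g := Matrix.toLin' ((g : Matrix (Fin d) (Fin d) F).map (algebraMap F K))
  map_one' := by
    rw [Units.val_one, Matrix.map_one _ (map_zero _) (map_one _), Matrix.toLin'_one]
    rfl
  map_mul' a b := by
    rw [Units.val_mul, Matrix.map_mul, Matrix.toLin'_mul]
    rfl

theorem toEnd_injective (F K : Type*) [Field F] [Field K] [Algebra F K] (d : ℕ) :
    Function.Injective (toEnd F K d) := by
  intro a b h
  have h1 : (a : Matrix (Fin d) (Fin d) F).map (algebraMap F K) = (b : Matrix (Fin d) (Fin d) F).map (algebraMap F K) :=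
    Matrix.toLin'.injective h
  apply Units.ext
  ext i j
  exact (algebraMap F K).injective (congrFun (congrFun h1 i) j)

theorem aux {F K : Type*} [Field F] [Finite F] [Field K] [IsAlgClosed K] [Algebra F K] (n : ℕ) {d : ℕ}
    (ρ : ↥(Matrix.symplecticGroup (Fin n) F) →* Module.End K (Fin d → K)) (hρ : Function.Injective ρ) : 2 * n ≤ d := by
  obtain ⟨s, w, m, hm, hsm, hs2, hinv⟩ := exists_pair F
  have key := Cfsg.Agent.H133.WeightCount.two_mul_le_finrank (K := K) ρ (fun i : Fin n => phi (Pi.mulSingle i s))
    (fun i => phi (Pi.mulSingle i w))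
    (fun i j hij => (Pi.mulSingle_commute (f := fun _ : Fin n => Matrix.SpecialLinearGroup (Fin 2) F) hij s s).map phi)
    (fun i j hij => (Pi.mulSingle_commute (f := fun _ : Fin n => Matrix.SpecialLinearGroup (Fin 2) F) hij w s).map phi)
    (fun i => by
      rw [← map_mul, ← map_inv, ← map_mul, ← Pi.mulSingle_mul, hinv, Pi.mulSingle_mul, Pi.mulSingle_inv])
    (m := m) (by
      have h1 := (algebraMap F K).injective.ne hm
      rwa [map_natCast, map_zero] at h1)
    (fun i => by
      rw [← map_pow, ← map_pow, ← Pi.mulSingle_pow, hsm, Pi.mulSingle_one, map_one, map_one])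
    (fun i h => by
      rw [← map_pow, ← map_pow, ← map_one ρ] at h
      have h1 := hρ h
      rw [← map_one phi] at h1
      have h2 := phi_injective h1
      rw [← Pi.mulSingle_pow, Pi.mulSingle_eq_one_iff] at h2
      exact hs2 h2)
  rwa [Module.finrank_fin_fun] at key

/-- The smallest degree of a faithful representation of the symplectic group `Sp_{2n}(q)` over its own field `F_q` is `2n`: every injective homomorphism from `Sp_{2n}(F)` to `GL_d(F)`, `F` the field with `q` elements, has `d ≥ 2n`. -/
theorem result {F : Type*} [Field F] [Fintype F] (n : ℕ) {d : ℕ}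
    (ρ : ↥(Matrix.symplecticGroup (Fin n) F) →* GL (Fin d) F) (hρ : Function.Injective ρ) : 2 * n ≤ d := by
  exact aux (K := AlgebraicClosure F) n ((toEnd F (AlgebraicClosure F) d).comp ρ)
    ((toEnd_injective F (AlgebraicClosure F) d).comp hρ)

end Cfsg.Agent.S2394
end
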