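import Cfsg.Agent.H133.ScCentral
import Cfsg.Agent.ChevalleyStructure.W0Main
import Cfsg.Agent.ChevalleyStructure.OrbitWords
import Cfsg.Statements.S2395
set_option linter.all false

-- part: H133/ScPerfect
section
/-!
# The group presented by (R1), (R2) is perfect

Port of `ChevalleyStructure.Perfect` and `S1052` to `D.SteinbergCover K`.
-/

set_option autoImplicit false

namespace Cfsg.Agent.H133.ScPerfect

open Cfsg.Lie
open Cfsg.Agent.ChevalleyStructure.W0Core
open Cfsg.Agent.ChevalleyStructure.W0Main
open Cfsg.Agent.ChevalleyStructure.WeylConj (actW actW_cons actW_nil)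
open Cfsg.Agent.ChevalleyStructure.Elts
open Cfsg.Agent.ChevalleyStructure.OrbitWords
open Cfsg.Agent.H133.ScRels
open scoped commutatorElement

universe u

variable {K : Type u} [Field K] {D : ChevalleyDatum}

/-- All generators for the root `s` lie in the derived subgroup. -/
def InDer (D : ChevalleyDatum) (K : Type u) [Field K] (s : ℕ) : Prop :=
  ∀ t : K, D.scGen K s t ∈ commutator (D.SteinbergCover K)

theorem comm_mem {G : Type*} [Group G] (a b : G) : ⁅a, b⁆ ∈ commutator G :=
  Subgroup.commutator_mem_commutator (Subgroup.mem_top _) (Subgroup.mem_top _)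

/-- The commutator relation puts the word of its right-hand side into the derived subgroup. -/
theorem commWord_mem {r s : ℕ} (hr : r < D.nroots) (hs : s < D.nroots) (hrs : s ≠ r)
    (hneg : s ≠ D.neg r) (t u : K) :
    word D K (D.commWord K r s t u) ∈ commutator (D.SteinbergCover K) := by
  have h := scGen_comm (K := K) hr hs hrs hneg t u
  have h'' : word D K (D.commWord K r s t u) = ⁅(D.scGen K s u)⁻¹, (D.scGen K r t)⁻¹⁆ := by
    rw [commutatorElement_def, inv_inv, inv_inv, ← h]
  rw [h'']
  exact comm_mem _ _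

theorem inDer_of_single (K : Type u) [Field K] {r s k : ℕ} {c : ℤ} (hc : c * c = 1)
    (hr : r < D.nroots) (hs : s < D.nroots) (hrs : s ≠ r)
    (hneg : s ≠ D.neg r) (h : D.commTerms r s = [(k, c, 1, 1)]) : InDer D K k := by
  intro v
  have h1 := commWord_mem hr hs hrs hneg (-((c : K) * v)) (1 : K)
  have h2 : D.commWord K r s (-((c : K) * v)) 1 = [(k, v)] := by
    show (D.commTerms r s).map _ = _
    rw [h]
    simp only [List.map_cons, List.map_nil, neg_neg, pow_one, mul_one]
    rw [← mul_assoc, ← Int.cast_mul, hc, Int.cast_one, one_mul]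
  rw [h2, word_cons, word_nil, mul_one] at h1
  exact h1

/-- Two terms, the first one already known to be in the derived subgroup. -/
theorem inDer_of_double (K : Type u) [Field K] {r s k l : ℕ} {c d : ℤ} (hd : d * d = 1)
    (hr : r < D.nroots) (hs : s < D.nroots) (hrs : s ≠ r)
    (hneg : s ≠ D.neg r) (h : D.commTerms r s = [(k, c, 1, 1), (l, d, 2, 1)]) (hk : InDer D K k) :
    InDer D K l := by
  intro v
  have h1 := commWord_mem hr hs hrs hneg (1 : K) ((d : K) * v)
  have h2 : D.commWord K r s 1 ((d : K) * v) = [(k, (c : K) * (-1) ^ 1 * ((d : K) * v) ^ 1), (l, v)] := by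
    show (D.commTerms r s).map _ = _
    rw [h]
    simp only [List.map_cons, List.map_nil]
    rw [pow_one ((d : K) * v), neg_one_sq, mul_one (d : K), ← mul_assoc (d : K), ← Int.cast_mul, hd,
      Int.cast_one, one_mul]
  rw [h2, word_cons, word_cons, word_nil, mul_one] at h1
  exact (Subgroup.mul_mem_cancel_left _ (hk _)).1 h1

/-- Root elements on which some `h̄_p(c)` acts with a factor `≠ 1` are commutators. -/
theorem inDer_of_torus (hD : InList D) (K : Type u) [Field K] {i s : ℕ} (hi : i < D.rank) (hs : s < D.nroots)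
    {c : K} (hc : c ≠ 0) (h : c ^ (D.cartan i s) ≠ 1) : InDer D K s := by
  intro v
  have h0 : c ^ (D.cartan i s) - 1 ≠ 0 := sub_ne_zero.2 h
  set w : K := v / (c ^ (D.cartan i s) - 1) with hw
  have h2 := ScCentral.h_conj hD i s hi hs c hc w
  have h3 : D.scGen K s v = ⁅mk D K (D.stH (D.simple i) c), D.scGen K s w⁆ := by
    rw [commutatorElement_def, h2, mul_inv_cancel_right, scGen_inv, scGen_add']
    congr 1
    rw [hw]
    field_simp
    ring
  rw [h3]
  exact comm_mem _ _

theorem inDer_actW (hD : InList D)
    (hlt : ∀ i < D.rank, ∀ s < D.nroots, D.reflectRoot i s < D.nroots)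
    {w : List ℕ} (hw : ∀ i ∈ w, i < D.rank) {s : ℕ} (hs : s < D.nroots) (h : InDer D K s) :
    InDer D K (actW D w s) ∧ actW D w s < D.nroots := by
  induction w with
  | nil => exact ⟨h, hs⟩
  | cons i w ih =>
    obtain ⟨h1, h2⟩ := ih fun j hj => hw j (List.mem_cons_of_mem _ hj)
    have hi := hw i List.mem_cons_self
    refine ⟨fun t => ?_, hlt i hi _ h2⟩
    rw [actW_cons]
    obtain ⟨η, hη, h3⟩ := ScCentral.n_conj (K := K) hD i _ hi h2
    have h4 := h3 ((η : K) * t)
    have h5 : (η : K) * ((η : K) * t) = t := by rcases hη with rfl | rfl <;> simp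
    rw [h5] at h4
    have h6 : D.scGen K (D.reflectRoot i (actW D w s)) t =
        mk D K (D.stN (D.simple i) 1) * D.scGen K (actW D w s) ((η : K) * t) *
          (mk D K (D.stN (D.simple i) 1))⁻¹ := by
      rw [h4, mul_inv_cancel_right]
    rw [h6]
    exact Subgroup.Normal.conj_mem inferInstance _ (h1 _) _

theorem commutator_eq_top_of_tables (hD : InList D) (K : Type u) [Field K]
    (T : ℕ → ℕ)
    (hT : ∀ i < D.rank, ∀ s < D.nroots, D.reflectRoot i s = look (T i) s)
    (hR : ∀ i < D.rank, rangeOK (T i) D.nroots = true)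
    (st : List ℕ) (ws : List (ℕ × List ℕ)) (ho : orbitOK T st ws D.rank D.nroots = true)
    (hst : ∀ s ∈ st, InDer D K s) :
    commutator (D.SteinbergCover K) = ⊤ := by
  have hlt : ∀ i < D.rank, ∀ s < D.nroots, D.reflectRoot i s < D.nroots := by
    intro i hi s hs
    rw [hT i hi s hs]
    exact rangeOK_spec (hR i hi) hs
  rw [orbitOK, Bool.and_eq_true, Bool.and_eq_true] at ho
  obtain ⟨⟨h1, h2⟩, h3⟩ := ho
  rw [eq_top_iff]
  intro g _
  refine mem_of_gens _ ?_ g
  intro r hr
  have h4 : r ∈ ws.map fun w => actT T w.2 w.1 := by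
    rw [eq_of_beq h3]
    exact List.mem_range.2 hr
  obtain ⟨w, hw, h6⟩ := List.mem_map.1 h4
  have h5 := List.all_eq_true.1 h2 w hw
  rw [Bool.and_eq_true] at h5
  obtain ⟨s, hs, h8⟩ := List.any_eq_true.1 h5.1
  have h9 : w.1 = s := Nat.eq_of_beq_eq_true h8
  have hs' : w.1 < D.nroots := by
    have := List.all_eq_true.1 h1 s hs
    rwa [Nat.blt_eq, ← h9] at this
  have hw' : ∀ i ∈ w.2, i < D.rank := by
    intro i hi
    have := List.all_eq_true.1 h5.2 i hi
    rwa [Nat.blt_eq] at this
  have h7 : actW D w.2 w.1 = r := ((actW_eq hT hR w.2 hw' hs').1).trans h6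
  rw [← h7]
  exact (inDer_actW hD hlt hw' hs' (h9 ▸ hst s hs)).1

end Cfsg.Agent.H133.ScPerfect
end

-- part: S2395
section
set_option autoImplicit false
open Cfsg

namespace Cfsg.Agent.S2395

open Cfsg.Agent.H133.ScPerfect Cfsg.Agent.ChevalleyStructure.OrbitWords
  Cfsg.Agent.ChevalleyStructure.W0Small Cfsg.Agent.ChevalleyStructure.W0E6
  Cfsg.Agent.ChevalleyStructure.W0E7 Cfsg.Agent.ChevalleyStructure.W0E8

/-- The group presented by Steinberg's generators x̄_r(t) subject only to (R1) (additivity) and (R2) (the commutator formula) is perfect, for each of the types G₂, B₂, D₄, F₄, E₆, E₇, E₈ over any field (for types B₂ and G₂ the field must have more than two elements — the cases where the Chevalley group is not simple are set aside). -/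
theorem result {K : Type*} [Field K] (D : Cfsg.Lie.ChevalleyDatum) (hD : D ∈ [Cfsg.Lie.chevG2, Cfsg.Lie.chevB2, Cfsg.Lie.chevD4, Cfsg.Lie.chevF4, Cfsg.Lie.chevE6, Cfsg.Lie.chevE7, Cfsg.Lie.chevE8]) (hK : D ∈ [Cfsg.Lie.chevB2, Cfsg.Lie.chevG2] → ∃ x : K, x ≠ 0 ∧ x ≠ 1) :
    commutator (D.SteinbergCover K) = ⊤ := by
  have hD' := hD
  simp only [List.mem_cons, List.not_mem_nil, or_false] at hD'
  rcases hD' with rfl | rfl | rfl | rfl | rfl | rfl | rfl
  · obtain ⟨a, ha0, ha1⟩ := hK (by simp)
    refine commutator_eq_top_of_tables hD K tabG2 tabG2_ok rangeG2 [7, 11] wordsG2 orbitG2 ?_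
    have hc : Cfsg.Lie.chevG2.cartan 1 7 = -1 := by decide +kernel
    have h7 : InDer Cfsg.Lie.chevG2 K 7 := inDer_of_torus hD K (i := 1) (by decide) (by decide) ha0 (by
      rw [hc, zpow_neg, zpow_one]
      exact fun h => ha1 (inv_eq_one.1 h))
    have h11 : InDer Cfsg.Lie.chevG2 K 11 := inDer_of_single K (r := 6) (s := 10) (c := 1) (by norm_num) (by decide) (by decide)
      (by decide) (by decide +kernel) (by decide +kernel)
    intro s hs
    simp only [List.mem_cons, List.not_mem_nil, or_false] at hs
    rcases hs with rfl | rfl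
    · exact h7
    · exact h11
  · obtain ⟨a, ha0, ha1⟩ := hK (by simp)
    refine commutator_eq_top_of_tables hD K tabB2 tabB2_ok rangeB2 [5, 7] wordsB2 orbitB2 ?_
    have hc5 : Cfsg.Lie.chevB2.cartan 1 5 = -1 := by decide +kernel
    have hc6 : Cfsg.Lie.chevB2.cartan 1 6 = 1 := by decide +kernel
    have h5 : InDer Cfsg.Lie.chevB2 K 5 := inDer_of_torus hD K (i := 1) (by decide) (by decide) ha0 (by
      rw [hc5, zpow_neg, zpow_one]
      exact fun h => ha1 (inv_eq_one.1 h))
    have h6 : InDer Cfsg.Lie.chevB2 K 6 := inDer_of_torus hD K (i := 1) (by decide) (by decide) ha0 (by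
      rw [hc6, zpow_one]
      exact ha1)
    have h7 : InDer Cfsg.Lie.chevB2 K 7 := inDer_of_double K (r := 5) (s := 4) (k := 6) (c := -1) (d := -1) (by norm_num)
      (by decide) (by decide) (by decide) (by decide +kernel) (by decide +kernel) h6
    intro s hs
    simp only [List.mem_cons, List.not_mem_nil, or_false] at hs
    rcases hs with rfl | rfl
    · exact h5
    · exact h7
  · refine commutator_eq_top_of_tables hD K tabD4 tabD4_ok rangeD4 [19] wordsD4 orbitD4 ?_
    intro s hs
    rw [List.mem_singleton] at hs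
    subst hs
    exact inDer_of_single K (r := 18) (s := 14) (c := -1) (by norm_num) (by decide) (by decide)
      (by decide) (by decide +kernel) (by decide +kernel)
  · refine commutator_eq_top_of_tables hD K tabF4 tabF4_ok rangeF4 [34, 26] wordsF4 orbitF4 ?_
    intro s hs
    simp only [List.mem_cons, List.not_mem_nil, or_false] at hs
    rcases hs with rfl | rfl
    · exact inDer_of_single K (r := 33) (s := 27) (c := -1) (by norm_num) (by decide) (by decide)
        (by decide) (by decide +kernel) (by decide +kernel)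
    · exact inDer_of_single K (r := 25) (s := 24) (c := -1) (by norm_num) (by decide) (by decide)
        (by decide) (by decide +kernel) (by decide +kernel)
  · refine commutator_eq_top_of_tables hD K tabE6 tabE6_ok rangeE6 [57] wordsE6 orbitE6 ?_
    intro s hs
    rw [List.mem_singleton] at hs
    subst hs
    exact inDer_of_single K (r := 56) (s := 42) (c := -1) (by norm_num) (by decide) (by decide)
      (by decide) (by decide +kernel) (by decide +kernel)
  · refine commutator_eq_top_of_tables hD K tabE7 tabE7_ok rangeE7 [94] wordsE7 orbitE7 ?_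
    intro s hs
    rw [List.mem_singleton] at hs
    subst hs
    exact inDer_of_single K (r := 93) (s := 73) (c := -1) (by norm_num) (by decide) (by decide)
      (by decide) (by decide +kernel) (by decide +kernel)
  · refine commutator_eq_top_of_tables hD K tabE8 tabE8_ok rangeE8 [163] wordsE8 orbitE8 ?_
    intro s hs
    rw [List.mem_singleton] at hs
    subst hs
    exact inDer_of_single K (r := 162) (s := 135) (c := -1) (by norm_num) (by decide) (by decide)
      (by decide) (by decide +kernel) (by decide +kernel)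


end Cfsg.Agent.S2395
end
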