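import Cfsg.Agent.H133.ScCentral
import Cfsg.Agent.H65.RankOne
import Cfsg.Agent.ChevalleyStructure.NConj
import Cfsg.Agent.S1076
import Cfsg.Statements.S2397
set_option linter.all false

-- part: H134/CoverRankOne
section
/-!
# Rank one relations in the group presented by (R1), (R2)

For the seven tabulated data, any field and every root `r` (not only the fundamental ones):
`n̄_r(a) x̄_r(b) n̄_r(a)⁻¹ = x̄_{-r}(-a⁻² b)` in `D.SteinbergCover K`. Over a finite field this gives (R3).
-/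

set_option autoImplicit false

namespace Cfsg.Agent.H134.CoverRankOne

open Cfsg.Lie Cfsg.Agent.ChevalleyStructure Cfsg.Agent.ChevalleyStructure.Elts
  Cfsg.Agent.H133.ScTheta Cfsg.Agent.H133.ScRels Cfsg.Agent.H133.ScCentral
  Cfsg.Agent.H65.RankOne Cfsg.Agent.S1076

universe u

variable {K : Type u} [Field K] {D : ChevalleyDatum} (hD : InList D)

/-- The rank one relation in `SL₂`. -/
theorem sl_conj {a : K} (ha : a ≠ 0) (b : K) :
    (up a * lo (-a⁻¹) * up a) * up b = lo (-(a⁻¹ ^ 2 * b)) * (up a * lo (-a⁻¹) * up a) := by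
  have h : (!![1, a; 0, 1] * !![1, 0; -a⁻¹, 1] * !![1, a; 0, 1]) * !![1, b; 0, 1] =
      !![1, 0; -(a⁻¹ ^ 2 * b), 1] * (!![1, a; 0, 1] * !![1, 0; -a⁻¹, 1] * !![1, (a : K); 0, 1]) := by
    ext i j
    fin_cases i <;> fin_cases j <;> (simp [Matrix.mul_apply, Fin.sum_univ_two, ha]; try field_simp)
  exact Subtype.ext h

include hD in
/-- The rank one relation in the Chevalley group, all roots. -/
theorem nG_conj_xG {r : ℕ} (hr : r < D.nroots) {a : K} (ha : a ≠ 0) (b : K) :
    nG hD r a * xG hD r b * (nG hD r a)⁻¹ = xG hD (D.neg r) (-(a⁻¹ ^ 2 * b)) := by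
  obtain ⟨φ, -, hφ⟩ := Cfsg.Agent.S1030.result (F := K) D hD r hr
  have hup : ∀ t : K, φ (up t) = xG hD r t := fun t => Units.ext ((hφ (up t) t).1 rfl)
  have hlo : ∀ t : K, φ (lo t) = xG hD (D.neg r) t := fun t => Units.ext ((hφ (lo t) t).2 rfl)
  have hn : nG hD r a = φ (up a * lo (-a⁻¹) * up a) := by
    rw [map_mul, map_mul, hup, hlo, nG_def, mul_assoc]
  rw [mul_inv_eq_iff_eq_mul, hn, ← hup, ← map_mul, sl_conj ha, map_mul, hlo]

theorem thetaGL_stN (r : ℕ) (t : K) : thetaGL hD K (mk D K (D.stN r t)) = nG hD r t := by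
  rw [mk_stN, map_mul, map_mul, thetaGL_scGen, thetaGL_scGen, nG_def, mul_assoc]

include hD in
/-- Conjugation by `n̄_p(1)`, with the same sign for `s` and `-s`. -/
theorem n_conj_pair {i s : ℕ} (hi : i < D.rank) (hs : s < D.nroots) :
    ∃ η : K, (η = 1 ∨ η = -1) ∧
      (∀ t : K, mk D K (D.stN (D.simple i) 1) * D.scGen K s t * (mk D K (D.stN (D.simple i) 1))⁻¹ =
        D.scGen K (D.reflectRoot i s) (η * t)) ∧
      (∀ t : K, mk D K (D.stN (D.simple i) 1) * D.scGen K (D.neg s) t * (mk D K (D.stN (D.simple i) 1))⁻¹ =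
        D.scGen K (D.neg (D.reflectRoot i s)) (η * t)) := by
  obtain ⟨η₁, hη₁, h₁⟩ := n_conj (K := K) hD i s hi hs
  have hns : D.neg s < D.nroots := Reach.neg_lt hD hs
  obtain ⟨η₂, hη₂, h₂⟩ := n_conj (K := K) hD i (D.neg s) hi hns
  obtain ⟨η, hη, hx, hx'⟩ := NConj.conj_x (F := K) hD hi hs
  rw [Reach.reflect_neg hD hi hs] at h₂
  have hrs : D.reflectRoot i s < D.nroots := Reach.reflect_lt hD hi hs
  have hnrs : D.neg (D.reflectRoot i s) < D.nroots := Reach.neg_lt hD hrs
  have e₁ : (η₁ : K) = η := by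
    have h := congrArg (thetaGL hD K) (h₁ 1)
    rw [map_mul, map_mul, thetaGL_stN, thetaGL_scGen, thetaGL_scGen] at h
    have h' := hx 1
    rw [mul_inv_eq_iff_eq_mul] at h'
    have h'' : nG hD (D.simple i) 1 * xG hD s 1 = xG hD (D.reflectRoot i s) (η * 1) * nG hD (D.simple i) 1 := h'
    rw [h''] at h
    have := xG_injective hD hrs (mul_right_cancel h)
    rw [mul_one, mul_one] at this
    exact this.symm
  have e₂ : (η₂ : K) = η := by
    have h := congrArg (thetaGL hD K) (h₂ 1)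
    rw [map_mul, map_mul, thetaGL_stN, thetaGL_scGen, thetaGL_scGen] at h
    have h' := hx' 1
    rw [mul_inv_eq_iff_eq_mul] at h'
    have h'' : nG hD (D.simple i) 1 * xG hD (D.neg s) 1 =
      xG hD (D.neg (D.reflectRoot i s)) (η * 1) * nG hD (D.simple i) 1 := h'
    rw [h''] at h
    have := xG_injective hD hnrs (mul_right_cancel h)
    rw [mul_one, mul_one] at this
    exact this.symm
  refine ⟨η, hη, fun t => ?_, fun t => ?_⟩
  · rw [h₁ t, mul_inv_cancel_right, e₁]
  · rw [h₂ t, mul_inv_cancel_right, e₂]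

include hD in
/-- `n̄_r(a) x̄_r(b) n̄_r(a)⁻¹` lies in the opposite root subgroup. -/
theorem exists_conj {r : ℕ} (hr : r < D.nroots) : ∀ (a : K), a ≠ 0 → ∀ b : K,
    ∃ c : K, mk D K (D.stN r a) * D.scGen K r b * (mk D K (D.stN r a))⁻¹ = D.scGen K (D.neg r) c := by
  refine Reach.reach hD (fun r => ∀ (a : K), a ≠ 0 → ∀ b : K,
    ∃ c : K, mk D K (D.stN r a) * D.scGen K r b * (mk D K (D.stN r a))⁻¹ = D.scGen K (D.neg r) c) ?_ ?_ r hr
  · intro i hi a ha b
    obtain ⟨m0, T⟩ := St.TabAll.exists_tab hD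
    have hp := T.simple_lt i hi
    obtain ⟨η, -, h, -⟩ := n_conj_pair hD hi hp (K := K)
    have hrefl : D.reflectRoot i (D.simple i) = D.neg (D.simple i) := by
      show (if D.simple i = D.simple i then D.neg (D.simple i) else _) = _
      rw [if_pos rfl]
    rw [hrefl] at h
    have hnp : D.neg (D.simple i) < D.nroots := Reach.neg_lt hD hp
    have e1 : mk D K (D.stN (D.simple i) (-1)) = (mk D K (D.stN (D.simple i) 1))⁻¹ := by
      rw [mk_stN, mk_stN, mul_inv_rev, mul_inv_rev, scGen_inv, scGen_inv]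
      have : -(-1 : K)⁻¹ = - -(1 : K)⁻¹ := by rw [inv_neg]
      rw [this, mul_assoc]
    have e2 : mk D K (D.stN (D.simple i) a) = mk D K (D.stH (D.simple i) a) * mk D K (D.stN (D.simple i) 1) := by
      rw [mk_stH, e1, inv_mul_cancel_right]
    refine ⟨a ^ (D.cartan i (D.neg (D.simple i))) * (η * b), ?_⟩
    have e3 : mk D K (D.stN (D.simple i) a) * D.scGen K (D.simple i) b * (mk D K (D.stN (D.simple i) a))⁻¹ =
        mk D K (D.stH (D.simple i) a) * (mk D K (D.stN (D.simple i) 1) * D.scGen K (D.simple i) b *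
          (mk D K (D.stN (D.simple i) 1))⁻¹) * (mk D K (D.stH (D.simple i) a))⁻¹ := by
      rw [e2]; group
    rw [e3, h b, h_conj hD i _ hi hnp a ha, mul_inv_cancel_right]
  · intro i hi s hs ih a ha b
    obtain ⟨η, hη, h, h'⟩ := n_conj_pair hD hi hs (K := K)
    have hη2 : η * η = 1 := NConj.sign_mul_self hη
    have hη0 : η ≠ 0 := NConj.sign_ne_zero hη
    have hinv : η⁻¹ = η := inv_eq_of_mul_eq_one_right hη2
    obtain ⟨c, hc⟩ := ih (η * a) (mul_ne_zero hη0 ha) (η * b)
    refine ⟨η * c, ?_⟩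
    have e1 : mk D K (D.stN (D.simple i) 1) * mk D K (D.stN s (η * a)) * (mk D K (D.stN (D.simple i) 1))⁻¹ =
        mk D K (D.stN (D.reflectRoot i s) a) := by
      have e : ∀ n x y : D.SteinbergCover K, n * (x * y * x) * n⁻¹ = (n * x * n⁻¹) * (n * y * n⁻¹) * (n * x * n⁻¹) := by
        intro n x y; group
      rw [mk_stN s, mk_stN (D.reflectRoot i s), e, h, h']
      have e2 : η * (η * a) = a := by rw [← mul_assoc, hη2, one_mul]
      have e3 : η * -(η * a)⁻¹ = -a⁻¹ := by
        rw [mul_inv, hinv, mul_neg, ← mul_assoc, hη2, one_mul]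
      rw [e2, e3]
    have e2 : D.scGen K (D.reflectRoot i s) b =
        mk D K (D.stN (D.simple i) 1) * D.scGen K s (η * b) * (mk D K (D.stN (D.simple i) 1))⁻¹ := by
      rw [h, ← mul_assoc, hη2, one_mul]
    rw [← h' c, ← hc, ← e1, e2]
    group

include hD in
/-- **The rank one relation in the group presented by (R1), (R2)**, all roots. -/
theorem stN_conj {r : ℕ} (hr : r < D.nroots) {a : K} (ha : a ≠ 0) (b : K) :
    mk D K (D.stN r a) * D.scGen K r b * (mk D K (D.stN r a))⁻¹ = D.scGen K (D.neg r) (-(a⁻¹ ^ 2 * b)) := by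
  obtain ⟨c, hc⟩ := exists_conj hD hr a ha b
  have h := congrArg (thetaGL hD K) hc
  rw [map_mul, map_mul, map_inv, thetaGL_stN, thetaGL_scGen, thetaGL_scGen, nG_conj_xG hD hr ha] at h
  rw [hc, xG_injective hD (Reach.neg_lt hD hr) h]

theorem w_eq (r : ℕ) (a : K) :
    Cfsg.Agent.H65.RankOne.w (D.scGen K r) (D.scGen K (D.neg r)) a = mk D K (D.stN r a) := by
  rw [mk_stN]; rfl

include hD in
/-- The rank one system of a root. -/
theorem rk {r : ℕ} (hr : r < D.nroots) : Rk (D.scGen K r) (D.scGen K (D.neg r)) where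
  addx a b := (scGen_add' r a b).symm
  addy a b := (scGen_add' (D.neg r) a b).symm
  hw a ha b := by rw [w_eq, stN_conj hD hr ha]

include hD in
/-- (R3) follows from (R1), (R2) over a finite field. -/
theorem stH_mul [Finite K] {r : ℕ} (hr : r < D.nroots) {a b : K} (ha : a ≠ 0) (hb : b ≠ 0) :
    mk D K (D.stH r a) * mk D K (D.stH r b) = mk D K (D.stH r (a * b)) := by
  have h := (rk hD hr).h_mul ha hb
  have e : ∀ c : K, Cfsg.Agent.H65.RankOne.h (D.scGen K r) (D.scGen K (D.neg r)) c = mk D K (D.stH r c) := by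
    intro c
    rw [mk_stH, ← w_eq, ← w_eq]; rfl
  rwa [e, e, e] at h

end Cfsg.Agent.H134.CoverRankOne
end

-- part: S2397
section
set_option autoImplicit false
open Cfsg

namespace Cfsg.Agent.S2397

open Cfsg.Lie

/-- (R3) lies in the normal closure of (R1), (R2). -/
theorem normalClosure_eq {K : Type*} [Field K] [Finite K] {D : ChevalleyDatum}
    (hD : D ∈ [chevG2, chevB2, chevD4, chevF4, chevE6, chevE7, chevE8]) :
    Subgroup.normalClosure (D.steinbergRelsAB K) = Subgroup.normalClosure (D.steinbergRels K) := by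
  apply le_antisymm
  · exact Subgroup.normalClosure_mono fun g hg => Or.inl hg
  · refine Subgroup.normalClosure_le_normal ?_
    rintro g (hg | ⟨r, t₁, t₂, hr, h₁, h₂, rfl⟩)
    · exact Subgroup.subset_normalClosure hg
    · have h := Cfsg.Agent.H134.CoverRankOne.stH_mul (K := K) hD hr h₁ h₂
      have h' : PresentedGroup.mk (D.steinbergRelsAB K) (D.stH r t₁ * D.stH r t₂ * (D.stH r (t₁ * t₂))⁻¹) = 1 := by
        rw [map_mul, map_mul, map_inv]
        exact mul_inv_eq_one.2 h
      exact (QuotientGroup.eq_one_iff _).1 h'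

/-- Over a finite field the relators (R3) h̄_r(t₁) h̄_r(t₂) = h̄_r(t₁ t₂) are consequences of (R1) and (R2): for each of the types G₂, B₂, D₄, F₄, E₆, E₇, E₈ (for types B₂ and G₂ the field must have more than two elements — the cases where the Chevalley group is not simple are set aside) the group presented by (R1), (R2) is canonically isomorphic to the one presented by (R1)–(R3), by an isomorphism matching the generators x̄_r(t). -/
theorem result {K : Type*} [Field K] [Finite K] (D : Cfsg.Lie.ChevalleyDatum) (hD : D ∈ [Cfsg.Lie.chevG2, Cfsg.Lie.chevB2, Cfsg.Lie.chevD4, Cfsg.Lie.chevF4, Cfsg.Lie.chevE6, Cfsg.Lie.chevE7, Cfsg.Lie.chevE8]) (hK : D ∈ [Cfsg.Lie.chevB2, Cfsg.Lie.chevG2] → ∃ x : K, x ≠ 0 ∧ x ≠ 1) :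
    ∃ e : D.SteinbergCover K ≃* D.SteinbergGroup K, ∀ (r : ℕ) (t : K), e (D.scGen K r t) = D.stGen K r t :=
  ⟨QuotientGroup.quotientMulEquivOfEq (normalClosure_eq hD), fun _ _ => rfl⟩

end Cfsg.Agent.S2397
end
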