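import Cfsg.Agent.H134.LiftMain
import Cfsg.Agent.H134.Universal
import Cfsg.Statements.S2400
import Cfsg.Agent.H134.TorsionFree
import Cfsg.Agent.H65.MultE
import Cfsg.Agent.S2397
set_option linter.all false

-- part: H134/LiftMore
section
/-!
# More on lifts: the commutator pairing, and relations from torus elements and known relations
-/

set_option autoImplicit false

namespace Cfsg.Agent.H134.LiftMore

open Cfsg.Lie Cfsg.Agent.ChevalleyStructure Cfsg.Agent.ChevalleyStructure.Elts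
  Cfsg.Agent.ChevalleyStructure.St.Functional
  Cfsg.Agent.H133.ScRels Cfsg.Agent.H133.ScTheta Cfsg.Agent.H134.FamInj Cfsg.Agent.H134.LiftStep
  Cfsg.Agent.H134.Lift Cfsg.Agent.H134.LiftMain
open Cfsg.Agent.ChevalleyStructure.St.Conj (lin lin_def lin_comb lin_neg Tab)

open scoped commutatorElement

universe u v w

/-! ### The commutator pairing -/

section pairing

variable {E : Type v} [Group E] {G : Type u} [Group G] {π : E →* G} (hsurj : Function.Surjective π)
  (hc : π.ker ≤ Subgroup.center E)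

/-- The commutator pairing of lifts. -/
noncomputable def B (hsurj : Function.Surjective π) (x y : G) : E :=
  ⁅Function.surjInv hsurj x, Function.surjInv hsurj y⁆

include hc in
theorem B_eq {p q : E} {x y : G} (hp : π p = x) (hq : π q = y) : ⁅p, q⁆ = B hsurj x y :=
  comm_congr hc (by rw [hp, Function.surjInv_eq hsurj]) (by rw [hq, Function.surjInv_eq hsurj])

theorem B_mem {x y : G} (h : x * y = y * x) : B hsurj x y ∈ π.ker := by
  unfold B
  rw [MonoidHom.mem_ker, map_commutatorElement, Function.surjInv_eq hsurj, Function.surjInv_eq hsurj,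
    commutatorElement_eq_one_iff_mul_comm]
  exact h

include hc in
theorem B_mul_left {x x' y : G} (h : x' * y = y * x') : B hsurj (x * x') y = B hsurj x y * B hsurj x' y := by
  have h1 := comm_mul_left hc (p := Function.surjInv hsurj x) (B_mem hsurj h)
  have h2 : B hsurj (x * x') y = ⁅Function.surjInv hsurj x * Function.surjInv hsurj x', Function.surjInv hsurj y⁆ :=
    (B_eq hsurj hc (by rw [map_mul, Function.surjInv_eq hsurj, Function.surjInv_eq hsurj]) (Function.surjInv_eq _ _)).symm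
  rw [h2, h1]; rfl

include hc in
theorem B_mul_right {x y y' : G} (h : x * y' = y' * x) : B hsurj x (y * y') = B hsurj x y * B hsurj x y' := by
  have h1 := comm_mul_right hc (q := Function.surjInv hsurj y) (B_mem hsurj h)
  have h2 : B hsurj x (y * y') = ⁅Function.surjInv hsurj x, Function.surjInv hsurj y * Function.surjInv hsurj y'⁆ :=
    (B_eq hsurj hc (Function.surjInv_eq _ _) (by rw [map_mul, Function.surjInv_eq hsurj, Function.surjInv_eq hsurj])).symm
  rw [h2, h1]; rfl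

theorem B_symm (x y : G) : B hsurj y x = (B hsurj x y)⁻¹ := by
  unfold B
  rw [commutatorElement_inv]

include hc in
theorem B_conj {x y : G} (h : x * y = y * x) (g : G) :
    B hsurj (g⁻¹ * x * g) (g⁻¹ * y * g) = B hsurj x y := by
  obtain ⟨p, rfl⟩ := hsurj g
  have h1 : ⁅p⁻¹ * Function.surjInv hsurj x * p, p⁻¹ * Function.surjInv hsurj y * p⁆ =
      p⁻¹ * B hsurj x y * p := by
    unfold B
    simp only [commutatorElement_def]; group
  rw [← B_eq hsurj hc (p := p⁻¹ * Function.surjInv hsurj x * p) (q := p⁻¹ * Function.surjInv hsurj y * p)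
    (by rw [map_mul, map_mul, map_inv, Function.surjInv_eq hsurj]) (by rw [map_mul, map_mul, map_inv, Function.surjInv_eq hsurj]),
    h1, mul_assoc, ker_comm hc (B_mem hsurj h) p, inv_mul_cancel_left]

include hc in
theorem B_eq_one_iff {x y : G} : B hsurj x y = 1 ↔ ∀ p q : E, π p = x → π q = y → p * q = q * p := by
  constructor
  · intro h p q hp hq
    rw [← B_eq hsurj hc hp hq] at h
    exact commutatorElement_eq_one_iff_mul_comm.1 h
  · intro h
    exact commutatorElement_eq_one_iff_mul_comm.2 (h _ _ (Function.surjInv_eq _ _) (Function.surjInv_eq _ _))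

end pairing

/-! ### The canonical lift of one root subgroup -/

section local_lifts

variable {K : Type u} [Field K] {D : ChevalleyDatum} {E : Type v} [Group E]
  {π : E →* D.SteinbergCover K} (hsurj : Function.Surjective π) (hc : π.ker ≤ Subgroup.center E)
  (hperf : commutator (D.SteinbergCover K) = ⊤) (H : ℕ → D.SteinbergCover K) (A : ℕ → ℕ → K) {s : ℕ}
  (hA : Act (H s) (A s)) (hA1 : A s s ≠ 1)

include hA hA1 in
theorem map_yy (hs : s < D.nroots) (u : K) : π (yy hsurj H A s u) = D.scGen K s u := by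
  unfold yy
  rw [map_commutatorElement, Function.surjInv_eq hsurj, Function.surjInv_eq hsurj, commutatorElement_def,
    hA.act s hs, scGen_inv, scGen_add']
  congr 1
  have h := sub_ne_zero.2 hA1
  field_simp
  ring

include hA hc hperf in
/-- Equivariance under torus elements. -/
theorem conj_yy (hs : s < D.nroots) (u : K) {g : E} {b : ℕ → K} (hg : Act (π g) b) :
    g * yy hsurj H A s u * g⁻¹ = yy hsurj H A s (b s * u) := by
  unfold yy
  have h2 : ∀ p q : E, g * ⁅p, q⁆ * g⁻¹ = ⁅g * p * g⁻¹, g * q * g⁻¹⁆ := by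
    intro p q
    simp only [commutatorElement_def]; group
  rw [h2]
  have hπ : ∀ δ, π (Function.surjInv hsurj δ) = δ := Function.surjInv_eq hsurj
  set p := Function.surjInv hsurj (H s) with hp
  set ζ := g * p * g⁻¹ * p⁻¹ with hζ
  have hζc : ζ ∈ Subgroup.center E := by
    apply central_of_map hsurj hc hperf
    rw [hζ, map_mul, map_mul, map_mul, map_inv, map_inv, hp, hπ]
    exact hA.comm_central hg
  have h3 : g * p * g⁻¹ = ζ * p := by rw [hζ]; group
  rw [h3]
  have h4 : ∀ q : E, ⁅ζ * p, q⁆ = ⁅p, q⁆ := by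
    intro q
    have hz := Subgroup.mem_center_iff.1 hζc
    rw [commutatorElement_def, commutatorElement_def, mul_inv_rev]
    have : ζ * p * q * (p⁻¹ * ζ⁻¹) * q⁻¹ = ζ * (p * q * p⁻¹) * ζ⁻¹ * q⁻¹ := by group
    rw [this, ← hz]; group
  rw [h4]
  apply comm_congr hc rfl
  rw [map_mul, map_mul, map_inv, hπ, hπ, hg.act s hs, mul_div_assoc]

include hA hA1 hc in
/-- Additivity. -/
theorem yy_add (hs : s < D.nroots) (hab : Ab D π s) (t u : K) :
    yy hsurj H A s t * yy hsurj H A s u = yy hsurj H A s (t + u) := by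
  have hπ : ∀ δ, π (Function.surjInv hsurj δ) = δ := Function.surjInv_eq hsurj
  have hmap := map_yy hsurj H A hA hA1 hs u
  unfold yy at hmap ⊢
  set p := Function.surjInv hsurj (H s) with hp
  set q := Function.surjInv hsurj (D.scGen K s (t / (A s s - 1))) with hq
  set q' := Function.surjInv hsurj (D.scGen K s (u / (A s s - 1))) with hq'
  have h1 : q * ⁅p, q'⁆ = ⁅p, q'⁆ * q := hab q ⁅p, q'⁆ _ _ (hπ _) hmap
  have h2 : ⁅p, q * q'⁆ = ⁅p, q⁆ * ⁅p, q'⁆ := by
    have e : ⁅p, q * q'⁆ = ⁅p, q⁆ * (q * ⁅p, q'⁆ * q⁻¹) := by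
      simp only [commutatorElement_def]; group
    rw [e, h1, mul_inv_cancel_right]
  rw [← h2]
  apply comm_congr hc rfl
  rw [map_mul, hπ, hπ, hπ, scGen_add']
  congr 1
  ring

end local_lifts

variable {K : Type u} [Field K] {D : ChevalleyDatum} {E : Type v} [Group E]
  {π : E →* D.SteinbergCover K} {y : ℕ → K → E}

/-- All commutator relations, from torus elements and some known relations. -/
theorem rel2_all (hD : InList D) (L : Setup D π (D.scGen K) (thetaGL hD K) y)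
    (hgood : ∀ r s, r < D.nroots → s < D.nroots → s ≠ r → s ≠ D.neg r →
      Rel2 D y r s ∨ TorGood D y r s ∨ PGood K π) :
    ∀ r s, r < D.nroots → s < D.nroots → s ≠ r → s ≠ D.neg r → Rel2 D y r s := by
  intro r₀ s₀ hr₀ hs₀ h₁ h₂
  obtain ⟨m0, T⟩ := St.TabAll.exists_tab hD
  obtain ⟨m, hmr, hms⟩ := PairFacts.exists_pos hD hr₀ hs₀ h₁ h₂
  set f := lin D m with hfdef
  have hf : Fun D f := T.fun_lin m
  obtain ⟨B, hB⟩ := Finset.exists_le ((Finset.range D.nroots).image f)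
  have hB' : ∀ q < D.nroots, f q ≤ B := fun q hq => hB _ (Finset.mem_image_of_mem _ (Finset.mem_range.2 hq))
  have main : ∀ k : ℕ, ∀ n : ℤ, 2 * B + 1 ≤ n + k → ∀ r s, r < D.nroots → s < D.nroots → s ≠ r →
      0 < f r → 0 < f s → n ≤ f r + f s → Rel2 D y r s := by
    intro k
    induction k with
    | zero =>
      intro n hn r s hr hs _ _ _ h
      have := hB' r hr
      have := hB' s hs
      simp only [Nat.cast_zero] at hn
      omega
    | succ k ih =>
      intro n hn r s hr hs hsr hfr hfs h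
      by_cases hlt : n + 1 ≤ f r + f s
      · exact ih (n + 1) (by push_cast at hn; omega) r s hr hs hsr hfr hfs hlt
      have heq : f r + f s = n := by omega
      have hrel : ∀ a b, a < D.nroots → b < D.nroots → b ≠ a → 0 < f a → 0 < f b → n < f a + f b → Rel2 D y a b :=
        fun a b ha hb hba hfa hfb hab => ih (n + 1) (by push_cast at hn; omega) a b ha hb hba hfa hfb (by omega)
      have hsn : s ≠ D.neg r := by
        intro e
        rw [e, hf.neg r hr] at hfs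
        omega
      -- the closed set
      have hterm : ∀ a b, a < D.nroots → b < D.nroots → 0 < f a → 0 < f b → n ≤ f a + f b →
          ∀ c ∈ D.commTerms a b, n ≤ f c.1 := by
        intro a b ha hb hfa hfb hab c hcm
        obtain ⟨h1, h2, h3, h4⟩ := commTerms_spec L.wf ha hb hcm
        rw [h4 f hf]
        have e1 : 1 * f a ≤ (c.2.2.1 : ℤ) * f a := mul_le_mul_of_nonneg_right (by exact_mod_cast h2) hfa.le
        have e2 : 1 * f b ≤ (c.2.2.2 : ℤ) * f b := mul_le_mul_of_nonneg_right (by exact_mod_cast h3) hfb.le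
        omega
      rcases hgood r s hr hs hsr hsn with hg | hg
      · exact hg
      refine L.rel2_step hf (S := fun q => n ≤ f q) ?_ ?_ ?_ hr hs hsr hsn ?_ ?_ ?_ hg
      · intro q _ hq
        have : n ≤ f q := hq
        omega
      · intro a b ha hb hSa hSb hba c hcm
        have h1 : n ≤ f a := hSa
        have h2 : n ≤ f b := hSb
        exact hterm a b ha hb (by omega) (by omega) (by omega) c hcm
      · intro a b ha hb hba hSa hSb
        have h1 : n ≤ f a := hSa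
        have h2 : n ≤ f b := hSb
        exact hrel a b ha hb hba (by omega) (by omega) (by omega)
      · intro c hcm
        exact hterm r s hr hs hfr hfs h c hcm
      · intro q hq hSq c hcm
        have h1 : n ≤ f q := hSq
        exact hterm s q hs hq hfs (by omega) (by omega) c hcm
      · intro q hq hSq
        have h1 : n ≤ f q := hSq
        refine hrel s q hs hq ?_ hfs (by omega) (by omega)
        rintro rfl
        omega
  exact main (2 * B + 1 - (f r₀ + f s₀)).toNat (f r₀ + f s₀) (by omega) r₀ s₀ hr₀ hs₀ h₁ hmr hms le_rfl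

/-- Commuting families satisfy (R2) if there are no terms. -/
theorem rel2_of_nil {r s : ℕ} (h : D.commTerms r s = []) (hcomm : ∀ t u : K, y r t * y s u = y s u * y r t) :
    Rel2 D y r s := by
  intro t u
  have h2 : D.commWord K r s t u = [] := by
    show (D.commTerms r s).map _ = []
    rw [h]; rfl
  rw [h2, wordF_nil, mul_one, mul_assoc, ← hcomm, inv_mul_cancel_left]

end Cfsg.Agent.H134.LiftMore
end

-- part: H134/D4Tab
section
/-!
# Tables for type `D₄`: pairs of orthogonal roots, pairs of non-orthogonal roots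
-/

set_option autoImplicit false

namespace Cfsg.Agent.H134.D4Tab

open Cfsg.Lie Cfsg.Agent.ChevalleyStructure Cfsg.Agent.ChevalleyStructure.Elts
  Cfsg.Agent.ChevalleyStructure.St.Functional Cfsg.Agent.ChevalleyStructure.RootCombGood
  Cfsg.Agent.H133.ScRels Cfsg.Agent.H133.ScTheta Cfsg.Agent.H134.FamInj Cfsg.Agent.H134.LiftStep
  Cfsg.Agent.H134.Lift Cfsg.Agent.H134.LiftMain Cfsg.Agent.H134.LiftMore Cfsg.Agent.H134.Universal
open Cfsg.Agent.ChevalleyStructure.St.Conj (lin lin_def lin_comb lin_neg Tab)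
open Cfsg.Agent.H134.PairFacts (dot dot_eq lin_co)

open scoped commutatorElement

universe u v w

/-! ### The tables -/

/-- `s = a + b`: `(s, a, b, C)` -/
def abCert : List (ℕ × ℕ × ℕ × ℤ) := [
  (0, 1, 9, 1), (1, 0, 14, 1), (2, 0, 15, -1), (3, 0, 16, -1), (4, 0, 17, 1), (5, 1, 17, 1), (6, 0, 19, -1), (7, 0, 20, 1),
  (8, 0, 21, 1), (9, 0, 22, -1), (10, 1, 20, -1), (11, 1, 21, -1), (12, 2, 22, -1), (13, 3, 22, -1), (14, 1, 23, -1), (15, 2, 23, 1),
  (16, 3, 23, 1), (17, 4, 23, -1), (18, 6, 22, 1), (19, 6, 23, 1), (20, 7, 23, -1), (21, 8, 23, -1), (22, 9, 23, 1), (23, 14, 22, 1)]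

set_option maxHeartbeats 4000000 in
/-- For orthogonal `p, q`: `(p, q, r, s, b, b', C₁, C₂, C₃, C₄)` -/
def hwCert : List (ℕ × ℕ × ℕ × ℕ × ℕ × ℕ × ℤ × ℤ × ℤ × ℤ) := [
  (0, 5, 4, 1, 14, 6, -1, -1, -1, -1), (0, 10, 7, 1, 14, 3, -1, 1, 1, -1), (0, 11, 8, 1, 14, 2, -1, 1, 1, -1),
  (0, 12, 9, 2, 15, 1, 1, 1, 1, 1), (0, 13, 9, 3, 16, 1, 1, 1, 1, 1), (0, 18, 9, 6, 19, 1, 1, -1, -1, 1),
  (1, 4, 5, 0, 9, 6, -1, -1, -1, -1), (1, 7, 10, 0, 9, 3, -1, 1, -1, 1), (1, 8, 11, 0, 9, 2, -1, 1, -1, 1),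
  (1, 15, 14, 2, 12, 0, -1, 1, -1, 1), (1, 16, 14, 3, 13, 0, -1, 1, -1, 1), (1, 19, 14, 6, 18, 0, 1, -1, -1, 1),
  (2, 3, 5, 0, 8, 7, 1, -1, 1, -1), (2, 6, 10, 0, 8, 4, 1, 1, 1, 1), (2, 9, 12, 0, 8, 1, 1, 1, 1, 1),
  (2, 14, 15, 1, 11, 0, -1, 1, 1, -1), (2, 17, 15, 4, 13, 0, -1, 1, 1, -1), (2, 20, 15, 7, 18, 0, 1, -1, 1, -1),
  (3, 2, 5, 0, 7, 8, 1, -1, 1, -1), (3, 6, 11, 0, 7, 4, 1, 1, 1, 1), (3, 9, 13, 0, 7, 1, 1, 1, 1, 1),
  (3, 14, 16, 1, 10, 0, -1, 1, 1, -1), (3, 17, 16, 4, 12, 0, -1, 1, 1, -1), (3, 21, 16, 8, 18, 0, 1, -1, 1, -1),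
  (4, 1, 5, 0, 6, 9, -1, -1, -1, -1), (4, 7, 12, 0, 6, 3, -1, 1, -1, 1), (4, 8, 13, 0, 6, 2, -1, 1, -1, 1),
  (4, 15, 17, 2, 10, 0, -1, 1, -1, 1), (4, 16, 17, 3, 11, 0, -1, 1, -1, 1), (4, 22, 17, 9, 18, 0, 1, -1, -1, 1),
  (5, 0, 4, 1, 6, 14, -1, -1, -1, -1), (5, 10, 15, 1, 6, 3, -1, -1, 1, 1), (5, 11, 16, 1, 6, 2, -1, -1, 1, 1),
  (5, 12, 17, 2, 7, 1, -1, -1, 1, 1), (5, 13, 17, 3, 8, 1, -1, -1, 1, 1), (5, 23, 17, 14, 19, 1, 1, -1, -1, 1),
  (6, 2, 10, 0, 4, 8, 1, 1, 1, 1), (6, 3, 11, 0, 4, 7, 1, 1, 1, 1), (6, 9, 18, 0, 4, 1, 1, -1, 1, -1),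
  (6, 14, 19, 1, 5, 0, 1, -1, 1, -1), (6, 20, 19, 7, 12, 0, -1, 1, 1, -1), (6, 21, 19, 8, 13, 0, -1, 1, 1, -1),
  (7, 1, 10, 0, 3, 9, -1, 1, -1, 1), (7, 4, 12, 0, 3, 6, -1, 1, -1, 1), (7, 8, 18, 0, 3, 2, -1, -1, -1, -1),
  (7, 15, 20, 2, 5, 0, 1, -1, -1, 1), (7, 19, 20, 6, 11, 0, -1, 1, -1, 1), (7, 22, 20, 9, 13, 0, -1, 1, -1, 1),
  (8, 1, 11, 0, 2, 9, -1, 1, -1, 1), (8, 4, 13, 0, 2, 6, -1, 1, -1, 1), (8, 7, 18, 0, 2, 3, -1, -1, -1, -1),
  (8, 16, 21, 3, 5, 0, 1, -1, -1, 1), (8, 19, 21, 6, 10, 0, -1, 1, -1, 1), (8, 22, 21, 9, 12, 0, -1, 1, -1, 1),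
  (9, 2, 12, 0, 1, 8, 1, 1, 1, 1), (9, 3, 13, 0, 1, 7, 1, 1, 1, 1), (9, 6, 18, 0, 1, 4, 1, -1, 1, -1),
  (9, 17, 22, 4, 5, 0, 1, -1, 1, -1), (9, 20, 22, 7, 10, 0, -1, 1, 1, -1), (9, 21, 22, 8, 11, 0, -1, 1, 1, -1),
  (10, 0, 7, 1, 3, 14, 1, -1, -1, 1), (10, 5, 15, 1, 3, 6, 1, 1, -1, -1), (10, 11, 19, 1, 3, 2, 1, -1, 1, -1),
  (10, 12, 20, 2, 4, 1, 1, -1, 1, -1), (10, 18, 20, 6, 8, 1, 1, 1, -1, -1), (10, 23, 20, 14, 16, 1, -1, -1, -1, -1),
  (11, 0, 8, 1, 2, 14, 1, -1, -1, 1), (11, 5, 16, 1, 2, 6, 1, 1, -1, -1), (11, 10, 19, 1, 2, 3, 1, -1, 1, -1),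
  (11, 13, 21, 3, 4, 1, 1, -1, 1, -1), (11, 18, 21, 6, 7, 1, 1, 1, -1, -1), (11, 23, 21, 14, 15, 1, -1, -1, -1, -1),
  (12, 0, 9, 2, 1, 15, 1, 1, 1, 1), (12, 5, 17, 2, 1, 7, 1, 1, -1, -1), (12, 10, 20, 2, 1, 4, 1, -1, 1, -1),
  (12, 13, 22, 4, 3, 2, 1, -1, 1, -1), (12, 18, 22, 7, 6, 2, 1, 1, -1, -1), (12, 23, 22, 15, 14, 2, -1, 1, 1, -1),
  (13, 0, 9, 3, 1, 16, 1, 1, 1, 1), (13, 5, 17, 3, 1, 8, 1, 1, -1, -1), (13, 11, 21, 3, 1, 4, 1, -1, 1, -1),
  (13, 12, 22, 4, 2, 3, 1, -1, 1, -1), (13, 18, 22, 8, 6, 3, 1, 1, -1, -1), (13, 23, 22, 16, 14, 3, -1, 1, 1, -1),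
  (14, 2, 15, 1, 0, 11, 1, -1, -1, 1), (14, 3, 16, 1, 0, 10, 1, -1, -1, 1), (14, 6, 19, 1, 0, 5, 1, -1, 1, -1),
  (14, 17, 23, 5, 4, 1, 1, -1, 1, -1), (14, 20, 23, 10, 7, 1, -1, -1, -1, -1), (14, 21, 23, 11, 8, 1, -1, -1, -1, -1),
  (15, 1, 14, 2, 0, 12, -1, 1, -1, 1), (15, 4, 17, 2, 0, 10, -1, 1, -1, 1), (15, 7, 20, 2, 0, 5, -1, 1, 1, -1),
  (15, 16, 23, 5, 3, 2, 1, 1, 1, 1), (15, 19, 23, 10, 6, 2, -1, 1, -1, 1), (15, 22, 23, 12, 9, 2, -1, 1, -1, 1),
  (16, 1, 14, 3, 0, 13, -1, 1, -1, 1), (16, 4, 17, 3, 0, 11, -1, 1, -1, 1), (16, 8, 21, 3, 0, 5, -1, 1, 1, -1),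
  (16, 15, 23, 5, 2, 3, 1, 1, 1, 1), (16, 19, 23, 11, 6, 3, -1, 1, -1, 1), (16, 22, 23, 13, 9, 3, -1, 1, -1, 1),
  (17, 2, 15, 4, 0, 13, 1, -1, -1, 1), (17, 3, 16, 4, 0, 12, 1, -1, -1, 1), (17, 9, 22, 4, 0, 5, 1, -1, 1, -1),
  (17, 14, 23, 5, 1, 4, 1, -1, 1, -1), (17, 20, 23, 12, 7, 4, -1, -1, -1, -1), (17, 21, 23, 13, 8, 4, -1, -1, -1, -1),
  (18, 0, 9, 6, 1, 19, -1, 1, 1, -1), (18, 10, 20, 6, 1, 8, -1, -1, 1, 1), (18, 11, 21, 6, 1, 7, -1, -1, 1, 1),
  (18, 12, 22, 7, 2, 6, -1, -1, 1, 1), (18, 13, 22, 8, 3, 6, -1, -1, 1, 1), (18, 23, 22, 19, 14, 6, 1, 1, 1, 1),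
  (19, 1, 14, 6, 0, 18, -1, 1, 1, -1), (19, 7, 20, 6, 0, 11, -1, 1, -1, 1), (19, 8, 21, 6, 0, 10, -1, 1, -1, 1),
  (19, 15, 23, 10, 2, 6, -1, 1, -1, 1), (19, 16, 23, 11, 3, 6, -1, 1, -1, 1), (19, 22, 23, 18, 9, 6, 1, 1, 1, 1),
  (20, 2, 15, 7, 0, 18, 1, -1, 1, -1), (20, 6, 19, 7, 0, 12, 1, -1, -1, 1), (20, 9, 22, 7, 0, 10, 1, -1, -1, 1),
  (20, 14, 23, 10, 1, 7, -1, -1, -1, -1), (20, 17, 23, 12, 4, 7, -1, -1, -1, -1), (20, 21, 23, 18, 8, 7, 1, -1, 1, -1),
  (21, 3, 16, 8, 0, 18, 1, -1, 1, -1), (21, 6, 19, 8, 0, 13, 1, -1, -1, 1), (21, 9, 22, 8, 0, 11, 1, -1, -1, 1),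
  (21, 14, 23, 11, 1, 8, -1, -1, -1, -1), (21, 17, 23, 13, 4, 8, -1, -1, -1, -1), (21, 20, 23, 18, 7, 8, 1, -1, 1, -1),
  (22, 4, 17, 9, 0, 18, -1, 1, 1, -1), (22, 7, 20, 9, 0, 13, -1, 1, -1, 1), (22, 8, 21, 9, 0, 12, -1, 1, -1, 1),
  (22, 15, 23, 12, 2, 9, -1, 1, -1, 1), (22, 16, 23, 13, 3, 9, -1, 1, -1, 1), (22, 19, 23, 18, 6, 9, 1, 1, 1, 1),
  (23, 5, 17, 14, 1, 19, -1, 1, 1, -1), (23, 10, 20, 14, 1, 16, -1, -1, -1, -1), (23, 11, 21, 14, 1, 15, -1, -1, -1, -1),
  (23, 12, 22, 15, 2, 14, 1, -1, -1, 1), (23, 13, 22, 16, 3, 14, 1, -1, -1, 1), (23, 18, 22, 19, 6, 14, 1, 1, 1, 1)]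

/-- Cartan integers, computed -/
def dc (t s : ℕ) : ℤ :=
  dot (chevD4.coroot.getD t #[]).toList ((List.range chevD4.rank).map fun k => chevD4.cartan k s)

theorem dc_eq (t s : ℕ) : dc t s = car chevD4 t s := by
  unfold dc
  rw [dot_eq]
  refine Finset.sum_congr rfl fun k _ => ?_
  congr 1
  show (chevD4.coroot.getD t #[]).toList.getD k 0 = (chevD4.coroot.getD t #[]).getD k 0
  simp

/-- there is a coroot vanishing on `p` with value one on `q` -/
def torOK (p q : ℕ) : Bool := (List.range 24).any fun t => decide (dc t p = 0) && decide (dc t q = 1)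

theorem exists_of_torOK {p q : ℕ} (h : torOK p q = true) : ∃ m : ℕ → ℤ, lin chevD4 m p = 0 ∧ lin chevD4 m q = 1 := by
  obtain ⟨t, _, h2⟩ := List.any_eq_true.1 h
  simp only [Bool.and_eq_true, decide_eq_true_eq] at h2
  exact ⟨co chevD4 t, by rw [lin_co, ← dc_eq]; exact h2.1, by rw [lin_co, ← dc_eq]; exact h2.2⟩

def orth (p q : ℕ) : Bool := decide (dc q p = 0)

/-- The classification of pairs. -/
def chkPair : Bool := (List.range 24).all fun p => (List.range 24).all fun q =>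
  Nat.beq q p || Nat.beq q (chevD4.neg p) ||
    (orth p q && decide (chevD4.commTerms p q = []) && hwCert.any fun c => Nat.beq c.1 p && Nat.beq c.2.1 q) ||
    torOK p q

set_option maxRecDepth 100000 in
theorem chkPair_eq : chkPair = true := by decide +kernel

def chkAb : Bool := (List.range 24).all fun s => abCert.any fun c =>
  Nat.beq c.1 s && decide (c.2.1 < 24) && decide (c.2.2.1 < 24) &&
    decide (chevD4.commTerms c.2.1 c.2.2.1 = [(s, c.2.2.2, 1, 1)]) &&
    decide (c.2.2.2 = 1 ∨ c.2.2.2 = -1) && decide (chevD4.commTerms s c.2.1 = []) &&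
    decide (chevD4.commTerms s c.2.2.1 = []) && torOK s c.2.1 && torOK s c.2.2.1 &&
    decide (c.2.1 ≠ s ∧ c.2.1 ≠ chevD4.neg s ∧ c.2.2.1 ≠ s ∧ c.2.2.1 ≠ chevD4.neg s ∧ c.2.2.1 ≠ c.2.1 ∧
      c.2.2.1 ≠ chevD4.neg c.2.1)

set_option maxRecDepth 100000 in
theorem chkAb_eq : chkAb = true := by decide +kernel

/-- The conditions on a certificate `(p, q, r, s, b, b', C₁, C₂, C₃, C₄)`. -/
def good (p q : ℕ) : Bool := decide (q ≠ p) && decide (q ≠ chevD4.neg p) && decide (chevD4.commTerms p q = [])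

def chkHW : Bool := hwCert.all fun (p, q, r, s, b, b', C₁, C₂, C₃, C₄) =>
  decide (p < 24) && decide (q < 24) && decide (r < 24) && decide (s < 24) && decide (b < 24) && decide (b' < 24) &&
  decide (chevD4.commTerms b p = [(s, C₁, 1, 1)]) && decide (chevD4.commTerms b r = [(q, C₂, 1, 1)]) &&
  decide (chevD4.commTerms b' q = [(s, C₃, 1, 1)]) && decide (chevD4.commTerms b' r = [(p, C₄, 1, 1)]) &&
  decide (C₁ = 1 ∨ C₁ = -1) && decide (C₂ = 1 ∨ C₂ = -1) && decide (C₃ = 1 ∨ C₃ = -1) && decide (C₄ = 1 ∨ C₄ = -1) &&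
  decide (C₁ * C₂ = C₃ * C₄) &&
  decide (p ≠ b ∧ p ≠ chevD4.neg b ∧ r ≠ b ∧ r ≠ chevD4.neg b ∧ q ≠ b' ∧ q ≠ chevD4.neg b' ∧ r ≠ b' ∧ r ≠ chevD4.neg b') &&
  good r p && torOK r p && good r q && torOK r q && good q s && torOK q s && good p s && torOK p s &&
  good r s && good p q

set_option maxRecDepth 100000 in
theorem chkHW_eq : chkHW = true := by decide +kernel

/-- Non-orthogonal pairs have a torus functional; orthogonal ones have no commutator terms and a certificate. -/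
theorem pair_cases {p q : ℕ} (hp : p < 24) (hq : q < 24) (h1 : q ≠ p) (h2 : q ≠ chevD4.neg p) :
    (car chevD4 q p = 0 ∧ chevD4.commTerms p q = [] ∧ ∃ c ∈ hwCert, c.1 = p ∧ c.2.1 = q) ∨
      ∃ m : ℕ → ℤ, lin chevD4 m p = 0 ∧ lin chevD4 m q = 1 := by
  have h := List.all_eq_true.1 (List.all_eq_true.1 chkPair_eq p (List.mem_range.2 hp)) q (List.mem_range.2 hq)
  simp only [Bool.or_eq_true, Bool.and_eq_true, decide_eq_true_eq, orth, dc_eq] at h
  rcases h with ((h | h) | h) | h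
  · exact absurd (Nat.eq_of_beq_eq_true h) h1
  · exact absurd (Nat.eq_of_beq_eq_true h) h2
  · obtain ⟨⟨h3, h4⟩, h5⟩ := h
    obtain ⟨c, hc, h6⟩ := List.any_eq_true.1 h5
    simp only [Bool.and_eq_true] at h6
    exact Or.inl ⟨h3, h4, c, hc, Nat.eq_of_beq_eq_true h6.1, Nat.eq_of_beq_eq_true h6.2⟩
  · exact Or.inr (exists_of_torOK h)

/-- The data of a certificate. -/
structure HW (p q r s b b' : ℕ) (C₁ C₂ C₃ C₄ : ℤ) : Prop where
  hp : p < 24
  hq : q < 24
  hr : r < 24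
  hs : s < 24
  hb : b < 24
  hb' : b' < 24
  t1 : chevD4.commTerms b p = [(s, C₁, 1, 1)]
  t2 : chevD4.commTerms b r = [(q, C₂, 1, 1)]
  t3 : chevD4.commTerms b' q = [(s, C₃, 1, 1)]
  t4 : chevD4.commTerms b' r = [(p, C₄, 1, 1)]
  c1 : C₁ = 1 ∨ C₁ = -1
  c2 : C₂ = 1 ∨ C₂ = -1
  c3 : C₃ = 1 ∨ C₃ = -1
  c4 : C₄ = 1 ∨ C₄ = -1
  cc : C₁ * C₂ = C₃ * C₄
  ne : p ≠ b ∧ p ≠ chevD4.neg b ∧ r ≠ b ∧ r ≠ chevD4.neg b ∧ q ≠ b' ∧ q ≠ chevD4.neg b' ∧ r ≠ b' ∧ r ≠ chevD4.neg b'
  rp : r ≠ p ∧ p ≠ r ∧ p ≠ chevD4.neg r ∧ chevD4.commTerms r p = []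
  rq : q ≠ r ∧ q ≠ chevD4.neg r ∧ chevD4.commTerms r q = []
  qs : s ≠ q ∧ s ≠ chevD4.neg q ∧ chevD4.commTerms q s = []
  ps : s ≠ p ∧ s ≠ chevD4.neg p ∧ chevD4.commTerms p s = []
  rs : s ≠ r ∧ s ≠ chevD4.neg r ∧ chevD4.commTerms r s = []
  pq : q ≠ p ∧ q ≠ chevD4.neg p ∧ chevD4.commTerms p q = []
  mrp : ∃ m : ℕ → ℤ, lin chevD4 m r = 0 ∧ lin chevD4 m p = 1
  mrq : ∃ m : ℕ → ℤ, lin chevD4 m r = 0 ∧ lin chevD4 m q = 1
  mqs : ∃ m : ℕ → ℤ, lin chevD4 m q = 0 ∧ lin chevD4 m s = 1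
  mps : ∃ m : ℕ → ℤ, lin chevD4 m p = 0 ∧ lin chevD4 m s = 1

theorem hw_of_mem {p q r s b b' : ℕ} {C₁ C₂ C₃ C₄ : ℤ} (h : (p, q, r, s, b, b', C₁, C₂, C₃, C₄) ∈ hwCert) :
    HW p q r s b b' C₁ C₂ C₃ C₄ := by
  have h1 := List.all_eq_true.1 chkHW_eq _ h
  simp only [Bool.and_eq_true, decide_eq_true_eq, good] at h1
  obtain ⟨⟨⟨⟨⟨⟨⟨⟨⟨⟨⟨⟨⟨⟨⟨⟨⟨⟨⟨⟨⟨⟨⟨⟨⟨hp, hq⟩, hr⟩, hs⟩, hb⟩, hb'⟩, t1⟩, t2⟩, t3⟩, t4⟩, c1⟩, c2⟩, c3⟩, c4⟩, cc⟩, ne⟩, rp⟩, mrp⟩,
    rq⟩, mrq⟩, qs⟩, mqs⟩, ps⟩, mps⟩, rs⟩, pq⟩ := h1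
  exact ⟨hp, hq, hr, hs, hb, hb', t1, t2, t3, t4, c1, c2, c3, c4, cc, ne,
    ⟨rp.1.1.symm, rp.1.1, rp.1.2, rp.2⟩, ⟨rq.1.1, rq.1.2, rq.2⟩, ⟨qs.1.1, qs.1.2, qs.2⟩, ⟨ps.1.1, ps.1.2, ps.2⟩,
    ⟨rs.1.1, rs.1.2, rs.2⟩, ⟨pq.1.1, pq.1.2, pq.2⟩, exists_of_torOK mrp, exists_of_torOK mrq, exists_of_torOK mqs,
    exists_of_torOK mps⟩

/-- Every root is a sum. -/
theorem exists_ab {s : ℕ} (hs : s < 24) : ∃ (a b : ℕ) (C : ℤ), a < 24 ∧ b < 24 ∧
    chevD4.commTerms a b = [(s, C, 1, 1)] ∧ (C = 1 ∨ C = -1) ∧ chevD4.commTerms s a = [] ∧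
    chevD4.commTerms s b = [] ∧ (∃ m : ℕ → ℤ, lin chevD4 m s = 0 ∧ lin chevD4 m a = 1) ∧
    (∃ m : ℕ → ℤ, lin chevD4 m s = 0 ∧ lin chevD4 m b = 1) ∧
    (a ≠ s ∧ a ≠ chevD4.neg s ∧ b ≠ s ∧ b ≠ chevD4.neg s ∧ b ≠ a ∧ b ≠ chevD4.neg a) := by
  have h := List.all_eq_true.1 chkAb_eq s (List.mem_range.2 hs)
  obtain ⟨c, -, h1⟩ := List.any_eq_true.1 h
  simp only [Bool.and_eq_true, decide_eq_true_eq] at h1
  obtain ⟨⟨⟨⟨⟨⟨⟨⟨⟨_, h2⟩, h3⟩, h4⟩, h5⟩, h6⟩, h7⟩, h8⟩, h9⟩, h10⟩ := h1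
  exact ⟨c.2.1, c.2.2.1, c.2.2.2, h2, h3, h4, h5, h6, h7, exists_of_torOK h8, exists_of_torOK h9, h10⟩

end Cfsg.Agent.H134.D4Tab
end

-- part: H134/SmallD4
section
/-!
# Central extensions of the group presented by (R1), (R2) of type `D₄` over a field with more than two elements
-/

set_option autoImplicit false

namespace Cfsg.Agent.H134.SmallD4

open Cfsg.Lie Cfsg.Agent.ChevalleyStructure Cfsg.Agent.ChevalleyStructure.Elts
  Cfsg.Agent.ChevalleyStructure.St.Functional Cfsg.Agent.ChevalleyStructure.RootCombGood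
  Cfsg.Agent.H133.ScRels Cfsg.Agent.H133.ScTheta Cfsg.Agent.H134.FamInj Cfsg.Agent.H134.LiftStep
  Cfsg.Agent.H134.Lift Cfsg.Agent.H134.LiftMain Cfsg.Agent.H134.LiftMore Cfsg.Agent.H134.Universal
  Cfsg.Agent.H134.D4Tab
open Cfsg.Agent.ChevalleyStructure.St.Conj (lin lin_def lin_comb lin_neg Tab)
open Cfsg.Agent.H134.PairFacts (dot dot_eq lin_co)

open scoped commutatorElement

universe u v w

/-! ### Fields -/

/-- A field with an element `≠ 0, 1`: either some `c ≠ 0` has `c² ≠ 1`, or it has three elements. -/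
theorem field_cases {K : Type u} [Field K] (hK : ∃ x : K, x ≠ 0 ∧ x ≠ 1) :
    (∃ c : K, c ≠ 0 ∧ c ^ 2 ≠ 1) ∨ ((3 : K) = 0 ∧ (2 : K) ≠ 0 ∧ ∀ t : K, t = 0 ∨ t = 1 ∨ t = -1) := by
  by_cases h : ∃ c : K, c ≠ 0 ∧ c ^ 2 ≠ 1
  · exact Or.inl h
  · right
    push Not at h
    have hall : ∀ t : K, t = 0 ∨ t = 1 ∨ t = -1 := by
      intro t
      by_cases h0 : t = 0
      · exact Or.inl h0
      · exact Or.inr (sq_eq_one_iff_of_ne_zero' t (h t h0))
    obtain ⟨x, h0, h1⟩ := hK
    have hx : x = -1 := by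
      rcases hall x with h2 | h2 | h2
      · exact absurd h2 h0
      · exact absurd h2 h1
      · exact h2
    have h2 : (2 : K) ≠ 0 := by
      intro h2
      apply h1
      rw [hx]
      linear_combination -h2
    refine ⟨?_, h2, hall⟩
    rcases hall 2 with h3 | h3 | h3
    · exact absurd h3 h2
    · exfalso
      have : (1 : K) = 0 := by linear_combination h3
      exact one_ne_zero this
    · linear_combination h3
where
  sq_eq_one_iff_of_ne_zero' {K : Type u} [Field K] (t : K) (h : t ^ 2 = 1) : t = 1 ∨ t = -1 :=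
    sq_eq_one_iff_of_side_cond t h
  sq_eq_one_iff_of_side_cond {K : Type u} [Field K] (t : K) (h : t ^ 2 = 1) : t = 1 ∨ t = -1 := by
    have h2 : (t - 1) * (t + 1) = 0 := by linear_combination h
    rcases mul_eq_zero.1 h2 with h3 | h3
    · exact Or.inl (sub_eq_zero.1 h3)
    · exact Or.inr (eq_neg_of_add_eq_zero_left h3)

/-! ### The pairing on commuting root subgroups -/

section

variable {K : Type u} [Field K] {D : ChevalleyDatum} {E : Type v} [Group E] {π : E →* D.SteinbergCover K}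
  (hsurj : Function.Surjective π) (hc : π.ker ≤ Subgroup.center E)

theorem commute_of_nil {r s : ℕ} (hr : r < D.nroots) (hs : s < D.nroots) (h : s ≠ r ∧ s ≠ D.neg r ∧ D.commTerms r s = [])
    (t u : K) : D.scGen K r t * D.scGen K s u = D.scGen K s u * D.scGen K r t :=
  comm_of_nil hr hs h.1 h.2.1 h.2.2 t u

include hc in
/-- The pairing vanishes if there is a torus element. -/
theorem B_act {r s : ℕ} (hr : r < D.nroots) (hs : s < D.nroots)
    (hcomm : ∀ t u : K, D.scGen K r t * D.scGen K s u = D.scGen K s u * D.scGen K r t)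
    {h : D.SteinbergCover K} {a : ℕ → K} (H : Act h a) (har : a r = 1) (has : a s ≠ 1) (t u : K) :
    B hsurj (D.scGen K r t) (D.scGen K s u) = 1 :=
  (B_eq_one_iff hsurj hc).2 fun _ _ hp hq => commute_of_act hsurj hc hr hs hcomm H har has hp hq

include hc in
/-- The pairing with a functional taking the values `0`, `1` on the two roots. -/
theorem B_lin (hD : InList D) {c : K} (hc0 : c ≠ 0) (hc1 : c ≠ 1) {r s : ℕ} (hr : r < D.nroots) (hs : s < D.nroots)
    (hcomm : ∀ t u : K, D.scGen K r t * D.scGen K s u = D.scGen K s u * D.scGen K r t)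
    (hm : ∃ m : ℕ → ℤ, lin D m r = 0 ∧ lin D m s = 1) (t u : K) :
    B hsurj (D.scGen K r t) (D.scGen K s u) = 1 := by
  obtain ⟨m, h0, h1⟩ := hm
  obtain ⟨h, H⟩ := exists_act hD m hc0
  refine B_act hsurj hc hr hs hcomm H ?_ ?_ t u
  · show c ^ lin D m r = 1
    rw [h0, zpow_zero]
  · show c ^ lin D m s ≠ 1
    rw [h1, zpow_one]
    exact hc1

include hc in
theorem B_add_left {r s : ℕ}
    (hcomm : ∀ t u : K, D.scGen K r t * D.scGen K s u = D.scGen K s u * D.scGen K r t) (t t' u : K) :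
    B hsurj (D.scGen K r (t + t')) (D.scGen K s u) =
      B hsurj (D.scGen K r t) (D.scGen K s u) * B hsurj (D.scGen K r t') (D.scGen K s u) := by
  rw [← scGen_add', B_mul_left hsurj hc (hcomm t' u)]

include hc in
theorem B_add_right {r s : ℕ}
    (hcomm : ∀ t u : K, D.scGen K r t * D.scGen K s u = D.scGen K s u * D.scGen K r t) (t u u' : K) :
    B hsurj (D.scGen K r t) (D.scGen K s (u + u')) =
      B hsurj (D.scGen K r t) (D.scGen K s u) * B hsurj (D.scGen K r t) (D.scGen K s u') := by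
  rw [← scGen_add', B_mul_right hsurj hc (hcomm t u')]

include hc in
theorem B_zero_left (g : D.SteinbergCover K) : B hsurj 1 g = 1 := by
  have h := B_mul_left hsurj hc (x := 1) (x' := 1) (y := g) (by rw [one_mul, mul_one])
  rw [mul_one] at h
  exact left_eq_mul.1 h

include hc in
theorem B_zero_right (g : D.SteinbergCover K) : B hsurj g 1 = 1 := by
  rw [B_symm, B_zero_left hsurj hc, inv_one]

include hc in
theorem B_sign_left {r s : ℕ}
    (hcomm : ∀ t u : K, D.scGen K r t * D.scGen K s u = D.scGen K s u * D.scGen K r t) {C : ℤ} (hC : C = 1 ∨ C = -1)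
    (t u : K) : B hsurj (D.scGen K r (C * t)) (D.scGen K s u) = B hsurj (D.scGen K r t) (D.scGen K s u) ^ C := by
  rcases hC with rfl | rfl
  · rw [Int.cast_one, one_mul, zpow_one]
  · have h := B_add_left hsurj hc hcomm t (-t) u
    rw [add_neg_cancel, scGen_zero, B_zero_left hsurj hc] at h
    rw [zpow_neg_one, Int.cast_neg, Int.cast_one, neg_one_mul]
    exact (inv_eq_of_mul_eq_one_right h.symm).symm

include hc in
theorem B_sign_right {r s : ℕ}
    (hcomm : ∀ t u : K, D.scGen K r t * D.scGen K s u = D.scGen K s u * D.scGen K r t) {C : ℤ} (hC : C = 1 ∨ C = -1)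
    (t u : K) : B hsurj (D.scGen K r t) (D.scGen K s (C * u)) = B hsurj (D.scGen K r t) (D.scGen K s u) ^ C := by
  rw [B_symm hsurj (D.scGen K s (C * u)), B_sign_left hsurj hc (fun t u => (hcomm u t).symm) hC,
    B_symm hsurj (D.scGen K r t) (D.scGen K s u), inv_zpow, inv_inv]

include hc in
/-- Three elements: the pairing is determined by its value at `(1, 1)`. -/
theorem B_of_one (hall : ∀ t : K, t = 0 ∨ t = 1 ∨ t = -1) {r s : ℕ}
    (hcomm : ∀ t u : K, D.scGen K r t * D.scGen K s u = D.scGen K s u * D.scGen K r t)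
    (hb1 : B hsurj (D.scGen K r 1) (D.scGen K s 1) = 1) (t u : K) :
    B hsurj (D.scGen K r t) (D.scGen K s u) = 1 := by
  rcases hall t with rfl | rfl | rfl
  · rw [scGen_zero, B_zero_left hsurj hc]
  · rcases hall u with rfl | rfl | rfl
    · rw [scGen_zero, B_zero_right hsurj hc]
    · exact hb1
    · have h := B_sign_right hsurj hc hcomm (C := -1) (Or.inr rfl) 1 1
      rw [hb1, one_zpow, mul_one] at h
      exact_mod_cast h
  · rcases hall u with rfl | rfl | rfl
    · rw [scGen_zero, B_zero_right hsurj hc]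
    · have h := B_sign_left hsurj hc hcomm (C := -1) (Or.inr rfl) 1 1
      rw [hb1, one_zpow, mul_one] at h
      exact_mod_cast h
    · have h := B_sign_left hsurj hc hcomm (C := -1) (Or.inr rfl) 1 (-1)
      have h' := B_sign_right hsurj hc hcomm (C := -1) (Or.inr rfl) 1 1
      rw [hb1, one_zpow, mul_one] at h'
      push_cast at h h'
      rw [h', one_zpow, mul_one] at h
      exact h

/-- Conjugation by a root element, one term. -/
theorem conj_one {b p s : ℕ} (hb : b < D.nroots) (hp : p < D.nroots) (h1 : p ≠ b) (h2 : p ≠ D.neg b) {C : ℤ}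
    (h : D.commTerms b p = [(s, C, 1, 1)]) (w : K) :
    (D.scGen K b 1)⁻¹ * D.scGen K p w * D.scGen K b 1 = D.scGen K p w * D.scGen K s (((-C : ℤ) : K) * w) := by
  rw [scGen_conj hb hp h1 h2 1 w]
  have h3 : D.commWord K b p 1 w = [(s, (C : K) * (-1) ^ 1 * w ^ 1)] := by
    show (D.commTerms b p).map _ = _
    rw [h]; rfl
  rw [h3, word_cons, word_nil, mul_one]
  congr 2
  push_cast
  ring

end

theorem alg {G : Type v} [Group G] {d b : G} {C₁ C₂ C₃ C₄ : ℤ} (c2 : C₂ = 1 ∨ C₂ = -1) (c3 : C₃ = 1 ∨ C₃ = -1)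
    (c4 : C₄ = 1 ∨ C₄ = -1) (cc : C₁ * C₂ = C₃ * C₄) (e1 : d ^ (-C₁) * b ^ C₂ = 1) (e2 : d ^ (-C₃) * b ^ (-C₄) = 1)
    (hd : d ^ 3 = 1) : b = 1 := by
  have a1 : b = d ^ (C₁ * C₂) := by
    have h : b ^ C₂ = d ^ C₁ := by rw [zpow_neg, inv_mul_eq_one] at e1; exact e1.symm
    rw [zpow_mul, ← h, ← zpow_mul]
    rcases c2 with h | h <;> rw [h] <;> simp
  have a2 : b = d ^ (-(C₃ * C₄)) := by
    have h : b ^ (-C₄) = d ^ C₃ := by rw [zpow_neg, inv_mul_eq_one] at e2; exact e2.symm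
    rw [← mul_neg, zpow_mul, ← h, ← zpow_mul]
    rcases c4 with h | h <;> rw [h] <;> simp
  rw [← cc] at a2
  have hcc : C₁ * C₂ = 1 ∨ C₁ * C₂ = -1 := by
    rw [cc]
    rcases c3 with h | h <;> rcases c4 with h' | h' <;> rw [h, h'] <;> simp
  have h1 : d * d = 1 := by
    rcases hcc with h | h
    · rw [h, zpow_neg, zpow_one] at a2
      rw [h, zpow_one] at a1
      exact mul_eq_one_iff_eq_inv.2 (a1.symm.trans a2)
    · rw [h, neg_neg, zpow_one] at a2
      rw [h, zpow_neg, zpow_one] at a1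
      exact mul_eq_one_iff_eq_inv.2 (a2.symm.trans a1)
  have h2 : d = 1 := by
    rw [pow_succ, pow_two, h1, one_mul] at hd
    exact hd
  rw [a1, h2, one_zpow]

/-! ### Type `D₄` -/

section D4

variable {K : Type u} [Field K] {E : Type v} [Group E] {π : E →* chevD4.SteinbergCover K}
  (hsurj : Function.Surjective π) (hc : π.ker ≤ Subgroup.center E)

theorem inList : InList chevD4 := by simp [InList]

theorem pow_three {r s : ℕ} (h3 : (3 : K) = 0) {π : E →* chevD4.SteinbergCover K}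
    (hsurj : Function.Surjective π) (hc : π.ker ≤ Subgroup.center E)
    (hcomm : ∀ t u : K, chevD4.scGen K r t * chevD4.scGen K s u = chevD4.scGen K s u * chevD4.scGen K r t) (t u : K) :
    B hsurj (chevD4.scGen K r t) (chevD4.scGen K s u) ^ 3 = 1 := by
  have h1 := B_add_left hsurj hc hcomm (t + t) t u
  rw [B_add_left hsurj hc hcomm t t u] at h1
  have h2 : t + t + t = 0 := by linear_combination t * h3
  rw [h2, scGen_zero, B_zero_left hsurj hc] at h1
  rw [pow_succ, pow_two]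
  exact h1.symm

include hc in
/-- The pairing of orthogonal root subgroups vanishes (three elements). -/
theorem B_orth_three (h3 : (3 : K) = 0) (h2 : (2 : K) ≠ 0) (hall : ∀ t : K, t = 0 ∨ t = 1 ∨ t = -1)
    {p q r s b b' : ℕ} {C₁ C₂ C₃ C₄ : ℤ} (W : HW p q r s b b' C₁ C₂ C₃ C₄) (t u : K) :
    B hsurj (chevD4.scGen K p t) (chevD4.scGen K q u) = 1 := by
  have hm1 : (-1 : K) ≠ 0 := neg_ne_zero.2 one_ne_zero
  have hm2 : (-1 : K) ≠ 1 := by
    intro h; apply h2; linear_combination -h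
  have crp : ∀ t u : K, _ := commute_of_nil (K := K) (D := chevD4) W.hr W.hp ⟨W.rp.2.1, W.rp.2.2.1, W.rp.2.2.2⟩
  have crq : ∀ t u : K, _ := commute_of_nil (K := K) (D := chevD4) W.hr W.hq W.rq
  have cqs : ∀ t u : K, _ := commute_of_nil (K := K) (D := chevD4) W.hq W.hs W.qs
  have cps : ∀ t u : K, _ := commute_of_nil (K := K) (D := chevD4) W.hp W.hs W.ps
  have crs : ∀ t u : K, _ := commute_of_nil (K := K) (D := chevD4) W.hr W.hs W.rs
  have cpq : ∀ t u : K, _ := commute_of_nil (K := K) (D := chevD4) W.hp W.hq W.pq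
  have brp : ∀ t u : K, _ := B_lin hsurj hc inList hm1 hm2 W.hr W.hp crp W.mrp
  have brq : ∀ t u : K, _ := B_lin hsurj hc inList hm1 hm2 W.hr W.hq crq W.mrq
  have bqs : ∀ t u : K, _ := B_lin hsurj hc inList hm1 hm2 W.hq W.hs cqs W.mqs
  have bps : ∀ t u : K, _ := B_lin hsurj hc inList hm1 hm2 W.hp W.hs cps W.mps
  set bb := B hsurj (chevD4.scGen K p 1) (chevD4.scGen K q 1) with hbb
  set d := B hsurj (chevD4.scGen K r 1) (chevD4.scGen K s 1) with hd
  have hbk : bb ∈ π.ker := B_mem hsurj (cpq 1 1)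
  -- first conjugation
  have n1 : -C₁ = 1 ∨ -C₁ = -1 := by rcases W.c1 with h | h <;> omega
  have n2 : -C₂ = 1 ∨ -C₂ = -1 := by rcases W.c2 with h | h <;> omega
  have n3 : -C₃ = 1 ∨ -C₃ = -1 := by rcases W.c3 with h | h <;> omega
  have n4 : -C₄ = 1 ∨ -C₄ = -1 := by rcases W.c4 with h | h <;> omega
  have e1 : d ^ (-C₁) * bb ^ C₂ = 1 := by
    have h := B_conj hsurj hc (crp 1 1) (chevD4.scGen K b 1)
    rw [brp 1 1, conj_one W.hb W.hr W.ne.2.2.1 W.ne.2.2.2.1 W.t2, conj_one W.hb W.hp W.ne.1 W.ne.2.1 W.t1,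
      B_mul_left hsurj hc, B_mul_right hsurj hc (crs _ _), B_mul_right hsurj hc (cqs _ _), brp, bqs,
      B_sign_right hsurj hc crs n1, B_sign_left hsurj hc (fun t u => (cpq u t).symm) n2, B_symm hsurj
      (chevD4.scGen K p 1) (chevD4.scGen K q 1), inv_zpow, zpow_neg _ C₂, inv_inv, one_mul, mul_one] at h
    · exact h
    · rw [← mul_assoc, (cpq _ _).symm, mul_assoc, cqs, mul_assoc]
  have e2 : d ^ (-C₃) * bb ^ (-C₄) = 1 := by
    have h := B_conj hsurj hc (crq 1 1) (chevD4.scGen K b' 1)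
    rw [brq 1 1, conj_one W.hb' W.hr W.ne.2.2.2.2.2.2.1 W.ne.2.2.2.2.2.2.2 W.t4,
      conj_one W.hb' W.hq W.ne.2.2.2.2.1 W.ne.2.2.2.2.2.1 W.t3,
      B_mul_left hsurj hc, B_mul_right hsurj hc (crs _ _), B_mul_right hsurj hc (cps _ _), brq, bps,
      B_sign_right hsurj hc crs n3, B_sign_left hsurj hc cpq n4, one_mul, mul_one] at h
    · exact h
    · rw [← mul_assoc, cpq, mul_assoc, cps, mul_assoc]
  have hd3 : d ^ 3 = 1 := pow_three h3 hsurj hc crs 1 1
  have hb1 : bb = 1 := alg W.c2 W.c3 W.c4 W.cc e1 e2 hd3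
  exact B_of_one hsurj hc hall cpq hb1 t u

include hc in
/-- Lifts of orthogonal root elements commute. -/
theorem orth_comm (hK : ∃ x : K, x ≠ 0 ∧ x ≠ 1) {p q : ℕ} (hp : p < 24) (hq : q < 24) (h1 : q ≠ p)
    (h2 : q ≠ chevD4.neg p) (hcar : car chevD4 q p = 0) (hnil : chevD4.commTerms p q = [])
    (hcert : ∃ c ∈ hwCert, c.1 = p ∧ c.2.1 = q) (t u : K) :
    B hsurj (chevD4.scGen K p t) (chevD4.scGen K q u) = 1 := by
  rcases field_cases hK with ⟨c, hc0, hc2⟩ | ⟨h3, h2', hall⟩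
  · obtain ⟨h, H⟩ := exists_act inList (co chevD4 q) hc0
    refine B_act hsurj hc hp hq (fun t u => comm_of_nil hp hq h1 h2 hnil t u) H ?_ ?_ t u
    · show c ^ lin chevD4 (co chevD4 q) p = 1
      rw [lin_co, hcar, zpow_zero]
    · show c ^ lin chevD4 (co chevD4 q) q ≠ 1
      rw [lin_co, (RootComb.good_of_mem inList).car_self hq]
      exact_mod_cast hc2
  · obtain ⟨⟨p', q', r, s, b, b', C₁, C₂, C₃, C₄⟩, hmem, e1, e2⟩ := hcert
    dsimp only at e1 e2
    subst e1
    subst e2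
    exact B_orth_three hsurj hc h3 h2' hall (hw_of_mem hmem) t u

include hsurj hc in
theorem ab_D4 {c : K} (hc0 : c ≠ 0) (hc1 : c ≠ 1) {s : ℕ} (hs : s < 24) : Ab chevD4 π s := by
  obtain ⟨a, b, C, ha, hb, t1, hC, t2, t3, m1, m2, n1, n2, n3, n4, n5, n6⟩ := exists_ab hs
  refine ab_of_closure hsurj hc (Q := {a, b}) ?_ ?_
  · intro u
    have h1 := conj_one (K := K) (D := chevD4) ha hb n5 n6 t1 (-C * u)
    have h2 : chevD4.scGen K s u = (chevD4.scGen K b (-C * u))⁻¹ *
        ((chevD4.scGen K a 1)⁻¹ * chevD4.scGen K b (-C * u) * chevD4.scGen K a 1) := by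
      rw [h1, inv_mul_cancel_left]
      congr 1
      rcases hC with rfl | rfl <;> push_cast <;> ring
    rw [h2]
    have hm : ∀ q ∈ ({a, b} : Set ℕ), ∀ v : K, chevD4.scGen K q v ∈
        Subgroup.closure {x | ∃ q ∈ ({a, b} : Set ℕ), ∃ v : K, x = chevD4.scGen K q v} :=
      fun q hq v => Subgroup.subset_closure ⟨q, hq, v, rfl⟩
    have ma := hm a (by simp)
    have mb := hm b (by simp)
    exact mul_mem (inv_mem (mb _)) (mul_mem (mul_mem (inv_mem (ma _)) (mb _)) (ma _))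
  · rintro q (rfl | rfl) p p' t v hp hp'
    · exact (B_eq_one_iff hsurj hc).1 (B_lin hsurj hc inList hc0 hc1 hs ha
        (fun t u => comm_of_nil hs ha n1 n2 t2 t u) m1 t v) p p' hp hp'
    · exact (B_eq_one_iff hsurj hc).1 (B_lin hsurj hc inList hc0 hc1 hs hb
        (fun t u => comm_of_nil hs hb n3 n4 t3 t u) m2 t v) p p' hp hp'

include hsurj hc in
/-- **Central extensions of the group of type `D₄` split, over a field with more than two elements.** -/
theorem exists_section (hK : ∃ x : K, x ≠ 0 ∧ x ≠ 1) :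
    ∃ τ : chevD4.SteinbergCover K →* E, π.comp τ = MonoidHom.id _ := by
  classical
  obtain ⟨c, hc0, hc1⟩ := hK
  have hK' : ∃ x : K, x ≠ 0 ∧ x ≠ 1 := ⟨c, hc0, hc1⟩
  have hD := inList
  have hperf : commutator (chevD4.SteinbergCover K) = ⊤ :=
    Cfsg.Agent.S2395.result chevD4 hD fun _ => hK'
  have h1 : ∀ s < chevD4.nroots, ∃ (h : chevD4.SteinbergCover K) (a : ℕ → K), Act h a ∧ a s ≠ 1 := by
    intro s hs
    obtain ⟨m, hm⟩ := PairFacts.exists_one hD (PairFacts.chk1_of_mem (by simp)) hs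
    obtain ⟨h, H⟩ := exists_act hD m hc0
    exact ⟨h, _, H, by show c ^ lin chevD4 m s ≠ 1; rw [hm, zpow_one]; exact hc1⟩
  let H : ℕ → chevD4.SteinbergCover K := fun s => if h : s < chevD4.nroots then (h1 s h).choose else 1
  let A : ℕ → ℕ → K := fun s => if h : s < chevD4.nroots then (h1 s h).choose_spec.choose else 1
  have hA : ∀ s < chevD4.nroots, Act (H s) (A s) ∧ A s s ≠ 1 := by
    intro s hs
    have := (h1 s hs).choose_spec.choose_spec
    simp only [H, A, dif_pos hs]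
    exact this
  have hy : ∀ (r : ℕ) (t : K), r < chevD4.nroots → π (yy hsurj H A r t) = chevD4.scGen K r t :=
    fun r t hr => map_yy hsurj H A hA hr t
  have hadd : ∀ r < chevD4.nroots, ∀ t u : K, yy hsurj H A r t * yy hsurj H A r u = yy hsurj H A r (t + u) :=
    fun r hr t u => yy_add hsurj hc H A hA hr (ab_D4 hsurj hc hc0 hc1 hr) t u
  refine LiftMain.exists_section hD hy hadd (LiftMore.rel2_all hD (setup hD hc hy hadd) ?_)
  intro r s hr hs hsr hsn
  rcases pair_cases hr hs hsr hsn with ⟨h2, h3, h4⟩ | ⟨m, h2, h3⟩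
  · left
    apply rel2_of_nil h3
    intro t u
    exact (B_eq_one_iff hsurj hc).1 (orth_comm hsurj hc hK' hr hs hsr hsn h2 h3 h4 t u) _ _ (hy r t hr) (hy s u hs)
  · right; left
    obtain ⟨h, H'⟩ := exists_act hD m hc0
    obtain ⟨g, rfl⟩ := hsurj h
    refine ⟨g, _, fun q hq u => conj_yy hsurj hc hperf H A hA hq u H', ?_, ?_⟩
    · show c ^ lin chevD4 m r = 1
      rw [h2, zpow_zero]
    · show c ^ lin chevD4 m s ≠ 1
      rw [h3, zpow_one]
      exact hc1

end D4

end Cfsg.Agent.H134.SmallD4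
end

-- part: H134/SmallB2
section
/-!
# Central extensions of the group presented by (R1), (R2) of type `B₂` over the fields with three and four elements
-/

set_option autoImplicit false

namespace Cfsg.Agent.H134.SmallB2

open Cfsg.Lie Cfsg.Agent.ChevalleyStructure Cfsg.Agent.ChevalleyStructure.Elts
  Cfsg.Agent.ChevalleyStructure.St.Functional Cfsg.Agent.ChevalleyStructure.RootCombGood
  Cfsg.Agent.H133.ScRels Cfsg.Agent.H133.ScTheta Cfsg.Agent.H134.FamInj Cfsg.Agent.H134.LiftStep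
  Cfsg.Agent.H134.Lift Cfsg.Agent.H134.LiftMain Cfsg.Agent.H134.LiftMore Cfsg.Agent.H134.Universal
  Cfsg.Agent.H134.SmallD4
open Cfsg.Agent.ChevalleyStructure.St.Conj (lin lin_def lin_comb lin_neg Tab)
open Cfsg.Agent.H134.PairFacts (dot dot_eq lin_co)

open scoped commutatorElement

universe u v w

theorem inList : InList chevB2 := by simp [InList]

/-- The functional with coefficients `x`, `y`. -/
def fn (x y : ℤ) : ℕ → ℤ := fun j => if j = 0 then x else y

theorem lin_fn (x y : ℤ) (s : ℕ) : lin chevB2 (fn x y) s = x * chevB2.cartan 0 s + y * chevB2.cartan 1 s := by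
  rw [lin_def]
  show ∑ k ∈ Finset.range 2, _ = _
  rw [Finset.sum_range_succ, Finset.sum_range_one]
  rfl

def tor2 (r s : ℕ) : Bool := ([-2, -1, 0, 1, 2] : List ℤ).any fun x => ([-2, -1, 0, 1, 2] : List ℤ).any fun y =>
  decide (x * chevB2.cartan 0 r + y * chevB2.cartan 1 r = 0 ∧ x * chevB2.cartan 0 s + y * chevB2.cartan 1 s = 2)

theorem tor2_tab : ∀ r < 8, ∀ s < 8, s ≠ r → s ≠ chevB2.neg r → tor2 r s = true := by
  decide +kernel

theorem exists_tor2 {r s : ℕ} (hr : r < 8) (hs : s < 8) (h1 : s ≠ r) (h2 : s ≠ chevB2.neg r) :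
    ∃ m : ℕ → ℤ, lin chevB2 m r = 0 ∧ lin chevB2 m s = 2 := by
  obtain ⟨x, -, h3⟩ := List.any_eq_true.1 (tor2_tab r hr s hs h1 h2)
  obtain ⟨y, -, h4⟩ := List.any_eq_true.1 h3
  have h5 := of_decide_eq_true h4
  exact ⟨fn x y, by rw [lin_fn, h5.1], by rw [lin_fn, h5.2]⟩

/-! ### Characteristic two -/

section two

variable {K : Type u} [Field K] {D : ChevalleyDatum}

/-- A root element of `c = a + b` as a product of root elements for `a`, `b`, `s = 2a + b`. -/
theorem mem_closure_short {a b c s : ℕ} (ha : a < D.nroots) (hb : b < D.nroots) (hba : b ≠ a) (hbn : b ≠ D.neg a)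
    {C₁ C₂ : ℤ} (hC : C₁ = 1 ∨ C₁ = -1) (h : D.commTerms a b = [(c, C₁, 1, 1), (s, C₂, 2, 1)]) (u : K) :
    D.scGen K c u ∈ Subgroup.closure {x | ∃ q ∈ ({a, b, s} : Set ℕ), ∃ v : K, x = D.scGen K q v} := by
  have h1 := scGen_comm (K := K) ha hb hba hbn 1 (-(C₁ : K) * u)
  have h2 : word D K (D.commWord K a b 1 (-(C₁ : K) * u)) =
      D.scGen K c u * D.scGen K s ((C₂ : K) * (-1) ^ 2 * (-(C₁ : K) * u) ^ 1) := by
    show word D K ((D.commTerms a b).map fun c => (c.1, (c.2.1 : K) * (-1) ^ c.2.2.1 * (-(C₁ : K) * u) ^ c.2.2.2)) = _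
    rw [h, List.map_cons, List.map_cons, List.map_nil, word_cons, word_cons, word_nil, mul_one]
    congr 2
    show (C₁ : K) * (-1) ^ 1 * (-(C₁ : K) * u) ^ 1 = u
    rcases hC with rfl | rfl <;> push_cast <;> ring
  rw [h2] at h1
  have h3 : D.scGen K c u =
      ((D.scGen K b (-(C₁ : K) * u))⁻¹ * (D.scGen K a 1)⁻¹ * D.scGen K b (-(C₁ : K) * u) * D.scGen K a 1) *
      (D.scGen K s ((C₂ : K) * (-1) ^ 2 * (-(C₁ : K) * u) ^ 1))⁻¹ := by
    rw [h1]; group
  rw [h3]
  have hm : ∀ q ∈ ({a, b, s} : Set ℕ), ∀ v : K, D.scGen K q v ∈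
      Subgroup.closure {x | ∃ q ∈ ({a, b, s} : Set ℕ), ∃ v : K, x = D.scGen K q v} :=
    fun q hq v => Subgroup.subset_closure ⟨q, hq, v, rfl⟩
  have ma := hm a (by simp)
  have mb := hm b (by simp)
  have mc := hm s (by simp)
  exact mul_mem (mul_mem (mul_mem (mul_mem (inv_mem (mb _)) (inv_mem (ma _))) (mb _)) (ma _)) (inv_mem (mc _))

/-- The terms vanish in characteristic two. -/
def Even (D : ChevalleyDatum) (s q : ℕ) : Prop := ∀ c ∈ D.commTerms s q, c.2.1 % 2 = 0

instance (D : ChevalleyDatum) (s q : ℕ) : Decidable (Even D s q) :=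
  inferInstanceAs (Decidable (∀ c ∈ D.commTerms s q, c.2.1 % 2 = 0))

theorem comm_of_even (h2 : (2 : K) = 0) {r s : ℕ} (hr : r < D.nroots) (hs : s < D.nroots) (hsr : s ≠ r)
    (hsn : s ≠ D.neg r) (h : Even D r s) (t u : K) :
    D.scGen K r t * D.scGen K s u = D.scGen K s u * D.scGen K r t := by
  have h1 := scGen_conj hr hs hsr hsn t u
  have h3 : word D K (D.commWord K r s t u) = 1 := by
    show word D K ((D.commTerms r s).map fun c => (c.1, (c.2.1 : K) * (-t) ^ c.2.2.1 * u ^ c.2.2.2)) = 1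
    have key : ∀ l : List (ℕ × ℤ × ℕ × ℕ), (∀ c ∈ l, c.2.1 % 2 = 0) →
        word D K (l.map fun c => (c.1, (c.2.1 : K) * (-t) ^ c.2.2.1 * u ^ c.2.2.2)) = 1 := by
      intro l
      induction l with
      | nil => intro _; rfl
      | cons c l ih =>
        intro hl
        rw [List.map_cons, word_cons, ih fun c hc => hl c (List.mem_cons_of_mem _ hc), mul_one]
        obtain ⟨k, hk⟩ : (2 : ℤ) ∣ c.2.1 := Int.dvd_of_emod_eq_zero (hl c (List.mem_cons_self))
        have h4 : ((c.2.1 : ℤ) : K) = 0 := by rw [hk]; push_cast; rw [h2, zero_mul]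
        show D.scGen K c.1 (((c.2.1 : ℤ) : K) * (-t) ^ c.2.2.1 * u ^ c.2.2.2) = 1
        rw [h4, zero_mul, zero_mul, scGen_zero]
    exact key _ h
  rw [h3, mul_one, mul_assoc, inv_mul_eq_iff_eq_mul] at h1
  exact h1.symm

variable {E : Type v} [Group E] {π : E →* chevB2.SteinbergCover K}

theorem ab_two (h2 : (2 : K) = 0) {c : K} (hc0 : c ≠ 0) (hc2 : c ^ 2 ≠ 1)
    (hsurj : Function.Surjective π) (hc : π.ker ≤ Subgroup.center E) {s : ℕ} (hs : s < 8) : Ab chevB2 π s := by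
  have comm : ∀ {s q : ℕ} (_ : s < 8) (_ : q < 8) (_ : q ≠ s ∧ q ≠ chevB2.neg s ∧ Even chevB2 s q),
      ∀ p p' : E, ∀ t v : K, π p = chevB2.scGen K s t → π p' = chevB2.scGen K q v → p * p' = p' * p := by
    intro s q hs hq ⟨h3, h4, h5⟩ p p' t v hp hp'
    obtain ⟨m, hm0, hm2⟩ := exists_tor2 hs hq h3 h4
    obtain ⟨h, H⟩ := exists_act inList m hc0
    refine commute_of_act hsurj hc hs hq (comm_of_even h2 hs hq h3 h4 h5) H ?_ ?_ hp hp'
    · show c ^ lin chevB2 m s = 1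
      rw [hm0, zpow_zero]
    · show c ^ lin chevB2 m q ≠ 1
      rw [hm2]
      exact_mod_cast hc2
  have long : ∀ {a b c s : ℕ} (_ : a < 8) (_ : b < 8) (_ : c < 8)
      (_ : s < 8) (_ : b ≠ a) (_ : b ≠ chevB2.neg a)
      {C₁ C₂ : ℤ} (_ : C₂ = 1 ∨ C₂ = -1) (_ : chevB2.commTerms a b = [(c, C₁, 1, 1), (s, C₂, 2, 1)])
      (_ : ∀ q ∈ ({a, b, c} : Set ℕ), q ≠ s ∧ q ≠ chevB2.neg s ∧ Even chevB2 s q), Ab chevB2 π s := by
    intro a b c s ha hb hc' hs hba hbn C₁ C₂ hC h h1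
    refine ab_of_closure hsurj hc (Q := {a, b, c}) (fun u => mem_closure_long ha hb hba hbn hC h u) ?_
    intro q hq p p' t v hp hp'
    have hq' : q < 8 := by
      rcases hq with rfl | rfl | rfl
      · exact ha
      · exact hb
      · exact hc'
    exact comm hs hq' (h1 q hq) p p' t v hp hp'
  have short : ∀ {a b c s : ℕ} (_ : a < 8) (_ : b < 8) (_ : c < 8)
      (_ : s < 8) (_ : b ≠ a) (_ : b ≠ chevB2.neg a)
      {C₁ C₂ : ℤ} (_ : C₁ = 1 ∨ C₁ = -1) (_ : chevB2.commTerms a b = [(s, C₁, 1, 1), (c, C₂, 2, 1)])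
      (_ : ∀ q ∈ ({a, b, c} : Set ℕ), q ≠ s ∧ q ≠ chevB2.neg s ∧ Even chevB2 s q), Ab chevB2 π s := by
    intro a b c s ha hb hc' hs hba hbn C₁ C₂ hC h h1
    refine ab_of_closure hsurj hc (Q := {a, b, c}) (fun u => mem_closure_short ha hb hba hbn hC h u) ?_
    intro q hq p p' t v hp hp'
    have hq' : q < 8 := by
      rcases hq with rfl | rfl | rfl
      · exact ha
      · exact hb
      · exact hc'
    exact comm hs hq' (h1 q hq) p p' t v hp hp'
  have f3 : ∀ {a b c : ℕ} {P : ℕ → Prop}, P a → P b → P c → ∀ q ∈ ({a, b, c} : Set ℕ), P q := by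
    intro a b c P ha hb hc q hq
    rcases hq with rfl | rfl | rfl
    · exact ha
    · exact hb
    · exact hc
  interval_cases s
  · exact long (a := 2) (b := 3) (c := 1) (C₁ := 1) (C₂ := -1) (by decide) (by decide) (by decide) (by decide)
      (by decide) (by decide) (by decide) (by decide) (f3 (by decide) (by decide) (by decide))
  · exact short (a := 2) (b := 3) (c := 0) (C₁ := 1) (C₂ := -1) (by decide) (by decide) (by decide) (by decide)
      (by decide) (by decide) (by decide) (by decide) (f3 (by decide) (by decide) (by decide))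
  · exact short (a := 1) (b := 4) (c := 0) (C₁ := 1) (C₂ := 1) (by decide) (by decide) (by decide) (by decide)
      (by decide) (by decide) (by decide) (by decide) (f3 (by decide) (by decide) (by decide))
  · exact long (a := 1) (b := 7) (c := 5) (C₁ := -1) (C₂ := 1) (by decide) (by decide) (by decide) (by decide)
      (by decide) (by decide) (by decide) (by decide) (f3 (by decide) (by decide) (by decide))
  · exact long (a := 6) (b := 0) (c := 2) (C₁ := 1) (C₂ := 1) (by decide) (by decide) (by decide) (by decide)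
      (by decide) (by decide) (by decide) (by decide) (f3 (by decide) (by decide) (by decide))
  · exact short (a := 1) (b := 7) (c := 3) (C₁ := -1) (C₂ := 1) (by decide) (by decide) (by decide) (by decide)
      (by decide) (by decide) (by decide) (by decide) (f3 (by decide) (by decide) (by decide))
  · exact short (a := 2) (b := 7) (c := 4) (C₁ := 1) (C₂ := -1) (by decide) (by decide) (by decide) (by decide)
      (by decide) (by decide) (by decide) (by decide) (f3 (by decide) (by decide) (by decide))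
  · exact long (a := 5) (b := 4) (c := 6) (C₁ := -1) (C₂ := -1) (by decide) (by decide) (by decide) (by decide)
      (by decide) (by decide) (by decide) (by decide) (f3 (by decide) (by decide) (by decide))

/-- Characteristic two, some `c² ≠ 1`. -/
theorem exists_section_two (h2 : (2 : K) = 0) {c : K} (hc0 : c ≠ 0) (hc2 : c ^ 2 ≠ 1)
    (hsurj : Function.Surjective π) (hc : π.ker ≤ Subgroup.center E) :
    ∃ τ : chevB2.SteinbergCover K →* E, π.comp τ = MonoidHom.id _ := by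
  have hperf : commutator (chevB2.SteinbergCover K) = ⊤ :=
    Cfsg.Agent.S2395.result chevB2 inList fun _ => ⟨c, hc0, fun h => hc2 (by rw [h, one_pow])⟩
  refine exists_section_of_act inList hsurj hc hperf ?_ (fun s hs => ab_two h2 hc0 hc2 hsurj hc hs) ?_
  · intro s hs
    obtain ⟨h, H⟩ := exists_act inList (co chevB2 s) hc0
    refine ⟨h, _, H, ?_⟩
    show c ^ lin chevB2 (co chevB2 s) s ≠ 1
    rw [lin_co, (RootComb.good_of_mem inList).car_self hs]
    exact_mod_cast hc2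
  · intro r s hr hs hsr hsn
    obtain ⟨m, hm0, hm2⟩ := exists_tor2 hr hs hsr hsn
    obtain ⟨h, H⟩ := exists_act inList m hc0
    refine ⟨h, _, H, ?_, ?_⟩
    · show c ^ lin chevB2 m r = 1
      rw [hm0, zpow_zero]
    · show c ^ lin chevB2 m s ≠ 1
      rw [hm2]
      exact_mod_cast hc2

end two

end Cfsg.Agent.H134.SmallB2
end

-- part: H134/B2Three
section
/-!
# Central extensions of the group presented by (R1), (R2) of type `B₂` over the field with three elements
-/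

set_option autoImplicit false

namespace Cfsg.Agent.H134.B2Three

open Cfsg.Lie Cfsg.Agent.ChevalleyStructure Cfsg.Agent.ChevalleyStructure.Elts
  Cfsg.Agent.ChevalleyStructure.St.Functional Cfsg.Agent.ChevalleyStructure.RootCombGood
  Cfsg.Agent.H133.ScRels Cfsg.Agent.H133.ScTheta Cfsg.Agent.H134.FamInj Cfsg.Agent.H134.LiftStep
  Cfsg.Agent.H134.Lift Cfsg.Agent.H134.LiftMain Cfsg.Agent.H134.LiftMore Cfsg.Agent.H134.Universal
  Cfsg.Agent.H134.SmallD4
open Cfsg.Agent.ChevalleyStructure.St.Conj (lin lin_def lin_comb lin_neg Tab)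
open Cfsg.Agent.H134.PairFacts (dot dot_eq lin_co)
open Cfsg.Agent.H134.SmallB2 (fn lin_fn)

open scoped commutatorElement

universe u v w

/-- long roots -/
def Long (s : ℕ) : Prop := s = 0 ∨ s = 3 ∨ s = 4 ∨ s = 7
/-- short roots -/
def Short (s : ℕ) : Prop := s = 1 ∨ s = 2 ∨ s = 5 ∨ s = 6

instance (s : ℕ) : Decidable (Long s) := inferInstanceAs (Decidable (_ ∨ _))
instance (s : ℕ) : Decidable (Short s) := inferInstanceAs (Decidable (_ ∨ _))

theorem Long.lt {s : ℕ} (h : Long s) : s < 8 := by rcases h with rfl | rfl | rfl | rfl <;> norm_num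
theorem Short.lt {s : ℕ} (h : Short s) : s < 8 := by rcases h with rfl | rfl | rfl | rfl <;> norm_num

section

variable {K : Type u} [Field K] (h2 : (2 : K) ≠ 0) (h3 : (3 : K) = 0) (hall : ∀ t : K, t = 0 ∨ t = 1 ∨ t = -1)
  {E : Type v} [Group E] {π : E →* chevB2.SteinbergCover K} (hsurj : Function.Surjective π)
  (hc : π.ker ≤ Subgroup.center E)

/-- The scalars of the torus element. -/
noncomputable def sg (K : Type u) [Field K] : ℕ → K := fun s => (-1 : K) ^ lin chevB2 (fn 0 1) s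

theorem sg_short {s : ℕ} (h : Short s) : sg K s = -1 := by
  unfold sg
  rw [lin_fn]
  have h1 : 0 * chevB2.cartan 0 s + 1 * chevB2.cartan 1 s = 1 ∨ 0 * chevB2.cartan 0 s + 1 * chevB2.cartan 1 s = -1 := by
    rcases h with rfl | rfl | rfl | rfl <;> decide
  rcases h1 with h1 | h1 <;> rw [h1]
  · rw [zpow_one]
  · rw [zpow_neg_one, inv_neg, inv_one]

theorem sg_long {s : ℕ} (h : Long s) : sg K s = 1 := by
  unfold sg
  rw [lin_fn]
  have h1 : 0 * chevB2.cartan 0 s + 1 * chevB2.cartan 1 s = 2 ∨ 0 * chevB2.cartan 0 s + 1 * chevB2.cartan 1 s = -2 ∨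
      0 * chevB2.cartan 0 s + 1 * chevB2.cartan 1 s = 0 := by
    rcases h with rfl | rfl | rfl | rfl <;> decide
  rcases h1 with h1 | h1 | h1 <;> rw [h1]
  · norm_num
  · rw [zpow_neg]; norm_num
  · norm_num

theorem exists_sg : ∃ h : chevB2.SteinbergCover K, Act h (sg K) :=
  exists_act SmallB2.inList (fn 0 1) (neg_ne_zero.2 one_ne_zero)

include h2 in
theorem m1_ne : (-1 : K) ≠ 1 := fun h => h2 (by linear_combination -h)

include hsurj hc hall in
/-- The preimage of a root subgroup is abelian. -/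
theorem ab (s : ℕ) : Ab chevB2 π s := by
  have hcomm : ∀ t u : K, chevB2.scGen K s t * chevB2.scGen K s u = chevB2.scGen K s u * chevB2.scGen K s t := by
    intro t u
    rw [scGen_add', scGen_add', add_comm]
  have h1 : B hsurj (chevB2.scGen K s 1) (chevB2.scGen K s 1) = 1 := by
    unfold B
    rw [commutatorElement_self]
  intro p q t u hp hq
  exact (B_eq_one_iff hsurj hc).1 (B_of_one hsurj hc hall hcomm h1 t u) p q hp hq

include hsurj hc h2 in
/-- Lifts of long and short root elements at 45 degrees commute. -/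
theorem comm45 {s a : ℕ} (hs : Long s) (ha : Short a) (h : a ≠ s ∧ a ≠ chevB2.neg s ∧ chevB2.commTerms s a = [])
    {p q : E} {t u : K} (hp : π p = chevB2.scGen K s t) (hq : π q = chevB2.scGen K a u) : p * q = q * p := by
  obtain ⟨g, H⟩ := exists_sg (K := K)
  exact commute_of_act hsurj hc hs.lt ha.lt (fun t u => comm_of_nil hs.lt ha.lt h.1 h.2.1 h.2.2 t u) H (sg_long hs)
    (by rw [sg_short ha]; exact m1_ne h2) hp hq

/-- Lifts of the short root elements. -/
noncomputable def z (hsurj : Function.Surjective π) (s : ℕ) (u : K) : E :=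
  yy hsurj (fun _ => (exists_sg (K := K)).choose) (fun _ => sg K) s u

include h2 in
theorem map_z {s : ℕ} (hs : Short s) (u : K) : π (z hsurj s u) = chevB2.scGen K s u :=
  LiftMore.map_yy hsurj _ _ (exists_sg (K := K)).choose_spec (by rw [sg_short hs]; exact m1_ne h2) hs.lt u

include h2 hc hall in
theorem z_add {s : ℕ} (hs : Short s) (t u : K) : z hsurj s t * z hsurj s u = z hsurj s (t + u) :=
  LiftMore.yy_add hsurj hc _ _ (exists_sg (K := K)).choose_spec (by rw [sg_short hs]; exact m1_ne h2) hs.lt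
    (ab hall hsurj hc s) t u

/-- The commutator of lifts. -/
noncomputable def F (hsurj : Function.Surjective π) (a b : ℕ) (t u : K) : E :=
  (z hsurj b u)⁻¹ * (z hsurj a t)⁻¹ * z hsurj b u * z hsurj a t

/-- Orthogonal short roots `a`, `b` and the long root `s = a + b`. -/
structure Tri (a b s : ℕ) : Prop where
  ha : Short a
  hb : Short b
  hs : Long s
  ab : b ≠ a ∧ b ≠ chevB2.neg a
  ba : a ≠ chevB2.neg b
  t1 : chevB2.commTerms a b = [(s, 2, 1, 1)]
  t2 : chevB2.commTerms b a = [(s, -2, 1, 1)]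
  sa : a ≠ s ∧ a ≠ chevB2.neg s ∧ chevB2.commTerms s a = [] ∧ chevB2.commTerms a s = []
  sb : b ≠ s ∧ b ≠ chevB2.neg s ∧ chevB2.commTerms s b = [] ∧ chevB2.commTerms b s = []

variable {a b s : ℕ} (T : Tri a b s)

include h2 h3 T in
theorem map_F (t u : K) : π (F hsurj a b t u) = chevB2.scGen K s (t * u) := by
  unfold F
  rw [map_mul, map_mul, map_mul, map_inv, map_inv, map_z h2 hsurj T.ha, map_z h2 hsurj T.hb]
  have h1 := scGen_comm (K := K) (D := chevB2) T.ha.lt T.hb.lt T.ab.1 T.ab.2 t u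
  rw [h1]
  show word chevB2 K ((chevB2.commTerms a b).map fun c => (c.1, (c.2.1 : K) * (-t) ^ c.2.2.1 * u ^ c.2.2.2)) = _
  rw [T.t1, List.map_cons, List.map_nil, word_cons, word_nil, mul_one]
  congr 1
  show ((2 : ℤ) : K) * (-t) ^ 1 * u ^ 1 = t * u
  push_cast
  linear_combination -(t * u) * h3

include h2 h3 T hc in
theorem F_comm_a (t u v : K) : F hsurj a b t u * z hsurj a v = z hsurj a v * F hsurj a b t u :=
  comm45 h2 hsurj hc T.hs T.ha ⟨T.sa.1, T.sa.2.1, T.sa.2.2.1⟩ (map_F h2 h3 hsurj T t u) (map_z h2 hsurj T.ha v)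

include h2 h3 T hc in
theorem F_comm_b (t u v : K) : F hsurj a b t u * z hsurj b v = z hsurj b v * F hsurj a b t u :=
  comm45 h2 hsurj hc T.hs T.hb ⟨T.sb.1, T.sb.2.1, T.sb.2.2.1⟩ (map_F h2 h3 hsurj T t u) (map_z h2 hsurj T.hb v)

include h2 h3 T hc hall in
theorem F_add_right (t u u' : K) : F hsurj a b t (u + u') = F hsurj a b t u * F hsurj a b t u' := by
  have h1 : F hsurj a b t (u + u') =
      (z hsurj b u')⁻¹ * F hsurj a b t u * (z hsurj a t)⁻¹ * z hsurj b u' * z hsurj a t := by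
    unfold F
    rw [← z_add h2 hall hsurj hc T.hb]
    group
  have h4 : (z hsurj b u')⁻¹ * F hsurj a b t u = F hsurj a b t u * (z hsurj b u')⁻¹ := by
    rw [inv_mul_eq_iff_eq_mul, ← mul_assoc, ← F_comm_b h2 h3 hsurj hc T, mul_inv_cancel_right]
  rw [h1, h4]
  unfold F
  group

include h2 h3 T hc hall in
theorem F_add_left (t t' u : K) : F hsurj a b (t + t') u = F hsurj a b t u * F hsurj a b t' u := by
  have h1 : F hsurj a b (t + t') u =
      (z hsurj b u)⁻¹ * (z hsurj a t')⁻¹ * z hsurj b u * F hsurj a b t u * z hsurj a t' := by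
    unfold F
    rw [← z_add h2 hall hsurj hc T.ha]
    group
  rw [h1, mul_assoc, F_comm_a h2 h3 hsurj hc T, ← mul_assoc]
  -- (z b u)⁻¹ (z a t')⁻¹ z b u z a t' * F t u
  have h5 : (z hsurj b u)⁻¹ * (z hsurj a t')⁻¹ * z hsurj b u * z hsurj a t' = F hsurj a b t' u := rfl
  rw [h5]
  -- commute
  have h6 : F hsurj a b t' u * F hsurj a b t u = F hsurj a b t u * F hsurj a b t' u :=
    ab hall hsurj hc s _ _ _ _ (map_F h2 h3 hsurj T t' u) (map_F h2 h3 hsurj T t u)
  exact h6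

include h2 h3 T hc hall in
/-- The commutator depends on the product of the parameters. -/
theorem F_eq (t u : K) : F hsurj a b t u = F hsurj a b 1 (t * u) := by
  have l0 : ∀ u, F hsurj a b 0 u = 1 := by
    intro u
    have h := F_add_left h2 h3 hall hsurj hc T 0 0 u
    rw [add_zero] at h
    exact left_eq_mul.1 h
  have r0 : ∀ t, F hsurj a b t 0 = 1 := by
    intro t
    have h := F_add_right h2 h3 hall hsurj hc T t 0 0
    rw [add_zero] at h
    exact left_eq_mul.1 h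
  rcases hall t with rfl | rfl | rfl
  · rw [zero_mul, l0, r0]
  · rw [one_mul]
  · have h5 := F_add_left h2 h3 hall hsurj hc T 1 (-1) u
    have h6 := F_add_right h2 h3 hall hsurj hc T 1 u (-u)
    rw [add_neg_cancel, l0] at h5
    rw [add_neg_cancel, r0] at h6
    rw [neg_one_mul]
    exact mul_left_cancel (h5.symm.trans h6)

/-- The lifts. -/
noncomputable def y (hsurj : Function.Surjective π) (s : ℕ) (u : K) : E :=
  if s = 0 then F hsurj 1 2 1 u else if s = 3 then F hsurj 5 1 1 u else if s = 4 then F hsurj 6 2 1 u else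
    if s = 7 then F hsurj 5 6 1 u else z hsurj s u

theorem y_short {s : ℕ} (hs : Short s) (u : K) : y hsurj s u = z hsurj s u := by
  rcases hs with rfl | rfl | rfl | rfl <;> rfl

theorem tri0 : Tri 1 2 0 := by constructor <;> decide
theorem tri3 : Tri 5 1 3 := by constructor <;> decide
theorem tri4 : Tri 6 2 4 := by constructor <;> decide
theorem tri7 : Tri 5 6 7 := by constructor <;> decide

theorem y_long {s : ℕ} (hs : Long s) : ∃ a b, Tri a b s ∧ ∀ u : K, y hsurj s u = F hsurj a b 1 u := by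
  rcases hs with rfl | rfl | rfl | rfl
  · exact ⟨1, 2, tri0, fun u => rfl⟩
  · exact ⟨5, 1, tri3, fun u => rfl⟩
  · exact ⟨6, 2, tri4, fun u => rfl⟩
  · exact ⟨5, 6, tri7, fun u => rfl⟩

theorem cases8 {s : ℕ} (hs : s < 8) : Long s ∨ Short s := by
  interval_cases s <;> decide

include h2 h3 in
theorem map_y {s : ℕ} (hs : s < 8) (u : K) : π (y hsurj s u) = chevB2.scGen K s u := by
  rcases cases8 hs with h | h
  · obtain ⟨a, b, T, hT⟩ := y_long hsurj h (K := K)
    rw [hT, map_F h2 h3 hsurj T, one_mul]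
  · rw [y_short hsurj h, map_z h2 hsurj h]

include h2 h3 hall hc in
theorem y_add {s : ℕ} (hs : s < 8) (t u : K) : y hsurj s t * y hsurj s u = y hsurj s (t + u) := by
  rcases cases8 hs with h | h
  · obtain ⟨a, b, T, hT⟩ := y_long hsurj h (K := K)
    rw [hT, hT, hT, ← F_add_right h2 h3 hall hsurj hc T]
  · rw [y_short hsurj h, y_short hsurj h, y_short hsurj h, z_add h2 hall hsurj hc h]

/-- A commutator of lifts of the two short roots of a triple: any choice of lifts. -/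
theorem F_eq_y {a b s : ℕ} (T : Tri a b s) (hT : ∀ u : K, y hsurj s u = F hsurj a b 1 u) (t u : K)
    (h2 : (2 : K) ≠ 0) (h3 : (3 : K) = 0) (hall : ∀ t : K, t = 0 ∨ t = 1 ∨ t = -1) (hc : π.ker ≤ Subgroup.center E) :
    F hsurj a b t u = y hsurj s (t * u) := by
  rw [F_eq h2 h3 hall hsurj hc T, hT]

include h2 h3 hall hc in
theorem y_inv {s : ℕ} (hs : s < 8) (t : K) : (y hsurj s t)⁻¹ = y hsurj s (-t) := by
  have h0 : y hsurj s (0 : K) = 1 := by
    have h := y_add h2 h3 hall hsurj hc hs 0 0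
    rw [add_zero] at h
    exact mul_eq_left.1 h
  have h1 := y_add h2 h3 hall hsurj hc hs t (-t)
  rw [add_neg_cancel, h0] at h1
  exact inv_eq_of_mul_eq_one_right h1

include h2 h3 hall hc in
/-- (R2) for orthogonal short roots. -/
theorem rel_ab {a b s : ℕ} (T : Tri a b s) (hT : ∀ u : K, y hsurj s u = F hsurj a b 1 u) :
    Rel2 chevB2 (y (K := K) hsurj) a b ∧ Rel2 chevB2 (y (K := K) hsurj) b a := by
  constructor
  · intro t u
    have h1 : (y hsurj a t)⁻¹ * y hsurj b u * y hsurj a t = y hsurj b u * F hsurj a b t u := by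
      rw [y_short hsurj T.ha, y_short hsurj T.hb]
      unfold F
      group
    rw [h1, F_eq_y hsurj T hT t u h2 h3 hall hc]
    congr 1
    show _ = wordF (y hsurj) ((chevB2.commTerms a b).map fun c => (c.1, (c.2.1 : K) * (-t) ^ c.2.2.1 * u ^ c.2.2.2))
    rw [T.t1, List.map_cons, List.map_nil, wordF_cons, wordF_nil, mul_one]
    congr 1
    show t * u = ((2 : ℤ) : K) * (-t) ^ 1 * u ^ 1
    push_cast
    linear_combination (t * u) * h3
  · intro t u
    have h1 : (y hsurj b t)⁻¹ * y hsurj a u * y hsurj b t = y hsurj a u * (F hsurj a b u t)⁻¹ := by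
      rw [y_short hsurj T.ha, y_short hsurj T.hb]
      unfold F
      group
    rw [h1, F_eq_y hsurj T hT u t h2 h3 hall hc]
    congr 1
    show _ = wordF (y hsurj) ((chevB2.commTerms b a).map fun c => (c.1, (c.2.1 : K) * (-t) ^ c.2.2.1 * u ^ c.2.2.2))
    rw [T.t2, List.map_cons, List.map_nil, wordF_cons, wordF_nil, mul_one, y_inv h2 h3 hall hsurj hc T.hs.lt]
    congr 1
    show -(u * t) = ((-2 : ℤ) : K) * (-t) ^ 1 * u ^ 1
    push_cast
    linear_combination -(t * u) * h3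

variable (hperf : commutator (chevB2.SteinbergCover K) = ⊤)

include h2 h3 hall hc hperf in
/-- The torus element acts on the lifts. -/
theorem exists_torus : ∃ g : E, ∀ q < 8, ∀ u : K, g * y hsurj q u * g⁻¹ = y hsurj q (sg K q * u) := by
  obtain ⟨h, H⟩ := exists_sg (K := K)
  obtain ⟨g, rfl⟩ := hsurj h
  have hz : ∀ {q : ℕ}, Short q → ∀ u : K, g * z hsurj q u * g⁻¹ = z hsurj q (-u) := by
    intro q hq u
    have h1 := LiftMore.conj_yy hsurj hc hperf (fun _ => (exists_sg (K := K)).choose) (fun _ => sg K) (s := q)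
      (exists_sg (K := K)).choose_spec hq.lt u H
    rw [sg_short hq, neg_one_mul] at h1
    exact h1
  refine ⟨g, fun q hq u => ?_⟩
  rcases cases8 hq with h | h
  · obtain ⟨a, b, T, hT⟩ := y_long hsurj h (K := K)
    rw [sg_long h, one_mul, hT]
    have h1 : g * F hsurj a b 1 u * g⁻¹ = F hsurj a b (-1) (-u) := by
      unfold F
      rw [← hz T.ha 1, ← hz T.hb u]
      group
    rw [h1, F_eq h2 h3 hall hsurj hc T]
    congr 1
    ring
  · rw [y_short hsurj h, y_short hsurj h, hz h, sg_short h, neg_one_mul]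

include h2 h3 hc in
/-- (R2) for pairs without terms, one long and one short. -/
theorem rel45 {s a : ℕ} (hs : Long s) (ha : Short a)
    (h : a ≠ s ∧ a ≠ chevB2.neg s ∧ chevB2.commTerms s a = [] ∧ chevB2.commTerms a s = []) :
    Rel2 chevB2 (y (K := K) hsurj) s a ∧ Rel2 chevB2 (y (K := K) hsurj) a s := by
  have hcomm : ∀ t u : K, y hsurj s t * y hsurj a u = y hsurj a u * y hsurj s t := fun t u =>
    comm45 h2 hsurj hc hs ha ⟨h.1, h.2.1, h.2.2.1⟩ (map_y h2 h3 hsurj hs.lt t) (map_y h2 h3 hsurj ha.lt u)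
  exact ⟨rel2_of_nil h.2.2.1 hcomm, rel2_of_nil h.2.2.2 fun t u => (hcomm u t).symm⟩

include h2 h3 hall hc in
/-- (R2) for two orthogonal short roots. -/
theorem relss {a b : ℕ} (ha : Short a) (hb : Short b) (h1 : b ≠ a) (h1' : b ≠ chevB2.neg a) :
    Rel2 chevB2 (y (K := K) hsurj) a b := by
  have r0 := rel_ab h2 h3 hall hsurj hc tri0 (fun u => rfl)
  have r3 := rel_ab h2 h3 hall hsurj hc tri3 (fun u => rfl)
  have r4 := rel_ab h2 h3 hall hsurj hc tri4 (fun u => rfl)
  have r7 := rel_ab h2 h3 hall hsurj hc tri7 (fun u => rfl)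
  rcases ha with rfl | rfl | rfl | rfl <;> rcases hb with rfl | rfl | rfl | rfl <;>
    first
      | exact absurd rfl h1
      | exact absurd (by decide) h1'
      | exact r0.1
      | exact r0.2
      | exact r3.1
      | exact r3.2
      | exact r4.1
      | exact r4.2
      | exact r7.1
      | exact r7.2

/-- `r` long, `s` short, `a = r + s`, `b = r + 2s`. -/
structure Q (r s a b : ℕ) (x x' : ℤ) : Prop where
  hr : Long r
  hs : Short s
  ha : Short a
  hb : Long b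
  rs : s ≠ r ∧ s ≠ chevB2.neg r ∧ r ≠ s ∧ r ≠ chevB2.neg s
  sa : a ≠ s ∧ a ≠ chevB2.neg s
  ba : a ≠ b ∧ a ≠ chevB2.neg b ∧ chevB2.commTerms b a = [] ∧ chevB2.commTerms a b = []
  bs : s ≠ b ∧ s ≠ chevB2.neg b ∧ chevB2.commTerms b s = [] ∧ chevB2.commTerms s b = []
  t1 : ∀ c ∈ chevB2.commTerms r s, c.1 = a ∨ c.1 = b
  t2 : ∀ c ∈ chevB2.commTerms s r, c.1 = a ∨ c.1 = b
  t3 : ∀ c ∈ chevB2.commTerms s a, c.1 = a ∨ c.1 = b
  pa : 0 < x * chevB2.cartan 0 a + x' * chevB2.cartan 1 a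
  pb : 0 < x * chevB2.cartan 0 b + x' * chevB2.cartan 1 b

include h2 h3 hall hc hperf in
/-- (R2) for a long and a short root at 135 degrees. -/
theorem rel135 {r s a b : ℕ} {x x' : ℤ} (W : Q r s a b x x') :
    Rel2 chevB2 (y (K := K) hsurj) r s ∧ Rel2 chevB2 (y (K := K) hsurj) s r := by
  obtain ⟨m0, T⟩ := St.TabAll.exists_tab SmallB2.inList
  have hf : Fun chevB2 (lin chevB2 (fn x x')) := T.fun_lin (fn x x')
  have L := setup (y := y (K := K) hsurj) SmallB2.inList hc (fun r t hr => map_y h2 h3 hsurj hr t)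
    (fun r hr t u => y_add h2 h3 hall hsurj hc hr t u)
  obtain ⟨g, hg⟩ := exists_torus h2 h3 hall hsurj hc hperf
  have hpos : ∀ q < chevB2.nroots, (q = a ∨ q = b) → 0 < lin chevB2 (fn x x') q := by
    rintro q - (rfl | rfl)
    · rw [lin_fn]; exact W.pa
    · rw [lin_fn]; exact W.pb
  have hcl : Closed chevB2 (fun q => q = a ∨ q = b) := by
    rintro q q' - - (rfl | rfl) (rfl | rfl) hne c hcm
    · exact absurd rfl hne
    · rw [W.ba.2.2.2] at hcm; exact absurd hcm List.not_mem_nil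
    · rw [W.ba.2.2.1] at hcm; exact absurd hcm List.not_mem_nil
    · exact absurd rfl hne
  have hrel : ∀ r s, r < chevB2.nroots → s < chevB2.nroots → s ≠ r → (r = a ∨ r = b) → (s = a ∨ s = b) →
      Rel2 chevB2 (y (K := K) hsurj) r s := by
    rintro q q' - - hne (rfl | rfl) (rfl | rfl)
    · exact absurd rfl hne
    · exact (rel45 h2 h3 hsurj hc W.hb W.ha W.ba).2
    · exact (rel45 h2 h3 hsurj hc W.hb W.ha W.ba).1
    · exact absurd rfl hne
  have h1 : Rel2 chevB2 (y (K := K) hsurj) r s := by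
    refine L.rel2_step hf (S := fun q => q = a ∨ q = b) hpos hcl hrel W.hr.lt W.hs.lt W.rs.1 W.rs.2.1 W.t1 ?_ ?_ ?_
    · rintro q - (rfl | rfl) c hcm
      · exact W.t3 c hcm
      · rw [W.bs.2.2.2] at hcm; exact absurd hcm List.not_mem_nil
    · rintro q - (rfl | rfl)
      · exact relss h2 h3 hall hsurj hc W.hs W.ha W.sa.1 W.sa.2
      · exact (rel45 h2 h3 hsurj hc W.hb W.hs W.bs).2
    · left
      exact ⟨g, sg K, hg, sg_long W.hr, by rw [sg_short W.hs]; exact m1_ne h2⟩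
  exact ⟨h1, L.rel2_symm hf (S := fun q => q = a ∨ q = b) hpos hcl hrel W.hs.lt W.hr.lt W.rs.2.2.1 W.rs.2.2.2
    W.t2 W.t1 h1⟩

include h2 h3 hall hc hperf in
/-- Orthogonal long roots. -/
theorem relll {s₂ b a s₁ : ℕ} {x x' : ℤ} (W : Q s₂ b a s₁ x x') {C : ℤ} (hC : C = 2 ∨ C = -2)
    (h1 : chevB2.commTerms a b = [(s₁, C, 1, 1)]) (hab : b ≠ a ∧ b ≠ chevB2.neg a)
    (h4 : a ≠ s₂ ∧ a ≠ chevB2.neg s₂ ∧ chevB2.commTerms s₂ a = [])
    (h5 : chevB2.commTerms s₂ b = [(a, (chevB2.commTerms s₂ b).head!.2.1, 1, 1),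
      (s₁, (chevB2.commTerms s₂ b).getLast!.2.1, 1, 2)])
    (h6 : chevB2.commTerms s₁ s₂ = [] ∧ chevB2.commTerms s₂ s₁ = []) :
    Rel2 chevB2 (y (K := K) hsurj) s₁ s₂ ∧ Rel2 chevB2 (y (K := K) hsurj) s₂ s₁ := by
  have hcomm : ∀ t v : K, y hsurj s₁ t * y hsurj s₂ v = y hsurj s₂ v * y hsurj s₁ t := by
    intro t v
    obtain ⟨u, hu⟩ : ∃ u : K, (C : K) * (-1) ^ 1 * u ^ 1 = t := by
      rcases hC with rfl | rfl
      · exact ⟨t, by push_cast; linear_combination -t * h3⟩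
      · exact ⟨-t, by push_cast; linear_combination -t * h3⟩
    have e1 : (y hsurj a 1)⁻¹ * y hsurj b u * y hsurj a 1 = y hsurj b u * y hsurj s₁ t := by
      have h := relss h2 h3 hall hsurj hc W.ha W.hs hab.1 hab.2 1 u
      rw [h]
      congr 1
      show wordF (y hsurj) ((chevB2.commTerms a b).map fun c => (c.1, (c.2.1 : K) * (-1) ^ c.2.2.1 * u ^ c.2.2.2)) = _
      rw [h1, List.map_cons, List.map_nil, wordF_cons, wordF_nil, mul_one]
      show y hsurj s₁ ((C : K) * (-1) ^ 1 * u ^ 1) = _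
      rw [hu]
    have e2 : (y hsurj s₂ v)⁻¹ * y hsurj a 1 * y hsurj s₂ v = y hsurj a 1 := by
      have h := comm45 h2 hsurj hc W.hr W.ha h4 (map_y h2 h3 hsurj W.hr.lt v) (map_y h2 h3 hsurj W.ha.lt (1 : K))
      rw [mul_assoc, ← h, inv_mul_cancel_left]
    obtain ⟨α, β, e3⟩ : ∃ α β : K, (y hsurj s₂ v)⁻¹ * y hsurj b u * y hsurj s₂ v =
        y hsurj b u * (y hsurj a α * y hsurj s₁ β) := by
      have h := (rel135 h2 h3 hall hsurj hc hperf W).1 v u
      have h' : wordF (y (K := K) hsurj) (chevB2.commWord K s₂ b v u) = wordF (y hsurj) ((chevB2.commTerms s₂ b).map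
        fun c => (c.1, (c.2.1 : K) * (-v) ^ c.2.2.1 * u ^ c.2.2.2)) := rfl
      rw [h', h5, List.map_cons, List.map_cons, List.map_nil, wordF_cons, wordF_cons, wordF_nil, mul_one] at h
      exact ⟨_, _, h⟩
    set X := y hsurj a (1 : K) with hX
    set U := y hsurj b u with hU
    set g := y hsurj s₂ v with hg
    set Z := y hsurj a α * y hsurj s₁ β with hZ
    have hs1a : ∀ t v : K, y hsurj s₁ t * y hsurj a v = y hsurj a v * y hsurj s₁ t := fun t v =>
      comm45 h2 hsurj hc W.hb W.ha ⟨W.ba.1, W.ba.2.1, W.ba.2.2.1⟩ (map_y h2 h3 hsurj W.hb.lt t)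
        (map_y h2 h3 hsurj W.ha.lt v)
    have hab' : ∀ q < 8, ∀ t v : K, y hsurj q t * y hsurj q v = y hsurj q v * y hsurj q t := by
      intro q hq t v
      rw [y_add h2 h3 hall hsurj hc hq, y_add h2 h3 hall hsurj hc hq, add_comm]
    have zX : Z * X = X * Z := by
      rw [hZ, hX, mul_assoc, hs1a, ← mul_assoc, hab' a W.ha.lt, mul_assoc]
    have zs : Z * y hsurj s₁ t = y hsurj s₁ t * Z := by
      rw [hZ, mul_assoc, hab' s₁ W.hb.lt, ← mul_assoc, ← hs1a, mul_assoc]
    have e4 : y hsurj s₁ t = U⁻¹ * X⁻¹ * U * X := by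
      calc y hsurj s₁ t = U⁻¹ * (U * y hsurj s₁ t) := by group
        _ = U⁻¹ * X⁻¹ * U * X := by rw [← e1]; group
    have e5 : g⁻¹ * y hsurj s₁ t * g = y hsurj s₁ t := by
      calc g⁻¹ * y hsurj s₁ t * g = (g⁻¹ * U * g)⁻¹ * (g⁻¹ * X * g)⁻¹ * (g⁻¹ * U * g) * (g⁻¹ * X * g) := by
            rw [e4]; group
        _ = (U * Z)⁻¹ * X⁻¹ * (U * Z) * X := by rw [e2, e3]
        _ = Z⁻¹ * (U⁻¹ * X⁻¹ * U * X) * Z := by
            have : (U * Z)⁻¹ * X⁻¹ * (U * Z) * X = Z⁻¹ * U⁻¹ * X⁻¹ * U * (Z * X) := by group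
            rw [this, zX]; group
        _ = y hsurj s₁ t := by
            rw [← e4, mul_assoc, ← zs, inv_mul_cancel_left]
    calc y hsurj s₁ t * g = g * (g⁻¹ * y hsurj s₁ t * g) := by group
      _ = g * y hsurj s₁ t := by rw [e5]
  exact ⟨rel2_of_nil h6.1 hcomm, rel2_of_nil h6.2 fun t u => (hcomm u t).symm⟩

theorem q05 : Q 0 5 1 3 (-1) (-2) := by constructor <;> decide
theorem q06 : Q 0 6 2 4 (-1) 0 := by constructor <;> decide
theorem q32 : Q 3 2 1 0 (-1) (-2) := by constructor <;> decide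
theorem q36 : Q 3 6 5 7 1 0 := by constructor <;> decide
theorem q41 : Q 4 1 2 0 (-1) 0 := by constructor <;> decide
theorem q45 : Q 4 5 6 7 1 2 := by constructor <;> decide
theorem q71 : Q 7 1 5 3 1 0 := by constructor <;> decide
theorem q72 : Q 7 2 6 4 1 2 := by constructor <;> decide

include h2 h3 hall hsurj hc in
/-- **Central extensions of the group of type `B₂` over the field of three elements split.** -/
theorem exists_section : ∃ τ : chevB2.SteinbergCover K →* E, π.comp τ = MonoidHom.id _ := by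
  have hperf : commutator (chevB2.SteinbergCover K) = ⊤ :=
    Cfsg.Agent.S2395.result chevB2 SmallB2.inList fun _ => ⟨-1, neg_ne_zero.2 one_ne_zero, m1_ne h2⟩
  refine LiftMain.exists_section SmallB2.inList (fun r t hr => map_y h2 h3 hsurj hr t)
    (fun r hr t u => y_add h2 h3 hall hsurj hc hr t u) ?_
  intro r s hr hs hsr hsn
  have r0 := relll h2 h3 hall hsurj hc hperf q05 (C := -2) (Or.inr rfl) (by decide) (by decide) (by decide)
    (by decide) (by decide)
  have r1 := relll h2 h3 hall hsurj hc hperf q06 (C := -2) (Or.inr rfl) (by decide) (by decide) (by decide)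
    (by decide) (by decide)
  have r2 := relll h2 h3 hall hsurj hc hperf q71 (C := 2) (Or.inl rfl) (by decide) (by decide) (by decide)
    (by decide) (by decide)
  have r3 := relll h2 h3 hall hsurj hc hperf q72 (C := 2) (Or.inl rfl) (by decide) (by decide) (by decide)
    (by decide) (by decide)
  have p0 := rel135 h2 h3 hall hsurj hc hperf q05
  have p1 := rel135 h2 h3 hall hsurj hc hperf q06
  have p2 := rel135 h2 h3 hall hsurj hc hperf q32
  have p3 := rel135 h2 h3 hall hsurj hc hperf q36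
  have p4 := rel135 h2 h3 hall hsurj hc hperf q41
  have p5 := rel135 h2 h3 hall hsurj hc hperf q45
  have p6 := rel135 h2 h3 hall hsurj hc hperf q71
  have p7 := rel135 h2 h3 hall hsurj hc hperf q72
  rcases cases8 hr with hr' | hr' <;> rcases cases8 hs with hs' | hs'
  · rcases hr' with rfl | rfl | rfl | rfl <;> rcases hs' with rfl | rfl | rfl | rfl <;>
    first
      | exact absurd rfl hsr
      | exact absurd (by decide) hsn
      | exact r0.1
      | exact r0.2
      | exact r1.1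
      | exact r1.2
      | exact r2.1
      | exact r2.2
      | exact r3.1
      | exact r3.2
  · rcases hr' with rfl | rfl | rfl | rfl <;> rcases hs' with rfl | rfl | rfl | rfl <;>
    first
      | exact p0.1
      | exact p1.1
      | exact p2.1
      | exact p3.1
      | exact p4.1
      | exact p5.1
      | exact p6.1
      | exact p7.1
      | exact (rel45 h2 h3 hsurj hc (by decide) (by decide) (by decide)).1
  · rcases hr' with rfl | rfl | rfl | rfl <;> rcases hs' with rfl | rfl | rfl | rfl <;>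
    first
      | exact p0.2
      | exact p1.2
      | exact p2.2
      | exact p3.2
      | exact p4.2
      | exact p5.2
      | exact p6.2
      | exact p7.2
      | exact (rel45 h2 h3 hsurj hc (by decide) (by decide) (by decide)).2
  · exact relss h2 h3 hall hsurj hc hr' hs' hsr hsn

end

end Cfsg.Agent.H134.B2Three
end

-- part: S2400
section
set_option autoImplicit false
open Cfsg

namespace Cfsg.Agent.S2400

open Cfsg.Lie Cfsg.Agent.KFacts.Mult.Calc

universe u

/-- A field with more than two elements. -/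
theorem exists_elt {K : Type*} [Field K] [Fintype K] (hK : Fintype.card K ≠ 2) : ∃ x : K, x ≠ 0 ∧ x ≠ 1 := by
  classical
  by_contra hcon
  push Not at hcon
  apply hK
  have h1 : (Finset.univ : Finset K) = {0, 1} := by
    ext x
    simp only [Finset.mem_univ, Finset.mem_insert, Finset.mem_singleton, true_iff]
    by_cases h : x = 0
    · exact Or.inl h
    · exact Or.inr (hcon x h)
  rw [← Finset.card_univ, h1, Finset.card_pair zero_ne_one]

/-- From the splitting of central extensions to the multiplier. -/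
theorem of_split {K : Type u} [Field K] [Finite K] {D : ChevalleyDatum}
    (hD : D ∈ [chevG2, chevB2, chevD4, chevF4, chevE6, chevE7, chevE8])
    (hK : D ∈ [chevB2, chevG2] → ∃ x : K, x ≠ 0 ∧ x ≠ 1)
    (hsplit : ∀ (X : Type u) [Group X] (π : X →* D.SteinbergCover K), Function.Surjective π →
      π.ker ≤ Subgroup.center X → ∃ τ : D.SteinbergCover K →* X, π.comp τ = MonoidHom.id _) :
    Cfsg.HasCyclicSchurMultiplier (D.SteinbergGroup K) 1 := by
  obtain ⟨e, -⟩ := Cfsg.Agent.S2397.result (K := K) D hD hK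
  have hperf : commutator (D.SteinbergCover K) = ⊤ := Cfsg.Agent.S2395.result D hD hK
  have hid : (MonoidHom.id (D.SteinbergCover K)).ker ≤ Subgroup.center _ := by
    intro z hz
    have : z = 1 := hz
    rw [this]; exact one_mem _
  have hfi := Cfsg.Agent.H134.TorsionFree.finiteIndex_center (π := MonoidHom.id (D.SteinbergCover K)) hD
    Function.surjective_id hid hperf
  have hfin : Finite (D.SteinbergCover K) := by
    have h := Cfsg.Agent.H134.TorsionFree.finite_commutator hfi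
    rw [hperf] at h
    exact Finite.of_equiv _ Subgroup.topEquiv.toEquiv
  have hker : (e : D.SteinbergCover K →* D.SteinbergGroup K).ker = ⊥ :=
    (MonoidHom.ker_eq_bot_iff _).2 e.injective
  refine Cfsg.Agent.H65.UCover.hasCyclic (θ := (e : D.SteinbergCover K →* D.SteinbergGroup K)) e.surjective ?_ hperf
    ?_ ?_ ?_
  · rw [hker]; exact bot_le
  · intro X _ _ π hπ
    obtain ⟨τ, hτ⟩ := hsplit X ((e.symm : D.SteinbergGroup K →* D.SteinbergCover K).comp π)
      (e.symm.surjective.comp hπ.1) (by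
        intro z hz
        apply hπ.2
        have h1 : e.symm (π z) = 1 := hz
        rw [MonoidHom.mem_ker]
        exact (MulEquiv.map_eq_one_iff e.symm).1 h1)
    refine ⟨τ, MonoidHom.ext fun δ => ?_⟩
    have h1 := DFunLike.congr_fun hτ δ
    show π (τ δ) = e δ
    have h2 : e.symm (π (τ δ)) = δ := h1
    exact (e.symm_apply_eq).1 h2
  · rw [hker]; infer_instance
  · rw [hker]; simp

/-- Type `D₄`. -/
theorem d4 {K : Type*} [Field K] [Fintype K] (hK : Fintype.card K ≠ 2) :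
    Cfsg.HasCyclicSchurMultiplier (chevD4.SteinbergGroup K) 1 := by
  have hx := exists_elt hK
  exact of_split (by simp) (fun _ => hx) fun X _ π hs hc => Cfsg.Agent.H134.SmallD4.exists_section hs hc hx

/-- Type `B₂`. -/
theorem b2 {K : Type*} [Field K] [Fintype K] (hK : Fintype.card K ≠ 2) :
    Cfsg.HasCyclicSchurMultiplier (chevB2.SteinbergGroup K) 1 := by
  have hx := exists_elt hK
  refine of_split (by simp) (fun _ => hx) fun X _ π hs hc => ?_
  have h0 : ((Fintype.card K : ℕ) : K) = 0 := FiniteField.cast_card_eq_zero K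
  have hpow : ∀ x : K, x ≠ 0 → x ^ (Fintype.card K - 1) = 1 := fun x hx => FiniteField.pow_card_sub_one_eq_one x hx
  have hone : 1 < Fintype.card K := Fintype.one_lt_card
  by_cases h4 : 4 < Fintype.card K
  · exact Cfsg.Agent.H134.Universal.exists_section Cfsg.Agent.H134.SmallB2.inList
      ⟨Finset.univ, by rw [Finset.card_univ]; exact h4⟩ hs hc
  · have h34 : Fintype.card K = 3 ∨ Fintype.card K = 4 := by omega
    rcases h34 with h | h
    · rw [h] at h0 hpow
      have h3 : (3 : K) = 0 := by exact_mod_cast h0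
      have h2 : (2 : K) ≠ 0 := by
        intro h2
        have : (1 : K) = 0 := by linear_combination h3 - h2
        exact one_ne_zero this
      have hall : ∀ t : K, t = 0 ∨ t = 1 ∨ t = -1 := by
        intro t
        by_cases ht : t = 0
        · exact Or.inl ht
        · right
          have h5 : t ^ 2 = 1 := hpow t ht
          have h6 : (t - 1) * (t + 1) = 0 := by linear_combination h5
          rcases mul_eq_zero.1 h6 with h7 | h7
          · exact Or.inl (sub_eq_zero.1 h7)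
          · exact Or.inr (eq_neg_of_add_eq_zero_left h7)
      exact Cfsg.Agent.H134.B2Three.exists_section h2 h3 hall hs hc
    · rw [h] at h0 hpow
      have h2 : (2 : K) = 0 := by
        have h5 : (2 : K) * 2 = 0 := by
          have : (4 : K) = 0 := by exact_mod_cast h0
          linear_combination this
        rcases mul_eq_zero.1 h5 with h6 | h6 <;> exact h6
      obtain ⟨x, hx0, hx1⟩ := hx
      refine Cfsg.Agent.H134.SmallB2.exists_section_two h2 hx0 ?_ hs hc
      intro h5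
      apply hx1
      have h6 : x ^ 3 = 1 := hpow x hx0
      rw [pow_succ, h5, one_mul] at h6
      exact h6

/-- Over a finite field `K`, the group presented by Steinberg's relators (R1)–(R3) (the universal Chevalley group) of type E₆ or E₇, or of type B₂ or D₄ with `K` of more than two elements, has trivial Schur multiplier: every finite stem extension of it is an isomorphism (Schur multiplier described through stem extensions as in the definitions). Types G₂, F₄ and E₈ are not covered here. -/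
theorem result {K : Type*} [Field K] [Fintype K] (e : Cfsg.Lie.ChevalleyDatum × ℕ)
    (he : e ∈ [(Cfsg.Lie.chevE6, 0), (Cfsg.Lie.chevE7, 0), (Cfsg.Lie.chevB2, 2), (Cfsg.Lie.chevD4, 2)]) (hK : Fintype.card K ≠ e.2) :
    Cfsg.HasCyclicSchurMultiplier (e.1.SteinbergGroup K) 1 := by
  simp only [List.mem_cons, List.not_mem_nil, or_false] at he
  rcases he with rfl | rfl | rfl | rfl
  · exact (Cfsg.Agent.H65.MultE.multE6 K rfl).2
  · exact (Cfsg.Agent.H65.MultE.multE7 K rfl).2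
  · exact b2 hK
  · exact d4 hK

end Cfsg.Agent.S2400
end
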