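import Cfsg.Statements.S2417
import Cfsg.Agent.H138.RootReach
set_option linter.all false

set_option autoImplicit false
open scoped MatrixGroups
open Cfsg

namespace Cfsg.Agent.S2417

open Cfsg.Lie Cfsg.Agent.H138.RootReach

set_option maxRecDepth 100000 in
theorem cB2 : ∀ i < 2, ∀ j < 2, chevB2.isLong (chevB2.simple i) = false → chevB2.isLong (chevB2.simple j) = true →
    coverTwo chevB2 i j = true := by decide +kernel
set_option maxRecDepth 100000 in
theorem cF4 : ∀ i < 4, ∀ j < 4, chevF4.isLong (chevF4.simple i) = false → chevF4.isLong (chevF4.simple j) = true →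
    coverTwo chevF4 i j = true := by decide +kernel
set_option maxRecDepth 100000 in
theorem cG2 : ∀ i < 2, ∀ j < 2, chevG2.isLong (chevG2.simple i) = false → chevG2.isLong (chevG2.simple j) = true →
    coverTwo chevG2 i j = true := by decide +kernel

/-- In the characteristics with an exceptional graph symmetry — type B₂ or F₄ in characteristic 2 (field of more than two elements for B₂) and type G₂ in characteristic 3 — the Chevalley group lies in the subgroup generated by its monomial subgroup `N` and the two fundamental root subgroups `X_a`, `X_b` of a short root `a` and a long root `b` joined in the Dynkin diagram. -/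
theorem result {K : Type*} [Field K] [Finite K] (e : Cfsg.Lie.ChevalleyDatum × ℕ)
    (he : e ∈ [(Cfsg.Lie.chevB2, 2), (Cfsg.Lie.chevF4, 2), (Cfsg.Lie.chevG2, 3)]) [CharP K e.2]
    (hK : e.1 = Cfsg.Lie.chevB2 → ∃ x : K, x ≠ 0 ∧ x ≠ 1)
    (i j : ℕ) (hi : i < e.1.rank) (hj : j < e.1.rank) (hshort : e.1.isLong (e.1.simple i) = false)
    (hlong : e.1.isLong (e.1.simple j) = true) (hbond : e.1.bonds i j ≠ 0) :
    e.1.group K ≤ e.1.monomialSubgroup K ⊔ e.1.rootSubgroup K (e.1.simple i) ⊔ e.1.rootSubgroup K (e.1.simple j) := by
  simp only [List.mem_cons, List.not_mem_nil, or_false] at he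
  rcases he with rfl | rfl | rfl
  · exact le_of_coverTwo (by simp) (cB2 i hi j hj hshort hlong)
  · exact le_of_coverTwo (by simp) (cF4 i hi j hj hshort hlong)
  · exact le_of_coverTwo (by simp) (cG2 i hi j hj hshort hlong)

end Cfsg.Agent.S2417
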