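import Mathlib
import Cfsg.Prelude.Def_LinearParabolics
import Cfsg.Agent.H139.BlockCount
import Cfsg.Statements.S2425
set_option linter.all false

-- part: H140/SteinComb
section
/-!
# The permutations `κ` with `κ i ≤ i + 1`
-/

set_option autoImplicit false

namespace Cfsg.Agent.H140.SteinComb

open Finset Equiv Cfsg.Agent.H139.BlockCount

/-- the `k` with `κ {0, …, k-1} = {0, …, k-1}` -/
def D {n : ℕ} (κ : Perm (Fin n)) : Finset ℕ :=
  (Finset.Ioo 0 n).filter fun k => ∀ i : Fin n, i.val < k → (κ i).val < k

theorem mem_D {n : ℕ} {κ : Perm (Fin n)} {k : ℕ} :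
    k ∈ D κ ↔ (0 < k ∧ k < n) ∧ ∀ i : Fin n, i.val < k → (κ i).val < k := by
  rw [D, Finset.mem_filter, Finset.mem_Ioo]

section psum

variable {n : ℕ} (κ : Perm (Fin n)) (hκ : ∀ i : Fin n, (κ i).val ≤ 1 + i.val)

include hκ

theorem psum_inv (k : ℕ) (hk : k ≤ n) :
    psum (fun i : Fin n => 1 + i.val - (κ i).val) k ≤ k ∧
    (∀ i : Fin n, i.val < k → (κ i).val ≠ psum (fun i : Fin n => 1 + i.val - (κ i).val) k) ∧
    (∀ j ≤ k, j ≠ psum (fun i : Fin n => 1 + i.val - (κ i).val) k → ∃ i : Fin n, i.val < k ∧ (κ i).val = j) := by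
  induction k with
  | zero =>
    rw [psum_zero]
    refine ⟨le_rfl, fun i hi => absurd hi (Nat.not_lt_zero _), fun j hj hj0 => ?_⟩
    omega
  | succ k ih =>
    obtain ⟨h1, h2, h3⟩ := ih (by omega)
    have h4 := psum_succ (fun i : Fin n => 1 + i.val - (κ i).val) ⟨k, hk⟩
    simp only at h4
    set m := psum (fun i : Fin n => 1 + i.val - (κ i).val) k with hm
    have h5 := hκ ⟨k, hk⟩
    simp only at h5
    rcases eq_or_ne ((κ ⟨k, hk⟩).val) (k + 1) with h6 | h6
    · have h7 : psum (fun i : Fin n => 1 + i.val - (κ i).val) (k + 1) = m := by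
        rw [h4, h6]; omega
      rw [h7]
      refine ⟨by omega, ?_, ?_⟩
      · intro i hi
        rcases Nat.lt_succ_iff_lt_or_eq.mp hi with hi | hi
        · exact h2 i hi
        · have : i = ⟨k, hk⟩ := Fin.ext hi
          rw [this, h6]
          omega
      · intro j hj hjm
        rcases Nat.lt_or_ge k j with h8 | h8
        · exact ⟨⟨k, hk⟩, Nat.lt_succ_self k, by omega⟩
        · obtain ⟨i, hi, hij⟩ := h3 j h8 hjm
          exact ⟨i, by omega, hij⟩
    · have h8 : (κ ⟨k, hk⟩).val = m := by
        by_contra hne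
        obtain ⟨i, hi, hij⟩ := h3 _ (by omega) hne
        have h9 : i = ⟨k, hk⟩ := κ.injective (Fin.ext hij)
        rw [h9] at hi
        exact lt_irrefl _ hi
      have h7 : psum (fun i : Fin n => 1 + i.val - (κ i).val) (k + 1) = k + 1 := by
        rw [h4, h8]; omega
      rw [h7]
      refine ⟨le_rfl, ?_, ?_⟩
      · intro i hi
        have h9 := hκ i
        rcases Nat.lt_succ_iff_lt_or_eq.mp hi with hi | hi
        · omega
        · have : i = ⟨k, hk⟩ := Fin.ext hi
          rw [this, h8]
          omega
      · intro j hj hjm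
        by_cases h9 : j = m
        · exact ⟨⟨k, hk⟩, Nat.lt_succ_self k, by rw [h8, h9]⟩
        · obtain ⟨i, hi, hij⟩ := h3 j (by omega) h9
          exact ⟨i, by omega, hij⟩

theorem psum_n : psum (fun i : Fin n => 1 + i.val - (κ i).val) n = n := by
  obtain ⟨h1, h2, h3⟩ := psum_inv κ hκ n le_rfl
  by_contra hne
  obtain ⟨i, hi, hij⟩ := h3 n le_rfl (Ne.symm hne)
  have := (κ i).2
  omega

theorem psum_mem_D (k : ℕ) (hk : k ≤ n)
    (h0 : 0 < psum (fun i : Fin n => 1 + i.val - (κ i).val) k)
    (hn : psum (fun i : Fin n => 1 + i.val - (κ i).val) k < n) :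
    psum (fun i : Fin n => 1 + i.val - (κ i).val) k ∈ D κ := by
  obtain ⟨h1, h2, h3⟩ := psum_inv κ hκ k hk
  rw [mem_D]
  refine ⟨⟨h0, hn⟩, ?_⟩
  intro i hi
  have h4 := hκ i
  have h5 := h2 i (by omega)
  omega

theorem psum_of_mem_D {d : ℕ} (hd : d ∈ D κ) :
    psum (fun i : Fin n => 1 + i.val - (κ i).val) d = d := by
  rw [mem_D] at hd
  obtain ⟨h1, h2, h3⟩ := psum_inv κ hκ d hd.1.2.le
  by_contra hne
  obtain ⟨i, hi, hij⟩ := h3 d le_rfl (Ne.symm hne)
  have := hd.2 i hi
  omega

theorem mem_parabolic_iff {F : Type*} [Field F] (g : Matrix.GeneralLinearGroup (Fin n) F) :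
    g ∈ parabolicGL n F (fun i : Fin n => 1 + i.val - (κ i).val) ↔
      ∀ d ∈ D κ, ∀ i j : Fin n, d ≤ i.val → j.val < d → (g : Matrix (Fin n) (Fin n) F) i j = 0 := by
  have hn := psum_n κ hκ
  have hiff : g ∈ parabolicGL n F (fun i : Fin n => 1 + i.val - (κ i).val) ↔
      ∀ i j : Fin n, compLabel (fun i : Fin n => 1 + i.val - (κ i).val) j <
        compLabel (fun i : Fin n => 1 + i.val - (κ i).val) i → (g : Matrix (Fin n) (Fin n) F) i j = 0 := by
    constructor
    · intro h i j hij
      exact h hij
    · intro h i j hij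
      exact h i j hij
  rw [hiff]
  constructor
  · intro h d hd i j hi hj
    have hd' := mem_D.mp hd
    have hp := psum_of_mem_D κ hκ hd
    apply h
    have h1 : compLabel (fun i : Fin n => 1 + i.val - (κ i).val) j < d := by
      rw [compLabel_lt_iff _ j hd'.1.2.le hn, hp]
      exact hj
    have h2 : ¬ compLabel (fun i : Fin n => 1 + i.val - (κ i).val) i < d := by
      rw [compLabel_lt_iff _ i hd'.1.2.le hn, hp]
      omega
    omega
  · intro h i j hij
    set k := compLabel (fun i : Fin n => 1 + i.val - (κ i).val) i with hk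
    have hkn : k ≤ n := (compLabel_lt _ (by rw [← psum_last]; exact hn) i).le
    have h1 := (compLabel_lt_iff _ j hkn hn).mp hij
    have h2 : ¬ compLabel (fun i : Fin n => 1 + i.val - (κ i).val) i < k := by
      rw [← hk]; exact lt_irrefl _
    rw [compLabel_lt_iff _ i hkn hn] at h2
    have h3 := i.2
    exact h _ (psum_mem_D κ hκ k hkn (by omega) (by omega)) i j (by omega) h1

end psum

theorem val_zero {n : ℕ} (e : Perm (Fin n)) (i : Fin n) :
    ((Equiv.Perm.decomposeFin.symm ((0 : Fin (n + 1)), e)) i.succ).val = (e i).val + 1 := by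
  rw [Equiv.Perm.decomposeFin_symm_apply_succ, Equiv.swap_self, Equiv.refl_apply, Fin.val_succ]

theorem val_one {n : ℕ} (e : Perm (Fin (n + 1))) (i : Fin (n + 1)) :
    ((Equiv.Perm.decomposeFin.symm ((1 : Fin (n + 2)), e)) i.succ).val =
      if (e i).val = 0 then 0 else (e i).val + 1 := by
  rw [Equiv.Perm.decomposeFin_symm_apply_succ]
  split_ifs with h
  · have h1 : (e i).succ = 1 := by
      apply Fin.ext
      simp [h]
    rw [h1, Equiv.swap_apply_right]
    rfl
  · rw [Equiv.swap_apply_of_ne_of_ne (Fin.succ_ne_zero _), Fin.val_succ]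
    intro h1
    apply h
    have h2 := congrArg Fin.val h1
    rw [Fin.val_succ, Fin.val_one] at h2
    omega

theorem valid_zero {n : ℕ} (e : Perm (Fin (n + 1))) :
    (∀ i, ((Equiv.Perm.decomposeFin.symm ((0 : Fin (n + 2)), e)) i).val ≤ 1 + i.val) ↔
      ∀ i, (e i).val ≤ 1 + i.val := by
  rw [Fin.forall_fin_succ]
  constructor
  · rintro ⟨_, h⟩ i
    have := h i
    rw [val_zero, Fin.val_succ] at this
    omega
  · intro h
    refine ⟨by simp, fun i => ?_⟩
    rw [val_zero, Fin.val_succ]
    have := h i
    omega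

theorem valid_one {n : ℕ} (e : Perm (Fin (n + 1))) :
    (∀ i, ((Equiv.Perm.decomposeFin.symm ((1 : Fin (n + 2)), e)) i).val ≤ 1 + i.val) ↔
      ∀ i, (e i).val ≤ 1 + i.val := by
  rw [Fin.forall_fin_succ]
  constructor
  · rintro ⟨_, h⟩ i
    have := h i
    rw [val_one, Fin.val_succ] at this
    split_ifs at this with h1
    · omega
    · omega
  · intro h
    refine ⟨by simp, fun i => ?_⟩
    rw [val_one, Fin.val_succ]
    have := h i
    split_ifs
    · omega
    · omega

theorem D_zero {n : ℕ} (e : Perm (Fin (n + 1))) :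
    D (Equiv.Perm.decomposeFin.symm ((0 : Fin (n + 2)), e)) = insert 1 ((D e).image Nat.succ) := by
  ext k
  rw [mem_D, Fin.forall_fin_succ, Finset.mem_insert, Finset.mem_image]
  constructor
  · rintro ⟨⟨h1, h2⟩, _, h4⟩
    by_cases hk : k = 1
    · exact Or.inl hk
    · right
      refine ⟨k - 1, ?_, by omega⟩
      rw [mem_D]
      refine ⟨⟨by omega, by omega⟩, fun i hi => ?_⟩
      have := h4 i (by rw [Fin.val_succ]; omega)
      rw [val_zero] at this
      omega
  · rintro (rfl | ⟨m, hm, rfl⟩)
    · refine ⟨⟨by omega, by omega⟩, by simp, fun i hi => ?_⟩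
      rw [Fin.val_succ] at hi
      omega
    · rw [mem_D] at hm
      refine ⟨⟨by omega, by omega⟩, by simp, fun i hi => ?_⟩
      rw [Fin.val_succ] at hi
      have := hm.2 i (by omega)
      rw [val_zero]
      omega

theorem D_one {n : ℕ} (e : Perm (Fin (n + 1))) :
    D (Equiv.Perm.decomposeFin.symm ((1 : Fin (n + 2)), e)) = (D e).image Nat.succ := by
  ext k
  rw [mem_D, Fin.forall_fin_succ, Finset.mem_image]
  constructor
  · rintro ⟨⟨h1, h2⟩, h3, h4⟩
    have hk : k ≠ 1 := by
      rintro rfl
      have := h3 (by simp)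
      simp at this
    refine ⟨k - 1, ?_, by omega⟩
    rw [mem_D]
    refine ⟨⟨by omega, by omega⟩, fun i hi => ?_⟩
    have := h4 i (by rw [Fin.val_succ]; omega)
    rw [val_one] at this
    split_ifs at this
    · omega
    · omega
  · rintro ⟨m, hm, rfl⟩
    rw [mem_D] at hm
    refine ⟨⟨by omega, by omega⟩, ?_, fun i hi => ?_⟩
    · intro _
      simp
      omega
    · rw [Fin.val_succ] at hi
      have := hm.2 i (by omega)
      rw [val_one]
      split_ifs
      · omega
      · omega

/-- **The sum over the permutations `κ` with `κ i ≤ i + 1` as a sum over subsets.** -/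
theorem sum_perm (n : ℕ) (Φ : Finset ℕ → ℂ) :
    (∑ κ : Perm (Fin (n + 1)), if ∀ i : Fin (n + 1), (κ i).val ≤ 1 + i.val then
      ((Equiv.Perm.sign κ : ℤ) : ℂ) * Φ (D κ) else 0) =
    ∑ E ∈ (Finset.Ioo 0 (n + 1)).powerset, (-1 : ℂ) ^ (n + E.card) * Φ E := by
  induction n generalizing Φ with
  | zero =>
    have hD : D (1 : Perm (Fin 1)) = ∅ := by
      ext k
      rw [mem_D]
      simp
      omega
    have hI : Finset.Ioo 0 (0 + 1) = ∅ := by decide
    have hs : Subsingleton (Perm (Fin (0 + 1))) := inferInstanceAs (Subsingleton (Perm (Fin 1)))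
    rw [hI, Finset.powerset_empty, Finset.sum_singleton, Fintype.sum_subsingleton _ 1]
    rw [if_pos (fun i => by simp), hD]
    simp
  | succ n ih =>
    rw [← Equiv.sum_comp (Equiv.Perm.decomposeFin (n := n + 1)).symm, Fintype.sum_prod_type,
      Fin.sum_univ_succ, Fin.sum_univ_succ]
    have hrest : ∑ p : Fin n, ∑ e : Perm (Fin (n + 1)),
        (if ∀ i, ((Equiv.Perm.decomposeFin.symm (p.succ.succ, e)) i).val ≤ 1 + i.val then
          ((Equiv.Perm.sign (Equiv.Perm.decomposeFin.symm (p.succ.succ, e)) : ℤ) : ℂ) *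
            Φ (D (Equiv.Perm.decomposeFin.symm (p.succ.succ, e))) else 0) = 0 := by
      apply Finset.sum_eq_zero
      intro p _
      apply Finset.sum_eq_zero
      intro e _
      rw [if_neg]
      intro h
      have := h 0
      rw [Equiv.Perm.decomposeFin_symm_apply_zero] at this
      simp at this
    rw [hrest, add_zero]
    have e1 : ∀ e : Perm (Fin (n + 1)),
        (if ∀ i, ((Equiv.Perm.decomposeFin.symm ((0 : Fin (n + 2)), e)) i).val ≤ 1 + i.val then
          ((Equiv.Perm.sign (Equiv.Perm.decomposeFin.symm ((0 : Fin (n + 2)), e)) : ℤ) : ℂ) *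
            Φ (D (Equiv.Perm.decomposeFin.symm ((0 : Fin (n + 2)), e))) else 0) =
        if ∀ i : Fin (n + 1), (e i).val ≤ 1 + i.val then
          ((Equiv.Perm.sign e : ℤ) : ℂ) * Φ (insert 1 ((D e).image Nat.succ)) else 0 := by
      intro e
      simp only [valid_zero, D_zero, Equiv.Perm.decomposeFin.symm_sign, if_true, one_mul]
    have e2 : ∀ e : Perm (Fin (n + 1)),
        (if ∀ i, ((Equiv.Perm.decomposeFin.symm ((Fin.succ 0 : Fin (n + 2)), e)) i).val ≤ 1 + i.val then
          ((Equiv.Perm.sign (Equiv.Perm.decomposeFin.symm ((Fin.succ 0 : Fin (n + 2)), e)) : ℤ) : ℂ) *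
            Φ (D (Equiv.Perm.decomposeFin.symm ((Fin.succ 0 : Fin (n + 2)), e))) else 0) =
        - (if ∀ i : Fin (n + 1), (e i).val ≤ 1 + i.val then
          ((Equiv.Perm.sign e : ℤ) : ℂ) * Φ ((D e).image Nat.succ) else 0) := by
      intro e
      have h1 : (Fin.succ 0 : Fin (n + 2)) = 1 := rfl
      have h2 : ((1 : Fin (n + 2)) = 0) = False := by simp
      simp only [h1, valid_one, D_one, Equiv.Perm.decomposeFin.symm_sign, h2, if_false]
      split_ifs
      · simp
      · simp
    rw [Finset.sum_congr rfl fun e _ => e1 e, Finset.sum_congr rfl fun e _ => e2 e,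
      Finset.sum_neg_distrib, ih (fun E => Φ (insert 1 (E.image Nat.succ))),
      ih (fun E => Φ (E.image Nat.succ))]
    have hI : Finset.Ioo 0 (n + 1 + 1) = insert 1 ((Finset.Ioo 0 (n + 1)).image Nat.succ) := by
      ext k
      simp only [Finset.mem_Ioo, Finset.mem_insert, Finset.mem_image]
      constructor
      · intro h
        by_cases hk : k = 1
        · exact Or.inl hk
        · exact Or.inr ⟨k - 1, by omega, by omega⟩
      · rintro (rfl | ⟨m, hm, rfl⟩)
        · omega
        · omega
    have h1 : 1 ∉ (Finset.Ioo 0 (n + 1)).image Nat.succ := by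
      simp
    have hinj : Function.Injective (fun E : Finset ℕ => E.image Nat.succ) :=
      Finset.image_injective Nat.succ_injective
    rw [hI, Finset.sum_powerset_insert h1, Finset.powerset_image,
      Finset.sum_image (fun x _ y _ h => hinj h), Finset.sum_image (fun x _ y _ h => hinj h),
      ← Finset.sum_neg_distrib, add_comm]
    congr 1
    · apply Finset.sum_congr rfl
      intro E _
      rw [Finset.card_image_of_injective _ Nat.succ_injective]
      ring
    · apply Finset.sum_congr rfl
      intro E _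
      have h3 : 1 ∉ E.image Nat.succ := by
        intro h
        rw [Finset.mem_image] at h
        obtain ⟨m, hm, hm1⟩ := h
        have hm0 : m = 0 := by omega
        subst hm0
        rename_i hE
        have := Finset.mem_powerset.mp hE hm
        simp at this
      rw [Finset.card_insert_of_notMem h3, Finset.card_image_of_injective _ Nat.succ_injective]
      ring

end Cfsg.Agent.H140.SteinComb
end

-- part: H140/Moebius
section
/-!
# The Möbius function from below of a finite partial order, by chains

* `chains a`: the finite sets `C` of elements `b`, `⊥ < b < a`, which are chains; `csum a = ∑ (-1) ^ |C|`.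
* `mu a = 1` if `a = ⊥`, `- csum a` otherwise; `sum_mu : ∑ b ≤ a, mu b = 0` for `a ≠ ⊥` (Philip Hall).
* `weisner`: in a lattice `∑ (y ⊔ s = a) mu y = 0` for `⊥ ≠ s ≤ a`.
* `mu_map`: invariance under embeddings with downward closed range.
-/

set_option autoImplicit false

namespace Cfsg.Agent.H140.Moebius

open Finset

section order

variable {P : Type*} [PartialOrder P] [OrderBot P] [Fintype P]

open Classical in
/-- chains strictly between `⊥` and `a` -/
noncomputable def chains (a : P) : Finset (Finset P) :=
  Finset.univ.filter fun C => IsChain (· ≤ ·) (C : Set P) ∧ ∀ b ∈ C, ⊥ < b ∧ b < a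

theorem mem_chains {a : P} {C : Finset P} :
    C ∈ chains a ↔ IsChain (· ≤ ·) (C : Set P) ∧ ∀ b ∈ C, ⊥ < b ∧ b < a := by
  classical
  simp [chains]

/-- the alternating sum over the chains -/
noncomputable def csum (a : P) : ℤ := ∑ C ∈ chains a, (-1) ^ C.card

open Classical in
/-- the Möbius function -/
noncomputable def mu (a : P) : ℤ := if a = ⊥ then 1 else - csum a

theorem mu_bot : mu (⊥ : P) = 1 := if_pos rfl

theorem mu_of_ne {a : P} (h : a ≠ ⊥) : mu a = - csum a := if_neg h

omit [OrderBot P] [Fintype P] in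
theorem exists_greatest {C : Finset P} (hC : IsChain (· ≤ ·) (C : Set P)) (hne : C.Nonempty) :
    ∃ b ∈ C, ∀ c ∈ C, c ≤ b := by
  obtain ⟨b, hb⟩ := C.exists_maximal hne
  refine ⟨b, hb.1, fun c hc => ?_⟩
  rcases hC.total hc hb.1 with h | h
  · exact h
  · exact hb.2 hc h

open Classical in
theorem csum_eq (a : P) :
    csum a = 1 - ∑ b ∈ Finset.univ.filter (fun b : P => ⊥ < b ∧ b < a), csum b := by
  have h0 : (∅ : Finset P) ∈ chains a := by
    rw [mem_chains]
    simp
  rw [csum, ← Finset.add_sum_erase _ _ h0, Finset.card_empty, pow_zero, sub_eq_add_neg]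
  congr 1
  -- insert the sum over the greatest element
  have h1 : ∀ C ∈ (chains a).erase ∅, ((-1 : ℤ)) ^ C.card =
      ∑ b ∈ Finset.univ.filter (fun b : P => ⊥ < b ∧ b < a),
        if b ∈ C ∧ ∀ c ∈ C, c ≤ b then (-1 : ℤ) ^ C.card else 0 := by
    intro C hC
    rw [Finset.mem_erase, mem_chains] at hC
    obtain ⟨hne, hch, hlt⟩ := hC
    obtain ⟨b, hb, hmax⟩ := exists_greatest hch (Finset.nonempty_iff_ne_empty.mpr hne)
    rw [Finset.sum_eq_single_of_mem b (by simpa using hlt b hb)]
    · rw [if_pos ⟨hb, hmax⟩]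
    · intro c _ hcb
      rw [if_neg]
      rintro ⟨hc, hmax'⟩
      exact hcb (le_antisymm (hmax c hc) (hmax' b hb))
  rw [Finset.sum_congr rfl h1, Finset.sum_comm, ← Finset.sum_neg_distrib]
  apply Finset.sum_congr rfl
  intro b hb
  simp only [Finset.mem_filter, Finset.mem_univ, true_and] at hb
  rw [← Finset.sum_filter, csum, ← Finset.sum_neg_distrib]
  symm
  refine Finset.sum_bij' (fun C _ => insert b C) (fun C _ => C.erase b) ?_ ?_ ?_ ?_ ?_
  · intro C hC
    rw [mem_chains] at hC
    simp only [Finset.mem_filter, Finset.mem_erase, mem_chains]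
    refine ⟨⟨Finset.insert_ne_empty _ _, ?_, ?_⟩, Finset.mem_insert_self _ _, ?_⟩
    · rw [Finset.coe_insert]
      exact hC.1.insert fun c hc _ => Or.inr (hC.2 c hc).2.le
    · intro c hc
      rcases Finset.mem_insert.mp hc with rfl | hc
      · exact hb
      · exact ⟨(hC.2 c hc).1, (hC.2 c hc).2.trans hb.2⟩
    · intro c hc
      rcases Finset.mem_insert.mp hc with rfl | hc
      · exact le_rfl
      · exact (hC.2 c hc).2.le
  · intro C hC
    simp only [Finset.mem_filter, Finset.mem_erase, mem_chains] at hC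
    obtain ⟨⟨_, hch, hlt⟩, hbC, hmax⟩ := hC
    rw [mem_chains]
    refine ⟨hch.mono (by simp), ?_⟩
    intro c hc
    rw [Finset.mem_erase] at hc
    exact ⟨(hlt c hc.2).1, lt_of_le_of_ne (hmax c hc.2) hc.1⟩
  · intro C hC
    rw [mem_chains] at hC
    exact Finset.erase_insert fun h => lt_irrefl _ (hC.2 b h).2
  · intro C hC
    simp only [Finset.mem_filter, Finset.mem_erase, mem_chains] at hC
    exact Finset.insert_erase hC.2.1
  · intro C hC
    rw [mem_chains] at hC
    rw [Finset.card_insert_of_notMem fun h => lt_irrefl _ (hC.2 b h).2, pow_succ]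
    ring

open Classical in
/-- **Philip Hall's theorem**: `mu` is the Möbius function. -/
theorem sum_mu {a : P} (ha : a ≠ ⊥) : ∑ b ∈ Finset.univ.filter (fun b : P => b ≤ a), mu b = 0 := by
  have e : Finset.univ.filter (fun b : P => b ≤ a) =
      insert a (insert ⊥ (Finset.univ.filter (fun b : P => ⊥ < b ∧ b < a))) := by
    ext b
    simp only [Finset.mem_filter, Finset.mem_univ, true_and, Finset.mem_insert]
    constructor
    · intro h
      rcases eq_or_lt_of_le h with h | h
      · exact Or.inl h
      · by_cases hb : b = ⊥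
        · exact Or.inr (Or.inl hb)
        · exact Or.inr (Or.inr ⟨bot_lt_iff_ne_bot.mpr hb, h⟩)
    · rintro (rfl | rfl | h)
      · exact le_rfl
      · exact bot_le
      · exact h.2.le
  rw [e, Finset.sum_insert, Finset.sum_insert, mu_bot, mu_of_ne ha, csum_eq]
  · have h2 : ∑ b ∈ Finset.univ.filter (fun b : P => ⊥ < b ∧ b < a), mu b =
        - ∑ b ∈ Finset.univ.filter (fun b : P => ⊥ < b ∧ b < a), csum b := by
      rw [← Finset.sum_neg_distrib]
      apply Finset.sum_congr rfl
      intro b hb
      simp only [Finset.mem_filter, Finset.mem_univ, true_and] at hb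
      exact mu_of_ne hb.1.ne'
    rw [h2]
    ring
  · simp
  · simp only [Finset.mem_insert, Finset.mem_filter, Finset.mem_univ, true_and, not_or]
    exact ⟨ha, fun h => lt_irrefl _ h.2⟩

open Classical in
theorem mu_eq_neg_sum {a : P} (ha : a ≠ ⊥) :
    mu a = - ∑ b ∈ Finset.univ.filter (fun b : P => b < a), mu b := by
  have h := sum_mu ha
  have e : Finset.univ.filter (fun b : P => b ≤ a) =
      insert a (Finset.univ.filter (fun b : P => b < a)) := by
    ext b
    simp only [Finset.mem_filter, Finset.mem_univ, true_and, Finset.mem_insert]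
    exact le_iff_eq_or_lt
  rw [e, Finset.sum_insert (by simp)] at h
  linarith

end order

open Classical in
/-- `mu` is invariant under embeddings with downward closed range. -/
theorem mu_map {P Q : Type*} [PartialOrder P] [OrderBot P] [Fintype P] [PartialOrder Q]
    [OrderBot Q] [Fintype Q] (φ : P → Q) (hle : ∀ a b, φ a ≤ φ b ↔ a ≤ b) (hbot : φ ⊥ = ⊥)
    (hdown : ∀ a : P, ∀ b : Q, b ≤ φ a → ∃ c, φ c = b) (a : P) : mu (φ a) = mu a := by
  have hinj : Function.Injective φ := fun a b h =>
    le_antisymm ((hle a b).mp h.le) ((hle b a).mp h.ge)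
  have hlt : ∀ a b, φ a < φ b ↔ a < b := by
    intro a b
    rw [lt_iff_le_and_ne, lt_iff_le_and_ne, hle, hinj.ne_iff]
  induction a using WellFoundedLT.induction with
  | ind a ih =>
    by_cases ha : a = ⊥
    · rw [ha, hbot, mu_bot, mu_bot]
    · have ha' : φ a ≠ ⊥ := fun h => ha (hinj (h.trans hbot.symm))
      rw [mu_eq_neg_sum ha, mu_eq_neg_sum ha']
      congr 1
      symm
      apply Finset.sum_bij (fun b _ => φ b)
      · intro b hb
        simp only [Finset.mem_filter, Finset.mem_univ, true_and] at hb ⊢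
        exact (hlt b a).mpr hb
      · intro b _ c _ h
        exact hinj h
      · intro b hb
        simp only [Finset.mem_filter, Finset.mem_univ, true_and] at hb
        obtain ⟨c, rfl⟩ := hdown a b hb.le
        exact ⟨c, by simpa using (hlt c a).mp hb, rfl⟩
      · intro b hb
        simp only [Finset.mem_filter, Finset.mem_univ, true_and] at hb
        exact (ih b hb).symm

open Classical in
/-- **Weisner's theorem.** -/
theorem weisner {P : Type*} [Lattice P] [OrderBot P] [Fintype P] {s : P} (hs : s ≠ ⊥) (a : P)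
    (hsa : s ≤ a) : ∑ y ∈ Finset.univ.filter (fun y : P => y ⊔ s = a), mu y = 0 := by
  induction a using WellFoundedLT.induction with
  | ind a ih =>
    have ha : a ≠ ⊥ := fun h => hs (le_bot_iff.mp (h ▸ hsa))
    have h := sum_mu ha
    have hmaps : ∀ y ∈ Finset.univ.filter (fun y : P => y ≤ a),
        y ⊔ s ∈ Finset.univ.filter (fun z : P => s ≤ z ∧ z ≤ a) := by
      intro y hy
      simp only [Finset.mem_filter, Finset.mem_univ, true_and] at hy ⊢
      exact ⟨le_sup_right, sup_le hy hsa⟩
    rw [← Finset.sum_fiberwise_of_maps_to hmaps] at h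
    have hmem : a ∈ Finset.univ.filter (fun z : P => s ≤ z ∧ z ≤ a) := by simp [hsa]
    rw [← Finset.add_sum_erase _ _ hmem] at h
    have hzero : ∑ z ∈ (Finset.univ.filter (fun z : P => s ≤ z ∧ z ≤ a)).erase a,
        ∑ y ∈ (Finset.univ.filter (fun y : P => y ≤ a)).filter (fun y => y ⊔ s = z), mu y = 0 := by
      apply Finset.sum_eq_zero
      intro z hz
      simp only [Finset.mem_erase, Finset.mem_filter, Finset.mem_univ, true_and] at hz
      have h3 := ih z (lt_of_le_of_ne hz.2.2 hz.1) hz.2.1
      rw [← h3]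
      apply Finset.sum_congr _ (fun _ _ => rfl)
      ext y
      simp only [Finset.mem_filter, Finset.mem_univ, true_and]
      constructor
      · exact fun h => h.2
      · intro h
        exact ⟨(le_sup_left.trans h.le).trans hz.2.2, h⟩
    rw [hzero, add_zero] at h
    rw [← h]
    apply Finset.sum_congr _ (fun _ _ => rfl)
    ext y
    simp only [Finset.mem_filter, Finset.mem_univ, true_and]
    constructor
    · intro h
      exact ⟨le_sup_left.trans h.le, h⟩
    · exact fun h => h.2

end Cfsg.Agent.H140.Moebius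
end

-- part: H140/Adapt
section
/-!
# A basis adapted to a chain of subspaces
-/

set_option autoImplicit false

namespace Cfsg.Agent.H140.Adapt

open Module

universe u

/-- **A basis adapted to a chain.** -/
theorem exists_basis {F : Type*} [Field F] (m : ℕ) : ∀ (V : Type u) [AddCommGroup V] [Module F V]
    [FiniteDimensional F V] (C : Finset (Submodule F V)), C.card = m →
    IsChain (· ≤ ·) (C : Set (Submodule F V)) → ∀ n : ℕ, finrank F V = n →
    ∃ b : Basis (Fin n) F V, ∀ W ∈ C, W = Submodule.span F (b '' {i | i.val < finrank F W}) := by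
  classical
  induction m using Nat.strong_induction_on with
  | _ m ih =>
    intro V _ _ _ C hm hC n hn
    rcases C.eq_empty_or_nonempty with rfl | hne
    · exact ⟨Module.finBasisOfFinrankEq F V hn, by simp⟩
    · obtain ⟨U, hU, hmax⟩ := Cfsg.Agent.H140.Moebius.exists_greatest hC hne
      set C' := C.erase U with hC'
      set C'' : Finset (Submodule F U) := C'.image (fun W => W.comap U.subtype) with hC''
      have hcard : C''.card < m := by
        calc C''.card ≤ C'.card := Finset.card_image_le
          _ < C.card := Finset.card_erase_lt_of_mem hU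
          _ = m := hm
      have hchain : IsChain (· ≤ ·) (C'' : Set (Submodule F U)) := by
        rintro A hA B hB _
        simp only [hC'', Finset.coe_image, Set.mem_image, Finset.mem_coe] at hA hB
        obtain ⟨A, hA, rfl⟩ := hA
        obtain ⟨B, hB, rfl⟩ := hB
        rcases hC.total (Finset.mem_of_mem_erase hA) (Finset.mem_of_mem_erase hB) with h | h
        · exact Or.inl (Submodule.comap_mono h)
        · exact Or.inr (Submodule.comap_mono h)
      obtain ⟨b', hb'⟩ := ih _ hcard U C'' rfl hchain (finrank F U) rfl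
      obtain ⟨U', hUU'⟩ := Submodule.exists_isCompl U
      have hdim : finrank F U + finrank F U' = n := by
        rw [← hn]
        exact Submodule.finrank_add_eq_of_isCompl hUU'
      let b'' : Basis (Fin (finrank F U')) F U' := Module.finBasis F U'
      let e : Fin (finrank F U) ⊕ Fin (finrank F U') ≃ Fin n :=
        finSumFinEquiv.trans (finCongr hdim)
      let b : Basis (Fin n) F V :=
        ((b'.prod b'').map (Submodule.prodEquivOfIsCompl U U' hUU')).reindex e
      have hb1 : ∀ i : Fin (finrank F U), b (e (Sum.inl i)) = (b' i : V) := by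
        intro i
        simp [b]
      have he1 : ∀ i : Fin (finrank F U), (e (Sum.inl i)).val = i.val := by
        intro i
        simp [e]
      have he2 : ∀ i : Fin (finrank F U'), (e (Sum.inr i)).val = finrank F U + i.val := by
        intro i
        simp [e]
      -- spans of initial segments contained in `U`
      have key : ∀ d : ℕ, d ≤ finrank F U → Submodule.span F (b '' {i | i.val < d}) =
          (Submodule.span F (b' '' {i | i.val < d})).map U.subtype := by
        intro d hd
        rw [Submodule.map_span]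
        congr 1
        ext v
        constructor
        · rintro ⟨i, hi, rfl⟩
          obtain ⟨j, rfl⟩ := e.surjective i
          rcases j with j | j
          · refine ⟨b' j, ⟨j, ?_, rfl⟩, (hb1 j).symm⟩
            have : (e (Sum.inl j)).val < d := hi
            rwa [he1] at this
          · exfalso
            have : (e (Sum.inr j)).val < d := hi
            rw [he2] at this
            omega
        · rintro ⟨_, ⟨i, hi, rfl⟩, rfl⟩
          refine ⟨e (Sum.inl i), ?_, hb1 i⟩
          change (e (Sum.inl i)).val < d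
          rw [he1]
          exact hi
      refine ⟨b, ?_⟩
      intro W hW
      by_cases hWU : W = U
      · subst hWU
        rw [key _ le_rfl]
        have h1 : b' '' {i | i.val < finrank F W} = Set.range b' := by
          rw [← Set.image_univ]
          congr 1
          ext i
          simp
        rw [h1, b'.span_eq, Submodule.map_top, Submodule.range_subtype]
      · have hWC : W ∈ C' := Finset.mem_erase.mpr ⟨hWU, hW⟩
        have hle : W ≤ U := hmax W hW
        have h1 := hb' (W.comap U.subtype) (Finset.mem_image_of_mem _ hWC)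
        have h2 : finrank F (W.comap U.subtype) = finrank F W :=
          LinearEquiv.finrank_eq (Submodule.comapSubtypeEquivOfLe hle)
        rw [h2] at h1
        rw [key _ (Submodule.finrank_mono hle), ← h1, Submodule.map_comap_subtype,
          inf_eq_right.mpr hle]

end Cfsg.Agent.H140.Adapt
end

-- part: H140/Flags
section
/-!
# Flags of `F ^ n` fixed by a matrix and permutation characters
-/

set_option autoImplicit false

namespace Cfsg.Agent.H140.Flags

open Module Matrix

open scoped MatrixGroups

/-- Fixed points on cosets. -/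
theorem card_fixedBy {G Z : Type*} [Group G] (P : Subgroup G) (θ : G → Z)
    (hθ : ∀ g h, θ g = θ h ↔ g⁻¹ * h ∈ P) (x : G) :
    Nat.card (MulAction.fixedBy (G ⧸ P) x) = Nat.card {z : Z // ∃ g, θ g = z ∧ θ (x * g) = z} := by
  let ψ : G ⧸ P → Z := Quotient.lift θ (fun g h hgh => by
    rw [hθ]
    exact QuotientGroup.leftRel_apply.mp hgh)
  have hψ : ∀ g : G, ψ (g : G ⧸ P) = θ g := fun g => rfl
  have hinj : Function.Injective ψ := by
    intro a b hab
    induction a using QuotientGroup.induction_on with
    | H g =>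
      induction b using QuotientGroup.induction_on with
      | H h =>
        rw [hψ, hψ, hθ] at hab
        exact QuotientGroup.eq.mpr hab
  have hfix : ∀ g : G, x • (g : G ⧸ P) = (g : G ⧸ P) ↔ θ (x * g) = θ g := by
    intro g
    rw [MulAction.Quotient.smul_coe, smul_eq_mul]
    rw [← hψ, ← hψ g]
    exact hinj.eq_iff.symm
  refine Nat.card_congr (Equiv.ofBijective (fun c => ⟨ψ c.1, ?_⟩) ⟨?_, ?_⟩)
  · obtain ⟨c, hc⟩ := c
    induction c using QuotientGroup.induction_on with
    | H g =>
      rw [MulAction.mem_fixedBy] at hc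
      exact ⟨g, rfl, (hfix g).mp hc⟩
  · intro a b hab
    exact Subtype.ext (hinj (congrArg Subtype.val hab))
  · rintro ⟨z, g, rfl, h⟩
    refine ⟨⟨(g : G ⧸ P), ?_⟩, Subtype.ext (hψ g)⟩
    rw [MulAction.mem_fixedBy]
    exact (hfix g).mpr h

section act

variable {n : ℕ} {F : Type*} [Field F]

/-- the action of a matrix on subspaces -/
def act (g : GL (Fin n) F) (W : Submodule F (Fin n → F)) : Submodule F (Fin n → F) :=
  W.map (Matrix.toLin' (g : Matrix (Fin n) (Fin n) F))

theorem act_one (W : Submodule F (Fin n → F)) : act 1 W = W := by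
  unfold act
  rw [Units.val_one, Matrix.toLin'_one, Submodule.map_id]

theorem act_mul (g h : GL (Fin n) F) (W : Submodule F (Fin n → F)) :
    act (g * h) W = act g (act h W) := by
  unfold act
  rw [Units.val_mul, Matrix.toLin'_mul, Submodule.map_comp]

theorem act_inv_act (g : GL (Fin n) F) (W : Submodule F (Fin n → F)) : act g⁻¹ (act g W) = W := by
  rw [← act_mul, inv_mul_cancel, act_one]

theorem act_injective (g : GL (Fin n) F) : Function.Injective (act g) := fun A B h => by
  rw [← act_inv_act g A, h, act_inv_act]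

theorem act_mono (g : GL (Fin n) F) {A B : Submodule F (Fin n → F)} (h : A ≤ B) :
    act g A ≤ act g B := Submodule.map_mono h

theorem toLin_injective (g : GL (Fin n) F) :
    Function.Injective (Matrix.toLin' (g : Matrix (Fin n) (Fin n) F)) := by
  intro v w h
  have h2 := congrArg (Matrix.toLin' ((g⁻¹ : GL (Fin n) F) : Matrix (Fin n) (Fin n) F)) h
  rw [← LinearMap.comp_apply, ← LinearMap.comp_apply, ← Matrix.toLin'_mul, ← Units.val_mul,
    inv_mul_cancel, Units.val_one, Matrix.toLin'_one] at h2
  exact h2

theorem finrank_act (g : GL (Fin n) F) (W : Submodule F (Fin n → F)) :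
    finrank F (act g W) = finrank F W :=
  (LinearEquiv.finrank_eq (Submodule.equivMapOfInjective _ (toLin_injective g) W)).symm

variable (n F) in
/-- the standard subspaces -/
def std (d : ℕ) : Submodule F (Fin n → F) := Submodule.span F ((Pi.basisFun F (Fin n)) '' {i | i.val < d})

theorem std_mono {c d : ℕ} (h : c ≤ d) : std n F c ≤ std n F d := by
  apply Submodule.span_mono
  apply Set.image_mono
  intro i hi
  exact lt_of_lt_of_le hi h

theorem finrank_std {d : ℕ} (hd : d ≤ n) : finrank F (std n F d) = d := by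
  classical
  unfold std
  have h1 : LinearIndependent F (fun i : {i : Fin n | i.val < d} => (Pi.basisFun F (Fin n)) i) :=
    (Pi.basisFun F (Fin n)).linearIndependent.comp _ Subtype.val_injective
  have h2 := finrank_span_eq_card h1
  have h3 : Set.range (fun i : {i : Fin n | i.val < d} => (Pi.basisFun F (Fin n)) i) =
      (Pi.basisFun F (Fin n)) '' {i | i.val < d} := by
    ext v
    simp
  rw [h3] at h2
  rw [h2, Fintype.card_subtype]
  have h4 : (Finset.univ.filter fun i : Fin n => i ∈ {i : Fin n | i.val < d}).card =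
      (Finset.univ.filter fun i : Fin n => i.val < d).card := by
    congr 1
  rw [h4, Fin.card_filter_val_lt, min_eq_right hd]

theorem mem_std {d : ℕ} {v : Fin n → F} : v ∈ std n F d ↔ ∀ i : Fin n, d ≤ i.val → v i = 0 := by
  classical
  unfold std
  constructor
  · intro hv i hi
    induction hv using Submodule.span_induction with
    | mem v hv =>
      obtain ⟨j, hj, rfl⟩ := hv
      rw [Pi.basisFun_apply, Pi.single_apply, if_neg]
      rintro rfl
      exact absurd hi (not_le.mpr hj)
    | zero => rfl
    | add v w _ _ h1 h2 => rw [Pi.add_apply, h1, h2, add_zero]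
    | smul c v _ h1 => rw [Pi.smul_apply, h1, smul_zero]
  · intro hv
    rw [← (Pi.basisFun F (Fin n)).sum_repr v]
    apply Submodule.sum_mem
    intro i _
    by_cases hi : i.val < d
    · exact Submodule.smul_mem _ _ (Submodule.subset_span ⟨i, hi, rfl⟩)
    · rw [Pi.basisFun_repr, hv i (not_lt.mp hi), zero_smul]
      exact Submodule.zero_mem _

theorem act_std_le_iff (g : GL (Fin n) F) (d : ℕ) : act g (std n F d) ≤ std n F d ↔
    ∀ i j : Fin n, d ≤ i.val → j.val < d → (g : Matrix (Fin n) (Fin n) F) i j = 0 := by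
  classical
  unfold act
  constructor
  · intro h i j hi hj
    have h1 : (Pi.basisFun F (Fin n)) j ∈ std n F d := Submodule.subset_span ⟨j, hj, rfl⟩
    have h2 := mem_std.mp (h ⟨_, h1, rfl⟩) i hi
    rw [Pi.basisFun_apply, Matrix.toLin'_apply, Matrix.mulVec_single_one] at h2
    exact h2
  · intro h
    unfold std
    rw [Submodule.map_span, Submodule.span_le]
    rintro _ ⟨_, ⟨j, hj, rfl⟩, rfl⟩
    change _ ∈ std n F d
    rw [mem_std]
    intro i hi
    rw [Pi.basisFun_apply, Matrix.toLin'_apply, Matrix.mulVec_single_one]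
    exact h i j hi hj

theorem act_std_eq_iff (g : GL (Fin n) F) (d : ℕ) : act g (std n F d) = std n F d ↔
    ∀ i j : Fin n, d ≤ i.val → j.val < d → (g : Matrix (Fin n) (Fin n) F) i j = 0 := by
  rw [← act_std_le_iff]
  constructor
  · exact fun h => h.le
  · intro h
    exact Submodule.eq_of_le_of_finrank_eq h (finrank_act g _)

/-- the matrix of a basis -/
theorem exists_matrix (b : Basis (Fin n) F (Fin n → F)) : ∃ g : GL (Fin n) F,
    ∀ d, act g (std n F d) = Submodule.span F (b '' {i | i.val < d}) := by
  classical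
  let f : (Fin n → F) ≃ₗ[F] (Fin n → F) := (Pi.basisFun F (Fin n)).equiv b (Equiv.refl _)
  refine ⟨⟨LinearMap.toMatrix' (f : (Fin n → F) →ₗ[F] (Fin n → F)),
    LinearMap.toMatrix' (f.symm : (Fin n → F) →ₗ[F] (Fin n → F)), ?_, ?_⟩, ?_⟩
  · rw [← LinearMap.toMatrix'_comp, LinearEquiv.comp_symm, LinearMap.toMatrix'_id]
  · rw [← LinearMap.toMatrix'_comp, LinearEquiv.symm_comp, LinearMap.toMatrix'_id]
  · intro d
    unfold act std
    change Submodule.map (Matrix.toLin' (LinearMap.toMatrix' (f : (Fin n → F) →ₗ[F] (Fin n → F)))) _ = _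
    rw [Matrix.toLin'_toMatrix', Submodule.map_span, Set.image_image]
    congr 1
    apply Set.image_congr
    intro i _
    exact (Pi.basisFun F (Fin n)).equiv_apply i b (Equiv.refl _)

/-- the flag of a matrix -/
noncomputable def flag (E : Finset ℕ) (g : GL (Fin n) F) : Finset (Submodule F (Fin n → F)) := by
  classical
  exact E.image fun d => act g (std n F d)

theorem mem_flag {E : Finset ℕ} {g : GL (Fin n) F} {W : Submodule F (Fin n → F)} :
    W ∈ flag E g ↔ ∃ d ∈ E, act g (std n F d) = W := by
  classical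
  unfold flag
  rw [Finset.mem_image]

theorem flag_eq_iff {E : Finset ℕ} (hE : ∀ d ∈ E, d ≤ n) {g h : GL (Fin n) F} :
    flag E g = flag E h ↔ ∀ d ∈ E, act g (std n F d) = act h (std n F d) := by
  constructor
  · intro hgh d hd
    have h1 : act g (std n F d) ∈ flag E g := mem_flag.mpr ⟨d, hd, rfl⟩
    rw [hgh, mem_flag] at h1
    obtain ⟨c, hc, h2⟩ := h1
    have h3 := congrArg (fun W : Submodule F (Fin n → F) => finrank F W) h2
    simp only [finrank_act, finrank_std (hE c hc), finrank_std (hE d hd)] at h3
    rw [h3] at h2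
    exact h2.symm
  · intro hgh
    ext W
    rw [mem_flag, mem_flag]
    constructor
    · rintro ⟨d, hd, rfl⟩
      exact ⟨d, hd, (hgh d hd).symm⟩
    · rintro ⟨d, hd, rfl⟩
      exact ⟨d, hd, hgh d hd⟩

theorem flag_eq_iff' {E : Finset ℕ} (hE : ∀ d ∈ E, d ≤ n) {g h : GL (Fin n) F} :
    flag E g = flag E h ↔ ∀ d ∈ E, act (g⁻¹ * h) (std n F d) = std n F d := by
  rw [flag_eq_iff hE]
  constructor
  · intro H d hd
    rw [act_mul, ← H d hd, act_inv_act]
  · intro H d hd
    have h1 := H d hd
    rw [act_mul] at h1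
    have h2 := congrArg (act g) h1
    rw [← act_mul, mul_inv_cancel, act_one] at h2
    exact h2.symm

/-- chains of type `E` stable under `x` -/
def IsFlag (E : Finset ℕ) (x : GL (Fin n) F) (C : Finset (Submodule F (Fin n → F))) : Prop :=
  IsChain (· ≤ ·) (C : Set (Submodule F (Fin n → F))) ∧ (∀ W ∈ C, finrank F W ∈ E) ∧
    (∀ d ∈ E, ∃ W ∈ C, finrank F W = d) ∧ ∀ W ∈ C, act x W = W

theorem exists_flag_iff {E : Finset ℕ} (hE : ∀ d ∈ E, d ≤ n) (x : GL (Fin n) F)
    (C : Finset (Submodule F (Fin n → F))) :
    (∃ g, flag E g = C ∧ flag E (x * g) = C) ↔ IsFlag E x C := by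
  constructor
  · rintro ⟨g, rfl, hx⟩
    rw [flag_eq_iff hE] at hx
    refine ⟨?_, ?_, ?_, ?_⟩
    · intro A hA B hB _
      rw [Finset.mem_coe, mem_flag] at hA hB
      obtain ⟨c, hc, rfl⟩ := hA
      obtain ⟨d, hd, rfl⟩ := hB
      rcases le_total c d with h | h
      · exact Or.inl (act_mono g (std_mono h))
      · exact Or.inr (act_mono g (std_mono h))
    · intro W hW
      rw [mem_flag] at hW
      obtain ⟨d, hd, rfl⟩ := hW
      rwa [finrank_act, finrank_std (hE d hd)]
    · intro d hd
      exact ⟨_, mem_flag.mpr ⟨d, hd, rfl⟩, by rw [finrank_act, finrank_std (hE d hd)]⟩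
    · intro W hW
      rw [mem_flag] at hW
      obtain ⟨d, hd, rfl⟩ := hW
      rw [← act_mul]
      exact hx d hd
  · rintro ⟨hC, h1, h2, h3⟩
    obtain ⟨b, hb⟩ := Cfsg.Agent.H140.Adapt.exists_basis (F := F) C.card (Fin n → F) C rfl hC n
      (by simp)
    obtain ⟨g, hg⟩ := exists_matrix b
    have hgC : flag E g = C := by
      ext W
      rw [mem_flag]
      constructor
      · rintro ⟨d, hd, rfl⟩
        obtain ⟨W, hW, hWd⟩ := h2 d hd
        rw [hg, ← hWd, ← hb W hW]
        exact hW
      · intro hW
        exact ⟨_, h1 W hW, by rw [hg, ← hb W hW]⟩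
    refine ⟨g, hgC, ?_⟩
    rw [← hgC, flag_eq_iff hE]
    intro d hd
    rw [act_mul]
    apply h3
    rw [← hgC, mem_flag]
    exact ⟨d, hd, rfl⟩

/-- **The number of fixed cosets of a standard parabolic subgroup.** -/
theorem card_fixedBy_eq {E : Finset ℕ} (hE : ∀ d ∈ E, d ≤ n) (P : Subgroup (GL (Fin n) F))
    (hP : ∀ g, g ∈ P ↔ ∀ d ∈ E, act g (std n F d) = std n F d) (x : GL (Fin n) F) :
    Nat.card (MulAction.fixedBy (GL (Fin n) F ⧸ P) x) =
      Nat.card {C : Finset (Submodule F (Fin n → F)) // IsFlag E x C} := by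
  rw [card_fixedBy P (flag E) (fun g h => by rw [flag_eq_iff' hE, hP]) x]
  exact Nat.card_congr (Equiv.subtypeEquivRight fun C => exists_flag_iff hE x C)

end act

end Cfsg.Agent.H140.Flags
end

-- part: H140/SemiMu
section
/-!
# The Möbius function of the lattice of submodules of a finite semisimple `F[X]`-module

`HasType l M`: `M` is a direct sum of modules `F[X] / (f)`, `f ∈ l`.
* `card_hom`: `|Hom(M, F[X] / (f))| = |F[X] / (f)| ^ (l.count f)`;
* `mu_top`: `mu (⊤ : Submodule F[X] M) = val l`;
* `exists_type`: finite semisimple modules have a type;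
* `charpoly_eq`: the characteristic polynomial of `X` on `M` is the product of `l`.
-/

set_option autoImplicit false

namespace Cfsg.Agent.H140.SemiMu

open Polynomial Cfsg.Agent.H140.Moebius

universe u

section general

variable {R : Type*} [CommRing R] {M : Type*} [AddCommGroup M] [Module R M]

noncomputable instance fintypeSubmodule (R : Type*) [CommRing R] (M : Type*) [AddCommGroup M]
    [Module R M] [Finite M] : Fintype (Submodule R M) := Fintype.ofFinite _

/-- the Möbius number of a finite module -/
noncomputable def muM (R : Type*) [CommRing R] (M : Type*) [AddCommGroup M]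
    [Module R M] [Finite M] : ℤ := mu (⊤ : Submodule R M)

theorem mu_submodule [Finite M] (y : Submodule R M) : mu y = muM R y := by
  have h := mu_map (P := Submodule R y) (Q := Submodule R M) (fun N => N.map y.subtype)
    (fun a b => Submodule.map_le_map_iff_of_injective y.subtype_injective a b) (Submodule.map_bot _)
    (by
      intro a b hb
      refine ⟨b.comap y.subtype, ?_⟩
      rw [Submodule.map_comap_subtype, inf_eq_right]
      exact hb.trans (Submodule.map_subtype_le _ _)) ⊤
  rw [Submodule.map_top, Submodule.range_subtype] at h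
  exact h

theorem muM_congr {N : Type*} [AddCommGroup N] [Module R N] [Finite M] [Finite N]
    (e : M ≃ₗ[R] N) : muM R M = muM R N := by
  have h := mu_map (P := Submodule R M) (Q := Submodule R N) (fun K => K.map (e : M →ₗ[R] N))
    (fun a b => Submodule.map_le_map_iff_of_injective e.injective a b) (Submodule.map_bot _)
    (by
      intro a b _
      refine ⟨b.comap (e : M →ₗ[R] N), ?_⟩
      exact Submodule.map_comap_eq_of_surjective e.surjective b) ⊤
  rw [Submodule.map_top, LinearMap.range_eq_top.mpr e.surjective] at h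
  exact h.symm

theorem muM_of_subsingleton [Finite M] [Subsingleton M] : muM R M = 1 := by
  unfold muM
  rw [Subsingleton.elim (⊤ : Submodule R M) ⊥, mu_bot]

/-- The number of complements. -/
theorem card_compl {s y : Submodule R M} (h : IsCompl s y) :
    Nat.card {q : Submodule R M // IsCompl s q} = Nat.card (y →ₗ[R] s) := by
  rw [Nat.card_congr s.isComplEquivProj]
  refine Nat.card_congr ⟨fun f => f.1.comp y.subtype, fun g =>
    ⟨LinearMap.ofIsCompl h LinearMap.id g, fun x => by
      rw [LinearMap.ofIsCompl_apply_left]; rfl⟩, ?_, ?_⟩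
  · rintro ⟨f, hf⟩
    apply Subtype.ext
    refine LinearMap.ofIsCompl_eq h ?_ ?_
    · intro x
      exact (hf x).symm
    · intro x
      rfl
  · intro g
    ext x
    simp

/-- **Weisner's theorem for a simple submodule.** -/
theorem muM_eq [Finite M] {s y : Submodule R M} (h : IsCompl s y) (hs : IsSimpleModule R s) :
    muM R M = - (Nat.card (y →ₗ[R] s) : ℤ) * muM R y := by
  classical
  have hatom : IsAtom s := isSimpleModule_iff_isAtom.mp hs
  have hw : ∑ y ∈ Finset.univ.filter (fun y : Submodule R M => y ⊔ s = ⊤), mu y = 0 := by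
    convert weisner (P := Submodule R M) hatom.1 ⊤ le_top
  have htop : (⊤ : Submodule R M) ∈ Finset.univ.filter (fun y : Submodule R M => y ⊔ s = ⊤) := by
    simp
  rw [← Finset.add_sum_erase _ _ htop] at hw
  have e : (Finset.univ.filter (fun y : Submodule R M => y ⊔ s = ⊤)).erase ⊤ =
      Finset.univ.filter (fun q : Submodule R M => IsCompl s q) := by
    ext q
    simp only [Finset.mem_erase, Finset.mem_filter, Finset.mem_univ, true_and]
    constructor
    · rintro ⟨hne, hsup⟩
      refine ⟨?_, ?_⟩
      · rw [disjoint_iff]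
        rcases hatom.le_iff.mp (inf_le_left : s ⊓ q ≤ s) with h1 | h1
        · exact h1
        · exfalso
          apply hne
          have h2 : s ≤ q := inf_eq_left.mp h1
          rw [sup_eq_left.mpr h2] at hsup
          exact hsup
      · rw [codisjoint_iff, sup_comm]
        exact hsup
    · intro hq
      refine ⟨?_, ?_⟩
      · rintro rfl
        exact hatom.1 (by simpa using hq.disjoint.eq_bot)
      · rw [sup_comm]
        exact hq.sup_eq_top
  have hsum : ∑ q ∈ Finset.univ.filter (fun q : Submodule R M => IsCompl s q), mu q =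
      (Nat.card (y →ₗ[R] s) : ℤ) * muM R y := by
    have h1 : ∀ q ∈ Finset.univ.filter (fun q : Submodule R M => IsCompl s q), mu q = muM R y := by
      intro q hq
      simp only [Finset.mem_filter, Finset.mem_univ, true_and] at hq
      rw [mu_submodule]
      exact muM_congr ((Submodule.quotientEquivOfIsCompl s q hq).symm.trans
        (Submodule.quotientEquivOfIsCompl s y h))
    rw [Finset.sum_congr rfl h1, Finset.sum_const, nsmul_eq_mul, ← card_compl h,
      Nat.card_eq_fintype_card, Fintype.card_subtype]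
  rw [e, hsum] at hw
  have h3 : muM R M = mu (⊤ : Submodule R M) := rfl
  rw [h3]
  linarith

end general

section types

variable {F : Type u} [Field F]

/-- `M` is the direct sum of `F[X] / (f)`, `f ∈ l`. -/
def HasType {F : Type u} [Field F] : List F[X] → ∀ (M : Type u) [AddCommGroup M] [Module F[X] M], Prop
  | [], M, _, _ => Subsingleton M
  | f :: l, M, _, _ => ∃ s y : Submodule F[X] M, IsCompl s y ∧
      Nonempty (s ≃ₗ[F[X]] (F[X] ⧸ Ideal.span {f})) ∧ HasType l y

/-- the value -/
noncomputable def val {F : Type u} [Field F] [DecidableEq F[X]] (q : ℕ) : List F[X] → ℤ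
  | [] => 1
  | f :: l => - ((q : ℤ) ^ f.natDegree) ^ (l.count f) * val q l

theorem card_quot [Finite F] {f : F[X]} (hf : f.Monic) :
    Nat.card (F[X] ⧸ Ideal.span {f}) = Nat.card F ^ f.natDegree := by
  have h : Module.finrank F (AdjoinRoot f) = f.natDegree := by
    rw [(AdjoinRoot.powerBasis hf.ne_zero).finrank, AdjoinRoot.powerBasis_dim]
  have : Module.Finite F (AdjoinRoot f) := (AdjoinRoot.powerBasis hf.ne_zero).finite
  have h2 := Module.natCard_eq_pow_finrank (K := F) (V := AdjoinRoot f)
  rw [h] at h2
  exact h2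

theorem smul_quot (f : F[X]) (a : F[X] ⧸ Ideal.span {f}) : f • a = 0 := by
  obtain ⟨b, rfl⟩ := Ideal.Quotient.mk_surjective a
  rw [← Ideal.Quotient.mk_eq_mk, ← Submodule.Quotient.mk_smul, Submodule.Quotient.mk_eq_zero]
  exact Ideal.mul_mem_right _ _ (Ideal.mem_span_singleton_self f)

theorem hom_ext {f : F[X]} {N : Type*} [AddCommGroup N] [Module F[X] N]
    {φ ψ : (F[X] ⧸ Ideal.span {f}) →ₗ[F[X]] N} (h : φ 1 = ψ 1) : φ = ψ := by
  apply LinearMap.ext
  intro a
  obtain ⟨b, rfl⟩ := Ideal.Quotient.mk_surjective a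
  have e : (Ideal.Quotient.mk (Ideal.span {f})) b = b • (1 : F[X] ⧸ Ideal.span {f}) := by
    rw [← map_one (Ideal.Quotient.mk (Ideal.span {f})), ← Ideal.Quotient.mk_eq_mk,
      ← Ideal.Quotient.mk_eq_mk, ← Submodule.Quotient.mk_smul, smul_eq_mul, mul_one]
  rw [e, map_smul, map_smul, h]

theorem card_hom_simple [Finite F] {f g : F[X]} (hf : f.Monic) (hg : g.Monic) (hf' : Irreducible f)
    (hg' : Irreducible g) [Decidable (g = f)] :
    Nat.card ((F[X] ⧸ Ideal.span {g}) →ₗ[F[X]] (F[X] ⧸ Ideal.span {f})) =
      if g = f then Nat.card F ^ f.natDegree else 1 := by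
  split_ifs with h
  · subst h
    rw [← card_quot hf]
    refine Nat.card_congr ⟨fun φ => φ 1, fun a => (Submodule.liftQ _
      (LinearMap.toSpanSingleton F[X] _ a) (by
        refine Ideal.span_le.mpr ?_
        rintro _ rfl
        exact smul_quot _ _)), ?_, ?_⟩
    · intro φ
      apply hom_ext
      have e : (1 : F[X] ⧸ Ideal.span {g}) = Submodule.Quotient.mk (1 : F[X]) := rfl
      rw [e, Submodule.liftQ_apply, LinearMap.toSpanSingleton_apply, one_smul]
    · intro a
      have e : (1 : F[X] ⧸ Ideal.span {g}) = Submodule.Quotient.mk (1 : F[X]) := rfl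
      change (Submodule.liftQ _ _ _) (1 : F[X] ⧸ Ideal.span {g}) = a
      rw [e, Submodule.liftQ_apply, LinearMap.toSpanSingleton_apply, one_smul]
  · have hcop : IsCoprime g f := by
      rw [hg'.coprime_iff_not_dvd]
      intro hd
      exact h (eq_of_monic_of_associated hg hf ((hg'.associated_of_dvd hf') hd))
    obtain ⟨u, v, huv⟩ := hcop
    have : Subsingleton ((F[X] ⧸ Ideal.span {g}) →ₗ[F[X]] (F[X] ⧸ Ideal.span {f})) := by
      refine ⟨fun φ ψ => ?_⟩
      have key : ∀ φ : (F[X] ⧸ Ideal.span {g}) →ₗ[F[X]] (F[X] ⧸ Ideal.span {f}), φ 1 = 0 := by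
        intro φ
        calc φ 1 = (u * g + v * f) • φ 1 := by rw [huv, one_smul]
          _ = u • φ (g • 1) + v • (f • φ 1) := by rw [add_smul, mul_smul, mul_smul, map_smul]
          _ = 0 := by rw [smul_quot, smul_quot, map_zero, smul_zero, smul_zero, add_zero]
      exact hom_ext ((key φ).trans (key ψ).symm)
    exact Nat.card_of_subsingleton 0

/-- **Homomorphisms to a simple module.** -/
theorem card_hom [Finite F] [DecidableEq F[X]] {f : F[X]} (hf : f.Monic) (hf' : Irreducible f)
    (l : List F[X]) (hl : ∀ g ∈ l, g.Monic ∧ Irreducible g) (M : Type u) [AddCommGroup M]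
    [Module F[X] M] (hM : HasType l M) {S : Type*} [AddCommGroup S] [Module F[X] S]
    (e : S ≃ₗ[F[X]] (F[X] ⧸ Ideal.span {f})) :
    Nat.card (M →ₗ[F[X]] S) = (Nat.card F ^ f.natDegree) ^ (l.count f) := by
  induction l generalizing M with
  | nil =>
    have : Subsingleton M := hM
    have h2 : Subsingleton (M →ₗ[F[X]] S) := ⟨fun φ ψ => LinearMap.ext fun x => by
      rw [Subsingleton.elim x 0, map_zero, map_zero]⟩
    rw [List.count_nil, pow_zero]
    exact Nat.card_of_subsingleton 0
  | cons g l ih =>
    obtain ⟨s, y, hsy, ⟨es⟩, hy⟩ := hM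
    have ih' := ih (fun g hg => hl g (List.mem_cons_of_mem _ hg)) y hy
    have hg := hl g List.mem_cons_self
    have e1 : (M →ₗ[F[X]] S) ≃ (s →ₗ[F[X]] S) × (y →ₗ[F[X]] S) :=
      ((LinearEquiv.arrowCongr (Submodule.prodEquivOfIsCompl s y hsy).symm
        (LinearEquiv.refl F[X] S)).toEquiv.trans
        (LinearMap.coprodEquiv F[X] (M := s) (M₂ := y) (M₃ := S)).symm.toEquiv)
    rw [Nat.card_congr e1, Nat.card_prod, ih',
      Nat.card_congr (LinearEquiv.arrowCongr es e).toEquiv, card_hom_simple hf hg.1 hf' hg.2,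
      List.count_cons]
    by_cases h : g = f
    · rw [if_pos h, if_pos (by simpa using h), pow_succ, mul_comm]
    · rw [if_neg h, if_neg (by simpa using h), one_mul, add_zero]

/-- **The Möbius number of a semisimple module.** -/
theorem mu_top [Finite F] [DecidableEq F[X]] (l : List F[X])
    (hl : ∀ g ∈ l, g.Monic ∧ Irreducible g) (M : Type u) [AddCommGroup M]
    [Module F[X] M] [Finite M] (hM : HasType l M) : muM F[X] M = val (Nat.card F) l := by
  induction l generalizing M with
  | nil =>
    have : Subsingleton M := hM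
    exact muM_of_subsingleton
  | cons f l ih =>
    obtain ⟨s, y, hsy, ⟨es⟩, hy⟩ := hM
    have hl' : ∀ g ∈ l, g.Monic ∧ Irreducible g := fun g hg => hl g (List.mem_cons_of_mem _ hg)
    have ih' := ih hl' y hy
    have hf := hl f List.mem_cons_self
    have hmax : (Ideal.span {f} : Ideal F[X]).IsMaximal :=
      PrincipalIdealRing.isMaximal_of_irreducible hf.2
    have hsimp : IsSimpleModule F[X] s := by
      have h1 : IsSimpleModule F[X] (F[X] ⧸ Ideal.span {f}) :=
        isSimpleModule_iff_isCoatom.mpr (Ideal.isMaximal_def.mp hmax)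
      exact IsSimpleModule.congr es
    rw [muM_eq hsy hsimp, card_hom hf.1 hf.2 l hl' y hy es, ih', val]
    push_cast
    rfl

theorem exists_type [Finite F] (M : Type u) [AddCommGroup M]
    [Module F[X] M] [Finite M] [IsSemisimpleModule F[X] M] :
    ∃ l : List F[X], (∀ g ∈ l, g.Monic ∧ Irreducible g) ∧ HasType l M := by
  classical
  obtain ⟨n, hn⟩ : ∃ n, Nat.card M = n := ⟨_, rfl⟩
  induction n using Nat.strong_induction_on generalizing M with
  | _ n ih =>
    rcases subsingleton_or_nontrivial M with h | h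
    · exact ⟨[], by simp, h⟩
    · obtain ⟨s, hs⟩ := IsAtomic.exists_atom (Submodule F[X] M)
      obtain ⟨y, hy⟩ := exists_isCompl s
      have hsimp : IsSimpleModule F[X] s := isSimpleModule_iff_isAtom.mpr hs
      have hlt : Nat.card y < n := by
        rw [← hn]
        have hne : y ≠ ⊤ := by
          rintro rfl
          exact hs.1 (by simpa using hy.disjoint.eq_bot)
        have h1 : (y : Set M) ⊂ Set.univ := by
          rw [Set.ssubset_univ_iff]
          exact fun h => hne (SetLike.coe_injective h)
        have h2 := Set.ncard_lt_ncard h1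
        rw [Set.ncard_univ] at h2
        exact h2
      obtain ⟨l, hl, hly⟩ := ih (Nat.card y) hlt y rfl
      obtain ⟨I, hI, ⟨e⟩⟩ := isSimpleModule_iff_quot_maximal.mp hsimp
      obtain ⟨f, hf⟩ := IsPrincipalIdealRing.principal I
      have hf' : I = Ideal.span {f} := hf
      have hIne : I ≠ ⊥ := Ring.ne_bot_of_isMaximal_of_not_isField hI (Polynomial.not_isField F)
      have hf0 : f ≠ 0 := by
        rintro rfl
        exact hIne (by simpa using hf')
      have hassoc : Associated (normalize f) f := (associated_normalize f).symm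
      have hirr : Irreducible (normalize f) := by
        rw [hf'] at hI
        exact (hassoc.irreducible_iff).mpr
          ((Ideal.span_singleton_prime hf0).mp hI.isPrime).irreducible
      have hspan : I = Ideal.span {normalize f} := by
        rw [hf']
        exact (Ideal.span_singleton_eq_span_singleton.mpr hassoc).symm
      refine ⟨normalize f :: l, ?_, s, y, hy, ?_, hly⟩
      · intro g hg
        rcases List.mem_cons.mp hg with rfl | hg
        · exact ⟨Polynomial.monic_normalize hf0, hirr⟩
        · exact hl g hg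
      · rw [← hspan]
        exact ⟨e⟩

/-- multiplication by `X` as an `F`-linear map -/
noncomputable def xend (F : Type*) [Field F] (M : Type*) [AddCommGroup M] [Module F M]
    [Module F[X] M] [IsScalarTower F F[X] M] : M →ₗ[F] M := Algebra.lsmul F F M (X : F[X])

theorem xend_apply {F : Type*} [Field F] {M : Type*} [AddCommGroup M] [Module F M]
    [Module F[X] M] [IsScalarTower F F[X] M] (m : M) : xend F M m = (X : F[X]) • m := rfl

theorem charpoly_quot {f : F[X]} (hf : f.Monic) (M : Type*) [AddCommGroup M] [Module F M]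
    [Module F[X] M] [IsScalarTower F F[X] M] [Module.Finite F M]
    (e : M ≃ₗ[F[X]] (F[X] ⧸ Ideal.span {f})) : (xend F M).charpoly = f := by
  have hfin : Module.Finite F (AdjoinRoot f) := (AdjoinRoot.powerBasis hf.ne_zero).finite
  have hfin' : Module.Finite F (F[X] ⧸ Ideal.span {f}) := hfin
  have h1 : (xend F (F[X] ⧸ Ideal.span {f})).charpoly = f := by
    set B := AdjoinRoot.powerBasis hf.ne_zero
    have h2 := charpoly_leftMulMatrix B
    rw [AdjoinRoot.powerBasis_gen, AdjoinRoot.minpoly_root hf.ne_zero, hf.leadingCoeff, inv_one,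
      map_one, mul_one] at h2
    rw [Algebra.leftMulMatrix_apply, LinearMap.charpoly_toMatrix] at h2
    exact h2
  rw [← h1]
  rw [← LinearEquiv.charpoly_conj (e.restrictScalars F)]
  congr 1
  apply LinearMap.ext
  intro a
  rw [LinearEquiv.conj_apply_apply, xend_apply, xend_apply]
  change e ((X : F[X]) • e.symm a) = X • a
  rw [map_smul, LinearEquiv.apply_symm_apply]

theorem charpoly_compl (M : Type*) [AddCommGroup M] [Module F M]
    [Module F[X] M] [IsScalarTower F F[X] M] [Module.Finite F M] {s y : Submodule F[X] M}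
    (h : IsCompl s y) [Module.Finite F s] [Module.Finite F y] :
    (xend F M).charpoly = (xend F s).charpoly * (xend F y).charpoly := by
  rw [← LinearMap.charpoly_prodMap,
    ← LinearEquiv.charpoly_conj ((Submodule.prodEquivOfIsCompl s y h).restrictScalars F)]
  congr 1
  apply LinearMap.ext
  intro a
  obtain ⟨b, rfl⟩ := (Submodule.prodEquivOfIsCompl s y h).surjective a
  rw [LinearEquiv.conj_apply_apply, xend_apply]
  change (X : F[X]) • (Submodule.prodEquivOfIsCompl s y h) b = (Submodule.prodEquivOfIsCompl s y h)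
    ((xend F s).prodMap (xend F y) ((Submodule.prodEquivOfIsCompl s y h).symm
      ((Submodule.prodEquivOfIsCompl s y h) b)))
  rw [LinearEquiv.symm_apply_apply, ← map_smul]
  rfl

theorem charpoly_eq (l : List F[X]) (hl : ∀ g ∈ l, g.Monic ∧ Irreducible g) (M : Type u)
    [AddCommGroup M] [Module F M] [Module F[X] M] [IsScalarTower F F[X] M] [Module.Finite F M]
    (hM : HasType l M) : (xend F M).charpoly = l.prod := by
  induction l generalizing M with
  | nil =>
    have : Subsingleton M := hM
    rw [List.prod_nil]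
    have h1 := LinearMap.charpoly_natDegree (xend F M)
    rw [Module.finrank_zero_of_subsingleton] at h1
    exact (Polynomial.Monic.natDegree_eq_zero (LinearMap.charpoly_monic (xend F M))).mp h1
  | cons f l ih =>
    obtain ⟨s, y, hsy, ⟨es⟩, hy⟩ := hM
    have hs : Module.Finite F s := Module.Finite.of_injective (s.subtype.restrictScalars F) s.subtype_injective
    have hyf : Module.Finite F y := Module.Finite.of_injective (y.subtype.restrictScalars F) y.subtype_injective
    have ih' := ih (fun g hg => hl g (List.mem_cons_of_mem _ hg)) y hy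
    have hf := hl f List.mem_cons_self
    rw [charpoly_compl M hsy, charpoly_quot hf.1 s es, ih', List.prod_cons]

end types

end Cfsg.Agent.H140.SemiMu
end

-- part: H140/SteinVal
section
/-!
# The Steinberg character of `GL_n(q)` as a Möbius function
-/

set_option autoImplicit false

namespace Cfsg.Agent.H140.SteinVal

open Module Polynomial Matrix Cfsg.Agent.H140.Moebius Cfsg.Agent.H140.Flags Cfsg.Agent.H140.SteinComb
  Cfsg.Agent.H140.SemiMu

universe u

variable {n : ℕ} {F : Type u} [Field F]

/-- the endomorphism of a matrix -/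
abbrev En (x : GL (Fin n) F) : (Fin n → F) →ₗ[F] (Fin n → F) :=
  Matrix.toLin' (x : Matrix (Fin n) (Fin n) F)

/-- the `F[X]`-module of a matrix -/
abbrev A (x : GL (Fin n) F) : Type u := Module.AEval' (En x)

/-- the subspace of a submodule -/
noncomputable def ψ (x : GL (Fin n) F) (K : Submodule F[X] (A x)) : Submodule F (Fin n → F) :=
  (K.restrictScalars F).comap (AEval'.of (En x) : (Fin n → F) →ₗ[F] A x)

theorem mem_ψ {x : GL (Fin n) F} {K : Submodule F[X] (A x)} {v : Fin n → F} :
    v ∈ ψ x K ↔ AEval'.of (En x) v ∈ K := Iff.rfl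

theorem ψ_le_iff {x : GL (Fin n) F} {K L : Submodule F[X] (A x)} : ψ x K ≤ ψ x L ↔ K ≤ L := by
  constructor
  · intro h a ha
    obtain ⟨v, rfl⟩ := (AEval'.of (En x)).surjective a
    exact h ha
  · intro h v hv
    exact h hv

theorem ψ_injective {x : GL (Fin n) F} : Function.Injective (ψ x) := fun _ _ h =>
  le_antisymm (ψ_le_iff.mp h.le) (ψ_le_iff.mp h.ge)

theorem act_ψ {x : GL (Fin n) F} (K : Submodule F[X] (A x)) : act x (ψ x K) = ψ x K := by
  apply Submodule.eq_of_le_of_finrank_eq _ (finrank_act x _)
  rintro _ ⟨v, hv, rfl⟩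
  change v ∈ ψ x K at hv
  rw [mem_ψ] at hv ⊢
  have h := K.smul_mem (X : F[X]) hv
  rw [AEval'.X_smul_of] at h
  exact h

theorem exists_ψ {x : GL (Fin n) F} {W : Submodule F (Fin n → F)} (hW : act x W = W) :
    ∃ K, ψ x K = W := by
  have h : W ∈ (Algebra.lsmul F F (Fin n → F) (En x)).invtSubmodule := by
    intro v hv
    have h2 : En x v ∈ act x W := ⟨v, hv, rfl⟩
    rw [hW] at h2
    exact h2
  refine ⟨AEval.mapSubmodule F (Fin n → F) (En x) ⟨W, h⟩, ?_⟩
  ext v
  rw [mem_ψ, AEval.mem_mapSubmodule_apply]
  rfl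

theorem ψ_bot (x : GL (Fin n) F) : ψ x ⊥ = ⊥ := by
  ext v
  rw [mem_ψ, Submodule.mem_bot, Submodule.mem_bot, LinearEquiv.map_eq_zero_iff]

theorem ψ_top (x : GL (Fin n) F) : ψ x ⊤ = ⊤ := by
  ext v
  rw [mem_ψ]
  simp

/-- the dimension -/
noncomputable def dm (x : GL (Fin n) F) (K : Submodule F[X] (A x)) : ℕ := finrank F (ψ x K)

theorem dm_pos_iff {x : GL (Fin n) F} {K : Submodule F[X] (A x)} : 0 < dm x K ↔ ⊥ < K := by
  unfold dm
  rw [Nat.pos_iff_ne_zero, Ne, Submodule.finrank_eq_zero, bot_lt_iff_ne_bot, ← ψ_bot x,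
    ψ_injective.eq_iff]

theorem dm_lt_iff {x : GL (Fin n) F} {K : Submodule F[X] (A x)} : dm x K < n ↔ K < ⊤ := by
  have h1 : finrank F (Fin n → F) = n := by simp
  unfold dm
  constructor
  · intro h
    rw [lt_top_iff_ne_top]
    rintro rfl
    rw [ψ_top, finrank_top, h1] at h
    exact lt_irrefl _ h
  · intro h
    have h2 : ψ x K ≠ ⊤ := by
      rw [← ψ_top x, ψ_injective.ne_iff]
      exact h.ne
    have h3 := Submodule.finrank_lt h2
    rwa [h1] at h3

theorem dm_inj {x : GL (Fin n) F} {K L : Submodule F[X] (A x)} (h : K ≤ L) (hd : dm x K = dm x L) :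
    K = L := ψ_injective (Submodule.eq_of_le_of_finrank_eq (ψ_le_iff.mpr h) hd)

variable [Finite F]

instance finiteA (x : GL (Fin n) F) : Finite (A x) := inferInstanceAs (Finite (Fin n → F))

open Classical in
/-- **Flags of type `E` fixed by `x` are the chains of submodules of type `E`.** -/
theorem card_isFlag (x : GL (Fin n) F) {E : Finset ℕ} (hE : E ⊆ Finset.Ioo 0 n) :
    Nat.card {C : Finset (Submodule F (Fin n → F)) // IsFlag E x C} =
      ((chains (⊤ : Submodule F[X] (A x))).filter fun C => C.image (dm x) = E).card := by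
  have hcard : ∀ S : Finset (Finset (Submodule F[X] (A x))), S.card = Nat.card {C // C ∈ S} := by
    intro S
    rw [Nat.card_eq_fintype_card, Fintype.card_coe]
  rw [hcard]
  symm
  refine Nat.card_congr (Equiv.ofBijective (fun C => ⟨C.1.image (ψ x), ?_⟩) ⟨?_, ?_⟩)
  · obtain ⟨C, hC⟩ := C
    rw [Finset.mem_filter, mem_chains] at hC
    obtain ⟨⟨hch, hlt⟩, him⟩ := hC
    refine ⟨?_, ?_, ?_, ?_⟩
    · intro U hU W hW _
      rw [Finset.mem_coe, Finset.mem_image] at hU hW
      obtain ⟨K, hK, rfl⟩ := hU
      obtain ⟨L, hL, rfl⟩ := hW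
      rcases hch.total hK hL with h | h
      · exact Or.inl (ψ_le_iff.mpr h)
      · exact Or.inr (ψ_le_iff.mpr h)
    · intro W hW
      rw [Finset.mem_image] at hW
      obtain ⟨K, hK, rfl⟩ := hW
      rw [← him]
      exact Finset.mem_image_of_mem (dm x) hK
    · intro d hd
      rw [← him, Finset.mem_image] at hd
      obtain ⟨K, hK, rfl⟩ := hd
      exact ⟨_, Finset.mem_image_of_mem _ hK, rfl⟩
    · intro W hW
      rw [Finset.mem_image] at hW
      obtain ⟨K, hK, rfl⟩ := hW
      exact act_ψ K
  · intro C C' h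
    exact Subtype.ext (Finset.image_injective ψ_injective (congrArg Subtype.val h))
  · rintro ⟨C, hch, h1, h2, h3⟩
    have hex : ∀ W : Submodule F (Fin n → F), ∃ K : Submodule F[X] (A x), W ∈ C → ψ x K = W := by
      intro W
      by_cases hW : W ∈ C
      · obtain ⟨K, hK⟩ := exists_ψ (h3 W hW)
        exact ⟨K, fun _ => hK⟩
      · exact ⟨⊥, fun h => absurd h hW⟩
    choose χ hχ using hex
    have him : (C.image χ).image (ψ x) = C := by
      rw [Finset.image_image]
      ext W
      rw [Finset.mem_image]
      constructor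
      · rintro ⟨U, hU, rfl⟩
        rw [Function.comp_apply, hχ U hU]
        exact hU
      · intro hW
        exact ⟨W, hW, hχ W hW⟩
    refine ⟨⟨C.image χ, ?_⟩, Subtype.ext him⟩
    rw [Finset.mem_filter, mem_chains]
    refine ⟨⟨?_, ?_⟩, ?_⟩
    · intro K hK L hL _
      rw [Finset.mem_coe, Finset.mem_image] at hK hL
      obtain ⟨U, hU, rfl⟩ := hK
      obtain ⟨W, hW, rfl⟩ := hL
      rcases hch.total hU hW with h | h
      · left
        change χ U ≤ χ W
        rw [← ψ_le_iff, hχ U hU, hχ W hW]
        exact h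
      · right
        change χ W ≤ χ U
        rw [← ψ_le_iff, hχ U hU, hχ W hW]
        exact h
    · intro K hK
      rw [Finset.mem_image] at hK
      obtain ⟨U, hU, rfl⟩ := hK
      have h4 := Finset.mem_Ioo.mp (hE (h1 U hU))
      have h5 : dm x (χ U) = finrank F U := by
        unfold dm
        rw [hχ U hU]
      rw [← h5] at h4
      exact ⟨dm_pos_iff.mp h4.1, dm_lt_iff.mp h4.2⟩
    · ext d
      rw [Finset.image_image, Finset.mem_image]
      constructor
      · rintro ⟨U, hU, rfl⟩
        rw [Function.comp_apply, dm, hχ U hU]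
        exact h1 U hU
      · intro hd
        obtain ⟨U, hU, rfl⟩ := h2 d hd
        exact ⟨U, hU, by rw [Function.comp_apply, dm, hχ U hU]⟩

/-- **The alternating sum for `ν = (1, …, 1)` is a Möbius number.** -/
theorem unipotent_eq (x : GL (Fin (n + 1)) F) :
    Cfsg.unipotentCharacterGL (n + 1) F (fun _ => 1) x = (-1) ^ (n + 1) * ((muM F[X] (A x) : ℤ) : ℂ) := by
  classical
  have hle : ∀ κ : Equiv.Perm (Fin (n + 1)), ∀ d ∈ D κ, d ≤ n + 1 := by
    intro κ d hd
    rw [mem_D] at hd
    exact hd.1.2.le
  have h1 : Cfsg.unipotentCharacterGL (n + 1) F (fun _ => 1) x =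
      ∑ κ : Equiv.Perm (Fin (n + 1)), if ∀ i : Fin (n + 1), (κ i).val ≤ 1 + i.val then
      ((Equiv.Perm.sign κ : ℤ) : ℂ) *
        ((Nat.card {C : Finset (Submodule F (Fin (n + 1) → F)) // IsFlag (D κ) x C} : ℕ) : ℂ) else 0 := by
    unfold Cfsg.unipotentCharacterGL
    apply Finset.sum_congr rfl
    intro κ _
    split_ifs with hκ
    · congr 1
      unfold Cfsg.fixedPointCharacter
      rw [card_fixedBy_eq (hle κ) (Cfsg.parabolicGL (n + 1) F fun i => 1 + i.val - (κ i).val) ?_ x]
      intro g
      rw [mem_parabolic_iff κ hκ]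
      constructor
      · intro h d hd
        rw [act_std_eq_iff]
        exact h d hd
      · intro h d hd
        rw [← act_std_eq_iff]
        exact h d hd
    · rfl
  rw [h1, sum_perm n (fun E =>
    ((Nat.card {C : Finset (Submodule F (Fin (n + 1) → F)) // IsFlag E x C} : ℕ) : ℂ))]
  have h2 : ∀ E ∈ (Finset.Ioo 0 (n + 1)).powerset, (-1 : ℂ) ^ (n + E.card) *
      ((Nat.card {C : Finset (Submodule F (Fin (n + 1) → F)) // IsFlag E x C} : ℕ) : ℂ) =
      ∑ C ∈ (chains (⊤ : Submodule F[X] (A x))).filter (fun C => C.image (dm x) = E),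
        (-1 : ℂ) ^ (n + C.card) := by
    intro E hE
    rw [card_isFlag x (Finset.mem_powerset.mp hE)]
    have h3 : ∀ C ∈ (chains (⊤ : Submodule F[X] (A x))).filter (fun C => C.image (dm x) = E),
        (-1 : ℂ) ^ (n + C.card) = (-1 : ℂ) ^ (n + E.card) := by
      intro C hC
      rw [Finset.mem_filter, mem_chains] at hC
      rw [← hC.2, Finset.card_image_of_injOn]
      intro K hK L hL hKL
      rcases hC.1.1.total hK hL with h | h
      · exact dm_inj h hKL
      · exact (dm_inj h hKL.symm).symm
    rw [Finset.sum_congr rfl h3, Finset.sum_const, nsmul_eq_mul, mul_comm]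
  rw [Finset.sum_congr rfl h2, Finset.sum_fiberwise_of_maps_to]
  · have h4 : muM F[X] (A x) = - csum (⊤ : Submodule F[X] (A x)) := by
      unfold muM
      apply mu_of_ne
      intro h
      have h5 : dm x (⊤ : Submodule F[X] (A x)) = 0 := by
        by_contra h6
        exact (dm_pos_iff.mp (Nat.pos_of_ne_zero h6)).ne' h
      unfold dm at h5
      rw [ψ_top, finrank_top] at h5
      simp at h5
    rw [h4, csum]
    push_cast
    rw [mul_neg, pow_succ, mul_neg_one, neg_mul, neg_neg, Finset.mul_sum]
    apply Finset.sum_congr rfl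
    intro C _
    rw [pow_add]
  · intro C hC
    rw [mem_chains] at hC
    rw [Finset.mem_powerset]
    intro d hd
    rw [Finset.mem_image] at hd
    obtain ⟨K, hK, rfl⟩ := hd
    rw [Finset.mem_Ioo]
    exact ⟨dm_pos_iff.mpr (hC.2 K hK).1, dm_lt_iff.mpr (hC.2 K hK).2⟩

end Cfsg.Agent.H140.SteinVal
end

-- part: S2425
section
set_option autoImplicit false
open scoped MatrixGroups
open Cfsg

namespace Cfsg.Agent.S2425

open Polynomial Cfsg.Agent.H140.SemiMu Cfsg.Agent.H140.SteinVal

theorem natDegree_prod_list {F : Type*} [Field F] (l : List F[X]) (hl : ∀ g ∈ l, g.Monic) :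
    l.prod.natDegree = (l.map natDegree).sum := by
  induction l with
  | nil => simp
  | cons f l ih =>
    have hl' : ∀ g ∈ l, g.Monic := fun g hg => hl g (List.mem_cons_of_mem _ hg)
    have h1 : (l.prod).Monic := by
      have := monic_multiset_prod_of_monic (l : Multiset F[X]) (fun g => g) (by simpa using hl')
      simpa using this
    rw [List.prod_cons, (hl f List.mem_cons_self).natDegree_mul h1, ih hl', List.map_cons,
      List.sum_cons]

/-- the local factor -/
noncomputable def fac {F : Type*} [Field F] (q : ℕ) (f : F[X]) (c : ℕ) : ℂ :=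
  (-1 : ℂ) ^ ((f.natDegree - 1) * c) * (q : ℂ) ^ (f.natDegree * c * (c - 1) / 2)

theorem fac_succ {F : Type*} [Field F] (q : ℕ) (f : F[X]) (c : ℕ) :
    fac q f (c + 1) = (-1) ^ (f.natDegree - 1) * ((q : ℂ) ^ f.natDegree) ^ c * fac q f c := by
  unfold fac
  have h1 : f.natDegree * (c + 1) * (c + 1 - 1) / 2 = f.natDegree * c + f.natDegree * c * (c - 1) / 2 := by
    rcases Nat.eq_zero_or_pos c with rfl | hc
    · simp
    · obtain ⟨d, rfl⟩ : ∃ d, c = d + 1 := ⟨c - 1, by omega⟩
      have e : f.natDegree * (d + 1 + 1) * (d + 1 + 1 - 1) =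
          f.natDegree * (d + 1) * (d + 1 - 1) + (f.natDegree * (d + 1)) * 2 := by
        simp only [Nat.add_sub_cancel]
        ring
      rw [e, Nat.add_mul_div_right _ _ (by norm_num), add_comm]
  rw [h1, mul_add, mul_one, pow_add, pow_add, pow_mul, pow_mul]
  ring

theorem val_eq {F : Type*} [Field F] [DecidableEq F[X]] (q : ℕ) (l : List F[X])
    (hl : ∀ g ∈ l, 1 ≤ g.natDegree) :
    (-1 : ℂ) ^ (l.map natDegree).sum * ((val q l : ℤ) : ℂ) =
      ∏ f ∈ l.toFinset, fac q f (l.count f) := by
  induction l with
  | nil => simp [val]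
  | cons f l ih =>
    have hl' : ∀ g ∈ l, 1 ≤ g.natDegree := fun g hg => hl g (List.mem_cons_of_mem _ hg)
    have hf := hl f List.mem_cons_self
    have ih' := ih hl'
    have e1 : (-1 : ℂ) ^ f.natDegree * (-1) = (-1) ^ (f.natDegree - 1) := by
      obtain ⟨d, hd⟩ : ∃ d, f.natDegree = d + 1 := ⟨f.natDegree - 1, by omega⟩
      rw [hd, pow_succ, Nat.add_sub_cancel]
      ring
    have hlhs : (-1 : ℂ) ^ ((f :: l).map natDegree).sum * ((val q (f :: l) : ℤ) : ℂ) =
        (-1) ^ (f.natDegree - 1) * ((q : ℂ) ^ f.natDegree) ^ (l.count f) *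
          ∏ g ∈ l.toFinset, fac q g (l.count g) := by
      rw [← ih', val, List.map_cons, List.sum_cons, pow_add, ← e1]
      push_cast
      ring
    rw [hlhs]
    by_cases hfl : f ∈ l.toFinset
    · have hs : (f :: l).toFinset = l.toFinset := by
        rw [List.toFinset_cons, Finset.insert_eq_self.mpr hfl]
      rw [hs, ← Finset.mul_prod_erase _ _ hfl, ← Finset.mul_prod_erase _ _ hfl,
        List.count_cons_self, fac_succ q f]
      have h2 : ∏ g ∈ l.toFinset.erase f, fac q g ((f :: l).count g) =
          ∏ g ∈ l.toFinset.erase f, fac q g (l.count g) := by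
        apply Finset.prod_congr rfl
        intro g hg
        rw [List.count_cons_of_ne (Finset.ne_of_mem_erase hg).symm]
      rw [h2]
      ring
    · rw [List.toFinset_cons, Finset.prod_insert hfl, List.count_cons_self, fac_succ q f]
      have h0 : l.count f = 0 := List.count_eq_zero.mpr (by simpa using hfl)
      have h2 : ∏ g ∈ l.toFinset, fac q g ((f :: l).count g) =
          ∏ g ∈ l.toFinset, fac q g (l.count g) := by
        apply Finset.prod_congr rfl
        intro g hg
        rw [List.count_cons_of_ne]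
        rintro rfl
        exact hfl hg
      rw [h2, h0]
      simp [fac]

/-- Values of the Steinberg character of `GL_n(q)` (the partition-indexed character for `ν = (1,…,1)`, of degree `q^(n(n−1)/2)`) at elements of order prime to the characteristic: if the characteristic polynomial of such an element is `∏ f^(m_f)` over distinct monic irreducible `f`, the value is `∏_f (−1)^((deg f − 1) m_f) q^(deg f · m_f (m_f − 1)/2)`. (At elements of order divisible by the characteristic the value is 0; that is not part of this statement.) -/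
theorem result {F : Type*} [Field F] [Fintype F] [DecidableEq F] {q : ℕ} (hq : Fintype.card F = q) (p : ℕ) [Fact p.Prime] [CharP F p]
    {n : ℕ} (x : GL (Fin n) F) (hx : (orderOf x).Coprime p) :
    Cfsg.unipotentCharacterGL n F (fun _ => 1) x =
      ∏ f ∈ (UniqueFactorizationMonoid.normalizedFactors (x : Matrix (Fin n) (Fin n) F).charpoly).toFinset,
        (-1 : ℂ) ^ ((f.natDegree - 1) * (UniqueFactorizationMonoid.normalizedFactors (x : Matrix (Fin n) (Fin n) F).charpoly).count f) *
          (q : ℂ) ^ (f.natDegree * (UniqueFactorizationMonoid.normalizedFactors (x : Matrix (Fin n) (Fin n) F).charpoly).count f *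
            ((UniqueFactorizationMonoid.normalizedFactors (x : Matrix (Fin n) (Fin n) F).charpoly).count f - 1) / 2) := by
  rcases n with _ | n
  · -- degree zero
    have h1 : (x : Matrix (Fin 0) (Fin 0) F).charpoly = 1 := by
      rw [Matrix.charpoly]
      exact Matrix.det_isEmpty
    rw [h1, UniqueFactorizationMonoid.normalizedFactors_one, Multiset.toFinset_zero,
      Finset.prod_empty]
    unfold Cfsg.unipotentCharacterGL
    rw [Fintype.sum_subsingleton _ (1 : Equiv.Perm (Fin 0)), if_pos (fun i => i.elim0)]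
    have hs : Subsingleton (GL (Fin 0) F) := ⟨fun a b => Units.ext (by ext i; exact i.elim0)⟩
    have h2 : Nat.card (MulAction.fixedBy (GL (Fin 0) F ⧸ Cfsg.parabolicGL 0 F
        fun i => 1 + i.val - ((1 : Equiv.Perm (Fin 0)) i).val) x) = 1 := by
      rw [Nat.card_eq_one_iff_unique]
      refine ⟨⟨fun a b => ?_⟩, ⟨⟨((1 : GL (Fin 0) F) : GL (Fin 0) F ⧸ _), ?_⟩⟩⟩
      · apply Subtype.ext
        obtain ⟨g, hg⟩ := QuotientGroup.mk_surjective a.1
        obtain ⟨h, hh⟩ := QuotientGroup.mk_surjective b.1
        rw [← hg, ← hh, Subsingleton.elim g h]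
      · rw [MulAction.mem_fixedBy, Subsingleton.elim x 1, one_smul]
    unfold Cfsg.fixedPointCharacter
    rw [h2]
    simp
  · -- the module is semisimple
    have hsemi : IsSemisimpleModule F[X] (A x) := by
      have h1 : Module.End.IsSemisimple (En x) := by
        have hdeg : ((orderOf x : ℕ) : F) ≠ 0 := by
          rw [Ne, CharP.cast_eq_zero_iff F p]
          intro h
          have h2 := Nat.dvd_gcd h (dvd_refl p)
          rw [hx.gcd_eq_one] at h2
          exact (Fact.out : p.Prime).one_lt.ne' (Nat.dvd_one.mp h2)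
        refine Module.End.isSemisimple_of_squarefree_aeval_eq_zero
          (p := (X ^ (orderOf x) - C (1 : F))) (separable_X_pow_sub_C 1 hdeg one_ne_zero).squarefree ?_
        rw [map_sub, map_pow, aeval_X, aeval_C, map_one, sub_eq_zero, En,
          ← Matrix.toLin'_pow, ← Units.val_pow_eq_pow_val, pow_orderOf_eq_one, Units.val_one,
          Matrix.toLin'_one]
        rfl
      exact h1
    obtain ⟨l, hl, hM⟩ := exists_type (F := F) (A x)
    have hcp : (x : Matrix (Fin (n + 1)) (Fin (n + 1)) F).charpoly = l.prod := by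
      rw [← charpoly_eq l hl (A x) hM]
      have h2 : xend F (A x) = (Module.AEval'.of (En x)).conj (En x) := by
        apply LinearMap.ext
        intro v
        obtain ⟨w, rfl⟩ := (Module.AEval'.of (En x)).surjective v
        rw [xend_apply, Module.AEval'.X_smul_of, LinearEquiv.conj_apply_apply,
          LinearEquiv.symm_apply_apply]
      rw [h2, LinearEquiv.charpoly_conj, ← LinearMap.charpoly_toMatrix (En x) (Pi.basisFun F _),
        LinearMap.toMatrix_eq_toMatrix', LinearMap.toMatrix'_toLin']
    have hirr : ∀ g ∈ l, 1 ≤ g.natDegree := by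
      intro g hg
      exact (hl g hg).2.natDegree_pos
    have hnf : UniqueFactorizationMonoid.normalizedFactors
        (x : Matrix (Fin (n + 1)) (Fin (n + 1)) F).charpoly = (l : Multiset F[X]) := by
      rw [hcp, ← Multiset.prod_coe, UniqueFactorizationMonoid.normalizedFactors_prod_eq _
        (fun g hg => (hl g (by simpa using hg)).2)]
      rw [Multiset.map_congr rfl (fun g hg => (hl g (by simpa using hg)).1.normalize_eq_self)]
      exact Multiset.map_id' _
    have hsum : (l.map natDegree).sum = n + 1 := by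
      rw [← natDegree_prod_list l (fun g hg => (hl g hg).1), ← hcp,
        Matrix.charpoly_natDegree_eq_dim, Fintype.card_fin]
    rw [unipotent_eq, mu_top l hl (A x) hM, hnf, ← hsum, val_eq _ l hirr]
    simp only [List.toFinset_coe, Multiset.coe_count, Nat.card_eq_fintype_card, hq, fac]

end Cfsg.Agent.S2425
end
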