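import Cfsg.Statements.S2437
import Mathlib.GroupTheory.CommutingProbability
set_option linter.all false

set_option autoImplicit false
open Cfsg

namespace Cfsg.Agent.S2437

open Matrix

/-- The pairs `(b, d)` with `d α = b γ`, when `(α, γ) ≠ 0`, are as many as the elements of the field. -/
theorem card_line {F : Type*} [Field F] (α γ : F) (h : ¬ (α = 0 ∧ γ = 0)) :
    Nat.card {p : F × F // p.2 * α = p.1 * γ} = Nat.card F := by
  by_cases hα : α = 0
  · have hγ : γ ≠ 0 := fun h' => h ⟨hα, h'⟩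
    subst hα
    refine Nat.card_congr
      { toFun := fun p => p.1.2
        invFun := fun d => ⟨(0, d), by simp⟩
        left_inv := ?_
        right_inv := fun d => rfl }
    rintro ⟨⟨b, d⟩, hbd⟩
    have : b = 0 := by
      have h0 : b * γ = 0 := by simpa using hbd.symm
      rcases mul_eq_zero.1 h0 with h1 | h1
      · exact h1
      · exact absurd h1 hγ
    simp [this]
  · refine Nat.card_congr
      { toFun := fun p => p.1.1
        invFun := fun b => ⟨(b, b * γ / α), by field_simp⟩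
        left_inv := ?_
        right_inv := fun d => rfl }
    rintro ⟨⟨b, d⟩, hbd⟩
    simp only [Subtype.mk.injEq, Prod.mk.injEq, true_and]
    simp only at hbd
    rw [← hbd]
    field_simp

/-- The upper triangular matrix of determinant one with given diagonal entry and corner. -/
def bmat {F : Type*} [Field F] (p : Fˣ × F) : Matrix.SpecialLinearGroup (Fin 2) F :=
  ⟨!![(p.1 : F), p.2; 0, ((p.1⁻¹ : Fˣ) : F)], by simp [Matrix.det_fin_two]⟩

theorem bmat_mem {F : Type*} [Field F] (p : Fˣ × F) :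
    bmat p ∈ (Cfsg.upperTriangularGL 2 F).comap Matrix.SpecialLinearGroup.toGL := by
  rw [Subgroup.mem_comap]
  change ((Matrix.SpecialLinearGroup.toGL (bmat p) : GL (Fin 2) F) : Matrix (Fin 2) (Fin 2) F).BlockTriangular id
  intro i j hij
  fin_cases i <;> fin_cases j
  · exact absurd hij (by decide)
  · exact absurd hij (by decide)
  · rfl
  · exact absurd hij (by decide)

theorem mem_borel {F : Type*} [Field F] {g : Matrix.SpecialLinearGroup (Fin 2) F}
    (hg : g ∈ (Cfsg.upperTriangularGL 2 F).comap Matrix.SpecialLinearGroup.toGL) :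
    (g : Matrix (Fin 2) (Fin 2) F) 1 0 = 0 := by
  rw [Subgroup.mem_comap] at hg
  change ((Matrix.SpecialLinearGroup.toGL g : GL (Fin 2) F) : Matrix (Fin 2) (Fin 2) F).BlockTriangular id at hg
  exact hg (by decide : (0 : Fin 2) < 1)

theorem det_borel {F : Type*} [Field F] {g : Matrix.SpecialLinearGroup (Fin 2) F}
    (hg : g ∈ (Cfsg.upperTriangularGL 2 F).comap Matrix.SpecialLinearGroup.toGL) :
    (g : Matrix (Fin 2) (Fin 2) F) 0 0 * (g : Matrix (Fin 2) (Fin 2) F) 1 1 = 1 := by
  have h := g.2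
  rw [Matrix.det_fin_two] at h
  have h0 : (g.1 : Matrix (Fin 2) (Fin 2) F) 1 0 = 0 := mem_borel hg
  rw [h0, mul_zero, sub_zero] at h
  exact h

/-- Parametrisation of the Borel subgroup. -/
noncomputable def bequiv (F : Type*) [Field F] :
    ↥((Cfsg.upperTriangularGL 2 F).comap Matrix.SpecialLinearGroup.toGL) ≃ Fˣ × F where
  toFun g := (Units.mkOfMulEqOne _ _ (det_borel g.2), (g.1 : Matrix (Fin 2) (Fin 2) F) 0 1)
  invFun p := ⟨bmat p, bmat_mem p⟩
  left_inv g := by
    have h10 := mem_borel g.2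
    have hd := det_borel g.2
    apply Subtype.ext
    apply Subtype.ext
    ext i j
    fin_cases i <;> fin_cases j
    · simp [bmat]
    · simp [bmat]
    · simp [bmat, h10]
    · simp only [bmat, Fin.mk_one, Fin.isValue, Matrix.of_apply, Matrix.cons_val', Matrix.cons_val_one,
        Matrix.cons_val_fin_one]
      rfl
  right_inv p := by
    apply Prod.ext
    · apply Units.ext
      simp [bmat]
    · simp [bmat]

theorem commute_iff {F : Type*} [Field F] (p r : Fˣ × F) :
    Commute (⟨bmat p, bmat_mem p⟩ : ↥((Cfsg.upperTriangularGL 2 F).comap Matrix.SpecialLinearGroup.toGL))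
      ⟨bmat r, bmat_mem r⟩ ↔
      r.2 * ((p.1 : F) - ((p.1⁻¹ : Fˣ) : F)) = p.2 * ((r.1 : F) - ((r.1⁻¹ : Fˣ) : F)) := by
  have key : (bmat p).1 * (bmat r).1 = (bmat r).1 * (bmat p).1 ↔
      r.2 * ((p.1 : F) - ((p.1⁻¹ : Fˣ) : F)) = p.2 * ((r.1 : F) - ((r.1⁻¹ : Fˣ) : F)) := by
    simp only [bmat, Matrix.mul_fin_two, mul_zero, zero_mul, add_zero, zero_add]
    constructor
    · intro h
      have h1 := congrFun (congrFun h 0) 1
      simp at h1
      simp only [Units.val_inv_eq_inv_val]
      linear_combination h1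
    · intro h
      have h1 : (p.1 : F) * r.2 + p.2 * ((r.1⁻¹ : Fˣ) : F) = (r.1 : F) * p.2 + r.2 * ((p.1⁻¹ : Fˣ) : F) := by
        linear_combination h
      rw [h1, mul_comm (p.1 : F), mul_comm ((p.1⁻¹ : Fˣ) : F)]
  rw [← key]
  constructor
  · intro h
    exact congrArg (fun x : ↥((Cfsg.upperTriangularGL 2 F).comap Matrix.SpecialLinearGroup.toGL) => x.1.1) h
  · intro h
    exact Subtype.ext (Subtype.ext h)

/-- The number of pairs of diagonal and corner data that commute. -/
theorem card_pairs {F : Type*} [Field F] [Fintype F] (hodd : Odd (Fintype.card F)) :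
    Nat.card {x : (Fˣ × F) × (Fˣ × F) //
      x.2.2 * ((x.1.1 : F) - ((x.1.1⁻¹ : Fˣ) : F)) = x.1.2 * ((x.2.1 : F) - ((x.2.1⁻¹ : Fˣ) : F))} =
      (Fintype.card F + 3) * (Fintype.card F * (Fintype.card F - 1)) := by
  classical
  set q := Fintype.card F with hq
  have hq1 : 1 < q := Fintype.one_lt_card
  -- the special values
  have hspec : ∀ a : Fˣ, (a : F) - ((a⁻¹ : Fˣ) : F) = 0 ↔ a ^ 2 = 1 := by
    intro a
    rw [sub_eq_zero, Units.val_inj, eq_inv_iff_mul_eq_one, sq]
  have hne : (1 : Fˣ) ≠ -1 := by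
    intro h
    have h2 : (1 : F) = -1 := by simpa using congrArg (fun u : Fˣ => (u : F)) h
    have h3 : (2 : F) = 0 := by linear_combination h2
    have hch : ringChar F ≠ 2 := by
      intro h4
      have := FiniteField.even_card_iff_char_two.1 h4
      rcases hodd with ⟨k, hk⟩
      omega
    exact Ring.two_ne_zero hch h3
  have hset : (Finset.univ.filter fun a : Fˣ => a ^ 2 = 1) = {1, -1} := by
    ext a
    simp only [Finset.mem_filter, Finset.mem_univ, true_and, Finset.mem_insert, Finset.mem_singleton]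
    constructor
    · intro h
      have h2 : (a : F) ^ 2 = 1 := by
        have := congrArg (fun u : Fˣ => (u : F)) h
        simpa using this
      rcases sq_eq_one_iff.1 h2 with h3 | h3
      · left; exact Units.ext h3
      · right; exact Units.ext (by simpa using h3)
    · rintro (rfl | rfl) <;> simp
  have hcount : (Finset.univ.filter fun a : Fˣ => a ^ 2 = 1).card = 2 := by
    rw [hset, Finset.card_pair hne]
  let e : {x : (Fˣ × F) × (Fˣ × F) //
      x.2.2 * ((x.1.1 : F) - ((x.1.1⁻¹ : Fˣ) : F)) = x.1.2 * ((x.2.1 : F) - ((x.2.1⁻¹ : Fˣ) : F))} ≃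
      (Σ a : Fˣ × Fˣ, {p : F × F // p.2 * ((a.1 : F) - ((a.1⁻¹ : Fˣ) : F)) = p.1 * ((a.2 : F) - ((a.2⁻¹ : Fˣ) : F))}) :=
    { toFun := fun x => ⟨(x.1.1.1, x.1.2.1), ⟨(x.1.1.2, x.1.2.2), x.2⟩⟩
      invFun := fun y => ⟨((y.1.1, y.2.1.1), (y.1.2, y.2.1.2)), y.2.2⟩
      left_inv := fun x => rfl
      right_inv := fun y => rfl }
  rw [Nat.card_congr e, Nat.card_sigma]
  have hterm : ∀ a : Fˣ × Fˣ,
      Nat.card {p : F × F // p.2 * ((a.1 : F) - ((a.1⁻¹ : Fˣ) : F)) = p.1 * ((a.2 : F) - ((a.2⁻¹ : Fˣ) : F))} =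
        q + if a.1 ^ 2 = 1 ∧ a.2 ^ 2 = 1 then q ^ 2 - q else 0 := by
    intro a
    by_cases h : a.1 ^ 2 = 1 ∧ a.2 ^ 2 = 1
    · rw [if_pos h, (hspec a.1).2 h.1, (hspec a.2).2 h.2]
      have : Nat.card {p : F × F // p.2 * (0 : F) = p.1 * 0} = q ^ 2 := by
        rw [Nat.card_congr (Equiv.subtypeUnivEquiv (by simp))]
        rw [Nat.card_prod, Nat.card_eq_fintype_card, sq]
      rw [this]
      have : q ≤ q ^ 2 := by nlinarith
      omega
    · rw [if_neg h, add_zero, card_line, Nat.card_eq_fintype_card]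
      rwa [hspec, hspec]
  rw [Finset.sum_congr rfl fun a _ => hterm a, Finset.sum_add_distrib, Finset.sum_const, smul_eq_mul,
    ← Finset.sum_filter, Finset.sum_const, smul_eq_mul, Finset.card_univ, Fintype.card_prod,
    Fintype.card_units]
  have hfil : (Finset.univ.filter fun a : Fˣ × Fˣ => a.1 ^ 2 = 1 ∧ a.2 ^ 2 = 1) =
      (Finset.univ.filter fun a : Fˣ => a ^ 2 = 1) ×ˢ (Finset.univ.filter fun a : Fˣ => a ^ 2 = 1) := by
    ext a
    simp
  rw [hfil, Finset.card_product, hcount, ← hq]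
  obtain ⟨m, hm⟩ : ∃ m, q = m + 1 := ⟨q - 1, by omega⟩
  rw [hm]
  have h1 : (m + 1) ^ 2 - (m + 1) = m * (m + 1) := by
    have : (m + 1) ^ 2 = m * (m + 1) + (m + 1) := by ring
    omega
  rw [h1]
  simp only [Nat.add_sub_cancel]
  ring

/-- Over a finite field F with q elements, q odd, the upper triangular subgroup of SL₂ (a Borel subgroup, of order q(q − 1)) has exactly q + 3 conjugacy classes. -/
theorem result {F : Type*} [Field F] [Fintype F] (hodd : Odd (Fintype.card F)) :
    Nat.card (ConjClasses ((Cfsg.upperTriangularGL 2 F).comap Matrix.SpecialLinearGroup.toGL)) = Fintype.card F + 3 := by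
  classical
  have hq1 : 1 < Fintype.card F := Fintype.one_lt_card
  have hcard : Nat.card ↥((Cfsg.upperTriangularGL 2 F).comap Matrix.SpecialLinearGroup.toGL) =
      Fintype.card F * (Fintype.card F - 1) := by
    rw [Nat.card_congr (bequiv F), Nat.card_prod, Nat.card_eq_fintype_card, Nat.card_eq_fintype_card,
      Fintype.card_units, mul_comm]
  have h := card_comm_eq_card_conjClasses_mul_card
    ↥((Cfsg.upperTriangularGL 2 F).comap Matrix.SpecialLinearGroup.toGL)
  have h2 : Nat.card {p : ↥((Cfsg.upperTriangularGL 2 F).comap Matrix.SpecialLinearGroup.toGL) ×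
      ↥((Cfsg.upperTriangularGL 2 F).comap Matrix.SpecialLinearGroup.toGL) // Commute p.1 p.2} =
      Nat.card {x : (Fˣ × F) × (Fˣ × F) //
      x.2.2 * ((x.1.1 : F) - ((x.1.1⁻¹ : Fˣ) : F)) = x.1.2 * ((x.2.1 : F) - ((x.2.1⁻¹ : Fˣ) : F))} := by
    refine (Nat.card_congr (Equiv.subtypeEquiv ((bequiv F).symm.prodCongr (bequiv F).symm) ?_)).symm
    rintro ⟨p, r⟩
    exact (commute_iff p r).symm
  rw [h2, card_pairs hodd, hcard] at h
  have hpos : 0 < Fintype.card F * (Fintype.card F - 1) := Nat.mul_pos (by omega) (by omega)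
  exact (Nat.eq_of_mul_eq_mul_right hpos h).symm

end Cfsg.Agent.S2437
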