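import Cfsg.Agent.H140.SLTwo
import Cfsg.Agent.H142.McKayCount
import Cfsg.Agent.H142.SLTwoBlocks
import Cfsg.Agent.S2437
import Cfsg.Agent.SylowG2.SLTwoThreeRecog
import Cfsg.Agent.CharactersDeep.QuatSylow
import Cfsg.Agent.LieClassical.SLTwoSylowTwo
import Cfsg.Agent.LieClassical.SLTwoThree
import Cfsg.Agent.LieClassical.SLTwoQuaternion
import Cfsg.Agent.LFourB.ProdAut
import Cfsg.Agent.TwoFusion.LocalIndex
import Cfsg.Statements.S2436
import Cfsg.Agent.S2299
set_option linter.all false

-- part: H142/McKayN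
section
/-!
# Characters of degree prime to `ℓ` of the Sylow normalisers of `SL_2(q)`, `q` odd: `ℓ` odd

* `np_borel`: `ℓ = p`.
* `np_torus`: `ℓ` odd dividing `q - 1` or `q + 1`.
-/

set_option autoImplicit false
open Cfsg

namespace Cfsg.Agent.H142.McKayN

open scoped MatrixGroups
open Cfsg.Agent.H140.SLTwo Cfsg.Agent.H140.Tori Cfsg.Agent.H142.McKayCount

variable {F : Type*} [Field F]

variable (F) in
/-- The upper unitriangular subgroup. -/
def U : Subgroup SL(2, F) where
  carrier := {g | g.1 1 0 = 0 ∧ g.1 0 0 = 1}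
  mul_mem' := by
    rintro a b ⟨ha, ha'⟩ ⟨hb, hb'⟩
    refine ⟨?_, ?_⟩
    · rw [mul10, ha, hb]; ring
    · rw [mul00, ha', hb', hb]; ring
  one_mem' := ⟨one10, one00⟩
  inv_mem' := by
    rintro a ⟨ha, ha'⟩
    have h := det_eq a
    rw [ha, ha', one_mul, mul_zero, sub_zero] at h
    exact ⟨by rw [inv10, ha, neg_zero], by rw [inv00, h]⟩

theorem mem_U {g : SL(2, F)} : g ∈ U F ↔ g.1 1 0 = 0 ∧ g.1 0 0 = 1 := Iff.rfl

theorem U11 {g : SL(2, F)} (hg : g ∈ U F) : g.1 1 1 = 1 := by
  have h := det_eq g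
  rw [hg.1, hg.2, one_mul, mul_zero, sub_zero] at h
  exact h

variable (F) in
/-- `U` is a copy of the additive group. -/
def UEquiv : U F ≃ F where
  toFun g := g.1.1 0 1
  invFun a := ⟨mk 1 a 0 1 (by ring), rfl, rfl⟩
  left_inv g := by
    apply Subtype.ext
    apply ext4
    · exact g.2.2.symm
    · rfl
    · exact g.2.1.symm
    · exact (U11 g.2).symm
  right_inv a := rfl

theorem card_U [Fintype F] : Nat.card (U F) = Fintype.card F := by
  rw [Nat.card_congr (UEquiv F), Nat.card_eq_fintype_card]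

theorem U_comm {a b : SL(2, F)} (ha : a ∈ U F) (hb : b ∈ U F) : a * b = b * a := by
  apply ext4
  · rw [mul00, mul00, ha.1, hb.1, ha.2, hb.2]; ring
  · rw [mul01, mul01, ha.2, hb.2, U11 ha, U11 hb]; ring
  · rw [mul10, mul10, ha.1, hb.1]; ring
  · rw [mul11, mul11, ha.1, hb.1, U11 ha, U11 hb]; ring

variable (F) in
/-- The Borel subgroup. -/
abbrev B : Subgroup SL(2, F) := (Cfsg.upperTriangularGL 2 F).comap Matrix.SpecialLinearGroup.toGL

theorem mem_B {g : SL(2, F)} : g ∈ B F ↔ g.1 1 0 = 0 := by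
  constructor
  · intro h; exact Cfsg.Agent.S2437.mem_borel h
  · intro h
    rw [Subgroup.mem_comap]
    change ((Matrix.SpecialLinearGroup.toGL g : GL (Fin 2) F) : Matrix (Fin 2) (Fin 2) F).BlockTriangular id
    intro i j hij
    fin_cases i <;> fin_cases j
    · exact absurd hij (by decide)
    · exact absurd hij (by decide)
    · exact h
    · exact absurd hij (by decide)

theorem conj_mem_U {g u : SL(2, F)} (hg : g.1 1 0 = 0) (hu : u ∈ U F) : g * u * g⁻¹ ∈ U F := by
  have h := det_eq g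
  rw [hg, mul_zero, sub_zero] at h
  constructor
  · rw [mul10, mul10, mul11, inv00, inv10, hg, hu.1, U11 hu]; ring
  · rw [mul00, mul00, mul01, inv00, inv10, hg, hu.1, hu.2, U11 hu]
    linear_combination h

theorem normalizer_U : Subgroup.normalizer ((U F : Subgroup SL(2, F)) : Set SL(2, F)) = B F := by
  ext g
  rw [mem_B]
  constructor
  · intro hg
    rw [Subgroup.mem_normalizer_iff] at hg
    have h1 := (hg (mk 1 1 0 1 (by ring))).1 ⟨rfl, rfl⟩
    have h2 := h1.1
    rw [mul10, mul10, mul11, inv00, inv10, mk00, mk01, mk10, mk11] at h2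
    have h3 : g.1 1 0 * g.1 1 0 = 0 := by linear_combination -h2
    exact mul_self_eq_zero.1 h3
  · intro hg
    rw [Subgroup.mem_normalizer_iff]
    intro u
    constructor
    · exact conj_mem_U hg
    · intro hu
      have h2 := conj_mem_U (g := g⁻¹) (by rw [inv10, hg, neg_zero]) hu
      have e : g⁻¹ * (g * u * g⁻¹) * g⁻¹⁻¹ = u := by group
      rwa [e] at h2

variable [Fintype F]

/-- The normaliser of a Sylow `p`-subgroup, `p` the characteristic. -/
theorem np_borel (hodd : Odd (Fintype.card F)) (p : ℕ) [Fact p.Prime] [CharP F p]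
    (S : Sylow p SL(2, F)) :
    np p ↥(Subgroup.normalizer ((S : Subgroup SL(2, F)) : Set SL(2, F))) = Fintype.card F + 3 := by
  classical
  have hp : p.Prime := Fact.out
  obtain ⟨hq, m, hm, hcard⟩ := SLTwoBlocks.factorization_card (F := F) p
  have hUp : IsPGroup p (U F) := by
    apply IsPGroup.of_card (n := (Nat.card SL(2, F)).factorization p)
    rw [card_U, hq]
  let P : Sylow p SL(2, F) := Sylow.ofCard (U F) (by rw [card_U, hq])
  have hP : ((P : Subgroup SL(2, F)) : Set SL(2, F)) = (U F : Set SL(2, F)) := rfl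
  rw [np_normalizer_sylow S P p, hP, normalizer_U]
  have hUB : U F ≤ B F := fun g hg => mem_B.2 hg.1
  have hn : ((U F).subgroupOf (B F)).Normal := by
    constructor
    intro u hu g
    rw [Subgroup.mem_subgroupOf] at hu ⊢
    exact conj_mem_U (mem_B.1 g.2) hu
  have hcB : Nat.card (B F) = (Fintype.card F - 1) * Fintype.card F := by
    rw [Nat.card_congr (Cfsg.Agent.S2437.bequiv F), Nat.card_prod, Nat.card_eq_fintype_card,
      Nat.card_eq_fintype_card, Fintype.card_units]
  have hcU : Nat.card ((U F).subgroupOf (B F)) = Fintype.card F := by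
    rw [Nat.card_congr (Subgroup.subgroupOfEquivOfLe hUB).toEquiv, card_U]
  have hidx : ((U F).subgroupOf (B F)).index = Fintype.card F - 1 := by
    have h1 := Subgroup.card_mul_index ((U F).subgroupOf (B F))
    rw [hcU, hcB, mul_comm] at h1
    exact Nat.eq_of_mul_eq_mul_right Fintype.card_pos h1
  rw [np_eq_card_conjClasses ((U F).subgroupOf (B F)) ?_ ?_]
  · exact Cfsg.Agent.S2437.result hodd
  · intro a ha b hb
    apply Subtype.ext
    exact U_comm ha hb
  · rw [hidx]
    intro h
    obtain ⟨k, hk⟩ := FiniteField.card F p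
    have h3 : p ∣ Fintype.card F := by
      rw [hk.2]
      exact dvd_pow_self p k.2.ne'
    have h4 : p ∣ 1 := by
      have h5 : Fintype.card F - (Fintype.card F - 1) = 1 := by
        have := Fintype.card_pos (α := F)
        omega
      rw [← h5]
      exact Nat.dvd_sub h3 h
    exact hp.one_lt.ne' (Nat.dvd_one.1 h4)

/-- The normaliser of a Sylow `ℓ`-subgroup contained in a torus. -/
theorem np_torus {G : Type*} [Group G] [Finite G] {T : Subgroup G} {s z : G} (H : TorusData T s z)
    {ℓ : ℕ} [Fact ℓ.Prime] (hℓ : ℓ ≠ 2) (k : ℕ) (hT : Nat.card T = 2 * (k + 2))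
    (hdvd : ℓ ∣ Nat.card T) (hidx : ¬ ℓ ∣ T.index) (S : Sylow ℓ G) :
    np ℓ ↥(Subgroup.normalizer ((S : Subgroup G) : Set G)) = k + 5 := by
  classical
  have hp : ℓ.Prime := Fact.out
  -- a Sylow subgroup inside T
  obtain ⟨Q⟩ : Nonempty (Sylow ℓ T) := inferInstance
  have hQcard : Nat.card ((Q : Subgroup T).map T.subtype) = ℓ ^ (Nat.card G).factorization ℓ := by
    rw [Nat.card_congr ((Q : Subgroup T).equivMapOfInjective T.subtype T.subtype_injective).symm.toEquiv,
      Q.card_eq_multiplicity]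
    congr 1
    have h1 := Subgroup.card_mul_index T
    rw [← h1, Nat.factorization_mul Nat.card_pos.ne' Subgroup.index_ne_zero_of_finite, Finsupp.add_apply,
      Nat.factorization_eq_zero_of_not_dvd hidx, add_zero]
  let P : Sylow ℓ G := Sylow.ofCard ((Q : Subgroup T).map T.subtype) hQcard
  rw [np_normalizer_sylow S P ℓ]
  have hPT : (P : Subgroup G) ≤ T := by
    rintro x ⟨y, -, rfl⟩
    exact y.2
  have hdvdG : ℓ ∣ Nat.card G := hdvd.trans (Subgroup.card_subgroup_dvd_card T)
  obtain ⟨t, ht, ht1, htz⟩ : ∃ t ∈ (P : Subgroup G), t ≠ 1 ∧ t ≠ z := by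
    have h1 : 1 < Nat.card P := by
      rw [P.card_eq_multiplicity]
      exact Nat.one_lt_pow (hp.factorization_pos_of_dvd Nat.card_pos.ne' hdvdG).ne' hp.one_lt
    rw [Finite.one_lt_card_iff_nontrivial] at h1
    obtain ⟨⟨t, ht⟩, hne⟩ := exists_ne (1 : P)
    refine ⟨t, ht, fun h => hne (Subtype.ext h), ?_⟩
    rintro rfl
    obtain ⟨j, hj⟩ := P.2 ⟨t, ht⟩
    have h2 : t ^ ℓ ^ j = 1 := congrArg Subtype.val hj
    have h3 : orderOf t ∣ ℓ ^ j := orderOf_dvd_of_pow_eq_one h2
    have h4 : orderOf t = 2 := orderOf_eq_prime (by rw [pow_two]; exact H.zz) H.zne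
    rw [h4] at h3
    exact hℓ ((Nat.prime_dvd_prime_iff_eq Nat.prime_two hp).1 (Nat.prime_two.dvd_of_dvd_pow h3)).symm
  have hN := fun g => H.mem_normalizer_iff hPT ht ht1 htz g
  set N := Subgroup.normalizer ((P : Subgroup G) : Set G) with hNdef
  have hTN : T ≤ N := fun g hg => (hN g).mpr (Or.inl hg)
  have hcN := H.card_eq N hN
  have hTn : (T.subgroupOf N).index = 2 := by
    have h1 := Subgroup.card_mul_index (T.subgroupOf N)
    rw [Nat.card_congr (Subgroup.subgroupOfEquivOfLe hTN).toEquiv, hcN, mul_comm 2] at h1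
    exact Nat.eq_of_mul_eq_mul_left Nat.card_pos h1
  have hnorm : (T.subgroupOf N).Normal := Subgroup.normal_of_index_eq_two hTn
  rw [np_eq_card_conjClasses (T.subgroupOf N) ?_ ?_]
  · exact H.card_conjClasses N hN k hT
  · intro a ha b hb
    apply Subtype.ext
    exact H.comm _ ha _ hb
  · rw [hTn]
    intro h
    exact hℓ ((Nat.prime_dvd_prime_iff_eq hp Nat.prime_two).1 h)

end Cfsg.Agent.H142.McKayN
end

-- part: H142/McKayTwo
section
/-!
# Odd-degree characters of the normaliser of a Sylow `2`-subgroup of `SL_2(q)`, `q` odd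

`np_two`: there are exactly four.
-/

set_option autoImplicit false
open Cfsg

namespace Cfsg.Agent.H142.McKayTwo

open scoped MatrixGroups
open Cfsg.Agent.H140.SLTwo Cfsg.Agent.H140.Tori Cfsg.Agent.H142.McKayCount Cfsg.Agent.LieClassical

theorem exists_comm : ∀ x : QuaternionGroup 2, ∃ g h : Matrix.SpecialLinearGroup (Fin 2) (ZMod 3),
    SLTwoThree.qhom x = g * h * g⁻¹ * h⁻¹ := by
  decide +kernel

/-- The commutator subgroup of `SL_2(3)` has index three. -/
theorem index_commutator_SL23 : (commutator (Matrix.SpecialLinearGroup (Fin 2) (ZMod 3))).index = 3 := by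
  have h1 : commutator (Matrix.SpecialLinearGroup (Fin 2) (ZMod 3)) = SLTwoThree.qhom.range := by
    apply le_antisymm
    · have := SLTwoThree.range_normal
      have hc : Nat.card (Matrix.SpecialLinearGroup (Fin 2) (ZMod 3) ⧸ SLTwoThree.qhom.range) = 3 :=
        SLTwoThree.index_range
      have hcyc : IsCyclic (Matrix.SpecialLinearGroup (Fin 2) (ZMod 3) ⧸ SLTwoThree.qhom.range) :=
        isCyclic_of_prime_card (p := 3) hc
      rw [commutator_def, Subgroup.commutator_le]
      intro g _ h _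
      rw [commutatorElement_def, ← QuotientGroup.eq_one_iff]
      have h2 := IsCyclic.isMulCommutative.is_comm.comm
        (g : Matrix.SpecialLinearGroup (Fin 2) (ZMod 3) ⧸ SLTwoThree.qhom.range)
        (h : Matrix.SpecialLinearGroup (Fin 2) (ZMod 3) ⧸ SLTwoThree.qhom.range)
      rw [QuotientGroup.mk_mul, QuotientGroup.mk_mul, QuotientGroup.mk_mul, QuotientGroup.mk_inv,
        QuotientGroup.mk_inv, h2]
      group
    · rintro _ ⟨x, rfl⟩
      obtain ⟨g, h, hgh⟩ := exists_comm x
      rw [hgh]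
      exact Subgroup.commutator_mem_commutator (Subgroup.mem_top g) (Subgroup.mem_top h)
  rw [h1, SLTwoThree.index_range]

theorem np_SL23 : np 2 (Matrix.SpecialLinearGroup (Fin 2) (ZMod 3)) = 4 ∧
    np 3 (Matrix.SpecialLinearGroup (Fin 2) (ZMod 3)) = 6 := by
  apply np_of_card_24 _ index_commutator_SL23
  rw [Nat.card_eq_fintype_card, SLTwoThree.card_sl]

/-- The commutator subgroup of a generalised quaternion group has index four. -/
theorem index_commutator_quat (m : ℕ) [NeZero m] : (commutator (QuaternionGroup m)).index = 4 := by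
  rw [Cfsg.Agent.CharactersDeep.QuatSylow.quat_commutator]
  have h1 := Subgroup.card_mul_index (Subgroup.zpowers (QuaternionGroup.a 2 : QuaternionGroup m))
  have h2 : Nat.card (Subgroup.zpowers (QuaternionGroup.a 2 : QuaternionGroup m)) = m := by
    rw [Nat.card_zpowers]
    have h3 : (QuaternionGroup.a 2 : QuaternionGroup m) = (QuaternionGroup.a 1) ^ 2 := by
      rw [QuaternionGroup.a_one_pow]; rfl
    rw [h3, orderOf_pow, QuaternionGroup.orderOf_a_one]
    have : Nat.gcd (2 * m) 2 = 2 := Nat.gcd_eq_right (dvd_mul_right 2 m)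
    rw [this, Nat.mul_div_cancel_left _ (by norm_num)]
  have hm : 0 < m := Nat.pos_of_ne_zero (NeZero.ne m)
  rw [h2, Nat.card_eq_fintype_card, QuaternionGroup.card] at h1
  have h4 : m * (Subgroup.zpowers (QuaternionGroup.a 2 : QuaternionGroup m)).index = m * 4 := by
    rw [h1, mul_comm]
  exact Nat.eq_of_mul_eq_mul_left hm h4

/-- A group with a normal, self-centralising, generalised quaternion Sylow `2`-subgroup has exactly
four irreducible characters of odd degree. -/
theorem np_two_of_normal {N : Type*} [Group N] [Finite N] (S : Sylow 2 N) (hn : (S : Subgroup N).Normal)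
    {k : ℕ} (hk : 1 ≤ k) (e : (S : Subgroup N) ≃* QuaternionGroup (2 ^ k))
    (hC : Subgroup.centralizer ((S : Subgroup N) : Set N) ≤ S) : np 2 N = 4 := by
  classical
  have hodd_one : ∀ x ∈ (S : Subgroup N), Odd (orderOf x) → x = 1 := by
    intro x hx ho
    obtain ⟨j, hj⟩ := S.2 ⟨x, hx⟩
    have h2 : x ^ 2 ^ j = 1 := congrArg Subtype.val hj
    have h3 : orderOf x ∣ 2 ^ j := orderOf_dvd_of_pow_eq_one h2
    obtain ⟨i, -, hi⟩ := (Nat.dvd_prime_pow Nat.prime_two).1 h3
    rw [hi] at ho
    have : i = 0 := by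
      by_contra h0
      exact (Nat.not_odd_iff_even.2 ((Nat.even_pow).2 ⟨even_two, h0⟩)) ho
    rw [this, pow_zero] at hi
    exact orderOf_eq_one_iff.1 hi
  rcases Nat.lt_or_ge 1 k with hk2 | hk1
  · -- `N` is a 2-group
    have h2 : IsPGroup 2 N := by
      rw [IsPGroup.iff_card]
      by_contra hcon
      have : ∃ r : ℕ, r.Prime ∧ r ≠ 2 ∧ r ∣ Nat.card N := by
        by_contra hno
        push Not at hno
        apply hcon
        refine ⟨(Nat.card N).primeFactorsList.length, ?_⟩
        have h0 : Nat.card N ≠ 0 := Nat.card_pos.ne'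
        exact Nat.eq_prime_pow_of_unique_prime_dvd h0 (fun {d} hd hdvd => by
          by_contra hd2
          exact hno d hd hd2 hdvd)
      obtain ⟨r, hr, hr2, hrd⟩ := this
      have := Fact.mk hr
      obtain ⟨x, hx⟩ := exists_prime_orderOf_dvd_card' r hrd
      have hox : Odd (orderOf x) := by rw [hx]; exact hr.odd_of_ne_two hr2
      have h3 := Cfsg.Agent.LFourB.ProdAut.eq_one_of_odd' (k := k) (by omega) e
        (MulAut.conjNormal x : MulAut (S : Subgroup N)) (n := orderOf x) hox (by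
          rw [← map_pow, pow_orderOf_eq_one, map_one])
      have h4 : x ∈ Subgroup.centralizer ((S : Subgroup N) : Set N) := by
        rw [Subgroup.mem_centralizer_iff]
        intro y hy
        have h5 := congrArg (fun φ : MulAut (S : Subgroup N) => ((φ ⟨y, hy⟩ : (S : Subgroup N)) : N)) h3
        simp only [MulAut.conjNormal_apply, MulAut.one_apply] at h5
        calc y * x = x * y * x⁻¹ * x := by rw [h5]
          _ = x * y := by group
      have h6 := hodd_one x (hC h4) hox
      rw [h6, orderOf_one] at hx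
      exact hr.one_lt.ne hx
    have hS : (S : Subgroup N) = ⊤ := by
      have h3 := h2
      have h4 : IsPGroup 2 (⊤ : Subgroup N) := h2.of_equiv Subgroup.topEquiv.symm
      exact (S.3 h4 le_top).symm
    have e' : N ≃* QuaternionGroup (2 ^ k) :=
      (Subgroup.topEquiv.symm.trans (MulEquiv.subgroupCongr hS.symm)).trans e
    rw [np_congr e', np_of_isPGroup (h2.of_equiv e'), index_commutator_quat]
  · have hk' : k = 1 := le_antisymm hk1 hk
    subst hk'
    have e2 : (S : Subgroup N) ≃* QuaternionGroup 2 := e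
    have hcS : Nat.card (S : Subgroup N) = 8 := by
      rw [Nat.card_congr e2.toEquiv, Nat.card_eq_fintype_card, QuaternionGroup.card]
    -- the index of S divides 3
    have hidx : (S : Subgroup N).index ∣ 3 := by
      have h1 := Cfsg.Agent.TwoFusion.LocalIndex.relIndex_quaternion_dvd (S : Subgroup N) e2
      rw [Subgroup.normalizer_eq_top, sup_eq_left.2 hC, Subgroup.relIndex_top_right] at h1
      have h2 : ¬ 2 ∣ (S : Subgroup N).index := S.not_dvd_index
      have h3 : Nat.Coprime (S : Subgroup N).index 2 := by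
        rw [Nat.coprime_comm, Nat.Prime.coprime_iff_not_dvd Nat.prime_two]
        exact h2
      exact h3.dvd_of_dvd_mul_left (by simpa using h1 : (S : Subgroup N).index ∣ 2 * 3)
    rcases (Nat.dvd_prime Nat.prime_three).1 hidx with h1 | h3
    · have hS : (S : Subgroup N) = ⊤ := Subgroup.index_eq_one.1 h1
      have e' : N ≃* QuaternionGroup 2 :=
        (Subgroup.topEquiv.symm.trans (MulEquiv.subgroupCongr hS.symm)).trans e2
      have h2 : IsPGroup 2 N := by
        have h4 : IsPGroup 2 (S : Subgroup N) := S.2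
        rw [hS] at h4
        exact h4.of_equiv Subgroup.topEquiv
      rw [np_congr e', np_of_isPGroup (h2.of_equiv e'), index_commutator_quat]
    · have hcN : Nat.card N = 24 := by
        rw [← Subgroup.card_mul_index (S : Subgroup N), hcS, h3]
      have := Fact.mk Nat.prime_three
      obtain ⟨x, hx⟩ := exists_prime_orderOf_dvd_card' (G := N) 3 (by rw [hcN]; norm_num)
      have hxS : x ∉ Subgroup.centralizer ((S : Subgroup N) : Set N) := by
        intro h4
        have h5 := hodd_one x (hC h4) (by rw [hx]; decide)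
        rw [h5, orderOf_one] at hx
        omega
      obtain ⟨e'⟩ := Cfsg.Agent.SylowG2.SLTwoThreeRecog.mulEquiv_of_quaternion hcN (S : Subgroup N) hn
        ⟨e2⟩ x hx hxS
      rw [np_congr e', np_SL23.1]


/-- The normaliser of a Sylow `2`-subgroup of `SL_2(q)`, `q` odd, has exactly four irreducible
characters of odd degree. -/
theorem np_two {F : Type*} [Field F] [Fintype F] (p : ℕ) [Fact p.Prime] [CharP F p] (hp : p ≠ 2)
    (S : Sylow 2 SL(2, F)) :
    np 2 ↥(Subgroup.normalizer ((S : Subgroup SL(2, F)) : Set SL(2, F))) = 4 := by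
  classical
  -- `S` is not cyclic
  have hncyc : ¬ IsCyclic (S : Subgroup SL(2, F)) := by
    obtain ⟨i, j, hi, hj, hij, hne⟩ := SLTwoSylowTwo.exists_quaternion_pair p hp
    let _ : Algebra (ZMod p) F := ZMod.algebra F p
    let f : SL(2, ZMod p) →* SL(2, F) := Matrix.SpecialLinearGroup.map (algebraMap (ZMod p) F)
    have hf : Function.Injective f := by
      intro a b hab
      apply Subtype.ext
      ext r c
      have h1 := congrFun (congrFun (congrArg Subtype.val hab) r) c
      exact (algebraMap (ZMod p) F).injective h1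
    refine SLTwoSylowTwo.not_isCyclic_sylow S (i := f i) (j := f j) ?_ ?_ ?_ ?_
    · rw [← map_pow, hi, map_one]
    · rw [← map_pow, hj, map_one]
    · rw [← map_inv, ← map_mul, ← map_mul, hij, map_inv]
    · intro h
      rw [← map_mul, ← map_mul] at h
      exact hne (hf h)
  have hnc : ¬ ∀ a b : (S : Subgroup SL(2, F)), a * b = b * a := fun h =>
    hncyc (SLTwoQuaternion.isCyclic_of_comm p hp (S : Subgroup SL(2, F)) S.2 h)
  obtain ⟨k, hk, ⟨e⟩⟩ := SLTwoQuaternion.quaternion_of_not_comm p hp (S : Subgroup SL(2, F)) S.2 hnc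
  have h2 : (2 : F) ≠ 0 := by
    intro h
    have h3 : ((2 : ℕ) : F) = 0 := by exact_mod_cast h
    rw [CharP.cast_eq_zero_iff F p] at h3
    exact hp ((Nat.prime_dvd_prime_iff_eq Fact.out Nat.prime_two).1 h3)
  -- `-1` lies in `S`
  have hneg : (-1 : SL(2, F)) ∈ (S : Subgroup SL(2, F)) := by
    have hcard : 1 < Nat.card (S : Subgroup SL(2, F)) := by
      rw [Nat.card_congr e.toEquiv, Nat.card_eq_fintype_card, QuaternionGroup.card]
      have : 0 < 2 ^ k := by positivity
      omega
    have hdvd : 2 ∣ Nat.card (S : Subgroup SL(2, F)) := by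
      rw [Nat.card_congr e.toEquiv, Nat.card_eq_fintype_card, QuaternionGroup.card]
      exact ⟨2 * 2 ^ k, by ring⟩
    obtain ⟨x, hx⟩ := exists_prime_orderOf_dvd_card' (G := (S : Subgroup SL(2, F))) 2 hdvd
    have hx2 : (x : SL(2, F)) * x = 1 := by
      have h3 := pow_orderOf_eq_one x
      rw [hx, pow_two] at h3
      exact congrArg Subtype.val h3
    rcases sq_eq_one h2 hx2 with h3 | h3
    · exfalso
      have h4 : x = 1 := Subtype.ext h3
      rw [h4, orderOf_one] at hx
      omega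
    · rw [← h3]; exact x.2
  -- the centraliser of `S`
  have hcent : ∀ c : SL(2, F), c ∈ Subgroup.centralizer ((S : Subgroup SL(2, F)) : Set SL(2, F)) →
      c ∈ (S : Subgroup SL(2, F)) := by
    intro c hc
    by_cases hsc : ∃ r : F, (c : Matrix (Fin 2) (Fin 2) F) = r • (1 : Matrix (Fin 2) (Fin 2) F)
    · obtain ⟨r, hr⟩ := hsc
      rcases Cfsg.Agent.ClassicalGeometry.NonsplitTorus.eq_one_or_of_smul c r hr with h3 | h3
      · rw [h3]; exact (S : Subgroup SL(2, F)).one_mem
      · rw [h3]; exact hneg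
    · exfalso
      push Not at hsc
      apply hnc
      intro a b
      have ha := Subgroup.mem_centralizer_iff.1 hc a a.2
      have hb := Subgroup.mem_centralizer_iff.1 hc b b.2
      apply Subtype.ext
      apply Subtype.ext
      exact SLTwoQuaternion.commute_of_commute c.1 a.1.1 b.1.1 hsc (congrArg Subtype.val ha)
        (congrArg Subtype.val hb)
  -- pass to the normaliser
  set N := Subgroup.normalizer ((S : Subgroup SL(2, F)) : Set SL(2, F)) with hN
  have hSN : (S : Subgroup SL(2, F)) ≤ N := Subgroup.le_normalizer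
  let S' : Sylow 2 N := S.subtype hSN
  have hS'c : (S' : Subgroup N) = (S : Subgroup SL(2, F)).subgroupOf N := rfl
  have hS'n : (S' : Subgroup N).Normal := by
    rw [hS'c]
    exact Subgroup.normal_in_normalizer
  have e' : (S' : Subgroup N) ≃* QuaternionGroup (2 ^ k) :=
    (Subgroup.subgroupOfEquivOfLe hSN).trans e
  refine np_two_of_normal S' hS'n hk e' ?_
  intro x hx
  rw [hS'c, Subgroup.mem_subgroupOf]
  apply hcent
  rw [Subgroup.mem_centralizer_iff] at hx ⊢
  intro y hy
  have h3 := hx ⟨y, hSN hy⟩ (by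
    change (⟨y, hSN hy⟩ : N) ∈ (S' : Subgroup N)
    rw [hS'c, Subgroup.mem_subgroupOf]
    exact hy)
  exact congrArg Subtype.val h3

end Cfsg.Agent.H142.McKayTwo
end

-- part: H142/McKayMain
section
/-!
# The McKay equality for `SL_2(q)`, `q` odd

`main`: deduced from the list of degrees of the irreducible characters with multiplicities
(hypothesis `h`, the statement of S2299).
-/

set_option autoImplicit false
open Cfsg

namespace Cfsg.Agent.H142.McKayMain

open scoped MatrixGroups
open Cfsg.Agent.H140.SLTwo Cfsg.Agent.H140.Tori Cfsg.Agent.H142.McKayCount Cfsg.Agent.H142.McKayN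
  Cfsg.Agent.H142.McKayTwo
open Cfsg.Agent.Blocks.Basic (charDegree_of_eq)

variable {F : Type*} [Field F] [Fintype F]

/-- The count for `SL_2(q)`, `q ≥ 5` odd. -/
theorem np_SL (h5 : 5 ≤ Fintype.card F) (hodd : Odd (Fintype.card F)) (ℓ : ℕ) (hℓ : ℓ.Prime)
    (h : (∀ χ : SL(2, F) → ℂ, Cfsg.IsIrrCharacter SL(2, F) χ →
      χ 1 = 1 ∨ χ 1 = (Fintype.card F : ℂ) ∨ χ 1 = (Fintype.card F : ℂ) + 1 ∨ χ 1 = (Fintype.card F : ℂ) - 1 ∨
        χ 1 = (((Fintype.card F + 1) / 2 : ℕ) : ℂ) ∨ χ 1 = (((Fintype.card F - 1) / 2 : ℕ) : ℂ)) ∧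
    (5 ≤ Fintype.card F →
      Nat.card {χ : Cfsg.IrrCharacter SL(2, F) // (χ : SL(2, F) → ℂ) 1 = 1} = 1 ∧
      Nat.card {χ : Cfsg.IrrCharacter SL(2, F) // (χ : SL(2, F) → ℂ) 1 = (Fintype.card F : ℂ)} = 1 ∧
      Nat.card {χ : Cfsg.IrrCharacter SL(2, F) // (χ : SL(2, F) → ℂ) 1 = (Fintype.card F : ℂ) + 1} = (Fintype.card F - 3) / 2 ∧
      Nat.card {χ : Cfsg.IrrCharacter SL(2, F) // (χ : SL(2, F) → ℂ) 1 = (Fintype.card F : ℂ) - 1} = (Fintype.card F - 1) / 2 ∧
      Nat.card {χ : Cfsg.IrrCharacter SL(2, F) // (χ : SL(2, F) → ℂ) 1 = (((Fintype.card F + 1) / 2 : ℕ) : ℂ)} = 2 ∧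
      Nat.card {χ : Cfsg.IrrCharacter SL(2, F) // (χ : SL(2, F) → ℂ) 1 = (((Fintype.card F - 1) / 2 : ℕ) : ℂ)} = 2)) :
    np ℓ SL(2, F) = 1 + (if ℓ ∣ Fintype.card F then 0 else 1) +
      (if ℓ ∣ Fintype.card F + 1 then 0 else (Fintype.card F - 3) / 2) +
      (if ℓ ∣ Fintype.card F - 1 then 0 else (Fintype.card F - 1) / 2) +
      (if ℓ ∣ (Fintype.card F + 1) / 2 then 0 else 2) +
      (if ℓ ∣ (Fintype.card F - 1) / 2 then 0 else 2) := by
  classical
  obtain ⟨hdeg, hcnt⟩ := h
  obtain ⟨c1, c2, c3, c4, c5, c6⟩ := hcnt h5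
  obtain ⟨m, hm⟩ := hodd
  set q := Fintype.card F with hq
  have e1 : (q + 1) / 2 = m + 1 := by omega
  have e2 : (q - 1) / 2 = m := by omega
  have hcast : ((q - 1 : ℕ) : ℂ) = (q : ℂ) - 1 := by
    rw [Nat.cast_sub (by omega), Nat.cast_one]
  let D : Finset ℕ := {1, q, q + 1, q - 1, (q + 1) / 2, (q - 1) / 2}
  have hD : ∀ χ : IrrCharacter SL(2, F), charDegree (χ : SL(2, F) → ℂ) ∈ D := by
    intro χ
    have h1 := hdeg χ χ.2
    simp only [D, Finset.mem_insert, Finset.mem_singleton]
    rcases h1 with h1 | h1 | h1 | h1 | h1 | h1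
    · left; exact charDegree_of_eq (by rw [h1, Nat.cast_one])
    · right; left; exact charDegree_of_eq h1
    · right; right; left; exact charDegree_of_eq (by rw [h1, Nat.cast_add, Nat.cast_one])
    · right; right; right; left; exact charDegree_of_eq (by rw [h1, hcast])
    · right; right; right; right; left; exact charDegree_of_eq h1
    · right; right; right; right; right; exact charDegree_of_eq h1
  have d1 : cd 1 SL(2, F) = 1 := by
    rw [cd]; simpa using c1
  have d2 : cd q SL(2, F) = 1 := c2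
  have d3 : cd (q + 1) SL(2, F) = (q - 3) / 2 := by
    rw [cd]; simpa using c3
  have d4 : cd (q - 1) SL(2, F) = (q - 1) / 2 := by
    rw [cd, hcast]; exact c4
  have d5 : cd ((q + 1) / 2) SL(2, F) = 2 := c5
  have d6 : cd ((q - 1) / 2) SL(2, F) = 2 := c6
  have hsum := np_eq_sum (ℓ := ℓ) D hD
  have n1 : (1 : ℕ) ∉ ({q, q + 1, q - 1, (q + 1) / 2, (q - 1) / 2} : Finset ℕ) := by
    simp only [Finset.mem_insert, Finset.mem_singleton]; omega
  have n2 : q ∉ ({q + 1, q - 1, (q + 1) / 2, (q - 1) / 2} : Finset ℕ) := by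
    simp only [Finset.mem_insert, Finset.mem_singleton]; omega
  have n3 : q + 1 ∉ ({q - 1, (q + 1) / 2, (q - 1) / 2} : Finset ℕ) := by
    simp only [Finset.mem_insert, Finset.mem_singleton]; omega
  have n4 : q - 1 ∉ ({(q + 1) / 2, (q - 1) / 2} : Finset ℕ) := by
    simp only [Finset.mem_insert, Finset.mem_singleton]; omega
  have n5 : (q + 1) / 2 ∉ ({(q - 1) / 2} : Finset ℕ) := by
    simp only [Finset.mem_singleton]; omega
  rw [hsum, Finset.sum_insert n1, Finset.sum_insert n2, Finset.sum_insert n3, Finset.sum_insert n4,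
    Finset.sum_insert n5, Finset.sum_singleton, d1, d2, d3, d4, d5, d6]
  have hl1 : ¬ ℓ ∣ 1 := fun h => hℓ.one_lt.ne' (Nat.dvd_one.1 h)
  rw [if_neg hl1]
  ring

/-- The McKay equality for `SL_2(q)`, `q` odd. -/
theorem main (hodd : Odd (Fintype.card F)) (ℓ : ℕ) [hℓ : Fact ℓ.Prime] (S : Sylow ℓ SL(2, F))
    (h : (∀ χ : SL(2, F) → ℂ, Cfsg.IsIrrCharacter SL(2, F) χ →
      χ 1 = 1 ∨ χ 1 = (Fintype.card F : ℂ) ∨ χ 1 = (Fintype.card F : ℂ) + 1 ∨ χ 1 = (Fintype.card F : ℂ) - 1 ∨
        χ 1 = (((Fintype.card F + 1) / 2 : ℕ) : ℂ) ∨ χ 1 = (((Fintype.card F - 1) / 2 : ℕ) : ℂ)) ∧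
    (5 ≤ Fintype.card F →
      Nat.card {χ : Cfsg.IrrCharacter SL(2, F) // (χ : SL(2, F) → ℂ) 1 = 1} = 1 ∧
      Nat.card {χ : Cfsg.IrrCharacter SL(2, F) // (χ : SL(2, F) → ℂ) 1 = (Fintype.card F : ℂ)} = 1 ∧
      Nat.card {χ : Cfsg.IrrCharacter SL(2, F) // (χ : SL(2, F) → ℂ) 1 = (Fintype.card F : ℂ) + 1} = (Fintype.card F - 3) / 2 ∧
      Nat.card {χ : Cfsg.IrrCharacter SL(2, F) // (χ : SL(2, F) → ℂ) 1 = (Fintype.card F : ℂ) - 1} = (Fintype.card F - 1) / 2 ∧
      Nat.card {χ : Cfsg.IrrCharacter SL(2, F) // (χ : SL(2, F) → ℂ) 1 = (((Fintype.card F + 1) / 2 : ℕ) : ℂ)} = 2 ∧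
      Nat.card {χ : Cfsg.IrrCharacter SL(2, F) // (χ : SL(2, F) → ℂ) 1 = (((Fintype.card F - 1) / 2 : ℕ) : ℂ)} = 2)) :
    np ℓ SL(2, F) = np ℓ ↥(Subgroup.normalizer ((S : Subgroup SL(2, F)) : Set SL(2, F))) := by
  classical
  have hp1 : ℓ.Prime := hℓ.out
  -- the characteristic
  obtain ⟨p, hchar⟩ := CharP.exists F
  have hpp : p.Prime := by
    rcases CharP.char_is_prime_or_zero F p with h0 | h0
    · exact h0
    · exfalso
      subst h0
      have : CharZero F := CharP.charP_to_charZero F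
      exact not_finite F
  have := Fact.mk hpp
  obtain ⟨n, hn⟩ := FiniteField.card F p
  have hp2 : p ≠ 2 := by
    rintro rfl
    rw [hn.2] at hodd
    exact (Nat.not_odd_iff_even.2 ((Nat.even_pow).2 ⟨even_two, n.2.ne'⟩)) hodd
  have h2F : (2 : F) ≠ 0 := by
    intro h
    have h3 : ((2 : ℕ) : F) = 0 := by exact_mod_cast h
    rw [CharP.cast_eq_zero_iff F p] at h3
    exact hp2 ((Nat.prime_dvd_prime_iff_eq hpp Nat.prime_two).1 h3)
  have hcard := Cfsg.Agent.ClassicalGeometry.PSL2Basic.card_SL2 (F := F)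
  have hq1 : 1 < Fintype.card F := Fintype.one_lt_card
  have hcard2 : Nat.card SL(2, F) = Fintype.card F * ((Fintype.card F - 1) * (Fintype.card F + 1)) := by
    rw [hcard]
    congr 1
    obtain ⟨m, hm⟩ : ∃ m, Fintype.card F = m + 1 := ⟨Fintype.card F - 1, by omega⟩
    rw [hm]
    have : (m + 1) ^ 2 - 1 = m * (m + 2) := by
      have : (m + 1) ^ 2 = m * (m + 2) + 1 := by ring
      omega
    rw [this]
    simp only [Nat.add_sub_cancel]
  by_cases hdvd : ℓ ∣ Nat.card SL(2, F)
  swap
  · -- trivial Sylow subgroup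
    have hS : (S : Subgroup SL(2, F)) = ⊥ := by
      rw [← Subgroup.card_eq_one, S.card_eq_multiplicity, Nat.factorization_eq_zero_of_not_dvd hdvd,
        pow_zero]
    have hnorm : (S : Subgroup SL(2, F)).Normal := by rw [hS]; infer_instance
    exact (np_normalizer_of_normal (S : Subgroup SL(2, F)) ℓ).symm
  -- the field with three elements
  by_cases h3 : Fintype.card F = 3
  · have e : Nonempty (Matrix.SpecialLinearGroup (Fin 2) (ZMod 3) ≃* SL(2, F)) := by
      let e : ZMod 3 ≃+* F := ZMod.ringEquivOfPrime F Nat.prime_three h3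
      exact ⟨{ toFun := Matrix.SpecialLinearGroup.map (e : ZMod 3 →+* F)
               invFun := Matrix.SpecialLinearGroup.map (e.symm : F →+* ZMod 3)
               left_inv := fun A => by
                 ext i j
                 simp
               right_inv := fun A => by
                 ext i j
                 simp
               map_mul' := fun A B => map_mul _ A B }⟩
    obtain ⟨e⟩ := e
    have hp3 : p = 3 := by
      have h4 : p ∣ 3 := by
        rw [← h3, hn.2]; exact dvd_pow_self p n.2.ne'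
      exact (Nat.prime_dvd_prime_iff_eq hpp Nat.prime_three).1 h4
    rw [hcard2, h3] at hdvd
    have h24 : ℓ ∣ 2 ^ 3 * 3 := by simpa using hdvd
    rcases (hp1.dvd_mul).1 h24 with h4 | h4
    · have h5 : ℓ = 2 := (Nat.prime_dvd_prime_iff_eq hp1 Nat.prime_two).1 (hp1.dvd_of_dvd_pow h4)
      subst h5
      rw [np_two p hp2 S, ← np_congr e, np_SL23.1]
    · have h5 : ℓ = 3 := (Nat.prime_dvd_prime_iff_eq hp1 Nat.prime_three).1 h4
      subst h5
      subst hp3
      rw [np_borel hodd 3 S, ← np_congr e, np_SL23.2, h3]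
  have h5 : 5 ≤ Fintype.card F := by
    obtain ⟨m, hm⟩ := hodd
    omega
  have hG := np_SL h5 hodd ℓ hp1 h
  obtain ⟨m, hm⟩ := hodd
  by_cases hl2 : ℓ = 2
  · subst hl2
    rw [hG, np_two p hp2 S]
    have e0 : ¬ 2 ∣ Fintype.card F := by omega
    have e1 : 2 ∣ Fintype.card F + 1 := by omega
    have e2 : 2 ∣ Fintype.card F - 1 := by omega
    rw [if_neg e0, if_pos e1, if_pos e2]
    split_ifs with h6 h7 h7 <;> omega
  by_cases hlp : ℓ = p
  · subst hlp
    have hqd : ℓ ∣ Fintype.card F := by rw [hn.2]; exact dvd_pow_self ℓ n.2.ne'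
    have hl1 : ∀ a : ℕ, a ∣ 2 → ¬ ℓ ∣ a := by
      intro a ha h6
      exact hl2 ((Nat.prime_dvd_prime_iff_eq hp1 Nat.prime_two).1 (h6.trans ha))
    have e1 : ¬ ℓ ∣ Fintype.card F + 1 := by
      intro h6
      apply hl1 1 (one_dvd 2)
      exact (Nat.dvd_add_right hqd).1 h6
    have e2 : ¬ ℓ ∣ Fintype.card F - 1 := by
      intro h6
      apply hl1 1 (one_dvd 2)
      have h7 : Fintype.card F - (Fintype.card F - 1) = 1 := by omega
      rw [← h7]
      exact Nat.dvd_sub hqd h6
    have e3 : ¬ ℓ ∣ (Fintype.card F + 1) / 2 := fun h6 => e1 (h6.trans (Nat.div_dvd_of_dvd (by omega)))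
    have e4 : ¬ ℓ ∣ (Fintype.card F - 1) / 2 := fun h6 => e2 (h6.trans (Nat.div_dvd_of_dvd (by omega)))
    rw [hG, np_borel ⟨m, hm⟩ ℓ S, if_pos hqd, if_neg e1, if_neg e2, if_neg e3, if_neg e4]
    omega
  -- ℓ odd, dividing q - 1 or q + 1
  have hlq : ¬ ℓ ∣ Fintype.card F := by
    intro h6
    rw [hn.2] at h6
    exact hlp ((Nat.prime_dvd_prime_iff_eq hp1 hpp).1 (hp1.dvd_of_dvd_pow h6))
  have hhalf : ∀ a : ℕ, 2 ∣ a → ℓ ∣ a → ℓ ∣ a / 2 := by
    rintro a ⟨b, rfl⟩ h6
    rw [Nat.mul_div_cancel_left _ (by norm_num)]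
    rcases (hp1.dvd_mul).1 h6 with h7 | h7
    · exact absurd ((Nat.prime_dvd_prime_iff_eq hp1 Nat.prime_two).1 h7) hl2
    · exact h7
  have hnot2 : ¬ ℓ ∣ 2 := fun h6 => hl2 ((Nat.prime_dvd_prime_iff_eq hp1 Nat.prime_two).1 h6)
  rw [hcard2] at hdvd
  rcases (hp1.dvd_mul).1 ((hp1.dvd_mul.1 hdvd).resolve_left hlq) with h6 | h6
  · -- the split torus
    have hnp : ¬ ℓ ∣ Fintype.card F + 1 := by
      intro h7
      apply hnot2
      have h8 : Fintype.card F + 1 - (Fintype.card F - 1) = 2 := by omega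
      rw [← h8]
      exact Nat.dvd_sub h7 h6
    have hcT : Nat.card (split F) = 2 * ((m - 2) + 2) := by
      rw [card_split]; omega
    have hidx : ¬ ℓ ∣ (split F).index := by
      have h7 := Subgroup.card_mul_index (split F)
      rw [card_split, hcard2, mul_left_comm] at h7
      have h8 : (split F).index = Fintype.card F * (Fintype.card F + 1) :=
        Nat.eq_of_mul_eq_mul_left (by omega) h7
      rw [h8, hp1.dvd_mul]
      rintro (h9 | h9)
      · exact hlq h9
      · exact hnp h9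
    have hNp := np_torus (split_data h2F) hl2 (m - 2) hcT (by rw [card_split]; exact h6) hidx S
    have e1 : ℓ ∣ (Fintype.card F - 1) / 2 := hhalf _ (by omega) h6
    have e2 : ¬ ℓ ∣ (Fintype.card F + 1) / 2 := fun h7 => hnp (h7.trans (Nat.div_dvd_of_dvd (by omega)))
    rw [hG, hNp, if_neg hlq, if_neg hnp, if_pos h6, if_neg e2, if_pos e1]
    omega
  · -- the non-split torus
    have hnm : ¬ ℓ ∣ Fintype.card F - 1 := by
      intro h7
      apply hnot2
      have h8 : Fintype.card F + 1 - (Fintype.card F - 1) = 2 := by omega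
      rw [← h8]
      exact Nat.dvd_sub h6 h7
    obtain ⟨a, s, ha, H, -⟩ := exists_nonsplit (F := F) ⟨m, hm⟩
    have hca : Nat.card (Subgroup.zpowers a) = Fintype.card F + 1 := by
      rw [Nat.card_zpowers, ha]
    have hcT : Nat.card (Subgroup.zpowers a) = 2 * ((m - 1) + 2) := by
      rw [hca]; omega
    have hidx : ¬ ℓ ∣ (Subgroup.zpowers a).index := by
      have h7 := Subgroup.card_mul_index (Subgroup.zpowers a)
      rw [hca, hcard2] at h7
      have h8 : (Subgroup.zpowers a).index = Fintype.card F * (Fintype.card F - 1) := by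
        apply Nat.eq_of_mul_eq_mul_left (show 0 < Fintype.card F + 1 by omega)
        rw [h7]; ring
      rw [h8, hp1.dvd_mul]
      rintro (h9 | h9)
      · exact hlq h9
      · exact hnm h9
    have hNp := np_torus H hl2 (m - 1) hcT (by rw [hca]; exact h6) hidx S
    have e1 : ℓ ∣ (Fintype.card F + 1) / 2 := hhalf _ (by omega) h6
    have e2 : ¬ ℓ ∣ (Fintype.card F - 1) / 2 := fun h7 => hnm (h7.trans (Nat.div_dvd_of_dvd (by omega)))
    rw [hG, hNp, if_neg hlq, if_pos h6, if_neg hnm, if_pos e1, if_neg e2]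
    omega

end Cfsg.Agent.H142.McKayMain
end

-- part: S2436
section
set_option autoImplicit false
open Cfsg

namespace Cfsg.Agent.S2436

/-- Let F be a finite field with q elements, q odd, ℓ any prime and S a Sylow ℓ-subgroup of SL₂ over F with normaliser N. Then SL₂ and N have the same number of irreducible complex characters of degree not divisible by ℓ (the McKay equality holds for SL₂ over F at every prime). -/
theorem result {F : Type*} [Field F] [Fintype F] (hodd : Odd (Fintype.card F)) (ℓ : ℕ) [Fact ℓ.Prime] (S : Sylow ℓ (Matrix.SpecialLinearGroup (Fin 2) F)) :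
    Nat.card {χ : Cfsg.IrrCharacter (Matrix.SpecialLinearGroup (Fin 2) F) // ¬ ℓ ∣ Cfsg.charDegree (χ : Matrix.SpecialLinearGroup (Fin 2) F → ℂ)} =
      Nat.card {ψ : Cfsg.IrrCharacter (Subgroup.normalizer ((S : Subgroup (Matrix.SpecialLinearGroup (Fin 2) F)) : Set (Matrix.SpecialLinearGroup (Fin 2) F))) //
        ¬ ℓ ∣ Cfsg.charDegree (ψ : Subgroup.normalizer ((S : Subgroup (Matrix.SpecialLinearGroup (Fin 2) F)) : Set (Matrix.SpecialLinearGroup (Fin 2) F)) → ℂ)} := by
  exact Cfsg.Agent.H142.McKayMain.main hodd ℓ S (Cfsg.Agent.S2299.result hodd)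

end Cfsg.Agent.S2436
end
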