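import Mathlib
import Cfsg.Prelude.Def_Classical
import Cfsg.Agent.ClassicalGeometry.SympBasic
import Cfsg.Agent.ClassicalGeometry.SympInvolutions
import Cfsg.Agent.H156.PSLCov
import Cfsg.Agent.ClassicalGeometry.TwoFamilies
import Cfsg.Agent.H156.UThreeCov
import Cfsg.Prelude.Def_G2
import Cfsg.Statements.S2500
set_option linter.all false

-- part: H156/SpEven
section
set_option autoImplicit false

/-!
# `Sp_{2m}(q)`, `q` even, is the union of the conjugates of `O⁺` and `O⁻` (Dye's theorem) (helper156)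
-/

open Cfsg
open scoped Matrix

namespace Cfsg.Agent.H156.SpEven

open Cfsg.Agent.ClassicalGeometry.SympBasic

variable {F : Type*} [Field F] {m : ℕ}

/-- The hyperbolic quadratic form. -/
def Q0 (v : Fin m ⊕ Fin m → F) : F := ∑ i : Fin m, v (.inl i) * v (.inr i)

/-- The form `Q0 + B(·, a)²`. -/
def Qa (a v : Fin m ⊕ Fin m → F) : F := Q0 v + sympForm m F v a ^ 2

theorem Q0_add [CharP F 2] (u v : Fin m ⊕ Fin m → F) :
    Q0 (u + v) = Q0 u + Q0 v + sympForm m F u v := by
  rw [sympForm_eq_sum, Q0, Q0, Q0, ← Finset.sum_add_distrib, ← Finset.sum_add_distrib]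
  refine Finset.sum_congr rfl fun i _ => ?_
  rw [CharTwo.sub_eq_add]
  simp only [Pi.add_apply]
  ring

theorem Q0_smul (c : F) (v : Fin m ⊕ Fin m → F) : Q0 (c • v) = c ^ 2 * Q0 v := by
  rw [Q0, Q0, Finset.mul_sum]
  refine Finset.sum_congr rfl fun i _ => ?_
  simp only [Pi.smul_apply, smul_eq_mul]
  ring

theorem Qa_add [CharP F 2] (a u v : Fin m ⊕ Fin m → F) :
    Qa a (u + v) = Qa a u + Qa a v + sympForm m F u v := by
  rw [Qa, Qa, Qa, Q0_add, sympForm_add_left, CharTwo.add_sq]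
  ring

theorem Qa_smul (a : Fin m ⊕ Fin m → F) (c : F) (v : Fin m ⊕ Fin m → F) :
    Qa a (c • v) = c ^ 2 * Qa a v := by
  rw [Qa, Qa, Q0_smul, sympForm_smul_left]
  ring

/-- The stabiliser of `Qa a` in the symplectic group. -/
def st (a : Fin m ⊕ Fin m → F) : Subgroup (Matrix.symplecticGroup (Fin m) F) where
  carrier := {A | ∀ v, Qa a ((A : Matrix (Fin m ⊕ Fin m) (Fin m ⊕ Fin m) F) *ᵥ v) = Qa a v}
  mul_mem' {A B} hA hB := by
    intro v
    rw [coe_mul_mulVec, hA, hB]
  one_mem' := by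
    intro v
    rw [OneMemClass.coe_one, Matrix.one_mulVec]
  inv_mem' {A} hA := by
    intro v
    have h := hA (((A⁻¹ : Matrix.symplecticGroup (Fin m) F) :
      Matrix (Fin m ⊕ Fin m) (Fin m ⊕ Fin m) F) *ᵥ v)
    rw [← coe_mul_mulVec, mul_inv_cancel, OneMemClass.coe_one, Matrix.one_mulVec] at h
    exact h.symm

theorem mem_st {a : Fin m ⊕ Fin m → F} {A : Matrix.symplecticGroup (Fin m) F} :
    A ∈ st a ↔ ∀ v, Qa a ((A : Matrix (Fin m ⊕ Fin m) (Fin m ⊕ Fin m) F) *ᵥ v) = Qa a v := Iff.rfl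

/-- A form `Qa a` composed with a transvection. -/
theorem Qa_transv [CharP F 2] (a c v : Fin m ⊕ Fin m → F) (s : F) (hs : s ^ 2 * Qa a c + s + 1 = 0) :
    Qa a ((transv c s : Matrix (Fin m ⊕ Fin m) (Fin m ⊕ Fin m) F) *ᵥ v) = Qa (a + c) v := by
  rw [coe_transv, sympTransvection_mulVec, Qa_add, Qa_smul, sympForm_smul_right, Qa, Qa, Qa,
    sympForm_add_right, CharTwo.add_sq]
  rw [Qa] at hs
  have h2 : (2 : F) = 0 := CharTwo.two_eq_zero
  linear_combination (sympForm m F v c) ^ 2 * hs - sympForm m F v c ^ 2 * h2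

/-- Elements of the stabiliser of `Qa (a + c)` are conjugate into the stabiliser of `Qa a`. -/
theorem conj_st [CharP F 2] (a c : Fin m ⊕ Fin m → F) (s : F) (hs : s ^ 2 * Qa a c + s + 1 = 0)
    (A : Matrix.symplecticGroup (Fin m) F) (hA : A ∈ st (a + c)) :
    transv c s * A * (transv c s)⁻¹ ∈ st a := by
  intro v
  rw [coe_mul_mulVec, coe_mul_mulVec, Qa_transv a c _ s hs, hA, ← Qa_transv a c _ s hs,
    ← coe_mul_mulVec, mul_inv_cancel, OneMemClass.coe_one, Matrix.one_mulVec]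

/-- Solving `s² x + s + 1 = 0` when `x = d² + d`. -/
theorem exists_s [CharP F 2] (x : F) (hx : ∃ d : F, d ^ 2 + d = x) :
    ∃ s : F, s ^ 2 * x + s + 1 = 0 := by
  obtain ⟨d, hd⟩ := hx
  have h2 : (2 : F) = 0 := CharTwo.two_eq_zero
  by_cases h0 : x = 0
  · exact ⟨1, by rw [h0]; linear_combination h2⟩
  · refine ⟨d / x, ?_⟩
    field_simp
    linear_combination hd + x * h2

/-- **Dye**: every symplectic transformation preserves a quadratic form polarising to the
symplectic form. -/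
theorem exists_mem_st [Finite F] [CharP F 2] (A : Matrix.symplecticGroup (Fin m) F) :
    ∃ a, A ∈ st a := by
  classical
  obtain ⟨M, hM⟩ : ∃ M : Matrix (Fin m ⊕ Fin m) (Fin m ⊕ Fin m) F, M = A.1 := ⟨_, rfl⟩
  obtain ⟨N, hN⟩ : ∃ N : Matrix (Fin m ⊕ Fin m) (Fin m ⊕ Fin m) F, N = (A⁻¹).1 := ⟨_, rfl⟩
  have hB : ∀ u v, sympForm m F (M *ᵥ u) (M *ᵥ v) = sympForm m F u v := by
    rw [hM]; exact sympForm_mulVec A.2
  have hMN : ∀ v, M *ᵥ (N *ᵥ v) = v := fun v => by
    rw [hM, hN]
    have h := coe_mul_mulVec A A⁻¹ v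
    rw [mul_inv_cancel, OneMemClass.coe_one, Matrix.one_mulVec] at h
    exact h.symm
  -- the square root of `Q0 (A v) + Q0 v`
  let r : F ≃+* F := (frobeniusEquiv F 2).symm
  have hr : ∀ x : F, r x ^ 2 = x := fun x => frobeniusEquiv_symm_pow_p F 2 x
  have hinj : ∀ x y : F, x ^ 2 = y ^ 2 → x = y := fun x y h => by
    have : frobenius F 2 x = frobenius F 2 y := h
    exact frobenius_inj F 2 this
  let μ : (Fin m ⊕ Fin m → F) →ₗ[F] F :=
    { toFun := fun v => r (Q0 (M *ᵥ v) + Q0 v)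
      map_add' := by
        intro u v
        apply hinj
        rw [CharTwo.add_sq, hr, hr, hr, Matrix.mulVec_add, Q0_add, Q0_add, hB]
        have h2 : (2 : F) = 0 := CharTwo.two_eq_zero
        linear_combination sympForm m F u v * h2
      map_smul' := by
        intro c v
        apply hinj
        rw [RingHom.id_apply, smul_eq_mul, mul_pow, hr, hr, Matrix.mulVec_smul, Q0_smul, Q0_smul]
        ring }
  have hμ : ∀ v, μ v ^ 2 = Q0 (M *ᵥ v) + Q0 v := fun v => hr _
  -- every functional is given by a vector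
  have hdual : ∀ f : (Fin m ⊕ Fin m → F) →ₗ[F] F, ∃ w, ∀ v, f v = sympForm m F v w := by
    intro f
    obtain ⟨w, hw⟩ := (LinearMap.BilinForm.toDual (sympBilin m F)
      sympBilin_nondegenerate).surjective f
    refine ⟨-w, fun v => ?_⟩
    rw [← hw, sympForm_neg_right, sympForm_swap, neg_neg]
    rfl
  obtain ⟨b, hb⟩ := hdual μ
  -- `b` lies in the range of `A⁻¹ + 1`
  have hb' : b ∈ LinearMap.range (Matrix.mulVecLin (N - 1)) := by
    by_contra hcon
    obtain ⟨f, hf1, hf2⟩ := Submodule.exists_le_ker_of_notMem hcon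
    obtain ⟨w, hw⟩ := hdual f
    have h1 : ∀ v, sympForm m F (N *ᵥ v - v) w = 0 := by
      intro v
      rw [← hw]
      apply hf2
      exact ⟨v, by rw [Matrix.mulVecLin_apply, Matrix.sub_mulVec, Matrix.one_mulVec]⟩
    have h2 : M *ᵥ w = w := by
      apply eq_of_forall_sympForm_left
      intro v
      have h3 := h1 v
      rw [sympForm_sub_left, sub_eq_zero] at h3
      rw [← h3, ← hB (N *ᵥ v) w, hMN]
    apply hf1
    rw [hw, sympForm_swap, ← hb w]
    have h4 := hμ w
    rw [h2, CharTwo.add_self_eq_zero] at h4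
    rw [pow_eq_zero_iff two_ne_zero] at h4
    rw [h4, neg_zero]
  obtain ⟨a, ha⟩ := hb'
  refine ⟨a, ?_⟩
  intro v
  rw [Matrix.mulVecLin_apply, Matrix.sub_mulVec, Matrix.one_mulVec] at ha
  rw [← hM, Qa, Qa]
  have h1 : sympForm m F v b = sympForm m F (M *ᵥ v) a - sympForm m F v a := by
    rw [← ha, sympForm_sub_right, ← hB v (N *ᵥ a), hMN]
  have h2 := hμ v
  rw [hb, h1] at h2
  have h2' : (2 : F) = 0 := CharTwo.two_eq_zero
  linear_combination h2 + (Q0 (M *ᵥ v) - sympForm m F v a ^ 2 +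
    sympForm m F (M *ᵥ v) a * sympForm m F v a) * h2'

theorem psp_even [Finite F] [CharP F 2] (hm : 2 ≤ m) :
    ∃ H K : Subgroup (Cfsg.PSp m F), H ≠ ⊤ ∧ K ≠ ⊤ ∧
      ∀ g : Cfsg.PSp m F, ∃ x : Cfsg.PSp m F, x * g * x⁻¹ ∈ H ∨ x * g * x⁻¹ ∈ K := by
  classical
  obtain ⟨n, hn⟩ := exists_not_P F
  let i0 : Fin m := ⟨0, by omega⟩
  let i1 : Fin m := ⟨1, by omega⟩
  have hi : i0 ≠ i1 := by
    intro h
    have := congrArg Fin.val h
    simp [i0, i1] at this
  let a1 : Fin m ⊕ Fin m → F := Pi.single (.inl i0) 1 + Pi.single (.inr i0) n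
  let c1 : Fin m ⊕ Fin m → F := Pi.single (.inl i1) 1
  have hc1 : c1 ≠ 0 := by
    intro h
    have := congrFun h (.inl i1)
    simp [c1] at this
  have hQa1 : Q0 a1 = n := by
    rw [Q0, Finset.sum_eq_single i0]
    · simp [a1]
    · intro j _ hj
      simp [a1, hj]
    · simp
  have hQc1 : Q0 c1 = 0 := by
    rw [Q0]
    refine Finset.sum_eq_zero fun j _ => ?_
    simp [c1]
  have hBc1 : sympForm m F c1 a1 = 0 := by
    rw [sympForm_single_inl_left]
    simp [a1, hi.symm]
  clear_value a1 c1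
  -- properness
  have hproper : ∀ a : Fin m ⊕ Fin m → F, Qa a c1 = 0 → st a ≠ ⊤ := by
    intro a ha h
    obtain ⟨v, hv⟩ : ∃ v, sympForm m F v c1 ≠ 0 := by
      by_contra hcon
      push Not at hcon
      exact hc1 (eq_zero_of_forall_sympForm_left hcon)
    have hmem : transv c1 1 ∈ st a := by rw [h]; trivial
    have h1 := hmem v
    have hs : (1 : F) ^ 2 * Qa a c1 + 1 + 1 = 0 := by
      rw [ha, mul_zero, zero_add, CharTwo.add_self_eq_zero]
    rw [Qa_transv a c1 v 1 hs, Qa, Qa, sympForm_add_right, CharTwo.add_sq] at h1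
    apply hv
    have h2 : sympForm m F v c1 ^ 2 = 0 := by linear_combination h1
    exact pow_eq_zero_iff two_ne_zero |>.mp h2
  have hcent : ∀ a : Fin m ⊕ Fin m → F, Subgroup.center (Matrix.symplecticGroup (Fin m) F) ≤ st a := by
    intro a z hz v
    rcases Cfsg.Agent.ClassicalGeometry.SympInvolutions.center_eq hz with h | h
    · rw [h, Matrix.one_mulVec]
    · have h1 : (-1 : Matrix (Fin m ⊕ Fin m) (Fin m ⊕ Fin m) F) = 1 := by
        rw [← sub_eq_zero]
        have h2 : (2 : F) = 0 := CharTwo.two_eq_zero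
        ext i j
        rw [Matrix.sub_apply, Matrix.neg_apply, Matrix.zero_apply]
        linear_combination (- (1 : Matrix (Fin m ⊕ Fin m) (Fin m ⊕ Fin m) F) i j) * h2
      rw [h, h1, Matrix.one_mulVec]
  refine TwoCov.quot (Subgroup.center (Matrix.symplecticGroup (Fin m) F)) (st 0) (st a1)
    (hproper 0 ?_) (hproper a1 ?_) (hcent 0) (hcent a1) ?_
  · rw [Qa, hQc1, sympForm_zero_right]; ring
  · rw [Qa, hQc1, hBc1]; ring
  · intro A
    obtain ⟨b, hb⟩ := exists_mem_st A
    by_cases hP : ∃ d : F, d ^ 2 + d = Q0 b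
    · obtain ⟨s, hs⟩ := exists_s (Qa 0 b) (by
        rw [Qa, sympForm_zero_right]
        obtain ⟨d, hd⟩ := hP
        exact ⟨d, by rw [hd]; ring⟩)
      refine ⟨transv b s, Or.inl (conj_st 0 b s hs A ?_)⟩
      rwa [zero_add]
    · obtain ⟨d, hd⟩ := add_mem_P hn hP
      obtain ⟨s, hs⟩ := exists_s (Qa a1 (a1 + b)) (by
        refine ⟨d + sympForm m F a1 b, ?_⟩
        rw [Qa, Q0_add, sympForm_add_left, sympForm_self, hQa1, CharTwo.add_sq, sympForm_swap b a1,
          zero_add]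
        linear_combination hd)
      refine ⟨transv (a1 + b) s, Or.inr (conj_st a1 (a1 + b) s hs A ?_)⟩
      have h2 : a1 + (a1 + b) = b := by
        rw [← add_assoc]
        have : a1 + a1 = 0 := by
          ext i
          exact CharTwo.add_self_eq_zero _
        rw [this, zero_add]
      rwa [h2]

end Cfsg.Agent.H156.SpEven
end

-- part: H156/SpThree
section
set_option autoImplicit false

/-!
# Elements of `Sp₆(3^a)` (helper156)
-/

open Cfsg

namespace Cfsg.Agent.H156.SpThree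

open Polynomial Module Matrix Cfsg.Agent.ClassicalGeometry.SympBasic Cfsg.Agent.H156.Art
  Cfsg.Agent.H156.Shift

variable {F : Type*} [Field F]

/-- six by six matrices -/
abbrev M6 (F : Type*) := Matrix (Fin 3 ⊕ Fin 3) (Fin 3 ⊕ Fin 3) F
/-- the space -/
abbrev V6 (F : Type*) := Fin 3 ⊕ Fin 3 → F

/-- self-adjoint -/
def SA (s : M6 F) : Prop := ∀ u v, sympForm 3 F (s *ᵥ u) v = sympForm 3 F u (s *ᵥ v)

theorem algebraMap_mulVec (c : F) (u : V6 F) : (algebraMap F (M6 F) c) *ᵥ u = c • u := by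
  rw [Matrix.algebraMap_eq_diagonal]
  ext k
  rw [Matrix.mulVec_diagonal]
  rfl

theorem SA.add {s t : M6 F} (hs : SA s) (ht : SA t) : SA (s + t) := by
  intro u v
  rw [Matrix.add_mulVec, Matrix.add_mulVec, sympForm_add_left, sympForm_add_right, hs, ht]

theorem SA.mul {s t : M6 F} (hs : SA s) (ht : SA t) (h : Commute s t) : SA (s * t) := by
  intro u v
  rw [← mulVec_mulVec, hs, ht, mulVec_mulVec, ← h.eq]

theorem SA.algMap (c : F) : SA (algebraMap F (M6 F) c) := by
  intro u v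
  rw [algebraMap_mulVec, algebraMap_mulVec, sympForm_smul_left, sympForm_smul_right]

theorem SA.pow {s : M6 F} (hs : SA s) (k : ℕ) : SA (s ^ k) := by
  induction k with
  | zero => intro u v; simp
  | succ k ih => rw [pow_succ]; exact ih.mul hs (Commute.pow_self s k)

theorem SA.neg {s : M6 F} (hs : SA s) : SA (-s) := by
  intro u v
  rw [Matrix.neg_mulVec, Matrix.neg_mulVec, sympForm_neg_left, sympForm_neg_right, hs]

theorem SA.sub {s t : M6 F} (hs : SA s) (ht : SA t) : SA (s - t) := by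
  rw [sub_eq_add_neg]; exact hs.add ht.neg

theorem SA.aeval {s : M6 F} (hs : SA s) (P : F[X]) : SA (Polynomial.aeval s P) := by
  induction P using Polynomial.induction_on' with
  | add A B hA hB => rw [map_add]; exact hA.add hB
  | monomial k a =>
    rw [aeval_monomial]
    exact (SA.algMap a).mul (hs.pow k) (Algebra.commutes a (s ^ k))

theorem commute_aeval {g s : M6 F} (h : Commute g s) (P : F[X]) : Commute g (Polynomial.aeval s P) := by
  induction P using Polynomial.induction_on' with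
  | add A B hA hB => rw [map_add]; exact hA.add_right hB
  | monomial k a =>
    rw [aeval_monomial]
    exact Commute.mul_right (Algebra.commutes a g).symm (h.pow_right k)

/-- the orthogonal complement -/
def spPerp (W : Submodule F (V6 F)) : Submodule F (V6 F) where
  carrier := {u | ∀ w ∈ W, sympForm 3 F w u = 0}
  add_mem' {a b} ha hb w hw := by rw [sympForm_add_right, ha w hw, hb w hw, add_zero]
  zero_mem' w _ := sympForm_zero_right w
  smul_mem' c a ha w hw := by rw [sympForm_smul_right, ha w hw, mul_zero]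

theorem mem_spPerp {W : Submodule F (V6 F)} {u : V6 F} :
    u ∈ spPerp W ↔ ∀ w ∈ W, sympForm 3 F w u = 0 := Iff.rfl

theorem finrank_V6 : finrank F (V6 F) = 6 := by simp

theorem finrank_spPerp (W : Submodule F (V6 F)) : finrank F W + finrank F (spPerp W) = 6 := by
  have h1 := LinearMap.BilinForm.finrank_orthogonal (B := sympBilin 3 F) sympBilin_nondegenerate W
  have h2 : spPerp W = LinearMap.BilinForm.orthogonal (sympBilin 3 F) W := by
    ext u
    rw [LinearMap.BilinForm.mem_orthogonal_iff]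
    rfl
  have h3 : finrank F (spPerp W) = finrank F (V6 F) - finrank F W := by
    rw [h2]; exact h1
  have h4 : finrank F W ≤ finrank F (V6 F) := Submodule.finrank_le W
  rw [finrank_V6] at h3 h4
  omega

/-- a totally singular subspace has dimension at most three -/
theorem ts_le (W : Submodule F (V6 F)) (h : ∀ u ∈ W, ∀ v ∈ W, sympForm 3 F u v = 0) :
    finrank F W ≤ 3 := by
  have h1 := finrank_spPerp W
  have h2 : W ≤ spPerp W := fun u hu v hv => h v hv u hu
  have h3 := Submodule.finrank_mono h2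
  omega

/-- there is an invariant hyperbolic plane -/
def Plane (g : M6 F) : Prop := ∃ u v : V6 F, sympForm 3 F u v = 1 ∧
  ∀ w ∈ Submodule.span F {u, v}, g *ᵥ w ∈ Submodule.span F {u, v}

theorem plane_of_nd {g : M6 F} {W : Submodule F (V6 F)} (h2 : finrank F W = 2)
    (hnd : ∀ u ∈ W, (∀ v ∈ W, sympForm 3 F u v = 0) → u = 0) (hg : ∀ w ∈ W, g *ᵥ w ∈ W) : Plane g := by
  have hne : W ≠ ⊥ := by
    rintro rfl
    rw [finrank_bot] at h2
    omega
  obtain ⟨u, hu, hu0⟩ := Submodule.exists_mem_ne_zero_of_ne_bot hne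
  obtain ⟨v, hv, huv⟩ : ∃ v ∈ W, sympForm 3 F u v ≠ 0 := by
    by_contra hcon
    push Not at hcon
    exact hu0 (hnd u hu hcon)
  set b := sympForm 3 F u v with hb
  have h1 : sympForm 3 F u (b⁻¹ • v) = 1 := by
    rw [sympForm_smul_right, ← hb, inv_mul_cancel₀ huv]
  have hbv : b⁻¹ • v ∈ W := W.smul_mem _ hv
  have hli : LinearIndependent F ![u, b⁻¹ • v] := by
    rw [LinearIndependent.pair_iff' hu0]
    intro a ha
    rw [← ha, sympForm_smul_right, sympForm_self, mul_zero] at h1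
    exact zero_ne_one h1
  have hspan : Submodule.span F {u, b⁻¹ • v} = W := by
    apply Submodule.eq_of_le_of_finrank_eq
    · rw [Submodule.span_le]
      rintro x (rfl | rfl)
      · exact hu
      · exact hbv
    · have h3 := finrank_span_eq_card hli
      rw [Matrix.range_cons_cons_empty] at h3
      rw [h2]
      simpa using h3
  refine ⟨u, b⁻¹ • v, h1, ?_⟩
  rw [hspan]
  exact hg

/-- The Fitting decomposition of a self-adjoint matrix. -/
theorem fitting {g N : M6 F} (hN : SA N) (hgN : g * N = N * g) :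
    Plane g ∨ N ^ 6 = 0 ∨ ∀ u, N *ᵥ u = 0 → u = 0 := by
  set A : M6 F := N ^ 6 with hA
  have hSA : SA A := hN.pow 6
  have hgA : g * A = A * g := (Commute.pow_right (show Commute g N from hgN) 6).eq
  set K := LinearMap.ker (Matrix.mulVecLin A) with hK
  set R := LinearMap.range (Matrix.mulVecLin A) with hR
  have hmK : ∀ u, u ∈ K ↔ A *ᵥ u = 0 := fun u => by rw [hK, LinearMap.mem_ker]; rfl
  have hKR : ∀ k ∈ K, ∀ r ∈ R, sympForm 3 F r k = 0 := by
    rintro k hk _ ⟨y, rfl⟩
    rw [Matrix.mulVecLin_apply, hSA, (hmK k).1 hk, sympForm_zero_right]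
  have hinf : K ⊓ R = ⊥ := by
    rw [Submodule.eq_bot_iff]
    rintro z ⟨hz, y, rfl⟩
    have e : ∀ k : ℕ, Matrix.mulVecLin (N ^ k) = (Matrix.mulVecLin N) ^ k := by
      intro k
      induction k with
      | zero => rw [pow_zero, pow_zero, Matrix.mulVecLin_one]; rfl
      | succ k ih => rw [pow_succ, pow_succ, Matrix.mulVecLin_mul, ih]; rfl
    have h1 : y ∈ LinearMap.ker ((Matrix.mulVecLin N) ^ (6 + 6)) := by
      rw [LinearMap.mem_ker, ← e, pow_add, Matrix.mulVecLin_mul]
      exact hz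
    have h2 : LinearMap.ker ((Matrix.mulVecLin N) ^ (6 + 6)) =
        LinearMap.ker ((Matrix.mulVecLin N) ^ finrank F (V6 F)) :=
      Module.End.ker_pow_eq_ker_pow_finrank_of_le (by simp)
    have h4 : finrank F (V6 F) = 6 := by simp
    rw [h2, h4, ← e] at h1
    exact h1
  have hrn : finrank F R + finrank F K = 6 := by
    have := LinearMap.finrank_range_add_finrank_ker (Matrix.mulVecLin A)
    rw [finrank_V6] at this
    exact this
  have hsup : K ⊔ R = ⊤ := by
    apply Submodule.eq_top_of_finrank_eq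
    have h1 := Submodule.finrank_sup_add_finrank_inf_eq K R
    rw [hinf, finrank_bot] at h1
    have h4 : finrank F (V6 F) = 6 := by simp
    rw [h4]
    omega
  have hdec : ∀ w : V6 F, ∃ a ∈ K, ∃ b ∈ R, a + b = w := by
    intro w
    have hw : w ∈ K ⊔ R := by rw [hsup]; trivial
    exact Submodule.mem_sup.1 hw
  have hKnd : ∀ u ∈ K, (∀ v ∈ K, sympForm 3 F u v = 0) → u = 0 := by
    intro u hu hv
    apply eq_zero_of_forall_sympForm_right
    intro w
    obtain ⟨a, ha, b, hb, rfl⟩ := hdec w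
    rw [sympForm_add_right, hv a ha, sympForm_swap u b, hKR u hu b hb, neg_zero, add_zero]
  have hRnd : ∀ u ∈ R, (∀ v ∈ R, sympForm 3 F u v = 0) → u = 0 := by
    intro u hu hv
    apply eq_zero_of_forall_sympForm_right
    intro w
    obtain ⟨a, ha, b, hb, rfl⟩ := hdec w
    rw [sympForm_add_right, hv b hb, hKR a ha u hu, add_zero]
  have hKI : ∀ w ∈ K, g *ᵥ w ∈ K := by
    intro w hw
    rw [hmK] at hw ⊢
    rw [mulVec_mulVec, ← hgA, ← mulVec_mulVec, hw, mulVec_zero]
  have hRI : ∀ w ∈ R, g *ᵥ w ∈ R := by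
    rintro _ ⟨y, rfl⟩
    refine ⟨g *ᵥ y, ?_⟩
    rw [Matrix.mulVecLin_apply, Matrix.mulVecLin_apply, mulVec_mulVec, mulVec_mulVec, hgA]
  -- the dimension is even
  have heven : ∃ m : ℕ, finrank F K = m + m := by
    let B : LinearMap.BilinForm F K := (sympBilin 3 F).domRestrict₁₂ K K
    have hB : ∀ x y : K, B x y = sympForm 3 F x y := fun x y => rfl
    obtain ⟨m, hm⟩ := Cfsg.Agent.ClassicalGeometry.TwoFamilies.exists_finrank_eq_ker_add B
      (fun x => by rw [hB, sympForm_self])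
    have hker : LinearMap.ker B = ⊥ := by
      rw [Submodule.eq_bot_iff]
      intro x hx
      have h1 : B x = 0 := hx
      have h2 := hKnd x x.2 (fun v hv => by
        have := congrArg (fun f => f ⟨v, hv⟩) h1
        exact this)
      exact Subtype.ext h2
    rw [hker, finrank_bot, zero_add] at hm
    exact ⟨m, hm⟩
  obtain ⟨m, hm⟩ := heven
  have hcases : finrank F K = 0 ∨ finrank F K = 2 ∨ finrank F K = 4 ∨ finrank F K = 6 := by omega
  rcases hcases with h | h | h | h
  · right; right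
    intro u hu
    have h1 : u ∈ K := by
      rw [hmK, hA, pow_succ, ← mulVec_mulVec, hu, mulVec_zero]
    rw [Submodule.finrank_eq_zero.1 h, Submodule.mem_bot] at h1
    exact h1
  · left
    exact plane_of_nd h hKnd hKI
  · left
    have hR2 : finrank F R = 2 := by omega
    exact plane_of_nd hR2 hRnd hRI
  · right; left
    have hKtop : K = ⊤ := Submodule.eq_top_of_finrank_eq (by rw [h]; simp)
    apply Matrix.ext_of_mulVec_single
    intro i
    have : (Pi.single i 1 : V6 F) ∈ K := by rw [hKtop]; trivial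
    rw [(hmK _).1 this, zero_mulVec]

section Rep

variable {f : F[X]}

/-- the representation of `F[X]/(f)` attached to a root of `f` -/
noncomputable def rho {s : M6 F} (hs : Polynomial.aeval s f = 0) : AdjoinRoot f →ₐ[F] M6 F :=
  Ideal.Quotient.liftₐ (Ideal.span {f}) (Polynomial.aeval s) (by
    intro a ha
    obtain ⟨b, rfl⟩ := Ideal.mem_span_singleton.1 ha
    rw [map_mul, hs, zero_mul])

theorem rho_mk {s : M6 F} (hs : Polynomial.aeval s f = 0) (P : F[X]) :
    rho hs (AdjoinRoot.mk f P) = Polynomial.aeval s P := rfl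

theorem rho_SA {s : M6 F} (hs : Polynomial.aeval s f = 0) (hsa : SA s) (a : AdjoinRoot f) :
    SA (rho hs a) := by
  obtain ⟨P, rfl⟩ := AdjoinRoot.mk_surjective a
  rw [rho_mk]
  exact hsa.aeval P

/-- alternating values -/
theorem SA.alt [NeZero (2 : F)] {s : M6 F} (hs : SA s) (v : V6 F) : sympForm 3 F (s *ᵥ v) v = 0 := by
  have h1 := hs v v
  rw [sympForm_swap v] at h1
  have h2 : (2 : F) * sympForm 3 F (s *ᵥ v) v = 0 := by linear_combination h1
  exact (mul_eq_zero.1 h2).resolve_left (NeZero.ne 2)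

/-- The degree of an irreducible polynomial killing a self-adjoint matrix. -/
theorem deg_cases [NeZero (2 : F)] (hf : Irreducible f) {s : M6 F} (hs : Polynomial.aeval s f = 0)
    (hsa : SA s) : f.natDegree = 1 ∨ f.natDegree = 3 := by
  have hfact : Fact (Irreducible f) := ⟨hf⟩
  have hfin : FiniteDimensional F (AdjoinRoot f) := (AdjoinRoot.powerBasis hf.ne_zero).finite
  have hfr : finrank F (AdjoinRoot f) = f.natDegree := finrank_quotient_span_eq_natDegree
  -- the orbit map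
  let O : V6 F → (AdjoinRoot f →ₗ[F] V6 F) := fun v =>
    { toFun := fun b => rho hs b *ᵥ v
      map_add' := fun a b => by rw [map_add, Matrix.add_mulVec]
      map_smul' := fun a b => by rw [map_smul, Matrix.smul_mulVec]; rfl }
  have hO : ∀ v b, O v b = rho hs b *ᵥ v := fun v b => rfl
  have hOinj : ∀ v, v ≠ 0 → Function.Injective (O v) := by
    intro v hv
    rw [injective_iff_map_eq_zero]
    intro b hb
    by_contra h
    apply hv
    have h1 : rho hs b⁻¹ *ᵥ (rho hs b *ᵥ v) = v := by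
      rw [mulVec_mulVec, ← map_mul, inv_mul_cancel₀ h, map_one, one_mulVec]
    rw [hO] at hb
    rw [← h1, hb, mulVec_zero]
  have hOr : ∀ v, v ≠ 0 → finrank F (LinearMap.range (O v)) = f.natDegree := by
    intro v hv
    rw [LinearMap.finrank_range_of_inj (hOinj v hv), hfr]
  have hts : ∀ v, ∀ x ∈ LinearMap.range (O v), ∀ y ∈ LinearMap.range (O v), sympForm 3 F x y = 0 := by
    rintro v _ ⟨a, rfl⟩ _ ⟨b, rfl⟩
    rw [hO, hO, ← rho_SA hs hsa b, mulVec_mulVec, ← map_mul]
    exact (rho_SA hs hsa _).alt v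
  have hne : (fun _ => 1 : V6 F) ≠ 0 := fun h => one_ne_zero (congrFun h (Sum.inl 0))
  have hle : f.natDegree ≤ 3 := by
    rw [← hOr _ hne]
    exact ts_le _ (hts _)
  have hpos : f.natDegree ≠ 0 := hf.natDegree_pos.ne'
  by_contra hcon
  have hd : f.natDegree = 2 := by omega
  -- a second vector
  set U := LinearMap.range (O (fun _ => 1)) with hU
  have hUr : finrank F U = 2 := by rw [hOr _ hne, hd]
  have h1 := finrank_spPerp U
  obtain ⟨w, hw, hwU⟩ : ∃ w ∈ spPerp U, w ∉ U := by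
    by_contra hcon
    push Not at hcon
    have hle : spPerp U ≤ U := hcon
    have := Submodule.finrank_mono hle
    omega
  have hw' : ∀ x ∈ U, sympForm 3 F x w = 0 := fun x hx => hw x hx
  have hw0 : w ≠ 0 := by
    rintro rfl
    exact hwU U.zero_mem
  set U' := LinearMap.range (O w) with hU'
  have hU'r : finrank F U' = 2 := by rw [hOr _ hw0, hd]
  have hinf : U ⊓ U' = ⊥ := by
    rw [Submodule.eq_bot_iff]
    rintro _ ⟨⟨a, ha⟩, b, rfl⟩
    by_contra h
    have hb : b ≠ 0 := by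
      rintro rfl
      exact h (map_zero _)
    apply hwU
    refine ⟨b⁻¹ * a, ?_⟩
    rw [hO, map_mul, ← mulVec_mulVec, ← hO _ a, ha, hO, mulVec_mulVec, ← map_mul,
      inv_mul_cancel₀ hb, map_one, one_mulVec]
  have hUU' : ∀ x ∈ U, ∀ y ∈ U', sympForm 3 F x y = 0 := by
    rintro _ ⟨a, rfl⟩ _ ⟨b, rfl⟩
    rw [hO, hO, ← rho_SA hs hsa b, mulVec_mulVec, ← map_mul]
    exact hw' _ ⟨b * a, rfl⟩
  have hsum := Submodule.finrank_sup_add_finrank_inf_eq U U'
  rw [hinf, finrank_bot, hUr, hU'r] at hsum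
  have := ts_le (U ⊔ U') (by
    intro x hx y hy
    obtain ⟨x1, hx1, x2, hx2, rfl⟩ := Submodule.mem_sup.1 hx
    obtain ⟨y1, hy1, y2, hy2, rfl⟩ := Submodule.mem_sup.1 hy
    rw [sympForm_add_left, sympForm_add_right, sympForm_add_right, hts _ x1 hx1 y1 hy1,
      hUU' x1 hx1 y2 hy2, sympForm_swap x2 y1, hUU' y1 hy1 x2 hx2, hts _ x2 hx2 y2 hy2]
    ring)
  omega

end Rep

/-- **The trichotomy** for self-adjoint matrices commuting with `g`. -/
theorem trichotomy [Fintype F] [CharP F 3] {c : F} (hno : ∀ x : F, x ^ 3 - x ≠ c) {g s : M6 F}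
    (hs : SA s) (hgs : g * s = s * g) :
    Plane g ∨ (∃ t : M6 F, SA t ∧ t ^ 3 - t = algebraMap F _ c ∧ g * t = t * g) ∨
      ∃ l : F, (s - algebraMap F _ l) ^ 6 = 0 := by
  have h2 : NeZero (2 : F) := ⟨by
    intro h
    have h3 : (3 : F) = 0 := by exact_mod_cast CharP.cast_eq_zero F 3
    have : (1 : F) = 0 := by linear_combination h3 - h
    exact one_ne_zero this⟩
  have hm : minpoly F s ≠ 0 := minpoly.ne_zero (Algebra.IsIntegral.isIntegral _)
  obtain ⟨f, hf, r, hr⟩ := WfDvdMonoid.exists_irreducible_factor (minpoly.not_isUnit F s) hm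
  rcases fitting (g := g) (hs.aeval f) (commute_aeval (show Commute g s from hgs) f).eq with h | h | h
  · exact Or.inl h
  · right
    -- the semisimple part
    have hcard : 6 ≤ Fintype.card F ^ 6 :=
      (Nat.lt_pow_self (n := 6) Fintype.one_lt_card).le
    have h3 : Polynomial.aeval (Polynomial.aeval s (expand F (Fintype.card F ^ 6) X)) f = 0 := by
      rw [← aeval_comp, PSLCov.comp_pow_card, comp_X, map_pow]
      exact pow_eq_zero_of_le hcard h
    rcases deg_cases hf h3 (hs.aeval _) with hd | hd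
    · right
      obtain ⟨l, hl⟩ := Polynomial.exists_root_of_degree_eq_one (p := f) (by
        rw [Polynomial.degree_eq_natDegree hf.ne_zero, hd]; rfl)
      refine ⟨l, ?_⟩
      obtain ⟨e, he⟩ := Polynomial.dvd_iff_isRoot.2 hl
      have heu : IsUnit e := (hf.isUnit_or_isUnit he).resolve_left (Polynomial.not_isUnit_X_sub_C l)
      obtain ⟨e', he'⟩ := heu.exists_right_inv
      have h4 : X - C l = f * e' := by
        rw [he, mul_assoc, he', mul_one]
      have h5 : s - algebraMap F _ l = Polynomial.aeval s f * Polynomial.aeval s e' := by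
        rw [← map_mul, ← h4, map_sub, aeval_X, aeval_C]
      have hcomm : Commute (Polynomial.aeval s f) (Polynomial.aeval s e') := by
        rw [Commute, SemiconjBy, ← map_mul, ← map_mul, mul_comm]
      rw [h5, hcomm.mul_pow, h, zero_mul]
    · left
      obtain ⟨G, k, hG⟩ := PSLCov.exists_comp (irr_AS hno) (f ^ 6) (pow_ne_zero _ hf.ne_zero) (by
        intro f' hf' hdvd
        have h4 : f' ∣ f := hf'.prime.dvd_of_dvd_pow hdvd
        rw [Polynomial.natDegree_eq_of_degree_eq (Polynomial.degree_eq_degree_of_associated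
          (hf'.associated_of_dvd hf h4)), hd, natDegree_AS])
      refine ⟨Polynomial.aeval s G, hs.aeval G, ?_, (commute_aeval (show Commute g s from hgs) G).eq⟩
      have h1 : Polynomial.aeval s ((X ^ 3 - X - C c : F[X]).comp G) = 0 := by
        rw [hG, map_mul, map_pow, h, zero_mul]
      rw [aeval_comp] at h1
      simp only [map_sub, map_pow, aeval_X, aeval_C] at h1
      exact sub_eq_zero.1 h1
  · -- `f(s)` is not injective
    exfalso
    have h3 : Polynomial.aeval s r = 0 := by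
      apply Matrix.ext_of_mulVec_single
      intro i
      rw [zero_mulVec]
      apply h
      rw [mulVec_mulVec, ← map_mul, ← hr, minpoly.aeval, zero_mulVec]
    have h4 := minpoly.dvd F s h3
    have hr0 : r ≠ 0 := by
      rintro rfl
      rw [mul_zero] at hr
      exact hm hr
    have h5 := Polynomial.natDegree_le_of_dvd h4 hr0
    rw [hr, Polynomial.natDegree_mul hf.ne_zero hr0] at h5
    have := hf.natDegree_pos
    omega

/-- the adjoint -/
def sad (A : M6 F) : M6 F := -(Matrix.J (Fin 3) F * Aᵀ * Matrix.J (Fin 3) F)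

theorem J_sq' : Matrix.J (Fin 3) F * Matrix.J (Fin 3) F = -1 := Matrix.J_squared (Fin 3) F

theorem sympForm_sad (A : M6 F) (u v : V6 F) :
    sympForm 3 F (A *ᵥ u) v = sympForm 3 F u (sad A *ᵥ v) := by
  have h1 : Matrix.J (Fin 3) F * sad A = Aᵀ * Matrix.J (Fin 3) F := by
    rw [sad, mul_neg, ← mul_assoc, ← mul_assoc, J_sq', neg_mul, neg_mul, one_mul, neg_neg]
  rw [sympForm_def, sympForm_def, mulVec_mulVec, h1, ← mulVec_mulVec, Matrix.mulVec_transpose,
    dotProduct_comm (A *ᵥ u), Matrix.dotProduct_mulVec, dotProduct_comm]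

theorem sad_sad (A : M6 F) : sad (sad A) = A := by
  apply Matrix.ext_of_mulVec_single
  intro i
  apply eq_of_forall_sympForm_left
  intro w
  rw [← sympForm_sad, sympForm_swap, ← sympForm_sad, sympForm_swap, neg_neg]

theorem sad_mul (A C : M6 F) : sad (A * C) = sad C * sad A := by
  apply Matrix.ext_of_mulVec_single
  intro i
  apply eq_of_forall_sympForm_left
  intro w
  rw [← sympForm_sad, ← mulVec_mulVec, ← mulVec_mulVec, sympForm_sad, sympForm_sad]

theorem sad_add (A C : M6 F) : sad (A + C) = sad A + sad C := by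
  rw [sad, sad, sad, Matrix.transpose_add, mul_add, add_mul, neg_add]

theorem sad_one : sad (1 : M6 F) = 1 := by
  rw [sad, Matrix.transpose_one, mul_one, J_sq', neg_neg]

theorem trace_sad (A : M6 F) : (sad A).trace = A.trace := by
  rw [sad, Matrix.trace_neg, Matrix.trace_mul_comm, ← mul_assoc, J_sq', neg_mul, one_mul,
    Matrix.trace_neg, neg_neg, Matrix.trace_transpose]

theorem SA_add_sad (A : M6 F) : SA (A + sad A) := by
  intro u v
  rw [Matrix.add_mulVec, Matrix.add_mulVec, sympForm_add_left, sympForm_add_right, sympForm_sad,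
    sympForm_sad (sad A), sad_sad, add_comm]

/-- the inverse is the adjoint -/
theorem sad_coe (g : Matrix.symplecticGroup (Fin 3) F) :
    sad (g : M6 F) = ((g⁻¹ : Matrix.symplecticGroup (Fin 3) F) : M6 F) := by
  apply Matrix.ext_of_mulVec_single
  intro i
  apply eq_of_forall_sympForm_left
  intro w
  have h1 : (g : M6 F) *ᵥ (((g⁻¹ : Matrix.symplecticGroup (Fin 3) F) : M6 F) *ᵥ (Pi.single i 1 : V6 F)) =
      Pi.single i 1 := by
    rw [← coe_mul_mulVec, mul_inv_cancel]
    exact Matrix.one_mulVec _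
  rw [← sympForm_sad]
  conv_lhs => rw [← h1]
  rw [sympForm_mulVec g.2]

theorem coe_mul_inv (g : Matrix.symplecticGroup (Fin 3) F) :
    (g : M6 F) * ((g⁻¹ : Matrix.symplecticGroup (Fin 3) F) : M6 F) = 1 := by
  rw [← Submonoid.coe_mul, mul_inv_cancel]; rfl

theorem coe_inv_mul (g : Matrix.symplecticGroup (Fin 3) F) :
    ((g⁻¹ : Matrix.symplecticGroup (Fin 3) F) : M6 F) * (g : M6 F) = 1 := by
  rw [← Submonoid.coe_mul, inv_mul_cancel]; rfl

/-- **The alternative** -/
theorem exists_t [Fintype F] [CharP F 3] {c : F} (hno : ∀ x : F, x ^ 3 - x ≠ c)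
    (g : Matrix.symplecticGroup (Fin 3) F) :
    Plane (g : M6 F) ∨ ∃ t : M6 F, SA t ∧ t ^ 3 - t = algebraMap F _ c ∧
      ∃ i : F, i ^ 3 = i ∧ (g : M6 F) * t = (t + algebraMap F _ i) * (g : M6 F) := by
  by_contra hcon
  push Not at hcon
  obtain ⟨hP, hT⟩ := hcon
  have h3 : (3 : F) = 0 := by exact_mod_cast CharP.cast_eq_zero F 3
  have h3m : (3 : M6 F) = 0 := three_eq_zero F _
  -- self-adjoint elements commuting with `g`
  have hscal : ∀ s : M6 F, SA s → (g : M6 F) * s = s * (g : M6 F) →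
      ∃ l : F, (s - algebraMap F _ l) ^ 6 = 0 := by
    intro s hs hgs
    rcases trichotomy hno hs hgs with h | ⟨t, h1, h2, h4⟩ | h
    · exact absurd h hP
    · exact absurd (by rw [map_zero, add_zero, h4]) (hT t h1 h2 0 (by ring))
    · exact h
  set G : M6 F := (g : M6 F) with hG
  set G' : M6 F := ((g⁻¹ : Matrix.symplecticGroup (Fin 3) F) : M6 F) with hG'
  have e1 : G * G' = 1 := coe_mul_inv g
  have e2 : G' * G = 1 := coe_inv_mul g
  have hsadG : sad G = G' := sad_coe g
  have hsadG' : sad G' = G := by rw [← hsadG, sad_sad]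
  -- the adjoint of something commuting with `g`
  have hcomm_sad : ∀ s : M6 F, G * s = s * G → G * sad s = sad s * G := by
    intro s hs
    have h1 := congrArg sad hs
    rw [sad_mul, sad_mul, hsadG] at h1
    calc G * sad s = G * (sad s * G') * G := by rw [mul_assoc, mul_assoc, e2, mul_one]
      _ = (G * G') * (sad s) * G := by rw [h1]; noncomm_ring
      _ = sad s * G := by rw [e1, one_mul]
  have htr : ∀ s : M6 F, G * s = s * G → s.trace = 0 := by
    intro s hs
    obtain ⟨l, hl⟩ := hscal (s + sad s) (SA_add_sad s) (by rw [mul_add, add_mul, hs, hcomm_sad s hs])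
    have h1 : IsNilpotent (s + sad s - algebraMap F _ l).trace :=
      Matrix.isNilpotent_trace_of_isNilpotent ⟨6, hl⟩
    have h2 := h1.eq_zero
    rw [Matrix.trace_sub, Matrix.trace_add, trace_sad, Matrix.algebraMap_eq_diagonal,
      Matrix.trace_diagonal, Fintype.sum_sum_type, Fin.sum_univ_three, Fin.sum_univ_three] at h2
    have h4 : s.trace + s.trace - (l + l + l + (l + l + l)) = 0 := h2
    linear_combination (s.trace - 2 * l) * h3 - h4
  obtain ⟨t0, ht0⟩ := exists_shift htr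
  set t : M6 F := -(t0 + sad t0) with ht
  have hSAt : SA t := (SA_add_sad t0).neg
  have ht0' : G * sad t0 = (sad t0 + 1) * G := by
    have h1 := congrArg sad ht0
    rw [sad_mul, sad_mul, sad_add, sad_one, hsadG] at h1
    calc G * sad t0 = G * (sad t0 * G') * G := by rw [mul_assoc, mul_assoc, e2, mul_one]
      _ = (G * G') * (sad t0 + 1) * G := by rw [h1]; noncomm_ring
      _ = (sad t0 + 1) * G := by rw [e1, one_mul]
  have htg : G * t = (t + 1) * G := by
    have e : G * t = -(G * t0 + G * sad t0) := by rw [ht]; noncomm_ring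
    rw [e, ht0, ht0', ht]
    have e2 : -((t0 + 1) * G + (sad t0 + 1) * G) =
      (-(t0 + sad t0) + 1) * G - 3 * G := by noncomm_ring
    rw [e2, h3m, zero_mul, sub_zero]
  have hgz : G * (t ^ 3 - t) = (t ^ 3 - t) * G := by
    have h1 := shift_pow F htg 1
    rw [pow_one] at h1
    rw [mul_sub, h1, htg]
    noncomm_ring
  obtain ⟨lz, hlz⟩ := hscal _ ((hSAt.pow 3).sub hSAt) hgz
  -- the final step, for `u = g^k`
  have final : ∀ (u u' : M6 F) (ly : F), u * u' = 1 → u' * u = 1 → u * t = (t + 1) * u →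
      G * (u + u') = (u + u') * G → SA (u + u') → ly ≠ 0 →
      IsNilpotent (u + u' - algebraMap F _ ly) → False := by
    intro u u' ly hu1 hu2 hut hgu hSAu hly hnil
    obtain ⟨N, c0, β, _, _, hw⟩ := core (u := u) (u' := u') (t := t) hu1 hu2 hut (lz := lz) (ly := ly)
      (nz := t ^ 3 - t - algebraMap F _ lz) (ny := u + u' - algebraMap F _ ly) (by abel) (by abel)
      ⟨6, hlz⟩ hnil hly c
    set w := t + algebraMap F _ β * (u + u') with hwd
    have hSAw : SA w := hSAt.add ((SA.algMap β).mul hSAu (Algebra.commutes β _))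
    have hgw : G * w = (w + 1) * G := by
      rw [hwd, mul_add, htg, ← mul_assoc, ← Algebra.commutes β G, mul_assoc, hgu]
      noncomm_ring
    exact hT (w ^ 3 ^ N) (hSAw.pow _) hw 1 (by ring) (by rw [map_one]; exact shift_pow F hgw N)
  have hSAy : SA (G + G') := by
    have := SA_add_sad G
    rwa [hsadG] at this
  have hgy : G * (G + G') = (G + G') * G := by rw [mul_add, add_mul, e1, e2]
  obtain ⟨ly, hly⟩ := hscal (G + G') hSAy hgy
  by_cases hly0 : ly = 0
  · -- use `g⁻²`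
    rw [hly0, map_zero, sub_zero] at hly
    have hy2 : G' ^ 2 + G ^ 2 = (G + G') ^ 2 + 1 := by
      have : (G + G') ^ 2 = G ^ 2 + G' ^ 2 + 2 := by
        have : (G + G') ^ 2 = G ^ 2 + G * G' + G' * G + G' ^ 2 := by noncomm_ring
        have h22 : (2 : M6 F) = 1 + 1 := one_add_one_eq_two.symm
        rw [this, e1, e2, h22]; abel
      rw [this]
      have h21 : (2 : M6 F) + 1 = 3 := by norm_num
      have h4 : G ^ 2 + G' ^ 2 + 2 + 1 = G' ^ 2 + G ^ 2 + 3 := by rw [← h21]; abel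
      rw [h4, h3m, add_zero]
    have k1 : G' ^ 2 * G ^ 2 = 1 := by
      rw [pow_two, pow_two, mul_assoc, ← mul_assoc G' G G, e2, one_mul, e2]
    have k2 : G ^ 2 * G' ^ 2 = 1 := by
      rw [pow_two, pow_two, mul_assoc, ← mul_assoc G G' G', e1, one_mul, e1]
    have hshift : G ^ 2 * t = (t + 2) * G ^ 2 := by
      rw [pow_two, mul_assoc, htg, ← mul_assoc, mul_add, htg]
      noncomm_ring
    have hshift' : G' ^ 2 * t = (t + 1) * G' ^ 2 := by
      have h5 : G' ^ 2 * (G ^ 2 * t) * G' ^ 2 = G' ^ 2 * ((t + 2) * G ^ 2) * G' ^ 2 := by rw [hshift]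
      have h6 : G' ^ 2 * (G ^ 2 * t) * G' ^ 2 = t * G' ^ 2 := by rw [← mul_assoc, k1, one_mul]
      have h7 : G' ^ 2 * ((t + 2) * G ^ 2) * G' ^ 2 = G' ^ 2 * t + 2 * G' ^ 2 := by
        rw [mul_assoc (G' ^ 2), mul_assoc (t + 2), k2, mul_one]; noncomm_ring
      rw [h6, h7] at h5
      have h8 : (t + 1) * G' ^ 2 = (G' ^ 2 * t + 2 * G' ^ 2) + G' ^ 2 := by rw [← h5]; noncomm_ring
      rw [h8]
      have h9 : G' ^ 2 * t + 2 * G' ^ 2 + G' ^ 2 = G' ^ 2 * t + 3 * G' ^ 2 := by noncomm_ring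
      rw [h9, h3m, zero_mul, add_zero]
    refine final (G' ^ 2) (G ^ 2) 1 k1 k2 hshift' ?_ ?_ one_ne_zero ?_
    · rw [hy2, mul_add, add_mul, mul_one, one_mul]
      congr 1
      exact (Commute.pow_right (show Commute G (G + G') from hgy) 2).eq
    · rw [hy2]
      have := (hSAy.pow 2).add (SA.algMap (1 : F))
      rwa [map_one] at this
    · rw [hy2, map_one, add_sub_cancel_right]
      exact ⟨6, by rw [← pow_mul, mul_comm, pow_mul, hly]; exact zero_pow two_ne_zero⟩
  · exact final G G' ly e1 e2 htg hgy hSAy hly0 ⟨6, hly⟩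

end Cfsg.Agent.H156.SpThree
end

-- part: H156/SpThreeCov
section
set_option autoImplicit false

/-!
# The normal 2-covering of `PSp₆(3^a)` (helper156)
-/

open Cfsg

namespace Cfsg.Agent.H156.SpThreeCov

open Polynomial Module Matrix Cfsg.Agent.ClassicalGeometry.SympBasic Cfsg.Agent.H156.Art
  Cfsg.Agent.H156.Shift Cfsg.Agent.H156.SpThree

variable {F : Type*} [Field F] {c : F}

section Orbit

variable (hno : ∀ x : F, x ^ 3 - x ≠ c) {t : M6 F} (hsa : SA t)
  (ht : t ^ 3 - t = algebraMap F _ c)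

include hsa in
theorem rep_SA (a : AdjoinRoot (pol c)) : SA (rep ht a) := by
  obtain ⟨P, rfl⟩ := AdjoinRoot.mk_surjective a
  rw [rep_mk]
  exact hsa.aeval P

include hno in
theorem rep_injective {v : V6 F} (hv : v ≠ 0) {b : AdjoinRoot (pol c)} (hb : rep ht b *ᵥ v = 0) :
    b = 0 := by
  have : Fact (Irreducible (pol c)) := ⟨irr_AS hno⟩
  by_contra h
  apply hv
  have h1 : rep ht b⁻¹ *ᵥ (rep ht b *ᵥ v) = v := by
    rw [mulVec_mulVec, ← map_mul, inv_mul_cancel₀ h, map_one, one_mulVec]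
  rw [← h1, hb, mulVec_zero]

theorem finDim (c : F) : FiniteDimensional F (AdjoinRoot (pol c)) := Module.Finite.of_basis (bas c)

include hsa in
theorem ts [NeZero (2 : F)] (v : V6 F) (a b : AdjoinRoot (pol c)) :
    sympForm 3 F (rep ht a *ᵥ v) (rep ht b *ᵥ v) = 0 := by
  rw [← rep_SA hsa ht b, mulVec_mulVec, ← map_mul]
  exact (rep_SA hsa ht _).alt v

include hno ht in
/-- a dual vector -/
theorem exists_dual : ∃ v w : V6 F, v ≠ 0 ∧
    ∀ k : Fin 3, sympForm 3 F (t ^ (k : ℕ) *ᵥ v) w = if k = 2 then 1 else 0 := by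
  have hfin := finDim c
  set v : V6 F := fun _ => 1 with hvd
  have hv : v ≠ 0 := fun h => one_ne_zero (congrFun h (Sum.inl 0))
  -- the orbit
  let O : AdjoinRoot (pol c) →ₗ[F] V6 F :=
    { toFun := fun b => rep ht b *ᵥ v
      map_add' := fun a b => by rw [map_add, Matrix.add_mulVec]
      map_smul' := fun a b => by rw [map_smul, Matrix.smul_mulVec]; rfl }
  have hOinj : Function.Injective O := by
    rw [injective_iff_map_eq_zero]
    intro b hb
    exact rep_injective hno ht hv hb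
  have hOr : finrank F (LinearMap.range O) = 3 := by
    rw [LinearMap.finrank_range_of_inj hOinj, finrank_field]
  let T : V6 F →ₗ[F] (Fin 3 → F) := LinearMap.pi fun k => sympBilin 3 F (t ^ (k : ℕ) *ᵥ v)
  have hT : ∀ w k, T w k = sympForm 3 F (t ^ (k : ℕ) *ᵥ v) w := fun w k => rfl
  have hker : LinearMap.ker T ≤ spPerp (LinearMap.range O) := by
    rintro w hw _ ⟨b, rfl⟩
    have hS : ((sympBilin 3 F).flip w) ∘ₗ O = 0 := by
      apply (bas c).ext
      intro k
      have h1 : T w k = 0 := by rw [LinearMap.mem_ker.1 hw]; rfl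
      rw [hT] at h1
      show sympForm 3 F (rep ht (bas c k) *ᵥ v) w = 0
      rw [bas_apply, map_pow, rep_root, h1]
    exact congrArg (fun f : AdjoinRoot (pol c) →ₗ[F] F => f b) hS
  have h1 := finrank_spPerp (LinearMap.range O)
  have h2 := Submodule.finrank_mono hker
  have h3 := LinearMap.finrank_range_add_finrank_ker T
  rw [finrank_V6] at h3
  have h4 : LinearMap.range T = ⊤ := by
    apply Submodule.eq_top_of_finrank_eq
    have h5 : finrank F (LinearMap.range T) ≤ finrank F (Fin 3 → F) := Submodule.finrank_le _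
    rw [Module.finrank_fin_fun] at h5 ⊢
    omega
  obtain ⟨w, hw⟩ := LinearMap.range_eq_top.1 h4 (fun k => if k = 2 then 1 else 0)
  exact ⟨v, w, hv, fun k => congrFun hw k⟩

/-- the functional -/
noncomputable def lam (c : F) : AdjoinRoot (pol c) →ₗ[F] F := (bas c).coord 2

theorem lam_bas (k : Fin 3) : lam c (bas c k) = if k = 2 then 1 else 0 := by
  rw [lam, Basis.coord_apply, Basis.repr_self, Finsupp.single_apply]

theorem form_eq {v w : V6 F} (h : ∀ k : Fin 3, sympForm 3 F (t ^ (k : ℕ) *ᵥ v) w = if k = 2 then 1 else 0)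
    (b : AdjoinRoot (pol c)) : sympForm 3 F (rep ht b *ᵥ v) w = lam c b := by
  let S : AdjoinRoot (pol c) →ₗ[F] F :=
    { toFun := fun b => sympForm 3 F (rep ht b *ᵥ v) w
      map_add' := fun x y => by rw [map_add, Matrix.add_mulVec, sympForm_add_left]
      map_smul' := fun x y => by rw [map_smul, Matrix.smul_mulVec, sympForm_smul_left]; rfl }
  have hS : S = lam c := by
    apply (bas c).ext
    intro k
    show sympForm 3 F (rep ht (bas c k) *ᵥ v) w = _
    rw [lam_bas, bas_apply, map_pow, rep_root, h]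
  exact congrArg (fun f : AdjoinRoot (pol c) →ₗ[F] F => f b) hS

/-- the coordinates -/
noncomputable def orbMap (v w : V6 F) : (AdjoinRoot (pol c) × AdjoinRoot (pol c)) →ₗ[F] V6 F where
  toFun x := rep ht x.1 *ᵥ v + rep ht x.2 *ᵥ w
  map_add' x y := by
    rw [Prod.fst_add, Prod.snd_add, map_add, map_add, Matrix.add_mulVec, Matrix.add_mulVec]
    abel
  map_smul' r x := by
    rw [Prod.smul_fst, Prod.smul_snd, map_smul, map_smul, Matrix.smul_mulVec, Matrix.smul_mulVec]
    rw [RingHom.id_apply, smul_add]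

include hsa in
theorem form_orbMap [NeZero (2 : F)] {v w : V6 F}
    (h : ∀ k : Fin 3, sympForm 3 F (t ^ (k : ℕ) *ᵥ v) w = if k = 2 then 1 else 0)
    (x y : AdjoinRoot (pol c) × AdjoinRoot (pol c)) :
    sympForm 3 F (orbMap ht v w x) (orbMap ht v w y) = lam c (y.2 * x.1) - lam c (x.2 * y.1) := by
  show sympForm 3 F (rep ht x.1 *ᵥ v + rep ht x.2 *ᵥ w) (rep ht y.1 *ᵥ v + rep ht y.2 *ᵥ w) = _
  have e1 : sympForm 3 F (rep ht x.1 *ᵥ v) (rep ht y.2 *ᵥ w) = lam c (y.2 * x.1) := by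
    rw [← rep_SA hsa ht y.2, mulVec_mulVec, ← map_mul, form_eq ht h]
  have e2 : sympForm 3 F (rep ht x.2 *ᵥ w) (rep ht y.1 *ᵥ v) = - lam c (x.2 * y.1) := by
    rw [sympForm_swap, ← rep_SA hsa ht x.2, mulVec_mulVec, ← map_mul, form_eq ht h]
  rw [sympForm_add_left, sympForm_add_right, sympForm_add_right, ts hsa ht, ts hsa ht, e1, e2]
  ring

include hsa hno in
theorem orbMap_injective [NeZero (2 : F)] {v w : V6 F} (hv : v ≠ 0)
    (h : ∀ k : Fin 3, sympForm 3 F (t ^ (k : ℕ) *ᵥ v) w = if k = 2 then 1 else 0) :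
    Function.Injective (orbMap ht v w) := by
  have hfact : Fact (Irreducible (pol c)) := ⟨irr_AS hno⟩
  rw [injective_iff_map_eq_zero]
  rintro ⟨a, b⟩ hab
  have hb : b = 0 := by
    by_contra hb
    have h1 := form_orbMap hsa ht h (b⁻¹ * bas c 2, 0) (a, b)
    rw [hab, sympForm_zero_right] at h1
    simp only [zero_mul, map_zero, sub_zero] at h1
    rw [← mul_assoc, mul_inv_cancel₀ hb, one_mul, lam_bas, if_pos rfl] at h1
    exact zero_ne_one h1
  subst hb
  have ha : a = 0 := by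
    apply rep_injective hno ht hv
    have : rep ht a *ᵥ v + rep ht (0 : AdjoinRoot (pol c)) *ᵥ w = 0 := hab
    rwa [map_zero, zero_mulVec, add_zero] at this
  rw [ha]
  rfl

end Orbit

/-- the linear coordinates -/
noncomputable def orb [NeZero (2 : F)] (hno : ∀ x : F, x ^ 3 - x ≠ c) {t : M6 F} (hsa : SA t)
    (ht : t ^ 3 - t = algebraMap F _ c) {v w : V6 F} (hv : v ≠ 0)
    (h : ∀ k : Fin 3, sympForm 3 F (t ^ (k : ℕ) *ᵥ v) w = if k = 2 then 1 else 0) :
    (AdjoinRoot (pol c) × AdjoinRoot (pol c)) ≃ₗ[F] V6 F :=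
  haveI := finDim c
  LinearMap.linearEquivOfInjective (orbMap ht v w) (orbMap_injective hno hsa ht hv h) (by
    rw [Module.finrank_prod, finrank_field, finrank_V6])

theorem orb_apply [NeZero (2 : F)] (hno : ∀ x : F, x ^ 3 - x ≠ c) {t : M6 F} (hsa : SA t)
    (ht : t ^ 3 - t = algebraMap F _ c) {v w : V6 F} (hv : v ≠ 0)
    (h : ∀ k : Fin 3, sympForm 3 F (t ^ (k : ℕ) *ᵥ v) w = if k = 2 then 1 else 0)
    (x : AdjoinRoot (pol c) × AdjoinRoot (pol c)) : orb hno hsa ht hv h x = orbMap ht v w x := rfl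

/-- conjugacy of the Artin-Schreier elements -/
theorem exists_conj [NeZero (2 : F)] (hno : ∀ x : F, x ^ 3 - x ≠ c) {t t' : M6 F} (hsa : SA t)
    (ht : t ^ 3 - t = algebraMap F _ c) (hsa' : SA t') (ht' : t' ^ 3 - t' = algebraMap F _ c) :
    ∃ x : Matrix.symplecticGroup (Fin 3) F, (x : M6 F) * t = t' * (x : M6 F) := by
  obtain ⟨v, w, hv, h⟩ := exists_dual hno ht
  obtain ⟨v', w', hv', h'⟩ := exists_dual hno ht'
  let X : V6 F ≃ₗ[F] V6 F := (orb hno hsa ht hv h).symm.trans (orb hno hsa' ht' hv' h')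
  have hX : ∀ b, X (orbMap ht v w b) = orbMap ht' v' w' b := by
    intro b
    have h1 : orbMap ht v w b = orb hno hsa ht hv h b := rfl
    rw [h1, LinearEquiv.trans_apply, LinearEquiv.symm_apply_apply, orb_apply]
  set M : M6 F := LinearMap.toMatrix' (X : V6 F →ₗ[F] V6 F) with hM
  have hMv : ∀ u, M *ᵥ u = X u := fun u => by
    rw [hM, LinearMap.toMatrix'_mulVec]; rfl
  have hsurj : ∀ u : V6 F, ∃ b, orbMap ht v w b = u := (orb hno hsa ht hv h).surjective
  have hiso : M ∈ Matrix.symplecticGroup (Fin 3) F := by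
    rw [mem_symplecticGroup_iff]
    intro u u'
    obtain ⟨a, rfl⟩ := hsurj u
    obtain ⟨b, rfl⟩ := hsurj u'
    rw [hMv, hMv, hX, hX, form_orbMap hsa ht h, form_orbMap hsa' ht' h']
  refine ⟨⟨M, hiso⟩, ?_⟩
  show M * t = t' * M
  have hmul : ∀ {s : M6 F} (hs : s ^ 3 - s = algebraMap F _ c) (y z : V6 F)
      (b : AdjoinRoot (pol c) × AdjoinRoot (pol c)),
      s *ᵥ orbMap hs y z b = orbMap hs y z (AdjoinRoot.root (pol c) * b.1, AdjoinRoot.root (pol c) * b.2) := by
    intro s hs y z b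
    show s *ᵥ (rep hs b.1 *ᵥ y + rep hs b.2 *ᵥ z) =
      rep hs (AdjoinRoot.root (pol c) * b.1) *ᵥ y + rep hs (AdjoinRoot.root (pol c) * b.2) *ᵥ z
    rw [map_mul, map_mul, rep_root, mulVec_add, mulVec_mulVec, mulVec_mulVec]
  apply Matrix.ext_of_mulVec_single
  intro i
  obtain ⟨b, hb⟩ := hsurj (Pi.single i 1)
  rw [← hb, ← mulVec_mulVec, ← mulVec_mulVec, hMv, hMv, hmul, hX, hX, hmul]

/-- the inclusion -/
def spHom (F : Type*) [Field F] : Matrix.symplecticGroup (Fin 3) F →* M6 F :=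
  (Matrix.symplecticGroup (Fin 3) F).subtype

/-- the stabiliser of `t` is proper -/
theorem shiftStab_ne_top [CharP F 3] [NeZero (2 : F)] (hno : ∀ x : F, x ^ 3 - x ≠ c) {t : M6 F}
    (hsa : SA t) (ht : t ^ 3 - t = algebraMap F _ c) : shiftStab F (spHom F) t ≠ ⊤ := by
  intro htop
  set a : V6 F := Pi.single (Sum.inr 0) 1 with ha
  have ha0 : a ≠ 0 := by
    intro h
    have := congrFun h (Sum.inr 0)
    rw [ha, Pi.single_eq_same] at this
    exact one_ne_zero this
  have hmem : transv a 1 ∈ shiftStab F (spHom F) t := by rw [htop]; trivial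
  obtain ⟨i, hi, hi'⟩ := hmem
  have hT : ∀ u, (transv a (1 : F) : M6 F) *ᵥ u = u + sympForm 3 F u a • a := fun u => by
    rw [coe_transv, sympTransvection_mulVec, one_mul]
  have key : ∀ u, sympForm 3 F (t *ᵥ u) a • a =
      sympForm 3 F u a • (t *ᵥ a) + i • u + (i * sympForm 3 F u a) • a := by
    intro u
    have h1 : ((transv a (1 : F) : M6 F) * t) *ᵥ u =
        ((t + algebraMap F _ i) * (transv a (1 : F) : M6 F)) *ᵥ u :=
      congrArg (fun M => M *ᵥ u) hi'
    rw [← mulVec_mulVec, ← mulVec_mulVec, hT, hT, Matrix.add_mulVec, mulVec_add, mulVec_smul,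
      algebraMap_mulVec, smul_add, smul_smul, add_assoc] at h1
    have h3 := add_left_cancel h1
    rw [h3, add_assoc]
  have hi0 : i = 0 := by
    have h1 := key a
    rw [hsa.alt a, sympForm_self, zero_smul, zero_smul, zero_add, mul_zero, zero_smul, add_zero] at h1
    exact (smul_eq_zero.1 h1.symm).resolve_right ha0
  obtain ⟨u, hu⟩ : ∃ u, sympForm 3 F u a ≠ 0 := by
    by_contra hcon
    push Not at hcon
    exact ha0 (eq_zero_of_forall_sympForm_left hcon)
  have h1 := key u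
  rw [hi0, zero_smul, zero_mul, zero_smul, add_zero, add_zero] at h1
  obtain ⟨μ, hμ⟩ : ∃ μ : F, t *ᵥ a = μ • a := by
    refine ⟨(sympForm 3 F u a)⁻¹ * sympForm 3 F (t *ᵥ u) a, ?_⟩
    rw [mul_smul, h1, smul_smul, inv_mul_cancel₀ hu, one_smul]
  have h3 : (t ^ 3 - t) *ᵥ a = (μ ^ 3 - μ) • a := by
    rw [Matrix.sub_mulVec, pow_succ, pow_two, ← mulVec_mulVec, ← mulVec_mulVec, hμ, mulVec_smul,
      mulVec_smul, hμ, mulVec_smul, hμ, smul_smul, smul_smul, ← sub_smul]
    congr 1
    ring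
  rw [ht, algebraMap_mulVec] at h3
  apply hno μ
  have h4 : (c - (μ ^ 3 - μ)) • a = 0 := by rw [sub_smul, h3, sub_self]
  exact (sub_eq_zero.1 ((smul_eq_zero.1 h4).resolve_right ha0)).symm

/-- The stabiliser of a plane. -/
def planeStab (W : Submodule F (V6 F)) : Subgroup (Matrix.symplecticGroup (Fin 3) F) where
  carrier := {g | ∀ w ∈ W, (g : M6 F) *ᵥ w ∈ W}
  mul_mem' {a b} ha hb w hw := by
    rw [coe_mul_mulVec]
    exact ha _ (hb w hw)
  one_mem' w hw := by
    have : ((1 : Matrix.symplecticGroup (Fin 3) F) : M6 F) *ᵥ w = w := Matrix.one_mulVec w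
    rw [this]
    exact hw
  inv_mem' {g} hg := by
    have hinj : Function.Injective (Matrix.mulVecLin (g : M6 F)) := by
      intro x y hxy
      have hxy' : (g : M6 F) *ᵥ x = (g : M6 F) *ᵥ y := hxy
      have h1 : ((g⁻¹ : Matrix.symplecticGroup (Fin 3) F) : M6 F) *ᵥ ((g : M6 F) *ᵥ x) =
        ((g⁻¹ : Matrix.symplecticGroup (Fin 3) F) : M6 F) *ᵥ ((g : M6 F) *ᵥ y) := by rw [hxy']
      rw [mulVec_mulVec, mulVec_mulVec, coe_inv_mul, one_mulVec, one_mulVec] at h1
      exact h1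
    have h1 : W.map (Matrix.mulVecLin (g : M6 F)) = W := by
      apply Submodule.eq_of_le_of_finrank_eq
      · rintro _ ⟨u, hu, rfl⟩
        exact hg u hu
      · exact (Submodule.equivMapOfInjective _ hinj W).finrank_eq.symm
    intro u hu
    rw [← h1] at hu
    obtain ⟨w, hw, rfl⟩ := hu
    rw [Matrix.mulVecLin_apply, mulVec_mulVec, coe_inv_mul, one_mulVec]
    exact hw

theorem planeStab_ne_top : planeStab (Submodule.span F {(Pi.single (Sum.inr 0) 1 : V6 F),
    (Pi.single (Sum.inl 0) 1 : V6 F)}) ≠ ⊤ := by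
  intro htop
  set W := Submodule.span F {(Pi.single (Sum.inr 0) 1 : V6 F), (Pi.single (Sum.inl 0) 1 : V6 F)} with hW
  set a : V6 F := Pi.single (Sum.inl 0) 1 + Pi.single (Sum.inl 1) 1 with ha
  have hmem : transv a 1 ∈ planeStab W := by rw [htop]; trivial
  have h1 := hmem (Pi.single (Sum.inr 0) 1) (Submodule.subset_span (by simp))
  rw [coe_transv, sympTransvection_mulVec, sympForm_single_inr_left] at h1
  have hcoord : ∀ w ∈ W, w (Sum.inl 1) = 0 := by
    intro w hw
    obtain ⟨x, y, rfl⟩ := Submodule.mem_span_pair.1 hw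
    simp
  have h2 := hcoord _ h1
  have h3 : a (Sum.inl 0) = 1 := by rw [ha]; simp
  have h4 : a (Sum.inl 1) = 1 := by rw [ha]; simp
  rw [h3, mul_one, one_smul, Pi.add_apply, h4] at h2
  simp at h2

theorem psp3 [Fintype F] [CharP F 3] :
    ∃ H K : Subgroup (Cfsg.PSp 3 F), H ≠ ⊤ ∧ K ≠ ⊤ ∧ ∀ g : (Cfsg.PSp 3 F),
      ∃ x : (Cfsg.PSp 3 F), x * g * x⁻¹ ∈ H ∨ x * g * x⁻¹ ∈ K := by
  classical
  have h2 : NeZero (2 : F) := ⟨by
    intro h
    have h3 : (3 : F) = 0 := by exact_mod_cast CharP.cast_eq_zero F 3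
    have : (1 : F) = 0 := by linear_combination h3 - h
    exact one_ne_zero this⟩
  obtain ⟨c, hno⟩ := exists_not_AS (F := F)
  set e : V6 F := Pi.single (Sum.inr 0) 1 with he
  set f : V6 F := Pi.single (Sum.inl 0) 1 with hf
  have hef : sympForm 3 F e f = 1 := by rw [he, sympForm_single_inr_left, hf, Pi.single_eq_same]
  have hcen : ∀ z ∈ Subgroup.center (Matrix.symplecticGroup (Fin 3) F), (z : M6 F) = 1 ∨ (z : M6 F) = -1 :=
    fun z hz => Cfsg.Agent.ClassicalGeometry.SympInvolutions.center_eq hz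
  have hcH : Subgroup.center (Matrix.symplecticGroup (Fin 3) F) ≤ planeStab (Submodule.span F {e, f}) := by
    intro z hz w hw
    rcases hcen z hz with h | h
    · rw [h, one_mulVec]; exact hw
    · rw [h, neg_mulVec, one_mulVec]; exact Submodule.neg_mem _ hw
  have hplane : ∀ g : Matrix.symplecticGroup (Fin 3) F, Plane (g : M6 F) →
      ∃ x, x * g * x⁻¹ ∈ planeStab (Submodule.span F {e, f}) := by
    rintro g ⟨u, v, huv, hg⟩
    obtain ⟨A, _, hAu, hAv⟩ := exists_transvGroup_hyperbolic huv hef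
    refine ⟨A, ?_⟩
    intro w hw
    have hA : ∀ w ∈ Submodule.span F {u, v}, (A : M6 F) *ᵥ w ∈ Submodule.span F {e, f} := by
      intro w hw
      obtain ⟨x, y, rfl⟩ := Submodule.mem_span_pair.1 hw
      rw [mulVec_add, mulVec_smul, mulVec_smul, hAu, hAv]
      exact Submodule.mem_span_pair.2 ⟨x, y, rfl⟩
    obtain ⟨x, y, rfl⟩ := Submodule.mem_span_pair.1 hw
    have h1 : ((A⁻¹ : Matrix.symplecticGroup (Fin 3) F) : M6 F) *ᵥ (x • e + y • f) = x • u + y • v := by
      rw [← hAu, ← hAv, ← mulVec_smul, ← mulVec_smul, ← mulVec_add, mulVec_mulVec, coe_inv_mul,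
        one_mulVec]
    rw [coe_mul_mulVec, coe_mul_mulVec, h1]
    exact hA _ (hg _ (Submodule.mem_span_pair.2 ⟨x, y, rfl⟩))
  by_cases hex : ∃ t : M6 F, SA t ∧ t ^ 3 - t = algebraMap F _ c
  · obtain ⟨t0, hsa0, ht0⟩ := hex
    refine TwoCov.quot _ (planeStab (Submodule.span F {e, f})) (shiftStab F (spHom F) t0)
      planeStab_ne_top (shiftStab_ne_top hno hsa0 ht0) hcH ?_ ?_
    · intro z hz
      refine ⟨0, by ring, ?_⟩
      rw [map_zero, add_zero]
      show (z : M6 F) * t0 = t0 * (z : M6 F)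
      rcases hcen z hz with h | h
      · rw [h, one_mul, mul_one]
      · rw [h, neg_mul, mul_neg, one_mul, mul_one]
    · intro g
      rcases exists_t hno g with h | ⟨t, hsa, ht, i, hi, hg⟩
      · obtain ⟨x, hx⟩ := hplane g h
        exact ⟨x, Or.inl hx⟩
      · obtain ⟨x, hx⟩ := exists_conj hno hsa ht hsa0 ht0
        exact ⟨x, Or.inr (conj_mem (ρ := spHom F) hi hg hx)⟩
  · refine TwoCov.quot _ (planeStab (Submodule.span F {e, f})) (planeStab (Submodule.span F {e, f}))
      planeStab_ne_top planeStab_ne_top hcH hcH ?_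
    intro g
    rcases exists_t hno g with h | ⟨t, hsa, ht, _⟩
    · obtain ⟨x, hx⟩ := hplane g h
      exact ⟨x, Or.inl hx⟩
    · exact absurd ⟨t, hsa, ht⟩ hex

end Cfsg.Agent.H156.SpThreeCov
end

-- part: H156/GTwoEven
section
set_option autoImplicit false

/-!
# `G₂(q)`, `q` even, is the union of the conjugates of `SL₃(q).2` and `SU₃(q).2` (helper156)
-/

open Cfsg Cfsg.Lie
open scoped Matrix

namespace Cfsg.Agent.H156.GTwoEven

variable {F : Type*} [Field F]

/-- The space of octonions. -/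
abbrev V (F : Type*) := Fin 8 → F

/-- The identity element. -/
def e1 : V F := ![1, 0, 0, 0, 0, 0, 0, 1]

/-- The norm. -/
def nm (x : V F) : F := x 0 * x 7 - (x 1 * x 4 + x 2 * x 5 + x 3 * x 6)

/-- The trace. -/
def tr (x : V F) : F := x 0 + x 7

/-- The polar form of the norm. -/
def bf (x y : V F) : F :=
  x 0 * y 7 + x 7 * y 0 - (x 1 * y 4 + x 4 * y 1 + x 2 * y 5 + x 5 * y 2 + x 3 * y 6 + x 6 * y 3)

theorem zm (x y : V F) : zornMul x y =
    ![x 0 * y 0 + (x 1 * y 4 + x 2 * y 5 + x 3 * y 6),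
      x 0 * y 1 + y 7 * x 1 - (x 5 * y 6 - x 6 * y 5),
      x 0 * y 2 + y 7 * x 2 - (x 6 * y 4 - x 4 * y 6),
      x 0 * y 3 + y 7 * x 3 - (x 4 * y 5 - x 5 * y 4),
      y 0 * x 4 + x 7 * y 4 + (x 2 * y 3 - x 3 * y 2),
      y 0 * x 5 + x 7 * y 5 + (x 3 * y 1 - x 1 * y 3),
      y 0 * x 6 + x 7 * y 6 + (x 1 * y 2 - x 2 * y 1),
      (x 4 * y 1 + x 5 * y 2 + x 6 * y 3) + x 7 * y 7] := by
  funext i
  fin_cases i <;> simp [zornMul, zA, zB, dot3, cross3] 

omit [Field F] in
theorem ext8 {x y : V F} (h0 : x 0 = y 0) (h1 : x 1 = y 1) (h2 : x 2 = y 2) (h3 : x 3 = y 3)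
    (h4 : x 4 = y 4) (h5 : x 5 = y 5) (h6 : x 6 = y 6) (h7 : x 7 = y 7) : x = y := by
  funext i
  fin_cases i <;> assumption

/-- The quadratic equation. -/
theorem quad (x : V F) : zornMul x x = tr x • x - nm x • e1 := by
  rw [zm]
  apply ext8 <;> simp [e1, tr, nm] <;> ring

theorem one_mul' (x : V F) : zornMul e1 x = x := by
  rw [zm]
  apply ext8 <;> simp [e1]

theorem mul_one' (x : V F) : zornMul x e1 = x := by
  rw [zm]
  apply ext8 <;> simp [e1]

theorem nm_add (x y : V F) : nm (x + y) = nm x + nm y + bf x y := by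
  simp only [nm, bf, Pi.add_apply]; ring

theorem tr_add (x y : V F) : tr (x + y) = tr x + tr y := by
  simp only [tr, Pi.add_apply]; ring

theorem tr_smul (c : F) (x : V F) : tr (c • x) = c * tr x := by
  simp only [tr, Pi.smul_apply, smul_eq_mul]; ring

theorem bf_add_left (x y z : V F) : bf (x + y) z = bf x z + bf y z := by
  simp only [bf, Pi.add_apply]; ring

theorem bf_add_right (x y z : V F) : bf x (y + z) = bf x y + bf x z := by
  simp only [bf, Pi.add_apply]; ring

theorem bf_smul_left (c : F) (x z : V F) : bf (c • x) z = c * bf x z := by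
  simp only [bf, Pi.smul_apply, smul_eq_mul]; ring

theorem bf_smul_right (c : F) (x z : V F) : bf x (c • z) = c * bf x z := by
  simp only [bf, Pi.smul_apply, smul_eq_mul]; ring

theorem bf_e1 (x : V F) : bf e1 x = tr x := by
  simp [bf, e1, tr]; ring

theorem bf_comm (x y : V F) : bf x y = bf y x := by
  simp only [bf]; ring

theorem nm_e1 : nm (e1 : V F) = 1 := by simp [nm, e1]

theorem tr_e1 : tr (e1 : V F) = 2 := by simp [tr, e1]; norm_num

/-- The action of an element of `G₂`. -/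
def act (g : G2 F) : V F →ₗ[F] V F := Matrix.mulVecLin (g : GL (Fin 8) F).1

theorem act_mul (g h : G2 F) (x : V F) : act (g * h) x = act g (act h x) := by
  simp only [act, Matrix.mulVecLin_apply, Subgroup.coe_mul, Units.val_mul, Matrix.mulVec_mulVec]

theorem act_one (x : V F) : act (1 : G2 F) x = x := by
  simp [act]

theorem act_inv_act (g : G2 F) (x : V F) : act g⁻¹ (act g x) = x := by
  rw [← act_mul, inv_mul_cancel, act_one]

theorem act_act_inv (g : G2 F) (x : V F) : act g (act g⁻¹ x) = x := by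
  rw [← act_mul, mul_inv_cancel, act_one]

theorem act_zm (g : G2 F) (x y : V F) : act g (zornMul x y) = zornMul (act g x) (act g y) :=
  g.2 x y

theorem act_e1 (g : G2 F) : act g e1 = e1 := by
  have h : act g (act g⁻¹ e1) = e1 := act_act_inv g _
  have h2 : zornMul (act g e1) (act g (act g⁻¹ e1)) = act g (act g⁻¹ e1) := by
    rw [← act_zm, one_mul']
  rw [h, mul_one'] at h2
  exact h2

theorem act_inj (g : G2 F) {x y : V F} (h : act g x = act g y) : x = y := by
  rw [← act_inv_act g x, h, act_inv_act]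

theorem e1_ne_zero : (e1 : V F) ≠ 0 := by
  intro h
  have := congrFun h 0
  simp [e1] at this

theorem act_tr_nm (g : G2 F) (x : V F) : tr (act g x) = tr x ∧ nm (act g x) = nm x := by
  by_cases hx : ∃ c : F, x = c • e1
  · obtain ⟨c, rfl⟩ := hx
    rw [map_smul, act_e1]
    exact ⟨rfl, rfl⟩
  · have h1 : zornMul (act g x) (act g x) = tr x • act g x - nm x • e1 := by
      rw [← act_zm, quad, map_sub, map_smul, map_smul, act_e1]
    rw [quad] at h1
    have h2 : (tr (act g x) - tr x) • act g x = (nm (act g x) - nm x) • e1 := by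
      rw [sub_smul, sub_smul]
      have h5 : tr (act g x) • act g x =
          tr x • act g x - nm x • e1 + nm (act g x) • e1 := by
        rw [← h1, sub_add_cancel]
      rw [h5]
      abel
    have h3 : tr (act g x) - tr x = 0 := by
      by_contra hne
      apply hx
      refine ⟨(tr (act g x) - tr x)⁻¹ * (nm (act g x) - nm x), ?_⟩
      apply act_inj g
      rw [map_smul, act_e1, mul_smul, ← h2, smul_smul, inv_mul_cancel₀ hne, one_smul]
    rw [h3, zero_smul] at h2
    have h4 : nm (act g x) - nm x = 0 := by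
      rcases smul_eq_zero.mp h2.symm with h | h
      · exact h
      · exact absurd h e1_ne_zero
    exact ⟨sub_eq_zero.mp h3, sub_eq_zero.mp h4⟩

theorem act_tr (g : G2 F) (x : V F) : tr (act g x) = tr x := (act_tr_nm g x).1
theorem act_nm (g : G2 F) (x : V F) : nm (act g x) = nm x := (act_tr_nm g x).2

theorem act_bf (g : G2 F) (x y : V F) : bf (act g x) (act g y) = bf x y := by
  have h := act_nm g (x + y)
  rw [map_add, nm_add, nm_add, act_nm, act_nm] at h
  linear_combination h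

/-- An element of `G₂` from a linear automorphism. -/
theorem exists_act (e : V F ≃ₗ[F] V F) (he : ∀ x y, e (zornMul x y) = zornMul (e x) (e y)) :
    ∃ g : G2 F, ∀ x, act g x = e x := by
  let A : GL (Fin 8) F := Matrix.GeneralLinearGroup.toLin.symm
    ((LinearMap.GeneralLinearGroup.generalLinearEquiv F (V F)).symm e)
  have hA : ∀ x, A.1 *ᵥ x = e x := by
    intro x
    have h : (Matrix.GeneralLinearGroup.toLin A) = 
      ((LinearMap.GeneralLinearGroup.generalLinearEquiv F (V F)).symm e) :=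
        MulEquiv.apply_symm_apply _ _
    have h2 := congrArg (fun z : LinearMap.GeneralLinearGroup F (V F) => z.1 x) h
    exact h2
  refine ⟨⟨A, ?_⟩, hA⟩
  intro x y
  show A.1 *ᵥ zornMul x y = zornMul (A.1 *ᵥ x) (A.1 *ᵥ y)
  rw [hA, hA, hA, he]

/-- The unipotent automorphism attached to `u ∈ F³`. -/
def phiF (u : Fin 3 → F) (x : V F) : V F :=
  ![x 0 - (u 0 * x 4 + u 1 * x 5 + u 2 * x 6),
    x 1 + (x 0 - x 7) * u 0 - (u 0 * x 4 + u 1 * x 5 + u 2 * x 6) * u 0,
    x 2 + (x 0 - x 7) * u 1 - (u 0 * x 4 + u 1 * x 5 + u 2 * x 6) * u 1,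
    x 3 + (x 0 - x 7) * u 2 - (u 0 * x 4 + u 1 * x 5 + u 2 * x 6) * u 2,
    x 4 + (u 1 * x 3 - u 2 * x 2),
    x 5 + (u 2 * x 1 - u 0 * x 3),
    x 6 + (u 0 * x 2 - u 1 * x 1),
    x 7 + (u 0 * x 4 + u 1 * x 5 + u 2 * x 6)]

/-- `phiF u` as a linear equivalence. -/
def phiE (u : Fin 3 → F) : V F ≃ₗ[F] V F where
  toFun := phiF u
  map_add' x y := by apply ext8 <;> simp [phiF] <;> ring
  map_smul' c x := by apply ext8 <;> simp [phiF] <;> ring
  invFun := phiF (-u)
  left_inv x := by apply ext8 <;> simp [phiF] <;> ring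
  right_inv x := by apply ext8 <;> simp [phiF] <;> ring

theorem exists_phi (u : Fin 3 → F) : ∃ g : G2 F, ∀ x, act g x = phiF u x := by
  obtain ⟨g, hg⟩ := exists_act (phiE u) (by
    intro x y
    show phiF u (zornMul x y) = zornMul (phiF u x) (phiF u y)
    rw [zm, zm]
    apply ext8 <;> simp [phiF] <;> ring)
  exact ⟨g, hg⟩

/-- The swap automorphism. -/
def tauF (x : V F) : V F := ![x 7, - x 4, - x 5, - x 6, - x 1, - x 2, - x 3, x 0]

/-- `tauF` as a linear equivalence. -/
def tauE : V F ≃ₗ[F] V F where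
  toFun := tauF
  map_add' x y := by apply ext8 <;> (simp [tauF]; try ring)
  map_smul' c x := by apply ext8 <;> simp [tauF]
  invFun := tauF
  left_inv x := by apply ext8 <;> simp [tauF]
  right_inv x := by apply ext8 <;> simp [tauF]

theorem exists_tau : ∃ g : G2 F, ∀ x, act g x = tauF x := by
  obtain ⟨g, hg⟩ := exists_act (tauE (F := F)) (by
    intro x y
    show tauF (zornMul x y) = zornMul (tauF x) (tauF y)
    rw [zm, zm]
    apply ext8 <;> simp [tauF] <;> ring)
  exact ⟨g, hg⟩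

/-- Root elements of `SL₃`: `a₁ += s a₂ + t a₃`. -/
def upF (s t : F) (x : V F) : V F :=
  ![x 0, x 1 + s * x 2 + t * x 3, x 2, x 3, x 4, x 5 - s * x 4, x 6 - t * x 4, x 7]

/-- `upF` as a linear equivalence. -/
def upE (s t : F) : V F ≃ₗ[F] V F where
  toFun := upF s t
  map_add' x y := by apply ext8 <;> simp [upF] <;> ring
  map_smul' c x := by apply ext8 <;> simp [upF] <;> ring
  invFun := upF (-s) (-t)
  left_inv x := by apply ext8 <;> simp [upF] <;> ring
  right_inv x := by apply ext8 <;> simp [upF] <;> ring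

theorem exists_up (s t : F) : ∃ g : G2 F, ∀ x, act g x = upF s t x := by
  obtain ⟨g, hg⟩ := exists_act (upE s t) (by
    intro x y
    show upF s t (zornMul x y) = zornMul (upF s t x) (upF s t y)
    rw [zm, zm]
    apply ext8 <;> simp [upF] <;> ring)
  exact ⟨g, hg⟩

/-- Root elements of `SL₃`: `a₂ += s a₁`, `a₃ += t a₁`. -/
def dnF (s t : F) (x : V F) : V F :=
  ![x 0, x 1, x 2 + s * x 1, x 3 + t * x 1, x 4 - s * x 5 - t * x 6, x 5, x 6, x 7]

/-- `dnF` as a linear equivalence. -/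
def dnE (s t : F) : V F ≃ₗ[F] V F where
  toFun := dnF s t
  map_add' x y := by apply ext8 <;> simp [dnF] <;> ring
  map_smul' c x := by apply ext8 <;> simp [dnF] <;> ring
  invFun := dnF (-s) (-t)
  left_inv x := by apply ext8 <;> simp [dnF] <;> ring
  right_inv x := by apply ext8 <;> simp [dnF] <;> ring

theorem exists_dn (s t : F) : ∃ g : G2 F, ∀ x, act g x = dnF s t x := by
  obtain ⟨g, hg⟩ := exists_act (dnE s t) (by
    intro x y
    show dnF s t (zornMul x y) = zornMul (dnF s t x) (dnF s t y)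
    rw [zm, zm]
    apply ext8 <;> simp [dnF] <;> ring)
  exact ⟨g, hg⟩

/-- Two vectors in the same orbit. -/
def Rel (x y : V F) : Prop := ∃ g : G2 F, act g x = y

theorem Rel.trans {x y z : V F} (h : Rel x y) (h' : Rel y z) : Rel x z := by
  obtain ⟨g, rfl⟩ := h
  obtain ⟨g', rfl⟩ := h'
  exact ⟨g' * g, act_mul _ _ _⟩

theorem Rel.nm {x y : V F} (h : Rel x y) : nm y = nm x := by
  obtain ⟨g, rfl⟩ := h
  exact act_nm _ _

theorem rel_phi (u : Fin 3 → F) (x : V F) : Rel x (phiF u x) := by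
  obtain ⟨g, hg⟩ := exists_phi u
  exact ⟨g, hg x⟩

theorem rel_tau (x : V F) : Rel x (tauF x) := by
  obtain ⟨g, hg⟩ := exists_tau (F := F)
  exact ⟨g, hg x⟩

theorem rel_up (s t : F) (x : V F) : Rel x (upF s t x) := by
  obtain ⟨g, hg⟩ := exists_up s t
  exact ⟨g, hg x⟩

theorem rel_dn (s t : F) (x : V F) : Rel x (dnF s t x) := by
  obtain ⟨g, hg⟩ := exists_dn s t
  exact ⟨g, hg x⟩

/-- Step A: move the first coordinate to zero. -/
theorem stepA [CharP F 2] (x : V F) (hx : tr x = 1) :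
    ∃ y, Rel x y ∧ y 0 = 0 ∧ y 7 = 1 := by
  have h2 : (2 : F) = 0 := CharTwo.two_eq_zero
  have htr : ∀ {y : V F}, Rel x y → y 0 = 0 → y 7 = 1 := by
    rintro y ⟨g, rfl⟩ h
    have h1 := act_tr g x
    rw [hx, tr, h, zero_add] at h1
    exact h1
  -- it is enough to solve `u · b = x 0` in the orbit
  have key : ∀ {y : V F}, Rel x y →
      (∃ u : Fin 3 → F, u 0 * y 4 + u 1 * y 5 + u 2 * y 6 = y 0) →
      ∃ y, Rel x y ∧ y 0 = 0 ∧ y 7 = 1 := by
    rintro y hy ⟨u, hu⟩
    have h3 : phiF u y 0 = 0 := by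
      simp only [phiF, Matrix.cons_val_zero]
      rw [hu, sub_self]
    exact ⟨_, hy.trans (rel_phi u y), h3, htr (hy.trans (rel_phi u y)) h3⟩
  have key2 : ∀ {y : V F}, Rel x y → (y 4 ≠ 0 ∨ y 5 ≠ 0 ∨ y 6 ≠ 0) →
      ∃ y, Rel x y ∧ y 0 = 0 ∧ y 7 = 1 := by
    rintro y hy (h | h | h)
    · exact key hy ⟨![y 0 / y 4, 0, 0], by simp [div_mul_cancel₀ _ h]⟩
    · exact key hy ⟨![0, y 0 / y 5, 0], by simp [div_mul_cancel₀ _ h]⟩
    · exact key hy ⟨![0, 0, y 0 / y 6], by simp [div_mul_cancel₀ _ h]⟩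
  have key3 : ∀ {y : V F}, Rel x y → (y 1 ≠ 0 ∨ y 2 ≠ 0 ∨ y 3 ≠ 0) →
      ∃ y, Rel x y ∧ y 0 = 0 ∧ y 7 = 1 := by
    intro y hy h
    by_cases hb : y 4 ≠ 0 ∨ y 5 ≠ 0 ∨ y 6 ≠ 0
    · exact key2 hy hb
    · push Not at hb
      obtain ⟨hb4, hb5, hb6⟩ := hb
      rcases h with h | h | h
      · refine key2 (hy.trans (rel_phi ![0, 1, 0] y)) (Or.inr (Or.inr ?_))
        simp [phiF, hb4, hb5, hb6, h]
      · refine key2 (hy.trans (rel_phi ![1, 0, 0] y)) (Or.inr (Or.inr ?_))
        simp [phiF, hb4, hb5, hb6, h]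
      · refine key2 (hy.trans (rel_phi ![1, 0, 0] y)) (Or.inr (Or.inl ?_))
        simp [phiF, hb4, hb5, hb6, h]
  have hrefl : Rel x x := ⟨1, act_one x⟩
  by_cases hb : x 4 ≠ 0 ∨ x 5 ≠ 0 ∨ x 6 ≠ 0
  · exact key2 hrefl hb
  by_cases ha : x 1 ≠ 0 ∨ x 2 ≠ 0 ∨ x 3 ≠ 0
  · exact key3 hrefl ha
  push Not at hb ha
  refine key3 (rel_phi ![1, 0, 0] x) (Or.inl ?_)
  have h4 : x 0 - x 7 = 1 := by
    rw [tr] at hx
    linear_combination hx - x 7 * h2
  simp [phiF, hb.1, hb.2.1, hb.2.2, ha.1, ha.2.1, ha.2.2, h4]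

/-- Step B, norm zero. -/
theorem stepB0 (x : V F) (h0 : x 0 = 0) (h7 : x 7 = 1) (hn : nm x = 0) :
    Rel x ![0, 0, 0, 0, 0, 0, 0, 1] := by
  have hab : x 1 * x 4 + x 2 * x 5 + x 3 * x 6 = 0 := by
    rw [nm, h0] at hn
    linear_combination - hn
  have r1 := rel_phi ![x 1, x 2, x 3] x
  have e1' : phiF ![x 1, x 2, x 3] x = ![0, 0, 0, 0, x 4, x 5, x 6, 1] := by
    apply ext8 <;> simp only [phiF, h0, h7, Matrix.cons_val]
    · linear_combination - hab
    · linear_combination (-x 1) * hab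
    · linear_combination (-x 2) * hab
    · linear_combination (-x 3) * hab
    · ring
    · ring
    · ring
    · linear_combination hab
  rw [e1'] at r1
  have r2 := r1.trans (rel_tau _)
  have r3 := r2.trans (rel_phi ![x 4, x 5, x 6] _)
  have r4 := r3.trans (rel_tau _)
  convert r4 using 1
  symm
  apply ext8 <;> simp [phiF, tauF]
  all_goals ring

/-- Move a nonzero `a` to the first basis vector. -/
theorem move_a (x : V F) (ha : x 1 ≠ 0 ∨ x 2 ≠ 0 ∨ x 3 ≠ 0) :
    ∃ y, Rel x y ∧ y 0 = x 0 ∧ y 7 = x 7 ∧ y 1 = 1 ∧ y 2 = 0 ∧ y 3 = 0 := by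
  have k1 : ∀ {y : V F}, Rel x y → y 0 = x 0 → y 7 = x 7 → y 1 = 1 →
      ∃ y, Rel x y ∧ y 0 = x 0 ∧ y 7 = x 7 ∧ y 1 = 1 ∧ y 2 = 0 ∧ y 3 = 0 := by
    intro y hy h0 h7 h1
    refine ⟨_, hy.trans (rel_dn (- y 2) (- y 3) y), ?_, ?_, ?_, ?_, ?_⟩
    all_goals simp [dnF, h0, h7, h1]
  have k2 : ∀ {y : V F}, Rel x y → y 0 = x 0 → y 7 = x 7 → y 2 ≠ 0 →
      ∃ y, Rel x y ∧ y 0 = x 0 ∧ y 7 = x 7 ∧ y 1 = 1 ∧ y 2 = 0 ∧ y 3 = 0 := by
    intro y hy h0 h7 h2
    refine k1 (hy.trans (rel_up ((1 - y 1) / y 2) 0 y)) ?_ ?_ ?_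
    · simp [upF, h0]
    · simp [upF, h7]
    · simp [upF, div_mul_cancel₀ _ h2]
  have hrefl : Rel x x := ⟨1, act_one x⟩
  by_cases h2 : x 2 ≠ 0
  · exact k2 hrefl rfl rfl h2
  by_cases h3 : x 3 ≠ 0
  · refine k1 (rel_up 0 ((1 - x 1) / x 3) x) ?_ ?_ ?_
    · simp [upF]
    · simp [upF]
    · simp [upF, div_mul_cancel₀ _ h3]
  push Not at h2 h3
  have h1 : x 1 ≠ 0 := by
    rcases ha with h | h | h
    · exact h
    · exact absurd h2 h
    · exact absurd h3 h
  refine k2 (rel_dn 1 0 x) ?_ ?_ ?_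
  · simp [dnF]
  · simp [dnF]
  · simp [dnF, h2, h1]

/-- Step B, norm nonzero. -/
theorem stepB1 (x : V F) (h0 : x 0 = 0) (h7 : x 7 = 1) (n : F) (hn : nm x = n) (hn0 : n ≠ 0) :
    Rel x ![0, 1, 0, 0, -n, 0, 0, 1] := by
  obtain ⟨y, hxy, hy0, hy7, hy1, hy2, hy3⟩ := move_a x (by
    by_contra h
    push Not at h
    apply hn0
    rw [← hn, nm, h0, h.1, h.2.1, h.2.2]
    ring)
  have hny := hxy.nm
  rw [hn, nm, hy0, hy7, h0, h7, hy1, hy2, hy3] at hny
  have h4 : y 4 = - n := by linear_combination - hny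
  have hn0' : -n ≠ 0 := neg_ne_zero.mpr hn0
  have r := hxy.trans (rel_up (y 5 / (-n)) (y 6 / (-n)) y)
  convert r using 1
  symm
  apply ext8
  · simp [upF, hy0, h0]
  · simp [upF, hy1, hy2, hy3]
  · simp [upF, hy2]
  · simp [upF, hy3]
  · simp [upF, h4]
  · simp only [upF, h4, div_mul_cancel₀ _ hn0']; simp
  · simp only [upF, h4, div_mul_cancel₀ _ hn0']; simp
  · simp [upF, hy7, h7]

/-- The stabiliser of the pair `{x, x + 1}`. -/
def st (x : V F) [CharP F 2] : Subgroup (G2 F) where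
  carrier := {g | act g x = x ∨ act g x = x + e1}
  mul_mem' {g h} hg hh := by
    rw [Set.mem_ofPred_eq] at *
    rw [act_mul]
    have h2 : ∀ z : V F, z + z = 0 := fun z => by
      ext i; exact CharTwo.add_self_eq_zero _
    rcases hh with hh | hh <;> rcases hg with hg | hg
    · left; rw [hh, hg]
    · right; rw [hh, hg]
    · right; rw [hh, map_add, hg, act_e1]
    · left; rw [hh, map_add, hg, act_e1, add_assoc, h2, add_zero]
  one_mem' := Or.inl (act_one x)
  inv_mem' {g} hg := by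
    rw [Set.mem_ofPred_eq] at *
    have h2 : ∀ z : V F, z + z = 0 := fun z => by
      ext i; exact CharTwo.add_self_eq_zero _
    rcases hg with hg | hg
    · left
      apply act_inj g
      rw [act_act_inv, hg]
    · right
      apply act_inj g
      rw [act_act_inv, map_add, hg, act_e1, add_assoc, h2, add_zero]

theorem mem_st [CharP F 2] {x : V F} {g : G2 F} :
    g ∈ st x ↔ act g x = x ∨ act g x = x + e1 := Iff.rfl

/-- Every functional is represented by a vector. -/
theorem exists_repr (f : V F →ₗ[F] F) : ∃ w, ∀ v, f v = bf w v := by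
  refine ⟨![f (Pi.single 7 1), - f (Pi.single 4 1), - f (Pi.single 5 1), - f (Pi.single 6 1),
    - f (Pi.single 1 1), - f (Pi.single 2 1), - f (Pi.single 3 1), f (Pi.single 0 1)], fun v => ?_⟩
  have h := LinearMap.pi_apply_eq_sum_univ f v
  rw [h, Fin.sum_univ_eight]
  have hs : ∀ i : Fin 8, (fun j : Fin 8 => if i = j then (1 : F) else 0) = Pi.single i 1 := by
    intro i
    funext j
    by_cases hij : i = j
    · subst hij; simp
    · simp [hij, Pi.single_apply, Ne.symm hij]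
  simp only [hs, smul_eq_mul, bf, Matrix.cons_val]
  ring

/-- **Dye's theorem for `G₂`**. -/
theorem exists_mem_st [CharP F 2] (g : G2 F) : ∃ x : V F, tr x = 1 ∧ g ∈ st x := by
  have h2 : (2 : F) = 0 := CharTwo.two_eq_zero
  let x0 : V F := ![1, 0, 0, 0, 0, 0, 0, 0]
  have hx0 : tr x0 = 1 := by simp [tr, x0]
  clear_value x0
  let trL : V F →ₗ[F] F :=
    { toFun := tr
      map_add' := tr_add
      map_smul' := fun c x => tr_smul c x }
  let U : Submodule F (V F) := (LinearMap.ker trL).map (act g - LinearMap.id) ⊔ F ∙ (e1 : V F)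
  have hy : act g x0 - x0 ∈ U := by
    by_contra hcon
    obtain ⟨f, hf1, hf2⟩ := Submodule.exists_le_ker_of_notMem hcon
    obtain ⟨w, hw⟩ := exists_repr f
    have hwe : tr w = 0 := by
      rw [← bf_e1, bf_comm, ← hw]
      exact hf2 (Submodule.mem_sup_right (Submodule.mem_span_singleton_self _))
    have hz : ∀ z, tr z = 0 → bf (act g⁻¹ w - w) z = 0 := by
      intro z hz
      have h1 : f (act g z - z) = 0 := by
        apply hf2
        apply Submodule.mem_sup_left
        exact ⟨z, hz, rfl⟩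
      rw [hw] at h1
      have h3 : bf (act g⁻¹ w) z = bf w (act g z) := by
        rw [← act_bf g, act_act_inv]
      have h4 : bf w (act g z - z) = bf w (act g z) - bf w z := by
        simp only [bf, Pi.sub_apply]; ring
      have h5 : bf (act g⁻¹ w - w) z = bf (act g⁻¹ w) z - bf w z := by
        simp only [bf, Pi.sub_apply]; ring
      rw [h5, h3, ← h4, h1]
    obtain ⟨d, hd⟩ : ∃ d, d = act g⁻¹ w - w := ⟨_, rfl⟩
    rw [← hd] at hz
    have hd1 : d = d 0 • e1 := by
      have k1 := hz ![0, 0, 0, 0, 1, 0, 0, 0] (by simp [tr])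
      have k2 := hz ![0, 0, 0, 0, 0, 1, 0, 0] (by simp [tr])
      have k3 := hz ![0, 0, 0, 0, 0, 0, 1, 0] (by simp [tr])
      have k4 := hz ![0, 1, 0, 0, 0, 0, 0, 0] (by simp [tr])
      have k5 := hz ![0, 0, 1, 0, 0, 0, 0, 0] (by simp [tr])
      have k6 := hz ![0, 0, 0, 1, 0, 0, 0, 0] (by simp [tr])
      have k7 := hz ![1, 0, 0, 0, 0, 0, 0, -1] (by simp [tr])
      simp only [bf, Matrix.cons_val] at k1 k2 k3 k4 k5 k6 k7
      apply ext8 <;> simp only [e1, Pi.smul_apply, smul_eq_mul, Matrix.cons_val]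
      · ring
      · linear_combination -k1
      · linear_combination -k2
      · linear_combination -k3
      · linear_combination -k4
      · linear_combination -k5
      · linear_combination -k6
      · linear_combination k7
    have hw1 : act g⁻¹ w = w + d := by rw [hd]; abel
    have hn := act_nm g⁻¹ w
    rw [hw1, hd1, nm_add, bf_smul_right, bf_comm, bf_e1, hwe] at hn
    have hn2 : nm (d 0 • e1 : V F) = d 0 ^ 2 := by
      simp only [nm, e1, Pi.smul_apply, smul_eq_mul, Matrix.cons_val]; ring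
    rw [hn2] at hn
    have hd0 : d 0 = 0 := by
      have : d 0 ^ 2 = 0 := by linear_combination hn
      exact pow_eq_zero_iff two_ne_zero |>.mp this
    have hw2 : act g w = w := by
      have : act g⁻¹ w = w := by rw [hw1, hd1, hd0, zero_smul, add_zero]
      rw [← this, act_act_inv, this]
    apply hf1
    have h5 : bf w (act g x0 - x0) = bf w (act g x0) - bf w x0 := by
      simp only [bf, Pi.sub_apply]; ring
    have h6 := act_bf g w x0
    rw [hw2] at h6
    rw [hw, h5, h6, sub_self]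
  obtain ⟨u, hu, v, hv, huv⟩ := Submodule.mem_sup.mp hy
  obtain ⟨z, hz, rfl⟩ := hu
  obtain ⟨c, rfl⟩ := Submodule.mem_span_singleton.mp hv
  have hz' : tr z = 0 := hz
  have h3 : act g z - z + c • e1 = act g x0 - x0 := huv
  have htr : tr (x0 - z) = 1 := by
    have : tr (x0 - z) = tr x0 - tr z := by simp only [tr, Pi.sub_apply]; ring
    rw [this, hx0, hz', sub_zero]
  have hgx : act g (x0 - z) = (x0 - z) + c • e1 := by
    rw [map_sub]
    have : act g x0 = act g z - z + c • e1 + x0 := by rw [h3]; abel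
    rw [this]
    abel
  refine ⟨x0 - z, htr, ?_⟩
  have hn := act_nm g (x0 - z)
  rw [hgx, nm_add, bf_smul_right, bf_comm, bf_e1, htr] at hn
  have hn2 : nm (c • e1 : V F) = c ^ 2 := by
    simp only [nm, e1, Pi.smul_apply, smul_eq_mul, Matrix.cons_val]; ring
  rw [hn2] at hn
  have hc : c * (c + 1) = 0 := by linear_combination hn
  rw [mem_st, hgx]
  rcases mul_eq_zero.mp hc with h | h
  · left; rw [h, zero_smul, add_zero]
  · right
    have : c = 1 := by linear_combination h - h2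
    rw [this, one_smul]

open Classical in
/-- The normal form of an element of trace one. -/
noncomputable def nf (n : F) : V F := if n = 0 then ![0, 0, 0, 0, 0, 0, 0, 1] else ![0, 1, 0, 0, -n, 0, 0, 1]

theorem rel_nf [CharP F 2] (x : V F) (hx : tr x = 1) : Rel x (nf (nm x)) := by
  obtain ⟨y, hxy, h0, h7⟩ := stepA x hx
  rw [nf]
  split_ifs with h
  · exact hxy.trans (stepB0 y h0 h7 (hxy.nm.trans h))
  · exact hxy.trans (stepB1 y h0 h7 _ hxy.nm h)

theorem conj_st [CharP F 2] {x y : V F} (h : Rel x y) :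
    ∃ h : G2 F, ∀ g : G2 F, g ∈ st x → h * g * h⁻¹ ∈ st y := by
  obtain ⟨h, rfl⟩ := h
  refine ⟨h, fun g hg => ?_⟩
  rw [mem_st, act_mul, act_mul, act_inv_act]
  rcases hg with hg | hg
  · left; rw [hg]
  · right; rw [hg, map_add, act_e1]

theorem gtwo_even [Finite F] [CharP F 2] : ∃ H K : Subgroup (G2 F), H ≠ ⊤ ∧ K ≠ ⊤ ∧
    ∀ g : G2 F, ∃ x : G2 F, x * g * x⁻¹ ∈ H ∨ x * g * x⁻¹ ∈ K := by
  have h2 : (2 : F) = 0 := CharTwo.two_eq_zero
  obtain ⟨n, hn⟩ := Cfsg.Agent.H156.exists_not_P F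
  have hn0 : n ≠ 0 := by
    rintro rfl
    exact hn ⟨0, by ring⟩
  refine ⟨st (nf 0), st (nf n), ?_, ?_, ?_⟩
  · intro h
    obtain ⟨g, hg⟩ := exists_phi (![1, 0, 0] : Fin 3 → F)
    have hmem : g ∈ st (nf 0) := by rw [h]; trivial
    rw [mem_st, hg] at hmem
    rcases hmem with h | h
    · have := congrFun h 1
      simp [phiF, nf] at this
    · have := congrFun h 1
      simp [phiF, nf, e1] at this
  · intro h
    obtain ⟨g, hg⟩ := exists_dn (1 : F) 0
    have hmem : g ∈ st (nf n) := by rw [h]; trivial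
    rw [mem_st, hg] at hmem
    rcases hmem with h | h
    · have := congrFun h 2
      simp [dnF, nf, hn0] at this
    · have := congrFun h 2
      simp [dnF, nf, e1, hn0] at this
  · intro g
    obtain ⟨x, hx, hgx⟩ := exists_mem_st g
    -- change `x` to `x + c`
    have hshift : ∀ c : F, tr (x + c • e1) = 1 ∧ nm (x + c • e1) = nm x + c ^ 2 + c ∧
        g ∈ st (x + c • e1) := by
      intro c
      refine ⟨?_, ?_, ?_⟩
      · rw [tr_add, tr_smul, tr_e1, h2, hx]; ring
      · rw [nm_add, bf_smul_right, bf_comm, bf_e1, hx]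
        have hn2 : nm (c • e1 : V F) = c ^ 2 := by
          simp only [nm, e1, Pi.smul_apply, smul_eq_mul, Matrix.cons_val]; ring
        rw [hn2]; ring
      · rw [mem_st, map_add, map_smul, act_e1]
        rcases hgx with h | h
        · left; rw [h]
        · right; rw [h]; abel
    by_cases hP : ∃ d : F, d ^ 2 + d = nm x
    · obtain ⟨d, hd⟩ := hP
      obtain ⟨k1, k2, k3⟩ := hshift d
      have k4 : nm (x + d • e1) = 0 := by rw [k2]; linear_combination - hd + (d ^ 2 + d) * h2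
      have r := rel_nf _ k1
      rw [k4] at r
      obtain ⟨h, hh⟩ := conj_st r
      exact ⟨h, Or.inl (hh g k3)⟩
    · obtain ⟨d, hd⟩ := Cfsg.Agent.H156.add_mem_P hn hP
      obtain ⟨k1, k2, k3⟩ := hshift d
      have k4 : nm (x + d • e1) = n := by rw [k2]; linear_combination hd + (nm x) * h2
      have r := rel_nf _ k1
      rw [k4] at r
      obtain ⟨h, hh⟩ := conj_st r
      exact ⟨h, Or.inr (hh g k3)⟩

end Cfsg.Agent.H156.GTwoEven
end

-- part: S2500
section
set_option autoImplicit false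
open Cfsg

namespace Cfsg.Agent.S2500

/-- The infinite families of simple groups with normal covering number 2. For a finite field F: each of PSL_2(F) (|F| ≥ 4), PSL_3(F), PSL_4(F), PSU_4 over F (|F| = q²), PSU_3 over F when |F| = q² with q a power of 3, PSp_{2m}(F) for |F| even, m ≥ 2 and (m, |F|) ≠ (2, 2), PSp_6(F) for |F| a power of 3, and G_2(F) (automorphisms of the split octonions) for |F| = 2^a ≥ 4 is the union of the conjugates of two proper subgroups: there are proper subgroups H, K such that every element is conjugate into H or into K. -/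
theorem result {F : Type} [Field F] [Fintype F] :
    (4 ≤ Fintype.card F → (∃ H K : Subgroup (Matrix.ProjectiveSpecialLinearGroup (Fin 2) F), H ≠ ⊤ ∧ K ≠ ⊤ ∧ ∀ g : (Matrix.ProjectiveSpecialLinearGroup (Fin 2) F), ∃ x : (Matrix.ProjectiveSpecialLinearGroup (Fin 2) F), x * g * x⁻¹ ∈ H ∨ x * g * x⁻¹ ∈ K)) ∧
    (∃ H K : Subgroup (Matrix.ProjectiveSpecialLinearGroup (Fin 3) F), H ≠ ⊤ ∧ K ≠ ⊤ ∧ ∀ g : (Matrix.ProjectiveSpecialLinearGroup (Fin 3) F), ∃ x : (Matrix.ProjectiveSpecialLinearGroup (Fin 3) F), x * g * x⁻¹ ∈ H ∨ x * g * x⁻¹ ∈ K) ∧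
    (∃ H K : Subgroup (Matrix.ProjectiveSpecialLinearGroup (Fin 4) F), H ≠ ⊤ ∧ K ≠ ⊤ ∧ ∀ g : (Matrix.ProjectiveSpecialLinearGroup (Fin 4) F), ∃ x : (Matrix.ProjectiveSpecialLinearGroup (Fin 4) F), x * g * x⁻¹ ∈ H ∨ x * g * x⁻¹ ∈ K) ∧
    (∀ q : ℕ, Fintype.card F = q ^ 2 → (∃ H K : Subgroup (Cfsg.PSU 4 F q), H ≠ ⊤ ∧ K ≠ ⊤ ∧ ∀ g : (Cfsg.PSU 4 F q), ∃ x : (Cfsg.PSU 4 F q), x * g * x⁻¹ ∈ H ∨ x * g * x⁻¹ ∈ K)) ∧
    (∀ q a : ℕ, Fintype.card F = q ^ 2 → 1 ≤ a → q = 3 ^ a → (∃ H K : Subgroup (Cfsg.PSU 3 F q), H ≠ ⊤ ∧ K ≠ ⊤ ∧ ∀ g : (Cfsg.PSU 3 F q), ∃ x : (Cfsg.PSU 3 F q), x * g * x⁻¹ ∈ H ∨ x * g * x⁻¹ ∈ K)) ∧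
    (∀ m : ℕ, 2 ≤ m → ¬ Odd (Fintype.card F) → ¬ (m = 2 ∧ Fintype.card F = 2) → (∃ H K : Subgroup (Cfsg.PSp m F), H ≠ ⊤ ∧ K ≠ ⊤ ∧ ∀ g : (Cfsg.PSp m F), ∃ x : (Cfsg.PSp m F), x * g * x⁻¹ ∈ H ∨ x * g * x⁻¹ ∈ K)) ∧
    (∀ a : ℕ, 1 ≤ a → Fintype.card F = 3 ^ a → (∃ H K : Subgroup (Cfsg.PSp 3 F), H ≠ ⊤ ∧ K ≠ ⊤ ∧ ∀ g : (Cfsg.PSp 3 F), ∃ x : (Cfsg.PSp 3 F), x * g * x⁻¹ ∈ H ∨ x * g * x⁻¹ ∈ K)) ∧
    (∀ a : ℕ, 2 ≤ a → Fintype.card F = 2 ^ a → (∃ H K : Subgroup (Cfsg.Lie.G2 F), H ≠ ⊤ ∧ K ≠ ⊤ ∧ ∀ g : (Cfsg.Lie.G2 F), ∃ x : (Cfsg.Lie.G2 F), x * g * x⁻¹ ∈ H ∨ x * g * x⁻¹ ∈ K)) := by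
  have hp2 : Fact (Nat.Prime 2) := ⟨Nat.prime_two⟩
  have hp3 : Fact (Nat.Prime 3) := ⟨Nat.prime_three⟩
  refine ⟨fun _ => H156.PSLCov.psl2, H156.PSLCov.psl3, H156.PSLCov.psl4,
    fun q hF => H156.UStab.psu4 hF, ?_, ?_, ?_, ?_⟩
  · intro q a hF ha hq
    have hc : CharP F 3 := charP_of_card_eq_prime_pow (p := 3) (f := a * 2) (by
      rw [hF, hq, pow_mul])
    exact H156.UThreeCov.psu3 hF
  · intro m hm hodd _
    have hc : CharP F 2 := by
      obtain ⟨p, hp⟩ := CharP.exists F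
      obtain ⟨n, hpp, hn⟩ := FiniteField.card F p
      have h2 : p = 2 := by
        rcases hpp.eq_two_or_odd' with h | h
        · exact h
        · exact absurd (by rw [hn]; exact h.pow) hodd
      rw [h2] at hp
      exact hp
    exact H156.SpEven.psp_even hm
  · intro a ha hF
    have hc : CharP F 3 := charP_of_card_eq_prime_pow hF
    exact H156.SpThreeCov.psp3
  · intro a ha hF
    have hc : CharP F 2 := charP_of_card_eq_prime_pow hF
    exact H156.GTwoEven.gtwo_even

end Cfsg.Agent.S2500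
end
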