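import Cfsg.Statements.S2541
set_option linter.all false

set_option autoImplicit false
open Cfsg

namespace Cfsg.Agent.S2541

open Matrix

/-- A permutation of six points whose eighth power is trivial has trivial fourth power. -/
theorem pow_four (σ : Equiv.Perm (Fin 6)) (h : σ ^ 8 = 1) : σ ^ 4 = 1 := by
  rw [← orderOf_dvd_iff_pow_eq_one] at h ⊢
  rw [← Equiv.Perm.lcm_cycleType, Multiset.lcm_dvd]
  intro n hn
  have h1 : n ∣ 8 := (Equiv.Perm.dvd_of_mem_cycleType hn).trans h
  have h2 : n ≤ 6 := (Equiv.Perm.le_card_support_of_mem_cycleType hn).trans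
    ((Finset.card_le_univ _).trans (by simp))
  interval_cases n
  all_goals omega

/-- Let F be a field with 9 elements. The symmetric group S_6 is not isomorphic to PGL_2(F) (although both have index-2 subgroups isomorphic to A_6: PGL_2(F) has an element of order 8 and S_6 has none). -/
theorem result {F : Type*} [Field F] [Fintype F] (hF : Fintype.card F = 9) : ¬ Nonempty (Equiv.Perm (Fin 6) ≃* Matrix.ProjGenLinGroup (Fin 2) F) := by
  rintro ⟨e⟩
  classical
  obtain ⟨ζ, hζ⟩ := IsCyclic.exists_generator (α := Fˣ)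
  have hord : orderOf ζ = 8 := by
    rw [orderOf_eq_card_of_forall_mem_zpowers hζ, Nat.card_eq_fintype_card, Fintype.card_units, hF]
  have h8 : (ζ : F) ^ 8 = 1 := by
    rw [← Units.val_pow_eq_pow_val, ← hord, pow_orderOf_eq_one, Units.val_one]
  have h4 : (ζ : F) ^ 4 ≠ 1 := by
    intro h
    have h1 : ζ ^ 4 = 1 := Units.ext (by rw [Units.val_pow_eq_pow_val, h, Units.val_one])
    have h2 := orderOf_dvd_of_pow_eq_one h1
    rw [hord] at h2
    exact absurd h2 (by decide)
  let g : GL (Fin 2) F := Matrix.GeneralLinearGroup.mkOfDetNeZero (Matrix.diagonal ![(ζ : F), 1])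
    (by simp [Matrix.det_diagonal])
  have hg : ∀ k : ℕ, ((g ^ k : GL (Fin 2) F) : Matrix (Fin 2) (Fin 2) F) = Matrix.diagonal ![(ζ : F) ^ k, 1] := by
    intro k
    have h1 : (g : Matrix (Fin 2) (Fin 2) F) = Matrix.diagonal ![(ζ : F), 1] := rfl
    rw [Units.val_pow_eq_pow_val, h1, Matrix.diagonal_pow]
    congr 1
    funext i
    fin_cases i <;> simp
  have h1 : (Matrix.ProjGenLinGroup.mk g) ^ 8 = 1 := by
    rw [← map_pow]
    have : g ^ 8 = 1 := by
      apply Units.ext
      rw [hg, h8]
      ext i j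
      fin_cases i <;> fin_cases j <;> simp
    rw [this, map_one]
  have h2 : (Matrix.ProjGenLinGroup.mk g) ^ 4 = 1 := by
    have h3 : (e.symm (Matrix.ProjGenLinGroup.mk g)) ^ 8 = 1 := by rw [← map_pow, h1, map_one]
    have h5 := pow_four _ h3
    have h6 := congrArg e h5
    rwa [map_pow, MulEquiv.apply_symm_apply, map_one] at h6
  rw [← map_pow, Matrix.ProjGenLinGroup.mk_eq_one,
    Matrix.GeneralLinearGroup.mem_center_iff_val_mem_range_scalar, hg] at h2
  obtain ⟨a, ha⟩ := h2
  have h00 := congrFun (congrFun ha 0) 0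
  have h11 := congrFun (congrFun ha 1) 1
  simp at h00 h11
  exact h4 (by rw [← h00, h11])

end Cfsg.Agent.S2541
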