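import Mathlib
import Cfsg.Agent.H174.F2Forms
import Cfsg.Agent.S0760
import Cfsg.Statements.S2562
set_option linter.all false

-- part: H174/F2Sing
section
/-!
Totally singular subspaces of the plus and minus forms over `F_2`.
-/

set_option autoImplicit false

namespace Cfsg.Agent.H174

open Module Cfsg.Agent.ClassicalGeometry.QuadPlusBasic

/-- every totally singular subspace has at most the dimension of a maximal one -/
theorem finrank_le_of_maximal {F V : Type*} [Field F] [Finite F] [AddCommGroup V] [Module F V]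
    [FiniteDimensional F V] (Q : QuadraticForm F V) (hQ : (QuadraticMap.polarBilin Q).Nondegenerate)
    (W₀ : Submodule F V) (h₀ : ∀ w ∈ W₀, Q w = 0)
    (hmax : ∀ W : Submodule F V, W₀ ≤ W → (∀ w ∈ W, Q w = 0) → W = W₀) (U : Submodule F V)
    (hU : ∀ w ∈ U, Q w = 0) : finrank F U ≤ finrank F W₀ := by
  obtain ⟨W, ⟨hUW, hW⟩, hWm⟩ := (wellFounded_gt (α := Submodule F V)).has_min
    {W : Submodule F V | U ≤ W ∧ ∀ w ∈ W, Q w = 0} ⟨U, le_rfl, hU⟩
  have h := Cfsg.Agent.S0760.result Q hQ W W₀ hW h₀ (fun W' h1 h2 => by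
    by_contra hne
    exact hWm W' ⟨hUW.trans h1, h2⟩ (lt_of_le_of_ne h1 (Ne.symm hne))) hmax
  rw [← h.1]
  exact Submodule.finrank_mono hUW

/-- a totally singular subspace has at most half the dimension -/
theorem two_mul_finrank_le {F V : Type*} [Field F] [Finite F] [AddCommGroup V] [Module F V]
    [FiniteDimensional F V] (Q : QuadraticForm F V) (hQ : (QuadraticMap.polarBilin Q).Nondegenerate)
    (U : Submodule F V) (hU : ∀ w ∈ U, Q w = 0) : 2 * finrank F U ≤ finrank F V := by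
  obtain ⟨W, ⟨hUW, hW⟩, hWm⟩ := (wellFounded_gt (α := Submodule F V)).has_min
    {W : Submodule F V | U ≤ W ∧ ∀ w ∈ W, Q w = 0} ⟨U, le_rfl, hU⟩
  have hm : ∀ W' : Submodule F V, W ≤ W' → (∀ w ∈ W', Q w = 0) → W' = W := fun W' h1 h2 => by
    by_contra hne
    exact hWm W' ⟨hUW.trans h1, h2⟩ (lt_of_le_of_ne h1 (Ne.symm hne))
  have h := (Cfsg.Agent.S0760.result Q hQ W W hW hW hm hm).2
  have := Submodule.finrank_mono hUW
  omega

theorem plusQ_nondegenerate (m : ℕ) (F : Type*) [Field F] :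
    (QuadraticMap.polarBilin (plusQ m F)).Nondegenerate := by
  have : QuadraticMap.polarBilin (plusQ m F) = polarForm m F := by
    refine LinearMap.ext fun u => LinearMap.ext fun v => ?_
    exact polar_plusQ m F u v
  rw [this]
  exact polarForm_nondegenerate m F

theorem minusPolar_nondegenerate (m : ℕ) : (minusPolar m (ZMod 2) 1 1).Nondegenerate := by
  classical
  have key : ∀ u : (Fin m ⊕ Fin m) ⊕ Fin 2 → ZMod 2, (∀ v, minusPolar m (ZMod 2) 1 1 u v = 0) → u = 0 := by
    intro u h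
    funext i
    rcases i with (i | i) | i
    · have := h (Pi.single (.inl (.inr i)) 1)
      simpa [minusPolar, Pi.single_apply] using this
    · have := h (Pi.single (.inl (.inl i)) 1)
      simpa [minusPolar, Pi.single_apply] using this
    · have h2 : (2 : ZMod 2) = 0 := rfl
      fin_cases i
      · have := h (Pi.single (.inr 1) 1)
        simpa [minusPolar, Pi.single_apply, h2] using this
      · have := h (Pi.single (.inr 0) 1)
        simpa [minusPolar, Pi.single_apply, h2] using this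
  refine ⟨key, ?_⟩
  intro u h
  apply key
  intro v
  have h1 : minusPolar m (ZMod 2) 1 1 u v = minusPolar m (ZMod 2) 1 1 v u := by
    simp only [minusPolar, LinearMap.mk₂_apply]
    have : ∀ i, u (.inl (.inl i)) * v (.inl (.inr i)) + u (.inl (.inr i)) * v (.inl (.inl i)) =
      v (.inl (.inl i)) * u (.inl (.inr i)) + v (.inl (.inr i)) * u (.inl (.inl i)) := fun i => by ring
    rw [Finset.sum_congr rfl (fun i _ => this i)]
    ring
  rw [h1]
  exact h v

theorem minusQ_nondegenerate (m : ℕ) : (QuadraticMap.polarBilin (minusQ m (ZMod 2) 1 1)).Nondegenerate := by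
  have : QuadraticMap.polarBilin (minusQ m (ZMod 2) 1 1) = minusPolar m (ZMod 2) 1 1 := by
    refine LinearMap.ext fun u => LinearMap.ext fun v => ?_
    exact polar_minusQ m (ZMod 2) 1 1 u v
  rw [this]
  exact minusPolar_nondegenerate m

/-- the standard totally singular subspace of the minus form -/
def stdM (m : ℕ) (F : Type*) [Field F] : Submodule F ((Fin m ⊕ Fin m) ⊕ Fin 2 → F) where
  carrier := {v | (∀ i, v (.inl (.inr i)) = 0) ∧ ∀ i, v (.inr i) = 0}
  add_mem' := by
    intro a b ha hb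
    exact ⟨fun i => by rw [Pi.add_apply, ha.1, hb.1, add_zero], fun i => by rw [Pi.add_apply, ha.2, hb.2, add_zero]⟩
  zero_mem' := ⟨fun _ => rfl, fun _ => rfl⟩
  smul_mem' := by
    intro c a ha
    exact ⟨fun i => by rw [Pi.smul_apply, ha.1, smul_zero], fun i => by rw [Pi.smul_apply, ha.2, smul_zero]⟩

/-- `stdM` is linearly equivalent to `F^m` -/
def stdMEquiv (m : ℕ) (F : Type*) [Field F] : stdM m F ≃ₗ[F] (Fin m → F) where
  toFun v := fun i => v.1 (.inl (.inl i))
  map_add' _ _ := rfl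
  map_smul' _ _ := rfl
  invFun w := ⟨fun i => i.elim (fun j => j.elim w (fun _ => 0)) (fun _ => 0), fun _ => rfl, fun _ => rfl⟩
  left_inv := by
    rintro ⟨v, hv⟩
    ext i
    rcases i with (i | i) | i
    · rfl
    · exact (hv.1 i).symm
    · exact (hv.2 i).symm
  right_inv _ := rfl

theorem finrank_stdM (m : ℕ) (F : Type*) [Field F] : finrank F (stdM m F) = m := by
  rw [(stdMEquiv m F).finrank_eq, Module.finrank_fintype_fun_eq_card, Fintype.card_fin]

theorem minus_stdM (m : ℕ) (F : Type*) [Field F] (a b : F) (v : (Fin m ⊕ Fin m) ⊕ Fin 2 → F)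
    (hv : v ∈ stdM m F) : Cfsg.quadFormMinus m F a b v = 0 := by
  rw [Cfsg.quadFormMinus, hv.2, hv.2]
  rw [Finset.sum_eq_zero]
  · ring
  · intro i _
    rw [hv.1 i, mul_zero]

theorem stdM_maximal (m : ℕ) (W : Submodule (ZMod 2) ((Fin m ⊕ Fin m) ⊕ Fin 2 → ZMod 2))
    (h : stdM m (ZMod 2) ≤ W) (hW : ∀ w ∈ W, minusQ m (ZMod 2) 1 1 w = 0) : W = stdM m (ZMod 2) := by
  classical
  apply le_antisymm _ h
  intro w hw
  have h1 : ∀ i, w (.inl (.inr i)) = 0 := by
    intro i
    have he : (Pi.single (.inl (.inl i)) 1 : (Fin m ⊕ Fin m) ⊕ Fin 2 → ZMod 2) ∈ stdM m (ZMod 2) :=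
      ⟨fun j => by simp, fun j => by simp⟩
    have h2 := polar_minusQ m (ZMod 2) 1 1 w (Pi.single (.inl (.inl i)) 1)
    rw [QuadraticMap.polar, hW _ (W.add_mem hw (h he)), hW _ hw, hW _ (h he)] at h2
    simp [minusPolar, Pi.single_apply] at h2
    exact h2.symm
  refine ⟨h1, ?_⟩
  have h3 := hW w hw
  rw [minusQ_apply, Cfsg.quadFormMinus, Finset.sum_eq_zero (fun i _ => by rw [h1 i, mul_zero]), zero_add] at h3
  have h4 : ∀ z₁ z₂ : ZMod 2, z₁ ^ 2 + 1 * z₁ * z₂ + 1 * z₂ ^ 2 = 0 → z₁ = 0 ∧ z₂ = 0 := by decide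
  have h5 := h4 _ _ h3
  intro i
  fin_cases i
  · exact h5.1
  · exact h5.2

end Cfsg.Agent.H174
end

-- part: S2562
section
set_option autoImplicit false
open Cfsg

namespace Cfsg.Agent.S2562

/-- Witt indices over the field of two elements, m ≥ 1: for the plus-type form Σ xᵢyᵢ in dimension 2m some m-dimensional subspace is totally singular and no totally singular subspace has larger dimension; for the minus-type form Σ xᵢyᵢ + (z₁² + z₁z₂ + z₂²) in dimension 2m the maximal dimension of a totally singular subspace is m − 1. -/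
theorem result (m : ℕ) (hm : 1 ≤ m) :
    (∃ U : Submodule (ZMod 2) (Fin m ⊕ Fin m → ZMod 2), (∀ u ∈ U, Cfsg.quadFormPlus m (ZMod 2) u = 0) ∧ Module.finrank (ZMod 2) ↥U = m) ∧
    (∀ U : Submodule (ZMod 2) (Fin m ⊕ Fin m → ZMod 2), (∀ u ∈ U, Cfsg.quadFormPlus m (ZMod 2) u = 0) → Module.finrank (ZMod 2) ↥U ≤ m) ∧
    (∃ U : Submodule (ZMod 2) ((Fin (m - 1) ⊕ Fin (m - 1)) ⊕ Fin 2 → ZMod 2), (∀ u ∈ U, Cfsg.quadFormMinus (m - 1) (ZMod 2) 1 1 u = 0) ∧ Module.finrank (ZMod 2) ↥U = m - 1) ∧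
    (∀ U : Submodule (ZMod 2) ((Fin (m - 1) ⊕ Fin (m - 1)) ⊕ Fin 2 → ZMod 2), (∀ u ∈ U, Cfsg.quadFormMinus (m - 1) (ZMod 2) 1 1 u = 0) → Module.finrank (ZMod 2) ↥U ≤ m - 1) := by
  refine ⟨⟨Cfsg.Agent.ClassicalGeometry.QuadPlusBasic.stdX m (ZMod 2),
      Cfsg.Agent.ClassicalGeometry.QuadPlusBasic.quadFormPlus_stdX m (ZMod 2),
      Cfsg.Agent.ClassicalGeometry.QuadPlusBasic.finrank_stdX m (ZMod 2)⟩, ?_,
    ⟨H174.stdM (m - 1) (ZMod 2), H174.minus_stdM (m - 1) (ZMod 2) 1 1,
      H174.finrank_stdM (m - 1) (ZMod 2)⟩, ?_⟩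
  · intro U hU
    have h := H174.two_mul_finrank_le (H174.plusQ m (ZMod 2)) (H174.plusQ_nondegenerate m (ZMod 2)) U hU
    rw [Cfsg.Agent.ClassicalGeometry.QuadPlusBasic.finrank_space] at h
    omega
  · intro U hU
    have h := H174.finrank_le_of_maximal (H174.minusQ (m - 1) (ZMod 2) 1 1)
      (H174.minusQ_nondegenerate (m - 1)) (H174.stdM (m - 1) (ZMod 2))
      (H174.minus_stdM (m - 1) (ZMod 2) 1 1) (fun W h1 h2 => H174.stdM_maximal (m - 1) W h1 h2) U hU
    rwa [H174.finrank_stdM] at h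

end Cfsg.Agent.S2562
end
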