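import Cfsg.Statements.S2574
import Cfsg.Agent.H173.NilOne
set_option linter.all false

set_option autoImplicit false
open Cfsg

namespace Cfsg.Agent.S2574

open Matrix Module

/-- The adjoint relation `f(u v, (u-1) w) = - f((u-1) v, w)`. -/
theorem form_adj {F : Type*} [Field F] {m : ℕ} (u : Matrix (Fin m ⊕ Fin m) (Fin m ⊕ Fin m) F)
    (hu : u ∈ Matrix.symplecticGroup (Fin m) F) (v w : Fin m ⊕ Fin m → F) :
    sympForm m F (u *ᵥ v) ((u - 1) *ᵥ w) = - sympForm m F ((u - 1) *ᵥ v) w := by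
  have h1 : ∀ a b, sympForm m F (u *ᵥ a) (u *ᵥ b) = sympForm m F a b := by
    intro a b
    unfold sympForm
    rw [← Matrix.vecMul_transpose, ← Matrix.dotProduct_mulVec, Matrix.mulVec_mulVec, Matrix.mulVec_mulVec,
      (SymplecticGroup.mem_iff').1 hu]
  have h2 : ∀ a b c, sympForm m F a (b - c) = sympForm m F a b - sympForm m F a c := by
    intro a b c; unfold sympForm; rw [Matrix.mulVec_sub, dotProduct_sub]
  have h3 : ∀ a b c, sympForm m F (a - b) c = sympForm m F a c - sympForm m F b c := by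
    intro a b c; unfold sympForm; rw [sub_dotProduct]
  rw [Matrix.sub_mulVec, Matrix.sub_mulVec, Matrix.one_mulVec, Matrix.one_mulVec, h2, h3, h1]
  ring

/-- The iterated adjoint relation. -/
theorem form_adj_pow {F : Type*} [Field F] {m : ℕ} (u : Matrix (Fin m ⊕ Fin m) (Fin m ⊕ Fin m) F)
    (hu : u ∈ Matrix.symplecticGroup (Fin m) F) (k : ℕ) (v w : Fin m ⊕ Fin m → F) :
    sympForm m F ((u ^ k) *ᵥ v) (((u - 1) ^ k) *ᵥ w) =
      (-1) ^ k * sympForm m F (((u - 1) ^ k) *ᵥ v) w := by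
  induction k generalizing v w with
  | zero => simp
  | succ k ih =>
    have hcomm : Commute (u - 1) (u ^ k) :=
      ((Commute.refl u).sub_left (Commute.one_left u)).pow_right k
    calc sympForm m F ((u ^ (k + 1)) *ᵥ v) (((u - 1) ^ (k + 1)) *ᵥ w)
        = sympForm m F (u *ᵥ ((u ^ k) *ᵥ v)) ((u - 1) *ᵥ (((u - 1) ^ k) *ᵥ w)) := by
          rw [Matrix.mulVec_mulVec, Matrix.mulVec_mulVec, ← pow_succ', ← pow_succ']
      _ = - sympForm m F ((u - 1) *ᵥ ((u ^ k) *ᵥ v)) (((u - 1) ^ k) *ᵥ w) := form_adj u hu _ _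
      _ = - sympForm m F ((u ^ k) *ᵥ ((u - 1) *ᵥ v)) (((u - 1) ^ k) *ᵥ w) := by
          rw [Matrix.mulVec_mulVec, Matrix.mulVec_mulVec, hcomm.eq]
      _ = - ((-1) ^ k * sympForm m F (((u - 1) ^ k) *ᵥ ((u - 1) *ᵥ v)) w) := by rw [ih]
      _ = (-1) ^ (k + 1) * sympForm m F (((u - 1) ^ (k + 1)) *ᵥ v) w := by
          rw [Matrix.mulVec_mulVec, ← pow_succ]; ring

theorem toEnd_pow {F : Type*} [Field F] {ι : Type*} [Fintype ι] [DecidableEq ι] (A : Matrix ι ι F) (k : ℕ)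
    (x : ι → F) : ((Matrix.toLin' A) ^ k) x = (A ^ k) *ᵥ x := by
  rw [← Matrix.toLin'_pow, Matrix.toLin'_apply]

theorem result {F : Type*} [Field F] [Finite F] {m : ℕ} (u : Matrix.symplecticGroup (Fin m) F) (hnil : ((u : Matrix (Fin m ⊕ Fin m) (Fin m ⊕ Fin m) F) - 1) ^ (2 * m) = 0) (hreg : ((u : Matrix (Fin m ⊕ Fin m) (Fin m ⊕ Fin m) F) - 1).rank = 2 * m - 1) (W : Submodule F (Fin m ⊕ Fin m → F)) (hW : ∀ v ∈ W, (u : Matrix (Fin m ⊕ Fin m) (Fin m ⊕ Fin m) F).mulVec v ∈ W) (hdim : 2 * Module.finrank F W ≤ 2 * m) : ∀ v ∈ W, ∀ w ∈ W, Cfsg.sympForm m F v w = 0 := by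
  classical
  obtain ⟨u, hu⟩ := u
  simp only at hnil hreg hW
  intro v hv w hw
  let N : End F (Fin m ⊕ Fin m → F) := Matrix.toLin' (u - 1)
  have hNapp : ∀ (k : ℕ) x, (N ^ k) x = ((u - 1) ^ k) *ᵥ x := fun k x => toEnd_pow _ k x
  have hV : finrank F (Fin m ⊕ Fin m → F) = 2 * m := by
    rw [Module.finrank_fintype_fun_eq_card, Fintype.card_sum, Fintype.card_fin]; ring
  have hNn : N ^ (2 * m) = 0 := by
    apply LinearMap.ext; intro x
    rw [hNapp, hnil, Matrix.zero_mulVec]; rfl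
  have hker : finrank F (LinearMap.ker N) ≤ 1 := by
    have h1 := LinearMap.finrank_range_add_finrank_ker N
    have h2 : finrank F (LinearMap.range N) = 2 * m - 1 := by
      rw [← hreg]; rfl
    rw [hV, h2] at h1
    omega
  have hWN : ∀ x ∈ W, N x ∈ W := by
    intro x hx
    show (u - 1) *ᵥ x ∈ W
    rw [Matrix.sub_mulVec, Matrix.one_mulVec]
    exact W.sub_mem (hW x hx) hx
  have hd : finrank F W ≤ m := by omega
  have hle : W ≤ LinearMap.ker (N ^ m) := by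
    intro x hx
    have h1 := Cfsg.Agent.H173.NilOne.le_ker_pow_finrank N ⟨_, hNn⟩ W hWN hx
    rw [LinearMap.mem_ker] at h1 ⊢
    obtain ⟨r, hr⟩ := Nat.exists_eq_add_of_le hd
    have h2 : ∀ j, j = finrank F W + r → (N ^ j) x = 0 := by
      rintro j rfl
      rw [add_comm, pow_add, Module.End.mul_apply, h1, map_zero]
    exact h2 m hr
  have hrange : W ≤ LinearMap.range (N ^ m) := by
    rw [Cfsg.Agent.H173.NilOne.ker_pow_eq_range_pow N hNn hV hker (by omega : m ≤ 2 * m)] at hle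
    have : 2 * m - m = m := by omega
    rwa [this] at hle
  obtain ⟨x, hx⟩ := hrange hw
  rw [hNapp] at hx
  -- `v = u^m v'`
  have hudet : IsUnit u := by
    have h1 := (SymplecticGroup.symplectic_det hu)
    rw [Matrix.isUnit_iff_isUnit_det]
    exact h1
  obtain ⟨U, hU⟩ := hudet
  have hcomm : Commute ((u - 1) ^ m) (((U⁻¹ : (Matrix (Fin m ⊕ Fin m) (Fin m ⊕ Fin m) F)ˣ) :
      Matrix (Fin m ⊕ Fin m) (Fin m ⊕ Fin m) F) ^ m) := by
    apply Commute.pow_pow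
    apply Commute.units_inv_right
    rw [hU]
    exact (Commute.refl u).sub_left (Commute.one_left u)
  have hvu : v = (u ^ m) *ᵥ ((((U⁻¹ : (Matrix (Fin m ⊕ Fin m) (Fin m ⊕ Fin m) F)ˣ) :
      Matrix (Fin m ⊕ Fin m) (Fin m ⊕ Fin m) F) ^ m) *ᵥ v) := by
    rw [Matrix.mulVec_mulVec, ← hU, ← Units.val_pow_eq_pow_val, ← Units.val_pow_eq_pow_val, ← Units.val_mul,
      inv_pow, mul_inv_cancel, Units.val_one, Matrix.one_mulVec]
  have hv0 : ((u - 1) ^ m) *ᵥ v = 0 := by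
    rw [← hNapp]; exact hle hv
  rw [hvu, ← hx, form_adj_pow u hu, Matrix.mulVec_mulVec, hcomm.eq, ← Matrix.mulVec_mulVec, hv0]
  unfold sympForm
  simp

end Cfsg.Agent.S2574
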