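import Cfsg.Statements.S2575
set_option linter.all false

set_option autoImplicit false
open Cfsg

namespace Cfsg.Agent.S2575

theorem pow_eq_neg_one_imp {F : Type*} [Field F] [Fintype F] {q : ℕ} (hF : Fintype.card F = q)
    (hne : (-1 : F) ≠ 1) {n : ℕ} (hn : 1 ≤ n) {c : F} (hc : c ^ n = -1) :
    padicValNat 2 n < padicValNat 2 (q - 1) := by
  have hc0 : c ≠ 0 := by
    rintro rfl
    rw [zero_pow (by omega)] at hc
    have : (1 : F) = 0 := by
      have := congrArg (fun x => -x) hc
      simpa using this.symm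
    exact one_ne_zero this
  have hq2 : 2 ≤ q := hF ▸ Fintype.one_lt_card
  have hk1 : orderOf c ∣ q - 1 := by
    apply orderOf_dvd_of_pow_eq_one
    rw [← hF]
    exact FiniteField.pow_card_sub_one_eq_one c hc0
  have hk2 : orderOf c ∣ 2 * n := by
    apply orderOf_dvd_of_pow_eq_one
    rw [mul_comm, pow_mul, hc]; ring
  have hk3 : ¬ orderOf c ∣ n := by
    rw [orderOf_dvd_iff_pow_eq_one, hc]; exact hne
  have hk0 : orderOf c ≠ 0 := by
    intro h0
    rw [h0] at hk1
    have := Nat.eq_zero_of_zero_dvd hk1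
    omega
  have key : padicValNat 2 n < padicValNat 2 (orderOf c) := by
    by_contra hlt
    rw [not_lt] at hlt
    apply hk3
    rw [← Nat.factorization_le_iff_dvd hk0 (by omega)]
    intro p
    by_cases hp : p.Prime
    · by_cases h2 : p = 2
      · subst h2
        rw [Nat.factorization_def _ hp, Nat.factorization_def _ hp]
        exact hlt
      · have h1 := (Nat.factorization_le_iff_dvd hk0 (by omega : 2 * n ≠ 0)).2 hk2 p
        rw [Nat.factorization_mul (by norm_num) (by omega)] at h1
        simp only [Finsupp.coe_add, Pi.add_apply] at h1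
        rw [Nat.Prime.factorization Nat.prime_two] at h1
        rw [Finsupp.single_eq_of_ne (by exact h2)] at h1
        simpa using h1
    · rw [Nat.factorization_eq_zero_of_not_prime _ hp]
      exact Nat.zero_le _
  refine lt_of_lt_of_le key ?_
  exact (padicValNat_dvd_iff_le (by omega : q - 1 ≠ 0)).1
    (dvd_trans (pow_padicValNat_dvd) hk1)

theorem exists_pow_eq_neg_one {F : Type*} [Field F] [Fintype F] {q : ℕ} (hF : Fintype.card F = q)
    {n : ℕ} (hn : 1 ≤ n)
    (h : padicValNat 2 n < padicValNat 2 (q - 1)) : ∃ c : F, c ≠ 0 ∧ c ^ n = -1 := by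
  classical
  have hq2 : 2 ≤ q := hF ▸ Fintype.one_lt_card
  have hdvd : 2 ^ (padicValNat 2 n + 1) ∣ Nat.card Fˣ := by
    rw [Nat.card_eq_fintype_card, Fintype.card_units, hF]
    exact (padicValNat_dvd_iff_le (by omega : q - 1 ≠ 0)).2 h
  obtain ⟨g, hg⟩ := IsCyclic.exists_generator (α := Fˣ)
  have hog : orderOf g = Nat.card Fˣ := orderOf_eq_card_of_forall_mem_zpowers hg
  obtain ⟨k, hk⟩ := hdvd
  have hkpos : 0 < k := by
    rcases Nat.eq_zero_or_pos k with h0 | h0
    · rw [h0, mul_zero] at hk
      exact absurd hk (Nat.card_pos.ne')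
    · exact h0
  obtain ⟨m, hm⟩ := pow_padicValNat_dvd (p := 2) (n := n)
  have hmodd : Odd m := by
    rw [← Nat.not_even_iff_odd]
    intro hev
    obtain ⟨r, hr⟩ := even_iff_two_dvd.1 hev
    have : 2 ^ (padicValNat 2 n + 1) ∣ n := by
      refine ⟨r, ?_⟩
      conv_lhs => rw [hm]
      rw [hr]; ring
    have := (padicValNat_dvd_iff_le (p := 2) (by omega : n ≠ 0)).1 this
    omega
  refine ⟨((g ^ k : Fˣ) : F), Units.ne_zero _, ?_⟩
  have h1 : ((g ^ k : Fˣ) : F) ^ (2 ^ padicValNat 2 n) = -1 := by
    have h2 : (((g ^ k : Fˣ) : F) ^ (2 ^ padicValNat 2 n)) ^ 2 = 1 := by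
      rw [← pow_mul, ← pow_succ, ← Units.val_pow_eq_pow_val, ← pow_mul, mul_comm, ← hk, ← hog,
        pow_orderOf_eq_one, Units.val_one]
    rcases sq_eq_one_iff.1 h2 with h3 | h3
    · exfalso
      have h4 : g ^ (k * 2 ^ padicValNat 2 n) = 1 := by
        rw [pow_mul]
        apply Units.ext
        push_cast
        simpa using h3
      have h5 := orderOf_dvd_of_pow_eq_one h4
      rw [hog, hk] at h5
      have h6 := Nat.le_of_dvd (by positivity) h5
      have h7 : 2 ^ (padicValNat 2 n + 1) * k = 2 * (k * 2 ^ padicValNat 2 n) := by ring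
      have h8 : 0 < k * 2 ^ padicValNat 2 n := by positivity
      omega
    · exact h3
  rw [hm, pow_mul, h1, hmodd.neg_one_pow]

theorem result {F : Type*} [Field F] [Fintype F] {q : ℕ} (hF : Fintype.card F = q) (hq : Odd q) {n : ℕ} (hn : 1 ≤ n) (i : ℕ) (hi : i ≤ n) : (∃ c : F, c ≠ 0 ∧ (c • Matrix.diagonal (fun j : Fin n => if (j : ℕ) < i then (-1 : F) else 1)).det = 1) ↔ (Even i ∨ padicValNat 2 n < padicValNat 2 (q - 1)) := by
  have hne : (-1 : F) ≠ 1 := by
    intro h
    have h2 : (2 : F) = 0 := by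
      have : (2 : F) = 1 + 1 := by norm_num
      rw [this]
      nth_rewrite 1 [← h]
      ring
    have h3 : ringChar F ∣ 2 := by
      rw [← ringChar.spec]
      exact_mod_cast h2
    have h4 : ringChar F = 2 := by
      rcases (Nat.dvd_prime Nat.prime_two).1 h3 with h5 | h5
      · exact absurd h5 (CharP.ringChar_ne_one)
      · exact h5
    have := FiniteField.even_card_iff_char_two.1 h4
    rw [hF] at this
    rcases hq with ⟨r, hr⟩
    omega
  have hdet : ∀ c : F, (c • Matrix.diagonal (fun j : Fin n => if (j : ℕ) < i then (-1 : F) else 1)).det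
      = c ^ n * (-1) ^ i := by
    intro c
    rw [Matrix.det_smul, Fintype.card_fin, Matrix.det_diagonal]
    congr 1
    rw [Finset.prod_ite, Finset.prod_const, Finset.prod_const_one, mul_one]
    congr 1
    have : (Finset.univ.filter (fun j : Fin n => (j : ℕ) < i)).card = i := by
      rw [Fin.card_filter_val_lt]
      exact min_eq_right hi
    exact this
  simp only [hdet]
  constructor
  · rintro ⟨c, hc0, hc⟩
    by_cases hev : Even i
    · exact Or.inl hev
    · right
      rw [Nat.not_even_iff_odd] at hev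
      rw [hev.neg_one_pow] at hc
      apply pow_eq_neg_one_imp hF hne hn (c := c)
      have := congrArg (fun x => -x) hc
      simpa using this
  · rintro (hev | h)
    · exact ⟨1, one_ne_zero, by rw [one_pow, hev.neg_one_pow, one_mul]⟩
    · by_cases hev : Even i
      · exact ⟨1, one_ne_zero, by rw [one_pow, hev.neg_one_pow, one_mul]⟩
      · rw [Nat.not_even_iff_odd] at hev
        obtain ⟨c, hc0, hc⟩ := exists_pow_eq_neg_one hF hn h
        exact ⟨c, hc0, by rw [hc, hev.neg_one_pow]; ring⟩

end Cfsg.Agent.S2575
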