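import Cfsg.Statements.S2576
set_option linter.all false

set_option autoImplicit false
open Cfsg

namespace Cfsg.Agent.S2576

/-- If `d ^ m = 1` in a finite field of odd order and `d` is not a square, then the 2-part of `q - 1`
divides `m`. -/
theorem le_of_nonsquare {F : Type*} [Field F] [Fintype F] {q : ℕ} (hF : Fintype.card F = q)
    (h2 : ringChar F ≠ 2) {m : ℕ} (hm : 1 ≤ m) {d : F} (hd0 : d ≠ 0) (hd : d ^ m = 1)
    (hns : ¬ IsSquare d) : padicValNat 2 (q - 1) ≤ padicValNat 2 m := by
  have hq2 : 2 ≤ q := hF ▸ Fintype.one_lt_card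
  have hodd : q % 2 = 1 := by
    rw [← hF]; exact FiniteField.odd_card_of_char_ne_two h2
  have hk1 : orderOf d ∣ q - 1 := by
    apply orderOf_dvd_of_pow_eq_one
    rw [← hF]
    exact FiniteField.pow_card_sub_one_eq_one d hd0
  have hk2 : orderOf d ∣ m := orderOf_dvd_of_pow_eq_one hd
  have hk3 : ¬ orderOf d ∣ (q - 1) / 2 := by
    intro h
    apply hns
    rw [FiniteField.isSquare_iff h2 hd0, hF]
    have : q / 2 = (q - 1) / 2 := by omega
    rw [this]
    exact orderOf_dvd_iff_pow_eq_one.1 h
  have hk0 : orderOf d ≠ 0 := by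
    intro h0
    rw [h0] at hk1
    have := Nat.eq_zero_of_zero_dvd hk1
    omega
  have hq1 : (q - 1) = 2 * ((q - 1) / 2) := by omega
  have hq10 : (q - 1) / 2 ≠ 0 := by omega
  have key : padicValNat 2 ((q - 1) / 2) < padicValNat 2 (orderOf d) := by
    by_contra hlt
    rw [not_lt] at hlt
    apply hk3
    rw [← Nat.factorization_le_iff_dvd hk0 hq10]
    intro p
    by_cases hp : p.Prime
    · by_cases h2 : p = 2
      · subst h2
        rw [Nat.factorization_def _ hp, Nat.factorization_def _ hp]
        exact hlt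
      · have h1 := (Nat.factorization_le_iff_dvd hk0 (by omega : (q - 1) ≠ 0)).2 hk1 p
        rw [hq1, Nat.factorization_mul (by norm_num) hq10] at h1
        simp only [Finsupp.coe_add, Pi.add_apply] at h1
        rw [Nat.Prime.factorization Nat.prime_two] at h1
        rw [Finsupp.single_eq_of_ne (by exact h2)] at h1
        simpa using h1
    · rw [Nat.factorization_eq_zero_of_not_prime _ hp]
      exact Nat.zero_le _
  have h5 : padicValNat 2 (q - 1) = 1 + padicValNat 2 ((q - 1) / 2) := by
    conv_lhs => rw [hq1]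
    haveI : Fact (Nat.Prime 2) := ⟨Nat.prime_two⟩
    rw [padicValNat.mul (by norm_num) hq10]
    simp
  have h6 : padicValNat 2 (orderOf d) ≤ padicValNat 2 m :=
    (padicValNat_dvd_iff_le (by omega : m ≠ 0)).1 (dvd_trans (pow_padicValNat_dvd) hk2)
  omega

theorem result {F : Type*} [Field F] [Fintype F] {q : ℕ} (hF : Fintype.card F = q) (hq : Odd q) {m : ℕ} (hm : 1 ≤ m) (μ : F) (hμ : orderOf μ = 2 ^ padicValNat 2 (q - 1)) : (∃ c : F, c ≠ 0 ∧ (c • Matrix.blockDiagonal (fun _ : Fin m => !![(0 : F), 1; μ, 0])).det = 1) ↔ (q % 4 = 3 ∨ padicValNat 2 (q - 1) < padicValNat 2 (2 * m)) := by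
  haveI : Fact (Nat.Prime 2) := ⟨Nat.prime_two⟩
  have hq2 : 2 ≤ q := hF ▸ Fintype.one_lt_card
  have hchar : ringChar F ≠ 2 := by
    intro h4
    have := FiniteField.even_card_iff_char_two.1 h4
    rw [hF] at this
    rcases hq with ⟨r, hr⟩
    omega
  have hq3 : 3 ≤ q := by rcases hq with ⟨r, hr⟩; omega
  have hne : (-1 : F) ≠ 1 := Ring.neg_one_ne_one_of_char_ne_two hchar
  have hdet : ∀ c : F, (c • Matrix.blockDiagonal (fun _ : Fin m => !![(0 : F), 1; μ, 0])).det
      = c ^ (2 * m) * (-μ) ^ m := by
    intro c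
    rw [Matrix.det_smul, Matrix.det_blockDiagonal]
    simp [Matrix.det_fin_two]
  have h2m : padicValNat 2 (2 * m) = 1 + padicValNat 2 m := by
    rw [padicValNat.mul (by norm_num) (by omega)]
    simp
  have hspos : 1 ≤ padicValNat 2 (q - 1) := by
    apply one_le_padicValNat_of_dvd (by omega)
    rcases hq with ⟨r, hr⟩
    exact ⟨r, by omega⟩
  have hμ0 : μ ≠ 0 := by
    rintro rfl
    have := pow_orderOf_eq_one (0 : F)
    rw [hμ, zero_pow (by positivity)] at this
    exact zero_ne_one this
  simp only [hdet]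
  constructor
  · rintro ⟨c, hc0, hc⟩
    by_cases h3 : q % 4 = 3
    · exact Or.inl h3
    · right
      have h1 : q % 4 = 1 := by
        rcases hq with ⟨r, hr⟩; omega
      have h4 : (c ^ 2 * (-μ)) ^ m = 1 := by
        rw [mul_pow, ← pow_mul, hc]
      have hsqm : IsSquare (-1 : F) := by
        rw [FiniteField.isSquare_neg_one_iff, hF]
        omega
      have hns : ¬ IsSquare (c ^ 2 * (-μ)) := by
        rintro ⟨x, hx⟩
        obtain ⟨y, hy⟩ := hsqm
        -- μ is a square
        have hμs : μ = (x * c⁻¹ * y) ^ 2 := by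
          have : μ = (c⁻¹) ^ 2 * (c ^ 2 * (-μ)) * (-1) := by
            field_simp
          rw [this, hx]
          nth_rewrite 1 [hy]
          ring
        set z := x * c⁻¹ * y with hz
        have hz0 : z ≠ 0 := by
          intro h0
          rw [h0] at hμs
          apply hμ0
          rw [hμs]; ring
        have ho1 : orderOf z ∣ q - 1 := by
          apply orderOf_dvd_of_pow_eq_one
          rw [← hF]
          exact FiniteField.pow_card_sub_one_eq_one z hz0
        have ho2 : orderOf z = 2 ^ (padicValNat 2 (q - 1) + 1) := by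
          apply orderOf_eq_prime_pow
          · intro h
            have h5 : μ ^ (2 ^ (padicValNat 2 (q - 1) - 1)) = 1 := by
              rw [hμs, ← pow_mul, ← pow_succ', Nat.sub_add_cancel hspos]
              exact h
            have h6 := orderOf_dvd_of_pow_eq_one h5
            rw [hμ] at h6
            have h7 := (Nat.pow_dvd_pow_iff_le_right (by norm_num)).1 h6
            omega
          · rw [pow_succ', pow_mul, ← hμs, ← hμ, pow_orderOf_eq_one]
        rw [ho2] at ho1
        have := (padicValNat_dvd_iff_le (p := 2) (by omega : q - 1 ≠ 0)).1 ho1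
        omega
      have h5 := le_of_nonsquare hF hchar hm (d := c ^ 2 * (-μ))
        (mul_ne_zero (pow_ne_zero _ hc0) (neg_ne_zero.2 hμ0)) h4 hns
      omega
  · rintro (h | h)
    · have hs1 : padicValNat 2 (q - 1) = 1 := by
        by_contra hs
        have : 2 ≤ padicValNat 2 (q - 1) := by omega
        have := (padicValNat_dvd_iff_le (p := 2) (by omega : q - 1 ≠ 0)).2 this
        omega
      rw [hs1, pow_one] at hμ
      have h6 : μ = -1 := by
        have h7 : μ ^ 2 = 1 := by rw [← hμ, pow_orderOf_eq_one]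
        rcases sq_eq_one_iff.1 h7 with h8 | h8
        · rw [h8, orderOf_one] at hμ
          omega
        · exact h8
      refine ⟨1, one_ne_zero, ?_⟩
      rw [h6]; simp
    · refine ⟨1, one_ne_zero, ?_⟩
      have h7 : 2 ^ padicValNat 2 (q - 1) ∣ m :=
        (padicValNat_dvd_iff_le (p := 2) (by omega : m ≠ 0)).2 (by omega)
      have h8 : μ ^ m = 1 := by
        rw [← orderOf_dvd_iff_pow_eq_one, hμ]; exact h7
      have h9 : Even m := by
        apply even_iff_two_dvd.2
        exact dvd_trans (dvd_pow_self 2 (by omega)) h7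
      rw [neg_pow, h9.neg_one_pow, h8]; simp

end Cfsg.Agent.S2576
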