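import Cfsg.Statements.S2583
import Cfsg.Agent.H174.JordanClass
set_option linter.all false

set_option autoImplicit false
open Cfsg

namespace Cfsg.Agent.S2583

/-- Which unipotent Jordan types occur in a finite orthogonal group in odd characteristic: over a finite field of odd order, a unipotent matrix with Jordan block sizes d_1, …, d_t (sum n, all at least 1) is similar to an isometry of some quadratic form on F^n with non-degenerate polar form if and only if every even block size occurs an even number of times. -/
theorem result {F : Type*} [Field F] [Fintype F] (h2 : (2 : F) ≠ 0) {n t : ℕ} (d : Fin t → ℕ) (hd : ∀ k, 1 ≤ d k) (hsum : ∑ k, d k = n) : (∃ Q : QuadraticForm F (Fin n → F), (QuadraticMap.polarBilin Q).Nondegenerate ∧ ∃ e : ((k : Fin t) × Fin (d k)) ≃ Fin n, ∃ A : ↥(Cfsg.isometryGroup F ⇑Q), IsConj (Matrix.reindex e e (Cfsg.jordanTypeMatrix d F)) ((A : Matrix.GeneralLinearGroup (Fin n) F) : Matrix (Fin n) (Fin n) F)) ↔ ∀ j : ℕ, Even j → 0 < j → Even (Finset.univ.filter (fun k : Fin t => d k = j)).card := by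
  constructor
  · rintro ⟨Q, hQ, e, A, h⟩ j hj hj0
    have hA : ∀ x, Q (((A : Matrix.GeneralLinearGroup (Fin n) F) : Matrix (Fin n) (Fin n) F).mulVec x) = Q x :=
      fun x => A.2 x x
    refine H174.even_orth e (Units.isUnit _) h (B := QuadraticMap.polarBilin Q) ?_ hQ ?_ h2 j hj0 hj
    · intro x y
      simp only [QuadraticMap.polarBilin_apply_apply, QuadraticMap.polar]
      rw [← Matrix.mulVec_add, hA, hA, hA]
    · intro x y
      simp only [QuadraticMap.polarBilin_apply_apply]
      exact QuadraticMap.polar_comm _ _ _
  · intro h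
    exact H174.exists_quadratic d hsum (H174.realized_orth F h2 d hd h)

end Cfsg.Agent.S2583
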