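import Cfsg.Statements.S2584
import Cfsg.Agent.H174.JordanClass
set_option linter.all false

set_option autoImplicit false
open Cfsg

namespace Cfsg.Agent.S2584

/-- Which unipotent Jordan types occur in a finite orthogonal group in characteristic two: over a finite field of characteristic 2 and in even dimension 2m, a unipotent matrix with Jordan block sizes d_1, …, d_t (sum 2m, all at least 1) is similar to an isometry of some quadratic form on F^(2m) with non-degenerate polar form if and only if every odd block size occurs an even number of times (the same condition as for the symplectic group, which contains these orthogonal groups). -/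
theorem result {F : Type*} [Field F] [Fintype F] [CharP F 2] {m t : ℕ} (d : Fin t → ℕ) (hd : ∀ k, 1 ≤ d k) (hsum : ∑ k, d k = 2 * m) : (∃ Q : QuadraticForm F (Fin (2 * m) → F), (QuadraticMap.polarBilin Q).Nondegenerate ∧ ∃ e : ((k : Fin t) × Fin (d k)) ≃ Fin (2 * m), ∃ A : ↥(Cfsg.isometryGroup F ⇑Q), IsConj (Matrix.reindex e e (Cfsg.jordanTypeMatrix d F)) ((A : Matrix.GeneralLinearGroup (Fin (2 * m)) F) : Matrix (Fin (2 * m)) (Fin (2 * m)) F)) ↔ ∀ j : ℕ, Odd j → Even (Finset.univ.filter (fun k : Fin t => d k = j)).card := by
  have h2 : (2 : F) = 0 := CharTwo.two_eq_zero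
  constructor
  · rintro ⟨Q, hQ, e, A, h⟩ j hj
    have hA : ∀ x, Q (((A : Matrix.GeneralLinearGroup (Fin (2 * m)) F) :
        Matrix (Fin (2 * m)) (Fin (2 * m)) F).mulVec x) = Q x :=
      fun x => A.2 x x
    refine H174.even_symp e (Units.isUnit _) h (B := QuadraticMap.polarBilin Q) ?_ hQ ?_ j hj
    · intro x y
      simp only [QuadraticMap.polarBilin_apply_apply, QuadraticMap.polar]
      rw [← Matrix.mulVec_add, hA, hA, hA]
    · intro x
      simp only [QuadraticMap.polarBilin_apply_apply, QuadraticMap.polar_self]
      rw [two_smul, ← two_mul, h2, zero_mul]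
  · intro h
    exact H174.exists_quadratic d hsum (H174.realized_char_two F h2 d hd h)

end Cfsg.Agent.S2584
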