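import Cfsg.Statements.S2590
import Cfsg.Agent.H193.OrthConj
set_option linter.all false

set_option autoImplicit false
open Cfsg

namespace Cfsg.Agent.S2590

/-- Two semisimple elements of odd order of a finite orthogonal group (isometry group of a quadratic form on F^n with non-degenerate polar form, F finite of characteristic p; the elements have odd order prime to p) are conjugate in the orthogonal group if and only if they are conjugate in GL_n(F). -/
theorem result {F : Type*} [Field F] [Fintype F] {p : ℕ} [Fact p.Prime] [CharP F p] {n : ℕ} (Q : QuadraticForm F (Fin n → F)) (hQ : (QuadraticMap.polarBilin Q).Nondegenerate) (A B : ↥(Cfsg.isometryGroup F ⇑Q)) (hodd : Odd (orderOf A)) (hA : (orderOf A).Coprime p) : IsConj A B ↔ IsConj ((A : Matrix.GeneralLinearGroup (Fin n) F) : Matrix (Fin n) (Fin n) F) ((B : Matrix.GeneralLinearGroup (Fin n) F) : Matrix (Fin n) (Fin n) F) := by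
  have hNF : ((orderOf A : ℕ) : F) ≠ 0 := by
    rw [Ne, CharP.cast_eq_zero_iff F p]
    exact (Nat.Prime.coprime_iff_not_dvd Fact.out).1 hA.symm
  refine ⟨fun h => ?_, fun h => ?_⟩
  · exact MonoidHom.map_isConj (Units.coeHom (Matrix (Fin n) (Fin n) F))
      (MonoidHom.map_isConj (Cfsg.isometryGroup F ⇑Q).subtype h)
  · refine (Cfsg.Agent.H193.OrthConj.isConj_iff Q hQ A B hodd hNF (pow_orderOf_eq_one A) ?_).2 h
    obtain ⟨c, hc⟩ := h
    have h1 := hc.pow_right (orderOf A)
    apply Subtype.ext
    apply Units.ext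
    have h2 : ((A : GL (Fin n) F) : Matrix (Fin n) (Fin n) F) ^ orderOf A = 1 := by
      rw [← Units.val_pow_eq_pow_val, ← Subgroup.coe_pow, pow_orderOf_eq_one]
      rfl
    rw [h2] at h1
    have h4 : ((B : GL (Fin n) F) : Matrix (Fin n) (Fin n) F) ^ orderOf A * (c : Matrix (Fin n) (Fin n) F) = c := by
      rw [← h1.eq, mul_one]
    have h5 : ((B : GL (Fin n) F) : Matrix (Fin n) (Fin n) F) ^ orderOf A = 1 :=
      c.isUnit.mul_right_cancel (by rw [h4, one_mul])
    rw [← Units.val_pow_eq_pow_val, ← Subgroup.coe_pow] at h5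
    exact h5

end Cfsg.Agent.S2590
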