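import Mathlib
import Cfsg.Agent.S0749
import Cfsg.Agent.S0752
import Cfsg.Agent.H176.SymmCharTwo
import Cfsg.Statements.S2593
import Cfsg.Agent.ClassicalGeometry.SympBasic
import Cfsg.Agent.LieClassical.SympCenter
set_option linter.all false

-- part: H176/SqZeroAlt
section
set_option autoImplicit false

/-!
Characteristic two: self-adjoint maps `a` of square zero of a non-degenerate alternating space `(V, f)`
(`1 + a` is an isometry of order two). Up to isometry `a` is determined by its rank and by whether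
`f v (a v)` vanishes identically.

* `exists_family_nonalt`, `exists_family_alt`: normal form of the symmetric form `f v (a w)`;
* `adjust`: the vectors of the family may be chosen mutually orthogonal;
* `exists_isometry`: two maps with the same Gram matrix are conjugate under an isometry;
* `exists_conj`: the classification.
-/

namespace Cfsg.Agent.H176.SqZeroAlt

open Module

section
variable {F V : Type*} [Field F] [AddCommGroup V] [Module F V]
  (f : LinearMap.BilinForm F V) (a : V →ₗ[F] V)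

/-- The form `f v (a w)` on a complement `W` of `ker a`. -/
def form (W : Submodule F V) : LinearMap.BilinForm F W :=
  (f.compRight a).restrict W

theorem form_apply (W : Submodule F V) (u v : W) : form f a W u v = f u (a v) := rfl

variable {f a}

theorem symm_of [CharP F 2] (hA : f.IsAlt) (u v : V) : f u v = f v u := by
  have h := LinearMap.IsAlt.neg hA u v
  rw [CharTwo.neg_eq] at h
  exact h

theorem form_isSymm [CharP F 2] (hA : f.IsAlt) (had : ∀ x y, f (a x) y = f x (a y))
    (W : Submodule F V) : (form f a W).IsSymm := by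
  refine ⟨fun u v => ?_⟩
  rw [form_apply, form_apply, ← had, symm_of hA]

theorem form_nondegenerate [CharP F 2] (hA : f.IsAlt) (hf : f.Nondegenerate)
    (had : ∀ x y, f (a x) y = f x (a y)) {W : Submodule F V}
    (hW : IsCompl W (LinearMap.ker a)) [FiniteDimensional F V] : (form f a W).Nondegenerate := by
  have key : ∀ u : W, (∀ v : W, form f a W u v = 0) → u = 0 := by
    intro u hu
    have h1 : ∀ v : V, f u (a v) = 0 := by
      intro v
      have hv : v ∈ W ⊔ LinearMap.ker a := by rw [hW.sup_eq_top]; trivial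
      obtain ⟨w, hw, k, hk, rfl⟩ := Submodule.mem_sup.1 hv
      rw [map_add, LinearMap.mem_ker.1 hk, add_zero]
      exact hu ⟨w, hw⟩
    have h2 : a u = 0 := by
      apply hf.1
      intro v
      rw [had]
      exact h1 v
    have h3 : (u : V) ∈ W ⊓ LinearMap.ker a := ⟨u.2, h2⟩
    rw [hW.inf_eq_bot] at h3
    exact Subtype.ext ((Submodule.mem_bot F).1 h3)
  refine ⟨key, ?_⟩
  intro v hv
  apply key
  intro u
  rw [form_apply, ← had, symm_of hA, ← form_apply f a W]
  exact hv u

theorem finrank_compl [FiniteDimensional F V] {W : Submodule F V}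
    (hW : IsCompl W (LinearMap.ker a)) : finrank F W = finrank F (LinearMap.range a) := by
  have h1 := LinearMap.finrank_range_add_finrank_ker a
  have h2 := Submodule.finrank_add_eq_of_isCompl hW
  omega

/-- Non-alternating case. -/
theorem exists_family_nonalt [CharP F 2] (hsq : ∀ c : F, ∃ d : F, d * d = c) (hA : f.IsAlt)
    (hf : f.Nondegenerate) (had : ∀ x y, f (a x) y = f x (a y)) [FiniteDimensional F V]
    {s : ℕ} (hs : finrank F (LinearMap.range a) = s) (hna : ∃ v, f v (a v) ≠ 0) :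
    ∃ x : Fin s → V, ∀ i j, f (x i) (a (x j)) = (1 : Matrix (Fin s) (Fin s) F) i j := by
  obtain ⟨W, hW⟩ := Submodule.exists_isCompl (LinearMap.ker a)
  have hna' : ∃ v : W, form f a W v v ≠ 0 := by
    obtain ⟨v, hv⟩ := hna
    have hv' : v ∈ W ⊔ LinearMap.ker a := by rw [hW.symm.sup_eq_top]; trivial
    obtain ⟨w, hw, k, hk, rfl⟩ := Submodule.mem_sup.1 hv'
    refine ⟨⟨w, hw⟩, ?_⟩
    rw [form_apply]
    have hk' := LinearMap.mem_ker.1 hk
    rw [map_add a, hk', add_zero, map_add, LinearMap.add_apply, ← had k, hk',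
      map_zero, LinearMap.zero_apply, add_zero] at hv
    exact hv
  obtain ⟨b, hb⟩ := SymmCharTwo.exists_orthonormal_basis hsq
    ((finrank_compl hW.symm).trans hs) (form f a W) (form_isSymm hA had W)
    (form_nondegenerate hA hf had hW.symm) hna'
  refine ⟨fun i => b i, fun i j => ?_⟩
  have := hb i j
  rw [form_apply] at this
  rw [this, Matrix.one_apply]

/-- Alternating case. -/
theorem exists_family_alt [CharP F 2] (hA : f.IsAlt)
    (hf : f.Nondegenerate) (had : ∀ x y, f (a x) y = f x (a y)) [FiniteDimensional F V]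
    (halt : ∀ v, f v (a v) = 0) :
    ∃ k : ℕ, finrank F (LinearMap.range a) = k + k ∧
      ∃ x : Fin k ⊕ Fin k → V, ∀ i j, f (x i) (a (x j)) = Matrix.J (Fin k) F i j := by
  obtain ⟨W, hW⟩ := Submodule.exists_isCompl (LinearMap.ker a)
  obtain ⟨m, k, b, h1, h2, h3, h4⟩ := Cfsg.Agent.S0752.result (form f a W)
    (fun v => by rw [form_apply]; exact halt v)
  have hnd := form_nondegenerate hA hf had hW.symm
  have hk : k = 0 := by
    by_contra hk
    have h5 := hnd.1 (b (Sum.inr ⟨0, Nat.pos_of_ne_zero hk⟩)) (h4 _)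
    exact b.ne_zero _ h5
  subst hk
  refine ⟨m, ?_, fun i => b (Sum.inl i), ?_⟩
  · rw [← finrank_compl hW.symm, finrank_eq_card_basis b]
    simp
  · have hsym := form_isSymm hA had W
    have hneg : ∀ c : F, -c = c := fun c => CharTwo.neg_eq c
    rintro (i | i) (j | j)
    · have := h2 i j
      rw [form_apply] at this
      rw [this, Matrix.J, Matrix.fromBlocks_apply₁₁]
      rfl
    · have := h1 i j
      rw [form_apply] at this
      rw [this, Matrix.J, Matrix.fromBlocks_apply₁₂, Matrix.neg_apply, hneg, Matrix.one_apply]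
    · have := h1 j i
      rw [← hsym.eq, form_apply] at this
      rw [this, Matrix.J, Matrix.fromBlocks_apply₂₁, Matrix.one_apply]
      simp only [eq_comm]
    · have := h3 i j
      rw [form_apply] at this
      rw [this, Matrix.J, Matrix.fromBlocks_apply₂₂]
      rfl

/-- The vectors may be chosen mutually orthogonal. -/
theorem adjust [CharP F 2] (hA : f.IsAlt)
    (had : ∀ x y, f (a x) y = f x (a y)) (haa : ∀ x, a (a x) = 0)
    {ι : Type*} [Fintype ι] [DecidableEq ι] (M : Matrix ι ι F) (hM : IsUnit M.det)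
    (x : ι → V) (hx : ∀ i j, f (x i) (a (x j)) = M i j) :
    ∃ x' : ι → V, (∀ i, a (x' i) = a (x i)) ∧ (∀ i j, f (x' i) (x' j) = 0) ∧
      (∀ i j, f (x' i) (a (x' j)) = M i j) := by
  classical
  have hsym := symm_of (f := f) hA
  have hMs : ∀ i j, M i j = M j i := fun i j => by
    rw [← hx, ← hx, ← had, hsym]
  let e := Fintype.equivFin ι
  let d : Matrix ι ι F := fun i j => if e i < e j then f (x i) (x j) else 0
  let c := d * M⁻¹
  have hcM : c * M = d := by
    rw [Matrix.mul_assoc, Matrix.nonsing_inv_mul _ hM, Matrix.mul_one]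
  have hzero : ∀ i j, f (a (x i)) (a (x j)) = 0 := fun i j => by
    rw [had, haa, map_zero]
  let x' : ι → V := fun i => x i + ∑ k, c i k • a (x k)
  have hax' : ∀ i, a (x' i) = a (x i) := by
    intro i
    simp only [x', map_add, map_sum, map_smul, haa, smul_zero, Finset.sum_const_zero, add_zero]
  have h1 : ∀ i j, f (x i) (∑ k, c j k • a (x k)) = d j i := by
    intro i j
    rw [map_sum, ← hcM, Matrix.mul_apply]
    refine Finset.sum_congr rfl fun k _ => ?_
    rw [map_smul, smul_eq_mul, hx, hMs]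
  have h2 : ∀ i j, f (∑ k, c i k • a (x k)) (∑ k, c j k • a (x k)) = 0 := by
    intro i j
    rw [map_sum]
    refine Finset.sum_eq_zero fun k _ => ?_
    rw [map_smul, map_sum, LinearMap.sum_apply]
    rw [Finset.sum_eq_zero (fun l _ => by
      rw [map_smul, LinearMap.smul_apply, hzero, smul_zero]), smul_zero]
  refine ⟨x', hax', ?_, ?_⟩
  · intro i j
    simp only [x', map_add, LinearMap.add_apply]
    rw [h1, h2, hsym (∑ k, c i k • a (x k)) (x j), h1]
    have h2' : ∀ z : F, z + z = 0 := fun z => CharTwo.add_self_eq_zero z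
    rcases lt_trichotomy (e i) (e j) with h | h | h
    · have h' : ¬ e j < e i := h.asymm
      simp only [d, if_pos h, if_neg h', add_zero]
      exact h2' _
    · have hij := e.injective h
      subst hij
      simp only [d, lt_irrefl, if_false, add_zero]
      exact hA _
    · have h' : ¬ e i < e j := h.asymm
      simp only [d, if_pos h, if_neg h', add_zero]
      rw [hsym (x j) (x i)]
      exact h2' _
  · intro i j
    rw [hax' j, ← had, hax' i, had, hx]

/-- Linear independence from the Gram matrix. -/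
theorem linearIndependent_of_gram
    (had : ∀ x y, f (a x) y = f x (a y)) (haa : ∀ x, a (a x) = 0)
    {ι : Type*} [Fintype ι] [DecidableEq ι] (M : Matrix ι ι F) (hM : IsUnit M.det)
    (x : ι → V) (hx : ∀ i j, f (x i) (a (x j)) = M i j) :
    LinearIndependent F (Sum.elim x (fun i => a (x i))) := by
  have key : ∀ c : ι → F, (∀ j, ∑ i, c i * M i j = 0) → ∀ i, c i = 0 := by
    intro c hc i
    have h1 : Matrix.vecMul c M = 0 := by
      funext j
      exact hc j
    have h2 : c = Matrix.vecMul (Matrix.vecMul c M) M⁻¹ := by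
      rw [Matrix.vecMul_vecMul, Matrix.mul_nonsing_inv _ hM, Matrix.vecMul_one]
    rw [h2, h1, Matrix.zero_vecMul]
    rfl
  rw [Fintype.linearIndependent_iff]
  intro g hg
  rw [Fintype.sum_sum_type] at hg
  simp only [Sum.elim_inl, Sum.elim_inr] at hg
  have h1 : ∀ i, g (Sum.inl i) = 0 := by
    apply key
    intro j
    have h2 := congrArg (fun v => f v (a (x j))) hg
    simp only [map_add, map_sum, map_smul, LinearMap.add_apply, LinearMap.sum_apply,
      LinearMap.smul_apply, smul_eq_mul, map_zero, LinearMap.zero_apply] at h2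
    rw [Finset.sum_eq_zero (s := Finset.univ) (f := fun i => g (Sum.inr i) * (f (a (x i))) (a (x j)))
      (fun i _ => by rw [had, haa, map_zero, mul_zero]), add_zero] at h2
    rw [← h2]
    exact Finset.sum_congr rfl fun i _ => by rw [hx]
  have h3 : ∀ i, g (Sum.inr i) = 0 := by
    apply key
    intro j
    rw [Finset.sum_eq_zero (fun i _ => by rw [h1 i, zero_smul]), zero_add] at hg
    have h2 := congrArg (fun v => f v (x j)) hg
    simp only [map_sum, map_smul, LinearMap.sum_apply,
      LinearMap.smul_apply, smul_eq_mul, map_zero, LinearMap.zero_apply] at h2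
    rw [← h2]
    exact Finset.sum_congr rfl fun i _ => by rw [had, hx]
  rintro (i | i)
  · exact h1 i
  · exact h3 i

/-- Two maps with the same Gram matrix are conjugate under an isometry. -/
theorem exists_isometry [FiniteDimensional F V] (hA : f.IsAlt) (hf : f.Nondegenerate)
    {a' : V →ₗ[F] V}
    (had : ∀ x y, f (a x) y = f x (a y)) (haa : ∀ x, a (a x) = 0)
    (had' : ∀ x y, f (a' x) y = f x (a' y)) (haa' : ∀ x, a' (a' x) = 0)
    {ι : Type*} [Fintype ι] [DecidableEq ι] (M : Matrix ι ι F) (hM : IsUnit M.det)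
    (x x' : ι → V) (hx : ∀ i j, f (x i) (a (x j)) = M i j)
    (hx' : ∀ i j, f (x' i) (a' (x' j)) = M i j)
    (h0 : ∀ i j, f (x i) (x j) = 0) (h0' : ∀ i j, f (x' i) (x' j) = 0)
    (hr : finrank F (LinearMap.range a) = Fintype.card ι)
    (hr' : finrank F (LinearMap.range a') = Fintype.card ι) :
    ∃ g : V ≃ₗ[F] V, (∀ u v, f (g u) (g v) = f u v) ∧ ∀ v, g (a v) = a' (g v) := by
  classical
  have hli := linearIndependent_of_gram had haa M hM x hx
  have hli' := linearIndependent_of_gram had' haa' M hM x' hx'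
  set z := Sum.elim x (fun i => a (x i)) with hz
  set z' := Sum.elim x' (fun i => a' (x' i)) with hz'
  let b := Basis.span hli
  let b' := Basis.span hli'
  let φ := b.equiv b' (Equiv.refl _)
  have hb : ∀ i, (b i : V) = z i := fun i => congrArg Subtype.val (Basis.span_apply hli i)
  have hb' : ∀ i, (b' i : V) = z' i := fun i => congrArg Subtype.val (Basis.span_apply hli' i)
  have hφ : ∀ i, (φ (b i) : V) = z' i := by
    intro i
    rw [Basis.equiv_apply, Equiv.refl_apply, hb']
  have hgram : ∀ i j, f (z i) (z j) = f (z' i) (z' j) := by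
    rintro (i | i) (j | j)
    · simp only [hz, hz', Sum.elim_inl]
      rw [h0, h0']
    · simp only [hz, hz', Sum.elim_inl, Sum.elim_inr]
      rw [hx, hx']
    · simp only [hz, hz', Sum.elim_inl, Sum.elim_inr]
      rw [had, had', hx, hx']
    · simp only [hz, hz', Sum.elim_inr]
      rw [had, had', haa, haa', map_zero, map_zero]
  have hiso : ∀ u v : Submodule.span F (Set.range z), f (φ u : V) (φ v : V) = f (u : V) (v : V) := by
    let B1 : LinearMap.BilinForm F (Submodule.span F (Set.range z)) :=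
      f.compl₁₂ ((Submodule.subtype _) ∘ₗ φ.toLinearMap) ((Submodule.subtype _) ∘ₗ φ.toLinearMap)
    let B2 : LinearMap.BilinForm F (Submodule.span F (Set.range z)) :=
      f.compl₁₂ (Submodule.subtype _) (Submodule.subtype _)
    have hB : B1 = B2 := by
      refine b.ext fun i => b.ext fun j => ?_
      change f (φ (b i) : V) (φ (b j) : V) = f (b i : V) (b j : V)
      rw [hφ, hφ, hb, hb, hgram]
    intro u v
    exact congrArg (fun B : LinearMap.BilinForm F (Submodule.span F (Set.range z)) => B u v) hB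
  obtain ⟨g, hg, hgφ⟩ := Cfsg.Agent.S0749.result f hf hA _ _ φ hiso
  have hgz : ∀ i, g (z i) = z' i := by
    intro i
    rw [← hb, hgφ, hφ]
  have hgx : ∀ i, g (x i) = x' i := fun i => hgz (Sum.inl i)
  have hgax : ∀ i, g (a (x i)) = a' (x' i) := fun i => hgz (Sum.inr i)
  refine ⟨g, hg, ?_⟩
  -- `range a'` is spanned by the `a' (x' i)`
  have hspan' : LinearMap.range a' = Submodule.span F (Set.range fun i => a' (x' i)) := by
    have hli2 : LinearIndependent F (fun i => a' (x' i)) :=
      hli'.comp Sum.inr Sum.inr_injective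
    symm
    apply Submodule.eq_of_le_of_finrank_eq
    · rw [Submodule.span_le]
      rintro _ ⟨i, rfl⟩
      exact ⟨_, rfl⟩
    · rw [finrank_span_eq_card hli2, hr']
  have hspan : LinearMap.range a = Submodule.span F (Set.range fun i => a (x i)) := by
    have hli2 : LinearIndependent F (fun i => a (x i)) :=
      hli.comp Sum.inr Sum.inr_injective
    symm
    apply Submodule.eq_of_le_of_finrank_eq
    · rw [Submodule.span_le]
      rintro _ ⟨i, rfl⟩
      exact ⟨_, rfl⟩
    · rw [finrank_span_eq_card hli2, hr]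
  intro v
  -- write `a v = ∑ c i a (x i)`; then `v - ∑ c i x i ∈ ker a`
  have hav : a v ∈ Submodule.span F (Set.range fun i => a (x i)) := by
    rw [← hspan]; exact ⟨v, rfl⟩
  obtain ⟨c, hc⟩ := (Submodule.mem_span_range_iff_exists_fun F).1 hav
  set w := ∑ i, c i • x i with hw
  have haw : a w = a v := by
    rw [hw, map_sum, ← hc]
    exact Finset.sum_congr rfl fun i _ => by rw [map_smul]
  have hgw : g (a w) = a' (g w) := by
    rw [hw]
    simp only [map_sum, map_smul, hgax, hgx]
  have hk : a (v - w) = 0 := by rw [map_sub, haw, sub_self]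
  have hk' : a' (g (v - w)) = 0 := by
    apply hf.1
    intro y
    rw [had']
    have hy : a' y ∈ Submodule.span F (Set.range fun i => a' (x' i)) := by
      rw [← hspan']; exact ⟨y, rfl⟩
    obtain ⟨c', hc'⟩ := (Submodule.mem_span_range_iff_exists_fun F).1 hy
    rw [← hc', map_sum]
    refine Finset.sum_eq_zero fun i _ => ?_
    rw [map_smul, ← hgax, hg, ← had, hk, map_zero, LinearMap.zero_apply, smul_zero]
  have hvw : v = w + (v - w) := by abel
  rw [← haw, hgw]
  conv_rhs => rw [hvw, map_add, map_add, hk', add_zero]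

/-- **Classification.** Self-adjoint maps of square zero with the same rank and the same type are
conjugate under an isometry. -/
theorem exists_conj [CharP F 2] (hsq : ∀ c : F, ∃ d : F, d * d = c) [FiniteDimensional F V]
    (hA : f.IsAlt) (hf : f.Nondegenerate) {a' : V →ₗ[F] V}
    (had : ∀ x y, f (a x) y = f x (a y)) (haa : ∀ x, a (a x) = 0)
    (had' : ∀ x y, f (a' x) y = f x (a' y)) (haa' : ∀ x, a' (a' x) = 0)
    (hr : finrank F (LinearMap.range a) = finrank F (LinearMap.range a'))
    (ht : (∀ v, f v (a v) = 0) ↔ (∀ v, f v (a' v) = 0)) :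
    ∃ g : V ≃ₗ[F] V, (∀ u v, f (g u) (g v) = f u v) ∧ ∀ v, g (a v) = a' (g v) := by
  classical
  by_cases h : ∀ v, f v (a v) = 0
  · have h' := ht.1 h
    obtain ⟨k, hk, x, hx⟩ := exists_family_alt hA hf had h
    obtain ⟨k', hk', x', hx'⟩ := exists_family_alt hA hf had' h'
    have hkk : k' = k := by omega
    subst hkk
    have hJ : IsUnit (Matrix.J (Fin k') F).det := Matrix.isUnit_det_J _ _
    obtain ⟨y, -, hy1, hy2⟩ := adjust hA had haa _ hJ x hx
    obtain ⟨y', -, hy1', hy2'⟩ := adjust hA had' haa' _ hJ x' hx'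
    exact exists_isometry hA hf had haa had' haa' _ hJ y y' hy2 hy2' hy1 hy1'
      (by rw [hk]; simp) (by rw [hk']; simp)
  · have h' : ¬ ∀ v, f v (a' v) = 0 := fun h2 => h (ht.2 h2)
    push Not at h h'
    obtain ⟨x, hx⟩ := exists_family_nonalt hsq hA hf had rfl h
    obtain ⟨x', hx'⟩ := exists_family_nonalt hsq hA hf had' hr.symm h'
    have h1 : IsUnit (1 : Matrix (Fin (finrank F (LinearMap.range a)))
      (Fin (finrank F (LinearMap.range a))) F).det := by
      rw [Matrix.det_one]; exact isUnit_one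
    obtain ⟨y, -, hy1, hy2⟩ := adjust hA had haa _ h1 x hx
    obtain ⟨y', -, hy1', hy2'⟩ := adjust hA had' haa' _ h1 x' hx'
    exact exists_isometry hA hf had haa had' haa' _ h1 y y' hy2 hy2' hy1 hy1'
      (by simp) (by rw [← hr]; simp)

end

end Cfsg.Agent.H176.SqZeroAlt
end

-- part: S2593
section
set_option autoImplicit false
open Cfsg

namespace Cfsg.Agent.S2593

open Cfsg.Agent.ClassicalGeometry.SympBasic Matrix

section
variable {F : Type*} [Field F] {m : ℕ}

theorem ext_mulVec {A B : Matrix.symplecticGroup (Fin m) F}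
    (h : ∀ x, (A : Matrix (Fin m ⊕ Fin m) (Fin m ⊕ Fin m) F) *ᵥ x =
      (B : Matrix (Fin m ⊕ Fin m) (Fin m ⊕ Fin m) F) *ᵥ x) : A = B := by
  apply Subtype.ext
  exact Matrix.mulVec_injective (funext h)

/-- `g - 1` as a linear map. -/
noncomputable def nil (g : Matrix.symplecticGroup (Fin m) F) :
    (Fin m ⊕ Fin m → F) →ₗ[F] (Fin m ⊕ Fin m → F) :=
  ((g : Matrix (Fin m ⊕ Fin m) (Fin m ⊕ Fin m) F) - 1).mulVecLin

theorem nil_apply (g : Matrix.symplecticGroup (Fin m) F) (x : Fin m ⊕ Fin m → F) :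
    nil g x = (g : Matrix (Fin m ⊕ Fin m) (Fin m ⊕ Fin m) F) *ᵥ x - x := by
  rw [nil, Matrix.mulVecLin_apply, Matrix.sub_mulVec, Matrix.one_mulVec]

theorem mul_mulVec_of_sq {g : Matrix.symplecticGroup (Fin m) F} (hg : g * g = 1)
    (x : Fin m ⊕ Fin m → F) : (g : Matrix (Fin m ⊕ Fin m) (Fin m ⊕ Fin m) F) *ᵥ
      ((g : Matrix (Fin m ⊕ Fin m) (Fin m ⊕ Fin m) F) *ᵥ x) = x := by
  rw [← coe_mul_mulVec, hg, OneMemClass.coe_one, Matrix.one_mulVec]

theorem nil_nil [CharP F 2] {g : Matrix.symplecticGroup (Fin m) F} (hg : g * g = 1)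
    (x : Fin m ⊕ Fin m → F) : nil g (nil g x) = 0 := by
  rw [nil_apply, nil_apply, Matrix.mulVec_sub, mul_mulVec_of_sq hg]
  have h2 : ∀ v : Fin m ⊕ Fin m → F, v + v = 0 := fun v => by
    funext i
    exact CharTwo.add_self_eq_zero (v i)
  have h3 : x - (g : Matrix (Fin m ⊕ Fin m) (Fin m ⊕ Fin m) F) *ᵥ x -
      ((g : Matrix (Fin m ⊕ Fin m) (Fin m ⊕ Fin m) F) *ᵥ x - x) = (x + x) -
      ((g : Matrix (Fin m ⊕ Fin m) (Fin m ⊕ Fin m) F) *ᵥ x +
       (g : Matrix (Fin m ⊕ Fin m) (Fin m ⊕ Fin m) F) *ᵥ x) := by abel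
  rw [h3, h2, h2, sub_zero]

theorem sympBilin_nil {g : Matrix.symplecticGroup (Fin m) F} (hg : g * g = 1)
    (x y : Fin m ⊕ Fin m → F) : sympBilin m F (nil g x) y = sympBilin m F x (nil g y) := by
  rw [sympBilin_apply, sympBilin_apply, nil_apply, nil_apply, sympForm_sub_left,
    sympForm_sub_right]
  congr 1
  conv_lhs => rw [← mul_mulVec_of_sq hg y]
  rw [sympForm_mulVec g.2]

/-- Conjugacy from an isometry. -/
theorem isConj_of_isometry {g g' : Matrix.symplecticGroup (Fin m) F}
    (h : ∃ e : (Fin m ⊕ Fin m → F) ≃ₗ[F] (Fin m ⊕ Fin m → F),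
      (∀ u v, sympBilin m F (e u) (e v) = sympBilin m F u v) ∧ ∀ v, e (nil g v) = nil g' (e v)) :
    IsConj g g' := by
  obtain ⟨e, he, hn⟩ := h
  have hmem : LinearMap.toMatrix' e.toLinearMap ∈ Matrix.symplecticGroup (Fin m) F := by
    rw [mem_symplecticGroup_iff]
    intro u v
    rw [LinearMap.toMatrix'_mulVec, LinearMap.toMatrix'_mulVec]
    exact he u v
  rw [isConj_iff]
  refine ⟨⟨_, hmem⟩, ?_⟩
  rw [mul_inv_eq_iff_eq_mul]
  apply ext_mulVec
  intro x
  rw [coe_mul_mulVec, coe_mul_mulVec]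
  change LinearMap.toMatrix' e.toLinearMap *ᵥ _ = _ *ᵥ (LinearMap.toMatrix' e.toLinearMap *ᵥ x)
  rw [LinearMap.toMatrix'_mulVec, LinearMap.toMatrix'_mulVec]
  have h1 := hn x
  rw [nil_apply, nil_apply, map_sub] at h1
  exact sub_left_injective h1

/-- The type of an involution: is `f(v, g v)` identically zero? -/
def Alt (g : Matrix.symplecticGroup (Fin m) F) : Prop :=
  ∀ v, sympForm m F v (nil g v) = 0

theorem bilin_isAlt : LinearMap.BilinForm.IsAlt (sympBilin m F) :=
  fun v => sympBilin_isAlt v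

theorem isConj_of [Finite F] [CharP F 2] {g g' : Matrix.symplecticGroup (Fin m) F}
    (hg : g * g = 1) (hg' : g' * g' = 1)
    (hr : ((g : Matrix (Fin m ⊕ Fin m) (Fin m ⊕ Fin m) F) - 1).rank =
      ((g' : Matrix (Fin m ⊕ Fin m) (Fin m ⊕ Fin m) F) - 1).rank) (ht : Alt g ↔ Alt g') :
    IsConj g g' :=
  isConj_of_isometry (H176.SqZeroAlt.exists_conj H176.SymmCharTwo.exists_sq
    bilin_isAlt sympBilin_nondegenerate (sympBilin_nil hg) (nil_nil hg)
    (sympBilin_nil hg') (nil_nil hg') hr ht)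

theorem rank_eq_of_isConj {g g' : Matrix.symplecticGroup (Fin m) F} (h : IsConj g g') :
    ((g : Matrix (Fin m ⊕ Fin m) (Fin m ⊕ Fin m) F) - 1).rank =
      ((g' : Matrix (Fin m ⊕ Fin m) (Fin m ⊕ Fin m) F) - 1).rank := by
  obtain ⟨c, hc⟩ := isConj_iff.1 h
  have h1 : (g' : Matrix (Fin m ⊕ Fin m) (Fin m ⊕ Fin m) F) - 1 =
      (c : Matrix (Fin m ⊕ Fin m) (Fin m ⊕ Fin m) F) *
      ((g : Matrix (Fin m ⊕ Fin m) (Fin m ⊕ Fin m) F) - 1) *
      ((c⁻¹ : Matrix.symplecticGroup (Fin m) F) : Matrix (Fin m ⊕ Fin m) (Fin m ⊕ Fin m) F) := by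
    rw [← hc, mul_sub, sub_mul, mul_one, Submonoid.coe_mul, Submonoid.coe_mul]
    congr 1
    rw [← Submonoid.coe_mul, mul_inv_cancel, OneMemClass.coe_one]
  have h2 : (g : Matrix (Fin m ⊕ Fin m) (Fin m ⊕ Fin m) F) - 1 =
      ((c⁻¹ : Matrix.symplecticGroup (Fin m) F) : Matrix (Fin m ⊕ Fin m) (Fin m ⊕ Fin m) F) *
      ((g' : Matrix (Fin m ⊕ Fin m) (Fin m ⊕ Fin m) F) - 1) *
      (c : Matrix (Fin m ⊕ Fin m) (Fin m ⊕ Fin m) F) := by
    rw [h1]
    have h3 : ((c⁻¹ : Matrix.symplecticGroup (Fin m) F) : Matrix (Fin m ⊕ Fin m) (Fin m ⊕ Fin m) F)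
        * (c : Matrix (Fin m ⊕ Fin m) (Fin m ⊕ Fin m) F) = 1 := by
      rw [← Submonoid.coe_mul, inv_mul_cancel, OneMemClass.coe_one]
    rw [mul_assoc, mul_assoc, mul_assoc, h3, mul_one, ← mul_assoc, h3, one_mul]
  apply le_antisymm
  · rw [h2]
    exact (Matrix.rank_mul_le_left _ _).trans (Matrix.rank_mul_le_right _ _)
  · rw [h1]
    exact (Matrix.rank_mul_le_left _ _).trans (Matrix.rank_mul_le_right _ _)

theorem alt_of_isConj {g g' : Matrix.symplecticGroup (Fin m) F} (h : IsConj g g') (hg : Alt g) :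
    Alt g' := by
  obtain ⟨c, hc⟩ := isConj_iff.1 h
  intro v
  have h1 : (c : Matrix (Fin m ⊕ Fin m) (Fin m ⊕ Fin m) F) *ᵥ
      (((c⁻¹ : Matrix.symplecticGroup (Fin m) F) : Matrix (Fin m ⊕ Fin m) (Fin m ⊕ Fin m) F) *ᵥ v)
      = v := by
    rw [← coe_mul_mulVec, mul_inv_cancel, OneMemClass.coe_one, Matrix.one_mulVec]
  rw [nil_apply, sympForm_sub_right, sympForm_self, sub_zero, ← hc, coe_mul_mulVec, coe_mul_mulVec]
  have h2 := hg (((c⁻¹ : Matrix.symplecticGroup (Fin m) F) :
    Matrix (Fin m ⊕ Fin m) (Fin m ⊕ Fin m) F) *ᵥ v)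
  rw [nil_apply, sympForm_sub_right, sympForm_self, sub_zero, ← sympForm_mulVec c.2, h1] at h2
  exact h2

/-! ### Representatives -/

/-- the partial permutation matrix of an embedding. -/
def proj {κ n : Type*} [DecidableEq n] (F : Type*) [Field F] (e : κ → n) : Matrix κ n F :=
  (1 : Matrix n n F).submatrix e id

theorem proj_mul_transpose {κ n : Type*} [DecidableEq κ] [DecidableEq n] [Fintype n]
    (e : κ → n) (he : Function.Injective e) : proj F e * (proj F e)ᵀ = 1 := by
  rw [proj, Matrix.transpose_submatrix, Matrix.transpose_one,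
    ← Matrix.submatrix_mul _ _ e id e Function.bijective_id, Matrix.mul_one, Matrix.submatrix_one e he]

theorem rank_conj {κ κ' n n' : Type*} [Fintype κ] [Fintype n] [DecidableEq κ]
    [Fintype κ'] [Fintype n'] [DecidableEq κ']
    {P : Matrix κ n F} {Q : Matrix κ' n' F} (hP : P * Pᵀ = 1) (hQ : Q * Qᵀ = 1)
    (M : Matrix κ κ' F) : (Pᵀ * M * Q).rank = M.rank := by
  apply le_antisymm
  · exact (Matrix.rank_mul_le_left _ _).trans (Matrix.rank_mul_le_right _ _)
  · have h : M = P * (Pᵀ * M * Q) * Qᵀ := by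
      rw [← Matrix.mul_assoc, ← Matrix.mul_assoc, hP, Matrix.one_mul, Matrix.mul_assoc, hQ,
        Matrix.mul_one]
    conv_lhs => rw [h]
    exact (Matrix.rank_mul_le_left _ _).trans (Matrix.rank_mul_le_right _ _)

/-- The unipotent element with symmetric block `S`. -/
def up (S : Matrix (Fin m) (Fin m) F) (hS : S.transpose = S) : Matrix.symplecticGroup (Fin m) F :=
  ⟨Matrix.fromBlocks 1 S 0 1, LieClassical.SympCenter.upper_mem m hS⟩

theorem up_mulVec (S : Matrix (Fin m) (Fin m) F) (hS : S.transpose = S)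
    (x : Fin m ⊕ Fin m → F) :
    nil (up S hS) x = Sum.elim (S *ᵥ (x ∘ Sum.inr)) 0 := by
  rw [nil_apply, up]
  change Matrix.fromBlocks 1 S 0 1 *ᵥ x - x = _
  rw [Matrix.fromBlocks_mulVec]
  funext i
  rcases i with i | i
  · simp
  · simp

theorem up_mul_up [CharP F 2] (S : Matrix (Fin m) (Fin m) F) (hS : S.transpose = S) :
    up S hS * up S hS = 1 := by
  apply Subtype.ext
  rw [Submonoid.coe_mul, OneMemClass.coe_one]
  change Matrix.fromBlocks 1 S 0 1 * Matrix.fromBlocks 1 S 0 1 = 1
  rw [Matrix.fromBlocks_multiply]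
  have h : S + S = 0 := by
    ext i j
    exact CharTwo.add_self_eq_zero (S i j)
  simp [h, Matrix.fromBlocks_one]

theorem rank_up (S : Matrix (Fin m) (Fin m) F) (hS : S.transpose = S) :
    ((up S hS : Matrix (Fin m ⊕ Fin m) (Fin m ⊕ Fin m) F) - 1).rank = S.rank := by
  have h : (up S hS : Matrix (Fin m ⊕ Fin m) (Fin m ⊕ Fin m) F) - 1 =
      (proj F (Sum.inl : Fin m → Fin m ⊕ Fin m))ᵀ * S *
        proj F (Sum.inr : Fin m → Fin m ⊕ Fin m) := by
    apply Matrix.mulVec_injective
    funext x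
    have h1 : ∀ x : Fin m ⊕ Fin m → F, proj F (Sum.inr : Fin m → Fin m ⊕ Fin m) *ᵥ x =
        x ∘ Sum.inr := by
      intro x
      funext i
      simp [proj, Matrix.mulVec, dotProduct, Matrix.one_apply]
    have h2 : ∀ y : Fin m → F, (proj F (Sum.inl : Fin m → Fin m ⊕ Fin m))ᵀ *ᵥ y =
        Sum.elim y 0 := by
      intro y
      funext i
      rcases i with i | i
      · simp [proj, Matrix.mulVec, dotProduct, Matrix.one_apply, Matrix.transpose_apply]
      · simp [proj, Matrix.mulVec, dotProduct, Matrix.one_apply, Matrix.transpose_apply]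
    rw [← Matrix.mulVec_mulVec, h1, ← Matrix.mulVec_mulVec, h2, ← up_mulVec S hS x]
    rfl
  rw [h, rank_conj (proj_mul_transpose _ Sum.inl_injective)
    (proj_mul_transpose _ Sum.inr_injective)]

theorem sympForm_up [CharP F 2] (S : Matrix (Fin m) (Fin m) F) (hS : S.transpose = S)
    (x : Fin m ⊕ Fin m → F) :
    sympForm m F x (nil (up S hS) x) = (x ∘ Sum.inr) ⬝ᵥ (S *ᵥ (x ∘ Sum.inr)) := by
  rw [up_mulVec, sympForm_eq_sum]
  simp [dotProduct]

theorem alt_up_iff [CharP F 2] (S : Matrix (Fin m) (Fin m) F) (hS : S.transpose = S) :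
    Alt (up S hS) ↔ ∀ y : Fin m → F, y ⬝ᵥ (S *ᵥ y) = 0 := by
  constructor
  · intro h y
    have := h (Sum.elim 0 y)
    rw [sympForm_up] at this
    exact this
  · intro h x
    rw [sympForm_up]
    exact h _

/-- representatives: an involution for each non-singular symmetric matrix. -/
theorem exists_rep [CharP F 2] {κ : Type} [Fintype κ] [DecidableEq κ] (e : κ → Fin m)
    (he : Function.Injective e) (M : Matrix κ κ F) (hM : Mᵀ = M) (hdet : IsUnit M) :
    ∃ g : Matrix.symplecticGroup (Fin m) F, g * g = 1 ∧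
      ((g : Matrix (Fin m ⊕ Fin m) (Fin m ⊕ Fin m) F) - 1).rank = Fintype.card κ ∧
      (Alt g ↔ ∀ z : κ → F, z ⬝ᵥ (M *ᵥ z) = 0) := by
  have hS : ((proj F e)ᵀ * M * proj F e)ᵀ = (proj F e)ᵀ * M * proj F e := by
    rw [Matrix.transpose_mul, Matrix.transpose_mul, Matrix.transpose_transpose, hM,
      Matrix.mul_assoc]
  have hP := proj_mul_transpose (F := F) e he
  refine ⟨up _ hS, up_mul_up _ hS, ?_, ?_⟩
  · rw [rank_up, rank_conj hP hP, Matrix.rank_of_isUnit _ hdet]
  · rw [alt_up_iff]
    have key : ∀ y : Fin m → F, y ⬝ᵥ (((proj F e)ᵀ * M * proj F e) *ᵥ y) =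
        (proj F e *ᵥ y) ⬝ᵥ (M *ᵥ (proj F e *ᵥ y)) := by
      intro y
      rw [← Matrix.mulVec_mulVec, ← Matrix.mulVec_mulVec, Matrix.dotProduct_mulVec,
        Matrix.vecMul_transpose]
    constructor
    · intro h z
      have h1 := h ((proj F e)ᵀ *ᵥ z)
      rw [key, Matrix.mulVec_mulVec, hP, Matrix.one_mulVec] at h1
      exact h1
    · intro h y
      rw [key]
      exact h _

theorem orderOf_eq_two_iff (g : Matrix.symplecticGroup (Fin m) F) :
    orderOf g = 2 ↔ g * g = 1 ∧ g ≠ 1 := by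
  rw [← pow_two]
  constructor
  · intro h
    refine ⟨by rw [← h]; exact pow_orderOf_eq_one g, ?_⟩
    rintro rfl
    rw [orderOf_one] at h
    omega
  · rintro ⟨h1, h2⟩
    exact orderOf_eq_prime h1 h2

theorem rank_pos {g : Matrix.symplecticGroup (Fin m) F} (hg : g ≠ 1) :
    1 ≤ ((g : Matrix (Fin m ⊕ Fin m) (Fin m ⊕ Fin m) F) - 1).rank := by
  rw [Nat.one_le_iff_ne_zero]
  intro h0
  apply hg
  rw [Matrix.rank, Submodule.finrank_eq_zero, LinearMap.range_eq_bot] at h0
  apply ext_mulVec
  intro x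
  have h1 := congrArg (fun φ => φ x) h0
  simp only [Matrix.mulVecLin_apply, Matrix.sub_mulVec, Matrix.one_mulVec,
    LinearMap.zero_apply] at h1
  rw [OneMemClass.coe_one, Matrix.one_mulVec]
  exact sub_eq_zero.1 h1

theorem rank_le [CharP F 2] {g : Matrix.symplecticGroup (Fin m) F} (hg : g * g = 1) :
    ((g : Matrix (Fin m ⊕ Fin m) (Fin m ⊕ Fin m) F) - 1).rank ≤ m := by
  have h1 := LinearMap.finrank_range_add_finrank_ker (nil g)
  have h2 : LinearMap.range (nil g) ≤ LinearMap.ker (nil g) := by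
    rintro _ ⟨x, rfl⟩
    exact nil_nil hg x
  have h3 := Submodule.finrank_mono h2
  rw [Module.finrank_fintype_fun_eq_card, Fintype.card_sum, Fintype.card_fin] at h1
  have h4 : ((g : Matrix (Fin m ⊕ Fin m) (Fin m ⊕ Fin m) F) - 1).rank =
    Module.finrank F (LinearMap.range (nil g)) := rfl
  omega

theorem even_of_alt [CharP F 2] {g : Matrix.symplecticGroup (Fin m) F} (hg : g * g = 1)
    (h : Alt g) : ∃ k, ((g : Matrix (Fin m ⊕ Fin m) (Fin m ⊕ Fin m) F) - 1).rank = k + k := by
  obtain ⟨k, hk, -⟩ := H176.SqZeroAlt.exists_family_alt bilin_isAlt sympBilin_nondegenerate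
    (sympBilin_nil hg) h
  exact ⟨k, hk⟩

end

/-- Number of conjugacy classes of involutions in the symplectic group Sp_2m(F) over a finite field of characteristic two (m ≥ 1): for each s with 1 ≤ s ≤ m there is one class with rank(t − 1) = s if s is odd and two if s is even (according as v ↦ f(v, tv), f the symplectic form, vanishes identically or not), so m + ⌊m/2⌋ classes in all. -/
theorem result {F : Type*} [Field F] [Fintype F] [CharP F 2] {m : ℕ} (hm : 1 ≤ m) : Nat.card {C : ConjClasses ↥(Matrix.symplecticGroup (Fin m) F) // ∃ g : Matrix.symplecticGroup (Fin m) F, ConjClasses.mk g = C ∧ orderOf g = 2} = m + m / 2 := by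
  classical
  -- representatives of the non-alternating classes
  have hA : ∀ i : Fin m, ∃ g : Matrix.symplecticGroup (Fin m) F, g * g = 1 ∧
      ((g : Matrix (Fin m ⊕ Fin m) (Fin m ⊕ Fin m) F) - 1).rank = (i : ℕ) + 1 ∧ ¬ Alt g := by
    intro i
    obtain ⟨g, h1, h2, h3⟩ := exists_rep (F := F) (Fin.castLE (Nat.succ_le_of_lt i.2))
      (Fin.castLE_injective _) (1 : Matrix (Fin ((i : ℕ) + 1)) (Fin ((i : ℕ) + 1)) F)
      Matrix.transpose_one isUnit_one
    refine ⟨g, h1, by rw [h2, Fintype.card_fin], ?_⟩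
    rw [h3]
    intro h
    have := h (Pi.single 0 1)
    simp at this
  have hB : ∀ k : Fin (m / 2), ∃ g : Matrix.symplecticGroup (Fin m) F, g * g = 1 ∧
      ((g : Matrix (Fin m ⊕ Fin m) (Fin m ⊕ Fin m) F) - 1).rank = 2 * ((k : ℕ) + 1) ∧ Alt g := by
    intro k
    have hk : ((k : ℕ) + 1) + ((k : ℕ) + 1) ≤ m := by have := k.2; omega
    have hJ : (Matrix.J (Fin ((k : ℕ) + 1)) F)ᵀ = Matrix.J (Fin ((k : ℕ) + 1)) F := by
      rw [Matrix.J_transpose]
      ext i j
      exact CharTwo.neg_eq _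
    obtain ⟨g, h1, h2, h3⟩ := exists_rep (F := F)
      (fun x : Fin ((k : ℕ) + 1) ⊕ Fin ((k : ℕ) + 1) => Fin.castLE hk (finSumFinEquiv x))
      ((Fin.castLE_injective hk).comp finSumFinEquiv.injective)
      (Matrix.J (Fin ((k : ℕ) + 1)) F) hJ
      ((Matrix.isUnit_iff_isUnit_det _).2 (Matrix.isUnit_det_J _ _))
    refine ⟨g, h1, by rw [h2, Fintype.card_sum, Fintype.card_fin]; ring, ?_⟩
    rw [h3]
    intro z
    exact sympForm_self z
  choose gA hA1 hA2 hA3 using hA
  choose gB hB1 hB2 hB3 using hB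
  have hord : ∀ g : Matrix.symplecticGroup (Fin m) F, g * g = 1 →
      ((g : Matrix (Fin m ⊕ Fin m) (Fin m ⊕ Fin m) F) - 1).rank ≠ 0 → orderOf g = 2 := by
    intro g h1 h2
    rw [orderOf_eq_two_iff]
    refine ⟨h1, ?_⟩
    rintro rfl
    apply h2
    rw [OneMemClass.coe_one, sub_self, Matrix.rank_zero]
  let φ : Fin m ⊕ Fin (m / 2) → {C : ConjClasses ↥(Matrix.symplecticGroup (Fin m) F) //
      ∃ g : Matrix.symplecticGroup (Fin m) F, ConjClasses.mk g = C ∧ orderOf g = 2} :=
    Sum.elim (fun i => ⟨ConjClasses.mk (gA i), gA i, rfl, hord _ (hA1 i) (by rw [hA2]; omega)⟩)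
      (fun k => ⟨ConjClasses.mk (gB k), gB k, rfl, hord _ (hB1 k) (by rw [hB2]; omega)⟩)
  have hφ : Function.Bijective φ := by
    constructor
    · rintro (i | i) (j | j) h
      · have h1 := ConjClasses.mk_eq_mk_iff_isConj.1 (congrArg Subtype.val h)
        have h2 := rank_eq_of_isConj h1
        rw [hA2, hA2] at h2
        rw [Fin.ext (by omega : (i : ℕ) = j)]
      · have h1 := ConjClasses.mk_eq_mk_iff_isConj.1 (congrArg Subtype.val h)
        exact absurd (alt_of_isConj h1.symm (hB3 j)) (hA3 i)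
      · have h1 := ConjClasses.mk_eq_mk_iff_isConj.1 (congrArg Subtype.val h)
        exact absurd (alt_of_isConj h1 (hB3 i)) (hA3 j)
      · have h1 := ConjClasses.mk_eq_mk_iff_isConj.1 (congrArg Subtype.val h)
        have h2 := rank_eq_of_isConj h1
        rw [hB2, hB2] at h2
        rw [Fin.ext (by omega : (i : ℕ) = j)]
    · rintro ⟨_, g, rfl, hg⟩
      rw [orderOf_eq_two_iff] at hg
      obtain ⟨hg1, hg2⟩ := hg
      have h1 := rank_pos hg2
      have h2 := rank_le hg1
      by_cases h : Alt g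
      · obtain ⟨k, hk⟩ := even_of_alt hg1 h
        refine ⟨Sum.inr ⟨k - 1, by omega⟩, ?_⟩
        apply Subtype.ext
        change ConjClasses.mk (gB _) = _
        rw [ConjClasses.mk_eq_mk_iff_isConj]
        refine isConj_of (hB1 _) hg1 ?_ ⟨fun _ => h, fun _ => hB3 _⟩
        rw [hB2, hk]
        simp only
        omega
      · refine ⟨Sum.inl ⟨((g : Matrix (Fin m ⊕ Fin m) (Fin m ⊕ Fin m) F) - 1).rank - 1,
          by omega⟩, ?_⟩
        apply Subtype.ext
        change ConjClasses.mk (gA _) = _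
        rw [ConjClasses.mk_eq_mk_iff_isConj]
        refine isConj_of (hA1 _) hg1 ?_ ⟨fun h' => absurd h' (hA3 _), fun h' => absurd h' h⟩
        rw [hA2]
        simp only
        omega
  rw [← Nat.card_congr (Equiv.ofBijective φ hφ), Nat.card_eq_fintype_card, Fintype.card_sum,
    Fintype.card_fin, Fintype.card_fin]

end Cfsg.Agent.S2593
end
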