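import Cfsg.Statements.S2614
import Cfsg.Agent.H181.FormNondeg
set_option linter.all false

set_option autoImplicit false
open Cfsg

namespace Cfsg.Agent.S2614

/-- For the form x_0² + Σ x_j y_j on F^(2m+1), F finite with q elements, q odd, and 1 ≤ i ≤ m: the involution of determinant one negating the first i hyperbolic pairs (and fixing x_0 and the other pairs) lies in Ω_(2m+1)(q) (commutator subgroup of the orthogonal group) if and only if q^i ≡ 1 (mod 4); its (−1)-eigenspace is a hyperbolic 2i-space. -/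
theorem result {F : Type*} [Field F] [Fintype F] {q : ℕ} (hF : Fintype.card F = q) (hq : Odd q) {m : ℕ} (i : ℕ) (hi : 1 ≤ i) (him : i ≤ m) : (∃ g : ↥(Cfsg.isometryGroup F (Cfsg.quadFormOdd m F)), g ∈ Cfsg.Omega F (Cfsg.quadFormOdd m F) ∧ ((g : Matrix.GeneralLinearGroup (Unit ⊕ (Fin m ⊕ Fin m)) F) : Matrix (Unit ⊕ (Fin m ⊕ Fin m)) (Unit ⊕ (Fin m ⊕ Fin m)) F) = Matrix.diagonal (fun k : Unit ⊕ (Fin m ⊕ Fin m) => if (Sum.elim (fun _ : Unit => i) (Sum.elim (fun j : Fin m => (j : ℕ)) (fun j : Fin m => (j : ℕ))) k) < i then (-1 : F) else 1)) ↔ q ^ i % 4 = 1 := by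
  rw [← Cfsg.Agent.LieClassical.OrthForms.coe_oddForm]
  have h2 : (2 : F) ≠ 0 := Cfsg.Agent.H181.FormNondeg.two_ne_zero_of_odd F (by rw [hF]; exact hq)
  refine Cfsg.Agent.H181.HypInv.mem_Omega_iff_pow hF hq _
    (Cfsg.Agent.H181.FormNondeg.odd_nondegenerate m F h2)
    (Cfsg.Agent.H181.FormNondeg.hypCoord_odd m F) hi him _ ?_
  rintro j hj (k | k | k)
  · simp only [Sum.elim_inl, reduceCtorEq, or_self, iff_false]
    exact hj.ne'
  · simp [Fin.ext_iff]
  · simp [Fin.ext_iff]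

end Cfsg.Agent.S2614
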