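import Cfsg.Statements.S2630
import Cfsg.Agent.H181.PlusFamilies
set_option linter.all false

set_option autoImplicit false
open Cfsg

namespace Cfsg.Agent.S2630

open Cfsg.Agent.H181.Families Cfsg.Agent.H181.PlusFamilies Cfsg.Agent.H181.FormNondeg
open Cfsg.Agent.LieClassical.OrthForms

/-- For the hyperbolic form Σ x_i y_i on F^(2m) over a finite field of characteristic two (m ≥ 1, excluding m = 2 over the field of two elements), an isometry g preserves the class of the maximal totally singular subspace U₀ = {y = 0} (m − dim(U₀ ∩ gU₀) even) if and only if g lies in Ω (the commutator subgroup of the orthogonal group): the stabiliser of each class is Ω. -/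
theorem result {F : Type*} [Field F] [Fintype F] [CharP F 2] {m : ℕ} (hm : 1 ≤ m) (h : Fintype.card F ≠ 2 ∨ m ≠ 2) (g : ↥(Cfsg.isometryGroup F (Cfsg.quadFormPlus m F))) : Even (m - Module.finrank F ↥(LinearMap.ker (LinearMap.funLeft F F (Sum.inr : Fin m → Fin m ⊕ Fin m)) ⊓ (LinearMap.ker (LinearMap.funLeft F F (Sum.inr : Fin m → Fin m ⊕ Fin m))).map (Matrix.mulVecLin ((g : Matrix.GeneralLinearGroup (Fin m ⊕ Fin m) F) : Matrix (Fin m ⊕ Fin m) (Fin m ⊕ Fin m) F)))) ↔ g ∈ Cfsg.Omega F (Cfsg.quadFormPlus m F) := by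
  revert g
  rw [← coe_plusForm]
  intro g
  have h2 : (2 : F) = 0 := CharTwo.two_eq_zero
  rw [Cfsg.Agent.H183.mem_Omega_iff_dsign _ h2 (plus_nondegenerate m F) (exc m F h) g]
  exact even_iff_dsign (plus_nondegenerate m F) (card_two_mul m) (exc m F h) g (isMaxSing_ker m F)

end Cfsg.Agent.S2630
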