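import Cfsg.Statements.S2632
import Cfsg.Agent.H175.OmegaAdjust
set_option linter.all false

set_option autoImplicit false
open Cfsg

namespace Cfsg.Agent.S2632

open Cfsg.Agent.ClassicalGeometry.Reflection Cfsg.Agent.H175.OmegaAdjust

/-- Ω is transitive on non-degenerate subspaces of each isometry type: for a quadratic form Q on F^n, n ≥ 3, with non-degenerate polar form (F finite; excluding dimension 4 over the field of two elements), if U and W are subspaces on which the polar form is non-degenerate and there is a Q-preserving linear isomorphism U → W, then some element of Ω (the commutator subgroup of the orthogonal group) carries U to W. (In dimension 2 this fails: Ω can be {±1}, which fixes every line.) -/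
theorem result {F : Type*} [Field F] [Fintype F] {n : ℕ} (hn : 3 ≤ n) (h : Fintype.card F ≠ 2 ∨ n ≠ 4) (Q : QuadraticForm F (Fin n → F)) (hQ : (QuadraticMap.polarBilin Q).Nondegenerate) (U W : Submodule F (Fin n → F)) (hU : U ⊓ LinearMap.BilinForm.orthogonal (QuadraticMap.polarBilin Q) U = ⊥) (hW : W ⊓ LinearMap.BilinForm.orthogonal (QuadraticMap.polarBilin Q) W = ⊥) (e : U ≃ₗ[F] W) (he : ∀ u : U, Q (e u : Fin n → F) = Q (u : Fin n → F)) : ∃ g : ↥(Cfsg.isometryGroup F ⇑Q), g ∈ Cfsg.Omega F ⇑Q ∧ U.map (Matrix.mulVecLin ((g : Matrix.GeneralLinearGroup (Fin n) F) : Matrix (Fin n) (Fin n) F)) = W := by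
  classical
  obtain ⟨g, hg, hge⟩ := Cfsg.Agent.ClassicalGeometry.WittQuad.extend Q hQ U W e he
  have hmap : U.map g.toLinearMap = W := by
    ext w
    constructor
    · rintro ⟨u, hu, rfl⟩
      change g u ∈ W
      rw [hge ⟨u, hu⟩]
      exact (e ⟨u, hu⟩).2
    · intro hw
      refine ⟨e.symm ⟨w, hw⟩, (e.symm ⟨w, hw⟩).2, ?_⟩
      change g _ = w
      rw [hge, LinearEquiv.apply_symm_apply]
  refine exists_omega_map Q U W ?_ g hg hmap
  -- the orthogonal space
  set U' := LinearMap.BilinForm.orthogonal (QuadraticMap.polarBilin Q) U with hU'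
  have hrefl : (QuadraticMap.polarBilin Q).IsRefl := fun x y hxy => by
    rw [QuadraticMap.polarBilin_apply_apply] at hxy ⊢
    rw [QuadraticMap.polar_comm]; exact hxy
  have hdim : Module.finrank F U + Module.finrank F U' = n := by
    have h1 := LinearMap.BilinForm.finrank_orthogonal hQ U
    have h2 : Module.finrank F U ≤ n := by
      simpa using Submodule.finrank_le U
    rw [Module.finrank_fin_fun] at h1
    rw [hU', h1]
    omega
  have hmem' : ∀ x : Fin n → F, x ∈ U' ↔ ∀ u ∈ U, QuadraticMap.polar ⇑Q u x = 0 := fun x =>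
    LinearMap.BilinForm.mem_orthogonal_iff
  -- the two candidate spaces
  obtain ⟨X, hX2, hXnd, hXs⟩ : ∃ X : Submodule F (Fin n → F), 2 ≤ Module.finrank F X ∧
      (∀ x ∈ X, (∀ y ∈ X, QuadraticMap.polar ⇑Q x y = 0) → x = 0) ∧
      ∀ (v : Fin n → F) (hv : Q v ≠ 0), v ∈ X → reflIso Q v hv ∈ stab Q U := by
    rcases le_or_gt 2 (Module.finrank F U) with hle | hlt
    · refine ⟨U, hle, ?_, fun v hv hvU => refl_mem_stab_of_mem Q U v hv hvU⟩
      intro x hx hxy
      have : x ∈ U ⊓ U' := ⟨hx, (hmem' x).mpr fun u hu => by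
        rw [QuadraticMap.polar_comm]; exact hxy u hu⟩
      rw [hU] at this
      exact (Submodule.mem_bot F).mp this
    · refine ⟨U', by omega, ?_, fun v hv hvU => refl_mem_stab_of_perp Q U v hv fun u hu => by
        rw [QuadraticMap.polar_comm]; exact (hmem' v).mp hvU u hu⟩
      intro x hx hxy
      have hxU : x ∈ U := by
        rw [← LinearMap.BilinForm.orthogonal_orthogonal hQ hrefl U, ← hU',
          LinearMap.BilinForm.mem_orthogonal_iff]
        intro y hy
        change QuadraticMap.polar ⇑Q y x = 0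
        rw [QuadraticMap.polar_comm]; exact hxy y hy
      have : x ∈ U ⊓ U' := ⟨hxU, hx⟩
      rw [hU] at this
      exact (Submodule.mem_bot F).mp this
  by_cases h2 : (2 : F) = 0
  · have hθ : (∃ θ : F, θ ≠ 0 ∧ θ ≠ 1) ∨ Fintype.card (Fin n) ≠ 4 := by
      rcases h with h | h
      · exact Or.inl (Cfsg.Agent.ClassicalGeometry.OrthDickson.exists_ne_zero_ne_one h)
      · right; rwa [Fintype.card_fin]
    obtain ⟨v, hvX, hv⟩ := exists_nonsing Q X (by
      rintro rfl
      rw [finrank_bot] at hX2
      omega) hXnd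
    exact adjust_two Q h2 hQ hθ _ v hv (hXs v hv hvX)
  · obtain ⟨c, hc⟩ : ∃ c : F, ¬ IsSquare c := FiniteField.exists_nonsquare
      (Cfsg.Agent.ClassicalGeometry.Universal.ringChar_ne_two h2)
    obtain ⟨u, huX, hu⟩ := exists_value h2 Q X hX2 hXnd 1
    obtain ⟨v, hvX, hv⟩ := exists_value h2 Q X hX2 hXnd c
    have hc0 : c ≠ 0 := by
      rintro rfl
      exact hc (IsSquare.zero)
    have hu' : Q u ≠ 0 := by rw [hu]; exact one_ne_zero
    have hv' : Q v ≠ 0 := by rw [hv]; exact hc0
    exact adjust_odd_refl Q h2 hQ (by rw [Fintype.card_fin]; omega) _ u v hu' hv'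
      (by rw [hu, hv, one_mul]; exact hc) (hXs u hu' huX) (hXs v hv' hvX)

end Cfsg.Agent.S2632
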