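import Cfsg.Statements.S2636
import Cfsg.Agent.H202.Descent
set_option linter.all false

set_option autoImplicit false
open Cfsg

namespace Cfsg.Agent.S2636

open Matrix Cfsg.Agent.H202.Descent

variable {F F₀ : Type*} [Field F] [Field F₀] {n : ℕ}

/-- scalars -/
def sc (n : ℕ) (F : Type*) [Field F] : Fˣ →* GL (Fin n) F := Units.map (Matrix.scalar (Fin n) : F →+* _).toMonoidHom

theorem sc_eq (e : Fˣ) : sc n F e = scg e := by
  apply Units.ext
  rw [coe_scg]
  change Matrix.scalar (Fin n) (e : F) = _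
  rw [Matrix.scalar_apply, Matrix.smul_one_eq_diagonal]

/-- `(e, M) ↦ e M` -/
def th (n : ℕ) (j : F₀ →+* F) : Fˣ × GL (Fin n) F₀ →* GL (Fin n) F :=
  MonoidHom.noncommCoprod (sc n F) (Matrix.GeneralLinearGroup.map j) (fun e M => by
    rw [sc_eq]
    exact scg_mul_comm _ _)

theorem th_apply (j : F₀ →+* F) (x : Fˣ × GL (Fin n) F₀) : th n j x = scg x.1 * Matrix.GeneralLinearGroup.map j x.2 := by
  rw [← sc_eq]; rfl

theorem aux [Finite F] [Finite F₀] (hn : 1 ≤ n) (σ : F ≃+* F) (j : F₀ →+* F) (hj : ∀ a, σ a = a ↔ ∃ b, j b = a) :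
    Nat.card {g : GL (Fin n) F // ∃ c : F, c ≠ 0 ∧ (g : Matrix (Fin n) (Fin n) F).map σ =
      c • (g : Matrix (Fin n) (Fin n) F)} * (Nat.card F₀ - 1) = (Nat.card F - 1) * Nat.card (GL (Fin n) F₀) := by
  have : Nonempty (Fin n) := ⟨⟨0, by omega⟩⟩
  have hfix : ∀ b, σ (j b) = j b := fun b => (hj _).2 ⟨b, rfl⟩
  have hr : ∀ g : GL (Fin n) F, g ∈ (th n j).range ↔ ∃ c : F, c ≠ 0 ∧ (g : Matrix (Fin n) (Fin n) F).map σ =
      c • (g : Matrix (Fin n) (Fin n) F) := by
    intro g
    constructor
    · rintro ⟨⟨e, M⟩, rfl⟩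
      refine ⟨σ e * ((e⁻¹ : Fˣ) : F), mul_ne_zero ((map_ne_zero_iff σ σ.injective).2 e.ne_zero) (e⁻¹).ne_zero, ?_⟩
      rw [th_apply, coe_scg_mul]
      ext i k
      simp only [Matrix.map_apply, Matrix.smul_apply, smul_eq_mul, map_mul]
      change σ e * σ (j _) = _ * (_ * j _)
      rw [hfix, mul_assoc, ← mul_assoc ((e⁻¹ : Fˣ) : F), ← Units.val_mul, inv_mul_cancel, Units.val_one, one_mul]
    · rintro ⟨c, -, hc⟩
      obtain ⟨e, he⟩ := exists_fixed_multiple hc
      obtain ⟨M, hM⟩ := exists_descend_gl hj he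
      refine ⟨(e⁻¹, M), ?_⟩
      rw [th_apply]
      change scg e⁻¹ * Matrix.GeneralLinearGroup.map j M = g
      rw [hM, ← mul_assoc]
      apply Units.ext
      rw [Units.val_mul, Units.val_mul, coe_scg, coe_scg, smul_mul_smul_comm, ← Units.val_mul, inv_mul_cancel,
        Units.val_one, one_smul, one_mul, one_mul]
  have h1 : Nat.card {g : GL (Fin n) F // ∃ c : F, c ≠ 0 ∧ (g : Matrix (Fin n) (Fin n) F).map σ =
      c • (g : Matrix (Fin n) (Fin n) F)} = Nat.card (th n j).range :=
    Nat.card_congr (Equiv.subtypeEquivRight fun g => (hr g).symm)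
  -- the kernel
  let k : F₀ˣ →* Fˣ × GL (Fin n) F₀ := MonoidHom.prod ((Units.map (j : F₀ →* F)).comp (invMonoidHom)) (sc n F₀)
  have hk : k.range = (th n j).ker := by
    ext x
    rw [MonoidHom.mem_ker, th_apply]
    constructor
    · rintro ⟨t, rfl⟩
      change scg (Units.map (j : F₀ →* F) t⁻¹) * Matrix.GeneralLinearGroup.map j (sc n F₀ t) = 1
      rw [sc_eq]
      apply Units.ext
      rw [coe_scg_mul]
      ext a b
      rw [Matrix.smul_apply, smul_eq_mul, Units.val_one]
      change j _ * j _ = _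
      rw [coe_scg, Matrix.smul_apply, smul_eq_mul, ← map_mul, ← mul_assoc, ← Units.val_mul, inv_mul_cancel,
        Units.val_one, one_mul, Matrix.one_apply, Matrix.one_apply]
      split_ifs
      · exact map_one j
      · exact map_zero j
    · intro hx
      obtain ⟨e, M⟩ := x
      have h2 : ∀ a b, (e : F) * j ((M : Matrix (Fin n) (Fin n) F₀) a b) = (1 : Matrix (Fin n) (Fin n) F) a b := by
        intro a b
        have h0 : ((scg e * Matrix.GeneralLinearGroup.map j M : GL (Fin n) F) : Matrix (Fin n) (Fin n) F) = 1 :=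
          congrArg Units.val hx
        have h3 := congrFun (congrFun h0 a) b
        rw [coe_scg_mul, Matrix.smul_apply, smul_eq_mul] at h3
        exact h3
      obtain ⟨i⟩ := ‹Nonempty (Fin n)›
      have h3 := h2 i i
      rw [Matrix.one_apply_eq] at h3
      set t := (M : Matrix (Fin n) (Fin n) F₀) i i with ht
      have ht0 : t ≠ 0 := by
        intro h
        rw [h, map_zero, mul_zero] at h3
        exact zero_ne_one h3
      have he : e = Units.map (j : F₀ →* F) (Units.mk0 t ht0)⁻¹ := by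
        have h4 : e * Units.map (j : F₀ →* F) (Units.mk0 t ht0) = 1 := Units.ext h3
        rw [map_inv (Units.map (j : F₀ →* F)) (Units.mk0 t ht0)]
        exact eq_inv_of_mul_eq_one_left h4
      refine ⟨Units.mk0 t ht0, ?_⟩
      refine Prod.ext he.symm ?_
      change sc n F₀ (Units.mk0 t ht0) = M
      rw [sc_eq]
      apply Units.ext
      rw [coe_scg]
      ext a b
      apply j.injective
      have h4 := h2 a b
      rw [Matrix.smul_apply, smul_eq_mul, map_mul, Units.val_mk0]
      have h5 : j ((M : Matrix (Fin n) (Fin n) F₀) a b) = j t * ((e : F) * j ((M : Matrix (Fin n) (Fin n) F₀) a b)) := by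
        rw [← mul_assoc, mul_comm (j t), h3, one_mul]
      rw [h5, h4]
      congr 1
      rw [Matrix.one_apply, Matrix.one_apply]
      split_ifs
      · exact map_one j
      · exact map_zero j
  have hkinj : Function.Injective k := by
    intro s t hst
    have h2 := congrArg Prod.fst hst
    change Units.map (j : F₀ →* F) s⁻¹ = Units.map (j : F₀ →* F) t⁻¹ at h2
    have h3 : s⁻¹ = t⁻¹ := Units.ext (j.injective (congrArg Units.val h2))
    exact inv_injective h3
  have h2 : Nat.card (th n j).ker = Nat.card F₀ - 1 := by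
    rw [← hk, ← Nat.card_congr (MonoidHom.ofInjective hkinj).toEquiv, Nat.card_units]
  have h3 := Subgroup.card_mul_index (th n j).ker
  rw [Subgroup.index_ker, h2, Nat.card_prod, Nat.card_units] at h3
  rw [h1, mul_comm, h3]

/-- Centraliser of a field automorphism in PGL_n: let F be the field with q = q₀^r elements, σ a field automorphism of F of prime order r (so its fixed field has q₀ elements) and n ≥ 1. The invertible matrices g whose entrywise image under σ is a scalar multiple of g — those whose coset modulo scalars is fixed by σ — number (q − 1)/(q₀ − 1) · |GL_n(q₀)|; equivalently the centraliser in PGL_n(q) of the induced automorphism has the order of PGL_n(q₀). -/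
theorem result {F : Type*} [Field F] [Fintype F] {q₀ r n : ℕ} (hr : r.Prime) (hn : 1 ≤ n) (hF : Fintype.card F = q₀ ^ r) (σ : F ≃+* F) (hσ : orderOf σ = r) : Nat.card {g : GL (Fin n) F // ∃ c : F, c ≠ 0 ∧ (g : Matrix (Fin n) (Fin n) F).map σ = c • (g : Matrix (Fin n) (Fin n) F)} = (q₀ ^ r - 1) / (q₀ - 1) * ∏ i : Fin n, (q₀ ^ n - q₀ ^ (i : ℕ)) := by
  classical
  have h1 := card_fixed hσ
  set F₀ := ↥(RingHom.eqLocusField (σ : F →+* F) (RingHom.id F)) with hF₀
  have : Finite F₀ := Finite.of_injective (fun x : F₀ => (x : F)) Subtype.val_injective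
  have := Fintype.ofFinite F₀
  rw [Nat.card_eq_fintype_card, hF] at h1
  have h2 : q₀ = Nat.card F₀ := Nat.pow_left_injective hr.ne_zero h1
  have hj : ∀ a, σ a = a ↔ ∃ b : F₀, (RingHom.eqLocusField (σ : F →+* F) (RingHom.id F)).subtype b = a := by
    intro a
    constructor
    · intro h
      exact ⟨⟨a, h⟩, rfl⟩
    · rintro ⟨b, rfl⟩
      exact b.2
  have h3 := aux hn σ _ hj
  have h4 : 1 < q₀ := by
    rw [h2]
    exact Finite.one_lt_card
  rw [Nat.card_eq_fintype_card (α := F), hF, ← h2] at h3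
  have h5 : Nat.card (GL (Fin n) F₀) = ∏ i : Fin n, (q₀ ^ n - q₀ ^ (i : ℕ)) := by
    rw [Matrix.card_GL_field, h2, Nat.card_eq_fintype_card]
  rw [h5] at h3
  obtain ⟨d, hd⟩ : (q₀ - 1) ∣ (q₀ ^ r - 1) := by simpa using Nat.sub_dvd_pow_sub_pow q₀ 1 r
  rw [hd, Nat.mul_div_cancel_left _ (by omega)]
  rw [hd] at h3
  have h6 : 0 < q₀ - 1 := by omega
  apply Nat.eq_of_mul_eq_mul_right h6
  rw [h3]
  ring

end Cfsg.Agent.S2636
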