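import Cfsg.Statements.S2640
import Cfsg.Agent.H186.EmbGU
set_option linter.all false

set_option autoImplicit false
open Cfsg

namespace Cfsg.Agent.S2640

/-- For m even, the unitary group GU_m(q) (over the field with q² elements) embeds in the orthogonal group O⁺_2m(q) of the hyperbolic form Σ x_i y_i over the field with q elements: the map v ↦ h(v, v), h the Hermitian form, is a quadratic form over the field with q elements (its polar form is the trace of h), of plus type when m is even. -/
theorem result {K F : Type*} [Field K] [Fintype K] [Field F] [Fintype F] {q : ℕ} (hK : Fintype.card K = q ^ 2) (hF : Fintype.card F = q) (m : ℕ) (hm : Even m) : ∃ φ : ↥(Cfsg.GU m K q) →* ↥(Cfsg.isometryGroup F (Cfsg.quadFormPlus m F)), Function.Injective φ := by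
  exact Cfsg.Agent.H186.gu_plus hK hF m hm

end Cfsg.Agent.S2640
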