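import Cfsg.Statements.S2642
import Cfsg.Agent.S2570
import Cfsg.Agent.H186.UnipGU
set_option linter.all false

set_option autoImplicit false
open Cfsg

namespace Cfsg.Agent.S2642

/-- Number of conjugacy classes of elements of order p in the general unitary group GU_n(q), q a power of p: every unipotent Jordan type occurs and the classes correspond to the partitions of n with all parts at most p other than the all-ones partition, exactly as in GL_n; so there are (number of partitions of n with parts ≤ p) − 1 classes. -/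
theorem result {K : Type*} [Field K] [Fintype K] {p q n : ℕ} [Fact p.Prime] [CharP K p] (hK : Fintype.card K = q ^ 2) : Nat.card {C : ConjClasses ↥(Cfsg.GU n K q) // ∃ g : ↥(Cfsg.GU n K q), ConjClasses.mk g = C ∧ orderOf g = p} = (Finset.univ.filter (fun μ : Nat.Partition n => ∀ a ∈ μ.parts, a ≤ p)).card - 1 := by
  have hp : p.Prime := Fact.out
  rw [← Cfsg.Agent.S2570.result (F := K) (p := p) n]
  let f : {C : ConjClasses ↥(Cfsg.GU n K q) // ∃ g : ↥(Cfsg.GU n K q), ConjClasses.mk g = C ∧ orderOf g = p} →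
      {C : ConjClasses (GL (Fin n) K) // ∃ g : GL (Fin n) K, ConjClasses.mk g = C ∧ orderOf g = p} :=
    fun C => ⟨ConjClasses.map (Cfsg.GU n K q).subtype C.1, by
      obtain ⟨g, hg, ho⟩ := C.2
      refine ⟨(g : GL (Fin n) K), ?_, ?_⟩
      · rw [← hg]; rfl
      · rw [← ho]; exact orderOf_injective (Cfsg.GU n K q).subtype Subtype.val_injective g⟩
  refine Nat.card_eq_of_bijective f ⟨?_, ?_⟩
  · rintro ⟨C, hC⟩ ⟨D, hD⟩ h
    obtain ⟨g, hg, -⟩ := id hC
    obtain ⟨g', hg', -⟩ := id hD
    apply Subtype.ext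
    have h0 : ConjClasses.map (Cfsg.GU n K q).subtype C = ConjClasses.map (Cfsg.GU n K q).subtype D :=
      congrArg Subtype.val h
    rw [← hg, ← hg'] at h0
    change C = D
    rw [← hg, ← hg']
    have h1 : ConjClasses.mk (g : GL (Fin n) K) = ConjClasses.mk (g' : GL (Fin n) K) := h0
    rw [ConjClasses.mk_eq_mk_iff_isConj] at h1
    exact ConjClasses.mk_eq_mk_iff_isConj.2 ((Cfsg.Agent.H186.gu_isConj_iff hK g g').2 h1)
  · rintro ⟨C, g, hg, ho⟩
    have hnil : IsNilpotent ((g : Matrix (Fin n) (Fin n) K) - 1) := by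
      refine Cfsg.Agent.H174.isNilpotent_of_pow (p := p) (k := 1) ?_
      rw [pow_one, ← ho]
      exact pow_orderOf_eq_one g
    obtain ⟨B, hB⟩ := Cfsg.Agent.H186.exists_gu_unip hK g hnil
    refine ⟨⟨ConjClasses.mk B, B, rfl, ?_⟩, ?_⟩
    · rw [← ho]
      obtain ⟨c, hc⟩ := isConj_iff.1 hB
      have h1 : orderOf B = orderOf (B : GL (Fin n) K) :=
        (orderOf_injective (Cfsg.GU n K q).subtype Subtype.val_injective B).symm
      rw [h1, ← hc]
      exact (orderOf_injective (MulAut.conj c).toMonoidHom (MulAut.conj c).injective g)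
    · apply Subtype.ext
      change ConjClasses.mk (B : GL (Fin n) K) = C
      rw [← hg]
      exact ConjClasses.mk_eq_mk_iff_isConj.2 hB.symm

end Cfsg.Agent.S2642
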