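import Cfsg.Agent.S1068
import Cfsg.Agent.ChevalleyStructure.TwF4.TorusFix
import Cfsg.Agent.H191.CoprimeEigen
import Cfsg.Agent.H191.DiagCount
import Cfsg.Agent.H191.AltElts
import Cfsg.Statements.S2661
set_option linter.all false

-- part: H191/LargeRee
section
/-!
# `A₇` is not a section of the large Ree groups

`no_conj_sq`: no element of order 7 of the split torus of `²F₄(q)` is conjugate to its square;
`not_section`: if `A_r` is a section of `²F₄(q)` then `r ≤ 6`.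
-/

set_option autoImplicit false

namespace Cfsg.Agent.H191.LargeRee

open Cfsg.Lie Cfsg.Agent.ChevalleyStructure.F4NTab
  Cfsg.Agent.ChevalleyStructure.TwF4.Torus Cfsg.Agent.ChevalleyStructure.TwF4.TwGen
  Cfsg.Agent.ChevalleyStructure.TwF4.TorusFix

/-- exponent of the root `r` on the torus element with `s = ζ ^ a`, `t = ζ ^ b` of order 7 (where `θ` is squaring) -/
def ex (a b : ZMod 7) (r : ℕ) : ZMod 7 :=
  2 * b * (ca 0 r : ZMod 7) + 2 * a * (ca 1 r : ZMod 7) + a * (ca 2 r : ZMod 7) + b * (ca 3 r : ZMod 7)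

/-- exponent on a basis vector -/
def exI (a b : ZMod 7) : chevF4.Idx → ZMod 7 := Sum.elim (fun _ => 0) (fun s => ex a b s.val)

/-- The finite check. -/
theorem chk : ∀ a b : ZMod 7, (∀ k : ZMod 7, (Finset.univ.filter fun j => exI a b j = k).card =
    (Finset.univ.filter fun j => 2 * exI a b j = k).card) → a = 0 ∧ b = 0 := by
  decide +kernel

variable {K : Type*} [Field K]

theorem ord_iff {ζ : Kˣ} {p : ℕ} (hζ : orderOf ζ = p) (i j : ℤ) : ζ ^ i = ζ ^ j ↔ (i : ZMod p) = (j : ZMod p) := by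
  rw [zpow_eq_zpow_iff_modEq, hζ, ZMod.intCast_eq_intCast_iff]

/-- the integer exponent -/
def exZ (e a b : ℕ) (r : ℕ) : ℤ :=
  (b * e) * ca 0 r + (a * e) * ca 1 r + a * ca 2 r + b * ca 3 r

theorem chi_eq (ζ : Kˣ) (e a b : ℕ) (r : ℕ) : chi (tc e (ζ ^ a) (ζ ^ b)) r = ζ ^ exZ e a b r := by
  rw [chi_def]
  show ((ζ ^ b) ^ e) ^ ca 0 r * ((ζ ^ a) ^ e) ^ ca 1 r * (ζ ^ a) ^ ca 2 r * (ζ ^ b) ^ ca 3 r = _
  unfold exZ
  rw [← pow_mul, ← pow_mul, ← zpow_natCast, ← zpow_natCast, ← zpow_natCast, ← zpow_natCast, ← zpow_mul, ← zpow_mul,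
    ← zpow_mul, ← zpow_mul, ← zpow_add, ← zpow_add, ← zpow_add]
  push_cast
  rfl

theorem exZ_cast {e : ℕ} (he : (e : ZMod 7) = 2) (a b r : ℕ) : ((exZ e a b r : ℤ) : ZMod 7) = ex a b r := by
  unfold exZ ex
  push_cast
  rw [he]
  ring

/-- the value on a basis vector -/
theorem chiIdx_eq {ζ : Kˣ} {e : ℕ} (a b : ℕ) (j : chevF4.Idx) :
    ∃ n : ℤ, chiIdx (tc e (ζ ^ a) (ζ ^ b)) j = ζ ^ n ∧ ((e : ZMod 7) = 2 → (n : ZMod 7) = exI a b j) := by
  rcases j with i | s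
  · exact ⟨0, by rw [chiIdx_inl, zpow_zero], fun _ => by simp [exI]⟩
  · exact ⟨exZ e a b s.val, by rw [chiIdx_inr, chi_eq], fun he => by rw [exZ_cast he]; rfl⟩

/-- A torus element of order dividing 7 that is conjugate to its square is trivial. -/
theorem no_conj {ζ : Kˣ} (hζ : orderOf ζ = 7) {e : ℕ} (he : (e : ZMod 7) = 2) {a b : ℕ} {g : GL chevF4.Idx K}
    (h : g * T (tc e (ζ ^ a) (ζ ^ b)) * g⁻¹ = T (tc e (ζ ^ a) (ζ ^ b)) ^ 2) : T (tc e (ζ ^ a) (ζ ^ b)) = 1 := by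
  classical
  set c := tc e (ζ ^ a) (ζ ^ b) with hc
  have h2 : ((T c ^ 2 : GL chevF4.Idx K) : Matrix chevF4.Idx chevF4.Idx K) =
      Matrix.diagonal fun j => ((chiIdx c j ^ 2 : Kˣ) : K) := by
    rw [pow_two, Units.val_mul, coe_T, Matrix.diagonal_mul_diagonal]
    congr 1
    funext j
    rw [pow_two, Units.val_mul]
  have key := DiagCount.count_eq_of_conj (coe_T c) h2 h
  have hab : ((a : ℕ) : ZMod 7) = 0 ∧ ((b : ℕ) : ZMod 7) = 0 := by
    apply chk
    intro k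
    have h3 := key ((ζ ^ k.val : Kˣ) : K)
    convert h3 using 2
    · ext j
      simp only [Finset.mem_filter, Finset.mem_univ, true_and]
      obtain ⟨n, hn, hn'⟩ := chiIdx_eq (ζ := ζ) (e := e) a b j
      rw [hc, hn, ← hn' he, ← zpow_natCast, Units.val_inj, ord_iff hζ]
      simp
    · ext j
      simp only [Finset.mem_filter, Finset.mem_univ, true_and]
      obtain ⟨n, hn, hn'⟩ := chiIdx_eq (ζ := ζ) (e := e) a b j
      rw [hc, hn, ← hn' he, ← zpow_natCast, ← zpow_natCast, ← zpow_mul, Units.val_inj, ord_iff hζ]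
      push_cast
      rw [mul_comm]
      simp
  have ha : ζ ^ a = 1 := by
    rw [← orderOf_dvd_iff_pow_eq_one, hζ]
    exact (ZMod.natCast_eq_zero_iff _ _).1 hab.1
  have hb : ζ ^ b = 1 := by
    rw [← orderOf_dvd_iff_pow_eq_one, hζ]
    exact (ZMod.natCast_eq_zero_iff _ _).1 hab.2
  rw [hc, ha, hb]
  have : tc e (1 : Kˣ) 1 = 1 := by
    funext l
    fin_cases l <;> simp [tc]
  rw [this, map_one]

theorem two_pow_mod (j : ℕ) : ((2 ^ j : ℕ) : ZMod 7) = 1 ∨ ((2 ^ j : ℕ) : ZMod 7) = 2 ∨ ((2 ^ j : ℕ) : ZMod 7) = 4 := by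
  induction j with
  | zero => left; rfl
  | succ j ih =>
    rw [pow_succ, Nat.cast_mul]
    rcases ih with h | h | h <;> rw [h]
    · right; left; rfl
    · right; right; rfl
    · left; rfl

theorem arith1 : ∀ q : ZMod 7, q = 2 ∨ q = 4 → (q - 1) ^ 2 *
    ((q - 1 + 1) ^ 12 * ((q - 1 + 1) ^ 3 + 1) * ((q - 1 + 2) * ((q - 1 + 1) ^ 2 + 1)) * ((q - 1 + 1) ^ 6 + 1)) ≠ 0 := by
  decide

theorem arith2 : ∀ q : ZMod 7, q = 1 ∨ q = 4 → q * q * 2 ≠ 1 := by decide

theorem arith3 : ((1 : ZMod 7) - 1 + 1) ^ 12 * ((1 - 1 + 1) ^ 3 + 1) * ((1 - 1 + 2) * ((1 - 1 + 1) ^ 2 + 1)) *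
    ((1 - 1 + 1) ^ 6 + 1) ≠ 0 := by decide

theorem not_section {K : Type*} [Field K] [Fintype K] {m : ℕ} (hK : Fintype.card K = 2 ^ (2 * m + 1)) (r : ℕ)
    (H : Subgroup ↥(twistedF4 K (2 ^ m))) (N : Subgroup ↥H) [N.Normal]
    (h : Nonempty (↥H ⧸ N ≃* ↥(alternatingGroup (Fin r)))) : r ≤ 6 := by
  by_contra hr
  obtain ⟨e⟩ := h
  have hfact : Fact (Nat.Prime 7) := ⟨by norm_num⟩
  have hch := Cfsg.Agent.ChevalleyStructure.F4Fixed.charP_two hK
  obtain ⟨a, b, ha, hab⟩ := AltElts.exists_f21 (r := r) (by omega)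
  let f : ↥H →* alternatingGroup (Fin r) := e.toMonoidHom.comp (QuotientGroup.mk' N)
  have hf : Function.Surjective f := e.surjective.comp (QuotientGroup.mk'_surjective N)
  have hcard := Cfsg.Agent.S1068.result hK
  set Q : ℕ := 2 ^ (2 * m + 1) with hQ
  have hQ1 : 1 ≤ Q := Nat.one_le_two_pow
  -- 7 divides the order of the group
  have h7 : 7 ∣ Nat.card ↥(twistedF4 K (2 ^ m)) := by
    have h1 : 7 ∣ Nat.card (alternatingGroup (Fin r)) := ha ▸ orderOf_dvd_natCard a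
    exact (h1.trans (Subgroup.card_dvd_of_surjective f hf)).trans (Subgroup.card_subgroup_dvd_card H)
  obtain ⟨n, hn⟩ : ∃ n, Q = n + 1 := ⟨Q - 1, by omega⟩
  have hcard' : Nat.card ↥(twistedF4 K (2 ^ m)) =
      n ^ 2 * ((n + 1) ^ 12 * ((n + 1) ^ 3 + 1) * ((n + 2) * ((n + 1) ^ 2 + 1)) * ((n + 1) ^ 6 + 1)) := by
    rw [hcard, hn, Nat.add_sub_cancel, show (n + 1) ^ 4 - 1 = n * ((n + 2) * ((n + 1) ^ 2 + 1)) by
      rw [Nat.sub_eq_iff_eq_add (Nat.one_le_pow _ _ (by omega))]; ring]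
    ring
  have hQmod := two_pow_mod (2 * m + 1)
  rw [← hQ] at hQmod
  have hnc : ((n : ℕ) : ZMod 7) = (Q : ZMod 7) - 1 := by rw [hn]; push_cast; ring
  -- `q = 1 mod 7`
  have hQ7 : (Q : ZMod 7) = 1 := by
    rw [hcard', ← ZMod.natCast_eq_zero_iff] at h7
    push_cast at h7
    rw [hnc] at h7
    rcases hQmod with h | h | h
    · exact h
    · exact absurd h7 (arith1 _ (Or.inl h))
    · exact absurd h7 (arith1 _ (Or.inr h))
  have hn7 : 7 ∣ n := by
    rw [← ZMod.natCast_eq_zero_iff, hnc, hQ7, sub_self]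
  -- `2 ^ m = 2 mod 7`
  have he2 : (((2 ^ m : ℕ)) : ZMod 7) = 2 := by
    have h1 : ((2 ^ m : ℕ) : ZMod 7) * ((2 ^ m : ℕ) : ZMod 7) * 2 = 1 := by
      rw [← hQ7, hQ]
      push_cast
      ring
    rcases two_pow_mod m with h | h | h
    · exact absurd h1 (arith2 _ (Or.inl h))
    · exact h
    · exact absurd h1 (arith2 _ (Or.inr h))
  -- the torus
  set A : Subgroup ↥(twistedF4 K (2 ^ m)) := (chevF4.diagonalSubgroup K).subgroupOf (twistedF4 K (2 ^ m)) with hA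
  have hAmem : ∀ x ∈ A, ∃ s t : Kˣ, (x : GL chevF4.Idx K) = T (tc (2 ^ m) s t) := by
    intro x hx
    exact (mem_iff hK _).1 ⟨hx, x.2⟩
  have hAcard : Nat.card A = n ^ 2 := by
    have h1 := card_H1 hK
    rw [← hQ, hn, Nat.add_sub_cancel] at h1
    rw [← h1]
    exact Nat.card_congr
      { toFun := fun x => ⟨x.1.1, x.2, x.1.2⟩
        invFun := fun x => ⟨⟨x.1, x.2.2⟩, x.2.1⟩
        left_inv := fun _ => rfl
        right_inv := fun _ => rfl }
  have hAcomm : ∀ x ∈ A, ∀ y ∈ A, x * y = y * x := by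
    intro x hx y hy
    obtain ⟨s, t, hx'⟩ := hAmem x hx
    obtain ⟨s', t', hy'⟩ := hAmem y hy
    apply Subtype.ext
    show (x : GL chevF4.Idx K) * y = y * x
    rw [hx', hy', ← map_mul, ← map_mul, mul_comm]
  have hAidx : ¬ 7 ∣ A.index := by
    have h1 : Nat.card A * A.index = Nat.card ↥(twistedF4 K (2 ^ m)) := A.card_mul_index
    have hn0 : 0 < n := by
      by_contra h0
      have : n = 0 := by omega
      rw [this] at hn
      have : 2 ≤ Q := by
        rw [hQ, pow_succ]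
        have := Nat.one_le_two_pow (n := 2 * m)
        omega
      omega
    rw [hAcard, hcard'] at h1
    have h2 := Nat.eq_of_mul_eq_mul_left (pow_pos hn0 2) h1
    rw [h2, ← ZMod.natCast_eq_zero_iff]
    push_cast
    rw [hnc, hQ7]
    exact arith3
  obtain ⟨x, hx, g, hox, hg⟩ := CoprimeEigen.exists_conj_pow A hAcomm hAidx f ha (hf a) (hf b) hab
  obtain ⟨s, t, hst⟩ := hAmem x hx
  have hx7 : x ^ 7 = 1 := hox ▸ pow_orderOf_eq_one x
  have hT : T ((tc (2 ^ m) s t) ^ 7) = (1 : GL chevF4.Idx K) := by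
    rw [map_pow, ← hst]
    exact congrArg Subtype.val hx7
  have hc7 : (tc (2 ^ m) s t) ^ 7 = 1 := T_injective (by rw [hT, map_one])
  have hs7 : s ^ 7 = 1 := congrFun hc7 2
  have ht7 : t ^ 7 = 1 := congrFun hc7 3
  obtain ⟨ζ, hζ⟩ : ∃ ζ : Kˣ, orderOf ζ = 7 := by
    apply exists_prime_orderOf_dvd_card' 7
    rw [Nat.card_units, Nat.card_eq_fintype_card, hK, hn, Nat.add_sub_cancel]
    exact hn7
  have hprim : IsPrimitiveRoot ζ 7 := hζ ▸ IsPrimitiveRoot.orderOf ζ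
  obtain ⟨i, _, hi⟩ := (hprim.map_of_injective (f := Units.coeHom K) Units.val_injective).eq_pow_of_pow_eq_one
    (ξ := (s : K)) (by rw [← Units.val_pow_eq_pow_val, hs7, Units.val_one])
  obtain ⟨j, _, hj⟩ := (hprim.map_of_injective (f := Units.coeHom K) Units.val_injective).eq_pow_of_pow_eq_one
    (ξ := (t : K)) (by rw [← Units.val_pow_eq_pow_val, ht7, Units.val_one])
  have hi' : s = ζ ^ i := Units.ext (by rw [← hi]; simp)
  have hj' : t = ζ ^ j := Units.ext (by rw [← hj]; simp)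
  rw [hi', hj'] at hst
  have hfin := no_conj (K := K) hζ he2 (a := i) (b := j) (g := (g : GL chevF4.Idx K)) (by
    rw [← hst]
    exact congrArg Subtype.val hg)
  rw [← hst] at hfin
  have : x = 1 := Subtype.ext hfin
  rw [this, orderOf_one] at hox
  norm_num at hox

end Cfsg.Agent.H191.LargeRee
end

-- part: S2661
section
set_option autoImplicit false
open scoped MatrixGroups
open Cfsg

namespace Cfsg.Agent.S2661

/-- Alternating sections of the large Ree groups ²F₄. Let `m ≥ 1`, let `K` be a field with `2^(2m+1)` elements and let `G` be the large Ree group ²F₄(2^(2m+1)) realised over `K`. If some subgroup of `G` has a quotient isomorphic to the alternating group of degree `r`, then `r ≤ 6`. (Only an upper bound is asserted.) -/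
theorem result {K : Type*} [Field K] [Fintype K] {m : ℕ} (hm : 1 ≤ m)
    (hK : Fintype.card K = 2 ^ (2 * m + 1)) (r : ℕ) (H : Subgroup ↥(Cfsg.Lie.twistedF4 K (2 ^ m))) (N : Subgroup ↥H) [N.Normal]
    (h : Nonempty (↥H ⧸ N ≃* ↥(alternatingGroup (Fin r)))) :
    r ≤ 6 := by
  exact Cfsg.Agent.H191.LargeRee.not_section hK r H N h

end Cfsg.Agent.S2661
end
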