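import Cfsg.Statements.S2666
set_option linter.all false

set_option autoImplicit false
open Cfsg

namespace Cfsg.Agent.S2666

theorem norm_eq {X : Type*} [Group X] (σ : MulAut X) (a : X) (d : ℕ) :
    ((List.range d).map (fun i => (σ ^ i) (a * (σ a)⁻¹))).prod = a * ((σ ^ d) a)⁻¹ := by
  induction d with
  | zero => simp
  | succ n ih =>
    rw [List.range_succ, List.map_append, List.prod_append, ih]
    simp only [List.map_cons, List.map_nil, List.prod_cons, List.prod_nil, mul_one, map_mul,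
      map_inv]
    rw [pow_succ, MulAut.mul_apply]
    group

theorem result {X : Type*} [Group X] (σ : MulAut X) (e : ℕ) (he : 1 ≤ e)
    (hL : ∀ g : X, ∃ a : X, g = a * (σ a)⁻¹) (hLe : ∀ g : X, ∃ a : X, g = a * ((σ ^ e) a)⁻¹) :
    (∀ g ∈ (MulEquiv.toMonoidHom (σ ^ e)).eqLocus (MonoidHom.id X), ∀ a : X, g = a * (σ a)⁻¹ →
        ((σ ^ e) a)⁻¹ * a ∈ (MulEquiv.toMonoidHom σ).eqLocus (MonoidHom.id X) ∧
          a⁻¹ * ((List.range e).map (fun i => (σ ^ i) g)).prod * a = ((σ ^ e) a)⁻¹ * a) ∧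
    (∀ g ∈ (MulEquiv.toMonoidHom (σ ^ e)).eqLocus (MonoidHom.id X), ∀ g' ∈ (MulEquiv.toMonoidHom (σ ^ e)).eqLocus (MonoidHom.id X), ∀ a b : X,
        g = a * (σ a)⁻¹ → g' = b * (σ b)⁻¹ →
          ((∃ k ∈ (MulEquiv.toMonoidHom (σ ^ e)).eqLocus (MonoidHom.id X), g' = k * g * (σ k)⁻¹) ↔
            (∃ h ∈ (MulEquiv.toMonoidHom σ).eqLocus (MonoidHom.id X), ((σ ^ e) b)⁻¹ * b = h * (((σ ^ e) a)⁻¹ * a) * h⁻¹))) ∧
    (∀ x ∈ (MulEquiv.toMonoidHom σ).eqLocus (MonoidHom.id X), ∃ g ∈ (MulEquiv.toMonoidHom (σ ^ e)).eqLocus (MonoidHom.id X), ∃ a : X,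
        g = a * (σ a)⁻¹ ∧ ((σ ^ e) a)⁻¹ * a = x) := by
  have h1 : ∀ (τ : MulAut X) (x : X),
      x ∈ (MulEquiv.toMonoidHom τ).eqLocus (MonoidHom.id X) ↔ τ x = x := fun τ x => Iff.rfl
  simp only [h1]
  have hcomm : ∀ (x : X), (σ ^ e) (σ x) = σ ((σ ^ e) x) := by
    intro x
    rw [← MulAut.mul_apply, ← MulAut.mul_apply, ← pow_succ, ← pow_succ']
  have hpow : ∀ x : X, σ x = x → (σ ^ e) x = x := by
    intro x hx
    clear hLe he hcomm
    induction e with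
    | zero => simp
    | succ n ih => rw [pow_succ, MulAut.mul_apply, hx, ih]
  refine ⟨?_, ?_, ?_⟩
  · rintro g hg a rfl
    refine ⟨?_, ?_⟩
    · rw [map_mul, map_inv, hcomm] at hg
      rw [map_mul, map_inv]
      have h3 : (σ ^ e) a = a * (σ a)⁻¹ * σ ((σ ^ e) a) := by
        rw [← hg]; group
      calc (σ ((σ ^ e) a))⁻¹ * σ a = (a * (σ a)⁻¹ * σ ((σ ^ e) a))⁻¹ * a := by group
        _ = _ := by rw [← h3]
    · rw [norm_eq]; group
  · rintro g hg g' hg' a b hga hgb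
    constructor
    · rintro ⟨k, hk, hkg⟩
      have hh : σ (b⁻¹ * k * a) = b⁻¹ * k * a := by
        rw [hga, hgb] at hkg
        rw [map_mul, map_mul, map_inv]
        have : (σ b)⁻¹ = b⁻¹ * (k * (a * (σ a)⁻¹) * (σ k)⁻¹) := by
          rw [← hkg]; group
        rw [this]; group
      refine ⟨b⁻¹ * k * a, hh, ?_⟩
      have h2 := hpow _ hh
      rw [map_mul, map_mul, map_inv, hk] at h2
      have h3 : ((σ ^ e) b)⁻¹ = b⁻¹ * k * a * ((σ ^ e) a)⁻¹ * k⁻¹ := by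
        rw [← h2]; group
      rw [h3]; group
    · rintro ⟨h, hh, hx⟩
      have h2 := hpow _ hh
      refine ⟨b * h * a⁻¹, ?_, ?_⟩
      · rw [map_mul, map_mul, map_inv, h2]
        have h3 : b = (σ ^ e) b * (h * (((σ ^ e) a)⁻¹ * a) * h⁻¹) := by
          rw [← hx]; group
        calc (σ ^ e) b * h * ((σ ^ e) a)⁻¹
            = ((σ ^ e) b * (h * (((σ ^ e) a)⁻¹ * a) * h⁻¹)) * h * a⁻¹ := by group
          _ = _ := by rw [← h3]
      · rw [map_mul, map_mul, map_inv, hh, hga, hgb]; group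
  · intro x hx
    obtain ⟨b, hb⟩ := hLe x⁻¹
    have hxe : (σ ^ e) b⁻¹ = b⁻¹ * x⁻¹ := by
      rw [hb, map_inv]; group
    clear hb
    generalize b⁻¹ = c at hxe
    refine ⟨c * (σ c)⁻¹, ?_, c, rfl, ?_⟩
    · rw [map_mul, map_inv, hcomm, hxe, map_mul, map_inv, hx]; group
    · rw [hxe]; group

end Cfsg.Agent.S2666
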