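import Cfsg.Statements.S2667
set_option linter.all false

set_option autoImplicit false
open Cfsg

namespace Cfsg.Agent.S2667

theorem result {X : Type*} [Group X] (σ : MulAut X) (e : ℕ) (he : 1 ≤ e)
    (g : X) (hg : g ∈ (MulEquiv.toMonoidHom (σ ^ e)).eqLocus (MonoidHom.id X)) (a : X) (ha : g = a * (σ a)⁻¹) (k : X) :
    (k ∈ (MulEquiv.toMonoidHom (σ ^ e)).eqLocus (MonoidHom.id X) ∧ k * g * (σ k)⁻¹ = g) ↔
      (a⁻¹ * k * a ∈ (MulEquiv.toMonoidHom σ).eqLocus (MonoidHom.id X) ∧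
        (a⁻¹ * k * a) * (((σ ^ e) a)⁻¹ * a) = (((σ ^ e) a)⁻¹ * a) * (a⁻¹ * k * a)) := by
  have h1 : ∀ (τ : MulAut X) (x : X),
      x ∈ (MulEquiv.toMonoidHom τ).eqLocus (MonoidHom.id X) ↔ τ x = x := fun τ x => Iff.rfl
  rw [h1, h1]
  have hpow : ∀ x : X, σ x = x → (σ ^ e) x = x := by
    intro x hx
    clear he hg
    induction e with
    | zero => simp
    | succ n ih => rw [pow_succ, MulAut.mul_apply, hx, ih]
  have key1 : k * g * (σ k)⁻¹ = g ↔ σ (a⁻¹ * k * a) = a⁻¹ * k * a := by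
    rw [ha, map_mul, map_mul, map_inv]
    constructor
    · intro h
      have : k * a = a * (σ a)⁻¹ * σ k * σ a := by
        rw [← h]; group
      calc (σ a)⁻¹ * σ k * σ a = a⁻¹ * (a * (σ a)⁻¹ * σ k * σ a) := by group
        _ = a⁻¹ * (k * a) := by rw [← this]
        _ = _ := by group
    · intro h
      have : k * a = a * ((σ a)⁻¹ * σ k * σ a) := by rw [h]; group
      calc k * (a * (σ a)⁻¹) * (σ k)⁻¹ = (k * a) * ((σ a)⁻¹ * (σ k)⁻¹) := by group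
        _ = _ := by rw [this]; group
  rw [key1]
  constructor
  · rintro ⟨hk, hh⟩
    refine ⟨hh, ?_⟩
    have h2 := hpow _ hh
    rw [map_mul, map_mul, map_inv, hk] at h2
    have h3 : a⁻¹ * k * a * ((σ ^ e) a)⁻¹ = ((σ ^ e) a)⁻¹ * k := by
      rw [← h2]; group
    calc a⁻¹ * k * a * (((σ ^ e) a)⁻¹ * a) = (a⁻¹ * k * a * ((σ ^ e) a)⁻¹) * a := by group
      _ = _ := by rw [h3]; group
  · rintro ⟨hh, hc⟩
    refine ⟨?_, hh⟩
    have h2 := hpow _ hh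
    rw [map_mul, map_mul, map_inv] at h2
    have h3 : (σ ^ e) k = (σ ^ e) a * (a⁻¹ * k * a) * ((σ ^ e) a)⁻¹ := by
      rw [← h2]; group
    rw [h3]
    calc (σ ^ e) a * (a⁻¹ * k * a) * ((σ ^ e) a)⁻¹
        = (σ ^ e) a * ((a⁻¹ * k * a) * (((σ ^ e) a)⁻¹ * a)) * a⁻¹ := by group
      _ = _ := by rw [hc]; group

end Cfsg.Agent.S2667
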