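import Mathlib
import Cfsg.Prelude.Def_ClassicalGeometry
import Cfsg.Agent.ClassicalGeometry.SympBasic
import Cfsg.Agent.ClassicalGeometry.SymmNormalForm
import Cfsg.Agent.H194.NilFormD
import Cfsg.Agent.H194.Cayley
import Cfsg.Statements.S2676
set_option linter.all false

-- part: H194/SpUnip
section
/-!
# Unipotent elements of `Sp_{2m}(F)`, `F` finite of odd characteristic, up to conjugacy

`SP m p` : the signed partitions of `2m` with parts at most `p`; `HasType g s`.
-/

set_option autoImplicit false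

namespace Cfsg.Agent.H194.SpUnip

open Module Cfsg Cfsg.Agent.H194.NilForm Cfsg.Agent.H194.Cayley Cfsg.Agent.ClassicalGeometry.SympBasic
open scoped Matrix

variable {F : Type*} [Field F] {m : ℕ}

/-- the linear map of a matrix -/
noncomputable abbrev φ (F : Type*) [Field F] (m : ℕ) :
    Matrix (Fin m ⊕ Fin m) (Fin m ⊕ Fin m) F ≃ₐ[F] Module.End F (Fin m ⊕ Fin m → F) :=
  Matrix.toLinAlgEquiv'

theorem φ_apply (A : Matrix (Fin m ⊕ Fin m) (Fin m ⊕ Fin m) F) (v : Fin m ⊕ Fin m → F) :
    φ F m A v = A *ᵥ v := by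
  rw [Matrix.toLinAlgEquiv'_apply]

theorem sc (h2 : (2 : F) ≠ 0) : Sc (RingHom.id F) (-1) (-1) (2⁻¹ : F) where
  invol _ := rfl
  eps := by simp
  eta := by simp
  tau := by
    rw [RingHom.id_apply, ← two_mul, mul_inv_cancel₀ h2]

theorem pair {N : Module.End F (Fin m ⊕ Fin m → F)} (hN : ∀ x y, sympForm m F (N x) y = - sympForm m F x (N y)) :
    Pair (RingHom.id F) (-1) (-1) (sympForm m F) N where
  add_left := sympForm_add_left
  smul_left := sympForm_smul_left
  symm x y := by rw [sympForm_swap, RingHom.id_apply, neg_one_mul]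
  adj x y := by rw [hN, neg_one_mul]
  nondeg x hx := eq_zero_of_forall_sympForm_right hx

theorem skew (h2 : (2 : F) ≠ 0) (g : Matrix.symplecticGroup (Fin m) F) {N : Module.End F (Fin m ⊕ Fin m → F)}
    (h : Cay (φ F m g) N) (x y : Fin m ⊕ Fin m → F) : sympForm m F (N x) y = - sympForm m F x (N y) := by
  refine skew_of_isometry h2 sympForm_add_left sympForm_add_right ?_ h x y
  intro x y
  rw [φ_apply, φ_apply, sympForm_mulVec g.2]

/-- the symmetry of the Gram matrix -/
theorem gram_symm {V : Type*} [AddCommGroup V] [Module F V] {f : V → V → F} {N : V →ₗ[F] V}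
    (h : Pair (RingHom.id F) (-1) (-1) f N) {ι : Type*} [Fintype ι] [DecidableEq ι]
    {ℓ : ι → ℕ} {S : Matrix ι ι F} {x : ι → V} (hx : IsNB f N ℓ S x) (a b : ι) :
    S b a = (-1) ^ ℓ a * S a b := by
  by_cases hab : ℓ a = ℓ b
  · obtain ⟨k, hk⟩ : ∃ k, k + 1 = ℓ a := ⟨ℓ a - 1, by have := hx.pos a; omega⟩
    have h1 := hx.form b a k
    have h3 := hx.form a b k
    rw [if_pos hk] at h1
    rw [if_pos (hk.trans hab)] at h3
    rw [← h1, ← h3, h.symm_pow, RingHom.id_apply, RingHom.id_apply, ← hk, pow_succ]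
    ring
  · rw [hx.blk a b hab, hx.blk b a (Ne.symm hab), mul_zero]

/-- signed partitions -/
def SP (m p : ℕ) : Type :=
  (μ : {μ : Nat.Partition (2 * m) // (∀ a ∈ μ.parts, a ≤ p) ∧ ∀ j : ℕ, Odd j → Even (μ.parts.count j)}) ×
    ({j // j ∈ μ.1.parts.toFinset.filter (fun j => Even j)} → Bool)

/-- the type of a unipotent element -/
def HasType {p : ℕ} (g : Matrix.symplecticGroup (Fin m) F) (s : SP m p) : Prop :=
  ∃ N, Cay (φ F m g) N ∧ ∃ (ι : Type) (_ : Fintype ι) (_ : DecidableEq ι) (ℓ : ι → ℕ) (S : Matrix ι ι F)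
    (x : ι → (Fin m ⊕ Fin m → F)), IsNB (sympForm m F) N ℓ S x ∧ Finset.univ.val.map ℓ = s.1.1.parts ∧
    ∀ j, (IsSquare (S.toSquareBlock ℓ j.1).det ↔ s.2 j = true)

theorem count_map {ι : Type*} [Fintype ι] [DecidableEq ι] (ℓ : ι → ℕ) (j : ℕ) :
    (Finset.univ.val.map ℓ : Multiset ℕ).count j = Fintype.card {a // ℓ a = j} := by
  rw [Multiset.count_map, Fintype.card_subtype, Finset.card_def, Finset.filter_val]
  simp only [eq_comm]

theorem block_symm {V : Type*} [AddCommGroup V] [Module F V] {f : V → V → F} {N : V →ₗ[F] V}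
    (h : Pair (RingHom.id F) (-1) (-1) f N) {ι : Type*} [Fintype ι] [DecidableEq ι]
    {ℓ : ι → ℕ} {S : Matrix ι ι F} {x : ι → V} (hx : IsNB f N ℓ S x) (i : ℕ) :
    (S.toSquareBlock ℓ i)ᵀ = ((-1 : F) ^ i) • S.toSquareBlock ℓ i := by
  ext a b
  rw [Matrix.transpose_apply, Matrix.smul_apply]
  simp only [Matrix.toSquareBlock_def, Matrix.of_apply, smul_eq_mul]
  have := gram_symm h hx a b
  rwa [a.2] at this

/-- every unipotent element has a type -/
theorem exists_type (h2 : (2 : F) ≠ 0) {p : ℕ} (g : Matrix.symplecticGroup (Fin m) F)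
    (hg : (φ F m g - 1) ^ p = 0) : ∃ s : SP m p, HasType g s := by
  classical
  have h2' : IsUnit (2 : Module.End F (Fin m ⊕ Fin m → F)) := by
    rw [← map_ofNat (algebraMap F (Module.End F (Fin m ⊕ Fin m → F))) 2]
    exact (IsUnit.mk0 _ h2).map _
  obtain ⟨N, hc, hN⟩ := exists_cay h2' hg
  have hP := pair (skew h2 g hc)
  obtain ⟨ι, _, _, ℓ, S, x, hx, hℓ⟩ := exists_nb (sc h2) p hP hN
  have hη : (-1 : F) ≠ 0 := by simp
  let μ : Nat.Partition (2 * m) :=
    { parts := Finset.univ.val.map ℓ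
      parts_pos := by
        intro i hi
        obtain ⟨a, -, rfl⟩ := Multiset.mem_map.1 hi
        exact hx.pos a
      parts_sum := by
        have h1 := hx.finrank_eq hP hη
        rw [Module.finrank_fintype_fun_eq_card] at h1
        change ∑ a, ℓ a = _
        rw [← h1]
        simp
        ring }
  have hμ : (∀ a ∈ μ.parts, a ≤ p) ∧ ∀ j : ℕ, Odd j → Even (μ.parts.count j) := by
    constructor
    · intro a ha
      obtain ⟨b, -, rfl⟩ := Multiset.mem_map.1 ha
      exact hℓ b
    · intro j hj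
      change Even ((Finset.univ.val.map ℓ : Multiset ℕ).count j)
      rw [count_map]
      have h3 := block_symm hP hx j
      rw [hj.neg_one_pow, neg_one_smul] at h3
      obtain ⟨k, hk⟩ := even_card_of_alt h2 h3 (hx.block_isUnit j)
      rw [hk]
      exact even_two_mul k
  refine ⟨⟨⟨μ, hμ⟩, fun j => decide (IsSquare (S.toSquareBlock ℓ j.1).det)⟩, N, hc, ι, inferInstance,
    inferInstance, ℓ, S, x, hx, rfl, ?_⟩
  intro j
  simp

/-- the type is unique -/
theorem type_unique (h2 : (2 : F) ≠ 0) {p : ℕ} {g : Matrix.symplecticGroup (Fin m) F} {s s' : SP m p}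
    (h : HasType g s) (h' : HasType g s') : s = s' := by
  obtain ⟨N, hc, ι, _, _, ℓ, S, x, hx, hs, hsq⟩ := h
  obtain ⟨N', hc', ι', _, _, ℓ', S', x', hx', hs', hsq'⟩ := h'
  have h2' : IsUnit (2 : Module.End F (Fin m ⊕ Fin m → F)) := by
    rw [← map_ofNat (algebraMap F (Module.End F (Fin m ⊕ Fin m → F))) 2]
    exact (IsUnit.mk0 _ h2).map _
  obtain rfl := hc.unique h2' hc'
  have hP := pair (skew h2 g hc)
  have hη : (-1 : F) ≠ 0 := by simp
  obtain ⟨⟨μ, hμ⟩, δ⟩ := s
  obtain ⟨⟨μ', hμ'⟩, δ'⟩ := s'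
  have h1 : μ = μ' := by
    apply Nat.Partition.ext
    rw [← hs, ← hs']
    ext j
    rw [count_map, count_map]
    rcases Nat.eq_zero_or_pos j with rfl | hj
    · have : IsEmpty {a // ℓ a = 0} := ⟨fun a => (hx.pos a).ne' a.2⟩
      have : IsEmpty {a // ℓ' a = 0} := ⟨fun a => (hx'.pos a).ne' a.2⟩
      rw [Fintype.card_eq_zero, Fintype.card_eq_zero]
    · exact hx.card_eq hP hη hx' j hj
  subst h1
  have h3 : δ = δ' := by
    funext j
    have h4 := hsq j
    have h5 := hsq' j
    have hj : 0 < j.1 := μ.parts_pos (Multiset.mem_toFinset.1 (Finset.mem_filter.1 j.2).1)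
    obtain ⟨c, hc0, hdet⟩ := hx.det_eq hP hη hx' j.1 hj
    have h6 : IsSquare (S.toSquareBlock ℓ j.1).det ↔ IsSquare (S'.toSquareBlock ℓ' j.1).det := by
      rw [hdet, RingHom.id_apply]
      constructor
      · rintro ⟨r, hr⟩
        refine ⟨r / c, ?_⟩
        field_simp
        linear_combination hr
      · rintro ⟨r, hr⟩
        exact ⟨c * r, by rw [hr]; ring⟩
    dsimp only at h4 h5
    rw [h6, h5] at h4
    rw [Bool.eq_iff_iff]
    exact h4.symm
  subst h3
  rfl

theorem φ_mul (g h : Matrix.symplecticGroup (Fin m) F) :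
    φ F m ((g * h : Matrix.symplecticGroup (Fin m) F) : Matrix (Fin m ⊕ Fin m) (Fin m ⊕ Fin m) F) = φ F m g * φ F m h := by
  rw [← map_mul]
  rfl

theorem φ_one : φ F m ((1 : Matrix.symplecticGroup (Fin m) F) : Matrix (Fin m ⊕ Fin m) (Fin m ⊕ Fin m) F) = 1 := by
  rw [← map_one (φ F m)]
  rfl

/-- conjugate elements have the same types -/
theorem HasType.conj {p : ℕ} {g : Matrix.symplecticGroup (Fin m) F} {s : SP m p} (H : HasType g s)
    (h : Matrix.symplecticGroup (Fin m) F) : HasType (h * g * h⁻¹) s := by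
  obtain ⟨N, hc, ι, _, _, ℓ, S, x, hx, hs, hsq⟩ := H
  have hPQ : φ F m h * φ F m (h⁻¹ : Matrix.symplecticGroup (Fin m) F) = 1 := by
    rw [← φ_mul, mul_inv_cancel, φ_one]
  have hQP : φ F m (h⁻¹ : Matrix.symplecticGroup (Fin m) F) * φ F m h = 1 := by
    rw [← φ_mul, inv_mul_cancel, φ_one]
  set P := φ F m h with hPdef
  set Q := φ F m (h⁻¹ : Matrix.symplecticGroup (Fin m) F) with hQdef
  let e : (Fin m ⊕ Fin m → F) ≃ₗ[F] (Fin m ⊕ Fin m → F) := LinearEquiv.ofLinearMap Q P hQP hPQ
  have he : ∀ v, e v = Q v := fun v => rfl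
  have hP' : ∀ v, Q (P v) = v := fun v => congrArg (fun T : Module.End F _ => T v) hQP
  refine ⟨P * N * Q, ⟨?_, ?_⟩, ι, inferInstance, inferInstance, ℓ, S, fun a => e.symm (x a), ?_, hs, hsq⟩
  · rw [φ_mul, φ_mul, ← hPdef, ← hQdef]
    calc P * φ F m g * Q * (1 - P * N * Q) = P * φ F m g * (Q - (Q * P) * N * Q) := by
          simp only [mul_sub, mul_one, mul_assoc]
      _ = P * (φ F m g * (1 - N)) * Q := by
          rw [hQP, one_mul]
          simp only [mul_sub, sub_mul, mul_one, mul_assoc]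
      _ = P * Q + P * N * Q := by
          rw [hc.mul]
          simp only [mul_add, add_mul, mul_one]
      _ = 1 + P * N * Q := by rw [hPQ]
  · rw [φ_mul, φ_mul, ← hPdef, ← hQdef]
    show P * φ F m g * Q * (P * N * Q) = P * N * Q * (P * φ F m g * Q)
    calc P * φ F m g * Q * (P * N * Q) = P * (φ F m g * (Q * P) * N) * Q := by simp only [mul_assoc]
      _ = P * (N * (Q * P) * φ F m g) * Q := by rw [hQP, mul_one, mul_one, hc.comm.eq]
      _ = _ := by simp only [mul_assoc]
  · refine hx.transport e ?_ ?_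
    · intro u v
      rw [he, he, hQdef, φ_apply, φ_apply, sympForm_mulVec (h⁻¹ : Matrix.symplecticGroup (Fin m) F).2]
    · intro v
      rw [he, he]
      show Q (P (N (Q v))) = _
      rw [hP']

theorem exists_sq_mul [Finite F] {a b : F} (ha : a ≠ 0) (h : IsSquare a ↔ IsSquare b) :
    ∃ s : F, b = s ^ 2 * a := by
  by_cases hsa : IsSquare a
  · obtain ⟨t, ht⟩ := h.1 hsa
    obtain ⟨r, hr⟩ := hsa
    have hr0 : r ≠ 0 := fun h0 => ha (by rw [hr, h0, mul_zero])
    exact ⟨t / r, by rw [hr, ht]; field_simp⟩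
  · have hsb : ¬ IsSquare b := fun hb => hsa (h.2 hb)
    obtain ⟨r, hr⟩ := Cfsg.Agent.ClassicalGeometry.SymmNormalForm.isSquare_div_of_not hsa hsb
    refine ⟨r / a, ?_⟩
    field_simp
    linear_combination hr

/-- elements of the same type are conjugate -/
theorem conj_of_type [Finite F] (h2 : (2 : F) ≠ 0) {p : ℕ} {g g' : Matrix.symplecticGroup (Fin m) F} {s : SP m p}
    (H : HasType g s) (H' : HasType g' s) : IsConj g g' := by
  obtain ⟨N, hc, ι, _, _, ℓ, S, x, hx, hs, hsq⟩ := H
  obtain ⟨N', hc', ι', _, _, ℓ', S', x', hx', hs', hsq'⟩ := H'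
  have hP := pair (skew h2 g hc)
  have hP' := pair (skew h2 g' hc')
  have hη : (-1 : F) ≠ 0 := by simp
  have hcard : ∀ i, Fintype.card {a // ℓ a = i} = Fintype.card {a // ℓ' a = i} := by
    intro i
    rw [← count_map, ← count_map, hs, hs']
  obtain ⟨e, he, heN⟩ := exists_isometry_of_blocks hP hP' hη hx hx' (by
    intro i hi
    have h3 := block_symm hP hx i
    have h3' := block_symm hP' hx' i
    rcases Nat.even_or_odd i with hev | hodd
    · rw [hev.neg_one_pow, one_smul] at h3 h3'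
      by_cases hmem : i ∈ s.1.1.parts
      · have hj := hsq ⟨i, Finset.mem_filter.2 ⟨Multiset.mem_toFinset.2 hmem, hev⟩⟩
        have hj' := hsq' ⟨i, Finset.mem_filter.2 ⟨Multiset.mem_toFinset.2 hmem, hev⟩⟩
        obtain ⟨c, hc⟩ := exists_sq_mul (F := F) (a := (S.toSquareBlock ℓ i).det) (b := (S'.toSquareBlock ℓ' i).det)
          ((Matrix.isUnit_iff_isUnit_det _).1 (hx.block_isUnit i)).ne_zero (hj.trans hj'.symm)
        exact cg_symm h2 h3 h3' (hx.block_isUnit i) (hx'.block_isUnit i) (hcard i) hc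
      · have h0 : Fintype.card {a // ℓ a = i} = 0 := by
          rw [← count_map, hs]
          exact Multiset.count_eq_zero.2 hmem
        have h0' : Fintype.card {a // ℓ' a = i} = 0 := by rw [← hcard i, h0]
        have := Fintype.card_eq_zero_iff.1 h0
        have := Fintype.card_eq_zero_iff.1 h0'
        refine cg_symm h2 h3 h3' (hx.block_isUnit i) (hx'.block_isUnit i) (hcard i) (s := 1) ?_
        rw [Matrix.det_isEmpty, Matrix.det_isEmpty, one_pow, mul_one]
    · rw [hodd.neg_one_pow, neg_one_smul] at h3 h3'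
      exact cg_alt h2 h3 h3' (hx.block_isUnit i) (hx'.block_isUnit i) (hcard i))
  -- the matrix of `e`
  let M : Matrix (Fin m ⊕ Fin m) (Fin m ⊕ Fin m) F := LinearMap.toMatrix' (e : (Fin m ⊕ Fin m → F) →ₗ[F] _)
  have hM : ∀ v, M *ᵥ v = e v := by
    intro v
    rw [← Matrix.toLin'_apply, Matrix.toLin'_toMatrix']
    rfl
  have hMs : M ∈ Matrix.symplecticGroup (Fin m) F := by
    rw [mem_symplecticGroup_iff]
    intro u v
    rw [hM, hM, he]
  let h : Matrix.symplecticGroup (Fin m) F := ⟨M, hMs⟩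
  have hφ : ∀ v, φ F m h v = e v := fun v => by rw [φ_apply]; exact hM v
  have hcomm : φ F m h * N = N' * φ F m h := by
    refine LinearMap.ext fun v => ?_
    rw [Module.End.mul_apply, Module.End.mul_apply, hφ, hφ, heN]
  have hkey : φ F m g' * φ F m h = φ F m h * φ F m g := by
    have h4 : (φ F m g' * φ F m h - φ F m h * φ F m g) * (1 - N) = 0 := by
      rw [sub_mul, mul_assoc, mul_assoc, hc.mul, mul_sub, mul_one, hcomm]
      have h5 : φ F m h - N' * φ F m h = (1 - N') * φ F m h := by rw [sub_mul, one_mul]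
      rw [h5, ← mul_assoc, hc'.mul, mul_add, mul_one, hcomm, add_mul, one_mul, sub_self]
    have h6 : (φ F m g' * φ F m h - φ F m h * φ F m g) * 2 = 0 := by
      rw [← hc.mul_add, ← mul_assoc, h4, zero_mul]
    have h2' : IsUnit (2 : Module.End F (Fin m ⊕ Fin m → F)) := by
      rw [← map_ofNat (algebraMap F (Module.End F (Fin m ⊕ Fin m → F))) 2]
      exact (IsUnit.mk0 _ h2).map _
    exact sub_eq_zero.1 (h2'.mul_left_eq_zero.1 h6)
  rw [isConj_iff]
  refine ⟨h, ?_⟩
  rw [mul_inv_eq_iff_eq_mul]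
  apply Subtype.ext
  apply (φ F m).injective
  rw [φ_mul, φ_mul, hkey]

/-! ### realisation -/

/-- the partner of an index -/
def ptn (n : ℕ) (hn : Even n) (k : Fin n) : Fin n :=
  ⟨if (k : ℕ) % 2 = 0 then k + 1 else k - 1, by
    have := k.2
    obtain ⟨r, hr⟩ := hn
    split_ifs <;> omega⟩

theorem ptn_ptn (n : ℕ) (hn : Even n) (k : Fin n) : ptn n hn (ptn n hn k) = k := by
  apply Fin.ext
  simp only [ptn]
  split_ifs <;> omega

theorem ptn_mod (n : ℕ) (hn : Even n) (k : Fin n) : ((ptn n hn k : ℕ) % 2 = 0) ↔ ¬ ((k : ℕ) % 2 = 0) := by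
  simp only [ptn]
  split_ifs <;> omega

/-- a monomial matrix -/
theorem monomial_isUnit {ι : Type*} [Fintype ι] [DecidableEq ι] (π : ι → ι) (hπ : ∀ a, π (π a) = a) (w : ι → F)
    (hw : ∀ a, w a ≠ 0) : IsUnit (Matrix.of fun a b => if b = π a then w a else 0 : Matrix ι ι F) := by
  apply IsUnit.of_mul_eq_one (Matrix.of fun a b => if b = π a then (w (π a))⁻¹ else 0)
  ext a b
  rw [Matrix.mul_apply, Finset.sum_eq_single (π a)]
  · rw [Matrix.of_apply, Matrix.of_apply, if_pos rfl, hπ, Matrix.one_apply]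
    by_cases hab : a = b
    · rw [if_pos hab.symm, if_pos hab, mul_inv_cancel₀ (hw a)]
    · rw [if_neg (Ne.symm hab), if_neg hab, mul_zero]
  · intro c _ hc
    rw [Matrix.of_apply, if_neg hc, zero_mul]
  · intro hcon; exact absurd (Finset.mem_univ _) hcon

/-- every signed partition is a type -/
theorem exists_of_type [Fintype F] (h2 : (2 : F) ≠ 0) {p : ℕ} (s : SP m p) :
    ∃ g : Matrix.symplecticGroup (Fin m) F, (φ F m g - 1) ^ p = 0 ∧ HasType g s := by
  classical
  obtain ⟨⟨μ, hμp, hμo⟩, δ⟩ := s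
  obtain ⟨ν, hν⟩ : ∃ ν : F, ¬ IsSquare ν := FiniteField.exists_nonsquare (fun h => h2 (by
    have := ringChar.Nat.cast_ringChar (R := F)
    rw [h] at this
    exact_mod_cast this))
  have hν0 : ν ≠ 0 := fun h0 => hν (by rw [h0]; exact ⟨0, by simp⟩)
  -- the index type, block sizes and Gram matrix
  let ι : Type := (j : ℕ) × Fin (μ.parts.count j)
  let _ : Fintype ι := (inferInstance : Fintype μ.parts.ToType)
  let ℓ : ι → ℕ := fun a => a.1
  have hℓmem : ∀ a : ι, ℓ a ∈ μ.parts := fun a => by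
    have h3 := a.2.2
    exact Multiset.count_pos.1 (lt_of_le_of_lt (Nat.zero_le _) h3)
  let π : ι → ι := fun a => if h : Odd a.1 then ⟨a.1, ptn _ (hμo a.1 h) a.2⟩ else a
  have hπ1 : ∀ a, (π a).1 = a.1 := by
    intro a
    simp only [π]
    split_ifs <;> rfl
  have hπ : ∀ a, π (π a) = a := by
    rintro ⟨j, k⟩
    by_cases h : Odd j
    · have h3 : π ⟨j, k⟩ = ⟨j, ptn _ (hμo j h) k⟩ := dif_pos h
      have h4 : ∀ k', π ⟨j, k'⟩ = ⟨j, ptn _ (hμo j h) k'⟩ := fun k' => dif_pos h
      rw [h3, h4, ptn_ptn]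
    · have h3 : ∀ k', π ⟨j, k'⟩ = ⟨j, k'⟩ := fun k' => dif_neg h
      rw [h3, h3]
  let c : ℕ → F := fun j => if h : j ∈ μ.parts.toFinset.filter (fun j => Even j) then
    (if δ ⟨j, h⟩ = true then 1 else ν) else 1
  have hc0 : ∀ j, c j ≠ 0 := by
    intro j
    simp only [c]
    split_ifs
    · exact one_ne_zero
    · exact hν0
    · exact one_ne_zero
  let w : ι → F := fun a => if Odd a.1 then (if (a.2 : ℕ) % 2 = 0 then 1 else -1) else
    (if (a.2 : ℕ) = 0 then c a.1 else 1)
  have hw : ∀ a, w a ≠ 0 := by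
    intro a
    simp only [w]
    split_ifs
    · exact one_ne_zero
    · simp
    · exact hc0 _
    · exact one_ne_zero
  have hwπ : ∀ a, w (π a) = (-1) ^ (a.1) * w a := by
    rintro ⟨j, k⟩
    by_cases h : Odd j
    · have h3 : π ⟨j, k⟩ = ⟨j, ptn _ (hμo j h) k⟩ := dif_pos h
      rw [h3]
      simp only [w]
      rw [if_pos h, if_pos h, h.neg_one_pow]
      have h4 := ptn_mod _ (hμo j h) k
      by_cases hk : (k : ℕ) % 2 = 0
      · rw [if_neg (by rw [h4]; exact not_not.2 hk), if_pos hk]; ring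
      · rw [if_pos (h4.2 hk), if_neg hk]; ring
    · have h3 : ∀ k', π ⟨j, k'⟩ = ⟨j, k'⟩ := fun k' => dif_neg h
      rw [h3, (Nat.not_odd_iff_even.1 h).neg_one_pow, one_mul]
  let S : Matrix ι ι F := Matrix.of fun a b => if b = π a then w a else 0
  have hSunit : IsUnit S := monomial_isUnit π hπ w hw
  have hSblk : ∀ a b, ℓ a ≠ ℓ b → S a b = 0 := by
    intro a b hab
    simp only [S, Matrix.of_apply]
    rw [if_neg]
    rintro rfl
    exact hab (hπ1 a).symm
  have hSsymm : ∀ a b, S b a = (-1) ^ (ℓ a) * S a b := by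
    intro a b
    simp only [S, Matrix.of_apply]
    by_cases hab : b = π a
    · subst hab
      rw [if_pos (hπ a).symm, if_pos rfl]
      exact hwπ a
    · rw [if_neg hab, if_neg, mul_zero]
      intro hcon
      exact hab (by rw [hcon, hπ])
  have hpos : ∀ a, 0 < ℓ a := fun a => μ.parts_pos (hℓmem a)
  have hP := mpair ℓ S (sc h2) (by simp) hSblk hSunit (fun a b hab => by
    rw [hSsymm a b, RingHom.id_apply, RingHom.id_apply]
    obtain ⟨k, hk⟩ : ∃ k, k + 1 = ℓ a := ⟨ℓ a - 1, by have := hpos a; omega⟩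
    rw [← hk, Nat.add_sub_cancel, pow_succ]
    ring)
  have hNB := mnb (σ := RingHom.id F) (η := (-1 : F)) ℓ S hpos hSblk hSunit
  have hη : (-1 : F) ≠ 0 := by simp
  have hmap : (Finset.univ.val.map ℓ : Multiset ℕ) = μ.parts := Multiset.map_univ_coe μ.parts
  -- the alternating form
  let B : LinearMap.BilinForm F (((a : ι) × Fin (ℓ a)) → F) :=
    LinearMap.mk₂ F (mform ℓ S (RingHom.id F) (-1)) (mform_add_left ℓ S) (mform_smul_left ℓ S)
      (mform_add_right ℓ S) (mform_smul_right ℓ S)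
  have hBA : B.IsAlt := by
    intro v
    have h3 := hP.symm v v
    have h4 : B v v = - B v v := by
      change mform ℓ S (RingHom.id F) (-1) v v = - mform ℓ S (RingHom.id F) (-1) v v
      conv_lhs => rw [h3]
      rw [RingHom.id_apply, neg_one_mul]
    have h5 : (2 : F) * B v v = 0 := by linear_combination h4
    exact (mul_eq_zero.1 h5).resolve_left h2
  have hfr : finrank F (((a : ι) × Fin (ℓ a)) → F) = 2 * m := by
    rw [hNB.finrank_eq hP hη]
    have h3 := μ.parts_sum
    rw [← hmap] at h3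
    exact h3
  obtain ⟨e, he⟩ := Cfsg.Agent.ClassicalGeometry.SympIso.exists_linearEquiv_sympForm B hBA
    (fun u hu => hP.nondeg u hu) hfr
  let N : Module.End F (Fin m ⊕ Fin m → F) := e.symm.toLinearMap ∘ₗ mnil F ℓ ∘ₗ e.toLinearMap
  have heN : ∀ v, e (N v) = mnil F ℓ (e v) := fun v => e.apply_symm_apply _
  have hP' := hP.transport e he heN
  have hNB' := hNB.transport e he heN
  -- nilpotency
  have hNp : N ^ p = 0 := by
    have h3 : ∀ j v, (N ^ j) v = e.symm ((mnil F ℓ ^ j) (e v)) := by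
      intro j
      induction j with
      | zero => intro v; rw [pow_zero, pow_zero, Module.End.one_apply, Module.End.one_apply, e.symm_apply_apply]
      | succ j ih =>
        intro v
        rw [pow_succ, pow_succ, Module.End.mul_apply, Module.End.mul_apply, ih, heN]
    refine LinearMap.ext fun v => ?_
    rw [h3, LinearMap.zero_apply]
    have h4 : (mnil F ℓ ^ p) (e v) = 0 := by
      rw [eq_sum_vec ℓ (e v), map_sum]
      refine Finset.sum_eq_zero fun q _ => ?_
      rw [map_smul, mnil_pow_vec, vec, dif_neg, smul_zero]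
      have := hμp _ (hℓmem q.1)
      omega
    rw [h4, map_zero]
  obtain ⟨G, hG, hGp⟩ := exists_of_nil hNp
  have hGiso : ∀ x y, sympForm m F (G x) (G y) = sympForm m F x y :=
    isometry_of_skew h2 sympForm_add_left sympForm_add_right
      (fun x y => by have := hP'.adj x y; rwa [neg_one_mul] at this) hG
  let A : Matrix (Fin m ⊕ Fin m) (Fin m ⊕ Fin m) F := (φ F m).symm G
  have hφA : φ F m A = G := (φ F m).apply_symm_apply G
  have hA : A ∈ Matrix.symplecticGroup (Fin m) F := by
    rw [mem_symplecticGroup_iff]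
    intro u v
    rw [← φ_apply, ← φ_apply, hφA, hGiso]
  refine ⟨⟨A, hA⟩, ?_, N, ?_, ι, inferInstance, inferInstance, ℓ, S, _, hNB', hmap, ?_⟩
  · change (φ F m A - 1) ^ p = 0
    rw [hφA, hGp]
  · change Cay (φ F m A) N
    rw [hφA]
    exact hG
  · intro j
    have hj := Finset.mem_filter.1 j.2
    have hdiag : S.toSquareBlock ℓ j.1 = Matrix.diagonal (fun a : {a // ℓ a = j.1} => w a.1) := by
      ext a b
      simp only [Matrix.toSquareBlock_def, Matrix.of_apply, S, Matrix.diagonal_apply]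
      have h3 : π a.1 = a.1 := dif_neg (by
        have h4 : a.1.1 = j.1 := a.2
        rw [h4]
        exact Nat.not_odd_iff_even.2 hj.2)
      rw [h3]
      by_cases hab : a = b
      · subst hab
        rw [if_pos rfl, if_pos rfl]
      · rw [if_neg hab, if_neg (fun hcon => hab (Subtype.ext hcon.symm))]
    have hcnt : 0 < μ.parts.count j.1 := Multiset.count_pos.2 (Multiset.mem_toFinset.1 hj.1)
    have hdet : (S.toSquareBlock ℓ j.1).det = c j.1 := by
      rw [hdiag, Matrix.det_diagonal, Finset.prod_eq_single ⟨⟨j.1, ⟨0, hcnt⟩⟩, rfl⟩]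
      · simp only [w]
        rw [if_neg (Nat.not_odd_iff_even.2 hj.2)]
        simp
      · rintro ⟨⟨j', k⟩, hj'⟩ _ hne
        obtain rfl : j' = j.1 := hj'
        simp only [w]
        rw [if_neg (Nat.not_odd_iff_even.2 hj.2), if_neg]
        intro hk
        apply hne
        apply Subtype.ext
        have : k = ⟨0, hcnt⟩ := Fin.ext hk
        rw [this]
      · intro hcon; exact absurd (Finset.mem_univ _) hcon
    rw [hdet]
    simp only [c]
    rw [dif_pos j.2]
    by_cases hδ : δ j = true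
    · rw [if_pos hδ]
      exact ⟨fun _ => hδ, fun _ => ⟨1, by simp⟩⟩
    · rw [if_neg hδ]
      exact ⟨fun hsq => absurd hsq hν, fun h => absurd h hδ⟩

end Cfsg.Agent.H194.SpUnip
end

-- part: S2676
section
set_option autoImplicit false
open Classical
open Cfsg

namespace Cfsg.Agent.S2676

open Cfsg.Agent.H194.SpUnip

section

variable {F : Type*} [Field F] [Fintype F] {p : ℕ} [Fact p.Prime] [CharP F p] {m : ℕ}

omit [Fintype F] in
theorem pow_iff (g : Matrix.symplecticGroup (Fin m) F) : (φ F m g - 1) ^ p = 0 ↔ g ^ p = 1 := by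
  have hch : CharP (Module.End F (Fin m ⊕ Fin m → F)) p ∨ m = 0 := by
    rcases Nat.eq_zero_or_pos m with h | h
    · exact Or.inr h
    · left
      have : Nonempty (Fin m ⊕ Fin m) := ⟨Sum.inl ⟨0, h⟩⟩
      exact charP_of_injective_algebraMap (algebraMap F (Module.End F (Fin m ⊕ Fin m → F))).injective p
  have hpow : ∀ k : ℕ, φ F m ((g ^ k : Matrix.symplecticGroup (Fin m) F) : Matrix (Fin m ⊕ Fin m) (Fin m ⊕ Fin m) F) =
      φ F m g ^ k := by
    intro k
    induction k with
    | zero => rw [pow_zero, pow_zero, φ_one]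
    | succ k ih => rw [pow_succ, pow_succ, φ_mul, ih]
  rcases hch with hch | rfl
  · rw [sub_pow_char_of_commute (R := Module.End F (Fin m ⊕ Fin m → F)) p (Commute.one_right _), one_pow,
      sub_eq_zero, ← hpow, ← φ_one, (φ F m).injective.eq_iff]
    exact Subtype.ext_iff.symm
  · constructor
    · intro _
      apply Subtype.ext
      ext i
      rcases i with i | i <;> exact i.elim0
    · intro _
      refine LinearMap.ext fun v => ?_
      exact Subsingleton.elim _ _

theorem card_classes (hp : p ≠ 2) :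
    Nat.card {C : ConjClasses ↥(Matrix.symplecticGroup (Fin m) F) //
      ∃ g : Matrix.symplecticGroup (Fin m) F, ConjClasses.mk g = C ∧ g ^ p = 1} = Nat.card (SP m p) := by
  have h2 : (2 : F) ≠ 0 := by
    intro h
    have h3 : ((2 : ℕ) : F) = 0 := by exact_mod_cast h
    rw [CharP.cast_eq_zero_iff F p] at h3
    exact hp ((Nat.prime_dvd_prime_iff_eq (Fact.out : p.Prime) Nat.prime_two).1 h3)
  symm
  choose G hG hGt using fun s : SP m p => exists_of_type (F := F) h2 s
  refine Nat.card_congr (Equiv.ofBijective (fun s => ⟨ConjClasses.mk (G s), G s, rfl, (pow_iff _).1 (hG s)⟩) ⟨?_, ?_⟩)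
  · intro s s' hss
    have h3 : ConjClasses.mk (G s) = ConjClasses.mk (G s') := congrArg Subtype.val hss
    rw [ConjClasses.mk_eq_mk_iff_isConj, isConj_iff] at h3
    obtain ⟨c, hc⟩ := h3
    have h4 := (hGt s).conj c
    rw [hc] at h4
    exact type_unique h2 h4 (hGt s')
  · rintro ⟨C, g, rfl, hg⟩
    obtain ⟨s, hs⟩ := exists_type h2 g ((pow_iff g).2 hg)
    refine ⟨s, ?_⟩
    apply Subtype.ext
    rw [ConjClasses.mk_eq_mk_iff_isConj]
    exact conj_of_type h2 (hGt s) hs

theorem card_order (hp : p ≠ 2) :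
    Nat.card {C : ConjClasses ↥(Matrix.symplecticGroup (Fin m) F) //
      ∃ g : Matrix.symplecticGroup (Fin m) F, ConjClasses.mk g = C ∧ orderOf g = p} = Nat.card (SP m p) - 1 := by
  rw [← card_classes (F := F) hp]
  have hpp : p.Prime := Fact.out
  have h1 : Nat.card {C : ConjClasses ↥(Matrix.symplecticGroup (Fin m) F) //
      ∃ g : Matrix.symplecticGroup (Fin m) F, ConjClasses.mk g = C ∧ g ^ p = 1} =
      Nat.card (Option {C : ConjClasses ↥(Matrix.symplecticGroup (Fin m) F) //
      ∃ g : Matrix.symplecticGroup (Fin m) F, ConjClasses.mk g = C ∧ orderOf g = p}) := by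
    symm
    have hne : ∀ g : Matrix.symplecticGroup (Fin m) F, orderOf g = p → ConjClasses.mk g ≠ ConjClasses.mk 1 := by
      intro g hg hcon
      rw [ConjClasses.mk_eq_mk_iff_isConj, isConj_comm, isConj_one_right] at hcon
      rw [hcon, orderOf_one] at hg
      exact hpp.one_lt.ne hg
    refine Nat.card_congr (Equiv.ofBijective (fun o => o.elim ⟨ConjClasses.mk 1, 1, rfl, one_pow p⟩
      (fun C => ⟨C.1, by
        obtain ⟨g, hg, hgp⟩ := C.2
        exact ⟨g, hg, hgp ▸ pow_orderOf_eq_one g⟩⟩)) ⟨?_, ?_⟩)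
    · rintro (_ | ⟨C, g, rfl, hg⟩) (_ | ⟨C', g', rfl, hg'⟩) h
      · rfl
      · exact absurd (congrArg Subtype.val h).symm (hne g' hg')
      · exact absurd (congrArg Subtype.val h) (hne g hg)
      · have h3 : ConjClasses.mk g = ConjClasses.mk g' := congrArg Subtype.val h
        simp only [h3]
    · rintro ⟨C, g, rfl, hg⟩
      by_cases h1 : g = 1
      · subst h1
        exact ⟨none, rfl⟩
      · exact ⟨some ⟨ConjClasses.mk g, g, rfl, orderOf_eq_prime hg h1⟩, rfl⟩
  rw [h1, Finite.card_option, Nat.add_sub_cancel]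

theorem card_SP : Nat.card (SP m p) = ∑ μ ∈ Finset.univ.filter (fun μ : Nat.Partition (2 * m) =>
    (∀ a ∈ μ.parts, a ≤ p) ∧ ∀ j : ℕ, Odd j → Even (μ.parts.count j)),
      2 ^ ((μ.parts.toFinset.filter (fun j : ℕ => Even j)).card) := by
  rw [SP, Nat.card_sigma]
  rw [Finset.sum_subtype (p := fun μ : Nat.Partition (2 * m) =>
    (∀ a ∈ μ.parts, a ≤ p) ∧ ∀ j : ℕ, Odd j → Even (μ.parts.count j))]
  · refine Finset.sum_congr rfl fun μ _ => ?_
    rw [Nat.card_fun, Nat.card_eq_fintype_card, Nat.card_eq_fintype_card, Fintype.card_bool]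
    congr 1
    rw [Fintype.card_coe]
  · intro μ
    simp

end

/-- Number of conjugacy classes of elements of order p in Sp_2m(q), q a power of the odd prime p: the classes correspond to the signed partitions of 2m — partitions with all parts at most p in which every odd part has even multiplicity, each even part size that occurs carrying a sign — other than the all-ones partition; so the count is the sum over such partitions of 2^(number of distinct even parts), minus one. -/
theorem result {F : Type*} [Field F] [Fintype F] {p : ℕ} [Fact p.Prime] [CharP F p] (hp : p ≠ 2) (m : ℕ) : Nat.card {C : ConjClasses ↥(Matrix.symplecticGroup (Fin m) F) // ∃ g : Matrix.symplecticGroup (Fin m) F, ConjClasses.mk g = C ∧ orderOf g = p} = (∑ μ ∈ Finset.univ.filter (fun μ : Nat.Partition (2 * m) => (∀ a ∈ μ.parts, a ≤ p) ∧ ∀ j : ℕ, Odd j → Even (μ.parts.count j)), 2 ^ ((μ.parts.toFinset.filter (fun j : ℕ => Even j)).card)) - 1 := by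
  rw [card_order (F := F) hp, card_SP]

end Cfsg.Agent.S2676
end
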