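import Cfsg.Statements.S2679
import Cfsg.Agent.H186.EmbGU
set_option linter.all false

set_option autoImplicit false
open Cfsg

namespace Cfsg.Agent.S2679

open Cfsg.Agent.H186 Matrix

section Ext

variable {F K : Type*} [Field F] [Field K] (i : F →+* K)

/-- The extended form on `i v₁ + ω i v₂`. -/
theorem form_ext (k : ℕ) (a c : F) (ω : K) (v w : (Fin k ⊕ Fin k) ⊕ Fin 2 → F) :
    quadFormMinus k K (i a) (i c) (fun t => i (v t) + i (w t) * ω) =
      i (quadFormMinus k F a c v) + ω * i (quadFormMinus k F a c (v + w) - quadFormMinus k F a c v -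
        quadFormMinus k F a c w) + ω ^ 2 * i (quadFormMinus k F a c w) := by
  have hsum : (∑ j : Fin k, (i (v (.inl (.inl j))) + i (w (.inl (.inl j))) * ω) *
        (i (v (.inl (.inr j))) + i (w (.inl (.inr j))) * ω)) =
      i (∑ j : Fin k, v (.inl (.inl j)) * v (.inl (.inr j))) +
        ω * i (∑ j : Fin k, (v (.inl (.inl j)) + w (.inl (.inl j))) * (v (.inl (.inr j)) + w (.inl (.inr j))) -
          ∑ j : Fin k, v (.inl (.inl j)) * v (.inl (.inr j)) - ∑ j : Fin k, w (.inl (.inl j)) * w (.inl (.inr j))) +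
        ω ^ 2 * i (∑ j : Fin k, w (.inl (.inl j)) * w (.inl (.inr j))) := by
    simp only [map_sum, map_sub, map_mul, map_add, mul_sub, Finset.mul_sum]
    rw [← Finset.sum_sub_distrib, ← Finset.sum_sub_distrib, ← Finset.sum_add_distrib, ← Finset.sum_add_distrib]
    refine Finset.sum_congr rfl fun j _ => ?_
    ring
  simp only [quadFormMinus, Pi.add_apply]
  rw [hsum]
  simp only [map_sum, map_sub, map_mul, map_add, map_pow]
  ring

theorem ext_hom {ι : Type} [Fintype ι] [DecidableEq ι] (ω : K) (hω : ∀ x : K, ∃ a b : F, x = i a + i b * ω)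
    (Q : (ι → F) → F) (Q' : (ι → K) → K)
    (hQ : ∀ v w : ι → F, Q' (fun t => i (v t) + i (w t) * ω) =
      i (Q v) + ω * i (Q (v + w) - Q v - Q w) + ω ^ 2 * i (Q w)) :
    ∃ φ : ↥(isometryGroup F Q) →* ↥(isometryGroup K Q'), Function.Injective φ := by
  choose A B hAB using hω
  let Φ : GL ι F →* GL ι K := Matrix.GeneralLinearGroup.map i
  have hΦ : ∀ g : ↥(isometryGroup F Q), Φ (g : GL ι F) ∈ isometryGroup K Q' := by
    intro g u _
    have hg : ∀ v, Q (((g : GL ι F) : Matrix ι ι F) *ᵥ v) = Q v := fun v => g.2 v v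
    change Q' ((((g : GL ι F) : Matrix ι ι F).map i) *ᵥ u) = Q' u
    let v : ι → F := fun t => A (u t)
    let w : ι → F := fun t => B (u t)
    have hu : u = fun t => i (v t) + i (w t) * ω := by
      funext t
      exact hAB (u t)
    have hgu : (((g : GL ι F) : Matrix ι ι F).map i) *ᵥ u =
        fun t => i ((((g : GL ι F) : Matrix ι ι F) *ᵥ v) t) + i ((((g : GL ι F) : Matrix ι ι F) *ᵥ w) t) * ω := by
      funext t
      conv_lhs => rw [hu]
      simp only [Matrix.mulVec, dotProduct, Matrix.map_apply, map_sum, map_mul, Finset.sum_mul]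
      rw [← Finset.sum_add_distrib]
      refine Finset.sum_congr rfl fun s _ => ?_
      ring
    rw [hgu, hQ, ← Matrix.mulVec_add, hg, hg, hg, ← hQ, ← hu]
  refine ⟨(Φ.comp (isometryGroup F Q).subtype).codRestrict _ hΦ, ?_⟩
  intro g g' hgg
  apply Subtype.ext
  apply Units.ext
  ext s t
  apply i.injective
  have := congrArg (fun x : ↥(isometryGroup K Q') => ((x : GL ι K) : Matrix ι ι K) s t) hgg
  exact this

end Ext

/-- An elliptic orthogonal group embeds in the hyperbolic orthogonal group of the same dimension over the quadratic extension: for a field F with q elements and a field K with q² elements there is an injective homomorphism from O⁻_2m(F) (isometries of Σ_(j<m−1) x_j y_j + z₁² + a z₁z₂ + c z₂², binary part anisotropic) to O⁺_2m(K) (isometries of Σ_(j<m) x_j y_j over K): the elliptic form becomes hyperbolic after extending scalars. -/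
theorem result {F K : Type*} [Field F] [Fintype F] [Field K] [Fintype K] {q : ℕ} (hF : Fintype.card F = q) (hK : Fintype.card K = q ^ 2) {m : ℕ} (hm : 1 ≤ m) (a c : F) (hac : ∀ z₁ z₂ : F, z₁ ^ 2 + a * z₁ * z₂ + c * z₂ ^ 2 = 0 → z₁ = 0 ∧ z₂ = 0) : ∃ φ : ↥(Cfsg.isometryGroup F (Cfsg.quadFormMinus (m - 1) F a c)) →* ↥(Cfsg.isometryGroup K (Cfsg.quadFormPlus m K)), Function.Injective φ := by
  obtain ⟨i⟩ := exists_ringHom hK hF
  have h : Base i q := ⟨hK, hF⟩
  obtain ⟨ω, hω, hωs, hωp⟩ := h.exists_root a c hac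
  obtain ⟨A, B, hAB, hA, hB⟩ := h.exists_coords hω
  obtain ⟨k, rfl⟩ : ∃ k, m = k + 1 := ⟨m - 1, by omega⟩
  have hk1 : k + 1 - 1 = k := by omega
  rw [hk1]
  -- first step
  obtain ⟨φ₁, hφ₁⟩ := ext_hom i ω (fun x => ⟨A x, B x, hAB x⟩) (quadFormMinus k F a c)
    (quadFormMinus k K (i a) (i c)) (form_ext i k a c ω)
  -- second step: the form becomes hyperbolic
  let f : ((Fin k ⊕ Fin k) ⊕ Fin 2 → K) →+ (Fin (k + 1) ⊕ Fin (k + 1) → K) := AddMonoidHom.mk'
    (fun v => Sum.elim
      (fun t => Fin.lastCases (motive := fun _ => K) (v (.inr 0) + ω * v (.inr 1)) (fun j => v (.inl (.inl j))) t)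
      (fun t => Fin.lastCases (motive := fun _ => K) (v (.inr 0) + ω ^ q * v (.inr 1)) (fun j => v (.inl (.inr j))) t)) (by
      intro u v
      funext t
      rcases t with t | t
      · refine Fin.lastCases ?_ (fun j => ?_) t
        · simp only [Sum.elim_inl, Pi.add_apply, Fin.lastCases_last]; ring
        · simp only [Sum.elim_inl, Pi.add_apply, Fin.lastCases_castSucc]
      · refine Fin.lastCases ?_ (fun j => ?_) t
        · simp only [Sum.elim_inr, Pi.add_apply, Fin.lastCases_last]; ring
        · simp only [Sum.elim_inr, Pi.add_apply, Fin.lastCases_castSucc])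
  have hf1 : ∀ v j, f v (.inl (Fin.castSucc j)) = v (.inl (.inl j)) := by
    intro v j
    change Fin.lastCases (motive := fun _ => K) _ _ (Fin.castSucc j) = _
    rw [Fin.lastCases_castSucc]
  have hf2 : ∀ v j, f v (.inr (Fin.castSucc j)) = v (.inl (.inr j)) := by
    intro v j
    change Fin.lastCases (motive := fun _ => K) _ _ (Fin.castSucc j) = _
    rw [Fin.lastCases_castSucc]
  have hf3 : ∀ v, f v (.inl (Fin.last k)) = v (.inr 0) + ω * v (.inr 1) := by
    intro v
    change Fin.lastCases (motive := fun _ => K) _ _ (Fin.last k) = _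
    rw [Fin.lastCases_last]
  have hf4 : ∀ v, f v (.inr (Fin.last k)) = v (.inr 0) + ω ^ q * v (.inr 1) := by
    intro v
    change Fin.lastCases (motive := fun _ => K) _ _ (Fin.last k) = _
    rw [Fin.lastCases_last]
  have hf0 : ∀ v, f v = 0 → v = 0 := by
    intro v hv
    have h3 := congrFun hv (.inl (Fin.last k))
    have h4 := congrFun hv (.inr (Fin.last k))
    rw [hf3] at h3
    rw [hf4] at h4
    have h3' : v (.inr 0) + ω * v (.inr 1) = 0 := h3
    have h4' : v (.inr 0) + ω ^ q * v (.inr 1) = 0 := h4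
    have h5 : (ω ^ q - ω) * v (.inr 1) = 0 := by linear_combination h4' - h3'
    have h6 : v (.inr 1) = 0 := (mul_eq_zero.1 h5).resolve_left (sub_ne_zero.2 hω)
    have h7 : v (.inr 0) = 0 := by rw [h6, mul_zero, add_zero] at h3'; exact h3'
    funext t
    rcases t with (j | j) | t
    · have := congrFun hv (.inl (Fin.castSucc j)); rwa [hf1] at this
    · have := congrFun hv (.inr (Fin.castSucc j)); rwa [hf2] at this
    · fin_cases t
      · exact h7
      · exact h6
  have hcard : Fintype.card K ^ Fintype.card ((Fin k ⊕ Fin k) ⊕ Fin 2) =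
      Fintype.card K ^ Fintype.card (Fin (k + 1) ⊕ Fin (k + 1)) := by
    congr 1
    simp only [Fintype.card_sum, Fintype.card_fin]
    omega
  have hquad : ∀ v, quadFormPlus (k + 1) K (mkEquiv f hf0 hcard v) = quadFormMinus k K (i a) (i c) v := by
    intro v
    rw [mkEquiv_apply, quadFormPlus, Fin.sum_univ_castSucc, hf3, hf4, quadFormMinus]
    congr 1
    · refine Finset.sum_congr rfl fun j _ => ?_
      rw [hf1, hf2]
    · rw [← hωs, ← hωp]
      ring
  obtain ⟨φ₂, hφ₂⟩ := exists_hom_isometry (RingHom.id K) (mkEquiv f hf0 hcard) (by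
      intro d v
      rw [mkEquiv_apply, mkEquiv_apply]
      funext t
      rw [Pi.smul_apply, smul_eq_mul]
      rcases t with t | t
      · refine Fin.lastCases ?_ (fun j => ?_) t
        · rw [hf3, hf3]; simp only [RingHom.id_apply, Pi.smul_apply, smul_eq_mul]; ring
        · rw [hf1, hf1]; simp only [RingHom.id_apply, Pi.smul_apply, smul_eq_mul]
      · refine Fin.lastCases ?_ (fun j => ?_) t
        · rw [hf4, hf4]; simp only [RingHom.id_apply, Pi.smul_apply, smul_eq_mul]; ring
        · rw [hf2, hf2]; simp only [RingHom.id_apply, Pi.smul_apply, smul_eq_mul])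
    (isometryGroup K (quadFormMinus k K (i a) (i c))) (quadFormPlus (k + 1) K) (by
      intro g hg v
      rw [hquad, hquad]
      exact hg v v)
  exact ⟨φ₂.comp φ₁, hφ₂.comp hφ₁⟩

end Cfsg.Agent.S2679
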