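import Cfsg.Statements.S2702
import Cfsg.Agent.H999.PslGraphSplit
set_option linter.all false

set_option autoImplicit false
open Cfsg
open Matrix Cfsg.Agent.H999.PslGraph Cfsg.Agent.H999.PslGraphOdd Cfsg.Agent.H999.PslGraphClasses
open Cfsg.Agent.H999.PslGraphTwo Cfsg.Agent.H999.PslGraphSplit

namespace Cfsg.Agent.S2702

/-- Let T = PSL_n(F) over the field with q = p^f elements, n ≥ 3, G = Inndiag(T) the image of PGL_n(F), and γ an involutory graph automorphism of T. The G-class of γ is the union of exactly c T-classes, where: if n is even and q is odd, c = gcd(n/2, q − 1) when C_G(γ) is isomorphic to the projective conformal symplectic group PGSp_n(F) (symplectic type) and c = gcd(n, q − 1)/2 otherwise; and c = gcd(n, q − 1) when n is odd or q is even. -/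
theorem result {F : Type*} [Field F] [Fintype F] {p f : ℕ} [Fact p.Prime] (hF : Fintype.card F = p ^ f) (hf : 1 ≤ f) {n : ℕ} (hn : 3 ≤ n) (γ : MulAut (Matrix.ProjectiveSpecialLinearGroup (Fin n) F)) (hγ : Cfsg.IsGraphAutClassPSL γ) (hγ2 : orderOf γ = 2) :
    ((Even n ∧ Odd p ∧ Nonempty (↥(Cfsg.inndiagPSL n F ⊓ Subgroup.centralizer {γ}) ≃* Cfsg.PGSp (n / 2) F)) → Cfsg.splitClassCount (Cfsg.inndiagPSL n F) (Cfsg.Inn (Matrix.ProjectiveSpecialLinearGroup (Fin n) F)) γ = Nat.gcd (n / 2) (p ^ f - 1)) ∧ ((Even n ∧ Odd p ∧ ¬ Nonempty (↥(Cfsg.inndiagPSL n F ⊓ Subgroup.centralizer {γ}) ≃* Cfsg.PGSp (n / 2) F)) → Cfsg.splitClassCount (Cfsg.inndiagPSL n F) (Cfsg.Inn (Matrix.ProjectiveSpecialLinearGroup (Fin n) F)) γ = Nat.gcd n (p ^ f - 1) / 2) ∧ (¬ (Even n ∧ Odd p) → Cfsg.splitClassCount (Cfsg.inndiagPSL n F) (Cfsg.Inn (Matrix.ProjectiveSpecialLinearGroup (Fin n) F)) γ = Nat.gcd n (p ^ f - 1)) := by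
  have hn2 : 2 ≤ n := by omega
  obtain ⟨B, rfl⟩ := (isGraph_iff hn).1 hγ
  have hB := (orderOf_gam' hn B).1 hγ2
  have hp : p.Prime := Fact.out
  rw [split_eq hn2, ← hF]
  refine ⟨?_, ?_, ?_⟩
  · rintro ⟨⟨m, hm⟩, hpo, he⟩
    have hodd : Odd (Fintype.card F) := by rw [hF]; exact hpo.pow
    have hnm : n = 2 * m := by omega
    have hm2 : n / 2 = m := by omega
    obtain ⟨k, rfl⟩ : ∃ k, m = k + 1 := ⟨m - 1, by omega⟩
    rw [hm2] at he ⊢
    rcases hB with hB | hB
    · exact absurd he (not_PGSp_of_symm hodd hnm B hB)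
    · rw [det_alt hnm B (bil_self_of_skew (two_ne_zero_of_odd hodd) hB), index_pow]
  · rintro ⟨⟨m, hm⟩, hpo, he⟩
    have hodd : Odd (Fintype.card F) := by rw [hF]; exact hpo.pow
    have hnm : n = 2 * m := by omega
    have hm2 : n / 2 = m := by omega
    rcases hB with hB | hB
    · rw [det_symm (two_ne_zero_of_odd hodd) (by omega) hnm B hB, index_comap hodd hnm]
    · exfalso
      apply he
      rw [hm2]
      exact cent_alt hn2 hnm B (bil_self_of_skew (two_ne_zero_of_odd hodd) hB)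
  · intro h
    have h' : Odd n ∨ CharP F 2 := by
      by_cases hev : Even n
      · right
        have hp2 : p = 2 := by
          rcases hp.eq_two_or_odd' with h3 | h3
          · exact h3
          · exact absurd ⟨hev, h3⟩ h
        subst hp2
        obtain ⟨r, hr, k, hr', hk⟩ := FiniteField.card' F
        have h5 : r = 2 := by
          have h6 : r ∣ 2 ^ f := by
            rw [← hF, hk]
            exact dvd_pow_self r k.ne_zero
          exact (Nat.prime_dvd_prime_iff_eq hr' hp).1 (hr'.dvd_of_dvd_pow h6)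
        rw [← h5]
        exact hr
      · exact Or.inl (Nat.not_even_iff_odd.1 hev)
    rw [det_pow h' B, index_pow]

end Cfsg.Agent.S2702
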