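import Cfsg.Statements.S2703
import Cfsg.Agent.H999.PslGraphClasses
set_option linter.all false

set_option autoImplicit false
open Cfsg
open Matrix Cfsg.Agent.H999.PslGraph Cfsg.Agent.H999.PslGraphOdd Cfsg.Agent.H999.PslGraphClasses

namespace Cfsg.Agent.S2703

/-- Let T = PSL_n(F) over the field with q elements, q odd, n = 2m ≥ 4 even, and ι the inverse-transpose automorphism. Its centralizer in G = Inndiag(T) (the image of PGL_n(F)) is isomorphic to the projective conformal orthogonal group of the plus-type form Σ xᵢ yᵢ in dimension n when n(q − 1)/4 is even, and to that of a minus-type form (Σ xᵢ yᵢ + z₁² + a z₁ z₂ + b z₂² with anisotropic binary part) when n(q − 1)/4 is odd. -/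
theorem result {F : Type*} [Field F] [Fintype F] (hodd : Odd (Fintype.card F)) {n m : ℕ} (hm : 2 ≤ m) (hnm : n = 2 * m) (ι : MulAut (Matrix.ProjectiveSpecialLinearGroup (Fin n) F)) (hι : Cfsg.IsInverseTransposeAutPSL ι) :
    (Even (n * (Fintype.card F - 1) / 4) → Nonempty (↥(Cfsg.inndiagPSL n F ⊓ Subgroup.centralizer {ι}) ≃* Cfsg.PGO F (Cfsg.quadFormPlus m F))) ∧ (¬ Even (n * (Fintype.card F - 1) / 4) → ∃ a b : F, (∀ z₁ z₂ : F, z₁ ^ 2 + a * z₁ * z₂ + b * z₂ ^ 2 = 0 → z₁ = 0 ∧ z₂ = 0) ∧ Nonempty (↥(Cfsg.inndiagPSL n F ⊓ Subgroup.centralizer {ι}) ≃* Cfsg.PGO F (Cfsg.quadFormMinus (m - 1) F a b))) := by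
  have h2 := two_ne_zero_of_odd hodd
  obtain ⟨ν, hν⟩ := exists_not_isSquare h2
  have hab := aniso_of_not_isSquare hν
  obtain ⟨k, rfl⟩ : ∃ k, m = k + 1 := ⟨m - 1, by omega⟩
  have hn2 : 2 ≤ n := by omega
  have e : Fin n ≃ Fin (k + 1) ⊕ Fin (k + 1) := Fintype.equivOfCardEq (by simp; omega)
  have e' : Fin n ≃ (Fin k ⊕ Fin k) ⊕ Fin 2 := Fintype.equivOfCardEq (by simp; omega)
  obtain rfl := isInvTr_iff.1 hι
  rw [It_eq_gam]
  have h1t : ((1 : GL (Fin n) F) : Matrix (Fin n) (Fin n) F)ᵀ = (1 : GL (Fin n) F) := by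
    rw [Units.val_one, transpose_one]
  have hdet : ((1 : GL (Fin n) F) : Matrix (Fin n) (Fin n) F).det = 1 := by
    rw [Units.val_one, det_one]
  -- the discriminant of the plus form is a square iff the number is even
  have hsq : IsSquare ((-1 : F) ^ (k + 1)) ↔ Even (n * (Fintype.card F - 1) / 4) := by
    obtain ⟨r, hr⟩ := hodd
    have h3 : n * (Fintype.card F - 1) / 4 = (k + 1) * r := by
      rw [hr, hnm, Nat.add_sub_cancel, show 2 * (k + 1) * (2 * r) = 4 * ((k + 1) * r) by ring,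
        Nat.mul_div_cancel_left _ (by norm_num)]
    have h4 : IsSquare (-1 : F) ↔ Even r := by
      rw [FiniteField.isSquare_neg_one_iff]
      rw [hr]
      constructor
      · intro h5
        rcases Nat.even_or_odd r with h6 | ⟨s, hs⟩
        · exact h6
        · omega
      · rintro ⟨s, hs⟩
        omega
    rw [h3, Nat.even_mul]
    rcases Nat.even_or_odd (k + 1) with h5 | h5
    · rw [h5.neg_one_pow]
      exact ⟨fun _ => Or.inl h5, fun _ => ⟨1, by ring⟩⟩
    · rw [h5.neg_one_pow, h4]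
      exact ⟨fun h => Or.inr h, fun h => h.resolve_left (Nat.not_even_iff_odd.2 h5)⟩
  constructor
  · intro hev
    rcases symm_dichotomy h2 hn2 hab e e' 1 h1t with ⟨-, h⟩ | ⟨h, -⟩
    · obtain ⟨e1⟩ := cent_congr (isConj_of_congr hn2 h)
      obtain ⟨e2⟩ := cent_plus h2 hn2 e (det_gramPlus_ne_zero (F := F) (k + 1))
      exact ⟨e1.symm.trans e2⟩
    · exfalso
      rw [hdet, mul_one] at h
      apply not_isSquare_det h2 k hab
      rw [det_gramPlus]
      exact (hsq.2 hev).mul h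
  · intro hev
    refine ⟨0, -ν, hab, ?_⟩
    rcases symm_dichotomy h2 hn2 hab e e' 1 h1t with ⟨h, -⟩ | ⟨-, h⟩
    · exfalso
      rw [hdet, mul_one, det_gramPlus] at h
      exact hev (hsq.1 h)
    · obtain ⟨e1⟩ := cent_congr (isConj_of_congr hn2 h)
      obtain ⟨e2⟩ := cent_minus h2 0 (-ν) hn2 e' (det_gramMinus_ne_zero h2 k hab)
      exact ⟨e1.symm.trans e2⟩

end Cfsg.Agent.S2703
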