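import Mathlib
import Cfsg.Prelude.Def_LieTypeDatum
import Cfsg.Agent.H201.PsuGraph
import Cfsg.Agent.H202.PsuCount
import Cfsg.Agent.H999.PslGraphSplit
import Cfsg.Statements.S2709
set_option linter.all false

-- part: H201/PsuSplit
section
/-!
# Involutory graph automorphisms of `PSU_n(q)`: the number of `PSU`-classes (helper201)

* `Rel.split_eq` : for `Rel hF j γ B` the number of `Inn`-classes in the `Inndiag`-class of `γ` is the index in the group of
  norm one elements of the subgroup generated by the `n`-th powers and the `θ^n j(det P)`, `θ θ̄ = j(c)`, `c Pᵀ B P = B`;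
* `split_pow`, `split_alt`, `split_symm` : the three cases.
-/

set_option autoImplicit false
set_option linter.unusedSectionVars false

namespace Cfsg.Agent.H201.PsuSplit

open Cfsg Matrix
open Cfsg.Agent.H201.PsuProj Cfsg.Agent.H201.PsuGraph
open Cfsg.Agent.LieClassical.HermBasic (conj conj_apply pow_q_pow_q exists_norm_eq_ne q_pos
  exists_not_fixed exists_trace_zero_ne)
open Cfsg.Agent.ClassicalGeometry.PSUAutCount (gm toAut)
open Cfsg.Agent.Schreier.PSU (f₁ f₂ toAut_eq)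
open Cfsg.Agent.ClassicalGeometry.GUBasic (detHom coe_detHom card_rootsOfUnity_eq)
open Cfsg.Agent.H202.PsuCount (count_psu root_ext norm_of_root exists_root)
open Cfsg.Agent.H202.Descent (scg coe_scg coe_scg_mul scg_mul_comm)
open Cfsg.Agent.H999.PslGraph (gam Cj bil bil_ext bil_mulVec rc coe_rc)
open Cfsg.Agent.H999.PslGraphOdd Cfsg.Agent.H999.PslGraphClasses Cfsg.Agent.H999.PslGraphSplit

variable {F : Type*} [Field F] [Fintype F] {q n : ℕ} {F₀ : Type*} [Field F₀]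
  {hF : Fintype.card F = q ^ 2} {j : F₀ →+* F} {γ : MulAut (PSU n F q)} {B : GL (Fin n) F₀}

theorem map_smul_conj (c : F) (A : Matrix (Fin n) (Fin n) F) :
    (c • A).map (conj hF) = (conj hF c) • A.map (conj hF) := by
  ext i k
  simp

theorem map_smul_j (j : F₀ →+* F) (c : F₀) (A : Matrix (Fin n) (Fin n) F₀) : (c • A).map j = (j c) • A.map j := by
  ext i k
  rw [Matrix.map_apply, Matrix.smul_apply, smul_eq_mul, map_mul]
  rfl

/-- The Gram matrix, at the level of matrices. -/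
theorem gram_matrix {M : GL (Fin n) F}
    (h2 : (ctQ (mk M))⁻¹ * barQ (conj hF) (mk M) = mk (inc j B)) :
    ∃ w : Fˣ, (M : Matrix (Fin n) (Fin n) F)ᵀ * (M : Matrix (Fin n) (Fin n) F).map (conj hF) =
      (w : F) • (B : Matrix (Fin n) (Fin n) F₀).map j := by
  rw [ctQ_mk, barQ_mk, ← map_inv, ← map_mul, mk_eq_iff] at h2
  obtain ⟨w, hw⟩ := h2
  exact ⟨w, by rw [← coe_inc, ← hw, Units.val_mul, coe_ct_inv, coe_bar]⟩

/-- The scalar and the determinant attached to a pair `(K, P)`. -/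
theorem exists_theta {M : GL (Fin n) F} {w : Fˣ}
    (hw : (M : Matrix (Fin n) (Fin n) F)ᵀ * (M : Matrix (Fin n) (Fin n) F).map (conj hF) =
      (w : F) • (B : Matrix (Fin n) (Fin n) F₀).map j) (hj : ∀ a, conj hF a = a ↔ ∃ b, j b = a)
    {K : GU n F q} {P : GL (Fin n) F₀}
    (hP : mk (K : GL (Fin n) F) * mk M = mk M * mk (inc j P)) :
    ∃ (θ : F) (c : F₀), θ ≠ 0 ∧ c ≠ 0 ∧ θ * θ ^ q = j c ∧
      c • ((P : Matrix (Fin n) (Fin n) F₀)ᵀ * B * P) = B ∧
      ((K : GL (Fin n) F) : Matrix (Fin n) (Fin n) F).det = θ ^ n * j (P : Matrix (Fin n) (Fin n) F₀).det := by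
  obtain ⟨θ, hθ⟩ : ∃ θ : Fˣ, ((K : GL (Fin n) F) : Matrix (Fin n) (Fin n) F) =
      (θ : F) • ((M * inc j P * M⁻¹ : GL (Fin n) F) : Matrix (Fin n) (Fin n) F) := by
    apply mk_eq_iff.1
    rw [map_mul, map_mul, map_inv, ← hP]
    group
  have hθq : (θ : F) * (θ : F) ^ q ≠ 0 := mul_ne_zero θ.ne_zero (pow_ne_zero _ θ.ne_zero)
  obtain ⟨c, hc⟩ : ∃ c : F₀, j c = (θ : F) * (θ : F) ^ q := by
    rw [← hj, conj_apply, mul_pow, pow_q_pow_q hF, mul_comm]
  have hc0 : c ≠ 0 := by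
    rintro rfl
    rw [map_zero] at hc
    exact hθq hc.symm
  refine ⟨θ, c, θ.ne_zero, hc0, hc.symm, ?_, ?_⟩
  · -- `Kᵀ K̄ = 1`
    have h1 := (mem_GU_iff hF).1 K.2
    rw [← inv_mul_eq_one, ← Units.val_inj, Units.val_mul, Units.val_one, coe_ct_inv, coe_bar, hθ] at h1
    rw [transpose_smul, map_smul_conj, ← coe_bar, map_mul, map_mul, bar_inc hj, Matrix.smul_mul, Matrix.mul_smul,
      smul_smul, conj_apply, ← hc] at h1
    -- multiply out
    have h2 : (M : Matrix (Fin n) (Fin n) F)ᵀ *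
        (((M * inc j P * M⁻¹ : GL (Fin n) F) : Matrix (Fin n) (Fin n) F)ᵀ *
        ((bar (conj hF) M * inc j P * bar (conj hF) M⁻¹ : GL (Fin n) F) : Matrix (Fin n) (Fin n) F)) *
        (bar (conj hF) M : Matrix (Fin n) (Fin n) F) =
        (w : F) • ((P : Matrix (Fin n) (Fin n) F₀)ᵀ * B * P).map j := by
      have e1 : (M : Matrix (Fin n) (Fin n) F)ᵀ * ((M⁻¹ : GL (Fin n) F) : Matrix (Fin n) (Fin n) F)ᵀ = 1 := by
        rw [← transpose_mul, ← Units.val_mul, inv_mul_cancel, Units.val_one, transpose_one]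
      have e2 : ((bar (conj hF) M⁻¹ : GL (Fin n) F) : Matrix (Fin n) (Fin n) F) *
          ((bar (conj hF) M : GL (Fin n) F) : Matrix (Fin n) (Fin n) F) = 1 := by
        rw [map_inv, ← Units.val_mul, inv_mul_cancel, Units.val_one]
      have e3 : ((P : Matrix (Fin n) (Fin n) F₀)ᵀ * B * P).map j =
          ((inc j P : GL (Fin n) F) : Matrix (Fin n) (Fin n) F)ᵀ * (B : Matrix (Fin n) (Fin n) F₀).map j *
            (inc j P : GL (Fin n) F) := by
        rw [Matrix.map_mul, Matrix.map_mul, coe_inc, transpose_map]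
      rw [e3]
      simp only [Units.val_mul, transpose_mul]
      calc _ = ((M : Matrix (Fin n) (Fin n) F)ᵀ * ((M⁻¹ : GL (Fin n) F) : Matrix (Fin n) (Fin n) F)ᵀ) *
            ((inc j P : GL (Fin n) F) : Matrix (Fin n) (Fin n) F)ᵀ *
            ((M : Matrix (Fin n) (Fin n) F)ᵀ * (bar (conj hF) M : Matrix (Fin n) (Fin n) F)) *
            (inc j P : GL (Fin n) F) * (((bar (conj hF) M⁻¹ : GL (Fin n) F) : Matrix (Fin n) (Fin n) F) *
          ((bar (conj hF) M : GL (Fin n) F) : Matrix (Fin n) (Fin n) F)) := by simp only [Matrix.mul_assoc]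
        _ = _ := by
          rw [e1, e2, coe_bar, hw, Matrix.one_mul, Matrix.mul_one, Matrix.mul_smul, Matrix.smul_mul, Matrix.mul_assoc]
    have h3 := congrArg (fun X : Matrix (Fin n) (Fin n) F => (M : Matrix (Fin n) (Fin n) F)ᵀ * X *
      (bar (conj hF) M : Matrix (Fin n) (Fin n) F)) h1
    simp only [Matrix.mul_smul, Matrix.smul_mul] at h3
    rw [h2, Matrix.mul_one, coe_bar, hw, smul_smul, mul_comm, ← smul_smul] at h3
    have h4 := smul_right_injective (Matrix (Fin n) (Fin n) F) w.ne_zero h3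
    apply Cfsg.Agent.H202.Descent.map_injective j
    change (c • ((P : Matrix (Fin n) (Fin n) F₀)ᵀ * B * P)).map j = (B : Matrix (Fin n) (Fin n) F₀).map j
    rw [← h4, map_smul_j]
  · rw [hθ, det_smul, Fintype.card_fin]
    congr 1
    rw [Units.val_mul, Units.val_mul, det_mul, det_mul, mul_right_comm, ← det_mul, ← Units.val_mul, mul_inv_cancel,
      Units.val_one, det_one, one_mul, coe_inc, ← RingHom.mapMatrix_apply, ← RingHom.map_det]

/-- Conversely. -/
theorem exists_K_theta {M : GL (Fin n) F} {w : Fˣ}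
    (hw : (M : Matrix (Fin n) (Fin n) F)ᵀ * (M : Matrix (Fin n) (Fin n) F).map (conj hF) =
      (w : F) • (B : Matrix (Fin n) (Fin n) F₀).map j) (hj : ∀ a, conj hF a = a ↔ ∃ b, j b = a)
    {P : GL (Fin n) F₀} {θ : F} {c : F₀} (hθ0 : θ ≠ 0) (hθ : θ * θ ^ q = j c)
    (hc : c • ((P : Matrix (Fin n) (Fin n) F₀)ᵀ * B * P) = B) :
    ∃ K : GU n F q, mk (K : GL (Fin n) F) * mk M = mk M * mk (inc j P) ∧
      ((K : GL (Fin n) F) : Matrix (Fin n) (Fin n) F).det = θ ^ n * j (P : Matrix (Fin n) (Fin n) F₀).det := by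
  have hK : scg (Units.mk0 θ hθ0) * (M * inc j P * M⁻¹) ∈ GU n F q := by
    rw [mem_GU_iff hF, ← inv_mul_eq_one, ← Units.val_inj, Units.val_mul, Units.val_one, coe_ct_inv, coe_bar,
      coe_scg_mul, transpose_smul, map_smul_conj, ← coe_bar, map_mul, map_mul, bar_inc hj, Matrix.smul_mul,
      Matrix.mul_smul, smul_smul, conj_apply, Units.val_mk0, hθ]
    have e3 : ((P : Matrix (Fin n) (Fin n) F₀)ᵀ * B * P).map j =
        ((inc j P : GL (Fin n) F) : Matrix (Fin n) (Fin n) F)ᵀ * (B : Matrix (Fin n) (Fin n) F₀).map j *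
          (inc j P : GL (Fin n) F) := by
      rw [Matrix.map_mul, Matrix.map_mul, coe_inc, transpose_map]
    have e4 : j c • (((inc j P : GL (Fin n) F) : Matrix (Fin n) (Fin n) F)ᵀ * (B : Matrix (Fin n) (Fin n) F₀).map j *
          (inc j P : GL (Fin n) F)) = (B : Matrix (Fin n) (Fin n) F₀).map j := by
      rw [← e3, ← map_smul_j, hc]
    have e1 : (M : Matrix (Fin n) (Fin n) F)ᵀ * (bar (conj hF) M : Matrix (Fin n) (Fin n) F) =
        (w : F) • (B : Matrix (Fin n) (Fin n) F₀).map j := hw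
    simp only [Units.val_mul, transpose_mul]
    calc _ = j c • (((M⁻¹ : GL (Fin n) F) : Matrix (Fin n) (Fin n) F)ᵀ *
            (((inc j P : GL (Fin n) F) : Matrix (Fin n) (Fin n) F)ᵀ *
            ((M : Matrix (Fin n) (Fin n) F)ᵀ * (bar (conj hF) M : Matrix (Fin n) (Fin n) F)) *
            (inc j P : GL (Fin n) F)) * ((bar (conj hF) M⁻¹ : GL (Fin n) F) : Matrix (Fin n) (Fin n) F)) := by
              simp only [Matrix.mul_assoc]
      _ = ((M⁻¹ : GL (Fin n) F) : Matrix (Fin n) (Fin n) F)ᵀ *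
            ((w : F) • (j c • (((inc j P : GL (Fin n) F) : Matrix (Fin n) (Fin n) F)ᵀ * (B : Matrix (Fin n) (Fin n) F₀).map j *
          (inc j P : GL (Fin n) F)))) * ((bar (conj hF) M⁻¹ : GL (Fin n) F) : Matrix (Fin n) (Fin n) F) := by
              rw [e1]
              simp only [Matrix.mul_smul, Matrix.smul_mul]
              rw [smul_comm]
      _ = ((M⁻¹ : GL (Fin n) F) : Matrix (Fin n) (Fin n) F)ᵀ *
            ((M : Matrix (Fin n) (Fin n) F)ᵀ * (bar (conj hF) M : Matrix (Fin n) (Fin n) F)) *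
            ((bar (conj hF) M⁻¹ : GL (Fin n) F) : Matrix (Fin n) (Fin n) F) := by rw [e4, e1]
      _ = (((M⁻¹ : GL (Fin n) F) : Matrix (Fin n) (Fin n) F)ᵀ * (M : Matrix (Fin n) (Fin n) F)ᵀ) *
            ((bar (conj hF) M : Matrix (Fin n) (Fin n) F) *
            ((bar (conj hF) M⁻¹ : GL (Fin n) F) : Matrix (Fin n) (Fin n) F)) := by simp only [Matrix.mul_assoc]
      _ = 1 := by
        rw [← transpose_mul, ← Units.val_mul, mul_inv_cancel, Units.val_one, transpose_one, map_inv, ← Units.val_mul,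
          mul_inv_cancel, Units.val_one, Matrix.one_mul]
  refine ⟨⟨_, hK⟩, ?_, ?_⟩
  · change mk (scg (Units.mk0 θ hθ0) * (M * inc j P * M⁻¹)) * mk M = _
    rw [mk_scg_mul, map_mul, map_mul, map_inv]
    group
  · change ((scg (Units.mk0 θ hθ0) * (M * inc j P * M⁻¹) : GL (Fin n) F) : Matrix (Fin n) (Fin n) F).det = _
    rw [coe_scg_mul, det_smul, Fintype.card_fin, Units.val_mk0]
    congr 1
    rw [Units.val_mul, Units.val_mul, det_mul, det_mul, mul_right_comm, ← det_mul, ← Units.val_mul, mul_inv_cancel,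
      Units.val_one, det_one, one_mul, coe_inc, ← RingHom.mapMatrix_apply, ← RingHom.map_det]

variable (q) in
/-- The norm one elements `θ^n j(det P)`. -/
def Dets (j : F₀ →+* F) (B : GL (Fin n) F₀) (x : F) : Prop :=
  ∃ (P : GL (Fin n) F₀) (θ : F) (c : F₀), θ ≠ 0 ∧ c ≠ 0 ∧ θ * θ ^ q = j c ∧
    c • ((P : Matrix (Fin n) (Fin n) F₀)ᵀ * B * P) = B ∧ x = θ ^ n * j (P : Matrix (Fin n) (Fin n) F₀).det

/-- **The number of `Inn`-classes in the `Inndiag`-class of `γ`.** -/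
theorem split_eq (hn : 3 ≤ n) (hj : ∀ a, conj hF a = a ↔ ∃ b, j b = a) (h : Rel hF j γ B)
    (S : Subgroup (rootsOfUnity (q + 1) F))
    (hS1 : ∀ z : rootsOfUnity (q + 1) F, z ^ n ∈ S)
    (hS2 : ∀ z : rootsOfUnity (q + 1) F, Dets q j B ((z : Fˣ) : F) → z ∈ S)
    (hS3 : ∀ z ∈ S, ∃ y : rootsOfUnity (q + 1) F, Dets q j B (((y ^ n * z : rootsOfUnity (q + 1) F) : Fˣ) : F)) :
    splitClassCount (inndiagPSU n F q) (Inn (PSU n F q)) γ = S.index := by
  obtain ⟨A, M, rfl, h1, h2⟩ := h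
  obtain ⟨w, hw⟩ := gram_matrix h2
  rw [count_psu hF hn]
  congr 1
  apply le_antisymm
  · apply sup_le
    · rintro _ ⟨z, rfl⟩
      exact hS1 z
    · rintro _ ⟨K, hK, rfl⟩
      obtain ⟨P, hP⟩ := (mem_centralizer_iff hn hj h1 K).1 hK
      obtain ⟨θ, c, hθ0, hc0, hθ, hc, hdet⟩ := exists_theta hw hj hP
      exact hS2 _ ⟨P, θ, c, hθ0, hc0, hθ, hc, hdet⟩
  · intro z hz
    obtain ⟨y, P, θ, c, hθ0, hc0, hθ, hc, hdet⟩ := hS3 z hz
    obtain ⟨K, hK, hKd⟩ := exists_K_theta hw hj hθ0 hθ hc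
    have h3 : z = (y⁻¹) ^ n * detHom n hF K := by
      have h4 : detHom n hF K = y ^ n * z := by
        apply root_ext
        rw [hdet, ← hKd]
        rfl
      rw [h4]
      group
    rw [h3]
    refine mul_mem (Subgroup.mem_sup_left ⟨y⁻¹, rfl⟩) (Subgroup.mem_sup_right ⟨K, ?_, rfl⟩)
    exact (mem_centralizer_iff hn hj h1 K).2 ⟨P, hK⟩

/-- Every determinant is an `n`-th power. -/
theorem split_pow (hn : 3 ≤ n) (hj : ∀ a, conj hF a = a ↔ ∃ b, j b = a) (h : Rel hF j γ B)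
    (hB : ∀ (P : GL (Fin n) F₀) (c : F₀), c ≠ 0 → c • ((P : Matrix (Fin n) (Fin n) F₀)ᵀ * B * P) = B →
      ∃ a : F₀, a ^ 2 * c = 1 ∧ (P : Matrix (Fin n) (Fin n) F₀).det = a ^ n) :
    splitClassCount (inndiagPSU n F q) (Inn (PSU n F q)) γ = Nat.gcd n (q + 1) := by
  rw [split_eq hn hj h (powMonoidHom n : rootsOfUnity (q + 1) F →* rootsOfUnity (q + 1) F).range]
  · rw [IsCyclic.index_powMonoidHom_range, card_rootsOfUnity_eq hF, Nat.gcd_comm]
  · exact fun z => ⟨z, rfl⟩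
  · rintro z ⟨P, θ, c, hθ0, hc0, hθ, hc, hz⟩
    obtain ⟨a, ha, hdet⟩ := hB P c hc0 hc
    have h3 : (θ * j a) * (θ * j a) ^ q = 1 := by
      have h4 : (j a) ^ q = j a := (hj _).2 ⟨a, rfl⟩
      rw [mul_pow, h4]
      calc θ * j a * (θ ^ q * j a) = (θ * θ ^ q) * (j a * j a) := by ring
        _ = j (a ^ 2 * c) := by rw [hθ, map_mul, map_pow]; ring
        _ = 1 := by rw [ha, map_one]
    obtain ⟨y, hy⟩ := exists_root h3
    refine ⟨y, root_ext ?_⟩
    rw [hz, hdet, map_pow, ← mul_pow, ← hy]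
    rfl
  · rintro _ ⟨y, rfl⟩
    refine ⟨y⁻¹, 1, 1, 1, one_ne_zero, one_ne_zero, ?_, ?_, ?_⟩
    · rw [one_pow, map_one, one_mul]
    · rw [Units.val_one, transpose_one, Matrix.one_mul, Matrix.mul_one, one_smul]
    · rw [Units.val_one, det_one, map_one, one_pow, one_mul, powMonoidHom_apply, inv_pow, inv_mul_cancel]
      rfl

theorem norm_split {θ : F} (hθ0 : θ ≠ 0) {m : ℕ} : θ ^ (2 * m) * ((θ * θ ^ q)⁻¹) ^ m = (θ * (θ ^ q)⁻¹) ^ m := by
  rw [pow_mul, ← mul_pow]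
  congr 1
  field_simp

theorem norm_one_quot (hF : Fintype.card F = q ^ 2) {θ : F} (hθ0 : θ ≠ 0) :
    (θ * (θ ^ q)⁻¹) * (θ * (θ ^ q)⁻¹) ^ q = 1 := by
  have h1 := pow_q_pow_q hF θ
  have h2 : θ ^ q ≠ 0 := pow_ne_zero _ hθ0
  rw [mul_pow, inv_pow, h1]
  field_simp

/-- Hilbert 90. -/
theorem exists_quot (hF : Fintype.card F = q ^ 2) {z : F} (hz : z * z ^ q = 1) :
    ∃ θ : F, θ ≠ 0 ∧ θ * (θ ^ q)⁻¹ = z := by
  have hz0 : z ≠ 0 := by
    rintro rfl
    rw [zero_mul] at hz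
    exact zero_ne_one hz
  by_cases h : ∃ a : F, a + z * a ^ q ≠ 0
  · obtain ⟨a, ha⟩ := h
    refine ⟨a + z * a ^ q, ha, ?_⟩
    have h1 : z * (a + z * a ^ q) ^ q = a + z * a ^ q := by
      have h2 : (a + z * a ^ q) ^ q = a ^ q + z ^ q * a := by
        have := map_add (conj hF) a (z * a ^ q)
        simp only [conj_apply] at this
        rw [this, mul_pow, pow_q_pow_q hF]
      rw [h2]
      linear_combination a * hz
    have h3 : (a + z * a ^ q) ^ q ≠ 0 := pow_ne_zero _ ha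
    rw [← div_eq_mul_inv, div_eq_iff h3]
    exact h1.symm
  · push Not at h
    exfalso
    obtain ⟨x, hx⟩ := exists_not_fixed hF
    have h1 := h 1
    rw [one_pow, mul_one] at h1
    have h2 := h x
    apply hx
    have h3 : z = -1 := by linear_combination h1
    rw [h3] at h2
    linear_combination -h2

/-- The determinant of a similarity of an alternating form. -/
theorem det_alt_mult {m : ℕ} (hnm : n = 2 * m) (B : GL (Fin n) F₀)
    (hB : ∀ v, bil (B : Matrix (Fin n) (Fin n) F₀) v v = 0) {P : GL (Fin n) F₀} {c : F₀} (hc0 : c ≠ 0)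
    (hc : (P : Matrix (Fin n) (Fin n) F₀)ᵀ * B * P = c • (B : Matrix (Fin n) (Fin n) F₀)) :
    (P : Matrix (Fin n) (Fin n) F₀).det = c ^ m := by
  obtain ⟨e, he⟩ := exists_symp hnm B hB
  set M := LinearMap.toMatrix' (e : (Fin m ⊕ Fin m → F₀) →ₗ[F₀] (Fin n → F₀)) with hM
  set N := LinearMap.toMatrix' (e.symm : (Fin n → F₀) →ₗ[F₀] (Fin m ⊕ Fin m → F₀)) with hN
  have h1 : M * N = 1 := by rw [hM, hN, ← LinearMap.toMatrix'_comp]; simp
  have h2 : N * M = 1 := by rw [hM, hN, ← LinearMap.toMatrix'_comp]; simp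
  have h3 : Mᵀ * (B : Matrix (Fin n) (Fin n) F₀) * M = J (Fin m) F₀ := by
    apply bil_ext
    intro u v
    rw [← bil_mulVec, hM, LinearMap.toMatrix'_mulVec, LinearMap.toMatrix'_mulVec]
    exact he u v
  have h4 : (B : Matrix (Fin n) (Fin n) F₀) = Nᵀ * J (Fin m) F₀ * N := by
    rw [← h3]
    calc (B : Matrix (Fin n) (Fin n) F₀) = (M * N)ᵀ * (B : Matrix (Fin n) (Fin n) F₀) * (M * N) := by
          rw [h1, transpose_one, Matrix.one_mul, Matrix.mul_one]
      _ = _ := by rw [transpose_mul]; simp only [Matrix.mul_assoc]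
  have h5 : ((rc N M h2 h1 P : GL (Fin m ⊕ Fin m) F₀) : Matrix (Fin m ⊕ Fin m) (Fin m ⊕ Fin m) F₀)ᵀ *
      J (Fin m) F₀ * ((rc N M h2 h1 P : GL (Fin m ⊕ Fin m) F₀) : Matrix (Fin m ⊕ Fin m) (Fin m ⊕ Fin m) F₀) =
      c • J (Fin m) F₀ := by
    rw [coe_rc, transpose_mul, transpose_mul]
    calc Mᵀ * ((P : Matrix (Fin n) (Fin n) F₀)ᵀ * Nᵀ) * J (Fin m) F₀ * (N * (P : Matrix (Fin n) (Fin n) F₀) * M)
        = Mᵀ * ((P : Matrix (Fin n) (Fin n) F₀)ᵀ * (Nᵀ * J (Fin m) F₀ * N) * (P : Matrix (Fin n) (Fin n) F₀)) * M := by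
          simp only [Matrix.mul_assoc]
      _ = c • J (Fin m) F₀ := by
          rw [← h4, hc, Matrix.mul_smul, Matrix.smul_mul, h3]
  have h6 := det_GSp hc0 h5
  rwa [coe_rc, det_conj_of_mul_eq_one h2 h1] at h6

/-- Every multiplier occurs. -/
theorem exists_alt_mult {m : ℕ} (hnm : n = 2 * m) (B : GL (Fin n) F₀)
    (hB : ∀ v, bil (B : Matrix (Fin n) (Fin n) F₀) v v = 0) {c : F₀} (hc0 : c ≠ 0) :
    ∃ P : GL (Fin n) F₀, (P : Matrix (Fin n) (Fin n) F₀)ᵀ * B * P = c • (B : Matrix (Fin n) (Fin n) F₀) := by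
  have hcB : (c • (B : Matrix (Fin n) (Fin n) F₀)).det ≠ 0 := by
    rw [det_smul]
    exact mul_ne_zero (pow_ne_zero _ hc0) (det_ne_zero B)
  obtain ⟨P, hP⟩ := exists_congr_of_alt hnm B (Matrix.GeneralLinearGroup.mkOfDetNeZero _ hcB) hB (by
    intro v
    change bil (c • (B : Matrix (Fin n) (Fin n) F₀)) v v = 0
    rw [Cfsg.Agent.H999.PslGraph.bil_smul, hB, mul_zero])
  exact ⟨P, hP.symm⟩

/-- An isometry of determinant `-1`. -/
theorem exists_neg_isometry [Finite F₀] (h2 : (2 : F₀) ≠ 0) (hn : 1 ≤ n) (B : GL (Fin n) F₀)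
    (hB : (B : Matrix (Fin n) (Fin n) F₀)ᵀ = B) : ∃ S : GL (Fin n) F₀,
      (S : Matrix (Fin n) (Fin n) F₀)ᵀ * B * S = B ∧ (S : Matrix (Fin n) (Fin n) F₀).det = -1 := by
  let d := (B : Matrix (Fin n) (Fin n) F₀).det
  have hd : d ≠ 0 := det_ne_zero B
  let z : Fin n := ⟨0, by omega⟩
  let a : Fin n → F₀ := Function.update 1 z d
  have ha : ∀ i, a i ≠ 0 := by
    intro i
    by_cases hi : i = z
    · subst hi
      simp only [a, Function.update_self]
      exact hd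
    · simp only [a, Function.update_of_ne hi, Pi.one_apply]
      exact one_ne_zero
  have hprod : ∏ i, a i = d := by
    simp only [a]
    rw [Finset.prod_update_of_mem (Finset.mem_univ _)]
    simp
  obtain ⟨R, hR⟩ := exists_diag h2 B hB a ha 1 (by rw [hprod]; ring)
  let s : Fin n → F₀ := Function.update 1 z (-1)
  have hs : ∀ i, s i * s i = 1 := by
    intro i
    by_cases hi : i = z
    · subst hi
      simp only [s, Function.update_self]
      ring
    · simp only [s, Function.update_of_ne hi, Pi.one_apply, mul_one]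
  have hsdet : (diagonal s : Matrix (Fin n) (Fin n) F₀).det = -1 := by
    rw [det_diagonal]
    simp only [s]
    rw [Finset.prod_update_of_mem (Finset.mem_univ _)]
    simp
  let S' : GL (Fin n) F₀ := Matrix.GeneralLinearGroup.mkOfDetNeZero (diagonal s)
    (by rw [hsdet]; exact neg_ne_zero.2 one_ne_zero)
  have hS' : (S' : Matrix (Fin n) (Fin n) F₀) = diagonal s := rfl
  have hRR : (R : Matrix (Fin n) (Fin n) F₀) * ((R⁻¹ : GL (Fin n) F₀) : Matrix (Fin n) (Fin n) F₀) = 1 := by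
    rw [← Units.val_mul, mul_inv_cancel, Units.val_one]
  have hB' : (B : Matrix (Fin n) (Fin n) F₀) = ((R⁻¹ : GL (Fin n) F₀) : Matrix (Fin n) (Fin n) F₀)ᵀ * diagonal a *
      ((R⁻¹ : GL (Fin n) F₀) : Matrix (Fin n) (Fin n) F₀) := by
    rw [← hR]
    calc (B : Matrix (Fin n) (Fin n) F₀)
        = ((R : Matrix (Fin n) (Fin n) F₀) * ((R⁻¹ : GL (Fin n) F₀) : Matrix (Fin n) (Fin n) F₀))ᵀ * B *
          ((R : Matrix (Fin n) (Fin n) F₀) * ((R⁻¹ : GL (Fin n) F₀) : Matrix (Fin n) (Fin n) F₀)) := by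
          rw [hRR, transpose_one, Matrix.one_mul, Matrix.mul_one]
      _ = _ := by rw [transpose_mul]; simp only [Matrix.mul_assoc]
  refine ⟨R * S' * R⁻¹, ?_, ?_⟩
  · rw [Units.val_mul, Units.val_mul, transpose_mul, transpose_mul, hS', diagonal_transpose]
    calc ((R⁻¹ : GL (Fin n) F₀) : Matrix (Fin n) (Fin n) F₀)ᵀ * (diagonal s * (R : Matrix (Fin n) (Fin n) F₀)ᵀ) *
          (B : Matrix (Fin n) (Fin n) F₀) * ((R : Matrix (Fin n) (Fin n) F₀) * diagonal s *
            ((R⁻¹ : GL (Fin n) F₀) : Matrix (Fin n) (Fin n) F₀))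
        = ((R⁻¹ : GL (Fin n) F₀) : Matrix (Fin n) (Fin n) F₀)ᵀ * (diagonal s *
          ((R : Matrix (Fin n) (Fin n) F₀)ᵀ * (B : Matrix (Fin n) (Fin n) F₀) * (R : Matrix (Fin n) (Fin n) F₀)) *
            diagonal s) * ((R⁻¹ : GL (Fin n) F₀) : Matrix (Fin n) (Fin n) F₀) := by
          simp only [Matrix.mul_assoc]
      _ = _ := by
          rw [hR, diagonal_mul_diagonal, diagonal_mul_diagonal]
          have : (fun i => s i * a i * s i) = a := by
            funext i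
            rw [mul_right_comm, hs, one_mul]
          rw [this, ← hB']
  · rw [Units.val_mul, Units.val_mul, det_mul, det_mul, hS', hsdet]
    have := congrArg Matrix.det hRR
    rw [det_mul, det_one] at this
    linear_combination -this

/-- Every multiplier and both signs. -/
theorem exists_symm_mult [Finite F₀] (h2 : (2 : F₀) ≠ 0) {m : ℕ} (hn : 1 ≤ n) (hnm : n = 2 * m) (B : GL (Fin n) F₀)
    (hB : (B : Matrix (Fin n) (Fin n) F₀)ᵀ = B) {c x : F₀} (hc0 : c ≠ 0) (hx : x ^ 2 = c ^ n) :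
    ∃ P : GL (Fin n) F₀, (P : Matrix (Fin n) (Fin n) F₀)ᵀ * B * P = c • (B : Matrix (Fin n) (Fin n) F₀) ∧
      (P : Matrix (Fin n) (Fin n) F₀).det = x := by
  obtain ⟨S, hS1, hS2⟩ := exists_neg_isometry h2 hn B hB
  have hcB : (c • (B : Matrix (Fin n) (Fin n) F₀)).det ≠ 0 := by
    rw [det_smul]
    exact mul_ne_zero (pow_ne_zero _ hc0) (det_ne_zero B)
  obtain ⟨P, hP⟩ := exists_congr_of_disc h2 hn B (Matrix.GeneralLinearGroup.mkOfDetNeZero _ hcB) hB
    (by
      change (c • (B : Matrix (Fin n) (Fin n) F₀))ᵀ = c • (B : Matrix (Fin n) (Fin n) F₀)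
      rw [transpose_smul, hB])
    (by
      change IsSquare ((B : Matrix (Fin n) (Fin n) F₀).det * (c • (B : Matrix (Fin n) (Fin n) F₀)).det)
      rw [det_smul, Fintype.card_fin]
      refine ⟨(B : Matrix (Fin n) (Fin n) F₀).det * c ^ m, ?_⟩
      have : c ^ n = c ^ m * c ^ m := by rw [← pow_add, ← two_mul, ← hnm]
      rw [this]; ring)
  have hP' : (P : Matrix (Fin n) (Fin n) F₀)ᵀ * B * P = c • (B : Matrix (Fin n) (Fin n) F₀) := hP.symm
  have h3 := det_sq_of_sim hP'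
  rw [← hx] at h3
  have h4 : ((P : Matrix (Fin n) (Fin n) F₀).det - x) * ((P : Matrix (Fin n) (Fin n) F₀).det + x) = 0 := by
    linear_combination h3
  rcases mul_eq_zero.1 h4 with h5 | h5
  · exact ⟨P, hP', sub_eq_zero.1 h5⟩
  · refine ⟨P * S, ?_, ?_⟩
    · rw [Units.val_mul, transpose_mul]
      calc (S : Matrix (Fin n) (Fin n) F₀)ᵀ * (P : Matrix (Fin n) (Fin n) F₀)ᵀ * B *
            ((P : Matrix (Fin n) (Fin n) F₀) * (S : Matrix (Fin n) (Fin n) F₀))
          = (S : Matrix (Fin n) (Fin n) F₀)ᵀ * ((P : Matrix (Fin n) (Fin n) F₀)ᵀ * B *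
            (P : Matrix (Fin n) (Fin n) F₀)) * (S : Matrix (Fin n) (Fin n) F₀) := by
            simp only [Matrix.mul_assoc]
        _ = _ := by rw [hP', Matrix.mul_smul, Matrix.smul_mul, hS1]
    · rw [Units.val_mul, det_mul, hS2]
      linear_combination -h5

theorem smul_gram_iff {P : GL (Fin n) F₀} {c : F₀} (hc0 : c ≠ 0) :
    c • ((P : Matrix (Fin n) (Fin n) F₀)ᵀ * B * P) = B ↔
      (P : Matrix (Fin n) (Fin n) F₀)ᵀ * B * P = c⁻¹ • (B : Matrix (Fin n) (Fin n) F₀) := by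
  constructor
  · intro h
    nth_rewrite 2 [← h]
    rw [smul_smul, inv_mul_cancel₀ hc0, one_smul]
  · intro h
    rw [h, smul_smul, mul_inv_cancel₀ hc0, one_smul]

/-- Symplectic type. -/
theorem split_alt (hn : 3 ≤ n) (hj : ∀ a, conj hF a = a ↔ ∃ b, j b = a) (h : Rel hF j γ B) {m : ℕ}
    (hnm : n = 2 * m) (hB : ∀ v, bil (B : Matrix (Fin n) (Fin n) F₀) v v = 0) :
    splitClassCount (inndiagPSU n F q) (Inn (PSU n F q)) γ = Nat.gcd m (q + 1) := by
  rw [split_eq hn hj h (powMonoidHom m : rootsOfUnity (q + 1) F →* rootsOfUnity (q + 1) F).range]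
  · rw [IsCyclic.index_powMonoidHom_range, card_rootsOfUnity_eq hF, Nat.gcd_comm]
  · intro z
    exact ⟨z ^ 2, by rw [powMonoidHom_apply, ← pow_mul, hnm]⟩
  · rintro z ⟨P, θ, c, hθ0, hc0, hθ, hc, hz⟩
    rw [smul_gram_iff hc0] at hc
    have hdet := det_alt_mult hnm B hB (inv_ne_zero hc0) hc
    obtain ⟨y, hy⟩ := exists_root (norm_one_quot hF hθ0)
    refine ⟨y, root_ext ?_⟩
    rw [hz, hdet, map_pow, map_inv₀, ← hθ, hnm, norm_split hθ0, ← hy]
    rfl
  · rintro _ ⟨y, rfl⟩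
    obtain ⟨θ, hθ0, hθ⟩ := exists_quot hF (norm_of_root y)
    obtain ⟨c, hc⟩ : ∃ c : F₀, j c = θ * θ ^ q := by
      rw [← hj, conj_apply, mul_pow, pow_q_pow_q hF, mul_comm]
    have hc0 : c ≠ 0 := by
      rintro rfl
      rw [map_zero] at hc
      exact mul_ne_zero hθ0 (pow_ne_zero _ hθ0) hc.symm
    obtain ⟨P, hP⟩ := exists_alt_mult hnm B hB (inv_ne_zero hc0)
    refine ⟨1, P, θ, c, hθ0, hc0, hc.symm, (smul_gram_iff hc0).2 hP, ?_⟩
    rw [det_alt_mult hnm B hB (inv_ne_zero hc0) hP, map_pow, map_inv₀, hc, hnm, norm_split hθ0, hθ, one_pow, one_mul,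
      powMonoidHom_apply]
    rfl

/-- Orthogonal type in even dimension, odd characteristic. -/
theorem split_symm [Finite F₀] (hn : 3 ≤ n) (hj : ∀ a, conj hF a = a ↔ ∃ b, j b = a) (h : Rel hF j γ B) {m : ℕ}
    (hodd : Odd q) (h2 : (2 : F₀) ≠ 0)
    (hnm : n = 2 * m) (hB : (B : Matrix (Fin n) (Fin n) F₀)ᵀ = B) :
    splitClassCount (inndiagPSU n F q) (Inn (PSU n F q)) γ = Nat.gcd n (q + 1) / 2 := by
  rw [split_eq hn hj h ((powMonoidHom n : rootsOfUnity (q + 1) F →* rootsOfUnity (q + 1) F).range.comap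
    (powMonoidHom 2))]
  · rw [Subgroup.index_comap]
    have hle : (powMonoidHom n : rootsOfUnity (q + 1) F →* rootsOfUnity (q + 1) F).range ≤
        (powMonoidHom 2 : rootsOfUnity (q + 1) F →* rootsOfUnity (q + 1) F).range := by
      rintro _ ⟨c, rfl⟩
      exact ⟨c ^ m, by rw [powMonoidHom_apply, powMonoidHom_apply, ← pow_mul, hnm, mul_comm]⟩
    have h1 := Subgroup.relIndex_mul_index hle
    rw [IsCyclic.index_powMonoidHom_range, IsCyclic.index_powMonoidHom_range, card_rootsOfUnity_eq hF,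
      Nat.gcd_comm, Nat.gcd_comm (q + 1) n] at h1
    have h3 : Nat.gcd 2 (q + 1) = 2 := by
      obtain ⟨r, hr⟩ := hodd
      rw [hr]
      exact Nat.gcd_eq_left ⟨r + 1, by ring⟩
    rw [h3] at h1
    omega
  · intro z
    exact ⟨z ^ 2, by rw [powMonoidHom_apply, powMonoidHom_apply, ← pow_mul, ← pow_mul, mul_comm]⟩
  · rintro z ⟨P, θ, c, hθ0, hc0, hθ, hc, hz⟩
    rw [smul_gram_iff hc0] at hc
    have hdet := det_sq_of_sim hc
    obtain ⟨y, hy⟩ := exists_root (norm_one_quot hF hθ0)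
    refine ⟨y, root_ext ?_⟩
    have e1 : ((z : Fˣ) : F) ^ 2 = (θ ^ (2 * m) * ((θ * θ ^ q)⁻¹) ^ m) ^ 2 := by
      rw [hz, mul_pow, ← map_pow, hdet, map_pow, map_inv₀, ← hθ, hnm]
      ring
    rw [norm_split hθ0, ← hy] at e1
    change (((y ^ n : rootsOfUnity (q + 1) F) : Fˣ) : F) = (((z ^ 2 : rootsOfUnity (q + 1) F) : Fˣ) : F)
    have e2 : (((z ^ 2 : rootsOfUnity (q + 1) F) : Fˣ) : F) = ((z : Fˣ) : F) ^ 2 := rfl
    have e3 : (((y ^ n : rootsOfUnity (q + 1) F) : Fˣ) : F) = ((y : Fˣ) : F) ^ n := rfl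
    rw [e2, e3, e1, hnm, ← pow_mul, mul_comm]
  · rintro z ⟨y, hy⟩
    have hy' : ((y : Fˣ) : F) ^ n = ((z : Fˣ) : F) ^ 2 :=
      congrArg (fun t : rootsOfUnity (q + 1) F => ((t : Fˣ) : F)) hy
    obtain ⟨θ, hθ0, hθ⟩ := exists_quot hF (norm_of_root y)
    obtain ⟨c, hc⟩ : ∃ c : F₀, j c = θ * θ ^ q := by
      rw [← hj, conj_apply, mul_pow, pow_q_pow_q hF, mul_comm]
    have hc0 : c ≠ 0 := by
      rintro rfl
      rw [map_zero] at hc
      exact mul_ne_zero hθ0 (pow_ne_zero _ hθ0) hc.symm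
    have key : ∀ s : F₀, s ^ 2 = 1 → ((z : Fˣ) : F) = j s * ((y : Fˣ) : F) ^ m →
        ∃ y : rootsOfUnity (q + 1) F, Dets q j B (((y ^ n * z : rootsOfUnity (q + 1) F) : Fˣ) : F) := by
      intro s hs hz
      obtain ⟨P, hP, hPd⟩ := exists_symm_mult h2 (by omega) hnm B hB (c := c⁻¹) (x := s * c⁻¹ ^ m) (inv_ne_zero hc0)
        (by rw [mul_pow, hs, one_mul, ← pow_mul, hnm, mul_comm])
      refine ⟨1, P, θ, c, hθ0, hc0, hc.symm, (smul_gram_iff hc0).2 hP, ?_⟩
      rw [hPd, map_mul, map_pow, map_inv₀, hc, hnm, mul_left_comm, norm_split hθ0, hθ, one_pow, one_mul, hz]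
    have h5 : (((z : Fˣ) : F) - ((y : Fˣ) : F) ^ m) * (((z : Fˣ) : F) + ((y : Fˣ) : F) ^ m) = 0 := by
      have : ((y : Fˣ) : F) ^ n = ((y : Fˣ) : F) ^ m * ((y : Fˣ) : F) ^ m := by rw [← pow_add, ← two_mul, ← hnm]
      linear_combination -hy' + this
    rcases mul_eq_zero.1 h5 with h6 | h6
    · exact key 1 (one_pow 2) (by rw [map_one, one_mul]; exact sub_eq_zero.1 h6)
    · exact key (-1) (by norm_num) (by rw [map_neg, map_one]; linear_combination h6)

/-- Odd dimension or characteristic two. -/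
theorem split_odd_or_two [Finite F₀] (hn : 3 ≤ n) (hj : ∀ a, conj hF a = a ↔ ∃ b, j b = a) (h : Rel hF j γ B)
    (h' : Odd n ∨ CharP F₀ 2) :
    splitClassCount (inndiagPSU n F q) (Inn (PSU n F q)) γ = Nat.gcd n (q + 1) := by
  refine split_pow hn hj h fun P c hc0 hc => ?_
  rw [smul_gram_iff hc0] at hc
  have h1 := det_sq_of_sim hc
  have hd := det_ne_zero P
  rcases h' with ⟨k, hk⟩ | h'
  · have hck : c ^ k ≠ 0 := pow_ne_zero _ hc0
    have h2 : ((P : Matrix (Fin n) (Fin n) F₀).det * c ^ k) ^ 2 = c⁻¹ := by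
      rw [mul_pow, h1, hk, pow_succ, inv_pow, ← pow_mul, mul_comm k 2]
      field_simp
    refine ⟨(P : Matrix (Fin n) (Fin n) F₀).det * c ^ k, ?_, ?_⟩
    · rw [h2, inv_mul_cancel₀ hc0]
    · have h3 : ∀ x : F₀, x ^ n = (x ^ 2) ^ k * x := fun x => by rw [← pow_mul, ← pow_succ, hk]
      rw [h3, h2, inv_pow]
      field_simp
  · obtain ⟨r, hr⟩ := Cfsg.Agent.H999.PslGraphTwo.exists_sqrt c⁻¹
    refine ⟨r, by rw [hr, inv_mul_cancel₀ hc0], ?_⟩
    apply Cfsg.Agent.H999.PslGraphTwo.eq_of_sq_eq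
    rw [h1, ← hr, ← pow_mul, ← pow_mul, mul_comm]

end Cfsg.Agent.H201.PsuSplit
end

-- part: S2709
section
set_option autoImplicit false
open Cfsg

namespace Cfsg.Agent.S2709

open Cfsg.Agent.H201.PsuGraph Cfsg.Agent.H201.PsuSplit Cfsg.Agent.H999.PslGraph Cfsg.Agent.H999.PslGraphClasses
  Cfsg.Agent.H999.PslGraphSplit
open Cfsg.Agent.LieClassical.HermBasic (conj)

/-- Let T = PSU_n(q) be simple (n ≥ 3, (n,q) ≠ (3,2), q = p^f), realised over the field F with q² elements, G = Inndiag(T) the image of PGU_n(q), and γ an involutory graph automorphism of T. The G-class of γ is the union of exactly c T-classes, where: if n is even and q is odd, c = gcd(n/2, q + 1) when C_G(γ) is isomorphic to PGSp_n(F₀) for a field F₀ with q elements (symplectic type) and c = gcd(n, q + 1)/2 otherwise; and c = gcd(n, q + 1) when n is odd or q is even. -/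
theorem result {F : Type*} [Field F] [Fintype F] {p f q : ℕ} [Fact p.Prime] (hq : q = p ^ f) (hf : 1 ≤ f) (hF : Fintype.card F = q ^ 2) {n : ℕ} (hn : 3 ≤ n) (hs : ¬ (n = 3 ∧ q = 2)) (F₀ : Type*) [Field F₀] [Fintype F₀] (hF₀ : Fintype.card F₀ = q) (γ : MulAut (Cfsg.PSU n F q)) (hγ : Cfsg.IsGraphAutClassPSU γ) (hγ2 : orderOf γ = 2) :
    ((Even n ∧ Odd q ∧ Nonempty (↥(Cfsg.inndiagPSU n F q ⊓ Subgroup.centralizer {γ}) ≃* Cfsg.PGSp (n / 2) F₀)) → Cfsg.splitClassCount (Cfsg.inndiagPSU n F q) (Cfsg.Inn (Cfsg.PSU n F q)) γ = Nat.gcd (n / 2) (q + 1)) ∧ ((Even n ∧ Odd q ∧ ¬ Nonempty (↥(Cfsg.inndiagPSU n F q ⊓ Subgroup.centralizer {γ}) ≃* Cfsg.PGSp (n / 2) F₀)) → Cfsg.splitClassCount (Cfsg.inndiagPSU n F q) (Cfsg.Inn (Cfsg.PSU n F q)) γ = Nat.gcd n (q + 1) / 2) ∧ (¬ (Even n ∧ Odd q) → Cfsg.splitClassCount (Cfsg.inndiagPSU n F q) (Cfsg.Inn (Cfsg.PSU n F q)) γ = Nat.gcd n (q + 1)) := by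
  have hn2 : 2 ≤ n := by omega
  have hcard : Nat.card F = Nat.card F₀ ^ 2 := by
    rw [Nat.card_eq_fintype_card, Nat.card_eq_fintype_card, hF₀, hF]
  obtain ⟨j, hj⟩ := Cfsg.Agent.H202.Descent.exists_hom (F₀ := F₀) (orderOf_conj hF) two_pos hcard
  obtain ⟨B, r⟩ := exists_rel hF hn hj hγ hγ2
  have hB := (orderOf_gam' hn B).1 (r.order_gam hn)
  obtain ⟨e1⟩ := r.centEquiv hn hj
  refine ⟨?_, ?_, ?_⟩
  · rintro ⟨⟨m, hm⟩, hodd, he⟩
    have hodd' : Odd (Fintype.card F₀) := by rw [hF₀]; exact hodd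
    have hnm : n = 2 * m := by omega
    have hm2 : n / 2 = m := by omega
    obtain ⟨k, rfl⟩ : ∃ k, m = k + 1 := ⟨m - 1, by omega⟩
    rw [hm2] at he ⊢
    rcases hB with hB | hB
    · exfalso
      obtain ⟨e⟩ := he
      exact not_PGSp_of_symm hodd' hnm B hB ⟨e1.symm.trans e⟩
    · exact split_alt hn hj r hnm (bil_self_of_skew (two_ne_zero_of_odd hodd') hB)
  · rintro ⟨⟨m, hm⟩, hodd, he⟩
    have hodd' : Odd (Fintype.card F₀) := by rw [hF₀]; exact hodd
    have hnm : n = 2 * m := by omega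
    have hm2 : n / 2 = m := by omega
    rcases hB with hB | hB
    · exact split_symm hn hj r hodd (two_ne_zero_of_odd hodd') hnm hB
    · exfalso
      apply he
      rw [hm2]
      obtain ⟨e⟩ := cent_alt hn2 hnm B (bil_self_of_skew (two_ne_zero_of_odd hodd') hB)
      exact ⟨e1.trans e⟩
  · intro h
    refine split_odd_or_two hn hj r ?_
    by_cases hev : Even n
    · right
      have hq2 : ¬ Odd q := fun h3 => h ⟨hev, h3⟩
      obtain ⟨r, hr, k, hr', hk⟩ := FiniteField.card' F₀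
      have h5 : r = 2 := by
        rcases hr'.eq_two_or_odd' with h6 | h6
        · exact h6
        · exfalso
          apply hq2
          rw [← hF₀, hk]
          exact h6.pow
      rw [← h5]
      exact hr
    · exact Or.inl (Nat.not_even_iff_odd.1 hev)

end Cfsg.Agent.S2709
end
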