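import Mathlib
import Cfsg.Agent.H202.PsuCent
import Cfsg.Agent.H999.PslGraphClasses
import Cfsg.Statements.S2710
set_option linter.all false

-- part: H202/PsuSim
section
/-!
# `PSU_n(q)`: the centralizer of an involutory automorphism `f₁ A * f₂ τ`, `τ` the `q`-th power map (helper202)

`M ∈ GL_n(F)` with `A * τ(M) = κ M` and `Mᵀ τ(M) = ι j(S₀)`, `S₀` a matrix over the field `F₀` of `q` elements:
the centralizer in `Inndiag` is the projective similarity group of the bilinear form `S₀`.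
-/

set_option autoImplicit false
set_option linter.unusedSectionVars false
set_option linter.style.haveILetI false

namespace Cfsg.Agent.H202.PsuSim

open Cfsg Matrix Cfsg.Agent.LieClassical.HermBasic Cfsg.Agent.LieClassical.HermSiegel
  Cfsg.Agent.ClassicalGeometry.PSUAutCount Cfsg.Agent.Schreier.PSU Cfsg.Agent.H202.Split Cfsg.Agent.H202.Psu
  Cfsg.Agent.H202.Iso Cfsg.Agent.H202.PsuCent Cfsg.Agent.H999.PslGraph Cfsg.Agent.H999.PslGraphOdd
  Cfsg.Agent.H999.PslGraphClasses
open scoped MatrixGroups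

variable {F : Type*} [Field F] [Fintype F] {q n : ℕ} {F₀ : Type*} [Field F₀]

theorem map_coe_inv {K : Type*} [Field K] (τ : F ≃+* K) (M : GL (Fin n) F) :
    ((M⁻¹ : GL (Fin n) F) : Matrix (Fin n) (Fin n) F).map τ * (M : Matrix (Fin n) (Fin n) F).map τ = 1 := by
  rw [← Matrix.map_mul, ← Units.val_mul, inv_mul_cancel, Units.val_one, Matrix.map_one τ (map_zero τ) (map_one τ)]

theorem map_coe_inv' {K : Type*} [Field K] (τ : F ≃+* K) (M : GL (Fin n) F) :
    (M : Matrix (Fin n) (Fin n) F).map τ * ((M⁻¹ : GL (Fin n) F) : Matrix (Fin n) (Fin n) F).map τ = 1 := by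
  rw [← Matrix.map_mul, ← Units.val_mul, mul_inv_cancel, Units.val_one, Matrix.map_one τ (map_zero τ) (map_one τ)]

theorem smul_map {τ : F ≃+* F} (c : F) (M : Matrix (Fin n) (Fin n) F) : (c • M).map τ = τ c • M.map τ := by
  ext i k
  rw [Matrix.map_apply, Matrix.smul_apply, Matrix.smul_apply, smul_eq_mul, smul_eq_mul, map_mul, Matrix.map_apply]

theorem smul_map' {j : F₀ →+* F} (c : F₀) (M : Matrix (Fin n) (Fin n) F₀) : (c • M).map j = j c • M.map j := by
  ext i k
  rw [Matrix.map_apply, Matrix.smul_apply, Matrix.smul_apply, smul_eq_mul, smul_eq_mul, map_mul, Matrix.map_apply]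

/-- The unitary condition for `B` with `B * M = M * X`. -/
theorem unitary_iff {τ : F ≃+* F} (hτ : ∀ x, τ x = x ^ q) (B M X : GL (Fin n) F) (hX : B * M = M * X) :
    B ∈ GU n F q ↔ (X : Matrix (Fin n) (Fin n) F)ᵀ * ((M : Matrix (Fin n) (Fin n) F)ᵀ *
      (M : Matrix (Fin n) (Fin n) F).map τ) * (X : Matrix (Fin n) (Fin n) F).map τ =
      (M : Matrix (Fin n) (Fin n) F)ᵀ * (M : Matrix (Fin n) (Fin n) F).map τ := by
  have h1 : (X : Matrix (Fin n) (Fin n) F)ᵀ * ((M : Matrix (Fin n) (Fin n) F)ᵀ *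
      (M : Matrix (Fin n) (Fin n) F).map τ) * (X : Matrix (Fin n) (Fin n) F).map τ =
      (M : Matrix (Fin n) (Fin n) F)ᵀ * ((B : Matrix (Fin n) (Fin n) F)ᵀ *
        (B : Matrix (Fin n) (Fin n) F).map τ) * (M : Matrix (Fin n) (Fin n) F).map τ := by
    have h2 : ((M * X : GL (Fin n) F) : Matrix (Fin n) (Fin n) F)ᵀ *
        ((M * X : GL (Fin n) F) : Matrix (Fin n) (Fin n) F).map τ =
        ((B * M : GL (Fin n) F) : Matrix (Fin n) (Fin n) F)ᵀ *
        ((B * M : GL (Fin n) F) : Matrix (Fin n) (Fin n) F).map τ := by rw [hX]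
    rw [Units.val_mul, Units.val_mul, Matrix.transpose_mul, Matrix.transpose_mul, Matrix.map_mul, Matrix.map_mul] at h2
    simp only [Matrix.mul_assoc] at h2 ⊢
    exact h2
  rw [mem_GU_mat hτ, h1]
  constructor
  · intro h
    rw [h, Matrix.mul_one]
  · intro h
    have h3 : (M : Matrix (Fin n) (Fin n) F)ᵀ * ((B : Matrix (Fin n) (Fin n) F)ᵀ *
        (B : Matrix (Fin n) (Fin n) F).map τ) = (M : Matrix (Fin n) (Fin n) F)ᵀ := by
      have := congrArg (fun Y => Y * ((M⁻¹ : GL (Fin n) F) : Matrix (Fin n) (Fin n) F).map τ) h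
      simp only [Matrix.mul_assoc, map_coe_inv', Matrix.mul_one] at this
      exact this
    have h4 : ((M⁻¹ : GL (Fin n) F) : Matrix (Fin n) (Fin n) F)ᵀ * (M : Matrix (Fin n) (Fin n) F)ᵀ = 1 := by
      rw [← Matrix.transpose_mul, ← Units.val_mul, mul_inv_cancel, Units.val_one, Matrix.transpose_one]
    have := congrArg (fun Y => ((M⁻¹ : GL (Fin n) F) : Matrix (Fin n) (Fin n) F)ᵀ * Y) h3
    simp only [← Matrix.mul_assoc, h4, Matrix.one_mul] at this
    exact this

/-- The commuting condition. -/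
theorem comm_iff {τ : F ≃+* F} {κ : F} (hκ : κ ≠ 0) (A B M X : GL (Fin n) F) (hX : B * M = M * X)
    (hM : (A : Matrix (Fin n) (Fin n) F) * (M : Matrix (Fin n) (Fin n) F).map τ = κ • (M : Matrix (Fin n) (Fin n) F))
    (c : F) :
    (B : Matrix (Fin n) (Fin n) F) * (A : Matrix (Fin n) (Fin n) F) =
      c • ((A : Matrix (Fin n) (Fin n) F) * (B : Matrix (Fin n) (Fin n) F).map τ) ↔
    (X : Matrix (Fin n) (Fin n) F) = c • (X : Matrix (Fin n) (Fin n) F).map τ := by
  have hX' : (B : Matrix (Fin n) (Fin n) F) * (M : Matrix (Fin n) (Fin n) F) =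
      (M : Matrix (Fin n) (Fin n) F) * (X : Matrix (Fin n) (Fin n) F) := by
    rw [← Units.val_mul, hX, Units.val_mul]
  have h1 : (B : Matrix (Fin n) (Fin n) F) * (A : Matrix (Fin n) (Fin n) F) *
      (M : Matrix (Fin n) (Fin n) F).map τ = κ • ((M : Matrix (Fin n) (Fin n) F) * (X : Matrix (Fin n) (Fin n) F)) := by
    rw [Matrix.mul_assoc, hM, Matrix.mul_smul, hX']
  have h2 : (A : Matrix (Fin n) (Fin n) F) * (B : Matrix (Fin n) (Fin n) F).map τ *
      (M : Matrix (Fin n) (Fin n) F).map τ =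
      κ • ((M : Matrix (Fin n) (Fin n) F) * (X : Matrix (Fin n) (Fin n) F).map τ) := by
    rw [Matrix.mul_assoc, ← Matrix.map_mul, hX', Matrix.map_mul, ← Matrix.mul_assoc, hM, Matrix.smul_mul]
  constructor
  · intro h
    rw [h, Matrix.smul_mul, h2, smul_smul, mul_comm c κ, ← smul_smul, ← Matrix.mul_smul] at h1
    have h3 := smul_right_injective _ hκ h1
    have h4 := congrArg (fun Y => ((M⁻¹ : GL (Fin n) F) : Matrix (Fin n) (Fin n) F) * Y) h3
    simp only [← Matrix.mul_assoc, ← Units.val_mul, Matrix.mul_smul] at h4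
    rw [inv_mul_cancel, Units.val_one, Matrix.one_mul, inv_mul_cancel_left] at h4
    exact h4.symm
  · intro h
    have h5 : (B : Matrix (Fin n) (Fin n) F) * (A : Matrix (Fin n) (Fin n) F) *
        (M : Matrix (Fin n) (Fin n) F).map τ = c • ((A : Matrix (Fin n) (Fin n) F) *
        (B : Matrix (Fin n) (Fin n) F).map τ) * (M : Matrix (Fin n) (Fin n) F).map τ := by
      rw [h1, Matrix.smul_mul, h2, smul_smul, mul_comm c κ, ← smul_smul]
      congr 1
      rw [← Matrix.mul_smul, ← h]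
    have h6 := congrArg (fun Y => Y * ((M⁻¹ : GL (Fin n) F) : Matrix (Fin n) (Fin n) F).map τ) h5
    simp only [Matrix.mul_assoc, map_coe_inv', Matrix.mul_one, Matrix.smul_mul] at h6
    exact h6

theorem gm_eq (B : GU n F q) : gm B = ((B : GL (Fin n) F) : Matrix (Fin n) (Fin n) F) := rfl

/-- **The centralizer of `f₁ A * f₂ τ`.** -/
theorem cent_equiv_sim (hF : Fintype.card F = q ^ 2) (hn : 3 ≤ n) {τ : F ≃+* F} (hτ : ∀ x, τ x = x ^ q)
    {j : F₀ →+* F} (hj : ∀ a, τ a = a ↔ ∃ b, j b = a) (A : GU n F q) (M : GL (Fin n) F) {κ ι : F}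
    (hκ : κ ≠ 0) (hι : ι ≠ 0) (hM : gm A * (M : Matrix (Fin n) (Fin n) F).map τ = κ • (M : Matrix (Fin n) (Fin n) F))
    (S₀ : Matrix (Fin n) (Fin n) F₀)
    (hG : (M : Matrix (Fin n) (Fin n) F)ᵀ * (M : Matrix (Fin n) (Fin n) F).map τ = ι • S₀.map j) :
    Nonempty (↥(inndiagPSU n F q ⊓ Subgroup.centralizer {(f₁ A * f₂ τ : MulAut (PSU n F q))}) ≃*
      projQuot (Geo.similarityGroup (bil S₀))) := by
  haveI : Nonempty (Fin n) := ⟨⟨0, by omega⟩⟩
  have hττ : ∀ x, τ (τ x) = x := fun x => by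
    rw [hτ, hτ, ← pow_mul, ← sq, ← hF, FiniteField.pow_card]
  have hjτ : ∀ b, τ (j b) = j b := fun b => (hj _).2 ⟨b, rfl⟩
  have hjm : ∀ N : Matrix (Fin n) (Fin n) F₀, (N.map j).map τ = N.map j := fun N => by
    ext i k
    exact hjτ _
  let φ : ↥(Geo.similarityGroup (bil S₀)) →* GL (Fin n) F ⧸ Geo.scalars (Fin n) F :=
    (toPGL (Fin n) F).comp ((MulAut.conj M).toMonoidHom.comp
      ((Matrix.GeneralLinearGroup.map j).comp (Geo.similarityGroup (bil S₀)).subtype))
  have hφ : ∀ g : ↥(Geo.similarityGroup (bil S₀)), φ g =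
      toPGL (Fin n) F (M * Matrix.GeneralLinearGroup.map j (g : GL (Fin n) F₀) * M⁻¹) := fun g => rfl
  have hkφ : φ.ker = (Geo.scalars (Fin n) F₀).subgroupOf (Geo.similarityGroup (bil S₀)) := ker_conj_map _ j M
  -- the scaled Gram condition
  have hgram : ∀ (e : Fˣ) (P : GL (Fin n) F₀) (X : GL (Fin n) F),
      (P : Matrix (Fin n) (Fin n) F₀).map j = (e : F) • (X : Matrix (Fin n) (Fin n) F) →
      ((X : Matrix (Fin n) (Fin n) F)ᵀ * (ι • S₀.map j) * (X : Matrix (Fin n) (Fin n) F).map τ = ι • S₀.map j ↔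
        ((P : Matrix (Fin n) (Fin n) F₀)ᵀ * S₀ * P).map j = ((e : F) * τ e) • S₀.map j) := by
    intro e P X hP
    have h1 : ((P : Matrix (Fin n) (Fin n) F₀)ᵀ * S₀ * P).map j = ((e : F) * τ e) •
        ((X : Matrix (Fin n) (Fin n) F)ᵀ * S₀.map j * (X : Matrix (Fin n) (Fin n) F).map τ) := by
      rw [Matrix.map_mul, Matrix.map_mul, Matrix.transpose_map]
      conv_lhs => rw [← hjm (P : Matrix (Fin n) (Fin n) F₀)]
      rw [hjm, hP]
      conv_lhs => arg 2; rw [← hP, ← hjm, hP, smul_map]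
      rw [Matrix.transpose_smul, Matrix.smul_mul, Matrix.smul_mul, Matrix.mul_smul, smul_smul]
    rw [h1]
    have he0 : (e : F) * τ e ≠ 0 := mul_ne_zero e.ne_zero (by rw [Ne, map_eq_zero]; exact e.ne_zero)
    rw [(smul_right_injective _ he0).eq_iff, Matrix.mul_smul, Matrix.smul_mul, (smul_right_injective _ hι).eq_iff]
  have key := iso_of_common φ (toP n F q) f₁ (ker_f₁ hF hn)
    (inndiagPSU n F q ⊓ Subgroup.centralizer {(f₁ A * f₂ τ : MulAut (PSU n F q))})
    (by rw [← Psu.inndiag_eq]; exact inf_le_left)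
    (by
      rintro _ ⟨g, rfl⟩
      obtain ⟨ν, hν0, hν⟩ := mem_similarity_iff.1 g.2
      obtain ⟨e, he⟩ := exists_norm_eq hF (c := j ν) (by rw [← hτ, hjτ])
      have he0 : e ≠ 0 := by
        rintro rfl
        rw [zero_mul] at he
        exact hν0 (j.injective (he.symm.trans (map_zero j).symm))
      obtain ⟨X, hX⟩ : ∃ X : GL (Fin n) F, X = Descent.scg (Units.mk0 e he0)⁻¹ *
        Matrix.GeneralLinearGroup.map j (g : GL (Fin n) F₀) := ⟨_, rfl⟩
      have hP : ((g : GL (Fin n) F₀) : Matrix (Fin n) (Fin n) F₀).map j =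
          ((Units.mk0 e he0 : Fˣ) : F) • (X : Matrix (Fin n) (Fin n) F) := by
        rw [hX, Descent.coe_scg_mul, smul_smul, Units.mul_inv, one_smul]
        rfl
      have hB : M * X * M⁻¹ ∈ GU n F q := by
        rw [unitary_iff hτ (M * X * M⁻¹) M X (by group), hG, hgram _ _ _ hP, hν, smul_map', Units.val_mk0, hτ, he]
      refine ⟨⟨_, hB⟩, ?_⟩
      rw [hφ, toP_apply, eq_comm, toPGL_eq_iff]
      refine ⟨(Units.mk0 e he0)⁻¹, ?_⟩
      change ((M * X * M⁻¹ : GL (Fin n) F) : Matrix (Fin n) (Fin n) F) = _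
      rw [hX, Units.val_mul, Units.val_mul, Descent.coe_scg_mul, Matrix.mul_smul,
        Matrix.smul_mul, ← Units.val_mul, ← Units.val_mul])
    (by
      intro B
      rw [f₁_comm_iff hF hn]
      obtain ⟨X, hX⟩ : ∃ X : GL (Fin n) F, (B : GL (Fin n) F) * M = M * X := ⟨M⁻¹ * B * M, by group⟩
      have hB := (unitary_iff hτ (B : GL (Fin n) F) M X hX).1 B.2
      rw [hG] at hB
      have hcomm := comm_iff hκ (A : GL (Fin n) F) (B : GL (Fin n) F) M X hX hM
      have hBX : (B : GL (Fin n) F) = M * X * M⁻¹ := by rw [← hX]; group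
      constructor
      · rintro ⟨c, hc⟩
        have hc1 := (hcomm c).1 hc
        have hc0 : c ≠ 0 := by
          rintro rfl
          rw [zero_smul] at hc1
          have h1 : (X : Matrix (Fin n) (Fin n) F) * ((X⁻¹ : GL (Fin n) F) : Matrix (Fin n) (Fin n) F) = 1 := by
            rw [← Units.val_mul, mul_inv_cancel, Units.val_one]
          rw [hc1, zero_mul] at h1
          exact zero_ne_one h1
        have hc' : (X : Matrix (Fin n) (Fin n) F).map τ = c⁻¹ • (X : Matrix (Fin n) (Fin n) F) := by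
          rw [eq_inv_smul_iff₀ hc0]
          exact hc1.symm
        obtain ⟨e, he⟩ := Descent.exists_fixed_multiple hc'
        obtain ⟨P, hP⟩ := Descent.exists_descend_gl hj he
        have hPm : (P : Matrix (Fin n) (Fin n) F₀).map j = (e : F) • (X : Matrix (Fin n) (Fin n) F) := by
          have := congrArg Units.val hP
          rw [Descent.coe_scg_mul] at this
          exact this
        have h2 := (hgram e P X hPm).1 hB
        obtain ⟨ν, hν⟩ : ∃ ν : F₀, j ν = (e : F) * τ e := (hj _).1 (by rw [map_mul, hττ, mul_comm])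
        have hν0 : ν ≠ 0 := by
          rintro rfl
          rw [map_zero] at hν
          exact mul_ne_zero e.ne_zero (by rw [Ne, map_eq_zero]; exact e.ne_zero) hν.symm
        refine ⟨⟨P, mem_similarity_iff.2 ⟨ν, hν0, ?_⟩⟩, ?_⟩
        · apply Descent.map_injective j
          change ((P : Matrix (Fin n) (Fin n) F₀)ᵀ * S₀ * P).map j = (ν • S₀).map j
          rw [h2, smul_map', hν]
        · rw [hφ, toP_apply, eq_comm, toPGL_eq_iff]
          refine ⟨e, ?_⟩
          rw [hBX, Units.val_mul, Units.val_mul, Units.val_mul, Units.val_mul]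
          change _ * (P : Matrix (Fin n) (Fin n) F₀).map j * _ = _
          rw [hPm, Matrix.mul_smul, Matrix.smul_mul]
      · rintro ⟨P, hP⟩
        rw [hφ, toP_apply, toPGL_eq_iff] at hP
        obtain ⟨c, hc⟩ := hP
        refine ⟨(c : F) * (τ (c : F))⁻¹, (hcomm _).2 ?_⟩
        have h3 : (X : Matrix (Fin n) (Fin n) F) = (c : F) • ((P : GL (Fin n) F₀) : Matrix (Fin n) (Fin n) F₀).map j := by
          have h4 : X = M⁻¹ * B * M := by rw [mul_assoc, hX, inv_mul_cancel_left]
          rw [h4, Units.val_mul, Units.val_mul, hc, Matrix.mul_smul, Matrix.smul_mul, ← Units.val_mul, ← Units.val_mul]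
          congr 1
          have h5 : M⁻¹ * (M * Matrix.GeneralLinearGroup.map j (P : GL (Fin n) F₀) * M⁻¹) * M =
            Matrix.GeneralLinearGroup.map j (P : GL (Fin n) F₀) := by group
          rw [h5]
          rfl
        rw [h3, smul_map, hjm, smul_smul]
        congr 1
        have : τ (c : F) ≠ 0 := by rw [Ne, map_eq_zero]; exact c.ne_zero
        field_simp)
  obtain ⟨e⟩ := key
  exact ⟨e.trans (QuotientGroup.quotientMulEquivOfEq hkφ)⟩

end Cfsg.Agent.H202.PsuSim
end

-- part: H202/SimCongr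
section
/-!
# Projective similarity groups of symmetric matrices of square discriminant (helper202)

* `projQuot_congr` : congruent matrices have isomorphic projective similarity groups;
* `projQuot_plus`  : a symmetric invertible matrix of dimension `2m` and determinant a square times `(-1)^m` over a
  finite field of odd order: the projective similarity group is `PGO F (quadFormPlus m F)`;
* `projQuot_minus`, `projQuot_symp`.
-/

set_option autoImplicit false
set_option linter.unusedSectionVars false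

namespace Cfsg.Agent.H202.SimCongr

open Cfsg Matrix Cfsg.Agent.H999.PslGraph Cfsg.Agent.H999.PslGraphOdd Cfsg.Agent.H999.PslGraphClasses
open scoped MatrixGroups

variable {F : Type*} [Field F] {n : ℕ}

theorem projQuot_congr {B B' : Matrix (Fin n) (Fin n) F} (P : GL (Fin n) F)
    (h : B' = (P : Matrix (Fin n) (Fin n) F)ᵀ * B * P) :
    Nonempty (projQuot (Geo.similarityGroup (bil B')) ≃* projQuot (Geo.similarityGroup (bil B))) := by
  let T : (Fin n → F) ≃ₗ[F] (Fin n → F) := LinearEquiv.ofLinearMap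
    (Matrix.mulVecLin (P : Matrix (Fin n) (Fin n) F)) (Matrix.mulVecLin ((P⁻¹ : GL (Fin n) F) : Matrix (Fin n) (Fin n) F))
    (by rw [← Matrix.mulVecLin_mul, ← Units.val_mul, mul_inv_cancel, Units.val_one, Matrix.mulVecLin_one])
    (by rw [← Matrix.mulVecLin_mul, ← Units.val_mul, inv_mul_cancel, Units.val_one, Matrix.mulVecLin_one])
  have hT : ∀ v, T v = (P : Matrix (Fin n) (Fin n) F) *ᵥ v := fun v => rfl
  exact similarity_transfer T one_ne_zero fun u v => by rw [hT, hT, bil_mulVec, ← h, one_mul]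

/-- Congruent to a reindexed matrix. -/
theorem projQuot_rx {κ : Type} [Fintype κ] [DecidableEq κ] (e : Fin n ≃ κ) (C : Matrix κ κ F) (hC : C.det ≠ 0)
    {B : Matrix (Fin n) (Fin n) F} (P : GL (Fin n) F)
    (h : (rx e C hC : Matrix (Fin n) (Fin n) F) = (P : Matrix (Fin n) (Fin n) F)ᵀ * B * P) :
    Nonempty (projQuot (Geo.similarityGroup (bil B)) ≃* projQuot (Geo.similarityGroup (bil C))) := by
  obtain ⟨e1⟩ := projQuot_congr P h
  obtain ⟨e2⟩ := similarity_transfer (LinearEquiv.funCongrLeft F F e.symm) one_ne_zero (bil_rx e C hC)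
  exact ⟨e1.symm.trans e2⟩

theorem projQuot_plus [Fintype F] (h2 : (2 : F) ≠ 0) {m : ℕ} (hn : 1 ≤ n) (e : Fin n ≃ Fin m ⊕ Fin m)
    (B : GL (Fin n) F) (hB : (B : Matrix (Fin n) (Fin n) F)ᵀ = B)
    (hd : IsSquare ((B : Matrix (Fin n) (Fin n) F).det * (-1) ^ m)) :
    Nonempty (projQuot (Geo.similarityGroup (bil (B : Matrix (Fin n) (Fin n) F))) ≃* PGO F (quadFormPlus m F)) := by
  obtain ⟨P, hP⟩ := exists_congr_of_disc h2 hn B (rx e (gramPlus m F) (det_gramPlus_ne_zero m)) hB
    (by rw [rx_transpose, gramPlus_transpose]; rfl) (by rw [det_rx, det_gramPlus]; exact hd)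
  have h := sim_eq_quad h2 (gramPlus_transpose m) (bil_gramPlus m (F := F))
  obtain ⟨e1⟩ := projQuot_rx e (gramPlus m F) (det_gramPlus_ne_zero m) P hP
  rw [h] at e1
  exact ⟨e1⟩

theorem projQuot_minus [Fintype F] (h2 : (2 : F) ≠ 0) {m : ℕ} (hn : 1 ≤ n) {a b : F}
    (hab : ∀ z₁ z₂ : F, z₁ ^ 2 + a * z₁ * z₂ + b * z₂ ^ 2 = 0 → z₁ = 0 ∧ z₂ = 0)
    (e : Fin n ≃ (Fin m ⊕ Fin m) ⊕ Fin 2)
    (B : GL (Fin n) F) (hB : (B : Matrix (Fin n) (Fin n) F)ᵀ = B)
    (hd : IsSquare ((B : Matrix (Fin n) (Fin n) F).det * ((-1) ^ m * (4 * b - a ^ 2)))) :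
    Nonempty (projQuot (Geo.similarityGroup (bil (B : Matrix (Fin n) (Fin n) F))) ≃*
      PGO F (quadFormMinus m F a b)) := by
  have hdet := det_gramMinus_ne_zero h2 m hab
  obtain ⟨P, hP⟩ := exists_congr_of_disc h2 hn B (rx e (gramMinus m F a b) hdet) hB
    (by rw [rx_transpose, gramMinus_transpose]; rfl) (by rw [det_rx, det_gramMinus]; exact hd)
  have h := sim_eq_quad h2 (gramMinus_transpose m a b) (bil_gramMinus m a b)
  obtain ⟨e1⟩ := projQuot_rx e (gramMinus m F a b) hdet P hP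
  rw [h] at e1
  exact ⟨e1⟩

theorem projQuot_symp {m : ℕ} (hnm : n = 2 * m) (B : GL (Fin n) F)
    (hB : ∀ v, bil (B : Matrix (Fin n) (Fin n) F) v v = 0) :
    Nonempty (projQuot (Geo.similarityGroup (bil (B : Matrix (Fin n) (Fin n) F))) ≃* PGSp m F) := by
  obtain ⟨e, he⟩ := exists_symp hnm B hB
  obtain ⟨e2⟩ := similarity_transfer e (f := bil (B : Matrix (Fin n) (Fin n) F)) (f' := sympForm m F)
    one_ne_zero (fun u v => by rw [he, one_mul])
  exact ⟨e2.symm⟩

end Cfsg.Agent.H202.SimCongr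
end

-- part: S2710
section
set_option autoImplicit false
open Cfsg

namespace Cfsg.Agent.S2710

open Cfsg.Agent.H202 Cfsg.Agent.H202.Psu Cfsg.Agent.Schreier.PSU Cfsg.Agent.H999.PslGraph
  Cfsg.Agent.LieClassical.HermBasic Cfsg.Agent.LieClassical.HermSiegel
  Cfsg.Agent.ClassicalGeometry.PSUAutCount

/-- Let T = PSU_n(q) with n ≥ 4 divisible by 4 (n = 2m) and q odd, realised over the field F with q² elements, G = Inndiag(T) the image of PGU_n(q), and φ the standard field automorphism of T attached to the q-th power map of F (it induces inverse-transpose on the unitary matrices and is a graph automorphism). Its centralizer in G is isomorphic to the projective conformal orthogonal group of the plus-type form Σ xᵢ yᵢ in dimension n over a field F₀ with q elements. (Dimensions n ≡ 2 (mod 4) are not covered.) -/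
theorem result {F : Type*} [Field F] [Fintype F] {q : ℕ} (hodd : Odd q) (hF : Fintype.card F = q ^ 2) {n m : ℕ} (hm : 2 ≤ m) (hnm : n = 2 * m) (h4 : 4 ∣ n) (F₀ : Type*) [Field F₀] [Fintype F₀] (hF₀ : Fintype.card F₀ = q) (σ : F ≃+* F) (hσ : ∀ a : F, σ a = a ^ q) (φ : MulAut (Cfsg.PSU n F q)) (hφ : Cfsg.IsFieldAutPSUOf σ φ) :
    Nonempty (↥(Cfsg.inndiagPSU n F q ⊓ Subgroup.centralizer {φ}) ≃* Cfsg.PGO F₀ (Cfsg.quadFormPlus m F₀)) := by
  rw [isFieldAut_iff] at hφ
  subst hφ
  have hq1 : 1 < q := by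
    rw [← hF₀]; exact Fintype.one_lt_card
  -- order of `σ`
  have hσσ : ∀ x, σ (σ x) = x := fun x => by rw [hσ, hσ, ← pow_mul, ← sq, ← hF, FiniteField.pow_card]
  have hσ1 : σ ≠ 1 := by
    intro h
    obtain ⟨a, ha⟩ := IsCyclic.exists_generator (α := Fˣ)
    have h1 : a ^ (q - 1) = 1 := by
      have h2 : (a : F) ^ q = a := by rw [← hσ, h]; rfl
      have h3 : a ^ q = a := Units.ext (by rw [Units.val_pow_eq_pow_val]; exact h2)
      have h4 : a ^ (q - 1) * a = 1 * a := by rw [← pow_succ, Nat.sub_add_cancel hq1.le, h3, one_mul]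
      exact mul_right_cancel h4
    have h5 : orderOf a = Fintype.card F - 1 := by
      rw [orderOf_eq_card_of_forall_mem_zpowers ha, Nat.card_units, Nat.card_eq_fintype_card]
    have h6 := orderOf_dvd_of_pow_eq_one h1
    rw [h5, hF] at h6
    have h7 := Nat.le_of_dvd (by omega) h6
    have h8 : q * q ≤ q := by rw [← sq]; omega
    nlinarith
  have hord : orderOf σ = 2 := by
    rw [orderOf_eq_prime_iff]
    refine ⟨?_, hσ1⟩
    ext x
    rw [sq]
    exact hσσ x
  obtain ⟨j, hj⟩ := Descent.exists_hom (F := F) (F₀ := F₀) hord two_pos (by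
    rw [Nat.card_eq_fintype_card, Nat.card_eq_fintype_card, hF, hF₀])
  have h2 : (2 : F₀) ≠ 0 := H999.PslGraphClasses.two_ne_zero_of_odd (by rw [hF₀]; exact hodd)
  have key := PsuSim.cent_equiv_sim (n := n) hF (by omega) hσ hj (1 : GU n F q) (1 : Matrix.GeneralLinearGroup (Fin n) F)
    (κ := 1) (ι := 1) one_ne_zero one_ne_zero
    (by
      rw [Units.val_one, Matrix.map_one _ (map_zero σ) (map_one σ), one_smul, Matrix.mul_one]
      rfl) (1 : Matrix (Fin n) (Fin n) F₀)
    (by
      rw [Units.val_one, Matrix.map_one _ (map_zero σ) (map_one σ), Matrix.map_one _ (map_zero j) (map_one j), one_smul,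
        Matrix.transpose_one, Matrix.mul_one])
  obtain ⟨e1⟩ := key
  rw [map_one, one_mul] at e1
  have e : Fin n ≃ Fin m ⊕ Fin m := (finCongr (by omega : n = m + m)).trans finSumFinEquiv.symm
  obtain ⟨e2⟩ := SimCongr.projQuot_plus h2 (by omega) e (1 : Matrix.GeneralLinearGroup (Fin n) F₀)
    (by rw [Units.val_one, Matrix.transpose_one]) (by
      have hme : Even m := by
        obtain ⟨k, hk⟩ := h4
        exact ⟨k, by omega⟩
      rw [hme.neg_one_pow, Units.val_one, Matrix.det_one, mul_one]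
      exact IsSquare.one)
  exact ⟨e1.trans e2⟩

end Cfsg.Agent.S2710
end
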