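import Mathlib
import Cfsg.Agent.H204.CrossT
import Cfsg.Agent.H185.MinusField
import Cfsg.Agent.OddCyclic.L2Borel
import Cfsg.Agent.Lib.FieldAutCard
import Cfsg.Agent.S2736
import Cfsg.Agent.H185.SplitTwo
import Cfsg.Agent.H205.MinusMain
import Cfsg.Statements.S2717
set_option linter.all false

-- part: H204/GFModel
section
/-!
# Graph-field involutions of `PΩ⁺`: the model `(POmega of a minus form over the fixed field, read over F)` (helper204)

`σ` an involution of `F` with fixed field `j(F₀)`.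

* `exists_data` : `θ ≠ σ θ`, `θ + σ θ = j a₀`, `θ σ(θ) = j b₀`, `z₁² + a₀ z₁ z₂ + b₀ z₂²` anisotropic over `F₀`;
* `T = splitEquiv n` : isometry of `minusQ n F (j a₀) (j b₀)` with `plusQ (n + 1) F`;
* `conj_frob` : `T` carries `v ↦ σ(v)` to `r ∘ σ`, `r` the reflection in `e₀ - f₀`;
* `Ymod` : the graph-field automorphism `r ∘ σ` of `PΩ⁺`; `congr_frob`;
* `simPM` : the similarities of `minusQ n F (j a₀) (j b₀)` of `kappa` one; `map_simPM`; `kappa_mapSim'`; `cent_model`.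
-/

set_option autoImplicit false
set_option linter.unusedSectionVars false

namespace Cfsg.Agent.H204.GFModel

open Matrix QuadraticMap Cfsg.Agent.LieClassical.OrthCore Cfsg.Agent.LieClassical.OrthTrans
  Cfsg.Agent.LieClassical.QuadForms
  Cfsg.Agent.ClassicalGeometry.OrthSemi Cfsg.Agent.ClassicalGeometry.Reflection
  Cfsg.Agent.H198.Classes Cfsg.Agent.H198.OrthFrame Cfsg.Agent.H198.ClassesPlus Cfsg.Agent.H198.ExtForm
  Cfsg.Agent.H185.OrthCent Cfsg.Agent.H185.ExtKappa Cfsg.Agent.H185.SplitOne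
  Cfsg.Agent.H198.Carriers Cfsg.Agent.H198.ClassesMinus Cfsg.Agent.H185.MinusField
  Cfsg.Agent.H204.CrossT

universe u v

section Data

variable {F : Type u} [Field F] {F₀ : Type v} [Field F₀] {j : F₀ →+* F} {σ : F ≃+* F}

theorem exists_data (hj : ∀ a, σ a = a ↔ ∃ b, j b = a) (h2 : ∀ a, σ (σ a) = a) (h1 : σ ≠ RingEquiv.refl F) :
    ∃ (θ : F) (a₀ b₀ : F₀), θ ≠ σ θ ∧ θ + σ θ = j a₀ ∧ θ * σ θ = j b₀ ∧ Aniso a₀ b₀ := by
  obtain ⟨θ, hθ⟩ : ∃ θ, σ θ ≠ θ := by
    by_contra hc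
    push Not at hc
    exact h1 (RingEquiv.ext hc)
  obtain ⟨a₀, ha⟩ := (hj (θ + σ θ)).1 (by rw [map_add, h2, add_comm])
  obtain ⟨b₀, hb⟩ := (hj (θ * σ θ)).1 (by rw [map_mul, h2, mul_comm])
  refine ⟨θ, a₀, b₀, hθ.symm, ha.symm, hb.symm, ?_⟩
  intro z₁ z₂ hz
  have h3 : (j z₁ + θ * j z₂) * (j z₁ + σ θ * j z₂) = 0 := by
    have h4 := congrArg j hz
    simp only [map_add, map_mul, map_pow, map_zero, ha, hb] at h4
    linear_combination h4
  have hz2 : z₂ = 0 := by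
    by_contra hne
    have hne' : j z₂ ≠ 0 := (map_ne_zero j).2 hne
    have key : ∀ t : F, j z₁ + t * j z₂ = 0 → σ t = t := by
      intro t ht
      refine (hj t).2 ⟨-z₁ / z₂, ?_⟩
      rw [map_div₀, map_neg, div_eq_iff hne']
      linear_combination -ht
    rcases mul_eq_zero.1 h3 with h4 | h4
    · exact hθ (key _ h4)
    · have h5 := key _ h4
      rw [h2] at h5
      exact hθ h5.symm
  subst hz2
  have : z₁ ^ 2 = 0 := by linear_combination hz
  exact ⟨(pow_eq_zero_iff two_ne_zero).1 this, rfl⟩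

end Data

section Model

variable {F : Type u} [Field F] {σ : F ≃+* F} {n : ℕ}

theorem fix_plus (σ : F ≃+* F) (m : ℕ) : Fix σ (plusQ m F) := by
  intro v
  change quadFormPlus m F (fun i => σ (v i)) = σ (quadFormPlus m F v)
  simp only [quadFormPlus, map_sum, map_mul]

/-- The vector `e₀ - f₀`. -/
def v0 (n : ℕ) (F : Type u) [Field F] : Fin (n + 1) ⊕ Fin (n + 1) → F := plusStep n F (0, 1, -1)

theorem plusQ_step (w : Fin n ⊕ Fin n → F) (a b : F) :
    plusQ (n + 1) F (plusStep n F (w, a, b)) = plusQ n F w + a * b := by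
  rw [plusQ_eq, plusQ_eq, plusForm_plusStep]

theorem Q_v0 : plusQ (n + 1) F (v0 n F) = -1 := by
  rw [v0, plusQ_step, QuadraticMap.map_zero]
  ring

theorem Q_v0_ne : plusQ (n + 1) F (v0 n F) ≠ 0 := by
  rw [Q_v0]
  exact neg_ne_zero.2 one_ne_zero

theorem sig_v0 (σ : F ≃+* F) (i : Fin (n + 1) ⊕ Fin (n + 1)) : σ (v0 n F i) = v0 n F i := by
  rcases i with i | i
  · refine Fin.cases ?_ (fun i => ?_) i
    · change σ 1 = 1
      exact map_one σ
    · change σ 0 = 0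
      exact map_zero σ
  · refine Fin.cases ?_ (fun i => ?_) i
    · change σ (-1) = -1
      rw [map_neg, map_one]
    · change σ 0 = 0
      exact map_zero σ

theorem polar_v0 (w : Fin n ⊕ Fin n → F) (a b : F) :
    polar (plusQ (n + 1) F) (v0 n F) (plusStep n F (w, a, b)) = b - a := by
  rw [polar, v0, ← map_add, plusQ_step, plusQ_step, Prod.mk_add_mk, Prod.mk_add_mk, plusQ_step,
    QuadraticMap.map_zero, zero_add]
  ring

/-- The reflection in `e₀ - f₀` swaps the first two coordinates. -/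
theorem rf_v0 (w : Fin n ⊕ Fin n → F) (a b : F) :
    ((rf (plusQ (n + 1) F) (v0 n F) Q_v0_ne : GL (Fin (n + 1) ⊕ Fin (n + 1)) F) : Matrix _ _ F) *ᵥ
      plusStep n F (w, a, b) = plusStep n F (w, b, a) := by
  rw [rf_mulVec, Q_v0, polar_v0, v0, ← map_smul, ← map_sub]
  congr 1
  refine Prod.ext ?_ (Prod.ext ?_ ?_)
  · funext i
    simp
  · change a - ((-1)⁻¹ * (b - a)) * 1 = b
    rw [inv_neg, inv_one]
    ring
  · change b - ((-1)⁻¹ * (b - a)) * (-1) = a
    rw [inv_neg, inv_one]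
    ring

theorem sig_step (σ : F ≃+* F) (w : Fin n ⊕ Fin n → F) (a b : F) :
    (fun i => σ (plusStep n F (w, a, b) i)) = plusStep n F (fun i => σ (w i), σ a, σ b) := by
  funext i
  rcases i with i | i
  · refine Fin.cases ?_ (fun i => ?_) i <;> rfl
  · refine Fin.cases ?_ (fun i => ?_) i <;> rfl

variable {θ a b : F}

/-- `T` carries `σ` to `r ∘ σ`. -/
theorem conj_frob (h2 : ∀ c, σ (σ c) = c) (hθ : θ ≠ σ θ) (ha : θ + σ θ = a) (hb : θ * σ θ = b)
    (hσ : Fix σ (minusQ n F a b)) :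
    conjGam (splitEquiv n hθ) (splitEquiv_form hθ ha hb) (frobG hσ) =
      simGam _ (rf (plusQ (n + 1) F) (v0 n F) Q_v0_ne) * frobG (fix_plus σ (n + 1)) := by
  apply Subtype.ext
  ext1 v
  obtain ⟨v, rfl⟩ := (splitEquiv n hθ).surjective v
  rw [conjGam_apply]
  change _ = (simGam _ (rf (plusQ (n + 1) F) (v0 n F) Q_v0_ne)).1
    ((frobG (fix_plus σ (n + 1))).1 (splitEquiv n hθ v))
  rw [frobG_apply, frobG_apply, simGam_apply]
  have h3 : ∀ w : (Fin n ⊕ Fin n) ⊕ Fin 2 → F, splitEquiv n hθ w =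
      plusStep n F (fun i => w (.inl i), w (.inr 0) + θ * w (.inr 1), w (.inr 0) + σ θ * w (.inr 1)) :=
    fun w => rfl
  rw [h3, h3, sig_step, rf_v0, map_add, map_add, map_mul, map_mul, h2]

/-- The graph-field automorphism `r ∘ σ`. -/
noncomputable def Ymod (hG : Good (plusQ (n + 1) F)) (σ : F ≃+* F) :
    MulAut (POmega F ⇑(plusQ (n + 1) F)) :=
  S hG (rf (plusQ (n + 1) F) (v0 n F) Q_v0_ne) * Phi hG (frobG (fix_plus σ (n + 1)))

theorem congr_frob (h2 : ∀ c, σ (σ c) = c) (hθ : θ ≠ σ θ) (ha : θ + σ θ = a) (hb : θ * σ θ = b)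
    (hσ : Fix σ (minusQ n F a b)) (hG : Good (plusQ (n + 1) F)) (hG' : Good (minusQ n F a b)) :
    MulAut.congr (poT (splitEquiv_form (m := n) hθ ha hb)) (Phi hG' (frobG hσ)) = Ymod hG σ := by
  rw [congr_Phi _ hG hG', conj_frob h2 hθ ha hb, map_mul]
  rfl

theorem isGraphField_Ymod (hG : Good (plusQ (n + 1) F)) (h1 : σ ≠ RingEquiv.refl F) :
    IsGraphFieldAutClassPOmegaPlus (n + 1) (Ymod hG σ) := by
  refine ⟨1, S hG (rf (plusQ (n + 1) F) (v0 n F) Q_v0_ne), Phi hG (frobG (fix_plus σ (n + 1))), σ, v0 n F,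
    (rf (plusQ (n + 1) F) (v0 n F) Q_v0_ne : GL (Fin (n + 1) ⊕ Fin (n + 1)) F), h1, Q_v0_ne, sig_v0 σ, ?_,
    (induced_iff_S hG _ _).2 rfl, (isFieldAut_iff hG (fix_plus σ (n + 1)) _).2 rfl, ?_⟩
  · exact coe_reflIso (plusQ (n + 1) F) (v0 n F) Q_v0_ne
  · change (1 : MulAut (POmega F ⇑(plusQ (n + 1) F))) * Ymod hG σ * 1⁻¹ = _
    rw [one_mul, inv_one, mul_one]
    rfl

end Model

/-! ### `kappa` -/

section Kappa

variable {F : Type u} [Field F] {σ : F ≃+* F} {n : ℕ} {θ θ' a b : F}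

/-- The similarities of the form `minusQ n F a b` which preserve the two classes (the form being split). -/
noncomputable def simPM (n : ℕ) (hθ : θ ≠ θ') (ha : θ + θ' = a) (hb : θ * θ' = b) :
    Subgroup (Sim (minusQ n F a b)) :=
  ((kappa (neutral_minusK (m := n) hθ ha hb)).comp (simGam _)).ker

theorem mem_simPM (hθ : θ ≠ θ') (ha : θ + θ' = a) (hb : θ * θ' = b) (g : Sim (minusQ n F a b)) :
    g ∈ simPM n hθ ha hb ↔ kappa (neutral_minusK (m := n) hθ ha hb) (simGam _ g) = 1 := Iff.rfl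

theorem simT_mem_iff (hθ : θ ≠ θ') (ha : θ + θ' = a) (hb : θ * θ' = b) (g : Sim (minusQ n F a b)) :
    simT (splitEquiv_form (m := n) hθ ha hb) g ∈ simPlus (n + 1) F ↔ g ∈ simPM n hθ ha hb := by
  rw [mem_simPlus, mem_simPM, ← conjGam_simGam, kappa_conj _ _ (neutral_minusK (m := n) hθ ha hb)]

theorem map_simPM (hθ : θ ≠ θ') (ha : θ + θ' = a) (hb : θ * θ' = b) (hG : Good (plusQ (n + 1) F))
    (hG' : Good (minusQ n F a b)) :
    ((simPM n hθ ha hb).map (S hG')).map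
      (MulAut.congr (poT (splitEquiv_form (m := n) hθ ha hb))).toMonoidHom = inndiagPOmegaPlus (n + 1) F := by
  rw [inndiag_plus_eq hG]
  exact map_map_S _ hG hG' (simT_mem_iff hθ ha hb)

theorem kappa_rf (hθ : θ ≠ θ') (ha : θ + θ' = a) (hb : θ * θ' = b) (v : (Fin n ⊕ Fin n) ⊕ Fin 2 → F)
    (hv : minusQ n F a b v ≠ 0) :
    kappa (neutral_minusK (m := n) hθ ha hb) (simGam _ (rf _ v hv)) = -1 := by
  rw [← simO_refl, simGam_simO, kappa_refl]

variable [Finite F] {F₀ : Type v} [Field F₀] [Finite F₀] {j : F₀ →+* F} {a₀ b₀ : F₀}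

/-- `kappa` on the similarities of the small form. -/
theorem kappa_mapSim' (hn : 2 ≤ n) (hab : Aniso a₀ b₀) (hθ : θ ≠ θ') (ha : θ + θ' = j a₀) (hb : θ * θ' = j b₀)
    (hG : Good (minusQ n F (j a₀) (j b₀))) (g : Sim (minusQ n F₀ a₀ b₀)) :
    kappa (neutral_minusK (m := n) hθ ha hb) (simGam _ (mapSim (ext_minus j n a₀ b₀) g)) = kapM hab g := by
  have hG₀ := good_minusQ hn hab
  by_cases h2 : (2 : F₀) = 0
  · have h3 : ((kappa (neutral_minusK (m := n) hθ ha hb)).comp (simGam _)).comp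
        (mapSim (ext_minus j n a₀ b₀)) = kapM hab := by
      apply hom_unique_two h2 hG₀
      intro v hv
      rw [kapM_refl, simO_refl, MonoidHom.comp_apply, MonoidHom.comp_apply, mapSim_rf, kappa_rf hθ ha hb]
    exact DFunLike.congr_fun h3 g
  · have h2' : (2 : F) ≠ 0 := by
      rw [← map_ofNat j]
      exact (map_ne_zero j).2 h2
    have h3 := sgn_kappa_minusK hn hθ ha hb (mapSim (ext_minus j n a₀ b₀) g)
      (mu hG (mapSim (ext_minus j n a₀ b₀) g)) (mu_spec hG _)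
    rw [mu_mapSim _ hG₀ hG, dt_mapSim, ← sgn_kapM hn hab hG₀ g, map_mul, map_pow, mul_left_inj] at h3
    have h4 : Units.map (j : F₀ →* F) (sgn F₀ (kapM hab g)) = sgn F (kapM hab g) := by
      apply Units.ext
      simp [sgn]
    rw [h4] at h3
    have h5 : sgn F (kappa (neutral_minusK (m := n) hθ ha hb) (simGam _ (mapSim (ext_minus j n a₀ b₀) g)) *
        (kapM hab g)⁻¹) = 1 := by
      rw [map_mul, map_inv, h3, mul_inv_cancel]
    rw [sgn_eq_one_iff h2', mul_inv_eq_one] at h5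
    exact h5

theorem kappa_sc (hn : 2 ≤ n) (hθ : θ ≠ θ') (ha : θ + θ' = a) (hb : θ * θ' = b)
    (hG : Good (minusQ n F a b)) (e : Fˣ) :
    kappa (neutral_minusK (m := n) hθ ha hb) (simGam _ (H185.OrthCent.scSim (minusQ n F a b) e)) = 1 := by
  have hb := lag_base (neutral_minusK (m := n) hθ ha hb)
  rw [← kappa_eq _ _ hb]
  set U := base (neutral_minusK (m := n) hθ ha ‹θ * θ' = b›) with hU
  have h1 : img (simGam _ (H185.OrthCent.scSim (minusQ n F a b) e)) U = U := by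
    ext x
    constructor
    · rintro ⟨u, hu, rfl⟩
      have h3 : (simGam _ (H185.OrthCent.scSim (minusQ n F a b) e)).1 u = (e : F) • u := by
        rw [simGam_apply, H185.OrthCent.coe_scSim, H202.Descent.coe_scg, Matrix.smul_mulVec, one_mulVec]
      rw [h3]
      exact Submodule.smul_mem _ _ hu
    · intro hx
      refine ⟨((e⁻¹ : Fˣ) : F) • x, Submodule.smul_mem _ _ hx, ?_⟩
      rw [simGam_apply, H185.OrthCent.coe_scSim, H202.Descent.coe_scg, Matrix.smul_mulVec, one_mulVec, smul_smul,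
        ← Units.val_mul, mul_inv_cancel, Units.val_one, one_smul]
  rw [h1, par_self hb]

/-- The centralizer in the model. -/
theorem cent_model (hn : 2 ≤ n) (hab : Aniso a₀ b₀) (hθ : θ ≠ θ') (ha : θ + θ' = j a₀) (hb : θ * θ' = j b₀)
    {σ : F ≃+* F} (hj : ∀ a, σ a = a ↔ ∃ b, j b = a)
    (hG : Good (minusQ n F (j a₀) (j b₀))) (hσ : Fix σ (minusQ n F (j a₀) (j b₀))) :
    Nonempty (↥((simPM n hθ ha hb).map (S hG) ⊓ Subgroup.centralizer {Phi hG (frobG hσ)}) ≃*
      ↥(inndiagPOmegaMinus n F₀ a₀ b₀)) := by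
  have hG₀ := good_minusQ hn hab
  have hC : ∀ g₀, mapSim (ext_minus j n a₀ b₀) g₀ ∈ simPM n hθ ha hb ↔ g₀ ∈ simMinus n hab := by
    intro g₀
    rw [mem_simPM, mem_simMinus, kappa_mapSim' hn hab hθ ha hb hG]
  have hne : Nonempty ((Fin n ⊕ Fin n) ⊕ Fin 2) := ⟨.inr 0⟩
  rw [inndiag_minus_eq hn hab hG₀]
  exact centIso (ext_minus j n a₀ b₀) hG₀ hG hσ hj (simMinus n hab) (simPM n hθ ha hb) hC
    (kappa_sc hn hθ ha hb hG)

end Kappa

end Cfsg.Agent.H204.GFModel
end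

-- part: H204/GFConj
section
/-!
# Graph-field involutions of `PΩ⁺_{2m}(F)`, `m ≥ 5`: the field automorphism and conjugacy (helper204)

* `exists_form` : an involutory graph-field automorphism is `Phi M`, `M` semilinear over `σ`, `σ² = 1 ≠ σ`,
  `kappa M = - kappa (v ↦ σ v)`;
* `conj_all` : two of them are conjugate under `Inndiag`.
-/

set_option autoImplicit false
set_option linter.unusedSectionVars false

namespace Cfsg.Agent.H204.GFConj

open Matrix QuadraticMap Cfsg.Agent.LieClassical.OrthCore Cfsg.Agent.LieClassical.OrthTrans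
  Cfsg.Agent.ClassicalGeometry.OrthSemi Cfsg.Agent.ClassicalGeometry.Reflection
  Cfsg.Agent.H198.Classes Cfsg.Agent.H198.OrthFrame Cfsg.Agent.H198.ClassesPlus Cfsg.Agent.H198.ExtForm
  Cfsg.Agent.H185.OrthCent Cfsg.Agent.H185.SplitOne
  Cfsg.Agent.H198.Carriers Cfsg.Agent.H204.GFModel

universe u

section Gen

variable {ι : Type} [Fintype ι] [DecidableEq ι] {F : Type u} [Field F] {Q : QuadraticForm F (ι → F)}

theorem refl_of_Phi (hG : Good Q) {M : Gam Q} {τ : F ≃+* F} {c : F} (hM : IsSS Q τ c M.1) (h : Phi hG M = 1) :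
    τ = RingEquiv.refl F := by
  obtain ⟨a, ha, hv⟩ := (Phi_eq_one_iff hG M).1 h
  obtain ⟨v, hv0⟩ := exists_ne_zero_of_good hG
  have hv1 : v ≠ 0 := by
    rintro rfl
    exact hv0 (QuadraticMap.map_zero Q)
  ext b
  have h1 := hM.smul b v
  rw [hv, hv, smul_comm, smul_smul, smul_smul, ← sub_eq_zero, ← sub_smul, smul_eq_zero] at h1
  rcases h1 with h1 | h1
  · have h2 : (b - τ b) * a = 0 := by linear_combination h1
    rcases mul_eq_zero.1 h2 with h3 | h3
    · exact (sub_eq_zero.1 h3).symm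
    · exact absurd h3 ha
  · exact absurd h1 hv1

end Gen

variable {F : Type u} [Field F] [Finite F] {m : ℕ}

theorem comm_ringAut (σ τ : F ≃+* F) : σ * τ = τ * σ := by
  have hc : IsCyclic (F ≃+* F) := OddCyclic.L2Borel.isCyclic_ringAut
  obtain ⟨g, hg⟩ := hc.exists_generator
  obtain ⟨k, rfl⟩ := Subgroup.mem_zpowers_iff.1 (hg σ)
  obtain ⟨l, rfl⟩ := Subgroup.mem_zpowers_iff.1 (hg τ)
  rw [← _root_.zpow_add, ← _root_.zpow_add, add_comm]

/-- The shape of an involutory graph-field automorphism. -/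
theorem exists_form (hm : 5 ≤ m) (hG : Good (plusQ m F)) {x : MulAut (POmega F ⇑(plusQ m F))}
    (hx : IsGraphFieldAutClassPOmegaPlus m x) (hx2 : orderOf x = 2) :
    ∃ (σ : F ≃+* F) (M : Gam (plusQ m F)) (c : F), σ ≠ 1 ∧ σ * σ = 1 ∧ x = Phi hG M ∧
      IsSS (plusQ m F) σ c M.1 ∧
      kappa (neutral_plusQ m F) M = - kappa (neutral_plusQ m F) (frobG (fix_plus σ m)) := by
  obtain ⟨α, γ, φ, σ, v, r, hσ, hv', hvσ, hr, hγ, hφ, hx⟩ : ∃ (α γ φ : MulAut (POmega F ⇑(plusQ m F)))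
      (σ : F ≃+* F) (v : Fin m ⊕ Fin m → F) (r : GL (Fin m ⊕ Fin m) F),
      σ ≠ RingEquiv.refl F ∧ plusQ m F v ≠ 0 ∧ (∀ i, σ (v i) = v i) ∧
      (r : Matrix (Fin m ⊕ Fin m) (Fin m ⊕ Fin m) F) = reflectionMatrix ⇑(plusQ m F) v ∧
      IsInducedBySemilinearPOmega ⇑(plusQ m F) r (RingEquiv.refl F) γ ∧
      IsFieldAutPOmegaOf ⇑(plusQ m F) σ φ ∧ α * x * α⁻¹ = γ * φ := hx
  have hγ' : γ = S hG (rf (plusQ m F) v hv') := by
    refine (induced_iff_S hG (rf (plusQ m F) v hv') γ).1 ?_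
    have h1 : ((rf (plusQ m F) v hv' : Sim (plusQ m F)) : GL (Fin m ⊕ Fin m) F) = r := by
      apply Units.ext
      rw [hr]
      exact coe_reflIso (plusQ m F) v hv'
    rw [h1]
    exact hγ
  have hφ' : φ = Phi hG (frobG (fix_plus σ m)) := (isFieldAut_iff hG (fix_plus σ m) φ).1 hφ
  obtain ⟨A, hA⟩ : ∃ A : Gam (plusQ m F), Phi hG A = α := surj_plusQ hm α
  have hxM : x = Phi hG (A⁻¹ * (simGam _ (rf (plusQ m F) v hv') * frobG (fix_plus σ m)) * A) := by
    rw [map_mul, map_mul, map_mul, map_inv, hA, ← hφ']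
    change x = α⁻¹ * (S hG (rf (plusQ m F) v hv') * φ) * α
    rw [← hγ']
    have h1 : x = α⁻¹ * (α * x * α⁻¹) * α := by group
    rw [h1]
    congr 2
  obtain ⟨ρ, d, hρ⟩ := A.2
  have h1 : IsSS (plusQ m F) σ 1 (frobG (fix_plus σ m)).1 := by
    refine isSS_perm one_ne_zero fun v => ?_
    rw [Units.val_one, one_mulVec, one_mul]
    exact fix_plus σ m v
  have h2 : IsSS (plusQ m F) (RingEquiv.refl F) 1 (simGam _ (rf (plusQ m F) v hv')).1 := by
    refine isSS_perm one_ne_zero fun w => ?_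
    rw [one_mul]
    exact (reflIso (plusQ m F) v hv').2 w w
  have h3 := (hρ.inv.mul (h2.mul h1)).mul hρ
  have hτ : ρ.trans ((σ.trans (RingEquiv.refl F)).trans ρ.symm) = σ := by
    have h4 : ρ.trans ((σ.trans (RingEquiv.refl F)).trans ρ.symm) = ρ⁻¹ * σ * ρ := rfl
    rw [h4, mul_assoc, comm_ringAut σ ρ, inv_mul_cancel_left]
  have h5 := h3
  rw [hτ] at h5
  refine ⟨σ, A⁻¹ * (simGam _ (rf (plusQ m F) v hv') * frobG (fix_plus σ m)) * A, _, hσ, ?_, hxM, h5, ?_⟩
  · have h5 : x * x = 1 := by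
      rw [← pow_two, ← hx2, pow_orderOf_eq_one]
    rw [hxM, ← map_mul] at h5
    have h6 := refl_of_Phi hG (h3.mul h3) h5
    rw [hτ] at h6
    exact h6
  · have h6 : kappa (neutral_plusQ m F) (simGam _ (rf (plusQ m F) v hv')) = -1 := by
      rw [← simO_refl, simGam_simO, kappa_refl]
    rw [map_mul, map_mul, map_mul, map_inv, h6]
    rw [mul_comm, mul_inv_cancel_left, neg_one_mul]

theorem kappa_one_mem (hG : Good (plusQ m F)) {M : Gam (plusQ m F)} {c : F}
    (hM : IsSS (plusQ m F) (RingEquiv.refl F) c M.1) (hk : kappa (neutral_plusQ m F) M = 1) :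
    Phi hG M ∈ inndiagPOmegaPlus m F := by
  obtain ⟨g, rfl⟩ := exists_sim_of_refl hM
  rw [inndiag_plus_eq hG]
  exact ⟨g, hk, rfl⟩

/-- Two involutory graph-field automorphisms differ by an inner-diagonal one. -/
theorem mem_inndiag (hm : 5 ≤ m) {x y : MulAut (POmega F ⇑(plusQ m F))}
    (hx : IsGraphFieldAutClassPOmegaPlus m x) (hx2 : orderOf x = 2)
    (hy : IsGraphFieldAutClassPOmegaPlus m y) (hy2 : orderOf y = 2) :
    y * x⁻¹ ∈ inndiagPOmegaPlus m F := by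
  have hG : Good (plusQ m F) := good_plusQ (by omega)
  obtain ⟨σ, M, c, h1, h2, rfl, hM, hk⟩ := exists_form hm hG hx hx2
  obtain ⟨τ, N, d, h1', h2', rfl, hN, hk'⟩ := exists_form hm hG hy hy2
  have hc : IsCyclic (F ≃+* F) := OddCyclic.L2Borel.isCyclic_ringAut
  have hf : Finite (F ≃+* F) := OddCyclic.L2Borel.finite_ringAut
  obtain rfl : τ = σ := OddCyclic.L2Borel.invol_unique h2' h2 h1' h1
  have h3 : Phi hG N * (Phi hG M)⁻¹ = Phi hG (N * M⁻¹) := by rw [map_mul, map_inv]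
  change Phi hG N * (Phi hG M)⁻¹ ∈ inndiagPOmegaPlus m F
  rw [h3]
  have h4 := hN.mul hM.inv
  have h5 : τ.symm.trans τ = RingEquiv.refl F := RingEquiv.ext fun a => τ.apply_symm_apply a
  rw [h5] at h4
  refine kappa_one_mem hG h4 ?_
  rw [map_mul, map_inv, hk, hk', mul_inv_cancel]

/-- **Any two involutory graph-field automorphisms are conjugate under `Inndiag`.** -/
theorem conj_all (hm : 5 ≤ m) {x y : MulAut (POmega F (quadFormPlus m F))}
    (hx : IsGraphFieldAutClassPOmegaPlus m x) (hx2 : orderOf x = 2)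
    (hy : IsGraphFieldAutClassPOmegaPlus m y) (hy2 : orderOf y = 2) :
    IsConjUnder (inndiagPOmegaPlus m F) x y := by
  have := Fintype.ofFinite F
  have h1 := (Cfsg.Agent.S2736.result hm x (y * x⁻¹) (Or.inr hx) Nat.prime_two hx2 (mem_inndiag hm hx hx2 hy hy2)).1
  rw [inv_mul_cancel_right] at h1
  exact h1 hy2

/-- The number of automorphisms is even. -/
theorem even_of_invol {σ : F ≃+* F} (h1 : σ ≠ 1) (h2 : σ * σ = 1) {p f : ℕ} [Fact p.Prime]
    (hf : 1 ≤ f) (hF : Nat.card F = p ^ f) : Even f := by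
  have := Fintype.ofFinite F
  rw [Nat.card_eq_fintype_card] at hF
  have h3 : Nat.card (F ≃+* F) = f := Lib.FieldAutCard.card_ringAut hf hF
  rw [even_iff_two_dvd, ← h3, ← orderOf_eq_prime (p := 2) (by rw [pow_two, h2]) h1]
  exact orderOf_dvd_natCard σ

end Cfsg.Agent.H204.GFConj
end

-- part: H204/GFCount
section
/-!
# The split count of a graph-field involution of `PΩ⁺` (helper204)

* `count_even` : characteristic two: one class;
* `simT_delM` : the proper similarity `delM` of non-square multiplier `c` of the small form is, over `F`, a scalar `s`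
  (`s² = c`) times the torus element `(λ / s, s, ..., s)`;
* `count_odd_four`, `count_odd_two`.
-/

set_option autoImplicit false
set_option linter.unusedSectionVars false

namespace Cfsg.Agent.H204.GFCount

open Matrix QuadraticMap Cfsg.Agent.LieClassical.OrthCore Cfsg.Agent.LieClassical.OrthTrans
  Cfsg.Agent.LieClassical.QuadForms
  Cfsg.Agent.ClassicalGeometry.OrthSemi Cfsg.Agent.ClassicalGeometry.Reflection
  Cfsg.Agent.H198.Classes Cfsg.Agent.H198.OrthFrame Cfsg.Agent.H198.ExtForm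
  Cfsg.Agent.H185.OrthCent Cfsg.Agent.H185.ExtKappa Cfsg.Agent.H185.SplitOne
  Cfsg.Agent.H198.Carriers Cfsg.Agent.H185.MinusField
  Cfsg.Agent.H204.CrossT Cfsg.Agent.H204.GFModel
open Cfsg.Agent.H198.ClassesPlus (mu mu_spec mu_unique mu_eq_one_iff dt dt_apply sgn sgn_eq_one_iff)
open Cfsg.Agent.H198.ClassesMinus (kapM kapM_iff mem_simMinus simMinus)
open Cfsg.Agent.H205.Gen (incI etaS eta chi scS etaS_eq_one_iff chi_eq_one_iff chi_eq_neg_one_iff)
open Cfsg.Agent.H205.GenInn (sg ngI mem_inn_iff)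
open Cfsg.Agent.H205.Torus (torP torP_mulVec_inl torP_mulVec_inr det_torP sg_torP sg_ngI_plus)
open Cfsg.Agent.H205.TorusMinus (delM delMat coe_delM delMat_inl delMat_inr delMat_zero delMat_one)
open Cfsg.Agent.H205.MinusMain (card_minus etaS_delM chi_mu_delM exists_del)

universe u v

section Inn

variable {ι κ : Type} [Fintype ι] [DecidableEq ι] [Fintype κ] [DecidableEq κ] {F : Type u} [Field F]
  {Q : QuadraticForm F (ι → F)} {Q' : QuadraticForm F (κ → F)} {T : (κ → F) ≃ₗ[F] (ι → F)}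

theorem inn_iff (hT : ∀ v, Q (T v) = Q' v) (hG : Good Q) (hG' : Good Q') (g : Sim Q') :
    S hG' g ∈ Inn (POmega F ⇑Q') ↔ S hG (simT hT g) ∈ Inn (POmega F ⇑Q) := by
  rw [← congr_S hT hG hG', ← H185.IsoTransport.inn_map (poT hT)]
  constructor
  · intro h
    exact ⟨_, h, rfl⟩
  · rintro ⟨y, hy, h⟩
    rwa [← (MulAut.congr (poT hT)).injective h]

end Inn

section Main

variable {F : Type u} [Field F] [Finite F] {F₀ : Type v} [Field F₀] [Finite F₀] {j : F₀ →+* F} {n : ℕ}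
  {a₀ b₀ : F₀} {θ θ' : F}

/-- Characteristic two: one class. -/
theorem count_even (h2 : (2 : F) = 0) (hn : 2 ≤ n) (hab : Aniso a₀ b₀) (hθ : θ ≠ θ') (ha : θ + θ' = j a₀)
    (hb : θ * θ' = j b₀) {σ : F ≃+* F} (hj : ∀ a, σ a = a ↔ ∃ b, j b = a)
    (hG : Good (minusQ n F (j a₀) (j b₀))) (hσ : Fix σ (minusQ n F (j a₀) (j b₀))) :
    splitClassCount ((simPM n hθ ha hb).map (S hG)) (Inn (POmega F ⇑(minusQ n F (j a₀) (j b₀))))
      (Phi hG (frobG hσ)) = 1 := by
  have hG₀ := good_minusQ hn hab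
  have hne : Nonempty ((Fin n ⊕ Fin n) ⊕ Fin 2) := ⟨.inr 0⟩
  have hχ : ∀ v hv, ((kappa (neutral_minusK (m := n) hθ ha hb)).comp (simGam _)) (rf _ v hv) = -1 :=
    fun v hv => kappa_rf hθ ha hb v hv
  have he : Even (Fintype.card ((Fin n ⊕ Fin n) ⊕ Fin 2)) := ⟨n + 1, by rw [card_I]; ring⟩
  refine split_one hG (fun x hx => chi_omega ((kappa (neutral_minusK (m := n) hθ ha hb)).comp (simGam _)) hx) ?_
  apply cover (ext_minus j n a₀ b₀) hG₀ hG hσ hj (simMinus n hab) (simPM n hθ ha hb)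
  · intro g₀
    rw [mem_simPM, mem_simMinus, kappa_mapSim' hn hab hθ ha hb hG]
  · exact kappa_sc hn hθ ha hb hG
  · intro a
    obtain ⟨s, hs⟩ := Cfsg.Agent.H198.ClassesMinus.exists_sq_of_two h2 a
    exact ⟨1, s, by rw [map_one, mul_one]; exact hs⟩
  · exact exists_mult_ker hG₀ he (kapM hab) (fun v hv => kapM_rf hab hv)
  · intro x hx
    exact iso_two (ext_minus j n a₀ b₀) h2 hG (simMinus n hab) _ hχ x hx

/-- Odd characteristic: the group of the model. -/
theorem simPM_eq_pd (h2 : (2 : F) ≠ 0) (hn : 2 ≤ n) {a b : F} (hθ : θ ≠ θ') (ha : θ + θ' = a)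
    (hb : θ * θ' = b) (hG : Good (minusQ n F a b)) :
    (simPM n hθ ha hb).map (S hG) = H205.Gen.pd hG h2 (card_minus n) := by
  unfold H205.Gen.pd
  congr 1
  ext g
  rw [mem_simPM, MonoidHom.mem_ker, etaS_eq_one_iff]
  have h3 := sgn_kappa_minusK hn hθ ha hb g (mu hG g) (mu_spec hG g)
  constructor
  · intro h
    rw [h, map_one, one_mul] at h3
    exact h3.symm
  · intro h
    rw [h, mul_eq_right, sgn_eq_one_iff h2] at h3
    exact h3

omit [Finite F] [Finite F₀] in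
theorem map_delMat (j : F₀ →+* F) (n : ℕ) (a b c x y : F₀) :
    (delMat n a b c x y).map j = delMat n (j a) (j b) (j c) (j x) (j y) := by
  unfold delMat
  rw [Matrix.fromBlocks_map, Matrix.diagonal_map (map_zero j), Matrix.map_zero _ (map_zero j),
    Matrix.map_zero _ (map_zero j)]
  congr 1
  · congr 1
    funext i
    rcases i with i | i
    · rfl
    · exact map_one j
  · ext i k
    fin_cases i <;> fin_cases k <;> simp

omit [Finite F] [Finite F₀] in
theorem T_apply (hθ : θ ≠ θ') (w : (Fin n ⊕ Fin n) ⊕ Fin 2 → F) : splitEquiv n hθ w =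
    plusStep n F (fun i => w (.inl i), w (.inr 0) + θ * w (.inr 1), w (.inr 0) + θ' * w (.inr 1)) := rfl

omit [Finite F] [Finite F₀] in
/-- The similarity `delM` over `F`. -/
theorem simT_delM (hθ : θ ≠ θ') (ha : θ + θ' = j a₀) (hb : θ * θ' = j b₀) {c x y : F₀} (hc : c ≠ 0)
    (h : x ^ 2 + a₀ * x * y + b₀ * y ^ 2 = c) (s l : Fˣ) (hs : (s : F) * s = j c) (hl : (l : F) = j x + θ * j y) :
    simT (splitEquiv_form (m := n) hθ ha hb) (mapSim (ext_minus j n a₀ b₀) (delM n a₀ b₀ hc h)) =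
      scS _ s * incI _ (torP (n + 1) F (Fin.cons (l * s⁻¹) fun _ => s)) := by
  have hll : (l : F) * (j x + θ' * j y) = (s : F) * s := by
    rw [hs, ← h, hl]
    simp only [map_add, map_mul, map_pow, ← ha, ← hb]
    ring
  have hs0 := s.ne_zero
  have hl0 := l.ne_zero
  apply sim_ext
  intro v
  obtain ⟨v, rfl⟩ := (splitEquiv n hθ).surjective v
  rw [simT_mulVec]
  have h1 : ((mapSim (ext_minus j n a₀ b₀) (delM n a₀ b₀ hc h) : GL ((Fin n ⊕ Fin n) ⊕ Fin 2) F) :
      Matrix ((Fin n ⊕ Fin n) ⊕ Fin 2) ((Fin n ⊕ Fin n) ⊕ Fin 2) F) =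
      delMat n (j a₀) (j b₀) (j c) (j x) (j y) := by
    rw [← map_delMat]
    rfl
  rw [h1]
  have h2 : ((scS (plusQ (n + 1) F) s * incI _ (torP (n + 1) F (Fin.cons (l * s⁻¹) fun _ => s)) :
      Sim (plusQ (n + 1) F)) : GL (Fin (n + 1) ⊕ Fin (n + 1)) F).1 *ᵥ (splitEquiv n hθ v) =
      (s : F) • (((torP (n + 1) F (Fin.cons (l * s⁻¹) fun _ => s) : isometryGroup F ⇑(plusQ (n + 1) F)) :
        GL (Fin (n + 1) ⊕ Fin (n + 1)) F).1 *ᵥ (splitEquiv n hθ v)) := by
    rw [Subgroup.coe_mul, H205.Gen.coe_mulVec_mul, H205.Gen.scS_mulVec]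
    rfl
  rw [h2, T_apply, T_apply]
  funext i
  rw [Pi.smul_apply, smul_eq_mul]
  rcases i with i | i
  · rw [torP_mulVec_inl]
    refine Fin.cases ?_ (fun i => ?_) i
    · change (delMat n (j a₀) (j b₀) (j c) (j x) (j y) *ᵥ v) (.inr 0) +
        θ * (delMat n (j a₀) (j b₀) (j c) (j x) (j y) *ᵥ v) (.inr 1) =
        s * (((l * s⁻¹ : Fˣ) : F) * (v (.inr 0) + θ * v (.inr 1)))
      rw [delMat_zero, delMat_one, Units.val_mul, Units.val_inv_eq_inv_val, hl, ← ha, ← hb]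
      field_simp
      ring
    · change (delMat n (j a₀) (j b₀) (j c) (j x) (j y) *ᵥ v) (.inl (.inl i)) =
        s * ((s : F) * v (.inl (.inl i)))
      rw [delMat_inl, ← mul_assoc, hs]
  · rw [torP_mulVec_inr]
    refine Fin.cases ?_ (fun i => ?_) i
    · change (delMat n (j a₀) (j b₀) (j c) (j x) (j y) *ᵥ v) (.inr 0) +
        θ' * (delMat n (j a₀) (j b₀) (j c) (j x) (j y) *ᵥ v) (.inr 1) =
        s * ((((l * s⁻¹ : Fˣ)⁻¹ : Fˣ) : F) * (v (.inr 0) + θ' * v (.inr 1)))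
      have h3 : (s : F) * (((l * s⁻¹ : Fˣ)⁻¹ : Fˣ) : F) = j x + θ' * j y := by
        rw [Units.val_inv_eq_inv_val, Units.val_mul, Units.val_inv_eq_inv_val]
        field_simp
        linear_combination -hll
      rw [← mul_assoc, h3, delMat_zero, delMat_one, ← ha, ← hb]
      ring
    · change (delMat n (j a₀) (j b₀) (j c) (j x) (j y) *ᵥ v) (.inl (.inr i)) =
        s * (((s⁻¹ : Fˣ) : F) * v (.inl (.inr i)))
      rw [delMat_inr, ← mul_assoc, ← Units.val_mul, mul_inv_cancel, Units.val_one, one_mul]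

/-- The element `λ` of non-square norm is a non-square. -/
theorem chi_lam {σ : F ≃+* F} (hj : ∀ a, σ a = a ↔ ∃ b, j b = a) (h2σ : ∀ a, σ (σ a) = a) {c : F₀} (hc : c ≠ 0)
    (hc1 : chi F₀ (Units.mk0 c hc) = -1) {l : Fˣ} (hl : (l : F) * σ l = j c) : chi F l = -1 := by
  rw [chi_eq_neg_one_iff]
  rintro ⟨r, hr⟩
  rw [chi_eq_neg_one_iff, Units.val_mk0] at hc1
  apply hc1
  obtain ⟨t, ht⟩ := (hj (r * σ r)).1 (by rw [map_mul, h2σ, mul_comm])
  refine ⟨t, j.injective ?_⟩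
  rw [map_mul, ht, ← hl, hr, map_mul]
  ring

omit [Finite F] [Finite F₀] in
theorem two_ne_map (j : F₀ →+* F) (h2 : (2 : F) ≠ 0) : (2 : F₀) ≠ 0 := by
  intro h
  apply h2
  rw [← map_ofNat j, h, map_zero]

/-- The quadratic character of a square root of a non-square of `F₀`. -/
theorem chi_root (j : F₀ →+* F) (h2 : (2 : F) ≠ 0) (hcard : Nat.card F = Nat.card F₀ ^ 2) {c : F₀} (hc : c ≠ 0)
    (hc1 : chi F₀ (Units.mk0 c hc) = -1) {s : Fˣ} (hs : (s : F) * s = j c) :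
    chi F s = 1 ↔ Nat.card F₀ % 4 = 3 := by
  have := Fintype.ofFinite F
  have := Fintype.ofFinite F₀
  have h2₀ := two_ne_map j h2
  have hch : ringChar F ≠ 2 := Cfsg.Agent.ClassicalGeometry.Universal.ringChar_ne_two h2
  have hch₀ : ringChar F₀ ≠ 2 := Cfsg.Agent.ClassicalGeometry.Universal.ringChar_ne_two h2₀
  rw [Nat.card_eq_fintype_card, Nat.card_eq_fintype_card] at hcard
  rw [Nat.card_eq_fintype_card, chi_eq_one_iff, FiniteField.isSquare_iff hch s.ne_zero]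
  rw [chi_eq_neg_one_iff, Units.val_mk0, FiniteField.isSquare_iff hch₀ hc] at hc1
  have h3 := (FiniteField.pow_dichotomy hch₀ hc).resolve_left hc1
  have hq : Odd (Fintype.card F₀) := by
    rcases Nat.even_or_odd (Fintype.card F₀) with he | ho
    · exact absurd (FiniteField.even_card_iff_char_two.2 (Nat.even_iff.1 he)) hch₀
    · exact ho
  obtain ⟨k, hk⟩ := hq
  have e1 : Fintype.card F / 2 = 2 * k * (k + 1) := by
    rw [hcard, hk]
    have e2 : (2 * k + 1) ^ 2 = 2 * (2 * k * (k + 1)) + 1 := by ring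
    rw [e2]
    omega
  have e3 : Fintype.card F₀ / 2 = k := by rw [hk]; omega
  rw [e3] at h3
  have h4 : (s : F) ^ (2 * k) = -1 := by
    rw [pow_mul, pow_two, hs, ← map_pow, h3, map_neg, map_one]
  rw [e1, pow_mul, h4]
  rcases Nat.even_or_odd k with hk2 | hk2
  · rw [hk2.add_one.neg_one_pow]
    obtain ⟨i, hi⟩ := hk2
    constructor
    · intro h5
      exfalso
      apply h2
      linear_combination -h5
    · intro h5
      omega
  · rw [hk2.add_one.neg_one_pow]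
    obtain ⟨i, hi⟩ := hk2
    constructor
    · intro _
      omega
    · intro _
      rfl

/-- `-1` is a square in `F`. -/
theorem chi_neg_one (j : F₀ →+* F) (hcard : Nat.card F = Nat.card F₀ ^ 2) : chi F (-1) = 1 := by
  rw [chi_eq_one_iff, Units.val_neg, Units.val_one]
  have h := H185.SplitTwo.isSquare_map j hcard (-1)
  rwa [map_neg, map_one] at h

variable {σ : F ≃+* F}

/-- When is the image of `delM` inner? -/
theorem inn_delM (h2 : (2 : F) ≠ 0) (hn : 2 ≤ n) (hθ : θ ≠ θ') (ha : θ + θ' = j a₀)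
    (hb : θ * θ' = j b₀) (hG : Good (minusQ n F (j a₀) (j b₀))) (hcard : Nat.card F = Nat.card F₀ ^ 2)
    {c x y : F₀} (hc : c ≠ 0) (h : x ^ 2 + a₀ * x * y + b₀ * y ^ 2 = c) (s l : Fˣ) (hs : (s : F) * s = j c)
    (hl : (l : F) = j x + θ * j y) :
    S hG (mapSim (ext_minus j n a₀ b₀) (delM n a₀ b₀ hc h)) ∈ Inn (POmega F ⇑(minusQ n F (j a₀) (j b₀))) ↔
      chi F l * chi F s ^ (n + 1) = 1 := by
  have hG' : Good (plusQ (n + 1) F) := good_plusQ (by omega)
  have hcp : Fintype.card (Fin (n + 1) ⊕ Fin (n + 1)) = 2 * (n + 1) := by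
    rw [Fintype.card_sum, Fintype.card_fin]; ring
  rw [inn_iff (splitEquiv_form (m := n) hθ ha hb) hG' hG, simT_delM hθ ha hb hc h s l hs hl, map_mul,
    H205.Gen.S_scS, one_mul, mem_inn_iff hG' h2 hcp, sg_ngI_plus _ h2, chi_neg_one j hcard, one_pow, or_self,
    sg_torP _ h2, Fin.prod_univ_succ]
  simp only [Fin.cons_zero, Fin.cons_succ, Finset.prod_const, Finset.card_univ, Fintype.card_fin]
  have h5 : chi F (l * s⁻¹) * chi F s ^ n = chi F l * chi F s ^ (n + 1) := by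
    rw [map_mul, map_inv]
    rcases Int.units_eq_one_or (chi F s) with h6 | h6 <;> rw [h6]
    · simp
    · rw [Int.units_inv_eq_self, pow_succ, mul_assoc, mul_comm (-1 : ℤˣ)]
  rw [h5]
  constructor
  · exact fun h => h.2
  · exact fun h => ⟨det_torP _ _, h⟩

/-- **Four classes.** -/
theorem count_odd_four (h2 : (2 : F) ≠ 0) (hn : 2 ≤ n) (hab : Aniso a₀ b₀) (hθ : θ ≠ σ θ)
    (ha : θ + σ θ = j a₀) (hb : θ * σ θ = j b₀) (hj : ∀ a, σ a = a ↔ ∃ b, j b = a) (h2σ : ∀ a, σ (σ a) = a)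
    (hcard : Nat.card F = Nat.card F₀ ^ 2)
    (hG : Good (minusQ n F (j a₀) (j b₀))) (hσ : Fix σ (minusQ n F (j a₀) (j b₀)))
    (hodd : Odd (n + 1)) (hq : Nat.card F₀ % 4 = 1) :
    splitClassCount ((simPM n hθ ha hb).map (S hG)) (Inn (POmega F ⇑(minusQ n F (j a₀) (j b₀))))
      (Phi hG (frobG hσ)) = 4 := by
  have hG₀ := good_minusQ hn hab
  have h2₀ := two_ne_map j h2
  obtain ⟨c, x, y, hc, h, hc1⟩ := exists_del hab h2₀
  obtain ⟨s, hs⟩ := H185.SplitTwo.isSquare_map j hcard c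
  have hs0 : s ≠ 0 := by
    rintro rfl
    rw [mul_zero] at hs
    exact hc ((map_eq_zero j).1 hs)
  have hll : (j x + θ * j y) * σ (j x + θ * j y) = j c := by
    have h5 : ∀ t, σ (j t) = j t := fun t => (hj _).2 ⟨t, rfl⟩
    rw [← h, map_add, map_mul, h5, h5]
    simp only [map_add, map_mul, map_pow, ← ha, ← hb]
    ring
  have hl0 : j x + θ * j y ≠ 0 := by
    intro h5
    rw [h5, zero_mul] at hll
    exact hc ((map_eq_zero j).1 hll.symm)
  have hin := (inn_delM h2 hn hθ ha hb hG hcard hc h (Units.mk0 s hs0) (Units.mk0 _ hl0) hs.symm rfl).2 (by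
    rw [chi_lam hj h2σ hc hc1 (l := Units.mk0 _ hl0) hll]
    have h5 : chi F (Units.mk0 s hs0) = -1 := by
      rcases Int.units_eq_one_or (chi F (Units.mk0 s hs0)) with h6 | h6
      · have h7 := (chi_root j h2 hcard hc hc1 (s := Units.mk0 s hs0) hs.symm).1 h6
        omega
      · exact h6
    rw [h5, hodd.neg_one_pow]
    rfl)
  rw [simPM_eq_pd h2 hn hθ ha hb hG]
  exact H185.SplitTwo.count_four (ext_minus j n a₀ b₀) hG₀ hG h2₀ h2 (card_minus n) hcard hσ hj
    (etaS_delM hG₀ h2₀ hc h) (chi_mu_delM hG₀ hc h hc1) hin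

/-- **Two classes.** -/
theorem count_odd_two (h2 : (2 : F) ≠ 0) (hn : 2 ≤ n) (hab : Aniso a₀ b₀) (hθ : θ ≠ σ θ)
    (ha : θ + σ θ = j a₀) (hb : θ * σ θ = j b₀) (hj : ∀ a, σ a = a ↔ ∃ b, j b = a) (h2σ : ∀ a, σ (σ a) = a)
    (hcard : Nat.card F = Nat.card F₀ ^ 2)
    (hG : Good (minusQ n F (j a₀) (j b₀))) (hσ : Fix σ (minusQ n F (j a₀) (j b₀)))
    (hodd : ¬ (Odd (n + 1) ∧ Nat.card F₀ % 4 = 1)) :
    splitClassCount ((simPM n hθ ha hb).map (S hG)) (Inn (POmega F ⇑(minusQ n F (j a₀) (j b₀))))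
      (Phi hG (frobG hσ)) = 2 := by
  have hG₀ := good_minusQ hn hab
  have h2₀ := two_ne_map j h2
  obtain ⟨c, x, y, hc, h, hc1⟩ := exists_del hab h2₀
  obtain ⟨s, hs⟩ := H185.SplitTwo.isSquare_map j hcard c
  have hs0 : s ≠ 0 := by
    rintro rfl
    rw [mul_zero] at hs
    exact hc ((map_eq_zero j).1 hs)
  have hll : (j x + θ * j y) * σ (j x + θ * j y) = j c := by
    have h5 : ∀ t, σ (j t) = j t := fun t => (hj _).2 ⟨t, rfl⟩
    rw [← h, map_add, map_mul, h5, h5]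
    simp only [map_add, map_mul, map_pow, ← ha, ← hb]
    ring
  have hl0 : j x + θ * j y ≠ 0 := by
    intro h5
    rw [h5, zero_mul] at hll
    exact hc ((map_eq_zero j).1 hll.symm)
  have hin : S hG (mapSim (ext_minus j n a₀ b₀) (delM n a₀ b₀ hc h)) ∉
      Inn (POmega F ⇑(minusQ n F (j a₀) (j b₀))) := by
    rw [inn_delM h2 hn hθ ha hb hG hcard hc h (Units.mk0 s hs0) (Units.mk0 _ hl0) hs.symm rfl,
      chi_lam hj h2σ hc hc1 (l := Units.mk0 _ hl0) hll]
    have hr := chi_root j h2 hcard hc hc1 (s := Units.mk0 s hs0) hs.symm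
    have hodd4 : Nat.card F₀ % 4 = 3 ∨ Nat.card F₀ % 4 = 1 := by
      have := Fintype.ofFinite F₀
      have hch₀ : ringChar F₀ ≠ 2 := Cfsg.Agent.ClassicalGeometry.Universal.ringChar_ne_two h2₀
      have h6 : Nat.card F₀ % 2 = 1 := by
        rw [Nat.card_eq_fintype_card]
        exact FiniteField.odd_card_of_char_ne_two hch₀
      omega
    rcases hodd4 with h6 | h6
    · rw [hr.2 h6, one_pow]
      decide
    · have h7 : chi F (Units.mk0 s hs0) = -1 := by
        rcases Int.units_eq_one_or (chi F (Units.mk0 s hs0)) with h7 | h7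
        · have h8 := hr.1 h7
          omega
        · exact h7
      have h8 : Even (n + 1) := by
        rw [← Nat.not_odd_iff_even]
        exact fun h9 => hodd ⟨h9, h6⟩
      rw [h7, h8.neg_one_pow]
      decide
  rw [simPM_eq_pd h2 hn hθ ha hb hG]
  exact H185.SplitTwo.count_two (ext_minus j n a₀ b₀) hG₀ hG h2₀ h2 (card_minus n) hcard hσ hj
    (etaS_delM hG₀ h2₀ hc h) (chi_mu_delM hG₀ hc h hc1) hin

end Main

end Cfsg.Agent.H204.GFCount
end

-- part: S2717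
section
set_option autoImplicit false
open Cfsg

namespace Cfsg.Agent.S2717

open Cfsg.Agent.LieClassical.OrthCore Cfsg.Agent.LieClassical.OrthTrans
open Cfsg.Agent.H204.GFModel Cfsg.Agent.H204.GFConj Cfsg.Agent.H204.GFCount Cfsg.Agent.H204.CrossT
  Cfsg.Agent.H198.Carriers Cfsg.Agent.H198.OrthFrame Cfsg.Agent.H198.ExtForm Cfsg.Agent.H185.OrthCent
  Cfsg.Agent.H185.MinusField

theorem split_conj {X : Type*} [Group X] {H : Subgroup X} (K : Subgroup X) {x y : X} (h : IsConjUnder H x y) :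
    splitClassCount H K y = splitClassCount H K x := by
  have h1 : (fun z : X => IsConjUnder H y z) = fun z => IsConjUnder H x z := by
    funext z
    apply propext
    exact ⟨fun hz => Cfsg.Agent.H198.SplitCount.isConjUnder_trans h hz, fun hz =>
      Cfsg.Agent.H198.SplitCount.isConjUnder_trans (Cfsg.Agent.H198.SplitCount.isConjUnder_symm h) hz⟩
  refine Nat.card_congr (Quot.congr (Equiv.subtypeEquivRight fun z => iff_of_eq (congrFun h1 z)) fun a b => ?_)
  exact Iff.rfl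

theorem cent_conj {X : Type*} [Group X] {H : Subgroup X} {x y : X} (h : IsConjUnder H x y) :
    Nonempty (↥(H ⊓ Subgroup.centralizer {x}) ≃* ↥(H ⊓ Subgroup.centralizer {y})) := by
  obtain ⟨g, hg, rfl⟩ := h
  have h1 := Cfsg.Agent.H185.IsoTransport.centMap (MulAut.conj g) H x
  have h2 : H.map (MulAut.conj g).toMonoidHom = H := by
    ext z
    constructor
    · rintro ⟨w, hw, rfl⟩
      exact H.mul_mem (H.mul_mem hg hw) (H.inv_mem hg)
    · intro hz
      refine ⟨g⁻¹ * z * g, H.mul_mem (H.mul_mem (H.inv_mem hg) hz) hg, ?_⟩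
      change g * (g⁻¹ * z * g) * g⁻¹ = z
      group
  rw [h2] at h1
  exact h1

theorem main {F : Type*} [Field F] [Finite F] {n : ℕ} (hn : 4 ≤ n)
    {x : MulAut (POmega F (quadFormPlus (n + 1) F))} (hx : IsGraphFieldAutClassPOmegaPlus (n + 1) x)
    (hx2 : orderOf x = 2) (F₀ : Type*) [Field F₀] [Finite F₀] (hcard : Nat.card F = Nat.card F₀ ^ 2) :
    (∃ a₀ b₀ : F₀, Aniso a₀ b₀ ∧ Nonempty (↥(inndiagPOmegaPlus (n + 1) F ⊓ Subgroup.centralizer {x}) ≃*
      ↥(inndiagPOmegaMinus n F₀ a₀ b₀))) ∧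
    ((2 : F) = 0 → splitClassCount (inndiagPOmegaPlus (n + 1) F) (Inn (POmega F (quadFormPlus (n + 1) F))) x = 1) ∧
    ((2 : F) ≠ 0 → Odd (n + 1) ∧ Nat.card F₀ % 4 = 1 →
      splitClassCount (inndiagPOmegaPlus (n + 1) F) (Inn (POmega F (quadFormPlus (n + 1) F))) x = 4) ∧
    ((2 : F) ≠ 0 → ¬ (Odd (n + 1) ∧ Nat.card F₀ % 4 = 1) →
      splitClassCount (inndiagPOmegaPlus (n + 1) F) (Inn (POmega F (quadFormPlus (n + 1) F))) x = 2) := by
  have hG : Good (plusQ (n + 1) F) := good_plusQ (by omega)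
  obtain ⟨σ, -, -, h1, h2, -, -, -⟩ := exists_form (by omega) hG hx hx2
  have hord : orderOf σ = 2 := orderOf_eq_prime (by rw [pow_two, h2]) h1
  have h2σ : ∀ a, σ (σ a) = a := fun a => RingEquiv.congr_fun h2 a
  obtain ⟨j, hj⟩ := Cfsg.Agent.H202.Descent.exists_hom (F := F) (F₀ := F₀) hord two_pos hcard
  obtain ⟨θ, a₀, b₀, hθ, ha, hb, hab⟩ := exists_data hj h2σ h1
  have hG' : Good (minusQ n F (j a₀) (j b₀)) := good_of_isometry (splitEquiv_form (m := n) hθ ha hb) hG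
  have hσ : Fix σ (minusQ n F (j a₀) (j b₀)) := fix_minus ((hj _).2 ⟨a₀, rfl⟩) ((hj _).2 ⟨b₀, rfl⟩) n
  have hY := congr_frob (n := n) h2σ hθ ha hb hσ hG hG'
  have hmap := map_simPM (n := n) hθ ha hb hG hG'
  obtain ⟨hY2, ⟨e⟩, hcount⟩ := Cfsg.Agent.H185.IsoTransport.transport
    (poT (splitEquiv_form (m := n) hθ ha hb)) hmap hY
  have hne : Nonempty ((Fin n ⊕ Fin n) ⊕ Fin 2) := ⟨.inr 0⟩
  rw [orderOf_Phi_frob hG' hσ, hord] at hY2
  -- `x` is conjugate to the model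
  have hc := conj_all (F := F) (by omega) (isGraphField_Ymod hG h1) hY2.symm hx hx2
  obtain ⟨e'⟩ := cent_conj hc
  obtain ⟨e''⟩ := cent_model (by omega) hab hθ ha hb hj hG' hσ
  have hK := split_conj (Inn (POmega F (quadFormPlus (n + 1) F))) hc
  refine ⟨⟨a₀, b₀, hab, ⟨(e'.symm.trans e.symm).trans e''⟩⟩, fun h20 => ?_, fun h20 hq => ?_, fun h20 hq => ?_⟩
  · exact hK.trans (hcount.symm.trans (count_even h20 (by omega) hab hθ ha hb hj hG' hσ))
  · exact hK.trans (hcount.symm.trans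
      (count_odd_four h20 (by omega) hab hθ ha hb hj h2σ hcard hG' hσ hq.1 hq.2))
  · exact hK.trans (hcount.symm.trans
      (count_odd_two h20 (by omega) hab hθ ha hb hj h2σ hcard hG' hσ hq))


/-- Let T = PΩ⁺_{2m}(F) with m ≥ 5 (dimension 2m ≠ 8) and |F| = p^f, G = Inndiag(T), and x an involutory graph-field automorphism of T. Then f is even; any two involutory graph-field automorphisms of T are G-conjugate; C_G(x) is isomorphic to Inndiag(PΩ⁻_{2m}(F₀)) for a field F₀ with p^(f/2) elements (some anisotropic binary part over F₀); and the G-class of x is the union of exactly c T-classes with c = 1 if p = 2, c = 4 if p is odd, m is odd and p^(f/2) ≡ 1 (mod 4), and c = 2 otherwise. -/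
theorem result {F : Type*} [Field F] [Fintype F] {p f : ℕ} [Fact p.Prime] (hF : Fintype.card F = p ^ f) (hf : 1 ≤ f) {m : ℕ} (hm : 5 ≤ m) (x : MulAut (Cfsg.POmega F (Cfsg.quadFormPlus m F))) (hx : Cfsg.IsGraphFieldAutClassPOmegaPlus m x) (hx2 : orderOf x = 2) (F₀ : Type*) [Field F₀] [Fintype F₀] (hF₀ : Fintype.card F₀ = p ^ (f / 2)) :
    Even f ∧ (∀ y : MulAut (Cfsg.POmega F (Cfsg.quadFormPlus m F)), Cfsg.IsGraphFieldAutClassPOmegaPlus m y → orderOf y = 2 → Cfsg.IsConjUnder (Cfsg.inndiagPOmegaPlus m F) x y) ∧ (∃ a₀ b₀ : F₀, (∀ z₁ z₂ : F₀, z₁ ^ 2 + a₀ * z₁ * z₂ + b₀ * z₂ ^ 2 = 0 → z₁ = 0 ∧ z₂ = 0) ∧ Nonempty (↥(Cfsg.inndiagPOmegaPlus m F ⊓ Subgroup.centralizer {x}) ≃* ↥(Cfsg.inndiagPOmegaMinus (m - 1) F₀ a₀ b₀))) ∧ (p = 2 → Cfsg.splitClassCount (Cfsg.inndiagPOmegaPlus m F) (Cfsg.Inn (Cfsg.POmega F (Cfsg.quadFormPlus m F))) x = 1) ∧ ((p ≠ 2 ∧ Odd m ∧ p ^ (f / 2) % 4 = 1) → Cfsg.splitClassCount (Cfsg.inndiagPOmegaPlus m F)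 (Cfsg.Inn (Cfsg.POmega F (Cfsg.quadFormPlus m F))) x = 4) ∧ ((p ≠ 2 ∧ ¬ (Odd m ∧ p ^ (f / 2) % 4 = 1)) → Cfsg.splitClassCount (Cfsg.inndiagPOmegaPlus m F) (Cfsg.Inn (Cfsg.POmega F (Cfsg.quadFormPlus m F))) x = 2) := by
  have h2p : (2 : F) = 0 ↔ p = 2 := by
    have hp : p.Prime := Fact.out
    have hch : CharP F p := by
      obtain ⟨q, hq⟩ := CharP.exists F
      obtain ⟨k, hqp, hk⟩ := FiniteField.card F q
      have h1 : q ∣ p ^ f := by
        rw [← hF, hk]
        exact dvd_pow_self q k.pos.ne'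
      have h3 : q = p := (Nat.prime_dvd_prime_iff_eq hqp hp).1 (hqp.dvd_of_dvd_pow h1)
      rwa [← h3]
    constructor
    · intro h
      have h1 : ((2 : ℕ) : F) = 0 := by exact_mod_cast h
      exact ((Nat.prime_dvd_prime_iff_eq hp Nat.prime_two).1 ((CharP.cast_eq_zero_iff F p 2).1 h1))
    · intro h
      have h1 := (CharP.cast_eq_zero_iff F p 2).2 (by rw [h])
      exact_mod_cast h1
  obtain ⟨n, rfl⟩ : ∃ n, m = n + 1 := ⟨m - 1, by omega⟩
  have hG : Good (plusQ (n + 1) F) := good_plusQ (by omega)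
  obtain ⟨σ, -, -, h1, h2, -, -, -⟩ := exists_form (by omega) hG hx hx2
  have heven : Even f := even_of_invol h1 h2 hf (by rw [Nat.card_eq_fintype_card, hF])
  have hcard : Nat.card F = Nat.card F₀ ^ 2 := by
    rw [Nat.card_eq_fintype_card, Nat.card_eq_fintype_card, hF, hF₀, ← pow_mul,
      Nat.div_mul_cancel heven.two_dvd]
  obtain ⟨hcent, he, ho4, ho2⟩ := main (by omega) hx hx2 F₀ hcard
  rw [Nat.card_eq_fintype_card, hF₀] at ho4 ho2
  refine ⟨heven, fun y hy hy2 => conj_all hm hx hx2 hy hy2, hcent, fun h => he (h2p.2 h),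
    fun h => ho4 (fun h0 => h.1 (h2p.1 h0)) h.2, fun h => ho2 (fun h0 => h.1 (h2p.1 h0)) h.2⟩


end Cfsg.Agent.S2717
end
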