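import Cfsg.Statements.S2718
import Cfsg.Agent.H200.OrthSplit
import Cfsg.Agent.S0790
set_option linter.all false

set_option autoImplicit false
open Cfsg

namespace Cfsg.Agent.S2718

open Cfsg.Agent.H198.OrthFrame Cfsg.Agent.H198.ClassesPlus Cfsg.Agent.H198.Carriers Cfsg.Agent.H200.OrthSplit

theorem two_ne_zero_of_odd {F : Type*} [Field F] [Fintype F] (hodd : Odd (Fintype.card F)) : (2 : F) ≠ 0 := by
  have hchar : ringChar F ≠ 2 := by
    intro h
    have h1 := FiniteField.even_card_of_char_two h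
    have h2 := Nat.odd_iff.1 hodd
    omega
  exact Ring.two_ne_zero hchar

theorem negOmega_of_exists {ι : Type} [Fintype ι] [DecidableEq ι] {F : Type*} [Field F]
    {Q : QuadraticForm F (ι → F)} (h : ∃ g : isometryGroup F ⇑Q, g ∈ Omega F ⇑Q ∧
      ((g : Matrix.GeneralLinearGroup ι F) : Matrix ι ι F) = -1) : NegOmega Q := by
  obtain ⟨g, hg, hg1⟩ := h
  have h1 : (Matrix.GeneralLinearGroup.scalar ι (-1 : Fˣ)) = (g : Matrix.GeneralLinearGroup ι F) := by
    apply Units.ext
    rw [hg1]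
    change Matrix.scalar ι ((-1 : Fˣ) : F) = -1
    rw [Matrix.scalar_apply, ← Matrix.smul_one_eq_diagonal]
    simp
  rw [NegOmega, h1]
  exact ⟨g, hg, rfl⟩

/-- Let T = PΩ⁺_{2m}(F) with m ≥ 4 and |F| = q odd, G = Inndiag(T), and γ an involutory graph automorphism of T induced by a similarity (one interchanging the two classes of maximal totally singular subspaces). Then the G-class of γ is either a single T-class or the union of exactly two T-classes, and it is the union of two unless m is odd and q ≡ 3 (mod 4). -/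
theorem result {F : Type*} [Field F] [Fintype F] (hodd : Odd (Fintype.card F)) {m : ℕ} (hm : 4 ≤ m) (γ : MulAut (Cfsg.POmega F (Cfsg.quadFormPlus m F))) (hγ : Cfsg.IsSimilarityGraphAutPOmegaPlus m γ) (hγ2 : orderOf γ = 2) :
    (Cfsg.splitClassCount (Cfsg.inndiagPOmegaPlus m F) (Cfsg.Inn (Cfsg.POmega F (Cfsg.quadFormPlus m F))) γ = 1 ∨ Cfsg.splitClassCount (Cfsg.inndiagPOmegaPlus m F) (Cfsg.Inn (Cfsg.POmega F (Cfsg.quadFormPlus m F))) γ = 2) ∧ (¬ (Odd m ∧ Fintype.card F % 4 = 3) → Cfsg.splitClassCount (Cfsg.inndiagPOmegaPlus m F) (Cfsg.Inn (Cfsg.POmega F (Cfsg.quadFormPlus m F))) γ = 2) := by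
  have h2 := two_ne_zero_of_odd hodd
  have hG : LieClassical.OrthTrans.Good (plusQ m F) := good_plusQ (by omega)
  have hk : Fintype.card (Fin m ⊕ Fin m) = 2 * m := by simp [two_mul]
  obtain ⟨g, hg, hgp, hgi⟩ := hγ
  let g' : Sim (plusQ m F) := ⟨g, hg⟩
  have hS : γ = S hG g' := (induced_iff_S hG g' γ).1 hgi
  have hgp' : eta hG m g' ≠ 1 := by
    intro h
    exact hgp ((preserves_plus_iff_det hG h2 g').2 ((eta_eq_one_iff hG m g').1 h))
  have hker : simPlus m F = (eta hG m).ker := by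
    ext x
    rw [mem_simPlus, MonoidHom.mem_ker, kappa_plusQ_iff hG h2, eta_eq_one_iff]
  obtain ⟨t, ht⟩ := FiniteField.exists_nonsquare (ClassicalGeometry.Universal.ringChar_ne_two h2)
  have ht0 : t ≠ 0 := by rintro rfl; exact ht IsSquare.zero
  obtain ⟨h0, h01, h02, -⟩ := exists_std_plusQ hG (Units.mk0 t ht0)
  have h0e : eta hG m h0 = 1 := by rw [eta_eq_one_iff, h01, h02]
  have h0n : ¬ IsSquare ((mu hG h0 : Fˣ) : F) := by rw [h01]; exact ht
  have key := main hG h2 hk (by omega) h0e h0n hgp' (by rw [← hS]; exact hγ2)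
  rw [← hS, ← hker, ← inndiag_plus_eq hG] at key
  refine ⟨key.1, fun hcase => key.2 ?_⟩
  by_cases hm2 : Even m
  · exact Or.inr hm2
  · left
    rw [Nat.not_even_iff_odd] at hm2
    apply negOmega_of_exists
    refine (S0790.result rfl hodd m (by omega)).2 ?_
    have h5 := Nat.odd_iff.1 hodd
    have h6 : Fintype.card F % 4 = 1 := by
      have h7 : ¬ Fintype.card F % 4 = 3 := fun h8 => hcase ⟨hm2, h8⟩
      omega
    rw [Nat.pow_mod, h6, one_pow]
    rfl

end Cfsg.Agent.S2718
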