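import Mathlib
import Cfsg.Agent.H208.ConjSS
import Cfsg.Statements.S2719
import Cfsg.Agent.S2718
import Cfsg.Agent.H205.TorusMinus
import Cfsg.Agent.H198.ClassesMinus
import Cfsg.Agent.S0791
set_option linter.all false

-- part: H200/MinusOrd
section
/-!
# Minus type: involutions in the image of the semisimilarity group are linear (helper200)

`no_order_two` : `Q` good of dimension `2m` without totally singular subspace of dimension `m`, `q` odd; a semisimilarity
`M` with non-trivial field automorphism does not induce an involution.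
`linear_of_sq` : `Psi Q M ^ 2 = 1` implies that `M` is a similarity.
-/

set_option autoImplicit false

namespace Cfsg.Agent.H200.MinusOrd

open Module QuadraticMap Cfsg.Agent.LieClassical.OrthCore Cfsg.Agent.LieClassical.OrthTrans
  Cfsg.Agent.ClassicalGeometry.OrthSemi Cfsg.Agent.H208.Parity Cfsg.Agent.H208.ConjSS Cfsg.Agent.H208.Frame
  Cfsg.Agent.H208.FramePar Cfsg.Agent.CpAut.Descent Cfsg.Agent.H966.Frob Cfsg.Agent.AutOrth.SemiSim

variable {F : Type*} [Field F]

/-- An element of the fixed field of a non-trivial automorphism of order two is a square. -/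
theorem isSquare_of_fixed [Finite F] (h2 : (2 : F) ≠ 0) {σ : F ≃+* F} (hσ : σ ≠ 1) (hσ2 : σ * σ = 1)
    {d : F} (hd : σ d = d) : IsSquare d := by
  by_cases hd0 : d = 0
  · exact ⟨0, by rw [hd0, mul_zero]⟩
  obtain ⟨x, hx⟩ : ∃ x, σ x ≠ x := by
    by_contra hcon
    push Not at hcon
    exact hσ (RingEquiv.ext hcon)
  have hσσ : σ (σ x) = x := DFunLike.congr_fun hσ2 x
  let n : F := x - σ x
  have hn0 : n ≠ 0 := sub_ne_zero.2 hx.symm
  have hn : σ n = -n := by
    change σ (x - σ x) = -(x - σ x)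
    rw [map_sub, hσσ]; ring
  let K := fix σ
  have : Finite K := Subtype.finite
  have hmem : ∀ {y : F}, y ∈ K ↔ σ y = y := Iff.rfl
  have h2K : (2 : K) ≠ 0 := by
    intro h
    apply h2
    have h3 : ((2 : K) : F) = ((0 : K) : F) := congrArg (Subtype.val : K → F) h
    push_cast at h3
    exact h3
  let dK : K := ⟨d, hd⟩
  let nK : K := ⟨n * n, by
    change σ (n * n) = n * n
    rw [map_mul, hn]; ring⟩
  have hnK : ¬ IsSquare nK := by
    rintro ⟨r, hr⟩
    have h1 : n * n = (r : F) * r := congrArg (Subtype.val : K → F) hr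
    have h3 : σ (r : F) = r := r.2
    rcases mul_self_eq_mul_self_iff.1 h1 with h4 | h4
    · rw [h4, h3] at hn
      rw [h4] at hn0
      have h5 : (2 : F) * r = 0 := by linear_combination hn
      exact hn0 ((mul_eq_zero.1 h5).resolve_left h2)
    · rw [h4, map_neg, h3, neg_neg] at hn
      rw [h4] at hn0
      have h5 : (2 : F) * r = 0 := by linear_combination -hn
      exact hn0 (by rw [(mul_eq_zero.1 h5).resolve_left h2, neg_zero])
  have hdK0 : dK ≠ 0 := fun h => hd0 (congrArg (Subtype.val : K → F) h)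
  have hnK0 : nK ≠ 0 := fun h => mul_ne_zero hn0 hn0 (congrArg (Subtype.val : K → F) h)
  by_cases hs : IsSquare dK
  · obtain ⟨r, hr⟩ := hs
    exact ⟨r, congrArg (Subtype.val : K → F) hr⟩
  · have h3 : IsSquare (dK * nK) :=
      (ClassicalGeometry.Universal.isSquare_mul_iff h2K hdK0 hnK0).2
        ⟨fun h => absurd h hs, fun h => absurd h hnK⟩
    obtain ⟨r, hr⟩ := h3
    have hr' : d * (n * n) = (r : F) * r := congrArg (Subtype.val : K → F) hr
    refine ⟨r / n, ?_⟩
    field_simp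
    linear_combination hr'

theorem exists_root [Finite F] (h2 : (2 : F) ≠ 0) {σ : F ≃+* F} (hσ : σ ≠ 1) (hσ2 : σ * σ = 1)
    {a b : F} (ha : σ a = a) (hb : σ b = b) : ∃ s : F, s ^ 2 + a * s + b = 0 := by
  obtain ⟨r, hr⟩ := isSquare_of_fixed h2 hσ hσ2 (d := a ^ 2 - 4 * b) (by
    rw [map_sub, map_mul, map_pow, ha, hb, map_ofNat])
  refine ⟨(-a + r) / 2, ?_⟩
  field_simp
  linear_combination -hr

variable {V : Type*} [AddCommGroup V] [Module F V] [FiniteDimensional F V] {Q : QuadraticForm F V}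

theorem no_order_two [Finite F] (hG : Good Q) (h2 : (2 : F) ≠ 0) {m : ℕ} (hV : finrank F V = 2 * m)
    (hT : ¬ ∃ U, TSm Q m U) {M : Gam Q} {σ : F ≃+* F} {c : F} (hM : IsSS Q σ c M.1) (hσ : σ ≠ 1)
    (h : Psi Q M ^ 2 = 1) : False := by
  have := nontrivial_of_good hG
  obtain ⟨ho, t, ht⟩ := exists_normal hG hM hσ Nat.prime_two h
  obtain ⟨d, hd⟩ := isSS_scal_mul hM t
  have hσ2 : σ * σ = 1 := by rw [← _root_.sq, ← ho, pow_orderOf_eq_one]
  rcases normal_form hG.nondeg hd ho (by norm_num) ht with ⟨k, hk, -⟩ | ⟨k, hk, hf⟩ | ⟨k, hk, a, b, ha, hb, -, hf⟩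
  · omega
  · obtain rfl : m = k := by omega
    exact hT (tsm_of_fr_plus hf)
  · obtain ⟨s, hs⟩ := exists_root h2 hσ hσ2 ha hb
    obtain ⟨g, e, he, hq, hg⟩ := hf
    obtain rfl : m = k + 1 := by omega
    exact hT ⟨_, tsm_map (m := k + 1) hq (finrank_cM k s) fun x hx => minus_cM hs hx⟩

end Cfsg.Agent.H200.MinusOrd
end

-- part: S2719
section
set_option autoImplicit false
open Cfsg

namespace Cfsg.Agent.S2719

open Cfsg.Agent.H198.OrthFrame Cfsg.Agent.H198.ClassesPlus Cfsg.Agent.H198.Carriers Cfsg.Agent.H198.ClassesMinus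
  Cfsg.Agent.H200.OrthSplit Cfsg.Agent.H205.TorusMinus Cfsg.Agent.ClassicalGeometry.OrthSemi
  Cfsg.Agent.ClassicalGeometry.OrthAut1 Cfsg.Agent.AutOrth.Main

/-- Let T = PΩ⁻_{2m+2}(F) with m ≥ 3 and |F| = q odd (form with anisotropic binary part z₁² + a z₁ z₂ + b z₂²), G = Inndiag(T), and γ an involutory graph automorphism of T (an automorphism in the image of the semisimilarity group, not inner-diagonal, of order 2). Then the G-class of γ is either a single T-class or the union of exactly two T-classes, and it is the union of two unless m is even and q ≡ 1 (mod 4). -/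
theorem result {F : Type*} [Field F] [Fintype F] (hodd : Odd (Fintype.card F)) {m : ℕ} (hm : 3 ≤ m) (a b : F) (hab : (∀ z₁ z₂ : F, z₁ ^ 2 + a * z₁ * z₂ + b * z₂ ^ 2 = 0 → z₁ = 0 ∧ z₂ = 0)) (γ : MulAut (Cfsg.POmega F (Cfsg.quadFormMinus m F a b))) (hγ : Cfsg.IsGraphAutClassPOmegaMinus m a b γ) (hγ2 : orderOf γ = 2) :
    (Cfsg.splitClassCount (Cfsg.inndiagPOmegaMinus m F a b) (Cfsg.Inn (Cfsg.POmega F (Cfsg.quadFormMinus m F a b))) γ = 1 ∨ Cfsg.splitClassCount (Cfsg.inndiagPOmegaMinus m F a b) (Cfsg.Inn (Cfsg.POmega F (Cfsg.quadFormMinus m F a b))) γ = 2) ∧ (¬ (Even m ∧ Fintype.card F % 4 = 1) → Cfsg.splitClassCount (Cfsg.inndiagPOmegaMinus m F a b) (Cfsg.Inn (Cfsg.POmega F (Cfsg.quadFormMinus m F a b))) γ = 2) := by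
  have h2 := S2718.two_ne_zero_of_odd hodd
  have hG : LieClassical.OrthTrans.Good (minusQ m F a b) := good_minusQ (by omega) hab
  have hk : Fintype.card ((Fin m ⊕ Fin m) ⊕ Fin 2) = 2 * (m + 1) := by
    simp only [Fintype.card_sum, Fintype.card_fin]; ring
  obtain ⟨-, hni, -⟩ := hγ
  obtain ⟨M, hM⟩ := surj_minusQ hm hab γ
  obtain ⟨σ, c, hss⟩ := M.2
  have hT : ¬ ∃ U, H208.Parity.TSm (minusQ m F a b) (m + 1) U := by
    rintro ⟨U, hU1, hU2⟩
    rw [minusQ_eq] at hU2
    have := finrank_le_of_TS_minus m a b hab hU2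
    omega
  have hV : Module.finrank F ((Fin m ⊕ Fin m) ⊕ Fin 2 → F) = 2 * (m + 1) := by
    rw [Module.finrank_fintype_fun_eq_card, hk]
  have hPsi : Psi (minusQ m F a b) M ^ 2 = 1 := by
    apply (MulAut.congr (pe hG).symm).injective
    rw [map_pow, map_one]
    have h3 : γ ^ 2 = 1 := orderOf_dvd_iff_pow_eq_one.1 hγ2.dvd
    rw [← hM] at h3
    exact h3
  have hσ : σ = RingEquiv.refl F := by
    by_contra hσ
    exact H200.MinusOrd.no_order_two hG h2 hV hT hss hσ hPsi
  subst hσ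
  obtain ⟨g', hg'⟩ := exists_sim_of_refl hss
  have hS : γ = S hG g' := by
    change γ = Phi hG (simGam _ g')
    rw [hg', hM]
  have hker : simMinus m hab = (eta hG (m + 1)).ker := by
    ext x
    rw [mem_simMinus, MonoidHom.mem_ker, kapM_iff (by omega) hab hG h2, eta_eq_one_iff]
  have hgp' : eta hG (m + 1) g' ≠ 1 := by
    intro h
    apply hni
    rw [inndiag_minus_eq (by omega) hab hG, hker, hS]
    exact ⟨g', h, rfl⟩
  obtain ⟨t, ht⟩ := FiniteField.exists_nonsquare (ClassicalGeometry.Universal.ringChar_ne_two h2)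
  have ht0 : t ≠ 0 := by rintro rfl; exact ht IsSquare.zero
  obtain ⟨x, y, hxy⟩ := ClassicalGeometry.OrthSemiForms.exists_binary_eq a b hab t
  have h0e : eta hG (m + 1) (delM m a b ht0 hxy) = 1 := by rw [eta_eq_one_iff, mu_delM, dt_delM]
  have h0n : ¬ IsSquare ((mu hG (delM m a b ht0 hxy) : Fˣ) : F) := by rw [mu_delM]; exact ht
  have key := main hG h2 hk (by omega) h0e h0n hgp' (by rw [← hS]; exact hγ2)
  rw [← hS, ← hker, ← inndiag_minus_eq (by omega) hab hG] at key
  refine ⟨key.1, fun hcase => key.2 ?_⟩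
  by_cases hm2 : Even (m + 1)
  · exact Or.inr hm2
  · left
    rw [Nat.not_even_iff_odd] at hm2
    apply S2718.negOmega_of_exists
    refine (S0791.result rfl hodd (m + 1) (by omega) a b hab).2 ?_
    have h5 := Nat.odd_iff.1 hodd
    have hme : Even m := by
      rw [Nat.odd_add_one, Nat.not_odd_iff_even] at hm2
      exact hm2
    have h6 : Fintype.card F % 4 = 3 := by
      have h7 : ¬ Fintype.card F % 4 = 1 := fun h8 => hcase ⟨hme, h8⟩
      omega
    obtain ⟨j, hj⟩ := hme
    rw [Nat.pow_mod, h6, hj, pow_succ, pow_add, ← mul_pow, Nat.mul_mod, Nat.pow_mod]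
    norm_num

end Cfsg.Agent.S2719
end
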