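import Cfsg.Statements.S2726
import Cfsg.Agent.H205.MinusMain
set_option linter.all false

set_option autoImplicit false
open Cfsg

namespace Cfsg.Agent.S2726

/-- Let T = PΩ⁻_{2m+2}(F) with m ≥ 3 and |F| = q odd (form with anisotropic binary part). Inside Aut(T), the image G̃ of the conformal orthogonal group of the form modulo the image of the special orthogonal group is elementary abelian of order 4. -/
theorem result {F : Type*} [Field F] [Fintype F] (hodd : Odd (Fintype.card F)) {m : ℕ} (hm : 3 ≤ m) (a b : F) (hab : (∀ z₁ z₂ : F, z₁ ^ 2 + a * z₁ * z₂ + b * z₂ ^ 2 = 0 → z₁ = 0 ∧ z₂ = 0)) :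
    (∃ φ : ↥(Cfsg.pgoAut F (Cfsg.quadFormMinus m F a b)) →* Multiplicative (ZMod 2 × ZMod 2), Function.Surjective φ ∧ φ.ker = (Cfsg.psoAut F (Cfsg.quadFormMinus m F a b)).subgroupOf (Cfsg.pgoAut F (Cfsg.quadFormMinus m F a b))) := by
  have h2 := H205.PlusMain.two_ne_zero_of_odd hodd
  have hG := H198.Carriers.good_minusQ (F := F) (m := m) (by omega) hab
  obtain ⟨c, x, y, hc, h, hc1⟩ := H205.MinusMain.exists_del (F := F) hab h2
  rw [← H198.Carriers.coe_minusQ]
  have hd := H205.MinusMain.chi_mu_delM hG hc h hc1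
  have hd2 := H205.MinusMain.etaS_delM hG h2 hc h
  exact H205.Gen.conformal_mod_special hG h2 (H205.MinusMain.card_minus m) hd hd2

end Cfsg.Agent.S2726
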