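import Cfsg.Statements.S2738
import Cfsg.Agent.LieClassical.SLGen
set_option linter.all false

set_option autoImplicit false
open Cfsg

namespace Cfsg.Agent.S2738

open scoped commutatorElement in

/-- The special linear group SL(3, 4) has centre of order 3 and does not split over it: no subgroup is a complement to the centre (so SL(3, 4) is a non-split central extension of PSL(3, 4) by a group of order 3). -/
theorem result (F : Type*) [Field F] [Fintype F] (hF : Fintype.card F = 4) : Nat.card ↥(Subgroup.center (Matrix.SpecialLinearGroup (Fin 3) F)) = 3 ∧ ¬ ∃ K : Subgroup (Matrix.SpecialLinearGroup (Fin 3) F), Subgroup.IsComplement' (Subgroup.center (Matrix.SpecialLinearGroup (Fin 3) F)) K := by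
  classical
  have hcard : Nat.card ↥(Subgroup.center (Matrix.SpecialLinearGroup (Fin 3) F)) = 3 := by
    rw [Nat.card_congr (Matrix.SpecialLinearGroup.center_equiv_rootsOfUnity' (0 : Fin 3)).toEquiv,
      Fintype.card_fin]
    have h : rootsOfUnity 3 F = ⊤ := by
      rw [eq_top_iff]
      intro u _
      rw [mem_rootsOfUnity]
      apply Units.ext
      have := FiniteField.pow_card_sub_one_eq_one (u : F) u.ne_zero
      rw [hF] at this
      simpa using this
    rw [h, Nat.card_congr Subgroup.topEquiv.toEquiv, Nat.card_units, Nat.card_eq_fintype_card, hF]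
  refine ⟨hcard, ?_⟩
  rintro ⟨K, hK⟩
  have hcomm : commutator (Matrix.SpecialLinearGroup (Fin 3) F) = ⊤ :=
    LieClassical.SLGen.commutator_eq_top (by simp)
  have hsup := hK.sup_eq_top
  have hN : K.Normal := by
    rw [← Subgroup.normalizer_eq_top_iff, eq_top_iff, ← hsup]
    exact sup_le (Subgroup.center_le_normalizer _) Subgroup.le_normalizer
  have hidx : K.index = 3 := hK.index_eq_card.trans hcard
  have hprime : Nat.card (Matrix.SpecialLinearGroup (Fin 3) F ⧸ K) = 3 := hidx
  have : Fact (Nat.Prime 3) := ⟨Nat.prime_three⟩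
  have : IsCyclic (Matrix.SpecialLinearGroup (Fin 3) F ⧸ K) := isCyclic_of_prime_card hprime
  have hle : commutator (Matrix.SpecialLinearGroup (Fin 3) F) ≤ K := by
    rw [commutator_def, Subgroup.commutator_le]
    intro a _ b _
    rw [← QuotientGroup.eq_one_iff]
    have h : IsMulCommutative (Matrix.SpecialLinearGroup (Fin 3) F ⧸ K) := IsCyclic.isMulCommutative
    have h' := h.is_comm.comm (a : Matrix.SpecialLinearGroup (Fin 3) F ⧸ K) b
    have e : ((⁅a, b⁆ : Matrix.SpecialLinearGroup (Fin 3) F) : Matrix.SpecialLinearGroup (Fin 3) F ⧸ K)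
        = ⁅(a : Matrix.SpecialLinearGroup (Fin 3) F ⧸ K), (b : Matrix.SpecialLinearGroup (Fin 3) F ⧸ K)⁆ := rfl
    rw [e, commutatorElement_eq_one_iff_mul_comm]
    exact h'
  rw [hcomm, top_le_iff] at hle
  rw [hle, Subgroup.index_top] at hidx
  omega

end Cfsg.Agent.S2738
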