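import Cfsg.Agent.H209.TriCBFive
import Cfsg.Statements.S2751
import Cfsg.Agent.Lib.Cores
set_option linter.all false

-- part: H209/TriCBFiveB
section
/-!
# Case B, critical distance five: contradiction
-/

set_option autoImplicit false

namespace Cfsg.Agent.H209

open MulAction

namespace Tri

variable {G V : Type*} [Group G] [MulAction G V] {Γ : Tri G V}
variable {u v w a b c d l m s : V} {g h t x y z : G} {τ : Bool} {n : ℤ} {r : V → G}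

namespace CR

theorem eq_five (H : CR Γ τ 5 r) {p : ℤ → V} (hc : BCr Γ τ 5 p 1 5) : False := by
  obtain ⟨hij, h2, h3, h4⟩ := id hc
  -- extend
  have extl : ∀ (p : ℤ → V) (i j : ℤ), i < j → Γ.Arc p i j → ∃ q, Γ.Arc q (i - 1) j ∧ ∀ k ≥ i, q k = p k := by
    intro p i j hi hp
    obtain ⟨x, hx, hxn⟩ := exists_ne (hp.adj (k := i) le_rfl (by omega))
    obtain ⟨q, hq, -, hqk⟩ := hp.exists_cons hx (fun _ => hxn)
    exact ⟨q, hq, hqk⟩
  have extr : ∀ (p : ℤ → V) (i j : ℤ), i < j → Γ.Arc p i j → ∃ q, Γ.Arc q i (j + 1) ∧ ∀ k ≤ j, q k = p k := by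
    intro p i j hi hp
    obtain ⟨x, hx, hxn⟩ := exists_ne (hp.adj' (k := j) (by omega) le_rfl)
    obtain ⟨q, hq, -, hqk⟩ := hp.exists_snoc hx (fun _ => hxn)
    exact ⟨q, hq, hqk⟩
  obtain ⟨q1, hq1, k1⟩ := extl p 1 5 (by omega) h2
  obtain ⟨q2, hq2, k2⟩ := extl q1 (1 - 1) 5 (by omega) hq1
  obtain ⟨q3, hq3, k3⟩ := extr q2 (1 - 1 - 1) 5 (by omega) hq2
  obtain ⟨q4, hq4, k4⟩ := extr q3 (1 - 1 - 1) (5 + 1) (by omega) hq3
  obtain ⟨q, hq, k5⟩ := extr q4 (1 - 1 - 1) (5 + 1 + 1) (by omega) hq4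
  norm_num at hq
  have qk : ∀ k, 1 ≤ k → k ≤ 5 → q k = p k := fun k h1 h2 => by
    rw [k5 k (by omega), k4 k (by omega), k3 k (by omega), k2 k (by omega), k1 k (by omega)]
  have c1 : BCr Γ τ 5 q 1 5 := hc.congr qk (by omega)
  have c3 : BCr Γ τ 5 q 3 7 := by
    have := H.shift_right (by omega) c1 (hq.sub (by omega) (by omega))
    norm_num at this
    exact this
  have cm : BCr Γ τ 5 q (-1) 3 := by
    have := H.shift_left (by omega) c1 (hq.sub (by omega) (by omega))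
    norm_num at this
    exact this
  have A01 : Γ.A (q 0) (q 1) := hq.adj (k := 0) (by omega) (by omega)
  have A21 : Γ.A (q 2) (q 1) := hq.adj' (k := 2) (by omega) (by omega)
  have A32 : Γ.A (q 3) (q 2) := hq.adj' (k := 3) (by omega) (by omega)
  have A34 : Γ.A (q 3) (q 4) := hq.adj (k := 3) (by omega) (by omega)
  have A54 : Γ.A (q 5) (q 4) := hq.adj' (k := 5) (by omega) (by omega)
  have A56 : Γ.A (q 5) (q 6) := hq.adj (k := 5) (by omega) (by omega)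
  have A67 : Γ.A (q 6) (q 7) := hq.adj (k := 6) (by omega) (by omega)
  have A78 : Γ.A (q 7) (q 8) := hq.adj (k := 7) (by omega) (by omega)
  have n24 : q 2 ≠ q 4 := hq.ne (by omega) (by omega) (by ring)
  have n57 : q 5 ≠ q 7 := hq.ne (by omega) (by omega) (by ring)
  have n35 : q 3 ≠ q 5 := hq.ne (by omega) (by omega) (by ring)
  have n68 : q 6 ≠ q 8 := hq.ne (by omega) (by omega) (by ring)
  have t1 : Γ.ty (q 1) = τ := c1.2.2.1
  have t3 : Γ.ty (q 3) = τ := c3.2.2.1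
  have t5 : Γ.ty (q 5) = τ := c1.ty_end H
  have t7 : Γ.ty (q 7) = τ := c3.ty_end H
  have t0 : Γ.ty (q 0) = !τ := CB.ty_nbr' t1 (Γ.symm A01)
  have t6 : Γ.ty (q 6) = !τ := CB.ty_nbr' t5 A56
  obtain ⟨f, hf, hfn⟩ := exists_ne A01
  have tf : Γ.ty f = τ := CB.ty_nbr t0 hf
  obtain ⟨v, hv, hvQ⟩ := Set.not_subset.1 (c3.symm_le H)
  have hvv : v * v = 1 := H.co.VB_sq t7 hv
  have v3 : v • q 3 = q 3 := H.co.VB_fix_rev (hq.sub (i' := -1) (j' := 7) (by omega) (by omega)) t7 (by omega)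
    (by omega) (by omega) hv
  have v4 : v • q 4 = q 4 := H.co.VB_fix_rev (hq.sub (i' := -1) (j' := 7) (by omega) (by omega)) t7 (by omega)
    (by omega) (by omega) hv
  have v5 : v • q 5 = q 5 := H.co.VB_fix_rev (hq.sub (i' := -1) (j' := 7) (by omega) (by omega)) t7 (by omega)
    (by omega) (by omega) hv
  have vne : v • q 2 ≠ q 2 := fun h => hvQ (mem_Q_of_two v3 A32 A34 n24 h v4)
  -- `v` commutes with `VB (q 5)`
  have hvc : ∀ y ∈ Γ.VB (q 5), v * y = y * v := by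
    intro y hy
    apply comm_VB_of _ hy
    intro m hm
    by_cases hm6 : m = q 6
    · rw [hm6]
      exact H.co.VB_le_rev (i := 6) (j := 7) (by omega) (hq.sub (by omega) (by omega)) t7 (by omega) hv
    · obtain ⟨q', hq', hq'm, hq'k⟩ := (hq.sub (i' := 5) (j' := 7) (by omega) (by omega)).exists_cons hm (fun _ => hm6)
      have := H.co.VB_le_rev (p := q') (i := 5 - 1) (j := 7) (by omega) hq' (by rw [hq'k _ (by omega)]; exact t7)
        (by omega) (x := v) (by rw [hq'k _ (by omega)]; exact hv)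
      rwa [hq'm] at this
  -- the folded arc
  have hP := (hq.sub (i' := -1) (j' := 3) le_rfl (by omega)).shift 3
  norm_num at hP
  have hF := hP.fold (v := v) (by norm_num; exact v3) (by norm_num; exact vne)
  have hs := hF.shift (-3)
  norm_num at hs
  set s : ℤ → V := fun k => if k ≤ 3 then q k else v • q (3 + -k + 3) with hsdef
  have sk : ∀ k ≤ 3, s k = q k := by
    intro k hk
    simp only [hsdef]
    rw [if_pos (by omega)]
  have s5 : s 5 = v • q 1 := by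
    simp only [hsdef]
    rw [if_neg (by omega)]; norm_num
  have s6 : s 6 = v • q 0 := by
    simp only [hsdef]
    rw [if_neg (by omega)]; norm_num
  have hs' : Γ.Arc s (-1) 7 := hs
  have d1 : BCr Γ τ 5 s 1 5 := by
    have h5 : BCr Γ τ 5 s (-1) 3 := cm.congr (fun k _ h => sk k h) (by omega)
    have := H.shift_right (by omega) h5 (hs'.sub (by omega) (by omega))
    norm_num at this
    exact this
  have s1 : s 1 = q 1 := sk 1 (by omega)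
  have s0 : s 0 = q 0 := sk 0 (by omega)
  have s3 : s 3 = q 3 := sk 3 (by omega)
  have hvfn : v • f ≠ v • q 1 := fun h => hfn (MulAction.injective v h)
  have hvfA : Γ.A (v • q 0) (v • f) := Γ.smul v hf
  have tvf : Γ.ty (v • f) = τ := by rw [Γ.ty_smul, tf]
  have nv : r (v • f) ∉ Γ.Q (q 1) := by
    have hrev := d1.rev H 6
    norm_num at hrev
    have hsrev := (hs'.sub (i' := 1) (j' := 6) (by omega) (by omega)).rev 6
    norm_num at hsrev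
    have := H.r_not_mem (by omega) hrev (by norm_num; exact hsrev) (f := v • f) (by norm_num; rw [s6]; exact hvfA)
      (by norm_num; rw [s5]; exact hvfn)
    norm_num at this
    rwa [s1] at this
  have mvf : r (v • f) ∈ Γ.VB (s 5) := by
    rw [s5]
    exact H.r_mem_VB (Γ.smul v (Γ.symm A01)) hvfA (by rw [Γ.ty_smul]; exact t1)
  have R1 := H.rel (by omega) d1 (hs'.sub (by omega) (by omega)) (f := f) (by norm_num; rw [s0]; exact hf)
    (by rw [s1]; exact hfn) mvf (by rw [s1]; exact nv)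
  norm_num at R1
  rw [s3] at R1
  -- facts on `x1 = r f`
  have hfz : r f ∈ Γ.ZZ (q 0) := H.r_mem_ZZ hf tf
  have hfV : r f ∈ Γ.VB (q 1) := H.r_mem_VB (Γ.symm A01) hf t1
  have hf3 : r f • q 3 = q 3 := CB.ZZ_fix H.co.hmin (hq.sub (i' := 0) (j' := 8) (by omega) le_rfl) t0 (by omega)
    (by omega) (by omega) hfz
  have hf5 : r f • q 5 = q 5 := CB.ZZ_fix H.co.hmin (hq.sub (i' := 0) (j' := 8) (by omega) le_rfl) t0 (by omega)
    (by omega) (by omega) hfz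
  have hconj : v * r f * v⁻¹ = r (v • f) := H.R.conj f v tf
  have hconj' : v * r (v • f) * v⁻¹ = r f := by
    rw [H.R.conj _ v tvf, ← mul_smul, hvv, one_smul]
  have hvf3 : r (v • f) • q 3 = q 3 := by
    rw [← hconj]; exact conj_fix_of_eq hf3 v3
  have hvf5 : r (v • f) • q 5 = q 5 := by
    rw [← hconj]; exact conj_fix_of_eq hf5 v5
  have i1 : (r f)⁻¹ = r f := H.R.inv tf
  have i2 : (r (v • f))⁻¹ = r (v • f) := H.R.inv tvf
  have hrr : r (q 3) * r (q 3) = 1 := H.R.sq _ t3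
  set y := r f * r (v • f) with hy
  -- `y` commutes with `VB (q 5)`
  have hyc : ∀ w ∈ Γ.VB (q 5), y * w = w * y := by
    intro w hw
    have hvw := hvc w hw
    by_cases hwQ : w ∈ Γ.Q (q 1)
    · have hrev := (hq.sub (i' := 1) (j' := 5) (by omega) (by omega)).rev 6
      norm_num at hrev
      have e1 := H.g4 (fun k => q (6 - k)) 1 5 (by ring) hrev (by norm_num; exact t5) w (by norm_num; exact hw)
        (by norm_num; exact hwQ) (r f) (by norm_num; exact hfV)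
      have e2 : w * r (v • f) = r (v • f) * w := by
        rw [← hconj]
        calc w * (v * r f * v⁻¹) = (v * w) * r f * v⁻¹ := by rw [hvw]; group
          _ = v * (w * r f) * v⁻¹ := by group
          _ = v * (r f * w) * v⁻¹ := by rw [e1]
          _ = v * r f * (w * v⁻¹) := by group
          _ = v * r f * (v⁻¹ * (v * w) * v⁻¹) := by group
          _ = v * r f * (v⁻¹ * (w * v) * v⁻¹) := by rw [hvw]
          _ = v * r f * v⁻¹ * w := by group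
      calc y * w = r f * (r (v • f) * w) := by rw [hy]; group
        _ = (r f * w) * r (v • f) := by rw [← e2]; group
        _ = w * y := by rw [← e1, hy]; group
    · have e1 := H.rel (by omega) c1 (hq.sub (by omega) (by omega)) (f := f) (by norm_num; exact hf) hfn hw hwQ
      norm_num at e1
      have e2 : w * r f * w⁻¹ = r f * r (q 3) := by
        rw [← e1]
        calc w * r f * w⁻¹ = (r f * r f) * (w * r f * w⁻¹) := by rw [H.R.sq f tf, one_mul]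
          _ = r f * (r f * (w * r f * w⁻¹)) := by group
      have cv3 : v * r (q 3) = r (q 3) * v := H.R.comm t3 v3
      have e3 : w * r (v • f) * w⁻¹ = r (v • f) * r (q 3) := by
        rw [← hconj]
        calc w * (v * r f * v⁻¹) * w⁻¹ = (w * v) * r f * (w * v)⁻¹ := by group
          _ = (v * w) * r f * (v * w)⁻¹ := by rw [hvw]
          _ = v * (w * r f * w⁻¹) * v⁻¹ := by group
          _ = v * (r f * r (q 3)) * v⁻¹ := by rw [e2]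
          _ = v * r f * v⁻¹ * (v * r (q 3)) * v⁻¹ := by group
          _ = v * r f * v⁻¹ * r (q 3) := by rw [cv3]; group
      have c2 : r (v • f) * r (q 3) = r (q 3) * r (v • f) := H.R.comm t3 hvf3
      have e4 : w * y * w⁻¹ = y := by
        calc w * y * w⁻¹ = (w * r f * w⁻¹) * (w * r (v • f) * w⁻¹) := by rw [hy]; group
          _ = r f * (r (q 3) * r (v • f)) * r (q 3) := by rw [e2, e3]; group
          _ = r f * r (v • f) * (r (q 3) * r (q 3)) := by rw [← c2]; group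
          _ = y := by rw [hrr, mul_one]
      calc y * w = (w * y * w⁻¹) * w := by rw [e4]
        _ = w * y := by group
  have hy5 : y • q 5 = q 5 := mul_fix hf5 hvf5
  have hy7 : y • q 7 = q 7 := ((H.co.mem_Q_of_VB t5 hy5 hyc).2 _ A56).2 _ A67
  -- `r (q 3) ∈ VB (q 7)`
  have hmem : r (q 3) ∈ Γ.VB (q 7) := by
    have e1 : r (v • f) * r f * (r (v • f))⁻¹ = r f * r (q 3) := by
      rw [← R1]
      calc r (v • f) * r f * (r (v • f))⁻¹ = (r f * r f) * (r (v • f) * r f * (r (v • f))⁻¹) := by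
            rw [H.R.sq f tf, one_mul]
        _ = r f * (r f * (r (v • f) * r f * (r (v • f))⁻¹)) := by group
    have c1 : r f * r (q 3) = r (q 3) * r f := H.R.comm t3 hf3
    have e2 : r (q 3) = v * (y * v⁻¹ * y⁻¹) := by
      have e3 : v * y * v⁻¹ = r (v • f) * r f := by
        calc v * y * v⁻¹ = (v * r f * v⁻¹) * (v * r (v • f) * v⁻¹) := by rw [hy]; group
          _ = r (v • f) * r f := by rw [hconj, hconj']
      calc r (q 3) = (r (q 3) * r f) * (r f)⁻¹ := by group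
        _ = (r f * r (q 3)) * (r f)⁻¹ := by rw [c1]
        _ = (r (v • f) * r f * (r (v • f))⁻¹) * (r f)⁻¹ := by rw [e1]
        _ = (r (v • f) * r f) * y⁻¹ := by rw [hy]; group
        _ = (v * y * v⁻¹) * y⁻¹ := by rw [e3]
        _ = v * (y * v⁻¹ * y⁻¹) := by group
    rw [e2]
    exact mul_mem hv (conj_mem_VB_of_eq (inv_mem hv) hy7)
  -- `r (q 3) ∈ ZZ (q 6)`
  obtain ⟨u, hu, huQ⟩ := Set.not_subset.1 c3.2.2.2
  have u6 : u • q 6 = q 6 := H.co.VB_fix (hq.sub (i' := 3) (j' := 8) (by omega) le_rfl) t3 (by omega) (by omega)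
    (by omega) hu
  have u7 : u • q 7 = q 7 := H.co.VB_fix (hq.sub (i' := 3) (j' := 8) (by omega) le_rfl) t3 (by omega) (by omega)
    (by omega) hu
  have u8 : u • q 8 ≠ q 8 := fun h => huQ (mem_Q_of_two u7 (Γ.symm A67) A78 n68 u6 h)
  have u86 : u • q 8 ≠ q 6 := by
    intro h
    rw [← u6] at h
    exact n68 (MulAction.injective u h).symm
  obtain ⟨f1, hf1, hf1n⟩ := exists_ne (Γ.symm A78)
  have tf1 : Γ.ty f1 = τ := by rw [← t7]; exact ty_eq_of_adj hf1 (Γ.symm A78)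
  have huf1 : Γ.A (u • q 8) (u • f1) := Γ.smul u hf1
  have huf1n : u • f1 ≠ q 7 := by
    intro h
    rw [← u7] at h
    exact hf1n (MulAction.injective u h)
  have hrev := c3.rev H 10
  norm_num at hrev
  have hqrev := (hq.sub (i' := 3) (j' := 8) (by omega) (by omega)).rev 10
  norm_num at hqrev
  have n1 : r f1 ∉ Γ.Q (q 3) := by
    have := H.r_not_mem (by omega) hrev (by norm_num; exact hqrev) (f := f1) (by norm_num; exact hf1)
      (by norm_num; exact hf1n)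
    norm_num at this
    exact this
  have hu3 : u • q 3 = q 3 := (H.co.cb.VB_le_Q t3 hu).1
  have n2 : r (u • f1) ∉ Γ.Q (q 3) := by
    intro h
    rw [← H.R.conj f1 u tf1] at h
    have h1 := conj_mem_Q_of_fix h (inv_fix hu3)
    have e : u⁻¹ * (u * r f1 * u⁻¹) * u⁻¹⁻¹ = r f1 := by group
    rw [e] at h1
    exact n1 h1
  have R2 := H.rel (by omega) hrev (by norm_num; exact hqrev) (f := f1) (by norm_num; exact hf1)
    (by norm_num; exact hf1n) (v := u) (by norm_num; exact hu) (by norm_num; exact huQ)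
  norm_num at R2
  rw [H.R.conj f1 u tf1] at R2
  have r3Q : r (q 3) ∈ Γ.Q (q 3) := H.R.mem_Q_self t3
  have hZ6 : Γ.ZZ (q 6) ≤ Γ.Q (q 3) := CB.ZZ_le_rev H.co.hmin (p := q) (i := 3) (j := 6) (by omega)
    (hq.sub (by omega) (by omega)) t6 (by omega)
  have hmem6 : r (q 3) ∈ Γ.ZZ (q 6) := by
    obtain ⟨a, ha, b, hb, c, hc, e⟩ := H.co.VB_decomp t7 (Γ.symm A67) A78 (A_of_fix u7 A78) n68 u86.symm u8.symm hf1
      huf1 hf1n huf1n hmem
    rcases (H.hr f1 tf1).2 b hb with rfl | rfl <;>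
      rcases (H.hr (u • f1) (by rw [Γ.ty_smul]; exact tf1)).2 c hc with rfl | rfl
    · rw [mul_one, mul_one] at e
      rw [e]; exact ha
    · exfalso
      rw [mul_one] at e
      rw [e] at r3Q
      exact n2 ((mul_mem_cancel_left (hZ6 ha)).1 r3Q)
    · exfalso
      rw [mul_one] at e
      rw [e] at r3Q
      exact n1 ((mul_mem_cancel_left (hZ6 ha)).1 r3Q)
    · rw [mul_assoc, R2] at e
      rw [e]
      exact mul_mem ha (H.r_mem_ZZ (Γ.symm A56) t5)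
  have Z37 : r (q 3) ≠ r (q 7) := H.co.cb.Z4 H.R (i := 3) (j := 7) (by ring) (hq.sub (by omega) (by omega)) t3
  obtain ⟨b5, hb5, b7, hb7, e⟩ := H.co.cb.ZZ_decomp t6 (Γ.symm A56) A67 n57 hmem6
  rcases (H.hr _ t5).2 b5 hb5 with rfl | rfl <;> rcases (H.hr _ t7).2 b7 hb7 with rfl | rfl
  · rw [mul_one] at e
    exact H.R.ne _ t3 e
  · rw [one_mul] at e
    exact Z37 e
  · rw [mul_one] at e
    exact n35 (H.R.inj (Γ.symm A34) (Γ.symm A54) t3 e)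
  · obtain ⟨g, hg, hg5, hg7, -⟩ := exists_third (Γ.symm A56) A67 n57
    rw [H.R.mul (q 6) (q 5) (q 7) g (Γ.symm A56) A67 hg n57 hg5.symm hg7.symm t5] at e
    obtain ⟨s', hs', hs'g, hs'k⟩ := (hq.sub (i' := 3) (j' := 6) (by omega) (by omega)).exists_snoc hg (fun _ => by
      norm_num; exact hg5)
    have := H.co.cb.Z4 H.R (i := 3) (j := 7) (by ring) hs' (by rw [hs'k 3 (by omega)]; exact t3)
    rw [hs'k 3 (by omega)] at this
    apply this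
    rw [e]
    congr 1
    norm_num at hs'g
    exact hs'g.symm

end CR

end Tri

end Cfsg.Agent.H209
end

-- part: H209/TriThree
section
/-!
# Case B, critical distance three
-/

set_option autoImplicit false

namespace Cfsg.Agent.H209

open MulAction

namespace Tri

variable {G V : Type*} [Group G] [MulAction G V] {Γ : Tri G V}
variable {u v w a b c d e l m s : V} {g h t x y z : G} {τ : Bool} {r : V → G}

/-- the walk `a b c d e` -/
def arc5 (a b c d e : V) : ℤ → V := fun k => if k = 0 then a else if k = 1 then b else if k = 2 then c else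
  if k = 3 then d else e

theorem arc5_arc (h1 : Γ.A a b) (h2 : Γ.A b c) (h3 : Γ.A c d) (h4 : Γ.A d e) (n1 : a ≠ c) (n2 : b ≠ d) (n3 : c ≠ e) :
    Γ.Arc (arc5 a b c d e) 0 4 := by
  refine ⟨fun k k1 k2 => ?_, fun k k1 k2 => ?_⟩
  · have : k = 0 ∨ k = 1 ∨ k = 2 ∨ k = 3 := by omega
    rcases this with rfl | rfl | rfl | rfl <;> simp only [arc5] <;> norm_num <;> assumption
  · have : k = 0 ∨ k = 1 ∨ k = 2 := by omega
    rcases this with rfl | rfl | rfl <;> simp only [arc5] <;> norm_num <;> assumption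

omit Γ in
theorem arc5_0 : arc5 a b c d e 0 = a := by simp [arc5]
omit Γ in
theorem arc5_1 : arc5 a b c d e 1 = b := by simp [arc5]
omit Γ in
theorem arc5_2 : arc5 a b c d e 2 = c := by simp [arc5]
omit Γ in
theorem arc5_3 : arc5 a b c d e 3 = d := by simp [arc5]
omit Γ in
theorem arc5_4 : arc5 a b c d e 4 = e := by simp [arc5]

theorem YC.mul_r (R : Pts Γ τ r) {p : V} (hp : Γ.ty p = τ) (hY : YC r p y) : YC r p (y * r p) := by
  intro g hg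
  have h1 := R.comm hp hg
  have e0 : g * (y * r p) * g⁻¹ = (g * y * g⁻¹) * (g * r p) * g⁻¹ := by group
  have e1 : g * (y * r p) * g⁻¹ = (g * y * g⁻¹) * r p := by rw [e0, h1]; group
  rcases hY g hg with h | h
  · left; rw [e1, h]
  · right; rw [e1, h]

/-- the pointwise stabilizer of the ball of radius three -/
def D3 (Γ : Tri G V) (p : V) : Subgroup G where
  carrier := {g | g ∈ Γ.D p ∧ ∀ l q, Γ.A p l → Γ.A l q → g ∈ Γ.Q q}
  mul_mem' := fun hg hh => ⟨mul_mem hg.1 hh.1, fun l q h1 h2 => mul_mem (hg.2 l q h1 h2) (hh.2 l q h1 h2)⟩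
  one_mem' := ⟨one_mem _, fun _ _ _ _ => one_mem _⟩
  inv_mem' := fun hg => ⟨inv_mem hg.1, fun l q h1 h2 => inv_mem (hg.2 l q h1 h2)⟩

theorem conj_mem_D3 {p : V} (hg : g ∈ Γ.D3 p) (h : G) : h * g * h⁻¹ ∈ Γ.D3 (h • p) := by
  refine ⟨conj_mem_D hg.1 h, fun l q h1 h2 => ?_⟩
  have h3 : Γ.A p (h⁻¹ • l) := by
    have := Γ.smul h⁻¹ h1
    rwa [inv_smul_smul] at this
  have h4 : Γ.A (h⁻¹ • l) (h⁻¹ • q) := Γ.smul h⁻¹ h2
  have := conj_mem_Q (hg.2 _ _ h3 h4) h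
  rwa [smul_inv_smul] at this

theorem conj_mem_D3_of_fix {p : V} (hg : g ∈ Γ.D3 p) (hh : h • p = p) : h * g * h⁻¹ ∈ Γ.D3 p := by
  have := conj_mem_D3 hg h
  rwa [hh] at this

/-- the case of critical distance three -/
structure C3 (Γ : Tri G V) (τ : Bool) (r : V → G) : Prop where
  cr : CR Γ τ 3 r
  ex : ∃ p : ℤ → V, Γ.Arc p 0 3 ∧ Γ.ty (p 0) = !τ ∧ ¬ Γ.ZZ (p 0) ≤ Γ.Q (p 3)

namespace C3

variable (H : C3 Γ τ r)

include H

theorem r_ZB {p : V} (hp : Γ.ty p = τ) : r p ∈ ZB G p := (H.cr.hr p hp).1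

/-- distance four -/
theorem far (h1 : Γ.A a b) (h2 : Γ.A b c) (h3 : Γ.A c d) (h4 : Γ.A d e) (n1 : a ≠ c) (n2 : b ≠ d) (n3 : c ≠ e)
    (hty : Γ.ty a = τ) : r a ∉ Γ.Q e := by
  intro hQ
  have tb := CB.ty_nbr' hty h1
  have tc := CB.ty_nbr tb h2
  have hq := arc5_arc h1 h2 h3 h4 n1 n2 n3
  obtain ⟨p, hp, hpt, hpc⟩ := H.ex
  have hM : ∀ k : ℤ, 1 ≤ k → k ≤ 3 → ∀ τ', MvT Γ k τ' := fun k k1 k2 τ' => H.cr.co.cb.np.mv_le_three τ' k1 k2
  have hcr := crit_all (Γ := Γ) (n := 3) (by omega) hM (p := p) (i := 0) (by simpa using hp) (by simpa using hpc)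
    (q := arc5 a b c d e) (i' := 1) (hq.sub (by omega) (by omega)) (by rw [hpt, arc5_1, tb])
  have := H.cr.co.crit_Q H.cr.g4 (p := arc5 a b c d e) (i := 1) (j := 1 + 3) rfl (hq.sub (by omega) (by omega))
    (by rw [arc5_1]; exact tb) hcr (r a) (by rw [arc5_1]; exact H.cr.r_mem_ZZ (Γ.symm h1) hty)
    (by norm_num; rw [arc5_4]; exact hQ)
  norm_num at this
  rw [arc5_2] at this
  exact H.cr.R.ne a hty (H.cr.co.cb.ZB_inf (Γ.symm h1) h2 n1 hty (H.r_ZB hty) this)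

theorem Z4' (h1 : Γ.A a b) (h2 : Γ.A b c) (h3 : Γ.A c d) (h4 : Γ.A d e) (n1 : a ≠ c) (n2 : b ≠ d) (n3 : c ≠ e)
    (hty : Γ.ty a = τ) : r a ≠ r e := by
  have hq := arc5_arc h1 h2 h3 h4 n1 n2 n3
  have := H.cr.co.cb.Z4 H.cr.R (q := arc5 a b c d e) (i := 0) (j := 4) (by ring) hq (by rw [arc5_0]; exact hty)
  rwa [arc5_0, arc5_4] at this

theorem G4' {p1 p2 p3 : V} (h1 : Γ.A p1 p2) (h2 : Γ.A p2 p3) (hne : p1 ≠ p3) (hty : Γ.ty p1 = τ)
    (hx : x ∈ Γ.VB p1) (hxQ : x ∈ Γ.Q p3) (hy : y ∈ Γ.VB p3) : x * y = y * x := by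
  obtain ⟨p4, h4, n4⟩ := exists_ne (Γ.symm h2)
  obtain ⟨p5, h5, n5⟩ := exists_ne (Γ.symm h4)
  have hq := arc5_arc h1 h2 h4 h5 hne n4.symm n5.symm
  exact H.cr.g4 (arc5 p1 p2 p3 p4 p5) 0 2 (by ring) (hq.sub (by omega) (by omega)) (by rw [arc5_0]; exact hty) x
    (by rw [arc5_0]; exact hx) (by rw [arc5_2]; exact hxQ) y (by rw [arc5_2]; exact hy)

theorem VB_le_D {p : V} (hp : Γ.ty p = τ) : Γ.VB p ≤ Γ.D p := fun _ hx =>
  ⟨H.cr.co.cb.VB_le_Q hp hx, fun _ ha => H.cr.co.VB_le_Q_nbr hp ha hx⟩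

omit H in
theorem ty2 {p1 p2 p3 : V} (h1 : Γ.A p1 p2) (h2 : Γ.A p2 p3) (hty : Γ.ty p1 = τ) : Γ.ty p3 = τ :=
  CB.ty_nbr (CB.ty_nbr' hty h1) h2

theorem VB_fix2 {p1 p2 p3 : V} (h1 : Γ.A p1 p2) (h2 : Γ.A p2 p3) (hty : Γ.ty p1 = τ) (hx : x ∈ Γ.VB p1) :
    x • p2 = p2 ∧ x • p3 = p3 := by
  have := H.cr.co.VB_le_Q_nbr hty h1 hx
  exact ⟨this.1, this.2 _ h2⟩

theorem VB_T {p1 p2 p3 : V} (h1 : Γ.A p1 p2) (h2 : Γ.A p2 p3) (hty : Γ.ty p1 = τ) (hx : x ∈ Γ.VB p1) :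
    x ∈ (T p3 p2 : Subgroup G) := by
  obtain ⟨h3, h4⟩ := H.VB_fix2 h1 h2 hty hx
  exact mem_T.2 ⟨h4, h3⟩

/-- the commutator does not depend on the elements -/
theorem t_indep {p1 p2 p3 : V} (h1 : Γ.A p1 p2) (h2 : Γ.A p2 p3) (hne : p1 ≠ p3) (hty : Γ.ty p1 = τ) {u u' v v' : G}
    (hu : u ∈ Γ.VB p1) (hu' : u' ∈ Γ.VB p1) (hv : v ∈ Γ.VB p3) (hv' : v' ∈ Γ.VB p3) (huQ : u ∉ Γ.Q p3)
    (huQ' : u' ∉ Γ.Q p3) (hvQ : v ∉ Γ.Q p1) (hvQ' : v' ∉ Γ.Q p1) : u' * (v' * u' * v'⁻¹) = u * (v * u * v⁻¹) := by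
  have t3 := ty2 h1 h2 hty
  have hw : v⁻¹ * v' ∈ Γ.Q p1 := mul_mem_Q h1 (H.VB_T (Γ.symm h2) (Γ.symm h1) t3 (inv_mem hv))
    (H.VB_T (Γ.symm h2) (Γ.symm h1) t3 hv') (fun h => hvQ (inv_mem_iff.1 h)) hvQ'
  have hs : u⁻¹ * u' ∈ Γ.Q p3 := mul_mem_Q (Γ.symm h2) (H.VB_T h1 h2 hty (inv_mem hu))
    (H.VB_T h1 h2 hty hu') (fun h => huQ (inv_mem_iff.1 h)) huQ'
  have c1 := H.G4' (Γ.symm h2) (Γ.symm h1) hne.symm t3 (mul_mem (inv_mem hv) hv') hw hu'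
  have hsV : u⁻¹ * u' ∈ Γ.VB p1 := mul_mem (inv_mem hu) hu'
  have c2 := H.G4' h1 h2 hne hty hsV hs hv
  have v1 : v • p1 = p1 := (H.VB_fix2 (Γ.symm h2) (Γ.symm h1) t3 hv).2
  have c3 : (u⁻¹ * u') * (v * u * v⁻¹) = (v * u * v⁻¹) * (u⁻¹ * u') :=
    H.cr.co.VB_comm hty hsV (conj_mem_VB_of_eq hu v1)
  have c4 := H.cr.co.VB_sq hty hsV
  have e1 : v' * u' * v'⁻¹ = v * u' * v⁻¹ := by
    calc v' * u' * v'⁻¹ = v * ((v⁻¹ * v') * u') * (v⁻¹ * v')⁻¹ * v⁻¹ := by group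
      _ = v * (u' * (v⁻¹ * v')) * (v⁻¹ * v')⁻¹ * v⁻¹ := by rw [c1]
      _ = v * u' * v⁻¹ := by group
  have e2 : v * u' * v⁻¹ = (v * u * v⁻¹) * (u⁻¹ * u') := by
    calc v * u' * v⁻¹ = v * u * v⁻¹ * (v * (u⁻¹ * u')) * v⁻¹ := by group
      _ = v * u * v⁻¹ * ((u⁻¹ * u') * v) * v⁻¹ := by rw [c2]
      _ = (v * u * v⁻¹) * (u⁻¹ * u') := by group
  calc u' * (v' * u' * v'⁻¹) = u' * ((v * u * v⁻¹) * (u⁻¹ * u')) := by rw [e1, e2]
    _ = u * ((u⁻¹ * u') * (v * u * v⁻¹)) * (u⁻¹ * u') := by group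
    _ = u * ((v * u * v⁻¹) * (u⁻¹ * u')) * (u⁻¹ * u') := by rw [c3]
    _ = u * (v * u * v⁻¹) * ((u⁻¹ * u') * (u⁻¹ * u')) := by group
    _ = u * (v * u * v⁻¹) := by rw [c4, mul_one]

/-- moved neighbours -/
theorem moved {p0 p1 p2 p3 : V} (h0 : Γ.A p1 p0) (h1 : Γ.A p1 p2) (h2 : Γ.A p2 p3) (n02 : p0 ≠ p2)
    (hty : Γ.ty p1 = τ) {v : G} (hv : v ∈ Γ.VB p3) (hvQ : v ∉ Γ.Q p1) :
    v • p1 = p1 ∧ v • p2 = p2 ∧ v • p0 ≠ p0 ∧ v • p0 ≠ p2 ∧ Γ.A p1 (v • p0) := by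
  have t3 := ty2 h1 h2 hty
  obtain ⟨f2, f1⟩ := H.VB_fix2 (Γ.symm h2) (Γ.symm h1) t3 hv
  refine ⟨f1, f2, fun h => hvQ (mem_Q_of_two f1 h0 h1 n02 h f2), fun h => ?_, A_of_fix f1 h0⟩
  rw [← f2] at h
  exact n02 (MulAction.injective v h)

/-- elements of `VB p` normalised modulo `r p` are in `D3 p` -/
theorem D3_of_YC {p : V} (hty : Γ.ty p = τ) (hy : y ∈ Γ.VB p) (hY : YC r p y) : y ∈ Γ.D3 p := by
  refine ⟨H.VB_le_D hty hy, fun p2 p3 h1 h2 => ?_⟩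
  by_cases hne : p3 = p
  · rw [hne]; exact H.cr.co.cb.VB_le_Q hty hy
  by_contra hyQ
  have t3 := ty2 h1 h2 hty
  obtain ⟨p0, h0, n0⟩ := exists_ne h1
  obtain ⟨f, hf, nf⟩ := exists_ne (Γ.symm h0)
  obtain ⟨p4, h4, n4⟩ := exists_ne (Γ.symm h2)
  obtain ⟨f', hf', nf'⟩ := exists_ne (Γ.symm h4)
  have tf := ty2 h0 hf hty
  have tf' := ty2 h4 hf' t3
  have u0 : r f ∉ Γ.Q p3 := H.far (Γ.symm hf) (Γ.symm h0) h1 h2 nf n0 (Ne.symm hne) tf
  have v0 : r f' ∉ Γ.Q p := H.far (Γ.symm hf') (Γ.symm h4) (Γ.symm h2) (Γ.symm h1) nf' n4 hne tf'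
  have mu : r f ∈ Γ.VB p := H.cr.r_mem_VB h0 hf hty
  have mv : r f' ∈ Γ.VB p3 := H.cr.r_mem_VB h4 hf' t3
  have key := H.t_indep h1 h2 (Ne.symm hne) hty mu hy mv mv u0 hyQ v0 v0
  obtain ⟨v1, v2, v3, v4, v5⟩ := H.moved h0 h1 h2 n0 hty mv v0
  rw [H.cr.R.conj f (r f') tf] at key
  have hvf : Γ.A (r f' • p0) (r f' • f) := Γ.smul _ hf
  have nvf : p ≠ r f' • f := by
    intro h
    rw [← v1] at h
    exact nf (MulAction.injective _ h).symm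
  have tvf : Γ.ty (r f' • f) = τ := by rw [Γ.ty_smul, tf]
  rcases hY (r f') v1 with e | e
  · rw [e, H.cr.co.VB_sq hty hy] at key
    have h3 : r f = r (r f' • f) := by
      rw [← H.cr.R.inv tf]
      exact inv_eq_of_mul_eq_one_right key.symm
    exact H.Z4' (Γ.symm hf) (Γ.symm h0) v5 hvf nf v3.symm nvf tf h3
  · rw [e, ← mul_assoc, H.cr.co.VB_sq hty hy, one_mul] at key
    obtain ⟨f2, hf2, nf2, nf2f, -⟩ := exists_third (Γ.symm h0) hf nf.symm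
    have tf2 := ty2 h0 hf2 hty
    have h3 : r (r f' • f) = r f2 := by
      rw [← H.cr.R.mul p0 f p f2 hf (Γ.symm h0) hf2 nf nf2f.symm nf2.symm tf, key, ← mul_assoc, H.cr.R.sq f tf,
        one_mul]
    exact H.Z4' (Γ.symm hf2) (Γ.symm h0) v5 hvf nf2 v3.symm nvf tf2 h3.symm

theorem r_mem_D3 {p : V} (hty : Γ.ty p = τ) : r p ∈ Γ.D3 p := by
  obtain ⟨l, hl⟩ := ex_adj Γ p
  apply H.D3_of_YC hty (H.cr.r_mem_VB hl (Γ.symm hl) hty)
  intro g hg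
  left
  rw [H.cr.R.comm hty hg, mul_inv_cancel_right]

theorem D3_comm {p1 p2 p3 : V} (h1 : Γ.A p1 p2) (h2 : Γ.A p2 p3) (hne : p1 ≠ p3) (hty : Γ.ty p1 = τ)
    (hx : x ∈ Γ.D3 p1) (hy : y ∈ Γ.VB p3) : x * y = y * x := by
  have t3 := ty2 h1 h2 hty
  have hxQ : x ∈ Γ.Q p3 := hx.2 _ _ h1 h2
  obtain ⟨c, hc, e⟩ := H.cr.co.VB_act t3 hxQ hy
  have f1 : y • p1 = p1 := (H.VB_fix2 (Γ.symm h2) (Γ.symm h1) t3 hy).2
  have hcD : c ∈ Γ.D3 p1 := by
    have e2 : c = (y⁻¹ * x * y⁻¹⁻¹) * x⁻¹ := by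
      calc c = y⁻¹ * (x * y * x⁻¹) := by rw [e]; group
        _ = (y⁻¹ * x * y⁻¹⁻¹) * x⁻¹ := by group
    rw [e2]
    exact mul_mem (conj_mem_D3_of_fix hx (inv_fix f1)) (inv_mem hx)
  rcases (H.cr.hr p3 t3).2 c hc with h | h
  · rw [h, mul_one] at e
    calc x * y = (x * y * x⁻¹) * x := by group
      _ = y * x := by rw [e]
  · exfalso
    obtain ⟨l, hl, nl⟩ := exists_ne h1
    obtain ⟨q, hq, nq⟩ := exists_ne (Γ.symm hl)
    rw [h] at hcD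
    exact H.far (Γ.symm h2) (Γ.symm h1) hl hq hne.symm nl.symm nq.symm t3 (hcD.2 _ _ hl hq)

theorem exists_v3 {p1 p2 p3 : V} (h1 : Γ.A p1 p2) (h2 : Γ.A p2 p3) (hne : p1 ≠ p3) (hty : Γ.ty p1 = τ) :
    ∃ v ∈ Γ.VB p3, v ∉ Γ.Q p1 := by
  have t3 := ty2 h1 h2 hty
  obtain ⟨p4, h4, n4⟩ := exists_ne (Γ.symm h2)
  obtain ⟨f', hf', nf'⟩ := exists_ne (Γ.symm h4)
  exact ⟨r f', H.cr.r_mem_VB h4 hf' t3, H.far (Γ.symm hf') (Γ.symm h4) (Γ.symm h2) (Γ.symm h1) nf' n4 hne.symm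
    (ty2 h4 hf' t3)⟩

theorem D3_inf {p1 p2 p3 : V} (h1 : Γ.A p1 p2) (h2 : Γ.A p2 p3) (hne : p1 ≠ p3) (hty : Γ.ty p1 = τ)
    (hx : x ∈ Γ.D3 p1) (hx' : x ∈ Γ.D3 p3) : x = 1 := by
  have t3 := ty2 h1 h2 hty
  have key : ∀ n ∈ Γ.D3 p1 ⊓ Γ.D3 p3, n = 1 := by
    apply two_bot H.cr.co.cb.np h1 h2 hne _ (CC p1 (Γ.D3 p1)) (CC p3 (Γ.D3 p3))
    · intro n hn
      exact ⟨hn.1.1.1.1, hn.1.1.1.2 _ h1, hn.2.1.1.1⟩
    · intro c hc; exact (mem_CC.1 hc).1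
    · intro g hg c hc
      exact CC_normal (fun g hg n hn => conj_mem_D3_of_fix hn hg) hg hc
    · obtain ⟨v, hv, hvQ⟩ := H.exists_v3 h1 h2 hne hty
      exact ⟨v, mem_CC.2 ⟨(H.VB_fix2 (Γ.symm h2) (Γ.symm h1) t3 hv).2,
        fun n hn => (H.D3_comm h1 h2 hne hty hn hv).symm⟩, hvQ⟩
    · intro c hc; exact (mem_CC.1 hc).1
    · intro g hg c hc
      exact CC_normal (fun g hg n hn => conj_mem_D3_of_fix hn hg) hg hc
    · obtain ⟨v, hv, hvQ⟩ := H.exists_v3 (Γ.symm h2) (Γ.symm h1) hne.symm t3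
      exact ⟨v, mem_CC.2 ⟨(H.VB_fix2 h1 h2 hty hv).2,
        fun n hn => (H.D3_comm (Γ.symm h2) (Γ.symm h1) hne.symm t3 hn hv).symm⟩, hvQ⟩
    · intro c hc n hn; exact (mem_CC.1 hc).2 n hn.1
    · intro c hc n hn; exact (mem_CC.1 hc).2 n hn.2
  exact key x ⟨hx, hx'⟩

/-- the commutator relation -/
theorem rel3 {p0 p1 p2 p3 f : V} (h0 : Γ.A p1 p0) (hf : Γ.A p0 f) (h1 : Γ.A p1 p2) (h2 : Γ.A p2 p3) (n02 : p0 ≠ p2)
    (nf : f ≠ p1) (hne : p1 ≠ p3) (hty : Γ.ty p1 = τ) {v : G} (hv : v ∈ Γ.VB p3) (hvQ : v ∉ Γ.Q p1) :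
    r f * (v * r f * v⁻¹) = r p1 * r p3 := by
  have t3 := ty2 h1 h2 hty
  have tf := ty2 h0 hf hty
  obtain ⟨p4, h4, n4⟩ := exists_ne (Γ.symm h2)
  obtain ⟨f', hf', nf'⟩ := exists_ne (Γ.symm h4)
  have tf' := ty2 h4 hf' t3
  have u0 : r f ∉ Γ.Q p3 := H.far (Γ.symm hf) (Γ.symm h0) h1 h2 nf n02 hne tf
  have v0 : r f' ∉ Γ.Q p1 := H.far (Γ.symm hf') (Γ.symm h4) (Γ.symm h2) (Γ.symm h1) nf' n4 hne.symm tf'
  have mu : r f ∈ Γ.VB p1 := H.cr.r_mem_VB h0 hf hty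
  have mv : r f' ∈ Γ.VB p3 := H.cr.r_mem_VB h4 hf' t3
  rw [H.t_indep h1 h2 hne hty mu mu mv hv u0 u0 v0 hvQ]
  obtain ⟨a1, a2, a3, a4, a5⟩ := H.moved h0 h1 h2 n02 hty mv v0
  obtain ⟨b1, b2, b3, b4, b5⟩ := H.moved h4 (Γ.symm h2) (Γ.symm h1) n4 t3 mu u0
  have c1 : Γ.A (r f' • p0) (r f' • f) := Γ.smul _ hf
  have c2 : r f' • f ≠ p1 := by
    intro h
    rw [← a1] at h
    exact nf (MulAction.injective _ h)
  have d1 : Γ.A (r f • p4) (r f • f') := Γ.smul _ hf'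
  have d2 : r f • f' ≠ p3 := by
    intro h
    rw [← b1] at h
    exact nf' (MulAction.injective _ h)
  have m1 : r (r f' • f) ∈ Γ.VB p1 := H.cr.r_mem_VB a5 c1 hty
  have m3 : r p3 ∈ Γ.VB p1 := H.cr.r_mem_VB h1 h2 hty
  have k1 : r (r f • f') ∈ Γ.VB p3 := H.cr.r_mem_VB b5 d1 t3
  have k3 : r p1 ∈ Γ.VB p3 := H.cr.r_mem_VB (Γ.symm h2) (Γ.symm h1) t3
  have m11 : r p1 ∈ Γ.VB p1 := H.cr.r_mem_VB h1 (Γ.symm h1) hty
  have k33 : r p3 ∈ Γ.VB p3 := H.cr.r_mem_VB (Γ.symm h2) h2 t3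
  have Y1 : YC r p1 (r f * r (r f' • f) * r p3) :=
    H.cr.R.YC_prod hty h0 a5 h1 a3.symm n02 a4 hf c1 h2 nf c2 hne.symm (H.cr.co.VB_comm hty mu m1)
      (H.cr.co.VB_comm hty mu m3) (H.cr.co.VB_comm hty m1 m3)
  have Y3 : YC r p3 (r f' * r (r f • f') * r p1) :=
    H.cr.R.YC_prod t3 h4 b5 (Γ.symm h2) b3.symm n4 b4 hf' d1 (Γ.symm h1) nf' d2 hne (H.cr.co.VB_comm t3 mv k1)
      (H.cr.co.VB_comm t3 mv k3) (H.cr.co.VB_comm t3 k1 k3)
  have i1 := H.cr.R.inv tf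
  have i2 := H.cr.R.inv tf'
  have i3 := H.cr.R.sq p1 hty
  have i4 := H.cr.R.sq p3 t3
  have tt : r f' * r (r f • f') = r f * r (r f' • f) := by
    have e1 : r f * r (r f' • f) = (r f * r (r f' • f))⁻¹ := (H.cr.co.VB_inv hty (mul_mem mu m1)).symm
    rw [e1, ← H.cr.R.conj f _ tf, ← H.cr.R.conj f' _ tf', mul_inv_rev, mul_inv_rev, mul_inv_rev, inv_inv, i1, i2]
    group
  have c13 : r p1 * r p3 = r p3 * r p1 := H.cr.R.comm_nbr (Γ.symm h1) h2 hty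
  rw [H.cr.R.conj f _ tf]
  set t := r f * r (r f' • f) with ht
  have e3 : t * r p1 * r p3 = t * r p3 * r p1 := by rw [mul_assoc, c13, ← mul_assoc]
  have hy1 : t * r p3 * r p1 ∈ Γ.D3 p1 := by
    apply H.D3_of_YC hty (mul_mem (mul_mem (mul_mem mu m1) m3) m11)
    exact Y1.mul_r H.cr.R hty
  have hy3 : t * r p3 * r p1 ∈ Γ.D3 p3 := by
    rw [← e3]
    apply H.D3_of_YC t3
    · rw [← tt]; exact mul_mem (mul_mem (mul_mem mv k1) k3) k33
    · rw [← tt]; exact Y3.mul_r H.cr.R t3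
  have h5 := H.D3_inf h1 h2 hne hty hy1 hy3
  calc t = (t * r p3 * r p1) * (r p1 * (r p3 * r p3) * (r p1)⁻¹ * (r p1)⁻¹ * (r p3)⁻¹) := by
        rw [i4]; group
    _ = r p1 * r p3 := by
        rw [h5, i4, H.cr.R.inv hty, H.cr.R.inv t3]
        calc 1 * (r p1 * 1 * r p1 * r p1 * r p3) = (r p1 * r p1) * (r p1 * r p3) := by group
          _ = r p1 * r p3 := by rw [i3, one_mul]

end C3

end Tri

end Cfsg.Agent.H209
end

-- part: H209/TriThreeB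
section
/-!
# Case B, critical distance three: the bound 128
-/

set_option autoImplicit false

namespace Cfsg.Agent.H209

open MulAction

namespace Tri

variable {G V : Type*} [Group G] [MulAction G V] {Γ : Tri G V}
variable {u v w a b c d e m s : V} {g h t x y z : G} {τ : Bool} {r : V → G}

namespace C3

variable (H : C3 Γ τ r)

include H

theorem e8 {p l0 l1 l2 q0 q1 q2 : V} (h0 : Γ.A p l0) (h1 : Γ.A p l1) (h2 : Γ.A p l2) (n01 : l0 ≠ l1) (n02 : l0 ≠ l2)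
    (n12 : l1 ≠ l2) (k0 : Γ.A l0 q0) (k1 : Γ.A l1 q1) (k2 : Γ.A l2 q2) (m0 : q0 ≠ p) (m1 : q1 ≠ p) (m2 : q2 ≠ p)
    (hty : Γ.ty p = τ) : r q0 * r q1 = r q2 ∨ r q0 * r q1 = r q2 * r p := by
  obtain ⟨v, hv, hvQ⟩ := H.exists_v3 h2 k2 m2.symm hty
  obtain ⟨a1, a2, a3, a4, a5⟩ := H.moved h0 h2 k2 n02 hty hv hvQ
  have e1 : v • l0 = l1 := third_unique h0 h2 a5 h1 n02 a3 a4 n01.symm n12
  have R1 := H.rel3 h0 k0 h2 k2 n02 m0 m2.symm hty hv hvQ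
  have t0 := ty2 h0 k0 hty
  rw [H.cr.R.conj q0 v t0] at R1
  have A1 : Γ.A l1 (v • q0) := by
    have := Γ.smul v k0
    rwa [e1] at this
  have N1 : v • q0 ≠ p := by
    intro h
    rw [← a1] at h
    exact m0 (MulAction.injective v h)
  have c2 : r p * r q2 = r q2 * r p := H.cr.R.comm_nbr (Γ.symm h2) k2 hty
  rcases H.cr.R.branch (Γ.symm h1) A1 k1 N1 m1 hty with h | h
  · right; rw [h, R1, c2]
  · left
    rw [h, ← mul_assoc, R1, c2, mul_assoc, H.cr.R.sq p hty, mul_one]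

theorem VB_mem {p l0 l1 q : V} (h0 : Γ.A p l0) (h1 : Γ.A p l1) (n01 : l0 ≠ l1) (k1 : Γ.A l1 q) (m1 : q ≠ p)
    (hty : Γ.ty p = τ) (hx : x ∈ Γ.VB p) : ∃ a ∈ Γ.ZZ l0, x = a ∨ x = a * r q := by
  obtain ⟨l2, h2, n20, n21, -⟩ := exists_third h0 h1 n01
  obtain ⟨q2, k2, m2⟩ := exists_ne (Γ.symm h2)
  obtain ⟨q0, k0, m0⟩ := exists_ne (Γ.symm h0)
  have t0 := ty2 h0 k0 hty
  have t1 := ty2 h1 k1 hty
  have t2 := ty2 h2 k2 hty
  obtain ⟨a, ha, b, hb, c, hc, rfl⟩ := H.cr.co.VB_decomp hty h0 h1 h2 n01 n20.symm n21.symm k1 k2 m1 m2 hx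
  have r0 : r q0 ∈ Γ.ZZ l0 := H.cr.r_mem_ZZ k0 t0
  have rp : r p ∈ Γ.ZZ l0 := H.cr.r_mem_ZZ (Γ.symm h0) hty
  have r1 : r q ∈ Γ.VB p := H.cr.r_mem_VB h1 k1 hty
  -- `r q2 = a' * r q`
  have hex : ∃ a' ∈ Γ.ZZ l0, r q2 = a' * r q := by
    rcases H.e8 h0 h1 h2 n01 n20.symm n21.symm k0 k1 k2 m0 m1 m2 hty with h | h
    · exact ⟨r q0, r0, h.symm⟩
    · refine ⟨r q0 * r p, mul_mem r0 rp, ?_⟩
      have c1 : r p * r q = r q * r p := H.cr.R.comm_nbr (Γ.symm h1) k1 hty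
      rw [mul_assoc, c1, ← mul_assoc, h, mul_assoc, H.cr.R.sq p hty, mul_one]
  obtain ⟨a', ha', e'⟩ := hex
  have ca' : r q * a' = a' * r q := H.cr.co.VB_comm hty r1 (ZZ_le_VB h0 ha')
  rcases (H.cr.hr q t1).2 b hb with rfl | rfl <;> rcases (H.cr.hr q2 t2).2 c hc with rfl | rfl
  · exact ⟨a, ha, Or.inl (by group)⟩
  · exact ⟨a * a', mul_mem ha ha', Or.inr (by rw [e']; group)⟩
  · exact ⟨a, ha, Or.inr (by group)⟩
  · refine ⟨a * a', mul_mem ha ha', Or.inl ?_⟩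
    calc a * r q * r q2 = a * (r q * a') * r q := by rw [e']; group
      _ = a * a' * (r q * r q) := by rw [ca']; group
      _ = a * a' := by rw [H.cr.R.sq q t1, mul_one]

theorem D3_bot {p1 p2 p3 p4 p5 : V} (h1 : Γ.A p1 p2) (h2 : Γ.A p2 p3) (h3 : Γ.A p3 p4) (h4 : Γ.A p4 p5)
    (n1 : p1 ≠ p3) (n2 : p2 ≠ p4) (n3 : p3 ≠ p5) (hty : Γ.ty p1 = τ) (hx : x ∈ Γ.D3 p1) (hx5 : x ∈ Γ.Q p5) :
    x = 1 := by
  have t3 := ty2 h1 h2 hty
  have t5 := ty2 h3 h4 t3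
  have hx3 : x ∈ Γ.Q p3 := hx.2 _ _ h1 h2
  have hxm := (H.cr.co.mem_Q_of_VB t3 hx3.1 (fun y hy => H.D3_comm h1 h2 n1 hty hx hy)).2
  obtain ⟨p3', h3', n31, n33, -⟩ := exists_third (Γ.symm h1) h2 n1
  have t3' := ty2 h1 h3' hty
  obtain ⟨v1, hv1, hv1Q⟩ := H.exists_v3 (Γ.symm h2) (Γ.symm h1) n1.symm t3
  obtain ⟨v3, hv3, hv3Q⟩ := H.exists_v3 (Γ.symm h2) h3' n33.symm t3
  obtain ⟨a1, a2, a3, a4, a5⟩ := H.moved h3 (Γ.symm h2) (Γ.symm h1) n2.symm t3 hv1 hv1Q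
  obtain ⟨b1, b2, b3, b4, b5⟩ := H.moved h3 (Γ.symm h2) h3' n2.symm t3 hv3 hv3Q
  have eq4 : v3 • p4 = v1 • p4 := third_unique h3 (Γ.symm h2) b5 a5 n2.symm b3 b4 a3 a4
  -- `u = v1⁻¹ * v3`
  have u4 : (v1⁻¹ * v3) • p4 = p4 := by rw [mul_smul, eq4, inv_smul_smul]
  have u3 : (v1⁻¹ * v3) • p3 = p3 := mul_fix (inv_fix a1) b1
  have cx1 : x * v1 = v1 * x := comm_VB_of (fun m hm => hx.1.2 m hm) hv1
  have cx3 : x * v3 = v3 * x := H.D3_comm h1 h3' n31.symm hty hx hv3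
  have v1' : v1⁻¹ ∉ Γ.Q p3 := fun h => hv1Q (inv_mem_iff.1 h)
  have R3 := H.rel3 h3 h4 (Γ.symm h2) h3' n2.symm n3.symm n33.symm t3 hv3 hv3Q
  have R1 := H.rel3 h3 h4 (Γ.symm h2) (Γ.symm h1) n2.symm n3.symm n1.symm t3 (inv_mem hv1) v1'
  have f13 : v1⁻¹ • p3 = p3 := inv_fix a1
  have f13' : v1⁻¹ • p3' = p3' := inv_fix (H.VB_fix2 h1 h3' hty hv1).2
  have R1' : v1⁻¹ * r p5 * v1⁻¹⁻¹ = r p5 * (r p3 * r p1) := by
    rw [← R1]
    calc v1⁻¹ * r p5 * v1⁻¹⁻¹ = (r p5 * r p5) * (v1⁻¹ * r p5 * v1⁻¹⁻¹) := by rw [H.cr.R.sq p5 t5, one_mul]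
      _ = _ := by group
  have R3' : v3 * r p5 * v3⁻¹ = r p5 * (r p3 * r p3') := by
    rw [← R3]
    calc v3 * r p5 * v3⁻¹ = (r p5 * r p5) * (v3 * r p5 * v3⁻¹) := by rw [H.cr.R.sq p5 t5, one_mul]
      _ = _ := by group
  have c3 : v1⁻¹ * r p3 = r p3 * v1⁻¹ := H.cr.R.comm t3 f13
  have c3' : v1⁻¹ * r p3' = r p3' * v1⁻¹ := H.cr.R.comm t3' f13'
  have m13 : r p1 * r p3' = r p3 := H.cr.R.mul p2 p1 p3' p3 (Γ.symm h1) h3' h2 n31.symm n1 n33 hty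
  have c13 : r p1 * r p3 = r p3 * r p1 := H.cr.R.comm_nbr (Γ.symm h1) h2 hty
  have hu5 : (v1⁻¹ * v3) * r p5 * (v1⁻¹ * v3)⁻¹ = r p5 * r p3 := by
    calc (v1⁻¹ * v3) * r p5 * (v1⁻¹ * v3)⁻¹ = v1⁻¹ * (v3 * r p5 * v3⁻¹) * v1⁻¹⁻¹ := by group
      _ = v1⁻¹ * (r p5 * (r p3 * r p3')) * v1⁻¹⁻¹ := by rw [R3']
      _ = (v1⁻¹ * r p5 * v1⁻¹⁻¹) * (v1⁻¹ * r p3) * r p3' * v1⁻¹⁻¹ := by group
      _ = (v1⁻¹ * r p5 * v1⁻¹⁻¹) * r p3 * (v1⁻¹ * r p3') * v1⁻¹⁻¹ := by rw [c3]; group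
      _ = (r p5 * (r p3 * r p1)) * r p3 * r p3' := by rw [c3', R1']; group
      _ = r p5 * r p3 * (r p1 * r p3) * r p3' := by group
      _ = r p5 * (r p3 * r p3) * (r p1 * r p3') := by rw [c13]; group
      _ = r p5 * r p3 := by rw [H.cr.R.sq p3 t3, m13, mul_one]
  have u5 : (v1⁻¹ * v3) • p5 ≠ p5 := by
    intro h
    rw [H.cr.R.conj p5 _ t5, h] at hu5
    exact H.cr.R.ne p3 t3 (left_eq_mul.1 hu5)
  have u53 : (v1⁻¹ * v3) • p5 ≠ p3 := by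
    intro h
    rw [← u3] at h
    exact n3.symm (MulAction.injective _ h)
  have cxu : (v1⁻¹ * v3) * x * (v1⁻¹ * v3)⁻¹ = x := by
    calc (v1⁻¹ * v3) * x * (v1⁻¹ * v3)⁻¹ = v1⁻¹ * (v3 * x) * v3⁻¹ * v1 := by group
      _ = v1⁻¹ * (x * v1) := by rw [← cx3]; group
      _ = x := by rw [cx1]; group
  have key4 : ∀ q, Γ.A p4 q → x ∈ Γ.Q q := by
    intro q hq
    by_cases hq3 : q = p3
    · rw [hq3]; exact hx3
    by_cases hq5 : q = p5
    · rw [hq5]; exact hx5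
    have e1 : (v1⁻¹ * v3) • p5 = q := third_unique (Γ.symm h3) h4 (A_of_fix u4 h4) hq n3 u53 u5 hq3 hq5
    have := conj_mem_Q_of_eq hx5 e1
    rwa [cxu] at this
  apply H.D3_inf h1 h2 n1 hty hx
  refine ⟨⟨hx3, hxm⟩, fun l q hl hq => ?_⟩
  by_cases hl2 : l = p2
  · rw [hl2] at hq; exact hx.2 _ _ h1 hq
  by_cases hl4 : l = p4
  · rw [hl4] at hq; exact key4 q hq
  have e1 : v1 • p4 = l := third_unique h3 (Γ.symm h2) a5 hl n2.symm a3 a4 hl4 hl2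
  have e2 : Γ.A p4 (v1⁻¹ • q) := by
    have := Γ.smul v1⁻¹ hq
    rwa [← e1, inv_smul_smul] at this
  have h5 := conj_mem_Q_of_eq (h := v1) (w := q) (key4 _ e2) (smul_inv_smul _ _)
  have e3 : v1 * x * v1⁻¹ = x := by rw [← cx1]; group
  rwa [e3] at h5

theorem D3_eq {p : V} (hty : Γ.ty p = τ) (hx : x ∈ Γ.D3 p) : x = 1 ∨ x = r p := by
  obtain ⟨p2, h1⟩ := ex_adj Γ p
  obtain ⟨p3, h2, n1⟩ := exists_ne (Γ.symm h1)
  obtain ⟨p4, h3, n2⟩ := exists_ne (Γ.symm h2)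
  obtain ⟨p5, h4, n3⟩ := exists_ne (Γ.symm h3)
  have t3 := ty2 h1 h2 hty
  have key : ∀ y ∈ Γ.D3 p, y ∈ (T p5 p4 : Subgroup G) := by
    intro y hy
    have hy3 : y ∈ Γ.Q p3 := hy.2 _ _ h1 h2
    have := (H.cr.co.mem_Q_of_VB t3 hy3.1 (fun z hz => H.D3_comm h1 h2 n1.symm hty hy hz)).2 p4 h3
    exact Q_le_T' h4 this
  by_cases hx5 : x ∈ Γ.Q p5
  · left; exact H.D3_bot h1 h2 h3 h4 n1.symm n2.symm n3.symm hty hx hx5
  · right
    have hr := H.r_mem_D3 hty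
    have hr5 : r p ∉ Γ.Q p5 := H.far h1 h2 h3 h4 n1.symm n2.symm n3.symm hty
    have h5 := mul_mem_Q (Γ.symm h4) (key _ hr) (key _ hx) hr5 hx5
    have h6 := H.D3_bot h1 h2 h3 h4 n1.symm n2.symm n3.symm hty (mul_mem hr hx) h5
    rw [← H.cr.R.inv hty]
    exact (inv_eq_of_mul_eq_one_right h6).symm

/-- Step 2 -/
theorem step2 {p1 p2 p3 p3' : V} (h1 : Γ.A p2 p1) (h3 : Γ.A p2 p3) (h3' : Γ.A p2 p3') (n13 : p1 ≠ p3)
    (n13' : p1 ≠ p3') (n33 : p3 ≠ p3') (hty : Γ.ty p1 = τ) (hx1 : x ∈ Γ.D p1) (hx3 : x ∈ Γ.D p3)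
    (hx3' : x ∈ Γ.Q p3') : x ∈ Γ.ZZ p2 := by
  have h12 := Γ.symm h1
  have t3 := ty2 h12 h3 hty
  have t3' := ty2 h12 h3' hty
  obtain ⟨p0, s0, h0, hs0, n02, ns2, n0s, hall⟩ := exists_others h12
  obtain ⟨w, hw, hwQ⟩ := H.exists_v3 h12 h3 n13 hty
  obtain ⟨w1, w2, w3, w4, w5⟩ := H.moved h0 h12 h3 n02 hty hw hwQ
  have ws : w • p0 = s0 := third_unique h0 h12 w5 hs0 n02 w3 w4 n0s.symm ns2
  have cxw : w * x * w⁻¹ = x := by
    have := comm_VB_of (fun m hm => hx3.2 m hm) hw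
    rw [← this]; group
  have hwc : ∀ m, x ∈ Γ.Q m ↔ x ∈ Γ.Q (w • m) := by
    intro m
    constructor
    · intro h
      have := conj_mem_Q h w
      rwa [cxw] at this
    · intro h
      rw [mem_Q_smul] at h
      have e : w⁻¹ * x * w = x := by
        calc w⁻¹ * x * w = w⁻¹ * (w * x * w⁻¹) * w := by rw [cxw]
          _ = x := by group
      rwa [e] at h
  have claim1 : ∀ m m', Γ.A p0 m → Γ.A p0 m' → m ≠ p1 → m' ≠ p1 → x ∈ Γ.Q m → x ∈ Γ.Q m' := by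
    intro m m' hm hm' nm nm' hxm
    by_contra hxm'
    have tm := ty2 h0 hm hty
    obtain ⟨v, hv, hvQ⟩ := H.exists_v3 h0 hm nm.symm hty
    obtain ⟨v1, v2, v3, v4, v5⟩ := H.moved h12 h0 hm n02.symm hty hv hvQ
    have vs : v • p2 = s0 := third_unique h12 h0 v5 hs0 n02.symm v3 v4 ns2 n0s.symm
    obtain ⟨c, hc, e⟩ := H.cr.co.VB_act tm hxm (inv_mem hv)
    have e1 : v * x * v⁻¹ = c * x := by
      calc v * x * v⁻¹ = v * (x * v⁻¹ * x⁻¹) * x := by group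
        _ = v * (v⁻¹ * c) * x := by rw [e]
        _ = c * x := by group
    have A3 : Γ.A s0 (v • p3) := by
      have := Γ.smul v h3
      rwa [vs] at this
    have A3' : Γ.A s0 (v • p3') := by
      have := Γ.smul v h3'
      rwa [vs] at this
    have N3 : p1 ≠ v • p3 := by
      intro h; rw [← v1] at h; exact n13 (MulAction.injective v h)
    have N3' : p1 ≠ v • p3' := by
      intro h; rw [← v1] at h; exact n13' (MulAction.injective v h)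
    have N33 : v • p3 ≠ v • p3' := fun h => n33 (MulAction.injective v h)
    have k3 : c * x ∈ Γ.Q (v • p3) := by rw [← e1]; exact conj_mem_Q hx3.1 v
    have k3' : c * x ∈ Γ.Q (v • p3') := by rw [← e1]; exact conj_mem_Q hx3' v
    have B : ∀ q, Γ.A p0 q → q ≠ p1 → w • q = v • p3 ∨ w • q = v • p3' := by
      intro q hq nq
      have A4 : Γ.A s0 (w • q) := by
        have := Γ.smul w hq
        rwa [ws] at this
      rcases eq_or (Γ.symm hs0) A3 A3' A4 N3 N3' N33 with h | h | h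
      · exfalso; rw [← w1] at h; exact nq (MulAction.injective w h)
      · exact Or.inl h
      · exact Or.inr h
    have x1 : x ∈ Γ.Q (w • m) := (hwc m).1 hxm
    have x2 : x ∉ Γ.Q (w • m') := fun h => hxm' ((hwc m').2 h)
    rcases (H.cr.hr m tm).2 c hc with h | h
    · rw [h, one_mul] at k3 k3'
      rcases B m' hm' nm' with h' | h'
      · rw [h'] at x2; exact x2 k3
      · rw [h'] at x2; exact x2 k3'
    · rw [h] at k3 k3'
      have f3 : r m ∉ Γ.Q (v • p3) := H.far (Γ.symm hm) (Γ.symm h0) hs0 A3 nm n0s N3 tm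
      have f3' : r m ∉ Γ.Q (v • p3') := H.far (Γ.symm hm) (Γ.symm h0) hs0 A3' nm n0s N3' tm
      rcases B m hm nm with h' | h'
      · rw [h'] at x1; exact f3 ((mul_mem_cancel_right x1).1 k3)
      · rw [h'] at x1; exact f3' ((mul_mem_cancel_right x1).1 k3')
  obtain ⟨m, hm, nm⟩ := exists_ne (Γ.symm h0)
  have rp1 : r p1 ∈ Γ.ZZ p2 := H.cr.r_mem_ZZ h1 hty
  have rp3 : r p3 ∈ Γ.ZZ p2 := H.cr.r_mem_ZZ h3 t3
  by_cases hxm : x ∈ Γ.Q m
  · have hD : x ∈ Γ.D3 p1 := by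
      refine ⟨hx1, fun l q hl hq => ?_⟩
      by_cases hq1 : q = p1
      · rw [hq1]; exact hx1.1
      rcases hall l hl with rfl | rfl | rfl
      · rcases eq_or h1 h3 h3' hq n13 n13' n33 with rfl | rfl | rfl
        · exact hx1.1
        · exact hx3.1
        · exact hx3'
      · exact claim1 m q hm hq nm hq1 hxm
      · have e2 : Γ.A p0 (w⁻¹ • q) := by
          have := Γ.smul w⁻¹ hq
          rwa [← ws, inv_smul_smul] at this
        have e3 : w⁻¹ • q ≠ p1 := by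
          intro h
          rw [← inv_fix w1] at h
          exact hq1 (MulAction.injective _ h)
        have := (hwc _).1 (claim1 m _ hm e2 nm e3 hxm)
        rwa [smul_inv_smul] at this
    rcases H.D3_eq hty hD with h | h
    · rw [h]; exact one_mem _
    · rw [h]; exact rp1
  · have hnot : ∀ q, Γ.A p0 q → q ≠ p1 → x ∉ Γ.Q q := fun q hq nq h => hxm (claim1 q m hq hm nq nm h)
    have rD : r p3 ∈ Γ.D p1 := H.VB_le_D hty (ZZ_le_VB h12 rp3)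
    have rQ3' : r p3 ∈ Γ.Q p3' := H.cr.co.cb.ZZ_le_Q_nbr (CB.ty_nbr' hty h12) h3' rp3
    have hD : x * r p3 ∈ Γ.D3 p1 := by
      refine ⟨mul_mem hx1 rD, fun l q hl hq => ?_⟩
      by_cases hq1 : q = p1
      · rw [hq1]; exact mul_mem hx1.1 rD.1
      have haux : l ≠ p2 → x ∉ Γ.Q q → x * r p3 ∈ Γ.Q q := by
        intro hl2 hxq
        have f : r p3 ∉ Γ.Q q := H.far (Γ.symm h3) h1 hl hq n13.symm (Ne.symm hl2) (Ne.symm hq1) t3
        exact mul_mem_Q (Γ.symm hq) (Q_le_T' hq (hx1.2 l hl)) (Q_le_T' hq (rD.2 l hl)) hxq f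
      rcases hall l hl with rfl | rfl | rfl
      · rcases eq_or h1 h3 h3' hq n13 n13' n33 with rfl | rfl | rfl
        · exact mul_mem hx1.1 rD.1
        · exact mul_mem hx3.1 (H.cr.R.mem_Q_self t3)
        · exact mul_mem hx3' rQ3'
      · exact haux n02 (hnot q hq hq1)
      · apply haux ns2
        have e2 : Γ.A p0 (w⁻¹ • q) := by
          have := Γ.smul w⁻¹ hq
          rwa [← ws, inv_smul_smul] at this
        have e3 : w⁻¹ • q ≠ p1 := by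
          intro h
          rw [← inv_fix w1] at h
          exact hq1 (MulAction.injective _ h)
        intro h
        apply hnot _ e2 e3
        rw [hwc, smul_inv_smul]; exact h
    have e4 : x = (x * r p3) * (r p3)⁻¹ := by group
    rw [e4]
    refine mul_mem ?_ (inv_mem rp3)
    rcases H.D3_eq hty hD with h | h
    · rw [h]; exact one_mem _
    · rw [h]; exact rp1

/-- Step 1 -/
theorem step1 {p1 p2 p3 p3' : V} (h1 : Γ.A p2 p1) (h3 : Γ.A p2 p3) (h3' : Γ.A p2 p3') (n13 : p1 ≠ p3)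
    (n13' : p1 ≠ p3') (n33 : p3 ≠ p3') (hty : Γ.ty p1 = τ) (hx1 : x ∈ Γ.D p1) (hx3 : x ∈ Γ.D p3) :
    x ∈ Γ.Q p3' := by
  by_contra hxQ
  have h12 := Γ.symm h1
  have t3 := ty2 h12 h3 hty
  have t3' := ty2 h12 h3' hty
  have t2 := CB.ty_nbr' hty h12
  obtain ⟨g, g2, g3', g1, g3⟩ := Γ.swap h3' h1 h3 n13'.symm n33.symm n13
  have hx2 : x ∈ Γ.Q p2 := hx1.2 p2 h12
  -- the second element
  have hw1 : g * x * g⁻¹ ∈ Γ.D p1 := conj_mem_D_of_eq hx3 g3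
  have hw3 : g * x * g⁻¹ ∈ Γ.D p3 := conj_mem_D_of_eq hx1 g1
  have hwQ : g * x * g⁻¹ ∉ Γ.Q p3' := by
    intro h
    have := conj_mem_Q_of_fix h (inv_fix g3')
    have e : g⁻¹ * (g * x * g⁻¹) * g⁻¹⁻¹ = x := by group
    rw [e] at this
    exact hxQ this
  have hprod : g * x * g⁻¹ * x ∈ Γ.Q p3' :=
    mul_mem_Q (Γ.symm h3') (Q_le_T' h3' (hw1.2 p2 h12)) (Q_le_T' h3' hx2) hwQ hxQ
  have hZ : g * x * g⁻¹ * x ∈ Γ.ZZ p2 :=
    H.step2 h1 h3 h3' n13 n13' n33 hty (mul_mem hw1 hx1) (mul_mem hw3 hx3) hprod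
  obtain ⟨l', l'', hl', hl'', nl', nl'', nll, -⟩ := exists_others (Γ.symm h3')
  obtain ⟨q, hq, nq⟩ := exists_ne (Γ.symm hl')
  have tq := ty2 hl' hq t3'
  have sx := swap_of_not_mem (hx2.2 _ h3') (Γ.symm h3') hl' hl'' nl'.symm nl''.symm nll hx2.1 hxQ
  have x3' : x • p3' = p3' := hx2.2 _ h3'
  have Axq : Γ.A l'' (x • q) := by
    have := Γ.smul x hq
    rwa [sx.1] at this
  have Nxq : x • q ≠ p3' := by
    intro h
    rw [← x3'] at h
    exact nq (MulAction.injective x h)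
  have m13 : r p1 * r p3' = r p3 := H.cr.R.mul p2 p1 p3' p3 h1 h3' h3 n13' n13 n33.symm hty
  have rp1 : r p1 ∈ Γ.ZZ p2 := H.cr.r_mem_ZZ h1 hty
  have rp3 : r p3 ∈ Γ.ZZ p2 := H.cr.r_mem_ZZ h3 t3
  -- the element `e`
  have hex : ∃ e ∈ Γ.ZZ p2, (e = r p1 ∨ e = r p3) ∧ x * r q * x⁻¹ = r q * e := by
    rw [H.cr.R.conj q x tq]
    rcases H.e8 hl' hl'' (Γ.symm h3') nll nl' nl'' hq Axq h1 nq Nxq n13' t3' with h | h
    · refine ⟨r p1, rp1, Or.inl rfl, ?_⟩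
      rw [← h, ← mul_assoc, H.cr.R.sq q tq, one_mul]
    · refine ⟨r p3, rp3, Or.inr rfl, ?_⟩
      rw [← m13, ← h, ← mul_assoc, H.cr.R.sq q tq, one_mul]
  obtain ⟨e, heZ, he, hxe⟩ := hex
  have hqV : r q ∈ Γ.VB p3' := H.cr.r_mem_VB hl' hq t3'
  have hW : ∀ v' ∈ Γ.VB p3', v' ∉ Γ.ZZ p2 → x * v' * x⁻¹ = v' * e := by
    intro v' hv' hv'Z
    obtain ⟨a, ha, h | h⟩ := H.VB_mem (Γ.symm h3') hl' nl'.symm hq nq t3' hv'
    · exact absurd (by rw [h]; exact ha) hv'Z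
    · have c1 : a * x = x * a := ZZ_comm ha hx2
      rw [h]
      calc x * (a * r q) * x⁻¹ = (x * a) * r q * x⁻¹ := by group
        _ = a * (x * r q * x⁻¹) := by rw [← c1]; group
        _ = a * r q * e := by rw [hxe]; group
  have hqZ : r q ∉ Γ.ZZ p2 := by
    intro h
    exact H.far (Γ.symm hq) (Γ.symm hl') (Γ.symm h3') h1 nq nl' n13'.symm tq
      (H.cr.co.cb.ZZ_le_Q_nbr t2 h1 h)
  -- the second element acts
  have hW2 : (g * x * g⁻¹) * (r q * e) * (g * x * g⁻¹)⁻¹ = r q * e * (g * e * g⁻¹) := by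
    have k1 : r q * e ∈ Γ.VB p3' := mul_mem hqV (ZZ_le_VB (Γ.symm h3') heZ)
    have k2 : g⁻¹ * (r q * e) * g⁻¹⁻¹ ∈ Γ.VB p3' := conj_mem_VB_of_eq k1 (inv_fix g3')
    have k3 : g⁻¹ * (r q * e) * g⁻¹⁻¹ ∉ Γ.ZZ p2 := by
      intro h
      have := conj_mem_ZZ_of_eq h g2
      have e' : g * (g⁻¹ * (r q * e) * g⁻¹⁻¹) * g⁻¹ = r q * e := by group
      rw [e'] at this
      exact hqZ ((mul_mem_cancel_right heZ).1 this)
    have k4 := hW _ k2 k3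
    calc (g * x * g⁻¹) * (r q * e) * (g * x * g⁻¹)⁻¹
        = g * (x * (g⁻¹ * (r q * e) * g⁻¹⁻¹) * x⁻¹) * g⁻¹ := by group
      _ = g * ((g⁻¹ * (r q * e) * g⁻¹⁻¹) * e) * g⁻¹ := by rw [k4]
      _ = r q * e * (g * e * g⁻¹) := by group
  have hfin : r q = r q * e * (g * e * g⁻¹) := by
    have c1 : (g * x * g⁻¹ * x) * r q = r q * (g * x * g⁻¹ * x) :=
      H.cr.co.ZZ_VB_comm t3' (Γ.symm h3') hZ hqV
    calc r q = (r q * (g * x * g⁻¹ * x)) * (g * x * g⁻¹ * x)⁻¹ := by group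
      _ = ((g * x * g⁻¹ * x) * r q) * (g * x * g⁻¹ * x)⁻¹ := by rw [c1]
      _ = (g * x * g⁻¹) * (x * r q * x⁻¹) * (g * x * g⁻¹)⁻¹ := by group
      _ = (g * x * g⁻¹) * (r q * e) * (g * x * g⁻¹)⁻¹ := by rw [hxe]
      _ = r q * e * (g * e * g⁻¹) := hW2
  have h6 : e * (g * e * g⁻¹) = 1 := by
    rw [mul_assoc] at hfin
    exact left_eq_mul.1 hfin
  have c31 : r p3 * r p1 = r p1 * r p3 := H.cr.R.comm_nbr h3 h1 t3
  have h7 : r p1 * r p3 = 1 := by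
    rcases he with rfl | rfl
    · rwa [H.cr.R.conj p1 g hty, g1] at h6
    · rw [H.cr.R.conj p3 g t3, g3, c31] at h6
      exact h6
  have m2 : r p1 * r p3 = r p3' := H.cr.R.mul p2 p1 p3 p3' h1 h3 h3' n13 n13' n33 hty
  rw [m2] at h7
  exact H.cr.R.ne p3' t3' h7

theorem D_of_two {p l m : V} (hty : Γ.ty p = τ) (hl : Γ.A p l) (hm : Γ.A p m) (hlm : l ≠ m) (hxp : x ∈ Γ.Q p)
    (hxl : x ∈ Γ.Q l) (hxm : x ∈ Γ.Q m) : x ∈ Γ.D p := by
  refine ⟨hxp, fun n hn => ?_⟩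
  by_cases hnl : n = l
  · rw [hnl]; exact hxl
  by_cases hnm : n = m
  · rw [hnm]; exact hxm
  obtain ⟨ql, hql, nql⟩ := exists_ne (Γ.symm hl)
  obtain ⟨qm, hqm, nqm⟩ := exists_ne (Γ.symm hm)
  obtain ⟨qn, hqn, nqn⟩ := exists_ne (Γ.symm hn)
  have tl := ty2 hl hql hty
  have tm := ty2 hm hqm hty
  have tn := ty2 hn hqn hty
  have c0 : r p * x = x * r p := (H.cr.R.comm hty hxp.1).symm
  have c1 : r ql * x = x * r ql := ZZ_comm (H.cr.r_mem_ZZ hql tl) hxl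
  have c2 : r qm * x = x * r qm := ZZ_comm (H.cr.r_mem_ZZ hqm tm) hxm
  have c12 : (r ql * r qm) * x = x * (r ql * r qm) := by rw [mul_assoc, c2, ← mul_assoc, c1, mul_assoc]
  have c3 : r qn * x = x * r qn := by
    rcases H.e8 hl hm hn hlm (Ne.symm hnl) (Ne.symm hnm) hql hqm hqn nql nqm nqn hty with h | h
    · rw [← h]; exact c12
    · have e : r qn = (r ql * r qm) * r p := by
        rw [h, mul_assoc, H.cr.R.sq p hty, mul_one]
      rw [e, mul_assoc, c0, ← mul_assoc, c12, mul_assoc]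
  apply H.cr.co.cb.mem_Q_of_comm' hty hn hxp.1
  intro y hy
  obtain ⟨a, ha, b, hb, rfl⟩ := H.cr.co.cb.ZZ_decomp (CB.ty_nbr' hty hn) (Γ.symm hn) hqn nqn.symm hy
  have ca : x * a = a * x := ZB_comm ha hxp.1
  have cb : x * b = b * x := by
    rcases (H.cr.hr qn tn).2 b hb with rfl | rfl
    · simp
    · exact c3.symm
  rw [← mul_assoc, ca, mul_assoc, cb, mul_assoc]

theorem card_ZB {p : V} (hty : Γ.ty p = τ) : Nat.card (ZB G p) ≤ 2 := by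
  let f : Bool → ZB G p := fun b => if b then 1 else ⟨r p, H.r_ZB hty⟩
  have hf : Function.Surjective f := by
    rintro ⟨x, hx⟩
    rcases (H.cr.hr p hty).2 x hx with h | h
    · exact ⟨true, by simp only [f, if_true]; exact Subtype.ext h.symm⟩
    · exact ⟨false, by simp only [f]; exact Subtype.ext h.symm⟩
  have := Nat.card_le_card_of_surjective f hf
  simpa using this

theorem card_ZZ {l p q : V} (hl : Γ.ty l = !τ) (hp : Γ.A l p) (hq : Γ.A l q) (hpq : p ≠ q) :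
    Nat.card (Γ.ZZ l) ≤ 4 := by
  have tp := CB.ty_nbr hl hp
  have tq := CB.ty_nbr hl hq
  have fp : Finite (ZB G p) := finSub Γ p fun x hx => (mem_ZB.1 hx).1
  have fq : Finite (ZB G q) := finSub Γ q fun x hx => (mem_ZB.1 hx).1
  let f : ZB G p × ZB G q → Γ.ZZ l := fun y => ⟨y.1 * y.2, mul_mem (H.cr.co.cb.ZB_le_ZZ tp hp y.1.2)
    (H.cr.co.cb.ZB_le_ZZ tq hq y.2.2)⟩
  have hf : Function.Surjective f := by
    rintro ⟨x, hx⟩
    obtain ⟨a, ha, b, hb, e⟩ := H.cr.co.cb.ZZ_decomp hl hp hq hpq hx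
    exact ⟨(⟨a, ha⟩, ⟨b, hb⟩), Subtype.ext e.symm⟩
  have h1 := Nat.card_le_card_of_surjective f hf
  rw [Nat.card_prod] at h1
  have h2 := Nat.mul_le_mul (H.card_ZB tp) (H.card_ZB tq)
  omega

/-- the bound in the case of critical distance three -/
theorem card_le (hvw : Γ.A v w) : Nat.card (T v w : Subgroup G) ≤ 128 := by
  obtain ⟨p1, hty⟩ : ∃ p, Γ.ty p = τ := by
    by_cases h : Γ.ty v = τ
    · exact ⟨v, h⟩
    · refine ⟨w, ?_⟩
      rw [Γ.ty_adj hvw]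
      cases hv : Γ.ty v <;> cases τ <;> simp_all
  obtain ⟨p2, h12⟩ := ex_adj Γ p1
  obtain ⟨p3, p3', h3, h3', n31, n31', n33, -⟩ := exists_others (Γ.symm h12)
  obtain ⟨p4, h4, n4⟩ := exists_ne (Γ.symm h3)
  obtain ⟨p0, h0, n0⟩ := exists_ne h12
  have h1 := Γ.symm h12
  have t3 := ty2 h12 h3 hty
  have t2 := CB.ty_nbr' hty h12
  rw [card_T_eq hvw h12]
  have hle : Γ.D p1 ⊓ Γ.D p3 ≤ Γ.ZZ p2 := by
    intro x hx
    exact H.step2 h1 h3 h3' n31.symm n31'.symm n33 hty hx.1 hx.2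
      (H.step1 h1 h3 h3' n31.symm n31'.symm n33 hty hx.1 hx.2)
  let E1 : Subgroup G := Γ.Q p3 ⊓ Γ.D p1
  let E2 : Subgroup G := Γ.Q p4 ⊓ E1
  have fin1 : ∀ L : Subgroup G, L ≤ Γ.Q p1 → Finite L := fun L hL => finSub Γ p1 fun x hx => (hL hx).1
  have finZ : Finite (Γ.ZZ p2) := finSub Γ p2 fun x hx => (H.cr.co.cb.np.ZZ_le_Q hx).1
  have c2 : Nat.card E2 ≤ 4 := by
    have h5 : E2 ≤ Γ.ZZ p2 := by
      intro x hx
      apply hle
      refine ⟨hx.2.2, ?_⟩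
      exact H.D_of_two t3 h4 (Γ.symm h3) n4 hx.2.1 hx.1 (hx.2.2.2 p2 h12)
    exact (Nat.card_le_card_of_injective (Subgroup.inclusion h5) (Subgroup.inclusion_injective _)).trans
      (H.card_ZZ t2 h1 h3 n31.symm)
  have e1 : Half E1 (Γ.D p1) := (half_Q' (Γ.symm h3)).inf_left (fun n hn => Q_le_T h3 (hn.2 p2 h12))
  have e2 : Half E2 E1 := (half_Q' (Γ.symm h4)).inf_left (fun n hn => Q_le_T h4 hn.1)
  have c1 := card_le_two_of_forall _ e2 (fin1 _ (fun x hx => hx.2.1)) c2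
  have c0 := card_le_two_of_forall _ e1 (fin1 _ (fun x hx => hx.1)) c1
  let F1 : Subgroup G := Γ.Q p2 ⊓ Γ.Q p1
  let F2 : Subgroup G := Γ.Q p0 ⊓ F1
  have d2 : Nat.card F2 ≤ 2 * (2 * 4) := by
    have h5 : F2 ≤ Γ.D p1 := fun x hx => H.D_of_two hty h0 h12 n0 hx.2.2 hx.1 hx.2.1
    have : Finite (Γ.D p1) := fin1 _ (fun x hx => hx.1)
    exact (Nat.card_le_card_of_injective (Subgroup.inclusion h5) (Subgroup.inclusion_injective _)).trans c0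
  have g1 : Half F1 (Γ.Q p1) := (half_Q' h1).inf_left (Q_le_T h12)
  have g2 : Half F2 F1 := (half_Q' (Γ.symm h0)).inf_left (fun n hn => Q_le_T h0 hn.2)
  have d1 := card_le_two_of_forall _ g2 (fin1 _ (fun x hx => hx.2)) d2
  have d0 := card_le_two_of_forall _ g1 (fin1 _ le_rfl) d1
  have := card_T_le h12 d0
  omega

end C3

end Tri

end Cfsg.Agent.H209
end

-- part: H209/TriMain
section
/-!
# The bound 128 for the edge stabilizers
-/

set_option autoImplicit false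

namespace Cfsg.Agent.H209

open MulAction

namespace Tri

variable {G V : Type*} [Group G] [MulAction G V]

theorem card_le_of_CB {Γ : Tri G V} {τ : Bool} {v w : V} (H : CB Γ τ) (hvw : Γ.A v w) :
    Nat.card (T v w : Subgroup G) ≤ 128 := by
  obtain ⟨v₀, hv₀⟩ : ∃ p, Γ.ty p = !τ := by
    by_cases h : Γ.ty v = !τ
    · exact ⟨v, h⟩
    · refine ⟨w, ?_⟩
      rw [Γ.ty_adj hvw]
      cases hv : Γ.ty v <;> cases τ <;> simp_all
  obtain ⟨a₀, ha₀⟩ := ex_adj Γ v₀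
  obtain ⟨n, hn0, ⟨p, hp, hty, hc⟩, hmin⟩ := exists_min (Γ := Γ) (fun v => Γ.ZZ v) (fun b => b = !τ) v₀ hv₀ (by
    obtain ⟨x, hx, hx1⟩ := H.ZB_ne (CB.ty_nbr hv₀ ha₀)
    exact ⟨x, H.ZB_le_ZZ (CB.ty_nbr hv₀ ha₀) ha₀ hx, hx1⟩)
  have hn2 : 2 ≤ n := by
    by_contra hcon
    have : n = 0 ∨ n = 1 := by omega
    rcases this with rfl | rfl
    · exact hc H.np.ZZ_le_Q
    · exact hc (H.ZZ_le_Q_nbr hty (hp.adj (k := 0) le_rfl (by omega)))
  by_cases hev : n % 2 = 0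
  · have := H.even_card hmin hn2 hev hp hty hc hvw
    omega
  have HO : CO Γ τ n := ⟨H, hmin, by omega, by omega⟩
  have hdich := HO.main_dichotomy hp hty hc
  have hG4 : G4 Γ τ n := by
    rcases hdich with ⟨j, -, hj, hFx⟩ | hM
    · exact HO.G4_of_Fx hj hFx
    · exact HO.G4_of_Mv hM
  obtain ⟨r, R, hr⟩ := HO.exists_r hG4 hp hty hc
  have HR : CR Γ τ n r := ⟨HO, R, hr, hG4, hdich⟩
  have h01 : Γ.A (p 0) (p 1) := hp.adj (k := 0) le_rfl (by omega)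
  have hB : BCr Γ τ n p 1 n := ⟨by ring, hp.sub (by omega) le_rfl, CB.ty_nbr hty h01, fun hle =>
    hc ((ZZ_le_VB (Γ.symm h01)).trans hle)⟩
  by_cases h7 : 7 ≤ n
  · exact absurd (HR.ge_seven h7 hB) id
  by_cases h5 : n = 5
  · subst h5
    exact absurd (HR.eq_five hB) id
  have h3 : n = 3 := by
    clear HR hr R hG4 hdich HO hmin hc hB
    omega
  subst h3
  exact C3.card_le ⟨HR, p, hp, hty, hc⟩ hvw

/-- **The bound.** -/
theorem card_le_128 (Γ : Tri G V) {v w : V} (hvw : Γ.A v w) : Nat.card (T v w : Subgroup G) ≤ 128 := by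
  rcases card_le_or_NP hvw with h | hNP
  · omega
  have hcen : ∀ v v', Γ.ty v = Γ.ty v' →
      (∀ a, Γ.A v a → ∀ z ∈ OZ (T v a : Subgroup G), ∀ g : G, g • v = v → g * z = z * g) →
      (∀ a, Γ.A v' a → ∀ z ∈ OZ (T v' a : Subgroup G), ∀ g : G, g • v' = v' → g * z = z * g) := by
    intro v v' hty h a ha z hz g hg
    obtain ⟨b, hb⟩ := ex_adj Γ v
    obtain ⟨k, hk, hkb⟩ := Γ.trans hb ha hty
    have h1 : k⁻¹ * z * k⁻¹⁻¹ ∈ OZ (T v b : Subgroup G) := by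
      have := conj_mem_OZ_T hz k⁻¹
      rwa [← hk, ← hkb, inv_smul_smul, inv_smul_smul] at this
    have h2 : (k⁻¹ * g * k) • v = v := by
      rw [mul_smul, mul_smul, hk, hg, ← hk, inv_smul_smul]
    have h3 := h b hb _ h1 _ h2
    calc g * z = k * ((k⁻¹ * g * k) * (k⁻¹ * z * k⁻¹⁻¹)) * k⁻¹ := by group
      _ = k * ((k⁻¹ * z * k⁻¹⁻¹) * (k⁻¹ * g * k)) * k⁻¹ := by rw [h3]
      _ = z * g := by group
  by_cases hall : ∀ v, ¬ (∀ a, Γ.A v a → ∀ z ∈ OZ (T v a : Subgroup G), ∀ g : G, g • v = v → g * z = z * g)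
  · have := CA.card_le ⟨hNP, hall⟩ hvw
    omega
  push Not at hall
  obtain ⟨v₁, hv₁⟩ := hall
  by_cases hall' : ∃ v₂, Γ.ty v₂ = !(Γ.ty v₁) ∧
      (∀ a, Γ.A v₂ a → ∀ z ∈ OZ (T v₂ a : Subgroup G), ∀ g : G, g • v₂ = v₂ → g * z = z * g)
  · -- both types central: the edge stabilizer is trivial
    exfalso
    obtain ⟨v₂, hv₂, hc₂⟩ := hall'
    obtain ⟨a, ha⟩ := ex_adj Γ v₁
    obtain ⟨t, ht, htQ⟩ := exists_T_not_mem_Q ha
    obtain ⟨z, hz, hz1⟩ := exists_OZ (finT Γ v₁ a) (isPGroup_T ha) ⟨t, ht, fun h => htQ (by rw [h]; exact one_mem _)⟩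
    have hca := hcen v₂ a (by rw [hv₂, Γ.ty_adj ha]) hc₂ v₁ (Γ.symm ha) z (by rw [T_comm]; exact hz)
    have hcv := hv₁ a ha z hz
    obtain ⟨hz1', hz2'⟩ := mem_T.1 hz.1
    apply hz1
    apply arc_bot_elt Γ z (p := fun k => if k = 0 then v₁ else a) (i := 0) (j := 1) (by omega)
    · refine ⟨fun k h1 h2 => ?_, fun k h1 h2 => by omega⟩
      have : k = 0 := by omega
      subst this
      simpa using ha
    · intro k h1 h2
      have : k = 0 ∨ k = 1 := by omega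
      rcases this with rfl | rfl
      · simpa using hz1'
      · simpa using hz2'
    · intro x hx
      have hx' : Γ.A v₁ x := by simpa using hx
      obtain ⟨g, hg, hgx⟩ := exists_trans ha hx'
      exact ⟨g, hcv g hg, 1, by omega, le_rfl, by simpa using hgx⟩
    · intro x hx
      have hx' : Γ.A a x := by simpa using hx
      obtain ⟨g, hg, hgx⟩ := exists_trans (Γ.symm ha) hx'
      exact ⟨g, hca g hg, 0, le_rfl, by omega, by simpa using hgx⟩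
    · intro k h1 h2; omega
  push Not at hall'
  refine card_le_of_CB (τ := Γ.ty v₁) ⟨hNP, fun p a hp ha z hz g hg => hcen v₁ p hp.symm hv₁ a ha z hz g hg, ?_⟩ hvw
  intro l hl hcon
  obtain ⟨a, ha, z, hz, g, hg, hne⟩ := hall' l hl
  exact hne (hcon a ha z hz g hg)

end Tri

end Cfsg.Agent.H209
end

-- part: H209/TriAmalgam
section
/-!
# The graph of an amalgam of type (3, 3)
-/

set_option autoImplicit false

namespace Cfsg.Agent.H209

open MulAction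

/-- the neighbours of a vertex, in an action of a group `N` inducing `S₃` -/
theorem nbr_data {X V : Type*} [Group X] [MulAction X V] (N : Subgroup X) (φ : N →* Equiv.Perm (Fin 3))
    (hsurj : Function.Surjective φ) (i₀ : Fin 3) (o' : V) (h : ∀ m : N, (m : X) • o' = o' ↔ φ m i₀ = i₀) :
    ∃ nb : Fin 3 → V, Function.Injective nb ∧ (∀ i, ∃ m ∈ N, nb i = m • o') ∧ (∀ m ∈ N, ∃ i, m • o' = nb i) ∧
      ∀ σ : Equiv.Perm (Fin 3), ∃ m ∈ N, ∀ i, m • nb i = nb (σ i) := by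
  have h1 : ∀ i : Fin 3, ∃ m : N, φ m i₀ = i := by
    intro i
    obtain ⟨m, hm⟩ := hsurj (Equiv.swap i₀ i)
    exact ⟨m, by rw [hm, Equiv.swap_apply_left]⟩
  choose f hf using h1
  have key : ∀ m m' : N, φ m i₀ = φ m' i₀ → (m : X) • o' = (m' : X) • o' := by
    intro m m' hmm
    have : φ (m'⁻¹ * m) i₀ = i₀ := by
      rw [map_mul, map_inv, Equiv.Perm.mul_apply, hmm]
      exact Equiv.symm_apply_apply (φ m') i₀
    have h2 := (h (m'⁻¹ * m)).2 this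
    push_cast at h2
    rw [mul_smul, inv_smul_eq_iff] at h2
    exact h2
  have key' : ∀ m m' : N, (m : X) • o' = (m' : X) • o' → φ m i₀ = φ m' i₀ := by
    intro m m' hmm
    have h2 : ((m'⁻¹ * m : N) : X) • o' = o' := by
      push_cast
      rw [mul_smul, hmm, inv_smul_smul]
    have h3 := (h (m'⁻¹ * m)).1 h2
    rw [map_mul, map_inv, Equiv.Perm.mul_apply, Equiv.Perm.inv_eq_iff_eq] at h3
    exact h3.symm ▸ rfl
  refine ⟨fun i => (f i : X) • o', ?_, fun i => ⟨f i, (f i).2, rfl⟩, ?_, ?_⟩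
  · intro i j hij
    have := key' _ _ hij
    rwa [hf, hf] at this
  · intro m hm
    exact ⟨φ ⟨m, hm⟩ i₀, key ⟨m, hm⟩ _ (hf _).symm⟩
  · intro σ
    obtain ⟨m, hm⟩ := hsurj σ
    refine ⟨m, m.2, fun i => ?_⟩
    have := key (m * f i) (f (σ i)) (by rw [map_mul, Equiv.Perm.mul_apply, hf, hf, hm])
    push_cast at this
    rw [mul_smul] at this
    exact this

/-- the data of an amalgam -/
structure Amal {X : Type*} [Group X] (N₁ N₂ : Subgroup X) (φ₁ : N₁ →* Equiv.Perm (Fin 3))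
    (φ₂ : N₂ →* Equiv.Perm (Fin 3)) (i₁ i₂ : Fin 3) : Prop where
  fin₁ : Finite N₁
  fin₂ : Finite N₂
  gen : N₁ ⊔ N₂ = ⊤
  s₁ : Function.Surjective φ₁
  s₂ : Function.Surjective φ₂
  h₁ : ∀ m : N₁, (m : X) ∈ N₂ ↔ φ₁ m i₁ = i₁
  h₂ : ∀ m : N₂, (m : X) ∈ N₁ ↔ φ₂ m i₂ = i₂
  two : IsPGroup 2 ↥(N₁ ⊓ N₂)
  bot : ∀ K : Subgroup X, K ≤ N₁ ⊓ N₂ → (∀ g ∈ N₁, ∀ k ∈ K, g * k * g⁻¹ ∈ K) → (∀ g ∈ N₂, ∀ k ∈ K, g * k * g⁻¹ ∈ K) →
    ∀ k ∈ K, k = 1

namespace Amal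

variable {X : Type*} [Group X] {N₁ N₂ : Subgroup X}

/-- the vertices -/
abbrev Vt (N₁ N₂ : Subgroup X) := (X ⧸ N₁) ⊕ (X ⧸ N₂)

/-- base vertices -/
def o₁ (N₁ N₂ : Subgroup X) : Vt N₁ N₂ := Sum.inl ((1 : X) : X ⧸ N₁)

def o₂ (N₁ N₂ : Subgroup X) : Vt N₁ N₂ := Sum.inr ((1 : X) : X ⧸ N₂)

theorem smul_o₁ (g : X) : g • o₁ N₁ N₂ = Sum.inl (g : X ⧸ N₁) := by
  unfold o₁
  rw [Sum.smul_inl]
  congr 1
  rw [Quotient.smul_coe, smul_eq_mul, mul_one]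

theorem smul_o₂ (g : X) : g • o₂ N₁ N₂ = Sum.inr (g : X ⧸ N₂) := by
  unfold o₂
  rw [Sum.smul_inr]
  congr 1
  rw [Quotient.smul_coe, smul_eq_mul, mul_one]

theorem fix_o₁ (g : X) : g • o₁ N₁ N₂ = o₁ N₁ N₂ ↔ g ∈ N₁ := by
  rw [smul_o₁]
  unfold o₁
  rw [Sum.inl.injEq, QuotientGroup.eq, mul_one]
  exact inv_mem_iff

theorem fix_o₂ (g : X) : g • o₂ N₁ N₂ = o₂ N₁ N₂ ↔ g ∈ N₂ := by
  rw [smul_o₂]
  unfold o₂
  rw [Sum.inr.injEq, QuotientGroup.eq, mul_one]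
  exact inv_mem_iff

theorem cases_vt (v : Vt N₁ N₂) : (∃ g : X, v = g • o₁ N₁ N₂) ∨ ∃ g : X, v = g • o₂ N₁ N₂ := by
  rcases v with x | y
  · left
    obtain ⟨g, rfl⟩ := QuotientGroup.mk_surjective x
    exact ⟨g, (smul_o₁ g).symm⟩
  · right
    obtain ⟨g, rfl⟩ := QuotientGroup.mk_surjective y
    exact ⟨g, (smul_o₂ g).symm⟩

theorem ne₁₂ (g h : X) : g • o₁ N₁ N₂ ≠ h • o₂ N₁ N₂ := by
  rw [smul_o₁, smul_o₂]
  exact Sum.inl_ne_inr

/-- adjacency -/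
def Adj (N₁ N₂ : Subgroup X) (v w : Vt N₁ N₂) : Prop :=
  ∃ g : X, (v = g • o₁ N₁ N₂ ∧ w = g • o₂ N₁ N₂) ∨ (v = g • o₂ N₁ N₂ ∧ w = g • o₁ N₁ N₂)

theorem adj₁ (g : X) (w : Vt N₁ N₂) : Adj N₁ N₂ (g • o₁ N₁ N₂) w ↔ ∃ m ∈ N₁, w = g • m • o₂ N₁ N₂ := by
  constructor
  · rintro ⟨h, ⟨h1, h2⟩ | ⟨h1, h2⟩⟩
    · refine ⟨g⁻¹ * h, ?_, ?_⟩
      · rw [← fix_o₁ (N₂ := N₂), mul_smul, ← h1, inv_smul_smul]
      · rw [h2, mul_smul, smul_inv_smul]
    · exact absurd h1 (ne₁₂ _ _)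
  · rintro ⟨m, hm, rfl⟩
    refine ⟨g * m, Or.inl ⟨?_, by rw [mul_smul]⟩⟩
    rw [mul_smul, (fix_o₁ m).2 hm]

theorem adj₂ (g : X) (w : Vt N₁ N₂) : Adj N₁ N₂ (g • o₂ N₁ N₂) w ↔ ∃ m ∈ N₂, w = g • m • o₁ N₁ N₂ := by
  constructor
  · rintro ⟨h, ⟨h1, h2⟩ | ⟨h1, h2⟩⟩
    · exact absurd h1.symm (ne₁₂ _ _)
    · refine ⟨g⁻¹ * h, ?_, ?_⟩
      · rw [← fix_o₂ (N₁ := N₁), mul_smul, ← h1, inv_smul_smul]
      · rw [h2, mul_smul, smul_inv_smul]
  · rintro ⟨m, hm, rfl⟩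
    refine ⟨g * m, Or.inr ⟨?_, by rw [mul_smul]⟩⟩
    rw [mul_smul, (fix_o₂ m).2 hm]

variable {φ₁ : N₁ →* Equiv.Perm (Fin 3)} {φ₂ : N₂ →* Equiv.Perm (Fin 3)} {i₁ i₂ : Fin 3}
  (H : Amal N₁ N₂ φ₁ φ₂ i₁ i₂)

include H

theorem nbrs (v : Vt N₁ N₂) : ∃ nb : Fin 3 → Vt N₁ N₂, Function.Injective nb ∧ (∀ w, Adj N₁ N₂ v w ↔ ∃ i, w = nb i) ∧
    ∀ σ : Equiv.Perm (Fin 3), ∃ g : X, g • v = v ∧ ∀ i, g • nb i = nb (σ i) := by
  rcases cases_vt v with ⟨g, rfl⟩ | ⟨g, rfl⟩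
  · obtain ⟨nb, hinj, h1, h2, h3⟩ := nbr_data N₁ φ₁ H.s₁ i₁ (o₂ N₁ N₂) (fun m => by rw [fix_o₂]; exact H.h₁ m)
    refine ⟨fun i => g • nb i, fun i j hij => hinj (MulAction.injective g hij), fun w => ?_, fun σ => ?_⟩
    · rw [adj₁]
      constructor
      · rintro ⟨m, hm, rfl⟩
        obtain ⟨i, hi⟩ := h2 m hm
        exact ⟨i, by rw [hi]⟩
      · rintro ⟨i, rfl⟩
        obtain ⟨m, hm, hi⟩ := h1 i
        exact ⟨m, hm, by show g • nb i = _; rw [hi]⟩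
    · obtain ⟨m, hm, hi⟩ := h3 σ
      refine ⟨g * m * g⁻¹, ?_, fun i => ?_⟩
      · rw [mul_smul, mul_smul, inv_smul_smul, (fix_o₁ m).2 hm]
      · rw [mul_smul, mul_smul, inv_smul_smul, hi]
  · obtain ⟨nb, hinj, h1, h2, h3⟩ := nbr_data N₂ φ₂ H.s₂ i₂ (o₁ N₁ N₂) (fun m => by rw [fix_o₁]; exact H.h₂ m)
    refine ⟨fun i => g • nb i, fun i j hij => hinj (MulAction.injective g hij), fun w => ?_, fun σ => ?_⟩
    · rw [adj₂]
      constructor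
      · rintro ⟨m, hm, rfl⟩
        obtain ⟨i, hi⟩ := h2 m hm
        exact ⟨i, by rw [hi]⟩
      · rintro ⟨i, rfl⟩
        obtain ⟨m, hm, hi⟩ := h1 i
        exact ⟨m, hm, by show g • nb i = _; rw [hi]⟩
    · obtain ⟨m, hm, hi⟩ := h3 σ
      refine ⟨g * m * g⁻¹, ?_, fun i => ?_⟩
      · rw [mul_smul, mul_smul, inv_smul_smul, (fix_o₂ m).2 hm]
      · rw [mul_smul, mul_smul, inv_smul_smul, hi]

theorem connected (S : Set (Vt N₁ N₂)) (hne : S.Nonempty) (hcl : ∀ v ∈ S, ∀ w, Adj N₁ N₂ v w → w ∈ S) :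
    ∀ v, v ∈ S := by
  let K : Set X := {g | g • o₁ N₁ N₂ ∈ S ∧ g • o₂ N₁ N₂ ∈ S}
  have hK : ∀ g, (g • o₁ N₁ N₂ ∈ S ∨ g • o₂ N₁ N₂ ∈ S) → g ∈ K := by
    rintro g (h | h)
    · exact ⟨h, hcl _ h _ ⟨g, Or.inl ⟨rfl, rfl⟩⟩⟩
    · exact ⟨hcl _ h _ ⟨g, Or.inr ⟨rfl, rfl⟩⟩, h⟩
  let L : Subgroup X :=
    { carrier := {x | ∀ g, g ∈ K ↔ g * x ∈ K}
      one_mem' := fun g => by rw [mul_one]
      mul_mem' := by
        intro x y hx hy g
        rw [hx g, hy (g * x), mul_assoc]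
      inv_mem' := by
        intro x hx g
        rw [hx (g * x⁻¹), inv_mul_cancel_right] }
  have hL1 : N₁ ≤ L := by
    intro m hm g
    constructor
    · intro h
      apply hK; left
      rw [mul_smul, (fix_o₁ m).2 hm]; exact h.1
    · intro h
      apply hK; left
      have := h.1
      rwa [mul_smul, (fix_o₁ m).2 hm] at this
  have hL2 : N₂ ≤ L := by
    intro m hm g
    constructor
    · intro h
      apply hK; right
      rw [mul_smul, (fix_o₂ m).2 hm]; exact h.2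
    · intro h
      apply hK; right
      have := h.2
      rwa [mul_smul, (fix_o₂ m).2 hm] at this
  have hL : L = ⊤ := by
    rw [eq_top_iff, ← H.gen]
    exact sup_le hL1 hL2
  have hne' : ∃ g, g ∈ K := by
    obtain ⟨v, hv⟩ := hne
    rcases cases_vt v with ⟨g, rfl⟩ | ⟨g, rfl⟩
    · exact ⟨g, hK g (Or.inl hv)⟩
    · exact ⟨g, hK g (Or.inr hv)⟩
  obtain ⟨g, hg⟩ := hne'
  have hall : ∀ x, x ∈ K := by
    intro x
    have h1 : g⁻¹ * x ∈ L := by rw [hL]; exact Subgroup.mem_top _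
    have h2 := (h1 g).1 hg
    rwa [mul_inv_cancel_left] at h2
  intro v
  rcases cases_vt v with ⟨g, rfl⟩ | ⟨g, rfl⟩
  · exact (hall g).1
  · exact (hall g).2

/-- the graph -/
def tri : Tri X (Vt N₁ N₂) where
  A := Adj N₁ N₂
  ty := fun v => v.isLeft
  symm := by
    rintro v w ⟨g, ⟨h1, h2⟩ | ⟨h1, h2⟩⟩
    · exact ⟨g, Or.inr ⟨h2, h1⟩⟩
    · exact ⟨g, Or.inl ⟨h2, h1⟩⟩
  smul := by
    rintro k v w ⟨g, ⟨h1, h2⟩ | ⟨h1, h2⟩⟩
    · exact ⟨k * g, Or.inl ⟨by rw [h1, mul_smul], by rw [h2, mul_smul]⟩⟩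
    · exact ⟨k * g, Or.inr ⟨by rw [h1, mul_smul], by rw [h2, mul_smul]⟩⟩
  ty_smul := by
    rintro g (x | y) <;> rfl
  ty_adj := by
    rintro v w ⟨g, ⟨rfl, rfl⟩ | ⟨rfl, rfl⟩⟩
    · rw [smul_o₁, smul_o₂]; rfl
    · rw [smul_o₁, smul_o₂]; rfl
  trans := by
    rintro v w v' w' ⟨g, ⟨rfl, rfl⟩ | ⟨rfl, rfl⟩⟩ ⟨g', ⟨rfl, rfl⟩ | ⟨rfl, rfl⟩⟩ hty
    · exact ⟨g' * g⁻¹, by rw [mul_smul, inv_smul_smul], by rw [mul_smul, inv_smul_smul]⟩
    · exfalso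
      rw [smul_o₁, smul_o₂] at hty
      simp at hty
    · exfalso
      rw [smul_o₁, smul_o₂] at hty
      simp at hty
    · exact ⟨g' * g⁻¹, by rw [mul_smul, inv_smul_smul], by rw [mul_smul, inv_smul_smul]⟩
  three := by
    intro v
    obtain ⟨nb, hinj, hA, -⟩ := H.nbrs v
    refine ⟨nb 0, nb 1, nb 2, (hA _).2 ⟨0, rfl⟩, (hA _).2 ⟨1, rfl⟩, (hA _).2 ⟨2, rfl⟩, ?_, ?_, ?_, ?_⟩
    · intro h; exact absurd (hinj h) (by decide)
    · intro h; exact absurd (hinj h) (by decide)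
    · intro h; exact absurd (hinj h) (by decide)
    · intro w hw
      obtain ⟨i, rfl⟩ := (hA w).1 hw
      fin_cases i
      · exact Or.inl rfl
      · exact Or.inr (Or.inl rfl)
      · exact Or.inr (Or.inr rfl)
  swap := by
    intro v a b c ha hb hc hab hac hbc
    obtain ⟨nb, hinj, hA, hσ⟩ := H.nbrs v
    obtain ⟨i, rfl⟩ := (hA a).1 ha
    obtain ⟨j, rfl⟩ := (hA b).1 hb
    obtain ⟨k, rfl⟩ := (hA c).1 hc
    obtain ⟨g, hg, hg'⟩ := hσ (Equiv.swap j k)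
    refine ⟨g, hg, ?_, ?_, ?_⟩
    · rw [hg', Equiv.swap_apply_of_ne_of_ne (fun h => hab (by rw [h])) (fun h => hac (by rw [h]))]
    · rw [hg', Equiv.swap_apply_left]
    · rw [hg', Equiv.swap_apply_right]
  conn := H.connected
  faith := by
    let K : Subgroup X :=
      { carrier := {g | ∀ v : Vt N₁ N₂, g • v = v}
        one_mem' := fun v => one_smul _ v
        mul_mem' := by
          intro x y hx hy v
          rw [mul_smul, hy v, hx v]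
        inv_mem' := by
          intro x hx v
          rw [inv_smul_eq_iff]; exact (hx v).symm }
    have hK : ∀ k ∈ K, k = 1 := by
      apply H.bot K
      · intro k hk
        exact ⟨(fix_o₁ (N₂ := N₂) k).1 (hk _), (fix_o₂ (N₁ := N₁) k).1 (hk _)⟩
      · intro g _ k hk v
        rw [mul_smul, mul_smul, hk (g⁻¹ • v), smul_inv_smul]
      · intro g _ k hk v
        rw [mul_smul, mul_smul, hk (g⁻¹ • v), smul_inv_smul]
    exact fun g hg => hK g hg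
  fin := by
    intro v
    have := H.fin₁
    have := H.fin₂
    rcases cases_vt v with ⟨g, rfl⟩ | ⟨g, rfl⟩
    · refine Finite.of_injective (β := N₁) (fun x => ⟨g⁻¹ * x * g, ?_⟩) ?_
      · rw [← fix_o₁ (N₂ := N₂), mul_smul, mul_smul, inv_smul_eq_iff]
        exact mem_stabilizer_iff.1 x.2
      · intro x y hxy
        have := congrArg Subtype.val hxy
        simp only [mul_left_inj, mul_right_inj] at this
        exact Subtype.ext this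
    · refine Finite.of_injective (β := N₂) (fun x => ⟨g⁻¹ * x * g, ?_⟩) ?_
      · rw [← fix_o₂ (N₁ := N₁), mul_smul, mul_smul, inv_smul_eq_iff]
        exact mem_stabilizer_iff.1 x.2
      · intro x y hxy
        have := congrArg Subtype.val hxy
        simp only [mul_left_inj, mul_right_inj] at this
        exact Subtype.ext this
  two := by
    have key : ∀ (g x : X), x • g • o₁ N₁ N₂ = g • o₁ N₁ N₂ → x • g • o₂ N₁ N₂ = g • o₂ N₁ N₂ →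
        ∃ k : ℕ, x ^ 2 ^ k = 1 := by
      intro g x h1 h2
      have m1 : g⁻¹ * x * g ∈ N₁ := by
        rw [← fix_o₁ (N₂ := N₂), mul_smul, mul_smul, inv_smul_eq_iff]; exact h1
      have m2 : g⁻¹ * x * g ∈ N₂ := by
        rw [← fix_o₂ (N₁ := N₁), mul_smul, mul_smul, inv_smul_eq_iff]; exact h2
      obtain ⟨k, hk⟩ := H.two ⟨g⁻¹ * x * g, ⟨m1, m2⟩⟩
      refine ⟨k, ?_⟩
      have h3 : (g⁻¹ * x * g) ^ 2 ^ k = 1 := congrArg Subtype.val hk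
      have h4 : (g⁻¹ * x * g⁻¹⁻¹) ^ 2 ^ k = g⁻¹ * x ^ 2 ^ k * g⁻¹⁻¹ := conj_pow
      rw [inv_inv] at h4
      rw [h4] at h3
      calc x ^ 2 ^ k = g * (g⁻¹ * x ^ 2 ^ k * g) * g⁻¹ := by group
        _ = 1 := by rw [h3]; group
    rintro v w ⟨g, ⟨rfl, rfl⟩ | ⟨rfl, rfl⟩⟩ x
    · obtain ⟨k, hk⟩ := key g x (mem_stabilizer_iff.1 x.2.1) (mem_stabilizer_iff.1 x.2.2)
      exact ⟨k, Subtype.ext hk⟩
    · obtain ⟨k, hk⟩ := key g x (mem_stabilizer_iff.1 x.2.2) (mem_stabilizer_iff.1 x.2.1)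
      exact ⟨k, Subtype.ext hk⟩

theorem card_le : Nat.card ↥(N₁ ⊓ N₂) ≤ 128 := by
  have h1 := Tri.card_le_128 H.tri (v := o₁ N₁ N₂) (w := o₂ N₁ N₂)
    ⟨1, Or.inl ⟨(one_smul _ _).symm, (one_smul _ _).symm⟩⟩
  have h2 : (Tri.T (o₁ N₁ N₂) (o₂ N₁ N₂) : Subgroup X) = N₁ ⊓ N₂ := by
    ext x
    rw [Tri.mem_T, fix_o₁, fix_o₂]
    rfl
  rwa [h2] at h1

end Amal

end Cfsg.Agent.H209
end

-- part: S2751
section
set_option autoImplicit false
open Cfsg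

namespace Cfsg.Agent.S2751

open MulAction

theorem sq_of_fix : ∀ (σ : Equiv.Perm (Fin 3)) (i : Fin 3), σ i = i → σ * σ = 1 := by decide

/-- a subgroup containing a Sylow 2-subgroup as a point stabilizer of an action onto `S₃` -/
theorem data {G : Type*} [Group G] (M B : Subgroup G) [Finite M] (P : Sylow 2 M)
    (hP : (P : Subgroup M) = B.subgroupOf M) (e : M ⧸ Cfsg.pCore 2 M ≃* Equiv.Perm (Fin 3)) :
    ∃ φ : M →* Equiv.Perm (Fin 3), Function.Surjective φ ∧ ∃ i₀, ∀ m : M, (m : G) ∈ B ↔ φ m i₀ = i₀ := by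
  let φ : M →* Equiv.Perm (Fin 3) := e.toMonoidHom.comp (QuotientGroup.mk' (Cfsg.pCore 2 M))
  have hφ : ∀ m : M, φ m = 1 → m ∈ Cfsg.pCore 2 M := by
    intro m hm
    have h1 : e (QuotientGroup.mk' (Cfsg.pCore 2 M) m) = 1 := hm
    rw [map_eq_one_iff e e.injective] at h1
    exact (QuotientGroup.eq_one_iff m).1 h1
  have hs : Function.Surjective φ := e.surjective.comp (QuotientGroup.mk'_surjective _)
  letI : MulAction (P : Subgroup M) (Fin 3) := MulAction.compHom (Fin 3) (φ.comp (P : Subgroup M).subtype)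
  obtain ⟨i₀, hi₀⟩ := P.isPGroup'.nonempty_fixed_point_of_prime_not_dvd_card (Fin 3) (by
    rw [Nat.card_eq_fintype_card, Fintype.card_fin]; decide)
  have hfix : ∀ m ∈ (P : Subgroup M), φ m i₀ = i₀ := fun m hm => hi₀ ⟨m, hm⟩
  let St : Subgroup M := (stabilizer (Equiv.Perm (Fin 3)) i₀).comap φ
  have hSt : ∀ m, m ∈ St ↔ φ m i₀ = i₀ := by
    intro m
    show φ m ∈ stabilizer (Equiv.Perm (Fin 3)) i₀ ↔ _
    rw [mem_stabilizer_iff]
    rfl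
  have hp : IsPGroup 2 St := by
    rintro ⟨m, hm⟩
    have h1 : m * m ∈ Cfsg.pCore 2 M := by
      apply hφ
      rw [map_mul]
      exact sq_of_fix _ _ ((hSt m).1 hm)
    obtain ⟨k, hk⟩ := Cfsg.Agent.Lib.Cores.pCore_isPGroup (G := M) 2 ⟨m * m, h1⟩
    refine ⟨k + 1, ?_⟩
    apply Subtype.ext
    have h2 : (m * m) ^ 2 ^ k = 1 := congrArg Subtype.val hk
    show m ^ 2 ^ (k + 1) = 1
    rw [pow_succ, mul_comm, pow_mul, pow_two]
    exact h2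
  have hle : (P : Subgroup M) ≤ St := fun m hm => (hSt m).2 (hfix m hm)
  have heq := P.is_maximal' hp hle
  refine ⟨φ, hs, i₀, fun m => ?_⟩
  rw [← hSt]
  have h3 : m ∈ St ↔ m ∈ (P : Subgroup M) := by rw [heq]
  rw [h3, hP, Subgroup.mem_subgroupOf]

/-- Goldschmidt's bound for amalgams of index (3, 3): let M₁ and M₂ be finite subgroups of a group G such that M₁ ⊓ M₂ is a Sylow 2-subgroup of both M₁ and M₂, each quotient Mᵢ / O₂(Mᵢ) is isomorphic to the symmetric group of degree 3, and no nontrivial subgroup of M₁ ⊓ M₂ is normal in both M₁ and M₂. Then M₁ ⊓ M₂ has order at most 2^7. -/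
theorem result {G : Type*} [Group G] (M₁ M₂ : Subgroup G) [Finite M₁] [Finite M₂] (ha₁ : ∃ P : Sylow 2 M₁, (P : Subgroup M₁) = (M₁ ⊓ M₂).subgroupOf M₁) (ha₂ : ∃ P : Sylow 2 M₂, (P : Subgroup M₂) = (M₁ ⊓ M₂).subgroupOf M₂) (hb₁ : Nonempty (M₁ ⧸ Cfsg.pCore 2 M₁ ≃* Equiv.Perm (Fin 3))) (hb₂ : Nonempty (M₂ ⧸ Cfsg.pCore 2 M₂ ≃* Equiv.Perm (Fin 3))) (hc : ∀ N : Subgroup G, N ≤ M₁ ⊓ M₂ → (N.subgroupOf M₁).Normal → (N.subgroupOf M₂).Normal → N = ⊥) : Nat.card ↥(M₁ ⊓ M₂) ≤ 2 ^ 7 := by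
  obtain ⟨P₁, hP₁⟩ := ha₁
  obtain ⟨P₂, hP₂⟩ := ha₂
  obtain ⟨e₁⟩ := hb₁
  obtain ⟨e₂⟩ := hb₂
  obtain ⟨φ₁, s₁, i₁, h₁⟩ := data M₁ (M₁ ⊓ M₂) P₁ hP₁ e₁
  obtain ⟨φ₂, s₂, i₂, h₂⟩ := data M₂ (M₁ ⊓ M₂) P₂ hP₂ e₂
  let U : Subgroup G := M₁ ⊔ M₂
  have hle₁ : M₁ ≤ U := le_sup_left
  have hle₂ : M₂ ≤ U := le_sup_right
  let N₁ : Subgroup U := M₁.subgroupOf U
  let N₂ : Subgroup U := M₂.subgroupOf U
  let f₁ : N₁ ≃* M₁ := Subgroup.subgroupOfEquivOfLe hle₁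
  let f₂ : N₂ ≃* M₂ := Subgroup.subgroupOfEquivOfLe hle₂
  have hf₁ : ∀ m : N₁, ((f₁ m : M₁) : G) = ((m : U) : G) := fun m => rfl
  have hf₂ : ∀ m : N₂, ((f₂ m : M₂) : G) = ((m : U) : G) := fun m => rfl
  have H : H209.Amal N₁ N₂ (φ₁.comp f₁.toMonoidHom) (φ₂.comp f₂.toMonoidHom) i₁ i₂ := by
    refine ⟨?_, ?_, ?_, s₁.comp f₁.surjective, s₂.comp f₂.surjective, ?_, ?_, ?_, ?_⟩
    · exact Finite.of_equiv _ f₁.symm.toEquiv
    · exact Finite.of_equiv _ f₂.symm.toEquiv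
    · rw [← Subgroup.subgroupOf_sup hle₁ hle₂]
      exact Subgroup.subgroupOf_self _
    · intro m
      have h3 := h₁ (f₁ m)
      rw [hf₁] at h3
      show (m : U) ∈ M₂.subgroupOf U ↔ φ₁ (f₁ m) i₁ = i₁
      rw [← h3, Subgroup.mem_subgroupOf]
      constructor
      · exact fun h => ⟨m.2, h⟩
      · exact fun h => h.2
    · intro m
      have h3 := h₂ (f₂ m)
      rw [hf₂] at h3
      show (m : U) ∈ M₁.subgroupOf U ↔ φ₂ (f₂ m) i₂ = i₂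
      rw [← h3, Subgroup.mem_subgroupOf]
      constructor
      · exact fun h => ⟨h, m.2⟩
      · exact fun h => h.1
    · rintro ⟨x, hx⟩
      have h1 : (x : G) ∈ M₁ := hx.1
      have h2 : (x : G) ∈ M₂ := hx.2
      have h3 : (⟨(x : G), h1⟩ : M₁) ∈ (P₁ : Subgroup M₁) := by
        rw [hP₁, Subgroup.mem_subgroupOf]
        exact ⟨h1, h2⟩
      obtain ⟨k, hk⟩ := P₁.isPGroup' ⟨_, h3⟩
      refine ⟨k, ?_⟩
      apply Subtype.ext
      apply Subtype.ext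
      exact congrArg (fun t : (P₁ : Subgroup M₁) => ((t : M₁) : G)) hk
    · intro K hK hK1 hK2 k hk
      have h1 : K.map U.subtype = ⊥ := by
        apply hc
        · rintro _ ⟨x, hx, rfl⟩
          exact ⟨(hK hx).1, (hK hx).2⟩
        · refine ⟨fun n hn g => ?_⟩
          rw [Subgroup.mem_subgroupOf] at hn ⊢
          obtain ⟨x, hx, hxn⟩ := hn
          have h2 := hK1 ⟨g, hle₁ g.2⟩ g.2 x hx
          refine ⟨_, h2, ?_⟩
          have hxn' : (x : G) = (n : G) := hxn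
          show (g : G) * (x : G) * (g : G)⁻¹ = _
          rw [hxn']; rfl
        · refine ⟨fun n hn g => ?_⟩
          rw [Subgroup.mem_subgroupOf] at hn ⊢
          obtain ⟨x, hx, hxn⟩ := hn
          have h2 := hK2 ⟨g, hle₂ g.2⟩ g.2 x hx
          refine ⟨_, h2, ?_⟩
          have hxn' : (x : G) = (n : G) := hxn
          show (g : G) * (x : G) * (g : G)⁻¹ = _
          rw [hxn']; rfl
      have h2 : (k : G) ∈ K.map U.subtype := ⟨k, hk, rfl⟩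
      rw [h1, Subgroup.mem_bot] at h2
      exact Subtype.ext h2
  have hfin := H.card_le
  have h3 : Nat.card ↥(N₁ ⊓ N₂) = Nat.card ↥(M₁ ⊓ M₂) :=
    Nat.card_congr (Subgroup.subgroupOfEquivOfLe (show M₁ ⊓ M₂ ≤ U from inf_le_left.trans hle₁)).toEquiv
  rw [h3] at hfin
  simpa using hfin

end Cfsg.Agent.S2751
end
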