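import Mathlib
import Cfsg.Prelude.Def_LocalEven
import Cfsg.Agent.PLocal.ThompsonJ
import Cfsg.Agent.PLocal.ElemAbSup
import Cfsg.Agent.PLocal.ThompsonFrattini
import Cfsg.Agent.PLocal.S4ConFinal_mg
import Cfsg.Agent.PLocal.S4ConPside
import Cfsg.Prelude.Def_Local
import Cfsg.Agent.H210.Off.Dual
import Cfsg.Statements.S2753
set_option linter.all false

-- part: H210/TwoFac/EGroup
section
/-!
# E-groups inside an ambient group
-/

set_option autoImplicit false

namespace Cfsg.Agent.H210.TwoFac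

open Cfsg Subgroup
open Cfsg.Agent.PLocal.ThompsonJ

universe u v

section defs

variable {G : Type u} [Group G]

/-- the property in the definition of E-groups, for the action of `T` on `V` -/
def EProp (T V : Subgroup G) : Prop :=
  ∀ R ≤ T, ⁅R, R⁆ ≤ centralizer (V : Set G) → (∀ r ∈ R, r ^ 2 ∈ centralizer (V : Set G)) →
    ¬ R ≤ centralizer (V : Set G) →
      (Nat.card V) ^ 2 * (Nat.card ↥(R ⊓ centralizer (V : Set G))) ^ 3 >
          (Nat.card R) ^ 3 * (Nat.card ↥(V ⊓ centralizer (R : Set G))) ^ 2 ∧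
        Nat.card ↥⁅V, R⁆ * Nat.card ↥(R ⊓ centralizer (V : Set G)) > Nat.card R

/-- only the first inequality -/
def EPropA (T V : Subgroup G) : Prop :=
  ∀ R ≤ T, ⁅R, R⁆ ≤ centralizer (V : Set G) → (∀ r ∈ R, r ^ 2 ∈ centralizer (V : Set G)) →
    ¬ R ≤ centralizer (V : Set G) →
      (Nat.card R) ^ 3 * (Nat.card ↥(V ⊓ centralizer (R : Set G))) ^ 2 <
      (Nat.card V) ^ 2 * (Nat.card ↥(R ⊓ centralizer (V : Set G))) ^ 3

theorem EProp.mono {T T' V : Subgroup G} (h : EProp T V) (hT : T' ≤ T) : EProp T' V :=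
  fun R hR => h R (hR.trans hT)

theorem EProp.a {T V : Subgroup G} (h : EProp T V) : EPropA T V :=
  fun R hR h1 h2 h3 => (h R hR h1 h2 h3).1

/-- E-groups, seen in the ambient group -/
def EGrp (T : Subgroup G) : Prop :=
  ∀ V ≤ T, (∀ t ∈ T, ∀ v ∈ V, t * v * t⁻¹ ∈ V) → IsElementaryAbelian 2 V → EProp T V →
    T ≤ centralizer (V : Set G)

end defs

section transfer

variable {T : Type v} {G : Type u} [Group T] [Group G] {f : T →* G}

theorem mem_cen_map (hf : Function.Injective f) {V : Subgroup T} {t : T} :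
    f t ∈ centralizer (V.map f : Set G) ↔ t ∈ centralizer (V : Set T) := by
  rw [mem_centralizer_iff, mem_centralizer_iff]
  constructor
  · intro h v hv
    apply hf
    rw [map_mul, map_mul]
    exact h _ ⟨v, hv, rfl⟩
  · rintro h _ ⟨v, hv, rfl⟩
    rw [← map_mul, ← map_mul, h v hv]

theorem map_inf_cen (hf : Function.Injective f) (R V : Subgroup T) :
    R.map f ⊓ centralizer (V.map f : Set G) = (R ⊓ centralizer (V : Set T)).map f := by
  ext x
  constructor
  · rintro ⟨⟨r, hr, rfl⟩, h⟩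
    exact ⟨r, ⟨hr, (mem_cen_map hf).1 h⟩, rfl⟩
  · rintro ⟨r, ⟨hr, h⟩, rfl⟩
    exact ⟨⟨r, hr, rfl⟩, (mem_cen_map hf).2 h⟩

theorem map_le_cen_iff (hf : Function.Injective f) {R V : Subgroup T} :
    R.map f ≤ centralizer (V.map f : Set G) ↔ R ≤ centralizer (V : Set T) := by
  constructor
  · intro h r hr
    exact (mem_cen_map hf).1 (h ⟨r, hr, rfl⟩)
  · rintro h _ ⟨r, hr, rfl⟩
    exact (mem_cen_map hf).2 (h hr)

theorem eProp_map_iff (hf : Function.Injective f) (V : Subgroup T) :
    EProp f.range (V.map f) ↔ EProp ⊤ V := by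
  have key : ∀ R : Subgroup T, (⁅R.map f, R.map f⁆ ≤ centralizer (V.map f : Set G) ↔
        ⁅R, R⁆ ≤ centralizer (V : Set T)) ∧
      ((∀ r ∈ R.map f, r ^ 2 ∈ centralizer (V.map f : Set G)) ↔
        ∀ r ∈ R, r ^ 2 ∈ centralizer (V : Set T)) ∧
      (R.map f ≤ centralizer (V.map f : Set G) ↔ R ≤ centralizer (V : Set T)) ∧
      Nat.card (R.map f) = Nat.card R ∧ Nat.card (V.map f) = Nat.card V ∧
      Nat.card ↥(R.map f ⊓ centralizer (V.map f : Set G)) =
        Nat.card ↥(R ⊓ centralizer (V : Set T)) ∧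
      Nat.card ↥(V.map f ⊓ centralizer (R.map f : Set G)) =
        Nat.card ↥(V ⊓ centralizer (R : Set T)) ∧
      Nat.card ↥⁅V.map f, R.map f⁆ = Nat.card ↥⁅V, R⁆ := by
    intro R
    refine ⟨?_, ?_, map_le_cen_iff hf, card_map_of_injective hf, card_map_of_injective hf, ?_,
      ?_, ?_⟩
    · rw [← map_commutator]
      exact map_le_cen_iff hf
    · constructor
      · intro h r hr
        rw [← mem_cen_map hf, map_pow]
        exact h _ ⟨r, hr, rfl⟩
      · rintro h _ ⟨r, hr, rfl⟩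
        rw [← map_pow, mem_cen_map hf]
        exact h r hr
    · rw [map_inf_cen hf, card_map_of_injective hf]
    · rw [map_inf_cen hf, card_map_of_injective hf]
    · rw [← map_commutator, card_map_of_injective hf]
  constructor
  · intro h R _ h1 h2 h3
    obtain ⟨k1, k2, k3, k4, k5, k6, k7, k8⟩ := key R
    have h4 := h (R.map f) (by rintro _ ⟨r, _, rfl⟩; exact ⟨r, rfl⟩) (k1.2 h1) (k2.2 h2)
      (fun h5 => h3 (k3.1 h5))
    rwa [k4, k5, k6, k7, k8] at h4
  · intro h R hR h1 h2 h3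
    have hR' : (R.comap f).map f = R := map_comap_eq_self hR
    obtain ⟨k1, k2, k3, k4, k5, k6, k7, k8⟩ := key (R.comap f)
    rw [hR'] at k1 k2 k3 k4 k6 k7 k8
    rw [k4, k5, k6, k7, k8]
    exact h (R.comap f) le_top (k1.1 h1) (k2.1 h2) (fun h5 => h3 (k3.2 h5))

theorem isEGroup_iff_range (hf : Function.Injective f) : IsEGroup T ↔ EGrp f.range := by
  constructor
  · intro h V hV hn he hp
    have hV' : (V.comap f).map f = V := map_comap_eq_self hV
    have h1 : (V.comap f).Normal := by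
      refine ⟨fun v hv t => ?_⟩
      show f (t * v * t⁻¹) ∈ V
      rw [map_mul, map_mul, map_inv]
      exact hn _ ⟨t, rfl⟩ _ hv
    have h2 : IsElementaryAbelian 2 (V.comap f) := isElementaryAbelian_comap he hf
    rw [← hV', eProp_map_iff hf] at hp
    have h3 := h _ h1 h2 (fun R r1 r2 r3 => hp R le_top r1 r2 r3)
    rw [← hV']
    rintro _ ⟨t, rfl⟩
    rw [mem_cen_map hf, mem_centralizer_iff]
    intro v hv
    exact (mem_center_iff.1 (h3 hv) t).symm
  · intro h V hV he hp
    have h1 := h (V.map f) (by rintro _ ⟨r, _, rfl⟩; exact ⟨r, rfl⟩) (by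
      rintro _ ⟨t, rfl⟩ _ ⟨v, hv, rfl⟩
      exact ⟨t * v * t⁻¹, hV.conj_mem v hv t, by simp⟩) (isElementaryAbelian_map he f) (by
      rw [eProp_map_iff hf]
      exact fun R _ r1 r2 r3 => hp R r1 r2 r3)
    intro v hv
    rw [mem_center_iff]
    intro t
    have h2 := (mem_cen_map hf).1 (h1 ⟨t, rfl⟩)
    exact (mem_centralizer_iff.1 h2 v hv).symm

end transfer

section jh

variable {G : Type u} [Group G]

/-- `Ĵ(S)` in the ambient group -/
def jh (S : Subgroup G) : Subgroup G :=
  sSup {U | U ≤ S ∧ EGrp U ∧ thompsonSubgroupOf 2 S ≤ U}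

theorem jh_eq (S : Subgroup G) : (jHat ↥S).map S.subtype = jh S := by
  apply le_antisymm
  · rw [map_le_iff_le_comap]
    refine sSup_le ?_
    rintro U ⟨hU, hJ⟩
    rw [← map_le_iff_le_comap]
    refine le_sSup ⟨map_subtype_le U, ?_, ?_⟩
    · have h1 := (isEGroup_iff_range (f := S.subtype.comp U.subtype)
        (S.subtype_injective.comp U.subtype_injective)).1 hU
      rwa [MonoidHom.range_comp, range_subtype] at h1
    · exact map_mono hJ
  · refine sSup_le ?_
    rintro U ⟨hUS, hU, hJ⟩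
    have h1 : (U.subgroupOf S).map S.subtype = U := by
      rw [subgroupOf_map_subtype, inf_eq_left.2 hUS]
    rw [← h1]
    apply map_mono
    refine le_sSup ⟨?_, ?_⟩
    · rw [isEGroup_iff_range (f := S.subtype.comp (U.subgroupOf S).subtype)
        (S.subtype_injective.comp (U.subgroupOf S).subtype_injective), MonoidHom.range_comp,
        range_subtype, h1]
      exact hU
    · rw [← map_le_map_iff_of_injective S.subtype_injective, h1]
      exact hJ

theorem le_jh {S U : Subgroup G} (h1 : U ≤ S) (h2 : EGrp U) (h3 : thompsonSubgroupOf 2 S ≤ U) :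
    U ≤ jh S := le_sSup ⟨h1, h2, h3⟩

theorem jh_le (S : Subgroup G) : jh S ≤ S := sSup_le fun _ h => h.1

end jh

end Cfsg.Agent.H210.TwoFac
end

-- part: H210/TwoFac/Thompson
section
/-!
# The Thompson subgroup, unoffended normal subgroups, the Frattini argument
-/

set_option autoImplicit false

namespace Cfsg.Agent.H210.TwoFac

open Cfsg Subgroup
open Cfsg.Agent.PLocal.ThompsonJ Cfsg.Agent.PLocal.ElemAbSup

universe u

variable {G : Type u} [Group G]

/-- `A` is an elementary abelian subgroup of `S` of largest order. -/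
structure IsEA (S A : Subgroup G) : Prop where
  le : A ≤ S
  ea : IsElementaryAbelian 2 A
  max : ∀ B ≤ S, IsElementaryAbelian 2 B → Nat.card B ≤ Nat.card A

theorem isEA_map {S : Subgroup G} {A : Subgroup S} :
    IsEA S (A.map S.subtype) ↔ A ∈ maxElementaryAbelianSubgroups 2 S := by
  constructor
  · intro h
    refine ⟨(isElementaryAbelian_map_iff S.subtype_injective).1 h.ea, fun B hB => ?_⟩
    have h1 := h.max (B.map S.subtype) (map_subtype_le B) (isElementaryAbelian_map hB _)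
    rwa [card_map_of_injective S.subtype_injective, card_map_of_injective S.subtype_injective]
      at h1
  · rintro ⟨h1, h2⟩
    refine ⟨map_subtype_le A, isElementaryAbelian_map h1 _, fun B hB hB' => ?_⟩
    have h3 := h2 (B.subgroupOf S) (isElementaryAbelian_subgroupOf hB' S)
    have h4 : (B.subgroupOf S).map S.subtype = B := by
      rw [subgroupOf_map_subtype, inf_eq_left.2 hB]
    rw [card_map_of_injective S.subtype_injective, ← h4,
      card_map_of_injective S.subtype_injective]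
    exact h3

theorem jj_eq (S : Subgroup G) : thompsonSubgroupOf 2 S = sSup {A | IsEA S A} := by
  apply le_antisymm
  · rw [thompsonSubgroupOf_def, map_le_iff_le_comap]
    refine thompsonSubgroup_le fun A hA => ?_
    rw [← map_le_iff_le_comap]
    exact le_sSup (isEA_map.2 hA)
  · refine sSup_le fun A hA => ?_
    have h1 : (A.subgroupOf S).map S.subtype = A := by
      rw [subgroupOf_map_subtype, inf_eq_left.2 hA.le]
    rw [← h1]
    apply map_mono
    apply le_thompsonSubgroup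
    rw [← isEA_map, h1]
    exact hA

theorem IsEA.le_jj {S A : Subgroup G} (h : IsEA S A) : A ≤ thompsonSubgroupOf 2 S := by
  rw [jj_eq]
  exact le_sSup h

theorem jj_le {S K : Subgroup G} (h : ∀ A, IsEA S A → A ≤ K) : thompsonSubgroupOf 2 S ≤ K := by
  rw [jj_eq]
  exact sSup_le h

theorem exists_isEA [Finite G] (S : Subgroup G) : ∃ A, IsEA S A := by
  obtain ⟨A, hA⟩ := exists_maxElementaryAbelian 2 S
  exact ⟨_, isEA_map.2 hA⟩

theorem jj_eq_of_le [Finite G] {S T : Subgroup G} (h1 : T ≤ S)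
    (h2 : thompsonSubgroupOf 2 S ≤ T) : thompsonSubgroupOf 2 T = thompsonSubgroupOf 2 S := by
  obtain ⟨A₀, hA₀⟩ := exists_isEA S
  rw [jj_eq, jj_eq]
  congr 1
  ext A
  constructor
  · intro hA
    refine ⟨hA.le.trans h1, hA.ea, fun B hB hB' => ?_⟩
    exact (hA₀.max B hB hB').trans (hA.max A₀ (hA₀.le_jj.trans h2) hA₀.ea)
  · intro hA
    exact ⟨hA.le_jj.trans h2, hA.ea, fun B hB hB' => hA.max B (hB.trans h1) hB'⟩

/-- If `V` is an elementary abelian subgroup of `S` and no elementary abelian `R ≤ S` offends on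
`V`, then `V` lies in each elementary abelian subgroup of `S` of largest order. -/
theorem IsEA.le_cen [Finite G] {S V A : Subgroup G} (hA : IsEA S A) (hVS : V ≤ S)
    (hV : IsElementaryAbelian 2 V)
    (h : ∀ R ≤ S, IsElementaryAbelian 2 R → ¬ R ≤ centralizer (V : Set G) →
      Nat.card R * Nat.card ↥(V ⊓ centralizer (R : Set G)) <
        Nat.card V * Nat.card ↥(R ⊓ centralizer (V : Set G))) :
    A ≤ centralizer (V : Set G) := by
  by_contra hcon
  have h1 := h A hA.le hA.ea hcon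
  have hc : V ≤ centralizer ((A ⊓ centralizer (V : Set G) : Subgroup G) : Set G) := by
    intro v hv
    rw [mem_centralizer_iff]
    intro a ha
    exact (mem_centralizer_iff.1 ha.2 v hv).symm
  have h2 := hA.max ((A ⊓ centralizer (V : Set G)) ⊔ V) (sup_le (inf_le_left.trans hA.le) hVS)
    (isElementaryAbelian_sup (isElementaryAbelian_mono hA.ea inf_le_left) hV hc)
  have h3 := card_sup_mul_card_inf hc
  have h4 : Nat.card ↥(A ⊓ centralizer (V : Set G) ⊓ V) ≤
      Nat.card ↥(V ⊓ centralizer (A : Set G)) := by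
    apply Subgroup.card_le_of_le
    rintro x ⟨⟨hx, _⟩, hxV⟩
    refine ⟨hxV, mem_centralizer_iff.2 ?_⟩
    intro a ha
    exact isElementaryAbelian_comm hA.ea ha hx
  have h5 : Nat.card ↥(A ⊓ centralizer (V : Set G)) * Nat.card V ≤
      Nat.card A * Nat.card ↥(V ⊓ centralizer (A : Set G)) := by
    rw [← h3]
    exact Nat.mul_le_mul h2 h4
  rw [mul_comm] at h5
  omega

theorem IsEA.le_of_cen [Finite G] {S V A : Subgroup G} (hA : IsEA S A) (hVS : V ≤ S)
    (hV : IsElementaryAbelian 2 V) (h : A ≤ centralizer (V : Set G)) : V ≤ A := by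
  have hc : V ≤ centralizer (A : Set G) := by
    intro v hv
    rw [mem_centralizer_iff]
    intro a ha
    exact (mem_centralizer_iff.1 (h ha) v hv).symm
  have h1 := hA.max (A ⊔ V) (sup_le hA.le hVS) (isElementaryAbelian_sup hA.ea hV hc)
  have h2 : A = A ⊔ V := Subgroup.eq_of_le_of_card_ge le_sup_left h1
  rw [h2]
  exact le_sup_right

/-- conclusion for the Thompson subgroup -/
theorem jj_le_cen [Finite G] {S V : Subgroup G} (hVS : V ≤ S)
    (hV : IsElementaryAbelian 2 V)
    (h : ∀ R ≤ S, IsElementaryAbelian 2 R → ¬ R ≤ centralizer (V : Set G) →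
      Nat.card R * Nat.card ↥(V ⊓ centralizer (R : Set G)) <
        Nat.card V * Nat.card ↥(R ⊓ centralizer (V : Set G))) :
    thompsonSubgroupOf 2 S ≤ centralizer (V : Set G) ∧ V ≤ thompsonSubgroupOf 2 S := by
  refine ⟨jj_le fun A hA => hA.le_cen hVS hV h, ?_⟩
  obtain ⟨A, hA⟩ := exists_isEA S
  exact (hA.le_of_cen hVS hV (hA.le_cen hVS hV h)).trans hA.le_jj

theorem le_jj_of_le_cen [Finite G] {S V : Subgroup G} (hVS : V ≤ S)
    (hV : IsElementaryAbelian 2 V)
    (h : thompsonSubgroupOf 2 S ≤ centralizer (V : Set G)) : V ≤ thompsonSubgroupOf 2 S := by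
  obtain ⟨A, hA⟩ := exists_isEA S
  exact (hA.le_of_cen hVS hV (hA.le_jj.trans h)).trans hA.le_jj

/-- The Frattini argument, elementwise. -/
theorem frattini [Finite G] (S : Sylow 2 G) (K X : Subgroup G) [K.Normal]
    (hX : normalizer (((S : Subgroup G) ⊓ K : Subgroup G) : Set G) ≤ normalizer (X : Set G))
    (C : Subgroup G) (hC : K ≤ C) (g : G) :
    ∃ c ∈ C, ∃ n ∈ normalizer (X : Set G), g = c * n := by
  have : Fact (Nat.Prime 2) := ⟨Nat.prime_two⟩
  obtain ⟨P, hP⟩ := Cfsg.Agent.PLocal.ThompsonFrattini.exists_sylow_subgroupOf S K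
  have h1 := P.normalizer_sup_eq_top
  have h2 : (P : Subgroup K).map K.subtype = (S : Subgroup G) ⊓ K := by
    rw [hP, subgroupOf_map_subtype]
  rw [h2] at h1
  have h3 : g ∈ K ⊔ normalizer (((S : Subgroup G) ⊓ K : Subgroup G) : Set G) := by
    rw [sup_comm, h1]
    exact mem_top g
  rw [← SetLike.mem_coe, normal_mul, Set.mem_mul] at h3
  obtain ⟨c, hc, n, hn, rfl⟩ := h3
  exact ⟨c, hC hc, n, hX hn, rfl⟩

end Cfsg.Agent.H210.TwoFac
end

-- part: H210/TwoFac/Chain
section
/-!
# `Ĵ(S)` and the chain `T ≥ C_T(V) ≥ ...`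
-/

set_option autoImplicit false

namespace Cfsg.Agent.H210.TwoFac

open Cfsg Subgroup
open Cfsg.Agent.PLocal.ThompsonJ Cfsg.Agent.PLocal.ElemAbSup

universe u

variable {G : Type u} [Group G]

theorem ea_comm {R V : Subgroup G} (hR : IsElementaryAbelian 2 R) :
    ⁅R, R⁆ ≤ centralizer (V : Set G) ∧ ∀ r ∈ R, r ^ 2 ∈ centralizer (V : Set G) := by
  constructor
  · rw [commutator_le]
    intro a ha b hb
    rw [commutatorElement_def, isElementaryAbelian_comm hR ha hb, mul_inv_cancel_right,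
      mul_inv_cancel]
    exact one_mem _
  · intro r hr
    rw [isElementaryAbelian_pow hR hr]
    exact one_mem _

/-- the inequality with exponent `3/2` implies the one with exponent `1` -/
theorem lt_of_sq_lt {r v c d : ℕ} (hd : d ≤ r) (h : r ^ 3 * c ^ 2 < v ^ 2 * d ^ 3) :
    r * c < v * d := by
  by_contra hcon
  push Not at hcon
  have h1 : (v * d) ^ 2 * d ≤ (r * c) ^ 2 * r :=
    Nat.mul_le_mul (Nat.pow_le_pow_left hcon 2) hd
  have h2 : (v * d) ^ 2 * d = v ^ 2 * d ^ 3 := by ring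
  have h3 : (r * c) ^ 2 * r = r ^ 3 * c ^ 2 := by ring
  omega

theorem EPropA.offends [Finite G] {S V : Subgroup G} (h : EPropA S V) :
    ∀ R ≤ S, IsElementaryAbelian 2 R → ¬ R ≤ centralizer (V : Set G) →
      Nat.card R * Nat.card ↥(V ⊓ centralizer (R : Set G)) <
        Nat.card V * Nat.card ↥(R ⊓ centralizer (V : Set G)) := by
  intro R hR hR2 hne
  exact lt_of_sq_lt (Subgroup.card_le_of_le inf_le_left)
    (h R hR (ea_comm hR2).1 (ea_comm hR2).2 hne)

/-- an elementary abelian subgroup `V ≤ S` with property E lies in the centre of `J(S)` -/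
theorem EPropA.jj [Finite G] {S V : Subgroup G} (h : EPropA S V) (hVS : V ≤ S)
    (hV : IsElementaryAbelian 2 V) :
    thompsonSubgroupOf 2 S ≤ centralizer (V : Set G) ∧ V ≤ thompsonSubgroupOf 2 S :=
  jj_le_cen hVS hV h.offends

/-- `Ĵ(S) = Ĵ(T)` for `T = C_S(V)` -/
theorem jh_inf_cen [Finite G] {S V : Subgroup G} (h : EProp S V) (hVS : V ≤ S)
    (hn : ∀ t ∈ S, ∀ v ∈ V, t * v * t⁻¹ ∈ V) (hV : IsElementaryAbelian 2 V) :
    thompsonSubgroupOf 2 S ≤ S ⊓ centralizer (V : Set G) ∧
      jh (S ⊓ centralizer (V : Set G)) = jh S := by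
  obtain ⟨h1, h2⟩ := h.a.jj hVS hV
  have h3 : thompsonSubgroupOf 2 S ≤ S ⊓ centralizer (V : Set G) :=
    le_inf (thompsonSubgroupOf_le_self 2 S) h1
  refine ⟨h3, ?_⟩
  unfold jh
  rw [jj_eq_of_le inf_le_left h3]
  congr 1
  ext U
  constructor
  · rintro ⟨k1, k2, k3⟩
    exact ⟨k1.trans inf_le_left, k2, k3⟩
  · rintro ⟨k1, k2, k3⟩
    refine ⟨le_inf k1 ?_, k2, k3⟩
    exact k2 V (h2.trans k3) (fun t ht => hn t (k1 ht)) hV (h.mono k1)

/-- the centre of `Ĵ(S)`, and its elements of order two -/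
def zz (H : Subgroup G) : Subgroup G := omegaOne 2 (H ⊓ centralizer (H : Set G))

theorem mem_zz {H : Subgroup G} {x : G} :
    x ∈ zz H ↔ x ∈ H ∧ x ∈ centralizer (H : Set G) ∧ x ^ 2 = 1 := by
  let Y : Subgroup G :=
    { carrier := {x | x ∈ H ∧ x ∈ centralizer (H : Set G) ∧ x ^ 2 = 1}
      one_mem' := ⟨one_mem _, one_mem _, one_pow _⟩
      mul_mem' := by
        rintro a b ⟨ha, ha', ha2⟩ ⟨hb, hb', hb2⟩
        refine ⟨mul_mem ha hb, mul_mem ha' hb', ?_⟩
        have h1 : Commute a b := mem_centralizer_iff.1 hb' a ha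
        rw [h1.mul_pow, ha2, hb2, one_mul]
      inv_mem' := by
        rintro a ⟨ha, ha', ha2⟩
        refine ⟨inv_mem ha, inv_mem ha', ?_⟩
        rw [inv_pow, ha2, inv_one] }
  constructor
  · intro h
    have h1 : zz H ≤ Y := (closure_le _).2 fun y hy => ⟨hy.1.1, hy.1.2, hy.2⟩
    exact h1 h
  · rintro ⟨h1, h2, h3⟩
    exact subset_closure ⟨⟨h1, h2⟩, h3⟩

theorem zz_le (H : Subgroup G) : zz H ≤ H := fun _ h => (mem_zz.1 h).1

theorem le_cen_zz (H : Subgroup G) : H ≤ centralizer (zz H : Set G) := by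
  intro x hx
  rw [mem_centralizer_iff]
  intro z hz
  exact (mem_centralizer_iff.1 (mem_zz.1 hz).2.1 x hx).symm

theorem zz_ea (H : Subgroup G) : IsElementaryAbelian 2 (zz H) := by
  rw [isElementaryAbelian_iff]
  refine ⟨fun a ha b hb => ?_, fun a ha => (mem_zz.1 ha).2.2⟩
  exact mem_centralizer_iff.1 (mem_zz.1 hb).2.1 a (mem_zz.1 ha).1

theorem le_zz {H V : Subgroup G} (hVH : V ≤ H) (hV : IsElementaryAbelian 2 V)
    (h : H ≤ centralizer (V : Set G)) : V ≤ zz H := by
  intro v hv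
  refine mem_zz.2 ⟨hVH hv, ?_, isElementaryAbelian_pow hV hv⟩
  rw [mem_centralizer_iff]
  intro x hx
  exact (mem_centralizer_iff.1 (h hx) v hv).symm

/-- The product step. -/
theorem epropA_step [Finite G] {S V Z : Subgroup G} (hVZ : V ≤ Z)
    (hZ : IsElementaryAbelian 2 Z) (h : EPropA S V)
    (h' : EPropA (S ⊓ centralizer (V : Set G)) Z) : EPropA S Z := by
  intro R hR hR1 hR2 hR3
  have hcz : centralizer (Z : Set G) ≤ centralizer (V : Set G) := centralizer_le hVZ
  set R₁ := R ⊓ centralizer (V : Set G) with hR₁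
  have hR₁R : R₁ ≤ R := inf_le_left
  have hd : R₁ ⊓ centralizer (Z : Set G) = R ⊓ centralizer (Z : Set G) := by
    rw [hR₁, inf_assoc, inf_eq_right.2 hcz]
  set a := Nat.card R with ha
  set a₁ := Nat.card R₁ with ha₁
  set d := Nat.card ↥(R ⊓ centralizer (Z : Set G)) with hd'
  set z := Nat.card Z with hz
  set z₁ := Nat.card ↥(Z ⊓ centralizer (R₁ : Set G)) with hz₁
  set z₂ := Nat.card ↥(Z ⊓ centralizer (R : Set G)) with hz₂
  set v := Nat.card V with hv
  set v₂ := Nat.card ↥(V ⊓ centralizer (R : Set G)) with hv₂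
  have pz : 0 < z := Nat.card_pos
  have pa₁ : 0 < a₁ := Nat.card_pos
  have pd : 0 < d := Nat.card_pos
  have pv : 0 < v := Nat.card_pos
  have pv₂ : 0 < v₂ := Nat.card_pos
  have pz₁ : 0 < z₁ := Nat.card_pos
  have pa : 0 < a := Nat.card_pos
  have hA : ¬ R₁ ≤ centralizer (Z : Set G) → a₁ ^ 3 * z₁ ^ 2 < z ^ 2 * d ^ 3 := by
    intro hne
    have h1 := h' R₁ (le_inf (hR₁R.trans hR) inf_le_right)
      ((commutator_mono hR₁R hR₁R).trans hR1) (fun r hr => hR2 r (hR₁R hr)) hne
    rwa [hd] at h1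
  have hA' : R₁ ≤ centralizer (Z : Set G) → a₁ = d ∧ z₁ = z := by
    intro hle
    constructor
    · rw [ha₁, hd', ← hd, inf_eq_left.2 hle]
    · have h1 : Z ⊓ centralizer (R₁ : Set G) = Z := inf_eq_left.2 (by
        intro y hy
        rw [mem_centralizer_iff]
        intro r hr
        exact (mem_centralizer_iff.1 (hle hr) y hy).symm)
      rw [hz₁, hz, h1]
  have hB : ¬ R ≤ centralizer (V : Set G) → a ^ 3 * v₂ ^ 2 < v ^ 2 * a₁ ^ 3 := by
    intro hne
    exact h R hR (hR1.trans hcz) (fun r hr => hcz (hR2 r hr)) hne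
  have hB' : R ≤ centralizer (V : Set G) → a₁ = a ∧ v₂ = v := by
    intro hle
    constructor
    · rw [ha₁, hR₁, inf_eq_left.2 hle]
    · have h1 : V ⊓ centralizer (R : Set G) = V := inf_eq_left.2 (by
        intro y hy
        rw [mem_centralizer_iff]
        intro r hr
        exact (mem_centralizer_iff.1 (hle hr) y hy).symm)
      rw [hv₂, hv, h1]
  have hC : z₂ * v ≤ z₁ * v₂ := by
    have hX : Z ⊓ centralizer (R : Set G) ≤ Z ⊓ centralizer (R₁ : Set G) :=
      inf_le_inf_left _ (centralizer_le hR₁R)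
    have hVX : V ≤ Z ⊓ centralizer (R₁ : Set G) := by
      refine le_inf hVZ ?_
      intro y hy
      rw [mem_centralizer_iff]
      intro r hr
      exact (mem_centralizer_iff.1 hr.2 y hy).symm
    have hc : V ≤ centralizer ((Z ⊓ centralizer (R : Set G) : Subgroup G) : Set G) := by
      intro y hy
      rw [mem_centralizer_iff]
      intro x hx
      exact isElementaryAbelian_comm hZ hx.1 (hVZ hy)
    have h1 := card_sup_mul_card_inf hc
    have h2 : Z ⊓ centralizer (R : Set G) ⊓ V = V ⊓ centralizer (R : Set G) := by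
      rw [inf_comm, ← inf_assoc, inf_eq_left.2 hVZ]
    rw [h2] at h1
    have h3 : Nat.card ↥(Z ⊓ centralizer (R : Set G) ⊔ V) ≤ z₁ :=
      Subgroup.card_le_of_le (sup_le hX hVX)
    calc z₂ * v = _ := h1.symm
      _ ≤ z₁ * v₂ := Nat.mul_le_mul_right _ h3
  have hC2 : (z₂ * v) ^ 2 ≤ (z₁ * v₂) ^ 2 := Nat.pow_le_pow_left hC 2
  -- the product of the inequalities
  have hAB : a₁ ^ 3 * z₁ ^ 2 * (a ^ 3 * v₂ ^ 2) < z ^ 2 * d ^ 3 * (v ^ 2 * a₁ ^ 3) := by
    by_cases h1 : R₁ ≤ centralizer (Z : Set G)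
    · have h2 : ¬ R ≤ centralizer (V : Set G) := by
        intro h2
        apply hR3
        have : R₁ = R := inf_eq_left.2 h2
        rwa [this] at h1
      obtain ⟨e1, e2⟩ := hA' h1
      have h3 := hB h2
      have h4 : a₁ ^ 3 * z₁ ^ 2 = z ^ 2 * d ^ 3 := by rw [e1, e2]; ring
      rw [h4]
      exact Nat.mul_lt_mul_of_pos_left h3 (by positivity)
    · have h3 := hA h1
      have h4 : a ^ 3 * v₂ ^ 2 ≤ v ^ 2 * a₁ ^ 3 := by
        by_cases h2 : R ≤ centralizer (V : Set G)
        · obtain ⟨e1, e2⟩ := hB' h2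
          rw [e1, e2]
          exact (mul_comm _ _).le
        · exact (hB h2).le
      calc a₁ ^ 3 * z₁ ^ 2 * (a ^ 3 * v₂ ^ 2) < z ^ 2 * d ^ 3 * (a ^ 3 * v₂ ^ 2) :=
            Nat.mul_lt_mul_of_pos_right h3 (by positivity)
        _ ≤ _ := Nat.mul_le_mul_left _ h4
  have h5 : a ^ 3 * (z₁ * v₂) ^ 2 < z ^ 2 * d ^ 3 * v ^ 2 := by
    have e1 : a₁ ^ 3 * z₁ ^ 2 * (a ^ 3 * v₂ ^ 2) = a₁ ^ 3 * (a ^ 3 * (z₁ * v₂) ^ 2) := by ring
    have e2 : z ^ 2 * d ^ 3 * (v ^ 2 * a₁ ^ 3) = a₁ ^ 3 * (z ^ 2 * d ^ 3 * v ^ 2) := by ring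
    rw [e1, e2] at hAB
    exact lt_of_mul_lt_mul_left hAB (Nat.zero_le _)
  have h6 : v ^ 2 * (a ^ 3 * z₂ ^ 2) < v ^ 2 * (z ^ 2 * d ^ 3) := by
    calc v ^ 2 * (a ^ 3 * z₂ ^ 2) = a ^ 3 * (z₂ * v) ^ 2 := by ring
      _ ≤ a ^ 3 * (z₁ * v₂) ^ 2 := Nat.mul_le_mul_left _ hC2
      _ < z ^ 2 * d ^ 3 * v ^ 2 := h5
      _ = v ^ 2 * (z ^ 2 * d ^ 3) := by ring
  exact lt_of_mul_lt_mul_left h6 (Nat.zero_le _)

/-- The chain. -/
theorem chain [Finite G] : ∀ (n : ℕ) (S : Subgroup G), Nat.card S = n →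
    EGrp (jh S) ∧ thompsonSubgroupOf 2 S ≤ jh S ∧ EPropA S (zz (jh S)) := by
  intro n
  induction n using Nat.strong_induction_on with
  | _ n ih =>
    intro S hn
    by_cases hE : EGrp S
    · have h1 : jh S = S := le_antisymm (jh_le S) (le_jh le_rfl hE (thompsonSubgroupOf_le_self 2 S))
      rw [h1]
      refine ⟨hE, thompsonSubgroupOf_le_self 2 S, ?_⟩
      intro R hR _ _ hR3
      exact absurd (hR.trans (le_cen_zz S)) hR3
    · unfold EGrp at hE
      push Not at hE
      obtain ⟨V, hVS, hVn, hV, hp, hne⟩ := hE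
      obtain ⟨h1, h2⟩ := jh_inf_cen hp hVS hVn hV
      have hlt : S ⊓ centralizer (V : Set G) < S := by
        refine lt_of_le_of_ne inf_le_left fun h => hne ?_
        exact inf_eq_left.1 h
      have hcard : Nat.card ↥(S ⊓ centralizer (V : Set G)) < n := by
        rw [← hn]
        rcases lt_or_eq_of_le (Subgroup.card_le_of_le hlt.le) with h | h
        · exact h
        · exact absurd (Subgroup.eq_of_le_of_card_ge hlt.le h.ge) hlt.ne
      obtain ⟨k1, k2, k3⟩ := ih _ hcard (S ⊓ centralizer (V : Set G)) rfl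
      rw [h2] at k1 k2 k3
      rw [jj_eq_of_le inf_le_left h1] at k2
      refine ⟨k1, k2, ?_⟩
      have h3 : V ≤ jh S := ((hp.a.jj hVS hV).2).trans k2
      have h4 : jh S ≤ centralizer (V : Set G) := by
        rw [← h2]
        exact (jh_le _).trans inf_le_right
      exact epropA_step (le_zz h3 hV h4) (zz_ea _) hp.a k3

end Cfsg.Agent.H210.TwoFac
end

-- part: H210/TwoFac/Df
section
/-!
# Stellmacher's functor: the largest good normal subgroup of a Sylow 2-subgroup is normal

For S2753 (Glauberman's 2-factorization), following a plan of helper223.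
-/

set_option autoImplicit false

namespace Cfsg.Agent.H210.TwoFac

open Cfsg
open Cfsg.Agent.PLocal
open Cfsg.Agent.PLocal.S4ConGroup (Df GdAx le_Df Df_le good_Df)
open Cfsg.Agent.PLocal.S4ConInst (Gd)
open Cfsg.Agent.PLocal.S4FreeSection (S4Free)

universe u

/-- The closure properties of good subgroups. -/
theorem ax : GdAx.{u} Gd.{u} :=
  S4ConInst.gdAx fun _ _ _ _ _ _ _ hexp hS3 T _ hU => S4FreeFlagG.good_iSup hexp hS3 T hU

/-- The functor. -/
abbrev dd {G : Type u} [Group G] (T : Subgroup G) : Subgroup G := Df Gd T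

theorem s4Free_of_not_involves {G : Type u} [Group G]
    (h : ¬ Involves (Equiv.Perm (Fin 4)) G) : S4Free G := h

theorem dd_normal {G : Type u} [Group G] [Finite G] (h4 : S4Free G)
    (hc : Subgroup.centralizer (pCore 2 G : Set G) ≤ pCore 2 G) (S : Sylow 2 G) :
    (dd (S : Subgroup G)).Normal :=
  S4ConGroup.normal_of_le ax h4 S (S4ConMin.main ax
    (fun P _ _ S _ hg hz => S4ConFinal.contra
      (fun _ _ _ _ _ _ h => S4ConPside.pside h) P S _ _ hg hz)
    (Nat.card G + 1) G (Nat.lt_succ_self _) h4 hc S)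

end Cfsg.Agent.H210.TwoFac
end

-- part: H210/TwoFac/Good
section
/-!
# The first inequality of property E implies that the module is good
-/

set_option autoImplicit false

namespace Cfsg.Agent.H210.TwoFac

open Cfsg Subgroup
open Cfsg.Agent.PLocal
open Cfsg.Agent.PLocal.ThompsonJ Cfsg.Agent.PLocal.ElemAbSup
open Cfsg.Agent.PLocal.S4FreeClosureBasic
open Cfsg.Agent.PLocal.S4FreeFlag (Good Flag cr cr_le rd)
open Cfsg.Agent.PLocal.S4ConInst (Gd)

universe u

variable {G : Type u} [Group G]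

theorem le_of_cube {r f z : ℕ} (h : r ^ 3 * f ^ 2 < z ^ 2) (h1 : 1 ≤ r) : r * f < z := by
  by_contra hcon
  push Not at hcon
  have h2 : z ^ 2 ≤ (r * f) ^ 2 := Nat.pow_le_pow_left hcon 2
  have h3 : (r * f) ^ 2 * 1 ≤ (r * f) ^ 2 * r := Nat.mul_le_mul_left _ h1
  have h4 : (r * f) ^ 2 * r = r ^ 3 * f ^ 2 := by ring
  omega

/-- A module on which `R` has large commutators: the flag is impossible. -/
theorem noflag_aux {S : Type*} [Group S] [Finite S] {V : Type*} [CommGroup V] [Finite V]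
    {φ : S →* MulAut V} (hexp : ∀ v : V, v * v = 1)
    (key : ∀ R : Subgroup S, (∀ a ∈ R, ∀ b ∈ R, ∀ v, φ a (φ b v) = φ b (φ a v)) →
      (∀ a ∈ R, ∀ v, φ a (φ a v) = v) → ¬ R ≤ cn φ ⊤ →
      ((cn φ ⊤).relIndex R) ^ 3 * (Nat.card (fx φ R)) ^ 2 < Nat.card V ^ 2)
    (B : Subgroup S) (E : Subgroup V) (hF : Flag φ B ⊤ E) : False := by
  classical
  set F := fx φ B with hFdef
  have hFE : F ≤ E := by
    have := hF.fx_le
    rwa [top_inf_eq] at this
  obtain ⟨u, -, huE⟩ := hF.exists_not_mem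
  -- the homomorphism `b ↦ [u, b]` modulo the fixed points
  have hmulc : ∀ a ∈ B, ∀ b ∈ B, (φ (a * b) u * u⁻¹) * ((φ a u * u⁻¹) * (φ b u * u⁻¹))⁻¹ ∈ F := by
    intro a ha b hb
    have h1 : φ (a * b) u * u⁻¹ = φ a (φ b u * u⁻¹) * (φ a u * u⁻¹) := by
      rw [map_mul, MulAut.mul_apply, map_mul, map_inv]
      group
    have h2 : φ a (φ b u * u⁻¹) * (φ b u * u⁻¹)⁻¹ ∈ F :=
      hF.comm' a ha _ (hF.comm b hb u (mem_top u))
    have h3 : (φ (a * b) u * u⁻¹) * ((φ a u * u⁻¹) * (φ b u * u⁻¹))⁻¹ =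
        φ a (φ b u * u⁻¹) * (φ b u * u⁻¹)⁻¹ := by
      rw [h1]
      generalize φ a (φ b u * u⁻¹) = x
      generalize φ b u * u⁻¹ = y
      generalize φ a u * u⁻¹ = w
      rw [mul_inv_rev, mul_assoc x w, ← mul_assoc w, mul_comm w, mul_inv_cancel_right]
    rw [h3]
    exact h2
  let f : B →* V ⧸ F :=
    { toFun := fun b => QuotientGroup.mk (φ b u * u⁻¹)
      map_one' := by
        rw [Subgroup.coe_one, map_one, MulAut.one_apply, mul_inv_cancel]
        rfl
      map_mul' := by
        intro a b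
        rw [← QuotientGroup.mk_mul, eq_comm, QuotientGroup.eq, mul_comm]
        exact hmulc a a.2 b b.2 }
  have hf : ∀ b : B, f b = QuotientGroup.mk (φ b u * u⁻¹) := fun _ => rfl
  have hker : ∀ b : B, f b = 1 ↔ (b : S) ∈ cn φ ⊤ := by
    intro b
    rw [hf, QuotientGroup.eq_one_iff]
    constructor
    · intro h
      exact hF.inj u (mem_top u) huE b b.2 h
    · intro h
      have h1 : φ (b : S) u = u := h u (mem_top u)
      rw [h1, mul_inv_cancel]
      exact one_mem _
  have hquot : ∀ q : V ⧸ F, q * q = 1 := by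
    intro q
    obtain ⟨v, rfl⟩ := QuotientGroup.mk_surjective q
    rw [← QuotientGroup.mk_mul, hexp]
    rfl
  have hB : ¬ B ≤ cn φ ⊤ := hF.not_le_cn
  have hk := key B (by
    intro a ha b hb v
    have h1 : f (⟨a, ha⟩⁻¹ * ⟨b, hb⟩⁻¹ * ⟨a, ha⟩ * ⟨b, hb⟩) = 1 := by
      rw [map_mul, map_mul, map_mul, map_inv, map_inv]
      generalize f ⟨a, ha⟩ = x
      generalize f ⟨b, hb⟩ = y
      rw [mul_comm x⁻¹, mul_assoc, mul_assoc, ← mul_assoc x⁻¹, inv_mul_cancel, one_mul,
        inv_mul_cancel]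
    have h2 := (hker _).1 h1
    have h3 : φ (a⁻¹ * b⁻¹ * a * b) v = v := h2 v (mem_top v)
    have h4 : φ (b * a) (φ (a⁻¹ * b⁻¹ * a * b) v) = φ (b * a) v := by rw [h3]
    rw [← MulAut.mul_apply, ← map_mul] at h4
    have h5 : b * a * (a⁻¹ * b⁻¹ * a * b) = a * b := by group
    rw [h5, map_mul, map_mul, MulAut.mul_apply, MulAut.mul_apply] at h4
    exact h4) (by
    intro a ha v
    have h1 : f (⟨a, ha⟩ * ⟨a, ha⟩) = 1 := by
      rw [map_mul]
      exact hquot _
    have h2 := (hker _).1 h1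
    have h3 : φ (a * a) v = v := h2 v (mem_top v)
    rwa [map_mul, MulAut.mul_apply] at h3) hB
  -- the order of `B / C_B(V)`
  have hrange : f.range = E.map (QuotientGroup.mk' F) := by
    apply le_antisymm
    · rintro _ ⟨b, rfl⟩
      exact ⟨_, hF.comm b b.2 u (mem_top u), rfl⟩
    · rintro _ ⟨e, he, rfl⟩
      obtain ⟨b, hb, hbe⟩ := hF.surj u (mem_top u) huE e he
      refine ⟨⟨b, hb⟩, ?_⟩
      rw [hf, QuotientGroup.mk'_apply, eq_comm, QuotientGroup.eq, mul_comm]
      exact hbe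
  have hcard : (cn φ ⊤).relIndex B = F.relIndex E := by
    have h1 : f.ker = (cn φ ⊤).subgroupOf B := by
      ext b
      rw [MonoidHom.mem_ker, hker, mem_subgroupOf]
    have h2 : (cn φ ⊤).relIndex B = Nat.card f.range := by
      rw [← Subgroup.index_ker, h1]
      rfl
    rw [h2, hrange]
    have h3 := Subgroup.relIndex_ker (f := QuotientGroup.mk' F) (K := E)
    rw [QuotientGroup.ker_mk'] at h3
    exact h3.symm
  -- `[E, B] ≠ 1`
  have hcr : cr φ B E ≠ ⊥ := by
    intro h
    apply hB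
    intro b hb
    apply hF.inj u (mem_top u) huE b hb
    intro b' hb'
    have h1 : φ b' (φ b u * u⁻¹) * (φ b u * u⁻¹)⁻¹ ∈ cr φ B E :=
      subset_closure ⟨b', hb', _, hF.comm b hb u (mem_top u), rfl⟩
    rw [h, mem_bot] at h1
    exact mul_inv_eq_one.1 h1
  -- a subgroup of index two
  obtain ⟨L, hL⟩ : ∃ L : Subgroup V, L.relIndex (cr φ B E) = 2 := by
    have h2 : IsPGroup 2 (cr φ B E) := by
      intro x
      exact ⟨1, by rw [pow_one, sq]; exact Subtype.ext (hexp x)⟩
    have hnt : Nontrivial (cr φ B E) := (Subgroup.nontrivial_iff_ne_bot _).2 hcr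
    have : Fact (Nat.Prime 2) := ⟨Nat.prime_two⟩
    obtain ⟨n, hn⟩ := h2.exists_card_eq
    have hn0 : n ≠ 0 := by
      rintro rfl
      have := Finite.one_lt_card (α := cr φ B E)
      rw [hn, pow_zero] at this
      omega
    obtain ⟨m, rfl⟩ := Nat.exists_eq_succ_of_ne_zero hn0
    obtain ⟨L₀, hL₀⟩ := Sylow.exists_subgroup_card_pow_prime (G := cr φ B E) 2 (n := m) (by
      rw [hn]
      exact pow_dvd_pow 2 (Nat.le_succ m))
    refine ⟨L₀.map (cr φ B E).subtype, ?_⟩
    have h3 : (L₀.map (cr φ B E).subtype).subgroupOf (cr φ B E) = L₀ :=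
      comap_map_eq_self_of_injective (cr φ B E).subtype_injective _
    show ((L₀.map (cr φ B E).subtype).subgroupOf (cr φ B E)).index = 2
    rw [h3]
    have h4 := L₀.index_mul_card
    rw [hn, hL₀, pow_succ'] at h4
    exact Nat.eq_of_mul_eq_mul_right (pow_pos two_pos m) h4
  have hidx := hF.index L hL
  have hle : (rd φ B E L).relIndex E ≤ F.relIndex E := by
    have h1 : F ≤ rd φ B E L := by
      intro e he
      refine ⟨hFE he, fun b hb => ?_⟩
      rw [he b hb, mul_inv_cancel]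
      exact one_mem _
    exact Subgroup.relIndex_le_of_le_left h1 Subgroup.index_ne_zero_of_finite
  -- orders
  have h1 : F.relIndex E * Nat.card F = Nat.card E := S4ConInst.relIndex_mul_card' hFE
  have h2 : E.relIndex ⊤ * Nat.card E = Nat.card V := by
    rw [Subgroup.relIndex_top_right]
    exact E.index_mul_card
  set d := F.relIndex E with hd
  set s := E.relIndex ⊤ with hs
  set c := Nat.card F with hc
  rw [hcard, ← h2, ← h1] at hk
  have pc : 0 < c := Nat.card_pos
  have pd : 0 < d := Nat.pos_of_ne_zero Subgroup.index_ne_zero_of_finite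
  have h3 : 2 * (s * s) ≤ d := hidx.trans hle
  have h4 : (s * (d * c)) ^ 2 = (s * s) * (d ^ 2 * c ^ 2) := by ring
  have h5 : d ^ 3 * c ^ 2 = d * (d ^ 2 * c ^ 2) := by ring
  rw [h4, h5] at hk
  have h6 : d < s * s := lt_of_mul_lt_mul_right hk (Nat.zero_le _)
  omega

theorem gd_of_epropA [Finite G] {S Z : Subgroup G} (hS : IsPGroup 2 S)
    (hn : ∀ t ∈ S, ∀ v ∈ Z, t * v * t⁻¹ ∈ Z) (hZ : IsElementaryAbelian 2 Z)
    (h : EPropA S Z) : Gd G S Z := by
  have hexpZ : ∀ z ∈ Z, z * z = 1 := fun z hz => by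
    rw [← sq]
    exact isElementaryAbelian_pow hZ hz
  obtain ⟨V, I, φ, j, hj, hr, hexp, he⟩ := S4ConInst.exists_rep Z hexpZ S.subtype
    (fun x y hy => hn x x.2 y hy)
  have : Finite V := Finite.of_injective j hj
  have hcn : ∀ s : S, (s : G) ∈ centralizer (Z : Set G) ↔ s ∈ cn φ ⊤ := by
    intro s
    rw [mem_centralizer_iff]
    constructor
    · intro h1 v _
      apply hj
      rw [he]
      have h2 : j v ∈ Z := hr ▸ ⟨v, rfl⟩
      rw [show (S.subtype s) = (s : G) from rfl, ← h1 _ h2, mul_inv_cancel_right]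
    · intro h1 z hz
      rw [SetLike.mem_coe, ← hr] at hz
      obtain ⟨v, rfl⟩ := hz
      have h2 := he s v
      rw [h1 v (mem_top v)] at h2
      exact eq_mul_inv_iff_mul_eq.1 h2
  have key : ∀ R : Subgroup S, (∀ a ∈ R, ∀ b ∈ R, ∀ v, φ a (φ b v) = φ b (φ a v)) →
      (∀ a ∈ R, ∀ v, φ a (φ a v) = v) → ¬ R ≤ cn φ ⊤ →
      ((cn φ ⊤).relIndex R) ^ 3 * (Nat.card (fx φ R)) ^ 2 < Nat.card V ^ 2 := by
    intro R hR1 hR2 hR3
    have h1 := h (R.map S.subtype) (map_subtype_le R) (by
      rw [← map_commutator, map_le_iff_le_comap, commutator_le]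
      intro a ha b hb
      rw [mem_comap]
      refine (hcn (a * b * a⁻¹ * b⁻¹)).2 ?_
      intro v _
      rw [map_mul, map_mul, map_mul, MulAut.mul_apply, MulAut.mul_apply,
        MulAut.mul_apply]
      rw [hR1 a ha b hb, apply_inv_cancel]
      exact apply_inv_cancel φ b v) (by
      rintro _ ⟨a, ha, rfl⟩
      rw [← map_pow]
      refine (hcn (a ^ 2)).2 ?_
      intro v _
      rw [sq, map_mul, MulAut.mul_apply]
      exact hR2 a ha v) (by
      intro h2
      apply hR3
      intro a ha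
      exact (hcn a).1 (h2 ⟨a, ha, rfl⟩))
    have e1 : Nat.card (R.map S.subtype) = Nat.card R := card_map_of_injective S.subtype_injective
    have e2 : R.map S.subtype ⊓ centralizer (Z : Set G) = (cn φ ⊤ ⊓ R).map S.subtype := by
      ext x
      constructor
      · rintro ⟨⟨r, hr', rfl⟩, h2⟩
        exact ⟨r, ⟨(hcn r).1 h2, hr'⟩, rfl⟩
      · rintro ⟨r, ⟨h2, hr'⟩, rfl⟩
        exact ⟨⟨r, hr', rfl⟩, (hcn r).2 h2⟩
    have e3 : Z ⊓ centralizer ((R.map S.subtype : Subgroup G) : Set G) = (fx φ R).map j := by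
      ext x
      constructor
      · rintro ⟨hx, hx'⟩
        rw [SetLike.mem_coe, ← hr] at hx
        obtain ⟨v, rfl⟩ := hx
        refine ⟨v, fun a ha => ?_, rfl⟩
        apply hj
        rw [he]
        have h2 := mem_centralizer_iff.1 hx' (a : G) ⟨a, ha, rfl⟩
        rw [show (S.subtype a) = (a : G) from rfl, h2, mul_inv_cancel_right]
      · rintro ⟨v, hv, rfl⟩
        refine ⟨?_, ?_⟩
        · show j v ∈ Z
          rw [← hr]
          exact ⟨v, rfl⟩
        · show j v ∈ centralizer ((R.map S.subtype : Subgroup G) : Set G)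
          rw [mem_centralizer_iff]
          rintro _ ⟨a, ha, rfl⟩
          have h2 := he a v
          rw [hv a ha] at h2
          exact (eq_mul_inv_iff_mul_eq.1 h2).symm
    have e4 : Nat.card Z = Nat.card V := by
      rw [← hr]
      exact (Nat.card_congr (MonoidHom.ofInjective hj).toEquiv).symm
    have e5 : (cn φ ⊤).relIndex R * Nat.card ↥(cn φ ⊤ ⊓ R) = Nat.card R := by
      rw [← inf_relIndex_right]
      exact S4ConInst.relIndex_mul_card' inf_le_right
    rw [e1, e2, e3, e4, card_map_of_injective S.subtype_injective, card_map_of_injective hj,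
      ← e5] at h1
    set r := (cn φ ⊤).relIndex R
    set c := Nat.card ↥(cn φ ⊤ ⊓ R) with hc
    set w := Nat.card (fx φ R)
    set z := Nat.card V
    have pc : 0 < c := Nat.card_pos
    have h2 : c ^ 3 * (r ^ 3 * w ^ 2) < c ^ 3 * z ^ 2 := by
      calc c ^ 3 * (r ^ 3 * w ^ 2) = (r * c) ^ 3 * w ^ 2 := by ring
        _ < z ^ 2 * c ^ 3 := h1
        _ = c ^ 3 * z ^ 2 := by ring
    exact lt_of_mul_lt_mul_left h2 (Nat.zero_le _)
  refine ⟨V, I, φ, j, hj, hr, hexp, he, ?_, ?_⟩
  · refine ⟨fun _ _ _ _ => mem_top _, fun A _ hab hle => ?_⟩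
    by_contra hne
    obtain ⟨A', hA'A, h1, -, h2, h3⟩ := exists_best (φ := φ) hexp (hS.to_subgroup A)
      (U := ⊤) (fun _ _ _ _ => mem_top _) hab hne hle
    have h4 : ∀ a ∈ A', ∀ v, φ a (φ a v) = v := by
      intro a ha v
      have h5 := h3 a ha a ha v (mem_top v)
      rw [map_mul, map_inv] at h5
      have h6 : φ a (φ a v) = φ a v * v⁻¹ * φ a v := mul_inv_eq_iff_eq_mul.1 h5
      rw [h6, mul_right_comm, hexp, one_mul]
      exact inv_eq_of_mul_eq_one_left (hexp v)
    have h5 := key A' (fun a ha b hb v => hab a (hA'A ha) b (hA'A hb) v (mem_top v)) h4 h1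
    have h6 := le_of_cube h5 (Nat.pos_of_ne_zero Subgroup.index_ne_zero_of_finite)
    unfold ms at h2
    rw [top_inf_eq, Subgroup.card_top] at h2
    omega
  · intro B _ E hF
    exact noflag_aux hexp key B E hF

end Cfsg.Agent.H210.TwoFac
end

-- part: H210/TwoFac/Part3
section
/-!
# `G = C(Ω₁(Z(Ĵ(S)))) N(J_e(S))`
-/

set_option autoImplicit false

namespace Cfsg.Agent.H210.TwoFac

open Cfsg Subgroup
open Cfsg.Agent.PLocal
open Cfsg.Agent.PLocal.ThompsonJ Cfsg.Agent.PLocal.ElemAbSup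
open Cfsg.Agent.PLocal.S4ConGroup (Df GdAx le_Df Df_le good_Df)
open Cfsg.Agent.PLocal.S4ConInst (Gd)
open Cfsg.Agent.PLocal.S4FreeSection (S4Free)

universe u v

variable {G : Type u} [Group G]

theorem isEGroup_iff (U : Subgroup G) : IsEGroup ↥U ↔ EGrp U := by
  have h := isEGroup_iff_range (f := U.subtype) U.subtype_injective
  rwa [range_subtype] at h

theorem eGrp_map_iff {H : Type v} [Group H] {φ : G →* H} (hφ : Function.Injective φ)
    (U : Subgroup G) : EGrp (U.map φ) ↔ EGrp U := by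
  rw [← isEGroup_iff U, isEGroup_iff_range (f := φ.comp U.subtype)
    (hφ.comp U.subtype_injective), MonoidHom.range_comp, range_subtype]

theorem jh_map {H : Type v} [Group H] {φ : G →* H} (hφ : Function.Injective φ)
    (S : Subgroup G) : jh (S.map φ) = (jh S).map φ := by
  apply le_antisymm
  · refine sSup_le ?_
    rintro U ⟨hUS, hU, hJ⟩
    have h1 : (U.comap φ).map φ = U := map_comap_eq_self (hUS.trans (by
      rintro _ ⟨x, _, rfl⟩
      exact ⟨x, rfl⟩))
    rw [← h1]
    apply map_mono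
    refine le_jh ?_ ?_ ?_
    · rw [← map_le_map_iff_of_injective hφ, h1]
      exact hUS
    · rw [← eGrp_map_iff hφ, h1]
      exact hU
    · rw [← map_le_map_iff_of_injective hφ, h1, ← thompsonSubgroupOf_map 2 hφ]
      exact hJ
  · rw [map_le_iff_le_comap]
    refine sSup_le ?_
    rintro U ⟨hUS, hU, hJ⟩
    rw [← map_le_iff_le_comap]
    refine le_jh (map_mono hUS) ((eGrp_map_iff hφ U).2 hU) ?_
    rw [thompsonSubgroupOf_map 2 hφ]
    exact map_mono hJ

theorem normalizer_le_normalizer_jh (S : Subgroup G) :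
    normalizer (S : Set G) ≤ normalizer (jh S : Set G) := by
  intro g hg
  have h1 : S.map (MulAut.conj g).toMonoidHom = S := mem_normalizer_iff_map_conj_eq.1 hg
  have h2 := jh_map (MulAut.conj g).injective (φ := (MulAut.conj g).toMonoidHom) S
  rw [h1] at h2
  exact mem_normalizer_iff_map_conj_eq.2 h2.symm

theorem conj_mem_zz {H : Subgroup G} {g : G} (hg : g ∈ normalizer (H : Set G)) {x : G}
    (hx : x ∈ zz H) : g * x * g⁻¹ ∈ zz H := by
  obtain ⟨h1, h2, h3⟩ := mem_zz.1 hx
  rw [mem_normalizer_iff] at hg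
  refine mem_zz.2 ⟨(hg x).1 h1, ?_, ?_⟩
  · rw [mem_centralizer_iff] at h2 ⊢
    intro y hy
    have h4 : g⁻¹ * y * g ∈ H := by
      rw [hg]
      have : g * (g⁻¹ * y * g) * g⁻¹ = y := by group
      rw [this]
      exact hy
    have h5 := h2 _ h4
    calc y * (g * x * g⁻¹) = g * ((g⁻¹ * y * g) * x) * g⁻¹ := by group
      _ = g * (x * (g⁻¹ * y * g)) * g⁻¹ := by rw [h5]
      _ = g * x * g⁻¹ * y := by group
  · rw [conj_pow, h3, mul_one, mul_inv_cancel]

theorem part3 [Finite G] (hchar : centralizer (pCore 2 G : Set G) ≤ pCore 2 G)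
    (h4 : S4Free G) (S : Sylow 2 G) (g : G) :
    ∃ c ∈ centralizer (zz (jh (S : Subgroup G)) : Set G),
      ∃ n ∈ normalizer ((thompsonSubgroupOf 2 (S : Subgroup G) : Subgroup G) : Set G),
        g = c * n := by
  set D := dd (S : Subgroup G) with hD
  have hDn : D.Normal := dd_normal h4 hchar S
  have hDS : D ≤ (S : Subgroup G) := Df_le _
  have hDg : Gd G (S : Subgroup G) D := good_Df ax S.isPGroup'
  have hDe : IsElementaryAbelian 2 D := by
    have h1 := ax.exp G _ _ hDg
    rw [isElementaryAbelian_iff]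
    exact ⟨S4ConGroup.comm_of_exp h1, fun a ha => by rw [sq]; exact h1 a ha⟩
  have hZD : zz (jh (S : Subgroup G)) ≤ D := by
    refine le_Df ((zz_le _).trans (jh_le _)) (gd_of_epropA S.isPGroup' ?_ (zz_ea _)
      (chain _ _ rfl).2.2)
    intro t ht v hv
    exact conj_mem_zz (normalizer_le_normalizer_jh _ (le_normalizer ht)) hv
  have hJ := (jj_le_cen hDS hDe (by
    intro R hR hR2 hne
    rcases ax.unoff G _ _ hDg R hR (by
      intro a ha b hb
      rw [isElementaryAbelian_comm hR2 ha hb, mul_inv_cancel_right, mul_inv_cancel]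
      exact one_mem _) with h | h
    · exact absurd h hne
    · have e1 : (centralizer (D : Set G)).relIndex R *
          Nat.card ↥(R ⊓ centralizer (D : Set G)) = Nat.card R := by
        rw [← inf_relIndex_left]
        exact S4ConInst.relIndex_mul_card' inf_le_left
      have e2 : (centralizer (R : Set G)).relIndex D *
          Nat.card ↥(D ⊓ centralizer (R : Set G)) = Nat.card D := by
        rw [← inf_relIndex_left]
        exact S4ConInst.relIndex_mul_card' inf_le_left
      rw [← e1, ← e2]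
      set a := Nat.card ↥(R ⊓ centralizer (D : Set G)) with ha
      set b := Nat.card ↥(D ⊓ centralizer (R : Set G)) with hb
      have pa : 0 < a := Nat.card_pos
      have pb : 0 < b := Nat.card_pos
      calc (centralizer (D : Set G)).relIndex R * a * b
          = (centralizer (D : Set G)).relIndex R * (a * b) := by ring
        _ < (centralizer (R : Set G)).relIndex D * (a * b) :=
            Nat.mul_lt_mul_of_pos_right h (by positivity)
        _ = (centralizer (R : Set G)).relIndex D * b * a := by ring)).1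
  have hJ' : thompsonSubgroupOf 2 (S : Subgroup G) ≤
      (S : Subgroup G) ⊓ centralizer (D : Set G) :=
    le_inf (thompsonSubgroupOf_le_self 2 _) hJ
  refine frattini S (centralizer (D : Set G)) _ ?_ _ (centralizer_le hZD) g
  rw [← jj_eq_of_le inf_le_left hJ']
  exact ThompsonFrattini.normalizer_le_normalizer_thompson 2 _

end Cfsg.Agent.H210.TwoFac
end

-- part: H210/TwoFac/KGroup
section
/-!
# The composition factors of a quotient; iso-invariance
-/

set_option autoImplicit false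

namespace Cfsg.Agent.H210.TwoFac

open Cfsg

universe u

theorem ckg_quotient {K : ∀ (X : Type u) [Group X], Prop}
    (hK : ∀ (X Y : Type u) [Group X] [Group Y], (X ≃* Y) → K X → K Y)
    {G : Type u} [Group G] (h : IsCompositionKGroupWith K G) (N : Subgroup G) [N.Normal] :
    IsCompositionKGroupWith K (G ⧸ N) := by
  intro H hH M hM hs hc
  let π := QuotientGroup.mk' N
  let r : H.comap π →* H := (π.comp (H.comap π).subtype).codRestrict H fun x => x.2
  have hr : Function.Surjective r := by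
    rintro ⟨y, hy⟩
    obtain ⟨x, rfl⟩ := QuotientGroup.mk'_surjective N y
    exact ⟨⟨x, hy⟩, rfl⟩
  let f : H.comap π →* H ⧸ M := (QuotientGroup.mk' M).comp r
  have hf : Function.Surjective f := (QuotientGroup.mk'_surjective M).comp hr
  let e : (H.comap π ⧸ f.ker) ≃* (H ⧸ M) := QuotientGroup.quotientKerEquivOfSurjective f hf
  have : Nontrivial (H.comap π ⧸ f.ker) := e.toEquiv.nontrivial
  have : IsSimpleGroup (H.comap π ⧸ f.ker) :=
    IsSimpleGroup.isSimpleGroup_of_surjective (G := H ⧸ M) e.symm.toMonoidHom e.symm.surjective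
  refine hK _ _ e (h (H.comap π) (hH.comap π) f.ker this ?_)
  intro hcomm
  apply hc
  refine ⟨⟨fun a b => ?_⟩⟩
  apply e.symm.injective
  rw [map_mul, map_mul]
  exact hcomm.is_comm.comm _ _

theorem suz_psl_equiv (X Y : Type u) [Group X] [Group Y] (e : X ≃* Y)
    (h : IsSuzukiOrPSL2OddPowerThree X) : IsSuzukiOrPSL2OddPowerThree Y := by
  rcases h with h | ⟨F, i1, i2, n, hn, ⟨e'⟩⟩
  · left
    obtain ⟨F, i1, i2, n, h1, hn, ⟨e'⟩⟩ := h
    exact ⟨F, i1, i2, n, h1, hn, ⟨e.symm.trans e'⟩⟩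
  · exact Or.inr ⟨F, i1, i2, n, hn, ⟨e.symm.trans e'⟩⟩

end Cfsg.Agent.H210.TwoFac
end

-- part: H210/TwoFac/Module
section
/-!
# The module `V = Ω₁⟨Z(S)^G⟩` has property E
-/

set_option autoImplicit false

namespace Cfsg.Agent.H210.TwoFac

open Cfsg Subgroup
open Cfsg.Agent.PLocal
open Cfsg.Agent.PLocal.ThompsonJ Cfsg.Agent.PLocal.ElemAbSup
open Cfsg.Agent.PLocal.S4FreeSection (S4Free)
open Cfsg.Agent.Lib

universe u v

variable {G : Type u} [Group G]

/-- an element of odd order centralizing `Ω₁(W)`, `W` an abelian 2-group, centralizes `W` -/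
theorem coprime_omega {W : Subgroup G} (hW : ∀ a ∈ W, ∀ b ∈ W, a * b = b * a) {x : G}
    (hx : Odd (orderOf x)) (hn : ∀ w ∈ W, x * w * x⁻¹ ∈ W)
    (hc : ∀ w ∈ W, w ^ 2 = 1 → x * w * x⁻¹ = w) :
    ∀ (k : ℕ) (w : G), w ∈ W → w ^ 2 ^ k = 1 → x * w * x⁻¹ = w := by
  intro k
  induction k with
  | zero =>
    intro w _ h
    rw [pow_zero, pow_one] at h
    rw [h, mul_one, mul_inv_cancel]
  | succ k ih =>
    intro w hw h
    have h1 := ih (w ^ 2) (pow_mem hw 2) (by rw [← pow_mul, ← pow_succ']; exact h)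
    obtain ⟨u, hu⟩ : ∃ u, u = x * w * x⁻¹ * w⁻¹ := ⟨_, rfl⟩
    have huW : u ∈ W := hu ▸ mul_mem (hn w hw) (inv_mem hw)
    have hu2 : u ^ 2 = 1 := by
      have hcm : Commute (x * w * x⁻¹) w⁻¹ := hW _ (hn w hw) _ (inv_mem hw)
      rw [hu, hcm.mul_pow, conj_pow, h1, inv_pow, mul_inv_cancel]
    have hxu : x * u * x⁻¹ = u := hc u huW hu2
    have hxw : x * w * x⁻¹ = u * w := by rw [hu, inv_mul_cancel_right]
    have hstep : ∀ n : ℕ, x ^ n * w * (x ^ n)⁻¹ = u ^ n * w := by
      intro n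
      induction n with
      | zero => simp
      | succ n ihn =>
        have h2 : x * u ^ n * x⁻¹ = u ^ n := by rw [← conj_pow, hxu]
        calc x ^ (n + 1) * w * (x ^ (n + 1))⁻¹ = x * (x ^ n * w * (x ^ n)⁻¹) * x⁻¹ := by
              rw [pow_succ']
              group
          _ = x * (u ^ n * w) * x⁻¹ := by rw [ihn]
          _ = (x * u ^ n * x⁻¹) * (x * w * x⁻¹) := by group
          _ = u ^ (n + 1) * w := by rw [h2, hxw, pow_succ, mul_assoc]
    have h2 := hstep (orderOf x)
    rw [pow_orderOf_eq_one, one_mul, inv_one, mul_one] at h2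
    have h3 : u ^ orderOf x = 1 := by
      have : u ^ orderOf x * w = 1 * w := by rw [← h2, one_mul]
      exact mul_right_cancel this
    have h4 : u = 1 := by
      obtain ⟨m, hm⟩ := hx
      rw [hm, pow_succ, pow_mul, hu2, one_pow, one_mul] at h3
      exact h3
    rw [hxw, h4, one_mul]

/-- A normal subgroup whose elements of odd order centralize `W = ⟨Z^G⟩`, `Z` central in a Sylow
2-subgroup, centralizes `W`. -/
theorem le_cen_of_odd [Finite G] (S : Sylow 2 G) {Z P : Subgroup G} (hP : P.Normal)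
    (hZ : (S : Subgroup G) ≤ centralizer (Z : Set G))
    (h : ∀ x ∈ P, Odd (orderOf x) → x ∈ centralizer ((normalClosure (Z : Set G) : Subgroup G) : Set G)) :
    P ≤ centralizer ((normalClosure (Z : Set G) : Subgroup G) : Set G) := by
  have : Fact (Nat.Prime 2) := ⟨Nat.prime_two⟩
  set W := normalClosure (Z : Set G) with hW
  have hWn : W.Normal := normalClosure_normal
  have hcW : (centralizer (W : Set G)).Normal := inferInstance
  have hWZ : centralizer (W : Set G) ≤ centralizer (Z : Set G) :=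
    centralizer_le subset_normalClosure
  obtain ⟨T, hT⟩ := ThompsonFrattini.exists_sylow_subgroupOf S P
  set X := (centralizer (Z : Set G)).subgroupOf P with hX
  have hTX : (T : Subgroup P) ≤ X := by
    rw [hT]
    exact comap_mono hZ
  set N := (centralizer (W : Set G)).subgroupOf P with hN
  have hNn : N.Normal := hcW.subgroupOf P
  have hNX : N ≤ X := comap_mono hWZ
  have hq : IsPGroup 2 (P ⧸ N) := by
    intro q
    obtain ⟨x, rfl⟩ := QuotientGroup.mk_surjective q
    obtain ⟨k, r, hr, hkr⟩ := Nat.exists_eq_two_pow_mul_odd (n := orderOf (x : G))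
      (orderOf_pos (x : G)).ne'
    refine ⟨k, ?_⟩
    rw [← QuotientGroup.mk_pow, QuotientGroup.eq_one_iff, hN, mem_subgroupOf]
    apply h
    · exact (x ^ 2 ^ k).2
    · have h1 : orderOf (((x ^ 2 ^ k : P) : G)) = r := by
        rw [Subgroup.coe_pow, orderOf_pow, hkr, Nat.gcd_eq_right (dvd_mul_right _ _),
          Nat.mul_div_cancel_left _ (pow_pos (by norm_num) k)]
      rw [h1]
      exact hr
  obtain ⟨m, hm⟩ := hq.exists_card_eq
  have h1 : X.index ∣ 2 ^ m := by
    rw [← hm]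
    exact index_dvd_of_le hNX
  have h2 : ¬ 2 ∣ X.index := fun h2 => T.not_dvd_index (h2.trans (index_dvd_of_le hTX))
  have h3 : X.index = 1 := by
    obtain ⟨k, -, hk⟩ := (Nat.dvd_prime_pow Nat.prime_two).1 h1
    rcases Nat.eq_zero_or_pos k with rfl | hk0
    · rw [hk, pow_zero]
    · exact absurd (hk ▸ dvd_pow_self 2 hk0.ne') h2
  have h4 : P ≤ centralizer (Z : Set G) := by
    rw [index_eq_one] at h3
    exact subgroupOf_eq_top.1 h3
  have h5 : Z ≤ centralizer (P : Set G) := by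
    intro z hz
    rw [mem_centralizer_iff]
    intro p hp
    exact (mem_centralizer_iff.1 (h4 hp) z hz).symm
  have h6 : W ≤ centralizer (P : Set G) := normalClosure_le_normal h5
  intro p hp
  rw [mem_centralizer_iff]
  intro w hw
  exact (mem_centralizer_iff.1 (h6 hw) p hp).symm

theorem exists_module [Finite G] (hchar : centralizer (pCore 2 G : Set G) ≤ pCore 2 G)
    (h4 : S4Free G) (hK : IsCompositionKGroupWith IsSuzukiOrPSL2OddPowerThree G)
    (S : Sylow 2 G) :
    ∃ V : Subgroup G, V.Normal ∧ V ≤ (S : Subgroup G) ∧ IsElementaryAbelian 2 V ∧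
      centralizer (V : Set G) ≤
        centralizer (((S : Subgroup G) ⊓ centralizer ((S : Subgroup G) : Set G) : Subgroup G) :
          Set G) ∧ EProp ⊤ V := by
  set Z := (S : Subgroup G) ⊓ centralizer ((S : Subgroup G) : Set G) with hZ
  set Q := pCore 2 G with hQ
  have hQn : Q.Normal := Cores.pCore_normal 2
  have hQS : Q ≤ (S : Subgroup G) := Cores.pCore_le_sylow S
  have hSZ : (S : Subgroup G) ≤ centralizer (Z : Set G) := by
    intro s hs
    rw [mem_centralizer_iff]
    intro z hz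
    exact (mem_centralizer_iff.1 hz.2 s hs).symm
  have hZQ : Z ≤ Q ⊓ centralizer (Q : Set G) := by
    have h1 : Z ≤ centralizer (Q : Set G) := inf_le_right.trans (centralizer_le hQS)
    exact le_inf (h1.trans hchar) h1
  set W := normalClosure (Z : Set G) with hW
  have hWn : W.Normal := normalClosure_normal
  have hWQ : W ≤ Q ⊓ centralizer (Q : Set G) := normalClosure_le_normal hZQ
  have hWc : ∀ a ∈ W, ∀ b ∈ W, a * b = b * a := fun a ha b hb =>
    mem_centralizer_iff.1 (hWQ hb).2 a (hWQ ha).1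
  let V : Subgroup G :=
    { carrier := {x | x ∈ W ∧ x ^ 2 = 1}
      one_mem' := ⟨one_mem _, one_pow _⟩
      mul_mem' := by
        rintro a b ⟨ha, ha2⟩ ⟨hb, hb2⟩
        refine ⟨mul_mem ha hb, ?_⟩
        have h1 : Commute a b := hWc a ha b hb
        rw [h1.mul_pow, ha2, hb2, one_mul]
      inv_mem' := by
        rintro a ⟨ha, ha2⟩
        exact ⟨inv_mem ha, by rw [inv_pow, ha2, inv_one]⟩ }
  have hmemV : ∀ x, x ∈ V ↔ x ∈ W ∧ x ^ 2 = 1 := fun _ => Iff.rfl
  have hVn : V.Normal := ⟨fun x hx g => ⟨hWn.conj_mem x hx.1 g, by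
    rw [conj_pow, hx.2, mul_one, mul_inv_cancel]⟩⟩
  have hVS : V ≤ (S : Subgroup G) := fun x hx => hQS (hWQ hx.1).1
  have hVe : IsElementaryAbelian 2 V := by
    rw [isElementaryAbelian_iff]
    exact ⟨fun a ha b hb => hWc a ha.1 b hb.1, fun a ha => ha.2⟩
  have hodd : ∀ x ∈ centralizer (V : Set G), Odd (orderOf x) → x ∈ centralizer (W : Set G) := by
    intro x hx hxo
    rw [mem_centralizer_iff]
    intro w hw
    obtain ⟨k, hk⟩ := Cores.pCore_isPGroup (G := G) 2 ⟨w, (hWQ hw).1⟩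
    have hk' : w ^ 2 ^ k = 1 := congrArg Subtype.val hk
    have h1 := coprime_omega hWc hxo (fun w hw => hWn.conj_mem w hw x) (by
      intro w hw hw2
      have h2 := mem_centralizer_iff.1 hx w ⟨hw, hw2⟩
      rw [← h2, mul_inv_cancel_right]) k w hw hk'
    exact (mul_inv_eq_iff_eq_mul.1 h1).symm
  have hcVn : (centralizer (V : Set G)).Normal := inferInstance
  have hVW : centralizer (V : Set G) ≤ centralizer (W : Set G) :=
    le_cen_of_odd S hcVn hSZ hodd
  have hWV : centralizer (W : Set G) ≤ centralizer (V : Set G) :=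
    centralizer_le fun x hx => hx.1
  refine ⟨V, hVn, hVS, hVe, hVW.trans (centralizer_le subset_normalClosure), ?_⟩
  -- the faithful representation
  obtain ⟨V₁, I, φ, j, hj, hr, hexp, he⟩ := S4ConInst.exists_rep V (fun y hy => by
    rw [← sq]; exact hy.2) (MonoidHom.id G) (fun x y hy => hVn.conj_mem y hy x)
  have he' : ∀ (x : G) (v : V₁), j (φ x v) = x * j v * x⁻¹ := he
  have hfin : Finite V₁ := Finite.of_injective j hj
  have hker : ∀ g : G, g ∈ φ.ker ↔ g ∈ centralizer (V : Set G) := by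
    intro g
    rw [MonoidHom.mem_ker, mem_centralizer_iff]
    constructor
    · intro h v hv
      rw [SetLike.mem_coe, ← hr] at hv
      obtain ⟨v, rfl⟩ := hv
      have h2 := he' g v
      rw [h, MulAut.one_apply] at h2
      exact eq_mul_inv_iff_mul_eq.1 h2
    · intro h
      ext v
      apply hj
      rw [he', MulAut.one_apply]
      have h2 : j v ∈ V := hr ▸ ⟨v, rfl⟩
      rw [← h _ h2, mul_inv_cancel_right]
  have hkereq : φ.ker = centralizer (V : Set G) := Subgroup.ext hker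
  let π := QuotientGroup.mk' φ.ker
  let ρ : G ⧸ φ.ker →* MulAut V₁ := QuotientGroup.kerLift φ
  have hρ : Function.Injective ρ := QuotientGroup.kerLift_injective φ
  have hρπ : ∀ g, ρ (π g) = φ g := fun _ => rfl
  have hO : pCore 2 (G ⧸ φ.ker) = ⊥ := by
    have h1 : (pCore 2 (G ⧸ φ.ker)).comap π ≤ centralizer (W : Set G) := by
      refine le_cen_of_odd S ((Cores.pCore_normal 2).comap π) hSZ ?_
      intro x hx hxo
      refine hodd x ?_ hxo
      rw [← hker, ← QuotientGroup.eq_one_iff]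
      obtain ⟨k, hk⟩ := Cores.pCore_isPGroup (G := G ⧸ φ.ker) 2 ⟨π x, hx⟩
      have hk' : (π x) ^ 2 ^ k = 1 := congrArg Subtype.val hk
      have h2 : orderOf (π x) ∣ orderOf x := orderOf_map_dvd π x
      have h3 : orderOf (π x) ∣ 2 ^ k := orderOf_dvd_of_pow_eq_one hk'
      have h4 : Nat.Coprime (orderOf x) (2 ^ k) := (Nat.coprime_two_right.2 hxo).pow_right k
      exact orderOf_eq_one_iff.1 (Nat.eq_one_of_dvd_coprimes h4 h2 h3)
    rw [eq_bot_iff]
    intro q hq
    obtain ⟨x, rfl⟩ := QuotientGroup.mk'_surjective φ.ker q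
    have h2 : x ∈ centralizer (V : Set G) := hWV (h1 hq)
    rw [mem_bot, QuotientGroup.mk'_apply, QuotientGroup.eq_one_iff, hker]
    exact h2
  have hS3 : SFourOffender.NoS3 φ := by
    let e₀ : V₁ ≃* j.range := MonoidHom.ofInjective hj
    let ε : V ≃* V₁ := (MulEquiv.subgroupCongr hr.symm).trans e₀.symm
    have hjε : ∀ v : V, j (ε v) = v := by
      intro v
      have h1 : e₀ (ε v) = (MulEquiv.subgroupCongr hr.symm) v := e₀.apply_symm_apply _
      exact congrArg Subtype.val h1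
    refine S4FreeNoS3.noS3_of_section h4 hVn hexp ε.toMonoidHom ε.surjective φ ?_
    intro g a
    apply hj
    show j (ε _) = j (φ g (ε a))
    rw [hjε, he', hjε]
  have h3 : Off.NoInv3 (G ⧸ φ.ker) := by
    apply Off.noInv3_of
    rintro ⟨K, R, hR, ⟨e⟩⟩
    apply hS3
    let r : K.comap π →* K := (π.comp (K.comap π).subtype).codRestrict K fun x => x.2
    have hr' : Function.Surjective r := by
      rintro ⟨y, hy⟩
      obtain ⟨x, rfl⟩ := QuotientGroup.mk'_surjective φ.ker y
      exact ⟨⟨x, hy⟩, rfl⟩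
    refine ⟨K.comap π, (e.toMonoidHom.comp (QuotientGroup.mk' (R.subgroupOf K))).comp r,
      (e.surjective.comp (QuotientGroup.mk'_surjective _)).comp hr', ?_⟩
    intro d hd
    have h1 : r d = 1 := by
      apply Subtype.ext
      show π (d : G) = 1
      rw [QuotientGroup.mk'_apply, QuotientGroup.eq_one_iff]
      exact hd
    rw [MonoidHom.comp_apply, h1, map_one]
  have hKq : IsCompositionKGroupWith IsSuzukiOrPSL2OddPowerThree (G ⧸ φ.ker) :=
    ckg_quotient suz_psl_equiv hK φ.ker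
  intro R _ _ hR2 hne
  have hA2 : ∀ a ∈ R.map π, a * a = 1 := by
    rintro _ ⟨r, hr', rfl⟩
    rw [← map_mul, ← sq]
    exact (QuotientGroup.eq_one_iff _).2 ((hker _).2 (hR2 r hr'))
  have m1 := Off.main hρ hexp hO h3 hKq _ (R.map π) rfl hA2
  have m2 := Off.main_comm hρ hexp hO h3 hKq (R.map π) hA2 (⁅V, R⁆.comap j) (by
    rintro _ ⟨r, hr', rfl⟩ v
    rw [mem_comap, hρπ, map_mul, map_inv, he', commutator_comm]
    exact commutator_mem_commutator hr' (hr ▸ ⟨v, rfl⟩))
  -- orders
  have e1 : Nat.card (R.map π) * Nat.card ↥(R ⊓ centralizer (V : Set G)) = Nat.card R := by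
    have h5 := Subgroup.relIndex_ker (f := π) (K := R)
    rw [QuotientGroup.ker_mk'] at h5
    have h6 : (centralizer (V : Set G)).relIndex R = φ.ker.relIndex R := by rw [hkereq]
    rw [← h5, ← h6, ← inf_relIndex_left]
    exact S4ConInst.relIndex_mul_card' inf_le_left
  have e2 : V ⊓ centralizer (R : Set G) = (Cfsg.Agent.OddCyclic.T1Module.CS ρ (R.map π)).map j := by
    ext x
    constructor
    · rintro ⟨hx, hx'⟩
      rw [SetLike.mem_coe, ← hr] at hx
      obtain ⟨v, rfl⟩ := hx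
      refine ⟨v, ?_, rfl⟩
      rintro _ ⟨a, ha, rfl⟩
      apply hj
      rw [hρπ, he']
      have h2 := mem_centralizer_iff.1 hx' (a : G) ha
      rw [h2, mul_inv_cancel_right]
    · rintro ⟨v, hv, rfl⟩
      refine ⟨?_, ?_⟩
      · show j v ∈ V
        rw [← hr]
        exact ⟨v, rfl⟩
      · show j v ∈ centralizer (R : Set G)
        rw [mem_centralizer_iff]
        intro a ha
        have h2 := he' a v
        have h3 : ρ (π a) v = v := hv _ ⟨a, ha, rfl⟩
        rw [← hρπ, h3] at h2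
        exact (eq_mul_inv_iff_mul_eq.1 h2).symm
  have e3 : Nat.card V = Nat.card V₁ := by
    rw [← hr]
    exact (Nat.card_congr (MonoidHom.ofInjective hj).toEquiv).symm
  have e4 := (Cfsg.Agent.OddCyclic.T1Module.CS ρ (R.map π)).index_mul_card
  have e5 : Nat.card ↥(⁅V, R⁆.comap j) ≤ Nat.card ↥⁅V, R⁆ := by
    rw [← card_map_of_injective hj]
    exact Subgroup.card_le_of_le (map_comap_le j _)
  rw [e2, card_map_of_injective hj, ← e1, e3, ← e4]
  have hA1 : 2 ≤ Nat.card (R.map π) := by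
    by_contra hlt
    have h5 : Nat.card (R.map π) = 1 := by
      have : 0 < Nat.card (R.map π) := Nat.card_pos
      omega
    apply hne
    intro r hr'
    rw [← hker, ← QuotientGroup.eq_one_iff]
    have h6 : R.map π = ⊥ := Subgroup.card_eq_one.1 h5
    have h7 : π r ∈ R.map π := ⟨r, hr', rfl⟩
    rw [h6, mem_bot] at h7
    exact h7
  have m2' := m2.trans e5
  set a := Nat.card (R.map π) with ha
  set c := Nat.card ↥(R ⊓ centralizer (V : Set G)) with hc
  set i := (Cfsg.Agent.OddCyclic.T1Module.CS ρ (R.map π)).index with hi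
  set f := Nat.card (Cfsg.Agent.OddCyclic.T1Module.CS ρ (R.map π)) with hf
  set w := Nat.card ↥⁅V, R⁆ with hw
  have pc : 0 < c := Nat.card_pos
  have pf : 0 < f := Nat.card_pos
  constructor
  · have h5 : (a * c) ^ 3 * f ^ 2 = a ^ 3 * (c ^ 3 * f ^ 2) := by ring
    have h6 : (i * f) ^ 2 * c ^ 3 = i ^ 2 * (c ^ 3 * f ^ 2) := by ring
    rw [h5, h6, gt_iff_lt]
    refine Nat.mul_lt_mul_of_pos_right ?_ (by positivity)
    calc a ^ 3 < a ^ 4 := Nat.pow_lt_pow_right (by omega) (by norm_num)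
      _ = (a ^ 2) ^ 2 := by ring
      _ ≤ i ^ 2 := Nat.pow_le_pow_left m1 2
  · show a * c < w * c
    refine Nat.mul_lt_mul_of_pos_right ?_ pc
    calc a < a ^ 2 := by
          rw [sq]
          exact lt_mul_of_one_lt_left (by omega) (by omega)
      _ ≤ w := m2'

end Cfsg.Agent.H210.TwoFac
end

-- part: S2753
section
set_option autoImplicit false
universe u
open Cfsg

namespace Cfsg.Agent.S2753

/-- Glauberman's 2-factorization Theorem: let G be a finite group with C_G(O₂(G)) ≤ O₂(G) in which the symmetric group of degree 4 is not involved and every non-abelian composition factor is a Suzuki group Sz(2^(2n+1)) or a group PSL₂(3^(2n+1)). Then for a Sylow 2-subgroup S, G = C(Z(S)) N(J_e(S)) = C(Z(S)) N(Ĵ(S)) = C(Ω₁(Z(Ĵ(S)))) N(J_e(S)), where J_e(S) is the Thompson subgroup generated by the elementary abelian subgroups of largest order and Ĵ(S) the subgroup generated by the E-subgroups of S containing J_e(S); each product is written elementwise. -/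
theorem result {G : Type u} [Group G] [Finite G] (hchar : Subgroup.centralizer (Cfsg.pCore 2 G : Set G) ≤ Cfsg.pCore 2 G) (hfree : ¬ Cfsg.Involves (Equiv.Perm (Fin 4)) G) (hc : Cfsg.IsCompositionKGroupWith Cfsg.IsSuzukiOrPSL2OddPowerThree G) (S : Sylow 2 G) : (∀ g : G, ∃ c ∈ Subgroup.centralizer ((((S : Subgroup G) ⊓ Subgroup.centralizer ((S : Subgroup G) : Set G)) : Subgroup G) : Set G), ∃ n ∈ Subgroup.normalizer (((Cfsg.thompsonSubgroupOf 2 (S : Subgroup G)) : Subgroup G) : Set G), g = c * n) ∧ (∀ g : G, ∃ c ∈ Subgroup.centralizer ((((S : Subgroup G) ⊓ Subgroup.centralizer ((S : Subgroup G) : Set G)) : Subgroup G) : Set G), ∃ n ∈ Subgroup.normalizer ((((Cfsg.jHat ↥(S : Subgroup G)).map (S : Subgroup G).subtype) : Subgroup G) : Set G), g = c * n) ∧ (∀ g : G, ∃ c ∈ Subgroup.centralizer ((Cfsg.omegaOne 2 (((Cfsg.jHat ↥(S : Subgroup G)).map (S : Subgroup G).subtype) ⊓ Subgroup.centralizer (((Cfsg.jHat ↥(S : Subgroup G)).map (S : Subgroup G).subtype) : Set G))) : Set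 G), ∃ n ∈ Subgroup.normalizer (((Cfsg.thompsonSubgroupOf 2 (S : Subgroup G)) : Subgroup G) : Set G), g = c * n) := by
  obtain ⟨V, hVn, hVS, hVe, hcV, hE⟩ := H210.TwoFac.exists_module hchar hfree hc S
  have hE' : H210.TwoFac.EProp (S : Subgroup G) V := hE.mono le_top
  have hJ : thompsonSubgroupOf 2 (S : Subgroup G) ≤
      (S : Subgroup G) ⊓ Subgroup.centralizer (V : Set G) :=
    (H210.TwoFac.jh_inf_cen hE' hVS (fun t _ v hv => hVn.conj_mem v hv t) hVe).1
  have hH := (H210.TwoFac.jh_inf_cen hE' hVS (fun t _ v hv => hVn.conj_mem v hv t) hVe).2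
  have hcn : (Subgroup.centralizer (V : Set G)).Normal := inferInstance
  refine ⟨fun g => ?_, fun g => ?_, fun g => ?_⟩
  · refine H210.TwoFac.frattini S (Subgroup.centralizer (V : Set G)) _ ?_ _ hcV g
    rw [← H210.TwoFac.jj_eq_of_le inf_le_left hJ]
    exact PLocal.ThompsonFrattini.normalizer_le_normalizer_thompson 2 _
  · rw [H210.TwoFac.jh_eq]
    refine H210.TwoFac.frattini S (Subgroup.centralizer (V : Set G)) _ ?_ _ hcV g
    rw [← hH]
    exact H210.TwoFac.normalizer_le_normalizer_jh _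
  · rw [H210.TwoFac.jh_eq]
    exact H210.TwoFac.part3 hchar hfree S g

end Cfsg.Agent.S2753
end
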