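import Cfsg.Statements.S2758
import Cfsg.Agent.H722.DihP
set_option linter.all false

set_option autoImplicit false
open Cfsg

namespace Cfsg.Agent.S2758

open Cfsg.Agent.H722.RealP

/-- For an odd prime p and a finite group G the following are equivalent: the dihedral group of order 2p is involved in G; some element of 2-power order normalizes but does not centralize some p-subgroup of G; some element of 2-power order inverts some nonidentity element of p-power order. -/
theorem result {G : Type*} [Group G] [Finite G] {p : ℕ} [Fact p.Prime] (hp : p ≠ 2) : (Cfsg.Involves (DihedralGroup p) G ↔ ∃ (x : G) (P : Subgroup G), (∃ k : ℕ, orderOf x = 2 ^ k) ∧ IsPGroup p ↥P ∧ x ∈ Subgroup.normalizer (P : Set G) ∧ x ∉ Subgroup.centralizer (P : Set G)) ∧ (Cfsg.Involves (DihedralGroup p) G ↔ ∃ x y : G, (∃ k : ℕ, orderOf x = 2 ^ k) ∧ (∃ k : ℕ, orderOf y = p ^ k) ∧ y ≠ 1 ∧ x * y * x⁻¹ = y⁻¹) := by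
  have hinv : Cfsg.Involves (DihedralGroup p) G ↔ HasReal p G := by
    rw [← involves_dihedral_iff hp]
    exact Lib.Involves.involves_iff.symm
  have hpp : p.Prime := Fact.out
  rw [hinv]
  constructor
  · constructor
    · rintro ⟨x, t, hx, ht, h⟩
      refine ⟨t, Subgroup.zpowers x, ht, IsPGroup.of_card (n := 1) (by rw [Nat.card_zpowers, hx, pow_one]), ?_, ?_⟩
      · have h1 : ∀ n : ℤ, t * x ^ n * t⁻¹ = (x ^ n)⁻¹ := by
          intro n
          rw [← conj_zpow, h, inv_zpow]
        rw [Subgroup.mem_normalizer_iff]
        intro y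
        constructor
        · rintro ⟨n, rfl⟩
          simp only [h1]
          exact inv_mem (Subgroup.zpow_mem_zpowers x n)
        · rintro ⟨n, hn⟩
          simp only at hn
          have h2 : t * x ^ (-n) * t⁻¹ = x ^ n := by rw [h1, zpow_neg, inv_inv]
          rw [← h2] at hn
          have h3 : y = x ^ (-n) := (mul_left_cancel (mul_right_cancel hn)).symm
          rw [h3]
          exact Subgroup.zpow_mem_zpowers x _
      · intro hc
        rw [Subgroup.mem_centralizer_iff] at hc
        have h1 := hc x (Subgroup.mem_zpowers x)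
        rw [← h1, mul_inv_cancel_right] at h
        have h3 : x ^ 2 = 1 := by rw [pow_two, mul_eq_one_iff_eq_inv]; exact h
        have h4 := orderOf_dvd_of_pow_eq_one h3
        rw [hx] at h4
        exact hp ((Nat.prime_dvd_prime_iff_eq hpp Nat.prime_two).1 h4)
    · rintro ⟨t, P, ht, hP, hn, hc⟩
      refine hasReal_of_act hP ht (fun r hr => (Subgroup.mem_normalizer_iff.1 hn r).1 hr) ?_
      by_contra hall
      push Not at hall
      apply hc
      rw [Subgroup.mem_centralizer_iff]
      intro r hr
      have := hall r hr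
      rw [mul_inv_eq_iff_eq_mul] at this
      exact this.symm
  · constructor
    · rintro ⟨x, t, hx, ht, h⟩
      refine ⟨t, x, ht, ⟨1, by rw [hx, pow_one]⟩, ?_, h⟩
      rintro rfl
      rw [orderOf_one] at hx
      exact hpp.one_lt.ne hx
    · rintro ⟨t, y, ht, hy, hy1, h⟩
      exact hasReal_of_pElt hy hy1 ht h

end Cfsg.Agent.S2758
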