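import Cfsg.Agent.H275.QdSylow
import Cfsg.Agent.OddOrderLocal.FittingHall
import Cfsg.Statements.S2763
set_option linter.all false

-- part: H212/QdNormalizer
section
set_option autoImplicit false

/-!
# Normalizers of characteristic subgroups of a Sylow `p`-subgroup of `Qd(p)`
-/

namespace Cfsg.Agent.H212.QdNormalizer

open Cfsg.Agent.H275.QdSylow

/-- The upper unitriangular matrices as elements of the unitriangular subgroup. -/
def U {p : ℕ} (a b c : ZMod p) : UT p := ⟨⟨ut a b c, ut_mem_qd _ _ _⟩, ⟨a, b, c, rfl⟩⟩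

theorem U_mul {p : ℕ} (a b c a' b' c' : ZMod p) :
    U a b c * U a' b' c' = U (a + a') (b' + a * c' + b) (c + c') := by
  apply Subtype.ext
  apply Subtype.ext
  exact ut_mul a b c a' b' c'

theorem U_surj {p : ℕ} (x : UT p) : ∃ a b c : ZMod p, x = U a b c := by
  obtain ⟨x, a, b, c, h⟩ := x
  exact ⟨a, b, c, Subtype.ext (Subtype.ext h)⟩

theorem U_inj {p : ℕ} {a b c a' b' c' : ZMod p} (h : U a b c = U a' b' c') :
    a = a' ∧ b = b' ∧ c = c' :=
  ut_inj (congrArg (fun M : UT p => ((M : ↥(Cfsg.qd p)) : Matrix.SpecialLinearGroup (Fin 3) (ZMod p))) h)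

theorem U_zero {p : ℕ} : U (0 : ZMod p) 0 0 = 1 := Subtype.ext (Subtype.ext ut_zero)

theorem U_inv {p : ℕ} (a b c : ZMod p) : (U a b c)⁻¹ = U (-a) (a * c - b) (-c) := by
  rw [inv_eq_iff_mul_eq_one, U_mul, ← U_zero]
  congr 1 <;> ring

/-- The flip, on coordinates. -/
noncomputable def flipFun {p : ℕ} (x : UT p) : UT p :=
  U ((utEquiv p).symm x).2.2 (((utEquiv p).symm x).1 * ((utEquiv p).symm x).2.2 - ((utEquiv p).symm x).2.1)
    ((utEquiv p).symm x).1

theorem flipFun_U {p : ℕ} (a b c : ZMod p) : flipFun (U a b c) = U c (a * c - b) a := by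
  have h : (utEquiv p).symm (U a b c) = (a, b, c) := by
    rw [Equiv.symm_apply_eq]
    rfl
  rw [flipFun, h]

/-- The flip automorphism of the unitriangular group. -/
noncomputable def flip (p : ℕ) : UT p ≃* UT p where
  toFun := flipFun
  invFun := flipFun
  left_inv := by
    intro x
    obtain ⟨a, b, c, rfl⟩ := U_surj x
    rw [flipFun_U, flipFun_U]
    congr 1
    ring
  right_inv := by
    intro x
    obtain ⟨a, b, c, rfl⟩ := U_surj x
    rw [flipFun_U, flipFun_U]
    congr 1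
    ring
  map_mul' := by
    intro x y
    obtain ⟨a, b, c, rfl⟩ := U_surj x
    obtain ⟨a', b', c', rfl⟩ := U_surj y
    rw [U_mul, flipFun_U, flipFun_U, flipFun_U, U_mul]
    congr 1
    ring

theorem flip_U {p : ℕ} (a b c : ZMod p) : flip p (U a b c) = U c (a * c - b) a := flipFun_U a b c

theorem U_pow {p : ℕ} (b : ZMod p) (n : ℕ) : (U 0 b 0) ^ n = U (0 : ZMod p) (n * b) 0 := by
  induction n with
  | zero => rw [pow_zero, Nat.cast_zero, zero_mul, U_zero]
  | succ n ih =>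
    rw [pow_succ, ih, U_mul]
    push_cast
    congr 1 <;> ring

theorem center_mem {p : ℕ} [Fact p.Prime] {T : Subgroup (UT p)} {b : ZMod p} (hb : b ≠ 0)
    (h : U 0 b 0 ∈ T) (b' : ZMod p) : U 0 b' 0 ∈ T := by
  have h1 := T.pow_mem h (b' / b).val
  rw [U_pow, ZMod.natCast_val, ZMod.cast_id', id, div_mul_cancel₀ _ hb] at h1
  exact h1

theorem center_le {p : ℕ} [Fact p.Prime] {T : Subgroup (UT p)} (hT : T ≠ ⊥) (hn : T.Normal)
    (b' : ZMod p) : U 0 b' 0 ∈ T := by
  obtain ⟨x, hx, hx1⟩ : ∃ x, x ∈ T ∧ x ≠ 1 := by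
    obtain ⟨x, hx⟩ := Subgroup.ne_bot_iff_exists_ne_one.1 hT
    exact ⟨x.1, x.2, fun h => hx (Subtype.ext h)⟩
  obtain ⟨a, b, c, rfl⟩ := U_surj x
  have hcomm : ∀ y : UT p, U a b c * y * (U a b c)⁻¹ * y⁻¹ ∈ T := by
    intro y
    have h1 := hn.conj_mem _ (T.inv_mem hx) y
    have h2 := T.mul_mem hx h1
    convert h2 using 1
    group
  by_cases ha : a = 0
  · by_cases hc : c = 0
    · subst ha hc
      refine center_mem (b := b) ?_ hx b'
      rintro rfl
      exact hx1 U_zero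
    · have h1 := hcomm (U 1 0 0)
      rw [U_inv, U_inv, U_mul, U_mul, U_mul] at h1
      refine center_mem (b := -c) (neg_ne_zero.2 hc) ?_ b'
      convert h1 using 2 <;> ring
  · have h1 := hcomm (U 0 0 1)
    rw [U_inv, U_inv, U_mul, U_mul, U_mul] at h1
    refine center_mem (b := a) ha ?_ b'
    convert h1 using 2 <;> ring

theorem last_row {p : ℕ} [Fact p.Prime] {M : Matrix.SpecialLinearGroup (Fin 3) (ZMod p)} (hM : M ∈ Cfsg.qd p) :
    (M : Matrix (Fin 3) (Fin 3) (ZMod p)) 2 0 = 0 ∧ (M : Matrix (Fin 3) (Fin 3) (ZMod p)) 2 1 = 0 ∧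
        (M : Matrix (Fin 3) (Fin 3) (ZMod p)) 2 2 = 1 := by
  induction hM using Subgroup.closure_induction with
  | mem x hx => exact hx
  | one => simp
  | mul x y _ _ hx hy =>
    obtain ⟨h1, h2, h3⟩ := hx
    obtain ⟨h4, h5, h6⟩ := hy
    simp only [Matrix.SpecialLinearGroup.coe_mul, Matrix.mul_apply, Fin.sum_univ_three, h1, h2, h3, h4, h5, h6]
    simp
  | inv x _ hx =>
    have hpow : ∀ k : ℕ, ((x ^ k : Matrix.SpecialLinearGroup (Fin 3) (ZMod p)) : Matrix (Fin 3) (Fin 3) (ZMod p)) 2 0 = 0 ∧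
        ((x ^ k : Matrix.SpecialLinearGroup (Fin 3) (ZMod p)) : Matrix (Fin 3) (Fin 3) (ZMod p)) 2 1 = 0 ∧
        ((x ^ k : Matrix.SpecialLinearGroup (Fin 3) (ZMod p)) : Matrix (Fin 3) (Fin 3) (ZMod p)) 2 2 = 1 := by
      intro k
      induction k with
      | zero => simp
      | succ k ih =>
        obtain ⟨h1, h2, h3⟩ := ih
        obtain ⟨h4, h5, h6⟩ := hx
        rw [pow_succ]
        simp only [Matrix.SpecialLinearGroup.coe_mul, Matrix.mul_apply, Fin.sum_univ_three, h1, h2, h3, h4, h5, h6]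
        simp
    have hinv : x⁻¹ = x ^ (orderOf x - 1) := by
      rw [inv_eq_iff_mul_eq_one, ← pow_succ', Nat.sub_add_cancel (orderOf_pos x), pow_orderOf_eq_one]
    rw [hinv]
    exact hpow _

/-- The normalizer of a nontrivial characteristic subgroup of the unitriangular group. -/
theorem normalizer_le {p : ℕ} [Fact p.Prime] {T : Subgroup (UT p)} (hT : T ≠ ⊥) (hc : T.Characteristic) :
    Subgroup.normalizer ((T.map (UT p).subtype : Subgroup ↥(Cfsg.qd p)) : Set ↥(Cfsg.qd p)) ≤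
      Subgroup.normalizer ((UT p : Subgroup ↥(Cfsg.qd p)) : Set ↥(Cfsg.qd p)) := by
  intro g hg
  have hcen := center_le hT inferInstance
  obtain ⟨h20, h21, h22⟩ := last_row g.2
  by_cases h10 : (g : Matrix.SpecialLinearGroup (Fin 3) (ZMod p)).1 1 0 = 0
  · -- `g` is in the Borel subgroup
    have hdet := g.1.2
    rw [Matrix.det_fin_three, h20, h21, h22, h10] at hdet
    have hg1 : g ∈ Subgroup.normalizer ((UT p : Subgroup ↥(Cfsg.qd p)) : Set ↥(Cfsg.qd p)) := by
      refine Subgroup.mem_normalizer_fintype ?_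
      rintro _ ⟨a, b, c, h⟩
      have h00 : g.1.1 0 0 * g.1.1 1 1 = 1 := by linear_combination hdet
      refine ⟨g.1.1 0 0 ^ 2 * a, g.1.1 0 0 * b + g.1.1 0 1 * c - g.1.1 0 0 ^ 2 * a * g.1.1 1 2,
        g.1.1 1 1 * c, ?_⟩
      rw [Subgroup.coe_mul, Subgroup.coe_mul, Subgroup.coe_inv, mul_inv_eq_iff_eq_mul, h]
      apply Subtype.ext
      rw [Matrix.SpecialLinearGroup.coe_mul, Matrix.SpecialLinearGroup.coe_mul, ut_coe, ut_coe]
      ext i j
      fin_cases i <;> fin_cases j <;>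
        simp [Matrix.mul_apply, Fin.sum_univ_three, h20, h21, h22, h10]
      · linear_combination (-g.1.1 0 0 * a) * h00
      · ring
      · ring
    exact hg1
  · -- `T` is everything
    have hall : ∀ c : ZMod p, ∃ b : ZMod p, U 0 b c ∈ T := by
      intro c
      set b0 : ZMod p := c / g.1.1 1 0 with hb0
      have h1 : (U 0 b0 0 : UT p).1 ∈ T.map (UT p).subtype := ⟨_, hcen b0, rfl⟩
      have h2 := (Subgroup.mem_normalizer_iff.1 hg _).1 h1
      obtain ⟨y, hy, hy2⟩ := h2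
      have h3 : y = U 0 (g.1.1 0 0 * b0) c := by
        apply Subtype.ext
        change (UT p).subtype y = _
        rw [hy2, mul_inv_eq_iff_eq_mul]
        apply Subtype.ext
        apply Subtype.ext
        rw [Subgroup.coe_mul, Subgroup.coe_mul, Matrix.SpecialLinearGroup.coe_mul,
          Matrix.SpecialLinearGroup.coe_mul]
        change g.1.1 * !![1, 0, b0; 0, 1, 0; 0, 0, 1] = !![1, 0, g.1.1 0 0 * b0; 0, 1, c; 0, 0, 1] * g.1.1
        have hcc : g.1.1 1 0 * b0 = c := by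
          rw [hb0]
          field_simp
        ext i j
        fin_cases i <;> fin_cases j <;>
          simp [Matrix.mul_apply, Fin.sum_univ_three, h20, h21, h22, hcc]
        · ring
        · ring
      exact ⟨_, h3 ▸ hy⟩
    have hV : ∀ b c : ZMod p, U 0 b c ∈ T := by
      intro b c
      obtain ⟨b1, h1⟩ := hall c
      have h2 := T.mul_mem (hcen (b - b1)) h1
      rw [U_mul] at h2
      convert h2 using 2 <;> ring
    have hW : ∀ a : ZMod p, U a 0 0 ∈ T := by
      intro a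
      have h1 : flip p (U 0 0 a) ∈ T.map (flip p).toMonoidHom := ⟨_, hV 0 a, rfl⟩
      rw [Subgroup.characteristic_iff_map_eq.1 hc (flip p), flip_U] at h1
      convert h1 using 2
      ring
    have htop : T = ⊤ := by
      rw [eq_top_iff]
      intro x _
      obtain ⟨a, b, c, rfl⟩ := U_surj x
      have h1 := T.mul_mem (hV b c) (hW a)
      rw [U_mul] at h1
      convert h1 using 2 <;> ring
    rw [htop, ← MonoidHom.range_eq_map, Subgroup.range_subtype] at hg
    exact hg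

/-- The unitriangular group is not normal in `Qd(p)`. -/
theorem normalizer_ne_top {p : ℕ} [Fact p.Prime] :
    Subgroup.normalizer ((UT p : Subgroup ↥(Cfsg.qd p)) : Set ↥(Cfsg.qd p)) ≠ ⊤ := by
  intro h
  let w : Matrix.SpecialLinearGroup (Fin 3) (ZMod p) := ⟨!![0, -1, 0; 1, 0, 0; 0, 0, 1], by
    rw [Matrix.det_fin_three]; simp⟩
  have hw : w ∈ Cfsg.qd p := Subgroup.subset_closure ⟨rfl, rfl, rfl⟩
  have h1 : (⟨w, hw⟩ : ↥(Cfsg.qd p)) ∈ Subgroup.normalizer ((UT p : Subgroup ↥(Cfsg.qd p)) : Set ↥(Cfsg.qd p)) := by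
    rw [h]; trivial
  obtain ⟨a, b, c, h2⟩ := (Subgroup.mem_normalizer_iff.1 h1 (U 1 0 0 : UT p).1).1 (U 1 0 0 : UT p).2
  rw [Subgroup.coe_mul, Subgroup.coe_mul, Subgroup.coe_inv, mul_inv_eq_iff_eq_mul] at h2
  have h3 := congrArg Subtype.val h2
  rw [Matrix.SpecialLinearGroup.coe_mul, Matrix.SpecialLinearGroup.coe_mul] at h3
  change (!![0, -1, 0; 1, 0, 0; 0, 0, 1] : Matrix (Fin 3) (Fin 3) (ZMod p)) * !![1, 1, 0; 0, 1, 0; 0, 0, 1] =
    !![1, a, b; 0, 1, c; 0, 0, 1] * !![0, -1, 0; 1, 0, 0; 0, 0, 1] at h3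
  have h4 := congrFun (congrFun h3 1) 1
  simp [Matrix.mul_apply, Fin.sum_univ_three] at h4

theorem main_UT {p : ℕ} [Fact p.Prime] {T : Subgroup (UT p)} (hT : T ≠ ⊥) (hc : T.Characteristic) :
    Subgroup.normalizer ((T.map (UT p).subtype : Subgroup ↥(Cfsg.qd p)) : Set ↥(Cfsg.qd p)) =
      Subgroup.normalizer ((UT p : Subgroup ↥(Cfsg.qd p)) : Set ↥(Cfsg.qd p)) :=
  le_antisymm (normalizer_le hT hc)
    (Cfsg.Agent.OddOrderLocal.FittingHall.normalizer_le_normalizer_map (UT p) T hc)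

end Cfsg.Agent.H212.QdNormalizer
end

-- part: S2763
section
set_option autoImplicit false
open Cfsg

namespace Cfsg.Agent.S2763

open Cfsg.Agent.H275.QdSylow in
theorem exists_sylow {p : ℕ} [hp : Fact p.Prime] :
    ∃ R : Sylow p ↥(Cfsg.qd p), (R : Subgroup ↥(Cfsg.qd p)) = UT p := by
  have hUp : IsPGroup p (UT p) := IsPGroup.of_card (card_UT p)
  have hidx : ¬ p ∣ (UT p).index := by
    have h1 := Subgroup.card_mul_index (UT p)
    rw [card_UT, card_qd] at h1
    have h2 := Nat.eq_of_mul_eq_mul_left (pow_pos hp.out.pos 3) h1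
    rw [h2]
    intro hd
    have h3 : p ∣ p ^ 2 := dvd_pow_self p (by norm_num)
    have h4 : 1 ≤ p ^ 2 := Nat.one_le_pow _ _ hp.out.pos
    have h5 := (Nat.dvd_sub h3 hd)
    have h6 : p ^ 2 - (p ^ 2 - 1) = 1 := by omega
    rw [h6] at h5
    exact hp.out.one_lt.ne' (Nat.dvd_one.1 h5)
  exact ⟨hUp.toSylow hidx, rfl⟩

/-- In the group Qd(p) (p prime; the natural semidirect product of an elementary abelian group of order p² by SL₂(p)), the normalizer of every nontrivial characteristic subgroup of a Sylow p-subgroup S equals the normalizer of S, which is a proper subgroup; in particular no such characteristic subgroup is normal. -/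
theorem result {p : ℕ} [Fact p.Prime] (S : Sylow p ↥(Cfsg.qd p)) (T : Subgroup ↥(S : Subgroup ↥(Cfsg.qd p))) (hT : T ≠ ⊥) (hTc : T.Characteristic) : Subgroup.normalizer ((T.map (S : Subgroup ↥(Cfsg.qd p)).subtype : Subgroup ↥(Cfsg.qd p)) : Set ↥(Cfsg.qd p)) = Subgroup.normalizer ((S : Subgroup ↥(Cfsg.qd p)) : Set ↥(Cfsg.qd p)) ∧ Subgroup.normalizer ((S : Subgroup ↥(Cfsg.qd p)) : Set ↥(Cfsg.qd p)) ≠ ⊤ := by
  classical
  obtain ⟨R, hR⟩ := exists_sylow (p := p)
  obtain ⟨x, hx⟩ := MulAction.exists_smul_eq ↥(Cfsg.qd p) S R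
  have hx' : (S : Subgroup ↥(Cfsg.qd p)).map (MulAut.conj x).toMonoidHom = Cfsg.Agent.H275.QdSylow.UT p := by
    rw [← hR, ← hx, Sylow.coe_subgroup_smul]
    rfl
  -- the isomorphism of `S` with the unitriangular group
  let e : ↥(S : Subgroup ↥(Cfsg.qd p)) ≃* ↥(Cfsg.Agent.H275.QdSylow.UT p) :=
    ((S : Subgroup ↥(Cfsg.qd p)).equivMapOfInjective (MulAut.conj x).toMonoidHom
      (MulAut.conj x).injective).trans (MulEquiv.subgroupCongr hx')
  have he : ∀ s : ↥(S : Subgroup ↥(Cfsg.qd p)), ((e s : ↥(Cfsg.Agent.H275.QdSylow.UT p)) : ↥(Cfsg.qd p)) =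
      MulAut.conj x (s : ↥(Cfsg.qd p)) := fun s => rfl
  set T' : Subgroup ↥(Cfsg.Agent.H275.QdSylow.UT p) := T.map e.toMonoidHom with hT'
  have hT'ne : T' ≠ ⊥ := by
    intro h0
    exact hT ((Subgroup.map_eq_bot_iff_of_injective T e.injective).1 h0)
  have hT'c : T'.Characteristic := by
    rw [Subgroup.characteristic_iff_map_eq]
    intro f
    have h1 := Subgroup.characteristic_iff_map_eq.1 hTc ((e.trans f).trans e.symm)
    rw [hT', Subgroup.map_map]
    have h2 : T.map (e.symm.toMonoidHom.comp (f.toMonoidHom.comp e.toMonoidHom)) = T := h1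
    have h3 : (T.map (e.symm.toMonoidHom.comp (f.toMonoidHom.comp e.toMonoidHom))).map e.toMonoidHom =
        T.map (f.toMonoidHom.comp e.toMonoidHom) := by
      rw [Subgroup.map_map]
      congr 1
      ext s
      simp
    rw [← h3, h2]
  have hmap : T'.map (Cfsg.Agent.H275.QdSylow.UT p).subtype =
      (T.map (S : Subgroup ↥(Cfsg.qd p)).subtype).map (MulAut.conj x).toMonoidHom := by
    rw [hT', Subgroup.map_map, Subgroup.map_map]
    rfl
  have h1 := Cfsg.Agent.H212.QdNormalizer.main_UT hT'ne hT'c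
  have h2 := Cfsg.Agent.H212.QdNormalizer.normalizer_ne_top (p := p)
  rw [hmap, ← hx'] at h1
  rw [← hx'] at h2
  have key : ∀ H : Subgroup ↥(Cfsg.qd p), Subgroup.normalizer
      ((H.map (MulAut.conj x).toMonoidHom : Subgroup ↥(Cfsg.qd p)) : Set ↥(Cfsg.qd p)) =
        (Subgroup.normalizer (H : Set ↥(Cfsg.qd p))).map (MulAut.conj x).toMonoidHom := by
    intro H
    exact (Subgroup.map_equiv_normalizer_eq H (MulAut.conj x)).symm
  rw [key, key] at h1
  rw [key] at h2
  refine ⟨Subgroup.map_injective (MulAut.conj x).injective h1, ?_⟩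
  intro h3
  apply h2
  rw [h3, ← MonoidHom.range_eq_map]
  exact MonoidHom.range_eq_top.2 (MulAut.conj x).surjective

end Cfsg.Agent.S2763
end
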