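import Cfsg.Agent.H213.Qd1
import Cfsg.Agent.H260.Push5
import Cfsg.Agent.H212.QdOver
import Cfsg.Statements.S2766
set_option linter.all false

-- part: H213/Qd2
section
/-!
# Rank one pushing up for `p ≥ 5`: the structure `G = G₀ × E`, second part
-/

set_option autoImplicit false
set_option linter.unusedSectionVars false

namespace Cfsg.Agent.H213.Qd

open Subgroup Cfsg.Agent.H260.Push Matrix Cfsg.Agent.H213.Rk
open Cfsg.Agent.H260.Psl (dg dg_conj)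
open Cfsg.Agent.LieClassical.SLTwoUnipotent (u l u_add u_neg u_zero)
open scoped commutatorElement Pointwise

variable {G : Type*} [Group G]

/-- The structure `G = V₁ X₀ E`. -/
structure QD (F : Type*) [Field F] (p : ℕ) (S T : Subgroup G) (ρ : G →* SpecialLinearGroup (Fin 2) F)
    (ψ : G → (Fin 2 → F)) (V₁ X₀ E : Subgroup G) : Prop where
  V1T : V₁ ≤ T
  V1n : V₁.Normal
  add : ∀ v ∈ V₁, ∀ w ∈ V₁, ψ (v * w) = ψ v + ψ w
  inj : ∀ v ∈ V₁, ψ v = 0 → v = 1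
  sur : ∀ f, ∃ v ∈ V₁, ψ v = f
  act : ∀ g : G, ∀ v ∈ V₁, ψ (g * v * g⁻¹) = (ρ g).1.mulVec (ψ v)
  V1c : ∀ v ∈ V₁, ∀ t ∈ T, t * v = v * t
  ET : E ≤ T
  dec : ∀ g : G, ∃ v ∈ V₁, ∃ x ∈ X₀, ∃ e ∈ E, g = v * x * e
  X0E : ∀ x ∈ X₀, ∀ e ∈ E, x * e = e * x
  X0T : ∀ x ∈ X₀, x ∈ T → x = 1
  V1E : ∀ v ∈ V₁, v ∈ E → v = 1
  X0s : ∀ A, ∃ x ∈ X₀, ρ x = A
  ker : ρ.ker = T
  tor : ∀ k : F, ∀ hk : k ≠ 0, ∃ x ∈ X₀, ρ x = dg k hk ∧ (orderOf x).Coprime p
  decT : ∀ t ∈ T, ∃ v ∈ V₁, ∃ e ∈ E, t = v * e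

section Main

variable [Finite G] {F : Type*} [Field F] [Fintype F] {p : ℕ} [hp : Fact p.Prime] {S T M : Subgroup G}
  (c : Core p (Fintype.card F) S T M) (n : Core.Nat' p (Fintype.card F) S T M)
  {x y : F → G} {g₀ : G} (fr : Frame F S T M x y g₀)
  (hV : ∀ v ∈ cen T, v ^ p = 1)
  {ρ : G →* SpecialLinearGroup (Fin 2) F} {ψ : G → (Fin 2 → F)} (ns : NatSec F (cen T) (center G) ρ ψ)
  (hρx : ∀ a, ρ (x a) = u a)
  (hk : ρ.ker = T) (hp2 : p ≠ 2) {α : S ≃* S} (o : One S T α) {z : G}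
  (hz : ρ z = dg (-1 : F) (neg_ne_zero.mpr one_ne_zero)) (hzz : z * z = 1)
  (hkF : ∃ j, Fintype.card F = p ^ j) (h2 : (2 : F) ≠ 0) (h3 : (3 : F) ≠ 0)

include c hk in
theorem rho_S (fr : Frame F S T M x y g₀) (hρx : ∀ a, ρ (x a) = u a) {s : G} (hs : s ∈ S) : ∃ a, ρ s = u a := by
  obtain ⟨a, ha⟩ := fr.xsur s hs
  have h2 : (x a)⁻¹ * s ∈ ρ.ker := by rw [hk]; exact ha
  rw [MonoidHom.mem_ker, map_mul, map_inv, inv_mul_eq_one, hρx] at h2
  exact ⟨a, h2.symm⟩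

include c hk in
theorem mem_S_of_rho (fr : Frame F S T M x y g₀) (hρx : ∀ a, ρ (x a) = u a) {s : G} {a : F}
    (h : ρ s = u a) : s ∈ S := by
  have h1 : (x a)⁻¹ * s ∈ T := by
    rw [← hk, MonoidHom.mem_ker, map_mul, map_inv, hρx, h, inv_mul_cancel]
  have := S.mul_mem (fr.xS a) (c.le h1)
  rwa [mul_inv_cancel_left] at this

include c fr hV ns hρx hk hp2 o hz hzz hkF h2 h3

/-- `ρ` maps `X₀` onto `SL₂(F)` -/
theorem X0_sur (A : SpecialLinearGroup (Fin 2) F) : ∃ x ∈ X0 p z, ρ x = A := by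
  set N := (X0 p z).map ρ with hN
  have hNn : N.Normal := by
    constructor
    rintro _ ⟨r, hr, rfl⟩ B
    obtain ⟨g, rfl⟩ := ns.rsur B
    obtain ⟨w, hw, r', hr', rfl⟩ := G_dec c hV ns hk hp2 o hz hzz g
    have hρw : ρ w = 1 := by
      have : w ∈ ρ.ker := by rw [hk]; exact cen_le T hw.1
      exact this
    rw [map_mul, hρw, one_mul]
    exact ⟨r' * r * r'⁻¹, X0_conj hr' hr, by simp⟩
  have hu : ∀ a : F, u a ∈ N := by
    intro a
    obtain ⟨t, ht, htρ, -⟩ := X0_dg c hV ns hk hp2 o hz hzz hkF (2 : F) h2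
    have h4 : dg (2 : F) h2 ∈ N := ⟨t, ht, htρ⟩
    have h5 := N.mul_mem h4 (hNn.conj_mem _ (N.inv_mem h4) (u (3⁻¹ * a)))
    have e : dg (2 : F) h2 * (u (3⁻¹ * a) * (dg (2 : F) h2)⁻¹ * (u (3⁻¹ * a))⁻¹) =
        (dg (2 : F) h2 * u (3⁻¹ * a) * (dg (2 : F) h2)⁻¹) * (u (3⁻¹ * a))⁻¹ := by group
    rw [e, dg_conj, ← u_neg, ← u_add] at h5
    have h6 : (2 : F) ^ 2 * (3⁻¹ * a) + -(3⁻¹ * a) = a := by
      field_simp
      ring
    rwa [h6] at h5
  have htop : N = ⊤ := by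
    have h4 : (⊤ : Subgroup G) ≤ N.comap ρ := by
      rw [← c.gen g₀ fr.gM]
      apply sup_le
      · intro s hs
        obtain ⟨a, ha⟩ := rho_S c hk fr hρx hs
        rw [Subgroup.mem_comap, ha]
        exact hu a
      · intro s hs
        rw [mem_cj] at hs
        obtain ⟨a, ha⟩ := rho_S c hk fr hρx hs
        rw [Subgroup.mem_comap]
        have h5 := hNn.conj_mem _ (hu a) (ρ g₀)
        rw [← ha, ← map_mul, ← map_inv, ← map_mul] at h5
        have e : g₀ * (g₀⁻¹ * s * g₀) * g₀⁻¹ = s := by group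
        rwa [e] at h5
    rw [eq_top_iff]
    intro B _
    obtain ⟨g, rfl⟩ := ns.rsur B
    exact h4 (mem_top g)
  have : A ∈ N := by rw [htop]; trivial
  exact this

/-- `X₀ ∩ S` is abelian -/
theorem X0S_comm {s s' : G} (hs : s ∈ X0 p z) (hsS : s ∈ S) (hs' : s' ∈ X0 p z) (hsS' : s' ∈ S) :
    s * s' = s' * s := by
  have hTn := c.normT
  have hXn := c.normX
  have hV1n := V1_normal c hV ns hk hp2 hz (z := z)
  set V₁ := V1 T z (fun _ ha _ hb => c.cenT_comm ha hb) with hV₁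
  have hXE := fun r (hr : r ∈ X0 p z) e (he : e ∈ T) (hze : z * e = e * z) =>
    X0_E c hV ns hk hp2 o hz hzz hr he hze
  have hV1z : ∀ v ∈ V₁, z * v = v * z → v = 1 := by
    intro v hv hzv
    have h4 := hv.2
    rw [hzv, mul_inv_cancel_right] at h4
    have h5 : v ^ 2 = 1 := by
      rw [pow_two]; nth_rewrite 1 [h4]; exact inv_mul_cancel v
    have h6 : orderOf v ∣ Nat.gcd 2 p := Nat.dvd_gcd (orderOf_dvd_of_pow_eq_one h5)
      (orderOf_dvd_of_pow_eq_one (hV v hv.1))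
    have h7 : Nat.gcd 2 p = 1 := (Nat.coprime_primes Nat.prime_two hp.out).mpr (Ne.symm hp2)
    rw [h7] at h6
    exact orderOf_eq_one_iff.mp (Nat.dvd_one.mp h6)
  -- `s e w ∈ V'` with `e` central in `C_T(z)`
  have key : ∀ s ∈ X0 p z, s ∈ S → ∃ e ∈ T, z * e = e * z ∧ (∀ y ∈ T, z * y = y * z → e * y = y * e) ∧
      ∃ w ∈ V₁, s * e * w ∈ im α (cen T) := by
    intro s hs hsS
    obtain ⟨v', hv', t, ht, hst⟩ := o.d1 s hsS
    obtain ⟨w, hw, e, he, hze, rfl⟩ := T_dec c hV ns hk hp2 o hz hzz ht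
    have hew : e * w = w * e := cen_comm hw.1 he
    have hmem : s * e⁻¹ * w⁻¹ ∈ im α (cen T) := by
      have : s * e⁻¹ * w⁻¹ = v' := by rw [hst]; group
      rw [this]; exact hv'
    have hze' : z * e⁻¹ = e⁻¹ * z := by
      have : Commute z e := hze
      exact this.inv_right.eq
    refine ⟨e⁻¹, inv_mem he, hze', ?_, w⁻¹, inv_mem hw, hmem⟩
    intro y hy hzy
    obtain ⟨v, hv, k, hkk, hyk⟩ := o.decT c hy
    obtain ⟨v₁, hv₁, ζ, hζ, rfl⟩ := V_dec c hV ns hp2 hz hv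
    have hkc := o.comm' c hmem hkk.2
    -- `k = (v₁ ζ)⁻¹ y`
    have hk' : k = (v₁ * ζ)⁻¹ * y := by rw [hyk]; group
    have hζc : ∀ g : G, Commute g ζ := fun g => mem_center_iff.mp hζ g
    have k1 : Commute (v₁⁻¹ * y) (s * e⁻¹ * w⁻¹) := by
      have h4 : v₁⁻¹ * y = ζ * k := by
        rw [hk', _root_.mul_inv_rev]
        have := (hζc v₁⁻¹).eq
        calc v₁⁻¹ * y = ζ * (ζ⁻¹ * v₁⁻¹) * y := by group
          _ = ζ * (ζ⁻¹ * v₁⁻¹ * y) := by group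
      rw [h4]
      exact ((hζc _).symm).mul_left hkc
    have c1 : Commute y s := (hXE s hs y hy hzy).symm
    have c2 : Commute y w⁻¹ := (show Commute y w from cen_comm hw.1 hy).inv_right
    have c3 : Commute e⁻¹ v₁⁻¹ := (show Commute e v₁ from cen_comm hv₁.1 he).inv_left.inv_right
    have c4 : Commute w⁻¹ v₁⁻¹ := (show Commute w v₁ from c.cenT_comm hw.1 hv₁.1).inv_left.inv_right
    have h5 : v₁⁻¹ * y * (s * e⁻¹ * w⁻¹) = s * e⁻¹ * w⁻¹ * (v₁⁻¹ * y) := k1.eq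
    have h6 : v₁⁻¹ * y * (s * e⁻¹ * w⁻¹) = v₁⁻¹ * s * (y * e⁻¹) * w⁻¹ := by
      calc v₁⁻¹ * y * (s * e⁻¹ * w⁻¹) = v₁⁻¹ * (y * s) * e⁻¹ * w⁻¹ := by group
        _ = _ := by rw [c1.eq]; group
    have h7 : s * e⁻¹ * w⁻¹ * (v₁⁻¹ * y) = s * v₁⁻¹ * (e⁻¹ * y) * w⁻¹ := by
      calc s * e⁻¹ * w⁻¹ * (v₁⁻¹ * y) = s * e⁻¹ * (w⁻¹ * v₁⁻¹) * y := by group
        _ = s * (e⁻¹ * v₁⁻¹) * w⁻¹ * y := by rw [c4.eq]; group
        _ = s * v₁⁻¹ * e⁻¹ * (w⁻¹ * y) := by rw [c3.eq]; group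
        _ = _ := by rw [← c2.eq]; group
    rw [h6, h7] at h5
    have h8 : v₁ * s⁻¹ * v₁⁻¹ * s = (e⁻¹ * y) * (y * e⁻¹)⁻¹ := by
      have h9 : v₁⁻¹ * s * (y * e⁻¹) = s * v₁⁻¹ * (e⁻¹ * y) := mul_right_cancel h5
      calc v₁ * s⁻¹ * v₁⁻¹ * s = v₁ * s⁻¹ * (v₁⁻¹ * s * (y * e⁻¹)) * (y * e⁻¹)⁻¹ := by group
        _ = v₁ * s⁻¹ * (s * v₁⁻¹ * (e⁻¹ * y)) * (y * e⁻¹)⁻¹ := by rw [h9]
        _ = _ := by group
    have h9 : v₁ * s⁻¹ * v₁⁻¹ * s ∈ V₁ := by
      have := mul_mem hv₁ (hV1n.conj_mem _ (inv_mem hv₁) s⁻¹)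
      have e1 : v₁ * (s⁻¹ * v₁⁻¹ * s⁻¹⁻¹) = v₁ * s⁻¹ * v₁⁻¹ * s := by group
      rwa [e1] at this
    have h10 := hV1z _ h9 (by
      rw [h8]
      have q1 : Commute z e⁻¹ := hze'
      have q2 : Commute z y := hzy
      exact ((q1.mul_right q2).mul_right (q2.mul_right q1).inv_right).eq)
    rw [h8, mul_inv_eq_one] at h10
    exact h10
  obtain ⟨e, he, hze, hec, w, hw, h4⟩ := key s hs hsS
  obtain ⟨e', he', hze', hec', w', hw', h5⟩ := key s' hs' hsS'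
  -- the two elements of `V'` commute
  have h6 : Commute (s * e * w) (s' * e' * w') := by
    have := o.comm' c h5 (im_mono (cen_le T) h4)
    exact this
  have c1 : Commute e s := (hXE s hs e he hze).symm
  have c2 : Commute e s' := (hXE s' hs' e he hze).symm
  have c3 : Commute e' s := (hXE s hs e' he' hze').symm
  have c4 : Commute e' s' := (hXE s' hs' e' he' hze').symm
  have c5 : Commute e e' := hec e' he' hze'
  have c6 : Commute e w := cen_comm hw.1 he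
  have c7 : Commute e w' := cen_comm hw'.1 he
  have c8 : Commute e' w := cen_comm hw.1 he'
  have c9 : Commute e' w' := cen_comm hw'.1 he'
  have h7 : Commute (s * w) (s' * w') := by
    have q1 : s * e * w = (s * w) * e := by rw [mul_assoc, c6.eq, mul_assoc]
    have q2 : s' * e' * w' = (s' * w') * e' := by rw [mul_assoc, c9.eq, mul_assoc]
    rw [q1, q2] at h6
    have q3 : Commute e⁻¹ ((s' * w') * e') := ((c2.mul_right c7).mul_right c5).inv_left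
    have q4 : Commute (s * w) ((s' * w') * e') := by
      have := h6.mul_left q3
      rwa [mul_assoc (s * w), mul_inv_cancel, mul_one] at this
    have q5 : Commute (s * w) e'⁻¹ := ((c3.mul_right c8).inv_left).symm
    have := q4.mul_right q5
    rwa [mul_assoc (s' * w'), mul_inv_cancel, mul_one] at this
  have h8 : (s' * s)⁻¹ * (s * s') = (s⁻¹ * w' * s) * w * ((s'⁻¹ * w * s') * w')⁻¹ := by
    have h9 : s * w * (s' * w') = s' * w' * (s * w) := h7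
    have e1 : s * w * (s' * w') = (s * s') * ((s'⁻¹ * w * s') * w') := by group
    have e2 : s' * w' * (s * w) = (s' * s) * ((s⁻¹ * w' * s) * w) := by group
    rw [e1, e2] at h9
    calc (s' * s)⁻¹ * (s * s') = (s' * s)⁻¹ * ((s * s') * ((s'⁻¹ * w * s') * w')) *
          ((s'⁻¹ * w * s') * w')⁻¹ := by group
      _ = (s' * s)⁻¹ * ((s' * s) * ((s⁻¹ * w' * s) * w)) * ((s'⁻¹ * w * s') * w')⁻¹ := by rw [h9]
      _ = _ := by group
  have h9 : (s' * s)⁻¹ * (s * s') ∈ V₁ := by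
    rw [h8]
    have q1 : s⁻¹ * w' * s ∈ V₁ := by
      have := hV1n.conj_mem _ hw' s⁻¹
      rwa [inv_inv] at this
    have q2 : s'⁻¹ * w * s' ∈ V₁ := by
      have := hV1n.conj_mem _ hw s'⁻¹
      rwa [inv_inv] at this
    exact mul_mem (mul_mem q1 hw) (inv_mem (mul_mem q2 hw'))
  have h10 := hV1z _ h9 (by
    have q1 : Commute z s := X0_comm hs
    have q2 : Commute z s' := X0_comm hs'
    exact ((q2.mul_right q1).inv_right.mul_right (q1.mul_right q2)).eq)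
  rw [inv_mul_eq_one] at h10
  exact h10.symm

/-- `X₀ ∩ T = 1` -/
theorem X0_T {d : G} (hd : d ∈ X0 p z) (hdT : d ∈ T) : d = 1 := by
  have hTn := c.normT
  -- `G = X₀ S`
  have hGS : ∀ g : G, ∃ a ∈ X0 p z, ∃ s ∈ S, g = a * s := by
    intro g
    obtain ⟨a, ha, hρ⟩ := X0_sur c fr hV ns hρx hk hp2 o hz hzz hkF h2 h3 (ρ g)
    refine ⟨a, ha, a⁻¹ * g, ?_, by group⟩
    apply c.le
    rw [← hk, MonoidHom.mem_ker, map_mul, map_inv, hρ, inv_mul_cancel]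
  -- orders
  have hcard : Nat.card (X0 p z) * Nat.card S = Nat.card G * Nat.card (X0 p z ⊓ S : Subgroup G) := by
    rw [← Lib.ProductSet.card_mul_card_inf (X0 p z) S]
    congr 1
    have : ((X0 p z : Set G) * (S : Set G)) = Set.univ := by
      rw [Set.eq_univ_iff_forall]
      intro g
      obtain ⟨a, ha, s, hs, rfl⟩ := hGS g
      exact Set.mul_mem_mul ha hs
    rw [this]
    exact Nat.card_congr (Equiv.Set.univ G)
  have hSi := c.syl
  obtain ⟨P, hP⟩ := hSi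
  have hidx : ¬ p ∣ S.index := by rw [← hP]; exact P.not_dvd_index
  have h4 : ((X0 p z ⊓ S).subgroupOf (X0 p z)).index = S.index := by
    have e1 := Subgroup.card_mul_index ((X0 p z ⊓ S).subgroupOf (X0 p z))
    rw [Nat.card_congr (Subgroup.subgroupOfEquivOfLe (inf_le_left : X0 p z ⊓ S ≤ X0 p z)).toEquiv] at e1
    have e2 := Subgroup.card_mul_index S
    rw [← e1, ← e2] at hcard
    have hpos1 : 0 < Nat.card (X0 p z ⊓ S : Subgroup G) := Nat.card_pos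
    have hpos2 : 0 < Nat.card S := Nat.card_pos
    have : (Nat.card (X0 p z ⊓ S : Subgroup G) * Nat.card S) * ((X0 p z ⊓ S).subgroupOf (X0 p z)).index =
        (Nat.card (X0 p z ⊓ S : Subgroup G) * Nat.card S) * S.index := by
      calc _ = Nat.card (X0 p z ⊓ S : Subgroup G) * ((X0 p z ⊓ S).subgroupOf (X0 p z)).index *
            Nat.card S := by ring
        _ = _ := by rw [hcard]; ring
    exact Nat.eq_of_mul_eq_mul_left (Nat.mul_pos hpos1 hpos2) this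
  have h5 : (⟨d, hd⟩ : X0 p z) = 1 := by
    apply transfer_central (p := p) ((X0 p z ⊓ S).subgroupOf (X0 p z))
    · apply IsPGroup.comap_subtype
      exact c.pgS.to_le inf_le_right
    · intro a ha b hb
      apply Subtype.ext
      exact X0S_comm c fr hV ns hρx hk hp2 o hz hzz hkF h2 h3 a.2 ha.2 b.2 hb.2
    · rw [h4]
      exact ((hp.out.coprime_iff_not_dvd).mpr hidx).symm
    · rw [eq_top_iff]
      have h6 : X0 p z ≤ (closure {r : X0 p z | (orderOf r).Coprime p}).map (X0 p z).subtype := by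
        conv_lhs => rw [X0]
        rw [closure_le]
        rintro r ⟨hr, hr'⟩
        have hr0 : r ∈ X0 p z := Subgroup.subset_closure ⟨hr, hr'⟩
        refine ⟨⟨r, hr0⟩, Subgroup.subset_closure ?_, rfl⟩
        change (orderOf (⟨r, hr0⟩ : X0 p z)).Coprime p
        rw [Subgroup.orderOf_mk]
        exact hr'
      intro r _
      obtain ⟨r', hr', hrr⟩ := h6 r.2
      have : r' = r := Subtype.ext hrr
      rwa [this] at hr'
    · exact ⟨hd, c.le hdT⟩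
    · rw [mem_center_iff]
      intro r
      apply Subtype.ext
      exact X0_E c hV ns hk hp2 o hz hzz r.2 hdT (X0_comm hd)
  exact congrArg Subtype.val h5

/-- the structure -/
theorem exists_QD : QD F p S T ρ ψ (V1 T z (fun _ ha _ hb => c.cenT_comm ha hb)) (X0 p z)
    (T ⊓ centralizer ({z} : Set G)) := by
  have hV1n := V1_normal c hV ns hk hp2 hz (z := z)
  have hcz : ∀ e : G, e ∈ centralizer ({z} : Set G) ↔ z * e = e * z := fun e => by
    rw [mem_centralizer_singleton_iff]; exact eq_comm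
  have hcent : ∀ v ∈ V1 T z (fun _ ha _ hb => c.cenT_comm ha hb), z * v = v * z → v = 1 := by
    intro v hv hzv
    have h4 := hv.2
    rw [hzv, mul_inv_cancel_right] at h4
    have h5 : v ^ 2 = 1 := by
      rw [pow_two]; nth_rewrite 1 [h4]; exact inv_mul_cancel v
    have h6 : orderOf v ∣ Nat.gcd 2 p := Nat.dvd_gcd (orderOf_dvd_of_pow_eq_one h5)
      (orderOf_dvd_of_pow_eq_one (hV v hv.1))
    have h7 : Nat.gcd 2 p = 1 := (Nat.coprime_primes Nat.prime_two hp.out).mpr (Ne.symm hp2)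
    rw [h7] at h6
    exact orderOf_eq_one_iff.mp (Nat.dvd_one.mp h6)
  refine
    { V1T := fun v hv => cen_le T hv.1, V1n := hV1n, add := fun v hv w hw => ns.add v hv.1 w hw.1,
      inj := ?_, sur := ?_, act := fun g v hv => ns.act g v hv.1, V1c := fun v hv t ht => cen_comm hv.1 ht,
      ET := inf_le_left, dec := ?_, X0E := ?_, X0T := ?_, V1E := ?_, X0s := ?_, ker := hk, tor := ?_,
      decT := ?_ }
  · intro v hv h0
    rw [ns.ker v hv.1] at h0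
    exact hcent v hv (mem_center_iff.mp h0 z)
  · intro f
    obtain ⟨v, hv, rfl⟩ := ns.sur f
    obtain ⟨w, hw, ζ, hζ, rfl⟩ := V_dec c hV ns hp2 hz hv
    refine ⟨w, hw, ?_⟩
    have hζX : ζ ∈ cen T := c.Zs_le (c.center_le hζ)
    rw [ns.add w hw.1 ζ hζX, (ns.ker ζ hζX).mpr hζ, add_zero]
  · intro g
    obtain ⟨w, hw, r, hr, rfl⟩ := G_dec c hV ns hk hp2 o hz hzz g
    obtain ⟨r', hr', hρ⟩ := X0_sur c fr hV ns hρx hk hp2 o hz hzz hkF h2 h3 (ρ r)
    refine ⟨w, hw, r', hr', r'⁻¹ * r, ⟨?_, ?_⟩, by group⟩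
    · have : r'⁻¹ * r ∈ T := by
        rw [← hk, MonoidHom.mem_ker, map_mul, map_inv, hρ, inv_mul_cancel]
      exact this
    · apply (hcz _).mpr
      have q1 : Commute z r := hr
      have q2 : Commute z r' := X0_comm hr'
      exact (q2.inv_right.mul_right q1).eq
  · rintro r hr e ⟨he, he'⟩
    exact X0_E c hV ns hk hp2 o hz hzz hr he ((hcz e).mp he')
  · intro r hr hrT
    exact X0_T c fr hV ns hρx hk hp2 o hz hzz hkF h2 h3 hr hrT
  · rintro v hv ⟨-, hv'⟩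
    exact hcent v hv ((hcz v).mp hv')
  · intro A
    exact X0_sur c fr hV ns hρx hk hp2 o hz hzz hkF h2 h3 A
  · intro k hk0
    exact X0_dg c hV ns hk hp2 o hz hzz hkF k hk0
  · intro t ht
    obtain ⟨w, hw, e, he, hze, rfl⟩ := T_dec c hV ns hk hp2 o hz hzz ht
    exact ⟨w, hw, e, ⟨he, (hcz e).mpr hze⟩, rfl⟩

end Main

end Cfsg.Agent.H213.Qd
end

-- part: H213/Ks
section
/-!
# A Krull–Schmidt type argument for `S = P × E`
-/

set_option autoImplicit false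

namespace Cfsg.Agent.H213.Ks

open Subgroup
open scoped commutatorElement

variable {H : Type*} [Group H]

/-- `S = P × E` with `[a, P] = D` for noncentral `a ∈ P`. -/
structure Dp (S P E D : Subgroup H) : Prop where
  PS : P ≤ S
  ES : E ≤ S
  dec : ∀ s ∈ S, ∃ a ∈ P, ∃ e ∈ E, s = a * e
  comm : ∀ a ∈ P, ∀ e ∈ E, a * e = e * a
  cap : ∀ a ∈ P, a ∈ E → a = 1
  DP : D ≤ P
  cD : ∀ a ∈ P, ∀ b ∈ P, a * b * a⁻¹ * b⁻¹ ∈ D
  alt : ∀ a ∈ P, (∀ b ∈ P, a * b = b * a) ∨ (∀ d ∈ D, ∃ b ∈ P, a * b * a⁻¹ * b⁻¹ = d)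
  nc : ∃ a ∈ P, ∃ b ∈ P, a * b ≠ b * a
  D1 : ∃ d ∈ D, d ≠ 1

variable {S P E D : Subgroup H} (h : Dp S P E D)

include h

/-- an element of `P` commutes with `S` if it commutes with `P` -/
theorem cent_P {a : H} (ha : a ∈ P) (hc : ∀ b ∈ P, a * b = b * a) : ∀ s ∈ S, a * s = s * a := by
  intro s hs
  obtain ⟨b, hb, e, he, rfl⟩ := h.dec s hs
  have k1 : Commute a b := hc b hb
  have k2 : Commute a e := h.comm a ha e he
  exact (k1.mul_right k2).eq

theorem cent_E {a : H} (ha : a ∈ E) (hc : ∀ b ∈ E, a * b = b * a) : ∀ s ∈ S, a * s = s * a := by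
  intro s hs
  obtain ⟨b, hb, e, he, rfl⟩ := h.dec s hs
  have k1 : Commute a b := (h.comm b hb a ha).symm
  have k2 : Commute a e := hc e he
  exact (k1.mul_right k2).eq

/-- commutators with elements of `P` -/
theorem comm_S {a : H} (ha : a ∈ P) {s : H} (hs : s ∈ S) : a * s * a⁻¹ * s⁻¹ ∈ D := by
  obtain ⟨b, hb, e, he, rfl⟩ := h.dec s hs
  have k2 : Commute a e := h.comm a ha e he
  have k3 : Commute b e := h.comm b hb e he
  have e1 : a * (b * e) * a⁻¹ * (b * e)⁻¹ = a * b * a⁻¹ * b⁻¹ := by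
    calc a * (b * e) * a⁻¹ * (b * e)⁻¹ = a * b * (e * a⁻¹) * e⁻¹ * b⁻¹ := by group
      _ = a * b * (a⁻¹ * e) * e⁻¹ * b⁻¹ := by rw [k2.inv_left.eq]
      _ = _ := by group
  rw [e1]
  exact h.cD a ha b hb

theorem comm_S' {a b e : H} (ha : ∀ b ∈ P, a * b = b * a) (haP : a ∈ P) (hb : b ∈ E) (he : e ∈ S) :
    ∃ e' ∈ E, (a * b) * e * (a * b)⁻¹ * e⁻¹ = e' := by
  refine ⟨_, ?_, rfl⟩
  obtain ⟨b', hb', e', he', rfl⟩ := h.dec e he
  have k1 : Commute a (b' * e') := cent_P h haP ha _ (mul_mem (h.PS hb') (h.ES he'))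
  have k2 : Commute a b := h.comm a haP b hb
  have k3 : Commute b' b := h.comm b' hb' b hb
  have k4 : Commute b' e' := h.comm b' hb' e' he'
  have e1 : a * b * (b' * e') * (a * b)⁻¹ * (b' * e')⁻¹ = b * e' * b⁻¹ * e'⁻¹ := by
    calc a * b * (b' * e') * (a * b)⁻¹ * (b' * e')⁻¹
        = a * (b * b') * e' * b⁻¹ * a⁻¹ * (b' * e')⁻¹ := by group
      _ = a * b' * (b * e' * b⁻¹) * (a⁻¹ * (b' * e')⁻¹) := by rw [← k3.eq]; group
      _ = a * b' * (b * e' * b⁻¹) * ((b' * e')⁻¹ * a⁻¹) := by rw [(k1.inv_left.inv_right).eq]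
      _ = a * (b' * (b * e' * b⁻¹ * e'⁻¹)) * b'⁻¹ * a⁻¹ := by group
      _ = a * ((b * e' * b⁻¹ * e'⁻¹) * b') * b'⁻¹ * a⁻¹ := by
          rw [((((k3.mul_right k4).mul_right k3.inv_right)).mul_right k4.inv_right).eq]
      _ = (a * (b * e' * b⁻¹ * e'⁻¹)) * a⁻¹ := by group
      _ = _ := by
          have k5 : Commute a e' := h.comm a haP e' he'
          rw [(((k2.mul_right k5).mul_right k2.inv_right).mul_right k5.inv_right).eq]; group
  rw [e1]
  exact mul_mem (mul_mem (mul_mem hb he') (inv_mem hb)) (inv_mem he')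

/-- **The dichotomy.** -/
theorem dich [Finite H] {x : H} (hx : ∀ s ∈ S, x * s * x⁻¹ ∈ S) (hx' : ∀ s ∈ S, x⁻¹ * s * x ∈ S) :
    (∀ a ∈ P, ∃ a₁ ∈ P, ∃ ζ, (∀ s ∈ S, ζ * s = s * ζ) ∧ x⁻¹ * a * x = a₁ * ζ) ∨
    ((∀ a ∈ P, ∃ ζ, (∀ s ∈ S, ζ * s = s * ζ) ∧ ζ ∈ S ∧ ∃ e ∈ E, x⁻¹ * a * x = ζ * e) ∧
      ∀ d ∈ D, x⁻¹ * d * x ∈ E) := by
  -- first case
  have hI : ∀ a ∈ P, ∀ a₁ ∈ P, ∀ e₁ ∈ E, x⁻¹ * a * x = a₁ * e₁ → (¬ ∀ b ∈ P, a₁ * b = b * a₁) →
      (∀ d ∈ D, x * d * x⁻¹ ∈ D) := by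
    intro a ha a₁ ha₁ e₁ he₁ haa hnc d hd
    obtain ⟨b, hb, rfl⟩ := (h.alt a₁ ha₁).resolve_left hnc d hd
    have k1 : Commute e₁ b := (h.comm b hb e₁ he₁).symm
    have e0 : a₁ * b * a₁⁻¹ * b⁻¹ = (a₁ * e₁) * b * (a₁ * e₁)⁻¹ * b⁻¹ := by
      calc a₁ * b * a₁⁻¹ * b⁻¹ = a₁ * (b * e₁) * e₁⁻¹ * a₁⁻¹ * b⁻¹ := by group
        _ = a₁ * (e₁ * b) * e₁⁻¹ * a₁⁻¹ * b⁻¹ := by rw [k1.eq]
        _ = _ := by group
    rw [e0, ← haa]
    have e2 : x * (x⁻¹ * a * x * b * (x⁻¹ * a * x)⁻¹ * b⁻¹) * x⁻¹ =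
        a * (x * b * x⁻¹) * a⁻¹ * (x * b * x⁻¹)⁻¹ := by group
    rw [e2]
    exact comm_S h ha (hx b (h.PS hb))
  have hII : ∀ a ∈ P, (¬ ∀ b ∈ P, a * b = b * a) → ∀ a₁ ∈ P, ∀ e₁ ∈ E, x⁻¹ * a * x = a₁ * e₁ →
      (∀ b ∈ P, a₁ * b = b * a₁) → (∀ d ∈ D, x⁻¹ * d * x ∈ E) := by
    intro a ha hnc a₁ ha₁ e₁ he₁ haa hc d hd
    obtain ⟨b, hb, rfl⟩ := (h.alt a ha).resolve_left hnc d hd
    obtain ⟨e', he', h1⟩ := comm_S' h hc ha₁ he₁ (hx' b (h.PS hb))
    have e2 : x⁻¹ * (a * b * a⁻¹ * b⁻¹) * x =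
        (a₁ * e₁) * (x⁻¹ * b * x) * (a₁ * e₁)⁻¹ * (x⁻¹ * b * x)⁻¹ := by
      rw [← haa]; group
    rw [e2, h1]
    exact he'
  have hexcl : (∀ d ∈ D, x * d * x⁻¹ ∈ D) → (∀ d ∈ D, x⁻¹ * d * x ∈ E) → False := by
    intro h1 h2
    obtain ⟨d, hd, hd1⟩ := h.D1
    have h3 := h2 _ (h1 d hd)
    have e : x⁻¹ * (x * d * x⁻¹) * x = d := by group
    rw [e] at h3
    exact hd1 (h.cap d (h.DP hd) h3)
  by_cases hcase : ∃ a ∈ P, ∃ a₁ ∈ P, ∃ e₁ ∈ E, x⁻¹ * a * x = a₁ * e₁ ∧ ¬ ∀ b ∈ P, a₁ * b = b * a₁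
  · left
    obtain ⟨a, ha, a₁, ha₁, e₁, he₁, haa, hnc⟩ := hcase
    have hD := hI a ha a₁ ha₁ e₁ he₁ haa hnc
    intro b hb
    by_cases hbc : ∀ c ∈ P, b * c = c * b
    · refine ⟨1, one_mem _, x⁻¹ * b * x, ?_, by rw [one_mul]⟩
      intro s hs
      have h1 := cent_P h hb hbc _ (hx s hs)
      have h2 : x⁻¹ * (b * (x * s * x⁻¹)) * x = x⁻¹ * ((x * s * x⁻¹) * b) * x := by rw [h1]
      have e1 : x⁻¹ * (b * (x * s * x⁻¹)) * x = x⁻¹ * b * x * s := by group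
      have e2 : x⁻¹ * ((x * s * x⁻¹) * b) * x = s * (x⁻¹ * b * x) := by group
      rw [e1, e2] at h2
      exact h2
    · obtain ⟨b₁, hb₁, e', he', hbb⟩ := h.dec _ (hx' b (h.PS hb))
      have hb₁nc : ¬ ∀ c ∈ P, b₁ * c = c * b₁ := by
        intro hc
        exact hexcl hD (hII b hb hbc b₁ hb₁ e' he' hbb hc)
      refine ⟨b₁, hb₁, e', ?_, hbb⟩
      apply cent_E h he'
      intro c hc
      -- `[e', c] ∈ x⁻¹ D x = D`
      have h1 : x * (e' * c * e'⁻¹ * c⁻¹) * x⁻¹ ∈ D := by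
        have k1 : Commute b₁ e' := h.comm b₁ hb₁ e' he'
        have k2 : Commute b₁ c := h.comm b₁ hb₁ c hc
        have e0 : e' * c * e'⁻¹ * c⁻¹ = (b₁ * e') * c * (b₁ * e')⁻¹ * c⁻¹ := by
          have k3 : Commute b₁ (e' * c * e'⁻¹ * c⁻¹) :=
            ((k1.mul_right k2).mul_right k1.inv_right).mul_right k2.inv_right
          have k4 : Commute b₁⁻¹ c⁻¹ := k2.inv_left.inv_right
          calc e' * c * e'⁻¹ * c⁻¹ = (e' * c * e'⁻¹ * c⁻¹) * b₁ * b₁⁻¹ := by group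
            _ = b₁ * (e' * c * e'⁻¹ * c⁻¹) * b₁⁻¹ := by rw [← k3.eq]
            _ = b₁ * e' * c * e'⁻¹ * (c⁻¹ * b₁⁻¹) := by group
            _ = b₁ * e' * c * e'⁻¹ * (b₁⁻¹ * c⁻¹) := by rw [k4.eq]
            _ = _ := by group
        rw [e0, ← hbb]
        have e2 : x * (x⁻¹ * b * x * c * (x⁻¹ * b * x)⁻¹ * c⁻¹) * x⁻¹ =
            b * (x * c * x⁻¹) * b⁻¹ * (x * c * x⁻¹)⁻¹ := by group
        rw [e2]
        exact comm_S h hb (hx c (h.ES hc))
      -- `x` permutes `D`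
      obtain ⟨d, hd, hdd⟩ : ∃ d ∈ D, x * d * x⁻¹ = x * (e' * c * e'⁻¹ * c⁻¹) * x⁻¹ := by
        have hfix : D.map (MulAut.conj x).toMonoidHom = D :=
          Cfsg.Agent.H260.Push.conj_cj' hD
        rw [← hfix] at h1
        obtain ⟨d, hd, hdd⟩ := h1
        exact ⟨d, hd, hdd⟩
      have h2 : d = e' * c * e'⁻¹ * c⁻¹ := mul_left_cancel (mul_right_cancel hdd)
      have h3 : d = 1 := h.cap d (h.DP hd) (by
        rw [h2]; exact mul_mem (mul_mem (mul_mem he' hc) (inv_mem he')) (inv_mem hc))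
      rw [h3] at h2
      have h4 := h2.symm
      rw [mul_inv_eq_one, mul_inv_eq_iff_eq_mul] at h4
      exact h4
  · right
    push Not at hcase
    refine ⟨?_, ?_⟩
    · intro a ha
      obtain ⟨a₁, ha₁, e₁, he₁, haa⟩ := h.dec _ (hx' a (h.PS ha))
      exact ⟨a₁, cent_P h ha₁ (hcase a ha a₁ ha₁ e₁ he₁ haa), h.PS ha₁, e₁, he₁, haa⟩
    · obtain ⟨a, ha, b, hb, hab⟩ := h.nc
      obtain ⟨a₁, ha₁, e₁, he₁, haa⟩ := h.dec _ (hx' a (h.PS ha))
      exact hII a ha (fun hc => hab (hc b hb)) a₁ ha₁ e₁ he₁ haa (hcase a ha a₁ ha₁ e₁ he₁ haa)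

/-- in the first case `x` normalises `C_S(P)` -/
theorem case_one {x : H} (hx : ∀ s ∈ S, x * s * x⁻¹ ∈ S)
    (h1 : ∀ a ∈ P, ∃ a₁ ∈ P, ∃ ζ, (∀ s ∈ S, ζ * s = s * ζ) ∧ x⁻¹ * a * x = a₁ * ζ) :
    ∀ s ∈ S ⊓ centralizer (P : Set H), x * s * x⁻¹ ∈ S ⊓ centralizer (P : Set H) := by
  rintro s ⟨hs, hs'⟩
  refine ⟨hx s hs, mem_centralizer_iff.mpr ?_⟩
  intro a ha
  obtain ⟨a₁, ha₁, ζ, hζ, haa⟩ := h1 a ha
  have k1 : Commute a₁ s := mem_centralizer_iff.mp hs' a₁ ha₁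
  have k2 : Commute ζ s := hζ s hs
  have k3 : Commute (x⁻¹ * a * x) s := by rw [haa]; exact k1.mul_left k2
  have e1 : a * (x * s * x⁻¹) = x * ((x⁻¹ * a * x) * s) * x⁻¹ := by group
  have e2 : x * s * x⁻¹ * a = x * (s * (x⁻¹ * a * x)) * x⁻¹ := by group
  rw [e1, e2, k3.eq]

/-- in the second case `x t x⁻¹` normalises `C_S(P)` if `t` normalises `S` and centralises `E` -/
theorem case_two {x t : H} (hx : ∀ s ∈ S, x * s * x⁻¹ ∈ S) (hx' : ∀ s ∈ S, x⁻¹ * s * x ∈ S)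
    (ht : ∀ s ∈ S, t * s * t⁻¹ ∈ S) (ht' : ∀ s ∈ S, t⁻¹ * s * t ∈ S) (htE : ∀ e ∈ E, t * e = e * t)
    (h1 : ∀ a ∈ P, ∃ ζ, (∀ s ∈ S, ζ * s = s * ζ) ∧ ζ ∈ S ∧ ∃ e ∈ E, x⁻¹ * a * x = ζ * e) :
    ∀ s ∈ S ⊓ centralizer (P : Set H),
      (x * t * x⁻¹) * s * (x * t * x⁻¹)⁻¹ ∈ S ⊓ centralizer (P : Set H) := by
  rintro s ⟨hs, hs'⟩
  refine ⟨?_, mem_centralizer_iff.mpr ?_⟩
  · have h2 := hx _ (ht _ (hx' s hs))
    have e : x * (t * (x⁻¹ * s * x) * t⁻¹) * x⁻¹ = (x * t * x⁻¹) * s * (x * t * x⁻¹)⁻¹ := by group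
    rw [SetLike.mem_coe, ← e]
    exact h2
  · intro a ha
    obtain ⟨ζ, hζ, hζS, e, he, haa⟩ := h1 a ha
    -- `(x t x⁻¹)⁻¹ a (x t x⁻¹) = ζ'' a`
    have hte : t⁻¹ * e * t = e := by
      have : Commute t e := htE e he
      rw [this.inv_left.eq, inv_mul_cancel_right]
    set ζ' := t⁻¹ * ζ * t with hζ'
    have hζ'c : ∀ s ∈ S, ζ' * s = s * ζ' := by
      intro s hs
      have h2 := hζ _ (ht s hs)
      have h3 : t⁻¹ * (ζ * (t * s * t⁻¹)) * t = t⁻¹ * ((t * s * t⁻¹) * ζ) * t := by rw [h2]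
      have e1 : t⁻¹ * (ζ * (t * s * t⁻¹)) * t = ζ' * s := by rw [hζ']; group
      have e2 : t⁻¹ * ((t * s * t⁻¹) * ζ) * t = s * ζ' := by rw [hζ']; group
      rw [e1, e2] at h3
      exact h3
    have h2 : t⁻¹ * (x⁻¹ * a * x) * t = ζ' * e := by
      rw [haa]
      calc t⁻¹ * (ζ * e) * t = (t⁻¹ * ζ * t) * (t⁻¹ * e * t) := by group
        _ = _ := by rw [hte]
    set y := x * t * x⁻¹ with hy
    -- `y⁻¹ a y = x ζ' e x⁻¹ = x (ζ' ζ⁻¹) x⁻¹ a`
    have h3 : y⁻¹ * a * y = (x * (ζ' * ζ⁻¹) * x⁻¹) * a := by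
      have e1 : y⁻¹ * a * y = x * (t⁻¹ * (x⁻¹ * a * x) * t) * x⁻¹ := by rw [hy]; group
      have e2 : e = ζ⁻¹ * (x⁻¹ * a * x) := by rw [haa]; group
      rw [e1, h2]
      nth_rewrite 1 [e2]
      group
    have h4 : Commute (x * (ζ' * ζ⁻¹) * x⁻¹) s := by
      have k1 : Commute ζ' (x⁻¹ * s * x) := hζ'c _ (hx' s hs)
      have k2 : Commute ζ (x⁻¹ * s * x) := hζ _ (hx' s hs)
      have k3 := (k1.mul_left k2.inv_left).eq
      have e1 : x * (ζ' * ζ⁻¹) * x⁻¹ * s = x * ((ζ' * ζ⁻¹) * (x⁻¹ * s * x)) * x⁻¹ := by group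
      have e2 : s * (x * (ζ' * ζ⁻¹) * x⁻¹) = x * ((x⁻¹ * s * x) * (ζ' * ζ⁻¹)) * x⁻¹ := by group
      change x * (ζ' * ζ⁻¹) * x⁻¹ * s = s * (x * (ζ' * ζ⁻¹) * x⁻¹)
      rw [e1, e2, k3]
    have h5 : Commute a s := mem_centralizer_iff.mp hs' a ha
    have h6 : Commute (y⁻¹ * a * y) s := by rw [h3]; exact h4.mul_left h5
    have e1 : a * (y * s * y⁻¹) = y * ((y⁻¹ * a * y) * s) * y⁻¹ := by group
    have e2 : y * s * y⁻¹ * a = y * (s * (y⁻¹ * a * y)) * y⁻¹ := by group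
    rw [e1, e2, h6.eq]

/-- the derived group of `C_S(P)` is the derived group of `E` -/
theorem derived : ⁅S ⊓ centralizer (P : Set H), S ⊓ centralizer (P : Set H)⁆ = ⁅E, E⁆ := by
  apply le_antisymm
  · rw [commutator_le]
    rintro s ⟨hs, hs'⟩ s' ⟨hs1, hs1'⟩
    obtain ⟨a, ha, e, he, rfl⟩ := h.dec s hs
    obtain ⟨a', ha', e', he', rfl⟩ := h.dec s' hs1
    have hac : ∀ b ∈ P, a * b = b * a := by
      intro b hb
      have k1 : Commute b (a * e) := mem_centralizer_iff.mp hs' b hb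
      have k2 : Commute b e := h.comm b hb e he
      have k3 := k1.mul_right k2.inv_right
      rw [mul_inv_cancel_right] at k3
      exact k3.eq.symm
    have hac' : ∀ b ∈ P, a' * b = b * a' := by
      intro b hb
      have k1 : Commute b (a' * e') := mem_centralizer_iff.mp hs1' b hb
      have k2 : Commute b e' := h.comm b hb e' he'
      have k3 := k1.mul_right k2.inv_right
      rw [mul_inv_cancel_right] at k3
      exact k3.eq.symm
    have ca := cent_P h ha hac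
    have ca' := cent_P h ha' hac'
    have heS := h.ES he
    have heS' := h.ES he'
    have k1 : Commute a e := ca e heS
    have k2 : Commute a e' := ca e' heS'
    have k3 : Commute a a' := ca a' (h.PS ha')
    have k4 : Commute a' e := ca' e heS
    have k5 : Commute a' e' := ca' e' heS'
    have e1 : ⁅a * e, a' * e'⁆ = ⁅e, e'⁆ := by
      simp only [commutatorElement_def]
      calc a * e * (a' * e') * (a * e)⁻¹ * (a' * e')⁻¹
          = a * (e * a') * e' * e⁻¹ * a⁻¹ * (a' * e')⁻¹ := by group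
        _ = a * a' * (e * e' * e⁻¹) * (a⁻¹ * (a' * e')⁻¹) := by rw [← k4.eq]; group
        _ = a * a' * (e * e' * e⁻¹) * ((a' * e')⁻¹ * a⁻¹) := by
            rw [((k3.mul_right k2).inv_left.inv_right).eq]
        _ = a * (a' * (e * e' * e⁻¹ * e'⁻¹)) * a'⁻¹ * a⁻¹ := by group
        _ = a * ((e * e' * e⁻¹ * e'⁻¹) * a') * a'⁻¹ * a⁻¹ := by
            rw [((((k4.mul_right k5).mul_right k4.inv_right)).mul_right k5.inv_right).eq]
        _ = (a * (e * e' * e⁻¹ * e'⁻¹)) * a⁻¹ := by group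
        _ = _ := by
            rw [(((k1.mul_right k2).mul_right k1.inv_right).mul_right k2.inv_right).eq]; group
    rw [e1]
    exact commutator_mem_commutator he he'
  · apply commutator_mono
    · intro e he
      exact ⟨h.ES he, mem_centralizer_iff.mpr fun b hb => h.comm b hb e he⟩
    · intro e he
      exact ⟨h.ES he, mem_centralizer_iff.mpr fun b hb => h.comm b hb e he⟩

end Cfsg.Agent.H213.Ks
end

-- part: H213/Qd3
section
/-!
# Rank one pushing up for `p ≥ 5`: the structure `G = G₀ × E`, third part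
-/

set_option autoImplicit false
set_option linter.unusedSectionVars false

namespace Cfsg.Agent.H213.Qd

open Subgroup Matrix
open Cfsg.Agent.H260.Psl (dg dg_conj)
open Cfsg.Agent.LieClassical.SLTwoUnipotent (u l u_add u_neg u_zero)
open Cfsg.Agent.H212.QdOver
open scoped commutatorElement

variable {G : Type*} [Group G] {F : Type*} [Field F] {p : ℕ} {S T : Subgroup G}
  {ρ : G →* SpecialLinearGroup (Fin 2) F} {ψ : G → (Fin 2 → F)} {V₁ X₀ E : Subgroup G}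

namespace QD

variable (q : QD F p S T ρ ψ V₁ X₀ E)

include q

theorem psi_one : ψ 1 = 0 := by
  have h := q.add 1 (one_mem _) 1 (one_mem _)
  rw [mul_one] at h
  exact left_eq_add.mp h

theorem psi_inv {v : G} (hv : v ∈ V₁) : ψ v⁻¹ = - ψ v := by
  have h := q.add v hv v⁻¹ (inv_mem hv)
  rw [mul_inv_cancel, q.psi_one] at h
  exact (neg_eq_of_add_eq_zero_right h.symm).symm

theorem rho_V {v : G} (hv : v ∈ V₁) : ρ v = 1 := by
  have : v ∈ ρ.ker := by rw [q.ker]; exact q.V1T hv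
  exact this

theorem psi_inj {v w : G} (hv : v ∈ V₁) (hw : w ∈ V₁) (h : ψ v = ψ w) : v = w := by
  have h1 : ψ (v * w⁻¹) = 0 := by
    rw [q.add v hv w⁻¹ (inv_mem hw), q.psi_inv hw, h, add_neg_cancel]
  exact mul_inv_eq_one.mp (q.inj _ (mul_mem hv (inv_mem hw)) h1)

theorem mem_VX {g : G} : g ∈ V₁ ⊔ X₀ ↔ ∃ v ∈ V₁, ∃ x ∈ X₀, g = v * x := by
  have := q.V1n
  rw [Subgroup.mem_sup_of_normal_left]
  constructor
  · rintro ⟨v, hv, x, hx, rfl⟩
    exact ⟨v, hv, x, hx, rfl⟩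
  · rintro ⟨v, hv, x, hx, rfl⟩
    exact ⟨v, hv, x, hx, rfl⟩

theorem uniq {v v' x x' : G} (hv : v ∈ V₁) (hv' : v' ∈ V₁) (hx : x ∈ X₀) (hx' : x' ∈ X₀)
    (h : v * x = v' * x') : v = v' ∧ x = x' := by
  have h1 : v'⁻¹ * v = x' * x⁻¹ := by
    have : v'⁻¹ * v = v'⁻¹ * (v * x) * x⁻¹ := by group
    rw [this, h]; group
  have h2 : x' * x⁻¹ ∈ T := by
    rw [← h1]; exact q.V1T (mul_mem (inv_mem hv') hv)
  have h3 := q.X0T _ (mul_mem hx' (inv_mem hx)) h2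
  rw [h3] at h1
  exact ⟨(inv_mul_eq_one.mp h1).symm, (mul_inv_eq_one.mp h3).symm⟩

/-- `G₀ = V₁ X₀` is isomorphic to `Qd(F)` -/
theorem iso : Nonempty (↥(V₁ ⊔ X₀) ≃* ↥(Cfsg.qdOver F)) := by
  classical
  have hV1n := q.V1n
  have hex : ∀ g : ↥(V₁ ⊔ X₀), ∃ M : ↥(Cfsg.qdOver F), ∀ v ∈ V₁, ∀ x ∈ X₀, (g : G) = v * x →
      (M : SpecialLinearGroup (Fin 3) F) = tr (ψ v 0) (ψ v 1) * bl (ρ x) := by
    intro g
    obtain ⟨v, hv, x, hx, hg⟩ := q.mem_VX.mp g.2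
    refine ⟨⟨tr (ψ v 0) (ψ v 1) * bl (ρ x), mul_mem (tr_mem _ _) (bl_mem _)⟩, ?_⟩
    intro v' hv' x' hx' hg'
    rw [hg] at hg'
    obtain ⟨rfl, rfl⟩ := q.uniq hv hv' hx hx' hg'
    rfl
  choose θ hθ using hex
  have hmul : ∀ a b, θ (a * b) = θ a * θ b := by
    intro a b
    obtain ⟨v, hv, x, hx, ha⟩ := q.mem_VX.mp a.2
    obtain ⟨v', hv', x', hx', hb⟩ := q.mem_VX.mp b.2
    apply Subtype.ext
    have h1 := hθ a v hv x hx ha
    have h2 := hθ b v' hv' x' hx' hb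
    have h3 := hθ (a * b) (v * (x * v' * x⁻¹)) (mul_mem hv (hV1n.conj_mem v' hv' x)) (x * x')
      (mul_mem hx hx') (by rw [Subgroup.coe_mul, ha, hb]; group)
    rw [Subgroup.coe_mul, h1, h2, h3, q.add _ hv _ (hV1n.conj_mem v' hv' x), q.act _ _ hv', map_mul, bl_mul]
    have e : tr (ψ v 0) (ψ v 1) * bl (ρ x) * (tr (ψ v' 0) (ψ v' 1) * bl (ρ x')) =
        tr (ψ v 0) (ψ v 1) * (bl (ρ x) * tr (ψ v' 0) (ψ v' 1)) * bl (ρ x') := by group
    rw [e, bl_mul_tr, ← mul_assoc (tr _ _), ← mul_assoc, tr_mul]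
    have k1 : (ψ v + (ρ x).1.mulVec (ψ v')) 0 = ψ v 0 + ((ρ x).1 0 0 * ψ v' 0 + (ρ x).1 0 1 * ψ v' 1) := by
      simp [Matrix.mulVec, dotProduct, Fin.sum_univ_two]
    have k2 : (ψ v + (ρ x).1.mulVec (ψ v')) 1 = ψ v 1 + ((ρ x).1 1 0 * ψ v' 0 + (ρ x).1 1 1 * ψ v' 1) := by
      simp [Matrix.mulVec, dotProduct, Fin.sum_univ_two]
    rw [k1, k2]
  refine ⟨MulEquiv.ofBijective (MonoidHom.mk' θ hmul) ⟨?_, ?_⟩⟩
  · rw [injective_iff_map_eq_one]
    intro a ha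
    change θ a = 1 at ha
    obtain ⟨v, hv, x, hx, hg⟩ := q.mem_VX.mp a.2
    have h1 := hθ a v hv x hx hg
    rw [ha, Subgroup.coe_one] at h1
    have h2 : tr (ψ v 0) (ψ v 1) = tr (0 : F) 0 ∧ ρ x = 1 := by
      have h3 : (tr (ψ v 0) (ψ v 1))⁻¹ = bl (ρ x) := inv_eq_of_mul_eq_one_right h1.symm
      have h4 : (tr (ψ v 0) (ψ v 1))⁻¹ = tr (-ψ v 0) (-ψ v 1) := by
        rw [inv_eq_iff_mul_eq_one, tr_mul, ← tr_zero]
        congr 1 <;> ring
      have h5 := congrArg Subtype.val (h4.symm.trans h3)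
      rw [tr_coe, bl_coe] at h5
      have k1 := congrFun (congrFun h5 0) 2
      have k2 := congrFun (congrFun h5 1) 2
      simp at k1 k2
      rw [k1, k2]
      refine ⟨rfl, ?_⟩
      rw [k1, k2, tr_zero, one_mul] at h1
      apply bl_inj
      rw [← h1, bl_one]
    have h3 := tr_inj h2.1
    have h4 : ψ v = 0 := by
      funext i
      fin_cases i
      · exact h3.1
      · exact h3.2
    have h5 := q.inj v hv h4
    have h6 : x = 1 := q.X0T x hx (by rw [← q.ker]; exact h2.2)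
    apply Subtype.ext
    rw [hg, h5, h6, mul_one]; rfl
  · intro M
    obtain ⟨a, b, A, hM⟩ := exists_of_mem M.2
    obtain ⟨v, hv, hψ⟩ := q.sur ![a, b]
    obtain ⟨x, hx, hρ⟩ := q.X0s A
    refine ⟨⟨v * x, q.mem_VX.mpr ⟨v, hv, x, hx, rfl⟩⟩, ?_⟩
    change θ _ = M
    apply Subtype.ext
    rw [hθ _ v hv x hx rfl, hψ, hρ, hM]
    rfl

/-- the line `D` -/
def Dl (q : QD F p S T ρ ψ V₁ X₀ E) : Subgroup G where
  carrier := {v | v ∈ V₁ ∧ ψ v 1 = 0}
  one_mem' := ⟨one_mem _, by rw [q.psi_one]; rfl⟩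
  mul_mem' := by
    rintro a b ⟨ha, ha'⟩ ⟨hb, hb'⟩
    refine ⟨mul_mem ha hb, ?_⟩
    rw [q.add a ha b hb, Pi.add_apply, ha', hb', add_zero]
  inv_mem' := by
    rintro a ⟨ha, ha'⟩
    refine ⟨inv_mem ha, ?_⟩
    rw [q.psi_inv ha, Pi.neg_apply, ha', neg_zero]

theorem u_mv (a : F) (v : Fin 2 → F) : (u a).1.mulVec v = ![v 0 + a * v 1, v 1] := by
  funext i
  fin_cases i <;> simp [u, Matrix.mulVec, dotProduct, Fin.sum_univ_two]

/-- commutators in `P` -/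
theorem comm_psi (hab : ∀ s ∈ X₀, s ∈ S → ∀ s' ∈ X₀, s' ∈ S → s * s' = s' * s) {v v' s s' : G}
    (hv : v ∈ V₁) (hv' : v' ∈ V₁) (hs : s ∈ X₀) (hsS : s ∈ S) (hs' : s' ∈ X₀) (hsS' : s' ∈ S) {β β' : F}
    (hβ : ρ s = u β) (hβ' : ρ s' = u β') :
    (v * s) * (v' * s') * (v * s)⁻¹ * (v' * s')⁻¹ ∈ V₁ ∧
    ψ ((v * s) * (v' * s') * (v * s)⁻¹ * (v' * s')⁻¹) = ![β * ψ v' 1 - β' * ψ v 1, 0] := by
  have hV1n := q.V1n
  have k : s * s' * s⁻¹ = s' := by rw [hab s hs hsS s' hs' hsS', mul_inv_cancel_right]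
  have e : (v * s) * (v' * s') * (v * s)⁻¹ * (v' * s')⁻¹ =
      v * (s * v' * s⁻¹) * (s' * v⁻¹ * s'⁻¹) * v'⁻¹ := by
    calc (v * s) * (v' * s') * (v * s)⁻¹ * (v' * s')⁻¹
        = v * (s * v' * s⁻¹) * ((s * s' * s⁻¹) * v⁻¹ * s'⁻¹) * v'⁻¹ := by group
      _ = _ := by rw [k]
  have m1 := hV1n.conj_mem v' hv' s
  have m2 := hV1n.conj_mem v⁻¹ (inv_mem hv) s'
  rw [e]
  refine ⟨mul_mem (mul_mem (mul_mem hv m1) m2) (inv_mem hv'), ?_⟩
  rw [q.add _ (mul_mem (mul_mem hv m1) m2) _ (inv_mem hv'), q.add _ (mul_mem hv m1) _ m2,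
    q.add _ hv _ m1, q.act s v' hv', q.act s' v⁻¹ (inv_mem hv), hβ, hβ', q.psi_inv hv, q.psi_inv hv',
    q.u_mv, q.u_mv]
  funext i
  fin_cases i
  · simp [Matrix.vecHead]; ring
  · simp [Matrix.vecHead, Matrix.vecTail]

/-- the data of `Ks` -/
theorem dp (hTS : T ≤ S) (hρS : ∀ s ∈ S, ∃ a, ρ s = u a) (hρS' : ∀ s a, ρ s = u a → s ∈ S)
    (hab : ∀ s ∈ X₀, s ∈ S → ∀ s' ∈ X₀, s' ∈ S → s * s' = s' * s) :
    Ks.Dp S (V₁ ⊔ (X₀ ⊓ S)) E q.Dl := by
  have hV1n := q.V1n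
  have hP : ∀ g : G, g ∈ V₁ ⊔ (X₀ ⊓ S) ↔ ∃ v ∈ V₁, ∃ s, s ∈ X₀ ∧ s ∈ S ∧ g = v * s := by
    intro g
    rw [Subgroup.mem_sup_of_normal_left]
    constructor
    · rintro ⟨v, hv, x, ⟨hx, hx'⟩, rfl⟩
      exact ⟨v, hv, x, hx, hx', rfl⟩
    · rintro ⟨v, hv, x, hx, hx', rfl⟩
      exact ⟨v, hv, x, ⟨hx, hx'⟩, rfl⟩
  have hDV : ∀ d, d ∈ q.Dl ↔ d ∈ V₁ ∧ ψ d 1 = 0 := fun d => Iff.rfl
  refine
    { PS := sup_le (q.V1T.trans hTS) inf_le_right, ES := q.ET.trans hTS, dec := ?_, comm := ?_, cap := ?_,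
      DP := ?_, cD := ?_, alt := ?_, nc := ?_, D1 := ?_ }
  · intro s hs
    obtain ⟨v, hv, x, hx, e, he, rfl⟩ := q.dec s
    have hxS : x ∈ S := by
      have h1 : x = v⁻¹ * (v * x * e) * e⁻¹ := by group
      rw [h1]
      exact mul_mem (mul_mem (inv_mem (hTS (q.V1T hv))) hs) (inv_mem (hTS (q.ET he)))
    exact ⟨v * x, (hP _).mpr ⟨v, hv, x, hx, hxS, rfl⟩, e, he, rfl⟩
  · intro a ha e he
    obtain ⟨v, hv, s, hs, hsS, rfl⟩ := (hP a).mp ha
    have k1 : Commute e v := q.V1c v hv e (q.ET he)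
    have k2 : Commute s e := q.X0E s hs e he
    exact (k1.mul_right k2.symm).eq.symm
  · intro a ha haE
    obtain ⟨v, hv, s, hs, hsS, rfl⟩ := (hP a).mp ha
    have h1 : s ∈ T := by
      have : s = v⁻¹ * (v * s) := by group
      rw [this]; exact mul_mem (inv_mem (q.V1T hv)) (q.ET haE)
    have h2 := q.X0T s hs h1
    rw [h2, mul_one] at haE ⊢
    exact q.V1E v hv haE
  · intro d hd
    exact le_sup_left (a := V₁) hd.1
  · intro a ha b hb
    obtain ⟨v, hv, s, hs, hsS, rfl⟩ := (hP a).mp ha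
    obtain ⟨v', hv', s', hs', hsS', rfl⟩ := (hP b).mp hb
    obtain ⟨β, hβ⟩ := hρS s hsS
    obtain ⟨β', hβ'⟩ := hρS s' hsS'
    obtain ⟨h1, h2⟩ := q.comm_psi hab hv hv' hs hsS hs' hsS' hβ hβ'
    refine ⟨h1, ?_⟩
    rw [h2]; rfl
  · intro a ha
    obtain ⟨v, hv, s, hs, hsS, rfl⟩ := (hP a).mp ha
    obtain ⟨β, hβ⟩ := hρS s hsS
    by_cases hβ0 : β = 0
    · have hs1 : s = 1 := by
        apply q.X0T s hs
        rw [← q.ker, MonoidHom.mem_ker, hβ, hβ0, u_zero]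
      by_cases hγ : ψ v 1 = 0
      · left
        intro b hb
        obtain ⟨v', hv', s', hs', hsS', rfl⟩ := (hP b).mp hb
        obtain ⟨β', hβ'⟩ := hρS s' hsS'
        obtain ⟨h1, h2⟩ := q.comm_psi hab hv hv' hs hsS hs' hsS' hβ hβ'
        have h3 := q.inj _ h1 (by rw [h2, hβ0, hγ]; funext i; fin_cases i <;> simp)
        rw [mul_inv_eq_one, mul_inv_eq_iff_eq_mul] at h3
        exact h3
      · right
        rintro d ⟨hd, hd'⟩
        obtain ⟨s', hs', hβ'⟩ := q.X0s (u (-(ψ d 0) / ψ v 1))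
        have hsS' := hρS' _ _ hβ'
        refine ⟨s', (hP _).mpr ⟨1, one_mem _, s', hs', hsS', by rw [one_mul]⟩, ?_⟩
        obtain ⟨h1, h2⟩ := q.comm_psi hab hv (one_mem V₁) hs hsS hs' hsS' hβ hβ'
        rw [one_mul] at h1 h2
        apply q.psi_inj h1 hd
        rw [h2, hβ0]
        funext i
        fin_cases i
        · simp
          field_simp
        · exact hd'.symm
    · right
      rintro d ⟨hd, hd'⟩
      obtain ⟨v', hv', hψ'⟩ := q.sur ![0, ψ d 0 / β]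
      refine ⟨v', (hP _).mpr ⟨v', hv', 1, one_mem _, one_mem _, by rw [mul_one]⟩, ?_⟩
      obtain ⟨h1, h2⟩ := q.comm_psi hab hv hv' hs hsS (one_mem X₀) (one_mem S) hβ (β' := 0)
        (by rw [map_one, u_zero])
      rw [mul_one] at h1 h2
      apply q.psi_inj h1 hd
      rw [h2, hψ']
      funext i
      fin_cases i
      · simp
        field_simp
      · exact hd'.symm
  · obtain ⟨v, hv, hψ⟩ := q.sur ![0, 1]
    obtain ⟨s, hs, hβ⟩ := q.X0s (u 1)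
    have hsS := hρS' _ _ hβ
    refine ⟨s, (hP _).mpr ⟨1, one_mem _, s, hs, hsS, by rw [one_mul]⟩, v,
      (hP _).mpr ⟨v, hv, 1, one_mem _, one_mem _, by rw [mul_one]⟩, ?_⟩
    intro h
    obtain ⟨h1, h2⟩ := q.comm_psi hab (one_mem V₁) hv hs hsS (one_mem X₀) (one_mem S) hβ (β' := 0)
        (by rw [map_one, u_zero])
    rw [one_mul, mul_one] at h2
    have h3 : s * v * s⁻¹ * v⁻¹ = 1 := by rw [h]; group
    rw [h3, q.psi_one, hψ] at h2
    have := congrFun h2 0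
    simp at this
  · obtain ⟨v, hv, hψ⟩ := q.sur ![1, 0]
    refine ⟨v, ⟨hv, by rw [hψ]; rfl⟩, ?_⟩
    rintro rfl
    rw [q.psi_one] at hψ
    have := congrFun hψ 0
    simp at this

/-- `E` is normal -/
theorem E_normal : E.Normal := by
  constructor
  intro e he g
  obtain ⟨v, hv, x, hx, e', he', rfl⟩ := q.dec g
  have k1 : Commute (e' * e * e'⁻¹) v := q.V1c v hv _ (q.ET (mul_mem (mul_mem he' he) (inv_mem he')))
  have k2 : Commute x (e' * e * e'⁻¹) := q.X0E x hx _ (mul_mem (mul_mem he' he) (inv_mem he'))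
  have e1 : v * x * e' * e * (v * x * e')⁻¹ = v * (x * (e' * e * e'⁻¹) * x⁻¹) * v⁻¹ := by group
  rw [e1, k2.eq, mul_inv_cancel_right, ← k1.eq, mul_inv_cancel_right]
  exact mul_mem (mul_mem he' he) (inv_mem he')

/-- elements of `V₁ X₀` commute with `E` -/
theorem VX_comm {a e : G} (ha : a ∈ V₁ ⊔ X₀) (he : e ∈ E) : a * e = e * a := by
  obtain ⟨v, hv, x, hx, rfl⟩ := q.mem_VX.mp ha
  have k1 : Commute e v := q.V1c v hv e (q.ET he)
  have k2 : Commute x e := q.X0E x hx e he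
  exact (k1.mul_right k2.symm).eq.symm

theorem VX_cap : (V₁ ⊔ X₀) ⊓ E = ⊥ := by
  rw [eq_bot_iff]
  rintro a ⟨ha, haE⟩
  obtain ⟨v, hv, x, hx, rfl⟩ := q.mem_VX.mp ha
  have h1 : x ∈ T := by
    have : x = v⁻¹ * (v * x) := by group
    rw [this]; exact mul_mem (inv_mem (q.V1T hv)) (q.ET haE)
  have h2 := q.X0T x hx h1
  rw [h2, mul_one] at haE ⊢
  exact mem_bot.mpr (q.V1E v hv haE)

theorem VX_sup : (V₁ ⊔ X₀) ⊔ E = ⊤ := by
  rw [eq_top_iff]
  intro g _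
  obtain ⟨v, hv, x, hx, e, he, rfl⟩ := q.dec g
  exact mul_mem (le_sup_left (a := V₁ ⊔ X₀) (q.mem_VX.mpr ⟨v, hv, x, hx, rfl⟩))
    (le_sup_right (a := V₁ ⊔ X₀) he)

end QD

end Cfsg.Agent.H213.Qd

namespace Cfsg.Agent.H213.Ks

open Subgroup

/-- transport along an injective homomorphism -/
theorem Dp.map {G H : Type*} [Group G] [Group H] {S P E D : Subgroup G} (h : Dp S P E D) (f : G →* H)
    (hf : Function.Injective f) : Dp (S.map f) (P.map f) (E.map f) (D.map f) := by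
  refine
    { PS := map_mono h.PS, ES := map_mono h.ES, dec := ?_, comm := ?_, cap := ?_, DP := map_mono h.DP,
      cD := ?_, alt := ?_, nc := ?_, D1 := ?_ }
  · rintro _ ⟨s, hs, rfl⟩
    obtain ⟨a, ha, e, he, rfl⟩ := h.dec s hs
    exact ⟨f a, mem_map_of_mem f ha, f e, mem_map_of_mem f he, map_mul f a e⟩
  · rintro _ ⟨a, ha, rfl⟩ _ ⟨e, he, rfl⟩
    rw [← map_mul, h.comm a ha e he, map_mul]
  · rintro _ ⟨a, ha, rfl⟩ ⟨e, he, hae⟩
    have := hf hae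
    subst this
    rw [h.cap e ha he, map_one]
  · rintro _ ⟨a, ha, rfl⟩ _ ⟨b, hb, rfl⟩
    rw [← map_mul, ← map_inv, ← map_mul, ← map_inv, ← map_mul]
    exact mem_map_of_mem f (h.cD a ha b hb)
  · rintro _ ⟨a, ha, rfl⟩
    rcases h.alt a ha with h1 | h1
    · left
      rintro _ ⟨b, hb, rfl⟩
      rw [← map_mul, h1 b hb, map_mul]
    · right
      rintro _ ⟨d, hd, rfl⟩
      obtain ⟨b, hb, rfl⟩ := h1 d hd
      exact ⟨f b, mem_map_of_mem f hb, by simp⟩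
  · obtain ⟨a, ha, b, hb, hab⟩ := h.nc
    refine ⟨f a, mem_map_of_mem f ha, f b, mem_map_of_mem f hb, ?_⟩
    rw [← map_mul, ← map_mul]
    exact fun h1 => hab (hf h1)
  · obtain ⟨d, hd, hd1⟩ := h.D1
    refine ⟨f d, mem_map_of_mem f hd, ?_⟩
    rw [← map_one f]
    exact fun h1 => hd1 (hf h1)

end Cfsg.Agent.H213.Ks
end

-- part: S2766
section
set_option autoImplicit false
open Cfsg

namespace Cfsg.Agent.S2766

open Subgroup Cfsg.Agent.H260.Push Matrix Cfsg.Agent.H213.Rk Cfsg.Agent.H213.Qd Cfsg.Agent.H213.Ks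
open Cfsg.Agent.H260.Psl (dg dg_conj)
open Cfsg.Agent.LieClassical.SLTwoUnipotent (u l u_add u_neg u_zero)
open scoped commutatorElement

/-- an element of `SL₂` fixing `(1, 0)` is unipotent -/
theorem fix_e1 {F : Type*} [Field F] (A : SpecialLinearGroup (Fin 2) F)
    (h : A.1.mulVec ![1, 0] = ![1, 0]) : ∃ b, A = u b := by
  have h0 := congrFun h 0
  have h1 := congrFun h 1
  simp [Matrix.mulVec, dotProduct, Fin.sum_univ_two] at h0 h1
  have hdet := A.2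
  rw [det_fin_two, h0, h1, one_mul, mul_zero, sub_zero] at hdet
  refine ⟨A.1 0 1, ?_⟩
  apply Subtype.ext
  ext i j
  fin_cases i <;> fin_cases j <;> simp [u, h0, h1, hdet]

theorem mem_norm_map {H : Type*} [Group H] [Finite H] {G : Subgroup H} {N : Subgroup ↥G} (hN : N.Normal) :
    G ≤ Subgroup.normalizer ((N.map G.subtype : Subgroup H) : Set H) := by
  intro g hg
  rw [← cj_eq_iff_mem_normalizer]
  apply conj_cj'
  rintro _ ⟨n, hn, rfl⟩
  exact ⟨(⟨g, hg⟩ : ↥G) * n * (⟨g, hg⟩ : ↥G)⁻¹, hN.conj_mem n hn ⟨g, hg⟩, rfl⟩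

/-- elements normalising `C` normalise its derived group -/
theorem norm_derived {H : Type*} [Group H] [Finite H] {C : Subgroup H} {x : H}
    (h : ∀ s ∈ C, x * s * x⁻¹ ∈ C) : x ∈ Subgroup.normalizer ((⁅C, C⁆ : Subgroup H) : Set H) := by
  rw [← cj_eq_iff_mem_normalizer]
  have h1 : C.map (MulAut.conj x).toMonoidHom = C := conj_cj' h
  change (⁅C, C⁆).map (MulAut.conj x).toMonoidHom = _
  rw [map_commutator, h1]

/-- Let p ≥ 5 be prime and G a maximal p-local subgroup of a finite group H (G is the normalizer of a nontrivial p-subgroup and lies in no other such normalizer). Suppose C_G(O_p(G)) ≤ O_p(G), G/K ≅ PSL₂(p^n) for some normal K and n ≥ 1, a Sylow p-subgroup S of G lies in exactly one maximal subgroup of G, and N_H(S) is not contained in G. Then G = G₀ × E for subgroups G₀ ≅ Qd(p^n) (the natural semidirect product of the plane over the field with p^n elements by SL₂) and E an elementary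 abelian p-group. -/
theorem result {H : Type*} [Group H] [Finite H] {p : ℕ} [Fact p.Prime] (hp : 5 ≤ p) (G : Subgroup H) (hloc : ∃ R : Subgroup H, IsPGroup p ↥R ∧ R ≠ ⊥ ∧ G = Subgroup.normalizer (R : Set H)) (hmax : ∀ R : Subgroup H, IsPGroup p ↥R → R ≠ ⊥ → G ≤ Subgroup.normalizer (R : Set H) → Subgroup.normalizer (R : Set H) = G) (S : Sylow p ↥G) (hE₁ : Subgroup.centralizer (Cfsg.pCore p ↥G : Set ↥G) ≤ Cfsg.pCore p ↥G) (hE₂ : ∃! M : Subgroup ↥G, IsCoatom M ∧ (S : Subgroup ↥G) ≤ M) (K : Subgroup ↥G) [K.Normal] (F : Type) [Field F] [Fintype F] (n : ℕ) (hn : 1 ≤ n) (hF : Fintype.card F = p ^ n) (hE₃ : Nonempty (↥G ⧸ K ≃* Matrix.ProjectiveSpecialLinearGroup (Fin 2) F)) (hN : ¬ Subgroup.normalizer (((S : Subgroup ↥G).map G.subtype : Subgroup H) : Set H) ≤ G) : ∃ G₀ E : Subgroup H, Cfsg.IsInternalDirectProduct G₀ E G ∧ Cfsg.IsElementaryAbelian p E ∧ Nonempty (↥G₀ ≃* ↥(Cfsg.qdOver F)) := by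
  classical
  have hpp : p.Prime := Fact.out
  have hinj : Function.Injective G.subtype := G.subtype_injective
  set SH : Subgroup H := (S : Subgroup ↥G).map G.subtype with hSH
  have hSHp : IsPGroup p SH := S.isPGroup'.map G.subtype
  -- no nontrivial characteristic subgroup of `S` is normal in `G`
  have hd : ∀ T : Subgroup ↥(S : Subgroup ↥G), T ≠ ⊥ → T.Characteristic →
      ¬ (T.map (S : Subgroup ↥G).subtype).Normal := by
    intro T hT hTc hTn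
    apply hN
    set N := T.map (S : Subgroup ↥G).subtype with hNd
    have h1 : IsPGroup p (N.map G.subtype) := by
      apply hSHp.to_le
      apply map_mono
      rw [hNd]
      exact map_subtype_le T
    have h2 : N.map G.subtype ≠ ⊥ := by
      intro h
      apply hT
      rw [(Subgroup.map_eq_bot_iff_of_injective _ hinj)] at h
      rw [hNd, (Subgroup.map_eq_bot_iff_of_injective _ (Subtype.val_injective))] at h
      exact h
    rw [← hmax _ h1 h2 (mem_norm_map hTn)]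
    intro x hx
    rw [← cj_eq_iff_mem_normalizer]
    apply conj_cj'
    -- the automorphism of `S` induced by `x`
    have hx1 : cj x SH = SH := cj_eq_iff_mem_normalizer.mpr hx
    have hx2 : ∀ s : H, s ∈ SH → x * s * x⁻¹ ∈ SH := by
      intro s hs
      rw [← hx1]
      exact ⟨s, hs, rfl⟩
    have hx3 : ∀ s : H, s ∈ SH → x⁻¹ * s * x ∈ SH := by
      intro s hs
      rw [← hx1, mem_cj] at hs
      exact hs
    have hval : ∀ s : ↥(S : Subgroup ↥G), ((s : ↥G) : H) ∈ SH := fun s => ⟨s, s.2, rfl⟩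
    have hback : ∀ s : H, s ∈ SH → ∃ s' : ↥(S : Subgroup ↥G), ((s' : ↥G) : H) = s := by
      rintro _ ⟨s, hs, rfl⟩
      exact ⟨⟨s, hs⟩, rfl⟩
    choose f hf using fun s : ↥(S : Subgroup ↥G) => hback _ (hx2 _ (hval s))
    choose g hg using fun s : ↥(S : Subgroup ↥G) => hback _ (hx3 _ (hval s))
    have hvi : ∀ a b : ↥(S : Subgroup ↥G), ((a : ↥G) : H) = ((b : ↥G) : H) → a = b := fun a b h =>
      Subtype.ext (Subtype.ext h)
    let α : ↥(S : Subgroup ↥G) ≃* ↥(S : Subgroup ↥G) :=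
      { toFun := f
        invFun := g
        left_inv := fun s => hvi _ _ (by rw [hg, hf]; group)
        right_inv := fun s => hvi _ _ (by rw [hf, hg]; group)
        map_mul' := fun a b => hvi _ _ (by
          rw [hf, Subgroup.coe_mul, Subgroup.coe_mul, Subgroup.coe_mul, Subgroup.coe_mul, hf, hf]; group) }
    rintro _ ⟨_, ⟨t, ht, rfl⟩, rfl⟩
    have h3 : α t ∈ T := by
      have h4 := hTc.fixed α
      have h5 : t ∈ T.comap α.toMonoidHom := by rw [h4]; exact ht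
      exact h5
    refine ⟨((α t : ↥(S : Subgroup ↥G)) : ↥G), ⟨α t, h3, rfl⟩, ?_⟩
    exact hf t
  obtain ⟨M, x, y, g, su⟩ := exists_su S hE₁ hE₂ K F n hF hE₃ hd
  obtain ⟨ρ, ψ, ns, hρx, hρy, hk, hψ, hcase⟩ := main su
  obtain ⟨α, o⟩ : ∃ α : ↥(S : Subgroup ↥G) ≃* ↥(S : Subgroup ↥G), One (S : Subgroup ↥G) (pCore p ↥G) α := by
    rcases hcase with h | ⟨h, -⟩
    · exact h
    · omega
  obtain ⟨c, nn, fr, hchar, hkF, hch⟩ := su
  have hV := expo_X c nn hchar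
  have hp2 : p ≠ 2 := by omega
  have hexp := (o.expo c hV hchar).1 hp2
  have h2 : (2 : F) ≠ 0 := by
    intro h
    have h1 : ((2 : ℕ) : F) = 0 := by exact_mod_cast h
    have := (CharP.cast_eq_zero_iff F p 2).mp h1
    have := Nat.le_of_dvd (by norm_num) this
    omega
  have h3 : (3 : F) ≠ 0 := by
    intro h
    have h1 : ((3 : ℕ) : F) = 0 := by exact_mod_cast h
    have := (CharP.cast_eq_zero_iff F p 3).mp h1
    have := Nat.le_of_dvd (by norm_num) this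
    omega
  obtain ⟨z, hz, hzz⟩ := exists_z c ns.rsur hk hp2
  have q := exists_QD c fr hV ns hρx hk hp2 o hz hzz hkF h2 h3
  have hab : ∀ s ∈ X0 p z, s ∈ (S : Subgroup ↥G) → ∀ s' ∈ X0 p z, s' ∈ (S : Subgroup ↥G) → s * s' = s' * s :=
    fun s hs hsS s' hs' hsS' => X0S_comm c fr hV ns hρx hk hp2 o hz hzz hkF h2 h3 hs hsS hs' hsS'
  have hdp := q.dp c.le (fun s hs => rho_S c hk fr hρx hs) (fun s a h => mem_S_of_rho c hk fr hρx h) hab
  set V₁ := V1 (pCore p ↥G) z (fun _ ha _ hb => c.cenT_comm ha hb) with hV₁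
  set E := pCore p ↥G ⊓ centralizer ({z} : Set ↥G) with hE
  have hEn : E.Normal := q.E_normal
  -- `E` is abelian
  have hEab : ∀ a ∈ E, ∀ b ∈ E, a * b = b * a := by
    by_contra hne
    have hDH := hdp.map G.subtype hinj
    rw [← hSH] at hDH
    have hder := derived hDH
    set PH := (V₁ ⊔ (X0 p z ⊓ (S : Subgroup ↥G))).map G.subtype with hPH
    set EH := E.map G.subtype with hEH
    set DH := (q.Dl).map G.subtype with hDHd
    set C := SH ⊓ centralizer (PH : Set H) with hC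
    have hR1 : ⁅EH, EH⁆ = (⁅E, E⁆).map G.subtype := (map_commutator _ _ _).symm
    have hR2 : ⁅EH, EH⁆ ≠ ⊥ := by
      intro h
      apply hne
      rw [hR1, Subgroup.map_eq_bot_iff_of_injective _ hinj] at h
      intro a ha b hb
      have h4 : ⁅a, b⁆ ∈ ⁅E, E⁆ := commutator_mem_commutator ha hb
      rw [h, mem_bot] at h4
      exact commutatorElement_eq_one_iff_mul_comm.mp h4
    have hR3 : IsPGroup p (⁅EH, EH⁆ : Subgroup H) := by
      apply hSHp.to_le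
      rw [hR1]
      apply map_mono
      exact (commutator_le_left E E).trans (inf_le_left.trans c.le)
    have hR4 : Subgroup.normalizer ((⁅EH, EH⁆ : Subgroup H) : Set H) = G := by
      apply hmax _ hR3 hR2
      rw [hR1]
      exact mem_norm_map (Subgroup.commutator_normal E E)
    obtain ⟨w, hw, hwG⟩ := SetLike.not_le_iff_exists.mp hN
    have hw1 : cj w SH = SH := cj_eq_iff_mem_normalizer.mpr hw
    have hw2 : ∀ s ∈ SH, w * s * w⁻¹ ∈ SH := by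
      intro s hs
      rw [← hw1]
      exact ⟨s, hs, rfl⟩
    have hw3 : ∀ s ∈ SH, w⁻¹ * s * w ∈ SH := by
      intro s hs
      rw [← hw1, mem_cj] at hs
      exact hs
    rcases dich hDH hw2 hw3 with h4 | ⟨h4, h5⟩
    · apply hwG
      rw [← hR4, ← hder]
      exact norm_derived (case_one hDH hw2 h4)
    · obtain ⟨t, ht, hρt, hto⟩ := q.tor 2 h2
      have ht1 : ∀ s ∈ SH, (t : H) * s * (t : H)⁻¹ ∈ SH := by
        rintro _ ⟨s, hs, rfl⟩
        exact ⟨t * s * t⁻¹, (diag_norm c fr hρx hk hρt hs).1, rfl⟩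
      have ht2 : ∀ s ∈ SH, (t : H)⁻¹ * s * (t : H) ∈ SH := by
        rintro _ ⟨s, hs, rfl⟩
        refine ⟨t⁻¹ * s * t, ?_, rfl⟩
        have h6 := diag_norm' c fr hρx hk hρt
        have h7 : s ∈ cj t (S : Subgroup ↥G) := by rw [h6]; exact hs
        rw [mem_cj] at h7
        exact h7
      have htE : ∀ e ∈ EH, (t : H) * e = e * (t : H) := by
        rintro _ ⟨e, he, rfl⟩
        have := q.X0E t ht e he
        exact congrArg Subtype.val this
      have h6 := case_two hDH hw2 hw3 ht1 ht2 htE h4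
      have h7 : w * (t : H) * w⁻¹ ∈ G := by
        have h8 := norm_derived h6
        have h9 : Subgroup.normalizer ((⁅SH ⊓ centralizer (PH : Set H), SH ⊓ centralizer (PH : Set H)⁆ :
            Subgroup H) : Set H) = G := by rw [← hR4, ← hder]
        exact (SetLike.ext_iff.mp h9 _).mp h8
      -- it centralises `D`
      have h8 : ∀ d ∈ DH, (w * (t : H) * w⁻¹) * d * (w * (t : H) * w⁻¹)⁻¹ = d := by
        intro d hd
        have k1 : Commute (t : H) (w⁻¹ * d * w) := htE _ (h5 d hd)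
        have e : (w * (t : H) * w⁻¹) * d * (w * (t : H) * w⁻¹)⁻¹ =
            w * ((t : H) * (w⁻¹ * d * w) * (t : H)⁻¹) * w⁻¹ := by group
        rw [e, k1.eq]; group
      set t' : ↥G := ⟨w * (t : H) * w⁻¹, h7⟩ with ht'
      have h9 : (ρ t').1.mulVec ![1, 0] = ![1, 0] := by
        obtain ⟨v, hv, hψv⟩ := q.sur ![1, 0]
        have hvD : v ∈ q.Dl := ⟨hv, by rw [hψv]; rfl⟩
        have h10 := h8 _ (mem_map_of_mem G.subtype hvD)
        have h11 : t' * v * t'⁻¹ = v := Subtype.ext h10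
        have h12 := q.act t' v hv
        rw [h11, hψv] at h12
        exact h12.symm
      obtain ⟨b, hb⟩ := fix_e1 _ h9
      have h10 : t' ∈ (S : Subgroup ↥G) := mem_S_of_rho c hk fr hρx hb
      have h11 : orderOf t' = orderOf t := by
        rw [← Subgroup.orderOf_coe t', ← Subgroup.orderOf_coe t]
        exact orderOf_injective (MulAut.conj w).toMonoidHom (MulAut.conj w).injective (t : H)
      obtain ⟨k, hk'⟩ := (IsPGroup.iff_orderOf.mp S.isPGroup') ⟨t', h10⟩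
      rw [Subgroup.orderOf_mk, h11] at hk'
      have h12 : orderOf t = 1 := by
        have h13 : Nat.Coprime (orderOf t) (orderOf t) := by
          nth_rewrite 2 [hk']
          exact Nat.Coprime.pow_right k hto
        exact (Nat.coprime_self _).mp h13
      rw [orderOf_eq_one_iff] at h12
      rw [h12, map_one] at hρt
      have h13 := congrArg Subtype.val hρt
      have h14 := congrFun (congrFun h13 0) 0
      simp [dg] at h14
      have h15 : (1 : F) + 1 = 2 := by norm_num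
      rw [← h14] at h15
      exact one_ne_zero (left_eq_add.mp h15.symm)
  refine ⟨(V₁ ⊔ X0 p z).map G.subtype, E.map G.subtype, ⟨?_, ?_, ?_, ?_, ?_⟩, ⟨?_, ?_⟩, ?_⟩
  · exact map_subtype_le _
  · exact map_subtype_le _
  · rintro _ ⟨a, ha, rfl⟩ _ ⟨b, hb, rfl⟩
    rw [← map_mul, q.VX_comm ha hb, map_mul]
  · rw [← Subgroup.map_inf _ _ _ hinj, q.VX_cap, Subgroup.map_bot]
  · rw [← Subgroup.map_sup, q.VX_sup]
    rw [← MonoidHom.range_eq_map, range_subtype]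
  · constructor
    constructor
    rintro ⟨_, ⟨a, ha, rfl⟩⟩ ⟨_, ⟨b, hb, rfl⟩⟩
    apply Subtype.ext
    change (a : H) * (b : H) = (b : H) * (a : H)
    exact congrArg Subtype.val (hEab a ha b hb)
  · rintro _ ⟨a, ha, rfl⟩
    rw [← map_pow, hexp a (c.le ha.1), map_one]
  · obtain ⟨e⟩ := q.iso
    exact ⟨((V₁ ⊔ X0 p z).equivMapOfInjective G.subtype hinj).symm.trans e⟩

end Cfsg.Agent.S2766
end
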