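import Cfsg.Statements.S2768
import Cfsg.Agent.H449.PushUpPSL_mg
set_option linter.all false

set_option autoImplicit false
open Cfsg

namespace Cfsg.Agent.S2768

open Cfsg.Agent.H449.PushUp Cfsg.Agent.PLocal.ThompsonJA

/-- Let G be a finite group and p a prime with C_G(O_p(G)) ≤ O_p(G), such that a Sylow p-subgroup S lies in exactly one maximal subgroup of G and G/K ≅ PSL₂(p^n) for some normal K and n ≥ 1. Put J̃(S) = C_S(Z(J(S))), where J(S) is generated by the abelian subgroups of S of largest order. If Z(S) is not normal in G, then J̃(S) is a Sylow p-subgroup of its normal closure ⟨J̃(S)^G⟩. -/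
theorem result {G : Type*} [Group G] [Finite G] {p : ℕ} [Fact p.Prime] (S : Sylow p G) (hE₁ : Subgroup.centralizer (Cfsg.pCore p G : Set G) ≤ Cfsg.pCore p G) (hE₂ : ∃! M : Subgroup G, IsCoatom M ∧ (S : Subgroup G) ≤ M) (K : Subgroup G) [K.Normal] (F : Type) [Field F] [Fintype F] (n : ℕ) (hn : 1 ≤ n) (hF : Fintype.card F = p ^ n) (hE₃ : Nonempty (G ⧸ K ≃* Matrix.ProjectiveSpecialLinearGroup (Fin 2) F)) (hZ : ¬ ((S : Subgroup G) ⊓ Subgroup.centralizer ((S : Subgroup G) : Set G)).Normal) : ∃ P : Sylow p ↥(Subgroup.normalClosure (((S : Subgroup G) ⊓ Subgroup.centralizer (Cfsg.centerThompsonAOf (S : Subgroup G) : Set G)) : Set G)), (P : Subgroup ↥(Subgroup.normalClosure (((S : Subgroup G) ⊓ Subgroup.centralizer (Cfsg.centerThompsonAOf (S : Subgroup G) : Set G)) : Set G))) = (((S : Subgroup G) ⊓ Subgroup.centralizer (Cfsg.centerThompsonAOf (S : Subgroup G) : Set G))).subgroupOf (Subgroup.normalClosure (((S : Subgroup G) ⊓ Subgroup.centralizer (Cfsg.centerThompsonAOf (S : Subgroup G) : Set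 G)) : Set G)) := by
  have h := pu_of S hE₁ hE₂ K F n hn hF hE₃
  by_cases hJ : Cfsg.thompsonSubgroupAOf (S : Subgroup G) ≤ Cfsg.pCore p G
  · have hn := normal_of_thompson_le h hZ hJ
    have e : Subgroup.normalClosure (((S : Subgroup G) ⊓
        Subgroup.centralizer (Cfsg.centerThompsonAOf (S : Subgroup G) : Set G) : Subgroup G) : Set G) =
        (S : Subgroup G) ⊓ Subgroup.centralizer (Cfsg.centerThompsonAOf (S : Subgroup G) : Set G) :=
      le_antisymm (Subgroup.normalClosure_le_normal (le_refl _)) Subgroup.subset_normalClosure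
    obtain ⟨T, hT⟩ := exists_sylow_subgroupOf S (Subgroup.normalClosure (((S : Subgroup G) ⊓
        Subgroup.centralizer (Cfsg.centerThompsonAOf (S : Subgroup G) : Set G) : Subgroup G) : Set G))
    refine ⟨T, ?_⟩
    rw [hT]
    ext x
    have hx : (x : G) ∈ (S : Subgroup G) ⊓
        Subgroup.centralizer (Cfsg.centerThompsonAOf (S : Subgroup G) : Set G) := e.le x.2
    exact ⟨fun _ => hx, fun _ => hx.1⟩
  · exact (h.baumann hZ hJ S rfl).2

end Cfsg.Agent.S2768
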