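import Cfsg.Statements.S2772
import Cfsg.Agent.H581.SimsF
import Cfsg.Agent.PLocal.PConstrained
set_option linter.all false

set_option autoImplicit false
open Cfsg

namespace Cfsg.Agent.S2772

open Pointwise in
open Cfsg.Agent.H581.Sims in
/-- Sims' Theorem in local form: let H be a finite non-abelian simple group and G a maximal subgroup of H with C_G(O₂(G)) ≤ O₂(G), such that N_H(S) is not contained in G for a Sylow 2-subgroup S of G and G/O₂(G) is dihedral of order 2q for a prime q. Then G is isomorphic to the symmetric group of degree 4 or to its direct product with a group of order 2. -/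
theorem result {H : Type*} [Group H] [Finite H] [IsSimpleGroup H] (hna : ¬ IsMulCommutative H) (G : Subgroup H) (hG : IsCoatom G) (hchar : Subgroup.centralizer (Cfsg.pCore 2 ↥G : Set ↥G) ≤ Cfsg.pCore 2 ↥G) (S : Sylow 2 ↥G) (hN : ¬ Subgroup.normalizer (((S : Subgroup ↥G).map G.subtype : Subgroup H) : Set H) ≤ G) (q : ℕ) (hq : q.Prime) (hD : Nonempty (↥G ⧸ Cfsg.pCore 2 ↥G ≃* DihedralGroup q)) : Nonempty (↥G ≃* Equiv.Perm (Fin 4)) ∨ Nonempty (↥G ≃* Equiv.Perm (Fin 4) × Multiplicative (ZMod 2)) := by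
  have hfact : Fact (Nat.Prime 2) := ⟨Nat.prime_two⟩
  have : NeZero q := ⟨hq.ne_zero⟩
  rw [SetLike.not_le_iff_exists] at hN
  obtain ⟨y, hyN, hyG⟩ := hN
  have hcardq : Nat.card (↥G ⧸ Cfsg.pCore 2 ↥G) = 2 * q := by
    obtain ⟨e⟩ := hD
    rw [Nat.card_congr e.toEquiv, DihedralGroup.nat_card]
  have hq2 := hq.two_le
  have hGne : G ≠ ⊥ := by
    intro h
    have h1 : Nat.card (↥G ⧸ Cfsg.pCore 2 ↥G) ∣ Nat.card G := Subgroup.card_quotient_dvd_card _
    rw [hcardq, h, Subgroup.card_bot, Nat.dvd_one] at h1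
    omega
  set P : Subgroup H := (S : Subgroup ↥G).map G.subtype with hP
  have hPG : P ≤ G := Subgroup.map_subtype_le _
  have hPp : IsPGroup 2 P := S.isPGroup'.map _
  have hidx : ¬ 2 ∣ P.relIndex G := by
    have h1 : P.relIndex G = (S : Subgroup ↥G).index := by
      show ((S : Subgroup ↥G).map G.subtype |>.comap G.subtype).index = _
      rw [Subgroup.comap_map_eq_self_of_injective G.subtype_injective]
    rw [h1]
    exact S.not_dvd_index
  have hyP : MulAut.conj y • P = P := conj_smul_eq_of_mem hyN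
  obtain ⟨-, hcard, hcases⟩ := dihedral_final G q hq2 hD P hPG hPp hidx y hyP (by
    intro X hX hGX hyX
    by_contra hne
    have hXtop : X ≠ ⊤ := fun h => hG.1 (top_le_iff.1 (h ▸ hX.trans hPG))
    have h1 : Subgroup.normalizer (X : Set H) ≠ ⊤ := by
      intro h
      have hn : X.Normal := Subgroup.normalizer_eq_top_iff.1 h
      rcases hn.eq_bot_or_eq_top with h2 | h2
      · exact hne h2
      · exact hXtop h2
    have h2 : Subgroup.normalizer (X : Set H) = G := by
      rcases hGX.eq_or_lt with h3 | h3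
      · exact h3.symm
      · exact absurd (hG.2 _ h3) h1
    rw [h2] at hyX
    have h3 : MulAut.conj y • G = G := Subgroup.eq_of_le_of_card_ge hyX (card_conj y G).ge
    have h4 : y ∈ Subgroup.normalizer (G : Set H) := mem_normalizer_of_conj_smul_eq h3
    have h5 : Subgroup.normalizer (G : Set H) ≠ ⊤ := by
      intro h
      have hn : G.Normal := Subgroup.normalizer_eq_top_iff.1 h
      rcases hn.eq_bot_or_eq_top with h6 | h6
      · exact hGne h6
      · exact hG.1 h6
    have h6 : Subgroup.normalizer (G : Set H) = G := by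
      rcases (Subgroup.le_normalizer (H := G)).eq_or_lt with h7 | h7
      · exact h7.symm
      · exact absurd (hG.2 _ h7) h5
    rw [h6] at h4
    exact hyG h4)
  have hbot : Cfsg.pPrimeCore 2 ↥G = ⊥ := PLocal.PConstrained.pPrimeCore_eq_bot_of_charP hchar
  have hcardG : Nat.card G = 2 * q * Nat.card (Cfsg.pCore 2 ↥G) := by
    rw [Subgroup.card_eq_card_quotient_mul_card_subgroup (Cfsg.pCore 2 ↥G), hcardq]
  have hnotcen : ¬ (⊤ : Subgroup ↥G) ≤ Subgroup.centralizer (Cfsg.pCore 2 ↥G : Set ↥G) := by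
    intro h
    have h1 : Cfsg.pCore 2 ↥G = ⊤ := top_le_iff.1 (h.trans hchar)
    rw [h1, Subgroup.card_top] at hcardG
    have h2 : 0 < Nat.card G := Nat.card_pos
    nlinarith
  have hquot : ∀ {M : Type} [Group M], Nonempty (↥G ⧸ Cfsg.oddCore ↥G ≃* M) → Nonempty (↥G ≃* M) := by
    rintro M _ ⟨e⟩
    have h1 : Cfsg.oddCore ↥G = ⊥ := hbot
    exact ⟨(QuotientGroup.quotientBot.symm.trans (QuotientGroup.quotientMulEquivOfEq h1.symm)).trans e⟩
  rcases hcases with h | ⟨h, -⟩ | ⟨h, h'⟩ | ⟨h, h'⟩
  · exfalso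
    have h1 : Nat.card (Cfsg.pCore 2 ↥G) = 1 := by omega
    apply hnotcen
    rw [Subgroup.card_eq_one.1 h1]
    intro x _
    rw [Subgroup.mem_centralizer_iff]
    rintro z hz
    rw [Subgroup.coe_bot, Set.mem_singleton_iff] at hz
    rw [hz, one_mul, mul_one]
  · exfalso
    have h1 : Nat.card (Cfsg.pCore 2 ↥G) = 2 := by omega
    apply hnotcen
    intro x _
    rw [Subgroup.mem_centralizer_iff]
    intro z hz
    have hn := Lib.Cores.pCore_normal (G := ↥G) 2
    obtain ⟨a, b, hab, huniv⟩ := Nat.card_eq_two_iff.1 h1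
    have key : ∀ u v : Cfsg.pCore 2 ↥G, u ≠ 1 → v ≠ 1 → u = v := by
      intro u v hu hv
      have m1 : (1 : Cfsg.pCore 2 ↥G) ∈ ({a, b} : Set _) := by rw [huniv]; trivial
      have m2 : u ∈ ({a, b} : Set _) := by rw [huniv]; trivial
      have m3 : v ∈ ({a, b} : Set _) := by rw [huniv]; trivial
      simp only [Set.mem_insert_iff, Set.mem_singleton_iff] at m1 m2 m3
      rcases m1 with m1 | m1 <;> rcases m2 with m2 | m2 <;> rcases m3 with m3 | m3 <;>
        first
          | exact m2.trans m3.symm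
          | exact absurd (m2.trans m1.symm) hu
          | exact absurd (m3.trans m1.symm) hv
    by_cases hz1 : z = 1
    · rw [hz1, one_mul, mul_one]
    · have h2 := key ⟨z, hz⟩ ⟨x * z * x⁻¹, hn.conj_mem z hz x⟩ (fun h => hz1 (congrArg Subtype.val h))
        (fun h => hz1 (by
          have h3 : x * z * x⁻¹ = 1 := congrArg Subtype.val h
          rwa [conj_eq_one_iff] at h3))
      have h3 : z = x * z * x⁻¹ := congrArg Subtype.val h2
      exact eq_mul_inv_iff_mul_eq.1 h3
  · exact Or.inl (hquot h')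
  · exact Or.inr (hquot h')

end Cfsg.Agent.S2772
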