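import Cfsg.Statements.S2773
import Cfsg.Agent.H215.Ctrl
set_option linter.all false

set_option autoImplicit false
universe u
open Cfsg

namespace Cfsg.Agent.S2773

open Cfsg.Agent.H39 Cfsg.Agent.H215.Ctrl Cfsg.Agent.H215.Fun

theorem aux {G : Type u} [Group G] [Finite G] {p : ℕ} [Fact p.Prime] (hp : p ≠ 2) (S : Sylow p G) :
    ∀ g : G, g ∈ (S : Subgroup G) ⊓ commutator G ↔
      ∃ a ∈ (S : Subgroup G) ⊓ ⁅Subgroup.centralizer (Zs (S : Subgroup G) : Set G), Subgroup.centralizer (Zs (S : Subgroup G) : Set G)⁆,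
      ∃ b ∈ (S : Subgroup G) ⊓ ⁅Subgroup.normalizer (K (S : Subgroup G) : Set G), Subgroup.normalizer (K (S : Subgroup G) : Set G)⁆,
        g = a * b := by
  intro g
  set C := Subgroup.centralizer (Zs (S : Subgroup G) : Set G) with hC
  set N := Subgroup.normalizer (K (S : Subgroup G) : Set G) with hN
  set A := (S : Subgroup G) ⊓ ⁅C, C⁆ with hA
  set B := (S : Subgroup G) ⊓ ⁅N, N⁆ with hB
  constructor
  · intro hg
    have h1 := Cfsg.Agent.H215.Ctrl.ft hp _ G rfl S
    have h2 : focalI {ZF, KF} (S : Subgroup G) ⊤ ≤ A ⊔ B := by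
      refine iSup₂_le ?_
      rintro W (rfl | rfl)
      · rw [induced_ZF, top_inf_eq]
        refine focal_split (p := p) (C := C) S.isPGroup' ?_ ZS_cent cent_le_normalizer ?_ le_sup_left ?_
        · exact fun h => S.not_dvd_index (h.trans (Subgroup.relIndex_dvd_index_of_le (ZS_cent.trans cent_le_normalizer)))
        · exact fun l hl c hc => cent_conj hl hc
        · refine le_trans (inf_le_inf_left _ ?_) le_sup_right
          have h3 : Subgroup.normalizer (Zs (S : Subgroup G) : Set G) ⊓ Subgroup.normalizer ((S : Subgroup G) : Set G) ≤ N :=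
            inf_le_right.trans normalizer_le_K
          exact Subgroup.commutator_mono h3 h3
      · rw [induced_KF, top_inf_eq]
        exact le_sup_right
    have h3 : g ∈ A ⊔ B := h2 (h1 hg)
    -- `B ≤ S` normalizes `A`
    have hSA : ∀ s ∈ (S : Subgroup G), ∀ a ∈ A, s * a * s⁻¹ ∈ A := by
      intro s hs a ha
      obtain ⟨ha1, ha2⟩ := Subgroup.mem_inf.1 ha
      refine Subgroup.mem_inf.2 ⟨mul_mem (mul_mem hs ha1) (inv_mem hs), ?_⟩
      have hsC : s ∈ C := ZS_cent hs
      have h4 := le_normalizer_commutator_self C hsC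
      exact (Subgroup.mem_normalizer_iff.1 h4 a).1 ha2
    have hBA : B ≤ Subgroup.normalizer (A : Set G) := by
      intro b hb
      have hbS := (Subgroup.mem_inf.1 hb).1
      rw [Subgroup.mem_normalizer_iff]
      intro a
      refine ⟨fun ha => hSA b hbS a ha, fun ha => ?_⟩
      have h4 := hSA b⁻¹ (inv_mem hbS) _ ha
      rwa [show b⁻¹ * (b * a * b⁻¹) * b⁻¹⁻¹ = a by group] at h4
    have h5 : (g : G) ∈ ((A ⊔ B : Subgroup G) : Set G) := h3
    rw [Subgroup.coe_mul_of_right_le_normalizer_left A B hBA] at h5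
    obtain ⟨a, ha, b, hb, e⟩ := h5
    exact ⟨a, ha, b, hb, e.symm⟩
  · rintro ⟨a, ha, b, hb, rfl⟩
    have hle : ∀ X : Subgroup G, (S : Subgroup G) ⊓ ⁅X, X⁆ ≤ (S : Subgroup G) ⊓ commutator G := fun X =>
      inf_le_inf_left _ (Subgroup.commutator_mono le_top le_top)
    exact mul_mem (hle _ ha) (hle _ hb)

/-- For every nontrivial finite 3-group S there is a nontrivial characteristic subgroup K of S such that, in every finite group G containing S as a Sylow 3-subgroup, S ∩ G' is the product of S ∩ (C_G(Z(S)))' and S ∩ (N_G(K))' (derived subgroups; product taken elementwise). -/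
theorem result {S : Type u} [Group S] [Finite S] [Nontrivial S] (hS : IsPGroup 3 S) : ∃ K : Subgroup S, K ≠ ⊥ ∧ K.Characteristic ∧ ∀ (G : Type u) [Group G] [Finite G] (τ : S →* G), Function.Injective τ → (∃ P : Sylow 3 G, (P : Subgroup G) = τ.range) → ∀ g : G, g ∈ τ.range ⊓ commutator G ↔ ∃ a ∈ τ.range ⊓ ⁅Subgroup.centralizer ((τ.range ⊓ Subgroup.centralizer (τ.range : Set G) : Subgroup G) : Set G), Subgroup.centralizer ((τ.range ⊓ Subgroup.centralizer (τ.range : Set G) : Subgroup G) : Set G)⁆, ∃ b ∈ τ.range ⊓ ⁅Subgroup.normalizer ((K.map τ : Subgroup G) : Set G), Subgroup.normalizer ((K.map τ : Subgroup G) : Set G)⁆, g = a * b := by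
  have h3 : Fact (Nat.Prime 3) := ⟨by norm_num⟩
  refine ⟨KF S, charKF.1 S hS inferInstance, ?_, ?_⟩
  · rw [Subgroup.characteristic_iff_map_eq]
    exact fun φ => charKF.2 S S hS φ
  · rintro G _ _ τ hτ ⟨P, hP⟩ g
    have h1 := aux (p := 3) (by norm_num) P g
    have h2 : (KF S).map τ = K (P : Subgroup G) := by
      rw [hP, MonoidHom.range_eq_map, K_map τ hτ]; rfl
    rw [h2, ← hP]
    exact h1

end Cfsg.Agent.S2773
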