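import Mathlib
import Cfsg.Prelude.Def_ConjugacyFunctors
import Cfsg.Agent.PLocal.S4ConFinal_mg
import Cfsg.Agent.PLocal.S4ConPside
import Cfsg.Agent.PLocal.ThompsonFrattini
import Cfsg.Statements.S2796
import Cfsg.Agent.S1997
set_option linter.all false

-- part: H223/SFourD
section
set_option autoImplicit false

/-!
# The characteristic subgroup `D(T)` of a 2-group `T` (Stellmacher) and the first factorization

`D T = S4ConGroup.Df Gd T` is normal in every `S₄`-free group `G` of characteristic 2 with Sylow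
2-subgroup `T`; it is elementary abelian, contains `Ω₁(Z(T))` and is centralized by `J_e(T)`. So
`G = C_G(D(T)) N_G(J_e(T))`.
-/

namespace Cfsg.Agent.H223.SFourD

open Cfsg Cfsg.Agent.Lib
open Cfsg.Agent.PLocal Cfsg.Agent.PLocal.S4ConGroup
open Cfsg.Agent.PLocal.S4FreeSection (S4Free)
open Cfsg.Agent.PLocal.S4ConInst (Gd gdAx)
open Cfsg.Agent.PLocal.ThompsonJ

universe u

theorem ax : GdAx.{u} Gd.{u} :=
  gdAx (fun _ _ _ _ _ _ _ hexp hS3 T _ hU => PLocal.S4FreeFlagG.good_iSup hexp hS3 T hU)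

/-- The largest good normal subgroup of `T`. -/
def D {G : Type u} [Group G] (T : Subgroup G) : Subgroup G := Df Gd.{u} T

variable {G : Type u} [Group G]

theorem D_le (T : Subgroup G) : D T ≤ T := Df_le T

theorem good_D [Finite G] {T : Subgroup G} (hT : IsPGroup 2 T) : Gd G T (D T) :=
  good_Df ax hT

theorem D_exp [Finite G] {T : Subgroup G} (hT : IsPGroup 2 T) : ∀ d ∈ D T, d * d = 1 :=
  ax.exp G T _ (good_D hT)

theorem D_isElementaryAbelian [Finite G] {T : Subgroup G} (hT : IsPGroup 2 T) :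
    IsElementaryAbelian 2 (D T) := by
  rw [isElementaryAbelian_iff]
  exact ⟨comm_of_exp (D_exp hT), fun a ha => by rw [pow_two]; exact D_exp hT a ha⟩

theorem D_map {G' : Type u} [Group G'] (f : G →* G') (hf : Function.Injective f) (T : Subgroup G) :
    (D T).map f = D (T.map f) := Df_map ax f hf T

theorem D_le_pCore [Finite G] (h4 : S4Free G)
    (hc : Subgroup.centralizer (pCore 2 G : Set G) ≤ pCore 2 G) (S : Sylow 2 G) :
    D (S : Subgroup G) ≤ pCore 2 G :=
  S4ConMin.main ax (fun P _ _ S _ hg hz =>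
    S4ConFinal.contra (fun _ _ _ _ _ _ h => PLocal.S4ConPside.pside h) P S _ _ hg hz)
    (Nat.card G + 1) G (Nat.lt_succ_self _) h4 hc S

/-- `D(S)` is normal in `S₄`-free groups of characteristic 2. -/
theorem D_normal [Finite G] (h4 : S4Free G)
    (hc : Subgroup.centralizer (pCore 2 G : Set G) ≤ pCore 2 G) (S : Sylow 2 G) :
    (D (S : Subgroup G)).Normal :=
  normal_of_le ax h4 S (D_le_pCore h4 hc S)

theorem le_D_of_triv {T U : Subgroup G} (hUT : U ≤ T) (hexp : ∀ u ∈ U, u * u = 1)
    (h : ∀ t ∈ T, ∀ u ∈ U, t * u = u * t) : U ≤ D T :=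
  le_Df hUT (ax.triv G T U hexp h)

/-- `Ω₁(Z(T)) ≤ D(T)`. -/
theorem omega_le_D (T : Subgroup G) :
    omegaOne 2 (T ⊓ Subgroup.centralizer (T : Set G)) ≤ D T := by
  unfold omegaOne
  rw [Subgroup.closure_le]
  rintro x ⟨hx, hx2⟩
  have hxc := Subgroup.mem_centralizer_iff.1 hx.2
  have h1 : Subgroup.zpowers x ≤ D T := by
    refine le_D_of_triv (Subgroup.zpowers_le.2 hx.1) ?_ ?_
    · intro u hu
      obtain ⟨k, rfl⟩ := Subgroup.mem_zpowers_iff.1 hu
      rw [← zpow_add, ← two_mul, zpow_mul]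
      have h2 : x ^ (2 : ℤ) = 1 := by
        rw [show (2 : ℤ) = ((2 : ℕ) : ℤ) from rfl, zpow_natCast, hx2]
      rw [h2, one_zpow]
    · intro t ht u hu
      obtain ⟨k, rfl⟩ := Subgroup.mem_zpowers_iff.1 hu
      have h2 : Commute t x := hxc t ht
      exact (h2.zpow_right k).eq
  exact h1 (Subgroup.mem_zpowers x)

/-- An elementary abelian subgroup of `T` of largest order centralizes the unoffended elementary
abelian subgroups of `T`. -/
theorem le_centralizer_of_unoff {T U A : Subgroup G} [Finite G]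
    (hU : IsElementaryAbelian 2 U) (hUT : U ≤ T)
    (hun : A ≤ Subgroup.centralizer (U : Set G) ∨
      (Subgroup.centralizer (U : Set G)).relIndex A <
        (Subgroup.centralizer (A : Set G)).relIndex U)
    (hA : IsElementaryAbelian 2 A) (hAT : A ≤ T)
    (hmax : ∀ B : Subgroup G, B ≤ T → IsElementaryAbelian 2 B → Nat.card B ≤ Nat.card A) :
    A ≤ Subgroup.centralizer (U : Set G) := by
  classical
  rcases hun with h | h
  · exact h
  exfalso
  set A₀ : Subgroup G := Subgroup.centralizer (U : Set G) ⊓ A with hA₀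
  -- `B = A₀ U`
  have hcomm : ∀ a ∈ A₀, ∀ u ∈ U, a * u = u * a := fun a ha u hu =>
    (Subgroup.mem_centralizer_iff.1 ha.1 u hu).symm
  have hexp : ∀ x ∈ A₀ ⊔ U, x * x = 1 := by
    refine exp_sup (fun a ha => ?_) (fun u hu => ?_) hcomm
    · have := isElementaryAbelian_pow hA ha.2
      rwa [pow_two] at this
    · have := isElementaryAbelian_pow hU hu
      rwa [pow_two] at this
  have hB : IsElementaryAbelian 2 (A₀ ⊔ U) := by
    rw [isElementaryAbelian_iff]
    exact ⟨comm_of_exp hexp, fun a ha => by rw [pow_two]; exact hexp a ha⟩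
  have h1 := hmax (A₀ ⊔ U) (sup_le (inf_le_right.trans hAT) hUT) hB
  have h2 := Timmesfeld.card_mul_card_le (B₁ := A₀) (B₂ := U) (B₃ := A₀ ⊔ U) le_sup_left
    le_sup_right
  have h3 : (Subgroup.centralizer (U : Set G)).relIndex A * Nat.card A₀ = Nat.card A := by
    rw [← Subgroup.inf_relIndex_right]
    exact S4ConInst.relIndex_mul_card' inf_le_right
  have h4 : (Subgroup.centralizer (A : Set G)).relIndex U *
      Nat.card (Subgroup.centralizer (A : Set G) ⊓ U : Subgroup G) = Nat.card U := by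
    rw [← Subgroup.inf_relIndex_right]
    exact S4ConInst.relIndex_mul_card' inf_le_right
  have h5 : Nat.card (A₀ ⊓ U : Subgroup G) ≤
      Nat.card (Subgroup.centralizer (A : Set G) ⊓ U : Subgroup G) := by
    refine Subgroup.card_le_of_le (le_inf (fun x hx => ?_) inf_le_right)
    rw [Subgroup.mem_centralizer_iff]
    intro a ha
    exact isElementaryAbelian_comm hA ha hx.1.2
  have hA₀pos : 0 < Nat.card A₀ := Nat.card_pos
  have hCpos : 0 < Nat.card (Subgroup.centralizer (A : Set G) ⊓ U : Subgroup G) := Nat.card_pos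
  set a := (Subgroup.centralizer (U : Set G)).relIndex A
  set b := (Subgroup.centralizer (A : Set G)).relIndex U
  set n := Nat.card A₀
  set m := Nat.card (Subgroup.centralizer (A : Set G) ⊓ U : Subgroup G)
  have h6 : n * (b * m) ≤ m * (a * n) := by
    calc n * (b * m) = n * Nat.card U := by rw [h4]
      _ ≤ _ := h2
      _ ≤ m * (a * n) := Nat.mul_le_mul h5 (by rw [h3]; exact h1)
  have h7 : n * m * b ≤ n * m * a := by
    calc n * m * b = n * (b * m) := by ring
      _ ≤ _ := h6
      _ = n * m * a := by ring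
  exact absurd (Nat.le_of_mul_le_mul_left h7 (Nat.mul_pos hA₀pos hCpos)) (not_le_of_gt h)

/-- `J_e(T)` centralizes `D(T)`. -/
theorem thompson_le_centralizer [Finite G] {T : Subgroup G} (hT : IsPGroup 2 T) :
    thompsonSubgroupOf 2 T ≤ Subgroup.centralizer (D T : Set G) := by
  rw [thompsonSubgroupOf_def, Subgroup.map_le_iff_le_comap]
  refine thompsonSubgroup_le fun A hA => ?_
  rw [← Subgroup.map_le_iff_le_comap]
  have hA' : IsElementaryAbelian 2 (A.map T.subtype) := isElementaryAbelian_map hA.1 _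
  have hAT : A.map T.subtype ≤ T := Subgroup.map_subtype_le A
  refine le_centralizer_of_unoff (T := T) (D_isElementaryAbelian hT) (D_le T)
    (ax.unoff G T _ (good_D hT) _ hAT ?_) hA' hAT ?_
  · intro a ha b hb
    rw [isElementaryAbelian_comm hA' ha hb, mul_inv_cancel_right, mul_inv_cancel]
    exact one_mem _
  · intro B hBT hB
    have h1 := hA.2 (B.subgroupOf T) (isElementaryAbelian_subgroupOf hB T)
    rw [card_map_injective _ T.subtype_injective]
    rwa [Nat.card_congr (Subgroup.subgroupOfEquivOfLe hBT).toEquiv] at h1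

theorem thompsonSubgroup_le_centralizer [Finite G] (h4 : S4Free G)
    (hc : Subgroup.centralizer (pCore 2 G : Set G) ≤ pCore 2 G) (S : Sylow 2 G) :
    thompsonSubgroup 2 G ≤ Subgroup.centralizer (D (S : Subgroup G) : Set G) := by
  have : Fact (Nat.Prime 2) := ⟨Nat.prime_two⟩
  have hn := D_normal h4 hc S
  rw [thompsonSubgroup_eq_iSup_sylow G 2]
  refine iSup_le fun S' => ?_
  obtain ⟨g, hg⟩ := MulAction.exists_smul_eq G S S'
  have h1 : (S : Subgroup G).map (MulAut.conj g).toMonoidHom = S' := by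
    have := congrArg Sylow.toSubgroup hg
    rw [Sylow.coe_subgroup_smul] at this
    exact this
  have h2 : D (S' : Subgroup G) = D (S : Subgroup G) := by
    rw [← h1, ← D_map _ (MulAut.conj g).injective]
    exact S4FreeClosureBasic.cj_eq_of_normal g (D (S : Subgroup G))
  rw [← h2]
  exact thompson_le_centralizer S'.isPGroup'

/-- The first factorization. -/
theorem factor [Finite G] (h4 : S4Free G)
    (hc : Subgroup.centralizer (pCore 2 G : Set G) ≤ pCore 2 G) (S : Sylow 2 G) (g : G) :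
    ∃ c ∈ Subgroup.centralizer (D (S : Subgroup G) : Set G),
      ∃ n ∈ Subgroup.normalizer (thompsonSubgroupOf 2 (S : Subgroup G) : Set G), g = c * n := by
  have : Fact (Nat.Prime 2) := ⟨Nat.prime_two⟩
  have hn := D_normal h4 hc S
  have h1 := ThompsonFrattini.normalizer_thompson_sup_eq_top S
    (Subgroup.centralizer (D (S : Subgroup G) : Set G)) (thompsonSubgroup_le_centralizer h4 hc S)
  have h2 : g ∈ Subgroup.centralizer (D (S : Subgroup G) : Set G) ⊔
      Subgroup.normalizer (thompsonSubgroupOf 2 (S : Subgroup G) : Set G) := by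
    rw [sup_comm, h1]
    exact Subgroup.mem_top g
  rw [← SetLike.mem_coe, Subgroup.normal_mul] at h2
  obtain ⟨c, hc', n, hn', rfl⟩ := h2
  exact ⟨c, hc', n, hn', rfl⟩

end Cfsg.Agent.H223.SFourD
end

-- part: H223/SFourFun
section
set_option autoImplicit false

/-!
# The functors `J_e` and `D`
-/

namespace Cfsg.Agent.H223.SFourD

open Cfsg Cfsg.Agent.Lib
open Cfsg.Agent.PLocal Cfsg.Agent.PLocal.S4ConGroup
open Cfsg.Agent.PLocal.S4FreeSection (S4Free)
open Cfsg.Agent.PLocal.S4ConInst (Gd gdAx)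
open Cfsg.Agent.PLocal.ThompsonJ

universe u

/-- The functor `J_e`. -/
def WJ (Q : Type u) [Group Q] : Subgroup Q := thompsonSubgroup 2 Q

/-- The functor `D`. -/
def WD (Q : Type u) [Group Q] : Subgroup Q := D (⊤ : Subgroup Q)

theorem two_dvd_card {Q : Type u} [Group Q] [Finite Q] (hQ : IsPGroup 2 Q) [Nontrivial Q] :
    2 ∣ Nat.card Q := by
  obtain ⟨n, hn⟩ := hQ.exists_card_eq
  rcases n with _ | n
  · rw [pow_zero] at hn
    have := Finite.one_lt_card (α := Q)
    omega
  · rw [hn]
    exact dvd_pow_self 2 (Nat.succ_ne_zero n)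

theorem isCharPFunctor_WJ : IsCharPFunctor.{u} 2 WJ.{u} := by
  have : Fact (Nat.Prime 2) := ⟨Nat.prime_two⟩
  refine ⟨?_, ?_⟩
  · intro Q _ _ hQ _
    exact thompsonSubgroup_ne_bot (two_dvd_card hQ)
  · intro Q R _ _ _ _ φ
    exact map_mulEquiv_thompsonSubgroup 2 φ

theorem D_ne_bot {Q : Type u} [Group Q] [Finite Q] (hQ : IsPGroup 2 Q) [Nontrivial Q] :
    D (⊤ : Subgroup Q) ≠ ⊥ := by
  have : Fact (Nat.Prime 2) := ⟨Nat.prime_two⟩
  have hZ : Nontrivial (Subgroup.center Q) := hQ.center_nontrivial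
  have hZ2 : IsPGroup 2 (Subgroup.center Q) := hQ.to_subgroup _
  obtain ⟨z, hz⟩ := exists_prime_orderOf_dvd_card' 2 (two_dvd_card hZ2)
  have hz1 : (z : Q) ≠ 1 := by
    intro h1
    have : z = 1 := Subtype.ext h1
    rw [this, orderOf_one] at hz
    omega
  have hz2 : (z : Q) ^ 2 = 1 := by
    have h1 := pow_orderOf_eq_one z
    rw [hz] at h1
    exact congrArg Subtype.val h1
  intro hbot
  have h1 : (z : Q) ∈ D (⊤ : Subgroup Q) := by
    refine omega_le_D ⊤ (Subgroup.subset_closure ⟨⟨Subgroup.mem_top _, ?_⟩, hz2⟩)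
    show (z : Q) ∈ Subgroup.centralizer ((⊤ : Subgroup Q) : Set Q)
    rw [Subgroup.mem_centralizer_iff]
    intro g _
    exact Subgroup.mem_center_iff.1 z.2 g
  rw [hbot, Subgroup.mem_bot] at h1
  exact hz1 h1

theorem isCharPFunctor_WD : IsCharPFunctor.{u} 2 WD.{u} := by
  refine ⟨?_, ?_⟩
  · intro Q _ _ hQ _
    exact D_ne_bot hQ
  · intro Q R _ _ _ _ φ
    have h1 := D_map φ.toMonoidHom φ.injective (⊤ : Subgroup Q)
    rw [Subgroup.map_top_of_surjective _ φ.surjective] at h1
    exact h1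

theorem inducedFunctor_WJ {G : Type u} [Group G] (T : Subgroup G) :
    inducedFunctor WJ T = thompsonSubgroupOf 2 T := rfl

theorem inducedFunctor_WD {G : Type u} [Group G] (T : Subgroup G) :
    inducedFunctor WD T = D T := by
  show (D (⊤ : Subgroup T)).map T.subtype = D T
  rw [D_map _ T.subtype_injective, ← MonoidHom.range_eq_map, Subgroup.range_subtype]

/-- `Ω₁(Z(T)) ≤ J_e(T)`. -/
theorem omega_le_thompson {G : Type u} [Group G] [Finite G] (T : Subgroup G) :
    omegaOne 2 (T ⊓ Subgroup.centralizer (T : Set G)) ≤ thompsonSubgroupOf 2 T := by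
  obtain ⟨A, hA⟩ := exists_maxElementaryAbelian 2 T
  have hA' : IsElementaryAbelian 2 (A.map T.subtype) := isElementaryAbelian_map hA.1 _
  have hle : A.map T.subtype ≤ thompsonSubgroupOf 2 T := Subgroup.map_mono (le_thompsonSubgroup hA)
  refine le_trans ?_ hle
  unfold omegaOne
  rw [Subgroup.closure_le]
  rintro x ⟨hx, hx2⟩
  have hxc := Subgroup.mem_centralizer_iff.1 hx.2
  have hAT : A.map T.subtype ≤ T := Subgroup.map_subtype_le A
  have hexpA : ∀ a ∈ A.map T.subtype, a * a = 1 := fun a ha => by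
    have := isElementaryAbelian_pow hA' ha
    rwa [pow_two] at this
  have hexpx : ∀ u ∈ Subgroup.zpowers x, u * u = 1 := by
    intro u hu
    obtain ⟨k, rfl⟩ := Subgroup.mem_zpowers_iff.1 hu
    rw [← zpow_add, ← two_mul, zpow_mul]
    have h2 : x ^ (2 : ℤ) = 1 := by
      rw [show (2 : ℤ) = ((2 : ℕ) : ℤ) from rfl, zpow_natCast, hx2]
    rw [h2, one_zpow]
  have hexp : ∀ y ∈ A.map T.subtype ⊔ Subgroup.zpowers x, y * y = 1 := by
    refine exp_sup hexpA hexpx ?_
    intro a ha u hu
    obtain ⟨k, rfl⟩ := Subgroup.mem_zpowers_iff.1 hu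
    have h2 : Commute a x := hxc a (hAT ha)
    exact (h2.zpow_right k).eq
  have hB : IsElementaryAbelian 2 (A.map T.subtype ⊔ Subgroup.zpowers x) := by
    rw [isElementaryAbelian_iff]
    exact ⟨comm_of_exp hexp, fun a ha => by rw [pow_two]; exact hexp a ha⟩
  have hBT : A.map T.subtype ⊔ Subgroup.zpowers x ≤ T :=
    sup_le hAT (Subgroup.zpowers_le.2 hx.1)
  have h3 : A ≤ (A.map T.subtype ⊔ Subgroup.zpowers x).subgroupOf T := by
    intro a ha
    exact (le_sup_left : A.map T.subtype ≤ _) ⟨a, ha, rfl⟩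
  have h4 := eq_of_le_of_mem_max hA (isElementaryAbelian_subgroupOf hB T) h3
  have h5 : (⟨x, hx.1⟩ : T) ∈ A := by
    rw [h4]
    exact (le_sup_right : Subgroup.zpowers x ≤ A.map T.subtype ⊔ _) (Subgroup.mem_zpowers x)
  exact ⟨⟨x, hx.1⟩, h5, rfl⟩

end Cfsg.Agent.H223.SFourD
end

-- part: S2796
section
set_option autoImplicit false
universe u
open Cfsg

namespace Cfsg.Agent.S2796

open Cfsg.Agent.H223.SFourD
open Cfsg.Agent.PLocal.S4FreeSection (S4Free s4Free_iff)

/-- Let G be a finite group in which the symmetric group of degree 4 is not involved, such that for every section K/R of G with C(O₂(K/R)) ≤ O₂(K/R) every non-abelian composition factor of K/R is a Suzuki group Sz(2^(2n+1)) or PSL₂ over a field with 3^(2n+1) elements. Let S be a Sylow 2-subgroup, J_e(S) the subgroup generated by its elementary abelian subgroups of largest order, and A the normal closure of Ω₁(Z(S)) in N_G(J_e(S)). Then A is an elementary abelian subgroup of S, strongly closed in S with respect to G,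 and A controls strong fusion in G. -/
theorem result {G : Type u} [Group G] [Finite G] (hfree : ¬ Cfsg.Involves (Equiv.Perm (Fin 4)) G) (hsec : ∀ (K R : Subgroup G) [hR : (R.subgroupOf K).Normal], Subgroup.centralizer (Cfsg.pCore 2 (K ⧸ R.subgroupOf K) : Set (K ⧸ R.subgroupOf K)) ≤ Cfsg.pCore 2 (K ⧸ R.subgroupOf K) → Cfsg.IsCompositionKGroupWith Cfsg.IsSuzukiOrPSL2OddPowerThree (K ⧸ R.subgroupOf K)) (S : Sylow 2 G) (N : Subgroup G) (hN : N = Subgroup.normalizer (Cfsg.thompsonSubgroupOf 2 (S : Subgroup G) : Set G)) (A : Subgroup G) (hA : A = (Subgroup.normalClosure (((Cfsg.omegaOne 2 ((S : Subgroup G) ⊓ Subgroup.centralizer ((S : Subgroup G) : Set G))).subgroupOf N : Subgroup ↥N) : Set ↥N)).map N.subtype) : A ≤ S ∧ Cfsg.IsElementaryAbelian 2 A ∧ Cfsg.IsStronglyClosed A (S : Subgroup G) ∧ Cfsg.ControlsStrongFusion 2 A := by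
  have h4 : S4Free G := by
    rw [s4Free_iff]
    intro D ψ hψ
    apply hfree
    have hsub : (ψ.ker.map D.subtype).subgroupOf D = ψ.ker :=
      Subgroup.comap_map_eq_self_of_injective D.subtype_injective _
    have hn : ((ψ.ker.map D.subtype).subgroupOf D).Normal := by
      rw [hsub]
      infer_instance
    refine ⟨D, ψ.ker.map D.subtype, hn, ?_⟩
    exact ⟨(QuotientGroup.quotientMulEquivOfEq hsub).trans
      (QuotientGroup.quotientKerEquivOfSurjective ψ hψ)⟩
  have hF : Fact (Nat.Prime 2) := ⟨Nat.prime_two⟩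
  refine S1997.result S WJ WD isCharPFunctor_WJ isCharPFunctor_WD ?_ ?_ N ?_ A hA
  · intro K R hR hc T
    have h4' : S4Free (K ⧸ R.subgroupOf K) := (h4.subgroup K).quotient _
    rw [inducedFunctor_WJ, inducedFunctor_WD]
    have hn := D_normal h4' hc T
    have htop : Subgroup.normalizer (D (T : Subgroup (K ⧸ R.subgroupOf K)) :
        Set (K ⧸ R.subgroupOf K)) = ⊤ := Subgroup.normalizer_eq_top_iff.2 hn
    refine ⟨?_, ?_, ?_⟩
    · intro x
      obtain ⟨c, hc', n, hn', rfl⟩ := factor h4' hc T x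
      exact ⟨c, Subgroup.centralizer_le (omega_le_D _) hc', n, hn', rfl⟩
    · intro x
      refine ⟨1, one_mem _, x, ?_, (one_mul x).symm⟩
      rw [htop]
      exact Subgroup.mem_top x
    · intro x
      refine ⟨1, one_mem _, x, ?_, (one_mul x).symm⟩
      rw [htop]
      exact Subgroup.mem_top x
  · rw [inducedFunctor_WJ, inducedFunctor_WD]
    exact le_inf (omega_le_thompson _) (omega_le_D _)
  · rw [inducedFunctor_WJ]
    exact hN

end Cfsg.Agent.S2796
end
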