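import Mathlib
import Cfsg.Prelude.Def_Solvable
import Cfsg.Prelude.Def_Transfer
import Cfsg.Agent.Lib.Cores
import Cfsg.Agent.PLocal.Constrained
import Cfsg.Agent.PLocal.ConjFunctor
import Cfsg.Agent.PLocal.CoprimeLift
import Cfsg.Agent.PLocal.ComplementReduction
import Cfsg.Agent.Transfer.NormalPComplement
import Cfsg.Agent.S0072
import Cfsg.Prelude.Def_PLocal
import Cfsg.Prelude.Def_Local
import Cfsg.Agent.PLocal.ThompsonJA
import Cfsg.Agent.PLocal.ZJ
import Cfsg.Agent.PLocal.AbelianStable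
import Cfsg.Agent.Transfer.ThompsonNormalJ
import Cfsg.Agent.Transfer.PGroupNormal
import Cfsg.Agent.Lib.CoprimeAbelian
import Cfsg.Agent.H41.ClassTwoFactor
import Cfsg.Statements.S2800
import Cfsg.Agent.Lib.Involves
import Cfsg.Agent.Transfer.PNilpotentBasic
import Cfsg.Agent.Transfer.ThompsonReduction
set_option linter.all false

-- part: H41/HypReduction
section
/-!
# Reduction of normal `p`-complement theorems with a hypothesis on the Sylow subgroup

`hasNormalPComplement_of_hyp_class`: let `Hy G P` be a hypothesis on a `p`-subgroup `P` of the finite group `G`, inherited by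
injective preimages and quotients by normal `p'`-subgroups, and which holds as soon as the normalizers `N_G(K)`,
`1 ≠ K ≤ P`, `N_G(P) ≤ N_G(K)`, have normal `p`-complements. If in the minimal configuration the hypothesis implies a
normal `p`-complement then it always does. Relative to a class `C` of groups closed under subgroups and quotients.
-/

set_option autoImplicit false

universe u

namespace Cfsg.Agent.H41.HypReduction

open Cfsg Cfsg.Agent
open scoped Pointwise commutatorElement
open Cfsg.Agent.PLocal.ComplementReduction (isPSolvable_of_quotient_npc eq_of_npc exists_abelian)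

section

variable {p : ℕ} [hp : Fact p.Prime] (Hy : ∀ (G : Type u) [Group G], Subgroup G → Prop)

/-- Restriction to a proper subgroup. -/
theorem npc_subgroup
    (C : ∀ (G : Type u) [Group G], Prop)
    (hCsub : ∀ (G : Type u) [Group G] (L : Subgroup G), C G → C L)
    (hmap : ∀ (L G : Type u) [Group L] [Group G] [Finite L] [Finite G] (f : L →* G)
      (Q : Subgroup L), Function.Injective f → IsPGroup p Q → Hy G (Q.map f) → Hy L Q)
    (G : Type u) [Group G] [Finite G]
    (hC : C G)
    (IH : ∀ (L : Type u) [Group L] [Finite L], C L → Nat.card L < Nat.card G → ∀ Q : Sylow p L,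
      Hy L (Q : Subgroup L) → Cfsg.HasNormalPComplement p L)
    (L : Subgroup G) (hL : L ≠ ⊤) (Q : Sylow p L)
    (h : Hy G ((Q : Subgroup L).map L.subtype)) :
    Cfsg.HasNormalPComplement p L := by
  refine IH L (hCsub G L hC) ?_ Q (hmap L G L.subtype _ L.subtype_injective Q.isPGroup' h)
  have := PLocal.ConjFunctor.card_lt_card_of_lt (lt_top_iff_ne_top.mpr hL)
  rwa [Subgroup.card_top] at this

/-- Restriction to a proper subgroup containing the Sylow subgroup `P`. -/
theorem npc_overgroup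
    (C : ∀ (G : Type u) [Group G], Prop)
    (hCsub : ∀ (G : Type u) [Group G] (L : Subgroup G), C G → C L)
    (hmap : ∀ (L G : Type u) [Group L] [Group G] [Finite L] [Finite G] (f : L →* G)
      (Q : Subgroup L), Function.Injective f → IsPGroup p Q → Hy G (Q.map f) → Hy L Q)
    (G : Type u) [Group G] [Finite G]
    (hC : C G)
    (IH : ∀ (L : Type u) [Group L] [Finite L], C L → Nat.card L < Nat.card G → ∀ Q : Sylow p L,
      Hy L (Q : Subgroup L) → Cfsg.HasNormalPComplement p L)
    (P : Sylow p G)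
    (h : Hy G (P : Subgroup G))
    (L : Subgroup G) (hL : L ≠ ⊤) (hPL : (P : Subgroup G) ≤ L) :
    Cfsg.HasNormalPComplement p L := by
  refine npc_subgroup Hy C hCsub hmap G hC IH L hL (P.subtype hPL) ?_
  rw [Sylow.coe_subtype, Subgroup.subgroupOf_map_subtype, inf_eq_left.mpr hPL]
  exact h

/-- The local step: a minimal counterexample has a nontrivial normal `p`-subgroup. -/
theorem pCore_ne_bot
    (C : ∀ (G : Type u) [Group G], Prop)
    (hCsub : ∀ (G : Type u) [Group G] (L : Subgroup G), C G → C L)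
    (hmap : ∀ (L G : Type u) [Group L] [Group G] [Finite L] [Finite G] (f : L →* G)
      (Q : Subgroup L), Function.Injective f → IsPGroup p Q → Hy G (Q.map f) → Hy L Q)
    (hloc : ∀ (G : Type u) [Group G] [Finite G] (Q : Subgroup G), IsPGroup p Q → Q ≠ ⊥ →
      (∀ K : Subgroup G, K ≤ Q → K ≠ ⊥ →
        Subgroup.normalizer (Q : Set G) ≤ Subgroup.normalizer (K : Set G) →
        Cfsg.HasNormalPComplement p (Subgroup.normalizer (K : Set G))) → Hy G Q)
    (G : Type u) [Group G] [Finite G]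
    (hC : C G)
    (IH : ∀ (L : Type u) [Group L] [Finite L], C L → Nat.card L < Nat.card G → ∀ Q : Sylow p L,
      Hy L (Q : Subgroup L) → Cfsg.HasNormalPComplement p L)
    (P : Sylow p G)
    (h : Hy G (P : Subgroup G))
    (hG : ¬ Cfsg.HasNormalPComplement p G) : Cfsg.pCore p G ≠ ⊥ := by
  classical
  -- the `p`-part of the normalizer
  let m : Subgroup G → ℕ := fun H =>
    Nat.card ((default : Sylow p ↥(Subgroup.normalizer (H : Set G))) :
      Subgroup ↥(Subgroup.normalizer (H : Set G)))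
  let X : Set (Subgroup G) := {H | IsPGroup p H ∧ H ≠ ⊥ ∧
    ¬ Cfsg.HasNormalPComplement p (Subgroup.normalizer (H : Set G))}
  have hXne : X.Nonempty := by
    by_contra hne
    rw [Set.not_nonempty_iff_eq_empty] at hne
    apply hG
    rw [Cfsg.Agent.S0072.result p]
    intro Q hQ hQ1
    by_contra hc
    have : Q ∈ X := ⟨hQ, hQ1, hc⟩
    rw [hne] at this
    exact this
  obtain ⟨H, hHX, hHmax⟩ := Set.exists_max_image X m (Set.toFinite X) hXne
  obtain ⟨hHp, hH1, hHn⟩ := hHX
  have hNtop : Subgroup.normalizer (H : Set G) = ⊤ := by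
    by_contra hne
    apply hHn
    let Q : Sylow p ↥(Subgroup.normalizer (H : Set G)) := default
    have hmH : m H = Nat.card (Q : Subgroup ↥(Subgroup.normalizer (H : Set G))) := rfl
    refine npc_subgroup Hy C hCsub hmap G hC IH _ hne Q ?_
    have hHQ := PLocal.ConjFunctor.le_map_sylow_normalizer hHp Q
    have hQp := PLocal.ConjFunctor.isPGroup_map_sylow Q
    have hQc := PLocal.ConjFunctor.card_map_sylow Q
    obtain ⟨Q', hQ'⟩ : ∃ Q' : Subgroup G, Q' = (Q : Subgroup ↥(Subgroup.normalizer (H : Set G))).map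
      (Subgroup.subtype _) := ⟨_, rfl⟩
    rw [← hQ'] at hHQ hQp hQc ⊢
    obtain ⟨P', hP'⟩ := hQp.exists_le_sylow
    by_cases hQP : Q' = P'
    · rw [hQP]
      obtain ⟨g, hg⟩ := MulAction.exists_smul_eq G P' P
      have h1 := PLocal.ConjFunctor.map_conj_smul_sylow P' g
      rw [hg] at h1
      rw [h1] at h
      exact hmap G G (MulAut.conj g).toMonoidHom P' (MulAut.conj g).injective P'.isPGroup' h
    · have hlt : Q' < P' := lt_of_le_of_ne hP' hQP
      have hR := PLocal.ConjFunctor.lt_inf_normalizer P'.isPGroup' hlt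
      have hQ'1 : Q' ≠ ⊥ := fun h0 => hH1 (le_bot_iff.mp (h0 ▸ hHQ))
      refine hloc G Q' hQp hQ'1 fun K hKQ hK1 hNK => ?_
      by_contra hcon
      have hmem : K ∈ X := ⟨hQp.to_le hKQ, hK1, hcon⟩
      have hle := hHmax _ hmem
      have h3 : (P' : Subgroup G) ⊓ Subgroup.normalizer (Q' : Set G) ≤
          Subgroup.normalizer (K : Set G) :=
        inf_le_right.trans hNK
      have h4 : IsPGroup p ((P' : Subgroup G) ⊓ Subgroup.normalizer (Q' : Set G) : Subgroup G) :=
        P'.isPGroup'.to_le inf_le_left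
      obtain ⟨S, hS⟩ := PLocal.ConjFunctor.exists_sylow_of_le h4 h3
      have h5 : Nat.card Q' < Nat.card ((S : Subgroup
          ↥(Subgroup.normalizer (K : Set G))).map (Subgroup.subtype _)) :=
        PLocal.ConjFunctor.card_lt_card_of_lt (lt_of_lt_of_le hR hS)
      rw [PLocal.ConjFunctor.card_map_sylow] at h5
      have h6 : Nat.card (S : Subgroup ↥(Subgroup.normalizer (K : Set G))) = m K := by
        change _ = Nat.card ((default : Sylow p ↥(Subgroup.normalizer (K : Set G))) :
          Subgroup ↥(Subgroup.normalizer (K : Set G)))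
        rw [S.card_eq_multiplicity, Sylow.card_eq_multiplicity]
      omega
  intro h0
  apply hH1
  rw [← le_bot_iff, ← h0]
  exact Lib.Cores.le_pCore (Subgroup.normalizer_eq_top_iff.mp hNtop) hHp

/-- A minimal counterexample has no nontrivial normal `p'`-subgroup. -/
theorem pPrimeCore_eq_bot
    (C : ∀ (G : Type u) [Group G], Prop)
    (hCquo : ∀ (G : Type u) [Group G] (N : Subgroup G) [N.Normal], C G → C (G ⧸ N))
    (hquo : ∀ (G : Type u) [Group G] [Finite G] (N : Subgroup G) [N.Normal] (Q : Subgroup G),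
      (Nat.card N).Coprime p → IsPGroup p Q → Hy G Q → Hy (G ⧸ N) (Q.map (QuotientGroup.mk' N)))
    (G : Type u) [Group G] [Finite G]
    (hC : C G)
    (IH : ∀ (L : Type u) [Group L] [Finite L], C L → Nat.card L < Nat.card G → ∀ Q : Sylow p L,
      Hy L (Q : Subgroup L) → Cfsg.HasNormalPComplement p L)
    (P : Sylow p G)
    (h : Hy G (P : Subgroup G))
    (hG : ¬ Cfsg.HasNormalPComplement p G) : Cfsg.pPrimeCore p G = ⊥ := by
  by_contra hne
  obtain ⟨M, hM⟩ : ∃ M : Subgroup G, M = Cfsg.pPrimeCore p G := ⟨_, rfl⟩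
  have hMn : M.Normal := by rw [hM]; exact Lib.Cores.pPrimeCore_normal p
  have hMc : (Nat.card M).Coprime p := by rw [hM]; exact Lib.Cores.pPrimeCore_coprime p
  rw [← hM] at hne
  apply hG
  refine Transfer.NormalPComplement.of_quotient M hMc ?_
  have hs := QuotientGroup.mk'_surjective M
  refine IH (G ⧸ M) (hCquo G M hC) ?_ (P.mapSurjective hs) ?_
  · have h1 := M.card_mul_index
    have h2 : Nat.card M ≠ 1 := fun h0 => hne (Subgroup.card_eq_one.mp h0)
    have h3 : 0 < Nat.card M := Nat.card_pos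
    have h4 : 0 < M.index := Nat.pos_of_ne_zero M.index_ne_zero_of_finite
    rw [Subgroup.index_eq_card] at h1 h4
    have h5 : 2 ≤ Nat.card M := by omega
    calc Nat.card (G ⧸ M) < 2 * Nat.card (G ⧸ M) := by omega
      _ ≤ Nat.card M * Nat.card (G ⧸ M) := Nat.mul_le_mul_right _ h5
      _ = Nat.card G := h1
  · rw [Sylow.coe_mapSurjective]
    exact hquo G M P hMc P.isPGroup' h

/-- In a minimal counterexample the quotient by `O_p(G)` has a normal `p`-complement. -/
theorem quotient_npc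
    (C : ∀ (G : Type u) [Group G], Prop)
    (hCsub : ∀ (G : Type u) [Group G] (L : Subgroup G), C G → C L)
    (hCquo : ∀ (G : Type u) [Group G] (N : Subgroup G) [N.Normal], C G → C (G ⧸ N))
    (hmap : ∀ (L G : Type u) [Group L] [Group G] [Finite L] [Finite G] (f : L →* G)
      (Q : Subgroup L), Function.Injective f → IsPGroup p Q → Hy G (Q.map f) → Hy L Q)
    (hloc : ∀ (G : Type u) [Group G] [Finite G] (Q : Subgroup G), IsPGroup p Q → Q ≠ ⊥ →
      (∀ K : Subgroup G, K ≤ Q → K ≠ ⊥ →
        Subgroup.normalizer (Q : Set G) ≤ Subgroup.normalizer (K : Set G) →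
        Cfsg.HasNormalPComplement p (Subgroup.normalizer (K : Set G))) → Hy G Q)
    (G : Type u) [Group G] [Finite G]
    (hC : C G)
    (IH : ∀ (L : Type u) [Group L] [Finite L], C L → Nat.card L < Nat.card G → ∀ Q : Sylow p L,
      Hy L (Q : Subgroup L) → Cfsg.HasNormalPComplement p L)
    (P : Sylow p G)
    (h : Hy G (P : Subgroup G))
    (hR1 : Cfsg.pCore p G ≠ ⊥) (hRP : (P : Subgroup G) ≠ Cfsg.pCore p G) :
    Cfsg.HasNormalPComplement p (G ⧸ Cfsg.pCore p G) := by
  obtain ⟨R, hR⟩ : ∃ R : Subgroup G, R = Cfsg.pCore p G := ⟨_, rfl⟩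
  have hRn : R.Normal := by rw [hR]; exact Lib.Cores.pCore_normal p
  have hRp : IsPGroup p R := by rw [hR]; exact Lib.Cores.pCore_isPGroup p
  have hRle : R ≤ P := by rw [hR]; exact Lib.Cores.pCore_le_sylow P
  have hRmax : ∀ N : Subgroup G, N.Normal → IsPGroup p N → N ≤ R := by
    intro N h1 h2; rw [hR]; exact Lib.Cores.le_pCore h1 h2
  have key : Cfsg.HasNormalPComplement p (G ⧸ R) := by
    rw [← hR] at hR1 hRP
    have hs := QuotientGroup.mk'_surjective R
    have hP1 : (P : Subgroup G).map (QuotientGroup.mk' R) ≠ ⊥ := by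
      intro h0
      rw [Subgroup.map_eq_bot_iff, QuotientGroup.ker_mk'] at h0
      exact hRP (le_antisymm h0 hRle)
    have hPbp : IsPGroup p ((P : Subgroup G).map (QuotientGroup.mk' R)) := P.isPGroup'.map _
    refine IH (G ⧸ R) (hCquo G R hC) ?_ (P.mapSurjective hs) ?_
    · have h1 := R.card_mul_index
      have h2 : Nat.card R ≠ 1 := fun h0 => hR1 (Subgroup.card_eq_one.mp h0)
      have h3 : 0 < Nat.card R := Nat.card_pos
      have h4 : 0 < R.index := Nat.pos_of_ne_zero R.index_ne_zero_of_finite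
      rw [Subgroup.index_eq_card] at h1 h4
      have h5 : 2 ≤ Nat.card R := by omega
      calc Nat.card (G ⧸ R) < 2 * Nat.card (G ⧸ R) := by omega
        _ ≤ Nat.card R * Nat.card (G ⧸ R) := Nat.mul_le_mul_right _ h5
        _ = Nat.card G := h1
    · rw [Sylow.coe_mapSurjective]
      refine hloc _ _ hPbp hP1 fun W hWP hWne hNW => ?_
      have hWp : IsPGroup p W := hPbp.to_le hWP
      have hPW : (P : Subgroup G).map (QuotientGroup.mk' R) ≤ Subgroup.normalizer (W : Set (G ⧸ R)) :=
        Subgroup.le_normalizer.trans hNW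
      let K : Subgroup G := W.comap (QuotientGroup.mk' R)
      have hKn : (Subgroup.normalizer (W : Set (G ⧸ R))).comap (QuotientGroup.mk' R) =
          Subgroup.normalizer (K : Set G) := by
        apply Subgroup.comap_normalizer_eq_of_le_range
        rw [MonoidHom.range_eq_top.mpr hs]
        exact le_top
      have hKp : IsPGroup p K := by
        apply hWp.comap_of_ker_isPGroup
        rw [QuotientGroup.ker_mk']; exact hRp
      have hPK : (P : Subgroup G) ≤ Subgroup.normalizer (K : Set G) := by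
        rw [← hKn, ← Subgroup.map_le_iff_le_comap]
        exact hPW
      have hKtop : Subgroup.normalizer (K : Set G) ≠ ⊤ := by
        intro h0
        have h1 := hRmax K (Subgroup.normalizer_eq_top_iff.mp h0) hKp
        apply hWne
        rw [← Subgroup.map_comap_eq_self_of_surjective hs W, Subgroup.map_eq_bot_iff,
          QuotientGroup.ker_mk']
        exact h1
      have h1 := npc_overgroup Hy C hCsub hmap G hC IH P h _ hKtop hPK
      rw [← hKn] at h1
      exact Transfer.NormalPComplement.of_surjective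
        ((QuotientGroup.mk' R).subgroupComap _)
        ((QuotientGroup.mk' R).subgroupComap_surjective_of_surjective _ hs) h1
  subst hR
  exact key

/-- Reduction of the normal `p`-complement theorems to the minimal configuration. -/
theorem hasNormalPComplement_of_hyp_class
    (C : ∀ (G : Type u) [Group G], Prop)
    (hCsub : ∀ (G : Type u) [Group G] (L : Subgroup G), C G → C L)
    (hCquo : ∀ (G : Type u) [Group G] (N : Subgroup G) [N.Normal], C G → C (G ⧸ N))
    (hmap : ∀ (L G : Type u) [Group L] [Group G] [Finite L] [Finite G] (f : L →* G)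
      (Q : Subgroup L), Function.Injective f → IsPGroup p Q → Hy G (Q.map f) → Hy L Q)
    (hquo : ∀ (G : Type u) [Group G] [Finite G] (N : Subgroup G) [N.Normal] (Q : Subgroup G),
      (Nat.card N).Coprime p → IsPGroup p Q → Hy G Q → Hy (G ⧸ N) (Q.map (QuotientGroup.mk' N)))
    (hloc : ∀ (G : Type u) [Group G] [Finite G] (Q : Subgroup G), IsPGroup p Q → Q ≠ ⊥ →
      (∀ K : Subgroup G, K ≤ Q → K ≠ ⊥ →
        Subgroup.normalizer (Q : Set G) ≤ Subgroup.normalizer (K : Set G) →
        Cfsg.HasNormalPComplement p (Subgroup.normalizer (K : Set G))) → Hy G Q)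
    (hnorm : ∀ (G : Type u) [Group G] [Finite G] (P : Sylow p G), (P : Subgroup G).Normal →
      Hy G P → Cfsg.HasNormalPComplement p G)
    (hmin : ∀ (G : Type u) [Group G] [Finite G], C G → ∀ (P : Sylow p G) (A : Subgroup G), A.Normal →
      Cfsg.pCore p G < A → ⁅A, A⁆ ≤ Cfsg.pCore p G → ((Cfsg.pCore p G).relIndex A).Coprime p →
      A ⊔ (P : Subgroup G) = ⊤ →
      Subgroup.centralizer (Cfsg.pCore p G : Set G) ≤ Cfsg.pCore p G →
      (∀ M : Subgroup G, (P : Subgroup G) ≤ M → M = P ∨ M = ⊤) →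
      (P : Subgroup G) ≠ Cfsg.pCore p G →
      Cfsg.HasNormalPComplement p (G ⧸ Cfsg.pCore p G) →
      Hy G (P : Subgroup G) → Cfsg.HasNormalPComplement p G)
    (G : Type u) [Group G] [Finite G] (hC : C G) (P : Sylow p G)
    (h : Hy G (P : Subgroup G)) :
    Cfsg.HasNormalPComplement p G := by
  obtain ⟨n, hn⟩ : ∃ n, Nat.card G = n := ⟨_, rfl⟩
  induction n using Nat.strong_induction_on generalizing G with
  | _ n ih =>
    have IH : ∀ (L : Type u) [Group L] [Finite L], C L → Nat.card L < Nat.card G → ∀ Q : Sylow p L,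
        Hy L (Q : Subgroup L) → Cfsg.HasNormalPComplement p L := by
      intro L _ _ hCL hL Q hQ
      exact ih (Nat.card L) (by omega) L hCL Q hQ rfl
    by_contra hG
    have h1 := pCore_ne_bot Hy C hCsub hmap hloc G hC IH P h hG
    have h2 := pPrimeCore_eq_bot Hy C hCquo hquo G hC IH P h hG
    have h3 : (P : Subgroup G) ≠ Cfsg.pCore p G := by
      intro h0
      apply hG
      have h4 : (P : Subgroup G).Normal := by rw [h0]; exact Lib.Cores.pCore_normal p
      exact hnorm G P h4 h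
    have h4 := quotient_npc Hy C hCsub hCquo hmap hloc G hC IH P h h1 h3
    have h5 := isPSolvable_of_quotient_npc _ (Lib.Cores.pCore_isPGroup p) h4
    have h6 := PLocal.Constrained.centralizer_pCore_le h2 (PLocal.PSolvable.isPSolvable_subgroup h5 _)
    have h7 : ∀ M : Subgroup G, (P : Subgroup G) ≤ M → M = P ∨ M = ⊤ := by
      intro M hM
      by_cases hMt : M = ⊤
      · exact Or.inr hMt
      · exact Or.inl (eq_of_npc h6 P M hM (npc_overgroup Hy C hCsub hmap G hC IH P h M hMt hM))
    obtain ⟨A, hA1, hA2, hA3, hA4, hA5⟩ := exists_abelian P h3 h7 h4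
    exact hG (hmin G hC P A hA1 hA2 hA3 hA4 hA5 h6 h7 h3 h4 h)

end

end Cfsg.Agent.H41.HypReduction
end

-- part: H41/AbelianJ
section
/-!
# The abelian Thompson subgroup in the minimal configuration

`G` finite, `R = O_p(G)`, `C_G(R) ≤ R`, `M / R` an abelian normal `p'`-subgroup, `G = M P`, `C_G(Z(P)) ≤ P`. Then the
abelian subgroups of largest order of `P` lie in `R` (`p` odd, or `p = 2`, `P` maximal and `G` is `S₄`-free).
-/

set_option autoImplicit false

universe u

namespace Cfsg.Agent.H41.AbelianJ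

open Cfsg Subgroup
open scoped commutatorElement
open Cfsg.Agent.PLocal.S4FreeClosureBasic Cfsg.Agent.PLocal.S4FreeClosure
open Cfsg.Agent.PLocal.ThompsonJA
open Cfsg.Agent.H41.ClassTwoFactor (omega mem_omega omega_normal)

section general

variable {G : Type u} [Group G] [Finite G]

omit [Finite G] in
theorem mem_maxAb_iff {S A : Subgroup G} : A ∈ PLocal.ZJ.maxAb 0 S ↔ A ∈ maxAbelianIn S := by
  constructor
  · rintro ⟨h1, h2, h3⟩
    exact ⟨h1, h2.1, fun B hB hBc => h3 B hB ⟨hBc, fun a _ => pow_zero a⟩⟩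
  · rintro ⟨h1, h2, h3⟩
    exact ⟨h1, ⟨h2, fun a _ => pow_zero a⟩, fun B hB hBc => h3 B hB hBc.1⟩

/-- If the abelian subgroups of largest order of `P` lie in the normal subgroup `R`, then `J(P)` is normal. -/
theorem thompsonA_normal {P R : Subgroup G} (hR : R.Normal) (hRP : R ≤ P)
    (h : ∀ A ∈ maxAbelianIn P, A ≤ R) : (thompsonSubgroupAOf P).Normal := by
  have h1 : thompsonSubgroupAOf P ≤ R := by
    rw [thompsonSubgroupAOf_eq_sSup]
    exact sSup_le h
  rw [← thompsonSubgroupAOf_eq_of_le h1 hRP, ← Subgroup.normalizer_eq_top_iff, eq_top_iff,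
    ← Subgroup.normalizer_eq_top_iff.mpr hR]
  exact normalizer_le_normalizer_thompsonSubgroupAOf R

/-- odd primes -/
theorem le_pCore_of_odd {p : ℕ} [Fact p.Prime] (hp : p ≠ 2) (P : Sylow p G) (M : Subgroup G) (hMn : M.Normal)
    (hRM : pCore p G ≤ M) (hab : ⁅M, M⁆ ≤ pCore p G) (hcop : ((pCore p G).relIndex M).Coprime p)
    (htop : M ⊔ (P : Subgroup G) = ⊤)
    (hCR : Subgroup.centralizer (pCore p G : Set G) ≤ pCore p G)
    (hC : Subgroup.centralizer (((P : Subgroup G) ⊓ Subgroup.centralizer (P : Set G)) : Set G)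
      ≤ (P : Subgroup G)) (A : Subgroup G) (hA : A ∈ maxAbelianIn (P : Subgroup G)) : A ≤ pCore p G := by
  classical
  by_contra hAR
  have hRn : (pCore p G).Normal := Lib.Cores.pCore_normal p
  have hRp : IsPGroup p (pCore p G) := Lib.Cores.pCore_isPGroup p
  have hRP : pCore p G ≤ (P : Subgroup G) := Lib.Cores.pCore_le_sylow P
  obtain ⟨V, hV⟩ : ∃ V : Subgroup G, V = Transfer.ThompsonNormalJ.omegaCenter p (pCore p G) := ⟨_, rfl⟩
  have hVn : V.Normal := by rw [hV]; exact Transfer.ThompsonNormalJ.omegaCenter_normal hRn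
  have hVR : V ≤ pCore p G := by rw [hV]; exact Transfer.ThompsonNormalJ.omegaCenter_le
  have hVmem : ∀ v, v ∈ V ↔ v ∈ pCore p G ∧ (∀ u ∈ pCore p G, u * v = v * u) ∧ v ^ p = 1 := by
    intro v; rw [hV]; exact Transfer.ThompsonNormalJ.mem_omegaCenter
  have hVc : ∀ v ∈ V, ∀ w ∈ V, v * w = w * v := fun v hv w hw => ((hVmem w).mp hw).2.1 v (hVR hv)
  have hCV : Subgroup.centralizer (V : Set G) ≤ pCore p G := by
    rw [hV]
    exact Transfer.ThompsonNormalJ.centralizer_omegaCenter_le P (pCore p G) hRn hRp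
      (fun N h1 h2 => Lib.Cores.le_pCore h1 h2) hCR hC
  -- choose `A` with `|A ∩ V|` maximal
  obtain ⟨A, ⟨hA, hAU⟩, hAmax⟩ := Set.exists_max_image
    {A : Subgroup G | A ∈ maxAbelianIn (P : Subgroup G) ∧ ¬ A ≤ pCore p G}
    (fun A => Nat.card (A ⊓ V : Subgroup G)) (Set.toFinite _) ⟨A, hA, hAR⟩
  have hAc : ∀ a ∈ A, ∀ b ∈ A, a * b = b * a := (isMulCommutative_iff A).mp hA.2.1
  -- `V` normalizes `A`
  have hVA : V ≤ Subgroup.normalizer (A : Set G) := by
    by_contra hnot
    have hVV : ⁅V, V⁆ = ⊥ := by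
      rw [Subgroup.commutator_eq_bot_iff_le_centralizer]
      intro v hv
      rw [Subgroup.mem_centralizer_iff]
      intro w hw
      exact hVc w hw v hv
    obtain ⟨A', hA', hlt, hnA⟩ := PLocal.ZJ.exists_replacement hp (e := 0) (Or.inl rfl) P.isPGroup'
      (mem_maxAb_iff.mpr hA) (hVR.trans hRP) (B := V)
      (by rw [Subgroup.normalizer_eq_top_iff.mpr hVn]; exact le_top)
      (by rw [hVV, Subgroup.commutator_bot_left]) (by rw [hVV]; exact bot_le) hnot
    have hA'' := mem_maxAb_iff.mp hA'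
    have hA'R : A' ≤ pCore p G := by
      by_contra hcon
      have h1 := hAmax A' ⟨hA'', hcon⟩
      have h2 : Nat.card (A ⊓ V : Subgroup G) < Nat.card (A' ⊓ V : Subgroup G) := by
        refine lt_of_le_of_ne (Subgroup.card_le_of_le hlt.le) ?_
        intro he
        exact hlt.ne (Subgroup.eq_of_le_of_card_ge hlt.le he.ge)
      exact absurd h1 (not_le.mpr h2)
    have hVA' : V ≤ A' := by
      refine le_trans ?_ (inf_centralizer_le_of_mem_maxAbelianIn hA'')
      refine le_inf (hVR.trans hRP) ?_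
      intro v hv
      rw [Subgroup.mem_centralizer_iff]
      intro a ha
      exact ((hVmem v).mp hv).2.1 a (hA'R ha)
    exact hnot (hVA'.trans hnA)
  -- quadratic action
  have hst := PLocal.AbelianStable.isPStableOn_of_abelian hp P (pCore p G) M hRp hRM hab hcop htop V hVR
  have hq : ∀ a ∈ A, ⁅⁅V, Subgroup.zpowers a⁆, Subgroup.zpowers a⁆ = ⊥ := by
    intro a ha
    have haA : Subgroup.zpowers a ≤ A := by rw [Subgroup.zpowers_le]; exact ha
    have h1 : ⁅V, Subgroup.zpowers a⁆ ≤ A := by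
      refine le_trans (Subgroup.commutator_mono le_rfl haA) ?_
      rw [Subgroup.commutator_le]
      intro v hv b hb
      have h2 : v * b * v⁻¹ ∈ A := (Subgroup.mem_normalizer_iff.mp (hVA hv) b).mp hb
      rw [commutatorElement_def]
      exact A.mul_mem h2 (A.inv_mem hb)
    rw [Subgroup.commutator_eq_bot_iff_le_centralizer]
    intro x hx
    rw [Subgroup.mem_centralizer_iff]
    intro y hy
    exact hAc y (haA hy) x (h1 hx)
  apply hAU
  intro a ha
  have h1 := hst a (hq a ha)
  have h2 : (pCore p (G ⧸ Subgroup.centralizer (V : Set G))).comap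
      (QuotientGroup.mk' (Subgroup.centralizer (V : Set G))) ≤ pCore p G := by
    apply Lib.Cores.le_pCore
    · have : (pCore p (G ⧸ Subgroup.centralizer (V : Set G))).Normal := Lib.Cores.pCore_normal p
      infer_instance
    · refine IsPGroup.comap_of_ker_isPGroup (Lib.Cores.pCore_isPGroup p) _ ?_
      rw [QuotientGroup.ker_mk']
      exact hRp.to_le hCV
  exact h2 h1

/-- The normal subgroup `⟨Ω₁(Z(S))^G⟩`, unoffended in an `S₄`-free group. -/
theorem exists_unoff
    (h4 : ¬ ∃ (K R : Subgroup G) (hR : (R.subgroupOf K).Normal),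
      Nonempty ((K ⧸ R.subgroupOf K) ≃* Equiv.Perm (Fin 4))) (S : Sylow 2 G)
    (hc : Subgroup.centralizer (pCore 2 G : Set G) ≤ pCore 2 G) :
    ∃ W : Subgroup G, W.Normal ∧ W ≤ pCore 2 G ∧
      (∀ w ∈ W, ∀ q ∈ pCore 2 G, w * q = q * w) ∧ (∀ w ∈ W, w * w = 1) ∧
      (∀ x ∈ S, (∀ y ∈ S, x * y = y * x) → x * x = 1 → x ∈ W) ∧
      (∀ K : Subgroup G, K.Normal → (∀ x ∈ S, (∀ y ∈ S, x * y = y * x) → x * x = 1 → x ∈ K) → W ≤ K) ∧
      ∀ A ∈ maxAbelianIn (S : Subgroup G), ∀ a ∈ A, ∀ w ∈ W, a * w = w * a := by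
  have hQn : (pCore 2 G).Normal := Lib.Cores.pCore_normal 2
  have hQS : pCore 2 G ≤ (S : Subgroup G) := Lib.Cores.pCore_le_sylow S
  -- the centre of `O_2(G)`
  obtain ⟨Z, hZ⟩ : ∃ Z : Subgroup G, Z = pCore 2 G ⊓ Subgroup.centralizer (pCore 2 G : Set G) := ⟨_, rfl⟩
  have hZn : Z.Normal := by rw [hZ]; infer_instance
  have hZab : ∀ x ∈ Z, ∀ y ∈ Z, x * y = y * x := by
    intro x hx y hy
    rw [hZ] at hx hy
    exact ((Subgroup.mem_centralizer_iff.mp (Subgroup.mem_inf.mp hx).2) y (Subgroup.mem_inf.mp hy).1).symm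
  obtain ⟨V, hV⟩ : ∃ V : Subgroup G, V = omega Z hZab := ⟨_, rfl⟩
  have hVn : V.Normal := by rw [hV]; exact omega_normal Z hZab
  have hVmem : ∀ z, z ∈ V ↔ z ∈ Z ∧ z * z = 1 := by intro z; rw [hV]; exact mem_omega
  have hVab : ∀ x y : V, x * y = y * x := fun x y =>
    Subtype.ext (hZab x ((hVmem _).mp x.2).1 y ((hVmem _).mp y.2).1)
  let _ : CommGroup V := { mul_comm := hVab }
  let φ : G →* MulAut V := MulAut.conjNormal
  have hφ : ∀ (g : G) (v : V), ((φ g v : V) : G) = g * v * g⁻¹ := fun g v => MulAut.conjNormal_apply g v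
  have hexp : ∀ v : V, v * v = 1 := fun v => Subtype.ext ((hVmem _).mp v.2).2
  have hS3 : PLocal.SFourOffender.NoS3 φ :=
    PLocal.S4FreeNoS3.noS3_of_normal h4 hexp (MulEquiv.refl V) φ (fun g a => rfl)
  -- `U = Ω₁(Z(S))`
  let U : Subgroup V :=
    { carrier := {v | ∀ y ∈ S, (v : G) * y = y * v}
      mul_mem' := by
        intro a b ha hb y hy
        change (a : G) * b * y = y * (a * b)
        rw [mul_assoc, hb y hy, ← mul_assoc, ha y hy, mul_assoc]
      one_mem' := by
        intro y _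
        change (1 : G) * y = y * 1
        rw [one_mul, mul_one]
      inv_mem' := by
        intro a ha y hy
        change (a : G)⁻¹ * y = y * (a : G)⁻¹
        have h1 : Commute (a : G) y := ha y hy
        exact (h1.inv_left).eq }
  have hUmem : ∀ v : V, v ∈ U ↔ ∀ y ∈ S, (v : G) * y = y * v := fun _ => Iff.rfl
  have hSU : ∀ s ∈ S, ∀ u ∈ U, φ s u = u := by
    intro s hs u hu
    apply Subtype.ext
    rw [hφ, ← (hUmem u).mp hu s hs]
    group
  have hUoff : Unoff φ (S : Subgroup G) U := by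
    refine ⟨fun a ha u hu => ?_, fun B hB _ _ b hb => ?_⟩
    · rw [hSU a ha u hu]; exact hu
    · rw [mem_cn]
      intro u hu
      exact hSU b (hB hb) u hu
  obtain ⟨W, hWdef⟩ : ∃ W : Subgroup V, W = ⨆ x : G, im φ x U := ⟨_, rfl⟩
  have hWoff : Unoff φ (S : Subgroup G) W := by
    rw [hWdef]
    exact unoff_iSup hexp hS3 S hUoff
  have hUW : U ≤ W := by
    rw [hWdef]
    refine le_trans ?_ (le_iSup (fun x : G => im φ x U) 1)
    intro u hu
    rw [mem_im]
    simpa using hu
  have hWinv : ∀ g, ∀ w ∈ W, φ g w ∈ W := by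
    intro g w hw
    rw [hWdef] at hw ⊢
    have h1 : (⨆ x : G, im φ x U) ≤ (⨆ x : G, im φ x U).comap (φ g).toMonoidHom := by
      refine iSup_le fun x => ?_
      rintro _ ⟨u, hu, rfl⟩
      refine (le_iSup (fun x : G => im φ x U) (g * x)) ⟨u, hu, ?_⟩
      change φ (g * x) u = φ g (φ x u)
      rw [map_mul, MulAut.mul_apply]
    exact h1 hw
  -- `W` in `G`
  obtain ⟨W', hW'⟩ : ∃ W' : Subgroup G, W' = W.map V.subtype := ⟨_, rfl⟩
  have hW'mem : ∀ x : G, x ∈ W' ↔ ∃ h : x ∈ V, (⟨x, h⟩ : V) ∈ W := by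
    intro x
    rw [hW']
    constructor
    · rintro ⟨v, hv, rfl⟩
      exact ⟨v.2, hv⟩
    · rintro ⟨h, hx⟩
      exact ⟨⟨x, h⟩, hx, rfl⟩
  have hW'V : W' ≤ V := by rw [hW']; exact Subgroup.map_subtype_le W
  have hW'n : W'.Normal := by
    refine ⟨fun x hx g => ?_⟩
    rw [hW'mem] at hx ⊢
    obtain ⟨h, hx⟩ := hx
    refine ⟨hVn.conj_mem x h g, ?_⟩
    have h1 := hWinv g _ hx
    have h2 : φ g ⟨x, h⟩ = ⟨g * x * g⁻¹, hVn.conj_mem x h g⟩ := Subtype.ext (hφ g ⟨x, h⟩)
    rwa [h2] at h1
  have hVQ : V ≤ pCore 2 G := by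
    intro v hv
    have h1 := ((hVmem v).mp hv).1
    rw [hZ] at h1
    exact h1.1
  have hUG : ∀ x ∈ S, (∀ y ∈ S, x * y = y * x) → x * x = 1 → x ∈ W' := by
    intro x hx hxy hx2
    have h1 : x ∈ Subgroup.centralizer (pCore 2 G : Set G) := by
      rw [Subgroup.mem_centralizer_iff]
      intro q hq
      exact (hxy q (hQS hq)).symm
    have h2 : x ∈ V := by
      rw [hVmem, hZ]
      exact ⟨⟨hc h1, h1⟩, hx2⟩
    rw [hW'mem]
    exact ⟨h2, hUW ((hUmem ⟨x, h2⟩).mpr hxy)⟩
  have hWK : ∀ K : Subgroup G, K.Normal →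
      (∀ x ∈ S, (∀ y ∈ S, x * y = y * x) → x * x = 1 → x ∈ K) → W' ≤ K := by
    intro K hKn hK
    rw [hW', Subgroup.map_le_iff_le_comap, hWdef]
    refine iSup_le fun x => ?_
    rintro _ ⟨u, hu, rfl⟩
    have h1 : (u : G) ∈ K := by
      refine hK u (hQS (hVQ u.2)) ((hUmem u).mp hu) ((hVmem _).mp u.2).2
    have h2 := hKn.conj_mem _ h1 x
    rw [Subgroup.mem_comap]
    change ((φ x u : V) : G) ∈ K
    rw [hφ]
    exact h2
  refine ⟨W', hW'n, hW'V.trans hVQ, ?_, ?_, hUG, hWK, ?_⟩
  · intro w hw q hq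
    have h1 := ((hVmem w).mp (hW'V hw)).1
    rw [hZ] at h1
    exact (Subgroup.mem_centralizer_iff.mp h1.2 q hq).symm
  · intro w hw
    exact ((hVmem w).mp (hW'V hw)).2
  -- `A` acts trivially on `W`
  rintro A ⟨hAS, hAc, hAmax⟩
  have hAab : ∀ a ∈ A, ∀ b ∈ A, a * b = b * a := (isMulCommutative_iff A).mp hAc
  have hAb : AbOn φ A W := by
    intro a ha b hb u _
    rw [← MulAut.mul_apply, ← MulAut.mul_apply, ← map_mul, ← map_mul, hAab a ha b hb]
  have hcard : Nat.card W ≤ ms φ W A := by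
    let A₀ : Subgroup G := A ⊓ cn φ W
    have hA₀W : ∀ a ∈ A₀, ∀ w ∈ W', a * w = w * a := by
      intro a ha w hw
      obtain ⟨h, hw'⟩ := (hW'mem w).mp hw
      have h1 := congrArg Subtype.val (mem_cn.mp ha.2 _ hw')
      rw [hφ] at h1
      exact mul_inv_eq_iff_eq_mul.mp h1
    have hW'ab : ∀ x ∈ W', ∀ y ∈ W', x * y = y * x := fun x hx y hy =>
      hZab x ((hVmem _).mp (hW'V hx)).1 y ((hVmem _).mp (hW'V hy)).1
    have hE : IsMulCommutative (A₀ ⊔ W' : Subgroup G) := by
      rw [PLocal.ThompsonJA.isMulCommutative_iff]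
      have hmem : ∀ x ∈ A₀ ⊔ W', ∃ a ∈ A₀, ∃ w ∈ W', a * w = x := fun x hx =>
        Subgroup.mem_sup_of_normal_right.mp hx
      intro x hx y hy
      obtain ⟨a, ha, w, hw, rfl⟩ := hmem x hx
      obtain ⟨b, hb, v, hv, rfl⟩ := hmem y hy
      calc a * w * (b * v) = a * (w * b) * v := by group
        _ = a * (b * w) * v := by rw [hA₀W b hb w hw]
        _ = (a * b) * (w * v) := by group
        _ = (b * a) * (v * w) := by rw [hAab a ha.1 b hb.1, hW'ab w hw v hv]
        _ = b * (a * v) * w := by group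
        _ = b * (v * a) * w := by rw [hA₀W a ha v hv]
        _ = b * v * (a * w) := by group
    have h1 := hAmax _ (sup_le (inf_le_left.trans hAS) ((hW'V.trans hVQ).trans hQS)) hE
    -- orders
    have e1 : Nat.card (A₀ ⊔ W' : Subgroup G) = Nat.card W' * W'.relIndex A₀ := by
      rw [← Subgroup.relIndex_sup_right A₀ W']
      exact (PLocal.PConstrained.card_mul_relIndex_eq le_sup_right).symm
    have e2 : Nat.card A₀ = Nat.card (A₀ ⊓ W' : Subgroup G) * W'.relIndex A₀ := by
      rw [← Subgroup.inf_relIndex_left A₀ W']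
      exact (PLocal.PConstrained.card_mul_relIndex_eq inf_le_left).symm
    have e3 : Nat.card A = Nat.card A₀ * (cn φ W).relIndex A := by
      rw [← Subgroup.inf_relIndex_left A (cn φ W)]
      exact (PLocal.PConstrained.card_mul_relIndex_eq inf_le_left).symm
    have e4 : Nat.card (A₀ ⊓ W' : Subgroup G) ≤ Nat.card (W ⊓ fx φ A : Subgroup V) := by
      have h5 : A₀ ⊓ W' ≤ (W ⊓ fx φ A).map V.subtype := by
        rintro x ⟨hx1, hx2⟩
        obtain ⟨h, hx'⟩ := (hW'mem x).mp hx2
        refine ⟨⟨x, h⟩, ⟨hx', ?_⟩, rfl⟩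
        change _ ∈ fx φ A
        rw [mem_fx]
        intro a ha
        apply Subtype.ext
        rw [hφ]
        exact mul_inv_eq_iff_eq_mul.mpr (hAab a ha x hx1.1)
      have h6 := Subgroup.card_le_of_le h5
      rwa [Subgroup.card_map_of_injective V.subtype_injective] at h6
    have e5 : Nat.card W' = Nat.card W := by
      rw [hW', Subgroup.card_map_of_injective V.subtype_injective]
    have hpos : 0 < W'.relIndex A₀ := Nat.pos_of_ne_zero (W'.subgroupOf A₀).index_ne_zero_of_finite
    change Nat.card W ≤ (cn φ W).relIndex A * Nat.card (W ⊓ fx φ A : Subgroup V)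
    rw [e1, e3, e2, e5] at h1
    have h7 : Nat.card W * W'.relIndex A₀ ≤
        ((cn φ W).relIndex A * Nat.card (A₀ ⊓ W' : Subgroup G)) * W'.relIndex A₀ := by
      calc Nat.card W * W'.relIndex A₀ ≤
          Nat.card (A₀ ⊓ W' : Subgroup G) * W'.relIndex A₀ * (cn φ W).relIndex A := h1
        _ = _ := by ring
    exact (Nat.le_of_mul_le_mul_right h7 hpos).trans (Nat.mul_le_mul_left _ e4)
  have hfin := hWoff.off A hAS hAb hcard
  intro a ha w hw
  obtain ⟨h, hw'⟩ := (hW'mem w).mp hw
  have h1 := congrArg Subtype.val (mem_cn.mp (hfin ha) _ hw')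
  rw [hφ] at h1
  exact mul_inv_eq_iff_eq_mul.mp h1

omit [Finite G] in
/-- If the elements of order `p` of `Z(P)` are central in `G`, then the normal subgroup `M` (a `p'`-group modulo `R`)
centralizes `Z(R)`. -/
theorem le_centralizer_center [Finite G] {p : ℕ} [Fact p.Prime] (P : Sylow p G) (R M : Subgroup G) (hRn : R.Normal)
    (hMn : M.Normal) (hR : IsPGroup p R) (hRM : R ≤ M) (hcop : (R.relIndex M).Coprime p)
    (hZ : ∀ x ∈ P, (∀ y ∈ P, x * y = y * x) → orderOf x = p → ∀ g : G, x * g = g * x) :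
    M ≤ Subgroup.centralizer ((R ⊓ Subgroup.centralizer (R : Set G) : Subgroup G) : Set G) := by
  classical
  obtain ⟨Z, hZdef⟩ : ∃ Z : Subgroup G, Z = R ⊓ Subgroup.centralizer (R : Set G) := ⟨_, rfl⟩
  rw [← hZdef]
  have hZn : Z.Normal := by rw [hZdef]; infer_instance
  have hRP : R ≤ P := hR.le_sylow_of_normal P
  have hZR : Z ≤ R := by rw [hZdef]; exact inf_le_left
  have hZc : ∀ z ∈ Z, ∀ r ∈ R, r * z = z * r := by
    intro z hz r hr
    rw [hZdef] at hz
    exact Subgroup.mem_centralizer_iff.mp hz.2 r hr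
  have hZab : ∀ x ∈ Z, ∀ y ∈ Z, x * y = y * x := fun x hx y hy => (hZc y hy x (hZR hx))
  -- a complement of `R` in `M`
  have hidx : (Nat.card (R.subgroupOf M)).Coprime (R.subgroupOf M).index := by
    obtain ⟨k, hk⟩ := IsPGroup.iff_card.mp (hR.comap_of_injective M.subtype M.subtype_injective)
    have e1 : Nat.card (R.subgroupOf M) = p ^ k := hk
    rw [e1]
    exact Nat.Coprime.pow_left k (Nat.coprime_comm.mp hcop)
  obtain ⟨H', hH'⟩ := Subgroup.exists_right_complement'_of_coprime hidx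
  obtain ⟨H, hH⟩ : ∃ H : Subgroup G, H = H'.map M.subtype := ⟨_, rfl⟩
  have hHM : H ≤ M := by rw [hH]; exact Subgroup.map_subtype_le H'
  have hcardH : Nat.card H = R.relIndex M := by
    rw [hH, Subgroup.card_map_of_injective M.subtype_injective]
    exact hH'.symm.index_eq_card.symm
  have hmem : ∀ m ∈ M, ∃ r ∈ R, ∃ h ∈ H, r * h = m := by
    intro m hm
    obtain ⟨⟨⟨r, hr⟩, ⟨h, hh⟩⟩, hrh⟩ := hH'.2 ⟨m, hm⟩
    exact ⟨r, hr, h, by rw [hH]; exact ⟨h, hh, rfl⟩, congrArg Subtype.val hrh⟩
  obtain ⟨D, hD⟩ : ∃ D : Subgroup G, D = ⁅Z, M⁆ := ⟨_, rfl⟩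
  have hDn : D.Normal := by rw [hD]; exact Subgroup.commutator_normal Z M
  have hDZ : D ≤ Z := by rw [hD]; exact Subgroup.commutator_le_left Z M
  have hDH : D ≤ ⁅Z, H⁆ := by
    rw [hD, Subgroup.commutator_le]
    intro z hz m hm
    obtain ⟨r, hr, h, hh, rfl⟩ := hmem m hm
    have h1 : h * z⁻¹ * h⁻¹ ∈ Z := hZn.conj_mem _ (Z.inv_mem hz) h
    have h2 : ⁅z, r * h⁆ = ⁅z, h⁆ := by
      rw [commutatorElement_def, commutatorElement_def]
      calc z * (r * h) * z⁻¹ * (r * h)⁻¹ = (z * r) * (h * z⁻¹ * h⁻¹) * r⁻¹ := by group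
        _ = (r * z) * (h * z⁻¹ * h⁻¹) * r⁻¹ := by rw [hZc z hz r hr]
        _ = (r * (z * (h * z⁻¹ * h⁻¹))) * r⁻¹ := by group
        _ = ((z * (h * z⁻¹ * h⁻¹)) * r) * r⁻¹ := by rw [hZc _ (Z.mul_mem hz h1) r hr]
        _ = _ := by group
    rw [h2]
    exact Subgroup.commutator_mem_commutator hz hh
  have hcopHZ : (Nat.card H).Coprime (Nat.card Z) := by
    obtain ⟨k, hk⟩ := IsPGroup.iff_card.mp (hR.to_le hZR)
    rw [hk, hcardH]
    exact Nat.Coprime.pow_right k hcop
  have hinf := Cfsg.Agent.Lib.CoprimeAbelian.inf_commutator_eq_bot H Z hZab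
    (by rw [Subgroup.normalizer_eq_top_iff.mpr hZn]; exact le_top) hcopHZ
  have hDbot : D = ⊥ := by
    by_contra hne
    have hn : (D.subgroupOf (P : Subgroup G)).Normal := inferInstance
    have hDP : D ≤ (P : Subgroup G) := hDZ.trans (hZR.trans hRP)
    have hne' : D.subgroupOf (P : Subgroup G) ≠ ⊥ := by
      rw [Ne, Subgroup.subgroupOf_eq_bot]
      intro h0
      exact hne (by
        have := h0.eq_bot
        rwa [inf_eq_left.mpr hDP] at this)
    obtain ⟨x, hxD', hxZ', hx2⟩ := Cfsg.Agent.Transfer.PGroupNormal.exists_mem_inf_center_orderOf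
      P.isPGroup' (D.subgroupOf (P : Subgroup G)) hne'
    have hxD : (x : G) ∈ D := hxD'
    have hxc : ∀ y ∈ P, (x : G) * y = y * x := by
      intro y hy
      have h3 := Subgroup.mem_center_iff.mp hxZ' ⟨y, hy⟩
      exact (congrArg Subtype.val h3).symm
    have hxo : orderOf (x : G) = p := by
      exact (Subgroup.orderOf_coe x).trans hx2
    have hcen := hZ x x.2 hxc hxo
    have h4 : (x : G) ∈ (Z ⊓ Subgroup.centralizer (H : Set G)) ⊓ ⁅Z, H⁆ := by
      refine ⟨⟨hDZ hxD, ?_⟩, hDH hxD⟩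
      change (x : G) ∈ Subgroup.centralizer (H : Set G)
      rw [Subgroup.mem_centralizer_iff]
      intro h _
      exact (hcen h).symm
    rw [hinf, Subgroup.mem_bot] at h4
    rw [h4, orderOf_one] at hxo
    exact (Fact.out : p.Prime).one_lt.ne hxo
  rw [Subgroup.le_centralizer_iff, ← Subgroup.commutator_eq_bot_iff_le_centralizer, ← hD, hDbot]

/-- `p = 2`, `G` `S₄`-free. -/
theorem le_pCore_of_two
    (h4 : ¬ ∃ (K R : Subgroup G) (hR : (R.subgroupOf K).Normal),
      Nonempty ((K ⧸ R.subgroupOf K) ≃* Equiv.Perm (Fin 4))) (P : Sylow 2 G) (M : Subgroup G)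
    (hMn : M.Normal) (hRM : pCore 2 G ≤ M) (hcop : ((pCore 2 G).relIndex M).Coprime 2)
    (htop : M ⊔ (P : Subgroup G) = ⊤)
    (hCR : Subgroup.centralizer (pCore 2 G : Set G) ≤ pCore 2 G)
    (hmax : ∀ L : Subgroup G, (P : Subgroup G) ≤ L → L = P ∨ L = ⊤)
    (hne : (P : Subgroup G) ≠ pCore 2 G)
    (hC : Subgroup.centralizer (((P : Subgroup G) ⊓ Subgroup.centralizer (P : Set G)) : Set G)
      ≤ (P : Subgroup G)) (A : Subgroup G) (hA : A ∈ maxAbelianIn (P : Subgroup G)) : A ≤ pCore 2 G := by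
  classical
  have hRn : (pCore 2 G).Normal := Lib.Cores.pCore_normal 2
  have hRp : IsPGroup 2 (pCore 2 G) := Lib.Cores.pCore_isPGroup 2
  have hRP : pCore 2 G ≤ (P : Subgroup G) := Lib.Cores.pCore_le_sylow P
  obtain ⟨W, hWn, hWR, hWc, hW2, hWU, hWK, hWA⟩ := exists_unoff h4 P hCR
  obtain ⟨C, hCdef⟩ : ∃ C : Subgroup G, C = Subgroup.centralizer (W : Set G) := ⟨_, rfl⟩
  have hCn : C.Normal := by rw [hCdef]; infer_instance
  have hAC : A ≤ C ⊓ (P : Subgroup G) := by
    refine le_inf ?_ hA.1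
    intro a ha
    rw [hCdef, Subgroup.mem_centralizer_iff]
    intro w hw
    exact (hWA A hA a ha w hw).symm
  have hPN : (P : Subgroup G) ≤ Subgroup.normalizer ((C ⊓ (P : Subgroup G) : Subgroup G) : Set G) := by
    intro s hs
    rw [Subgroup.mem_normalizer_iff]
    intro x
    constructor
    · rintro ⟨h1, h2⟩
      exact ⟨hCn.conj_mem x h1 s,
        (P : Subgroup G).mul_mem ((P : Subgroup G).mul_mem hs h2) ((P : Subgroup G).inv_mem hs)⟩
    · rintro ⟨h1, h2⟩
      have e1 : s⁻¹ * (s * x * s⁻¹) * s⁻¹⁻¹ = x := by group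
      refine ⟨?_, ?_⟩
      · rw [← e1]; exact hCn.conj_mem _ h1 s⁻¹
      · rw [← e1]
        exact (P : Subgroup G).mul_mem ((P : Subgroup G).mul_mem ((P : Subgroup G).inv_mem hs) h2)
          ((P : Subgroup G).inv_mem ((P : Subgroup G).inv_mem hs))
  rcases hmax _ hPN with h1 | h1
  · -- `G = C P`
    exfalso
    have hfr := PLocal.ZJ.frattini_sup P C C hCn (k := 0) (by rw [Subgroup.relIndex_self, pow_zero])
    rw [h1] at hfr
    have hcen : ∀ x ∈ P, (∀ y ∈ P, x * y = y * x) → orderOf x = 2 → ∀ g : G, x * g = g * x := by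
      intro x hx hxy hxo g
      have hx2 : x * x = 1 := by rw [← pow_two, ← hxo, pow_orderOf_eq_one]
      have hxW := hWU x hx hxy hx2
      have h2 : C ⊔ (P : Subgroup G) ≤ Subgroup.centralizer ({x} : Set G) := by
        refine sup_le ?_ ?_
        · intro c hc
          rw [hCdef, Subgroup.mem_centralizer_iff] at hc
          rw [Subgroup.mem_centralizer_singleton_iff]
          exact (hc x hxW).symm
        · intro y hy
          rw [Subgroup.mem_centralizer_singleton_iff]
          exact (hxy y hy).symm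
      rw [hfr] at h2
      exact (Subgroup.mem_centralizer_singleton_iff.mp (h2 (Subgroup.mem_top g))).symm
    have h3 := le_centralizer_center P (pCore 2 G) M hRn hMn hRp hRM hcop hcen
    have hZP : (P : Subgroup G) ⊓ Subgroup.centralizer ((P : Subgroup G) : Set G) ≤
        pCore 2 G ⊓ Subgroup.centralizer (pCore 2 G : Set G) := by
      rintro z ⟨hz1, hz2⟩
      have h5 : z ∈ Subgroup.centralizer (pCore 2 G : Set G) :=
        Subgroup.centralizer_le (SetLike.coe_subset_coe.mpr hRP) hz2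
      exact ⟨hCR h5, h5⟩
    have hMP : M ≤ (P : Subgroup G) := by
      refine le_trans ?_ hC
      exact h3.trans (Subgroup.centralizer_le (SetLike.coe_subset_coe.mpr hZP))
    have hPt : (P : Subgroup G) = ⊤ := by
      rw [← htop]; exact (sup_eq_right.mpr hMP).symm
    apply hne
    refine le_antisymm ?_ hRP
    apply Lib.Cores.le_pCore _ P.isPGroup'
    rw [hPt]; infer_instance
  · refine hAC.trans ?_
    exact Lib.Cores.le_pCore (Subgroup.normalizer_eq_top_iff.mp h1) (P.isPGroup'.to_le inf_le_right)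

end general

end Cfsg.Agent.H41.AbelianJ
end

-- part: S2800
section
set_option autoImplicit false
universe u
open Cfsg

namespace Cfsg.Agent.S2800

open Cfsg.Agent.PLocal.ThompsonJA Cfsg.Agent.Transfer.PNilpotentBasic Cfsg.Agent.Transfer.ThompsonReduction

/-- The hypothesis: `N_G(J(P))` and `C_G(Z(P))` have normal `p`-complements. -/
def Hy (p : ℕ) (G : Type u) [Group G] (P : Subgroup G) : Prop :=
  HasNormalPComplement p (Subgroup.normalizer (thompsonSubgroupAOf P : Set G)) ∧
    HasNormalPComplement p (cZ P)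

theorem map_of_injOn {G H : Type u} [Group G] [Group H] {f : G →* H} (U : Subgroup G) (hf : Set.InjOn f U) :
    thompsonSubgroupAOf (U.map f) = (thompsonSubgroupAOf U).map f := by
  have hg : Function.Injective (f.comp U.subtype) := fun a b hab => Subtype.ext (hf a.2 b.2 hab)
  have h1 := map_thompsonSubgroupAOf (f.comp U.subtype) hg ⊤
  have h2 := map_thompsonSubgroupAOf U.subtype U.subtype_injective ⊤
  have e1 : (⊤ : Subgroup U).map (f.comp U.subtype) = U.map f := by
    rw [← Subgroup.map_map, ← MonoidHom.range_eq_map, Subgroup.range_subtype]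
  have e2 : (⊤ : Subgroup U).map U.subtype = U := by
    rw [← MonoidHom.range_eq_map, Subgroup.range_subtype]
  rw [e1] at h1
  rw [e2] at h2
  rw [← h1, ← h2, Subgroup.map_map]

theorem hy_map (p : ℕ) [Fact p.Prime] (L G : Type u) [Group L] [Group G] [Finite L] [Finite G] (f : L →* G)
    (Q : Subgroup L) (hf : Function.Injective f) (_ : IsPGroup p Q) (h : Hy p G (Q.map f)) : Hy p L Q := by
  refine ⟨hnc_of_map_le f hf _ _ ?_ h.1, hnc_of_map_le f hf _ _ (map_cZ_le hf Q) h.2⟩
  rw [← map_thompsonSubgroupAOf f hf]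
  exact Subgroup.le_normalizer_map f

theorem hy_quo (p : ℕ) [Fact p.Prime] (G : Type u) [Group G] [Finite G] (N : Subgroup G) [N.Normal]
    (S : Subgroup G) (hN : (Nat.card N).Coprime p) (hS : IsPGroup p S) (h : Hy p G S) :
    Hy p (G ⧸ N) (S.map (QuotientGroup.mk' N)) := by
  obtain ⟨a, ha⟩ := IsPGroup.iff_card.1 hS
  have hcop : (Nat.card N).Coprime (Nat.card S) := by
    rw [ha]; exact Nat.Coprime.pow_right _ hN
  have hdisj : Disjoint N S := Subgroup.disjoint_of_coprime_natCard hcop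
  have hinj : Set.InjOn (QuotientGroup.mk' N) S := by
    intro x hx y hy hxy
    have h1 : x⁻¹ * y ∈ N := by
      rw [← QuotientGroup.ker_mk' N, MonoidHom.mem_ker, map_mul, map_inv, hxy, inv_mul_cancel]
    have h2 : x⁻¹ * y ∈ S := S.mul_mem (S.inv_mem hx) hy
    exact inv_mul_eq_one.1 (Subgroup.disjoint_def.1 hdisj h1 h2)
  constructor
  · refine hnc_of_le ?_ (hnc_map (QuotientGroup.mk' N) _ h.1)
    rw [map_of_injOn S hinj]
    exact normalizer_map_mk_le _ N (hS.to_le (thompsonSubgroupAOf_le S)) hN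
  · refine hnc_of_le ?_ (hnc_map (QuotientGroup.mk' N) _ h.2)
    have h1 : zC (S.map (QuotientGroup.mk' N)) = (zC S).map (QuotientGroup.mk' N) := by
      refine le_antisymm (zC_map_le S hinj) ?_
      rintro _ ⟨z, hz, rfl⟩
      rw [SetLike.mem_coe, mem_zC] at hz
      rw [mem_zC]
      refine ⟨⟨z, hz.1, rfl⟩, ?_⟩
      rintro _ ⟨s, hs, rfl⟩
      rw [← map_mul, ← map_mul, hz.2 s hs]
    unfold cZ
    rw [h1]
    exact centralizer_map_mk_le _ N (hS.to_le inf_le_left) hN

theorem zC_ne_bot {G : Type u} [Group G] [Finite G] {p : ℕ} [Fact p.Prime] (P : Subgroup G)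
    (hP : IsPGroup p P) (hP1 : P ≠ ⊥) : zC P ≠ ⊥ := by
  intro h1
  have : Nontrivial P := by
    rw [Subgroup.nontrivial_iff_ne_bot]; exact hP1
  have h2 := hP.bot_lt_center
  obtain ⟨z, hz, hz1⟩ := SetLike.exists_of_lt h2
  apply hz1
  have : (z : G) ∈ zC P := by
    refine ⟨z.2, Subgroup.mem_centralizer_iff.mpr ?_⟩
    intro y hy
    have := Subgroup.mem_center_iff.mp hz ⟨y, hy⟩
    exact congrArg Subtype.val this
  rw [h1, Subgroup.mem_bot] at this
  rw [Subgroup.mem_bot]
  exact Subtype.ext this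

theorem zC_le_J {G : Type u} [Group G] [Finite G] (P : Subgroup G) : zC P ≤ thompsonSubgroupAOf P :=
  (inf_centralizer_le_centerThompsonAOf P).trans (centerThompsonAOf_le_thompsonSubgroupAOf P)

theorem normalizer_le_zC {G : Type u} [Group G] (P : Subgroup G) :
    Subgroup.normalizer (P : Set G) ≤ Subgroup.normalizer (zC P : Set G) := by
  intro g hg
  rw [Subgroup.mem_normalizer_iff_map_conj_eq] at hg ⊢
  unfold zC
  have h1 := map_inf_centralizer (MulAut.conj g).toMonoidHom (MulAut.conj g).injective P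
  have h2 : (P.map (MulAut.conj g).toMonoidHom) = P := hg
  rw [h2] at h1
  exact h1

theorem hy_loc (p : ℕ) [Fact p.Prime] (G : Type u) [Group G] [Finite G] (Q : Subgroup G) (hQ : IsPGroup p Q)
    (hQ1 : Q ≠ ⊥)
    (h : ∀ K : Subgroup G, K ≤ Q → K ≠ ⊥ →
        Subgroup.normalizer (Q : Set G) ≤ Subgroup.normalizer (K : Set G) →
        Cfsg.HasNormalPComplement p (Subgroup.normalizer (K : Set G))) : Hy p G Q := by
  refine ⟨h _ (thompsonSubgroupAOf_le Q) ?_ (normalizer_le_normalizer_thompsonSubgroupAOf Q), ?_⟩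
  · intro h0
    apply zC_ne_bot Q hQ hQ1
    rw [eq_bot_iff, ← h0]
    exact zC_le_J Q
  · exact hnc_of_le (Subgroup.centralizer_le_normalizer _)
      (h (zC Q) inf_le_left (zC_ne_bot Q hQ hQ1) (normalizer_le_zC Q))

theorem hy_norm (p : ℕ) [Fact p.Prime] (G : Type u) [Group G] [Finite G] (P : Sylow p G)
    (hP : (P : Subgroup G).Normal) (h : Hy p G (P : Subgroup G)) : HasNormalPComplement p G := by
  have h1 := normalizer_le_normalizer_thompsonSubgroupAOf (P : Subgroup G)
  rw [Subgroup.normalizer_eq_top_iff.mpr hP, top_le_iff] at h1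
  have h2 := h.1
  rw [h1] at h2
  exact hnc_top.1 h2

theorem main {p : ℕ} [Fact p.Prime] (G : Type u) [Group G] [Finite G]
    (hS : p ≠ 2 ∨ ¬ Lib.Involves.Involves G (Equiv.Perm (Fin 4))) (P : Sylow p G)
    (h : Hy p G (P : Subgroup G)) : HasNormalPComplement p G := by
  refine H41.HypReduction.hasNormalPComplement_of_hyp_class (p := p) (Hy p)
    (fun G _ => p ≠ 2 ∨ ¬ Lib.Involves.Involves G (Equiv.Perm (Fin 4))) ?_ ?_ (hy_map p)
    (hy_quo p) (hy_loc p) (hy_norm p) ?_ G hS P h
  · intro G _ L hL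
    exact hL.imp id fun h1 h2 => h1 (Lib.Involves.of_subgroup h2)
  · intro G _ N _ hL
    exact hL.imp id fun h1 h2 => h1 (Lib.Involves.of_quotient h2)
  · intro G _ _ hS P A hAn hRA hab hcop htop hCR hmax hne hq hP
    rw [sup_comm] at htop
    rw [sup_comm] at htop
    have hZtop : (P : Subgroup G) ≤ cZ (P : Subgroup G) := by
      intro s hs
      rw [mem_cZ]
      intro z hz
      exact ((mem_zC.1 hz).2 s hs).symm
    rcases hmax _ hZtop with h1 | h1
    · have key : (thompsonSubgroupAOf (P : Subgroup G)).Normal := by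
        refine H41.AbelianJ.thompsonA_normal (R := pCore p G) (Lib.Cores.pCore_normal p)
          (Lib.Cores.pCore_le_sylow P) ?_
        intro B hB
        by_cases hp : p = 2
        · subst hp
          have hS' : ¬ ∃ (K R : Subgroup G) (hR : (R.subgroupOf K).Normal),
              Nonempty ((K ⧸ R.subgroupOf K) ≃* Equiv.Perm (Fin 4)) := by
            rcases hS with hS | hS
            · exact absurd rfl hS
            · intro h5
              exact hS (Lib.Involves.involves_iff.mpr h5)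
          exact H41.AbelianJ.le_pCore_of_two hS' P A hAn hRA.le hcop htop hCR hmax hne h1.le B hB
        · exact H41.AbelianJ.le_pCore_of_odd hp P A hAn hRA.le hab hcop htop hCR h1.le B hB
      have h2 := hP.1
      rw [Subgroup.normalizer_eq_top_iff.mpr key] at h2
      exact hnc_top.1 h2
    · have h2 := hP.2
      rw [h1] at h2
      exact hnc_top.1 h2

/-- Let S be a Sylow p-subgroup of the finite group G and J(S) the subgroup generated by the abelian subgroups of S of largest order. Suppose p is odd, or the symmetric group of degree 4 is not involved in G. If both C_G(Z(S)) and N_G(J(S)) have normal p-complements, then G has a normal p-complement. -/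
theorem result {G : Type*} [Group G] [Finite G] {p : ℕ} [Fact p.Prime] (S : Sylow p G) (h : p ≠ 2 ∨ ¬ Cfsg.Involves (Equiv.Perm (Fin 4)) G) (hC : Cfsg.HasNormalPComplement p ↥(Subgroup.centralizer (((S : Subgroup G) ⊓ Subgroup.centralizer ((S : Subgroup G) : Set G) : Subgroup G) : Set G))) (hN : Cfsg.HasNormalPComplement p ↥(Subgroup.normalizer ((Cfsg.thompsonSubgroupAOf (S : Subgroup G)) : Set G))) : Cfsg.HasNormalPComplement p G := by
  refine main G ?_ S ⟨hN, hC⟩
  refine h.imp id fun h1 h2 => h1 ?_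
  exact Lib.Involves.involves_iff.mp h2

end Cfsg.Agent.S2800
end
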