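import Cfsg.Statements.S2941
set_option linter.all false

set_option autoImplicit false
open Cfsg

namespace Cfsg.Agent.S2941

open Subgroup
open scoped Pointwise

/-- Let G be a finite group of characteristic 2 type in which every 2-local subgroup is solvable and the centralizer of Ω₁(Z(S)) lies in N_G(S) for every Sylow 2-subgroup S, and let T be a nontrivial 2-subgroup and K a J(T)-component (J the Thompson subgroup generated by the elementary abelian 2-subgroups of largest order). If a subgroup Q is normalized by ⟨K, J(T)⟩ and normalizes J(T), then Q normalizes K. -/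
theorem result {G : Type*} [Group G] [Finite G] (hL : Cfsg.IsCharacteristicTwoType G) (hN : ∀ N : Subgroup G, Cfsg.IsTwoLocal N → Group.IsSolvable ↥N)
    (hZ : ∀ S : Sylow 2 G, Subgroup.centralizer (Cfsg.omegaCenterOf (S : Subgroup G) : Set G) ≤ Subgroup.normalizer ((S : Subgroup G) : Set G)) (T : Subgroup G) (hT : IsPGroup 2 ↥T) (hT1 : T ≠ ⊥) (K : Subgroup G) (hK : Cfsg.IsJComponent T K)
    (Q : Subgroup G) (hQ1 : K ⊔ Cfsg.thompsonSubgroupOf 2 T ≤ Subgroup.normalizer (Q : Set G)) (hQ2 : Q ≤ Subgroup.normalizer (Cfsg.thompsonSubgroupOf 2 T : Set G)) :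
    Q ≤ Subgroup.normalizer (K : Set G) := by
  obtain ⟨hodd, hcomm, -⟩ := hK
  set J := Cfsg.thompsonSubgroupOf 2 T with hJ
  set L := K ⊔ J with hLdef
  have hJ2 : IsPGroup 2 ↥J := by
    rw [hJ, Cfsg.thompsonSubgroupOf]
    exact hT.to_le (Subgroup.map_subtype_le _)
  -- `J` normalizes `K`
  have hJK : J ≤ normalizer (K : Set G) := by
    have h1 : J ≤ normalizer ((⁅K, J⁆ : Subgroup G) : Set G) := normalizer_commutator_ge_right _ _
    rwa [hcomm] at h1
  -- the subgroup of the elements of `L` whose `Q`-conjugates are in `L`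
  let N : Subgroup G :=
    { carrier := {l | l ∈ L ∧ ∀ q ∈ Q, q * l * q⁻¹ ∈ L}
      mul_mem' := by
        rintro a b ⟨ha, ha'⟩ ⟨hb, hb'⟩
        refine ⟨L.mul_mem ha hb, fun q hq => ?_⟩
        have e : q * (a * b) * q⁻¹ = (q * a * q⁻¹) * (q * b * q⁻¹) := by group
        rw [e]
        exact L.mul_mem (ha' q hq) (hb' q hq)
      one_mem' := ⟨L.one_mem, fun q _ => by simp⟩
      inv_mem' := by
        rintro a ⟨ha, ha'⟩
        refine ⟨L.inv_mem ha, fun q hq => ?_⟩
        have e : q * a⁻¹ * q⁻¹ = (q * a * q⁻¹)⁻¹ := by group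
        rw [e]
        exact L.inv_mem (ha' q hq) }
  have hJN : J ≤ N := by
    intro j hj
    refine ⟨(le_sup_right : J ≤ L) hj, fun q hq => (le_sup_right : J ≤ L) ?_⟩
    exact (mem_normalizer_iff.1 (hQ2 hq) j).1 hj
  have hLN : ∀ m ∈ L, ∀ l ∈ N, m * l * m⁻¹ ∈ N := by
    rintro m hm l ⟨hl, hl'⟩
    refine ⟨L.mul_mem (L.mul_mem hm hl) (L.inv_mem hm), fun q hq => ?_⟩
    have hq' : m⁻¹ * q * m ∈ Q := by
      have := (mem_normalizer_iff.1 (hQ1 (L.inv_mem hm)) q).1 hq
      simpa using this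
    have e : q * (m * l * m⁻¹) * q⁻¹ = m * ((m⁻¹ * q * m) * l * (m⁻¹ * q * m)⁻¹) * m⁻¹ := by group
    rw [e]
    exact L.mul_mem (L.mul_mem hm (hl' _ hq')) (L.inv_mem hm)
  have hKN : K ≤ N := by
    rw [← hcomm, commutator_le]
    intro k hk j hj
    rw [commutatorElement_def]
    exact N.mul_mem (hLN k ((le_sup_left : K ≤ L) hk) j (hJN hj)) (N.inv_mem (hJN hj))
  -- the elements of odd order of `L` are in `K`
  have hoddmem : ∀ x ∈ L, Odd (orderOf x) → x ∈ K := by
    intro x hx hxo
    have hx' : x ∈ (K : Set G) * (J : Set G) := by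
      rw [← coe_mul_of_right_le_normalizer_left K J hJK]
      exact hx
    obtain ⟨k, hk, j, hj, hkj⟩ := hx'
    obtain ⟨n, hn⟩ := hJ2 ⟨j, hj⟩
    have hn' : j ^ 2 ^ n = 1 := by simpa using congrArg Subtype.val hn
    have hxj : ∀ m : ℕ, ∃ k' ∈ K, x ^ m = k' * j ^ m := by
      intro m
      induction m with
      | zero => exact ⟨1, K.one_mem, by simp⟩
      | succ m ih =>
        obtain ⟨k', hk', hm⟩ := ih
        have h1 : j ^ m * k * (j ^ m)⁻¹ ∈ K :=
          (mem_normalizer_iff.1 (hJK (J.pow_mem hj m)) k).1 hk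
        refine ⟨k' * (j ^ m * k * (j ^ m)⁻¹), K.mul_mem hk' h1, ?_⟩
        rw [pow_succ, hm, ← hkj, pow_succ]
        simp only
        group
    obtain ⟨k', hk', hm⟩ := hxj (2 ^ n)
    rw [hn', mul_one] at hm
    have hcop : Nat.Coprime (orderOf x) (2 ^ n) := (Nat.coprime_two_right.2 hxo).pow_right n
    have hx2 : x ∈ zpowers (x ^ 2 ^ n) := by
      have h2 : orderOf (x ^ 2 ^ n) = orderOf x := hcop.orderOf_pow
      have h3 : zpowers (x ^ 2 ^ n) = zpowers x := by
        apply eq_of_le_of_card_ge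
        · rw [zpowers_le]
          exact (zpowers x).pow_mem (mem_zpowers x) _
        · rw [Nat.card_zpowers, Nat.card_zpowers, h2]
      rw [h3]
      exact mem_zpowers x
    rw [hm] at hx2
    exact (zpowers_le.2 hk') hx2
  -- end
  have hle : ∀ q ∈ Q, ∀ k ∈ K, q * k * q⁻¹ ∈ K := by
    intro q hq k hk
    rw [← hodd] at hk
    induction hk using Subgroup.closure_induction with
    | mem y hy =>
      refine hoddmem _ ((hKN hy.1).2 q hq) ?_
      have := MulEquiv.orderOf_eq (MulAut.conj q) y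
      rw [MulAut.conj_apply] at this
      rw [this]
      exact hy.2
    | one => simp
    | mul a b _ _ ha hb =>
      have e : q * (a * b) * q⁻¹ = (q * a * q⁻¹) * (q * b * q⁻¹) := by group
      rw [e]
      exact K.mul_mem ha hb
    | inv a _ ha =>
      have e : q * a⁻¹ * q⁻¹ = (q * a * q⁻¹)⁻¹ := by group
      rw [e]
      exact K.inv_mem ha
  intro q hq
  rw [mem_normalizer_iff]
  intro k
  refine ⟨hle q hq k, fun h => ?_⟩
  have := hle q⁻¹ (Q.inv_mem hq) _ h
  simpa [mul_assoc] using this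

end Cfsg.Agent.S2941
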