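import Cfsg.Agent.H250.JSplit
import Cfsg.Agent.PLocal.SubnormalCore
import Cfsg.Agent.PLocal.FFBridge
import Cfsg.Agent.S0615
import Cfsg.Agent.H250.JMain
import Cfsg.Statements.S2945
set_option linter.all false

-- part: H250/KComp
section
/-!
# The part of the definition of a J(T)-component which depends on `K` only; subnormal `K`
-/

set_option autoImplicit false
set_option linter.style.haveILetI false
set_option linter.unusedSectionVars false

namespace Cfsg.Agent.H250.JBasic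

open Subgroup Cfsg
open Cfsg.Agent.ZN
open Cfsg.Agent.PLocal.ThompsonJ
open scoped commutatorElement

universe u

variable {G : Type u} [Group G]

/-- The conditions on `K` alone in the definition of a J(T)-component. -/
structure KC (K : Subgroup G) : Prop where
  odd : oddGen K = K
  idx : (o2 K).relIndex K = 3
  cardW : Nat.card (wOf K) = 4
  sqW : ∀ w ∈ wOf K, w ^ 2 = 1

theorem JC.kc {J K : Subgroup G} (h : JC J K) : KC K := ⟨h.odd, h.idx, h.cardW, h.sqW⟩

variable {K : Subgroup G}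

theorem KC.exists_d (h : KC K) : ∃ d ∈ K, Odd (orderOf d) ∧ d ∉ o2 K := by
  by_contra hcon
  push Not at hcon
  have h1 : oddGen K ≤ o2 K := oddGen_le_iff.2 hcon
  rw [h.odd] at h1
  have h2 := h.idx
  rw [relIndex_eq_one.2 h1] at h2
  omega

theorem KC.pow_three [Finite G] (h : KC K) {d : G} (hd : d ∈ K) : d ^ 3 ∈ o2 K :=
  pow_three_mem (le_normalizer_o2 K) (o2_le K) h.idx hd

theorem KC.sup_zpowers [Finite G] (h : KC K) {d : G} (hd : d ∈ K) (hd2 : d ∉ o2 K) :
    o2 K ⊔ zpowers d = K :=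
  JBasic.sup_zpowers (o2_le K) h.idx hd hd2

/-- A 2-subgroup of `K` lies in `O₂(K)`. -/
theorem KC.two_le [Finite G] (h : KC K) {P : Subgroup G} (hPK : P ≤ K) (hP : IsPGroup 2 P) :
    P ≤ o2 K := by
  intro x hx
  by_contra hx2
  have h1 := h.pow_three (hPK hx)
  obtain ⟨n, hn⟩ := hP ⟨x, hx⟩
  have hn' : x ^ (2 ^ n) = 1 := congrArg Subtype.val hn
  have hc : Nat.Coprime 3 (2 ^ n) := Nat.Coprime.pow_right _ (by norm_num)
  apply hx2
  have h2 : x ^ (2 ^ n) ∈ o2 K := by rw [hn']; exact one_mem _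
  have h3 : Int.gcd 3 (2 ^ n) = 1 := by
    have := hc
    rw [Int.gcd_eq_natAbs]
    simpa [Int.natAbs_pow] using this
  have h4 := Int.gcd_eq_gcd_ab 3 (2 ^ n)
  rw [h3] at h4
  have h5 : x = (x ^ 3) ^ (Int.gcdA 3 (2 ^ n)) * (x ^ (2 ^ n)) ^ (Int.gcdB 3 (2 ^ n)) := by
    calc x = x ^ ((1 : ℕ) : ℤ) := by simp
      _ = x ^ (3 * Int.gcdA 3 (2 ^ n) + 2 ^ n * Int.gcdB 3 (2 ^ n)) := by rw [h4]
      _ = _ := by
        rw [zpow_add, zpow_mul, zpow_mul]
        norm_cast
  rw [h5]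
  exact mul_mem (zpow_mem h1 _) (zpow_mem h2 _)

/-! ### the four-group `W_K` -/

theorem KC.isPGroup_wOf (h : KC K) : IsPGroup 2 (wOf K) :=
  IsPGroup.of_card (n := 2) (by rw [h.cardW]; norm_num)

theorem KC.wOf_ne_bot (h : KC K) : wOf K ≠ ⊥ := by
  intro hb
  have h1 := h.cardW
  rw [hb, Subgroup.card_bot] at h1
  omega

/-- An element of `K` centralizing `W_K` lies in `O₂(K)`. -/
theorem KC.mem_o2_of_cent [Finite G] (h : KC K) {d : G} (hd : d ∈ K)
    (hc : d ∈ centralizer (wOf K : Set G)) : d ∈ o2 K := by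
  by_contra hd2
  have h1 := h.sup_zpowers hd hd2
  -- `d` centralizes `zc (o2 K)`
  have h2 : d ∈ centralizer (zc (o2 K) : Set G) := by
    rw [mem_centralizer_iff]
    intro z hz
    have hdz : d ∈ normalizer (zc (o2 K) : Set G) :=
      ((le_normalizer_o2 K).trans (normalizer_le_normalizer_zc _)) hd
    set c := z * d * z⁻¹ * d⁻¹ with hcdef
    have hcW : c ∈ wOf K := by
      rw [wOf_def]
      exact commutator_mem_commutator hz hd
    have hcz : c ∈ zc (o2 K) := wOf_le_zc K hcW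
    have hcd : c * d = d * c := mem_centralizer_iff.1 hc c hcW
    have hzc : z * c = c * z := (zc_comm hcz (zc_le _ hz))
    have hc2 : c ^ 2 = 1 := zc_sq hcz
    -- `z d z⁻¹ = c d`
    have h3 : z * d * z⁻¹ = c * d := by rw [hcdef]; group
    have h4 : z * d ^ 3 * z⁻¹ = c ^ 3 * d ^ 3 := by
      calc z * d ^ 3 * z⁻¹ = (z * d * z⁻¹) ^ 3 := by
            simp only [pow_succ, pow_zero, one_mul]; group
        _ = (c * d) ^ 3 := by rw [h3]
        _ = c ^ 3 * d ^ 3 := (show Commute c d from hcd).mul_pow 3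
    have h5 : z * d ^ 3 * z⁻¹ = d ^ 3 := by
      have h6 := mem_centralizer_iff.1 (le_centralizer_zc _ (h.pow_three hd)) z hz
      rw [h6]; group
    rw [h5] at h4
    have h7 : c ^ 3 = 1 := by
      have := mul_right_cancel (b := d ^ 3) (a := 1) (c := c ^ 3) (by rw [one_mul]; exact h4)
      exact this.symm
    have h8 : c = 1 := by
      calc c = c ^ 3 * (c ^ 2)⁻¹ := by group
        _ = 1 := by rw [h7, hc2]; group
    rw [h8, one_mul] at h3
    calc z * d = (z * d * z⁻¹) * z := by group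
      _ = d * z := by rw [h3]
  have h3 : K ≤ centralizer (zc (o2 K) : Set G) :=
    h1.ge.trans (sup_le (le_centralizer_zc _) (zpowers_le.2 h2))
  apply h.wOf_ne_bot
  rw [wOf_def, commutator_eq_bot_iff_le_centralizer, le_centralizer_iff]
  exact h3

/-- An element of `K` outside `O₂(K)` fixes no nontrivial element of `W_K`. -/
theorem KC.conj_ne [Finite G] (h : KC K) {d w : G} (hd : d ∈ K) (hd2 : d ∉ o2 K)
    (hw : w ∈ wOf K) (hw1 : w ≠ 1) : d * w * d⁻¹ ≠ w :=
  Four.cyc_ne h.cardW h.sqW (JBasic.le_normalizer_wOf K hd) (fun hc => hd2 (h.mem_o2_of_cent hd hc))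
    (o2_le_centralizer_wOf K (h.pow_three hd)) hw hw1

/-- A `K`-invariant subgroup containing a nontrivial element of `W_K` contains `W_K`. -/
theorem KC.wOf_le_of_mem [Finite G] (h : KC K) {U : Subgroup G}
    (hU : K ≤ normalizer (U : Set G)) {w : G} (hw : w ∈ wOf K) (hw1 : w ≠ 1) (hwU : w ∈ U) :
    wOf K ≤ U := by
  intro x hx
  by_cases hx1 : x = 1
  · rw [hx1]; exact one_mem _
  obtain ⟨d, hd, -, hd2⟩ := h.exists_d
  have hc := Four.cyc_trans h.cardW h.sqW (JBasic.le_normalizer_wOf K hd)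
    (fun hc => hd2 (h.mem_o2_of_cent hd hc)) (o2_le_centralizer_wOf K (h.pow_three hd)) hw hw1
    hx hx1
  rcases hc with rfl | rfl | rfl
  · exact hwU
  · exact Four.conj_mem (hU hd) hwU
  · exact Four.conj_mem' (hU hd) hwU

/-- A 2-subgroup normalized by `K` and normalizing `W_K` centralizes `W_K`. -/
theorem KC.two_le_centralizer [Finite G] (h : KC K) {R : Subgroup G} (hR : IsPGroup 2 R)
    (hKR : K ≤ normalizer (R : Set G)) (hRW : R ≤ normalizer (wOf K : Set G)) :
    R ≤ centralizer (wOf K : Set G) := by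
  obtain ⟨w, hw, hw1, hfix⟩ := exists_fixed h.isPGroup_wOf h.wOf_ne_bot hR hRW
  have h1 : K ≤ normalizer (centralizer (R : Set G) : Set G) :=
    hKR.trans (normalizer_le_normalizer_centralizer R)
  have h2 : wOf K ≤ centralizer (R : Set G) := by
    refine h.wOf_le_of_mem h1 hw hw1 ?_
    rw [mem_centralizer_iff]
    intro r hr
    exact Four.conj_eq_iff_comm.1 (hfix r hr)
  exact le_centralizer_iff.1 h2

theorem KC.map {G' : Type u} [Group G'] (h : KC K) (f : G →* G')
    (hf : Function.Injective f) : KC (K.map f) where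
  odd := by rw [oddGen_map _ hf, h.odd]
  idx := by rw [o2_map _ hf, relIndex_map_map_of_injective _ _ hf, h.idx]
  cardW := by rw [wOf_map _ hf, card_map_injective _ hf, h.cardW]
  sqW := by
    rw [wOf_map _ hf]
    rintro _ ⟨w, hw, rfl⟩
    rw [← map_pow, h.sqW w hw, map_one]

theorem KC.of_map {G' : Type u} [Group G'] (f : G →* G')
    (hf : Function.Injective f) (h : KC (K.map f)) : KC K where
  odd := by
    have h1 := h.odd
    rw [oddGen_map f hf] at h1
    exact map_injective hf h1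
  idx := by
    have h1 := h.idx
    rwa [o2_map f hf, relIndex_map_map_of_injective _ _ hf] at h1
  cardW := by
    have h1 := h.cardW
    rwa [wOf_map f hf, card_map_injective _ hf] at h1
  sqW := by
    intro w hw
    have h1 := h.sqW (f w) (by rw [wOf_map f hf]; exact ⟨w, hw, rfl⟩)
    apply hf
    rw [map_pow, h1, map_one]

/-! ### subnormal `K` -/

section Subnormal

variable {X : Type u} [Group X] [Finite X] {K : Subgroup X}

/-- `O₂(X)` normalizes `K`. -/
theorem KC.pCore_le_normalizer (h : KC K) (hsn : K.IsSubnormal) :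
    pCore 2 X ≤ normalizer (K : Set X) := by
  haveI : (pCore 2 X).Normal := Lib.Cores.pCore_normal 2
  have h1 : (⊤ : Subgroup X) ≤ normalizer (pCore 2 X : Set X) :=
    (normalizer_eq_top_iff.2 inferInstance).ge
  have h2 := oddGen_sup_of_isSubnormal (le_top.trans h1) (Lib.Cores.pCore_isPGroup (G := X) 2)
    (hsn.subgroupOf (K := K ⊔ pCore 2 X))
  rw [h.odd] at h2
  calc pCore 2 X ≤ K ⊔ pCore 2 X := le_sup_right
    _ ≤ normalizer ((K ⊔ pCore 2 X : Subgroup X) : Set X) := Subgroup.le_normalizer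
    _ ≤ normalizer (oddGen (K ⊔ pCore 2 X) : Set X) := normalizer_le_normalizer_oddGen _
    _ = normalizer (K : Set X) := by rw [h2]

theorem o2_le_pCore (hsn : K.IsSubnormal) : o2 K ≤ pCore 2 X :=
  PLocal.SubnormalCore.map_subtype_pCore_le hsn

theorem KC.pCore_le_centralizer (h : KC K) (hsn : K.IsSubnormal) :
    pCore 2 X ≤ centralizer (wOf K : Set X) := by
  haveI : (pCore 2 X).Normal := Lib.Cores.pCore_normal 2
  have h1 : (⊤ : Subgroup X) ≤ normalizer (pCore 2 X : Set X) :=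
    (normalizer_eq_top_iff.2 inferInstance).ge
  exact h.two_le_centralizer (Lib.Cores.pCore_isPGroup (G := X) 2) (le_top.trans h1)
    ((h.pCore_le_normalizer hsn).trans (normalizer_le_normalizer_wOf K))

theorem KC.wOf_le_zc_pCore (h : KC K) (hsn : K.IsSubnormal) : wOf K ≤ zc (pCore 2 X) := by
  intro w hw
  refine mem_zc.2 ⟨o2_le_pCore hsn (wOf_le_o2 K hw), fun b hb => ?_, h.sqW w hw⟩
  exact (mem_centralizer_iff.1 (h.pCore_le_centralizer hsn hb) w hw).symm

/-- `[Ω₁(Z(O₂(X))), K] ≤ W_K`. -/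
theorem KC.comm_zc (h : KC K) (hsn : K.IsSubnormal) {v k : X} (hv : v ∈ zc (pCore 2 X))
    (hk : k ∈ K) : k * v * k⁻¹ * v⁻¹ ∈ wOf K := by
  set Q := pCore 2 X with hQ
  haveI hQn : Q.Normal := Lib.Cores.pCore_normal 2
  have hVn : ∀ x : X, x ∈ normalizer (zc Q : Set X) := fun x =>
    (normalizer_le_normalizer_zc Q) ((normalizer_eq_top_iff.2 hQn).ge (mem_top x))
  have hoQ : o2 K ≤ Q := o2_le_pCore hsn
  -- commutators lie in `zc (o2 K)`
  have hcz : ∀ y ∈ zc Q, k * y * k⁻¹ * y⁻¹ ∈ zc (o2 K) := by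
    intro y hy
    have h1 : k * y * k⁻¹ * y⁻¹ ∈ zc Q := mul_mem (Four.conj_mem (hVn k) hy) (inv_mem hy)
    have h2 : k * y * k⁻¹ * y⁻¹ ∈ K := by
      have h3 : y * k⁻¹ * y⁻¹ ∈ K :=
        Four.conj_mem (h.pCore_le_normalizer hsn (zc_le _ hy)) (inv_mem hk)
      have h4 : k * y * k⁻¹ * y⁻¹ = k * (y * k⁻¹ * y⁻¹) := by group
      rw [h4]; exact mul_mem hk h3
    have h3 : zc Q ⊓ K ≤ o2 K := h.two_le inf_le_right ((isPGroup_zc Q).to_le inf_le_left)
    exact mem_zc.2 ⟨h3 ⟨h1, h2⟩, fun b hb => zc_comm h1 (hoQ hb), zc_sq h1⟩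
  by_cases hk2 : k ∈ o2 K
  · have h1 : k * v * k⁻¹ * v⁻¹ = 1 := by rw [zc_comm hv (hoQ hk2)]; group
    rw [h1]; exact one_mem _
  set c := k * v * k⁻¹ * v⁻¹ with hc
  have hcZ : c ∈ zc (o2 K) := hcz v hv
  have hZn : k ∈ normalizer (zc (o2 K) : Set X) :=
    (normalizer_le_normalizer_zc _) (le_normalizer_o2 K hk)
  -- `e = [k, c] ∈ W`
  set e := k * c * k⁻¹ * c⁻¹ with he
  have heW : e ∈ wOf K := by
    have h1 : c * k * c⁻¹ * k⁻¹ ∈ wOf K := by
      rw [wOf_def]; exact commutator_mem_commutator hcZ hk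
    have h2 : e = (c * k * c⁻¹ * k⁻¹)⁻¹ := by rw [he]; group
    rw [h2]; exact inv_mem h1
  have hkeW : k * e * k⁻¹ ∈ wOf K := Four.conj_mem (JBasic.le_normalizer_wOf K hk) heW
  have hkc : k * c * k⁻¹ = e * c := by rw [he]; group
  have hkv : k * v * k⁻¹ = c * v := by rw [hc]; group
  have hk3 : k ^ 3 * v * (k ^ 3)⁻¹ = v := by
    rw [zc_comm hv (hoQ (h.pow_three hk))]; group
  have hec : e * c = c * e := zc_comm hcZ (wOf_le_o2 K heW)
  have hkec : (k * e * k⁻¹) * c = c * (k * e * k⁻¹) := zc_comm hcZ (wOf_le_o2 K hkeW)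
  have h1 : k ^ 3 * v * (k ^ 3)⁻¹ = (k * e * k⁻¹) * (e * c) * (e * c) * c * v := by
    calc k ^ 3 * v * (k ^ 3)⁻¹ = k * (k * (k * v * k⁻¹) * k⁻¹) * k⁻¹ := by
          simp only [pow_succ, pow_zero, one_mul]; group
      _ = k * (k * (c * v) * k⁻¹) * k⁻¹ := by rw [hkv]
      _ = k * ((k * c * k⁻¹) * (k * v * k⁻¹)) * k⁻¹ := by group
      _ = k * (e * c * (c * v)) * k⁻¹ := by rw [hkc, hkv]
      _ = (k * e * k⁻¹) * (k * c * k⁻¹) * (k * c * k⁻¹) * (k * v * k⁻¹) := by group
      _ = (k * e * k⁻¹) * (e * c) * (e * c) * (c * v) := by rw [hkc, hkv]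
      _ = (k * e * k⁻¹) * (e * c) * (e * c) * c * v := by group
  have hee : e * e = 1 := by rw [← pow_two]; exact h.sqW e heW
  have hcc : c * c = 1 := by rw [← pow_two]; exact zc_sq hcZ
  have h2 : (e * c) * (e * c) * c = c := by
    calc (e * c) * (e * c) * c = e * (c * e) * (c * c) := by group
      _ = e * (e * c) * (c * c) := by rw [hec]
      _ = (e * e) * c * (c * c) := by group
      _ = c := by rw [hee, hcc, one_mul, mul_one]
  have h3 : (k * e * k⁻¹) * c = 1 := by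
    have h4 : (k * e * k⁻¹) * c * v = v := by
      calc (k * e * k⁻¹) * c * v = (k * e * k⁻¹) * ((e * c) * (e * c) * c) * v := by rw [h2]
        _ = (k * e * k⁻¹) * (e * c) * (e * c) * c * v := by group
        _ = v := by rw [← h1, hk3]
    exact mul_eq_right.1 h4
  have h4 : c = (k * e * k⁻¹)⁻¹ := (inv_eq_of_mul_eq_one_right h3).symm
  rw [h4]
  exact inv_mem hkeW

/-- Distinct conjugates `K₁`, `K₂` (with `W_{K₁} ≠ W_{K₂}`): `K₁` centralizes `W_{K₂}`. -/
theorem KC.centralizes {K₂ : Subgroup X} (h : KC K) (hsn : K.IsSubnormal) (h₂ : KC K₂)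
    (hsn₂ : K₂.IsSubnormal) (hne : wOf K ≠ wOf K₂) : K ≤ centralizer (wOf K₂ : Set X) := by
  haveI : Fact (Nat.Prime 2) := ⟨Nat.prime_two⟩
  set Q := pCore 2 X with hQ
  haveI hQn : Q.Normal := Lib.Cores.pCore_normal 2
  set V := zc Q with hV
  have hVn : V.Normal := by
    rw [← normalizer_eq_top_iff, eq_top_iff]
    exact (normalizer_eq_top_iff.2 hQn).ge.trans (normalizer_le_normalizer_zc Q)
  obtain ⟨Γ, hΓ, hfin, f, j, hcomp, hker, hdisj⟩ := PLocal.FFBridge.exists_data V hVn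
  -- facts valid for both subgroups
  have key : ∀ K' : Subgroup X, KC K' → K'.IsSubnormal →
      ⁅j.range, K'.map f⁆ = ((wOf K').subgroupOf V).map j ∧
      (∀ U : Subgroup Γ, U ≤ ⁅j.range, K'.map f⁆ → K'.map f ≤ normalizer (U : Set Γ) →
        U = ⊥ ∨ U = ⁅j.range, K'.map f⁆) ∧
      2 < Nat.card ↥(K'.map f) ∧ IsPGroup 3 ↥(K'.map f) := by
    intro K' h' hsn'
    have hWV : wOf K' ≤ V := h'.wOf_le_zc_pCore hsn'
    obtain ⟨d, hd, hdo, hd2⟩ := h'.exists_d
    have hd3 : d ^ 3 = 1 := by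
      obtain ⟨n, hn⟩ := isPGroup_o2 K' ⟨_, h'.pow_three hd⟩
      have hn' : (d ^ 3) ^ (2 ^ n) = 1 := congrArg Subtype.val hn
      have h1 : Odd (orderOf (d ^ 3)) := hdo.of_dvd_nat (orderOf_pow_dvd 3)
      have h2 : orderOf (d ^ 3) ∣ 2 ^ n := orderOf_dvd_of_pow_eq_one hn'
      have h3 : Nat.Coprime (orderOf (d ^ 3)) (2 ^ n) :=
        Nat.Coprime.pow_right _ h1.coprime_two_right
      exact orderOf_eq_one_iff.1 (Nat.eq_one_of_dvd_coprimes h3 dvd_rfl h2)
    -- the group `f(K')` is generated by `f d`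
    have hfd : K'.map f = zpowers (f d) := by
      have h1 : (o2 K').map f = ⊥ := by
        rw [eq_bot_iff]
        rintro _ ⟨x, hx, rfl⟩
        rw [mem_bot, hker]
        exact (le_centralizer_zc Q) (o2_le_pCore hsn' hx)
      rw [← h'.sup_zpowers hd hd2, Subgroup.map_sup, h1, bot_sup_eq, MonoidHom.map_zpowers]
    have hfd1 : f d ≠ 1 := by
      intro h1
      rw [hker] at h1
      exact hd2 (h'.mem_o2_of_cent hd (centralizer_le hWV h1))
    have hfd3 : orderOf (f d) = 3 := by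
      haveI : Fact (Nat.Prime 3) := ⟨Nat.prime_three⟩
      exact orderOf_eq_prime (by rw [← map_pow, hd3, map_one]) hfd1
    have hcomm : ∀ x ∈ K', ∀ v : V, ∃ w : V, (w : X) ∈ wOf K' ∧ ⁅j v, f x⁆ = j w := by
      intro x hx v
      have h1 : x * (v : X) * x⁻¹ * (v : X)⁻¹ ∈ wOf K' := h'.comm_zc hsn' v.2 hx
      have h1' : (v : X) * (x * (v : X) * x⁻¹)⁻¹ ∈ wOf K' := by
        have : (v : X) * (x * (v : X) * x⁻¹)⁻¹ = (x * (v : X) * x⁻¹ * (v : X)⁻¹)⁻¹ := by group
        rw [this]; exact inv_mem h1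
      refine ⟨⟨_, hWV h1'⟩, h1', ?_⟩
      have h2 : x * (v : X) * x⁻¹ ∈ V := hVn.conj_mem _ v.2 x
      have h3 := hcomp.act x v ⟨_, h2⟩ rfl
      have h4 : (⟨_, hWV h1'⟩ : V) = v * (⟨_, h2⟩ : V)⁻¹ := Subtype.ext rfl
      rw [h4, map_mul, map_inv, ← h3, commutatorElement_def]
      group
    have hle : ⁅j.range, K'.map f⁆ ≤ ((wOf K').subgroupOf V).map j := by
      rw [commutator_le]
      rintro _ ⟨v, rfl⟩ _ ⟨x, hx, rfl⟩
      obtain ⟨w, hw, hwe⟩ := hcomm x hx v
      rw [hwe]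
      exact ⟨w, hw, rfl⟩
    -- invariant subgroups
    have hinv : ∀ U : Subgroup Γ, K'.map f ≤ normalizer (U : Set Γ) → ∀ w : V,
        (w : X) ∈ wOf K' → w ≠ 1 → j w ∈ U → ((wOf K').subgroupOf V).map j ≤ U := by
      intro U hU w hw hw1 hwU
      let U₀ : Subgroup X := (U.comap j).map V.subtype
      have hU₀ : K' ≤ normalizer (U₀ : Set X) := by
        rw [le_normalizer_iff]
        rintro x hx _ ⟨v, hv, rfl⟩
        have h2 : x * (v : X) * x⁻¹ ∈ V := hVn.conj_mem _ v.2 x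
        refine ⟨⟨_, h2⟩, ?_, rfl⟩
        change j ⟨_, h2⟩ ∈ U
        rw [← hcomp.act x v ⟨_, h2⟩ rfl]
        exact Four.conj_mem (hU ⟨x, hx, rfl⟩) hv
      have h1 : wOf K' ≤ U₀ :=
        h'.wOf_le_of_mem hU₀ hw (fun h1 => hw1 (Subtype.ext h1)) ⟨w, hwU, rfl⟩
      rintro _ ⟨v, hv, rfl⟩
      obtain ⟨v', hv', hvv'⟩ := h1 hv
      have h2 : v' = v := Subtype.ext hvv'
      rw [← h2]; exact hv'
    have hge : ((wOf K').subgroupOf V).map j ≤ ⁅j.range, K'.map f⁆ := by
      obtain ⟨w, hw, hw1, -⟩ := Four.exists_other h'.cardW (1 : X)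
      -- the commutator of `w` and `d` is a nontrivial element
      obtain ⟨c, hc, hce⟩ := hcomm d hd ⟨w, hWV hw⟩
      have hc1 : c ≠ 1 := by
        rintro rfl
        rw [map_one, commutatorElement_eq_one_iff_commute] at hce
        have h1 := (hcomp.commute_iff d ⟨w, hWV hw⟩).1 hce.symm
        exact h'.conj_ne hd hd2 hw hw1 (Four.conj_eq_iff_comm.2 h1)
      refine hinv _ ?_ c hc hc1 ?_
      · exact normalizer_commutator_ge_right _ _
      · rw [← hce]
        exact commutator_mem_commutator ⟨_, rfl⟩ ⟨d, hd, rfl⟩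
    have heq := le_antisymm hle hge
    refine ⟨heq, ?_, ?_, ?_⟩
    · intro U hU1 hU2
      by_cases hU : U = ⊥
      · exact Or.inl hU
      right
      apply le_antisymm hU1
      obtain ⟨⟨u, hu⟩, hu1⟩ := (Subgroup.ne_bot_iff_exists_ne_one).1 hU
      have hu1' : u ≠ 1 := fun h1 => hu1 (Subtype.ext h1)
      obtain ⟨w, hw, rfl⟩ := hle (hU1 hu)
      exact hle.trans (hinv U hU2 w hw (fun h1 => hu1' (by rw [h1, map_one])) hu)
    · rw [hfd, Nat.card_zpowers, hfd3]; norm_num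
    · rw [hfd]
      exact IsPGroup.of_card (n := 1) (by rw [Nat.card_zpowers, hfd3, pow_one])
  obtain ⟨a1, a2, a3, a4⟩ := key K h hsn
  obtain ⟨b1, b2, b3, b4⟩ := key K₂ h₂ hsn₂
  have hWV : wOf K ≤ V := h.wOf_le_zc_pCore hsn
  have hWV₂ : wOf K₂ ≤ V := h₂.wOf_le_zc_pCore hsn₂
  set E₁ := K.map f with hE₁
  set E₂ := K₂.map f with hE₂
  set E := E₁ ⊔ E₂ with hE
  have hEr : E ≤ f.range := sup_le (map_le_range _ _) (map_le_range _ _)
  have hrn : f.range ≤ normalizer (j.range : Set Γ) := by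
    rw [le_normalizer_iff]
    rintro _ ⟨x, rfl⟩ _ ⟨v, rfl⟩
    have h2 : x * (v : X) * x⁻¹ ∈ V := hVn.conj_mem _ v.2 x
    exact ⟨⟨_, h2⟩, (hcomp.act x v ⟨_, h2⟩ rfl).symm⟩
  have hf : E ⊓ centralizer (j.range : Set Γ) = ⊥ := by
    rw [eq_bot_iff]
    rintro x ⟨hx1, hx2⟩
    obtain ⟨y, rfl⟩ := hEr hx1
    rw [mem_bot, hker, mem_centralizer_iff]
    intro v hv
    have h1 := mem_centralizer_iff.1 hx2 (j ⟨v, hv⟩) ⟨_, rfl⟩
    exact ((hcomp.commute_iff y ⟨v, hv⟩).1 h1.symm).symm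
  have hsub : ∀ K' : Subgroup X, K'.IsSubnormal → K'.map f ≤ E →
      ((K'.map f).subgroupOf E).IsSubnormal := by
    intro K' hsn' hle
    have h1 : (K'.map f.rangeRestrict).IsSubnormal := hsn'.map f.rangeRestrict_surjective
    have h2 := h1.comap (Subgroup.inclusion hEr)
    have h3 : (K'.map f.rangeRestrict).comap (Subgroup.inclusion hEr) =
        (K'.map f).subgroupOf E := by
      ext x
      constructor
      · rintro ⟨y, hy, hyx⟩
        exact ⟨y, hy, congrArg Subtype.val hyx⟩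
      · rintro ⟨y, hy, hyx⟩
        exact ⟨y, hy, Subtype.ext hyx⟩
    rwa [h3] at h2
  have hs₁ := hsub K hsn le_sup_left
  have hs₂ := hsub K₂ hsn₂ le_sup_right
  have hE3 : IsPGroup 3 E := by
    have h1 : E₁.subgroupOf E ≤ pCore 3 E := PLocal.SubnormalCore.le_pCore_of_isSubnormal hs₁
      (a4.comap_of_injective E.subtype E.subtype_injective)
    have h2 : E₂.subgroupOf E ≤ pCore 3 E := PLocal.SubnormalCore.le_pCore_of_isSubnormal hs₂
      (b4.comap_of_injective E.subtype E.subtype_injective)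
    have h3 : (⊤ : Subgroup E) ≤ pCore 3 E := by
      have h4 : E ≤ (pCore 3 E).map E.subtype := by
        refine sup_le ?_ ?_
        · intro x hx
          exact ⟨⟨x, (le_sup_left : E₁ ≤ E) hx⟩, h1 hx, rfl⟩
        · intro x hx
          exact ⟨⟨x, (le_sup_right : E₂ ≤ E) hx⟩, h2 hx, rfl⟩
      intro x _
      obtain ⟨y, hy, hyx⟩ := h4 x.2
      have : y = x := Subtype.ext hyx
      rw [← this]; exact hy
    have h4 : IsPGroup 3 (⊤ : Subgroup E) := (Lib.Cores.pCore_isPGroup (G := E) 3).to_le h3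
    intro x
    obtain ⟨n, hn⟩ := h4 ⟨x, mem_top x⟩
    exact ⟨n, congrArg Subtype.val hn⟩
  have hOp : pCore 2 E = ⊥ := by
    haveI : Fact (Nat.Prime 3) := ⟨Nat.prime_three⟩
    have h1 : IsPGroup 2 (pCore 2 E) := Lib.Cores.pCore_isPGroup (G := E) 2
    have h2 : IsPGroup 3 (pCore 2 E) := hE3.to_subgroup _
    have h3 := IsPGroup.disjoint_of_ne 2 3 (by norm_num) _ _ h1 h2
    exact disjoint_self.1 h3
  have hjinj : ∀ K' K'' : Subgroup X, wOf K' ≤ V → wOf K'' ≤ V → KC K' → KC K'' →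
      wOf K' ≠ wOf K'' → ¬ ((wOf K').subgroupOf V).map j ≤ ((wOf K'').subgroupOf V).map j := by
    intro K' K'' hV' hV'' h' h'' hne' hle
    rw [map_le_map_iff_of_injective hcomp.inj] at hle
    apply hne'
    refine Subgroup.eq_of_le_of_card_ge ?_ (by rw [h'.cardW, h''.cardW])
    intro x hx
    exact hle (show (⟨x, hV' hx⟩ : V) ∈ (wOf K').subgroupOf V from hx)
  obtain ⟨c1, -, c3, -⟩ := S0615.result (p := 2) j.range E E₁ E₂
    (by
      have : j.range = (⊤ : Subgroup V).map j := MonoidHom.range_eq_map j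
      rw [this]
      refine isElementaryAbelian_map ?_ j
      rw [isElementaryAbelian_iff]
      refine ⟨fun a _ b _ => Subtype.ext ?_, fun a _ => Subtype.ext ?_⟩
      · exact isElementaryAbelian_comm (isElementaryAbelian_zc Q) a.2 b.2
      · exact zc_sq a.2)
    (hEr.trans hrn) hf rfl hs₁ hs₂ hOp a2 b2
    (by rw [a1, b1]; exact hjinj K K₂ hWV hWV₂ h h₂ hne)
    (by rw [a1, b1]; exact hjinj K₂ K hWV₂ hWV h₂ h hne.symm) a3 b3
  -- conclusion
  intro k hk
  rw [mem_centralizer_iff]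
  intro w hw
  have hfk : f k ∈ E₁ := ⟨k, hk, rfl⟩
  have hjw : j ⟨w, hWV₂ hw⟩ ∈ ⁅j.range, E₂⁆ := by
    rw [b1]; exact ⟨_, hw, rfl⟩
  -- `f k` normalizes `⁅j.range, E₂⁆`
  have hn : f k ∈ normalizer ((⁅j.range, E₂⁆ : Subgroup Γ) : Set Γ) := by
    apply mem_normalizer_of_map_conj_eq
    rw [map_commutator]
    have h1 : j.range.map (MulAut.conj (f k)).toMonoidHom = j.range :=
      map_conj_eq_of_mem_normalizer (hrn ⟨k, rfl⟩)
    have h2 : E₂.map (MulAut.conj (f k)).toMonoidHom = E₂ := by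
      apply map_conj_eq_of_mem_normalizer
      rw [commutator_eq_bot_iff_le_centralizer] at c1
      exact (centralizer_le_normalizer _) (c1 hfk)
    rw [h1, h2]
  have h1 : f k * j ⟨w, hWV₂ hw⟩ * (f k)⁻¹ * (j ⟨w, hWV₂ hw⟩)⁻¹ ∈ ⁅j.range, E₂⁆ :=
    mul_mem (Four.conj_mem hn hjw) (inv_mem hjw)
  have h2 : f k * j ⟨w, hWV₂ hw⟩ * (f k)⁻¹ * (j ⟨w, hWV₂ hw⟩)⁻¹ ∈ ⁅j.range, E₁⁆ := by
    rw [commutator_comm]
    exact commutator_mem_commutator hfk ⟨_, rfl⟩
  have h3 : f k * j ⟨w, hWV₂ hw⟩ * (f k)⁻¹ * (j ⟨w, hWV₂ hw⟩)⁻¹ ∈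
      ⁅j.range, E₁⁆ ⊓ ⁅j.range, E₂⁆ := ⟨h2, h1⟩
  rw [c3, mem_bot] at h3
  have h4 : Commute (f k) (j ⟨w, hWV₂ hw⟩) := by
    have h5 := mul_inv_eq_one.1 h3
    exact Four.conj_eq_iff_comm.1 h5
  exact ((hcomp.commute_iff k ⟨w, hWV₂ hw⟩).1 h4).symm

end Subnormal

end Cfsg.Agent.H250.JBasic
end

-- part: H250/Orbit
section
/-!
# A largest elementary abelian subgroup does not permute four-groups nontrivially

`A` is a largest elementary abelian subgroup of the 2-group `S`, `W` a four-group contained in the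
elementary abelian normal subgroup `V ≤ S`, and `K` a set of elements acting on `W` without fixed points
and centralizing all `A`-conjugates of `W` different from `W`. Then `A` normalizes `W`.
-/

set_option autoImplicit false
set_option linter.style.haveILetI false
set_option linter.unusedSectionVars false

namespace Cfsg.Agent.H250.JBasic

open Subgroup Cfsg
open Cfsg.Agent.ZN
open Cfsg.Agent.PLocal.ThompsonJ

universe u

variable {G : Type u} [Group G] [Finite G]

/-- The hypotheses of the orbit lemma. -/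
structure Orb (S A V W K : Subgroup G) : Prop where
  max : IsMaxIn S A
  VS : V ≤ S
  elem : IsElementaryAbelian 2 V
  AV : A ≤ normalizer (V : Set G)
  WV : W ≤ V
  card : Nat.card W = 4
  fpf : ∀ w ∈ W, (∀ k ∈ K, k * w * k⁻¹ = w) → w = 1
  cent : ∀ a ∈ A, a ∉ normalizer (W : Set G) →
    K ≤ centralizer (W.map (MulAut.conj a).toMonoidHom : Set G)

namespace Orb

variable {S A V W K : Subgroup G}

theorem comm (h : Orb S A V W K) {a b : G} (ha : a ∈ A) (hb : b ∈ A) : a * b = b * a :=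
  isElementaryAbelian_comm h.max.2.1 ha hb

theorem sq (h : Orb S A V W K) {w : G} (hw : w ∈ W) : w ^ 2 = 1 :=
  (isElementaryAbelian_iff.1 h.elem).2 w (h.WV hw)

theorem commV (h : Orb S A V W K) {v w : G} (hv : v ∈ V) (hw : w ∈ V) : v * w = w * v :=
  isElementaryAbelian_comm h.elem hv hw

/-- index set of the orbit -/
abbrev Idx (A W : Subgroup G) : Type u := ↥A ⧸ ((normalizer (W : Set G)).subgroupOf A)

/-- the conjugates of `W` -/
noncomputable def fam (A W : Subgroup G) (q : Idx A W) : Subgroup G :=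
  W.map (MulAut.conj ((q.out : ↥A) : G)).toMonoidHom

theorem fam_le (h : Orb S A V W K) (q : Idx A W) : fam A W q ≤ V := by
  rintro _ ⟨w, hw, rfl⟩
  exact Four.conj_mem (h.AV q.out.2) (h.WV hw)

theorem mem_fam {q : Idx A W} {x : G} :
    x ∈ fam A W q ↔ ((q.out : ↥A) : G)⁻¹ * x * ((q.out : ↥A) : G) ∈ W := by
  constructor
  · rintro ⟨w, hw, rfl⟩
    have : ((q.out : ↥A) : G)⁻¹ * ((MulAut.conj ((q.out : ↥A) : G)).toMonoidHom w) *
        ((q.out : ↥A) : G) = w := by
      change ((q.out : ↥A) : G)⁻¹ * (((q.out : ↥A) : G) * w * ((q.out : ↥A) : G)⁻¹) *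
        ((q.out : ↥A) : G) = w
      group
    rw [this]; exact hw
  · intro hx
    refine ⟨_, hx, ?_⟩
    change ((q.out : ↥A) : G) * (((q.out : ↥A) : G)⁻¹ * x * ((q.out : ↥A) : G)) *
      ((q.out : ↥A) : G)⁻¹ = x
    group

/-- for `q ≠ q'`, the conjugate of `K` by the representative of `q` centralizes `fam q'`. -/
theorem cent_fam (h : Orb S A V W K) {q q' : Idx A W} (hq : q ≠ q') {k x : G} (hk : k ∈ K)
    (hx : x ∈ fam A W q') :
    (((q.out : ↥A) : G) * k * ((q.out : ↥A) : G)⁻¹) * x =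
      x * (((q.out : ↥A) : G) * k * ((q.out : ↥A) : G)⁻¹) := by
  set a : G := ((q.out : ↥A) : G) with ha
  set b : G := ((q'.out : ↥A) : G) with hb
  have hab : a⁻¹ * b ∉ normalizer (W : Set G) := by
    intro hn
    apply hq
    rw [← Quotient.out_eq' q, ← Quotient.out_eq' q']
    exact QuotientGroup.eq.2 hn
  have h1 := h.cent (a⁻¹ * b) (mul_mem (inv_mem q.out.2) q'.out.2) hab hk
  rw [mem_centralizer_iff] at h1
  obtain ⟨w, hw, rfl⟩ := hx
  have h2 := h1 ((a⁻¹ * b) * w * (a⁻¹ * b)⁻¹) ⟨w, hw, rfl⟩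
  change (a * k * a⁻¹) * (b * w * b⁻¹) = (b * w * b⁻¹) * (a * k * a⁻¹)
  calc (a * k * a⁻¹) * (b * w * b⁻¹) = a * (k * ((a⁻¹ * b) * w * (a⁻¹ * b)⁻¹)) * a⁻¹ := by group
    _ = a * (((a⁻¹ * b) * w * (a⁻¹ * b)⁻¹) * k) * a⁻¹ := by rw [h2]
    _ = (b * w * b⁻¹) * (a * k * a⁻¹) := by group

/-- an element of `fam q` centralized by the conjugate of `K` is trivial. -/
theorem fpf_fam (h : Orb S A V W K) {q : Idx A W} {x : G} (hx : x ∈ fam A W q)
    (hc : ∀ k ∈ K, (((q.out : ↥A) : G) * k * ((q.out : ↥A) : G)⁻¹) * x =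
      x * (((q.out : ↥A) : G) * k * ((q.out : ↥A) : G)⁻¹)) : x = 1 := by
  set a : G := ((q.out : ↥A) : G) with ha
  have h1 : a⁻¹ * x * a ∈ W := mem_fam.1 hx
  have h2 : a⁻¹ * x * a = 1 := by
    refine h.fpf _ h1 fun k hk => ?_
    have h3 := hc k hk
    calc k * (a⁻¹ * x * a) * k⁻¹ = a⁻¹ * ((a * k * a⁻¹) * x) * (a * k * a⁻¹)⁻¹ * a := by group
      _ = a⁻¹ * (x * (a * k * a⁻¹)) * (a * k * a⁻¹)⁻¹ * a := by rw [h3]
      _ = a⁻¹ * x * a := by group
  calc x = a * (a⁻¹ * x * a) * a⁻¹ := by group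
    _ = 1 := by rw [h2]; group

/-- joins over finite sets not containing `q` are centralized by the conjugate of `K`. -/
theorem cent_sup (h : Orb S A V W K) {q : Idx A W} {s : Finset (Idx A W)} (hq : q ∉ s) {k x : G}
    (hk : k ∈ K) (hx : x ∈ ⨆ r ∈ s, fam A W r) :
    (((q.out : ↥A) : G) * k * ((q.out : ↥A) : G)⁻¹) * x =
      x * (((q.out : ↥A) : G) * k * ((q.out : ↥A) : G)⁻¹) := by
  have h1 : (⨆ r ∈ s, fam A W r) ≤
      centralizer ({((q.out : ↥A) : G) * k * ((q.out : ↥A) : G)⁻¹} : Set G) := by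
    refine iSup₂_le fun r hr y hy => ?_
    rw [mem_centralizer_singleton_iff]
    have hne : q ≠ r := by
      rintro rfl
      exact hq hr
    exact (h.cent_fam hne hk hy).symm
  exact (mem_centralizer_singleton_iff.1 (h1 hx)).symm

theorem sup_le_V (h : Orb S A V W K) (s : Finset (Idx A W)) : (⨆ r ∈ s, fam A W r) ≤ V :=
  iSup₂_le fun r _ => h.fam_le r

theorem inf_sup (h : Orb S A V W K) {q : Idx A W} {s : Finset (Idx A W)} (hq : q ∉ s) :
    fam A W q ⊓ (⨆ r ∈ s, fam A W r) = ⊥ := by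
  rw [eq_bot_iff]
  rintro x ⟨hx1, hx2⟩
  rw [mem_bot]
  exact h.fpf_fam hx1 fun k hk => h.cent_sup hq hk hx2

theorem card_fam (h : Orb S A V W K) (q : Idx A W) : Nat.card (fam A W q) = 4 := by
  rw [fam, card_map_injective _ (MulAut.conj _).injective, h.card]

/-- `|⨆ r ∈ s, W_r| ≥ 4 ^ |s|`. -/
theorem le_card (h : Orb S A V W K) (s : Finset (Idx A W)) :
    4 ^ s.card ≤ Nat.card ↥(⨆ r ∈ s, fam A W r) := by
  classical
  induction s using Finset.induction_on with
  | empty => simp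
  | insert q s hq ih =>
    rw [Finset.card_insert_of_notMem hq, Finset.iSup_insert]
    have hn : fam A W q ≤ normalizer ((⨆ r ∈ s, fam A W r : Subgroup G) : Set G) := by
      refine le_trans ?_ (centralizer_le_normalizer _)
      intro x hx
      rw [mem_centralizer_iff]
      intro y hy
      exact h.commV (h.sup_le_V s hy) (h.fam_le q hx)
    have h1 := card_sup_mul_card_inf hn
    rw [h.inf_sup hq, Subgroup.card_bot, mul_one, h.card_fam q] at h1
    rw [h1, pow_succ, mul_comm]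
    exact Nat.mul_le_mul_left 4 ih

/-- An element of the join centralized by all conjugates of `K` is trivial. -/
theorem eq_one (h : Orb S A V W K) (s : Finset (Idx A W)) {x : G}
    (hx : x ∈ ⨆ r ∈ s, fam A W r)
    (hc : ∀ q : Idx A W, ∀ k ∈ K, (((q.out : ↥A) : G) * k * ((q.out : ↥A) : G)⁻¹) * x =
      x * (((q.out : ↥A) : G) * k * ((q.out : ↥A) : G)⁻¹)) : x = 1 := by
  classical
  induction s using Finset.induction_on with
  | empty => simpa using hx
  | insert q s hq ih =>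
    apply ih
    rw [Finset.iSup_insert] at hx
    obtain ⟨w, hw, y, hy, rfl⟩ : ∃ w ∈ fam A W q, ∃ y ∈ (⨆ r ∈ s, fam A W r), w * y = x := by
      have hn : fam A W q ≤ normalizer ((⨆ r ∈ s, fam A W r : Subgroup G) : Set G) := by
        refine le_trans ?_ (centralizer_le_normalizer _)
        intro x hx
        rw [mem_centralizer_iff]
        intro y hy
        exact h.commV (h.sup_le_V s hy) (h.fam_le q hx)
      rw [← SetLike.mem_coe, coe_mul_of_left_le_normalizer_right _ _ hn] at hx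
      exact hx
    have hw1 : w = 1 := by
      refine h.fpf_fam hw fun k hk => ?_
      have h1 := hc q k hk
      have h2 := h.cent_sup hq hk hy
      set c := ((q.out : ↥A) : G) * k * ((q.out : ↥A) : G)⁻¹ with hcdef
      have h3 : c * w * y = w * c * y := by
        calc c * w * y = c * (w * y) := by group
          _ = w * y * c := h1
          _ = w * (y * c) := by group
          _ = w * (c * y) := by rw [h2]
          _ = w * c * y := by group
      exact mul_right_cancel h3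
    rw [hw1, one_mul]
    exact hy

/-- The elements of `A` normalizing `W` normalize every `fam q`. -/
theorem conj_fam (h : Orb S A V W K) {n : G} (hn : n ∈ A) (hnW : n ∈ normalizer (W : Set G))
    (q : Idx A W) {x : G} (hx : x ∈ fam A W q) : n * x * n⁻¹ ∈ fam A W q := by
  rw [mem_fam] at hx ⊢
  set a : G := ((q.out : ↥A) : G) with ha
  have hna : n * a = a * n := h.comm hn q.out.2
  have h1 : a⁻¹ * (n * x * n⁻¹) * a = n * (a⁻¹ * x * a) * n⁻¹ := by
    have h2 : a⁻¹ * n = n * a⁻¹ := by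
      calc a⁻¹ * n = a⁻¹ * (n * a) * a⁻¹ := by group
        _ = a⁻¹ * (a * n) * a⁻¹ := by rw [hna]
        _ = n * a⁻¹ := by group
    have h3 : n⁻¹ * a = a * n⁻¹ := by
      calc n⁻¹ * a = n⁻¹ * (a * n) * n⁻¹ := by group
        _ = n⁻¹ * (n * a) * n⁻¹ := by rw [hna]
        _ = a * n⁻¹ := by group
    calc a⁻¹ * (n * x * n⁻¹) * a = (a⁻¹ * n) * x * (n⁻¹ * a) := by group
      _ = (n * a⁻¹) * x * (a * n⁻¹) := by rw [h2, h3]
      _ = n * (a⁻¹ * x * a) * n⁻¹ := by group
  rw [h1]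
  exact Four.conj_mem hnW hx

/-- the class of `1` -/
def q0 (A W : Subgroup G) : Idx A W := ((1 : ↥A) : Idx A W)

theorem fam_q0 : fam A W (q0 A W) = W := by
  have h1 : (((q0 A W).out : ↥A) : G) ∈ normalizer (W : Set G) := by
    have h2 : (((q0 A W).out : ↥A) : Idx A W) = ((1 : ↥A) : Idx A W) := Quotient.out_eq' _
    have h3 := QuotientGroup.eq.1 h2.symm
    have h4 : (1 : ↥A)⁻¹ * (q0 A W).out = (q0 A W).out := by group
    rw [h4] at h3
    exact h3
  exact map_conj_eq_of_mem_normalizer h1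

/-- **The orbit lemma.** -/
theorem le_normalizer (h : Orb S A V W K) (hS : IsPGroup 2 S) : A ≤ normalizer (W : Set G) := by
  classical
  have : Fintype (Idx A W) := Fintype.ofFinite _
  set N := A ⊓ normalizer (W : Set G) with hN
  set U : Subgroup G := ⨆ r ∈ (Finset.univ : Finset (Idx A W)), fam A W r with hU
  set U' : Subgroup G := ⨆ r ∈ (Finset.univ.erase (q0 A W) : Finset (Idx A W)), fam A W r with hU'
  have hUV : U ≤ V := h.sup_le_V _
  have hU'V : U' ≤ V := h.sup_le_V _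
  have hWU : W ⊔ U' = U := by
    rw [hU, ← Finset.insert_erase (Finset.mem_univ (q0 A W)), Finset.iSup_insert, fam_q0]
  have hWU' : W ⊓ U' = ⊥ := by
    have h1 := h.inf_sup (q := q0 A W) (s := Finset.univ.erase (q0 A W)) (by simp)
    rwa [fam_q0] at h1
  have hA2 : IsPGroup 2 A := hS.to_le h.max.1
  set m := (normalizer (W : Set G)).relIndex A with hm
  have hmcard : (Finset.univ : Finset (Idx A W)).card = m := by
    rw [Finset.card_univ, ← Nat.card_eq_fintype_card]
    rfl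
  -- lower bound
  have hlow : 4 ^ m ≤ Nat.card U := by rw [← hmcard]; exact h.le_card _
  -- `C = C_A(W)` centralizes `U`
  set C := A ⊓ centralizer (W : Set G) with hC
  have hCU : C ≤ centralizer (U : Set G) := by
    rw [le_centralizer_iff]
    refine iSup₂_le fun q _ x hx => ?_
    rw [mem_centralizer_iff]
    intro c hc
    obtain ⟨hc1, hc2⟩ := mem_inf.1 hc
    rw [mem_fam] at hx
    set a : G := ((q.out : ↥A) : G) with ha
    have h1 := mem_centralizer_iff.1 hc2 _ hx
    have h2 : c * a = a * c := h.comm hc1 q.out.2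
    have h3 : c * (a * (a⁻¹ * x * a) * a⁻¹) * c⁻¹ = a * (a⁻¹ * x * a) * a⁻¹ := by
      calc c * (a * (a⁻¹ * x * a) * a⁻¹) * c⁻¹ = (c * a) * (a⁻¹ * x * a) * (c * a)⁻¹ := by group
        _ = a * (c * (a⁻¹ * x * a)) * c⁻¹ * a⁻¹ := by rw [h2]; group
        _ = a * (a⁻¹ * x * a) * a⁻¹ := by rw [← h1]; group
    have h4 : a * (a⁻¹ * x * a) * a⁻¹ = x := by group
    rw [h4] at h3
    exact Four.conj_eq_iff_comm.1 h3
  obtain ⟨-, -, hcount⟩ := isMaxIn_count h.max (hUV.trans h.VS)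
    (isElementaryAbelian_mono h.elem hUV) (inf_le_left : C ≤ A) hCU
  -- fixed points of `A` on `U`
  have hnormU' : ∀ n ∈ N, ∀ x ∈ U', n * x * n⁻¹ ∈ U' := by
    intro n hn x hx
    obtain ⟨hn1, hn2⟩ := mem_inf.1 hn
    have h1 : U' ≤ U'.comap (MulAut.conj n).toMonoidHom := by
      refine iSup₂_le fun r hr y hy => ?_
      rw [mem_comap]
      exact (le_iSup₂ (f := fun r (_ : r ∈ (Finset.univ.erase (q0 A W) : Finset (Idx A W))) =>
        fam A W r) r hr) (h.conj_fam hn1 hn2 r hy)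
    exact h1 hx
  have hfix1 : ∀ x ∈ U', (∀ a ∈ A, a * x * a⁻¹ = x) → x = 1 := by
    intro x hx hfix
    refine h.eq_one _ hx fun q k hk => ?_
    set a : G := ((q.out : ↥A) : G) with ha
    have h1 := h.cent_sup (q := q0 A W) (s := Finset.univ.erase (q0 A W)) (by simp) hk hx
    set b : G := (((q0 A W).out : ↥A) : G) with hb
    -- conjugate by `a b⁻¹`
    have h2 : (a * b⁻¹) * x * (a * b⁻¹)⁻¹ = x :=
      hfix _ (mul_mem q.out.2 (inv_mem (q0 A W).out.2))
    calc (a * k * a⁻¹) * x = (a * k * a⁻¹) * ((a * b⁻¹) * x * (a * b⁻¹)⁻¹) := by rw [h2]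
      _ = (a * b⁻¹) * ((b * k * b⁻¹) * x) * (a * b⁻¹)⁻¹ := by group
      _ = (a * b⁻¹) * (x * (b * k * b⁻¹)) * (a * b⁻¹)⁻¹ := by rw [h1]
      _ = ((a * b⁻¹) * x * (a * b⁻¹)⁻¹) * (a * k * a⁻¹) := by group
      _ = x * (a * k * a⁻¹) := by rw [h2]
  -- the decomposition of the elements of `U`
  have hdec : ∀ u : ↥(U ⊓ centralizer (A : Set G)), ∃ w : ↥(W ⊓ centralizer (N : Set G)),
      (w : G)⁻¹ * u ∈ U' := by
    rintro ⟨u, hu1, hu2⟩
    have hu1' : u ∈ W ⊔ U' := by rw [hWU]; exact hu1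
    have hn : W ≤ normalizer (U' : Set G) := by
      refine le_trans ?_ (centralizer_le_normalizer _)
      intro x hx
      rw [mem_centralizer_iff]
      intro y hy
      exact h.commV (hU'V hy) (h.WV hx)
    rw [← SetLike.mem_coe, coe_mul_of_left_le_normalizer_right _ _ hn] at hu1'
    obtain ⟨w, hw, y, hy, hwy⟩ := hu1'
    change w * y = u at hwy
    refine ⟨⟨w, hw, ?_⟩, ?_⟩
    · change w ∈ centralizer (N : Set G)
      rw [mem_centralizer_iff]
      intro n hnN
      obtain ⟨hn1, hn2⟩ := mem_inf.1 hnN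
      have h1 := mem_centralizer_iff.1 hu2 n hn1
      have h2 : n * u * n⁻¹ = u := by rw [h1]; group
      have h3 : n * w * n⁻¹ ∈ W := Four.conj_mem hn2 hw
      have h4 : n * y * n⁻¹ ∈ U' := hnormU' n hnN y hy
      have h5 : (n * w * n⁻¹) * (n * y * n⁻¹) = w * y := by
        calc (n * w * n⁻¹) * (n * y * n⁻¹) = n * (w * y) * n⁻¹ := by group
          _ = w * y := by rw [hwy, h2]
      have h6 : w⁻¹ * (n * w * n⁻¹) = y * (n * y * n⁻¹)⁻¹ := by
        calc w⁻¹ * (n * w * n⁻¹) = w⁻¹ * ((n * w * n⁻¹) * (n * y * n⁻¹)) * (n * y * n⁻¹)⁻¹ := by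
              group
          _ = y * (n * y * n⁻¹)⁻¹ := by rw [h5]; group
      have h7 : w⁻¹ * (n * w * n⁻¹) ∈ W ⊓ U' :=
        mem_inf.2 ⟨mul_mem (inv_mem hw) h3, h6 ▸ mul_mem hy (inv_mem h4)⟩
      rw [hWU', mem_bot] at h7
      have h8 : n * w * n⁻¹ = w := (inv_mul_eq_one.1 h7).symm
      exact Four.conj_eq_iff_comm.1 h8
    · change w⁻¹ * u ∈ U'
      rw [← hwy]
      have : w⁻¹ * (w * y) = y := by group
      rw [this]; exact hy
  choose φ hφ using hdec
  have hφinj : Function.Injective φ := by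
    intro u v huv
    have h1 := hφ u
    have h2 := hφ v
    rw [huv] at h1
    have h3 : (u : G)⁻¹ * v ∈ U' := by
      have h4 := mul_mem (inv_mem h1) h2
      have h5 : (((φ v : ↥(W ⊓ centralizer (N : Set G))) : G)⁻¹ * (u : G))⁻¹ *
          (((φ v : ↥(W ⊓ centralizer (N : Set G))) : G)⁻¹ * v) = (u : G)⁻¹ * v := by group
      rwa [h5] at h4
    have h4 : (u : G)⁻¹ * v = 1 := by
      refine hfix1 _ h3 fun a ha => ?_
      have h5 : (u : G)⁻¹ * v ∈ centralizer (A : Set G) :=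
        mul_mem (inv_mem (mem_inf.1 u.2).2) (mem_inf.1 v.2).2
      exact Four.conj_eq_iff_comm.2 (mem_centralizer_iff.1 h5 a ha)
    exact Subtype.ext (inv_mul_eq_one.1 h4)
  have hfixcard : Nat.card ↥(U ⊓ centralizer (A : Set G)) ≤
      Nat.card ↥(W ⊓ centralizer (N : Set G)) := Nat.card_le_card_of_injective φ hφinj
  -- `C ⊓ U ≤ C_U(A)`
  have hCle : C ⊓ U ≤ U ⊓ centralizer (A : Set G) := by
    rintro x ⟨⟨hx1, -⟩, hx2⟩
    refine ⟨hx2, mem_centralizer_iff.2 fun a ha => h.comm ha hx1⟩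
  have hCcard : Nat.card ↥(C ⊓ U) ≤ Nat.card ↥(W ⊓ centralizer (N : Set G)) :=
    (Nat.le_of_dvd Nat.card_pos (card_dvd_of_le hCle)).trans hfixcard
  -- `|A : C| = m |N : C|`
  have hCN : C ≤ N := inf_le_inf_left A (centralizer_le_normalizer _)
  have hidx : C.relIndex A = m * C.relIndex N := by
    rw [← relIndex_mul_relIndex C N A hCN inf_le_left, hN, inf_relIndex_left, mul_comm]
  have hCN' : C.relIndex N = (centralizer (W : Set G)).relIndex N := by
    have h1 : C = N ⊓ centralizer (W : Set G) := by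
      rw [hN, inf_assoc, inf_eq_right.2 (centralizer_le_normalizer (W : Set G))]
    rw [h1, inf_relIndex_left]
  have hN2 : IsPGroup 2 N := hA2.to_le inf_le_left
  have hfour : C.relIndex N * Nat.card ↥(W ⊓ centralizer (N : Set G)) ≤ 4 := by
    rw [hCN']
    rcases Plane.relIndex_le_two h.card (inf_le_right : N ≤ normalizer (W : Set G)) hN2 with
      h1 | h1
    · rw [h1, one_mul, ← h.card]
      exact Nat.le_of_dvd Nat.card_pos (card_dvd_of_le inf_le_left)
    · rw [h1]
      have h2 : Nat.card ↥(W ⊓ centralizer (N : Set G)) ∣ 2 ^ 2 := by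
        have := card_dvd_of_le (inf_le_left : W ⊓ centralizer (N : Set G) ≤ W)
        rwa [h.card] at this
      obtain ⟨l, hl, hl'⟩ := (Nat.dvd_prime_pow Nat.prime_two).1 h2
      have h3 : l ≠ 2 := by
        rintro rfl
        have h4 : W ⊓ centralizer (N : Set G) = W :=
          Subgroup.eq_of_le_of_card_ge inf_le_left (by rw [hl', h.card]; norm_num)
        rw [inf_eq_left] at h4
        have h5 : (centralizer (W : Set G)).relIndex N = 1 :=
          relIndex_eq_one.2 (le_centralizer_iff.1 h4)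
        rw [h5] at h1
        exact absurd h1 (by norm_num)
      rw [hl']
      have h6 : l ≤ 1 := by omega
      calc 2 * 2 ^ l ≤ 2 * 2 ^ 1 := Nat.mul_le_mul_left _ (Nat.pow_le_pow_right (by norm_num) h6)
        _ = 4 := by norm_num
  -- conclusion
  have hfin : 4 ^ m ≤ m * 4 := by
    calc 4 ^ m ≤ Nat.card U := hlow
      _ ≤ C.relIndex A * Nat.card ↥(C ⊓ U) := hcount
      _ ≤ C.relIndex A * Nat.card ↥(W ⊓ centralizer (N : Set G)) := Nat.mul_le_mul_left _ hCcard
      _ = m * (C.relIndex N * Nat.card ↥(W ⊓ centralizer (N : Set G))) := by rw [hidx]; ring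
      _ ≤ m * 4 := Nat.mul_le_mul_left _ hfour
  have hm1 : m ≤ 1 := by
    by_contra hcon
    have h1 : ∀ n : ℕ, 2 ≤ n → n * 4 < 4 ^ n := by
      intro n hn
      induction n, hn using Nat.le_induction with
      | base => norm_num
      | succ n hn ih => rw [pow_succ]; omega
    have h2 := h1 m (by omega)
    omega
  have hm0 : m ≠ 0 := index_ne_zero_of_finite
  exact relIndex_eq_one.1 (by omega)

end Orb

end Cfsg.Agent.H250.JBasic
end

-- part: H250/JZero
section
/-!
# S2945: `K ∈ 𝒦₀(Tᵍ)` subnormal in `⟨K, J(T)⟩ ≤ L ∈ jOvergroups T` is a J(T)-component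
-/

set_option autoImplicit false
set_option linter.style.haveILetI false
set_option linter.unusedSectionVars false

namespace Cfsg.Agent.H250.JBasic

open Subgroup Cfsg
open Cfsg.Agent.ZN
open Cfsg.Agent.PLocal.ThompsonJ

universe u

variable {G : Type u} [Group G] [Finite G] {T L K : Subgroup G}

/-- If `J(T) ≤ S ≤ L`, `T` is Sylow in `L` and `S` is a 2-group, then `J(S) = J(T)`. -/
theorem jj_eq_of_le_sylow (hT : IsSylowTwoIn T L) {S : Subgroup G} (hS : IsPGroup 2 S)
    (hSL : S ≤ L) (hJS : jj T ≤ S) : jj S = jj T := by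
  obtain ⟨T₁, hT₁, hST₁⟩ := exists_isSylowTwoIn hS hSL
  obtain ⟨l, hl, hlT⟩ := isSylowTwoIn_conj hT hT₁
  have h1 : jj T₁ = (jj T).map (MulAut.conj l).toMonoidHom := by
    rw [← hlT, jj_map _ (MulAut.conj l).injective]
  have h2 : jj T₁ = jj T := by
    refine jj_unique (hJS.trans hST₁) l⁻¹ ?_
    rw [h1, Subgroup.map_map]
    ext x
    constructor
    · rintro ⟨y, hy, rfl⟩
      simpa [mul_assoc] using hy
    · intro hx
      exact ⟨x, hx, by simp [mul_assoc]⟩
  rw [← h2]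
  exact jj_eq_of_le (h2 ▸ hJS) hST₁

/-- A subnormal `K` with the intrinsic properties of a J(T)-component: the largest elementary abelian
subgroups of a Sylow 2-subgroup of `X` normalize `W_K`. -/
theorem KC.le_normalizer_wOf {X S : Subgroup G} (h : KC K) (hKX : K ≤ X)
    (hsn : (K.subgroupOf X).IsSubnormal) (hS : IsSylowTwoIn S X) {A : Subgroup G}
    (hA : IsMaxIn S A) : A ≤ normalizer (wOf K : Set G) := by
  have hf := X.subtype_injective
  have hK : (K.subgroupOf X).map X.subtype = K := by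
    rw [subgroupOf_map_subtype, inf_eq_left.2 hKX]
  have h' : KC (K.subgroupOf X) := KC.of_map X.subtype hf (by rw [hK]; exact h)
  have hQS : o2 X ≤ S := o2_le_of_sylow hS.1 hS.2.1 (IsSylowTwoIn.not_dvd hS)
  have hAX : A ≤ X := hA.1.trans hS.1
  have hW : (wOf (K.subgroupOf X)).map X.subtype = wOf K := by
    rw [← wOf_map X.subtype hf, hK]
  have hO : Orb S A (zc (o2 X)) (wOf K) K := {
    max := hA
    VS := (zc_le _).trans hQS
    elem := isElementaryAbelian_zc _
    AV := hAX.trans ((le_normalizer_o2 X).trans (normalizer_le_normalizer_zc _))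
    WV := by
      have h1 := h'.wOf_le_zc_pCore hsn
      have h2 : (zc (pCore 2 ↥X)).map X.subtype = zc (o2 X) := (zc_map X.subtype hf _).symm
      rw [← h2, ← hW]
      exact Subgroup.map_mono h1
    card := h.cardW
    fpf := by
      intro w hw hfix
      by_contra hw1
      obtain ⟨d, hd, -, hd2⟩ := h.exists_d
      exact h.conj_ne hd hd2 hw hw1 (hfix d hd)
    cent := by
      intro a ha haW
      set a' : ↥X := ⟨a, hAX ha⟩ with ha'
      set K₂ := (K.subgroupOf X).map (MulAut.conj a').toMonoidHom with hK₂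
      have h₂ : KC K₂ := h'.map _ (MulAut.conj a').injective
      have hsn₂ : K₂.IsSubnormal := hsn.map (MulAut.conj a').surjective
      have hK₂W : (wOf K₂).map X.subtype = (wOf K).map (MulAut.conj a).toMonoidHom := by
        rw [hK₂, wOf_map _ (MulAut.conj a').injective, Subgroup.map_map, ← hW, Subgroup.map_map]
        rfl
      have hne : wOf (K.subgroupOf X) ≠ wOf K₂ := by
        intro h1
        apply haW
        apply mem_normalizer_of_map_conj_eq
        rw [← hK₂W, ← h1, hW]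
      have h1 := h'.centralizes hsn h₂ hsn₂ hne
      have h2 := (le_centralizer_map_iff X.subtype hf _ _).2 h1
      rwa [hK, hK₂W] at h2 }
  exact hO.le_normalizer hS.2.1

/-- **S2945.** -/
theorem zero_of_conj (hG : ZNHyp G) (hT : IsPGroup 2 T) (hL : L ∈ jOvergroups T) (hKL : K ≤ L)
    (hsn : (K.subgroupOf (K ⊔ jj T)).IsSubnormal) (g : G)
    (hKg : K ∈ jComponentsZero (T.map (MulAut.conj g).toMonoidHom)) : JC (jj T) K := by
  obtain ⟨hTL, -, -⟩ := mem_jOvergroups_iff.1 hL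
  have h : KC K := (jZero_iff.1 hKg).1.kc
  have hT' : IsPGroup 2 (T.map (MulAut.conj g).toMonoidHom) := hT.map _
  have hXL : K ⊔ jj T ≤ L := sup_le hKL ((jj_le T).trans hTL.1)
  obtain ⟨S, hS, hJS⟩ := exists_isSylowTwoIn (hT.to_le (jj_le T)) (le_sup_right : jj T ≤ K ⊔ jj T)
  have hjS : jj S = jj T := jj_eq_of_le_sylow hTL hS.2.1 (hS.1.trans hXL) hJS
  have hJN : jj T ≤ normalizer (wOf K : Set G) := by
    rw [← hjS]
    exact jj_le_of_forall fun A hA => h.le_normalizer_wOf le_sup_left hsn hS hA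
  have hTT : (T.map (MulAut.conj g).toMonoidHom).map (MulAut.conj g⁻¹).toMonoidHom = T := by
    rw [Subgroup.map_map]
    ext x
    constructor
    · rintro ⟨y, hy, rfl⟩
      simpa [mul_assoc] using hy
    · intro hx
      exact ⟨x, hx, by simp [mul_assoc]⟩
  have h1 := zero_conj hG hT' hKg g⁻¹ (by rw [hTT]; exact hJN)
  rwa [hTT] at h1

end Cfsg.Agent.H250.JBasic
end

-- part: S2945
section
set_option autoImplicit false
open Cfsg

namespace Cfsg.Agent.S2945

open Cfsg.Agent.H250.JBasic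

/-- Let G be a finite group of characteristic 2 type in which every 2-local subgroup is solvable and the centralizer of Ω₁(Z(S)) lies in N_G(S) for every Sylow 2-subgroup S, and let T be a nontrivial 2-subgroup (below, J is the Thompson subgroup generated by the elementary abelian 2-subgroups of largest order), L a subgroup in which T is a Sylow 2-subgroup with J(T) not contained in O₂(L) and C_G(O₂(L)) ≤ O₂(L), and K ≤ L a subgroup that is subnormal in ⟨K, J(T)⟩. If for some conjugate Tᵍ of T, K is a J(Tᵍ)-component with J(Tᵍ) the Thompson subgroup of every Sylow 2-subgroup of N_G(W_K) containing J(Tᵍ) (W_K = [Ω₁(Z(O₂(K))), K]), then K is a J(T)-component. -/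
theorem result {G : Type*} [Group G] [Finite G] (hL : Cfsg.IsCharacteristicTwoType G) (hN : ∀ N : Subgroup G, Cfsg.IsTwoLocal N → Group.IsSolvable ↥N)
    (hZ : ∀ S : Sylow 2 G, Subgroup.centralizer (Cfsg.omegaCenterOf (S : Subgroup G) : Set G) ≤ Subgroup.normalizer ((S : Subgroup G) : Set G)) (T : Subgroup G) (hT : IsPGroup 2 ↥T) (hT1 : T ≠ ⊥) (L : Subgroup G) (hLT : L ∈ Cfsg.jOvergroups T)
    (K : Subgroup G) (hKL : K ≤ L) (hKsn : (K.subgroupOf (K ⊔ Cfsg.thompsonSubgroupOf 2 T)).IsSubnormal)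
    (g : G) (hKg : K ∈ Cfsg.jComponentsZero (T.map (MulAut.conj g).toMonoidHom)) : Cfsg.IsJComponent T K := by
  exact isJComponent_iff.2 (zero_of_conj ⟨hL, hN, hZ⟩ hT hLT hKL hKsn g hKg)

end Cfsg.Agent.S2945
end
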