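import Cfsg.Statements.S2947
import Cfsg.Agent.H251.ZN
set_option linter.all false

set_option autoImplicit false
open Cfsg

namespace Cfsg.Agent.S2947

open Subgroup Cfsg.Agent.H251

theorem normalizer_le_of_stronglyEmbedded {G : Type*} [Group G] [Finite G] {M : Subgroup G}
    (hM : IsStronglyEmbedded M) {X : Subgroup G} (hX : IsPGroup 2 X) (hX1 : X ≠ ⊥) (hXM : X ≤ M) :
    normalizer (X : Set G) ≤ M := by
  intro g hg
  by_contra hgM
  have h1 := hM.2.2 g hgM
  have h2 : X ≤ M ⊓ M.map (MulAut.conj g).toMonoidHom := by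
    refine le_inf hXM ?_
    have : cj g X = X := cj_eq_self_iff.2 hg
    rw [← this]
    exact cj_mono hXM
  have h4 := (two_dvd_card hX hX1).trans (Subgroup.card_dvd_of_le h2)
  exact (Nat.not_even_iff_odd.2 h1) (even_iff_two_dvd.2 h4)

/-- Let G be a finite group of characteristic 2 type in which every 2-local subgroup is solvable and the centralizer of Ω₁(Z(S)) lies in N_G(S) for every Sylow 2-subgroup S; suppose O₂(G) = 1, fix a Sylow 2-subgroup S and a 2-local subgroup M containing N_G(J(S)) (J the Thompson subgroup generated by the elementary abelian 2-subgroups of largest order). Then M is strongly embedded in G (a proper subgroup of even order whose intersection with each conjugate by an element outside M has odd order) if and only if no nontrivial 2-subgroup of M lies in a 2-local subgroup of G not contained in M. -/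
theorem result {G : Type*} [Group G] [Finite G] (hL : Cfsg.IsCharacteristicTwoType G) (hN : ∀ N : Subgroup G, Cfsg.IsTwoLocal N → Group.IsSolvable ↥N)
    (hZ : ∀ S : Sylow 2 G, Subgroup.centralizer (Cfsg.omegaCenterOf (S : Subgroup G) : Set G) ≤ Subgroup.normalizer ((S : Subgroup G) : Set G)) (hO : Cfsg.pCore 2 G = ⊥) (S : Sylow 2 G) (M : Subgroup G) (hM : Cfsg.IsTwoLocal M)
    (hMJ : Subgroup.normalizer (Cfsg.thompsonSubgroupOf 2 (S : Subgroup G) : Set G) ≤ M) :
    Cfsg.IsStronglyEmbedded M ↔ Cfsg.straddlingTwoSubgroups M = ∅ := by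
  have hset : MSetup (S : Subgroup G) M :=
    ⟨⟨hL, hN, hZ⟩, hO, sylow_isSylowTwoIn S, hM, hMJ⟩
  constructor
  · intro hSE
    rw [Set.eq_empty_iff_forall_notMem]
    rintro T ⟨hTp, hT1, hTM, L, ⟨U, hU, hU1, rfl⟩, hTL, hLM⟩
    apply hLM
    obtain ⟨x, hx, hx1, hxT⟩ := exists_fixed_omegaCenterOf hTp hU hU1 hTL
    have hxM : x ∈ M :=
      normalizer_le_of_stronglyEmbedded hSE hTp hT1 hTM (centralizer_le_normalizer _ hxT)
    have hX : IsPGroup 2 (Subgroup.zpowers x) := by
      apply isPGroup_of_pow_two
      intro y hy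
      obtain ⟨n, rfl⟩ := Subgroup.mem_zpowers_iff.1 hy
      rw [← zpow_natCast, ← zpow_mul, mul_comm, zpow_mul, zpow_natCast, omegaCenterOf_pow hx,
        one_zpow]
    have hX1 : Subgroup.zpowers x ≠ ⊥ := by
      rwa [Ne, Subgroup.zpowers_eq_bot]
    have h1 := normalizer_le_of_stronglyEmbedded hSE hX hX1 (by rwa [Subgroup.zpowers_le])
    have hUx : U ≤ centralizer (Subgroup.zpowers x : Set G) := by
      intro u hu
      rw [mem_centralizer_iff]
      intro y hy
      obtain ⟨n, rfl⟩ := Subgroup.mem_zpowers_iff.1 hy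
      have h2 : Commute u x := mem_centralizer_iff.1 (omegaCenterOf_le_centralizer U hx) u hu
      exact (h2.zpow_right n).symm
    have hUM : U ≤ M := (hUx.trans (centralizer_le_normalizer _)).trans h1
    exact normalizer_le_of_stronglyEmbedded hSE hU hU1 hUM
  · intro hemp
    refine ⟨hset.M_ne_top, ?_, ?_⟩
    · rw [even_iff_two_dvd]
      exact (two_dvd_card hset.syl.2.1 (sylow_ne_bot hL hset.syl)).trans
        (Subgroup.card_dvd_of_le hset.S_le)
    · intro g hg
      by_contra hodd
      rw [Nat.not_odd_iff_even, even_iff_two_dvd] at hodd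
      apply hg
      obtain ⟨T, hT⟩ := exists_isSylowTwoIn (M ⊓ cj g M)
      have hT1 : T ≠ ⊥ := by
        rintro rfl
        have h1 := hT.2.2
        rw [relIndex_bot_left] at h1
        exact (Nat.not_even_iff_odd.2 h1) (even_iff_two_dvd.2 hodd)
      have h2 : cj g M ≤ M := by
        by_contra h3
        have : T ∈ straddlingTwoSubgroups M :=
          ⟨hT.2.1, hT1, hT.1.trans inf_le_left, cj g M, isTwoLocal_cj hM g, hT.1.trans inf_le_right, h3⟩
        rw [hemp] at this
        exact this
      have h3 := mem_normalizer_of_cj_le h2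
      rwa [hset.normalizer_M] at h3

end Cfsg.Agent.S2947
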