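import Cfsg.Agent.H251.Bridge
import Cfsg.Statements.S2953
set_option linter.all false

-- part: H251/Pair
section
/-!
The two `J(T)`-components of the structure theorem (S2953).
-/

set_option autoImplicit false
set_option linter.unusedSectionVars false

namespace Cfsg.Agent.H251

open Cfsg Subgroup
open scoped Pointwise commutatorElement

variable {G : Type*} [Group G] [Finite G]

namespace Half

variable {T E P : Subgroup G} {e : ℕ}

/-- `|C_E(x)| = e`. -/
theorem card_fix (h : Half T E P e) {x : G} (hxP : x ∈ P) (hx : orderOf x = 3) :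
    Nat.card ↥(E ⊓ centralizer (zpowers x : Set G)) = e := by
  have h2 : ⁅E, zpowers x⁆ ≤ normalizer ((E ⊓ centralizer (zpowers x : Set G) : Subgroup G) : Set G) := by
    refine (h.comm_le_E hxP).trans (le_normalizer_of_forall_cj_le fun g hg => ?_)
    intro z hz
    rw [mem_cj] at hz
    have h3 : g⁻¹ * z * g = z := by
      have hzE : z ∈ E := by
        have := E.mul_mem (E.mul_mem hg hz.1) (E.inv_mem hg)
        have h4 : g * (g⁻¹ * z * g) * g⁻¹ = z := by group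
        rwa [h4] at this
      rw [mul_assoc, h.comm hzE hg]; group
    rwa [h3] at hz
  have h3 := card_sup_mul_card_inf h2
  rw [h.fix_sup hxP hx, h.fix_inf hxP hx, card_bot, mul_one, h.cE, h.card_comm hxP hx] at h3
  omega

theorem relIndex_six (h : Half T E P e) : (pCoreOf 2 P).relIndex P = 6 := by
  have h1 := card_mul_relIndex (pCoreOf_le P)
  rw [h.pCoreOf_eq, h.cE, h.cP] at h1
  have := h.epos
  have h2 : (pCoreOf 2 P).relIndex P = E.relIndex P := by rw [h.pCoreOf_eq]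
  rw [h2]
  apply Nat.eq_of_mul_eq_mul_left (show 0 < 4 * e by omega)
  rw [h1]; ring

theorem not_commutator_le (h : Half T E P e) : ¬ ⁅P, P⁆ ≤ pCoreOf 2 P := by
  intro h1
  apply h.not_oddGen_le
  rw [← h.commutator_eq]
  refine (commutator_mono (oddGen_le P) h.le').trans (h1.trans ?_)
  rw [h.pCoreOf_eq]
  exact h.le

theorem not_centralizes (h : Half T E P e) {Z : Subgroup G} (hZ : Z ≤ E)
    (hc : e < Nat.card Z) : ⁅Z, P⁆ ≠ ⊥ := by
  intro h1
  rw [commutator_eq_bot_iff_le_centralizer] at h1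
  obtain ⟨x, hxP, hx⟩ := h.exists_three
  have h2 : Z ≤ E ⊓ centralizer (zpowers x : Set G) := by
    refine le_inf hZ (h1.trans (centralizer_le ?_))
    show ((zpowers x : Subgroup G) : Set G) ⊆ P
    exact (by rwa [zpowers_le] : zpowers x ≤ P)
  have h3 := Subgroup.card_le_of_le h2
  rw [h.card_fix hxP hx] at h3
  omega

end Half

theorem half_of_dat {e : ℕ} {T U₁ U₂ : Subgroup G} (h : H252.ZNData.Dat e T U₁ U₂) :
    Half T U₁ (normalizer (U₁ : Set G)) e := by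
  have e₁ := H252.ZNCross.isElem_of h.cross.elem₁
  refine ⟨h.he, h.cross.le₁, h.cross.norm₁, le_rfl, h.cross.cardT, h.cross.card₁, h.norm₁, e₁,
    cent_eq h.cross.cent₁ e₁, ?_⟩
  intro hcon
  have h1 : normalizer (U₁ : Set G) ≤ T := by
    conv_rhs => rw [← h.normalizer_inf]
    exact le_inf hcon le_rfl
  have h2 := Subgroup.card_le_of_le h1
  rw [h.norm₁, h.cross.cardT] at h2
  have := h.cross.pos
  omega

/-- The assertions of S2953 on one of the two. -/
theorem half_all {e : ℕ} {T U₁ U₂ : Subgroup G} (hL : IsCharacteristicTwoType G)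
    (h : H252.ZNData.Dat e T U₁ U₂) {P : Subgroup G} (hP : P = normalizer (U₁ : Set G)) :
    centralizer (pCoreOf 2 P : Set G) ≤ pCoreOf 2 P ∧ IsSylowTwoIn T P ∧
      (pCoreOf 2 P).relIndex P = 6 ∧ ¬ ⁅P, P⁆ ≤ pCoreOf 2 P ∧ ⁅omegaCenterOf T, P⁆ ≠ ⊥ ∧
        ∃ L : Subgroup G, IsMaximalTwoLocal L ∧ P ≤ L ∧ IsSylowTwoIn T L ∧
          ∀ L' : Subgroup G, IsMaximalTwoLocal L' → P ≤ L' → L' = L := by
  subst hP
  have hh := half_of_dat h
  have hz : omegaCenterOf T = U₁ ⊓ U₂ := h.cross.zc_eq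
  refine ⟨centralizer_pCoreOf_le hL h.max₁.1, hh.sylow, hh.relIndex_six, hh.not_commutator_le, ?_,
    normalizer (U₁ : Set G), h.max₁, le_rfl, hh.sylow, fun L' hL' hle => h.max₁.2 L' hL'.1 hle⟩
  apply hh.not_centralizes
  · rw [hz]; exact inf_le_left
  · rw [hz, h.cross.card_inf]
    have := h.cross.pos
    omega

theorem exists_pair {e : ℕ} {T U₁ U₂ : Subgroup G} (hL : IsCharacteristicTwoType G)
    (h : H252.ZNData.Dat e T U₁ U₂) :
    ∃ K₁ K₂ : Subgroup G, K₁ ≠ K₂ ∧ IsJComponent T K₁ ∧ IsJComponent T K₂ ∧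
      pCoreOf 2 ((K₁ ⊔ T) ⊔ (K₂ ⊔ T)) = ⊥ ∧
      ∀ P ∈ [K₁ ⊔ T, K₂ ⊔ T],
        centralizer (pCoreOf 2 P : Set G) ≤ pCoreOf 2 P ∧ IsSylowTwoIn T P ∧
        (pCoreOf 2 P).relIndex P = 6 ∧ ¬ ⁅P, P⁆ ≤ pCoreOf 2 P ∧ ⁅omegaCenterOf T, P⁆ ≠ ⊥ ∧
        ∃ L : Subgroup G, IsMaximalTwoLocal L ∧ P ≤ L ∧ IsSylowTwoIn T L ∧
          ∀ L' : Subgroup G, IsMaximalTwoLocal L' → P ≤ L' → L' = L := by
  have h₁ := half_of_dat h
  have h₂ := half_of_dat h.symm
  have hne : normalizer (U₁ : Set G) ≠ normalizer (U₂ : Set G) := by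
    intro h3
    apply h.cross.ne
    rw [← h₁.pCoreOf_eq, ← h₂.pCoreOf_eq, h3]
  refine ⟨oddGen (normalizer (U₁ : Set G)), oddGen (normalizer (U₂ : Set G)), ?_,
    h₁.isJComponent h.cross.jj_eq, h₂.isJComponent h.cross.jj_eq, ?_, ?_⟩
  · intro h3
    apply hne
    rw [← h₁.oddGen_sup_T, ← h₂.oddGen_sup_T, h3]
  · rw [h₁.oddGen_sup_T, h₂.oddGen_sup_T]
    by_contra h3
    apply hne
    have h4 := isTwoLocal_normalizer (pCoreOf_isPGroup _) h3
    have h5 := h.max₁.2 _ h4 (le_sup_left.trans (le_normalizer_pCoreOf _))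
    have h6 := h.max₂.2 _ h4 (le_sup_right.trans (le_normalizer_pCoreOf _))
    exact h5.symm.trans h6
  · intro P hP
    simp only [List.mem_cons, List.not_mem_nil, or_false] at hP
    rcases hP with rfl | rfl
    · exact half_all hL h h₁.oddGen_sup_T
    · exact half_all hL h.symm h₂.oddGen_sup_T

end Cfsg.Agent.H251
end

-- part: S2953
section
set_option autoImplicit false
open Cfsg

namespace Cfsg.Agent.S2953

/-- Let G be a finite group of characteristic 2 type in which every 2-local subgroup is solvable and the centralizer of Ω₁(Z(S)) lies in N_G(S) for every Sylow 2-subgroup S; suppose O₂(G) = 1, fix a Sylow 2-subgroup S and a 2-local subgroup M containing N_G(J(S)) (J the Thompson subgroup generated by the elementary abelian 2-subgroups of largest order). Let T be maximal (for the order of a largest elementary abelian subgroup, then the order of J(T), then the order of T) among the nontrivial 2-subgroups of M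 lying in a 2-local subgroup not inside M. Then there are two distinct J(T)-components K₁, K₂ such that, with Pᵢ = ⟨Kᵢ, T⟩: C_G(O₂(Pᵢ)) ≤ O₂(Pᵢ), T is a Sylow 2-subgroup of Pᵢ, O₂(Pᵢ) has index 6 in Pᵢ with Pᵢ/O₂(Pᵢ) non-abelian, [Ω₁(Z(T)), Pᵢ] ≠ 1, O₂(⟨P₁, P₂⟩) = 1, and each Pᵢ lies in exactly one maximal 2-local subgroup Lᵢ of G, in which T is a Sylow 2-subgroup. -/
theorem result {G : Type*} [Group G] [Finite G] (hL : Cfsg.IsCharacteristicTwoType G) (hN : ∀ N : Subgroup G, Cfsg.IsTwoLocal N → Group.IsSolvable ↥N)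
    (hZ : ∀ S : Sylow 2 G, Subgroup.centralizer (Cfsg.omegaCenterOf (S : Subgroup G) : Set G) ≤ Subgroup.normalizer ((S : Subgroup G) : Set G)) (hO : Cfsg.pCore 2 G = ⊥) (S : Sylow 2 G) (M : Subgroup G) (hM : Cfsg.IsTwoLocal M)
    (hMJ : Subgroup.normalizer (Cfsg.thompsonSubgroupOf 2 (S : Subgroup G) : Set G) ≤ M) (T : Subgroup G) (hT : T ∈ Cfsg.maxStraddlingTwoSubgroups M) :
    ∃ K₁ K₂ : Subgroup G, K₁ ≠ K₂ ∧ Cfsg.IsJComponent T K₁ ∧ Cfsg.IsJComponent T K₂ ∧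
      Cfsg.pCoreOf 2 ((K₁ ⊔ T) ⊔ (K₂ ⊔ T)) = ⊥ ∧
      ∀ P ∈ [K₁ ⊔ T, K₂ ⊔ T],
        Subgroup.centralizer (Cfsg.pCoreOf 2 P : Set G) ≤ Cfsg.pCoreOf 2 P ∧ Cfsg.IsSylowTwoIn T P ∧
        (Cfsg.pCoreOf 2 P).relIndex P = 6 ∧ ¬ ⁅P, P⁆ ≤ Cfsg.pCoreOf 2 P ∧ ⁅Cfsg.omegaCenterOf T, P⁆ ≠ ⊥ ∧
        ∃ L : Subgroup G, Cfsg.IsMaximalTwoLocal L ∧ P ≤ L ∧ Cfsg.IsSylowTwoIn T L ∧
          ∀ L' : Subgroup G, Cfsg.IsMaximalTwoLocal L' → P ≤ L' → L' = L := by
  obtain ⟨e, U₁, U₂, h⟩ := H252.ZNStruct.exists_ts hL hN hZ hO S hM hMJ hT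
  exact H251.exists_pair hL h.dat

end Cfsg.Agent.S2953
end
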