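-- Statement S2954: the two maximal 2-locals over a maximal straddling 2-subgroup of a ZN-group.
import Cfsg.Agent.H252.ZNStruct
import Cfsg.Agent.S0051
import Cfsg.Agent.S1012
import Cfsg.Statements.S2954
set_option linter.all false

-- part: H252/SymC2
section
/-!
# `N_G(U₁) ≅ S₄ × C₂` in case `e = 2`
-/

set_option autoImplicit false

namespace Cfsg.Agent.H252.SymC2

open Subgroup Cfsg Cfsg.Agent.ZN Cfsg.Agent.ZN.ChoiceBase
open Cfsg.Agent.Classification.ZNEndA Cfsg.Agent.Classification.ZNEndB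
open Cfsg.Agent.H252.ZNCross Cfsg.Agent.H252.ZNData

universe u

variable {G : Type u} [Group G]

/-- A central complement gives a direct product. -/
theorem prod_of_complement {P : Type*} [Group P] (K H : Subgroup P) (hc : ∀ k ∈ K, ∀ x : P, x * k = k * x)
    (h : Subgroup.IsComplement' K H) : Nonempty (P ≃* H × K) := by
  let f : H × K →* P :=
    { toFun := fun p => (p.2 : P) * (p.1 : P)
      map_one' := by simp
      map_mul' := fun p q => by
        show ((p.2 * q.2 : K) : P) * ((p.1 * q.1 : H) : P) = (p.2 : P) * p.1 * ((q.2 : P) * q.1)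
        rw [Subgroup.coe_mul, Subgroup.coe_mul]
        have h1 := hc q.2 q.2.2 (p.1 : P)
        calc (p.2 : P) * q.2 * (p.1 * q.1) = (p.2 : P) * (q.2 * p.1) * q.1 := by group
          _ = (p.2 : P) * (p.1 * q.2) * q.1 := by rw [← h1]
          _ = (p.2 : P) * p.1 * ((q.2 : P) * q.1) := by group }
  have hb : Function.Bijective f := by
    have h1 : Function.Bijective fun x : K × H => (x.1 : P) * (x.2 : P) := h
    have h2 : (f : H × K → P) = (fun x : K × H => (x.1 : P) * (x.2 : P)) ∘ Prod.swap := rfl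
    rw [h2]
    exact h1.comp Prod.swap_bijective
  exact ⟨(MulEquiv.ofBijective f hb).symm⟩

/-- The subgroup `W⟨e⟩` for an involution `e` normalizing `W`. -/
def dih (W : Subgroup G) (e : G) (he : e * e = 1) (hN : ∀ w ∈ W, e * w * e⁻¹ ∈ W) : Subgroup G where
  carrier := {g | g ∈ W ∨ g * e ∈ W}
  one_mem' := Or.inl W.one_mem
  mul_mem' := by
    have hei : e⁻¹ = e := inv_eq_of_mul_eq_one_left he
    have hN' : ∀ w ∈ W, e * w * e ∈ W := by
      intro w hw
      have := hN w hw
      rwa [hei] at this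
    rintro a b (ha | ha) (hb | hb)
    · exact Or.inl (W.mul_mem ha hb)
    · right
      show a * b * e ∈ W
      rw [mul_assoc]
      exact W.mul_mem ha hb
    · right
      show a * b * e ∈ W
      have : a * b * e = a * e * (e * b * e) := by
        calc a * b * e = a * (e * e) * b * e := by rw [he]; group
          _ = a * e * (e * b * e) := by group
      rw [this]
      exact W.mul_mem ha (hN' b hb)
    · left
      show a * b ∈ W
      have : a * b = a * e * (e * (b * e) * e) := by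
        calc a * b = a * (e * e) * b * (e * e) := by rw [he]; group
          _ = a * e * (e * (b * e) * e) := by group
      rw [this]
      exact W.mul_mem ha (hN' _ hb)
  inv_mem' := by
    have hei : e⁻¹ = e := inv_eq_of_mul_eq_one_left he
    have hN' : ∀ w ∈ W, e * w * e ∈ W := by
      intro w hw
      have := hN w hw
      rwa [hei] at this
    rintro a (ha | ha)
    · exact Or.inl (W.inv_mem ha)
    · right
      show a⁻¹ * e ∈ W
      have h1 := hN' _ (W.inv_mem ha)
      have : a⁻¹ * e = e * (a * e)⁻¹ * e := by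
        rw [mul_inv_rev, hei]
        calc a⁻¹ * e = 1 * a⁻¹ * e := by group
          _ = e * e * a⁻¹ * e := by rw [he]
          _ = e * (e * a⁻¹) * e := by group
      rw [this]
      exact h1

theorem mem_dih {W : Subgroup G} {e : G} {he : e * e = 1} {hN : ∀ w ∈ W, e * w * e⁻¹ ∈ W} {g : G} :
    g ∈ dih W e he hN ↔ g ∈ W ∨ g * e ∈ W := Iff.rfl

/-- **`N_G(U₁) ≅ S₄ × C₂`** in case `e = 2`. -/
theorem equiv_prod [Finite G] {T U₁ U₂ : Subgroup G} (h : Dat 2 T U₁ U₂) :
    Nonempty (normalizer (U₁ : Set G) ≃* Equiv.Perm (Fin 4) × Multiplicative (ZMod 2)) := by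
  have f2 : Fact (Nat.Prime 2) := ⟨Nat.prime_two⟩
  obtain ⟨c₁, c₂, h1, h2, h3⟩ := h.c rfl
  obtain ⟨W, x, hW⟩ := h1.exists_W
  obtain ⟨P, hP⟩ : ∃ P, P = normalizer (U₁ : Set G) := ⟨_, rfl⟩
  rw [← hP]
  have hcc : c₁ * c₁ = 1 := h1.elem _ h1.mem
  have hcord : orderOf c₁ = 2 := orderOf_eq_prime (by rw [pow_two]; exact hcc) h1.ne_one
  have hcz : ∀ y ∈ zpowers c₁, y = 1 ∨ y = c₁ := by
    intro y hy
    obtain ⟨k, rfl⟩ := mem_zpowers_iff.1 hy
    rcases Int.even_or_odd' k with ⟨m, rfl | rfl⟩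
    · left
      rw [zpow_mul]
      have : c₁ ^ (2 : ℤ) = 1 := by rw [zpow_two]; exact hcc
      rw [this, one_zpow]
    · right
      rw [zpow_add, zpow_mul]
      have : c₁ ^ (2 : ℤ) = 1 := by rw [zpow_two]; exact hcc
      rw [this, one_zpow, one_mul, zpow_one]
  have hTP : T ≤ P := hP ▸ h.cross.norm₁
  have hcP : c₁ ∈ P := hP ▸ le_normalizer h1.mem
  have hccen : ∀ y ∈ P, y * c₁ = c₁ * y := fun y hy => h1.comm y (hP ▸ hy)
  obtain ⟨e, heU, he1⟩ := Set.not_subset.1 h.cross.not_le'
  have hee : e * e = 1 := h.cross.elem₂ e heU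
  have heT : e ∈ T := h.cross.le₂ heU
  have heN : ∀ w ∈ W, e * w * e⁻¹ ∈ W :=
    fun w hw => ((mem_normalizer_iff.1 (hW.norm (h.cross.norm₁ heT))) w).1 hw
  obtain ⟨D, hD⟩ : ∃ D, D = dih W e hee heN := ⟨_, rfl⟩
  have hDmem : ∀ g, g ∈ D ↔ g ∈ W ∨ g * e ∈ W := by
    intro g; rw [hD]; exact mem_dih
  have hWU : W ≤ U₁ := hW.le
  have hcD : c₁ ∉ D := by
    rw [hDmem]
    rintro (h4 | h4)
    · exact hW.notMem h4
    · apply he1
      have h5 : e = c₁⁻¹ * (c₁ * e) := by group
      show e ∈ U₁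
      rw [h5]
      exact mul_mem (inv_mem h1.mem) (hWU h4)
  -- Gaschütz
  obtain ⟨K, hK⟩ : ∃ K : Subgroup P, K = (zpowers c₁).subgroupOf P := ⟨_, rfl⟩
  have hKcen : ∀ k ∈ K, ∀ y : P, y * k = k * y := by
    intro k hk y
    rw [hK, mem_subgroupOf] at hk
    rcases hcz _ hk with h4 | h4
    · have : k = 1 := Subtype.ext h4
      rw [this, mul_one, one_mul]
    · apply Subtype.ext
      show (y : G) * k = k * y
      rw [h4]
      exact hccen y y.2
  have hKn : K.Normal := ⟨fun k hk g => by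
    have : g * k * g⁻¹ = k := by rw [hKcen k hk g]; group
    rw [this]; exact hk⟩
  have hKc : IsMulCommutative K := ⟨⟨fun a b => Subtype.ext (hKcen b b.2 a)⟩⟩
  have hKcard : Nat.card K = 2 := by
    rw [hK, Nat.card_congr (Subgroup.subgroupOfEquivOfLe (by rwa [zpowers_le])).toEquiv,
      Nat.card_zpowers, hcord]
  have hTidx : (T.subgroupOf P).index = 3 := by
    have := h.relIndex
    rw [← hP] at this
    exact this
  have hPcard : Nat.card P = 48 := by rw [hP]; exact h1.norm
  have hDT : D ≤ T := by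
    intro g hg
    rcases (hDmem g).1 hg with h4 | h4
    · exact h.cross.le₁ (hWU h4)
    · have h5 : g = g * e * e⁻¹ := by group
      rw [h5]
      exact mul_mem (h.cross.le₁ (hWU h4)) (inv_mem heT)
  obtain ⟨H, hH⟩ := Cfsg.Agent.S0051.result K (T.subgroupOf P)
    (by
      rw [hK]
      intro y hy
      rw [mem_subgroupOf] at hy ⊢
      rcases hcz _ hy with h4 | h4
      · rw [h4]; exact one_mem _
      · rw [h4]; exact h.cross.le₁ h1.mem)
    (by rw [hKcard, hTidx]; norm_num) (D.subgroupOf P)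
    (by intro y hy; rw [mem_subgroupOf] at hy ⊢; exact hDT hy)
    (by
      rw [eq_bot_iff]
      intro y hy
      obtain ⟨hy1, hy2⟩ := mem_inf.1 hy
      rw [hK, mem_subgroupOf] at hy2
      rw [mem_subgroupOf] at hy1
      rw [Subgroup.mem_bot]
      rcases hcz _ hy2 with h4 | h4
      · exact Subtype.ext h4
      · rw [h4] at hy1
        exact absurd hy1 hcD)
    (by
      apply le_antisymm
      · apply sup_le
        · rw [hK]
          intro y hy
          rw [mem_subgroupOf] at hy ⊢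
          rcases hcz _ hy with h4 | h4
          · rw [h4]; exact one_mem _
          · rw [h4]; exact h.cross.le₁ h1.mem
        · intro y hy; rw [mem_subgroupOf] at hy ⊢; exact hDT hy
      · intro y hy
        rw [mem_subgroupOf] at hy
        have hcK : (⟨c₁, hcP⟩ : P) ∈ K := by rw [hK, mem_subgroupOf]; exact mem_zpowers _
        have key : (y : G) ∈ D ∨ c₁ * (y : G) ∈ D := by
          by_cases hyU : (y : G) ∈ U₁
          · rcases hW.mem_or h1 hyU with h4 | h4
            · exact Or.inl ((hDmem _).2 (Or.inl h4))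
            · exact Or.inr ((hDmem _).2 (Or.inl h4))
          · have h4 : (y : G) * e ∈ U₁ := h.cross.mul_mem₁ hy heT hyU he1
            rcases hW.mem_or h1 h4 with h5 | h5
            · exact Or.inl ((hDmem _).2 (Or.inr h5))
            · refine Or.inr ((hDmem _).2 (Or.inr ?_))
              rw [mul_assoc]; exact h5
        rcases key with h4 | h4
        · exact (le_sup_right (a := K)) (mem_subgroupOf.2 h4)
        · have h5 : y = (⟨c₁, hcP⟩ : P)⁻¹ * ((⟨c₁, hcP⟩ : P) * y) := by group
          rw [h5]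
          refine mul_mem (inv_mem ((le_sup_left (a := K)) hcK)) ((le_sup_right (a := K)) ?_)
          exact mem_subgroupOf.2 h4)
  have hHcard : Nat.card H = 24 := by
    have h4 := hH.card_mul_card
    rw [hKcard, hPcard] at h4
    omega
  have hcH : (⟨c₁, hcP⟩ : P) ∉ H := by
    intro h4
    have h5 : (⟨c₁, hcP⟩ : P) ∈ K := by rw [hK, mem_subgroupOf]; exact mem_zpowers _
    have h6 := hH.disjoint
    have h7 : (⟨c₁, hcP⟩ : P) ∈ K ⊓ H := mem_inf.2 ⟨h5, h4⟩
    rw [disjoint_iff.1 h6, Subgroup.mem_bot] at h7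
    exact h1.ne_one (congrArg Subtype.val h7)
  obtain ⟨eH⟩ : Nonempty (H ≃* Equiv.Perm (Fin 4)) := by
    apply Cfsg.Agent.S1012.result hHcard
    intro g hg
    obtain ⟨a, ha⟩ : ∃ a : G, a = ((g : P) : G) := ⟨_, rfl⟩
    have hord : orderOf a = 6 := by
      rw [ha, Subgroup.orderOf_coe, Subgroup.orderOf_coe]; exact hg
    have haP : a ∈ P := by rw [ha]; exact (g : P).2
    have hx3 : orderOf (a ^ 2) = 3 := by rw [orderOf_pow, hord]; rfl
    have ht2 : orderOf (a ^ 3) = 2 := by rw [orderOf_pow, hord]; rfl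
    have hxN : a ^ 2 ∈ normalizer (U₁ : Set G) := hP ▸ pow_mem haP 2
    have htN : a ^ 3 ∈ normalizer (U₁ : Set G) := hP ▸ pow_mem haP 3
    have hWE := hW.elem h1
    have hxC : a ^ 2 ∉ centralizer (W : Set G) := by
      intro hC
      have h4 := hW.centralizer_inf h1 (mem_inf.2 ⟨hC, hxN⟩)
      have h5 := h1.elem _ h4
      have h6 : orderOf (a ^ 2) ∣ 2 := orderOf_dvd_of_pow_eq_one (by rw [pow_two]; exact h5)
      rw [hx3] at h6
      norm_num at h6
    have hQ : IsPGroup 2 (zpowers (a ^ 3)) := by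
      apply IsPGroup.of_card (n := 1)
      rw [Nat.card_zpowers, ht2, pow_one]
    have hWbot : W ≠ ⊥ := hW.ne_bot
    obtain ⟨w, hw, hw1, hwQ⟩ := exists_fixed (isPGroup_of_elem hWE) hWbot hQ
      (by rw [zpowers_le]; exact hW.norm htN)
    have hwt : a ^ 3 * w = w * a ^ 3 := hwQ _ (mem_zpowers _)
    have hcomm : Commute (a ^ 2) (a ^ 3) := (Commute.refl a).pow_pow 2 3
    have hDW : W ⊓ centralizer ({a ^ 3} : Set G) = W := by
      refine Cfsg.Agent.Classification.ZNEndA.eq_of_invariant hW.card hWE (x := a ^ 2) (by rw [hx3]; decide) (hW.norm hxN) hxC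
        inf_le_left ?_ ?_
      · intro h0
        apply hw1
        have h2 : w ∈ W ⊓ centralizer ({a ^ 3} : Set G) :=
          mem_inf.mpr ⟨hw, mem_centralizer_singleton_iff.mpr hwt.symm⟩
        rw [h0] at h2
        exact Subgroup.mem_bot.mp h2
      · intro d hd
        refine mem_inf.mpr ⟨((mem_normalizer_iff.mp (hW.norm hxN)) d).1 hd.1,
          mem_centralizer_singleton_iff.mpr ?_⟩
        have h5 := mem_centralizer_singleton_iff.mp (mem_inf.mp hd).2
        have hc2 : Commute d (a ^ 3) := h5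
        exact ((hcomm.mul_left hc2).mul_left hcomm.inv_left)
    have htC : a ^ 3 ∈ centralizer (W : Set G) := by
      rw [mem_centralizer_iff]
      intro w hw
      have hw' : w ∈ W ⊓ centralizer ({a ^ 3} : Set G) := by rw [hDW]; exact hw
      exact mem_centralizer_singleton_iff.mp (mem_inf.mp hw').2
    have htU : a ^ 3 ∈ U₁ := hW.centralizer_inf h1 (mem_inf.2 ⟨htC, htN⟩)
    have hnofix : ∀ w ∈ W, a ^ 2 * w = w * a ^ 2 → w = 1 := by
      intro w hw hcom
      by_contra hne
      exact hxC (mem_centralizer_of_fix hW.card hWE (by rw [hx3]; decide) (hW.norm hxN) hw hne hcom)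
    have ht1 : a ^ 3 ≠ 1 := by
      intro h4
      rw [h4, orderOf_one] at ht2
      norm_num at ht2
    rcases hW.mem_or h1 htU with h4 | h4
    · exact ht1 (hnofix _ h4 hcomm)
    · have h5 : a ^ 2 * (c₁ * a ^ 3) = c₁ * a ^ 3 * a ^ 2 := by
        have h6 := hccen (a ^ 2) (pow_mem haP 2)
        calc a ^ 2 * (c₁ * a ^ 3) = a ^ 2 * c₁ * a ^ 3 := by group
          _ = c₁ * (a ^ 2 * a ^ 3) := by rw [h6]; group
          _ = c₁ * (a ^ 3 * a ^ 2) := by rw [hcomm.eq]
          _ = c₁ * a ^ 3 * a ^ 2 := by group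
      have h6 := hnofix _ h4 h5
      have h7 : a ^ 3 = c₁ := by
        have h8 : c₁ = (a ^ 3)⁻¹ := eq_inv_of_mul_eq_one_left h6
        have h9 : (a ^ 3)⁻¹ = a ^ 3 := by
          apply inv_eq_of_mul_eq_one_left
          rw [← pow_two, ← ht2]
          exact pow_orderOf_eq_one _
        rw [h8, h9]
      apply hcH
      have h8 : (⟨c₁, hcP⟩ : P) = ((g ^ 3 : H) : P) := by
        apply Subtype.ext
        show c₁ = (((g ^ 3 : H) : P) : G)
        rw [← h7, ha]
        rfl
      rw [h8]
      exact (g ^ 3).2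
  obtain ⟨e1⟩ := prod_of_complement K H hKcen hH
  have eK : K ≃* Multiplicative (ZMod 2) :=
    mulEquivOfPrimeCardEq (p := 2) hKcard (by rw [Nat.card_eq_fintype_card]; rfl)
  exact ⟨e1.trans (MulEquiv.prodCongr eH eK)⟩

end Cfsg.Agent.H252.SymC2
end

-- part: S2954
section
set_option autoImplicit false
open Cfsg

namespace Cfsg.Agent.S2954

/-- Let G be a finite group of characteristic 2 type in which every 2-local subgroup is solvable and the centralizer of Ω₁(Z(S)) lies in N_G(S) for every Sylow 2-subgroup S; suppose O₂(G) = 1, fix a Sylow 2-subgroup S and a 2-local subgroup M containing N_G(J(S)) (J the Thompson subgroup generated by the elementary abelian 2-subgroups of largest order). If T is maximal (for the order of a largest elementary abelian subgroup, then the order of J(T), then the order of T) among the nontrivial 2-subgroups of M lying in a 2-local subgroup not inside M, then there are two distinct maximal 2-local subgroups P₁, P₂ of G, each having T as a Sylow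 2-subgroup, that are both isomorphic to the symmetric group on four letters or both isomorphic to its direct product with a group of order 2. -/
theorem result {G : Type*} [Group G] [Finite G] (hL : Cfsg.IsCharacteristicTwoType G) (hN : ∀ N : Subgroup G, Cfsg.IsTwoLocal N → Group.IsSolvable ↥N)
    (hZ : ∀ S : Sylow 2 G, Subgroup.centralizer (Cfsg.omegaCenterOf (S : Subgroup G) : Set G) ≤ Subgroup.normalizer ((S : Subgroup G) : Set G)) (hO : Cfsg.pCore 2 G = ⊥) (S : Sylow 2 G) (M : Subgroup G) (hM : Cfsg.IsTwoLocal M)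
    (hMJ : Subgroup.normalizer (Cfsg.thompsonSubgroupOf 2 (S : Subgroup G) : Set G) ≤ M) (T : Subgroup G) (hT : T ∈ Cfsg.maxStraddlingTwoSubgroups M) :
    ∃ P₁ P₂ : Subgroup G, P₁ ≠ P₂ ∧ Cfsg.IsMaximalTwoLocal P₁ ∧ Cfsg.IsMaximalTwoLocal P₂ ∧
      Cfsg.IsSylowTwoIn T P₁ ∧ Cfsg.IsSylowTwoIn T P₂ ∧
      ((Nonempty (↥P₁ ≃* Equiv.Perm (Fin 4)) ∧ Nonempty (↥P₂ ≃* Equiv.Perm (Fin 4))) ∨
        (Nonempty (↥P₁ ≃* Equiv.Perm (Fin 4) × Multiplicative (ZMod 2)) ∧
          Nonempty (↥P₂ ≃* Equiv.Perm (Fin 4) × Multiplicative (ZMod 2)))) := by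
  obtain ⟨e, U₁, U₂, hts⟩ := Cfsg.Agent.H252.ZNStruct.exists_ts hL hN hZ hO S hM hMJ hT
  have h := hts.dat
  refine ⟨_, _, h.normalizer_ne, h.max₁, h.max₂, ⟨h.cross.norm₁, h.cross.two, ?_⟩,
    ⟨h.cross.norm₂, h.cross.two, ?_⟩, ?_⟩
  · rw [h.relIndex]; decide
  · rw [h.symm.relIndex]; decide
  · rcases h.he with rfl | rfl
    · exact Or.inl ⟨h.good24.equiv_perm, h.good24'.equiv_perm⟩
    · exact Or.inr ⟨Cfsg.Agent.H252.SymC2.equiv_prod h, Cfsg.Agent.H252.SymC2.equiv_prod h.symm⟩

end Cfsg.Agent.S2954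
end
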