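import Mathlib
import Cfsg.Agent.J2.ExtQuot
import Cfsg.Statements.S3084
set_option linter.all false

-- part: H281/TwGrp
section
set_option autoImplicit false

/-! # The twisted group algebra over `F₃` of a quadratic space over `F₂`

`β` a bilinear form on the finite `F₂`-space `U`, `q u = β u u`. `L β u`, `R β u` are the left and right
multiplications by the basis elements of the twisted group algebra (functions `U → F₃`). -/

namespace Cfsg.Agent.H281.Tw

/-- the sign `(-1)^x` in `F₃` -/
def sg (x : ZMod 2) : ZMod 3 := if x = 0 then 1 else -1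

theorem sg_add (x y : ZMod 2) : sg (x + y) = sg x * sg y := by revert x y; decide
theorem sg_zero : sg 0 = 1 := rfl
theorem sg_one : sg 1 = -1 := rfl
theorem sg_mul_self (x : ZMod 2) : sg x * sg x = 1 := by revert x; decide
theorem sg_ne_zero (x : ZMod 2) : sg x ≠ 0 := by revert x; decide
theorem sg_inj {x y : ZMod 2} (h : sg x = sg y) : x = y := by revert x y; decide
theorem exists_sg {c : ZMod 3} (h : c ≠ 0) : ∃ x, c = sg x := by revert c; decide

variable {U : Type*} [AddCommGroup U] [Module (ZMod 2) U]

theorem add_self (u : U) : u + u = 0 := by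
  have h : (2 : ZMod 2) • u = 0 := by
    have : (2 : ZMod 2) = 0 := rfl
    rw [this, zero_smul]
  rwa [two_smul] at h

theorem add_add_self (x u : U) : x + u + u = x := by rw [add_assoc, add_self, add_zero]

theorem eq_of_add_eq_zero {u v : U} (h : u + v = 0) : u = v := by
  have : u + v + v = v := by rw [h, zero_add]
  rwa [add_add_self] at this

variable (β : LinearMap.BilinForm (ZMod 2) U)

/-- left multiplication by the basis element `u` -/
def L (u : U) : (U → ZMod 3) →ₗ[ZMod 3] (U → ZMod 3) where
  toFun f := fun x => sg (β u (x + u)) * f (x + u)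
  map_add' f g := by ext x; simp [mul_add]
  map_smul' c f := by ext x; simp [mul_left_comm]

/-- right multiplication by the basis element `u` -/
def R (u : U) : (U → ZMod 3) →ₗ[ZMod 3] (U → ZMod 3) where
  toFun f := fun x => sg (β (x + u) u) * f (x + u)
  map_add' f g := by ext x; simp [mul_add]
  map_smul' c f := by ext x; simp [mul_left_comm]

theorem L_apply (u : U) (f : U → ZMod 3) (x : U) : L β u f x = sg (β u (x + u)) * f (x + u) := rfl
theorem R_apply (u : U) (f : U → ZMod 3) (x : U) : R β u f x = sg (β (x + u) u) * f (x + u) := rfl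

theorem L_L (u v : U) (f : U → ZMod 3) : L β u (L β v f) = sg (β u v) • L β (u + v) f := by
  ext x
  rw [L_apply, L_apply, Pi.smul_apply, L_apply, smul_eq_mul]
  have e : x + u + v = x + (u + v) := by abel
  rw [e, ← mul_assoc, ← mul_assoc, ← sg_add, ← sg_add]
  congr 2
  simp only [map_add, LinearMap.add_apply]
  have h1 := CharTwo.add_self_eq_zero (β u v)
  linear_combination (-1) * h1

theorem R_R (u v : U) (f : U → ZMod 3) : R β u (R β v f) = sg (β v u) • R β (u + v) f := by
  ext x
  rw [R_apply, R_apply, Pi.smul_apply, R_apply, smul_eq_mul]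
  have e : x + u + v = x + (u + v) := by abel
  rw [e, ← mul_assoc, ← mul_assoc, ← sg_add, ← sg_add]
  congr 2
  simp only [map_add, LinearMap.add_apply]
  have h1 := CharTwo.add_self_eq_zero (β v u)
  linear_combination (-1) * h1

theorem L_R (u v : U) (f : U → ZMod 3) : L β u (R β v f) = R β v (L β u f) := by
  ext x
  rw [L_apply, R_apply, R_apply, L_apply]
  have e : x + u + v = x + v + u := by abel
  rw [e, ← mul_assoc, ← mul_assoc, ← sg_add, ← sg_add]
  congr 2
  simp only [map_add, LinearMap.add_apply]
  ring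

theorem L_zero (f : U → ZMod 3) : L β 0 f = f := by
  ext x
  rw [L_apply]
  simp [sg_zero]

theorem L_L_self (u : U) (f : U → ZMod 3) : L β u (L β u f) = sg (β u u) • f := by
  rw [L_L, add_self, L_zero]

/-- the diagonal operators -/
theorem L_R_self (v : U) (f : U → ZMod 3) (x : U) :
    L β v (R β v f) x = sg (β v v) * sg (β v x + β x v) * f x := by
  rw [L_apply, R_apply, add_add_self, ← mul_assoc, ← sg_add, ← sg_add]
  congr 2
  simp only [map_add]
  ring

variable [Fintype U] [DecidableEq U]

/-- orthogonality of characters -/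
theorem sum_sg (hnd : ∀ u, (∀ v, β u v + β v u = 0) → u = 0) (x : U) :
    ∑ v : U, sg (β v x + β x v) = if x = 0 then (Fintype.card U : ZMod 3) else 0 := by
  split_ifs with h
  · subst h; simp [sg_zero]
  · have h1 : ¬ ∀ v, β x v + β v x = 0 := fun h' => h (hnd x h')
    push Not at h1
    obtain ⟨w, hw⟩ := h1
    have hw1 : β w x + β x w = 1 := by
      have : ∀ a : ZMod 2, a ≠ 0 → a = 1 := by decide
      rw [add_comm]; exact this _ hw
    have key : ∑ v : U, sg (β v x + β x v) = ∑ v : U, sg (β (v + w) x + β x (v + w)) :=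
      (Equiv.sum_comp (Equiv.addRight w) (fun v => sg (β v x + β x v))).symm
    have key2 : ∀ v, sg (β (v + w) x + β x (v + w)) = - sg (β v x + β x v) := by
      intro v
      have : β (v + w) x + β x (v + w) = (β v x + β x v) + 1 := by
        rw [← hw1]; simp only [map_add, LinearMap.add_apply]; ring
      rw [this, sg_add, sg_one]; ring
    simp only [key2, Finset.sum_neg_distrib] at key
    have : ∀ a : ZMod 3, a = -a → a = 0 := by decide
    exact this _ key

theorem card_ne_zero : (Fintype.card U : ZMod 3) ≠ 0 := by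
  have h : ∃ m, Fintype.card U = 2 ^ m := by
    have : Module.Finite (ZMod 2) U := Module.Finite.of_finite
    refine ⟨Module.finrank (ZMod 2) U, ?_⟩
    have := Module.card_eq_pow_finrank (K := ZMod 2) (V := U)
    simpa using this
  obtain ⟨m, hm⟩ := h
  rw [hm]
  push_cast
  exact pow_ne_zero _ (by decide)

/-- the basis vectors -/
def dl (u : U) : U → ZMod 3 := Pi.single u 1

theorem L_dl (u v : U) : L β u (dl v) = sg (β u v) • dl (u + v) := by
  ext x
  rw [L_apply, Pi.smul_apply, smul_eq_mul, dl, dl]
  by_cases h : x = u + v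
  · subst h
    have : u + v + u = v := by rw [add_comm, ← add_assoc, add_self, zero_add]
    simp [this]
  · have h' : x + u ≠ v := by
      intro h'; apply h; rw [← h', add_comm, add_assoc, add_self, add_zero]
    simp [Pi.single_apply, h, h']

theorem R_dl (u v : U) : R β u (dl v) = sg (β v u) • dl (u + v) := by
  ext x
  rw [R_apply, Pi.smul_apply, smul_eq_mul, dl, dl]
  by_cases h : x = u + v
  · subst h
    have : u + v + u = v := by rw [add_comm, ← add_assoc, add_self, zero_add]
    simp [this]
  · have h' : x + u ≠ v := by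
      intro h'; apply h; rw [← h', add_comm, add_assoc, add_self, add_zero]
    simp [Pi.single_apply, h, h']

/-- an operator commuting with all left and right multiplications is a scalar -/
theorem scalar_of_comm (hnd : ∀ u, (∀ v, β u v + β v u = 0) → u = 0)
    (T : (U → ZMod 3) →ₗ[ZMod 3] (U → ZMod 3)) (hR : ∀ v f, T (R β v f) = R β v (T f))
    (hL : ∀ v f, T (L β v f) = L β v (T f)) : ∃ c : ZMod 3, ∀ f, T f = c • f := by
  set t := T (dl 0) with ht
  have h1 : ∀ v, T (dl v) = R β v t := by
    intro v
    rw [ht, ← hR, R_dl]; simp [sg_zero]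
  have h2 : ∀ v, T (dl v) = L β v t := by
    intro v
    rw [ht, ← hL, L_dl]; simp [sg_zero]
  have h3 : ∀ y, y ≠ 0 → t y = 0 := by
    intro y hy
    by_contra hty
    apply hy
    apply hnd
    intro v
    have := congrFun ((h1 v).symm.trans (h2 v)) (y + v)
    rw [R_apply, L_apply, add_add_self] at this
    have h4 := mul_right_cancel₀ hty this
    have h5 := sg_inj h4
    rw [h5]
    exact CharTwo.add_self_eq_zero _
  have h4 : t = t 0 • dl 0 := by
    ext y
    by_cases hy : y = 0
    · subst hy; simp [dl]
    · rw [h3 y hy]; simp [dl, Pi.single_apply, hy]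
  refine ⟨t 0, ?_⟩
  intro f
  have hf : f = ∑ v, f v • dl v := by
    ext y
    simp [dl, Finset.sum_apply, Pi.single_apply]
  have h5 : ∀ v, T (dl v) = t 0 • dl v := by
    intro v
    rw [h1, h4, map_smul, R_dl]
    simp [sg_zero, dl]
  conv_lhs => rw [hf]
  rw [map_sum]
  simp only [map_smul, h5]
  conv_rhs => rw [hf]
  rw [Finset.smul_sum]
  refine Finset.sum_congr rfl ?_
  intro v _
  rw [smul_comm]

/-- irreducibility: an operator whose kernel is invariant under all left and right multiplications is
zero or injective -/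
theorem injective_of_invariant (hnd : ∀ u, (∀ v, β u v + β v u = 0) → u = 0)
    (N : Submodule (ZMod 3) (U → ZMod 3)) (hR : ∀ v, ∀ f ∈ N, R β v f ∈ N)
    (hL : ∀ v, ∀ f ∈ N, L β v f ∈ N) (hN : N ≠ ⊥) : N = ⊤ := by
  obtain ⟨f, hfN, hf0⟩ := (Submodule.ne_bot_iff N).1 hN
  obtain ⟨y, hy⟩ : ∃ y, f y ≠ 0 := by
    by_contra h
    push Not at h
    exact hf0 (funext h)
  -- projection
  have h1 : (∑ v : U, (sg (β v y + β y v) * sg (β v v)) • L β v (R β v f)) ∈ N :=
    Submodule.sum_mem _ fun v _ => Submodule.smul_mem _ _ (hL v _ (hR v _ hfN))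
  have h2 : (∑ v : U, (sg (β v y + β y v) * sg (β v v)) • L β v (R β v f)) =
      ((Fintype.card U : ZMod 3) * f y) • dl y := by
    ext x
    rw [Finset.sum_apply]
    simp only [Pi.smul_apply, L_R_self, smul_eq_mul]
    have h3 : ∀ v, sg (β v y + β y v) * sg (β v v) * (sg (β v v) * sg (β v x + β x v) * f x) =
        sg (β v (x + y) + β (x + y) v) * f x := by
      intro v
      have h4 : sg (β v y + β y v) * sg (β v v) * (sg (β v v) * sg (β v x + β x v) * f x) =
        (sg (β v v) * sg (β v v)) * (sg (β v y + β y v) * sg (β v x + β x v)) * f x := by ring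
      rw [h4, sg_mul_self, one_mul, ← sg_add]
      congr 2
      simp only [map_add, LinearMap.add_apply]; ring
    simp only [h3]
    rw [← Finset.sum_mul, sum_sg β hnd]
    by_cases hxy : x = y
    · subst hxy; simp [add_self, dl]
    · have : x + y ≠ 0 := fun h => hxy (eq_of_add_eq_zero h)
      simp [this, dl, Pi.single_apply, hxy]
  have h3 : dl y ∈ N := by
    rw [h2] at h1
    have hc : ((Fintype.card U : ZMod 3) * f y) ≠ 0 := mul_ne_zero card_ne_zero hy
    have := N.smul_mem ((Fintype.card U : ZMod 3) * f y)⁻¹ h1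
    rwa [smul_smul, inv_mul_cancel₀ hc, one_smul] at this
  have h4 : ∀ v, dl v ∈ N := by
    intro v
    have h5 := hL (v + y) _ h3
    rw [L_dl, add_add_self] at h5
    have := N.smul_mem (sg (β (v + y) y)) h5
    rwa [smul_smul, sg_mul_self, one_smul] at this
  rw [eq_top_iff]
  intro g _
  have hg : g = ∑ v, g v • dl v := by
    ext y
    simp [dl, Finset.sum_apply, Pi.single_apply]
  rw [hg]
  exact Submodule.sum_mem _ fun v _ => N.smul_mem _ (h4 v)

end Cfsg.Agent.H281.Tw
end

-- part: H281/TwInt
section
set_option autoImplicit false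
set_option linter.unusedSectionVars false

/-! # Existence of intertwiners in the twisted group algebra -/

namespace Cfsg.Agent.H281.Tw

variable {U : Type*} [AddCommGroup U] [Module (ZMod 2) U]

/-- An alternating form over `F₂` is the polar form of a function `f`. -/
theorem exists_cochain [Finite U] (B : LinearMap.BilinForm (ZMod 2) U) (hB : ∀ u, B u u = 0) :
    ∃ f : U → ZMod 2, ∀ u v, f (u + v) = f u + f v + B u v := by
  classical
  have : Module.Finite (ZMod 2) U := Module.Finite.of_finite
  let b := Module.finBasis (ZMod 2) U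
  let C : LinearMap.BilinForm (ZMod 2) U :=
    Matrix.toBilin b (Matrix.of fun i j => if i < j then B (b i) (b j) else 0)
  have hsymm : ∀ u v, B u v = B v u := by
    intro u v
    have h := hB (u + v)
    simp only [map_add, LinearMap.add_apply, hB, zero_add, add_zero] at h
    have : ∀ x y : ZMod 2, x + y = 0 → y = x := by decide
    exact this _ _ h
  have hC : C + C.flip = B := by
    apply LinearMap.BilinForm.ext_basis b
    intro i j
    have h1 : ∀ i j, C (b i) (b j) = if i < j then B (b i) (b j) else 0 := by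
      intro i j
      have : LinearMap.BilinForm.toMatrix b C = Matrix.of fun i j => if i < j then B (b i) (b j) else 0 := by
        simp [C]
      have h2 := congrFun (congrFun this i) j
      rw [LinearMap.BilinForm.toMatrix_apply] at h2
      rw [h2]; rfl
    rw [LinearMap.add_apply, LinearMap.add_apply, LinearMap.BilinForm.flip_apply, h1, h1]
    rcases lt_trichotomy i j with h | h | h
    · rw [if_pos h, if_neg (not_lt.2 h.le), add_zero]
    · subst h; simp [hB]
    · rw [if_pos h, if_neg (not_lt.2 h.le), zero_add, hsymm]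
  refine ⟨fun u => C u u, ?_⟩
  intro u v
  have h := congrFun (congrArg DFunLike.coe (congrFun (congrArg DFunLike.coe hC) u)) v
  rw [LinearMap.add_apply, LinearMap.add_apply, LinearMap.BilinForm.flip_apply] at h
  rw [← h]
  simp only [map_add, LinearMap.add_apply]
  ring

variable (β : LinearMap.BilinForm (ZMod 2) U) [Fintype U] [DecidableEq U]

/-- **Intertwiners exist.** -/
theorem exists_intertwiner (hnd : ∀ u, (∀ v, β u v + β v u = 0) → u = 0)
    (g : U →ₗ[ZMod 2] U) (hg : ∀ u, β (g u) (g u) = β u u) :
    ∃ (T : (U → ZMod 3) ≃ₗ[ZMod 3] (U → ZMod 3)) (f : U → ZMod 2),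
      (∀ v h, T (R β v h) = R β v (T h)) ∧
      (∀ v h, T (L β v h) = sg (f v) • L β (g v) (T h)) := by
  -- the cochain
  have hB0 : ∀ u, (β.comp g g + β) u u = 0 := by
    intro u
    simp only [LinearMap.add_apply, LinearMap.BilinForm.comp_apply, hg]
    exact CharTwo.add_self_eq_zero _
  obtain ⟨f, hf⟩ := exists_cochain (β.comp g g + β) hB0
  simp only [LinearMap.add_apply, LinearMap.BilinForm.comp_apply] at hf
  have hf0 : f 0 = 0 := by
    have h := hf 0 0
    simp only [map_zero, add_zero] at h
    have : ∀ x : ZMod 2, x = x + x → x = 0 := by decide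
    exact this _ h
  -- Φ u = sg (f u) L (g u)
  have hΦ : ∀ u v h, sg (f u) • L β (g u) (sg (f v) • L β (g v) h) =
      sg (β u v) • (sg (f (u + v)) • L β (g (u + v)) h) := by
    intro u v h
    rw [map_smul, L_L, smul_smul, smul_smul, smul_smul, map_add]
    congr 1
    rw [← sg_add, ← sg_add, ← sg_add, hf]
    congr 1
    have h1 := CharTwo.add_self_eq_zero (β u v)
    linear_combination (-1) * h1
  let S : U → (U → ZMod 3) →ₗ[ZMod 3] (U → ZMod 3) := fun w =>
    ∑ u : U, (sg (β u u) * sg (f u)) • (L β (g u) ∘ₗ L β w ∘ₗ L β u)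
  have hS : ∀ w h, S w h = ∑ u : U, (sg (β u u) * sg (f u)) • L β (g u) (L β w (L β u h)) := by
    intro w h
    simp only [S, LinearMap.sum_apply, LinearMap.smul_apply, LinearMap.comp_apply]
  have hSR : ∀ w v h, S w (R β v h) = R β v (S w h) := by
    intro w v h
    rw [hS, hS, map_sum]
    refine Finset.sum_congr rfl fun u _ => ?_
    rw [map_smul, L_R, L_R, L_R]
  have hSL : ∀ w v h, S w (L β v h) = sg (f v) • L β (g v) (S w h) := by
    intro w v h
    have e1 : S w (L β v h) = ∑ u : U, (sg (β (u + v) (u + v)) * sg (f (u + v))) •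
        L β (g (u + v)) (L β w (L β (u + v) (L β v h))) := by
      rw [hS]
      exact (Equiv.sum_comp (Equiv.addRight v) (fun u => (sg (β u u) * sg (f u)) •
        L β (g u) (L β w (L β u (L β v h))))).symm
    rw [e1, hS, map_sum, Finset.smul_sum]
    refine Finset.sum_congr rfl fun u _ => ?_
    have e2 : L β (u + v) (L β v h) = sg (β (u + v) v) • L β u h := by
      rw [L_L, add_add_self]
    have e3 : sg (f v) • L β (g v) ((sg (β u u) * sg (f u)) • L β (g u) (L β w (L β u h))) =
        sg (β u u) • (sg (β v u) • (sg (f (v + u)) • L β (g (v + u)) (L β w (L β u h)))) := by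
      rw [← hΦ]
      simp only [map_smul, smul_smul]
      congr 1; ring
    rw [e3, e2]
    simp only [map_smul, smul_smul]
    rw [add_comm v u]
    congr 1
    have e4 : sg (β (u + v) (u + v)) * sg (f (u + v)) * sg (β (u + v) v) =
        sg (β (u + v) (u + v)) * sg (β (u + v) v) * sg (f (u + v)) := by ring
    have e5 : sg (β u u) * (sg (β v u) * sg (f (u + v))) =
        sg (β u u) * sg (β v u) * sg (f (u + v)) := by ring
    first
      | (rw [e4, e5]; congr 1; rw [← sg_add, ← sg_add]; congr 1
         simp only [map_add, LinearMap.add_apply]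
         have h1 := CharTwo.add_self_eq_zero (β u v)
         have h2 := CharTwo.add_self_eq_zero (β v v)
         linear_combination h1 + h2)
  -- some S w is nonzero
  have hne : ∃ w, S w ≠ 0 := by
    by_contra hcon
    push Not at hcon
    have h1 : ∀ w, S w (dl 0) w = 0 := by
      intro w; rw [hcon w]; rfl
    have h2 : ∀ w, S w (dl 0) w = ∑ u : U, if g u = u then sg (f u) * sg (β w u + β u w) else 0 := by
      intro w
      rw [hS, Finset.sum_apply]
      refine Finset.sum_congr rfl fun u _ => ?_
      rw [L_dl, map_smul, L_dl, map_smul, map_smul, L_dl]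
      simp only [Pi.smul_apply, smul_eq_mul, map_zero, sg_zero, add_zero, dl, Pi.single_apply]
      by_cases h : g u = u
      · have e : w = g u + (w + u) := by
          rw [h]; rw [add_comm w u, ← add_assoc, add_self, zero_add]
        rw [if_pos e, if_pos h, h]
        simp only [map_add, one_mul, mul_one]
        have : sg (β u u) * sg (f u) * (sg (β w u) * sg (β u w + β u u)) =
            sg (f u) * (sg (β u u) * sg (β u u)) * (sg (β w u) * sg (β u w)) := by
          rw [sg_add (β u w) (β u u)]; ring
        rw [this, sg_mul_self, mul_one, ← sg_add]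
      · have e : ¬ w = g u + (w + u) := by
          intro e
          apply h
          have : g u + u = 0 := by
            have e' : w + 0 = w + (g u + u) := by
              rw [add_zero]
              calc w = g u + (w + u) := e
                _ = w + (g u + u) := by abel
            exact (add_left_cancel e').symm
          exact eq_of_add_eq_zero this
        rw [if_neg e, if_neg h]; simp
    have h3 : ∑ w : U, ∑ u : U, (if g u = u then sg (f u) * sg (β w u + β u w) else 0) = 0 := by
      apply Finset.sum_eq_zero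
      intro w _
      rw [← h2, h1]
    rw [Finset.sum_comm] at h3
    have h4 : ∀ u : U, ∑ w : U, (if g u = u then sg (f u) * sg (β w u + β u w) else 0) =
        if u = 0 then (Fintype.card U : ZMod 3) else 0 := by
      intro u
      by_cases h : g u = u
      · simp only [if_pos h]
        rw [← Finset.mul_sum, sum_sg β hnd]
        by_cases hu : u = 0
        · subst hu; simp [hf0, sg_zero]
        · simp [hu]
      · have hu : u ≠ 0 := by rintro rfl; exact h (map_zero g)
        simp [h, hu]
    simp only [h4] at h3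
    rw [Finset.sum_ite_eq' Finset.univ (0 : U) (fun _ => (Fintype.card U : ZMod 3))] at h3
    simp only [Finset.mem_univ, if_true] at h3
    exact card_ne_zero (U := U) h3
  obtain ⟨w, hw⟩ := hne
  -- injectivity
  have hker : LinearMap.ker (S w) = ⊥ := by
    by_contra hk
    apply hw
    rw [← LinearMap.ker_eq_top]
    apply injective_of_invariant β hnd _ _ _ hk
    · intro v h hh
      rw [LinearMap.mem_ker] at hh ⊢
      rw [hSR, hh, map_zero]
    · intro v h hh
      rw [LinearMap.mem_ker] at hh ⊢
      rw [hSL, hh, map_zero, smul_zero]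
  refine ⟨LinearEquiv.ofInjectiveEndo (S w) (LinearMap.ker_eq_bot.1 hker), f, ?_, ?_⟩
  · intro v h
    exact hSR w v h
  · intro v h
    exact hSL w v h

end Cfsg.Agent.H281.Tw
end

-- part: H281/TwExt
section
set_option autoImplicit false
set_option linter.unusedSectionVars false

/-! # The extension of an extraspecial 2-group by a group of isometries -/

namespace Cfsg.Agent.H281.Tw

variable {U : Type*} [AddCommGroup U] [Module (ZMod 2) U]
variable (β : LinearMap.BilinForm (ZMod 2) U) [Fintype U] [DecidableEq U]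
variable {K : Type*} [Group K] (ρ : Representation (ZMod 2) K U)

theorem sg_smul_smul (s : ZMod 2) (h : U → ZMod 3) : sg s • sg s • h = h := by
  rw [smul_smul, sg_mul_self, one_smul]

/-- pairs `(k, T)`: `T` commutes with the right multiplications and maps `L v` to `± L (k v)` -/
def GG : Subgroup (K × ((U → ZMod 3) ≃ₗ[ZMod 3] (U → ZMod 3))) where
  carrier := {p | (∀ v h, p.2 (R β v h) = R β v (p.2 h)) ∧
    ∀ v, ∃ s : ZMod 2, ∀ h, p.2 (L β v h) = sg s • L β (ρ p.1 v) (p.2 h)}
  mul_mem' := by
    rintro ⟨k, T⟩ ⟨k', T'⟩ ⟨h1, h2⟩ ⟨h1', h2'⟩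
    refine ⟨?_, ?_⟩
    · intro v h
      change T (T' (R β v h)) = R β v (T (T' h))
      simp only at h1 h1'
      rw [h1', h1]
    · intro v
      obtain ⟨s', hs'⟩ := h2' v
      obtain ⟨s, hs⟩ := h2 (ρ k' v)
      refine ⟨s + s', ?_⟩
      intro h
      change T (T' (L β v h)) = _ • L β (ρ (k * k') v) (T (T' h))
      simp only at hs hs'
      rw [hs', map_smul, hs, map_mul, Module.End.mul_apply, smul_smul, ← sg_add, add_comm]
  one_mem' := by
    refine ⟨fun v h => rfl, fun v => ⟨0, fun h => ?_⟩⟩
    simp [sg_zero]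
  inv_mem' := by
    rintro ⟨k, T⟩ ⟨h1, h2⟩
    simp only at h1 h2
    refine ⟨?_, ?_⟩
    · intro v h
      change T.symm (R β v h) = R β v (T.symm h)
      apply T.injective
      rw [h1, LinearEquiv.apply_symm_apply, LinearEquiv.apply_symm_apply]
    · intro v
      obtain ⟨s, hs⟩ := h2 (ρ k⁻¹ v)
      refine ⟨s, ?_⟩
      intro h
      change T.symm (L β v h) = sg s • L β (ρ k⁻¹ v) (T.symm h)
      apply T.injective
      rw [map_smul, hs, LinearEquiv.apply_symm_apply, LinearEquiv.apply_symm_apply, sg_smul_smul]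
      congr 1
      have : ρ k (ρ k⁻¹ v) = v := by
        rw [← Module.End.mul_apply, ← map_mul, mul_inv_cancel, map_one]; rfl
      rw [this]

theorem mem_GG (p : K × ((U → ZMod 3) ≃ₗ[ZMod 3] (U → ZMod 3))) : p ∈ GG β ρ ↔
    (∀ v h, p.2 (R β v h) = R β v (p.2 h)) ∧
    ∀ v, ∃ s : ZMod 2, ∀ h, p.2 (L β v h) = sg s • L β (ρ p.1 v) (p.2 h) := Iff.rfl

/-- the projection to `K` -/
def pr : ↥(GG β ρ) →* K := (MonoidHom.fst K _).comp (GG β ρ).subtype

theorem pr_apply (p : ↥(GG β ρ)) : pr β ρ p = p.1.1 := rfl

theorem pr_surjective (hnd : ∀ u, (∀ v, β u v + β v u = 0) → u = 0)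
    (hq : ∀ (k : K) (u : U), β (ρ k u) (ρ k u) = β u u) : Function.Surjective (pr β ρ) := by
  intro k
  obtain ⟨T, f, h1, h2⟩ := exists_intertwiner β hnd (ρ k) (hq k)
  exact ⟨⟨(k, T), h1, fun v => ⟨f v, h2 v⟩⟩, rfl⟩

/-- the elements of the kernel -/
theorem exists_of_ker (hnd : ∀ u, (∀ v, β u v + β v u = 0) → u = 0)
    (p : ↥(GG β ρ)) (hp : pr β ρ p = 1) : ∃ (v : U) (c : ZMod 2), ∀ h, p.1.2 h = sg c • L β v h := by
  obtain ⟨⟨k, T⟩, h1, h2⟩ := p
  rw [pr_apply] at hp
  simp only at hp h1 h2 ⊢
  subst hp
  choose s hs using h2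
  have hs1 : ∀ v h, T (L β v h) = sg (s v) • L β v (T h) := by
    intro v h
    rw [hs v h, map_one]; rfl
  -- s is additive
  have hadd : ∀ u v, s (u + v) = s u + s v := by
    intro u v
    have e1 : T (L β u (L β v (dl 0))) = sg (s u + s v) • L β u (L β v (T (dl 0))) := by
      rw [hs1, hs1, map_smul, smul_smul, sg_add]
    have e2 : T (L β u (L β v (dl 0))) = sg (s (u + v)) • L β u (L β v (T (dl 0))) := by
      rw [L_L, map_smul, hs1, L_L, smul_smul, smul_smul, mul_comm]
    have hT0 : T (dl 0) ≠ 0 := by
      intro h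
      have : (dl 0 : U → ZMod 3) = 0 := T.injective (by rw [h, map_zero])
      have h' := congrFun this 0
      simp [dl] at h'
    have hinj : ∀ u (h : U → ZMod 3), L β u h = 0 → h = 0 := by
      intro u h hh
      have := L_L_self β u h
      rw [hh, map_zero] at this
      have h3 : sg (β u u) • (sg (β u u) • h) = 0 := by rw [← this, smul_zero]
      rwa [sg_smul_smul] at h3
    have hne : L β u (L β v (T (dl 0))) ≠ 0 := fun h => hT0 (hinj _ _ (hinj _ _ h))
    obtain ⟨x, hx⟩ : ∃ x, L β u (L β v (T (dl 0))) x ≠ 0 := by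
      by_contra h; push Not at h; exact hne (funext h)
    have e3 := congrFun (e1.symm.trans e2) x
    rw [Pi.smul_apply, Pi.smul_apply, smul_eq_mul, smul_eq_mul] at e3
    exact (sg_inj (mul_right_cancel₀ hx e3)).symm
  -- s is a functional
  have hs0 : s 0 = 0 := by
    have := hadd 0 0
    rw [add_zero] at this
    have h' : ∀ x : ZMod 2, x = x + x → x = 0 := by decide
    exact h' _ this
  let sl : U →ₗ[ZMod 2] ZMod 2 :=
    { toFun := s
      map_add' := hadd
      map_smul' := by
        intro c x
        have : c = 0 ∨ c = 1 := by revert c; decide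
        rcases this with rfl | rfl
        · simp [hs0]
        · simp }
  have : Module.Finite (ZMod 2) U := Module.Finite.of_finite
  have hnd' : (β + β.flip).Nondegenerate := by
    refine ⟨?_, ?_⟩
    · intro u hu
      apply hnd
      intro v
      have := hu v
      rwa [LinearMap.add_apply, LinearMap.add_apply, LinearMap.BilinForm.flip_apply] at this
    · intro u hu
      apply hnd
      intro v
      have := hu v
      rw [LinearMap.add_apply, LinearMap.add_apply, LinearMap.BilinForm.flip_apply] at this
      rwa [add_comm]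
  obtain ⟨v, hv⟩ : ∃ v, (β + β.flip) v = sl := by
    have := (LinearMap.BilinForm.toDual (β + β.flip) hnd').surjective sl
    obtain ⟨v, hv⟩ := this
    refine ⟨v, ?_⟩
    rw [← hv]
    ext w
    rw [LinearMap.BilinForm.toDual_def]
  have hv' : ∀ w, s w = β v w + β w v := by
    intro w
    have h := congrArg (fun l => l w) hv
    simp only [LinearMap.add_apply, LinearMap.BilinForm.flip_apply] at h
    exact h.symm
  -- L v T commutes with everything
  obtain ⟨c, hc⟩ := scalar_of_comm β hnd (L β v ∘ₗ (T : (U → ZMod 3) →ₗ[ZMod 3] (U → ZMod 3))) (by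
    intro w h
    simp only [LinearMap.comp_apply, LinearEquiv.coe_coe]
    rw [h1, L_R]) (by
    intro w h
    simp only [LinearMap.comp_apply, LinearEquiv.coe_coe]
    rw [hs1, map_smul, L_L, L_L, smul_smul, hv', ← sg_add]
    have e : β v w + β w v + β v w = β w v := by
      have h1 := CharTwo.add_self_eq_zero (β v w)
      linear_combination h1
    rw [e, add_comm v w])
  simp only [LinearMap.comp_apply, LinearEquiv.coe_coe] at hc
  have hTc : ∀ h, T h = (sg (β v v) * c) • L β v h := by
    intro h
    have h2 := congrArg (fun f => sg (β v v) • L β v f) (hc h)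
    rw [L_L_self, sg_smul_smul] at h2
    rw [h2, map_smul, smul_smul]
  have hcne : sg (β v v) * c ≠ 0 := by
    intro h0
    have h3 := hTc (dl 0)
    rw [h0, zero_smul] at h3
    have : (dl 0 : U → ZMod 3) = 0 := T.injective (by rw [h3, map_zero])
    have h' := congrFun this 0
    simp [dl] at h'
  obtain ⟨d, hd⟩ := exists_sg hcne
  refine ⟨v, d, ?_⟩
  intro h
  rw [← hd]; exact hTc h

theorem sgL_inj {u v : U} {c d : ZMod 2} (h : sg c • L β u (dl 0) = sg d • L β v (dl 0)) :
    u = v ∧ c = d := by
  rw [L_dl, L_dl] at h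
  simp only [map_zero, sg_zero, one_smul, add_zero] at h
  have h1 := congrFun h u
  simp only [Pi.smul_apply, dl, Pi.single_apply, smul_eq_mul, if_true, mul_one] at h1
  by_cases huv : u = v
  · subst huv
    simp only [if_true, mul_one] at h1
    exact ⟨rfl, sg_inj h1⟩
  · exfalso
    rw [if_neg huv, mul_zero] at h1
    exact sg_ne_zero _ h1

/-- `± L v` as an element of the group -/
theorem exists_elt (v : U) (c : ZMod 2) : ∃ p : ↥(GG β ρ), pr β ρ p = 1 ∧ ∀ h, p.1.2 h = sg c • L β v h := by
  have hb : Function.Injective (sg c • L β v) := by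
    rw [← LinearMap.ker_eq_bot, LinearMap.ker_eq_bot']
    intro h hh
    rw [LinearMap.smul_apply] at hh
    have h2 : sg c • (sg c • L β v h) = 0 := by rw [hh, smul_zero]
    rw [sg_smul_smul] at h2
    have := L_L_self β v h
    rw [h2, map_zero] at this
    have h3 : sg (β v v) • (sg (β v v) • h) = 0 := by rw [← this, smul_zero]
    rwa [sg_smul_smul] at h3
  let T := LinearEquiv.ofInjectiveEndo (sg c • L β v) hb
  have hT : ∀ h, T h = sg c • L β v h := fun h => rfl
  refine ⟨⟨(1, T), ?_, ?_⟩, rfl, hT⟩
  · intro w h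
    simp only [hT]
    rw [L_R, map_smul]
  · intro w
    refine ⟨β v w + β w v, ?_⟩
    intro h
    simp only [hT, map_one, map_smul]
    rw [L_L, Module.End.one_apply, L_L]
    simp only [smul_smul]
    rw [add_comm v w]
    congr 1
    have e : β v w = (β v w + β w v) + β w v := by
      have h1 := CharTwo.add_self_eq_zero (β w v)
      linear_combination (-1) * h1
    have e2 : sg (β v w) = sg (β v w + β w v) * sg (β w v) := by
      rw [← sg_add, ← e]
    rw [e2]; ring

end Cfsg.Agent.H281.Tw
end

-- part: S3084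
section
set_option autoImplicit false
open Cfsg

namespace Cfsg.Agent.S3084

open Cfsg.Agent.H281.Tw in
theorem main0 {K : Type} [Group K] [Finite K] {U : Type} [AddCommGroup U] [Module (ZMod 2) U] [Module.Finite (ZMod 2) U] (n : ℕ) (hn1 : 1 ≤ n) (hn : Module.finrank (ZMod 2) U = 2 * n) (ρ : Representation (ZMod 2) K U) (q : QuadraticForm (ZMod 2) U) (hq : ∀ (k : K) (u : U), q (ρ k u) = q u) (hnd : (QuadraticMap.polarBilin q).Nondegenerate) : ∃ (R : Type) (_ : Group R) (_ : Finite R) (Q : Subgroup R) (hN : Q.Normal) (e : R ⧸ Q ≃* K) (χ : ↥Q →* Multiplicative U), Cfsg.IsExtraspecial 2 ↥Q ∧ Nat.card ↥Q = 2 ^ (2 * n + 1) ∧ Function.Surjective χ ∧ χ.ker = Subgroup.center ↥Q ∧ (∀ (r : R) (a : ↥Q), χ ⟨r * a * r⁻¹, hN.conj_mem (a : R) a.2 r⟩ = Multiplicative.ofAdd (ρ (e (r : R ⧸ Q)) (Multiplicative.toAdd (χ a)))) ∧ ∀ a : ↥Q, a * a = 1 ↔ q (Multiplicative.toAdd (χ a)) = 0 := by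
  classical
  have hfU : Finite U := Module.finite_of_finite (ZMod 2)
  have : Fintype U := Fintype.ofFinite U
  -- the bilinear form
  let β : LinearMap.BilinForm (ZMod 2) U := q.toBilin (Module.finBasis (ZMod 2) U)
  have hβ : ∀ u, β u u = q u := by
    intro u
    have h := QuadraticMap.toQuadraticMap_toBilin q (Module.finBasis (ZMod 2) U)
    have h2 := congrArg (fun (f : QuadraticForm (ZMod 2) U) => f u) h
    exact h2
  have hpol : ∀ u v, QuadraticMap.polar q u v = β u v + β v u := by
    intro u v
    rw [QuadraticMap.polar, ← hβ, ← hβ, ← hβ]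
    simp only [map_add, LinearMap.add_apply]; ring
  have hndβ : ∀ u, (∀ v, β u v + β v u = 0) → u = 0 := by
    intro u hu
    apply hnd.1
    intro v
    rw [QuadraticMap.polarBilin_apply_apply, hpol]
    exact hu v
  have hqβ : ∀ (k : K) (u : U), β (ρ k u) (ρ k u) = β u u := by
    intro k u; rw [hβ, hβ, hq]
  have hcardU : Nat.card U = 2 ^ (2 * n) := by
    have := Module.card_eq_pow_finrank (K := ZMod 2) (V := U)
    rw [hn] at this
    rw [Nat.card_eq_fintype_card, this]
    simp
  have hfT : Finite ((U → ZMod 3) ≃ₗ[ZMod 3] (U → ZMod 3)) :=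
    Finite.of_injective (fun T => (T : (U → ZMod 3) → (U → ZMod 3))) DFunLike.coe_injective
  have hfG : Finite ↥(GG β ρ) := inferInstance
  have hker : ∀ a : ↥(pr β ρ).ker, ∃ (v : U) (c : ZMod 2), ∀ h, a.1.1.2 h = sg c • L β v h :=
    fun a => exists_of_ker β ρ hndβ a.1 ((MonoidHom.mem_ker).1 a.2)
  choose w d hwd using hker
  have huniq : ∀ (a : ↥(pr β ρ).ker) (v : U) (c : ZMod 2), (∀ h, a.1.1.2 h = sg c • L β v h) →
      w a = v ∧ d a = c := by
    intro a v c h
    apply sgL_inj β
    rw [← hwd, ← h]
  -- equality in the kernel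
  have hext : ∀ a b : ↥(pr β ρ).ker, w a = w b → d a = d b → a = b := by
    intro a b h1 h2
    apply Subtype.ext
    apply Subtype.ext
    apply Prod.ext
    · have e1 : a.1.1.1 = 1 := (MonoidHom.mem_ker).1 a.2
      have e2 : b.1.1.1 = 1 := (MonoidHom.mem_ker).1 b.2
      rw [e1, e2]
    · apply LinearEquiv.ext
      intro h
      rw [hwd, hwd, h1, h2]
  have hmul : ∀ a b : ↥(pr β ρ).ker, w (a * b) = w a + w b ∧ d (a * b) = d a + d b + β (w a) (w b) := by
    intro a b
    apply huniq
    intro h
    change a.1.1.2 (b.1.1.2 h) = _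
    rw [hwd, hwd, map_smul, L_L, smul_smul, smul_smul, sg_add, sg_add]
  have hone : w 1 = 0 ∧ d 1 = 0 := by
    apply huniq
    intro h
    change h = _
    rw [L_zero, sg_zero, one_smul]
  let χ : ↥(pr β ρ).ker →* Multiplicative U :=
    { toFun := fun a => Multiplicative.ofAdd (w a)
      map_one' := by rw [hone.1]; rfl
      map_mul' := fun a b => by rw [(hmul a b).1]; rfl }
  have hχ : ∀ a, Multiplicative.toAdd (χ a) = w a := fun a => rfl
  have hsurj : ∀ v c, ∃ a : ↥(pr β ρ).ker, w a = v ∧ d a = c := by
    intro v c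
    obtain ⟨p, hp, hp2⟩ := exists_elt β ρ v c
    exact ⟨⟨p, (MonoidHom.mem_ker).2 hp⟩, huniq _ v c hp2⟩
  have hχs : Function.Surjective χ := by
    intro v
    obtain ⟨a, ha, _⟩ := hsurj (Multiplicative.toAdd v) 0
    exact ⟨a, by change Multiplicative.ofAdd (w a) = v; rw [ha]; rfl⟩
  have hχk : ∀ a, a ∈ χ.ker ↔ w a = 0 := by
    intro a
    rw [MonoidHom.mem_ker]
    constructor
    · intro h
      rw [← hχ, h]; rfl
    · intro h
      change Multiplicative.ofAdd (w a) = 1
      rw [h]; rfl
  have hcen : χ.ker = Subgroup.center _ := by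
    ext a
    rw [hχk, Subgroup.mem_center_iff]
    constructor
    · intro ha b
      apply hext
      · rw [(hmul _ _).1, (hmul _ _).1, add_comm]
      · rw [(hmul _ _).2, (hmul _ _).2, ha]
        simp only [map_zero, LinearMap.zero_apply]
        ring
    · intro ha
      apply hndβ
      intro v
      obtain ⟨b, hb, _⟩ := hsurj v 0
      have h := congrArg d (ha b)
      rw [(hmul _ _).2, (hmul _ _).2, hb] at h
      have key : ∀ x y s t : ZMod 2, t + s + y = s + t + x → x + y = 0 := by decide
      exact key _ _ _ _ h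
  have hkc : Nat.card χ.ker = 2 := by
    have : Nat.card χ.ker = Nat.card (ZMod 2) := by
      refine Nat.card_congr (Equiv.ofBijective (fun a : χ.ker => d a.1) ⟨?_, ?_⟩)
      · intro a b h
        apply Subtype.ext
        apply hext
        · rw [(hχk _).1 a.2, (hχk _).1 b.2]
        · exact h
      · intro c
        obtain ⟨a, ha, hc⟩ := hsurj 0 c
        exact ⟨⟨a, (hχk a).2 ha⟩, hc⟩
    rw [this, Nat.card_zmod]
  have hcard : Nat.card ↥(pr β ρ).ker = 2 ^ (2 * n + 1) := by
    have h1 := Subgroup.card_mul_index χ.ker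
    rw [Subgroup.index_ker, MonoidHom.range_eq_top.2 hχs, Subgroup.card_top] at h1
    rw [← h1, hkc]
    change 2 * Nat.card U = _
    rw [hcardU, pow_succ, mul_comm]
  have hsq : ∀ a : ↥(pr β ρ).ker, w (a * a) = 0 ∧ d (a * a) = q (w a) := by
    intro a
    refine ⟨?_, ?_⟩
    · rw [(hmul _ _).1, add_self]
    · rw [(hmul _ _).2, hβ, CharTwo.add_self_eq_zero, zero_add]
  have hsq1 : ∀ a : ↥(pr β ρ).ker, a * a = 1 ↔ q (Multiplicative.toAdd (χ a)) = 0 := by
    intro a
    rw [hχ]
    constructor
    · intro h
      rw [← (hsq a).2, h, hone.2]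
    · intro h
      apply hext
      · rw [(hsq a).1, hone.1]
      · rw [(hsq a).2, hone.2, h]
  have hES : Cfsg.IsExtraspecial 2 ↥(pr β ρ).ker := by
    apply Cfsg.Agent.J2.ExtQuot.isExtraspecial_two
    · exact IsPGroup.of_card hcard
    · rw [← hcen]; exact hkc
    · intro a
      rw [← hcen, pow_two, hχk]
      exact (hsq a).1
    · by_contra hcon
      push Not at hcon
      have hnt : Nontrivial U := by
        rw [← Finite.one_lt_card_iff_nontrivial, hcardU]
        exact Nat.one_lt_pow (by omega) (by norm_num)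
      obtain ⟨u, hu⟩ := exists_ne (0 : U)
      apply hu
      apply hndβ
      intro v
      obtain ⟨a, ha, _⟩ := hsurj u 0
      obtain ⟨b, hb, _⟩ := hsurj v 0
      have h := congrArg d (hcon a b)
      rw [(hmul _ _).2, (hmul _ _).2, ha, hb] at h
      have key : ∀ x y s t : ZMod 2, s + t + x = t + s + y → x + y = 0 := by decide
      exact key _ _ _ _ h
  refine ⟨↥(GG β ρ), inferInstance, hfG, (pr β ρ).ker, inferInstance,
    QuotientGroup.quotientKerEquivOfSurjective (pr β ρ) (pr_surjective β ρ hndβ hqβ), χ,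
    hES, hcard, hχs, hcen, ?_, hsq1⟩
  intro r a
  have e1 : (QuotientGroup.quotientKerEquivOfSurjective (pr β ρ) (pr_surjective β ρ hndβ hqβ))
      (r : ↥(GG β ρ) ⧸ (pr β ρ).ker) = r.1.1 := rfl
  rw [e1, hχ]
  change Multiplicative.ofAdd (w _) = _
  congr 1
  obtain ⟨s, hs⟩ := r.2.2 (w a)
  refine (huniq _ (ρ r.1.1 (w a)) (d a + s) ?_).1
  intro h
  change r.1.2 (a.1.1.2 (r.1.2.symm h)) = _
  rw [hwd, map_smul, hs, LinearEquiv.apply_symm_apply, smul_smul, sg_add]

/-- Let K be a group acting faithfully and linearly on a finite-dimensional vector space U of dimension 2n ≥ 2 over the field with two elements, preserving a quadratic form q whose polar bilinear form is non-degenerate and which vanishes on some n-dimensional subspace (a non-singular form of plus type). Then there is a finite group R with a normal extraspecial 2-subgroup Q of order 2^(2n+1), an isomorphism of R/Q with K, and a surjective homomorphism χ from Q onto (the additive group of) U with kernel the centre of Q, such that χ carries conjugation by any r in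 R to the action of the image of r in K, and an element a of Q squares to the identity exactly when q vanishes at χ(a). -/
theorem result {K : Type*} [Group K] {U : Type*} [AddCommGroup U] [Module (ZMod 2) U] [Module.Finite (ZMod 2) U] (n : ℕ) (hn1 : 1 ≤ n) (hn : Module.finrank (ZMod 2) U = 2 * n) (ρ : Representation (ZMod 2) K U) (hρ : Function.Injective ρ) (q : QuadraticForm (ZMod 2) U) (hq : ∀ (k : K) (u : U), q (ρ k u) = q u) (hnd : (QuadraticMap.polarBilin q).Nondegenerate) (hplus : ∃ W : Submodule (ZMod 2) U, Module.finrank (ZMod 2) ↥W = n ∧ ∀ w ∈ W, q w = 0) : ∃ (R : Type) (_ : Group R) (_ : Finite R) (Q : Subgroup R) (hN : Q.Normal) (e : R ⧸ Q ≃* K) (χ : ↥Q →* Multiplicative U), Cfsg.IsExtraspecial 2 ↥Q ∧ Nat.card ↥Q = 2 ^ (2 * n + 1) ∧ Function.Surjective χ ∧ χ.ker = Subgroup.center ↥Q ∧ (∀ (r : R) (a : ↥Q), χ ⟨r * a * r⁻¹, hN.conj_mem (a : R) a.2 r⟩ = Multiplicative.ofAdd (ρ (e (r : R ⧸ Q)) (Multiplicative.toAdd (χ a)))) ∧ ∀ a : ↥Q, a * a = 1 ↔ q (Multiplicative.toAdd (χ a)) = 0 := by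
  have hfU : Finite U := Module.finite_of_finite (ZMod 2)
  have hfE : Finite (Module.End (ZMod 2) U) :=
    Finite.of_injective (fun T => (T : U → U)) DFunLike.coe_injective
  have hfK : Finite K := Finite.of_injective ρ hρ
  have hsK : Small.{0} K := Countable.toSmall K
  let eK : Shrink.{0} K ≃* K := Shrink.mulEquiv
  have hfK' : Finite (Shrink.{0} K) := Finite.of_equiv K eK.symm.toEquiv
  let eU : U ≃ₗ[ZMod 2] (Fin (2 * n) → ZMod 2) := (Module.finBasisOfFinrankEq (ZMod 2) U hn).equivFun
  let ρ' : Representation (ZMod 2) (Shrink.{0} K) (Fin (2 * n) → ZMod 2) :=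
    { toFun := fun k => eU.toLinearMap ∘ₗ ρ (eK k) ∘ₗ eU.symm.toLinearMap
      map_one' := by
        apply LinearMap.ext
        intro x
        simp
      map_mul' := by
        intro a b
        apply LinearMap.ext
        intro x
        simp [Module.End.mul_apply] }
  have hρ' : ∀ k x, ρ' k x = eU (ρ (eK k) (eU.symm x)) := fun k x => rfl
  let q' : QuadraticForm (ZMod 2) (Fin (2 * n) → ZMod 2) := q.comp eU.symm.toLinearMap
  have hq' : ∀ x, q' x = q (eU.symm x) := fun x => rfl
  obtain ⟨R, hG, hF, Q, hN, e, χ, h1, h2, h3, h4, h5, h6⟩ := main0 n hn1 (by simp) ρ' q'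
    (by intro k u; rw [hq', hq', hρ', LinearEquiv.symm_apply_apply, hq])
    (by
      have hp : ∀ x y, QuadraticMap.polar q' x y = QuadraticMap.polar q (eU.symm x) (eU.symm y) := by
        intro x y
        rw [QuadraticMap.polar, QuadraticMap.polar, hq', hq', hq', map_add]
      refine ⟨?_, ?_⟩
      · intro x hx
        have : eU.symm x = 0 := by
          apply hnd.1
          intro v
          have := hx (eU v)
          rw [QuadraticMap.polarBilin_apply_apply, hp, LinearEquiv.symm_apply_apply] at this
          rw [QuadraticMap.polarBilin_apply_apply]; exact this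
        exact (LinearEquiv.map_eq_zero_iff _).1 this
      · intro x hx
        have : eU.symm x = 0 := by
          apply hnd.2
          intro v
          have := hx (eU v)
          rw [QuadraticMap.polarBilin_apply_apply, hp, LinearEquiv.symm_apply_apply] at this
          rw [QuadraticMap.polarBilin_apply_apply]; exact this
        exact (LinearEquiv.map_eq_zero_iff _).1 this)
  let ψ : Multiplicative (Fin (2 * n) → ZMod 2) ≃* Multiplicative U :=
    AddEquiv.toMultiplicative eU.symm.toAddEquiv
  have hψ : ∀ x, Multiplicative.toAdd (ψ x) = eU.symm (Multiplicative.toAdd x) := fun x => rfl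
  refine ⟨R, hG, hF, Q, hN, e.trans eK, ψ.toMonoidHom.comp χ, h1, h2, ?_, ?_, ?_, ?_⟩
  · exact ψ.surjective.comp h3
  · rw [← h4]
    ext a
    rw [MonoidHom.mem_ker, MonoidHom.mem_ker]
    exact MulEquiv.map_eq_one_iff ψ
  · intro r a
    change ψ (χ _) = _
    rw [h5]
    change Multiplicative.ofAdd (eU.symm _) = Multiplicative.ofAdd (ρ (eK (e _)) (eU.symm _))
    rw [toAdd_ofAdd, hρ', LinearEquiv.symm_apply_apply]
  · intro a
    rw [h6, hq']
    rfl

end Cfsg.Agent.S3084
end
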