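import Mathlib
import Cfsg.Prelude.Def_CaseTheorems
import Cfsg.Agent.H168.AltEight
import Cfsg.Agent.Lib.SolvableMinNormal
import Cfsg.Agent.Lib.Cores
import Cfsg.Agent.S0255
import Cfsg.Agent.GH.GL4Main_mg
import Cfsg.Statements.S3104
import Cfsg.Agent.S3103
import Cfsg.Agent.GH.C2Five
import Cfsg.Agent.GH.C2Act
import Cfsg.Agent.GH.C2TwoMain
import Cfsg.Agent.PLocal.SectionFrattini
import Cfsg.Agent.PLocal.PConstrained
import Cfsg.Agent.Lib.FrattiniPGroup
set_option linter.all false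

-- part: H286/AltEightThree
section
/-!
# Nonsolvable subgroups of `A₈` without normal 2-subgroups (helper286)

* `three_case` : `H ≤ A₈` nonsolvable, `O₂(H) = 1`, with a nontrivial solvable normal subgroup: `|O₃(H)| = 3` and
  `H / O₃(H)` is `A₅` or `S₅`.
* `main` : the complete list.
-/

set_option autoImplicit false

namespace Cfsg.Agent.H286.AltEightThree

open Subgroup Equiv Cfsg Cfsg.Agent.H168.NoSolv

/-! ### centralizers in `S₈` -/

theorem cycleType_of_order {p : ℕ} (hp : p.Prime) (h5 : 5 ≤ p) (σ : Perm (Fin 8)) (h : orderOf σ = p) :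
    σ.cycleType = {p} := by
  have h2 : σ.IsCycle := Equiv.Perm.isCycle_of_prime_order' (by rw [h]; exact hp) (by
    rw [h, Fintype.card_fin]; omega)
  rw [h2.cycleType, ← h2.orderOf, h]

theorem card_cent_five (σ : Perm (Fin 8)) (h : orderOf σ = 5) :
    Nat.card (centralizer ({σ} : Set (Perm (Fin 8)))) = 30 := by
  rw [Equiv.Perm.nat_card_centralizer, cycleType_of_order (by norm_num) le_rfl σ h]
  simp [Nat.factorial]

theorem card_cent_seven (σ : Perm (Fin 8)) (h : orderOf σ = 7) :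
    Nat.card (centralizer ({σ} : Set (Perm (Fin 8)))) = 7 := by
  rw [Equiv.Perm.nat_card_centralizer, cycleType_of_order (by norm_num) (by norm_num) σ h]
  simp [Nat.factorial]

/-- the centralizer of an element of order 3 which is not a 3-cycle -/
theorem three_cases (σ : Perm (Fin 8)) (h : orderOf σ = 3) :
    σ.IsThreeCycle ∨ Nat.card (centralizer ({σ} : Set (Perm (Fin 8)))) = 36 := by
  have h3 : Fact (Nat.Prime 3) := ⟨Nat.prime_three⟩
  obtain ⟨n, hn⟩ := Equiv.Perm.cycleType_prime_order (σ := σ) (by rw [h]; exact Nat.prime_three)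
  rw [h] at hn
  have h8 : σ.cycleType.sum ≤ 8 := by
    rw [Equiv.Perm.sum_cycleType]
    have := Finset.card_le_univ σ.support
    rwa [Fintype.card_fin] at this
  rw [hn, Multiset.sum_replicate, smul_eq_mul] at h8
  have hn1 : n = 0 ∨ n = 1 := by omega
  rcases hn1 with rfl | rfl
  · left
    change σ.cycleType = {3}
    rw [hn]; rfl
  · right
    rw [Equiv.Perm.nat_card_centralizer, hn]
    decide

/-! ### the solvable radical -/

theorem exists_core {H : Type*} [Group H] [Finite H] (hR : ¬ Rad H) : ∃ p : ℕ, p.Prime ∧ pCore p H ≠ ⊥ := by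
  unfold Rad at hR
  push Not at hR
  obtain ⟨N, hN, hs, hne⟩ := hR
  have hnt : Nontrivial N := (Subgroup.nontrivial_iff_ne_bot N).2 hne
  obtain ⟨p, hp, M, hM, -, hMp, hMne⟩ := Lib.SolvableMinNormal.exists_characteristic_pgroup (G := N)
  refine ⟨p, hp, ?_⟩
  have hMn : (M.map N.subtype).Normal := inferInstance
  have h1 := Lib.Cores.le_pCore hMn (hMp.map N.subtype)
  intro h
  rw [h, le_bot_iff, Subgroup.map_eq_bot_iff_of_injective _ N.subtype_injective] at h1
  exact hMne h1

theorem not_solvable_quotient {H : Type*} [Group H] [Finite H] (hs : ¬ Group.IsSolvable H) (N : Subgroup H)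
    [N.Normal] (h : Group.IsSolvable N) : ¬ Group.IsSolvable (H ⧸ N) := fun h2 =>
  hs ((Group.isSolvable_iff_subgroup_quotient (H := N)).2 ⟨h, h2⟩)

theorem solvable_of_lt {H : Type*} [Group H] [Finite H] (h : Nat.card H < 60) : Group.IsSolvable H := by
  by_contra hc
  have := sixty_le hc
  omega

/-- the centralizer of a normal subgroup of prime order -/
theorem cent_not_solvable {H : Type*} [Group H] [Finite H] (hs : ¬ Group.IsSolvable H) {A : Subgroup H}
    [hA : A.Normal] {p : ℕ} (hp : p.Prime) (hp8 : p < 60) (hc : Nat.card A = p) :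
    ¬ Group.IsSolvable (centralizer (A : Set H)) := by
  intro h
  have := Fact.mk hp
  have hcyc : IsCyclic A := isCyclic_of_prime_card hc
  have h1 : Group.IsSolvable (MulAut A) := by
    apply solvable_of_lt
    rw [IsCyclic.card_mulAut, hc, Nat.totient_prime hp]
    omega
  apply hs
  refine Group.isSolvable_of_ker_le_range (centralizer (A : Set H)).subtype (MulAut.conjNormal (H := A)) ?_
  rw [range_subtype]
  intro x hx
  rw [mem_centralizer_iff]
  intro a ha
  have h2 := congrArg (fun f : MulAut A => ((f ⟨a, ha⟩ : A) : H)) (MonoidHom.mem_ker.1 hx)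
  change ((MulAut.conjNormal x ⟨a, ha⟩ : A) : H) = a at h2
  rw [MulAut.conjNormal_apply] at h2
  exact (mul_inv_eq_iff_eq_mul.1 h2).symm

section

variable {H : Type*} [Group H] [Finite H] (κ : H →* Perm (Fin 8)) (hκ : Function.Injective κ)

include hκ

theorem card_dvd_cent (y : H) {B : Subgroup H} (hB : ∀ b ∈ B, b * y = y * b) :
    Nat.card B ∣ Nat.card (centralizer ({κ y} : Set (Perm (Fin 8)))) := by
  have h1 : B.map κ ≤ centralizer ({κ y} : Set (Perm (Fin 8))) := by
    rintro _ ⟨b, hb, rfl⟩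
    rw [mem_centralizer_singleton_iff, ← map_mul, ← map_mul, hB b hb]
  rw [← Subgroup.card_map_of_injective hκ]
  exact Subgroup.card_dvd_of_le h1

/-- no normal subgroup of order 5 or 7 -/
theorem core_bot (hd : Nat.card H ∣ 20160) (hs : ¬ Group.IsSolvable H) {p : ℕ} (hp : p = 5 ∨ p = 7) :
    pCore p H = ⊥ := by
  have hpp : p.Prime := by rcases hp with rfl | rfl <;> norm_num
  have hF := Fact.mk hpp
  by_contra hne
  set A := pCore p H with hA
  have hAn : A.Normal := Lib.Cores.pCore_normal p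
  have hAp : IsPGroup p A := Lib.Cores.pCore_isPGroup p
  have hc : Nat.card A = p := by
    obtain ⟨n, hn⟩ := IsPGroup.iff_card.1 hAp
    have h1 : Nat.card A ∣ 20160 := (Subgroup.card_subgroup_dvd_card A).trans hd
    have hn1 : 1 ≤ n := by
      by_contra h
      have h0 : n = 0 := by omega
      rw [h0, pow_zero] at hn
      exact hne (Subgroup.eq_bot_of_card_eq A hn)
    have hn2 : n ≤ 1 := by
      by_contra h
      have h2 : p ^ 2 ∣ 20160 := (pow_dvd_pow p (by omega : 2 ≤ n)).trans (hn ▸ h1)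
      rcases hp with rfl | rfl
      · norm_num at h2
      · norm_num at h2
    have h3 : n = 1 := by omega
    rw [hn, h3, pow_one]
  obtain ⟨a, ha⟩ := exists_prime_orderOf_dvd_card' (G := A) p (by rw [hc])
  have hoa : orderOf (κ (a : H)) = p := by
    rw [orderOf_injective κ hκ, Subgroup.orderOf_coe, ha]
  apply cent_not_solvable hs hpp (by rcases hp with rfl | rfl <;> norm_num) hc
  apply solvable_of_lt
  have h1 := card_dvd_cent κ hκ (a : H) (B := centralizer (A : Set H)) (fun b hb =>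
    (mem_centralizer_iff.1 hb (a : H) a.2).symm)
  have h2 := Nat.le_of_dvd Nat.card_pos h1
  rcases hp with rfl | rfl
  · rw [card_cent_five _ hoa] at h2; omega
  · rw [card_cent_seven _ hoa] at h2; omega

/-- an element of order 5 or 7 centralizes a normal 3-subgroup -/
theorem three_comm {A : Subgroup H} [hAn : A.Normal] (h39 : Nat.card A = 3 ∨ Nat.card A = 9) {r : ℕ}
    (hr : r = 5 ∨ r = 7) {y : H} (hy : orderOf y = r) : ∀ a ∈ A, a * y = y * a := by
  have hrp : r.Prime := by rcases hr with rfl | rfl <;> norm_num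
  have hF := Fact.mk hrp
  let Z := zpowers y
  have hZ : IsPGroup r Z := IsPGroup.of_card (n := 1) (by rw [pow_one, Nat.card_zpowers, hy])
  let act : MulAction Z ↥A :=
    { smul := fun a p => ⟨(a : H) * p * (a : H)⁻¹, hAn.conj_mem p p.2 a⟩
      one_smul := fun p => Subtype.ext (by
        change ((1 : Z) : H) * p * ((1 : Z) : H)⁻¹ = p
        simp)
      mul_smul := fun a b p => Subtype.ext (by
        change ((a * b : Z) : H) * p * ((a * b : Z) : H)⁻¹ = (a : H) * ((b : H) * p * (b : H)⁻¹) * (a : H)⁻¹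
        rw [coe_mul]; group) }
  have hsm : ∀ (a : Z) (p : ↥A), ((a • p : ↥A) : H) = (a : H) * p * (a : H)⁻¹ := fun a p => rfl
  let C : Subgroup ↥A := (centralizer ({y} : Set H)).subgroupOf A
  have hCmem : ∀ p : ↥A, p ∈ C ↔ p * y = y * p := by
    intro p
    change (p : H) ∈ centralizer ({y} : Set H) ↔ _
    rw [mem_centralizer_singleton_iff]
  have hfix : ∀ p : ↥A, p ∈ MulAction.fixedPoints Z ↥A ↔ p ∈ C := by
    intro p
    rw [MulAction.mem_fixedPoints, hCmem]
    constructor
    · intro h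
      have h1 := congrArg Subtype.val (h ⟨y, mem_zpowers y⟩)
      rw [hsm] at h1
      exact (mul_inv_eq_iff_eq_mul.1 h1).symm
    · intro h a
      apply Subtype.ext
      rw [hsm]
      obtain ⟨k, hk⟩ := mem_zpowers_iff.1 a.2
      have h2 : Commute y (p : H) := h.symm
      have h3 : Commute (a : H) (p : H) := by rw [← hk]; exact h2.zpow_left k
      rw [h3.eq, mul_inv_cancel_right]
  have h1 := hZ.card_modEq_card_fixedPoints (α := ↥A)
  have h2 : Nat.card (MulAction.fixedPoints Z ↥A) = Nat.card C :=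
    Nat.card_congr (Equiv.subtypeEquivRight hfix)
  rw [h2] at h1
  have h3 : Nat.card C ∣ 3 ^ 2 := by
    have h4 := Subgroup.card_subgroup_dvd_card C
    rcases h39 with h5 | h5
    · rw [h5] at h4; exact h4.trans (by norm_num)
    · rw [h5] at h4; exact h4
  obtain ⟨k, hk, hk2⟩ := (Nat.dvd_prime_pow Nat.prime_three).1 h3
  have h4 : Nat.card C = Nat.card A := by
    have h5 : Nat.card A % r = Nat.card C % r := h1
    rw [hk2] at h5 ⊢
    rcases hr with rfl | rfl <;> rcases h39 with h6 | h6 <;> rw [h6] at h5 ⊢ <;> interval_cases k <;>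
      first | rfl | (norm_num at h5)
  have h5 : C = ⊤ := Subgroup.eq_top_of_card_eq C h4
  intro a ha
  have h6 : (⟨a, ha⟩ : A) ∈ C := by rw [h5]; exact mem_top _
  exact (hCmem _).1 h6

end

/-- **The case of a nontrivial solvable normal subgroup.** -/
theorem three_case {H : Type*} [Group H] [Finite H] (hs : ¬ Group.IsSolvable H) (h2 : pCore 2 H = ⊥)
    (ι : H →* alternatingGroup (Fin 8)) (hι : Function.Injective ι) (hR : ¬ Rad H) :
    Nat.card (pCore 3 H) = 3 ∧ (Nonempty (H ⧸ pCore 3 H ≃* alternatingGroup (Fin 5)) ∨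
      Nonempty (H ⧸ pCore 3 H ≃* Perm (Fin 5))) := by
  classical
  let κ : H →* Perm (Fin 8) := (alternatingGroup (Fin 8)).subtype.comp ι
  have hκ : Function.Injective κ := (Subgroup.subtype_injective _).comp hι
  have hsgn : ∀ h : H, Equiv.Perm.sign (κ h) = 1 := fun h => (ι h).2
  have hd : Nat.card H ∣ 20160 := by
    rw [← card_alt_eight]
    exact Subgroup.card_dvd_of_injective ι hι
  have h3F : Fact (Nat.Prime 3) := ⟨Nat.prime_three⟩
  -- `O₃(H) ≠ 1`
  have hne : pCore 3 H ≠ ⊥ := by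
    obtain ⟨p, hp, hne⟩ := exists_core hR
    have := Fact.mk hp
    have hpd : p ∣ 20160 := by
      obtain ⟨n, hn⟩ := IsPGroup.iff_card.1 (Lib.Cores.pCore_isPGroup (G := H) p)
      have hn0 : n ≠ 0 := by
        rintro rfl
        exact hne (Subgroup.eq_bot_of_card_eq _ (by rw [hn, pow_zero]))
      have h1 : Nat.card (pCore p H) ∣ 20160 := (Subgroup.card_subgroup_dvd_card _).trans hd
      rw [hn] at h1
      exact (dvd_pow_self p hn0).trans h1
    have hp4 : p = 2 ∨ p = 3 ∨ p = 5 ∨ p = 7 := by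
      have h1 : p ∣ 2 ^ 6 * 3 ^ 2 * 5 * 7 := by norm_num; exact hpd
      rcases hp.dvd_mul.1 h1 with h1 | h1
      · rcases hp.dvd_mul.1 h1 with h1 | h1
        · rcases hp.dvd_mul.1 h1 with h1 | h1
          · exact Or.inl ((Nat.prime_dvd_prime_iff_eq hp Nat.prime_two).1 (hp.dvd_of_dvd_pow h1))
          · exact Or.inr (Or.inl ((Nat.prime_dvd_prime_iff_eq hp Nat.prime_three).1 (hp.dvd_of_dvd_pow h1)))
        · exact Or.inr (Or.inr (Or.inl ((Nat.prime_dvd_prime_iff_eq hp (by norm_num)).1 h1)))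
      · exact Or.inr (Or.inr (Or.inr ((Nat.prime_dvd_prime_iff_eq hp (by norm_num)).1 h1)))
    rcases hp4 with rfl | rfl | rfl | rfl
    · exact absurd h2 hne
    · exact hne
    · exact absurd (core_bot κ hκ hd hs (Or.inl rfl)) hne
    · exact absurd (core_bot κ hκ hd hs (Or.inr rfl)) hne
  set A := pCore 3 H with hA
  have hAn : A.Normal := Lib.Cores.pCore_normal 3
  have hAp : IsPGroup 3 A := Lib.Cores.pCore_isPGroup 3
  have h39 : Nat.card A = 3 ∨ Nat.card A = 9 := by
    obtain ⟨n, hn⟩ := IsPGroup.iff_card.1 hAp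
    have h1 : Nat.card A ∣ 20160 := (Subgroup.card_subgroup_dvd_card A).trans hd
    have hn1 : 1 ≤ n := by
      by_contra h
      have h0 : n = 0 := by omega
      rw [h0, pow_zero] at hn
      exact hne (Subgroup.eq_bot_of_card_eq A hn)
    have hn2 : n ≤ 2 := by
      by_contra h
      have h2 : 3 ^ 3 ∣ 20160 := (pow_dvd_pow 3 (by omega : 3 ≤ n)).trans (hn ▸ h1)
      norm_num at h2
    rw [hn]
    interval_cases n
    · left; norm_num
    · right; norm_num
  -- an element of order 5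
  have h7 : ¬ 7 ∣ Nat.card H := by
    intro h7
    have : Fact (Nat.Prime 7) := ⟨by norm_num⟩
    obtain ⟨y, hy⟩ := exists_prime_orderOf_dvd_card' (G := H) 7 h7
    have h1 := card_dvd_cent κ hκ y (three_comm κ hκ h39 (Or.inr rfl) hy)
    rw [card_cent_seven (κ y) (by rw [orderOf_injective κ hκ, hy])] at h1
    rcases h39 with h | h <;> rw [h] at h1 <;> norm_num at h1
  have h5 : 5 ∣ Nat.card H := by
    by_contra h5
    have h71 : Nat.Coprime (Nat.card H) 7 := ((Nat.Prime.coprime_iff_not_dvd (by norm_num)).2 h7).symm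
    have hH7 : Nat.card H ∣ 2880 := by
      apply h71.dvd_of_dvd_mul_left
      exact hd
    have h51 : Nat.Coprime (Nat.card H) 5 := ((Nat.Prime.coprime_iff_not_dvd (by norm_num)).2 h5).symm
    have h2 : Nat.card H ∣ 2 ^ 6 * 3 ^ 2 := by
      apply h51.dvd_of_dvd_mul_left
      exact hH7
    exact hs (solvable_of_dvd Nat.prime_two Nat.prime_three h2)
  have hF5 : Fact (Nat.Prime 5) := ⟨Nat.prime_five⟩
  obtain ⟨y, hy⟩ := exists_prime_orderOf_dvd_card' (G := H) 5 h5
  have hA3 : Nat.card A = 3 := by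
    rcases h39 with h | h
    · exact h
    · exfalso
      have h1 := card_dvd_cent κ hκ y (three_comm κ hκ (Or.inr h) (Or.inl rfl) hy)
      rw [card_cent_five (κ y) (by rw [orderOf_injective κ hκ, hy]), h] at h1
      norm_num at h1
  refine ⟨hA3, ?_⟩
  -- the 3-cycle
  obtain ⟨a, ha⟩ := exists_prime_orderOf_dvd_card' (G := A) 3 (by rw [hA3])
  have hoa : orderOf (κ (a : H)) = 3 := by
    rw [orderOf_injective κ hκ, Subgroup.orderOf_coe, ha]
  set α := κ (a : H) with hα
  have hcyc : α.IsThreeCycle := by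
    rcases three_cases α hoa with h | h
    · exact h
    · exfalso
      apply cent_not_solvable hs Nat.prime_three (by norm_num) hA3
      apply solvable_of_lt
      have h1 := card_dvd_cent κ hκ (a : H) (B := centralizer (A : Set H)) (fun b hb =>
        (mem_centralizer_iff.1 hb (a : H) a.2).symm)
      have h2 := Nat.le_of_dvd Nat.card_pos h1
      rw [← hα, h] at h2
      omega
  have hsupp : α.support.card = 3 := hcyc.card_support
  -- elements of `A` are powers of `a`
  have hApow : ∀ x ∈ A, ∃ k : ℤ, x = (a : H) ^ k := by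
    intro x hx
    have h1 : zpowers a = ⊤ := by
      apply Subgroup.eq_top_of_card_eq
      rw [Nat.card_zpowers, ha, hA3]
    have h2 : (⟨x, hx⟩ : A) ∈ zpowers a := by rw [h1]; exact mem_top _
    obtain ⟨k, hk⟩ := mem_zpowers_iff.1 h2
    exact ⟨k, by rw [← Subgroup.coe_zpow, hk]⟩
  have hafix : ∀ x ∈ A, ∀ i, i ∉ α.support → κ x i = i := by
    intro x hx i hi
    obtain ⟨k, rfl⟩ := hApow x hx
    rw [map_zpow]
    rw [Equiv.Perm.notMem_support] at hi
    exact Equiv.Perm.zpow_apply_eq_self_of_apply_eq_self hi k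
  -- the support is invariant
  have hinv1 : ∀ (h : H) (i : Fin 8), i ∉ α.support → κ h i ∉ α.support := by
    intro h i hi
    rw [Equiv.Perm.notMem_support] at hi ⊢
    have h1 : h⁻¹ * a * h ∈ A := by
      have := hAn.conj_mem a a.2 h⁻¹
      rwa [inv_inv] at this
    have h2 := hafix _ h1 i (by rw [Equiv.Perm.notMem_support]; exact hi)
    rw [map_mul, map_mul, map_inv, Equiv.Perm.mul_apply, Equiv.Perm.mul_apply, Equiv.Perm.inv_eq_iff_eq] at h2
    exact h2.symm ▸ rfl
  have hinv : ∀ (h : H) (i : Fin 8), (κ h i ∉ α.support) ↔ (i ∉ α.support) := by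
    intro h i
    refine ⟨fun h1 => ?_, hinv1 h i⟩
    have h2 := hinv1 h⁻¹ _ h1
    rwa [← Equiv.Perm.mul_apply, ← map_mul, inv_mul_cancel, map_one] at h2
  have hinv' : ∀ (h : H) (i : Fin 8), (κ h i ∈ α.support) ↔ (i ∈ α.support) := fun h i =>
    not_iff_not.1 (hinv h i)
  set ρ := restr κ (fun i => i ∉ α.support) hinv with hρ
  have hρA : A ≤ ρ.ker := by
    intro x hx
    rw [MonoidHom.mem_ker]
    ext i
    exact congrArg Fin.val (hafix x hx i.1 i.2)
  have hker : ρ.ker = A := by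
    let ρ' : ρ.ker →* Perm {i : Fin 8 // i ∈ α.support} :=
      restr (κ.comp ρ.ker.subtype) (fun i => i ∈ α.support) (fun h i => hinv' h i)
    have hfix : ∀ (k : ρ.ker) (i : Fin 8), i ∉ α.support → κ k i = i := by
      intro k i hi
      have h1 : ρ k = 1 := k.2
      exact congrArg Subtype.val (DFunLike.congr_fun h1 ⟨i, hi⟩)
    have hinj : Function.Injective ρ' := by
      rw [injective_iff_map_eq_one]
      intro k hk
      apply Subtype.ext
      apply hκ
      rw [Subgroup.coe_one, map_one]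
      ext i
      by_cases hi : i ∈ α.support
      · have h2 := DFunLike.congr_fun hk (⟨i, hi⟩ : {i : Fin 8 // i ∈ α.support})
        have h3 : κ (k : H) i = i := congrArg Subtype.val h2
        exact congrArg Fin.val h3
      · exact congrArg Fin.val (hfix k i hi)
    have hsg : ∀ k, Equiv.Perm.sign (ρ' k) = 1 := by
      intro k
      have h1 := sign_restr (κ.comp ρ.ker.subtype) (fun i => i ∈ α.support) (fun h i => hinv' h i) k
        (fun i hi => hfix k i hi)
      have h2 := h1.trans (hsgn k)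
      convert h2
    have h1 : Nat.card ρ.ker ≤ 3 := by
      let ρ'' : ρ.ker →* alternatingGroup {i : Fin 8 // i ∈ α.support} :=
        ρ'.codRestrict _ (fun k => Equiv.Perm.mem_alternatingGroup.2 (hsg k))
      have h2 : Function.Injective ρ'' := fun a b hab => hinj (congrArg Subtype.val hab)
      have h3 := Nat.card_le_card_of_injective ρ'' h2
      have h4 : Nat.card {i : Fin 8 // i ∈ α.support} = 3 := by
        rw [Nat.card_eq_fintype_card, Fintype.card_coe, hsupp]
      have : Nontrivial {i : Fin 8 // i ∈ α.support} := by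
        rw [← Finite.one_lt_card_iff_nontrivial, h4]
        norm_num
      rw [nat_card_alternatingGroup, h4] at h3
      exact h3
    exact (Subgroup.eq_of_le_of_card_ge hρA (by rw [hA3]; exact h1)).symm
  -- the quotient
  have hsol : Group.IsSolvable A := solvable_of_lt (by rw [hA3]; norm_num)
  have hQ := not_solvable_quotient hs A hsol
  have h60 := sixty_le hQ
  let g : H ⧸ A →* Perm {i : Fin 8 // i ∉ α.support} := QuotientGroup.lift A ρ (fun x hx => hρA hx)
  have hg : Function.Injective g := by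
    rw [injective_iff_map_eq_one]
    intro q hq
    obtain ⟨x, rfl⟩ := QuotientGroup.mk_surjective q
    rw [QuotientGroup.eq_one_iff, ← hker]
    exact hq
  have h5c : Nat.card {i : Fin 8 // i ∉ α.support} = 5 := by
    rw [Nat.card_eq_fintype_card, Fintype.card_subtype_compl, Fintype.card_coe, hsupp, Fintype.card_fin]
  have h120 : Nat.card (Perm {i : Fin 8 // i ∉ α.support}) = 120 := by
    rw [Nat.card_perm, h5c]
    rfl
  have hdv : Nat.card (H ⧸ A) ∣ 120 := by
    rw [← h120]
    exact Subgroup.card_dvd_of_injective g hg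
  have hcase : Nat.card (H ⧸ A) = 60 ∨ Nat.card (H ⧸ A) = 120 := by
    obtain ⟨k, hk⟩ := hdv
    have hk2 : k ≤ 2 := by nlinarith
    interval_cases k
    · omega
    · right; omega
    · left; omega
  rcases hcase with h | h
  · exact Or.inl (alt_five hQ h)
  · right
    have hb := bijective_of_card hg (by rw [h, h120])
    have e1 : {i : Fin 8 // i ∉ α.support} ≃ Fin 5 := Finite.equivFinOfCardEq h5c
    exact ⟨(MulEquiv.ofBijective g hb).trans e1.permCongrHom⟩

/-- a group of order dividing 315 is solvable -/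
theorem solvable_315 {H : Type*} [Group H] [Finite H] (hd : Nat.card H ∣ 315) : Group.IsSolvable H := by
  by_cases h5 : 5 ∣ Nat.card H
  · have hF5 : Fact (Nat.Prime 5) := ⟨Nat.prime_five⟩
    obtain ⟨P⟩ : Nonempty (Sylow 5 H) := inferInstance
    have hPc : Nat.card P = 5 := by
      obtain ⟨n, hn⟩ := IsPGroup.iff_card.1 P.isPGroup'
      have hn' : Nat.card P = 5 ^ n := hn
      have h1 : Nat.card P ∣ 315 := (Subgroup.card_subgroup_dvd_card (P : Subgroup H)).trans hd
      have h2 : 5 ∣ Nat.card P := by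
        have := P.dvd_card_of_dvd_card h5
        exact this
      rw [hn'] at h1 h2
      have hn1 : n ≠ 0 := by
        rintro rfl
        norm_num at h2
      have hn2 : n ≤ 1 := by
        by_contra h
        have h3 : 5 ^ 2 ∣ 315 := (pow_dvd_pow 5 (by omega : 2 ≤ n)).trans h1
        norm_num at h3
      have h3 : n = 1 := by omega
      rw [hn', h3, pow_one]
    have hcyc : IsCyclic (P : Subgroup H) := isCyclic_of_prime_card (p := 5) hPc
    have hr1 := Cfsg.Agent.SmallSimple.BurnsideNC.relIndex_dvd_card_mulAut (P : Subgroup H)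
    have hPc' : Nat.card (P : Subgroup H) = 5 := hPc
    rw [IsCyclic.card_mulAut, hPc', Nat.totient_prime Nat.prime_five] at hr1
    have hr2 : (centralizer ((P : Subgroup H) : Set H)).relIndex (normalizer ((P : Subgroup H) : Set H)) ∣ 315 :=
      (Subgroup.relIndex_dvd_card _ _).trans ((Subgroup.card_subgroup_dvd_card _).trans hd)
    have hr3 := Nat.dvd_gcd hr1 hr2
    have hr4 : Nat.gcd (5 - 1) 315 = 1 := by norm_num
    rw [hr4, Nat.dvd_one, relIndex_eq_one] at hr3
    have hcomp := MonoidHom.ker_transferSylow_isComplement' P hr3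
    set K := (MonoidHom.transferSylow P hr3).ker with hK
    have hKc : Nat.card K * 5 = Nat.card H := by
      rw [← hPc]; exact hcomp.card_mul_card
    have hK63 : Nat.card K ∣ 3 ^ 2 * 7 ^ 1 := by
      have h1 : Nat.card K * 5 ∣ 63 * 5 := by rw [hKc]; exact hd
      exact Nat.dvd_of_mul_dvd_mul_right (by norm_num) h1
    have hs1 : Group.IsSolvable K := solvable_of_dvd Nat.prime_three (by norm_num) hK63
    have hs2 : Group.IsSolvable (H ⧸ K) := by
      apply solvable_of_lt
      have h2 := K.card_mul_index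
      have h3 : 0 < Nat.card K := Nat.card_pos
      have h4 : Nat.card (H ⧸ K) = K.index := rfl
      rw [h4]
      rw [← hKc] at h2
      have := Nat.eq_of_mul_eq_mul_left h3 h2
      omega
    exact (Group.isSolvable_iff_subgroup_quotient (H := K)).2 ⟨hs1, hs2⟩
  · have h51 : Nat.Coprime (Nat.card H) 5 := ((Nat.Prime.coprime_iff_not_dvd (by norm_num)).2 h5).symm
    have h2 : Nat.card H ∣ 3 ^ 2 * 7 ^ 1 := by
      apply h51.dvd_of_dvd_mul_left
      exact hd
    exact solvable_of_dvd Nat.prime_three (by norm_num) h2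

/-- **Nonsolvable subgroups of `A₈` without normal 2-subgroups.** -/
theorem main {H : Type*} [Group H] [Finite H] (hs : ¬ Group.IsSolvable H) (h2 : pCore 2 H = ⊥)
    (ι : H →* alternatingGroup (Fin 8)) (hι : Function.Injective ι) :
    (∃ (F : Type) (_ : Field F) (_ : Fintype F), Fintype.card F = 2 ∧
        Nonempty (H ≃* Matrix.ProjectiveSpecialLinearGroup (Fin 3) F)) ∨
      (∃ n : ℕ, 5 ≤ n ∧ n ≤ 8 ∧ Nonempty (H ≃* ↥(alternatingGroup (Fin n)))) ∨
      (∃ n : ℕ, 5 ≤ n ∧ n ≤ 7 ∧ Nonempty (H ≃* Equiv.Perm (Fin n))) ∨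
      (Nat.card (pCore 3 H) = 3 ∧ (Nonempty (H ⧸ pCore 3 H ≃* ↥(alternatingGroup (Fin 5))) ∨
        Nonempty (H ⧸ pCore 3 H ≃* Equiv.Perm (Fin 5)))) := by
  by_cases hR : Rad H
  · have hnt : Nontrivial H := by
      by_contra hc
      rw [not_nontrivial_iff_subsingleton] at hc
      exact hs inferInstance
    have heven : Even (Nat.card H) := by
      by_contra hodd
      rw [Nat.not_even_iff_odd] at hodd
      have hd : Nat.card H ∣ 20160 := by
        rw [← card_alt_eight]
        exact Subgroup.card_dvd_of_injective ι hι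
      have hc : Nat.Coprime (Nat.card H) (2 ^ 6) := Nat.Coprime.pow_right 6 (Nat.coprime_two_right.2 hodd)
      exact hs (solvable_315 (hc.dvd_of_dvd_mul_left (by exact hd)))
    rcases H168.NoSolv.main hR heven ι hι with ⟨n, h5, h8, h⟩ | h | h | ⟨F, i1, i2, hF, ⟨e⟩⟩
    · exact Or.inr (Or.inl ⟨n, h5, h8, h⟩)
    · exact Or.inr (Or.inr (Or.inl ⟨5, by norm_num, by norm_num, h⟩))
    · exact Or.inr (Or.inr (Or.inl ⟨6, by norm_num, by norm_num, h⟩))
    · left
      obtain ⟨f⟩ := S0255.result (F := F) (K := ZMod 2) hF (by simp [ZMod.card])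
      exact ⟨ZMod 2, inferInstance, inferInstance, by simp [ZMod.card], ⟨e.trans f⟩⟩
  · exact Or.inr (Or.inr (Or.inr (three_case hs h2 ι hι hR)))

end Cfsg.Agent.H286.AltEightThree
end

-- part: GH/C2SylConv
section
/-!
# GH-C2: helper871's list for `GL(4,2)` in the form used by `C2SylGlue.main`
-/

set_option autoImplicit false

namespace Cfsg.Agent.GH.C2SylConv

open Subgroup Cfsg.Agent.GH.Pc Cfsg.Agent.GH.PcTypes Cfsg.Agent.GH.C2Syl
open Cfsg.Agent.GH.C2SylGlue Cfsg.Agent.TwoFusion.SectionalRank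

variable {Y W : Type*} [Group Y] [Group W] {φ : Y →* MulAut W}

theorem natF5_of {U : Subgroup W} {a d : Y} (h : GL4.NatD φ U a d) : NatF5 φ U a d where
  cardU := h.cardU
  ff := h.aa
  ddd := h.d3
  prod := h.prod
  fpf := h.fpf
  dU := h.dU
  fix := h.fa
  cm := h.ca
  sur := h.sur

theorem n1_of (h : GL4.N1 φ) : C2SylGlue.N1 φ := by
  obtain ⟨U, a, d, h1, h2, P, hP⟩ := h
  refine ⟨U, a, d, natF5_of h1, P, ?_, hP⟩
  change Nat.card (P : Subgroup Y) = 4
  rw [hP, h2]

theorem n2_of (h : GL4.N2 φ) : C2SylGlue.N2 φ := by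
  obtain ⟨U, a, d, t, h1, -, h2, h3, h4, h5, -, P, hP, hP8⟩ := h
  exact ⟨U, a, d, t, natF5_of h1, h2, h3, by rw [h4, mul_inv_cancel_right], h5, P, hP8, hP⟩

theorem n3_of (h : GL4.N3 φ) : C2SylGlue.N3 φ := by
  obtain ⟨U, a, d, t, h1, -, h2, h3, h4, h5, h6⟩ := h
  exact ⟨U, a, d, t, natF5_of h1, h2, h3, h4, h5, h6⟩

theorem o1_of (h : GL4.O1 φ) : C2SylGlue.O1 φ := by
  obtain ⟨e, a, b, h1, h2, h3, -, -, -, -, P, hP, hP4⟩ := h
  exact ⟨e, a, b, h1, h2, h3, P, hP4, hP⟩

theorem o2_of (h : GL4.O2 φ) : C2SylGlue.O2 φ := by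
  obtain ⟨e, t, a, b, d, y, h1, ht, ha, -, -, -, -, -, -, -, hd, -, hh, -, -, -, -, -, P, hP, hP8⟩ := h
  exact ⟨e, t, a, d, h1, ht, ha, hd, hh, P, hP8, hP⟩

theorem out_of (h : GL4.N1 φ ∨ GL4.N2 φ ∨ GL4.N3 φ ∨ GL4.O1 φ ∨ GL4.O2 φ) :
    C2SylGlue.N1 φ ∨ C2SylGlue.N2 φ ∨ C2SylGlue.N3 φ ∨ C2SylGlue.O1 φ ∨ C2SylGlue.O2 φ := by
  rcases h with h | h | h | h | h
  · exact Or.inl (n1_of h)
  · exact Or.inr (Or.inl (n2_of h))
  · exact Or.inr (Or.inr (Or.inl (n3_of h)))
  · exact Or.inr (Or.inr (Or.inr (Or.inl (o1_of h))))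
  · exact Or.inr (Or.inr (Or.inr (Or.inr (o2_of h))))

/-! ### transport along `e : V ≃* V'` -/

section tr

variable {W' : Type*} [Group W']

/-- The same action on an isomorphic copy. -/
def tr (e : W ≃* W') (φ : Y →* MulAut W) : Y →* MulAut W' :=
  (MulAut.congr e).toMonoidHom.comp φ

theorem tr_apply (e : W ≃* W') (φ : Y →* MulAut W) (y : Y) (v : W') :
    tr e φ y v = e (φ y (e.symm v)) := rfl

theorem tr_apply' (e : W ≃* W') (φ : Y →* MulAut W) (y : Y) (v : W) :
    tr e φ y (e v) = e (φ y v) := by rw [tr_apply, e.symm_apply_apply]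

theorem tr_injective (e : W ≃* W') (h : Function.Injective φ) : Function.Injective (tr e φ) :=
  (MulAut.congr e).injective.comp h

theorem mem_map_e (e : W ≃* W') (U : Subgroup W) (v : W) :
    e v ∈ U.map e.toMonoidHom ↔ v ∈ U := by
  constructor
  · rintro ⟨u, hu, h⟩
    have : u = v := e.injective h
    rwa [this] at hu
  · exact fun h => ⟨v, h, rfl⟩

theorem natF5_tr (e : W ≃* W') {U : Subgroup W} {f d : Y} (h : NatF5 φ U f d) :
    NatF5 (tr e φ) (U.map e.toMonoidHom) f d where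
  cardU := by rw [← h.cardU]; exact Subgroup.card_map_of_injective e.injective
  ff := h.ff
  ddd := h.ddd
  prod := h.prod
  fpf v := by
    obtain ⟨v, rfl⟩ := e.surjective v
    intro hv
    rw [tr_apply'] at hv
    rw [h.fpf v (e.injective hv), map_one]
  dU v := by
    obtain ⟨v, rfl⟩ := e.surjective v
    rw [mem_map_e, tr_apply', mem_map_e]
    exact h.dU v
  fix v := by
    obtain ⟨v, rfl⟩ := e.surjective v
    rw [mem_map_e, tr_apply', ← h.fix v]
    exact e.injective.eq_iff
  cm v := by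
    obtain ⟨v, rfl⟩ := e.surjective v
    rw [tr_apply', ← map_inv, ← map_mul, mem_map_e]
    exact h.cm v
  sur v := by
    obtain ⟨v, rfl⟩ := e.surjective v
    rw [mem_map_e]
    intro hv
    obtain ⟨w, hw⟩ := h.sur v hv
    exact ⟨e w, by rw [tr_apply', ← map_inv, ← map_mul, hw]⟩

theorem n1_tr (e : W ≃* W') (h : C2SylGlue.N1 φ) : C2SylGlue.N1 (tr e φ) := by
  obtain ⟨U, f, d, h1, h2⟩ := h
  exact ⟨_, f, d, natF5_tr e h1, h2⟩

theorem n2_tr (e : W ≃* W') (h : C2SylGlue.N2 φ) : C2SylGlue.N2 (tr e φ) := by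
  obtain ⟨U, f, d, t, h1, h2, h3, h4, ⟨u, hu, hu'⟩, h6⟩ := h
  refine ⟨_, f, d, t, natF5_tr e h1, h2, h3, h4, ⟨e u, (mem_map_e e U u).mpr hu, ?_⟩, h6⟩
  rw [tr_apply']
  exact fun h => hu' (e.injective h)

theorem n3_tr (e : W ≃* W') (h : C2SylGlue.N3 φ) : C2SylGlue.N3 (tr e φ) := by
  obtain ⟨U, f, d, t, h1, h2, h3, h4, h5, h6⟩ := h
  refine ⟨_, f, d, t, natF5_tr e h1, h2, h3, h4, ?_, h6⟩
  intro v
  obtain ⟨v, rfl⟩ := e.surjective v
  rw [mem_map_e, tr_apply']
  exact fun hv => congrArg e (h5 v hv)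

theorem range_tr (e : W ≃* W') {b : Fin 4 → W} (h : closure (Set.range b) = ⊤) :
    closure (Set.range (fun i => e (b i))) = ⊤ := by
  have h1 : Set.range (fun i => e (b i)) = e.toMonoidHom '' Set.range b := by
    rw [← Set.range_comp]; rfl
  rw [h1, ← MonoidHom.map_closure, h]
  exact Subgroup.map_top_of_surjective _ e.surjective

theorem o1_tr (e : W ≃* W') (h : C2SylGlue.O1 φ) : C2SylGlue.O1 (tr e φ) := by
  obtain ⟨b, x, y, h1, h2, h3, h4⟩ := h
  refine ⟨fun i => e (b i), x, y, range_tr e h1, ?_, ?_, h4⟩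
  · intro i; rw [tr_apply', h2]
  · intro i; rw [tr_apply', h3]

theorem o2_tr (e : W ≃* W') (h : C2SylGlue.O2 φ) : C2SylGlue.O2 (tr e φ) := by
  obtain ⟨b, t, a, d, h1, h2, h3, h4, h5, h6⟩ := h
  refine ⟨fun i => e (b i), t, a, d, range_tr e h1, ?_, ?_, h4, ?_, h6⟩
  · intro i; rw [tr_apply', h2]
  · intro i; rw [tr_apply', h3]
  · intro v
    obtain ⟨v, rfl⟩ := e.surjective v
    rw [tr_apply', tr_apply', ← map_inv, ← map_mul, ← map_mul, e.map_eq_one_iff, e.map_eq_one_iff,
      e.injective.eq_iff, e.injective.eq_iff, e.injective.eq_iff]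
    exact h5 v

end tr

section

variable {X : Type*} [Group X] {V : Subgroup X} {π : X →* Y} {φ : Y →* MulAut V}

theorem main1 [Finite X] (h : Act V π φ) (hV : El V) (h16 : Nat.card V = 16)
    (hD : C2SylGlue.N1 φ) (T : Sylow 2 X) : IsType UT34 T ∧ Nat.card T = 64 ∧ Out1 V T := by
  have hcard : ∀ T' : Sylow 2 X, Nat.card T = Nat.card T' := fun T' =>
    Nat.card_congr (Sylow.equiv T T').toEquiv
  obtain ⟨U, f, d, H, P, hP4, hP⟩ := hD
  obtain ⟨T', hT'⟩ := h.exists_sylow hV P
  obtain ⟨A, B, C, r, k, h1, h2, h3, h4, h5, h6, -⟩ := n1 h hV h16 (nat5_of H) hP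
  have hc : Nat.card T' = 64 := by
    change Nat.card (T' : Subgroup X) = 64
    rw [hT', h.card_comap, h16, hP4]
  have ho : Out1 V (T' : Subgroup X) :=
    ⟨A, B, C, r, k, hT'.trans h1, h2, h3, h4, h5, h6⟩
  have hty : IsType UT34 (T' : Subgroup X) := by
    have h7 := isType_T0 k (by rw [← h1, ← hT']; exact hc)
    exact h7.congr (MulEquiv.subgroupCongr (hT'.trans h1).symm)
  refine ⟨hty.congr (Sylow.equiv T' T), by rw [hcard T', hc], ?_⟩
  obtain ⟨g, rfl⟩ := MulAction.exists_smul_eq X T' T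
  exact ho.conj hV g

theorem main2 [Finite X] (h : Act V π φ) (hV : El V) (h16 : Nat.card V = 16)
    (hD : C2SylGlue.N2 φ) (T : Sylow 2 X) : IsType M22T T ∧ Nat.card T = 128 ∧ Out2 V T := by
  have hcard : ∀ T' : Sylow 2 X, Nat.card T = Nat.card T' := fun T' =>
    Nat.card_congr (Sylow.equiv T T').toEquiv
  obtain ⟨U, f, d, t, H, htt, htd, htf, htU, P, hP8, hP⟩ := hD
  obtain ⟨T', hT'⟩ := h.exists_sylow hV P
  obtain ⟨A, B, C, s, r, k, l, h1, h2, -, -⟩ := n2 h hV h16 (nat5_of H) htt htd htf htU hP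
  have hc : Nat.card T' = 128 := by
    change Nat.card (T' : Subgroup X) = 128
    rw [hT', h.card_comap, h16, hP8]
  have ho : Out2 V (T' : Subgroup X) := ⟨A, B, C, s, r, k, l, hT'.trans h1, h2⟩
  have hty : IsType M22T (T' : Subgroup X) := by
    have h7 := isType_TS k l (by rw [← h1, ← hT']; exact hc)
    exact h7.congr (MulEquiv.subgroupCongr (hT'.trans h1).symm)
  refine ⟨hty.congr (Sylow.equiv T' T), by rw [hcard T', hc], ?_⟩
  obtain ⟨g, rfl⟩ := MulAction.exists_smul_eq X T' T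
  exact ho.conj hV g

theorem main3 [Finite X] (h : Act V π φ) (hV : El V) (h16 : Nat.card V = 16)
    (hD : C2SylGlue.N3 φ)
    (hr : ∀ Z N : Subgroup X, ElemSection 2 Z N → Nat.card Z ≤ 16 * Nat.card N) : False := by
  obtain ⟨U, f, d, t, H, htt, htd, htf, htU, ht⟩ := hD
  exact n3 h hV h16 (nat5_of H) htt htd htf htU ht hr

theorem main4 [Finite X] (h : Act V π φ) (hφ : Function.Injective φ) (hV : El V)
    (h16 : Nat.card V = 16) (hD : C2SylGlue.O1 φ) (T : Sylow 2 X) :
    IsType W24 T ∧ Nat.card T = 64 := by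
  have hcard : ∀ T' : Sylow 2 X, Nat.card T = Nat.card T' := fun T' =>
    Nat.card_congr (Sylow.equiv T T').toEquiv
  obtain ⟨e, a, b, he, ha, hb, P, hP4, hP⟩ := hD
  obtain ⟨T', hT'⟩ := h.exists_sylow hV P
  have hty := o1 h hφ hV h16 he ha hb hP hP4
  rw [← hT'] at hty
  refine ⟨hty.congr (Sylow.equiv T' T), ?_⟩
  rw [hcard T']
  change Nat.card (T' : Subgroup X) = 64
  rw [hT', h.card_comap, h16, hP4]

theorem main5 [Finite X] (h : Act V π φ) (hφ : Function.Injective φ) (hV : El V)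
    (h16 : Nat.card V = 16) (hD : C2SylGlue.O2 φ) (T : Sylow 2 X) :
    IsType W8 T ∧ Nat.card T = 128 := by
  have hcard : ∀ T' : Sylow 2 X, Nat.card T = Nat.card T' := fun T' =>
    Nat.card_congr (Sylow.equiv T T').toEquiv
  obtain ⟨e, t, a, d, he, ht, ha, hdt, hd, P, hP8, hP⟩ := hD
  obtain ⟨T', hT'⟩ := h.exists_sylow hV P
  have hty := o2 h hφ hV h16 he ht ha hdt hd hP hP8
  rw [← hT'] at hty
  refine ⟨hty.congr (Sylow.equiv T' T), ?_⟩
  rw [hcard T']
  change Nat.card (T' : Subgroup X) = 128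
  rw [hT', h.card_comap, h16, hP8]

/-- **The five side**: `T` from `X / V ≤ GL(4,2)` nonsolvable of order divisible by five and
sectional 2-rank at most four. The last component of every alternative is helper871's form (with
all its further data). -/
theorem five [Finite X] [Finite Y] (h : Act V π φ) (hφ : Function.Injective φ) (hV : El V)
    (h16 : Nat.card V = 16) (hns : ¬ Group.IsSolvable Y) (h5 : 5 ∣ Nat.card Y)
    (hr : ∀ Z N : Subgroup X, ElemSection 2 Z N → Nat.card Z ≤ 16 * Nat.card N) (T : Sylow 2 X) :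
    (IsType UT34 T ∧ Nat.card T = 64 ∧ Out1 V T ∧ GL4.N1 φ) ∨
    (IsType M22T T ∧ Nat.card T = 128 ∧ Out2 V T ∧ GL4.N2 φ) ∨
    (IsType W24 T ∧ Nat.card T = 64 ∧ GL4.O1 φ) ∨
    (IsType W8 T ∧ Nat.card T = 128 ∧ GL4.O2 φ) := by
  have hsq : ∀ v : V, v * v = 1 := fun v => Subtype.ext (hV.sq v v.2)
  rcases GL4.gl4_five hφ h16 hsq hns h5 with k | k | k | k | k
  · obtain ⟨h1, h2, h3⟩ := main1 h hV h16 (n1_of k) T
    exact Or.inl ⟨h1, h2, h3, k⟩
  · obtain ⟨h1, h2, h3⟩ := main2 h hV h16 (n2_of k) T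
    exact Or.inr (Or.inl ⟨h1, h2, h3, k⟩)
  · exact (main3 h hV h16 (n3_of k) hr).elim
  · obtain ⟨h1, h2⟩ := main4 h hφ hV h16 (o1_of k) T
    exact Or.inr (Or.inr (Or.inl ⟨h1, h2, k⟩))
  · obtain ⟨h1, h2⟩ := main5 h hφ hV h16 (o2_of k) T
    exact Or.inr (Or.inr (Or.inr ⟨h1, h2, k⟩))

end

end Cfsg.Agent.GH.C2SylConv
end

-- part: S3104
section
set_option autoImplicit false
open Cfsg

namespace Cfsg.Agent.S3104

open Subgroup Cfsg Cfsg.Agent.TwoFusion.SectionalRank Cfsg.Agent.GH.C2Base Cfsg.Agent.GH.C2Five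
open Cfsg.Agent.GH.C2SylGlue Cfsg.Agent.GH.C2Syl
open Cfsg.Agent.GH.C2TwoMain
open scoped commutatorElement

/-- `O₂(X / O₂(X)) = 1` -/
theorem pCore_quotient {X : Type*} [Group X] [Finite X] : pCore 2 (X ⧸ pCore 2 X) = ⊥ := by
  have h2 : Fact (Nat.Prime 2) := ⟨Nat.prime_two⟩
  set Q := pCore 2 X with hQ
  set N := (pCore 2 (X ⧸ Q)).comap (QuotientGroup.mk' Q) with hN
  have hNn : N.Normal := inferInstance
  have hNp : IsPGroup 2 N := by
    have h1 : IsPGroup 2 (pCore 2 (X ⧸ Q)) := Lib.Cores.pCore_isPGroup 2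
    refine h1.comap_of_ker_isPGroup (QuotientGroup.mk' Q) ?_
    rw [QuotientGroup.ker_mk']
    exact Lib.Cores.pCore_isPGroup 2
  have h1 : N ≤ Q := Lib.Cores.le_pCore hNn hNp
  rw [eq_bot_iff]
  intro x hx
  obtain ⟨g, rfl⟩ := QuotientGroup.mk'_surjective Q x
  have h2 : g ∈ N := hx
  exact mem_bot.2 ((QuotientGroup.eq_one_iff g).2 (h1 h2))

/-- The 2-part of `|X / O₂(X)|` is at most 8 if `X` has sectional 2-rank at most four and 5 divides `|X|`. -/
theorem not_sixteen_dvd {X : Type*} [Group X] [Finite X] (hns : ¬ Group.IsSolvable X) (hr : R4 X)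
    (hc : centralizer (pCore 2 X : Set X) ≤ pCore 2 X) (h5 : 5 ∣ Nat.card (X ⧸ pCore 2 X)) :
    ¬ 16 ∣ Nat.card (X ⧸ pCore 2 X) := by
  intro h16d
  have h2 : Fact (Nat.Prime 2) := ⟨Nat.prime_two⟩
  set Q : Subgroup X := pCore 2 X with hQ
  have hQn : Q.Normal := Lib.Cores.pCore_normal 2
  have hQp : IsPGroup 2 Q := Lib.Cores.pCore_isPGroup 2
  set F : Subgroup X := (_root_.frattini Q).map Q.subtype with hF
  have hFn : F.Normal := by
    have h1 : (_root_.frattini Q).Characteristic := frattini_characteristic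
    exact inferInstance
  have hFQ : F ≤ Q := map_subtype_le _
  have hker := PLocal.SectionFrattini.isPGroup_sectionKernel_frattini Q hQp hc
  set π := QuotientGroup.mk' F with hπdef
  have hπ : ∀ g : X, π g = 1 ↔ g ∈ F := fun g => by
    rw [hπdef, QuotientGroup.mk'_apply, QuotientGroup.eq_one_iff]
  have hπs : Function.Surjective π := QuotientGroup.mk'_surjective F
  set V := Q.map π with hV
  have hVn : V.Normal := hQn.map π hπs
  have hsec : ElemSection 2 Q F := by
    refine ⟨hFQ, fun x hx y hy => ?_, fun x hx => ?_⟩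
    · exact ⟨_, Lib.FrattiniPGroup.commutator_mem_frattini hQp ⟨x, hx⟩ ⟨y, hy⟩, rfl⟩
    · exact ⟨_, Lib.FrattiniPGroup.pow_mem_frattini hQp ⟨x, hx⟩, rfl⟩
  have hVsq : ∀ v ∈ V, v * v = 1 := by
    rintro _ ⟨x, hx, rfl⟩
    rw [← map_mul, hπ, ← pow_two]
    exact hsec.pow x hx
  have hV16 : Nat.card V ≤ 16 := by
    have h1 := hr Q F hsec
    have h3 := card_eq_map_mul π Q
    rw [hπdef, QuotientGroup.ker_mk', inf_eq_right.mpr hFQ] at h3
    rw [h3] at h1
    exact Nat.le_of_mul_le_mul_right h1 Nat.card_pos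
  -- `C(V) ≤ V`
  have hCV : centralizer (V : Set (X ⧸ F)) ≤ V := by
    intro x hx
    obtain ⟨g, rfl⟩ := hπs x
    have hkn : (sectionKernel Q F).Normal := by
      have h3 : (centralizer (V : Set (X ⧸ F))).Normal := inferInstance
      exact h3.comap π
    have h1 : g ∈ sectionKernel Q F := hx
    exact mem_map_of_mem π (Lib.Cores.le_pCore hkn hker h1)
  -- the quotient by `V`
  have hVX : ∀ g : X, π g ∈ V ↔ g ∈ Q := by
    intro g
    constructor
    · rintro ⟨q, hq, hqg⟩
      have h1 : q⁻¹ * g ∈ F := by rw [← hπ, map_mul, map_inv, hqg, inv_mul_cancel]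
      have h2 := mul_mem hq (hFQ h1)
      rwa [mul_inv_cancel_left] at h2
    · exact fun h => mem_map_of_mem π h
  have hcardY : Nat.card ((X ⧸ F) ⧸ V) = Nat.card (X ⧸ Q) := by
    have h1 : V.comap π = Q := by
      ext g; exact hVX g
    have h2 : (V.comap π).index = V.index := V.index_comap_of_surjective hπs
    rw [h1] at h2
    exact h2.symm
  have hEl : El V := ⟨hVn, hVsq⟩
  have hact : Act V (QuotientGroup.mk' V) (actQ V hVsq) := act_actQ hVsq
  have hinj : Function.Injective (actQ V hVsq) := by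
    rw [injective_iff_map_eq_one]
    intro q hq
    obtain ⟨x, rfl⟩ := QuotientGroup.mk'_surjective V q
    rw [hact.ker]
    apply hCV
    rw [mem_centralizer_iff]
    intro v hv
    have h1 := hact.act x ⟨v, hv⟩
    rw [hq] at h1
    change v = x * v * x⁻¹ at h1
    exact (eq_mul_inv_iff_mul_eq.1 h1)
  have hnsY : ¬ Group.IsSolvable ((X ⧸ F) ⧸ V) := by
    intro h
    apply hns
    have h3 : Group.IsSolvable Q := by
      have : Group.IsNilpotent Q := hQp.isNilpotent
      infer_instance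
    refine Group.isSolvable_of_ker_le_range Q.subtype ((QuotientGroup.mk' V).comp π) ?_
    rw [range_subtype]
    intro g hg
    have h4 : (QuotientGroup.mk' V) (π g) = 1 := hg
    rw [hact.ker] at h4
    exact (hVX g).1 h4
  have h5Y : 5 ∣ Nat.card ((X ⧸ F) ⧸ V) := by rw [hcardY]; exact h5
  -- `|V| = 16`
  have h16 : Nat.card V = 16 := by
    have h5F : Fact (Nat.Prime 5) := ⟨Nat.prime_five⟩
    obtain ⟨x, hx⟩ := exists_prime_orderOf_dvd_card' 5 h5Y
    have hx5 : x ^ 5 = 1 := by rw [← hx]; exact pow_orderOf_eq_one x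
    have hx1 : x ≠ 1 := by
      rintro rfl
      rw [orderOf_one] at hx
      omega
    exact (GH.C2Act.fix_one hinj (fun v : V => Subtype.ext (hVsq v v.2)) hV16 hx5 hx1).1
  obtain ⟨T⟩ : Nonempty (Sylow 2 (X ⧸ F)) := inferInstance
  have hrF : R4 (X ⧸ F) := r4_quotient hr F
  have h256 : 2 ^ 8 ∣ Nat.card (X ⧸ F) := by
    have h1 := V.card_eq_card_quotient_mul_card_subgroup
    rw [h1, hcardY, h16]
    have h3 : (2 : ℕ) ^ 8 = 16 * 16 := by norm_num
    rw [h3]
    exact Nat.mul_dvd_mul_right h16d 16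
  have hT256 : 2 ^ 8 ∣ Nat.card T := T.pow_dvd_card_of_pow_dvd_card h256
  have hT : Nat.card T = 64 ∨ Nat.card T = 128 := by
    rcases GH.C2SylConv.five hact hinj hEl h16 hnsY h5Y hrF T with
      ⟨-, h, -⟩ | ⟨-, h, -⟩ | ⟨-, h, -⟩ | ⟨-, h, -⟩
    · exact Or.inl h
    · exact Or.inr h
    · exact Or.inl h
    · exact Or.inr h
  rcases hT with h | h <;> rw [h] at hT256 <;> norm_num at hT256

/-- Let X be a finite nonsolvable 2-constrained group with no nontrivial normal subgroup of odd order such that O₂(X) has sectional 2-rank at most 4, and write Q for X/O₂(X). Then Q is isomorphic to the projective special linear group of dimension 3 over the field with 2 elements, to an alternating group of degree n with 5 ≤ n ≤ 8, to a symmetric group of degree n with 5 ≤ n ≤ 7, or else O₃(Q) has order 3 and Q/O₃(Q) is isomorphic to the alternating or the symmetric group of degree 5 (so Q is the direct product of a group of order 3 with the alternating group of degree 5, or an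 extension of that direct product by a group of order 2). If moreover X itself has sectional 2-rank at most 4, then Q is not isomorphic to the symmetric group of degree 6 or 7 nor to the alternating group of degree 8. -/
theorem result {X : Type*} [Group X] [Finite X] (hns : ¬ Group.IsSolvable X) (hc : Cfsg.IsPConstrained 2 X) (hO : Cfsg.oddCore X = ⊥)
    (h4 : Cfsg.SectionalPRankLE 2 4 ↥(Cfsg.pCore 2 X)) :
    ((∃ (F : Type) (_ : Field F) (_ : Fintype F), Fintype.card F = 2 ∧
          Nonempty (X ⧸ Cfsg.pCore 2 X ≃* Matrix.ProjectiveSpecialLinearGroup (Fin 3) F)) ∨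
        (∃ n : ℕ, 5 ≤ n ∧ n ≤ 8 ∧ Nonempty (X ⧸ Cfsg.pCore 2 X ≃* ↥(alternatingGroup (Fin n)))) ∨
        (∃ n : ℕ, 5 ≤ n ∧ n ≤ 7 ∧ Nonempty (X ⧸ Cfsg.pCore 2 X ≃* Equiv.Perm (Fin n))) ∨
        (Nat.card ↥(Cfsg.pCore 3 (X ⧸ Cfsg.pCore 2 X)) = 3 ∧
          (Nonempty ((X ⧸ Cfsg.pCore 2 X) ⧸ Cfsg.pCore 3 (X ⧸ Cfsg.pCore 2 X) ≃* ↥(alternatingGroup (Fin 5))) ∨
            Nonempty ((X ⧸ Cfsg.pCore 2 X) ⧸ Cfsg.pCore 3 (X ⧸ Cfsg.pCore 2 X) ≃* Equiv.Perm (Fin 5))))) ∧
      (Cfsg.SectionalPRankLE 2 4 X →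
        ¬ (Nonempty (X ⧸ Cfsg.pCore 2 X ≃* Equiv.Perm (Fin 6)) ∨ Nonempty (X ⧸ Cfsg.pCore 2 X ≃* Equiv.Perm (Fin 7)) ∨
            Nonempty (X ⧸ Cfsg.pCore 2 X ≃* ↥(alternatingGroup (Fin 8))))) := by
  have hcen : Subgroup.centralizer (pCore 2 X : Set X) ≤ pCore 2 X :=
    (Cfsg.Agent.PLocal.PConstrained.isPConstrained_iff_of_pPrimeCore_eq_bot hO).1 hc
  have hQp : IsPGroup 2 (pCore 2 X) := Cfsg.Agent.PLocal.PConstrained.isPGroup_pCore 2 X
  constructor
  · obtain ⟨f, hf⟩ := S3103.result hc hO h4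
    have h2 : Fact (Nat.Prime 2) := ⟨Nat.prime_two⟩
    have h3 : Group.IsSolvable (pCore 2 X) := by
      have : Group.IsNilpotent (pCore 2 X) := hQp.isNilpotent
      infer_instance
    exact H286.AltEightThree.main (H286.AltEightThree.not_solvable_quotient hns (pCore 2 X) h3)
      pCore_quotient f hf
  · intro hr hcon
    have hr' : R4 X := r4_iff.mpr hr
    have key : ∀ n : ℕ, 5 ∣ n → 16 ∣ n → Nat.card (X ⧸ pCore 2 X) ≠ n := by
      rintro n h5 h16 rfl
      exact not_sixteen_dvd hns hr' hcen h5 h16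
    rcases hcon with ⟨⟨e⟩⟩ | ⟨⟨e⟩⟩ | ⟨⟨e⟩⟩
    · refine key 720 (by norm_num) (by norm_num) ?_
      rw [Nat.card_congr e.toEquiv, Nat.card_perm, Nat.card_fin]
      rfl
    · refine key 5040 (by norm_num) (by norm_num) ?_
      rw [Nat.card_congr e.toEquiv, Nat.card_perm, Nat.card_fin]
      rfl
    · refine key 20160 (by norm_num) (by norm_num) ?_
      rw [Nat.card_congr e.toEquiv, H168.NoSolv.card_alt_eight]

end Cfsg.Agent.S3104
end
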