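import Cfsg.Statements.S3106
import Cfsg.Agent.GH.C2FiveGlue
import Cfsg.Agent.H587.ExtraTwoCount
import Cfsg.Agent.SmallSimple.OrderEight
import Cfsg.Agent.PLocal.PConstrained
set_option linter.all false

set_option autoImplicit false
open Cfsg

namespace Cfsg.Agent.S3106

open Subgroup
open scoped commutatorElement
open Cfsg.Agent.Transfer.ExtraspecialTwo Cfsg.Agent.H587.ExtraTwoCount
open Cfsg.Agent.GH.C2Five

/-- squares in the quaternion group -/
theorem quat_comm : ∀ a b : QuaternionGroup 2, a ^ 2 = 1 → b ^ 2 = 1 → a * b = b * a := by decide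

theorem numSq_dihedral : numSq (DihedralGroup 4) = 6 := by
  unfold numSq
  rw [Nat.card_eq_fintype_card]
  decide

/-- the count of involutions when an element of order 5 acts -/
theorem numSq_of_five {X : Type*} [Group X] [Finite X] {P : Subgroup X} [hPn : P.Normal]
    (hP : CentralTwo ↥P) (hc : Nat.card ↥P = 32) {z : X} (hzP : z ∈ P) (hz1 : z ≠ 1)
    (hzz : z ^ 2 = 1) (hz : ∀ g : X, g * z = z * g) {x : X} (hx5 : x ^ 5 = 1)
    (hxn : ¬ ∀ p ∈ P, x * p = p * x) : numSq ↥P = 12 := by
  have h5 : Fact (Nat.Prime 5) := ⟨Nat.prime_five⟩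
  have hcount := card_sq 2 hP (by rw [hc]; norm_num)
  -- the action
  let A := zpowers x
  have hA : IsPGroup 5 A := by
    intro a
    obtain ⟨k, hk⟩ := mem_zpowers_iff.1 a.2
    refine ⟨1, Subtype.ext ?_⟩
    change (a : X) ^ 5 ^ 1 = 1
    rw [pow_one, ← hk, ← zpow_natCast, ← zpow_mul, mul_comm, zpow_mul, zpow_natCast, hx5, one_zpow]
  let act : MulAction A ↥P :=
    { smul := fun a p => ⟨(a : X) * p * (a : X)⁻¹, hPn.conj_mem p p.2 a⟩
      one_smul := fun p => Subtype.ext (by
        change ((1 : A) : X) * p * ((1 : A) : X)⁻¹ = p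
        simp)
      mul_smul := fun a b p => Subtype.ext (by
        change ((a * b : A) : X) * p * ((a * b : A) : X)⁻¹ = (a : X) * ((b : X) * p * (b : X)⁻¹) * (a : X)⁻¹
        rw [coe_mul]; group) }
  have hsm : ∀ (a : A) (p : ↥P), ((a • p : ↥P) : X) = (a : X) * p * (a : X)⁻¹ := fun a p => rfl
  let C : Subgroup ↥P := (centralizer ({x} : Set X)).subgroupOf P
  have hCmem : ∀ p : ↥P, p ∈ C ↔ x * p = p * x := by
    intro p
    change (p : X) ∈ centralizer ({x} : Set X) ↔ _
    rw [mem_centralizer_singleton_iff]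
    exact eq_comm
  have hfix : ∀ p : ↥P, p ∈ MulAction.fixedPoints A ↥P ↔ p ∈ C := by
    intro p
    rw [MulAction.mem_fixedPoints, hCmem]
    constructor
    · intro h
      have h1 := congrArg Subtype.val (h ⟨x, mem_zpowers x⟩)
      rw [hsm] at h1
      exact mul_inv_eq_iff_eq_mul.1 h1
    · intro h a
      apply Subtype.ext
      rw [hsm]
      obtain ⟨k, hk⟩ := mem_zpowers_iff.1 a.2
      have h2 : Commute x (p : X) := h
      have h3 : Commute (a : X) (p : X) := by rw [← hk]; exact h2.zpow_left k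
      rw [h3.eq, mul_inv_cancel_right]
  have hC2 : Nat.card C = 2 := by
    have h1 := hA.card_modEq_card_fixedPoints (α := ↥P)
    have h2 : Nat.card (MulAction.fixedPoints A ↥P) = Nat.card C :=
      Nat.card_congr (Equiv.subtypeEquivRight hfix)
    rw [h2, hc] at h1
    have h3 : Nat.card C ∣ 2 ^ 5 := by
      have := Subgroup.card_subgroup_dvd_card C
      rw [hc] at this
      exact this
    obtain ⟨k, hk, hk2⟩ := (Nat.dvd_prime_pow Nat.prime_two).1 h3
    rw [hk2] at h1
    have hne : k ≠ 5 := by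
      rintro rfl
      apply hxn
      intro p hp
      have h4 : C = ⊤ := Subgroup.eq_top_of_card_eq C (by rw [hk2, hc]; norm_num)
      have h5 : (⟨p, hp⟩ : ↥P) ∈ C := by rw [h4]; exact mem_top _
      exact (hCmem _).1 h5
    have h1' : 32 % 5 = 2 ^ k % 5 := h1
    interval_cases k
    · norm_num at h1'
    · exact hk2
    · norm_num at h1'
    · norm_num at h1'
    · norm_num at h1'
    · exact absurd rfl hne
  -- the action on the solutions
  let S := {p : ↥P // p ^ 2 = 1}
  let actS : MulAction A S :=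
    { smul := fun a p => ⟨a • p.1, by
        apply Subtype.ext
        change (((a • p.1 : ↥P) : X)) ^ 2 = 1
        rw [hsm, conj_pow]
        have h1 : ((p.1 : ↥P) : X) ^ 2 = 1 := congrArg Subtype.val p.2
        rw [h1, mul_one, mul_inv_cancel]⟩
      one_smul := fun p => Subtype.ext (one_smul A p.1)
      mul_smul := fun a b p => Subtype.ext (mul_smul a b p.1) }
  have h1 := hA.card_modEq_card_fixedPoints (α := S)
  have hCz : ∀ p ∈ C, p = 1 ∨ p = ⟨z, hzP⟩ := by
    have hzC : (⟨z, hzP⟩ : ↥P) ∈ C := (hCmem _).2 (hz x)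
    intro p hp
    by_contra hcon
    push Not at hcon
    have h6 : ({1, ⟨z, hzP⟩, p} : Set ↥P) ⊆ (C : Set ↥P) := by
      rintro q (rfl | rfl | rfl)
      · exact one_mem C
      · exact hzC
      · exact hp
    have h7 := Set.ncard_le_ncard h6 (Set.toFinite _)
    have h8 : (C : Set ↥P).ncard = 2 := by
      rw [← hC2]; rfl
    rw [h8, Set.ncard_eq_three.2 ⟨1, ⟨z, hzP⟩, p, ?_, ?_, ?_, rfl⟩] at h7
    · omega
    · intro h9; exact hz1 (congrArg Subtype.val h9).symm
    · exact hcon.1.symm
    · exact hcon.2.symm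
  have h2 : Nat.card (MulAction.fixedPoints A S) = 2 := by
    rw [← hC2]
    refine Nat.card_congr
      { toFun := fun s => ⟨s.1.1, (hfix _).1 (fun a => congrArg Subtype.val (s.2 a))⟩
        invFun := fun c => ⟨⟨c.1, ?_⟩, fun a => Subtype.ext ((hfix _).2 c.2 a)⟩
        left_inv := fun s => rfl
        right_inv := fun c => rfl }
    rcases hCz c.1 c.2 with h | h
    · rw [h, one_pow]
    · rw [h]; exact Subtype.ext hzz
  rw [h2] at h1
  have h3 : numSq ↥P % 5 = 2 % 5 := h1
  rcases hcount with h4 | ⟨-, h4⟩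
  · rw [h4] at h3; norm_num at h3
  · rw [h4]; norm_num

theorem central_product {P : Type*} [Group P] [Finite P] (hP : CentralTwo P) (hc : Nat.card P = 32)
    (h12 : numSq P = 12) : ∃ A B : Subgroup P,
        Nonempty (↥A ≃* QuaternionGroup 2) ∧ Nonempty (↥B ≃* DihedralGroup 4) ∧ (∀ a ∈ A, ∀ b ∈ B, a * b = b * a) ∧
          A ⊔ B = ⊤ ∧ A ⊓ B = Subgroup.center P := by
  obtain ⟨x, y, hxy, hx, hy⟩ := hasInvPair_of_card (n := 0) hP (by rw [hc]; norm_num)
  have h1 := numSq_inv_pair hP hxy hx hy
  have h2 := numSq_add_numNSq (centralizer ({x, y} : Set P))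
  have hcC : Nat.card (centralizer ({x, y} : Set P)) = 8 := by
    have := hP.card_eq hxy
    omega
  have h3 : numSq (centralizer ({x, y} : Set P)) = 2 := by omega
  set A := centralizer ({x, y} : Set P) with hA
  have hCA : CentralTwo A := hP.centralizer hxy
  -- `A` is quaternion
  have hAna : ¬ IsMulCommutative A := by
    intro h
    have h4 : center A = ⊤ := by
      rw [eq_top_iff]
      intro a _
      rw [mem_center_iff]
      exact fun b => h.is_comm.comm b a
    have h5 := hCA.card_center
    rw [h4, card_top, hcC] at h5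
    omega
  have hAq : Nonempty (↥A ≃* QuaternionGroup 2) := by
    rcases SmallSimple.OrderEight.dihedral_or_quaternion_of_card_eight hcC hAna with h | h
    · obtain ⟨e⟩ := h
      rw [numSq_congr e, numSq_dihedral] at h3
      omega
    · exact h
  -- generators of `A`
  obtain ⟨c, d, hcd⟩ : ∃ c d : A, c * d ≠ d * c := by
    by_contra hcon
    push Not at hcon
    exact hAna ⟨⟨hcon⟩⟩
  have hcd' : ⁅(c : P), (d : P)⁆ ≠ 1 := by
    intro h
    exact hcd (Subtype.ext (commutatorElement_eq_one_iff_mul_comm.1 h))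
  have hgen : ∀ a ∈ A, a ∈ closure ({(c : P), (d : P)} : Set P) := by
    have h4 : closure ({(c : P), (d : P)} : Set P) ≤ A := by
      rw [closure_le]
      rintro a (rfl | rfl)
      · exact c.2
      · exact d.2
    have h5 : Nat.card (closure ({(c : P), (d : P)} : Set P)) ∣ 2 ^ 3 := by
      have := card_dvd_of_le h4
      rwa [hcC] at this
    obtain ⟨k, hk, hk2⟩ := (Nat.dvd_prime_pow Nat.prime_two).1 h5
    have h6 : k = 3 := by
      by_contra hne
      have h7 : k ≤ 2 := by omega
      have hcm : IsMulCommutative (closure ({(c : P), (d : P)} : Set P)) := by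
        have h2' : Fact (Nat.Prime 2) := ⟨Nat.prime_two⟩
        interval_cases k
        · have h8 : Subsingleton (closure ({(c : P), (d : P)} : Set P)) :=
            (Nat.card_eq_one_iff_unique.mp hk2).1
          exact ⟨⟨fun a b => Subsingleton.elim _ _⟩⟩
        · have := isCyclic_of_prime_card (p := 2) hk2
          exact IsCyclic.isMulCommutative
        · exact IsPGroup.isMulCommutative_of_card_eq_prime_sq hk2
      apply hcd'
      rw [commutatorElement_eq_one_iff_mul_comm]
      exact congrArg Subtype.val (hcm.is_comm.comm ⟨(c : P), subset_closure (by simp)⟩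
        ⟨(d : P), subset_closure (by simp)⟩)
    have h8 : closure ({(c : P), (d : P)} : Set P) = A :=
      Subgroup.eq_of_le_of_card_ge h4 (by rw [hk2, h6, hcC]; norm_num)
    intro a ha
    rw [h8]; exact ha
  set B := centralizer ({(c : P), (d : P)} : Set P) with hB
  have hcB : Nat.card B = 8 := by
    have h9 := hP.card_eq hcd'
    rw [hc] at h9
    change 32 = 4 * Nat.card B at h9
    omega
  have hcomm : ∀ a ∈ A, ∀ b ∈ B, a * b = b * a := by
    intro a ha b hb
    have h4 : closure ({(c : P), (d : P)} : Set P) ≤ centralizer ({b} : Set P) := by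
      rw [closure_le]
      rintro g hg
      rw [SetLike.mem_coe, mem_centralizer_singleton_iff]
      exact mem_centralizer_iff.1 hb g hg
    exact mem_centralizer_singleton_iff.1 (h4 (hgen a ha))
  have hxB : x ∈ B := by
    rw [hB, mem_centralizer_iff]
    rintro g (rfl | rfl)
    · exact (mem_centralizer_iff.1 c.2 x (by simp)).symm
    · exact (mem_centralizer_iff.1 d.2 x (by simp)).symm
  have hyB : y ∈ B := by
    rw [hB, mem_centralizer_iff]
    rintro g (rfl | rfl)
    · exact (mem_centralizer_iff.1 c.2 y (by simp)).symm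
    · exact (mem_centralizer_iff.1 d.2 y (by simp)).symm
  have hxyn : x * y ≠ y * x := fun h => hxy (commutatorElement_eq_one_iff_mul_comm.2 h)
  have hBna : ¬ IsMulCommutative B := fun h =>
    hxyn (congrArg Subtype.val (h.is_comm.comm ⟨x, hxB⟩ ⟨y, hyB⟩))
  have hBd : Nonempty (↥B ≃* DihedralGroup 4) := by
    rcases SmallSimple.OrderEight.dihedral_or_quaternion_of_card_eight hcB hBna with h | h
    · exact h
    · exfalso
      obtain ⟨e⟩ := h
      have h4 := quat_comm (e ⟨x, hxB⟩) (e ⟨y, hyB⟩)
        (by rw [← map_pow, show (⟨x, hxB⟩ : B) ^ 2 = 1 from Subtype.ext hx, map_one])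
        (by rw [← map_pow, show (⟨y, hyB⟩ : B) ^ 2 = 1 from Subtype.ext hy, map_one])
      rw [← map_mul, ← map_mul] at h4
      exact hxyn (congrArg Subtype.val (e.injective h4))
  have htop : A ⊔ B = ⊤ := by
    rw [eq_top_iff]
    intro g _
    obtain ⟨⟨i, j, a⟩, rfl⟩ := (coord_bijective hP hxy).2 g
    refine mul_mem (mem_sup_right (mul_mem ?_ ?_)) (mem_sup_left a.2)
    · cases i
      · exact one_mem B
      · exact hxB
    · cases j
      · exact one_mem B
      · exact hyB
  refine ⟨A, B, hAq, hBd, hcomm, htop, le_antisymm ?_ ?_⟩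
  · rintro g ⟨hgA, hgB⟩
    rw [mem_center_iff]
    have h4 : (A ⊔ B : Subgroup P) ≤ centralizer ({g} : Set P) := by
      rw [sup_le_iff]
      constructor
      · intro a ha
        rw [mem_centralizer_singleton_iff]
        exact hcomm a ha g hgB
      · intro b hb
        rw [mem_centralizer_singleton_iff]
        exact (hcomm g hgA b hb).symm
    intro k
    rw [htop] at h4
    exact mem_centralizer_singleton_iff.1 (h4 (mem_top k))
  · exact le_inf (center_le_centralizer _) (center_le_centralizer _)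

/-- Let X be a finite nonsolvable 2-constrained group with no nontrivial normal subgroup of odd order and of sectional 2-rank at most 4, and suppose X/O₂(X) contains a subgroup isomorphic to the alternating group of degree 5. Then O₂(X) is elementary abelian of order 16, or O₂(X) is a central product of a quaternion group of order 8 and a dihedral group of order 8 (it has order 32 and is generated by two elementwise-commuting subgroups, one quaternion of order 8 and one dihedral of order 8, meeting in the centre). -/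
theorem result {X : Type*} [Group X] [Finite X] (hns : ¬ Group.IsSolvable X) (hc : Cfsg.IsPConstrained 2 X) (hO : Cfsg.oddCore X = ⊥)
    (h4 : Cfsg.SectionalPRankLE 2 4 X)
    (hQ : ∃ A : Subgroup (X ⧸ Cfsg.pCore 2 X), Nonempty (↥A ≃* ↥(alternatingGroup (Fin 5)))) :
    (Cfsg.IsElementaryAbelian 2 (Cfsg.pCore 2 X) ∧ Nat.card ↥(Cfsg.pCore 2 X) = 16) ∨
      (Nat.card ↥(Cfsg.pCore 2 X) = 32 ∧ ∃ A B : Subgroup ↥(Cfsg.pCore 2 X),
        Nonempty (↥A ≃* QuaternionGroup 2) ∧ Nonempty (↥B ≃* DihedralGroup 4) ∧ (∀ a ∈ A, ∀ b ∈ B, a * b = b * a) ∧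
          A ⊔ B = ⊤ ∧ A ⊓ B = Subgroup.center ↥(Cfsg.pCore 2 X)) := by
  have hcen : Subgroup.centralizer (pCore 2 X : Set X) ≤ pCore 2 X :=
    (Cfsg.Agent.PLocal.PConstrained.isPConstrained_iff_of_pPrimeCore_eq_bot hO).1 hc
  have hQp : IsPGroup 2 (pCore 2 X) := Cfsg.Agent.PLocal.PConstrained.isPGroup_pCore 2 X
  have hr : R4 X := r4_iff.mpr h4
  have h5 : Fact (Nat.Prime 5) := ⟨Nat.prime_five⟩
  obtain ⟨A, ⟨e⟩⟩ := hQ
  have hA : Nat.card ↥A = 60 := by
    rw [Nat.card_congr e.toEquiv, Nat.card_eq_fintype_card]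
    decide +kernel
  have hd : 5 ∣ Nat.card X := by
    have h1 : Nat.card ↥A ∣ Nat.card (X ⧸ pCore 2 X) := Subgroup.card_subgroup_dvd_card A
    rw [hA] at h1
    exact ((by norm_num : 5 ∣ 60).trans h1).trans (Subgroup.card_quotient_dvd_card _)
  obtain ⟨x, hx⟩ := exists_prime_orderOf_dvd_card' 5 hd
  have hx5 : x ^ 5 = 1 := by rw [← hx]; exact pow_orderOf_eq_one x
  have hx1 : x ≠ 1 := by
    rintro rfl
    rw [orderOf_one] at hx
    omega
  rcases GH.C2FiveGlue.five_main hr hcen hns hx5 hx1 with ⟨hsq, h16, -⟩ | ⟨hex, h32, z, hz, hz1, hz2, hzc⟩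
  · left
    have hcm : ∀ a ∈ pCore 2 X, ∀ b ∈ pCore 2 X, a * b = b * a := by
      intro a ha b hb
      have h1 := hsq (a * b) (mul_mem ha hb)
      have h2 := hsq a ha
      have h3 := hsq b hb
      rw [pow_two] at h1 h2 h3
      calc a * b = a * (a * b * (a * b)) * b := by rw [h1, mul_one]
        _ = (a * a) * (b * a) * (b * b) := by group
        _ = b * a := by rw [h2, h3, one_mul, mul_one]
    exact ⟨⟨⟨⟨fun a b => Subtype.ext (hcm a a.2 b b.2)⟩⟩, hsq⟩, h16⟩
  · right
    refine ⟨h32, ?_⟩
    have hP := centralTwo_of_isExtraspecial hex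
    have h12 := numSq_of_five hP h32 hz hz1 hz2 hzc hx5 (fun h => by
      have h1 : x ∈ pCore 2 X := hcen (mem_centralizer_iff.mpr fun v hv => (h v hv).symm)
      obtain ⟨n, hn⟩ := hQp ⟨x, h1⟩
      have h3 : x ^ 2 ^ n = 1 := congrArg Subtype.val hn
      have h3 := orderOf_dvd_of_pow_eq_one h3
      rw [hx] at h3
      exact absurd (Nat.prime_five.dvd_of_dvd_pow h3) (by norm_num))
    exact central_product hP h32 h12

end Cfsg.Agent.S3106
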