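import Mathlib
import Cfsg.Agent.S0144
import Cfsg.Agent.Schreier.Basic
import Cfsg.Agent.Schreier.Tools
import Cfsg.Statements.S3117
import Cfsg.Agent.S0093
import Cfsg.Agent.S0121
import Cfsg.Agent.S0014
import Cfsg.Agent.S0501
set_option linter.all false

-- part: H289/QuadPerf
section
/-!
# Perfect groups preserving a quadratic map with few zeros on an elementary abelian group of order at most 16
-/

set_option autoImplicit false

namespace Cfsg.Agent.H289.QuadPerf

open Cfsg.Agent.Schreier.Basic Cfsg.Agent.Schreier.Tools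

/-- fixed points of an automorphism of prime order on an invariant set -/
theorem ncard_modEq {W : Type*} [Group W] [Finite W] (δ : MulAut W) (r : ℕ) (hr : r.Prime) (hδ : δ ^ r = 1)
    (T : Set W) (hT : ∀ w ∈ T, δ w ∈ T) : T.ncard ≡ (T ∩ {w | δ w = w}).ncard [MOD r] := by
  classical
  have : Fact r.Prime := ⟨hr⟩
  have := Fintype.ofFinite W
  let f : Function.End T := fun w => ⟨δ w, hT w w.2⟩
  have hpow : ∀ (n : ℕ) (w : T), (((f ^ n : Function.End T) w : T) : W) = (δ ^ n) w := by
    intro n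
    induction n with
    | zero => intro w; rfl
    | succ n ih =>
      intro w
      rw [pow_succ', pow_succ', MulAut.mul_apply, ← ih w]
      rfl
  have hf : f ^ r ^ 1 = 1 := by
    funext w
    apply Subtype.ext
    rw [pow_one, hpow, hδ]
    rfl
  have h1 := Equiv.Perm.card_fixedPoints_modEq hf
  rw [← Nat.card_eq_fintype_card, ← Nat.card_eq_fintype_card] at h1
  have h2 : Nat.card f.fixedPoints = (T ∩ {w | δ w = w}).ncard := by
    rw [← Nat.card_coe_set_eq]
    refine Nat.card_congr ⟨fun x => ⟨x.1.1, x.1.2, congrArg Subtype.val x.2⟩,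
      fun x => ⟨⟨x.1, x.2.1⟩, Subtype.ext x.2.2⟩, fun x => rfl, fun x => rfl⟩
  rw [h2, Nat.card_coe_set_eq] at h1
  exact h1

/-- a quadratic map `s : W → V` of elementary abelian 2-groups -/
structure QM {W V : Type*} [Group W] [Group V] (s : W → V) : Prop where
  w2 : ∀ w : W, w * w = 1
  v2 : ∀ v : V, v * v = 1
  bil : ∀ x y z : W, s (x * y * z) * s (x * y) * s z = (s (x * z) * s x * s z) * (s (y * z) * s y * s z)

variable {W V : Type*} [Group W] [Group V] {s : W → V}

theorem comm_of_two {A : Type*} [Group A] (h : ∀ a : A, a * a = 1) (a b : A) : a * b = b * a := by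
  have h1 := h (a * b)
  have ha := h a
  have hb := h b
  calc a * b = a * (a * b * (a * b)) * b := by rw [h1, mul_one]
    _ = (a * a) * (b * a) * (b * b) := by group
    _ = b * a := by rw [ha, hb, one_mul, mul_one]

theorem QM.map_one (h : QM s) : s 1 = 1 := by
  have h1 := h.bil 1 1 1
  simp only [mul_one] at h1
  have h2 := h.v2 (s 1)
  rw [h2, one_mul] at h1
  rw [h2] at h1
  exact h1

theorem mul_mem_of_index_two {A : Type*} [Group A] {K : Subgroup A} (hK : K.index = 2) {a b : A} :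
    a * b ∈ K ↔ (a ∈ K ↔ b ∈ K) := Subgroup.mul_mem_iff_of_index_two hK

/-- **No quadratic map to a group of order 2 without zeros in dimension 3.** -/
theorem QM.exists_mem (h : QM s) (K : Subgroup V) (hK : K.index = 2) (x y z : W)
    (hx : x ≠ 1) (hy : y ≠ 1) (hz : z ≠ 1) (hxy : x * y ≠ 1) (hxz : x * z ≠ 1) (hyz : y * z ≠ 1)
    (hxyz : x * y * z ≠ 1) : ∃ w : W, w ∈ ({x, y, z, x * y, x * z, y * z, x * y * z} : Set W) ∧ w ≠ 1 ∧ s w ∈ K := by
  by_contra hcon
  push Not at hcon
  have key := h.bil x y z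
  have e1 := hcon x (by simp) hx
  have e2 := hcon y (by simp) hy
  have e3 := hcon z (by simp) hz
  have e4 := hcon (x * y) (by simp) hxy
  have e5 := hcon (x * z) (by simp) hxz
  have e6 := hcon (y * z) (by simp) hyz
  have e7 := hcon (x * y * z) (by simp) hxyz
  have h1 : s (x * y * z) * s (x * y) * s z ∉ K := by
    rw [mul_mem_of_index_two hK, mul_mem_of_index_two hK]
    tauto
  rw [key] at h1
  apply h1
  rw [mul_mem_of_index_two hK, mul_mem_of_index_two hK, mul_mem_of_index_two hK, mul_mem_of_index_two hK,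
    mul_mem_of_index_two hK]
  tauto

/-- three independent elements in a subgroup of order at least 8 -/
theorem exists_three [Finite W] (h2 : ∀ w : W, w * w = 1) (U : Subgroup W) (hU : 8 ≤ Nat.card U) :
    ∃ x ∈ U, ∃ y ∈ U, ∃ z ∈ U, x ≠ 1 ∧ y ≠ 1 ∧ z ≠ 1 ∧ x * y ≠ 1 ∧ x * z ≠ 1 ∧ y * z ≠ 1 ∧ x * y * z ≠ 1 := by
  classical
  have hinv : ∀ a b : W, a * b = 1 → a = b := by
    intro a b hab
    calc a = a * (b * b) := by rw [h2, mul_one]
      _ = b := by rw [← mul_assoc, hab, one_mul]
  have hcard : ∀ S : Set W, S.ncard < 8 → ∃ u ∈ U, u ∉ S := by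
    intro S hS
    by_contra hcon
    push Not at hcon
    have h3 : (U : Set W) ⊆ S := hcon
    have h4 := Set.ncard_le_ncard h3 (Set.toFinite _)
    rw [← Nat.card_coe_set_eq] at h4
    have h5 : Nat.card (U : Set W) = Nat.card U := rfl
    omega
  obtain ⟨x, hxU, hx⟩ := hcard {1} (by simp)
  obtain ⟨y, hyU, hy⟩ := hcard {1, x} (lt_of_le_of_lt (Set.ncard_insert_le _ _) (by simp))
  obtain ⟨z, hzU, hz⟩ := hcard {1, x, y, x * y} (by
    refine lt_of_le_of_lt (Set.ncard_insert_le _ _) ?_
    have h1 := Set.ncard_insert_le x ({y, x * y} : Set W)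
    have h2 := Set.ncard_insert_le y ({x * y} : Set W)
    rw [Set.ncard_singleton] at h2
    omega)
  simp only [Set.mem_singleton_iff, Set.mem_insert_iff, not_or] at hx hy hz
  refine ⟨x, hxU, y, hyU, z, hzU, hx, hy.1, hz.1, ?_, ?_, ?_, ?_⟩
  · exact fun h => hy.2 (hinv _ _ h).symm
  · exact fun h => hz.2.1 (hinv _ _ h).symm
  · exact fun h => hz.2.2.1 (hinv _ _ h).symm
  · exact fun h => hz.2.2.2 (hinv _ _ h).symm

theorem pow_two_card {A : Type*} [Group A] [Finite A] (h : ∀ a : A, a * a = 1) (U : Subgroup A) :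
    ∃ n, Nat.card U = 2 ^ n := by
  have : Fact (Nat.Prime 2) := ⟨Nat.prime_two⟩
  have h1 : IsPGroup 2 U := fun u => ⟨1, Subtype.ext (by
    rw [pow_one, Subgroup.coe_pow, sq, h, Subgroup.coe_one])⟩
  exact IsPGroup.iff_card.1 h1

/-- the fixed points as a subgroup -/
def fixSub (δ : MulAut W) : Subgroup W where
  carrier := {w | δ w = w}
  mul_mem' := by
    intro a b ha hb
    show δ (a * b) = a * b
    rw [map_mul, ha, hb]
  one_mem' := by simp
  inv_mem' := by
    intro a ha
    show δ a⁻¹ = a⁻¹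
    rw [map_inv, ha]

theorem mem_fixSub {δ : MulAut W} {w : W} : w ∈ fixSub δ ↔ δ w = w := Iff.rfl

section main

variable [Finite W] [Finite V]

/-- the commutator `[W, δ]` as a subgroup, for `W` abelian -/
def comSub (h2 : ∀ w : W, w * w = 1) (δ : MulAut W) : Subgroup W where
  carrier := {u | ∃ w, u = w * δ w}
  mul_mem' := by
    rintro _ _ ⟨a, rfl⟩ ⟨b, rfl⟩
    refine ⟨a * b, ?_⟩
    rw [map_mul, mul_assoc a b, ← mul_assoc b, comm_of_two h2 b (δ a)]
    group
  one_mem' := ⟨1, by simp⟩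
  inv_mem' := by
    rintro _ ⟨a, rfl⟩
    refine ⟨a⁻¹, ?_⟩
    rw [map_inv, mul_inv_rev, comm_of_two h2]

theorem mem_comSub {h2 : ∀ w : W, w * w = 1} {δ : MulAut W} {u : W} :
    u ∈ comSub h2 δ ↔ ∃ w, u = w * δ w := Iff.rfl

theorem card_comSub (h2 : ∀ w : W, w * w = 1) (δ : MulAut W) :
    Nat.card (comSub h2 δ) * Nat.card (fixSub δ) = Nat.card W := by
  let f : W →* W :=
    { toFun := fun w => w * δ w
      map_one' := by simp
      map_mul' := fun a b => by
        rw [map_mul, mul_assoc a b, ← mul_assoc b, comm_of_two h2 b (δ a)]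
        group }
  have h3 : f.range = comSub h2 δ := by
    ext u
    constructor
    · rintro ⟨w, rfl⟩; exact ⟨w, rfl⟩
    · rintro ⟨w, rfl⟩; exact ⟨w, rfl⟩
  have h4 : f.ker = fixSub δ := by
    ext w
    rw [MonoidHom.mem_ker, mem_fixSub]
    show w * δ w = 1 ↔ _
    constructor
    · intro h
      calc δ w = w * w * δ w := by rw [h2, one_mul]
        _ = w := by rw [mul_assoc, h, mul_one]
    · intro h
      rw [h, h2]
  rw [← h3, ← h4, ← Subgroup.index_ker]
  exact f.ker.index_mul_card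

theorem comSub_inf (h2 : ∀ w : W, w * w = 1) (δ : MulAut W) (r : ℕ) (hr : Odd r) (hδ : δ ^ r = 1) (u : W)
    (hu : u ∈ comSub h2 δ) (hf : δ u = u) : u = 1 := by
  obtain ⟨w, rfl⟩ := hu
  set u := w * δ w with hu
  have h3 : δ w = w * u := by rw [hu, ← mul_assoc, h2, one_mul]
  have h4 : ∀ n : ℕ, (δ ^ n) w = w * u ^ n := by
    intro n
    induction n with
    | zero => simp
    | succ n ih =>
      rw [pow_succ', MulAut.mul_apply, ih, map_mul, map_pow, hf, h3, pow_succ']
      group
  have h5 := h4 r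
  rw [hδ, MulAut.one_apply] at h5
  have h6 : u ^ r = 1 := by
    have := h5.symm
    rwa [mul_eq_left] at this
  obtain ⟨k, hk⟩ := hr
  rw [hk, pow_succ, pow_mul, sq, h2, one_pow, one_mul] at h6
  exact h6

theorem comSub_map (h2 : ∀ w : W, w * w = 1) (δ : MulAut W) {u : W}
    (hu : u ∈ comSub h2 δ) : δ u ∈ comSub h2 δ := by
  obtain ⟨w, rfl⟩ := hu
  exact ⟨δ w, by rw [map_mul]⟩

/-- orders of automorphisms of prime order and their fixed points -/
theorem fix_cases (h2 : ∀ w : W, w * w = 1) (hW : Nat.card W ≤ 16) (δ : MulAut W) (r : ℕ) (hr : r.Prime)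
    (hδ : orderOf δ = r) : r = 2 ∨ (r = 3 ∧ Nat.card (fixSub δ) ≤ 4) ∨
      (r = 5 ∧ Nat.card (fixSub δ) = 1 ∧ Nat.card W = 16) ∨ (r = 7 ∧ Nat.card (comSub h2 δ) = 8) := by
  have hδr : δ ^ r = 1 := by rw [← hδ]; exact pow_orderOf_eq_one δ
  have h1 := ncard_modEq δ r hr hδr Set.univ (fun _ _ => Set.mem_univ _)
  rw [Set.univ_inter, Set.ncard_univ] at h1
  have h3 : ({w | δ w = w} : Set W).ncard = Nat.card (fixSub δ) := by
    rw [← Nat.card_coe_set_eq]; rfl
  rw [h3] at h1
  obtain ⟨n, hn⟩ := pow_two_card h2 (⊤ : Subgroup W)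
  rw [Subgroup.card_top] at hn
  obtain ⟨j, hj⟩ := pow_two_card h2 (fixSub δ)
  obtain ⟨i, hi⟩ := pow_two_card h2 (comSub h2 δ)
  have hc := card_comSub h2 δ
  have hne : i ≠ 0 := by
    rintro rfl
    rw [pow_zero] at hi
    have h4 : comSub h2 δ = ⊥ := Subgroup.card_eq_one.1 hi
    have h5 : δ = 1 := by
      ext w
      have h6 : w * δ w ∈ comSub h2 δ := ⟨w, rfl⟩
      rw [h4, Subgroup.mem_bot] at h6
      rw [MulAut.one_apply]
      calc δ w = w * w * δ w := by rw [h2, one_mul]
        _ = w := by rw [mul_assoc, h6, mul_one]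
    rw [h5, orderOf_one] at hδ
    rw [← hδ] at hr
    exact Nat.not_prime_one hr
  rw [hn, hi, hj, ← pow_add] at hc
  have hij : i + j = n := Nat.pow_right_injective le_rfl hc
  have hn4 : n ≤ 4 := by
    rw [hn] at hW
    by_contra hlt
    have : 2 ^ 5 ≤ 2 ^ n := Nat.pow_le_pow_right (by norm_num) (by omega)
    omega
  rw [hn, hj] at h1
  have h4 := (Nat.modEq_iff_dvd' (Nat.pow_le_pow_right (by norm_num) (by omega : j ≤ n))).1 h1.symm
  rw [hj, hi, hn]
  have h5 : 2 ^ n - 2 ^ j = 2 ^ j * (2 ^ i - 1) := by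
    rw [← hij, pow_add, Nat.mul_sub, mul_one, mul_comm]
  rw [h5] at h4
  rcases (Nat.Prime.dvd_mul hr).1 h4 with h6 | h6
  · left
    exact (Nat.prime_dvd_prime_iff_eq hr Nat.prime_two).1 (hr.dvd_of_dvd_pow h6)
  · right
    have hi4 : i ≤ 4 := by omega
    have hi14 : i = 1 ∨ i = 2 ∨ i = 3 ∨ i = 4 := by omega
    rcases hi14 with rfl | rfl | rfl | rfl
    · norm_num at h6
      exact absurd (h6 ▸ hr) Nat.not_prime_one
    · norm_num at h6
      left
      refine ⟨(Nat.prime_dvd_prime_iff_eq hr Nat.prime_three).1 h6, ?_⟩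
      have : j ≤ 2 := by omega
      calc 2 ^ j ≤ 2 ^ 2 := Nat.pow_le_pow_right (by norm_num) this
        _ = 4 := by norm_num
    · norm_num at h6
      right; right
      exact ⟨(Nat.prime_dvd_prime_iff_eq hr (by norm_num)).1 h6, by norm_num⟩
    · have hj0 : j = 0 := by omega
      have hn' : n = 4 := by omega
      subst hj0
      subst hn'
      have h7 : r ∣ 3 * 5 := by simpa using h6
      rcases (Nat.Prime.dvd_mul hr).1 h7 with h8 | h8
      · left
        exact ⟨(Nat.prime_dvd_prime_iff_eq hr Nat.prime_three).1 h8, by norm_num⟩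
      · right; left
        exact ⟨(Nat.prime_dvd_prime_iff_eq hr Nat.prime_five).1 h8, by norm_num, by norm_num⟩

/-- `s ∘ δ = s` and `δ` of order 7 is impossible. -/
theorem QM.no_seven (h : QM s) (hW : Nat.card W ≤ 16) (hz : ∃ c, ∀ w, s w = 1 → w = 1 ∨ w = c)
    (δ : MulAut W) (hδ : orderOf δ = 7) (hs : ∀ w, s (δ w) = s w) : False := by
  have hδr : δ ^ 7 = 1 := by rw [← hδ]; exact pow_orderOf_eq_one δ
  have hp7 : Nat.Prime 7 := by norm_num
  have hU : Nat.card (comSub h.w2 δ) = 8 := by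
    rcases fix_cases h.w2 hW δ 7 hp7 hδ with h1 | h1 | h1 | h1
    · norm_num at h1
    · norm_num at h1
    · norm_num at h1
    · exact h1.2
  set U := comSub h.w2 δ with hUdef
  -- a set `T ⊆ U` invariant under `δ` without `1` has 0 or 7 elements
  have key : ∀ v : V, ({w | w ∈ U ∧ w ≠ 1 ∧ s w = v} : Set W).Nonempty → ∀ w ∈ U, w ≠ 1 → s w = v := by
    intro v hv
    set T : Set W := {w | w ∈ U ∧ w ≠ 1 ∧ s w = v} with hT
    have h1 := ncard_modEq δ 7 hp7 hδr T (fun w hw => ⟨comSub_map h.w2 δ hw.1,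
      fun h => hw.2.1 (by simpa using h), by rw [hs]; exact hw.2.2⟩)
    have h2 : T ∩ {w | δ w = w} = ∅ := by
      rw [Set.eq_empty_iff_forall_notMem]
      rintro w ⟨hw, hw2⟩
      exact hw.2.1 (comSub_inf h.w2 δ 7 (by decide) hδr w hw.1 hw2)
    rw [h2, Set.ncard_empty] at h1
    have h3 : 7 ∣ T.ncard := (Nat.modEq_zero_iff_dvd).1 h1
    have h4 : T ⊆ (U : Set W) \ {1} := fun w hw => ⟨hw.1, hw.2.1⟩
    have h5 : ((U : Set W) \ {1}).ncard = 7 := by
      rw [Set.ncard_diff_singleton_of_mem (one_mem U), ← Nat.card_coe_set_eq]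
      have : Nat.card (U : Set W) = Nat.card U := rfl
      omega
    have h6 : 0 < T.ncard := (Set.ncard_pos (Set.toFinite _)).2 hv
    have h7 : T = (U : Set W) \ {1} := by
      apply Set.eq_of_subset_of_ncard_le h4
      rw [h5]
      exact Nat.le_of_dvd h6 h3
    intro w hw hw1
    have h8 : w ∈ T := by rw [h7]; exact ⟨hw, hw1⟩
    exact h8.2.2
  obtain ⟨x, hxU, y, hyU, z, hzU, hx, hy, hz', hxy, hxz, hyz, hxyz⟩ := exists_three h.w2 U (by omega)
  set v := s x with hv
  have hall := key v ⟨x, hxU, hx, rfl⟩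
  have hv1 : v ≠ 1 := by
    intro h1
    obtain ⟨c, hc⟩ := hz
    have h2 := (hc x (by rw [← hv, h1])).resolve_left hx
    have h3 := (hc y (by rw [hall y hyU hy, h1])).resolve_left hy
    exact hxy (by rw [h2, ← h3, h.w2])
  have hb := h.bil x y z
  rw [hall x hxU hx, hall y hyU hy, hall z hzU hz', hall _ (mul_mem hxU hyU) hxy,
    hall _ (mul_mem hxU hzU) hxz, hall _ (mul_mem hyU hzU) hyz, hall _ (mul_mem (mul_mem hxU hyU) hzU) hxyz,
    h.v2, one_mul, h.v2] at hb
  exact hv1 hb

theorem zpowers_of_card_four {V : Type*} [Group V] [Finite V] (h2 : ∀ v : V, v * v = 1) (hV : Nat.card V = 4)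
    (v : V) (hv : v ≠ 1) : (Subgroup.zpowers v).index = 2 := by
  have h1 : orderOf v = 2 := orderOf_eq_prime (by rw [sq, h2]) hv
  have h3 := (Subgroup.zpowers v).card_mul_index
  rw [Nat.card_zpowers, h1, hV] at h3
  omega

theorem mem_zpowers_of_two {V : Type*} [Group V] (h2 : ∀ v : V, v * v = 1) (v w : V)
    (h : w ∈ Subgroup.zpowers v) : w = 1 ∨ w = v := by
  obtain ⟨k, rfl⟩ := Subgroup.mem_zpowers_iff.1 h
  rcases Int.even_or_odd' k with ⟨m, rfl | rfl⟩
  · left
    rw [zpow_mul, zpow_ofNat, sq, h2, one_zpow]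
  · right
    rw [zpow_add, zpow_mul, zpow_ofNat, sq, h2, one_zpow, one_mul, zpow_one]

/-- an element of order 5: the values of `s` outside 1 are taken 5 times each -/
theorem QM.five (h : QM s) (hW : Nat.card W ≤ 16) (hV : Nat.card V ≤ 4)
    (hz : ∃ c, ∀ w, s w = 1 → w = 1 ∨ w = c)
    (δ : MulAut W) (hδ : orderOf δ = 5) (hs : ∀ w, s (δ w) = s w) :
    Nat.card V = 4 ∧ (∀ w, s w = 1 → w = 1) ∧ ∀ v : V, v ≠ 1 → ({w | s w = v} : Set W).ncard = 5 := by
  have hδr : δ ^ 5 = 1 := by rw [← hδ]; exact pow_orderOf_eq_one δ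
  have hp5 : Nat.Prime 5 := by norm_num
  obtain ⟨hfix, hW16⟩ : Nat.card (fixSub δ) = 1 ∧ Nat.card W = 16 := by
    rcases fix_cases h.w2 hW δ 5 hp5 hδ with h1 | h1 | h1 | h1
    · norm_num at h1
    · norm_num at h1
    · exact h1.2
    · norm_num at h1
  have hfix' : ∀ w, δ w = w → w = 1 := by
    intro w hw
    have h1 : fixSub δ = ⊥ := Subgroup.card_eq_one.1 hfix
    have h2 : w ∈ fixSub δ := hw
    rw [h1, Subgroup.mem_bot] at h2
    exact h2
  -- invariant sets without `1` have order divisible by 5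
  have h5 : ∀ T : Set W, (∀ w ∈ T, δ w ∈ T) → (1 : W) ∉ T → 5 ∣ T.ncard := by
    intro T hT h1T
    have h1 := ncard_modEq δ 5 hp5 hδr T hT
    have h2 : T ∩ {w | δ w = w} = ∅ := by
      rw [Set.eq_empty_iff_forall_notMem]
      rintro w ⟨hw, hw2⟩
      exact h1T (hfix' w hw2 ▸ hw)
    rw [h2, Set.ncard_empty] at h1
    exact (Nat.modEq_zero_iff_dvd).1 h1
  have hz1 : ∀ w, s w = 1 → w = 1 := by
    obtain ⟨c, hc⟩ := hz
    intro w hw
    by_contra hw1
    have h1 := h5 {w | s w = 1 ∧ w ≠ 1} (fun w hw => ⟨by rw [hs]; exact hw.1,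
      fun h => hw.2 (by simpa using h)⟩) (fun h => h.2 rfl)
    have h2 : ({w | s w = 1 ∧ w ≠ 1} : Set W) ⊆ {c} := by
      rintro w ⟨hw, hw2⟩
      exact (hc w hw).resolve_left hw2
    have h3 := Set.ncard_le_ncard h2 (Set.toFinite _)
    rw [Set.ncard_singleton] at h3
    have h4 : 0 < ({w | s w = 1 ∧ w ≠ 1} : Set W).ncard := (Set.ncard_pos (Set.toFinite _)).2 ⟨w, hw, hw1⟩
    have h6 := Nat.le_of_dvd h4 h1
    omega
  obtain ⟨x, -, y, -, z, -, hx, hy, hz', hxy, hxz, hyz, hxyz⟩ := exists_three h.w2 (⊤ : Subgroup W)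
    (by rw [Subgroup.card_top]; omega)
  have hmem : ∀ K : Subgroup V, K.index = 2 → ∃ w : W, w ≠ 1 ∧ s w ∈ K := by
    intro K hK
    obtain ⟨w, -, hw, hw2⟩ := h.exists_mem K hK x y z hx hy hz' hxy hxz hyz hxyz
    exact ⟨w, hw, hw2⟩
  obtain ⟨m, hm⟩ := pow_two_card h.v2 (⊤ : Subgroup V)
  rw [Subgroup.card_top] at hm
  have hm2 : m ≤ 2 := by
    rw [hm] at hV
    by_contra hlt
    have : 2 ^ 3 ≤ 2 ^ m := Nat.pow_le_pow_right (by norm_num) (by omega)
    omega
  have hV4 : Nat.card V = 4 := by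
    have : m = 0 ∨ m = 1 ∨ m = 2 := by omega
    rcases this with rfl | rfl | rfl
    · exfalso
      rw [pow_zero] at hm
      have : Subsingleton V := (Nat.card_eq_one_iff_unique.1 hm).1
      exact hx (hz1 x (Subsingleton.elim _ _))
    · exfalso
      obtain ⟨w, hw, hw2⟩ := hmem ⊥ (by rw [Subgroup.index_bot, hm, pow_one])
      exact hw (hz1 w (Subgroup.mem_bot.1 hw2))
    · rw [hm]; norm_num
  refine ⟨hV4, hz1, ?_⟩
  -- every value is taken
  have hge : ∀ v : V, v ≠ 1 → 5 ∣ ({w | s w = v} : Set W).ncard ∧ 5 ≤ ({w | s w = v} : Set W).ncard := by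
    intro v hv
    have h1 := h5 {w | s w = v} (fun w hw => by rw [Set.mem_setOf_eq, hs]; exact hw)
      (fun h1 => hv (by rw [Set.mem_setOf_eq, h.map_one] at h1; exact h1.symm))
    refine ⟨h1, ?_⟩
    obtain ⟨w, hw, hw2⟩ := hmem (Subgroup.zpowers v) (zpowers_of_card_four h.v2 hV4 v hv)
    have h3 : s w = v := (mem_zpowers_of_two h.v2 v _ hw2).resolve_left (fun h => hw (hz1 w h))
    exact Nat.le_of_dvd ((Set.ncard_pos (Set.toFinite _)).2 ⟨w, h3⟩) h1
  -- the sum is 15
  classical
  have hft := Fintype.ofFinite V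
  have hftW := Fintype.ofFinite W
  have hsum : ∑ v : V, ({w | s w = v} : Set W).ncard = 16 := by
    rw [← hW16]
    have h1 : ∀ v : V, ({w | s w = v} : Set W).ncard = (Finset.univ.filter (fun w : W => s w = v)).card := by
      intro v
      rw [← Set.ncard_coe_finset]
      congr 1
      ext w
      simp
    simp_rw [h1]
    rw [Nat.card_eq_fintype_card, ← Finset.card_univ]
    exact (Finset.card_eq_sum_card_fiberwise (fun x _ => Finset.mem_univ (s x))).symm
  have h1 : ({w | s w = 1} : Set W).ncard = 1 := by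
    rw [Set.ncard_eq_one]
    exact ⟨1, by ext w; exact ⟨fun h => hz1 w h, fun h' => by
      rw [Set.mem_singleton_iff] at h'; rw [h']; exact h.map_one⟩⟩
  rw [← Finset.add_sum_erase _ _ (Finset.mem_univ (1 : V)), h1] at hsum
  have hc : (Finset.univ.erase (1 : V)).card = 3 := by
    rw [Finset.card_erase_of_mem (Finset.mem_univ _), Finset.card_univ, ← Nat.card_eq_fintype_card, hV4]
  intro v hv
  have hvm : v ∈ Finset.univ.erase (1 : V) := Finset.mem_erase.2 ⟨hv, Finset.mem_univ _⟩
  rw [← Finset.add_sum_erase _ _ hvm] at hsum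
  have h6 : 2 * 5 ≤ ∑ x ∈ (Finset.univ.erase (1 : V)).erase v, ({w | s w = x} : Set W).ncard := by
    have h7 : ((Finset.univ.erase (1 : V)).erase v).card = 2 := by
      rw [Finset.card_erase_of_mem hvm, hc]
    calc 2 * 5 = ∑ x ∈ (Finset.univ.erase (1 : V)).erase v, 5 := by rw [Finset.sum_const, h7, smul_eq_mul]
      _ ≤ _ := Finset.sum_le_sum (fun x hx => (hge x (Finset.mem_erase.1 (Finset.mem_erase.1 hx).2).1).2)
  have h8 := (hge v hv).2
  omega

theorem QM.no_fifteen (h : QM s) (hW : Nat.card W ≤ 16) (hV : Nat.card V ≤ 4)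
    (hz : ∃ c, ∀ w, s w = 1 → w = 1 ∨ w = c)
    (δ τ : MulAut W) (hδ : orderOf δ = 5) (hs : ∀ w, s (δ w) = s w)
    (hτ : orderOf τ = 3) (hsτ : ∀ w, s (τ w) = s w) : False := by
  obtain ⟨hV4, hz1, h5⟩ := h.five hW hV hz δ hδ hs
  have hτr : τ ^ 3 = 1 := by rw [← hτ]; exact pow_orderOf_eq_one τ
  have hfix : Nat.card (fixSub τ) ≤ 4 := by
    rcases fix_cases h.w2 hW τ 3 Nat.prime_three hτ with h1 | h1 | h1 | h1
    · norm_num at h1
    · exact h1.2
    · norm_num at h1
    · norm_num at h1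
  have h2 : ∀ v : V, v ≠ 1 → 2 ≤ ({w | s w = v} ∩ {w | τ w = w} : Set W).ncard := by
    intro v hv
    have h1 := ncard_modEq τ 3 Nat.prime_three hτr {w | s w = v}
      (fun w hw => by rw [Set.mem_setOf_eq, hsτ]; exact hw)
    rw [h5 v hv] at h1
    unfold Nat.ModEq at h1
    omega
  classical
  have hft := Fintype.ofFinite V
  have hftW := Fintype.ofFinite W
  have hsum : ∑ v : V, ({w | s w = v} ∩ {w | τ w = w} : Set W).ncard = Nat.card (fixSub τ) := by
    have h1 : ∀ v : V, ({w | s w = v} ∩ {w | τ w = w} : Set W).ncard =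
        ((Finset.univ.filter (fun w : W => τ w = w)).filter (fun w : W => s w = v)).card := by
      intro v
      rw [← Set.ncard_coe_finset]
      congr 1
      ext w
      simp [and_comm]
    simp_rw [h1]
    have h2 : Nat.card (fixSub τ) = (Finset.univ.filter (fun w : W => τ w = w)).card := by
      rw [← Set.ncard_coe_finset, ← Nat.card_coe_set_eq]
      congr 1
      simp only [Finset.coe_filter, Finset.mem_univ, true_and]
      rfl
    rw [h2]
    exact (Finset.card_eq_sum_card_fiberwise (fun x _ => Finset.mem_univ (s x))).symm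
  have h1 : 1 ≤ ({w | s w = 1} ∩ {w | τ w = w} : Set W).ncard :=
    (Set.ncard_pos (Set.toFinite _)).2 ⟨1, h.map_one, by simp⟩
  rw [← Finset.add_sum_erase _ _ (Finset.mem_univ (1 : V))] at hsum
  have hc : (Finset.univ.erase (1 : V)).card = 3 := by
    rw [Finset.card_erase_of_mem (Finset.mem_univ _), Finset.card_univ, ← Nat.card_eq_fintype_card, hV4]
  have h6 : 3 * 2 ≤ ∑ x ∈ Finset.univ.erase (1 : V), ({w | s w = x} ∩ {w | τ w = w} : Set W).ncard := by
    calc 3 * 2 = ∑ x ∈ Finset.univ.erase (1 : V), 2 := by rw [Finset.sum_const, hc, smul_eq_mul]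
      _ ≤ _ := Finset.sum_le_sum (fun x hx => h2 x (Finset.mem_erase.1 hx).1)
  omega

/-- **A perfect group preserving a quadratic map with at most one zero `≠ 1`, `|W| ≤ 16`, `|V| ≤ 4`, is trivial.** -/
theorem QM.eq_bot (h : QM s) (hW : Nat.card W ≤ 16) (hV : Nat.card V ≤ 4)
    (hz : ∃ c, ∀ w, s w = 1 → w = 1 ∨ w = c) (D : Subgroup (MulAut W)) (hD : ⁅D, D⁆ = D)
    (hs : ∀ φ ∈ D, ∀ w, s (φ w) = s w) : D = ⊥ := by
  classical
  have hcauchy : ∀ r : ℕ, r.Prime → r ∣ Nat.card D → ∃ δ ∈ D, orderOf δ = r := by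
    intro r hr hd
    have : Fact r.Prime := ⟨hr⟩
    obtain ⟨δ, hδ⟩ := exists_prime_orderOf_dvd_card' r hd
    exact ⟨δ, δ.2, by rw [Subgroup.orderOf_coe, hδ]⟩
  have hprimes : ∀ r : ℕ, r.Prime → r ∣ Nat.card D → r = 2 ∨ r = 3 ∨ r = 5 := by
    intro r hr hd
    obtain ⟨δ, hδD, hδ⟩ := hcauchy r hr hd
    rcases fix_cases h.w2 hW δ r hr hδ with h1 | h1 | h1 | h1
    · exact Or.inl h1
    · exact Or.inr (Or.inl h1.1)
    · exact Or.inr (Or.inr h1.1)
    · exfalso
      obtain ⟨rfl, -⟩ := h1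
      exact h.no_seven hW hz δ hδ (hs δ hδD)
  have hpos : Nat.card D ≠ 0 := Nat.card_pos.ne'
  apply eq_bot_of_perfect_of_solvable hD
  by_cases h3 : 3 ∣ Nat.card D
  · have h5 : ¬ 5 ∣ Nat.card D := by
      intro h5
      obtain ⟨δ, hδD, hδ⟩ := hcauchy 5 Nat.prime_five h5
      obtain ⟨τ, hτD, hτ⟩ := hcauchy 3 Nat.prime_three h3
      exact h.no_fifteen hW hV hz δ τ hδ (hs δ hδD) hτ (hs τ hτD)
    refine Cfsg.Agent.S0144.result 2 3 ((Nat.card D).factorization 2) ((Nat.card D).factorization 3)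
      Nat.prime_two Nat.prime_three ?_
    conv_lhs => rw [← Nat.prod_factorization_pow_eq_self hpos]
    rw [Finsupp.prod_of_support_subset (s := {2, 3})]
    · rw [Finset.prod_pair (by norm_num)]
    · intro r hr
      rw [Nat.support_factorization, Nat.mem_primeFactors] at hr
      rcases hprimes r hr.1 hr.2.1 with rfl | rfl | rfl
      · simp
      · simp
      · exact absurd hr.2.1 h5
    · intro i _
      simp
  · refine Cfsg.Agent.S0144.result 2 5 ((Nat.card D).factorization 2) ((Nat.card D).factorization 5)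
      Nat.prime_two Nat.prime_five ?_
    conv_lhs => rw [← Nat.prod_factorization_pow_eq_self hpos]
    rw [Finsupp.prod_of_support_subset (s := {2, 5})]
    · rw [Finset.prod_pair (by norm_num)]
    · intro r hr
      rw [Nat.support_factorization, Nat.mem_primeFactors] at hr
      rcases hprimes r hr.1 hr.2.1 with rfl | rfl | rfl
      · simp
      · exact absurd hr.2.1 h3
      · simp
    · intro i _
      simp

end main

end Cfsg.Agent.H289.QuadPerf
end

-- part: S3117
section
set_option autoImplicit false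
open Cfsg

namespace Cfsg.Agent.S3117

open Cfsg.Agent.Schreier.Basic Cfsg.Agent.Schreier.Tools Cfsg.Agent.H289.QuadPerf

/-- The elements of square 1 form a subgroup of order 4. -/
theorem exists_V {X : Type*} [Group X] [Finite X] (h2 : IsPGroup 2 X)
    (h3 : Nat.card {x : X // orderOf x = 2} = 3) :
    ∃ V : Subgroup X, (∀ x, x ∈ V ↔ x * x = 1) ∧ Nat.card V = 4 ∧ ∃ z ∈ Subgroup.center X, z ∈ V ∧ z ≠ 1 := by
  classical
  have hp2 : Fact (Nat.Prime 2) := ⟨Nat.prime_two⟩
  have hord : ∀ x : X, orderOf x = 2 ↔ (x * x = 1 ∧ x ≠ 1) := by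
    intro x
    rw [orderOf_eq_iff (by norm_num)]
    constructor
    · rintro ⟨ha, hb⟩
      refine ⟨by rw [← sq]; exact ha, ?_⟩
      have := hb 1 (by norm_num) (by norm_num)
      simpa using this
    · rintro ⟨ha, hb⟩
      refine ⟨by rw [sq]; exact ha, ?_⟩
      intro m hm hm0
      have : m = 1 := by omega
      subst this
      simpa using hb
  set I : Set X := {x | orderOf x = 2} with hI
  have hI3 : I.ncard = 3 := by rw [← Nat.card_coe_set_eq]; exact h3
  have hnt : Nontrivial X := by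
    obtain ⟨x, hx⟩ : I.Nonempty := (Set.ncard_pos (Set.toFinite _)).1 (by omega)
    exact ⟨x, 1, ((hord x).1 hx).2⟩
  -- a central involution
  obtain ⟨z, hzc, hz⟩ : ∃ z : X, z ∈ Subgroup.center X ∧ orderOf z = 2 := by
    have h4 : Nontrivial (Subgroup.center X) := h2.center_nontrivial
    have h5 : IsPGroup 2 (Subgroup.center X) := h2.to_subgroup _
    obtain ⟨n, hn0, hn⟩ := h5.nontrivial_iff_card.1 h4
    have h6 : 2 ∣ Nat.card (Subgroup.center X) := by rw [hn]; exact dvd_pow_self 2 hn0.ne'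
    obtain ⟨z, hz⟩ := exists_prime_orderOf_dvd_card' 2 h6
    exact ⟨z, z.2, by rw [Subgroup.orderOf_coe, hz]⟩
  have hz2 := (hord z).1 hz
  have hzcomm : ∀ x, z * x = x * z := fun x => ((Subgroup.mem_center_iff.1 hzc) x).symm
  obtain ⟨t, htI, htz⟩ : ∃ t ∈ I, t ≠ z := by
    by_contra hcon
    push Not at hcon
    have h4 : I ⊆ {z} := fun x hx => hcon x hx
    have h5 := Set.ncard_le_ncard h4 (Set.toFinite _)
    rw [Set.ncard_singleton] at h5
    omega
  have ht2 := (hord t).1 htI
  have hzt : z * t ∈ I := by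
    refine (hord _).2 ⟨?_, ?_⟩
    · rw [mul_assoc, ← mul_assoc t, ← hzcomm t, mul_assoc z t t, ht2.1, mul_one, hz2.1]
    · intro h
      apply htz
      calc t = z * (z * t) := by rw [← mul_assoc, hz2.1, one_mul]
        _ = z := by rw [h, mul_one]
  have hzI : z ∈ I := hz
  have hIeq : I = {z, t, z * t} := by
    symm
    apply Set.eq_of_subset_of_ncard_le
    · intro x hx
      simp only [Set.mem_insert_iff, Set.mem_singleton_iff] at hx
      rcases hx with rfl | rfl | rfl
      · exact hzI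
      · exact htI
      · exact hzt
    · rw [hI3, Set.ncard_eq_three.2 ⟨z, t, z * t, htz.symm, ?_, ?_, rfl⟩]
      · intro h
        exact ht2.2 (mul_eq_left.1 h.symm)
      · intro h
        exact hz2.2 (mul_eq_right.1 h.symm)
    · exact Set.toFinite _
  have hsq : ∀ x : X, x * x = 1 ↔ x = 1 ∨ x = z ∨ x = t ∨ x = z * t := by
    intro x
    constructor
    · intro hx
      by_cases hx1 : x = 1
      · exact Or.inl hx1
      · right
        have h4 : x ∈ I := (hord x).2 ⟨hx, hx1⟩
        rw [hIeq] at h4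
        simpa using h4
    · rintro (rfl | rfl | rfl | rfl)
      · simp
      · exact hz2.1
      · exact ht2.1
      · exact ((hord _).1 hzt).1
  let V : Subgroup X :=
    { carrier := {x | x * x = 1}
      mul_mem' := by
        intro a b ha hb
        have ha' : a * a = 1 := ha
        have hb' : b * b = 1 := hb
        have hab : a * b = b * a := by
          rcases (hsq a).1 ha' with rfl | rfl | rfl | rfl <;> rcases (hsq b).1 hb' with rfl | rfl | rfl | rfl <;>
            simp [hzcomm, mul_assoc]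
        show a * b * (a * b) = 1
        rw [mul_assoc, ← mul_assoc b, ← hab, mul_assoc, hb', mul_one, ha']
      one_mem' := by simp
      inv_mem' := by
        intro a ha
        have ha' : a * a = 1 := ha
        show a⁻¹ * a⁻¹ = 1
        rw [← mul_inv_rev, ha', inv_one] }
  refine ⟨V, fun x => Iff.rfl, ?_, z, hzc, hz2.1, hz2.2⟩
  have h4 : (V : Set X) = insert 1 I := by
    ext x
    constructor
    · intro hx
      have hx' : x * x = 1 := hx
      by_cases hx1 : x = 1
      · exact Or.inl hx1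
      · exact Or.inr ((hord x).2 ⟨hx', hx1⟩)
    · rintro (rfl | hx)
      · exact one_mem V
      · exact ((hord x).1 hx).1
  have h5 : Nat.card V = (V : Set X).ncard := (Nat.card_coe_set_eq _)
  rw [h5, h4, Set.ncard_insert_of_notMem, hI3]
  intro h
  exact ((hord 1).1 h).2 rfl

/-- The action of an invariant group of automorphisms on a section. -/
theorem exists_section_hom {X : Type*} [Group X] {D : Subgroup (MulAut X)} {A B : Subgroup X}
    (hA : Inv D A) (hB : Inv D B) [hn : (B.subgroupOf A).Normal] :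
    ∃ ρ : D →* MulAut (A ⧸ B.subgroupOf A), ∀ (φ : D) (a : A),
      ρ φ (QuotientGroup.mk a) = QuotientGroup.mk (hA.res φ a) := by
  have hmap : ∀ φ : D, (B.subgroupOf A).map (hA.res φ).toMonoidHom = B.subgroupOf A := by
    intro φ
    apply le_antisymm
    · rintro _ ⟨a, ha, rfl⟩
      have ha' : (a : X) ∈ B := ha
      exact hB.apply_mem φ.2 ha'
    · intro a ha
      have ha' : (a : X) ∈ B := ha
      refine ⟨hA.res φ⁻¹ a, ?_, ?_⟩
      · exact hB.apply_mem (φ⁻¹).2 ha'
      · show hA.res φ (hA.res φ⁻¹ a) = a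
        rw [← MulAut.mul_apply, ← map_mul, mul_inv_cancel, map_one, MulAut.one_apply]
  refine ⟨{ toFun := fun φ => QuotientGroup.congr (B.subgroupOf A) (B.subgroupOf A) (hA.res φ) (hmap φ)
            map_one' := ?_
            map_mul' := ?_ }, ?_⟩
  · apply MulEquiv.ext
    intro w
    induction w using QuotientGroup.induction_on with
    | H a => rfl
  · intro φ ψ
    apply MulEquiv.ext
    intro w
    induction w using QuotientGroup.induction_on with
    | H a => rfl
  · intro φ a
    rfl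

/-- If X is a finite 2-group containing exactly three involutions, then the automorphism group of X is solvable. -/
theorem result {X : Type*} [Group X] [Finite X] (h2 : IsPGroup 2 X) (h3 : Nat.card {x : X // orderOf x = 2} = 3) : Group.IsSolvable (MulAut X) := by
  classical
  have hp2 : Fact (Nat.Prime 2) := ⟨Nat.prime_two⟩
  obtain ⟨V, hV, hV4, z₀, hz₀c, hz₀V, hz₀1⟩ := exists_V h2 h3
  have hXsol : Group.IsSolvable X := by
    have := h2.isNilpotent
    infer_instance
  have hsub : ∀ A : Subgroup X, Group.IsSolvable A := fun A => inferInstance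
  -- sectional rank
  have hsec : Cfsg.SectionalPRankLE 2 4 X := by
    apply Cfsg.Agent.S0501.result h2
    intro A _ _ hA
    have h4 : A ≤ V := fun a ha => (hV a).2 (by rw [← sq]; exact hA a ha)
    have h5 := Subgroup.card_le_of_le h4
    omega
  obtain ⟨H, hHc, hH1, hH2, hH3⟩ := Cfsg.Agent.S0093.result h2
  obtain ⟨Z, hZ⟩ : ∃ Z : Subgroup X, Z = H ⊓ Subgroup.centralizer (H : Set X) := ⟨_, rfl⟩
  have hZH : Z ≤ H := by rw [hZ]; exact inf_le_left
  -- squares of elements of H lie in Z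
  have hsqZ : ∀ a ∈ H, a * a ∈ Z := by
    intro a ha
    rw [hZ]
    refine ⟨mul_mem ha ha, ?_⟩
    apply hH1
    refine ⟨⟨a * a, mul_mem ha ha⟩, ?_, rfl⟩
    have hHp : IsPGroup 2 H := h2.to_subgroup H
    have h4 := Cfsg.Agent.S0014.pow_mem_frattini hHp (⟨a, ha⟩ : H)
    rw [sq] at h4
    exact h4
  have hcomZ : ∀ a ∈ H, ∀ b ∈ H, a⁻¹ * b * a * b⁻¹ ∈ Z := by
    intro a ha b hb
    have h4 := hH2 (Subgroup.commutator_mem_commutator (inv_mem ha) (Subgroup.mem_top b))
    rw [hZ]
    simpa [commutatorElement_def] using h4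
  have hZc : ∀ z ∈ Z, ∀ a ∈ H, a * z = z * a := by
    intro z hz a ha
    rw [hZ] at hz
    exact (Subgroup.mem_centralizer_iff.1 hz.2) a ha
  have hZZ : ∀ z ∈ Z, ∀ w ∈ Z, w * z = z * w := fun z hz w hw => hZc z hz w (hZH hw)
  -- the square of a product
  have hsqmul : ∀ a b : X, a * b * (a * b) = (a * a) * (a⁻¹ * b * a * b⁻¹) * (b * b) := by
    intro a b; group
  have hc2 : ∀ a ∈ H, ∀ b ∈ H, (a⁻¹ * b * a * b⁻¹) * (a⁻¹ * b * a * b⁻¹) = 1 := by
    intro a ha b hb
    have hc := hcomZ a ha b hb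
    set c := a⁻¹ * b * a * b⁻¹ with hcdef
    have h4 : a⁻¹ * b * a = c * b := by rw [hcdef]; group
    have h5 : a⁻¹ * (b * b) * a = (c * c) * (b * b) := by
      calc a⁻¹ * (b * b) * a = (a⁻¹ * b * a) * (a⁻¹ * b * a) := by group
        _ = c * (b * c) * b := by rw [h4]; group
        _ = (c * c) * (b * b) := by rw [hZc c hc b hb]; group
    have h6 : a⁻¹ * (b * b) * a = b * b := by
      rw [mul_assoc, ← hZc (b * b) (hsqZ b hb) a ha]
      group
    rw [h6] at h5
    exact (mul_eq_right.1 h5.symm)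
  let D0 : Subgroup X :=
    { carrier := {d | d ∈ H ∧ (d * d) * (d * d) = 1}
      mul_mem' := by
        rintro a b ⟨ha, ha4⟩ ⟨hb, hb4⟩
        refine ⟨mul_mem ha hb, ?_⟩
        have hc := hcomZ a ha b hb
        have hcc := hc2 a ha b hb
        rw [hsqmul a b]
        set c := a⁻¹ * b * a * b⁻¹ with hcdef
        have e1 := hZZ (a * a) (hsqZ a ha) (b * b) (hsqZ b hb)
        have e2 := hZZ c hc (b * b) (hsqZ b hb)
        have e3 := hZZ c hc (a * a) (hsqZ a ha)
        set A := a * a with hA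
        set B := b * b with hB
        calc A * c * B * (A * c * B) = A * c * (B * A) * c * B := by group
          _ = A * (c * A) * (B * c) * B := by rw [e1]; group
          _ = (A * A) * (c * c) * (B * B) := by rw [← e3, e2]; group
          _ = 1 := by rw [ha4, hcc, hb4]; simp
      one_mem' := ⟨one_mem H, by simp⟩
      inv_mem' := by
        rintro a ⟨ha, ha4⟩
        refine ⟨inv_mem ha, ?_⟩
        rw [← mul_inv_rev, ← mul_inv_rev, ha4, inv_one] }
  have hD0 : ∀ d, d ∈ D0 ↔ d ∈ H ∧ (d * d) * (d * d) = 1 := fun d => Iff.rfl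
  clear_value D0
  have hD0H : D0 ≤ H := fun d hd => ((hD0 d).1 hd).1
  set V0 : Subgroup X := V ⊓ Z with hV0
  have hV0D0 : V0 ≤ D0 := by
    intro v hv
    rw [hD0]
    refine ⟨hZH hv.2, ?_⟩
    rw [(hV v).1 hv.1, mul_one]
  have hsq0 : ∀ d ∈ D0, d * d ∈ V0 := by
    intro d hd
    rw [hD0] at hd
    exact ⟨(hV _).2 hd.2, hsqZ d hd.1⟩
  have hnorm : (V0.subgroupOf D0).Normal := by
    constructor
    intro v hv d
    rw [Subgroup.mem_subgroupOf] at hv ⊢
    have h4 := hZc v hv.2 d (hD0H d.2)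
    have h5 : ((d * v * d⁻¹ : D0) : X) = v := by
      rw [Subgroup.coe_mul, Subgroup.coe_mul, h4, Subgroup.coe_inv, mul_assoc, mul_inv_cancel, mul_one]
    rw [h5]
    exact hv
  let s : D0 ⧸ V0.subgroupOf D0 → V0 := Quotient.lift (fun d : D0 => (⟨d * d, hsq0 d d.2⟩ : V0)) (by
    intro a b hab
    have hab' : a⁻¹ * b ∈ V0.subgroupOf D0 := QuotientGroup.leftRel_apply.1 hab
    rw [Subgroup.mem_subgroupOf] at hab'
    apply Subtype.ext
    show (a : X) * a = b * b
    set v : X := ((a⁻¹ * b : D0) : X) with hv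
    have hbv : (b : X) = a * v := by rw [hv]; simp
    have h4 := hZc v hab'.2 a (hD0H a.2)
    have h5 : v * v = 1 := (hV v).1 hab'.1
    calc (a : X) * a = a * a * (v * v) := by rw [h5, mul_one]
      _ = a * (a * v) * v := by group
      _ = a * (v * a) * v := by rw [h4]
      _ = a * v * (a * v) := by group
      _ = b * b := by rw [← hbv])
  have hs : ∀ d : D0, ((s (QuotientGroup.mk d) : V0) : X) = d * d := fun d => rfl
  have hV0c : ∀ a b : V0, a * b = b * a := by
    intro a b
    apply Subtype.ext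
    show (a : X) * b = b * a
    exact hZZ b b.2.2 a a.2.2
  have hV02 : ∀ a : V0, a * a = 1 := by
    intro a
    apply Subtype.ext
    show (a : X) * a = 1
    exact (hV _).1 a.2.1
  -- the bilinear form
  have hform : ∀ a b : D0, ((s (QuotientGroup.mk (a * b)) * s (QuotientGroup.mk a) * s (QuotientGroup.mk b) : V0) : X) =
      (a : X)⁻¹ * b * a * (b : X)⁻¹ := by
    intro a b
    show ((a : X) * b * (a * b)) * (a * a) * (b * b) = _
    rw [hsqmul]
    have hc := hcomZ a (hD0H a.2) b (hD0H b.2)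
    set c := (a : X)⁻¹ * b * a * (b : X)⁻¹ with hcdef
    have e1 := hZZ ((a : X) * a) (hsqZ a (hD0H a.2)) (b * b) (hsqZ b (hD0H b.2))
    have e3 := hZZ c hc ((a : X) * a) (hsqZ a (hD0H a.2))
    have ha4 := ((hD0 a).1 a.2).2
    have hb4 := ((hD0 b).1 b.2).2
    set A := (a : X) * a with hA
    set B := (b : X) * b with hB
    calc A * c * B * A * B = A * c * (B * A) * B := by group
      _ = A * (c * A) * (B * B) := by rw [e1]; group
      _ = (A * A) * c * (B * B) := by rw [← e3]; group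
      _ = c := by rw [ha4, hb4]; simp
  have hQM : QM s := by
    refine ⟨?_, hV02, ?_⟩
    · intro w
      induction w using QuotientGroup.induction_on with
      | H a =>
        rw [← QuotientGroup.mk_mul, QuotientGroup.eq_one_iff, Subgroup.mem_subgroupOf]
        exact hsq0 a a.2
    · intro x y z
      induction x using QuotientGroup.induction_on with
      | H a =>
      induction y using QuotientGroup.induction_on with
      | H b =>
      induction z using QuotientGroup.induction_on with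
      | H c =>
        apply Subtype.ext
        rw [Subgroup.coe_mul (x := s _ * s _ * s _)]
        simp only [← QuotientGroup.mk_mul]
        rw [hform, hform, hform]
        have hc := hcomZ a (hD0H a.2) c (hD0H c.2)
        have h5 := hZc _ hc _ (inv_mem (hD0H b.2))
        rw [Subgroup.coe_mul]
        calc ((a : X) * b)⁻¹ * c * (a * b) * (c : X)⁻¹ =
            (b : X)⁻¹ * ((a : X)⁻¹ * c * a * (c : X)⁻¹) * (c * b * (c : X)⁻¹) := by group
          _ = ((a : X)⁻¹ * c * a * (c : X)⁻¹) * (b : X)⁻¹ * (c * b * (c : X)⁻¹) := by rw [h5]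
          _ = _ := by group
  have hWcard : Nat.card (D0 ⧸ V0.subgroupOf D0) ≤ 16 := by
    have h4 := hsec D0 (V0.subgroupOf D0) ⊤ ⟨⟨fun a b => Subtype.ext (comm_of_two hQM.w2 a.1 b.1)⟩⟩
      (fun a _ => by rw [sq]; exact hQM.w2 a)
    rw [Subgroup.card_top] at h4
    simpa using h4
  have hVcard : Nat.card V0 ≤ 4 := by
    have h4 : V0 ≤ V := inf_le_left
    have h5 := Subgroup.card_le_of_le h4
    omega
  have hZ0 : z₀ ∈ V0 := by
    refine ⟨hz₀V, ?_⟩
    have h4 : z₀ ∈ Subgroup.centralizer (H : Set X) := Subgroup.mem_centralizer_iff.2 fun h _ =>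
      (Subgroup.mem_center_iff.1 hz₀c h)
    rw [hZ]
    exact ⟨hH3 h4, h4⟩
  have hzeros : ∃ c, ∀ w, s w = 1 → w = 1 ∨ w = c := by
    by_cases hall : ∀ w, s w = 1 → w = 1
    · exact ⟨1, fun w hw => Or.inl (hall w hw)⟩
    push Not at hall
    obtain ⟨c, hc, hc1⟩ := hall
    refine ⟨c, fun w hw => ?_⟩
    by_contra hcon
    push Not at hcon
    induction w using QuotientGroup.induction_on with
    | H a =>
    induction c using QuotientGroup.induction_on with
    | H b =>
      -- `a, b ∈ V`, `a, b, a b ∉ V0`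
      have ha : (a : X) ∈ V := (hV _).2 (by rw [← hs a, hw]; rfl)
      have hb : (b : X) ∈ V := (hV _).2 (by rw [← hs b, hc]; rfl)
      have ha0 : (a : X) ∉ V0 := fun h => hcon.1 ((QuotientGroup.eq_one_iff a).2 (Subgroup.mem_subgroupOf.2 h))
      have hb0 : (b : X) ∉ V0 := fun h => hc1 ((QuotientGroup.eq_one_iff b).2 (Subgroup.mem_subgroupOf.2 h))
      have hab0 : (a : X)⁻¹ * b ∉ V0 := fun h => hcon.2 (QuotientGroup.eq.2 (Subgroup.mem_subgroupOf.2 h))
      have hle : V0 ≤ V := inf_le_left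
      -- five elements of V
      have h4 : ({1, z₀, (a : X), (b : X), (a : X) * z₀} : Set X) ⊆ (V : Set X) := by
        intro x hx
        simp only [Set.mem_insert_iff, Set.mem_singleton_iff] at hx
        rcases hx with rfl | rfl | rfl | rfl | rfl
        · exact one_mem V
        · exact hz₀V
        · exact ha
        · exact hb
        · exact mul_mem ha hz₀V
      have h5 := Set.ncard_le_ncard h4 (Set.toFinite _)
      have h6 : (V : Set X).ncard = 4 := by rw [← Nat.card_coe_set_eq]; exact hV4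
      have n1 : (1 : X) ≠ z₀ := hz₀1.symm
      have n2 : (1 : X) ≠ a := fun h => ha0 (h ▸ one_mem V0)
      have n3 : (1 : X) ≠ b := fun h => hb0 (h ▸ one_mem V0)
      have n4 : (1 : X) ≠ a * z₀ := fun h => ha0 (by
        have : (a : X) = z₀⁻¹ := eq_inv_of_mul_eq_one_left h.symm
        rw [this]; exact inv_mem hZ0)
      have n5 : z₀ ≠ a := fun h => ha0 (h ▸ hZ0)
      have n6 : z₀ ≠ b := fun h => hb0 (h ▸ hZ0)
      have n7 : z₀ ≠ a * z₀ := fun h => n2 (mul_eq_right.1 h.symm).symm
      have n8 : (a : X) ≠ b := fun h => hab0 (by rw [h, inv_mul_cancel]; exact one_mem _)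
      have n9 : (a : X) ≠ a * z₀ := fun h => hz₀1 (mul_eq_left.1 h.symm)
      have n10 : (b : X) ≠ a * z₀ := fun h => hab0 (by rw [h, ← mul_assoc, inv_mul_cancel, one_mul]; exact hZ0)
      rw [h6, Set.ncard_insert_of_notMem (by simp [n1, n2, n3, n4]),
        Set.ncard_insert_of_notMem (by simp [n5, n6, n7]),
        Set.ncard_insert_of_notMem (by simp [n8, n9]), Set.ncard_pair n10] at h5
      omega
  -- perfect groups of automorphisms
  have key : ∀ D : Subgroup (MulAut X), ⁅D, D⁆ = D → D = ⊥ := by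
    intro D hD
    have hIV : Inv D V := inv_iff.2 fun φ _ a ha => (hV _).2 (by rw [← map_mul, (hV a).1 ha, map_one])
    have hTV : Tr D V := by
      rw [← trMod_bot]
      exact trMod_of_relIndex_le_four hD hIV (inv_bot D) (by rw [Subgroup.relIndex_bot_left, hV4]; norm_num)
        (by rw [Subgroup.relIndex_bot_left, hV4])
    have hIH : Inv D H := fun φ _ => Subgroup.characteristic_iff_map_eq.1 hHc φ
    have hIZ : Inv D Z := by rw [hZ]; exact hIH.center
    -- D centralises Z
    have hTZ : ∀ k : ℕ, ∀ φ ∈ D, ∀ z ∈ Z, z ^ 2 ^ k = 1 → φ z = z := by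
      intro k
      induction k with
      | zero => intro φ _ z _ hz; rw [pow_zero, pow_one] at hz; rw [hz, map_one]
      | succ k ih =>
        -- the subgroup of elements of `Z` with `z ^ 2 ^ (k+1) = 1`
        let A : Subgroup X :=
          { carrier := {z | z ∈ Z ∧ z ^ 2 ^ (k + 1) = 1}
            mul_mem' := by
              rintro a b ⟨ha, ha1⟩ ⟨hb, hb1⟩
              refine ⟨mul_mem ha hb, ?_⟩
              have h4 : Commute a b := hZZ b hb a ha
              rw [h4.mul_pow, ha1, hb1, mul_one]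
            one_mem' := ⟨one_mem Z, one_pow _⟩
            inv_mem' := by
              rintro a ⟨ha, ha1⟩
              exact ⟨inv_mem ha, by rw [inv_pow, ha1, inv_one]⟩ }
        have hA : ∀ z, z ∈ A ↔ z ∈ Z ∧ z ^ 2 ^ (k + 1) = 1 := fun z => Iff.rfl
        have h5 : TrMod D A V := by
          intro φ hφ a ha
          rw [hA] at ha
          have h6 : φ (a * a) = a * a := by
            apply ih φ hφ _ (mul_mem ha.1 ha.1)
            rw [← sq, ← pow_mul, ← pow_succ']
            exact ha.2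
          rw [map_mul] at h6
          have h7 := hZZ (φ a) (hIZ.apply_mem hφ ha.1) (a⁻¹) (inv_mem ha.1)
          rw [hV]
          calc a⁻¹ * φ a * (a⁻¹ * φ a) = a⁻¹ * φ a * (φ a * a⁻¹) := by rw [h7]
            _ = a⁻¹ * (φ a * φ a) * a⁻¹ := by group
            _ = 1 := by rw [h6]; group
        have h6 := tr_of_trMod hD (hsub V) hTV h5
        intro φ hφ z hz hz1
        exact h6 φ hφ z ((hA z).2 ⟨hz, hz1⟩)
    have hTZ' : Tr D Z := by
      intro φ hφ z hz
      obtain ⟨k, hk⟩ := h2 z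
      exact hTZ k φ hφ z hz hk
    have hID : Inv D D0 := inv_iff.2 fun φ hφ a ha => by
      rw [hD0] at ha ⊢
      refine ⟨hIH.apply_mem hφ ha.1, ?_⟩
      rw [← map_mul, ← map_mul, ha.2, map_one]
    have hIV0 : Inv D V0 := hIV.inf hIZ
    -- H over D0
    have hHD : TrMod D H D0 := by
      intro φ hφ a ha
      have hφa := hIH.apply_mem hφ ha
      rw [hD0]
      have hd : a⁻¹ * φ a ∈ H := mul_mem (inv_mem ha) hφa
      refine ⟨hd, ?_⟩
      set d := a⁻¹ * φ a with hddef
      have h6 : φ a = a * d := by rw [hddef]; group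
      have h7 : φ (a * a) = a * a := hTZ' φ hφ _ (hsqZ a ha)
      rw [map_mul, h6, hsqmul] at h7
      -- `a a c (d d) = a a`
      have h8 : (a⁻¹ * d * a * d⁻¹) * (d * d) = 1 := by
        rw [mul_assoc] at h7
        exact mul_eq_left.1 h7
      have h9 := hc2 a ha d hd
      have h10 : d * d = (a⁻¹ * d * a * d⁻¹) := by
        set c := a⁻¹ * d * a * d⁻¹ with hcdef
        calc d * d = c * c * (d * d) := by rw [h9, one_mul]
          _ = c := by rw [mul_assoc, h8, mul_one]
      rw [h10, h9]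
    obtain ⟨ρ, hρ⟩ := exists_section_hom hID hIV0
    have h4 : (⊤ : Subgroup D).map ρ = ⊥ := by
      apply hQM.eq_bot hWcard hVcard hzeros
      · exact map_perfect ρ (top_perfect hD)
      · rintro _ ⟨φ, -, rfl⟩ w
        induction w using QuotientGroup.induction_on with
        | H a =>
          rw [hρ]
          apply Subtype.ext
          rw [hs, hs]
          show (φ : MulAut X) a * (φ : MulAut X) a = _
          rw [← map_mul]
          exact hTV φ φ.2 _ (hsq0 a a.2).1
    have h5 : TrMod D D0 V0 := by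
      intro φ hφ a ha
      have h6 : ρ ⟨φ, hφ⟩ ∈ (⊤ : Subgroup D).map ρ := ⟨_, Subgroup.mem_top _, rfl⟩
      rw [h4, Subgroup.mem_bot] at h6
      have h7 := hρ ⟨φ, hφ⟩ ⟨a, ha⟩
      rw [h6, MulAut.one_apply, QuotientGroup.eq, Subgroup.mem_subgroupOf] at h7
      exact h7
    have h6 : Tr D D0 := tr_of_trMod hD (hsub V0) (hTV.mono inf_le_left) h5
    have h7 : Tr D H := tr_of_trMod hD (hsub D0) h6 hHD
    have h8 : IsPGroup 2 D := by
      intro φ
      obtain ⟨k, m, hm, hk⟩ := Nat.exists_eq_two_pow_mul_odd (orderOf_pos φ).ne'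
      refine ⟨k, ?_⟩
      apply Subtype.ext
      show ((φ : MulAut X)) ^ 2 ^ k = 1
      apply Cfsg.Agent.S0121.result h2 H hHc hH1 hH2 hH3
      · rw [← Subgroup.coe_pow, Subgroup.orderOf_coe, orderOf_pow, hk, Nat.gcd_mul_right_left,
          Nat.mul_div_cancel_left _ (by positivity)]
        exact Nat.coprime_two_right.2 hm
      · intro x hx
        exact h7 _ (pow_mem φ.2 _) x hx
    have h9 : Group.IsSolvable D := by
      have := h8.isNilpotent
      infer_instance
    exact eq_bot_of_perfect_of_solvable hD h9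
  have h7 := isSolvable_of_perfect_eq_bot (⊤ : Subgroup (MulAut X)) (fun D _ hD => key D hD)
  exact Group.isSolvable_of_surjective (f := (Subgroup.topEquiv (G := MulAut X)).toMonoidHom)
    (Subgroup.topEquiv (G := MulAut X)).surjective

end Cfsg.Agent.S3117
end
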