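import Cfsg.Agent.H348.FPF
import Cfsg.Agent.H348.Lift
import Mathlib
import Cfsg.Statements.S3357
set_option linter.all false

-- part: H348/CharZero
section
/-!
A fixed-point-free group has a faithful irreducible fixed-point-free representation over an algebraic
closure of the rationals.
-/

set_option autoImplicit false
set_option linter.style.haveILetI false

namespace Cfsg.Agent.H348

open Finset

/-- From linear actions to matrices. -/
theorem exists_matrix_rep {G k W : Type*} [Group G] [Field k] [AddCommGroup W] [Module k W]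
    [FiniteDimensional k W] [Nontrivial W] (θ : G →* Module.End k W) :
    ∃ (n : ℕ) (b : Module.Basis (Fin n) k W) (ρ : G →* GL (Fin n) k), 0 < n ∧
      ∀ g w, ((ρ g : GL (Fin n) k) : Matrix (Fin n) (Fin n) k).mulVec (b.equivFun w) = b.equivFun (θ g w) := by
  let b := Module.finBasis k W
  let f : G →* Matrix (Fin (Module.finrank k W)) (Fin (Module.finrank k W)) k :=
    (LinearMap.toMatrixAlgEquiv b : Module.End k W ≃ₐ[k] _).toAlgHom.toRingHom.toMonoidHom.comp θ
  refine ⟨Module.finrank k W, b, f.toHomUnits, Module.finrank_pos, fun g w => ?_⟩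
  change (LinearMap.toMatrix b b (θ g)).mulVec (b.repr w) = b.repr (θ g w)
  exact LinearMap.toMatrix_mulVec_repr b b (θ g) w

/-- In a fixed-point-free group the norm elements act as zero. -/
theorem sum_pow_eq_zero {G V : Type*} [Group G] [AddCommGroup V] (θ : G →* AddMonoid.End V)
    {g : G} (h : ∀ v, θ g v = v → v = 0) (v : V) : ∑ i ∈ range (orderOf g), θ (g ^ i) v = 0 := by
  apply h
  rw [map_sum]
  have h1 : ∀ i, θ g (θ (g ^ i) v) = θ (g ^ (i + 1)) v := by
    intro i
    rw [pow_succ', map_mul]; rfl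
  simp_rw [h1]
  have h2 := Finset.sum_range_succ' (fun i => θ (g ^ i) v) (orderOf g)
  have h3 := Finset.sum_range_succ (fun i => θ (g ^ i) v) (orderOf g)
  rw [h3, pow_orderOf_eq_one, pow_zero] at h2
  exact (add_right_cancel h2).symm

/-- From actions on elementary abelian groups to matrices. -/
theorem exists_gl_of_addAction {G M : Type*} [Group G] [AddCommGroup M] [Finite M] [Nontrivial M]
    (p : ℕ) [Fact p.Prime] (hM : ∀ x : M, p • x = 0) (r : G →* AddMonoid.End M)
    (hr : ∀ g : G, g ≠ 1 → ∀ v : M, r g v = v → v = 0) :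
    ∃ (n : ℕ) (σ : G →* GL (Fin n) (ZMod p)), 0 < n ∧
      ∀ g : G, g ≠ 1 → ∀ v : Fin n → ZMod p,
        ((σ g : GL (Fin n) (ZMod p)) : Matrix (Fin n) (Fin n) (ZMod p)).mulVec v = v → v = 0 := by
  letI : Module (ZMod p) M := AddCommGroup.zmodModule (n := p) hM
  let θ : G →* Module.End (ZMod p) M :=
    { toFun := fun g => AddMonoidHom.toZModLinearMap p (r g)
      map_one' := by
        refine LinearMap.ext fun v => ?_
        rw [Module.End.one_apply]
        change r 1 v = v
        rw [map_one]; rfl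
      map_mul' := fun g g' => by
        refine LinearMap.ext fun v => ?_
        rw [Module.End.mul_apply]
        change r (g * g') v = r g (r g' v)
        rw [map_mul]; rfl }
  haveI : Module.Finite (ZMod p) M := Module.Finite.of_finite
  obtain ⟨n, b, ρ, hn, hρ⟩ := exists_matrix_rep θ
  refine ⟨n, ρ, hn, fun g hg v hv => ?_⟩
  have h1 := hρ g (b.equivFun.symm v)
  rw [LinearEquiv.apply_symm_apply, hv] at h1
  have h2 : θ g (b.equivFun.symm v) = b.equivFun.symm v := by
    rw [LinearEquiv.eq_symm_apply]; exact h1.symm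
  have h4 := hr g hg (b.equivFun.symm v) h2
  rwa [LinearEquiv.map_eq_zero_iff] at h4

/-- A fixed-point-free group has a fixed-point-free representation over a prime field of
characteristic not dividing its order. -/
theorem HasFPF.exists_gl {G : Type*} [Group G] [Finite G] (h : HasFPF G) :
    ∃ (p : ℕ) (_ : Fact p.Prime) (n : ℕ) (σ : G →* GL (Fin n) (ZMod p)), (Nat.card G).Coprime p ∧ 0 < n ∧
      ∀ g : G, g ≠ 1 → ∀ v : Fin n → ZMod p,
        ((σ g : GL (Fin n) (ZMod p)) : Matrix (Fin n) (Fin n) (ZMod p)).mulVec v = v → v = 0 := by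
  obtain ⟨V, _, _, _, φ, hφ⟩ := h
  have hc := Cfsg.Agent.Solvable.FixedPointFree.coprime_card φ hφ
  obtain ⟨p, hp, hpV⟩ := Nat.exists_prime_and_dvd (Finite.one_lt_card (α := V)).ne'
  haveI : Fact p.Prime := ⟨hp⟩
  let W : Subgroup V := (powMonoidHom p : V →* V).ker
  have hW : ∀ v : V, v ∈ W ↔ v ^ p = 1 := fun v => Iff.rfl
  haveI : Nontrivial W := by
    obtain ⟨v, hv⟩ := exists_prime_orderOf_dvd_card' p hpV
    refine ⟨⟨⟨v, by rw [hW, ← hv, pow_orderOf_eq_one]⟩, 1, ?_⟩⟩
    intro h1
    have h2 : v = 1 := congrArg Subtype.val h1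
    rw [h2, orderOf_one] at hv
    exact hp.one_lt.ne hv
  have hWm : ∀ g : G, ∀ v ∈ W, φ g v ∈ W := by
    intro g v hv
    rw [hW] at hv ⊢
    rw [← map_pow, hv, map_one]
  let r : G → Additive W →+ Additive W := fun g =>
    { toFun := fun w => Additive.ofMul ⟨φ g (w.toMul : V), hWm g _ w.toMul.2⟩
      map_zero' := congrArg Additive.ofMul (Subtype.ext (map_one (φ g)))
      map_add' := fun a b => congrArg Additive.ofMul (Subtype.ext (map_mul (φ g) (a.toMul : V) (b.toMul : V))) }
  have hr : ∀ (g : G) (w : Additive W), (((r g w).toMul : W) : V) = φ g (w.toMul : V) := fun _ _ => rfl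
  have hinj : ∀ a b : Additive W, ((a.toMul : W) : V) = (b.toMul : W) → a = b := fun a b h =>
    congrArg Additive.ofMul (Subtype.ext h : a.toMul = b.toMul)
  let θ : G →* AddMonoid.End (Additive W) :=
    { toFun := r
      map_one' := by
        refine AddMonoidHom.ext fun v => hinj _ _ ?_
        refine (hr 1 v).trans ?_
        rw [map_one]; rfl
      map_mul' := fun g g' => by
        refine AddMonoidHom.ext fun v => hinj _ _ ?_
        refine (hr (g * g') v).trans ?_
        rw [map_mul]; rfl }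
  obtain ⟨n, σ, hn, hσ⟩ := exists_gl_of_addAction p (M := Additive W) (by
    intro x
    have := x.toMul.2
    rw [hW] at this
    exact congrArg Additive.ofMul (Subtype.ext this : x.toMul ^ p = 1)) θ (by
    intro g hg v hv
    have h3 := hφ g hg ((v.toMul : W) : V) (by rw [← hr]; exact congrArg (fun w : Additive W => ((w.toMul : W) : V)) hv)
    exact hinj _ _ h3)
  exact ⟨p, ‹_›, n, σ, Nat.Coprime.coprime_dvd_right hpV hc, hn, hσ⟩

/-- The norm matrices of the lifted representation vanish. -/
theorem norm_eq_zero {G : Type*} [Group G] [Finite G] {p : ℕ} [hp : Fact p.Prime] {n : ℕ}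
    (hc : (Nat.card G).Coprime p) (σ : G →* GL (Fin n) (ZMod p)) (τ : G →* GL (Fin n) ℤ_[p])
    (hτ : ∀ g, Matrix.GeneralLinearGroup.map (PadicInt.toZMod (p := p)) (τ g) = σ g) (g : G)
    (hg : ∀ v : Fin n → ZMod p, ((σ g : GL (Fin n) (ZMod p)) : Matrix (Fin n) (Fin n) (ZMod p)).mulVec v = v → v = 0) :
    ∑ i ∈ range (orderOf g), ((τ g : GL (Fin n) ℤ_[p]) : Matrix (Fin n) (Fin n) ℤ_[p]) ^ i = 0 := by
  set T : Matrix (Fin n) (Fin n) ℤ_[p] := ((τ g : GL (Fin n) ℤ_[p]) : Matrix (Fin n) (Fin n) ℤ_[p]) with hT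
  set E := ∑ i ∈ range (orderOf g), T ^ i with hE
  have hTd : T ^ orderOf g = 1 := by
    rw [hT, ← Units.val_pow_eq_pow_val, ← map_pow, pow_orderOf_eq_one, map_one, Units.val_one]
  -- `T E = E`
  have hTE : T * E = E := by
    have h1 := mul_geom_sum T (orderOf g)
    rw [hTd, sub_self, sub_mul, one_mul, sub_eq_zero] at h1
    exact h1
  have hTiE : ∀ i : ℕ, T ^ i * E = E := by
    intro i
    induction i with
    | zero => rw [pow_zero, one_mul]
    | succ i ih => rw [pow_succ, mul_assoc, hTE, ih]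
  have hEE : E * E = (orderOf g : Matrix (Fin n) (Fin n) ℤ_[p]) * E := by
    conv_lhs => rw [hE]
    rw [Finset.sum_mul]
    rw [Finset.sum_congr rfl (fun i _ => hTiE i), Finset.sum_const, card_range, nsmul_eq_mul]
  -- reduction of `E`
  have hred : E.map (PadicInt.toZMod (p := p)) = 0 := by
    have h1 : E.map (PadicInt.toZMod (p := p)) = ∑ i ∈ range (orderOf g),
        (((σ g : GL (Fin n) (ZMod p)) : Matrix (Fin n) (Fin n) (ZMod p))) ^ i := by
      have h2 : T.map (PadicInt.toZMod (p := p)) = ((σ g : GL (Fin n) (ZMod p)) : Matrix (Fin n) (Fin n) (ZMod p)) := by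
        rw [← hτ g]; rfl
      have h3 : E.map (PadicInt.toZMod (p := p)) = (PadicInt.toZMod (p := p)).mapMatrix E := rfl
      rw [h3, hE, map_sum]
      refine Finset.sum_congr rfl fun i _ => ?_
      rw [map_pow]
      congr 1
    rw [h1]
    apply Matrix.ext_of_mulVec_single
    intro j
    let θ : G →* AddMonoid.End (Fin n → ZMod p) :=
      { toFun := fun g => (Matrix.mulVecLin ((σ g : GL (Fin n) (ZMod p)) : Matrix (Fin n) (Fin n) (ZMod p))).toAddMonoidHom
        map_one' := by
          refine AddMonoidHom.ext fun v => ?_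
          change Matrix.mulVec ((σ 1 : GL (Fin n) (ZMod p)) : Matrix (Fin n) (Fin n) (ZMod p)) v = v
          rw [map_one, Units.val_one, Matrix.one_mulVec]
        map_mul' := fun a b => by
          refine AddMonoidHom.ext fun v => ?_
          change Matrix.mulVec ((σ (a * b) : GL (Fin n) (ZMod p)) : Matrix (Fin n) (Fin n) (ZMod p)) v =
            Matrix.mulVec ((σ a : GL (Fin n) (ZMod p)) : Matrix (Fin n) (Fin n) (ZMod p))
              (Matrix.mulVec ((σ b : GL (Fin n) (ZMod p)) : Matrix (Fin n) (Fin n) (ZMod p)) v)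
          rw [map_mul, Units.val_mul, Matrix.mulVec_mulVec] }
    have h4 := sum_pow_eq_zero θ (g := g) hg (Pi.single j 1)
    rw [Matrix.zero_mulVec, Matrix.sum_mulVec]
    rw [← h4]
    refine Finset.sum_congr rfl fun i _ => ?_
    rw [← Units.val_pow_eq_pow_val, ← map_pow]
    rfl
  -- `E` is divisible by all powers of `p`
  have hcop : (orderOf g).Coprime p := hc.coprime_dvd_left (orderOf_dvd_natCard g)
  have hu : IsUnit ((orderOf g : ℕ) : ℤ_[p]) := by
    rw [PadicInt.isUnit_iff, PadicInt.norm_natCast_eq_one_iff]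
    first | exact hcop | exact hcop.symm
  obtain ⟨v, hv⟩ := hu.exists_right_inv
  have hEv : E = (algebraMap ℤ_[p] (Matrix (Fin n) (Fin n) ℤ_[p]) v) * (E * E) := by
    rw [hEE, ← mul_assoc, ← map_natCast (algebraMap ℤ_[p] (Matrix (Fin n) (Fin n) ℤ_[p])), ← map_mul,
      mul_comm v, hv, map_one, one_mul]
  have h1 : (p : Matrix (Fin n) (Fin n) ℤ_[p]) ^ 1 ∣ E := by
    have := (Lift.map_eq_iff E 0).1 (by rw [hred, Matrix.map_zero _ (map_zero _)])
    rwa [sub_zero] at this
  apply Lift.eq_zero_of_dvd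
  intro k
  induction k with
  | zero => exact ⟨E, by rw [pow_zero, one_mul]⟩
  | succ k ih =>
    obtain ⟨A, hA⟩ := ih
    obtain ⟨B, hB⟩ := h1
    refine ⟨algebraMap ℤ_[p] (Matrix (Fin n) (Fin n) ℤ_[p]) v * (A * B), ?_⟩
    have hcm : ∀ X : Matrix (Fin n) (Fin n) ℤ_[p], Commute (p : Matrix (Fin n) (Fin n) ℤ_[p]) X := fun X =>
      Nat.cast_commute p X
    rw [hEv]
    nth_rewrite 1 [hA]
    rw [hB, pow_one]
    have h2 : ∀ (P q X Y Z : Matrix (Fin n) (Fin n) ℤ_[p]), (∀ W, Commute q W) → (∀ W, Commute P W) →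
        Z * (P * X * (q * Y)) = P * q * (Z * (X * Y)) := by
      intro P q X Y Z hq hP
      rw [mul_assoc P X, ← mul_assoc X q, ← (hq X).eq, mul_assoc q X, ← mul_assoc P q, ← mul_assoc Z,
        ← mul_assoc]
      rw [← ((hP Z).mul_left (hq Z)).eq]
      simp only [mul_assoc]
    rw [h2 _ _ A B _ hcm (fun W => (hcm W).pow_left k), ← pow_succ]

end Cfsg.Agent.H348
end

-- part: H348/CharZeroIrr
section
/-!
Descent of fixed-point-free representations, and irreducible fixed-point-free representations.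
-/

set_option autoImplicit false
set_option linter.style.haveILetI false

namespace Cfsg.Agent.H348

open Finset

/-- A representation over some extension field in which all norm elements vanish produces an irreducible
fixed-point-free representation over the subfield. -/
theorem exists_irreducible_fpf {G k K : Type*} [Group G] [Finite G] [Field k] [CharZero k] [Field K]
    (ι : k →+* K) {n : ℕ} (hn : 0 < n) (τ : G →* GL (Fin n) K)
    (hτ : ∀ g : G, g ≠ 1 → ∑ i ∈ range (orderOf g), ((τ g : GL (Fin n) K) : Matrix (Fin n) (Fin n) K) ^ i = 0) :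
    ∃ (m : ℕ) (ρ : G →* GL (Fin m) k), 0 < m ∧ Function.Injective ρ ∧
      (∀ W : Submodule k (Fin m → k),
        (∀ g : G, ∀ w ∈ W, ((ρ g : GL (Fin m) k) : Matrix (Fin m) (Fin m) k).mulVec w ∈ W) → W = ⊥ ∨ W = ⊤) ∧
      ∀ g : G, g ≠ 1 → ∀ v : Fin m → k,
        ((ρ g : GL (Fin m) k) : Matrix (Fin m) (Fin m) k).mulVec v = v → v = 0 := by
  classical
  haveI : Nonempty (Fin n) := ⟨⟨0, hn⟩⟩
  let f : k →+* Matrix (Fin n) (Fin n) K := (Matrix.scalar (Fin n)).comp ι
  let t : G →* Matrix (Fin n) (Fin n) K := (Units.coeHom _).comp τ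
  let Φ : MonoidAlgebra k G →+* Matrix (Fin n) (Fin n) K :=
    MonoidAlgebra.liftNCRingHom f t (fun x y => Matrix.scalar_commute (ι x) (fun r => Commute.all _ _) (t y))
  have hΦ : ∀ g : G, Φ (MonoidAlgebra.of k G g) = t g := by
    intro g
    change MonoidAlgebra.liftNC (f : k →+ Matrix (Fin n) (Fin n) K) t (MonoidAlgebra.single g 1) = t g
    rw [MonoidAlgebra.liftNC_single]
    change f 1 * t g = t g
    rw [map_one, one_mul]
  have hne : RingHom.ker Φ ≠ ⊤ := RingHom.ker_ne_top Φ
  obtain ⟨M, hM, hle⟩ := Ideal.exists_le_maximal (RingHom.ker Φ) hne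
  let N : G → MonoidAlgebra k G := fun g => ∑ i ∈ range (orderOf g), MonoidAlgebra.of k G (g ^ i)
  have hN : ∀ g : G, g ≠ 1 → Φ (N g) = 0 := by
    intro g hg
    change Φ (∑ i ∈ range (orderOf g), MonoidAlgebra.of k G (g ^ i)) = 0
    rw [map_sum, ← hτ g hg]
    refine Finset.sum_congr rfl fun i _ => ?_
    rw [hΦ, map_pow]
    rfl
  haveI hsimple : IsSimpleModule (MonoidAlgebra k G) (MonoidAlgebra k G ⧸ M) := by
    rw [isSimpleModule_iff_isCoatom]
    exact hM.out
  haveI : Module.Finite k (MonoidAlgebra k G) := Module.Finite.of_basis (MonoidAlgebra.basis G k)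
  haveI : Nontrivial (MonoidAlgebra k G ⧸ M) := IsSimpleModule.nontrivial (MonoidAlgebra k G) _
  let θ : G →* Module.End k (MonoidAlgebra k G ⧸ M) :=
    ((Algebra.lsmul k k (MonoidAlgebra k G ⧸ M) : MonoidAlgebra k G →ₐ[k] _) : MonoidAlgebra k G →* _).comp
      (MonoidAlgebra.of k G)
  have hθ : ∀ g v, θ g v = MonoidAlgebra.of k G g • v := fun _ _ => rfl
  -- fixed-point-free
  have hfpf : ∀ g : G, g ≠ 1 → ∀ v, θ g v = v → v = 0 := by
    intro g hg v hv
    have h1 : N g • v = 0 := by
      obtain ⟨b, rfl⟩ := Submodule.Quotient.mk_surjective M v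
      rw [← Submodule.Quotient.mk_smul, Submodule.Quotient.mk_eq_zero]
      apply hle
      rw [RingHom.mem_ker, smul_eq_mul, map_mul, hN g hg, zero_mul]
    have h2 : ∀ i : ℕ, MonoidAlgebra.of k G (g ^ i) • v = v := by
      intro i
      induction i with
      | zero => rw [pow_zero, map_one, one_smul]
      | succ i ih => rw [pow_succ, map_mul, mul_smul, ← hθ g v, hv, ih]
    change (∑ i ∈ range (orderOf g), MonoidAlgebra.of k G (g ^ i)) • v = 0 at h1
    rw [Finset.sum_smul, Finset.sum_congr rfl (fun i _ => h2 i), Finset.sum_const, card_range,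
      ← Nat.cast_smul_eq_nsmul k] at h1
    have h3 : ((orderOf g : ℕ) : k) ≠ 0 := by
      rw [Nat.cast_ne_zero]
      exact (orderOf_pos g).ne'
    exact (smul_eq_zero.1 h1).resolve_left h3
  -- irreducible
  have hirr : ∀ U : Submodule k (MonoidAlgebra k G ⧸ M), (∀ g : G, ∀ u ∈ U, θ g u ∈ U) → U = ⊥ ∨ U = ⊤ := by
    intro U hU
    let U' : Submodule (MonoidAlgebra k G) (MonoidAlgebra k G ⧸ M) :=
      { carrier := U
        add_mem' := fun ha hb => U.add_mem ha hb
        zero_mem' := U.zero_mem
        smul_mem' := by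
          intro c x hx
          induction c using MonoidAlgebra.induction_on with
          | of g => exact hU g x hx
          | add a b ha hb => rw [add_smul]; exact U.add_mem ha hb
          | smul r a ha => rw [smul_assoc]; exact U.smul_mem r ha }
    rcases hsimple.eq_bot_or_eq_top U' with h | h
    · left
      rw [eq_bot_iff]
      intro x hx
      have : x ∈ U' := hx
      rw [h] at this
      exact this
    · right
      rw [eq_top_iff]
      intro x _
      have : x ∈ U' := by rw [h]; trivial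
      exact this
  obtain ⟨m, b, ρ, hm, hρ⟩ := exists_matrix_rep θ
  have hfpf' : ∀ g : G, g ≠ 1 → ∀ v : Fin m → k,
        ((ρ g : GL (Fin m) k) : Matrix (Fin m) (Fin m) k).mulVec v = v → v = 0 := by
    intro g hg v hv
    have h1 := hρ g (b.equivFun.symm v)
    rw [LinearEquiv.apply_symm_apply, hv] at h1
    have h2 : θ g (b.equivFun.symm v) = b.equivFun.symm v := by
      rw [LinearEquiv.eq_symm_apply]; exact h1.symm
    have h4 := hfpf g hg (b.equivFun.symm v) h2
    rwa [LinearEquiv.map_eq_zero_iff] at h4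
  refine ⟨m, ρ, hm, ?_, ?_, hfpf'⟩
  · rw [injective_iff_map_eq_one]
    intro g hg
    by_contra hne1
    have h1 := hfpf' g hne1 (Pi.single ⟨0, hm⟩ 1) (by rw [hg, Units.val_one, Matrix.one_mulVec])
    have h2 := congrFun h1 ⟨0, hm⟩
    rw [Pi.single_eq_same, Pi.zero_apply] at h2
    exact one_ne_zero h2
  · intro W hW
    rcases hirr (W.comap b.equivFun.toLinearMap) (by
      intro g u hu
      rw [Submodule.mem_comap] at hu ⊢
      have := hW g _ hu
      change Matrix.mulVec _ (b.equivFun u) ∈ W at this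
      rw [hρ g u] at this
      exact this) with h | h
    · left
      rw [eq_bot_iff]
      intro x hx
      have h1 : b.equivFun.symm x ∈ W.comap b.equivFun.toLinearMap := by
        rw [Submodule.mem_comap]
        change b.equivFun (b.equivFun.symm x) ∈ W
        rwa [LinearEquiv.apply_symm_apply]
      rw [h, Submodule.mem_bot, LinearEquiv.map_eq_zero_iff] at h1
      exact h1
    · right
      rw [eq_top_iff]
      intro x _
      have h1 : b.equivFun.symm x ∈ W.comap b.equivFun.toLinearMap := by rw [h]; trivial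
      rw [Submodule.mem_comap] at h1
      change b.equivFun (b.equivFun.symm x) ∈ W at h1
      rwa [LinearEquiv.apply_symm_apply] at h1

/-- embedding of an algebraic closure -/
theorem nonempty_algClosure_hom (F K : Type*) [Field F] [Field K] [IsAlgClosed K] (i : F →+* K) :
    Nonempty (AlgebraicClosure F →+* K) := by
  letI := i.toAlgebra
  exact ⟨((IsAlgClosed.lift : AlgebraicClosure F →ₐ[F] K) : AlgebraicClosure F →+* K)⟩

/-- A fixed-point-free group has a faithful irreducible fixed-point-free representation over any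
algebraically closed field of characteristic zero that is algebraic over `ℚ`. -/
theorem HasFPF.exists_irreducible {G : Type*} [Group G] [Finite G] (h : HasFPF G) :
    ∃ (m : ℕ) (ρ : G →* GL (Fin m) (AlgebraicClosure ℚ)), 0 < m ∧ Function.Injective ρ ∧
      (∀ W : Submodule (AlgebraicClosure ℚ) (Fin m → AlgebraicClosure ℚ),
        (∀ g : G, ∀ w ∈ W, ((ρ g : GL (Fin m) (AlgebraicClosure ℚ)) :
          Matrix (Fin m) (Fin m) (AlgebraicClosure ℚ)).mulVec w ∈ W) → W = ⊥ ∨ W = ⊤) ∧
      ∀ g : G, g ≠ 1 → ∀ v : Fin m → AlgebraicClosure ℚ,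
        ((ρ g : GL (Fin m) (AlgebraicClosure ℚ)) :
          Matrix (Fin m) (Fin m) (AlgebraicClosure ℚ)).mulVec v = v → v = 0 := by
  obtain ⟨p, hp, n, σ, hc, hn, hσ⟩ := h.exists_gl
  obtain ⟨τ, hτ⟩ := Lift.exists_lift hc σ
  let K := AlgebraicClosure ℚ_[p]
  obtain ⟨ι⟩ := nonempty_algClosure_hom ℚ K (algebraMap ℚ K)
  let j : ℤ_[p] →+* K := (algebraMap ℚ_[p] K).comp (PadicInt.Coe.ringHom)
  refine exists_irreducible_fpf ι hn ((Matrix.GeneralLinearGroup.map j).comp τ) ?_
  intro g hg
  have h1 := norm_eq_zero hc σ τ hτ g (hσ g hg)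
  have h2 := congrArg (fun A => j.mapMatrix A) h1
  simp only [map_sum, map_pow, map_zero] at h2
  exact h2

end Cfsg.Agent.H348
end

-- part: S3357
section
set_option autoImplicit false
open Cfsg

namespace Cfsg.Agent.S3357

/-- Let G be a finite group that occurs as a Frobenius complement. Then G has a faithful irreducible representation over an algebraic closure of the rationals in which no non-identity element of G has 1 as an eigenvalue: there are n ≥ 1 and an injective homomorphism ρ from G to GL(n) over that field, with no invariant subspace other than 0 and the whole space, such that for g ≠ 1 the only vector fixed by ρ(g) is 0. -/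
theorem result {G : Type*} [Group G] [Finite G]
    (hFC : ∃ (L : Type) (_ : Group L) (_ : Finite L) (H : Subgroup L), Cfsg.IsFrobeniusComplement H ∧ Nonempty (G ≃* H)) :
    ∃ (n : ℕ) (ρ : G →* GL (Fin n) (AlgebraicClosure ℚ)), 0 < n ∧ Function.Injective ρ ∧
      (∀ W : Submodule (AlgebraicClosure ℚ) (Fin n → AlgebraicClosure ℚ),
        (∀ g : G, ∀ w ∈ W, ((ρ g : GL (Fin n) (AlgebraicClosure ℚ)) : Matrix (Fin n) (Fin n) (AlgebraicClosure ℚ)).mulVec w ∈ W) → W = ⊥ ∨ W = ⊤) ∧
      ∀ g : G, g ≠ 1 → ∀ v : Fin n → AlgebraicClosure ℚ,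
        ((ρ g : GL (Fin n) (AlgebraicClosure ℚ)) : Matrix (Fin n) (Fin n) (AlgebraicClosure ℚ)).mulVec v = v → v = 0 := by
  exact (Cfsg.Agent.H348.hasFPF_of_exists hFC).exists_irreducible

end Cfsg.Agent.S3357
end
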