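import Mathlib
import Cfsg.Agent.SylowG2Aux.SL23Card
import Cfsg.Agent.Lib.DihedralRecog
import Cfsg.Statements.S3361
set_option linter.all false

-- part: H349/RegField
section
/-!
# Regular linear groups: the field generated by an abelian normal subgroup (helper349)

`Reg ρ` : `G` acts regularly on the nonzero vectors of `V`.  `exists_field` : an abelian normal subgroup `A` generates a
field `E` in `End V`, and `G` acts semilinearly on the `E`-space `V`.
-/

set_option autoImplicit false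

namespace Cfsg.Agent.H349.RegField

universe u

variable {q : ℕ} [Fact q.Prime] {V : Type u} [AddCommGroup V] [Module (ZMod q) V] {G : Type*} [Group G]

/-- regular on the nonzero vectors -/
structure Reg (ρ : G →* (V ≃ₗ[ZMod q] V)) : Prop where
  trans : ∀ v w : V, v ≠ 0 → w ≠ 0 → ∃ g : G, ρ g v = w
  reg : ∀ v : V, v ≠ 0 → ∀ g : G, ρ g v = v → g = 1

/-- the operators -/
def op (ρ : G →* (V ≃ₗ[ZMod q] V)) (g : G) : Module.End (ZMod q) V := (ρ g).toLinearMap

theorem op_apply (ρ : G →* (V ≃ₗ[ZMod q] V)) (g : G) (v : V) : op ρ g v = ρ g v := rfl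

theorem op_mul (ρ : G →* (V ≃ₗ[ZMod q] V)) (g h : G) : op ρ (g * h) = op ρ g * op ρ h := by
  ext v
  show ρ (g * h) v = ρ g (ρ h v)
  rw [map_mul]; rfl

theorem op_one (ρ : G →* (V ≃ₗ[ZMod q] V)) : op ρ 1 = 1 := by
  ext v
  show ρ 1 v = v
  rw [map_one]; rfl

/-- the algebra generated by `A` -/
def alg (ρ : G →* (V ≃ₗ[ZMod q] V)) (A : Subgroup G) : Subalgebra (ZMod q) (Module.End (ZMod q) V) :=
  Algebra.adjoin (ZMod q) (op ρ '' (A : Set G))

theorem op_mem {ρ : G →* (V ≃ₗ[ZMod q] V)} {A : Subgroup G} {a : G} (ha : a ∈ A) : op ρ a ∈ alg ρ A :=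
  Algebra.subset_adjoin ⟨a, ha, rfl⟩

variable {ρ : G →* (V ≃ₗ[ZMod q] V)} {A : Subgroup G}

theorem alg_comm (hab : ∀ a ∈ A, ∀ b ∈ A, a * b = b * a) {r s : Module.End (ZMod q) V} (hr : r ∈ alg ρ A)
    (hs : s ∈ alg ρ A) : r * s = s * r := by
  have h1 : ∀ a ∈ A, ∀ t ∈ alg ρ A, op ρ a * t = t * op ρ a := by
    intro a ha t ht
    refine Algebra.adjoin_induction (p := fun t _ => op ρ a * t = t * op ρ a) ?_ ?_ ?_ ?_ ht
    · rintro _ ⟨b, hb, rfl⟩
      rw [← op_mul, hab a ha b hb, op_mul]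
    · intro c
      exact (Algebra.commutes c (op ρ a)).symm
    · intro x y _ _ hx hy
      rw [mul_add, hx, hy, add_mul]
    · intro x y _ _ hx hy
      rw [← mul_assoc, hx, mul_assoc, hy, mul_assoc]
  refine Algebra.adjoin_induction (p := fun r _ => r * s = s * r) ?_ ?_ ?_ ?_ hr
  · rintro _ ⟨a, ha, rfl⟩
    exact h1 a ha s hs
  · intro c
    exact Algebra.commutes c s
  · intro x y _ _ hx hy
    rw [mul_add, ← hx, ← hy, add_mul]
  · intro x y _ _ hx hy
    rw [mul_assoc, hy, ← mul_assoc, hx, mul_assoc]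

theorem conj_mem [hA : A.Normal] (g : G) {r : Module.End (ZMod q) V} (hr : r ∈ alg ρ A) :
    op ρ g * r * op ρ g⁻¹ ∈ alg ρ A := by
  refine Algebra.adjoin_induction (p := fun r _ => op ρ g * r * op ρ g⁻¹ ∈ alg ρ A) ?_ ?_ ?_ ?_ hr
  · rintro _ ⟨a, ha, rfl⟩
    rw [← op_mul, ← op_mul]
    exact op_mem (hA.conj_mem a ha g)
  · intro c
    rw [← Algebra.commutes, mul_assoc, ← op_mul, mul_inv_cancel, op_one, mul_one]
    exact Subalgebra.algebraMap_mem _ c
  · intro x y _ _ hx hy
    rw [mul_add, add_mul]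
    exact add_mem hx hy
  · intro x y _ _ hx hy
    have : op ρ g * (x * y) * op ρ g⁻¹ = (op ρ g * x * op ρ g⁻¹) * (op ρ g * y * op ρ g⁻¹) := by
      have h1 : op ρ g⁻¹ * op ρ g = 1 := by rw [← op_mul, inv_mul_cancel, op_one]
      calc op ρ g * (x * y) * op ρ g⁻¹ = op ρ g * x * 1 * y * op ρ g⁻¹ := by rw [mul_one]; simp only [mul_assoc]
        _ = op ρ g * x * (op ρ g⁻¹ * op ρ g) * y * op ρ g⁻¹ := by rw [h1]
        _ = _ := by simp only [mul_assoc]
    rw [this]
    exact mul_mem hx hy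

/-- the orbit of a vector under the algebra -/
def W (ρ : G →* (V ≃ₗ[ZMod q] V)) (A : Subgroup G) (v : V) : AddSubgroup V where
  carrier := {w | ∃ r ∈ alg ρ A, r v = w}
  zero_mem' := ⟨0, zero_mem _, rfl⟩
  add_mem' := by
    rintro _ _ ⟨r, hr, rfl⟩ ⟨s, hs, rfl⟩
    exact ⟨r + s, add_mem hr hs, rfl⟩
  neg_mem' := by
    rintro _ ⟨r, hr, rfl⟩
    exact ⟨-r, neg_mem hr, rfl⟩

theorem mem_W {v w : V} : w ∈ W ρ A v ↔ ∃ r ∈ alg ρ A, r v = w := Iff.rfl

theorem self_mem_W (v : V) : v ∈ W ρ A v := ⟨1, one_mem _, rfl⟩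

variable [Finite V]

theorem card_W_le [A.Normal] (h : Reg ρ) {v w : V} (hv : v ≠ 0) (hw : w ≠ 0) :
    Nat.card (W ρ A v) ≤ Nat.card (W ρ A w) := by
  obtain ⟨g, hg⟩ := h.trans v w hv hw
  refine Nat.card_le_card_of_injective (fun x : W ρ A v => (⟨ρ g x, ?_⟩ : W ρ A w)) ?_
  · obtain ⟨r, hr, hx⟩ := x.2
    refine ⟨op ρ g * r * op ρ g⁻¹, conj_mem g hr, ?_⟩
    rw [← hg, ← hx]
    show ρ g (r (ρ g⁻¹ (ρ g v))) = ρ g (r v)
    have : ρ g⁻¹ (ρ g v) = v := by
      have h1 : (ρ g⁻¹ * ρ g) v = v := by rw [← map_mul, inv_mul_cancel, map_one]; rfl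
      exact h1
    rw [this]
  · intro x y hxy
    exact Subtype.ext ((ρ g).injective (congrArg Subtype.val hxy))

theorem W_eq [A.Normal] (h : Reg ρ) {v w : V} (hv : v ≠ 0) (hw : w ≠ 0) (hvw : w ∈ W ρ A v) :
    W ρ A w = W ρ A v := by
  obtain ⟨s, hs, rfl⟩ := hvw
  apply AddSubgroup.eq_of_le_of_card_ge
  · rintro _ ⟨r, hr, rfl⟩
    exact ⟨r * s, mul_mem hr hs, rfl⟩
  · exact card_W_le h hv hw

/-- nonzero elements of the algebra are injective -/
theorem eq_zero_of [A.Normal] (h : Reg ρ) (hab : ∀ a ∈ A, ∀ b ∈ A, a * b = b * a) {r : Module.End (ZMod q) V}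
    (hr : r ∈ alg ρ A) {v : V} (hv : v ≠ 0) (hrv : r v = 0) : r = 0 := by
  have key : ∀ w ∈ W ρ A v, r w = 0 := by
    rintro _ ⟨s, hs, rfl⟩
    have : (r * s) v = (s * r) v := by rw [alg_comm hab hr hs]
    have h1 : r (s v) = s (r v) := this
    rw [h1, hrv, map_zero]
  ext w
  show r w = 0
  by_contra hne
  have hw0 : w ≠ 0 := by
    rintro rfl
    exact hne (map_zero _)
  have hvw : v + w ≠ 0 := by
    intro h0
    apply hne
    have : w = -v := (neg_eq_of_add_eq_zero_right h0).symm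
    rw [this, map_neg, hrv, neg_zero]
  have h1 : r w ∈ W ρ A w := ⟨r, hr, rfl⟩
  have h2 : r w ∈ W ρ A (v + w) := ⟨r, hr, by rw [map_add, hrv, zero_add]⟩
  have h3 := W_eq h hw0 hne h1
  have h4 := W_eq h hvw hne h2
  have h5 : v + w ∈ W ρ A w := by rw [← h3, h4]; exact self_mem_W _
  have h6 : v ∈ W ρ A w := by
    have := (W ρ A w).sub_mem h5 (self_mem_W w)
    rwa [add_sub_cancel_right] at this
  have h7 := W_eq h hw0 hv h6
  exact hne (key w (h7 ▸ self_mem_W w))

theorem isField [Nontrivial V] [A.Normal] (h : Reg ρ) (hab : ∀ a ∈ A, ∀ b ∈ A, a * b = b * a) :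
    IsField (alg ρ A) := by
  have hfin : Finite (Module.End (ZMod q) V) := Finite.of_injective (fun f : Module.End (ZMod q) V => (f : V → V))
    DFunLike.coe_injective
  have hfin' : Finite (alg ρ A) := Subtype.finite
  obtain ⟨v, hv⟩ := exists_ne (0 : V)
  refine ⟨⟨0, 1, ?_⟩, fun r s => Subtype.ext (alg_comm hab r.2 s.2), ?_⟩
  · intro h0
    have h1 := congrArg (fun r : alg ρ A => (r : Module.End (ZMod q) V) v) h0
    exact hv h1.symm
  · intro r hr
    have hinj : Function.Injective (fun s : alg ρ A => r * s) := by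
      intro s t hst
      by_contra hne
      have hne' : ((s - t : alg ρ A) : Module.End (ZMod q) V) ≠ 0 := by
        intro h0
        exact hne (sub_eq_zero.1 (Subtype.ext h0))
      obtain ⟨w, hw⟩ : ∃ w, ((s - t : alg ρ A) : Module.End (ZMod q) V) w ≠ 0 := by
        by_contra hcon
        push Not at hcon
        exact hne' (LinearMap.ext hcon)
      apply hr
      apply Subtype.ext
      apply eq_zero_of h hab r.2 hw
      have h1 : r * (s - t) = 0 := by rw [mul_sub]; exact sub_eq_zero.2 hst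
      exact congrArg (fun r : alg ρ A => (r : Module.End (ZMod q) V) w) h1
    obtain ⟨s, hs⟩ := (Finite.injective_iff_surjective.1 hinj) 1
    exact ⟨s, hs⟩

/-- **The field generated by `A`.** -/
theorem exists_field [Nontrivial V] [A.Normal] (h : Reg ρ) (hab : ∀ a ∈ A, ∀ b ∈ A, a * b = b * a) :
    ∃ (E : Type u) (_ : Field E) (_ : Finite E) (_ : Algebra (ZMod q) E) (_ : Module E V)
      (σ : G →* (E ≃ₐ[ZMod q] E)) (ι : A →* Eˣ), Function.Injective ι ∧ (∀ a v, (ι a : E) • v = ρ a v) ∧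
      (∀ g r v, ρ g (r • v) = σ g r • ρ g v) ∧ (∀ g, (∀ a ∈ A, g * a = a * g) → σ g = 1) := by
  have hfin : Finite (Module.End (ZMod q) V) := Finite.of_injective (fun f : Module.End (ZMod q) V => (f : V → V))
    DFunLike.coe_injective
  have hfin' : Finite (alg ρ A) := Subtype.finite
  letI fE : Field (alg ρ A) := (isField h hab).toField
  letI aE : Algebra (ZMod q) (alg ρ A) := (alg ρ A).algebra'
  letI mE : Module (alg ρ A) V :=
    { smul := fun r v => (r : Module.End (ZMod q) V) v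
      one_smul := fun v => rfl
      mul_smul := fun r s v => rfl
      smul_zero := fun r => map_zero _
      smul_add := fun r v w => map_add _ v w
      add_smul := fun r s v => rfl
      zero_smul := fun v => rfl }
  let σ : G →* (alg ρ A ≃ₐ[ZMod q] alg ρ A) :=
    { toFun := fun g =>
        { toFun := fun r => ⟨op ρ g * r * op ρ g⁻¹, conj_mem g r.2⟩
          invFun := fun r => ⟨op ρ g⁻¹ * r * op ρ g, by
            have := conj_mem (ρ := ρ) g⁻¹ r.2
            rwa [inv_inv] at this⟩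
          left_inv := fun r => by
            apply Subtype.ext
            show op ρ g⁻¹ * (op ρ g * r * op ρ g⁻¹) * op ρ g = r
            have h1 : op ρ g⁻¹ * op ρ g = 1 := by rw [← op_mul, inv_mul_cancel, op_one]
            calc op ρ g⁻¹ * (op ρ g * r * op ρ g⁻¹) * op ρ g
                = (op ρ g⁻¹ * op ρ g) * r * (op ρ g⁻¹ * op ρ g) := by simp only [mul_assoc]
              _ = r := by rw [h1, one_mul, mul_one]
          right_inv := fun r => by
            apply Subtype.ext
            show op ρ g * (op ρ g⁻¹ * r * op ρ g) * op ρ g⁻¹ = r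
            have h1 : op ρ g * op ρ g⁻¹ = 1 := by rw [← op_mul, mul_inv_cancel, op_one]
            calc op ρ g * (op ρ g⁻¹ * r * op ρ g) * op ρ g⁻¹
                = (op ρ g * op ρ g⁻¹) * r * (op ρ g * op ρ g⁻¹) := by simp only [mul_assoc]
              _ = r := by rw [h1, one_mul, mul_one]
          map_mul' := fun r s => by
            apply Subtype.ext
            show op ρ g * (r * s) * op ρ g⁻¹ = (op ρ g * r * op ρ g⁻¹) * (op ρ g * s * op ρ g⁻¹)
            have h1 : op ρ g⁻¹ * op ρ g = 1 := by rw [← op_mul, inv_mul_cancel, op_one]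
            calc op ρ g * (r * s) * op ρ g⁻¹ = op ρ g * r * 1 * s * op ρ g⁻¹ := by
                  rw [mul_one]; simp only [mul_assoc]
              _ = op ρ g * r * (op ρ g⁻¹ * op ρ g) * s * op ρ g⁻¹ := by rw [h1]
              _ = _ := by simp only [mul_assoc]
          map_add' := fun r s => by
            apply Subtype.ext
            show op ρ g * (r + s) * op ρ g⁻¹ = op ρ g * r * op ρ g⁻¹ + op ρ g * s * op ρ g⁻¹
            rw [mul_add, add_mul]
          commutes' := fun c => by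
            apply Subtype.ext
            show op ρ g * (algebraMap (ZMod q) (Module.End (ZMod q) V) c) * op ρ g⁻¹ = _
            rw [← Algebra.commutes, mul_assoc, ← op_mul, mul_inv_cancel, op_one, mul_one]
            rfl }
      map_one' := by
        ext r v
        show op ρ 1 ((r : Module.End (ZMod q) V) (op ρ 1⁻¹ v)) = (r : Module.End (ZMod q) V) v
        rw [inv_one, op_one]; rfl
      map_mul' := fun g k => by
        ext r v
        show op ρ (g * k) ((r : Module.End (ZMod q) V) (op ρ (g * k)⁻¹ v)) =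
          op ρ g (op ρ k ((r : Module.End (ZMod q) V) (op ρ k⁻¹ (op ρ g⁻¹ v))))
        rw [mul_inv_rev, op_mul, op_mul]; rfl }
  let ι0 : A →* alg ρ A :=
    { toFun := fun a => ⟨op ρ a, op_mem a.2⟩
      map_one' := Subtype.ext (op_one ρ)
      map_mul' := fun a b => Subtype.ext (op_mul ρ a b) }
  refine ⟨alg ρ A, fE, hfin', aE, mE, σ, ι0.toHomUnits, ?_, fun a v => rfl, ?_, ?_⟩
  · intro a b hab'
    have h1 : ι0 a = ι0 b := congrArg Units.val hab'
    have h2 : op ρ (a : G) = op ρ b := congrArg Subtype.val h1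
    obtain ⟨v, hv⟩ := exists_ne (0 : V)
    have h3 : ρ ((b : G)⁻¹ * a) v = v := by
      rw [map_mul]
      show ρ (b : G)⁻¹ (ρ a v) = v
      have h4 : ρ a v = ρ b v := congrArg (fun f : Module.End (ZMod q) V => f v) h2
      rw [h4]
      have h5 : (ρ (b : G)⁻¹ * ρ b) v = v := by rw [← map_mul, inv_mul_cancel, map_one]; rfl
      exact h5
    have h4 := h.reg v hv _ h3
    exact Subtype.ext (inv_mul_eq_one.1 h4).symm
  · intro g r v
    show ρ g ((r : Module.End (ZMod q) V) v) = op ρ g ((r : Module.End (ZMod q) V) (op ρ g⁻¹ (ρ g v)))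
    have h5 : (ρ g⁻¹ * ρ g) v = v := by rw [← map_mul, inv_mul_cancel, map_one]; rfl
    have h6 : op ρ g⁻¹ (ρ g v) = v := h5
    rw [h6]; rfl
  · intro g hg
    have h1 : ∀ r ∈ alg ρ A, op ρ g * r = r * op ρ g := by
      intro t ht
      refine Algebra.adjoin_induction (p := fun t _ => op ρ g * t = t * op ρ g) ?_ ?_ ?_ ?_ ht
      · rintro _ ⟨b, hb, rfl⟩
        rw [← op_mul, hg b hb, op_mul]
      · intro c
        exact (Algebra.commutes c (op ρ g)).symm
      · intro x y _ _ hx hy
        rw [mul_add, hx, hy, add_mul]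
      · intro x y _ _ hx hy
        rw [← mul_assoc, hx, mul_assoc, hy, mul_assoc]
    ext r v
    show (op ρ g * (r : Module.End (ZMod q) V) * op ρ g⁻¹) v = (r : Module.End (ZMod q) V) v
    rw [h1 r r.2, mul_assoc, ← op_mul, mul_inv_cancel, op_one, mul_one]

end Cfsg.Agent.H349.RegField
end

-- part: H349/RegNum
section
/-!
# Regular linear groups: numerical consequences of an abelian normal subgroup (helper349)
-/

set_option autoImplicit false

namespace Cfsg.Agent.H349.RegNum

open Cfsg.Agent.H349.RegField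

universe u

variable {q : ℕ} [hq : Fact q.Prime] {V : Type u} [AddCommGroup V] [Module (ZMod q) V] {G : Type*} [Group G]

/-- `G` is semilinear over a field of order `|V|` -/
def Semi (ρ : G →* (V ≃ₗ[ZMod q] V)) : Prop :=
  ∃ (F : Type) (_ : Field F) (_ : Fintype F) (e : V ≃+ F),
    ∀ g : G, ∃ (a : F) (σ : F ≃+* F), ∀ v : V, e (ρ g v) = a * σ (e v)

variable {ρ : G →* (V ≃ₗ[ZMod q] V)}

theorem inv_apply (g : G) (v : V) : ρ g⁻¹ (ρ g v) = v := by
  have h5 : (ρ g⁻¹ * ρ g) v = v := by rw [← map_mul, inv_mul_cancel, map_one]; rfl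
  exact h5

theorem mul_apply (g k : G) (v : V) : ρ (g * k) v = ρ g (ρ k v) := by
  rw [map_mul]; rfl

theorem one_apply (v : V) : ρ 1 v = v := by rw [map_one]; rfl

theorem card_eq [Nontrivial V] [Finite V] (h : Reg ρ) : Nat.card G + 1 = Nat.card V := by
  classical
  obtain ⟨v, hv⟩ := exists_ne (0 : V)
  have hne : ∀ g, ρ g v ≠ 0 := fun g hg => hv ((ρ g).map_eq_zero_iff.1 hg)
  let e : G ≃ {w : V // w ≠ 0} := Equiv.ofBijective (fun g => ⟨ρ g v, hne g⟩) ⟨by
    intro g k hgk
    have h1 : ρ g v = ρ k v := congrArg Subtype.val hgk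
    have h2 : ρ (k⁻¹ * g) v = v := by rw [mul_apply, h1, inv_apply]
    exact (inv_mul_eq_one.1 (h.reg v hv _ h2)).symm, by
    rintro ⟨w, hw⟩
    obtain ⟨g, hg⟩ := h.trans v w hv hw
    exact ⟨g, Subtype.ext hg⟩⟩
  have := Fintype.ofFinite V
  rw [Nat.card_congr e, Nat.card_eq_fintype_card, Nat.card_eq_fintype_card]
  have h1 : Fintype.card {w : V // ¬ w = 0} = Fintype.card V - Fintype.card {w : V // w = 0} :=
    Fintype.card_subtype_compl _
  have h2 : Fintype.card {w : V // w = 0} = 1 := Fintype.card_subtype_eq 0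
  have h3 : 0 < Fintype.card V := Fintype.card_pos
  change Fintype.card {w : V // ¬ w = 0} + 1 = _
  omega

/-- sums over cyclic groups of prime order vanish -/
theorem sum_pow (h : Reg ρ) {p : ℕ} {x : G} (hx : x ≠ 1) (hxp : x ^ p = 1) (w : V) :
    ∑ i ∈ Finset.range p, ρ (x ^ i) w = 0 := by
  by_contra hne
  apply hx
  apply h.reg _ hne
  rw [map_sum]
  have h1 : ∀ i ∈ Finset.range p, ρ x (ρ (x ^ i) w) = ρ (x ^ (i + 1)) w := by
    intro i _
    rw [← mul_apply, pow_succ']
  rw [Finset.sum_congr rfl h1]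
  have h2 := Finset.sum_range_succ (fun i => ρ (x ^ i) w) p
  rw [Finset.sum_range_succ' (fun i => ρ (x ^ i) w) p, hxp, pow_zero] at h2
  exact add_right_cancel h2

/-- **uniqueness of subgroups of prime order in abelian subgroups** -/
theorem mem_zpowers [Nontrivial V] [Finite V] (h : Reg ρ) {p : ℕ} (hp : p.Prime) {u v : G} (huv : u * v = v * u)
    (hu : u ^ p = 1) (hv : v ^ p = 1) (hv1 : v ≠ 1) : u ∈ Subgroup.zpowers v := by
  by_contra hcon
  obtain ⟨w, hw⟩ := exists_ne (0 : V)
  have hcom : Commute u v := huv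
  have hne : ∀ j, u * v ^ j ≠ 1 := by
    intro j hj
    apply hcon
    have : u = (v ^ j)⁻¹ := eq_inv_of_mul_eq_one_left hj
    rw [this]
    exact inv_mem (Subgroup.pow_mem _ (Subgroup.mem_zpowers v) j)
  have h1 : ∑ j ∈ Finset.range p, ∑ i ∈ Finset.range p, ρ ((u * v ^ j) ^ i) w = 0 := by
    apply Finset.sum_eq_zero
    intro j _
    apply sum_pow h (hne j) _
    rw [(hcom.pow_right j).mul_pow, hu, one_mul, ← pow_mul, mul_comm, pow_mul, hv, one_pow]
  rw [Finset.sum_comm] at h1
  have h2 : ∀ i ∈ Finset.range p, i ≠ 0 → ∑ j ∈ Finset.range p, ρ ((u * v ^ j) ^ i) w = 0 := by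
    intro i hi hi0
    have hi' : i < p := Finset.mem_range.1 hi
    have h3 : v ^ i ≠ 1 := by
      intro h4
      have h5 := orderOf_dvd_of_pow_eq_one h4
      have : Fact p.Prime := ⟨hp⟩
      rw [orderOf_eq_prime hv hv1] at h5
      exact absurd (Nat.le_of_dvd (by omega) h5) (by omega)
    have h4 : ∀ j ∈ Finset.range p, ρ ((u * v ^ j) ^ i) w = ρ (u ^ i) (ρ ((v ^ i) ^ j) w) := by
      intro j _
      rw [(hcom.pow_right j).mul_pow, ← mul_apply, ← pow_mul, ← pow_mul, mul_comm j i]
    rw [Finset.sum_congr rfl h4, ← map_sum, sum_pow h h3 _ w, map_zero]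
    rw [← pow_mul, mul_comm, pow_mul, hv, one_pow]
  rw [Finset.sum_eq_single_of_mem 0 (Finset.mem_range.2 hp.pos) (fun i hi hi0 => h2 i hi hi0)] at h1
  simp only [pow_zero, map_one] at h1
  rw [Finset.sum_const, Finset.card_range] at h1
  have h3 : p • w = 0 := h1
  -- `p ≠ q`
  have hfin : Finite G := by
    apply Finite.of_injective (fun g : G => ρ g w)
    intro g k hgk
    have h4 : ρ (k⁻¹ * g) w = w := by rw [mul_apply, show ρ g w = ρ k w from hgk, inv_apply]
    exact (inv_mul_eq_one.1 (h.reg w hw _ h4)).symm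
  have h4 : (p : ZMod q) ≠ 0 := by
    intro h5
    rw [ZMod.natCast_eq_zero_iff] at h5
    have h6 : q = p := (Nat.prime_dvd_prime_iff_eq hq.out hp).1 h5
    have : Fact p.Prime := ⟨hp⟩
    have h7 : p ∣ Nat.card G := by
      rw [← orderOf_eq_prime hv hv1]
      exact orderOf_dvd_natCard v
    have h8 : p ∣ Nat.card V := by
      rw [Module.natCard_eq_pow_finrank (K := ZMod q) (V := V), Nat.card_zmod]
      have h9 : 0 < Module.finrank (ZMod q) V := Module.finrank_pos
      have h10 : p ∣ q := by rw [h6]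
      exact h10.trans (dvd_pow_self q h9.ne')
    rw [← card_eq h] at h8
    have h9 := (Nat.dvd_add_right h7).1 h8
    exact hp.one_lt.ne' (Nat.dvd_one.1 h9)
  have h5 : (p : ZMod q) • w = 0 := by rw [Nat.cast_smul_eq_nsmul, h3]
  exact hw ((smul_eq_zero.1 h5).resolve_left h4)

/-- **Abelian normal subgroups.** -/
theorem abel [Nontrivial V] [Finite V] [Finite G] (h : Reg ρ) (A : Subgroup G) [A.Normal]
    (hab : ∀ a ∈ A, ∀ b ∈ A, a * b = b * a) :
    ∃ m k : ℕ, 1 ≤ m ∧ 1 ≤ k ∧ Nat.card V = q ^ (m * k) ∧ IsCyclic A ∧ Nat.card A ∣ q ^ m - 1 ∧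
      (Subgroup.centralizer (A : Set G)).index ∣ m ∧
      (k = 1 → Semi ρ ∧ IsCyclic (Subgroup.centralizer (A : Set G)) ∧
        IsCyclic (G ⧸ Subgroup.centralizer (A : Set G))) := by
  classical
  obtain ⟨E, _, _, _, _, σ, ι, hι, hact, hsemi, hcen⟩ := exists_field h hab
  have hfE : FiniteDimensional (ZMod q) E := inferInstance
  have hVE : Module.Finite E V := Module.Finite.of_finite
  have hE : Nat.card E = q ^ Module.finrank (ZMod q) E := by
    rw [Module.natCard_eq_pow_finrank (K := ZMod q) (V := E), Nat.card_zmod]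
  have hV : Nat.card V = q ^ (Module.finrank (ZMod q) E * Module.finrank E V) := by
    rw [Module.natCard_eq_pow_finrank (K := E) (V := V), hE, ← pow_mul]
  have hcyc : IsCyclic A := isCyclic_of_injective ι hι
  have hker : ∀ g, σ g = 1 ↔ g ∈ Subgroup.centralizer (A : Set G) := by
    intro g
    constructor
    · intro hg
      rw [Subgroup.mem_centralizer_iff]
      intro a ha
      obtain ⟨v, hv⟩ := exists_ne (0 : V)
      have h1 : ρ (a * g) v = ρ (g * a) v := by
        rw [mul_apply, mul_apply, ← hact ⟨a, ha⟩, ← hact ⟨a, ha⟩, hsemi, hg]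
        rfl
      have h2 : ρ ((g * a)⁻¹ * (a * g)) v = v := by rw [mul_apply, h1, inv_apply]
      exact (inv_mul_eq_one.1 (h.reg v hv _ h2)).symm
    · intro hg
      exact hcen g fun a ha => (Subgroup.mem_centralizer_iff.1 hg a ha).symm
  have hker' : σ.ker = Subgroup.centralizer (A : Set G) := by
    ext g
    rw [MonoidHom.mem_ker, hker]
  refine ⟨Module.finrank (ZMod q) E, Module.finrank E V, Module.finrank_pos, Module.finrank_pos, hV, hcyc, ?_, ?_, ?_⟩
  · rw [← hE, ← Nat.card_units]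
    exact Subgroup.card_dvd_of_injective ι hι
  · rw [← hker', Subgroup.index_ker, ← IsGalois.card_aut_eq_finrank (ZMod q) E]
    exact Subgroup.card_subgroup_dvd_card _
  · intro hk
    obtain ⟨v, hv⟩ := exists_ne (0 : V)
    have hspan := (finrank_eq_one_iff_of_nonzero' v hv).1 hk
    have hinj : ∀ r s : E, r • v = s • v → r = s := by
      intro r s hrs
      have h1 : (r - s) • v = 0 := by rw [sub_smul, hrs, sub_self]
      exact sub_eq_zero.1 ((smul_eq_zero.1 h1).resolve_right hv)
    choose f hf using hspan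
    -- `f w • v = w`
    have hfr : ∀ r : E, f (r • v) = r := fun r => hinj _ _ (hf _)
    refine ⟨?_, ?_, ?_⟩
    · -- semilinear
      have hm : Module.finrank (ZMod q) E ≠ 0 := Module.finrank_pos.ne'
      let F := GaloisField q (Module.finrank (ZMod q) E)
      have hfF : Finite F := Nat.finite_of_card_ne_zero (by
        rw [GaloisField.card q _ hm]
        exact pow_ne_zero _ hq.out.ne_zero)
      letI : Fintype F := Fintype.ofFinite F
      letI : Fintype E := Fintype.ofFinite E
      have hcEF : Fintype.card E = Fintype.card F := by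
        rw [← Nat.card_eq_fintype_card, ← Nat.card_eq_fintype_card, GaloisField.card q _ hm, hE]
      let θ : E ≃+* F := FiniteField.ringEquivOfCardEq hcEF
      let e0 : V ≃+ E :=
        { toFun := f
          invFun := fun r => r • v
          left_inv := hf
          right_inv := hfr
          map_add' := fun x y => hinj _ _ (by rw [hf, add_smul, hf, hf]) }
      refine ⟨F, inferInstance, inferInstance, e0.trans θ.toAddEquiv, fun g => ?_⟩
      refine ⟨θ (f (ρ g v)), (θ.symm.trans (σ g).toRingEquiv).trans θ, fun w => ?_⟩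
      show θ (f (ρ g w)) = θ (f (ρ g v)) * θ (σ g (θ.symm (θ (f w))))
      rw [θ.symm_apply_apply, ← map_mul]
      congr 1
      apply hinj
      rw [hf, mul_comm, mul_smul, hf, ← hsemi, hf]
    · -- the centralizer is cyclic
      let φ : Subgroup.centralizer (A : Set G) →* E :=
        { toFun := fun g => f (ρ g v)
          map_one' := hinj _ _ (by
            rw [hf, one_smul]
            exact one_apply v)
          map_mul' := fun g k => hinj _ _ (by
            rw [hf, Subgroup.coe_mul, mul_apply, mul_comm, mul_smul, hf]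
            have h1 : ρ (k : G) v = f (ρ (k : G) v) • v := (hf _).symm
            rw [h1, hsemi, (hker _).2 g.2, hfr]
            rfl) }
      have hφ : Function.Injective φ := by
        intro g k hgk
        have h1 : ρ (g : G) v = ρ (k : G) v := by
          rw [← hf (ρ (g : G) v), ← hf (ρ (k : G) v)]
          exact congrArg (fun r : E => r • v) hgk
        have h2 : ρ ((k : G)⁻¹ * g) v = v := by rw [mul_apply, h1, inv_apply]
        exact Subtype.ext (inv_mul_eq_one.1 (h.reg v hv _ h2)).symm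
      exact isCyclic_of_injective_ringHom φ hφ
    · have h1 : IsCyclic (G ⧸ σ.ker) := by
        have e := QuotientGroup.quotientKerEquivRange σ
        exact isCyclic_of_injective e.toMonoidHom e.injective
      have h2 := QuotientGroup.quotientMulEquivOfEq hker'
      exact isCyclic_of_surjective h2.toMonoidHom h2.surjective

end Cfsg.Agent.H349.RegNum
end

-- part: H349/RegArith
section
/-!
# The numerical part (helper349)
-/

set_option autoImplicit false

namespace Cfsg.Agent.H349.RegArith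

theorem six {s : ℕ} (hs : s ∣ 6) : s = 1 ∨ s = 2 ∨ s = 3 ∨ s = 6 := by
  have h1 : s ≤ 6 := Nat.le_of_dvd (by norm_num) hs
  interval_cases s <;> revert hs <;> decide

theorem three_pow_bound (m : ℕ) (hm : 5 ≤ m) : 24 * m < 3 ^ m := by
  induction m, hm using Nat.le_induction with
  | base => norm_num
  | succ n hn ih => rw [pow_succ]; omega

theorem nine_pow_bound (m : ℕ) (hm : 2 ≤ m) : 24 * m < 9 ^ m := by
  induction m, hm using Nat.le_induction with
  | base => norm_num
  | succ n hn ih => rw [pow_succ]; omega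

theorem first {q m k c s a : ℕ} (hq3 : 3 ≤ q) (hm : 1 ≤ m) (hc : c ∣ m) (hs : s ∣ 6)
    (ha : a ∣ q ^ m - 1) (ha0 : 0 < a) (hcard : q ^ (m * k) - 1 = c * (s * (4 * a))) :
    ∃ t, a * t = q ^ m - 1 ∧ (∑ i ∈ Finset.range k, (q ^ m) ^ i) * t = 4 * (c * s) ∧
      (∑ i ∈ Finset.range k, (q ^ m) ^ i) ∣ 24 * m := by
  obtain ⟨t, ht⟩ := ha
  have hQ : 1 ≤ q ^ m := Nat.one_le_pow _ _ (by omega)
  have h1 : (∑ i ∈ Finset.range k, (q ^ m) ^ i) * (q ^ m - 1) = q ^ (m * k) - 1 := by
    have h2 := geom_sum_mul ((q ^ m : ℕ) : ℤ) k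
    rw [pow_mul]
    have h3 : 1 ≤ (q ^ m) ^ k := Nat.one_le_pow _ _ hQ
    zify [hQ, h3]
    exact_mod_cast h2
  have h2 : (∑ i ∈ Finset.range k, (q ^ m) ^ i) * t = 4 * (c * s) := by
    apply Nat.eq_of_mul_eq_mul_right ha0
    calc (∑ i ∈ Finset.range k, (q ^ m) ^ i) * t * a
        = (∑ i ∈ Finset.range k, (q ^ m) ^ i) * (q ^ m - 1) := by rw [ht]; ring
      _ = c * (s * (4 * a)) := by rw [h1, hcard]
      _ = 4 * (c * s) * a := by ring
  refine ⟨t, ht.symm, h2, ?_⟩
  have h3 : (∑ i ∈ Finset.range k, (q ^ m) ^ i) ∣ 4 * (c * s) := ⟨t, h2.symm⟩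
  apply h3.trans
  obtain ⟨c', rfl⟩ := hc
  obtain ⟨s', hs'⟩ := hs
  refine ⟨c' * s', ?_⟩
  calc 24 * (c * c') = 4 * 6 * (c * c') := by norm_num
    _ = 4 * (c * s) * (c' * s') := by rw [hs']; ring

theorem arith {q m k c s a : ℕ} (hq : q.Prime) (hq2 : q ≠ 2) (hm : 1 ≤ m) (hk : 2 ≤ k) (hc : c ∣ m) (hs : s ∣ 6)
    (ha : a ∣ q ^ m - 1) (ha2 : 2 ∣ a) (ha0 : 0 < a) (hcard : q ^ (m * k) - 1 = c * (s * (4 * a))) :
    k = 2 ∧ m = 1 ∧ ((q = 3 ∧ s = 1 ∧ a = 2) ∨ (q = 5 ∧ s = 3 ∧ a = 2) ∨ (q = 7 ∧ 2 ∣ s) ∨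
      (q = 11 ∧ s = 3 ∧ a = 10) ∨ (q = 23 ∧ 2 ∣ s)) := by
  have hq3 : 3 ≤ q := by
    have := hq.two_le
    omega
  obtain ⟨t, hat, hSt, hSd⟩ := first hq3 hm hc hs ha ha0 hcard
  have hSle := Nat.le_of_dvd (by omega) hSd
  have h3m : 3 ^ m ≤ q ^ m := Nat.pow_le_pow_left hq3 m
  have hk2 : k = 2 := by
    by_contra hk2
    obtain ⟨j, rfl⟩ : ∃ j, k = 3 + j := ⟨k - 3, by omega⟩
    have h1 : ∑ i ∈ Finset.range 3, (q ^ m) ^ i ≤ ∑ i ∈ Finset.range (3 + j), (q ^ m) ^ i :=
      Finset.sum_le_sum_of_subset (Finset.range_mono (by omega))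
    have h2 : ∑ i ∈ Finset.range 3, (q ^ m) ^ i = 1 + q ^ m + (q ^ m) ^ 2 := by
      simp [Finset.sum_range_succ]
    have hm1 : m = 1 := by
      by_contra hm1
      have h3 := nine_pow_bound m (by omega)
      have h4 : 9 ^ m ≤ (q ^ m) ^ 2 := by
        have h5 : (3 ^ m) ^ 2 ≤ (q ^ m) ^ 2 := Nat.pow_le_pow_left h3m 2
        rwa [← pow_mul, mul_comm m 2, pow_mul] at h5
      omega
    subst hm1
    rw [pow_one] at h1 h2 hSle hSd
    have hq4 : q < 5 := by
      by_contra hq5
      push Not at hq5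
      have h3 : 5 ^ 2 ≤ q ^ 2 := Nat.pow_le_pow_left hq5 2
      omega
    have hq3' : q = 3 := by
      interval_cases q
      · rfl
      · exact absurd hq (by norm_num)
    subst hq3'
    rcases Nat.eq_zero_or_pos j with rfl | hj
    · revert hSd
      decide
    · have h3 : ∑ i ∈ Finset.range 4, 3 ^ i ≤ ∑ i ∈ Finset.range (3 + j), 3 ^ i :=
        Finset.sum_le_sum_of_subset (Finset.range_mono (by omega))
      have h4 : ∑ i ∈ Finset.range 4, 3 ^ i = 40 := by decide
      omega
  subst hk2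
  have hS : ∑ i ∈ Finset.range 2, (q ^ m) ^ i = q ^ m + 1 := by
    simp [Finset.sum_range_succ, add_comm]
  rw [hS] at hSt hSd hSle
  have hm4 : m < 5 := by
    by_contra hm5
    have h3 := three_pow_bound m (by omega)
    omega
  have hm1 : m = 1 := by
    by_contra hm1
    have hq6 : q < 7 := by
      by_contra hq7
      push Not at hq7
      have h3 : 7 ^ 2 ≤ q ^ 2 := Nat.pow_le_pow_left hq7 2
      have h4 : q ^ 2 ≤ q ^ m := Nat.pow_le_pow_right (by omega) (by omega)
      have h5 : 24 * m ≤ 96 := by omega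
      have h6 : m ≠ 2 := by
        rintro rfl
        omega
      have h7 : q ^ 3 ≤ q ^ m := Nat.pow_le_pow_right (by omega) (by omega)
      have h8 : 7 ^ 3 ≤ q ^ 3 := Nat.pow_le_pow_left hq7 3
      omega
    interval_cases m
    · exact hm1 rfl
    all_goals interval_cases q <;> revert hSd <;> first | decide | (exfalso; revert hq; norm_num)
  subst hm1
  refine ⟨rfl, rfl, ?_⟩
  rw [pow_one] at hSt hSd hSle hat
  have hc1 : c = 1 := Nat.dvd_one.1 hc
  subst hc1
  rw [one_mul] at hSt
  have hq23 : q < 24 := by omega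
  obtain ⟨a', rfl⟩ := ha2
  have ht0 : 0 < t := by
    rcases Nat.eq_zero_or_pos t with rfl | ht
    · omega
    · exact ht
  have ht6 : t < 7 := by
    rcases six hs with rfl | rfl | rfl | rfl <;> by_contra h <;> push Not at h <;> nlinarith
  rcases six hs with rfl | rfl | rfl | rfl <;> interval_cases t <;> omega

end Cfsg.Agent.H349.RegArith
end

-- part: H349/RegIdx
section
/-!
# Normal subgroups of index two (helper349)
-/

set_option autoImplicit false

namespace Cfsg.Agent.H349.RegIdx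

variable {G : Type*} [Group G]

theorem of_hom [Finite G] {H : Type*} [CommGroup H] [Finite H] [IsCyclic H] (f : G →* H)
    (hf : Function.Surjective f) (h : 2 ∣ Nat.card H) : ∃ N : Subgroup G, N.Normal ∧ N.index = 2 := by
  obtain ⟨n, hn⟩ := h
  have h0 : 0 < Nat.card H := Nat.card_pos
  refine ⟨((powMonoidHom n).comp f).ker, inferInstance, ?_⟩
  rw [Subgroup.index_ker]
  have h1 : ((powMonoidHom n).comp f).range = (powMonoidHom n : H →* H).range := by
    rw [MonoidHom.range_comp, MonoidHom.range_eq_top.2 hf, ← MonoidHom.range_eq_map]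
  rw [h1, IsCyclic.card_powMonoidHom_range, hn, Nat.gcd_mul_left_left]
  exact Nat.mul_div_cancel _ (by omega)

theorem of_cyclic [Finite G] (C : Subgroup G) [C.Normal] [hC : IsCyclic C] [hGC : IsCyclic (G ⧸ C)]
    (h : 2 ∣ Nat.card G) : ∃ N : Subgroup G, N.Normal ∧ N.index = 2 := by
  classical
  by_cases h1 : 2 ∣ Nat.card (G ⧸ C)
  · letI : CommGroup (G ⧸ C) := IsCyclic.commGroup
    exact of_hom (QuotientGroup.mk' C) (QuotientGroup.mk'_surjective C) h1
  · have : Fact (Nat.Prime 2) := ⟨Nat.prime_two⟩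
    obtain ⟨P⟩ : Nonempty (Sylow 2 G) := inferInstance
    have hPC : (P : Subgroup G) ≤ C := by
      intro x hx
      obtain ⟨k, hk⟩ := P.isPGroup' ⟨x, hx⟩
      have h2 : x ^ 2 ^ k = 1 := congrArg Subtype.val hk
      have h3 : (x : G ⧸ C) ^ 2 ^ k = 1 := by
        rw [← QuotientGroup.mk_pow, h2]; rfl
      have h4 : orderOf (x : G ⧸ C) ∣ Nat.card (G ⧸ C) := orderOf_dvd_natCard _
      have h5 := orderOf_dvd_of_pow_eq_one h3
      have h6 : Nat.Coprime (2 ^ k) (Nat.card (G ⧸ C)) :=
        Nat.Coprime.pow_left k ((Nat.prime_two.coprime_iff_not_dvd).2 h1)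
      have h7 := Nat.dvd_gcd h5 h4
      rw [h6] at h7
      have h8 : orderOf (x : G ⧸ C) = 1 := Nat.dvd_one.1 h7
      rw [orderOf_eq_one_iff] at h8
      exact (QuotientGroup.eq_one_iff x).1 h8
    have hPcyc : IsCyclic P := isCyclic_of_injective (Subgroup.inclusion hPC) (Subgroup.inclusion_injective hPC)
    have hmin : (Nat.card G).minFac = 2 := (Nat.minFac_eq_two_iff _).2 h
    have hcom := hPcyc.isComplement' hmin
    set f := MonoidHom.transferSylow P (hPcyc.normalizer_le_centralizer hmin) with hf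
    have hsurj : Function.Surjective f := by
      rw [← MonoidHom.range_eq_top]
      apply Subgroup.eq_top_of_card_eq
      rw [← Subgroup.index_ker]
      exact hcom.symm.index_eq_card
    letI : CommGroup P := IsCyclic.commGroup
    have h2 : 2 ∣ Nat.card P := by
      have := P.dvd_card_of_dvd_card h
      exact this
    exact of_hom f hsurj h2

end Cfsg.Agent.H349.RegIdx
end

-- part: H349/RegGrp
section
/-!
# Solvable groups with cyclic abelian subgroups: maximal abelian normal subgroups (helper349)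

`GT G` : abelian normal subgroups of `G` are cyclic and commuting elements of the same prime order generate the same
subgroup.  `A` a maximal abelian normal subgroup of the solvable group `G`.  If `C_G(A) ≠ A`, then there is a normal
subgroup `B` of `G` with `A < B ≤ C_G(A)`, `B = ⟨b, c⟩ A`, `b² = c² = [b, c] = z` the involution of `A`,
`C_G(B) = A`, and `C_G(A) / B` embeds in `S_3`.
-/

set_option autoImplicit false

namespace Cfsg.Agent.H349.RegGrp

open scoped commutatorElement

variable {G : Type*} [Group G]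

/-- the hypotheses on `G` -/
structure GT (G : Type*) [Group G] : Prop where
  uniq : ∀ p : ℕ, p.Prime → ∀ u v : G, u * v = v * u → u ^ p = 1 → v ^ p = 1 → v ≠ 1 → u ∈ Subgroup.zpowers v
  cyc : ∀ A : Subgroup G, A.Normal → (∀ a ∈ A, ∀ b ∈ A, a * b = b * a) → IsCyclic A

/-- maximal abelian normal subgroups -/
structure MaxAb (A : Subgroup G) : Prop where
  normal : A.Normal
  ab : ∀ a ∈ A, ∀ b ∈ A, a * b = b * a
  max : ∀ B : Subgroup G, B.Normal → (∀ a ∈ B, ∀ b ∈ B, a * b = b * a) → A ≤ B → B = A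

theorem exists_maxAb [Finite G] : ∃ A : Subgroup G, MaxAb A := by
  have hfin : Finite (Subgroup G) := inferInstance
  obtain ⟨A, hA, hmax⟩ := Set.Finite.exists_maximalFor (fun A : Subgroup G => Nat.card A)
    {A : Subgroup G | A.Normal ∧ ∀ a ∈ A, ∀ b ∈ A, a * b = b * a} (Set.toFinite _)
    ⟨⊥, inferInstance, by
      intro a ha b hb
      rw [Subgroup.mem_bot] at ha hb
      rw [ha, hb]⟩
  refine ⟨A, hA.1, hA.2, fun B hB hBab hAB => ?_⟩
  have h1 := hmax (j := B) ⟨hB, hBab⟩ (Subgroup.card_le_of_le hAB)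
  exact (Subgroup.eq_of_le_of_card_ge hAB h1).symm

/-! ### commutator calculus -/

theorem comm_pow_right {x y w : G} (h : y * x = x * y * w) (hwx : w * x = x * w) (n : ℕ) :
    y * x ^ n = x ^ n * y * w ^ n := by
  induction n with
  | zero => simp
  | succ n ih =>
    have h1 : Commute w x := hwx
    calc y * x ^ (n + 1) = (y * x ^ n) * x := by rw [pow_succ, mul_assoc]
      _ = x ^ n * y * (w ^ n * x) := by rw [ih]; group
      _ = x ^ n * (y * x) * w ^ n := by rw [(h1.pow_left n).eq]; group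
      _ = x ^ n * (x * y * w) * w ^ n := by rw [h]
      _ = (x ^ n * x) * y * (w * w ^ n) := by group
      _ = x ^ (n + 1) * y * w ^ (n + 1) := by rw [← pow_succ, ← pow_succ']

theorem comm_pow_left {x y w : G} (h : y * x = x * y * w) (hwy : w * y = y * w) (n : ℕ) :
    y ^ n * x = x * y ^ n * w ^ n := by
  induction n with
  | zero => simp
  | succ n ih =>
    have h1 : Commute w y := hwy
    calc y ^ (n + 1) * x = y * (y ^ n * x) := by rw [pow_succ', mul_assoc]
      _ = (y * x) * y ^ n * w ^ n := by rw [ih]; group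
      _ = x * y * (w * y ^ n) * w ^ n := by rw [h]; group
      _ = x * y * (y ^ n * w) * w ^ n := by rw [(h1.pow_right n).eq]
      _ = x * (y * y ^ n) * (w * w ^ n) := by group
      _ = x * y ^ (n + 1) * w ^ (n + 1) := by rw [← pow_succ', ← pow_succ']

theorem mul_pow_class {x y w : G} (h : y * x = x * y * w) (hwx : w * x = x * w) (hwy : w * y = y * w) (n : ℕ) :
    (x * y) ^ n = x ^ n * y ^ n * w ^ (n.choose 2) := by
  induction n with
  | zero => simp
  | succ n ih =>
    have h1 : Commute w x := hwx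
    have h2 : Commute w y := hwy
    rw [pow_succ, ih]
    have h3 := comm_pow_left h hwy n
    calc x ^ n * y ^ n * w ^ n.choose 2 * (x * y) = x ^ n * y ^ n * (w ^ n.choose 2 * x) * y := by group
      _ = x ^ n * (y ^ n * x) * (w ^ n.choose 2 * y) := by rw [(h1.pow_left _).eq]; group
      _ = x ^ n * (x * y ^ n * w ^ n) * (y * w ^ n.choose 2) := by rw [h3, (h2.pow_left _).eq]
      _ = x ^ n * x * y ^ n * (w ^ n * y) * w ^ n.choose 2 := by group
      _ = x ^ n * x * y ^ n * (y * w ^ n) * w ^ n.choose 2 := by rw [(h2.pow_left _).eq]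
      _ = (x ^ n * x) * (y ^ n * y) * (w ^ n * w ^ n.choose 2) := by group
      _ = x ^ (n + 1) * y ^ (n + 1) * w ^ ((n + 1).choose 2) := by
        rw [← pow_succ, ← pow_succ, ← pow_add, Nat.choose_succ_succ' n 1, Nat.choose_one_right]

/-! ### the first step -/

/-- iterated commutator subgroups of `N` -/
def dser (N : Subgroup G) : ℕ → Subgroup G
  | 0 => N
  | n + 1 => ⁅dser N n, dser N n⁆

theorem dser_normal (N : Subgroup G) [hN : N.Normal] (n : ℕ) : (dser N n).Normal := by
  induction n with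
  | zero => exact hN
  | succ n ih =>
    have := ih
    exact Subgroup.commutator_normal _ _

theorem dser_le (N : Subgroup G) (n : ℕ) : dser N n ≤ derivedSeries G n := by
  induction n with
  | zero => exact le_top
  | succ n ih => exact Subgroup.commutator_mono ih ih

theorem dser_le_self (N : Subgroup G) [hN : N.Normal] (n : ℕ) : dser N n ≤ N := by
  induction n with
  | zero => exact le_rfl
  | succ n ih =>
    have := dser_normal N n
    exact (Subgroup.commutator_le_left _ _).trans ih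

variable {A : Subgroup G}

/-- a normal subgroup `B` with `A < B ≤ N`, `B / A` abelian of exponent `p` -/
theorem exists_step [Finite G] (hsol : Group.IsSolvable G) (hA : MaxAb A) {N : Subgroup G} (hN : N.Normal)
    (hAN : A ≤ N) (hNC : N ≤ Subgroup.centralizer (A : Set G)) (hne : ¬ N ≤ A) :
    ∃ (B : Subgroup G) (p : ℕ), p.Prime ∧ B.Normal ∧ A ≤ B ∧ B ≤ N ∧ ¬ B ≤ A ∧ (∀ b ∈ B, b ^ p ∈ A) ∧
      ∀ x ∈ B, ∀ y ∈ B, ∃ w ∈ A, y * x = x * y * w := by
  classical
  have hAn := hA.normal
  obtain ⟨n, hn⟩ := hsol.solvable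
  have hex : ∃ k, dser N k ≤ A := ⟨n, (dser_le N n).trans (by rw [hn]; exact bot_le)⟩
  set k := Nat.find hex with hk
  have hk1 : dser N k ≤ A := Nat.find_spec hex
  have hk0 : k ≠ 0 := by
    intro h0
    rw [h0] at hk1
    exact hne hk1
  obtain ⟨j, hj⟩ : ∃ j, k = j + 1 := ⟨k - 1, by omega⟩
  have hj1 : ¬ dser N j ≤ A := Nat.find_min hex (by omega)
  have hjn := dser_normal N j
  have hjN := dser_le_self N j
  rw [hj] at hk1
  -- `B₀`
  have hcen : ∀ x ∈ N, ∀ a ∈ A, a * x = x * a := fun x hx a ha => Subgroup.mem_centralizer_iff.1 (hNC hx) a ha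
  have hB0comm : ∀ x ∈ dser N j ⊔ A, ∀ y ∈ dser N j ⊔ A, ∃ w ∈ A, y * x = x * y * w := by
    intro x hx y hy
    rw [Subgroup.mem_sup_of_normal_left] at hx hy
    obtain ⟨d, hd, a, ha, rfl⟩ := hx
    obtain ⟨d', hd', a', ha', rfl⟩ := hy
    have h1 : ⁅d⁻¹, d'⁻¹⁆ ∈ dser N (j + 1) := Subgroup.commutator_mem_commutator (inv_mem hd) (inv_mem hd')
    refine ⟨⁅d⁻¹, d'⁻¹⁆⁻¹, A.inv_mem (hk1 h1), ?_⟩
    have e1 := hcen d (hjN hd) a' ha'
    have e2 := hcen d' (hjN hd') a ha
    have e3 := hA.ab a ha a' ha'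
    have e4 := hcen d (hjN hd) a ha
    have e5 := hcen d' (hjN hd') a' ha'
    rw [commutatorElement_def]
    have h2 : d' * d = d * d' * (d⁻¹ * d'⁻¹ * d⁻¹⁻¹ * d'⁻¹⁻¹)⁻¹ := by group
    have hw := hk1 h1
    rw [commutatorElement_def] at hw
    set w := (d⁻¹ * d'⁻¹ * d⁻¹⁻¹ * d'⁻¹⁻¹)⁻¹ with hwdef
    have hw' : w ∈ A := A.inv_mem hw
    have e6 := hA.ab w hw' a ha
    have e7 := hA.ab w hw' a' ha'
    calc d' * a' * (d * a) = d' * (a' * d) * a := by group
      _ = (d' * d) * (a' * a) := by rw [e1]; group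
      _ = d * d' * w * (a * a') := by rw [h2, e3]
      _ = d * d' * (w * a) * a' := by group
      _ = d * (d' * a) * (w * a') := by rw [e6]; group
      _ = d * (a * d') * (a' * w) := by rw [← e2, e7]
      _ = d * a * (d' * a') * w := by group
  obtain ⟨y, hy, hyA⟩ : ∃ y ∈ dser N j, y ∉ A := Set.not_subset.1 hj1
  -- a prime
  have hfo := isOfFinOrder_of_finite (QuotientGroup.mk' A y)
  have ho : orderOf (QuotientGroup.mk' A y) ≠ 1 := by
    intro h1
    rw [orderOf_eq_one_iff] at h1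
    exact hyA ((QuotientGroup.eq_one_iff y).1 h1)
  obtain ⟨p, hp, hpo⟩ := Nat.exists_prime_and_dvd ho
  have hcenA : ∀ w ∈ A, ∀ x ∈ dser N j ⊔ A, w * x = x * w := fun w hw x hx =>
    hcen x ((sup_le hjN hAN) hx) w hw
  refine ⟨{ carrier := {b | b ∈ dser N j ⊔ A ∧ b ^ p ∈ A}
            mul_mem' := ?_
            one_mem' := ⟨one_mem _, by rw [one_pow]; exact A.one_mem⟩
            inv_mem' := fun {x} hx => ⟨inv_mem hx.1, by rw [inv_pow]; exact A.inv_mem hx.2⟩ }, p, hp, ?_, ?_, ?_, ?_,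
            fun b hb => hb.2, fun x hx y hy => hB0comm x hx.1 y hy.1⟩
  · rintro x y ⟨hx, hxp⟩ ⟨hy, hyp⟩
    refine ⟨mul_mem hx hy, ?_⟩
    obtain ⟨w, hw, hxy⟩ := hB0comm x hx y hy
    rw [mul_pow_class hxy (hcenA w hw x hx) (hcenA w hw y hy)]
    exact A.mul_mem (A.mul_mem hxp hyp) (A.pow_mem hw _)
  · constructor
    rintro x ⟨hx, hxp⟩ g
    refine ⟨(inferInstance : (dser N j ⊔ A).Normal).conj_mem x hx g, ?_⟩
    rw [conj_pow]
    exact hAn.conj_mem _ hxp g
  · intro a ha
    exact ⟨le_sup_right (a := dser N j) ha, A.pow_mem ha p⟩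
  · intro b hb
    exact (sup_le hjN hAN) hb.1
  · intro hle
    set n' := orderOf (QuotientGroup.mk' A y) with hn'
    have hn0 : 0 < n' := orderOf_pos _
    have hdiv : n' / p * p = n' := Nat.div_mul_cancel hpo
    have h1 : y ^ (n' / p) ∈ A := by
      apply hle
      refine ⟨le_sup_left (b := A) (Subgroup.pow_mem _ hy _), ?_⟩
      rw [← pow_mul, hdiv]
      have h2 : (QuotientGroup.mk' A y) ^ n' = 1 := pow_orderOf_eq_one _
      rw [← map_pow] at h2
      exact (QuotientGroup.eq_one_iff _).1 h2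
    have h2 : (QuotientGroup.mk' A y) ^ (n' / p) = 1 := by
      rw [← map_pow]
      exact (QuotientGroup.eq_one_iff _).2 h1
    have h3 := orderOf_dvd_of_pow_eq_one h2
    have h4 : n' / p < n' := Nat.div_lt_self hn0 hp.one_lt
    have h5 : 0 < n' / p := Nat.div_pos (Nat.le_of_dvd hn0 hpo) hp.pos
    exact absurd (Nat.le_of_dvd h5 h3) (by omega)

theorem exists_nat_dvd {p : ℕ} (hp : p.Prime) {s : ℤ} (hs : ¬ (p : ℤ) ∣ s) (t : ℤ) :
    ∃ i : ℕ, (p : ℤ) ∣ s * i + t := by
  have : Fact p.Prime := ⟨hp⟩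
  have hs' : (s : ZMod p) ≠ 0 := by
    intro h
    exact hs ((ZMod.intCast_zmod_eq_zero_iff_dvd s p).1 h)
  refine ⟨(-(t : ZMod p) * (s : ZMod p)⁻¹).val, ?_⟩
  rw [← ZMod.intCast_zmod_eq_zero_iff_dvd]
  push_cast
  rw [ZMod.natCast_zmod_val]
  field_simp
  ring

/-- the prime is two -/
theorem key (h : GT G) (hA : MaxAb A) {B : Subgroup G} {p : ℕ} (hp : p.Prime) (hB : B.Normal)
    (hAB : A ≤ B) (hBC : B ≤ Subgroup.centralizer (A : Set G)) (hne : ¬ B ≤ A) (hpow : ∀ b ∈ B, b ^ p ∈ A)
    (hcomm : ∀ x ∈ B, ∀ y ∈ B, ∃ w ∈ A, y * x = x * y * w) :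
    p = 2 ∧ ∃ w ∈ A, w ≠ 1 ∧ w * w = 1 ∧ (∃ x ∈ B, x ∉ A ∧ x * x = w) ∧ ∃ b ∈ B, ∃ c ∈ B, c * b ≠ b * c := by
  classical
  have hcen : ∀ x ∈ B, ∀ a ∈ A, a * x = x * a := fun x hx a ha => Subgroup.mem_centralizer_iff.1 (hBC hx) a ha
  obtain ⟨b, hb, c, hc, hbc⟩ : ∃ b ∈ B, ∃ c ∈ B, c * b ≠ b * c := by
    by_contra hcon
    push Not at hcon
    exact hne (hA.max B hB (fun a ha b hb => hcon b hb a ha) hAB).le
  obtain ⟨w, hw, hcb⟩ := hcomm b hb c hc
  have hwb := hcen b hb w hw
  have hwc := hcen c hc w hw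
  have hw1 : w ≠ 1 := by
    rintro rfl
    exact hbc (by rw [hcb, mul_one])
  have hwp : w ^ p = 1 := by
    have h1 := comm_pow_right hcb hwb p
    have h2 := hcen c hc _ (hpow b hb)
    rw [← h2] at h1
    exact (mul_eq_left.1 h1.symm)
  -- elements of `B` outside `A` do not have order `p`
  have hP1 : ∀ x ∈ B, x ∉ A → x ^ p = 1 → False := by
    intro x hx hxA hxp
    have h1 := h.uniq p hp x w (hcen x hx w hw).symm hxp hwp hw1
    exact hxA ((Subgroup.zpowers_le.2 hw) h1)
  obtain ⟨⟨g, hg⟩, hgen⟩ := (h.cyc A hA.normal hA.ab).exists_generator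
  have hgen' : ∀ a ∈ A, ∃ s : ℤ, a = g ^ s := by
    intro a ha
    obtain ⟨s, hs⟩ := hgen ⟨a, ha⟩
    exact ⟨s, (congrArg Subtype.val hs).symm⟩
  have hgA : ∀ r : ℤ, g ^ r ∈ A := fun r => A.zpow_mem hg r
  obtain ⟨s, hs⟩ := hgen' _ (hpow b hb)
  obtain ⟨t, ht⟩ := hgen' _ (hpow c hc)
  have hbA : b ∉ A := fun h1 => hbc (hcen c hc b h1).symm
  by_cases hps : (p : ℤ) ∣ s
  · exfalso
    obtain ⟨r, rfl⟩ := hps
    apply hP1 (b * g ^ (-r)) (B.mul_mem hb (hAB (hgA _)))
    · intro h1
      exact hbA ((A.mul_mem_cancel_right (hgA _)).1 h1)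
    · have h1 : Commute b (g ^ (-r)) := (hcen b hb _ (hgA _)).symm
      rw [h1.mul_pow, hs, ← zpow_natCast, ← zpow_mul, ← zpow_add]
      have : (p : ℤ) * r + -r * (p : ℤ) = 0 := by ring
      rw [this, zpow_zero]
  obtain ⟨i, r, hr⟩ := exists_nat_dvd hp hps t
  have hbi : b ^ i ∈ B := B.pow_mem hb i
  have h1 : c * b ^ i = b ^ i * c * w ^ i := comm_pow_right hcb hwb i
  have hwi : w ^ i ∈ A := A.pow_mem hw i
  have h2 := mul_pow_class h1 (hcen _ hbi _ hwi) (hcen _ hc _ hwi) p
  have h3 : (b ^ i * c) ^ p = g ^ ((p : ℤ) * r) * (w ^ i) ^ (p.choose 2) := by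
    rw [h2, ← hr, zpow_add, mul_comm s, zpow_mul, zpow_natCast, ← ht]
    congr 2
    rw [← pow_mul, mul_comm i p, pow_mul, hs, ← zpow_natCast, ← zpow_natCast, ← zpow_mul, ← zpow_mul, mul_comm]
  have hx : (b ^ i * c * g ^ (-r)) ^ p = (w ^ i) ^ (p.choose 2) := by
    have h4 : Commute (b ^ i * c) (g ^ (-r)) := (hcen _ (B.mul_mem hbi hc) _ (hgA _)).symm
    rw [h4.mul_pow, h3]
    have h5 : Commute ((w ^ i) ^ (p.choose 2)) ((g ^ (-r)) ^ p) :=
      hA.ab _ (A.pow_mem hwi _) _ (A.pow_mem (hgA _) _)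
    rw [mul_assoc, h5.eq, ← mul_assoc]
    have h6 : g ^ ((p : ℤ) * r) * (g ^ (-r)) ^ p = 1 := by
      rw [← zpow_natCast, ← zpow_mul, ← zpow_add]
      have : (p : ℤ) * r + -r * (p : ℤ) = 0 := by ring
      rw [this, zpow_zero]
    rw [h6, one_mul]
  have hxB : b ^ i * c * g ^ (-r) ∈ B := B.mul_mem (B.mul_mem hbi hc) (hAB (hgA _))
  have hxA : b ^ i * c * g ^ (-r) ∉ A := by
    intro h4
    have h5 : b ^ i * c ∈ A := (A.mul_mem_cancel_right (hgA _)).1 h4
    have h6 := hcen b hb _ h5
    apply hbc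
    have h7 : b ^ i * (c * b) = b ^ i * (b * c) := by
      calc b ^ i * (c * b) = b ^ i * c * b := by group
        _ = b * (b ^ i * c) := h6
        _ = (b * b ^ i) * c := by group
        _ = (b ^ i * b) * c := by rw [← pow_succ', ← pow_succ]
        _ = b ^ i * (b * c) := by group
    exact mul_left_cancel h7
  have hp2 : p = 2 := by
    by_contra hp2
    apply hP1 _ hxB hxA
    rw [hx]
    have h4 : 2 < p := lt_of_le_of_ne hp.two_le (Ne.symm hp2)
    obtain ⟨m, hm⟩ := hp.dvd_choose_self (by norm_num : (2 : ℕ) ≠ 0) h4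
    rw [hm, ← pow_mul, mul_comm i, mul_assoc, pow_mul, hwp, one_pow]
  subst hp2
  refine ⟨rfl, w, hw, hw1, by rw [← pow_two]; exact hwp, ⟨_, hxB, hxA, ?_⟩, b, hb, c, hc, hbc⟩
  rw [← pow_two, hx, Nat.choose_self, pow_one]
  rcases Nat.even_or_odd i with hi | hi
  · exfalso
    apply hP1 _ hxB hxA
    rw [hx, Nat.choose_self, pow_one]
    obtain ⟨j, rfl⟩ := hi
    rw [← two_mul, pow_mul, hwp, one_pow]
  · obtain ⟨j, rfl⟩ := hi
    rw [pow_add, pow_mul, hwp, one_pow, one_mul, pow_one]

end Cfsg.Agent.H349.RegGrp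
end

-- part: H349/RegStr
section
/-!
# Solvable groups with cyclic abelian subgroups: the quaternion part (helper349)
-/

set_option autoImplicit false

namespace Cfsg.Agent.H349.RegStr

open Cfsg.Agent.H349.RegGrp

variable {G : Type*} [Group G] {A B : Subgroup G} {z b c : G}

/-- the structure of `C_G(A)` -/
structure Str (A B : Subgroup G) (z b c : G) : Prop where
  Bn : B.Normal
  AB : A ≤ B
  BC : B ≤ Subgroup.centralizer (A : Set G)
  zA : z ∈ A
  z1 : z ≠ 1
  zz : z * z = 1
  zu : ∀ a ∈ A, a * a = 1 → a = 1 ∨ a = z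
  no4 : ∀ a ∈ A, a * a ≠ z
  bB : b ∈ B
  cB : c ∈ B
  bb : b * b = z
  cc : c * c = z
  cb : c * b = b * c * z
  gen : ∀ x ∈ B, x ∈ A ∨ ∃ a ∈ A, x = b * a ∨ x = c * a ∨ x = b * c * a
  cen : ∀ x, (∀ y ∈ B, x * y = y * x) → x ∈ A

theorem mem_zp {a z : G} (hz : z * z = 1) (h : a ∈ Subgroup.zpowers z) : a = 1 ∨ a = z := by
  obtain ⟨n, rfl⟩ := Subgroup.mem_zpowers_iff.1 h
  have hz2 : z ^ (2 : ℤ) = 1 := by rw [zpow_ofNat, pow_two]; exact hz
  rcases Int.even_or_odd n with ⟨k, rfl⟩ | ⟨k, rfl⟩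
  · left
    rw [← two_mul, zpow_mul, hz2, one_zpow]
  · right
    rw [zpow_add, zpow_mul, hz2, one_zpow, one_mul, zpow_one]

/-- commuting elements with square `z` -/
theorem mul_mem_of {x y z : G} (h : GT G) (hz : z * z = 1) (hz1 : z ≠ 1) (hxy : x * y = y * x) (hx : x * x = z)
    (hy : y * y = z) : x * y = 1 ∨ x * y = z := by
  apply mem_zp hz
  apply h.uniq 2 Nat.prime_two (x * y) z
  · calc x * y * z = x * y * (x * x) := by rw [hx]
      _ = x * (y * x) * x := by group
      _ = x * (x * y) * x := by rw [hxy]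
      _ = (x * x) * (y * x) := by group
      _ = z * (x * y) := by rw [hx, hxy]
  · rw [pow_two]
    calc x * y * (x * y) = x * (y * x) * y := by group
      _ = x * (x * y) * y := by rw [hxy]
      _ = (x * x) * (y * y) := by group
      _ = 1 := by rw [hx, hy, hz]
  · rw [pow_two]; exact hz
  · exact hz1

theorem exists_str [Finite G] (hsol : Group.IsSolvable G) (h : GT G) (hA : MaxAb A)
    (hC : ¬ Subgroup.centralizer (A : Set G) ≤ A) : ∃ (B : Subgroup G) (z b c : G), Str A B z b c := by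
  classical
  have hAn := hA.normal
  have hAC : A ≤ Subgroup.centralizer (A : Set G) := fun a ha =>
    Subgroup.mem_centralizer_iff.2 fun x hx => hA.ab x hx a ha
  obtain ⟨B, p, hp, hBn, hAB, hBC, hBA, hpow, hcomm⟩ := exists_step hsol hA (N := Subgroup.centralizer (A : Set G))
    inferInstance hAC le_rfl hC
  obtain ⟨rfl, z, hzA, hz1, hzz, ⟨x0, hx0, hx0A, hx0z⟩, b0, hb0, c0, hc0, hbc0⟩ :=
    key h hA hp hBn hAB hBC hBA hpow hcomm
  have hcen : ∀ x ∈ B, ∀ a ∈ A, a * x = x * a := fun x hx a ha => Subgroup.mem_centralizer_iff.1 (hBC hx) a ha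
  have hzu : ∀ a ∈ A, a * a = 1 → a = 1 ∨ a = z := fun a ha haa =>
    mem_zp hzz (h.uniq 2 Nat.prime_two a z (hA.ab a ha z hzA) (by rw [pow_two]; exact haa) (by rw [pow_two]; exact hzz)
      hz1)
  have hz01 : ∀ y : G, y = 1 ∨ y = z → y ∈ A := by
    rintro y (rfl | rfl)
    · exact A.one_mem
    · exact hzA
  have hno4 : ∀ a ∈ A, a * a ≠ z := by
    intro a ha haz
    have h1 := hz01 _ (mul_mem_of h hzz hz1 (hcen x0 hx0 a ha).symm hx0z haz)
    exact hx0A ((A.mul_mem_cancel_right ha).1 h1)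
  -- squares in `A`
  obtain ⟨⟨g, hg⟩, hgen⟩ := (h.cyc A hA.normal hA.ab).exists_generator
  have hgen' : ∀ a ∈ A, ∃ s : ℤ, a = g ^ s := by
    intro a ha
    obtain ⟨s, hs⟩ := hgen ⟨a, ha⟩
    exact ⟨s, (congrArg Subtype.val hs).symm⟩
  have hgA : ∀ r : ℤ, g ^ r ∈ A := fun r => A.zpow_mem hg r
  have hsq : ∀ α ∈ A, ∃ a ∈ A, α = a * a ∨ α = z * (a * a) := by
    intro α hα
    obtain ⟨s, rfl⟩ := hgen' α hα
    obtain ⟨t, ht⟩ := hgen' z hzA
    rcases Int.even_or_odd s with ⟨k, rfl⟩ | ⟨k, hk⟩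
    · exact ⟨g ^ k, hgA k, Or.inl (by rw [← zpow_add])⟩
    · rcases Int.even_or_odd t with ⟨l, rfl⟩ | ⟨l, hl⟩
      · exfalso
        exact hno4 _ (hgA l) (by rw [ht, ← zpow_add])
      · refine ⟨g ^ (k - l), hgA _, Or.inr ?_⟩
        rw [ht, ← zpow_add, ← zpow_add]
        congr 1
        rw [hk, hl]; ring
  have hsqB : ∀ y ∈ B, y ∉ A → ∃ a ∈ A, (y * a) * (y * a) = z := by
    intro y hy hyA
    have hyy : y * y ∈ A := by rw [← pow_two]; exact hpow y hy
    obtain ⟨a, ha, hya⟩ := hsq _ hyy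
    have h1 : ∀ a ∈ A, (y * a) * (y * a) = (y * y) * (a * a) := by
      intro a ha
      calc (y * a) * (y * a) = y * (a * y) * a := by group
        _ = y * (y * a) * a := by rw [hcen y hy a ha]
        _ = (y * y) * (a * a) := by group
    refine ⟨a⁻¹, A.inv_mem ha, ?_⟩
    rw [h1 _ (A.inv_mem ha)]
    rcases hya with h2 | h2
    · exfalso
      have h3 : (y * a⁻¹) * (y * a⁻¹) = 1 := by
        rw [h1 _ (A.inv_mem ha), h2]; group
      have h4 : y * a⁻¹ ∈ Subgroup.zpowers z :=
        h.uniq 2 Nat.prime_two (y * a⁻¹) z (hcen _ (B.mul_mem hy (hAB (A.inv_mem ha))) z hzA).symm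
          (by rw [pow_two]; exact h3) (by rw [pow_two]; exact hzz) hz1
      have h5 := hz01 _ (mem_zp hzz h4)
      exact hyA ((A.mul_mem_cancel_right (A.inv_mem ha)).1 h5)
    · rw [h2]; group
  -- the elements `b`, `c`
  have hb0A : b0 ∉ A := fun h1 => hbc0 (hcen c0 hc0 b0 h1).symm
  have hc0A : c0 ∉ A := fun h1 => hbc0 (hcen b0 hb0 c0 h1)
  obtain ⟨a1, ha1, hb1⟩ := hsqB b0 hb0 hb0A
  obtain ⟨a2, ha2, hc1⟩ := hsqB c0 hc0 hc0A
  set b := b0 * a1 with hb
  set c := c0 * a2 with hc
  have hbB : b ∈ B := B.mul_mem hb0 (hAB ha1)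
  have hcB : c ∈ B := B.mul_mem hc0 (hAB ha2)
  have hbc : c * b ≠ b * c := by
    intro h1
    apply hbc0
    have e1 := hcen c0 hc0 a1 ha1
    have e2 := hcen b0 hb0 a2 ha2
    have e3 := hA.ab a1 ha1 a2 ha2
    have h2 : c0 * b0 * (a1 * a2) = b0 * c0 * (a1 * a2) := by
      calc c0 * b0 * (a1 * a2) = c0 * b0 * (a2 * a1) := by rw [e3]
        _ = c0 * (b0 * a2) * a1 := by group
        _ = (c0 * a2) * (b0 * a1) := by rw [← e2]; group
        _ = (b0 * a1) * (c0 * a2) := h1
        _ = b0 * (a1 * c0) * a2 := by group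
        _ = b0 * c0 * (a1 * a2) := by rw [e1]; group
    exact mul_right_cancel h2
  have hcb : c * b = b * c * z := by
    obtain ⟨w, hw, hcbw⟩ := hcomm b hbB c hcB
    have h1 := comm_pow_right hcbw (hcen b hbB w hw) 2
    rw [pow_two, hb1, hcen c hcB z hzA] at h1
    have h2 : w ^ 2 = 1 := (mul_eq_left.1 h1.symm)
    rw [pow_two] at h2
    rcases hzu w hw h2 with h3 | h3
    · exfalso
      rw [h3, mul_one] at hcbw
      exact hbc hcbw
    · rw [hcbw, h3]
  have hbA : b ∉ A := fun h1 => hbc (hcen c hcB b h1).symm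
  have hbz : b⁻¹ = b * z := by
    rw [inv_eq_iff_mul_eq_one]
    calc b * (b * z) = (b * b) * z := by group
      _ = 1 := by rw [hb1, hzz]
  have hcz : c⁻¹ = c * z := by
    rw [inv_eq_iff_mul_eq_one]
    calc c * (c * z) = (c * c) * z := by group
      _ = 1 := by rw [hc1, hzz]
  have hbz' : z * b = b * z := hcen b hbB z hzA
  have hcz' : z * c = c * z := hcen c hcB z hzA
  -- an element in `b⁻¹ {1, z}` does not commute with `c`
  have hnc : ∀ x : G, x * b = 1 ∨ x * b = z → x * c = c * x → False := by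
    intro x hx hxc
    apply hbc
    have h1 : ∃ y, (y * c = c * y) ∧ x = y * b⁻¹ := by
      rcases hx with h2 | h2
      · exact ⟨1, by rw [one_mul, mul_one], by rw [one_mul, eq_inv_of_mul_eq_one_left h2]⟩
      · exact ⟨z, hcz', by rw [← h2]; group⟩
    obtain ⟨y, hy, rfl⟩ := h1
    have h2 : y * (b⁻¹ * c) = y * (c * b⁻¹) := by
      calc y * (b⁻¹ * c) = y * b⁻¹ * c := by group
        _ = (c * y) * b⁻¹ := by rw [hxc]; group
        _ = y * (c * b⁻¹) := by rw [← hy]; group
    have h3 := mul_left_cancel h2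
    calc c * b = b * (b⁻¹ * c) * b := by group
      _ = b * (c * b⁻¹) * b := by rw [h3]
      _ = b * c := by group
  -- (K)
  have hK : ∀ y ∈ B, y * b = b * y → y * c = c * y → y ∈ A := by
    intro y hy hyb hyc
    by_contra hyA
    obtain ⟨a, ha, hya⟩ := hsqB y hy hyA
    have e1 := hcen b hbB a ha
    have e2 := hcen c hcB a ha
    have h1 : (y * a) * b = b * (y * a) := by
      calc (y * a) * b = y * (a * b) := by group
        _ = (y * b) * a := by rw [e1]; group
        _ = b * (y * a) := by rw [hyb]; group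
    have h2 : (y * a) * c = c * (y * a) := by
      calc (y * a) * c = y * (a * c) := by group
        _ = (y * c) * a := by rw [e2]; group
        _ = c * (y * a) := by rw [hyc]; group
    exact hnc _ (mul_mem_of h hzz hz1 h1 hya hb1) h2
  have hcb' : b * c = c * b * z := by
    calc b * c = b * c * (z * z) := by rw [hzz, mul_one]
      _ = b * c * z * z := by group
      _ = c * b * z := by rw [← hcb]
  refine ⟨B, z, b, c, hBn, hAB, hBC, hzA, hz1, hzz, hzu, hno4, hbB, hcB, hb1, hc1, hcb, ?_, ?_⟩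
  · intro x hx
    -- commutators of `x`
    have hcomz : ∀ y ∈ B, y * y = z → x * y = y * x ∨ x * y = y * x * z := by
      intro y hy hyz
      obtain ⟨w, hw, hxy⟩ := hcomm y hy x hx
      have h1 := comm_pow_right hxy (hcen y hy w hw) 2
      rw [pow_two, hyz, hcen x hx z hzA] at h1
      have h2 : w ^ 2 = 1 := (mul_eq_left.1 h1.symm)
      rw [pow_two] at h2
      rcases hzu w hw h2 with h3 | h3
      · left; rw [hxy, h3, mul_one]
      · right; rw [hxy, h3]
    have hxz : z * x = x * z := hcen x hx z hzA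
    rcases hcomz b hbB hb1 with h1 | h1 <;> rcases hcomz c hcB hc1 with h2 | h2
    · exact Or.inl (hK x hx h1 h2)
    · right
      -- `x b ∈ A`
      have h3 : x * b ∈ A := by
        apply hK _ (B.mul_mem hx hbB)
        · calc x * b * b = (b * x) * b := by rw [h1]
            _ = b * (x * b) := by group
        · calc x * b * c = x * (c * b * z) := by rw [← hcb']; group
            _ = (x * c) * b * z := by group
            _ = c * x * (z * b) * z := by rw [h2]; group
            _ = c * x * b * (z * z) := by rw [hbz']; group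
            _ = c * (x * b) := by rw [hzz]; group
      refine ⟨x * b * z, A.mul_mem h3 hzA, Or.inl ?_⟩
      have h4 := hcen b hbB _ h3
      calc x = (x * b) * b⁻¹ := by group
        _ = (x * b) * (b * z) := by rw [hbz]
        _ = (x * b * b) * z := by group
        _ = b * (x * b * z) := by rw [h4]; group
    · right
      have h3 : x * c ∈ A := by
        apply hK _ (B.mul_mem hx hcB)
        · calc x * c * b = x * (b * c * z) := by rw [← hcb]; group
            _ = (x * b) * c * z := by group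
            _ = b * x * (z * c) * z := by rw [h1]; group
            _ = b * x * c * (z * z) := by rw [hcz']; group
            _ = b * (x * c) := by rw [hzz]; group
        · calc x * c * c = (c * x) * c := by rw [h2]
            _ = c * (x * c) := by group
      refine ⟨x * c * z, A.mul_mem h3 hzA, Or.inr (Or.inl ?_)⟩
      have h4 := hcen c hcB _ h3
      calc x = (x * c) * c⁻¹ := by group
        _ = (x * c) * (c * z) := by rw [hcz]
        _ = (x * c * c) * z := by group
        _ = c * (x * c * z) := by rw [h4]; group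
    · right
      have h3 : x * (c * b) ∈ A := by
        apply hK _ (B.mul_mem hx (B.mul_mem hcB hbB))
        · calc x * (c * b) * b = x * (b * c * z) * b := by rw [← hcb]
            _ = (x * b) * c * (z * b) := by group
            _ = b * x * (z * c) * (z * b) := by rw [h1]; group
            _ = b * x * c * (z * z) * b := by rw [hcz']; group
            _ = b * (x * (c * b)) := by rw [hzz]; group
        · calc x * (c * b) * c = (x * c) * (b * c) := by group
            _ = (c * x * z) * (c * b * z) := by rw [h2, hcb']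
            _ = c * x * (z * c) * b * z := by group
            _ = c * x * c * (z * b) * z := by rw [hcz']; group
            _ = c * x * c * b * (z * z) := by rw [hbz']; group
            _ = c * (x * (c * b)) := by rw [hzz]; group
      have h4 := hcen b hbB _ h3
      have h5 := hcen c hcB _ h3
      refine ⟨x * (c * b), h3, Or.inr (Or.inr ?_)⟩
      calc x = (x * (c * b)) * (b⁻¹ * c⁻¹) := by group
        _ = (x * (c * b)) * (b * z * (c * z)) := by rw [hbz, hcz]
        _ = (x * (c * b)) * (b * (z * c) * z) := by group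
        _ = (x * (c * b)) * (b * c * (z * z)) := by rw [hcz']; group
        _ = (x * (c * b) * b) * c := by rw [hzz]; group
        _ = b * (x * (c * b) * c) := by rw [h4]; group
        _ = b * c * (x * (c * b)) := by rw [h5]; group
  · intro x hx
    by_contra hxA
    have hDn : (Subgroup.centralizer (B : Set G)).Normal := inferInstance
    have hxD : x ∈ Subgroup.centralizer (B : Set G) := Subgroup.mem_centralizer_iff.2 fun y hy => (hx y hy).symm
    have hAD : A ≤ Subgroup.centralizer (B : Set G) := fun a ha =>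
      Subgroup.mem_centralizer_iff.2 fun y hy => (hcen y hy a ha).symm
    have hDC : Subgroup.centralizer (B : Set G) ≤ Subgroup.centralizer (A : Set G) :=
      Subgroup.centralizer_le hAB
    obtain ⟨B', p', hp', hBn', hAB', hBD', hBA', hpow', hcomm'⟩ := exists_step hsol hA hDn hAD hDC
      (fun h1 => hxA (h1 hxD))
    obtain ⟨rfl, w, hwA, hw1, hww, ⟨y, hy, hyA, hyw⟩, -⟩ :=
      key h hA hp' hBn' hAB' (hBD'.trans hDC) hBA' hpow' hcomm'
    have hwz : w = z := (hzu w hwA hww).resolve_left hw1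
    have hyD := Subgroup.mem_centralizer_iff.1 (hBD' hy)
    have h1 : y * b = b * y := (hyD b hbB).symm
    have h2 : y * c = c * y := (hyD c hcB).symm
    exact hnc y (mul_mem_of h hzz hz1 h1 (hyw.trans hwz) hb1) h2

end Cfsg.Agent.H349.RegStr
end

-- part: H349/RegQuot
section
/-!
# The quotient of `C_G(A)` by `B` embeds in `S_3` (helper349)
-/

set_option autoImplicit false

namespace Cfsg.Agent.H349.RegQuot

open Cfsg.Agent.H349.RegGrp Cfsg.Agent.H349.RegStr

variable {G : Type*} [Group G] {A B : Subgroup G} {z b c : G}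

section

theorem bA (hS : Str A B z b c) : b ∉ A := fun h => hS.no4 b h hS.bb

theorem cA (hS : Str A B z b c) : c ∉ A := fun h => hS.no4 c h hS.cc

theorem comm_of (hS : Str A B z b c) {x : G} (hx : x ∈ B) {a : G} (ha : a ∈ A) : a * x = x * a :=
  Subgroup.mem_centralizer_iff.1 (hS.BC hx) a ha

theorem bcbc (hS : Str A B z b c) : b * c * (b * c) = z := by
  calc b * c * (b * c) = b * (c * b) * c := by group
    _ = (b * b) * c * (z * c) := by rw [hS.cb]; group
    _ = z * c * (c * z) := by rw [hS.bb, comm_of hS hS.cB hS.zA]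
    _ = z * (c * c) * z := by group
    _ = z := by rw [hS.cc, hS.zz, one_mul]

theorem bcA (hS : Str A B z b c) : b * c ∉ A := fun h => hS.no4 _ h (bcbc hS)

theorem cb_ne (hS : Str A B z b c) : c * b ≠ b * c := by
  intro h
  have h1 := hS.cb
  rw [h] at h1
  exact hS.z1 (mul_eq_left.1 h1.symm)

/-- the three non-trivial cosets -/
def X3 (A : Subgroup G) [A.Normal] (b c : G) : Set (G ⧸ A) :=
  {(b : G ⧸ A), (c : G ⧸ A), ((b * c : G) : G ⧸ A)}

variable [hAn : A.Normal]

theorem mem_X3 (hS : Str A B z b c) (x : G ⧸ A) :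
    x ∈ X3 A b c ↔ ∃ y ∈ B, y ∉ A ∧ (y : G ⧸ A) = x := by
  constructor
  · rintro (rfl | rfl | rfl)
    · exact ⟨b, hS.bB, bA hS, rfl⟩
    · exact ⟨c, hS.cB, cA hS, rfl⟩
    · exact ⟨b * c, B.mul_mem hS.bB hS.cB, bcA hS, rfl⟩
  · rintro ⟨y, hy, hyA, rfl⟩
    rcases hS.gen y hy with h1 | ⟨a, ha, h1⟩
    · exact absurd h1 hyA
    · have h2 : ∀ x : G, ((x * a : G) : G ⧸ A) = (x : G ⧸ A) := by
        intro x
        rw [QuotientGroup.mk_mul, (QuotientGroup.eq_one_iff a).2 ha, mul_one]
      rcases h1 with rfl | rfl | rfl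
      · left; exact h2 b
      · right; left; exact h2 c
      · right; right; exact h2 (b * c)

theorem conj_mem (hS : Str A B z b c) (g : G) {x : G ⧸ A} (hx : x ∈ X3 A b c) :
    (g : G ⧸ A) * x * (g : G ⧸ A)⁻¹ ∈ X3 A b c := by
  rw [mem_X3 hS] at hx ⊢
  obtain ⟨y, hy, hyA, rfl⟩ := hx
  refine ⟨g * y * g⁻¹, hS.Bn.conj_mem y hy g, ?_, ?_⟩
  · intro h1
    apply hyA
    have h2 := hAn.conj_mem _ h1 g⁻¹
    have h3 : g⁻¹ * (g * y * g⁻¹) * g⁻¹⁻¹ = y := by group
    rwa [h3] at h2
  · rfl

/-- the conjugation action on the three cosets -/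
def conjPerm (hS : Str A B z b c) : G →* Equiv.Perm (X3 A b c) :=
  MonoidHom.mk' (fun g =>
    { toFun := fun x => ⟨(g : G ⧸ A) * x.1 * (g : G ⧸ A)⁻¹, conj_mem hS g x.2⟩
      invFun := fun x => ⟨((g⁻¹ : G) : G ⧸ A) * x.1 * ((g⁻¹ : G) : G ⧸ A)⁻¹, conj_mem hS g⁻¹ x.2⟩
      left_inv := fun x => by
        apply Subtype.ext
        simp only [QuotientGroup.mk_inv]
        group
      right_inv := fun x => by
        apply Subtype.ext
        simp only [QuotientGroup.mk_inv]
        group })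
    (fun g k => by
      ext x
      simp only [Equiv.coe_fn_mk, Equiv.Perm.coe_mul, Function.comp, QuotientGroup.mk_mul]
      group)

theorem conjPerm_apply (hS : Str A B z b c) (g : G) (x : X3 A b c) :
    ((conjPerm hS g x : X3 A b c) : G ⧸ A) = (g : G ⧸ A) * x.1 * (g : G ⧸ A)⁻¹ := rfl

theorem ncard_X3 (hS : Str A B z b c) : (X3 A b c).ncard = 3 := by
  rw [Set.ncard_eq_three]
  refine ⟨_, _, _, ?_, ?_, ?_, rfl⟩
  · intro h1
    rw [QuotientGroup.eq] at h1
    apply cb_ne hS
    have h2 := comm_of hS hS.bB h1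
    calc c * b = b * ((b⁻¹ * c) * b) := by group
      _ = b * (b * (b⁻¹ * c)) := by rw [h2]
      _ = b * c := by group
  · intro h1
    rw [QuotientGroup.eq] at h1
    have h2 : b⁻¹ * (b * c) = c := by group
    rw [h2] at h1
    exact cA hS h1
  · intro h1
    rw [QuotientGroup.eq] at h1
    have h2 := hAn.conj_mem _ h1 c
    have h3 : c * (c⁻¹ * (b * c)) * c⁻¹ = b := by group
    rw [h3] at h2
    exact bA hS h2

theorem one_notMem_X3 (hS : Str A B z b c) : (1 : G ⧸ A) ∉ X3 A b c := by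
  intro h1
  obtain ⟨y, -, hyA, hy⟩ := (mem_X3 hS 1).1 h1
  exact hyA ((QuotientGroup.eq_one_iff y).1 hy)

theorem card_B (hS : Str A B z b c) : Nat.card B = 4 * Nat.card A := by
  have h1 := ((QuotientGroup.mk' A).comp B.subtype).ker.index_mul_card
  rw [Subgroup.index_ker] at h1
  have h2 : ((QuotientGroup.mk' A).comp B.subtype).ker = A.subgroupOf B := by
    ext x
    rw [MonoidHom.mem_ker, Subgroup.mem_subgroupOf]
    exact QuotientGroup.eq_one_iff x.1
  have h3 : Nat.card (A.subgroupOf B) = Nat.card A := Nat.card_congr (Subgroup.subgroupOfEquivOfLe hS.AB).toEquiv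
  have h4 : ((((QuotientGroup.mk' A).comp B.subtype).range : Subgroup (G ⧸ A)) : Set (G ⧸ A)) =
      insert 1 (X3 A b c) := by
    ext x
    rw [SetLike.mem_coe, Set.mem_insert_iff, mem_X3 hS]
    constructor
    · rintro ⟨y, rfl⟩
      by_cases hy : y.1 ∈ A
      · left
        exact (QuotientGroup.eq_one_iff y.1).2 hy
      · right
        exact ⟨y.1, y.2, hy, rfl⟩
    · rintro (rfl | ⟨y, hy, -, rfl⟩)
      · exact one_mem _
      · exact ⟨⟨y, hy⟩, rfl⟩
  have h5 : Nat.card ((QuotientGroup.mk' A).comp B.subtype).range = 4 := by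
    have h6 : Nat.card ((QuotientGroup.mk' A).comp B.subtype).range =
      ((((QuotientGroup.mk' A).comp B.subtype).range : Subgroup (G ⧸ A)) : Set (G ⧸ A)).ncard := rfl
    rw [h6, h4, Set.ncard_insert_of_notMem (one_notMem_X3 hS) (Set.finite_of_ncard_ne_zero (by rw [ncard_X3 hS]; norm_num)),
      ncard_X3 hS]
  rw [h2, h3, h5] at h1
  exact h1.symm

/-- elements of `C_G(A)` acting trivially on the three cosets -/
theorem mem_B_of (hS : Str A B z b c) {g : G} (hg : g ∈ Subgroup.centralizer (A : Set G))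
    (hb : (g : G ⧸ A) * (b : G ⧸ A) * (g : G ⧸ A)⁻¹ = b) (hc : (g : G ⧸ A) * (c : G ⧸ A) * (g : G ⧸ A)⁻¹ = c) :
    g ∈ B := by
  have hgA : ∀ a ∈ A, a * g = g * a := fun a ha => Subgroup.mem_centralizer_iff.1 hg a ha
  have hz : z ∈ A := hS.zA
  -- the general statement on `y = b, c`
  have hy : ∀ y ∈ B, y * y = z → (g : G ⧸ A) * (y : G ⧸ A) * (g : G ⧸ A)⁻¹ = y →
      g * y = y * g ∨ g * y = y * g * z := by
    intro y hy hyy h1
    have h2 : ((y : G) : G ⧸ A) = ((g * y * g⁻¹ : G) : G ⧸ A) := by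
      rw [QuotientGroup.mk_mul, QuotientGroup.mk_mul, QuotientGroup.mk_inv, h1]
    rw [QuotientGroup.eq] at h2
    set a := y⁻¹ * (g * y * g⁻¹) with ha
    have h3 : g * y = y * g * a := by
      calc g * y = y * (y⁻¹ * (g * y * g⁻¹)) * g := by group
        _ = y * (a * g) := by rw [← ha]; group
        _ = y * g * a := by rw [hgA a h2]; group
    have h4 := comm_pow_right h3 (comm_of hS hy h2) 2
    rw [pow_two, hyy, ← hgA z hz] at h4
    have h5 : a ^ 2 = 1 := mul_eq_left.1 h4.symm
    rw [pow_two] at h5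
    rcases hS.zu a h2 h5 with h6 | h6
    · left; rw [h3, h6, mul_one]
    · right; rw [h3, h6]
  -- elements commuting with `b`, `c`
  have hA : ∀ x : G, (∀ a ∈ A, a * x = x * a) → x * b = b * x → x * c = c * x → x ∈ A := by
    intro x hx hxb hxc
    apply hS.cen
    intro y hy
    rcases hS.gen y hy with h1 | ⟨a, ha, rfl | rfl | rfl⟩
    · exact (hx y h1).symm
    · calc x * (b * a) = (x * b) * a := by group
        _ = b * (x * a) := by rw [hxb]; group
        _ = b * a * x := by rw [← hx a ha]; group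
    · calc x * (c * a) = (x * c) * a := by group
        _ = c * (x * a) := by rw [hxc]; group
        _ = c * a * x := by rw [← hx a ha]; group
    · calc x * (b * c * a) = (x * b) * c * a := by group
        _ = b * (x * c) * a := by rw [hxb]; group
        _ = b * c * (x * a) := by rw [hxc]; group
        _ = b * c * a * x := by rw [← hx a ha]; group
  have hbz : z * b = b * z := comm_of hS hS.bB hz
  have hcz : z * c = c * z := comm_of hS hS.cB hz
  have hcb := hS.cb
  have hcb' : b * c = c * b * z := by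
    calc b * c = b * c * (z * z) := by rw [hS.zz, mul_one]
      _ = b * c * z * z := by group
      _ = c * b * z := by rw [← hcb]
  have hgz : z * g = g * z := hgA z hz
  have hmulA : ∀ y ∈ B, ∀ a ∈ A, a * (g * y) = (g * y) * a := by
    intro y hy a ha
    calc a * (g * y) = (a * g) * y := by group
      _ = g * (a * y) := by rw [hgA a ha]; group
      _ = (g * y) * a := by rw [comm_of hS hy ha]; group
  have hfin : ∀ y ∈ B, g * y ∈ A → g ∈ B := by
    intro y hy h1
    exact (B.mul_mem_cancel_right hy).1 (hS.AB h1)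
  rcases hy b hS.bB hS.bb hb with h1 | h1 <;> rcases hy c hS.cB hS.cc hc with h2 | h2
  · exact hS.AB (hA g hgA h1 h2)
  · apply hfin b hS.bB
    apply hA _ (hmulA b hS.bB)
    · calc g * b * b = (b * g) * b := by rw [h1]
        _ = b * (g * b) := by group
    · calc g * b * c = g * (c * b * z) := by rw [← hcb']; group
        _ = (g * c) * (b * z) := by group
        _ = c * g * (z * b) * z := by rw [h2]; group
        _ = c * (g * b) * (z * z) := by rw [hbz]; group
        _ = c * (g * b) := by rw [hS.zz, mul_one]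
  · apply hfin c hS.cB
    apply hA _ (hmulA c hS.cB)
    · calc g * c * b = g * (b * c * z) := by rw [← hcb]; group
        _ = (g * b) * (c * z) := by group
        _ = b * g * (z * c) * z := by rw [h1]; group
        _ = b * (g * c) * (z * z) := by rw [hcz]; group
        _ = b * (g * c) := by rw [hS.zz, mul_one]
    · calc g * c * c = (c * g) * c := by rw [h2]
        _ = c * (g * c) := by group
  · apply hfin (b * c) (B.mul_mem hS.bB hS.cB)
    apply hA _ (hmulA _ (B.mul_mem hS.bB hS.cB))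
    · calc g * (b * c) * b = (g * b) * (c * b) := by group
        _ = (b * g * z) * (b * c * z) := by rw [h1, hcb]
        _ = b * g * (z * b) * c * z := by group
        _ = b * g * b * (z * c) * z := by rw [hbz]; group
        _ = b * (g * (b * c)) * (z * z) := by rw [hcz]; group
        _ = b * (g * (b * c)) := by rw [hS.zz, mul_one]
    · calc g * (b * c) * c = g * (c * b * z) * c := by rw [← hcb']
        _ = (g * c) * b * (z * c) := by group
        _ = (c * g * z) * b * (c * z) := by rw [h2, hcz]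
        _ = c * g * (z * b) * c * z := by group
        _ = c * g * b * (z * c) * z := by rw [hbz]; group
        _ = c * (g * (b * c)) * (z * z) := by rw [hcz]; group
        _ = c * (g * (b * c)) := by rw [hS.zz, mul_one]

/-- elements of `B` act trivially -/
theorem conj_of_mem_B (hS : Str A B z b c) {g : G} (hg : g ∈ B) {x : G ⧸ A} (hx : x ∈ X3 A b c) :
    (g : G ⧸ A) * x * (g : G ⧸ A)⁻¹ = x := by
  have hcb : (c : G ⧸ A) * (b : G ⧸ A) = (b : G ⧸ A) * (c : G ⧸ A) := by
    rw [← QuotientGroup.mk_mul, ← QuotientGroup.mk_mul, hS.cb, QuotientGroup.mk_mul A (b * c) z,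
      (QuotientGroup.eq_one_iff z).2 hS.zA, mul_one]
  have hcom : ∀ x ∈ X3 A b c, ∀ y ∈ X3 A b c, x * y = y * x := by
    rintro x (rfl | rfl | rfl) y (rfl | rfl | rfl)
    · rfl
    · exact hcb.symm
    · rw [QuotientGroup.mk_mul, mul_assoc, hcb]
    · exact hcb
    · rfl
    · rw [QuotientGroup.mk_mul, ← mul_assoc, hcb]
    · rw [QuotientGroup.mk_mul, mul_assoc, hcb]
    · rw [QuotientGroup.mk_mul, ← mul_assoc, hcb]
    · rfl
  by_cases hgA : g ∈ A
  · rw [(QuotientGroup.eq_one_iff g).2 hgA]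
    simp
  · have h1 := hcom _ ((mem_X3 hS (g : G ⧸ A)).2 ⟨g, hg, hgA, rfl⟩) x hx
    rw [h1, mul_assoc, mul_inv_cancel, mul_one]

theorem card_data [Finite G] (hS : Str A B z b c) :
    ∃ s, s ∣ 6 ∧ Nat.card (Subgroup.centralizer (A : Set G)) = s * (4 * Nat.card A) ∧
      (2 ∣ s → ∃ N : Subgroup G, N.Normal ∧ N.index = 2) := by
  classical
  set C := Subgroup.centralizer (A : Set G) with hC
  set f := (conjPerm hS).comp C.subtype with hf
  have hker : f.ker = B.subgroupOf C := by
    ext g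
    rw [MonoidHom.mem_ker, Subgroup.mem_subgroupOf]
    constructor
    · intro h1
      apply mem_B_of hS g.2
      · have h2 := conjPerm_apply hS g.1 ⟨(b : G ⧸ A), Or.inl rfl⟩
        have h3 : conjPerm hS g.1 = 1 := h1
        rw [h3] at h2
        exact h2.symm
      · have h2 := conjPerm_apply hS g.1 ⟨(c : G ⧸ A), Or.inr (Or.inl rfl)⟩
        have h3 : conjPerm hS g.1 = 1 := h1
        rw [h3] at h2
        exact h2.symm
    · intro h1
      apply Equiv.ext
      intro x
      apply Subtype.ext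
      exact conj_of_mem_B hS h1 x.2
  have h1 := f.ker.index_mul_card
  rw [Subgroup.index_ker, hker] at h1
  have h3 : Nat.card (B.subgroupOf C) = Nat.card B := Nat.card_congr (Subgroup.subgroupOfEquivOfLe hS.BC).toEquiv
  rw [h3, card_B hS] at h1
  have hX : Nat.card (X3 A b c) = 3 := ncard_X3 hS
  have hfin : Finite (X3 A b c) := Nat.finite_of_card_ne_zero (by rw [hX]; norm_num)
  have := Fintype.ofFinite (X3 A b c)
  have hP : Nat.card (Equiv.Perm (X3 A b c)) = 6 := by
    rw [Nat.card_perm, hX]; rfl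
  refine ⟨Nat.card f.range, ?_, h1.symm, ?_⟩
  · rw [← hP]
    exact Subgroup.card_subgroup_dvd_card _
  · intro hs
    by_cases hsg : ∀ g : G, Equiv.Perm.sign (conjPerm hS g) = 1
    · exfalso
      have h4 : f.range ≤ alternatingGroup (X3 A b c) := by
        rintro _ ⟨g, rfl⟩
        exact Equiv.Perm.mem_alternatingGroup.2 (hsg g.1)
      have h5 := Subgroup.card_dvd_of_le h4
      have : Nontrivial (X3 A b c) := by
        rw [← Fintype.one_lt_card_iff_nontrivial, ← Nat.card_eq_fintype_card, hX]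
        norm_num
      have h6 : 2 * Nat.card (alternatingGroup (X3 A b c)) = Nat.card (Equiv.Perm (X3 A b c)) :=
        two_mul_nat_card_alternatingGroup
      rw [hP] at h6
      have h7 : Nat.card (alternatingGroup (X3 A b c)) = 3 := by omega
      rw [h7] at h5
      have h8 := hs.trans h5
      omega
    · push Not at hsg
      obtain ⟨g, hg⟩ := hsg
      refine ⟨(Equiv.Perm.sign.comp (conjPerm hS)).ker, inferInstance, ?_⟩
      rw [Subgroup.index_ker]
      have h4 : (Equiv.Perm.sign.comp (conjPerm hS)).range = ⊤ := by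
        rw [eq_top_iff]
        intro u _
        rcases Int.units_eq_one_or u with rfl | rfl
        · exact one_mem _
        · exact ⟨g, (Int.units_eq_one_or _).resolve_left hg⟩
      rw [h4]
      rw [Nat.card_congr (Subgroup.topEquiv).toEquiv, Nat.card_eq_fintype_card]
      rfl

end

end Cfsg.Agent.H349.RegQuot
end

-- part: H349/RegSL
section
/-!
# `SL(2, 3)` times a cyclic group (helper349)
-/

set_option autoImplicit false

namespace Cfsg.Agent.H349.RegSL

open Cfsg.Agent.H349.RegGrp Cfsg.Agent.H349.RegStr Cfsg.Agent.H349.RegQuot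

variable {G : Type*} [Group G] {A B : Subgroup G} {z b c : G}

theorem sl_prod [Finite G] (h : GT G) (hA : MaxAb A) (hS : Str A B z b c) {r : ℕ} (hr : Nat.Coprime r 24)
    (hcA : Nat.card A = 2 * r) (hcG : Nat.card G = 24 * r) (hC : Subgroup.centralizer (A : Set G) = ⊤) :
    ∃ K : Subgroup G, Nat.card K = r ∧
      Nonempty (G ≃* Matrix.SpecialLinearGroup (Fin 2) (ZMod 3) × K) := by
  classical
  have hAn := hA.normal
  have hBn := hS.Bn
  have hr0 : 0 < r := by
    rcases Nat.eq_zero_or_pos r with h0 | h0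
    · have := Nat.card_pos (α := A)
      omega
    · exact h0
  have hcen : ∀ a ∈ A, ∀ x : G, a * x = x * a := fun a ha x =>
    Subgroup.mem_centralizer_iff.1 (by rw [hC]; exact Subgroup.mem_top x) a ha
  obtain ⟨⟨g, hg⟩, hgen⟩ := (h.cyc A hA.normal hA.ab).exists_generator
  have hog : orderOf g = 2 * r := by
    have h1 := orderOf_eq_card_of_forall_mem_zpowers hgen
    rw [Subgroup.orderOf_mk, hcA] at h1
    exact h1
  set K := Subgroup.zpowers (g ^ 2) with hK
  have hKA : K ≤ A := by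
    rw [hK, Subgroup.zpowers_le]
    exact A.pow_mem hg 2
  have hKr : Nat.card K = r := by
    rw [hK, Nat.card_zpowers, orderOf_pow_of_dvd (by norm_num) ⟨r, hog⟩, hog]
    exact Nat.mul_div_cancel_left r (by norm_num)
  have hKn : K.Normal := ⟨fun k hk x => by rw [← hcen k (hKA hk) x, mul_assoc, mul_inv_cancel, mul_one]; exact hk⟩
  have hKi : K.index = 24 := by
    have h1 := K.card_mul_index
    rw [hKr, hcG, mul_comm 24] at h1
    exact Nat.eq_of_mul_eq_mul_left hr0 h1
  obtain ⟨X, hX⟩ := Subgroup.exists_right_complement'_of_coprime (N := K) (by rw [hKr, hKi]; exact hr)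
  have hXc : Nat.card X = 24 := by
    have h1 := hX.card_mul_card
    rw [hKr, hcG, mul_comm 24] at h1
    exact Nat.eq_of_mul_eq_mul_left hr0 h1
  have hdis : Disjoint K X := hX.disjoint
  -- the product decomposition
  have hcomm : ∀ (m : X) (n : K), Commute (X.subtype m) (K.subtype n) := fun m n => (hcen n.1 (hKA n.2) m.1).symm
  have hbij : Function.Bijective (X.subtype.noncommCoprod K.subtype hcomm) := by
    constructor
    · rw [injective_iff_map_eq_one]
      rintro ⟨x, k⟩ hxk
      rw [MonoidHom.noncommCoprod_apply] at hxk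
      have h1 : (x : G) * (k : G) = 1 := hxk
      have h2 : (x : G) = (k : G)⁻¹ := eq_inv_of_mul_eq_one_left h1
      have h3 : (x : G) ∈ K ⊓ X := ⟨by rw [h2]; exact K.inv_mem k.2, x.2⟩
      rw [hdis.eq_bot, Subgroup.mem_bot] at h3
      have h4 : (k : G) = 1 := by rw [h3, one_mul] at h1; exact h1
      exact Prod.ext (Subtype.ext h3) (Subtype.ext h4)
    · intro x
      obtain ⟨⟨k, y⟩, hky⟩ := hX.surjective x
      refine ⟨⟨⟨y.1, y.2⟩, ⟨k.1, k.2⟩⟩, ?_⟩
      rw [MonoidHom.noncommCoprod_apply]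
      change (y : G) * (k : G) = x
      rw [← hcen k.1 (hKA k.2)]
      exact hky
  have e : X × K ≃* G := MulEquiv.ofBijective _ hbij
  -- elements of order dividing 4 are in `X`
  have hmem4 : ∀ x : G, x ^ 4 = 1 → x ∈ X := by
    intro x hx
    obtain ⟨⟨k, y⟩, hky⟩ := hX.surjective x
    have hky' : (k : G) * (y : G) = x := hky
    have h1 : Commute (k : G) (y : G) := hcen k.1 (hKA k.2) y.1
    have h2 : (k : G) ^ 4 * (y : G) ^ 4 = 1 := by rw [← h1.mul_pow, hky', hx]
    have h3 : (k : G) ^ 4 ∈ K ⊓ X := by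
      refine ⟨K.pow_mem k.2 4, ?_⟩
      rw [eq_inv_of_mul_eq_one_left h2]
      exact X.inv_mem (X.pow_mem y.2 4)
    rw [hdis.eq_bot, Subgroup.mem_bot] at h3
    have h4 : (k : G) ^ r = 1 := by
      have h5 : k ^ r = 1 := by rw [← hKr]; exact pow_card_eq_one'
      exact congrArg Subtype.val h5
    have h5 := Nat.dvd_gcd (orderOf_dvd_of_pow_eq_one h3) (orderOf_dvd_of_pow_eq_one h4)
    have h6 : Nat.gcd 4 r = 1 := by
      have h7 : Nat.Coprime r 4 := Nat.Coprime.coprime_dvd_right (by norm_num) hr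
      exact h7.symm
    rw [h6] at h5
    have h7 := orderOf_eq_one_iff.1 (Nat.dvd_one.1 h5)
    rw [← hky', h7, one_mul]
    exact y.2
  have hb4 : b ^ 4 = 1 := by
    calc b ^ 4 = (b * b) * (b * b) := by simp only [pow_succ, pow_zero, one_mul, mul_assoc]
      _ = 1 := by rw [hS.bb, hS.zz]
  have hc4 : c ^ 4 = 1 := by
    calc c ^ 4 = (c * c) * (c * c) := by simp only [pow_succ, pow_zero, one_mul, mul_assoc]
      _ = 1 := by rw [hS.cc, hS.zz]
  have hbX := hmem4 b hb4
  have hcX := hmem4 c hc4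
  have hbz : b⁻¹ = b * z := by
    rw [inv_eq_iff_mul_eq_one]
    calc b * (b * z) = (b * b) * z := by group
      _ = 1 := by rw [hS.bb, hS.zz]
  -- the quaternion subgroup
  have hBc : Nat.card B = 8 * r := by rw [card_B hS, hcA]; ring
  have hBi : B.index = 3 := by
    have h1 := B.card_mul_index
    rw [hBc, hcG] at h1
    have h2 : 8 * r * B.index = 8 * r * 3 := by rw [h1]; ring
    exact Nat.eq_of_mul_eq_mul_left (by omega) h2
  have hQc : Nat.card (B.subgroupOf X) = 8 := by
    have h1 := (B.subgroupOf X).card_mul_index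
    have h2 : (B.subgroupOf X).index = B.relIndex X := rfl
    have h3 : X ⊔ B = ⊤ := by
      rw [eq_top_iff, ← hX.sup_eq_top]
      exact sup_le ((hKA.trans hS.AB).trans le_sup_right) le_sup_left
    rw [h2, ← Subgroup.relIndex_sup_right X B, h3, Subgroup.relIndex_top_right, hBi, hXc] at h1
    omega
  have hQn : (B.subgroupOf X).Normal := inferInstance
  let b' : B.subgroupOf X := ⟨⟨b, hbX⟩, hS.bB⟩
  let c' : B.subgroupOf X := ⟨⟨c, hcX⟩, hS.cB⟩
  have hext : ∀ x y : B.subgroupOf X, ((x : X) : G) = ((y : X) : G) → x = y := fun x y hxy =>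
    Subtype.ext (Subtype.ext hxy)
  have hob : orderOf b' = 2 * 2 := by
    have : Fact (Nat.Prime 2) := ⟨Nat.prime_two⟩
    have h1 : orderOf b' = 2 ^ (1 + 1) := by
      apply orderOf_eq_prime_pow
      · intro h1
        have h2 : b ^ 2 ^ 1 = 1 := congrArg (fun x : B.subgroupOf X => ((x : X) : G)) h1
        rw [pow_one, pow_two, hS.bb] at h2
        exact hS.z1 h2
      · apply hext
        exact hb4
    rw [h1]
    norm_num
  have hquat : Nonempty (B.subgroupOf X ≃* QuaternionGroup 2) := by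
    apply Cfsg.Agent.Lib.DihedralRecog.quaternion_of_generators (by norm_num) b' c' hob
    · apply hext
      change c * c = b ^ 2
      rw [hS.cc, pow_two, hS.bb]
    · apply hext
      change c * b * c⁻¹ = b⁻¹
      rw [hS.cb, hbz]
      calc b * c * z * c⁻¹ = b * (c * z) * c⁻¹ := by group
        _ = b * (z * c) * c⁻¹ := by rw [comm_of hS hS.cB hS.zA]
        _ = b * z := by group
    · intro h1
      obtain ⟨n, hn⟩ := Subgroup.mem_zpowers_iff.1 h1
      have h2 : b ^ n = c := congrArg (fun x : B.subgroupOf X => ((x : X) : G)) hn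
      apply cb_ne hS
      rw [← h2]
      exact ((Commute.refl b).zpow_left n).eq
    · rw [hQc]
  -- an element of order three
  have : Fact (Nat.Prime 3) := ⟨Nat.prime_three⟩
  obtain ⟨t, ht⟩ := exists_prime_orderOf_dvd_card' (G := X) 3 (by rw [hXc]; norm_num)
  have htc : t ∉ Subgroup.centralizer (B.subgroupOf X : Set X) := by
    intro h1
    rw [Subgroup.mem_centralizer_iff] at h1
    have h2 : b * t = t * b := congrArg Subtype.val (h1 ⟨b, hbX⟩ hS.bB)
    have h3 : c * t = t * c := congrArg Subtype.val (h1 ⟨c, hcX⟩ hS.cB)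
    have h4 : (t : G) ∈ A := by
      apply hS.cen
      intro y hy
      rcases hS.gen y hy with h5 | ⟨a, ha, rfl | rfl | rfl⟩
      · exact (hcen y h5 _).symm
      · calc (t : G) * (b * a) = (t * b) * a := by group
          _ = b * (t * a) := by rw [← h2]; group
          _ = b * a * t := by rw [← hcen a ha]; group
      · calc (t : G) * (c * a) = (t * c) * a := by group
          _ = c * (t * a) := by rw [← h3]; group
          _ = c * a * t := by rw [← hcen a ha]; group
      · calc (t : G) * (b * c * a) = (t * b) * c * a := by group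
          _ = b * (t * c) * a := by rw [← h2]; group
          _ = b * c * (t * a) := by rw [← h3]; group
          _ = b * c * a * t := by rw [← hcen a ha]; group
    have h5 : orderOf (⟨(t : G), h4⟩ : A) ∣ Nat.card A := orderOf_dvd_natCard _
    rw [Subgroup.orderOf_mk, Subgroup.orderOf_coe, ht, hcA] at h5
    have h6 : Nat.Coprime 3 (2 * r) := by
      apply Nat.Coprime.mul_right (by norm_num)
      have h7 : Nat.Coprime r 3 := Nat.Coprime.coprime_dvd_right (by norm_num) hr
      exact h7.symm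
    have h7 := Nat.dvd_gcd (dvd_refl 3) h5
    rw [h6] at h7
    omega
  obtain ⟨f⟩ := Cfsg.Agent.SylowG2Aux.SL23Card.nonempty_mulEquiv hXc (B.subgroupOf X) hquat t
    (by rw [ht]; decide) htc
  exact ⟨K, hKr, ⟨e.symm.trans (f.prodCongr (MulEquiv.refl K))⟩⟩

end Cfsg.Agent.H349.RegSL
end

-- part: S3361
section
set_option autoImplicit false
open Cfsg

namespace Cfsg.Agent.S3361

open Cfsg.Agent.H349.RegGrp Cfsg.Agent.H349.RegStr Cfsg.Agent.H349.RegQuot Cfsg.Agent.H349.RegNum
  Cfsg.Agent.H349.RegField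

theorem not_le {q m k : ℕ} (hq : 2 ≤ q) (hk : 2 ≤ k) (h : q ^ (m * k) - 1 ≤ m * (q ^ m - 1)) (hm : 1 ≤ m) : False := by
  have h1 : 1 < q ^ m := Nat.one_lt_pow (by omega) (by omega)
  have h2 : m < q ^ m := Nat.lt_pow_self (by omega)
  have h3 : (q ^ m) ^ 2 ≤ q ^ (m * k) := by
    rw [← pow_mul]
    exact Nat.pow_le_pow_right (by omega) (Nat.mul_le_mul_left m hk)
  obtain ⟨Q, hQ⟩ : ∃ Q, q ^ m = Q + 1 := ⟨q ^ m - 1, by omega⟩
  rw [hQ] at h1 h2 h3 h
  have h4 : Q + 1 - 1 = Q := by omega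
  rw [h4] at h
  have h5 : m * Q ≤ Q * Q := Nat.mul_le_mul_right Q (by omega)
  have h6 : (Q + 1) ^ 2 = Q * Q + 2 * Q + 1 := by ring
  omega

/-- Let q be a prime and V a non-trivial finite vector space over the field with q elements, and let G be a finite solvable group acting faithfully and linearly on V and regularly on the non-zero vectors (transitively, with only the identity fixing a non-zero vector). Then either V can be identified with the additive group of a finite field F so that every element of G acts as x ↦ a·σ(x) (a ∈ F, σ a field automorphism), or V has 5^2, 7^2, 11^2 or 23^2 elements. Moreover, if q ≠ 2 then G has a normal subgroup of index 2, except that when V has 25 elements G may be isomorphic to SL(2,3) and when V has 121 elements G may be isomorphic to SL(2,3) × C₅. -/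
theorem result
    (q : ℕ) [Fact q.Prime] {V : Type*} [AddCommGroup V] [Module (ZMod q) V] [Finite V] [Nontrivial V]
    {G : Type*} [Group G] [Finite G] (hsol : Group.IsSolvable G)
    (ρ : G →* (V ≃ₗ[ZMod q] V)) (hρ : Function.Injective ρ)
    (htrans : ∀ v w : V, v ≠ 0 → w ≠ 0 → ∃ g : G, ρ g v = w)
    (hreg : ∀ v : V, v ≠ 0 → ∀ g : G, ρ g v = v → g = 1) :
    ((∃ (F : Type) (_ : Field F) (_ : Fintype F) (e : V ≃+ F),
        ∀ g : G, ∃ (a : F) (σ : F ≃+* F), ∀ v : V, e (ρ g v) = a * σ (e v)) ∨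
      Nat.card V ∈ ({25, 49, 121, 529} : Set ℕ)) ∧
    (q ≠ 2 → (∃ N : Subgroup G, N.Normal ∧ N.index = 2) ∨
      (Nat.card V = 25 ∧ Nonempty (G ≃* Matrix.SpecialLinearGroup (Fin 2) (ZMod 3))) ∨
      (Nat.card V = 121 ∧ Nonempty (G ≃* Matrix.SpecialLinearGroup (Fin 2) (ZMod 3) × Multiplicative (ZMod 5)))) := by
  classical
  have hR : Reg ρ := ⟨htrans, hreg⟩
  have hGT : GT G := ⟨fun p hp u v huv hu hv hv1 => mem_zpowers hR hp huv hu hv hv1, fun A hA hab => by
    have := hA
    obtain ⟨m, k, -, -, -, hc, -⟩ := abel hR A hab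
    exact hc⟩
  obtain ⟨A, hA⟩ := exists_maxAb (G := G)
  have hAn := hA.normal
  have hcG := card_eq hR
  have hq : q.Prime := Fact.out
  have hq1 := hq.two_le
  obtain ⟨m, k, hm, hk, hV, hcyc, hAd, hCi, hk1⟩ := abel hR A hA.ab
  have hm0 : m ≠ 0 := by omega
  by_cases hk1' : k = 1
  · obtain ⟨hsemi, hC1, hC2⟩ := hk1 hk1'
    refine ⟨Or.inl hsemi, fun hq2 => Or.inl ?_⟩
    apply Cfsg.Agent.H349.RegIdx.of_cyclic (Subgroup.centralizer (A : Set G))
    have h1 : Odd q := hq.odd_of_ne_two hq2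
    have h2 : Odd (q ^ (m * k)) := h1.pow
    rw [← hV, ← hcG] at h2
    obtain ⟨j, hj⟩ := h2
    exact ⟨j, by omega⟩
  have hk2 : 2 ≤ k := by omega
  have hCc := (Subgroup.centralizer (A : Set G)).index_mul_card
  have hG1 : Nat.card G = q ^ (m * k) - 1 := by rw [← hV]; omega
  have hqm : 1 < q ^ m := Nat.one_lt_pow (by omega) (by omega)
  have hCA : ¬ Subgroup.centralizer (A : Set G) ≤ A := by
    intro hCA
    have h1 : Nat.card (Subgroup.centralizer (A : Set G)) ≤ q ^ m - 1 :=
      (Subgroup.card_le_of_le hCA).trans (Nat.le_of_dvd (by omega) hAd)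
    have h2 : (Subgroup.centralizer (A : Set G)).index ≤ m := Nat.le_of_dvd hm hCi
    have h3 := Nat.mul_le_mul h2 h1
    rw [hCc, hG1] at h3
    exact not_le hq1 hk2 h3 hm
  obtain ⟨B, z, b, c, hS⟩ := exists_str hsol hGT hA hCA
  obtain ⟨s, hs, hCs, hsN⟩ := card_data hS
  have ha2 : 2 ∣ Nat.card A := by
    have : Fact (Nat.Prime 2) := ⟨Nat.prime_two⟩
    have h1 : orderOf z = 2 := orderOf_eq_prime (by rw [pow_two]; exact hS.zz) hS.z1
    have h2 : orderOf (⟨z, hS.zA⟩ : A) ∣ Nat.card A := orderOf_dvd_natCard _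
    rwa [Subgroup.orderOf_mk, h1] at h2
  have hq2 : q ≠ 2 := by
    intro hq2
    have h1 := ha2.trans hAd
    rw [hq2] at h1
    have h2 : Even (2 ^ m) := (Nat.even_pow.2 ⟨even_two, hm0⟩)
    obtain ⟨j, hj⟩ := h2
    obtain ⟨i, hi⟩ := h1
    have h3 : 0 < 2 ^ m := by positivity
    omega
  rw [hCs, hG1] at hCc
  obtain ⟨rfl, rfl, hcases⟩ := Cfsg.Agent.H349.RegArith.arith hq hq2 hm hk2 hCi hs hAd ha2 Nat.card_pos hCc.symm
  have hCtop : Subgroup.centralizer (A : Set G) = ⊤ := Subgroup.index_eq_one.1 (Nat.dvd_one.1 hCi)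
  have hCi1 : (Subgroup.centralizer (A : Set G)).index = 1 := Nat.dvd_one.1 hCi
  rw [hCi1, one_mul] at hCc
  rcases hcases with ⟨rfl, rfl, ha⟩ | ⟨rfl, rfl, ha⟩ | ⟨rfl, h2s⟩ | ⟨rfl, rfl, ha⟩ | ⟨rfl, h2s⟩
  · -- order 9
    have hG8 : Nat.card G = 8 := by rw [hG1]; rfl
    have hV9 : Nat.card V = 9 := by rw [hV]; rfl
    have hob : orderOf b = 4 := by
      have : Fact (Nat.Prime 2) := ⟨Nat.prime_two⟩
      have h1 : orderOf b = 2 ^ (1 + 1) := by
        apply orderOf_eq_prime_pow
        · intro h1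
          rw [pow_one, pow_two, hS.bb] at h1
          exact hS.z1 h1
        · have h2 : b ^ 2 ^ (1 + 1) = (b * b) * (b * b) := by
            norm_num [pow_succ, mul_assoc]
          rw [h2, hS.bb, hS.zz]
      rw [h1]
      norm_num
    have hzc : Nat.card (Subgroup.zpowers b) = 4 := by rw [Nat.card_zpowers, hob]
    have hzi : (Subgroup.zpowers b).index = 2 := by
      have h1 := (Subgroup.zpowers b).card_mul_index
      rw [hzc, hG8] at h1
      omega
    have hzn : (Subgroup.zpowers b).Normal := Subgroup.normal_of_index_eq_two hzi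
    refine ⟨Or.inl ?_, fun _ => Or.inl ⟨_, hzn, hzi⟩⟩
    obtain ⟨m', k', hm', hk', hV', -, hd', -, hk1'⟩ := abel hR (Subgroup.zpowers b) (by
      intro x hx y hy
      obtain ⟨i, rfl⟩ := Subgroup.mem_zpowers_iff.1 hx
      obtain ⟨j, rfl⟩ := Subgroup.mem_zpowers_iff.1 hy
      rw [← zpow_add, ← zpow_add, add_comm])
    apply (hk1' ?_).1
    rw [hV9] at hV'
    have h1 : m' * k' = 2 := by
      have h2 : 3 ^ (m' * k') = 3 ^ 2 := by rw [← hV']; rfl
      exact Nat.pow_right_injective (le_refl 2 |>.trans (by norm_num)) h2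
    have h2 : m' ∣ 2 := ⟨k', h1.symm⟩
    rcases (Nat.dvd_prime Nat.prime_two).1 h2 with rfl | rfl
    · exfalso
      rw [hzc] at hd'
      revert hd'
      decide
    · omega
  · -- order 25
    have hG8 : Nat.card G = 24 := by rw [hG1]; rfl
    have hV9 : Nat.card V = 25 := by rw [hV]; rfl
    refine ⟨Or.inr (by rw [hV9]; simp), fun _ => Or.inr (Or.inl ⟨hV9, ?_⟩)⟩
    obtain ⟨K, hK, ⟨e⟩⟩ := Cfsg.Agent.H349.RegSL.sl_prod hGT hA hS (r := 1) (by norm_num) (by rw [ha]) (by rw [hG8]) hCtop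
    have hsub : Subsingleton K := (Nat.card_eq_one_iff_unique.1 hK).1
    letI : Unique K := uniqueOfSubsingleton 1
    exact ⟨e.trans MulEquiv.prodUnique⟩
  · have hV9 : Nat.card V = 49 := by rw [hV]; rfl
    exact ⟨Or.inr (by rw [hV9]; simp), fun _ => Or.inl (hsN h2s)⟩
  · -- order 121
    have hG8 : Nat.card G = 120 := by rw [hG1]; rfl
    have hV9 : Nat.card V = 121 := by rw [hV]; rfl
    refine ⟨Or.inr (by rw [hV9]; simp), fun _ => Or.inr (Or.inr ⟨hV9, ?_⟩)⟩
    obtain ⟨K, hK, ⟨e⟩⟩ := Cfsg.Agent.H349.RegSL.sl_prod hGT hA hS (r := 5) (by norm_num) (by rw [ha]) (by rw [hG8]) hCtop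
    have : Fact (Nat.Prime 5) := ⟨Nat.prime_five⟩
    have hcK : IsCyclic K := isCyclic_of_prime_card hK
    have f : K ≃* Multiplicative (ZMod 5) := mulEquivOfCyclicCardEq (by
      rw [hK, Nat.card_congr Multiplicative.toAdd, Nat.card_zmod])
    exact ⟨e.trans ((MulEquiv.refl _).prodCongr f)⟩
  · have hV9 : Nat.card V = 529 := by rw [hV]; rfl
    exact ⟨Or.inr (by rw [hV9]; simp), fun _ => Or.inl (hsN h2s)⟩

end Cfsg.Agent.S3361
end
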