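import Cfsg.Statements.S3382
set_option linter.all false
-- import your own Cfsg.Agent.* helpers here

set_option autoImplicit false
open Cfsg

namespace Cfsg.Agent.S3382

section general

variable {T : Type*} [Group T] (β : MulAut T) {n : ℕ}

/-- an automorphism of odd order moving `y` by a fixed `2`-element fixes `y` -/
theorem fix_of_mul (hn : Odd n) (hβ : β ^ n = 1) {y w : T} (h : β y = w * y) (hw : β w = w)
    {r : ℕ} (hr : w ^ 2 ^ r = 1) : β y = y := by
  have h1 : ∀ j : ℕ, (β ^ j) y = w ^ j * y := by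
    intro j
    induction j with
    | zero => simp
    | succ j ih =>
      rw [pow_succ', MulAut.mul_apply, ih, map_mul, map_pow, hw, h, pow_succ, mul_assoc]
  have h2 := h1 n
  rw [hβ, MulAut.one_apply] at h2
  have h3 : w ^ n = 1 := (mul_eq_right.1 h2.symm)
  have h4 : orderOf w ∣ Nat.gcd n (2 ^ r) :=
    Nat.dvd_gcd (orderOf_dvd_of_pow_eq_one h3) (orderOf_dvd_of_pow_eq_one hr)
  have h5 : Nat.gcd n (2 ^ r) = 1 := Nat.Coprime.pow_right r (Nat.coprime_two_right.2 hn)
  rw [h5, Nat.dvd_one, orderOf_eq_one_iff] at h4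
  rw [h, h4, one_mul]

/-- an automorphism of odd order normalising a cyclic `2`-group fixes it -/
theorem fix_of_pow (hn : Odd n) (hβ : β ^ n = 1) {y : T} {k r : ℕ} (h : β y = y ^ k)
    (hr : orderOf y = 2 ^ r) : β y = y := by
  have h1 : ∀ j : ℕ, (β ^ j) y = y ^ (k ^ j) := by
    intro j
    induction j with
    | zero => simp
    | succ j ih =>
      rw [pow_succ, MulAut.mul_apply, h, map_pow, ih, ← pow_mul, pow_succ]
  have h2 := h1 n
  rw [hβ, MulAut.one_apply] at h2
  have h3 : y ^ 1 = y ^ (k ^ n) := by rw [pow_one]; exact h2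
  rw [pow_eq_pow_iff_modEq, hr] at h3
  have h4 : ((k : ZMod (2 ^ r))) ^ n = 1 := by
    have := (ZMod.natCast_eq_natCast_iff _ _ _).2 h3
    push_cast at this
    exact this.symm
  have hn0 : n ≠ 0 := by rintro rfl; simp at hn
  let u : (ZMod (2 ^ r))ˣ := Units.ofPowEqOne _ n h4 hn0
  have hu : u ^ n = 1 := Units.pow_ofPowEqOne h4 hn0
  have hu2 := ZMod.pow_totient u
  have hgcd : Nat.gcd n (Nat.totient (2 ^ r)) = 1 := by
    rcases r with _ | r
    · simp
    · rw [Nat.totient_prime_pow_succ Nat.prime_two]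
      simp only [Nat.add_one_sub_one, mul_one]
      exact Nat.Coprime.pow_right r (Nat.coprime_two_right.2 hn)
  have h5 : orderOf u ∣ Nat.gcd n (Nat.totient (2 ^ r)) :=
    Nat.dvd_gcd (orderOf_dvd_of_pow_eq_one hu) (orderOf_dvd_of_pow_eq_one hu2)
  rw [hgcd, Nat.dvd_one, orderOf_eq_one_iff] at h5
  have h6 : (k : ZMod (2 ^ r)) = 1 := by
    have : ((u : (ZMod (2 ^ r))ˣ) : ZMod (2 ^ r)) = k := rfl
    rw [← this, h5, Units.val_one]
  have h7 : k ≡ 1 [MOD 2 ^ r] := by
    apply (ZMod.natCast_eq_natCast_iff _ _ _).1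
    push_cast
    exact h6
  rw [h]
  conv_rhs => rw [← pow_one y]
  rw [pow_eq_pow_iff_modEq, hr]
  exact h7

/-- the final step -/
theorem eq_one_of_fixed (hn : Odd n) (hβ : β ^ n = 1) (hT : ∀ t : T, ∃ r : ℕ, t ^ 2 ^ r = 1) (τ : T)
    (h : ∀ t : T, β t = t ∨ β (t * τ) = t * τ) : β = 1 := by
  have hτ : β τ = τ := by
    rcases h (β τ * τ⁻¹) with h1 | h1
    · obtain ⟨r, hr⟩ := hT (β τ * τ⁻¹)
      exact fix_of_mul β hn hβ (w := β τ * τ⁻¹) (by rw [inv_mul_cancel_right]) h1 hr
    · rw [inv_mul_cancel_right] at h1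
      exact β.injective h1
  ext t
  rcases h t with h1 | h1
  · exact h1
  · rw [map_mul, hτ] at h1
    exact mul_right_cancel h1

end general

section model

variable {q : ℕ}

/-- diagonal maps -/
def D (a c : (ZMod q)ˣ) : (Fin 2 → ZMod q) ≃ₗ[ZMod q] (Fin 2 → ZMod q) where
  toFun v := ![a * v 0, c * v 1]
  map_add' := by
    intro v w
    ext i
    fin_cases i <;> simp [mul_add]
  map_smul' := by
    intro r v
    ext i
    fin_cases i <;> simp [mul_left_comm]
  invFun v := ![((a⁻¹ : (ZMod q)ˣ) : ZMod q) * v 0, ((c⁻¹ : (ZMod q)ˣ) : ZMod q) * v 1]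
  left_inv := by
    intro v
    ext i
    fin_cases i <;> simp
  right_inv := by
    intro v
    ext i
    fin_cases i <;> simp

/-- antidiagonal maps -/
def A (a c : (ZMod q)ˣ) : (Fin 2 → ZMod q) ≃ₗ[ZMod q] (Fin 2 → ZMod q) where
  toFun v := ![c * v 1, a * v 0]
  map_add' := by
    intro v w
    ext i
    fin_cases i <;> simp [mul_add]
  map_smul' := by
    intro r v
    ext i
    fin_cases i <;> simp [mul_left_comm]
  invFun v := ![((a⁻¹ : (ZMod q)ˣ) : ZMod q) * v 1, ((c⁻¹ : (ZMod q)ˣ) : ZMod q) * v 0]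
  left_inv := by
    intro v
    ext i
    fin_cases i <;> simp
  right_inv := by
    intro v
    ext i
    fin_cases i <;> simp

theorem D_apply (a c : (ZMod q)ˣ) (v : Fin 2 → ZMod q) : D a c v = ![a * v 0, c * v 1] := rfl

theorem A_apply (a c : (ZMod q)ˣ) (v : Fin 2 → ZMod q) : A a c v = ![c * v 1, a * v 0] := rfl

theorem D_mul_D (a c a' c' : (ZMod q)ˣ) : D a c * D a' c' = D (a * a') (c * c') := by
  ext v i
  fin_cases i <;> simp [D_apply, mul_assoc]

theorem A_mul_A (a c a' c' : (ZMod q)ˣ) : A a c * A a' c' = D (c * a') (a * c') := by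
  ext v i
  fin_cases i <;> simp [D_apply, A_apply, mul_assoc]

theorem D_mul_A (a c a' c' : (ZMod q)ˣ) : D a c * A a' c' = A (c * a') (a * c') := by
  ext v i
  fin_cases i <;> simp [D_apply, A_apply, mul_assoc]

theorem A_mul_D (a c a' c' : (ZMod q)ˣ) : A a c * D a' c' = A (a * a') (c * c') := by
  ext v i
  fin_cases i <;> simp [D_apply, A_apply, mul_assoc]

theorem D_one : (D 1 1 : (Fin 2 → ZMod q) ≃ₗ[ZMod q] (Fin 2 → ZMod q)) = 1 := by
  ext v i
  fin_cases i <;> simp [D_apply]

theorem D_pow (a c : (ZMod q)ˣ) (k : ℕ) : D a c ^ k = D (a ^ k) (c ^ k) := by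
  induction k with
  | zero => rw [pow_zero, pow_zero, pow_zero, D_one]
  | succ k ih => rw [pow_succ, ih, D_mul_D, pow_succ, pow_succ]

theorem D_inj {a c a' c' : (ZMod q)ˣ} (h : D a c = D a' c') : a = a' ∧ c = c' := by
  constructor
  · have := congrFun (congrArg (fun f : (Fin 2 → ZMod q) ≃ₗ[ZMod q] (Fin 2 → ZMod q) => f ![1, 0]) h) 0
    simp [D_apply] at this
    exact Units.ext this
  · have := congrFun (congrArg (fun f : (Fin 2 → ZMod q) ≃ₗ[ZMod q] (Fin 2 → ZMod q) => f ![0, 1]) h) 1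
    simp [D_apply] at this
    exact Units.ext this

theorem mem_iff [Fact q.Prime]
    {T : Subgroup ((Fin 2 → ZMod q) ≃ₗ[ZMod q] (Fin 2 → ZMod q))}
    (hT : ∀ f, f ∈ T ↔ ∃ a s : ZMod q, a ≠ 0 ∧ (s = 1 ∨ s = -1) ∧
      ((∀ v, f v = ![a * v 0, s * a⁻¹ * v 1]) ∨ (∀ v, f v = ![s * a⁻¹ * v 1, a * v 0])))
    (f : (Fin 2 → ZMod q) ≃ₗ[ZMod q] (Fin 2 → ZMod q)) :
    f ∈ T ↔ ∃ a c : (ZMod q)ˣ, (a * c = 1 ∨ a * c = -1) ∧ (f = D a c ∨ f = A a c) := by
  rw [hT]
  constructor
  · rintro ⟨a, s, ha, hs, hf⟩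
    have hs0 : s ≠ 0 := by rcases hs with rfl | rfl <;> simp
    refine ⟨Units.mk0 a ha, Units.mk0 (s * a⁻¹) (mul_ne_zero hs0 (inv_ne_zero ha)), ?_, ?_⟩
    · have h1 : (Units.mk0 a ha * Units.mk0 (s * a⁻¹) (mul_ne_zero hs0 (inv_ne_zero ha)) : ZMod q) = s := by
        simp only [Units.val_mk0]
        rw [mul_comm s, mul_inv_cancel_left₀ ha]
      rcases hs with hs | hs
      · left; apply Units.ext; rw [Units.val_mul, h1, hs, Units.val_one]
      · right; apply Units.ext; rw [Units.val_mul, h1, hs]; simp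
    · rcases hf with hf | hf
      · left
        apply LinearEquiv.ext
        intro v
        rw [hf, D_apply]; rfl
      · right
        apply LinearEquiv.ext
        intro v
        rw [hf, A_apply]; rfl
  · rintro ⟨a, c, hac, hf⟩
    have ha : (a : ZMod q) ≠ 0 := a.ne_zero
    refine ⟨a, a * c, ha, ?_, ?_⟩
    · rcases hac with h | h
      · left
        have := congrArg Units.val h
        simpa using this
      · right
        have := congrArg Units.val h
        simpa using this
    · have h1 : (a : ZMod q) * c * (a : ZMod q)⁻¹ = c := by field_simp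
      rcases hf with rfl | rfl
      · left; intro v; rw [D_apply, h1]
      · right; intro v; rw [A_apply, h1]

end model

theorem pm2 : ∀ u : (ZMod 2)ˣ, u = 1 ∨ u = -1 := by decide

theorem pm3 : ∀ u : (ZMod 3)ˣ, u = 1 ∨ u = -1 := by decide

set_option maxHeartbeats 4000000 in
theorem aux {q m : ℕ} [Fact q.Prime] (hq : q = 2 ^ m + 1) (hq5 : q ≠ 5)
    {T : Subgroup ((Fin 2 → ZMod q) ≃ₗ[ZMod q] (Fin 2 → ZMod q))}
    (hmem : ∀ f, f ∈ T ↔ ∃ a c : (ZMod q)ˣ, (a * c = 1 ∨ a * c = -1) ∧ (f = D a c ∨ f = A a c))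
    (β : MulAut T) {n : ℕ} (hn : Odd n) (hβ : β ^ n = 1) : β = 1 := by
  have hpq : q.Prime := Fact.out
  have hsq : ∀ u : (ZMod q)ˣ, u * u = 1 → u = 1 ∨ u = -1 := by
    intro u hu
    have h1 : (u : ZMod q) * u = 1 := by
      have := congrArg Units.val hu
      simpa using this
    rcases mul_self_eq_one_iff.1 h1 with h | h
    · left; exact Units.ext h
    · right; apply Units.ext; simpa using h
  have hmemD : ∀ a c : (ZMod q)ˣ, (a * c = 1 ∨ a * c = -1) → D a c ∈ T :=
    fun a c h => (hmem _).2 ⟨a, c, h, Or.inl rfl⟩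
  have hmemA : ∀ a c : (ZMod q)ˣ, (a * c = 1 ∨ a * c = -1) → A a c ∈ T :=
    fun a c h => (hmem _).2 ⟨a, c, h, Or.inr rfl⟩
  have hcase : ∀ t : T, ∃ a c : (ZMod q)ˣ, (a * c = 1 ∨ a * c = -1) ∧ ((t : _) = D a c ∨ (t : _) = A a c) :=
    fun t => (hmem _).1 t.2
  have hupow : ∀ u : (ZMod q)ˣ, u ^ 2 ^ m = 1 := by
    intro u
    have h1 := ZMod.units_pow_card_sub_one_eq_one q u
    have h2 : q - 1 = 2 ^ m := by rw [hq]; rfl
    rw [← h2]; exact h1
  have h2T : ∀ t : T, ∃ r : ℕ, t ^ 2 ^ r = 1 := by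
    intro t
    obtain ⟨a, c, -, h | h⟩ := hcase t
    · refine ⟨m, Subtype.ext ?_⟩
      rw [SubmonoidClass.coe_pow, h, D_pow, hupow, hupow, D_one]; rfl
    · refine ⟨m + 1, Subtype.ext ?_⟩
      rw [SubmonoidClass.coe_pow, h, pow_succ', pow_mul, pow_two, A_mul_A, D_pow, hupow, hupow, D_one]; rfl
  -- the swap
  have hτT : A 1 1 ∈ T := hmemA 1 1 (Or.inl (one_mul 1))
  have hneg1 : (-1 : (ZMod q)ˣ) * -1 = 1 := by simp
  have hDnn : D (-1) (-1) ∈ T := hmemD _ _ (Or.inl hneg1)
  rcases Nat.lt_or_ge m 3 with hm | hm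
  · -- small cases
    have hq23 : q = 2 ∨ q = 3 := by
      interval_cases m
      · left; simpa using hq
      · right; simpa using hq
      · exfalso; apply hq5; simpa using hq
    have hpm : ∀ u : (ZMod q)ˣ, u = 1 ∨ u = -1 := by
      rcases hq23 with h | h
      · subst h; exact pm2
      · subst h; exact pm3
    -- elements `A a c` with `a c = -1` are fixed
    have hA : ∀ (a c : (ZMod q)ˣ) (hac : a * c = -1), β ⟨A a c, hmemA a c (Or.inr hac)⟩ = ⟨A a c, hmemA a c (Or.inr hac)⟩ := by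
      intro a c hac
      set y : T := ⟨A a c, hmemA a c (Or.inr hac)⟩ with hy
      have hyy : y * y = ⟨D (-1) (-1), hDnn⟩ := by
        apply Subtype.ext
        show A a c * A a c = _
        rw [A_mul_A, mul_comm c a, hac]
      by_cases hone : (-1 : (ZMod q)ˣ) = 1
      · -- characteristic two
        have hy1 : y = ⟨A 1 1, hτT⟩ := by
          apply Subtype.ext
          show A a c = A 1 1
          rcases hpm a with rfl | rfl <;> rcases hpm c with rfl | rfl <;> simp [hone]
        have hall : ∀ t : T, t = 1 ∨ t = y := by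
          intro t
          obtain ⟨a', c', -, h | h⟩ := hcase t
          · left
            apply Subtype.ext
            rw [h]
            rcases hpm a' with rfl | rfl <;> rcases hpm c' with rfl | rfl <;> simp [hone, D_one]
          · right
            rw [hy1]
            apply Subtype.ext
            rw [h]
            rcases hpm a' with rfl | rfl <;> rcases hpm c' with rfl | rfl <;> simp [hone]
        rcases hall (β y) with h | h
        · have h1 : y = 1 := (MulEquiv.map_eq_one_iff β).1 h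
          rw [h1, map_one]
        · exact h
      · have hyy1 : y * y ≠ 1 := by
          rw [hyy]
          intro h
          have h1 : D (-1) (-1) = D (1 : (ZMod q)ˣ) 1 := by
            rw [D_one]; exact congrArg Subtype.val h
          exact hone (D_inj h1).1
        have hβyy : β y * β y ≠ 1 := by
          rw [← map_mul]
          intro h
          exact hyy1 ((MulEquiv.map_eq_one_iff β).1 h)
        obtain ⟨a', c', hac', h | h⟩ := hcase (β y)
        · exfalso
          apply hβyy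
          apply Subtype.ext
          rw [Subgroup.coe_mul, h, D_mul_D]
          rcases hpm a' with rfl | rfl <;> rcases hpm c' with rfl | rfl <;> simp [D_one]
        · -- `β y = w y`, `w = ± 1`
          have hac2 : a' * c' = -1 := by
            rcases hac' with h1 | h1
            · exfalso
              apply hβyy
              apply Subtype.ext
              rw [Subgroup.coe_mul, h, A_mul_A, mul_comm c' a', h1, D_one]; rfl
            · exact h1
          have hw : ∃ u : (ZMod q)ˣ, u * u = 1 ∧ (β y : _) = D u u * (y : _) := by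
            refine ⟨a' * a⁻¹, ?_, ?_⟩
            · rcases hpm a with rfl | rfl <;> rcases hpm a' with rfl | rfl <;> simp
            · rw [h]
              show A a' c' = D _ _ * A a c
              rw [D_mul_A]
              congr 1
              · rw [inv_mul_cancel_right]
              · have e1 : c = -a⁻¹ := by
                  rw [← neg_one_mul, ← hac, mul_comm a c, mul_inv_cancel_right]
                have e2 : c' = -a'⁻¹ := by
                  rw [← neg_one_mul, ← hac2, mul_comm a' c', mul_inv_cancel_right]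
                rw [e1, e2]
                rcases hpm a with rfl | rfl <;> rcases hpm a' with rfl | rfl <;> simp
          obtain ⟨u, hu, hw⟩ := hw
          have huT : D u u ∈ T := hmemD u u (Or.inl hu)
          refine fix_of_mul β hn hβ (w := ⟨D u u, huT⟩) (r := 1) (Subtype.ext hw) ?_ ?_
          · rcases hsq u hu with rfl | rfl
            · have : (⟨D 1 1, huT⟩ : T) = 1 := Subtype.ext D_one
              rw [this, map_one]
            · have h1 : (⟨D (-1) (-1), huT⟩ : T) = y * y := hyy.symm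
              rw [h1, map_mul]
              apply Subtype.ext
              rw [Subgroup.coe_mul, h, A_mul_A, mul_comm c' a', hac2]
              exact (congrArg Subtype.val hyy).symm
          · apply Subtype.ext
            show (D u u) ^ 2 ^ 1 = 1
            rw [pow_one, pow_two, D_mul_D, hu, D_one]
    have hD : ∀ (u : (ZMod q)ˣ) (hu : D u u ∈ T), β ⟨D u u, hu⟩ = ⟨D u u, hu⟩ := by
      intro u hu
      rcases hpm u with rfl | rfl
      · have : (⟨D 1 1, hu⟩ : T) = 1 := Subtype.ext D_one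
        rw [this, map_one]
      · have hT' : A 1 (-1) ∈ T := hmemA _ _ (Or.inr (one_mul _))
        have h1 : (⟨D (-1) (-1), hu⟩ : T) = ⟨A 1 (-1), hT'⟩ * ⟨A 1 (-1), hT'⟩ := by
          apply Subtype.ext
          show _ = A 1 (-1) * A 1 (-1)
          rw [A_mul_A, mul_one, one_mul]
        rw [h1, map_mul, hA 1 (-1) (one_mul _)]
    refine eq_one_of_fixed β hn hβ h2T ⟨A 1 1, hτT⟩ ?_
    rintro ⟨t, ht⟩
    obtain ⟨a, c, hac, rfl | rfl⟩ := (hmem t).1 ht
    · rcases hac with h | h
      · left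
        have hac' : c = a := by
          rcases hpm a with rfl | rfl <;> rcases hpm c with rfl | rfl <;> simp_all
        subst hac'
        exact hD _ _
      · right
        have e : (⟨D a c, ht⟩ * ⟨A 1 1, hτT⟩ : T) = ⟨A c a, hmemA c a (Or.inr (by rw [mul_comm]; exact h))⟩ := by
          apply Subtype.ext
          show D a c * A 1 1 = _
          rw [D_mul_A, mul_one, mul_one]
        rw [e]
        exact hA c a (by rw [mul_comm]; exact h)
    · rcases hac with h | h
      · right
        have hac' : c = a := by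
          rcases hpm a with rfl | rfl <;> rcases hpm c with rfl | rfl <;> simp_all
        subst hac'
        have e : (⟨A c c, ht⟩ * ⟨A 1 1, hτT⟩ : T) = ⟨D c c, hmemD c c (Or.inl h)⟩ := by
          apply Subtype.ext
          show A c c * A 1 1 = _
          rw [A_mul_A, mul_one]
        rw [e]
        exact hD _ _
      · left
        exact hA a c h
  · -- the main case
    obtain ⟨g, hg⟩ := IsCyclic.exists_generator (α := (ZMod q)ˣ)
    have hcardU : Nat.card (ZMod q)ˣ = 2 ^ m := by
      rw [Nat.card_eq_fintype_card, ZMod.card_units_eq_totient, Nat.totient_prime hpq, hq, Nat.add_sub_cancel]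
    have hgo : orderOf g = 2 ^ m := by rw [← hcardU]; exact orderOf_eq_card_of_forall_mem_zpowers hg
    have hgpow : ∀ u : (ZMod q)ˣ, ∃ k : ℕ, u = g ^ k := by
      intro u
      obtain ⟨k, hk⟩ := (Submonoid.mem_powers_iff _ _).1 (mem_powers_iff_mem_zpowers.2 (hg u))
      exact ⟨k, hk.symm⟩
    have h8 : 8 ≤ 2 ^ m := by
      have : 2 ^ 3 ≤ 2 ^ m := Nat.pow_le_pow_right (by norm_num) hm
      omega
    have hg4 : g ^ 4 ≠ 1 := by
      intro h
      have := Nat.le_of_dvd (by norm_num) (orderOf_dvd_of_pow_eq_one h)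
      omega
    have hfour : ∀ a c : (ZMod q)ˣ, (a * c = 1 ∨ a * c = -1) → (A a c) ^ 4 = 1 := by
      intro a c hac
      have : (A a c) ^ 4 = (A a c * A a c) * (A a c * A a c) := by rw [show (4 : ℕ) = 2 + 2 from rfl, pow_add, pow_two]
      rw [this, A_mul_A, D_mul_D, mul_comm c a]
      have h1 : a * c * (a * c) = 1 := by rcases hac with h | h <;> rw [h] <;> simp
      rw [h1, D_one]
    -- elements with nontrivial fourth power are diagonal
    have hdiag : ∀ t : T, t ^ 4 ≠ 1 → ∃ a c : (ZMod q)ˣ, (a * c = 1 ∨ a * c = -1) ∧ (t : _) = D a c := by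
      intro t ht
      obtain ⟨a, c, hac, h | h⟩ := hcase t
      · exact ⟨a, c, hac, h⟩
      · exfalso
        apply ht
        apply Subtype.ext
        rw [SubmonoidClass.coe_pow, h, hfour a c hac]; rfl
    let x : T := ⟨D g g⁻¹, hmemD _ _ (Or.inl (mul_inv_cancel g))⟩
    let d : T := ⟨D 1 (-1), hmemD _ _ (Or.inr (one_mul _))⟩
    have hx4 : x ^ 4 ≠ 1 := by
      intro h
      have h1 : D (g ^ 4) (g⁻¹ ^ 4) = D 1 1 := by
        rw [← D_pow, D_one]; exact congrArg Subtype.val h
      exact hg4 (D_inj h1).1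
    have hxd4 : (x * d) ^ 4 ≠ 1 := by
      intro h
      have h1 : D ((g * 1) ^ 4) ((g⁻¹ * -1) ^ 4) = D 1 1 := by
        rw [← D_pow, ← D_mul_D, D_one]; exact congrArg Subtype.val h
      rw [mul_one] at h1
      exact hg4 (D_inj h1).1
    have hβ4 : ∀ t : T, t ^ 4 ≠ 1 → (β t) ^ 4 ≠ 1 := by
      intro t ht h
      rw [← map_pow] at h
      exact ht ((MulEquiv.map_eq_one_iff β).1 h)
    obtain ⟨a, c, hac, hβx⟩ := hdiag _ (hβ4 x hx4)
    obtain ⟨a', c', hac', hβxd⟩ := hdiag _ (hβ4 _ hxd4)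
    -- `β (x ^ 2) = x ^ 2`
    obtain ⟨k, hk⟩ := hgpow a
    have hc2 : c ^ 2 = (a ^ 2)⁻¹ := by
      rw [eq_inv_iff_mul_eq_one, ← mul_pow, mul_comm c a]
      rcases hac with h | h <;> rw [h] <;> simp
    have hβx2 : β (x ^ 2) = (x ^ 2) ^ k := by
      apply Subtype.ext
      rw [map_pow, SubmonoidClass.coe_pow, hβx, D_pow, SubmonoidClass.coe_pow, SubmonoidClass.coe_pow]
      show _ = ((D g g⁻¹) ^ 2) ^ k
      rw [D_pow, D_pow, hc2, hk]
      congr 1
      · rw [← pow_mul, ← pow_mul, mul_comm]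
      · rw [inv_pow, inv_pow, ← pow_mul, ← pow_mul, mul_comm]
    have hxo : ∃ r, orderOf (x ^ 2) = 2 ^ r := by
      obtain ⟨r, hr⟩ := h2T (x ^ 2)
      obtain ⟨s, -, hs⟩ := (Nat.dvd_prime_pow Nat.prime_two).1 (orderOf_dvd_of_pow_eq_one hr)
      exact ⟨s, hs⟩
    obtain ⟨r, hr⟩ := hxo
    have hfix2 : β (x ^ 2) = x ^ 2 := fix_of_pow β hn hβ hβx2 hr
    have ha2 : a ^ 2 = g ^ 2 := by
      have h1 : D (a ^ 2) (c ^ 2) = D (g ^ 2) (g⁻¹ ^ 2) := by
        rw [← D_pow, ← D_pow]
        have h2 := congrArg Subtype.val hfix2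
        rw [map_pow, SubmonoidClass.coe_pow, hβx] at h2
        exact h2
      exact (D_inj h1).1
    -- `-1` is fixed
    have hm1 : (⟨D (-1) (-1), hDnn⟩ : T) = (x ^ 2) ^ (2 ^ (m - 2)) := by
      have h1 : g ^ (2 * 2 ^ (m - 2)) = -1 := by
        have h2 : g ^ (2 * 2 ^ (m - 2)) * g ^ (2 * 2 ^ (m - 2)) = 1 := by
          rw [← pow_add]
          have : 2 * 2 ^ (m - 2) + 2 * 2 ^ (m - 2) = 2 ^ m := by
            obtain ⟨j, rfl⟩ : ∃ j, m = j + 2 := ⟨m - 2, by omega⟩
            rw [Nat.add_sub_cancel]; ring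
          rw [this, hupow]
        rcases hsq _ h2 with h3 | h3
        · exfalso
          have h4 := orderOf_dvd_of_pow_eq_one h3
          rw [hgo] at h4
          have h5 := Nat.le_of_dvd (by positivity) h4
          have h6 : 2 ^ m = 4 * 2 ^ (m - 2) := by
            obtain ⟨j, rfl⟩ : ∃ j, m = j + 2 := ⟨m - 2, by omega⟩
            rw [Nat.add_sub_cancel]; ring
          have h7 : 0 < 2 ^ (m - 2) := by positivity
          omega
        · exact h3
      apply Subtype.ext
      rw [SubmonoidClass.coe_pow, SubmonoidClass.coe_pow]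
      show _ = ((D g g⁻¹) ^ 2) ^ _
      rw [D_pow, D_pow, ← pow_mul, ← pow_mul, inv_pow, h1]
      simp
    have hfixn : β ⟨D (-1) (-1), hDnn⟩ = ⟨D (-1) (-1), hDnn⟩ := by
      rw [hm1, map_pow, hfix2]
    have hnp : (-1 : (ZMod q)ˣ) ≠ 1 := by
      intro h
      have h1 : (-1 : ZMod q) = 1 := by
        have := congrArg Units.val h
        simpa using this
      have h2 : ((2 : ℕ) : ZMod q) = 0 := by
        push_cast
        linear_combination -h1
      rw [ZMod.natCast_eq_zero_iff] at h2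
      have := Nat.le_of_dvd (by norm_num) h2
      omega
    -- `β d = ± d`
    have hfixd : β d = d := by
      have h1 : β d = (β x)⁻¹ * β (x * d) := by rw [map_mul, inv_mul_cancel_left]
      have h2 : (β d : _) = D (a⁻¹ * a') (c⁻¹ * c') := by
        rw [h1]
        rw [Subgroup.coe_mul, Subgroup.coe_inv, hβx, hβxd, inv_mul_eq_iff_eq_mul, D_mul_D]
        simp
      set u := a⁻¹ * a' with hu
      set w := c⁻¹ * c' with hw
      have hdd : d * d = 1 := by
        apply Subtype.ext
        show D 1 (-1) * D 1 (-1) = _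
        rw [D_mul_D, mul_one, hneg1, D_one]; rfl
      have h3 : β d * β d = 1 := by rw [← map_mul, hdd, map_one]
      have h4 : D (u * u) (w * w) = D 1 1 := by
        rw [← D_mul_D, ← h2, D_one]; exact congrArg Subtype.val h3
      obtain ⟨h5, h6⟩ := D_inj h4
      have hd1 : d ≠ 1 := by
        intro h
        have h7 : D 1 (-1) = D (1 : (ZMod q)ˣ) 1 := by rw [D_one]; exact congrArg Subtype.val h
        exact hnp (D_inj h7).2
      have hdn : d ≠ ⟨D (-1) (-1), hDnn⟩ := by
        intro h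
        have h7 : D 1 (-1) = D (-1 : (ZMod q)ˣ) (-1) := congrArg Subtype.val h
        exact hnp (D_inj h7).1.symm
      have hβd : β d = d ∨ β d = ⟨D (-1) (-1), hDnn⟩ * d := by
        rcases hsq u h5 with hu1 | hu1 <;> rcases hsq w h6 with hw1 | hw1
        · exfalso
          apply hd1
          apply (MulEquiv.map_eq_one_iff β).1
          apply Subtype.ext
          rw [h2, hu1, hw1, D_one]; rfl
        · left
          apply Subtype.ext
          rw [h2, hu1, hw1]
        · right
          apply Subtype.ext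
          rw [h2, hu1, hw1]
          show _ = D (-1) (-1) * D 1 (-1)
          rw [D_mul_D, mul_one, hneg1]
        · exfalso
          apply hdn
          apply β.injective
          rw [hfixn]
          apply Subtype.ext
          rw [h2, hu1, hw1]
      rcases hβd with h7 | h7
      · exact h7
      · refine fix_of_mul β hn hβ (r := 1) h7 hfixn ?_
        apply Subtype.ext
        show (D (-1) (-1)) ^ 2 ^ 1 = 1
        rw [pow_one, pow_two, D_mul_D, hneg1, D_one]
    -- all `D (± 1) (± 1)` are fixed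
    have hfixE : ∀ (u w : (ZMod q)ˣ) (h : D u w ∈ T), u * u = 1 → w * w = 1 → β ⟨D u w, h⟩ = ⟨D u w, h⟩ := by
      intro u w h hu hw
      have e1 : ∀ (h' : D (1 : (ZMod q)ˣ) 1 ∈ T), (⟨D 1 1, h'⟩ : T) = 1 := fun h' => Subtype.ext D_one
      have e3 : ∀ (h' : D (1 : (ZMod q)ˣ) (-1) ∈ T), (⟨D 1 (-1), h'⟩ : T) = d := fun h' => rfl
      have e2 : ∀ (h' : D (-1 : (ZMod q)ˣ) 1 ∈ T), (⟨D (-1) 1, h'⟩ : T) = ⟨D (-1) (-1), hDnn⟩ * d := by
        intro h'
        apply Subtype.ext
        show D (-1) 1 = D (-1) (-1) * D 1 (-1)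
        rw [D_mul_D, mul_one, hneg1]
      rcases hsq u hu with rfl | rfl <;> rcases hsq w hw with rfl | rfl
      · rw [e1, map_one]
      · rw [e3]; exact hfixd
      · rw [e2, map_mul, hfixn, hfixd]
      · exact hfixn
    have hfixx : β x = x := by
      have hu : (a * g⁻¹) * (a * g⁻¹) = 1 := by
        have : (a * g⁻¹) * (a * g⁻¹) = a ^ 2 * (g ^ 2)⁻¹ := by
          rw [pow_two, pow_two, mul_inv, mul_mul_mul_comm]
        rw [this, ha2, mul_inv_cancel]
      have hw : (c * g) * (c * g) = 1 := by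
        have : (c * g) * (c * g) = c ^ 2 * g ^ 2 := by rw [pow_two, pow_two, mul_mul_mul_comm]
        rw [this, hc2, ha2, inv_mul_cancel]
      have hmemE : D (a * g⁻¹) (c * g) ∈ T := by
        apply hmemD
        have : a * g⁻¹ * (c * g) = a * c := by
          rw [mul_comm c g, mul_assoc, inv_mul_cancel_left]
        rw [this]; exact hac
      refine fix_of_mul β hn hβ (w := ⟨D (a * g⁻¹) (c * g), hmemE⟩) (r := 1) ?_ (hfixE _ _ hmemE hu hw) ?_
      · apply Subtype.ext
        rw [hβx]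
        show _ = D (a * g⁻¹) (c * g) * D g g⁻¹
        rw [D_mul_D, inv_mul_cancel_right, mul_inv_cancel_right]
      · apply Subtype.ext
        show (D (a * g⁻¹) (c * g)) ^ 2 ^ 1 = 1
        rw [pow_one, pow_two, D_mul_D, hu, hw, D_one]
    have hfixD : ∀ (u w : (ZMod q)ˣ) (h : D u w ∈ T), (u * w = 1 ∨ u * w = -1) → β ⟨D u w, h⟩ = ⟨D u w, h⟩ := by
      intro u w h huw
      obtain ⟨i, rfl⟩ := hgpow u
      have hE : D 1 (g ^ i * w) ∈ T := by
        apply hmemD; rw [one_mul]; exact huw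
      have e : (⟨D (g ^ i) w, h⟩ : T) = x ^ i * ⟨D 1 (g ^ i * w), hE⟩ := by
        apply Subtype.ext
        show _ = (D g g⁻¹) ^ i * D 1 (g ^ i * w)
        rw [D_pow, D_mul_D, mul_one, inv_pow, inv_mul_cancel_left]
      rw [e, map_mul, map_pow, hfixx, hfixE _ _ hE (one_mul 1) (by rcases huw with h | h <;> rw [h] <;> simp)]
    refine eq_one_of_fixed β hn hβ h2T ⟨A 1 1, hτT⟩ ?_
    rintro ⟨t, ht⟩
    obtain ⟨u, w, huw, rfl | rfl⟩ := (hmem t).1 ht
    · left
      exact hfixD u w ht huw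
    · right
      have hwu : w * u = 1 ∨ w * u = -1 := by rw [mul_comm]; exact huw
      have e : (⟨A u w, ht⟩ * ⟨A 1 1, hτT⟩ : T) = ⟨D w u, hmemD w u hwu⟩ := by
        apply Subtype.ext
        show A u w * A 1 1 = _
        rw [A_mul_A, mul_one, mul_one]
      rw [e]
      exact hfixD w u _ hwu


/-- Let q = 2^m + 1 be a prime other than 5. Then the automorphism group of the group of linear maps of F_q² of the forms (x, y) ↦ (a x, ± a⁻¹ y) and (x, y) ↦ (± a⁻¹ y, a x) with a ≠ 0 is itself a 2-group. -/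
theorem result (q m : ℕ) [Fact q.Prime] (hq : q = 2 ^ m + 1) (hq5 : q ≠ 5)
    (T : Subgroup ((Fin 2 → ZMod q) ≃ₗ[ZMod q] (Fin 2 → ZMod q)))
    (hT : ∀ f, f ∈ T ↔ ∃ a s : ZMod q, a ≠ 0 ∧ (s = 1 ∨ s = -1) ∧
      ((∀ v, f v = ![a * v 0, s * a⁻¹ * v 1]) ∨ (∀ v, f v = ![s * a⁻¹ * v 1, a * v 0]))) :
    IsPGroup 2 (MulAut T) := by
  have hmem := mem_iff hT
  have : Finite ((Fin 2 → ZMod q) ≃ₗ[ZMod q] (Fin 2 → ZMod q)) :=
    Finite.of_injective (fun f => (f : (Fin 2 → ZMod q) → (Fin 2 → ZMod q))) (fun f g h => LinearEquiv.ext (congrFun h))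
  have : Finite (MulAut T) := Finite.of_injective (fun f => (f : T → T)) (fun f g h => MulEquiv.ext (congrFun h))
  intro α
  obtain ⟨k, n, hn, hkn⟩ := Nat.exists_eq_two_pow_mul_odd (orderOf_pos α).ne'
  refine ⟨k, ?_⟩
  apply aux hq hq5 hmem (α ^ 2 ^ k) hn
  rw [← pow_mul, ← hkn, pow_orderOf_eq_one]

end Cfsg.Agent.S3382
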