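import Cfsg.Statements.S3383
import Cfsg.Agent.S0035
set_option linter.all false

set_option autoImplicit false
open Cfsg

namespace Cfsg.Agent.S3383

open Cfsg.Agent.Solvable.FrobeniusKernel

/-- Let H be a Frobenius complement in a finite group L and K the Frobenius kernel (as a subgroup). Then K is characteristic in L, and every normal subgroup of L either contains K or is contained in K. -/
theorem result {L : Type*} [Group L] [Finite L]
    (H : Subgroup L) (hH : Cfsg.IsFrobeniusComplement H)
    (K : Subgroup L) (hK : (K : Set L) = Cfsg.frobeniusKernel H) :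
    K.Characteristic ∧ ∀ N : Subgroup L, N.Normal → K ≤ N ∨ N ≤ K := by
  obtain ⟨K', hK', hn, hc⟩ := Cfsg.Agent.S0035.result H hH
  obtain rfl : K = K' := SetLike.coe_injective (hK.trans hK'.symm)
  have hmem : ∀ x : L, x ∈ K ↔ x ∈ Cfsg.frobeniusKernel H := fun x => by
    rw [← hK]; rfl
  have hcK : Nat.card K = H.index := by
    rw [← card_kernel hH, ← hK]; rfl
  have hidx : K.index = Nat.card H := hc.symm.index_eq_card
  have hcop : (Nat.card K).Coprime (Nat.card H) := by
    rw [hcK]; exact coprime_index_card hH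
  constructor
  · rw [Subgroup.characteristic_iff_map_le]
    rintro α _ ⟨x, hx, rfl⟩
    have h1 : orderOf (α x) ∣ Nat.card K := by
      rw [MulEquiv.orderOf_eq]
      have := orderOf_dvd_natCard (⟨x, hx⟩ : K)
      rwa [Subgroup.orderOf_mk] at this
    have h2 : orderOf (QuotientGroup.mk' K (α x)) ∣ Nat.card H := by
      rw [← hidx, Subgroup.index_eq_card]
      exact orderOf_dvd_natCard _
    have h3 : orderOf (QuotientGroup.mk' K (α x)) ∣ Nat.card K :=
      (orderOf_map_dvd _ _).trans h1
    have h4 : orderOf (QuotientGroup.mk' K (α x)) = 1 :=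
      Nat.eq_one_of_dvd_coprimes hcop h3 h2
    rw [orderOf_eq_one_iff] at h4
    exact (QuotientGroup.eq_one_iff _).1 h4
  · intro N hN
    by_cases hle : N ≤ K
    · exact Or.inr hle
    left
    obtain ⟨y, hy, hyK⟩ := Set.not_subset.1 hle
    have hyK' : y ∉ Cfsg.frobeniusKernel H := fun h => hyK ((hmem y).2 h)
    obtain ⟨hy1, g, hg⟩ := not_mem_kernel_iff.1 hyK'
    set x := g⁻¹ * y * g with hx
    have hxN : x ∈ N := by
      have := hN.conj_mem y hy g⁻¹
      rwa [inv_inv] at this
    have hx1 : x ≠ 1 := by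
      intro h
      apply hy1
      rw [hx] at h
      have := congrArg (fun t => g * t * g⁻¹) h
      simpa [mul_assoc] using this
    have hfK : ∀ k : K, (k : L) * x * (k : L)⁻¹ * x⁻¹ ∈ K := by
      intro k
      have h1 : x * (k : L)⁻¹ * x⁻¹ ∈ K := hn.conj_mem _ (K.inv_mem k.2) x
      have := K.mul_mem k.2 h1
      simpa [mul_assoc] using this
    have hfN : ∀ k : K, (k : L) * x * (k : L)⁻¹ * x⁻¹ ∈ N := by
      intro k
      exact N.mul_mem (hN.conj_mem _ hxN _) (N.inv_mem hxN)
    let f : K → K := fun k => ⟨(k : L) * x * (k : L)⁻¹ * x⁻¹, hfK k⟩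
    have hinj : Function.Injective f := by
      intro a b hab
      have h1 : (a : L) * x * (a : L)⁻¹ * x⁻¹ = (b : L) * x * (b : L)⁻¹ * x⁻¹ := congrArg Subtype.val hab
      have h2 : (a : L) * x * (a : L)⁻¹ = (b : L) * x * (b : L)⁻¹ := mul_right_cancel h1
      have h3 : ((b : L)⁻¹ * a) * x = x * ((b : L)⁻¹ * a) := by
        have h4 : (b : L)⁻¹ * ((a : L) * x * (a : L)⁻¹) * a = (b : L)⁻¹ * ((b : L) * x * (b : L)⁻¹) * a := by rw [h2]
        simpa [mul_assoc] using h4
      have h5 : (b : L)⁻¹ * a ∈ Subgroup.centralizer ({x} : Set L) := by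
        rw [Subgroup.mem_centralizer_singleton_iff]
        exact h3
      have h6 : (b : L)⁻¹ * a ∈ H := centralizer_le hH hg hx1 h5
      have h7 : (b : L)⁻¹ * a ∈ Cfsg.frobeniusKernel H :=
        (hmem _).1 (K.mul_mem (K.inv_mem b.2) a.2)
      have h8 := eq_one_of_mem_kernel_of_mem h7 h6
      apply Subtype.ext
      exact (inv_mul_eq_one.1 h8).symm
    have hsurj := Finite.surjective_of_injective hinj
    intro k hk
    obtain ⟨a, ha⟩ := hsurj ⟨k, hk⟩
    have h1 : (a : L) * x * (a : L)⁻¹ * x⁻¹ = k := congrArg Subtype.val ha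
    rw [← h1]
    exact hfN a

end Cfsg.Agent.S3383
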