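import Mathlib
import Cfsg.Agent.H418.Frob
import Cfsg.Agent.S0228
import Cfsg.Agent.S0494
import Cfsg.Agent.S0497
import Cfsg.Statements.S3431
set_option linter.all false

-- part: H426/Nse
section
/-!
# The numbers of elements of given orders

Basic divisibility facts and a verified search for the possible vectors of numbers of elements of
given orders.
-/

set_option autoImplicit false

namespace Cfsg.Agent.H426.Nse

universe u

section basic

variable (G : Type u) [Group G]

/-- number of elements of order `m` -/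
noncomputable def so (m : ℕ) : ℕ := Nat.card {g : G // orderOf g = m}

theorem so_one : so G 1 = 1 := by
  unfold so
  rw [Nat.card_eq_one_iff_unique]
  refine ⟨⟨fun a b => Subtype.ext ?_⟩, ⟨⟨1, orderOf_one⟩⟩⟩
  rw [orderOf_eq_one_iff.1 a.2, orderOf_eq_one_iff.1 b.2]

variable [Finite G]

theorem so_pos_iff (m : ℕ) : 0 < so G m ↔ ∃ g : G, orderOf g = m := by
  unfold so
  rw [Nat.card_pos_iff]
  constructor
  · rintro ⟨⟨g, hg⟩, -⟩; exact ⟨g, hg⟩
  · rintro ⟨g, hg⟩; exact ⟨⟨⟨g, hg⟩⟩, inferInstance⟩

theorem totient_dvd_so (m : ℕ) : Nat.totient m ∣ so G m := by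
  classical
  have := Fintype.ofFinite G
  unfold so
  rw [Nat.card_eq_fintype_card, Fintype.card_subtype]
  rw [Finset.card_eq_sum_card_image (fun g : G => Subgroup.zpowers g)]
  refine Finset.dvd_sum (fun C hC => ?_)
  obtain ⟨x, hx, rfl⟩ := Finset.mem_image.1 hC
  rw [Finset.mem_filter] at hx
  have h := Cfsg.Agent.H418.Frob.card_gen x
  rw [hx.2, Nat.card_eq_fintype_card, Fintype.card_subtype] at h
  rw [← h]
  apply dvd_of_eq
  congr 1
  ext y
  rw [Finset.mem_filter, Finset.mem_filter, Finset.mem_filter]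
  constructor
  · rintro ⟨-, hy⟩
    refine ⟨⟨Finset.mem_univ _, ?_⟩, hy⟩
    rw [← Nat.card_zpowers, hy, Nat.card_zpowers, hx.2]
  · rintro ⟨-, hy⟩
    exact ⟨Finset.mem_univ _, hy⟩

theorem sum_so {n : ℕ} (hn : n ≠ 0) :
    Nat.card {g : G // g ^ n = 1} = ∑ d ∈ n.divisors, so G d := by
  classical
  have := Fintype.ofFinite G
  rw [Nat.card_eq_fintype_card, Fintype.card_subtype]
  rw [Finset.card_eq_sum_card_fiberwise (f := fun g : G => orderOf g) (t := n.divisors)]
  · refine Finset.sum_congr rfl (fun d hd => ?_)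
    unfold so
    rw [Nat.card_eq_fintype_card, Fintype.card_subtype]
    congr 1
    ext y
    rw [Finset.mem_filter, Finset.mem_filter, Finset.mem_filter]
    constructor
    · rintro ⟨-, hy⟩; exact ⟨Finset.mem_univ _, hy⟩
    · rintro ⟨-, hy⟩
      exact ⟨⟨Finset.mem_univ _, orderOf_dvd_iff_pow_eq_one.1 (hy ▸ (Nat.mem_divisors.1 hd).1)⟩, hy⟩
  · intro g hg
    have hg' : g ^ n = 1 := (Finset.mem_filter.1 (Finset.mem_coe.1 hg)).2
    exact Finset.mem_coe.2 (Nat.mem_divisors.2 ⟨orderOf_dvd_of_pow_eq_one hg', hn⟩)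

theorem dvd_sum_so {n : ℕ} (hn : n ∣ Nat.card G) : n ∣ ∑ d ∈ n.divisors, so G d := by
  have h0 : n ≠ 0 := by
    rintro rfl
    exact Nat.card_pos.ne' (Nat.eq_zero_of_zero_dvd hn)
  rw [← sum_so G h0]
  exact Cfsg.Agent.H418.Frob.frobenius_dvd n hn

theorem card_eq_sum_so : ∑ d ∈ (Nat.card G).divisors, so G d = Nat.card G := by
  rw [← sum_so G Nat.card_pos.ne']
  refine Nat.card_congr ⟨fun g => g.1, fun g => ⟨g, pow_card_eq_one'⟩, fun g => rfl, fun g => rfl⟩

end basic

section search

/-- the sum over the divisors of `m` -/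
def psum (m : ℕ) : List (ℕ × ℕ) → ℕ
  | [] => 0
  | p :: l => (bif (m % p.1).beq 0 then p.2 else 0) + psum m l

/-- the total sum -/
def tot : List (ℕ × ℕ) → ℕ
  | [] => 0
  | p :: l => p.2 + tot l

/-- the search -/
def run (vals : List ℕ) (c : ℕ → ℕ) (fin : List (ℕ × ℕ) → Bool) :
    List ℕ → List (ℕ × ℕ) → Bool
  | [], acc => fin acc
  | m :: D, acc => vals.any fun v => (v % c m).beq 0 && (((psum m acc + v) % m).beq 0 &&
      run vals c fin D ((m, v) :: acc))

/-- the pairs for a list of orders -/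
def prs (s : ℕ → ℕ) (D : List ℕ) : List (ℕ × ℕ) := D.reverse.map fun d => (d, s d)

theorem prs_append (s : ℕ → ℕ) (D : List ℕ) (m : ℕ) : prs s (D ++ [m]) = (m, s m) :: prs s D := by
  unfold prs
  rw [List.reverse_append, List.map_append]
  rfl

theorem run_sound (vals : List ℕ) (c : ℕ → ℕ) (fin : List (ℕ × ℕ) → Bool) (s : ℕ → ℕ) (L : List ℕ)
    (H : ∀ D1 m D2, L = D1 ++ m :: D2 → D1 ≠ [] → s m ∈ vals ∧ s m % c m = 0 ∧
      (psum m (prs s D1) + s m) % m = 0) (hfin : fin (prs s L) = true) :
    ∀ D2 D1, D1 ≠ [] → L = D1 ++ D2 → run vals c fin D2 (prs s D1) = true := by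
  intro D2
  induction D2 with
  | nil =>
    intro D1 _ h2
    rw [List.append_nil] at h2
    rw [run, ← h2]
    exact hfin
  | cons m D ih =>
    intro D1 h1 h2
    obtain ⟨k1, k2, k3⟩ := H D1 m D h2 h1
    have k4 := ih (D1 ++ [m]) (by simp) (by rw [h2]; simp)
    rw [prs_append] at k4
    rw [run, List.any_eq_true]
    refine ⟨s m, k1, ?_⟩
    rw [k2, k3, k4]
    rfl

theorem psum_map (m : ℕ) (s : ℕ → ℕ) (l : List ℕ) :
    psum m (l.map fun d => (d, s d)) = ((l.filter fun d => (m % d).beq 0).map s).sum := by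
  induction l with
  | nil => rfl
  | cons d l ih =>
    rw [List.map_cons, psum, ih, List.filter_cons]
    cases h : (m % d).beq 0 with
    | true => simp
    | false => simp

theorem tot_map (s : ℕ → ℕ) (l : List ℕ) :
    tot (l.map fun d => (d, s d)) = (l.map s).sum := by
  induction l with
  | nil => rfl
  | cons d l ih => rw [List.map_cons, tot, ih]; simp

/-- sorted lists of all divisors -/
structure IsDivList (N : ℕ) (L : List ℕ) : Prop where
  sorted : L.Pairwise (· < ·)
  mem : ∀ d, d ∈ L ↔ d ∣ N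

theorem IsDivList.filter {N : ℕ} {L : List ℕ} (h : IsDivList N L) {n : ℕ} (hn : n ∣ N) :
    IsDivList n (L.filter fun d => (n % d).beq 0) where
  sorted := h.sorted.filter _
  mem d := by
    rw [List.mem_filter, h.mem]
    constructor
    · rintro ⟨-, h2⟩
      exact Nat.dvd_of_mod_eq_zero (Nat.eq_of_beq_eq_true h2)
    · intro h2
      refine ⟨h2.trans hn, ?_⟩
      rw [Nat.mod_eq_zero_of_dvd h2]
      rfl

theorem IsDivList.psum_eq {N : ℕ} {L : List ℕ} (h : IsDivList N L) (hN : N ≠ 0) (s : ℕ → ℕ)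
    {D1 D2 : List ℕ} {m : ℕ} (hL : L = D1 ++ m :: D2) :
    psum m (prs s D1) + s m = ∑ d ∈ m.divisors, s d := by
  have hs := h.sorted
  rw [hL, List.pairwise_append] at hs
  obtain ⟨p1, p2, p3⟩ := hs
  have hm : m ∣ N := (h.mem m).1 (by rw [hL]; simp)
  have hm0 : m ≠ 0 := ne_zero_of_dvd_ne_zero hN hm
  unfold prs
  rw [psum_map, List.filter_reverse, List.map_reverse, List.sum_reverse]
  have hnd : (D1.filter fun d => (m % d).beq 0).Nodup :=
    (p1.imp (fun h => Nat.ne_of_lt h)).filter _
  rw [← List.sum_toFinset s hnd]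
  have e : (D1.filter fun d => (m % d).beq 0).toFinset = m.properDivisors := by
    ext d
    rw [List.mem_toFinset, List.mem_filter, Nat.mem_properDivisors]
    constructor
    · rintro ⟨h1, h2⟩
      exact ⟨Nat.dvd_of_mod_eq_zero (Nat.eq_of_beq_eq_true h2), p3 d h1 m (by simp)⟩
    · rintro ⟨h1, h2⟩
      have h3 : d ∈ L := (h.mem d).2 (h1.trans hm)
      rw [hL, List.mem_append, List.mem_cons] at h3
      refine ⟨?_, by rw [Nat.mod_eq_zero_of_dvd h1]; rfl⟩
      rcases h3 with h3 | h3 | h3
      · exact h3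
      · omega
      · have := (List.pairwise_cons.1 p2).1 d h3
        omega
  rw [e, ← Nat.insert_self_properDivisors hm0, Finset.sum_insert (by simp), add_comm]

theorem IsDivList.tot_eq {N : ℕ} {L : List ℕ} (h : IsDivList N L) (hN : N ≠ 0) (s : ℕ → ℕ) :
    tot (prs s L) = ∑ d ∈ N.divisors, s d := by
  unfold prs
  rw [tot_map, List.map_reverse, List.sum_reverse,
    ← List.sum_toFinset s (h.sorted.imp (fun h => Nat.ne_of_lt h))]
  congr 1
  ext d
  rw [List.mem_toFinset, h.mem, Nat.mem_divisors]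
  exact ⟨fun h => ⟨h, hN⟩, fun h => h.1⟩

end search

section main

variable (G : Type u) [Group G] [Finite G]

/-- **soundness of the search** -/
theorem search_sound {vals : List ℕ} (hv : ∀ m, so G m ∈ vals) {c : ℕ → ℕ} {N : ℕ} {L : List ℕ}
    (hL : IsDivList N L) (hc : ∀ m ∈ L, c m = Nat.totient m) (hN : N ∣ Nat.card G)
    {D : List ℕ} (hD : L = 1 :: D) (fin : List (ℕ × ℕ) → Bool)
    (hfin : fin (prs (so G) L) = true) : run vals c fin D [(1, 1)] = true := by
  have h1 : prs (so G) [1] = [(1, 1)] := by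
    unfold prs
    rw [List.reverse_singleton, List.map_singleton, so_one]
  have hN0 : N ≠ 0 := by
    rintro rfl
    exact Nat.card_pos.ne' (Nat.eq_zero_of_zero_dvd hN)
  rw [← h1]
  refine run_sound vals c fin (so G) L ?_ hfin D [1] (by simp) hD
  intro D1 m D2 h2 _
  have hm : m ∈ L := by rw [h2]; simp
  refine ⟨hv m, ?_, ?_⟩
  · rw [hc m hm]
    exact Nat.mod_eq_zero_of_dvd (totient_dvd_so G m)
  · rw [hL.psum_eq hN0 (so G) h2]
    exact Nat.mod_eq_zero_of_dvd (dvd_sum_so G (((hL.mem m).1 hm).trans hN))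

/-- primes dividing the order -/
theorem prime_cond {vals : List ℕ} (hv : ∀ m, so G m ∈ vals) {p : ℕ} (hp : p.Prime)
    (hd : p ∣ Nat.card G) : ∃ v ∈ vals, 0 < v ∧ p ∣ 1 + v ∧ p - 1 ∣ v := by
  refine ⟨so G p, hv p, ?_, ?_, ?_⟩
  · rw [so_pos_iff]
    have : Fact p.Prime := ⟨hp⟩
    exact exists_prime_orderOf_dvd_card' p hd
  · have h := dvd_sum_so G hd
    rwa [hp.sum_divisors, so_one, add_comm] at h
  · have h := totient_dvd_so G p
    rwa [Nat.totient_prime hp] at h

end main

end Cfsg.Agent.H426.Nse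
end

-- part: H426/NseAlt
section
/-!
# The orders of groups with the numbers of elements of given orders of `A₄`, `A₅` or `A₆`
-/

set_option autoImplicit false

namespace Cfsg.Agent.H426.Nse

universe u

/-- the totient of a prime power -/
def tp (x p : ℕ) : ℕ := bif x.beq 1 then 1 else x / p * (p - 1)

/-- the totient of a divisor of `64 * 81 * 25 * 7` -/
def cf (m : ℕ) : ℕ := tp (Nat.gcd m 64) 2 * tp (Nat.gcd m 81) 3 * tp (Nat.gcd m 25) 5 *
  tp (Nat.gcd m 7) 7

theorem tp64 : ∀ x ∈ Nat.divisors 64, tp x 2 = Nat.totient x := by decide +kernel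
theorem tp81 : ∀ x ∈ Nat.divisors 81, tp x 3 = Nat.totient x := by decide +kernel
theorem tp25 : ∀ x ∈ Nat.divisors 25, tp x 5 = Nat.totient x := by decide +kernel
theorem tp7 : ∀ x ∈ Nat.divisors 7, tp x 7 = Nat.totient x := by decide +kernel

theorem cf_eq {m : ℕ} (h : m ∣ 64 * 81 * 25 * 7) : cf m = Nat.totient m := by
  have e : m = Nat.gcd m 64 * Nat.gcd m 81 * Nat.gcd m 25 * Nat.gcd m 7 := by
    rw [← Nat.Coprime.gcd_mul m (by norm_num : Nat.Coprime 64 81),
      ← Nat.Coprime.gcd_mul m (by norm_num : Nat.Coprime (64 * 81) 25),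
      ← Nat.Coprime.gcd_mul m (by norm_num : Nat.Coprime (64 * 81 * 25) 7)]
    exact (Nat.gcd_eq_left h).symm
  have c1 : Nat.Coprime (Nat.gcd m 64) (Nat.gcd m 81) :=
    Nat.Coprime.coprime_dvd_left (Nat.gcd_dvd_right _ _)
      (Nat.Coprime.coprime_dvd_right (Nat.gcd_dvd_right _ _) (by norm_num))
  have c2 : Nat.Coprime (Nat.gcd m 64 * Nat.gcd m 81) (Nat.gcd m 25) :=
    Nat.Coprime.coprime_dvd_left (Nat.mul_dvd_mul (Nat.gcd_dvd_right _ _) (Nat.gcd_dvd_right _ _))
      (Nat.Coprime.coprime_dvd_right (Nat.gcd_dvd_right _ _) (by norm_num))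
  have c3 : Nat.Coprime (Nat.gcd m 64 * Nat.gcd m 81 * Nat.gcd m 25) (Nat.gcd m 7) :=
    Nat.Coprime.coprime_dvd_left (Nat.mul_dvd_mul (Nat.mul_dvd_mul (Nat.gcd_dvd_right _ _)
      (Nat.gcd_dvd_right _ _)) (Nat.gcd_dvd_right _ _))
      (Nat.Coprime.coprime_dvd_right (Nat.gcd_dvd_right _ _) (by norm_num))
  conv_rhs => rw [e]
  rw [Nat.totient_mul c3, Nat.totient_mul c2, Nat.totient_mul c1, cf]
  rw [tp64 _ (Nat.mem_divisors.2 ⟨Nat.gcd_dvd_right _ _, by norm_num⟩),
    tp81 _ (Nat.mem_divisors.2 ⟨Nat.gcd_dvd_right _ _, by norm_num⟩),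
    tp25 _ (Nat.mem_divisors.2 ⟨Nat.gcd_dvd_right _ _, by norm_num⟩),
    tp7 _ (Nat.mem_divisors.2 ⟨Nat.gcd_dvd_right _ _, by norm_num⟩)]

/-- the divisors of `36` -/
def D4 : List ℕ := [1, 2, 3, 4, 6, 9, 12, 18, 36]

/-- the divisors of `14400` -/
def D5 : List ℕ := [1, 2, 3, 4, 5, 6, 8, 9, 10, 12, 15, 16, 18, 20, 24, 25, 30, 32, 36, 40, 45, 48, 50, 60, 64,
  72, 75, 80, 90, 96, 100, 120, 144, 150, 160, 180, 192, 200, 225, 240, 288, 300, 320, 360, 400,
  450, 480, 576, 600, 720, 800, 900, 960, 1200, 1440, 1600, 1800, 2400, 2880, 3600, 4800, 7200,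
  14400]

/-- the divisors of `113400` -/
def D6 : List ℕ := [1, 2, 3, 4, 5, 6, 7, 8, 9, 10, 12, 14, 15, 18, 20, 21, 24, 25, 27, 28, 30, 35, 36, 40, 42, 45,
  50, 54, 56, 60, 63, 70, 72, 75, 81, 84, 90, 100, 105, 108, 120, 126, 135, 140, 150, 162, 168,
  175, 180, 189, 200, 210, 216, 225, 252, 270, 280, 300, 315, 324, 350, 360, 378, 405, 420, 450,
  504, 525, 540, 567, 600, 630, 648, 675, 700, 756, 810, 840, 900, 945, 1050, 1080, 1134, 1260,
  1350, 1400, 1512, 1575, 1620, 1800, 1890, 2025, 2100, 2268, 2520, 2700, 2835, 3150, 3240, 3780,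
  4050, 4200, 4536, 4725, 5400, 5670, 6300, 7560, 8100, 9450, 11340, 12600, 14175, 16200, 18900,
  22680, 28350, 37800, 56700, 113400]

theorem isDivList_small {N : ℕ} (hN : N ≠ 0) {L : List ℕ} (h1 : L.Pairwise (· < ·))
    (h2 : ∀ d ∈ L, N % d = 0) (h3 : ∀ d < N + 1, N % d = 0 → d ∈ L) : IsDivList N L where
  sorted := h1
  mem d := ⟨fun h => Nat.dvd_of_mod_eq_zero (h2 d h), fun h =>
    h3 d (Nat.lt_succ_of_le (Nat.le_of_dvd (Nat.pos_of_ne_zero hN) h)) (Nat.mod_eq_zero_of_dvd h)⟩

theorem isDivList_D4 : IsDivList 36 D4 :=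
  isDivList_small (by norm_num) (by decide +kernel) (by decide +kernel) (by decide +kernel)

theorem dv64 : ∀ x ∈ Nat.divisors 64, x ∈ [1, 2, 4, 8, 16, 32, 64] := by decide +kernel
theorem dv8 : ∀ x ∈ Nat.divisors 8, x ∈ [1, 2, 4, 8] := by decide +kernel
theorem dv81 : ∀ x ∈ Nat.divisors 81, x ∈ [1, 3, 9, 27, 81] := by decide +kernel
theorem dv9 : ∀ x ∈ Nat.divisors 9, x ∈ [1, 3, 9] := by decide +kernel
theorem dv25 : ∀ x ∈ Nat.divisors 25, x ∈ [1, 5, 25] := by decide +kernel
theorem dv7 : ∀ x ∈ Nat.divisors 7, x ∈ [1, 7] := by decide +kernel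

theorem prodD5 : ∀ x ∈ [1, 2, 4, 8, 16, 32, 64], ∀ y ∈ [1, 3, 9], ∀ z ∈ [1, 5, 25],
    x * y * z ∈ D5 := by decide +kernel

theorem prodD6 : ∀ x ∈ [1, 2, 4, 8], ∀ y ∈ [1, 3, 9, 27, 81], ∀ z ∈ [1, 5, 25], ∀ w ∈ [1, 7],
    x * y * z * w ∈ D6 := by decide +kernel

theorem isDivList_D5 : IsDivList 14400 D5 where
  sorted := by decide +kernel
  mem d := by
    have h2 : ∀ d ∈ D5, 14400 % d = 0 := by decide +kernel
    constructor
    · intro h
      exact Nat.dvd_of_mod_eq_zero (h2 d h)
    · intro h
      have e : (14400 : ℕ) = 64 * 9 * 25 := by norm_num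
      rw [e, Nat.dvd_mul] at h
      obtain ⟨xy, z, h3, h4, rfl⟩ := h
      obtain ⟨x, y, h5, h6, rfl⟩ := (Nat.dvd_mul).1 h3
      exact prodD5 x (dv64 x (Nat.mem_divisors.2 ⟨h5, by norm_num⟩)) y
        (dv9 y (Nat.mem_divisors.2 ⟨h6, by norm_num⟩)) z
        (dv25 z (Nat.mem_divisors.2 ⟨h4, by norm_num⟩))

theorem isDivList_D6 : IsDivList 113400 D6 where
  sorted := by decide +kernel
  mem d := by
    have h2 : ∀ d ∈ D6, 113400 % d = 0 := by decide +kernel
    constructor
    · intro h
      exact Nat.dvd_of_mod_eq_zero (h2 d h)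
    · intro h
      have e : (113400 : ℕ) = 8 * 81 * 25 * 7 := by norm_num
      rw [e, Nat.dvd_mul] at h
      obtain ⟨xyz, w, h7, h8, rfl⟩ := h
      obtain ⟨xy, z, h3, h4, rfl⟩ := (Nat.dvd_mul).1 h7
      obtain ⟨x, y, h5, h6, rfl⟩ := (Nat.dvd_mul).1 h3
      exact prodD6 x (dv8 x (Nat.mem_divisors.2 ⟨h5, by norm_num⟩)) y
        (dv81 y (Nat.mem_divisors.2 ⟨h6, by norm_num⟩)) z
        (dv25 z (Nat.mem_divisors.2 ⟨h4, by norm_num⟩)) w
        (dv7 w (Nat.mem_divisors.2 ⟨h8, by norm_num⟩))

/-- the values -/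
def V4 : List ℕ := [0, 1, 3, 8]
/-- the values -/
def V5 : List ℕ := [0, 1, 15, 20, 24]
/-- the values -/
def V6 : List ℕ := [0, 1, 45, 80, 90, 144]

/-- the final check -/
def fn (vals : List ℕ) (N : ℕ) (acc : List (ℕ × ℕ)) : Bool :=
  (tot acc).beq N && vals.all fun v => acc.any fun p => p.2.beq v

/-- the target check -/
def tg (t : List (ℕ × ℕ)) (acc : List (ℕ × ℕ)) : Bool :=
  t.all fun p => acc.any fun r => r.1.beq p.1 && r.2.beq p.2

/-- the divisors of a number -/
def dl (D : List ℕ) (n : ℕ) : List ℕ := D.filter fun d => (n % d).beq 0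

theorem run4 : (D4.all fun N => N.beq 12 || !(run V4 cf (fn [1, 3, 8] N) (dl D4 N).tail [(1, 1)])) =
    true := by decide +kernel

theorem run4' : (run V4 cf (fun acc => fn [1, 3, 8] 12 acc && !(tg [(2, 3), (3, 8)] acc))
    (dl D4 12).tail [(1, 1)]) = false := by decide +kernel

theorem run5 : (D5.all fun N => N.beq 60 ||
    !(run V5 cf (fn [1, 15, 20, 24] N) (dl D5 N).tail [(1, 1)])) = true := by decide +kernel

theorem run5' : (run V5 cf (fun acc => fn [1, 15, 20, 24] 60 acc &&
    !(tg [(2, 15), (3, 20), (5, 24)] acc)) (dl D5 60).tail [(1, 1)]) = false := by decide +kernel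

theorem run6a : ((D6.take 82).all fun N => N.beq 360 ||
    !(run V6 cf (fn [1, 45, 80, 90, 144] N) (dl D6 N).tail [(1, 1)])) = true := by decide +kernel

theorem run6b : (((D6.drop 82).take 13).all fun N => N.beq 360 ||
    !(run V6 cf (fn [1, 45, 80, 90, 144] N) (dl D6 N).tail [(1, 1)])) = true := by decide +kernel

theorem run6c : ((((D6.drop 82).drop 13).take 9).all fun N => N.beq 360 ||
    !(run V6 cf (fn [1, 45, 80, 90, 144] N) (dl D6 N).tail [(1, 1)])) = true := by decide +kernel

theorem run6d : (((((D6.drop 82).drop 13).drop 9).take 8).all fun N => N.beq 360 ||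
    !(run V6 cf (fn [1, 45, 80, 90, 144] N) (dl D6 N).tail [(1, 1)])) = true := by decide +kernel

theorem run6e : (((((D6.drop 82).drop 13).drop 9).drop 8).all fun N => N.beq 360 ||
    !(run V6 cf (fn [1, 45, 80, 90, 144] N) (dl D6 N).tail [(1, 1)])) = true := by decide +kernel

theorem run6 : (D6.all fun N => N.beq 360 ||
    !(run V6 cf (fn [1, 45, 80, 90, 144] N) (dl D6 N).tail [(1, 1)])) = true := by
  have h : ∀ (f : ℕ → Bool) (l : List ℕ) (k : ℕ), (l.take k).all f = true → (l.drop k).all f = true →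
      l.all f = true := by
    intro f l k h1 h2
    rw [← List.take_append_drop k l, List.all_append, h1, h2]
    rfl
  exact h _ _ _ run6a (h _ _ _ run6b (h _ _ _ run6c (h _ _ _ run6d run6e)))

theorem run6' : (run V6 cf (fun acc => fn [1, 45, 80, 90, 144] 360 acc &&
    !(tg [(2, 45), (3, 80), (4, 90), (5, 144)] acc)) (dl D6 360).tail [(1, 1)]) = false := by
  decide +kernel

end Cfsg.Agent.H426.Nse
end

-- part: H426/NseMain
section
/-!
# The orders of groups with the numbers of elements of given orders of `A₄`, `A₅` or `A₆`, II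
-/

set_option autoImplicit false

namespace Cfsg.Agent.H426.Nse

universe u

theorem dvd_of_bounds {n M : ℕ} (ps : List (ℕ × ℕ))
    (h1 : ∀ p : ℕ, p.Prime → p ∣ n → ∃ r ∈ ps, r.1 = p)
    (h2 : ∀ r ∈ ps, ¬ r.1 ^ (r.2 + 1) ∣ n) (h3 : ∀ r ∈ ps, r.1 ^ r.2 ∣ M) : n ∣ M := by
  rw [Nat.dvd_iff_prime_pow_dvd_dvd]
  intro p k hp hk
  rcases Nat.eq_zero_or_pos k with h0 | h0
  · rw [h0, pow_zero]; exact one_dvd _
  · have h4 : p ∣ n := (dvd_pow_self p h0.ne').trans hk
    obtain ⟨r, hr, hrp⟩ := h1 p hp h4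
    have h5 := h2 r hr
    have h6 := h3 r hr
    rw [hrp] at h5 h6
    have h7 : k ≤ r.2 := by
      by_contra h
      exact h5 ((pow_dvd_pow p (by omega)).trans hk)
    exact (pow_dvd_pow p h7).trans h6

section

variable (G : Type u) [Group G] [Finite G]

theorem not_dvd_of_run {vals : List ℕ} (hv : ∀ m, so G m ∈ vals) {N : ℕ} {D : List ℕ}
    (hL : IsDivList N (1 :: D)) (hrun : run vals Nat.totient (fun _ => true) D [(1, 1)] = false) :
    ¬ N ∣ Nat.card G := by
  intro h
  have h1 := search_sound G hv hL (fun _ _ => rfl) h rfl (fun _ => true) rfl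
  rw [hrun] at h1
  exact Bool.false_ne_true h1

theorem final {vals V : List ℕ} (hv : ∀ m, so G m ∈ vals) (hV : ∀ v ∈ V, 0 < v)
    (hatt : ∀ v ∈ V, ∃ m, so G m = v)
    {M : ℕ} {D' : List ℕ} (hM : M ∣ 64 * 81 * 25 * 7) (hD : IsDivList M (1 :: D'))
    (hdvd : Nat.card G ∣ M) {N : ℕ} {t : List (ℕ × ℕ)}
    (h1 : ((1 :: D').all fun K => K.beq N ||
      !(run vals cf (fn V K) (dl (1 :: D') K).tail [(1, 1)])) = true)
    (h2 : (run vals cf (fun acc => fn V N acc && !(tg t acc)) (dl (1 :: D') N).tail [(1, 1)]) =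
      false) :
    Nat.card G = N ∧ ∀ r ∈ t, so G r.1 = r.2 := by
  have hK : Nat.card G ∈ (1 :: D') := (hD.mem _).2 hdvd
  have hL : IsDivList (Nat.card G) (dl (1 :: D') (Nat.card G)) := hD.filter hdvd
  have hLc : dl (1 :: D') (Nat.card G) = 1 :: (dl (1 :: D') (Nat.card G)).tail := by
    unfold dl
    rw [List.filter_cons_of_pos (by rw [Nat.mod_one]; rfl), List.tail_cons]
  have hc : ∀ m ∈ dl (1 :: D') (Nat.card G), cf m = Nat.totient m := fun m hm =>
    cf_eq ((((hL.mem m).1 hm).trans hdvd).trans hM)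
  have hfn : fn V (Nat.card G) (prs (so G) (dl (1 :: D') (Nat.card G))) = true := by
    unfold fn
    rw [Bool.and_eq_true, List.all_eq_true]
    constructor
    · rw [hL.tot_eq Nat.card_pos.ne' (so G), card_eq_sum_so]
      exact Nat.beq_refl _
    · intro v hv'
      obtain ⟨m, hm⟩ := hatt v hv'
      have h3 : 0 < so G m := by rw [hm]; exact hV v hv'
      rw [so_pos_iff] at h3
      obtain ⟨g, hg⟩ := h3
      rw [List.any_eq_true]
      refine ⟨(m, so G m), ?_, ?_⟩
      · unfold prs
        rw [List.mem_map]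
        refine ⟨m, ?_, rfl⟩
        rw [List.mem_reverse, hL.mem, ← hg]
        exact orderOf_dvd_natCard g
      · rw [hm]; exact Nat.beq_refl _
  have hN : Nat.card G = N := by
    have h3 := List.all_eq_true.1 h1 _ hK
    rw [Bool.or_eq_true] at h3
    rcases h3 with h3 | h3
    · exact Nat.eq_of_beq_eq_true h3
    · have h4 := search_sound G hv hL hc dvd_rfl hLc (fn V (Nat.card G)) hfn
      rw [h4] at h3
      exact absurd h3 (by decide)
  refine ⟨hN, ?_⟩
  have h5 : tg t (prs (so G) (dl (1 :: D') (Nat.card G))) = true := by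
    by_contra h
    rw [Bool.not_eq_true] at h
    have h4 := search_sound G hv hL hc dvd_rfl hLc (fun acc => fn V (Nat.card G) acc && !(tg t acc))
      (by rw [hfn, h]; rfl)
    rw [hN, h2] at h4
    exact Bool.false_ne_true h4
  intro r hr
  unfold tg at h5
  have h6 := List.all_eq_true.1 h5 r hr
  rw [List.any_eq_true] at h6
  obtain ⟨q, hq, hq2⟩ := h6
  rw [Bool.and_eq_true] at hq2
  unfold prs at hq
  rw [List.mem_map] at hq
  obtain ⟨m, -, rfl⟩ := hq
  have e1 := Nat.eq_of_beq_eq_true hq2.1
  have e2 := Nat.eq_of_beq_eq_true hq2.2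
  simp only at e1 e2
  rw [← e1, ← e2]

theorem prime_list {vals : List ℕ} (hv : ∀ m, so G m ∈ vals) (B : ℕ) (hB : ∀ v ∈ vals, v < B)
    (ps : List ℕ) (h : ∀ p < B + 1, (∃ v ∈ vals, 0 < v ∧ p ∣ 1 + v ∧ p - 1 ∣ v) →
      (p ∈ ps ∨ p < 2 ∨ ∃ d ∈ [2, 3, 5, 7, 11], d ∣ p ∧ d ≠ p)) {p : ℕ} (hp : p.Prime)
    (hd : p ∣ Nat.card G) : p ∈ ps := by
  obtain ⟨v, h1, h2, h3, h4⟩ := prime_cond G hv hp hd
  have h5 : p < B + 1 := by
    have := Nat.le_of_dvd (by omega) h3
    have := hB v h1
    omega
  rcases h p h5 ⟨v, h1, h2, h3, h4⟩ with h6 | h6 | h6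
  · exact h6
  · exact absurd hp.two_le (by omega)
  · obtain ⟨d, hd1, hd2, hd3⟩ := h6
    have h7 : d ≠ 1 := by
      rintro rfl
      revert hd1
      decide
    exact absurd ((Nat.dvd_prime hp).1 hd2) (by tauto)

theorem order_four (hv : ∀ m, so G m ∈ V4) (hatt : ∀ v ∈ [1, 3, 8], ∃ m, so G m = v) :
    Nat.card G = 12 ∧ ∀ r ∈ [(2, 3), (3, 8)], so G r.1 = r.2 := by
  have hd : Nat.card G ∣ 36 := by
    refine dvd_of_bounds [(2, 2), (3, 2)] ?_ ?_ (by decide)
    · intro p hp hd
      have := prime_list G hv 9 (by decide) [2, 3] (by decide +kernel) hp hd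
      simp only [List.mem_cons, List.not_mem_nil, or_false] at this
      rcases this with rfl | rfl
      · exact ⟨(2, 2), by simp, rfl⟩
      · exact ⟨(3, 2), by simp, rfl⟩
    · intro r hr
      simp only [List.mem_cons, List.not_mem_nil, or_false] at hr
      rcases hr with rfl | rfl
      · exact not_dvd_of_run G hv (N := 8) (D := [2, 4, 8]) (isDivList_small (by norm_num)
          (by decide +kernel) (by decide +kernel) (by decide +kernel)) (by decide +kernel)
      · exact not_dvd_of_run G hv (N := 27) (D := [3, 9, 27]) (isDivList_small (by norm_num)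
          (by decide +kernel) (by decide +kernel) (by decide +kernel)) (by decide +kernel)
  exact final G hv (by decide) hatt (by norm_num) isDivList_D4 hd run4 run4'

theorem order_five (hv : ∀ m, so G m ∈ V5) (hatt : ∀ v ∈ [1, 15, 20, 24], ∃ m, so G m = v) :
    Nat.card G = 60 ∧ ∀ r ∈ [(2, 15), (3, 20), (5, 24)], so G r.1 = r.2 := by
  have hd : Nat.card G ∣ 14400 := by
    refine dvd_of_bounds [(2, 6), (3, 2), (5, 2)] ?_ ?_ (by decide)
    · intro p hp hd
      have := prime_list G hv 25 (by decide) [2, 3, 5] (by decide +kernel) hp hd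
      simp only [List.mem_cons, List.not_mem_nil, or_false] at this
      rcases this with rfl | rfl | rfl
      · exact ⟨(2, 6), by simp, rfl⟩
      · exact ⟨(3, 2), by simp, rfl⟩
      · exact ⟨(5, 2), by simp, rfl⟩
    · intro r hr
      simp only [List.mem_cons, List.not_mem_nil, or_false] at hr
      rcases hr with rfl | rfl | rfl
      · exact not_dvd_of_run G hv (N := 128) (D := [2, 4, 8, 16, 32, 64, 128]) (isDivList_small
          (by norm_num) (by decide +kernel) (by decide +kernel) (by decide +kernel))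
          (by decide +kernel)
      · exact not_dvd_of_run G hv (N := 27) (D := [3, 9, 27]) (isDivList_small (by norm_num)
          (by decide +kernel) (by decide +kernel) (by decide +kernel)) (by decide +kernel)
      · exact not_dvd_of_run G hv (N := 125) (D := [5, 25, 125]) (isDivList_small (by norm_num)
          (by decide +kernel) (by decide +kernel) (by decide +kernel)) (by decide +kernel)
  exact final G hv (by decide) hatt (by norm_num) isDivList_D5 hd run5 run5'

theorem order_six (hv : ∀ m, so G m ∈ V6) (hatt : ∀ v ∈ [1, 45, 80, 90, 144], ∃ m, so G m = v) :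
    Nat.card G = 360 ∧ ∀ r ∈ [(2, 45), (3, 80), (4, 90), (5, 144)], so G r.1 = r.2 := by
  have hd : Nat.card G ∣ 113400 := by
    refine dvd_of_bounds [(2, 3), (3, 4), (5, 2), (7, 1)] ?_ ?_ (by decide)
    · intro p hp hd
      have := prime_list G hv 145 (by decide) [2, 3, 5, 7] (by decide +kernel) hp hd
      simp only [List.mem_cons, List.not_mem_nil, or_false] at this
      rcases this with rfl | rfl | rfl | rfl
      · exact ⟨(2, 3), by simp, rfl⟩
      · exact ⟨(3, 4), by simp, rfl⟩
      · exact ⟨(5, 2), by simp, rfl⟩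
      · exact ⟨(7, 1), by simp, rfl⟩
    · intro r hr
      simp only [List.mem_cons, List.not_mem_nil, or_false] at hr
      rcases hr with rfl | rfl | rfl | rfl
      · exact not_dvd_of_run G hv (N := 16) (D := [2, 4, 8, 16]) (isDivList_small
          (by norm_num) (by decide +kernel) (by decide +kernel) (by decide +kernel))
          (by decide +kernel)
      · exact not_dvd_of_run G hv (N := 243) (D := [3, 9, 27, 81, 243]) (isDivList_small
          (by norm_num) (by decide +kernel) (by decide +kernel) (by decide +kernel))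
          (by decide +kernel)
      · exact not_dvd_of_run G hv (N := 125) (D := [5, 25, 125]) (isDivList_small (by norm_num)
          (by decide +kernel) (by decide +kernel) (by decide +kernel)) (by decide +kernel)
      · exact not_dvd_of_run G hv (N := 49) (D := [7, 49]) (isDivList_small (by norm_num)
          (by decide +kernel) (by decide +kernel) (by decide +kernel)) (by decide +kernel)
  exact final G hv (by decide) hatt (by norm_num) isDivList_D6 hd run6 run6'

end

end Cfsg.Agent.H426.Nse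
end

-- part: H426/NseTab
section
/-!
# The numbers of elements of given orders of `A₄`, `A₅` and `A₆`
-/

set_option autoImplicit false

namespace Cfsg.Agent.H426.Nse

section

variable {A : Type} [Group A] [Fintype A]

theorem so_prime {p : ℕ} (hp : p.Prime) (P : A → Prop) [DecidablePred P]
    (hP : ∀ g, P g ↔ g ^ p = 1 ∧ g ≠ 1) : so A p = (Finset.univ.filter P).card := by
  have : Fact p.Prime := ⟨hp⟩
  unfold so
  rw [Nat.card_eq_fintype_card, Fintype.card_subtype]
  congr 1
  ext g
  rw [Finset.mem_filter, Finset.mem_filter, hP, orderOf_eq_prime_iff]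

theorem orderOf_eq_four (g : A) : orderOf g = 4 ↔ g ^ 4 = 1 ∧ g ^ 2 ≠ 1 := by
  have : Fact (Nat.Prime 2) := ⟨Nat.prime_two⟩
  constructor
  · intro h
    refine ⟨h ▸ pow_orderOf_eq_one g, fun h2 => ?_⟩
    have := orderOf_dvd_of_pow_eq_one h2
    rw [h] at this
    revert this
    decide
  · rintro ⟨h1, h2⟩
    exact orderOf_eq_prime_pow (p := 2) (n := 1) (by simpa using h2) (by simpa using h1)

theorem so_four (P : A → Prop) [DecidablePred P]
    (hP : ∀ g, P g ↔ g ^ 4 = 1 ∧ g ^ 2 ≠ 1) : so A 4 = (Finset.univ.filter P).card := by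
  unfold so
  rw [Nat.card_eq_fintype_card, Fintype.card_subtype]
  congr 1
  ext g
  rw [Finset.mem_filter, Finset.mem_filter, hP, orderOf_eq_four]

end

theorem pow2 {A : Type*} [Group A] (g : A) : g ^ 2 = g * g := sq g
theorem pow3 {A : Type*} [Group A] (g : A) : g ^ 3 = g * g * g := by rw [pow_succ, sq]
theorem pow4 {A : Type*} [Group A] (g : A) : g ^ 4 = g * g * (g * g) := by
  have h : g ^ 4 = g ^ (2 + 2) := rfl
  rw [h, pow_add, sq]
theorem pow5 {A : Type*} [Group A] (g : A) : g ^ 5 = g * g * (g * g) * g := by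
  rw [pow_succ, pow4]

/-- the group -/
abbrev A4 : Type := ↥(alternatingGroup (Fin 4))
/-- the group -/
abbrev A5 : Type := ↥(alternatingGroup (Fin 5))
/-- the group -/
abbrev A6 : Type := ↥(alternatingGroup (Fin 6))

theorem c42 : (Finset.univ.filter fun g : A4 => g * g = 1 ∧ g ≠ 1).card = 3 := by decide +kernel
theorem c43 : (Finset.univ.filter fun g : A4 => g * g * g = 1 ∧ g ≠ 1).card = 8 := by
  decide +kernel
theorem o4 : ∀ g : A4, g = 1 ∨ (g * g = 1 ∧ g ≠ 1) ∨ (g * g * g = 1 ∧ g ≠ 1) := by decide +kernel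

theorem c52 : (Finset.univ.filter fun g : A5 => g * g = 1 ∧ g ≠ 1).card = 15 := by decide +kernel
theorem c53 : (Finset.univ.filter fun g : A5 => g * g * g = 1 ∧ g ≠ 1).card = 20 := by
  decide +kernel
theorem c55 : (Finset.univ.filter fun g : A5 => g * g * (g * g) * g = 1 ∧ g ≠ 1).card = 24 := by
  decide +kernel
theorem o5 : ∀ g : A5, g = 1 ∨ (g * g = 1 ∧ g ≠ 1) ∨ (g * g * g = 1 ∧ g ≠ 1) ∨
    (g * g * (g * g) * g = 1 ∧ g ≠ 1) := by decide +kernel

theorem c62 : (Finset.univ.filter fun g : A6 => g * g = 1 ∧ g ≠ 1).card = 45 := by decide +kernel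
theorem c63 : (Finset.univ.filter fun g : A6 => g * g * g = 1 ∧ g ≠ 1).card = 80 := by
  decide +kernel
theorem c64 : (Finset.univ.filter fun g : A6 => g * g * (g * g) = 1 ∧ g * g ≠ 1).card = 90 := by
  decide +kernel
theorem c65 : (Finset.univ.filter fun g : A6 => g * g * (g * g) * g = 1 ∧ g ≠ 1).card = 144 := by
  decide +kernel
theorem o6 : ∀ g : A6, g = 1 ∨ (g * g = 1 ∧ g ≠ 1) ∨ (g * g * g = 1 ∧ g ≠ 1) ∨
    (g * g * (g * g) = 1 ∧ g * g ≠ 1) ∨ (g * g * (g * g) * g = 1 ∧ g ≠ 1) := by decide +kernel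

theorem s42 : so A4 2 = 3 := by
  rw [so_prime Nat.prime_two (fun g : A4 => g * g = 1 ∧ g ≠ 1) (fun g => by rw [pow2]), c42]
theorem s43 : so A4 3 = 8 := by
  rw [so_prime Nat.prime_three (fun g : A4 => g * g * g = 1 ∧ g ≠ 1) (fun g => by rw [pow3]), c43]

theorem s52 : so A5 2 = 15 := by
  rw [so_prime Nat.prime_two (fun g : A5 => g * g = 1 ∧ g ≠ 1) (fun g => by rw [pow2]), c52]
theorem s53 : so A5 3 = 20 := by
  rw [so_prime Nat.prime_three (fun g : A5 => g * g * g = 1 ∧ g ≠ 1) (fun g => by rw [pow3]), c53]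
theorem s55 : so A5 5 = 24 := by
  rw [so_prime Nat.prime_five (fun g : A5 => g * g * (g * g) * g = 1 ∧ g ≠ 1)
    (fun g => by rw [pow5]), c55]

theorem s62 : so A6 2 = 45 := by
  rw [so_prime Nat.prime_two (fun g : A6 => g * g = 1 ∧ g ≠ 1) (fun g => by rw [pow2]), c62]
theorem s63 : so A6 3 = 80 := by
  rw [so_prime Nat.prime_three (fun g : A6 => g * g * g = 1 ∧ g ≠ 1) (fun g => by rw [pow3]), c63]
theorem s64 : so A6 4 = 90 := by
  rw [so_four (fun g : A6 => g * g * (g * g) = 1 ∧ g * g ≠ 1)
    (fun g => by rw [pow4, pow2]), c64]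
theorem s65 : so A6 5 = 144 := by
  rw [so_prime Nat.prime_five (fun g : A6 => g * g * (g * g) * g = 1 ∧ g ≠ 1)
    (fun g => by rw [pow5]), c65]

theorem ord4 (g : A4) : orderOf g = 1 ∨ orderOf g = 2 ∨ orderOf g = 3 := by
  have : Fact (Nat.Prime 2) := ⟨Nat.prime_two⟩
  have : Fact (Nat.Prime 3) := ⟨Nat.prime_three⟩
  rcases o4 g with h | h | h
  · left; rw [h, orderOf_one]
  · right; left; rwa [orderOf_eq_prime_iff, pow2]
  · right; right; rwa [orderOf_eq_prime_iff, pow3]

theorem ord5 (g : A5) : orderOf g = 1 ∨ orderOf g = 2 ∨ orderOf g = 3 ∨ orderOf g = 5 := by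
  have : Fact (Nat.Prime 2) := ⟨Nat.prime_two⟩
  have : Fact (Nat.Prime 3) := ⟨Nat.prime_three⟩
  have : Fact (Nat.Prime 5) := ⟨Nat.prime_five⟩
  rcases o5 g with h | h | h | h
  · left; rw [h, orderOf_one]
  · right; left; rwa [orderOf_eq_prime_iff, pow2]
  · right; right; left; rwa [orderOf_eq_prime_iff, pow3]
  · right; right; right; rwa [orderOf_eq_prime_iff, pow5]

theorem ord6 (g : A6) : orderOf g = 1 ∨ orderOf g = 2 ∨ orderOf g = 3 ∨ orderOf g = 4 ∨
    orderOf g = 5 := by
  have : Fact (Nat.Prime 2) := ⟨Nat.prime_two⟩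
  have : Fact (Nat.Prime 3) := ⟨Nat.prime_three⟩
  have : Fact (Nat.Prime 5) := ⟨Nat.prime_five⟩
  rcases o6 g with h | h | h | h | h
  · left; rw [h, orderOf_one]
  · right; left; rwa [orderOf_eq_prime_iff, pow2]
  · right; right; left; rwa [orderOf_eq_prime_iff, pow3]
  · right; right; right; left; rwa [orderOf_eq_four, pow4, pow2]
  · right; right; right; right; rwa [orderOf_eq_prime_iff, pow5]

end Cfsg.Agent.H426.Nse
end

-- part: H426/NseId
section
/-!
# Identification of `A₄`, `A₅`, `A₆` from the numbers of elements of given orders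
-/

set_option autoImplicit false

namespace Cfsg.Agent.H426.Nse

universe u

section

variable {G : Type u} [Group G] [Finite G]

theorem orderOf_mem_of_total (S : Finset ℕ) (hS : S ⊆ (Nat.card G).divisors)
    (hsum : ∑ d ∈ S, so G d = Nat.card G) (g : G) : orderOf g ∈ S := by
  by_contra h
  have h1 : orderOf g ∈ (Nat.card G).divisors :=
    Nat.mem_divisors.2 ⟨orderOf_dvd_natCard g, Nat.card_pos.ne'⟩
  have h2 : 0 < so G (orderOf g) := (so_pos_iff G _).2 ⟨g, rfl⟩
  have h3 : ∑ d ∈ insert (orderOf g) S, so G d ≤ ∑ d ∈ (Nat.card G).divisors, so G d :=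
    Finset.sum_le_sum_of_subset (Finset.insert_subset h1 hS)
  rw [Finset.sum_insert h, hsum, card_eq_sum_so] at h3
  omega

omit [Finite G] in
/-- elements whose order is prime to the index of a normal subgroup belong to it -/
theorem mem_of_coprime_index (N : Subgroup G) [N.Normal] {g : G}
    (h : Nat.Coprime (orderOf g) N.index) : g ∈ N := by
  have h1 : orderOf (QuotientGroup.mk g : G ⧸ N) ∣ orderOf g := orderOf_map_dvd (QuotientGroup.mk' N) g
  have h2 : orderOf (QuotientGroup.mk g : G ⧸ N) ∣ N.index := by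
    rw [Subgroup.index]
    exact orderOf_dvd_natCard _
  have h3 : orderOf (QuotientGroup.mk g : G ⧸ N) = 1 :=
    Nat.eq_one_of_dvd_coprimes h h1 h2
  rw [orderOf_eq_one_iff, QuotientGroup.eq_one_iff] at h3
  exact h3

/-- number of elements of given order in a normal subgroup of coprime index -/
theorem card_ge (N : Subgroup G) [N.Normal] (S : Finset ℕ)
    (hS : ∀ m ∈ S, Nat.Coprime m N.index) : ∑ m ∈ S, so G m ≤ Nat.card N := by
  classical
  have := Fintype.ofFinite G
  have e : ∀ m, so G m = (Finset.univ.filter fun g : G => orderOf g = m).card := by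
    intro m
    unfold so
    rw [Nat.card_eq_fintype_card, Fintype.card_subtype]
  rw [Finset.sum_congr rfl (fun m _ => e m), ← Finset.card_biUnion]
  · have h1 : Nat.card N = (Finset.univ.filter fun g : G => g ∈ N).card := by
      rw [Nat.card_eq_fintype_card, ← Fintype.card_subtype]
    rw [h1]
    apply Finset.card_le_card
    intro g hg
    rw [Finset.mem_biUnion] at hg
    obtain ⟨m, hm, hg⟩ := hg
    rw [Finset.mem_filter] at hg ⊢
    refine ⟨Finset.mem_univ _, mem_of_coprime_index N ?_⟩
    rw [hg.2]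
    exact hS m hm
  · intro a ha b hb hab
    rw [Function.onFun, Finset.disjoint_left]
    intro g hga hgb
    rw [Finset.mem_filter] at hga hgb
    exact hab (hga.2.symm.trans hgb.2)

/-- conjugation by an element of prime order without fixed points -/
theorem dvd_card_of_free {p : ℕ} [Fact p.Prime] {y : G} (hy : y ^ p = 1) (T : Set G)
    (hT : ∀ t ∈ T, y * t * y⁻¹ ∈ T) (hfree : ∀ t ∈ T, y * t ≠ t * y) : p ∣ Nat.card T := by
  classical
  have := Fintype.ofFinite G
  let f : Function.End T := fun t => ⟨y * t.1 * y⁻¹, hT t.1 t.2⟩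
  have hf : ∀ (n : ℕ) (t : T), ((f ^ n) t).1 = y ^ n * t.1 * (y ^ n)⁻¹ := by
    intro n
    induction n with
    | zero => intro t; simp; rfl
    | succ n ih =>
      intro t
      rw [pow_succ']
      change y * ((f ^ n) t).1 * y⁻¹ = _
      rw [ih, pow_succ']
      group
  have h1 : f ^ p ^ 1 = 1 := by
    funext t
    apply Subtype.ext
    rw [hf, pow_one, hy]
    simp
    rfl
  have h2 := Equiv.Perm.card_fixedPoints_modEq (p := p) (n := 1) h1
  have h3 : Fintype.card (Function.fixedPoints f) = 0 := by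
    rw [Fintype.card_eq_zero_iff]
    refine ⟨fun t => ?_⟩
    have ht : y * t.1.1 * y⁻¹ = t.1.1 := congrArg Subtype.val t.2
    exact hfree t.1.1 t.1.2 (mul_inv_eq_iff_eq_mul.1 ht)
  rw [h3] at h2
  rw [Nat.card_eq_fintype_card]
  exact (Nat.modEq_zero_iff_dvd).1 h2

theorem four (hc : Nat.card G = 12) (h2 : so G 2 = 3) (h3 : so G 3 = 8) :
    Nonempty (G ≃* alternatingGroup (Fin 4)) := by
  have hord : ∀ g : G, orderOf g ∈ ({1, 2, 3} : Finset ℕ) := by
    apply orderOf_mem_of_total
    · rw [hc]; decide +kernel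
    · rw [hc, Finset.sum_insert (by decide), Finset.sum_insert (by decide), Finset.sum_singleton,
        so_one, h2, h3]
      norm_num
  refine Cfsg.Agent.S0228.result hc (fun z hz hzc => ?_)
  obtain ⟨y, hy⟩ := (so_pos_iff G 3).1 (by rw [h3]; norm_num)
  have hcomm : Commute z y := (Subgroup.mem_center_iff.1 hzc y).symm
  have h := hcomm.orderOf_mul_eq_mul_orderOf_of_coprime (by rw [hz, hy]; norm_num)
  rw [hz, hy] at h
  have h4 := hord (z * y)
  rw [h] at h4
  revert h4
  decide

theorem five (hc : Nat.card G = 60) (h2 : so G 2 = 15) (h3 : so G 3 = 20) (h5 : so G 5 = 24) :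
    Nonempty (G ≃* alternatingGroup (Fin 5)) := by
  have hord : ∀ g : G, orderOf g ∈ ({1, 2, 3, 5} : Finset ℕ) := by
    apply orderOf_mem_of_total
    · rw [hc]; decide +kernel
    · rw [hc, Finset.sum_insert (by decide), Finset.sum_insert (by decide),
        Finset.sum_insert (by decide), Finset.sum_singleton, so_one, h2, h3, h5]
      norm_num
  have hsimple : IsSimpleGroup G := by
    have : Nontrivial G := by
      rw [← Finite.one_lt_card_iff_nontrivial, hc]; norm_num
    refine ⟨fun N hN => ?_⟩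
    have hmul : Nat.card N * N.index = 60 := by rw [Subgroup.card_mul_index, hc]
    have hdiv : N.index ∈ Nat.divisors 60 :=
      Nat.mem_divisors.2 ⟨⟨Nat.card N, by rw [mul_comm]; exact hmul.symm⟩, by norm_num⟩
    have key : ∀ S : Finset ℕ, (∀ m ∈ S, Nat.Coprime m N.index) →
      ∑ m ∈ S, so G m ≤ Nat.card N := card_ge N
    have hd60 : Nat.divisors 60 = {1, 2, 3, 4, 5, 6, 10, 12, 15, 20, 30, 60} := by decide +kernel
    rw [hd60] at hdiv
    simp only [Finset.mem_insert, Finset.mem_singleton] at hdiv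
    rcases hdiv with h | h | h | h | h | h | h | h | h | h | h | h
    · right; exact Subgroup.index_eq_one.1 h
    all_goals rw [h] at hmul key
    · have k := key {1, 3, 5} (by decide)
      rw [Finset.sum_insert (by decide), Finset.sum_insert (by decide), Finset.sum_singleton,
        so_one, h3, h5] at k
      omega
    · have k := key {1, 2, 5} (by decide)
      rw [Finset.sum_insert (by decide), Finset.sum_insert (by decide), Finset.sum_singleton,
        so_one, h2, h5] at k
      omega
    · have k := key {1, 3, 5} (by decide)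
      rw [Finset.sum_insert (by decide), Finset.sum_insert (by decide), Finset.sum_singleton,
        so_one, h3, h5] at k
      omega
    · have k := key {1, 2, 3} (by decide)
      rw [Finset.sum_insert (by decide), Finset.sum_insert (by decide), Finset.sum_singleton,
        so_one, h2, h3] at k
      omega
    · have k := key {1, 5} (by decide)
      rw [Finset.sum_insert (by decide), Finset.sum_singleton, so_one, h5] at k
      omega
    · have k := key {1, 3} (by decide)
      rw [Finset.sum_insert (by decide), Finset.sum_singleton, so_one, h3] at k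
      omega
    · have k := key {1, 5} (by decide)
      rw [Finset.sum_insert (by decide), Finset.sum_singleton, so_one, h5] at k
      omega
    · have k := key {1, 2} (by decide)
      rw [Finset.sum_insert (by decide), Finset.sum_singleton, so_one, h2] at k
      omega
    · have k := key {1, 3} (by decide)
      rw [Finset.sum_insert (by decide), Finset.sum_singleton, so_one, h3] at k
      omega
    · exfalso
      have hN2 : Nat.card N = 2 := by omega
      obtain ⟨z, hz⟩ := (Nat.card_eq_two_iff' (1 : N)).1 hN2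
      have hz1 : z.1 ≠ 1 := fun h => hz.1 (Subtype.ext h)
      have hcen : ∀ y : G, y * z.1 * y⁻¹ = z.1 := by
        intro y
        have h1 : (⟨y * z.1 * y⁻¹, hN.conj_mem z.1 z.2 y⟩ : N) = z :=
          hz.2 _ (fun h => hz1 (by
            have := congrArg Subtype.val h
            simpa using this))
        exact congrArg Subtype.val h1
      obtain ⟨y, hy⟩ := (so_pos_iff G 3).1 (by rw [h3]; norm_num)
      have ho : orderOf z.1 = 2 := by
        have h1 : orderOf z.1 ∣ 2 := by
          rw [← hN2, Subgroup.orderOf_coe]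
          exact orderOf_dvd_natCard z
        rcases (Nat.dvd_prime Nat.prime_two).1 h1 with h1 | h1
        · exact absurd (orderOf_eq_one_iff.1 h1) hz1
        · exact h1
      have hcomm : Commute z.1 y := by
        have h1 := hcen y
        exact (mul_inv_eq_iff_eq_mul.1 h1).symm
      have h4 := hcomm.orderOf_mul_eq_mul_orderOf_of_coprime (by rw [ho, hy]; norm_num)
      rw [ho, hy] at h4
      have h5 := hord (z.1 * y)
      rw [h4] at h5
      revert h5
      decide
    · left
      have hN1 : Nat.card N = 1 := by omega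
      exact Subgroup.eq_bot_of_card_eq N hN1
  exact Cfsg.Agent.S0494.result hc

/-- small normal subgroups on which an element of order 5 acts freely -/
theorem no_small (hord : ∀ g : G, orderOf g ∈ ({1, 2, 3, 4, 5} : Finset ℕ))
    (h5 : 0 < so G 5) (N : Subgroup G) [hN : N.Normal] (_ : Nat.card N ≠ 1)
    (hc : ¬ 5 ∣ Nat.card N) : 5 ∣ Nat.card N - 1 ∧
      ∀ q, q.Prime → q ∣ Nat.card N → 5 ∣ Nat.card {g : G | g ∈ N ∧ orderOf g = q} := by
  have : Fact (Nat.Prime 5) := ⟨Nat.prime_five⟩
  obtain ⟨y, hy⟩ := (so_pos_iff G 5).1 h5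
  have hfree : ∀ t ∈ N, t ≠ 1 → y * t ≠ t * y := by
    intro t ht ht1 hcomm
    have h5t : Nat.Coprime 5 (orderOf t) := by
      rw [Nat.Prime.coprime_iff_not_dvd Nat.prime_five]
      intro h
      apply hc
      have h2 : orderOf t ∣ Nat.card N := by
        have := orderOf_dvd_natCard (⟨t, ht⟩ : N)
        rwa [Subgroup.orderOf_mk] at this
      exact h.trans h2
    have h3 := (Commute.orderOf_mul_eq_mul_orderOf_of_coprime (x := y) (y := t) hcomm
      (by rw [hy]; exact h5t))
    rw [hy] at h3
    have h4 := hord (y * t)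
    have h6 : orderOf t ≠ 1 := fun h => ht1 (orderOf_eq_one_iff.1 h)
    have h7 : 0 < orderOf t := orderOf_pos t
    rw [h3] at h4
    simp only [Finset.mem_insert, Finset.mem_singleton] at h4
    omega
  have hy5 : y ^ 5 = 1 := by rw [← hy]; exact pow_orderOf_eq_one y
  constructor
  · have h2 := dvd_card_of_free hy5 {g : G | g ∈ N ∧ g ≠ 1}
      (fun t ht => ⟨hN.conj_mem t ht.1 y, fun h => ht.2 (by
        have h3 : y * t = y := by rw [mul_inv_eq_iff_eq_mul, one_mul] at h; exact h
        exact mul_eq_left.1 h3)⟩)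
      (fun t ht => hfree t ht.1 ht.2)
    have h3 : Nat.card {g : G | g ∈ N ∧ g ≠ 1} = Nat.card N - 1 := by
      have h4 : {g : G | g ∈ N ∧ g ≠ 1} = (N : Set G) \ {1} := by
        ext g; simp
      have h5 : Nat.card N = (N : Set G).ncard := rfl
      rw [Nat.card_coe_set_eq, h4, h5]
      exact Set.ncard_sdiff_singleton_of_mem N.one_mem
    rwa [h3] at h2
  · intro q hq _
    exact dvd_card_of_free hy5 {g : G | g ∈ N ∧ orderOf g = q}
      (fun t ht => ⟨hN.conj_mem t ht.1 y, by
        have h3 : y * t * y⁻¹ = MulAut.conj y t := rfl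
        rw [h3, MulEquiv.orderOf_eq]; exact ht.2⟩)
      (fun t ht => hfree t ht.1 (fun h => by
        rw [h] at ht
        exact hq.one_lt.ne (orderOf_one (G := G) ▸ ht.2)))

theorem six (hc : Nat.card G = 360) (h2 : so G 2 = 45) (h3 : so G 3 = 80) (h4 : so G 4 = 90)
    (h5 : so G 5 = 144) : Nonempty (G ≃* alternatingGroup (Fin 6)) := by
  have hord : ∀ g : G, orderOf g ∈ ({1, 2, 3, 4, 5} : Finset ℕ) := by
    apply orderOf_mem_of_total
    · rw [hc]; decide +kernel
    · rw [hc, Finset.sum_insert (by decide), Finset.sum_insert (by decide),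
        Finset.sum_insert (by decide), Finset.sum_insert (by decide), Finset.sum_singleton,
        so_one, h2, h3, h4, h5]
      norm_num
  have hsimple : IsSimpleGroup G := by
    have : Nontrivial G := by
      rw [← Finite.one_lt_card_iff_nontrivial, hc]; norm_num
    refine ⟨fun N hN => ?_⟩
    have hmul : Nat.card N * N.index = 360 := by rw [Subgroup.card_mul_index, hc]
    have hdiv : N.index ∈ Nat.divisors 360 :=
      Nat.mem_divisors.2 ⟨⟨Nat.card N, by rw [mul_comm]; exact hmul.symm⟩, by norm_num⟩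
    have key : ∀ S : Finset ℕ, (∀ m ∈ S, Nat.Coprime m N.index) →
      ∑ m ∈ S, so G m ≤ Nat.card N := card_ge N
    have k2 : Nat.Coprime 2 N.index → 136 ≤ Nat.card N := by
      intro h
      have k := key {1, 2, 4} (by
        intro m hm
        simp only [Finset.mem_insert, Finset.mem_singleton] at hm
        rcases hm with rfl | rfl | rfl
        · exact Nat.coprime_one_left _
        · exact h
        · exact Nat.Coprime.pow_left 2 h)
      rw [Finset.sum_insert (by decide), Finset.sum_insert (by decide), Finset.sum_singleton,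
        so_one, h2, h4] at k
      omega
    have k3 : Nat.Coprime 3 N.index → 81 ≤ Nat.card N := by
      intro h
      have k := key {1, 3} (by
        intro m hm
        simp only [Finset.mem_insert, Finset.mem_singleton] at hm
        rcases hm with rfl | rfl
        · exact Nat.coprime_one_left _
        · exact h)
      rw [Finset.sum_insert (by decide), Finset.sum_singleton, so_one, h3] at k
      omega
    have k5 : Nat.Coprime 5 N.index → 145 ≤ Nat.card N := by
      intro h
      have k := key {1, 5} (by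
        intro m hm
        simp only [Finset.mem_insert, Finset.mem_singleton] at hm
        rcases hm with rfl | rfl
        · exact Nat.coprime_one_left _
        · exact h)
      rw [Finset.sum_insert (by decide), Finset.sum_singleton, so_one, h5] at k
      omega
    have k35 : Nat.Coprime 3 N.index → Nat.Coprime 5 N.index → 225 ≤ Nat.card N := by
      intro h h'
      have k := key {1, 3, 5} (by
        intro m hm
        simp only [Finset.mem_insert, Finset.mem_singleton] at hm
        rcases hm with rfl | rfl | rfl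
        · exact Nat.coprime_one_left _
        · exact h
        · exact h')
      rw [Finset.sum_insert (by decide), Finset.sum_insert (by decide), Finset.sum_singleton,
        so_one, h3, h5] at k
      omega
    have hd : Nat.divisors 360 = {1, 2, 3, 4, 5, 6, 8, 9, 10, 12, 15, 18, 20, 24, 30, 36, 40, 45,
        60, 72, 90, 120, 180, 360} := by decide +kernel
    rw [hd] at hdiv
    simp only [Finset.mem_insert, Finset.mem_singleton] at hdiv
    rcases hdiv with h | h | h | h | h | h | h | h | h | h | h | h | h | h | h | h | h | h | h |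
      h | h | h | h | h
    · right; exact Subgroup.index_eq_one.1 h
    -- 2
    · rw [h] at hmul k35; have := k35 (by norm_num) (by norm_num); omega
    -- 3
    · rw [h] at hmul k2; have := k2 (by norm_num); omega
    -- 4
    · rw [h] at hmul k35; have := k35 (by norm_num) (by norm_num); omega
    -- 5
    · rw [h] at hmul k2; have := k2 (by norm_num); omega
    -- 6
    · rw [h] at hmul k5; have := k5 (by norm_num); omega
    -- 8
    · rw [h] at hmul k5; have := k5 (by norm_num); omega
    -- 9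
    · rw [h] at hmul k5; have := k5 (by norm_num); omega
    -- 10
    · rw [h] at hmul k3; have := k3 (by norm_num); omega
    -- 12
    · rw [h] at hmul k5; have := k5 (by norm_num); omega
    -- 15
    · rw [h] at hmul k2; have := k2 (by norm_num); omega
    -- 18
    · rw [h] at hmul k5; have := k5 (by norm_num); omega
    -- 20
    · rw [h] at hmul k3; have := k3 (by norm_num); omega
    -- 24
    · rw [h] at hmul k5; have := k5 (by norm_num); omega
    -- 30
    · exfalso
      rw [h] at hmul
      have hN' : Nat.card N = 12 := by omega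
      have h6 := (no_small hord (by rw [h5]; norm_num) N (by omega) (by rw [hN']; norm_num)).1
      rw [hN'] at h6
      revert h6; decide
    -- 36
    · rw [h] at hmul k5; have := k5 (by norm_num); omega
    -- 40
    · rw [h] at hmul k3; have := k3 (by norm_num); omega
    -- 45
    · rw [h] at hmul k2; have := k2 (by norm_num); omega
    -- 60
    · exfalso
      rw [h] at hmul
      have hN' : Nat.card N = 6 := by omega
      have h6 := (no_small hord (by rw [h5]; norm_num) N (by omega) (by rw [hN']; norm_num)).2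
      have hle : ∀ q, q.Prime → q ∣ 6 → 5 ≤ Nat.card {g : G | g ∈ N ∧ orderOf g = q} := by
        intro q hq hq6
        have : Fact q.Prime := ⟨hq⟩
        apply Nat.le_of_dvd _ (h6 q hq (by rw [hN']; exact hq6))
        obtain ⟨x, hx⟩ := exists_prime_orderOf_dvd_card' (G := N) q (by rw [hN']; exact hq6)
        rw [Nat.card_pos_iff]
        exact ⟨⟨⟨x.1, x.2, by rw [Subgroup.orderOf_coe, hx]⟩⟩, inferInstance⟩
      have e2 := hle 2 Nat.prime_two (by norm_num)
      have e3 := hle 3 Nat.prime_three (by norm_num)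
      have hdisj : Disjoint {g : G | g ∈ N ∧ orderOf g = 2} {g : G | g ∈ N ∧ orderOf g = 3} := by
        rw [Set.disjoint_left]
        rintro g ⟨_, hg⟩ ⟨_, hg'⟩
        omega
      have hun : ({g : G | g ∈ N ∧ orderOf g = 2} ∪ {g : G | g ∈ N ∧ orderOf g = 3}).ncard ≤
          (N : Set G).ncard := by
        apply Set.ncard_le_ncard _ (Set.toFinite _)
        rintro g (hg | hg)
        · exact hg.1
        · exact hg.1
      rw [Set.ncard_union_eq hdisj (Set.toFinite _) (Set.toFinite _)] at hun
      have h7 : Nat.card N = (N : Set G).ncard := rfl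
      rw [Nat.card_coe_set_eq] at e2 e3
      omega
    -- 72
    · rw [h] at hmul k5; have := k5 (by norm_num); omega
    -- 90
    · exfalso
      rw [h] at hmul
      have hN' : Nat.card N = 4 := by omega
      have h6 := (no_small hord (by rw [h5]; norm_num) N (by omega) (by rw [hN']; norm_num)).1
      rw [hN'] at h6
      revert h6; decide
    -- 120
    · exfalso
      rw [h] at hmul
      have hN' : Nat.card N = 3 := by omega
      have h6 := (no_small hord (by rw [h5]; norm_num) N (by omega) (by rw [hN']; norm_num)).1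
      rw [hN'] at h6
      revert h6; decide
    -- 180
    · exfalso
      rw [h] at hmul
      have hN' : Nat.card N = 2 := by omega
      have h6 := (no_small hord (by rw [h5]; norm_num) N (by omega) (by rw [hN']; norm_num)).1
      rw [hN'] at h6
      revert h6; decide
    -- 360
    · left
      rw [h] at hmul
      exact Subgroup.eq_bot_of_card_eq N (by omega)
  exact Cfsg.Agent.S0497.result hc

end

end Cfsg.Agent.H426.Nse
end

-- part: S3431
section
set_option autoImplicit false
open Cfsg

namespace Cfsg.Agent.S3431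

open Cfsg.Agent.H426.Nse

theorem transfer {G A : Type*} [Group G] [Finite G] [Group A] [Finite A]
    (h : ((fun m : ℕ => Nat.card {g : G // orderOf g = m}) '' Set.range (orderOf : G → ℕ)) =
      ((fun m : ℕ => Nat.card {g : A // orderOf g = m}) '' Set.range (orderOf : A → ℕ)))
    {vals : List ℕ} (hA : ∀ g : A, so A (orderOf g) ∈ vals) :
    ∀ m, so G m ∈ 0 :: vals := by
  intro m
  rcases Nat.eq_zero_or_pos (so G m) with h0 | h0
  · rw [h0]; simp
  · obtain ⟨g, hg⟩ := (so_pos_iff G m).1 h0
    have h1 : so G m ∈ ((fun m : ℕ => Nat.card {g : G // orderOf g = m}) ''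
        Set.range (orderOf : G → ℕ)) := ⟨m, ⟨g, hg⟩, rfl⟩
    rw [h] at h1
    obtain ⟨k, ⟨a, ha⟩, hk⟩ := h1
    have h2 : so A k = so G m := hk
    rw [← h2, ← ha]
    exact List.mem_cons_of_mem _ (hA a)

theorem transfer' {G A : Type*} [Group G] [Finite G] [Group A] [Finite A]
    (h : ((fun m : ℕ => Nat.card {g : G // orderOf g = m}) '' Set.range (orderOf : G → ℕ)) =
      ((fun m : ℕ => Nat.card {g : A // orderOf g = m}) '' Set.range (orderOf : A → ℕ)))
    (k : ℕ) (hk : 0 < so A k) : ∃ m, so G m = so A k := by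
  obtain ⟨a, ha⟩ := (so_pos_iff A k).1 hk
  have h1 : so A k ∈ ((fun m : ℕ => Nat.card {g : A // orderOf g = m}) ''
      Set.range (orderOf : A → ℕ)) := ⟨k, ⟨a, ha⟩, rfl⟩
  rw [← h] at h1
  obtain ⟨m, -, hm⟩ := h1
  exact ⟨m, hm⟩

/-- Let n be 4, 5 or 6 and let G be a finite group whose set of sizes of same-order classes (the set of numbers #{g : o(g) = m} over the element orders m of G) equals that of the alternating group of degree n. Then G is isomorphic to that alternating group. -/
theorem result {G : Type*} [Group G] [Finite G] (n : ℕ) (hn : n = 4 ∨ n = 5 ∨ n = 6)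
    (h : ((fun m : ℕ => Nat.card {g : G // orderOf g = m}) '' Set.range (orderOf : G → ℕ)) = ((fun m : ℕ => Nat.card {g : ↥(alternatingGroup (Fin n)) // orderOf g = m}) '' Set.range (orderOf : ↥(alternatingGroup (Fin n)) → ℕ))) :
    Nonempty (G ≃* ↥(alternatingGroup (Fin n))) := by
  rcases hn with rfl | rfl | rfl
  · have hv : ∀ m, so G m ∈ V4 := transfer (A := A4) (vals := [1, 3, 8]) h (fun g => by
      rcases ord4 g with h | h | h
      · rw [h, so_one]; decide
      · rw [h, s42]; decide
      · rw [h, s43]; decide)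
    have ha : ∀ v ∈ [1, 3, 8], ∃ m, so G m = v := by
      intro v hv
      simp only [List.mem_cons, List.not_mem_nil, or_false] at hv
      rcases hv with rfl | rfl | rfl
      · exact ⟨1, so_one G⟩
      · obtain ⟨m, hm⟩ := transfer' (A := A4) h 2 (by rw [s42]; norm_num)
        exact ⟨m, hm.trans s42⟩
      · obtain ⟨m, hm⟩ := transfer' (A := A4) h 3 (by rw [s43]; norm_num)
        exact ⟨m, hm.trans s43⟩
    obtain ⟨hc, ht⟩ := order_four G hv ha
    exact four hc (ht (2, 3) (by simp)) (ht (3, 8) (by simp))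
  · have hv : ∀ m, so G m ∈ V5 := transfer (A := A5) (vals := [1, 15, 20, 24]) h (fun g => by
      rcases ord5 g with h | h | h | h
      · rw [h, so_one]; decide
      · rw [h, s52]; decide
      · rw [h, s53]; decide
      · rw [h, s55]; decide)
    have ha : ∀ v ∈ [1, 15, 20, 24], ∃ m, so G m = v := by
      intro v hv
      simp only [List.mem_cons, List.not_mem_nil, or_false] at hv
      rcases hv with rfl | rfl | rfl | rfl
      · exact ⟨1, so_one G⟩
      · obtain ⟨m, hm⟩ := transfer' (A := A5) h 2 (by rw [s52]; norm_num)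
        exact ⟨m, hm.trans s52⟩
      · obtain ⟨m, hm⟩ := transfer' (A := A5) h 3 (by rw [s53]; norm_num)
        exact ⟨m, hm.trans s53⟩
      · obtain ⟨m, hm⟩ := transfer' (A := A5) h 5 (by rw [s55]; norm_num)
        exact ⟨m, hm.trans s55⟩
    obtain ⟨hc, ht⟩ := order_five G hv ha
    exact five hc (ht (2, 15) (by simp)) (ht (3, 20) (by simp)) (ht (5, 24) (by simp))
  · have hv : ∀ m, so G m ∈ V6 := transfer (A := A6) (vals := [1, 45, 80, 90, 144]) h (fun g => by
      rcases ord6 g with h | h | h | h | h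
      · rw [h, so_one]; decide
      · rw [h, s62]; decide
      · rw [h, s63]; decide
      · rw [h, s64]; decide
      · rw [h, s65]; decide)
    have ha : ∀ v ∈ [1, 45, 80, 90, 144], ∃ m, so G m = v := by
      intro v hv
      simp only [List.mem_cons, List.not_mem_nil, or_false] at hv
      rcases hv with rfl | rfl | rfl | rfl | rfl
      · exact ⟨1, so_one G⟩
      · obtain ⟨m, hm⟩ := transfer' (A := A6) h 2 (by rw [s62]; norm_num)
        exact ⟨m, hm.trans s62⟩
      · obtain ⟨m, hm⟩ := transfer' (A := A6) h 3 (by rw [s63]; norm_num)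
        exact ⟨m, hm.trans s63⟩
      · obtain ⟨m, hm⟩ := transfer' (A := A6) h 4 (by rw [s64]; norm_num)
        exact ⟨m, hm.trans s64⟩
      · obtain ⟨m, hm⟩ := transfer' (A := A6) h 5 (by rw [s65]; norm_num)
        exact ⟨m, hm.trans s65⟩
    obtain ⟨hc, ht⟩ := order_six G hv ha
    exact six hc (ht (2, 45) (by simp)) (ht (3, 80) (by simp)) (ht (4, 90) (by simp))
      (ht (5, 144) (by simp))

end Cfsg.Agent.S3431
end
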