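import Cfsg.Statements.S3705
import Cfsg.Agent.H432.SymEnd
set_option linter.all false

set_option autoImplicit false
open Cfsg

namespace Cfsg.Agent.S3705

/-- Let G be a finite group acting faithfully and 2-transitively on a finite set Ω of size n, and let H be a subgroup of index n in G which is not transitive on Ω and fixes no point of Ω. Suppose H has a nontrivial solvable normal subgroup N that fixes some point of Ω. Then there are an integer m ≥ 2 and a finite field F with #Ω = (#F^(m+1) − 1)/(#F − 1), and G has a normal subgroup isomorphic to PSL_{m+1}(F) whose centralizer in G is trivial (so that G lies between PSL_{m+1}(F) and its automorphism group; in the original formulation, PSL_{m+1}(q) ≤ G ≤ PΓL_{m+1}(q) acting on the points of the projective space). -/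
theorem result {G Ω : Type*} [Group G] [Finite G] [MulAction G Ω] [FaithfulSMul G Ω] [Finite Ω] (h2 : MulAction.IsMultiplyPretransitive G Ω 2) (H : Subgroup G) (hidx : H.index = Nat.card Ω) (hnt : ¬ MulAction.IsPretransitive H Ω) (hfix : ∀ a : Ω, ∃ h : H, h • a ≠ a) (N : Subgroup H) (hN : N.Normal) (hN1 : N ≠ ⊥) (hsol : Group.IsSolvable N) (hNfix : ∃ a : Ω, ∀ x ∈ N, x • a = a) : ∃ (m : ℕ) (F : Type) (_ : Field F) (_ : Fintype F), 2 ≤ m ∧ Nat.card Ω = (Fintype.card F ^ (m + 1) - 1) / (Fintype.card F - 1) ∧ ∃ N : Subgroup G, N.Normal ∧ Nonempty (N ≃* Matrix.ProjectiveSpecialLinearGroup (Fin (m + 1)) F) ∧ Subgroup.centralizer (N : Set G) = ⊥ := by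
  obtain ⟨a, ha⟩ := hNfix
  obtain ⟨x, hx⟩ := Subgroup.ne_bot_iff_exists_ne_one.1 hN1
  refine Cfsg.Agent.H432.SymDes.main h2 H hidx hnt hfix ⟨a, x.1, fun e => hx (Subtype.ext e), ?_⟩
  rintro _ ⟨g, rfl⟩
  have h1 := ha (g⁻¹ * x.1 * g) (by simpa using hN.conj_mem x.1 x.2 g⁻¹)
  rw [mul_smul, mul_smul, inv_smul_eq_iff] at h1
  exact h1

end Cfsg.Agent.S3705
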