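import Mathlib
import Cfsg.Statements.S3707
set_option linter.all false

-- part: H433/JordanSet
section
/-!
# Small Jordan sets in primitive groups
-/

set_option autoImplicit false

namespace Cfsg.Agent.H433

open MulAction Pointwise

section

variable {G Ω : Type*} [Group G] [MulAction G Ω]

/-- `A` is a Jordan set (possibly with one point): the pointwise stabiliser of its complement is
transitive on it. -/
def Jor (G : Type*) {Ω : Type*} [Group G] [MulAction G Ω] (A : Set Ω) : Prop :=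
  ∀ x ∈ A, ∀ y ∈ A, ∃ g : G, (∀ z ∉ A, g • z = z) ∧ g • x = y

theorem jor_union {A B : Set Ω} (hA : Jor G A) (hB : Jor G B) {c : Ω} (hcA : c ∈ A)
    (hcB : c ∈ B) : Jor G (A ∪ B) := by
  have key : ∀ x ∈ A ∪ B, ∃ g : G, (∀ z ∉ A ∪ B, g • z = z) ∧ g • x = c := by
    rintro x (hx | hx)
    · obtain ⟨g, hg, h⟩ := hA x hx c hcA
      exact ⟨g, fun z hz => hg z (fun h => hz (Or.inl h)), h⟩
    · obtain ⟨g, hg, h⟩ := hB x hx c hcB
      exact ⟨g, fun z hz => hg z (fun h => hz (Or.inr h)), h⟩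
  intro x hx y hy
  obtain ⟨g, hg, h⟩ := key x hx
  obtain ⟨k, hk, h'⟩ := key y hy
  refine ⟨k⁻¹ * g, fun z hz => ?_, ?_⟩
  · rw [mul_smul, hg z hz, inv_smul_eq_iff, hk z hz]
  · rw [mul_smul, h, ← h', inv_smul_smul]

theorem jor_smul {A : Set Ω} (hA : Jor G A) (g : G) : Jor G (g • A) := by
  rintro _ ⟨x, hx, rfl⟩ _ ⟨y, hy, rfl⟩
  obtain ⟨k, hk, h⟩ := hA x hx y hy
  refine ⟨g * k * g⁻¹, fun z hz => ?_, ?_⟩
  · have : g⁻¹ • z ∉ A := fun h' => hz ⟨g⁻¹ • z, h', smul_inv_smul g z⟩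
    rw [mul_smul, mul_smul, hk _ this, smul_inv_smul]
  · change (g * k * g⁻¹) • g • x = g • y
    rw [mul_smul, mul_smul, inv_smul_smul, h]

/-- Jordan's theorem gives double transitivity -/
theorem two_of_jor [Finite Ω] (hprim : IsPreprimitive G Ω) {A : Set Ω} (hA : Jor G A)
    (h1 : 1 < A.ncard) (h2 : 1 ≤ Aᶜ.ncard) : IsMultiplyPretransitive G Ω 2 := by
  have h3 := Set.ncard_add_ncard_compl A
  refine hprim.is_two_pretransitive (s := Aᶜ) (n := Aᶜ.ncard - 1) (by omega) (by omega) ?_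
  refine ⟨?_⟩
  rintro ⟨x, hx⟩ ⟨y, hy⟩
  rw [SubMulAction.mem_ofFixingSubgroup_iff, Set.mem_compl_iff, not_not] at hx hy
  obtain ⟨g, hg, h⟩ := hA x hx y hy
  refine ⟨⟨g, ?_⟩, ?_⟩
  · rw [mem_fixingSubgroup_iff]
    intro z hz
    exact hg z hz
  · exact Subtype.ext h

theorem three_of_jor (h2t : IsMultiplyPretransitive G Ω 2) {a b : Ω} (hab : a ≠ b)
    (hA : Jor G (({a, b} : Set Ω)ᶜ)) : IsMultiplyPretransitive G Ω 3 := by
  rw [is_two_pretransitive_iff] at h2t
  rw [isMultiplyPretransitive_iff]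
  intro x y
  obtain ⟨g, hg0, hg1⟩ := h2t (a := x 0) (b := x 1) (c := a) (d := b)
    (fun h => absurd (x.injective h) (by decide)) hab
  obtain ⟨k, hk0, hk1⟩ := h2t (a := y 0) (b := y 1) (c := a) (d := b)
    (fun h => absurd (y.injective h) (by decide)) hab
  have hx : g • x 2 ∈ (({a, b} : Set Ω)ᶜ) := by
    rintro (h | h)
    · rw [← hg0] at h
      exact absurd (x.injective (smul_left_cancel g h)) (by decide)
    · rw [Set.mem_singleton_iff, ← hg1] at h
      exact absurd (x.injective (smul_left_cancel g h)) (by decide)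
  have hy : k • y 2 ∈ (({a, b} : Set Ω)ᶜ) := by
    rintro (h | h)
    · rw [← hk0] at h
      exact absurd (y.injective (smul_left_cancel k h)) (by decide)
    · rw [Set.mem_singleton_iff, ← hk1] at h
      exact absurd (y.injective (smul_left_cancel k h)) (by decide)
  obtain ⟨r, hr, hr'⟩ := hA _ hx _ hy
  refine ⟨k⁻¹ * r * g, ?_⟩
  ext i
  rw [Function.Embedding.smul_apply, mul_smul, mul_smul, inv_smul_eq_iff]
  fin_cases i
  · change r • g • x 0 = k • y 0
    rw [hg0, hk0]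
    exact hr a (by simp)
  · change r • g • x 1 = k • y 1
    rw [hg1, hk1]
    exact hr b (by simp)
  · exact hr'

end

section

variable {G Ω : Type*} [Group G] [MulAction G Ω] [Finite Ω]

omit [Finite Ω] in
theorem ncard_smul (g : G) (A : Set Ω) : (g • A).ncard = A.ncard :=
  Set.ncard_image_of_injective A (MulAction.injective g)

theorem two_le_ncard_of_mem {A : Set Ω} {x y : Ω} (hx : x ∈ A) (hy : y ∈ A) (hxy : x ≠ y) :
    2 ≤ A.ncard := by
  have : ({x, y} : Set Ω) ⊆ A := by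
    rintro z (rfl | rfl)
    · exact hx
    · exact hy
  rw [← Set.ncard_pair hxy]
  exact Set.ncard_le_ncard this (Set.toFinite _)

/-- the minimal complement of a Jordan set with at least two points has two points -/
theorem exists_pair_of_jor (hprim : IsPreprimitive G Ω) {C : Set Ω} (hC : Jor G C)
    (h1 : 1 < C.ncard) (h2 : 2 * C.ncard ≤ Nat.card Ω) :
    ∃ a b : Ω, a ≠ b ∧ Jor G (({a, b} : Set Ω)ᶜ) := by
  classical
  have hcard : ∀ A : Set Ω, A.ncard + Aᶜ.ncard = Nat.card Ω := Set.ncard_add_ncard_compl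
  have h2t := two_of_jor hprim hC h1 (by have := hcard C; omega)
  rw [is_two_pretransitive_iff] at h2t
  -- minimal complement
  have hex : ∃ k : ℕ, ∃ A : Set Ω, Jor G A ∧ Aᶜ.ncard = k ∧ 2 ≤ k :=
    ⟨Cᶜ.ncard, C, hC, rfl, by have := hcard C; omega⟩
  obtain ⟨A, hA, hAk, hk2⟩ := Nat.find_spec hex
  set m := Nat.find hex with hm
  have hmin : ∀ B : Set Ω, Jor G B → 2 ≤ Bᶜ.ncard → m ≤ Bᶜ.ncard := fun B hB h =>
    Nat.find_min' hex ⟨B, hB, rfl, h⟩
  have hmC : m ≤ Cᶜ.ncard := hmin C hC (by have := hcard C; omega)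
  rcases Nat.lt_or_ge m 3 with hm3 | hm3
  · have : Aᶜ.ncard = 2 := by omega
    obtain ⟨a, b, hab, h⟩ := Set.ncard_eq_two.1 this
    refine ⟨a, b, hab, ?_⟩
    rw [← h, compl_compl]
    exact hA
  exfalso
  have hA2 : 1 < A.ncard := by
    have := hcard A
    have := hcard C
    omega
  have hgA : ∀ g : G, (g • A).ncard = A.ncard := fun g => ncard_smul g A
  have hgAc : ∀ g : G, ((g • A)ᶜ).ncard = m := by
    intro g
    have := hcard A
    have := hcard (g • A)
    have := hgA g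
    omega
  -- a union of two translates with a common point
  have hstep : ∀ g h : G, ∀ c ∈ g • A, c ∈ h • A → 2 ≤ ((g • A)ᶜ ∩ (h • A)ᶜ).ncard →
      g • A = h • A := by
    intro g h c hcg hch hc2
    have hU := jor_union (jor_smul hA g) (jor_smul hA h) hcg hch
    have h3 := hmin _ hU (by rw [Set.compl_union]; exact hc2)
    rw [Set.compl_union] at h3
    have h4 : (g • A)ᶜ ∩ (h • A)ᶜ = (g • A)ᶜ :=
      Set.eq_of_subset_of_ncard_le Set.inter_subset_left (by rw [hgAc]; exact h3)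
        (Set.toFinite _)
    have h5 : (g • A)ᶜ ∩ (h • A)ᶜ = (h • A)ᶜ :=
      Set.eq_of_subset_of_ncard_le Set.inter_subset_right (by rw [hgAc]; exact h3)
        (Set.toFinite _)
    exact compl_injective (h4.symm.trans h5)
  -- `A` is large
  have hbig : Nat.card Ω < 2 * A.ncard := by
    by_contra hsmall
    push Not at hsmall
    -- `A` is not a block
    have hnb : ∃ h : G, h • A ≠ A ∧ (h • A ∩ A).Nonempty := by
      by_contra hno
      push Not at hno
      have hblock : IsBlock G A := by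
        rw [isBlock_iff_smul_eq_of_nonempty]
        intro g hg
        by_contra hne
        exact (Set.nonempty_iff_ne_empty.1 hg) (hno g hne)
      rcases hprim.isTrivialBlock_of_isBlock hblock with hs | ht
      · have := Set.ncard_le_one_iff_subsingleton.2 hs
        omega
      · rw [ht, Set.ncard_univ] at hsmall hA2
        omega
    obtain ⟨h, hne, α, hαh, hαA⟩ := hnb
    have hA1 : (1 : G) • A = A := one_smul G A
    -- intersections have at most one point
    have hint : ∀ g k : G, g • A ≠ k • A → ∀ c ∈ g • A, c ∈ k • A →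
        (g • A ∩ k • A).ncard ≤ 1 ∧ Nat.card Ω ≤ (g • A ∪ k • A).ncard + 1 ∧
        2 * A.ncard = Nat.card Ω := by
      intro g k hgk c hcg hck
      have h3 : ((g • A)ᶜ ∩ (k • A)ᶜ).ncard < 2 := by
        by_contra hge
        exact hgk (hstep g k c hcg hck (by omega))
      rw [← Set.compl_union] at h3
      have h4 := hcard (g • A ∪ k • A)
      have h5 := Set.ncard_union_add_ncard_inter (g • A) (k • A)
      rw [hgA, hgA] at h5
      have h6 : 1 ≤ (g • A ∩ k • A).ncard := by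
        rw [Nat.one_le_iff_ne_zero, Ne, Set.ncard_eq_zero]
        exact Set.nonempty_iff_ne_empty.1 ⟨c, hcg, hck⟩
      omega
    obtain ⟨hi1, hU1, hhalf⟩ := hint h 1 (by rw [hA1]; exact hne) α hαh (by rw [hA1]; exact hαA)
    rw [hA1] at hi1 hU1
    have h5 := Set.ncard_union_add_ncard_inter (h • A) A
    rw [hgA] at h5
    have h6 : 1 ≤ (h • A ∩ A).ncard := by
      rw [Nat.one_le_iff_ne_zero, Ne, Set.ncard_eq_zero]
      exact Set.nonempty_iff_ne_empty.1 ⟨α, hαh, hαA⟩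
    have h7 := hcard (h • A ∪ A)
    have h8 : ((h • A ∪ A)ᶜ).ncard = 1 := by omega
    obtain ⟨γ, hγ⟩ := Set.ncard_eq_one.1 h8
    have hγ' : γ ∉ h • A ∪ A := by
      have : γ ∈ (h • A ∪ A)ᶜ := by rw [hγ]; rfl
      exact this
    have hγα : α ≠ γ := by
      rintro rfl
      exact hγ' (Or.inr hαA)
    obtain ⟨a₁, a₂, ha₁, ha₂, ha₁₂⟩ := (Set.one_lt_ncard_iff (Set.toFinite _)).1 hA2
    obtain ⟨k, hk₁, hk₂⟩ := h2t ha₁₂ hγα
    have hαk : α ∈ k • A := ⟨a₁, ha₁, hk₁⟩
    have hγk : γ ∈ k • A := ⟨a₂, ha₂, hk₂⟩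
    obtain ⟨hi2, -, -⟩ := hint k h (by
      intro h9
      rw [h9] at hγk
      exact hγ' (Or.inl hγk)) α hαk hαh
    obtain ⟨hi3, -, -⟩ := hint k 1 (by
      intro h9
      rw [h9, hA1] at hγk
      exact hγ' (Or.inr hγk)) α hαk (by rw [hA1]; exact hαA)
    rw [hA1] at hi3
    have hsub : k • A ⊆ {α, γ} := by
      intro z hz
      by_cases hzγ : z = γ
      · right; exact hzγ
      left
      have hzU : z ∈ h • A ∪ A := by
        by_contra hzn
        have : z ∈ (h • A ∪ A)ᶜ := hzn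
        rw [hγ] at this
        exact hzγ this
      rcases hzU with hz1 | hz1
      · exact (Set.ncard_le_one (Set.toFinite _)).1 hi2 z ⟨hz, hz1⟩ α ⟨hαk, hαh⟩
      · exact (Set.ncard_le_one (Set.toFinite _)).1 hi3 z ⟨hz, hz1⟩ α ⟨hαk, hαA⟩
    have h9 := Set.ncard_le_ncard hsub (Set.toFinite _)
    rw [hgA, Set.ncard_pair hγα] at h9
    have := hcard A
    omega
  -- the lines
  have hline : ∀ g h : G, ∀ x y : Ω, x ≠ y → x ∉ g • A → y ∉ g • A → x ∉ h • A → y ∉ h • A →
      g • A = h • A := by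
    intro g h x y hxy hxg hyg hxh hyh
    have hne : (g • A ∩ h • A).Nonempty := by
      by_contra he
      rw [Set.not_nonempty_iff_eq_empty] at he
      have h5 := Set.ncard_union_add_ncard_inter (g • A) (h • A)
      rw [hgA, hgA, he, Set.ncard_empty] at h5
      have := hcard (g • A ∪ h • A)
      omega
    obtain ⟨c, hc1, hc2⟩ := hne
    exact hstep g h c hc1 hc2 (two_le_ncard_of_mem ⟨hxg, hxh⟩ ⟨hyg, hyh⟩ hxy)
  have hexline : ∀ x y : Ω, x ≠ y → ∃ g : G, x ∉ g • A ∧ y ∉ g • A := by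
    intro x y hxy
    obtain ⟨a₁, a₂, ha₁, ha₂, ha₁₂⟩ := (Set.one_lt_ncard_iff (Set.toFinite _)).1 (show 1 < Aᶜ.ncard by omega)
    obtain ⟨g, hg1, hg2⟩ := h2t ha₁₂ hxy
    refine ⟨g, ?_, ?_⟩
    · rintro ⟨z, hz, hzx⟩
      rw [← hg1] at hzx
      exact ha₁ (smul_left_cancel g hzx ▸ hz)
    · rintro ⟨z, hz, hzx⟩
      rw [← hg2] at hzx
      exact ha₂ (smul_left_cancel g hzx ▸ hz)
  -- three points on each line
  have hthird : ∀ (g : G) (x y : Ω), ∃ z, z ∉ g • A ∧ z ≠ x ∧ z ≠ y := by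
    intro g x y
    by_contra hno
    push Not at hno
    have hsub : (g • A)ᶜ ⊆ {x, y} := by
      intro z hz
      by_cases hzx : z = x
      · left; exact hzx
      · right; exact hno z hz hzx
    have h3 := Set.ncard_le_ncard hsub (Set.toFinite _)
    have h4 := Set.ncard_insert_le x ({y} : Set Ω)
    rw [Set.ncard_singleton] at h4
    rw [hgAc] at h3
    omega
  -- `C` is not contained in a line
  have hCline : ∀ g : G, ∃ c ∈ C, c ∈ g • A := by
    intro g
    by_contra hno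
    push Not at hno
    obtain ⟨c₁, c₂, hc₁, hc₂, hc₁₂⟩ := (Set.one_lt_ncard_iff (Set.toFinite _)).1 h1
    obtain ⟨x, hx, hx12⟩ := hC c₁ hc₁ c₂ hc₂
    -- a point off the line
    obtain ⟨a, ha⟩ : (g • A).Nonempty := by
      rw [← Set.ncard_pos (Set.toFinite _), hgA]; omega
    have hac : c₁ ≠ a := by
      rintro rfl
      exact hno _ hc₁ ha
    obtain ⟨h, hh1, hh2⟩ := hexline c₁ a hac
    have hne : g • A ≠ h • A := fun h3 => hh2 (h3 ▸ ha)
    -- points of the second line other than `c₁` are fixed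
    have hfix : ∀ z, z ∉ h • A → z ≠ c₁ → x • z = z := by
      intro z hz hzc
      apply hx
      intro hzC
      exact hne (hline g h z c₁ hzc (hno z hzC) (hno c₁ hc₁) hz hh1)
    obtain ⟨b, hb, hbc, hba⟩ := hthird h c₁ a
    -- `x • h • A = h • A`
    have h3 : (x * h) • A = h • A := by
      apply hline (x * h) h a b hba.symm _ _ hh2 hb
      · intro hm
        rw [mul_smul, ← hfix a hh2 hac.symm, Set.smul_mem_smul_set_iff] at hm
        exact hh2 hm
      · intro hm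
        rw [mul_smul, ← hfix b hb hbc, Set.smul_mem_smul_set_iff] at hm
        exact hb hm
    have h4 : c₂ ∉ h • A := by
      rw [← h3, mul_smul, ← hx12, Set.smul_mem_smul_set_iff]
      exact hh1
    exact hne (hline g h c₁ c₂ hc₁₂ (hno _ hc₁) (hno _ hc₂) hh1 h4)
  -- the complement of `C` is a subspace
  have hsub : ∀ g : G, ∀ x y : Ω, x ≠ y → x ∉ g • A → y ∉ g • A → x ∉ C → y ∉ C →
      ∀ z, z ∉ g • A → z ∉ C := by
    intro g x y hxy hx hy hxC hyC z hz hzC
    obtain ⟨c, hc, hcg⟩ := hCline g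
    have hU := jor_union (jor_smul hA g) hC hcg hc
    have h3 := hmin _ hU (by
      rw [Set.compl_union]
      exact two_le_ncard_of_mem ⟨hx, hxC⟩ ⟨hy, hyC⟩ hxy)
    rw [Set.compl_union] at h3
    have h4 : (g • A)ᶜ ∩ Cᶜ = (g • A)ᶜ :=
      Set.eq_of_subset_of_ncard_le Set.inter_subset_left (by rw [hgAc]; exact h3)
        (Set.toFinite _)
    have h5 : z ∈ (g • A)ᶜ ∩ Cᶜ := by rw [h4]; exact hz
    exact h5.2 hzC
  -- the final count
  obtain ⟨α, hα⟩ : C.Nonempty := by
    rw [← Set.ncard_pos (Set.toFinite _)]; omega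
  have hf : ∀ δ : Ω, ∃ (g : G) (z : Ω), δ ∉ C → α ∉ g • A ∧ δ ∉ g • A ∧ z ∉ g • A ∧ z ≠ α ∧
      z ≠ δ := by
    intro δ
    by_cases hδ : δ ∈ C
    · exact ⟨1, α, fun h => absurd hδ h⟩
    · obtain ⟨g, hg1, hg2⟩ := hexline α δ (by rintro rfl; exact hδ hα)
      obtain ⟨z, hz1, hz2, hz3⟩ := hthird g α δ
      exact ⟨g, z, fun _ => ⟨hg1, hg2, hz1, hz2, hz3⟩⟩
  choose γ f hf using hf
  have hfC : ∀ δ ∉ C, f δ ∈ C := by
    intro δ hδ
    by_contra hn
    obtain ⟨h3, h4, h5, h6, h7⟩ := hf δ hδ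
    exact hsub (γ δ) (f δ) δ h7 h5 h4 hn hδ α h3 hα
  have hfinj : Set.InjOn f Cᶜ := by
    intro δ hδ δ' hδ' hff
    by_contra hne
    obtain ⟨h3, h4, h5, h6, h7⟩ := hf δ hδ
    obtain ⟨h3', h4', h5', h6', h7'⟩ := hf δ' hδ'
    have h8 : γ δ • A = γ δ' • A := hline _ _ α (f δ) h6.symm h3 h5 h3' (by rw [hff]; exact h5')
    rw [← h8] at h4'
    exact hsub (γ δ) δ δ' hne h4 h4' hδ hδ' α h3 hα
  have h3 : Cᶜ.ncard ≤ (C \ {α}).ncard := by
    apply Set.ncard_le_ncard_of_injOn f _ hfinj (Set.toFinite _)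
    intro δ hδ
    exact ⟨hfC δ hδ, (hf δ hδ).2.2.2.1⟩
  rw [Set.ncard_sdiff_singleton_of_mem hα] at h3
  have := hcard C
  omega

end

end Cfsg.Agent.H433
end

-- part: S3707
section
set_option autoImplicit false
open Cfsg

namespace Cfsg.Agent.S3707

/-- Let G be a finite primitive permutation group on Ω of degree n and Γ ⊂ Ω a subset with 1 < #Γ ≤ n/2 such that the pointwise stabilizer of Ω ∖ Γ is transitive on Γ. Then G is 3-transitive on Ω. -/
theorem result {G Ω : Type*} [Group G] [Finite G] [MulAction G Ω] [FaithfulSMul G Ω] [Finite Ω] (hprim : MulAction.IsPreprimitive G Ω) (Γ : Set Ω) (h1 : 1 < Γ.ncard) (h2 : 2 * Γ.ncard ≤ Nat.card Ω) (htr : ∀ x ∈ Γ, ∀ y ∈ Γ, ∃ g : G, (∀ z ∉ Γ, g • z = z) ∧ g • x = y) : MulAction.IsMultiplyPretransitive G Ω 3 := by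
  have h3 := Set.ncard_add_ncard_compl Γ
  have h2t := Cfsg.Agent.H433.two_of_jor hprim (A := Γ) htr h1 (by omega)
  obtain ⟨a, b, hab, hA⟩ := Cfsg.Agent.H433.exists_pair_of_jor hprim (C := Γ) htr h1 h2
  exact Cfsg.Agent.H433.three_of_jor h2t hab hA

end Cfsg.Agent.S3707
end
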