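import Cfsg.Agent.S0022
import Cfsg.Agent.S0023
import Cfsg.Agent.S0026
import Cfsg.Agent.Lib.CoprimeCommutator
import Cfsg.Agent.Lib.FrattiniBasic
import Cfsg.Agent.SignalizersComponents.GoldschmidtGen
import Cfsg.Statements.S3734
set_option linter.all false

-- part: H440/CocyclicGen
section
/-!
# Coprime action of an abelian group: generation by centralizers of cocyclic subgroups

`A` is an abelian group acting coprimely on the group `G` (no solvability of `G`).  Then `G` is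
generated by the `C_G(B)`, `B ≤ A` with `A / B` cyclic, and `[G, A]` by the `[C_G(B), A]`.
-/

set_option autoImplicit false
set_option linter.style.haveILetI false

namespace Cfsg.Agent.H440.CocyclicGen

open Subgroup
open scoped commutatorElement
open Cfsg.Agent.SignalizersComponents.GoldschmidtGen (le_normalizer_of_conj_mem
  conj_mem_of_le_normalizer le_normalizer_commutator le_normalizer_inf_centralizer le_normalizer_sup
  le_normalizer_of_commutator_le exists_kernel)

universe u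

variable {X : Type u} [Group X]

/-- The family of the cocyclic subgroups of `A`. -/
def cocyclic (A : Subgroup X) : Set (Subgroup X) :=
  {B : Subgroup X | B ≤ A ∧ ∃ a ∈ A, B ⊔ Subgroup.zpowers a = A}

theorem isSolvable_of_comm {A : Subgroup X} (hcomm : ∀ a ∈ A, ∀ b ∈ A, a * b = b * a) :
    Group.IsSolvable A :=
  Group.isSolvable_of_comm (fun a b => Subtype.ext (hcomm a a.2 b b.2))

/-- `[Y, Y] ≤ M` for a maximal subgroup `M` of a `q`-subgroup `Y`; proper subgroups lie in such. -/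
theorem exists_maximal_of_isPGroup [Finite X] {q : ℕ} [Fact q.Prime] {Y K : Subgroup X}
    (hY : IsPGroup q Y) (hK : K ≤ Y) (hne : K ≠ Y) :
    ∃ M : Subgroup X, K ≤ M ∧ M ≤ Y ∧ M ≠ Y ∧ ⁅Y, Y⁆ ≤ M := by
  have h1 : K.subgroupOf Y ≠ ⊤ := by
    intro h
    rw [subgroupOf_eq_top] at h
    exact hne (le_antisymm hK h)
  obtain h2 | ⟨M, hM, hKM⟩ := eq_top_or_exists_le_coatom (K.subgroupOf Y)
  · exact absurd h2 h1
  refine ⟨M.map Y.subtype, ?_, map_subtype_le _, ?_, ?_⟩
  · intro k hk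
    exact ⟨⟨k, hK hk⟩, hKM hk, rfl⟩
  · intro h
    apply hM.1
    rw [eq_top_iff]
    intro y _
    have h3 : (y : X) ∈ M.map Y.subtype := by rw [h]; exact y.2
    obtain ⟨z, hz, hzy⟩ := h3
    rw [← Subtype.ext hzy]
    exact hz
  · have h3 := Lib.FrattiniBasic.commutator_le_of_isCoatom hY hM
    have h4 : ⁅Y, Y⁆ = (commutator Y).map Y.subtype := by
      rw [commutator_def, map_commutator, ← MonoidHom.range_eq_map, range_subtype]
    rw [h4]
    exact map_mono h3

/-- A proper `A`-invariant subgroup `K` of a `q`-group `Y` lies in a proper `A`-invariant subgroup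
`N` containing `[Y, Y]` such that `Y / N` is `A`-irreducible. -/
theorem exists_irreducible_top [Finite X] {q : ℕ} [Fact q.Prime] {A Y K : Subgroup X}
    (hY : IsPGroup q Y) (hAY : A ≤ normalizer (Y : Set X)) (hK : K ≤ Y) (hne : K ≠ Y)
    (hAK : A ≤ normalizer (K : Set X)) :
    ∃ N : Subgroup X, K ≤ N ∧ N ≤ Y ∧ N ≠ Y ∧ A ≤ normalizer (N : Set X) ∧ ⁅Y, Y⁆ ≤ N ∧
      ∀ Z : Subgroup X, N ≤ Z → Z ≤ Y → A ≤ normalizer (Z : Set X) → Z = N ∨ Z = Y := by
  let S : Set (Subgroup X) := {N | K ⊔ ⁅Y, Y⁆ ≤ N ∧ N ≤ Y ∧ N ≠ Y ∧ A ≤ normalizer (N : Set X)}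
  have hYY : ⁅Y, Y⁆ ≤ Y := commutator_le.mpr fun a ha b hb =>
    mul_mem (mul_mem (mul_mem ha hb) (inv_mem ha)) (inv_mem hb)
  have hS : (K ⊔ ⁅Y, Y⁆) ∈ S := by
    refine ⟨le_rfl, sup_le hK hYY, ?_, ?_⟩
    · intro h
      obtain ⟨M, hKM, hMY, hMne, hYM⟩ := exists_maximal_of_isPGroup hY hK hne
      apply hMne
      apply le_antisymm hMY
      rw [← h]
      exact sup_le hKM hYM
    · apply le_normalizer_sup hAK
      apply le_normalizer_of_conj_mem
      intro a ha x hx
      have h1 : ⁅Y, Y⁆ ≤ ⁅Y, Y⁆.comap (MulAut.conj a).toMonoidHom := by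
        rw [commutator_le]
        intro x hx y hy
        show a * ⁅x, y⁆ * a⁻¹ ∈ ⁅Y, Y⁆
        have h2 : a * ⁅x, y⁆ * a⁻¹ = ⁅a * x * a⁻¹, a * y * a⁻¹⁆ := by
          simp only [commutatorElement_def]; group
        rw [h2]
        exact commutator_mem_commutator (conj_mem_of_le_normalizer hAY ha hx)
          (conj_mem_of_le_normalizer hAY ha hy)
      exact h1 hx
  obtain ⟨N, hN⟩ := S.toFinite.exists_maximal ⟨_, hS⟩
  obtain ⟨h1, h2, h3, h4⟩ := hN.prop
  refine ⟨N, le_sup_left.trans h1, h2, h3, h4, le_sup_right.trans h1, ?_⟩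
  intro Z hNZ hZY hAZ
  by_cases hZ : Z = Y
  · exact Or.inr hZ
  · exact Or.inl (hN.eq_of_ge (y := Z) ⟨h1.trans hNZ, hZY, hZ, hAZ⟩ hNZ)

/-- A subgroup `B₁` of the abelian group `A` with cyclic quotient is of the form `B₁⟨a⟩ = A`. -/
theorem mem_cocyclic {A B₁ : Subgroup X} (hcomm : ∀ a ∈ A, ∀ b ∈ A, a * b = b * a) (hB : B₁ ≤ A)
    (hc : ∀ [(B₁.subgroupOf A).Normal], IsCyclic (↥A ⧸ B₁.subgroupOf A)) : B₁ ∈ cocyclic A := by
  haveI hn : (B₁.subgroupOf A).Normal := by
    refine ⟨fun n hn g => ?_⟩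
    have h1 : g * n * g⁻¹ = n := by
      apply Subtype.ext
      show (g : X) * n * (g : X)⁻¹ = n
      rw [hcomm g g.2 n n.2]; group
    rw [h1]; exact hn
  haveI := @hc hn
  obtain ⟨g, hg⟩ := IsCyclic.exists_generator (α := ↥A ⧸ B₁.subgroupOf A)
  obtain ⟨a, rfl⟩ := QuotientGroup.mk'_surjective _ g
  refine ⟨hB, a, a.2, ?_⟩
  apply le_antisymm
  · exact sup_le hB (by rw [zpowers_le]; exact a.2)
  · intro x hx
    obtain ⟨k, hk⟩ := mem_zpowers_iff.mp (hg (QuotientGroup.mk' (B₁.subgroupOf A) ⟨x, hx⟩))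
    rw [← map_zpow, QuotientGroup.mk'_eq_mk'] at hk
    obtain ⟨z, hz, hzx⟩ := hk
    have h1 : (a : X) ^ k * (z : X) = x := by
      have := congrArg Subtype.val hzx
      simpa using this
    rw [← h1]
    exact mul_mem (mem_sup_right (zpow_mem (mem_zpowers _) k)) (mem_sup_left hz)

theorem cocyclic_comm {A B : Subgroup X} (hcomm : ∀ a ∈ A, ∀ b ∈ A, a * b = b * a)
    (hB : B ∈ cocyclic A) : ∀ a ∈ A, ∀ b ∈ B, a * b = b * a :=
  fun a ha b hb => hcomm a ha b (hB.1 hb)

/-- The generated subgroup is invariant. -/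
theorem le_normalizer_iSup {A Y : Subgroup X} (hcomm : ∀ a ∈ A, ∀ b ∈ A, a * b = b * a)
    (hAY : A ≤ normalizer (Y : Set X)) :
    A ≤ normalizer ((⨆ B ∈ cocyclic A, Y ⊓ centralizer (B : Set X) : Subgroup X) : Set X) := by
  apply le_normalizer_of_conj_mem
  intro a ha x hx
  have h1 : (⨆ B ∈ cocyclic A, Y ⊓ centralizer (B : Set X)) ≤
      (⨆ B ∈ cocyclic A, Y ⊓ centralizer (B : Set X)).comap (MulAut.conj a).toMonoidHom := by
    refine iSup₂_le fun B hB y hy => ?_
    have h2 := conj_mem_of_le_normalizer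
      (le_normalizer_inf_centralizer hAY (cocyclic_comm hcomm hB)) ha hy
    exact (le_iSup₂ (f := fun B (_ : B ∈ cocyclic A) => Y ⊓ centralizer (B : Set X)) B hB) h2
  exact h1 hx

theorem iSup_le_self (A Y : Subgroup X) :
    (⨆ B ∈ cocyclic A, Y ⊓ centralizer (B : Set X)) ≤ Y :=
  iSup₂_le fun _ _ => inf_le_left

/-- Part (a) for `q`-groups. -/
theorem iSup_eq_of_isPGroup [Finite X] {q : ℕ} [Fact q.Prime] {A Y : Subgroup X}
    (hcomm : ∀ a ∈ A, ∀ b ∈ A, a * b = b * a) (hAY : A ≤ normalizer (Y : Set X))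
    (hcop : (Nat.card A).Coprime (Nat.card Y)) (hY : IsPGroup q Y) :
    (⨆ B ∈ cocyclic A, Y ⊓ centralizer (B : Set X)) = Y := by
  by_contra hne
  obtain ⟨N, hKN, hNY, hNne, hAN, hYYN, hirr⟩ := exists_irreducible_top hY hAY (iSup_le_self A Y) hne
    (le_normalizer_iSup hcomm hAY)
  obtain ⟨B₁, hB₁, hc, hYB⟩ := exists_kernel (A := A) (B := A) hcomm le_rfl hAY hNY hNne hAN hYYN hirr
  have hco : B₁ ∈ cocyclic A := mem_cocyclic hcomm hB₁ hc
  have hYN : Y ≤ normalizer (N : Set X) := le_normalizer_of_commutator_le hNY hYYN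
  apply hNne
  apply le_antisymm hNY
  intro y hy
  have hcop₁ : (Nat.card B₁).Coprime (Nat.card Y) :=
    Nat.Coprime.coprime_dvd_left (Subgroup.card_dvd_of_le hB₁) hcop
  obtain ⟨c, hc, hcN⟩ := S0022.result B₁ Y (hB₁.trans hAY) hcop₁
    (Or.inl (isSolvable_of_comm fun a ha b hb => hcomm a (hB₁ ha) b (hB₁ hb))) N hNY hYN
    (hB₁.trans hAN) y hy (by
      intro a ha
      have h1 : ⁅y, a⁆ ∈ N := hYB (commutator_mem_commutator hy ha)
      have h2 : a * y * a⁻¹ * y⁻¹ = ⁅y, a⁆⁻¹ := by simp only [commutatorElement_def]; group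
      rw [h2]
      exact inv_mem h1)
  have hcK : c ∈ N := hKN
    ((le_iSup₂ (f := fun B (_ : B ∈ cocyclic A) => Y ⊓ centralizer (B : Set X)) B₁ hco) hc)
  have h3 : y = c * (y⁻¹ * c)⁻¹ := by group
  rw [h3]
  exact mul_mem hcK (inv_mem hcN)

/-- A subgroup `K ≤ Y` containing an `A`-invariant Sylow `q`-subgroup for each `q` is `Y`. -/
theorem eq_of_sylow_le [Finite X] {Y K : Subgroup X} (hK : K ≤ Y)
    (h : ∀ (q : ℕ) [Fact q.Prime], ∃ P : Sylow q Y, (P : Subgroup Y).map Y.subtype ≤ K) : K = Y := by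
  apply le_antisymm hK
  have h1 : K.subgroupOf Y = ⊤ := by
    apply Subgroup.eq_top_of_card_eq
    apply Nat.dvd_antisymm (Subgroup.card_subgroup_dvd_card _)
    have hpos : Nat.card Y ≠ 0 := Nat.card_pos.ne'
    rw [← Nat.factorization_prime_le_iff_dvd hpos Nat.card_pos.ne']
    intro q hq
    haveI := Fact.mk hq
    obtain ⟨P, hP⟩ := h q
    have h2 : (P : Subgroup Y) ≤ K.subgroupOf Y := by
      intro y hy
      exact hP ⟨y, hy, rfl⟩
    have h3 : Nat.card P ∣ Nat.card (K.subgroupOf Y) := Subgroup.card_dvd_of_le h2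
    rw [P.card_eq_multiplicity] at h3
    exact (hq.pow_dvd_iff_le_factorization Nat.card_pos.ne').mp h3
  rw [subgroupOf_eq_top] at h1
  exact h1

/-- **Part (a)**: generation by the centralizers of cocyclic subgroups. -/
theorem iSup_eq [Finite X] {A G : Subgroup X}
    (hcomm : ∀ a ∈ A, ∀ b ∈ A, a * b = b * a) (hAG : A ≤ normalizer (G : Set X))
    (hcop : (Nat.card A).Coprime (Nat.card G)) :
    (⨆ B ∈ cocyclic A, G ⊓ centralizer (B : Set X)) = G := by
  apply eq_of_sylow_le (iSup_le_self A G)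
  intro q _
  obtain ⟨P, hP⟩ := S0023.result A G hAG hcop (Or.inl (isSolvable_of_comm hcomm)) q
  refine ⟨P, ?_⟩
  have hPG : (P : Subgroup G).map G.subtype ≤ G := map_subtype_le _
  have hPq : IsPGroup q ((P : Subgroup G).map G.subtype) := P.isPGroup'.map _
  have hcop' : (Nat.card A).Coprime (Nat.card ((P : Subgroup G).map G.subtype)) :=
    Nat.Coprime.coprime_dvd_right (Subgroup.card_dvd_of_le hPG) hcop
  conv_lhs => rw [← iSup_eq_of_isPGroup hcomm hP hcop' hPq]
  exact iSup₂_mono fun B _ => inf_le_inf_right _ hPG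

/-- The subgroup of the elements of `Y` with `[x, a] ∈ N` for all `a ∈ A`. -/
def triv (A Y N : Subgroup X) (hYN : Y ≤ normalizer (N : Set X)) : Subgroup X where
  carrier := {x | x ∈ Y ∧ ∀ a ∈ A, ⁅x, a⁆ ∈ N}
  one_mem' := ⟨one_mem _, fun a _ => by simp⟩
  mul_mem' := by
    rintro x y ⟨hx, hx'⟩ ⟨hy, hy'⟩
    refine ⟨mul_mem hx hy, fun a ha => ?_⟩
    have h1 : ⁅x * y, a⁆ = x * ⁅y, a⁆ * x⁻¹ * ⁅x, a⁆ := by
      simp only [commutatorElement_def]; group
    rw [h1]
    exact mul_mem (conj_mem_of_le_normalizer hYN hx (hy' a ha)) (hx' a ha)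
  inv_mem' := by
    rintro x ⟨hx, hx'⟩
    refine ⟨inv_mem hx, fun a ha => ?_⟩
    have h1 : ⁅x⁻¹, a⁆ = x⁻¹ * ⁅x, a⁆⁻¹ * x⁻¹⁻¹ := by
      simp only [commutatorElement_def]; group
    rw [h1]
    exact conj_mem_of_le_normalizer hYN (inv_mem hx) (inv_mem (hx' a ha))

theorem mem_triv {A Y N : Subgroup X} {hYN : Y ≤ normalizer (N : Set X)} {x : X} :
    x ∈ triv A Y N hYN ↔ x ∈ Y ∧ ∀ a ∈ A, ⁅x, a⁆ ∈ N := Iff.rfl

/-- Part (b) for `q`-groups. -/
theorem commutator_le_of_isPGroup [Finite X] {q : ℕ} [Fact q.Prime] {A Y : Subgroup X}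
    (hcomm : ∀ a ∈ A, ∀ b ∈ A, a * b = b * a) (hAY : A ≤ normalizer (Y : Set X))
    (hcop : (Nat.card A).Coprime (Nat.card Y)) (hY : IsPGroup q Y) :
    ⁅Y, A⁆ ≤ ⨆ B ∈ cocyclic A, ⁅Y ⊓ centralizer (B : Set X), A⁆ := by
  -- replace `Y` by `[Y, A]`
  set Z : Subgroup X := ⁅Y, A⁆ with hZ
  have hZY : Z ≤ Y := Lib.CoprimeCommutator.commutator_le_left hAY
  have hAZ : A ≤ normalizer (Z : Set X) :=
    Lib.CoprimeCommutator.right_le_normalizer_commutator Y A
  have hZA : ⁅Z, A⁆ = Z := Lib.CoprimeCommutator.commutator_commutator_eq A Y hAY hcop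
  have hZp : IsPGroup q Z := hY.to_le hZY
  have hcopZ : (Nat.card A).Coprime (Nat.card Z) :=
    Nat.Coprime.coprime_dvd_right (Subgroup.card_dvd_of_le hZY) hcop
  have hmain : (⨆ B ∈ cocyclic A, ⁅Z ⊓ centralizer (B : Set X), A⁆) = Z := by
    by_contra hne
    have hle : (⨆ B ∈ cocyclic A, ⁅Z ⊓ centralizer (B : Set X), A⁆) ≤ Z := by
      refine iSup₂_le fun B _ => ?_
      conv_rhs => rw [← hZA]
      exact commutator_mono inf_le_left le_rfl
    obtain ⟨M, hKM, hMZ, hMne, hZM⟩ := exists_maximal_of_isPGroup hZp hle hne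
    have hn : Z ≤ normalizer (M : Set X) := le_normalizer_of_commutator_le hMZ hZM
    have h1 : Z ≤ triv A Z M hn := by
      conv_lhs => rw [← iSup_eq_of_isPGroup hcomm hAZ hcopZ hZp]
      refine iSup₂_le fun B hB x hx => ?_
      refine ⟨hx.1, fun a ha => hKM ?_⟩
      exact (le_iSup₂ (f := fun B (_ : B ∈ cocyclic A) => ⁅Z ⊓ centralizer (B : Set X), A⁆) B hB)
        (commutator_mem_commutator hx ha)
    apply hMne
    apply le_antisymm hMZ
    conv_lhs => rw [← hZA]
    rw [commutator_le]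
    intro x hx a ha
    exact (h1 hx).2 a ha
  conv_lhs => rw [← hmain]
  exact iSup₂_mono fun B _ => commutator_mono (inf_le_inf_right _ hZY) le_rfl

/-- **Part (b)**: generation of `[G, A]`. -/
theorem iSup_commutator_eq [Finite X] {A G : Subgroup X}
    (hcomm : ∀ a ∈ A, ∀ b ∈ A, a * b = b * a) (hAG : A ≤ normalizer (G : Set X))
    (hcop : (Nat.card A).Coprime (Nat.card G)) :
    (⨆ B ∈ cocyclic A, ⁅G ⊓ centralizer (B : Set X), A⁆) = ⁅G, A⁆ := by
  set H : Subgroup X := ⨆ B ∈ cocyclic A, ⁅G ⊓ centralizer (B : Set X), A⁆ with hH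
  have hle : H ≤ ⁅G, A⁆ := iSup₂_le fun B _ => commutator_mono inf_le_left le_rfl
  apply le_antisymm hle
  have hAH : A ≤ normalizer (H : Set X) := by
    apply le_normalizer_of_conj_mem
    intro a ha x hx
    have h1 : H ≤ H.comap (MulAut.conj a).toMonoidHom := by
      conv_lhs => rw [hH]
      refine iSup₂_le fun B hB => ?_
      rw [commutator_le]
      intro y hy b hb
      show a * ⁅y, b⁆ * a⁻¹ ∈ H
      have h2 : a * ⁅y, b⁆ * a⁻¹ = ⁅a * y * a⁻¹, a * b * a⁻¹⁆ := by
        simp only [commutatorElement_def]; group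
      rw [h2]
      have h3 := conj_mem_of_le_normalizer
        (le_normalizer_inf_centralizer hAG (cocyclic_comm hcomm hB)) ha hy
      have h4 : a * b * a⁻¹ ∈ A := mul_mem (mul_mem ha hb) (inv_mem ha)
      exact (le_iSup₂ (f := fun B (_ : B ∈ cocyclic A) => ⁅G ⊓ centralizer (B : Set X), A⁆) B hB)
        (commutator_mem_commutator h3 h4)
    exact h1 hx
  have hCH : G ⊓ centralizer (A : Set X) ≤ normalizer (H : Set X) := by
    apply le_normalizer_of_conj_mem
    intro c hc x hx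
    have h1 : H ≤ H.comap (MulAut.conj c).toMonoidHom := by
      conv_lhs => rw [hH]
      refine iSup₂_le fun B hB => ?_
      rw [commutator_le]
      intro y hy b hb
      show c * ⁅y, b⁆ * c⁻¹ ∈ H
      have h2 : c * ⁅y, b⁆ * c⁻¹ = ⁅c * y * c⁻¹, c * b * c⁻¹⁆ := by
        simp only [commutatorElement_def]; group
      rw [h2]
      have hcB : c ∈ G ⊓ centralizer (B : Set X) := ⟨hc.1, centralizer_le hB.1 hc.2⟩
      have h3 : c * y * c⁻¹ ∈ G ⊓ centralizer (B : Set X) :=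
        mul_mem (mul_mem hcB hy) (inv_mem hcB)
      have h4 : c * b * c⁻¹ = b := by
        rw [← mem_centralizer_iff.mp hc.2 b hb]; group
      rw [h4]
      exact (le_iSup₂ (f := fun B (_ : B ∈ cocyclic A) => ⁅G ⊓ centralizer (B : Set X), A⁆) B hB)
        (commutator_mem_commutator h3 hb)
    exact h1 hx
  -- `G` is generated by `C_G(A)` and the `[Q, A]`, `Q` invariant Sylow subgroups
  have hsyl : ∀ (q : ℕ) [Fact q.Prime], ∃ P : Sylow q G,
      (P : Subgroup G).map G.subtype ≤ H ⊔ (G ⊓ centralizer (A : Set X)) := by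
    intro q _
    obtain ⟨P, hP⟩ := S0023.result A G hAG hcop (Or.inl (isSolvable_of_comm hcomm)) q
    refine ⟨P, ?_⟩
    have hPG : (P : Subgroup G).map G.subtype ≤ G := map_subtype_le _
    have hPq : IsPGroup q ((P : Subgroup G).map G.subtype) := P.isPGroup'.map _
    have hcop' : (Nat.card A).Coprime (Nat.card ((P : Subgroup G).map G.subtype)) :=
      Nat.Coprime.coprime_dvd_right (Subgroup.card_dvd_of_le hPG) hcop
    have h1 := S0026.result A ((P : Subgroup G).map G.subtype) hP hcop'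
      (Or.inl (isSolvable_of_comm hcomm))
    conv_lhs => rw [← h1]
    refine sup_le_sup ?_ (inf_le_inf_right _ hPG)
    refine (commutator_le_of_isPGroup hcomm hP hcop' hPq).trans ?_
    exact iSup₂_mono fun B _ => commutator_mono (inf_le_inf_right _ hPG) le_rfl
  have hHG : H ≤ G := hle.trans (Lib.CoprimeCommutator.commutator_le_left hAG)
  have hgen : H ⊔ (G ⊓ centralizer (A : Set X)) = G :=
    eq_of_sylow_le (sup_le hHG inf_le_left) hsyl
  have hGH : G ≤ normalizer (H : Set X) := by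
    conv_lhs => rw [← hgen]
    exact sup_le le_normalizer hCH
  have h1 : G ≤ triv A G H hGH := by
    conv_lhs => rw [← hgen]
    refine sup_le ?_ ?_
    · intro x hx
      refine ⟨hHG hx, fun a ha => ?_⟩
      have h2 : ⁅x, a⁆ = x * (a * x⁻¹ * a⁻¹) := by simp only [commutatorElement_def]; group
      rw [h2]
      exact mul_mem hx (conj_mem_of_le_normalizer hAH ha (inv_mem hx))
    · intro x hx
      refine ⟨hx.1, fun a ha => ?_⟩
      have h2 : ⁅x, a⁆ = 1 := by
        rw [commutatorElement_eq_one_iff_mul_comm]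
        exact (mem_centralizer_iff.mp hx.2 a ha).symm
      rw [h2]
      exact one_mem _
  rw [commutator_le]
  intro x hx a ha
  exact (h1 hx).2 a ha

end Cfsg.Agent.H440.CocyclicGen
end

-- part: S3734
section
set_option autoImplicit false
open Cfsg

namespace Cfsg.Agent.S3734

/-- Let A and G be subgroups of a finite group with A abelian, A normalizing G and the orders of A and G coprime. Then G is generated by the fixed-point subgroups C_G(B) of those subgroups B of A for which A/B is cyclic (that is, A = ⟨B, a⟩ for some a), and [G, A] is generated by the commutator subgroups [C_G(B), A] over the same subgroups B. -/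
theorem result {X : Type*} [Group X] [Finite X] (A G : Subgroup X) (hAab : IsMulCommutative A) (hAG : A ≤ Subgroup.normalizer (G : Set X)) (hcop : (Nat.card A).Coprime (Nat.card G)) : (⨆ B ∈ {B : Subgroup X | B ≤ A ∧ ∃ a ∈ A, B ⊔ Subgroup.zpowers a = A}, G ⊓ Subgroup.centralizer (B : Set X)) = G ∧ (⨆ B ∈ {B : Subgroup X | B ≤ A ∧ ∃ a ∈ A, B ⊔ Subgroup.zpowers a = A}, ⁅G ⊓ Subgroup.centralizer (B : Set X), A⁆) = ⁅G, A⁆ := by
  have hcomm : ∀ a ∈ A, ∀ b ∈ A, a * b = b * a := fun a ha b hb =>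
    congrArg Subtype.val (hAab.is_comm.comm (⟨a, ha⟩ : A) ⟨b, hb⟩)
  exact ⟨H440.CocyclicGen.iSup_eq hcomm hAG hcop,
    H440.CocyclicGen.iSup_commutator_eq hcomm hAG hcop⟩

end Cfsg.Agent.S3734
end
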