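import Cfsg.Statements.S3735
import Cfsg.Agent.SignalizersComponents.GoldschmidtGen
set_option linter.all false

set_option autoImplicit false
open Cfsg

namespace Cfsg.Agent.S3735

open Cfsg.Agent.SignalizersComponents.GoldschmidtGen (le_normalizer_of_conj_mem
  conj_mem_of_le_normalizer le_normalizer_sup)
open Cfsg.Agent.SignalizersComponents.CoprimeBasic (mem_sup_iff)


/-- Clifford's Theorem for actions on finite abelian groups, first part. Let H and V be subgroups of a finite group with V abelian and H normalizing V, and let A be a normal subgroup of H. If every H-invariant subgroup of V has an H-invariant complement in V, then every A-invariant subgroup of V has an A-invariant complement in V. -/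
theorem result {G : Type*} [Group G] [Finite G] (H A V : Subgroup G) (hVab : IsMulCommutative V) (hHV : H ≤ Subgroup.normalizer (V : Set G)) (hAH : A ≤ H) (hAn : H ≤ Subgroup.normalizer (A : Set G)) (hss : ∀ U : Subgroup G, U ≤ V → H ≤ Subgroup.normalizer (U : Set G) → ∃ W : Subgroup G, W ≤ V ∧ H ≤ Subgroup.normalizer (W : Set G) ∧ U ⊓ W = ⊥ ∧ U ⊔ W = V) (U : Subgroup G) (hUV : U ≤ V) (hAU : A ≤ Subgroup.normalizer (U : Set G)) : ∃ W : Subgroup G, W ≤ V ∧ A ≤ Subgroup.normalizer (W : Set G) ∧ U ⊓ W = ⊥ ∧ U ⊔ W = V := by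
  have hcomm : ∀ a ∈ V, ∀ b ∈ V, a * b = b * a := fun a ha b hb =>
    congrArg Subtype.val (hVab.is_comm.comm (⟨a, ha⟩ : V) ⟨b, hb⟩)
  have hnorm : ∀ {X Y : Subgroup G}, X ≤ V → Y ≤ V → Y ≤ Subgroup.normalizer (X : Set G) := by
    intro X Y hX hY
    apply le_normalizer_of_conj_mem
    intro a ha x hx
    have h1 : a * x * a⁻¹ = x := by rw [hcomm a (hY ha) x (hX hx)]; group
    rw [h1]; exact hx
  -- minimal `A`-invariant subgroups
  let Smp : Subgroup G → Prop := fun T => T ≤ V ∧ A ≤ Subgroup.normalizer (T : Set G) ∧ T ≠ ⊥ ∧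
    ∀ T' : Subgroup G, T' ≤ T → A ≤ Subgroup.normalizer (T' : Set G) → T' = ⊥ ∨ T' = T
  have hexists : ∀ W : Subgroup G, W ≤ V → A ≤ Subgroup.normalizer (W : Set G) → W ≠ ⊥ →
      ∃ T, Smp T ∧ T ≤ W := by
    intro W hWV hAW hW
    let S : Set (Subgroup G) := {T | T ≤ W ∧ A ≤ Subgroup.normalizer (T : Set G) ∧ T ≠ ⊥}
    obtain ⟨T, hT⟩ := S.toFinite.exists_minimal ⟨W, le_rfl, hAW, hW⟩
    obtain ⟨h1, h2, h3⟩ := hT.prop
    refine ⟨T, ⟨h1.trans hWV, h2, h3, fun T' hT' hAT' => ?_⟩, h1⟩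
    by_cases hb : T' = ⊥
    · exact Or.inl hb
    · exact Or.inr (hT.eq_of_le (y := T') ⟨hT'.trans h1, hAT', hb⟩ hT')
  -- the socle
  let S : Subgroup G := sSup {T | Smp T}
  have hSV : S ≤ V := sSup_le fun T hT => hT.1
  have hHS : H ≤ Subgroup.normalizer (S : Set G) := by
    apply le_normalizer_of_conj_mem
    intro h hh x hx
    have h1 : S ≤ S.comap (MulAut.conj h).toMonoidHom := by
      refine sSup_le fun T hT => ?_
      rw [← Subgroup.map_le_iff_le_comap]
      refine le_sSup ?_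
      obtain ⟨hT1, hT2, hT3, hT4⟩ := hT
      have hinv : ∀ (g : G), g ∈ H → ∀ U' : Subgroup G, A ≤ Subgroup.normalizer (U' : Set G) →
          A ≤ Subgroup.normalizer ((U'.map (MulAut.conj g).toMonoidHom : Subgroup G) : Set G) := by
        intro g hg U' hU'
        apply le_normalizer_of_conj_mem
        rintro a ha _ ⟨y, hy, rfl⟩
        have ha' : g⁻¹ * a * g ∈ A := by
          have := (Subgroup.mem_normalizer_iff.mp (inv_mem (hAn hg)) a).mp ha
          simpa using this
        refine ⟨(g⁻¹ * a * g) * y * (g⁻¹ * a * g)⁻¹, conj_mem_of_le_normalizer hU' ha' hy, ?_⟩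
        simp only [MulEquiv.toMonoidHom_eq_coe, MonoidHom.coe_coe, MulAut.conj_apply]
        group
      have hback : ∀ (g : G) (U' : Subgroup G),
          (U'.map (MulAut.conj g⁻¹).toMonoidHom).map (MulAut.conj g).toMonoidHom = U' := by
        intro g U'
        rw [Subgroup.map_map]
        have : (MulAut.conj g).toMonoidHom.comp (MulAut.conj g⁻¹).toMonoidHom = MonoidHom.id G := by
          ext x
          simp only [MonoidHom.comp_apply, MulEquiv.toMonoidHom_eq_coe, MonoidHom.coe_coe,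
            MulAut.conj_apply, MonoidHom.id_apply]
          group
        rw [this, Subgroup.map_id]
      refine ⟨?_, hinv h hh T hT2, ?_, ?_⟩
      · rintro _ ⟨y, hy, rfl⟩
        exact conj_mem_of_le_normalizer hHV hh (hT1 hy)
      · intro hb
        apply hT3
        rw [Subgroup.map_eq_bot_iff_of_injective _ (MulAut.conj h).injective] at hb
        exact hb
      · intro T' hT' hAT'
        have h2 : T'.map (MulAut.conj h⁻¹).toMonoidHom ≤ T := by
          rintro _ ⟨y, hy, rfl⟩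
          obtain ⟨z, hz, rfl⟩ := hT' hy
          simpa [mul_assoc] using hz
        have hb1 := hback h T'
        rcases hT4 _ h2 (hinv h⁻¹ (inv_mem hh) T' hAT') with h3 | h3
        · left
          rw [← hb1, h3, Subgroup.map_bot]
        · right
          rw [← hb1, h3]
    exact h1 hx
  obtain ⟨W₀, hW₀V, hHW₀, hW₀1, hW₀2⟩ := hss S hSV hHS
  have hW₀ : W₀ = ⊥ := by
    by_contra hne
    obtain ⟨T, hT, hTW⟩ := hexists W₀ hW₀V (hAH.trans hHW₀) hne
    apply hT.2.2.1
    rw [eq_bot_iff, ← hW₀1]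
    exact le_inf (le_sSup hT) hTW
  rw [hW₀, sup_bot_eq] at hW₀2
  -- a maximal invariant subgroup meeting `U` trivially
  let Q : Set (Subgroup G) := {W | W ≤ V ∧ A ≤ Subgroup.normalizer (W : Set G) ∧ U ⊓ W = ⊥}
  obtain ⟨W, hW⟩ := Q.toFinite.exists_maximal ⟨⊥, bot_le, by
    apply le_normalizer_of_conj_mem
    intro a _ x hx
    rw [Subgroup.mem_bot] at hx ⊢
    rw [hx]; group, inf_bot_eq _⟩
  obtain ⟨hWV, hAW, hUW⟩ := hW.prop
  refine ⟨W, hWV, hAW, hUW, le_antisymm (sup_le hUV hWV) ?_⟩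
  rw [← hW₀2]
  refine sSup_le fun T hT => ?_
  by_contra hnot
  have hAUW : A ≤ Subgroup.normalizer ((U ⊔ W : Subgroup G) : Set G) := le_normalizer_sup hAU hAW
  have h1 : T ⊓ (U ⊔ W) = ⊥ := by
    rcases hT.2.2.2 (T ⊓ (U ⊔ W)) inf_le_left (by
      apply le_normalizer_of_conj_mem
      intro a ha x hx
      exact ⟨conj_mem_of_le_normalizer hT.2.1 ha hx.1, conj_mem_of_le_normalizer hAUW ha hx.2⟩) with h | h
    · exact h
    · exact absurd (inf_eq_left.mp h) hnot
  have h2 : W ⊔ T ∈ Q := by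
    refine ⟨sup_le hWV hT.1, le_normalizer_sup hAW hT.2.1, ?_⟩
    rw [eq_bot_iff]
    rintro u ⟨hu, hwt⟩
    obtain ⟨w, hw, t, ht, rfl⟩ := (mem_sup_iff (hnorm hWV hT.1) u).mp hwt
    have ht1 : t ∈ T ⊓ (U ⊔ W) := by
      refine ⟨ht, ?_⟩
      have h3 : t = w⁻¹ * (w * t) := by group
      rw [h3]
      exact mul_mem (Subgroup.mem_sup_right (inv_mem hw)) (Subgroup.mem_sup_left hu)
    rw [h1, Subgroup.mem_bot] at ht1
    subst ht1
    rw [← hUW]
    refine ⟨hu, ?_⟩
    rw [mul_one]; exact hw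
  have h3 : W ⊔ T = W := hW.eq_of_ge h2 le_sup_left
  exact hnot ((le_sup_right.trans h3.le).trans le_sup_right)

end Cfsg.Agent.S3735
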