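import Cfsg.Statements.S3737
import Cfsg.Agent.H440.MinimalAction
import Cfsg.Agent.SignalizersComponents.BaerTrick
set_option linter.all false

set_option autoImplicit false
open Cfsg

namespace Cfsg.Agent.S3737

open scoped commutatorElement


/-- Thompson's strengthening of the P × Q lemma for odd primes. Let p be an odd prime and let P, Q and G be subgroups of a finite group with P a p-group, Q of order prime to p and normalized by P, and G a p-group normalized by both P and Q. If every element of G centralized by P is centralized by Q, then Q centralizes G. -/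
theorem result {X : Type*} [Group X] [Finite X] {p : ℕ} [Fact p.Prime] (hp : p ≠ 2) (P Q G : Subgroup X) (hP : IsPGroup p P) (hQ : (Nat.card Q).Coprime p) (hPQ : P ≤ Subgroup.normalizer (Q : Set X)) (hG : IsPGroup p G) (hPG : P ≤ Subgroup.normalizer (G : Set X)) (hQG : Q ≤ Subgroup.normalizer (G : Set X)) (hC : G ⊓ Subgroup.centralizer (P : Set X) ≤ Subgroup.centralizer (Q : Set X)) : Q ≤ Subgroup.centralizer (G : Set X) := by
  obtain ⟨n, hn⟩ : ∃ n, Nat.card G = n := ⟨_, rfl⟩
  induction n using Nat.strong_induction_on generalizing G with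
  | _ n ih =>
  by_contra hnot
  have hnt : ⁅G, Q⁆ ≠ ⊥ := by
    intro h
    rw [Subgroup.commutator_eq_bot_iff_le_centralizer] at h
    exact hnot (Subgroup.le_centralizer_iff.mp h)
  have hBG : P ⊔ Q ≤ Subgroup.normalizer (G : Set X) := sup_le hPG hQG
  have hBQ : P ⊔ Q ≤ Subgroup.normalizer (Q : Set X) := sup_le hPQ Subgroup.le_normalizer
  have hmin : ∀ U : Subgroup X, U < G → P ⊔ Q ≤ Subgroup.normalizer (U : Set X) → ⁅U, Q⁆ = ⊥ := by
    intro U hU hBU
    have h1 := ih (Nat.card U) (by
        rw [← hn]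
        exact lt_of_le_of_ne (Subgroup.card_le_of_le hU.le)
          (fun h => hU.ne (Subgroup.eq_of_le_of_card_ge hU.le h.ge))) U (hG.to_le hU.le) (le_sup_left.trans hBU) (le_sup_right.trans hBU)
      (le_trans (inf_le_inf_right _ hU.le) hC) rfl
    rw [Subgroup.commutator_eq_bot_iff_le_centralizer]
    exact Subgroup.le_centralizer_iff.mp h1
  have hodd : Odd (Nat.card G) := by
    obtain ⟨k, hk⟩ := IsPGroup.iff_card.mp hG
    rw [hk]
    exact ((Fact.out : p.Prime).odd_of_ne_two hp).pow
  have hcl : ∀ x y : G, ⁅x, y⁆ ∈ Subgroup.center G := by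
    intro x y
    rcases H440.MinimalAction.elementary_or_special hG hBG le_sup_right hBQ hQ hnt hmin with h | h
    · rw [commutatorElement_eq_one_iff_mul_comm.mpr (h.1.is_comm.comm x y)]
      exact one_mem _
    · rw [← h.2.2]
      exact Subgroup.commutator_mem_commutator (Subgroup.mem_top _) (Subgroup.mem_top _)
  obtain ⟨V, hV, e, -, -, hmul⟩ := SignalizersComponents.BaerTrick.exists_baer G hodd hcl
  haveI : Finite V := Finite.of_equiv _ e
  have hcardV : Nat.card V = Nat.card G := (Nat.card_congr e).symm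
  -- the action on `V`
  let ψ : ↥(Subgroup.normalizer (G : Set X)) →* MulAut V :=
    { toFun := fun g =>
        { toFun := fun v => e (G.normalizerMonoidHom g (e.symm v))
          invFun := fun v => e (G.normalizerMonoidHom g⁻¹ (e.symm v))
          left_inv := by
            intro v
            show e (G.normalizerMonoidHom g⁻¹ (e.symm (e (G.normalizerMonoidHom g (e.symm v))))) = v
            rw [e.symm_apply_apply, ← MulAut.mul_apply, ← map_mul, inv_mul_cancel, map_one,
              MulAut.one_apply, e.apply_symm_apply]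
          right_inv := by
            intro v
            show e (G.normalizerMonoidHom g (e.symm (e (G.normalizerMonoidHom g⁻¹ (e.symm v))))) = v
            rw [e.symm_apply_apply, ← MulAut.mul_apply, ← map_mul, mul_inv_cancel, map_one,
              MulAut.one_apply, e.apply_symm_apply]
          map_mul' := fun a b => hmul (G.normalizerMonoidHom g).toMonoidHom a b }
      map_one' := by
        ext v
        show e (G.normalizerMonoidHom 1 (e.symm v)) = v
        rw [map_one, MulAut.one_apply, e.apply_symm_apply]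
      map_mul' := by
        intro g h
        ext v
        show e (G.normalizerMonoidHom (g * h) (e.symm v)) =
          e (G.normalizerMonoidHom g (e.symm (e (G.normalizerMonoidHom h (e.symm v)))))
        rw [map_mul, MulAut.mul_apply, e.symm_apply_apply] }
  have hψ : ∀ (g : ↥(Subgroup.normalizer (G : Set X))) (v : V),
      ψ g v = v ↔ (g : X) * (e.symm v : X) = (e.symm v : X) * g := by
    intro g v
    have h1 : ψ g v = e (G.normalizerMonoidHom g (e.symm v)) := rfl
    have h2 : ((G.normalizerMonoidHom g (e.symm v) : G) : X) = g * (e.symm v : X) * (g : X)⁻¹ := rfl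
    rw [h1, ← e.eq_symm_apply]
    constructor
    · intro h
      have h3 := congrArg Subtype.val h
      rw [h2] at h3
      calc (g : X) * (e.symm v : X) = (g * (e.symm v : X) * (g : X)⁻¹) * g := by group
        _ = (e.symm v : X) * g := by rw [h3]
    · intro h
      apply Subtype.ext
      rw [h2, h]; group
  let φ : Q →* MulAut V := ψ.comp (Subgroup.inclusion hQG)
  have hcop : (Nat.card Q).Coprime (Nat.card V) := by
    rw [hcardV]
    exact H440.MinimalAction.coprime_card hG hQ
  let D : Subgroup V := Subgroup.closure {w : V | ∃ a u, w = φ a u * u⁻¹}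
  have hDP : ∀ x (hx : x ∈ P), ∀ d ∈ D, ψ ⟨x, hPG hx⟩ d ∈ D := by
    intro x hx d hd
    have h1 : D ≤ D.comap (ψ ⟨x, hPG hx⟩).toMonoidHom := by
      show Subgroup.closure _ ≤ _
      rw [Subgroup.closure_le]
      rintro _ ⟨a, u, rfl⟩
      have hxa : x * a * x⁻¹ ∈ Q := (Subgroup.mem_normalizer_iff.mp (hPQ hx) a).mp a.2
      apply Subgroup.subset_closure
      refine ⟨⟨x * a * x⁻¹, hxa⟩, ψ ⟨x, hPG hx⟩ u, ?_⟩
      show ψ ⟨x, hPG hx⟩ (φ a u * u⁻¹) = _
      rw [map_mul, map_inv]
      congr 1
      show ψ ⟨x, hPG hx⟩ (ψ ⟨a, hQG a.2⟩ u) = ψ ⟨x * a * x⁻¹, hQG hxa⟩ (ψ ⟨x, hPG hx⟩ u)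
      rw [← MulAut.mul_apply, ← MulAut.mul_apply, ← map_mul, ← map_mul]
      congr 2
      apply Subtype.ext
      show x * (a : X) = x * a * x⁻¹ * x
      group
    exact h1 hd
  have hDbot : D = ⊥ := by
    by_contra hne
    haveI : Nontrivial D := (Subgroup.nontrivial_iff_ne_bot _).mpr hne
    letI : MulAction P D :=
      { smul := fun x d => ⟨ψ ⟨x, hPG x.2⟩ d, hDP x x.2 d d.2⟩
        one_smul := by
          intro d
          apply Subtype.ext
          show ψ 1 (d : V) = d
          rw [map_one, MulAut.one_apply]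
        mul_smul := by
          intro x y d
          apply Subtype.ext
          show ψ (⟨x, hPG x.2⟩ * ⟨y, hPG y.2⟩) (d : V) = ψ ⟨x, hPG x.2⟩ (ψ ⟨y, hPG y.2⟩ (d : V))
          rw [map_mul, MulAut.mul_apply] }
    have hsmul : ∀ (x : P) (d : D), ((x • d : D) : V) = ψ ⟨x, hPG x.2⟩ d := fun _ _ => rfl
    have hdvd : p ∣ Nat.card D := by
      have h1 : Nat.card D ∣ Nat.card G := by
        rw [← hcardV]; exact Subgroup.card_subgroup_dvd_card D
      obtain ⟨k, hk⟩ := IsPGroup.iff_card.mp hG
      rw [hk, Nat.dvd_prime_pow Fact.out] at h1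
      obtain ⟨m, -, hm⟩ := h1
      have hm0 : m ≠ 0 := by
        rintro rfl
        have := Finite.one_lt_card (α := D)
        rw [hm, pow_zero] at this
        exact lt_irrefl _ this
      rw [hm]; exact dvd_pow_self p hm0
    obtain ⟨d, hd, hd1⟩ := hP.exists_fixed_point_of_prime_dvd_card_of_fixed_point D hdvd
      (a := 1) (by
        intro x
        apply Subtype.ext
        rw [hsmul]
        show ψ ⟨x, hPG x.2⟩ 1 = 1
        rw [map_one])
    apply hd1
    symm
    apply Subtype.ext
    have hdP : (e.symm d : X) ∈ G ⊓ Subgroup.centralizer (P : Set X) := by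
      refine ⟨(e.symm d).2, ?_⟩
      refine Subgroup.mem_centralizer_iff.mpr ?_
      intro x hx
      have h1 : ψ ⟨x, hPG hx⟩ d = d := congrArg Subtype.val (hd ⟨x, hx⟩)
      exact (hψ ⟨x, hPG hx⟩ d).mp h1
    refine Lib.CoprimeAbelian.eq_one_of_fixed_of_mem_closure φ hcop (d : V) ?_ d.2
    intro a
    show ψ ⟨a, hQG a.2⟩ (d : V) = d
    rw [hψ]
    exact Subgroup.mem_centralizer_iff.mp (hC hdP) a a.2
  apply hnot
  intro a ha
  refine Subgroup.mem_centralizer_iff.mpr ?_
  intro g hg
  have h1 : φ ⟨a, ha⟩ (e ⟨g, hg⟩) * (e ⟨g, hg⟩)⁻¹ ∈ D := Subgroup.subset_closure ⟨⟨a, ha⟩, _, rfl⟩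
  rw [hDbot, Subgroup.mem_bot, mul_inv_eq_one] at h1
  have h2 := (hψ ⟨a, hQG ha⟩ (e ⟨g, hg⟩)).mp h1
  rw [e.symm_apply_apply] at h2
  exact h2.symm

end Cfsg.Agent.S3737
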