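import Cfsg.Statements.S3742
import Cfsg.Agent.PermutationGroups.AutQuaternion
set_option linter.all false

set_option autoImplicit false
open Cfsg

namespace Cfsg.Agent.S3742

open QuaternionGroup Cfsg.Agent.PermutationGroups.AutQuaternion

/-- The four long diagonals: one face from each pair of opposite faces of the octahedron. -/
def diag : Fin 4 → List (QuaternionGroup 2)
  | 0 => [a 1, xa 0, xa 3]
  | 1 => [a 1, xa 0, xa 1]
  | 2 => [a 1, xa 2, xa 3]
  | 3 => [a 3, xa 0, xa 3]

/-- Whether the candidate map `cand x y` sends the diagonal `n` to the diagonal `m`. -/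
def sends (x y : QuaternionGroup 2) (n m : Fin 4) : Bool :=
  (diag n).all (fun g => decide (cand x y g ∈ diag m)) ||
  (diag n).all (fun g => decide (cand x y g * a 2 ∈ diag m))

/-- The action of the candidate map on diagonals. -/
def tab (x y : QuaternionGroup 2) (n : Fin 4) : Fin 4 :=
  if sends x y n 0 then 0 else if sends x y n 1 then 1 else if sends x y n 2 then 2 else 3

theorem tab_one : ∀ n : Fin 4, tab (a 1) (xa 0) n = n := by
  decide +kernel

theorem tab_mul : ∀ x y : QuaternionGroup 2, good x y = true →
    ∀ u v : QuaternionGroup 2, good u v = true → ∀ n : Fin 4,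
      tab (cand x y u) (cand x y v) n = tab x y (tab u v n) := by
  decide +kernel

theorem tab_inj : ∀ x y : QuaternionGroup 2, good x y = true →
    (∀ n : Fin 4, tab x y n = n) → x = a 1 ∧ y = xa 0 := by
  decide +kernel

/-- The action of `Aut Q₈` on the four diagonals. -/
def act : MulAut (QuaternionGroup 2) →* Function.End (Fin 4) where
  toFun φ := fun n => tab (φ (a 1)) (φ (xa 0)) n
  map_one' := by
    funext n
    exact tab_one n
  map_mul' φ ψ := by
    funext n
    change tab (φ (ψ (a 1))) (φ (ψ (xa 0))) n = tab (φ (a 1)) (φ (xa 0)) (tab (ψ (a 1)) (ψ (xa 0)) n)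
    rw [eq_cand φ (ψ (a 1)), eq_cand φ (ψ (xa 0))]
    exact tab_mul _ _ (good_map φ) _ _ (good_map ψ) n

theorem act_injective : Function.Injective (MonoidHom.toHomPerm act) := by
  rw [injective_iff_map_eq_one]
  intro φ h
  have h' : ∀ n : Fin 4, tab (φ (a 1)) (φ (xa 0)) n = n := by
    intro n
    exact congrArg (fun σ : Equiv.Perm (Fin 4) => σ n) h
  obtain ⟨h1, h2⟩ := tab_inj _ _ (good_map φ) h'
  ext g
  rw [eq_cand φ g, h1, h2]
  have := eq_cand (1 : MulAut (QuaternionGroup 2)) g
  exact this.symm

/-- The automorphism group of the quaternion group of order 8 is isomorphic to the symmetric group of degree 4. -/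
theorem result : Nonempty (MulAut (QuaternionGroup 2) ≃* Equiv.Perm (Fin 4)) := by
  refine ⟨MulEquiv.ofBijective (MonoidHom.toHomPerm act) ?_⟩
  haveI : Finite (MulAut (QuaternionGroup 2)) :=
    Nat.finite_of_card_ne_zero (by rw [card_mulAut]; norm_num)
  refine (Nat.bijective_iff_injective_and_card _).2 ⟨act_injective, ?_⟩
  rw [card_mulAut, Nat.card_perm, Nat.card_eq_fintype_card, Fintype.card_fin]
  rfl

end Cfsg.Agent.S3742
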