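import Cfsg.Statements.S3743
import Cfsg.Agent.Solvable.Zipper
import Cfsg.Agent.OddOrderLocal.PiCoreOf
set_option linter.all false

set_option autoImplicit false
open Cfsg

namespace Cfsg.Agent.S3743

open Cfsg.Agent.OddOrderLocal.PiCoreOf

theorem piCoreOf_le_piCore {G : Type*} [Group G] [Finite G] (π : Set ℕ) (H : Subgroup G)
    (hH : H.IsSubnormal) : piCoreOf π H ≤ piCore π G := by
  induction hH with
  | top =>
    refine le_piCore ?_ (piCoreOf_isPi π _)
    rw [← Subgroup.normalizer_eq_top_iff, eq_top_iff]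
    exact le_normalizer_piCoreOf π _
  | step H K hHK hKs hN ih =>
    refine le_trans (piCoreOf_le_piCoreOf ?_ ((piCoreOf_le π H).trans hHK)) ih
    exact (Subgroup.normal_subgroupOf_iff_le_normalizer hHK).mp hN

/-- In a finite group G, every subnormal nilpotent subgroup lies in the Fitting subgroup F(G), and, for a set of primes π, every subnormal subgroup all of whose prime divisors lie in π lies in O_π(G). -/
theorem result {G : Type*} [Group G] [Finite G] (A : Subgroup G) (hA : A.IsSubnormal) : (Group.IsNilpotent A → A ≤ Cfsg.fittingSubgroup G) ∧ ∀ π : Set ℕ, (∀ p : ℕ, p.Prime → p ∣ Nat.card A → p ∈ π) → A ≤ Cfsg.piCore π G := by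
  refine ⟨fun h => Cfsg.Agent.Solvable.Zipper.le_fittingSubgroup_of_isSubnormal hA h, ?_⟩
  intro π hπ
  refine le_trans ?_ (piCoreOf_le_piCore π A hA)
  exact le_piCoreOf le_rfl Subgroup.le_normalizer hπ

end Cfsg.Agent.S3743
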