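import Cfsg.Statements.S3747
import Cfsg.Agent.SignalizersComponents.LayerCenter
import Cfsg.Agent.Lib.GenFitting
set_option linter.all false

set_option autoImplicit false
open Cfsg

namespace Cfsg.Agent.S3747

open Subgroup
open Cfsg.Agent.SignalizersComponents.Components
open Cfsg.Agent.SignalizersComponents.LayerCenter
open scoped Pointwise

theorem part_a {G : Type*} [Group G] [Finite G] (K : Subgroup G) (hK : Cfsg.IsComponent K)
    (hc : Subgroup.center ↥K = ⊥) : Subgroup.normalClosure (K : Set G) ≠ ⊥ ∧
      ∀ N : Subgroup G, N.Normal → N ≤ Subgroup.normalClosure (K : Set G) →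
        N = ⊥ ∨ N = Subgroup.normalClosure (K : Set G) := by
  set L : Subgroup G := Subgroup.normalClosure (K : Set G) with hL
  have hKL : K ≤ L := subset_normalClosure
  have hKne : K ≠ ⊥ := by
    have := quasisimple_nontrivial hK.2
    exact (Subgroup.nontrivial_iff_ne_bot K).mp this
  refine ⟨fun h => hKne (le_bot_iff.mp (h ▸ hKL)), fun N hN hNL => ?_⟩
  rcases component_le_or_commutator_eq_bot hK hN.isSubnormal with h | h
  · right
    apply le_antisymm hNL
    exact normalClosure_le_normal h
  · left
    let ι := {H : Subgroup G // ∃ g : G, H = K.map (MulAut.conj g).toMonoidHom}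
    have hcomp : ∀ i : ι, IsComponent (i : Subgroup G) := by
      rintro ⟨H, g, rfl⟩
      exact isComponent_conj g hK
    have hle : ∀ i : ι, (i : Subgroup G) ≤ L := by
      rintro ⟨H, g, rfl⟩ _ ⟨x, hx, rfl⟩
      exact normalClosure_normal.conj_mem x (hKL hx) g
    have hLi : L = ⨆ i : ι, (i : Subgroup G) := by
      apply le_antisymm
      · have hn : (⨆ i : ι, (i : Subgroup G)).Normal := by
          rw [← normalizer_eq_top_iff, eq_top_iff]
          intro g _
          rw [mem_normalizer_iff_map_conj_eq]
          have key : ∀ g : G, (⨆ i : ι, (i : Subgroup G)).map (MulAut.conj g).toMonoidHom ≤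
              ⨆ i : ι, (i : Subgroup G) := by
            intro g
            rw [Subgroup.map_iSup]
            apply iSup_le
            rintro ⟨H, g', rfl⟩
            refine le_trans ?_ (le_iSup _ (⟨K.map (MulAut.conj (g * g')).toMonoidHom,
              g * g', rfl⟩ : ι))
            rintro _ ⟨_, ⟨x, hx, rfl⟩, rfl⟩
            exact ⟨x, hx, by simp [mul_assoc]⟩
          apply le_antisymm (key g)
          intro x hx
          refine ⟨g⁻¹ * x * g, ?_, by simp [mul_assoc]⟩
          have := key g⁻¹ ⟨x, hx, rfl⟩
          simpa using this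
        apply normalClosure_le_normal
        intro x hx
        have : x ∈ ((⟨K, 1, by ext; simp⟩ : ι) : Subgroup G) := hx
        exact (le_iSup (fun i : ι => (i : Subgroup G)) _) this
      · exact iSup_le hle
    have hcomm : Pairwise fun i j : ι => ∀ x y : G, x ∈ (i : Subgroup G) → y ∈ (j : Subgroup G) →
        Commute x y := by
      intro i j hij x y hx hy
      have h := component_le_centralizer_of_ne (hcomp i) (hcomp j) (fun h => hij (Subtype.ext h)) hx
      exact (mem_centralizer_iff.mp h y hy).symm
    have h1 := map_center_iSup (H := fun i : ι => (i : Subgroup G)) hcomm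
    have h2 : ⨆ i : ι, (center ↥(i : Subgroup G)).map (i : Subgroup G).subtype = ⊥ := by
      rw [iSup_eq_bot]
      rintro ⟨H, g, rfl⟩
      rw [eq_bot_iff]
      intro x hx
      rw [mem_map_center_iff] at hx
      obtain ⟨⟨y, hy, rfl⟩, hxc⟩ := hx
      have hyc : (⟨y, hy⟩ : K) ∈ center K := by
        rw [mem_center_iff]
        rintro ⟨z, hz⟩
        have h3 := hxc _ ⟨z, hz, rfl⟩
        apply Subtype.ext
        change z * y = y * z
        apply (MulAut.conj g).injective
        rw [map_mul, map_mul]
        exact h3
      rw [hc, mem_bot] at hyc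
      have : y = 1 := congrArg Subtype.val hyc
      rw [this, mem_bot, map_one]
    rw [h2, ← hLi, map_center_eq] at h1
    rw [eq_bot_iff, ← h1]
    refine le_inf hNL ?_
    rw [le_centralizer_iff, hLi]
    apply iSup_le
    rintro ⟨H, g, rfl⟩ _ ⟨x, hx, rfl⟩
    change MulAut.conj g x ∈ centralizer (N : Set G)
    rw [mem_centralizer_iff]
    intro n hn
    have hxc : K ≤ centralizer (N : Set G) := commutator_eq_bot_iff_le_centralizer.mp h
    have hn' : g⁻¹ * n * g ∈ N := by
      have := hN.conj_mem n hn g⁻¹
      simpa using this
    have h3 := mem_centralizer_iff.mp (hxc hx) _ hn'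
    rw [MulAut.conj_apply]
    calc n * (g * x * g⁻¹) = g * ((g⁻¹ * n * g) * x) * g⁻¹ := by group
      _ = g * (x * (g⁻¹ * n * g)) * g⁻¹ := by rw [h3]
      _ = g * x * g⁻¹ * n := by group

/-- Let G be a finite group. (a) If K is a component of G with trivial centre, then the normal closure of K in G is a minimal normal subgroup of G. (b) If the Fitting subgroup of G is trivial, then the layer E(G) is generated by the minimal normal subgroups of G. -/
theorem result {G : Type*} [Group G] [Finite G] : (∀ K : Subgroup G, Cfsg.IsComponent K → Subgroup.center ↥K = ⊥ → (Subgroup.normalClosure (K : Set G) ≠ ⊥ ∧ ∀ N : Subgroup G, N.Normal → N ≤ Subgroup.normalClosure (K : Set G) → N = ⊥ ∨ N = Subgroup.normalClosure (K : Set G))) ∧ (Cfsg.fittingSubgroup G = ⊥ → sSup {N : Subgroup G | N ≠ ⊥ ∧ N.Normal ∧ ∀ N' : Subgroup G, N'.Normal → N' ≤ N → N' = ⊥ ∨ N' = N} = Cfsg.layer G) := by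
  refine ⟨part_a, fun hF => ?_⟩
  have hcent : centralizer (layer G : Set G) ≤ layer G := by
    have h := Lib.GenFitting.centralizer_genFitting_le (G := G)
    have h1 : generalizedFittingSubgroup G = layer G := by
      rw [generalizedFittingSubgroup, hF, sup_bot_eq]
    rwa [h1] at h
  apply le_antisymm
  · apply sSup_le
    rintro N ⟨hNe, hNn, hmin⟩
    have hLn : (layer G).Normal := layer_normal G
    rcases hmin (layer G ⊓ N) inferInstance inf_le_right with h | h
    · exfalso
      have h1 : ⁅N, layer G⁆ = ⊥ := by
        rw [eq_bot_iff, ← h]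
        exact le_inf (commutator_le_right N (layer G)) (commutator_le_left N (layer G))
      have h2 : N ≤ layer G :=
        (commutator_eq_bot_iff_le_centralizer.mp h1).trans hcent
      rw [inf_eq_right.mpr h2] at h
      exact hNe h
    · rw [← h]; exact inf_le_left
  · rw [layer_le_iff]
    intro K hK
    have hKc : center K = ⊥ := by
      have h1 : (center K).map K.subtype ≤ fittingSubgroup G := by
        apply Cfsg.Agent.SignalizersComponents.CharP.subnormal_nilpotent_le_fitting
        · exact (inferInstance : (center K).Normal).isSubnormal.trans' hK.1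
        · have h5 : Group.IsNilpotent (center K) :=
            ⟨1, Subgroup.upperCentralSeries_one_eq_top_iff.mpr inferInstance⟩
          exact (Group.isNilpotent_congr
            ((center K).equivMapOfInjective K.subtype K.subtype_injective)).mp h5
      rw [hF, le_bot_iff, Subgroup.map_eq_bot_iff_of_injective _ K.subtype_injective] at h1
      exact h1
    obtain ⟨h1, h2⟩ := part_a K hK hKc
    refine le_trans subset_normalClosure (le_sSup ⟨h1, normalClosure_normal, h2⟩)

end Cfsg.Agent.S3747
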