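import Cfsg.Statements.S3751
import Cfsg.Agent.Lib.LocalCore
import Cfsg.Agent.PLocal.Replacement
set_option linter.all false

set_option autoImplicit false
open Cfsg

namespace Cfsg.Agent.S3751

open Cfsg.Agent.Lib.LocalCore Subgroup
open scoped commutatorElement

variable {G : Type*} [Group G]

/-- `M` is a `p`-local subgroup. -/
def IsLoc (p : ℕ) (M : Subgroup G) : Prop :=
  ∃ T : Subgroup G, IsPGroup p T ∧ T ≠ ⊥ ∧ M = Subgroup.normalizer (T : Set G)

/-- `M` is a maximal `p`-local subgroup. -/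
def IsMaxLoc (p : ℕ) (M : Subgroup G) : Prop :=
  IsLoc p M ∧ ∀ L : Subgroup G, IsLoc p L → M ≤ L → L = M

theorem exists_maxLoc [Finite G] {p : ℕ} {L : Subgroup G} (hL : IsLoc p L) :
    ∃ M : Subgroup G, IsMaxLoc p M ∧ L ≤ M := by
  have hfin : {N : Subgroup G | IsLoc p N ∧ L ≤ N}.Finite := Set.toFinite _
  obtain ⟨M, hM⟩ := hfin.exists_maximal ⟨L, hL, le_rfl⟩
  refine ⟨M, ⟨hM.prop.1, fun K hK hMK => ?_⟩, hM.prop.2⟩
  exact le_antisymm (hM.le_of_ge ⟨hK, hM.prop.2.trans hMK⟩ hMK) hMK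

theorem isLoc_map {p : ℕ} {M : Subgroup G} (hM : IsLoc p M) (g : G) :
    IsLoc p (M.map (MulAut.conj g).toMonoidHom) := by
  obtain ⟨T, hT, hT1, rfl⟩ := hM
  refine ⟨T.map (MulAut.conj g).toMonoidHom, hT.map _, ?_, ?_⟩
  · intro h
    exact hT1 ((Subgroup.map_eq_bot_iff_of_injective _ (MulAut.conj g).injective).1 h)
  · exact Subgroup.map_equiv_normalizer_eq T (MulAut.conj g)

theorem map_map_conj (M : Subgroup G) (g h : G) :
    (M.map (MulAut.conj g).toMonoidHom).map (MulAut.conj h).toMonoidHom =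
      M.map (MulAut.conj (h * g)).toMonoidHom := by
  rw [Subgroup.map_map]
  congr 1
  ext x
  simp [mul_assoc]

theorem map_conj_one (M : Subgroup G) : M.map (MulAut.conj (1 : G)).toMonoidHom = M := by
  ext x
  simp

theorem isMaxLoc_map {p : ℕ} {M : Subgroup G} (hM : IsMaxLoc p M) (g : G) :
    IsMaxLoc p (M.map (MulAut.conj g).toMonoidHom) := by
  refine ⟨isLoc_map hM.1 g, fun L hL hML => ?_⟩
  have h1 := hM.2 _ (isLoc_map hL g⁻¹) (by
    have := Subgroup.map_mono (f := (MulAut.conj g⁻¹).toMonoidHom) hML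
    rwa [map_map_conj, inv_mul_cancel, map_conj_one] at this)
  rw [← h1, map_map_conj, mul_inv_cancel, map_conj_one]

/-- Let G be a finite group, p a prime dividing its order, with O_p(G) = 1 and every p-local subgroup of characteristic p: the facts on maximal p-locals. -/
theorem core_ne_bot {p : ℕ} {M : Subgroup G} (hM : IsLoc p M) : (pCore p M).map M.subtype ≠ ⊥ := by
  obtain ⟨T, hT, hT1, rfl⟩ := hM
  have h1 : T ≤ (pCore p (Subgroup.normalizer (T : Set G))).map
      (Subgroup.normalizer (T : Set G)).subtype :=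
    le_map_pCore Subgroup.le_normalizer hT le_rfl
  intro h
  rw [h, le_bot_iff] at h1
  exact hT1 h1

theorem normalizer_core {p : ℕ} {M : Subgroup G} (hM : IsMaxLoc p M) :
    Subgroup.normalizer (((pCore p M).map M.subtype : Subgroup G) : Set G) = M :=
  hM.2 _ ⟨_, isPGroup_map_pCore p M, core_ne_bot hM.1, rfl⟩ (le_normalizer_map_pCore p M)

theorem centralizer_core_le {p : ℕ} (hloc : IsOfLocalCharacteristic p G) {M : Subgroup G}
    (hM : IsLoc p M) : Subgroup.centralizer (pCore p ↥M : Set ↥M) ≤ pCore p ↥M := by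
  obtain ⟨T, hT, hT1, rfl⟩ := hM
  exact hloc.2 T hT hT1

/-- A nontrivial subgroup of a maximal `p`-local subgroup `M` normalized by `M` has normalizer `M`. -/
theorem normalizer_eq {p : ℕ} (hloc : IsOfLocalCharacteristic p G) {M A : Subgroup G}
    (hM : IsMaxLoc p M) (hA : A ≠ ⊥) (hAM : A ≤ M) (hMA : M ≤ Subgroup.normalizer (A : Set G)) :
    Subgroup.normalizer (A : Set G) = M := by
  set Q : Subgroup G := (pCore p M).map M.subtype with hQ
  have hQM : Q ≤ M := Subgroup.map_subtype_le _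
  have hMQ : M ≤ Subgroup.normalizer (Q : Set G) := le_normalizer_map_pCore p M
  have hQp : IsPGroup p Q := isPGroup_map_pCore p M
  -- `A ∩ Q ≠ 1`
  have hAQ : A ⊓ Q ≠ ⊥ := by
    intro h
    have hcomm : ∀ a ∈ A, ∀ q ∈ Q, a * q = q * a := by
      intro a ha q hq
      have h1 : ⁅a, q⁆ ∈ A ⊓ Q := by
        constructor
        · have h2 : q * a⁻¹ * q⁻¹ ∈ A :=
            (Subgroup.mem_normalizer_iff.1 (hMA (hQM hq)) _).1 (A.inv_mem ha)
          have h3 : ⁅a, q⁆ = a * (q * a⁻¹ * q⁻¹) := by rw [commutatorElement_def]; group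
          rw [h3]; exact A.mul_mem ha h2
        · have h2 : a * q * a⁻¹ ∈ Q :=
            (Subgroup.mem_normalizer_iff.1 (hMQ (hAM ha)) _).1 hq
          rw [commutatorElement_def]; exact Q.mul_mem h2 (Q.inv_mem hq)
      rw [h, Subgroup.mem_bot, commutatorElement_eq_one_iff_mul_comm] at h1
      exact h1
    apply hA
    rw [eq_bot_iff, ← h]
    refine le_inf le_rfl ?_
    intro a ha
    have h1 : (⟨a, hAM ha⟩ : M) ∈ Subgroup.centralizer (pCore p ↥M : Set ↥M) := by
      rw [Subgroup.mem_centralizer_iff]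
      intro q hq
      exact Subtype.ext (hcomm a ha q ⟨q, hq, rfl⟩).symm
    exact ⟨_, centralizer_core_le hloc hM.1 h1, rfl⟩
  -- `B = O_p(A)`
  set B : Subgroup G := (pCore p A).map A.subtype with hB
  have hAQB : A ⊓ Q ≤ B := by
    refine le_map_pCore inf_le_left (hQp.to_le inf_le_right) ?_
    intro a ha
    rw [Subgroup.mem_normalizer_iff]
    intro x
    constructor
    · rintro ⟨h1, h2⟩
      exact ⟨A.mul_mem (A.mul_mem ha h1) (A.inv_mem ha),
        (Subgroup.mem_normalizer_iff.1 (hMQ (hAM ha)) _).1 h2⟩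
    · rintro ⟨h1, h2⟩
      refine ⟨?_, (Subgroup.mem_normalizer_iff.1 (hMQ (hAM ha)) _).2 h2⟩
      have h3 := A.mul_mem (A.mul_mem (A.inv_mem ha) h1) ha
      have e : a⁻¹ * (a * x * a⁻¹) * a = x := by group
      rwa [e] at h3
  have hB1 : B ≠ ⊥ := by
    intro h
    rw [h, le_bot_iff] at hAQB
    exact hAQ hAQB
  have hNB : Subgroup.normalizer (A : Set G) ≤ Subgroup.normalizer (B : Set G) := by
    intro g hg
    rw [Subgroup.mem_normalizer_iff_map_conj_eq] at hg ⊢
    have hmap : ∀ X : Subgroup G, ((pCore p X).map X.subtype).map (MulAut.conj g).toMonoidHom =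
        (pCore p ↥(X.map (MulAut.conj g).toMonoidHom)).map
          (X.map (MulAut.conj g).toMonoidHom).subtype := by
      intro X
      rw [← Cfsg.Agent.Lib.Cores.map_equiv_pCore
        (X.equivMapOfInjective (MulAut.conj g).toMonoidHom (MulAut.conj g).injective) p,
        Subgroup.map_map, Subgroup.map_map]
      rfl
    have hg' : A.map (MulAut.conj g).toMonoidHom = A := hg
    have h := hmap A
    rw [hg'] at h
    exact h
  have h2 : Subgroup.normalizer (B : Set G) = M :=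
    hM.2 _ ⟨B, isPGroup_map_pCore p A, hB1, rfl⟩ (hMA.trans hNB)
  exact le_antisymm (hNB.trans h2.le) hMA

/-- `D` is a Sylow `p`-subgroup of `M` (in the weak form: no larger `p`-subgroup). -/
def IsSyl (p : ℕ) (D M : Subgroup G) : Prop :=
  ∀ D' : Subgroup G, IsPGroup p D' → D ≤ D' → D' ≤ M → D' = D

theorem core_le_of_isSyl {p : ℕ} {D M : Subgroup G} (hD : IsPGroup p D) (hDM : D ≤ M)
    (h : IsSyl p D M) : (pCore p M).map M.subtype ≤ D := by
  have h1 : IsPGroup p (D ⊔ (pCore p M).map M.subtype : Subgroup G) := by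
    refine IsPGroup.to_sup_of_normal_right' hD (isPGroup_map_pCore p M) ?_
    exact hDM.trans (le_normalizer_map_pCore p M)
  have h2 := h _ h1 le_sup_left (sup_le hDM (Subgroup.map_subtype_le _))
  rw [← h2]; exact le_sup_right

/-- Two distinct subgroups M₁, M₂ of G form a primitive pair when, for {i, j} = {1, 2}, every non-trivial normal subgroup A of M_i contained in M₁ ∩ M₂ satisfies N_{M_j}(A) = M₁ ∩ M₂; the pair has characteristic p when moreover C_{M_i}(O_p(M_i)) ≤ O_p(M_i) for both i and O_p(M₁)O_p(M₂) ≤ M₁ ∩ M₂. Let G be a finite group, p a prime dividing its order, with O_p(G) = 1 and every p-local subgroup of characteristic p. Then either G has a primitive pair of characteristic p, or every maximal p-local subgroup M of G is strongly p-embedded in G: M is a proper subgroup, p divides its order, and for every g ∉ M the order of M ∩ gMg⁻¹ is prime to p. -/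
theorem result {G : Type*} [Group G] [Finite G] {p : ℕ} [Fact p.Prime] (hloc : Cfsg.IsOfLocalCharacteristic p G) (hOp : Cfsg.pCore p G = ⊥) : (∃ M₁ M₂ : Subgroup G, M₁ ≠ M₂ ∧ (∀ A : Subgroup G, A ≠ ⊥ → A ≤ M₁ ⊓ M₂ → (M₁ ≤ Subgroup.normalizer (A : Set G) → M₂ ⊓ Subgroup.normalizer (A : Set G) = M₁ ⊓ M₂) ∧ (M₂ ≤ Subgroup.normalizer (A : Set G) → M₁ ⊓ Subgroup.normalizer (A : Set G) = M₁ ⊓ M₂)) ∧ Subgroup.centralizer (Cfsg.pCore p ↥M₁ : Set ↥M₁) ≤ Cfsg.pCore p ↥M₁ ∧ Subgroup.centralizer (Cfsg.pCore p ↥M₂ : Set ↥M₂) ≤ Cfsg.pCore p ↥M₂ ∧ (Cfsg.pCore p ↥M₁).map M₁.subtype ⊔ (Cfsg.pCore p ↥M₂).map M₂.subtype ≤ M₁ ⊓ M₂) ∨ (∀ M : Subgroup G, (∃ T : Subgroup G, IsPGroup p T ∧ T ≠ ⊥ ∧ M = Subgroup.normalizer (T : Set G)) → (∀ L : Subgroup G, (∃ T : Subgroup G, IsPGroup p T ∧ T ≠ ⊥ ∧ L = Subgroup.normalizer (T : Set G)) → M ≤ L → L = M) → M ≠ ⊤ ∧ p ∣ Nat.card M ∧ ∀ g : G, g ∉ M → ¬ p ∣ Nat.card ↥(M ⊓ M.map (MulAut.conj g).toMonoidHom)) := by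
  by_contra hcon
  rw [not_or] at hcon
  obtain ⟨hno, hcon⟩ := hcon
  push Not at hcon
  obtain ⟨M, hMloc, hMmax, hM⟩ := hcon
  have hMM : IsMaxLoc p M := ⟨hMloc, fun L hL => hMmax L hL⟩
  -- `M` is proper
  have hMtop : M ≠ ⊤ := by
    rintro rfl
    obtain ⟨T, hT, hT1, hTn⟩ := hMloc
    have hTn' : T.Normal := Subgroup.normalizer_eq_top_iff.1 hTn.symm
    have h1 := Cfsg.Agent.Lib.Cores.le_pCore hTn' hT
    rw [hOp, le_bot_iff] at h1
    exact hT1 h1
  have hpM : p ∣ Nat.card M := by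
    obtain ⟨T, hT, hT1, rfl⟩ := hMloc
    have h1 : p ∣ Nat.card T := by
      have : Nontrivial T := (Subgroup.nontrivial_iff_ne_bot T).2 hT1
      obtain ⟨n, hn, hn'⟩ := hT.nontrivial_iff_card.1 this
      rw [hn']
      exact dvd_pow_self p hn.ne'
    exact h1.trans (Subgroup.card_dvd_of_le Subgroup.le_normalizer)
  obtain ⟨g, hgM, hg⟩ := hM hMtop hpM
  -- conjugates by outside elements are different
  have hne : ∀ N : Subgroup G, IsMaxLoc p N → ∀ x : G, x ∉ N →
      N.map (MulAut.conj x).toMonoidHom ≠ N := by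
    intro N hN x hx h
    apply hx
    have h1 : Subgroup.normalizer (N : Set G) = N := by
      refine normalizer_eq hloc hN ?_ le_rfl Subgroup.le_normalizer
      rintro rfl
      exact core_ne_bot hN.1 (by rw [eq_bot_iff]; exact Subgroup.map_subtype_le _)
    rw [← h1, Subgroup.mem_normalizer_iff_map_conj_eq]
    exact h
  -- an admissible triple
  obtain ⟨⟨M₁, M₂, D⟩, ⟨h1, h2, h12, hD, hD1, hD2⟩, hmax⟩ := Set.exists_max_image
    {t : Subgroup G × Subgroup G × Subgroup G | IsMaxLoc p t.1 ∧ IsMaxLoc p t.2.1 ∧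
      t.1 ≠ t.2.1 ∧ IsPGroup p t.2.2 ∧ t.2.2 ≤ t.1 ∧ t.2.2 ≤ t.2.1}
    (fun t => Nat.card t.2.2) (Set.toFinite _)
    ⟨(M, M.map (MulAut.conj g).toMonoidHom, ⊥), hMM, isMaxLoc_map hMM g,
      (hne M hMM g hgM).symm, IsPGroup.of_bot, bot_le, bot_le⟩
  dsimp only at h1 h2 h12 hD hD1 hD2
  have hDne : D ≠ ⊥ := by
    rintro rfl
    obtain ⟨x, hx⟩ := exists_prime_orderOf_dvd_card' p hg
    have hxp : IsPGroup p (Subgroup.zpowers (x : G)) := by
      intro y
      obtain ⟨y, n, rfl⟩ := y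
      refine ⟨1, Subtype.ext ?_⟩
      have e : ((x : G)) ^ p = 1 := by
        have h := pow_orderOf_eq_one x
        rw [hx] at h
        exact congrArg Subtype.val h
      simp only [pow_one, SubgroupClass.coe_pow, OneMemClass.coe_one]
      rw [← zpow_natCast, ← zpow_mul, mul_comm, zpow_mul, zpow_natCast, e, one_zpow]
    have h3 := hmax (M, M.map (MulAut.conj g).toMonoidHom, Subgroup.zpowers (x : G))
      ⟨hMM, isMaxLoc_map hMM g, (hne M hMM g hgM).symm, hxp,
        Subgroup.zpowers_le.2 x.2.1, Subgroup.zpowers_le.2 x.2.2⟩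
    dsimp only at h3
    rw [Subgroup.card_bot, Nat.card_zpowers] at h3
    have h4 : orderOf (x : G) = p := by rw [Subgroup.orderOf_coe, hx]
    rw [h4] at h3
    exact absurd h3 (not_le.2 (Fact.out : p.Prime).one_lt)
  obtain ⟨L, hL, hLD⟩ := exists_maxLoc (p := p) (L := Subgroup.normalizer (D : Set G))
    ⟨D, hD, hDne, rfl⟩
  -- if `D` is not Sylow in a maximal `p`-local `N` then `N = L`
  have key : ∀ N : Subgroup G, IsMaxLoc p N → D ≤ N → ¬ IsSyl p D N →
      L = N ∧ ∃ x ∈ N, x ∈ Subgroup.normalizer (D : Set G) ∧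
        ∃ D' : Subgroup G, IsPGroup p D' ∧ D < D' ∧ x ∈ D' ∧ x ∉ D := by
    intro N hN hDN hns
    rw [IsSyl] at hns
    push Not at hns
    obtain ⟨D', hD', hDD', hD'N, hne'⟩ := hns
    obtain ⟨x, hxD', hxD, hxn⟩ := Cfsg.Agent.PLocal.Replacement.exists_normalizing
      (S := D') (N := D) (B := D') hD' hDD' le_rfl (hDD'.trans Subgroup.le_normalizer)
      (fun h => hne' (le_antisymm h hDD'))
    refine ⟨?_, x, hD'N hxD', hxn, D', hD', lt_of_le_of_ne hDD' (Ne.symm hne'), hxD', hxD⟩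
    by_contra hLN
    have h3 : IsPGroup p (D' ⊓ Subgroup.normalizer (D : Set G) : Subgroup G) :=
      hD'.to_le inf_le_left
    have h4 := hmax (L, N, D' ⊓ Subgroup.normalizer (D : Set G))
      ⟨hL, hN, hLN, h3, inf_le_right.trans hLD, inf_le_left.trans hD'N⟩
    dsimp only at h4
    have h5 : D ≤ D' ⊓ Subgroup.normalizer (D : Set G) := le_inf hDD' Subgroup.le_normalizer
    have h6 := Subgroup.eq_of_le_of_card_ge h5 h4
    exact hxD (h6 ▸ ⟨hxD', hxn⟩)
  -- from two maximal `p`-locals in which `D` is Sylow we get a primitive pair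
  have fin : ∀ N₁ N₂ : Subgroup G, IsMaxLoc p N₁ → IsMaxLoc p N₂ → N₁ ≠ N₂ → D ≤ N₁ → D ≤ N₂ →
      IsSyl p D N₁ → IsSyl p D N₂ → False := by
    intro N₁ N₂ hN₁ hN₂ hNN hD₁ hD₂ hS₁ hS₂
    refine hno ⟨N₁, N₂, hNN, ?_, centralizer_core_le hloc hN₁.1, centralizer_core_le hloc hN₂.1, ?_⟩
    · intro A hA hAD
      refine ⟨fun h => ?_, fun h => ?_⟩
      · rw [normalizer_eq hloc hN₁ hA (hAD.trans inf_le_left) h, inf_comm]
      · rw [normalizer_eq hloc hN₂ hA (hAD.trans inf_le_right) h]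
    · have e1 := core_le_of_isSyl hD hD₁ hS₁
      have e2 := core_le_of_isSyl hD hD₂ hS₂
      exact (sup_le e1 e2).trans (le_inf hD₁ hD₂)
  -- the case where `D` is Sylow in one and not in the other
  have mixed : ∀ N₁ N₂ : Subgroup G, IsMaxLoc p N₁ → IsMaxLoc p N₂ → N₁ ≠ N₂ → D ≤ N₁ → D ≤ N₂ →
      IsSyl p D N₁ → False := by
    intro N₁ N₂ hN₁ hN₂ hNN hD₁ hD₂ hS₁
    by_cases hS₂ : IsSyl p D N₂
    · exact fin N₁ N₂ hN₁ hN₂ hNN hD₁ hD₂ hS₁ hS₂
    · obtain ⟨-, x, hxN, hxn, D', hD', hDD', hxD', hxD⟩ := key N₂ hN₂ hD₂ hS₂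
      have hDx : D.map (MulAut.conj x).toMonoidHom = D :=
        Subgroup.mem_normalizer_iff_map_conj_eq.1 hxn
      have hxN₁ : x ∉ N₁ := by
        intro h
        have h3 : IsPGroup p (D ⊔ Subgroup.zpowers x : Subgroup G) :=
          hD'.to_le (sup_le hDD'.le (Subgroup.zpowers_le.2 hxD'))
        have h4 := hS₁ _ h3 le_sup_left (sup_le hD₁ (Subgroup.zpowers_le.2 h))
        exact hxD (h4 ▸ (le_sup_right : Subgroup.zpowers x ≤ D ⊔ Subgroup.zpowers x)
          (Subgroup.mem_zpowers x))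
      have hN₁x := isMaxLoc_map hN₁ x
      refine fin N₁ _ hN₁ hN₁x (hne N₁ hN₁ x hxN₁).symm hD₁ ?_ hS₁ ?_
      · rw [← hDx]; exact Subgroup.map_mono hD₁
      · intro E hE hDE hEN
        have h3 := hS₁ (E.map (MulAut.conj x⁻¹).toMonoidHom) (hE.map _) ?_ ?_
        · have h4 := congrArg (Subgroup.map (MulAut.conj x).toMonoidHom) h3
          rwa [map_map_conj, mul_inv_cancel, map_conj_one, hDx] at h4
        · have h4 := Subgroup.map_mono (f := (MulAut.conj x⁻¹).toMonoidHom) hDE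
          refine le_trans (le_of_eq ?_) h4
          conv_rhs => rw [← hDx]
          rw [map_map_conj, inv_mul_cancel, map_conj_one]
        · have h4 := Subgroup.map_mono (f := (MulAut.conj x⁻¹).toMonoidHom) hEN
          rwa [map_map_conj, inv_mul_cancel, map_conj_one] at h4
  by_cases hS₁ : IsSyl p D M₁
  · exact mixed M₁ M₂ h1 h2 h12 hD1 hD2 hS₁
  · by_cases hS₂ : IsSyl p D M₂
    · exact mixed M₂ M₁ h2 h1 h12.symm hD2 hD1 hS₂
    · exact h12 ((key M₁ h1 hD1 hS₁).1.symm.trans (key M₂ h2 hD2 hS₂).1)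

end Cfsg.Agent.S3751
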