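import Mathlib
import Cfsg.Prelude.Def_PLocal
import Cfsg.Agent.Lib.Cores
import Cfsg.Agent.Lib.GenFitting
import Cfsg.Agent.PLocal.ThompsonJ
import Cfsg.Agent.PLocal.ReplacementElem
import Cfsg.Agent.PLocal.StableClosure
import Cfsg.Agent.PLocal.ActionStable
import Cfsg.Agent.Lib.SubnormalJoin
import Cfsg.Agent.Lib.NormalAbelian
import Cfsg.Agent.Lib.LocalCore
import Cfsg.Agent.PLocal.StableNormal
import Cfsg.Agent.Transfer.ThompsonFactor
import Cfsg.Statements.S3753
import Cfsg.Agent.S0626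
set_option linter.all false

-- part: H443/MaxElem
section
/-!
# Maximal elementary abelian subgroups of a `p`-subgroup, relative versions

* `MaxEl p P A`: `A` is an elementary abelian subgroup of `P` of largest order.
* `MaxEl.le_of_no_quadratic`: Thompson replacement: if no element of `P` acts quadratically and nontrivially on the
  elementary abelian normal subgroup `V` of `P` (`p` odd), then `V` lies in every `A` with `MaxEl p P A`.
* `zz p P`: the intersection of all `A` with `MaxEl p P A`; it is elementary abelian and normalized by `N(P)`.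
* `le_pCore_of_mod`: if `C = C_M(Z)` (`Z` normal) normalizes the `p`-subgroup `Q` and `R ≤ Q` lies in `O_p` modulo `C`,
  then `R ≤ O_p(M)`.
-/

set_option autoImplicit false

namespace Cfsg.Agent.H443.MaxElem

open Subgroup Cfsg Cfsg.Agent.Lib.Cores Cfsg.Agent.Lib.GenFitting
open Cfsg.Agent.PLocal.ThompsonJ
open scoped commutatorElement

variable {G : Type*} [Group G]

/-- `A` is an elementary abelian subgroup of `P` of largest order. -/
def MaxEl (p : ℕ) (P A : Subgroup G) : Prop :=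
  A ≤ P ∧ IsElementaryAbelian p A ∧
    ∀ B : Subgroup G, B ≤ P → IsElementaryAbelian p B → Nat.card B ≤ Nat.card A

theorem exists_maxEl [Finite G] (p : ℕ) (P : Subgroup G) : ∃ A, MaxEl p P A := by
  obtain ⟨A, hA, hmax⟩ := Set.exists_max_image {A : Subgroup G | A ≤ P ∧ IsElementaryAbelian p A}
    (fun A => Nat.card A) (Set.toFinite _) ⟨⊥, bot_le, isElementaryAbelian_bot G p⟩
  exact ⟨A, hA.1, hA.2, fun B hB hB' => hmax B ⟨hB, hB'⟩⟩

theorem MaxEl.of_card_le {p : ℕ} {P A B : Subgroup G} (hA : MaxEl p P A) (hB : B ≤ P)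
    (hB' : IsElementaryAbelian p B) (h : Nat.card A ≤ Nat.card B) : MaxEl p P B :=
  ⟨hB, hB', fun C hC hC' => (hA.2.2 C hC hC').trans h⟩

theorem MaxEl.mono {p : ℕ} {P P' A : Subgroup G} (hA : MaxEl p P A) (hA' : A ≤ P') (h : P' ≤ P) :
    MaxEl p P' A := ⟨hA', hA.2.1, fun B hB hB' => hA.2.2 B (hB.trans h) hB'⟩

/-- The join of two commuting elementary abelian subgroups is elementary abelian. -/
theorem isElementaryAbelian_sup {p : ℕ} {A V : Subgroup G} (hA : IsElementaryAbelian p A)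
    (hV : IsElementaryAbelian p V) (h : A ≤ centralizer (V : Set G)) :
    IsElementaryAbelian p (A ⊔ V : Subgroup G) := by
  rw [isElementaryAbelian_iff] at hA hV ⊢
  have hVn : A ≤ normalizer (V : Set G) := h.trans (centralizer_le_normalizer _)
  have hmem : ∀ x ∈ A ⊔ V, ∃ a ∈ A, ∃ v ∈ V, x = a * v := by
    intro x hx
    have h2 : x ∈ ((A ⊔ V : Subgroup G) : Set G) := hx
    rw [Subgroup.coe_mul_of_left_le_normalizer_right _ _ hVn] at h2
    obtain ⟨a, ha, v, hv, rfl⟩ := h2
    exact ⟨a, ha, v, hv, rfl⟩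
  have hav : ∀ a ∈ A, ∀ v ∈ V, v * a = a * v := fun a ha v hv => mem_centralizer_iff.1 (h ha) v hv
  constructor
  · intro x hx y hy
    obtain ⟨a, ha, v, hv, rfl⟩ := hmem x hx
    obtain ⟨b, hb, w, hw, rfl⟩ := hmem y hy
    calc a * v * (b * w) = a * (v * b) * w := by group
      _ = a * (b * v) * w := by rw [hav b hb v hv]
      _ = (a * b) * (v * w) := by group
      _ = (b * a) * (w * v) := by rw [hA.1 a ha b hb, hV.1 v hv w hw]
      _ = b * (a * w) * v := by group
      _ = b * (w * a) * v := by rw [hav a ha w hw]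
      _ = b * w * (a * v) := by group
  · intro x hx
    obtain ⟨a, ha, v, hv, rfl⟩ := hmem x hx
    have hc : Commute a v := (hav a ha v hv).symm
    rw [hc.mul_pow, hA.2 a ha, hV.2 v hv, one_mul]

/-- A largest elementary abelian subgroup centralizing `V` contains `V`. -/
theorem MaxEl.le_of_centralizer [Finite G] {p : ℕ} {P A V : Subgroup G} (hA : MaxEl p P A)
    (hVP : V ≤ P) (hV : IsElementaryAbelian p V) (h : A ≤ centralizer (V : Set G)) : V ≤ A := by
  have h1 := hA.2.2 (A ⊔ V) (sup_le hA.1 hVP) (isElementaryAbelian_sup hA.2.1 hV h)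
  have h2 : A = A ⊔ V := Subgroup.eq_of_le_of_card_ge le_sup_left h1
  rw [h2]; exact le_sup_right

/-- **Thompson replacement**: `p` odd, `V` an elementary abelian subgroup of the `p`-group `P`, normalized by `P`; if
every element of `P` acting quadratically on `V` centralizes `V`, then `V` lies in every elementary abelian subgroup of
`P` of largest order. -/
theorem MaxEl.le_of_no_quadratic [Finite G] {p : ℕ} [Fact p.Prime] (hp : p ≠ 2)
    {P V : Subgroup G} (hP : IsPGroup p P) (hVP : V ≤ P) (hV : IsElementaryAbelian p V)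
    (hPV : P ≤ normalizer (V : Set G))
    (hq : ∀ a ∈ P, ⁅⁅V, zpowers a⁆, zpowers a⁆ = ⊥ → a ∈ centralizer (V : Set G))
    {A : Subgroup G} (hA : MaxEl p P A) : V ≤ A := by
  refine hA.le_of_centralizer hVP hV ?_
  by_contra hAV
  obtain ⟨B, ⟨hB, hBV⟩, hmax⟩ := Set.exists_max_image
    {B : Subgroup G | MaxEl p P B ∧ ¬ B ≤ centralizer (V : Set G)}
    (fun B => Nat.card (B ⊓ V : Subgroup G)) (Set.toFinite _) ⟨A, hA, hAV⟩
  -- `V` does not normalize `B`
  have hVB : ¬ V ≤ normalizer (B : Set G) := by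
    intro h
    apply hBV
    intro b hb
    refine hq b (hB.1 hb) ?_
    have h1 : zpowers b ≤ B := zpowers_le.2 hb
    have h2 : ⁅V, B⁆ ≤ B := le_normalizer_iff_commutator_le_right.1 h
    have h3 : ⁅B, B⁆ = ⊥ := by
      rw [commutator_eq_bot_iff_le_centralizer]
      intro x hx
      rw [mem_centralizer_iff]
      intro y hy
      exact isElementaryAbelian_comm hB.2.1 hy hx
    rw [eq_bot_iff, ← h3]
    exact commutator_mono ((commutator_mono le_rfl h1).trans h2) h1
  have hVV : ⁅V, V⁆ = ⊥ := by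
    rw [commutator_eq_bot_iff_le_centralizer]
    intro x hx
    rw [mem_centralizer_iff]
    intro y hy
    exact isElementaryAbelian_comm hV hy hx
  obtain ⟨B', hB'le, hB'e, hcard, hlt, hB'n⟩ := PLocal.ReplacementElem.exists_replacement hp
    (A := B) (B := V) (hP.to_le (sup_le hB.1 hVP)) (hB.1.trans hPV) hB.2.1
    (by rw [hVV, commutator_bot_left]) (by rw [hVV, commutator_bot_left]) hVB
  have hB'P : B' ≤ P := hB'le.trans (sup_le hB.1 hVP)
  have hB'm : MaxEl p P B' := hB.of_card_le hB'P hB'e hcard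
  by_cases hc : B' ≤ centralizer (V : Set G)
  · exact hVB ((hB'm.le_of_centralizer hVP hV hc).trans hB'n)
  · have h1 := hmax B' ⟨hB'm, hc⟩
    have h2 : Nat.card (B ⊓ V : Subgroup G) < Nat.card (B' ⊓ V : Subgroup G) := by
      refine lt_of_le_of_ne (Subgroup.card_le_of_le hlt.le) fun h => ?_
      exact hlt.ne (Subgroup.eq_of_le_of_card_ge hlt.le h.ge)
    exact absurd h1 (not_le.2 h2)

/-- The intersection of the elementary abelian subgroups of `P` of largest order. -/
def zz (p : ℕ) (P : Subgroup G) : Subgroup G := sInf {A | MaxEl p P A}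

theorem zz_le_of_maxEl {p : ℕ} {P A : Subgroup G} (hA : MaxEl p P A) : zz p P ≤ A := sInf_le hA

theorem zz_le [Finite G] (p : ℕ) (P : Subgroup G) : zz p P ≤ P := by
  obtain ⟨A, hA⟩ := exists_maxEl p P
  exact (zz_le_of_maxEl hA).trans hA.1

theorem zz_isElementaryAbelian [Finite G] (p : ℕ) (P : Subgroup G) :
    IsElementaryAbelian p (zz p P) := by
  obtain ⟨A, hA⟩ := exists_maxEl p P
  exact isElementaryAbelian_mono hA.2.1 (zz_le_of_maxEl hA)

theorem le_zz {p : ℕ} {P V : Subgroup G} (h : ∀ A, MaxEl p P A → V ≤ A) : V ≤ zz p P :=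
  le_sInf h

theorem map_conj_map (M : Subgroup G) (g h : G) :
    (M.map (MulAut.conj g).toMonoidHom).map (MulAut.conj h).toMonoidHom =
      M.map (MulAut.conj (h * g)).toMonoidHom := by
  rw [Subgroup.map_map]
  congr 1
  ext x
  simp [mul_assoc]

theorem map_conj_one (M : Subgroup G) : M.map (MulAut.conj (1 : G)).toMonoidHom = M := by
  ext x
  simp

theorem MaxEl.map_conj {p : ℕ} {P A : Subgroup G} (hA : MaxEl p P A) {g : G}
    (hg : g ∈ normalizer (P : Set G)) : MaxEl p P (A.map (MulAut.conj g).toMonoidHom) := by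
  have hgP : P.map (MulAut.conj g).toMonoidHom = P := mem_normalizer_iff_map_conj_eq.1 hg
  refine hA.of_card_le ?_ (isElementaryAbelian_map hA.2.1 _) ?_
  · rw [← hgP]; exact Subgroup.map_mono hA.1
  · rw [card_map_injective _ (MulAut.conj g).injective]

theorem normalizer_le_normalizer_zz (p : ℕ) (P : Subgroup G) :
    normalizer (P : Set G) ≤ normalizer (zz p P : Set G) := by
  have key : ∀ g ∈ normalizer (P : Set G), (zz p P).map (MulAut.conj g).toMonoidHom ≤ zz p P := by
    intro g hg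
    refine le_zz fun A hA => ?_
    have h1 := zz_le_of_maxEl (hA.map_conj (inv_mem hg))
    have h2 := Subgroup.map_mono (f := (MulAut.conj g).toMonoidHom) h1
    rwa [map_conj_map, mul_inv_cancel, map_conj_one] at h2
  intro g hg
  rw [mem_normalizer_iff_map_conj_eq]
  refine le_antisymm (key g hg) ?_
  have h1 := Subgroup.map_mono (f := (MulAut.conj g).toMonoidHom) (key g⁻¹ (inv_mem hg))
  rwa [map_conj_map, mul_inv_cancel, map_conj_one] at h1

/-- If all largest elementary abelian subgroups of `P` lie in `P' ≤ P`, then `zz p P' = zz p P`. -/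
theorem zz_eq_of_le [Finite G] {p : ℕ} {P P' : Subgroup G} (hPP : P' ≤ P)
    (h : ∀ A, MaxEl p P A → A ≤ P') : zz p P' = zz p P := by
  obtain ⟨A₀, hA₀⟩ := exists_maxEl p P
  have hiff : ∀ A : Subgroup G, MaxEl p P' A ↔ MaxEl p P A := by
    intro A
    constructor
    · intro hA
      exact hA₀.of_card_le (hA.1.trans hPP) hA.2.1 (hA.2.2 A₀ (h A₀ hA₀) hA₀.2.1)
    · intro hA
      exact hA.mono (h A hA) hPP
  rw [zz, zz]
  congr 1
  ext A
  exact hiff A

/-! ### Minimal normal `p`-subgroups -/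

/-- A minimal normal subgroup which is a `p`-group is elementary abelian. -/
theorem isElementaryAbelian_of_minimal [Finite G] {p : ℕ} [Fact p.Prime] {V : Subgroup G}
    (hV : V.Normal) (hVp : IsPGroup p V) (hV1 : V ≠ ⊥)
    (hmin : ∀ N : Subgroup G, N.Normal → N ≤ V → N = ⊥ ∨ N = V) : IsElementaryAbelian p V := by
  -- the centre of `V`
  have hnil : Group.IsNilpotent V := hVp.isNilpotent
  have hVnt : Nontrivial V := (Subgroup.nontrivial_iff_ne_bot V).2 hV1
  set Z : Subgroup G := V ⊓ centralizer (V : Set G) with hZ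
  have hZn : Z.Normal := by rw [hZ]; infer_instance
  have hZ1 : Z ≠ ⊥ := by
    have h1 := Group.IsNilpotent.center_ne_bot (G := V)
    intro h
    apply h1
    rw [eq_bot_iff]
    intro z hz
    have h2 : (z : G) ∈ Z := by
      refine ⟨z.2, mem_centralizer_iff.2 fun y hy => ?_⟩
      exact congrArg Subtype.val (mem_center_iff.1 hz ⟨y, hy⟩)
    rw [h, mem_bot] at h2
    rw [mem_bot]
    exact Subtype.ext h2
  have hZV : Z = V := (hmin Z hZn inf_le_left).resolve_left hZ1
  have hcomm : ∀ x ∈ V, ∀ y ∈ V, x * y = y * x := by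
    intro x hx y hy
    rw [← hZV] at hy
    exact mem_centralizer_iff.1 hy.2 x hx
  -- elements of order dividing `p`
  have hOn : (omegaOne p V).Normal := PLocal.StableClosure.omegaOne_normal p V hV
  have hO1 : omegaOne p V ≠ ⊥ := by
    have hdvd : p ∣ Nat.card V := by
      obtain ⟨n, hn, hn'⟩ := hVp.nontrivial_iff_card.1 hVnt
      rw [hn']
      exact dvd_pow_self p hn.ne'
    obtain ⟨x, hx⟩ := exists_prime_orderOf_dvd_card' p hdvd
    intro h
    have h1 : (x : G) ∈ omegaOne p V := by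
      refine PLocal.StableClosure.mem_omegaOne_of_pow_eq_one x.2 ?_
      have h2 := pow_orderOf_eq_one x
      rw [hx] at h2
      exact congrArg Subtype.val h2
    rw [h, mem_bot] at h1
    have h3 : x = 1 := Subtype.ext h1
    rw [h3, orderOf_one] at hx
    exact (Fact.out : p.Prime).one_lt.ne hx
  have hOV : omegaOne p V = V :=
    (hmin _ hOn (PLocal.StableClosure.omegaOne_le p V)).resolve_left hO1
  have := PLocal.ActionStable.isElementaryAbelian_omegaOne p V hcomm
  rwa [hOV] at this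

end Cfsg.Agent.H443.MaxElem
end

-- part: H443/PrimPair
section
/-!
# Primitive pairs of characteristic `p` and `p`-stability (`p` odd)

Main result `false_of_stable`: if `(M₁, M₂)` is a primitive pair of characteristic `p` (`p` odd), then `M₁` and `M₂`
are not both `p`-stable in the action sense.
-/

set_option autoImplicit false

namespace Cfsg.Agent.H443.PrimPair

open Subgroup Cfsg Cfsg.Agent.Lib.Cores Cfsg.Agent.Lib.GenFitting
open Cfsg.Agent.PLocal.ThompsonJ Cfsg.Agent.H443.MaxElem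
open scoped commutatorElement

/-- `C` a normal subgroup of `M` normalizing the `p`-subgroup `Q`, and `R ≤ Q` with image in `O_p(M / C)`: then
`R ≤ O_p(M)`. -/
theorem le_pCore_of_mod {M : Type*} [Group M] [Finite M] {p : ℕ} [Fact p.Prime] (C : Subgroup M)
    [hC : C.Normal] {Q R : Subgroup M} (hQ : IsPGroup p Q) (hCQ : C ≤ normalizer (Q : Set M))
    (hRQ : R ≤ Q) (hR : ∀ r ∈ R, (QuotientGroup.mk r : M ⧸ C) ∈ pCore p (M ⧸ C)) :
    R ≤ pCore p M := by
  have h1 : C ⊓ Q ≤ pCore p M := by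
    refine le_pCore_of_normal_in_normal hC inf_le_left ?_ (hQ.to_le inf_le_right)
    intro c hc
    rw [mem_normalizer_iff]
    intro x
    constructor
    · rintro ⟨h1, h2⟩
      exact ⟨C.mul_mem (C.mul_mem hc h1) (C.inv_mem hc), (mem_normalizer_iff.1 (hCQ hc) x).1 h2⟩
    · rintro ⟨h1, h2⟩
      refine ⟨?_, (mem_normalizer_iff.1 (hCQ hc) x).2 h2⟩
      have h3 := C.mul_mem (C.mul_mem (C.inv_mem hc) h1) hc
      have e : c⁻¹ * (c * x * c⁻¹) * c = x := by group
      rwa [e] at h3
  set O : Subgroup M := pCore p M with hO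
  set f : M →* M ⧸ O := QuotientGroup.mk' O with hf
  have hfs : Function.Surjective f := QuotientGroup.mk'_surjective O
  set Cb : Subgroup (M ⧸ O) := C.map f with hCb
  have hCbn : Cb.Normal := hC.map f hfs
  set F : Subgroup M := (pCore p (M ⧸ C)).comap (QuotientGroup.mk' C) ⊓
    (centralizer (Cb : Set (M ⧸ O))).comap f with hF
  have hFn : F.Normal := by rw [hF]; infer_instance
  set Fb : Subgroup (M ⧸ O) := F.map f with hFb
  have hFbn : Fb.Normal := hFn.map f hfs
  have hFbC : Fb ≤ centralizer (Cb : Set (M ⧸ O)) := by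
    rw [hFb, Subgroup.map_le_iff_le_comap]
    exact inf_le_right
  have hnil : Group.IsNilpotent Fb := by
    have hNn : (Cb.subgroupOf Fb).Normal := inferInstance
    have hpq : IsPGroup p (Fb ⧸ Cb.subgroupOf Fb) := by
      intro x
      obtain ⟨x, rfl⟩ := QuotientGroup.mk'_surjective _ x
      obtain ⟨_, y, hy, rfl⟩ := x
      obtain ⟨k, hk⟩ := pCore_isPGroup (G := M ⧸ C) p ⟨QuotientGroup.mk' C y, hy.1⟩
      refine ⟨k, ?_⟩
      have hk' : y ^ p ^ k ∈ C := by
        rw [← QuotientGroup.eq_one_iff]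
        exact congrArg Subtype.val hk
      rw [← map_pow]
      refine (QuotientGroup.eq_one_iff _).2 ?_
      rw [mem_subgroupOf]
      exact ⟨y ^ p ^ k, hk', by simp⟩
    have hqn : Group.IsNilpotent (Fb ⧸ Cb.subgroupOf Fb) := hpq.isNilpotent
    refine Subgroup.isNilpotent_of_ker_le_center (QuotientGroup.mk' (Cb.subgroupOf Fb)) ?_
    rw [QuotientGroup.ker_mk']
    intro x hx
    rw [mem_subgroupOf] at hx
    rw [mem_center_iff]
    intro y
    exact Subtype.ext ((mem_centralizer_iff.1 (hFbC y.2) _ hx).symm)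
  intro r hr
  have hrC : ∀ c ∈ C, ⁅c, r⁆ ∈ O := by
    intro c hc
    apply h1
    constructor
    · rw [commutatorElement_def]
      have e : c * r * c⁻¹ * r⁻¹ = c * (r * c⁻¹ * r⁻¹) := by group
      rw [e]
      exact C.mul_mem hc (hC.conj_mem _ (C.inv_mem hc) r)
    · rw [commutatorElement_def]
      exact Q.mul_mem ((mem_normalizer_iff.1 (hCQ hc) r).1 (hRQ hr)) (Q.inv_mem (hRQ hr))
  have hrF : r ∈ F := by
    refine mem_inf.2 ⟨hR r hr, ?_⟩
    rw [mem_comap, mem_centralizer_iff]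
    rintro _ ⟨c, hc, rfl⟩
    rw [← commutatorElement_eq_one_iff_mul_comm, ← map_commutatorElement]
    exact (QuotientGroup.eq_one_iff _).2 (hrC c hc)
  obtain ⟨k, hk⟩ := hQ ⟨r, hRQ hr⟩
  have hk' : r ^ p ^ k = 1 := congrArg Subtype.val hk
  have h2 : f r ∈ pCore p (M ⧸ O) := by
    refine mem_pCore_of_mem_nilpotent_normal hFbn hnil ⟨r, hrF, rfl⟩ (k := k) ?_
    rw [← map_pow, hk', map_one]
  have h3 : pCore p (M ⧸ O) = ⊥ := pCore_quotient_pCore p
  rw [h3, mem_bot] at h2
  exact (QuotientGroup.eq_one_iff _).1 h2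

/-- For a minimal normal `p`-subgroup `V` of `M` one has `O_p(M / C_M(V)) = 1`. -/
theorem pCore_quotient_centralizer_of_minimal {M : Type*} [Group M] [Finite M] {p : ℕ}
    [Fact p.Prime] {V : Subgroup M} (hV : V.Normal) (hVp : IsPGroup p V) (hV1 : V ≠ ⊥)
    (hmin : ∀ N : Subgroup M, N.Normal → N ≤ V → N = ⊥ ∨ N = V) :
    pCore p (M ⧸ centralizer (V : Set M)) = ⊥ := by
  obtain ⟨P⟩ : Nonempty (Sylow p M) := inferInstance
  have hVP : V ≤ (P : Subgroup M) := hVp.le_sylow_of_normal P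
  have hPnil : Group.IsNilpotent (P : Subgroup M) := P.isPGroup'.isNilpotent
  have h1 := Lib.NormalAbelian.normal_inf_center_ne_bot (G := (P : Subgroup M))
    (V.subgroupOf (P : Subgroup M)) (by
      intro h
      rw [Subgroup.subgroupOf_eq_bot] at h
      exact hV1 (by rw [← inf_eq_left.2 hVP]; exact h.eq_bot))
  set Z : Set M := (V : Set M) ∩ (centralizer ((P : Subgroup M) : Set M) : Set M) with hZ
  have hZV : Subgroup.normalClosure Z = V := by
    refine (hmin _ inferInstance ?_).resolve_left ?_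
    · exact Subgroup.normalClosure_le_normal (fun x hx => hx.1)
    · intro h
      apply h1
      rw [eq_bot_iff]
      rintro x ⟨hx1, hx2⟩
      have h2 : (x : M) ∈ Subgroup.normalClosure Z := by
        refine Subgroup.subset_normalClosure ⟨hx1, ?_⟩
        rw [SetLike.mem_coe, mem_centralizer_iff]
        intro y hy
        exact congrArg Subtype.val (mem_center_iff.1 hx2 ⟨y, hy⟩)
      rw [h, mem_bot] at h2
      rw [mem_bot]
      exact Subtype.ext h2
  have h2 := Transfer.ThompsonFactor.pCore_quotient_centralizer_eq_bot P Z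
    (fun z hz x hx => mem_centralizer_iff.1 hz.2 x hx)
  have h3 : ∀ (W : Subgroup M) (hW : W.Normal), Subgroup.normalClosure Z = W →
      pCore p (M ⧸ centralizer (W : Set M)) = ⊥ := by
    rintro W hW rfl
    exact h2
  exact h3 V hV hZV

variable {G : Type*} [Group G]

/-- `O_p(M)` as a subgroup of `G`. -/
def core (p : ℕ) (M : Subgroup G) : Subgroup G := (pCore p M).map M.subtype

theorem core_le (p : ℕ) (M : Subgroup G) : core p M ≤ M := map_subtype_le _

theorem le_normalizer_core (p : ℕ) (M : Subgroup G) : M ≤ normalizer (core p M : Set G) :=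
  Lib.LocalCore.le_normalizer_map_pCore p M

theorem core_isPGroup (p : ℕ) (M : Subgroup G) : IsPGroup p (core p M) :=
  Lib.LocalCore.isPGroup_map_pCore p M

/-- Quadratic elements and `p`-stability in a subgroup `M` of `G`. -/
theorem mk_mem_of_quadratic {p : ℕ} {M V : Subgroup G} (hst : IsActionPStable p M)
    (hVM : V ≤ M) [hn : (V.subgroupOf M).Normal] (hV : IsElementaryAbelian p V) {a : G} (ha : a ∈ M)
    (hq : ⁅⁅V, zpowers a⁆, zpowers a⁆ = ⊥) :
    (QuotientGroup.mk (⟨a, ha⟩ : M) : M ⧸ centralizer ((V.subgroupOf M : Subgroup M) : Set M)) ∈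
      pCore p (M ⧸ centralizer ((V.subgroupOf M : Subgroup M) : Set M)) := by
  refine hst.1 (V.subgroupOf M) (isElementaryAbelian_subgroupOf hV M) ⟨a, ha⟩ ?_
  refine (PLocal.StableClosure.quadratic_map_iff (τ := M.subtype) M.subtype_injective).1 ?_
  rw [Subgroup.map_subgroupOf_eq_of_le hVM]
  exact hq

/-- An abelian subgroup of `M` normalized by `O_p(M)` lies in `O_p(M)`, if `M` is `p`-stable of characteristic `p`. -/
theorem le_core_of_abelian [Finite G] {p : ℕ} [Fact p.Prime] {M W : Subgroup G}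
    (hst : IsActionPStable p M) (hc : centralizer (pCore p ↥M : Set ↥M) ≤ pCore p ↥M)
    (hWM : W ≤ M) (hW : ∀ x ∈ W, ∀ y ∈ W, x * y = y * x)
    (hn : core p M ≤ normalizer (W : Set G)) : W ≤ core p M := by
  have h1 : W.subgroupOf M ≤ pCore p M := by
    refine PLocal.StableNormal.le_pCore hst hc ?_ ?_
    · intro x hx y hy
      exact Subtype.ext (hW x hx y hy)
    · intro x hx
      rw [← subgroupOf_normalizer_eq hWM]
      exact hn ⟨x, hx, rfl⟩
  rw [← Subgroup.map_subgroupOf_eq_of_le hWM]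
  exact Subgroup.map_mono h1

/-- **Two `p`-stable groups do not form a primitive pair of characteristic `p`** (`p` odd). -/
theorem false_of_stable [Finite G] {p : ℕ} [Fact p.Prime] (hp : p ≠ 2) (M₁ M₂ : Subgroup G)
    (hne : M₁ ≠ M₂)
    (hP : ∀ A : Subgroup G, A ≠ ⊥ → A ≤ M₁ ⊓ M₂ →
      (M₁ ≤ normalizer (A : Set G) → M₂ ⊓ normalizer (A : Set G) = M₁ ⊓ M₂) ∧
      (M₂ ≤ normalizer (A : Set G) → M₁ ⊓ normalizer (A : Set G) = M₁ ⊓ M₂))
    (hc₁ : centralizer (pCore p ↥M₁ : Set ↥M₁) ≤ pCore p ↥M₁)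
    (hc₂ : centralizer (pCore p ↥M₂ : Set ↥M₂) ≤ pCore p ↥M₂)
    (hO : core p M₁ ⊔ core p M₂ ≤ M₁ ⊓ M₂)
    (hst₁ : IsActionPStable p M₁) (hst₂ : IsActionPStable p M₂) : False := by
  -- a nontrivial subgroup of the intersection normalized by both members is impossible
  have both : ∀ A : Subgroup G, A ≠ ⊥ → A ≤ M₁ ⊓ M₂ → M₁ ≤ normalizer (A : Set G) →
      M₂ ≤ normalizer (A : Set G) → False := by
    intro A hA hAD h1 h2
    have e1 := (hP A hA hAD).1 h1
    have e2 := (hP A hA hAD).2 h2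
    rw [inf_eq_left.2 h2] at e1
    rw [inf_eq_left.2 h1] at e2
    exact hne (e2.trans e1.symm)
  set Q₁ := core p M₁ with hQ₁
  set Q₂ := core p M₂ with hQ₂
  have hQ₁D : Q₁ ≤ M₁ ⊓ M₂ := le_sup_left.trans hO
  have hQ₂D : Q₂ ≤ M₁ ⊓ M₂ := le_sup_right.trans hO
  set Q : Subgroup G := Q₁ ⊔ Q₂ with hQ
  have hQp : IsPGroup p Q := by
    refine IsPGroup.to_sup_of_normal_right' (core_isPGroup p M₁) (core_isPGroup p M₂) ?_
    exact (hQ₁D.trans inf_le_right).trans (le_normalizer_core p M₂)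
  have hDQ : M₁ ⊓ M₂ ≤ normalizer (Q : Set G) := by
    rw [hQ]
    intro x hx
    have h1 := mem_normalizer_iff_map_conj_eq.1 (le_normalizer_core p M₁ hx.1)
    have h2 := mem_normalizer_iff_map_conj_eq.1 (le_normalizer_core p M₂ hx.2)
    rw [mem_normalizer_iff_map_conj_eq, Subgroup.map_sup, h1, h2]
  -- cores are nontrivial
  have hcore : ∀ M : Subgroup G, centralizer (pCore p ↥M : Set ↥M) ≤ pCore p ↥M →
      core p M = ⊥ → M = ⊥ := by
    intro M hc h
    have h1 : pCore p M = ⊥ := (Subgroup.map_eq_bot_iff_of_injective _ M.subtype_injective).1 h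
    rw [h1] at hc
    rw [eq_bot_iff]
    intro x hx
    have h2 : (⟨x, hx⟩ : M) ∈ (⊥ : Subgroup M) := by
      apply hc
      rw [mem_centralizer_iff]
      intro y hy
      rw [SetLike.mem_coe, mem_bot] at hy
      rw [hy, one_mul, mul_one]
    rw [mem_bot] at h2
    exact congrArg Subtype.val h2
  have hQ₁1 : Q₁ ≠ ⊥ := by
    intro h
    have h1 := hcore M₁ hc₁ h
    have h2 : Q₂ = ⊥ := by
      rw [eq_bot_iff, ← h1]; exact hQ₂D.trans inf_le_left
    exact hne (h1.trans (hcore M₂ hc₂ h2).symm)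
  have hQ₂1 : Q₂ ≠ ⊥ := by
    intro h
    have h1 := hcore M₂ hc₂ h
    have h2 : Q₁ = ⊥ := by
      rw [eq_bot_iff, ← h1]; exact hQ₁D.trans inf_le_right
    exact hne ((hcore M₁ hc₁ h2).trans h1.symm)
  -- minimal normal subgroups
  have hmin : ∀ M : Subgroup G, IsActionPStable p M → core p M ≠ ⊥ → ∃ V : Subgroup G, V ≤ core p M ∧
      V ≠ ⊥ ∧ IsElementaryAbelian p V ∧ M ≤ normalizer (V : Set G) ∧
      ∀ a ∈ M, ⁅⁅V, zpowers a⁆, zpowers a⁆ = ⊥ → a ∈ centralizer (V : Set G) := by
    intro M hst hM1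
    have h0 : pCore p M ≠ ⊥ := fun h => hM1 (by rw [core, h, Subgroup.map_bot])
    obtain ⟨V, hVn, hVle, hV1, hVmin⟩ := Lib.SubnormalJoin.exists_minimal_normal_le (pCore p M)
      inferInstance h0
    have hVp : IsPGroup p V := (pCore_isPGroup p).to_le hVle
    have hVe := isElementaryAbelian_of_minimal hVn hVp hV1 hVmin
    have hVo := pCore_quotient_centralizer_of_minimal hVn hVp hV1 hVmin
    refine ⟨V.map M.subtype, Subgroup.map_mono hVle, ?_, isElementaryAbelian_map hVe _,
      Lib.LocalCore.le_normalizer_map_subtype M V hVn, ?_⟩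
    · intro h
      exact hV1 ((Subgroup.map_eq_bot_iff_of_injective _ M.subtype_injective).1 h)
    · intro a ha hq
      have h1 := (PLocal.StableClosure.quadratic_map_iff (τ := M.subtype) M.subtype_injective
        (W := V) (x := ⟨a, ha⟩)).1 hq
      have h2 := hst.1 V hVe ⟨a, ha⟩ h1
      rw [hVo, mem_bot, QuotientGroup.eq_one_iff] at h2
      rw [mem_centralizer_iff]
      rintro _ ⟨v, hv, rfl⟩
      exact congrArg Subtype.val (mem_centralizer_iff.1 h2 v hv)
  obtain ⟨V₁, hV₁Q, hV₁1, hV₁e, hV₁n, hV₁q⟩ := hmin M₁ hst₁ hQ₁1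
  obtain ⟨V₂, hV₂Q, hV₂1, hV₂e, hV₂n, hV₂q⟩ := hmin M₂ hst₂ hQ₂1
  -- `V₂ ≤ Q₁` and `V₁ ≤ Q₂`
  have hV₂Q₁ : V₂ ≤ Q₁ := by
    refine le_core_of_abelian hst₁ hc₁ ((hV₂Q.trans hQ₂D).trans inf_le_left)
      (isElementaryAbelian_iff.1 hV₂e).1 ?_
    exact (hQ₁D.trans inf_le_right).trans hV₂n
  have hV₁Q₂ : V₁ ≤ Q₂ := by
    refine le_core_of_abelian hst₂ hc₂ ((hV₁Q.trans hQ₁D).trans inf_le_right)
      (isElementaryAbelian_iff.1 hV₁e).1 ?_
    exact (hQ₂D.trans inf_le_left).trans hV₁n
  -- the main step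
  have main : ∀ (M N : Subgroup G), IsActionPStable p M → core p M ≤ Q → Q ≤ M →
      M ⊓ N ≤ normalizer (Q : Set G) → ∀ V : Subgroup G, V ≤ core p M →
      IsElementaryAbelian p V → core p M ≤ normalizer (V : Set G) →
      (∀ a ∈ core p M, ⁅⁅V, zpowers a⁆, zpowers a⁆ = ⊥ → a ∈ centralizer (V : Set G)) →
      M ⊓ normalizer (V : Set G) ≤ N →
      zz p (core p M) = zz p Q := by
    intro M N hst hMQ hQM hMN V hVM hV hVn hVq hVN
    set Z : Subgroup G := zz p (core p M) with hZ
    have hZcore : Z ≤ core p M := zz_le p _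
    have hZM : Z ≤ M := hZcore.trans (core_le p M)
    have hZe : IsElementaryAbelian p Z := zz_isElementaryAbelian p _
    have hMZ : M ≤ normalizer (Z : Set G) :=
      (le_normalizer_core p M).trans (normalizer_le_normalizer_zz p _)
    have hVZ : V ≤ Z := le_zz fun A hA =>
      hA.le_of_no_quadratic hp (core_isPGroup p M) hVM hV hVn hVq
    have hZn : (Z.subgroupOf M).Normal := normal_subgroupOf_of_le_normalizer hMZ
    -- abelian subgroups of `Q` normalized by `Z` lie in `O_p(M)`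
    have hab : ∀ A : Subgroup G, A ≤ Q → IsElementaryAbelian p A → Z ≤ normalizer (A : Set G) →
        A ≤ core p M := by
      intro A hAQ hA hZA
      have hAM : A ≤ M := hAQ.trans hQM
      have h1 : A.subgroupOf M ≤ pCore p M := by
        refine le_pCore_of_mod (centralizer ((Z.subgroupOf M : Subgroup M) : Set M))
          (Q := Q.subgroupOf M) (hQp.of_equiv (subgroupOfEquivOfLe hQM).symm) ?_
          (Subgroup.comap_mono hAQ) ?_
        · intro c hc
          rw [← subgroupOf_normalizer_eq hQM, mem_subgroupOf]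
          have h2 : (c : G) ∈ normalizer (V : Set G) := by
            apply centralizer_le_normalizer
            rw [mem_centralizer_iff]
            intro v hv
            exact congrArg Subtype.val (mem_centralizer_iff.1 hc ⟨v, hZM (hVZ hv)⟩ (hVZ hv))
          exact hMN ⟨c.2, hVN ⟨c.2, h2⟩⟩
        · intro a ha
          refine mk_mem_of_quadratic hst hZM hZe a.2 ?_
          have h2 : zpowers (a : G) ≤ A := zpowers_le.2 ha
          have h3 : ⁅Z, A⁆ ≤ A := le_normalizer_iff_commutator_le_right.1 hZA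
          have h4 : ⁅A, A⁆ = ⊥ := by
            rw [commutator_eq_bot_iff_le_centralizer]
            intro x hx
            rw [mem_centralizer_iff]
            intro y hy
            exact isElementaryAbelian_comm hA hy hx
          rw [eq_bot_iff, ← h4]
          exact commutator_mono ((commutator_mono le_rfl h2).trans h3) h2
      rw [← Subgroup.map_subgroupOf_eq_of_le hAM]
      exact Subgroup.map_mono h1
    refine zz_eq_of_le hMQ ?_
    by_contra hcon
    push Not at hcon
    obtain ⟨A₀, hA₀, hA₀'⟩ := hcon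
    obtain ⟨B, ⟨hB, hBQ⟩, hmax⟩ := Set.exists_max_image
      {B : Subgroup G | MaxEl p Q B ∧ ¬ B ≤ core p M}
      (fun B => Nat.card (B ⊓ Z : Subgroup G)) (Set.toFinite _) ⟨A₀, hA₀, hA₀'⟩
    have hZB : ¬ Z ≤ normalizer (B : Set G) := fun h => hBQ (hab B hB.1 hB.2.1 h)
    have hZZ : ⁅Z, Z⁆ = ⊥ := by
      rw [commutator_eq_bot_iff_le_centralizer]
      intro x hx
      rw [mem_centralizer_iff]
      intro y hy
      exact isElementaryAbelian_comm hZe hy hx
    have hZQ : Z ≤ Q := hZcore.trans hMQ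
    obtain ⟨B', hB'le, hB'e, hcard, hlt, hB'n⟩ := PLocal.ReplacementElem.exists_replacement hp
      (A := B) (B := Z) (hQp.to_le (sup_le hB.1 hZQ)) ((hB.1.trans hQM).trans hMZ) hB.2.1
      (by rw [hZZ, commutator_bot_left]) (by rw [hZZ, commutator_bot_left]) hZB
    have hB'Q : B' ≤ Q := hB'le.trans (sup_le hB.1 hZQ)
    have hB'm : MaxEl p Q B' := hB.of_card_le hB'Q hB'e hcard
    by_cases hc : B' ≤ core p M
    · exact hZB ((zz_le_of_maxEl (hB'm.mono hc hMQ)).trans hB'n)
    · have h1 := hmax B' ⟨hB'm, hc⟩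
      have h2 : Nat.card (B ⊓ Z : Subgroup G) < Nat.card (B' ⊓ Z : Subgroup G) := by
        refine lt_of_le_of_ne (Subgroup.card_le_of_le hlt.le) fun h => ?_
        exact hlt.ne (Subgroup.eq_of_le_of_card_ge hlt.le h.ge)
      exact absurd h1 (not_le.2 h2)
  have e1 : zz p Q₁ = zz p Q := by
    refine main M₁ M₂ hst₁ le_sup_left (sup_le (core_le p M₁) (hQ₂D.trans inf_le_left)) hDQ V₂ hV₂Q₁
      hV₂e ((hQ₁D.trans inf_le_right).trans hV₂n)
      (fun a ha => hV₂q a (hQ₁D ha).2) ?_
    rw [(hP V₂ hV₂1 (hV₂Q.trans hQ₂D)).2 hV₂n]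
    exact inf_le_right
  have e2 : zz p Q₂ = zz p Q := by
    refine main M₂ M₁ hst₂ le_sup_right (sup_le (hQ₁D.trans inf_le_right) (core_le p M₂)) ?_ V₁ hV₁Q₂
      hV₁e ((hQ₂D.trans inf_le_left).trans hV₁n)
      (fun a ha => hV₁q a (hQ₂D ha).1) ?_
    · rw [inf_comm]; exact hDQ
    · rw [(hP V₁ hV₁1 (hV₁Q.trans hQ₁D)).1 hV₁n]
      exact inf_le_left
  have hne' : zz p Q₁ ≠ ⊥ := by
    intro h
    apply hV₂1
    rw [eq_bot_iff, ← h]
    exact le_zz fun A hA => hA.le_of_no_quadratic hp (core_isPGroup p M₁) hV₂Q₁ hV₂e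
      ((hQ₁D.trans inf_le_right).trans hV₂n) (fun a ha => hV₂q a (hQ₁D ha).2)
  refine both (zz p Q₁) hne' ((zz_le p _).trans hQ₁D)
    ((le_normalizer_core p M₁).trans (normalizer_le_normalizer_zz p _)) ?_
  rw [e1, ← e2]
  exact (le_normalizer_core p M₂).trans (normalizer_le_normalizer_zz p _)

end Cfsg.Agent.H443.PrimPair
end

-- part: S3753
section
set_option autoImplicit false
open Cfsg

namespace Cfsg.Agent.S3753

open Subgroup Cfsg.Agent.Lib.Cores Cfsg.Agent.H443.PrimPair

/-- Two distinct subgroups M₁, M₂ of G form a primitive pair when, for {i, j} = {1, 2}, every non-trivial normal subgroup A of M_i contained in M₁ ∩ M₂ satisfies N_{M_j}(A) = M₁ ∩ M₂; the pair has characteristic p when moreover C_{M_i}(O_p(M_i)) ≤ O_p(M_i) for both i and O_p(M₁)O_p(M₂) ≤ M₁ ∩ M₂. If the finite group G has a primitive pair (M₁, M₂) of characteristic p for some prime p, then M₁ or M₂ has non-abelian Sylow 2-subgroups. In particular no group of odd order has a primitive pair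 of characteristic p. -/
theorem result {G : Type*} [Group G] [Finite G] {p : ℕ} [Fact p.Prime] (M₁ M₂ : Subgroup G) (hne : M₁ ≠ M₂) (hP : ∀ A : Subgroup G, A ≠ ⊥ → A ≤ M₁ ⊓ M₂ → (M₁ ≤ Subgroup.normalizer (A : Set G) → M₂ ⊓ Subgroup.normalizer (A : Set G) = M₁ ⊓ M₂) ∧ (M₂ ≤ Subgroup.normalizer (A : Set G) → M₁ ⊓ Subgroup.normalizer (A : Set G) = M₁ ⊓ M₂)) (hc₁ : Subgroup.centralizer (Cfsg.pCore p ↥M₁ : Set ↥M₁) ≤ Cfsg.pCore p ↥M₁) (hc₂ : Subgroup.centralizer (Cfsg.pCore p ↥M₂ : Set ↥M₂) ≤ Cfsg.pCore p ↥M₂) (hO : (Cfsg.pCore p ↥M₁).map M₁.subtype ⊔ (Cfsg.pCore p ↥M₂).map M₂.subtype ≤ M₁ ⊓ M₂) : (∃ S : Sylow 2 ↥M₁, ¬ IsMulCommutative (S : Subgroup ↥M₁)) ∨ (∃ S : Sylow 2 ↥M₂, ¬ IsMulCommutative (S : Subgroup ↥M₂)) := by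
  by_contra hcon
  rw [not_or] at hcon
  obtain ⟨h1, h2⟩ := hcon
  push Not at h1 h2
  by_cases hp : p = 2
  · subst hp
    -- every `2`-subgroup of `M` lies in `O_2(M)`
    have key : ∀ M X : Subgroup G, (∀ S : Sylow 2 ↥M, IsMulCommutative (S : Subgroup ↥M)) →
        centralizer (pCore 2 ↥M : Set ↥M) ≤ pCore 2 ↥M → X ≤ M → IsPGroup 2 X → X ≤ core 2 M := by
      intro M X hab hc hXM hX
      have h3 : IsPGroup 2 (X.subgroupOf M) := hX.of_equiv (subgroupOfEquivOfLe hXM).symm
      obtain ⟨S, hS⟩ := h3.exists_le_sylow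
      have h4 : (S : Subgroup M) ≤ centralizer (pCore 2 ↥M : Set ↥M) := by
        intro s hs
        rw [mem_centralizer_iff]
        intro y hy
        have h5 := (hab S).is_comm.comm ⟨y, pCore_le_sylow S hy⟩ ⟨s, hs⟩
        exact congrArg Subtype.val h5
      have h5 : X.subgroupOf M ≤ pCore 2 M := hS.trans (h4.trans hc)
      rw [← Subgroup.map_subgroupOf_eq_of_le hXM]
      exact Subgroup.map_mono h5
    have hQ₁D : core 2 M₁ ≤ M₁ ⊓ M₂ := le_sup_left.trans hO
    have hQ₂D : core 2 M₂ ≤ M₁ ⊓ M₂ := le_sup_right.trans hO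
    have e1 : core 2 M₂ ≤ core 2 M₁ := key M₁ _ h1 hc₁ (hQ₂D.trans inf_le_left) (core_isPGroup 2 M₂)
    have e2 : core 2 M₁ ≤ core 2 M₂ := key M₂ _ h2 hc₂ (hQ₁D.trans inf_le_right) (core_isPGroup 2 M₁)
    have e : core 2 M₁ = core 2 M₂ := le_antisymm e2 e1
    have hcore : ∀ M : Subgroup G, centralizer (pCore 2 ↥M : Set ↥M) ≤ pCore 2 ↥M →
        core 2 M = ⊥ → M = ⊥ := by
      intro M hc h
      have h1 : pCore 2 M = ⊥ := (Subgroup.map_eq_bot_iff_of_injective _ M.subtype_injective).1 h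
      rw [h1] at hc
      rw [eq_bot_iff]
      intro x hx
      have h2 : (⟨x, hx⟩ : M) ∈ (⊥ : Subgroup M) := by
        apply hc
        rw [mem_centralizer_iff]
        intro y hy
        rw [SetLike.mem_coe, mem_bot] at hy
        rw [hy, one_mul, mul_one]
      rw [mem_bot] at h2
      exact congrArg Subtype.val h2
    have hne1 : core 2 M₁ ≠ ⊥ := by
      intro h
      exact hne ((hcore M₁ hc₁ h).trans (hcore M₂ hc₂ (e ▸ h)).symm)
    have f1 := (hP _ hne1 hQ₁D).1 (le_normalizer_core 2 M₁)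
    have f2 := (hP _ hne1 hQ₁D).2 (by rw [e]; exact le_normalizer_core 2 M₂)
    rw [inf_eq_left.2 (by rw [e]; exact le_normalizer_core 2 M₂)] at f1
    rw [inf_eq_left.2 (le_normalizer_core 2 M₁)] at f2
    exact hne (f2.trans f1.symm)
  · exact false_of_stable hp M₁ M₂ hne hP hc₁ hc₂ hO
      (Cfsg.Agent.S0626.result hp h1) (Cfsg.Agent.S0626.result hp h2)

end Cfsg.Agent.S3753
end
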