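import Cfsg.Agent.Transfer.Residual
import Cfsg.Agent.Lib.CoprimeHyperplane
import Cfsg.Agent.Lib.CoprimeStab
import Cfsg.Agent.Lib.CoprimeCommutator
import Cfsg.Statements.S3754
import Cfsg.Agent.Lib.Cores
import Cfsg.Agent.Lib.PSolvable
import Cfsg.Agent.Lib.FrattiniPGroup
import Cfsg.Agent.PLocal.HallHigmanPrime
set_option linter.all false

-- part: H443/RelResidual
section
/-!
# `O^p(L)` for a subgroup `L` of an ambient group, and minimal non-centralised invariant subgroups
-/

set_option autoImplicit false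

namespace Cfsg.Agent.H443.RelResidual

open Subgroup Cfsg
open scoped commutatorElement

variable {G : Type*} [Group G]

/-- A `p'`-element of `L` lies in `O^p(L)`. -/
theorem mem_of_coprime {p : ℕ} {L : Subgroup G} {g : G} (hg : g ∈ L) (h : (orderOf g).Coprime p) :
    g ∈ (pResidual p L).map L.subtype := by
  refine ⟨⟨g, hg⟩, ?_, rfl⟩
  refine Transfer.Residual.mem_pResidual_of_coprime ?_
  rwa [Subgroup.orderOf_mk]

/-- `O^p(L) ≤ L` -/
theorem le_self (p : ℕ) (L : Subgroup G) : (pResidual p L).map L.subtype ≤ L := map_subtype_le _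

/-- `L` normalises `O^p(L)` -/
theorem le_normalizer (p : ℕ) (L : Subgroup G) :
    L ≤ normalizer (((pResidual p L).map L.subtype : Subgroup G) : Set G) := by
  have := Transfer.Residual.pResidual_normal (G := L) p
  intro l hl
  rw [mem_normalizer_iff]
  intro x
  constructor
  · rintro ⟨y, hy, rfl⟩
    exact ⟨⟨l, hl⟩ * y * ⟨l, hl⟩⁻¹, this.conj_mem y hy _, rfl⟩
  · rintro ⟨y, hy, hxy⟩
    have h1 : x = l⁻¹ * (l * x * l⁻¹) * l := by group
    rw [h1, ← hxy]
    refine ⟨⟨l, hl⟩⁻¹ * y * ⟨l, hl⟩, ?_, rfl⟩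
    have := this.conj_mem y hy ⟨l, hl⟩⁻¹
    simpa using this

/-- If `L = A D` with `A` a `p`-group and `D` normal in `L`, then `O^p(L) ≤ D`. -/
theorem le_of_sup {p : ℕ} [Fact p.Prime] {L A D : Subgroup G} (hA : IsPGroup p A)
    (hAL : A ≤ L) (hDL : D ≤ L) (hD : L ≤ normalizer (D : Set G)) (h : L ≤ A ⊔ D) :
    (pResidual p L).map L.subtype ≤ D := by
  have hn : (D.subgroupOf L).Normal := normal_subgroupOf_iff_le_normalizer hDL |>.2 hD
  have hP : IsPGroup p (L ⧸ D.subgroupOf L) := by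
    have hA' : IsPGroup p (A.subgroupOf L) := hA.comap_subtype
    have hsurj : Function.Surjective
        ((QuotientGroup.mk' (D.subgroupOf L)).comp (A.subgroupOf L).subtype) := by
      rw [← MonoidHom.range_eq_top, MonoidHom.range_comp, range_subtype]
      have h1 : A.subgroupOf L ⊔ D.subgroupOf L = ⊤ := by
        rw [← subgroupOf_sup hAL hDL, subgroupOf_eq_top]
        exact h
      have h2 := congrArg (Subgroup.map (QuotientGroup.mk' (D.subgroupOf L))) h1
      rw [Subgroup.map_sup, QuotientGroup.map_mk'_self, sup_bot_eq,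
        Subgroup.map_top_of_surjective _ (QuotientGroup.mk'_surjective _)] at h2
      exact h2
    exact hA'.of_surjective _ hsurj
  have h1 := Transfer.Residual.pResidual_le_of_isPGroup_quotient hP
  rintro _ ⟨x, hx, rfl⟩
  exact h1 hx

/-- Let the elementary abelian `p`-group `A ≠ 1` act faithfully on the `p'`-group `W`.  Then there
are a hyperplane `B` of `A` and an `A`-invariant subgroup `X` of `C_W(B)`, not centralised by `A`,
such that `X = [A, x]` for every element `x` of `X` not centralised by `A`. -/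
theorem exists_minimal [Finite G] {p : ℕ} [Fact p.Prime] {A W : Subgroup G}
    (hA : IsElementaryAbelian p A) (hA1 : A ≠ ⊥) (hW : ¬ p ∣ Nat.card W)
    (hAW : A ≤ normalizer (W : Set G)) (hf : A ⊓ centralizer (W : Set G) = ⊥) :
    ∃ B X : Subgroup G, B ≤ A ∧ B.relIndex A = p ∧ X ≤ W ∧ X ≤ centralizer (B : Set G) ∧
      A ≤ normalizer (X : Set G) ∧ ¬ A ≤ centralizer (X : Set G) ∧
      ∀ x ∈ X, (¬ ∀ a ∈ A, Commute a x) → X ≤ closure {g | ∃ a ∈ A, g = ⁅a, x⁆} := by
  classical
  obtain ⟨a, ha, ha1⟩ := (bot_or_exists_ne_one A).resolve_left hA1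
  obtain ⟨B, hBA, hBi, -, hne⟩ := Lib.CoprimeHyperplane.exists_hyperplane_not_mem hA hW hAW hf ha ha1
  have := hA.1
  have hcomm : ∀ x ∈ A, ∀ y ∈ A, x * y = y * x := fun x hx y hy =>
    setLike_mul_comm hx hy
  have hpA : IsPGroup p A := fun a => ⟨1, by
    ext; simpa using hA.2 a a.2⟩
  let P : Subgroup G → Prop := fun X => X ≤ W ⊓ centralizer (B : Set G) ∧
    A ≤ normalizer (X : Set G) ∧ ¬ A ≤ centralizer (X : Set G)
  have hP0 : P (W ⊓ centralizer (B : Set G)) := by
    refine ⟨le_rfl, ?_, ?_⟩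
    · intro a ha
      rw [mem_normalizer_iff]
      intro g
      have h1 := mem_normalizer_iff.1 (hAW ha) g
      have h2 : g ∈ centralizer (B : Set G) ↔ a * g * a⁻¹ ∈ centralizer (B : Set G) := by
        rw [mem_centralizer_iff, mem_centralizer_iff]
        refine forall₂_congr fun b hb => ?_
        have hab : a * b = b * a := hcomm a ha b (hBA hb)
        have hab' : a⁻¹ * b = b * a⁻¹ := by
          rw [inv_mul_eq_iff_eq_mul, ← mul_assoc, hab, mul_inv_cancel_right]
        constructor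
        · intro h
          calc b * (a * g * a⁻¹) = (b * a) * g * a⁻¹ := by group
            _ = a * (b * g) * a⁻¹ := by rw [← hab]; group
            _ = a * g * (b * a⁻¹) := by rw [h]; group
            _ = a * g * a⁻¹ * b := by rw [← hab']; group
        · intro h
          have h3 : a * (b * g) * a⁻¹ = a * (g * b) * a⁻¹ := by
            calc a * (b * g) * a⁻¹ = (a * b) * g * a⁻¹ := by group
              _ = b * (a * g * a⁻¹) := by rw [hab]; group
              _ = a * g * a⁻¹ * b := h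
              _ = a * g * (a⁻¹ * b) := by group
              _ = a * (g * b) * a⁻¹ := by rw [hab']; group
          exact mul_left_cancel (mul_right_cancel h3)
      rw [mem_inf, mem_inf, h1, h2]
    · intro h
      apply hne
      rw [commutator_comm]
      exact commutator_eq_bot_iff_le_centralizer.2 h
  obtain ⟨X, hXle, hXmin⟩ := exists_minimal_le_of_wellFoundedLT P _ hP0
  have hX : P X := hXmin.prop
  refine ⟨B, X, hBA, hBi, hX.1.trans inf_le_left, hX.1.trans inf_le_right, hX.2.1, hX.2.2, ?_⟩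
  intro x hx hnx
  set K : Subgroup G := closure {g | ∃ a ∈ A, g = ⁅a, x⁆} with hK
  have hmemK : ∀ a ∈ A, ⁅a, x⁆ ∈ K := fun a ha => subset_closure ⟨a, ha, rfl⟩
  have hKX : K ≤ X := by
    rw [hK, closure_le]
    rintro _ ⟨a, ha, rfl⟩
    rw [commutatorElement_def]
    exact mul_mem ((mem_normalizer_iff.1 (hX.2.1 ha) x).1 hx) (inv_mem hx)
  have hAK : A ≤ normalizer (K : Set G) := by
    have key : ∀ b ∈ A, ∀ g ∈ K, b * g * b⁻¹ ∈ K := by
      intro b hb g hg
      rw [hK] at hg
      induction hg using closure_induction with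
      | mem y hy =>
        obtain ⟨a, ha, rfl⟩ := hy
        have h1 : b * ⁅a, x⁆ * b⁻¹ = ⁅b * a, x⁆ * ⁅b, x⁆⁻¹ := by
          simp only [commutatorElement_def]; group
        rw [h1]
        exact mul_mem (hmemK _ (mul_mem hb ha)) (inv_mem (hmemK _ hb))
      | one => simp
      | mul y z _ _ hy hz =>
        have h1 : b * (y * z) * b⁻¹ = (b * y * b⁻¹) * (b * z * b⁻¹) := by group
        rw [h1]; exact mul_mem hy hz
      | inv y _ hy =>
        have h1 : b * y⁻¹ * b⁻¹ = (b * y * b⁻¹)⁻¹ := by group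
        rw [h1]; exact inv_mem hy
    intro b hb
    rw [mem_normalizer_iff]
    intro g
    refine ⟨key b hb g, fun h => ?_⟩
    have h2 := key b⁻¹ (inv_mem hb) _ h
    have h1 : b⁻¹ * (b * g * b⁻¹) * b⁻¹⁻¹ = g := by group
    rwa [h1] at h2
  have hnK : ¬ A ≤ centralizer (K : Set G) := by
    intro hc
    apply hnx
    intro a ha
    have hcop : (orderOf a).Coprime (Nat.card X) := by
      obtain ⟨k, hk⟩ := hpA ⟨a, ha⟩
      have h1 : orderOf a ∣ p ^ k := by
        refine orderOf_dvd_of_pow_eq_one ?_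
        simpa [Subtype.ext_iff] using hk
      refine Nat.Coprime.coprime_dvd_left h1 (Nat.Coprime.pow_left k ?_)
      rw [Nat.Prime.coprime_iff_not_dvd (Fact.out)]
      exact fun h => hW (h.trans (card_dvd_of_le (hX.1.trans inf_le_left)))
    have h1 : ⁅x, a⁆ ∈ K := by
      rw [← commutatorElement_inv]; exact inv_mem (hmemK a ha)
    have h2 : Commute ⁅x, a⁆ a := mem_centralizer_iff.1 (hc ha) _ h1
    exact (Lib.CoprimeStab.commute_of_commutator_commute hcop (hKX h1) h2).symm
  exact hXmin.le_of_le ⟨hKX.trans hX.1, hAK, hnK⟩ hKX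

end Cfsg.Agent.H443.RelResidual
end

-- part: S3754
section
set_option autoImplicit false
open Cfsg

namespace Cfsg.Agent.S3754

open Subgroup
open scoped commutatorElement

section

variable {M : Type*} [Group M]

/-- The group generated by `A` and its conjugate by `x`. -/
def gen (A : Subgroup M) (x : M) : Subgroup M := A ⊔ A.map (MulAut.conj x).toMonoidHom

theorem le_gen (A : Subgroup M) (x : M) : A ≤ gen A x := le_sup_left

theorem conj_mem_gen {A : Subgroup M} (x : M) {a : M} (ha : a ∈ A) : x * a * x⁻¹ ∈ gen A x :=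
  (le_sup_right : _ ≤ gen A x) ⟨a, ha, rfl⟩

theorem gen_le {A K : Subgroup M} {x : M} (h1 : A ≤ K) (h2 : ∀ a ∈ A, x * a * x⁻¹ ∈ K) :
    gen A x ≤ K := by
  refine sup_le h1 ?_
  rintro _ ⟨a, ha, rfl⟩
  exact h2 a ha

end

/-- Let M be a finite p-soluble group and A a p-subgroup of M with Φ(A) ≤ O_p(M) but A ≰ O_p(M). Then there is x ∈ O_{p,p'}(M) such that L = ⟨A, xAx⁻¹⟩ satisfies: x ∈ O^p(L) and O^p(L) ≤ O_{p,p'}(M); [O^p(L), A] = O^p(L); A ∩ O_p(L) has index p in A; and [A ∩ O_p(L), L] ≤ O_p(M). Here O^p(L) is the subgroup generated by the p'-elements of L and O_{p,p'}(M) the preimage of O_{p'}(M/O_p(M)). -/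
theorem result {M : Type*} [Group M] [Finite M] {p : ℕ} [Fact p.Prime] (hM : Cfsg.IsPSolvable p M) (A : Subgroup M) (hA : IsPGroup p A) (hΦ : (frattini ↥A).map A.subtype ≤ Cfsg.pCore p M) (hnot : ¬ A ≤ Cfsg.pCore p M) : ∃ x ∈ (Cfsg.pPrimeCore p (M ⧸ Cfsg.pCore p M)).comap (QuotientGroup.mk' (Cfsg.pCore p M)), x ∈ (Cfsg.pResidual p ↥(A ⊔ A.map (MulAut.conj x).toMonoidHom)).map (A ⊔ A.map (MulAut.conj x).toMonoidHom).subtype ∧ (Cfsg.pResidual p ↥(A ⊔ A.map (MulAut.conj x).toMonoidHom)).map (A ⊔ A.map (MulAut.conj x).toMonoidHom).subtype ≤ (Cfsg.pPrimeCore p (M ⧸ Cfsg.pCore p M)).comap (QuotientGroup.mk' (Cfsg.pCore p M)) ∧ ⁅(Cfsg.pResidual p ↥(A ⊔ A.map (MulAut.conj x).toMonoidHom)).map (A ⊔ A.map (MulAut.conj x).toMonoidHom).subtype, A⁆ = (Cfsg.pResidual p ↥(A ⊔ A.map (MulAut.conj x).toMonoidHom)).map (A ⊔ A.map (MulAut.conj x).toMonoidHom).subtype ∧ (A ⊓ (Cfsg.pCore p ↥(A ⊔ A.map (MulAut.conj x).toMonoidHom)).map (A ⊔ A.map (MulAut.conj x).toMonoidHom).subtype).relIndex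 A = p ∧ ⁅A ⊓ (Cfsg.pCore p ↥(A ⊔ A.map (MulAut.conj x).toMonoidHom)).map (A ⊔ A.map (MulAut.conj x).toMonoidHom).subtype, A ⊔ A.map (MulAut.conj x).toMonoidHom⁆ ≤ Cfsg.pCore p M := by
  classical
  have hprime : p.Prime := Fact.out
  have hNn : (Cfsg.pCore p M).Normal := Lib.Cores.pCore_normal p
  have hNp : IsPGroup p (Cfsg.pCore p M) := Lib.Cores.pCore_isPGroup p
  set N : Subgroup M := Cfsg.pCore p M with hN
  set π : M →* M ⧸ N := QuotientGroup.mk' N with hπ
  have hπs : Function.Surjective π := QuotientGroup.mk'_surjective N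
  have hker : ∀ g : M, π g = 1 ↔ g ∈ N := fun g => by
    rw [hπ, QuotientGroup.mk'_apply, QuotientGroup.eq_one_iff]
  have hcore : Cfsg.pCore p (M ⧸ N) = ⊥ := Lib.Cores.pCore_quotient_pCore p
  have hsolv : Cfsg.IsPSolvable p (M ⧸ N) :=
    Lib.PSolvable.IsPSolvable_of_surjective p hM π hπs
  have hCW := PLocal.HallHigmanPrime.centralizer_pPrimeCore_le_of_pSolvable p hsolv hcore
  have hWcop : (Nat.card (Cfsg.pPrimeCore p (M ⧸ N))).Coprime p := Lib.Cores.pPrimeCore_coprime p
  have hWn : (Cfsg.pPrimeCore p (M ⧸ N)).Normal := Lib.Cores.pPrimeCore_normal p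
  set W : Subgroup (M ⧸ N) := Cfsg.pPrimeCore p (M ⧸ N) with hW
  have hWp : ¬ p ∣ Nat.card W := fun h => by
    have := Nat.Coprime.coprime_dvd_left h hWcop
    rw [Nat.coprime_self] at this
    exact hprime.one_lt.ne' this
  have hEA : Cfsg.IsElementaryAbelian p (A.map π) := by
    constructor
    · refine ⟨⟨?_⟩⟩
      rintro ⟨_, x, hx, rfl⟩ ⟨_, y, hy, rfl⟩
      have h1 : (⁅x, y⁆ : M) ∈ N := hΦ ⟨⁅(⟨x, hx⟩ : A), ⟨y, hy⟩⁆,
        Lib.FrattiniPGroup.commutator_mem_frattini hA _ _, rfl⟩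
      have h2 : ⁅π x, π y⁆ = 1 := by rw [← map_commutatorElement]; exact (hker _).2 h1
      apply Subtype.ext
      exact commutatorElement_eq_one_iff_mul_comm.1 h2
    · rintro _ ⟨x, hx, rfl⟩
      have h1 : x ^ p ∈ N := hΦ ⟨(⟨x, hx⟩ : A) ^ p,
        Lib.FrattiniPGroup.pow_mem_frattini hA _, rfl⟩
      rw [← map_pow]; exact (hker _).2 h1
  have hA1 : A.map π ≠ ⊥ := by
    intro h
    apply hnot
    intro a ha
    exact (hker a).1 (by
      have : π a ∈ A.map π := mem_map_of_mem _ ha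
      rwa [h, mem_bot] at this)
  have hpA : IsPGroup p (A.map π) := hA.map π
  have hf : A.map π ⊓ centralizer (W : Set (M ⧸ N)) = ⊥ := by
    rw [eq_bot_iff]
    intro g hg
    obtain ⟨h1, h2⟩ := mem_inf.1 hg
    have h3 : g ∈ W := hCW h2
    have h4 : orderOf g ∣ Nat.card W := Lib.CoprimeStab.orderOf_dvd_natCard_of_mem h3
    obtain ⟨k, hk⟩ := hpA ⟨g, h1⟩
    have h5 : orderOf g ∣ p ^ k := orderOf_dvd_of_pow_eq_one (by
      simpa [Subtype.ext_iff] using hk)
    have h6 : (Nat.card W).Coprime (p ^ k) := Nat.Coprime.pow_right k hWcop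
    rw [mem_bot, ← orderOf_eq_one_iff]
    exact Nat.eq_one_of_dvd_coprimes h6 h4 h5
  have hAW : A.map π ≤ normalizer (W : Set (M ⧸ N)) := le_normalizer_of_normal
  obtain ⟨B, X, hBA, hBi, hXW, hXB, hAX, hnc, hgen⟩ :=
    H443.RelResidual.exists_minimal hEA hA1 hWp hAW hf
  have hXcop : (Nat.card X).Coprime p := Nat.Coprime.coprime_dvd_left (card_dvd_of_le hXW) hWcop
  -- `p'`-elements and `X`
  -- the candidate set
  let S : Set M := {x | π x ∈ X ∧ ¬ ∀ a ∈ A.map π, Commute a (π x)}
  have hSne : S.Nonempty := by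
    by_contra hS
    rw [Set.not_nonempty_iff_eq_empty] at hS
    apply hnc
    intro a ha
    rw [mem_centralizer_iff]
    intro x hx
    obtain ⟨y, rfl⟩ := hπs x
    by_contra hne
    have : y ∈ S := ⟨hx, fun h => hne (h a ha).symm⟩
    rw [hS] at this
    exact this
  obtain ⟨x, hxS, hxmin⟩ : ∃ x ∈ S, ∀ y ∈ S, Nat.card (gen A x) ≤ Nat.card (gen A y) := by
    obtain ⟨x, hx, h⟩ := Set.exists_min_image S (fun x => Nat.card (gen A x)) S.toFinite hSne
    exact ⟨x, hx, h⟩
  -- facts on `gen A x`, `x ∈ S`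
  have fact1 : ∀ x ∈ S, X ≤ (gen A x).map π := by
    intro x hx
    refine (hgen _ hx.1 hx.2).trans ?_
    rw [closure_le]
    rintro _ ⟨_, ⟨a, ha, rfl⟩, rfl⟩
    refine ⟨a * (x * a⁻¹ * x⁻¹), mul_mem (le_gen A x ha) (conj_mem_gen x (inv_mem ha)), ?_⟩
    simp only [commutatorElement_def, map_mul, map_inv]; group
  have fact2 : ∀ x ∈ S, (gen A x).map π ≤ A.map π ⊔ X := by
    intro x hx
    rw [map_le_iff_le_comap]
    refine gen_le (fun a ha => ?_) (fun a ha => ?_)
    · exact (le_sup_left : _ ≤ A.map π ⊔ X) (mem_map_of_mem _ ha)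
    · rw [mem_comap, map_mul, map_mul, map_inv]
      have h1 : π x ∈ A.map π ⊔ X := (le_sup_right : _ ≤ A.map π ⊔ X) hx.1
      exact mul_mem (mul_mem h1 ((le_sup_left : _ ≤ A.map π ⊔ X) (mem_map_of_mem _ ha))) (inv_mem h1)
  have hAXn : A.map π ⊔ X ≤ normalizer (X : Set (M ⧸ N)) := sup_le hAX le_normalizer
  have hcommA : ∀ x ∈ A.map π, ∀ y ∈ A.map π, x * y = y * x := by
    have := hEA.1
    exact fun x hx y hy => setLike_mul_comm hx hy
  have hAXB : A.map π ⊔ X ≤ centralizer (B : Set (M ⧸ N)) := by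
    refine sup_le ?_ hXB
    intro a ha
    rw [mem_centralizer_iff]
    intro b hb
    exact hcommA b (hBA hb) a ha
  have fact3 : ∀ x ∈ S, (pResidual p (gen A x)).map (gen A x).subtype ≤ X.comap π := by
    intro x hx
    have h1 : (pResidual p (gen A x)).map (gen A x).subtype ≤ gen A x ⊓ X.comap π := by
      refine H443.RelResidual.le_of_sup hA (le_gen A x) inf_le_left ?_ ?_
      · have h2 : ∀ l ∈ gen A x, ∀ g ∈ gen A x ⊓ X.comap π, l * g * l⁻¹ ∈ gen A x ⊓ X.comap π := by
          intro l hl g hg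
          refine mem_inf.2 ⟨mul_mem (mul_mem hl hg.1) (inv_mem hl), ?_⟩
          rw [mem_comap, map_mul, map_mul, map_inv]
          have h3 : π l ∈ normalizer (X : Set (M ⧸ N)) :=
            hAXn (fact2 x hx (mem_map_of_mem _ hl))
          exact (mem_normalizer_iff.1 h3 _).1 hg.2
        intro l hl
        rw [mem_normalizer_iff]
        intro g
        refine ⟨h2 l hl g, fun h => ?_⟩
        have h3 := h2 l⁻¹ (inv_mem hl) _ h
        have h4 : l⁻¹ * (l * g * l⁻¹) * l⁻¹⁻¹ = g := by group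
        rwa [h4] at h3
      · refine gen_le le_sup_left (fun a ha => ?_)
        have h2 : x * a * x⁻¹ = (x * a * x⁻¹ * a⁻¹) * a := by group
        rw [h2]
        refine mul_mem ((le_sup_right : _ ≤ A ⊔ (gen A x ⊓ X.comap π)) ?_)
          ((le_sup_left : _ ≤ A ⊔ (gen A x ⊓ X.comap π)) ha)
        refine mem_inf.2 ⟨mul_mem (conj_mem_gen x ha) (inv_mem (le_gen A x ha)), ?_⟩
        rw [mem_comap]
        simp only [map_mul, map_inv]
        have h3 : π x * π a * (π x)⁻¹ * (π a)⁻¹ = π x * (π a * (π x)⁻¹ * (π a)⁻¹) := by group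
        rw [h3]
        exact mul_mem hx.1 ((mem_normalizer_iff.1 (hAX (mem_map_of_mem _ ha)) _).1 (inv_mem hx.1))
    exact h1.trans inf_le_right
  have fact4 : ∀ x ∈ S, X ≤ ((pResidual p (gen A x)).map (gen A x).subtype).map π := by
    intro x hx z hz
    obtain ⟨g, hg, rfl⟩ := fact1 x hx hz
    obtain ⟨k, hk⟩ := Transfer.Residual.exists_pow_prime_pow_coprime p g
    have h1 : g ^ p ^ k ∈ (pResidual p (gen A x)).map (gen A x).subtype :=
      H443.RelResidual.mem_of_coprime (pow_mem hg _) hk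
    have h2 : (π g) ^ p ^ k ∈ ((pResidual p (gen A x)).map (gen A x).subtype).map π :=
      ⟨_, h1, map_pow π g _⟩
    have h3 : (orderOf (π g)).Coprime (p ^ k) :=
      Nat.Coprime.pow_right k (Nat.Coprime.coprime_dvd_left
        (Lib.CoprimeStab.orderOf_dvd_natCard_of_mem hz) hXcop)
    obtain ⟨m, hm⟩ := exists_pow_eq_self_of_coprime h3.symm
    rw [← hm]
    exact pow_mem h2 m
  -- choose the final `x`
  obtain ⟨y, hyS, hyR⟩ : ∃ y ∈ S, y ∈ (pResidual p (gen A y)).map (gen A y).subtype := by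
    obtain ⟨y, hy, hyx⟩ := fact4 x hxS hxS.1
    have hyS : y ∈ S := by
      show π y ∈ X ∧ _
      rw [hyx]; exact hxS
    have hyL : y ∈ gen A x := map_subtype_le _ hy
    have hle : gen A y ≤ gen A x := gen_le (le_gen A x) fun a ha =>
      mul_mem (mul_mem hyL (le_gen A x ha)) (inv_mem hyL)
    have heq : gen A y = gen A x := eq_of_le_of_card_ge hle (hxmin y hyS)
    refine ⟨y, hyS, ?_⟩
    rw [heq]
    exact hy
  clear hxmin hxS x
  have hyL : y ∈ gen A y := map_subtype_le _ hyR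
  have hRX := fact3 y hyS
  have hLpi : (gen A y).map π ≤ centralizer (B : Set (M ⧸ N)) := (fact2 y hyS).trans hAXB
  -- the core of `gen A y`
  have hcoren : (pCore p (gen A y)).Normal := Lib.Cores.pCore_normal p
  have hcoreconj : ∀ l ∈ gen A y, ∀ g ∈ (pCore p (gen A y)).map (gen A y).subtype,
      l * g * l⁻¹ ∈ (pCore p (gen A y)).map (gen A y).subtype := by
    rintro l hl _ ⟨g, hg, rfl⟩
    exact ⟨⟨l, hl⟩ * g * ⟨l, hl⟩⁻¹, hcoren.conj_mem g hg _, rfl⟩
  have hcorep : IsPGroup p ((pCore p (gen A y)).map (gen A y).subtype) :=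
    (Lib.Cores.pCore_isPGroup p).map _
  have hA0 : A ⊓ B.comap π ≤ A ⊓ (pCore p (gen A y)).map (gen A y).subtype := by
    refine le_inf inf_le_left ?_
    have hVn : ((B.comap π).subgroupOf (gen A y)).Normal := by
      constructor
      intro v hv l
      rw [mem_subgroupOf, mem_comap] at hv ⊢
      have h1 : π (l : M) ∈ centralizer (B : Set (M ⧸ N)) := hLpi (mem_map_of_mem _ l.2)
      have h2 : π (v : M) * π (l : M) = π (l : M) * π (v : M) := mem_centralizer_iff.1 h1 _ hv
      have h3 : π ((l * v * l⁻¹ : gen A y) : M) = π (v : M) := by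
        simp only [coe_mul, coe_inv, map_mul, map_inv]
        rw [← h2]; group
      rw [h3]; exact hv
    have hVp : IsPGroup p ((B.comap π).subgroupOf (gen A y)) := by
      rintro ⟨v, hv⟩
      rw [mem_subgroupOf, mem_comap] at hv
      obtain ⟨k, hk⟩ := hpA ⟨_, hBA hv⟩
      have h1 : (π (v : M)) ^ p ^ k = 1 := by simpa [Subtype.ext_iff] using hk
      have h2 : (v : M) ^ p ^ k ∈ N := by rw [← hker, map_pow]; exact h1
      obtain ⟨m, hm⟩ := hNp ⟨_, h2⟩
      have h3 : ((v : M) ^ p ^ k) ^ p ^ m = 1 := by simpa [Subtype.ext_iff] using hm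
      refine ⟨k + m, ?_⟩
      ext
      simp only [coe_pow, coe_one]
      rw [pow_add, pow_mul]; exact h3
    have h1 := Lib.Cores.le_pCore hVn hVp
    intro a ha
    exact ⟨⟨a, le_gen A y ha.1⟩, h1 (by rw [mem_subgroupOf]; exact ha.2), rfl⟩
  have hi0 : (A ⊓ B.comap π).relIndex A = p := by
    rw [inf_relIndex_left, relIndex_comap]; exact hBi
  have hi1 : (A ⊓ (pCore p (gen A y)).map (gen A y).subtype).relIndex A = p := by
    have h1 := relIndex_dvd_of_le_left A hA0
    rw [hi0] at h1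
    rcases (Nat.dvd_prime hprime).1 h1 with h2 | h2
    · exfalso
      rw [relIndex_eq_one] at h2
      have h3 : A ≤ (pCore p (gen A y)).map (gen A y).subtype := h2.trans inf_le_right
      have h4 : gen A y ≤ (pCore p (gen A y)).map (gen A y).subtype :=
        gen_le h3 fun a ha => hcoreconj y hyL a (h3 ha)
      have h5 : IsPGroup p (gen A y) := hcorep.to_le h4
      have h6 : IsPGroup p X := (h5.map π).to_le (fact1 y hyS)
      have h7 : X = ⊥ := by
        obtain ⟨k, hk⟩ := IsPGroup.iff_card.1 h6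
        rw [hk] at hXcop
        rw [← card_eq_one, hk]
        rcases Nat.eq_zero_or_pos k with rfl | hk0
        · simp
        · exfalso
          have := Nat.Coprime.coprime_dvd_left (dvd_pow_self p hk0.ne') hXcop
          rw [Nat.coprime_self] at this
          exact hprime.one_lt.ne' this
      apply hnc
      rw [h7]
      intro a _
      rw [mem_centralizer_iff]
      intro g hg
      rw [SetLike.mem_coe, mem_bot] at hg
      rw [hg, one_mul, mul_one]
    · exact h2
  have hAeq : A ⊓ B.comap π = A ⊓ (pCore p (gen A y)).map (gen A y).subtype := by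
    refine le_antisymm hA0 ?_
    have h1 := relIndex_mul_relIndex _ _ A hA0 inf_le_left
    rw [hi0, hi1] at h1
    exact relIndex_eq_one.1 (Nat.eq_of_mul_eq_mul_right hprime.pos (h1.trans (one_mul p).symm))
  refine ⟨y, hXW hyS.1, hyR, hRX.trans (comap_mono hXW), ?_, hi1, ?_⟩
  · have hALn : A ≤ normalizer (((pResidual p (gen A y)).map (gen A y).subtype : Subgroup M) : Set M) :=
      (le_gen A y).trans (H443.RelResidual.le_normalizer p _)
    refine le_antisymm (Lib.CoprimeCommutator.commutator_le_left hALn) ?_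
    set R := (pResidual p (gen A y)).map (gen A y).subtype with hR
    have hRL : R ≤ gen A y := map_subtype_le _
    have hDL : ⁅R, A⁆ ≤ gen A y :=
      (Lib.CoprimeCommutator.commutator_le_left hALn).trans hRL
    refine H443.RelResidual.le_of_sup hA (le_gen A y) hDL ?_ ?_
    · have h1 := Lib.CoprimeCommutator.left_le_normalizer_commutator R A
      have h2 := Lib.CoprimeCommutator.right_le_normalizer_commutator R A
      exact gen_le h2 fun a ha => mul_mem (mul_mem (h1 hyR) (h2 ha)) (inv_mem (h1 hyR))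
    · refine gen_le le_sup_left fun a ha => ?_
      have h2 : y * a * y⁻¹ = ⁅y, a⁆ * a := by rw [commutatorElement_def]; group
      rw [h2]
      exact mul_mem ((le_sup_right : _ ≤ A ⊔ ⁅R, A⁆) (commutator_mem_commutator hyR ha))
        ((le_sup_left : _ ≤ A ⊔ ⁅R, A⁆) ha)
  · change ⁅A ⊓ (pCore p (gen A y)).map (gen A y).subtype, gen A y⁆ ≤ N
    rw [← hAeq, commutator_le]
    intro g hg l hl
    rw [← hker, map_commutatorElement, commutatorElement_eq_one_iff_mul_comm]
    exact mem_centralizer_iff.1 (hLpi (mem_map_of_mem _ hl)) _ hg.2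

end Cfsg.Agent.S3754
end
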