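import Cfsg.Statements.S3760
set_option linter.all false
-- import your own Cfsg.Agent.* helpers here

set_option autoImplicit false
open Cfsg

namespace Cfsg.Agent.S3760

/-- Let the group G act transitively on a set X, let x ∈ X with stabilizer H = G_x, and let K ≤ H. Then N_G(K) acts transitively on the set of fixed points of K if and only if every G-conjugate of K contained in H is already an H-conjugate of K. -/
theorem result {G : Type*} [Group G] {X : Type*} [MulAction G X] (htrans : ∀ a b : X, ∃ g : G, g • a = b) (x : X) (K : Subgroup G) (hK : K ≤ MulAction.stabilizer G x) : (∀ a b : X, (∀ k ∈ K, k • a = a) → (∀ k ∈ K, k • b = b) → ∃ g ∈ Subgroup.normalizer (K : Set G), g • a = b) ↔ ∀ g : G, K.map (MulAut.conj g).toMonoidHom ≤ MulAction.stabilizer G x → ∃ h ∈ MulAction.stabilizer G x, K.map (MulAut.conj g).toMonoidHom = K.map (MulAut.conj h).toMonoidHom := by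
  have key : ∀ g : G, (∀ a, a ∈ K.map (MulAut.conj g).toMonoidHom ↔ g⁻¹ * a * g ∈ K) := by
    intro g a
    constructor
    · rintro ⟨k, hk, rfl⟩
      have : g⁻¹ * (MulAut.conj g).toMonoidHom k * g = k := by
        simp [MulAut.conj_apply, mul_assoc]
      rw [this]; exact hk
    · intro h
      exact ⟨g⁻¹ * a * g, h, by simp [MulAut.conj_apply, mul_assoc]⟩
  constructor
  · intro h g hg
    have h1 : ∀ k ∈ K, k • x = x := fun k hk => MulAction.mem_stabilizer_iff.mp (hK hk)
    have h2 : ∀ k ∈ K, k • (g⁻¹ • x) = g⁻¹ • x := by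
      intro k hk
      have h3 : (g * k * g⁻¹) • x = x := by
        apply MulAction.mem_stabilizer_iff.mp
        apply hg
        exact ⟨k, hk, by simp [MulAut.conj_apply]⟩
      rw [smul_smul, eq_inv_smul_iff, smul_smul, ← mul_assoc]
      exact h3
    obtain ⟨n, hn, hnx⟩ := h x (g⁻¹ • x) h1 h2
    refine ⟨g * n, ?_, ?_⟩
    · rw [MulAction.mem_stabilizer_iff, mul_smul, hnx, smul_inv_smul]
    · ext a
      rw [key, key]
      rw [Subgroup.mem_normalizer_iff] at hn
      have h4 := hn (n⁻¹ * (g⁻¹ * a * g) * n)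
      have e1 : n * (n⁻¹ * (g⁻¹ * a * g) * n) * n⁻¹ = g⁻¹ * a * g := by group
      have e2 : (g * n)⁻¹ * a * (g * n) = n⁻¹ * (g⁻¹ * a * g) * n := by group
      rw [e1] at h4
      rw [e2]
      exact h4.symm
  · intro h
    have step : ∀ a : X, (∀ k ∈ K, k • a = a) →
        ∃ n ∈ Subgroup.normalizer (K : Set G), n • x = a := by
      intro a ha
      obtain ⟨g, rfl⟩ := htrans x a
      obtain ⟨s, hs, hs2⟩ := h g⁻¹ (by
        intro b hb
        rw [key] at hb
        rw [MulAction.mem_stabilizer_iff]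
        have h5 := ha _ hb
        rw [smul_smul] at h5
        have h6 : g⁻¹⁻¹ * b * g⁻¹ * g = g * b := by group
        rw [h6, mul_smul] at h5
        exact (MulAction.injective g) h5)
      refine ⟨g * s, ?_, ?_⟩
      · rw [Subgroup.mem_normalizer_iff]
        intro k
        have h7 : (s * k * s⁻¹) ∈ K.map (MulAut.conj g⁻¹).toMonoidHom ↔
            (s * k * s⁻¹) ∈ K.map (MulAut.conj s).toMonoidHom := by rw [hs2]
        rw [key, key] at h7
        have e1 : s⁻¹ * (s * k * s⁻¹) * s = k := by group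
        have e2 : g⁻¹⁻¹ * (s * k * s⁻¹) * g⁻¹ = g * s * k * (g * s)⁻¹ := by group
        rw [e1, e2] at h7
        exact h7.symm
      · rw [mul_smul, MulAction.mem_stabilizer_iff.mp hs]
    intro a b ha hb
    obtain ⟨n, hn, rfl⟩ := step a ha
    obtain ⟨m, hm, rfl⟩ := step b hb
    refine ⟨m * n⁻¹, mul_mem hm (inv_mem hn), ?_⟩
    rw [smul_smul, mul_assoc, inv_mul_cancel, mul_one]

end Cfsg.Agent.S3760
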