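import Cfsg.Statements.S3761
import Cfsg.Agent.H442.CycSelf
set_option linter.all false

set_option autoImplicit false
open Cfsg

namespace Cfsg.Agent.S3761

open Subgroup Cfsg.Agent.H442.CycSelf

/-- Let G be a finite non-abelian p-group with a cyclic normal subgroup U of order p^n such that C_G(U) = U. Then either p = 2 and G is dihedral, generalized quaternion or semidihedral of order 2^(n+1); or, writing U₁ for the subgroup generated by the p-th powers of elements of U and M = C_G(U₁), the subgroup U has index p in M and the subgroup Ω₁(M) generated by the elements of M of order dividing p is elementary abelian of order p² and characteristic in G. -/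
theorem result {G : Type*} [Group G] [Finite G] {p : ℕ} [Fact p.Prime] (hG : IsPGroup p G) (hna : ¬ IsMulCommutative G) (U : Subgroup G) [U.Normal] (hU : IsCyclic U) (n : ℕ) (hUn : Nat.card U = p ^ n) (hC : Subgroup.centralizer (U : Set G) = U) : (p = 2 ∧ Nat.card G = 2 ^ (n + 1) ∧ ((∃ m : ℕ, Nonempty (G ≃* DihedralGroup m)) ∨ (∃ m : ℕ, Nonempty (G ≃* QuaternionGroup m)) ∨ Cfsg.IsQuasiDihedral G)) ∨ (U.relIndex (Subgroup.centralizer (Cfsg.powerClosure p 1 U : Set G)) = p ∧ Cfsg.IsElementaryAbelian p (Cfsg.omegaOne p (Subgroup.centralizer (Cfsg.powerClosure p 1 U : Set G))) ∧ Nat.card ↥(Cfsg.omegaOne p (Subgroup.centralizer (Cfsg.powerClosure p 1 U : Set G))) = p ^ 2 ∧ (Cfsg.omegaOne p (Subgroup.centralizer (Cfsg.powerClosure p 1 U : Set G))).Characteristic) := by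
  have hp : p.Prime := Fact.out
  obtain ⟨⟨u, huU⟩, hugen⟩ := hU.exists_generator
  have hUz : U = zpowers u := by
    apply le_antisymm
    · intro x hx
      obtain ⟨k, hk⟩ := hugen ⟨x, hx⟩
      exact ⟨k, congrArg Subtype.val hk⟩
    · rw [zpowers_le]; exact huU
  have hord : orderOf u = p ^ n := by rw [← hUn, hUz, Nat.card_zpowers]
  have h : Cyc p n u := by
    refine ⟨hord, ?_, ?_⟩
    · intro g
      have h1 : g * u * g⁻¹ ∈ U := ‹U.Normal›.conj_mem u huU g
      rw [hUz] at h1
      obtain ⟨r, hr⟩ := h1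
      exact ⟨r, hr.symm⟩
    · intro g hg
      rw [← hUz, ← hC, mem_centralizer_iff]
      intro x hx
      have hx' : x ∈ U := hx
      rw [hUz] at hx'
      obtain ⟨k, rfl⟩ := hx'
      have h1 : g * u ^ k * g⁻¹ = u ^ k := by rw [← _root_.conj_zpow, hg]
      exact (mul_inv_eq_iff_eq_mul.mp h1).symm
  have hUtop : ∃ y : G, y ∉ zpowers u := by
    by_contra h0
    push Not at h0
    apply hna
    refine ⟨⟨fun a b => ?_⟩⟩
    obtain ⟨i, rfl⟩ := h0 a
    obtain ⟨j, rfl⟩ := h0 b
    exact (((Commute.refl u).zpow_left i).zpow_right j).eq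
  obtain ⟨y₀, hy₀⟩ := hUtop
  -- `n ≥ 2`
  have hpc : powerClosure p 1 U = zpowers (u ^ p) := by
    unfold powerClosure
    apply le_antisymm
    · rw [closure_le]
      rintro _ ⟨x, hx, rfl⟩
      rw [hUz] at hx
      obtain ⟨k, rfl⟩ := hx
      refine ⟨k, ?_⟩
      dsimp only
      rw [pow_one, ← zpow_natCast, ← zpow_natCast, ← zpow_mul, ← zpow_mul, mul_comm]
    · rw [zpowers_le]
      exact subset_closure ⟨u, huU, by rw [pow_one]⟩
  set M : Subgroup G := Subgroup.centralizer (Cfsg.powerClosure p 1 U : Set G) with hMdef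
  have hM : ∀ g : G, g ∈ M ↔ g * u ^ p * g⁻¹ = u ^ p := by
    intro g
    rw [hMdef, hpc, mem_centralizer_iff]
    constructor
    · intro h1
      rw [← h1 (u ^ p) (mem_zpowers _)]; group
    · rintro h1 _ ⟨k, rfl⟩
      have h2 : g * (u ^ p) ^ k * g⁻¹ = (u ^ p) ^ k := by rw [← _root_.conj_zpow, h1]
      exact (mul_inv_eq_iff_eq_mul.mp h2).symm
  have hn1 : 1 ≤ n := by
    by_contra h0
    have : n = 0 := by omega
    subst this
    have hu1 : u = 1 := by
      rw [← orderOf_eq_one_iff, hord, pow_zero]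
    exact hy₀ (h.self y₀ (by rw [hu1]; group))
  obtain ⟨k₀, hy1, hy2⟩ := exists_pow (p := p) hG hy₀
  set y₁ : G := y₀ ^ p ^ k₀ with hy₁
  have hn2 : 2 ≤ n := by
    by_contra h0
    have hn : n = 1 := by omega
    subst hn
    apply hy1
    obtain ⟨r, hr⟩ := h.act y₁
    have h1 : (p : ℤ) ^ 1 ∣ r ^ p - 1 := h.dvd_of_mem (h.conj_pow hr p) hy2
    rw [pow_one] at h1
    apply h.mem_of_dvd hr
    rw [pow_one]
    have h3 : ((r ^ p - 1 : ℤ) : ZMod p) = 0 := (ZMod.intCast_zmod_eq_zero_iff_dvd _ p).mpr h1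
    apply (ZMod.intCast_zmod_eq_zero_iff_dvd _ p).mp
    push_cast at h3 ⊢
    rwa [ZMod.pow_card] at h3
  by_cases hcase : p = 2 ∧ (n = 2 ∨ M = U)
  · left
    obtain ⟨hp2, hcase⟩ := hcase
    subst hp2
    refine ⟨rfl, ?_⟩
    apply h.two_case hn2 _ hy₀
    intro g r hr h4
    rcases hcase with hn | hMU
    · subst hn
      apply h.mem_of_dvd hr
      norm_num
      exact h4
    · by_contra hg
      obtain ⟨k, hk1, hk2⟩ := exists_pow (p := 2) hG hg
      have hr' := h.conj_pow hr (2 ^ k)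
      have h5 : (4 : ℤ) ∣ r ^ 2 ^ k - 1 := by
        have := sub_dvd_pow_sub_pow r 1 (2 ^ k)
        rw [one_pow] at this
        exact h4.trans this
      have h6 := h.comm_of_pow hn1 hr' hk2 (Or.inr h5)
      have h7 := (h.mem_M_iff hM hr').mpr h6
      rw [hMU, hUz] at h7
      exact hk1 h7
  · right
    push Not at hcase
    -- there is an element of `M` outside `U`
    obtain ⟨y, hyM, hyU⟩ : ∃ y, y ∈ M ∧ y ∉ zpowers u := by
      by_cases hp2 : p = 2
      · have h1 := (hcase hp2).2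
        by_contra h0
        push Not at h0
        apply h1
        rw [hUz]
        apply le_antisymm (fun x hx => h0 x hx)
        exact h.zpowers_le_M hM
      · obtain ⟨r, hr⟩ := h.act y₁
        exact ⟨y₁, (h.mem_M_iff hM hr).mpr (h.comm_of_pow hn1 hr hy2 (Or.inl hp2)), hy1⟩
    have hidx : (zpowers u).relIndex M = p := by
      rcases (Nat.dvd_prime hp).mp (h.relIndex hn2 hM) with h1 | h1
      · exact absurd (Subgroup.relIndex_eq_one.mp h1 hyM) hyU
      · exact h1
    have hom : Cfsg.IsElementaryAbelian p (Cfsg.omegaOne p M) ∧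
        Nat.card ↥(Cfsg.omegaOne p M) = p ^ 2 := by
      by_cases hp2 : p = 2
      · subst hp2
        have h1 := (hcase rfl).1
        exact h.omega_two (by omega) hM hyM hyU
      · exact h.omega_odd hG hn2 hp2 hM hyM hyU
    refine ⟨by rw [hUz]; exact hidx, hom.1, hom.2, ?_⟩
    -- characteristic
    rw [characteristic_iff_map_le]
    intro φ
    have hmemV : ∀ x : G, x ∈ M → x ^ p = 1 → x ∈ Cfsg.omegaOne p M :=
      fun x h1 h2 => subset_closure ⟨h1, h2⟩
    have hMn : M.Normal := by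
      have : (zpowers (u ^ p)).Normal := by
        refine ⟨fun x hx g => ?_⟩
        obtain ⟨k, rfl⟩ := hx
        obtain ⟨r, hr⟩ := h.act g
        have h1 := h.conj_zpow hr (p * k)
        refine ⟨r * k, ?_⟩
        dsimp only
        have e1 : (u ^ p) ^ k = u ^ ((p : ℤ) * k) := by rw [zpow_mul, zpow_natCast]
        have e2 : (u ^ p) ^ (r * k) = u ^ (r * ((p : ℤ) * k)) := by
          rw [← zpow_natCast u p, ← zpow_mul]; congr 1; ring
        rw [e1, e2, h1]
      rw [hMdef, hpc]
      infer_instance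
    have hVn : (Cfsg.omegaOne p M).Normal := by
      refine ⟨fun x hx g => ?_⟩
      have h1 : (Cfsg.omegaOne p M).map (MulAut.conj g).toMonoidHom ≤ Cfsg.omegaOne p M := by
        unfold Cfsg.omegaOne
        rw [MonoidHom.map_closure, closure_le]
        rintro _ ⟨z, ⟨hzM, hzp⟩, rfl⟩
        refine subset_closure ⟨?_, ?_⟩
        · simpa [MulAut.conj_apply] using hMn.conj_mem z hzM g
        · rw [← map_pow, hzp, map_one]
      have h2 : (MulAut.conj g).toMonoidHom x ∈ (Cfsg.omegaOne p M).map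
        (MulAut.conj g).toMonoidHom := mem_map_of_mem _ hx
      simpa [MulAut.conj_apply] using h1 h2
    have hWn : ((Cfsg.omegaOne p M).map φ.toMonoidHom).Normal :=
      hVn.map φ.toMonoidHom φ.surjective
    intro x hx
    have hxp : x ^ p = 1 := by
      obtain ⟨z, hz, rfl⟩ := hx
      rw [← map_pow, hom.1.2 z hz, map_one]
    refine hmemV x ?_ hxp
    obtain ⟨r, hr⟩ := h.act x
    rw [h.mem_M_iff hM hr]
    have h1 : x * u * x⁻¹ * u⁻¹ ∈ (Cfsg.omegaOne p M).map φ.toMonoidHom := by
      have h2 : x * (u * x⁻¹ * u⁻¹) ∈ (Cfsg.omegaOne p M).map φ.toMonoidHom :=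
        mul_mem hx (hWn.conj_mem _ (inv_mem hx) u)
      simpa [mul_assoc] using h2
    obtain ⟨z, hz, hzx⟩ := h1
    have h3 : (x * u * x⁻¹ * u⁻¹) ^ p = 1 := by
      rw [← hzx, ← map_pow, hom.1.2 z hz, map_one]
    rw [hr, ← zpow_sub_one, ← zpow_natCast, ← zpow_mul, h.zpow_eq_one_iff] at h3
    rwa [mul_comm] at h3

end Cfsg.Agent.S3761
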