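import Cfsg.Statements.S3763
import Cfsg.Agent.H442.ExtraRank
set_option linter.all false

set_option autoImplicit false
open Cfsg

namespace Cfsg.Agent.S3763

/-- Let E be an extraspecial 2-group of order 2^(2n+1). Then the largest elementary abelian subgroups of E have order 2^n or 2^(n+1); and two extraspecial 2-groups of the same order whose largest elementary abelian subgroups have the same order are isomorphic. -/
theorem result {E : Type*} [Group E] [Finite E] (hE : Cfsg.IsExtraspecial 2 E) (n : ℕ) (hn : Nat.card E = 2 ^ (2 * n + 1)) : ((Cfsg.PRankLE 2 n E ∧ ¬ Cfsg.PRankLE 2 (n - 1) E) ∨ (Cfsg.PRankLE 2 (n + 1) E ∧ ¬ Cfsg.PRankLE 2 n E)) ∧ ∀ (E' : Type*) [Group E'] [Finite E'], Cfsg.IsExtraspecial 2 E' → Nat.card E' = Nat.card E → (∀ k : ℕ, Cfsg.PRankLE 2 k E ↔ Cfsg.PRankLE 2 k E') → Nonempty (E ≃* E') := by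
  have h := Cfsg.Agent.Transfer.ExtraspecialTwo.centralTwo_of_isExtraspecial hE
  constructor
  · rcases Cfsg.Agent.H442.ExtraRank.rank_cases n h hn with ⟨h1, h2⟩ | h2
    · left
      exact ⟨(h2 n).mpr le_rfl, fun h0 => by have := (h2 _).mp h0; omega⟩
    · right
      exact ⟨(h2 (n + 1)).mpr le_rfl, fun h0 => by have := (h2 _).mp h0; omega⟩
  · intro E' _ _ hE' hc hr
    have h' := Cfsg.Agent.Transfer.ExtraspecialTwo.centralTwo_of_isExtraspecial hE'
    exact Cfsg.Agent.H442.ExtraRank.iso_of_rank n h h' hn (hc.trans hn) hr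

end Cfsg.Agent.S3763
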