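import Cfsg.Statements.S3764
import Cfsg.Agent.H446.ExtraAct
import Cfsg.Agent.Transfer.Extraspecial
set_option linter.all false

set_option autoImplicit false
open Cfsg

namespace Cfsg.Agent.S3764

/-- Let p, q, r be distinct primes and let X, Q, V be subgroups of a finite group with X of order r, Q an extraspecial q-group normalized by X with C_Q(X) = Z(Q), and V an elementary abelian p-group normalized by X and Q on which XQ acts faithfully ((X ⊔ Q) ∩ C(V) = 1). If C_V(X) = 1, then q = 2, r = 2^n + 1 for some n, and Q has order 2^(2n+1). -/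
theorem result {G : Type*} [Group G] [Finite G] {p q r : ℕ} (hp : p.Prime) (hq : q.Prime) (hr : r.Prime) (hpq : p ≠ q) (hpr : p ≠ r) (hqr : q ≠ r) (X Q V : Subgroup G) (hX : Nat.card X = r) (hQ : Cfsg.IsExtraspecial q ↥Q) (hXQ : X ≤ Subgroup.normalizer (Q : Set G)) (hCQ : Q ⊓ Subgroup.centralizer (X : Set G) = (Subgroup.center ↥Q).map Q.subtype) (hV : Cfsg.IsElementaryAbelian p V) (hXV : X ≤ Subgroup.normalizer (V : Set G)) (hQV : Q ≤ Subgroup.normalizer (V : Set G)) (hfaith : (X ⊔ Q) ⊓ Subgroup.centralizer (V : Set G) = ⊥) (hCV : V ⊓ Subgroup.centralizer (X : Set G) = ⊥) : q = 2 ∧ ∃ n : ℕ, r = 2 ^ n + 1 ∧ Nat.card Q = 2 ^ (2 * n + 1) := by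
  have : Fact p.Prime := ⟨hp⟩
  have : Fact q.Prime := ⟨hq⟩
  have : Fact r.Prime := ⟨hr⟩
  obtain ⟨n, hn1, hcard⟩ := Cfsg.Agent.Transfer.Extraspecial.exists_card_eq hq hQ
  by_cases hne : r = q ^ n + 1
  · have hq2 : q = 2 := by
      rcases hq.eq_two_or_odd' with h | h
      · exact h
      · exfalso
        have h1 : Even r := by
          rw [hne]
          exact (h.pow).add_one
        have h2 : r = 2 := (hr.even_iff).1 h1
        have h3 : q ^ n = 1 := by omega
        have h4 : 1 < q ^ n := Nat.one_lt_pow (by omega) hq.one_lt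
        omega
    subst hq2
    exact ⟨rfl, n, hne, hcard⟩
  exfalso
  have hcen : (Subgroup.center ↥Q).map Q.subtype = Q ⊓ Subgroup.centralizer (Q : Set G) := by
    ext g
    constructor
    · rintro ⟨x, hx, rfl⟩
      exact (Cfsg.Agent.OddOrderLocal.ExtraspecialCycle.center_mem_iff Q x).1 hx
    · intro hg
      exact ⟨⟨g, hg.1⟩, (Cfsg.Agent.OddOrderLocal.ExtraspecialCycle.center_mem_iff Q ⟨g, hg.1⟩).2 hg, rfl⟩
  rw [hcen] at hCQ
  -- nonidentity elements of `X` have the same centralizer in `Q` as `X`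
  have hXc : ∀ x ∈ X, x ≠ 1 → ∀ y : G, y * x = x * y → y ∈ Subgroup.centralizer (X : Set G) := by
    intro x hx hx1 y hy
    have h1 : Subgroup.zpowers (⟨x, hx⟩ : X) = ⊤ :=
      zpowers_eq_top_of_prime_card hX (by
        intro h
        exact hx1 (congrArg Subtype.val h))
    rw [Subgroup.mem_centralizer_iff]
    intro g hg
    have h2 : (⟨g, hg⟩ : X) ∈ Subgroup.zpowers (⟨x, hx⟩ : X) := by
      rw [h1]
      exact Subgroup.mem_top _
    obtain ⟨k, hk⟩ := h2
    have h3 : x ^ k = g := congrArg Subtype.val hk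
    rw [← h3]
    exact ((show Commute y x from hy).zpow_right k).eq.symm
  let inst : CommGroup V := { (inferInstance : Group V) with
    mul_comm := hV.1.is_comm.comm }
  set N := Subgroup.normalizer (V : Set G) with hN
  let φ : N →* MulAut V := V.normalizerMonoidHom
  have hφ : ∀ (g : N) (v : V), ((φ g v : V) : G) = g * v * (g : G)⁻¹ := fun g v => rfl
  have hcardR : Nat.card (X.subgroupOf N) = r := by
    rw [Nat.card_congr (Subgroup.subgroupOfEquivOfLe hXV).toEquiv, hX]
  -- a nontrivial element of the centre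
  obtain ⟨z, hz, hz1⟩ : ∃ z ∈ Q ⊓ Subgroup.centralizer (Q : Set G), z ≠ 1 := by
    have h1 : Nat.card (Subgroup.center Q) = q := hQ.2
    have h2 : Nontrivial (Subgroup.center Q) := by
      rw [← Finite.one_lt_card_iff_nontrivial, h1]
      exact hq.one_lt
    obtain ⟨⟨z, hz⟩, hz1⟩ := exists_ne (1 : Subgroup.center Q)
    refine ⟨z, (Cfsg.Agent.OddOrderLocal.ExtraspecialCycle.center_mem_iff Q z).1 hz, ?_⟩
    intro h
    exact hz1 (Subtype.ext (Subtype.ext h))
  obtain ⟨v, hv1, hv⟩ := Cfsg.Agent.H446.ExtraAct.exists_fixed (p := p) (q := q) hpq (V := V)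
    (fun v => Subtype.ext (hV.2 v v.2)) φ (Q.subgroupOf N) (X.subgroupOf N)
    (Cfsg.Agent.H446.ExtraAct.isExtraspecial_of_equiv (Subgroup.subgroupOfEquivOfLe hQV).symm hQ)
    n (by rw [Nat.card_congr (Subgroup.subgroupOfEquivOfLe hQV).toEquiv, hcard])
    (by
      intro x hx
      rw [Subgroup.mem_normalizer_iff]
      intro h
      rw [Subgroup.mem_subgroupOf, Subgroup.mem_subgroupOf]
      exact (Subgroup.mem_normalizer_iff.1 (hXQ hx)) (h : G))
    (isCyclic_of_prime_card hcardR)
    (by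
      rw [hcardR]
      exact (Nat.coprime_primes hr hq).2 (Ne.symm hqr))
    (by
      rw [hcardR]
      intro h
      exact hpr ((Nat.prime_dvd_prime_iff_eq hp hr).1 h))
    (by
      intro x hx hx1
      have hx1' : (x : G) ≠ 1 := fun h => hx1 (Subtype.ext h)
      ext y
      constructor
      · rintro ⟨hy, hyx⟩
        refine ⟨hy, ?_⟩
        have h1 : (y : G) ∈ Q ⊓ Subgroup.centralizer (X : Set G) := by
          refine ⟨hy, hXc x hx hx1' y ?_⟩
          exact congrArg Subtype.val (Subgroup.mem_centralizer_singleton_iff.1 hyx)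
        rw [hCQ] at h1
        refine Subgroup.mem_centralizer_iff.2 ?_
        intro g hg
        exact Subtype.ext (Subgroup.mem_centralizer_iff.1 h1.2 g hg)
      · rintro ⟨hy, hyQ⟩
        refine ⟨hy, ?_⟩
        have h1 : (y : G) ∈ Q ⊓ Subgroup.centralizer (Q : Set G) := by
          refine ⟨hy, Subgroup.mem_centralizer_iff.2 ?_⟩
          intro g hg
          exact congrArg Subtype.val (Subgroup.mem_centralizer_iff.1 hyQ ⟨g, hQV hg⟩ hg)
        rw [← hCQ] at h1
        refine Subgroup.mem_centralizer_singleton_iff.2 ?_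
        exact Subtype.ext (Subgroup.mem_centralizer_iff.1 h1.2 x hx).symm)
    ⟨z, hQV hz.1⟩
    (by
      refine ⟨hz.1, Subgroup.mem_centralizer_iff.2 ?_⟩
      intro g hg
      exact Subtype.ext (Subgroup.mem_centralizer_iff.1 hz.2 g hg))
    (by
      intro h
      have h1 : z ∈ (X ⊔ Q) ⊓ Subgroup.centralizer (V : Set G) := by
        refine ⟨(le_sup_right : Q ≤ X ⊔ Q) hz.1, Subgroup.mem_centralizer_iff.2 ?_⟩
        intro v hv
        have h2 : z * v * z⁻¹ = v := by
          have h3 := hφ ⟨z, hQV hz.1⟩ ⟨v, hv⟩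
          rw [h] at h3
          exact h3.symm
        calc v * z = z * v * z⁻¹ * z := by rw [h2]
          _ = z * v := by group
      rw [hfaith] at h1
      exact hz1 h1)
    (by rw [hcardR]; exact hne)
  have hv2 : (v : G) ∈ V ⊓ Subgroup.centralizer (X : Set G) := by
    refine ⟨v.2, Subgroup.mem_centralizer_iff.2 ?_⟩
    intro x hx
    have h3 := hφ ⟨x, hXV hx⟩ v
    rw [hv ⟨x, hXV hx⟩ hx] at h3
    calc x * v = x * v * x⁻¹ * x := by group
      _ = v * x := by rw [← h3]
  rw [hCV] at hv2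
  exact hv1 (Subtype.ext hv2)

end Cfsg.Agent.S3764
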