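import Cfsg.Statements.S3766
import Cfsg.Agent.Lib.Cores
set_option linter.all false

set_option autoImplicit false
open Cfsg

namespace Cfsg.Agent.S3766

/-- `V < U` is a chief factor of `G`. -/
def Chief {G : Type*} [Group G] (U V : Subgroup G) : Prop :=
  U.Normal ∧ V.Normal ∧ V < U ∧ ∀ W : Subgroup G, W.Normal → V ≤ W → W ≤ U → W = V ∨ W = U

/-- A normal nilpotent subgroup centralizes every chief factor. -/
theorem commutator_le_of_nilpotent {G : Type*} [Group G] (F : Subgroup G) (hF : F.Normal)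
    (hn : Group.IsNilpotent F) {U V : Subgroup G} (h : Chief U V) : ⁅U, F⁆ ≤ V := by
  obtain ⟨hU, hV, hlt, hch⟩ := h
  have hlcs : ∀ n, (F.lowerCentralSeries n).Normal := by
    intro n
    induction n with
    | zero => exact hF
    | succ n ih =>
      rw [Subgroup.lowerCentralSeries_succ]
      infer_instance
  rcases hch (V ⊔ ⁅U, F⁆) inferInstance le_sup_left
    (sup_le hlt.le (Subgroup.commutator_le_left U F)) with h1 | h1
  · rw [← h1]
    exact le_sup_right
  · exfalso
    have h2 : ∀ n, U ≤ V ⊔ F.lowerCentralSeries n := by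
      intro n
      induction n with
      | zero =>
        rw [← h1]
        exact sup_le_sup_left (Subgroup.commutator_le_right U F) V
      | succ n ih =>
        have hn1 := hlcs (n + 1)
        have hn2 := hlcs n
        calc U = V ⊔ ⁅U, F⁆ := h1.symm
          _ ≤ V ⊔ F.lowerCentralSeries (n + 1) := by
            apply sup_le le_sup_left
            refine (Subgroup.commutator_mono ih le_rfl).trans ?_
            rw [Cfsg.Agent.Lib.Cores.sup_commutator_le_iff]
            exact ⟨(Subgroup.commutator_le_left V F).trans le_sup_left, le_sup_right⟩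
    obtain ⟨n, hn⟩ := (Subgroup.isNilpotent_iff_lowerCentralSeries F).1 hn
    have h3 := h2 n
    rw [hn, sup_bot_eq] at h3
    exact hlt.not_ge h3

/-- The iterated commutator `⁅⁅U, E⁆, E, …⁆`. -/
def it {G : Type*} [Group G] (E : Subgroup G) : ℕ → Subgroup G → Subgroup G
  | 0, U => U
  | n + 1, U => it E n ⁅U, E⁆

theorem it_mono {G : Type*} [Group G] (E : Subgroup G) (n : ℕ) : Monotone (it E n) := by
  induction n with
  | zero => exact fun _ _ h => h
  | succ n ih => exact fun U V h => ih (Subgroup.commutator_mono h le_rfl)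

theorem lcs_eq_it {G : Type*} [Group G] (E : Subgroup G) (n k : ℕ) :
    E.lowerCentralSeries (k + n) = it E n (E.lowerCentralSeries k) := by
  induction n generalizing k with
  | zero => rfl
  | succ n ih =>
    have : k + (n + 1) = (k + 1) + n := by ring
    rw [this, ih]
    rfl

theorem exists_it_eq_bot {G : Type*} [Group G] [Finite G] (F E : Subgroup G)
    (h : ∀ U V : Subgroup G, Chief U V → U ≤ F → ⁅U, E⁆ ≤ V) (c : ℕ) :
    ∀ U : Subgroup G, Nat.card U = c → U.Normal → U ≤ F → ∃ n, it E n U = ⊥ := by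
  induction c using Nat.strong_induction_on with
  | _ c ih =>
    intro U hUc hU hUF
    by_cases hb : U = ⊥
    · exact ⟨0, hb⟩
    obtain ⟨V, hV⟩ : ∃ V : Subgroup G, Maximal (fun V : Subgroup G => V.Normal ∧ V < U) V :=
      (Set.toFinite {V : Subgroup G | V.Normal ∧ V < U}).exists_maximal
        ⟨⊥, inferInstance, bot_lt_iff_ne_bot.2 hb⟩
    have hch : Chief U V := by
      refine ⟨hU, hV.prop.1, hV.prop.2, ?_⟩
      intro W hW hVW hWU
      by_cases hWU' : W = U
      · exact Or.inr hWU'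
      · left
        exact le_antisymm (hV.le_of_ge ⟨hW, lt_of_le_of_ne hWU hWU'⟩ hVW) hVW
    obtain ⟨n, hn⟩ := ih (Nat.card V) (by
      rw [← hUc]
      exact Set.Finite.card_lt_card (Set.toFinite _) hV.prop.2) V rfl hV.prop.1
        (hV.prop.2.le.trans hUF)
    refine ⟨n + 1, ?_⟩
    rw [eq_bot_iff, ← hn]
    exact it_mono E n (h U V hch hUF)

theorem le_of_commutator_le {G : Type*} [Group G] [Finite G] (N F E : Subgroup G)
    (hF : ∀ M : Subgroup G, M.Normal → M ≤ N → Group.IsNilpotent M → M ≤ F)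
    (hE : E.Normal) (hEN : E ≤ N) (hc : ⁅E, E⁆ ≤ F)
    (h : ∀ U V : Subgroup G, Chief U V → U ≤ F → ⁅U, E⁆ ≤ V) : E ≤ F := by
  apply hF E hE hEN
  obtain ⟨n, hn⟩ := exists_it_eq_bot F E h _ ⁅E, E⁆ rfl inferInstance hc
  rw [Subgroup.isNilpotent_iff_lowerCentralSeries]
  refine ⟨1 + n, ?_⟩
  rw [lcs_eq_it]
  exact hn

/-- Iterated derived subgroups of a subgroup. -/
def ders {G : Type*} [Group G] (C : Subgroup G) : ℕ → Subgroup G
  | 0 => C
  | n + 1 => ⁅ders C n, ders C n⁆

theorem ders_normal {G : Type*} [Group G] {C : Subgroup G} (hC : C.Normal) (n : ℕ) :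
    (ders C n).Normal := by
  induction n with
  | zero => exact hC
  | succ n ih =>
    rw [ders]
    infer_instance

theorem ders_le {G : Type*} [Group G] {C : Subgroup G} (hC : C.Normal) (n : ℕ) :
    ders C n ≤ C := by
  induction n with
  | zero => exact le_rfl
  | succ n ih =>
    have := ders_normal hC n
    exact (Subgroup.commutator_le_left _ _).trans ih

theorem ders_le_derivedSeries {G : Type*} [Group G] (C : Subgroup G) (n : ℕ) :
    ders C n ≤ derivedSeries G n := by
  induction n with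
  | zero => exact le_top
  | succ n ih => exact Subgroup.commutator_mono ih ih

theorem le_fitting_of_le {G : Type*} [Group G] [Finite G] (hG : Group.IsSolvable G)
    (N F C : Subgroup G)
    (hF : ∀ M : Subgroup G, M.Normal → M ≤ N → Group.IsNilpotent M → M ≤ F)
    (hC : C.Normal) (hCN : C ≤ N)
    (h : ∀ U V : Subgroup G, Chief U V → U ≤ F → ⁅U, C⁆ ≤ V) : C ≤ F := by
  by_contra hcon
  have key : ∀ n, ¬ ders C n ≤ F := by
    intro n
    induction n with
    | zero => exact hcon
    | succ n ih =>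
      intro hle
      apply ih
      exact le_of_commutator_le N F (ders C n) hF (ders_normal hC n) ((ders_le hC n).trans hCN) hle
        (fun U V hUV hUF => (Subgroup.commutator_mono le_rfl (ders_le hC n)).trans (h U V hUV hUF))
  obtain ⟨n, hn⟩ := hG.solvable
  apply key n
  refine (ders_le_derivedSeries C n).trans ?_
  rw [hn]
  exact bot_le

/-- The elements of `N` centralizing all chief factors below `F`. -/
def cent {G : Type*} [Group G] (N F : Subgroup G) : Subgroup G where
  carrier := {x | x ∈ N ∧ ∀ U V : Subgroup G, Chief U V → U ≤ F → ∀ u ∈ U, u * x * u⁻¹ * x⁻¹ ∈ V}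
  one_mem' := by
    refine ⟨N.one_mem, ?_⟩
    intro U V _ _ u _
    simp
  mul_mem' := by
    rintro x y ⟨hx, hx'⟩ ⟨hy, hy'⟩
    refine ⟨N.mul_mem hx hy, ?_⟩
    intro U V hUV hUF u hu
    have h1 := hx' U V hUV hUF u hu
    have h2 := hUV.2.1.conj_mem _ (hy' U V hUV hUF u hu) x
    have h3 := V.mul_mem h1 h2
    convert h3 using 1
    group
  inv_mem' := by
    rintro x ⟨hx, hx'⟩
    refine ⟨N.inv_mem hx, ?_⟩
    intro U V hUV hUF u hu
    have h1 := V.inv_mem (hx' U V hUV hUF u hu)
    have h2 := hUV.2.1.conj_mem _ h1 x⁻¹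
    convert h2 using 1
    group

theorem mem_cent {G : Type*} [Group G] {N F : Subgroup G} {x : G} : x ∈ cent N F ↔
    x ∈ N ∧ ∀ U V : Subgroup G, Chief U V → U ≤ F → ∀ u ∈ U, u * x * u⁻¹ * x⁻¹ ∈ V := Iff.rfl

theorem cent_normal {G : Type*} [Group G] (N F : Subgroup G) [hN : N.Normal] :
    (cent N F).Normal := by
  constructor
  intro x hx g
  rw [mem_cent] at hx ⊢
  refine ⟨hN.conj_mem x hx.1 g, ?_⟩
  intro U V hUV hUF u hu
  have h1 : g⁻¹ * u * g⁻¹⁻¹ ∈ U := hUV.1.conj_mem u hu g⁻¹
  have h2 := hUV.2.1.conj_mem _ (hx.2 U V hUV hUF _ h1) g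
  convert h2 using 1
  group


/-- Let G be a finite solvable group and N a normal subgroup of G. Call a pair V < U of normal subgroups of G a chief factor of G when no normal subgroup of G lies strictly between them; an element g centralizes the chief factor U/V when u g u⁻¹ g⁻¹ ∈ V for all u ∈ U. Then an element of G lies in the Fitting subgroup F(N) if and only if it lies in N and centralizes every chief factor of G; and also if and only if it lies in N and centralizes every chief factor U/V of G with U ≤ F(N). -/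
theorem result {G : Type*} [Group G] [Finite G] (hG : Group.IsSolvable G) (N : Subgroup G) [N.Normal] (g : G) : (g ∈ (Cfsg.fittingSubgroup ↥N).map N.subtype ↔ g ∈ N ∧ ∀ U V : Subgroup G, (U.Normal ∧ V.Normal ∧ V < U ∧ ∀ W : Subgroup G, W.Normal → V ≤ W → W ≤ U → W = V ∨ W = U) → ∀ u ∈ U, u * g * u⁻¹ * g⁻¹ ∈ V) ∧ (g ∈ (Cfsg.fittingSubgroup ↥N).map N.subtype ↔ g ∈ N ∧ ∀ U V : Subgroup G, (U.Normal ∧ V.Normal ∧ V < U ∧ ∀ W : Subgroup G, W.Normal → V ≤ W → W ≤ U → W = V ∨ W = U) → U ≤ (Cfsg.fittingSubgroup ↥N).map N.subtype → ∀ u ∈ U, u * g * u⁻¹ * g⁻¹ ∈ V) := by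
  set F := (Cfsg.fittingSubgroup ↥N).map N.subtype with hFdef
  have hFeq : F = N ⊓ Cfsg.fittingSubgroup G :=
    Cfsg.Agent.Lib.Cores.map_subtype_fittingSubgroup inferInstance
  have hFn : F.Normal := by
    rw [hFeq]
    infer_instance
  have hFN : F ≤ N := Subgroup.map_subtype_le _
  have hFnil : Group.IsNilpotent F := by
    rw [hFdef, Cfsg.Agent.Lib.Cores.isNilpotent_map_equiv N.subtype_injective]
    exact Cfsg.Agent.Lib.Cores.fittingSubgroup_isNilpotent
  have hFmax : ∀ M : Subgroup G, M.Normal → M ≤ N → Group.IsNilpotent M → M ≤ F := by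
    intro M hM hMN hMnil
    rw [hFeq]
    exact le_inf hMN (Cfsg.Agent.Lib.Cores.le_fittingSubgroup hM hMnil)
  have h1 : g ∈ F → ∀ U V : Subgroup G, Chief U V → ∀ u ∈ U, u * g * u⁻¹ * g⁻¹ ∈ V := by
    intro hg U V hUV u hu
    exact commutator_le_of_nilpotent F hFn hFnil hUV (Subgroup.commutator_mem_commutator hu hg)
  have h2 : g ∈ N → (∀ U V : Subgroup G, Chief U V → U ≤ F → ∀ u ∈ U, u * g * u⁻¹ * g⁻¹ ∈ V) →
      g ∈ F := by
    intro hgN hg
    refine le_fitting_of_le hG N F (cent N F) hFmax (cent_normal N F) (fun x hx => hx.1) ?_ ⟨hgN, hg⟩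
    intro U V hUV hUF
    rw [Subgroup.commutator_le]
    intro u hu x hx
    exact hx.2 U V hUV hUF u hu
  refine ⟨⟨fun hg => ⟨hFN hg, h1 hg⟩, fun hg => h2 hg.1 fun U V hUV _ => hg.2 U V hUV⟩,
    ⟨fun hg => ⟨hFN hg, fun U V hUV _ => h1 hg U V hUV⟩, fun hg => h2 hg.1 hg.2⟩⟩

end Cfsg.Agent.S3766
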