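import Mathlib
import Cfsg.Prelude.Def_Transfer
import Cfsg.Agent.OddOrderLocal.FrobRep
import Cfsg.Statements.S3770
import Cfsg.Agent.Solvable.FrobeniusTheorem
set_option linter.all false

-- part: OddOrderLocal/Sec3_5
section
set_option autoImplicit false
namespace Cfsg.Agent.OddOrderLocal.Sec3_5

open Module
open scoped commutatorElement

theorem comm_of_finrank_invariants_le_one {F : Type*} [Field F] {K : Type*} [Group K] [Finite K]
    {R : Type*} [Group R] [Finite R] {V : Type*} [AddCommGroup V] [Module F V]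
    [FiniteDimensional F V] (hK : (Nat.card K : F) ≠ 0)
    (ρ : Representation F K V) (τ : Representation F R V) (σ : R →* MulAut K)
    (hcompat : ∀ r k v, τ r (ρ k v) = ρ (σ r k) (τ r v))
    (hσ : ∀ r : R, r ≠ 1 → ∀ k, σ r k = k → k = 1)
    (hdim : finrank F τ.invariants ≤ 1) :
    ∀ (k k' : K) (v : V), ρ k (ρ k' v) = ρ k' (ρ k v) := by
  classical
  have : Fintype K := Fintype.ofFinite K
  -- the norm map
  let S : V →ₗ[F] V := ∑ k : K, ρ k
  have hS : ∀ v, S v = ∑ k : K, ρ k v := fun v => by simp [S, LinearMap.sum_apply]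
  have hρS : ∀ k v, ρ k (S v) = S v := by
    intro k v
    rw [hS, map_sum]
    refine Fintype.sum_bijective (fun x => k * x) (Group.mulLeft_bijective k) _ _ fun x => ?_
    rw [map_mul, Module.End.mul_apply]
  have hSρ : ∀ k v, S (ρ k v) = S v := by
    intro k v
    rw [hS, hS]
    refine Fintype.sum_bijective (fun x => x * k) (Group.mulRight_bijective k) _ _ fun x => ?_
    rw [map_mul, Module.End.mul_apply]
  have hSτ : ∀ r v, S (τ r v) = τ r (S v) := by
    intro r v
    rw [hS, hS, map_sum]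
    symm
    refine Fintype.sum_bijective (fun x => σ r x) (σ r).bijective _ _ fun x => ?_
    rw [hcompat]
  have hSS : ∀ v, S (S v) = (Nat.card K : F) • S v := by
    intro v
    rw [hS (S v)]
    simp only [hρS, Finset.sum_const, Finset.card_univ, Nat.card_eq_fintype_card]
    rw [Nat.cast_smul_eq_nsmul]
  let W : Submodule F V := LinearMap.ker S
  have hWρ : ∀ k, ∀ w ∈ W, ρ k w ∈ W := by
    intro k w hw
    rw [LinearMap.mem_ker] at hw ⊢
    rw [hSρ, hw]
  have hWτ : ∀ r, ∀ w ∈ W, τ r w ∈ W := by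
    intro r w hw
    rw [LinearMap.mem_ker] at hw ⊢
    rw [hSτ, hw, map_zero]
  let ρ' : Representation F K W :=
    { toFun := fun k => (ρ k).restrict (hWρ k)
      map_one' := by
        ext w
        simp
      map_mul' := by
        intro a b
        ext w
        simp }
  let τ' : Representation F R W :=
    { toFun := fun k => (τ k).restrict (hWτ k)
      map_one' := by
        ext w
        simp
      map_mul' := by
        intro a b
        ext w
        simp }
  have hρ' : ∀ k (w : W), ((ρ' k w : W) : V) = ρ k w := fun k w => rfl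
  have hτ' : ∀ k (w : W), ((τ' k w : W) : V) = τ k w := fun k w => rfl
  have hc' : ∀ r k v, τ' r (ρ' k v) = ρ' (σ r k) (τ' r v) := by
    intro r k v
    apply Subtype.ext
    rw [hτ', hρ', hρ', hτ', hcompat]
  have hfix' : ∀ v : W, (∀ k : K, ρ' k v = v) → v = 0 := by
    intro v hv
    have h1 : S v = (Nat.card K : F) • (v : V) := by
      rw [hS, Nat.card_eq_fintype_card, Nat.cast_smul_eq_nsmul, ← Finset.card_univ,
        ← Finset.sum_const]
      exact Finset.sum_congr rfl fun k _ => by rw [← hρ', hv]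
    have h2 : S v = 0 := v.2
    rw [h2] at h1
    exact Subtype.ext ((smul_eq_zero.mp h1.symm).resolve_left hK)
  obtain ⟨hA, hB⟩ := Cfsg.Agent.OddOrderLocal.FrobRep.finrank_eq hK ρ' τ' σ hc' hfix' hσ
  have hle : finrank F τ'.invariants ≤ finrank F τ.invariants := by
    let f : τ'.invariants →ₗ[F] τ.invariants :=
      (W.subtype ∘ₗ τ'.invariants.subtype).codRestrict τ.invariants (by
        rintro ⟨w, hw⟩
        rw [Representation.mem_invariants] at hw ⊢
        intro r
        have := congrArg Subtype.val (hw r)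
        exact this)
    apply LinearMap.finrank_le_finrank_of_injective (f := f)
    intro a b hab
    have : ((a : W) : V) = ((b : W) : V) := congrArg (fun x : τ.invariants => (x : V)) hab
    exact Subtype.ext (Subtype.ext this)
  have hW : ∀ (k k' : K) (w : V), w ∈ W → ρ k (ρ k' w) = ρ k' (ρ k w) := by
    intro k k' w hw
    rcases Nat.le_one_iff_eq_zero_or_eq_one.mp (hle.trans hdim) with h0 | h1
    · rw [h0, mul_zero] at hA
      have h2 : (⟨w, hw⟩ : W) = 0 := by
        have := Module.finrank_zero_iff.mp hA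
        exact Subsingleton.elim _ _
      have h3 : w = 0 := congrArg Subtype.val h2
      rw [h3, map_zero, map_zero, map_zero]
    · rw [h1, mul_one] at hA
      exact congrArg Subtype.val (hB hA k k' ⟨w, hw⟩)
  intro k k' v
  have hdec : v = (Nat.card K : F)⁻¹ • S v + (v - (Nat.card K : F)⁻¹ • S v) := by abel
  have hmem : v - (Nat.card K : F)⁻¹ • S v ∈ W := by
    rw [LinearMap.mem_ker, map_sub, map_smul, hSS, smul_smul, inv_mul_cancel₀ hK, one_smul,
      sub_self]
  rw [hdec]
  simp only [map_add, map_smul, hρS]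
  rw [hW k k' _ hmem]

/-- Additive form over `ZMod q`. -/
theorem commute_of_card_fixed_le_add {A : Type*} [AddCommGroup A] [Finite A] {K : Type*} [Group K]
    [Finite K] {R : Type*} [Group R] [Finite R] {q : ℕ} (hq : q.Prime) [Module (ZMod q) A]
    (hqK : ¬ q ∣ Nat.card K) (ρ : K →* AddMonoid.End A) (τ : R →* AddMonoid.End A) (σ : R →* MulAut K)
    (hcompat : ∀ r k v, τ r (ρ k v) = ρ (σ r k) (τ r v))
    (hσ : ∀ r : R, r ≠ 1 → ∀ k, σ r k = k → k = 1)
    (hfix : Nat.card {v : A // ∀ r : R, τ r v = v} ≤ q) :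
    ∀ (k k' : K) (v : A), ρ k (ρ k' v) = ρ k' (ρ k v) := by
  classical
  have : Fact q.Prime := ⟨hq⟩
  let ρ' : Representation (ZMod q) K A :=
    { toFun := fun k => AddMonoidHom.toZModLinearMap q (ρ k)
      map_one' := by
        ext v
        change ρ 1 v = v
        rw [map_one, AddMonoid.End.coe_one, id_eq]
      map_mul' := by
        intro a b
        ext v
        change ρ (a * b) v = ρ a (ρ b v)
        rw [map_mul, AddMonoid.End.coe_mul, Function.comp_apply] }
  let τ' : Representation (ZMod q) R A :=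
    { toFun := fun k => AddMonoidHom.toZModLinearMap q (τ k)
      map_one' := by
        ext v
        change τ 1 v = v
        rw [map_one, AddMonoid.End.coe_one, id_eq]
      map_mul' := by
        intro a b
        ext v
        change τ (a * b) v = τ a (τ b v)
        rw [map_mul, AddMonoid.End.coe_mul, Function.comp_apply] }
  have hK0 : (Nat.card K : ZMod q) ≠ 0 := by
    rwa [Ne, ZMod.natCast_eq_zero_iff]
  have hinv : Nat.card τ'.invariants = Nat.card {v : A // ∀ r : R, τ r v = v} := rfl
  have hdim : finrank (ZMod q) τ'.invariants ≤ 1 := by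
    have h1 := Module.natCard_eq_pow_finrank (K := ZMod q) (V := τ'.invariants)
    rw [hinv, Nat.card_zmod] at h1
    by_contra hlt
    push Not at hlt
    have h2 : q ^ 2 ≤ q ^ finrank (ZMod q) τ'.invariants := Nat.pow_le_pow_right hq.pos hlt
    have h3 : q < q ^ 2 := by
      rw [sq]
      exact lt_mul_of_one_lt_left hq.pos hq.one_lt
    omega
  exact comm_of_finrank_invariants_le_one hK0 ρ' τ' σ hcompat hσ hdim

/-- Group form, with actions given by homomorphisms into the automorphism group. -/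
theorem commute_of_card_fixed_le {V : Type*} [CommGroup V] [Finite V] {K : Type*} [Group K]
    [Finite K] {R : Type*} [Group R] [Finite R] {q : ℕ} (hq : q.Prime) (hVq : ∀ v : V, v ^ q = 1)
    (hqK : ¬ q ∣ Nat.card K) (ρ : K →* MulAut V) (τ : R →* MulAut V) (σ : R →* MulAut K)
    (hcompat : ∀ r k v, τ r (ρ k v) = ρ (σ r k) (τ r v))
    (hσ : ∀ r : R, r ≠ 1 → ∀ k, σ r k = k → k = 1)
    (hfix : Nat.card {v : V // ∀ r : R, τ r v = v} ≤ q) :
    ∀ (k k' : K) (v : V), ρ k (ρ k' v) = ρ k' (ρ k v) := by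
  let _ : Module (ZMod q) (Additive V) :=
    AddCommGroup.zmodModule (n := q) (fun v => by
      apply Additive.toMul.injective
      rw [toMul_nsmul, hVq]
      rfl)
  let ρ' : K →* AddMonoid.End (Additive V) :=
    { toFun := fun k => MonoidHom.toAdditive (ρ k).toMonoidHom
      map_one' := by
        ext v
        change ρ 1 v.toMul = v.toMul
        rw [map_one, MulAut.one_apply]
      map_mul' := by
        intro a b
        ext v
        change ρ (a * b) v.toMul = ρ a (ρ b v.toMul)
        rw [map_mul, MulAut.mul_apply] }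
  let τ' : R →* AddMonoid.End (Additive V) :=
    { toFun := fun k => MonoidHom.toAdditive (τ k).toMonoidHom
      map_one' := by
        ext v
        change τ 1 v.toMul = v.toMul
        rw [map_one, MulAut.one_apply]
      map_mul' := by
        intro a b
        ext v
        change τ (a * b) v.toMul = τ a (τ b v.toMul)
        rw [map_mul, MulAut.mul_apply] }
  intro k k' v
  exact commute_of_card_fixed_le_add (A := Additive V) hq hqK ρ' τ' σ
    (fun r k v => hcompat r k v) hσ hfix k k' (Additive.ofMul v)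

/-- **B&G Theorem 3.5**, finite group form: `R` acts on `K` without fixed points, `V` is an
elementary abelian `q`-group normalized by `K` and `R`, `q ∤ |K|` and `|C_V(R)| ≤ q`.  Then
`[K, K]` centralizes `V`. -/
theorem commutator_le_centralizer {G : Type*} [Group G] [Finite G] {q : ℕ} (hq : q.Prime)
    (V K R : Subgroup G) (hV : Cfsg.IsElementaryAbelian q V)
    (hKV : K ≤ Subgroup.normalizer (V : Set G)) (hRV : R ≤ Subgroup.normalizer (V : Set G))
    (hRK : R ≤ Subgroup.normalizer (K : Set G))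
    (hfpf : ∀ r ∈ R, r ≠ 1 → K ⊓ Subgroup.centralizer ({r} : Set G) = ⊥)
    (hqK : ¬ q ∣ Nat.card K)
    (hfix : Nat.card ↥(V ⊓ Subgroup.centralizer (R : Set G)) ≤ q) :
    ⁅K, K⁆ ≤ Subgroup.centralizer (V : Set G) := by
  classical
  obtain ⟨hVc, hVq⟩ := hV
  let _ : CommGroup V := { (inferInstance : Group V) with mul_comm := hVc.is_comm.comm }
  let ρ : K →* MulAut V := V.normalizerMonoidHom.comp (Subgroup.inclusion hKV)
  let τ : R →* MulAut V := V.normalizerMonoidHom.comp (Subgroup.inclusion hRV)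
  let σ : R →* MulAut K := K.normalizerMonoidHom.comp (Subgroup.inclusion hRK)
  have hρ : ∀ (k : K) (v : V), ((ρ k v : V) : G) = k * v * (k : G)⁻¹ := fun k v => rfl
  have hτ : ∀ (k : R) (v : V), ((τ k v : V) : G) = k * v * (k : G)⁻¹ := fun k v => rfl
  have hσ : ∀ (k : R) (v : K), ((σ k v : K) : G) = k * v * (k : G)⁻¹ := fun k v => rfl
  have hcompat : ∀ r k v, τ r (ρ k v) = ρ (σ r k) (τ r v) := by
    intro r k v
    apply Subtype.ext
    rw [hτ, hρ, hρ, hσ, hτ]
    group
  have hfp : ∀ r : R, r ≠ 1 → ∀ k, σ r k = k → k = 1 := by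
    intro r hr k hk
    have h1 : (r : G) * k * (r : G)⁻¹ = k := by rw [← hσ, hk]
    have h2 : (k : G) ∈ K ⊓ Subgroup.centralizer ({(r : G)} : Set G) := by
      refine ⟨k.2, Subgroup.mem_centralizer_singleton_iff.mpr ?_⟩
      exact (mul_inv_eq_iff_eq_mul.mp h1).symm
    rw [hfpf r r.2 (fun h => hr (Subtype.ext h))] at h2
    exact Subtype.ext (Subgroup.mem_bot.mp h2)
  have hcard : Nat.card {v : V // ∀ r : R, τ r v = v} ≤ q := by
    refine le_trans (le_of_eq ?_) hfix
    refine Nat.card_congr
      { toFun := fun v => ⟨v.1.1, v.1.2, fun r hr => by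
          have h1 : ((τ ⟨r, hr⟩ v.1 : V) : G) = v.1 := by rw [v.2]
          rw [hτ] at h1
          exact mul_inv_eq_iff_eq_mul.mp h1⟩
        invFun := fun v => ⟨⟨v.1, v.2.1⟩, fun r => by
          apply Subtype.ext
          rw [hτ]
          exact mul_inv_eq_iff_eq_mul.mpr (v.2.2 r r.2)⟩
        left_inv := fun v => rfl
        right_inv := fun v => rfl }
  have hcomm := commute_of_card_fixed_le hq
    (fun v => Subtype.ext (by rw [Subgroup.coe_pow]; exact hVq v v.2)) hqK ρ τ σ hcompat hfp hcard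
  rw [Subgroup.commutator_le]
  intro a ha b hb
  rw [Subgroup.mem_centralizer_iff]
  intro v hv
  have h1 : ∀ v : V, (a * b) * (v : G) * (a * b)⁻¹ = (b * a) * (v : G) * (b * a)⁻¹ := by
    intro v
    have h2 := congrArg Subtype.val (hcomm ⟨a, ha⟩ ⟨b, hb⟩ v)
    rw [hρ, hρ, hρ, hρ] at h2
    simpa [mul_assoc] using h2
  -- apply to `v' = (ba)⁻¹ v (ba)`
  have hba : (b * a)⁻¹ ∈ Subgroup.normalizer (V : Set G) :=
    inv_mem (mul_mem (hKV hb) (hKV ha))
  have hv' : (b * a)⁻¹ * v * (b * a)⁻¹⁻¹ ∈ V := (Subgroup.mem_normalizer_iff.mp hba v).mp hv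
  have h3 := h1 ⟨_, hv'⟩
  simp only [inv_inv] at h3
  have h4 : a * b * ((b * a)⁻¹ * v * (b * a)) * (a * b)⁻¹ = v := by
    rw [h3]; group
  have h5 : ⁅a, b⁆ * v * ⁅a, b⁆⁻¹ = v := by
    rw [← h4]
    conv_lhs => rw [h4]
    rw [commutatorElement_def]
    calc a * b * a⁻¹ * b⁻¹ * v * (a * b * a⁻¹ * b⁻¹)⁻¹
        = a * b * ((b * a)⁻¹ * v * (b * a)) * (a * b)⁻¹ := by group
      _ = _ := rfl
  exact (mul_inv_eq_iff_eq_mul.mp h5).symm

/-- A group `R` of prime order with `C_K(R) = 1` acts on `K` without fixed points. -/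
theorem fpf_of_prime {G : Type*} [Group G] (K R : Subgroup G) (hR : (Nat.card R).Prime)
    (hKR : K ⊓ Subgroup.centralizer (R : Set G) = ⊥) :
    ∀ r ∈ R, r ≠ 1 → K ⊓ Subgroup.centralizer ({r} : Set G) = ⊥ := by
  intro r hr hr1
  rw [eq_bot_iff, ← hKR]
  rintro k ⟨hk, hkr⟩
  refine ⟨hk, ?_⟩
  replace hkr := Subgroup.mem_centralizer_singleton_iff.mp hkr
  rintro x hx
  have : Fact (Nat.card R).Prime := ⟨hR⟩
  have h1 : (⟨r, hr⟩ : R) ≠ 1 := fun h => hr1 (congrArg Subtype.val h)
  obtain ⟨n, hn⟩ := Subgroup.mem_zpowers_iff.mp (mem_zpowers_of_prime_card rfl h1 (g' := ⟨x, hx⟩))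
  have h2 : r ^ n = x := congrArg Subtype.val hn
  rw [← h2]
  have h3 : Commute r k := hkr.symm
  exact h3.zpow_left n

/-- **B&G Theorem 3.5** with `R` of prime order: `[K, K]` centralizes `V`. -/
theorem commutator_le_centralizer_of_prime {G : Type*} [Group G] [Finite G] {q : ℕ} (hq : q.Prime)
    (V K R : Subgroup G) (hV : Cfsg.IsElementaryAbelian q V)
    (hKV : K ≤ Subgroup.normalizer (V : Set G)) (hRV : R ≤ Subgroup.normalizer (V : Set G))
    (hRK : R ≤ Subgroup.normalizer (K : Set G)) (hR : (Nat.card R).Prime)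
    (hKR : K ⊓ Subgroup.centralizer (R : Set G) = ⊥) (hqK : ¬ q ∣ Nat.card K)
    (hfix : Nat.card ↥(V ⊓ Subgroup.centralizer (R : Set G)) ≤ q) :
    ⁅K, K⁆ ≤ Subgroup.centralizer (V : Set G) :=
  commutator_le_centralizer hq V K R hV hKV hRV hRK (fpf_of_prime K R hR hKR) hqK hfix

end Cfsg.Agent.OddOrderLocal.Sec3_5
end

-- part: S3770
section
set_option autoImplicit false
open Cfsg

namespace Cfsg.Agent.S3770

/-- Let G and V be subgroups of a finite group with G a Frobenius group with complement R of prime order and kernel K, G normalizing V, and V an elementary abelian ℓ-group for a prime ℓ not dividing the order of G. If C_V(R) has order ℓ, then the derived subgroup of K centralizes V. -/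
theorem result {X : Type*} [Group X] [Finite X] (G : Subgroup X) (V : Subgroup X) {ℓ : ℕ} (hℓ : ℓ.Prime) (hV : Cfsg.IsElementaryAbelian ℓ V) (hℓG : ¬ ℓ ∣ Nat.card G) (hGV : G ≤ Subgroup.normalizer (V : Set X)) (R : Subgroup ↥G) (hR : Cfsg.IsFrobeniusComplement R) (hRp : (Nat.card R).Prime) (hCV : Nat.card ↥(V ⊓ Subgroup.centralizer ((R.map G.subtype : Subgroup X) : Set X)) = ℓ) : ⁅Subgroup.closure (Subtype.val '' Cfsg.frobeniusKernel R), Subgroup.closure (Subtype.val '' Cfsg.frobeniusKernel R)⁆ ≤ Subgroup.centralizer (V : Set X) := by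
  obtain ⟨N, hN, hNn, hNc⟩ := Solvable.FrobeniusTheorem.frobenius hR
  have hcl : Subgroup.closure (Subtype.val '' Cfsg.frobeniusKernel R) = N.map G.subtype := by
    rw [← hN]
    have : (Subtype.val '' (N : Set G)) = ((N.map G.subtype : Subgroup X) : Set X) := by
      ext x; simp
    rw [this, Subgroup.closure_eq]
  rw [hcl]
  have hNG : N.map G.subtype ≤ G := Subgroup.map_subtype_le N
  have hRG : R.map G.subtype ≤ G := Subgroup.map_subtype_le R
  refine OddOrderLocal.Sec3_5.commutator_le_centralizer_of_prime hℓ V (N.map G.subtype)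
    (R.map G.subtype) hV (hNG.trans hGV) (hRG.trans hGV) ?_ ?_ ?_ ?_ hCV.le
  · rintro _ ⟨r, hr, rfl⟩
    rw [Subgroup.mem_normalizer_iff]
    intro x
    constructor
    · rintro ⟨n, hn, rfl⟩
      exact ⟨r * n * r⁻¹, hNn.conj_mem n hn r, by simp⟩
    · rintro ⟨n, hn, hx⟩
      refine ⟨r⁻¹ * n * r, by simpa using hNn.conj_mem n hn r⁻¹, ?_⟩
      simp only [Subgroup.coe_subtype, Subgroup.coe_mul, Subgroup.coe_inv] at hx ⊢
      rw [hx]; group
  · rw [Nat.card_congr (Subgroup.equivMapOfInjective R G.subtype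
      (Subgroup.subtype_injective G)).symm.toEquiv]
    exact hRp
  · rw [eq_bot_iff]
    rintro x ⟨⟨n, hn, rfl⟩, hx⟩
    obtain ⟨r, hr, hr1⟩ := R.bot_or_exists_ne_one.resolve_left hR.1
    have h1 : (n : X) * r = r * n := by
      have := (Subgroup.mem_centralizer_iff.1 hx) r ⟨r, hr, rfl⟩
      simpa using this.symm
    have h2 : n ∈ R := by
      refine Solvable.FrobeniusKernel.mem_of_conj_mem hR hr hr1 ?_
      have : n⁻¹ * r * n = r := by
        apply Subtype.ext
        simp only [Subgroup.coe_mul, Subgroup.coe_inv]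
        rw [mul_assoc, ← h1]; group
      rw [this]; exact hr
    have h5 : n ∈ N ⊓ R := ⟨hn, h2⟩
    rw [hNc.disjoint.eq_bot] at h5
    have h6 : n = 1 := Subgroup.mem_bot.1 h5
    rw [h6]; simp
  · intro h
    apply hℓG
    refine h.trans ?_
    exact Subgroup.card_dvd_of_le hNG

end Cfsg.Agent.S3770
end
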