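import Mathlib
import Cfsg.Prelude.Def_Transfer
import Cfsg.Agent.Lib.FrattiniPGroup
import Cfsg.Agent.H447.GaussSum
import Cfsg.Statements.S3772
set_option linter.all false

-- part: H447/FrattiniTwo
section
/-!
# Counting solutions of `x ^ 2 = 1` in a 2-group with Frattini subgroup of order 2
-/

set_option autoImplicit false

open scoped commutatorElement

namespace Cfsg.Agent.H447.FrattiniTwo

open Cfsg.Agent.H447.GaussSum

/-- The nontrivial sign character of a group of order two. -/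
theorem exists_sign {A : Type*} [Group A] (hA : Nat.card A = 2) :
    ∃ f : A →* ℤ, (∀ a, f a = 1 ↔ a = 1) ∧ ∀ a, a ≠ 1 → f a = -1 := by
  classical
  have hfin : Finite A := Nat.finite_of_card_ne_zero (by rw [hA]; norm_num)
  have huniq : ∀ a b : A, a ≠ 1 → b ≠ 1 → a = b := by
    obtain ⟨y, _, hy⟩ := (Nat.card_eq_two_iff' (1 : A)).1 hA
    intro a b ha hb
    rw [hy a ha, hy b hb]
  have hsq : ∀ a : A, a * a = 1 := by
    intro a
    have := pow_card_eq_one' (x := a)
    rw [hA, sq] at this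
    exact this
  refine ⟨{ toFun := fun a => if a = 1 then 1 else -1, map_one' := if_pos rfl, map_mul' := ?_ },
    ?_, ?_⟩
  · intro a b
    show (if a * b = 1 then (1 : ℤ) else -1) = (if a = 1 then 1 else -1) * (if b = 1 then 1 else -1)
    by_cases ha : a = 1
    · rw [ha]; simp
    · by_cases hb : b = 1
      · rw [hb]; simp
      · rw [huniq a b ha hb, hsq b]; simp [hb]
  · intro a
    show (if a = 1 then (1 : ℤ) else -1) = 1 ↔ a = 1
    by_cases ha : a = 1
    · simp [ha]
    · simp [ha]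
  · intro a ha
    show (if a = 1 then (1 : ℤ) else -1) = -1
    rw [if_neg ha]

theorem main {G : Type*} [Group G] [Finite G] (hG : IsPGroup 2 G)
    (hΦ : Nat.card (frattini G) = 2) (d : ℕ) (hd : (frattini G).index = 2 ^ d) :
    ∃ S : ℤ, (2 * (Nat.card {x : G // x ^ 2 = 1} : ℤ) = 2 ^ (d + 1) + S) ∧
      (S = 0 ∨ S ^ 2 = Nat.card G * Nat.card (Subgroup.center G)) ∧
      frattini G ≤ Subgroup.center G ∧ Nat.card G = 2 ^ (d + 1) ∧
      (S = 0 ∨ ¬ (∀ x y : G, x * y = y * x)) := by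
  classical
  have hf2 : Fact (Nat.Prime 2) := ⟨Nat.prime_two⟩
  have := Fintype.ofFinite G
  have hn : (frattini G).Normal := inferInstance
  have hcard : Nat.card G = 2 ^ (d + 1) := by
    rw [← Subgroup.card_mul_index (frattini G), hΦ, hd, pow_succ, mul_comm]
  have hmem : ∀ x ∈ frattini G, x ≠ 1 → ∀ y ∈ frattini G, y ≠ 1 → x = y := by
    intro x hx hx1 y hy hy1
    obtain ⟨w, _, hw⟩ := (Nat.card_eq_two_iff' (1 : frattini G)).1 hΦ
    have h1 := hw ⟨x, hx⟩ (fun h => hx1 (congrArg Subtype.val h))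
    have h2 := hw ⟨y, hy⟩ (fun h => hy1 (congrArg Subtype.val h))
    exact congrArg Subtype.val (h1.trans h2.symm)
  have hZ : frattini G ≤ Subgroup.center G := by
    intro x hx
    rw [Subgroup.mem_center_iff]
    intro g
    by_cases hx1 : x = 1
    · rw [hx1]; simp
    · have h1 : g * x * g⁻¹ ∈ frattini G := hn.conj_mem x hx g
      have h2 : g * x * g⁻¹ ≠ 1 := by
        intro h
        apply hx1
        have : x = g⁻¹ * (g * x * g⁻¹) * g := by group
        rw [this, h]; group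
      have h3 := hmem _ h1 h2 x hx hx1
      rw [mul_inv_eq_iff_eq_mul] at h3
      exact h3
  have hsq : ∀ x : G, x ^ 2 ∈ frattini G := Lib.FrattiniPGroup.pow_mem_frattini hG
  have hexp : ∀ a ∈ frattini G, a ^ 2 = 1 := by
    intro a ha
    have := pow_card_eq_one' (x := (⟨a, ha⟩ : frattini G))
    rw [hΦ] at this
    exact congrArg Subtype.val this
  obtain ⟨lam, hlam1, hlam2⟩ := exists_sign hΦ
  set S : ℤ := ∑ x : G, lam ⟨x ^ 2, hsq x⟩ with hS
  have hcount : 2 * (Nat.card {x : G // x ^ 2 = 1} : ℤ) = 2 ^ (d + 1) + S := by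
    have h1 : ∀ x : G, lam ⟨x ^ 2, hsq x⟩ = 2 * (if x ^ 2 = 1 then 1 else 0) - 1 := by
      intro x
      by_cases hx : x ^ 2 = 1
      · rw [if_pos hx, (hlam1 _).2 (Subtype.ext hx)]; norm_num
      · rw [if_neg hx, hlam2 _ (fun h => hx (congrArg Subtype.val h))]; norm_num
    rw [hS, Finset.sum_congr rfl (fun x _ => h1 x), Finset.sum_sub_distrib, ← Finset.mul_sum,
      Finset.sum_boole, Finset.sum_const, Finset.card_univ, ← Nat.card_eq_fintype_card, hcard,
      Nat.card_eq_fintype_card, Fintype.card_subtype]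
    simp
  have hab : (∀ x y : G, x * y = y * x) → S = 0 ∨ False := by
    intro hcomm
    rcases sq_sum_sign hZ hsq hexp lam with h | ⟨Z, hZ1, -, hZ3⟩
    · exact Or.inl (by rw [hS]; exact pow_eq_zero_iff (two_ne_zero) |>.1 h)
    · right
      have h1 : ∀ z : G, z ^ 2 = 1 := by
        intro z
        have h2 : z ∈ Z := by
          rw [hZ1]
          intro x
          rw [hlam1]
          apply Subtype.ext
          show ⁅x, z⁆ = 1
          rw [commutatorElement_eq_one_iff_mul_comm]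
          exact hcomm x z
        have h3 := (hlam1 _).1 (hZ3 z h2)
        exact congrArg Subtype.val h3
      have h2 : frattini G ≤ ⊥ := by
        apply Lib.FrattiniPGroup.frattini_le (p := 2)
        · intro x y
          rw [Subgroup.mem_bot, commutatorElement_eq_one_iff_mul_comm]
          exact hcomm x y
        · intro x
          rw [Subgroup.mem_bot]
          exact h1 x
      rw [le_bot_iff] at h2
      rw [h2, Subgroup.card_bot] at hΦ
      norm_num at hΦ
  refine ⟨S, hcount, ?_, hZ, hcard, ?_⟩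
  · rcases sq_sum_sign hZ hsq hexp lam with h | ⟨Z, hZ1, hZ2, -⟩
    · exact Or.inl (by rw [hS]; exact pow_eq_zero_iff (two_ne_zero) |>.1 h)
    · right
      have h1 : Z = Subgroup.center G := by
        ext z
        rw [hZ1, Subgroup.mem_center_iff]
        refine forall_congr' fun x => ?_
        rw [hlam1, ← commutatorElement_eq_one_iff_mul_comm]
        exact ⟨fun h => congrArg Subtype.val h, fun h => Subtype.ext h⟩
      rw [← h1]
      exact hZ2
  · by_cases hcomm : ∀ x y : G, x * y = y * x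
    · exact Or.inl ((hab hcomm).resolve_right id)
    · exact Or.inr hcomm

theorem count {G : Type*} [Group G] [Finite G] (hG : IsPGroup 2 G)
    (hΦ : Nat.card (frattini G) = 2) (d : ℕ) (hd : (frattini G).index = 2 ^ d) :
    Nat.card {x : G // x ^ 2 = 1} = 2 ^ d ∨ ∃ r : ℕ, 1 ≤ r ∧ 2 * r ≤ d ∧
      (Nat.card {x : G // x ^ 2 = 1} = 2 ^ d + 2 ^ (d - r) ∨
        Nat.card {x : G // x ^ 2 = 1} + 2 ^ (d - r) = 2 ^ d) := by
  have hf2 : Fact (Nat.Prime 2) := ⟨Nat.prime_two⟩
  obtain ⟨S, h1, h2, h3, h4, h5⟩ := main hG hΦ d hd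
  by_cases hS : S = 0
  · left
    rw [hS, add_zero, pow_succ] at h1
    have : (Nat.card {x : G // x ^ 2 = 1} : ℤ) = 2 ^ d := by linarith
    exact_mod_cast this
  right
  replace h2 := h2.resolve_left hS
  replace h5 := h5.resolve_left hS
  obtain ⟨m, hm⟩ := IsPGroup.iff_card.mp (hG.to_subgroup (Subgroup.center G))
  have hmd : m ≤ d + 1 := by
    have h6 := Subgroup.card_dvd_of_le (le_top : Subgroup.center G ≤ ⊤)
    rw [Subgroup.card_top, h4, hm] at h6
    exact (Nat.pow_dvd_pow_iff_le_right (le_refl 2)).1 h6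
  have hm1 : 1 ≤ m := by
    have h6 := Subgroup.card_dvd_of_le h3
    rw [hΦ, hm] at h6
    by_contra hcon
    have : m = 0 := by omega
    rw [this] at h6
    norm_num at h6
  rw [h4, hm] at h2
  have h6 : S ^ 2 = 2 ^ (d + 1 + m) := by rw [h2]; push_cast; ring
  obtain ⟨k, hk, hSk⟩ := natAbs_eq_pow h6
  have hmne : m ≠ d + 1 := by
    intro h
    apply h5
    have h7 : Subgroup.center G = ⊤ := by
      apply Subgroup.eq_top_of_card_eq
      rw [hm, h, h4]
    intro x y
    have h8 : y ∈ Subgroup.center G := by rw [h7]; trivial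
    exact Subgroup.mem_center_iff.1 h8 x
  refine ⟨d + 1 - k, by omega, by omega, ?_⟩
  have hdr : d - (d + 1 - k) = k - 1 := by omega
  rw [hdr]
  have hk1 : 2 ^ k = 2 * 2 ^ (k - 1) := by
    rw [← pow_succ']; congr 1; omega
  have hd1 : (2 : ℤ) ^ (d + 1) = 2 * 2 ^ d := by rw [pow_succ']
  rcases Int.natAbs_eq S with h7 | h7
  · left
    rw [hSk] at h7
    have : (Nat.card {x : G // x ^ 2 = 1} : ℤ) = 2 ^ d + 2 ^ (k - 1) := by
      have h8 : S = 2 * 2 ^ (k - 1) := by rw [h7]; exact_mod_cast hk1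
      rw [h8, hd1] at h1
      linarith
    exact_mod_cast this
  · right
    rw [hSk] at h7
    have : (Nat.card {x : G // x ^ 2 = 1} : ℤ) + 2 ^ (k - 1) = 2 ^ d := by
      have h8 : S = -(2 * 2 ^ (k - 1)) := by rw [h7]; congr 1; exact_mod_cast hk1
      rw [h8, hd1] at h1
      linarith
    exact_mod_cast this

theorem extraspecial {G : Type*} [Group G] [Finite G] (hG : IsPGroup 2 G)
    (hΦ : Nat.card (frattini G) = 2) (r : ℕ) (hd : (frattini G).index = 2 ^ (2 * r))
    (h : Nat.card {x : G // x ^ 2 = 1} = 2 ^ (2 * r) + 2 ^ r ∨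
      Nat.card {x : G // x ^ 2 = 1} + 2 ^ r = 2 ^ (2 * r)) : Cfsg.IsExtraspecial 2 G := by
  have hf2 : Fact (Nat.Prime 2) := ⟨Nat.prime_two⟩
  obtain ⟨S, h1, h2, h3, h4, h5⟩ := main hG hΦ (2 * r) hd
  have hS : S ^ 2 = 2 ^ (2 * r + 2) := by
    have hr1 : (2 : ℤ) ^ (2 * r + 1) = 2 * 2 ^ (2 * r) := by rw [pow_succ']
    rcases h with h | h
    · have h6 : (Nat.card {x : G // x ^ 2 = 1} : ℤ) = 2 ^ (2 * r) + 2 ^ r := by exact_mod_cast h
      have h7 : S = 2 * 2 ^ r := by rw [h6, hr1] at h1; linarith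
      rw [h7]; ring
    · have h6 : (Nat.card {x : G // x ^ 2 = 1} : ℤ) + 2 ^ r = 2 ^ (2 * r) := by exact_mod_cast h
      have h7 : S = -(2 * 2 ^ r) := by rw [hr1] at h1; linarith
      rw [h7]; ring
  have hS0 : S ≠ 0 := by
    intro h0
    rw [h0] at hS
    have : (0 : ℤ) < 2 ^ (2 * r + 2) := by positivity
    rw [← hS] at this
    norm_num at this
  replace h2 := h2.resolve_left hS0
  replace h5 := h5.resolve_left hS0
  have hZ : Nat.card (Subgroup.center G) = 2 := by
    rw [h4, hS] at h2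
    have h6 : 2 ^ (2 * r + 2) = 2 ^ (2 * r + 1) * Nat.card (Subgroup.center G) := by
      exact_mod_cast h2
    have h7 : (2 : ℕ) ^ (2 * r + 2) = 2 ^ (2 * r + 1) * 2 := by rw [← pow_succ]
    rw [h7] at h6
    exact (Nat.eq_of_mul_eq_mul_left (by positivity) h6).symm
  have hΦZ : frattini G = Subgroup.center G :=
    Subgroup.eq_of_le_of_card_ge h3 (by rw [hΦ, hZ])
  refine ⟨⟨hG, hΦZ, ?_⟩, hZ⟩
  have hc1 : commutator G ≤ Subgroup.center G := by
    rw [← hΦZ]; exact Lib.FrattiniPGroup.commutator_le_frattini hG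
  apply Subgroup.eq_of_le_of_card_ge hc1
  rw [hZ]
  have hne : commutator G ≠ ⊥ := by
    intro hbot
    apply h5
    intro x y
    have h6 : ⁅x, y⁆ ∈ commutator G := Subgroup.commutator_mem_commutator trivial trivial
    rw [hbot, Subgroup.mem_bot, commutatorElement_eq_one_iff_mul_comm] at h6
    exact h6
  have h6 : 1 < Nat.card (commutator G) := by
    rw [Subgroup.one_lt_card_iff_ne_bot]
    exact hne
  omega

end Cfsg.Agent.H447.FrattiniTwo
end

-- part: S3772
section
set_option autoImplicit false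
open Cfsg

namespace Cfsg.Agent.S3772

/-- Let G be a finite 2-group whose Frattini subgroup Φ(G) has order 2, with |G : Φ(G)| = 2^d, and let j be the number of elements x of G with x² = 1. Then j = 2^d, or j = 2^d + 2^(d−r) or j = 2^d − 2^(d−r) for some positive integer r with 2r ≤ d. Moreover if d = 2r and j is 2^d + 2^r or 2^d − 2^r, then G is extraspecial. -/
theorem result {G : Type*} [Group G] [Finite G] (hG : IsPGroup 2 G) (hΦ : Nat.card (frattini G) = 2) (d : ℕ) (hd : (frattini G).index = 2 ^ d) : (Nat.card {x : G // x ^ 2 = 1} = 2 ^ d ∨ ∃ r : ℕ, 1 ≤ r ∧ 2 * r ≤ d ∧ (Nat.card {x : G // x ^ 2 = 1} = 2 ^ d + 2 ^ (d - r) ∨ Nat.card {x : G // x ^ 2 = 1} + 2 ^ (d - r) = 2 ^ d)) ∧ (∀ r : ℕ, d = 2 * r → (Nat.card {x : G // x ^ 2 = 1} = 2 ^ d + 2 ^ r ∨ Nat.card {x : G // x ^ 2 = 1} + 2 ^ r = 2 ^ d) → Cfsg.IsExtraspecial 2 G) := by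
  refine ⟨H447.FrattiniTwo.count hG hΦ d hd, ?_⟩
  intro r hr h
  subst hr
  exact H447.FrattiniTwo.extraspecial hG hΦ r hd h

end Cfsg.Agent.S3772
end
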