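import Mathlib
import Cfsg.Prelude.Def_Transfer
import Cfsg.Agent.Lib.FrattiniPGroup
import Cfsg.Agent.H447.GaussSum
import Cfsg.Statements.S3773
import Cfsg.Agent.H508.Basic
set_option linter.all false

-- part: H447/CountBound
section
/-!
# A bound for the order of a 2-group with central squares
-/

set_option autoImplicit false

open scoped commutatorElement

namespace Cfsg.Agent.H447.CountBound

open Cfsg.Agent.H447.GaussSum

universe u

/-- The family of all sign characters of an elementary abelian 2-group, with orthogonality. -/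
theorem exists_family (A : Type u) [CommGroup A] [Finite A] (hA : ∀ a : A, a ^ 2 = 1) :
    ∃ (ι : Type u) (_ : Fintype ι) (f : ι → A →* ℤ), (∀ a : A, a = 1 → ∑ i, f i a = Nat.card A) ∧
      ∀ a : A, a ≠ 1 → ∑ i, f i a = 0 := by
  classical
  have hfA : Finite (Additive A) := inferInstanceAs (Finite A)
  have := Fintype.ofFinite (Additive A)
  have hval : ∀ (ψ : AddChar (Additive A) ℂ) (a : A), ψ (Additive.ofMul a) = 1 ∨
      ψ (Additive.ofMul a) = -1 := by
    intro ψ a
    have h1 : ψ (Additive.ofMul a) * ψ (Additive.ofMul a) = 1 := by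
      rw [← AddChar.map_add_eq_mul]
      have : Additive.ofMul a + Additive.ofMul a = 0 := by
        rw [← ofMul_mul]
        have := hA a
        rw [sq] at this
        rw [this]; rfl
      rw [this, AddChar.map_zero_eq_one]
    exact mul_self_eq_one_iff.1 h1
  let g : AddChar (Additive A) ℂ → A → ℤ := fun ψ a => if ψ (Additive.ofMul a) = 1 then 1 else -1
  have hg : ∀ ψ a, ((g ψ a : ℤ) : ℂ) = ψ (Additive.ofMul a) := by
    intro ψ a
    rcases hval ψ a with h | h
    · simp only [g, h]; simp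
    · simp only [g, h]; norm_num
  let f : AddChar (Additive A) ℂ → A →* ℤ := fun ψ =>
    { toFun := g ψ
      map_one' := by
        have : ((g ψ 1 : ℤ) : ℂ) = ((1 : ℤ) : ℂ) := by
          rw [hg]
          show ψ 0 = _
          rw [AddChar.map_zero_eq_one]; simp
        exact_mod_cast this
      map_mul' := by
        intro a b
        have : ((g ψ (a * b) : ℤ) : ℂ) = ((g ψ a * g ψ b : ℤ) : ℂ) := by
          rw [Int.cast_mul, hg, hg, hg, ofMul_mul, AddChar.map_add_eq_mul]
        exact_mod_cast this }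
  refine ⟨AddChar (Additive A) ℂ, inferInstance, f, ?_, ?_⟩
  · intro a ha
    have h1 : ((∑ ψ, f ψ a : ℤ) : ℂ) = ((Nat.card A : ℤ) : ℂ) := by
      rw [Int.cast_sum]
      have : ∀ ψ, ((f ψ a : ℤ) : ℂ) = ψ (Additive.ofMul a) := fun ψ => hg ψ a
      rw [Finset.sum_congr rfl (fun ψ _ => this ψ), AddChar.sum_apply_eq_ite, if_pos (by rw [ha]; rfl),
        ← Nat.card_eq_fintype_card]
      rfl
    exact_mod_cast h1
  · intro a ha
    have h1 : ((∑ ψ, f ψ a : ℤ) : ℂ) = ((0 : ℤ) : ℂ) := by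
      rw [Int.cast_sum]
      have : ∀ ψ, ((f ψ a : ℤ) : ℂ) = ψ (Additive.ofMul a) := fun ψ => hg ψ a
      rw [Finset.sum_congr rfl (fun ψ _ => this ψ), AddChar.sum_apply_eq_ite, if_neg (fun h => ha (by
        exact h))]
      simp
    exact_mod_cast h1

/-- The order of a 2-group `G` with a central elementary abelian subgroup `A` containing all squares and
with `2 ^ n` solutions of `x ^ 2 = 1` satisfies `#G * #Z(G) ≤ (#A * 2 ^ n) ^ 2`. -/
theorem card_mul_card_center_le {G : Type u} [Group G] [Finite G] (hG : IsPGroup 2 G)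
    {A : Subgroup G} (hA : A ≤ Subgroup.center G)
    (hsq : ∀ x : G, x ^ 2 ∈ A) (hexp : ∀ a ∈ A, a ^ 2 = 1) {n : ℕ}
    (hn : Nat.card {x : G // x ^ 2 = 1} = 2 ^ n) :
    Nat.card G * Nat.card (Subgroup.center G) ≤ (Nat.card A * 2 ^ n) ^ 2 := by
  classical
  have hf2 : Fact (Nat.Prime 2) := ⟨Nat.prime_two⟩
  have := Fintype.ofFinite G
  let _ : CommGroup A := { (inferInstance : Group A) with
    mul_comm := fun a b => Subtype.ext ((Subgroup.mem_center_iff.1 (hA b.2)) a) }
  obtain ⟨ι, hι, f, hf1, hf0⟩ := exists_family A (fun a => Subtype.ext (hexp a a.2))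
  obtain ⟨a, ha⟩ := IsPGroup.iff_card.mp (hG.to_subgroup A)
  obtain ⟨g, hg⟩ := IsPGroup.iff_card.mp hG
  let S : ι → ℤ := fun i => ∑ x : G, f i ⟨x ^ 2, hsq x⟩
  have hsum : ∑ i, S i = 2 ^ (a + n) := by
    show ∑ i, ∑ x : G, f i ⟨x ^ 2, hsq x⟩ = _
    rw [Finset.sum_comm]
    have h1 : ∀ x : G, ∑ i, f i ⟨x ^ 2, hsq x⟩ = if x ^ 2 = 1 then (2 : ℤ) ^ a else 0 := by
      intro x
      by_cases hx : x ^ 2 = 1
      · rw [if_pos hx, hf1 _ (Subtype.ext hx), ha]; push_cast; rfl
      · rw [if_neg hx]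
        exact hf0 _ (fun h => hx (congrArg Subtype.val h))
    rw [Finset.sum_congr rfl (fun x _ => h1 x), ← Finset.sum_filter, Finset.sum_const,
      ← Fintype.card_subtype, ← Nat.card_eq_fintype_card, hn, nsmul_eq_mul, pow_add]
    push_cast
    ring
  by_contra hcon
  push Not at hcon
  rw [ha, ← pow_add, ← pow_mul] at hcon
  have hdvd : ∀ i, (2 : ℤ) ^ (a + n + 1) ∣ S i := by
    intro i
    rcases sq_sum_sign hA hsq hexp (f i) with h | ⟨Z, hZ1, hZ2, -⟩
    · have : S i = 0 := pow_eq_zero_iff (two_ne_zero) |>.1 h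
      rw [this]; exact dvd_zero _
    · obtain ⟨z, hz⟩ := IsPGroup.iff_card.mp (hG.to_subgroup Z)
      have hZc : Subgroup.center G ≤ Z := by
        intro y hy
        rw [hZ1]
        intro x
        have : (⟨⁅x, y⁆, commutator_mem hA hsq x y⟩ : A) = 1 := by
          apply Subtype.ext
          show ⁅x, y⁆ = 1
          rw [commutatorElement_eq_one_iff_mul_comm]
          exact Subgroup.mem_center_iff.1 hy x
        rw [this, map_one]
      have hZle : Nat.card (Subgroup.center G) ≤ 2 ^ z := by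
        rw [← hz]; exact Nat.le_of_dvd Nat.card_pos (Subgroup.card_dvd_of_le hZc)
      have h3 : (S i) ^ 2 = 2 ^ (g + z) := by
        show (∑ x : G, f i ⟨x ^ 2, hsq x⟩) ^ 2 = _
        rw [hZ2, hg, hz]; push_cast; rw [pow_add]
      obtain ⟨k, hk, hSk⟩ := natAbs_eq_pow h3
      have h4 : 2 ^ ((a + n) * 2) < 2 ^ (g + z) := by
        refine lt_of_lt_of_le hcon ?_
        rw [pow_add, hg]
        exact Nat.mul_le_mul_left _ hZle
      have h5 : (a + n) * 2 < g + z := (Nat.pow_lt_pow_iff_right (le_refl 2)).1 h4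
      have h6 : a + n + 1 ≤ k := by omega
      rw [← Int.dvd_natAbs, hSk]
      push_cast
      exact pow_dvd_pow 2 h6
  have h7 : (2 : ℤ) ^ (a + n + 1) ∣ 2 ^ (a + n) := by
    rw [← hsum]
    exact Finset.dvd_sum (fun i _ => hdvd i)
  have h8 : (2 : ℕ) ^ (a + n + 1) ∣ 2 ^ (a + n) := by exact_mod_cast h7
  have h9 := (Nat.pow_dvd_pow_iff_le_right (le_refl 2)).1 h8
  omega

/-- The order bound of a 2-group with `2 ^ n` solutions of `x ^ 2 = 1` all of them forming a subgroup `N`,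
and Frattini subgroup central of exponent 2. -/
theorem main {G : Type u} [Group G] [Finite G] (hG : IsPGroup 2 G)
    (hZ : frattini G ≤ Subgroup.center G) (hexp : ∀ a ∈ frattini G, a ^ 2 = 1)
    (N : Subgroup G) (hN : ∀ x, x ∈ N ↔ x ^ 2 = 1) :
    Nat.card G ≤ Nat.card N ^ 3 ∧ (Nat.card N ^ 3 ≤ Nat.card G → Cfsg.IsSpecial 2 G) := by
  classical
  have hf2 : Fact (Nat.Prime 2) := ⟨Nat.prime_two⟩
  have hsq : ∀ x : G, x ^ 2 ∈ frattini G := Lib.FrattiniPGroup.pow_mem_frattini hG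
  obtain ⟨n, hn⟩ := IsPGroup.iff_card.mp (hG.to_subgroup N)
  have hcN : Nat.card {x : G // x ^ 2 = 1} = 2 ^ n := by
    rw [← hn]
    exact Nat.card_congr (Equiv.subtypeEquivRight (fun x => (hN x).symm))
  have hAN : frattini G ≤ N := fun x hx => (hN x).2 (hexp x hx)
  obtain ⟨z, hz⟩ := IsPGroup.iff_card.mp (hG.to_subgroup (Subgroup.center G))
  obtain ⟨a, ha⟩ := IsPGroup.iff_card.mp (hG.to_subgroup (frattini G))
  obtain ⟨g, hg⟩ := IsPGroup.iff_card.mp hG
  have hle := card_mul_card_center_le hG hZ hsq hexp hcN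
  have hmono : ∀ {i j : ℕ}, 2 ^ i ≤ 2 ^ j → i ≤ j := fun h => (Nat.pow_le_pow_iff_right (le_refl 2)).1 h
  rw [hg, hz, ha, ← pow_add, ← pow_add, ← pow_mul] at hle
  have hle' := hmono hle
  have haz : a ≤ z := hmono (by
    rw [← ha, ← hz]; exact Nat.le_of_dvd Nat.card_pos (Subgroup.card_dvd_of_le hZ))
  have han : a ≤ n := hmono (by
    rw [← ha, ← hn]; exact Nat.le_of_dvd Nat.card_pos (Subgroup.card_dvd_of_le hAN))
  refine ⟨?_, ?_⟩
  · rw [hg, hn, ← pow_mul]
    exact Nat.pow_le_pow_right (by norm_num) (by omega)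
  intro hge
  rw [hg, hn, ← pow_mul] at hge
  have hge' := hmono hge
  have han' : a = n := by omega
  have haz' : a = z := by omega
  have hΦN : frattini G = N := Subgroup.eq_of_le_of_card_ge hAN (by rw [ha, hn, han'])
  have hΦZ : frattini G = Subgroup.center G := Subgroup.eq_of_le_of_card_ge hZ (by rw [ha, hz, haz'])
  have hcc : ∀ x y : G, ⁅x, y⁆ ∈ commutator G := fun x y =>
    Subgroup.commutator_mem_commutator trivial trivial
  have hcle : commutator G ≤ frattini G := Lib.FrattiniPGroup.commutator_le_frattini hG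
  refine ⟨hG, hΦZ, ?_⟩
  by_contra hne
  rw [← hΦZ] at hne
  -- a maximal subgroup of the Frattini subgroup containing the derived subgroup
  have hneA : (commutator G).subgroupOf (frattini G) ≠ ⊤ := by
    intro h
    rw [Subgroup.subgroupOf_eq_top] at h
    exact hne (le_antisymm hcle h)
  obtain ⟨M, hM, hleM⟩ := (eq_top_or_exists_le_coatom
    ((commutator G).subgroupOf (frattini G))).resolve_left hneA
  have hMi : M.index = 2 := Lib.FrattiniPGroup.index_of_coatom (hG.to_subgroup (frattini G)) hM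
  set A₁ : Subgroup G := M.map (frattini G).subtype with hA₁
  have hA₁le : A₁ ≤ frattini G := Subgroup.map_subtype_le M
  have hA₁c : commutator G ≤ A₁ := by
    intro x hx
    exact ⟨⟨x, hcle hx⟩, hleM (Subgroup.mem_subgroupOf.2 hx), rfl⟩
  have hcA₁ : Nat.card A₁ = Nat.card M :=
    Nat.card_congr (Subgroup.equivMapOfInjective M _ (Subgroup.subtype_injective _)).symm.toEquiv
  have hA₁card : Nat.card A₁ * 2 = 2 ^ a := by
    have := M.card_mul_index
    rw [hMi, ha] at this
    rw [hcA₁, this]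
  have hA₁Z : A₁ ≤ Subgroup.center G := hA₁le.trans hZ
  have hmsq := mul_sq_eq hZ hsq
  -- the subgroup of the elements with square in `A₁`
  have hMn : M.Normal := Lib.FrattiniPGroup.normal_of_coatom (hG.to_subgroup (frattini G)) hM
  let f : G →* (frattini G) ⧸ M :=
    { toFun := fun x => ((⟨x ^ 2, hsq x⟩ : frattini G) : (frattini G) ⧸ M)
      map_one' := by
        have : (⟨(1 : G) ^ 2, hsq 1⟩ : frattini G) = 1 := Subtype.ext (by simp)
        rw [this]; rfl
      map_mul' := by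
        intro x y
        have h1 : (⟨(x * y) ^ 2, hsq (x * y)⟩ : frattini G) =
            ⟨x ^ 2, hsq x⟩ * ⟨y ^ 2, hsq y⟩ * ⟨⁅x, y⁆, hcle (hcc x y)⟩ := Subtype.ext (hmsq x y)
        rw [h1, QuotientGroup.mk_mul, QuotientGroup.mk_mul]
        have h2 : ((⟨⁅x, y⁆, hcle (hcc x y)⟩ : frattini G) : (frattini G) ⧸ M) = 1 := by
          rw [QuotientGroup.eq_one_iff]
          exact hleM (Subgroup.mem_subgroupOf.2 (hcc x y))
        rw [h2, mul_one] }
  have hfker : ∀ x, x ∈ f.ker ↔ x ^ 2 ∈ A₁ := by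
    intro x
    rw [MonoidHom.mem_ker]
    show ((⟨x ^ 2, hsq x⟩ : frattini G) : (frattini G) ⧸ M) = 1 ↔ _
    rw [QuotientGroup.eq_one_iff]
    constructor
    · intro h; exact ⟨_, h, rfl⟩
    · rintro ⟨y, hy, hyx⟩
      have : (⟨x ^ 2, hsq x⟩ : frattini G) = y := Subtype.ext hyx.symm
      rw [this]; exact hy
  set G₁ : Subgroup G := f.ker with hG₁
  have hidx : G₁.index ∣ 2 := by
    rw [← hMi, hG₁, Subgroup.index_ker]
    exact Subgroup.card_subgroup_dvd_card f.range
  have hNG₁ : N ≤ G₁ := by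
    intro x hx
    rw [hfker, (hN x).1 hx]
    exact one_mem _
  have hA₁G₁ : A₁ ≤ G₁ := (hA₁le.trans hAN).trans hNG₁
  have hG₁p : IsPGroup 2 G₁ := hG.to_subgroup G₁
  have hcN₁ : Nat.card {x : G₁ // x ^ 2 = 1} = 2 ^ n := by
    rw [← hn]
    refine Nat.card_congr
      { toFun := fun x => ⟨x.1.1, (hN _).2 (congrArg Subtype.val x.2)⟩
        invFun := fun x => ⟨⟨x.1, hNG₁ x.2⟩, Subtype.ext ((hN _).1 x.2)⟩
        left_inv := fun x => rfl
        right_inv := fun x => rfl }
  have hle₁ := card_mul_card_center_le (G := G₁) hG₁p (A := A₁.subgroupOf G₁)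
    (by
      intro x hx
      rw [Subgroup.mem_subgroupOf] at hx
      rw [Subgroup.mem_center_iff]
      intro y
      exact Subtype.ext (Subgroup.mem_center_iff.1 (hA₁Z hx) y))
    (by
      intro x
      rw [Subgroup.mem_subgroupOf]
      exact (hfker x).1 x.2)
    (by
      intro x hx
      rw [Subgroup.mem_subgroupOf] at hx
      exact Subtype.ext (hexp x (hA₁le hx))) hcN₁
  have hcA₁' : Nat.card (A₁.subgroupOf G₁) = Nat.card A₁ :=
    Nat.card_congr (Subgroup.subgroupOfEquivOfLe hA₁G₁).toEquiv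
  rw [hcA₁'] at hle₁
  -- the center of `G₁` contains `N`
  have hNZ₁ : 2 ^ n ≤ Nat.card (Subgroup.center G₁) := by
    rw [← hn, ← Nat.card_congr (Subgroup.subgroupOfEquivOfLe hNG₁).toEquiv]
    apply Nat.le_of_dvd Nat.card_pos
    apply Subgroup.card_dvd_of_le
    intro x hx
    rw [Subgroup.mem_subgroupOf, ← hΦN] at hx
    rw [Subgroup.mem_center_iff]
    intro y
    exact Subtype.ext (Subgroup.mem_center_iff.1 (hZ hx) y)
  have hG₁card : 2 ^ (3 * n) ≤ Nat.card G₁ * 2 := by
    have h1 : 2 ^ (3 * n) ≤ Nat.card G := by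
      rw [hg]; exact Nat.pow_le_pow_right (by norm_num) (by omega)
    refine h1.trans ?_
    rw [← G₁.card_mul_index]
    exact Nat.mul_le_mul_left _ (Nat.le_of_dvd (by norm_num) hidx)
  rw [han'] at hA₁card
  have h1 : (2 : ℕ) ^ (3 * n) * 2 ^ n * 2 ≤ (2 ^ n * 2 ^ n) ^ 2 := by
    calc (2 : ℕ) ^ (3 * n) * 2 ^ n * 2 ≤ (Nat.card G₁ * 2) * Nat.card (Subgroup.center G₁) * 2 :=
          Nat.mul_le_mul_right _ (Nat.mul_le_mul hG₁card hNZ₁)
      _ = 4 * (Nat.card G₁ * Nat.card (Subgroup.center G₁)) := by ring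
      _ ≤ 4 * (Nat.card A₁ * 2 ^ n) ^ 2 := Nat.mul_le_mul_left _ hle₁
      _ = ((Nat.card A₁ * 2) * 2 ^ n) ^ 2 := by ring
      _ = _ := by rw [hA₁card]
  have h2 : (2 : ℕ) ^ (3 * n) * 2 ^ n * 2 = 2 ^ (4 * n + 1) := by
    rw [← pow_add, ← pow_succ]; congr 1; omega
  have h3 : ((2 : ℕ) ^ n * 2 ^ n) ^ 2 = 2 ^ (4 * n) := by
    rw [← pow_add, ← pow_mul]; congr 1; omega
  rw [h2, h3] at h1
  have := hmono h1
  omega

end Cfsg.Agent.H447.CountBound
end

-- part: S3773
section
set_option autoImplicit false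
open Cfsg

namespace Cfsg.Agent.S3773

/-- Let G be a finite 2-group of nilpotency class at most 2 and exponent dividing 4 in which the elements x with x² = 1 form a subgroup N. Then |G| ≤ |N|³, and |G| < |N|³ unless G is special. -/
theorem result {G : Type*} [Group G] [Finite G] (hG : IsPGroup 2 G) (hcl : (⊤ : Subgroup G).lowerCentralSeries 2 = ⊥) (hexp : ∀ x : G, x ^ 4 = 1) (hN : ∀ x y : G, x ^ 2 = 1 → y ^ 2 = 1 → (x * y) ^ 2 = 1) : Nat.card G ≤ Nat.card {x : G // x ^ 2 = 1} ^ 3 ∧ (¬ Cfsg.IsSpecial 2 G → Nat.card G < Nat.card {x : G // x ^ 2 = 1} ^ 3) := by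
  have hc := Cfsg.Agent.Transfer.CentralComm.comm_mem_center_of_eq_bot (G := G) hcl
  have hle := Cfsg.Agent.H508.frattini_le_omegaCenter_two hc hexp
  let N : Subgroup G :=
    { carrier := {x | x ^ 2 = 1}
      one_mem' := one_pow 2
      mul_mem' := fun {a b} ha hb => hN a b ha hb
      inv_mem' := fun {a} (ha : a ^ 2 = 1) => by
        show a⁻¹ ^ 2 = 1
        rw [inv_pow, ha, inv_one] }
  have hcN : Nat.card {x : G // x ^ 2 = 1} = Nat.card N := rfl
  obtain ⟨h1, h2⟩ := H447.CountBound.main hG (fun x hx => (hle hx).1) (fun x hx => (hle hx).2) N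
    (fun x => Iff.rfl)
  rw [hcN]
  refine ⟨h1, fun h => ?_⟩
  by_contra hcon
  exact h (h2 (not_lt.1 hcon))

end Cfsg.Agent.S3773
end
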