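import Cfsg.Agent.OddOrderLocal.HallPi
import Mathlib
import Cfsg.Agent.LieRecognition.FieldAutBasis
import Cfsg.Agent.Lib.FrattiniPGroup
import Cfsg.Agent.PermutationGroups.HalfTransGalois
import Cfsg.Statements.S3776
set_option linter.all false

-- part: H448/SuzOdd
section
/-!
# An odd order transitive subgroup of a solvable transitive group
-/

set_option autoImplicit false

namespace Cfsg.Agent.H448.SuzOdd

/-- A solvable group transitive on a set of odd size has a transitive subgroup of odd order. -/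
theorem exists_odd {P Ω : Type*} [Group P] [Finite P] [MulAction P Ω] {Y : Subgroup P}
    (hY : Group.IsSolvable Y) (S : Set Ω) (hS : Odd S.ncard) (hinv : ∀ g ∈ Y, ∀ x ∈ S, g • x ∈ S)
    (htr : ∀ x ∈ S, ∀ y ∈ S, ∃ g ∈ Y, g • x = y) :
    ∃ H : Subgroup P, H ≤ Y ∧ Odd (Nat.card H) ∧ ∀ x ∈ S, ∀ y ∈ S, ∃ g ∈ H, g • x = y := by
  obtain ⟨H, hHY, hH1, hH2⟩ := Cfsg.Agent.OddOrderLocal.HallPi.exists_isPiHallOf hY {p : ℕ | p ≠ 2}
  have hodd : Odd (Nat.card H) := by
    rw [← Nat.not_even_iff_odd, even_iff_two_dvd]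
    intro h
    exact hH1 2 Nat.prime_two h rfl
  have hSf : S.Finite := by
    by_contra h
    rw [Set.Infinite.ncard h] at hS
    exact absurd hS (by decide)
  refine ⟨H, hHY, hodd, ?_⟩
  have key : ∀ x ∈ S, ∀ y ∈ S, ∃ g ∈ H, g • x = y := by
    intro x hx
    set T : Subgroup P := MulAction.stabilizer P x with hT
    have horb : ∀ L : Subgroup P, T.relIndex L = (MulAction.orbit L x).ncard := by
      intro L
      rw [← MulAction.index_stabilizer L x]
      rfl
    have h1 : T.relIndex Y = S.ncard := by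
      rw [horb]
      congr 1
      ext y
      constructor
      · rintro ⟨⟨g, hg⟩, rfl⟩
        exact hinv g hg x hx
      · intro hy
        obtain ⟨g, hg, hgy⟩ := htr x hx y hy
        exact ⟨⟨g, hg⟩, hgy⟩
    have h2 : S.ncard ∣ T.relIndex H * H.relIndex Y := by
      rw [← h1]
      have h3 : (H ⊓ T).relIndex H * H.relIndex Y = (H ⊓ T).relIndex Y :=
        Subgroup.relIndex_mul_relIndex _ _ _ inf_le_left hHY
      have h4 : (H ⊓ T).relIndex (Y ⊓ T) * (Y ⊓ T).relIndex Y = (H ⊓ T).relIndex Y :=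
        Subgroup.relIndex_mul_relIndex _ _ _ (inf_le_inf_right T hHY) inf_le_left
      rw [Subgroup.inf_relIndex_left] at h3
      rw [Subgroup.inf_relIndex_left Y T] at h4
      rw [h3, ← h4]
      exact Dvd.intro_left _ rfl
    have h5 : Nat.Coprime S.ncard (H.relIndex Y) := by
      rw [Nat.coprime_iff_gcd_eq_one]
      by_contra hne
      obtain ⟨p, hp, hpd⟩ := Nat.exists_prime_and_dvd hne
      have h6 := hpd.trans (Nat.gcd_dvd_left _ _)
      have h7 := hpd.trans (Nat.gcd_dvd_right _ _)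
      by_cases hp2 : p = 2
      · subst hp2
        exact (Nat.not_even_iff_odd.mpr hS) (even_iff_two_dvd.mpr h6)
      · exact hH2 p hp hp2 h7
    have h6 : S.ncard ∣ T.relIndex H := h5.dvd_of_dvd_mul_right h2
    rw [horb] at h6
    have hsub : MulAction.orbit H x ⊆ S := by
      rintro y ⟨⟨g, hg⟩, rfl⟩
      exact hinv g (hHY hg) x hx
    have h7 : 0 < (MulAction.orbit H x).ncard := by
      rw [Set.ncard_pos (hSf.subset hsub)]
      exact ⟨x, MulAction.mem_orbit_self x⟩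
    have h8 := Set.eq_of_subset_of_ncard_le hsub (Nat.le_of_dvd h7 h6) hSf
    intro y hy
    rw [← h8] at hy
    obtain ⟨⟨g, hg⟩, hgy⟩ := hy
    exact ⟨g, hg, hgy⟩
  exact key

end Cfsg.Agent.H448.SuzOdd
end

-- part: H448/SuzArith
section
/-!
# Arithmetic of the exponents `2 ^ i` modulo a large divisor of `2 ^ n - 1`

If `d * N = 2 ^ n - 1` with `d ∣ n`, then `2 ^ i + 2 ^ j ≡ 1`, `2 ^ t + 2 ^ j ≡ 1 + 2 ^ (t + i)` and
`2 ^ j ≡ 1` modulo `N` have only the obvious solutions.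
-/

set_option autoImplicit false

namespace Cfsg.Agent.H448.SuzArith

theorem pow_add_pow_inj_aux {a b c e : ℕ} (hab : a ≤ b) (hce : c ≤ e)
    (h : 2 ^ a + 2 ^ b = 2 ^ c + 2 ^ e) : ¬ a < c := by
  intro hac
  have h1 : 2 ^ (a + 1) ∣ 2 ^ c + 2 ^ e :=
    dvd_add (pow_dvd_pow 2 (by omega)) (pow_dvd_pow 2 (by omega))
  rw [← h] at h1
  rcases Nat.lt_or_ge a b with hlt | hge
  · have h2 : 2 ^ (a + 1) ∣ 2 ^ b := pow_dvd_pow 2 (by omega)
    have h3 : 2 ^ (a + 1) ∣ 2 ^ a := (Nat.dvd_add_left h2).mp h1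
    have h4 := Nat.le_of_dvd (by positivity) h3
    have h5 : 2 ^ a < 2 ^ (a + 1) := Nat.pow_lt_pow_right (by norm_num) (by omega)
    omega
  · have hb : b = a := by omega
    subst hb
    have h2 : 2 ^ (b + 1) ≤ 2 ^ c := Nat.pow_le_pow_right (by norm_num) (by omega)
    have h3 : 2 ^ (b + 1) ≤ 2 ^ e := Nat.pow_le_pow_right (by norm_num) (by omega)
    have h4 : 2 ^ (b + 1) = 2 * 2 ^ b := by ring
    have h5 : 0 < 2 ^ b := by positivity
    omega

theorem pow_add_pow_inj_le {a b c e : ℕ} (hab : a ≤ b) (hce : c ≤ e)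
    (h : 2 ^ a + 2 ^ b = 2 ^ c + 2 ^ e) : a = c ∧ b = e := by
  have h1 := pow_add_pow_inj_aux hab hce h
  have h2 := pow_add_pow_inj_aux hce hab h.symm
  have h3 : a = c := by omega
  subst h3
  refine ⟨rfl, ?_⟩
  have h4 : 2 ^ b = 2 ^ e := by omega
  exact Nat.pow_right_injective (le_refl 2) h4

theorem pow_add_pow_inj {a b c e : ℕ} (h : 2 ^ a + 2 ^ b = 2 ^ c + 2 ^ e) :
    (a = c ∧ b = e) ∨ (a = e ∧ b = c) := by
  rcases le_total a b with h1 | h1 <;> rcases le_total c e with h2 | h2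
  · exact Or.inl (pow_add_pow_inj_le h1 h2 h)
  · exact Or.inr (pow_add_pow_inj_le h1 h2 (by omega))
  · obtain ⟨h3, h4⟩ := pow_add_pow_inj_le h1 h2 (by omega)
    exact Or.inr ⟨h4, h3⟩
  · obtain ⟨h3, h4⟩ := pow_add_pow_inj_le h1 h2 (by omega)
    exact Or.inl ⟨h4, h3⟩

/-- The rotations which put `x` into the forbidden arc. -/
theorem card_bad (n g x : ℕ) (hg : 1 ≤ g) (hgn : g ≤ n) :
    ((Finset.range n).filter (fun t => n - g < (x + t) % n)).card ≤ g - 1 := by
  have hn : 0 < n := by omega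
  have h1 : ((Finset.range n).filter (fun t => n - g < (x + t) % n)).card ≤
      (Finset.Ioo (n - g) n).card := by
    refine Finset.card_le_card_of_injOn (fun t => (x + t) % n) ?_ ?_
    · intro t ht
      simp only [Finset.coe_filter, Set.mem_ofPred_eq] at ht
      simp only [Finset.coe_Ioo, Set.mem_Ioo]
      exact ⟨ht.2, Nat.mod_lt _ hn⟩
    · intro t ht t' ht' h
      simp only [Finset.coe_filter, Finset.mem_range, Set.mem_ofPred_eq] at ht ht'
      have h2 : x + t ≡ x + t' [MOD n] := h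
      have h3 : t ≡ t' [MOD n] := Nat.ModEq.add_left_cancel' x h2
      exact Nat.ModEq.eq_of_lt_of_lt h3 ht.1 ht'.1
  rw [Nat.card_Ioo] at h1
  omega

theorem exists_rot (n g a b c e : ℕ) (hg : 1 ≤ g) (hn : 4 * (g - 1) < n) (hgn : g ≤ n) :
    ∃ t, (a + t) % n ≤ n - g ∧ (b + t) % n ≤ n - g ∧ (c + t) % n ≤ n - g ∧ (e + t) % n ≤ n - g := by
  classical
  by_contra hcon
  push Not at hcon
  have hsub : Finset.range n ⊆
      (((Finset.range n).filter (fun t => n - g < (a + t) % n)) ∪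
        ((Finset.range n).filter (fun t => n - g < (b + t) % n))) ∪
      (((Finset.range n).filter (fun t => n - g < (c + t) % n)) ∪
        ((Finset.range n).filter (fun t => n - g < (e + t) % n))) := by
    intro t ht
    simp only [Finset.mem_union, Finset.mem_filter]
    by_contra h
    push Not at h
    obtain ⟨⟨h1, h2⟩, h3, h4⟩ := h
    have := hcon t (h1 ht) (h2 ht) (h3 ht)
    exact absurd (h4 ht) (by omega)
  have h1 := Finset.card_le_card hsub
  rw [Finset.card_range] at h1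
  have h2 := card_bad n g a hg hgn
  have h3 := card_bad n g b hg hgn
  have h4 := card_bad n g c hg hgn
  have h5 := card_bad n g e hg hgn
  have h6 := Finset.card_union_le
    (((Finset.range n).filter (fun t => n - g < (a + t) % n)) ∪
        ((Finset.range n).filter (fun t => n - g < (b + t) % n)))
    (((Finset.range n).filter (fun t => n - g < (c + t) % n)) ∪
        ((Finset.range n).filter (fun t => n - g < (e + t) % n)))
  have h7 := Finset.card_union_le
    ((Finset.range n).filter (fun t => n - g < (a + t) % n))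
    ((Finset.range n).filter (fun t => n - g < (b + t) % n))
  have h8 := Finset.card_union_le
    ((Finset.range n).filter (fun t => n - g < (c + t) % n))
    ((Finset.range n).filter (fun t => n - g < (e + t) % n))
  omega

theorem two_pow_mod {n N : ℕ} (hN : N ∣ 2 ^ n - 1) (x : ℕ) : 2 ^ (x % n) ≡ 2 ^ x [MOD N] := by
  have h1 : 2 ^ n ≡ 1 [MOD N] := by
    have h2 : 1 ≤ 2 ^ n := Nat.one_le_two_pow
    exact ((Nat.modEq_iff_dvd' h2).mpr hN).symm
  conv_rhs => rw [← Nat.mod_add_div x n]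
  rw [pow_add, pow_mul]
  have h3 : (2 ^ n) ^ (x / n) ≡ 1 ^ (x / n) [MOD N] := h1.pow _
  rw [one_pow] at h3
  have h4 := h3.mul_left (2 ^ (x % n))
  rw [mul_one] at h4
  exact h4.symm

/-- Large case: sums of two powers of `2` are different modulo `N`. -/
theorem sum_inj {n d N g : ℕ} (hN : d * N = 2 ^ n - 1) (hg : 1 ≤ g) (hd : d < 2 ^ (g - 1))
    (hn : 4 * (g - 1) < n) {a b c e : ℕ} (ha : a < n) (hb : b < n) (hc : c < n) (he : e < n)
    (h : 2 ^ a + 2 ^ b ≡ 2 ^ c + 2 ^ e [MOD N]) : (a = c ∧ b = e) ∨ (a = e ∧ b = c) := by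
  have hgn : g ≤ n := by omega
  obtain ⟨t, h1, h2, h3, h4⟩ := exists_rot n g a b c e hg hn hgn
  have hdvd : N ∣ 2 ^ n - 1 := ⟨d, by rw [← hN, mul_comm]⟩
  have key : ∀ x, 2 ^ ((x + t) % n) ≡ 2 ^ x * 2 ^ t [MOD N] := by
    intro x
    rw [← pow_add]
    exact two_pow_mod hdvd _
  have h5 : 2 ^ ((a + t) % n) + 2 ^ ((b + t) % n) ≡ 2 ^ ((c + t) % n) + 2 ^ ((e + t) % n) [MOD N] := by
    have h6 := (key a).add (key b)
    have h7 := (key c).add (key e)
    rw [← add_mul] at h6 h7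
    exact h6.trans ((h.mul_right _).trans h7.symm)
  -- the two sides are equal
  have hpos : 1 ≤ 2 ^ n := Nat.one_le_two_pow
  have hle : ∀ x, x ≤ n - g → 2 ^ x ≤ 2 ^ (n - g) := fun x hx => Nat.pow_le_pow_right (by norm_num) hx
  have hbig : 2 ^ n = 2 ^ (g - 1) * (2 * 2 ^ (n - g)) := by
    rw [← pow_succ', ← pow_add]
    congr 1
    omega
  set u := 2 ^ ((a + t) % n) + 2 ^ ((b + t) % n) with hu
  set v := 2 ^ ((c + t) % n) + 2 ^ ((e + t) % n) with hv
  have hub : u ≤ 2 * 2 ^ (n - g) := by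
    have := hle _ h1; have := hle _ h2; omega
  have hvb : v ≤ 2 * 2 ^ (n - g) := by
    have := hle _ h3; have := hle _ h4; omega
  have hu1 : 1 ≤ u := by
    have : 0 < 2 ^ ((a + t) % n) := by positivity
    exact le_trans this (Nat.le_add_right _ _)
  have hv1 : 1 ≤ v := by
    have : 0 < 2 ^ ((c + t) % n) := by positivity
    exact le_trans this (Nat.le_add_right _ _)
  have hN' : ∀ w, 0 < w → w < 2 * 2 ^ (n - g) → ¬ N ∣ w := by
    intro w hw0 hw hNw
    have h8 : N ≤ w := Nat.le_of_dvd hw0 hNw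
    have h9 : d * N ≤ (2 ^ (g - 1) - 1) * (2 * 2 ^ (n - g) - 1) :=
      Nat.mul_le_mul (by omega) (by omega)
    rw [hN, hbig] at h9
    have hp1 : 0 < 2 ^ (g - 1) := by positivity
    have hp2 : 0 < 2 ^ (n - g) := by positivity
    obtain ⟨P, hP⟩ : ∃ P, 2 ^ (g - 1) = P + 1 := ⟨2 ^ (g - 1) - 1, by omega⟩
    obtain ⟨R, hR⟩ : ∃ R, 2 * 2 ^ (n - g) = R + 2 := ⟨2 * 2 ^ (n - g) - 2, by omega⟩
    rw [hP, hR] at h9
    have h10 : (P + 1) * (R + 2) - 1 = P * (R + 1) + (P + R + 1) := by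
      have : (P + 1) * (R + 2) = P * (R + 1) + (P + R + 2) := by ring
      omega
    have h11 : (P + 1 - 1) * (R + 2 - 1) = P * (R + 1) := by simp
    rw [h10, h11] at h9
    omega
  have huv : u = v := by
    rcases Nat.lt_trichotomy u v with hlt | heq | hgt
    · exfalso
      refine hN' (v - u) (by omega) (by omega) ?_
      exact (Nat.modEq_iff_dvd' hlt.le).mp h5
    · exact heq
    · exfalso
      refine hN' (u - v) (by omega) (by omega) ?_
      exact (Nat.modEq_iff_dvd' hgt.le).mp h5.symm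
  have hrot : ∀ x y, x < n → y < n → (x + t) % n = (y + t) % n → x = y := by
    intro x y hx hy hxy
    have h8 : x + t ≡ y + t [MOD n] := hxy
    exact Nat.ModEq.eq_of_lt_of_lt (Nat.ModEq.add_right_cancel' t h8) hx hy
  rcases pow_add_pow_inj huv with ⟨h8, h9⟩ | ⟨h8, h9⟩
  · exact Or.inl ⟨hrot _ _ ha hc h8, hrot _ _ hb he h9⟩
  · exact Or.inr ⟨hrot _ _ ha he h8, hrot _ _ hb hc h9⟩

theorem big_aux (k : ℕ) (r : ℕ) (hr : r < 4) : 4 * (k + 5) + 1 + r < 2 ^ (k + 5) := by
  induction k with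
  | zero => norm_num; omega
  | succ k ih =>
    have h1 : 2 ^ (k + 1 + 5) = 2 * 2 ^ (k + 5) := by ring
    rw [h1]
    omega

/-- The case distinction on `(n, d)`. -/
theorem exists_g {n d N : ℕ} (hn : 2 ≤ n) (hdn : d ∣ n) (hN : d * N = 2 ^ n - 1) :
    (∃ g, 1 ≤ g ∧ d < 2 ^ (g - 1) ∧ 4 * (g - 1) < n) ∨ (n = 2 ∧ N = 3) ∨ (n = 3 ∧ N = 7) ∨
      (n = 4 ∧ N = 15) ∨ (n = 6 ∧ N = 21) := by
  have hdle : d ≤ n := Nat.le_of_dvd (by omega) hdn
  have hd2 : d ∣ 2 ^ n - 1 := ⟨N, hN.symm⟩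
  rcases Nat.lt_or_ge n 21 with h | h
  · interval_cases n
    · -- 2
      interval_cases d <;> simp at hN hdn ⊢ <;> omega
    · interval_cases d <;> simp at hN hdn ⊢ <;> omega
    · interval_cases d <;> simp at hN hdn ⊢ <;> omega
    · refine Or.inl ⟨2, by norm_num, ?_, by norm_num⟩
      interval_cases d <;> first | (exfalso; revert hd2; decide) | (exfalso; revert hdn; decide) | norm_num
    · interval_cases d <;> first | (exfalso; revert hd2; decide) | (exfalso; revert hdn; decide) | skip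
      · exact Or.inl ⟨2, by norm_num, by norm_num, by norm_num⟩
      · right; right; right; right; exact ⟨rfl, by omega⟩
    · refine Or.inl ⟨2, by norm_num, ?_, by norm_num⟩
      interval_cases d <;> first | (exfalso; revert hd2; decide) | (exfalso; revert hdn; decide) | norm_num
    · refine Or.inl ⟨2, by norm_num, ?_, by norm_num⟩
      interval_cases d <;> first | (exfalso; revert hd2; decide) | (exfalso; revert hdn; decide) | norm_num
    · refine Or.inl ⟨3, by norm_num, ?_, by norm_num⟩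
      interval_cases d <;> first | (exfalso; revert hd2; decide) | (exfalso; revert hdn; decide) | norm_num
    · refine Or.inl ⟨3, by norm_num, ?_, by norm_num⟩
      interval_cases d <;> first | (exfalso; revert hd2; decide) | (exfalso; revert hdn; decide) | norm_num
    · refine Or.inl ⟨3, by norm_num, ?_, by norm_num⟩
      interval_cases d <;> first | (exfalso; revert hd2; decide) | (exfalso; revert hdn; decide) | norm_num
    · refine Or.inl ⟨3, by norm_num, ?_, by norm_num⟩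
      interval_cases d <;> first | (exfalso; revert hd2; decide) | (exfalso; revert hdn; decide) | norm_num
    · refine Or.inl ⟨4, by norm_num, ?_, by norm_num⟩
      interval_cases d <;> first | (exfalso; revert hd2; decide) | (exfalso; revert hdn; decide) | norm_num
    · refine Or.inl ⟨4, by norm_num, ?_, by norm_num⟩
      interval_cases d <;> first | (exfalso; revert hd2; decide) | (exfalso; revert hdn; decide) | norm_num
    · refine Or.inl ⟨4, by norm_num, ?_, by norm_num⟩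
      interval_cases d <;> first | (exfalso; revert hd2; decide) | (exfalso; revert hdn; decide) | norm_num
    · refine Or.inl ⟨4, by norm_num, ?_, by norm_num⟩
      interval_cases d <;> first | (exfalso; revert hd2; decide) | (exfalso; revert hdn; decide) | norm_num
    · refine Or.inl ⟨5, by norm_num, ?_, by norm_num⟩
      interval_cases d <;> first | (exfalso; revert hd2; decide) | (exfalso; revert hdn; decide) | norm_num
    · refine Or.inl ⟨5, by norm_num, ?_, by norm_num⟩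
      interval_cases d <;> first | (exfalso; revert hd2; decide) | (exfalso; revert hdn; decide) | norm_num
    · refine Or.inl ⟨5, by norm_num, ?_, by norm_num⟩
      interval_cases d <;> first | (exfalso; revert hd2; decide) | (exfalso; revert hdn; decide) | norm_num
    · refine Or.inl ⟨5, by norm_num, ?_, by norm_num⟩
      interval_cases d <;> first | (exfalso; revert hd2; decide) | (exfalso; revert hdn; decide) | norm_num
  · left
    obtain ⟨k, r, hr, hk⟩ : ∃ k r, r < 4 ∧ n = 4 * (k + 5) + 1 + r :=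
      ⟨(n - 21) / 4, (n - 21) % 4, Nat.mod_lt _ (by norm_num), by omega⟩
    refine ⟨k + 6, by omega, ?_, by omega⟩
    have := big_aux k r hr
    have h2 : k + 6 - 1 = k + 5 := by omega
    rw [h2]
    omega

theorem nt1 {n d N : ℕ} (hn : 2 ≤ n) (hdn : d ∣ n) (hN : d * N = 2 ^ n - 1) {i j : ℕ}
    (hi : i < n) (hj : j < n) (h : 2 ^ i + 2 ^ j ≡ 1 [MOD N]) : i = j := by
  rcases exists_g hn hdn hN with ⟨g, hg, hd, hng⟩ | ⟨rfl, rfl⟩ | ⟨rfl, rfl⟩ | ⟨rfl, rfl⟩ | ⟨rfl, rfl⟩
  · have h1 : 2 ^ (n - 1) + 2 ^ (n - 1) ≡ 1 [MOD N] := by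
      have h2 : 2 ^ (n - 1) + 2 ^ (n - 1) = 2 ^ n := by
        rw [← two_mul, ← pow_succ']
        congr 1
        omega
      rw [h2]
      have h3 : 1 ≤ 2 ^ n := Nat.one_le_two_pow
      exact ((Nat.modEq_iff_dvd' h3).mpr ⟨d, by rw [← hN, mul_comm]⟩).symm
    rcases sum_inj hN hg hd hng hi hj (by omega : n - 1 < n) (by omega : n - 1 < n)
      (h.trans h1.symm) with ⟨h4, h5⟩ | ⟨h4, h5⟩ <;> omega
  · revert h; unfold Nat.ModEq; interval_cases i <;> interval_cases j <;> decide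
  · revert h; unfold Nat.ModEq; interval_cases i <;> interval_cases j <;> decide
  · revert h; unfold Nat.ModEq; interval_cases i <;> interval_cases j <;> decide
  · revert h; unfold Nat.ModEq; interval_cases i <;> interval_cases j <;> decide

theorem nt0 {n d N : ℕ} (hn : 2 ≤ n) (hdn : d ∣ n) (hN : d * N = 2 ^ n - 1) {j : ℕ}
    (hj : j < n) (h : 2 ^ j ≡ 1 [MOD N]) : j = 0 := by
  rcases exists_g hn hdn hN with ⟨g, hg, hd, hng⟩ | ⟨rfl, rfl⟩ | ⟨rfl, rfl⟩ | ⟨rfl, rfl⟩ | ⟨rfl, rfl⟩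
  · have h1 : 2 ^ j + 2 ^ 0 ≡ 2 ^ 0 + 2 ^ 0 [MOD N] := h.add_right 1
    rcases sum_inj hN hg hd hng hj (by omega : 0 < n) (by omega : 0 < n) (by omega : 0 < n)
      h1 with ⟨h4, h5⟩ | ⟨h4, h5⟩ <;> omega
  · revert h; unfold Nat.ModEq; interval_cases j <;> decide
  · revert h; unfold Nat.ModEq; interval_cases j <;> decide
  · revert h; unfold Nat.ModEq; interval_cases j <;> decide
  · revert h; unfold Nat.ModEq; interval_cases j <;> decide

theorem nt2 {n d N : ℕ} (hn : 2 ≤ n) (hdn : d ∣ n) (hN : d * N = 2 ^ n - 1) {i j t : ℕ}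
    (hi : i < n) (hj : j < n) (ht : t < n) (hi0 : i ≠ 0) (hj0 : j ≠ 0)
    (h : 2 ^ t + 2 ^ j ≡ 1 + 2 ^ (t + i) [MOD N]) : i = j := by
  rcases exists_g hn hdn hN with ⟨g, hg, hd, hng⟩ | ⟨rfl, rfl⟩ | ⟨rfl, rfl⟩ | ⟨rfl, rfl⟩ | ⟨rfl, rfl⟩
  · have h1 : 2 ^ t + 2 ^ j ≡ 2 ^ 0 + 2 ^ ((t + i) % n) [MOD N] := by
      refine h.trans ?_
      rw [pow_zero]
      exact ((two_pow_mod ⟨d, by rw [← hN, mul_comm]⟩ (t + i)).add_left 1).symm
    rcases sum_inj hN hg hd hng ht hj (by omega : 0 < n) (Nat.mod_lt _ (by omega))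
      h1 with ⟨h4, h5⟩ | ⟨h4, h5⟩
    · subst h4
      rw [zero_add, Nat.mod_eq_of_lt hi] at h5
      exact h5.symm
    · exact absurd h5 hj0
  · interval_cases i <;> interval_cases j <;> first | rfl | omega
  · revert h; unfold Nat.ModEq
    interval_cases i <;> interval_cases j <;> interval_cases t <;>
      first | (exact absurd rfl hi0) | (exact absurd rfl hj0) | decide
  · revert h; unfold Nat.ModEq
    interval_cases i <;> interval_cases j <;> interval_cases t <;>
      first | (exact absurd rfl hi0) | (exact absurd rfl hj0) | decide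
  · revert h; unfold Nat.ModEq
    interval_cases i <;> interval_cases j <;> interval_cases t <;>
      first | (exact absurd rfl hi0) | (exact absurd rfl hj0) | decide

end Cfsg.Agent.H448.SuzArith
end

-- part: H448/SuzField
section
/-!
# Equivariant additive and biadditive maps on a finite field of characteristic two

`l` is an element of the finite field `F` such that the products `σ l * τ l` of two automorphisms are
almost unique.
-/

set_option autoImplicit false

namespace Cfsg.Agent.H448.SuzField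

open Cfsg.Agent.LieRecognition.FieldAutBasis Polynomial

variable {F : Type*} [Field F] [Finite F] [CharP F 2]

theorem exists_sqrt (a : F) : ∃ w, w * w = a := by
  have := Fintype.ofFinite F
  obtain ⟨w, hw⟩ := FiniteField.isSquare_of_char_two (ringChar.eq F 2) a
  exact ⟨w, hw.symm⟩

omit [Finite F] [CharP F 2] in
theorem coeff_zero₂ [Fintype (F ≃+* F)] (d : (F ≃+* F) → (F ≃+* F) → F)
    (h : ∀ x y : F, ∑ σ, ∑ τ, d σ τ * (σ x * τ y) = 0) (σ τ : F ≃+* F) : d σ τ = 0 := by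
  have h1 : ∀ y : F, (fun σ => ∑ τ, d σ τ * τ y) = (0 : (F ≃+* F) → F) := by
    intro y
    apply eq_zero_of_sum_eq_zero
    intro x
    rw [← h x y]
    refine Finset.sum_congr rfl fun σ _ => ?_
    rw [Finset.sum_mul]
    refine Finset.sum_congr rfl fun τ _ => ?_
    ring
  have h2 : (fun τ => d σ τ) = (0 : (F ≃+* F) → F) := by
    apply eq_zero_of_sum_eq_zero
    intro y
    exact congrFun (h1 y) σ
  exact congrFun h2 τ

/-- An equivariant alternating biadditive map vanishes. -/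
theorem alt_zero {l : F} (hnt : ∀ σ τ : F ≃+* F, σ l * τ l = l → σ = τ) (B : F →+ F →+ F)
    (hB : ∀ x y, B (l * x) (l * y) = l * B x y) (halt : ∀ x, B x x = 0) (x y : F) : B x y = 0 := by
  classical
  have : Finite (F ≃+* F) := Finite.of_injective (fun σ : F ≃+* F => (σ : F → F)) DFunLike.coe_injective
  let _ : Fintype (F ≃+* F) := Fintype.ofFinite _
  obtain ⟨c, hc⟩ := existsUnique_coeff₂ 2 B
  have hz : ∀ σ τ : F ≃+* F, c σ τ * (σ l * τ l - l) = 0 := by
    apply coeff_zero₂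
    intro x y
    have h1 := hB x y
    rw [hc, hc, Finset.mul_sum] at h1
    rw [← sub_eq_zero, ← Finset.sum_sub_distrib] at h1
    rw [← h1]
    refine Finset.sum_congr rfl fun σ _ => ?_
    rw [Finset.mul_sum, ← Finset.sum_sub_distrib]
    refine Finset.sum_congr rfl fun τ _ => ?_
    rw [map_mul, map_mul]
    ring
  obtain ⟨w, hw⟩ := exists_sqrt (x * y)
  rw [← halt w, hc, hc]
  refine Finset.sum_congr rfl fun σ _ => Finset.sum_congr rfl fun τ _ => ?_
  by_cases h0 : c σ τ = 0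
  · rw [h0, zero_mul, zero_mul]
  · have h1 : σ = τ := hnt σ τ (sub_eq_zero.mp ((mul_eq_zero.mp (hz σ τ)).resolve_left h0))
    subst h1
    rw [← map_mul, ← map_mul, hw]

/-- Separating polynomials. -/
theorem exists_poly {ι : Type*} [Fintype ι] [DecidableEq ι] (μ : ι → F) (i0 : ι)
    (h : ∀ i, (∃ g : F ≃+* F, g (μ i0) = μ i) → i = i0) :
    ∃ P : ℤ[X], aeval (μ i0) P = 1 ∧ ∀ i, i ≠ i0 → aeval (μ i) P = 0 := by
  let _ : Fintype F := Fintype.ofFinite F
  let _ : Algebra (ZMod 2) F := ZMod.algebra F 2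
  have : IsGalois (ZMod 2) F := inferInstance
  have hint : ∀ x : F, IsIntegral (ZMod 2) x := fun x => IsIntegral.of_finite (ZMod 2) x
  have hcop : IsCoprime (minpoly (ZMod 2) (μ i0))
      (∏ i ∈ Finset.univ.erase i0, minpoly (ZMod 2) (μ i)) := by
    apply IsCoprime.prod_right
    intro i hi
    rw [Finset.mem_erase] at hi
    rw [(minpoly.irreducible (hint (μ i0))).coprime_iff_not_dvd]
    intro hdvd
    apply hi.1
    apply h
    have h2 : aeval (μ i) (minpoly (ZMod 2) (μ i0)) = 0 := by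
      have h3 : minpoly (ZMod 2) (μ i0) = minpoly (ZMod 2) (μ i) :=
        eq_of_monic_of_associated (minpoly.monic (hint _)) (minpoly.monic (hint _))
          ((minpoly.irreducible (hint (μ i0))).associated_of_dvd (minpoly.irreducible (hint (μ i)))
            hdvd)
      rw [h3]
      exact minpoly.aeval _ _
    obtain ⟨g, hg⟩ := minpoly.exists_algEquiv_of_root' (hint (μ i0)).isAlgebraic h2
    exact ⟨(g : F ≃+* F), hg⟩
  obtain ⟨u, w, huw⟩ := hcop
  set D := ∏ i ∈ Finset.univ.erase i0, minpoly (ZMod 2) (μ i) with hD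
  have hsurj : Function.Surjective (Polynomial.map (Int.castRingHom (ZMod 2))) :=
    Polynomial.map_surjective _ (ZMod.ringHom_surjective _)
  obtain ⟨P, hP⟩ := hsurj (w * D)
  have hev : ∀ x : F, aeval x P = aeval x (w * D) := by
    intro x
    rw [← hP, aeval_def, aeval_def, eval₂_map]
    congr 1
    exact Subsingleton.elim _ _
  refine ⟨P, ?_, ?_⟩
  · rw [hev]
    have h1 := congrArg (aeval (μ i0)) huw
    rw [map_add, map_mul, minpoly.aeval, mul_zero, zero_add, map_one] at h1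
    exact h1
  · intro i hi
    rw [hev, map_mul]
    have : aeval (μ i) D = 0 := by
      rw [hD, map_prod]
      exact Finset.prod_eq_zero (Finset.mem_erase.mpr ⟨hi, Finset.mem_univ i⟩) (minpoly.aeval _ _)
    rw [this, mul_zero]

/-- The additive map `x ↦ c * σ x`. -/
noncomputable def term (c : F) (σ : F ≃+* F) : F →+ F :=
  AddMonoidHom.mk' (fun x => c * σ x) (by intro x y; rw [map_add, mul_add])

omit [Finite F] [CharP F 2] in
theorem term_apply (c : F) (σ : F ≃+* F) (x : F) : term c σ x = c * σ x := rfl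

/-- The conjugation operator. -/
noncomputable def conj (l : F) : AddMonoid.End (F →+ F) :=
  AddMonoidHom.mk' (fun v => AddMonoidHom.mk' (fun x => l * v (l⁻¹ * x))
    (by intro x y; rw [mul_add, map_add, mul_add]))
    (by intro v w; ext x; change l * (v (l⁻¹ * x) + w (l⁻¹ * x)) = _; rw [mul_add]; rfl)

omit [Finite F] [CharP F 2] in
theorem conj_apply (l : F) (v : F →+ F) (x : F) : conj l v x = l * v (l⁻¹ * x) := rfl

omit [Finite F] [CharP F 2] in
theorem conj_term (l c : F) (σ : F ≃+* F) :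
    conj l (term c σ) = term ((l * (σ l)⁻¹) * c) σ := by
  ext x
  rw [conj_apply, term_apply, term_apply, map_mul, map_inv₀]
  ring

omit [Finite F] [CharP F 2] in
theorem aeval_term (l c : F) (σ : F ≃+* F) (P : ℤ[X]) :
    (aeval (conj l) P) (term c σ) = term (aeval (l * (σ l)⁻¹) P * c) σ := by
  induction P using Polynomial.induction_on' with
  | add p q hp hq =>
    rw [map_add, map_add]
    change (aeval (conj l) p) (term c σ) + (aeval (conj l) q) (term c σ) = _
    rw [hp, hq]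
    ext x
    simp only [AddMonoidHom.add_apply, term_apply]
    ring
  | monomial n a =>
    rw [aeval_monomial, aeval_monomial]
    have h1 : ∀ n : ℕ, ((conj l) ^ n) (term c σ) = term ((l * (σ l)⁻¹) ^ n * c) σ := by
      intro n
      induction n with
      | zero => rw [pow_zero, pow_zero, one_mul]; rfl
      | succ n ih =>
        rw [pow_succ']
        change conj l (((conj l) ^ n) (term c σ)) = _
        rw [ih, conj_term]
        congr 1
        ring
    change (algebraMap ℤ (AddMonoid.End (F →+ F)) a) (((conj l) ^ n) (term c σ)) = _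
    rw [h1]
    have h2 : ∀ v : F →+ F, (algebraMap ℤ (AddMonoid.End (F →+ F)) a) v = a • v := by
      intro v
      exact AddMonoid.End.intCast_apply a v
    rw [h2]
    ext x
    rw [AddMonoidHom.coe_smul, Pi.smul_apply, term_apply, term_apply, zsmul_eq_mul]
    simp only [eq_intCast]
    ring

omit [Finite F] [CharP F 2] in
theorem aeval_mem (l : F) (V : AddSubgroup (F →+ F)) (hV : ∀ v ∈ V, conj l v ∈ V) (P : ℤ[X]) :
    ∀ v ∈ V, (aeval (conj l) P) v ∈ V := by
  induction P using Polynomial.induction_on' with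
  | add p q hp hq =>
    intro v hv
    rw [map_add]
    exact V.add_mem (hp v hv) (hq v hv)
  | monomial n a =>
    intro v hv
    rw [aeval_monomial]
    have h1 : ∀ n : ℕ, ((conj l) ^ n) v ∈ V := by
      intro n
      induction n with
      | zero => rw [pow_zero]; exact hv
      | succ n ih => rw [pow_succ']; exact hV _ ih
    change (algebraMap ℤ (AddMonoid.End (F →+ F)) a) (((conj l) ^ n) v) ∈ V
    have h2 : ∀ v : F →+ F, (algebraMap ℤ (AddMonoid.End (F →+ F)) a) v = a • v := by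
      intro v
      exact AddMonoid.End.intCast_apply a v
    rw [h2]
    exact V.zsmul_mem (h1 n) a

/-- The components of an element of an invariant group of additive maps belong to it. -/
theorem component_mem [Fintype (F ≃+* F)] {l : F} (hl : l ≠ 0)
    (hsep : ∀ g φ ψ : F ≃+* F, g l * ψ l = l * g (φ l) → φ = ψ)
    (V : AddSubgroup (F →+ F)) (hV : ∀ v ∈ V, conj l v ∈ V) {v : F →+ F} (hv : v ∈ V)
    (c : (F ≃+* F) → F) (hc : ∀ x, v x = ∑ σ, c σ * σ x) (σ0 : F ≃+* F) :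
    term (c σ0) σ0 ∈ V := by
  classical
  obtain ⟨P, hP1, hP2⟩ := exists_poly (fun σ : F ≃+* F => l * (σ l)⁻¹) σ0 (by
    rintro σ ⟨g, hg⟩
    symm
    apply hsep g
    rw [map_mul, map_inv₀] at hg
    have h1 : σ l ≠ 0 := by simpa using hl
    have h2 : g (σ0 l) ≠ 0 := by simpa using hl
    field_simp at hg
    linear_combination hg)
  have hvs : v = ∑ σ, term (c σ) σ := by
    ext x
    rw [hc x, AddMonoidHom.finsetSum_apply]
    rfl
  have h1 : (aeval (conj l) P) v = term (c σ0) σ0 := by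
    rw [hvs, map_sum]
    rw [Finset.sum_eq_single σ0]
    · rw [aeval_term, hP1, one_mul]
    · intro σ _ hσ
      rw [aeval_term, hP2 σ hσ, zero_mul]
      ext x
      rw [term_apply, zero_mul]; rfl
    · intro h; exact absurd (Finset.mem_univ _) h
  rw [← h1]
  exact aeval_mem l V hV P v hv

/-! ### Counting -/

/-- The fixed elements of `φ`. -/
def fix (φ : F ≃+* F) : Set F := {x | φ x = x}

omit [CharP F 2] in
theorem sq_card_fix_le (φ : F ≃+* F) (hφ : ∃ x, φ x ≠ x) :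
    (fix φ).ncard * (fix φ).ncard ≤ Nat.card F := by
  classical
  obtain ⟨t, ht⟩ := hφ
  have h1 : Function.Injective (fun p : fix φ × fix φ => (p.1 : F) + p.2 * t) := by
    rintro ⟨⟨a, ha⟩, ⟨b, hb⟩⟩ ⟨⟨a', ha'⟩, ⟨b', hb'⟩⟩ h
    simp only at h
    have ha1 : φ a = a := ha
    have hb1 : φ b = b := hb
    have ha1' : φ a' = a' := ha'
    have hb1' : φ b' = b' := hb'
    by_cases hbb : b = b'
    · subst hbb
      have : a = a' := add_right_cancel h
      subst this
      rfl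
    · exfalso
      apply ht
      have h2 : (b - b') ≠ 0 := sub_ne_zero.mpr hbb
      have h3 : t = (a' - a) * (b - b')⁻¹ := by
        rw [eq_mul_inv_iff_mul_eq₀ h2]
        linear_combination h
      rw [h3, map_mul, map_inv₀, map_sub, map_sub, ha1, hb1, ha1', hb1']
  have h2 := Nat.card_le_card_of_injective _ h1
  rw [Nat.card_prod] at h2
  rw [← Nat.card_coe_set_eq]
  exact h2

omit [CharP F 2] in
theorem two_le_fix (φ : F ≃+* F) : 2 ≤ (fix φ).ncard := by
  have h1 : ({0, 1} : Set F) ⊆ fix φ := by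
    intro x hx
    rcases hx with rfl | rfl
    · exact map_zero φ
    · exact map_one φ
  have h2 := Set.ncard_le_ncard h1 (Set.toFinite _)
  rw [Set.ncard_pair zero_ne_one] at h2
  exact h2

omit [CharP F 2] in
/-- The solutions of `f = a * φ f`. -/
theorem card_sol_le (φ : F ≃+* F) (a : F) : ({f : F | f = a * φ f}).ncard ≤ (fix φ).ncard := by
  classical
  by_cases h : ∃ f0 : F, f0 ≠ 0 ∧ f0 = a * φ f0
  · obtain ⟨f0, hf0, hf1⟩ := h
    refine Set.ncard_le_ncard_of_injOn (fun f => f / f0) ?_ ?_ (Set.toFinite _)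
    · intro f hf
      change φ (f / f0) = f / f0
      have hf' : f = a * φ f := hf
      have h1 : φ f0 ≠ 0 := by simpa using hf0
      rw [map_div₀, div_eq_div_iff h1 hf0]
      by_cases ha : a = 0
      · rw [ha, zero_mul] at hf1; exact absurd hf1 hf0
      · apply mul_left_cancel₀ ha
        linear_combination f * hf1 - f0 * hf'
    · intro f _ g _ hfg
      exact (div_left_inj' hf0).mp hfg
  · push Not at h
    have h1 : ({f : F | f = a * φ f}) ⊆ {0} := by
      intro f hf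
      by_contra hne
      exact h f hne hf
    have h2 := Set.ncard_le_ncard h1 (Set.toFinite _)
    rw [Set.ncard_singleton] at h2
    have := two_le_fix φ
    omega

omit [CharP F 2] in
/-- There are many quotients `f / φ f`. -/
theorem card_quot (φ : F ≃+* F) (S : Set F) (h0 : (0 : F) ∈ S) (hS : ∀ f : F, f ≠ 0 → f / φ f ∈ S) :
    Nat.card F - 1 ≤ ((fix φ).ncard - 1) * (S.ncard - 1) := by
  classical
  let _ : Fintype F := Fintype.ofFinite F
  have h1 := Finset.card_le_mul_card_image (f := fun f : F => f / φ f) (Finset.univ.erase (0 : F))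
    ((fix φ).ncard - 1) (by
      intro a ha
      obtain ⟨g, hg, rfl⟩ := Finset.mem_image.mp ha
      rw [Finset.mem_erase] at hg
      have hg0 := hg.1
      have h2 : ((Finset.univ.erase (0 : F)).filter (fun f => f / φ f = g / φ g)).card ≤
          ((fix φ) \ {0}).ncard := by
        rw [Set.ncard_eq_toFinset_card']
        refine Finset.card_le_card_of_injOn (fun f => f / g) ?_ ?_
        · intro f hf
          simp only [Finset.coe_filter, Finset.mem_erase, Finset.mem_univ, and_true,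
            Set.mem_ofPred_eq] at hf
          simp only [Set.coe_toFinset, Set.mem_sdiff, Set.mem_singleton_iff]
          refine ⟨?_, div_ne_zero hf.1 hg0⟩
          change φ (f / g) = f / g
          have h3 : φ f ≠ 0 := by simpa using hf.1
          have h4 : φ g ≠ 0 := by simpa using hg0
          have h5 := hf.2
          rw [div_eq_div_iff h3 h4] at h5
          rw [map_div₀, div_eq_div_iff h4 hg0]
          linear_combination -h5
        · intro f _ f' _ h
          exact (div_left_inj' hg0).mp h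
      refine h2.trans ?_
      rw [Set.ncard_sdiff_singleton_of_mem (show (0 : F) ∈ fix φ from map_zero φ)])
  rw [Finset.card_erase_of_mem (Finset.mem_univ _), Finset.card_univ, ← Nat.card_eq_fintype_card] at h1
  refine h1.trans (Nat.mul_le_mul_left _ ?_)
  rw [← Set.ncard_sdiff_singleton_of_mem h0, Set.ncard_eq_toFinset_card']
  apply Finset.card_le_card
  intro a ha
  obtain ⟨g, hg, rfl⟩ := Finset.mem_image.mp ha
  rw [Finset.mem_erase] at hg
  have h4 : φ g ≠ 0 := by simpa using hg.1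
  simp only [Set.mem_toFinset, Set.mem_sdiff, Set.mem_singleton_iff]
  exact ⟨hS g hg.1, div_ne_zero hg.1 h4⟩

omit [CharP F 2] in
/-- The final count. -/
theorem count_false (φ ψ : F ≃+* F) (hφ : ∃ x, φ x ≠ x) (hψ : ∃ x, ψ x ≠ x) (S : Set F)
    (h0 : (0 : F) ∈ S) (hS : ∀ f : F, f ≠ 0 → f / φ f ∈ S) (hle : S.ncard ≤ (fix ψ).ncard) :
    False := by
  have h1 := card_quot φ S h0 hS
  have h2 := sq_card_fix_le φ hφ
  have h3 := sq_card_fix_le ψ hψ
  have h4 := two_le_fix φ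
  have h5 := two_le_fix ψ
  set a := (fix φ).ncard
  set b := (fix ψ).ncard
  set q := Nat.card F
  have h6 : (a - 1) * (S.ncard - 1) ≤ (a - 1) * (b - 1) := Nat.mul_le_mul_left _ (by omega)
  obtain ⟨a', ha'⟩ : ∃ a', a = a' + 1 := ⟨a - 1, by omega⟩
  obtain ⟨b', hb'⟩ : ∃ b', b = b' + 1 := ⟨b - 1, by omega⟩
  rw [ha'] at h1 h2 h4 h6
  rw [hb'] at h3 h5 h6
  simp only [Nat.add_sub_cancel] at h1 h6
  have h7 : q ≤ a' * b' + 1 := by
    have := h1.trans h6
    omega
  rcases le_total a' b' with h | h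
  · have h8 : a' * b' ≤ b' * b' := Nat.mul_le_mul_right _ h
    nlinarith
  · have h8 : a' * b' ≤ a' * a' := Nat.mul_le_mul_left _ h
    nlinarith

end Cfsg.Agent.H448.SuzField
end

-- part: H448/SuzSetup
section
/-!
# A transitive semilinear group contains many scalars
-/

set_option autoImplicit false

namespace Cfsg.Agent.H448.SuzSetup

open Cfsg.Agent.H448.SuzArith

variable {F : Type*} [Field F] [Finite F] [CharP F 2] {f : ℕ}

/-- Ring automorphisms as algebra automorphisms. -/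
def autEquiv [Algebra (ZMod 2) F] : (F ≃+* F) ≃ (F ≃ₐ[ZMod 2] F) where
  toFun := fun σ => AlgEquiv.ofRingEquiv (f := σ) (fun r => by
          have := DFunLike.congr_fun (Subsingleton.elim
            ((σ : F →+* F).comp (algebraMap (ZMod 2) F)) (algebraMap (ZMod 2) F)) r
          exact this)
  invFun := fun σ => (σ : F ≃+* F)
  left_inv := fun σ => by ext x; rfl
  right_inv := fun σ => by ext x; rfl

theorem finrank_eq [Algebra (ZMod 2) F] (hf : Nat.card F = 2 ^ f) : Module.finrank (ZMod 2) F = f := by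
  have h1 : Nat.card F = Nat.card (ZMod 2) ^ Module.finrank (ZMod 2) F :=
    Module.natCard_eq_pow_finrank (K := ZMod 2) (V := F)
  rw [hf, Nat.card_zmod] at h1
  exact (Nat.pow_right_injective (le_refl 2) h1).symm

theorem card_aut (hf : Nat.card F = 2 ^ f) : Nat.card (F ≃+* F) = f := by
  let _ : Algebra (ZMod 2) F := ZMod.algebra F 2
  have : IsGalois (ZMod 2) F := inferInstance
  rw [Nat.card_congr autEquiv, IsGalois.card_aut_eq_finrank, finrank_eq hf]

theorem exists_frob (hf : Nat.card F = 2 ^ f) (σ : F ≃+* F) : ∃ i < f, ∀ x, σ x = x ^ 2 ^ i := by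
  let _ : Algebra (ZMod 2) F := ZMod.algebra F 2
  obtain ⟨⟨i, hi⟩, h⟩ := (FiniteField.bijective_frobeniusAlgEquivOfAlgebraic_pow (ZMod 2) F).2
    (autEquiv σ)
  rw [finrank_eq hf] at hi
  refine ⟨i, hi, fun x => ?_⟩
  have h1 := DFunLike.congr_fun h x
  have h2 : autEquiv σ x = σ x := rfl
  rw [h2] at h1
  rw [← h1]
  have h3 : ∀ n : ℕ, (FiniteField.frobeniusAlgEquivOfAlgebraic (ZMod 2) F ^ n) x = x ^ 2 ^ n := by
    intro n
    induction n with
    | zero => rw [pow_zero, pow_zero, pow_one]; rfl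
    | succ n ih =>
      rw [pow_succ', AlgEquiv.mul_apply, ih, FiniteField.coe_frobeniusAlgEquivOfAlgebraic,
        ZMod.card]
      change (x ^ 2 ^ n) ^ 2 = _
      rw [← pow_mul, ← pow_succ]
  exact h3 i

theorem aut_comm (hf : Nat.card F = 2 ^ f) (σ τ : F ≃+* F) (x : F) : σ (τ x) = τ (σ x) := by
  obtain ⟨i, -, hi⟩ := exists_frob hf σ
  obtain ⟨j, -, hj⟩ := exists_frob hf τ
  rw [hi, hj, hi, hj, ← pow_mul, ← pow_mul, mul_comm]

theorem modEq_of_pow_eq {l : F} (hl : l ≠ 0) {a b : ℕ} (h : l ^ a = l ^ b) : a ≡ b [MOD orderOf l] := by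
  have h1 : (Units.mk0 l hl) ^ a = (Units.mk0 l hl) ^ b := by
    ext
    simpa using h
  have h2 := pow_eq_pow_iff_modEq.mp h1
  rw [← orderOf_units] at h2
  exact h2

variable {l : F} {d : ℕ}

theorem nt_aut (hf : Nat.card F = 2 ^ f) (hf2 : 2 ≤ f) (hl : l ≠ 0) (hd : d ∣ f)
    (hN : d * orderOf l = 2 ^ f - 1) (σ τ : F ≃+* F) (h : σ l * τ l = l) : σ = τ := by
  obtain ⟨i, hi', hi⟩ := exists_frob hf σ
  obtain ⟨j, hj', hj⟩ := exists_frob hf τ
  have h1 : l ^ (2 ^ i + 2 ^ j) = l ^ 1 := by rw [pow_add, ← hi, ← hj, h, pow_one]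
  have h2 := nt1 hf2 hd hN hi' hj' (modEq_of_pow_eq hl h1)
  subst h2
  ext x
  rw [hi, hj]

theorem sep_aut (hf : Nat.card F = 2 ^ f) (hf2 : 2 ≤ f) (hl : l ≠ 0) (hd : d ∣ f)
    (hN : d * orderOf l = 2 ^ f - 1) (g φ ψ : F ≃+* F) (h : g l * ψ l = l * g (φ l)) : φ = ψ := by
  obtain ⟨t, ht', ht⟩ := exists_frob hf g
  obtain ⟨i, hi', hi⟩ := exists_frob hf φ
  obtain ⟨j, hj', hj⟩ := exists_frob hf ψ
  have hij : i = j := by
    by_cases hi0 : i = 0
    · have h1 : φ l = l := by rw [hi, hi0, pow_zero, pow_one]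
      have hg : g l ≠ 0 := by simpa using hl
      rw [h1, mul_comm l] at h
      have h2 := mul_left_cancel₀ hg h
      rw [hj] at h2
      have h3 := nt0 hf2 hd hN hj' (modEq_of_pow_eq (b := 1) hl (by rw [pow_one]; exact h2))
      rw [hi0, h3]
    · by_cases hj0 : j = 0
      · have h1 : ψ l = l := by rw [hj, hj0, pow_zero, pow_one]
        rw [h1, mul_comm l] at h
        have h2 := mul_right_cancel₀ hl h
        have h3 := g.injective h2
        rw [hi] at h3
        have h4 := nt0 hf2 hd hN hi' (modEq_of_pow_eq (b := 1) hl (by rw [pow_one]; exact h3.symm))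
        exact absurd h4 hi0
      · have h1 : l ^ (2 ^ t + 2 ^ j) = l ^ (1 + 2 ^ (t + i)) := by
          rw [pow_add, ← ht, ← hj, h, pow_add, pow_one, pow_add, mul_comm (2 ^ t), pow_mul, ← hi, ← ht]
        exact nt2 hf2 hd hN hi' hj' ht' hi0 hj0 (modEq_of_pow_eq hl h1)
  subst hij
  ext x
  rw [hi, hj]

theorem ne_one (hf2 : 2 ≤ f) (hd : d ∣ f) (hN : d * orderOf l = 2 ^ f - 1) : l ≠ 1 := by
  rintro rfl
  rw [orderOf_one, mul_one] at hN
  have h1 := Nat.le_of_dvd (by omega) hd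
  have h2 : f + 1 < 2 ^ f := by
    obtain ⟨k, rfl⟩ := Nat.exists_eq_add_of_le hf2
    clear hd hN h1 hf2
    induction k with
    | zero => norm_num
    | succ k ih =>
      have : 2 ^ (2 + (k + 1)) = 2 * 2 ^ (2 + k) := by ring
      omega
  omega

/-- The structure of a transitive semilinear group. -/
theorem exists_scalar (hf : Nat.card F = 2 ^ f) {K : Type*} [Group K] [Finite K] [MulAction K F]
    (faith : ∀ g : K, (∀ a : F, g • a = a) → g = 1)
    (semi : ∀ g : K, ∃ (c : F) (φ : F ≃+* F), c ≠ 0 ∧ ∀ a : F, g • a = c * φ a)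
    (tr : ∀ a b : F, a ≠ 0 → b ≠ 0 → ∃ g : K, g • a = b) :
    ∃ (g0 : K) (l : F) (d : ℕ), l ≠ 0 ∧ (∀ a : F, g0 • a = l * a) ∧ d ∣ f ∧
      d * orderOf l = 2 ^ f - 1 := by
  classical
  choose c φ hc0 hcφ using semi
  have hc1 : ∀ g : K, c g = g • (1 : F) := fun g => by rw [hcφ, map_one, mul_one]
  have hcm : ∀ g h : K, c (g * h) = c g * φ g (c h) := by
    intro g h
    rw [hc1, mul_smul, ← hc1 h, hcφ]
  have hφm : ∀ g h : K, ∀ a, φ (g * h) a = φ g (φ h a) := by
    intro g h a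
    have h1 := hcφ (g * h) a
    rw [mul_smul, hcφ h, hcφ g, map_mul, hcm, ← mul_assoc] at h1
    have h2 : c g * φ g (c h) ≠ 0 := by rw [← hcm]; exact hc0 _
    exact (mul_left_cancel₀ h2 h1).symm
  let Ψ : K →* RingAut F := MonoidHom.mk' φ (by
    intro g h
    ext a
    exact hφm g h a)
  have hΨ : ∀ g, Ψ g = φ g := fun g => rfl
  have hker : ∀ g : Ψ.ker, ∀ a, φ g a = a := by
    intro g a
    have h1 : Ψ g = 1 := g.2
    rw [← hΨ, h1]
    rfl
  let χ : Ψ.ker →* F :=
    { toFun := fun g => c g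
      map_one' := by
        change c ((1 : Ψ.ker) : K) = 1
        rw [hc1]
        exact one_smul K (1 : F)
      map_mul' := fun g h => by
        change c ((g * h : Ψ.ker) : K) = c g * c h
        rw [Subgroup.coe_mul, hcm, hker g] }
  have hχ : ∀ g : Ψ.ker, χ g = c g := fun g => rfl
  have hχinj : Function.Injective χ := by
    intro g h hgh
    rw [hχ, hχ] at hgh
    apply Subtype.ext
    rw [← inv_mul_eq_one]
    apply faith
    intro a
    rw [mul_smul, inv_smul_eq_iff, hcφ, hcφ, hker g, hker h, hgh]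
  have hcyc : IsCyclic Ψ.ker := isCyclic_of_injective_ringHom χ hχinj
  obtain ⟨g0, hg0⟩ := hcyc.exists_generator
  have hord : orderOf (χ g0) = Nat.card Ψ.ker := by
    rw [orderOf_injective χ hχinj]
    exact orderOf_eq_card_of_forall_mem_zpowers hg0
  have hl0 : χ g0 ≠ 0 := hc0 _
  -- the orbit
  have horb : 2 ^ f - 1 ∣ Nat.card K := by
    have h1 : (MulAction.orbit K (1 : F)) = {x | x ≠ 0} := by
      ext x
      constructor
      · rintro ⟨g, rfl⟩
        change g • (1 : F) ≠ 0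
        rw [hcφ, map_one, mul_one]
        exact hc0 g
      · intro hx
        exact tr 1 x one_ne_zero hx
    have h2 := MulAction.index_stabilizer K (1 : F)
    rw [h1] at h2
    have h3 : ({x : F | x ≠ 0}).ncard = 2 ^ f - 1 := by
      have h4 : ({x : F | x ≠ 0}) = Set.univ \ {0} := by ext x; simp
      rw [h4, Set.ncard_sdiff_singleton_of_mem (Set.mem_univ _), Set.ncard_univ, hf]
    rw [← h3, ← h2]
    exact Subgroup.index_dvd_card _
  have hcard : Nat.card K = Nat.card Ψ.ker * Nat.card Ψ.range := by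
    rw [← Subgroup.index_ker, Subgroup.card_mul_index]
  have hrange : Nat.card Ψ.range ∣ f := by
    have h1 := Subgroup.card_subgroup_dvd_card Ψ.range
    have h2 : Nat.card (RingAut F) = f := card_aut hf
    rw [h2] at h1
    exact h1
  have hNdvd : orderOf (χ g0) ∣ 2 ^ f - 1 := by
    apply orderOf_dvd_of_pow_eq_one
    have := Fintype.ofFinite F
    have h1 := FiniteField.pow_card_sub_one_eq_one (χ g0) hl0
    rw [← Nat.card_eq_fintype_card, hf] at h1
    exact h1
  obtain ⟨d, hd⟩ := hNdvd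
  refine ⟨g0, χ g0, d, hl0, ?_, ?_, by rw [mul_comm]; exact hd.symm⟩
  · intro a
    rw [hcφ, hker g0, hχ]
  · rw [hcard, ← hord, hd] at horb
    have h1 : 0 < orderOf (χ g0) := by rw [hord]; exact Nat.card_pos
    exact ((Nat.mul_dvd_mul_iff_left h1).mp horb).trans hrange

end Cfsg.Agent.H448.SuzSetup
end

-- part: H448/SuzPair
section
/-!
# The commutator pairing with a homocyclic subgroup of exponent four

`D.e : F → G` identifies the elements of square `1` of the group `G`, all central, with the additive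
group of the finite field `F`.
-/

set_option autoImplicit false

namespace Cfsg.Agent.H448.Suz

open Cfsg.Agent.H448.SuzField Cfsg.Agent.LieRecognition.FieldAutBasis
open scoped commutatorElement

/-- Identification of the elements of square `1` with a field. -/
structure SData (G : Type*) [Group G] (F : Type*) [Field F] where
  e : F → G
  add : ∀ a b, e (a + b) = e a * e b
  inj : Function.Injective e
  sq : ∀ x : G, x * x = 1 ↔ ∃ a, e a = x
  cen : ∀ a (g : G), e a * g = g * e a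

variable {G : Type*} [Group G] {F : Type*} [Field F]

namespace SData

variable (D : SData G F)

/-- The inverse of `e`. -/
noncomputable def lg (x : G) : F := Function.invFun D.e x

theorem lg_e (a : F) : D.lg (D.e a) = a := Function.leftInverse_invFun D.inj a

theorem e_lg {x : G} (hx : x * x = 1) : D.e (D.lg x) = x := by
  obtain ⟨a, rfl⟩ := (D.sq x).mp hx
  rw [lg_e]

theorem e_zero : D.e 0 = 1 := by
  have h := D.add 0 0
  rw [add_zero] at h
  exact (mul_eq_left (a := D.e 0)).mp h.symm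

theorem sq_e (a : F) : D.e a * D.e a = 1 := (D.sq _).mpr ⟨a, rfl⟩

include D

theorem comm_of_sq {x : G} (hx : x * x = 1) (g : G) : x * g = g * x := by
  obtain ⟨a, rfl⟩ := (D.sq x).mp hx
  exact D.cen a g

theorem sq_mul {x y : G} (hx : x * x = 1) (hy : y * y = 1) : (x * y) * (x * y) = 1 := by
  obtain ⟨a, rfl⟩ := (D.sq x).mp hx
  obtain ⟨b, rfl⟩ := (D.sq y).mp hy
  rw [← D.add]
  exact D.sq_e _

theorem lg_mul {x y : G} (hx : x * x = 1) (hy : y * y = 1) : D.lg (x * y) = D.lg x + D.lg y := by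
  obtain ⟨a, rfl⟩ := (D.sq x).mp hx
  obtain ⟨b, rfl⟩ := (D.sq y).mp hy
  rw [← D.add, lg_e, lg_e, lg_e]

theorem lg_one : D.lg 1 = 0 := by
  rw [← D.e_zero, lg_e]

theorem eq_one_of_lg {x : G} (hx : x * x = 1) (h : D.lg x = 0) : x = 1 := by
  rw [← D.e_lg hx, h, D.e_zero]

theorem eq_of_lg {x y : G} (hx : x * x = 1) (hy : y * y = 1) (h : D.lg x = D.lg y) : x = y := by
  rw [← D.e_lg hx, h, D.e_lg hy]

end SData

/-- A subgroup `M`, an abelian subgroup `Y` of exponent four all of whose commutators with `M` have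
square `1`, and the centralizer `X` of `Y` in `M`, abelian and containing the squares of `M`. -/
structure Pair (D : SData G F) (M Y X : Subgroup G) : Prop where
  YM : Y ≤ M
  XM : X ≤ M
  Yc : ∀ x ∈ Y, ∀ y ∈ Y, x * y = y * x
  Xc : ∀ x ∈ X, ∀ y ∈ X, x * y = y * x
  root : ∀ a : F, ∃ y ∈ Y, y * y = D.e a
  Y4 : ∀ y ∈ Y, (y * y) * (y * y) = 1
  com : ∀ b ∈ M, ∀ y ∈ Y, ⁅b, y⁆ * ⁅b, y⁆ = 1
  cent : ∀ b ∈ M, (∀ y ∈ Y, b * y = y * b) → b ∈ X
  XY : ∀ x ∈ X, ∀ y ∈ Y, x * y = y * x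
  sqX : ∀ b ∈ M, b * b ∈ X

namespace Pair

variable {D : SData G F} {M Y X : Subgroup G} (P : Pair D M Y X)

include P

/-- The chosen square root of `e a` in `Y`. -/
noncomputable def rt (a : F) : G := (P.root a).choose

theorem rt_mem (a : F) : P.rt a ∈ Y := (P.root a).choose_spec.1

theorem rt_sq (a : F) : P.rt a * P.rt a = D.e a := (P.root a).choose_spec.2

/-- The pairing. -/
noncomputable def bet (b : G) (a : F) : F := D.lg ⁅b, P.rt a⁆

theorem com_eq {b y y' : G} (hy : y ∈ Y) (hy' : y' ∈ Y) (h : y * y = y' * y') :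
    ⁅b, y⁆ = ⁅b, y'⁆ := by
  have hc := P.Yc y hy y' hy'
  have h1 : (y * y'⁻¹) * (y * y'⁻¹) = 1 := by
    have h2 : y'⁻¹ * y = y * y'⁻¹ := by
      rw [inv_mul_eq_iff_eq_mul, ← mul_assoc, ← hc, mul_assoc, mul_inv_cancel, mul_one]
    calc (y * y'⁻¹) * (y * y'⁻¹) = y * (y'⁻¹ * y) * y'⁻¹ := by group
      _ = (y * y) * (y'⁻¹ * y'⁻¹) := by rw [h2]; group
      _ = 1 := by rw [h]; group
  have h3 := D.comm_of_sq h1
  have h4 : y = (y * y'⁻¹) * y' := by group
  set ε := y * y'⁻¹ with hε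
  rw [h4, commutatorElement_def, commutatorElement_def]
  have h5 := h3 b
  calc b * (ε * y') * b⁻¹ * (ε * y')⁻¹ = (b * ε) * y' * b⁻¹ * y'⁻¹ * ε⁻¹ := by group
    _ = (ε * b) * y' * b⁻¹ * y'⁻¹ * ε⁻¹ := by rw [h5]
    _ = ε * (b * y' * b⁻¹ * y'⁻¹) * ε⁻¹ := by group
    _ = b * y' * b⁻¹ * y'⁻¹ := by rw [h3]; group

theorem e_bet {b y : G} (hb : b ∈ M) (hy : y ∈ Y) : D.e (P.bet b (D.lg (y * y))) = ⁅b, y⁆ := by
  rw [bet, D.e_lg (P.com b hb _ (P.rt_mem _))]
  apply P.com_eq (P.rt_mem _) hy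
  rw [P.rt_sq, D.e_lg (P.Y4 y hy)]

theorem bet_lg {b y : G} (hb : b ∈ M) (hy : y ∈ Y) : P.bet b (D.lg (y * y)) = D.lg ⁅b, y⁆ := by
  rw [← P.e_bet hb hy, D.lg_e]

theorem com_mul_right {b y y' : G} (hb : b ∈ M) (hy : y ∈ Y) (hy' : y' ∈ Y) :
    ⁅b, y * y'⁆ = ⁅b, y⁆ * ⁅b, y'⁆ := by
  have h1 := D.comm_of_sq (P.com b hb y' hy')
  calc ⁅b, y * y'⁆ = ⁅b, y⁆ * (y * ⁅b, y'⁆) * y⁻¹ := by
        rw [commutatorElement_def, commutatorElement_def, commutatorElement_def]; group
    _ = ⁅b, y⁆ * ⁅b, y'⁆ := by rw [← h1]; group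

theorem com_mul_left {b b' y : G} (hb' : b' ∈ M) (hy : y ∈ Y) :
    ⁅b * b', y⁆ = ⁅b, y⁆ * ⁅b', y⁆ := by
  have h1 := D.comm_of_sq (P.com b' hb' y hy)
  calc ⁅b * b', y⁆ = (b * ⁅b', y⁆) * b⁻¹ * ⁅b, y⁆ := by
        rw [commutatorElement_def, commutatorElement_def, commutatorElement_def]; group
    _ = ⁅b', y⁆ * ⁅b, y⁆ := by rw [← h1]; group
    _ = ⁅b, y⁆ * ⁅b', y⁆ := h1 _

theorem bet_add {b : G} (hb : b ∈ M) (a a' : F) : P.bet b (a + a') = P.bet b a + P.bet b a' := by
  have hy := Y.mul_mem (P.rt_mem a) (P.rt_mem a')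
  have h1 : (P.rt a * P.rt a') * (P.rt a * P.rt a') = D.e (a + a') := by
    have hc := P.Yc _ (P.rt_mem a) _ (P.rt_mem a')
    calc (P.rt a * P.rt a') * (P.rt a * P.rt a') = P.rt a * (P.rt a' * P.rt a) * P.rt a' := by group
      _ = (P.rt a * P.rt a) * (P.rt a' * P.rt a') := by rw [← hc]; group
      _ = D.e (a + a') := by rw [P.rt_sq, P.rt_sq, D.add]
  have h2 := P.bet_lg hb hy
  rw [h1, D.lg_e, P.com_mul_right hb (P.rt_mem a) (P.rt_mem a'),
    D.lg_mul (P.com b hb _ (P.rt_mem a)) (P.com b hb _ (P.rt_mem a'))] at h2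
  exact h2

theorem bet_mul {b b' : G} (hb : b ∈ M) (hb' : b' ∈ M) (a : F) :
    P.bet (b * b') a = P.bet b a + P.bet b' a := by
  rw [bet, P.com_mul_left hb' (P.rt_mem a),
    D.lg_mul (P.com b hb _ (P.rt_mem a)) (P.com b' hb' _ (P.rt_mem a))]
  rfl

theorem bet_one (a : F) : P.bet 1 a = 0 := by
  rw [bet, commutatorElement_one_left, D.lg_one]

theorem bet_inv {b : G} (hb : b ∈ M) (a : F) : P.bet b⁻¹ a = - P.bet b a := by
  have h := P.bet_mul hb (M.inv_mem hb) a
  rw [mul_inv_cancel, P.bet_one] at h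
  exact (neg_eq_of_add_eq_zero_right h.symm).symm

theorem mem_X_of_bet {b : G} (hb : b ∈ M) (h : ∀ a, P.bet b a = 0) : b ∈ X := by
  apply P.cent b hb
  intro y hy
  have h1 := P.e_bet hb hy
  rw [h, D.e_zero] at h1
  have h2 : b * y * b⁻¹ * y⁻¹ = 1 := h1.symm
  rw [mul_inv_eq_one, mul_inv_eq_iff_eq_mul] at h2
  exact h2

theorem bet_of_mem_X {b : G} (hb : b ∈ X) (a : F) : P.bet b a = 0 := by
  rw [bet, commutatorElement_eq_one_iff_mul_comm.mpr (P.XY b hb _ (P.rt_mem a)), D.lg_one]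

/-- `b` as an additive map. -/
noncomputable def betHom {b : G} (hb : b ∈ M) : F →+ F := AddMonoidHom.mk' (P.bet b) (P.bet_add hb)

/-- The group of the additive maps `bet b`. -/
noncomputable def V : AddSubgroup (F →+ F) where
  carrier := {v | ∃ b ∈ M, ∀ a, v a = P.bet b a}
  zero_mem' := ⟨1, M.one_mem, fun a => by rw [P.bet_one]; rfl⟩
  add_mem' := by
    rintro v w ⟨b, hb, hv⟩ ⟨b', hb', hw⟩
    exact ⟨b * b', M.mul_mem hb hb', fun a => by
      rw [P.bet_mul hb hb', AddMonoidHom.add_apply, hv, hw]⟩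
  neg_mem' := by
    rintro v ⟨b, hb, hv⟩
    exact ⟨b⁻¹, M.inv_mem hb, fun a => by rw [P.bet_inv hb, AddMonoidHom.neg_apply, hv]⟩

theorem mem_V {v : F →+ F} : v ∈ P.V ↔ ∃ b ∈ M, ∀ a, v a = P.bet b a := Iff.rfl

/-- Equivariance. -/
theorem bet_equiv {h : MulAut G} {T : F → F} (hT : ∀ a, h (D.e a) = D.e (T a))
    (hY : ∀ y ∈ Y, h y ∈ Y) (hM : ∀ y ∈ M, h y ∈ M) {b : G} (hb : b ∈ M) (a : F) :
    P.bet (h b) (T a) = T (P.bet b a) := by
  have h1 : (h (P.rt a)) * (h (P.rt a)) = D.e (T a) := by rw [← map_mul, P.rt_sq, hT]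
  have h2 := P.bet_lg (hM b hb) (hY _ (P.rt_mem a))
  rw [h1, D.lg_e] at h2
  rw [h2]
  have h3 : ⁅h b, h (P.rt a)⁆ = h ⁅b, P.rt a⁆ := by
    rw [commutatorElement_def, commutatorElement_def]; simp only [map_mul, map_inv]
  rw [h3, ← D.e_lg (P.com b hb _ (P.rt_mem a)), hT, D.lg_e]
  rfl

end Pair

end Cfsg.Agent.H448.Suz
end

-- part: H448/SuzUnif
section
/-!
# The main argument on Suzuki 2-groups

`H` is a group of automorphisms acting on the involutions by semilinear maps of the field `F`, transitively,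
and `h0 ∈ H` acts as the multiplication by `l`.
-/

set_option autoImplicit false

namespace Cfsg.Agent.H448.Suz

open Cfsg.Agent.H448.SuzField Cfsg.Agent.LieRecognition.FieldAutBasis
open scoped commutatorElement

variable {G : Type*} [Group G] {F : Type*} [Field F]

/-- The action of `H`. -/
structure HData (D : SData G F) (H : Subgroup (MulAut G)) (h0 : MulAut G) (l : F) : Prop where
  semi : ∀ h ∈ H, ∃ (c : F) (φ : F ≃+* F), c ≠ 0 ∧ ∀ a, h (D.e a) = D.e (c * φ a)
  tr : ∀ a b : F, a ≠ 0 → b ≠ 0 → ∃ h ∈ H, h (D.e a) = D.e b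
  mem : h0 ∈ H
  hl : ∀ a, h0 (D.e a) = D.e (l * a)
  l0 : l ≠ 0
  l1 : l ≠ 1
  nt : ∀ σ τ : F ≃+* F, σ l * τ l = l → σ = τ
  sep : ∀ g φ ψ : F ≃+* F, g l * ψ l = l * g (φ l) → φ = ψ
  comm : ∀ (σ τ : F ≃+* F) (x : F), σ (τ x) = τ (σ x)
  two : IsPGroup 2 G

/-- Invariance of a subgroup. -/
def Inv (H : Subgroup (MulAut G)) (M : Subgroup G) : Prop := ∀ h ∈ H, ∀ m ∈ M, h m ∈ M

/-- A nontrivial element of a 2-group has a power of order two. -/
theorem exists_pow_involution (hG : IsPGroup 2 G) {z : G} (hz : z ≠ 1) :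
    ∃ k : ℕ, z ^ 2 ^ k ≠ 1 ∧ z ^ 2 ^ k * z ^ 2 ^ k = 1 := by
  classical
  have hex : ∃ k : ℕ, z ^ 2 ^ k = 1 := hG z
  set n := Nat.find hex with hn
  have h1 : z ^ 2 ^ n = 1 := Nat.find_spec hex
  have h0 : n ≠ 0 := by
    intro h
    rw [h, pow_zero, pow_one] at h1
    exact hz h1
  obtain ⟨m, hm⟩ := Nat.exists_eq_succ_of_ne_zero h0
  refine ⟨m, Nat.find_min hex (by omega), ?_⟩
  rw [← pow_add, ← two_mul, ← pow_succ', ← Nat.succ_eq_add_one, ← hm]
  exact h1

section Main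

variable {D : SData G F} {H : Subgroup (MulAut G)} {h0 : MulAut G} {l : F}
  (A : HData D H h0 l) {M Y X : Subgroup G}

include A

theorem fixed_eq_one {z : G} (hz : h0 z = z) : z = 1 := by
  by_contra hne
  obtain ⟨k, hk1, hk2⟩ := exists_pow_involution A.two hne
  obtain ⟨a, ha⟩ := (D.sq _).mp hk2
  have h1 : h0 (D.e a) = D.e a := by rw [ha, map_pow, hz]
  rw [A.hl] at h1
  have h2 := D.inj h1
  have h3 : a = 0 := by
    by_contra ha0
    exact A.l1 (mul_right_cancel₀ ha0 (by rw [h2, one_mul]))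
  rw [h3, D.e_zero] at ha
  exact hk1 ha.symm

variable [Finite G]

/-- An element acting by a scalar is in `X`. -/
theorem scal (P : Pair D M Y X) (hM : Inv H M) (hY : Inv H Y) (hX : Inv H X) {b : G} (hb : b ∈ M)
    {a : F} (ha : ∀ y, P.bet b y = a * y) : b ∈ X := by
  have hb0 : h0 b ∈ M := hM _ A.mem b hb
  have h1 : ∀ y, P.bet (h0 b) y = a * y := by
    intro y
    have h2 := P.bet_equiv A.hl (hY _ A.mem) (hM _ A.mem) hb (l⁻¹ * y)
    rw [mul_inv_cancel_left₀ A.l0, ha] at h2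
    rw [h2]
    rw [mul_left_comm, mul_inv_cancel_left₀ A.l0]
  have h2 : (h0 b)⁻¹ * b ∈ X := by
    apply P.mem_X_of_bet (M.mul_mem (M.inv_mem hb0) hb)
    intro y
    rw [P.bet_mul (M.inv_mem hb0) hb, P.bet_inv hb0, h1, ha, neg_add_cancel]
  have hinj : Function.Injective (fun x : X => (⟨h0 x * (x : G)⁻¹,
      X.mul_mem (hX _ A.mem x x.2) (X.inv_mem x.2)⟩ : X)) := by
    rintro ⟨x, hx⟩ ⟨y, hy⟩ h
    have h3 : h0 x * x⁻¹ = h0 y * y⁻¹ := congrArg Subtype.val h
    have h4 : h0 (y⁻¹ * x) = y⁻¹ * x := by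
      have h5 : h0 x = h0 y * y⁻¹ * x := by rw [← h3]; group
      rw [map_mul, map_inv, h5]
      group
    have h5 := fixed_eq_one A h4
    exact Subtype.ext (inv_mul_eq_one.mp h5).symm
  have hsurj := Finite.surjective_of_injective hinj
  obtain ⟨⟨x, hx⟩, hxx⟩ := hsurj ⟨_, h2⟩
  have h3 : h0 x * x⁻¹ = (h0 b)⁻¹ * b := congrArg Subtype.val hxx
  have h4 : h0 (b * x) = b * x := by
    have h5 : h0 x = (h0 b)⁻¹ * b * x := by rw [← h3]; group
    rw [map_mul, h5]
    group
  have h5 := fixed_eq_one A h4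
  have h6 : b = x⁻¹ := mul_eq_one_iff_eq_inv.mp h5
  rw [h6]
  exact X.inv_mem hx

variable [Finite F] [CharP F 2]

/-- The components of the pairing with `b` come from elements of `M`. -/
theorem exists_component [Fintype (F ≃+* F)] (P : Pair D M Y X) (hM : Inv H M) (hY : Inv H Y)
    {b : G} (hb : b ∈ M) :
    ∃ c : (F ≃+* F) → F, (∀ x, P.bet b x = ∑ σ, c σ * σ x) ∧
      ∀ σ, ∃ b' ∈ M, ∀ x, P.bet b' x = c σ * σ x := by
  obtain ⟨c, hc, -⟩ := existsUnique_coeff 2 (P.betHom hb)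
  refine ⟨c, hc, fun σ => ?_⟩
  have h1 : P.betHom hb ∈ P.V := ⟨b, hb, fun a => rfl⟩
  have h2 : ∀ v ∈ P.V, conj l v ∈ P.V := by
    rintro v ⟨b1, hb1, hv⟩
    refine ⟨h0 b1, hM _ A.mem _ hb1, fun a => ?_⟩
    rw [conj_apply, hv]
    have h3 := P.bet_equiv A.hl (hY _ A.mem) (hM _ A.mem) hb1 (l⁻¹ * a)
    rw [mul_inv_cancel_left₀ A.l0] at h3
    exact h3.symm
  obtain ⟨b', hb', h3⟩ := component_mem A.l0 A.sep P.V h2 h1 c hc σ
  exact ⟨b', hb', fun x => by rw [← h3, term_apply]⟩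

/-- To prove `M ≤ K` it is enough to treat the elements with one component. -/
theorem le_of_typed (P : Pair D M Y X) (hM : Inv H M) (hY : Inv H Y) {K : Subgroup G} (hXK : X ≤ K)
    (hKM : K ≤ M)
    (hK : ∀ b ∈ M, ∀ (a : F) (σ : F ≃+* F), (∀ x, P.bet b x = a * σ x) → b ∈ K) : M ≤ K := by
  classical
  have : Finite (F ≃+* F) := Finite.of_injective (fun σ : F ≃+* F => (σ : F → F)) DFunLike.coe_injective
  let _ : Fintype (F ≃+* F) := Fintype.ofFinite _
  intro b hb
  obtain ⟨c, hc, hc'⟩ := exists_component A P hM hY hb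
  have key : ∀ s : Finset (F ≃+* F), ∃ b1 ∈ K, ∀ x, P.bet b1 x = ∑ σ ∈ s, c σ * σ x := by
    intro s
    induction s using Finset.induction_on with
    | empty => exact ⟨1, K.one_mem, fun x => by rw [P.bet_one, Finset.sum_empty]⟩
    | insert σ s hσ ih =>
      obtain ⟨b1, hb1, h1⟩ := ih
      obtain ⟨b2, hb2, h2⟩ := hc' σ
      refine ⟨b2 * b1, K.mul_mem (hK b2 hb2 _ σ h2) hb1, fun x => ?_⟩
      rw [P.bet_mul hb2 (hKM hb1), h1, h2, Finset.sum_insert hσ]
  obtain ⟨b1, hb1, h1⟩ := key Finset.univ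
  have h2 : b1⁻¹ * b ∈ X := by
    apply P.mem_X_of_bet (M.mul_mem (M.inv_mem (hKM hb1)) hb)
    intro x
    rw [P.bet_mul (M.inv_mem (hKM hb1)) hb, P.bet_inv (hKM hb1), h1, hc, neg_add_cancel]
  have h3 : b = b1 * (b1⁻¹ * b) := by group
  rw [h3]
  exact K.mul_mem hb1 (hXK h2)

/-- If all the pairings are idempotent then `M = X`. -/
theorem le_of_idem (P : Pair D M Y X) (hM : Inv H M) (hY : Inv H Y) (hX : Inv H X)
    (hid : ∀ b ∈ M, ∀ a, P.bet b (P.bet b a) = P.bet b a) : M ≤ X := by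
  apply le_of_typed A P hM hY le_rfl P.XM
  intro b hb a σ hσ
  by_cases ha : a = 0
  · apply P.mem_X_of_bet hb
    intro x
    rw [hσ, ha, zero_mul]
  · have h1 : ∀ x, a * σ (a * σ x) = a * σ x := by
      intro x
      have := hid b hb x
      rw [hσ, hσ] at this
      exact this
    have h2 : ∀ x, a * σ x = x := by
      intro x
      have h3 := mul_left_cancel₀ ha (h1 x)
      exact σ.injective h3
    apply scal A P hM hY hX hb (a := 1)
    intro y
    rw [hσ, h2, one_mul]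

end Main

/-! ### Exponent four -/

section Four

variable {D : SData G F} {M X : Subgroup G} (P : Pair D M X X)

include P

theorem E_mem {z : G} (hz : z * z = 1) : z ∈ X := by
  obtain ⟨a, rfl⟩ := (D.sq z).mp hz
  obtain ⟨y, hy, h⟩ := P.root a
  rw [← h]
  exact X.mul_mem hy hy

theorem norm_mem {b x : G} (hb : b ∈ M) (hx : x ∈ X) : b * x * b⁻¹ ∈ X := by
  have h1 : b * x * b⁻¹ = ⁅b, x⁆ * x := by rw [commutatorElement_def]; group
  rw [h1]
  exact X.mul_mem (E_mem P (P.com b hb x hx)) hx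

theorem com_mem {b b' : G} (hb : b ∈ M) (hb' : b' ∈ M) : ⁅b, b'⁆ ∈ X := by
  have h1 : ⁅b, b'⁆ = ((b * b') * (b * b')) * (b'⁻¹ * (b * b)⁻¹ * b'⁻¹⁻¹) * (b' * b')⁻¹ := by
    rw [commutatorElement_def]; group
  rw [h1]
  exact X.mul_mem (X.mul_mem (P.sqX _ (M.mul_mem hb hb'))
    (norm_mem P (M.inv_mem hb') (X.inv_mem (P.sqX b hb)))) (X.inv_mem (P.sqX b' hb'))

omit P in
/-- The fourth power. -/
noncomputable def Q (D : SData G F) (b : G) : F := D.lg ((b * b) * (b * b))

omit P in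
/-- The square of the commutator. -/
noncomputable def C (D : SData G F) (b b' : G) : F := D.lg (⁅b, b'⁆ * ⁅b, b'⁆)

theorem e_C {b b' : G} (hb : b ∈ M) (hb' : b' ∈ M) : D.e (C D b b') = ⁅b, b'⁆ * ⁅b, b'⁆ :=
  D.e_lg (P.Y4 _ (com_mem P hb hb'))

theorem bet_Q {b : G} (hb : b ∈ M) : P.bet b (Q D b) = 0 := by
  rw [Q, P.bet_lg hb (P.sqX b hb)]
  have h1 : ⁅b, b * b⁆ = 1 := by rw [commutatorElement_def]; group
  rw [h1, D.lg_one]

theorem C_symm {b b' : G} (hb : b ∈ M) (hb' : b' ∈ M) : C D b b' = C D b' b := by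
  have h1 := P.Y4 _ (com_mem P hb hb')
  have h2 : ⁅b', b⁆ * ⁅b', b⁆ = (⁅b, b'⁆ * ⁅b, b'⁆)⁻¹ := by
    rw [commutatorElement_def, commutatorElement_def]; group
  rw [C, C, h2, inv_eq_of_mul_eq_one_right h1]

theorem bet_Q' {b b' : G} (hb : b ∈ M) (hb' : b' ∈ M) :
    P.bet b' (Q D b) = C D b' b + P.bet b (C D b' b) := by
  rw [Q, P.bet_lg hb' (P.sqX b hb)]
  have hz := com_mem P hb' hb
  have hz4 := P.Y4 _ hz
  have hc := P.com b hb _ hz
  rw [C, P.bet_lg hb hz, ← D.lg_mul hz4 hc]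
  congr 1
  have h1 := D.comm_of_sq hc
  calc ⁅b', b * b⁆ = ⁅b', b⁆ * ⁅b, ⁅b', b⁆⁆ * ⁅b', b⁆ := by
        simp only [commutatorElement_def]; group
    _ = ⁅b', b⁆ * ⁅b', b⁆ * ⁅b, ⁅b', b⁆⁆ := by rw [mul_assoc, h1, ← mul_assoc]

theorem Q_mul {b b' : G} (hb : b ∈ M) (hb' : b' ∈ M) :
    Q D (b * b') = Q D b + Q D b' + C D b' b := by
  have hz := com_mem P hb' hb
  set z := ⁅b', b⁆ with hzd
  have hz4 := P.Y4 _ hz
  have hu : b * z * b⁻¹ ∈ X := norm_mem P hb hz
  have hv := P.sqX b hb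
  have hw := P.sqX b' hb'
  have h1 : (b * b') * (b * b') = (b * z * b⁻¹) * (b * b) * (b' * b') := by
    rw [hzd, commutatorElement_def]; group
  have h2 : (b * z * b⁻¹) * (b * z * b⁻¹) = z * z := by
    have h3 := D.comm_of_sq hz4 b
    calc (b * z * b⁻¹) * (b * z * b⁻¹) = b * (z * z) * b⁻¹ := by group
      _ = z * z := by rw [← h3]; group
  set u := b * z * b⁻¹
  set v := b * b
  set w := b' * b'
  have h3 : (u * v * w) * (u * v * w) = (v * v) * (w * w) * (z * z) := by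
    rw [← h2]
    have e1 := P.Yc u hu v hv
    have e2 := P.Yc w hw u hu
    have e3 := P.Yc w hw v hv
    calc (u * v * w) * (u * v * w) = u * v * (w * u) * v * w := by group
      _ = u * v * u * (w * v) * w := by rw [e2]; group
      _ = (u * v) * u * v * w * w := by rw [e3]; group
      _ = v * (u * u) * v * w * w := by rw [e1]; group
      _ = v * v * (u * u) * (w * w) := by
          have e4 := P.Yc (u * u) (X.mul_mem hu hu) v hv
          calc v * (u * u) * v * w * w = v * ((u * u) * v) * w * w := by group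
            _ = _ := by rw [e4]; group
      _ = v * v * (w * w) * (u * u) := by
          have e5 := P.Yc (u * u) (X.mul_mem hu hu) (w * w) (X.mul_mem hw hw)
          rw [mul_assoc, e5, ← mul_assoc]
  rw [Q, h1, h3, D.lg_mul (D.sq_mul (P.Y4 v hv) (P.Y4 w hw)) hz4, D.lg_mul (P.Y4 v hv) (P.Y4 w hw)]
  rfl

theorem C_mul_right {b b' b'' : G} (hb : b ∈ M) (hb' : b' ∈ M) (hb'' : b'' ∈ M) :
    C D b (b' * b'') = C D b b' + C D b b'' := by
  have hy := com_mem P hb hb'
  have hz := com_mem P hb hb''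
  have hy4 := P.Y4 _ hy
  have hz4 := P.Y4 _ hz
  rw [C, C, C, ← D.lg_mul hy4 hz4]
  congr 1
  have h1 : ⁅b, b' * b''⁆ = ⁅b, b'⁆ * (b' * ⁅b, b''⁆ * b'⁻¹) := by
    simp only [commutatorElement_def]; group
  have hu := norm_mem P hb' hz
  have h2 := P.Yc _ hu _ hy
  have h3 := D.comm_of_sq hz4 b'
  set y := ⁅b, b'⁆
  set z := ⁅b, b''⁆
  rw [h1]
  calc y * (b' * z * b'⁻¹) * (y * (b' * z * b'⁻¹))
      = y * ((b' * z * b'⁻¹) * y) * (b' * z * b'⁻¹) := by group
    _ = y * y * (b' * (z * z) * b'⁻¹) := by rw [h2]; group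
    _ = y * y * (z * z) := by rw [← h3]; group

theorem C_mul_left {b b' b'' : G} (hb : b ∈ M) (hb' : b' ∈ M) (hb'' : b'' ∈ M) :
    C D (b * b') b'' = C D b b'' + C D b' b'' := by
  rw [C_symm P (M.mul_mem hb hb') hb'', C_mul_right P hb'' hb hb', C_symm P hb'' hb,
    C_symm P hb'' hb']

theorem C_one (b : G) : C D b 1 = 0 := by
  rw [C, commutatorElement_one_right, mul_one, D.lg_one]

theorem C_of_mem {b x : G} (hb : b ∈ M) (hx : x ∈ X) : C D b x = 0 := by
  rw [C, P.com b hb x hx, D.lg_one]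

theorem Q_of_mem {x : G} (hx : x ∈ X) : Q D x = 0 := by
  rw [Q, P.Y4 x hx, D.lg_one]

theorem C_inv_right {b b' : G} (hb : b ∈ M) (hb' : b' ∈ M) : C D b b'⁻¹ = - C D b b' := by
  have h := C_mul_right P hb hb' (M.inv_mem hb')
  rw [mul_inv_cancel, C_one P] at h
  exact (neg_eq_of_add_eq_zero_right h.symm).symm

variable {H : Subgroup (MulAut G)} {h0 : MulAut G} {l : F}
  (A : HData D H h0 l) (hM : Inv H M) (hX : Inv H X) [Finite G] [Finite F] [CharP F 2]

theorem Q_typed {b : G} (hb : b ∈ M) {a : F} {σ : F ≃+* F} (h : ∀ x, P.bet b x = a * σ x) :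
    Q D b = 0 := by
  by_cases ha : a = 0
  · apply Q_of_mem P
    apply P.mem_X_of_bet hb
    intro x
    rw [h, ha, zero_mul]
  · have h1 := bet_Q P hb
    rw [h] at h1
    have h2 := (mul_eq_zero.mp h1).resolve_left ha
    simpa using h2

theorem C_typed_same {b b' : G} (hb : b ∈ M) (hb' : b' ∈ M) {a a' : F} {σ : F ≃+* F}
    (h : ∀ x, P.bet b x = a * σ x) (h' : ∀ x, P.bet b' x = a' * σ x) : C D b' b = 0 := by
  have h1 := Q_mul P hb hb'
  have h2 : ∀ x, P.bet (b * b') x = (a + a') * σ x := by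
    intro x
    rw [P.bet_mul hb hb', h, h', add_mul]
  rw [Q_typed P (M.mul_mem hb hb') h2, Q_typed P hb h, Q_typed P hb' h', zero_add, zero_add] at h1
  exact h1.symm

theorem C_typed_eq {b b' : G} (hb : b ∈ M) (hb' : b' ∈ M) {a : F} {σ : F ≃+* F}
    (h : ∀ x, P.bet b x = a * σ x) : C D b' b = a * σ (C D b' b) := by
  have h1 := bet_Q' P hb hb'
  rw [Q_typed P hb h, h] at h1
  have h2 : P.bet b' 0 = 0 := by
    have := P.bet_add hb' 0 0
    rw [add_zero] at this
    exact left_eq_add.mp this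
  rw [h2] at h1
  have h3 : C D b' b = - (a * σ (C D b' b)) := eq_neg_of_add_eq_zero_left h1.symm
  rw [CharTwo.neg_eq] at h3
  exact h3

include A hM hX

theorem not_fix_of_C {b b' : G} (hb : b ∈ M) (hb' : b' ∈ M) {a : F} {σ : F ≃+* F}
    (h : ∀ x, P.bet b x = a * σ x) (hC : C D b' b ≠ 0) : ∃ x, σ x ≠ x := by
  by_contra hcon
  push Not at hcon
  apply hC
  apply C_of_mem P hb'
  apply scal A P hM hX hX hb (a := a)
  intro y
  rw [h, hcon]

theorem C_typed {b b' : G} (hb : b ∈ M) (hb' : b' ∈ M) {a a' : F} {φ ψ : F ≃+* F}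
    (h : ∀ x, P.bet b x = a * φ x) (h' : ∀ x, P.bet b' x = a' * ψ x) : C D b' b = 0 := by
  classical
  by_contra hf0
  have hφ := not_fix_of_C P A hM hX hb hb' h hf0
  have hψ := not_fix_of_C P A hM hX hb' hb h' (by rw [C_symm P hb hb']; exact hf0)
  set f0 := C D b' b with hf0d
  -- the set of the coefficients
  set S : Set F := {a1 | ∃ b1 ∈ M, ∀ x, P.bet b1 x = a1 * φ x} with hS
  have hS0 : (0 : F) ∈ S := ⟨1, M.one_mem, fun x => by rw [P.bet_one, zero_mul]⟩
  have hSf : ∀ f : F, f ≠ 0 → f / φ f ∈ S := by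
    intro f hf
    obtain ⟨h1, h1H, h1e⟩ := A.tr f0 f hf0 hf
    obtain ⟨c, θ, hc, hcθ⟩ := A.semi h1 h1H
    have hfc : c * θ f0 = f := by
      rw [hcθ] at h1e
      exact D.inj h1e
    have hb1 := hM _ h1H _ hb
    have hb1' := hM _ h1H _ hb'
    have htype : ∀ x, P.bet (h1 b) x = (c * θ a * (φ c)⁻¹) * φ x := by
      intro x
      have h2 := P.bet_equiv (T := fun a => c * θ a) hcθ (hX _ h1H) (hM _ h1H) hb
        (θ.symm (c⁻¹ * x))
      simp only [RingEquiv.apply_symm_apply] at h2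
      rw [mul_inv_cancel_left₀ hc, h, map_mul] at h2
      rw [h2, A.comm θ φ, RingEquiv.apply_symm_apply, map_mul, map_inv₀]
      ring
    have hCf : C D (h1 b') (h1 b) = f := by
      rw [← hfc, C]
      have h3 : ⁅h1 b', h1 b⁆ = h1 ⁅b', b⁆ := by
        simp only [commutatorElement_def, map_mul, map_inv]
      rw [h3, ← map_mul, ← e_C P hb' hb, hcθ, D.lg_e]
    have h4 := C_typed_eq P hb1 hb1' htype
    rw [hCf] at h4
    have h5 : f / φ f = c * θ a * (φ c)⁻¹ := by
      have h6 : φ f ≠ 0 := by simpa using hf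
      rw [div_eq_iff h6]
      exact h4
    rw [h5]
    exact ⟨h1 b, hb1, htype⟩
  apply count_false φ ψ hφ hψ S hS0 hSf
  refine le_trans ?_ (card_sol_le ψ a')
  -- the injection
  choose g hg using fun s : S => s.2
  refine Set.ncard_le_ncard_of_injOn (fun a1 => if hs : a1 ∈ S then C D b' (g ⟨a1, hs⟩) else 0) ?_ ?_
    (Set.toFinite _)
  · intro a1 ha1
    simp only [dif_pos ha1]
    change C D b' (g ⟨a1, ha1⟩) = a' * ψ (C D b' (g ⟨a1, ha1⟩))
    rw [C_symm P hb' (hg ⟨a1, ha1⟩).1]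
    exact C_typed_eq P hb' (hg ⟨a1, ha1⟩).1 h'
  · intro a1 ha1 a2 ha2 h12
    simp only [dif_pos ha1, dif_pos ha2] at h12
    have hg1 := hg ⟨a1, ha1⟩
    have hg2 := hg ⟨a2, ha2⟩
    have key : ∀ (a3 : F) (b3 : G), b3 ∈ M → (∀ x, P.bet b3 x = a3 * φ x) → C D b' b3 ≠ 0 →
        a3 = C D b' b3 / φ (C D b' b3) := by
      intro a3 b3 hb3 h3 hC3
      have h6 : φ (C D b' b3) ≠ 0 := by simpa using hC3
      rw [eq_div_iff h6]
      exact (C_typed_eq P hb3 hb' h3).symm
    have key0 : ∀ (a3 : F) (b3 : G), b3 ∈ M → (∀ x, P.bet b3 x = a3 * φ x) → C D b' b3 = 0 →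
        a3 = 0 := by
      intro a3 b3 hb3 h3 hC3
      have h7 : C D b' (b3 * b) = f0 := by rw [C_mul_right P hb' hb3 hb, hC3, zero_add]
      have h8 := key (a3 + a) (b3 * b) (M.mul_mem hb3 hb) (by
        intro x; rw [P.bet_mul hb3 hb, h3, h, add_mul]) (by rw [h7]; exact hf0)
      have h9 := key a b hb h hf0
      rw [h7] at h8
      rw [← hf0d] at h9
      rw [← h9] at h8
      exact add_eq_right.mp h8
    by_cases hC1 : C D b' (g ⟨a1, ha1⟩) = 0
    · rw [key0 a1 _ hg1.1 hg1.2 hC1, key0 a2 _ hg2.1 hg2.2 (by rw [← h12]; exact hC1)]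
    · rw [key a1 _ hg1.1 hg1.2 hC1, key a2 _ hg2.1 hg2.2 (by rw [← h12]; exact hC1), h12]

theorem C_eq_zero {b b' : G} (hb : b ∈ M) (hb' : b' ∈ M) : C D b' b = 0 := by
  -- first for typed `b'`
  have step : ∀ b' ∈ M, (∀ b ∈ M, ∀ (a : F) (σ : F ≃+* F), (∀ x, P.bet b x = a * σ x) → C D b' b = 0) →
      ∀ b ∈ M, C D b' b = 0 := by
    intro b' hb' hty
    let K : Subgroup G :=
      { carrier := {b | b ∈ M ∧ C D b' b = 0}
        one_mem' := ⟨M.one_mem, C_one P b'⟩
        mul_mem' := fun {x y} hx hy => ⟨M.mul_mem hx.1 hy.1, by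
          rw [C_mul_right P hb' hx.1 hy.1, hx.2, hy.2, add_zero]⟩
        inv_mem' := fun {x} hx => ⟨M.inv_mem hx.1, by
          rw [C_inv_right P hb' hx.1, hx.2, neg_zero]⟩ }
    have hKM : M ≤ K := by
      apply le_of_typed A P hM hX
      · intro x hx
        exact ⟨P.XM hx, C_of_mem P hb' hx⟩
      · intro x hx; exact hx.1
      · intro b hb a σ h
        exact ⟨hb, hty b hb a σ h⟩
    intro b hb
    exact (hKM hb).2
  apply step b' hb' ?_ b hb
  intro b1 hb1 a σ h1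
  rw [C_symm P hb' hb1]
  apply step b1 hb1 ?_ b' hb'
  intro b2 hb2 a2 σ2 h2
  exact C_typed P A hM hX hb2 hb1 h2 h1

/-- The fourth powers are trivial. -/
theorem pow_four {b : G} (hb : b ∈ M) : (b * b) * (b * b) = 1 := by
  have hQ : ∀ b ∈ M, ∀ b' ∈ M, Q D (b * b') = Q D b + Q D b' := by
    intro b hb b' hb'
    rw [Q_mul P hb hb', C_eq_zero P A hM hX hb hb', add_zero]
  have hQ1 : Q D 1 = 0 := Q_of_mem P X.one_mem
  let K : Subgroup G :=
    { carrier := {b | b ∈ M ∧ Q D b = 0}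
      one_mem' := ⟨M.one_mem, hQ1⟩
      mul_mem' := fun {x y} hx hy => ⟨M.mul_mem hx.1 hy.1, by
        rw [hQ _ hx.1 _ hy.1, hx.2, hy.2, add_zero]⟩
      inv_mem' := fun {x} hx => ⟨M.inv_mem hx.1, by
        have h := hQ _ hx.1 _ (M.inv_mem hx.1)
        rw [mul_inv_cancel, hQ1, hx.2, zero_add] at h
        exact h.symm⟩ }
  have hKM : M ≤ K := by
    apply le_of_typed A P hM hX
    · intro x hx
      exact ⟨P.XM hx, Q_of_mem P hx⟩
    · intro x hx; exact hx.1
    · intro b hb a σ h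
      exact ⟨hb, Q_typed P hb h⟩
  exact D.eq_one_of_lg (P.Y4 _ (P.sqX b hb)) (hKM hb).2

end Four

end Cfsg.Agent.H448.Suz
end

-- part: H448/SuzRed
section
/-!
# Suzuki 2-groups: the reduction to exponent four
-/

set_option autoImplicit false

namespace Cfsg.Agent.H448.Suz

open Cfsg.Agent.H448.SuzField Cfsg.Agent.LieRecognition.FieldAutBasis
open scoped commutatorElement

variable {G : Type*} [Group G] {F : Type*} [Field F]

/-- The subgroup generated by the squares of the elements of `M`. -/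
def Phi (M : Subgroup G) : Subgroup G := Subgroup.closure {g | ∃ x ∈ M, x * x = g}

theorem sq_mem_Phi {M : Subgroup G} {x : G} (hx : x ∈ M) : x * x ∈ Phi M :=
  Subgroup.subset_closure ⟨x, hx, rfl⟩

theorem Phi_le {M K : Subgroup G} (h : ∀ x ∈ M, x * x ∈ K) : Phi M ≤ K := by
  rw [Phi, Subgroup.closure_le]
  rintro g ⟨y, hy, rfl⟩
  exact h y hy

theorem Phi_le_self (M : Subgroup G) : Phi M ≤ M := Phi_le fun x hx => M.mul_mem hx hx

theorem com_mem_Phi {M : Subgroup G} {x y : G} (hx : x ∈ M) (hy : y ∈ M) : ⁅x, y⁆ ∈ Phi M := by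
  have h1 : ⁅x, y⁆ = ((x * y) * (x * y)) * ((y⁻¹ * x⁻¹ * y) * (y⁻¹ * x⁻¹ * y)) * (y⁻¹ * y⁻¹) := by
    rw [commutatorElement_def]; group
  rw [h1]
  exact (Phi M).mul_mem ((Phi M).mul_mem (sq_mem_Phi (M.mul_mem hx hy))
    (sq_mem_Phi (M.mul_mem (M.mul_mem (M.inv_mem hy) (M.inv_mem hx)) hy)))
    (sq_mem_Phi (M.inv_mem hy))

theorem Phi_ne [Finite G] (hG : IsPGroup 2 G) {M : Subgroup G} (hM : M ≠ ⊥) : Phi M ≠ M := by
  have : Fact (Nat.Prime 2) := ⟨Nat.prime_two⟩
  intro h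
  have hnt : Nontrivial M := (Subgroup.nontrivial_iff_ne_bot M).mpr hM
  obtain ⟨K, hK, -⟩ := (eq_top_or_exists_le_coatom (⊥ : Subgroup M)).resolve_left bot_ne_top
  have h1 : Phi M ≤ K.map M.subtype := by
    apply Phi_le
    intro x hx
    have h2 := Cfsg.Agent.Lib.FrattiniPGroup.pow_mem_frattini (hG.to_subgroup M) (⟨x, hx⟩ : M)
    have h3 : (⟨x, hx⟩ : M) ^ 2 ∈ K := frattini_le_coatom hK h2
    refine ⟨_, h3, ?_⟩
    rw [pow_two]
    rfl
  rw [h] at h1
  apply hK.1
  rw [eq_top_iff]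
  rintro ⟨x, hx⟩ -
  obtain ⟨y, hy, hyx⟩ := h1 hx
  have : y = ⟨x, hx⟩ := Subtype.ext hyx
  rw [← this]
  exact hy

section Main

variable {D : SData G F} {H : Subgroup (MulAut G)} {h0 : MulAut G} {l : F}
  (A : HData D H h0 l)

omit A in
theorem Phi_inv {M : Subgroup G} (hM : Inv H M) : Inv H (Phi M) := by
  intro h hh m hm
  have h1 : Phi M ≤ (Phi M).comap h.toMonoidHom := by
    apply Phi_le
    intro x hx
    change h (x * x) ∈ Phi M
    rw [map_mul]
    exact sq_mem_Phi (hM h hh x hx)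
  exact h1 hm

include A

/-- A set of involutions stable under `H`. -/
theorem all_of_one {S : Set G} (hS : ∀ h ∈ H, ∀ s ∈ S, h s ∈ S) {a0 : F} (ha0 : a0 ≠ 0)
    (h : D.e a0 ∈ S) {a : F} (ha : a ≠ 0) : D.e a ∈ S := by
  obtain ⟨h1, hh, he⟩ := A.tr a0 a ha0 ha
  rw [← he]
  exact hS h1 hh _ h

theorem e_mem {N : Subgroup G} (hN : Inv H N) (hne : N ≠ ⊥) (a : F) : D.e a ∈ N := by
  by_cases ha : a = 0
  · rw [ha, D.e_zero]; exact N.one_mem
  obtain ⟨z, hz, hz1⟩ : ∃ z ∈ N, z ≠ 1 := by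
    by_contra hcon
    push Not at hcon
    exact hne ((Subgroup.eq_bot_iff_forall N).mpr hcon)
  obtain ⟨k, hk1, hk2⟩ := exists_pow_involution A.two hz1
  obtain ⟨a0, ha0⟩ := (D.sq _).mp hk2
  have ha00 : a0 ≠ 0 := by
    rintro rfl
    rw [D.e_zero] at ha0
    exact hk1 ha0.symm
  refine all_of_one A (S := (N : Set G)) hN ha00 ?_ ha
  rw [ha0]
  exact N.pow_mem hz _

theorem sq_mem {N : Subgroup G} (hN : Inv H N) (hne : N ≠ ⊥) {z : G} (hz : z * z = 1) : z ∈ N := by
  obtain ⟨a, rfl⟩ := (D.sq z).mp hz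
  exact e_mem A hN hne a

/-- The power map is onto the involutions. -/
theorem exists_pow {X : Subgroup G} (hX : Inv H X) {m : ℕ} {z0 : G} (hz0 : z0 ∈ X)
    (hm : z0 ^ 2 ^ m ≠ 1) (a : F) : ∃ z ∈ X, z ^ 2 ^ m = D.e a := by
  by_cases ha : a = 0
  · exact ⟨1, X.one_mem, by rw [one_pow, ha, D.e_zero]⟩
  obtain ⟨k, hk1, hk2⟩ := exists_pow_involution A.two hm
  obtain ⟨a0, ha0⟩ := (D.sq _).mp hk2
  have ha00 : a0 ≠ 0 := by
    rintro rfl
    rw [D.e_zero] at ha0
    exact hk1 ha0.symm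
  refine all_of_one A (S := {g | ∃ z ∈ X, z ^ 2 ^ m = g}) ?_ ha00 ?_ ha
  · rintro h hh g ⟨z, hz, rfl⟩
    exact ⟨h z, hX h hh z hz, by rw [map_pow]⟩
  · refine ⟨z0 ^ 2 ^ k, X.pow_mem hz0 _, ?_⟩
    rw [ha0, ← pow_mul, ← pow_mul, mul_comm]

/-- Invariant abelian subgroups are homocyclic. -/
theorem exists_root {X : Subgroup G} (hX : Inv H X) (hc : ∀ x ∈ X, ∀ y ∈ X, x * y = y * x) {m : ℕ}
    {z0 : G} (hz0 : z0 ∈ X) (hm : z0 ^ 2 ^ m ≠ 1) :
    ∀ i ≤ m, ∀ y ∈ X, y ^ 2 ^ i = 1 → ∃ x ∈ X, x * x = y := by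
  intro i
  induction i with
  | zero =>
    intro _ y _ h
    rw [pow_zero, pow_one] at h
    exact ⟨1, X.one_mem, by rw [h, mul_one]⟩
  | succ i ih =>
    intro hi y hy h
    have h1 : y ^ 2 ^ i * y ^ 2 ^ i = 1 := by
      rw [← pow_add, ← two_mul, ← pow_succ']
      exact h
    obtain ⟨a, ha⟩ := (D.sq _).mp h1
    obtain ⟨z, hz, hza⟩ := exists_pow A hX hz0 hm a
    set u := z ^ 2 ^ (m - i - 1) with hu
    have huX : u ∈ X := X.pow_mem hz _
    have hw : (u * u) ^ 2 ^ i = D.e a := by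
      rw [← hza, hu, ← pow_two, ← pow_mul, ← pow_mul, ← pow_succ', ← pow_add]
      congr 2
      omega
    have h2 : (y * (u * u)⁻¹) ^ 2 ^ i = 1 := by
      have hcm : Commute y (u * u)⁻¹ := hc y hy _ (X.inv_mem (X.mul_mem huX huX))
      rw [hcm.mul_pow, inv_pow, hw, ← ha, mul_inv_cancel]
    obtain ⟨x, hx, hxx⟩ := ih (by omega) _ (X.mul_mem hy (X.inv_mem (X.mul_mem huX huX))) h2
    refine ⟨x * u, X.mul_mem hx huX, ?_⟩
    have h3 := hc x hx u huX
    calc x * u * (x * u) = x * (u * x) * u := by group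
      _ = (x * x) * (u * u) := by rw [← h3]; group
      _ = y := by rw [hxx]; group

/-- In an invariant subgroup of exponent four with a central element of order four, everything commutes. -/
theorem central_sq {N : Subgroup G} (hN : Inv H N) (hS : ∀ x ∈ N, (x * x) * (x * x) = 1)
    (hna : ¬ ∀ x ∈ N, ∀ y ∈ N, x * y = y * x) {z : G} (hz : z ∈ N) (hzc : ∀ x ∈ N, z * x = x * z) :
    z * z = 1 := by
  by_contra hne
  apply hna
  obtain ⟨a0, ha0⟩ := (D.sq _).mp (hS z hz)
  have ha00 : a0 ≠ 0 := by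
    rintro rfl
    rw [D.e_zero] at ha0
    exact hne ha0.symm
  have key : ∀ a : F, ∃ w ∈ N, (∀ x ∈ N, w * x = x * w) ∧ w * w = D.e a := by
    intro a
    by_cases ha : a = 0
    · exact ⟨1, N.one_mem, fun x _ => by rw [one_mul, mul_one], by rw [ha, D.e_zero, mul_one]⟩
    refine all_of_one A (S := {g | ∃ w ∈ N, (∀ x ∈ N, w * x = x * w) ∧ w * w = g}) ?_ ha00 ?_ ha
    · rintro h hh g ⟨w, hw, hwc, rfl⟩
      refine ⟨h w, hN h hh w hw, ?_, by rw [map_mul]⟩
      intro x hx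
      have h1 := hwc (h⁻¹ x) (hN _ (H.inv_mem hh) x hx)
      have h2 := congrArg h h1
      rw [map_mul, map_mul, MulAut.apply_inv_self] at h2
      exact h2
    · exact ⟨z, hz, hzc, ha0.symm⟩
  intro x hx y hy
  obtain ⟨a, ha⟩ := (D.sq _).mp (hS x hx)
  obtain ⟨w, hw, hwc, hww⟩ := key a
  have h1 : (x * w⁻¹) * (x * w⁻¹) = 1 := by
    have h2 : w⁻¹ * x = x * w⁻¹ := by
      rw [inv_mul_eq_iff_eq_mul, ← mul_assoc, hwc x hx, mul_assoc, mul_inv_cancel, mul_one]
    calc (x * w⁻¹) * (x * w⁻¹) = x * (w⁻¹ * x) * w⁻¹ := by group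
      _ = (x * x) * (w * w)⁻¹ := by rw [h2]; group
      _ = 1 := by rw [hww, ha, mul_inv_cancel]
  have h3 := D.comm_of_sq h1 y
  have h4 : x = (x * w⁻¹) * w := by group
  have h5 := hwc y hy
  calc x * y = (x * w⁻¹) * (w * y) := by group
    _ = ((x * w⁻¹) * y) * w := by rw [h5]; group
    _ = y * x := by rw [h3]; group

omit A in
/-- Descending along the lower central series. -/
theorem exists_low (D : SData G F) [Finite G] (hG : IsPGroup 2 G) {M N : Subgroup G}
    (hNM : ∀ w ∈ N, ∀ g ∈ M, ⁅w, g⁆ ∈ N) (hN : ∃ w ∈ N, w * w ≠ 1) :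
    ∃ w ∈ N, w * w ≠ 1 ∧ ∀ g ∈ M, ⁅w, g⁆ * ⁅w, g⁆ = 1 := by
  have : Fact (Nat.Prime 2) := ⟨Nat.prime_two⟩
  have hnil : Group.IsNilpotent G := hG.isNilpotent
  obtain ⟨n, hn⟩ := Subgroup.nilpotent_iff_lowerCentralSeries.mp hnil
  by_contra hcon
  push Not at hcon
  have key : ∀ i : ℕ, ∃ w ∈ N, w * w ≠ 1 ∧ w ∈ Subgroup.lowerCentralSeries (⊤ : Subgroup G) i := by
    intro i
    induction i with
    | zero =>
      obtain ⟨w, hw, hw1⟩ := hN
      exact ⟨w, hw, hw1, by rw [Subgroup.lowerCentralSeries_zero]; trivial⟩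
    | succ i ih =>
      obtain ⟨w, hw, hw1, hwi⟩ := ih
      obtain ⟨g, hg, hg1⟩ := hcon w hw hw1
      refine ⟨⁅w, g⁆, hNM w hw g hg, hg1, ?_⟩
      rw [Subgroup.lowerCentralSeries_succ]
      exact Subgroup.commutator_mem_commutator hwi (Subgroup.mem_top g)
  obtain ⟨w, -, hw1, hw2⟩ := key n
  rw [hn] at hw2
  apply hw1
  rw [Subgroup.mem_bot.mp hw2, mul_one]

/-- The vanishing of an equivariant pairing. -/
theorem alt_pair [Finite F] [CharP F 2] {A1 B1 : Subgroup G} (hA1 : ∀ x ∈ A1, h0 x ∈ A1)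
    (hB1 : ∀ x ∈ B1, h0 x ∈ B1) (S1 S2 : G → F) (κ : G → G → F)
    (S1mul : ∀ x ∈ A1, ∀ y ∈ A1, S1 (x * y) = S1 x + S1 y)
    (S2mul : ∀ x ∈ B1, ∀ y ∈ B1, S2 (x * y) = S2 x + S2 y)
    (S1surj : ∀ a, ∃ x ∈ A1, S1 x = a) (S2surj : ∀ a, ∃ x ∈ B1, S2 x = a)
    (S1h : ∀ x ∈ A1, S1 (h0 x) = l * S1 x) (S2h : ∀ x ∈ B1, S2 (h0 x) = l * S2 x)
    (κl : ∀ x ∈ A1, ∀ x' ∈ A1, ∀ y ∈ B1, κ (x * x') y = κ x y + κ x' y)
    (κr : ∀ x ∈ A1, ∀ y ∈ B1, ∀ y' ∈ B1, κ x (y * y') = κ x y + κ x y')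
    (κh : ∀ x ∈ A1, ∀ y ∈ B1, κ (h0 x) (h0 y) = l * κ x y)
    (κ1 : ∀ x ∈ A1, ∀ y ∈ B1, S1 x = 0 → κ x y = 0)
    (κ2 : ∀ x ∈ A1, ∀ y ∈ B1, S2 y = 0 → κ x y = 0)
    (κd : ∀ x ∈ A1, ∀ y ∈ B1, S1 x = S2 y → κ x y = 0) :
    ∀ x ∈ A1, ∀ y ∈ B1, κ x y = 0 := by
  have S1inv : ∀ x ∈ A1, S1 x⁻¹ = - S1 x := by
    intro x hx
    have h1 := S1mul 1 A1.one_mem 1 A1.one_mem
    rw [mul_one] at h1
    have h2 := S1mul x hx x⁻¹ (A1.inv_mem hx)
    rw [mul_inv_cancel, left_eq_add.mp h1] at h2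
    exact (neg_eq_of_add_eq_zero_right h2.symm).symm
  have S2inv : ∀ x ∈ B1, S2 x⁻¹ = - S2 x := by
    intro x hx
    have h1 := S2mul 1 B1.one_mem 1 B1.one_mem
    rw [mul_one] at h1
    have h2 := S2mul x hx x⁻¹ (B1.inv_mem hx)
    rw [mul_inv_cancel, left_eq_add.mp h1] at h2
    exact (neg_eq_of_add_eq_zero_right h2.symm).symm
  have wd1 : ∀ x ∈ A1, ∀ x' ∈ A1, ∀ y ∈ B1, S1 x = S1 x' → κ x y = κ x' y := by
    intro x hx x' hx' y hy h
    have h1 : S1 (x * x'⁻¹) = 0 := by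
      rw [S1mul x hx _ (A1.inv_mem hx'), S1inv x' hx', h, add_neg_cancel]
    have h2 := κ1 _ (A1.mul_mem hx (A1.inv_mem hx')) y hy h1
    have h3 := κl _ (A1.mul_mem hx (A1.inv_mem hx')) x' hx' y hy
    rw [inv_mul_cancel_right, h2, zero_add] at h3
    exact h3
  have wd2 : ∀ x ∈ A1, ∀ y ∈ B1, ∀ y' ∈ B1, S2 y = S2 y' → κ x y = κ x y' := by
    intro x hx y hy y' hy' h
    have h1 : S2 (y * y'⁻¹) = 0 := by
      rw [S2mul y hy _ (B1.inv_mem hy'), S2inv y' hy', h, add_neg_cancel]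
    have h2 := κ2 x hx _ (B1.mul_mem hy (B1.inv_mem hy')) h1
    have h3 := κr x hx _ (B1.mul_mem hy (B1.inv_mem hy')) y' hy'
    rw [inv_mul_cancel_right, h2, zero_add] at h3
    exact h3
  choose s1 hs1 hs1' using S1surj
  choose s2 hs2 hs2' using S2surj
  let B : F →+ F →+ F := AddMonoidHom.mk' (fun a => AddMonoidHom.mk' (fun b => κ (s1 a) (s2 b)) (by
      intro b b'
      rw [← κr _ (hs1 a) _ (hs2 b) _ (hs2 b')]
      apply wd2 _ (hs1 a) _ (hs2 _) _ (B1.mul_mem (hs2 b) (hs2 b'))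
      rw [hs2', S2mul _ (hs2 b) _ (hs2 b'), hs2', hs2'])) (by
      intro a a'
      ext b
      change κ (s1 (a + a')) (s2 b) = κ (s1 a) (s2 b) + κ (s1 a') (s2 b)
      rw [← κl _ (hs1 a) _ (hs1 a') _ (hs2 b)]
      apply wd1 _ (hs1 _) _ (A1.mul_mem (hs1 a) (hs1 a')) _ (hs2 b)
      rw [hs1', S1mul _ (hs1 a) _ (hs1 a'), hs1', hs1'])
  have hB : ∀ a b, B a b = κ (s1 a) (s2 b) := fun a b => rfl
  intro x hx y hy
  have h1 : κ x y = B (S1 x) (S2 y) := by
    rw [hB, wd1 x hx _ (hs1 (S1 x)) y hy (hs1' _).symm,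
      wd2 _ (hs1 (S1 x)) y hy _ (hs2 (S2 y)) (hs2' _).symm]
  rw [h1]
  apply alt_zero A.nt B
  · intro a b
    rw [hB, hB, ← κh _ (hs1 a) _ (hs2 b)]
    rw [wd1 _ (hs1 (l * a)) _ (hA1 _ (hs1 a)) _ (hs2 _) (by rw [hs1', S1h _ (hs1 a), hs1'])]
    rw [wd2 _ (hA1 _ (hs1 a)) _ (hs2 (l * b)) _ (hB1 _ (hs2 b)) (by rw [hs2', S2h _ (hs2 b), hs2'])]
  · intro a
    rw [hB]
    apply κd _ (hs1 a) _ (hs2 a)
    rw [hs1', hs2']

end Main

end Cfsg.Agent.H448.Suz
end

-- part: H448/SuzMain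
section
/-!
# Suzuki 2-groups: the dichotomy `abelian` / `exponent four`
-/

set_option autoImplicit false

namespace Cfsg.Agent.H448.Suz

open Cfsg.Agent.H448.SuzField Cfsg.Agent.LieRecognition.FieldAutBasis
open scoped commutatorElement

variable {G : Type*} [Group G] {F : Type*} [Field F]

/-- Commutativity of a subgroup. -/
def Ab (M : Subgroup G) : Prop := ∀ x ∈ M, ∀ y ∈ M, x * y = y * x

/-- Exponent four modulo the involutions. -/
def Ty (M : Subgroup G) : Prop := ∀ x ∈ M, (x * x) * (x * x) = 1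

theorem exists_exp [Finite G] (hG : IsPGroup 2 G) {X : Subgroup G} (hz : ∃ z ∈ X, z * z ≠ 1) :
    ∃ m, 1 ≤ m ∧ (∃ z ∈ X, z ^ 2 ^ m ≠ 1) ∧ ∀ z ∈ X, z ^ 2 ^ (m + 1) = 1 := by
  classical
  have : Fact (Nat.Prime 2) := ⟨Nat.prime_two⟩
  obtain ⟨k, hk⟩ := IsPGroup.iff_card.mp hG
  have hex : ∃ k : ℕ, ∀ z ∈ X, z ^ 2 ^ k = 1 := ⟨k, fun z _ => by rw [← hk]; exact pow_card_eq_one'⟩
  set n := Nat.find hex with hn
  have h1 : ∀ z ∈ X, z ^ 2 ^ n = 1 := Nat.find_spec hex
  obtain ⟨z, hzX, hz1⟩ := hz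
  have h2 : 2 ≤ n := by
    by_contra hlt
    push Not at hlt
    apply hz1
    have h3 := h1 z hzX
    rw [← pow_two]
    interval_cases n
    · rw [pow_zero, pow_one] at h3
      rw [h3, one_pow]
    · exact h3
  refine ⟨n - 1, by omega, ?_, ?_⟩
  · have h3 := Nat.find_min hex (m := n - 1) (by omega)
    push Not at h3
    exact h3
  · have h4 : n - 1 + 1 = n := by omega
    rw [h4]
    exact h1

theorem pow_two_pow_of_sq {z : G} (hz : z * z = 1) {m : ℕ} (hm : 1 ≤ m) : z ^ 2 ^ m = 1 := by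
  obtain ⟨k, rfl⟩ := Nat.exists_eq_add_of_le hm
  rw [pow_add, pow_one, pow_mul, pow_two, hz, one_pow]

theorem sq_pow {z : G} {m : ℕ} (h : z ^ 2 ^ (m + 1) = 1) : z ^ 2 ^ m * z ^ 2 ^ m = 1 := by
  rw [← pow_add, ← two_mul, ← pow_succ']
  exact h

theorem com_bb (b x : G) : ⁅b * b, x⁆ = (b * ⁅b, x⁆ * b⁻¹) * ⁅b, x⁆ := by
  simp only [commutatorElement_def]; group

theorem com_mul_left' (b b' x : G) : ⁅b * b', x⁆ = (b * ⁅b', x⁆ * b⁻¹) * ⁅b, x⁆ := by
  simp only [commutatorElement_def]; group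

theorem com_mul_right' (b x x' : G) : ⁅b, x * x'⁆ = ⁅b, x⁆ * (x * ⁅b, x'⁆ * x⁻¹) := by
  simp only [commutatorElement_def]; group

theorem map_com (h : MulAut G) (x y : G) : h ⁅x, y⁆ = ⁅h x, h y⁆ := by
  simp only [commutatorElement_def, map_mul, map_inv]

theorem sq_mul_eq (b b' : G) : (b * b') * (b * b') = (b * ⁅b', b⁆ * b⁻¹) * (b * b) * (b' * b') := by
  rw [commutatorElement_def]; group

/-- The elements of `X` of order dividing `2 ^ n`. -/
def tors (X : Subgroup G) (hc : Ab X) (n : ℕ) : Subgroup G where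
  carrier := {x | x ∈ X ∧ x ^ 2 ^ n = 1}
  one_mem' := ⟨X.one_mem, one_pow _⟩
  mul_mem' := fun {x y} hx hy => ⟨X.mul_mem hx.1 hy.1, by
    have hcm : Commute x y := hc x hx.1 y hy.1
    rw [hcm.mul_pow, hx.2, hy.2, one_mul]⟩
  inv_mem' := fun {x} hx => ⟨X.inv_mem hx.1, by rw [inv_pow, hx.2, inv_one]⟩

theorem mem_tors {X : Subgroup G} {hc : Ab X} {n : ℕ} {x : G} :
    x ∈ tors X hc n ↔ x ∈ X ∧ x ^ 2 ^ n = 1 := Iff.rfl

theorem pow_four_iff (x : G) : x ^ 2 ^ 2 = 1 ↔ (x * x) * (x * x) = 1 := by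
  have : x ^ 2 ^ 2 = (x * x) * (x * x) := by
    have : (2 : ℕ) ^ 2 = 2 * 2 := by norm_num
    rw [this, pow_mul, pow_two, pow_two]
  rw [this]

section Main

variable {D : SData G F} {H : Subgroup (MulAut G)} {h0 : MulAut G} {l : F}
  (A : HData D H h0 l)

theorem inv_tors {X : Subgroup G} (hX : Inv H X) (hc : Ab X) (n : ℕ) : Inv H (tors X hc n) := by
  intro h hh x hx
  exact ⟨hX h hh x hx.1, by rw [← map_pow, hx.2, map_one]⟩

theorem inv_cent {M Y : Subgroup G} (hM : Inv H M) (hY : Inv H Y) :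
    Inv H (M ⊓ Subgroup.centralizer (Y : Set G)) := by
  intro h hh b hb
  refine ⟨hM h hh b hb.1, ?_⟩
  change h b ∈ Subgroup.centralizer (Y : Set G)
  rw [Subgroup.mem_centralizer_iff]
  intro y hy
  have h1 := (Subgroup.mem_centralizer_iff.mp hb.2) (h⁻¹ y) (hY _ (H.inv_mem hh) y hy)
  have h2 := congrArg h h1
  rw [map_mul, map_mul, MulAut.apply_inv_self] at h2
  exact h2

include A

/-- Surjectivity onto the field of an equivariant function. -/
theorem surj_of {M : Subgroup G} (hM : Inv H M) (f : G → G) (hf : ∀ h ∈ H, ∀ x ∈ M, f (h x) = h (f x))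
    (hf1 : f 1 = 1) (hf2 : ∀ x ∈ M, f x * f x = 1) {b0 : G} (hb0 : b0 ∈ M) (hb1 : f b0 ≠ 1) (a : F) :
    ∃ x ∈ M, D.lg (f x) = a := by
  by_cases ha : a = 0
  · exact ⟨1, M.one_mem, by rw [hf1, ha, D.lg_one]⟩
  obtain ⟨a0, ha0⟩ := (D.sq _).mp (hf2 b0 hb0)
  have ha00 : a0 ≠ 0 := by
    rintro rfl
    rw [D.e_zero] at ha0
    exact hb1 ha0.symm
  obtain ⟨x, hx, hxa⟩ := all_of_one A (S := {g | ∃ x ∈ M, f x = g}) (by
    rintro h hh g ⟨x, hx, rfl⟩
    exact ⟨h x, hM h hh x hx, hf h hh x hx⟩) ha00 ⟨b0, hb0, ha0.symm⟩ ha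
  exact ⟨x, hx, by rw [hxa, D.lg_e]⟩

theorem lg_h0 {x : G} (hx : x * x = 1) : D.lg (h0 x) = l * D.lg x := by
  rw [← D.e_lg hx, A.hl, D.lg_e, D.lg_e]

variable [Finite G] [Finite F] [CharP F 2]

/-- `X` is not central. -/
theorem case_central {M X : Subgroup G} (hM : Inv H M) (hX : Inv H X)
    (hXM : X ≤ M) (hcen : ∀ x ∈ X, ∀ b ∈ M, x * b = b * x) (hΦ : ∀ b ∈ M, b * b ∈ X) (hna : ¬ Ab M)
    (hx : ∃ z ∈ X, z * z ≠ 1) : False := by
  have hXc : Ab X := fun x hx y hy => hcen x hx y (hXM hy)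
  obtain ⟨m, hm1, ⟨z0, hz0, hz1⟩, hm2⟩ := exists_exp A.two hx
  have hXne : X ≠ ⊥ := by
    rintro rfl
    rw [Subgroup.mem_bot.mp hz0, one_pow] at hz1
    exact hz1 rfl
  have hPhi : Phi M ≤ X := Phi_le hΦ
  have hcomX : ∀ b ∈ M, ∀ b' ∈ M, ⁅b, b'⁆ ∈ X := fun b hb b' hb' => hPhi (com_mem_Phi hb hb')
  have hcom2 : ∀ b ∈ M, ∀ b' ∈ M, ⁅b, b'⁆ * ⁅b, b'⁆ = 1 := by
    intro b hb b' hb'
    have h1 := com_bb b b'
    rw [← hcen _ (hcomX b hb b' hb') b hb, mul_inv_cancel_right,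
      commutatorElement_eq_one_iff_mul_comm.mpr (hcen _ (hΦ b hb) b' hb')] at h1
    exact h1.symm
  have hsq2 : ∀ b ∈ M, (b * b) ^ 2 ^ m * (b * b) ^ 2 ^ m = 1 := fun b hb => sq_pow (hm2 _ (hΦ b hb))
  have hmul : ∀ b ∈ M, ∀ b' ∈ M,
      ((b * b') * (b * b')) ^ 2 ^ m = (b * b) ^ 2 ^ m * (b' * b') ^ 2 ^ m := by
    intro b hb b' hb'
    rw [sq_mul_eq, ← hcen _ (hcomX b' hb' b hb) b hb, mul_inv_cancel_right]
    have c1 : Commute (⁅b', b⁆ * (b * b)) (b' * b') :=
      hXc _ (X.mul_mem (hcomX b' hb' b hb) (hΦ b hb)) _ (hΦ b' hb')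
    have c2 : Commute ⁅b', b⁆ (b * b) := hXc _ (hcomX b' hb' b hb) _ (hΦ b hb)
    rw [c1.mul_pow, c2.mul_pow, pow_two_pow_of_sq (hcom2 b' hb' b hb) hm1, one_mul]
  have hker : ∀ b ∈ M, (b * b) ^ 2 ^ m = 1 → b ∈ X := by
    intro b hb h
    obtain ⟨x, hxX, hxx⟩ := exists_root A hX hXc hz0 hz1 m le_rfl _ (hΦ b hb) h
    have h1 : (b * x⁻¹) * (b * x⁻¹) = 1 := by
      have h2 := hcen _ (X.inv_mem hxX) b hb
      calc (b * x⁻¹) * (b * x⁻¹) = b * (x⁻¹ * b) * x⁻¹ := by group
        _ = (b * b) * (x * x)⁻¹ := by rw [h2]; group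
        _ = 1 := by rw [hxx, mul_inv_cancel]
    have h3 := sq_mem A hX hXne h1
    have h4 : b = (b * x⁻¹) * x := by group
    rw [h4]
    exact X.mul_mem h3 hxX
  obtain ⟨b0, hb0, hb0X⟩ : ∃ b ∈ M, b ∉ X := by
    by_contra hcon
    push Not at hcon
    exact hna fun x hx y hy => hcen x (hcon x hx) y hy
  have hz : ∀ x ∈ M, ∀ y ∈ M, D.lg ⁅x, y⁆ = 0 := by
    apply alt_pair A (hM _ A.mem) (hM _ A.mem) (fun b => D.lg ((b * b) ^ 2 ^ m))
      (fun b => D.lg ((b * b) ^ 2 ^ m)) (fun x y => D.lg ⁅x, y⁆)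
    · intro x hx y hy
      rw [hmul x hx y hy, D.lg_mul (hsq2 x hx) (hsq2 y hy)]
    · intro x hx y hy
      rw [hmul x hx y hy, D.lg_mul (hsq2 x hx) (hsq2 y hy)]
    · exact surj_of A hM (fun b => (b * b) ^ 2 ^ m) (fun h _ x _ => by
        rw [map_pow, map_mul]) (by rw [mul_one, one_pow]) hsq2 hb0 (fun h => hb0X (hker b0 hb0 h))
    · exact surj_of A hM (fun b => (b * b) ^ 2 ^ m) (fun h _ x _ => by
        rw [map_pow, map_mul]) (by rw [mul_one, one_pow]) hsq2 hb0 (fun h => hb0X (hker b0 hb0 h))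
    · intro x hx
      rw [← lg_h0 A (hsq2 x hx), map_pow, map_mul]
    · intro x hx
      rw [← lg_h0 A (hsq2 x hx), map_pow, map_mul]
    · intro x hx x' hx' y hy
      rw [com_mul_left', ← hcen _ (hcomX x' hx' y hy) x hx, mul_inv_cancel_right,
        D.lg_mul (hcom2 x' hx' y hy) (hcom2 x hx y hy), add_comm]
    · intro x hx y hy y' hy'
      rw [com_mul_right', ← hcen _ (hcomX x hx y' hy') y hy, mul_inv_cancel_right,
        D.lg_mul (hcom2 x hx y hy) (hcom2 x hx y' hy')]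
    · intro x hx y hy
      rw [← lg_h0 A (hcom2 x hx y hy), map_com]
    · intro x hx y hy h
      have h1 := hker x hx (D.eq_one_of_lg (hsq2 x hx) h)
      rw [commutatorElement_eq_one_iff_mul_comm.mpr (hcen x h1 y hy), D.lg_one]
    · intro x hx y hy h
      have h1 := hker y hy (D.eq_one_of_lg (hsq2 y hy) h)
      rw [commutatorElement_eq_one_iff_mul_comm.mpr (hcen y h1 x hx).symm, D.lg_one]
    · intro x hx y hy h
      have h1 := D.eq_of_lg (hsq2 x hx) (hsq2 y hy) h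
      have h2 := hmul x hx y⁻¹ (M.inv_mem hy)
      have h3 : (y⁻¹ * y⁻¹) ^ 2 ^ m = ((y * y) ^ 2 ^ m)⁻¹ := by
        rw [← mul_inv_rev, inv_pow]
      rw [h3, h1, mul_inv_cancel] at h2
      have h4 := hker _ (M.mul_mem hx (M.inv_mem hy)) h2
      have h5 := hcen _ h4 y hy
      apply (congrArg D.lg (commutatorElement_eq_one_iff_mul_comm.mpr ?_)).trans D.lg_one
      calc x * y = ((x * y⁻¹) * y) * y := by group
        _ = (y * (x * y⁻¹)) * y := by rw [h5]
        _ = y * x := by group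
  apply hna
  intro x hx y hy
  exact commutatorElement_eq_one_iff_mul_comm.mp (D.eq_one_of_lg (hcom2 x hx y hy) (hz x hx y hy))

/-- The case of a deep central part. -/
theorem case_deep {M X : Subgroup G} (hM : Inv H M) (hX : Inv H X)
    (hXM : X ≤ M) (hXc : Ab X) (hΦ : ∀ b ∈ M, b * b ∈ X)
    (hcent : ∀ b ∈ M, (∀ x ∈ X, b * x = x * b) → b ∈ X) {m : ℕ} (hm1 : 2 ≤ m) {z0 : G} (hz0 : z0 ∈ X)
    (hz1 : z0 ^ 2 ^ m ≠ 1) (hm2 : ∀ z ∈ X, z ^ 2 ^ (m + 1) = 1)
    (hXm : ∀ x ∈ X, x ^ 2 ^ m = 1 → ∀ b ∈ M, x * b = b * x) (hna : ¬ Ab M) : False := by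
  have hXne : X ≠ ⊥ := by
    rintro rfl
    rw [Subgroup.mem_bot.mp hz0, one_pow] at hz1
    exact hz1 rfl
  have hPhi : Phi M ≤ X := Phi_le hΦ
  have hcomX : ∀ b ∈ M, ∀ b' ∈ M, ⁅b, b'⁆ ∈ X := fun b hb b' hb' => hPhi (com_mem_Phi hb hb')
  have hnorm : ∀ b ∈ M, ∀ x ∈ X, b * x * b⁻¹ ∈ X := by
    intro b hb x hx
    have h1 : b * x * b⁻¹ = ⁅b, x⁆ * x := by rw [commutatorElement_def]; group
    rw [h1]
    exact X.mul_mem (hcomX b hb x (hXM hx)) hx
  have hpi2 : ∀ x ∈ X, x ^ 2 ^ m * x ^ 2 ^ m = 1 := fun x hx => sq_pow (hm2 x hx)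
  -- commutators with `X`
  have hcom2 : ∀ b ∈ M, ∀ x ∈ X, ⁅b, x⁆ * ⁅b, x⁆ = 1 := by
    intro b hb x hx
    have h1 : ⁅b, x * x⁆ = ⁅b, x⁆ * ⁅b, x⁆ := by
      rw [com_mul_right', hXc x hx _ (hcomX b hb x (hXM hx)), mul_inv_cancel_right]
    rw [← h1]
    apply commutatorElement_eq_one_iff_mul_comm.mpr
    symm
    apply hXm _ (X.mul_mem hx hx) _ b hb
    have hcm : Commute x x := rfl
    rw [hcm.mul_pow]
    exact hpi2 x hx
  -- commutators of `M` have order dividing four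
  have hcom4 : ∀ b ∈ M, ∀ b' ∈ M, ⁅b', b⁆ ^ 2 ^ m = 1 := by
    intro b hb b' hb'
    have hz := hcomX b' hb' b hb
    have h1 : ⁅b', b * b⁆ = ⁅b', b⁆ * ⁅b', b⁆ * ⁅b, ⁅b', b⁆⁆ := by
      have h2 := D.comm_of_sq (hcom2 b hb _ hz)
      calc ⁅b', b * b⁆ = ⁅b', b⁆ * ⁅b, ⁅b', b⁆⁆ * ⁅b', b⁆ := by
            simp only [commutatorElement_def]; group
        _ = ⁅b', b⁆ * ⁅b', b⁆ * ⁅b, ⁅b', b⁆⁆ := by rw [mul_assoc, h2, ← mul_assoc]
    have h3 := hcom2 b' hb' _ (hΦ b hb)
    have h4 := hcom2 b hb _ hz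
    have h5 : ⁅b', b⁆ * ⁅b', b⁆ = ⁅b', b * b⁆ * ⁅b, ⁅b', b⁆⁆ := by
      rw [h1, mul_assoc, h4, mul_one]
    have h6 : (⁅b', b⁆ * ⁅b', b⁆) * (⁅b', b⁆ * ⁅b', b⁆) = 1 := by
      rw [h5]
      exact D.sq_mul h3 h4
    obtain ⟨k, rfl⟩ := Nat.exists_eq_add_of_le hm1
    rw [pow_add, pow_mul, (pow_four_iff _).mpr h6, one_pow]
  have hsq2 : ∀ b ∈ M, (b * b) ^ 2 ^ m * (b * b) ^ 2 ^ m = 1 := fun b hb => hpi2 _ (hΦ b hb)
  have hmul : ∀ b ∈ M, ∀ b' ∈ M,
      ((b * b') * (b * b')) ^ 2 ^ m = (b * b) ^ 2 ^ m * (b' * b') ^ 2 ^ m := by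
    intro b hb b' hb'
    have hu := hnorm b hb _ (hcomX b' hb' b hb)
    rw [sq_mul_eq]
    have c1 : Commute (b * ⁅b', b⁆ * b⁻¹ * (b * b)) (b' * b') :=
      hXc _ (X.mul_mem hu (hΦ b hb)) _ (hΦ b' hb')
    have c2 : Commute (b * ⁅b', b⁆ * b⁻¹) (b * b) := hXc _ hu _ (hΦ b hb)
    rw [c1.mul_pow, c2.mul_pow, conj_pow, hcom4 b hb b' hb', mul_one, mul_inv_cancel, one_mul]
  have hker : ∀ b ∈ M, (b * b) ^ 2 ^ m = 1 → b ∈ X := by
    intro b hb h
    obtain ⟨x, hxX, hxx⟩ := exists_root A hX hXc hz0 hz1 m le_rfl _ (hΦ b hb) h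
    have h1 : (b * x⁻¹) * (b * x⁻¹) = (b * b) * ⁅b⁻¹, x⁻¹⁆ * (x * x)⁻¹ := by
      rw [commutatorElement_def]; group
    have h2 := hcom2 b⁻¹ (M.inv_mem hb) x⁻¹ (X.inv_mem hxX)
    have h3 : (b * x⁻¹) * (b * x⁻¹) = ⁅b⁻¹, x⁻¹⁆ := by
      rw [h1, hxx, ← D.comm_of_sq h2 (b * b), mul_assoc, mul_inv_cancel, mul_one]
    -- a root of the commutator
    obtain ⟨c, hc, hcc⟩ := exists_root A hX hXc hz0 hz1 1 (by omega) ⁅b⁻¹, x⁻¹⁆
      (hcomX _ (M.inv_mem hb) _ (M.inv_mem (hXM hxX))) (by rw [pow_one, pow_two]; exact h2)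
    have hcc2 : c ^ 2 ^ m = 1 := by
      obtain ⟨k, rfl⟩ := Nat.exists_eq_add_of_le hm1
      rw [pow_add, pow_mul, (pow_four_iff _).mpr (by rw [hcc]; exact h2), one_pow]
    have h4 := hXm c hc hcc2
    have h5 : (b * x⁻¹ * c⁻¹) * (b * x⁻¹ * c⁻¹) = 1 := by
      have h6 : c⁻¹ * (b * x⁻¹) = (b * x⁻¹) * c⁻¹ := by
        rw [inv_mul_eq_iff_eq_mul, ← mul_assoc, h4 _ (M.mul_mem hb (M.inv_mem (hXM hxX))), mul_assoc,
          mul_inv_cancel, mul_one]
      calc (b * x⁻¹ * c⁻¹) * (b * x⁻¹ * c⁻¹) = (b * x⁻¹) * (c⁻¹ * (b * x⁻¹)) * c⁻¹ := by group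
        _ = ((b * x⁻¹) * (b * x⁻¹)) * (c * c)⁻¹ := by rw [h6]; group
        _ = 1 := by rw [h3, hcc, mul_inv_cancel]
    have h7 := sq_mem A hX hXne h5
    have h8 : b = (b * x⁻¹ * c⁻¹) * c * x := by group
    rw [h8]
    exact X.mul_mem (X.mul_mem h7 hc) hxX
  obtain ⟨b0, hb0, hb0X⟩ : ∃ b ∈ M, b ∉ X := by
    by_contra hcon
    push Not at hcon
    exact hna fun x hx y hy => hXc x (hcon x hx) y (hcon y hy)
  have hz : ∀ b ∈ M, ∀ x ∈ X, D.lg ⁅b, x⁆ = 0 := by
    apply alt_pair A (hM _ A.mem) (hX _ A.mem) (fun b => D.lg ((b * b) ^ 2 ^ m))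
      (fun x => D.lg (x ^ 2 ^ m)) (fun x y => D.lg ⁅x, y⁆)
    · intro x hx y hy
      rw [hmul x hx y hy, D.lg_mul (hsq2 x hx) (hsq2 y hy)]
    · intro x hx y hy
      have c1 : Commute x y := hXc x hx y hy
      rw [c1.mul_pow, D.lg_mul (hpi2 x hx) (hpi2 y hy)]
    · exact surj_of A hM (fun b => (b * b) ^ 2 ^ m) (fun h _ x _ => by
        rw [map_pow, map_mul]) (by rw [mul_one, one_pow]) hsq2 hb0 (fun h => hb0X (hker b0 hb0 h))
    · exact surj_of A hX (fun b => b ^ 2 ^ m) (fun h _ x _ => by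
        rw [map_pow]) (by rw [one_pow]) hpi2 hz0 hz1
    · intro x hx
      rw [← lg_h0 A (hsq2 x hx), map_pow, map_mul]
    · intro x hx
      rw [← lg_h0 A (hpi2 x hx), map_pow]
    · intro x hx x' hx' y hy
      rw [com_mul_left', ← D.comm_of_sq (hcom2 x' hx' y hy) x, mul_inv_cancel_right,
        D.lg_mul (hcom2 x' hx' y hy) (hcom2 x hx y hy), add_comm]
    · intro x hx y hy y' hy'
      rw [com_mul_right', ← D.comm_of_sq (hcom2 x hx y' hy') y, mul_inv_cancel_right,
        D.lg_mul (hcom2 x hx y hy) (hcom2 x hx y' hy')]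
    · intro x hx y hy
      rw [← lg_h0 A (hcom2 x hx y hy), map_com]
    · intro x hx y hy h
      have h1 := hker x hx (D.eq_one_of_lg (hsq2 x hx) h)
      rw [commutatorElement_eq_one_iff_mul_comm.mpr (hXc x h1 y hy), D.lg_one]
    · intro x hx y hy h
      have h1 := hXm y hy (D.eq_one_of_lg (hpi2 y hy) h) x hx
      rw [commutatorElement_eq_one_iff_mul_comm.mpr h1.symm, D.lg_one]
    · intro b hb x hx h
      have h1 := D.eq_of_lg (hsq2 b hb) (hpi2 x hx) h
      have c1 : Commute (b * b) x⁻¹ := hXc _ (hΦ b hb) _ (X.inv_mem hx)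
      have h2 : (b * b * x⁻¹) ^ 2 ^ m = 1 := by
        rw [c1.mul_pow, h1, inv_pow, mul_inv_cancel]
      have h3 := hXm _ (X.mul_mem (hΦ b hb) (X.inv_mem hx)) h2 b hb
      apply (congrArg D.lg (commutatorElement_eq_one_iff_mul_comm.mpr ?_)).trans D.lg_one
      -- `x⁻¹ * b = b * x⁻¹`
      have h4 : x⁻¹ * b = b * x⁻¹ := by
        apply mul_left_cancel (a := b * b)
        calc b * b * (x⁻¹ * b) = b * b * x⁻¹ * b := by group
          _ = b * (b * b * x⁻¹) := h3
          _ = b * b * (b * x⁻¹) := by group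
      rw [inv_mul_eq_iff_eq_mul, ← mul_assoc] at h4
      rw [eq_mul_inv_iff_mul_eq] at h4
      exact h4
  apply hna
  have hMX : M ≤ X := fun b hb => hcent b hb fun x hx =>
    commutatorElement_eq_one_iff_mul_comm.mp (D.eq_one_of_lg (hcom2 b hb x hx) (hz b hb x hx))
  exact fun x hx y hy => hXc x (hMX hx) y (hMX hy)

end Main

end Cfsg.Agent.H448.Suz
end

-- part: H448/SuzFinal
section
/-!
# Suzuki 2-groups: the induction
-/

set_option autoImplicit false

namespace Cfsg.Agent.H448.Suz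

open Cfsg.Agent.H448.SuzField Cfsg.Agent.LieRecognition.FieldAutBasis
open scoped commutatorElement

variable {G : Type*} [Group G] {F : Type*} [Field F]

variable {D : SData G F} {H : Subgroup (MulAut G)} {h0 : MulAut G} {l : F}
  (A : HData D H h0 l) [Finite G] [Finite F] [CharP F 2]

include A

omit [Finite F] [CharP F 2] in
/-- The squares generate an abelian subgroup. -/
theorem ab_Phi {M : Subgroup G} (hM : Inv H M) (hTA : Ab (Phi M) ∨ Ty (Phi M)) : Ab (Phi M) := by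
  by_contra hna
  have hTy : Ty (Phi M) := hTA.resolve_left hna
  have hN : ∃ w ∈ Phi M, w * w ≠ 1 := by
    by_contra hcon
    push Not at hcon
    exact hna fun x hx y _ => D.comm_of_sq (hcon x hx) y
  obtain ⟨w, hw, hw1, hw2⟩ := exists_low D A.two (M := M) (N := Phi M)
    (fun w hw g hg => com_mem_Phi (Phi_le_self M hw) hg) hN
  have h1 : Phi M ≤ Subgroup.centralizer ({w} : Set G) := by
    apply Phi_le
    intro g hg
    rw [Subgroup.mem_centralizer_singleton_iff]
    have h2 : ⁅w, g * g⁆ = 1 := by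
      rw [com_mul_right', ← D.comm_of_sq (hw2 g hg) g, mul_inv_cancel_right]
      exact hw2 g hg
    exact (commutatorElement_eq_one_iff_mul_comm.mp h2).symm
  apply hw1
  apply central_sq A (Phi_inv hM) hTy hna hw
  intro x hx
  exact (Subgroup.mem_centralizer_singleton_iff.mp (h1 hx)).symm

theorem dichotomy (n : ℕ) : ∀ M : Subgroup G, Inv H M → Nat.card M ≤ n → Ab M ∨ Ty M := by
  induction n with
  | zero =>
    intro M _ h
    have : 0 < Nat.card M := Nat.card_pos
    omega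
  | succ n ih =>
    intro M hM hcard
    by_contra hcon
    push Not at hcon
    obtain ⟨hna, hnt⟩ := hcon
    have IH : ∀ N : Subgroup G, Inv H N → N < M → Ab N ∨ Ty N := by
      intro N hN hlt
      apply ih N hN
      have h1 : Nat.card N < Nat.card M := by
        have h2 := Set.ncard_lt_ncard (s := (N : Set G)) (t := (M : Set G)) hlt (Set.toFinite _)
        exact h2
      omega
    have hMne : M ≠ ⊥ := by
      rintro rfl
      apply hna
      intro x hx y hy
      rw [Subgroup.mem_bot.mp hx, Subgroup.mem_bot.mp hy]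
    have hPhiAb : Ab (Phi M) := ab_Phi A hM (IH _ (Phi_inv hM)
      (lt_of_le_of_ne (Phi_le_self M) (Phi_ne A.two hMne)))
    -- a maximal abelian invariant subgroup containing the squares
    let S : Set (Subgroup G) := {N | Inv H N ∧ Phi M ≤ N ∧ N ≤ M ∧ Ab N}
    obtain ⟨X, -, hXmax⟩ := (Set.toFinite S).exists_le_maximal
      (show Phi M ∈ S from ⟨Phi_inv hM, le_rfl, Phi_le_self M, hPhiAb⟩)
    obtain ⟨hX, hPX, hXM, hXc⟩ : X ∈ S := hXmax.prop
    have hmax : ∀ N : Subgroup G, Inv H N → X ≤ N → N ≤ M → Ab N → N ≤ X := by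
      intro N h1 h2 h3 h4
      exact hXmax.le_of_ge ⟨h1, hPX.trans h2, h3, h4⟩ h2
    have hΦ : ∀ b ∈ M, b * b ∈ X := fun b hb => hPX (sq_mem_Phi hb)
    have hXX : ∃ z ∈ X, z * z ≠ 1 := by
      by_contra hcon
      push Not at hcon
      exact hnt fun b hb => hcon _ (hΦ b hb)
    have hXne : X ≠ ⊥ := by
      rintro rfl
      obtain ⟨z, hz, hz1⟩ := hXX
      rw [Subgroup.mem_bot.mp hz, mul_one] at hz1
      exact hz1 rfl
    -- the centralizer of `X`
    have hcent : ∀ b ∈ M, (∀ x ∈ X, b * x = x * b) → b ∈ X := by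
      by_cases hC : M ⊓ Subgroup.centralizer (X : Set G) = M
      · exfalso
        refine case_central A hM hX hXM ?_ hΦ hna hXX
        intro x hx b hb
        rw [← hC] at hb
        exact Subgroup.mem_centralizer_iff.mp hb.2 x hx
      · have hClt := lt_of_le_of_ne inf_le_left hC
        have hCinv := inv_cent hM hX
        have hXC : X ≤ M ⊓ Subgroup.centralizer (X : Set G) := by
          intro x hx
          refine ⟨hXM hx, ?_⟩
          exact Subgroup.mem_centralizer_iff.mpr fun y hy => hXc y hy x hx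
        have hCab : Ab (M ⊓ Subgroup.centralizer (X : Set G)) := by
          by_contra hnaC
          obtain ⟨z, hz, hz1⟩ := hXX
          apply hz1
          exact central_sq A hCinv ((IH _ hCinv hClt).resolve_left hnaC) hnaC (hXC hz)
            (fun x hx => Subgroup.mem_centralizer_iff.mp hx.2 z hz)
        intro b hb hbx
        exact hmax _ hCinv hXC inf_le_left hCab ⟨hb, Subgroup.mem_centralizer_iff.mpr fun y hy =>
          (hbx y hy).symm⟩
    obtain ⟨m, hm1, ⟨z0, hz0, hz1⟩, hm2⟩ := exists_exp A.two hXX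
    have hcomX : ∀ b ∈ M, ∀ b' ∈ M, ⁅b, b'⁆ ∈ X := fun b hb b' hb' => hPX (com_mem_Phi hb hb')
    have hdbl : ∀ b ∈ M, ∀ x ∈ X, ⁅b, x * x⁆ = ⁅b, x⁆ * ⁅b, x⁆ := by
      intro b hb x hx
      rw [com_mul_right', hXc x hx _ (hcomX b hb x (hXM hx)), mul_inv_cancel_right]
    have hbbx : ∀ b ∈ M, ∀ x ∈ X, ⁅b * b, x⁆ = 1 := fun b hb x hx =>
      commutatorElement_eq_one_iff_mul_comm.mpr (hXc _ (hΦ b hb) x hx)
    set Y := tors X hXc 2 with hY
    have hYinv : Inv H Y := inv_tors hX hXc 2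
    have hYX : Y ≤ X := fun y hy => hy.1
    have hroot : ∀ a : F, ∃ y ∈ Y, y * y = D.e a := by
      intro a
      obtain ⟨y, hy, hyy⟩ := exists_root A hX hXc hz0 hz1 1 hm1 (D.e a) (e_mem A hX hXne a)
        (by rw [pow_one, pow_two]; exact D.sq_e a)
      refine ⟨y, ⟨hy, ?_⟩, hyy⟩
      rw [pow_four_iff, hyy]
      exact D.sq_e a
    have hcom : ∀ b ∈ M, ∀ y ∈ Y, ⁅b, y⁆ * ⁅b, y⁆ = 1 := by
      intro b hb y hy
      rw [← hdbl b hb y hy.1]
      apply commutatorElement_eq_one_iff_mul_comm.mpr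
      exact (D.comm_of_sq ((pow_four_iff y).mp hy.2) b).symm
    by_cases hC2 : M ⊓ Subgroup.centralizer (Y : Set G) = M
    · -- `Y` is central
      have hYcen : ∀ x ∈ X, x ^ 2 ^ 2 = 1 → ∀ b ∈ M, x * b = b * x := by
        intro x hx hx2 b hb
        rw [← hC2] at hb
        exact Subgroup.mem_centralizer_iff.mp hb.2 x ⟨hx, hx2⟩
      classical
      have hex : ∃ j, ¬ ∀ x ∈ X, x ^ 2 ^ j = 1 → ∀ b ∈ M, x * b = b * x := by
        refine ⟨m + 1, fun h => ?_⟩
        apply hna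
        have hMX : M ≤ X := fun b hb => hcent b hb fun x hx => (h x hx (hm2 x hx) b hb).symm
        exact fun x hx y hy => hXc x (hMX hx) y (hMX hy)
      set j := Nat.find hex with hj
      have hj1 : ¬ ∀ x ∈ X, x ^ 2 ^ j = 1 → ∀ b ∈ M, x * b = b * x := Nat.find_spec hex
      have hjm : j ≤ m + 1 := by
        apply Nat.find_min' hex
        intro h
        apply hna
        have hMX : M ≤ X := fun b hb => hcent b hb fun x hx => (h x hx (hm2 x hx) b hb).symm
        exact fun x hx y hy => hXc x (hMX hx) y (hMX hy)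
      have hj3 : 3 ≤ j := by
        by_contra hlt
        push Not at hlt
        apply hj1
        intro x hx hxj
        apply hYcen x hx
        have h1 : (2 : ℕ) ^ 2 = 2 ^ j * 2 ^ (2 - j) := by
          rw [← pow_add]
          congr 1
          omega
        rw [h1, pow_mul, hxj, one_pow]
      have hjp : ∀ x ∈ X, x ^ 2 ^ (j - 1) = 1 → ∀ b ∈ M, x * b = b * x := by
        have := Nat.find_min hex (m := j - 1) (by omega)
        push Not at this
        exact this
      by_cases hjm' : j ≤ m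
      · apply hj1
        intro x hx hxj b hb
        obtain ⟨u, hu, huu⟩ := exists_root A hX hXc hz0 hz1 j hjm' x hx hxj
        have hδ := hcomX b hb u (hXM hu)
        have h1 : ⁅b, x⁆ = ⁅b, u⁆ * ⁅b, u⁆ := by rw [← huu]; exact hdbl b hb u hu
        have h2 : ⁅b, x⁆ * ⁅b, x⁆ = 1 := by
          rw [← hdbl b hb x hx]
          apply commutatorElement_eq_one_iff_mul_comm.mpr
          symm
          apply hjp _ (X.mul_mem hx hx) _ b hb
          rw [← pow_two, ← pow_mul, ← pow_succ']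
          have h3 : j - 1 + 1 = j := by omega
          rw [h3]
          exact hxj
        have h3 : ⁅b, u⁆ ^ 2 ^ 2 = 1 := by
          rw [pow_four_iff, ← h1]
          exact h2
        have h4 := hYcen _ hδ h3 b hb
        have h5 := com_bb b u
        rw [hbbx b hb u hu, ← h4, mul_inv_cancel_right, ← h1] at h5
        exact (commutatorElement_eq_one_iff_mul_comm.mp h5.symm).symm
      · have hjeq : j = m + 1 := by omega
        rw [hjeq] at hjp
        exact case_deep A hM hX hXM hXc hΦ hcent (by omega) hz0 hz1 hm2 hjp hna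
    · -- `X` is the centralizer of `Y`
      have hC2lt := lt_of_le_of_ne inf_le_left hC2
      have hC2inv := inv_cent hM hYinv
      have hXC2 : X ≤ M ⊓ Subgroup.centralizer (Y : Set G) := by
        intro x hx
        refine ⟨hXM hx, ?_⟩
        exact Subgroup.mem_centralizer_iff.mpr fun y hy => hXc y (hYX hy) x hx
      have hC2ab : Ab (M ⊓ Subgroup.centralizer (Y : Set G)) := by
        by_contra hnaC
        obtain ⟨y, hy, hyy⟩ := hroot 1
        have h1 : y * y = 1 :=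
          central_sq A hC2inv ((IH _ hC2inv hC2lt).resolve_left hnaC) hnaC (hXC2 (hYX hy))
            (fun x hx => Subgroup.mem_centralizer_iff.mp hx.2 y hy)
        rw [hyy, ← D.e_zero] at h1
        exact one_ne_zero (D.inj h1)
      have hC2X := hmax _ hC2inv hXC2 inf_le_left hC2ab
      have P : Pair D M Y X :=
        { YM := hYX.trans hXM
          XM := hXM
          Yc := fun x hx y hy => hXc x (hYX hx) y (hYX hy)
          Xc := hXc
          root := hroot
          Y4 := fun y hy => (pow_four_iff y).mp hy.2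
          com := hcom
          cent := fun b hb h => hC2X ⟨hb, Subgroup.mem_centralizer_iff.mpr fun y hy => (h y hy).symm⟩
          XY := fun x hx y hy => hXc x hx y (hYX hy)
          sqX := hΦ }
      rcases Nat.lt_or_ge m 2 with hm | hm
      · have hm' : m = 1 := by omega
        have hYX' : Y = X := by
          apply le_antisymm hYX
          intro x hx
          refine ⟨hx, ?_⟩
          have := hm2 x hx
          rw [hm'] at this
          exact this
        rw [hYX'] at P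
        exact hnt fun b hb => pow_four P A hM hX hb
      · have hMX : M ≤ X := by
          apply le_of_idem A P hM hYinv hX
          intro b hb a
          obtain ⟨y, hy, hyy⟩ := hroot a
          obtain ⟨x, hx, hxx⟩ := exists_root A hX hXc hz0 hz1 2 hm y hy.1 hy.2
          have hδX := hcomX b hb x (hXM hx)
          have h1 : ⁅b, y⁆ = ⁅b, x⁆ * ⁅b, x⁆ := by rw [← hxx]; exact hdbl b hb x hx
          have h2 := hcom b hb y hy
          have hδY : ⁅b, x⁆ ∈ Y := ⟨hδX, by rw [pow_four_iff, ← h1]; exact h2⟩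
          have h3 : P.bet b a = D.lg ⁅b, y⁆ := by
            have := P.bet_lg hb hy
            rw [hyy, D.lg_e] at this
            exact this
          have h4 : ⁅b, ⁅b, x⁆⁆ = ⁅b, y⁆ := by
            have h5 := com_bb b x
            rw [hbbx b hb x hx] at h5
            have h6 : b * ⁅b, x⁆ * b⁻¹ = ⁅b, x⁆⁻¹ := eq_inv_of_mul_eq_one_left h5.symm
            have h7 : ⁅b, ⁅b, x⁆⁆ = (b * ⁅b, x⁆ * b⁻¹) * ⁅b, x⁆⁻¹ := commutatorElement_def _ _
            rw [h7, h6, ← mul_inv_rev, ← h1]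
            exact inv_eq_of_mul_eq_one_right h2
          have h5 := P.bet_lg hb hδY
          rw [h4, ← h1, ← h3] at h5
          exact h5
        exact hna fun x hx y hy => hXc x (hMX hx) y (hMX hy)

end Cfsg.Agent.H448.Suz
end

-- part: H448/SuzSolv
section
/-!
# 2-groups with a solvable group of automorphisms transitive on the involutions

A finite non-abelian 2-group with at least two involutions and a solvable group of automorphisms
transitive on the involutions: all fourth powers are trivial and the centre consists of the elements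
of square one.
-/

set_option autoImplicit false

namespace Cfsg.Agent.H448.SuzSolv

open Cfsg.Agent.H448.Suz
open scoped commutatorElement

variable {G : Type*} [Group G]

/-- The subgroup of the elements of square one. -/
def E (hc : ∀ x : G, x * x = 1 → ∀ g : G, x * g = g * x) : Subgroup G where
  carrier := {x | x * x = 1}
  one_mem' := mul_one 1
  mul_mem' := fun {x y} hx hy => by
    have hx' : x * x = 1 := hx
    have hy' : y * y = 1 := hy
    change (x * y) * (x * y) = 1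
    calc (x * y) * (x * y) = x * (y * x) * y := by group
      _ = (x * x) * (y * y) := by rw [← hc x hx' y]; group
      _ = 1 := by rw [hx', hy', mul_one]
  inv_mem' := fun {x} hx => by
    have hx' : x * x = 1 := hx
    change x⁻¹ * x⁻¹ = 1
    rw [← mul_inv_rev, hx', inv_one]

theorem mem_E {hc : ∀ x : G, x * x = 1 → ∀ g : G, x * g = g * x} {x : G} : x ∈ E hc ↔ x * x = 1 :=
  Iff.rfl

/-- Restriction of automorphisms. -/
def res (hc : ∀ x : G, x * x = 1 → ∀ g : G, x * g = g * x) : MulAut G →* MulAut (E hc) where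
  toFun := fun h =>
    { toFun := fun x => ⟨h x, by
        have hx : (x : G) * x = 1 := x.2
        change h x * h x = 1
        rw [← map_mul, hx, map_one]⟩
      invFun := fun x => ⟨h⁻¹ x, by
        have hx : (x : G) * x = 1 := x.2
        change h⁻¹ (x : G) * h⁻¹ (x : G) = 1
        rw [← map_mul, hx, map_one]⟩
      left_inv := fun x => Subtype.ext (MulAut.inv_apply_self _ _ _)
      right_inv := fun x => Subtype.ext (MulAut.apply_inv_self _ _ _)
      map_mul' := fun x y => Subtype.ext (map_mul h _ _) }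
  map_one' := rfl
  map_mul' := fun g h => rfl

theorem res_apply (hc : ∀ x : G, x * x = 1 → ∀ g : G, x * g = g * x) (h : MulAut G) (x : E hc) :
    ((res hc h x : E hc) : G) = h x := rfl

variable [Finite G]

theorem main (hG : IsPGroup 2 G) (hna : ¬ IsMulCommutative G)
    (htwo : ∃ x y : G, x ≠ y ∧ x ≠ 1 ∧ x ^ 2 = 1 ∧ y ≠ 1 ∧ y ^ 2 = 1)
    (hY : ∃ Y : Subgroup (MulAut G), Group.IsSolvable Y ∧
      ∀ x y : G, x ≠ 1 → x ^ 2 = 1 → y ≠ 1 → y ^ 2 = 1 → ∃ a ∈ Y, a x = y) :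
    (∀ x g : G, x * x = 1 → x * g = g * x) ∧ (∀ x : G, (x * x) * (x * x) = 1) ∧
      (∀ x : G, (∀ g : G, x * g = g * x) → x * x = 1) ∧
      ∀ N : Subgroup G, N.Characteristic → N ≠ ⊥ → ∀ x : G, x * x = 1 → x ∈ N := by
  classical
  have h2f : Fact (Nat.Prime 2) := ⟨Nat.prime_two⟩
  obtain ⟨x1, y1, hxy1, hx1, hx1', hy1, hy1'⟩ := htwo
  obtain ⟨Y, hYs, htr⟩ := hY
  have hnt : Nontrivial G := ⟨⟨x1, 1, hx1⟩⟩
  -- the involutions are central
  have hc : ∀ x : G, x * x = 1 → ∀ g : G, x * g = g * x := by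
    have hcn : Nontrivial (Subgroup.center G) := hG.center_nontrivial
    obtain ⟨⟨z, hzc⟩, hz1⟩ := exists_ne (1 : Subgroup.center G)
    have hz1' : z ≠ 1 := fun h => hz1 (Subtype.ext h)
    obtain ⟨k, hk1, hk2⟩ := exists_pow_involution hG hz1'
    have hkc : z ^ 2 ^ k ∈ Subgroup.center G := Subgroup.pow_mem _ hzc _
    intro x hx g
    by_cases hx1 : x = 1
    · rw [hx1, one_mul, mul_one]
    obtain ⟨a, -, ha⟩ := htr _ x hk1 (by rw [pow_two]; exact hk2) hx1 (by rw [pow_two]; exact hx)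
    have h1 := Subgroup.mem_center_iff.mp hkc (a⁻¹ g)
    have h2 := congrArg a h1
    rw [map_mul, map_mul, MulAut.apply_inv_self, ha] at h2
    exact h2.symm
  set EE : Subgroup G := E hc with hEE
  -- the set of the involutions has odd size
  have hE2 : IsPGroup 2 EE := hG.to_subgroup _
  set S : Set G := {x | x ≠ 1 ∧ x * x = 1} with hS
  have hScard : S.ncard = Nat.card EE - 1 := by
    have h1 : S = (EE : Set G) \ {1} := by
      ext x
      constructor
      · rintro ⟨h1, h2⟩; exact ⟨h2, h1⟩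
      · rintro ⟨h1, h2⟩; exact ⟨h2, h1⟩
    rw [h1, Set.ncard_sdiff_singleton_of_mem EE.one_mem]
    rfl
  have hx1E : x1 ∈ EE := by rw [hEE, mem_E, ← pow_two]; exact hx1'
  have hy1E : y1 ∈ EE := by rw [hEE, mem_E, ← pow_two]; exact hy1'
  have hEnt : Nontrivial EE := ⟨⟨⟨x1, hx1E⟩, 1, fun h => hx1 (congrArg Subtype.val h)⟩⟩
  obtain ⟨k, hk⟩ := IsPGroup.iff_card.mp hE2
  have hk3 : 3 ≤ Nat.card EE := by
    have h1 : ({1, x1, y1} : Set G) ⊆ (EE : Set G) := by
      rintro z (rfl | rfl | rfl)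
      · exact EE.one_mem
      · exact hx1E
      · exact hy1E
    have h2 := Set.ncard_le_ncard h1 (Set.toFinite _)
    rw [Set.ncard_eq_three.mpr ⟨1, x1, y1, hx1.symm, hy1.symm, hxy1, rfl⟩] at h2
    exact h2
  have hSodd : Odd S.ncard := by
    rw [hScard, hk]
    rw [hk] at hk3
    have hk0 : k ≠ 0 := by rintro rfl; omega
    have h1 : Even (2 ^ k) := (Nat.even_pow' hk0).mpr even_two
    rw [← Nat.not_even_iff_odd]
    intro h2
    rw [Nat.even_iff] at h1 h2
    omega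
  obtain ⟨H, hHY, hHodd, hHtr⟩ := Cfsg.Agent.H448.SuzOdd.exists_odd hYs S hSodd
    (by
      rintro g - x ⟨h1, h2⟩
      refine ⟨fun h => h1 ?_, ?_⟩
      · exact (MulEquiv.map_eq_one_iff g).mp h
      · change g x * g x = 1
        rw [← map_mul, h2, map_one])
    (by
      rintro x ⟨h1, h2⟩ y ⟨h3, h4⟩
      exact htr x y h1 (by rw [pow_two]; exact h2) h3 (by rw [pow_two]; exact h4))
  -- the action on the involutions
  let H' : Subgroup (MulAut EE) := H.map (res hc)
  have hH'odd : Odd (Nat.card H') := hHodd.of_dvd_nat (Subgroup.card_map_dvd (H := H) (res hc))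
  have hHs : Group.IsSolvable H :=
    Group.isSolvable_of_isSolvable_injective (f := Subgroup.inclusion hHY) (Subgroup.inclusion_injective hHY)
  have hH's : Group.IsSolvable H' := by
    have h1 : Function.Surjective ((res hc).subgroupMap H) := (res hc).subgroupMap_surjective H
    exact Group.isSolvable_of_surjective h1
  let hcommE : AddCommGroup (Additive EE) :=
    { (inferInstance : AddGroup (Additive EE)) with
      add_comm := fun v w => by
        apply congrArg Additive.ofMul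
        apply Subtype.ext
        exact hc _ (Additive.toMul v).2 _ }
  let act : DistribMulAction H' (Additive EE) :=
    { smul := fun h v => Additive.ofMul (h.1 (Additive.toMul v))
      one_smul := fun v => rfl
      mul_smul := fun g h v => rfl
      smul_zero := fun g => congrArg Additive.ofMul (map_one g.1)
      smul_add := fun g v w => congrArg Additive.ofMul (map_mul g.1 _ _) }
  have hact : ∀ (h : H') (v : Additive EE), h • v = Additive.ofMul (h.1 (Additive.toMul v)) :=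
    fun h v => rfl
  have hpV : ∀ v : Additive EE, 2 • v = 0 := by
    intro v
    rw [two_nsmul]
    apply congrArg Additive.ofMul
    apply Subtype.ext
    exact (Additive.toMul v).2
  have hfaith : FaithfulSMul H' (Additive EE) := ⟨by
    intro g h hgh
    apply Subtype.ext
    ext x
    exact congrArg Subtype.val (congrArg Additive.toMul (hgh (Additive.ofMul x)))⟩
  have hne : ∀ v : Additive EE, v ≠ 0 → ((Additive.toMul v : EE) : G) ∈ S := by
    intro v hv
    refine ⟨fun h => hv ?_, (Additive.toMul v).2⟩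
    apply congrArg Additive.ofMul
    exact Subtype.ext h
  have hT : ∀ v w : Additive EE, v ≠ 0 → w ≠ 0 → ∃ h : H', h • v = w := by
    intro v w hv hw
    obtain ⟨g, hg, hgv⟩ := hHtr _ (hne v hv) _ (hne w hw)
    refine ⟨⟨res hc g, ⟨g, hg, rfl⟩⟩, ?_⟩
    apply congrArg Additive.ofMul
    exact Subtype.ext hgv
  obtain ⟨f, θ, hcard, hsemi⟩ :=
    Cfsg.Agent.PermutationGroups.HalfTransGalois.exists_galois 2 hpV hH's hH'odd
      (fun v w hv hw => by
        obtain ⟨h, hh⟩ := hT v w hv hw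
        exact ⟨h, Or.inl hh⟩)
  -- the field
  let F := GaloisField 2 f
  have hFfin : Finite F := Finite.of_equiv _ θ.toEquiv
  have hcardF : Nat.card F = 2 ^ f := by rw [← hcard]; exact (Nat.card_congr θ.toEquiv).symm
  have hf2 : 2 ≤ f := by
    have h1 : 3 ≤ 2 ^ f := by
      rw [← hcard]
      exact hk3
    by_contra hlt
    push Not at hlt
    interval_cases f <;> omega
  let actF : MulAction H' F :=
    { smul := fun h a => θ (h • θ.symm a)
      one_smul := fun a => by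
        change θ ((1 : H') • θ.symm a) = a
        rw [one_smul, AddEquiv.apply_symm_apply]
      mul_smul := fun g h a => by
        change θ ((g * h) • θ.symm a) = θ (g • θ.symm (θ (h • θ.symm a)))
        rw [AddEquiv.symm_apply_apply, mul_smul] }
  have hactF : ∀ (h : H') (a : F), h • a = θ (h • θ.symm a) := fun h a => rfl
  have hsemiF : ∀ g : H', ∃ (c : F) (φ : F ≃+* F), c ≠ 0 ∧ ∀ a : F, g • a = c * φ a := by
    intro g
    obtain ⟨c, φ, hcφ⟩ := hsemi g
    refine ⟨c, φ, c.ne_zero, fun a => ?_⟩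
    rw [hactF, hcφ, AddEquiv.apply_symm_apply]
  obtain ⟨g0, l, d, hl0, hg0, hd, hN⟩ := Cfsg.Agent.H448.SuzSetup.exists_scalar hcardF (K := H')
    (by
      intro g hg
      apply FaithfulSMul.eq_of_smul_eq_smul (α := Additive EE)
      intro v
      rw [one_smul]
      have h1 := hg (θ v)
      rw [hactF, AddEquiv.symm_apply_apply] at h1
      exact θ.injective h1)
    hsemiF
    (by
      intro a b ha hb
      obtain ⟨g, hg⟩ := hT (θ.symm a) (θ.symm b) (by simpa using ha) (by simpa using hb)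
      refine ⟨g, ?_⟩
      rw [hactF, hg, AddEquiv.apply_symm_apply])
  obtain ⟨h0, hh0, hh0g⟩ := g0.2
  -- the data
  let D : SData G F :=
    { e := fun a => ((Additive.toMul (θ.symm a) : EE) : G)
      add := fun a b => by
        rw [map_add]
        rfl
      inj := fun a b h => θ.symm.injective (Additive.toMul.injective (Subtype.ext h))
      sq := fun x => by
        constructor
        · intro h
          refine ⟨θ (Additive.ofMul ⟨x, h⟩), ?_⟩
          rw [AddEquiv.symm_apply_apply]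
          rfl
        · rintro ⟨a, rfl⟩
          exact (Additive.toMul (θ.symm a)).2
      cen := fun a g => hc _ (Additive.toMul (θ.symm a)).2 g }
  have hDe : ∀ a, D.e a = ((Additive.toMul (θ.symm a) : EE) : G) := fun a => rfl
  have hDact : ∀ (h : MulAut G) (hh : h ∈ H) (a : F),
      h (D.e a) = D.e ((⟨res hc h, ⟨h, hh, rfl⟩⟩ : H') • a) := by
    intro h hh a
    rw [hactF, hDe, hDe, AddEquiv.symm_apply_apply]
    rfl
  have A : HData D H h0 l :=
    { semi := fun h hh => by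
        obtain ⟨c, φ, hc0, hcφ⟩ := hsemiF ⟨res hc h, ⟨h, hh, rfl⟩⟩
        exact ⟨c, φ, hc0, fun a => by rw [hDact h hh, hcφ]⟩
      tr := fun a b ha hb => by
        have h1 : D.e a ∈ S := hne _ (by simpa using ha)
        have h2 : D.e b ∈ S := hne _ (by simpa using hb)
        exact hHtr _ h1 _ h2
      mem := hh0
      hl := fun a => by
        rw [hDact h0 hh0]
        have : (⟨res hc h0, ⟨h0, hh0, rfl⟩⟩ : H') = g0 := Subtype.ext hh0g
        rw [this, hg0]
      l0 := hl0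
      l1 := Cfsg.Agent.H448.SuzSetup.ne_one hf2 hd hN
      nt := Cfsg.Agent.H448.SuzSetup.nt_aut hcardF hf2 hl0 hd hN
      sep := Cfsg.Agent.H448.SuzSetup.sep_aut hcardF hf2 hl0 hd hN
      comm := Cfsg.Agent.H448.SuzSetup.aut_comm hcardF
      two := hG }
  have hTop : Inv H (⊤ : Subgroup G) := fun h _ m _ => Subgroup.mem_top _
  have hnab : ¬ Ab (⊤ : Subgroup G) := by
    intro h
    exact hna ⟨⟨fun x y => h x (Subgroup.mem_top _) y (Subgroup.mem_top _)⟩⟩
  have hTy : Ty (⊤ : Subgroup G) := (dichotomy A _ ⊤ hTop le_rfl).resolve_left hnab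
  refine ⟨fun x g hx => hc x hx g, fun x => hTy x (Subgroup.mem_top _), fun x hx => ?_, ?_⟩
  · exact central_sq A hTop hTy hnab (Subgroup.mem_top x) fun g _ => hx g
  · intro N hN hNe x hx
    refine sq_mem A (N := N) ?_ hNe hx
    intro h _ m hm
    have h1 := (Subgroup.characteristic_iff_map_eq.mp hN) h
    rw [← h1]
    exact ⟨m, hm, rfl⟩

end Cfsg.Agent.H448.SuzSolv
end

-- part: S3776
section
set_option autoImplicit false
open Cfsg

namespace Cfsg.Agent.S3776

/-- Let G be a finite non-abelian 2-group with more than one involution admitting a solvable group of automorphisms that permutes its involutions transitively. Then the derived subgroup, the Frattini subgroup and the centre of G coincide and consist exactly of the elements x with x² = 1. -/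
theorem result {G : Type*} [Group G] [Finite G] (hG : IsPGroup 2 G) (hna : ¬ IsMulCommutative G) (htwo : ∃ x y : G, x ≠ y ∧ x ≠ 1 ∧ x ^ 2 = 1 ∧ y ≠ 1 ∧ y ^ 2 = 1) (hY : ∃ Y : Subgroup (MulAut G), Group.IsSolvable Y ∧ ∀ x y : G, x ≠ 1 → x ^ 2 = 1 → y ≠ 1 → y ^ 2 = 1 → ∃ a ∈ Y, a x = y) : commutator G = frattini G ∧ frattini G = Subgroup.center G ∧ ∀ x : G, x ∈ Subgroup.center G ↔ x ^ 2 = 1 := by
  have h2f : Fact (Nat.Prime 2) := ⟨Nat.prime_two⟩
  obtain ⟨h1, h2, h3, h4⟩ := Cfsg.Agent.H448.SuzSolv.main hG hna htwo hY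
  have hcen : ∀ x : G, x ∈ Subgroup.center G ↔ x ^ 2 = 1 := by
    intro x
    rw [pow_two]
    constructor
    · intro hx
      exact h3 x fun g => ((Subgroup.mem_center_iff.mp hx) g).symm
    · intro hx
      exact Subgroup.mem_center_iff.mpr fun g => (h1 x g hx).symm
  have hsq : ∀ x : G, x ^ 2 ∈ Subgroup.center G := by
    intro x
    rw [hcen, pow_two, pow_two]
    exact h2 x
  have hcom : ∀ x y : G, x * y * x⁻¹ * y⁻¹ ∈ Subgroup.center G := by
    intro x y
    have h5 : x * y * x⁻¹ * y⁻¹ = (x * y) ^ 2 * (y⁻¹ * x⁻¹ * y) ^ 2 * y⁻¹ ^ 2 := by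
      simp only [pow_two]; group
    rw [h5]
    exact Subgroup.mul_mem _ (Subgroup.mul_mem _ (hsq _) (hsq _)) (hsq _)
  have hfc : frattini G ≤ Subgroup.center G :=
    Cfsg.Agent.Lib.FrattiniPGroup.frattini_le _ hcom hsq
  have hcf : commutator G ≤ frattini G := Cfsg.Agent.Lib.FrattiniPGroup.commutator_le_frattini hG
  have hcne : commutator G ≠ ⊥ := by
    intro h
    apply hna
    refine ⟨⟨fun x y => ?_⟩⟩
    have h5 : x * y * x⁻¹ * y⁻¹ ∈ commutator G :=
      Subgroup.commutator_mem_commutator (Subgroup.mem_top x) (Subgroup.mem_top y)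
    rw [h, Subgroup.mem_bot, mul_inv_eq_one, mul_inv_eq_iff_eq_mul] at h5
    exact h5
  have hcc : Subgroup.center G ≤ commutator G := by
    intro x hx
    apply h4 _ inferInstance hcne
    rw [← pow_two]
    exact (hcen x).mp hx
  exact ⟨le_antisymm hcf (hfc.trans hcc), le_antisymm hfc (hcc.trans hcf), hcen⟩

end Cfsg.Agent.S3776
end
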