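import Mathlib
import Cfsg.Agent.Lib.FrattiniPGroup
import Cfsg.Statements.S3777
set_option linter.all false

-- part: H855/DetSum
section
/-!
# Sums of determinants over a vector space over `ZMod p`

Used for Vaughan-Lee's theorem (S3777).
-/

set_option autoImplicit false

namespace Cfsg.Agent.H855.DetSum

open Finset Matrix

variable {p : ℕ} [Fact p.Prime]

theorem exists_ne_zero_of_card_lt {E T : Type*} [AddCommGroup E] [Module (ZMod p) E]
    [FiniteDimensional (ZMod p) E] (s : Finset T) (l : T → E →ₗ[ZMod p] ZMod p)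
    (h : s.card < Module.finrank (ZMod p) E) : ∃ u : E, u ≠ 0 ∧ ∀ i ∈ s, l i u = 0 := by
  have h1 : LinearMap.ker (LinearMap.pi (fun i : s => l i)) ≠ ⊥ := by
    apply LinearMap.ker_ne_bot_of_finrank_lt
    simpa using h
  obtain ⟨u, hu, hu0⟩ := (Submodule.ne_bot_iff _).mp h1
  refine ⟨u, hu0, fun i hi => ?_⟩
  have := congrFun (LinearMap.mem_ker.mp hu) ⟨i, hi⟩
  simpa using this

variable (p) in
theorem exists_functional_eq_one {E : Type*} [AddCommGroup E] [Module (ZMod p) E] {u : E}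
    (hu : u ≠ 0) : ∃ χ : E →ₗ[ZMod p] ZMod p, χ u = 1 := by
  have h1 : ¬ ∀ φ : Module.Dual (ZMod p) E, φ u = 0 := by
    rw [Module.forall_dual_apply_eq_zero_iff]
    exact hu
  push Not at h1
  obtain ⟨φ, hφ⟩ := h1
  refine ⟨(φ u)⁻¹ • φ, ?_⟩
  simp [hφ]

theorem sum_prod_eq_zero {E T : Type*} [AddCommGroup E] [Module (ZMod p) E] [Fintype E]
    (s : Finset T) (l : T → E →ₗ[ZMod p] ZMod p) (h : s.card < Module.finrank (ZMod p) E) :
    ∑ η : E, ∏ i ∈ s, l i η = 0 := by
  obtain ⟨u, hu, hl⟩ := exists_ne_zero_of_card_lt s l h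
  obtain ⟨χ, hχ⟩ := exists_functional_eq_one p hu
  have key : ∑ η : E, χ (η + u) * ∏ i ∈ s, l i (η + u) = ∑ η : E, χ η * ∏ i ∈ s, l i η :=
    Equiv.sum_comp (Equiv.addRight u) (fun η => χ η * ∏ i ∈ s, l i η)
  have h2 : ∀ η : E, ∏ i ∈ s, l i (η + u) = ∏ i ∈ s, l i η := by
    intro η
    apply Finset.prod_congr rfl
    intro i hi
    rw [map_add, hl i hi, add_zero]
  simp only [h2] at key
  simp only [map_add, hχ, add_mul, one_mul, Finset.sum_add_distrib] at key
  exact add_left_cancel (key.trans (add_zero _).symm)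

theorem sum_det_one_sub {ι E : Type*} [Fintype ι] [DecidableEq ι] [AddCommGroup E]
    [Module (ZMod p) E] [Fintype E] (hcard : Fintype.card ι ≤ Module.finrank (ZMod p) E)
    (A : E →ₗ[ZMod p] Matrix ι ι (ZMod p)) :
    ∑ η : E, det (1 - A η) = ∑ η : E, det (-A η) := by
  classical
  simp only [det_apply']
  rw [Finset.sum_comm, Finset.sum_comm (s := (Finset.univ : Finset E))]
  apply Finset.sum_congr rfl
  intro σ _
  rw [← Finset.mul_sum, ← Finset.mul_sum]
  congr 1
  have h1 : ∀ η : E, ∏ i : ι, (1 - A η) (σ i) i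
      = ∑ t ∈ (Finset.univ : Finset ι).powerset,
        (∏ i ∈ t, (1 : Matrix ι ι (ZMod p)) (σ i) i) *
          ∏ i ∈ Finset.univ \ t, (-A η) (σ i) i := by
    intro η
    rw [← Finset.prod_add]
    apply Finset.prod_congr rfl
    intro i _
    rw [Matrix.sub_apply, Matrix.neg_apply, sub_eq_add_neg]
  simp only [h1]
  rw [Finset.sum_comm]
  rw [Finset.sum_eq_single_of_mem (∅ : Finset ι) (by simp)]
  · simp
  · intro t _ ht
    rw [← Finset.mul_sum]
    have h3 : ∑ η : E, ∏ i ∈ Finset.univ \ t, (-A η) (σ i) i = 0 := by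
      have := sum_prod_eq_zero (p := p) (E := E) (Finset.univ \ t)
        (fun i => (Matrix.entryLinearMap (ZMod p) (ZMod p) (σ i) i) ∘ₗ (-A)) ?_
      · simpa only [LinearMap.comp_apply, Matrix.entryLinearMap_apply, LinearMap.neg_apply] using this
      · refine lt_of_lt_of_le ?_ hcard
        rw [← Finset.card_univ]
        apply Finset.card_lt_card
        refine ⟨Finset.sdiff_subset, fun hsub => ht ?_⟩
        ext i
        simp only [Finset.notMem_empty, iff_false]
        intro hi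
        have := hsub (Finset.mem_univ i)
        simp at this
        exact this hi
    rw [h3, mul_zero]

/-- The contradiction used in the key lemma. -/
theorem false_of_det {ι E : Type*} [Fintype ι] [Nonempty ι] [AddCommGroup E]
    [Module (ZMod p) E] [Finite E] (β : Module.Basis ι (ZMod p) E)
    (A : E →ₗ[ZMod p] Matrix ι ι (ZMod p))
    (h0 : ∀ η : E, (A η) *ᵥ (fun l => β.repr η l) = 0)
    (h1 : ∀ η : E, η ≠ 0 → ∃ ν : E, ν ≠ 0 ∧
      (A η) *ᵥ (fun l => β.repr ν l) = fun l => β.repr ν l) : False := by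
  classical
  have := Fintype.ofFinite E
  have hne : ∀ ν : E, ν ≠ 0 → (fun l => β.repr ν l) ≠ 0 := by
    intro ν hν h
    apply hν
    apply β.repr.injective
    ext l
    simpa using congrFun h l
  have hd0 : ∀ η : E, det (-A η) = 0 := by
    intro η
    by_cases hη : η = 0
    · subst hη
      rw [map_zero, neg_zero]
      exact det_zero
    · rw [← Matrix.exists_mulVec_eq_zero_iff]
      refine ⟨_, hne η hη, ?_⟩
      rw [Matrix.neg_mulVec, h0, neg_zero]
  have hd1 : ∀ η : E, η ≠ 0 → det (1 - A η) = 0 := by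
    intro η hη
    obtain ⟨ν, hν, h⟩ := h1 η hη
    rw [← Matrix.exists_mulVec_eq_zero_iff]
    refine ⟨_, hne ν hν, ?_⟩
    rw [Matrix.sub_mulVec, h, Matrix.one_mulVec, sub_self]
  have h2 := sum_det_one_sub (p := p) (ι := ι) (E := E)
    (by rw [Module.finrank_eq_card_basis β]) A
  rw [Finset.sum_eq_single_of_mem (0 : E) (Finset.mem_univ _) (fun η _ hη => hd1 η hη)] at h2
  simp [hd0] at h2

end Cfsg.Agent.H855.DetSum
end

-- part: H855/KeyMax
section
/-!
# The key lemma on maximal subgroups for Vaughan-Lee's theorem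

`core`: the abstract contradiction (a determinant argument).
-/

set_option autoImplicit false

namespace Cfsg.Agent.H855.KeyMax

open Subgroup
open scoped commutatorElement

variable {p : ℕ} [Fact p.Prime] {H : Type*} [Group H]

/-- a function which restricts to an `H`-invariant homomorphism on `D` -/
structure IsInv (D : Subgroup H) (φ : H → ZMod p) : Prop where
  mul : ∀ x ∈ D, ∀ y ∈ D, φ (x * y) = φ x + φ y
  conj : ∀ h : H, ∀ x ∈ D, φ (h * x * h⁻¹) = φ x

theorem IsInv.one {D : Subgroup H} {φ : H → ZMod p} (h : IsInv D φ) : φ 1 = 0 := by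
  have := h.mul 1 D.one_mem 1 D.one_mem
  rw [mul_one] at this
  exact left_eq_add.mp this

theorem IsInv.inv {D : Subgroup H} {φ : H → ZMod p} (h : IsInv D φ) {x : H} (hx : x ∈ D) :
    φ x⁻¹ = -φ x := by
  have h1 := h.mul x⁻¹ (D.inv_mem hx) x hx
  rw [inv_mul_cancel, h.one] at h1
  exact eq_neg_of_add_eq_zero_left h1.symm

theorem comm_mem (x y : H) : ⁅x, y⁆ ∈ ⁅(⊤ : Subgroup H), (⊤ : Subgroup H)⁆ :=
  commutator_mem_commutator (mem_top x) (mem_top y)

theorem IsInv.comm_mul_left {φ : H → ZMod p} (h : IsInv ⁅(⊤ : Subgroup H), (⊤ : Subgroup H)⁆ φ)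
    (x y z : H) : φ ⁅x * y, z⁆ = φ ⁅x, z⁆ + φ ⁅y, z⁆ := by
  have e : ⁅x * y, z⁆ = (x * ⁅y, z⁆ * x⁻¹) * ⁅x, z⁆ := by
    simp only [commutatorElement_def]; group
  rw [e, h.mul _ (Subgroup.Normal.conj_mem inferInstance _ (comm_mem y z) x) _ (comm_mem x z),
    h.conj _ _ (comm_mem y z), add_comm]

theorem IsInv.comm_mul_right {φ : H → ZMod p} (h : IsInv ⁅(⊤ : Subgroup H), (⊤ : Subgroup H)⁆ φ)
    (x y z : H) : φ ⁅x, y * z⁆ = φ ⁅x, y⁆ + φ ⁅x, z⁆ := by
  have e : ⁅x, y * z⁆ = ⁅x, y⁆ * (y * ⁅x, z⁆ * y⁻¹) := by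
    simp only [commutatorElement_def]; group
  rw [e, h.mul _ (comm_mem x y) _ (Subgroup.Normal.conj_mem inferInstance _ (comm_mem x z) y),
    h.conj _ _ (comm_mem x z)]

theorem IsInv.comm_self {D : Subgroup H} {φ : H → ZMod p} (h : IsInv D φ) (x : H) :
    φ ⁅x, x⁆ = 0 := by
  rw [commutatorElement_self, h.one]

theorem IsInv.comm_symm {φ : H → ZMod p} (h : IsInv ⁅(⊤ : Subgroup H), (⊤ : Subgroup H)⁆ φ)
    (x y : H) : φ ⁅x, y⁆ = -φ ⁅y, x⁆ := by
  rw [← commutatorElement_inv, h.inv (comm_mem y x)]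

/-- vanishing on all commutators implies vanishing on the commutator subgroup -/
theorem IsInv.eq_zero {φ : H → ZMod p} (h : IsInv ⁅(⊤ : Subgroup H), (⊤ : Subgroup H)⁆ φ)
    (h0 : ∀ x y : H, φ ⁅x, y⁆ = 0) {d : H} (hd : d ∈ ⁅(⊤ : Subgroup H), (⊤ : Subgroup H)⁆) :
    φ d = 0 := by
  rw [Subgroup.commutator_def] at hd
  have key : ∀ d ∈ closure {g : H | ∃ g₁ ∈ (⊤ : Subgroup H), ∃ g₂ ∈ (⊤ : Subgroup H), ⁅g₁, g₂⁆ = g},
      d ∈ ⁅(⊤ : Subgroup H), (⊤ : Subgroup H)⁆ ∧ φ d = 0 := by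
    intro d hd
    induction hd using closure_induction with
    | mem x hx =>
      obtain ⟨a, -, b, -, rfl⟩ := hx
      exact ⟨comm_mem a b, h0 a b⟩
    | one => exact ⟨one_mem _, h.one⟩
    | mul x y _ _ hx hy =>
      refine ⟨mul_mem hx.1 hy.1, ?_⟩
      rw [h.mul x hx.1 y hy.1, hx.2, hy.2, add_zero]
    | inv x _ hx =>
      refine ⟨inv_mem hx.1, ?_⟩
      rw [h.inv hx.1, hx.2, neg_zero]
  exact (key d hd).2

theorem exists_form (M0 : Subgroup H) {x : H} (hx : x ∈ ⁅M0, M0⁆) :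
    ∃ Ψ : (H → ZMod p) →ₗ[ZMod p] (H → ZMod p) →ₗ[ZMod p] ZMod p,
      (∀ η : H → ZMod p, Ψ η η = 0) ∧
      ∀ φ : H → ZMod p, IsInv ⁅M0, M0⁆ φ → ∀ χ ν : H → ZMod p,
        (∀ a ∈ M0, ∀ b ∈ M0, φ ⁅a, b⁆ = χ b * ν a - χ a * ν b) → φ x = Ψ χ ν := by
  rw [Subgroup.commutator_def] at hx
  have key : ∀ x ∈ closure {g : H | ∃ g₁ ∈ M0, ∃ g₂ ∈ M0, ⁅g₁, g₂⁆ = g}, x ∈ ⁅M0, M0⁆ ∧
      ∃ Ψ : (H → ZMod p) →ₗ[ZMod p] (H → ZMod p) →ₗ[ZMod p] ZMod p,
      (∀ η : H → ZMod p, Ψ η η = 0) ∧
      ∀ φ : H → ZMod p, IsInv ⁅M0, M0⁆ φ → ∀ χ ν : H → ZMod p,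
        (∀ a ∈ M0, ∀ b ∈ M0, φ ⁅a, b⁆ = χ b * ν a - χ a * ν b) → φ x = Ψ χ ν := by
    intro x hx
    induction hx using closure_induction with
    | mem x hx =>
      obtain ⟨a, ha, b, hb, rfl⟩ := hx
      refine ⟨commutator_mem_commutator ha hb,
        LinearMap.mk₂ (ZMod p) (fun χ ν => χ b * ν a - χ a * ν b) ?_ ?_ ?_ ?_, ?_, ?_⟩
      · intro m m' n
        simp only [Pi.add_apply]; ring
      · intro c m n
        simp only [Pi.smul_apply, smul_eq_mul]; ring
      · intro m n n'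
        simp only [Pi.add_apply]; ring
      · intro c m n
        simp only [Pi.smul_apply, smul_eq_mul]; ring
      · intro η
        simp only [LinearMap.mk₂_apply]; ring
      · intro φ _ χ ν h
        simp only [LinearMap.mk₂_apply]
        exact h a ha b hb
    | one =>
      refine ⟨one_mem _, 0, fun η => rfl, fun φ h χ ν _ => ?_⟩
      simpa using h.one
    | mul x y _ _ hx hy =>
      obtain ⟨hx1, Ψ, h1, h2⟩ := hx
      obtain ⟨hy1, Ψ', h1', h2'⟩ := hy
      refine ⟨mul_mem hx1 hy1, Ψ + Ψ', fun η => by simp [h1, h1'], fun φ h χ ν hh => ?_⟩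
      rw [h.mul x hx1 y hy1, h2 φ h χ ν hh, h2' φ h χ ν hh]
      rfl
    | inv x _ hx =>
      obtain ⟨hx1, Ψ, h1, h2⟩ := hx
      refine ⟨inv_mem hx1, -Ψ, fun η => by simp [h1], fun φ h χ ν hh => ?_⟩
      rw [h.inv hx1, h2 φ h χ ν hh]
      rfl
  exact (key x hx).2

/-- homomorphisms to `ZMod p` vanishing at `v0` -/
def homSpace (v0 : H) : Submodule (ZMod p) (H → ZMod p) where
  carrier := {f | (∀ x y, f (x * y) = f x + f y) ∧ f v0 = 0}
  add_mem' := by
    rintro f g ⟨hf, hf0⟩ ⟨hg, hg0⟩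
    refine ⟨fun x y => ?_, ?_⟩
    · simp only [Pi.add_apply, hf, hg]; ring
    · simp [hf0, hg0]
  zero_mem' := ⟨fun x y => by simp, rfl⟩
  smul_mem' := by
    rintro c f ⟨hf, hf0⟩
    refine ⟨fun x y => ?_, ?_⟩
    · simp only [Pi.smul_apply, smul_eq_mul, hf]; ring
    · simp [hf0]

theorem mem_homSpace {v0 : H} {f : H → ZMod p} :
    f ∈ homSpace v0 ↔ (∀ x y, f (x * y) = f x + f y) ∧ f v0 = 0 := Iff.rfl

theorem IsInv.comm_mem_homSpace {φ : H → ZMod p}
    (h : IsInv ⁅(⊤ : Subgroup H), (⊤ : Subgroup H)⁆ φ) (v0 : H) :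
    (fun x => φ ⁅x, v0⁆) ∈ homSpace v0 :=
  ⟨fun x y => h.comm_mul_left x y v0, h.comm_self v0⟩

/-- a homomorphism to `ZMod p` (bundled as a function): powers -/
theorem hom_pow {f : H → ZMod p} (hf : ∀ x y, f (x * y) = f x + f y) (x : H) (n : ℕ) :
    f (x ^ n) = n * f x := by
  induction n with
  | zero =>
    have := hf 1 1
    rw [mul_one] at this
    simpa using left_eq_add.mp this
  | succ n ih => rw [pow_succ, hf, ih]; push_cast; ring

theorem hom_inv {f : H → ZMod p} (hf : ∀ x y, f (x * y) = f x + f y) (x : H) :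
    f x⁻¹ = -f x := by
  have h1 := hf 1 1
  rw [mul_one] at h1
  have h0 : f 1 = 0 := left_eq_add.mp h1
  have h2 := hf x⁻¹ x
  rw [inv_mul_cancel, h0] at h2
  exact eq_neg_of_add_eq_zero_left h2.symm

/-- decomposition `x = x' * v0 ^ n` with `χ x' = 0` -/
theorem exists_decomp {χ : H → ZMod p} (hχ : ∀ x y, χ (x * y) = χ x + χ y) {v0 : H}
    (hv : χ v0 = 1) (x : H) : ∃ x' : H, ∃ n : ℕ, x = x' * v0 ^ n ∧ χ x' = 0 := by
  refine ⟨x * (v0 ^ (χ x).val)⁻¹, (χ x).val, by group, ?_⟩
  rw [hχ, hom_inv hχ, hom_pow hχ, hv, mul_one, ZMod.natCast_zmod_val, add_neg_cancel]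

theorem form_eq {φ : H → ZMod p} (h : IsInv ⁅(⊤ : Subgroup H), (⊤ : Subgroup H)⁆ φ)
    {χ : H → ZMod p} (hχ : ∀ x y, χ (x * y) = χ x + χ y) {v0 : H} (hv : χ v0 = 1)
    (h0 : ∀ x y, χ x = 0 → χ y = 0 → φ ⁅x, y⁆ = 0) (x y : H) :
    φ ⁅x, y⁆ = χ y * φ ⁅x, v0⁆ - χ x * φ ⁅y, v0⁆ := by
  obtain ⟨x', n, rfl, hx'⟩ := exists_decomp hχ hv x
  obtain ⟨y', m, rfl, hy'⟩ := exists_decomp hχ hv y
  have hr : ∀ (z : H) (k : ℕ), φ ⁅z, v0 ^ k⁆ = k * φ ⁅z, v0⁆ := fun z k =>
    hom_pow (f := fun y => φ ⁅z, y⁆) (fun x y => h.comm_mul_right z x y) v0 k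
  have hl : ∀ (z : H) (k : ℕ), φ ⁅v0 ^ k, z⁆ = k * φ ⁅v0, z⁆ := fun z k =>
    hom_pow (f := fun y => φ ⁅y, z⁆) (fun x y => h.comm_mul_left x y z) v0 k
  rw [h.comm_mul_left, h.comm_mul_right, h.comm_mul_right, h0 x' y' hx' hy', hl, hr, hr]
  rw [h.comm_mul_left, h.comm_mul_left, hl, h.comm_self, hχ, hχ, hx', hy', hom_pow hχ, hom_pow hχ,
    hv, hl, h.comm_self, h.comm_symm v0 y']
  ring

theorem map_smul_sum_repr {ι E F : Type*} [Fintype ι] [AddCommGroup E] [Module (ZMod p) E]
    [AddCommGroup F] [Module (ZMod p) F] (β : Module.Basis ι (ZMod p) E) (f : E →ₗ[ZMod p] F)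
    (ν : E) : f ν = ∑ l, (β.repr ν l) • f (β l) := by
  conv_lhs => rw [← β.sum_repr ν, map_sum]
  simp only [map_smul]

theorem core [Finite H] (M0 : Subgroup H) (v0 : H) (lam : H → ZMod p)
    (hv : lam v0 = 1) (hlam : ∀ x y, lam (x * y) = lam x + lam y) (hM0 : ∀ x, x ∈ M0 ↔ lam x = 0)
    (hD : ⁅M0, M0⁆ = ⁅(⊤ : Subgroup H), (⊤ : Subgroup H)⁆)
    (hφ : ∃ φ : H → ZMod p, IsInv ⁅(⊤ : Subgroup H), (⊤ : Subgroup H)⁆ φ ∧
      ∃ d ∈ ⁅(⊤ : Subgroup H), (⊤ : Subgroup H)⁆, φ d ≠ 0)
    (hQ : ∀ χ : H → ZMod p, (∀ x y, χ (x * y) = χ x + χ y) → χ v0 = 1 → χ ≠ lam →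
      ∃ φ : H → ZMod p, IsInv ⁅(⊤ : Subgroup H), (⊤ : Subgroup H)⁆ φ ∧
      (∃ d ∈ ⁅(⊤ : Subgroup H), (⊤ : Subgroup H)⁆, φ d ≠ 0) ∧
      ∀ x y, χ x = 0 → χ y = 0 → φ ⁅x, y⁆ = 0) : False := by
  classical
  let E : Submodule (ZMod p) (H → ZMod p) := homSpace v0
  let ev : H → Module.Dual (ZMod p) E := fun u => (LinearMap.proj u) ∘ₗ E.subtype
  have hev : ∀ (u : H) (η : E), ev u η = (η : H → ZMod p) u := fun u η => rfl
  have hspan : ⊤ ≤ Submodule.span (ZMod p) (ev '' (M0 : Set H)) := by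
    have h1 : (Submodule.span (ZMod p) (ev '' (M0 : Set H))).dualCoannihilator = ⊥ := by
      rw [eq_bot_iff]
      intro η hη
      rw [Submodule.mem_dualCoannihilator] at hη
      rw [Submodule.mem_bot]
      ext x
      obtain ⟨x', n, rfl, hx'⟩ := exists_decomp hlam hv x
      have h2 := hη (ev x') (Submodule.subset_span ⟨x', (hM0 x').mpr hx', rfl⟩)
      rw [hev] at h2
      rw [η.2.1, h2, hom_pow η.2.1, η.2.2]
      simp
    have h2 := Subspace.dualCoannihilator_dualAnnihilator_eq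
      (W := Submodule.span (ZMod p) (ev '' (M0 : Set H)))
    rw [← h2, h1, Submodule.dualAnnihilator_bot]
  obtain ⟨ι, b, hb⟩ : ∃ (ι : Type _) (b : Module.Basis ι (ZMod p) (Module.Dual (ZMod p) E)),
      ∀ j, ∃ u ∈ M0, ev u = b j := by
    refine ⟨_, Module.Basis.ofSpan hspan, ?_⟩
    intro j
    have := Module.Basis.ofSpan_subset hspan (Set.mem_range_self j)
    obtain ⟨u, hu, h⟩ := this
    exact ⟨u, hu, h⟩
  choose u hu hub using hb
  have := FiniteDimensional.fintypeBasisIndex b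
  let β := b.dualBasis.map (Module.evalEquiv (ZMod p) E).symm
  have hβ : ∀ (η : E) l, β.repr η l = (η : H → ZMod p) (u l) := by
    intro η l
    have : β.repr η = b.dualBasis.repr (Module.evalEquiv (ZMod p) E η) := by
      simp only [β, Module.Basis.map_repr, LinearEquiv.trans_apply, LinearEquiv.symm_symm]
    rw [this, Module.Basis.dualBasis_repr, ← hub l]
    rfl
  have hcm : ∀ j, ⁅u j, v0⁆ ∈ ⁅M0, M0⁆ := by
    intro j
    rw [hD]
    exact comm_mem _ _
  choose Ψ hΨ0 hΨ using fun j => exists_form (p := p) M0 (hcm j)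
  let A : E →ₗ[ZMod p] Matrix ι ι (ZMod p) :=
    { toFun := fun η => Matrix.of fun j l => Ψ j (η : H → ZMod p) (β l : H → ZMod p)
      map_add' := by
        intro η η'
        ext j l
        simp
      map_smul' := by
        intro c η
        ext j l
        simp }
  have hA : ∀ (η ν : E) (j : ι), (A η).mulVec (fun l => β.repr ν l) j = Ψ j η ν := by
    intro η ν j
    have h1 : ((Ψ j (η : H → ZMod p)) ∘ₗ E.subtype) ν = ∑ l, (β.repr ν l) •
        (((Ψ j (η : H → ZMod p)) ∘ₗ E.subtype) (β l)) := by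
      exact map_smul_sum_repr β _ ν
    change _ = ((Ψ j (η : H → ZMod p)) ∘ₗ E.subtype) ν
    rw [h1]
    simp only [Matrix.mulVec, dotProduct]
    apply Finset.sum_congr rfl
    intro l _
    rw [smul_eq_mul, mul_comm]
    rfl
  have hne : Nonempty ι := by
    by_contra hcon
    rw [not_nonempty_iff] at hcon
    have hE : ∀ η : E, η = 0 := by
      intro η
      apply β.repr.injective
      ext l
      exact (hcon.false l).elim
    obtain ⟨φ, hφ, d, hd, hd0⟩ := hφ
    apply hd0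
    refine hφ.eq_zero (fun x y => ?_) hd
    have h1 : ∀ z : H, φ ⁅z, v0⁆ = 0 := by
      intro z
      have := hE ⟨_, hφ.comm_mem_homSpace v0⟩
      exact congrFun (congrArg Subtype.val this) z
    have h2 : (fun z : H => φ ⁅z, y⁆) ∈ homSpace (p := p) v0 := by
      refine ⟨fun a b => hφ.comm_mul_left a b y, ?_⟩
      change φ ⁅v0, y⁆ = 0
      rw [hφ.comm_symm, h1, neg_zero]
    exact congrFun (congrArg Subtype.val (hE ⟨_, h2⟩)) x
  refine DetSum.false_of_det β A (fun η => ?_) (fun η hη => ?_)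
  · ext j
    rw [hA, hΨ0]
    rfl
  · have hχ : ∀ x y, (lam + (η : H → ZMod p)) (x * y)
        = (lam + (η : H → ZMod p)) x + (lam + (η : H → ZMod p)) y := by
      intro x y
      simp only [Pi.add_apply, hlam, η.2.1]
      ring
    have hχv : (lam + (η : H → ZMod p)) v0 = 1 := by
      rw [Pi.add_apply, hv, η.2.2, add_zero]
    obtain ⟨φ, hφ, ⟨d, hd, hd0⟩, h0⟩ := hQ (lam + (η : H → ZMod p)) hχ hχv (by
      intro h
      apply hη
      ext x
      have := congrFun h x
      simpa using this)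
    have hform := form_eq hφ hχ hχv h0
    refine ⟨⟨_, hφ.comm_mem_homSpace v0⟩, ?_, ?_⟩
    · intro h
      apply hd0
      refine hφ.eq_zero (fun x y => ?_) hd
      have h1 : ∀ z : H, φ ⁅z, v0⁆ = 0 := fun z => congrFun (congrArg Subtype.val h) z
      rw [hform, h1, h1, mul_zero, mul_zero, sub_zero]
    · ext j
      rw [hA, hβ]
      have hφ' : IsInv ⁅M0, M0⁆ φ := by rw [hD]; exact hφ
      refine (hΨ j φ hφ' _ _ ?_).symm
      intro a ha c hc
      rw [hform]
      rw [hM0] at ha hc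
      simp only [Pi.add_apply, ha, hc, zero_add]

end Cfsg.Agent.H855.KeyMax
end

-- part: H855/Breadth
section
/-!
# Vaughan-Lee's theorem: the derived subgroup of a `p`-group of breadth `b`

`breadth_bound` is proved by induction on the order of the group.
-/

set_option autoImplicit false

namespace Cfsg.Agent.H855.Breadth

open Subgroup
open scoped commutatorElement
open Cfsg.Agent.H855.KeyMax

section general

variable {H : Type*} [Group H]

/-- a normal subgroup containing all commutators of `M` and all `⁅m, g⁆` contains all commutators -/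
theorem commutator_le_of_coatom {M : Subgroup H} (hM : IsCoatom M) {g : H} (hg : g ∉ M)
    (N : Subgroup H) [N.Normal] (h1 : ∀ m ∈ M, ∀ n ∈ M, ⁅m, n⁆ ∈ N) (h2 : ∀ m ∈ M, ⁅m, g⁆ ∈ N) :
    ⁅(⊤ : Subgroup H), (⊤ : Subgroup H)⁆ ≤ N := by
  have htop : ∀ K : Subgroup H, M ≤ K → g ∈ K → K = ⊤ := by
    intro K hK hgK
    refine hM.2 K (lt_of_le_of_ne hK ?_)
    rintro rfl
    exact hg hgK
  have hcomm : ∀ a b : H, ⁅a, b⁆ ∈ N ↔ QuotientGroup.mk' N b * QuotientGroup.mk' N a
      = QuotientGroup.mk' N a * QuotientGroup.mk' N b := by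
    intro a b
    rw [← map_mul, ← map_mul, QuotientGroup.mk'_apply, QuotientGroup.mk'_apply, QuotientGroup.eq]
    have e : (b * a)⁻¹ * (a * b) = (b * a)⁻¹ * ⁅a, b⁆ * (b * a)⁻¹⁻¹ := by
      rw [commutatorElement_def]; group
    rw [e]
    constructor
    · intro h
      exact Subgroup.Normal.conj_mem inferInstance _ h _
    · intro h
      have := Subgroup.Normal.conj_mem (H := N) inferInstance _ h (b * a)
      simpa [mul_assoc] using this
  have hA : ∀ y ∈ M, ∀ x : H, ⁅x, y⁆ ∈ N := by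
    intro y hy x
    have h := htop ((centralizer {QuotientGroup.mk' N y}).comap (QuotientGroup.mk' N)) ?_ ?_
    · have hx : x ∈ (centralizer {QuotientGroup.mk' N y}).comap (QuotientGroup.mk' N) := by
        rw [h]; exact mem_top x
      rw [mem_comap, mem_centralizer_singleton_iff] at hx
      rw [hcomm]
      exact hx.symm
    · intro m hm
      rw [mem_comap, mem_centralizer_singleton_iff]
      exact ((hcomm m y).mp (h1 m hm y hy)).symm
    · rw [mem_comap, mem_centralizer_singleton_iff]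
      have := h2 y hy
      exact (hcomm y g).mp this
  rw [commutator_le]
  intro x _ y _
  have h := htop ((centralizer {QuotientGroup.mk' N x}).comap (QuotientGroup.mk' N)) ?_ ?_
  · have hx : y ∈ (centralizer {QuotientGroup.mk' N x}).comap (QuotientGroup.mk' N) := by
      rw [h]; exact mem_top y
    rw [mem_comap, mem_centralizer_singleton_iff] at hx
    rw [hcomm]
    exact hx
  · intro m hm
    rw [mem_comap, mem_centralizer_singleton_iff]
    exact (hcomm x m).mp (hA m hm x)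
  · rw [mem_comap, mem_centralizer_singleton_iff]
    have h' := htop ((centralizer {QuotientGroup.mk' N g}).comap (QuotientGroup.mk' N)) ?_ ?_
    · have hx : x ∈ (centralizer {QuotientGroup.mk' N g}).comap (QuotientGroup.mk' N) := by
        rw [h']; exact mem_top x
      rw [mem_comap, mem_centralizer_singleton_iff] at hx
      exact hx.symm
    · intro m hm
      rw [mem_comap, mem_centralizer_singleton_iff]
      exact ((hcomm m g).mp (h2 m hm)).symm
    · rw [mem_comap, mem_centralizer_singleton_iff]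

theorem card_commutator_le [Finite H] (M : Subgroup H) [M.Normal] (hM : IsCoatom M) (g : H)
    (hg : g ∉ M) : Nat.card (⁅(⊤ : Subgroup H), (⊤ : Subgroup H)⁆ : Subgroup H)
      ≤ Nat.card (⁅M, M⁆ : Subgroup H) * (centralizer {g}).index := by
  set T : Subgroup H := ⁅M, M⁆ with hT
  set π := QuotientGroup.mk' T with hπ
  have hker : ∀ a b : H, π a = π b → ∃ t ∈ T, b = a * t := by
    intro a b h
    rw [hπ, QuotientGroup.mk'_apply, QuotientGroup.mk'_apply, QuotientGroup.eq] at h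
    exact ⟨_, h, by group⟩
  have hc : ∀ m ∈ M, ∀ n ∈ M, π m * π n = π n * π m := by
    intro m hm n hn
    have h : ⁅m, n⁆ ∈ T := commutator_mem_commutator hm hn
    have h' : π ⁅m, n⁆ = 1 := (QuotientGroup.eq_one_iff _).mpr h
    rw [map_commutatorElement, commutatorElement_eq_one_iff_mul_comm] at h'
    exact h'
  have hmem : ∀ m ∈ M, ⁅m, g⁆ ∈ M := by
    intro m hm
    rw [commutatorElement_def, mul_assoc, mul_assoc]
    refine M.mul_mem hm ?_
    rw [← mul_assoc]
    exact Subgroup.Normal.conj_mem inferInstance _ (M.inv_mem hm) g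
  let θ : M →* H ⧸ T :=
    { toFun := fun m => π ⁅(m : H), g⁆
      map_one' := by simp
      map_mul' := by
        intro m n
        have e : ⁅((m * n : M) : H), g⁆ = (m : H) * ⁅(n : H), g⁆ * (m : H)⁻¹ * ⁅(m : H), g⁆ := by
          simp only [commutatorElement_def, Subgroup.coe_mul]; group
        rw [e, map_mul, map_mul, map_mul, hc _ m.2 _ (hmem n n.2), mul_assoc (π _) (π _) (π _),
          ← map_mul π (m : H), mul_inv_cancel, map_one, mul_one,
          hc _ (hmem n n.2) _ (hmem m m.2)] }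
  have hθ : ∀ m : M, θ m = π ⁅(m : H), g⁆ := fun m => rfl
  set S : Subgroup H := θ.range.comap π with hS
  have hS' : ∀ s : H, s ∈ S ↔ ∃ m ∈ M, π ⁅m, g⁆ = π s := by
    intro s
    rw [hS, mem_comap, MonoidHom.mem_range]
    constructor
    · rintro ⟨m, hm⟩
      exact ⟨m, m.2, hm⟩
    · rintro ⟨m, hm, h⟩
      exact ⟨⟨m, hm⟩, h⟩
  have hN : normalizer (S : Set H) = ⊤ := by
    refine hM.2 _ (lt_of_le_of_ne ?_ ?_)
    · intro m hm
      rw [mem_normalizer_iff]
      intro s
      rw [hS', hS']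
      have key : ∀ n ∈ M, ∀ x : H, π ⁅n, g⁆ = π x → π (m * x * m⁻¹) = π x := by
        intro n hn x hx
        rw [map_mul, map_mul, ← hx, hc _ hm _ (hmem n hn), mul_assoc, ← map_mul π m,
          mul_inv_cancel, map_one, mul_one]
      have key2 : ∀ n ∈ M, ∀ x : H, π ⁅n, g⁆ = π x → π (m⁻¹ * x * m) = π x := by
        intro n hn x hx
        rw [map_mul, map_mul, ← hx, hc _ (M.inv_mem hm) _ (hmem n hn), mul_assoc, ← map_mul π m⁻¹,
          inv_mul_cancel, map_one, mul_one]
      constructor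
      · rintro ⟨n, hn, h⟩
        exact ⟨n, hn, by rw [key n hn s h, h]⟩
      · rintro ⟨n, hn, h⟩
        refine ⟨n, hn, ?_⟩
        have := key2 n hn _ h
        rw [h, ← this]
        congr 1
        group
    · intro h
      apply hg
      rw [h, mem_normalizer_iff]
      intro s
      rw [hS', hS']
      have key : ∀ (n x : H), π ⁅n, g⁆ = π x → π ⁅g * n * g⁻¹, g⁆ = π (g * x * g⁻¹) := by
        intro n x hx
        rw [map_mul, map_mul, ← hx, ← map_mul, ← map_mul]
        congr 1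
        simp only [commutatorElement_def]; group
      constructor
      · rintro ⟨n, hn, h⟩
        exact ⟨_, Subgroup.Normal.conj_mem inferInstance _ hn g, key n s h⟩
      · rintro ⟨n, hn, h⟩
        refine ⟨g⁻¹ * n * g, ?_, ?_⟩
        · have := Subgroup.Normal.conj_mem (H := M) inferInstance _ hn g⁻¹
          simpa using this
        · have e : ⁅g⁻¹ * n * g, g⁆ = g⁻¹ * ⁅n, g⁆ * g := by
            simp only [commutatorElement_def]; group
          rw [e, map_mul, map_mul, h, ← map_mul, ← map_mul]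
          congr 1
          group
  have hSn : S.Normal := normalizer_eq_top_iff.mp hN
  have hle : ⁅(⊤ : Subgroup H), (⊤ : Subgroup H)⁆ ≤ S := by
    refine commutator_le_of_coatom hM hg S (fun m hm n hn => ?_) (fun m hm => ?_)
    · rw [hS']
      refine ⟨1, M.one_mem, ?_⟩
      have h : ⁅m, n⁆ ∈ T := commutator_mem_commutator hm hn
      have h' : π ⁅m, n⁆ = 1 := (QuotientGroup.eq_one_iff _).mpr h
      rw [h', commutatorElement_one_left, map_one]
    · rw [hS']
      exact ⟨m, hm, rfl⟩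
  have hF : ∀ s : S, ∃ x : T × (H ⧸ centralizer {g}),
      (s : H) = (x.2.out * g * x.2.out⁻¹) * g⁻¹ * x.1 := by
    rintro ⟨s, hs⟩
    obtain ⟨m, hm, h⟩ := (hS' s).mp hs
    obtain ⟨t, ht, h'⟩ := hker _ _ h
    refine ⟨⟨⟨t, ht⟩, (m : H ⧸ centralizer {g})⟩, ?_⟩
    obtain ⟨z, hz⟩ := QuotientGroup.mk_out_eq_mul (centralizer {g}) m
    change s = _ * g⁻¹ * t
    simp only
    rw [hz, h']
    have hzc : (z : H) * g = g * (z : H) := by
      have := z.2
      rw [mem_centralizer_singleton_iff] at this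
      exact this
    have e : m * (z : H) * g * (m * (z : H))⁻¹ = m * g * m⁻¹ := by
      rw [mul_assoc m, hzc]; group
    rw [e, commutatorElement_def]
  choose F hF using hF
  have hinj : Function.Injective F := by
    intro s s' h
    apply Subtype.ext
    rw [hF s, hF s', h]
  calc Nat.card (⁅(⊤ : Subgroup H), (⊤ : Subgroup H)⁆ : Subgroup H) ≤ Nat.card S :=
        Nat.card_le_card_of_injective _ (Subgroup.inclusion_injective hle)
    _ ≤ Nat.card (T × (H ⧸ centralizer {g})) := Nat.card_le_card_of_injective F hinj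
    _ = Nat.card T * (centralizer {g}).index := by
        rw [Nat.card_prod]; rfl

end general

section pgroup

variable {p : ℕ} [Fact p.Prime] {H : Type*} [Group H]

theorem exists_lam [Finite H] (hH : IsPGroup p H) {M : Subgroup H} (hM : IsCoatom M) :
    ∃ lam : H → ZMod p, (∀ x y, lam (x * y) = lam x + lam y) ∧ (∀ x, x ∈ M ↔ lam x = 0) ∧
      ∃ v, lam v = 1 := by
  have hN : M.Normal := Lib.FrattiniPGroup.normal_of_coatom hH hM
  have hidx : M.index = p := Lib.FrattiniPGroup.index_of_coatom hH hM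
  have h1 : Nat.card (H ⧸ M) = p := hidx
  have h2 : Nat.card (Multiplicative (ZMod p)) = p := by simp
  let e : H ⧸ M ≃* Multiplicative (ZMod p) := mulEquivOfPrimeCardEq h1 h2
  refine ⟨fun x => (e (QuotientGroup.mk' M x)).toAdd, fun x y => ?_, fun x => ?_, ?_⟩
  · change (e (QuotientGroup.mk' M (x * y))).toAdd = _
    rw [map_mul, map_mul]; rfl
  · rw [show (e (QuotientGroup.mk' M x)).toAdd = 0 ↔ e (QuotientGroup.mk' M x) = 1 from Iff.rfl,
      map_eq_one_iff e e.injective, QuotientGroup.mk'_apply, QuotientGroup.eq_one_iff]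
  · obtain ⟨v, hv⟩ := QuotientGroup.mk'_surjective M (e.symm (Multiplicative.ofAdd 1))
    refine ⟨v, ?_⟩
    simp only [hv, MulEquiv.apply_symm_apply]
    rfl

/-- the kernel of an additive function -/
def kerSub (χ : H → ZMod p) (hχ : ∀ x y, χ (x * y) = χ x + χ y) : Subgroup H where
  carrier := {x | χ x = 0}
  mul_mem' := by
    intro a b ha hb
    change χ (a * b) = 0
    rw [hχ, ha, hb, add_zero]
  one_mem' := by
    have := hχ 1 1
    rw [mul_one] at this
    exact left_eq_add.mp this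
  inv_mem' := by
    intro a ha
    change χ a⁻¹ = 0
    rw [hom_inv hχ, ha, neg_zero]

theorem mem_kerSub {χ : H → ZMod p} {hχ : ∀ x y, χ (x * y) = χ x + χ y} {x : H} :
    x ∈ kerSub χ hχ ↔ χ x = 0 := Iff.rfl

theorem exists_unit {χ : H → ZMod p} (hχ : ∀ x y, χ (x * y) = χ x + χ y) {x : H} (hx : χ x ≠ 0) :
    ∃ n : ℕ, χ (x ^ n) = 1 := by
  refine ⟨((χ x)⁻¹).val, ?_⟩
  rw [hom_pow hχ, ZMod.natCast_zmod_val, inv_mul_cancel₀ hx]

theorem kerSub_isCoatom {χ : H → ZMod p} (hχ : ∀ x y, χ (x * y) = χ x + χ y) {v : H}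
    (hv : χ v ≠ 0) : IsCoatom (kerSub χ hχ) := by
  refine ⟨fun h => hv ?_, fun K hK => ?_⟩
  · have : v ∈ kerSub χ hχ := by rw [h]; exact mem_top v
    exact this
  · obtain ⟨x, hxK, hx⟩ := SetLike.exists_of_lt hK
    obtain ⟨n, hn⟩ := exists_unit hχ (x := x) hx
    rw [eq_top_iff]
    intro y _
    obtain ⟨y', m, rfl, hy'⟩ := exists_decomp hχ hn y
    exact K.mul_mem (hK.le hy') (K.pow_mem (K.pow_mem hxK n) m)

theorem lt_of_nilpotent [Group.IsNilpotent H] {T D : Subgroup H} [T.Normal] (hTD : T < D) :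
    T ⊔ ⁅D, (⊤ : Subgroup H)⁆ < D ∨ ¬ D.Normal := by
  by_cases hDn : D.Normal
  · left
    have hle : T ⊔ ⁅D, (⊤ : Subgroup H)⁆ ≤ D := sup_le hTD.le (commutator_le_left _ _)
    refine lt_of_le_of_ne hle (fun heq => ?_)
    have key : ∀ n, D ≤ T ⊔ (⊤ : Subgroup H).lowerCentralSeries n := by
      intro n
      induction n with
      | zero => simp
      | succ n ih =>
        conv_lhs => rw [← heq]
        refine sup_le le_sup_left ?_
        rw [commutator_le]
        intro d hd h _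
        obtain ⟨t, ht, c, hc, rfl⟩ := Subgroup.mem_sup_of_normal_left.mp (ih hd)
        have e : ⁅t * c, h⁆ = (t * ⁅c, h⁆ * t⁻¹ * ⁅c, h⁆⁻¹) * ⁅c, h⁆ * (t * (h * t⁻¹ * h⁻¹)) := by
          simp only [commutatorElement_def]; group
        rw [e]
        have hc' : ⁅c, h⁆ ∈ (⊤ : Subgroup H).lowerCentralSeries (n + 1) :=
          commutator_mem_commutator hc (mem_top h)
        refine mul_mem (mul_mem ?_ ((le_sup_right : _ ≤ T ⊔ _) hc')) ?_
        · apply (le_sup_left : T ≤ _)
          rw [mul_assoc, mul_assoc]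
          refine T.mul_mem ht ?_
          rw [← mul_assoc]
          exact Subgroup.Normal.conj_mem inferInstance _ (T.inv_mem ht) _
        · apply (le_sup_left : T ≤ _)
          exact T.mul_mem ht (Subgroup.Normal.conj_mem inferInstance _ (T.inv_mem ht) _)
    have hnt : Group.IsNilpotent (⊤ : Subgroup H) := inferInstance
    obtain ⟨n, hn⟩ := (Subgroup.isNilpotent_iff_lowerCentralSeries (⊤ : Subgroup H)).mp hnt
    have := key n
    rw [hn, sup_bot_eq] at this
    exact absurd this (not_le_of_gt hTD)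
  · right; exact hDn

theorem exists_inv [Finite H] (hH : IsPGroup p H) {T D : Subgroup H} [T.Normal] [D.Normal]
    (hTD : T < D) : ∃ φ : H → ZMod p, IsInv D φ ∧ (∃ d ∈ D, φ d ≠ 0) ∧ ∀ t ∈ T, φ t = 0 := by
  classical
  have hnil := hH.isNilpotent
  have hP : T ⊔ ⁅D, (⊤ : Subgroup H)⁆ < D := by
    rcases lt_of_nilpotent hTD with h | h
    · exact h
    · exact absurd ‹D.Normal› h
  set P := T ⊔ ⁅D, (⊤ : Subgroup H)⁆ with hPdef
  have hne : P.subgroupOf D ≠ ⊤ := by
    intro h
    rw [subgroupOf_eq_top] at h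
    exact absurd h (not_le_of_gt hP)
  obtain ⟨M, hM, hPM⟩ := (eq_top_or_exists_le_coatom (P.subgroupOf D)).resolve_left hne
  obtain ⟨lam, hl1, hl2, v, hv⟩ := exists_lam (hH.to_subgroup D) hM
  refine ⟨fun x => if h : x ∈ D then lam ⟨x, h⟩ else 0, ⟨fun x hx y hy => ?_, fun h x hx => ?_⟩,
    ⟨v, v.2, ?_⟩, fun t ht => ?_⟩
  · simp only [hx, hy, D.mul_mem hx hy, dif_pos]
    exact hl1 ⟨x, hx⟩ ⟨y, hy⟩
  · have hx' : h * x * h⁻¹ ∈ D := Subgroup.Normal.conj_mem inferInstance _ hx h
    simp only [hx, hx', dif_pos]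
    have hc : ⁅h, x⁆ ∈ P := by
      apply (le_sup_right : _ ≤ P)
      rw [← commutatorElement_inv]
      exact inv_mem (commutator_mem_commutator hx (mem_top h))
    have hcD : ⁅h, x⁆ ∈ D := hP.le hc
    have e : (⟨h * x * h⁻¹, hx'⟩ : D) = ⟨⁅h, x⁆, hcD⟩ * ⟨x, hx⟩ := by
      apply Subtype.ext
      simp only [commutatorElement_def, Subgroup.coe_mul]; group
    rw [e, hl1, (hl2 _).mp (hPM (mem_subgroupOf.mpr hc)), zero_add]
  · simp only [v.2, dif_pos]
    change lam v ≠ 0
    rw [hv]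
    exact one_ne_zero
  · have htD : t ∈ D := hTD.le ht
    simp only [htD, dif_pos]
    exact (hl2 _).mp (hPM (mem_subgroupOf.mpr ((le_sup_left : T ≤ P) ht)))

/-- the key lemma -/
theorem exists_other_coatom [Finite H] (hH : IsPGroup p H) {M0 : Subgroup H} (hM0 : IsCoatom M0)
    (hD : ⁅M0, M0⁆ = ⁅(⊤ : Subgroup H), (⊤ : Subgroup H)⁆)
    (hne : ⁅(⊤ : Subgroup H), (⊤ : Subgroup H)⁆ ≠ ⊥) :
    ∃ M : Subgroup H, IsCoatom M ∧ M ≠ M0 ∧ ⁅M, M⁆ = ⁅(⊤ : Subgroup H), (⊤ : Subgroup H)⁆ := by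
  by_contra hcon
  push Not at hcon
  obtain ⟨lam, hl1, hl2, v0, hv⟩ := exists_lam hH hM0
  refine core M0 v0 lam hv hl1 hl2 hD ?_ ?_
  · obtain ⟨φ, h1, h2, -⟩ := exists_inv hH (T := ⊥) (bot_lt_iff_ne_bot.mpr hne)
    exact ⟨φ, h1, h2⟩
  · intro χ hχ hχv hχl
    have hco : IsCoatom (kerSub χ hχ) := kerSub_isCoatom hχ (v := v0) (by rw [hχv]; exact one_ne_zero)
    have hn : (kerSub χ hχ).Normal := Lib.FrattiniPGroup.normal_of_coatom hH hco
    have hneM : kerSub χ hχ ≠ M0 := by
      intro h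
      apply hχl
      ext x
      obtain ⟨x', n, rfl, hx'⟩ := exists_decomp hχ hχv x
      have : lam x' = 0 := by
        rw [← hl2, ← h]
        exact hx'
      rw [hχ, hl1, hx', this, hom_pow hχ, hom_pow hl1, hχv, hv]
    have hlt : ⁅kerSub χ hχ, kerSub χ hχ⁆ < ⁅(⊤ : Subgroup H), (⊤ : Subgroup H)⁆ :=
      lt_of_le_of_ne (commutator_mono le_top le_top) (hcon _ hco hneM)
    obtain ⟨φ, h1, h2, h3⟩ := exists_inv hH hlt
    exact ⟨φ, h1, h2, fun x y hx hy => h3 _ (commutator_mem_commutator hx hy)⟩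

theorem card_comm_sub (M : Subgroup H) : Nat.card (⁅(⊤ : Subgroup M), (⊤ : Subgroup M)⁆ : Subgroup M)
    = Nat.card (⁅M, M⁆ : Subgroup H) := by
  have h := Subgroup.map_commutator (⊤ : Subgroup M) (⊤ : Subgroup M) M.subtype
  rw [← MonoidHom.range_eq_map, Subgroup.range_subtype] at h
  rw [← h]
  exact Nat.card_congr (Subgroup.equivMapOfInjective _ M.subtype M.subtype_injective).toEquiv

theorem index_cent_sub (M : Subgroup H) (x : M) :
    (centralizer {x}).index = (centralizer {(x : H)}).relIndex M := by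
  rw [Subgroup.relIndex]
  congr 1
  ext y
  rw [mem_subgroupOf, mem_centralizer_singleton_iff, mem_centralizer_singleton_iff,
    Subtype.ext_iff]
  rfl

theorem relIndex_ne_zero' [Finite H] (K M : Subgroup H) : K.relIndex M ≠ 0 := by
  rw [Subgroup.relIndex]
  exact Subgroup.index_ne_zero_of_finite

theorem relIndex_le_index [Finite H] (K M : Subgroup H) : K.relIndex M ≤ K.index := by
  rw [← Subgroup.relIndex_top_right K]
  exact Subgroup.relIndex_le_of_le_right le_top (relIndex_ne_zero' _ _)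

end pgroup

theorem breadth_bound.{u} (p : ℕ) [Fact p.Prime] (n : ℕ) : ∀ (H : Type u) [Group H] [Finite H],
    Nat.card H = n → IsPGroup p H → ∀ (k : ℕ) (Y : Subgroup H), Y ≠ ⊤ →
    (∀ x : H, x ∉ Y → (centralizer {x}).index ≤ p ^ k) →
    Nat.card (⁅(⊤ : Subgroup H), (⊤ : Subgroup H)⁆ : Subgroup H) ≤ p ^ (k * (k + 1) / 2) := by
  induction n using Nat.strong_induction_on with
  | _ n ih =>
    intro H _ _ hcard hH k Y hY hk
    have hp : p.Prime := Fact.out
    obtain ⟨M0, hM0, hYM⟩ := (eq_top_or_exists_le_coatom Y).resolve_left hY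
    replace hk : ∀ x : H, x ∉ M0 → (centralizer {x}).index ≤ p ^ k := fun x hx =>
      hk x (fun h => hx (hYM h))
    have hlt : ∀ M : Subgroup H, IsCoatom M → Nat.card M < n := by
      intro M hM
      rw [← hcard]
      refine lt_of_le_of_ne (Subgroup.card_le_card_group M) (fun h => hM.1 ?_)
      exact Subgroup.eq_top_of_card_eq M h
    by_cases hne : ⁅(⊤ : Subgroup H), (⊤ : Subgroup H)⁆ = ⊥
    · rw [hne, Subgroup.card_bot]
      exact Nat.one_le_pow _ _ hp.pos
    by_cases hA : ∃ M : Subgroup H, IsCoatom M ∧ M ≠ M0 ∧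
        ⁅M, M⁆ = ⁅(⊤ : Subgroup H), (⊤ : Subgroup H)⁆
    · obtain ⟨M, hM, hMne, hMD⟩ := hA
      have h1 := ih (Nat.card M) (hlt M hM) M rfl (hH.to_subgroup M) k (M0.subgroupOf M) (by
        intro h
        rw [subgroupOf_eq_top] at h
        rcases h.lt_or_eq with h' | h'
        · exact hM0.1 (hM.2 _ h')
        · exact hMne h') (by
        intro x hx
        rw [index_cent_sub]
        refine (relIndex_le_index _ _).trans (hk _ (fun h => hx (mem_subgroupOf.mpr h))))
      rw [card_comm_sub, hMD] at h1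
      exact h1
    · have hlt0 : ⁅M0, M0⁆ < ⁅(⊤ : Subgroup H), (⊤ : Subgroup H)⁆ :=
        lt_of_le_of_ne (commutator_mono le_top le_top)
          (fun h => hA (exists_other_coatom hH hM0 h hne))
      have hn0 : M0.Normal := Lib.FrattiniPGroup.normal_of_coatom hH hM0
      obtain ⟨φ, hφ, ⟨d, hd, hd0⟩, hφ0⟩ := exists_inv hH hlt0
      obtain ⟨lam, hl1, hl2, v0, hv⟩ := exists_lam hH hM0
      have hform := form_eq hφ hl1 hv (fun x y hx hy =>
        hφ0 _ (commutator_mem_commutator ((hl2 x).mpr hx) ((hl2 y).mpr hy)))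
      have hν : ∀ x y : H, φ ⁅x * y, v0⁆ = φ ⁅x, v0⁆ + φ ⁅y, v0⁆ := fun x y =>
        hφ.comm_mul_left x y v0
      obtain ⟨h, hh⟩ : ∃ h : H, φ ⁅h, v0⁆ ≠ 0 := by
        by_contra hcon
        push Not at hcon
        apply hd0
        refine hφ.eq_zero (fun x y => ?_) hd
        rw [hform, hcon, hcon, mul_zero, mul_zero, sub_zero]
      set M : Subgroup H := kerSub (fun x => φ ⁅x, v0⁆) hν with hMdef
      have hM : IsCoatom M := kerSub_isCoatom (χ := fun x => φ ⁅x, v0⁆) hν hh
      have hMn : M.Normal := Lib.FrattiniPGroup.normal_of_coatom hH hM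
      have hMi : M.index = p := Lib.FrattiniPGroup.index_of_coatom hH hM
      have hmem : ∀ x : H, x ∈ M ↔ φ ⁅x, v0⁆ = 0 := fun x => Iff.rfl
      have hv0M : v0 ∈ M := (hmem v0).mpr (hφ.comm_self v0)
      have hv0 : v0 ∉ M0 := by
        rw [hl2, hv]
        exact one_ne_zero
      have hcent : ∀ x ∈ M, x ∉ M0 → (centralizer {x}).relIndex M * p ≤ p ^ k := by
        intro x hx hx0
        have hle : centralizer {x} ≤ M := by
          intro y hy
          rw [mem_centralizer_singleton_iff] at hy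
          have h1 : ⁅x, y⁆ = 1 := commutatorElement_eq_one_iff_mul_comm.mpr hy.symm
          have h2 := hform x y
          rw [h1, hφ.one, (hmem x).mp hx, mul_zero, zero_sub] at h2
          have h3 : lam x ≠ 0 := fun h => hx0 ((hl2 x).mpr h)
          rw [hmem]
          have h4 := (neg_eq_zero.mp h2.symm)
          exact (mul_eq_zero.mp h4).resolve_left h3
        have h5 := Subgroup.relIndex_mul_index hle
        rw [hMi] at h5
        rw [h5]
        exact hk x hx0
      obtain ⟨k', rfl⟩ : ∃ k', k = k' + 1 := by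
        cases k with
        | zero =>
          exfalso
          have h1 := hcent v0 hv0M hv0
          rw [pow_zero] at h1
          have h2 : 0 < (centralizer {v0}).relIndex M :=
            Nat.pos_of_ne_zero (relIndex_ne_zero' _ _)
          have h3 := hp.two_le
          nlinarith
        | succ k' => exact ⟨k', rfl⟩
      have h1 := ih (Nat.card M) (hlt M hM) M rfl (hH.to_subgroup M) k' (M0.subgroupOf M) (by
        intro h
        rw [subgroupOf_eq_top] at h
        exact hv0 (h hv0M)) (by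
        intro x hx
        rw [index_cent_sub]
        have h2 := hcent x x.2 (fun h => hx (mem_subgroupOf.mpr h))
        rw [pow_succ] at h2
        exact Nat.le_of_mul_le_mul_right h2 hp.pos)
      rw [card_comm_sub] at h1
      obtain ⟨g, hgM, hg0⟩ : ∃ g : H, g ∉ M ∧ g ∉ M0 := by
        by_cases hc : h ∈ M0
        · refine ⟨h * v0, ?_, ?_⟩
          · rw [hmem, hν, hφ.comm_self, add_zero]
            exact hh
          · rw [hl2, hl1, (hl2 h).mp hc, hv, zero_add]
            exact one_ne_zero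
        · exact ⟨h, hh, hc⟩
      calc Nat.card (⁅(⊤ : Subgroup H), (⊤ : Subgroup H)⁆ : Subgroup H)
          ≤ Nat.card (⁅M, M⁆ : Subgroup H) * (centralizer {g}).index :=
            card_commutator_le M hM g hgM
        _ ≤ p ^ (k' * (k' + 1) / 2) * p ^ (k' + 1) := Nat.mul_le_mul h1 (hk g hg0)
        _ = p ^ ((k' + 1) * (k' + 1 + 1) / 2) := by
          rw [← pow_add]
          congr 1
          have e : (k' + 1) * (k' + 1 + 1) = k' * (k' + 1) + (k' + 1) * 2 := by ring
          rw [e, Nat.add_mul_div_right _ _ (by norm_num)]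

end Cfsg.Agent.H855.Breadth
end

-- part: S3777
section
set_option autoImplicit false
open Cfsg

namespace Cfsg.Agent.S3777

/-- Vaughan-Lee's Theorem: if G is a finite p-group in which every conjugacy class has at most p^b elements (every element has centralizer of index at most p^b), then the derived subgroup of G has order at most p^(b(b+1)/2). -/
theorem result {G : Type*} [Group G] [Finite G] {p : ℕ} [Fact p.Prime] (hG : IsPGroup p G) (b : ℕ) (hb : ∀ x : G, (Subgroup.centralizer ({x} : Set G)).index ≤ p ^ b) : Nat.card (commutator G) ≤ p ^ (b * (b + 1) / 2) := by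
  by_cases hne : (⊥ : Subgroup G) = ⊤
  · have h1 : Nat.card (commutator G) = 1 := by
      have h2 : commutator G = ⊥ := by
        rw [eq_bot_iff, hne]
        exact le_top
      rw [h2, Subgroup.card_bot]
    rw [h1]
    exact Nat.one_le_pow _ _ (Fact.out : p.Prime).pos
  · exact H855.Breadth.breadth_bound p _ G rfl hG b ⊥ hne (fun x _ => hb x)

end Cfsg.Agent.S3777
end
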