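import Cfsg.Statements.S3778
set_option linter.all false

set_option autoImplicit false
open Cfsg

namespace Cfsg.Agent.S3778

open scoped commutatorElement

/-- the lower central series of the whole group -/
abbrev lcs (G : Type*) [Group G] (n : ℕ) : Subgroup G := (⊤ : Subgroup G).lowerCentralSeries n

theorem comm_mem {G : Type*} [Group G] (n : ℕ) {g : G} (hg : g ∈ lcs G n) (x : G) :
    ⁅g, x⁆ ∈ lcs G (n + 1) :=
  Subgroup.commutator_mem_commutator hg (Subgroup.mem_top x)

/-- The two-step centralizer. -/
def C2 (G : Type*) [Group G] (i : ℕ) : Subgroup G where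
  carrier := {x | ∀ g ∈ lcs G i, ⁅g, x⁆ ∈ lcs G (i + 2)}
  one_mem' := by
    intro g _
    rw [commutatorElement_one_right]
    exact Subgroup.one_mem _
  mul_mem' := by
    intro a b ha hb g hg
    have h1 : ⁅g, a * b⁆ = ⁅g, a⁆ * (a * ⁅g, b⁆ * a⁻¹) := by
      simp only [commutatorElement_def]; group
    rw [h1]
    haveI : (lcs G (i + 2)).Normal := inferInstance
    exact Subgroup.mul_mem _ (ha g hg)
      (Subgroup.Normal.conj_mem inferInstance _ (hb g hg) a)
  inv_mem' := by
    intro a ha g hg
    have h1 : ⁅g, a⁻¹⁆ = a⁻¹ * ⁅g, a⁆⁻¹ * a⁻¹⁻¹ := by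
      simp only [commutatorElement_def]; group
    rw [h1]
    haveI : (lcs G (i + 2)).Normal := inferInstance
    exact Subgroup.Normal.conj_mem inferInstance _ (Subgroup.inv_mem _ (ha g hg)) a⁻¹

theorem C2_ne_top {G : Type*} [Group G] (i : ℕ)
    (h : lcs G (i + 1) ≠ lcs G (i + 2)) : C2 G i ≠ ⊤ := by
  intro htop
  apply h
  apply le_antisymm
  · show ⁅lcs G i, (⊤ : Subgroup G)⁆ ≤ _
    rw [Subgroup.commutator_le]
    intro g hg x _
    have hx : x ∈ C2 G i := by rw [htop]; exact Subgroup.mem_top x
    exact hx g hg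
  · exact Subgroup.lowerCentralSeries_antitone _ (Nat.le_succ _)

theorem p_le_relIndex {G : Type*} [Group G] [Finite G] {p : ℕ} [hp : Fact p.Prime]
    (hG : IsPGroup p G) {H K : Subgroup G} (hHK : H < K) : p ≤ H.relIndex K := by
  have h1 : H.relIndex K ≠ 1 := by
    intro h
    exact absurd (Subgroup.relIndex_eq_one.mp h) (not_le_of_gt hHK)
  have hK : IsPGroup p K := hG.to_subgroup K
  obtain ⟨n, hn⟩ := hK.index (H.subgroupOf K)
  change H.relIndex K = p ^ n at hn
  rw [hn] at h1 ⊢
  rcases Nat.eq_zero_or_pos n with rfl | hpos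
  · simp at h1
  · calc p = p ^ 1 := (pow_one p).symm
      _ ≤ p ^ n := Nat.pow_le_pow_right hp.out.pos hpos

open Classical in
theorem chain {G : Type*} [Group G] [Finite G] {p : ℕ} [hp : Fact p.Prime]
    (hG : IsPGroup p G) (x : G) (k : ℕ) :
    p ^ ((Finset.range k).filter (fun i => x ∉ C2 G i)).card ≤
      (Subgroup.centralizer ({x} : Set G) ⊔ lcs G k).index := by
  induction k with
  | zero =>
    have : lcs G 0 = ⊤ := rfl
    simp [this]
  | succ k ih =>
    set Z := Subgroup.centralizer ({x} : Set G) with hZ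
    have hle : Z ⊔ lcs G (k + 1) ≤ Z ⊔ lcs G k :=
      sup_le_sup_left (Subgroup.lowerCentralSeries_antitone _ (Nat.le_succ k)) _
    have hmul := Subgroup.relIndex_mul_index hle
    rw [Finset.range_add_one, Finset.filter_insert]
    by_cases hx : x ∉ C2 G k
    · rw [if_pos hx]
      rw [Finset.card_insert_of_notMem (by simp), pow_succ, ← hmul, mul_comm]
      apply Nat.mul_le_mul _ ih
      apply p_le_relIndex hG
      refine lt_of_le_of_ne hle ?_
      intro heq
      apply hx
      intro g hg
      have hg' : g ∈ Z ⊔ lcs G (k + 1) := by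
        rw [heq]; exact (le_sup_right : lcs G k ≤ Z ⊔ lcs G k) hg
      haveI : (lcs G (k + 1)).Normal := inferInstance
      rw [sup_comm] at hg'
      have hg'' := hg'
      rw [← SetLike.mem_coe, Subgroup.normal_mul] at hg''
      obtain ⟨h, hh, z, hz, rfl⟩ := Set.mem_mul.mp hg''
      have hzx : x * z = z * x := (Subgroup.mem_centralizer_iff.mp hz) x rfl
      have hzx' : ⁅z, x⁆ = 1 := by
        rw [commutatorElement_eq_one_iff_mul_comm]; exact hzx.symm
      have h1 : ⁅h * z, x⁆ = h * ⁅z, x⁆ * h⁻¹ * ⁅h, x⁆ := by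
        simp only [commutatorElement_def]; group
      rw [h1, hzx']
      simp only [mul_one, mul_inv_cancel, one_mul]
      exact comm_mem (k + 1) hh x
    · rw [if_neg hx, ← hmul]
      have h0 : (Z ⊔ lcs G (k + 1)).relIndex (Z ⊔ lcs G k) ≠ 0 :=
        Subgroup.index_ne_zero_of_finite
      exact ih.trans (Nat.le_mul_of_pos_left _ (Nat.pos_of_ne_zero h0))

theorem result {G : Type*} [Group G] [Finite G] {p : ℕ} [Fact p.Prime] (hG : IsPGroup p G) (b : ℕ) (hb : ∀ x : G, (Subgroup.centralizer ({x} : Set G)).index ≤ p ^ b) : ∃ c : ℕ, (⊤ : Subgroup G).lowerCentralSeries c = ⊥ ∧ (b ≠ 0 → (c - 1) * (p - 1) < b * p ∧ c ≤ 2 * b) ∧ (b = 0 → c ≤ 1) := by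
  classical
  haveI : Group.IsNilpotent G := hG.isNilpotent
  have hp : p.Prime := Fact.out
  refine ⟨Group.nilpotencyClass G, Subgroup.lowerCentralSeries_nilpotencyClass, ?_, ?_⟩
  · intro hb0
    set c := Group.nilpotencyClass G with hc
    letI : Fintype G := Fintype.ofFinite G
    -- strictness
    have hne : ∀ i ∈ Finset.range (c - 1), lcs G (i + 1) ≠ lcs G (i + 2) := by
      intro i hi heq
      have hi' : i + 1 < c := by have := Finset.mem_range.mp hi; omega
      -- then the series is constant from i+1 on
      have hconst : ∀ k, lcs G (i + 1 + k) = lcs G (i + 1) := by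
        intro k
        induction k with
        | zero => rfl
        | succ k ih =>
          have h1 : lcs G (i + 1 + (k + 1)) = ⁅lcs G (i + 1 + k), (⊤ : Subgroup G)⁆ := rfl
          rw [h1, ih]
          exact heq.symm
      have h2 : lcs G (i + 1) = ⊥ := by
        have h3 := hconst (c - (i + 1))
        rw [Nat.add_sub_cancel' hi'.le] at h3
        rw [← h3]
        exact Subgroup.lowerCentralSeries_nilpotencyClass
      have h4 := Subgroup.lowerCentralSeries_eq_bot_iff_nilpotencyClass_le.mp h2
      omega
    have hcount : ∀ x : G, ((Finset.range (c - 1)).filter (fun i => x ∉ C2 G i)).card ≤ b := by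
      intro x
      have h1 := chain hG x (c - 1)
      have h2 : (Subgroup.centralizer ({x} : Set G) ⊔ lcs G (c - 1)).index ≤ p ^ b :=
        le_trans (Subgroup.index_antitone le_sup_left) (hb x)
      exact (Nat.pow_le_pow_iff_right hp.one_lt).mp (h1.trans h2)
    have hcount1 : ((Finset.range (c - 1)).filter (fun i => (1 : G) ∉ C2 G i)).card = 0 := by
      rw [Finset.card_eq_zero, Finset.filter_eq_empty_iff]
      intro i _ h
      exact h (Subgroup.one_mem _)
    have hsum : ∑ x : G, ((Finset.range (c - 1)).filter (fun i => x ∉ C2 G i)).card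
        ≤ b * (Nat.card G - 1) := by
      rw [← Finset.sum_erase_add _ _ (Finset.mem_univ (1 : G)), hcount1, add_zero]
      calc _ ≤ ∑ _x ∈ Finset.univ.erase (1 : G), b := Finset.sum_le_sum (fun x _ => hcount x)
        _ = b * (Nat.card G - 1) := by
          rw [Finset.sum_const, Finset.card_erase_of_mem (Finset.mem_univ _), Finset.card_univ,
            Nat.card_eq_fintype_card, smul_eq_mul, mul_comm]
    have hswap : ∑ x : G, ((Finset.range (c - 1)).filter (fun i => x ∉ C2 G i)).card
        = ∑ i ∈ Finset.range (c - 1), (Finset.univ.filter (fun x : G => x ∉ C2 G i)).card := by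
      simp only [Finset.card_filter]
      exact Finset.sum_comm
    have hone : ∀ i ∈ Finset.range (c - 1),
        (p - 1) * Nat.card G ≤ p * (Finset.univ.filter (fun x : G => x ∉ C2 G i)).card := by
      intro i hi
      have h1 : (Finset.univ.filter (fun x : G => x ∉ C2 G i)).card
          = Nat.card G - Nat.card (C2 G i) := by
        have h2 := Finset.card_filter_add_card_filter_not (s := (Finset.univ : Finset G))
          (p := fun x : G => x ∈ C2 G i)
        have h3 : (Finset.univ.filter (fun x : G => x ∈ C2 G i)).card = Nat.card (C2 G i) := by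
          rw [Nat.card_eq_fintype_card, Fintype.card_subtype]
        rw [Finset.card_univ, ← Nat.card_eq_fintype_card, h3] at h2
        omega
      have h4 : Nat.card (C2 G i) * (C2 G i).index = Nat.card G := Subgroup.card_mul_index _
      have h5 : p ≤ (C2 G i).index := by
        have := p_le_relIndex hG (lt_top_iff_ne_top.mpr (C2_ne_top i (hne i hi)))
        rwa [Subgroup.relIndex_top_right] at this
      have h6 : p * Nat.card (C2 G i) ≤ Nat.card G := by
        rw [← h4, mul_comm]; exact Nat.mul_le_mul_left _ h5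
      rw [h1, Nat.mul_sub, Nat.sub_mul, one_mul]
      omega
    have hmain : (c - 1) * ((p - 1) * Nat.card G) ≤ p * (b * (Nat.card G - 1)) := by
      calc (c - 1) * ((p - 1) * Nat.card G)
          = ∑ i ∈ Finset.range (c - 1), (p - 1) * Nat.card G := by
            rw [Finset.sum_const, Finset.card_range, smul_eq_mul]
        _ ≤ ∑ i ∈ Finset.range (c - 1), p * (Finset.univ.filter (fun x : G => x ∉ C2 G i)).card :=
            Finset.sum_le_sum hone
        _ = p * ∑ x : G, ((Finset.range (c - 1)).filter (fun i => x ∉ C2 G i)).card := by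
            rw [← Finset.mul_sum, hswap]
        _ ≤ _ := Nat.mul_le_mul_left _ hsum
    have hGpos : 0 < Nat.card G := Nat.card_pos
    have hlt : (c - 1) * (p - 1) < b * p := by
      by_contra hcon
      push Not at hcon
      have h1 : b * p * Nat.card G ≤ (c - 1) * (p - 1) * Nat.card G := Nat.mul_le_mul_right _ hcon
      have h2 : (c - 1) * (p - 1) * Nat.card G = (c - 1) * ((p - 1) * Nat.card G) := by ring
      have h3 : p * (b * (Nat.card G - 1)) < b * p * Nat.card G := by
        have hbp : 0 < b * p := Nat.mul_pos (Nat.pos_of_ne_zero hb0) hp.pos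
        calc p * (b * (Nat.card G - 1)) = b * p * (Nat.card G - 1) := by ring
          _ < b * p * Nat.card G := Nat.mul_lt_mul_of_pos_left (by omega) hbp
      omega
    refine ⟨hlt, ?_⟩
    by_contra hcon
    push Not at hcon
    have h1 : 2 * b ≤ c - 1 := by omega
    have h2 : 2 * b * (p - 1) ≤ (c - 1) * (p - 1) := Nat.mul_le_mul_right _ h1
    obtain ⟨q, rfl⟩ : ∃ q, p = q + 2 := ⟨p - 2, by have := hp.two_le; omega⟩
    simp only [Nat.add_succ_sub_one] at h2 hlt
    nlinarith
  · intro hb0
    subst hb0
    apply Subgroup.lowerCentralSeries_eq_bot_iff_nilpotencyClass_le.mp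
    rw [Subgroup.top_lowerCentralSeries_one, _root_.commutator_def, eq_bot_iff, Subgroup.commutator_le]
    intro g _ x _
    have h1 : (Subgroup.centralizer ({x} : Set G)).index = 1 := by
      have := hb x
      rw [pow_zero] at this
      have h0 : (Subgroup.centralizer ({x} : Set G)).index ≠ 0 := Subgroup.index_ne_zero_of_finite
      omega
    have h2 := Subgroup.index_eq_one.mp h1
    have h3 : g ∈ Subgroup.centralizer ({x} : Set G) := by rw [h2]; exact Subgroup.mem_top g
    rw [Subgroup.mem_bot, commutatorElement_eq_one_iff_mul_comm]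
    exact ((Subgroup.mem_centralizer_iff.mp h3) x rfl).symm

end Cfsg.Agent.S3778
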