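import Cfsg.Statements.S3780
import Cfsg.Agent.H449.FixQuot
set_option linter.all false

set_option autoImplicit false
open Cfsg

namespace Cfsg.Agent.S3780

open Cfsg.Agent.H449

/-- In a finite abelian `p`-group the subgroup of `p`-th powers consists of non-generators. -/
theorem eq_top_of_sup_range {V : Type*} [CommGroup V] [Finite V] {p : ℕ} [Fact p.Prime]
    (hV : IsPGroup p V) (H : Subgroup V) (hH : H ⊔ (powMonoidHom p : V →* V).range = ⊤) :
    H = ⊤ := by
  have hp : p.Prime := Fact.out
  by_contra hne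
  have hW : IsPGroup p (V ⧸ H) := hV.to_quotient H
  have hsurj : Function.Surjective (fun w : V ⧸ H => w ^ p) := by
    intro w
    obtain ⟨v, rfl⟩ := QuotientGroup.mk_surjective w
    have hv : v ∈ H ⊔ (powMonoidHom p : V →* V).range := by rw [hH]; trivial
    obtain ⟨h, hh, _, ⟨x, rfl⟩, rfl⟩ := Subgroup.mem_sup.mp hv
    refine ⟨(x : V ⧸ H), ?_⟩
    simp only [powMonoidHom_apply]
    rw [QuotientGroup.mk_mul, (QuotientGroup.eq_one_iff h).mpr hh, one_mul, QuotientGroup.mk_pow]
  have hinj := Finite.injective_iff_surjective.mpr hsurj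
  have hnt : Nontrivial (V ⧸ H) := by
    rw [QuotientGroup.nontrivial_iff]
    exact hne
  have hdvd : p ∣ Nat.card (V ⧸ H) := by
    obtain ⟨k, hk⟩ := (IsPGroup.iff_card).mp hW
    have h1 : k ≠ 0 := by
      rintro rfl
      rw [pow_zero] at hk
      exact (Finite.one_lt_card_iff_nontrivial.mpr hnt).ne' hk
    rw [hk]
    exact dvd_pow_self p h1
  obtain ⟨x, hx⟩ := exists_prime_orderOf_dvd_card' p hdvd
  have h1 : x ^ p = 1 := by rw [← hx]; exact pow_orderOf_eq_one x
  have h2 : x = 1 := hinj (by simp only [h1, one_pow])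
  rw [h2, orderOf_one] at hx
  exact hp.one_lt.ne hx

/-- Let V be a finite abelian p-group and α an automorphism of V of order p whose fixed-point subgroup has order p^n. Then V can be generated by pn elements: some subset of V with at most pn elements generates V. -/
theorem result {V : Type*} [CommGroup V] [Finite V] {p : ℕ} [Fact p.Prime] (hV : IsPGroup p V) (α : MulAut V) (hα : orderOf α = p) (n : ℕ) (hfix : Nat.card {v : V // α v = v} = p ^ n) : ∃ S : Finset V, S.card ≤ p * n ∧ Subgroup.closure (S : Set V) = ⊤ := by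
  classical
  have hp : p.Prime := Fact.out
  set P : Subgroup V := (powMonoidHom p : V →* V).range with hP
  have hPα : P ≤ P.comap (α : V →* V) := by
    rintro _ ⟨x, rfl⟩
    exact ⟨α x, by simp⟩
  let β : V ⧸ P →* V ⧸ P := QuotientGroup.map P P (α : V →* V) hPα
  have hβ : ∀ v : V, β (QuotientGroup.mk' P v) = QuotientGroup.mk' P (α v) := fun v => rfl
  have h1 : Nat.card {q : V ⧸ P // β q = q} ≤ p ^ n := by
    have := card_fixed_le_of_surjective (QuotientGroup.mk' P) (QuotientGroup.mk'_surjective P)
      (α : V →* V) β hβ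
    refine this.trans ?_
    rw [← hfix]
    exact le_of_eq rfl
  let A := Additive (V ⧸ P)
  let a : AddMonoid.End A := MonoidHom.toAdditive β
  have hA : ∀ v : A, p • v = 0 := by
    intro v
    obtain ⟨x, hx⟩ := QuotientGroup.mk_surjective (Additive.toMul v)
    apply Additive.toMul.injective
    rw [toMul_nsmul, toMul_zero, ← hx, ← QuotientGroup.mk_pow, QuotientGroup.eq_one_iff]
    exact ⟨x, rfl⟩
  have ha : a ^ p = 1 := by
    ext v
    obtain ⟨x, hx⟩ := QuotientGroup.mk_surjective (Additive.toMul v)
    have hpow : ∀ k : ℕ, (a ^ k) (Additive.ofMul (x : V ⧸ P)) =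
        Additive.ofMul (((α ^ k) x : V) : V ⧸ P) := by
      intro k
      induction k with
      | zero => rfl
      | succ k ih =>
        rw [pow_succ', pow_succ']
        change a ((a ^ k) _) = _
        rw [ih]
        rfl
    have hv : v = Additive.ofMul (x : V ⧸ P) := by rw [hx]; rfl
    rw [hv, hpow, ← hα, pow_orderOf_eq_one]
    rfl
  have h2 := card_le_card_fixed_pow hA a ha
  have h3 : Nat.card (V ⧸ P) ≤ p ^ (p * n) := by
    have h4 : Nat.card {v : A // a v = v} = Nat.card {q : V ⧸ P // β q = q} := rfl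
    rw [h4] at h2
    refine h2.trans ((Nat.pow_le_pow_left h1 p).trans (le_of_eq ?_))
    rw [← pow_mul, mul_comm]
  obtain ⟨T, hT, hT'⟩ := exists_finset_closure_eq_top (hV.to_quotient P) (p * n) h3
  refine ⟨T.image Quotient.out, (Finset.card_image_le).trans hT, ?_⟩
  apply eq_top_of_sup_range hV
  rw [← hP]
  set H := Subgroup.closure ((T.image Quotient.out : Finset V) : Set V)
  have h5 : H.map (QuotientGroup.mk' P) = ⊤ := by
    rw [eq_top_iff, ← hT', Subgroup.closure_le]
    intro t ht
    refine ⟨Quotient.out t, Subgroup.subset_closure (Finset.mem_coe.mpr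
      (Finset.mem_image_of_mem _ (Finset.mem_coe.mp ht))), ?_⟩
    exact QuotientGroup.out_eq' t
  have h6 := Subgroup.comap_map_eq (QuotientGroup.mk' P) H
  rw [h5, QuotientGroup.ker_mk', Subgroup.comap_top] at h6
  exact h6.symm

end Cfsg.Agent.S3780
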