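import Mathlib
import Cfsg.Agent.H449.GroupCore
import Cfsg.Agent.H449.FixQuot
import Cfsg.Agent.S3781
import Cfsg.Statements.S3782
import Cfsg.Agent.S3779
import Cfsg.Agent.S0029
import Cfsg.Agent.Lib.HallHigman
import Cfsg.Agent.Lib.FrattiniPGroup
set_option linter.all false

-- part: H449/Alperin
section
/-!
# Alperin's theorem for `p`-groups

A finite `p`-group with an automorphism of order dividing `p` with at most `p ^ n` fixed points has
derived length bounded in terms of `p` and `n`.
-/

set_option autoImplicit false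

namespace Cfsg.Agent.H449

universe u

/-- The Higman–Kreknin–Kostrikin bound. -/
def hk (p : ℕ) : ℕ := Finset.sum (Finset.range (2 ^ (p - 1) - 1)) (fun i => (p - 1) ^ i)

theorem hk_pos {p : ℕ} (hp : p.Prime) : 0 < hk p := by
  have h1 : 0 < 2 ^ (p - 1) - 1 := by
    have h2 := hp.two_le
    have h3 : 2 ^ 1 ≤ 2 ^ (p - 1) := Nat.pow_le_pow_right (by norm_num) (by omega)
    omega
  obtain ⟨m, hm⟩ : ∃ m, 2 ^ (p - 1) - 1 = m + 1 := ⟨2 ^ (p - 1) - 1 - 1, by omega⟩
  rw [hk, hm, Finset.sum_range_succ']
  simp

/-- On quotients of a `p`-group the fixed points of `α` are killed by `p ^ n`. -/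
theorem pow_mem_of_twisted {P : Type*} [Group P] [Finite P] {p : ℕ} [Fact p.Prime]
    (hP : IsPGroup p P) (α : P →* P) (n : ℕ) (hn : Nat.card {x : P // α x = x} ≤ p ^ n)
    (K : Subgroup P) [K.Normal] (hK : ∀ x ∈ K, α x ∈ K) (x : P) (hx : x⁻¹ * α x ∈ K) :
    x ^ p ^ n ∈ K := by
  have hp : p.Prime := Fact.out
  let β : P ⧸ K →* P ⧸ K := QuotientGroup.map K K α hK
  have h1 : Nat.card {q : P ⧸ K // β q = q} ≤ p ^ n :=
    (card_fixed_le_of_surjective (QuotientGroup.mk' K) (QuotientGroup.mk'_surjective K) α β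
      (fun _ => rfl)).trans hn
  let F : Subgroup (P ⧸ K) := β.eqLocus (MonoidHom.id _)
  have h2 : Nat.card F ≤ p ^ n := h1
  obtain ⟨m, hm⟩ := (IsPGroup.iff_card).mp ((hP.to_quotient K).to_subgroup F)
  rw [hm] at h2
  have h3 : m ≤ n := (Nat.pow_le_pow_iff_right hp.one_lt).mp h2
  have h4 : (x : P ⧸ K) ∈ F := by
    change β (x : P ⧸ K) = (x : P ⧸ K)
    exact (QuotientGroup.eq.mpr hx).symm
  have h5 : (⟨(x : P ⧸ K), h4⟩ : F) ^ p ^ n = 1 := by
    have h6 : (⟨(x : P ⧸ K), h4⟩ : F) ^ Nat.card F = 1 := pow_card_eq_one'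
    rw [hm] at h6
    obtain ⟨k, rfl⟩ := Nat.exists_eq_add_of_le h3
    rw [pow_add, pow_mul, h6, one_pow]
  have h6 := congrArg Subtype.val h5
  simp only [SubmonoidClass.mk_pow, OneMemClass.coe_one] at h6
  rw [← QuotientGroup.mk_pow, QuotientGroup.eq_one_iff] at h6
  exact h6

theorem iterate_mem_fix {P : Type*} [Group P] (α : P →* P) (H : Subgroup P)
    (hH : ∀ x ∈ H, α x ∈ H) (p : ℕ) (hα : ∀ x, (⇑α)^[p] x = x) (x : H) :
    (⇑((α.comp H.subtype).codRestrict H fun x => hH x.1 x.2))^[p] x = x := by
  have h1 : ∀ m : ℕ, ∀ x : H,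
      (((⇑((α.comp H.subtype).codRestrict H fun x => hH x.1 x.2))^[m] x : H) : P) =
        (⇑α)^[m] x := by
    intro m
    induction m with
    | zero => intro x; rfl
    | succ m ih => intro x; rw [Function.iterate_succ_apply, ih, Function.iterate_succ_apply]; rfl
  exact Subtype.ext ((h1 p x).trans (hα _))

theorem card_fix_restrict {P : Type*} [Group P] [Finite P] (α : P →* P) (H : Subgroup P)
    (hH : ∀ x ∈ H, α x ∈ H) :
    Nat.card {x : H // (α.comp H.subtype).codRestrict H (fun x => hH x.1 x.2) x = x} ≤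
      Nat.card {x : P // α x = x} := by
  refine Nat.card_le_card_of_injective
    (fun x => (⟨(x.1 : P), congrArg Subtype.val x.2⟩ : {x : P // α x = x})) ?_
  intro a b hab
  have h1 : ((a.1 : H) : P) = ((b.1 : H) : P) := (Subtype.mk.injEq _ _ _ _).mp hab
  exact Subtype.ext (Subtype.ext h1)

theorem map_lcs_mem {P : Type*} [Group P] (α : P →* P) (k : ℕ) :
    ∀ x ∈ (⊤ : Subgroup P).lowerCentralSeries k, α x ∈ (⊤ : Subgroup P).lowerCentralSeries k := by
  intro x hx
  have h1 : α x ∈ ((⊤ : Subgroup P).lowerCentralSeries k).map α := ⟨x, hx, rfl⟩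
  rw [Subgroup.map_lowerCentralSeries] at h1
  exact Subgroup.lowerCentralSeries_mono _ le_top h1

/-- The order of the `(h + 1)`-st lower central factor is bounded. -/
theorem relIndex_lcs_le {P : Type u} [Group P] [Finite P] {p : ℕ} [Fact p.Prime]
    (hP : IsPGroup p P) (α : P →* P) (hα : ∀ x, (⇑α)^[p] x = x) (n : ℕ)
    (hn : Nat.card {x : P // α x = x} ≤ p ^ n) :
    ((⊤ : Subgroup P).lowerCentralSeries (hk p + 1)).relIndex
      ((⊤ : Subgroup P).lowerCentralSeries (hk p)) ≤ p ^ (n * p * (n + (hk p + 1))) := by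
  have hp : p.Prime := Fact.out
  set h := hk p with hh
  set S := lcsSeries P with hS
  have key := group_core (G := P) (p := p) h (fun V _ F hF h0 => flcs_eq_bot F hF h0) α hα (p ^ n)
    (fun k x _ hx' => pow_mem_of_twisted hP α n hn _ (map_lcs_mem α (k + 1)) x hx')
  rw [← pow_add] at key
  set c := n + (h + 1) with hc
  have hαS : ∀ k, ∀ x ∈ S.H k, α x ∈ S.H k := fun k x hx => map_lcs_mem α (k - 1) x hx
  -- the additive group `W`
  let W := S.W (h + 1)
  have hfin : Finite W := by
    have : Finite (S.Q (h + 1)) :=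
      inferInstanceAs (Finite (↥(S.H (h + 1)) ⧸ (S.H (h + 1 + 1)).subgroupOf (S.H (h + 1))))
    exact inferInstanceAs (Finite (Additive (S.Q (h + 1))))
  let a : AddMonoid.End W :=
    { toFun := S.mapW α (h + 1)
      map_zero' := by
        have h1 := S.mapW_add hαS (h + 1) 0 0
        rw [add_zero] at h1
        exact left_eq_add.mp h1
      map_add' := S.mapW_add hαS (h + 1) }
  -- fixed points of `a`
  have hfix : Nat.card {w : W // a w = w} ≤ p ^ n := by
    let H := S.H (h + 1)
    let α' : H →* H := (α.comp H.subtype).codRestrict H (fun x => hαS _ x.1 x.2)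
    let π : H →* S.Q (h + 1) :=
      show H →* S.Q (h + 1) from QuotientGroup.mk' ((S.H (h + 1 + 1)).subgroupOf (S.H (h + 1)))
    have hπ : Function.Surjective π := QuotientGroup.mk'_surjective _
    have hcls : ∀ x : H, Additive.ofMul (π x) = S.cls (h + 1) (x : P) := fun x =>
      (S.cls_of_mem x.2).symm
    have h1 := card_fixed_le_of_surjective π hπ α'
      (fun q => Additive.toMul (a (Additive.ofMul q))) (fun x => by
        apply Additive.ofMul.injective
        rw [hcls, ofMul_toMul, hcls]
        exact S.mapW_cls hαS x.2)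
    have h2 : Nat.card {w : W // a w = w} =
        Nat.card {q : S.Q (h + 1) // Additive.toMul (a (Additive.ofMul q)) = q} := rfl
    rw [h2]
    exact (h1.trans (card_fix_restrict α H (fun x hx => hαS _ x hx))).trans hn
  -- exponent
  have hexp : ∀ w : W, p ^ c • w = 0 := by
    intro w
    rw [← S.cls_rep w, ← S.cls_pow (S.rep_mem w)]
    exact S.cls_eq_zero (key _ (S.rep_mem w))
  -- the iterates of `a`
  have hap : ∀ w : W, (⇑a)^[p] w = w := by
    intro w
    have h1 := S.mapW_iterate hαS (h + 1) p (S.rep_mem w)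
    rw [S.cls_rep w, hα, S.cls_rep w] at h1
    exact h1
  -- elements of order `p`
  let V : AddSubgroup W :=
    { carrier := {w | p • w = 0}
      add_mem' := by
        intro x y hx hy
        have hx' : p • x = 0 := hx
        have hy' : p • y = 0 := hy
        change p • (x + y) = 0
        rw [smul_add, hx', hy', add_zero]
      zero_mem' := smul_zero p
      neg_mem' := by
        intro x hx
        have hx' : p • x = 0 := hx
        change p • (-x) = 0
        rw [smul_neg, hx', neg_zero] }
  have hVa : ∀ v : V, a (v : W) ∈ V := by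
    intro v
    have hv : p • (v : W) = 0 := v.2
    change p • (a (v : W)) = 0
    rw [← map_nsmul, hv, map_zero]
  let b : AddMonoid.End V :=
    { toFun := fun v => ⟨a (v : W), hVa v⟩
      map_zero' := Subtype.ext (map_zero a)
      map_add' := fun x y => Subtype.ext (map_add a (x : W) (y : W)) }
  have hbp : b ^ p = 1 := by
    have h1 : ∀ m : ℕ, ∀ v : V, (((b ^ m) v : V) : W) = (⇑a)^[m] (v : W) := by
      intro m
      induction m with
      | zero => intro v; rfl
      | succ m ih =>
        intro v
        rw [pow_succ, Function.iterate_succ_apply]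
        exact ih (b v)
    ext v
    exact (h1 p v).trans (hap v)
  have hVcard : Nat.card V ≤ (p ^ n) ^ p := by
    refine (card_le_card_fixed_pow (fun v => Subtype.ext v.2) b hbp).trans ?_
    refine Nat.pow_le_pow_left (le_trans ?_ hfix) p
    refine Nat.card_le_card_of_injective
      (fun v => (⟨(v.1 : W), congrArg Subtype.val v.2⟩ : {w : W // a w = w})) ?_
    intro x y hxy
    have h1 : ((x.1 : V) : W) = ((y.1 : V) : W) := (Subtype.mk.injEq _ _ _ _).mp hxy
    exact Subtype.ext (Subtype.ext h1)
  -- multiplication by `p`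
  let f : AddMonoid.End W := (p : AddMonoid.End W)
  have hf : ∀ w : W, f w = p • w := fun w => AddMonoid.End.natCast_apply p w
  have hWcard : Nat.card W ≤ ((p ^ n) ^ p) ^ c := by
    have h1 := card_ker_pow_le f c
    have h2 : Nat.card {x : W // (f ^ c) x = 0} = Nat.card W := by
      apply Nat.card_congr
      apply Equiv.subtypeUnivEquiv
      intro w
      have h3 : f ^ c = ((p ^ c : ℕ) : AddMonoid.End W) := by
        rw [Nat.cast_pow]
      rw [h3, AddMonoid.End.natCast_apply]
      exact hexp w
    have h3 : Nat.card {x : W // f x = 0} = Nat.card V := by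
      apply Nat.card_congr
      apply Equiv.subtypeEquivRight
      intro w
      rw [hf]
      exact Iff.rfl
    rw [h2, h3] at h1
    exact h1.trans (Nat.pow_le_pow_left hVcard c)
  have hidx : ((⊤ : Subgroup P).lowerCentralSeries (h + 1)).relIndex
      ((⊤ : Subgroup P).lowerCentralSeries h) = Nat.card W := rfl
  rw [hidx]
  refine hWcard.trans (le_of_eq ?_)
  rw [← pow_mul, ← pow_mul, mul_assoc]

/-- **Alperin's theorem** for `p`-groups. -/
theorem derivedSeries_eq_bot_of_pgroup {P : Type u} [Group P] [Finite P] {p : ℕ} [Fact p.Prime]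
    (hP : IsPGroup p P) (α : P →* P) (hα : ∀ x, (⇑α)^[p] x = x) (n : ℕ)
    (hn : Nat.card {x : P // α x = x} ≤ p ^ n) :
    derivedSeries P (n * p * (n + (hk p + 1)) + (hk p + 1)) = ⊥ := by
  have hp : p.Prime := Fact.out
  set e := n * p * (n + (hk p + 1)) with he
  set N := derivedSeries P e with hN
  have hNα : ∀ x ∈ N, α x ∈ N := by
    intro x hx
    exact map_derivedSeries_le_derivedSeries α e ⟨x, hx, rfl⟩
  let α' : N →* N := (α.comp N.subtype).codRestrict N (fun x => hNα x.1 x.2)
  have h1 := relIndex_lcs_le (hP.to_subgroup N) α' (iterate_mem_fix α N hNα p hα) n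
    ((card_fix_restrict α N hNα).trans hn)
  rw [← Subgroup.relIndex_map_map_of_injective _ _ N.subtype_injective,
    Subgroup.top_subtype_lowerCentralSeries, Subgroup.top_subtype_lowerCentralSeries, ← he] at h1
  have hNn : N.Normal := inferInstance
  have h2 : N ≤ (⊤ : Subgroup P).lowerCentralSeries (2 ^ e - 1) := derivedSeries_le_lcs e
  have hlt : e < 2 ^ e := Nat.lt_two_pow_self
  have h3 : N.lowerCentralSeries (hk p + 1) = ⊥ := by
    by_contra hne
    have h4 := Cfsg.Agent.S3781.result hP (2 ^ e) (Nat.one_le_two_pow) N h2 (hk p + 1)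
      (by have := hk_pos hp; omega) hne
    rw [Nat.add_sub_cancel] at h4
    have h5 := h4.trans h1
    have h6 := (Nat.pow_le_pow_iff_right hp.one_lt).mp h5
    omega
  have h4 : ∀ k : ℕ, derivedSeries P (e + k) ≤ N.lowerCentralSeries k := by
    intro k
    induction k with
    | zero => exact le_rfl
    | succ k ih =>
      rw [← add_assoc, derivedSeries_succ, Subgroup.lowerCentralSeries_succ]
      refine Subgroup.commutator_mono ih ?_
      exact derivedSeries_antitone _ (Nat.le_add_right e k)
  rw [← le_bot_iff, ← h3]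
  exact h4 _

end Cfsg.Agent.H449
end

-- part: S3782
section
set_option autoImplicit false
open Cfsg

namespace Cfsg.Agent.S3782

open Cfsg.Agent.H449

/-- A finite solvable group of order at most `M` has derived length at most `M`. -/
theorem derivedSeries_eq_bot_of_card {Q : Type*} [Group Q] [Finite Q]
    (hQ : Group.IsSolvable Q) (M : ℕ) (hM : Nat.card Q ≤ M) : derivedSeries Q M = ⊥ := by
  obtain ⟨n, hn⟩ := (Group.isSolvable_def Q).mp hQ
  have key : ∀ k : ℕ, derivedSeries Q k = ⊥ ∨ k + Nat.card (derivedSeries Q k) ≤ Nat.card Q := by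
    intro k
    induction k with
    | zero => right; simp
    | succ k ih =>
      rcases ih with ih | ih
      · left
        have := derivedSeries_antitone Q (Nat.le_succ k)
        rw [ih] at this
        exact le_bot_iff.mp this
      · by_cases hb : derivedSeries Q k = ⊥
        · left
          have := derivedSeries_antitone Q (Nat.le_succ k)
          rw [hb] at this
          exact le_bot_iff.mp this
        · right
          have hle := derivedSeries_antitone Q (Nat.le_succ k)
          have hlt : Nat.card (derivedSeries Q (k + 1)) < Nat.card (derivedSeries Q k) := by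
            by_contra hnot
            have heq : derivedSeries Q (k + 1) = derivedSeries Q k :=
              Subgroup.eq_of_le_of_card_ge hle (not_lt.mp hnot)
            have h1 : ∀ m, derivedSeries Q (k + m) = derivedSeries Q k := by
              intro m
              induction m with
              | zero => rfl
              | succ m ih2 => rw [← add_assoc, derivedSeries_succ, ih2, ← derivedSeries_succ, heq]
            have h2 := derivedSeries_antitone Q (Nat.le_add_left n k)
            rw [h1 n, hn] at h2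
            exact hb (le_bot_iff.mp h2)
          omega
  rcases key M with h | h
  · exact h
  · have h1 : 0 < Nat.card (derivedSeries Q M) := Nat.card_pos
    omega

/-- `G^(m + k) ≤ N^(k)` if `G^(m) ≤ N`. -/
theorem derivedSeries_add_le {G : Type*} [Group G] (N : Subgroup G) (m : ℕ)
    (h : derivedSeries G m ≤ N) (k : ℕ) :
    derivedSeries G (m + k) ≤ (derivedSeries N k).map N.subtype := by
  induction k with
  | zero =>
    rw [derivedSeries_zero, ← MonoidHom.range_eq_map, N.range_subtype]
    exact h
  | succ k ih =>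
    rw [← add_assoc, derivedSeries_succ, derivedSeries_succ, Subgroup.map_commutator]
    exact Subgroup.commutator_mono ih ih

/-- The `p'`-core is characteristic. -/
theorem map_pPrimeCore {G : Type*} [Group G] [Finite G] (p : ℕ) (α : G ≃* G) :
    ∀ x ∈ pPrimeCore p G, α x ∈ pPrimeCore p G := by
  intro x hx
  have hn := Cfsg.Agent.Lib.HallHigman.pPrimeCore_normal (G := G) p
  have h1 : ((pPrimeCore p G).map (α : G →* G)).Normal :=
    hn.map _ α.surjective
  have h2 : Nat.card ((pPrimeCore p G).map (α : G →* G)) = Nat.card (pPrimeCore p G) :=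
    Nat.card_congr ((pPrimeCore p G).equivMapOfInjective _ α.injective).toEquiv.symm
  have h3 := Cfsg.Agent.Lib.HallHigman.pPrimeCore_coprime (G := G) p
  rw [← h2] at h3
  exact Cfsg.Agent.Lib.HallHigman.le_pPrimeCore h1 h3 ⟨x, hx, rfl⟩

/-- Hall–Higman: bound for the group above its `p`-core. -/
theorem derivedSeries_le_pCore {G : Type*} [Group G] [Finite G] (hG : Group.IsSolvable G)
    {p : ℕ} [Fact p.Prime] (h : pPrimeCore p G = ⊥) (M : ℕ)
    (hM : Nat.card (pCore p G ⧸ frattini (pCore p G)) ≤ M) :
    derivedSeries G M.factorial ≤ pCore p G := by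
  have hp : p.Prime := Fact.out
  have hPn : (pCore p G).Normal := Cfsg.Agent.Lib.HallHigman.pCore_normal p
  have hPp := Cfsg.Agent.Lib.HallHigman.pCore_isPGroup (G := G) p
  have hC := Cfsg.Agent.Lib.HallHigman.centralizer_pCore_le_of_solvable (G := G) p h
  set P := pCore p G with hP
  have hconj : ∀ g : G, (frattini P).map ((MulAut.conjNormal g : MulAut P) : P →* P) =
      frattini P := by
    intro g
    exact Subgroup.characteristic_iff_map_eq.mp inferInstance (MulAut.conjNormal g : MulAut P)
  let ρ : G →* MulAut (P ⧸ frattini P) :=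
    { toFun := fun g => QuotientGroup.congr (frattini P) (frattini P) (MulAut.conjNormal g) (hconj g)
      map_one' := by
        ext x
        obtain ⟨x, rfl⟩ := QuotientGroup.mk_surjective x
        change ((MulAut.conjNormal (1 : G) x : P) : P ⧸ frattini P) = _
        rw [map_one]; rfl
      map_mul' := by
        intro g g'
        ext x
        obtain ⟨x, rfl⟩ := QuotientGroup.mk_surjective x
        change ((MulAut.conjNormal (g * g') x : P) : P ⧸ frattini P) = _
        rw [map_mul]; rfl }
  have hρ : ∀ g : G, ρ g = 1 → ∀ x : P, x⁻¹ * MulAut.conjNormal g x ∈ frattini P := by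
    intro g hg x
    have h1 : ρ g (x : P ⧸ frattini P) = (x : P ⧸ frattini P) := by rw [hg]; rfl
    have h2 : ((MulAut.conjNormal g x : P) : P ⧸ frattini P) = (x : P ⧸ frattini P) := h1
    exact QuotientGroup.eq.mp h2.symm
  -- the kernel is contained in `P`
  have hker : ρ.ker ≤ P := by
    have hkp : IsPGroup p ρ.ker := by
      rw [IsPGroup.iff_card]
      by_contra hno
      push Not at hno
      obtain ⟨r, hr, hrd, hrp⟩ : ∃ r : ℕ, r.Prime ∧ r ∣ Nat.card ρ.ker ∧ r ≠ p := by
        by_contra hall
        push Not at hall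
        have h1 : ∀ {d : ℕ}, d.Prime → d ∣ Nat.card ρ.ker → d = p := fun hd hd' => hall _ hd hd'
        exact hno _ (Nat.eq_prime_pow_of_unique_prime_dvd Nat.card_pos.ne' h1)
      have : Fact r.Prime := ⟨hr⟩
      obtain ⟨y, hy⟩ := exists_prime_orderOf_dvd_card' r hrd
      have hy' : orderOf (y : G) = r := by rw [← hy]; exact Subgroup.orderOf_coe y
      have h2 : Subgroup.zpowers (y : G) ≤ Subgroup.centralizer (P : Set G) := by
        apply Cfsg.Agent.S0029.result
        · exact le_top.trans (Subgroup.normalizer_eq_top_iff.mpr hPn).ge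
        · rw [Nat.card_zpowers, hy']
          obtain ⟨k, hk⟩ := (IsPGroup.iff_card).mp (hPp.to_subgroup (frattini P))
          rw [hk]
          exact Nat.Coprime.pow_right k ((Nat.coprime_primes hr hp).mpr hrp)
        · intro a ha k hk
          have ha' : a ∈ ρ.ker := (Subgroup.zpowers_le.mpr y.2) ha
          have h3 := hρ a ha' ⟨k⁻¹, inv_mem hk⟩
          refine ⟨_, (frattini P).inv_mem h3, ?_⟩
          simp [MulAut.conjNormal_apply, mul_assoc]
      have h3 : (y : G) ∈ P := hC (h2 (Subgroup.mem_zpowers _))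
      obtain ⟨k, hk⟩ := hPp ⟨(y : G), h3⟩
      have h4 : (y : G) ^ p ^ k = 1 := congrArg Subtype.val hk
      have h5 : r ∣ p ^ k := by rw [← hy']; exact orderOf_dvd_of_pow_eq_one h4
      exact hrp ((Nat.prime_dvd_prime_iff_eq hr hp).mp (hr.dvd_of_dvd_pow h5))
    exact Cfsg.Agent.Lib.HallHigman.le_pCore inferInstance hkp
  refine le_trans ?_ hker
  have hcard : Nat.card ρ.range ≤ M.factorial := by
    have h1 : Nat.card ρ.range ≤ Nat.card (MulAut (P ⧸ frattini P)) :=
      Nat.card_le_card_of_injective _ ρ.range.subtype_injective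
    have h2 : Nat.card (MulAut (P ⧸ frattini P)) ≤ Nat.card (Equiv.Perm (P ⧸ frattini P)) :=
      Nat.card_le_card_of_injective _ (MulEquiv.toEquiv_injective)
    rw [Nat.card_perm] at h2
    exact h1.trans (h2.trans (Nat.factorial_le hM))
  have hsol : Group.IsSolvable ρ.range := Group.isSolvable_of_surjective ρ.rangeRestrict_surjective
  have h1 := derivedSeries_eq_bot_of_card hsol _ hcard
  have h2 := map_derivedSeries_le_derivedSeries ρ.rangeRestrict M.factorial
  rw [h1, le_bot_iff, Subgroup.map_eq_bot_iff, MonoidHom.ker_rangeRestrict] at h2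
  exact h2

/-- The restriction of an automorphism to an invariant subgroup. -/
noncomputable def restr {G : Type*} [Group G] [Finite G] (α : G ≃* G) (H : Subgroup G)
    (hH : ∀ x ∈ H, α x ∈ H) : H ≃* H :=
  MulEquiv.ofBijective (((α : G →* G).comp H.subtype).codRestrict H (fun x => hH x.1 x.2)) (by
    rw [← Finite.injective_iff_bijective]
    intro a b hab
    exact Subtype.ext (α.injective (congrArg Subtype.val hab)))

theorem restr_apply {G : Type*} [Group G] [Finite G] (α : G ≃* G) (H : Subgroup G)
    (hH : ∀ x ∈ H, α x ∈ H) (x : H) : (restr α H hH x : G) = α x := rfl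

theorem restr_iterate {G : Type*} [Group G] [Finite G] (α : G ≃* G) (H : Subgroup G)
    (hH : ∀ x ∈ H, α x ∈ H) (m : ℕ) (hm : ∀ x, (⇑α)^[m] x = x) (x : H) :
    (⇑(restr α H hH))^[m] x = x := by
  have h1 : ∀ m : ℕ, ∀ x : H, (((⇑(restr α H hH))^[m] x : H) : G) = (⇑α)^[m] x := by
    intro m
    induction m with
    | zero => intro x; rfl
    | succ m ih => intro x; rw [Function.iterate_succ_apply, ih, Function.iterate_succ_apply]; rfl
  exact Subtype.ext ((h1 m x).trans (hm _))

theorem card_fix_restr {G : Type*} [Group G] [Finite G] (α : G ≃* G) (H : Subgroup G)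
    (hH : ∀ x ∈ H, α x ∈ H) :
    Nat.card {x : H // restr α H hH x = x} ≤ Nat.card {x : G // α x = x} := by
  refine Nat.card_le_card_of_injective
    (fun x => (⟨(x.1 : G), congrArg Subtype.val x.2⟩ : {x : G // α x = x})) ?_
  intro a b hab
  have h1 : ((a.1 : H) : G) = ((b.1 : H) : G) := (Subtype.mk.injEq _ _ _ _).mp hab
  exact Subtype.ext (Subtype.ext h1)

theorem pow_eq_one_of_iterate {G : Type*} [Group G] (α : MulAut G) (m : ℕ)
    (hm : ∀ x, (⇑α)^[m] x = x) : α ^ m = 1 := by
  have h1 : ∀ m : ℕ, ∀ x, (⇑α)^[m] x = (α ^ m) x := by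
    intro m
    induction m with
    | zero => intro x; rfl
    | succ m ih => intro x; rw [Function.iterate_succ_apply', ih, pow_succ']; rfl
  ext x
  rw [← h1, hm]; rfl

theorem iterate_of_orderOf {G : Type*} [Group G] (α : MulAut G) (m : ℕ)
    (hm : orderOf α = m) (x : G) : (⇑α)^[m] x = x := by
  have h1 : ∀ m : ℕ, ∀ x, (⇑α)^[m] x = (α ^ m) x := by
    intro m
    induction m with
    | zero => intro x; rfl
    | succ m ih => intro x; rw [Function.iterate_succ_apply', ih, pow_succ']; rfl
  rw [h1, ← hm, pow_orderOf_eq_one]; rfl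

/-- The `p'`-core. -/
theorem derivedSeries_pPrimeCore {G : Type*} [Group G] [Finite G] {p : ℕ} (hp : p.Prime)
    (α : MulAut G) (hα : ∀ x, (⇑α)^[p] x = x) (n : ℕ)
    (hn : Nat.card {g : G // α g = g} = p ^ n) :
    derivedSeries (pPrimeCore p G) (hk p) = ⊥ := by
  have : Fact p.Prime := ⟨hp⟩
  have hO := map_pPrimeCore p (G := G) α
  have hcop := Cfsg.Agent.Lib.HallHigman.pPrimeCore_coprime (G := G) p
  set O := pPrimeCore p G with hOdef
  let a : MulAut O := restr α O hO
  have hfpf : ∀ g : O, a g = g → g = 1 := by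
    intro g hg
    have h1 : α (g : G) = g := congrArg Subtype.val hg
    let F : Subgroup G := (α : G →* G).eqLocus (MonoidHom.id _)
    have h2 : Nat.card F = p ^ n := hn
    have h3 : (g : G) ^ p ^ n = 1 := by
      rw [← h2]
      exact congrArg Subtype.val (pow_card_eq_one' (x := (⟨(g : G), h1⟩ : F)))
    have h4 : (orderOf g) ∣ p ^ n := by
      rw [← Subgroup.orderOf_coe]
      exact orderOf_dvd_of_pow_eq_one h3
    have h5 : (orderOf g) ∣ Nat.card O := orderOf_dvd_natCard g
    have h6 := Nat.eq_one_of_dvd_coprimes (hcop.pow_right n) h5 h4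
    exact orderOf_eq_one_iff.mp h6
  have hap : a ^ p = 1 := pow_eq_one_of_iterate a p (restr_iterate α O hO p hα)
  have hdvd : orderOf a ∣ p := orderOf_dvd_of_pow_eq_one hap
  rcases (Nat.dvd_prime hp).mp hdvd with h1 | h1
  · have h2 : a = 1 := orderOf_eq_one_iff.mp h1
    have h3 : ∀ g : O, g = 1 := fun g => hfpf g (by rw [h2]; rfl)
    rw [eq_bot_iff]
    intro x _
    exact Subgroup.mem_bot.mpr (h3 x)
  · have h2 := (Cfsg.Agent.S3779.result hp a h1 hfpf).2.2
    rw [← le_bot_iff, ← h2]
    exact Subgroup.derived_le_lower_central _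

/-- The quotient of the `p`-core by its Frattini subgroup. -/
theorem card_frattini_quotient_le {P : Type*} [Group P] [Finite P] {p : ℕ} [Fact p.Prime]
    (hP : IsPGroup p P) (b : P ≃* P) (hb : ∀ x, (⇑b)^[p] x = x) (n : ℕ)
    (hn : Nat.card {x : P // b x = x} ≤ p ^ n) :
    Nat.card (P ⧸ frattini P) ≤ p ^ (n * p) := by
  have hmap : frattini P ≤ (frattini P).comap (b : P →* P) := by
    have h1 : (frattini P).comap (b : P →* P) = frattini P :=
      Subgroup.characteristic_iff_comap_eq.mp inferInstance b
    rw [h1]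
  let β : P ⧸ frattini P →* P ⧸ frattini P := QuotientGroup.map _ _ (b : P →* P) hmap
  have h1 : Nat.card {q : P ⧸ frattini P // β q = q} ≤ p ^ n :=
    (card_fixed_le_of_surjective (QuotientGroup.mk' (frattini P))
      (QuotientGroup.mk'_surjective _) (b : P →* P) β (fun _ => rfl)).trans hn
  letI : CommGroup (P ⧸ frattini P) :=
    { (inferInstance : Group (P ⧸ frattini P)) with
      mul_comm := by
        intro x y
        obtain ⟨x, rfl⟩ := QuotientGroup.mk_surjective x
        obtain ⟨y, rfl⟩ := QuotientGroup.mk_surjective y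
        change ((x * y : P) : P ⧸ frattini P) = ((y * x : P) : P ⧸ frattini P)
        rw [QuotientGroup.eq]
        have h2 := Cfsg.Agent.Lib.FrattiniPGroup.commutator_mem_frattini hP y⁻¹ x⁻¹
        rw [commutatorElement_def] at h2
        have h3 : (x * y)⁻¹ * (y * x) = y⁻¹ * x⁻¹ * y⁻¹⁻¹ * x⁻¹⁻¹ := by group
        rw [h3]
        exact h2 }
  let A := Additive (P ⧸ frattini P)
  let a : AddMonoid.End A := MonoidHom.toAdditive β
  have hA : ∀ v : A, p • v = 0 := by
    intro v
    obtain ⟨x, hx⟩ := QuotientGroup.mk_surjective (Additive.toMul v)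
    apply Additive.toMul.injective
    rw [toMul_nsmul, toMul_zero, ← hx]
    exact (QuotientGroup.eq_one_iff (x ^ p)).mpr (Cfsg.Agent.Lib.FrattiniPGroup.pow_mem_frattini hP x)
  have ha : a ^ p = 1 := by
    have hpow : ∀ (k : ℕ) (x : P), (a ^ k) (Additive.ofMul (x : P ⧸ frattini P)) =
        Additive.ofMul ((((⇑b)^[k] x : P)) : P ⧸ frattini P) := by
      intro k
      induction k with
      | zero => intro x; rfl
      | succ k ih =>
        intro x
        rw [pow_succ, Function.iterate_succ_apply]
        exact ih (b x)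
    ext v
    obtain ⟨x, hx⟩ := QuotientGroup.mk_surjective (Additive.toMul v)
    have hv : v = Additive.ofMul (x : P ⧸ frattini P) := by rw [hx]; rfl
    rw [hv, hpow, hb]
    rfl
  have h2 := card_le_card_fixed_pow hA a ha
  have h4 : Nat.card {v : A // a v = v} = Nat.card {q : P ⧸ frattini P // β q = q} := rfl
  rw [h4] at h2
  refine h2.trans ((Nat.pow_le_pow_left h1 p).trans (le_of_eq ?_))
  rw [← pow_mul]

/-- Alperin's Theorem: for each prime p and each n ≥ 0 there is an integer l such that every finite solvable group admitting an automorphism of order p with exactly p^n fixed points has derived length at most l. -/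
theorem result (p : ℕ) (hp : p.Prime) (n : ℕ) : ∃ l : ℕ, ∀ (G : Type) [Group G] [Finite G], Group.IsSolvable G → ∀ α : MulAut G, orderOf α = p → Nat.card {g : G // α g = g} = p ^ n → derivedSeries G l = ⊥ := by
  have : Fact p.Prime := ⟨hp⟩
  refine ⟨(p ^ (n * p)).factorial + (n * p * (n + (hk p + 1)) + (hk p + 1)) + hk p, ?_⟩
  intro G _ _ hG α hα hn
  have hα' : ∀ x, (⇑α)^[p] x = x := iterate_of_orderOf α p hα
  have hO := map_pPrimeCore p (G := G) α
  have hOd := derivedSeries_pPrimeCore hp α hα' n hn
  have hON := Cfsg.Agent.Lib.HallHigman.pPrimeCore_normal (G := G) p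
  set O := pPrimeCore p G with hOdef
  -- the quotient by the `p'`-core
  have hOmap : O.map (α : G →* G) = O := by
    apply Subgroup.eq_of_le_of_card_ge
    · rintro _ ⟨x, hx, rfl⟩
      exact hO x hx
    · exact (Nat.card_congr (O.equivMapOfInjective _ α.injective).toEquiv).le
  let β : G ⧸ O ≃* G ⧸ O := QuotientGroup.congr O O α hOmap
  have hβ : ∀ x, (⇑β)^[p] x = x := by
    have h1 : ∀ m : ℕ, ∀ x : G, (⇑β)^[m] (x : G ⧸ O) = (((⇑α)^[m] x : G) : G ⧸ O) := by
      intro m
      induction m with
      | zero => intro x; rfl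
      | succ m ih =>
        intro x
        rw [Function.iterate_succ_apply, Function.iterate_succ_apply]
        exact ih (α x)
    intro x
    obtain ⟨x, rfl⟩ := QuotientGroup.mk_surjective x
    rw [h1, hα']
  have hβn : Nat.card {x : G ⧸ O // β x = x} ≤ p ^ n := by
    rw [← hn]
    exact card_fixed_le_of_surjective (QuotientGroup.mk' O) (QuotientGroup.mk'_surjective O)
      (α : G →* G) (⇑β) (fun _ => rfl)
  have hsol : Group.IsSolvable (G ⧸ O) :=
    Group.isSolvable_of_surjective (QuotientGroup.mk'_surjective O)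
  have hcore : pPrimeCore p (G ⧸ O) = ⊥ :=
    Cfsg.Agent.Lib.HallHigman.pPrimeCore_quotient_eq_bot p O rfl
  have hPn := Cfsg.Agent.Lib.HallHigman.pCore_normal (G := G ⧸ O) p
  have hPp := Cfsg.Agent.Lib.HallHigman.pCore_isPGroup (G := G ⧸ O) p
  have hPβ : ∀ x ∈ pCore p (G ⧸ O), β x ∈ pCore p (G ⧸ O) := by
    intro x hx
    have h1 : ((pCore p (G ⧸ O)).map (β : G ⧸ O →* G ⧸ O)).Normal := hPn.map _ β.surjective
    exact Cfsg.Agent.Lib.HallHigman.le_pCore h1 (hPp.map _) ⟨x, hx, rfl⟩
  set P := pCore p (G ⧸ O) with hPdef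
  let b : P ≃* P := restr β P hPβ
  have hb : ∀ x, (⇑b)^[p] x = x := restr_iterate β P hPβ p hβ
  have hbn : Nat.card {x : P // b x = x} ≤ p ^ n := (card_fix_restr β P hPβ).trans hβn
  have h1 := derivedSeries_le_pCore hsol hcore (p ^ (n * p))
    (card_frattini_quotient_le hPp b hb n hbn)
  have h2 := derivedSeries_eq_bot_of_pgroup hPp (b : P →* P) hb n hbn
  have h3 := derivedSeries_add_le P _ h1 (n * p * (n + (hk p + 1)) + (hk p + 1))
  rw [h2, Subgroup.map_bot, le_bot_iff] at h3
  have h4 := map_derivedSeries_le_derivedSeries (QuotientGroup.mk' O)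
    ((p ^ (n * p)).factorial + (n * p * (n + (hk p + 1)) + (hk p + 1)))
  rw [h3, le_bot_iff, Subgroup.map_eq_bot_iff, QuotientGroup.ker_mk'] at h4
  have h5 := derivedSeries_add_le O _ h4 (hk p)
  rw [hOd, Subgroup.map_bot, le_bot_iff] at h5
  exact h5

end Cfsg.Agent.S3782
end
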