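import Cfsg.Statements.S3785
import Cfsg.Agent.OddOrderLocal.ActFitting
import Cfsg.Agent.Lib.CoprimeStab
set_option linter.all false

set_option autoImplicit false
open Cfsg

namespace Cfsg.Agent.S3785

/-- Let G be a finite solvable group whose Fitting subgroup F(G) has odd order. If an element g of G commutes with every element of prime order of F(G), then g ∈ F(G). -/
theorem result {G : Type*} [Group G] [Finite G] (hG : Group.IsSolvable G) (hodd : Odd (Nat.card (Cfsg.fittingSubgroup G))) (g : G) (hg : ∀ x ∈ Cfsg.fittingSubgroup G, (orderOf x).Prime → g * x = x * g) : g ∈ Cfsg.fittingSubgroup G := by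
  classical
  haveI : Group.IsSolvable G := hG
  let S : Set G := {x : G | x ∈ Cfsg.fittingSubgroup G ∧ (orderOf x).Prime}
  let K : Subgroup G := Subgroup.centralizer S
  haveI hFn : (Cfsg.fittingSubgroup G).Normal := Lib.Cores.fittingSubgroup_normal
  have hK : K.Normal := by
    refine ⟨fun n hn g => ?_⟩
    rw [Subgroup.mem_centralizer_iff] at hn ⊢
    rintro x ⟨hx, hxp⟩
    have h1 : g⁻¹ * x * g ∈ S := by
      refine ⟨?_, ?_⟩
      · have := hFn.conj_mem x hx g⁻¹
        simpa using this
      · have h2 : orderOf (g⁻¹ * x * g) = orderOf x := by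
          have := orderOf_injective (MulAut.conj g⁻¹).toMonoidHom (MulAut.conj g⁻¹).injective x
          simpa using this
        rw [h2]; exact hxp
    have h2 := hn _ h1
    calc x * (g * n * g⁻¹) = g * ((g⁻¹ * x * g) * n) * g⁻¹ := by group
      _ = g * (n * (g⁻¹ * x * g)) * g⁻¹ := by rw [h2]
      _ = g * n * g⁻¹ * x := by group
  have hgK : g ∈ K := by
    rw [Subgroup.mem_centralizer_iff]
    rintro x ⟨hx, hxp⟩
    exact (hg x hx hxp).symm
  refine OddOrderLocal.ActFitting.le_fitting_of_acts K hK ?_ hgK
  intro r hr y hy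
  refine ⟨(orderOf y).factorization r, ?_⟩
  set z : G := y ^ r ^ (orderOf y).factorization r with hz
  have hzK : z ∈ K := K.pow_mem hy _
  have hzord : (orderOf z).Coprime r := by
    rw [hz, orderOf_pow' y (pow_ne_zero _ hr.out.ne_zero)]
    have h1 : Nat.gcd (orderOf y) (r ^ (orderOf y).factorization r) = r ^ (orderOf y).factorization r :=
      Nat.gcd_eq_right (Nat.ordProj_dvd _ _)
    rw [h1]
    exact (Nat.coprime_ordCompl hr.out (orderOf_pos y).ne').symm
  have hple : Cfsg.pCore r G ≤ Cfsg.fittingSubgroup G := Lib.Cores.pCore_le_fittingSubgroup r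
  have hpp : IsPGroup r (Cfsg.pCore r G) := Lib.Cores.pCore_isPGroup r
  by_cases hr2 : r = 2
  · -- `O_2(G) = 1`
    have h1 : Nat.card (Cfsg.pCore r G) ∣ Nat.card (Cfsg.fittingSubgroup G) :=
      Subgroup.card_dvd_of_le hple
    obtain ⟨k, hk⟩ := IsPGroup.iff_card.mp hpp
    have hk0 : k = 0 := by
      by_contra hne
      rw [hk, hr2] at h1
      have h2 : 2 ∣ Nat.card (Cfsg.fittingSubgroup G) := (dvd_pow_self 2 hne).trans h1
      rw [Nat.odd_iff] at hodd
      omega
    rw [hk0, pow_zero] at hk
    have h3 : Cfsg.pCore r G = ⊥ := Subgroup.card_eq_one.mp hk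
    rw [h3, Subgroup.mem_centralizer_iff]
    intro x hx
    rw [SetLike.mem_coe, Subgroup.mem_bot] at hx
    rw [hx, one_mul, mul_one]
  · have h1 : Subgroup.zpowers z ≤ Subgroup.centralizer (Cfsg.pCore r G : Set G) := by
      refine Lib.CoprimeStab.le_centralizer_of_omega r hr2 (Subgroup.zpowers z)
        (by rw [Nat.card_zpowers]; exact hzord) (Cfsg.pCore r G) hpp ?_ ?_
      · haveI : (Cfsg.pCore r G).Normal := Lib.Cores.pCore_normal r
        rw [Subgroup.normalizer_eq_top]
        exact le_top
      · intro x hx hxr a ha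
        by_cases hx1 : x = 1
        · rw [hx1]; exact Commute.one_left _
        · have hxo : orderOf x = r := orderOf_eq_prime hxr hx1
          have hxS : x ∈ S := ⟨hple hx, by rw [hxo]; exact hr.out⟩
          have haK : a ∈ K := (Subgroup.zpowers_le.mpr hzK) ha
          exact Subgroup.mem_centralizer_iff.mp haK x hxS
    exact h1 (Subgroup.mem_zpowers z)

end Cfsg.Agent.S3785
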