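import Mathlib
import Cfsg.Agent.Lib.PGroupCoprimeAction
import Cfsg.Agent.PLocal.HHBMinimal
import Cfsg.Agent.PLocal.HHBClifford
import Cfsg.Agent.PLocal.HHBLinear
import Cfsg.Agent.PLocal.HHBCore
import Cfsg.Agent.Lib.FrattiniBasic
import Cfsg.Agent.Lib.FrattiniPGroup
import Cfsg.Agent.PLocal.HHBJordan
import Cfsg.Agent.H450.ExpDrop
import Cfsg.Agent.S0633
import Cfsg.Statements.S3786
set_option linter.all false

-- part: H450/Brk
section
/-!
# `[Q, z]` and `C_Q(z)` for a coprime automorphism `z` of a group of class at most two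

`Q = [Q, z] C_Q(z)`, `[Q, z] = [[Q, z], z]`, and `[Q, z]` commutes with `C_Q(z)` when `Q` has class at most two and
`z` centralizes the centre of `Q`.
-/

set_option autoImplicit false

namespace Cfsg.Agent.H450.Brk

open Subgroup
open scoped commutatorElement

variable {Q : Type*} [Group Q]

/-- `[Q, z]` -/
def brk (z : MulAut Q) : Subgroup Q := closure {w | ∃ g, w = z g * g⁻¹}

/-- the fixed points of `z` -/
def fx (z : MulAut Q) : Subgroup Q where
  carrier := {g | z g = g}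
  one_mem' := map_one z
  mul_mem' := by
    intro a b ha hb
    show z (a * b) = a * b
    rw [map_mul, show z a = a from ha, show z b = b from hb]
  inv_mem' := by
    intro a ha
    show z a⁻¹ = a⁻¹
    rw [map_inv, show z a = a from ha]

theorem mem_fx {z : MulAut Q} {g : Q} : g ∈ fx z ↔ z g = g := Iff.rfl

theorem mem_brk (z : MulAut Q) (g : Q) : z g * g⁻¹ ∈ brk z := subset_closure ⟨g, rfl⟩

theorem brk_normal (z : MulAut Q) : (brk z).Normal := by
  refine ⟨fun n hn h => ?_⟩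
  induction hn using closure_induction with
  | mem n hn =>
    obtain ⟨g, rfl⟩ := hn
    have h1 : h * (z g * g⁻¹) * h⁻¹ = (z h * h⁻¹)⁻¹ * (z (h * g) * (h * g)⁻¹) := by
      rw [map_mul]; group
    rw [h1]
    exact (brk z).mul_mem ((brk z).inv_mem (mem_brk z h)) (mem_brk z (h * g))
  | one => simp
  | mul a b _ _ ha hb =>
    have : h * (a * b) * h⁻¹ = (h * a * h⁻¹) * (h * b * h⁻¹) := by group
    rw [this]
    exact mul_mem ha hb
  | inv a _ ha =>
    have : h * a⁻¹ * h⁻¹ = (h * a * h⁻¹)⁻¹ := by group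
    rw [this]
    exact inv_mem ha

theorem brk_invariant {z σ : MulAut Q} (h : Commute z σ) {g : Q} (hg : g ∈ brk z) : σ g ∈ brk z := by
  induction hg using closure_induction with
  | mem n hn =>
    obtain ⟨g, rfl⟩ := hn
    have h1 : σ (z g) = z (σ g) := by
      have := congrArg (fun u : MulAut Q => u g) h.eq
      exact this.symm
    rw [map_mul, map_inv, h1]
    exact mem_brk z (σ g)
  | one => rw [map_one]; exact one_mem _
  | mul a b _ _ ha hb => rw [map_mul]; exact mul_mem ha hb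
  | inv a _ ha => rw [map_inv]; exact inv_mem ha

theorem fx_invariant {z σ : MulAut Q} (h : Commute z σ) {g : Q} (hg : g ∈ fx z) : σ g ∈ fx z := by
  have h1 : σ (z g) = z (σ g) := by
    have := congrArg (fun u : MulAut Q => u g) h.eq
    exact this.symm
  show z (σ g) = σ g
  rw [← h1, show z g = g from hg]

theorem exists_decomp [Finite Q] {p : ℕ} [hp : Fact p.Prime] (hQ : ¬ p ∣ Nat.card Q) (z : MulAut Q)
    (hz : z ^ p = 1) (g : Q) : ∃ a ∈ brk z, ∃ n ∈ fx z, g = a * n := by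
  have hA : IsPGroup p (zpowers z) := by
    obtain ⟨k, -, hk⟩ := (Nat.dvd_prime_pow hp.out).mp
      (show orderOf z ∣ p ^ 1 by rw [pow_one]; exact orderOf_dvd_of_pow_eq_one hz)
    exact IsPGroup.of_card (n := k) (by rw [Nat.card_zpowers, hk])
  have hN := brk_normal z
  have hst : ∀ (a : zpowers z), ∀ x : Q, g⁻¹ * x ∈ brk z → g⁻¹ * (a • x) ∈ brk z := by
    rintro ⟨a, ha⟩ x hx
    have h1 : ∀ k : ℕ, g⁻¹ * (z ^ k) x ∈ brk z := by
      intro k
      induction k with
      | zero => simpa using hx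
      | succ k ih =>
        rw [pow_succ', MulAut.mul_apply]
        have h2 : g⁻¹ * z ((z ^ k) x) =
            (g⁻¹ * (z ((z ^ k) x) * ((z ^ k) x)⁻¹) * g⁻¹⁻¹) * (g⁻¹ * (z ^ k) x) := by group
        rw [h2]
        exact mul_mem (hN.conj_mem _ (mem_brk z _) _) ih
    obtain ⟨k, rfl⟩ := mem_powers_iff_mem_zpowers.mpr ha
    exact h1 k
  obtain ⟨c, hc, hfix⟩ := Lib.PGroupCoprimeAction.exists_fixed_mem_coset (A := zpowers z) hA hQ (brk z) g hst
  have hcz : z c = c := hfix ⟨z, mem_zpowers z⟩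
  refine ⟨g * c⁻¹, ?_, c, hcz, by group⟩
  have h1 : g * c⁻¹ = g * (g⁻¹ * c)⁻¹ * g⁻¹ := by group
  rw [h1]
  exact hN.conj_mem _ (inv_mem hc) g

theorem comm {z : MulAut Q} (hcl : ∀ a b c : Q, ⁅a, b⁆ * c = c * ⁅a, b⁆) (hZ : ∀ c ∈ center Q, z c = c)
    {a : Q} (ha : a ∈ brk z) {n : Q} (hn : n ∈ fx z) : a * n = n * a := by
  have hn' : z n = n := hn
  induction ha using closure_induction with
  | mem w hw =>
    obtain ⟨g, rfl⟩ := hw
    have hc : ⁅g, n⁆ ∈ center Q := mem_center_iff.mpr fun x => (hcl g n x).symm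
    have h1 : z ⁅g, n⁆ = ⁅g, n⁆ := hZ _ hc
    rw [map_commutatorElement, hn'] at h1
    -- `[z g, n] = [g, n]`
    have h2 : z g * n = ⁅g, n⁆ * n * z g := by
      rw [← h1, commutatorElement_def]; group
    have h3 : g⁻¹ * n = n * g⁻¹ * ⁅g, n⁆⁻¹ := by
      have h4 : ⁅g, n⁆⁻¹ ∈ center Q := inv_mem hc
      have h5 := mem_center_iff.mp h4 (n * g⁻¹)
      have h6 : ⁅g, n⁆⁻¹ = g⁻¹ * ⁅g, n⁆⁻¹ * g := by
        rw [mem_center_iff.mp h4 g⁻¹]; group
      rw [h5, h6, commutatorElement_def]; group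
    have h6 := mem_center_iff.mp hc
    calc z g * g⁻¹ * n = z g * (g⁻¹ * n) := by group
      _ = z g * (n * g⁻¹ * ⁅g, n⁆⁻¹) := by rw [h3]
      _ = (z g * n) * g⁻¹ * ⁅g, n⁆⁻¹ := by group
      _ = (⁅g, n⁆ * n * z g) * g⁻¹ * ⁅g, n⁆⁻¹ := by rw [h2]
      _ = ⁅g, n⁆ * (n * (z g * g⁻¹)) * ⁅g, n⁆⁻¹ := by group
      _ = (n * (z g * g⁻¹)) * ⁅g, n⁆ * ⁅g, n⁆⁻¹ := by rw [h6]
      _ = n * (z g * g⁻¹) := by group
  | one => simp
  | mul a b _ _ ha hb => rw [mul_assoc, hb, ← mul_assoc, ha, mul_assoc]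
  | inv a _ ha =>
    have : a⁻¹ * (a * n) * a⁻¹ = a⁻¹ * (n * a) * a⁻¹ := by rw [ha]
    have h1 : a⁻¹ * (a * n) * a⁻¹ = n * a⁻¹ := by group
    have h2 : a⁻¹ * (n * a) * a⁻¹ = a⁻¹ * n := by group
    rw [h1, h2] at this
    exact this.symm

theorem brk_gen [Finite Q] {p : ℕ} [hp : Fact p.Prime] (hQ : ¬ p ∣ Nat.card Q) (z : MulAut Q)
    (hz : z ^ p = 1) : closure {w | ∃ a ∈ brk z, w = z a * a⁻¹} = brk z := by
  have h1 : {w | ∃ a ∈ brk z, w = z a * a⁻¹} = {w | ∃ g, w = z g * g⁻¹} := by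
    ext w
    constructor
    · rintro ⟨a, -, rfl⟩
      exact ⟨a, rfl⟩
    · rintro ⟨g, rfl⟩
      obtain ⟨a, ha, n, hn, rfl⟩ := exists_decomp hQ z hz g
      refine ⟨a, ha, ?_⟩
      rw [map_mul, show z n = n from hn]
      group
  rw [h1]
  rfl

/-- `C_M(z) ≤ Z(Q)` for `M = [Q, z]` -/
theorem mem_center_of_mem [Finite Q] {p : ℕ} [hp : Fact p.Prime] (hQ : ¬ p ∣ Nat.card Q) {z : MulAut Q}
    (hz : z ^ p = 1) (hcl : ∀ a b c : Q, ⁅a, b⁆ * c = c * ⁅a, b⁆) (hZ : ∀ c ∈ center Q, z c = c)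
    {a : Q} (ha : a ∈ brk z) (hfix : ∀ b ∈ brk z, b * a = a * b) : a ∈ center Q := by
  rw [mem_center_iff]
  intro g
  obtain ⟨b, hb, n, hn, rfl⟩ := exists_decomp hQ z hz g
  rw [mul_assoc, ← comm hcl hZ ha hn, ← mul_assoc, hfix b hb, mul_assoc]

end Cfsg.Agent.H450.Brk
end

-- part: H450/Iso
section
/-!
# Isotypic representations normalized by an operator: a stable irreducible subspace
-/

set_option autoImplicit false

namespace Cfsg.Agent.H450.Iso

open Cfsg.Agent.PLocal.HHBClifford Cfsg.Agent.PLocal.HHBLinear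

variable {K : Type*} [Field K] {V : Type*} [AddCommGroup V] [Module K V] {Q : Type*} [Group Q]

set_option backward.isDefEq.respectTransparency false in
/-- If `V` is isotypic for `Q` and `X` normalizes the representation then there is an `X`-stable irreducible
`Q`-submodule, and it has the same kernel as `V`. -/
theorem exists_stable_of_isotypic [IsAlgClosed K] [FiniteDimensional K V] (ρ : Q →* Module.End K V)
    (X : (Module.End K V)ˣ) (σ : MulAut Q) (hX : ∀ h, (X : Module.End K V) * ρ h = ρ (σ h) * X)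
    (U₀ : Submodule (alg ρ) V) (hU₀ : IsSimpleModule (alg ρ) U₀)
    (htop : isotypicComponent (alg ρ) V U₀ = ⊤) :
    ∃ W : Submodule K V, W ≠ ⊥ ∧ (∀ h, ∀ u ∈ W, ρ h u ∈ W) ∧
      (∀ S ≤ W, (∀ h, ∀ u ∈ S, ρ h u ∈ S) → S = ⊥ ∨ S = W) ∧
      (∀ u ∈ W, (X : Module.End K V) u ∈ W) ∧ (∀ g, (∀ u ∈ W, ρ g u = u) → ρ g = 1) := by
  have hN := nrm_alg hX
  have hθ : Nonempty (tw hN U₀ ≃ₗ[alg ρ] U₀) := by
    have h1 : IsIsotypicOfType (alg ρ) (isotypicComponent (alg ρ) V U₀) U₀ :=
      IsIsotypicOfType.isotypicComponent (alg ρ) V U₀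
    have h2 : tw hN U₀ ≤ isotypicComponent (alg ρ) V U₀ := by
      rw [htop]; exact le_top
    have h3 := isSimple_tw hN hU₀
    exact isIsotypicOfType_submodule_iff.1 h1 _ h2
  obtain ⟨θ⟩ := hθ
  obtain ⟨f, hfinj, hsimple, hfX⟩ := exists_stable hN hU₀ θ
  let e : U₀ ≃ₗ[alg ρ] LinearMap.range f := LinearEquiv.ofInjective f hfinj
  have hatom : IsAtom (LinearMap.range f) := isSimpleModule_iff_isAtom.1 hsimple
  refine ⟨(LinearMap.range f).restrictScalars K, ?_, ?_, ?_, ?_, ?_⟩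
  · intro h0
    apply hatom.1
    rw [Submodule.eq_bot_iff]
    intro v hv
    have : v ∈ (LinearMap.range f).restrictScalars K := hv
    rw [h0] at this
    exact this
  · exact fun h u hu => rho_apply_mem _ h hu
  · intro S hSU hS
    rcases (hatom.le_iff).1 (show toSub ρ S hS ≤ LinearMap.range f from hSU) with h | h
    · left
      rw [Submodule.eq_bot_iff]
      intro v hv
      have : v ∈ toSub ρ S hS := hv
      rw [h] at this
      exact this
    · right
      ext v
      have h2 : v ∈ toSub ρ S hS ↔ v ∈ LinearMap.range f := by rw [h]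
      exact h2
  · intro u hu
    exact hfX u hu
  · intro g hg
    ext v
    have hv : v ∈ isotypicComponent (alg ρ) V U₀ := by rw [htop]; trivial
    rw [isotypicComponent, sSup_eq_iSup'] at hv
    refine Submodule.iSup_induction (R := alg ρ) _ (motive := fun v => ρ g v = (1 : Module.End K V) v) hv ?_ ?_ ?_
    · rintro ⟨m, ⟨e'⟩⟩ x hx
      let E : m ≃ₗ[alg ρ] LinearMap.range f := e'.trans e
      have h1 : ρ g (E ⟨x, hx⟩ : V) = (E ⟨x, hx⟩ : V) := hg _ (E ⟨x, hx⟩).2
      have h2 := E.map_smul (⟨ρ g, rho_mem_alg ρ g⟩ : alg ρ) ⟨x, hx⟩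
      have h3 := h2.trans (show _ = E ⟨x, hx⟩ from Subtype.ext h1)
      have h4 := E.injective h3
      exact congrArg Subtype.val h4
    · show ρ g 0 = (1 : Module.End K V) 0
      rw [map_zero, map_zero]
    · intro x y hx hy
      show ρ g (x + y) = (1 : Module.End K V) (x + y)
      rw [map_add, map_add]
      exact congrArg₂ (· + ·) hx hy

/-- restriction of a representation -/
theorem exists_restrict (ρ : Q →* Module.End K V) (W : Submodule K V) (hW : ∀ h, ∀ u ∈ W, ρ h u ∈ W) :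
    ∃ ρW : Q →* Module.End K W, ∀ g (w : W), ((ρW g w : W) : V) = ρ g w := by
  refine ⟨{ toFun := fun g => (ρ g).restrict (hW g)
            map_one' := by ext x; simp
            map_mul' := by intro g h; ext x; simp }, fun g w => rfl⟩

theorem isIrr_restrict (ρ : Q →* Module.End K V) (W : Submodule K V)
    (hirr : ∀ S ≤ W, (∀ h, ∀ u ∈ S, ρ h u ∈ S) → S = ⊥ ∨ S = W) (ρW : Q →* Module.End K W)
    (hρW : ∀ g (w : W), ((ρW g w : W) : V) = ρ g w) : IsIrr ρW := by
  intro S hS
  have hinj := Submodule.map_injective_of_injective (f := W.subtype) W.injective_subtype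
  rcases hirr (S.map W.subtype) (Submodule.map_subtype_le _ _) (by
    rintro h _ ⟨u, hu, rfl⟩
    exact ⟨ρW h u, hS h u hu, hρW h u⟩) with h | h
  · left
    exact hinj (h.trans (Submodule.map_bot _).symm)
  · right
    exact hinj (h.trans (by rw [Submodule.map_top, Submodule.range_subtype]))

end Cfsg.Agent.H450.Iso
end

-- part: H450/Elem
section
/-!
# `p`-groups acting irreducibly on small elementary abelian `2`-groups

The final step in the Hall–Higman bound for Fermat primes: if a `p`-group generated by `y₁, y₂` acts irreducibly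
on an elementary abelian `2`-group `E`, `y_i` acts trivially on `E / M_i`, `|M_i| = (p^(m_i) - 1)²`, then
`y₁^(p^(m₁ - 1))` and `y₂^(p^(m₂ - 1))` commute on `E`.
-/

set_option autoImplicit false

namespace Cfsg.Agent.H450.Elem

open Subgroup MulAction
open scoped commutatorElement

/-- In a finite `p`-group a subgroup of index at most `p` contains the commutator subgroup. -/
theorem commutator_le_of_index_le {R : Type*} [Group R] [Finite R] {p : ℕ} [hp : Fact p.Prime]
    (hR : IsPGroup p R) (H : Subgroup R) (h : H.index ≤ p) : commutator R ≤ H := by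
  rcases eq_top_or_exists_le_coatom H with h1 | ⟨M, hM, hle⟩
  · rw [h1]; exact le_top
  · have h2 := Lib.FrattiniPGroup.index_of_coatom hR hM
    have h3 := Subgroup.relIndex_mul_index hle
    rw [h2] at h3
    have h4 : H.relIndex M ≤ 1 := by
      by_contra hcon
      have : 2 * p ≤ H.relIndex M * p := Nat.mul_le_mul_right p (by omega)
      have := hp.out.pos
      omega
    have h5 : H.relIndex M = 1 := by
      have : H.relIndex M ≠ 0 := by
        intro h0
        rw [h0, zero_mul] at h3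
        exact Subgroup.index_ne_zero_of_finite h3.symm
      omega
    have h6 : M ≤ H := Subgroup.relIndex_eq_one.mp h5
    exact (Lib.FrattiniBasic.commutator_le_of_isCoatom hR hM).trans h6

section counting

variable {R E : Type*} [Group R] [Finite R] [Group E] [Finite E] (β : R →* MulAut E)

/-- the stabilizer of a point -/
def stab (e : E) : Subgroup R where
  carrier := {r | β r e = e}
  one_mem' := by simp
  mul_mem' := by
    intro a b ha hb
    show β (a * b) e = e
    rw [map_mul, MulAut.mul_apply]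
    rw [show β b e = e from hb]; exact ha
  inv_mem' := by
    intro a ha
    show β a⁻¹ e = e
    rw [map_inv, MulAut.inv_apply, MulEquiv.symm_apply_eq]
    exact (show β a e = e from ha).symm

omit [Finite R] [Finite E] in
theorem mem_stab {e : E} {r : R} : r ∈ stab β e ↔ β r e = e := Iff.rfl

omit [Finite R] in
/-- if every nontrivial point stabilizer has index divisible by `q` then `q ∣ |D| - 1`. -/
theorem dvd_card_sub_one_of_invariant (D : Subgroup E) (hD : ∀ r : R, ∀ e ∈ D, β r e ∈ D) (q : ℕ)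
    (h : ∀ e ∈ D, e ≠ 1 → q ∣ (stab β e).index) : q ∣ Nat.card D - 1 := by
  classical
  let _ : MulAction R D :=
    { smul := fun r e => ⟨β r e, hD r e e.2⟩
      one_smul := fun e => Subtype.ext (by show β 1 e = e; simp)
      mul_smul := fun r s e => Subtype.ext (by show β (r * s) e = β r (β s e); simp) }
  have hs : ∀ e : D, MulAction.stabilizer R e = stab β (e : E) := by
    intro e
    ext r
    rw [MulAction.mem_stabilizer_iff, mem_stab]
    exact ⟨fun h => congrArg Subtype.val h, fun h => Subtype.ext h⟩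
  have : Fintype (Quotient (orbitRel R D)) := Fintype.ofFinite _
  have h1 : Nat.card D = ∑ ω : Quotient (orbitRel R D), Nat.card (orbit R ω.out) := by
    rw [Nat.card_congr (selfEquivSigmaOrbits R D), Nat.card_sigma]
  have h2 : ∀ e : D, Nat.card (orbit R e) = (stab β (e : E)).index := by
    intro e
    rw [← hs, MulAction.index_stabilizer, Nat.card_coe_set_eq]
  let ω₁ : Quotient (orbitRel R D) := Quotient.mk'' 1
  have hone : ∀ r : R, r • (1 : D) = 1 := fun r => Subtype.ext (map_one (β r))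
  have horb : ∀ e : D, e ∈ orbit R (1 : D) → e = 1 := by
    rintro e ⟨r, rfl⟩
    exact hone r
  have h3 : ω₁.out = 1 := by
    apply horb
    have : (orbitRel R D) ω₁.out 1 := Quotient.exact (Quotient.out_eq ω₁)
    exact this
  rw [← Finset.add_sum_erase _ _ (Finset.mem_univ ω₁), h3] at h1
  have h4 : Nat.card (orbit R (1 : D)) = 1 := by
    have : orbit R (1 : D) = {1} := by
      ext e
      constructor
      · intro he; exact horb e he
      · rintro rfl; exact mem_orbit_self _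
    rw [this]
    simp
  rw [h4] at h1
  have h5 : q ∣ ∑ ω ∈ Finset.univ.erase ω₁, Nat.card (orbit R ω.out) := by
    refine Finset.dvd_sum fun ω hω => ?_
    rw [h2]
    apply h _ ω.out.2
    intro h6
    apply (Finset.mem_erase.mp hω).1
    rw [← Quotient.out_eq ω, show ω.out = 1 from Subtype.ext h6]
  have h6 : Nat.card D - 1 = ∑ ω ∈ Finset.univ.erase ω₁, Nat.card (orbit R ω.out) := by omega
  rw [h6]
  exact h5

omit [Finite R] in
/-- if every nontrivial point stabilizer has index divisible by `q` then `q ∣ |E| - 1`. -/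
theorem dvd_card_sub_one (q : ℕ) (h : ∀ e : E, e ≠ 1 → q ∣ (stab β e).index) : q ∣ Nat.card E - 1 := by
  have h1 := dvd_card_sub_one_of_invariant β ⊤ (fun _ _ _ => trivial) q (fun e _ he => h e he)
  rwa [Subgroup.card_top] at h1

/-- for a `p`-group: if `p^j ∤ |E| - 1` some nontrivial point has an orbit of length at most `p^(j-1)`. -/
theorem exists_small_index {p : ℕ} [hp : Fact p.Prime] (hR : IsPGroup p R) (j : ℕ)
    (h : ¬ p ^ (j + 1) ∣ Nat.card E - 1) : ∃ e : E, e ≠ 1 ∧ (stab β e).index ≤ p ^ j := by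
  by_contra hcon
  push Not at hcon
  apply h
  apply dvd_card_sub_one β
  intro e he
  obtain ⟨n, hn⟩ := hR.index (stab β e)
  have h1 := hcon e he
  rw [hn] at h1 ⊢
  have h2 : j < n := (Nat.pow_lt_pow_iff_right hp.out.one_lt).mp h1
  exact pow_dvd_pow p h2

/-- irreducibility -/
def Irr : Prop := ∀ D : Subgroup E, (∀ r : R, ∀ e ∈ D, β r e ∈ D) → D = ⊥ ∨ D = ⊤

omit [Finite R] [Finite E] in
/-- fixed points of a normal subgroup -/
theorem fixed_of_normal (hirr : Irr β) (N : Subgroup R) [hN : N.Normal] {e : E} (he : e ≠ 1)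
    (h : ∀ n ∈ N, β n e = e) : ∀ n ∈ N, ∀ x : E, β n x = x := by
  let D : Subgroup E :=
    { carrier := {x | ∀ n ∈ N, β n x = x}
      one_mem' := fun n _ => map_one _
      mul_mem' := by
        intro a b ha hb n hn
        rw [map_mul, ha n hn, hb n hn]
      inv_mem' := by
        intro a ha n hn
        rw [map_inv, ha n hn] }
  rcases hirr D (by
    intro r x hx n hn
    have h1 := hx (r⁻¹ * n * r) (by simpa using hN.conj_mem n hn r⁻¹)
    have h2 : β n (β r x) = β r (β (r⁻¹ * n * r) x) := by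
      rw [← MulAut.mul_apply, ← MulAut.mul_apply, ← map_mul, ← map_mul]
      congr 2
      group
    rw [h2, h1]) with h1 | h1
  · exfalso
    apply he
    have : e ∈ D := h
    rw [h1] at this
    exact Subgroup.mem_bot.mp this
  · intro n hn x
    have : x ∈ D := by rw [h1]; trivial
    exact this n hn

omit [Finite E] in
/-- a short orbit forces commutativity -/
theorem comm_of_index_le {p : ℕ} [hp : Fact p.Prime] (hR : IsPGroup p R) (hirr : Irr β) {e : E}
    (he : e ≠ 1) (h : (stab β e).index ≤ p) (r s : R) (x : E) : β ⁅r, s⁆ x = x := by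
  have h1 := commutator_le_of_index_le hR (stab β e) h
  exact fixed_of_normal β hirr (commutator R) he (fun n hn => h1 hn) _
    (commutator_mem_commutator (mem_top r) (mem_top s)) x

end counting

/-- arithmetic: `p = 2^k + 1`, `1 ≤ d ≤ 4k` implies `p² ∤ 2^d - 1`. -/
theorem no_sq_dvd {p k d : ℕ} (hp : p.Prime) (hk : 2 ^ k + 1 = p) (hk1 : 1 ≤ k) (hd1 : 1 ≤ d)
    (hd : d ≤ 4 * k) : ¬ p ^ 2 ∣ 2 ^ d - 1 := by
  intro h
  have hp2 : 2 < p := by
    have : 2 ^ 1 ≤ 2 ^ k := Nat.pow_le_pow_right (by norm_num) hk1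
    omega
  have hZ : (p : ℤ) ^ 2 ∣ (2 : ℤ) ^ d - 1 := by
    have h1 : 1 ≤ 2 ^ d := Nat.one_le_two_pow
    have h2 := Int.natCast_dvd_natCast.mpr h
    rw [Nat.cast_sub h1] at h2
    exact_mod_cast h2
  have hk' : (2 : ℤ) ^ k = p - 1 := by
    rw [← hk]; push_cast; ring
  obtain ⟨q, r, hdq, hrk, hq4⟩ : ∃ q r : ℕ, d = k * q + r ∧ r < k ∧ q ≤ 4 := by
    refine ⟨d / k, d % k, (Nat.div_add_mod d k).symm, Nat.mod_lt _ hk1, ?_⟩
    have h1 : d / k ≤ (4 * k) / k := Nat.div_le_div_right hd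
    rwa [Nat.mul_div_cancel _ hk1] at h1
  have h2d : (2 : ℤ) ^ d = (p - 1) ^ q * 2 ^ r := by
    rw [hdq, pow_add, pow_mul, hk']
  have hpd : (p : ℤ) ∣ (2 : ℤ) ^ d - 1 := dvd_trans (dvd_pow_self _ (by norm_num)) hZ
  -- mod p
  have h3 : (p : ℤ) ∣ (-1) ^ q * 2 ^ r - 1 := by
    have h4 : (p : ℤ) ∣ ((p : ℤ) - 1) ^ q - (-1) ^ q := by
      have h5 := sub_dvd_pow_sub_pow ((p : ℤ) - 1) (-1) q
      have h6 : (p : ℤ) - 1 - -1 = p := by ring
      rwa [h6] at h5
    have h7 : (-1) ^ q * 2 ^ r - 1 = ((2 : ℤ) ^ d - 1) - (((p : ℤ) - 1) ^ q - (-1) ^ q) * 2 ^ r := by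
      rw [h2d]; ring
    rw [h7]
    exact dvd_sub hpd (h4.mul_right _)
  have h2r : (2 : ℤ) ^ r * 2 ≤ 2 ^ k := by
    rw [← pow_succ]
    exact pow_le_pow_right₀ (by norm_num) (by omega)
  have h2r1 : (1 : ℤ) ≤ 2 ^ r := one_le_pow₀ (by norm_num)
  have hpz : (2 : ℤ) < p := by exact_mod_cast hp2
  -- the value is zero
  have hval : (-1 : ℤ) ^ q * 2 ^ r - 1 = 0 := by
    refine Int.eq_zero_of_abs_lt_dvd h3 ?_
    rw [abs_lt]
    rcases neg_one_pow_eq_or ℤ q with hs | hs
    · rw [hs]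
      constructor <;> nlinarith
    · rw [hs]
      constructor <;> nlinarith
  rcases neg_one_pow_eq_or ℤ q with hs | hs
  · rw [hs] at hval
    have hr0 : (2 : ℤ) ^ r = 1 := by linarith
    have hZ' : (p : ℤ) ^ 2 ∣ (p - 1) ^ q - 1 := by
      rw [h2d, hr0, mul_one] at hZ
      exact hZ
    have hr00 : r = 0 := by
      by_contra hne
      have : (2 : ℤ) ^ 1 ≤ 2 ^ r := pow_le_pow_right₀ (by norm_num) (by omega)
      linarith
    have hqne : q ≠ 0 := by
      intro h0
      rw [h0, hr00] at hdq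
      omega
    have hq24 : q = 2 ∨ q = 4 := by
      have : q = 1 ∨ q = 2 ∨ q = 3 ∨ q = 4 := by omega
      rcases this with h1 | h1 | h1 | h1
      · rw [h1] at hs; norm_num at hs
      · exact Or.inl h1
      · rw [h1] at hs; norm_num at hs
      · exact Or.inr h1
    have h4p : (p : ℤ) ^ 2 ∣ 4 * p := by
      rcases hq24 with h1 | h1
      · rw [h1] at hZ'
        have : (4 : ℤ) * p = 2 * (p ^ 2 - ((p - 1) ^ 2 - 1)) := by ring
        rw [this]
        exact (dvd_sub (dvd_refl _) hZ').mul_left _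
      · rw [h1] at hZ'
        have : (4 : ℤ) * p = p ^ 2 * (p ^ 2 - 4 * p + 6) - ((p - 1) ^ 4 - 1) := by ring
        rw [this]
        exact dvd_sub (dvd_mul_right _ _) hZ'
    have hp4 : (p : ℤ) ∣ 4 := by
      obtain ⟨c, hc⟩ := h4p
      refine ⟨c, ?_⟩
      have hp0 : (p : ℤ) ≠ 0 := by linarith
      have : (p : ℤ) * 4 = p * (p * c) := by linarith
      exact mul_left_cancel₀ hp0 this
    have hp4' : p ∣ 2 ^ 2 := by
      have : (p : ℤ) ∣ ((2 ^ 2 : ℕ) : ℤ) := by simpa using hp4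
      exact_mod_cast this
    have := (Nat.prime_dvd_prime_iff_eq hp Nat.prime_two).mp (hp.dvd_of_dvd_pow hp4')
    omega
  · rw [hs] at hval
    linarith

/-- arithmetic: `p^m - 1 = 2^b` with `m ≥ 2` only for `p^m = 9`. -/
theorem eq_one_or_nine {p m b : ℕ} (hp : p.Prime) (hp2 : p ≠ 2) (hm : 1 ≤ m) (h : p ^ m - 1 = 2 ^ b) :
    m = 1 ∨ (p = 3 ∧ m = 2) := by
  have hp3 : 3 ≤ p := by
    have := hp.two_le
    omega
  have hpodd : Odd p := hp.odd_of_ne_two hp2
  rcases Nat.even_or_odd m with ⟨j, hj⟩ | hodd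
  · right
    have hj1 : 1 ≤ j := by omega
    have hpj : 3 ≤ p ^ j := hp3.trans (Nat.le_self_pow (by omega) p)
    have hfac : (p ^ j - 1) * (p ^ j + 1) = 2 ^ b := by
      rw [← h, hj, pow_add]
      obtain ⟨c, hc⟩ : ∃ c, p ^ j = c + 1 := ⟨p ^ j - 1, by omega⟩
      rw [hc]
      simp only [Nat.add_sub_cancel]
      have : (c + 1) * (c + 1) = c * (c + 1 + 1) + 1 := by ring
      rw [this]
      omega
    obtain ⟨a, _, ha⟩ := (Nat.dvd_prime_pow Nat.prime_two).mp (Dvd.intro _ hfac)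
    obtain ⟨c, _, hc⟩ := (Nat.dvd_prime_pow Nat.prime_two).mp (Dvd.intro_left _ hfac)
    have h1 : 2 ^ c = 2 ^ a + 2 := by omega
    have ha1 : a = 1 := by
      rcases Nat.lt_or_ge a 2 with h2 | h2
      · have : a ≠ 0 := by
          rintro rfl
          simp only [pow_zero] at ha
          omega
        omega
      · exfalso
        obtain ⟨a', rfl⟩ := Nat.exists_eq_add_of_le h2
        have hc2 : 2 ≤ c := by
          by_contra hcon
          have : 2 ^ c ≤ 2 ^ 1 := Nat.pow_le_pow_right (by norm_num) (by omega)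
          have : 0 < 2 ^ (2 + a') := by positivity
          omega
        obtain ⟨c', rfl⟩ := Nat.exists_eq_add_of_le hc2
        rw [pow_add, pow_add] at h1
        omega
    rw [ha1] at ha
    have hp3' : p ^ j = 3 := by omega
    have h5 : p = 3 ∧ j = 1 := by
      rcases Nat.lt_or_ge j 2 with h6 | h6
      · have : j = 1 := by omega
        subst this
        simp at hp3'
        exact ⟨hp3', rfl⟩
      · exfalso
        have : p ^ 2 ≤ p ^ j := Nat.pow_le_pow_right (by omega) h6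
        nlinarith
    exact ⟨h5.1, by omega⟩
  · left
    by_contra hm1
    have h1 : (∑ i ∈ Finset.range m, p ^ i) ∣ 2 ^ b := by
      rw [← h]
      have := Nat.geomSum_eq hp.two_le m
      rw [this]
      have h2 : (p - 1) ∣ p ^ m - 1 := by
        simpa using Nat.sub_dvd_pow_sub_pow p 1 m
      exact Nat.div_dvd_of_dvd h2
    have h2 : Odd (∑ i ∈ Finset.range m, p ^ i) := by
      rw [Finset.odd_sum_iff_odd_card_odd]
      have : (Finset.range m).filter (fun i => Odd (p ^ i)) = Finset.range m := by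
        apply Finset.filter_true_of_mem
        intro i _
        exact hpodd.pow
      rw [this]
      simpa using hodd
    obtain ⟨c, _, hc⟩ := (Nat.dvd_prime_pow Nat.prime_two).mp h1
    have hc0 : c = 0 := by
      by_contra hne
      rw [hc] at h2
      exact (Nat.not_odd_iff_even.mpr (Even.pow_of_ne_zero even_two hne)) h2
    rw [hc0, pow_zero] at hc
    have h3 : ∑ i ∈ Finset.range 2, p ^ i ≤ ∑ i ∈ Finset.range m, p ^ i := by
      apply Finset.sum_le_sum_of_subset
      intro x hx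
      simp only [Finset.mem_range] at hx ⊢
      omega
    rw [hc] at h3
    simp only [Finset.sum_range_succ, Finset.sum_range_zero, pow_zero, pow_one] at h3
    omega

section nine

variable {E : Type*} [CommGroup E] [Finite E]

/-- an automorphism of order `9` of a group of order `64` with fixed-point-free cube: the cube is central in
every irreducible `3`-group containing it. -/
theorem central_of_nine (hcard : Nat.card E = 64) (R : Subgroup (MulAut E)) (hR : IsPGroup 3 R)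
    (hirr : Irr R.subtype) (y : MulAut E) (hy : y ∈ R) (hy9 : y ^ 9 = 1)
    (hfix : ∀ e : E, (y ^ 3) e = e → e = 1) (r : MulAut E) (hr : r ∈ R) : Commute r (y ^ 3) := by
  have hp3 : Fact (Nat.Prime 3) := ⟨Nat.prime_three⟩
  have hnt : Nontrivial E := by
    rw [← Finite.one_lt_card_iff_nontrivial]
    omega
  obtain ⟨e₀, he₀⟩ := exists_ne (1 : E)
  have hy3 : y ^ 3 ≠ 1 := by
    intro h
    exact he₀ (hfix e₀ (by rw [h]; rfl))
  have hord : orderOf y = 9 := by
    have := orderOf_eq_prime_pow (p := 3) (n := 1) (x := y) (by simpa using hy3) (by simpa using hy9)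
    simpa using this
  -- `y` is irreducible
  have hyirr : ∀ D : Subgroup E, (∀ e ∈ D, y e ∈ D) → D = ⊥ ∨ D = ⊤ := by
    intro D hD
    have hDk : ∀ n : ℕ, ∀ e ∈ D, (y ^ n) e ∈ D := by
      intro n
      induction n with
      | zero => intro e he; simpa using he
      | succ n ih =>
        intro e he
        rw [pow_succ, MulAut.mul_apply]
        exact ih _ (hD e he)
    have h1 : 9 ∣ Nat.card D - 1 := by
      apply dvd_card_sub_one_of_invariant (zpowers y).subtype D
      · rintro ⟨g, hg⟩ e he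
        obtain ⟨n, rfl⟩ := (mem_powers_iff_mem_zpowers.mpr hg)
        exact hDk n e he
      · intro e heD he
        have h2 : stab (zpowers y).subtype e = ⊥ := by
          rw [eq_bot_iff]
          rintro ⟨g, hg⟩ hge
          obtain ⟨i, rfl⟩ := hg
          rw [mem_stab] at hge
          change (y ^ i) e = e at hge
          rw [Subgroup.mem_bot]
          apply Subtype.ext
          show y ^ i = 1
          let S : Subgroup (MulAut E) :=
            { carrier := {a | a e = e}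
              one_mem' := rfl
              mul_mem' := by
                intro a b ha hb
                show (a * b) e = e
                rw [MulAut.mul_apply, show b e = e from hb]; exact ha
              inv_mem' := by
                intro a ha
                show a⁻¹ e = e
                rw [MulAut.inv_apply, MulEquiv.symm_apply_eq]
                exact (show a e = e from ha).symm }
          have hS : y ^ i ∈ S := hge
          have hg1 : y ^ ((Int.gcd i 9 : ℕ) : ℤ) ∈ S := by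
            rw [Int.gcd_eq_gcd_ab, zpow_add, zpow_mul, zpow_mul]
            refine S.mul_mem (S.zpow_mem hS _) ?_
            have : y ^ (9 : ℤ) = 1 := by exact_mod_cast hy9
            rw [this, one_zpow]
            exact S.one_mem
          have hd : Int.gcd i 9 ∣ 9 := by
            have := Int.gcd_dvd_right i 9
            exact_mod_cast this
          have hd2 : Int.gcd i 9 ∣ 3 ^ 2 := by simpa using hd
          obtain ⟨c, hc2, hc⟩ := (Nat.dvd_prime_pow Nat.prime_three).mp hd2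
          have hy3S : y ^ 3 ∉ S := fun h => he (hfix e h)
          have hc3 : c = 2 := by
            have : c = 0 ∨ c = 1 ∨ c = 2 := by omega
            rcases this with rfl | rfl | rfl
            · exfalso
              rw [hc] at hg1
              have : y ∈ S := by simpa using hg1
              exact hy3S (S.pow_mem this 3)
            · exfalso
              rw [hc] at hg1
              apply hy3S
              have : y ^ ((3 ^ 1 : ℕ) : ℤ) = y ^ 3 := by norm_cast
              rwa [this] at hg1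
            · rfl
          have h9i : (9 : ℤ) ∣ i := by
            have := Int.gcd_dvd_left i 9
            rw [hc, hc3] at this
            simpa using this
          obtain ⟨j, rfl⟩ := h9i
          rw [zpow_mul]
          have : y ^ (9 : ℤ) = 1 := by exact_mod_cast hy9
          rw [this, one_zpow]
        rw [h2, Subgroup.index_bot, Nat.card_zpowers, hord]
    have h2 : Nat.card D ∣ 2 ^ 6 := by
      have := Subgroup.card_subgroup_dvd_card D
      rw [hcard] at this
      simpa using this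
    obtain ⟨b, hb6, hb⟩ := (Nat.dvd_prime_pow Nat.prime_two).mp h2
    have h3 : b = 0 ∨ b = 6 := by
      rw [hb] at h1
      interval_cases b <;> first | (left; rfl) | (right; rfl) | (exfalso; revert h1; decide)
    rcases h3 with rfl | rfl
    · left
      exact Subgroup.eq_bot_of_card_eq _ (by simpa using hb)
    · right
      apply Subgroup.eq_top_of_card_eq
      rw [hb, hcard]
      norm_num
  -- a central element of order three
  have hRnt : Nontrivial R := by
    refine ⟨⟨⟨y, hy⟩, 1, ?_⟩⟩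
    intro h
    have : y = 1 := congrArg Subtype.val h
    rw [this] at hy3
    exact hy3 (one_pow 3)
  have hcn := hR.center_nontrivial
  have hcp : IsPGroup 3 (center R) := hR.to_subgroup _
  obtain ⟨n, hn⟩ := (IsPGroup.iff_card).mp hcp
  have hn0 : n ≠ 0 := by
    rintro rfl
    have := Finite.one_lt_card (α := center R)
    omega
  obtain ⟨⟨⟨c, hcR⟩, hcc⟩, hcord⟩ := exists_prime_orderOf_dvd_card' (G := center R) 3
    (by rw [hn]; exact dvd_pow_self 3 hn0)
  have hc3 : c ^ 3 = 1 := by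
    have h1 := pow_orderOf_eq_one (⟨⟨c, hcR⟩, hcc⟩ : center R)
    rw [hcord] at h1
    have h2 := congrArg (fun u : center R => ((u : R) : MulAut E)) h1
    simpa using h2
  have hc1 : c ≠ 1 := by
    rintro rfl
    have : orderOf (⟨⟨1, hcR⟩, hcc⟩ : center R) = 1 := by
      rw [orderOf_eq_one_iff]
      rfl
    omega
  have hcomm : ∀ s ∈ R, Commute c s := by
    intro s hs
    have := (Subgroup.mem_center_iff.mp hcc) ⟨s, hs⟩
    have h2 := congrArg Subtype.val this
    exact h2.symm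
  have hcommA : ∀ s ∈ R, ∀ e : E, c (s e) = s (c e) := by
    intro s hs e
    have := hcomm s hs
    have h2 := congrArg (fun u : MulAut E => u e) this.eq
    simpa using h2
  have hcfix : ∀ e : E, c e = e → e = 1 := by
    let F : Subgroup E :=
      { carrier := {e | c e = e}
        one_mem' := map_one c
        mul_mem' := by
          intro a b ha hb
          show c (a * b) = a * b
          rw [map_mul, show c a = a from ha, show c b = b from hb]
        inv_mem' := by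
          intro a ha
          show c a⁻¹ = a⁻¹
          rw [map_inv, show c a = a from ha] }
    have hF := hirr F (by
      rintro ⟨s, hs⟩ e he
      show c (s e) = s e
      rw [hcommA s hs, show c e = e from he])
    rcases hF with h1 | h1
    · intro e he
      have : e ∈ F := he
      rw [h1] at this
      exact Subgroup.mem_bot.mp this
    · exfalso
      apply hc1
      ext e
      have : e ∈ F := by rw [h1]; trivial
      exact this
  set z := y ^ 3 with hz
  have hzR : z ∈ R := R.pow_mem hy 3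
  have hz3 : z ^ 3 = 1 := by
    rw [hz, ← pow_mul]; exact hy9
  have hcsum : ∀ e : E, e * c e * c (c e) = 1 := by
    intro e
    apply hcfix
    have : c (c (c e)) = e := by
      have := congrArg (fun u : MulAut E => u e) hc3
      simpa [pow_succ] using this
    rw [map_mul, map_mul, this]
    rw [mul_comm (c e * c (c e)) e, mul_assoc]
  have hz3' : ∀ e : E, z (z (z e)) = e := by
    intro e
    have := congrArg (fun u : MulAut E => u e) hz3
    simpa [pow_succ] using this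
  have hzsum : ∀ e : E, e * z e * z (z e) = 1 := by
    intro e
    apply hfix
    rw [map_mul, map_mul, hz3']
    rw [mul_comm (z e * z (z e)) e, mul_assoc]
  let D : Subgroup E :=
    { carrier := {e | c e = z e}
      one_mem' := by show c 1 = z 1; rw [map_one, map_one]
      mul_mem' := by
        intro a b ha hb
        show c (a * b) = z (a * b)
        rw [map_mul, map_mul, show c a = z a from ha, show c b = z b from hb]
      inv_mem' := by
        intro a ha
        show c a⁻¹ = z a⁻¹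
        rw [map_inv, map_inv, show c a = z a from ha] }
  have hyz : ∀ e : E, y (z e) = z (y e) := by
    intro e
    have : y * z = z * y := by rw [hz, ← pow_succ', ← pow_succ]
    have h2 := congrArg (fun u : MulAut E => u e) this
    simpa using h2
  rcases hyirr D (by
    intro e he
    show c (y e) = z (y e)
    rw [hcommA y hy, show c e = z e from he, hyz]) with h1 | h1
  · have hcz : z = c * c := by
      have h2 : ∀ e : E, c e = z (z e) := by
        intro e
        have h3 : c e * (z (z e))⁻¹ ∈ D := by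
          show c (c e * (z (z e))⁻¹) = z (c e * (z (z e))⁻¹)
          rw [map_mul, map_mul, map_inv, map_inv, hz3', hcommA z hzR, hcommA z hzR]
          have h4 := hcsum e
          have h5 := hzsum (c e)
          have h6 : c (c e) = (e * c e)⁻¹ := by
            rw [eq_inv_iff_mul_eq_one, mul_comm]; exact h4
          have h7 : z (z (c e)) = (c e * z (c e))⁻¹ := by
            rw [eq_inv_iff_mul_eq_one, mul_comm]; exact h5
          rw [h6, h7, inv_inv]
          generalize c e = a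
          generalize z a = b
          rw [mul_inv, ← mul_assoc, mul_assoc e⁻¹, inv_mul_cancel, mul_one, mul_comm]
        rw [h1, Subgroup.mem_bot, mul_inv_eq_one] at h3
        exact h3
      ext e
      rw [MulAut.mul_apply, h2, h2, hz3']
    have h2 : Commute r (c * c) := (hcomm r hr).symm.mul_right (hcomm r hr).symm
    rwa [← hcz] at h2
  · have hcz : z = c := by
      ext e
      have : e ∈ D := by rw [h1]; trivial
      exact (show c e = z e from this).symm
    have h2 : Commute r c := (hcomm r hr).symm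
    rwa [← hcz] at h2

end nine

section final

variable {E : Type*} [CommGroup E] [Finite E]

theorem card_sup_le (A B : Subgroup E) : Nat.card (A ⊔ B : Subgroup E) ≤ Nat.card A * Nat.card B := by
  rw [← Nat.card_prod]
  refine Nat.card_le_card_of_surjective
    (fun x : A × B => (⟨(x.1 : E) * x.2, Subgroup.mul_mem_sup x.1.2 x.2.2⟩ : (A ⊔ B : Subgroup E))) ?_
  rintro ⟨e, he⟩
  obtain ⟨a, ha, b, hb, rfl⟩ := Subgroup.mem_sup.mp he
  exact ⟨(⟨a, ha⟩, ⟨b, hb⟩), rfl⟩

theorem card_closure_le (hE2 : ∀ e : E, e ^ 2 = 1) (s : Finset E) :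
    Nat.card (Subgroup.closure (s : Set E)) ≤ 2 ^ s.card := by
  classical
  induction s using Finset.induction_on with
  | empty => simp
  | insert a s ha ih =>
    rw [Finset.coe_insert, Set.insert_eq, Subgroup.closure_union, Finset.card_insert_of_notMem ha, pow_succ,
      mul_comm]
    refine (card_sup_le _ _).trans (Nat.mul_le_mul ?_ ih)
    rw [← Subgroup.zpowers_eq_closure, Nat.card_zpowers]
    exact Nat.le_of_dvd (by norm_num) (orderOf_dvd_of_pow_eq_one (hE2 a))

/-- **Final step.** -/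
theorem final {p k : ℕ} [hp : Fact p.Prime] (hk : 2 ^ k + 1 = p) (hk1 : 1 ≤ k) (hE2 : ∀ e : E, e ^ 2 = 1)
    (R : Subgroup (MulAut E)) (hR : IsPGroup p R) (y₁ y₂ : MulAut E) (hy₁ : y₁ ∈ R) (hy₂ : y₂ ∈ R)
    (hirr : ∀ D : Subgroup E, (∀ e ∈ D, y₁ e ∈ D) → (∀ e ∈ D, y₂ e ∈ D) → D = ⊥ ∨ D = ⊤)
    (m₁ m₂ : ℕ) (hm₁ : 1 ≤ m₁) (hm₂ : 1 ≤ m₂) (h₁ : y₁ ^ p ^ m₁ = 1) (h₂ : y₂ ^ p ^ m₂ = 1)
    (M₁ M₂ : Subgroup E) (hM₁ : ∀ e, y₁ e * e⁻¹ ∈ M₁) (hM₂ : ∀ e, y₂ e * e⁻¹ ∈ M₂)
    (hc₁ : Nat.card M₁ = (p ^ m₁ - 1) ^ 2) (hc₂ : Nat.card M₂ = (p ^ m₂ - 1) ^ 2)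
    (hf₁ : ∀ e ∈ M₁, (y₁ ^ p ^ (m₁ - 1)) e = e → e = 1)
    (hf₂ : ∀ e ∈ M₂, (y₂ ^ p ^ (m₂ - 1)) e = e → e = 1) :
    Commute (y₁ ^ p ^ (m₁ - 1)) (y₂ ^ p ^ (m₂ - 1)) := by
  classical
  have hp2 : p ≠ 2 := by
    intro h
    have h2 : 2 ^ 1 ≤ 2 ^ k := Nat.pow_le_pow_right (by norm_num) hk1
    omega
  have hp3 : 3 ≤ p := by
    have := hp.out.two_le
    omega
  have hfin2 : Fact (Nat.Prime 2) := ⟨Nat.prime_two⟩
  have hE : IsPGroup 2 E := fun e => ⟨1, by simpa using hE2 e⟩
  obtain ⟨d, hd⟩ := (IsPGroup.iff_card).mp hE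
  have hR' : ∀ r : MulAut E, r ∈ R → r ∈ R := fun _ h => h
  have hirr' : Irr R.subtype := by
    intro D hD
    exact hirr D (fun e he => hD ⟨y₁, hy₁⟩ e he) (fun e he => hD ⟨y₂, hy₂⟩ e he)
  -- short orbits
  have hshort : ∀ e : E, e ≠ 1 → (stab R.subtype e).index ≤ p →
      Commute (y₁ ^ p ^ (m₁ - 1)) (y₂ ^ p ^ (m₂ - 1)) := by
    intro e he hi
    have h3 := comm_of_index_le R.subtype hR hirr' he hi ⟨_, R.pow_mem hy₁ (p ^ (m₁ - 1))⟩
      ⟨_, R.pow_mem hy₂ (p ^ (m₂ - 1))⟩
    rw [commute_iff_eq, ← commutatorElement_eq_one_iff_mul_comm]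
    ext x
    exact h3 x
  have hpm : ∀ m, 1 ≤ m → 2 ≤ p ^ m - 1 := by
    intro m hm
    have : p ≤ p ^ m := Nat.le_self_pow (by omega) p
    omega
  -- the product is everything
  have htop : M₁ ⊔ M₂ = ⊤ := by
    have h3 := hirr (M₁ ⊔ M₂)
      (by
        intro e he
        have h4 : y₁ e = (y₁ e * e⁻¹) * e := by rw [inv_mul_cancel_right]
        rw [h4]
        exact (M₁ ⊔ M₂).mul_mem (le_sup_left (a := M₁) (hM₁ e)) he)
      (by
        intro e he
        have h4 : y₂ e = (y₂ e * e⁻¹) * e := by rw [inv_mul_cancel_right]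
        rw [h4]
        exact (M₁ ⊔ M₂).mul_mem (le_sup_right (a := M₁) (hM₂ e)) he)
    rcases h3 with h3 | h3
    · exfalso
      have h4 : M₁ = ⊥ := by
        rw [eq_bot_iff, ← h3]; exact le_sup_left
      rw [h4, Subgroup.card_bot] at hc₁
      have := hpm m₁ hm₁
      nlinarith
    · exact h3
  have hcard : Nat.card E ≤ (p ^ m₁ - 1) ^ 2 * (p ^ m₂ - 1) ^ 2 := by
    have h3 := card_sup_le M₁ M₂
    rwa [htop, Subgroup.card_top, hc₁, hc₂] at h3
  -- the exponents
  have hexp : ∀ (m : ℕ) (M : Subgroup E), 1 ≤ m → Nat.card M = (p ^ m - 1) ^ 2 → m = 1 ∨ (p = 3 ∧ m = 2) := by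
    intro m M hm hM
    have h3 : (p ^ m - 1) ∣ 2 ^ d := by
      rw [← hd]
      exact (Dvd.intro_left _ (by rw [hM, sq])).trans (Subgroup.card_subgroup_dvd_card M)
    obtain ⟨b, _, hb⟩ := (Nat.dvd_prime_pow Nat.prime_two).mp h3
    exact eq_one_or_nine hp.out hp2 hm hb
  have hd1 : 1 ≤ d := by
    by_contra hcon
    have h0 : d = 0 := by omega
    rw [h0, pow_zero] at hd
    have h3 := Subgroup.card_le_card_group M₁
    rw [hd, hc₁] at h3
    have := hpm m₁ hm₁
    nlinarith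
  have hcase1 : m₁ = 1 → m₂ = 1 → Commute (y₁ ^ p ^ (m₁ - 1)) (y₂ ^ p ^ (m₂ - 1)) := by
    intro e1 e2
    have hdle : d ≤ 4 * k := by
      rw [e1, e2, hd, pow_one, ← hk] at hcard
      simp only [Nat.add_sub_cancel] at hcard
      rw [← pow_mul, ← pow_add] at hcard
      have := (Nat.pow_le_pow_iff_right (by norm_num : 1 < 2)).mp hcard
      omega
    have h3 := no_sq_dvd hp.out hk hk1 hd1 hdle
    obtain ⟨e, he, hi⟩ := exists_small_index R.subtype hR 1 (by rw [hd]; exact h3)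
    rw [pow_one] at hi
    exact hshort e he hi
  by_cases hcase : m₁ = 1 ∧ m₂ = 1
  · exact hcase1 hcase.1 hcase.2
  have hp3' : p = 3 := by
    rcases hexp m₁ M₁ hm₁ hc₁ with h3 | h3
    · rcases hexp m₂ M₂ hm₂ hc₂ with h4 | h4
      · exact absurd ⟨h3, h4⟩ hcase
      · exact h4.1
    · exact h3.1
  subst hp3'
  have hm1' : m₁ = 1 ∨ m₁ = 2 := by
    rcases hexp m₁ M₁ hm₁ hc₁ with h3 | h3
    · exact Or.inl h3
    · exact Or.inr h3.2
  have hm2' : m₂ = 1 ∨ m₂ = 2 := by
    rcases hexp m₂ M₂ hm₂ hc₂ with h3 | h3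
    · exact Or.inl h3
    · exact Or.inr h3.2
  have hd12 : d ≤ 12 := by
    have h3 : Nat.card E ≤ 2 ^ 12 := by
      rcases hm1' with rfl | rfl <;> rcases hm2' with rfl | rfl <;> norm_num at hcard ⊢ <;> omega
    rw [hd] at h3
    exact (Nat.pow_le_pow_iff_right (by norm_num : 1 < 2)).mp h3
  by_cases h9 : 3 ^ 2 ∣ Nat.card E - 1
  swap
  · obtain ⟨e, he, hi⟩ := exists_small_index R.subtype hR 1 h9
    rw [pow_one] at hi
    exact hshort e he hi
  have hd612 : d = 6 ∨ d = 12 := by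
    rw [hd] at h9
    interval_cases d <;> first | (left; rfl) | (right; rfl) | (exfalso; revert h9; decide)
  rcases hd612 with h6 | h12
  · -- order 64
    have hcard64 : Nat.card E = 64 := by rw [hd, h6]; norm_num
    by_cases h3 : m₁ = 2
    · subst h3
      have hM : M₁ = ⊤ := by
        apply Subgroup.eq_top_of_card_eq
        rw [hc₁, hcard64]
        norm_num
      have h4 := central_of_nine hcard64 R hR hirr' y₁ hy₁ (by simpa using h₁)
        (fun e he => hf₁ e (by rw [hM]; trivial) (by simpa using he)) (y₂ ^ 3 ^ (m₂ - 1)) (R.pow_mem hy₂ _)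
      have h5 : y₁ ^ 3 ^ (2 - 1) = y₁ ^ 3 := by norm_num
      rw [h5]
      exact h4.symm
    · have h3' : m₂ = 2 := by
        rcases hm1' with h4 | h4
        · rcases hm2' with h5 | h5
          · exact absurd ⟨h4, h5⟩ hcase
          · exact h5
        · exact absurd h4 h3
      subst h3'
      have hM : M₂ = ⊤ := by
        apply Subgroup.eq_top_of_card_eq
        rw [hc₂, hcard64]
        norm_num
      have h4 := central_of_nine hcard64 R hR hirr' y₂ hy₂ (by simpa using h₂)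
        (fun e he => hf₂ e (by rw [hM]; trivial) (by simpa using he)) (y₁ ^ 3 ^ (m₁ - 1)) (R.pow_mem hy₁ _)
      have h5 : y₂ ^ 3 ^ (2 - 1) = y₂ ^ 3 := by norm_num
      rw [h5]
      exact h4
  · -- order 4096
    exfalso
    have h27 : ¬ 3 ^ (2 + 1) ∣ Nat.card E - 1 := by
      rw [hd, h12]; decide
    obtain ⟨e, he, hi⟩ := exists_small_index R.subtype hR 2 h27
    -- the orbit
    let _ : MulAction R E := MulAction.compHom E R.subtype
    have hst : MulAction.stabilizer R e = stab R.subtype e := rfl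
    have hfo : (orbit R e).Finite := Set.toFinite _
    let s : Finset E := hfo.toFinset
    have hs : s.card ≤ 9 := by
      have h3 : s.card = (stab R.subtype e).index := by
        rw [← hst, MulAction.index_stabilizer]
        exact (Set.ncard_eq_toFinset_card _ hfo).symm
      rw [h3]
      simpa using hi
    have hinv : ∀ r ∈ R, ∀ x ∈ Subgroup.closure (s : Set E), r x ∈ Subgroup.closure (s : Set E) := by
      intro r hr x hx
      induction hx using Subgroup.closure_induction with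
      | mem x hx =>
        apply Subgroup.subset_closure
        have hx' : x ∈ orbit R e := by simpa [s] using hx
        have : r x ∈ orbit R e := by
          obtain ⟨g, rfl⟩ := hx'
          exact ⟨⟨r, hr⟩ * g, rfl⟩
        simpa [s] using this
      | one => rw [map_one]; exact Subgroup.one_mem _
      | mul x y _ _ hx hy => rw [map_mul]; exact Subgroup.mul_mem _ hx hy
      | inv x _ hx => rw [map_inv]; exact Subgroup.inv_mem _ hx
    have hes : e ∈ Subgroup.closure (s : Set E) := by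
      apply Subgroup.subset_closure
      simp [s]
    rcases hirr _ (hinv y₁ hy₁) (hinv y₂ hy₂) with h3 | h3
    · rw [h3, Subgroup.mem_bot] at hes
      exact he hes
    · have h4 := card_closure_le hE2 s
      rw [h3, Subgroup.card_top, hd, h12] at h4
      have h5 : 2 ^ s.card ≤ 2 ^ 9 := Nat.pow_le_pow_right (by norm_num) hs
      have : (2 : ℕ) ^ 12 ≤ 2 ^ 9 := h4.trans h5
      norm_num at this

end final

end Cfsg.Agent.H450.Elem
end

-- part: H450/Single
section
/-!
# A single automorphism of a `2`-group of class two with `(X - 1)^(p^m - 1) = 0`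
-/

set_option autoImplicit false

namespace Cfsg.Agent.H450.Single

open Subgroup
open Cfsg.Agent.PLocal.HHBClifford Cfsg.Agent.PLocal.HHBLinear Cfsg.Agent.PLocal.HHBJordan
  Cfsg.Agent.PLocal.HHBUnip
open Cfsg.Agent.H450.Brk
open scoped commutatorElement

theorem rho_pow {K : Type*} [Field K] {U : Type*} [AddCommGroup U] [Module K U] {Q : Type*} [Group Q]
    {ρ : Q →* Module.End K U} {σ : MulAut Q} {X : Module.End K U} (hX : ∀ g, X * ρ g = ρ (σ g) * X) (i : ℕ)
    (g : Q) : X ^ i * ρ g = ρ ((σ ^ i) g) * X ^ i := by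
  induction i generalizing g with
  | zero => simp
  | succ i ih => rw [pow_succ', mul_assoc, ih, ← mul_assoc, hX, mul_assoc, pow_succ', MulAut.mul_apply]

theorem not_dvd_card {p : ℕ} [hp : Fact p.Prime] (hp2 : p ≠ 2) {Q : Type*} [Group Q] [Finite Q]
    (hQ : IsPGroup 2 Q) : ¬ p ∣ Nat.card Q := by
  have : Fact (Nat.Prime 2) := ⟨Nat.prime_two⟩
  obtain ⟨a, ha⟩ := IsPGroup.iff_card.1 hQ
  rw [ha]
  intro h
  exact hp2 ((Nat.prime_dvd_prime_iff_eq hp.out Nat.prime_two).1 (hp.out.dvd_of_dvd_pow h))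

/-- The structure of `[Q, z]`. -/
theorem relIndex_eq {K : Type*} [Field K] [IsAlgClosed K] {p : ℕ} [hp : Fact p.Prime] [CharP K p]
    (hp2 : p ≠ 2) {U : Type*} [AddCommGroup U] [Module K U] [FiniteDimensional K U] [Nontrivial U]
    {Q : Type*} [Group Q] [Finite Q] (hQ : IsPGroup 2 Q) (hcl : ∀ a b c : Q, ⁅a, b⁆ * c = c * ⁅a, b⁆)
    (ρ : Q →* Module.End K U) (hρ : Function.Injective ρ) (hirr : IsIrr ρ)
    (σ : MulAut Q) (X : (Module.End K U)ˣ) (hX : ∀ g, (X : Module.End K U) * ρ g = ρ (σ g) * X) (m : ℕ)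
    (hm : 1 ≤ m) (hσ : σ ^ p ^ m = 1) (hZ : ∀ c ∈ center Q, (σ ^ p ^ (m - 1)) c = c)
    (hXm : X ^ p ^ m = 1) (hr : ((X : Module.End K U) - 1) ^ (p ^ m - 1) = 0) (hz : σ ^ p ^ (m - 1) ≠ 1) :
    (center Q).relIndex (brk (σ ^ p ^ (m - 1))) = (p ^ m - 1) ^ 2 ∧
    ∃ W : Submodule K U, W ≠ ⊥ ∧ (∀ h ∈ brk (σ ^ p ^ (m - 1)), ∀ u ∈ W, ρ h u ∈ W) ∧
      (∀ S ≤ W, (∀ h ∈ brk (σ ^ p ^ (m - 1)), ∀ u ∈ S, ρ h u ∈ S) → S = ⊥ ∨ S = W) ∧
      (∀ u ∈ W, (X : Module.End K U) u ∈ W) ∧
      ∃ u ∈ W, (((X : Module.End K U) - 1) ^ (p ^ m - 2)) u ≠ 0 := by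
  classical
  have hfp2 : Fact (Nat.Prime 2) := ⟨Nat.prime_two⟩
  set z := σ ^ p ^ (m - 1) with hzdef
  have hzp : z ^ p = 1 := by
    rw [hzdef, ← pow_mul, ← pow_succ, Nat.sub_add_cancel hm, hσ]
  have hQp := not_dvd_card (p := p) hp2 hQ
  have hzσ : Commute z σ := by
    rw [hzdef]
    exact (Commute.refl σ).pow_left _
  set M := brk z with hM
  have hMσ : ∀ g ∈ M, σ g ∈ M := fun g hg => brk_invariant hzσ hg
  obtain ⟨τ, hτ⟩ := PLocal.HHBReduceCore.exists_restrict σ M hMσ
  have hMne : ∃ g ∈ M, z g ≠ g := by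
    by_contra hcon
    push Not at hcon
    apply hz
    have h1 := brk_gen hQp z hzp
    have h2 : closure {w | ∃ a ∈ brk z, w = z a * a⁻¹} = ⊥ := by
      rw [closure_eq_bot_iff]
      rintro _ ⟨a, ha, rfl⟩
      rw [hcon a ha, mul_inv_cancel]
      rfl
    rw [h2] at h1
    ext g
    have h3 : z g * g⁻¹ ∈ brk z := mem_brk z g
    rw [← h1, Subgroup.mem_bot, mul_inv_eq_one] at h3
    exact h3
  let ρM : M →* Module.End K U := ρ.comp M.subtype
  have hXM : ∀ h : M, (X : Module.End K U) * ρM h = ρM (τ h) * X := by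
    intro h
    have h1 := hτ 1 h
    rw [pow_one, pow_one] at h1
    change (X : Module.End K U) * ρ (h : Q) = ρ ((τ h : M) : Q) * X
    rw [h1]
    exact hX h
  have hMQ : IsPGroup 2 M := hQ.to_subgroup M
  have hcardM : (Nat.card M : K) ≠ 0 := by
    intro h0
    rw [CharP.cast_eq_zero_iff K p] at h0
    exact not_dvd_card (p := p) hp2 hMQ h0
  obtain ⟨U₀, hU₀, g₀, w₀, hw₀, hgw₀⟩ := exists_simple hcardM ρM (by
    obtain ⟨g, hg, hgz⟩ := hMne
    refine ⟨⟨g, hg⟩, fun h => hgz ?_⟩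
    have h1 : ρ g = 1 := h
    rw [hρ (h1.trans (map_one ρ).symm), map_one])
  -- isotypic
  have htop : isotypicComponent (alg ρM) U U₀ = ⊤ := by
    have hinv : ∀ g : Q, ∀ u ∈ (isotypicComponent (alg ρM) U U₀).restrictScalars K,
        ρ g u ∈ (isotypicComponent (alg ρM) U U₀).restrictScalars K := by
      intro g u hu
      obtain ⟨a, ha, n, hn, rfl⟩ := Brk.exists_decomp hQp z hzp g
      rw [map_mul]
      have h1 : ρ n u ∈ isotypicComponent (alg ρM) U U₀ := by
        let F : U →ₗ[alg ρM] U :=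
          { toFun := ρ n
            map_add' := map_add _
            map_smul' := by
              rintro ⟨a, ha⟩ v
              show ρ n (a v) = a (ρ n v)
              rw [← Module.End.mul_apply, ← Module.End.mul_apply]
              congr 1
              induction ha using Algebra.adjoin_induction with
              | mem a ha =>
                obtain ⟨⟨b, hb⟩, rfl⟩ := ha
                change ρ n * ρ b = ρ b * ρ n
                rw [← map_mul, ← map_mul, Brk.comm hcl hZ hb hn]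
              | algebraMap c => exact (Algebra.commutes c _).symm
              | add a b _ _ iha ihb => rw [mul_add, add_mul, iha, ihb]
              | mul a b _ _ iha ihb => rw [← mul_assoc, iha, mul_assoc, ihb, mul_assoc] }
        exact LinearMap.le_comap_isotypicComponent (R := alg ρM) U₀ F hu
      exact rho_apply_mem (ρ := ρM) _ ⟨a, ha⟩ h1
    rcases hirr _ hinv with h | h
    · exfalso
      have := bot_lt_isotypicComponent (R := alg ρM) (M := U) U₀
      apply this.ne'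
      rw [Submodule.eq_bot_iff]
      intro v hv
      have h2 : v ∈ (isotypicComponent (alg ρM) U U₀).restrictScalars K := hv
      rw [h] at h2
      exact h2
    · ext v
      have h2 : v ∈ (isotypicComponent (alg ρM) U U₀).restrictScalars K := by rw [h]; trivial
      exact ⟨fun _ => trivial, fun _ => h2⟩
  obtain ⟨W, hWbot, hWρ, hWirr, hWX, hWfaith⟩ := Iso.exists_stable_of_isotypic ρM X τ hXM U₀ hU₀ htop
  obtain ⟨ρW, hρW⟩ := Iso.exists_restrict ρM W hWρ
  have hirrW := Iso.isIrr_restrict ρM W hWirr ρW hρW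
  have hWn : Nontrivial W := Submodule.nontrivial_iff_ne_bot.2 hWbot
  have hρWinj : Function.Injective ρW := by
    rw [← MonoidHom.ker_eq_bot_iff, eq_bot_iff]
    intro g hg
    rw [MonoidHom.mem_ker] at hg
    rw [Subgroup.mem_bot]
    have h1 : ρM g = 1 := by
      apply hWfaith
      intro u hu
      have h2 := congrArg Subtype.val (LinearMap.congr_fun hg ⟨u, hu⟩)
      rw [hρW] at h2
      exact h2
    have h2 : ρ (g : Q) = 1 := h1
    exact Subtype.ext (hρ (h2.trans (map_one ρ).symm))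
  let Y₀ : Module.End K W := (X : Module.End K U).restrict hWX
  have hY₀ : ∀ u : W, ((Y₀ u : W) : U) = (X : Module.End K U) u := fun u => rfl
  have hXm' : (X : Module.End K U) ^ p ^ m = 1 := by
    rw [← Units.val_pow_eq_pow_val, hXm, Units.val_one]
  have hY₀pow : Y₀ ^ (p ^ m) = 1 := by
    ext u
    rw [PLocal.HHBCoreAux.restrict_pow_apply W X Y₀ hY₀, hXm']
    rfl
  have hpm : p ^ m ≠ 0 := (pow_pos hp.out.pos m).ne'
  obtain ⟨Y, hYval⟩ : ∃ Y : (Module.End K W)ˣ, (Y : Module.End K W) = Y₀ :=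
    IsUnit.of_pow_eq_one hY₀pow hpm
  have hYρ : ∀ h, (Y : Module.End K W) * ρW h = ρW (τ h) * Y := by
    intro h
    rw [hYval]
    ext u
    change (X : Module.End K U) ((ρW h u : W) : U) = ((ρW (τ h) (Y₀ u) : W) : U)
    rw [hρW, hρW, hY₀]
    exact LinearMap.congr_fun (hXM h) (u : U)
  have hτm : τ ^ p ^ m = 1 := by
    ext g
    rw [hτ, hσ]
    rfl
  have hgen : closure {w : M | ∃ h : M, w = (τ ^ (p ^ (m - 1))) h * h⁻¹} = ⊤ := by
    apply Subgroup.map_injective M.subtype_injective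
    rw [MonoidHom.map_closure, ← MonoidHom.range_eq_map, Subgroup.range_subtype]
    refine Eq.trans ?_ (brk_gen hQp z hzp)
    congr 1
    ext w
    constructor
    · rintro ⟨_, ⟨h, rfl⟩, rfl⟩
      refine ⟨h, h.2, ?_⟩
      rw [← hτ]
      rfl
    · rintro ⟨u, hu, rfl⟩
      refine ⟨_, ⟨⟨u, hu⟩, rfl⟩, ?_⟩
      change (((τ ^ (p ^ (m - 1))) ⟨u, hu⟩ : M) : Q) * u⁻¹ = _
      rw [hτ]
  have hclM : ∀ a b c : M, ⁅a, b⁆ * c = c * ⁅a, b⁆ := by
    intro a b c
    apply Subtype.ext
    exact hcl a b c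
  obtain ⟨κ, hκ⟩ := exists_commScalar hirrW hclM
  let _ : Fintype M := Fintype.ofFinite M
  have hcard' : (Fintype.card M : K) ≠ 0 := by rwa [← Nat.card_eq_fintype_card]
  have hD : Decomp Y (p ^ m) := by
    intro T hT
    exact hκ.exists_trace hirrW hcard' hYρ hm hτm hgen hT
  have hY1 : (Y : Module.End K W) - 1 ≠ 0 := by
    intro h0
    obtain ⟨g, hg, hgz⟩ := hMne
    apply hgz
    have h1 : ∀ h, τ h = h := by
      intro h
      apply hρWinj
      have h2 := hYρ h
      rw [sub_eq_zero.1 h0, one_mul, mul_one] at h2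
      exact h2.symm
    have h2 : τ = 1 := MulEquiv.ext h1
    have h3 := hτ (p ^ (m - 1)) ⟨g, hg⟩
    rw [h2, one_pow] at h3
    exact h3.symm
  have h0 : ((Y : Module.End K W) - 1) ^ (p ^ m - 1) = 0 := by
    rw [hYval]
    ext u
    rw [PLocal.HHBCoreAux.restrict_pow_apply W ((X : Module.End K U) - 1) (Y₀ - 1) (fun u => rfl), hr]
    rfl
  have hfr := finrank_eq_of_decomp p m hm hD hY1 h0
  have hne2 := pow_ne_zero_of_decomp p m hm hD hY1
  have hsq := PLocal.HHBFinrankSq.finrank_sq hcard' hκ hirrW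
  have hrad : hκ.rad = (center Q).subgroupOf M := by
    ext u
    rw [hκ.mem_rad, Subgroup.mem_subgroupOf]
    constructor
    · intro h
      apply Brk.mem_center_of_mem hQp hzp hcl hZ u.2
      intro b hb
      have h1 := hκ.comm ⟨b, hb⟩ u
      rw [h, one_smul, ← map_mul, ← map_mul] at h1
      exact congrArg Subtype.val (hρWinj h1)
    · intro h b
      have h1 := hκ.comm b u
      have h2 : b * u = u * b := Subtype.ext (mem_center_iff.mp h b)
      rw [← map_mul, ← map_mul, h2] at h1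
      have h3 : κ b u • ρW (u * b) = (1 : K) • ρW (u * b) := by rw [one_smul]; exact h1.symm
      exact scal_inj ρW (u * b) h3
  refine ⟨?_, W, hWbot, fun h hh u hu => hWρ ⟨h, hh⟩ u hu, ?_, hWX, ?_⟩
  · rw [Subgroup.relIndex, ← hrad, ← hsq, hfr]
  · intro S hS hSρ
    exact hWirr S hS (fun h u hu => hSρ h h.2 u hu)
  · by_contra hcon
    push Not at hcon
    apply hne2
    rw [hYval]
    ext u
    rw [PLocal.HHBCoreAux.restrict_pow_apply W ((X : Module.End K U) - 1) (Y₀ - 1) (fun u => rfl)]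
    exact hcon u u.2

/-- the case `p ^ m = 9`: `σ` centralizes `C_Q(σ³)`. -/
theorem fixed_of_nine {K : Type*} [Field K] [IsAlgClosed K] [CharP K 3]
    {U : Type*} [AddCommGroup U] [Module K U]
    {Q : Type*} [Group Q] [Finite Q] (hQp : ¬ 3 ∣ Nat.card Q) (hcl : ∀ a b c : Q, ⁅a, b⁆ * c = c * ⁅a, b⁆)
    (ρ : Q →* Module.End K U) (hρ : Function.Injective ρ) (hirr : IsIrr ρ)
    (σ : MulAut Q) (X : (Module.End K U)ˣ) (hX : ∀ g, (X : Module.End K U) * ρ g = ρ (σ g) * X)
    (hσ : σ ^ 9 = 1) (hZ : ∀ c ∈ center Q, (σ ^ 3) c = c)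
    (hr : ((X : Module.End K U) - 1) ^ 8 = 0)
    (W : Submodule K U) (hW : W ≠ ⊥) (hWρ : ∀ h ∈ brk (σ ^ 3), ∀ u ∈ W, ρ h u ∈ W)
    (hWirr : ∀ S ≤ W, (∀ h ∈ brk (σ ^ 3), ∀ u ∈ S, ρ h u ∈ S) → S = ⊥ ∨ S = W)
    (hWX : ∀ u ∈ W, (X : Module.End K U) u ∈ W)
    (hu : ∃ u ∈ W, (((X : Module.End K U) - 1) ^ 7 : Module.End K U) u ≠ 0) :
    ∀ n ∈ fx (σ ^ 3), σ n = n := by
  have hf3 : Fact (Nat.Prime 3) := ⟨Nat.prime_three⟩
  set z := σ ^ 3 with hzdef
  have hzp : z ^ 3 = 1 := by rw [hzdef, ← pow_mul, hσ]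
  have hzσ : Commute z σ := by
    rw [hzdef]
    exact (Commute.refl σ).pow_left _
  set ν : Module.End K U := (X : Module.End K U) - 1 with hν
  have hXν : (X : Module.End K U) = ν + 1 := by rw [hν]; abel
  have h3K : (3 : Module.End K U) = 0 := by
    have h1 : (3 : K) = 0 := by
      have := CharP.cast_eq_zero K 3
      exact_mod_cast this
    have h2 : algebraMap K (Module.End K U) 3 = (3 : Module.End K U) := map_ofNat _ 3
    rw [← h2, h1, map_zero]
  have hX3 : (1 : Module.End K U) + (X : Module.End K U) ^ 3 + (X : Module.End K U) ^ 6 = ν ^ 6 := by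
    have h1 : (1 : Module.End K U) + (X : Module.End K U) ^ 3 + (X : Module.End K U) ^ 6 - ν ^ 6 =
        3 * (1 + 3 * ν + 6 * ν ^ 2 + 7 * ν ^ 3 + 5 * ν ^ 4 + 2 * ν ^ 5) := by
      rw [hXν]; noncomm_ring
    rw [h3K, zero_mul, sub_eq_zero] at h1
    exact h1
  have hν8 : ν ^ 8 = 0 := hr
  have hsum : ∑ i ∈ Finset.range 9, (X : Module.End K U) ^ i = 0 := by
    have h1 := geom_eq K 3 (X : Module.End K U) 2
    have h2 : (3 : ℕ) ^ 2 = 9 := by norm_num
    rw [h2] at h1
    rw [h1]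
    exact hr
  -- the operator identity
  have hop : ∀ n ∈ fx z, (1 + ρ (n⁻¹ * σ n) * (X : Module.End K U) +
      ρ (n⁻¹ * σ (σ n)) * (X : Module.End K U) ^ 2) * ν ^ 6 = 0 := by
    intro n hn
    have hz3 : σ (σ (σ n)) = n := by
      have : z n = n := hn
      rw [hzdef] at this
      simpa [pow_succ] using this
    have h1 : ρ n⁻¹ * (∑ i ∈ Finset.range 9, (X : Module.End K U) ^ i) * ρ n = 0 := by
      rw [hsum, mul_zero, zero_mul]
    have h2 : ∀ i, ρ n⁻¹ * (X : Module.End K U) ^ i * ρ n =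
        ρ (n⁻¹ * (σ ^ i) n) * (X : Module.End K U) ^ i := by
      intro i
      rw [mul_assoc, rho_pow hX, ← mul_assoc, ← map_mul]
    rw [Finset.mul_sum, Finset.sum_mul, Finset.sum_congr rfl (fun i _ => h2 i)] at h1
    simp only [Finset.sum_range_succ, Finset.sum_range_zero] at h1
    have e0 : (σ ^ 0) n = n := by simp
    have e1 : (σ ^ 1) n = σ n := by simp
    have e2 : (σ ^ 2) n = σ (σ n) := by simp [pow_succ]
    have e3 : (σ ^ 3) n = n := by simp [pow_succ, hz3]
    have e4 : (σ ^ 4) n = σ n := by simp [pow_succ, hz3]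
    have e5 : (σ ^ 5) n = σ (σ n) := by simp [pow_succ, hz3]
    have e6 : (σ ^ 6) n = n := by simp [pow_succ, hz3]
    have e7 : (σ ^ 7) n = σ n := by simp [pow_succ, hz3]
    have e8 : (σ ^ 8) n = σ (σ n) := by simp [pow_succ, hz3]
    rw [e0, e1, e2, e3, e4, e5, e6, e7, e8, inv_mul_cancel, map_one] at h1
    rw [← hX3]
    refine Eq.trans ?_ h1
    noncomm_ring
  -- step one: `A₁ = 1` on `W`
  obtain ⟨u, huW, hu7⟩ := hu
  have hWν : ∀ w ∈ W, ν w ∈ W := by
    intro w hw
    rw [hν]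
    exact W.sub_mem (hWX w hw) hw
  have hWνk : ∀ k : ℕ, ∀ w ∈ W, (ν ^ k) w ∈ W := by
    intro k
    induction k with
    | zero => intro w hw; simpa using hw
    | succ k ih =>
      intro w hw
      rw [pow_succ, Module.End.mul_apply]
      exact ih _ (hWν w hw)
  set w₀ := (ν ^ 6) u with hw₀
  set w₁ := (ν ^ 7) u with hw₁
  have hw₀W : w₀ ∈ W := hWνk 6 u huW
  have hw₁W : w₁ ∈ W := hWνk 7 u huW
  have hνw₀ : ν w₀ = w₁ := by
    rw [hw₀, hw₁, ← Module.End.mul_apply, ← pow_succ']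
  have hνw₁ : ν w₁ = 0 := by
    rw [hw₁, ← Module.End.mul_apply, ← pow_succ', hν8, LinearMap.zero_apply]
  have hXw₁ : (X : Module.End K U) w₁ = w₁ := by
    rw [hXν, LinearMap.add_apply, hνw₁, zero_add, Module.End.one_apply]
  have hXw₀ : (X : Module.End K U) w₀ = w₁ + w₀ := by
    rw [hXν, LinearMap.add_apply, hνw₀, Module.End.one_apply]
  -- operators commuting with `M`
  have hkill : ∀ B : Module.End K U, (∀ a ∈ brk z, B * ρ a = ρ a * B) → B w₁ = 0 → ∀ w ∈ W, B w = 0 := by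
    intro B hB hB1
    have h1 : W ⊓ LinearMap.ker B = W := by
      rcases hWirr (W ⊓ LinearMap.ker B) inf_le_left (by
        rintro h hh v ⟨hv1, hv2⟩
        refine ⟨hWρ h hh v hv1, ?_⟩
        show B (ρ h v) = 0
        rw [← Module.End.mul_apply, hB h hh, Module.End.mul_apply, show B v = 0 from hv2, map_zero]) with h | h
      · exfalso
        have : w₁ ∈ W ⊓ LinearMap.ker B := ⟨hw₁W, hB1⟩
        rw [h, Submodule.mem_bot] at this
        exact hu7 this
      · exact h
    intro w hw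
    rw [← h1] at hw
    exact hw.2
  have hcommM : ∀ n ∈ fx z, ∀ a ∈ brk z, ρ n * ρ a = ρ a * ρ n := by
    intro n hn a ha
    rw [← map_mul, ← map_mul, Brk.comm hcl hZ ha hn]
  have hN1 : ∀ n ∈ fx z, n⁻¹ * σ n ∈ fx z := fun n hn => mul_mem (inv_mem hn) (fx_invariant hzσ hn)
  have hN2 : ∀ n ∈ fx z, n⁻¹ * σ (σ n) ∈ fx z := fun n hn =>
    mul_mem (inv_mem hn) (fx_invariant hzσ (fx_invariant hzσ hn))
  have hA : ∀ n ∈ fx z, ∀ w ∈ W, ρ (n⁻¹ * σ n) w = w := by
    intro n hn
    have h1 := hop n hn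
    set A₁ := ρ (n⁻¹ * σ n) with hA₁
    set A₂ := ρ (n⁻¹ * σ (σ n)) with hA₂
    have hA₁c : ∀ a ∈ brk z, A₁ * ρ a = ρ a * A₁ := hcommM _ (hN1 n hn)
    have hA₂c : ∀ a ∈ brk z, A₂ * ρ a = ρ a * A₂ := hcommM _ (hN2 n hn)
    have h2 : w₁ + A₁ w₁ + A₂ w₁ = 0 := by
      have h3 : ((1 + A₁ * (X : Module.End K U) + A₂ * (X : Module.End K U) ^ 2) * ν ^ 6 : Module.End K U)
          (ν u) = 0 := by
        rw [h1]; rfl
      rw [Module.End.mul_apply, ← Module.End.mul_apply (ν ^ 6), ← pow_succ, ← hw₁] at h3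
      simpa [pow_two, hXw₁] using h3
    have h3 : w₀ + A₁ (w₁ + w₀) + A₂ (w₁ + (w₁ + w₀)) = 0 := by
      have h4 : ((1 + A₁ * (X : Module.End K U) + A₂ * (X : Module.End K U) ^ 2) * ν ^ 6 : Module.End K U)
          u = 0 := by
        rw [h1]; rfl
      rw [Module.End.mul_apply, ← hw₀] at h4
      simp only [LinearMap.add_apply, Module.End.mul_apply, Module.End.one_apply, pow_two, hXw₁, hXw₀,
        map_add] at h4 ⊢
      exact h4
    have hB : ∀ w ∈ W, (1 + A₁ + A₂ : Module.End K U) w = 0 := by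
      apply hkill
      · intro a ha
        rw [add_mul, add_mul, mul_add, mul_add, hA₁c a ha, hA₂c a ha, one_mul, mul_one]
      · simpa using h2
    have hC : ∀ w ∈ W, (A₁ + A₂ + A₂ : Module.End K U) w = 0 := by
      apply hkill
      · intro a ha
        rw [add_mul, add_mul, mul_add, mul_add, hA₁c a ha, hA₂c a ha]
      · have h4 := hB w₀ hw₀W
        simp only [LinearMap.add_apply, Module.End.one_apply, map_add] at h3 h4 ⊢
        have h5 : A₁ w₁ + A₂ w₁ + A₂ w₁ =
            (w₀ + (A₁ w₁ + A₁ w₀) + (A₂ w₁ + (A₂ w₁ + A₂ w₀))) - (w₀ + A₁ w₀ + A₂ w₀) := by abel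
        rw [h5, h3, h4, sub_zero]
    intro w hw
    have h4 := hB w hw
    have h5 := hC w hw
    simp only [LinearMap.add_apply, Module.End.one_apply] at h4 h5
    have h6 : w + w + w = 0 := by
      have := LinearMap.congr_fun h3K w
      have h7 : (3 : Module.End K U) = 1 + 1 + 1 := by norm_num
      rw [h7] at this
      simpa using this
    -- `2 (w + A₁ w + A₂ w) - (A₁ w + 2 A₂ w) = 2 w + A₁ w`
    have h7 : A₁ w - w = (w + A₁ w + A₂ w) + (w + A₁ w + A₂ w) - (A₁ w + A₂ w + A₂ w) - (w + w + w) := by abel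
    rw [h4, h5, h6] at h7
    simp only [add_zero, sub_zero] at h7
    exact sub_eq_zero.mp h7
  -- step two: the fixed space is everything
  let F : Submodule K U :=
    { carrier := {v | ∀ n ∈ fx z, ρ (n⁻¹ * σ n) v = v}
      add_mem' := by
        intro a b ha hb n hn
        rw [map_add, ha n hn, hb n hn]
      zero_mem' := fun n _ => map_zero _
      smul_mem' := by
        intro c a ha n hn
        rw [map_smul, ha n hn] }
  have hF : F = ⊤ := by
    rcases hirr F (by
      intro g v hv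
      obtain ⟨a, ha, n', hn', rfl⟩ := Brk.exists_decomp hQp z hzp g
      have h1 : ρ n' v ∈ F := by
        intro n hn
        have h2 : n⁻¹ * σ n * n' = n' * (((n * n')⁻¹ * σ (n * n')) * (n'⁻¹ * σ n')⁻¹) := by
          rw [map_mul]; group
        have h3 : ρ (n'⁻¹ * σ n')⁻¹ v = v := by
          have h4 : ρ (n'⁻¹ * σ n')⁻¹ (ρ (n'⁻¹ * σ n') v) = v := by
            rw [← Module.End.mul_apply, ← map_mul, inv_mul_cancel, map_one, Module.End.one_apply]
          rwa [hv n' hn'] at h4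
        rw [← Module.End.mul_apply, ← map_mul, h2, map_mul, map_mul, Module.End.mul_apply,
          Module.End.mul_apply, h3, hv _ (mul_mem hn hn')]
      intro n hn
      rw [map_mul ρ a n', Module.End.mul_apply, ← Module.End.mul_apply, hcommM _ (hN1 n hn) a ha,
        Module.End.mul_apply, h1 n hn]) with h | h
    · exfalso
      apply hW
      rw [eq_bot_iff, ← h]
      intro w hw n hn
      exact hA n hn w hw
    · exact h
  intro n hn
  have h1 : ρ (n⁻¹ * σ n) = 1 := by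
    ext v
    have : v ∈ F := by rw [hF]; trivial
    exact this n hn
  have h2 : n⁻¹ * σ n = 1 := hρ (h1.trans (map_one ρ).symm)
  exact (inv_mul_eq_one.mp h2).symm

/-- `σ` centralizes the centre. -/
theorem center_fixed {K : Type*} [Field K] [IsAlgClosed K]
    {U : Type*} [AddCommGroup U] [Module K U] [FiniteDimensional K U] [Nontrivial U]
    {Q : Type*} [Group Q]
    (ρ : Q →* Module.End K U) (hρ : Function.Injective ρ) (hirr : IsIrr ρ)
    (σ : MulAut Q) (X : (Module.End K U)ˣ) (hX : ∀ g, (X : Module.End K U) * ρ g = ρ (σ g) * X) :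
    ∀ c ∈ center Q, σ c = c := by
  intro c hc
  obtain ⟨s, hs⟩ := schur hirr (ρ c) (fun h => by
    rw [← map_mul, ← map_mul, mem_center_iff.mp hc h])
  apply hρ
  have h1 := hX c
  rw [hs, mul_smul_comm, mul_one] at h1
  have h2 : s • (X : Module.End K U) = ρ c * X := by rw [hs, smul_mul_assoc, one_mul]
  rw [h2] at h1
  exact ((Units.mul_left_inj X).1 h1).symm

theorem single {K : Type*} [Field K] [IsAlgClosed K] {p : ℕ} [hp : Fact p.Prime] [CharP K p]
    (hp2 : p ≠ 2) {U : Type*} [AddCommGroup U] [Module K U] [FiniteDimensional K U] [Nontrivial U]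
    {Q : Type*} [Group Q] [Finite Q] (hQ : IsPGroup 2 Q) (hcl : ∀ a b c : Q, ⁅a, b⁆ * c = c * ⁅a, b⁆)
    (ρ : Q →* Module.End K U) (hρ : Function.Injective ρ) (hirr : IsIrr ρ)
    (σ : MulAut Q) (X : (Module.End K U)ˣ) (hX : ∀ g, (X : Module.End K U) * ρ g = ρ (σ g) * X) (m : ℕ)
    (hm : 1 ≤ m) (hXm : X ^ p ^ m = 1) (hr : ((X : Module.End K U) - 1) ^ (p ^ m - 1) = 0)
    (hz : σ ^ p ^ (m - 1) ≠ 1) :
    ∃ M : Subgroup Q, (∀ g, σ g * g⁻¹ ∈ M) ∧ (center Q).relIndex M = (p ^ m - 1) ^ 2 ∧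
      (∀ g ∈ M, (σ ^ p ^ (m - 1)) g * g⁻¹ ∈ center Q → g ∈ center Q) := by
  have hfp2 : Fact (Nat.Prime 2) := ⟨Nat.prime_two⟩
  have hcf := center_fixed ρ hρ hirr σ X hX
  have hXm' : (X : Module.End K U) ^ p ^ m = 1 := by
    rw [← Units.val_pow_eq_pow_val, hXm, Units.val_one]
  have hσ : σ ^ p ^ m = 1 := by
    ext g
    apply hρ
    have h1 := rho_pow hX (p ^ m) g
    rw [hXm', one_mul, mul_one] at h1
    exact h1.symm
  have hZk : ∀ k : ℕ, ∀ c ∈ center Q, (σ ^ k) c = c := by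
    intro k c hc
    induction k with
    | zero => simp
    | succ k ih => rw [pow_succ', MulAut.mul_apply, ih, hcf c hc]
  have hZ := hZk (p ^ (m - 1))
  obtain ⟨h1, W, hWbot, hWρ, hWirr, hWX, hWu⟩ :=
    relIndex_eq hp2 hQ hcl ρ hρ hirr σ X hX m hm hσ hZ hXm hr hz
  set z := σ ^ p ^ (m - 1) with hzdef
  have hzp : z ^ p = 1 := by
    rw [hzdef, ← pow_mul, ← pow_succ, Nat.sub_add_cancel hm, hσ]
  have hQp := not_dvd_card (p := p) hp2 hQ
  have hzσ : Commute z σ := by
    rw [hzdef]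
    exact (Commute.refl σ).pow_left _
  refine ⟨brk z, ?_, h1, ?_⟩
  · obtain ⟨a, ha⟩ := IsPGroup.iff_card.1 hQ
    have h2 : (p ^ m - 1) ∣ 2 ^ a := by
      rw [← ha]
      refine (Dvd.intro _ (pow_two _).symm).trans ?_
      rw [← h1]
      exact (Subgroup.relIndex_dvd_card _ _).trans (Subgroup.card_subgroup_dvd_card _)
    obtain ⟨b, _, hb⟩ := (Nat.dvd_prime_pow Nat.prime_two).mp h2
    rcases Elem.eq_one_or_nine hp.out hp2 hm hb with h3 | ⟨h3, h4⟩
    · intro g
      have : z = σ := by rw [hzdef, h3]; simp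
      have h4 := mem_brk z g
      rwa [← this]
    · subst h3
      subst h4
      have hz3 : z = σ ^ 3 := by rw [hzdef]; norm_num
      have hσ9 : σ ^ 9 = 1 := by simpa using hσ
      have hr8 : ((X : Module.End K U) - 1) ^ 8 = 0 := by simpa using hr
      have h5 := fixed_of_nine hQp hcl ρ hρ hirr σ X hX hσ9 (fun c hc => hZk 3 c hc) hr8 W hWbot
        (by rw [← hz3]; exact hWρ) (by rw [← hz3]; exact hWirr) hWX (by simpa using hWu)
      intro g
      obtain ⟨a, ha, n, hn, rfl⟩ := Brk.exists_decomp hQp z hzp g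
      have h6 : σ n = n := h5 n (by rw [← hz3]; exact hn)
      have h7 : σ (a * n) * (a * n)⁻¹ = σ a * a⁻¹ := by rw [map_mul, h6]; group
      rw [h7]
      exact mul_mem (brk_invariant hzσ ha) (inv_mem ha)
  · intro g hg hgc
    have h3 : g⁻¹ * z g ∈ center Q := by
      have h4 : g⁻¹ * z g = g⁻¹ * (z g * g⁻¹) * g⁻¹⁻¹ := by group
      rw [h4]
      exact (inferInstance : (center Q).Normal).conj_mem _ hgc _
    have h4 : z g = g := PLocal.HHBMinimal.apply_eq_of_fixed z g (hZ _ h3) p hzp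
      (by simpa using PLocal.HHBMinimal.coprime_orderOf (p := p) (q := 2) hp2.symm hQ (g⁻¹ * z g) 1)
    apply Brk.mem_center_of_mem hQp hzp hcl hZ hg
    intro b hb
    exact Brk.comm hcl hZ hb h4

end Cfsg.Agent.H450.Single
end

-- part: H450/StarMain
section
/-!
# Two elements acting on an isotypic faithful representation of a `2`-group
-/

set_option autoImplicit false

namespace Cfsg.Agent.H450.StarMain

open Subgroup
open Cfsg.Agent.PLocal.HHBClifford Cfsg.Agent.PLocal.HHBLinear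
open scoped commutatorElement

section homs

variable {R Q : Type*} [Group R] [Group Q]

theorem exists_restrict_hom (α : R →* MulAut Q) (L : Subgroup Q) (hL : ∀ r, ∀ g ∈ L, α r g ∈ L) :
    ∃ β : R →* MulAut L, ∀ r (g : L), ((β r g : L) : Q) = α r g := by
  refine ⟨
    { toFun := fun r =>
        { toFun := fun g => ⟨α r g, hL r g g.2⟩
          invFun := fun g => ⟨α r⁻¹ g, hL r⁻¹ g g.2⟩
          left_inv := fun g => Subtype.ext (by simp)
          right_inv := fun g => Subtype.ext (by simp)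
          map_mul' := fun g h => Subtype.ext (by simp) }
      map_one' := by ext g; simp
      map_mul' := by intro r s; ext g; simp }, fun r g => rfl⟩

theorem exists_quotient_hom (α : R →* MulAut Q) (N : Subgroup Q) [N.Normal] (hN : ∀ r, ∀ g ∈ N, α r g ∈ N) :
    ∃ β : R →* MulAut (Q ⧸ N), ∀ r g, β r (QuotientGroup.mk' N g) = QuotientGroup.mk' N (α r g) := by
  have hle : ∀ r, N ≤ N.comap (α r).toMonoidHom := fun r g hg => hN r g hg
  refine ⟨
    { toFun := fun r =>
        { toFun := QuotientGroup.map N N (α r).toMonoidHom (hle r)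
          invFun := QuotientGroup.map N N (α r⁻¹).toMonoidHom (hle r⁻¹)
          left_inv := ?_
          right_inv := ?_
          map_mul' := fun g h => map_mul _ g h }
      map_one' := ?_
      map_mul' := ?_ }, fun r g => rfl⟩
  · intro x
    obtain ⟨g, rfl⟩ := QuotientGroup.mk'_surjective N x
    show QuotientGroup.mk' N (α r⁻¹ (α r g)) = _
    rw [map_inv, MulAut.inv_apply_self]
  · intro x
    obtain ⟨g, rfl⟩ := QuotientGroup.mk'_surjective N x
    show QuotientGroup.mk' N (α r (α r⁻¹ g)) = _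
    rw [map_inv, MulAut.apply_inv_self]
  · ext x
    obtain ⟨g, rfl⟩ := QuotientGroup.mk'_surjective N x
    show QuotientGroup.mk' N (α 1 g) = _
    rw [map_one]
    rfl
  · intro r s
    ext x
    obtain ⟨g, rfl⟩ := QuotientGroup.mk'_surjective N x
    show QuotientGroup.mk' N (α (r * s) g) = QuotientGroup.mk' N (α r (α s g))
    rw [map_mul]
    rfl

/-- invariance under the generators -/
theorem invariant_closure [Finite Q] (α : R →* MulAut Q) (L : Subgroup Q) (y₁ y₂ : R)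
    (h₁ : ∀ g ∈ L, α y₁ g ∈ L) (h₂ : ∀ g ∈ L, α y₂ g ∈ L) :
    ∀ r ∈ closure ({y₁, y₂} : Set R), ∀ g ∈ L, α r g ∈ L := by
  have hmap : ∀ r : R, (∀ g ∈ L, α r g ∈ L) → L.map (α r).toMonoidHom = L := by
    intro r hr
    have hle : L.map (α r).toMonoidHom ≤ L := by
      rintro _ ⟨g, hg, rfl⟩
      exact hr g hg
    exact Subgroup.eq_of_le_of_card_ge hle (Subgroup.card_map_of_injective (α r).injective).ge
  have hinv : ∀ r : R, (∀ g ∈ L, α r g ∈ L) → ∀ g ∈ L, α r⁻¹ g ∈ L := by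
    intro r hr g hg
    rw [← hmap r hr] at hg
    obtain ⟨g', hg', rfl⟩ := hg
    show α r⁻¹ (α r g') ∈ L
    rw [map_inv, MulAut.inv_apply_self]
    exact hg'
  intro r hr
  induction hr using closure_induction with
  | mem r hr =>
    rcases hr with rfl | rfl
    · exact h₁
    · exact h₂
  | one => intro g hg; simpa using hg
  | mul a b _ _ ha hb => intro g hg; rw [map_mul]; exact ha _ (hb _ hg)
  | inv a _ ha => exact hinv a ha

end homs

/-- **The isotypic case.** -/
theorem isotypic {K : Type*} [Field K] [IsAlgClosed K] {p k : ℕ} [hp : Fact p.Prime] [CharP K p]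
    (hk : 2 ^ k + 1 = p) (hk1 : 1 ≤ k) {V : Type*} [AddCommGroup V] [Module K V] [FiniteDimensional K V]
    {Q : Type*} [Group Q] [Finite Q] (hQ : IsPGroup 2 Q) {R : Type*} [Group R] [Finite R] (hR : IsPGroup p R)
    (α : R →* MulAut Q) (ρ : Q →* Module.End K V) (hρ : Function.Injective ρ) (y₁ y₂ : R)
    (X₁ X₂ : (Module.End K V)ˣ)
    (hX₁ : ∀ g, (X₁ : Module.End K V) * ρ g = ρ (α y₁ g) * X₁)
    (hX₂ : ∀ g, (X₂ : Module.End K V) * ρ g = ρ (α y₂ g) * X₂) (m₁ m₂ : ℕ) (hm₁ : 1 ≤ m₁) (hm₂ : 1 ≤ m₂)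
    (hXm₁ : X₁ ^ p ^ m₁ = 1) (hXm₂ : X₂ ^ p ^ m₂ = 1)
    (hr₁ : ((X₁ : Module.End K V) - 1) ^ (p ^ m₁ - 1) = 0)
    (hr₂ : ((X₂ : Module.End K V) - 1) ^ (p ^ m₂ - 1) = 0)
    (U₀ : Submodule (alg ρ) V) (hU₀ : IsSimpleModule (alg ρ) U₀)
    (htop : isotypicComponent (alg ρ) V U₀ = ⊤)
    (hL : ∀ L : Subgroup Q, L ≠ ⊤ → (∀ g ∈ L, α y₁ g ∈ L) → (∀ g ∈ L, α y₂ g ∈ L) → ∀ g ∈ L,
      α (y₁ ^ p ^ (m₁ - 1)) (α (y₂ ^ p ^ (m₂ - 1)) g) = α (y₂ ^ p ^ (m₂ - 1)) (α (y₁ ^ p ^ (m₁ - 1)) g)) :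
    ∀ g, α (y₁ ^ p ^ (m₁ - 1)) (α (y₂ ^ p ^ (m₂ - 1)) g) = α (y₂ ^ p ^ (m₂ - 1)) (α (y₁ ^ p ^ (m₁ - 1)) g) := by
  classical
  have hfp2 : Fact (Nat.Prime 2) := ⟨Nat.prime_two⟩
  have hp2 : p ≠ 2 := by
    intro h
    have h2 : 2 ^ 1 ≤ 2 ^ k := Nat.pow_le_pow_right (by norm_num) hk1
    omega
  -- general form of the claim
  set c₁ := y₁ ^ p ^ (m₁ - 1) with hc₁
  set c₂ := y₂ ^ p ^ (m₂ - 1) with hc₂
  set t := ⁅c₁, c₂⁆ with ht
  set R' := closure ({y₁, y₂} : Set R) with hR'
  have hy₁ : y₁ ∈ R' := Subgroup.subset_closure (by simp)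
  have hy₂ : y₂ ∈ R' := Subgroup.subset_closure (by simp)
  have hc₁R : c₁ ∈ R' := R'.pow_mem hy₁ _
  have hc₂R : c₂ ∈ R' := R'.pow_mem hy₂ _
  by_contra hcon
  have htne : ¬ ∀ g, α t g = g := by
    intro h
    apply hcon
    intro g
    have h1 := h (α c₂ (α c₁ g))
    rw [← MulAut.mul_apply, ← MulAut.mul_apply, ← map_mul, ← map_mul] at h1
    have h2 : t * c₂ * c₁ = c₁ * c₂ := by rw [ht, commutatorElement_def]; group
    rw [h2, map_mul, MulAut.mul_apply] at h1
    exact h1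
  have hLt : ∀ L : Subgroup Q, L ≠ ⊤ → (∀ r ∈ R', ∀ g ∈ L, α r g ∈ L) → ∀ g ∈ L, α t g = g := by
    intro L hLtop hinv g hg
    have h1 := hL L hLtop (hinv y₁ hy₁) (hinv y₂ hy₂) (α c₁⁻¹ (α c₂⁻¹ g))
      (hinv _ (inv_mem hc₁R) _ (hinv _ (inv_mem hc₂R) g hg))
    rw [← MulAut.mul_apply, ← MulAut.mul_apply, ← MulAut.mul_apply, ← map_mul, ← map_mul, ← map_mul,
      ← MulAut.mul_apply, ← MulAut.mul_apply, ← MulAut.mul_apply, ← map_mul, ← map_mul, ← map_mul] at h1
    have e1 : c₁ * c₂ * c₁⁻¹ * c₂⁻¹ = t := by rw [ht, commutatorElement_def]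
    have e2 : c₂ * c₁ * c₁⁻¹ * c₂⁻¹ = 1 := by group
    rw [e1, e2, map_one, MulAut.one_apply] at h1
    exact h1
  -- the conjugates of `t`
  have hLt' : ∀ L : Subgroup Q, L ≠ ⊤ → (∀ r ∈ R', ∀ g ∈ L, α r g ∈ L) → ∀ r ∈ R', ∀ g ∈ L,
      α (r * t * r⁻¹) g = g := by
    intro L hLtop hinv r hr g hg
    rw [map_mul, map_mul, MulAut.mul_apply, MulAut.mul_apply, hLt L hLtop hinv _ (hinv _ (inv_mem hr) g hg),
      map_inv, MulAut.apply_inv_self]
  obtain ⟨a, ha⟩ := hR t
  have hta : (α t) ^ (p ^ a) = 1 := by rw [← map_pow, ha, map_one]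
  -- `B = ⊤`
  set B := closure {w : Q | ∃ r ∈ R', ∃ g, w = α (r * t * r⁻¹) g * g⁻¹} with hB
  have hBtop : B = ⊤ := by
    by_contra hne
    apply htne
    have hinv : ∀ r ∈ R', ∀ g ∈ B, α r g ∈ B := by
      intro r hr g hg
      induction hg using closure_induction with
      | mem w hw =>
        obtain ⟨s, hs, g, rfl⟩ := hw
        rw [map_mul, map_inv]
        apply Subgroup.subset_closure
        refine ⟨r * s, R'.mul_mem hr hs, α r g, ?_⟩
        congr 1
        rw [← MulAut.mul_apply, ← MulAut.mul_apply, ← map_mul, ← map_mul]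
        congr 2
        group
      | one => rw [map_one]; exact one_mem _
      | mul a b _ _ ha hb => rw [map_mul]; exact mul_mem ha hb
      | inv a _ ha => rw [map_inv]; exact inv_mem ha
    intro g
    have h0 : ∀ g, α t g * g⁻¹ ∈ B := fun g => Subgroup.subset_closure ⟨1, one_mem _, g, by simp⟩
    have h1 : α t (α t g⁻¹ * g⁻¹⁻¹) = α t g⁻¹ * g⁻¹⁻¹ := hLt B hne hinv _ (h0 g⁻¹)
    have h2 : α t (g⁻¹ * α t g) = g⁻¹ * α t g := by
      have h3 : g⁻¹ * α t g = (α t g⁻¹ * g⁻¹⁻¹)⁻¹ := by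
        rw [map_inv]; group
      rw [h3, map_inv, h1]
    exact PLocal.HHBMinimal.apply_eq_of_fixed (α t) g h2 (p ^ a) hta
      (PLocal.HHBMinimal.coprime_orderOf (p := p) (q := 2) hp2.symm hQ (g⁻¹ * α t g) a)
  -- proper normal invariant subgroups are central
  have hcen : ∀ D : Subgroup Q, D.Normal → D ≠ ⊤ → (∀ r ∈ R', ∀ g ∈ D, α r g ∈ D) → D ≤ center Q := by
    intro D hDn hDtop hinv d hd
    have h1 : B ≤ centralizer {d} := by
      rw [hB, closure_le]
      rintro _ ⟨r, hr, g, rfl⟩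
      rw [SetLike.mem_coe, mem_centralizer_singleton_iff]
      have h2 := hLt' D hDtop hinv r hr d hd
      have h3 := hLt' D hDtop hinv r hr (g⁻¹ * d * g) (by simpa using hDn.conj_mem d hd g⁻¹)
      rw [map_mul, map_mul, map_inv, h2] at h3
      have h4 : d * (α (r * t * r⁻¹) g * g⁻¹) =
          α (r * t * r⁻¹) g * ((α (r * t * r⁻¹) g)⁻¹ * d * α (r * t * r⁻¹) g) * g⁻¹ := by group
      rw [h4, h3]
      group
    rw [mem_center_iff]
    intro g
    have : g ∈ centralizer {d} := h1 (by rw [hBtop]; trivial)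
    exact (mem_centralizer_singleton_iff.mp this)
  -- class two
  have hQ1 : Nontrivial Q := by
    by_contra hcon
    rw [not_nontrivial_iff_subsingleton] at hcon
    exact htne (fun g => Subsingleton.elim _ _)
  have hnil : Group.IsNilpotent Q := hQ.isNilpotent
  have hcomm_ne : commutator Q ≠ ⊤ := (Group.IsSolvable.commutator_lt_top_of_nontrivial Q).ne
  have hchar : ∀ H : Subgroup Q, H.Characteristic → ∀ r, ∀ g ∈ H, α r g ∈ H := by
    intro H hH r g hg
    exact (Subgroup.characteristic_iff_map_le.mp hH) (α r) ⟨g, hg, rfl⟩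
  have hcomm : commutator Q ≤ center Q :=
    hcen _ inferInstance hcomm_ne (fun r _ => hchar _ inferInstance r)
  have hcl : ∀ a b c : Q, ⁅a, b⁆ * c = c * ⁅a, b⁆ := fun a b c =>
    (mem_center_iff.mp (hcomm (commutator_mem_commutator (mem_top a) (mem_top b))) c).symm
  -- the single element data
  have hdata : ∀ (y : R) (X : (Module.End K V)ˣ) (hX : ∀ g, (X : Module.End K V) * ρ g = ρ (α y g) * X)
      (m : ℕ) (hm : 1 ≤ m) (hXm : X ^ p ^ m = 1) (hr : ((X : Module.End K V) - 1) ^ (p ^ m - 1) = 0),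
      (∀ c ∈ center Q, α y c = c) ∧ (α y ^ p ^ (m - 1) ≠ 1 → ∃ M : Subgroup Q, (∀ g, α y g * g⁻¹ ∈ M) ∧
        (center Q).relIndex M = (p ^ m - 1) ^ 2 ∧
        (∀ g ∈ M, (α y ^ p ^ (m - 1)) g * g⁻¹ ∈ center Q → g ∈ center Q)) := by
    intro y X hX m hm hXm hr
    obtain ⟨W, hWbot, hWρ, hWirr, hWX, hWfaith⟩ := Iso.exists_stable_of_isotypic ρ X (α y) hX U₀ hU₀ htop
    obtain ⟨ρW, hρW⟩ := Iso.exists_restrict ρ W hWρ
    have hirrW := Iso.isIrr_restrict ρ W hWirr ρW hρW
    have hWn : Nontrivial W := Submodule.nontrivial_iff_ne_bot.2 hWbot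
    have hρWinj : Function.Injective ρW := by
      rw [← MonoidHom.ker_eq_bot_iff, eq_bot_iff]
      intro g hg
      rw [MonoidHom.mem_ker] at hg
      rw [Subgroup.mem_bot]
      have h1 : ρ g = 1 := by
        apply hWfaith
        intro u hu
        have h2 := congrArg Subtype.val (LinearMap.congr_fun hg ⟨u, hu⟩)
        rw [hρW] at h2
        exact h2
      exact hρ (h1.trans (map_one ρ).symm)
    let Y₀ : Module.End K W := (X : Module.End K V).restrict hWX
    have hY₀ : ∀ u : W, ((Y₀ u : W) : V) = (X : Module.End K V) u := fun u => rfl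
    have hXm' : (X : Module.End K V) ^ p ^ m = 1 := by
      rw [← Units.val_pow_eq_pow_val, hXm, Units.val_one]
    have hY₀pow : Y₀ ^ (p ^ m) = 1 := by
      ext u
      rw [PLocal.HHBCoreAux.restrict_pow_apply W X Y₀ hY₀, hXm']
      rfl
    have hpm : p ^ m ≠ 0 := (pow_pos hp.out.pos m).ne'
    obtain ⟨Y, hYval⟩ : ∃ Y : (Module.End K W)ˣ, (Y : Module.End K W) = Y₀ :=
      IsUnit.of_pow_eq_one hY₀pow hpm
    have hYρ : ∀ h, (Y : Module.End K W) * ρW h = ρW (α y h) * Y := by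
      intro h
      rw [hYval]
      ext u
      change (X : Module.End K V) ((ρW h u : W) : V) = ((ρW (α y h) (Y₀ u) : W) : V)
      rw [hρW, hρW, hY₀]
      exact LinearMap.congr_fun (hX h) (u : V)
    refine ⟨Single.center_fixed ρW hρWinj hirrW (α y) Y hYρ, fun hz => ?_⟩
    exact Single.single hp2 hQ hcl ρW hρWinj hirrW (α y) Y hYρ m hm
      (by
        apply Units.ext
        rw [Units.val_pow_eq_pow_val, hYval, hY₀pow, Units.val_one])
      (by
        rw [hYval]
        ext u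
        rw [PLocal.HHBCoreAux.restrict_pow_apply W ((X : Module.End K V) - 1) (Y₀ - 1) (fun u => rfl), hr]
        rfl) hz
  obtain ⟨hZ₁, hd₁⟩ := hdata y₁ X₁ hX₁ m₁ hm₁ hXm₁ hr₁
  obtain ⟨hZ₂, hd₂⟩ := hdata y₂ X₂ hX₂ m₂ hm₂ hXm₂ hr₂
  have hαpow : ∀ (y : R) (i : ℕ), α y ^ i = α (y ^ i) := fun y i => (map_pow α y i).symm
  obtain ⟨M₁, hM₁, hcard₁, hf₁⟩ := hd₁ (by
    rw [hαpow]
    intro h
    apply hcon
    intro g
    rw [h]; rfl)
  obtain ⟨M₂, hM₂, hcard₂, hf₂⟩ := hd₂ (by
    rw [hαpow]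
    intro h
    apply hcon
    intro g
    rw [h]; rfl)
  rw [hαpow, ← hc₁] at hf₁
  rw [hαpow, ← hc₂] at hf₂
  have hZR : ∀ r ∈ R', ∀ c ∈ center Q, α r c = c := by
    intro r hr
    induction hr using closure_induction with
    | mem r hr =>
      rcases hr with rfl | rfl
      · exact hZ₁
      · exact hZ₂
    | one => intro c _; simp
    | mul a b _ _ ha hb => intro c hc; rw [map_mul, MulAut.mul_apply, hb c hc, ha c hc]
    | inv a _ ha =>
      intro c hc
      have h1 := ha c hc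
      rw [map_inv, MulAut.inv_apply, MulEquiv.symm_apply_eq]
      exact h1.symm
  have htR : t ∈ R' := by
    rw [ht, commutatorElement_def]
    exact mul_mem (mul_mem (mul_mem hc₁R hc₂R) (inv_mem hc₁R)) (inv_mem hc₂R)
  -- the quotient
  obtain ⟨β, hβ⟩ := exists_quotient_hom α (center Q) (hchar _ inferInstance)
  let _ : CommGroup (Q ⧸ center Q) :=
    { (inferInstance : Group (Q ⧸ center Q)) with
      mul_comm := by
        intro x y
        obtain ⟨g, rfl⟩ := QuotientGroup.mk'_surjective _ x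
        obtain ⟨h, rfl⟩ := QuotientGroup.mk'_surjective _ y
        rw [← map_mul, ← map_mul]
        apply (QuotientGroup.eq).mpr
        have h1 : (g * h)⁻¹ * (h * g) = ⁅h⁻¹, g⁻¹⁆ := by rw [commutatorElement_def]; group
        rw [h1]
        exact hcomm (commutator_mem_commutator (mem_top _) (mem_top _)) }
  have hfin : Finite (Q ⧸ center Q) := inferInstance
  -- irreducibility
  have hirrE : ∀ D : Subgroup (Q ⧸ center Q), (∀ e ∈ D, β y₁ e ∈ D) → (∀ e ∈ D, β y₂ e ∈ D) →
      D = ⊥ ∨ D = ⊤ := by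
    intro D hD₁ hD₂
    set L := D.comap (QuotientGroup.mk' (center Q)) with hLdef
    have hL₁ : ∀ g ∈ L, α y₁ g ∈ L := by
      intro g hg
      show QuotientGroup.mk' (center Q) (α y₁ g) ∈ D
      rw [← hβ]
      exact hD₁ _ hg
    have hL₂ : ∀ g ∈ L, α y₂ g ∈ L := by
      intro g hg
      show QuotientGroup.mk' (center Q) (α y₂ g) ∈ D
      rw [← hβ]
      exact hD₂ _ hg
    have hLn : L.Normal := by
      have : D.Normal := inferInstance
      exact this.comap _
    by_cases hLtop : L = ⊤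
    · right
      rw [eq_top_iff]
      intro x _
      obtain ⟨g, rfl⟩ := QuotientGroup.mk'_surjective _ x
      have : g ∈ L := by rw [hLtop]; trivial
      exact this
    · left
      rw [eq_bot_iff]
      intro x hx
      obtain ⟨g, rfl⟩ := QuotientGroup.mk'_surjective _ x
      have h1 : g ∈ center Q := hcen L hLn hLtop (invariant_closure α L y₁ y₂ hL₁ hL₂) hx
      rw [Subgroup.mem_bot]
      exact (QuotientGroup.eq_one_iff g).2 h1
  have hEp : IsPGroup 2 (Q ⧸ center Q) := hQ.to_quotient _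
  have hE2 : ∀ e : Q ⧸ center Q, e ^ 2 = 1 := by
    rcases hirrE (powMonoidHom 2 : (Q ⧸ center Q) →* (Q ⧸ center Q)).range
      (by rintro _ ⟨e, rfl⟩; exact ⟨β y₁ e, by simp⟩)
      (by rintro _ ⟨e, rfl⟩; exact ⟨β y₂ e, by simp⟩) with h | h
    · intro e
      have : (powMonoidHom 2 : (Q ⧸ center Q) →* (Q ⧸ center Q)) e ∈
          (powMonoidHom 2 : (Q ⧸ center Q) →* (Q ⧸ center Q)).range := ⟨e, rfl⟩
      rw [h, Subgroup.mem_bot] at this
      exact this
    · have hsurj : Function.Surjective (powMonoidHom 2 : (Q ⧸ center Q) →* (Q ⧸ center Q)) :=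
        MonoidHom.range_eq_top.mp h
      have hinj := Finite.injective_iff_surjective.mpr hsurj
      intro e
      obtain ⟨j, hj⟩ := hEp e
      have h1 : ∀ j : ℕ, ∀ e : Q ⧸ center Q, e ^ 2 ^ j = 1 → e = 1 := by
        intro j
        induction j with
        | zero => intro e he; simpa using he
        | succ j ih =>
          intro e he
          apply ih
          apply hinj
          rw [map_one]
          show (e ^ 2 ^ j) ^ 2 = 1
          rw [← pow_mul, ← pow_succ]
          exact he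
      rw [h1 j e hj, one_pow]
  have hrhopow : ∀ (y : R) (X : (Module.End K V)ˣ) (hX : ∀ g, (X : Module.End K V) * ρ g = ρ (α y g) * X)
      (m : ℕ) (hXm : X ^ p ^ m = 1), α (y ^ p ^ m) = 1 := by
    intro y X hX m hXm
    ext g
    apply hρ
    have h1 := Single.rho_pow hX (p ^ m) g
    have hXm' : (X : Module.End K V) ^ p ^ m = 1 := by
      rw [← Units.val_pow_eq_pow_val, hXm, Units.val_one]
    rw [hXm', one_mul, mul_one, hαpow] at h1
    exact h1.symm
  have hβ1 : ∀ r, α r = 1 → β r = 1 := by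
    intro r hr
    ext x
    obtain ⟨g, rfl⟩ := QuotientGroup.mk'_surjective _ x
    rw [hβ, hr]
    rfl
  have hkey : ∀ g : Q, ∀ M : Subgroup Q, ∀ c : R,
      (∀ g ∈ M, α c g * g⁻¹ ∈ center Q → g ∈ center Q) →
      ∀ e ∈ M.map (QuotientGroup.mk' (center Q)), β c e = e → e = 1 := by
    rintro - M c hc _ ⟨g, hg, rfl⟩ he
    rw [hβ] at he
    have h1 : α c g * g⁻¹ ∈ center Q := by
      rw [← QuotientGroup.ker_mk' (center Q), MonoidHom.mem_ker, map_mul, map_inv, he, mul_inv_cancel]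
    exact (QuotientGroup.eq_one_iff g).2 (hc g hg h1)
  have hcommE := Elem.final (p := p) (k := k) hk hk1 hE2 β.range
    (by
      rintro ⟨_, r, rfl⟩
      obtain ⟨j, hj⟩ := hR r
      refine ⟨j, Subtype.ext ?_⟩
      show (β r) ^ p ^ j = 1
      rw [← map_pow, hj, map_one])
    (β y₁) (β y₂) ⟨y₁, rfl⟩ ⟨y₂, rfl⟩ hirrE m₁ m₂ hm₁ hm₂
    (by rw [← map_pow]; exact hβ1 _ (hrhopow y₁ X₁ hX₁ m₁ hXm₁))
    (by rw [← map_pow]; exact hβ1 _ (hrhopow y₂ X₂ hX₂ m₂ hXm₂))
    (M₁.map (QuotientGroup.mk' (center Q))) (M₂.map (QuotientGroup.mk' (center Q)))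
    (by
      intro e
      obtain ⟨g, rfl⟩ := QuotientGroup.mk'_surjective _ e
      exact ⟨α y₁ g * g⁻¹, hM₁ g, by rw [map_mul, map_inv, hβ]⟩)
    (by
      intro e
      obtain ⟨g, rfl⟩ := QuotientGroup.mk'_surjective _ e
      exact ⟨α y₂ g * g⁻¹, hM₂ g, by rw [map_mul, map_inv, hβ]⟩)
    (by rw [← Subgroup.relIndex_ker, QuotientGroup.ker_mk', hcard₁])
    (by rw [← Subgroup.relIndex_ker, QuotientGroup.ker_mk', hcard₂])
    (by rw [← map_pow]; exact hkey 1 M₁ c₁ hf₁)
    (by rw [← map_pow]; exact hkey 1 M₂ c₂ hf₂)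
  rw [← map_pow, ← map_pow, ← hc₁, ← hc₂] at hcommE
  have hβt : β t = 1 := by
    rw [ht, map_commutatorElement, commutatorElement_eq_one_iff_commute]
    exact hcommE
  apply htne
  intro g
  have h1 : g⁻¹ * α t g ∈ center Q := by
    have h2 := hβ t g
    rw [hβt, MulAut.one_apply] at h2
    exact (QuotientGroup.eq).mp h2
  exact PLocal.HHBMinimal.apply_eq_of_fixed (α t) g (hZR t htR _ h1) (p ^ a) hta
    (PLocal.HHBMinimal.coprime_orderOf (p := p) (q := 2) hp2.symm hQ (g⁻¹ * α t g) a)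

end Cfsg.Agent.H450.StarMain
end

-- part: H450/Star
section
/-!
# Commuting powers: two elements acting on a `2`-group in odd characteristic `p = 2^k + 1`
-/

set_option autoImplicit false

namespace Cfsg.Agent.H450.Star

open Subgroup Module
open Cfsg.Agent.PLocal.HHBClifford Cfsg.Agent.PLocal.HHBLinear
open Cfsg.Agent.H450.StarMain
open scoped commutatorElement

universe u v w r

/-- Maschke -/
theorem semisimple_alg {K V Q : Type*} [Field K] [AddCommGroup V] [Module K V] [Group Q] [Finite Q]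
    (hcard : (Nat.card Q : K) ≠ 0) (ρ : Q →* Module.End K V) : IsSemisimpleModule (alg ρ) V := by
  have : NeZero (Nat.card Q : K) := ⟨hcard⟩
  have hQ : IsSemisimpleRing (MonoidAlgebra K Q) := inferInstance
  let φ : MonoidAlgebra K Q →ₐ[K] Module.End K V := MonoidAlgebra.lift K (Module.End K V) Q ρ
  have hφ : ∀ x, φ x ∈ alg ρ := by
    intro x
    induction x using MonoidAlgebra.induction_on with
    | of g => simpa [φ] using rho_mem_alg ρ g
    | add a b ha hb => rw [map_add]; exact add_mem ha hb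
    | smul r a ha => rw [map_smul]; exact (alg ρ).smul_mem ha r
  let ψ : MonoidAlgebra K Q →ₐ[K] alg ρ := φ.codRestrict (alg ρ) hφ
  have hψ : Function.Surjective ψ := by
    rintro ⟨a, ha⟩
    have h1 : alg ρ ≤ φ.range := by
      refine Algebra.adjoin_le ?_
      rintro _ ⟨g, rfl⟩
      exact ⟨MonoidAlgebra.of K Q g, by simp [φ]⟩
    obtain ⟨x, hx⟩ := h1 ha
    exact ⟨x, Subtype.ext hx⟩
  have : IsSemisimpleRing (alg ρ) := RingHom.isSemisimpleRing_of_surjective ψ.toRingHom hψ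
  infer_instance

/-- the data on an isotypic component which is not everything -/
theorem component_data {K : Type w} [Field K] {p : ℕ} [hp : Fact p.Prime] [CharP K p]
    {V : Type v} [AddCommGroup V] [Module K V] {Q : Type u} [Group Q] (ρ : Q →* Module.End K V)
    (X : (Module.End K V)ˣ) (σ : MulAut Q) (hX : ∀ h, (X : Module.End K V) * ρ h = ρ (σ h) * X) (m : ℕ)
    (hXm : X ^ (p ^ m) = 1) (hr : ((X : Module.End K V) - 1) ^ (p ^ m - 1) = 0)
    (U₀ : Submodule (alg ρ) V) (hU₀ : IsSimpleModule (alg ρ) U₀) :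
    ∃ s < m, (∀ v ∈ isotypicComponent (alg ρ) V U₀, ((X : Module.End K V) ^ p ^ s) v ∈
        isotypicComponent (alg ρ) V U₀) ∧
      (∀ v ∈ isotypicComponent (alg ρ) V U₀, ∑ i ∈ Finset.range (p ^ s), ((X : Module.End K V) ^ i) v = 0 →
        v = 0) := by
  have hN := nrm_alg hX
  set C := isotypicComponent (alg ρ) V U₀ with hC
  have hper : Function.IsPeriodicPt (tw hN) (p ^ m) C := by
    show (tw hN)^[p ^ m] C = C
    ext v
    rw [mem_tw_iterate, inv_pow, hXm, inv_one, Units.val_one, Module.End.one_apply]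
  obtain ⟨s, hs, hms⟩ := (Nat.dvd_prime_pow hp.out).1 hper.minimalPeriod_dvd
  have hpos : 0 < p ^ s := pow_pos hp.out.pos s
  have hCs : (tw hN)^[p ^ s] C = C := by
    rw [← hms]
    exact Function.iterate_minimalPeriod
  have hinj : Set.InjOn (fun i => (tw hN)^[i] C) (Set.Iio (p ^ s)) := by
    rw [← hms]
    exact Function.iterate_injOn_Iio_minimalPeriod
  have hind : ∀ v ∈ C, ∑ i ∈ Finset.range (p ^ s), ((X : Module.End K V) ^ i) v = 0 → v = 0 := by
    intro v hv hsum
    have h1 := independent hN hU₀ (p ^ s) hinj (fun i => ((X : Module.End K V) ^ i) v)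
      (fun i _ => apply_mem_tw_iterate hN i hv) hsum 0 hpos
    simpa using h1
  refine ⟨s, lt_of_le_of_ne hs ?_, ?_, hind⟩
  · rintro rfl
    have h1 : C = ⊥ := by
      rw [Submodule.eq_bot_iff]
      intro v hv
      apply hind v hv
      have h2 := PLocal.HHBUnip.geom_eq K p (X : Module.End K V) s
      rw [← LinearMap.sum_apply, h2, hr, LinearMap.zero_apply]
    exact (bot_lt_isotypicComponent (R := alg ρ) (M := V) U₀).ne' h1
  · intro v hv
    have h1 := apply_mem_tw_iterate hN (p ^ s) hv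
    rwa [hCs] at h1

/-- The statement for vector spaces of dimension `d` and groups of order `m`. -/
def StarFor (K : Type w) [Field K] (p d m : ℕ) : Prop :=
  ∀ (V : Type v) [AddCommGroup V] [Module K V] [FiniteDimensional K V] (_ : finrank K V = d)
    (Q : Type u) [Group Q] [Finite Q] (_ : IsPGroup 2 Q) (_ : Nat.card Q = m)
    (R : Type r) [Group R] [Finite R] (_ : IsPGroup p R) (α : R →* MulAut Q)
    (ρ : Q →* Module.End K V) (y₁ y₂ : R) (X₁ X₂ : (Module.End K V)ˣ)
    (_ : ∀ g, (X₁ : Module.End K V) * ρ g = ρ (α y₁ g) * X₁)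
    (_ : ∀ g, (X₂ : Module.End K V) * ρ g = ρ (α y₂ g) * X₂) (m₁ m₂ : ℕ) (_ : 1 ≤ m₁) (_ : 1 ≤ m₂)
    (_ : X₁ ^ p ^ m₁ = 1) (_ : X₂ ^ p ^ m₂ = 1)
    (_ : ((X₁ : Module.End K V) - 1) ^ (p ^ m₁ - 1) = 0) (_ : ((X₂ : Module.End K V) - 1) ^ (p ^ m₂ - 1) = 0),
    ∀ g, ρ (α (y₁ ^ p ^ (m₁ - 1)) (α (y₂ ^ p ^ (m₂ - 1)) g)) =
      ρ (α (y₂ ^ p ^ (m₂ - 1)) (α (y₁ ^ p ^ (m₁ - 1)) g))

theorem starFor {K : Type w} [Field K] [IsAlgClosed K] {p k : ℕ} [hp : Fact p.Prime] [CharP K p]
    (hk : 2 ^ k + 1 = p) (hk1 : 1 ≤ k) : ∀ d m : ℕ, StarFor.{u, v, w, r} K p d m := by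
  intro d
  induction d using Nat.strong_induction_on with
  | _ d ihd =>
  intro n
  induction n using Nat.strong_induction_on with
  | _ n ihn =>
  intro V _ _ _ hd Q _ _ hQ hn R _ _ hR α ρ y₁ y₂ X₁ X₂ hX₁ hX₂ m₁ m₂ hm₁ hm₂ hXm₁ hXm₂ hr₁ hr₂
  have hp2 : p ≠ 2 := by
    intro h
    have h2 : 2 ^ 1 ≤ 2 ^ k := Nat.pow_le_pow_right (by norm_num) hk1
    omega
  set R' := closure ({y₁, y₂} : Set R) with hR'
  have hy₁ : y₁ ∈ R' := Subgroup.subset_closure (by simp)
  have hy₂ : y₂ ∈ R' := Subgroup.subset_closure (by simp)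
  have hR'p : IsPGroup p R' := hR.to_subgroup R'
  by_cases hinj : Function.Injective ρ
  swap
  · -- pass to the quotient by the kernel
    have hker₁ : ∀ g ∈ ρ.ker, α y₁ g ∈ ρ.ker := by
      intro g hg
      rw [MonoidHom.mem_ker] at hg ⊢
      have h1 := hX₁ g
      rw [hg, mul_one] at h1
      exact (Units.mul_left_inj X₁).1 (by rw [one_mul]; exact h1.symm)
    have hker₂ : ∀ g ∈ ρ.ker, α y₂ g ∈ ρ.ker := by
      intro g hg
      rw [MonoidHom.mem_ker] at hg ⊢
      have h1 := hX₂ g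
      rw [hg, mul_one] at h1
      exact (Units.mul_left_inj X₂).1 (by rw [one_mul]; exact h1.symm)
    have hkerR := invariant_closure α ρ.ker y₁ y₂ hker₁ hker₂
    obtain ⟨β, hβ⟩ := exists_quotient_hom (α.comp R'.subtype) ρ.ker (fun r g hg => hkerR r r.2 g hg)
    have hcard : Nat.card (Q ⧸ ρ.ker) < n := by
      rw [← hn]
      have hne : ρ.ker ≠ ⊥ := fun h => hinj ((MonoidHom.ker_eq_bot_iff ρ).1 h)
      have h1 : 1 < Nat.card ρ.ker := (Subgroup.one_lt_card_iff_ne_bot _).2 hne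
      have h2 := Subgroup.card_eq_card_quotient_mul_card_subgroup ρ.ker
      have h3 : 0 < Nat.card (Q ⧸ ρ.ker) := Nat.card_pos
      rw [h2]
      exact lt_mul_of_one_lt_right h3 h1
    have hlift : ∀ g : Q, QuotientGroup.lift ρ.ker ρ (fun x hx => hx) (QuotientGroup.mk' ρ.ker g)
        = ρ g := fun g => rfl
    have h := ihn _ hcard V hd (Q ⧸ ρ.ker) (hQ.to_quotient _) rfl R' hR'p β
      (QuotientGroup.lift ρ.ker ρ (fun x hx => hx)) ⟨y₁, hy₁⟩ ⟨y₂, hy₂⟩ X₁ X₂
      (by
        intro g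
        obtain ⟨g, rfl⟩ := QuotientGroup.mk'_surjective _ g
        rw [hβ, hlift, hlift]
        exact hX₁ g)
      (by
        intro g
        obtain ⟨g, rfl⟩ := QuotientGroup.mk'_surjective _ g
        rw [hβ, hlift, hlift]
        exact hX₂ g) m₁ m₂ hm₁ hm₂ hXm₁ hXm₂ hr₁ hr₂
    intro g
    have h1 := h (QuotientGroup.mk' ρ.ker g)
    rw [hβ, hβ, hβ, hβ, hlift, hlift] at h1
    exact h1
  -- proper invariant subgroups
  have hL : ∀ L : Subgroup Q, L ≠ ⊤ → (∀ g ∈ L, α y₁ g ∈ L) → (∀ g ∈ L, α y₂ g ∈ L) → ∀ g ∈ L,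
      α (y₁ ^ p ^ (m₁ - 1)) (α (y₂ ^ p ^ (m₂ - 1)) g) = α (y₂ ^ p ^ (m₂ - 1)) (α (y₁ ^ p ^ (m₁ - 1)) g) := by
    intro L hLtop hL₁ hL₂ g hg
    have hLR := invariant_closure α L y₁ y₂ hL₁ hL₂
    obtain ⟨β, hβ⟩ := exists_restrict_hom (α.comp R'.subtype) L (fun r g hg => hLR r r.2 g hg)
    have hcard : Nat.card L < n := by
      rw [← hn]
      exact lt_of_le_of_ne (Subgroup.card_le_card_group L) fun h => hLtop (Subgroup.eq_top_of_card_eq L h)
    have h := ihn _ hcard V hd L (hQ.to_subgroup _) rfl R' hR'p β (ρ.comp L.subtype)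
      ⟨y₁, hy₁⟩ ⟨y₂, hy₂⟩ X₁ X₂
      (by
        intro g
        change (X₁ : Module.End K V) * ρ (g : Q) = ρ ((β ⟨y₁, hy₁⟩ g : L) : Q) * X₁
        rw [hβ]
        exact hX₁ g)
      (by
        intro g
        change (X₂ : Module.End K V) * ρ (g : Q) = ρ ((β ⟨y₂, hy₂⟩ g : L) : Q) * X₂
        rw [hβ]
        exact hX₂ g) m₁ m₂ hm₁ hm₂ hXm₁ hXm₂ hr₁ hr₂ ⟨g, hg⟩
    apply hinj
    change ρ ((β (⟨y₁, hy₁⟩ ^ p ^ (m₁ - 1)) (β (⟨y₂, hy₂⟩ ^ p ^ (m₂ - 1)) ⟨g, hg⟩) : L) : Q) =
      ρ ((β (⟨y₂, hy₂⟩ ^ p ^ (m₂ - 1)) (β (⟨y₁, hy₁⟩ ^ p ^ (m₁ - 1)) ⟨g, hg⟩) : L) : Q) at h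
    rw [hβ, hβ, hβ, hβ] at h
    exact h
  -- semisimplicity
  have hcardQ : (Nat.card Q : K) ≠ 0 := by
    intro h0
    rw [CharP.cast_eq_zero_iff K p] at h0
    exact Single.not_dvd_card (p := p) hp2 hQ h0
  have hss : IsSemisimpleModule (alg ρ) V := semisimple_alg hcardQ ρ
  by_cases hiso : ∃ U₀ : Submodule (alg ρ) V, IsSimpleModule (alg ρ) U₀ ∧
      isotypicComponent (alg ρ) V U₀ = ⊤
  · obtain ⟨U₀, hU₀, htop⟩ := hiso
    intro g
    rw [isotypic hk hk1 hQ hR α ρ hinj y₁ y₂ X₁ X₂ hX₁ hX₂ m₁ m₂ hm₁ hm₂ hXm₁ hXm₂ hr₁ hr₂ U₀ hU₀ htop hL g]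
  push Not at hiso
  intro g
  -- the identity on each component
  have hcomp : ∀ C ∈ isotypicComponents (alg ρ) V, ∀ v ∈ C,
      ρ (α (y₁ ^ p ^ (m₁ - 1)) (α (y₂ ^ p ^ (m₂ - 1)) g)) v =
      ρ (α (y₂ ^ p ^ (m₂ - 1)) (α (y₁ ^ p ^ (m₁ - 1)) g)) v := by
    rintro _ ⟨U₀, hU₀, rfl⟩ v hv
    obtain ⟨s₁, hs₁, hstab₁, hind₁⟩ := component_data ρ X₁ (α y₁) hX₁ m₁ hXm₁ hr₁ U₀ hU₀
    obtain ⟨s₂, hs₂, hstab₂, hind₂⟩ := component_data ρ X₂ (α y₂) hX₂ m₂ hXm₂ hr₂ U₀ hU₀
    set C : Submodule K V := (isotypicComponent (alg ρ) V U₀).restrictScalars K with hC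
    have hCtop : C ≠ ⊤ := by
      intro h
      apply hiso U₀ hU₀
      ext x
      have h2 : x ∈ C := by rw [h]; trivial
      exact ⟨fun _ => trivial, fun _ => h2⟩
    have hCρ : ∀ h, ∀ u ∈ C, ρ h u ∈ C := fun h u hu => rho_apply_mem _ h hu
    obtain ⟨ρC, hρC⟩ := Iso.exists_restrict ρ C hCρ
    -- the restricted operators
    have hop : ∀ (y : R) (X : (Module.End K V)ˣ) (hX : ∀ g, (X : Module.End K V) * ρ g = ρ (α y g) * X)
        (m : ℕ) (hXm : X ^ p ^ m = 1) (hr : ((X : Module.End K V) - 1) ^ (p ^ m - 1) = 0) (s : ℕ) (hs : s < m)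
        (hstab : ∀ v ∈ C, ((X : Module.End K V) ^ p ^ s) v ∈ C)
        (hind : ∀ v ∈ C, ∑ i ∈ Finset.range (p ^ s), ((X : Module.End K V) ^ i) v = 0 → v = 0),
        ∃ Y : (Module.End K C)ˣ, (∀ g, (Y : Module.End K C) * ρC g = ρC (α (y ^ p ^ s) g) * Y) ∧
          Y ^ p ^ (m - s) = 1 ∧ ((Y : Module.End K C) - 1) ^ (p ^ (m - s) - 1) = 0 := by
      intro y X hX m hXm hr s hs hstab hind
      let Y₀ : Module.End K C := ((X : Module.End K V) ^ p ^ s).restrict hstab
      have hY₀ : ∀ u : C, ((Y₀ u : C) : V) = ((X : Module.End K V) ^ p ^ s) u := fun u => rfl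
      have hXm' : (X : Module.End K V) ^ p ^ m = 1 := by
        rw [← Units.val_pow_eq_pow_val, hXm, Units.val_one]
      have hps : p ^ s * p ^ (m - s) = p ^ m := by rw [← pow_add, Nat.add_sub_cancel' hs.le]
      have hY₀pow : Y₀ ^ (p ^ (m - s)) = 1 := by
        ext u
        rw [PLocal.HHBCoreAux.restrict_pow_apply C _ Y₀ hY₀, ← pow_mul, hps, hXm']
        rfl
      have hpm : p ^ (m - s) ≠ 0 := (pow_pos hp.out.pos _).ne'
      obtain ⟨Y, hYval⟩ : ∃ Y : (Module.End K C)ˣ, (Y : Module.End K C) = Y₀ :=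
        IsUnit.of_pow_eq_one hY₀pow hpm
      refine ⟨Y, ?_, ?_, ?_⟩
      · intro h
        rw [hYval]
        ext u
        change ((X : Module.End K V) ^ p ^ s) ((ρC h u : C) : V) = ((ρC (α (y ^ p ^ s) h) (Y₀ u) : C) : V)
        rw [hρC, hρC, hY₀, map_pow]
        exact LinearMap.congr_fun (Single.rho_pow hX (p ^ s) h) (u : V)
      · apply Units.ext
        rw [Units.val_pow_eq_pow_val, hYval, hY₀pow, Units.val_one]
      · rw [hYval]
        by_contra hne
        have h1 := PLocal.HHBCoreAux.le_of_pow_ne_zero (p := p) (X : Module.End K V) s C Y₀ hY₀ hind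
          (p ^ m - 1) hr _ hne
        have h2 : 0 < p ^ (m - s) := pow_pos hp.out.pos _
        rw [Nat.sub_add_cancel h2, hps] at h1
        have h3 : 0 < p ^ m := pow_pos hp.out.pos _
        omega
    obtain ⟨Y₁, hY₁, hYm₁, hYr₁⟩ := hop y₁ X₁ hX₁ m₁ hXm₁ hr₁ s₁ hs₁ hstab₁ hind₁
    obtain ⟨Y₂, hY₂, hYm₂, hYr₂⟩ := hop y₂ X₂ hX₂ m₂ hXm₂ hr₂ s₂ hs₂ hstab₂ hind₂
    have hlt : finrank K C < d := by
      rw [← hd]
      exact Submodule.finrank_lt hCtop
    have h := ihd _ hlt (Nat.card Q) C rfl Q hQ rfl R hR α ρC (y₁ ^ p ^ s₁) (y₂ ^ p ^ s₂) Y₁ Y₂ hY₁ hY₂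
      (m₁ - s₁) (m₂ - s₂) (by omega) (by omega) hYm₁ hYm₂ hYr₁ hYr₂ g
    have e₁ : (y₁ ^ p ^ s₁) ^ p ^ (m₁ - s₁ - 1) = y₁ ^ p ^ (m₁ - 1) := by
      rw [← pow_mul, ← pow_add]
      congr 2
      omega
    have e₂ : (y₂ ^ p ^ s₂) ^ p ^ (m₂ - s₂ - 1) = y₂ ^ p ^ (m₂ - 1) := by
      rw [← pow_mul, ← pow_add]
      congr 2
      omega
    rw [e₁, e₂] at h
    have h1 := congrArg Subtype.val (LinearMap.congr_fun h ⟨v, hv⟩)
    rw [hρC, hρC] at h1
    exact h1
  ext v
  have hv : v ∈ sSup (isotypicComponents (alg ρ) V) := by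
    rw [sSup_isotypicComponents]; trivial
  rw [sSup_eq_iSup'] at hv
  refine Submodule.iSup_induction (R := alg ρ) _ (motive := fun v =>
    ρ (α (y₁ ^ p ^ (m₁ - 1)) (α (y₂ ^ p ^ (m₂ - 1)) g)) v =
      ρ (α (y₂ ^ p ^ (m₂ - 1)) (α (y₁ ^ p ^ (m₁ - 1)) g)) v) hv ?_ ?_ ?_
  · rintro ⟨C, hC⟩ x hx
    exact hcomp C hC x hx
  · rw [map_zero, map_zero]
  · intro x y hx hy
    rw [map_add, map_add, hx, hy]

end Cfsg.Agent.H450.Star
end

-- part: H450/TwoStep
section
/-!
# Hall–Higman for Fermat primes: the exponent drops after two steps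
-/

set_option autoImplicit false

namespace Cfsg.Agent.H450.TwoStep

open Subgroup Cfsg
open Cfsg.Agent.PLocal
open Cfsg.Agent.H450.StarMain

/-- the `p^(n-1)`-th powers of the elements of a Sylow `p`-subgroup commute. -/
theorem comm_powers {F : Type*} [Field F] {p k : ℕ} [hp : Fact p.Prime] [CharP F p]
    (hk : 2 ^ k + 1 = p) (hk1 : 1 ≤ k) {V : Type*}
    [AddCommGroup V] [Module F V] [FiniteDimensional F V] (H : Subgroup (V ≃ₗ[F] V)) [Finite H]
    (hsol : IsPSolvable p H) (hOp : pCore p H = ⊥) (n : ℕ) (hn1 : 1 ≤ n)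
    (hexp : ∀ x : H, (∃ j : ℕ, x ^ p ^ j = 1) → x ^ p ^ n = 1 ∧
      (((x : V ≃ₗ[F] V) : Module.End F V) - 1) ^ (p ^ n - 1) = 0)
    (S : Sylow p H) (x₁ x₂ : H) (hx₁ : x₁ ∈ (S : Subgroup H)) (hx₂ : x₂ ∈ (S : Subgroup H)) :
    Commute (x₁ ^ p ^ (n - 1)) (x₂ ^ p ^ (n - 1)) := by
  classical
  have hp2 : p ≠ 2 := by
    intro h
    have h2 : 2 ^ 1 ≤ 2 ^ k := Nat.pow_le_pow_right (by norm_num) hk1
    omega
  set N : Subgroup H := pPrimeCore p H with hN
  have hNn : N.Normal := Lib.Cores.pPrimeCore_normal p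
  have hNc : (Nat.card N).Coprime p := Lib.Cores.pPrimeCore_coprime p
  have hNp : ¬ p ∣ Nat.card N := fun h => by
    have := Nat.dvd_gcd h (dvd_refl p)
    rw [hNc] at this
    exact hp.out.one_lt.ne' (Nat.dvd_one.1 this)
  have hcent := HallHigmanPrime.centralizer_pPrimeCore_le_of_pSolvable p hsol hOp
  have hSp : IsPGroup p (S : Subgroup H) := S.isPGroup'
  have hSexp : ∀ x ∈ (S : Subgroup H), x ^ p ^ n = 1 ∧
      (((x : V ≃ₗ[F] V) : Module.End F V) - 1) ^ (p ^ n - 1) = 0 := by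
    intro x hx
    obtain ⟨j, hj⟩ := hSp ⟨x, hx⟩
    exact hexp x ⟨j, congrArg Subtype.val hj⟩
  -- base change
  let K := AlgebraicClosure F
  have hKp : CharP K p := charP_of_injective_algebraMap (algebraMap F K).injective p
  let φ : Module.End F V →ₐ[F] Module.End K (TensorProduct F K V) :=
    Module.End.baseChangeHom F K V
  have hφ : Function.Injective φ := LinearMap.baseChangeHom_injective F V K
  let ρ₀ : (V ≃ₗ[F] V) →* Module.End K (TensorProduct F K V) :=
    (φ : Module.End F V →* Module.End K (TensorProduct F K V)).comp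
      (LinearEquiv.automorphismGroup.toLinearMapMonoidHom (R := F) (M := V))
  have hρ₀ : Function.Injective ρ₀ := by
    intro a b hab
    have h1 := hφ hab
    exact LinearEquiv.toLinearMap_injective h1
  have hρ₀φ : ∀ x : V ≃ₗ[F] V, ρ₀ x = φ (x : Module.End F V) := fun x => rfl
  -- the key statement
  set t := (x₂ ^ p ^ (n - 1) * x₁ ^ p ^ (n - 1))⁻¹ * (x₁ ^ p ^ (n - 1) * x₂ ^ p ^ (n - 1)) with ht
  have htS : t ∈ (S : Subgroup H) :=
    mul_mem (inv_mem (mul_mem (pow_mem hx₂ _) (pow_mem hx₁ _))) (mul_mem (pow_mem hx₁ _) (pow_mem hx₂ _))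
  have hle : N ≤ centralizer {t} := by
    apply HHBReduction.le_of_forall_sylow_le
    intro q hq
    have hqf : Fact q.Prime := ⟨hq⟩
    obtain ⟨A, hA, hinv⟩ := Lib.PGroupCoprimeAction.exists_invariant_sylow hSp hNp
      (fun b _ u hu => hNn.conj_mem u hu b) q
    refine ⟨A, hA, ?_⟩
    have hAq : IsPGroup q A := by
      obtain ⟨T, rfl⟩ := hA
      exact T.isPGroup'.map N.subtype
    by_cases hqp : q = p
    · subst hqp
      obtain ⟨T, rfl⟩ := hA
      have h1 : Nat.card ((T : Subgroup N).map N.subtype : Subgroup H) = 1 := by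
        rw [← Nat.card_congr ((T : Subgroup N).equivMapOfInjective N.subtype
          N.subtype_injective).toEquiv, Sylow.card_eq_multiplicity T,
          Nat.factorization_eq_zero_of_not_dvd hNp, pow_zero]
      rw [Subgroup.card_eq_one.1 h1]
      exact bot_le
    -- the action on `A`
    obtain ⟨α, hα⟩ := exists_restrict_hom ((MulAut.conj : H →* MulAut H).comp (S : Subgroup H).subtype) A
      (fun r g hg => hinv r r.2 g hg)
    have hα' : ∀ (r : (S : Subgroup H)) (g : A), ((α r g : A) : H) = r * g * (r : H)⁻¹ := fun r g => hα r g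
    let ρ : A →* Module.End K (TensorProduct F K V) := ρ₀.comp (H.subtype.comp A.subtype)
    have hρ : Function.Injective ρ := hρ₀.comp (H.subtype_injective.comp A.subtype_injective)
    let X : ↥(S : Subgroup H) → (Module.End K (TensorProduct F K V))ˣ := fun s =>
      ρ₀.toHomUnits ((s : H) : V ≃ₗ[F] V)
    have hXval : ∀ s, (X s : Module.End K (TensorProduct F K V)) = ρ₀ ((s : H) : V ≃ₗ[F] V) := fun s => rfl
    have hXρ : ∀ s g, (X s : Module.End K (TensorProduct F K V)) * ρ g = ρ (α s g) * X s := by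
      intro s g
      rw [hXval]
      have h1 : (s : H) * (g : H) = ((α s g : A) : H) * s := by rw [hα']; group
      have h3 := congrArg (fun z : H => ρ₀ (z : V ≃ₗ[F] V)) h1
      simp only [Subgroup.coe_mul, map_mul] at h3
      exact h3
    have hXn : ∀ s : (S : Subgroup H), X s ^ p ^ n = 1 := by
      intro s
      show (ρ₀.toHomUnits ((s : H) : V ≃ₗ[F] V)) ^ p ^ n = 1
      rw [← map_pow, ← Subgroup.coe_pow, (hSexp s s.2).1]
      exact map_one _
    have hXr : ∀ s : (S : Subgroup H),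
        ((X s : Module.End K (TensorProduct F K V)) - 1) ^ (p ^ n - 1) = 0 := by
      intro s
      have h := congrArg φ (hSexp s s.2).2
      rw [map_pow, map_sub, map_one, map_zero] at h
      exact h
    by_cases hq2 : q = 2
    · subst hq2
      have hstar := Star.starFor (K := K) (p := p) hk hk1 (Module.finrank K (TensorProduct F K V)) (Nat.card A)
        (TensorProduct F K V) rfl A hAq rfl (S : Subgroup H) hSp α ρ ⟨x₁, hx₁⟩ ⟨x₂, hx₂⟩ (X ⟨x₁, hx₁⟩)
        (X ⟨x₂, hx₂⟩) (hXρ _) (hXρ _) n n hn1 hn1 (hXn _) (hXn _) (hXr _) (hXr _)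
      intro g hg
      rw [mem_centralizer_singleton_iff]
      have h1 := congrArg Subtype.val (hρ (hstar ⟨g, hg⟩))
      rw [hα', hα', hα', hα'] at h1
      change x₁ ^ p ^ (n - 1) * (x₂ ^ p ^ (n - 1) * g * (x₂ ^ p ^ (n - 1))⁻¹) * (x₁ ^ p ^ (n - 1))⁻¹ =
        x₂ ^ p ^ (n - 1) * (x₁ ^ p ^ (n - 1) * g * (x₁ ^ p ^ (n - 1))⁻¹) * (x₂ ^ p ^ (n - 1))⁻¹ at h1
      generalize x₁ ^ p ^ (n - 1) = a at h1 ht
      generalize x₂ ^ p ^ (n - 1) = b at h1 ht
      have h2 : a * b * g = (b * a) * g * ((b * a)⁻¹ * (a * b)) := by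
        have h3 : a * (b * g * b⁻¹) * a⁻¹ * (a * b) = b * (a * g * a⁻¹) * b⁻¹ * (a * b) := by rw [h1]
        have h4 : a * (b * g * b⁻¹) * a⁻¹ * (a * b) = a * b * g := by group
        have h5 : b * (a * g * a⁻¹) * b⁻¹ * (a * b) = (b * a) * g * ((b * a)⁻¹ * (a * b)) := by group
        rw [← h4, h3, h5]
      rw [ht, mul_assoc (b * a)⁻¹, h2]
      group
    · -- odd `q`
      have hz : ∀ s : (S : Subgroup H), ∀ g : A, (α s ^ p ^ (n - 1)) g = g := by
        intro s
        by_contra hcon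
        push Not at hcon
        have hσn : α s ^ p ^ n = 1 := by
          rw [← map_pow]
          have : s ^ p ^ n = 1 := Subtype.ext (hSexp s s.2).1
          rw [this, map_one]
        rcases HHBCore.core hqp hAq ρ hρ (α s) (X s : Module.End K (TensorProduct F K V)) (hXρ s) n hn1
          (by rw [← Units.val_pow_eq_pow_val, hXn, Units.val_one]) hσn hcon (p ^ n - 1) (hXr s) with h | h
        · have : 0 < p ^ n := pow_pos hp.out.pos n
          omega
        · obtain ⟨n₀, m, h1, -, h3, h4, -⟩ := h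
          have hpodd : Odd p := hp.out.odd_of_ne_two hp2
          have h5 : Even (p ^ n₀ - 1) := Nat.Odd.sub_odd hpodd.pow odd_one
          rw [h4, Nat.even_pow] at h5
          exact hq2 ((Nat.Prime.even_iff hq).mp h5.1)
      have hz' : ∀ s ∈ (S : Subgroup H), ∀ g ∈ A, s ^ p ^ (n - 1) * g = g * s ^ p ^ (n - 1) := by
        intro s hs g hg
        have h1 := congrArg Subtype.val (hz ⟨s, hs⟩ ⟨g, hg⟩)
        rw [← map_pow, hα'] at h1
        change s ^ p ^ (n - 1) * g * (s ^ p ^ (n - 1))⁻¹ = g at h1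
        exact mul_inv_eq_iff_eq_mul.1 h1
      intro g hg
      rw [mem_centralizer_singleton_iff]
      have h1 := hz' x₁ hx₁ g hg
      have h2 := hz' x₂ hx₂ g hg
      have c1 : Commute (x₁ ^ p ^ (n - 1)) g := h1
      have c2 : Commute (x₂ ^ p ^ (n - 1)) g := h2
      exact (((c2.mul_left c1).inv_left).mul_left (c1.mul_left c2)).symm.eq
  have htN : t ∈ N := by
    apply hcent
    rw [mem_centralizer_iff]
    intro g hg
    exact (mem_centralizer_singleton_iff.1 (hle hg))
  have ht1 : t = 1 := by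
    obtain ⟨j, hj⟩ := hSp ⟨t, htS⟩
    have h1 : orderOf t ∣ p ^ j := orderOf_dvd_of_pow_eq_one (congrArg Subtype.val hj)
    have h2 : orderOf t ∣ Nat.card N := by
      have h1 := orderOf_dvd_natCard (⟨t, htN⟩ : N)
      rwa [Subgroup.orderOf_mk] at h1
    have h3 := Nat.dvd_gcd h2 h1
    rw [Nat.Coprime.gcd_eq_one (hNc.pow_right j)] at h3
    exact orderOf_eq_one_iff.1 (Nat.dvd_one.1 h3)
  rw [ht, inv_mul_eq_one] at ht1
  exact ht1.symm

universe u

/-- if the `p^(n-1)`-th powers of the elements of each Sylow `p`-subgroup commute then they lie in `O_p`. -/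
theorem pow_mem_of_comm {G : Type u} [Group G] [Finite G] {p : ℕ} [hp : Fact p.Prime] (hp3 : 3 ≤ p)
    (hsol : IsPSolvable p G) (hO : pPrimeCore p G = ⊥) (N : ℕ)
    (hexp : ∀ x : G, ∀ j : ℕ, x ^ p ^ j = 1 → x ^ p ^ (N + 1) = 1)
    (hcomm : ∀ (S : Sylow p G), ∀ x₁ ∈ (S : Subgroup G), ∀ x₂ ∈ (S : Subgroup G),
      Commute (x₁ ^ p ^ N) (x₂ ^ p ^ N))
    (x : G) (j : ℕ) (hx : x ^ p ^ j = 1) : x ^ p ^ N ∈ pCore p G := by
  have hPn : (pCore p G).Normal := Lib.Cores.pCore_normal p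
  obtain ⟨V, _, _, _, φ, π, hπ, hφ, hker⟩ := FratMod.exists_module hsol hO
  have hPp : IsPGroup p (pCore p G) := Lib.Cores.pCore_isPGroup p
  by_contra hcon
  have hxN := hexp x j hx
  have hord : orderOf (φ x) = p ^ (N + 1) := by
    refine orderOf_eq_prime_pow ?_ ?_
    · rw [← map_pow]
      intro h
      apply hcon
      rw [← hker]
      exact MonoidHom.mem_ker.mpr h
    · rw [← map_pow, hxN, map_one]
  have hpN : 0 < p ^ N := pow_pos hp.out.pos N
  have hfr : Finite φ.range := Finite.of_surjective _ φ.rangeRestrict_surjective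
  have hne : ((φ x : Module.End (ZMod p) V) - 1) ^ (2 * p ^ N - 1) ≠ 0 := by
    intro hs
    have h3 : 3 * p ^ N ≤ p ^ (N + 1) := by
      rw [pow_succ, mul_comm]
      exact Nat.mul_le_mul_left _ hp3
    rcases S0633.bound (H := φ.range) (Lib.PSolvable.IsPSolvable_of_surjective p hsol φ.rangeRestrict
        φ.rangeRestrict_surjective) (ExpDrop.pCore_range_eq_bot φ hker) (φ x) ⟨x, rfl⟩ (N + 1) (by omega) hord
        _ hs with h | ⟨n₀, q, m, h1, h2, -, -, -, -, h7⟩
    · omega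
    · rw [Nat.mul_sub, mul_one, ← pow_add, Nat.sub_add_cancel h2] at h7
      have h8 : p ^ (N + 1 - n₀) ≤ p ^ N := Nat.pow_le_pow_right hp.out.pos (by omega)
      omega
  obtain ⟨w, hw⟩ : ∃ w, (((φ x : Module.End (ZMod p) V) - 1) ^ (2 * p ^ N - 1)) w ≠ 0 := by
    by_contra hc
    push Not at hc
    exact hne (LinearMap.ext hc)
  obtain ⟨u, hu⟩ := hπ (Multiplicative.ofAdd w)
  obtain ⟨n, hn, hn2⟩ := ExpDrop.norm_formula (pCore p G) φ π hφ x u (p ^ N)
  -- a Sylow subgroup containing `x` and `O_p`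
  have hZ : IsPGroup p (zpowers x) := by
    rintro ⟨y, i, rfl⟩
    refine ⟨j, Subtype.ext ?_⟩
    show (x ^ i) ^ p ^ j = 1
    rw [← zpow_natCast, ← zpow_mul, mul_comm, zpow_mul, zpow_natCast, hx, one_zpow]
  obtain ⟨S, hS⟩ := (hPp.to_sup_of_normal_left hZ).exists_le_sylow
  have hxS : x ∈ (S : Subgroup G) := hS (le_sup_right (a := pCore p G) (mem_zpowers x))
  have huS : (u : G) ∈ (S : Subgroup G) := hS (le_sup_left (a := pCore p G) u.2)
  have h1 := hcomm S _ (mul_mem huS hxS) x hxS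
  rw [hn] at h1
  have h2 : x ^ p ^ N * (n : G) * (x ^ p ^ N)⁻¹ = n := by
    have h3 := h1.eq
    rw [mul_assoc] at h3
    have h4 : (n : G) * (x ^ p ^ N * x ^ p ^ N) = x ^ p ^ N * n * x ^ p ^ N := by rw [h3]; group
    rw [← mul_assoc] at h4
    have h5 := mul_right_cancel h4
    rw [← h5, mul_inv_cancel_right]
  have hmem : x ^ p ^ N * (n : G) * (x ^ p ^ N)⁻¹ ∈ pCore p G := by rw [h2]; exact n.2
  have h3 := hφ (x ^ p ^ N) n hmem
  have h4 : (⟨x ^ p ^ N * (n : G) * (x ^ p ^ N)⁻¹, hmem⟩ : pCore p G) = n := Subtype.ext h2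
  rw [h4] at h3
  apply hw
  have h5 : ∀ i : ℕ, ∀ v : V, ((φ x) ^ i) v = ((φ x : Module.End (ZMod p) V) ^ i) v := by
    intro i
    induction i with
    | zero => intro v; rfl
    | succ i ih =>
      intro v
      rw [pow_succ, pow_succ]
      exact ih (φ x v)
  rw [map_pow, h5] at h3
  have h6 : ((φ x : Module.End (ZMod p) V) - 1) ^ (p ^ N) = (φ x : Module.End (ZMod p) V) ^ (p ^ N) - 1 := by
    have h3 := congrArg (Polynomial.aeval (φ x : Module.End (ZMod p) V))
      (sub_pow_char_pow (R := Polynomial (ZMod p)) (p := p) (n := N) (Polynomial.X) 1)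
    simpa using h3
  have h7 : 2 * p ^ N - 1 = p ^ N + (p ^ N - 1) := by omega
  have hw' : w = (π u).toAdd := by rw [hu]; rfl
  rw [h7, pow_add, Module.End.mul_apply, ← PLocal.HHBUnip.geom_eq (ZMod p) p, hw', ← hn2, h6,
    LinearMap.sub_apply, Module.End.one_apply, ← h3, sub_self]

/-- **The exponent drops after `O_{p,p',p}`.** -/
theorem drop {G : Type u} [Group G] [Finite G] {p k : ℕ} [hp : Fact p.Prime] (hk : 2 ^ k + 1 = p)
    (hk1 : 1 ≤ k) (hsol : IsPSolvable p G) (hO : pPrimeCore p G = ⊥) (N : ℕ)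
    (hexp : ∀ x : G, ∀ j : ℕ, x ^ p ^ j = 1 → x ^ p ^ (N + 1) = 1)
    {G₁ : Type u} [Group G₁] [Finite G₁] (f : G →* G₁) (hf : Function.Surjective f) (hle : pCore p G ≤ f.ker)
    (hO₁ : pPrimeCore p G₁ = ⊥) (x : G₁) (j : ℕ) (hx : x ^ p ^ j = 1) : x ^ p ^ N ∈ pCore p G₁ := by
  have hp3 : 3 ≤ p := by
    have h2 : 2 ^ 1 ≤ 2 ^ k := Nat.pow_le_pow_right (by norm_num) hk1
    omega
  have hPn : (pCore p G).Normal := Lib.Cores.pCore_normal p
  have hPp : IsPGroup p (pCore p G) := Lib.Cores.pCore_isPGroup p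
  refine pow_mem_of_comm hp3 (Lib.PSolvable.IsPSolvable_of_surjective p hsol f hf) hO₁ N
    (ExpDrop.exp_of_surjective f hf hexp) ?_ x j hx
  intro S₁ x₁ hx₁ x₂ hx₂
  obtain ⟨S, rfl⟩ := Sylow.mapSurjective_surjective hf p S₁
  obtain ⟨y₁, hy₁, rfl⟩ := hx₁
  obtain ⟨y₂, hy₂, rfl⟩ := hx₂
  obtain ⟨V, _, _, _, φ, π, hπ, hφ, hker⟩ := FratMod.exists_module hsol hO
  have hfr : Finite φ.range := Finite.of_surjective _ φ.rangeRestrict_surjective
  have h1 := comm_powers (F := ZMod p) hk hk1 φ.range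
    (Lib.PSolvable.IsPSolvable_of_surjective p hsol φ.rangeRestrict φ.rangeRestrict_surjective)
    (ExpDrop.pCore_range_eq_bot φ hker) (N + 1) (by omega) (by
      rintro y ⟨i, hi⟩
      obtain ⟨g, rfl, s, hs⟩ := ExpDrop.exists_lift φ.rangeRestrict φ.rangeRestrict_surjective hi
      have hgN := hexp g s hs
      refine ⟨by rw [← map_pow, hgN, map_one], ?_⟩
      exact ExpDrop.sum_eq_zero (pCore p G) φ π hπ hφ g (N + 1) (fun u => by
        obtain ⟨s, hs⟩ := ExpDrop.pElt_mul _ hPp hgN u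
        exact hexp _ s hs))
    (S.mapSurjective φ.rangeRestrict_surjective) (φ.rangeRestrict y₁) (φ.rangeRestrict y₂) ⟨y₁, hy₁, rfl⟩
    ⟨y₂, hy₂, rfl⟩
  rw [Nat.add_sub_cancel, ← map_pow, ← map_pow] at h1
  show Commute ((f y₁) ^ p ^ N) ((f y₂) ^ p ^ N)
  rw [← map_pow, ← map_pow]
  have h2 : (y₁ ^ p ^ N) * (y₂ ^ p ^ N) * (y₁ ^ p ^ N)⁻¹ * (y₂ ^ p ^ N)⁻¹ ∈ pCore p G := by
    rw [← hker, MonoidHom.mem_ker]
    have h3 := congrArg Subtype.val h1.eq
    change φ (y₁ ^ p ^ N) * φ (y₂ ^ p ^ N) = φ (y₂ ^ p ^ N) * φ (y₁ ^ p ^ N) at h3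
    rw [map_mul, map_mul, map_mul, map_inv, map_inv, h3]
    group
  have h3 := hle h2
  rw [MonoidHom.mem_ker, map_mul, map_mul, map_mul, map_inv, map_inv, mul_inv_eq_one, mul_inv_eq_iff_eq_mul] at h3
  exact h3

/-- **`l_p ≤ 2 e_p`** for `p = 2^k + 1`. -/
theorem pLengthLE_two_mul {p k : ℕ} [hp : Fact p.Prime] (hk : 2 ^ k + 1 = p) (hk1 : 1 ≤ k) (N : ℕ) :
    ∀ (G : Type u) [Group G] [Finite G] (_ : IsPSolvable p G)
      (_ : ∀ x : G, ∀ j : ℕ, x ^ p ^ j = 1 → x ^ p ^ N = 1), PLengthLE p (2 * N) G := by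
  induction N with
  | zero =>
    intro G _ _ _ hexp
    exact ExpDrop.pLengthLE_zero_of_exp hexp
  | succ N ih =>
    intro G _ _ hsol hexp
    have hn1 : (pPrimeCore p G).Normal := Lib.Cores.pPrimeCore_normal p
    refine ExpDrop.pLengthLE_of_quotient_pPrimeCore hn1 ?_
    have main : ∀ (G₁ : Type u) [Group G₁] [Finite G₁] (f : G →* G₁) (hf : Function.Surjective f)
        (hO : pPrimeCore p G₁ = ⊥), PLengthLE p (2 * (N + 1)) G₁ := by
      intro G₁ _ _ f hf hO
      have hsol1 : IsPSolvable p G₁ := Lib.PSolvable.IsPSolvable_of_surjective p hsol f hf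
      have hexp1 := ExpDrop.exp_of_surjective f hf hexp
      have hn2 : (pCore p G₁).Normal := Lib.Cores.pCore_normal p
      have h22 : 2 * (N + 1) = (2 * N + 1) + 1 := by ring
      rw [h22]
      refine ExpDrop.pLengthLE_succ_of_quotient_pCore hn2 ?_
      have hn3 : (pPrimeCore p (G₁ ⧸ pCore p G₁)).Normal := Lib.Cores.pPrimeCore_normal p
      refine ExpDrop.pLengthLE_of_quotient_pPrimeCore hn3 ?_
      let f2 : G₁ →* (G₁ ⧸ pCore p G₁) ⧸ pPrimeCore p (G₁ ⧸ pCore p G₁) :=
        (QuotientGroup.mk' _).comp (QuotientGroup.mk' (pCore p G₁))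
      have hf2 : Function.Surjective f2 :=
        (QuotientGroup.mk'_surjective _).comp (QuotientGroup.mk'_surjective _)
      have hle : pCore p G₁ ≤ f2.ker := by
        intro g hg
        rw [MonoidHom.mem_ker]
        show QuotientGroup.mk' _ (QuotientGroup.mk' (pCore p G₁) g) = 1
        rw [(QuotientGroup.eq_one_iff g).mpr hg |> (show QuotientGroup.mk' (pCore p G₁) g = 1 from ·), map_one]
      have hdrop := drop hk hk1 hsol1 hO N hexp1 f2 hf2 hle (Lib.Cores.pPrimeCore_quotient_pPrimeCore p)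
      have hsol2 := Lib.PSolvable.IsPSolvable_of_surjective p hsol1 f2 hf2
      have hn4 : (pCore p ((G₁ ⧸ pCore p G₁) ⧸ pPrimeCore p (G₁ ⧸ pCore p G₁))).Normal :=
        Lib.Cores.pCore_normal p
      refine ExpDrop.pLengthLE_succ_of_quotient_pCore hn4 ?_
      refine ih _ (Lib.PSolvable.IsPSolvable_of_surjective p hsol2 (QuotientGroup.mk' _)
        (QuotientGroup.mk'_surjective _)) ?_
      intro x j hx
      obtain ⟨y, rfl, s, hs⟩ := ExpDrop.exists_lift (QuotientGroup.mk' _) (QuotientGroup.mk'_surjective _) hx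
      rw [← map_pow]
      exact (QuotientGroup.eq_one_iff _).mpr (hdrop y s hs)
    exact main _ (QuotientGroup.mk' (pPrimeCore p G)) (QuotientGroup.mk'_surjective _)
      (Lib.Cores.pPrimeCore_quotient_pPrimeCore p)

end Cfsg.Agent.H450.TwoStep
end

-- part: S3786
section
set_option autoImplicit false
open Cfsg

namespace Cfsg.Agent.S3786

open Cfsg.Agent.H450

theorem good {p : ℕ} [hp : Fact p.Prime] (hp2 : p ≠ 2) {q n₀ m : ℕ} (hq : q.Prime)
    (h : p ^ n₀ - 1 = q ^ m) (h1 : 1 ≤ n₀) (h2 : 1 ≤ m) : q = 2 ∧ ∃ k, p = 2 ^ k + 1 := by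
  have hpodd : Odd p := hp.out.odd_of_ne_two hp2
  have h5 : Even (p ^ n₀ - 1) := Nat.Odd.sub_odd hpodd.pow odd_one
  have hq2 : q = 2 := by
    rw [h, Nat.even_pow] at h5
    exact (Nat.Prime.even_iff hq).mp h5.1
  subst hq2
  refine ⟨rfl, ?_⟩
  have h6 : (p - 1) ∣ 2 ^ m := by
    rw [← h]
    simpa using Nat.sub_dvd_pow_sub_pow p 1 n₀
  obtain ⟨k, -, hk⟩ := (Nat.dvd_prime_pow Nat.prime_two).mp h6
  exact ⟨k, by have := hp.out.pos; omega⟩

/-- The Hall–Higman bound on p-length. Let p be an odd prime and G a finite p-soluble group whose Sylow p-subgroups have exponent dividing p^e. (a) If p is not of the form 2^k + 1, or if the Sylow 2-subgroups of G are abelian, then G has p-length at most e. (b) In every case G has p-length at most 2e. -/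
theorem result {G : Type*} [Group G] [Finite G] {p : ℕ} [Fact p.Prime] (hp : p ≠ 2) (hG : Cfsg.IsPSolvable p G) (e : ℕ) (hexp : ∀ (P : Sylow p G), ∀ x ∈ (P : Subgroup G), x ^ p ^ e = 1) : (((¬ ∃ k : ℕ, p = 2 ^ k + 1) ∨ ∀ S : Sylow 2 G, IsMulCommutative (S : Subgroup G)) → Cfsg.PLengthLE p e G) ∧ Cfsg.PLengthLE p (2 * e) G := by
  have hexp' := ExpDrop.exp_of_sylow hexp
  have ha : ((¬ ∃ k : ℕ, p = 2 ^ k + 1) ∨ ∀ S : Sylow 2 G, IsMulCommutative (S : Subgroup G)) →
      Cfsg.PLengthLE p e G := by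
    intro h
    refine ExpDrop.pLengthLE_of_good e G hG hexp' ?_
    intro q n₀ m hq h1 h2 h3
    obtain ⟨rfl, hk⟩ := good hp hq h3 h1 h2
    rcases h with h | h
    · exact absurd hk h
    · obtain ⟨S⟩ : Nonempty (Sylow 2 G) := inferInstance
      exact ⟨S, h S⟩
  refine ⟨ha, ?_⟩
  by_cases hk : ∃ k : ℕ, p = 2 ^ k + 1
  · obtain ⟨k, hk⟩ := hk
    have hk1 : 1 ≤ k := by
      rcases Nat.eq_zero_or_pos k with h0 | h0
      · rw [h0] at hk
        exact absurd hk hp
      · exact h0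
    exact TwoStep.pLengthLE_two_mul hk.symm hk1 e G hG hexp'
  · exact H451.PLength.pLengthLE_mono (by omega) (ha (Or.inl hk))

end Cfsg.Agent.S3786
end
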