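import Mathlib
import Cfsg.Prelude.Def_LocalEven
import Cfsg.Agent.Lib.Involves
import Cfsg.Agent.OddOrderLocal.PLengthSub
import Cfsg.Agent.H450.ExpDrop
import Cfsg.Statements.S3787
set_option linter.all false

-- part: H450/Wreath
section
/-!
# Recognition of the wreath product `C_p ≀ C_p` as a quotient
-/

set_option autoImplicit false

namespace Cfsg.Agent.H450.Wreath

open Subgroup

universe u

/-- the data of `C_p ≀ C_p` used in S3787 -/
def WrData (p : ℕ) (W : Type*) [Group W] : Prop :=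
  ∃ (B : Subgroup W) (t : W), B.Normal ∧ IsMulCommutative B ∧ (∀ b ∈ B, b ^ p = 1) ∧
    Nat.card B = p ^ p ∧ orderOf t = p ∧ t ∉ B ∧ Nat.card W = p ^ (p + 1) ∧
    Nat.card ↥(B ⊓ Subgroup.centralizer ({t} : Set W)) = p

theorem WrData.congr {p : ℕ} {W W' : Type*} [Group W] [Group W'] (e : W ≃* W') (h : WrData p W) :
    WrData p W' := by
  obtain ⟨B, t, h1, h2, h3, h4, h5, h6, h7, h8⟩ := h
  refine ⟨B.map e.toMonoidHom, e t, h1.map _ e.surjective, inferInstance, ?_, ?_, ?_, ?_, ?_, ?_⟩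
  · rintro _ ⟨b, hb, rfl⟩
    rw [← map_pow, h3 b hb, map_one]
  · rw [Subgroup.card_map_of_injective e.injective, h4]
  · rw [MulEquiv.orderOf_eq, h5]
  · rintro ⟨b, hb, hbt⟩
    have : b = t := e.injective hbt
    exact h6 (this ▸ hb)
  · rw [← Nat.card_congr e.toEquiv, h7]
  · have : B.map e.toMonoidHom ⊓ centralizer ({e t} : Set W') =
        (B ⊓ centralizer ({t} : Set W)).map e.toMonoidHom := by
      ext y
      constructor
      · rintro ⟨⟨b, hb, rfl⟩, hc⟩
        have hc' : e b ∈ centralizer ({e t} : Set W') := hc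
        rw [mem_centralizer_singleton_iff, ← map_mul, ← map_mul] at hc'
        exact ⟨b, ⟨hb, mem_centralizer_singleton_iff.mpr (e.injective hc')⟩, rfl⟩
      · rintro ⟨b, ⟨hb, hc⟩, rfl⟩
        have hc' : b ∈ centralizer ({t} : Set W) := hc
        rw [mem_centralizer_singleton_iff] at hc'
        refine ⟨⟨b, hb, rfl⟩, mem_centralizer_singleton_iff.mpr ?_⟩
        show e b * e t = e t * e b
        rw [← map_mul, ← map_mul, hc']
    rw [this, Subgroup.card_map_of_injective e.injective, h8]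

/-- every finite group is isomorphic to a group in `Type` -/
theorem exists_type (W : Type u) [Group W] [Finite W] :
    ∃ (W' : Type) (_ : Group W') (_ : Finite W'), Nonempty (W ≃* W') := by
  have : Small.{0} W := Countable.toSmall W
  exact ⟨Shrink.{0} W, inferInstance, inferInstance, ⟨(Shrink.mulEquiv (α := W)).symm⟩⟩

/-- the regular unipotent action: `(A f) j = f j + f (j + 1)`, `f p = 0`. -/
def A (p : ℕ) (f : Fin p → ZMod p) : Fin p → ZMod p :=
  fun j => f j + if h : (j : ℕ) + 1 < p then f ⟨j + 1, h⟩ else 0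

theorem A_eq_self {p : ℕ} [hp : Fact p.Prime] (f : Fin p → ZMod p) :
    A p f = f ↔ ∀ j : Fin p, j ≠ ⟨0, hp.out.pos⟩ → f j = 0 := by
  constructor
  · intro h j hj
    obtain ⟨j, hjp⟩ := j
    cases j with
    | zero => exact absurd rfl hj
    | succ i =>
      have h1 := congrFun h ⟨i, by omega⟩
      simp only [A, hjp, dif_pos] at h1
      simpa using h1
  · intro h
    funext j
    simp only [A]
    split_ifs with h1
    · rw [h ⟨j + 1, h1⟩ (fun h2 => absurd (congrArg Fin.val h2) (Nat.succ_ne_zero _)), add_zero]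
    · rw [add_zero]

theorem exists_wreath {Γ : Type u} [Group Γ] [Finite Γ] {p : ℕ} [hp : Fact p.Prime] (P' : Subgroup Γ)
    [hn : P'.Normal] (θ : P' →* Multiplicative (Fin p → ZMod p)) (hθ : Function.Surjective θ) (t : Γ)
    (htop : P' ⊔ zpowers t = ⊤) (ht : t ∉ P') (htp : t ^ p ∈ P') (htp' : θ ⟨t ^ p, htp⟩ = 1)
    (hA : ∀ (u : P') (h : t * u * t⁻¹ ∈ P'), (θ ⟨t * u * t⁻¹, h⟩).toAdd = A p (θ u).toAdd) :
    ∃ (N : Subgroup Γ) (_ : N.Normal), WrData p (Γ ⧸ N) := by
  classical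
  let N : Subgroup Γ := θ.ker.map P'.subtype
  have hmemN : ∀ u : P', (u : Γ) ∈ N ↔ θ u = 1 := by
    intro u
    constructor
    · rintro ⟨v, hv, hvu⟩
      have : v = u := Subtype.ext hvu
      rw [← this]; exact hv
    · intro h
      exact ⟨u, h, rfl⟩
  have hNP : N ≤ P' := map_subtype_le _
  have htN : ∀ n ∈ N, t * n * t⁻¹ ∈ N := by
    intro n hn'
    have h1 : t * n * t⁻¹ ∈ P' := hn.conj_mem n (hNP hn') t
    refine (hmemN ⟨_, h1⟩).mpr ?_
    have h2 := hA ⟨n, hNP hn'⟩ h1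
    have h3 : θ ⟨n, hNP hn'⟩ = 1 := (hmemN _).mp hn'
    rw [h3] at h2
    apply Multiplicative.toAdd.injective
    rw [h2]
    funext j
    simp [A]
  have hNn : N.Normal := by
    -- the normalizer contains `P'` and `t`
    rw [← normalizer_eq_top_iff, eq_top_iff, ← htop, sup_le_iff]
    constructor
    · intro g hg
      refine Subgroup.mem_normalizer_fintype ?_
      intro n hn'
      have h1 : g * n * g⁻¹ ∈ P' := hn.conj_mem n (hNP hn') g
      refine (hmemN ⟨_, h1⟩).mpr ?_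
      have h3 : θ ⟨n, hNP hn'⟩ = 1 := (hmemN _).mp hn'
      have h4 : (⟨g * n * g⁻¹, h1⟩ : P') = ⟨g, hg⟩ * ⟨n, hNP hn'⟩ * ⟨g, hg⟩⁻¹ := rfl
      rw [h4, map_mul, map_mul, h3, mul_one, map_inv, mul_inv_cancel]
    · rw [zpowers_le]
      exact Subgroup.mem_normalizer_fintype htN
  have hπ : ∀ x y : Γ, QuotientGroup.mk' N x = QuotientGroup.mk' N y ↔ x * y⁻¹ ∈ N := by
    intro x y
    rw [← mul_inv_eq_one, ← map_inv, ← map_mul]
    exact QuotientGroup.eq_one_iff _
  have hπ1 : ∀ x : Γ, QuotientGroup.mk' N x = 1 ↔ x ∈ N := fun x => QuotientGroup.eq_one_iff _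
  have hπP : ∀ x y : P', QuotientGroup.mk' N (x : Γ) = QuotientGroup.mk' N (y : Γ) ↔ θ x = θ y := by
    intro x y
    rw [hπ, ← Subgroup.coe_inv, ← Subgroup.coe_mul, hmemN, map_mul, map_inv, mul_inv_eq_one]
  have hcardB : Nat.card (P'.map (QuotientGroup.mk' N)) = p ^ p := by
    rw [OddOrderLocal.PLengthSub.card_map_mk']
    have h1 : N.relIndex P' = θ.ker.index := by
      have h2 : N.subgroupOf P' = θ.ker := by
        ext u
        rw [mem_subgroupOf, hmemN]
        exact Iff.rfl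
      rw [relIndex, h2]
    rw [h1, Subgroup.index_ker, MonoidHom.range_eq_top.mpr hθ, Subgroup.card_top]
    show Nat.card (Fin p → ZMod p) = p ^ p
    rw [Nat.card_fun, Nat.card_fin, Nat.card_zmod]
  have hidx : P'.index = p := by
    have h1 : (⊤ : Subgroup (Γ ⧸ P')) = zpowers (QuotientGroup.mk' P' t) := by
      rw [← MonoidHom.map_zpowers, ← Subgroup.map_top_of_surjective _ (QuotientGroup.mk'_surjective P'),
        ← htop, Subgroup.map_sup]
      have h2 : P'.map (QuotientGroup.mk' P') = ⊥ := by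
        rw [Subgroup.map_eq_bot_iff, QuotientGroup.ker_mk']
      rw [h2, bot_sup_eq]
    rw [Subgroup.index, ← Subgroup.card_top, h1, Nat.card_zpowers]
    refine orderOf_eq_prime ?_ ?_
    · rw [← map_pow]
      exact (QuotientGroup.eq_one_iff _).mpr htp
    · intro h
      exact ht ((QuotientGroup.eq_one_iff _).mp h)
  refine ⟨N, hNn, P'.map (QuotientGroup.mk' N), QuotientGroup.mk' N t,
    hn.map _ (QuotientGroup.mk'_surjective N), ?_, ?_, hcardB, ?_, ?_, ?_, ?_⟩
  · refine ⟨⟨?_⟩⟩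
    rintro ⟨_, u, hu, rfl⟩ ⟨_, v, hv, rfl⟩
    apply Subtype.ext
    show QuotientGroup.mk' N u * QuotientGroup.mk' N v = QuotientGroup.mk' N v * QuotientGroup.mk' N u
    rw [← map_mul, ← map_mul]
    refine (hπP (⟨u, hu⟩ * ⟨v, hv⟩) (⟨v, hv⟩ * ⟨u, hu⟩)).mpr ?_
    rw [map_mul, map_mul, mul_comm]
  · rintro _ ⟨u, hu, rfl⟩
    rw [← map_pow, hπ1]
    refine (hmemN (⟨u, hu⟩ ^ p)).mpr ?_
    rw [map_pow]
    apply Multiplicative.toAdd.injective
    rw [toAdd_pow, toAdd_one]
    funext j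
    simp
  · refine orderOf_eq_prime ?_ ?_
    · rw [← map_pow, hπ1]
      exact (hmemN ⟨t ^ p, htp⟩).mpr htp'
    · intro h
      exact ht (hNP ((hπ1 t).mp h))
  · rintro ⟨u, hu, hut⟩
    apply ht
    have h1 := hNP ((hπ u t).mp hut)
    have h2 : t⁻¹ = u⁻¹ * (u * t⁻¹) := by group
    rw [← P'.inv_mem_iff, h2]
    exact P'.mul_mem (P'.inv_mem hu) h1
  · have h1 := Subgroup.relIndex_mul_index hNP
    rw [← OddOrderLocal.PLengthSub.card_map_mk', hcardB, hidx] at h1
    rw [← Subgroup.index_eq_card, ← h1, pow_succ]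
  · -- the centralizer of `t` in `B`
    have hz : ∀ a : ZMod p, ∃ u : P', (θ u).toAdd = Pi.single ⟨0, hp.out.pos⟩ a := by
      intro a
      obtain ⟨u, hu⟩ := hθ (Multiplicative.ofAdd (Pi.single ⟨0, hp.out.pos⟩ a))
      exact ⟨u, by rw [hu]; rfl⟩
    choose w hw using hz
    have hcomm : ∀ u : P', QuotientGroup.mk' N (u : Γ) ∈ centralizer ({QuotientGroup.mk' N t} : Set (Γ ⧸ N)) ↔
        A p (θ u).toAdd = (θ u).toAdd := by
      intro u
      have h1 : t * u * t⁻¹ ∈ P' := hn.conj_mem u u.2 t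
      rw [mem_centralizer_singleton_iff, ← hA u h1]
      constructor
      · intro h
        congr 1
        refine (hπP ⟨t * u * t⁻¹, h1⟩ u).mp ?_
        show QuotientGroup.mk' N (t * u * t⁻¹) = QuotientGroup.mk' N (u : Γ)
        rw [map_mul, map_mul, map_inv, ← h, mul_inv_cancel_right]
      · intro h
        have h2 := (hπP ⟨t * u * t⁻¹, h1⟩ u).mpr (Multiplicative.toAdd.injective h)
        have h3 : QuotientGroup.mk' N (t * u * t⁻¹) = QuotientGroup.mk' N (u : Γ) := h2
        rw [map_mul, map_mul, map_inv, mul_inv_eq_iff_eq_mul] at h3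
        exact h3.symm
    let g : ZMod p → ↥(P'.map (QuotientGroup.mk' N) ⊓ centralizer ({QuotientGroup.mk' N t} : Set (Γ ⧸ N))) :=
      fun a => ⟨QuotientGroup.mk' N (w a : Γ), Subgroup.mem_inf.mpr ⟨⟨(w a : Γ), (w a).2, rfl⟩, by
        rw [hcomm, hw, A_eq_self]
        intro j hj
        rw [Pi.single_eq_of_ne hj]⟩⟩
    have hg : Function.Bijective g := by
      constructor
      · intro a b hab
        have h1 : QuotientGroup.mk' N (w a : Γ) = QuotientGroup.mk' N (w b : Γ) := congrArg Subtype.val hab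
        rw [hπP] at h1
        have h2 := congrArg Multiplicative.toAdd h1
        rw [hw, hw] at h2
        have h3 := congrFun h2 ⟨0, hp.out.pos⟩
        rwa [Pi.single_eq_same, Pi.single_eq_same] at h3
      · rintro ⟨_, ⟨u, hu, rfl⟩, hc⟩
        refine ⟨(θ ⟨u, hu⟩).toAdd ⟨0, hp.out.pos⟩, Subtype.ext ?_⟩
        show QuotientGroup.mk' N (w _ : Γ) = QuotientGroup.mk' N u
        refine (hπP (w _) ⟨u, hu⟩).mpr ?_
        apply Multiplicative.toAdd.injective
        rw [hw]
        have h1 := (hcomm ⟨u, hu⟩).mp hc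
        rw [A_eq_self] at h1
        funext j
        by_cases hj : j = ⟨0, hp.out.pos⟩
        · subst hj
          rw [Pi.single_eq_same]
        · rw [Pi.single_eq_of_ne hj, h1 j hj]
    rw [← Nat.card_congr (Equiv.ofBijective g hg), Nat.card_zmod]

end Cfsg.Agent.H450.Wreath
end

-- part: H450/WreathSection
section
/-!
# A section `C_p ≀ C_p` in a `p`-solvable group with `O_{p'} = 1` and Sylow subgroup not normal
-/

set_option autoImplicit false

namespace Cfsg.Agent.H450.WreathSection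

open Subgroup Wreath Cfsg

universe u

section linear

variable {p : ℕ} [hp : Fact p.Prime] {V : Type*} [AddCommGroup V] [Module (ZMod p) V]

/-- coordinates with respect to a cyclic vector -/
def Psi (ν : Module.End (ZMod p) V) (l : V →ₗ[ZMod p] ZMod p) : V →ₗ[ZMod p] (Fin p → ZMod p) :=
  LinearMap.pi fun j => l ∘ₗ (ν ^ (j : ℕ))

theorem Psi_apply (ν : Module.End (ZMod p) V) (l : V →ₗ[ZMod p] ZMod p) (w : V) (j : Fin p) :
    Psi ν l w j = l ((ν ^ (j : ℕ)) w) := rfl

theorem Psi_surjective (ν : Module.End (ZMod p) V) (l : V →ₗ[ZMod p] ZMod p) (hν : ν ^ p = 0) (v : V)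
    (hv : l ((ν ^ (p - 1)) v) ≠ 0) : Function.Surjective (Psi ν l) := by
  rw [← LinearMap.range_eq_top]
  by_contra hne
  obtain ⟨f, hf, hle⟩ := Submodule.exists_le_ker_of_lt_top _ (lt_top_iff_ne_top.mpr hne)
  let c : Fin p → ZMod p := fun j => f (Pi.single j 1)
  have hfc : ∀ g : Fin p → ZMod p, f g = ∑ j, g j * c j := by
    intro g
    have h1 : g = ∑ j, g j • (Pi.single j (1 : ZMod p) : Fin p → ZMod p) := by
      funext i
      rw [Finset.sum_apply, Finset.sum_eq_single i]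
      · simp
      · intro b _ hb
        simp [hb.symm]
      · intro h; exact absurd (Finset.mem_univ _) h
    conv_lhs => rw [h1]
    rw [map_sum]
    refine Finset.sum_congr rfl fun j _ => ?_
    rw [map_smul, smul_eq_mul]
  have hcne : ∃ j, c j ≠ 0 := by
    by_contra hcon
    push Not at hcon
    apply hf
    ext g
    simp only [LinearMap.comp_apply, LinearMap.zero_apply]
    rw [hfc]
    exact Finset.sum_eq_zero fun j _ => by rw [hcon j, mul_zero]
  obtain ⟨j₀, hj₀, hmin⟩ := WellFounded.has_min (wellFounded_lt (α := Fin p)) {j | c j ≠ 0} hcne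
  have h2 : f (Psi ν l ((ν ^ (p - 1 - (j₀ : ℕ))) v)) = 0 := hle ⟨_, rfl⟩
  rw [hfc, Finset.sum_eq_single j₀] at h2
  · rw [Psi_apply, ← Module.End.mul_apply, ← pow_add] at h2
    have h3 : (j₀ : ℕ) + (p - 1 - j₀) = p - 1 := by
      have := j₀.2
      omega
    rw [h3] at h2
    rcases mul_eq_zero.mp h2 with h | h
    · exact hv h
    · exact hj₀ h
  · intro j _ hj
    rcases lt_or_gt_of_ne hj with h | h
    · have : c j = 0 := by
        by_contra hc
        exact hmin j hc h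
      rw [this, mul_zero]
    · rw [Psi_apply, ← Module.End.mul_apply, ← pow_add]
      have h3 : (j : ℕ) + (p - 1 - j₀) = p + (j + (p - 1 - j₀) - p) := by
        have := j₀.2
        have h4 : (j₀ : ℕ) < j := h
        omega
      rw [h3, pow_add, hν, zero_mul, LinearMap.zero_apply, map_zero, zero_mul]
  · intro h; exact absurd (Finset.mem_univ _) h

theorem Psi_one_add (ν : Module.End (ZMod p) V) (l : V →ₗ[ZMod p] ZMod p) (hν : ν ^ p = 0) (w : V) :
    Psi ν l (w + ν w) = A p (Psi ν l w) := by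
  funext j
  rw [Psi_apply, map_add, map_add, ← Module.End.mul_apply, ← pow_succ]
  show _ = Psi ν l w j + _
  rw [Psi_apply]
  congr 1
  split_ifs with h
  · rfl
  · have : (j : ℕ) + 1 = p := by
      have := j.2
      omega
    rw [this, hν, LinearMap.zero_apply, map_zero]

end linear

/-- a section `C_p ≀ C_p` -/
theorem exists_section {G : Type u} [Group G] [Finite G] {p : ℕ} [hp : Fact p.Prime] (hp2 : p ≠ 2)
    (hnf : ¬ ∃ k : ℕ, p = 2 ^ k + 1) (hsol : IsPSolvable p G) (hO : pPrimeCore p G = ⊥)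
    (hdvd : p ∣ (pCore p G).index) :
    ∃ T₀ : Subgroup G, IsPGroup p T₀ ∧ ∃ (N : Subgroup T₀) (_ : N.Normal), WrData p (T₀ ⧸ N) := by
  classical
  have hPn : (pCore p G).Normal := Lib.Cores.pCore_normal p
  have hPp : IsPGroup p (pCore p G) := Lib.Cores.pCore_isPGroup p
  obtain ⟨V, _, _, _, φ, π, hπ, hφ, hker⟩ := FratMod.exists_module hsol hO
  -- a `p`-element `x` outside `O_p` with `x ^ p` inside
  obtain ⟨x, hxP, k, hxk, hxp⟩ : ∃ x : G, x ∉ pCore p G ∧ ∃ k : ℕ, x ^ p ^ k = 1 ∧ x ^ p ∈ pCore p G := by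
    rw [Subgroup.index] at hdvd
    obtain ⟨y, hy⟩ := exists_prime_orderOf_dvd_card' p hdvd
    have hy0 : y ^ p = 1 := by
      have h := pow_orderOf_eq_one y
      rwa [hy] at h
    have hy1 : y ^ p ^ 1 = 1 := by rw [pow_one]; exact hy0
    obtain ⟨x, rfl, k, hk⟩ := ExpDrop.exists_lift (QuotientGroup.mk' (pCore p G))
      (QuotientGroup.mk'_surjective _) hy1
    refine ⟨x, ?_, k, hk, ?_⟩
    · intro h
      rw [show QuotientGroup.mk' (pCore p G) x = 1 from (QuotientGroup.eq_one_iff x).mpr h, orderOf_one] at hy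
      exact hp.out.one_lt.ne hy
    · rw [pow_one, ← map_pow] at hy1
      exact (QuotientGroup.eq_one_iff _).mp hy1
  set T : Module.End (ZMod p) V := (φ x : Module.End (ZMod p) V) with hT
  have hφx : φ x ^ p = 1 := by
    rw [← map_pow]
    exact MonoidHom.mem_ker.mp (by rw [hker]; exact hxp)
  have hTp : T ^ p = 1 := by
    have h2 := congrArg (LinearEquiv.automorphismGroup.toLinearMapMonoidHom (R := ZMod p) (M := V)) hφx
    rw [map_pow, map_one] at h2
    exact h2
  have hfr : Finite φ.range := Finite.of_surjective _ φ.rangeRestrict_surjective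
  have hord : orderOf (φ x) = p ^ 1 := by
    rw [pow_one]
    refine orderOf_eq_prime hφx ?_
    intro h
    exact hxP (by rw [← hker]; exact MonoidHom.mem_ker.mpr h)
  set ν : Module.End (ZMod p) V := T - 1 with hν
  have hνp : ν ^ p = 0 := by
    have h1 := PLocal.HHBUnip.geom_eq (ZMod p) p T 1
    have h2 : (T - 1) ^ p = T ^ p - 1 := by
      have h3 := congrArg (Polynomial.aeval T)
        (sub_pow_char (R := Polynomial (ZMod p)) (p := p) (Polynomial.X) 1)
      simpa using h3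
    rw [hν, h2, hTp, sub_self]
  have hνne : ν ^ (p - 1) ≠ 0 := by
    intro h0
    rcases S0633.bound (H := φ.range) (Lib.PSolvable.IsPSolvable_of_surjective p hsol φ.rangeRestrict
        φ.rangeRestrict_surjective) (ExpDrop.pCore_range_eq_bot φ hker) (φ x) ⟨x, rfl⟩ 1 le_rfl hord _ h0
      with h | ⟨n₀, q, m, h1, h2, h3, h4, h5, h6, h7⟩
    · have : 0 < p := hp.out.pos
      rw [pow_one] at h
      omega
    · apply hnf
      have hodd : Odd p := hp.out.odd_of_ne_two hp2
      have h8 : 2 ∣ p ^ n₀ - 1 := by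
        have : Odd (p ^ n₀) := hodd.pow
        obtain ⟨a, ha⟩ := this
        exact ⟨a, by omega⟩
      rw [h5] at h8
      have hq2 : q = 2 := ((Nat.prime_dvd_prime_iff_eq Nat.prime_two h3).mp
        (Nat.prime_two.dvd_of_dvd_pow h8)).symm
      have h9 : p - 1 ∣ 2 ^ m := by
        rw [← hq2, ← h5]
        simpa using Nat.sub_dvd_pow_sub_pow p 1 n₀
      obtain ⟨k, -, hk⟩ := (Nat.dvd_prime_pow Nat.prime_two).mp h9
      exact ⟨k, by have := hp.out.pos; omega⟩
  obtain ⟨v, hv⟩ : ∃ v, (ν ^ (p - 1)) v ≠ 0 := by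
    by_contra hcon
    push Not at hcon
    exact hνne (LinearMap.ext hcon)
  obtain ⟨l, hl⟩ : ∃ l : V →ₗ[ZMod p] ZMod p, l ((ν ^ (p - 1)) v) ≠ 0 := by
    by_contra hcon
    push Not at hcon
    exact hv ((Module.forall_dual_apply_eq_zero_iff (ZMod p) _).mp hcon)
  -- the element `t`
  set w₀ : V := (π ⟨x ^ p, hxp⟩).toAdd with hw₀
  have hTw₀ : ν w₀ = 0 := by
    have h1 : x * (⟨x ^ p, hxp⟩ : pCore p G) * x⁻¹ ∈ pCore p G := hPn.conj_mem _ hxp x
    have h2 := hφ x ⟨x ^ p, hxp⟩ h1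
    have h3 : (⟨x * (⟨x ^ p, hxp⟩ : pCore p G) * x⁻¹, h1⟩ : pCore p G) = ⟨x ^ p, hxp⟩ := by
      apply Subtype.ext
      show x * x ^ p * x⁻¹ = x ^ p
      rw [← pow_succ', pow_succ, mul_inv_cancel_right]
    rw [h3] at h2
    show T w₀ - w₀ = 0
    rw [sub_eq_zero]
    exact h2.symm
  obtain ⟨u₀, hu₀⟩ := hπ (Multiplicative.ofAdd ((-(l w₀) / l ((ν ^ (p - 1)) v)) • v))
  set t : G := (u₀ : G) * x with ht
  have hφt : φ t = φ x := by
    rw [ht, map_mul, MonoidHom.mem_ker.mp (by rw [hker]; exact u₀.2 : (u₀ : G) ∈ φ.ker), one_mul]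
  obtain ⟨n, hn1, hn2⟩ := ExpDrop.norm_formula (pCore p G) φ π hφ x u₀ p
  have htpe : t ^ p = ((n * ⟨x ^ p, hxp⟩ : pCore p G) : G) := hn1
  have htp : t ^ p ∈ pCore p G := by rw [htpe]; exact (n * ⟨x ^ p, hxp⟩ : pCore p G).2
  have htP : t ∉ pCore p G := by
    intro h
    apply hxP
    rw [← hker] at h ⊢
    rw [MonoidHom.mem_ker] at h ⊢
    rw [← hφt, h]
  have hgeom : ∑ i ∈ Finset.range p, T ^ i = ν ^ (p - 1) := by
    have h1 := PLocal.HHBUnip.geom_eq (ZMod p) p T 1
    rwa [pow_one] at h1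
  have hπt : (π ⟨t ^ p, htp⟩).toAdd = (ν ^ (p - 1)) ((-(l w₀) / l ((ν ^ (p - 1)) v)) • v) + w₀ := by
    have h1 : (⟨t ^ p, htp⟩ : pCore p G) = n * ⟨x ^ p, hxp⟩ := Subtype.ext htpe
    rw [h1, map_mul, toAdd_mul, hn2, hu₀, hgeom]
    rfl
  have htk : IsPGroup p (zpowers t) := by
    obtain ⟨s, hs⟩ := ExpDrop.pElt_mul (pCore p G) hPp hxk u₀
    rintro ⟨y, i, rfl⟩
    refine ⟨s, Subtype.ext ?_⟩
    show (t ^ i) ^ p ^ s = 1
    rw [← zpow_natCast, ← zpow_mul, mul_comm, zpow_mul, zpow_natCast, hs, one_zpow]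
  refine ⟨pCore p G ⊔ zpowers t, hPp.to_sup_of_normal_left htk, ?_⟩
  set T₀ := pCore p G ⊔ zpowers t with hT₀
  have hle : pCore p G ≤ T₀ := le_sup_left
  have htT : t ∈ T₀ := Subgroup.mem_sup_right (mem_zpowers t)
  let P' : Subgroup T₀ := (pCore p G).subgroupOf T₀
  have hP'n : P'.Normal := inferInstance
  let e : P' →* pCore p G := (subgroupOfEquivOfLe hle).toMonoidHom
  have he : ∀ u : P', ((e u : pCore p G) : G) = ((u : T₀) : G) := fun u => rfl
  let Ψ : Multiplicative V →* Multiplicative (Fin p → ZMod p) :=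
    AddMonoidHom.toMultiplicative (Psi ν l).toAddMonoidHom
  have hΨ : ∀ w : Multiplicative V, (Ψ w).toAdd = Psi ν l w.toAdd := fun w => rfl
  have hΨs : Function.Surjective Ψ := fun y => by
    obtain ⟨w, hw⟩ := Psi_surjective ν l hνp v hl y.toAdd
    exact ⟨Multiplicative.ofAdd w, congrArg Multiplicative.ofAdd hw⟩
  refine exists_wreath P' (Ψ.comp (π.comp e)) ?_ ⟨t, htT⟩ ?_ ?_ ?_ ?_ ?_
  · exact hΨs.comp (hπ.comp (subgroupOfEquivOfLe hle).surjective)
  · rw [eq_top_iff]
    rintro ⟨y, hy⟩ -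
    obtain ⟨a, ha, b, hb, rfl⟩ := (Subgroup.mem_sup_of_normal_left).mp hy
    obtain ⟨i, rfl⟩ := hb
    have h1 : (⟨a * (fun x => t ^ x) i, hy⟩ : T₀) = ⟨a, hle ha⟩ * (⟨t, htT⟩ : T₀) ^ i := by
      apply Subtype.ext
      rw [Subgroup.coe_mul, Subgroup.coe_zpow]
    rw [h1]
    exact Subgroup.mul_mem_sup ha ⟨i, rfl⟩
  · intro h
    exact htP h
  · exact htp
  · apply Multiplicative.toAdd.injective
    show Psi ν l (π ⟨t ^ p, htp⟩).toAdd = 0
    rw [hπt]
    funext j
    rw [Psi_apply, Pi.zero_apply, map_add, ← Module.End.mul_apply, ← pow_add, map_add]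
    by_cases hj : (j : ℕ) = 0
    · rw [hj, zero_add, pow_zero, Module.End.one_apply, map_smul, map_smul, smul_eq_mul,
        div_mul_cancel₀ _ hl, neg_add_cancel]
    · obtain ⟨i, hi⟩ : ∃ i, (j : ℕ) = i + 1 := ⟨j - 1, by omega⟩
      have h1 : (ν ^ (j : ℕ)) w₀ = 0 := by
        rw [hi, pow_succ, Module.End.mul_apply, hTw₀, map_zero]
      have h2 : (j : ℕ) + (p - 1) = p + i := by have := hp.out.pos; omega
      rw [h1, h2, pow_add, hνp, zero_mul, LinearMap.zero_apply, map_zero, add_zero]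
  · intro u h
    have h1 : t * (e u) * t⁻¹ ∈ pCore p G := hPn.conj_mem _ (e u).2 t
    have h2 := hφ t (e u) h1
    show Psi ν l (π (e ⟨_, h⟩)).toAdd = A p (Psi ν l (π (e u)).toAdd)
    have h3 : e ⟨(⟨t, htT⟩ : T₀) * u * (⟨t, htT⟩ : T₀)⁻¹, h⟩ = ⟨t * (e u) * t⁻¹, h1⟩ := rfl
    rw [h3, h2, ← Psi_one_add ν l hνp]
    congr 1
    rw [hφt]
    show T _ = _ + (T - 1) _
    rw [LinearMap.sub_apply, Module.End.one_apply]
    abel

end Cfsg.Agent.H450.WreathSection
end

-- part: S3787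
section
set_option autoImplicit false
open Cfsg

namespace Cfsg.Agent.S3787

/-- Let G be a finite p-soluble group, p an odd prime not of the form 2^k + 1, and suppose the wreath product C_p ≀ C_p (of order p^(p+1)) is not involved in a Sylow p-subgroup of G: no section of a Sylow p-subgroup is isomorphic to it. Then G has p-length at most 1. -/
theorem result {G : Type*} [Group G] [Finite G] {p : ℕ} [Fact p.Prime] (hp2 : p ≠ 2) (hnf : (¬ ∃ k : ℕ, p = 2 ^ k + 1)) (hG : Cfsg.IsPSolvable p G) (P : Sylow p G) (hwr : ∀ (W : Type) [Group W] [Finite W], (∃ (B : Subgroup W) (t : W), B.Normal ∧ IsMulCommutative B ∧ (∀ b ∈ B, b ^ p = 1) ∧ Nat.card B = p ^ p ∧ orderOf t = p ∧ t ∉ B ∧ Nat.card W = p ^ (p + 1) ∧ Nat.card ↥(B ⊓ Subgroup.centralizer ({t} : Set W)) = p) → ¬ Cfsg.Involves W ↥(P : Subgroup G)) : Cfsg.PLengthLE p 1 G := by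
  have hn1 : (pPrimeCore p G).Normal := Lib.Cores.pPrimeCore_normal p
  have hn2 : (pCore p (G ⧸ pPrimeCore p G)).Normal := Lib.Cores.pCore_normal p
  refine H450.ExpDrop.pLengthLE_of_quotient_pPrimeCore hn1 ?_
  by_cases hdvd : p ∣ (pCore p (G ⧸ pPrimeCore p G)).index
  swap
  · refine H450.ExpDrop.pLengthLE_succ_of_quotient_pCore hn2 ?_
    rw [H451.PLength.pLengthLE_zero_iff]
    exact ((Nat.Prime.coprime_iff_not_dvd Fact.out).mpr hdvd).symm
  exfalso
  obtain ⟨T₀, hT₀, N, hN, hW⟩ := H450.WreathSection.exists_section hp2 hnf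
    (Lib.PSolvable.IsPSolvable_of_surjective p hG _ (QuotientGroup.mk'_surjective _))
    (Lib.Cores.pPrimeCore_quotient_pPrimeCore p) hdvd
  obtain ⟨W, _, _, ⟨e⟩⟩ := H450.Wreath.exists_type (T₀ ⧸ N)
  apply hwr W (hW.congr e)
  -- the involvement
  have h1 : Lib.Involves.Involves P W := by
    have h2 : Lib.Involves.Involves T₀ W :=
      Lib.Involves.of_surjective (e.toMonoidHom.comp (QuotientGroup.mk' N))
        (e.surjective.comp (QuotientGroup.mk'_surjective N))
    refine Lib.Involves.trans ?_ h2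
    let f := QuotientGroup.mk' (pPrimeCore p G)
    obtain ⟨S, hS⟩ := hT₀.exists_le_sylow
    obtain ⟨g, hg⟩ := MulAction.exists_smul_eq (G ⧸ pPrimeCore p G) S
      (P.mapSurjective (QuotientGroup.mk'_surjective (pPrimeCore p G)))
    have h3 : ∀ x ∈ T₀, g * x * g⁻¹ ∈ (P : Subgroup G).map f := by
      intro x hx
      have h4 : g * x * g⁻¹ ∈ ((g • S : Sylow p (G ⧸ pPrimeCore p G)) : Subgroup (G ⧸ pPrimeCore p G)) := by
        rw [Sylow.coe_subgroup_smul]
        exact ⟨x, hS hx, rfl⟩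
      rw [hg] at h4
      exact h4
    have h5 : Lib.Involves.Involves ((P : Subgroup G).map f) T₀ := by
      refine Lib.Involves.of_injective
        (((MulAut.conj g).toMonoidHom.comp T₀.subtype).codRestrict _ (fun x => h3 x x.2)) ?_
      intro a b hab
      have h6 : g * (a : G ⧸ pPrimeCore p G) * g⁻¹ = g * b * g⁻¹ := congrArg Subtype.val hab
      exact Subtype.ext (mul_left_cancel (mul_right_cancel h6))
    refine Lib.Involves.trans ?_ h5
    exact Lib.Involves.of_surjective (f.subgroupMap (P : Subgroup G)) (f.subgroupMap_surjective _)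
  exact Lib.Involves.involves_iff.mp h1

end Cfsg.Agent.S3787
end
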