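import Mathlib
import Cfsg.Agent.Lib.FrattiniPGroup
import Cfsg.Agent.OddOrderLocal.FittingHall
import Cfsg.Agent.S0595
import Cfsg.Agent.PLocal.ActionStable
import Cfsg.Agent.Lib.Cores
import Cfsg.Agent.OddOrderLocal.DecompBasic
import Cfsg.Prelude.Def_Local
import Cfsg.Agent.Lib.PSolvable
import Cfsg.Agent.Lib.PGroupCoprimeAction
import Cfsg.Agent.PLocal.HallHigmanPrime
import Cfsg.Agent.PLocal.SectionFrattini
import Cfsg.Statements.S3789
import Cfsg.Agent.H451.PLength
import Cfsg.Agent.S0625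
set_option linter.all false

-- part: H451/QuadAB
section
/-!
# Quadratic action in characteristic three and commuting conjugates

A ring-theoretic lemma: in a ring of characteristic three let `a` satisfy `a² + a + 1 = 0` (that is
`(a - 1)² = 0`) and let `α, β, γ` be commuting elements of two-power order permuted cyclically by
conjugation with `a`. Then `α = β`.
-/

set_option autoImplicit false

namespace Cfsg.Agent.H451.QuadAB

variable {R : Type*} [Ring R]

theorem cube_add (h3 : (3 : R) = 0) {x y : R} (h : Commute x y) : (x + y) ^ 3 = x ^ 3 + y ^ 3 := by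
  rw [h.add_pow]
  simp only [Finset.sum_range_succ, Finset.range_zero, Finset.sum_empty]
  have h4 : ((Nat.choose 3 1 : ℕ) : R) = 0 := by
    have : (Nat.choose 3 1 : ℕ) = 3 := by decide
    rw [this]; exact_mod_cast h3
  have h5 : ((Nat.choose 3 2 : ℕ) : R) = 0 := by
    have : (Nat.choose 3 2 : ℕ) = 3 := by decide
    rw [this]; exact_mod_cast h3
  rw [h4, h5]
  simp only [mul_zero, add_zero, pow_zero, Nat.sub_zero, one_mul, Nat.choose_zero_right,
    Nat.cast_one, mul_one, Nat.sub_self, Nat.choose_self, zero_add]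
  rw [add_comm]

/-- `(x + y + z)^(3^k)` for commuting elements in characteristic three -/
theorem pow_three_pow (h3 : (3 : R) = 0) {x y z : R} (hxy : Commute x y) (hxz : Commute x z)
    (hyz : Commute y z) (k : ℕ) :
    (x + y + z) ^ (3 ^ k) = x ^ (3 ^ k) + y ^ (3 ^ k) + z ^ (3 ^ k) := by
  induction k with
  | zero => simp
  | succ k ih =>
    rw [pow_succ, pow_mul, ih, cube_add h3, cube_add h3, ← pow_mul, ← pow_mul, ← pow_mul]
    · exact hxy.pow_pow _ _
    · exact ((hxz.pow_pow _ _).add_left (hyz.pow_pow _ _))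

theorem exists_three_pow (m : ℕ) : ∃ k : ℕ, 0 < k ∧ ∃ l, 3 ^ k = 2 ^ m * l + 1 := by
  have hcop : Nat.Coprime 3 (2 ^ m) := Nat.Coprime.pow_right m (by decide)
  refine ⟨(2 ^ m).totient, Nat.totient_pos.mpr (by positivity), ?_⟩
  have h := Nat.ModEq.pow_totient hcop
  have h1 : 1 ≤ 3 ^ (2 ^ m).totient := Nat.one_le_pow _ _ (by norm_num)
  obtain ⟨l, hl⟩ := (Nat.modEq_iff_dvd' h1).mp h.symm
  exact ⟨l, by omega⟩

theorem pow_eq_self {x : R} {m k l : ℕ} (hx : x ^ (2 ^ m) = 1) (h : 3 ^ k = 2 ^ m * l + 1) :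
    x ^ (3 ^ k) = x := by
  rw [h, pow_succ, pow_mul, hx, one_pow, one_mul]

/-- **The lemma.** -/
theorem eq_of_quadratic (h3 : (3 : R) = 0) {a α β γ : R} (hαβ : Commute α β) (hβγ : Commute β γ)
    (hαγ : Commute α γ) (h1 : a * α = β * a) (h2 : a * β = γ * a) (h4 : a * γ = α * a)
    (ha : a * a + a + 1 = 0) {m : ℕ} (hα : α ^ (2 ^ m) = 1) (hβ : β ^ (2 ^ m) = 1)
    (hγ : γ ^ (2 ^ m) = 1) : α = β := by
  have h30 : ∀ x : R, x + x + x = 0 := by
    intro x
    have : x + x + x = 3 * x := by noncomm_ring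
    rw [this, h3, zero_mul]
  have ha2 : a * a = -a - 1 := by
    have : a * a = (a * a + a + 1) - a - 1 := by noncomm_ring
    rw [this, ha]; noncomm_ring
  -- the basic relation `(β - γ) a = γ - α`, for any cyclic rotation
  have basic : ∀ {x y z : R}, a * x = y * a → a * y = z * a → (y - z) * a = z - x := by
    intro x y z hxy hyz
    have e1 : a * a * x = z * (a * a) := by
      rw [mul_assoc, hxy, ← mul_assoc, hyz, mul_assoc]
    rw [ha2] at e1
    have e2 : (-a - 1) * x = -(y * a) - x := by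
      have : (-a - 1) * x = -(a * x) - x := by noncomm_ring
      rw [this, hxy]
    have e3 : z * (-a - 1) = -(z * a) - z := by noncomm_ring
    rw [e2, e3] at e1
    have e4 : (y - z) * a = y * a - z * a := by noncomm_ring
    rw [e4]
    have e5 : y * a - z * a = -(-(y * a) - x) - x - z * a := by noncomm_ring
    rw [e5, e1]; noncomm_ring
  have r1 : (β - γ) * a = γ - α := basic h1 h2
  have r2 : (γ - α) * a = α - β := basic h2 h4
  have r3 : (α - β) * a = β - γ := basic h4 h1
  -- `(α + β + γ)² = 0`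
  have hcomm : (γ - α) * (β - γ) = (β - γ) * (γ - α) := by
    have c1 : Commute (γ - α) (β - γ) :=
      ((hβγ.symm.sub_left hαβ).sub_right ((Commute.refl γ).sub_left hαγ))
    exact c1.eq
  have hsq : (γ - α) * (γ - α) = (β - γ) * (α - β) := by
    calc (γ - α) * (γ - α) = (γ - α) * ((β - γ) * a) := by rw [r1]
      _ = (γ - α) * (β - γ) * a := by rw [mul_assoc]
      _ = (β - γ) * (γ - α) * a := by rw [hcomm]
      _ = (β - γ) * ((γ - α) * a) := by rw [mul_assoc]
      _ = (β - γ) * (α - β) := by rw [r2]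
  have hs2 : (α + β + γ) * (α + β + γ) = 0 := by
    have e1 : β * α = α * β := hαβ.eq.symm
    have e2 : γ * β = β * γ := hβγ.eq.symm
    have e3 : γ * α = α * γ := hαγ.eq.symm
    have e4 : (α + β + γ) * (α + β + γ) = ((γ - α) * (γ - α) - (β - γ) * (α - β)) +
        ((α * β + β * γ + α * γ) + (α * β + β * γ + α * γ) + (α * β + β * γ + α * γ)) := by
      simp only [mul_add, add_mul, mul_sub, sub_mul, e1, e2, e3]
      abel
    rw [e4, hsq, h30]
    simp
  obtain ⟨k, hk, l, hl⟩ := exists_three_pow m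
  have hs : α + β + γ = 0 := by
    have e1 := pow_three_pow h3 hαβ hαγ hβγ k
    rw [pow_eq_self hα hl, pow_eq_self hβ hl, pow_eq_self hγ hl] at e1
    rw [← e1]
    have h2k : 2 ≤ 3 ^ k := by
      calc 2 ≤ 3 ^ 1 := by norm_num
        _ ≤ 3 ^ k := Nat.pow_le_pow_right (by norm_num) hk
    obtain ⟨j, hj⟩ := Nat.exists_eq_add_of_le h2k
    rw [hj, pow_add, pow_two, hs2, zero_mul]
  -- `δ = α - β` satisfies `δ a = δ` and `a δ = δ`
  set δ := α - β with hδ
  have hγ' : γ = -α - β := by
    have : γ = (α + β + γ) - α - β := by abel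
    rw [this, hs]; abel
  have d1 : β - γ = δ := by
    rw [hγ', hδ]
    have e2 : β - (-α - β) = (α - β) + (β + β + β) := by abel
    rw [e2, h30, add_zero]
  have d2 : γ - α = δ := by
    rw [hγ', hδ]
    have e2 : -α - β - α = (α - β) - (α + α + α) := by abel
    rw [e2, h30, sub_zero]
  have hδa : δ * a = δ := by rw [r3, d1]
  have haδ : a * δ = δ := by
    have e1 : a * δ = (β - γ) * a := by
      rw [hδ, mul_sub, h1, h2, sub_mul]
    rw [e1, r1, d2]
  have hδα : δ * α = α * δ := by
    have c1 : Commute δ α := (Commute.refl α).sub_left hαβ.symm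
    exact c1.eq
  have haα : a * α = α * a - δ := by
    rw [h1]
    have : β = α - δ := by rw [hδ]; abel
    rw [this, sub_mul, hδa]
  have hδ2 : δ * δ = 0 := by
    have e1 : δ * (a * α) = δ * α := by rw [← mul_assoc, hδa]
    have e2 : δ * (a * α) = δ * α - δ * δ := by
      rw [haα, mul_sub, ← mul_assoc, hδα, mul_assoc, hδa]
    rw [e1] at e2
    have e3 : δ * δ = δ * α - (δ * α - δ * δ) := by abel
    rw [e3, ← e2, sub_self]
  -- hence `α ^ 3 = β ^ 3`
  have hcube : ∀ j, α ^ (3 ^ (j + 1)) = β ^ (3 ^ (j + 1)) := by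
    intro j
    have e1 : α = δ + β := by rw [hδ]; abel
    have c1 : Commute δ β := (hαβ).sub_left (Commute.refl β)
    have e2 : (δ + β) ^ (3 ^ (j + 1)) = δ ^ (3 ^ (j + 1)) + β ^ (3 ^ (j + 1)) := by
      have := pow_three_pow h3 c1 (Commute.zero_right δ) (Commute.zero_right β) (j + 1)
      rw [add_zero] at this
      rw [this, zero_pow (by positivity), add_zero]
    rw [e1, e2]
    have h2k : 2 ≤ 3 ^ (j + 1) := by
      calc 2 ≤ 3 ^ 1 := by norm_num
        _ ≤ 3 ^ (j + 1) := Nat.pow_le_pow_right (by norm_num) (by omega)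
    obtain ⟨i, hi⟩ := Nat.exists_eq_add_of_le h2k
    rw [hi, pow_add, pow_two, hδ2, zero_mul, zero_add]
  obtain ⟨j, rfl⟩ := Nat.exists_eq_succ_of_ne_zero hk.ne'
  have := hcube j
  rw [Nat.succ_eq_add_one] at hl
  rwa [pow_eq_self hα hl, pow_eq_self hβ hl] at this

end Cfsg.Agent.H451.QuadAB
end

-- part: H451/QuadForm
section
/-!
# A `3`-group acting on an elementary abelian `2`-group with an anisotropic condition

Let a finite `3`-group `X` act on a finite elementary abelian `2`-group `Q`, let `A = [X, X]` be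
commutative, of exponent dividing three on `Q`, and let `f : Q × Q → ZMod 2` be an alternating
`A`-invariant form with `f (q, a q) = 1` whenever `a ∈ A` and `a q ≠ q`. Then `A` acts trivially.
-/

set_option autoImplicit false

namespace Cfsg.Agent.H451.QuadForm

/-- a `3`-group acting on at most four points: commutators act trivially -/
theorem commutator_smul {X Ω : Type*} [Group X] [Finite X] [Finite Ω] [MulAction X Ω]
    (hX : IsPGroup 3 X) (hΩ : Nat.card Ω ≤ 4) (g : X) (hg : g ∈ commutator X) (ω : Ω) :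
    g • ω = ω := by
  classical
  let ψ : X →* Equiv.Perm Ω := MulAction.toPermHom X Ω
  have hr : IsPGroup 3 ψ.range := hX.of_surjective ψ.rangeRestrict ψ.rangeRestrict_surjective
  obtain ⟨n, hn⟩ := IsPGroup.iff_card.mp hr
  have h1 : Nat.card ψ.range ∣ Nat.card (Equiv.Perm Ω) := Subgroup.card_subgroup_dvd_card _
  have h2 : Nat.card (Equiv.Perm Ω) ∣ 24 := by
    rw [Nat.card_perm]
    exact Nat.factorial_dvd_factorial hΩ
  have h3 : 3 ^ n ∣ 24 := by rw [← hn]; exact h1.trans h2
  have h4 : n ≤ 1 := by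
    by_contra hcon
    have h5 : 3 ^ 2 ∣ 24 := (Nat.pow_dvd_pow 3 (by omega : 2 ≤ n)).trans h3
    norm_num at h5
  have h5 : IsCyclic ψ.range := by
    have : Nat.card ψ.range = 1 ∨ Nat.card ψ.range = 3 := by
      interval_cases n
      · left; simpa using hn
      · right; simpa using hn
    rcases this with h | h
    · have : Subsingleton ψ.range := (Nat.card_eq_one_iff_unique.mp h).1
      exact isCyclic_of_subsingleton
    · haveI : Fact (Nat.Prime 3) := ⟨by norm_num⟩
      exact isCyclic_of_prime_card h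
  have h6 : ∀ a b : ψ.range, a * b = b * a := by
    intro a b
    letI := h5.commGroup
    exact mul_comm a b
  have h7 : commutator X ≤ ψ.ker := by
    rw [commutator_def, Subgroup.commutator_le]
    intro x _ y _
    rw [MonoidHom.mem_ker, map_commutatorElement, commutatorElement_eq_one_iff_mul_comm]
    have := congrArg Subtype.val (h6 ⟨ψ x, x, rfl⟩ ⟨ψ y, y, rfl⟩)
    exact this
  have h8 : ψ g = 1 := h7 hg
  have := congrArg (fun e : Equiv.Perm Ω => e ω) h8
  exact this

section

variable {Q : Type*} [AddCommGroup Q] {X : Type*} [Group X] [DistribMulAction X Q]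

/-- the fixed points of `a` -/
def fix (Q : Type*) [AddCommGroup Q] {X : Type*} [Group X] [DistribMulAction X Q] (a : X) :
    AddSubgroup Q where
  carrier := {q | a • q = q}
  zero_mem' := smul_zero a
  add_mem' := by
    intro x y hx hy
    show a • (x + y) = x + y
    rw [smul_add, show a • x = x from hx, show a • y = y from hy]
  neg_mem' := by
    intro x hx
    show a • (-x) = -x
    rw [smul_neg, show a • x = x from hx]

theorem mem_fix {a : X} {q : Q} : q ∈ fix Q a ↔ a • q = q := Iff.rfl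

theorem eq_zero_of_three (h2 : ∀ q : Q, q + q = 0) {y : Q} (h : y + y + y = 0) : y = 0 := by
  rw [h2, zero_add] at h; exact h

/-- `a y = y` and `y + a y + a² y = 0` give `y = 0` -/
theorem eq_zero_of_orbit (h2 : ∀ q : Q, q + q = 0) {a : X} {y : Q} (hy : a • y = y)
    (h : y + a • y + a • a • y = 0) : y = 0 := by
  rw [hy, hy] at h
  exact eq_zero_of_three h2 h

variable (f : Q → Q → ZMod 2)

/-- the index of the fixed points is at most four -/
theorem index_fix_le [Finite Q] (h2 : ∀ q : Q, q + q = 0)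
    (hfl : ∀ x y z, f (x + y) z = f x z + f y z) (hfr : ∀ x y z, f x (y + z) = f x y + f x z)
    {a : X} (hf1 : ∀ x, a • x ≠ x → f x (a • x) = 1) : (fix Q a).index ≤ 4 := by
  by_cases htop : fix Q a = ⊤
  · rw [htop, AddSubgroup.index_top]; norm_num
  obtain ⟨d, hd⟩ : ∃ d, d ∉ fix Q a := by
    by_contra hcon
    push Not at hcon
    exact htop (eq_top_iff.mpr fun x _ => hcon x)
  let φ : Q →+ ZMod 2 :=
    { toFun := fun e => f d (a • e) + f e (a • d)
      map_zero' := by
        have e1 : f d 0 = 0 := by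
          have := hfr d 0 0
          rw [add_zero] at this
          exact left_eq_add.mp this
        have e2 : f 0 (a • d) = 0 := by
          have := hfl 0 0 (a • d)
          rw [add_zero] at this
          exact left_eq_add.mp this
        rw [smul_zero, e1, e2, add_zero]
      map_add' := by
        intro x y
        rw [smul_add, hfr, hfl]
        ring }
  have hφ : ∀ e, φ e = f d (a • e) + f e (a • d) := fun e => rfl
  have hker : φ.ker ≤ fix Q a ⊔ AddSubgroup.zmultiples d := by
    intro e he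
    rw [AddMonoidHom.mem_ker, hφ] at he
    by_cases h3 : e ∈ fix Q a
    · exact AddSubgroup.mem_sup_left h3
    by_cases h4 : d + e ∈ fix Q a
    · have : e = (d + e) + (-d) := by abel
      rw [this]
      exact AddSubgroup.add_mem_sup h4 (neg_mem (AddSubgroup.mem_zmultiples d))
    · exfalso
      have e1 := hf1 (d + e) h4
      rw [smul_add, hfr, hfl, hfl, hf1 d hd, hf1 e h3] at e1
      have e2 : (1 : ZMod 2) + f e (a • d) + (f d (a • e) + 1) =
          (f d (a • e) + f e (a • d)) + (1 + 1) := by ring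
      rw [e2, he] at e1
      revert e1
      decide
  have i1 : (fix Q a ⊔ AddSubgroup.zmultiples d).index ≤ 2 := by
    have e1 : (fix Q a ⊔ AddSubgroup.zmultiples d).index ∣ φ.ker.index :=
      AddSubgroup.index_dvd_of_le hker
    have e2 : φ.ker.index ≤ 2 := by
      rw [AddSubgroup.index_ker]
      have : Nat.card φ.range ≤ Nat.card (ZMod 2) :=
        Nat.card_le_card_of_injective _ Subtype.val_injective
      rwa [Nat.card_zmod] at this
    have e3 : 0 < φ.ker.index := Nat.pos_of_ne_zero AddSubgroup.index_ne_zero_of_finite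
    exact (Nat.le_of_dvd e3 e1).trans e2
  have i2 : (fix Q a).relIndex (fix Q a ⊔ AddSubgroup.zmultiples d) ≤ 2 := by
    have e1 : (fix Q a).relIndex (fix Q a ⊔ AddSubgroup.zmultiples d) ∣
        Nat.card (AddSubgroup.zmultiples d) := by
      rw [sup_comm, AddSubgroup.relIndex_sup_right]
      exact AddSubgroup.relIndex_dvd_card _ _
    have e2 : Nat.card (AddSubgroup.zmultiples d) ∣ 2 := by
      rw [Nat.card_zmultiples]
      apply addOrderOf_dvd_of_nsmul_eq_zero
      rw [two_nsmul, h2]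
    exact (Nat.le_of_dvd (by norm_num) (e1.trans e2))
  calc (fix Q a).index = (fix Q a).relIndex (fix Q a ⊔ AddSubgroup.zmultiples d) *
        (fix Q a ⊔ AddSubgroup.zmultiples d).index :=
          (AddSubgroup.relIndex_mul_index le_sup_left).symm
    _ ≤ 2 * 2 := Nat.mul_le_mul i2 i1
    _ = 4 := by norm_num

/-- commuting elements have comparable fixed points only if these are equal -/
theorem fix_le_or (h2 : ∀ q : Q, q + q = 0)
    (hfl : ∀ x y z, f (x + y) z = f x z + f y z) (hfr : ∀ x y z, f x (y + z) = f x y + f x z)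
    {a b : X} (hab : a * b = b * a) (ha3 : ∀ q : Q, a • a • a • q = q)
    (hf1 : ∀ x, (a * b) • x ≠ x → f x ((a * b) • x) = 1) :
    fix Q a ≤ fix Q b ∨ fix Q b ≤ fix Q a := by
  by_contra hcon
  push Not at hcon
  obtain ⟨⟨e, hea, heb⟩, ⟨d, hdb, hda⟩⟩ :=
    And.intro (SetLike.not_le_iff_exists.mp hcon.1) (SetLike.not_le_iff_exists.mp hcon.2)
  rw [mem_fix] at hea heb hdb hda
  have hba : ∀ q : Q, b • a • q = a • b • q := fun q => by
    rw [← mul_smul, ← hab, mul_smul]
  -- facts for `u` fixed by `b` and moved by `a`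
  have key : ∀ u : Q, b • u = u → a • u ≠ u →
      f u ((a * b) • e) + f e ((a * b) • u) = 1 := by
    intro u hbu hau
    have s1 : (a * b) • u = a • u := by rw [mul_smul, hbu]
    have s2 : (a * b) • e = b • e := by rw [hab, mul_smul, hea]
    have n1 : (a * b) • u ≠ u := by rw [s1]; exact hau
    have n2 : (a * b) • e ≠ e := by rw [s2]; exact heb
    have n3 : (a * b) • (u + e) ≠ u + e := by
      rw [smul_add, s1, s2]
      intro h
      apply hau
      -- `y = a u - u = e - b e`
      have h1 : a • u - u = e - b • e := by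
        rw [sub_eq_sub_iff_add_eq_add, h, add_comm]
      have h3 : a • (a • u - u) = a • u - u := by
        rw [h1, smul_sub, hea, ← hba, hea]
      have h4 : (a • u - u) + a • (a • u - u) + a • a • (a • u - u) = 0 := by
        simp only [smul_sub, ha3]
        abel
      exact sub_eq_zero.mp (eq_zero_of_orbit h2 h3 h4)
    have e1 := hf1 _ n3
    rw [smul_add, hfr, hfl, hfl, hf1 u n1, hf1 e n2] at e1
    have e2 : (1 : ZMod 2) + f e ((a * b) • u) + (f u ((a * b) • e) + 1) =
        (f u ((a * b) • e) + f e ((a * b) • u)) + (1 + 1) := by ring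
    rw [e2] at e1
    have e3 : (1 : ZMod 2) + 1 = 0 := by decide
    rw [e3, add_zero] at e1
    exact e1
  have k1 := key d hdb hda
  have k2 := key (a • d) (by rw [hba, hdb]) (by
    intro h
    apply hda
    have h1 : a • (a • d) = a • d := h
    calc a • d = a • a • d := h1.symm
      _ = a • a • a • d := by rw [h1, h1]
      _ = d := ha3 d)
  have k3 := key (d + a • d) (by rw [smul_add, hba, hdb]) (by
    intro h
    apply hda
    rw [smul_add] at h
    have h1 : a • a • d = d := by
      have : a • d + a • a • d = a • d + d := by rw [h, add_comm]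
      exact add_left_cancel this
    have h3 := ha3 d
    rw [h1] at h3
    exact h3)
  rw [smul_add, hfr, hfl] at k3
  have e1 : f d ((a * b) • e) + f (a • d) ((a * b) • e) +
      (f e ((a * b) • d) + f e ((a * b) • a • d)) =
      (f d ((a * b) • e) + f e ((a * b) • d)) +
      (f (a • d) ((a * b) • e) + f e ((a * b) • a • d)) := by ring
  rw [e1, k1, k2] at k3
  revert k3
  decide

/-- **Main lemma.** -/
theorem smul_eq_of_form [Finite Q] [Finite X] (h2 : ∀ q : Q, q + q = 0) (hX : IsPGroup 3 X)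
    (hcomm : ∀ a ∈ commutator X, ∀ b ∈ commutator X, a * b = b * a)
    (ha3 : ∀ a ∈ commutator X, ∀ q : Q, a • a • a • q = q)
    (hfl : ∀ x y z, f (x + y) z = f x z + f y z) (hfr : ∀ x y z, f x (y + z) = f x y + f x z)
    (hf1 : ∀ a ∈ commutator X, ∀ x, a • x ≠ x → f x (a • x) = 1) :
    ∀ a ∈ commutator X, ∀ q : Q, a • q = q := by
  intro a ha
  by_contra hcon
  push Not at hcon
  -- `fix a` is `X`-invariant
  have hinv : ∀ (x : X) (q : Q), q ∈ fix Q a → x • q ∈ fix Q a := by
    intro x q hq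
    have hb : x * a * x⁻¹ ∈ commutator X := by
      have : (commutator X).Normal := inferInstance
      exact this.conj_mem a ha x
    have h3 : ∀ r : Q, r ∈ fix Q (x * a * x⁻¹) ↔ x⁻¹ • r ∈ fix Q a := by
      intro r
      rw [mem_fix, mem_fix, mul_smul, mul_smul]
      constructor
      · intro h
        have := congrArg (fun t => x⁻¹ • t) h
        simpa using this
      · intro h
        rw [h]; simp
    have hcard : Nat.card (fix Q (x * a * x⁻¹)) = Nat.card (fix Q a) := by
      refine Nat.card_congr ⟨fun r => ⟨x⁻¹ • r.1, (h3 _).mp r.2⟩,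
        fun r => ⟨x • r.1, (h3 _).mpr (by simp)⟩, ?_, ?_⟩
      · intro r; simp
      · intro r; simp
    have hle := fix_le_or f h2 hfl hfr (hcomm a ha _ hb) (ha3 a ha)
      (hf1 _ (mul_mem ha hb))
    have heq : fix Q a = fix Q (x * a * x⁻¹) := by
      rcases hle with h | h
      · exact AddSubgroup.eq_of_le_of_card_ge h (le_of_eq hcard)
      · exact (AddSubgroup.eq_of_le_of_card_ge h (le_of_eq hcard.symm)).symm
    rw [heq, h3]
    simpa using hq
  -- the action on the quotient
  let F := fix Q a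
  have hsmul : ∀ (x : X), F ≤ F.comap (DistribMulAction.toAddMonoidHom Q x) :=
    fun x q hq => hinv x q hq
  letI act : MulAction X (Q ⧸ F) :=
    { smul := fun x => QuotientAddGroup.map F F (DistribMulAction.toAddMonoidHom Q x) (hsmul x)
      one_smul := by
        intro q
        induction q using QuotientAddGroup.induction_on with
        | H q =>
          show QuotientAddGroup.mk ((1 : X) • q) = QuotientAddGroup.mk q
          rw [one_smul]
      mul_smul := by
        intro x y q
        induction q using QuotientAddGroup.induction_on with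
        | H q =>
          show QuotientAddGroup.mk ((x * y) • q) = QuotientAddGroup.mk (x • y • q)
          rw [mul_smul] }
  have hcard : Nat.card (Q ⧸ F) ≤ 4 :=
    index_fix_le f h2 hfl hfr (hf1 a ha)
  obtain ⟨q, hq⟩ := hcon
  apply hq
  have h3 : a • (QuotientAddGroup.mk q : Q ⧸ F) = QuotientAddGroup.mk q :=
    commutator_smul hX hcard a ha _
  have h4 : (QuotientAddGroup.mk (a • q) : Q ⧸ F) = QuotientAddGroup.mk q := h3
  rw [QuotientAddGroup.eq] at h4
  have h5 : a • (-(a • q) + q) = -(a • q) + q := h4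
  have h6 : (-(a • q) + q) + a • (-(a • q) + q) + a • a • (-(a • q) + q) = 0 := by
    simp only [smul_add, smul_neg, ha3 a ha]
    abel
  have h7 := eq_zero_of_orbit h2 h5 h6
  have h8 : q = a • q := by
    have : a • q + (-(a • q) + q) = q := by abel
    rw [h7, add_zero] at this
    exact this.symm
  exact h8.symm

end

end Cfsg.Agent.H451.QuadForm
end

-- part: H451/QuadThree
section
/-!
# A `3`-group `X` with `[X, X]` abelian and quadratic, in characteristic three

Let a finite group `Γ` act faithfully on an elementary abelian `3`-group `W` (written additively), let `C` be a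
`2`-subgroup normalized by a `3`-subgroup `X`, and let `A = [X, X]` be abelian, with
`a² + a + 1 = 0` on `W` for `a ∈ A` and `(a - 1)(x² + x + 1) = 0` on `W` for `a ∈ A`, `x ∈ X`.
Then `A` centralizes `C`.
-/

set_option autoImplicit false
set_option linter.style.haveILetI false

namespace Cfsg.Agent.H451.QuadThree

open Subgroup

universe u v

/-! ### Generalities -/

section general

variable {Γ : Type u} [Group Γ]

/-- the action on an abelian section, packaged -/
theorem exists_quot (C N X : Subgroup Γ) (hN : ∀ c ∈ C, ∀ n ∈ N, c * n * c⁻¹ ∈ N)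
    (hcomm : ∀ c ∈ C, ∀ d ∈ C, c * d * c⁻¹ * d⁻¹ ∈ N) (hXC : ∀ x ∈ X, ∀ c ∈ C, x * c * x⁻¹ ∈ C)
    (hXN : ∀ x ∈ X, ∀ n ∈ N, x * n * x⁻¹ ∈ N) :
    ∃ (Q : Type u) (_ : AddCommGroup Q) (_ : DistribMulAction X Q) (π : C → Q),
      Function.Surjective π ∧ (∀ c d, π (c * d) = π c + π d) ∧
      (∀ c d : C, π c = π d ↔ (c : Γ)⁻¹ * d ∈ N) ∧
      ∀ (x : X) (c : C) (h : (x : Γ) * c * (x : Γ)⁻¹ ∈ C), x • π c = π ⟨x * c * (x : Γ)⁻¹, h⟩ := by
  let M : Subgroup C := N.subgroupOf C
  haveI hMn : M.Normal := by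
    refine ⟨fun n hn c => ?_⟩
    rw [mem_subgroupOf] at hn ⊢
    exact hN c c.2 n hn
  letI gC : CommGroup (C ⧸ M) :=
    { (inferInstance : Group (C ⧸ M)) with
      mul_comm := by
        intro p q
        induction p using QuotientGroup.induction_on with
        | H c =>
          induction q using QuotientGroup.induction_on with
          | H d =>
            rw [← QuotientGroup.mk_mul, ← QuotientGroup.mk_mul, QuotientGroup.eq, mem_subgroupOf]
            have h := hcomm (d : Γ)⁻¹ (inv_mem d.2) (c : Γ)⁻¹ (inv_mem c.2)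
            have e : (((c * d)⁻¹ * (d * c) : C) : Γ) =
                (d : Γ)⁻¹ * (c : Γ)⁻¹ * ((d : Γ)⁻¹)⁻¹ * ((c : Γ)⁻¹)⁻¹ := by
              push_cast
              group
            rw [e]
            exact h }
  -- conjugation on `C`
  let cj : X → (C →* C) := fun x =>
    { toFun := fun c => ⟨x * c * (x : Γ)⁻¹, hXC x x.2 c c.2⟩
      map_one' := by apply Subtype.ext; simp
      map_mul' := by
        intro c d
        apply Subtype.ext
        show (x : Γ) * ((c : Γ) * d) * (x : Γ)⁻¹ =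
          (x * c * (x : Γ)⁻¹) * (x * d * (x : Γ)⁻¹)
        group }
  have hcj : ∀ x, M ≤ M.comap (cj x) := by
    intro x n hn
    rw [mem_comap, mem_subgroupOf]
    exact hXN x x.2 n hn
  letI act : DistribMulAction X (Additive (C ⧸ M)) :=
    { smul := fun x q => Additive.ofMul (QuotientGroup.map M M (cj x) (hcj x) q.toMul)
      one_smul := by
        intro q
        change Additive.ofMul (QuotientGroup.map M M (cj 1) (hcj 1) q.toMul) = q
        obtain ⟨c, hc⟩ := QuotientGroup.mk_surjective q.toMul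
        rw [← hc]
        show Additive.ofMul (QuotientGroup.mk (cj 1 c) : C ⧸ M) = q
        have : cj 1 c = c := by
          apply Subtype.ext
          show ((1 : X) : Γ) * c * ((1 : X) : Γ)⁻¹ = c
          simp
        rw [this, hc]; rfl
      mul_smul := by
        intro x y q
        change Additive.ofMul (QuotientGroup.map M M (cj (x * y)) (hcj (x * y)) q.toMul) =
          Additive.ofMul (QuotientGroup.map M M (cj x) (hcj x)
            (QuotientGroup.map M M (cj y) (hcj y) q.toMul))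
        obtain ⟨c, hc⟩ := QuotientGroup.mk_surjective q.toMul
        rw [← hc]
        show Additive.ofMul (QuotientGroup.mk (cj (x * y) c) : C ⧸ M) =
          Additive.ofMul (QuotientGroup.mk (cj x (cj y c)) : C ⧸ M)
        have : cj (x * y) c = cj x (cj y c) := by
          apply Subtype.ext
          show ((x * y : X) : Γ) * c * ((x * y : X) : Γ)⁻¹ =
            (x : Γ) * ((y : Γ) * c * (y : Γ)⁻¹) * (x : Γ)⁻¹
          push_cast
          group
        rw [this]
      smul_zero := by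
        intro x
        change Additive.ofMul (QuotientGroup.map M M (cj x) (hcj x) 1) = 0
        rw [map_one]; rfl
      smul_add := by
        intro x p q
        change Additive.ofMul (QuotientGroup.map M M (cj x) (hcj x) (p.toMul * q.toMul)) =
          Additive.ofMul (QuotientGroup.map M M (cj x) (hcj x) p.toMul) +
          Additive.ofMul (QuotientGroup.map M M (cj x) (hcj x) q.toMul)
        rw [map_mul]; rfl }
  refine ⟨Additive (C ⧸ M), inferInstance, act,
    fun c => Additive.ofMul (QuotientGroup.mk c : C ⧸ M), ?_, ?_, ?_, ?_⟩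
  · intro q
    obtain ⟨c, hc⟩ := QuotientGroup.mk_surjective q.toMul
    refine ⟨c, ?_⟩
    show Additive.ofMul (QuotientGroup.mk c : C ⧸ M) = q
    rw [hc]; rfl
  · intro c d
    rfl
  · intro c d
    rw [Additive.ofMul.apply_eq_iff_eq, QuotientGroup.eq, mem_subgroupOf]
    rfl
  · intro x c h
    rfl

/-- `a³ = 1`, `a` commutes with `[a, c]`, which has two-power order: then `a` commutes with `c` -/
theorem commute_of_cube {a c : Γ} (ha : a * a * a = 1) (hd : a * (a * c * a⁻¹ * c⁻¹) = (a * c * a⁻¹ * c⁻¹) * a)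
    {k : ℕ} (hk : (a * c * a⁻¹ * c⁻¹) ^ (2 ^ k) = 1) : a * c = c * a := by
  set d := a * c * a⁻¹ * c⁻¹ with hdd
  have h1 : a * c * a⁻¹ = d * c := by rw [hdd]; group
  have h2 : a * (a * c * a⁻¹) * a⁻¹ = d * (d * c) := by
    rw [h1]
    calc a * (d * c) * a⁻¹ = (a * d) * c * a⁻¹ := by group
      _ = d * (a * c * a⁻¹) := by rw [hd]; group
      _ = d * (d * c) := by rw [h1]
  have h3 : a * (a * (a * c * a⁻¹) * a⁻¹) * a⁻¹ = d * (d * (d * c)) := by
    rw [h2]
    calc a * (d * (d * c)) * a⁻¹ = (a * d) * d * c * a⁻¹ := by group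
      _ = (d * a) * d * c * a⁻¹ := by rw [hd]
      _ = d * (a * d) * c * a⁻¹ := by group
      _ = d * (d * a) * c * a⁻¹ := by rw [hd]
      _ = d * d * (a * c * a⁻¹) := by group
      _ = d * d * (d * c) := by rw [h1]
      _ = d * (d * (d * c)) := by group
  have h4 : a * (a * (a * c * a⁻¹) * a⁻¹) * a⁻¹ = c := by
    have : a * (a * (a * c * a⁻¹) * a⁻¹) * a⁻¹ = (a * a * a) * c * (a * a * a)⁻¹ := by group
    rw [this, ha]; simp
  rw [h4] at h3
  have h5 : d ^ 3 = 1 := by
    have : d * (d * (d * c)) = d ^ 3 * c := by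
      rw [pow_succ, pow_two]; simp only [mul_assoc]
    rw [this] at h3
    exact (mul_eq_right.mp h3.symm)
  have h6 : orderOf d ∣ 3 := orderOf_dvd_of_pow_eq_one h5
  have h7 : orderOf d ∣ 2 ^ k := orderOf_dvd_of_pow_eq_one hk
  have h8 : orderOf d = 1 :=
    Nat.Coprime.eq_one_of_dvd (Nat.Coprime.coprime_dvd_left h6 (Nat.Coprime.pow_right k (by decide))) h7
  have h9 : d = 1 := orderOf_eq_one_iff.mp h8
  rw [h9, one_mul] at h1
  calc a * c = (a * c * a⁻¹) * a := by group
    _ = c * a := by rw [h1]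

theorem le_normalizer_of_conj [Finite Γ] {X D : Subgroup Γ} (h : ∀ x ∈ X, ∀ d ∈ D, x * d * x⁻¹ ∈ D) :
    X ≤ normalizer (D : Set Γ) := by
  intro x hx
  rw [mem_normalizer_iff]
  intro d
  constructor
  · exact fun hd => h x hx d hd
  · intro hd
    have := h x⁻¹ (inv_mem hx) _ hd
    have e : x⁻¹ * (x * d * x⁻¹) * x⁻¹⁻¹ = d := by group
    rwa [e] at this

theorem conj_of_le_normalizer {X D : Subgroup Γ} (h : X ≤ normalizer (D : Set Γ)) :
    ∀ x ∈ X, ∀ d ∈ D, x * d * x⁻¹ ∈ D :=
  fun x hx d hd => (mem_normalizer_iff.mp (h hx) d).mp hd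

end general

/-! ### Operators on an invariant subgroup -/

section operators

variable {Γ : Type u} {W : Type v} [Group Γ] [AddCommGroup W] [DistribMulAction Γ W]

/-- the operator of `g` on the invariant subgroup `M` -/
def restr (M : AddSubgroup W) (g : Γ) (h : ∀ m ∈ M, g • m ∈ M) : AddMonoid.End M where
  toFun m := ⟨g • (m : W), h m m.2⟩
  map_zero' := Subtype.ext (smul_zero g)
  map_add' x y := Subtype.ext (smul_add g (x : W) (y : W))

theorem restr_apply (M : AddSubgroup W) (g : Γ) (h : ∀ m ∈ M, g • m ∈ M) (m : M) :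
    ((restr M g h m : M) : W) = g • (m : W) := rfl

theorem restr_pow (M : AddSubgroup W) (g : Γ) (h : ∀ m ∈ M, g • m ∈ M) (n : ℕ) (m : M) :
    (((restr M g h) ^ n : AddMonoid.End M) m : W) = g ^ n • (m : W) := by
  induction n with
  | zero => simp
  | succ n ih =>
    rw [pow_succ', pow_succ', mul_smul, ← ih]
    rfl

/-- application of the ring lemma -/
theorem smul_eq_of_commute (h3 : ∀ w : W, w + w + w = 0) (M : AddSubgroup W) {a c : Γ}
    (ha3 : a * a * a = 1) (ha : ∀ m ∈ M, a • m ∈ M) (hc : ∀ m ∈ M, c • m ∈ M)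
    (hq : ∀ m ∈ M, a • a • m + a • m + m = 0)
    (hcomm : ∀ m ∈ M, c • (a * c * a⁻¹) • m = (a * c * a⁻¹) • c • m)
    {k : ℕ} (hk : c ^ (2 ^ k) = 1) : ∀ m ∈ M, c • m = (a * c * a⁻¹) • m := by
  have hainv : a⁻¹ = a * a := by
    have : a * a * a = 1 := ha3
    exact (eq_inv_of_mul_eq_one_left this).symm
  have hai : ∀ m ∈ M, a⁻¹ • m ∈ M := by
    intro m hm
    rw [hainv, mul_smul]
    exact ha _ (ha _ hm)
  set b := a * c * a⁻¹ with hb
  set g := a * b * a⁻¹ with hg
  have hbM : ∀ m ∈ M, b • m ∈ M := by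
    intro m hm
    rw [hb, mul_smul, mul_smul]
    exact ha _ (hc _ (hai _ hm))
  have hgM : ∀ m ∈ M, g • m ∈ M := by
    intro m hm
    rw [hg, mul_smul, mul_smul]
    exact ha _ (hbM _ (hai _ hm))
  have hag : a * g * a⁻¹ = c := by
    rw [hg, hb]
    have : a * (a * (a * c * a⁻¹) * a⁻¹) * a⁻¹ = (a * a * a) * c * (a * a * a)⁻¹ := by group
    rw [this, ha3]; simp
  -- conjugating a commutation
  have conj : ∀ {x y : Γ}, (∀ m ∈ M, x • y • m = y • x • m) →
      ∀ m ∈ M, (a * x * a⁻¹) • (a * y * a⁻¹) • m = (a * y * a⁻¹) • (a * x * a⁻¹) • m := by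
    intro x y hxy m hm
    have h1 := hxy (a⁻¹ • m) (hai m hm)
    have e1 : (a * x * a⁻¹) • (a * y * a⁻¹) • m = a • x • y • a⁻¹ • m := by
      rw [← mul_smul, ← mul_smul, ← mul_smul, ← mul_smul]
      congr 1
      group
    have e2 : (a * y * a⁻¹) • (a * x * a⁻¹) • m = a • y • x • a⁻¹ • m := by
      rw [← mul_smul, ← mul_smul, ← mul_smul, ← mul_smul]
      congr 1
      group
    rw [e1, e2, h1]
  have hbg : ∀ m ∈ M, b • g • m = g • b • m := conj hcomm
  have hgc : ∀ m ∈ M, g • c • m = c • g • m := by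
    have := conj hbg
    rw [hag] at this
    exact this
  have hbk : b ^ (2 ^ k) = 1 := by
    rw [hb, conj_pow, hk]; simp
  have hgk : g ^ (2 ^ k) = 1 := by
    rw [hg, conj_pow, hbk]; simp
  have hpow : ∀ (x : Γ) (hx : ∀ m ∈ M, x • m ∈ M), x ^ (2 ^ k) = 1 →
      (restr M x hx) ^ (2 ^ k) = 1 := by
    intro x hx h
    apply AddMonoidHom.ext
    intro m
    apply Subtype.ext
    exact (restr_pow M x hx (2 ^ k) m).trans (by rw [h, one_smul]; rfl)
  have key : restr M c hc = restr M b hbM := by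
    refine QuadAB.eq_of_quadratic (R := AddMonoid.End M) (a := restr M a ha)
      (γ := restr M g hgM) ?_ ?_ ?_ ?_ ?_ ?_ ?_ ?_ (hpow c hc hk) (hpow b hbM hbk)
      (hpow g hgM hgk)
    · apply AddMonoidHom.ext
      intro m
      apply Subtype.ext
      have e1 : (3 : AddMonoid.End M) = 1 + 1 + 1 := by norm_num
      rw [e1]
      exact h3 m
    · apply AddMonoidHom.ext
      intro m
      exact Subtype.ext (hcomm m m.2)
    · apply AddMonoidHom.ext
      intro m
      exact Subtype.ext (hbg m m.2)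
    · apply AddMonoidHom.ext
      intro m
      exact Subtype.ext (hgc m m.2).symm
    · apply AddMonoidHom.ext
      intro m
      apply Subtype.ext
      show a • c • (m : W) = b • a • (m : W)
      rw [← mul_smul, ← mul_smul, hb]
      congr 1
      group
    · apply AddMonoidHom.ext
      intro m
      apply Subtype.ext
      show a • b • (m : W) = g • a • (m : W)
      rw [← mul_smul, ← mul_smul, hg]
      congr 1
      group
    · apply AddMonoidHom.ext
      intro m
      apply Subtype.ext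
      show a • g • (m : W) = c • a • (m : W)
      rw [← mul_smul, ← mul_smul, ← hag]
      congr 1
      group
    · apply AddMonoidHom.ext
      intro m
      apply Subtype.ext
      exact hq m m.2
  intro m hm
  have := congrArg (fun e : AddMonoid.End M => ((e ⟨m, hm⟩ : M) : W)) key
  exact this

end operators

end Cfsg.Agent.H451.QuadThree
end

-- part: H451/QuadThreeMain
section
/-!
# A `3`-group `X` with `[X, X]` abelian and quadratic, in characteristic three: main theorem
-/

set_option autoImplicit false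
set_option linter.style.haveILetI false

namespace Cfsg.Agent.H451.QuadThree

open Subgroup
open scoped commutatorElement

universe u v

section

variable {Γ : Type u} {W : Type v} [Group Γ] [Finite Γ] [AddCommGroup W] [DistribMulAction Γ W]
  [FaithfulSMul Γ W]

theorem eq_zero_of_two (h3 : ∀ w : W, w + w + w = 0) {w : W} (h : w + w = 0) : w = 0 := by
  have := h3 w
  rwa [h, zero_add] at this

theorem eq_zero_of_eq_neg (h3 : ∀ w : W, w + w + w = 0) {w : W} (h : w = -w) : w = 0 := by
  apply eq_zero_of_two h3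
  nth_rewrite 1 [h]
  exact neg_add_cancel w

/-- **Main theorem.** -/
theorem commute_of_quadratic (h3 : ∀ w : W, w + w + w = 0) (X : Subgroup Γ) (hX : IsPGroup 3 X)
    (hcomm : ∀ a ∈ ⁅X, X⁆, ∀ b ∈ ⁅X, X⁆, a * b = b * a)
    (hq : ∀ a ∈ ⁅X, X⁆, ∀ w : W, a • a • w + a • w + w = 0)
    (hq2 : ∀ a ∈ ⁅X, X⁆, ∀ x ∈ X, ∀ w : W, a • (x • x • w + x • w + w) = x • x • w + x • w + w)
    (C : Subgroup Γ) (hC : IsPGroup 2 C) (hXC : ∀ x ∈ X, ∀ c ∈ C, x * c * x⁻¹ ∈ C) :
    ∀ c ∈ C, ∀ a ∈ ⁅X, X⁆, a * c = c * a := by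
  classical
  -- strong induction on the order of `C`
  induction hn : Nat.card C using Nat.strong_induction_on generalizing C with
  | _ n ih =>
  subst hn
  by_contra hcon
  set A : Subgroup Γ := ⁅X, X⁆ with hAdef
  have hAX : A ≤ X := commutator_le_self X
  have hAconj : ∀ x ∈ X, ∀ a ∈ A, x * a * x⁻¹ ∈ A := by
    intro x hx a ha
    have h1 : A.map (MulAut.conj x).toMonoidHom = A := by
      rw [hAdef, map_commutator]
      have h2 : X.map (MulAut.conj x).toMonoidHom = X := by
        apply le_antisymm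
        · rintro _ ⟨y, hy, rfl⟩
          exact mul_mem (mul_mem hx hy) (inv_mem hx)
        · intro y hy
          refine ⟨x⁻¹ * y * x, mul_mem (mul_mem (inv_mem hx) hy) hx, ?_⟩
          show x * (x⁻¹ * y * x) * x⁻¹ = y
          group
      rw [h2]
    rw [← h1]
    exact ⟨a, ha, rfl⟩
  -- cubes
  have ha3 : ∀ a ∈ A, a * a * a = 1 := by
    intro a ha
    apply FaithfulSMul.eq_of_smul_eq_smul (α := W)
    intro w
    have h1 : a • a • w = -(a • w) - w := by
      have := hq a ha w
      have h2 : a • a • w = (a • a • w + a • w + w) - a • w - w := by abel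
      rw [h2, this]; abel
    rw [mul_smul, mul_smul, h1, smul_sub, smul_neg, h1, one_smul]
    abel
  -- two-power orders in `C`
  have hC2 : ∀ c ∈ C, ∃ k : ℕ, c ^ (2 ^ k) = 1 := by
    intro c hc
    obtain ⟨k, hk⟩ := hC ⟨c, hc⟩
    exact ⟨k, congrArg Subtype.val hk⟩
  -- `X`-invariant proper subgroups are centralized by `A`
  have hmin : ∀ D : Subgroup Γ, D ≤ C → D ≠ C → (∀ x ∈ X, ∀ d ∈ D, x * d * x⁻¹ ∈ D) →
      ∀ d ∈ D, ∀ a ∈ A, a * d = d * a := by
    intro D hDC hne hD
    have hlt : Nat.card D < Nat.card C := by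
      refine lt_of_le_of_ne (Nat.card_le_card_of_injective _ (inclusion_injective hDC)) ?_
      intro h
      exact hne (Subgroup.eq_of_le_of_card_ge hDC h.ge)
    exact ih _ hlt D (hC.to_le hDC) hD rfl
  set M : Subgroup Γ := C ⊓ centralizer (A : Set Γ) with hMdef
  have hMC : M ≤ C := inf_le_left
  have hMA : ∀ m ∈ M, ∀ a ∈ A, a * m = m * a := by
    intro m hm a ha
    exact (mem_centralizer_iff.mp hm.2 a ha)
  have hMof : ∀ m ∈ C, (∀ a ∈ A, a * m = m * a) → m ∈ M := by
    intro m hm h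
    exact ⟨hm, mem_centralizer_iff.mpr h⟩
  have hleM : ∀ D : Subgroup Γ, D ≤ C → D ≠ C → (∀ x ∈ X, ∀ d ∈ D, x * d * x⁻¹ ∈ D) → D ≤ M :=
    fun D h1 h2 h3 d hd => hMof d (h1 hd) (hmin D h1 h2 h3 d hd)
  have hMne : M ≠ C := by
    intro h
    apply hcon
    intro c hc a ha
    rw [← h] at hc
    exact hMA c hc a ha
  have hMX : ∀ x ∈ X, ∀ m ∈ M, x * m * x⁻¹ ∈ M := by
    intro x hx m hm
    refine hMof _ (hXC x hx m (hMC hm)) ?_
    intro a ha
    have h1 := hMA m hm (x⁻¹ * a * x⁻¹⁻¹) (hAconj x⁻¹ (inv_mem hx) a ha)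
    calc a * (x * m * x⁻¹) = x * ((x⁻¹ * a * x⁻¹⁻¹) * m) * x⁻¹ := by group
      _ = x * (m * (x⁻¹ * a * x⁻¹⁻¹)) * x⁻¹ := by rw [h1]
      _ = x * m * x⁻¹ * a := by group
  -- the Frattini subgroup
  have hXn : X ≤ normalizer (C : Set Γ) := le_normalizer_of_conj hXC
  have hFM : (frattini C).map C.subtype ≤ M := by
    apply hleM
    · exact map_subtype_le _
    · intro h
      have h1 : frattini C = ⊤ := by
        apply map_injective C.subtype_injective
        rw [h, ← MonoidHom.range_eq_map, range_subtype]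
      have h2 : (⊥ : Subgroup C) = ⊤ := by
        apply frattini_nongenerating
        rw [h1]; simp
      apply hcon
      intro c hc a _
      have h3' : (⟨c, hc⟩ : C) ∈ (⊥ : Subgroup C) := by rw [h2]; exact mem_top _
      have h4 : c = 1 := congrArg Subtype.val (mem_bot.mp h3')
      rw [h4]; simp
    · exact conj_of_le_normalizer (hXn.trans
        (OddOrderLocal.FittingHall.normalizer_le_normalizer_map _ _ frattini_characteristic))
  have hsqM : ∀ c ∈ C, c * c ∈ M := by
    intro c hc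
    apply hFM
    refine ⟨⟨c, hc⟩ ^ 2, Lib.FrattiniPGroup.pow_mem_frattini hC _, ?_⟩
    simp [pow_two]
  have hcommM : ∀ c ∈ C, ∀ d ∈ C, c * d * c⁻¹ * d⁻¹ ∈ M := by
    intro c hc d hd
    apply hFM
    refine ⟨⁅(⟨c, hc⟩ : C), ⟨d, hd⟩⁆, Lib.FrattiniPGroup.commutator_mem_frattini hC _ _, ?_⟩
    simp [commutatorElement_def]
  -- `C = [C, A]`
  have hCA : ⁅C, A⁆ = C := by
    by_contra hne
    have hle : ⁅C, A⁆ ≤ C := by
      rw [commutator_le]
      intro c hc a ha
      have h1 := hXC a (hAX ha) c⁻¹ (inv_mem hc)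
      rw [commutatorElement_def]
      have h2 : c * a * c⁻¹ * a⁻¹ = c * (a * c⁻¹ * a⁻¹) := by group
      rw [h2]
      exact mul_mem hc h1
    have hD : ⁅C, A⁆ ≤ M := by
      apply hleM _ hle hne
      intro x hx d hd
      have h1 : (⁅C, A⁆).map (MulAut.conj x).toMonoidHom ≤ ⁅C, A⁆ := by
        rw [map_commutator]
        apply commutator_mono
        · rintro _ ⟨y, hy, rfl⟩
          exact hXC x hx y hy
        · rintro _ ⟨y, hy, rfl⟩
          exact hAconj x hx y hy
      exact h1 ⟨d, hd, rfl⟩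
    apply hcon
    intro c hc a ha
    have h1 : ⁅c, a⁆ ∈ M := hD (commutator_mem_commutator hc ha)
    have h2 : (a * c * a⁻¹ * c⁻¹) ∈ M := by
      have : a * c * a⁻¹ * c⁻¹ = ⁅c, a⁆⁻¹ := by rw [commutatorElement_def]; group
      rw [this]; exact inv_mem h1
    obtain ⟨k, hk⟩ := hC2 _ (hMC h2)
    exact commute_of_cube (ha3 a ha) (hMA _ h2 a ha) hk
  -- `M` is central in `C`
  have hMcen : ∀ m ∈ M, ∀ c ∈ C, c * m = m * c := by
    have h1 : ⁅⁅C, A⁆, M⁆ = ⊥ := by
      apply commutator_commutator_eq_bot_of_rotate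
      · have h2 : ⁅A, M⁆ = ⊥ := by
          rw [commutator_eq_bot_iff_le_centralizer]
          intro a ha
          rw [mem_centralizer_iff]
          intro m hm
          exact (hMA m hm a ha).symm
        rw [h2, commutator_bot_left]
      · have h2 : ⁅M, C⁆ ≤ M := by
          rw [commutator_le]
          intro m hm c hc
          rw [commutatorElement_def]
          exact hcommM m (hMC hm) c hc
        rw [commutator_eq_bot_iff_le_centralizer]
        intro m hm
        rw [mem_centralizer_iff]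
        intro a ha
        exact hMA m (h2 hm) a ha
    rw [hCA, commutator_eq_bot_iff_le_centralizer] at h1
    intro m hm c hc
    exact (mem_centralizer_iff.mp (h1 hc) m hm).symm
  -- the commutator subgroup `T` of `C`
  set T : Subgroup Γ := ⁅C, C⁆ with hTdef
  have hTC : T ≤ C := commutator_le_self C
  have hTM : T ≤ M := by
    rw [hTdef, commutator_le]
    intro c hc d hd
    rw [commutatorElement_def]
    exact hcommM c hc d hd
  let E : Subgroup Γ :=
    { carrier := {m | m ∈ M ∧ m * m = 1}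
      mul_mem' := by
        rintro x y ⟨hx, hx2⟩ ⟨hy, hy2⟩
        refine ⟨mul_mem hx hy, ?_⟩
        have h1 : y * x = x * y := hMcen x hx y (hMC hy)
        calc x * y * (x * y) = x * (y * x) * y := by group
          _ = x * (x * y) * y := by rw [h1]
          _ = (x * x) * (y * y) := by group
          _ = 1 := by rw [hx2, hy2, one_mul]
      one_mem' := ⟨one_mem _, one_mul 1⟩
      inv_mem' := by
        rintro x ⟨hx, hx2⟩
        refine ⟨inv_mem hx, ?_⟩
        rw [← mul_inv_rev, hx2, inv_one] }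
  have hTE : T ≤ E := by
    rw [hTdef, commutator_le]
    intro c hc d hd
    rw [commutatorElement_def]
    refine ⟨hcommM c hc d hd, ?_⟩
    set z := c * d * c⁻¹ * d⁻¹ with hz
    have hzM : z ∈ M := hcommM c hc d hd
    have h1 : c * d * c⁻¹ = z * d := by rw [hz]; group
    have h2 : (c * c) * d * (c * c)⁻¹ = z * z * d := by
      calc (c * c) * d * (c * c)⁻¹ = c * (c * d * c⁻¹) * c⁻¹ := by group
        _ = c * (z * d) * c⁻¹ := by rw [h1]
        _ = (c * z) * d * c⁻¹ := by group
        _ = (z * c) * d * c⁻¹ := by rw [hMcen z hzM c hc]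
        _ = z * (c * d * c⁻¹) := by group
        _ = z * (z * d) := by rw [h1]
        _ = z * z * d := by group
    have h3 : (c * c) * d * (c * c)⁻¹ = d := by
      rw [← hMcen (c * c) (hsqM c hc) d hd]; group
    rw [h3] at h2
    exact (mul_eq_right.mp h2.symm)
  have hT2 : ∀ t ∈ T, t * t = 1 := fun t ht => (hTE ht).2
  have hTX : ∀ x ∈ X, ∀ t ∈ T, x * t * x⁻¹ ∈ T := by
    intro x hx t ht
    have h1 : T.map (MulAut.conj x).toMonoidHom ≤ T := by
      rw [hTdef, map_commutator]
      apply commutator_mono <;>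
      · rintro _ ⟨y, hy, rfl⟩
        exact hXC x hx y hy
    exact h1 ⟨t, ht, rfl⟩
  -- `T` is not trivial
  have hTne : ∃ t ∈ T, t ≠ 1 := by
    by_contra hno
    push Not at hno
    apply hcon
    intro c hc a ha
    obtain ⟨k, hk⟩ := hC2 c hc
    have h1 := smul_eq_of_commute h3 (⊤ : AddSubgroup W) (ha3 a ha) (fun _ _ => AddSubgroup.mem_top _)
      (fun _ _ => AddSubgroup.mem_top _) (fun m _ => hq a ha m) (c := c) (by
        intro m _
        rw [← mul_smul, ← mul_smul]
        congr 1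
        have h2 := hno _ (commutator_mem_commutator hc (hXC a (hAX ha) c hc))
        rw [commutatorElement_eq_one_iff_mul_comm] at h2
        exact h2) hk
    have h2 : c = a * c * a⁻¹ := by
      apply FaithfulSMul.eq_of_smul_eq_smul (α := W)
      intro w
      exact h1 w (AddSubgroup.mem_top _)
    calc a * c = (a * c * a⁻¹) * a := by group
      _ = c * a := by rw [← h2]
  -- choice of `U`
  let P : Subgroup Γ → Prop := fun U => U ≤ T ∧ ∃ w : W, (∀ u ∈ U, u • w = w) ∧ ∃ t ∈ T, t • w ≠ w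
  have hPne : {U | P U}.Nonempty := by
    obtain ⟨t, ht, ht1⟩ := hTne
    refine ⟨⊥, bot_le, ?_⟩
    by_contra hno
    push Not at hno
    apply ht1
    apply FaithfulSMul.eq_of_smul_eq_smul (α := W)
    intro w
    rw [one_smul]
    exact hno w (fun u hu => by rw [mem_bot.mp hu, one_smul]) t ht
  obtain ⟨U, hU⟩ := (Set.toFinite {U | P U}).exists_maximal hPne
  obtain ⟨hUT, w0, hw0, t0, ht0, ht0w⟩ := hU.1
  have hTcomm : ∀ s ∈ T, ∀ t ∈ T, s * t = t * s := fun s hs t ht =>
    hMcen t (hTM ht) s (hTC hs)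
  -- the weight space
  let L : AddSubgroup W :=
    { carrier := {w | (∀ u ∈ U, u • w = w) ∧ ∀ t ∈ T, t ∉ U → t • w = -w}
      zero_mem' := ⟨fun u _ => smul_zero u, fun t _ _ => by rw [smul_zero, neg_zero]⟩
      add_mem' := by
        rintro x y ⟨h1, h2⟩ ⟨h3, h4⟩
        refine ⟨fun u hu => by rw [smul_add, h1 u hu, h3 u hu], fun t ht htU => ?_⟩
        rw [smul_add, h2 t ht htU, h4 t ht htU]; abel
      neg_mem' := by
        rintro x ⟨h1, h2⟩
        refine ⟨fun u hu => by rw [smul_neg, h1 u hu], fun t ht htU => ?_⟩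
        rw [smul_neg, h2 t ht htU] }
  have hL1 : ∀ w ∈ L, ∀ u ∈ U, u • w = w := fun w hw => hw.1
  have hL2 : ∀ w ∈ L, ∀ t ∈ T, t ∉ U → t • w = -w := fun w hw => hw.2
  obtain ⟨w1, hw1L, hw1ne⟩ : ∃ w1 ∈ L, w1 ≠ 0 := by
    refine ⟨w0 - t0 • w0, ⟨?_, ?_⟩, ?_⟩
    · intro u hu
      rw [smul_sub, hw0 u hu, ← mul_smul, hTcomm u (hUT hu) t0 ht0, mul_smul, hw0 u hu]
    · intro t ht htU
      set w' := w0 - t0 • w0 with hw'
      have ht0w' : t0 • w' = -w' := by
        rw [hw', smul_sub, ← mul_smul, hT2 t0 ht0, one_smul]; abel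
      have hUw' : ∀ u ∈ U, u • w' = w' := by
        intro u hu
        rw [hw', smul_sub, hw0 u hu, ← mul_smul, hTcomm u (hUT hu) t0 ht0, mul_smul, hw0 u hu]
      -- `w' + t w'` is fixed by `U` and `t`
      have h5 : ∀ s ∈ T, s • (w' + t • w') = w' + t • w' := by
        by_contra hno
        push Not at hno
        have h6 : P (U ⊔ zpowers t) := by
          refine ⟨sup_le hUT (by rw [zpowers_le]; exact ht), w' + t • w', ?_, hno⟩
          intro u hu
          have h7 : U ⊔ zpowers t ≤ MulAction.stabilizer Γ (w' + t • w') := by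
            refine sup_le ?_ ?_
            · intro u hu
              rw [MulAction.mem_stabilizer_iff, smul_add, hUw' u hu, ← mul_smul,
                hTcomm u (hUT hu) t ht, mul_smul, hUw' u hu]
            · rw [zpowers_le, MulAction.mem_stabilizer_iff, smul_add, ← mul_smul, hT2 t ht,
                one_smul, add_comm]
          exact h7 hu
        have h7 : U ⊔ zpowers t ≤ U := hU.2 h6 le_sup_left
        exact htU (h7 (mem_sup_right (mem_zpowers t)))
      have h6 := h5 t0 ht0
      rw [smul_add, ← mul_smul, hTcomm t0 ht0 t ht, mul_smul, ht0w', smul_neg] at h6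
      have h7 : w' + t • w' = 0 := by
        apply eq_zero_of_eq_neg h3
        rw [neg_add]
        exact h6.symm
      exact (neg_eq_of_add_eq_zero_right h7).symm
    · intro h
      exact ht0w (sub_eq_zero.mp h).symm
  -- an element of `T` outside `U`
  have hex : ∃ t ∈ T, t ∉ U := by
    by_contra hno
    push Not at hno
    exact ht0w (hw0 t0 (hno t0 ht0))
  -- products of elements of `T ∖ U`
  have hmulU : ∀ s ∈ T, ∀ t ∈ T, s ∉ U → t ∉ U → s * t ∈ U := by
    intro s hs t ht hsU htU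
    by_contra hno
    have h1 := hL2 w1 hw1L (s * t) (mul_mem hs ht) hno
    rw [mul_smul, hL2 w1 hw1L t ht htU, smul_neg, hL2 w1 hw1L s hs hsU, neg_neg] at h1
    exact hw1ne (eq_zero_of_eq_neg h3 h1)
  -- elements commuting with `T` preserve `L`
  have hLinv : ∀ g : Γ, (∀ t ∈ T, t * g = g * t) → ∀ w ∈ L, g • w ∈ L := by
    intro g hg w hw
    refine ⟨fun u hu => ?_, fun t ht htU => ?_⟩
    · rw [← mul_smul, hg u (hUT hu), mul_smul, hL1 w hw u hu]
    · rw [← mul_smul, hg t ht, mul_smul, hL2 w hw t ht htU, smul_neg]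
  have hLC : ∀ c ∈ C, ∀ w ∈ L, c • w ∈ L := fun c hc =>
    hLinv c (fun t ht => (hMcen t (hTM ht) c hc).symm)
  have hLA : ∀ a ∈ A, ∀ w ∈ L, a • w ∈ L := fun a ha =>
    hLinv a (fun t ht => (hMA t (hTM ht) a ha).symm)
  -- the subgroup of elements fixing `L` pointwise
  let K : Subgroup Γ :=
    { carrier := {g | ∀ w ∈ L, g • w = w}
      mul_mem' := by
        intro x y hx hy w hw
        rw [mul_smul, hy w hw, hx w hw]
      one_mem' := fun w _ => one_smul _ w
      inv_mem' := by
        intro x hx w hw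
        nth_rewrite 1 [← hx w hw]
        rw [inv_smul_smul] }
  have hK : ∀ g ∈ K, ∀ w ∈ L, g • w = w := fun g hg => hg
  have hTK : ¬ T ≤ K := by
    intro h
    obtain ⟨t, ht, htU⟩ := hex
    have h1 := hL2 w1 hw1L t ht htU
    rw [hK t (h ht) w1 hw1L] at h1
    exact hw1ne (eq_zero_of_eq_neg h3 h1)
  -- `X` normalizes `U`
  have hUX : ∀ x ∈ X, ∀ u ∈ U, x * u * x⁻¹ ∈ U := by
    by_contra hno
    push Not at hno
    obtain ⟨x, hx, u1, hu1, hnot1⟩ := hno
    obtain ⟨u2, hu2, hnot2⟩ : ∃ u2 ∈ U, (x * x) * u2 * (x * x)⁻¹ ∉ U := by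
      by_contra hno
      push Not at hno
      have h1 : ∀ n : ℕ, ∀ u ∈ U, (x * x) ^ n * u * ((x * x) ^ n)⁻¹ ∈ U := by
        intro n
        induction n with
        | zero => intro u hu; simpa using hu
        | succ n ihn =>
          intro u hu
          have h2 := hno _ (ihn u hu)
          have h3 : (x * x) ^ (n + 1) * u * ((x * x) ^ (n + 1))⁻¹ =
              (x * x) * ((x * x) ^ n * u * ((x * x) ^ n)⁻¹) * (x * x)⁻¹ := by
            rw [pow_succ', mul_inv_rev]; simp only [mul_assoc]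
          rw [h3]; exact h2
      obtain ⟨k, hk⟩ := hX ⟨x, hx⟩
      have hk' : x ^ (3 ^ k) = 1 := congrArg Subtype.val hk
      have hodd : Odd (3 ^ k) := Odd.pow (by decide)
      obtain ⟨i, hi⟩ := hodd
      have h2 : (x * x) ^ (i + 1) = x := by
        rw [← pow_two, ← pow_mul]
        have : 2 * (i + 1) = 3 ^ k + 1 := by omega
        rw [this, pow_succ, hk', one_mul]
      have h3 := h1 (i + 1) u1 hu1
      rw [h2] at h3
      exact hnot1 h3
    have hx2 : x * x ∈ X := mul_mem hx hx
    set t1 := x * u1 * x⁻¹ with ht1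
    set t2 := (x * x) * u2 * (x * x)⁻¹ with ht2
    have ht1T : t1 ∈ T := hTX x hx u1 (hUT hu1)
    have ht2T : t2 ∈ T := hTX (x * x) hx2 u2 (hUT hu2)
    -- `A` acts trivially on `L`
    have hAL : ∀ a ∈ A, ∀ v ∈ L, a • v = v := by
      intro a ha v hv
      have hsum : (a • v - v) + (a • x • v - x • v) + (a • x • x • v - x • x • v) = 0 := by
        have h1 := hq2 a ha x hx v
        rw [smul_add, smul_add] at h1
        have h2 : (a • v - v) + (a • x • v - x • v) + (a • x • x • v - x • x • v) =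
            (a • x • x • v + a • x • v + a • v) - (x • x • v + x • v + v) := by abel
        rw [h2, h1, sub_self]
      have hmove : ∀ t ∈ T, ∀ y : Γ, t • (a • y • v - y • v) =
          a • y • (y⁻¹ * t * y) • v - y • (y⁻¹ * t * y) • v := by
        intro t ht y
        have e1 : t • y • v = y • (y⁻¹ * t * y) • v := by
          rw [← mul_smul, ← mul_smul]; congr 1; group
        rw [smul_sub, e1, ← mul_smul t a, ← hMA t (hTM ht) a ha, mul_smul, e1]
      have hsign : ∀ t ∈ T, ∀ y ∈ X, t • (a • y • v - y • v) = (a • y • v - y • v) ∨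
          t • (a • y • v - y • v) = -(a • y • v - y • v) := by
        intro t ht y hy
        have ht' : y⁻¹ * t * y ∈ T := by
          have := hTX y⁻¹ (inv_mem hy) t ht
          rwa [inv_inv] at this
        rw [hmove t ht y]
        by_cases hU' : y⁻¹ * t * y ∈ U
        · left; rw [hL1 v hv _ hU']
        · right; rw [hL2 v hv _ ht' hU', smul_neg, smul_neg]; abel
      have hplus1 : t1 • (a • x • v - x • v) = a • x • v - x • v := by
        have e1 : x⁻¹ * t1 * x = u1 := by rw [ht1]; group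
        rw [hmove t1 ht1T x, e1, hL1 v hv u1 hu1]
      have hplus2 : t2 • (a • x • x • v - x • x • v) = a • x • x • v - x • x • v := by
        have e1 : (x * x)⁻¹ * t2 * (x * x) = u2 := by rw [ht2]; group
        have e2 := hmove t2 ht2T (x * x)
        rw [e1, hL1 v hv u2 hu2] at e2
        simpa only [mul_smul] using e2
      have hv0 : a • v - v ∈ L := sub_mem (hLA a ha v hv) hv
      have hm1 : t1 • (a • v - v) = -(a • v - v) := hL2 _ hv0 t1 ht1T hnot1
      have hm2 : t2 • (a • v - v) = -(a • v - v) := hL2 _ hv0 t2 ht2T hnot2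
      have hs2 := hsign t1 ht1T (x * x) hx2
      simp only [mul_smul] at hs2
      set p0 := a • v - v with hp0
      set p1 := a • x • v - x • v with hp1
      set p2 := a • x • x • v - x • x • v with hp2
      have hp : p0 = 0 := by
        have h1 : t1 • (p0 + p1 + p2) = 0 := by rw [hsum, smul_zero]
        rw [smul_add, smul_add, hm1, hplus1] at h1
        rcases hs2 with h2 | h2
        · rw [h2] at h1
          apply eq_zero_of_two h3
          have : p0 + p0 = (p0 + p1 + p2) - (-p0 + p1 + p2) := by abel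
          rw [this, hsum, h1, sub_zero]
        · rw [h2] at h1
          have h4 : p1 = 0 := by
            apply eq_zero_of_two h3
            have : p1 + p1 = (p0 + p1 + p2) + (-p0 + p1 + -p2) := by abel
            rw [this, hsum, h1, add_zero]
          rw [h4, add_zero] at hsum
          have h5 : p0 = -p2 := eq_neg_of_add_eq_zero_left hsum
          apply eq_zero_of_eq_neg h3
          have h6 := hm2
          rw [h5, smul_neg, hplus2, ← h5] at h6
          exact h6
      exact sub_eq_zero.mp hp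
    -- hence `C = [C, A]` acts trivially on `L`
    have hCK : C ≤ K := by
      rw [← hCA, commutator_le]
      intro c hc a ha w hw
      rw [commutatorElement_def, mul_smul, mul_smul, mul_smul, hAL a⁻¹ (inv_mem ha) w hw,
        hAL a ha _ (hLC c⁻¹ (inv_mem hc) w hw), smul_inv_smul]
    exact hTK (hTC.trans hCK)
  have hLX : ∀ x ∈ X, ∀ w ∈ L, x • w ∈ L := by
    intro x hx w hw
    have e1 : ∀ t : Γ, t • x • w = x • (x⁻¹ * t * x) • w := by
      intro t
      rw [← mul_smul, ← mul_smul]; congr 1; group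
    refine ⟨fun u hu => ?_, fun t ht htU => ?_⟩
    · have := hUX x⁻¹ (inv_mem hx) u hu
      rw [inv_inv] at this
      rw [e1, hL1 w hw _ this]
    · have h1 := hTX x⁻¹ (inv_mem hx) t ht
      rw [inv_inv] at h1
      have h2 : x⁻¹ * t * x ∉ U := by
        intro h
        have h4 := hUX x hx _ h
        have h5 : x * (x⁻¹ * t * x) * x⁻¹ = t := by group
        rw [h5] at h4
        exact htU h4
      rw [e1, hL2 w hw _ h1 h2, smul_neg]
  -- elements of `C` acting on `L` as elements of `M`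
  have hKM : ∀ c ∈ C, (∃ m ∈ M, ∀ w ∈ L, c • w = m • w) → c ∈ M := by
    let D : Subgroup Γ :=
      { carrier := {c | c ∈ C ∧ ∃ m ∈ M, ∀ w ∈ L, c • w = m • w}
        mul_mem' := by
          rintro x y ⟨hx, m, hm, h1⟩ ⟨hy, m', hm', h2⟩
          refine ⟨mul_mem hx hy, m * m', mul_mem hm hm', ?_⟩
          intro w hw
          rw [mul_smul, h2 w hw, h1 _ (hLC m' (hMC hm') w hw), ← mul_smul]
        one_mem' := ⟨one_mem _, 1, one_mem _, fun w _ => rfl⟩
        inv_mem' := by
          rintro x ⟨hx, m, hm, h1⟩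
          refine ⟨inv_mem hx, m⁻¹, inv_mem hm, ?_⟩
          intro w hw
          have h2 := h1 (m⁻¹ • w) (hLC m⁻¹ (inv_mem (hMC hm)) w hw)
          rw [smul_inv_smul] at h2
          rw [inv_smul_eq_iff, h2] }
    have hDM : D ≤ M := by
      apply hleM
      · exact fun c hc => hc.1
      · intro hDC
        apply hTK
        rw [hTdef, commutator_le]
        intro c hc d hd w hw
        rw [← hDC] at hc hd
        obtain ⟨hc', m, hm, h1⟩ := hc
        obtain ⟨hd', m', hm', h2⟩ := hd
        have hmm : m * m' = m' * m := hMcen m' hm' m (hMC hm)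
        have e1 : ∀ w ∈ L, c • d • w = m • m' • w := by
          intro w hw
          rw [h2 w hw, h1 _ (hLC m' (hMC hm') w hw)]
        have e2 : ∀ w ∈ L, d • c • w = m' • m • w := by
          intro w hw
          rw [h1 w hw, h2 _ (hLC m (hMC hm) w hw)]
        have e3 : ∀ w ∈ L, c • d • w = d • c • w := by
          intro w hw
          rw [e1 w hw, e2 w hw, ← mul_smul, ← mul_smul, hmm]
        have e4 : d • c • c⁻¹ • d⁻¹ • w = w := by rw [smul_inv_smul, smul_inv_smul]
        rw [commutatorElement_def, mul_smul, mul_smul, mul_smul,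
          e3 _ (hLC _ (inv_mem hc') _ (hLC _ (inv_mem hd') w hw)), e4]
      · rintro x hx d ⟨hd, m, hm, h1⟩
        refine ⟨hXC x hx d hd, x * m * x⁻¹, hMX x hx m hm, ?_⟩
        intro w hw
        rw [mul_smul, mul_smul, mul_smul, mul_smul, h1 _ (hLX x⁻¹ (inv_mem hx) w hw)]
    intro c hc h
    exact hDM ⟨hc, h⟩
  -- the quotient `C / M`
  obtain ⟨Q, iQ, iX, π, hπs, hπm, hπe, hπx⟩ := exists_quot C M X
    (fun c hc m hm => by rw [hMcen m hm c hc]; simpa using hm) hcommM hXC hMX
  have hQfin : Finite Q := Finite.of_surjective π hπs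
  have hπ1 : π 1 = 0 := by
    have := hπm 1 1
    rw [mul_one] at this
    exact left_eq_add.mp this
  have hπinv : ∀ c, π c⁻¹ = -π c := by
    intro c
    have := hπm c⁻¹ c
    rw [inv_mul_cancel, hπ1] at this
    exact eq_neg_of_add_eq_zero_left this.symm
  -- the form
  let χ : Γ → ZMod 2 := fun t => if t ∈ U then 0 else 1
  have hχ0 : ∀ t, t ∈ U → χ t = 0 := fun t ht => if_pos ht
  have hχ1 : ∀ t, t ∉ U → χ t = 1 := fun t ht => if_neg ht
  have hχmul : ∀ s ∈ T, ∀ t ∈ T, χ (s * t) = χ s + χ t := by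
    intro s hs t ht
    by_cases h1 : s ∈ U
    · by_cases h2 : t ∈ U
      · rw [hχ0 s h1, hχ0 t h2, hχ0 _ (mul_mem h1 h2), add_zero]
      · rw [hχ0 s h1, hχ1 t h2, hχ1, zero_add]
        intro h
        apply h2
        have := mul_mem (inv_mem h1) h
        rwa [inv_mul_cancel_left] at this
    · by_cases h2 : t ∈ U
      · rw [hχ1 s h1, hχ0 t h2, hχ1, add_zero]
        intro h
        apply h1
        have := mul_mem h (inv_mem h2)
        rwa [mul_inv_cancel_right] at this
      · rw [hχ1 s h1, hχ1 t h2, hχ0 _ (hmulU s hs t ht h1 h2)]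
        decide
  let F : Γ → Γ → ZMod 2 := fun c d => χ (c * d * c⁻¹ * d⁻¹)
  have hF : ∀ c d, F c d = χ (c * d * c⁻¹ * d⁻¹) := fun c d => rfl
  have hcT : ∀ c ∈ C, ∀ d ∈ C, c * d * c⁻¹ * d⁻¹ ∈ T := by
    intro c hc d hd
    rw [← commutatorElement_def]
    exact commutator_mem_commutator hc hd
  have hFl : ∀ c ∈ C, ∀ c' ∈ C, ∀ d ∈ C, F (c * c') d = F c d + F c' d := by
    intro c hc c' hc' d hd
    have hz := hcT c' hc' d hd
    have e1 : c * c' * d * (c * c')⁻¹ * d⁻¹ =
        (c' * d * c'⁻¹ * d⁻¹) * (c * d * c⁻¹ * d⁻¹) := by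
      calc c * c' * d * (c * c')⁻¹ * d⁻¹ = (c * (c' * d * c'⁻¹ * d⁻¹)) * (d * c⁻¹ * d⁻¹) := by group
        _ = ((c' * d * c'⁻¹ * d⁻¹) * c) * (d * c⁻¹ * d⁻¹) := by
            rw [hMcen _ (hTM hz) c hc]
        _ = (c' * d * c'⁻¹ * d⁻¹) * (c * d * c⁻¹ * d⁻¹) := by group
    rw [hF, e1, hχmul _ hz _ (hcT c hc d hd), add_comm]
  have hFsymm : ∀ c ∈ C, ∀ d ∈ C, F c d = F d c := by
    intro c hc d hd
    have e1 : (c * d * c⁻¹ * d⁻¹) * (d * c * d⁻¹ * c⁻¹) = 1 := by group
    have e2 := hχmul _ (hcT c hc d hd) _ (hcT d hd c hc)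
    rw [e1, hχ0 1 (one_mem _)] at e2
    have e3 : F c d + F d c = 0 := e2.symm
    have e4 : ∀ a b : ZMod 2, a + b = 0 → a = b := by decide
    exact e4 _ _ e3
  have hFr : ∀ c ∈ C, ∀ d ∈ C, ∀ d' ∈ C, F c (d * d') = F c d + F c d' := by
    intro c hc d hd d' hd'
    rw [hFsymm c hc _ (mul_mem hd hd'), hFl d hd d' hd' c hc, hFsymm d hd c hc, hFsymm d' hd' c hc]
  have hFM1 : ∀ c ∈ C, ∀ m ∈ M, F c m = 0 := by
    intro c hc m hm
    have : c * m * c⁻¹ * m⁻¹ = 1 := by rw [hMcen m hm c hc]; group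
    rw [hF, this]
    exact hχ0 1 (one_mem _)
  have hFself : ∀ c, F c c = 0 := by
    intro c
    have : c * c * c⁻¹ * c⁻¹ = 1 := by group
    rw [hF, this]
    exact hχ0 1 (one_mem _)
  have hFinv : ∀ c ∈ C, ∀ d ∈ C, F c d⁻¹ = F c d := by
    intro c hc d hd
    have h1 := hFr c hc d⁻¹ (inv_mem hd) d hd
    rw [inv_mul_cancel, hFM1 c hc 1 (one_mem _)] at h1
    have e4 : ∀ a b : ZMod 2, 0 = a + b → a = b := by decide
    exact e4 _ _ h1
  have hFa : ∀ a ∈ A, ∀ c ∈ C, ∀ d ∈ C, F (a * c * a⁻¹) (a * d * a⁻¹) = F c d := by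
    intro a ha c hc d hd
    have hz := hcT c hc d hd
    have e1 : (a * c * a⁻¹) * (a * d * a⁻¹) * (a * c * a⁻¹)⁻¹ * (a * d * a⁻¹)⁻¹ =
        c * d * c⁻¹ * d⁻¹ := by
      calc (a * c * a⁻¹) * (a * d * a⁻¹) * (a * c * a⁻¹)⁻¹ * (a * d * a⁻¹)⁻¹ =
          (a * (c * d * c⁻¹ * d⁻¹)) * a⁻¹ := by group
        _ = ((c * d * c⁻¹ * d⁻¹) * a) * a⁻¹ := by rw [hMA _ (hTM hz) a ha]
        _ = c * d * c⁻¹ * d⁻¹ := by group
    rw [hF, e1]
  let sv : Q → C := Function.surjInv hπs
  have hsv : ∀ q, π (sv q) = q := Function.surjInv_eq hπs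
  let f : Q → Q → ZMod 2 := fun p q => F (sv p : Γ) (sv q : Γ)
  have hFcongr : ∀ c c' d : C, π c = π c' → F (c : Γ) d = F (c' : Γ) d := by
    intro c c' d h
    have h1 := (hπe c c').mp h
    have h2 : (c' : Γ) = c * ((c : Γ)⁻¹ * c') := by group
    rw [h2, hFl c c.2 _ (hMC h1) d d.2, hFsymm _ (hMC h1) d d.2, hFM1 d d.2 _ h1, add_zero]
  have hf : ∀ c d : C, f (π c) (π d) = F (c : Γ) d := by
    intro c d
    show F (sv (π c) : Γ) (sv (π d) : Γ) = F (c : Γ) d
    rw [hFcongr _ c _ (hsv _), hFsymm c c.2 _ (sv (π d)).2, hFcongr _ d _ (hsv _),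
      hFsymm d d.2 c c.2]
  have key : ∀ a ∈ commutator X, ∀ q : Q, a • q = q := by
    have hAmem : ∀ a ∈ commutator X, (a : Γ) ∈ A := by
      intro a ha
      rw [hAdef, ← map_subtype_commutator]
      exact ⟨a, ha, rfl⟩
    have hQ2 : ∀ q : Q, q + q = 0 := by
      intro q
      obtain ⟨c, rfl⟩ := hπs q
      rw [← hπm, ← hπ1, hπe]
      have := inv_mem (hsqM c c.2)
      simpa using this
    refine QuadForm.smul_eq_of_form f hQ2 hX ?_ ?_ ?_ ?_ ?_
    · intro a ha b hb
      exact Subtype.ext (hcomm a (hAmem a ha) b (hAmem b hb))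
    · intro a ha q
      rw [← mul_smul, ← mul_smul]
      have : a * a * a = 1 := Subtype.ext (ha3 a (hAmem a ha))
      rw [this, one_smul]
    · intro x y z
      obtain ⟨x, rfl⟩ := hπs x
      obtain ⟨y, rfl⟩ := hπs y
      obtain ⟨z, rfl⟩ := hπs z
      rw [← hπm, hf, hf, hf]
      exact hFl x x.2 y y.2 z z.2
    · intro x y z
      obtain ⟨x, rfl⟩ := hπs x
      obtain ⟨y, rfl⟩ := hπs y
      obtain ⟨z, rfl⟩ := hπs z
      rw [← hπm, hf, hf, hf]
      exact hFr x x.2 y y.2 z z.2
    · intro a ha x hx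
      obtain ⟨d, rfl⟩ := hπs x
      have haA := hAmem a ha
      -- the three conjugates
      let e : C := ⟨a * d * (a : Γ)⁻¹, hXC a a.2 d d.2⟩
      let g : C := ⟨a * e * (a : Γ)⁻¹, hXC a a.2 e e.2⟩
      have hae : a • π d = π e := hπx a d e.2
      have hag : a • π e = π g := hπx a e g.2
      have hadg : (a : Γ) * g * (a : Γ)⁻¹ = d := by
        show (a : Γ) * ((a : Γ) * ((a : Γ) * d * (a : Γ)⁻¹) * (a : Γ)⁻¹) * (a : Γ)⁻¹ = d
        have : (a : Γ) * ((a : Γ) * ((a : Γ) * d * (a : Γ)⁻¹) * (a : Γ)⁻¹) * (a : Γ)⁻¹ =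
            ((a : Γ) * a * a) * d * ((a : Γ) * a * a)⁻¹ := by group
        rw [this, ha3 a haA]; simp
      have had : a • π g = π d := by
        have h1 := hπx a g (by rw [hadg]; exact d.2)
        rw [h1]
        congr 1
        exact Subtype.ext hadg
      rw [hae] at hx ⊢
      rw [hf]
      by_contra hne
      have hdU : (d : Γ) * e * (d : Γ)⁻¹ * (e : Γ)⁻¹ ∈ U := by
        by_contra h
        exact hne (hχ1 _ h)
      have hde : F (d : Γ) e = 0 := hχ0 _ hdU
      have heg : F (e : Γ) g = 0 := by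
        rw [← hde]
        exact hFa a haA d d.2 e e.2
      have hdg : F (d : Γ) g = 0 := by
        have h1 := hFa a haA d d.2 g g.2
        rw [hadg] at h1
        rw [← h1]
        have h2 : F (a * d * (a : Γ)⁻¹) d = F (e : Γ) d := rfl
        rw [h2, hFsymm e e.2 d d.2, hde]
      -- `c = d e⁻¹`
      set c : Γ := d * (e : Γ)⁻¹ with hc
      have hcC : c ∈ C := mul_mem d.2 (inv_mem e.2)
      have hb : (a : Γ) * c * (a : Γ)⁻¹ = e * (g : Γ)⁻¹ := by
        show (a : Γ) * (d * (e : Γ)⁻¹) * (a : Γ)⁻¹ =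
          ((a : Γ) * d * (a : Γ)⁻¹) * ((a : Γ) * e * (a : Γ)⁻¹)⁻¹
        group
      have hFcb : F c (e * (g : Γ)⁻¹) = 0 := by
        rw [hc, hFl d d.2 _ (inv_mem e.2) _ (mul_mem e.2 (inv_mem g.2)),
          hFr d d.2 e e.2 _ (inv_mem g.2), hFinv d d.2 g g.2, hde, hdg,
          hFsymm _ (inv_mem e.2) _ (mul_mem e.2 (inv_mem g.2)),
          hFinv _ (mul_mem e.2 (inv_mem g.2)) e e.2,
          hFl e e.2 _ (inv_mem g.2) e e.2, hFself, hFsymm _ (inv_mem g.2) e e.2,
          hFinv e e.2 g g.2, heg]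
        simp
      have hcbU : c * (e * (g : Γ)⁻¹) * c⁻¹ * (e * (g : Γ)⁻¹)⁻¹ ∈ U := by
        by_contra h
        have h1 : F c (e * (g : Γ)⁻¹) = 1 := hχ1 _ h
        rw [hFcb] at h1
        exact absurd h1 (by decide)
      obtain ⟨k, hk⟩ := hC2 c hcC
      have hbC : e * (g : Γ)⁻¹ ∈ C := mul_mem e.2 (inv_mem g.2)
      have h1 := smul_eq_of_commute h3 L (ha3 a haA) (hLA a haA) (hLC c hcC)
        (fun m _ => hq a haA m) (by
          intro m hm
          rw [hb]
          have e1 : c • (e * (g : Γ)⁻¹) • m =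
              (c * (e * (g : Γ)⁻¹) * c⁻¹ * (e * (g : Γ)⁻¹)⁻¹) • (e * (g : Γ)⁻¹) • c • m := by
            rw [← mul_smul, ← mul_smul, ← mul_smul]
            congr 1
            group
          rw [e1]
          exact hL1 _ (hLC _ hbC _ (hLC c hcC m hm)) _ hcbU) hk
      rw [hb] at h1
      -- `π c = π b`
      have h2 : c⁻¹ * (e * (g : Γ)⁻¹) ∈ M := by
        apply hKM _ (mul_mem (inv_mem hcC) hbC)
        refine ⟨1, one_mem _, ?_⟩
        intro w hw
        rw [mul_smul, ← h1 w hw, inv_smul_smul, one_smul]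
      have h4 : π (d * e⁻¹) = π (e * g⁻¹) := by
        rw [hπe]
        exact h2
      rw [hπm, hπm, hπinv, hπinv] at h4
      have h5 : a • (π d + -π e) = π d + -π e := by
        rw [smul_add, smul_neg, hae, hag]
        exact h4.symm
      have h6 : (π d + -π e) + a • (π d + -π e) + a • a • (π d + -π e) = 0 := by
        simp only [smul_add, smul_neg, hae, hag, had]
        abel
      have h7 := QuadForm.eq_zero_of_orbit hQ2 h5 h6
      apply hx
      rw [← sub_eq_add_neg] at h7
      exact (sub_eq_zero.mp h7).symm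
  -- conclusion
  apply hcon
  intro c hc a ha
  rw [hAdef, ← map_subtype_commutator] at ha
  obtain ⟨a', ha', rfl⟩ := ha
  have haA : (X.subtype a') ∈ A := by
    rw [hAdef, ← map_subtype_commutator]
    exact ⟨a', ha', rfl⟩
  have haC : (a' : Γ) * c * (a' : Γ)⁻¹ ∈ C := hXC a' a'.2 c hc
  have h1 := key a' ha' (π ⟨c, hc⟩)
  rw [hπx a' ⟨c, hc⟩ haC] at h1
  have h2 := (hπe _ _).mp h1.symm
  have h4 : c⁻¹ * ((a' : Γ) * c * (a' : Γ)⁻¹) ∈ M := h2
  have h5 : (a' : Γ) * c * (a' : Γ)⁻¹ * c⁻¹ = c⁻¹ * ((a' : Γ) * c * (a' : Γ)⁻¹) := by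
    have h6 := hMcen _ h4 c hc
    calc (a' : Γ) * c * (a' : Γ)⁻¹ * c⁻¹ = (c * (c⁻¹ * ((a' : Γ) * c * (a' : Γ)⁻¹))) * c⁻¹ := by group
      _ = ((c⁻¹ * ((a' : Γ) * c * (a' : Γ)⁻¹)) * c) * c⁻¹ := by rw [h6]
      _ = _ := by group
  have h6 : (a' : Γ) * c * (a' : Γ)⁻¹ * c⁻¹ ∈ M := by rw [h5]; exact h4
  obtain ⟨k, hk⟩ := hC2 _ (hMC h6)
  exact commute_of_cube (ha3 a' haA) (hMA _ h6 a' haA) hk

end

end Cfsg.Agent.H451.QuadThree
end

-- part: H451/QuadOdd
section
/-!
# Quadratic action in characteristic three centralizes invariant subgroups of odd order prime to three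
-/

set_option autoImplicit false
set_option linter.style.haveILetI false

namespace Cfsg.Agent.H451.QuadOdd

open Subgroup
open scoped commutatorElement
open Cfsg.Agent.Lib.Cores (le_pCore pCore_isPGroup pCore_normal map_equiv_pCore)

universe u v

/-- the action as automorphisms of the multiplicative group -/
def toMul {Γ : Type v} {W : Type u} [Group Γ] [AddCommGroup W] [DistribMulAction Γ W] :
    Γ →* MulAut (Multiplicative W) where
  toFun g := AddEquiv.toMultiplicative (DistribMulAction.toAddEquiv W g)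
  map_one' := by
    ext w
    show Multiplicative.ofAdd ((1 : Γ) • w.toAdd) = w
    rw [one_smul]; rfl
  map_mul' := by
    intro g h
    ext w
    show Multiplicative.ofAdd ((g * h) • w.toAdd) = Multiplicative.ofAdd (g • h • w.toAdd)
    rw [mul_smul]

theorem toMul_apply {Γ : Type v} {W : Type u} [Group Γ] [AddCommGroup W] [DistribMulAction Γ W]
    (g : Γ) (w : Multiplicative W) :
    (toMul g : MulAut (Multiplicative W)) w = Multiplicative.ofAdd (g • w.toAdd) := rfl

theorem commute_of_odd {Γ : Type v} {W : Type u} [Group Γ] [Finite Γ] [AddCommGroup W] [Finite W]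
    [DistribMulAction Γ W] [FaithfulSMul Γ W] (h3 : ∀ w : W, w + w + w = 0)
    (D : Subgroup Γ) (a : Γ) (hD2 : ¬ 2 ∣ Nat.card D) (hD3 : ¬ 3 ∣ Nat.card D)
    (haD : a ∈ normalizer (D : Set Γ)) (hq : ∀ w : W, a • a • w + a • w + w = 0) :
    ∀ d ∈ D, a * d = d * a := by
  classical
  haveI : Fact (Nat.Prime 3) := ⟨by norm_num⟩
  haveI : Fact (Nat.Prime 2) := ⟨by norm_num⟩
  have ha3 : a ^ 3 = 1 := by
    apply FaithfulSMul.eq_of_smul_eq_smul (α := W)
    intro w
    have h1 : a • a • w = -(a • w) - w := by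
      have := hq w
      have h2 : a • a • w = (a • a • w + a • w + w) - a • w - w := by abel
      rw [h2, this]; abel
    rw [pow_succ, pow_two, mul_smul, mul_smul, h1, smul_sub, smul_neg, h1, one_smul]
    abel
  have hφinj : Function.Injective (toMul : Γ →* MulAut (Multiplicative W)) := by
    intro g h hgh
    apply FaithfulSMul.eq_of_smul_eq_smul (α := W)
    intro w
    have := congrArg (fun e : MulAut (Multiplicative W) => (e (Multiplicative.ofAdd w)).toAdd) hgh
    exact this
  set H : Subgroup Γ := D ⊔ zpowers a with hH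
  have haH : a ∈ H := mem_sup_right (mem_zpowers a)
  have hDH : D ≤ H := le_sup_left
  -- the order of `H`
  have hHodd : ¬ 2 ∣ Nat.card H := by
    intro h2
    have h4 : zpowers a ≤ normalizer (D : Set Γ) := by rw [zpowers_le]; exact haD
    have h5 : Nat.card H ∣ Nat.card (zpowers a) * Nat.card D := by
      rw [hH, sup_comm]
      exact OddOrderLocal.DecompBasic.card_sup_dvd h4
    have h6 : Nat.card (zpowers a) ∣ 3 := by
      rw [Nat.card_zpowers]
      exact orderOf_dvd_of_pow_eq_one ha3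
    rcases (Nat.Prime.dvd_mul Nat.prime_two).mp (h2.trans h5) with h | h
    · have := h.trans h6
      norm_num at this
    · exact hD2 h
  let R : Subgroup (MulAut (Multiplicative W)) := H.map toMul
  let e : H ≃* R := H.equivMapOfInjective toMul hφinj
  let a' : R := e ⟨a, haH⟩
  have ha' : (a' : MulAut (Multiplicative W)) = toMul a := rfl
  have hmem : a' ∈ Cfsg.pCore 3 R := by
    refine Cfsg.Agent.PLocal.ActionStable.mem_pCore_of_faithful (p := 3)
      (fun Γ _ => ∀ T : Sylow 2 Γ, IsMulCommutative T) ?_ ?_ ?_ R ?_ a' ?_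
    · intro L _ _ V K hV hHV hf hK b hbK hqb
      by_contra hna
      obtain ⟨T⟩ := (inferInstance : Nonempty (Sylow 2 K))
      exact Cfsg.Agent.S0595.result (by norm_num) V K hV hHV hf b hbK hqb hna T (hK T)
    · intro x y
      exact mul_comm x y
    · intro x
      show Multiplicative.ofAdd (3 • x.toAdd) = 1
      have : 3 • x.toAdd = 0 := by
        rw [← h3 x.toAdd]
        rw [succ_nsmul, two_nsmul]
      rw [this]; rfl
    · rintro B _ ⟨f⟩ T
      have hTB : Nat.card B = Nat.card H :=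
        (Nat.card_congr (e.trans f).toEquiv).symm
      haveI : Finite B := Finite.of_equiv _ (e.trans f).toEquiv
      obtain ⟨n, hn⟩ := IsPGroup.iff_card.mp T.2
      have h1 : n = 0 := by
        by_contra hne
        apply hHodd
        rw [← hTB]
        have h2 : 2 ∣ Nat.card T := by
          rw [show Nat.card T = 2 ^ n from hn]
          exact dvd_pow_self 2 hne
        exact h2.trans (card_subgroup_dvd_card _)
      rw [h1, pow_zero] at hn
      have hsub : Subsingleton (T : Subgroup B) := (Nat.card_eq_one_iff_unique.mp hn).1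
      exact ⟨⟨fun x y => Subsingleton.elim _ _⟩⟩
    · intro w
      rw [ha', toMul_apply]
      show Multiplicative.ofAdd (a • (w * (Multiplicative.ofAdd (a • w.toAdd))⁻¹).toAdd) = _
      have e1 : (w * (Multiplicative.ofAdd (a • w.toAdd))⁻¹).toAdd = w.toAdd - a • w.toAdd := by
        rw [toAdd_mul, toAdd_inv, toAdd_ofAdd, sub_eq_add_neg]
      rw [e1]
      have e2 : a • (w.toAdd - a • w.toAdd) = w.toAdd - a • w.toAdd := by
        have h4 := hq w.toAdd
        have h5 := h3 (a • w.toAdd)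
        rw [smul_sub]
        have h6 : a • w.toAdd - a • a • w.toAdd = (w.toAdd - a • w.toAdd) +
            ((a • w.toAdd + a • w.toAdd + a • w.toAdd) -
              (a • a • w.toAdd + a • w.toAdd + w.toAdd)) := by abel
        rw [h6, h4, h5]; abel
      rw [e2, ← e1]; rfl
  -- commutators of `a` with `D`
  intro d hd
  have hdH : d ∈ H := hDH hd
  let d' : R := e ⟨d, hdH⟩
  have hc1 : a' * d' * a'⁻¹ * d'⁻¹ ∈ Cfsg.pCore 3 R := by
    haveI := pCore_normal (G := R) 3
    have h1 : d' * a'⁻¹ * d'⁻¹ ∈ Cfsg.pCore 3 R :=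
      this.conj_mem _ (inv_mem hmem) d'
    have h2 : a' * d' * a'⁻¹ * d'⁻¹ = a' * (d' * a'⁻¹ * d'⁻¹) := by group
    rw [h2]
    exact mul_mem hmem h1
  have hc2 : a * d * a⁻¹ * d⁻¹ ∈ D := by
    exact mul_mem ((mem_normalizer_iff.mp haD d).mp hd) (inv_mem hd)
  obtain ⟨k, hk⟩ := pCore_isPGroup (G := R) 3 ⟨_, hc1⟩
  have hk' : (a' * d' * a'⁻¹ * d'⁻¹) ^ 3 ^ k = 1 := congrArg Subtype.val hk
  have hk2 : (a * d * a⁻¹ * d⁻¹) ^ 3 ^ k = 1 := by
    apply hφinj
    have h7 := congrArg (fun t : R => (t : MulAut (Multiplicative W))) hk'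
    have h8 : ((a' : MulAut (Multiplicative W)) * (d' : MulAut (Multiplicative W)) *
        (a' : MulAut (Multiplicative W))⁻¹ * (d' : MulAut (Multiplicative W))⁻¹) ^ 3 ^ k = 1 := by
      simpa using h7
    simp only [map_pow, map_mul, map_inv, map_one]
    exact h8
  have ho : orderOf (a * d * a⁻¹ * d⁻¹) = 1 := by
    have h1 : orderOf (a * d * a⁻¹ * d⁻¹) ∣ 3 ^ k := orderOf_dvd_of_pow_eq_one hk2
    have h2 : orderOf (a * d * a⁻¹ * d⁻¹) ∣ Nat.card D := by
      have := orderOf_dvd_natCard (⟨_, hc2⟩ : D)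
      rwa [orderOf_mk] at this
    have h4 : Nat.Coprime (3 ^ k) (Nat.card D) :=
      Nat.Coprime.pow_left k ((Nat.Prime.coprime_iff_not_dvd (by norm_num)).mpr hD3)
    exact Nat.Coprime.eq_one_of_dvd (Nat.Coprime.coprime_dvd_left h1 h4) h2
  have h5 : a * d * a⁻¹ * d⁻¹ = 1 := orderOf_eq_one_iff.mp ho
  calc a * d = (a * d * a⁻¹ * d⁻¹) * d * a := by group
    _ = d * a := by rw [h5, one_mul]

end Cfsg.Agent.H451.QuadOdd
end

-- part: H451/DerivedCore
section
/-!
# The commutator subgroup of a normal subgroup of a Sylow `3`-subgroup, if abelian, lies in `O_{3',3}`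
-/

set_option autoImplicit false
set_option linter.style.haveILetI false

namespace Cfsg.Agent.H451.DerivedCore

open Subgroup
open scoped commutatorElement
open Cfsg (pCore pPrimeCore IsPSolvable sectionKernel)
open Cfsg.Agent.Lib.Cores (le_pCore pCore_isPGroup pPrimeCore_coprime)

universe u

instance fact_prime_three : Fact (Nat.Prime 3) := ⟨by norm_num⟩

/-- **Core statement, `p = 3`.** `G` is `3`-soluble with `O_{3'}(G) = 1`, `X` a `3`-subgroup normalized by
`O_3(G)`, `[X, X]` abelian: then `[X, X] ≤ O_3(G)`. -/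
theorem core_three {G : Type u} [Group G] [Finite G] (hG : IsPSolvable 3 G)
    (h1 : pPrimeCore 3 G = ⊥) (X : Subgroup G) (hX : IsPGroup 3 X)
    (hXn : ∀ q ∈ pCore 3 G, ∀ x ∈ X, q * x * q⁻¹ ∈ X)
    (hab : ∀ a ∈ ⁅X, X⁆, ∀ b ∈ ⁅X, X⁆, a * b = b * a) : ⁅X, X⁆ ≤ pCore 3 G := by
  classical
  set Q : Subgroup G := pCore 3 G with hQ
  haveI hQn : Q.Normal := Lib.Cores.pCore_normal 3
  have hQp : IsPGroup 3 Q := pCore_isPGroup 3
  have hQc : centralizer (Q : Set G) ≤ Q :=
    Lib.PSolvable.centralizer_pCore_le_of_pSolvable 3 hG h1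
  haveI : (frattini Q).Characteristic := frattini_characteristic
  set Φ : Subgroup G := (frattini Q).map Q.subtype with hΦ
  haveI hΦn : Φ.Normal := by rw [hΦ]; infer_instance
  have hΦQ : Φ ≤ Q := map_subtype_le _
  have hAX : ⁅X, X⁆ ≤ X := commutator_le_self X
  -- the module `W = Q / Φ(Q)`
  obtain ⟨W, iW, iA, π, hπs, hπm, hπe, hπx⟩ := QuadThree.exists_quot Q Φ (⊤ : Subgroup G)
    (fun c _ n hn => hΦn.conj_mem n hn c)
    (by
      intro c hc d hd
      refine ⟨⁅(⟨c, hc⟩ : Q), ⟨d, hd⟩⁆, Lib.FrattiniPGroup.commutator_mem_frattini hQp _ _, ?_⟩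
      simp [commutatorElement_def])
    (fun x _ c hc => hQn.conj_mem c hc x) (fun x _ n hn => hΦn.conj_mem n hn x)
  haveI hWfin : Finite W := Finite.of_surjective π hπs
  have hπ1 : π 1 = 0 := by
    have := hπm 1 1
    rw [mul_one] at this
    exact left_eq_add.mp this
  have h3 : ∀ w : W, w + w + w = 0 := by
    intro w
    obtain ⟨c, rfl⟩ := hπs w
    rw [← hπm, ← hπm, ← hπ1, hπe]
    have : (c : G) ^ 3 ∈ Φ := ⟨c ^ 3, Lib.FrattiniPGroup.pow_mem_frattini hQp c, by simp⟩
    have h2 := inv_mem this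
    have h4 : ((c * c * c : Q) : G)⁻¹ * ((1 : Q) : G) = ((c : G) ^ 3)⁻¹ := by
      push_cast
      rw [mul_one, pow_succ, pow_two]
    rw [h4]
    exact h2
  let θ : G →* Equiv.Perm W := (MulAction.toPermHom (⊤ : Subgroup G) W).comp
    (topEquiv (G := G)).symm.toMonoidHom
  have hθadd : ∀ (g : G) (v w : W), θ g (v + w) = θ g v + θ g w := fun g v w =>
    smul_add (⟨g, mem_top g⟩ : (⊤ : Subgroup G)) v w
  have hθzero : ∀ g : G, θ g 0 = 0 := fun g => smul_zero (⟨g, mem_top g⟩ : (⊤ : Subgroup G))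
  letI act : DistribMulAction θ.range W :=
    { toMulAction := inferInstance
      smul_zero := by
        rintro ⟨_, g, rfl⟩
        exact hθzero g
      smul_add := by
        rintro ⟨_, g, rfl⟩ v w
        exact hθadd g v w }
  haveI faithful : FaithfulSMul θ.range W :=
    ⟨fun {g h} hgh => Subtype.ext (Equiv.ext hgh)⟩
  have hθ : ∀ (g : G) (c : Q), θ g (π c) = π ⟨g * c * g⁻¹, hQn.conj_mem c c.2 g⟩ := by
    intro g c
    exact hπx ⟨g, mem_top g⟩ c (hQn.conj_mem c c.2 g)
  let ψ : G →* θ.range := θ.rangeRestrict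
  have hψs : Function.Surjective ψ := θ.rangeRestrict_surjective
  have hsm : ∀ (g : G) (w : W), ψ g • w = θ g w := fun g w => rfl
  have hψ : ∀ (g : G) (c : Q), ψ g • π c = π ⟨g * c * g⁻¹, hQn.conj_mem c c.2 g⟩ := hθ
  haveI : Finite θ.range := Finite.of_surjective ψ hψs
  -- the kernel
  have hker : ψ.ker = Q := by
    have hkerθ : ∀ g, g ∈ ψ.ker ↔ g ∈ sectionKernel Q Φ := by
      intro g
      rw [PLocal.SectionFrattini.mem_sectionKernel]
      constructor
      · intro hg k hk
        have h2 : π ⟨g * k * g⁻¹, hQn.conj_mem k hk g⟩ = π ⟨k, hk⟩ := by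
          rw [← hψ g ⟨k, hk⟩, MonoidHom.mem_ker.mp hg, one_smul]
        rw [hπe] at h2
        have h4 : (g * k * g⁻¹)⁻¹ * k ∈ Φ := h2
        have h5 : k * ((g * k * g⁻¹)⁻¹ * k) * k⁻¹ ∈ Φ := hΦn.conj_mem _ h4 k
        have h6 : ⁅k, g⁆ = k * ((g * k * g⁻¹)⁻¹ * k) * k⁻¹ := by
          rw [commutatorElement_def]; group
        rw [h6]; exact h5
      · intro hg
        rw [MonoidHom.mem_ker]
        apply FaithfulSMul.eq_of_smul_eq_smul (α := W)
        intro w
        obtain ⟨c, rfl⟩ := hπs w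
        rw [hψ, one_smul, hπe]
        show (g * c * g⁻¹)⁻¹ * (c : G) ∈ Φ
        have h2 := hg c c.2
        have h4 : (c : G)⁻¹ * ⁅(c : G), g⁆ * ((c : G)⁻¹)⁻¹ ∈ Φ := hΦn.conj_mem _ h2 (c : G)⁻¹
        have h5 : (g * c * g⁻¹)⁻¹ * (c : G) = (c : G)⁻¹ * ⁅(c : G), g⁆ * ((c : G)⁻¹)⁻¹ := by
          rw [commutatorElement_def]; group
        rw [h5]; exact h4
    apply le_antisymm
    · apply le_pCore inferInstance
      have h2 : ψ.ker ≤ sectionKernel Q Φ := fun g hg => (hkerθ g).mp hg
      exact (PLocal.SectionFrattini.isPGroup_sectionKernel_frattini Q hQp hQc).to_le h2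
    · intro g hg
      rw [hkerθ, PLocal.SectionFrattini.mem_sectionKernel]
      intro k hk
      refine ⟨⁅(⟨k, hk⟩ : Q), ⟨g, hg⟩⁆, Lib.FrattiniPGroup.commutator_mem_frattini hQp _ _, ?_⟩
      simp [commutatorElement_def]
  -- the structure of the image
  have hcore : pCore 3 θ.range = ⊥ := by
    have h2 : (pCore 3 θ.range).comap ψ ≤ Q := by
      haveI : (pCore 3 θ.range).Normal := Lib.Cores.pCore_normal 3
      apply le_pCore inferInstance
      have hkp : IsPGroup 3 ψ.ker := by rw [hker]; exact hQp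
      exact (pCore_isPGroup 3).comap_of_ker_isPGroup ψ hkp
    rw [eq_bot_iff]
    intro x hx
    obtain ⟨g, rfl⟩ := hψs x
    have h4 : g ∈ ψ.ker := by rw [hker]; exact h2 hx
    exact mem_bot.mpr (MonoidHom.mem_ker.mp h4)
  have hpsol : IsPSolvable 3 θ.range := Lib.PSolvable.IsPSolvable_of_surjective 3 hG ψ hψs
  set N : Subgroup θ.range := pPrimeCore 3 θ.range with hN
  haveI hNn : N.Normal := Lib.Cores.pPrimeCore_normal 3
  have hNc : centralizer (N : Set θ.range) ≤ N :=
    PLocal.HallHigmanPrime.centralizer_pPrimeCore_le_of_pSolvable 3 hpsol hcore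
  have hNcop : (Nat.card N).Coprime 3 := pPrimeCore_coprime 3
  have hN3 : ¬ 3 ∣ Nat.card N := fun h =>
    (Nat.Prime.coprime_iff_not_dvd (by norm_num)).mp hNcop.symm h
  -- the images of `X` and `A`
  set Y : Subgroup θ.range := X.map ψ with hY
  have hYp : IsPGroup 3 Y := hX.map ψ
  have hYY : ⁅Y, Y⁆ = (⁅X, X⁆).map ψ := by rw [hY, map_commutator]
  have hcommY : ∀ a ∈ ⁅Y, Y⁆, ∀ b ∈ ⁅Y, Y⁆, a * b = b * a := by
    rw [hYY]
    rintro _ ⟨a, ha, rfl⟩ _ ⟨b, hb, rfl⟩
    rw [← map_mul, hab a ha b hb, map_mul]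
  -- commutators with elements of `Q`
  have hAn : ∀ q ∈ Q, ∀ a ∈ ⁅X, X⁆, q * a * q⁻¹ ∈ ⁅X, X⁆ := by
    intro q hq a ha
    have h2 : (⁅X, X⁆).map (MulAut.conj q).toMonoidHom ≤ ⁅X, X⁆ := by
      rw [map_commutator]
      apply commutator_mono <;>
      · rintro _ ⟨y, hy, rfl⟩
        exact hXn q hq y hy
    exact h2 ⟨a, ha, rfl⟩
  have hdiff : ∀ (g : G) (c : Q) (h : g * c * g⁻¹ * (c : G)⁻¹ ∈ Q),
      ψ g • π c = π ⟨g * c * g⁻¹ * (c : G)⁻¹, h⟩ + π c := by
    intro g c h
    rw [hψ, ← hπm]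
    congr 1
    apply Subtype.ext
    show g * c * g⁻¹ = g * c * g⁻¹ * (c : G)⁻¹ * c
    group
  have hmemQ : ∀ (g : G) (c : Q), g * c * g⁻¹ * (c : G)⁻¹ ∈ Q := fun g c =>
    mul_mem (hQn.conj_mem c c.2 g) (inv_mem c.2)
  have hfixA : ∀ a ∈ ⁅X, X⁆, ∀ (s : Q), (s : G) ∈ ⁅X, X⁆ → ψ a • π s = π s := by
    intro a ha s hs
    rw [hψ]
    congr 1
    apply Subtype.ext
    show a * s * a⁻¹ = s
    rw [hab a ha s hs]; group
  have hquad : ∀ a ∈ ⁅Y, Y⁆, ∀ w : W, a • a • w + a • w + w = 0 := by
    rw [hYY]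
    rintro _ ⟨a, ha, rfl⟩ w
    obtain ⟨c, rfl⟩ := hπs w
    have hr : a * c * a⁻¹ * (c : G)⁻¹ ∈ ⁅X, X⁆ := by
      have h2 : a * c * a⁻¹ * (c : G)⁻¹ = a * ((c : G) * a⁻¹ * (c : G)⁻¹) := by group
      rw [h2]
      exact mul_mem ha (hAn c c.2 _ (inv_mem ha))
    have e1 := hdiff a c (hmemQ a c)
    have e2 := hfixA a ha ⟨_, hmemQ a c⟩ hr
    have e3 : ψ a • ψ a • π c = π ⟨_, hmemQ a c⟩ + (π ⟨_, hmemQ a c⟩ + π c) := by
      rw [e1, smul_add, e2, e1]
    rw [e3, e1]
    have h4 := h3 (π ⟨_, hmemQ a c⟩)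
    have h5 := h3 (π c)
    have h6 : π ⟨_, hmemQ a c⟩ + (π ⟨_, hmemQ a c⟩ + π c) + (π ⟨_, hmemQ a c⟩ + π c) + π c =
        (π ⟨_, hmemQ a c⟩ + π ⟨_, hmemQ a c⟩ + π ⟨_, hmemQ a c⟩) + (π c + π c + π c) := by abel
    rw [h6, h4, h5, add_zero]
  have hquad2 : ∀ a ∈ ⁅Y, Y⁆, ∀ x ∈ Y, ∀ w : W,
      a • (x • x • w + x • w + w) = x • x • w + x • w + w := by
    rw [hYY]
    rintro _ ⟨a, ha, rfl⟩ _ ⟨x, hx, rfl⟩ w
    obtain ⟨c, rfl⟩ := hπs w
    have hr : x * c * x⁻¹ * (c : G)⁻¹ ∈ X := by
      have h2 : x * c * x⁻¹ * (c : G)⁻¹ = x * ((c : G) * x⁻¹ * (c : G)⁻¹) := by group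
      rw [h2]
      exact mul_mem hx (hXn c c.2 _ (inv_mem hx))
    set r : Q := ⟨x * c * x⁻¹ * (c : G)⁻¹, hmemQ x c⟩ with hrdef
    have hs : x * r * x⁻¹ * (r : G)⁻¹ ∈ ⁅X, X⁆ := by
      rw [← commutatorElement_def]
      exact commutator_mem_commutator hx hr
    set s : Q := ⟨x * r * x⁻¹ * (r : G)⁻¹, hmemQ x r⟩ with hsdef
    have e1 : ψ x • π c = π r + π c := hdiff x c (hmemQ x c)
    have e2 : ψ x • π r = π s + π r := hdiff x r (hmemQ x r)
    have e3 : ψ a • π s = π s := hfixA a ha s hs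
    have e4 : ψ x • ψ x • π c + ψ x • π c + π c = π s := by
      rw [e1, smul_add, e1, e2]
      have h5 : π s + π r + (π r + π c) + (π r + π c) + π c =
        π s + (π r + π r + π r) + (π c + π c + π c) := by abel
      rw [h5, h3, h3, add_zero, add_zero]
    rw [e4, e3]
  -- `[Y, Y]` centralizes all `Y`-invariant `q`-subgroups of `N`
  have hcent : ∀ q : ℕ, q.Prime → ∀ C : Subgroup θ.range, IsPGroup q C → C ≤ N →
      (∀ y ∈ Y, ∀ c ∈ C, y * c * y⁻¹ ∈ C) → ∀ c ∈ C, ∀ a ∈ ⁅Y, Y⁆, a * c = c * a := by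
    intro q hq C hC hCN hYC c hc a ha
    by_cases hq2 : q = 2
    · subst hq2
      exact QuadThree.commute_of_quadratic h3 Y hYp hcommY hquad hquad2 C hC hYC c hc a ha
    · have haY : a ∈ Y := commutator_le_self Y ha
      haveI : Fact q.Prime := ⟨hq⟩
      have hD3 : ¬ 3 ∣ Nat.card C := fun h => hN3 (h.trans (card_dvd_of_le hCN))
      have hD2 : ¬ 2 ∣ Nat.card C := by
        obtain ⟨n, hn⟩ := IsPGroup.iff_card.mp hC
        rw [hn]
        intro h
        exact hq2 ((Nat.prime_dvd_prime_iff_eq Nat.prime_two hq).mp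
          (Nat.prime_two.dvd_of_dvd_pow h)).symm
      have hn : a ∈ normalizer (C : Set θ.range) :=
        (QuadThree.le_normalizer_of_conj hYC) haY
      exact QuadOdd.commute_of_odd h3 C a hD2 hD3 hn (hquad a ha) c hc
  -- so `[Y, Y]` centralizes `N`
  have hNle : N ≤ centralizer ((⁅Y, Y⁆ : Subgroup θ.range) : Set θ.range) := by
    have htop : (centralizer ((⁅Y, Y⁆ : Subgroup θ.range) : Set θ.range)).subgroupOf N = ⊤ := by
      apply Lib.Cores.eq_top_of_sylow_le
      intro q hq
      obtain ⟨S, ⟨T, hT⟩, hS⟩ := Lib.PGroupCoprimeAction.exists_invariant_sylow (p := 3) (A := Y)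
        (H := N) hYp hN3 (fun b _ u hu => hNn.conj_mem u hu b) q
      refine ⟨T, ?_⟩
      intro t ht
      rw [mem_subgroupOf, mem_centralizer_iff]
      intro a ha
      have htS : (t : θ.range) ∈ S := by rw [← hT]; exact ⟨t, ht, rfl⟩
      have hSq : IsPGroup q S := by rw [← hT]; exact T.2.map _
      have hSN : S ≤ N := by rw [← hT]; exact map_subtype_le _
      exact hcent q hq.out S hSq hSN hS _ htS a ha
    exact subgroupOf_eq_top.mp htop
  have hYY1 : ⁅Y, Y⁆ = ⊥ := by
    have h2 : ⁅Y, Y⁆ ≤ N := by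
      refine le_trans ?_ hNc
      rw [le_centralizer_iff]
      exact hNle
    rw [eq_bot_iff]
    intro y hy
    have h4 : IsPGroup 3 (⁅Y, Y⁆ : Subgroup θ.range) := hYp.to_le (commutator_le_self Y)
    have h5 : Disjoint (⁅Y, Y⁆ : Subgroup θ.range) N := by
      apply Subgroup.disjoint_of_coprime_natCard
      obtain ⟨n, hn⟩ := IsPGroup.iff_card.mp h4
      rw [hn]
      exact Nat.Coprime.pow_left n hNcop.symm
    exact h5.le_bot ⟨hy, h2 hy⟩
  rw [hYY, Subgroup.map_eq_bot_iff, hker] at hYY1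
  exact hYY1

end Cfsg.Agent.H451.DerivedCore
end

-- part: S3789
section
set_option autoImplicit false
set_option linter.style.haveILetI false
open Cfsg

namespace Cfsg.Agent.S3789

open Subgroup Cfsg.Agent.H451.PLength Cfsg.Agent.OddOrderLocal
open scoped commutatorElement

universe u

/-- `O_{p'}(G / N) = 1` for `N = O_{p',p,…,p'}(G)` -/
theorem pPrimeCore_quotient {G : Type u} [Group G] [Finite G] {p : ℕ} [Fact p.Prime] (k : ℕ) :
    pPrimeCore p (G ⧸ (upperPSeries p G (2 * k + 1)).1) = ⊥ := by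
  set N := (upperPSeries p G (2 * k + 1)).1 with hN
  have hE : Even (2 * k) := even_two_mul k
  haveI : (pPrimeCore p (G ⧸ N)).Normal := Lib.Cores.pPrimeCore_normal p
  have hser := isSeries_upperPSeries (G := G) (p := p)
  have hUN : (upperPSeries p G (2 * k)).1 ≤ N := upperPSeries_le_succ p (2 * k)
  set K := (pPrimeCore p (G ⧸ N)).comap (QuotientGroup.mk' N) with hK
  have hNK : N ≤ K := by
    intro x hx
    rw [hK, mem_comap]
    have : QuotientGroup.mk' N x = 1 := (QuotientGroup.eq_one_iff x).2 hx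
    rw [this]; exact one_mem _
  have h1 : K ≤ N := by
    rw [hN, PLengthOne.upperPSeries_succ_even p hE, ← map_le_iff_le_comap]
    apply PLengthOne.le_pPrimeCore
    · exact Subgroup.Normal.map inferInstance _ (QuotientGroup.mk'_surjective _)
    · rw [PLengthSub.card_map_mk', ← relIndex_mul_relIndex _ N K hUN hNK]
      refine Nat.Coprime.mul_left (hser.even (2 * k) hE) ?_
      rw [hK, relIndex_comap_mk']
      exact Lib.Cores.pPrimeCore_coprime p
  rw [eq_bot_iff]
  intro x hx
  obtain ⟨g, rfl⟩ := QuotientGroup.mk'_surjective N x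
  rw [mem_bot]
  exact (QuotientGroup.eq_one_iff g).2 (h1 hx)

/-- **Core statement, `p ≥ 5`.** -/
theorem core_five {G : Type u} [Group G] [Finite G] {p : ℕ} [Fact p.Prime] (hp : 5 ≤ p)
    (hG : IsPSolvable p G) (h1 : pPrimeCore p G = ⊥) (A : Subgroup G)
    (hAn : ∀ q ∈ pCore p G, ∀ x ∈ A, q * x * q⁻¹ ∈ A)
    (hab : ∀ a ∈ A, ∀ b ∈ A, a * b = b * a) : A ≤ pCore p G := by
  haveI : (pCore p G).Normal := Lib.Cores.pCore_normal p
  have hst := (Cfsg.Agent.S0625.result hp hG).2.1
  intro a ha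
  refine PLocal.SectionFrattini.mem_pCore_of_quadratic (pCore p G)
    (Lib.Cores.pCore_isPGroup p) (Lib.PSolvable.centralizer_pCore_le_of_pSolvable p hG h1) hst ?_
  have hz : zpowers a ≤ A := by rw [zpowers_le]; exact ha
  have h2 : ⁅pCore p G, zpowers a⁆ ≤ A := by
    rw [commutator_le]
    intro q hq b hb
    rw [commutatorElement_def]
    exact mul_mem (hAn q hq b (hz hb)) (inv_mem (hz hb))
  have h3 : ⁅⁅pCore p G, zpowers a⁆, zpowers a⁆ = ⊥ := by
    rw [commutator_eq_bot_iff_le_centralizer]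
    intro x hx
    rw [mem_centralizer_iff]
    intro b hb
    exact hab b (hz hb) x (h2 hx)
  rw [h3]
  exact bot_le

/-- Let p be an odd prime and G a finite p-soluble group whose Sylow p-subgroups have derived length at most d. Then G has p-length at most d. -/
theorem result {G : Type*} [Group G] [Finite G] {p : ℕ} [Fact p.Prime] (hp : p ≠ 2) (hG : Cfsg.IsPSolvable p G) (d : ℕ) (hd : ∀ P : Sylow p G, derivedSeries ↥(P : Subgroup G) d = ⊥) : Cfsg.PLengthLE p d G := by
  obtain ⟨S⟩ := (inferInstance : Nonempty (Sylow p G))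
  have hSd := hd S
  -- the terms of the derived series of `S`, as subgroups of `G`
  let X : ℕ → Subgroup G := fun j => (derivedSeries ↥(S : Subgroup G) j).map (S : Subgroup G).subtype
  have hX0 : X 0 = (S : Subgroup G) := by
    show (derivedSeries ↥(S : Subgroup G) 0).map (S : Subgroup G).subtype = S
    rw [derivedSeries_zero, ← MonoidHom.range_eq_map, range_subtype]
  have hXsucc : ∀ j, X (j + 1) = ⁅X j, X j⁆ := by
    intro j
    show (derivedSeries ↥(S : Subgroup G) (j + 1)).map (S : Subgroup G).subtype = _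
    rw [derivedSeries_succ, map_commutator]
  have hXS : ∀ j, X j ≤ S := fun j => map_subtype_le _
  have hXn : ∀ j, ∀ s ∈ (S : Subgroup G), ∀ x ∈ X j, s * x * s⁻¹ ∈ X j := by
    rintro j s hs _ ⟨x, hx, rfl⟩
    have hn : (derivedSeries ↥(S : Subgroup G) j).Normal := inferInstance
    exact ⟨⟨s, hs⟩ * x * ⟨s, hs⟩⁻¹, hn.conj_mem x hx ⟨s, hs⟩, rfl⟩
  have hp3 : p = 3 ∨ 5 ≤ p := by
    have h2 := (Fact.out : p.Prime).two_le
    have h4 : p ≠ 4 := by
      intro h
      have h5 : p.Prime := Fact.out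
      rw [h] at h5
      norm_num at h5
    omega
  have key : ∀ k, k ≤ d → X (d - k) ≤ (upperPSeries p G (2 * k)).1 := by
    intro k
    induction k with
    | zero =>
      intro _
      show (derivedSeries ↥(S : Subgroup G) d).map (S : Subgroup G).subtype ≤ _
      rw [hSd, Subgroup.map_bot]
      exact bot_le
    | succ k ih =>
      intro hk
      obtain ⟨m, hm⟩ : ∃ m, d - k = m + 1 := ⟨d - k - 1, by omega⟩
      have hm' : d - (k + 1) = m := by omega
      rw [hm']
      have hih := ih (by omega)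
      rw [hm] at hih
      set N := (upperPSeries p G (2 * k + 1)).1 with hN
      have hsurj := QuotientGroup.mk'_surjective N
      have hUN : (upperPSeries p G (2 * k)).1 ≤ N := upperPSeries_le_succ p (2 * k)
      have hO : pPrimeCore p (G ⧸ N) = ⊥ := pPrimeCore_quotient (G := G) (p := p) k
      have hsol : IsPSolvable p (G ⧸ N) :=
        Lib.PSolvable.IsPSolvable_of_surjective p hG (QuotientGroup.mk' N) hsurj
      -- the images
      let Y : ℕ → Subgroup (G ⧸ N) := fun j => (X j).map (QuotientGroup.mk' N)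
      have hYsucc : ∀ j, Y (j + 1) = ⁅Y j, Y j⁆ := by
        intro j
        show (X (j + 1)).map _ = _
        rw [hXsucc, map_commutator]
      have hYm : Y (m + 1) = ⊥ := by
        show (X (m + 1)).map _ = ⊥
        rw [Subgroup.map_eq_bot_iff, QuotientGroup.ker_mk']
        exact hih.trans hUN
      have hYab : ∀ a ∈ Y m, ∀ b ∈ Y m, a * b = b * a := by
        intro a ha b hb
        have h1 : ⁅a, b⁆ ∈ Y (m + 1) := by
          rw [hYsucc]; exact commutator_mem_commutator ha hb
        rw [hYm, mem_bot, commutatorElement_eq_one_iff_mul_comm] at h1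
        exact h1
      -- the Sylow subgroup of the quotient
      let T : Sylow p (G ⧸ N) := S.mapSurjective hsurj
      have hT : (T : Subgroup (G ⧸ N)) = Y 0 := by
        show (T : Subgroup (G ⧸ N)) = (X 0).map _
        rw [hX0]
        exact Sylow.coe_mapSurjective hsurj S
      have hcoreT : pCore p (G ⧸ N) ≤ Y 0 := by
        rw [← hT]
        exact Lib.Cores.pCore_le_sylow T
      have hYn : ∀ j, ∀ q ∈ pCore p (G ⧸ N), ∀ y ∈ Y j, q * y * q⁻¹ ∈ Y j := by
        rintro j q hq _ ⟨x, hx, rfl⟩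
        obtain ⟨s, hs, rfl⟩ := hcoreT hq
        rw [hX0] at hs
        exact ⟨s * x * s⁻¹, hXn j s hs x hx, by simp⟩
      have hYp : ∀ j, IsPGroup p (Y j) := fun j => (S.2.to_le (hXS j)).map _
      have hmain : Y m ≤ pCore p (G ⧸ N) := by
        cases m with
        | zero =>
          refine le_trans ?_ (Lib.PSolvable.centralizer_pCore_le_of_pSolvable p hsol hO)
          intro y hy
          rw [mem_centralizer_iff]
          intro c hc
          exact hYab c (hcoreT hc) y hy
        | succ m =>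
          rcases hp3 with h3 | h5
          · subst h3
            rw [hYsucc]
            rw [hYsucc] at hYab
            exact Cfsg.Agent.H451.DerivedCore.core_three hsol hO (Y m) (hYp m) (hYn m) hYab
          · exact core_five h5 hsol hO (Y (m + 1)) (hYn _) hYab
      have hodd : ¬ Even (2 * k + 1) := by simp
      have h2 : 2 * (k + 1) = 2 * k + 1 + 1 := by ring
      rw [h2, PLengthOne.upperPSeries_succ_odd p hodd, ← map_le_iff_le_comap]
      exact hmain
  have hfin := key d le_rfl
  rw [Nat.sub_self, hX0] at hfin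
  show (upperPSeries p G (2 * d + 1)).1 = ⊤
  rw [PLengthOne.upperPSeries_succ_even p (even_two_mul d)]
  have h3 : pPrimeCore p (G ⧸ (upperPSeries p G (2 * d)).1) = ⊤ := by
    rw [Lib.Cores.pPrimeCore_eq_top_iff]
    have h5 : ¬ p ∣ (upperPSeries p G (2 * d)).1.index := fun h =>
      S.not_dvd_index (h.trans (index_dvd_of_le hfin))
    exact ((Nat.Prime.coprime_iff_not_dvd Fact.out).mpr h5).symm
  rw [h3]
  exact comap_top _

end Cfsg.Agent.S3789
end
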