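import Mathlib
import Cfsg.Agent.H452.Ext_mg
import Cfsg.Agent.H452.Ward_mg
import Cfsg.Agent.H452.OddExt
import Cfsg.Statements.S3795
set_option linter.all false

-- part: H452/LemS
section
/-!
# The final lemma for the 2-group case

`π` a representation of `G` over a field `k`, `φ = ψ ^ 2` an involution inverting `x`, `y = ψ x ψ⁻¹`,
`c = [x, y]` commuting with `x`, `y`, `φ`, all vectors fixed by `φ` fixed by `ψ`, the `-1`-eigenspace of `φ` of
dimension at most two, and `c` cannot act on it as a scalar different from `1`. Then `x` acts trivially.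
-/

set_option autoImplicit false

namespace Cfsg.Agent.H452.LemS

open Module

variable {k : Type*} [Field k] {G : Type*} [Group G] {E : Type*} [AddCommGroup E] [Module k E]

theorem eq_of_sq {π : Representation k G E} {x : G} {r : ℕ} (hr : Odd r) (hx : x ^ r = 1) {v : E}
    (h : π x (π x v) = v) : π x v = v := by
  obtain ⟨j, hj⟩ := hr
  have h1 : ∀ n : ℕ, π (x ^ (2 * n)) v = v := by
    intro n
    induction n with
    | zero => rw [mul_zero, pow_zero, map_one, End.one_apply]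
    | succ n ih =>
      have h2 : x ^ (2 * (n + 1)) = x ^ (2 * n) * (x * x) := by
        rw [mul_add, mul_one, pow_add, pow_two]
      rw [h2, map_mul, End.mul_apply, map_mul, End.mul_apply, h, ih]
  have h2 : x ^ (2 * j + 1) = x * x ^ (2 * j) := by rw [pow_succ']
  rw [hj, h2] at hx
  have h3 : π (x * x ^ (2 * j)) v = v := by rw [hx, map_one, End.one_apply]
  rw [map_mul, End.mul_apply, h1] at h3
  exact h3

/-- the sum over the powers of `x` -/
def N (π : Representation k G E) (x : G) (r : ℕ) (v : E) : E := ∑ i ∈ Finset.range r, π (x ^ i) v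

theorem N_fixed (π : Representation k G E) {x : G} {r : ℕ} (hx : x ^ r = 1) (v : E) :
    π x (N π x r v) = N π x r v := by
  unfold N
  rw [map_sum]
  have h1 : ∀ n : ℕ, π x (π (x ^ n) v) = π (x ^ (n + 1)) v := by
    intro n; rw [pow_succ', map_mul, End.mul_apply]
  simp only [h1]
  have h2 := Finset.sum_range_succ' (fun n => π (x ^ n) v) r
  have h3 := Finset.sum_range_succ (fun n => π (x ^ n) v) r
  rw [h3] at h2
  simp only [pow_zero, hx] at h2
  exact (add_right_cancel h2).symm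

theorem pow_fixed {π : Representation k G E} {x : G} {v : E} (h : π x v = v) (n : ℕ) :
    π (x ^ n) v = v := by
  induction n with
  | zero => rw [pow_zero, map_one, End.one_apply]
  | succ n ih => rw [pow_succ, map_mul, End.mul_apply, h, ih]

theorem N_of_fixed {π : Representation k G E} {x : G} {r : ℕ} {v : E} (h : π x v = v) :
    N π x r v = (r : k) • v := by
  unfold N
  rw [Finset.sum_congr rfl (fun i _ => pow_fixed h i), Finset.sum_const, Finset.card_range,
    Nat.cast_smul_eq_nsmul]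

theorem N_comm {π : Representation k G E} {x : G} {r : ℕ} {T : End k E}
    (h : ∀ v, π x (T v) = T (π x v)) (v : E) : N π x r (T v) = T (N π x r v) := by
  have h1 : ∀ i : ℕ, π (x ^ i) (T v) = T (π (x ^ i) v) := by
    intro i
    induction i with
    | zero => rw [pow_zero, map_one, End.one_apply, End.one_apply]
    | succ i ih => rw [pow_succ', map_mul, End.mul_apply, ih, h, End.mul_apply]
  unfold N
  rw [map_sum]
  exact Finset.sum_congr rfl (fun i _ => h1 i)

theorem cancel (π : Representation k G E) (x : G) (v : E) : π x (π x⁻¹ v) = v := by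
  rw [← End.mul_apply, ← map_mul, mul_inv_cancel, map_one, End.one_apply]

theorem cancel' (π : Representation k G E) (x : G) (v : E) : π x⁻¹ (π x v) = v := by
  rw [← End.mul_apply, ← map_mul, inv_mul_cancel, map_one, End.one_apply]

theorem comm_case (π : Representation k G E) {x y φ ψ : G} {r : ℕ} (hr : Odd r) (hrk : (r : k) ≠ 0)
    (hφ : φ = ψ * ψ) (hφ2 : φ * φ = 1) (hx : φ * x * φ⁻¹ = x⁻¹) (hy : y = ψ * x * ψ⁻¹)
    (hxr : x ^ r = 1) (hcomm : ∀ v, π x (π y v) = π y (π x v))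
    (hfix : ∀ e, π φ e = e → π ψ e = e) : ∀ e, π x e = e := by
  have hyr : y ^ r = 1 := by rw [hy, conj_pow, hxr, mul_one, mul_inv_cancel]
  have hφψ : φ * ψ = ψ * φ := by rw [hφ]; group
  have hyφ : φ * y * φ⁻¹ = y⁻¹ := by
    have h1 : φ * y * φ⁻¹ = ψ * (φ * x * φ⁻¹) * ψ⁻¹ := by
      rw [hy]
      calc φ * (ψ * x * ψ⁻¹) * φ⁻¹ = (φ * ψ) * x * (φ * ψ)⁻¹ := by group
        _ = ψ * (φ * x * φ⁻¹) * ψ⁻¹ := by rw [hφψ]; group
    rw [h1, hx, hy]; group
  have hψy : ψ * y * ψ⁻¹ = x⁻¹ := by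
    rw [← hx, hy, hφ]; group
  -- translation to operators
  have fx : ∀ v, π φ (π x v) = π x⁻¹ (π φ v) := by
    intro v
    rw [← End.mul_apply, ← End.mul_apply, ← map_mul, ← map_mul, ← hx, inv_mul_cancel_right]
  have fx' : ∀ v, π φ (π x⁻¹ v) = π x (π φ v) := by
    intro v
    have h1 : φ * x⁻¹ = x * φ := by
      have h2 : (φ * x * φ⁻¹)⁻¹ = x := by rw [hx, inv_inv]
      conv_rhs => rw [← h2]
      group
    rw [← End.mul_apply, ← End.mul_apply, ← map_mul, ← map_mul, h1]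
  have fy : ∀ v, π φ (π y v) = π y⁻¹ (π φ v) := by
    intro v
    rw [← End.mul_apply, ← End.mul_apply, ← map_mul, ← map_mul, ← hyφ, inv_mul_cancel_right]
  have fy' : ∀ v, π φ (π y⁻¹ v) = π y (π φ v) := by
    intro v
    have h1 : φ * y⁻¹ = y * φ := by
      have h2 : (φ * y * φ⁻¹)⁻¹ = y := by rw [hyφ, inv_inv]
      conv_rhs => rw [← h2]
      group
    rw [← End.mul_apply, ← End.mul_apply, ← map_mul, ← map_mul, h1]
  have fφ : ∀ v, π φ (π φ v) = v := by
    intro v
    rw [← End.mul_apply, ← map_mul, hφ2, map_one, End.one_apply]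
  have gx : ∀ v, π y (π ψ v) = π ψ (π x v) := by
    intro v
    rw [← End.mul_apply, ← End.mul_apply, ← map_mul, ← map_mul, hy, inv_mul_cancel_right]
  have gx' : ∀ v, π y⁻¹ (π ψ v) = π ψ (π x⁻¹ v) := by
    intro v
    rw [← End.mul_apply, ← End.mul_apply, ← map_mul, ← map_mul, hy]
    congr 2
    group
  have gy : ∀ v, π x⁻¹ (π ψ v) = π ψ (π y v) := by
    intro v
    rw [← End.mul_apply, ← End.mul_apply, ← map_mul, ← map_mul, ← hψy, inv_mul_cancel_right]
  -- inverses commute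
  have cxy : ∀ v, π x (π y⁻¹ v) = π y⁻¹ (π x v) := by
    intro v
    have h1 := hcomm (π y⁻¹ v)
    rw [cancel] at h1
    rw [h1, cancel']
  have cxy' : ∀ v, π x⁻¹ (π y v) = π y (π x⁻¹ v) := by
    intro v
    have h1 := hcomm (π x⁻¹ v)
    rw [cancel] at h1
    rw [← h1, cancel']
  have cxy'' : ∀ v, π x⁻¹ (π y⁻¹ v) = π y⁻¹ (π x⁻¹ v) := by
    intro v
    have h1 := cxy (π x⁻¹ v)
    rw [cancel] at h1
    rw [← h1, cancel']
  have cxx : ∀ v, π x (π x⁻¹ v) = π x⁻¹ (π x v) := fun v => by rw [cancel, cancel']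
  have cyy : ∀ v, π y (π y⁻¹ v) = π y⁻¹ (π y v) := fun v => by rw [cancel, cancel']
  -- the operator `D`
  let D : End k E := π x + π x⁻¹ - π y - π y⁻¹
  have hD : ∀ v, D v = π x v + π x⁻¹ v - π y v - π y⁻¹ v := fun v => rfl
  have d1 : ∀ v, π φ v = v → D v = 0 := by
    intro v hv
    have h1 := hfix v hv
    have h2 : π φ (π x v + π x⁻¹ v) = π x v + π x⁻¹ v := by
      rw [map_add, fx, fx', hv, add_comm]
    have h3 := hfix _ h2
    have h4 : π y v = π ψ (π x v) := by rw [← gx, h1]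
    have h5 : π y⁻¹ v = π ψ (π x⁻¹ v) := by rw [← gx', h1]
    rw [hD, h4, h5, sub_sub, ← map_add, h3, sub_self]
  have d2 : ∀ v, π φ (D v) = D (π φ v) := by
    intro v
    rw [hD, hD, map_sub, map_sub, map_add, fx, fx', fy, fy']
    abel
  have d3 : ∀ v, π φ (D v) = - D v := by
    intro v
    have h1 : D (v + π φ v) = 0 := by
      apply d1
      rw [map_add, fφ, add_comm]
    rw [map_add] at h1
    rw [d2]
    exact (neg_eq_of_add_eq_zero_right h1).symm
  have d4 : ∀ v, π x (D v) = D (π x v) := by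
    intro v
    rw [hD, hD, map_sub, map_sub, map_add, cxx, hcomm, cxy]
  have d4' : ∀ v, π y (D v) = D (π y v) := by
    intro v
    rw [hD, hD, map_sub, map_sub, map_add, ← hcomm, ← cxy', cyy]
  have d5 : ∀ v, π x (D v) = D v := by
    intro v
    apply eq_of_sq hr hxr
    have h1 : π φ (π x (D v)) = - π x (D v) := by rw [d4, d3]
    rw [fx, d3, map_neg, neg_inj] at h1
    conv_lhs => rw [← h1]
    rw [cancel]
  have d6 : ∀ v, π y (D v) = D v := by
    intro v
    apply eq_of_sq hr hyr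
    have h1 : π φ (π y (D v)) = - π y (D v) := by rw [d4', d3]
    rw [fy, d3, map_neg, neg_inj] at h1
    conv_lhs => rw [← h1]
    rw [cancel]
  have d8 : ∀ v, D v = 0 := by
    intro v
    have h1 : N π x r (N π y r (D v)) = (r : k) • (r : k) • D v := by
      rw [N_of_fixed (d6 v)]
      have h2 : π x ((r : k) • D v) = (r : k) • D v := by rw [map_smul, d5]
      rw [N_of_fixed h2]
    have h2 : N π x r (N π y r (D v)) = D (N π x r (N π y r v)) := by
      rw [N_comm (T := D) (fun v => d4' v), N_comm (T := D) (fun v => d4 v)]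
    have h3 : π x (N π x r (N π y r v)) = N π x r (N π y r v) := N_fixed π hxr _
    have h4 : π y (N π x r (N π y r v)) = N π x r (N π y r v) := by
      rw [← N_comm (T := π y) (fun v => hcomm v), N_fixed π hyr]
    have h3' : π x⁻¹ (N π x r (N π y r v)) = N π x r (N π y r v) := by
      conv_lhs => rw [← h3]
      rw [cancel']
    have h4' : π y⁻¹ (N π x r (N π y r v)) = N π x r (N π y r v) := by
      conv_lhs => rw [← h4]
      rw [cancel']
    have h5 : D (N π x r (N π y r v)) = 0 := by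
      rw [hD, h3, h3', h4, h4']; abel
    rw [h2, h5] at h1
    rcases smul_eq_zero.1 h1.symm with h6 | h6
    · exact absurd h6 hrk
    · rcases smul_eq_zero.1 h6 with h7 | h7
      · exact absurd h7 hrk
      · exact h7
  -- `U`
  have hU : ∀ u, π x (π y u) = u → π x u = u := by
    intro u hu
    have key : ∀ u, π x (π y u) = u → π x (u + π φ u) = u + π φ u := by
      intro u hu
      have hyu : π y u = π x⁻¹ u := by
        conv_rhs => rw [← hu]
        rw [cancel']
      have h1 : π x (π y (π φ u)) = π φ u := by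
        have h2 : π x⁻¹ (π y⁻¹ u) = u := by
          have h3 : π y⁻¹ (π x⁻¹ u) = u := by rw [← hyu, cancel']
          rw [cxy'', h3]
        conv_rhs => rw [← h2]
        rw [fx', fy']
      set g := u + π φ u with hg
      have h2 : π x (π y g) = g := by rw [hg, map_add, map_add, hu, h1]
      have h3 : π φ g = g := by rw [hg, map_add, fφ, add_comm]
      have h4 := hfix g h3
      have h5 : π y g = π x⁻¹ g := by
        conv_rhs => rw [← h2]
        rw [cancel']
      have h6 : π y g = π ψ (π x g) := by rw [← gx, h4]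
      have h7 : π x⁻¹ g = π ψ (π y g) := by rw [← gy, h4]
      have h8 : π ψ (π x g) = π ψ (π x⁻¹ g) :=
        calc π ψ (π x g) = π y g := h6.symm
          _ = π x⁻¹ g := h5
          _ = π ψ (π y g) := h7
          _ = π ψ (π x⁻¹ g) := by rw [h5]
      have h9 : π x g = π x⁻¹ g := by
        rw [← cancel' π ψ (π x g), h8, cancel']
      apply eq_of_sq hr hxr
      rw [h9, cancel]
    have h1 := key u hu
    have h2 := key (π x u) (by rw [← hcomm, hu])
    rw [fx, map_add] at h2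
    rw [map_add] at h1
    -- `h = X²u - u` is fixed by `X`
    have h3 : π x (π x (π x u) - u) = π x (π x u) - u := by
      have h4 : π x⁻¹ (π φ u) = u + π φ u - π x⁻¹ u := by
        have h5 := congrArg (π x⁻¹) h1
        rw [map_add, map_add, cancel', cancel'] at h5
        rw [h5]; abel
      rw [cancel, h4] at h2
      have h5 : π x (π x u) - u = π x u - π x⁻¹ u := by
        have h6 : π x (π x u) = π x u + (u + π φ u - π x⁻¹ u) - π φ u := by rw [← h2]; abel
        rw [h6]; abel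
      have h6 := congrArg (π x) h5
      rw [map_sub, map_sub, cancel] at h6
      rw [map_sub, h6]
    set h := π x (π x u) - u with hh
    have h4 : π x (π x u) = u + h := by rw [hh]; abel
    have h5 : ∀ n : ℕ, π (x ^ (2 * n)) u = u + (n : k) • h := by
      intro n
      induction n with
      | zero => rw [mul_zero, pow_zero, map_one, End.one_apply, Nat.cast_zero, zero_smul, add_zero]
      | succ n ih =>
        have h6 : x ^ (2 * (n + 1)) = x * x * x ^ (2 * n) := by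
          rw [mul_add, mul_one, pow_add, pow_two, ← pow_two, ← pow_add, ← pow_add, add_comm]
        rw [h6, map_mul, End.mul_apply, ih, map_mul, End.mul_apply, map_add, map_add, h4, map_smul,
          map_smul, h3, h3, Nat.cast_succ, add_smul, one_smul]
        abel
    have h6 := h5 r
    have h7 : x ^ (2 * r) = 1 := by rw [mul_comm, pow_mul, hxr, one_pow]
    rw [h7, map_one, End.one_apply] at h6
    have h8 : (r : k) • h = 0 := by
      have h9 : u + (r : k) • h = u + 0 := by rw [← h6, add_zero]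
      exact add_left_cancel h9
    have h9 : h = 0 := by
      rcases smul_eq_zero.1 h8 with h10 | h10
      · exact absurd h10 hrk
      · exact h10
    apply eq_of_sq hr hxr
    rw [h4, h9, add_zero]
  -- `U'`
  have hU' : ∀ u', π x u' = π y u' → π x u' = u' := by
    intro u' hu'
    set u := π ψ⁻¹ u' with hu
    have h0 : u' = π ψ u := by rw [hu, cancel]
    have h1 : π x (π y u) = u := by
      -- `X⁻¹ ψ = ψ Y`, so `π x (π y u)`
      have h2 : π ψ (π x (π y u)) = π ψ u := by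
        rw [← gx, ← gy, ← h0, ← cxy', ← hu', cancel']
      rw [← cancel' π ψ (π x (π y u)), h2, cancel']
    have h2 := hU u h1
    have h3 : π y u = u := by
      have h4 : π x (π y u) = π x u := by rw [h1, h2]
      rw [← cancel' π x (π y u), h4, cancel']
    have h4 : π x⁻¹ u' = u' := by
      rw [h0, gy, h3]
    conv_lhs => rw [← h4]
    rw [cancel]
  -- conclusion
  intro v
  have hXY : (x * y) ^ r = 1 ∨ True := Or.inr trivial
  have hstep : ∀ v, π x (v - π (x * y) v) = v - π (x * y) v := by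
    intro v
    apply hU'
    rw [map_mul, End.mul_apply]
    have h1 := d8 (π x (π y v))
    rw [hD] at h1
    have h2 : π x⁻¹ (π x (π y v)) = π y v := cancel' _ _ _
    have h3 : π y⁻¹ (π x (π y v)) = π x v := by rw [hcomm, cancel']
    rw [h2, h3] at h1
    rw [map_sub, map_sub]
    have h4 : π x v - π x (π x (π y v)) - (π y v - π y (π x (π y v))) = 0 := by
      rw [← neg_eq_zero]
      rw [← h1]; abel
    exact sub_eq_zero.1 h4
  have hpow : ∀ n : ℕ, π x (v - π ((x * y) ^ n) v) = v - π ((x * y) ^ n) v := by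
    intro n
    induction n with
    | zero => rw [pow_zero, map_one, End.one_apply, sub_self, map_zero]
    | succ n ih =>
      have h1 := hstep (π ((x * y) ^ n) v)
      have h2 : π (x * y) (π ((x * y) ^ n) v) = π ((x * y) ^ (n + 1)) v := by
        rw [pow_succ', map_mul π (x * y), End.mul_apply]
      rw [h2] at h1
      have h3 : v - π ((x * y) ^ (n + 1)) v =
          (v - π ((x * y) ^ n) v) + (π ((x * y) ^ n) v - π ((x * y) ^ (n + 1)) v) := by abel
      rw [h3, map_add, ih, h1]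
  -- powers of `x y`
  have hxyn : ∀ n : ℕ, ∀ v, π ((x * y) ^ n) v = π (x ^ n) (π (y ^ n) v) := by
    have hc : ∀ n : ℕ, ∀ v, π y (π (x ^ n) v) = π (x ^ n) (π y v) := by
      intro n
      induction n with
      | zero => intro v; rw [pow_zero, map_one, End.one_apply, End.one_apply]
      | succ n ih => intro v; rw [pow_succ', map_mul, End.mul_apply, ← hcomm, ih, End.mul_apply]
    intro n
    induction n with
    | zero => intro v; rw [pow_zero, pow_zero, pow_zero, map_one, End.one_apply, End.one_apply]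
    | succ n ih =>
      intro v
      rw [pow_succ', map_mul, End.mul_apply, ih, map_mul, End.mul_apply, hc, pow_succ' x,
        pow_succ' y, map_mul, map_mul, End.mul_apply, End.mul_apply]
  have hNfix : π x (π y (N π (x * y) r v)) = N π (x * y) r v := by
    have h1 : ∀ w, π x (π y w) = π (x * y) w := fun w => by rw [map_mul, End.mul_apply]
    rw [h1]
    unfold N
    rw [map_sum]
    have h2 : ∀ n : ℕ, π (x * y) (π ((x * y) ^ n) v) = π ((x * y) ^ (n + 1)) v := by
      intro n; rw [pow_succ', map_mul π (x * y), End.mul_apply]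
    simp only [h2]
    have h3 := Finset.sum_range_succ' (fun n => π ((x * y) ^ n) v) r
    have h4 := Finset.sum_range_succ (fun n => π ((x * y) ^ n) v) r
    rw [h4] at h3
    have h5 : π ((x * y) ^ r) v = v := by
      rw [hxyn, hxr, hyr, map_one, End.one_apply, End.one_apply]
    simp only [pow_zero, h5, map_one, End.one_apply] at h3
    exact (add_right_cancel h3).symm
  have h1 := hU _ hNfix
  have h2 : π x (∑ i ∈ Finset.range r, (v - π ((x * y) ^ i) v)) =
      ∑ i ∈ Finset.range r, (v - π ((x * y) ^ i) v) := by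
    rw [map_sum]
    exact Finset.sum_congr rfl (fun i _ => hpow i)
  rw [Finset.sum_sub_distrib, Finset.sum_const, Finset.card_range, ← Nat.cast_smul_eq_nsmul k,
    map_sub, map_smul] at h2
  have h3 : (r : k) • π x v = (r : k) • v := by
    have h4 : π x (N π (x * y) r v) = ∑ i ∈ Finset.range r, π ((x * y) ^ i) v := h1
    have h5 : π x (∑ i ∈ Finset.range r, π ((x * y) ^ i) v) =
      ∑ i ∈ Finset.range r, π ((x * y) ^ i) v := h4
    rw [h5] at h2
    exact sub_left_injective h2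
  have h4 : (r : k) • (π x v - v) = 0 := by rw [smul_sub, h3, sub_self]
  rcases smul_eq_zero.1 h4 with h5 | h5
  · exact absurd h5 hrk
  · exact sub_eq_zero.1 h5

theorem fixed_of_coprime {π : Representation k G E} {c : G} {r i : ℕ} (hr1 : 1 < r) (hi : i.Coprime r)
    (hc : c ^ r = 1) {v : E} (h : π (c ^ i) v = v) : π c v = v := by
  obtain ⟨l, -, hl⟩ := Nat.exists_mul_mod_eq_one_of_coprime hi hr1
  have h1 : (c ^ i) ^ l = c := by
    rw [← pow_mul, ← Nat.div_add_mod (i * l) r, hl, pow_add, pow_mul, hc, one_pow, one_mul, pow_one]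
  have h2 := pow_fixed h l
  rw [h1] at h2
  exact h2

theorem lemS (π : Representation k G E) [FiniteDimensional k E] {x y c φ ψ : G} {r : ℕ}
    (hrp : r.Prime) (hr : Odd r) (hrk : (r : k) ≠ 0)
    (hφ : φ = ψ * ψ) (hφ2 : φ * φ = 1) (hx : φ * x * φ⁻¹ = x⁻¹) (hy : y = ψ * x * ψ⁻¹)
    (hxr : x ^ r = 1) (hc : c = x * y * x⁻¹ * y⁻¹) (hcx : c * x = x * c) (hcy : c * y = y * c)
    (hcφ : c * φ = φ * c) (hcr : c ^ r = 1)
    (hfix : ∀ e, π φ e = e → π ψ e = e)
    (hdim : finrank k (LinearMap.ker (π φ + 1)) ≤ 2)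
    (hm : ∀ m : k, (∀ e, π φ e = -e → π c e = m • e) → ∀ e, π φ e = -e → π c e = e) :
    ∀ e, π x e = e := by
  have hxy : x * y = c * (y * x) := by rw [hc]; group
  have hNc : ∀ g, c * g = g * c → ∀ v, N π c r (π g v) = π g (N π c r v) := by
    intro g hg v
    apply N_comm (T := π g)
    intro v
    rw [← End.mul_apply, ← End.mul_apply, ← map_mul, ← map_mul, hg]
  have hzero : ∀ v, N π c r v = 0 → π c v = v → v = 0 := by
    intro v h1 h2
    rw [N_of_fixed h2] at h1
    rcases smul_eq_zero.1 h1 with h3 | h3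
    · exact absurd h3 hrk
    · exact h3
  by_cases hE : ∀ v, N π c r v = 0 → v = 0
  · apply comm_case π hr hrk hφ hφ2 hx hy hxr _ hfix
    intro v
    have h1 : ∀ v, π c v = v := by
      intro v
      have h2 : N π c r (π c v - v) = 0 := by
        unfold N
        simp only [map_sub]
        rw [Finset.sum_sub_distrib]
        have h3 := hNc c rfl v
        rw [N_fixed π hcr] at h3
        unfold N at h3
        rw [h3, sub_self]
      exact sub_eq_zero.1 (hE _ h2)
    rw [← End.mul_apply, ← map_mul, hxy, map_mul, End.mul_apply, h1, map_mul, End.mul_apply]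
  exfalso
  push Not at hE
  obtain ⟨e, he, he0⟩ := hE
  have hv : ∃ v₀, N π c r v₀ = 0 ∧ π x v₀ = v₀ ∧ v₀ ≠ 0 := by
    by_contra hcon
    push Not at hcon
    have hcon' : ∀ v, N π c r v = 0 → π x v = v → v = 0 := hcon
    -- conjugates of `x`
    have hconj : ∀ j : ℕ, x * y ^ j = y ^ j * (c ^ j * x) := by
      intro j
      induction j with
      | zero => rw [pow_zero, pow_zero, mul_one, one_mul, one_mul]
      | succ j ih =>
        have h1 : y * c ^ (j + 1) = c ^ (j + 1) * y := ((show Commute c y from hcy).pow_left _).symm.eq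
        calc x * y ^ (j + 1) = (x * y ^ j) * y := by rw [pow_succ, mul_assoc]
          _ = y ^ j * (c ^ j * (x * y)) := by rw [ih]; group
          _ = y ^ j * (c ^ (j + 1) * y * x) := by rw [hxy, pow_succ]; group
          _ = y ^ (j + 1) * (c ^ (j + 1) * x) := by rw [← h1, pow_succ y]; group
    have hcomm : ∀ j : ℕ, Commute (c ^ j) x := fun j => (show Commute c x from hcx).pow_left j
    have hz : ∀ j : ℕ, (c ^ j * x) ^ r = 1 := by
      intro j
      rw [(hcomm j).mul_pow, hxr, mul_one, ← pow_mul, mul_comm, pow_mul, hcr, one_pow]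
    have hcz : ∀ j : ℕ, c * (c ^ j * x) = (c ^ j * x) * c := by
      intro j
      rw [← mul_assoc, ← pow_succ', pow_succ, mul_assoc, hcx, mul_assoc]
    have h0 : ∀ j : ℕ, N π (c ^ j * x) r e = 0 := by
      intro j
      have h1 := N_fixed π (hz j) e
      set n := N π (c ^ j * x) r e with hn
      have h2 : π x (π (y ^ j) n) = π (y ^ j) n := by
        rw [← End.mul_apply, ← map_mul, hconj, map_mul, End.mul_apply, h1]
      have h3 : N π c r n = 0 := by
        have h4 : N π (c ^ j * x) r (N π c r e) = N π c r n := by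
          rw [hn]
          unfold N
          simp only [map_sum]
          have h6 : ∀ a b : ℕ, π ((c ^ j * x) ^ a) (π (c ^ b) e) = π (c ^ b) (π ((c ^ j * x) ^ a) e) := by
            intro a b
            have h5 : Commute (c ^ b) ((c ^ j * x) ^ a) := (show Commute c (c ^ j * x) from hcz j).pow_pow b a
            rw [← End.mul_apply, ← End.mul_apply, ← map_mul, ← map_mul, h5.eq]
          rw [Finset.sum_comm]
          simp only [h6]
        rw [← h4, he]
        unfold N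
        simp
      have h4 : N π c r (π (y ^ j) n) = 0 := by
        rw [hNc (y ^ j) ((show Commute c y from hcy).pow_right j).eq, h3, map_zero]
      have h5 := hcon' _ h4 h2
      have h6 : π (y ^ j)⁻¹ (π (y ^ j) n) = n := cancel' π (y ^ j) n
      rw [← h6, h5, map_zero]
    have hsum : ∑ i ∈ Finset.range r, N π (c ^ i) r (π (x ^ i) e) = 0 := by
      have h1 : ∑ j ∈ Finset.range r, N π (c ^ j * x) r e = 0 := Finset.sum_eq_zero (fun j _ => h0 j)
      rw [← h1]
      unfold N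
      rw [Finset.sum_comm]
      apply Finset.sum_congr rfl
      intro j _
      apply Finset.sum_congr rfl
      intro i _
      rw [← End.mul_apply, ← map_mul, (hcomm j).mul_pow, ← pow_mul, ← pow_mul, mul_comm i j]
    have hr0 : 0 < r := hrp.pos
    have hsplit := Finset.sum_eq_single_of_mem (s := Finset.range r)
      (f := fun i => N π (c ^ i) r (π (x ^ i) e)) 0 (Finset.mem_range.2 hr0) (by
        intro i hi hi0
        have hcop : i.Coprime r :=
          Nat.Coprime.symm ((Nat.Prime.coprime_iff_not_dvd hrp).2 (fun h =>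
            absurd (Nat.le_of_dvd (Nat.pos_of_ne_zero hi0) h) (not_le.2 (Finset.mem_range.1 hi))))
        have h1 : (c ^ i) ^ r = 1 := by rw [← pow_mul, mul_comm, pow_mul, hcr, one_pow]
        have h2 := N_fixed π h1 (π (x ^ i) e)
        have h3 := fixed_of_coprime hrp.one_lt hcop hcr h2
        apply hzero _ _ h3
        unfold N
        simp only [map_sum]
        rw [Finset.sum_comm]
        apply Finset.sum_eq_zero
        intro a _
        have h5 : ∀ b : ℕ, π (c ^ b) (π ((c ^ i) ^ a) (π (x ^ i) e)) =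
            π ((c ^ i) ^ a) (π (x ^ i) (π (c ^ b) e)) := by
          intro b
          have h6 : c ^ b * ((c ^ i) ^ a * x ^ i) = (c ^ i) ^ a * x ^ i * c ^ b := by
            have h7 : Commute (c ^ b) ((c ^ i) ^ a) := by
              rw [← pow_mul]; exact Commute.pow_pow_self c b (i * a)
            have h8 : Commute (c ^ b) (x ^ i) := (show Commute c x from hcx).pow_pow b i
            exact (h7.mul_right h8).eq
          simp only [← End.mul_apply, ← map_mul]
          rw [h6]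
          simp only [mul_assoc]
        simp only [h5]
        rw [← map_sum, ← map_sum]
        have h9 : ∑ b ∈ Finset.range r, π (c ^ b) e = 0 := he
        rw [h9, map_zero, map_zero])
    rw [hsplit] at hsum
    have h1 : N π (c ^ 0) r (π (x ^ 0) e) = (r : k) • e := by
      rw [pow_zero, pow_zero, map_one, End.one_apply]
      exact N_of_fixed (by rw [map_one, End.one_apply])
    rw [h1] at hsum
    rcases smul_eq_zero.1 hsum with h3 | h3
    · exact hrk h3
    · exact he0 h3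
  obtain ⟨v₀, hv1, hv2, hv3⟩ := hv
  -- relations
  have hφψ : φ * ψ = ψ * φ := by rw [hφ]; group
  have hyφ : φ * y * φ⁻¹ = y⁻¹ := by
    have h1 : φ * y * φ⁻¹ = ψ * (φ * x * φ⁻¹) * ψ⁻¹ := by
      rw [hy]
      calc φ * (ψ * x * ψ⁻¹) * φ⁻¹ = (φ * ψ) * x * (φ * ψ)⁻¹ := by group
        _ = ψ * (φ * x * φ⁻¹) * ψ⁻¹ := by rw [hφψ]; group
    rw [h1, hx, hy]; group
  have fy : ∀ v, π φ (π y v) = π y⁻¹ (π φ v) := by
    intro v
    rw [← End.mul_apply, ← End.mul_apply, ← map_mul, ← map_mul, ← hyφ, inv_mul_cancel_right]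
  have fy' : ∀ v, π φ (π y⁻¹ v) = π y (π φ v) := by
    intro v
    have h1 : φ * y⁻¹ = y * φ := by
      have h2 : (φ * y * φ⁻¹)⁻¹ = y := by rw [hyφ, inv_inv]
      conv_rhs => rw [← h2]
      group
    rw [← End.mul_apply, ← End.mul_apply, ← map_mul, ← map_mul, h1]
  have fφ : ∀ v, π φ (π φ v) = v := by
    intro v
    rw [← End.mul_apply, ← map_mul, hφ2, map_one, End.one_apply]
  -- `φ v₀ = - v₀`
  have hv4 : π φ v₀ = -v₀ := by
    have h1 : π x (π φ v₀) = π φ v₀ := by
      have h2 : x * φ = φ * x⁻¹ := by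
        have h3 : (φ * x * φ⁻¹)⁻¹ = x := by rw [hx, inv_inv]
        conv_lhs => rw [← h3]
        group
      have h4 : π x⁻¹ v₀ = v₀ := by
        conv_lhs => rw [← hv2]
        rw [cancel']
      rw [← End.mul_apply, ← map_mul, h2, map_mul, End.mul_apply, h4]
    have h2 : π φ (v₀ + π φ v₀) = v₀ + π φ v₀ := by rw [map_add, fφ, add_comm]
    have h3 := hfix _ h2
    have h4 : π x (v₀ + π φ v₀) = v₀ + π φ v₀ := by rw [map_add, hv2, h1]
    set g := v₀ + π φ v₀ with hg
    have h5 : π ψ⁻¹ g = g := by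
      conv_lhs => rw [← h3]
      rw [cancel']
    have h6 : π y g = g := by
      rw [hy, map_mul, End.mul_apply, h5, map_mul, End.mul_apply, h4, h3]
    have h7 : π x⁻¹ g = g := by
      conv_lhs => rw [← h4]
      rw [cancel']
    have h8 : π y⁻¹ g = g := by
      conv_lhs => rw [← h6]
      rw [cancel']
    have h9 : π c g = g := by
      rw [hc, map_mul, End.mul_apply, h8, map_mul, End.mul_apply, h7, map_mul, End.mul_apply, h6, h4]
    have h10 : N π c r g = 0 := by
      have h11 : N π c r (π φ v₀) = 0 := by rw [hNc φ hcφ, hv1, map_zero]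
      have h12 : N π c r g = N π c r v₀ + N π c r (π φ v₀) := by
        rw [hg]
        unfold N
        simp only [map_add]
        rw [Finset.sum_add_distrib]
      rw [h12, hv1, h11, add_zero]
    have h11 := hzero g h10 h9
    rw [hg] at h11
    exact (neg_eq_of_add_eq_zero_right h11).symm
  -- `w`
  set w := π y⁻¹ v₀ + π y v₀ with hw
  have hφw : π φ w = -w := by
    rw [hw, map_add, fy', fy, hv4, map_neg, map_neg]
    abel
  have hxyv : π x (π y v₀) = π c (π y v₀) := by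
    rw [← End.mul_apply, ← map_mul, hxy, map_mul, End.mul_apply, map_mul, End.mul_apply, hv2]
  have hxyv' : π x (π y⁻¹ v₀) = π c⁻¹ (π y⁻¹ v₀) := by
    have h1 : x * y⁻¹ = c⁻¹ * (y⁻¹ * x) := by
      have h2 : y⁻¹ * c⁻¹ = c⁻¹ * y⁻¹ := by
        rw [← mul_inv_rev, ← mul_inv_rev, hcy]
      have h3 : y * x = c⁻¹ * (x * y) := by rw [hxy]; group
      calc x * y⁻¹ = y⁻¹ * (y * x) * y⁻¹ := by group
        _ = (y⁻¹ * c⁻¹) * x := by rw [h3]; group
        _ = c⁻¹ * (y⁻¹ * x) := by rw [h2]; group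
    rw [← End.mul_apply, ← map_mul, h1, map_mul, End.mul_apply, map_mul, End.mul_apply, hv2]
  have hxw : π x w ≠ w := by
    intro h1
    rw [hw, map_add, hxyv, hxyv'] at h1
    -- `g = c⁻¹ y⁻¹ v₀ - y v₀`
    set g := π c⁻¹ (π y⁻¹ v₀) - π y v₀ with hg
    have h2 : π c g = g := by
      rw [hg, map_sub, cancel]
      have h3 : π c⁻¹ (π y⁻¹ v₀) + π c (π y v₀) - (π y⁻¹ v₀ + π y v₀) = 0 := by
        rw [h1, sub_self]
      have h4 : π y⁻¹ v₀ - π c (π y v₀) - (π c⁻¹ (π y⁻¹ v₀) - π y v₀) = 0 := by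
        rw [← neg_eq_zero, ← h3]; abel
      exact sub_eq_zero.1 h4
    have hciy : c * y⁻¹ = y⁻¹ * c := by
      have h5 : Commute c y := hcy
      exact h5.inv_right.eq
    have h3 : N π c r g = 0 := by
      have h4 : N π c r g = N π c r (π c⁻¹ (π y⁻¹ v₀)) - N π c r (π y v₀) := by
        rw [hg]
        unfold N
        simp only [map_sub]
        rw [Finset.sum_sub_distrib]
      rw [h4, hNc c⁻¹ (by rw [mul_inv_cancel, inv_mul_cancel]), hNc y⁻¹ hciy, hNc y hcy, hv1,
        map_zero, map_zero, map_zero, sub_zero]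
    have h4 := hzero g h3 h2
    have h5 : π c⁻¹ (π y⁻¹ v₀) = π y v₀ := sub_eq_zero.1 h4
    -- `v₀ = c y y v₀`
    have h6 : π c (π y (π y v₀)) = v₀ := by
      have h7 : π (c * y) (π y v₀) = v₀ := by
        rw [← h5, ← End.mul_apply, ← End.mul_apply, ← map_mul, ← map_mul]
        have h8 : c * y * c⁻¹ * y⁻¹ = 1 := by rw [hcy]; group
        rw [h8, map_one, End.one_apply]
      rw [← End.mul_apply, ← map_mul]
      exact h7
    have h7 : π c (π c v₀) = v₀ := by
      have h8 : π x (π c (π y (π y v₀))) = π c (π c (π c (π y (π y v₀)))) := by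
        have h9 : x * (c * (y * y)) = c * (c * (c * (y * (y * x)))) := by
          calc x * (c * (y * y)) = (c * x) * y * y := by rw [hcx]; group
            _ = c * (x * y) * y := by group
            _ = c * (c * (y * x)) * y := by rw [hxy]
            _ = c * c * y * (x * y) := by group
            _ = c * c * y * (c * (y * x)) := by rw [hxy]
            _ = c * c * (y * c) * y * x := by group
            _ = c * (c * (c * (y * (y * x)))) := by rw [← hcy]; group
        have h10 : π x (π c (π y (π y v₀))) = π (x * (c * (y * y))) v₀ := by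
          simp only [map_mul, End.mul_apply]
        rw [h10, h9]
        simp only [map_mul, End.mul_apply, hv2]
      rw [h6, hv2] at h8
      exact h8.symm
    exact hv3 (hzero v₀ hv1 (eq_of_sq hr hcr h7))
  -- independence
  have hli : LinearIndependent k ![v₀, w] := by
    rw [LinearIndependent.pair_iff]
    intro a b hab
    have h1 := congrArg (π x) hab
    rw [map_add, map_smul, map_smul, hv2, map_zero] at h1
    have h2 : b • (π x w - w) = 0 := by
      rw [smul_sub]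
      have h3 : a • v₀ + b • π x w - (a • v₀ + b • w) = 0 := by rw [h1, hab, sub_zero]
      rw [← h3]; abel
    have h3 : b = 0 := by
      rcases smul_eq_zero.1 h2 with h4 | h4
      · exact h4
      · exact absurd (sub_eq_zero.1 h4) hxw
    rw [h3, zero_smul, add_zero] at hab
    rcases smul_eq_zero.1 hab with h4 | h4
    · exact ⟨h4, h3⟩
    · exact absurd h4 hv3
  have hmemK : ∀ e, e ∈ LinearMap.ker (π φ + 1) ↔ π φ e = -e := by
    intro e
    rw [LinearMap.mem_ker, LinearMap.add_apply, End.one_apply]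
    constructor
    · intro h; exact eq_neg_of_add_eq_zero_left h
    · intro h; rw [h, neg_add_cancel]
  have hspan : Submodule.span k (Set.range ![v₀, w]) = LinearMap.ker (π φ + 1) := by
    apply Submodule.eq_of_le_of_finrank_le
    · rw [Submodule.span_le]
      rintro _ ⟨i, rfl⟩
      fin_cases i
      · exact (hmemK _).2 hv4
      · exact (hmemK _).2 hφw
    · rw [finrank_span_eq_card hli]
      exact hdim
  have hmem2 : ∀ e, π φ e = -e → ∃ a b : k, a • v₀ + b • w = e := by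
    intro e he
    have h1 := (hmemK e).2 he
    rw [← hspan, Matrix.range_cons, Matrix.range_cons, Matrix.range_empty, Set.union_empty,
      Set.singleton_union] at h1
    exact Submodule.mem_span_pair.1 h1
  -- `c` is a scalar
  have hcφ' : ∀ e, π φ (π c e) = π c (π φ e) := by
    intro e
    rw [← End.mul_apply, ← End.mul_apply, ← map_mul, ← map_mul, hcφ]
  obtain ⟨a, b, hab⟩ := hmem2 (π c v₀) (by rw [hcφ', hv4, map_neg])
  have hb : b = 0 := by
    have h1 : π x (π c v₀) = π c v₀ := by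
      rw [← End.mul_apply, ← map_mul, ← hcx, map_mul, End.mul_apply, hv2]
    rw [← hab, map_add, map_smul, map_smul, hv2] at h1
    have h2 : b • (π x w - w) = 0 := by
      rw [smul_sub, sub_eq_zero]
      exact add_left_cancel h1
    rcases smul_eq_zero.1 h2 with h4 | h4
    · exact h4
    · exact absurd (sub_eq_zero.1 h4) hxw
  rw [hb, zero_smul, add_zero] at hab
  have hcw : π c w = a • w := by
    have h1 : ∀ v, π c (π y v) = π y (π c v) := by
      intro v
      rw [← End.mul_apply, ← End.mul_apply, ← map_mul, ← map_mul, hcy]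
    have h2 : ∀ v, π c (π y⁻¹ v) = π y⁻¹ (π c v) := by
      intro v
      have h5 : c * y⁻¹ = y⁻¹ * c := ((show Commute c y from hcy).inv_right).eq
      rw [← End.mul_apply, ← End.mul_apply, ← map_mul, ← map_mul, h5]
    rw [hw, map_add, h1, h2, ← hab, map_smul, map_smul, smul_add]
  have hfin := hm a (by
    intro e he
    obtain ⟨a', b', hab'⟩ := hmem2 e he
    rw [← hab', map_add, map_smul, map_smul, hcw, ← hab, smul_comm b' a, smul_comm a' a,
      ← smul_add]) v₀ hv4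
  exact hv3 (hzero v₀ hv1 hfin)

end Cfsg.Agent.H452.LemS
end

-- part: H452/LemF
section
/-!
# The action on the Frattini quotient, 2-group case

`lemF` : `P` an `r`-group, `σ` of order `2 ^ (m + 1)`, `m ≥ 1`, normalising `P` minimally; all vectors fixed by
`φ = σ ^ 2 ^ m` are fixed by `σ`, the `-1`-eigenspace of `φ` has dimension at most 2 and elements of `P` acting on it as
scalars are trivial on it. Then `⁅P, ⟨φ⟩⁆` acts trivially.
-/

set_option autoImplicit false

namespace Cfsg.Agent.H452.LemF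

open Module
open scoped commutatorElement
open Cfsg.Agent.H452.MinAct Cfsg.Agent.H452.LemS

variable {G : Type*} [Group G] [Finite G] {k : Type*} [Field k] {E : Type*} [AddCommGroup E]
  [Module k E] [FiniteDimensional k E]

/-- order `r`-power elements whose square is trivial -/
theorem eq_one_of_two {r : ℕ} (hr : r.Prime) (hr2 : r ≠ 2) {P : Subgroup G}
    (hP : IsPGroup r P) {x : G} (hx : x ∈ P) (h : x * x = 1) : x = 1 := by
  obtain ⟨n, hn⟩ := hP ⟨x, hx⟩
  have hn' : x ^ r ^ n = 1 := congrArg Subtype.val hn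
  have h1 : orderOf x ∣ r ^ n := orderOf_dvd_of_pow_eq_one hn'
  have h2 : orderOf x ∣ 2 := orderOf_dvd_of_pow_eq_one (by rw [pow_two, h])
  have h3 : (r ^ n).Coprime 2 := Nat.Coprime.pow_left n ((Nat.coprime_primes hr Nat.prime_two).2 hr2)
  have h4 : orderOf x ∣ 1 := by
    have := Nat.dvd_gcd h1 h2
    rwa [h3] at this
  exact orderOf_eq_one_iff.1 (Nat.dvd_one.1 h4)

theorem lemF (π : Representation k G E) {σ : G} {m : ℕ} (hm : 1 ≤ m) {P : Subgroup G} {r : ℕ}
    (hr : r.Prime) (hr2 : r ≠ 2) (hP : IsPGroup r P) (hrk : (r : k) ≠ 0)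
    (hσ : σ ^ 2 ^ (m + 1) = 1)
    (hσP : Subgroup.zpowers σ ≤ Subgroup.normalizer (P : Set G))
    (hmin : ∀ H : Subgroup G, H ≤ P → H ≠ P → Subgroup.zpowers σ ≤ Subgroup.normalizer (H : Set G) →
      ⁅H, Subgroup.zpowers (σ ^ 2 ^ m)⁆ = ⊥)
    (hfix : ∀ e, π (σ ^ 2 ^ m) e = e → π σ e = e)
    (hdim : finrank k (LinearMap.ker (π (σ ^ 2 ^ m) + 1)) ≤ 2)
    (hform : ∀ c ∈ P, ∀ μ : k, (∀ e, π (σ ^ 2 ^ m) e = -e → π c e = μ • e) →
      ∀ e, π (σ ^ 2 ^ m) e = -e → π c e = e) :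
    ∀ u ∈ (⁅P, Subgroup.zpowers (σ ^ 2 ^ m)⁆ : Subgroup G), π u = 1 := by
  have hrf : Fact r.Prime := ⟨hr⟩
  have h2f : Fact (Nat.Prime 2) := ⟨Nat.prime_two⟩
  set φ := σ ^ 2 ^ m with hφdef
  by_cases hne : ⁅P, Subgroup.zpowers φ⁆ = ⊥
  · intro u hu
    rw [hne, Subgroup.mem_bot] at hu
    rw [hu, map_one]
  have hφ2 : φ * φ = 1 := by
    rw [hφdef, ← pow_add, ← two_mul, ← pow_succ', hσ]
  have hrY : ¬ r ∣ Nat.card (Subgroup.zpowers φ) := by
    obtain ⟨j, hj⟩ := IsPGroup.iff_card.1 ((T2.isPGroup_zpowers hσ).to_le (T2.pow_mem_zpowers σ (2 ^ m)))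
    rw [hj]
    intro hd
    exact hr2 ((Nat.prime_dvd_prime_iff_eq hr Nat.prime_two).1 (hr.dvd_of_dvd_pow hd))
  obtain ⟨h1, h2, h3, h4, h5⟩ := minAct hP (T2.pow_mem_zpowers σ (2 ^ m))
    (T2.zpowers_le_normalizer_pow σ (2 ^ m)) hσP hrY hmin hne
  -- `⁅P, P⁆` is central and centralised by `φ`
  have hPPφ : ∀ x ∈ (⁅P, P⁆ : Subgroup G), x * φ = φ * x := by
    intro x hx
    by_cases hab : ⁅P, P⁆ = ⊥
    · rw [hab, Subgroup.mem_bot] at hx
      rw [hx, one_mul, mul_one]
    · exact (mem_inf_centralizer.1 (h5 hab (h2 hx))).2 φ (Subgroup.mem_zpowers φ)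
  have hPPP : ∀ x ∈ (⁅P, P⁆ : Subgroup G), ∀ y ∈ P, x * y = y * x :=
    fun x hx => (mem_inf_centralizer.1 (h2 hx)).2
  have hσmem : ∀ g ∈ Subgroup.zpowers σ, ∀ x ∈ P, g * x * g⁻¹ ∈ P :=
    fun g hg x hx => conj_of_le_normalizer hσP hg hx
  have hφmem : φ ∈ Subgroup.zpowers σ := Subgroup.pow_mem _ (Subgroup.mem_zpowers σ) _
  have hφinv : φ⁻¹ = φ := by rw [inv_eq_iff_mul_eq_one, hφ2]
  have hodd : Odd r := hr.odd_of_ne_two hr2
  -- generators
  have key : ∀ g ∈ P, π (⁅g, φ⁆) = 1 := by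
    intro g hg
    set x := ⁅g, φ⁆ with hxdef
    have hxe : x = g * (φ * g⁻¹ * φ⁻¹) := by rw [hxdef, commutatorElement_def]; group
    have hxP : x ∈ P := by
      rw [hxe]
      exact P.mul_mem hg (hσmem φ hφmem _ (P.inv_mem hg))
    have hx : φ * x * φ⁻¹ = x⁻¹ := by
      have h6 : φ * x * φ⁻¹ = φ * g * φ⁻¹ * (φ * φ) * g⁻¹ * (φ⁻¹ * φ⁻¹) := by rw [hxe]; group
      have h7 : x⁻¹ = φ * g * φ⁻¹ * g⁻¹ := by rw [hxe]; group
      rw [h6, h7, hφ2, ← mul_inv_rev, hφ2, inv_one, mul_one, mul_one]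
    have hxr : x ^ r = 1 := by
      have h6 := h4 x hxP
      apply eq_one_of_two hr hr2 hP (P.pow_mem hxP r)
      have h7 := hPPφ _ h6
      have h8 : φ * x ^ r * φ⁻¹ = (x ^ r)⁻¹ := by
        rw [← conj_pow, hx, inv_pow]
      rw [← h7, mul_inv_cancel_right] at h8
      conv_lhs =>
        lhs
        rw [h8]
      exact inv_mul_cancel _
    set ψ := σ ^ 2 ^ (m - 1) with hψdef
    have hψφ : φ = ψ * ψ := by
      rw [hψdef, hφdef, ← pow_add, ← two_mul, ← pow_succ']
      congr 2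
      omega
    have hψmem : ψ ∈ Subgroup.zpowers σ := Subgroup.pow_mem _ (Subgroup.mem_zpowers σ) _
    set y := ψ * x * ψ⁻¹ with hydef
    have hyP : y ∈ P := hσmem ψ hψmem x hxP
    set c := x * y * x⁻¹ * y⁻¹ with hcdef
    have hcPP : c ∈ (⁅P, P⁆ : Subgroup G) := by
      have := Subgroup.commutator_mem_commutator hxP hyP
      rwa [commutatorElement_def] at this
    have hcP : c ∈ P := by
      rw [hcdef]
      exact P.mul_mem (P.mul_mem (P.mul_mem hxP hyP) (P.inv_mem hxP)) (P.inv_mem hyP)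
    have hcx := hPPP c hcPP x hxP
    have hcy := hPPP c hcPP y hyP
    have hcr : c ^ r = 1 := by
      have h6 : y⁻¹ * x * y = c * x := by
        have h7 : x * y = c * (y * x) := by rw [hcdef]; group
        rw [mul_assoc, h7, ← mul_assoc y⁻¹, ← mul_assoc, ← (show Commute c y⁻¹ from
          (show Commute c y from hcy).inv_right).eq]
        group
      have h8 : (y⁻¹ * x * y) ^ r = 1 := by
        have h9 : (y⁻¹ * x * y⁻¹⁻¹) ^ r = y⁻¹ * x ^ r * y⁻¹⁻¹ := conj_pow
        rw [inv_inv] at h9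
        rw [h9, hxr, mul_one, inv_mul_cancel]
      rw [h6, (show Commute c x from hcx).mul_pow, hxr, mul_one] at h8
      exact h8
    have h6 := lemS π hr hodd hrk hψφ hφ2 hx hydef hxr hcdef hcx hcy (hPPφ c hcPP) hcr (by
      intro e he
      have h7 := hfix e he
      rw [hψdef]
      exact pow_fixed h7 _) hdim (hform c hcP)
    ext e
    rw [End.one_apply]
    exact h6 e
  -- the kernel
  let K : Subgroup G := MonoidHom.ker π
  have hle : ⁅P, Subgroup.zpowers φ⁆ ≤ K := by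
    rw [Subgroup.commutator_le]
    intro g hg a ha
    obtain ⟨i, hi⟩ := ha
    have hi' : φ ^ i = a := hi
    rcases Int.even_or_odd i with ⟨j, hj⟩ | ⟨j, hj⟩
    · have h6 : a = 1 := by
        rw [← hi', hj, ← two_mul, zpow_mul]
        have : φ ^ (2 : ℤ) = 1 := by
          have h7 : φ ^ (2 : ℤ) = φ * φ := by rw [zpow_two]
          rw [h7, hφ2]
        rw [this, one_zpow]
      rw [h6, commutatorElement_one_right]
      exact K.one_mem
    · have h6 : a = φ := by
        rw [← hi', hj, zpow_add, zpow_mul, zpow_one]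
        have : φ ^ (2 : ℤ) = 1 := by
          have h7 : φ ^ (2 : ℤ) = φ * φ := by rw [zpow_two]
          rw [h7, hφ2]
        rw [this, one_zpow, one_mul]
      rw [h6]
      exact MonoidHom.mem_ker.2 (key g hg)
  intro u hu
  exact MonoidHom.mem_ker.1 (hle hu)

end Cfsg.Agent.H452.LemF
end

-- part: H452/PowTwo
section
/-!
# `2 ^ n - 1 = s ^ d` and a bounded reduction to irreducible modules
-/

set_option autoImplicit false

namespace Cfsg.Agent.H452.PowTwo

open Module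
open Cfsg.Agent.H452.Red

universe u

theorem odd_geom {s : ℕ} (hs : Odd s) (e : ℕ) :
    ∃ q : ℕ, s ^ (2 * e + 1) + 1 = (s + 1) * q ∧ Odd q ∧ (1 ≤ e → 2 ≤ s → 2 ≤ q) := by
  induction e with
  | zero => exact ⟨1, by ring, odd_one, fun h => absurd h (by norm_num)⟩
  | succ e ih =>
    obtain ⟨q, hq, hqo, -⟩ := ih
    obtain ⟨t, ht⟩ := hs
    have hs1 : 1 ≤ s := by omega
    have hq1 : 1 ≤ s ^ (2 * e + 1) := Nat.one_le_pow _ _ hs1
    have hqp : 1 ≤ q := by
      rcases Nat.eq_zero_or_pos q with h | h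
      · rw [h, mul_zero] at hq; omega
      · exact h
    -- `s ^ (2e+3) + 1 = s ^ 2 (s ^ (2e+1) + 1) - (s ^ 2 - 1)`
    refine ⟨s ^ 2 * q - (s - 1), ?_, ?_, ?_⟩
    · have h1 : s - 1 ≤ s ^ 2 * q := by nlinarith [Nat.sub_le s 1]
      zify [h1, hs1] at hq ⊢
      have h2 : (s : ℤ) ^ (2 * (e + 1) + 1) = (s : ℤ) ^ 2 * (s : ℤ) ^ (2 * e + 1) := by ring
      rw [h2]
      linear_combination (s : ℤ) ^ 2 * hq
    · have h1 : s - 1 ≤ s ^ 2 * q := by nlinarith [Nat.sub_le s 1]
      obtain ⟨w, hw⟩ := hqo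
      rw [Nat.odd_iff]
      have h3 : s ^ 2 * q = 2 * (2 * t * (t + 1) * (2 * w + 1) + w) + 1 := by
        rw [ht, hw]; ring
      have h4 : s - 1 = 2 * t := by omega
      rw [h3, h4] at h1 ⊢
      omega
    · intro _ hs2
      have h5 : 4 ≤ s ^ 2 := by nlinarith
      have h6 : s ^ 2 ≤ s ^ 2 * q := Nat.le_mul_of_pos_right _ hqp
      have h7 : s + 1 ≤ s ^ 2 := by nlinarith
      omega

theorem eq_one_of_pow {n s d : ℕ} (hs : Odd s) (hn : 2 ≤ n) (h : 2 ^ n = s ^ d + 1) : d = 1 := by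
  rcases Nat.even_or_odd d with ⟨e, he⟩ | ⟨e, he⟩
  · exfalso
    -- modulo 4
    have h1 : s ^ d % 4 = 1 := by
      rw [he, ← two_mul, pow_mul]
      have h2 : s ^ 2 % 4 = 1 := by
        obtain ⟨t, ht⟩ := hs
        have : s ^ 2 = 4 * (t * (t + 1)) + 1 := by rw [ht]; ring
        omega
      rw [Nat.pow_mod, h2, one_pow]
      norm_num
    have h2 : 2 ^ n % 4 = 0 := by
      obtain ⟨l, rfl⟩ := Nat.exists_eq_add_of_le hn
      rw [pow_add]
      omega
    omega
  · by_contra hd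
    have he1 : 1 ≤ e := by omega
    obtain ⟨q, hq, hqo, hq2⟩ := odd_geom hs e
    have hs2 : 2 ≤ s := by
      by_contra hcon
      have hs1 : s = 1 := by
        obtain ⟨t, ht⟩ := hs
        omega
      rw [hs1, one_pow] at h
      obtain ⟨l, rfl⟩ := Nat.exists_eq_add_of_le hn
      rw [pow_add] at h
      have := Nat.one_le_two_pow (n := l)
      omega
    have h2 := hq2 he1 hs2
    have h3 : q ∣ 2 ^ n := by
      rw [h, he, hq]
      exact Dvd.intro_left _ rfl
    have h4 : q.Coprime (2 ^ n) := Nat.Coprime.pow_right n (Nat.coprime_two_right.2 hqo)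
    have h5 : q ∣ 1 := by
      have := Nat.dvd_gcd (dvd_refl q) h3
      rwa [h4] at this
    have := Nat.le_of_dvd Nat.one_pos h5
    omega

theorem index_sq {m s a : ℕ} (hs : s.Prime) (hm : 1 ≤ m) (h : (2 ^ (m + 1) - 1) ^ 2 = s ^ a) :
    s ^ a = s ^ 2 := by
  have h1 : 2 ^ (m + 1) - 1 ∣ s ^ a := by rw [← h, sq]; exact Dvd.intro _ rfl
  obtain ⟨d, -, hd⟩ := (Nat.dvd_prime_pow hs).1 h1
  have h4 : 4 ≤ 2 ^ (m + 1) := by
    calc 4 = 2 ^ (1 + 1) := by norm_num
      _ ≤ 2 ^ (m + 1) := Nat.pow_le_pow_right (by norm_num) (by omega)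
  have hd0 : d ≠ 0 := by
    rintro rfl
    rw [pow_zero] at hd
    omega
  have hodd : Odd s := by
    rcases hs.eq_two_or_odd' with h2 | h2
    · exfalso
      rw [h2] at hd
      obtain ⟨l, rfl⟩ := Nat.exists_eq_succ_of_ne_zero hd0
      rw [pow_succ] at hd
      rw [pow_succ] at hd h4
      omega
    · exact h2
  have h2 : 2 ^ (m + 1) = s ^ d + 1 := by omega
  have h3 := eq_one_of_pow hodd (by omega) h2
  rw [← h, hd, h3, pow_one]

theorem of_irr_le {F : Type*} [Field F] {Γ : Type*} [Group Γ] (A : Subgroup Γ) [Finite A]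
    (hA : (Nat.card A : F) ≠ 0) (g : Γ) {n : ℕ} (hn : (n : F) ≠ 0) (hg : g ^ n = 1) (b : ℕ)
    (h : ∀ (V : Type u) [AddCommGroup V] [Module F V] [FiniteDimensional F V]
      (ρ : Representation F Γ V), finrank F V ≤ b → Nontrivial V → Irr ρ →
      (∀ v, (∀ a ∈ A, ρ a v = v) → v = 0) → ρ g = 1) :
    ∀ (k : ℕ), k ≤ b → ∀ (V : Type u) [AddCommGroup V] [Module F V] [FiniteDimensional F V]
      (ρ : Representation F Γ V), finrank F V = k →
      (∀ v, (∀ a ∈ A, ρ a v = v) → v = 0) → ρ g = 1 := by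
  intro k
  induction k using Nat.strong_induction_on with
  | _ k ih =>
  intro hkb V _ _ _ ρ hk hfix
  by_cases hV : Subsingleton V
  · exact LinearMap.ext fun v => Subsingleton.elim _ _
  rw [not_subsingleton_iff_nontrivial] at hV
  by_cases hirr : Irr ρ
  · exact h V ρ (hk.trans_le hkb) hV hirr hfix
  unfold Irr at hirr
  push Not at hirr
  obtain ⟨W, hW, hW1, hW2⟩ := hirr
  have hc : ∀ g, W ≤ W.comap (ρ g) := fun g w hw => hW g w hw
  have h1 : finrank F W < finrank F V := Submodule.finrank_lt hW2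
  have h2 : finrank F (V ⧸ W) < finrank F V := by
    have h3 := Submodule.finrank_quotient_add_finrank W
    have h4 : 0 < finrank F W := by
      have : Nontrivial W := Submodule.nontrivial_iff_ne_bot.2 hW1
      exact Module.finrank_pos
    omega
  have e1 := ih _ (hk ▸ h1) (by omega) W (ρ.subrepresentation W hc) rfl (by
    intro w hw
    apply Subtype.ext
    apply hfix
    intro a ha
    exact congrArg Subtype.val (hw a ha))
  have e2 := ih _ (hk ▸ h2) (by omega) (V ⧸ W) (ρ.quotient W hc) rfl (by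
    intro w hw
    obtain ⟨v, rfl⟩ := Submodule.Quotient.mk_surjective W w
    rw [Submodule.Quotient.mk_eq_zero]
    apply fixed_quot A hA ρ hfix W
    intro a ha
    rw [← Submodule.Quotient.eq]
    exact hw a ha)
  apply eq_one_of_sq (ρ g) hn (by rw [← map_pow, hg, map_one])
  intro v
  have h3 : ρ g v - v ∈ W := by
    rw [← Submodule.Quotient.eq]
    exact LinearMap.congr_fun e2 (Submodule.Quotient.mk v)
  have h4 := LinearMap.congr_fun e1 ⟨_, h3⟩
  exact congrArg Subtype.val h4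

end Cfsg.Agent.H452.PowTwo
end

-- part: H452/Dat
section
/-!
# Application of Shult's lemma, 2-group case

`Dat` : `σ` of order `2 ^ (m + 1)` normalises the `s`-group `Q` of class two, its centre `Z` is central in the whole
group and acts by scalars. With `φ = σ ^ 2 ^ m` and `R = ⁅Q, ⟨φ⟩⁆ Z` we get `|R| = s ^ 2 |Z|`, `1 ≤ m` and the elements
of `Q` fixed by `φ` are fixed by `σ`.
-/

set_option autoImplicit false

namespace Cfsg.Agent.H452.Dat

open Module
open scoped commutatorElement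
open Cfsg.Agent.Lib.CoprimeCommutator
open Cfsg.Agent.H452.MinAct Cfsg.Agent.H452.Shult

section dat

variable {F : Type*} [Field F] {Γ : Type*} [Group Γ] [Finite Γ] {V : Type*}
  [AddCommGroup V] [Module F V]

/-- The situation after the first reductions. -/
structure Data (ρ : Representation F Γ V) (m s : ℕ) (σ : Γ) (Q Z : Subgroup Γ) : Prop where
  s_prime : s.Prime
  s_ne : s ≠ 2
  twoF : (2 : F) ≠ 0
  sF : (s : F) ≠ 0
  faithful : ∀ g, ρ g = 1 → g = 1
  pow : σ ^ 2 ^ (m + 1) = 1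
  fixV : ∀ v, ρ σ v = v → v = 0
  isp : IsPGroup s Q
  normQ : Subgroup.zpowers σ ≤ Subgroup.normalizer (Q : Set Γ)
  le : Z ≤ Q
  central : ∀ z ∈ Z, ∀ g, z * g = g * z
  scalar : ∀ z ∈ Z, ∃ c : F, ρ z = c • 1
  mem : ∀ x ∈ Q, (∀ y ∈ Q, x * y = y * x) → x ∈ Z
  comm : ⁅Q, Q⁆ ≤ Z
  ne : ⁅Q, Subgroup.zpowers (σ ^ 2 ^ m)⁆ ≠ ⊥

variable {ρ : Representation F Γ V} {m s : ℕ} {σ : Γ} {Q Z : Subgroup Γ}

/-- `⁅Q, ⟨φ⟩⁆ Z` -/
def RR (Q Z : Subgroup Γ) (φ : Γ) : Subgroup Γ := ⁅Q, Subgroup.zpowers φ⁆ ⊔ Z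

theorem Data.Zc (h : Data ρ m s σ Q Z) : Z.Normal := by
  constructor
  intro z hz g
  rw [← h.central z hz g, mul_inv_cancel_right]
  exact hz

theorem Data.isp2 (h : Data ρ m s σ Q Z) : IsPGroup 2 (Subgroup.zpowers (σ ^ 2 ^ m)) :=
  (@T2.isPGroup_zpowers _ _ 2 _ ⟨Nat.prime_two⟩ _ h.pow).to_le (T2.pow_mem_zpowers σ (2 ^ m))

theorem Data.two_not_dvd (h : Data ρ m s σ Q Z) {H : Subgroup Γ} (hH : H ≤ Q) : ¬ 2 ∣ Nat.card H := by
  have : Fact s.Prime := ⟨h.s_prime⟩
  obtain ⟨j, hj⟩ := IsPGroup.iff_card.1 (h.isp.to_le hH)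
  rw [hj]
  intro hd
  exact h.s_ne ((Nat.prime_dvd_prime_iff_eq Nat.prime_two h.s_prime).1
    (Nat.prime_two.dvd_of_dvd_pow hd)).symm

theorem Data.φQ (h : Data ρ m s σ Q Z) :
    Subgroup.zpowers (σ ^ 2 ^ m) ≤ Subgroup.normalizer (Q : Set Γ) :=
  (T2.pow_mem_zpowers σ (2 ^ m)).trans h.normQ

theorem Data.le_Q (h : Data ρ m s σ Q Z) : RR Q Z (σ ^ 2 ^ m) ≤ Q :=
  sup_le (commutator_le_left h.φQ) h.le

omit [Finite Γ] in
theorem comm_zpowers {φ t : Γ} (ht : t * φ = φ * t) : ∀ a ∈ Subgroup.zpowers φ, a * t = t * a :=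
  T2.commute_zpowers ht.symm

/-- `R` commutes with the elements of `Q` fixed by `φ`. -/
theorem Data.comm_R (h : Data ρ m s σ Q Z) {x t : Γ} (hx : x ∈ RR Q Z (σ ^ 2 ^ m)) (ht : t ∈ Q)
    (htφ : t * σ ^ 2 ^ m = σ ^ 2 ^ m * t) : x * t = t * x := by
  set φ := σ ^ 2 ^ m with hφ
  let T : Subgroup Γ := Q ⊓ Subgroup.centralizer (Subgroup.zpowers φ : Set Γ)
  have htT : t ∈ T := by
    refine ⟨ht, Subgroup.mem_centralizer_iff.2 ?_⟩
    exact comm_zpowers htφ
  have h1 : ⁅⁅Q, Subgroup.zpowers φ⁆, T⁆ = ⊥ := by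
    apply Subgroup.commutator_commutator_eq_bot_of_rotate
    · have h2 : ⁅Subgroup.zpowers φ, T⁆ = ⊥ := by
        rw [MinAct.commutator_eq_bot_iff]
        intro a ha t' ht'
        exact (Subgroup.mem_centralizer_iff.1 ht'.2) a ha
      rw [h2, Subgroup.commutator_bot_left]
    · rw [eq_bot_iff]
      have h2 : ⁅T, Q⁆ ≤ Z := (Subgroup.commutator_mono inf_le_left le_rfl).trans h.comm
      refine (Subgroup.commutator_mono h2 le_rfl).trans ?_
      rw [← eq_bot_iff, MinAct.commutator_eq_bot_iff]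
      intro z hz a _
      exact h.central z hz a
  have h2 : RR Q Z φ ≤ Subgroup.centralizer ({t} : Set Γ) := by
    apply sup_le
    · intro y hy
      rw [Subgroup.mem_centralizer_iff]
      intro t' ht'
      rw [Set.mem_singleton_iff.1 ht']
      exact (MinAct.commutator_eq_bot_iff.1 h1 y hy t htT).symm
    · intro y hy
      rw [Subgroup.mem_centralizer_iff]
      intro t' ht'
      rw [Set.mem_singleton_iff.1 ht']
      exact (h.central y hy t).symm
  exact ((Subgroup.mem_centralizer_iff.1 (h2 hx)) t rfl).symm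

/-- `Q = ⁅Q, ⟨φ⟩⁆ C_Q(φ)` -/
theorem Data.decomp (h : Data ρ m s σ Q Z) {x : Γ} (hx : x ∈ Q) :
    ∃ y ∈ (⁅Q, Subgroup.zpowers (σ ^ 2 ^ m)⁆ : Subgroup Γ), ∃ t ∈ Q,
      t * σ ^ 2 ^ m = σ ^ 2 ^ m * t ∧ x = y * t := by
  have : Fact (Nat.Prime 2) := ⟨Nat.prime_two⟩
  obtain ⟨y, hy, t, ht, hyt⟩ := exists_commutator_mul_fixed_of_isPGroup 2
    (Subgroup.zpowers (σ ^ 2 ^ m)) Q h.isp2 h.φQ (h.two_not_dvd le_rfl) x hx
  exact ⟨y, hy, t, ht.1, ((Subgroup.mem_centralizer_iff.1 ht.2) _ (Subgroup.mem_zpowers _)).symm, hyt⟩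

theorem Data.mem_of_comm (h : Data ρ m s σ Q Z) {x : Γ} (hx : x ∈ Q)
    (h1 : ∀ y ∈ RR Q Z (σ ^ 2 ^ m), x * y = y * x)
    (h2 : ∀ t ∈ Q, t * σ ^ 2 ^ m = σ ^ 2 ^ m * t → x * t = t * x) : x ∈ Z := by
  apply h.mem x hx
  intro y hy
  obtain ⟨y', hy', t, ht, htφ, rfl⟩ := h.decomp hy
  rw [← mul_assoc, h1 y' (Subgroup.mem_sup_left hy'), mul_assoc, h2 t ht htφ, mul_assoc]

theorem Data.mem_Z (h : Data ρ m s σ Q Z) {x : Γ} (hx : x ∈ RR Q Z (σ ^ 2 ^ m))
    (hxφ : x * σ ^ 2 ^ m = σ ^ 2 ^ m * x) : x ∈ Z := by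
  apply h.mem_of_comm (h.le_Q hx)
  · intro y hy
    exact (h.comm_R hy (h.le_Q hx) hxφ).symm
  · intro t ht htφ
    exact h.comm_R hx ht htφ

omit [Finite Γ] in
/-- the elements commuting with `x` modulo `Z` -/
theorem mem_of_zpowers {Z : Subgroup Γ} [hZ : Z.Normal] {x a : Γ} (ha : a * x * a⁻¹ * x⁻¹ ∈ Z) :
    ∀ b ∈ Subgroup.zpowers a, x⁻¹ * (b * x * b⁻¹) ∈ Z ∧ b * x * b⁻¹ * x⁻¹ ∈ Z := by
  let K : Subgroup Γ := (Subgroup.centralizer ({QuotientGroup.mk' Z x} : Set (Γ ⧸ Z))).comap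
    (QuotientGroup.mk' Z)
  have hK : ∀ b, b ∈ K ↔ QuotientGroup.mk' Z x * QuotientGroup.mk' Z b =
      QuotientGroup.mk' Z b * QuotientGroup.mk' Z x := by
    intro b
    rw [Subgroup.mem_comap, Subgroup.mem_centralizer_iff]
    constructor
    · intro h; exact h _ rfl
    · intro h y hy
      rw [Set.mem_singleton_iff.1 hy, h]
  have h1 : a ∈ K := by
    rw [hK]
    have h2 : QuotientGroup.mk' Z (a * x * a⁻¹ * x⁻¹) = 1 := (QuotientGroup.eq_one_iff _).2 ha
    rw [map_mul, map_mul, map_mul, map_inv, map_inv] at h2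
    exact (mul_inv_eq_iff_eq_mul.1 (mul_inv_eq_one.1 h2)).symm
  have h2 : Subgroup.zpowers a ≤ K := by rwa [Subgroup.zpowers_le]
  intro b hb
  have h3 := (hK b).1 (h2 hb)
  constructor
  · refine (QuotientGroup.eq_one_iff _).1 ?_
    show QuotientGroup.mk' Z _ = 1
    rw [map_mul, map_mul, map_mul, map_inv, map_inv, ← h3]
    group
  · refine (QuotientGroup.eq_one_iff _).1 ?_
    show QuotientGroup.mk' Z _ = 1
    rw [map_mul, map_mul, map_mul, map_inv, map_inv, ← h3]
    group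

theorem Data.exists_fixed (h : Data ρ m s σ Q Z) {x : Γ} (hx : x ∈ Q)
    (hxφ : σ ^ 2 ^ m * x * (σ ^ 2 ^ m)⁻¹ * x⁻¹ ∈ Z) :
    ∃ t ∈ Q, t * σ ^ 2 ^ m = σ ^ 2 ^ m * t ∧ x⁻¹ * t ∈ Z := by
  have : Fact (Nat.Prime 2) := ⟨Nat.prime_two⟩
  have hZn := h.Zc
  obtain ⟨t, ht, hxt⟩ := exists_fixed_in_coset 2 (Subgroup.zpowers (σ ^ 2 ^ m)) Z h.isp2
    (by rw [Subgroup.normalizer_eq_top_iff.2 hZn]; exact le_top) (h.two_not_dvd h.le) x
    (fun a ha => (mem_of_zpowers hxφ a ha).1)
  refine ⟨t, ?_, ((Subgroup.mem_centralizer_iff.1 ht) _ (Subgroup.mem_zpowers _)).symm, hxt⟩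
  have h1 : t = x * (x⁻¹ * t) := by group
  rw [h1]
  exact Q.mul_mem hx (h.le hxt)

theorem Data.free0 (h : Data ρ m s σ Q Z) {x : Γ} (hx : x ∈ RR Q Z (σ ^ 2 ^ m))
    (hxφ : σ ^ 2 ^ m * x * (σ ^ 2 ^ m)⁻¹ * x⁻¹ ∈ Z) : x ∈ Z := by
  obtain ⟨t, ht, htφ, hxt⟩ := h.exists_fixed (h.le_Q hx) hxφ
  have h1 : t = x * (x⁻¹ * t) := by group
  have h2 : t ∈ RR Q Z (σ ^ 2 ^ m) := by
    rw [h1]
    exact Subgroup.mul_mem _ hx (Subgroup.mem_sup_right hxt)
  have h3 := h.mem_Z h2 htφ
  have h4 : x = t * (x⁻¹ * t)⁻¹ := by group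
  rw [h4]
  exact Z.mul_mem h3 (Z.inv_mem hxt)

theorem Data.normR (h : Data ρ m s σ Q Z) :
    Subgroup.zpowers σ ≤ Subgroup.normalizer (RR Q Z (σ ^ 2 ^ m) : Set Γ) := by
  have hZn := h.Zc
  exact le_normalizer_sup (le_normalizer_commutator h.normQ (T2.zpowers_le_normalizer_pow σ (2 ^ m)))
    (by rw [Subgroup.normalizer_eq_top_iff.2 hZn]; exact le_top)

omit [Finite Γ] in
theorem Data.ne_one (h : Data ρ m s σ Q Z) : σ ^ 2 ^ m ≠ 1 := by
  intro h1
  apply h.ne
  rw [h1, Subgroup.zpowers_one_eq_bot, Subgroup.commutator_bot_right]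

theorem Data.commutator_idem (h : Data ρ m s σ Q Z) :
    ⁅⁅Q, Subgroup.zpowers (σ ^ 2 ^ m)⁆, Subgroup.zpowers (σ ^ 2 ^ m)⁆ =
      ⁅Q, Subgroup.zpowers (σ ^ 2 ^ m)⁆ := by
  have : Fact (Nat.Prime 2) := ⟨Nat.prime_two⟩
  apply commutator_commutator_eq _ _ h.φQ
  obtain ⟨j, hj⟩ := IsPGroup.iff_card.1 h.isp2
  rw [hj]
  exact Nat.Coprime.pow_left j ((Nat.Prime.coprime_iff_not_dvd Nat.prime_two).2 (h.two_not_dvd le_rfl))

theorem Data.not_le (h : Data ρ m s σ Q Z) : ¬ RR Q Z (σ ^ 2 ^ m) ≤ Z := by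
  intro h1
  apply h.ne
  rw [← h.commutator_idem, MinAct.commutator_eq_bot_iff]
  intro x hx a _
  exact h.central x (h1 (Subgroup.mem_sup_left hx)) a

/-- `σ` acting on `R` -/
noncomputable def Data.theta (h : Data ρ m s σ Q Z) : MulAut (RR Q Z (σ ^ 2 ^ m)) :=
  Subgroup.normalizerMonoidHom _ ⟨σ, h.normR (Subgroup.mem_zpowers σ)⟩

theorem Data.theta_pow (h : Data ρ m s σ Q Z) (i : ℕ) (x : RR Q Z (σ ^ 2 ^ m)) :
    (((h.theta ^ i) x : RR Q Z (σ ^ 2 ^ m)) : Γ) = σ ^ i * x * (σ ^ i)⁻¹ := by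
  unfold Data.theta
  rw [← map_pow]
  rfl

theorem Data.hyp (h : Data ρ m s σ Q Z) :
    Shult.Hyp (ρ.comp (RR Q Z (σ ^ 2 ^ m)).subtype) (ρ σ) h.theta (2 ^ (m + 1))
      (Z.subgroupOf (RR Q Z (σ ^ 2 ^ m))) where
  tN := by rw [← map_pow, h.pow, map_one]
  NF := by
    rw [Nat.cast_pow]
    exact pow_ne_zero _ h.twoF
  XF := by
    have : Fact s.Prime := ⟨h.s_prime⟩
    exact T2.cast_card_ne_zero h.sF (h.isp.to_le h.le_Q)
  inter := by
    intro x
    have h1 := h.theta_pow 1 x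
    rw [pow_one, pow_one] at h1
    show ρ σ * ρ x = ρ ((h.theta x : RR Q Z (σ ^ 2 ^ m)) : Γ) * ρ σ
    rw [h1, ← map_mul, ← map_mul, inv_mul_cancel_right]
  fix := h.fixV
  scal := by
    intro x
    rw [Subgroup.mem_subgroupOf]
    constructor
    · intro hx
      exact h.scalar x hx
    · rintro ⟨c, hc⟩
      apply h.mem x (h.le_Q x.2)
      intro y _
      have h1 : ρ ((x : Γ) * y * ((x : Γ)⁻¹) * y⁻¹) = 1 := by
        have hc' : ρ (x : Γ) = c • 1 := hc
        have h2 : ρ ((x : Γ) * y) = ρ (y * x) := by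
          rw [map_mul, map_mul, hc', smul_mul_assoc, one_mul, mul_smul_comm, mul_one]
        have h3 : (x : Γ) * y * (x : Γ)⁻¹ * y⁻¹ = (x * y) * (y * x)⁻¹ := by group
        rw [h3, map_mul, h2, ← map_mul, mul_inv_cancel, map_one]
      have h2 := h.faithful _ h1
      have h3 : (x : Γ) * y = ((x : Γ) * y * (x : Γ)⁻¹ * y⁻¹) * (y * x) := by group
      rw [h3, h2, one_mul]
  comm := by
    intro x y
    rw [Subgroup.mem_subgroupOf]
    apply h.comm
    have := Subgroup.commutator_mem_commutator (h.le_Q x.2) (h.le_Q y.2)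
    rwa [commutatorElement_def] at this
  free := by
    intro i hi hiN x hx
    rw [Subgroup.mem_subgroupOf] at hx ⊢
    rw [Subgroup.coe_mul, Subgroup.coe_inv, h.theta_pow] at hx
    apply h.free0 x.2
    have hZn := h.Zc
    apply (mem_of_zpowers hx (σ ^ 2 ^ m) _).2
    apply Orbit.mem_of_ne_bot Nat.prime_two h.pow (T2.pow_mem_zpowers σ i)
    intro h1
    rw [Subgroup.zpowers_eq_bot] at h1
    have hord : orderOf σ = 2 ^ (m + 1) := by
      have : Fact (Nat.Prime 2) := ⟨Nat.prime_two⟩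
      exact orderOf_eq_prime_pow h.ne_one h.pow
    have h3 := orderOf_dvd_of_pow_eq_one h1
    rw [hord] at h3
    exact absurd (Nat.le_of_dvd hi h3) (by omega)
  max := by
    intro x hx
    rw [Subgroup.mem_subgroupOf]
    apply h.mem_of_comm (h.le_Q x.2)
    · intro y hy
      have h1 : ρ ((x : Γ) * y) = ρ (y * x) := hx ⟨y, hy⟩
      have h2 : ρ ((x : Γ) * y * (y * x)⁻¹) = 1 := by
        rw [map_mul, h1, ← map_mul, mul_inv_cancel, map_one]
      exact mul_inv_eq_one.1 (h.faithful _ h2)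
    · intro t ht htφ
      exact h.comm_R x.2 ht htφ

theorem Data.ne_top (h : Data ρ m s σ Q Z) : Z.subgroupOf (RR Q Z (σ ^ 2 ^ m)) ≠ ⊤ := by
  intro h1
  exact h.not_le (Subgroup.subgroupOf_eq_top.1 h1)

end dat

section dat2

variable {F : Type*} [Field F] [IsAlgClosed F] {Γ : Type*} [Group Γ] [Finite Γ] {V : Type*}
  [AddCommGroup V] [Module F V] [FiniteDimensional F V] [Nontrivial V]
  {ρ : Representation F Γ V} {m s : ℕ} {σ : Γ} {Q Z : Subgroup Γ}

theorem Data.index (h : Data ρ m s σ Q Z) :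
    (Z.subgroupOf (RR Q Z (σ ^ 2 ^ m))).index = (2 ^ (m + 1) - 1) ^ 2 :=
  h.hyp.index_eq h.ne_top

theorem Data.one_le (h : Data ρ m s σ Q Z) : 1 ≤ m := by
  by_contra hcon
  have h1 : m = 0 := by omega
  subst h1
  have h2 := h.index
  apply h.ne_top
  rw [← Subgroup.index_eq_one, h2]
  norm_num

theorem Data.card (h : Data ρ m s σ Q Z) :
    Nat.card (RR Q Z (σ ^ 2 ^ m)) = s ^ 2 * Nat.card Z := by
  have : Fact s.Prime := ⟨h.s_prime⟩
  have hZR : Z ≤ RR Q Z (σ ^ 2 ^ m) := le_sup_right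
  have h1 := (Z.subgroupOf (RR Q Z (σ ^ 2 ^ m))).index_mul_card
  rw [Nat.card_congr (Subgroup.subgroupOfEquivOfLe hZR).toEquiv] at h1
  obtain ⟨a, ha⟩ := IsPGroup.iff_card.1 (h.isp.to_le h.le_Q)
  have h2 : (Z.subgroupOf (RR Q Z (σ ^ 2 ^ m))).index ∣ s ^ a := by
    rw [← ha]
    exact Subgroup.index_dvd_card _
  obtain ⟨b, -, hb⟩ := (Nat.dvd_prime_pow h.s_prime).1 h2
  have h3 := PowTwo.index_sq h.s_prime h.one_le (by rw [← h.index, hb])
  rw [← h1, hb, h3]

theorem Data.comm_σ (h : Data ρ m s σ Q Z) {t : Γ} (ht : t ∈ Q)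
    (htφ : t * σ ^ 2 ^ m = σ ^ 2 ^ m * t) : t * σ = σ * t := by
  have h1 := h.hyp.comm_t h.ne_top (g := ρ t) (by
    intro x
    show ρ t * ρ x = ρ x * ρ t
    rw [← map_mul, ← map_mul, h.comm_R x.2 ht htφ])
  have h2 : ρ (t * σ * (σ * t)⁻¹) = 1 := by
    rw [map_mul, map_mul, h1, ← map_mul, ← map_mul, mul_inv_cancel, map_one]
  exact mul_inv_eq_one.1 (h.faithful _ h2)

end dat2

end Cfsg.Agent.H452.Dat
end

-- part: H452/WAct
section
/-!
# The action on `Q / Z`, 2-group case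
-/

set_option autoImplicit false

namespace Cfsg.Agent.H452.WAct

open Module
open scoped commutatorElement
open Cfsg.Agent.OddOrderLocal.Thm34 (elemRep elemRep_apply)
open Cfsg.Agent.Lib.CoprimeCommutator
open Cfsg.Agent.H452.MinAct Cfsg.Agent.H452.Dat

theorem aux {Γ : Type*} [Group Γ] [Finite Γ] {W : Type*} [CommGroup W] [Finite W] {s : ℕ}
    [hs : Fact s.Prime] [Module (ZMod s) (Additive W)] (κ : Γ →* MulAut W) {σ : Γ} {m : ℕ}
    (hm : 1 ≤ m) (hσ : σ ^ 2 ^ (m + 1) = 1) {P : Subgroup Γ} {r : ℕ} (hr : r.Prime) (hr2 : r ≠ 2)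
    (hrs : r ≠ s) (hP : IsPGroup r P)
    (hσP : Subgroup.zpowers σ ≤ Subgroup.normalizer (P : Set Γ))
    (hmin : ∀ H : Subgroup Γ, H ≤ P → H ≠ P →
      Subgroup.zpowers σ ≤ Subgroup.normalizer (H : Set Γ) →
      ∀ u ∈ (⁅H, Subgroup.zpowers (σ ^ 2 ^ m)⁆ : Subgroup Γ), κ u = 1)
    (hfix : ∀ w, κ (σ ^ 2 ^ m) w = w → κ σ w = w)
    (hcard : Nat.card {w : W // κ (σ ^ 2 ^ m) w = w⁻¹} ≤ s ^ 2)
    (hform : ∀ c ∈ P, ∀ n : ℕ, (∀ w, κ (σ ^ 2 ^ m) w = w⁻¹ → κ c w = w ^ n) →
      ∀ w, κ (σ ^ 2 ^ m) w = w⁻¹ → κ c w = w) :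
    ∀ u ∈ (⁅P, Subgroup.zpowers (σ ^ 2 ^ m)⁆ : Subgroup Γ), κ u = 1 := by
  classical
  have hfinA : Finite (Additive W) := inferInstanceAs (Finite W)
  have hfd : FiniteDimensional (ZMod s) (Additive W) := Module.Finite.of_finite
  let N : Subgroup Γ := MonoidHom.ker κ
  have hN : N ≤ MonoidHom.ker (elemRep s κ : Representation (ZMod s) Γ (Additive W)) := by
    intro g hg
    have hg' : κ g = 1 := hg
    rw [MonoidHom.mem_ker]
    ext w
    show Additive.ofMul (κ g w.toMul) = w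
    rw [hg']
    rfl
  let π : Representation (ZMod s) (Γ ⧸ N) (Additive W) := QuotientGroup.lift N (elemRep s κ) hN
  have hπ : ∀ (g : Γ) (w : W), π (QuotientGroup.mk' N g) (Additive.ofMul w) = Additive.ofMul (κ g w) :=
    fun g w => rfl
  have hφ : QuotientGroup.mk' N σ ^ 2 ^ m = QuotientGroup.mk' N (σ ^ 2 ^ m) := (map_pow _ _ _).symm
  have hzφ : (Subgroup.zpowers (σ ^ 2 ^ m)).map (QuotientGroup.mk' N) =
      Subgroup.zpowers (QuotientGroup.mk' N σ ^ 2 ^ m) := by
    rw [MonoidHom.map_zpowers, hφ]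
  have hσP' : Subgroup.zpowers (QuotientGroup.mk' N σ) ≤
      Subgroup.normalizer (P.map (QuotientGroup.mk' N) : Set (Γ ⧸ N)) := by
    rw [← MonoidHom.map_zpowers]
    apply le_normalizer_of_conj
    rintro _ ⟨a, ha, rfl⟩ _ ⟨x, hx, rfl⟩
    exact ⟨a * x * a⁻¹, conj_of_le_normalizer hσP ha hx, by rw [map_mul, map_mul, map_inv]⟩
  have hmin' : ∀ H : Subgroup (Γ ⧸ N), H ≤ P.map (QuotientGroup.mk' N) →
      H ≠ P.map (QuotientGroup.mk' N) →
      Subgroup.zpowers (QuotientGroup.mk' N σ) ≤ Subgroup.normalizer (H : Set (Γ ⧸ N)) →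
      ⁅H, Subgroup.zpowers (QuotientGroup.mk' N σ ^ 2 ^ m)⁆ = ⊥ := by
    intro H hHP hHne hH
    let H₁ : Subgroup Γ := P ⊓ H.comap (QuotientGroup.mk' N)
    have h1 : H₁ ≠ P := by
      intro h1
      apply hHne
      apply le_antisymm hHP
      rw [Subgroup.map_le_iff_le_comap]
      rw [← h1]
      exact inf_le_right
    have h2 : Subgroup.zpowers σ ≤ Subgroup.normalizer (H₁ : Set Γ) := by
      apply le_normalizer_inf hσP
      apply le_normalizer_of_conj
      intro a ha x hx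
      rw [Subgroup.mem_comap, map_mul, map_mul, map_inv]
      refine conj_of_le_normalizer hH ?_ hx
      rw [← MonoidHom.map_zpowers]
      exact ⟨a, ha, rfl⟩
    have h3 := hmin H₁ inf_le_left h1 h2
    have h4 : H₁.map (QuotientGroup.mk' N) = H := by
      apply le_antisymm
      · rw [Subgroup.map_le_iff_le_comap]
        exact inf_le_right
      · intro x hx
        obtain ⟨y, hy, rfl⟩ := hHP hx
        exact ⟨y, ⟨hy, hx⟩, rfl⟩
    rw [← h4, ← hzφ, ← Subgroup.map_commutator, eq_bot_iff]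
    rintro _ ⟨u, hu, rfl⟩
    rw [Subgroup.mem_bot]
    exact (QuotientGroup.eq_one_iff u).2 (h3 u hu)
  have hdim : finrank (ZMod s) (LinearMap.ker (π (QuotientGroup.mk' N σ ^ 2 ^ m) + 1)) ≤ 2 := by
    have hfk : Finite (LinearMap.ker (π (QuotientGroup.mk' N σ ^ 2 ^ m) + 1)) := inferInstance
    have := Fintype.ofFinite (LinearMap.ker (π (QuotientGroup.mk' N σ ^ 2 ^ m) + 1))
    have h1 := Module.card_eq_pow_finrank (K := ZMod s)
      (V := LinearMap.ker (π (QuotientGroup.mk' N σ ^ 2 ^ m) + 1))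
    rw [ZMod.card, ← Nat.card_eq_fintype_card] at h1
    have hmem : ∀ v ∈ LinearMap.ker (π (QuotientGroup.mk' N σ ^ 2 ^ m) + 1),
        κ (σ ^ 2 ^ m) v.toMul = (v.toMul)⁻¹ := by
      intro v hv
      rw [LinearMap.mem_ker, LinearMap.add_apply, End.one_apply, hφ] at hv
      exact eq_neg_of_add_eq_zero_left hv
    have h2 : Nat.card (LinearMap.ker (π (QuotientGroup.mk' N σ ^ 2 ^ m) + 1)) ≤
        Nat.card {w : W // κ (σ ^ 2 ^ m) w = w⁻¹} := by
      apply Nat.card_le_card_of_injective (fun e => ⟨e.1.toMul, hmem e.1 e.2⟩)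
      intro a b hab
      apply Subtype.ext
      have h3 := congrArg (fun z : {w : W // κ (σ ^ 2 ^ m) w = w⁻¹} => z.1) hab
      exact h3
    rw [h1] at h2
    exact (Nat.pow_le_pow_iff_right hs.out.one_lt).1 (h2.trans hcard)
  have hrk : (r : ZMod s) ≠ 0 := by
    intro h
    rw [ZMod.natCast_eq_zero_iff] at h
    exact hrs ((Nat.prime_dvd_prime_iff_eq hs.out hr).1 h).symm
  have key := LemF.lemF π (σ := QuotientGroup.mk' N σ) hm (P := P.map (QuotientGroup.mk' N)) hr hr2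
    (hP.map _) hrk (by rw [← map_pow, hσ, map_one]) hσP' hmin' (by
      intro e he
      rw [hφ] at he
      have h1 := hfix e.toMul he
      exact h1) hdim (by
      rintro _ ⟨c, hc, rfl⟩ μ hμ e he
      rw [hφ] at he hμ
      have h1 := hform c hc μ.val (by
        intro w hw
        have h2 := hμ (Additive.ofMul w) hw
        rw [hπ] at h2
        have h3 : μ • Additive.ofMul w = Additive.ofMul (w ^ μ.val) := by
          conv_lhs => rw [← ZMod.natCast_zmod_val μ]
          rw [Nat.cast_smul_eq_nsmul]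
          rfl
        rw [h3] at h2
        exact h2) e.toMul he
      exact h1)
  intro u hu
  have h1 := key (QuotientGroup.mk' N u) (by
    rw [← hzφ, ← Subgroup.map_commutator]
    exact ⟨u, hu, rfl⟩)
  ext w
  have h2 := LinearMap.congr_fun h1 (Additive.ofMul w)
  rw [hπ] at h2
  exact h2

/-- powers in class two -/
theorem comm_pow {Γ : Type*} [Group Γ] {w a b : Γ} (hw : ∀ g, w * g = g * w) (h : a * b = w * (b * a))
    (n k : ℕ) : a ^ n * b ^ k = w ^ (n * k) * (b ^ k * a ^ n) := by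
  have hw' : ∀ (n : ℕ) (g : Γ), w ^ n * g = g * w ^ n := fun n g =>
    ((show Commute w g from hw g).pow_left n).eq
  have h1 : ∀ n : ℕ, a ^ n * b = w ^ n * (b * a ^ n) := by
    intro n
    induction n with
    | zero => simp
    | succ n ih =>
      calc a ^ (n + 1) * b = a * (a ^ n * b) := by rw [pow_succ', mul_assoc]
        _ = a * w ^ n * (b * a ^ n) := by rw [ih, mul_assoc]
        _ = w ^ n * (a * b) * a ^ n := by rw [← hw']; group
        _ = w ^ (n + 1) * (b * a ^ (n + 1)) := by rw [h, pow_succ w, pow_succ' a]; group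
  induction k with
  | zero => simp
  | succ k ih =>
    calc a ^ n * b ^ (k + 1) = (a ^ n * b ^ k) * b := by rw [pow_succ, mul_assoc]
      _ = w ^ (n * k) * (b ^ k * (a ^ n * b)) := by rw [ih]; group
      _ = w ^ (n * k) * (b ^ k * w ^ n) * b * a ^ n := by rw [h1]; group
      _ = w ^ (n * (k + 1)) * (b ^ (k + 1) * a ^ n) := by
        rw [← hw', mul_add, mul_one, pow_add w, pow_succ b]; group

section act

variable {F : Type*} [Field F] {Γ : Type*} [Group Γ] [Finite Γ] {V : Type*}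
  [AddCommGroup V] [Module F V]
  {ρ : Representation F Γ V} {m s : ℕ} {σ : Γ} {Q Z : Subgroup Γ}

/-- `φ` inverts `R / Z` -/
theorem inv_R (h : Data ρ m s σ Q Z) {x : Γ} (hx : x ∈ RR Q Z (σ ^ 2 ^ m)) :
    σ ^ 2 ^ m * x * (σ ^ 2 ^ m)⁻¹ * x ∈ Z := by
  have hZn := h.Zc
  set φ := σ ^ 2 ^ m with hφ
  have hφ2 : φ * φ = 1 := by
    rw [hφ, ← pow_add, ← two_mul, ← pow_succ', h.pow]
  have hφR : φ * x * φ⁻¹ ∈ RR Q Z φ :=
    conj_of_le_normalizer h.normR (Subgroup.pow_mem _ (Subgroup.mem_zpowers σ) _) hx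
  have h1 : φ * x * φ⁻¹ * x ∈ RR Q Z φ := Subgroup.mul_mem _ hφR hx
  apply h.free0 h1
  rw [← hφ]
  have h2 : φ * (φ * x * φ⁻¹ * x) * φ⁻¹ * (φ * x * φ⁻¹ * x)⁻¹ =
      x * (φ * x * φ⁻¹) * x⁻¹ * (φ * x * φ⁻¹)⁻¹ := by
    calc φ * (φ * x * φ⁻¹ * x) * φ⁻¹ * (φ * x * φ⁻¹ * x)⁻¹
        = (φ * φ) * x * (φ * φ)⁻¹ * (φ * x * φ⁻¹) * x⁻¹ * (φ * x * φ⁻¹)⁻¹ := by group
      _ = x * (φ * x * φ⁻¹) * x⁻¹ * (φ * x * φ⁻¹)⁻¹ := by rw [hφ2]; group
  rw [h2]
  apply h.comm
  have := Subgroup.commutator_mem_commutator (h.le_Q hx) (h.le_Q hφR)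
  rwa [commutatorElement_def] at this

/-- `R` is not abelian -/
theorem exists_noncomm (h : Data ρ m s σ Q Z) :
    ∃ a ∈ RR Q Z (σ ^ 2 ^ m), ∃ b ∈ RR Q Z (σ ^ 2 ^ m), a * b ≠ b * a := by
  by_contra hcon
  push Not at hcon
  apply h.not_le
  intro x hx
  apply h.mem_of_comm (h.le_Q hx)
  · intro y hy
    exact hcon x hx y hy
  · intro t ht htφ
    exact h.comm_R hx ht htφ

theorem mem_R_of_inv (h : Data ρ m s σ Q Z) {y : Γ} (hy : y ∈ Q)
    (hφy : σ ^ 2 ^ m * y * (σ ^ 2 ^ m)⁻¹ * y ∈ Z) : y ∈ RR Q Z (σ ^ 2 ^ m) := by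
  set φ := σ ^ 2 ^ m with hφ
  have h1 : y * y ∈ RR Q Z φ := by
    have h2 : y * y = ⁅y, φ⁆ * (φ * y * φ⁻¹ * y) := by
      rw [commutatorElement_def]; group
    rw [h2]
    refine Subgroup.mul_mem _ (Subgroup.mem_sup_left ?_) (Subgroup.mem_sup_right hφy)
    exact Subgroup.commutator_mem_commutator hy (Subgroup.mem_zpowers φ)
  have hodd : Odd (Nat.card Q) := by
    rw [← Nat.not_even_iff_odd, even_iff_two_dvd]
    exact h.two_not_dvd le_rfl
  obtain ⟨t, ht⟩ := hodd
  have h3 : y ^ (2 * t + 1) = 1 := by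
    rw [← ht]
    exact congrArg Subtype.val (pow_card_eq_one' (x := (⟨y, hy⟩ : Q)))
  have h4 : y = ((y * y) ^ t)⁻¹ := by
    rw [eq_inv_iff_mul_eq_one, ← pow_two, ← pow_mul, ← pow_succ', h3]
  rw [h4]
  exact Subgroup.inv_mem _ (Subgroup.pow_mem _ h1 t)

/-- scalars on `R / Z` -/
theorem scalar_one (h : Data ρ m s σ Q Z) (hexp : ∀ x ∈ Q, x ^ s ∈ Z) {c : Γ} {e : ℕ} (he : Odd e)
    (hce : c ^ e = 1) {n : ℕ}
    (hc : ∀ x ∈ RR Q Z (σ ^ 2 ^ m), (x ^ n)⁻¹ * (c * x * c⁻¹) ∈ Z) :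
    ∀ x ∈ RR Q Z (σ ^ 2 ^ m), x⁻¹ * (c * x * c⁻¹) ∈ Z := by
  have hsf : Fact s.Prime := ⟨h.s_prime⟩
  have hZn := h.Zc
  obtain ⟨a, ha, b, hb, hab⟩ := exists_noncomm h
  set w := a * b * a⁻¹ * b⁻¹ with hw
  have hwZ : w ∈ Z := by
    apply h.comm
    have := Subgroup.commutator_mem_commutator (h.le_Q ha) (h.le_Q hb)
    rwa [commutatorElement_def] at this
  have hwc := h.central w hwZ
  have hwab : a * b = w * (b * a) := by rw [hw]; group
  have hw1 : w ≠ 1 := by
    intro h1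
    apply hab
    rw [hwab, h1, one_mul]
  -- `w ^ (n * n) = w`
  have hwn : w ^ (n * n) = w := by
    set z₁ := (a ^ n)⁻¹ * (c * a * c⁻¹) with hz₁
    set z₂ := (b ^ n)⁻¹ * (c * b * c⁻¹) with hz₂
    have hz₁Z : z₁ ∈ Z := hc a ha
    have hz₂Z : z₂ ∈ Z := hc b hb
    have hca : c * a * c⁻¹ = a ^ n * z₁ := by rw [hz₁]; group
    have hcb : c * b * c⁻¹ = b ^ n * z₂ := by rw [hz₂]; group
    have h1 : c * (a * b) * c⁻¹ = w ^ (n * n) * (b ^ n * a ^ n) * (z₁ * z₂) := by
      calc c * (a * b) * c⁻¹ = (c * a * c⁻¹) * (c * b * c⁻¹) := by group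
        _ = a ^ n * (z₁ * b ^ n) * z₂ := by rw [hca, hcb]; group
        _ = (a ^ n * b ^ n) * (z₁ * z₂) := by rw [h.central z₁ hz₁Z]; group
        _ = w ^ (n * n) * (b ^ n * a ^ n) * (z₁ * z₂) := by rw [comm_pow hwc hwab]
    have h2 : c * (w * (b * a)) * c⁻¹ = w * (b ^ n * a ^ n) * (z₁ * z₂) := by
      calc c * (w * (b * a)) * c⁻¹ = (c * w) * b * a * c⁻¹ := by group
        _ = w * ((c * b * c⁻¹) * (c * a * c⁻¹)) := by rw [← hwc]; group
        _ = w * (b ^ n * (z₂ * a ^ n) * z₁) := by rw [hca, hcb]; group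
        _ = w * (b ^ n * a ^ n) * (z₂ * z₁) := by rw [h.central z₂ hz₂Z]; group
        _ = w * (b ^ n * a ^ n) * (z₁ * z₂) := by rw [h.central z₂ hz₂Z]
    rw [← hwab, h1] at h2
    exact mul_right_cancel (mul_right_cancel h2)
  have hmod : n * n ≡ 1 [MOD s] := by
    have h1 : w ^ (n * n) = w ^ 1 := by rw [hwn, pow_one]
    rw [pow_eq_pow_iff_modEq] at h1
    apply h1.of_dvd
    have h2 : orderOf w ∣ Nat.card Q := by
      have := orderOf_dvd_natCard (⟨w, h.le hwZ⟩ : Q)
      rwa [Subgroup.orderOf_mk] at this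
    obtain ⟨j, hj⟩ := IsPGroup.iff_card.1 h.isp
    rw [hj] at h2
    obtain ⟨i, -, hi⟩ := (Nat.dvd_prime_pow h.s_prime).1 h2
    rw [hi]
    apply dvd_pow_self
    rintro rfl
    rw [pow_zero] at hi
    exact hw1 (orderOf_eq_one_iff.1 hi)
  -- the action on the quotient
  let f : Γ →* Γ ⧸ Z := QuotientGroup.mk' Z
  have hf : ∀ a b : Γ, a⁻¹ * b ∈ Z ↔ f a = f b := fun a b => QuotientGroup.eq.symm
  have hc' : ∀ x ∈ RR Q Z (σ ^ 2 ^ m), f c * f x * (f c)⁻¹ = f x ^ n := by
    intro x hx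
    have h1 := (hf _ _).1 (hc x hx)
    rw [map_pow, map_mul, map_mul, map_inv] at h1
    exact h1.symm
  intro x hx
  rw [hf, map_mul, map_mul, map_inv]
  have hk : ∀ k : ℕ, f c ^ k * f x * (f c ^ k)⁻¹ = f x ^ n ^ k := by
    intro k
    induction k with
    | zero => simp
    | succ k ih =>
      have h1 : f c ^ (k + 1) * f x * (f c ^ (k + 1))⁻¹ = f c * (f c ^ k * f x * (f c ^ k)⁻¹) * (f c)⁻¹ := by
        rw [pow_succ']; group
      rw [h1, ih, ← conj_pow, hc' x hx, ← pow_mul, ← pow_succ']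
  have hxs : f x ^ s = 1 := by
    rw [← map_pow]
    exact (QuotientGroup.eq_one_iff _).2 (hexp x (h.le_Q hx))
  have h1 := hk e
  have h2 : f c ^ e = 1 := by rw [← map_pow, hce, map_one]
  rw [h2, one_mul, inv_one, mul_one] at h1
  have h3 : n ^ e ≡ n [MOD s] := by
    obtain ⟨t, rfl⟩ := he
    have h4 : n ^ (2 * t + 1) = (n * n) ^ t * n := by
      rw [pow_succ, pow_mul, pow_two]
    rw [h4]
    have h5 := (hmod.pow t).mul_right n
    rwa [one_pow, one_mul] at h5
  have h4 : f x ^ n ^ e = f x ^ n := by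
    rw [pow_eq_pow_iff_modEq]
    exact h3.of_dvd (orderOf_dvd_of_pow_eq_one hxs)
  rw [hc' x hx, ← h4, ← h1]

end act

section act2

variable {F : Type*} [Field F] [IsAlgClosed F] {Γ : Type*} [Group Γ] [Finite Γ] {V : Type*}
  [AddCommGroup V] [Module F V] [FiniteDimensional F V] [Nontrivial V]
  {ρ : Representation F Γ V} {m s : ℕ} {σ : Γ} {Q Z : Subgroup Γ}

theorem trivial_action (h : Data ρ m s σ Q Z) (hQn : Q.Normal) (hexp : ∀ x ∈ Q, x ^ s ∈ Z)
    {P : Subgroup Γ} {r : ℕ} (hr : r.Prime) (hr2 : r ≠ 2) (hrs : r ≠ s) (hP : IsPGroup r P)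
    (hσP : Subgroup.zpowers σ ≤ Subgroup.normalizer (P : Set Γ))
    (hmin : ∀ H : Subgroup Γ, H ≤ P → H ≠ P →
      Subgroup.zpowers σ ≤ Subgroup.normalizer (H : Set Γ) →
      ∀ u ∈ (⁅H, Subgroup.zpowers (σ ^ 2 ^ m)⁆ : Subgroup Γ), ∀ y ∈ Q, u * y = y * u) :
    ∀ u ∈ (⁅P, Subgroup.zpowers (σ ^ 2 ^ m)⁆ : Subgroup Γ), ∀ y ∈ Q, y⁻¹ * (u * y * u⁻¹) ∈ Z := by
  classical
  have hsf : Fact s.Prime := ⟨h.s_prime⟩
  have hZn := h.Zc
  let f : Γ →* Γ ⧸ Z := QuotientGroup.mk' Z
  have hf1 : ∀ g, f g = 1 ↔ g ∈ Z := fun g => QuotientGroup.eq_one_iff g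
  have hf : ∀ a b : Γ, a⁻¹ * b ∈ Z ↔ f a = f b := fun a b => QuotientGroup.eq.symm
  let W : Subgroup (Γ ⧸ Z) := Q.map f
  have hWn : W.Normal := hQn.map f (QuotientGroup.mk'_surjective Z)
  have hWcomm : ∀ a b : W, a * b = b * a := by
    rintro ⟨_, a, ha, rfl⟩ ⟨_, b, hb, rfl⟩
    apply Subtype.ext
    show f a * f b = f b * f a
    have h1 : f ⁅a, b⁆ = 1 := (hf1 _).2 (h.comm (Subgroup.commutator_mem_commutator ha hb))
    rw [map_commutatorElement] at h1
    exact commutatorElement_eq_one_iff_mul_comm.1 h1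
  let instW : CommGroup W := { (inferInstance : Group W) with mul_comm := hWcomm }
  have hWs : ∀ a : W, a ^ s = 1 := by
    rintro ⟨_, a, ha, rfl⟩
    apply Subtype.ext
    show (f a) ^ s = 1
    rw [← map_pow]
    exact (hf1 _).2 (hexp a ha)
  let κ : Γ →* MulAut W := (MulAut.conjNormal (H := W)).comp f
  have hκ : ∀ (g y : Γ) (hy : y ∈ Q), ((κ g ⟨f y, y, hy, rfl⟩ : W) : Γ ⧸ Z) = f (g * y * g⁻¹) := by
    intro g y hy
    show ((MulAut.conjNormal (f g) (⟨f y, y, hy, rfl⟩ : W) : W) : Γ ⧸ Z) = _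
    rw [MulAut.conjNormal_apply, map_mul, map_mul, map_inv]
  have hκ1 : ∀ (g : Γ), κ g = 1 ↔ ∀ y ∈ Q, y⁻¹ * (g * y * g⁻¹) ∈ Z := by
    intro g
    constructor
    · intro hg y hy
      rw [hf, ← hκ g y hy, hg]
      rfl
    · intro hg
      ext ⟨_, y, hy, rfl⟩
      rw [hκ g y hy, ← (hf _ _).1 (hg y hy)]
      rfl
  set φ := σ ^ 2 ^ m with hφ
  have hinv : ∀ (y : Γ) (hy : y ∈ Q), κ φ ⟨f y, y, hy, rfl⟩ = (⟨f y, y, hy, rfl⟩ : W)⁻¹ ↔
      φ * y * φ⁻¹ * y ∈ Z := by
    intro y hy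
    rw [Subtype.ext_iff, hκ φ y hy]
    show f (φ * y * φ⁻¹) = (f y)⁻¹ ↔ _
    rw [← hf1, map_mul f (φ * y * φ⁻¹) y, eq_inv_iff_mul_eq_one]
  have key := @aux Γ _ _ W instW _ s _ (AddCommGroup.zmodModule (by
    intro a
    exact hWs a.toMul)) κ σ m h.one_le h.pow P r hr hr2 hrs hP hσP (by
      intro H hHP hHne hH u hu
      rw [hκ1]
      intro y hy
      rw [hmin H hHP hHne hH u hu y hy]
      have h1 : y⁻¹ * (y * u * u⁻¹) = 1 := by group
      rw [h1]
      exact Z.one_mem) (by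
      rintro ⟨_, y, hy, rfl⟩ hw
      have h1 : φ * y * φ⁻¹ * y⁻¹ ∈ Z := by
        rw [← hf1, map_mul, map_inv, mul_inv_eq_one]
        have h2 := congrArg Subtype.val hw
        rw [hκ φ y hy] at h2
        exact h2
      obtain ⟨t, ht, htφ, hyt⟩ := h.exists_fixed hy h1
      have h2 := h.comm_σ ht htφ
      have h3 := (hf _ _).1 hyt
      apply Subtype.ext
      rw [hκ σ y hy]
      show f (σ * y * σ⁻¹) = f y
      rw [map_mul, map_mul, h3, ← map_mul, ← map_mul, ← h2, mul_inv_cancel_right]) (by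
      have h1 : Nat.card ((RR Q Z φ).map f) = s ^ 2 := by
        have h2 := Subgroup.index_ker (f.comp (RR Q Z φ).subtype)
        have h3 : (f.comp (RR Q Z φ).subtype).ker = Z.subgroupOf (RR Q Z φ) := by
          ext x
          rw [MonoidHom.mem_ker, Subgroup.mem_subgroupOf]
          exact hf1 _
        have h4 : (f.comp (RR Q Z φ).subtype).range = (RR Q Z φ).map f := by
          rw [MonoidHom.range_comp, Subgroup.range_subtype]
        rw [h3, h4] at h2
        rw [← h2]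
        have h5 : Nat.card Z ≠ 0 := Nat.card_pos.ne'
        have h6 := (Z.subgroupOf (RR Q Z φ)).index_mul_card
        have hZR : Z ≤ RR Q Z φ := le_sup_right
        rw [Nat.card_congr (Subgroup.subgroupOfEquivOfLe hZR).toEquiv, h.card] at h6
        exact Nat.eq_of_mul_eq_mul_right (Nat.pos_of_ne_zero h5) h6
      rw [← h1]
      have hmem : ∀ w : W, κ φ w = w⁻¹ → (w : Γ ⧸ Z) ∈ (RR Q Z φ).map f := by
        rintro ⟨_, y, hy, rfl⟩ hw
        exact ⟨y, mem_R_of_inv h hy ((hinv y hy).1 hw), rfl⟩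
      apply Nat.card_le_card_of_injective
        (fun w : {w : W // κ φ w = w⁻¹} => (⟨(w.1 : Γ ⧸ Z), hmem w.1 w.2⟩ : (RR Q Z φ).map f))
      intro a b hab
      apply Subtype.ext
      apply Subtype.ext
      exact congrArg (fun z : (RR Q Z φ).map f => (z : Γ ⧸ Z)) hab) (by
      intro c hc n hn
      obtain ⟨e, he⟩ := hP ⟨c, hc⟩
      have hce : c ^ r ^ e = 1 := congrArg Subtype.val he
      have hodd : Odd (r ^ e) := (hr.odd_of_ne_two hr2).pow
      have h1 := scalar_one h hexp hodd hce (n := n) (by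
        intro x hx
        have hxQ := h.le_Q hx
        have h2 := hn ⟨f x, x, hxQ, rfl⟩ ((hinv x hxQ).2 (inv_R h hx))
        have h3 := congrArg Subtype.val h2
        rw [hκ c x hxQ] at h3
        have h4 : f (c * x * c⁻¹) = f (x ^ n) := by
          rw [h3, map_pow]
          rfl
        exact (hf _ _).2 h4.symm)
      rintro ⟨_, y, hy, rfl⟩ hw
      have hyR := mem_R_of_inv h hy ((hinv y hy).1 hw)
      apply Subtype.ext
      rw [hκ c y hy, ← (hf _ _).1 (h1 y hyR)])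
  intro u hu y hy
  exact (hκ1 u).1 (key u hu) y hy

end act2

end Cfsg.Agent.H452.WAct
end

-- part: H452/Gross
section
/-!
# The three-step property for cyclic 2-groups
-/

set_option autoImplicit false

namespace Cfsg.Agent.H452.Gross

open Module
open scoped commutatorElement
open Cfsg.Agent.OddOrderLocal.Thm34Weights
open Cfsg.Agent.Lib.CoprimeCommutator
open Cfsg.Agent.H452.Base Cfsg.Agent.H452.TopN Cfsg.Agent.H452.MinAct Cfsg.Agent.H452.Orbit
open Cfsg.Agent.H452.TopH2 Cfsg.Agent.H452.Red Cfsg.Agent.H452.Dat Cfsg.Agent.H452.PowTwo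
open Cfsg.Agent.H452.T2

attribute [local instance] wtAction

universe u

/-- The statement proved by induction. -/
def Goal (F : Type) [Field F] (r s k : ℕ) : Prop :=
  ∀ (Γ : Type u) [Group Γ] [Finite Γ] (V : Type u) [AddCommGroup V] [Module F V]
    [FiniteDimensional F V] (ρ : Representation F Γ V) (m : ℕ) (σ : Γ) (P Q : Subgroup Γ),
    Nat.card P + Nat.card Q + finrank F V < k → IsPGroup r P → IsPGroup s Q →
    σ ^ 2 ^ (m + 1) = 1 → Subgroup.zpowers σ ≤ Subgroup.normalizer (P : Set Γ) →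
    Subgroup.zpowers σ ≤ Subgroup.normalizer (Q : Set Γ) → P ≤ Subgroup.normalizer (Q : Set Γ) →
    (∀ v, ρ σ v = v → v = 0) →
    ∀ u ∈ (⁅P, Subgroup.zpowers (σ ^ 2 ^ m)⁆ : Subgroup Γ), ∀ y ∈ Q, ρ (u * y) = ρ (y * u)

theorem card_lt {Γ : Type*} [Group Γ] [Finite Γ] {H K : Subgroup Γ} (h : H ≤ K) (hne : H ≠ K) :
    Nat.card H < Nat.card K := by
  have hlt : H < K := lt_of_le_of_ne h hne
  exact Set.Finite.card_lt_card (Set.toFinite _) hlt

theorem prime_not_dvd {Γ : Type*} [Group Γ] [Finite Γ] {t p : ℕ} (ht : t.Prime) (hp : p.Prime)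
    (htp : t ≠ p) {H : Subgroup Γ} (hH : IsPGroup t H) : ¬ p ∣ Nat.card H := by
  have : Fact t.Prime := ⟨ht⟩
  obtain ⟨j, hj⟩ := IsPGroup.iff_card.1 hH
  rw [hj]
  intro hd
  exact htp ((Nat.prime_dvd_prime_iff_eq hp ht).1 (hp.dvd_of_dvd_pow hd)).symm

theorem core {F : Type} [Field F] [IsAlgClosed F] {r s : ℕ} (hr : r.Prime) (hs : s.Prime)
    (hr2 : r ≠ 2) (hs2 : s ≠ 2) (hrs : r ≠ s) (h2F : (2 : F) ≠ 0) (hsF : (s : F) ≠ 0) {k : ℕ}
    (IH : Goal.{u} F r s k) {Γ : Type u} [Group Γ] [Finite Γ] {V : Type u} [AddCommGroup V]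
    [Module F V] [FiniteDimensional F V] (ρ : Representation F Γ V) {m : ℕ} {σ : Γ}
    {P Q : Subgroup Γ} (hk : Nat.card P + Nat.card Q + finrank F V < k + 1) (hP : IsPGroup r P)
    (hQ : IsPGroup s Q) (hσ : σ ^ 2 ^ (m + 1) = 1)
    (hσP : Subgroup.zpowers σ ≤ Subgroup.normalizer (P : Set Γ))
    (hσQ : Subgroup.zpowers σ ≤ Subgroup.normalizer (Q : Set Γ))
    (hPQ : P ≤ Subgroup.normalizer (Q : Set Γ)) (hV : ∀ v, ρ σ v = v → v = 0)
    (hgen : P ⊔ Q ⊔ Subgroup.zpowers σ = ⊤) (hnt : Nontrivial V) (hirr : Irr ρ)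
    (hfaith : ∀ g, ρ g = 1 → g = 1) :
    ∀ u ∈ (⁅P, Subgroup.zpowers (σ ^ 2 ^ m)⁆ : Subgroup Γ), ∀ y ∈ Q, u * y = y * u := by
  classical
  have h2p : Nat.Prime 2 := Nat.prime_two
  have h2f : Fact (Nat.Prime 2) := ⟨h2p⟩
  have hrf : Fact r.Prime := ⟨hr⟩
  have hsf : Fact s.Prime := ⟨hs⟩
  by_contra hcon
  set φ := σ ^ 2 ^ m with hφdef
  have hφC : Subgroup.zpowers φ ≤ Subgroup.zpowers σ := pow_mem_zpowers σ (2 ^ m)
  have hC2 : IsPGroup 2 (Subgroup.zpowers σ) := isPGroup_zpowers hσ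
  have hφ2 : IsPGroup 2 (Subgroup.zpowers φ) := hC2.to_le hφC
  have hρcomm : ∀ a b : Γ, ρ (a * b) = ρ (b * a) → a * b = b * a := by
    intro a b hab
    have h1 : ρ (a * b * (b * a)⁻¹) = 1 := by
      rw [map_mul, hab, ← map_mul, mul_inv_cancel, map_one]
    exact mul_inv_eq_one.1 (hfaith _ h1)
  -- induction on `P`
  have hIH : ∀ H : Subgroup Γ, H ≤ P → H ≠ P →
      Subgroup.zpowers σ ≤ Subgroup.normalizer (H : Set Γ) →
      ∀ u ∈ (⁅H, Subgroup.zpowers φ⁆ : Subgroup Γ), ∀ y ∈ Q, u * y = y * u := by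
    intro H hH hne hσH u hu y hy
    apply hρcomm
    have h1 := card_lt hH hne
    exact IH Γ V ρ m σ H Q (by omega) (hP.to_le hH) hQ hσ hσH hσQ (hH.trans hPQ) hV u hu y hy
  have hPe : ⁅P, Subgroup.zpowers φ⁆ = P := by
    by_contra hne
    apply hcon
    have h1 := hIH ⁅P, Subgroup.zpowers φ⁆ (commutator_le_left (hφC.trans hσP)) hne
      (le_normalizer_commutator hσP (zpowers_le_normalizer_pow σ (2 ^ m)))
    rw [commutator_commutator_eq _ _ (hφC.trans hσP) (Ward.coprime_card h2p hr hr2.symm hφ2 hP)] at h1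
    exact h1
  rw [hPe] at hcon
  -- minimal action of `P` on `Q`
  have hX1 : P ⊔ Subgroup.zpowers σ ≤ Subgroup.normalizer (P : Set Γ) :=
    sup_le Subgroup.le_normalizer hσP
  have hX2 : P ⊔ Subgroup.zpowers σ ≤ Subgroup.normalizer (Q : Set Γ) := sup_le hPQ hσQ
  obtain ⟨h1, h2, h3, h4, h5⟩ := minAct (Q := Q) (X := P ⊔ Subgroup.zpowers σ) (Y := P) hQ le_sup_left
    hX1 hX2 (prime_not_dvd hr hs hrs hP) (by
      intro H hH hne hXH
      rw [MinAct.commutator_eq_bot_iff]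
      intro y hy u hu
      have h1 := card_lt hH hne
      have h2 := hρcomm u y (IH Γ V ρ m σ P H (by omega) hP (hQ.to_le hH) hσ hσP
        (le_sup_right.trans hXH) (le_sup_left.trans hXH) hV u (by rw [← hφdef, hPe]; exact hu) y hy)
      exact h2.symm) (by
      intro h
      apply hcon
      intro u hu y hy
      exact (MinAct.commutator_eq_bot_iff.1 h y hy u hu).symm)
  -- `φ` does not centralise `Q`
  have hφQ : ⁅Q, Subgroup.zpowers φ⁆ ≠ ⊥ := by
    intro h
    apply hcon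
    have h6 : ⁅⁅P, Subgroup.zpowers φ⁆, Q⁆ = ⊥ := by
      apply Subgroup.commutator_commutator_eq_bot_of_rotate
      · rw [Subgroup.commutator_comm (Subgroup.zpowers φ) Q, h, Subgroup.commutator_bot_left]
      · rw [h1, h]
    rw [hPe, MinAct.commutator_eq_bot_iff] at h6
    exact h6
  -- `Q` is not abelian
  have hab : ⁅Q, Q⁆ ≠ ⊥ := by
    intro hab
    apply hφQ
    rw [MinAct.commutator_eq_bot_iff] at hab ⊢
    have h6 := comm_of_min ρ Q (cast_card_ne_zero hsF hQ) hab (Subgroup.zpowers σ)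
      (cast_card_ne_zero h2F hC2) hσQ (fun v hv => hV v (hv σ (Subgroup.mem_zpowers σ)))
      (φ := φ) (hφC (Subgroup.mem_zpowers φ)) (fun H hH hH1 => mem_of_ne_bot h2p hσ hH hH1)
    intro x hx y hy
    exact (commute_zpowers (hρcomm _ _ (h6 x hx)) y hy).symm
  have h6 := h5 hab
  set Z : Subgroup Γ := Q ⊓ Subgroup.centralizer (Q : Set Γ) with hZdef
  have hQn : Q.Normal := by
    rw [← Subgroup.normalizer_eq_top_iff, eq_top_iff, ← hgen]
    exact sup_le (sup_le hPQ Subgroup.le_normalizer) hσQ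
  have hZn : Z.Normal := inferInstance
  have hZQ : Z ≤ Q := inf_le_left
  have hZc : ∀ z ∈ Z, ∀ x ∈ Q, z * x = x * z := fun z hz => (mem_inf_centralizer.1 hz).2
  have hZP : ∀ z ∈ Z, ∀ x ∈ P, z * x = x * z := fun z hz => (mem_inf_centralizer.1 (h6 hz)).2
  have hZab : ∀ a ∈ Z, ∀ b ∈ Z, a * b = b * a := fun a ha b hb => hZc a ha b (hZQ hb)
  have hZF : (Nat.card Z : F) ≠ 0 := cast_card_ne_zero hsF (hQ.to_le hZQ)
  have hCF : (Nat.card (Subgroup.zpowers σ) : F) ≠ 0 := cast_card_ne_zero h2F hC2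
  have hfixC : ∀ v, (∀ a ∈ Subgroup.zpowers σ, ρ a v = v) → v = 0 :=
    fun v hv => hV v (hv σ (Subgroup.mem_zpowers σ))
  obtain ⟨χ, hχ⟩ : ∃ χ : Z → F, wt ρ Z χ ≠ ⊥ := by
    by_contra hcon
    push Not at hcon
    have h1 := iSup_wt ρ Z hZF hZab
    have h2 : ⨆ χ : Z → F, wt ρ Z χ = ⊥ := by
      rw [iSup_eq_bot]; exact hcon
    rw [h2] at h1
    exact bot_ne_top h1
  have hsmul : ∀ x : Γ, (∀ z ∈ Z, z * x = x * z) → x • χ = χ := by
    intro x hx
    funext z
    rw [wt_smul_def]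
    congr 1
    apply Subtype.ext
    rw [MulAut.conjNormal_apply]
    have h7 : Commute (z : Γ) x := hx z z.2
    rw [← h7.inv_right.eq, mul_inv_cancel_right]
  have hPM : P ≤ MulAction.stabilizer Γ χ := fun x hx => hsmul x (fun z hz => hZP z hz x hx)
  have hQM : Q ≤ MulAction.stabilizer Γ χ := fun x hx => hsmul x (fun z hz => hZc z hz x hx)
  -- `σ` stabilises `χ`
  have hσχ : σ • χ = χ := by
    by_contra hne
    obtain ⟨j, hj1, hst⟩ := T2Odd.exists_zpowers h2p hσ
      (stab_le (N := Z) (A := Subgroup.zpowers σ) (χ := χ))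
    have hj0 : j ≠ 0 := by
      rintro rfl
      rw [pow_zero, pow_one] at hst
      have : σ ∈ stab Z (Subgroup.zpowers σ) χ := by rw [hst]; exact Subgroup.mem_zpowers σ
      exact hne this.2
    have hjm : j ≤ m := by
      by_contra hcon
      have h7 : j = m + 1 := by omega
      rw [h7, hσ, Subgroup.zpowers_one_eq_bot] at hst
      exact stab_ne_bot ρ Z hZF hZab (Subgroup.zpowers σ) hCF hfixC hχ hst
    set τ := σ ^ 2 ^ j with hτ
    have hτS : τ ∈ stab Z (Subgroup.zpowers σ) χ := by rw [hst]; exact Subgroup.mem_zpowers τ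
    have hτM : τ ∈ MulAction.stabilizer Γ χ := hτS.2
    have hτφ : τ ^ 2 ^ (m - j) = φ := by
      rw [hτ, hφdef, ← pow_mul, ← pow_add]
      congr 2
      omega
    have hτ1 : τ ^ 2 ^ (m - j + 1) = 1 := by
      rw [hτ, ← pow_mul, ← pow_add]
      have : j + (m - j + 1) = m + 1 := by omega
      rw [this, hσ]
    -- the weight space is proper
    have hwne : wt ρ Z χ ≠ ⊤ := by
      intro htop
      apply hne
      obtain ⟨v, hv⟩ := exists_ne (0 : V)
      have hv1 : v ∈ wt ρ Z χ := by rw [htop]; trivial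
      have hv2 : v ∈ wt ρ Z (σ • χ) := by
        have h7 : ρ σ⁻¹ v ∈ wt ρ Z χ := by rw [htop]; trivial
        have h8 := smul_mem_wt h7 σ
        rwa [← End.mul_apply, ← map_mul, mul_inv_cancel, map_one, End.one_apply] at h8
      funext z
      have h7 := (mem_wt.1 hv1) z
      have h8 := (mem_wt.1 hv2) z
      rw [h7] at h8
      exact (smul_left_injective F hv h8).symm
    have hfr : finrank F (wt ρ Z χ) < finrank F V := Submodule.finrank_lt hwne
    let M : Subgroup Γ := MulAction.stabilizer Γ χ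
    have hPe' : (P.subgroupOf M).map M.subtype = P := by
      rw [Subgroup.subgroupOf_map_subtype, inf_eq_left.2 hPM]
    have hcP : Nat.card (P.subgroupOf M) = Nat.card P :=
      Nat.card_congr (Subgroup.subgroupOfEquivOfLe hPM).toEquiv
    have hcQ : Nat.card (Q.subgroupOf M) = Nat.card Q :=
      Nat.card_congr (Subgroup.subgroupOfEquivOfLe hQM).toEquiv
    have hτσ : Subgroup.zpowers τ ≤ Subgroup.zpowers σ := pow_mem_zpowers σ (2 ^ j)
    have hzτ : ∀ a ∈ Subgroup.zpowers (⟨τ, hτM⟩ : M), (a : Γ) ∈ Subgroup.zpowers σ := by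
      rintro _ ⟨i, rfl⟩
      exact hτσ ⟨i, rfl⟩
    have key := IH M (wt ρ Z χ) (T2Odd.wrep ρ Z χ) (m - j) ⟨τ, hτM⟩ (P.subgroupOf M) (Q.subgroupOf M)
      (by rw [hcP, hcQ]; omega) (hP.of_equiv (Subgroup.subgroupOfEquivOfLe hPM).symm)
      (hQ.of_equiv (Subgroup.subgroupOfEquivOfLe hQM).symm) (Subtype.ext hτ1) (by
        apply le_normalizer_of_conj
        intro a ha x hx
        exact conj_of_le_normalizer (a := (a : Γ)) (x := (x : Γ)) hσP (hzτ a ha) hx) (by
        apply le_normalizer_of_conj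
        intro a ha x hx
        exact conj_of_le_normalizer (a := (a : Γ)) (x := (x : Γ)) hσQ (hzτ a ha) hx) (by
        apply le_normalizer_of_conj
        intro a ha x hx
        exact conj_of_le_normalizer (a := (a : Γ)) (x := (x : Γ)) hPQ ha hx) (by
        intro v hv
        apply Subtype.ext
        have hv' : ρ τ v = v := congrArg Subtype.val hv
        apply eq_zero_of_stab_fixed ρ Z hZF hZab (Subgroup.zpowers σ) hCF hfixC v.2
        intro a ha ha'
        have h1 : a ∈ stab Z (Subgroup.zpowers σ) χ := ⟨ha, ha'⟩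
        rw [hst] at h1
        exact T2.pow_fixed ρ hv' a h1)
    have hPall : ∀ x (hx : x ∈ P), (⟨x, hPM hx⟩ : M) ∈
        (⁅P.subgroupOf M, Subgroup.zpowers ((⟨τ, hτM⟩ : M) ^ 2 ^ (m - j))⁆ : Subgroup M) := by
      intro x hx
      have h7 : x ∈ (⁅P.subgroupOf M, Subgroup.zpowers ((⟨τ, hτM⟩ : M) ^ 2 ^ (m - j))⁆ :
          Subgroup M).map M.subtype := by
        rw [Subgroup.map_commutator, hPe', MonoidHom.map_zpowers, map_pow]
        show x ∈ (⁅P, Subgroup.zpowers (τ ^ 2 ^ (m - j))⁆ : Subgroup Γ)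
        rw [hτφ, hPe]
        exact hx
      obtain ⟨y, hy, hxy⟩ := h7
      have h8 : (⟨x, hPM hx⟩ : M) = y := Subtype.ext hxy.symm
      rw [h8]
      exact hy
    -- `Q` acts trivially on the weight space
    let K : Subgroup Γ := (MonoidHom.ker (T2Odd.wrep ρ Z χ)).map M.subtype
    have hQK : Q ≤ K := by
      rw [← h1, Subgroup.commutator_le]
      intro y hy u hu
      have h7 := key ⟨u, hPM hu⟩ (hPall u hu) ⟨y, hQM hy⟩ hy
      refine ⟨(⟨y, hQM hy⟩ : M) * ⟨u, hPM hu⟩ * (⟨y, hQM hy⟩ : M)⁻¹ * (⟨u, hPM hu⟩ : M)⁻¹, ?_, ?_⟩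
      · rw [SetLike.mem_coe, MonoidHom.mem_ker]
        have h8 : (⟨y, hQM hy⟩ : M) * ⟨u, hPM hu⟩ * (⟨y, hQM hy⟩ : M)⁻¹ * (⟨u, hPM hu⟩ : M)⁻¹ =
            ((⟨y, hQM hy⟩ : M) * ⟨u, hPM hu⟩) * ((⟨u, hPM hu⟩ : M) * ⟨y, hQM hy⟩)⁻¹ := by group
        rw [h8, map_mul, ← h7, ← map_mul, mul_inv_cancel, map_one]
      · rw [commutatorElement_def]
        rfl
    let E : Submodule F V :=
      { carrier := {v | ∀ z ∈ Q, ρ z v = v}
        add_mem' := fun {a b} ha hb z hz => by rw [map_add, ha z hz, hb z hz]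
        zero_mem' := fun z _ => map_zero _
        smul_mem' := fun c a ha z hz => by rw [map_smul, ha z hz] }
    have hE : ∀ g, ∀ w ∈ E, ρ g w ∈ E := by
      intro g w hw z hz
      have h4 : z * g = g * (g⁻¹ * z * g⁻¹⁻¹) := by group
      rw [← End.mul_apply, ← map_mul, h4, map_mul, End.mul_apply, hw _ (hQn.conj_mem z hz g⁻¹)]
    rcases hirr E hE with h7 | h7
    · apply hχ
      rw [eq_bot_iff, ← h7]
      intro v hv z hz
      obtain ⟨z', hz', hzz⟩ := hQK hz
      have h8 := LinearMap.congr_fun (MonoidHom.mem_ker.1 hz') ⟨v, hv⟩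
      have h9 := congrArg Subtype.val h8
      rw [T2Odd.wrep_apply] at h9
      rw [← hzz]
      exact h9
    · apply hab
      rw [eq_bot_iff]
      refine (Subgroup.commutator_le_self Q).trans ?_
      intro z hz
      rw [Subgroup.mem_bot]
      apply hfaith z
      ext v
      have h8 : v ∈ E := by rw [h7]; trivial
      exact h8 z hz
  -- `Z` acts by scalars
  have hstab : MulAction.stabilizer Γ χ = ⊤ := by
    rw [eq_top_iff, ← hgen]
    refine sup_le (sup_le hPM hQM) ?_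
    rw [Subgroup.zpowers_le]
    exact hσχ
  have hwtop : wt ρ Z χ = ⊤ := by
    have h7 : ∀ g, ∀ w ∈ wt ρ Z χ, ρ g w ∈ wt ρ Z χ := by
      intro g w hw
      have h8 := smul_mem_wt hw g
      have h9 : g ∈ MulAction.stabilizer Γ χ := by rw [hstab]; trivial
      rwa [MulAction.mem_stabilizer_iff.1 h9] at h8
    rcases hirr _ h7 with h8 | h8
    · exact absurd h8 hχ
    · exact h8
  have hscal : ∀ z ∈ Z, ∃ c : F, ρ z = c • 1 := by
    intro z hz
    refine ⟨χ ⟨z, hz⟩, ?_⟩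
    ext v
    have hv : v ∈ wt ρ Z χ := by rw [hwtop]; trivial
    exact (mem_wt.1 hv) ⟨z, hz⟩
  have hcent : ∀ z ∈ Z, ∀ g, z * g = g * z := by
    intro z hz g
    obtain ⟨c, hc⟩ := hscal z hz
    apply hρcomm
    rw [map_mul, map_mul, hc, smul_mul_assoc, one_mul, mul_smul_comm, mul_one]
  have hdata : Data ρ m s σ Q Z :=
    { s_prime := hs
      s_ne := hs2
      twoF := h2F
      sF := hsF
      faithful := hfaith
      pow := hσ
      fixV := hV
      isp := hQ
      normQ := hσQ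
      le := hZQ
      central := hcent
      scalar := hscal
      mem := fun x hx hxy => mem_inf_centralizer.2 ⟨hx, hxy⟩
      comm := h2
      ne := hφQ }
  have h7 := WAct.trivial_action hdata hQn (fun x hx => h2 (h4 x hx)) hr hr2 hrs hP hσP hIH
  rw [← hφdef, hPe] at h7
  apply hab
  have h8 : Q ≤ Z := by
    conv_lhs => rw [← h1]
    rw [Subgroup.commutator_le]
    intro y hy u hu
    have h9 := h7 u hu y⁻¹ (Q.inv_mem hy)
    have h10 : ⁅y, u⁆ = y⁻¹⁻¹ * (u * y⁻¹ * u⁻¹) := by rw [commutatorElement_def]; group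
    rw [h10]
    exact h9
  rw [MinAct.commutator_eq_bot_iff]
  intro x hx y hy
  exact hZc x (h8 hx) y hy

theorem card_map_le {G H : Type*} [Group G] [Group H] [Finite G] (f : G →* H) (K : Subgroup G) :
    Nat.card (K.map f) ≤ Nat.card K :=
  Nat.card_le_card_of_surjective _ (f.subgroupMap_surjective K)

theorem goal_all {F : Type} [Field F] [IsAlgClosed F] {r s : ℕ} (hr : r.Prime) (hs : s.Prime)
    (hr2 : r ≠ 2) (hs2 : s ≠ 2) (hrs : r ≠ s) (h2F : (2 : F) ≠ 0) (hsF : (s : F) ≠ 0) :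
    ∀ k, Goal.{u} F r s k := by
  have h2f : Fact (Nat.Prime 2) := ⟨Nat.prime_two⟩
  have hrf : Fact r.Prime := ⟨hr⟩
  have hsf : Fact s.Prime := ⟨hs⟩
  intro k
  induction k with
  | zero =>
    intro Γ _ _ V _ _ _ ρ m σ P Q hk
    exact absurd hk (Nat.not_lt_zero _)
  | succ k IH =>
    intro Γ _ _ V _ _ _ ρ m σ P Q hk hP hQ hσ hσP hσQ hPQ hV u hu y hy
    have hφσ : Subgroup.zpowers (σ ^ 2 ^ m) ≤ Subgroup.zpowers σ := pow_mem_zpowers σ (2 ^ m)
    have huP : u ∈ P := commutator_le_left (hφσ.trans hσP) hu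
    let M : Subgroup Γ := P ⊔ Q ⊔ Subgroup.zpowers σ
    have hPM : P ≤ M := le_sup_left.trans le_sup_left
    have hQM : Q ≤ M := le_sup_right.trans le_sup_left
    have hσM : Subgroup.zpowers σ ≤ M := le_sup_right
    have hσM' : σ ∈ M := hσM (Subgroup.mem_zpowers σ)
    have hcA : Nat.card ((Subgroup.zpowers σ).subgroupOf M) = Nat.card (Subgroup.zpowers σ) :=
      Nat.card_congr (Subgroup.subgroupOfEquivOfLe hσM).toEquiv
    have hAF : (Nat.card ((Subgroup.zpowers σ).subgroupOf M) : F) ≠ 0 := by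
      rw [hcA]
      exact cast_card_ne_zero h2F (isPGroup_zpowers hσ)
    have hQF : (Nat.card Q : F) ≠ 0 := cast_card_ne_zero hsF hQ
    have hgQ : u * y * u⁻¹ * y⁻¹ ∈ Q :=
      Q.mul_mem (conj_of_le_normalizer hPQ huP hy) (Q.inv_mem hy)
    have hgM : u * y * u⁻¹ * y⁻¹ ∈ M := hQM hgQ
    have hpow : (⟨u * y * u⁻¹ * y⁻¹, hgM⟩ : M) ^ Nat.card Q = 1 := by
      have h1 := congrArg Subtype.val (pow_card_eq_one' (x := (⟨_, hgQ⟩ : Q)))
      exact Subtype.ext h1
    have hQe : (Q.subgroupOf M).map M.subtype = Q := by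
      rw [Subgroup.subgroupOf_map_subtype, inf_eq_left.2 hQM]
    have hPe : (P.subgroupOf M).map M.subtype = P := by
      rw [Subgroup.subgroupOf_map_subtype, inf_eq_left.2 hPM]
    have hgen : P.subgroupOf M ⊔ Q.subgroupOf M ⊔ Subgroup.zpowers (⟨σ, hσM'⟩ : M) = ⊤ := by
      apply Subgroup.map_injective M.subtype_injective
      rw [Subgroup.map_sup, Subgroup.map_sup, hQe, hPe, MonoidHom.map_zpowers,
        ← MonoidHom.range_eq_map, Subgroup.range_subtype]
      rfl
    have hzM : ∀ a ∈ Subgroup.zpowers (⟨σ, hσM'⟩ : M), (a : Γ) ∈ Subgroup.zpowers σ := by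
      rintro _ ⟨i, rfl⟩
      exact ⟨i, rfl⟩
    have hcP : Nat.card (P.subgroupOf M) = Nat.card P :=
      Nat.card_congr (Subgroup.subgroupOfEquivOfLe hPM).toEquiv
    have hcQ : Nat.card (Q.subgroupOf M) = Nat.card Q :=
      Nat.card_congr (Subgroup.subgroupOfEquivOfLe hQM).toEquiv
    have huM : (⟨u, hPM huP⟩ : M) ∈
        (⁅P.subgroupOf M, Subgroup.zpowers ((⟨σ, hσM'⟩ : M) ^ 2 ^ m)⁆ : Subgroup M) := by
      have h7 : u ∈ (⁅P.subgroupOf M, Subgroup.zpowers ((⟨σ, hσM'⟩ : M) ^ 2 ^ m)⁆ :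
          Subgroup M).map M.subtype := by
        rw [Subgroup.map_commutator, hPe, MonoidHom.map_zpowers, map_pow]
        exact hu
      obtain ⟨x, hx, hxy⟩ := h7
      have h8 : (⟨u, hPM huP⟩ : M) = x := Subtype.ext hxy.symm
      rw [h8]
      exact hx
    have key := of_irr_le ((Subgroup.zpowers σ).subgroupOf M) hAF
      (⟨u * y * u⁻¹ * y⁻¹, hgM⟩ : M) hQF hpow (finrank F V) (by
      intro V' _ _ _ ρ' hfr hnt hirr hV'
      let N : Subgroup M := MonoidHom.ker ρ'
      have hNn : N.Normal := MonoidHom.normal_ker ρ'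
      let ρ'' : Representation F (M ⧸ N) V' := QuotientGroup.lift N ρ' le_rfl
      have hρ'' : ∀ g, ρ'' (QuotientGroup.mk' N g) = ρ' g := fun g => rfl
      let f : M →* M ⧸ N := QuotientGroup.mk' N
      have hf : Function.Surjective f := QuotientGroup.mk'_surjective N
      have h1 := card_map_le f (P.subgroupOf M)
      have h2 := card_map_le f (Q.subgroupOf M)
      have h3 := core hr hs hr2 hs2 hrs h2F hsF IH ρ'' (m := m) (σ := f ⟨σ, hσM'⟩)
        (P := (P.subgroupOf M).map f) (Q := (Q.subgroupOf M).map f) (by omega)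
        ((hP.of_equiv (Subgroup.subgroupOfEquivOfLe hPM).symm).map f)
        ((hQ.of_equiv (Subgroup.subgroupOfEquivOfLe hQM).symm).map f)
        (by rw [← map_pow]; exact (congrArg f (Subtype.ext hσ)).trans (map_one f)) (by
          rw [← MonoidHom.map_zpowers]
          apply le_normalizer_of_conj
          rintro _ ⟨a, ha, rfl⟩ _ ⟨x, hx, rfl⟩
          exact ⟨a * x * a⁻¹, conj_of_le_normalizer (a := (a : Γ)) (x := (x : Γ)) hσP (hzM a ha) hx,
            by rw [map_mul, map_mul, map_inv]⟩) (by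
          rw [← MonoidHom.map_zpowers]
          apply le_normalizer_of_conj
          rintro _ ⟨a, ha, rfl⟩ _ ⟨x, hx, rfl⟩
          exact ⟨a * x * a⁻¹, conj_of_le_normalizer (a := (a : Γ)) (x := (x : Γ)) hσQ (hzM a ha) hx,
            by rw [map_mul, map_mul, map_inv]⟩) (by
          apply le_normalizer_of_conj
          rintro _ ⟨a, ha, rfl⟩ _ ⟨x, hx, rfl⟩
          exact ⟨a * x * a⁻¹, conj_of_le_normalizer (a := (a : Γ)) (x := (x : Γ)) hPQ ha hx,
            by rw [map_mul, map_mul, map_inv]⟩) (by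
          intro v hv
          apply hV'
          rintro ⟨a, ha'⟩ ha
          exact T2.pow_fixed ρ'  (σ := (⟨σ, hσM'⟩ : M)) hv ⟨a, ha'⟩ (by
            obtain ⟨i, hi⟩ := ha
            exact ⟨i, Subtype.ext hi⟩)) (by
          rw [← MonoidHom.map_zpowers, ← Subgroup.map_sup, ← Subgroup.map_sup, hgen,
            Subgroup.map_top_of_surjective _ hf]) hnt (by
          intro W hW
          exact hirr W (fun g w hw => hW (f g) w hw)) (by
          intro g hg
          obtain ⟨g, rfl⟩ := hf g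
          exact (QuotientGroup.eq_one_iff g).2 (MonoidHom.mem_ker.2 hg))
      have h4 := h3 (f ⟨u, hPM huP⟩) (by
        rw [← map_pow, ← MonoidHom.map_zpowers, ← Subgroup.map_commutator]
        exact ⟨_, huM, rfl⟩) (f ⟨y, hQM hy⟩) ⟨_, hy, rfl⟩
      have h5 : ρ' (⟨u, hPM huP⟩ * ⟨y, hQM hy⟩) = ρ' (⟨y, hQM hy⟩ * ⟨u, hPM huP⟩) := by
        have h7 := congrArg ρ'' h4
        rw [← map_mul f, ← map_mul f] at h7
        exact h7
      have h6 : (⟨u * y * u⁻¹ * y⁻¹, hgM⟩ : M) =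
          (⟨u, hPM huP⟩ * ⟨y, hQM hy⟩) * (⟨y, hQM hy⟩ * ⟨u, hPM huP⟩)⁻¹ := by
        apply Subtype.ext
        show u * y * u⁻¹ * y⁻¹ = (u * y) * (y * u)⁻¹
        group
      rw [h6, map_mul, h5, ← map_mul, mul_inv_cancel, map_one]) _ le_rfl V (ρ.comp M.subtype) rfl (by
      intro v hv
      exact hV v (hv ⟨σ, hσM'⟩ (Subgroup.mem_zpowers σ)))
    have h3 : ρ (u * y * u⁻¹ * y⁻¹) = 1 := key
    have h4 : u * y = (u * y * u⁻¹ * y⁻¹) * (y * u) := by group
    rw [h4, map_mul, h3, one_mul]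

theorem t3_two (m : ℕ) : T3 2 (Cyc.{u} 2 m) := by
  rintro Γ _ _ A D P Q r s F _ _ V _ _ _ ρ ⟨σ, rfl, rfl, hσ⟩ _ hr hs hr2 hs2 hrs hP hQ hσP hσQ hPQ
    _ _ h2F hsF hV u hu y hy
  exact goal_all hr hs hr2 hs2 hrs (by exact_mod_cast h2F) hsF _ Γ V ρ m σ P Q (Nat.lt_succ_self _)
    hP hQ hσ hσP hσQ hPQ (fun v hv => hV v (fun a ha => T2.pow_fixed ρ hv a ha)) u hu y hy

end Cfsg.Agent.H452.Gross
end

-- part: H452/EvenExt
section
/-!
# Gross's theorem on fixed point free automorphisms of order `2 ^ n`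
-/

set_option autoImplicit false

namespace Cfsg.Agent.H452.EvenExt

open Cfsg.Agent.H452.T2 Cfsg.Agent.H452.Ext Cfsg.Agent.H452.Two Cfsg.Agent.H452.T2Odd

universe u

theorem chain_two {G : Type u} [Group G] [Finite G] (hG : Group.IsSolvable G) (σ : MulAut G)
    (hσ : σ ^ 4 = 1) (hfpf : ∀ g : G, σ g = g → g = 1) : HasChain G 2 := by
  obtain ⟨L, h1, h2, h3⟩ := order_four hG σ hσ hfpf
  have hcomm : IsMulCommutative (G ⧸ L) := Subgroup.Normal.quotient_commutative_iff_commutator_le.mpr h3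
  refine chain_of_quot L h2 (chain_of_quot (⊤ : Subgroup (G ⧸ L)) ?_ ?_)
  · rw [Subgroup.isNilpotent_iff_lowerCentralSeries]
    refine ⟨1, ?_⟩
    rw [Subgroup.lowerCentralSeries_succ, MinAct.commutator_eq_bot_iff]
    intro x _ y _
    exact hcomm.1.comm x y
  · apply hasChain_zero
    intro g
    obtain ⟨x, rfl⟩ := QuotientGroup.mk_surjective g
    exact (QuotientGroup.eq_one_iff x).2 (Subgroup.mem_top x)

theorem gross : ∀ (j : ℕ) (G : Type u) [Group G] [Finite G], Group.IsSolvable G → ∀ σ : MulAut G,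
    σ ^ 2 ^ (j + 2) = 1 → (∀ g : G, σ g = g → g = 1) → HasChain G (2 * j + 2) := by
  have : Fact (2 : ℕ).Prime := ⟨Nat.prime_two⟩
  intro j
  induction j with
  | zero =>
    intro G _ _ hG σ hσ hfpf
    exact chain_two hG σ hσ hfpf
  | succ j ih =>
    intro G _ _ hG σ hσ hfpf
    obtain ⟨N, L, hN, hL, hNL, hNn, hk, hA, hD, -⟩ := ExtTwo.h2_ext (closed_cyc 2 (j + 2))
      (Gross.t3_two (j + 2)) hG (Subgroup.zpowers σ) (Subgroup.zpowers (σ ^ 2 ^ (j + 2)))
      (pow_mem_zpowers σ _) (isPGroup_zpowers hσ) (fixed_zpowers hfpf) (cyc_sd σ hσ)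
    obtain ⟨τ, hτ, hτf⟩ := exists_quotAut L σ (fun g hg => hA σ (Subgroup.mem_zpowers σ) g hg) hfpf
    have hs : Group.IsSolvable (G ⧸ L) :=
      Group.isSolvable_of_surjective (QuotientGroup.mk'_surjective L)
    have h1 := ih (G ⧸ L) hs τ
      (OddExt.quot_pow_eq_one hτ (fun g => hD _ (Subgroup.mem_zpowers _) g)) hτf
    have h2 := chain_of_quot_two N L hNL hNn hk h1
    exact h2

end Cfsg.Agent.H452.EvenExt
end

-- part: S3795
section
set_option autoImplicit false
open Cfsg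

namespace Cfsg.Agent.S3795

/-- Gross's Theorem: let G be a finite solvable group with an automorphism σ of order 2^n, n > 1, fixing only the identity. Then G has Fitting height at most 2n − 2: G has Fitting height at most m when there is a chain of normal subgroups 1 = F₀ ≤ F₁ ≤ ⋯ ≤ F_m = G with each F_{i+1}/F_i nilpotent. -/
theorem result {G : Type*} [Group G] [Finite G] (hG : Group.IsSolvable G) (σ : MulAut G) (n : ℕ) (hn : 1 < n) (hσ : orderOf σ = 2 ^ n) (hfpf : ∀ g : G, σ g = g → g = 1) : ∃ F : Fin ((2 * n - 2) + 1) → Subgroup G, F 0 = ⊥ ∧ F (Fin.last (2 * n - 2)) = ⊤ ∧ Monotone F ∧ (∀ i, (F i).Normal) ∧ ∀ i : Fin (2 * n - 2), ∃ k : ℕ, (F i.succ).lowerCentralSeries k ≤ F i.castSucc := by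
  obtain ⟨j, rfl⟩ := Nat.exists_eq_add_of_lt hn
  have h1 : σ ^ 2 ^ (j + 2) = 1 := by
    have h2 : 1 + j + 1 = j + 2 := by omega
    rw [← h2, ← hσ, pow_orderOf_eq_one]
  have h2 := H452.EvenExt.gross j G hG σ h1 hfpf
  have h3 : 2 * (1 + j + 1) - 2 = 2 * j + 2 := by omega
  rw [h3]
  exact h2

end Cfsg.Agent.S3795
end
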