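import Mathlib
import Cfsg.Agent.S1160
import Cfsg.Agent.S0012
import Cfsg.Agent.Lib.CoprimeStab
import Cfsg.Agent.H453.PLen
import Cfsg.Agent.Lib.Zsigmondy
import Cfsg.Agent.OddOrderLocal.RankTwoFitting
import Cfsg.Statements.S3797
set_option linter.all false

-- part: H453/Quad
section
/-!
# Anisotropic quadratic maps over `𝔽₂`: Gauss sums

`s : U → W` a quadratic map between finite `𝔽₂`-spaces with `s x = 0 → x = 0`.
* `card_eq`: if all fibres over nonzero elements have the same size then `|U| = |W|` or `|U| = |W|²`.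
* `idem`: if moreover `|U| = |W|²` then a self-adjoint idempotent is `0` or `1`.
-/

set_option autoImplicit false
set_option linter.unusedSectionVars false

namespace Cfsg.Agent.H453.Quad

open Finset

/-- the sign -/
def e (a : ZMod 2) : ℤ := if a = 0 then 1 else -1

theorem e_zero : e 0 = 1 := rfl

theorem e_add (a b : ZMod 2) : e (a + b) = e a * e b := by
  revert a b; decide

theorem e_one : e 1 = -1 := rfl

theorem e_cases (a : ZMod 2) : e a = 1 ∨ e a = -1 := by
  revert a; decide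

theorem e_sq (a : ZMod 2) : e a * e a = 1 := by
  revert a; decide

/-- orthogonality -/
theorem sum_e {A : Type*} [AddCommGroup A] [Fintype A] (φ : A →+ ZMod 2) :
    (φ = 0 ∧ ∑ a, e (φ a) = Fintype.card A) ∨ (φ ≠ 0 ∧ ∑ a, e (φ a) = 0) := by
  by_cases h : φ = 0
  · left
    refine ⟨h, ?_⟩
    subst h
    simp [e_zero]
  · right
    refine ⟨h, ?_⟩
    obtain ⟨b, hb⟩ : ∃ b, φ b ≠ 0 := by
      by_contra hc
      push Not at hc
      exact h (AddMonoidHom.ext hc)
    have hb1 : φ b = 1 := by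
      have : ∀ a : ZMod 2, a ≠ 0 → a = 1 := by decide
      exact this _ hb
    have h1 : ∑ a, e (φ a) = ∑ a, e (φ (a + b)) :=
      (Equiv.sum_comp (Equiv.addRight b) (fun a => e (φ a))).symm
    have h2 : ∑ a, e (φ (a + b)) = - ∑ a, e (φ a) := by
      rw [← Finset.sum_neg_distrib]
      refine Finset.sum_congr rfl fun a _ => ?_
      rw [map_add, e_add, hb1, e_one]
      ring
    have h3 : ∑ a, e (φ a) = - ∑ a, e (φ a) := h1.trans h2
    omega

variable {U W : Type*} [AddCommGroup U] [AddCommGroup W] [Module (ZMod 2) U] [Module (ZMod 2) W]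

theorem add_self {A : Type*} [AddCommGroup A] [Module (ZMod 2) A] (x : A) : x + x = 0 := by
  have h : (2 : ZMod 2) • x = 0 := by
    rw [show (2 : ZMod 2) = 0 from rfl, zero_smul]
  rwa [two_smul] at h

/-- the polar form -/
def b (s : U → W) (x y : U) : W := s (x + y) + s x + s y

/-- quadratic maps -/
structure IsQ (s : U → W) : Prop where
  zero : s 0 = 0
  add_left : ∀ x y z, b s (x + y) z = b s x z + b s y z

theorem b_comm (s : U → W) (x y : U) : b s x y = b s y x := by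
  simp only [b, add_comm x y]
  abel

theorem IsQ.add_right {s : U → W} (h : IsQ s) (x y z : U) : b s x (y + z) = b s x y + b s x z := by
  rw [b_comm, h.add_left, b_comm s y, b_comm s z]

theorem s_add (s : U → W) (x y : U) : s (x + y) = b s x y + s x + s y := by
  rw [b]
  have h1 := add_self (s x)
  have h2 := add_self (s y)
  calc s (x + y) = s (x + y) + (s x + s x) + (s y + s y) := by rw [h1, h2, add_zero, add_zero]
    _ = _ := by abel

/-- the polar form composed with a functional, as a homomorphism in the first variable -/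
def bHom {s : U → W} (h : IsQ s) (χ : W →ₗ[ZMod 2] ZMod 2) (z : U) : U →+ ZMod 2 :=
  AddMonoidHom.mk' (fun x => χ (b s x z)) (fun x y => by
    show χ (b s (x + y) z) = χ (b s x z) + χ (b s y z)
    rw [h.add_left, map_add])

/-- the radical -/
def Rad {s : U → W} (h : IsQ s) (χ : W →ₗ[ZMod 2] ZMod 2) : AddSubgroup U where
  carrier := {z | ∀ x, χ (b s x z) = 0}
  zero_mem' := by
    intro x
    have h1 := h.add_right x 0 0
    rw [add_zero] at h1
    have h2 : b s x 0 = 0 := by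
      have h3 := add_self (b s x 0)
      rw [h3] at h1
      exact h1
    rw [h2, map_zero]
  add_mem' := by
    intro z z' hz hz' x
    rw [h.add_right, map_add, hz x, hz' x, add_zero]
  neg_mem' := by
    intro z hz x
    have : -z = z := neg_eq_of_add_eq_zero_left (add_self z)
    rw [this]; exact hz x

section

variable [Fintype U] [Fintype W]

/-- the Gauss sum -/
def G (s : U → W) (χ : W →ₗ[ZMod 2] ZMod 2) : ℤ := ∑ x, e (χ (s x))

theorem G_sq {s : U → W} (h : IsQ s) (χ : W →ₗ[ZMod 2] ZMod 2) :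
    G s χ ^ 2 = 0 ∨ G s χ ^ 2 = Nat.card U * Nat.card (Rad h χ) := by
  classical
  have h1 : G s χ ^ 2 = ∑ z, e (χ (s z)) * ∑ x, e (bHom h χ z x) := by
    have h2 : ∀ x : U, G s χ = ∑ z, e (χ (s (x + z))) := fun x =>
      (Equiv.sum_comp (Equiv.addLeft x) (fun a => e (χ (s a)))).symm
    have h3 : G s χ ^ 2 = ∑ x, e (χ (s x)) * G s χ := by
      rw [← Finset.sum_mul, pow_two]; rfl
    rw [h3]
    simp_rw [Finset.mul_sum]
    rw [Finset.sum_comm]
    have h4 : ∀ x, e (χ (s x)) * G s χ = ∑ z, e (χ (s z)) * e (bHom h χ z x) := by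
      intro x
      rw [h2 x, Finset.mul_sum]
      refine Finset.sum_congr rfl fun z _ => ?_
      have h5 : e (χ (s (x + z))) = e (bHom h χ z x) * e (χ (s x)) * e (χ (s z)) := by
        rw [s_add s, map_add, map_add, e_add, e_add]; rfl
      rw [h5]
      have h6 := e_sq (χ (s x))
      calc e (χ (s x)) * (e (bHom h χ z x) * e (χ (s x)) * e (χ (s z)))
          = (e (χ (s x)) * e (χ (s x))) * (e (χ (s z)) * e (bHom h χ z x)) := by ring
        _ = _ := by rw [h6, one_mul]
    exact Finset.sum_congr rfl fun x _ => h4 x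
  have h2 : ∀ z, ∑ x, e (bHom h χ z x) = if z ∈ Rad h χ then (Fintype.card U : ℤ) else 0 := by
    intro z
    rcases sum_e (bHom h χ z) with ⟨h3, h4⟩ | ⟨h3, h4⟩
    · rw [h4, if_pos]
      intro x
      exact DFunLike.congr_fun h3 x
    · rw [h4, if_neg]
      intro hz
      exact h3 (AddMonoidHom.ext fun x => hz x)
  rw [h1]
  simp_rw [h2]
  have h3 : ∑ z, e (χ (s z)) * (if z ∈ Rad h χ then (Fintype.card U : ℤ) else 0) =
      Fintype.card U * ∑ z : Rad h χ, e (χ (s z)) := by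
    rw [Finset.mul_sum]
    simp_rw [mul_ite, mul_zero]
    rw [← Finset.sum_filter]
    rw [Finset.sum_subtype (p := fun z => z ∈ Rad h χ) (Finset.univ.filter (fun z => z ∈ Rad h χ)) (by simp)
      (fun z => e (χ (s z)) * (Fintype.card U : ℤ))]
    exact Finset.sum_congr rfl fun z _ => mul_comm _ _
  rw [h3]
  let φ : Rad h χ →+ ZMod 2 := AddMonoidHom.mk' (fun z => χ (s z)) (fun z z' => by
    show χ (s ((z : U) + z')) = _
    rw [s_add s, map_add, map_add, z'.2 z, zero_add])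
  rcases sum_e φ with ⟨-, h4⟩ | ⟨-, h4⟩
  · right
    have h5 : ∑ z : Rad h χ, e (χ (s z)) = Fintype.card (Rad h χ) := h4
    rw [h5, Nat.card_eq_fintype_card, Nat.card_eq_fintype_card]
  · left
    have h5 : ∑ z : Rad h χ, e (χ (s z)) = 0 := h4
    rw [h5, mul_zero]

theorem card_pow (A : Type*) [AddCommGroup A] [Module (ZMod 2) A] [Finite A] :
    Nat.card A = 2 ^ Module.finrank (ZMod 2) A := by
  have : Module.Finite (ZMod 2) A := Module.Finite.of_finite
  have h := Module.natCard_eq_pow_finrank (K := ZMod 2) (V := A)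
  rwa [Nat.card_zmod] at h

theorem card_addSubgroup (A : AddSubgroup U) : ∃ k, Nat.card A = 2 ^ k := by
  have h1 : Nat.card A ∣ Nat.card U := AddSubgroup.card_addSubgroup_dvd_card A
  rw [card_pow U] at h1
  obtain ⟨k, -, hk⟩ := (Nat.dvd_prime_pow Nat.prime_two).mp h1
  exact ⟨k, hk⟩

/-- a nonzero Gauss sum is plus or minus a power of two -/
theorem G_cases {s : U → W} (h : IsQ s) (χ : W →ₗ[ZMod 2] ZMod 2) :
    G s χ = 0 ∨ ∃ j, G s χ = 2 ^ j ∨ G s χ = - 2 ^ j := by
  rcases G_sq h χ with h1 | h1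
  · left; exact pow_eq_zero_iff (two_ne_zero) |>.mp h1
  · right
    obtain ⟨k, hk⟩ := card_addSubgroup (Rad h χ)
    have h2 : (G s χ).natAbs ^ 2 = 2 ^ (Module.finrank (ZMod 2) U + k) := by
      have h3 : ((G s χ).natAbs ^ 2 : ℤ) = (2 ^ (Module.finrank (ZMod 2) U + k) : ℕ) := by
        rw [Int.natAbs_sq, h1, hk, card_pow U, pow_add]
        push_cast; ring
      exact_mod_cast h3
    have h3 : (G s χ).natAbs ∣ 2 ^ (Module.finrank (ZMod 2) U + k) := by
      rw [← h2]; exact dvd_pow_self _ two_ne_zero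
    obtain ⟨j, -, hj⟩ := (Nat.dvd_prime_pow Nat.prime_two).mp h3
    refine ⟨j, ?_⟩
    rcases Int.natAbs_eq (G s χ) with h4 | h4
    · left; rw [h4, hj]; push_cast; ring
    · right; rw [h4, hj]; push_cast; ring

/-- the number of elements of a fibre -/
noncomputable def fib (s : U → W) (w : W) : ℕ := Nat.card {x : U // s x = w}

theorem sum_fib [DecidableEq W] (s : U → W) (g : W → ℤ) : ∑ x, g (s x) = ∑ w, (fib s w : ℤ) * g w := by
  classical
  rw [← Finset.sum_fiberwise_of_maps_to (s := Finset.univ) (t := Finset.univ) (g := s)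
    (fun x _ => Finset.mem_univ _)]
  refine Finset.sum_congr rfl fun w _ => ?_
  rw [Finset.sum_congr rfl (g := fun _ => g w) (fun x hx => by rw [(Finset.mem_filter.mp hx).2]),
    Finset.sum_const, nsmul_eq_mul, fib, Nat.card_eq_fintype_card, Fintype.card_subtype]

theorem fib_zero {s : U → W} (h0 : s 0 = 0) (ha : ∀ x, s x = 0 → x = 0) : fib s 0 = 1 := by
  rw [fib, Nat.card_eq_one_iff_unique]
  exact ⟨⟨fun x y => Subtype.ext ((ha _ x.2).trans (ha _ y.2).symm)⟩, ⟨⟨0, h0⟩⟩⟩

theorem G_eq_of_fib {s : U → W} (h0 : s 0 = 0) (ha : ∀ x, s x = 0 → x = 0) {f : ℕ}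
    (hf : ∀ w, w ≠ 0 → fib s w = f) {χ : W →ₗ[ZMod 2] ZMod 2} (hχ : χ ≠ 0) : G s χ = 1 - f := by
  classical
  have h1 : G s χ = ∑ w, (fib s w : ℤ) * e (χ w) := sum_fib s (fun w => e (χ w))
  have h2 : ∑ w, e (χ w) = 0 := by
    rcases sum_e χ.toAddMonoidHom with ⟨h3, -⟩ | ⟨-, h3⟩
    · exact absurd (LinearMap.ext fun x => DFunLike.congr_fun h3 x) hχ
    · exact h3
  have h3 : ∀ w, (fib s w : ℤ) * e (χ w) = f * e (χ w) + (if w = 0 then (1 - f : ℤ) else 0) := by
    intro w
    by_cases hw : w = 0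
    · subst hw
      rw [fib_zero h0 ha, if_pos rfl, map_zero, e_zero]; push_cast; ring
    · rw [hf w hw, if_neg hw, add_zero]
  rw [h1, Finset.sum_congr rfl (fun w _ => h3 w), Finset.sum_add_distrib, ← Finset.mul_sum, h2]
  simp

theorem card_of_fib {s : U → W} (h0 : s 0 = 0) (ha : ∀ x, s x = 0 → x = 0) {f : ℕ}
    (hf : ∀ w, w ≠ 0 → fib s w = f) : (Nat.card U : ℤ) = 1 + f * (Nat.card W - 1) := by
  classical
  have h1 : ∑ x : U, (1 : ℤ) = ∑ w, (fib s w : ℤ) * 1 := sum_fib s (fun _ => 1)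
  have h3 : ∀ w, (fib s w : ℤ) * 1 = f + (if w = 0 then (1 - f : ℤ) else 0) := by
    intro w
    by_cases hw : w = 0
    · subst hw
      rw [fib_zero h0 ha, if_pos rfl]; push_cast; ring
    · rw [hf w hw, if_neg hw, add_zero]; ring
  rw [Finset.sum_congr rfl (fun w _ => h3 w), Finset.sum_add_distrib] at h1
  simp at h1
  rw [Nat.card_eq_fintype_card, Nat.card_eq_fintype_card, h1]
  ring

/-- `|U| = |W|` or `|U| = |W|²`. -/
theorem card_eq {s : U → W} (h : IsQ s) (ha : ∀ x, s x = 0 → x = 0) {f : ℕ}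
    (hf : ∀ w, w ≠ 0 → fib s w = f) (hf0 : f ≠ 0) (hW : Nontrivial W) :
    f = 1 ∨ (Nat.card U = Nat.card W ^ 2 ∧ f = Nat.card W + 1) := by
  obtain ⟨w, hw⟩ := exists_ne (0 : W)
  obtain ⟨χ, hχw⟩ : ∃ χ : W →ₗ[ZMod 2] ZMod 2, χ w ≠ 0 := by
    by_contra hc
    push Not at hc
    exact hw ((Module.forall_dual_apply_eq_zero_iff (ZMod 2) w).mp hc)
  have hχ : χ ≠ 0 := by
    rintro rfl; exact hχw rfl
  have h1 := G_eq_of_fib h.zero ha hf hχ
  have h2 := card_of_fib h.zero ha hf
  set n := Module.finrank (ZMod 2) W with hn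
  set m := Module.finrank (ZMod 2) U with hm
  have hn0 : n ≠ 0 := by
    intro h0
    have h3 := card_pow W
    rw [← hn, h0, pow_zero] at h3
    have := Finite.one_lt_card (α := W)
    omega
  rcases G_cases h χ with h3 | ⟨j, h3 | h3⟩
  · left
    rw [h1] at h3
    omega
  · rw [h1] at h3
    have h4 : (0 : ℤ) < 2 ^ j := by positivity
    omega
  · right
    have h4 : (f : ℤ) = 1 + 2 ^ j := by rw [h1] at h3; linarith
    rw [h4, card_pow U, card_pow W, ← hm, ← hn] at h2
    push_cast at h2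
    have h5 : (2 : ℤ) ^ m = 2 ^ n + 2 ^ j * (2 ^ n - 1) := by rw [h2]; ring
    have h6 : (1 : ℤ) < 2 ^ n := one_lt_pow₀ (by norm_num) hn0
    have hmn : n < m := by
      by_contra hc
      push Not at hc
      have h7 : (2 : ℤ) ^ m ≤ 2 ^ n := pow_le_pow_right₀ (by norm_num) hc
      have h8 : (0 : ℤ) < 2 ^ j * (2 ^ n - 1) := mul_pos (by positivity) (by linarith)
      linarith
    have h7 : (2 : ℤ) ^ n * (2 ^ (m - n) - 1) = 2 ^ j * (2 ^ n - 1) := by
      have : (2 : ℤ) ^ m = 2 ^ n * 2 ^ (m - n) := by rw [← pow_add]; congr 1; omega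
      rw [this] at h5
      linarith
    have hodd : ∀ k : ℕ, k ≠ 0 → ¬ (2 : ℤ) ∣ 2 ^ k - 1 := by
      intro k hk hd
      have h8 : (2 : ℤ) ∣ 2 ^ k := dvd_pow_self _ hk
      have h9 : (2 : ℤ) ∣ 1 := by
        have := dvd_sub h8 hd
        simpa using this
      norm_num at h9
    have hjn : j = n := by
      rcases lt_trichotomy j n with hlt | heq | hgt
      · exfalso
        have h8 : (2 : ℤ) ^ (n - j) * (2 ^ (m - n) - 1) = 2 ^ n - 1 := by
          have h9 : (2 : ℤ) ^ n = 2 ^ j * 2 ^ (n - j) := by rw [← pow_add]; congr 1; omega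
          have h10 : (2 : ℤ) ^ j * (2 ^ (n - j) * (2 ^ (m - n) - 1)) = 2 ^ j * (2 ^ n - 1) := by
            rw [← mul_assoc, ← h9, h7]
          exact mul_left_cancel₀ (by positivity) h10
        apply hodd n hn0
        rw [← h8]
        exact Dvd.dvd.mul_right (dvd_pow_self _ (by omega)) _
      · exact heq
      · exfalso
        have h8 : (2 : ℤ) ^ (m - n) - 1 = 2 ^ (j - n) * (2 ^ n - 1) := by
          have h9 : (2 : ℤ) ^ j = 2 ^ n * 2 ^ (j - n) := by rw [← pow_add]; congr 1; omega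
          have h10 : (2 : ℤ) ^ n * (2 ^ (m - n) - 1) = 2 ^ n * (2 ^ (j - n) * (2 ^ n - 1)) := by
            rw [← mul_assoc, ← h9, h7]
          exact mul_left_cancel₀ (by positivity) h10
        apply hodd (m - n) (by omega)
        rw [h8]
        exact Dvd.dvd.mul_right (dvd_pow_self _ (by omega)) _
    rw [hjn] at h7 h4
    have h8 : (2 : ℤ) ^ (m - n) - 1 = 2 ^ n - 1 := mul_left_cancel₀ (by positivity) h7
    have h9 : (2 : ℕ) ^ (m - n) = 2 ^ n := by
      have : (2 : ℤ) ^ (m - n) = 2 ^ n := by linarith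
      exact_mod_cast this
    have h10 : m - n = n := Nat.pow_right_injective (le_refl 2) h9
    refine ⟨?_, ?_⟩
    · rw [card_pow U, card_pow W, ← hm, ← hn, ← pow_mul]
      congr 1; omega
    · rw [card_pow W, ← hn]
      have : (f : ℤ) = ((2 ^ n + 1 : ℕ) : ℤ) := by rw [h4]; push_cast; ring
      exact_mod_cast this

end

/-- orthogonal decompositions are trivial -/
theorem compl {U W : Type*} [AddCommGroup U] [AddCommGroup W] [Module (ZMod 2) U] [Module (ZMod 2) W]
    [Fintype U] [Fintype W] {s : U → W} (h : IsQ s) (ha : ∀ x, s x = 0 → x = 0)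
    (hG : ∀ χ : W →ₗ[ZMod 2] ZMod 2, χ ≠ 0 → G s χ = - Nat.card W) (hW : Nontrivial W)
    (hU : Nat.card U = Nat.card W ^ 2)
    (U₀ U₁ : Submodule (ZMod 2) U) (hc : IsCompl U₀ U₁) (ho : ∀ x ∈ U₀, ∀ y ∈ U₁, b s x y = 0) :
    U₀ = ⊥ ∨ U₁ = ⊥ := by
  classical
  have hQ0 : IsQ (fun x : U₀ => s x) := ⟨h.zero, fun x y z => h.add_left x y z⟩
  have hQ1 : IsQ (fun x : U₁ => s x) := ⟨h.zero, fun x y z => h.add_left x y z⟩
  have hprod : ∀ χ : W →ₗ[ZMod 2] ZMod 2, G s χ = G (fun x : U₀ => s x) χ * G (fun x : U₁ => s x) χ := by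
    intro χ
    have h1 : G s χ = ∑ p : U₀ × U₁, e (χ (s (p.1 + p.2))) :=
      (Equiv.sum_comp (Submodule.prodEquivOfIsCompl U₀ U₁ hc).toEquiv (fun a => e (χ (s a)))).symm
    rw [h1, Fintype.sum_prod_type, G, G, Finset.sum_mul_sum]
    refine Finset.sum_congr rfl fun x _ => Finset.sum_congr rfl fun y _ => ?_
    rw [s_add s, ho x x.2 y y.2, zero_add, map_add, e_add]
  set n := Module.finrank (ZMod 2) W with hn
  have hWc := card_pow W
  rw [← hn] at hWc
  have hU01 : Nat.card U₀ * Nat.card U₁ = Nat.card U := by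
    rw [← Nat.card_prod]
    exact Nat.card_congr (Submodule.prodEquivOfIsCompl U₀ U₁ hc).toEquiv
  set a := Module.finrank (ZMod 2) U₀ with hadef
  have hU0c : Nat.card U₀ = 2 ^ a := card_pow U₀
  -- `G₀² = |U₀|`
  have hG0 : ∀ χ : W →ₗ[ZMod 2] ZMod 2, χ ≠ 0 → G (fun x : U₀ => s x) χ ^ 2 = Nat.card U₀ := by
    intro χ hχ
    have h1 := hG χ hχ
    rw [hprod] at h1
    have hne : G (fun x : U₀ => s x) χ * G (fun x : U₁ => s x) χ ≠ 0 := by
      rw [h1]
      have : (Nat.card W : ℤ) ≠ 0 := by rw [hWc]; positivity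
      simpa using this
    have h2 := (G_sq hQ0 χ).resolve_left (pow_ne_zero 2 (left_ne_zero_of_mul hne))
    have h3 := (G_sq hQ1 χ).resolve_left (pow_ne_zero 2 (right_ne_zero_of_mul hne))
    have h4 : (Nat.card U₀ * Nat.card (Rad hQ0 χ)) * (Nat.card U₁ * Nat.card (Rad hQ1 χ)) =
        Nat.card U₀ * Nat.card U₁ := by
      have h5 : ((Nat.card U₀ * Nat.card (Rad hQ0 χ)) * (Nat.card U₁ * Nat.card (Rad hQ1 χ)) : ℤ) =
          (Nat.card W : ℤ) ^ 2 := by
        rw [← h2, ← h3, ← mul_pow, h1, neg_sq]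
      have h6 : ((Nat.card U₀ * Nat.card (Rad hQ0 χ)) * (Nat.card U₁ * Nat.card (Rad hQ1 χ))) =
          (Nat.card W) ^ 2 := by exact_mod_cast h5
      rw [h6, hU01, hU]
    have h5 : Nat.card (Rad hQ0 χ) * Nat.card (Rad hQ1 χ) = 1 := by
      have h6 : (Nat.card U₀ * Nat.card U₁) * (Nat.card (Rad hQ0 χ) * Nat.card (Rad hQ1 χ)) =
          (Nat.card U₀ * Nat.card U₁) * 1 := by
        calc (Nat.card U₀ * Nat.card U₁) * (Nat.card (Rad hQ0 χ) * Nat.card (Rad hQ1 χ))
            = (Nat.card U₀ * Nat.card (Rad hQ0 χ)) * (Nat.card U₁ * Nat.card (Rad hQ1 χ)) := by ring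
          _ = _ := by rw [h4, mul_one]
      exact Nat.eq_of_mul_eq_mul_left (Nat.mul_pos Nat.card_pos Nat.card_pos) h6
    have h6 : Nat.card (Rad hQ0 χ) = 1 := Nat.eq_one_of_mul_eq_one_right h5
    rw [h2, h6]; simp
  -- the sum over all functionals
  have hfin : Finite (W →ₗ[ZMod 2] ZMod 2) := Finite.of_injective (fun f => (f : W → ZMod 2)) DFunLike.coe_injective
  have := Fintype.ofFinite (W →ₗ[ZMod 2] ZMod 2)
  have hcD : Fintype.card (W →ₗ[ZMod 2] ZMod 2) = 2 ^ n := by
    rw [← Nat.card_eq_fintype_card, card_pow (W →ₗ[ZMod 2] ZMod 2)]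
    congr 1
    exact Subspace.dual_finrank_eq
  have hsum : ∑ χ : W →ₗ[ZMod 2] ZMod 2, G (fun x : U₀ => s x) χ = 2 ^ n := by
    simp only [G]
    rw [Finset.sum_comm]
    have h1 : ∀ x : U₀, ∑ χ : W →ₗ[ZMod 2] ZMod 2, e (χ (s x)) = if x = 0 then (2 : ℤ) ^ n else 0 := by
      intro x
      let φ : (W →ₗ[ZMod 2] ZMod 2) →+ ZMod 2 := AddMonoidHom.mk' (fun χ => χ (s x)) (fun _ _ => rfl)
      rcases sum_e φ with ⟨h2, h3⟩ | ⟨h2, h3⟩
      · have h4 : s x = 0 := (Module.forall_dual_apply_eq_zero_iff (ZMod 2) (s x)).mp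
          (fun χ => DFunLike.congr_fun h2 χ)
        have h5 : x = 0 := Subtype.ext (ha _ h4)
        rw [if_pos h5]
        have h6 : ∑ χ : W →ₗ[ZMod 2] ZMod 2, e (χ (s x)) = Fintype.card (W →ₗ[ZMod 2] ZMod 2) := h3
        rw [h6, hcD]; push_cast; rfl
      · rw [if_neg]
        · exact h3
        · rintro rfl
          apply h2
          ext χ
          show χ (s ((0 : U₀) : U)) = 0
          rw [Submodule.coe_zero, h.zero, map_zero]
    rw [Finset.sum_congr rfl (fun x _ => h1 x)]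
    simp
  obtain ⟨w, hw⟩ := exists_ne (0 : W)
  obtain ⟨χ₀, hχw⟩ : ∃ χ : W →ₗ[ZMod 2] ZMod 2, χ w ≠ 0 := by
    by_contra hcc
    push Not at hcc
    exact hw ((Module.forall_dual_apply_eq_zero_iff (ZMod 2) w).mp hcc)
  have hχ₀ : χ₀ ≠ 0 := by
    rintro rfl; exact hχw rfl
  have hj : ∃ j, a = 2 * j := by
    have h1 := hG0 χ₀ hχ₀
    rw [hU0c] at h1
    have h2 : (G (fun x : U₀ => s x) χ₀).natAbs ^ 2 = 2 ^ a := by
      have h3 : ((G (fun x : U₀ => s x) χ₀).natAbs ^ 2 : ℤ) = (2 ^ a : ℕ) := by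
        rw [Int.natAbs_sq, h1]
      exact_mod_cast h3
    have h3 : (G (fun x : U₀ => s x) χ₀).natAbs ∣ 2 ^ a := by
      rw [← h2]; exact dvd_pow_self _ two_ne_zero
    obtain ⟨j, -, hj⟩ := (Nat.dvd_prime_pow Nat.prime_two).mp h3
    rw [hj, ← pow_mul] at h2
    exact ⟨j, by rw [← Nat.pow_right_injective (le_refl 2) h2]; ring⟩
  obtain ⟨j, hj⟩ := hj
  have hG0' : ∀ χ : W →ₗ[ZMod 2] ZMod 2, χ ≠ 0 → (2 : ℤ) ^ (j + 1) ∣ G (fun x : U₀ => s x) χ - 2 ^ j := by
    intro χ hχ
    have h1 := hG0 χ hχ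
    rw [hU0c, hj] at h1
    have h2 : G (fun x : U₀ => s x) χ ^ 2 = (2 ^ j) ^ 2 := by rw [h1]; push_cast; ring
    rcases sq_eq_sq_iff_eq_or_eq_neg.mp h2 with h3 | h3
    · rw [h3, sub_self]; exact dvd_zero _
    · rw [h3]; exact ⟨-1, by ring⟩
  have hzero : G (fun x : U₀ => s x) 0 = 2 ^ a := by
    have : G (fun x : U₀ => s x) 0 = Nat.card U₀ := by
      rw [G, Nat.card_eq_fintype_card]; simp [e_zero]
    rw [this, hU0c]; push_cast; rfl
  have hdiv : (2 : ℤ) ^ (j + 1) ∣ ∑ χ ∈ Finset.univ.erase (0 : W →ₗ[ZMod 2] ZMod 2),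
      (G (fun x : U₀ => s x) χ - 2 ^ j) :=
    Finset.dvd_sum fun χ hχ => hG0' χ (Finset.ne_of_mem_erase hχ)
  have hsum2 : ∑ χ ∈ Finset.univ.erase (0 : W →ₗ[ZMod 2] ZMod 2),
      (G (fun x : U₀ => s x) χ - 2 ^ j) = 2 ^ n - 2 ^ a - (2 ^ n - 1) * 2 ^ j := by
    rw [Finset.sum_sub_distrib, Finset.sum_const, Finset.card_erase_of_mem (Finset.mem_univ _),
      Finset.card_univ, hcD]
    have h1 := Finset.add_sum_erase Finset.univ (fun χ => G (fun x : U₀ => s x) χ)
      (Finset.mem_univ (0 : W →ₗ[ZMod 2] ZMod 2))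
    rw [hsum, hzero] at h1
    have h2 : ((2 ^ n - 1 : ℕ) : ℤ) = 2 ^ n - 1 := by
      rw [Nat.cast_sub Nat.one_le_two_pow]; push_cast; rfl
    rw [nsmul_eq_mul, h2]
    linarith
  rw [hsum2] at hdiv
  have hsub : ∀ (A : Submodule (ZMod 2) U), Nat.card A = 1 → A = ⊥ := by
    intro A hA
    have h1 := (Nat.card_eq_one_iff_unique.mp hA).1
    rw [Submodule.eq_bot_iff]
    intro x hx
    exact congrArg Subtype.val (Subsingleton.elim (⟨x, hx⟩ : A) 0)
  rcases Nat.eq_zero_or_pos j with hj0 | hj0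
  · left
    apply hsub
    rw [hU0c, hj, hj0, mul_zero, pow_zero]
  · rcases lt_or_ge j n with hjn | hjn
    · exfalso
      have h1 : (2 : ℤ) ^ (j + 1) ∣ 2 ^ n := pow_dvd_pow _ hjn
      have h2 : (2 : ℤ) ^ (j + 1) ∣ 2 ^ a := pow_dvd_pow _ (by omega)
      have h3 : (2 : ℤ) ^ (j + 1) ∣ 2 ^ n * 2 ^ j := Dvd.dvd.mul_right h1 _
      have h4 : (2 : ℤ) ^ (j + 1) ∣ 2 ^ j := by
        have h5 := dvd_sub (dvd_sub h1 h2) h3
        have h6 := dvd_sub hdiv h5
        have h7 : (2 : ℤ) ^ n - 2 ^ a - (2 ^ n - 1) * 2 ^ j - (2 ^ n - 2 ^ a - 2 ^ n * 2 ^ j) = 2 ^ j := by ring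
        rwa [h7] at h6
      have h5 : (2 : ℤ) ^ (j + 1) ≤ 2 ^ j := Int.le_of_dvd (by positivity) h4
      have h6 : (2 : ℤ) ^ j < 2 ^ (j + 1) := pow_lt_pow_right₀ (by norm_num) (by omega)
      linarith
    · right
      apply hsub
      have h1 : Nat.card U₀ * Nat.card U₁ = 2 ^ (2 * n) := by
        rw [hU01, hU, hWc, ← pow_mul]; congr 1; omega
      have h2 : 2 ^ (2 * n) ≤ Nat.card U₀ := by
        rw [hU0c]; exact Nat.pow_le_pow_right (by norm_num) (by omega)
      have h3 : 0 < Nat.card U₁ := Nat.card_pos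
      have h4 : 0 < 2 ^ (2 * n) := by positivity
      by_contra h5
      have h6 : 2 ≤ Nat.card U₁ := by omega
      have h7 : 2 ^ (2 * n) * 2 ≤ Nat.card U₀ * Nat.card U₁ := Nat.mul_le_mul h2 h6
      omega

end Cfsg.Agent.H453.Quad
end

-- part: H453/QuadField
section
/-!
# Groups preserving an anisotropic quadratic map `s : U → W`, `|U| = |W|²`

* `idem`: self-adjoint idempotents are trivial;
* `commute_of_norm`: a `t`-group (`t` odd) preserving `s` is centralized by each `υ ∈ GL(U)` which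
  normalizes it and has order prime to `2 n`, `|W| = 2 ^ n`.
-/

set_option autoImplicit false
set_option linter.unusedSectionVars false

namespace Cfsg.Agent.H453.Quad

open Finset Polynomial

/-- a finite commutative ring without idempotents in which `a ^ (2 ^ N) = a`: an automorphism of order
prime to `N` is trivial. -/
theorem algHom_eq_id {R : Type*} [CommRing R] [Algebra (ZMod 2) R] [Finite R] [Nontrivial R]
    {N : ℕ} (hN : 0 < N) (hpow : ∀ a : R, a ^ (2 ^ N) = a) (hid : ∀ a : R, a * a = a → a = 0 ∨ a = 1)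
    (σ : R →ₐ[ZMod 2] R) {k : ℕ} (hk : k.Coprime N) (hσ : ∀ a, (⇑σ)^[k] a = a) (a : R) : σ a = a := by
  have hq : 2 ≤ 2 ^ N := by
    calc 2 = 2 ^ 1 := (pow_one 2).symm
      _ ≤ 2 ^ N := Nat.pow_le_pow_right (by norm_num) hN
  have hunit : ∀ a : R, a ≠ 0 → a ^ (2 ^ N - 1) = 1 := by
    intro a ha
    have h1 : a ^ (2 ^ N - 1) * a = a := by
      rw [← pow_succ, Nat.sub_add_cancel (by omega)]; exact hpow a
    have h2 : a ^ (2 ^ N - 1) * a ^ (2 ^ N - 1) = a ^ (2 ^ N - 1) := by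
      obtain ⟨m, hm⟩ : ∃ m, 2 ^ N - 1 = m + 1 := ⟨2 ^ N - 2, by omega⟩
      calc a ^ (2 ^ N - 1) * a ^ (2 ^ N - 1) = a ^ (2 ^ N - 1) * a ^ (m + 1) := by rw [← hm]
        _ = (a ^ (2 ^ N - 1) * a) * a ^ m := by rw [pow_succ]; ring
        _ = a * a ^ m := by rw [h1]
        _ = a ^ (m + 1) := by rw [pow_succ]; ring
        _ = _ := by rw [← hm]
    rcases hid _ h2 with h3 | h3
    · rw [h3, zero_mul] at h1
      exact absurd h1.symm ha
    · exact h3
  have hfield : IsField R :=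
    { exists_pair_ne := exists_pair_ne R
      mul_comm := mul_comm
      mul_inv_cancel := by
        intro a ha
        refine ⟨a ^ (2 ^ N - 2), ?_⟩
        rw [← pow_succ']
        have : 2 ^ N - 2 + 1 = 2 ^ N - 1 := by omega
        rw [this]; exact hunit a ha }
  let _ : Field R := hfield.toField
  obtain ⟨i, hi⟩ := (FiniteField.bijective_frobeniusAlgHom_pow (ZMod 2) R).2 σ
  have h1 : ∀ (m : ℕ) (a : R), (⇑(FiniteField.frobeniusAlgHom (ZMod 2) R ^ m)) a = a ^ (2 ^ m) := by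
    intro m
    induction m with
    | zero => intro a; simp
    | succ m ih =>
      intro a
      rw [pow_succ, AlgHom.mul_apply, ih, FiniteField.coe_frobeniusAlgHom, ZMod.card, ← pow_mul]
      congr 1
      rw [pow_succ]; ring
  have h2 : ∀ a : R, σ a = a ^ (2 ^ (i : ℕ)) := fun a => by rw [← hi]; exact h1 i a
  have h3 : ∀ (m : ℕ) (a : R), (⇑σ)^[m] a = a ^ (2 ^ ((i : ℕ) * m)) := by
    intro m
    induction m with
    | zero => intro a; simp
    | succ m ih =>
      intro a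
      rw [Function.iterate_succ_apply', ih, h2, ← pow_mul, ← pow_add]
      congr 2
  have h4 : ∀ (u : ℕ) (a : R), a ^ (2 ^ ((i : ℕ) * k * u)) = a := by
    intro u
    induction u with
    | zero => intro a; simp
    | succ u ih =>
      intro a
      rw [mul_add, pow_add, pow_mul, ih, mul_one, ← h3]
      exact hσ a
  have h5 : ∀ (u : ℕ) (a : R), a ^ (2 ^ (N * u)) = a := by
    intro u
    induction u with
    | zero => intro a; simp
    | succ u ih =>
      intro a
      rw [mul_add, pow_add, pow_mul, ih, mul_one]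
      exact hpow a
  obtain ⟨u, hu⟩ : ∃ u, k * u ≡ 1 [MOD N] := by
    rcases Nat.lt_or_ge 1 N with hN1 | hN1
    · obtain ⟨u, hu⟩ := Nat.exists_mul_mod_eq_one_of_coprime hk hN1
      exact ⟨u, by rw [Nat.ModEq, hu.2, Nat.mod_eq_of_lt hN1]⟩
    · have : N = 1 := by omega
      subst this
      exact ⟨0, Nat.modEq_one⟩
  have h6 : (i : ℕ) * k * u ≡ i [MOD N] := by
    have := Nat.ModEq.mul_left (i : ℕ) hu
    rw [mul_one, ← mul_assoc] at this
    exact this
  have h7 : ∀ {x y : ℕ}, x ≡ y [MOD N] → x ≤ y → ∀ a : R, a ^ (2 ^ y) = a ^ (2 ^ x) := by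
    intro x y hxy hle a
    obtain ⟨c, hc⟩ := (Nat.modEq_iff_dvd' hle).mp hxy
    have : y = N * c + x := by omega
    rw [this, pow_add, pow_mul, h5]
  rw [h2]
  rcases le_total ((i : ℕ) * k * u) i with h8 | h8
  · rw [h7 h6 h8, h4]
  · rw [← h7 h6.symm h8, h4]

variable {U W : Type*} [AddCommGroup U] [AddCommGroup W] [Module (ZMod 2) U] [Module (ZMod 2) W]
    [Fintype U] [Fintype W] {s : U → W}

/-- the hypotheses -/
structure Hyp (s : U → W) (n : ℕ) : Prop where
  q : IsQ s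
  an : ∀ x, s x = 0 → x = 0
  n0 : n ≠ 0
  cardW : Nat.card W = 2 ^ n
  cardU : Nat.card U = Nat.card W ^ 2
  fib : ∀ w, w ≠ 0 → fib s w = 2 ^ n + 1

theorem Hyp.ntW {n : ℕ} (h : Hyp s n) : Nontrivial W := by
  have h1 : 1 < Nat.card W := by rw [h.cardW]; exact Nat.one_lt_two_pow h.n0
  exact Finite.one_lt_card_iff_nontrivial.mp h1

/-- self-adjoint idempotents are trivial -/
theorem Hyp.idem {n : ℕ} (h : Hyp s n) (ε : Module.End (ZMod 2) U) (he : ε * ε = ε)
    (hs : ∀ x y, b s (ε x) y = b s x (ε y)) : ε = 0 ∨ ε = 1 := by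
  have hG : ∀ χ : W →ₗ[ZMod 2] ZMod 2, χ ≠ 0 → G s χ = - Nat.card W := by
    intro χ hχ
    rw [G_eq_of_fib h.q.zero h.an h.fib hχ, h.cardW]; push_cast; ring
  have hc : IsCompl (LinearMap.range ε) (LinearMap.ker ε) := by
    constructor
    · rw [Submodule.disjoint_def]
      rintro _ ⟨x, rfl⟩ hx
      have : ε (ε x) = ε x := congrArg (fun f : Module.End (ZMod 2) U => f x) he
      rw [← this]; exact hx
    · rw [codisjoint_iff, eq_top_iff]
      intro x _
      have h1 : x = ε x + (x - ε x) := by abel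
      rw [h1]
      refine Submodule.add_mem_sup ⟨x, rfl⟩ ?_
      rw [LinearMap.mem_ker, map_sub]
      have : ε (ε x) = ε x := congrArg (fun f : Module.End (ZMod 2) U => f x) he
      rw [this, sub_self]
  have hb0 : ∀ x, b s x 0 = 0 := by
    intro x
    have h1 := h.q.add_right x 0 0
    rw [add_zero] at h1
    have h3 := add_self (b s x 0)
    rw [h3] at h1
    exact h1
  rcases compl h.q h.an hG h.ntW h.cardU (LinearMap.range ε) (LinearMap.ker ε) hc (by
    rintro _ ⟨x, rfl⟩ y hy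
    rw [hs, LinearMap.mem_ker.mp hy, hb0]) with h1 | h1
  · left
    exact LinearMap.range_eq_bot.mp h1
  · right
    ext x
    have h2 : x - ε x ∈ LinearMap.ker ε := by
      rw [LinearMap.mem_ker, map_sub]
      have : ε (ε x) = ε x := congrArg (fun f : Module.End (ZMod 2) U => f x) he
      rw [this, sub_self]
    rw [h1, Submodule.mem_bot, sub_eq_zero] at h2
    exact h2.symm

/-- an isometry of odd order is trivial or fixed point free -/
theorem Hyp.fpf {n : ℕ} (h : Hyp s n) (g : Module.End (ZMod 2) U) (hg : ∀ x, s (g x) = s x)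
    {M : ℕ} (hM : Odd M) (hgM : g ^ M = 1) : g = 1 ∨ ∀ x, g x = x → x = 0 := by
  have hbg : ∀ x y, b s (g x) (g y) = b s x y := by
    intro x y
    rw [b, b, ← map_add, hg, hg, hg]
  have hbgi : ∀ i x y, b s ((g ^ i) x) ((g ^ i) y) = b s x y := by
    intro i
    induction i with
    | zero => intro x y; rfl
    | succ i ih =>
      intro x y
      rw [pow_succ', Module.End.mul_apply, Module.End.mul_apply, hbg, ih]
  have hb0 : ∀ x, b s x 0 = 0 := by
    intro x
    have h1 := h.q.add_right x 0 0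
    rw [add_zero] at h1
    have h3 := add_self (b s x 0)
    rw [h3] at h1
    exact h1
  have hbsum_l : ∀ (S : Finset ℕ) (f : ℕ → U) (y : U), b s (∑ i ∈ S, f i) y = ∑ i ∈ S, b s (f i) y := by
    intro S f y
    induction S using Finset.induction_on with
    | empty => rw [Finset.sum_empty, Finset.sum_empty, b_comm]; exact hb0 y
    | insert i S hi ih => rw [Finset.sum_insert hi, Finset.sum_insert hi, h.q.add_left, ih]
  have hbsum_r : ∀ (S : Finset ℕ) (f : ℕ → U) (y : U), b s y (∑ i ∈ S, f i) = ∑ i ∈ S, b s y (f i) := by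
    intro S f y
    rw [b_comm, hbsum_l]
    exact Finset.sum_congr rfl fun i _ => b_comm s _ _
  set ε : Module.End (ZMod 2) U := ∑ i ∈ Finset.range M, g ^ i with hε
  have hgε : g * ε = ε := by
    have h1 : g * ε - ε = 0 := by
      have h2 := mul_geom_sum g M
      rw [sub_mul, one_mul, hgM, sub_self] at h2
      exact h2
    exact sub_eq_zero.mp h1
  have hgiε : ∀ i, g ^ i * ε = ε := by
    intro i
    induction i with
    | zero => rw [pow_zero, one_mul]
    | succ i ih => rw [pow_succ, mul_assoc, hgε, ih]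
  have hMone : ∀ x : Module.End (ZMod 2) U, (M : ℕ) • x = x := by
    intro x
    obtain ⟨k, hk⟩ := hM
    rw [hk, add_smul, one_smul, mul_smul, two_smul]
    have : k • x + k • x = 0 := by
      have h1 : x + x = 0 := by ext u; exact add_self (x u)
      rw [← smul_add, h1, smul_zero]
    rw [this, zero_add]
  have hidem : ε * ε = ε := by
    conv_lhs => rw [hε, Finset.sum_mul]
    rw [Finset.sum_congr rfl (fun i _ => hgiε i), Finset.sum_const, Finset.card_range]
    exact hMone ε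
  have hadj : ∀ x y, b s (ε x) y = b s x (ε y) := by
    intro x y
    have h1 : ∀ z, ε z = ∑ i ∈ Finset.range M, (g ^ i) z := by
      intro z; rw [hε, LinearMap.sum_apply]
    rw [h1, h1, hbsum_l, hbsum_r]
    -- reindex `i ↦ (M - i) % M`
    have h2 : ∀ i ∈ Finset.range M, b s ((g ^ i) x) y = b s x ((g ^ (M - i)) y) := by
      intro i hi
      have hi' := Finset.mem_range.mp hi
      have h3 : (g ^ i) ((g ^ (M - i)) y) = y := by
        rw [← Module.End.mul_apply, ← pow_add, Nat.add_sub_cancel' hi'.le, hgM]; rfl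
      conv_lhs => rw [← h3]
      rw [hbgi]
    rw [Finset.sum_congr rfl h2]
    have h3 : ∑ i ∈ Finset.range M, b s x ((g ^ (M - i)) y) = ∑ i ∈ Finset.range M, b s x ((g ^ (i + 1)) y) := by
      rw [← Finset.sum_range_reflect]
      refine Finset.sum_congr rfl fun i hi => ?_
      have hi' := Finset.mem_range.mp hi
      congr 3
      omega
    rw [h3]
    have h4 := Finset.sum_range_succ (fun i => b s x ((g ^ i) y)) M
    have h5 := Finset.sum_range_succ' (fun i => b s x ((g ^ i) y)) M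
    rw [h4] at h5
    rw [hgM, pow_zero] at h5
    exact (add_right_cancel h5).symm
  rcases h.idem ε hidem hadj with h1 | h1
  · right
    intro x hx
    have h2 : ∀ i, (g ^ i) x = x := by
      intro i
      induction i with
      | zero => rfl
      | succ i ih => rw [pow_succ, Module.End.mul_apply, hx, ih]
    have h3 : ε x = x := by
      rw [hε, LinearMap.sum_apply, Finset.sum_congr rfl (fun i _ => h2 i), Finset.sum_const, Finset.card_range]
      have h4 := congrArg (fun f : Module.End (ZMod 2) U => f x) (hMone 1)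
      exact h4
    rw [← h3, h1]; rfl
  · left
    rw [h1, mul_one] at hgε
    exact hgε

theorem aeval_pow_two_pow (l : Module.End (ZMod 2) U) (p : (ZMod 2)[X]) (N : ℕ) :
    (aeval l p) ^ (2 ^ N) = aeval (l ^ (2 ^ N)) p := by
  induction N with
  | zero => simp
  | succ N ih =>
    rw [pow_succ, pow_mul, ih, pow_mul, ← map_pow, ← ZMod.expand_card p, expand_aeval]

/-- a `t`-group preserving `s` is cyclic and its order divides `2 ^ n + 1` -/
theorem Hyp.card_dvd {n : ℕ} (h : Hyp s n) {t : ℕ} [ht' : Fact t.Prime] (ht : t ≠ 2)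
    (P : Subgroup (Module.End (ZMod 2) U)ˣ) (hP : IsPGroup t P)
    (hPs : ∀ g ∈ P, ∀ x, s ((g : Module.End (ZMod 2) U) x) = s x) :
    IsCyclic P ∧ Nat.card P ∣ 2 ^ n + 1 := by
  classical
  have hfE : Finite (Module.End (ZMod 2) U) :=
    Finite.of_injective (fun f => (f : U → U)) DFunLike.coe_injective
  have hfU : Finite (Module.End (ZMod 2) U)ˣ := inferInstance
  have hfP : Finite P := inferInstance
  -- fixed point freeness
  have hfpf : ∀ g ∈ P, g ≠ 1 → ∀ x : U, (g : Module.End (ZMod 2) U) x = x → x = 0 := by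
    intro g hg hg1
    obtain ⟨j, hj⟩ := hP ⟨g, hg⟩
    have hj' : g ^ t ^ j = 1 := congrArg Subtype.val hj
    have hj2 : (g : Module.End (ZMod 2) U) ^ t ^ j = 1 := by
      rw [← Units.val_pow_eq_pow_val, hj']; rfl
    rcases h.fpf (g : Module.End (ZMod 2) U) (hPs g hg)
      ((ht'.out.odd_of_ne_two ht).pow) hj2 with h1 | h1
    · exact absurd (Units.ext h1) hg1
    · exact h1
  have hsmul : ∀ (g : P) (x : U), g • x = ((g : (Module.End (ZMod 2) U)ˣ) : Module.End (ZMod 2) U) x :=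
    fun _ _ => rfl
  have hfaith : FaithfulSMul P U := by
    constructor
    intro g g' hgg
    apply Subtype.ext
    apply Units.ext
    ext x
    exact hgg x
  -- `P` is cyclic
  have hstab : ∀ a : U, a ≠ 0 → MulAction.stabilizer P a = ⊥ := by
    intro a ha
    rw [Subgroup.eq_bot_iff_forall]
    intro g hg
    by_contra hg1
    exact ha (hfpf g g.2 (fun h1 => hg1 (Subtype.ext h1)) a hg)
  obtain ⟨hcyc, -⟩ := S1160.result (P := P) (E := U) (p := t) (q := 2) ht hP Nat.prime_two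
    (fun x => by rw [two_smul]; exact add_self x)
    (fun a b ha hb => by rw [hstab a ha, hstab b hb])
  refine ⟨hcyc, ?_⟩
  -- the order of `P` divides `2 ^ n + 1`
  obtain ⟨w, hw⟩ := @exists_ne W h.ntW 0
  let act : MulAction P {x : U // s x = w} :=
    { smul := fun g x => ⟨g • (x : U), by rw [hsmul, hPs g g.2]; exact x.2⟩
      one_smul := fun x => Subtype.ext (one_smul P (x : U))
      mul_smul := fun g g' x => Subtype.ext (mul_smul g g' (x : U)) }
  have h1 : ∀ b : {x : U // s x = w}, MulAction.stabilizer P b = ⊥ := by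
    intro b
    rw [Subgroup.eq_bot_iff_forall]
    intro g hg
    have h2 : g • (b : U) = b := congrArg Subtype.val hg
    have h3 : (b : U) ≠ 0 := by
      intro h4
      apply hw
      rw [← b.2, h4, h.q.zero]
    have h4 : g ∈ MulAction.stabilizer P (b : U) := h2
    rw [hstab _ h3] at h4
    exact h4
  have h2 := Nat.card_congr (MulAction.selfEquivOrbitsQuotientProd h1)
  rw [Nat.card_prod] at h2
  have h3 := h.fib w hw
  rw [Quad.fib] at h3
  rw [← h3, h2]
  exact dvd_mul_left _ _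

/-- **Main theorem.** -/
theorem Hyp.commute_of_norm {n : ℕ} (h : Hyp s n) {t : ℕ} [ht' : Fact t.Prime] (ht : t ≠ 2)
    (P : Subgroup (Module.End (ZMod 2) U)ˣ) (hP : IsPGroup t P)
    (hPs : ∀ g ∈ P, ∀ x, s ((g : Module.End (ZMod 2) U) x) = s x)
    (v : (Module.End (ZMod 2) U)ˣ) (hv : ∀ g ∈ P, v * g * v⁻¹ ∈ P) {k : ℕ} (hvk : v ^ k = 1)
    (hk : k.Coprime (2 * n)) : ∀ g ∈ P, v * g = g * v := by
  classical
  have hfE : Finite (Module.End (ZMod 2) U) :=
    Finite.of_injective (fun f => (f : U → U)) DFunLike.coe_injective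
  have hfU : Finite (Module.End (ZMod 2) U)ˣ := inferInstance
  have hfP : Finite P := inferInstance
  obtain ⟨hcyc, hdvd⟩ := h.card_dvd ht P hP hPs
  obtain ⟨g₀, hg₀⟩ := hcyc.exists_generator
  set l : Module.End (ZMod 2) U := ((g₀ : (Module.End (ZMod 2) U)ˣ) : Module.End (ZMod 2) U) with hl
  have hg0pow : g₀ ^ (2 ^ n + 1) = 1 := by
    obtain ⟨c, hc⟩ := hdvd
    rw [hc, pow_mul, pow_card_eq_one', one_pow]
  have hlpow : l ^ (2 ^ n + 1) = 1 := by
    have h1 : ((g₀ ^ (2 ^ n + 1) : P) : (Module.End (ZMod 2) U)ˣ) = 1 := by rw [hg0pow]; rfl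
    rw [hl, ← Units.val_pow_eq_pow_val]
    have h2 : ((g₀ : (Module.End (ZMod 2) U)ˣ)) ^ (2 ^ n + 1) = 1 := by
      rw [← h1]; rfl
    rw [h2]; rfl
  have hl1 : l ^ (2 ^ n) * l = 1 := by rw [← pow_succ]; exact hlpow
  have hl1' : l * l ^ (2 ^ n) = 1 := by rw [← pow_succ']; exact hlpow
  have hl2n : l ^ (2 ^ (2 * n)) = l := by
    have h1 : l ^ (2 ^ (2 * n)) * l ^ (2 ^ n) = 1 := by
      have : 2 ^ (2 * n) + 2 ^ n = (2 ^ n + 1) * 2 ^ n := by
        rw [two_mul, pow_add]; ring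
      rw [← pow_add, this, pow_mul, hlpow, one_pow]
    calc l ^ (2 ^ (2 * n)) = l ^ (2 ^ (2 * n)) * (l ^ (2 ^ n) * l) := by rw [hl1, mul_one]
      _ = (l ^ (2 ^ (2 * n)) * l ^ (2 ^ n)) * l := by rw [mul_assoc]
      _ = l := by rw [h1, one_mul]
  -- self-adjointness
  have hb0 : ∀ x, b s x 0 = 0 := by
    intro x
    have h1 := h.q.add_right x 0 0
    rw [add_zero] at h1
    have h3 := add_self (b s x 0)
    rw [h3] at h1
    exact h1
  have hbl : ∀ x y, b s (l x) (l y) = b s x y := by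
    intro x y
    rw [b, b, ← map_add, hPs g₀ g₀.2, hPs g₀ g₀.2, hPs g₀ g₀.2]
  have hadj1 : ∀ x y, b s (l x) y = b s x ((l ^ (2 ^ n)) y) := by
    intro x y
    have h1 : l ((l ^ (2 ^ n)) y) = y := by rw [← Module.End.mul_apply, hl1']; rfl
    conv_lhs => rw [← h1]
    rw [hbl]
  have hadjp : ∀ (p : (ZMod 2)[X]) x y, b s ((aeval l p) x) y = b s x ((aeval (l ^ (2 ^ n)) p) y) := by
    intro p
    have hmono : ∀ i x y, b s ((l ^ i) x) y = b s x (((l ^ (2 ^ n)) ^ i) y) := by
      intro i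
      induction i with
      | zero => intro x y; rfl
      | succ i ih =>
        intro x y
        rw [pow_succ, Module.End.mul_apply, ih, hadj1, pow_succ', Module.End.mul_apply]
    induction p using Polynomial.induction_on' with
    | add p q hp hq =>
      intro x y
      rw [map_add, map_add, LinearMap.add_apply, LinearMap.add_apply, h.q.add_left, hp, hq, h.q.add_right]
    | monomial i a =>
      intro x y
      have ha : a = 0 ∨ a = 1 := by revert a; decide
      rcases ha with rfl | rfl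
      · rw [Polynomial.monomial_zero_right, map_zero, map_zero, LinearMap.zero_apply, LinearMap.zero_apply,
          b_comm, hb0, hb0]
      · rw [Polynomial.aeval_monomial, Polynomial.aeval_monomial, map_one, one_mul, one_mul, hmono]
  -- the ring
  let φ : (ZMod 2)[X] →ₐ[ZMod 2] Module.End (ZMod 2) U := aeval l
  let A := (ZMod 2)[X] ⧸ RingHom.ker φ
  let ψ : A →ₐ[ZMod 2] Module.End (ZMod 2) U := Ideal.kerLiftAlg φ
  have hψi : Function.Injective ψ := Ideal.kerLiftAlg_injective φ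
  have hψ : ∀ p : (ZMod 2)[X], ψ (Ideal.Quotient.mk _ p) = aeval l p := fun _ => rfl
  have hfA : Finite A := Finite.of_injective ψ hψi
  have hntU : Nontrivial U := by
    have h1 : 1 < Nat.card U := by
      rw [h.cardU, h.cardW, ← pow_mul]; exact Nat.one_lt_two_pow (by have := h.n0; omega)
    exact Finite.one_lt_card_iff_nontrivial.mp h1
  have hntA : Nontrivial A := by
    refine ⟨0, 1, ?_⟩
    intro h01
    have h1 := congrArg ψ h01
    rw [map_zero, map_one] at h1
    obtain ⟨u, hu⟩ := exists_ne (0 : U)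
    exact hu (congrArg (fun f : Module.End (ZMod 2) U => f u) h1).symm
  have hApow : ∀ a : A, a ^ (2 ^ (2 * n)) = a := by
    intro a
    obtain ⟨p, rfl⟩ := Ideal.Quotient.mk_surjective a
    apply hψi
    rw [map_pow, hψ, aeval_pow_two_pow, hl2n]
  have hAid : ∀ a : A, a * a = a → a = 0 ∨ a = 1 := by
    intro a ha
    obtain ⟨p, rfl⟩ := Ideal.Quotient.mk_surjective a
    have h1 := congrArg ψ ha
    rw [map_mul, hψ] at h1
    have h2 : (aeval l p) ^ (2 ^ n) = aeval l p := by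
      have h3 : ∀ m : ℕ, m ≠ 0 → (aeval l p) ^ m = aeval l p := by
        intro m hm
        obtain ⟨m', rfl⟩ := Nat.exists_eq_succ_of_ne_zero hm
        clear hm
        induction m' with
        | zero => rw [pow_one]
        | succ m' ih => rw [Nat.succ_eq_add_one, pow_succ, ih, h1]
      exact h3 _ (by positivity)
    rcases h.idem (aeval l p) h1 (fun x y => by rw [hadjp, ← aeval_pow_two_pow, h2]) with h3 | h3
    · left; apply hψi; rw [hψ, h3, map_zero]
    · right; apply hψi; rw [hψ, h3, map_one]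
  -- conjugation by `v`
  obtain ⟨m, hm⟩ : ∃ m : ℕ, v * (g₀ : (Module.End (ZMod 2) U)ˣ) * v⁻¹ = (g₀ : (Module.End (ZMod 2) U)ˣ) ^ m := by
    have h1 := hg₀ ⟨v * g₀ * v⁻¹, hv g₀ g₀.2⟩
    rw [← mem_powers_iff_mem_zpowers] at h1
    obtain ⟨m, hm⟩ := h1
    exact ⟨m, (congrArg Subtype.val hm).symm⟩
  let vE : Module.End (ZMod 2) U := (v : Module.End (ZMod 2) U)
  let vI : Module.End (ZMod 2) U := ((v⁻¹ : (Module.End (ZMod 2) U)ˣ) : Module.End (ZMod 2) U)
  have hvI : vI * vE = 1 := v.inv_mul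
  have hvI' : vE * vI = 1 := v.mul_inv
  have hml : vE * l * vI = l ^ m := by
    have := congrArg Units.val hm
    rw [Units.val_mul, Units.val_mul, Units.val_pow_eq_pow_val] at this
    exact this
  have hconj : ∀ (p : (ZMod 2)[X]) (f f' : Module.End (ZMod 2) U), vE * f * vI = f' →
      vE * (aeval f p) * vI = aeval f' p := by
    intro p f f' hff
    have hpow : ∀ i, vE * f ^ i * vI = f' ^ i := by
      intro i
      induction i with
      | zero => rw [pow_zero, mul_one, hvI', pow_zero]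
      | succ i ih =>
        rw [pow_succ, pow_succ, ← ih, ← hff]
        calc vE * (f ^ i * f) * vI = vE * f ^ i * 1 * f * vI := by rw [mul_one]; simp only [mul_assoc]
          _ = _ := by rw [← hvI]; simp only [mul_assoc]
    induction p using Polynomial.induction_on' with
    | add p q hp hq => rw [map_add, map_add, mul_add, add_mul, hp, hq]
    | monomial i a =>
      have ha : a = 0 ∨ a = 1 := by revert a; decide
      rcases ha with rfl | rfl
      · rw [Polynomial.monomial_zero_right, map_zero, map_zero, mul_zero, zero_mul]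
      · rw [Polynomial.aeval_monomial, Polynomial.aeval_monomial, map_one, one_mul, one_mul, hpow]
  let θ : (ZMod 2)[X] →ₐ[ZMod 2] A := (Ideal.Quotient.mkₐ (ZMod 2) (RingHom.ker φ)).comp (aeval (X ^ m))
  have hθψ : ∀ p : (ZMod 2)[X], ψ (θ p) = vE * (aeval l p) * vI := by
    intro p
    have h1 : ψ (θ p) = aeval l (aeval (X ^ m : (ZMod 2)[X]) p) := rfl
    rw [h1, hconj p l _ hml, ← Polynomial.aeval_algHom_apply]
    simp
  have hθ : ∀ p ∈ RingHom.ker φ, θ p = 0 := by
    intro p hp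
    apply hψi
    have hp' : aeval l p = 0 := hp
    rw [hθψ, hp', mul_zero, zero_mul, map_zero]
  let σ : A →ₐ[ZMod 2] A := Ideal.Quotient.liftₐ (RingHom.ker φ) θ hθ
  have hσψ : ∀ a : A, ψ (σ a) = vE * ψ a * vI := by
    intro a
    obtain ⟨p, rfl⟩ := Ideal.Quotient.mk_surjective a
    exact hθψ p
  have hσk : ∀ a : A, (⇑σ)^[k] a = a := by
    intro a
    apply hψi
    have h1 : ∀ i, ψ ((⇑σ)^[i] a) = vE ^ i * ψ a * vI ^ i := by
      intro i
      induction i with
      | zero => simp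
      | succ i ih =>
        rw [Function.iterate_succ_apply', hσψ, ih, pow_succ', pow_succ]
        simp only [mul_assoc]
    have h2 : vE ^ k = 1 := by
      rw [← Units.val_pow_eq_pow_val, hvk]; rfl
    have h3 : vI ^ k = 1 := by
      rw [← Units.val_pow_eq_pow_val, inv_pow, hvk, inv_one]; rfl
    rw [h1, h2, h3, one_mul, mul_one]
  have hfinal := algHom_eq_id (N := 2 * n) (by have := h.n0; omega) hApow hAid σ hk hσk
    (Ideal.Quotient.mk _ X)
  have h1 := congrArg ψ hfinal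
  rw [hσψ, hψ, aeval_X] at h1
  have h2 : v * (g₀ : (Module.End (ZMod 2) U)ˣ) = g₀ * v := by
    apply Units.ext
    rw [Units.val_mul, Units.val_mul]
    calc vE * l = vE * l * (vI * vE) := by rw [hvI, mul_one]
      _ = (vE * l * vI) * vE := by simp only [mul_assoc]
      _ = l * vE := by rw [h1]
  intro g hg
  obtain ⟨i, hi⟩ := hg₀ ⟨g, hg⟩
  have hi' : (g₀ : (Module.End (ZMod 2) U)ˣ) ^ i = g := congrArg Subtype.val hi
  rw [← hi']
  exact (Commute.zpow_right h2 i)

end Cfsg.Agent.H453.Quad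
end

-- part: H453/QuadMul
section
/-!
# The multiplicative form of `H453.QuadField`
-/

set_option autoImplicit false

namespace Cfsg.Agent.H453.Quad

/-- Let `s : U → W` be an anisotropic quadratic map of elementary abelian `2`-groups (written
multiplicatively), all fibres over `w ≠ 1` of the same order `f`. Then `f = 1`, or every `t`-group `P`
(`t` odd) of automorphisms of `U` preserving `s` has order dividing `|W| + 1` and is centralized by the
automorphisms of `U` which normalize it and whose order is prime to `2 n`, `|W| = 2 ^ n`. -/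
theorem mult_version {U W : Type*} [CommGroup U] [CommGroup W] [Finite U] [Finite W]
    (hU : ∀ x : U, x * x = 1) (hW : ∀ w : W, w * w = 1) (s : U → W) (hs1 : s 1 = 1)
    (hb : ∀ x y z, s (x * y * z) * s (x * y) * s z = (s (x * z) * s x * s z) * (s (y * z) * s y * s z))
    (ha : ∀ x, s x = 1 → x = 1) (n : ℕ) (hn : n ≠ 0) (hcW : Nat.card W = 2 ^ n) (f : ℕ)
    (hf : ∀ w, w ≠ 1 → Nat.card {x // s x = w} = f) (hf0 : f ≠ 0) :
    f = 1 ∨ ∀ (t : ℕ) [Fact t.Prime] (_ : t ≠ 2) (P : Subgroup (MulAut U)) (_ : IsPGroup t P)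
      (_ : ∀ g ∈ P, ∀ x, s (g x) = s x), Nat.card P ∣ 2 ^ n + 1 ∧
      ∀ (v : MulAut U) (_ : ∀ g ∈ P, v * g * v⁻¹ ∈ P) (k : ℕ) (_ : v ^ k = 1)
        (_ : k.Coprime (2 * n)), ∀ g ∈ P, v * g = g * v := by
  classical
  letI mU : Module (ZMod 2) (Additive U) := AddCommGroup.zmodModule (n := 2) (fun x => by
    rw [two_smul]; exact hU x.toMul)
  letI mW : Module (ZMod 2) (Additive W) := AddCommGroup.zmodModule (n := 2) (fun x => by
    rw [two_smul]; exact hW x.toMul)
  letI := Fintype.ofFinite (Additive U)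
  letI := Fintype.ofFinite (Additive W)
  let s' : Additive U → Additive W := fun x => Additive.ofMul (s x.toMul)
  have hq : IsQ s' := by
    refine ⟨hs1, ?_⟩
    intro x y z
    have h1 := hb x.toMul y.toMul z.toMul
    exact h1
  have ha' : ∀ x, s' x = 0 → x = 0 := fun x hx => ha x.toMul hx
  have hf' : ∀ w, w ≠ 0 → fib s' w = f := fun w hw => hf w.toMul hw
  have hcW' : Nat.card (Additive W) = 2 ^ n := hcW
  have hnt : Nontrivial (Additive W) := by
    have h1 : 1 < Nat.card (Additive W) := by rw [hcW']; exact Nat.one_lt_two_pow hn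
    exact Finite.one_lt_card_iff_nontrivial.mp h1
  rcases card_eq hq ha' hf' hf0 hnt with h1 | ⟨h1, h2⟩
  · left; exact h1
  right
  intro t ht' ht P hP hPs
  have H : Hyp s' n :=
    { q := hq, an := ha', n0 := hn, cardW := hcW', cardU := h1
      fib := by intro w hw; rw [hf' w hw, h2, hcW'] }
  -- the homomorphism to the units
  let j₀ : MulAut U →* Module.End (ZMod 2) (Additive U) :=
    { toFun := fun g => AddMonoidHom.toZModLinearMap 2 (MonoidHom.toAdditive g.toMonoidHom)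
      map_one' := by ext x; rfl
      map_mul' := fun g g' => by ext x; rfl }
  let j : MulAut U →* (Module.End (ZMod 2) (Additive U))ˣ := MonoidHom.toHomUnits j₀
  have hj : ∀ (g : MulAut U) (x : Additive U), ((j g : (Module.End (ZMod 2) (Additive U))ˣ) :
      Module.End (ZMod 2) (Additive U)) x = Additive.ofMul (g x.toMul) := fun _ _ => rfl
  have hji : Function.Injective j := by
    intro g g' hgg
    ext x
    have h3 := hj g (Additive.ofMul x)
    rw [hgg, hj] at h3
    exact (Additive.ofMul.injective h3).symm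
  have hP' : IsPGroup t (P.map j) := hP.map j
  have hPs' : ∀ g ∈ P.map j, ∀ x, s' ((g : Module.End (ZMod 2) (Additive U)) x) = s' x := by
    rintro _ ⟨g, hg, rfl⟩ x
    rw [hj]
    exact hPs g hg x.toMul
  have hcard : Nat.card (P.map j) = Nat.card P := Subgroup.card_map_of_injective hji
  refine ⟨?_, ?_⟩
  · have := (H.card_dvd ht (P.map j) hP' hPs').2
    rwa [hcard] at this
  · intro v hv k hvk hk g hg
    have h3 := H.commute_of_norm ht (P.map j) hP' hPs' (j v) (by
      rintro _ ⟨g, hg, rfl⟩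
      exact ⟨v * g * v⁻¹, hv g hg, by rw [map_mul, map_mul, map_inv]⟩) (k := k)
      (by rw [← map_pow, hvk, map_one]) hk (j g) ⟨g, hg, rfl⟩
    rw [← map_mul, ← map_mul] at h3
    exact hji h3

end Cfsg.Agent.H453.Quad
end

-- part: H453/SuzStruct
section
/-!
# Minimal invariant subgroups of a `2`-group on which an odd order group acts nontrivially
-/

set_option autoImplicit false

namespace Cfsg.Agent.H453.Suz

open Subgroup
open scoped commutatorElement

theorem le_normalizer_of_char {H : Type*} [Group H] {T N : Subgroup H} (hNT : N ≤ normalizer (T : Set H))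
    (K : Subgroup T) (hK : K.Characteristic) : N ≤ normalizer ((K.map T.subtype : Subgroup H) : Set H) := by
  intro n hn
  have key : ∀ m ∈ normalizer (T : Set H), ∀ x ∈ K.map T.subtype, m * x * m⁻¹ ∈ K.map T.subtype := by
    rintro m hm _ ⟨k, hk, rfl⟩
    let e : MulAut T := T.normalizerMonoidHom ⟨m, hm⟩
    have h1 : e k ∈ K := by
      rw [← Subgroup.characteristic_iff_map_eq.mp hK e]
      exact ⟨k, hk, rfl⟩
    exact ⟨e k, h1, rfl⟩
  rw [mem_normalizer_iff]
  intro x
  constructor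
  · exact key n (hNT hn) x
  · intro hx
    have h1 := key n⁻¹ (inv_mem (hNT hn)) _ hx
    have h2 : n⁻¹ * (n * x * n⁻¹) * n⁻¹⁻¹ = x := by group
    rwa [h2] at h1

theorem frattini_ne_top {G : Type*} [Group G] [Finite G] [Nontrivial G] : frattini G ≠ ⊤ := by
  intro h
  rcases eq_top_or_exists_le_coatom (⊥ : Subgroup G) with h1 | ⟨K, hK, -⟩
  · exact bot_ne_top h1
  · have := frattini_le_coatom hK
    rw [h] at this
    exact hK.1 (top_le_iff.mp this)

/-- structure of a minimal invariant subgroup -/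
theorem structure_T {H : Type*} [Group H] [Finite H] (T L N : Subgroup H) (hT2 : IsPGroup 2 T)
    (hT : T ≠ ⊥) (hLN : L ≤ N) (hNT : N ≤ normalizer (T : Set H)) (hNL : N ≤ normalizer (L : Set H))
    (hcomm : ⁅T, L⁆ = T)
    (hmin : ∀ X : Subgroup H, X < T → N ≤ normalizer (X : Set H) → ∀ x ∈ X, ∀ l ∈ L, l * x = x * l) :
    (∀ c ∈ T, (∀ l ∈ L, l * c = c * l) → ∀ x ∈ T, x * c = c * x) ∧
    (∀ x ∈ T, ∀ y ∈ T, (x * y * x⁻¹ * y⁻¹) * (x * y * x⁻¹ * y⁻¹) = 1 ∧
      ∀ l ∈ L, l * (x * y * x⁻¹ * y⁻¹) = (x * y * x⁻¹ * y⁻¹) * l) ∧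
    (∀ x ∈ T, (x * x) * (x * x) = 1) := by
  have hntT : Nontrivial T := (Subgroup.nontrivial_iff_ne_bot T).mpr hT
  -- the Frattini subgroup
  set Φ : Subgroup H := (frattini T).map T.subtype with hΦ
  have hΦT : Φ < T := by
    refine lt_of_le_of_ne (Subgroup.map_subtype_le _) ?_
    intro h
    have h1 : frattini T = ⊤ := by
      rw [eq_top_iff]
      intro x _
      have h2 : (x : H) ∈ Φ := by rw [h]; exact x.2
      obtain ⟨y, hy, hyx⟩ := h2
      have : y = x := Subtype.ext hyx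
      rw [← this]; exact hy
    exact frattini_ne_top h1
  have hΦL : ∀ x ∈ Φ, ∀ l ∈ L, l * x = x * l :=
    hmin Φ hΦT (le_normalizer_of_char hNT _ inferInstance)
  obtain ⟨hΦc, hΦp⟩ := S0012.result (G := T) 2 hT2
  have hcΦ : ∀ x ∈ T, ∀ y ∈ T, x * y * x⁻¹ * y⁻¹ ∈ Φ := by
    intro x hx y hy
    refine ⟨⁅(⟨x, hx⟩ : T), (⟨y, hy⟩ : T)⁆, hΦc ?_, rfl⟩
    rw [_root_.commutator_def]
    exact Subgroup.commutator_mem_commutator (Subgroup.mem_top _) (Subgroup.mem_top _)
  have hsΦ : ∀ x ∈ T, x * x ∈ Φ := by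
    intro x hx
    refine ⟨(⟨x, hx⟩ : T) ^ 2, hΦp _, ?_⟩
    show ((⟨x, hx⟩ : T) ^ 2 : T).1 = x * x
    rw [Subgroup.coe_pow, pow_two]
  -- `C_T(L)` is central
  have hcent : ∀ c ∈ T, (∀ l ∈ L, l * c = c * l) → ∀ x ∈ T, x * c = c * x := by
    set C : Subgroup H := T ⊓ centralizer (L : Set H) with hC
    have h1 : ⁅⁅L, C⁆, T⁆ = ⊥ := by
      have h2 : ⁅L, C⁆ = ⊥ := by
        rw [Subgroup.commutator_eq_bot_iff_le_centralizer]
        intro l hl
        rw [mem_centralizer_iff]
        intro c hc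
        exact (mem_centralizer_iff.mp hc.2 l hl).symm
      rw [h2, Subgroup.commutator_bot_left]
    have h2 : ⁅⁅C, T⁆, L⁆ = ⊥ := by
      rw [Subgroup.commutator_eq_bot_iff_le_centralizer]
      have h3 : ⁅C, T⁆ ≤ Φ := by
        rw [Subgroup.commutator_le]
        intro c hc x hx
        exact hcΦ c hc.1 x hx
      refine h3.trans ?_
      intro x hx
      rw [mem_centralizer_iff]
      intro l hl
      exact hΦL x hx l hl
    have h3 : ⁅⁅T, L⁆, C⁆ = ⊥ := Subgroup.commutator_commutator_eq_bot_of_rotate h1 h2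
    rw [hcomm, Subgroup.commutator_eq_bot_iff_le_centralizer] at h3
    intro c hc hcl x hx
    have h4 : c ∈ C := ⟨hc, mem_centralizer_iff.mpr hcl⟩
    exact (mem_centralizer_iff.mp (h3 hx) c h4).symm
  have hΦcent : ∀ c ∈ Φ, ∀ x ∈ T, x * c = c * x := fun c hc x hx =>
    hcent c (hΦT.le hc) (hΦL c hc) x hx
  -- squares of commutators
  have hcsq : ∀ x ∈ T, ∀ y ∈ T, (x * y * x⁻¹ * y⁻¹) * (x * y * x⁻¹ * y⁻¹) = 1 := by
    intro x hx y hy
    set c := x * y * x⁻¹ * y⁻¹ with hc
    have hcx : x * c = c * x := hΦcent c (hcΦ x hx y hy) x hx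
    have h1 : x * y = c * (y * x) := by rw [hc]; group
    clear_value c
    have h2 : (x * x) * y = c * c * (y * (x * x)) := by
      calc (x * x) * y = x * (x * y) := by rw [mul_assoc]
        _ = x * c * (y * x) := by rw [h1, mul_assoc]
        _ = c * (x * y) * x := by rw [hcx]; simp only [mul_assoc]
        _ = c * c * (y * (x * x)) := by rw [h1]; simp only [mul_assoc]
    have h3 : y * (x * x) = (x * x) * y := hΦcent _ (hsΦ x hx) y hy
    rw [h3] at h2
    exact (mul_eq_right.mp h2.symm)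
  refine ⟨hcent, fun x hx y hy => ⟨hcsq x hx y hy, hΦL _ (hcΦ x hx y hy)⟩, ?_⟩
  -- the derived subgroup has exponent two
  have hD : ∀ d ∈ ⁅T, T⁆, d ∈ Φ ∧ d * d = 1 := by
    intro d hd
    rw [Subgroup.commutator_def] at hd
    induction hd using Subgroup.closure_induction with
    | mem d hd =>
      obtain ⟨x, hx, y, hy, rfl⟩ := hd
      exact ⟨hcΦ x hx y hy, hcsq x hx y hy⟩
    | one => exact ⟨one_mem _, one_mul 1⟩
    | mul a b _ _ ha hb =>
      refine ⟨mul_mem ha.1 hb.1, ?_⟩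
      have h1 : b * a = a * b := hΦcent a ha.1 b (hΦT.le hb.1)
      calc a * b * (a * b) = a * (b * a) * b := by simp only [mul_assoc]
        _ = (a * a) * (b * b) := by rw [h1]; simp only [mul_assoc]
        _ = 1 := by rw [ha.2, hb.2, one_mul]
    | inv a _ ha =>
      refine ⟨inv_mem ha.1, ?_⟩
      rw [← mul_inv_rev, ha.2, inv_one]
  have hS : ∀ x ∈ T, x ∈ T ∧ x * x ∈ ⁅T, T⁆ := by
    have hTle : ∀ x ∈ ⁅T, L⁆, x ∈ T ∧ x * x ∈ ⁅T, T⁆ := by
      intro x hx
      rw [Subgroup.commutator_def] at hx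
      induction hx using Subgroup.closure_induction with
      | mem u hu =>
        obtain ⟨x, hx, l, hl, rfl⟩ := hu
        have hz : l * x⁻¹ * l⁻¹ ∈ T := (mem_normalizer_iff.mp (hNT (hLN hl)) _).mp (inv_mem hx)
        have hu : ⁅x, l⁆ = x * (l * x⁻¹ * l⁻¹) := by rw [commutatorElement_def]; group
        rw [hu]
        set z := l * x⁻¹ * l⁻¹ with hzd
        refine ⟨mul_mem hx hz, ?_⟩
        have hzz : z * z = (x * x)⁻¹ := by
          have h1 : l * (x * x)⁻¹ = (x * x)⁻¹ * l := hΦL _ (inv_mem (hsΦ x hx)) l hl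
          calc z * z = l * (x * x)⁻¹ * l⁻¹ := by rw [hzd]; group
            _ = (x * x)⁻¹ := by rw [h1]; group
        have h2 : x * z * (x * z) = (x * x) * (x⁻¹ * z * x⁻¹⁻¹ * z⁻¹) * (z * z) := by group
        have h3 : x⁻¹ * z * x⁻¹⁻¹ * z⁻¹ ∈ ⁅T, T⁆ := Subgroup.commutator_mem_commutator (inv_mem hx) hz
        have h4 : (x * x) * (x⁻¹ * z * x⁻¹⁻¹ * z⁻¹) = (x⁻¹ * z * x⁻¹⁻¹ * z⁻¹) * (x * x) :=
          hΦcent _ (hD _ h3).1 _ (mul_mem hx hx)
        rw [h2, h4, hzz, mul_assoc, mul_inv_cancel, mul_one]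
        exact h3
      | one => exact ⟨one_mem _, by rw [one_mul]; exact one_mem _⟩
      | mul a b _ _ ha hb =>
        refine ⟨mul_mem ha.1 hb.1, ?_⟩
        have h2 : a * b * (a * b) = (a * a) * (a⁻¹ * b * a⁻¹⁻¹ * b⁻¹) * (b * b) := by group
        rw [h2]
        exact mul_mem (mul_mem ha.2 (Subgroup.commutator_mem_commutator (inv_mem ha.1) hb.1)) hb.2
      | inv a _ ha =>
        refine ⟨inv_mem ha.1, ?_⟩
        rw [← mul_inv_rev]
        exact inv_mem ha.2
    rwa [hcomm] at hTle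
  intro x hx
  exact (hD _ (hS x hx).2).2

end Cfsg.Agent.H453.Suz
end

-- part: H453/SuzLemma
section
/-!
# Odd order groups centralizing the involutions of a `2`-group whose involutions are fused

`lemmaB`: `Q` a normal `2`-subgroup of `H` with `C_H(Q) ≤ Q`, all involutions of `H` lie in `Z(Q)` and are
conjugate, `|V| = 2 ^ n ≥ 4`, `V` the set of solutions of `x² = 1`. `L` a `t`-group (`t` odd) centralizing
`V`, `H = Q N`, `L ≤ N ≤ N_H(L)`. There is an `N`-invariant `T ≤ Q` not centralized by `L` such that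
`[y, l]` centralizes `T` for all `l ∈ L` and `y ∈ N` of order prime to `2 n`; moreover `t ∣ 2 ^ n + 1`.
-/

set_option autoImplicit false

namespace Cfsg.Agent.H453.Suz

open Subgroup
open scoped commutatorElement

/-- the situation -/
structure Setup {H : Type*} [Group H] (Q V : Subgroup H) (n : ℕ) : Prop where
  Qn : Q.Normal
  Q2 : IsPGroup 2 Q
  CQ : centralizer (Q : Set H) ≤ Q
  memV : ∀ x, x ∈ V ↔ x * x = 1
  VQ : ∀ v ∈ V, ∀ q ∈ Q, q * v = v * q
  VleQ : V ≤ Q
  trans : ∀ x ∈ V, ∀ y ∈ V, x ≠ 1 → y ≠ 1 → ∃ h : H, h * x * h⁻¹ = y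
  cardV : Nat.card V = 2 ^ n
  n2 : 2 ≤ n

theorem le_normalizer_of {H : Type*} [Group H] {N X : Subgroup H}
    (h : ∀ n ∈ N, ∀ x ∈ X, n * x * n⁻¹ ∈ X) : N ≤ normalizer (X : Set H) := by
  intro n hn
  rw [mem_normalizer_iff]
  intro x
  constructor
  · exact h n hn x
  · intro hx
    have h1 := h n⁻¹ (inv_mem hn) _ hx
    have h2 : n⁻¹ * (n * x * n⁻¹) * n⁻¹⁻¹ = x := by group
    rwa [h2] at h1

theorem conj_mem_commutator {H : Type*} [Group H] {N A B : Subgroup H} (hA : N ≤ normalizer (A : Set H))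
    (hB : N ≤ normalizer (B : Set H)) : N ≤ normalizer ((⁅A, B⁆ : Subgroup H) : Set H) := by
  apply le_normalizer_of
  intro n hn x hx
  rw [Subgroup.commutator_def] at hx
  induction hx using Subgroup.closure_induction with
  | mem u hu =>
    obtain ⟨a, ha, b, hb, rfl⟩ := hu
    have h1 : n * ⁅a, b⁆ * n⁻¹ = ⁅n * a * n⁻¹, n * b * n⁻¹⁆ := by
      rw [commutatorElement_def, commutatorElement_def]; group
    rw [h1]
    exact Subgroup.commutator_mem_commutator ((mem_normalizer_iff.mp (hA hn) _).mp ha)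
      ((mem_normalizer_iff.mp (hB hn) _).mp hb)
  | one => rw [mul_one, mul_inv_cancel]; exact one_mem _
  | mul a b _ _ ha hb =>
    have : n * (a * b) * n⁻¹ = (n * a * n⁻¹) * (n * b * n⁻¹) := by group
    rw [this]; exact mul_mem ha hb
  | inv a _ ha =>
    have : n * a⁻¹ * n⁻¹ = (n * a * n⁻¹)⁻¹ := by group
    rw [this]; exact inv_mem ha

variable {H : Type*} [Group H] [Finite H] {Q V : Subgroup H} {n : ℕ}

theorem Setup.conjV (S : Setup Q V n) (h : H) {v : H} (hv : v ∈ V) : h * v * h⁻¹ ∈ V := by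
  rw [S.memV] at hv ⊢
  calc h * v * h⁻¹ * (h * v * h⁻¹) = h * (v * v) * h⁻¹ := by group
    _ = 1 := by rw [hv, mul_one, mul_inv_cancel]

theorem Setup.Vn (S : Setup Q V n) : V.Normal := ⟨fun _ hv h => S.conjV h hv⟩

/-- `T` acts: the quotient `T / V` -/
theorem lemmaB (S : Setup Q V n) {t : ℕ} [ht' : Fact t.Prime] (ht : t ≠ 2) (L N : Subgroup H)
    (hLN : L ≤ N) (hNL : N ≤ normalizer (L : Set H)) (hcov : ∀ h : H, ∃ q ∈ Q, q * h ∈ N)
    (hLt : IsPGroup t L) (hLne : L ≠ ⊥) (hLV : ∀ l ∈ L, ∀ v ∈ V, l * v = v * l) :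
    t ∣ 2 ^ n + 1 ∧ ∃ T : Subgroup H, N ≤ normalizer (T : Set H) ∧
      (¬ ∀ x ∈ T, ∀ l ∈ L, l * x = x * l) ∧
      ∀ y ∈ N, ∀ k : ℕ, y ^ k = 1 → k.Coprime (2 * n) → ∀ l ∈ L, ∀ x ∈ T,
        (y * l * y⁻¹ * l⁻¹) * x = x * (y * l * y⁻¹ * l⁻¹) := by
  classical
  have hQn := S.Qn
  have hVn := S.Vn
  -- `L` acts nontrivially on `Q`
  have hLcop2 : ∀ X : Subgroup H, IsPGroup 2 X → (Nat.card L).Coprime (Nat.card X) := by
    intro X hX
    obtain ⟨a, ha⟩ := IsPGroup.iff_card.mp hLt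
    obtain ⟨b, hb⟩ := IsPGroup.iff_card.mp hX
    rw [ha, hb]
    exact Nat.Coprime.pow a b ((Nat.coprime_primes ht'.out Nat.prime_two).mpr ht)
  have hQmem : ¬ ∀ x ∈ Q, ∀ l ∈ L, l * x = x * l := by
    intro hc
    have h1 : L ≤ Q := by
      refine le_trans ?_ S.CQ
      intro l hl
      rw [mem_centralizer_iff]
      intro x hx
      exact (hc x hx l hl).symm
    have h2 : L ⊓ Q = ⊥ := (Subgroup.disjoint_of_coprime_natCard (hLcop2 Q S.Q2)).eq_bot
    rw [inf_eq_left.mpr h1] at h2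
    exact hLne h2
  -- a minimal `T`
  obtain ⟨T, hTmin⟩ := (Set.toFinite {X : Subgroup H | X ≤ Q ∧ N ≤ normalizer (X : Set H) ∧
    ¬ ∀ x ∈ X, ∀ l ∈ L, l * x = x * l}).exists_minimal ⟨Q, le_rfl, le_normalizer_of_normal, hQmem⟩
  obtain ⟨⟨hTQ, hNT, hTL⟩, hTmin⟩ := hTmin
  have hmin : ∀ X : Subgroup H, X < T → N ≤ normalizer (X : Set H) → ∀ x ∈ X, ∀ l ∈ L, l * x = x * l := by
    intro X hX hNX
    by_contra hc
    exact hX.2 (hTmin ⟨hX.le.trans hTQ, hNX, hc⟩ hX.le)
  have hT2 : IsPGroup 2 T := S.Q2.to_le hTQ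
  have hTne : T ≠ ⊥ := by
    rintro rfl
    apply hTL
    intro x hx l _
    rw [mem_bot] at hx
    rw [hx, mul_one, one_mul]
  have hcommle : ⁅T, L⁆ ≤ T := le_normalizer_iff_commutator_le_left.mp (hLN.trans hNT)
  have hcomm : ⁅T, L⁆ = T := by
    by_contra hne
    have h1 := hmin ⁅T, L⁆ (lt_of_le_of_ne hcommle hne) (conj_mem_commutator hNT hNL)
    have h2 : L ≤ centralizer (T : Set H) :=
      Lib.CoprimeStab.le_centralizer_of_commutator_le (hLcop2 T hT2) hcommle le_rfl (by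
        intro l hl
        rw [mem_centralizer_iff]
        intro x hx
        exact (h1 x hx l hl).symm)
    apply hTL
    intro x hx l hl
    exact (mem_centralizer_iff.mp (h2 hl) x hx).symm
  obtain ⟨-, hc2, hsq⟩ := structure_T T L N hT2 hTne hLN hNT hNL hcomm hmin
  -- `V ≤ T`
  have hVT : V ≤ T := by
    have hnt : Nontrivial T := (Subgroup.nontrivial_iff_ne_bot T).mpr hTne
    obtain ⟨k, hk0, hk⟩ := hT2.nontrivial_iff_card.mp hnt
    have h2 : 2 ∣ Nat.card T := by rw [hk]; exact dvd_pow_self 2 hk0.ne'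
    obtain ⟨z, hz⟩ := exists_prime_orderOf_dvd_card' 2 h2
    have hz1 : (z : H) ≠ 1 := by
      intro h
      have : z = 1 := Subtype.ext h
      rw [this, orderOf_one] at hz
      norm_num at hz
    have hzV : (z : H) ∈ V := by
      rw [S.memV]
      have : z ^ 2 = 1 := by rw [← hz]; exact pow_orderOf_eq_one z
      rw [pow_two] at this
      exact congrArg Subtype.val this
    intro v hv
    by_cases hv1 : v = 1
    · rw [hv1]; exact one_mem _
    obtain ⟨h, hh⟩ := S.trans z hzV v hv hz1 hv1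
    obtain ⟨q, hq, hqh⟩ := hcov h
    have h3 : (q * h) * z * (q * h)⁻¹ = v := by
      calc (q * h) * z * (q * h)⁻¹ = q * (h * z * h⁻¹) * q⁻¹ := by group
        _ = q * v * q⁻¹ := by rw [hh]
        _ = v := by rw [S.VQ v hv q hq]; group
    rw [← h3]
    exact (mem_normalizer_iff.mp (hNT hqh) _).mp z.2
  have hVTc : ∀ v ∈ V, ∀ x ∈ T, x * v = v * x := fun v hv x hx => S.VQ v hv x (hTQ hx)
  have hcV : ∀ x ∈ T, ∀ y ∈ T, x * y * x⁻¹ * y⁻¹ ∈ V := fun x hx y hy => by
    rw [S.memV]; exact (hc2 x hx y hy).1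
  have hsV : ∀ x ∈ T, x * x ∈ V := fun x hx => by rw [S.memV]; exact hsq x hx
  -- `T ≠ V`
  obtain ⟨x₀, hx₀T, hx₀V⟩ : ∃ x ∈ T, x ∉ V := by
    by_contra hc
    push Not at hc
    apply hTL
    intro x hx l hl
    exact hLV l hl x (hc x hx)
  -- the quotient
  let V' : Subgroup T := V.subgroupOf T
  have hV'n : V'.Normal := inferInstance
  letI : CommGroup (T ⧸ V') :=
    { (inferInstance : Group (T ⧸ V')) with
      mul_comm := by
        intro a b
        obtain ⟨x, rfl⟩ := QuotientGroup.mk'_surjective V' a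
        obtain ⟨y, rfl⟩ := QuotientGroup.mk'_surjective V' b
        rw [← map_mul, ← map_mul]
        rw [QuotientGroup.mk'_eq_mk']
        refine ⟨(x * y)⁻¹ * (y * x), ?_, by group⟩
        show (((x * y)⁻¹ * (y * x) : T) : H) ∈ V
        have h1 := hcV (y : H)⁻¹ (inv_mem y.2) (x : H)⁻¹ (inv_mem x.2)
        have h2 : (y : H)⁻¹ * (x : H)⁻¹ * (y : H)⁻¹⁻¹ * (x : H)⁻¹⁻¹ = (((x * y)⁻¹ * (y * x) : T) : H) := by
          push_cast; group
        rwa [h2] at h1 }
  letI : CommGroup V :=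
    { (inferInstance : Group V) with
      mul_comm := fun a b => Subtype.ext (S.VQ b b.2 a (S.VleQ a.2)) }
  -- the squaring map
  let s : (T ⧸ V') → V := fun u => Quotient.liftOn' u (fun x => (⟨(x : H) * x, hsV x x.2⟩ : V)) (by
    intro x y hxy
    rw [QuotientGroup.leftRel_apply] at hxy
    have h1 : (x : H)⁻¹ * y ∈ V := hxy
    have h2 : (y : H) = x * ((x : H)⁻¹ * y) := by group
    have h3 := (S.memV _).mp h1
    have h4 := hVTc _ h1 x x.2
    apply Subtype.ext
    show (x : H) * x = y * y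
    set v := (x : H)⁻¹ * y with hv
    clear_value v
    rw [h2]
    calc (x : H) * x = x * (x * (v * v)) := by rw [h3, mul_one]
      _ = x * (v * x * v) := by rw [← h4]; simp only [mul_assoc]
      _ = x * v * (x * v) := by simp only [mul_assoc])
  have hsmk : ∀ x : T, s (QuotientGroup.mk' V' x) = ⟨(x : H) * x, hsV x x.2⟩ := fun _ => rfl
  -- the action
  have hcon : ∀ m : N, (V').map (T.normalizerMonoidHom ⟨m, hNT m.2⟩).toMonoidHom = V' := by
    intro m
    apply le_antisymm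
    · rintro _ ⟨x, hx, rfl⟩
      exact S.conjV m hx
    · intro x hx
      refine ⟨(T.normalizerMonoidHom ⟨m, hNT m.2⟩).symm x, ?_, ?_⟩
      · have h1 : (((T.normalizerMonoidHom ⟨m, hNT m.2⟩).symm x : T) : H) = (m : H)⁻¹ * x * m := by
          have h2 : T.normalizerMonoidHom ⟨m, hNT m.2⟩ ((T.normalizerMonoidHom ⟨m, hNT m.2⟩).symm x) = x :=
            (T.normalizerMonoidHom ⟨m, hNT m.2⟩).apply_symm_apply x
          have h3 : (m : H) * ((T.normalizerMonoidHom ⟨m, hNT m.2⟩).symm x : T) * (m : H)⁻¹ = x :=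
            congrArg Subtype.val h2
          rw [← h3]; group
        show (((T.normalizerMonoidHom ⟨m, hNT m.2⟩).symm x : T) : H) ∈ V
        rw [h1]
        have := S.conjV (m : H)⁻¹ (show (x : H) ∈ V from hx)
        rwa [inv_inv] at this
      · exact (T.normalizerMonoidHom ⟨m, hNT m.2⟩).apply_symm_apply x
  let ρ : N →* MulAut (T ⧸ V') :=
    { toFun := fun m => QuotientGroup.congr V' V' (T.normalizerMonoidHom ⟨m, hNT m.2⟩) (hcon m)
      map_one' := by
        ext u
        obtain ⟨x, rfl⟩ := QuotientGroup.mk'_surjective V' u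
        show QuotientGroup.mk' V' (T.normalizerMonoidHom ⟨(1 : N), _⟩ x) = QuotientGroup.mk' V' x
        congr 1
        apply Subtype.ext
        show (1 : H) * x * (1 : H)⁻¹ = x
        group
      map_mul' := by
        intro a b
        ext u
        obtain ⟨x, rfl⟩ := QuotientGroup.mk'_surjective V' u
        show QuotientGroup.mk' V' (T.normalizerMonoidHom ⟨(a * b : N), _⟩ x) =
          QuotientGroup.mk' V' (T.normalizerMonoidHom ⟨(a : N), _⟩ (T.normalizerMonoidHom ⟨(b : N), _⟩ x))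
        congr 1
        apply Subtype.ext
        show ((a * b : N) : H) * x * ((a * b : N) : H)⁻¹ = (a : H) * ((b : H) * x * (b : H)⁻¹) * (a : H)⁻¹
        push_cast
        group }
  have hρmk : ∀ (m : N) (x : T), ρ m (QuotientGroup.mk' V' x) =
      QuotientGroup.mk' V' (⟨(m : H) * x * (m : H)⁻¹, (mem_normalizer_iff.mp (hNT m.2) _).mp x.2⟩ : T) :=
    fun _ _ => rfl
  have hρs : ∀ (m : N) (u : T ⧸ V'), ((s (ρ m u) : V) : H) = (m : H) * (s u : V) * (m : H)⁻¹ := by
    intro m u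
    obtain ⟨x, rfl⟩ := QuotientGroup.mk'_surjective V' u
    rw [hρmk, hsmk, hsmk]
    show (m : H) * x * (m : H)⁻¹ * ((m : H) * x * (m : H)⁻¹) = (m : H) * ((x : H) * x) * (m : H)⁻¹
    group
  have hρ1 : ∀ m : N, ρ m = 1 → ∀ x ∈ T, (m : H) * x * (m : H)⁻¹ * x⁻¹ ∈ V := by
    intro m hm x hx
    have h1 : ρ m (QuotientGroup.mk' V' ⟨x, hx⟩) = QuotientGroup.mk' V' ⟨x, hx⟩ := by rw [hm]; rfl
    rw [hρmk, eq_comm, QuotientGroup.mk'_eq_mk'] at h1
    obtain ⟨z, hz, hz2⟩ := h1
    have h2 : x * (z : H) = (m : H) * x * (m : H)⁻¹ := congrArg Subtype.val hz2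
    rw [← h2]
    exact S.conjV x hz
  -- the fibres
  set w₀ : V := s (QuotientGroup.mk' V' ⟨x₀, hx₀T⟩) with hw₀
  have hw₀1 : w₀ ≠ 1 := by
    intro h
    apply hx₀V
    rw [S.memV]
    exact congrArg Subtype.val h
  set f := Nat.card {u : T ⧸ V' // s u = w₀} with hf
  have hfib : ∀ w : V, w ≠ 1 → Nat.card {u : T ⧸ V' // s u = w} = f := by
    intro w hw
    obtain ⟨h, hh⟩ := S.trans w₀ w₀.2 w w.2 (fun h => hw₀1 (Subtype.ext h)) (fun h => hw (Subtype.ext h))
    obtain ⟨q, hq, hqh⟩ := hcov h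
    have h3 : (q * h) * w₀ * (q * h)⁻¹ = w := by
      calc (q * h) * w₀ * (q * h)⁻¹ = q * (h * w₀ * h⁻¹) * q⁻¹ := by group
        _ = q * w * q⁻¹ := by rw [hh]
        _ = w := by rw [S.VQ w w.2 q hq]; group
    refine Nat.card_congr (Equiv.symm ?_)
    refine (ρ ⟨q * h, hqh⟩).toEquiv.subtypeEquiv ?_
    intro u
    constructor
    · intro hu
      apply Subtype.ext
      show ((s (ρ ⟨q * h, hqh⟩ u) : V) : H) = w
      rw [hρs, hu, h3]
    · intro hu
      apply Subtype.ext
      have h4 : ((s (ρ ⟨q * h, hqh⟩ u) : V) : H) = w := congrArg Subtype.val hu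
      rw [hρs, ← h3] at h4
      exact mul_left_cancel (mul_right_cancel h4)
  have hf0 : f ≠ 0 := by
    rw [hf]
    have : Nonempty {u : T ⧸ V' // s u = w₀} := ⟨⟨_, hw₀.symm⟩⟩
    exact Nat.card_pos.ne'
  -- `L` is nontrivial on `T / V`
  have hLnt : ¬ ∀ l ∈ L, ∀ x ∈ T, l * x * l⁻¹ * x⁻¹ ∈ V := by
    intro hc
    apply hx₀V
    have h1 : ⁅T, L⁆ ≤ V := by
      rw [Subgroup.commutator_le]
      intro x hx l hl
      rw [commutatorElement_def]
      have h2 := inv_mem (hc l hl x hx)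
      have h3 : (l * x * l⁻¹ * x⁻¹)⁻¹ = x * l * x⁻¹ * l⁻¹ := by group
      rwa [h3] at h2
    rw [hcomm] at h1
    exact h1 hx₀T
  -- the quadratic property
  have hbil : ∀ a ∈ T, ∀ b ∈ T, (a * b) * (a * b) * (a * a) * (b * b) = a * b * a⁻¹ * b⁻¹ := by
    intro a ha b hb
    have hc := hcV b hb a ha
    have hcc := (S.memV _).mp hc
    set c := b * a * b⁻¹ * a⁻¹ with hcdef
    have h1 : b * a = c * (a * b) := by rw [hcdef]; group
    have h2 : a * b * a⁻¹ * b⁻¹ = c := by
      have h3 : a * b * a⁻¹ * b⁻¹ = c⁻¹ := by rw [hcdef]; group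
      rw [h3]; exact (eq_inv_of_mul_eq_one_left hcc).symm
    rw [h2]
    clear_value c
    have h4 := hsq a ha
    have h5 := hsq b hb
    have h6 : a * c = c * a := hVTc c hc a ha
    have h7 : (b * b) * (a * a) = (a * a) * (b * b) := S.VQ _ (hsV a ha) _ (S.VleQ (hsV b hb))
    calc (a * b) * (a * b) * (a * a) * (b * b) = a * (b * a) * b * (a * a) * (b * b) := by
          simp only [mul_assoc]
      _ = (a * c) * a * (b * b) * (a * a) * (b * b) := by rw [h1]; simp only [mul_assoc]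
      _ = c * (a * a) * ((b * b) * (a * a)) * (b * b) := by rw [h6]; simp only [mul_assoc]
      _ = c * ((a * a) * (a * a)) * ((b * b) * (b * b)) := by rw [h7]; simp only [mul_assoc]
      _ = c := by rw [h4, h5, mul_one, mul_one]
  have hbil2 : ∀ x ∈ T, ∀ y ∈ T, ∀ z ∈ T, (x * y) * z * (x * y)⁻¹ * z⁻¹ =
      (x * z * x⁻¹ * z⁻¹) * (y * z * y⁻¹ * z⁻¹) := by
    intro x hx y hy z hz
    have hc := hcV y hy z hz
    have h1 : x * (y * z * y⁻¹ * z⁻¹) = (y * z * y⁻¹ * z⁻¹) * x := hVTc _ hc x hx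
    have h2 : (x * z * x⁻¹ * z⁻¹) * (y * z * y⁻¹ * z⁻¹) = (y * z * y⁻¹ * z⁻¹) * (x * z * x⁻¹ * z⁻¹) :=
      hVTc _ hc _ (mul_mem (mul_mem (mul_mem hx hz) (inv_mem hx)) (inv_mem hz))
    rw [h2]
    calc (x * y) * z * (x * y)⁻¹ * z⁻¹ = x * (y * z * y⁻¹ * z⁻¹) * z * x⁻¹ * z⁻¹ := by group
      _ = _ := by rw [h1]; simp only [mul_assoc]
  rcases Quad.mult_version (U := T ⧸ V') (W := V)
    (fun u => by
      obtain ⟨x, rfl⟩ := QuotientGroup.mk'_surjective V' u
      rw [← map_mul]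
      exact (QuotientGroup.eq_one_iff _).mpr (hsV x x.2))
    (fun w => Subtype.ext ((S.memV _).mp w.2)) s
    (by
      have h1 : s (QuotientGroup.mk' V' 1) = 1 := by
        rw [hsmk]; apply Subtype.ext; show (1 : H) * 1 = 1; rw [one_mul]
      rwa [map_one] at h1)
    (by
      intro a b c
      obtain ⟨x, rfl⟩ := QuotientGroup.mk'_surjective V' a
      obtain ⟨y, rfl⟩ := QuotientGroup.mk'_surjective V' b
      obtain ⟨z, rfl⟩ := QuotientGroup.mk'_surjective V' c
      rw [← map_mul, ← map_mul, ← map_mul, ← map_mul, hsmk, hsmk, hsmk, hsmk, hsmk, hsmk, hsmk]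
      apply Subtype.ext
      show ((x : H) * y * z) * ((x : H) * y * z) * (((x : H) * y) * ((x : H) * y)) * ((z : H) * z) =
        ((((x : H) * z) * ((x : H) * z)) * ((x : H) * x) * ((z : H) * z)) *
        ((((y : H) * z) * ((y : H) * z)) * ((y : H) * y) * ((z : H) * z))
      rw [hbil _ (mul_mem x.2 y.2) _ z.2, hbil _ x.2 _ z.2, hbil _ y.2 _ z.2, hbil2 _ x.2 _ y.2 _ z.2])
    (by
      intro a ha
      obtain ⟨x, rfl⟩ := QuotientGroup.mk'_surjective V' a
      rw [hsmk] at ha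
      have h1 : (x : H) * x = 1 := congrArg Subtype.val ha
      exact (QuotientGroup.eq_one_iff _).mpr ((S.memV _).mpr h1))
    n (by have := S.n2; omega) S.cardV f hfib hf0 with hf1 | hmain
  · -- `f = 1`
    exfalso
    apply hLnt
    intro l hl x hx
    by_cases hxV : x ∈ V
    · rw [hLV l hl x hxV]
      have : x * l * l⁻¹ * x⁻¹ = 1 := by group
      rw [this]; exact one_mem _
    have hw : s (QuotientGroup.mk' V' ⟨x, hx⟩) ≠ 1 := by
      intro h
      apply hxV
      rw [S.memV]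
      exact congrArg Subtype.val h
    have h1 := hfib _ hw
    rw [hf1, Nat.card_eq_one_iff_unique] at h1
    have h2 : s (ρ ⟨l, hLN hl⟩ (QuotientGroup.mk' V' ⟨x, hx⟩)) = s (QuotientGroup.mk' V' ⟨x, hx⟩) := by
      apply Subtype.ext
      rw [hρs]
      show l * _ * l⁻¹ = _
      rw [hLV l hl _ (s (QuotientGroup.mk' V' ⟨x, hx⟩)).2]
      group
    have h3 := h1.1
    have h4 : ρ ⟨l, hLN hl⟩ (QuotientGroup.mk' V' ⟨x, hx⟩) = QuotientGroup.mk' V' ⟨x, hx⟩ :=
      congrArg Subtype.val (Subsingleton.elim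
        (⟨_, h2⟩ : {u : T ⧸ V' // s u = s (QuotientGroup.mk' V' ⟨x, hx⟩)}) ⟨_, rfl⟩)
    rw [hρmk, eq_comm, QuotientGroup.mk'_eq_mk'] at h4
    obtain ⟨z, hz, hz2⟩ := h4
    have h5 : x * (z : H) = l * x * l⁻¹ := congrArg Subtype.val hz2
    rw [← h5]
    exact S.conjV x hz
  -- the group `P`
  have hLp : IsPGroup t ((L.subgroupOf N).map ρ) := by
    have h1 : IsPGroup t (L.subgroupOf N) := hLt.comap_of_injective N.subtype N.subtype_injective
    exact h1.map ρ
  have hPs : ∀ g ∈ (L.subgroupOf N).map ρ, ∀ u, s (g u) = s u := by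
    rintro _ ⟨l, hl, rfl⟩ u
    apply Subtype.ext
    rw [hρs, hLV l hl _ (s u).2]
    group
  obtain ⟨hPc, hPm⟩ := hmain t ht ((L.subgroupOf N).map ρ) hLp hPs
  refine ⟨?_, T, hNT, hTL, ?_⟩
  · have hPne : (L.subgroupOf N).map ρ ≠ ⊥ := by
      intro hb
      apply hLnt
      intro l hl x hx
      have h1 : ρ ⟨l, hLN hl⟩ = 1 := by
        have : ρ ⟨l, hLN hl⟩ ∈ (L.subgroupOf N).map ρ := ⟨⟨l, hLN hl⟩, hl, rfl⟩
        rw [hb, mem_bot] at this
        exact this
      exact hρ1 ⟨l, hLN hl⟩ h1 x hx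
    have hnt : Nontrivial ((L.subgroupOf N).map ρ) := (Subgroup.nontrivial_iff_ne_bot _).mpr hPne
    obtain ⟨k, hk0, hk⟩ := hLp.nontrivial_iff_card.mp hnt
    rw [hk] at hPc
    exact (dvd_pow_self t hk0.ne').trans hPc
  · intro y hy k hyk hk l hl x hx
    have h1 := hPm (ρ ⟨y, hy⟩) (by
      rintro _ ⟨g, hg, rfl⟩
      refine ⟨⟨y, hy⟩ * g * ⟨y, hy⟩⁻¹, ?_, by rw [map_mul, map_mul, map_inv]⟩
      exact (mem_normalizer_iff.mp (hNL hy) _).mp hg) k
      (by
        rw [← map_pow]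
        have : (⟨y, hy⟩ : N) ^ k = 1 := Subtype.ext hyk
        rw [this, map_one]) hk (ρ ⟨l, hLN hl⟩) ⟨⟨l, hLN hl⟩, hl, rfl⟩
    have h2 : ρ (⟨y, hy⟩ * ⟨l, hLN hl⟩ * ⟨y, hy⟩⁻¹ * ⟨l, hLN hl⟩⁻¹) = 1 := by
      rw [map_mul, map_mul, map_mul, map_inv, map_inv, h1]
      group
    set c : H := y * l * y⁻¹ * l⁻¹ with hc
    have hcL : c ∈ L := mul_mem ((mem_normalizer_iff.mp (hNL hy) _).mp hl) (inv_mem hl)
    have h3 : ∀ i : ℤ, ∀ x ∈ T, c ^ i * x * (c ^ i)⁻¹ * x⁻¹ ∈ V := by
      intro i x hx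
      have h4 : ρ ((⟨y, hy⟩ * ⟨l, hLN hl⟩ * ⟨y, hy⟩⁻¹ * ⟨l, hLN hl⟩⁻¹) ^ i) = 1 := by
        rw [map_zpow, h2, one_zpow]
      have h5 := hρ1 _ h4 x hx
      have h6 : (((⟨y, hy⟩ * ⟨l, hLN hl⟩ * ⟨y, hy⟩⁻¹ * ⟨l, hLN hl⟩⁻¹ : N) ^ i : N) : H) = c ^ i := rfl
      rwa [h6] at h5
    have hzL : zpowers c ≤ L := zpowers_le.mpr hcL
    have h4 : zpowers c ≤ centralizer (T : Set H) := by
      refine Lib.CoprimeStab.le_centralizer_of_commutator_le (K := V)
        (Nat.Coprime.coprime_dvd_left (Subgroup.card_dvd_of_le hzL) (hLcop2 T hT2)) hVT ?_ ?_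
      · rw [Subgroup.commutator_le]
        rintro x hx _ ⟨i, rfl⟩
        have h5 := inv_mem (h3 i x hx)
        have h6 : (c ^ i * x * (c ^ i)⁻¹ * x⁻¹)⁻¹ = ⁅x, c ^ i⁆ := by rw [commutatorElement_def]; group
        rwa [h6] at h5
      · intro z hz
        rw [mem_centralizer_iff]
        intro v hv
        exact (hLV z (hzL hz) v hv).symm
    exact (mem_centralizer_iff.mp (h4 (mem_zpowers c)) x hx).symm

end Cfsg.Agent.H453.Suz
end

-- part: H453/SuzMain
section
/-!
# Solvable groups with one class of involutions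
-/

set_option autoImplicit false

namespace Cfsg.Agent.H453.Suz

open Cfsg Subgroup

variable {H : Type*} [Group H] [Finite H] {Q V : Subgroup H} {n : ℕ}

theorem claimA (S : Setup Q V n) {r : ℕ} (hr : r.Prime) (hrn : n < r) (hrd : r ∣ 2 ^ n - 1)
    {t : ℕ} [ht' : Fact t.Prime] (ht : t ≠ 2) :
    ∀ (c : ℕ) (L : Subgroup H), Nat.card L = c → IsPGroup t L → (Q ⊔ L).Normal →
      (∀ l ∈ L, ∀ v ∈ V, l * v = v * l) →
      ∀ y ∈ normalizer (L : Set H), ∀ j : ℕ, y ^ (r ^ j) = 1 → ∀ l ∈ L, y * l = l * y := by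
  intro c
  induction c using Nat.strong_induction_on with
  | _ c ih =>
    intro L hc hLt hQL hLV y hy j hyj l hl
    have hQn := S.Qn
    by_cases hLne : L = ⊥
    · rw [hLne, mem_bot] at hl
      rw [hl, mul_one, one_mul]
    have hcop : (Nat.card L).Coprime (Nat.card Q) := by
      obtain ⟨a, ha⟩ := IsPGroup.iff_card.mp hLt
      obtain ⟨b, hb⟩ := IsPGroup.iff_card.mp S.Q2
      rw [ha, hb]
      exact Nat.Coprime.pow a b ((Nat.coprime_primes ht'.out Nat.prime_two).mpr ht)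
    have hQs : Group.IsSolvable Q := by
      have := S.Q2.isNilpotent
      infer_instance
    have hcov : ∀ h : H, ∃ q ∈ Q, q * h ∈ normalizer (L : Set H) :=
      PLen.exists_mul_mem_normalizer Q L hQs hcop hQL
    obtain ⟨htd, T, hNT, hTL, hcm⟩ := lemmaB S ht L (normalizer (L : Set H)) le_normalizer le_rfl hcov hLt
      hLne hLV
    -- `B = C_L(T)`
    set B : Subgroup H := L ⊓ centralizer (T : Set H) with hB
    have hNB : normalizer (L : Set H) ≤ normalizer (B : Set H) := by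
      apply le_normalizer_of
      intro m hm x hx
      refine ⟨(mem_normalizer_iff.mp hm _).mp hx.1, ?_⟩
      show m * x * m⁻¹ ∈ centralizer (T : Set H)
      rw [mem_centralizer_iff]
      intro z hz
      have h1 : m⁻¹ * z * m⁻¹⁻¹ ∈ T := (mem_normalizer_iff.mp (hNT (inv_mem hm)) _).mp hz
      have h2 := mem_centralizer_iff.mp hx.2 _ h1
      have h3 : z * (m * x * m⁻¹) = m * (m⁻¹ * z * m⁻¹⁻¹ * x) * m⁻¹ := by group
      have h4 : (m * x * m⁻¹) * z = m * (x * (m⁻¹ * z * m⁻¹⁻¹)) * m⁻¹ := by group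
      rw [h3, h4, h2]
    have hBL : B < L := by
      refine lt_of_le_of_ne inf_le_left ?_
      intro h
      apply hTL
      intro x hx l hl
      rw [← h] at hl
      exact (mem_centralizer_iff.mp hl.2 x hx).symm
    have hBcard : Nat.card B < c := by
      rw [← hc]
      exact Set.ncard_lt_ncard (by exact_mod_cast hBL) (Set.toFinite _)
    have hQB : (Q ⊔ B).Normal := by
      constructor
      intro x hx h
      obtain ⟨q, hq, hqh⟩ := hcov h
      have h1 : (q * h) * x * (q * h)⁻¹ ∈ Q ⊔ B := by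
        have h2 : normalizer (L : Set H) ≤ normalizer ((Q ⊔ B : Subgroup H) : Set H) := by
          apply le_normalizer_of
          intro m hm x hx
          rw [mem_sup_of_normal_left] at hx
          obtain ⟨a, ha, b, hb, rfl⟩ := hx
          have : m * (a * b) * m⁻¹ = (m * a * m⁻¹) * (m * b * m⁻¹) := by group
          rw [this]
          exact mul_mem_sup (hQn.conj_mem a ha m) ((mem_normalizer_iff.mp (hNB hm) _).mp hb)
        exact (mem_normalizer_iff.mp (h2 hqh) _).mp hx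
      have hq' : q ∈ Q ⊔ B := mem_sup_left hq
      have h3 : h * x * h⁻¹ = q⁻¹ * ((q * h) * x * (q * h)⁻¹) * q := by group
      rw [h3]
      exact mul_mem (mul_mem (inv_mem hq') h1) hq'
    have hyB := ih _ hBcard B rfl (hLt.to_le inf_le_left) hQB (fun l hl v hv => hLV l hl.1 v hv) y (hNB hy) j hyj
    set c' : H := y * l * y⁻¹ * l⁻¹ with hc'
    have hc'L : c' ∈ L := mul_mem ((mem_normalizer_iff.mp hy _).mp hl) (inv_mem hl)
    have hr2 : r ≠ 2 := by
      have := S.n2
      omega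
    have hrc : (r ^ j).Coprime (2 * n) := by
      apply Nat.Coprime.pow_left
      apply Nat.Coprime.mul_right
      · exact (Nat.coprime_primes hr Nat.prime_two).mpr hr2
      · rw [Nat.Prime.coprime_iff_not_dvd hr]
        intro h
        have := Nat.le_of_dvd (by have := S.n2; omega) h
        omega
    have hc'B : c' ∈ B := by
      refine ⟨hc'L, ?_⟩
      show c' ∈ centralizer (T : Set H)
      rw [mem_centralizer_iff]
      intro x hx
      exact (hcm y hy (r ^ j) hyj hrc l hl x hx).symm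
    have hyc := hyB c' hc'B
    have h1 : ∀ k : ℕ, y ^ k * l * (y ^ k)⁻¹ = c' ^ k * l := by
      intro k
      induction k with
      | zero => simp
      | succ k ihk =>
        have h2 : y * c' ^ k * y⁻¹ = c' ^ k := by
          have h3 : Commute y (c' ^ k) := (show Commute y c' from hyc).pow_right k
          rw [h3.eq]; group
        calc y ^ (k + 1) * l * (y ^ (k + 1))⁻¹ = y * (y ^ k * l * (y ^ k)⁻¹) * y⁻¹ := by
              rw [pow_succ']; group
          _ = (y * c' ^ k * y⁻¹) * (y * l * y⁻¹) := by rw [ihk]; group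
          _ = c' ^ k * (y * l * y⁻¹) := by rw [h2]
          _ = c' ^ (k + 1) * l := by rw [pow_succ]; rw [hc']; group
    have h2 : c' ^ (r ^ j) = 1 := by
      have h3 := h1 (r ^ j)
      rw [hyj, one_mul, inv_one, mul_one] at h3
      exact (mul_eq_right.mp h3.symm)
    have htr : t ≠ r := by
      rintro rfl
      have h3 : t ∣ 2 := by
        have h4 : 2 ^ n + 1 - (2 ^ n - 1) = 2 := by
          have := Nat.one_le_two_pow (n := n)
          omega
        rw [← h4]
        exact Nat.dvd_sub htd hrd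
      exact ht ((Nat.prime_dvd_prime_iff_eq hr Nat.prime_two).mp h3)
    obtain ⟨i, hi⟩ := hLt ⟨c', hc'L⟩
    have hi' : c' ^ t ^ i = 1 := congrArg Subtype.val hi
    have h3 : orderOf c' ∣ r ^ j := orderOf_dvd_of_pow_eq_one h2
    have h4 : orderOf c' ∣ t ^ i := orderOf_dvd_of_pow_eq_one hi'
    have h5 : (r ^ j).Coprime (t ^ i) := Nat.Coprime.pow j i ((Nat.coprime_primes hr ht'.out).mpr htr.symm)
    have h6 : c' = 1 := orderOf_eq_one_iff.mp (Nat.eq_one_of_dvd_coprimes h5 h3 h4)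
    calc y * l = (y * l * y⁻¹ * l⁻¹) * (l * y) := by group
      _ = l * y := by rw [← hc', h6, one_mul]

theorem exists_prime {n : ℕ} (hn : 2 ≤ n) : ∃ r : ℕ, r.Prime ∧ n < r ∧ r ∣ 2 ^ n - 1 := by
  by_cases h6 : n = 6
  · subst h6
    exact ⟨7, by norm_num, by norm_num, by norm_num⟩
  · obtain ⟨r, hr, h1, h2, -⟩ := Lib.Zsigmondy.exists_primitive (a := 2) (n := n) le_rfl hn
      (by
        rintro - ⟨k, hk⟩
        have h3 : k ≠ 0 := by rintro rfl; norm_num at hk
        have h4 : 2 ∣ 2 ^ k := dvd_pow_self 2 h3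
        omega)
      (by rintro ⟨-, h⟩; exact h6 h)
    refine ⟨r, hr, ?_, (h1 n).mpr dvd_rfl⟩
    have h3 := Nat.le_of_dvd (by have := hr.two_le; omega) h2
    have := hr.two_le
    omega

theorem index_centralizer {H : Type*} [Group H] [Finite H] (v : H) :
    (centralizer ({v} : Set H)).index = (MulAction.orbit (ConjAct H) v).ncard := by
  rw [← MulAction.index_stabilizer, Subgroup.centralizer_eq_comap_stabilizer]
  exact Subgroup.index_comap_of_surjective _ (ConjAct.toConjAct (G := H)).surjective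

/-- an `r`-element moving `v` -/
theorem exists_mover (S : Setup Q V n) {r : ℕ} (hr : r.Prime) (hrd : r ∣ 2 ^ n - 1) :
    ∃ v ∈ V, ∃ y : H, ∃ j : ℕ, y ^ (r ^ j) = 1 ∧ y * v ≠ v * y := by
  have := Fact.mk hr
  have hV1 : 1 < Nat.card V := by
    rw [S.cardV]; exact Nat.one_lt_two_pow (by have := S.n2; omega)
  obtain ⟨v, hv, hv1⟩ := (Subgroup.one_lt_card_iff_ne_bot V).mp hV1 |> (Subgroup.ne_bot_iff_exists_ne_one).mp |>
    fun ⟨a, ha⟩ => (⟨a, a.2, fun h => ha (Subtype.ext h)⟩ : ∃ v, v ∈ V ∧ v ≠ 1)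
  have horb : MulAction.orbit (ConjAct H) v = (V : Set H) \ {1} := by
    ext w
    constructor
    · rintro ⟨g, rfl⟩
      refine ⟨S.conjV (ConjAct.ofConjAct g) hv, ?_⟩
      intro h
      apply hv1
      have h1 : ConjAct.ofConjAct g * v * (ConjAct.ofConjAct g)⁻¹ = 1 := h
      exact conj_eq_one_iff.mp h1
    · rintro ⟨hw, hw1⟩
      obtain ⟨h, hh⟩ := S.trans v hv w hw hv1 hw1
      exact ⟨ConjAct.toConjAct h, hh⟩
  have hidx : (centralizer ({v} : Set H)).index = 2 ^ n - 1 := by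
    rw [index_centralizer, horb, Set.ncard_sdiff_singleton_of_mem (one_mem V)]
    rw [← S.cardV]
    rfl
  obtain ⟨R⟩ : Nonempty (Sylow r H) := inferInstance
  refine ⟨v, hv, ?_⟩
  by_contra hc
  push Not at hc
  have hle : (R : Subgroup H) ≤ centralizer ({v} : Set H) := by
    intro y hy
    rw [mem_centralizer_singleton_iff]
    obtain ⟨j, hj⟩ := R.2 ⟨y, hy⟩
    exact hc y j (congrArg Subtype.val hj)
  have h1 : ¬ r ∣ (R : Subgroup H).index := R.not_dvd_index
  apply h1
  refine dvd_trans ?_ (Subgroup.index_dvd_of_le hle)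
  rw [hidx]
  exact hrd

/-- the theorem in the group `H = G / O(G)` -/
theorem index_coprime {H : Type*} [Group H] [Finite H] (hs : Group.IsSolvable H)
    (hO : pPrimeCore 2 H = ⊥) (hconj : ∀ x y : H, orderOf x = 2 → orderOf y = 2 → IsConj x y)
    (htwo : ∃ x y : H, orderOf x = 2 ∧ orderOf y = 2 ∧ x ≠ y) : (pCore 2 H).index.Coprime 2 := by
  obtain ⟨x₀, y₀, hx₀, hy₀, hxy₀⟩ := htwo
  have hps : IsPSolvable 2 H := Lib.PSolvable.IsPSolvable_of_solvable 2
  have hd : 2 ∣ Nat.card H := by rw [← hx₀]; exact orderOf_dvd_natCard x₀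
  obtain ⟨h0, h | h⟩ := PLen.index_coprime_or (p := 2) hps hO hd (by
    rintro D hD ⟨x, hx, hx2⟩ y hy
    obtain ⟨c, hc⟩ := isConj_iff.mp (hconj x y hx2 hy)
    rw [← hc]
    have hDn : D.Normal := inferInstance
    exact hDn.conj_mem x hx c)
  · exact h
  exfalso
  have hQp : IsPGroup 2 (pCore 2 H) := Lib.Cores.pCore_isPGroup 2
  have hCQ := Lib.PSolvable.centralizer_pCore_le_of_pSolvable 2 hps hO
  have hQq : pCore 2 (H ⧸ pCore 2 H) = ⊥ := Lib.Cores.pCore_quotient_pCore 2
  set Q := pCore 2 H with hQdef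
  have hQn : Q.Normal := inferInstance
  -- elements with `x * x = 1`
  have hsq : ∀ x : H, x * x = 1 → x = 1 ∨ orderOf x = 2 := by
    intro x hx
    have h1 : orderOf x ∣ 2 := orderOf_dvd_of_pow_eq_one (by rw [pow_two]; exact hx)
    rcases (Nat.dvd_prime Nat.prime_two).mp h1 with h | h
    · left; exact orderOf_eq_one_iff.mp h
    · right; exact h
  have hsqQ : ∀ x : H, x * x = 1 → x ∈ Q ∧ ∀ y ∈ Q, y * x = x * y := by
    intro x hx
    rcases hsq x hx with rfl | h1
    · exact ⟨one_mem _, fun y _ => by rw [mul_one, one_mul]⟩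
    · exact h0 x h1
  let V : Subgroup H :=
    { carrier := {x | x * x = 1}
      one_mem' := mul_one 1
      mul_mem' := by
        intro a b ha hb
        show a * b * (a * b) = 1
        have h1 := (hsqQ a ha).2 b (hsqQ b hb).1
        calc a * b * (a * b) = a * (b * a) * b := by group
          _ = (a * a) * (b * b) := by rw [h1]; group
          _ = 1 := by rw [show a * a = 1 from ha, show b * b = 1 from hb, one_mul]
      inv_mem' := by
        intro a ha
        show a⁻¹ * a⁻¹ = 1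
        rw [← mul_inv_rev, show a * a = 1 from ha, inv_one] }
  have hmemV : ∀ x, x ∈ V ↔ x * x = 1 := fun _ => Iff.rfl
  have hVQ : V ≤ Q := fun x hx => (hsqQ x hx).1
  obtain ⟨n, hn⟩ := IsPGroup.iff_card.mp (hQp.to_le hVQ)
  have hx₀V : x₀ ∈ V := by
    rw [hmemV, ← pow_two, ← hx₀]; exact pow_orderOf_eq_one x₀
  have hy₀V : y₀ ∈ V := by
    rw [hmemV, ← pow_two, ← hy₀]; exact pow_orderOf_eq_one y₀
  have hn2 : 2 ≤ n := by
    by_contra hlt
    have h1 : Nat.card V ≤ 2 := by
      rw [hn]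
      interval_cases n <;> norm_num
    have h2 : ({1, x₀, y₀} : Set H) ⊆ V := by
      rintro x (rfl | rfl | rfl)
      · exact one_mem _
      · exact hx₀V
      · exact hy₀V
    have h3 : ({1, x₀, y₀} : Set H).ncard = 3 := by
      rw [Set.ncard_eq_three]
      refine ⟨1, x₀, y₀, ?_, ?_, hxy₀, rfl⟩
      · rintro rfl
        rw [orderOf_one] at hx₀; norm_num at hx₀
      · rintro rfl
        rw [orderOf_one] at hy₀; norm_num at hy₀
    have h4 := Set.ncard_le_ncard h2 (Set.toFinite _)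
    rw [h3] at h4
    have h5 : (V : Set H).ncard = Nat.card V := rfl
    omega
  have S : Setup Q V n :=
    { Qn := hQn
      Q2 := hQp
      CQ := hCQ
      memV := hmemV
      VQ := fun v hv q hq => (hsqQ v hv).2 q hq
      VleQ := hVQ
      trans := by
        intro x hx y hy hx1 hy1
        have h1 := (hsq x hx).resolve_left hx1
        have h2 := (hsq y hy).resolve_left hy1
        exact isConj_iff.mp (hconj x y h1 h2)
      cardV := hn
      n2 := hn2 }
  obtain ⟨r, hr, hrn, hrd⟩ := exists_prime hn2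
  obtain ⟨v, hv, y, j, hyj, hyv⟩ := exists_mover S hr hrd
  have hr2 : r ≠ 2 := by omega
  -- the preimage of `O(H/Q)` centralizes `V`
  have hMV : ∀ m : H, QuotientGroup.mk' Q m ∈ pPrimeCore 2 (H ⧸ Q) → ∀ w ∈ V, m * w = w * m := by
    intro m hm w hw
    rcases hsq w hw with rfl | hw2
    · rw [mul_one, one_mul]
    · exact h w hw2 m hm
  apply hyv
  refine hMV y ?_ v hv
  -- `ȳ` centralizes all the `O_t(H/Q)`
  have hcores : ∀ t : ℕ, t.Prime → QuotientGroup.mk' Q y ∈ centralizer (pCore t (H ⧸ Q) : Set (H ⧸ Q)) := by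
    intro t htp
    have htf := Fact.mk htp
    by_cases ht2 : t = 2
    · subst ht2
      rw [hQq, mem_centralizer_iff]
      intro z hz
      rw [coe_bot, Set.mem_singleton_iff] at hz
      rw [hz, mul_one, one_mul]
    set W : Subgroup H := (pCore t (H ⧸ Q)).comap (QuotientGroup.mk' Q) with hW
    have hWn : W.Normal := inferInstance
    have hQW : Q ≤ W := by
      intro x hx
      rw [hW, mem_comap]
      have : QuotientGroup.mk' Q x = 1 := (QuotientGroup.eq_one_iff x).2 hx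
      rw [this]; exact one_mem _
    obtain ⟨L'⟩ : Nonempty (Sylow t W) := inferInstance
    set L : Subgroup H := (L' : Subgroup W).map W.subtype with hL
    have hLW : L ≤ W := Subgroup.map_subtype_le _
    have hLt : IsPGroup t L := L'.2.map W.subtype
    have hcore := Lib.Cores.pCore_isPGroup (G := H ⧸ Q) t
    have hWcard : Nat.card W = Nat.card Q * Nat.card (pCore t (H ⧸ Q)) :=
      OddOrderLocal.PLengthOne.card_comap_mk' Q _
    obtain ⟨a, ha⟩ := IsPGroup.iff_card.mp hQp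
    obtain ⟨b, hb⟩ := IsPGroup.iff_card.mp hcore
    obtain ⟨c, hc⟩ := IsPGroup.iff_card.mp hLt
    have hLcard : Nat.card L = t ^ b := by
      have h1 : Nat.card L = Nat.card (L' : Subgroup W) :=
        Subgroup.card_map_of_injective W.subtype_injective
      rw [h1, L'.card_eq_multiplicity, hWcard, ha, hb]
      congr 1
      rw [Nat.factorization_mul (by positivity) (pow_ne_zero _ htp.ne_zero), Finsupp.add_apply,
        Nat.factorization_pow, Nat.factorization_pow, Finsupp.smul_apply, Finsupp.smul_apply,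
        htp.factorization_self, Nat.Prime.factorization Nat.prime_two, Finsupp.single_apply]
      rw [if_neg (fun h => ht2 h.symm)]
      simp
    have hLcop : (Nat.card L).Coprime (Nat.card Q) := by
      rw [hLcard, ha]
      exact Nat.Coprime.pow b a ((Nat.coprime_primes htp Nat.prime_two).mpr ht2)
    have hinf : Q ⊓ L = ⊥ := (Subgroup.disjoint_of_coprime_natCard hLcop.symm).eq_bot
    have hsup : Q ⊔ L = W := by
      apply Subgroup.eq_of_le_of_card_ge (sup_le hQW hLW)
      have h1 : Nat.card (Q ⊔ L : Subgroup H) = Nat.card Q * Nat.card L := by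
        have h2 := Subgroup.card_mul_index (Q.subgroupOf (Q ⊔ L))
        have h3 : Nat.card (Q.subgroupOf (Q ⊔ L)) = Nat.card Q :=
          Nat.card_congr (subgroupOfEquivOfLe le_sup_left).toEquiv
        have h4 : (Q.subgroupOf (Q ⊔ L)).index = Q.relIndex L := by
          have : (Q.subgroupOf (Q ⊔ L)).index = Q.relIndex (Q ⊔ L) := rfl
          rw [this, sup_comm, Subgroup.relIndex_sup_right]
        have h5 : Q.relIndex L = Nat.card L := by
          rw [← Subgroup.inf_relIndex_right, hinf, Subgroup.relIndex_bot_left]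
        rw [h3, h4, h5] at h2
        exact h2.symm
      rw [h1, hLcard, hWcard, hb]
    have hQs : Group.IsSolvable Q := by
      have := hQp.isNilpotent
      infer_instance
    -- change `y`
    obtain ⟨q, hq, hqy⟩ := PLen.exists_mul_mem_normalizer Q L hQs hLcop (by rw [hsup]; exact hWn) y
    have hzbar : QuotientGroup.mk' Q (q * y) = QuotientGroup.mk' Q y := by
      rw [map_mul, show QuotientGroup.mk' Q q = 1 from (QuotientGroup.eq_one_iff q).2 hq, one_mul]
    have hzr : (q * y) ^ (r ^ j) ∈ Q := by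
      have h1 : QuotientGroup.mk' Q ((q * y) ^ (r ^ j)) = 1 := by
        rw [map_pow, hzbar, ← map_pow, hyj, map_one]
      exact (QuotientGroup.eq_one_iff _).mp h1
    obtain ⟨k, hk⟩ := hQp ⟨_, hzr⟩
    have hk' : ((q * y) ^ (r ^ j)) ^ (2 ^ k) = 1 := congrArg Subtype.val hk
    have hcop : (r ^ j).Coprime (2 ^ k) := Nat.Coprime.pow j k ((Nat.coprime_primes hr Nat.prime_two).mpr hr2)
    obtain ⟨e, he1, he2⟩ := Nat.chineseRemainder hcop 1 0
    have he2' : 2 ^ k ∣ e := (Nat.modEq_zero_iff_dvd).mp he2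
    have hcomm : ∀ l ∈ L, (q * y) ^ e * l = l * (q * y) ^ e := by
      refine claimA S hr hrn hrd ht2 _ L rfl hLt (by rw [hsup]; exact hWn) ?_ ((q * y) ^ e)
        (pow_mem hqy e) j ?_
      · intro l hl w hw
        refine hMV l ?_ w hw
        have h1 : QuotientGroup.mk' Q l ∈ pCore t (H ⧸ Q) := hLW hl
        refine Lib.Cores.le_pPrimeCore inferInstance ?_ h1
        rw [hb]
        exact Nat.Coprime.pow_left b ((Nat.coprime_primes htp Nat.prime_two).mpr ht2)
      · obtain ⟨m, rfl⟩ := he2'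
        rw [← pow_mul, mul_comm (2 ^ k * m), ← mul_assoc, pow_mul, pow_mul, hk', one_pow]
    have hybar : QuotientGroup.mk' Q ((q * y) ^ e) = QuotientGroup.mk' Q y := by
      rw [map_pow, hzbar]
      have h1 : orderOf (QuotientGroup.mk' Q y) ∣ r ^ j :=
        orderOf_dvd_of_pow_eq_one (by rw [← map_pow, hyj, map_one])
      have h2 : e ≡ 1 [MOD orderOf (QuotientGroup.mk' Q y)] := he1.of_dvd h1
      have h3 := (pow_eq_pow_iff_modEq (x := QuotientGroup.mk' Q y)).mpr h2
      rw [h3, pow_one]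
    rw [mem_centralizer_iff]
    intro z hz
    obtain ⟨w, rfl⟩ := QuotientGroup.mk'_surjective Q z
    have hwW : w ∈ W := hz
    rw [← hsup, mem_sup_of_normal_left] at hwW
    obtain ⟨q', hq', l, hl, rfl⟩ := hwW
    rw [map_mul, show QuotientGroup.mk' Q q' = 1 from (QuotientGroup.eq_one_iff q').2 hq', one_mul,
      ← hybar, ← map_mul, ← map_mul, hcomm l hl]
  have hF := (OddOrderLocal.RankTwoFitting.mem_fitting_of_forall_mem_centralizer hcores).2
  have hFle : fittingSubgroup (H ⧸ Q) ≤ pPrimeCore 2 (H ⧸ Q) := by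
    rw [Lib.Cores.fittingSubgroup_eq_iSup_pCore]
    refine iSup_le fun t => ?_
    have htf : Fact (t : ℕ).Prime := ⟨t.2⟩
    by_cases ht2 : (t : ℕ) = 2
    · rw [ht2, hQq]; exact bot_le
    · refine Lib.Cores.le_pPrimeCore inferInstance ?_
      obtain ⟨b, hb⟩ := IsPGroup.iff_card.mp (Lib.Cores.pCore_isPGroup (G := H ⧸ Q) t)
      rw [hb]
      exact Nat.Coprime.pow_left b ((Nat.coprime_primes t.2 Nat.prime_two).mpr ht2)
  exact hFle hF

end Cfsg.Agent.H453.Suz
end

-- part: H453/Homocyclic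
section
/-!
# Abelian `2`-groups with automorphisms transitive on involutions are homocyclic
-/

set_option autoImplicit false

namespace Cfsg.Agent.H453.Homocyclic

theorem exists_equiv {A : Type*} [CommGroup A] [Finite A] {p : ℕ} [hp : Fact p.Prime] (hA : IsPGroup p A)
    (htr : ∀ x y : A, orderOf x = p → orderOf y = p → ∃ a : A ≃* A, a x ∈ Subgroup.zpowers y) :
    ∃ m r : ℕ, Nonempty (A ≃* (Fin r → Multiplicative (ZMod (p ^ m)))) := by
  classical
  obtain ⟨ι, hι, n, hn, ⟨e⟩⟩ := CommGroup.equiv_prod_multiplicative_zmod_of_finite A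
  have hpow : ∀ i, ∃ k, n i = p ^ k := by
    intro i
    have h1 := IsPGroup.iff_orderOf.mp (hA.of_equiv e) (Pi.mulSingle i (Multiplicative.ofAdd (1 : ZMod (n i))))
    obtain ⟨k, hk⟩ := h1
    refine ⟨k, ?_⟩
    rw [← hk, orderOf_piMulSingle, orderOf_ofAdd_eq_addOrderOf, ZMod.addOrderOf_one]
  choose a ha using hpow
  have ha0 : ∀ i, a i ≠ 0 := by
    intro i h
    have := hn i
    rw [ha, h, pow_zero] at this
    omega
  obtain rfl : n = fun i => p ^ a i := funext ha
  let z : ι → A := fun i => e.symm (Pi.mulSingle i (Multiplicative.ofAdd (1 : ZMod (p ^ a i))))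
  have hz : ∀ i, orderOf (z i) = p ^ a i := by
    intro i
    rw [show z i = e.symm _ from rfl, MulEquiv.orderOf_eq, orderOf_piMulSingle, orderOf_ofAdd_eq_addOrderOf,
      ZMod.addOrderOf_one]
  have hz2 : ∀ i, orderOf (z i ^ p ^ (a i - 1)) = p := by
    intro i
    rw [orderOf_pow_of_dvd (pow_ne_zero _ hp.out.ne_zero) (by rw [hz]; exact pow_dvd_pow _ (Nat.sub_le _ _)), hz,
      Nat.pow_div (Nat.sub_le _ _) hp.out.pos, Nat.sub_sub_self (Nat.one_le_iff_ne_zero.mpr (ha0 i)), pow_one]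
  have hlt : ∀ i j, ¬ a i < a j := by
    intro i j hij
    obtain ⟨f, hf⟩ := htr _ _ (hz2 j) (hz2 i)
    -- the zpowers are equal
    have h1 : orderOf (f (z j ^ p ^ (a j - 1))) = p := by rw [MulEquiv.orderOf_eq, hz2]
    have h2 : Subgroup.zpowers (f (z j ^ p ^ (a j - 1))) = Subgroup.zpowers (z i ^ p ^ (a i - 1)) := by
      apply Subgroup.eq_of_le_of_card_ge (Subgroup.zpowers_le.mpr hf)
      rw [Nat.card_zpowers, Nat.card_zpowers, h1, hz2]
    have h3 : z i ^ p ^ (a i - 1) ∈ Subgroup.zpowers (f (z j ^ p ^ (a j - 1))) := by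
      rw [h2]; exact Subgroup.mem_zpowers _
    obtain ⟨k, hk⟩ := h3
    have h4 : z i ^ p ^ (a i - 1) = (f (z j) ^ k) ^ p ^ (a j - 1) := by
      rw [← hk, map_pow]
      show (f (z j) ^ p ^ (a j - 1)) ^ k = _
      rw [← zpow_natCast, ← zpow_natCast, ← zpow_mul, ← zpow_mul, mul_comm]
    have h5 : (e (z i ^ p ^ (a i - 1))) i = 1 := by
      rw [h4, map_pow, Pi.pow_apply]
      obtain ⟨c, hc⟩ : p ^ a i ∣ p ^ (a j - 1) := pow_dvd_pow p (by omega)
      rw [hc, pow_mul]
      have h6 : ((e (f (z j) ^ k)) i) ^ p ^ a i = 1 := by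
        have h7 := ZMod.natCast_self (p ^ a i)
        rw [← toAdd_eq_zero, toAdd_pow, nsmul_eq_mul, h7, zero_mul]
      rw [h6, one_pow]
    have h6 : z i ^ p ^ (a i - 1) = 1 := by
      apply e.injective
      rw [map_one]
      funext l
      by_cases hl : l = i
      · subst hl; exact h5
      · rw [map_pow, show e (z i) = _ from e.apply_symm_apply _, Pi.pow_apply, Pi.mulSingle_eq_of_ne hl, one_pow]
        rfl
    have h7 := hz2 i
    rw [h6, orderOf_one] at h7
    exact hp.out.one_lt.ne h7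
  obtain ⟨m, hm⟩ : ∃ m, ∀ i, a i = m := by
    by_cases hne : Nonempty ι
    · obtain ⟨i⟩ := hne
      exact ⟨a i, fun j => le_antisymm (not_lt.mp (hlt i j)) (not_lt.mp (hlt j i))⟩
    · exact ⟨0, fun i => (hne ⟨i⟩).elim⟩
  obtain rfl : a = fun _ => m := funext hm
  exact ⟨m, Fintype.card ι, ⟨e.trans (MulEquiv.arrowCongr (Fintype.equivFin ι) (MulEquiv.refl _))⟩⟩

end Cfsg.Agent.H453.Homocyclic
end

-- part: S3797
section
set_option autoImplicit false
open Cfsg

namespace Cfsg.Agent.S3797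

open Subgroup

theorem orderOf_eq_two {G : Type*} [Group G] {x : G} (h1 : x ≠ 1) (h2 : x ^ 2 = 1) : orderOf x = 2 :=
  orderOf_eq_prime h2 h1

theorem pLength {G : Type*} [Group G] [Finite G] (hG : Group.IsSolvable G) (S : Sylow 2 G)
    (htwo : ∃ x y : G, x ∈ (S : Subgroup G) ∧ y ∈ (S : Subgroup G) ∧ x ≠ y ∧ x ≠ 1 ∧ x ^ 2 = 1 ∧ y ≠ 1 ∧ y ^ 2 = 1)
    (hconj : ∀ x y : G, x ≠ 1 → x ^ 2 = 1 → y ≠ 1 → y ^ 2 = 1 → IsConj x y) :
    Cfsg.PLengthLE 2 1 G := by
  have hOc : (Nat.card (pPrimeCore 2 G)).Coprime 2 := Lib.Cores.pPrimeCore_coprime 2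
  refine OddOrderLocal.Thm36Aux.pLength_of_surjective (QuotientGroup.mk' (pPrimeCore 2 G))
    (QuotientGroup.mk'_surjective _) (by rwa [QuotientGroup.ker_mk']) ?_
  set O := pPrimeCore 2 G with hO
  have hsol : Group.IsSolvable (G ⧸ O) := inferInstance
  have hO1 : pPrimeCore 2 (G ⧸ O) = ⊥ := Lib.Cores.pPrimeCore_quotient_pPrimeCore 2
  have hlift : ∀ x : G ⧸ O, orderOf x = 2 → ∃ y : G, orderOf y = 2 ∧ QuotientGroup.mk' O y = x := by
    intro x hx
    obtain ⟨U, hU, hU2⟩ := H453.PLen.exists_lift O hOc (zpowers x) (by rw [Nat.card_zpowers, hx])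
    have h1 : x ∈ U.map (QuotientGroup.mk' O) := by rw [hU2]; exact mem_zpowers x
    obtain ⟨y, hy, hyx⟩ := h1
    refine ⟨y, ?_, hyx⟩
    have h2 : orderOf y ∣ 2 := by rw [← hU]; exact Subgroup.orderOf_dvd_natCard U hy
    rcases (Nat.dvd_prime Nat.prime_two).mp h2 with h | h
    · rw [orderOf_eq_one_iff.mp h, map_one] at hyx
      rw [← hyx, orderOf_one] at hx
      norm_num at hx
    · exact h
  have hne : ∀ x : G, orderOf x = 2 → x ≠ 1 ∧ x ^ 2 = 1 := by
    intro x hx
    refine ⟨?_, by rw [← hx]; exact pow_orderOf_eq_one x⟩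
    rintro rfl
    rw [orderOf_one] at hx
    norm_num at hx
  have h := H453.Suz.index_coprime hsol hO1
    (by
      intro x y hx hy
      obtain ⟨x', hx', rfl⟩ := hlift x hx
      obtain ⟨y', hy', rfl⟩ := hlift y hy
      obtain ⟨c, hc⟩ := isConj_iff.mp
        (hconj x' y' (hne x' hx').1 (hne x' hx').2 (hne y' hy').1 (hne y' hy').2)
      exact isConj_iff.mpr ⟨QuotientGroup.mk' O c, by rw [← hc, map_mul, map_mul, map_inv]⟩)
    (by
      obtain ⟨x, y, hxS, hyS, hxy, hx1, hx2, hy1, hy2⟩ := htwo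
      have hSO : O ⊓ (S : Subgroup G) = ⊥ := OddOrderLocal.PLengthOne.pPrimeCore_inf_sylow S
      have hker : ∀ z ∈ (S : Subgroup G), QuotientGroup.mk' O z = 1 → z = 1 := by
        intro z hz hz1
        have h1 : z ∈ O ⊓ (S : Subgroup G) := ⟨(QuotientGroup.eq_one_iff z).mp hz1, hz⟩
        rw [hSO, mem_bot] at h1
        exact h1
      refine ⟨QuotientGroup.mk' O x, QuotientGroup.mk' O y, ?_, ?_, ?_⟩
      · exact orderOf_eq_two (fun h => hx1 (hker x hxS h)) (by rw [← map_pow, hx2, map_one])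
      · exact orderOf_eq_two (fun h => hy1 (hker y hyS h)) (by rw [← map_pow, hy2, map_one])
      · intro h
        apply hxy
        have h1 := hker (x⁻¹ * y) (mul_mem (inv_mem hxS) hyS) (by rw [map_mul, map_inv, h, inv_mul_cancel])
        exact (inv_mul_eq_one.mp h1))
  exact OddOrderLocal.Thm36Aux.pLength_of_normal_pgroup (pCore 2 (G ⧸ O)) inferInstance
    (Lib.Cores.pCore_isPGroup 2) h

/-- Let G be a finite solvable group of even order whose Sylow 2-subgroups contain more than one involution, and suppose all involutions of G are conjugate. Then G has 2-length at most 1, and a Sylow 2-subgroup S of G is either homocyclic (a direct product of cyclic groups of one common order) or a non-abelian 2-group with more than one involution admitting a solvable group of automorphisms transitive on its involutions. -/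
theorem result {G : Type*} [Group G] [Finite G] (hG : Group.IsSolvable G) (heven : Even (Nat.card G)) (S : Sylow 2 G) (htwo : ∃ x y : G, x ∈ (S : Subgroup G) ∧ y ∈ (S : Subgroup G) ∧ x ≠ y ∧ x ≠ 1 ∧ x ^ 2 = 1 ∧ y ≠ 1 ∧ y ^ 2 = 1) (hconj : ∀ x y : G, x ≠ 1 → x ^ 2 = 1 → y ≠ 1 → y ^ 2 = 1 → IsConj x y) : Cfsg.PLengthLE 2 1 G ∧ ((∃ m r : ℕ, Nonempty (↥(S : Subgroup G) ≃* (Fin r → Multiplicative (ZMod (2 ^ m))))) ∨ (¬ IsMulCommutative (S : Subgroup G) ∧ ∃ Y : Subgroup (MulAut ↥(S : Subgroup G)), Group.IsSolvable Y ∧ ∀ x y : ↥(S : Subgroup G), x ≠ 1 → x ^ 2 = 1 → y ≠ 1 → y ^ 2 = 1 → ∃ a ∈ Y, a x = y)) := by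
  have hp1 := pLength hG S htwo hconj
  refine ⟨hp1, ?_⟩
  -- the automorphisms induced by the normalizer
  have hY : ∀ x y : ↥(S : Subgroup G), x ≠ 1 → x ^ 2 = 1 → y ≠ 1 → y ^ 2 = 1 →
      ∃ a ∈ ((S : Subgroup G).normalizerMonoidHom).range, a x = y := by
    intro x y hx1 hx2 hy1 hy2
    obtain ⟨g, hg⟩ := isConj_iff.mp (hconj (x : G) (y : G) (fun h => hx1 (Subtype.ext h))
      (congrArg Subtype.val hx2) (fun h => hy1 (Subtype.ext h)) (congrArg Subtype.val hy2))
    obtain ⟨n, hn, k, hk, rfl⟩ := OddOrderLocal.PLengthOne.exists_mul_of_pLengthLE_one hp1 S g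
    refine ⟨(S : Subgroup G).normalizerMonoidHom ⟨n, hn⟩, ⟨_, rfl⟩, ?_⟩
    apply Subtype.ext
    show n * (x : G) * n⁻¹ = y
    have hSO : pPrimeCore 2 G ⊓ (S : Subgroup G) = ⊥ := OddOrderLocal.PLengthOne.pPrimeCore_inf_sylow S
    have hOn : (pPrimeCore 2 G).Normal := inferInstance
    have h1 : (y : G)⁻¹ * (n * (x : G) * n⁻¹) ∈ pPrimeCore 2 G ⊓ (S : Subgroup G) := by
      refine ⟨?_, ?_⟩
      · have h2 : (y : G)⁻¹ * (n * (x : G) * n⁻¹) = n * (k * ((x : G)⁻¹ * k⁻¹ * (x : G)⁻¹⁻¹)) * n⁻¹ := by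
          rw [← hg]; group
        rw [h2]
        exact hOn.conj_mem _ (mul_mem hk (hOn.conj_mem k⁻¹ (inv_mem hk) (x : G)⁻¹)) n
      · exact (S : Subgroup G).mul_mem ((S : Subgroup G).inv_mem y.2) ((mem_normalizer_iff.mp hn _).mp x.2)
    rw [hSO, mem_bot] at h1
    exact (inv_mul_eq_one.mp h1).symm
  by_cases hc : IsMulCommutative (S : Subgroup G)
  · left
    letI : CommGroup (S : Subgroup G) :=
      { (inferInstance : Group (S : Subgroup G)) with mul_comm := hc.is_comm.comm }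
    refine H453.Homocyclic.exists_equiv (p := 2) S.2 ?_
    intro x y hx hy
    have hne : ∀ x : (S : Subgroup G), orderOf x = 2 → x ≠ 1 ∧ x ^ 2 = 1 := by
      intro x hx
      refine ⟨?_, orderOf_dvd_iff_pow_eq_one.mp hx.dvd⟩
      rintro rfl
      rw [orderOf_one] at hx
      norm_num at hx
    obtain ⟨a, -, ha⟩ := hY x y (hne x hx).1 (hne x hx).2 (hne y hy).1 (hne y hy).2
    exact ⟨a, by rw [ha]; exact mem_zpowers y⟩
  · right
    refine ⟨hc, _, ?_, hY⟩
    have h1 : Group.IsSolvable (normalizer ((S : Subgroup G) : Set G)) := inferInstance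
    exact Group.isSolvable_of_surjective (f := (S : Subgroup G).normalizerMonoidHom.rangeRestrict)
      (MonoidHom.rangeRestrict_surjective _)

end Cfsg.Agent.S3797
end
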