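import Cfsg.Agent.H487.SchurMult
import Mathlib.GroupTheory.Transfer
import Cfsg.Statements.S3953
set_option linter.all false

-- part: H486/SchurCores
section
/-!
# Restriction (transfer) and corestriction of Schur multipliers

For a subgroup `H` of finite index `m` of `G` there are homomorphisms `res : M(G) → M(H)` and `cor : M(H) → M(G)`
with `cor (res a) = a ^ m`.
-/

set_option autoImplicit false

universe u v w u' v' w'

namespace Cfsg.Agent.H486

open Function Cfsg.Agent.H487
open scoped commutatorElement IsMulCommutative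

section Transfer

variable {F : Type u} {G : Type v} {D : Type w} [Group F] [Group G] [Group D]
  (p : F →* G) (H : Subgroup G) (eS : ↥(H.comap p) →* D) (K : Subgroup D)

theorem conj_mem_comap (g : F) (r : p.ker) : g⁻¹ * (r : F) * g ∈ H.comap p := by
  rw [Subgroup.mem_comap, map_mul, map_mul, map_inv, MonoidHom.mem_ker.1 r.2, mul_one, inv_mul_cancel]
  exact H.one_mem

/-- The map `r ↦ eS (g⁻¹ r g)`. -/
def cg (hc : ∀ s : ↥(H.comap p), p s = 1 → eS s ∈ K) (g : F) :
    p.ker →* K where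
  toFun r := ⟨eS ⟨g⁻¹ * (r : F) * g, conj_mem_comap p H g r⟩, hc _ (by
    rw [map_mul, map_mul, map_inv, MonoidHom.mem_ker.1 r.2, mul_one, inv_mul_cancel])⟩
  map_one' := by
    apply Subtype.ext
    change eS _ = 1
    rw [← map_one eS]
    congr 1
    apply Subtype.ext
    change g⁻¹ * 1 * g = 1
    group
  map_mul' r s := by
    apply Subtype.ext
    change eS _ = eS _ * eS _
    rw [← map_mul]
    congr 1
    apply Subtype.ext
    change g⁻¹ * ((r : F) * (s : F)) * g = (g⁻¹ * r * g) * (g⁻¹ * s * g)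
    group

variable (hc : ∀ s : ↥(H.comap p), p s = 1 → eS s ∈ K)

theorem cg_coe (g : F) (r : p.ker) :
    (cg p H eS K hc g r : D) = eS ⟨g⁻¹ * (r : F) * g, conj_mem_comap p H g r⟩ := rfl

theorem cg_mul_right (hK : K ≤ Subgroup.center D) (g : F) (s : ↥(H.comap p)) :
    cg p H eS K hc (g * s) = cg p H eS K hc g := by
  ext r
  rw [cg_coe, cg_coe]
  have h1 : (⟨(g * s)⁻¹ * (r : F) * (g * s), conj_mem_comap p H (g * s) r⟩ : ↥(H.comap p)) =
      s⁻¹ * ⟨g⁻¹ * (r : F) * g, conj_mem_comap p H g r⟩ * s := by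
    apply Subtype.ext
    change (g * s)⁻¹ * (r : F) * (g * s) = (s : F)⁻¹ * (g⁻¹ * (r : F) * g) * s
    group
  rw [h1, map_mul, map_mul, map_inv]
  have h2 : eS ⟨g⁻¹ * (r : F) * g, conj_mem_comap p H g r⟩ ∈ Subgroup.center D :=
    hK (cg p H eS K hc g r).2
  rw [Subgroup.mem_center_iff.1 h2, mul_assoc, inv_mul_cancel, mul_one]

theorem cg_eq_of_mk_eq (hK : K ≤ Subgroup.center D) {g g' : F} (h : (g : F ⧸ H.comap p) = g') :
    cg p H eS K hc g = cg p H eS K hc g' := by
  have h1 : g⁻¹ * g' ∈ H.comap p := QuotientGroup.eq.1 h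
  have h2 := cg_mul_right p H eS K hc hK g ⟨g⁻¹ * g', h1⟩
  rw [← h2]
  congr 1
  change g * (g⁻¹ * g') = g'
  group

theorem conj_mem_ker (f : F) (r : p.ker) : f * (r : F) * f⁻¹ ∈ p.ker := by
  rw [MonoidHom.mem_ker, map_mul, map_mul, map_inv, MonoidHom.mem_ker.1 r.2, mul_one, mul_inv_cancel]

theorem cg_conj (f g : F) (r : p.ker) :
    cg p H eS K hc g ⟨f * (r : F) * f⁻¹, conj_mem_ker p f r⟩ = cg p H eS K hc (f⁻¹ * g) r := by
  apply Subtype.ext
  rw [cg_coe, cg_coe]
  congr 1
  apply Subtype.ext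
  change g⁻¹ * (f * (r : F) * f⁻¹) * g = (f⁻¹ * g)⁻¹ * (r : F) * (f⁻¹ * g)
  group

variable [IsMulCommutative K] [(H.comap p).FiniteIndex]

/-- The transfer on the kernel. -/
noncomputable def tr : p.ker →* K :=
  letI : Fintype (F ⧸ H.comap p) := (H.comap p).fintypeQuotientOfFiniteIndex
  ∏ q : F ⧸ H.comap p, cg p H eS K hc q.out

theorem tr_apply (r : p.ker) :
    letI : Fintype (F ⧸ H.comap p) := (H.comap p).fintypeQuotientOfFiniteIndex
    tr p H eS K hc r = ∏ q : F ⧸ H.comap p, cg p H eS K hc q.out r := by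
  simp only [tr, MonoidHom.finsetProd_apply]

theorem tr_conj (hK : K ≤ Subgroup.center D) (f : F) (r : p.ker) :
    tr p H eS K hc ⟨f * (r : F) * f⁻¹, conj_mem_ker p f r⟩ = tr p H eS K hc r := by
  let _ : Fintype (F ⧸ H.comap p) := (H.comap p).fintypeQuotientOfFiniteIndex
  rw [tr_apply, tr_apply]
  refine Fintype.prod_equiv (MulAction.toPerm f⁻¹) _ _ (fun q => ?_)
  rw [cg_conj]
  congr 1
  apply cg_eq_of_mk_eq _ _ _ _ _ hK
  rw [MulAction.toPerm_apply, QuotientGroup.out_eq']
  conv_rhs => rw [← QuotientGroup.out_eq' q]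
  rfl

/-- The transfer kills `[F, R]`. -/
theorem tr_eq_one (hK : K ≤ Subgroup.center D) {x : F} (hx : x ∈ ⁅(⊤ : Subgroup F), p.ker⁆)
    (hx' : x ∈ p.ker) : tr p H eS K hc ⟨x, hx'⟩ = 1 := by
  have h1 : ⁅(⊤ : Subgroup F), p.ker⁆ ≤ (tr p H eS K hc).ker.map p.ker.subtype := by
    rw [Subgroup.commutator_le]
    intro f _ r hr
    refine ⟨⟨f * r * f⁻¹, conj_mem_ker p f ⟨r, hr⟩⟩ * ⟨r, hr⟩⁻¹, ?_, ?_⟩
    · rw [SetLike.mem_coe, MonoidHom.mem_ker, map_mul, map_inv]
      have := tr_conj p H eS K hc hK f ⟨r, hr⟩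
      rw [this, mul_inv_cancel]
    · rfl
  obtain ⟨y, hy, hyx⟩ := h1 hx
  have : y = ⟨x, hx'⟩ := Subtype.ext hyx
  rw [← this]
  exact hy

/-- The transfer maps the kernel intersected with the commutator subgroup to the commutator subgroup. -/
theorem tr_mem_commutator (hK : K ≤ Subgroup.center D) {x : F} (hx : x ∈ _root_.commutator F)
    (hx' : x ∈ p.ker) : (tr p H eS K hc ⟨x, hx'⟩ : D) ∈ _root_.commutator D := by
  let _ : Fintype (F ⧸ H.comap p) := (H.comap p).fintypeQuotientOfFiniteIndex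
  let ϕ : ↥(H.comap p) →* Abelianization D := Abelianization.of.comp eS
  have h1 : MonoidHom.transfer ϕ x = 1 := Abelianization.commutator_subset_ker (MonoidHom.transfer ϕ) hx
  have h2 : MonoidHom.transfer ϕ x = Abelianization.of ((tr p H eS K hc ⟨x, hx'⟩ : D)) := by
    rw [tr_apply, MonoidHom.transfer_def ϕ default x]
    have h3 : Abelianization.of ((∏ q : F ⧸ H.comap p, cg p H eS K hc q.out ⟨x, hx'⟩ : K) : D) =
        ∏ q : F ⧸ H.comap p, Abelianization.of ((cg p H eS K hc q.out ⟨x, hx'⟩ : K) : D) :=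
      map_prod (Abelianization.of.comp K.subtype) _ _
    rw [h3]
    unfold Subgroup.leftTransversals.diff
    refine Finset.prod_congr rfl (fun q _ => ?_)
    have hq : x⁻¹ • q = q := by
      conv_lhs => rw [← QuotientGroup.out_eq' q]
      conv_rhs => rw [← QuotientGroup.out_eq' q]
      change ((x⁻¹ * q.out : F) : F ⧸ H.comap p) = ((q.out : F) : F ⧸ H.comap p)
      rw [eq_comm, QuotientGroup.eq, Subgroup.mem_comap, map_mul, map_mul, map_inv, map_inv,
        MonoidHom.mem_ker.1 hx', inv_one, one_mul, inv_mul_cancel]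
      exact H.one_mem
    set a : F := ((default : (H.comap p).LeftTransversal).2.leftQuotientEquiv q : F) with ha
    have h4 : (((x • (default : (H.comap p).LeftTransversal)).2.leftQuotientEquiv q : _) : F) = x * a := by
      rw [Subgroup.smul_apply_eq_smul_apply_inv_smul, hq, smul_eq_mul]
    have h5 : cg p H eS K hc q.out ⟨x, hx'⟩ = cg p H eS K hc a ⟨x, hx'⟩ := by
      congr 1
      apply cg_eq_of_mk_eq _ _ _ _ _ hK
      rw [QuotientGroup.out_eq', ha]
      exact ((default : (H.comap p).LeftTransversal).2.leftQuotientEquiv.symm_apply_apply q).symm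
    rw [h5, cg_coe]
    change ϕ _ = ϕ _
    congr 1
    apply Subtype.ext
    change a⁻¹ * _ = a⁻¹ * x * a
    rw [h4, mul_assoc]
  rw [← Abelianization.ker_of, MonoidHom.mem_ker, ← h2, h1]

end Transfer

section Main

theorem central_freeExt {F : Type u} {G : Type v} [Group F] [Group G] (p : F →* G) :
    (freeExt p).ker ≤ Subgroup.center _ := by
  intro x
  induction x using QuotientGroup.induction_on with
  | H x =>
    intro hx
    have hx' : x ∈ p.ker := hx
    rw [Subgroup.mem_center_iff]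
    intro y
    induction y using QuotientGroup.induction_on with
    | H y =>
      rw [← commutatorElement_eq_one_iff_mul_comm]
      change ((⁅y, x⁆ : F) : F ⧸ ⁅(⊤ : Subgroup F), p.ker⁆) = 1
      rw [QuotientGroup.eq_one_iff]
      exact Subgroup.commutator_mem_commutator (Subgroup.mem_top _) hx'

theorem isMulCommutative_of_le_center {E : Type u} [Group E] {K : Subgroup E}
    (h : K ≤ Subgroup.center E) : IsMulCommutative K :=
  ⟨⟨fun a b => Subtype.ext ((Subgroup.mem_center_iff.1 (h b.2)) a.1)⟩⟩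

variable {F : Type u} {G : Type v} [Group F] [Group G] (p : F →* G) (H : Subgroup G)

/-- **Restriction and corestriction** for free presentations. -/
theorem exists_res_cor_freeExt [(H.comap p).FiniteIndex] :
    ∃ (res : Mult (freeExt p) →* Mult (freeExt (p.subgroupComap H)))
      (cor : Mult (freeExt (p.subgroupComap H)) →* Mult (freeExt p)),
      ∀ a, cor (res a) = a ^ (H.comap p).index := by
  set S := H.comap p with hS
  set pS : S →* H := p.subgroupComap H with hpS
  set K : Subgroup (S ⧸ ⁅(⊤ : Subgroup S), pS.ker⁆) := (freeExt pS).ker with hKdef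
  set K' : Subgroup (F ⧸ ⁅(⊤ : Subgroup F), p.ker⁆) := (freeExt p).ker with hK'def
  have hK : K ≤ Subgroup.center _ := central_freeExt pS
  have hK' : K' ≤ Subgroup.center _ := central_freeExt p
  have : IsMulCommutative K := isMulCommutative_of_le_center hK
  have : IsMulCommutative K' := isMulCommutative_of_le_center hK'
  let eS : S →* (S ⧸ ⁅(⊤ : Subgroup S), pS.ker⁆) := QuotientGroup.mk' _
  have hc : ∀ s : S, p s = 1 → eS s ∈ K := by
    intro s hs
    exact Subtype.ext hs
  let T : p.ker →* K := tr p H eS K hc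
  -- the map to the kernel of the universal extension
  let j : p.ker →* K' := ((QuotientGroup.mk' ⁅(⊤ : Subgroup F), p.ker⁆).comp p.ker.subtype).codRestrict K'
    (fun r => r.2)
  have hj : Surjective j := by
    rintro ⟨x, hx⟩
    induction x using QuotientGroup.induction_on with
    | H x => exact ⟨⟨x, hx⟩, rfl⟩
  have hjT : j.ker ≤ T.ker := by
    rintro ⟨x, hx⟩ h1
    have h2 : (x : F ⧸ ⁅(⊤ : Subgroup F), p.ker⁆) = 1 := congrArg Subtype.val h1
    rw [QuotientGroup.eq_one_iff] at h2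
    exact tr_eq_one p H eS K hc hK h2 hx
  let T0 : K' →* K := j.liftOfSurjective hj ⟨T, hjT⟩
  have hT0 : ∀ r, T0 (j r) = T r := fun r => MonoidHom.liftOfRightInverse_comp_apply _ _ _ _ _
  have hT0c : ∀ x (hx : x ∈ Mult (freeExt p)), (T0 ⟨x, hx.1⟩ : S ⧸ ⁅(⊤ : Subgroup S), pS.ker⁆) ∈
      _root_.commutator _ := by
    rintro x ⟨hx1, hx2⟩
    rw [commutator_quot] at hx2
    obtain ⟨y, hy, rfl⟩ := hx2
    have h3 := hT0 ⟨y, hx1⟩
    have h4 : T0 ⟨QuotientGroup.mk' _ y, hx1⟩ = T ⟨y, hx1⟩ := h3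
    rw [h4]
    exact tr_mem_commutator p H eS K hc hK hy hx1
  let res : Mult (freeExt p) →* Mult (freeExt pS) :=
    { toFun := fun x => ⟨T0 ⟨x.1, x.2.1⟩, (T0 ⟨x.1, x.2.1⟩).2, hT0c x.1 x.2⟩
      map_one' := by
        apply Subtype.ext
        change ((T0 1 : K) : S ⧸ ⁅(⊤ : Subgroup S), pS.ker⁆) = 1
        rw [map_one]; rfl
      map_mul' := fun a b => by
        apply Subtype.ext
        change ((T0 (⟨a.1, a.2.1⟩ * ⟨b.1, b.2.1⟩) : K) : S ⧸ ⁅(⊤ : Subgroup S), pS.ker⁆) = _
        rw [map_mul]; rfl }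
  -- the corestriction
  have hle : ⁅(⊤ : Subgroup S), pS.ker⁆ ≤ (⁅(⊤ : Subgroup F), p.ker⁆).comap S.subtype := by
    rw [Subgroup.commutator_le]
    intro a _ b hb
    rw [Subgroup.mem_comap, map_commutatorElement]
    exact Subgroup.commutator_mem_commutator (Subgroup.mem_top _) (congrArg Subtype.val hb : p b = 1)
  let cor0 : (S ⧸ ⁅(⊤ : Subgroup S), pS.ker⁆) →* (F ⧸ ⁅(⊤ : Subgroup F), p.ker⁆) :=
    QuotientGroup.map _ _ S.subtype hle
  have hcor0 : ∀ s : S, cor0 (eS s) = QuotientGroup.mk' _ (s : F) := fun s => rfl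
  have hcorK : ∀ x ∈ K, cor0 x ∈ K' := by
    intro x hx
    induction x using QuotientGroup.induction_on with
    | H x => exact (congrArg Subtype.val hx : p x = 1)
  let cor1 : K →* K' := (cor0.comp K.subtype).codRestrict K' (fun x => hcorK x.1 x.2)
  have hcorM : ∀ x ∈ Mult (freeExt pS), cor0 x ∈ Mult (freeExt p) := by
    rintro x ⟨hx1, hx2⟩
    refine ⟨hcorK x hx1, ?_⟩
    have h1 : (_root_.commutator _).map cor0 ≤ _root_.commutator _ := by
      rw [_root_.commutator_def, Subgroup.map_commutator, _root_.commutator_def]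
      exact Subgroup.commutator_mono le_top le_top
    exact h1 ⟨x, hx2, rfl⟩
  let cor : Mult (freeExt pS) →* Mult (freeExt p) :=
    (cor0.comp (Mult (freeExt pS)).subtype).codRestrict _ (fun x => hcorM x.1 x.2)
  refine ⟨res, cor, ?_⟩
  rintro ⟨x, hx⟩
  induction x using QuotientGroup.induction_on with
  | H x =>
    have hxk : x ∈ p.ker := hx.1
    apply Subtype.ext
    change cor0 (T0 (j ⟨x, hxk⟩) : S ⧸ ⁅(⊤ : Subgroup S), pS.ker⁆) = (x : F ⧸ ⁅(⊤ : Subgroup F), p.ker⁆) ^ S.index
    rw [hT0]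
    let _ : Fintype (F ⧸ S) := S.fintypeQuotientOfFiniteIndex
    have h1 : cor1 (T ⟨x, hxk⟩) = (j ⟨x, hxk⟩) ^ S.index := by
      change cor1 (tr p H eS K hc ⟨x, hxk⟩) = _
      rw [tr_apply, map_prod]
      have h2 : ∀ q : F ⧸ S, cor1 (cg p H eS K hc q.out ⟨x, hxk⟩) = j ⟨x, hxk⟩ := by
        intro q
        apply Subtype.ext
        change (QuotientGroup.mk' _ (q.out⁻¹ * x * q.out)) = (QuotientGroup.mk' ⁅(⊤ : Subgroup F), p.ker⁆ x)
        have h3 : (QuotientGroup.mk' ⁅(⊤ : Subgroup F), p.ker⁆ x) ∈ Subgroup.center _ := hK' hx.1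
        rw [map_mul, map_mul, map_inv, mul_assoc, ← Subgroup.mem_center_iff.1 h3, inv_mul_cancel_left]
      rw [Finset.prod_congr rfl (fun q _ => h2 q), Finset.prod_const, Finset.card_univ]
      congr 1
      rw [Subgroup.index_eq_card, Nat.card_eq_fintype_card]
    exact congrArg Subtype.val h1

/-- **Restriction and corestriction** of Schur multipliers: `cor (res a) = a ^ |G : H|`. -/
theorem exists_res_cor_MM {G : Type u} [Group G] [Finite G] (H : Subgroup G) :
    ∃ (res : MM G →* MM H) (cor : MM H →* MM G), ∀ a, cor (res a) = a ^ H.index := by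
  let p : FreeGroup G →* G := FreeGroup.lift (id : G → G)
  have hp : Surjective p := fun g => ⟨FreeGroup.of g, by simp [p]⟩
  have hidx : (H.comap p).index = H.index := H.index_comap_of_surjective hp
  have : (H.comap p).FiniteIndex := ⟨by rw [hidx]; exact Subgroup.FiniteIndex.index_ne_zero⟩
  obtain ⟨res, cor, h⟩ := exists_res_cor_freeExt p H
  have hv : IsVersal (freeExt (p.subgroupComap H)) :=
    isVersal_freeExt _ (p.subgroupComap_surjective_of_surjective H hp)
  obtain ⟨e⟩ := hv.nonempty_mulEquiv (isVersal_pr H)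
  refine ⟨e.toMonoidHom.comp res, cor.comp e.symm.toMonoidHom, fun a => ?_⟩
  change cor (e.symm (e (res a))) = _
  rw [e.symm_apply_apply, ← hidx]
  exact h a

/-- **Restriction and corestriction** of Schur multipliers: `cor (res a) = a ^ |G : H|`. -/
theorem exists_res_cor {G : Type u} [Group G] (H : Subgroup G) {A : Type v} {B : Type w} [CommGroup A]
    [CommGroup B] (hA : Cfsg.HasSchurMultiplier G A) (hB : Cfsg.HasSchurMultiplier H B) :
    ∃ (res : A →* B) (cor : B →* A), ∀ a, cor (res a) = a ^ H.index := by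
  have : Finite G := finite_base hA
  obtain ⟨e⟩ := nonempty_mulEquiv_MM hA
  obtain ⟨f⟩ := nonempty_mulEquiv_MM hB
  obtain ⟨res, cor, h⟩ := exists_res_cor_MM H
  refine ⟨(f.symm.toMonoidHom.comp res).comp e.toMonoidHom, (e.symm.toMonoidHom.comp cor).comp f.toMonoidHom,
    fun a => ?_⟩
  change e.symm (cor (f (f.symm (res (e a))))) = _
  rw [f.apply_symm_apply, h, map_pow, e.symm_apply_apply]

end Main

end Cfsg.Agent.H486
end

-- part: S3953
section
set_option autoImplicit false
open Cfsg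

namespace Cfsg.Agent.S3953

open Cfsg.Agent.H486 Cfsg.Agent.H487

/-- Let `P` be a Sylow `p`-subgroup of the finite group `G`, let `A` be the Schur multiplier of `G` and `B` that of `P`. Then the `p`-primary component of `A` is isomorphic to a direct factor of `B`: there are subgroups `C` and `D` of `B` meeting trivially and generating `B`, with `C` isomorphic to the `p`-primary component of `A`. -/
theorem result {G : Type*} [Group G] [Finite G] (p : ℕ) [Fact p.Prime] (P : Sylow p G) {A B : Type*} [CommGroup A] [CommGroup B] (hA : Cfsg.HasSchurMultiplier G A) (hB : Cfsg.HasSchurMultiplier P B) : ∃ C D : Subgroup B, C ⊓ D = ⊥ ∧ C ⊔ D = ⊤ ∧ Nonempty (CommGroup.primaryComponent A p ≃* C) := by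
  have hp : p.Prime := Fact.out
  have : Finite A := finite_multiplier hA
  obtain ⟨res, cor, hrc⟩ := exists_res_cor (P : Subgroup G) hA hB
  set m := (P : Subgroup G).index with hm
  have hpm : ¬ p ∣ m := P.not_dvd_index
  -- the exponent
  set N := Nat.card A with hN
  have hN0 : N ≠ 0 := Nat.card_pos.ne'
  set k := N.factorization p with hk
  have hmul : p ^ k * (N / p ^ k) = N := Nat.ordProj_mul_ordCompl_eq_self N p
  set n' := N / p ^ k with hn'
  have hpn' : ¬ p ∣ n' := Nat.not_dvd_ordCompl hp hN0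
  have hcop : Nat.Coprime (p ^ k) (m * n') := by
    apply Nat.Coprime.pow_left
    exact (Nat.Prime.coprime_iff_not_dvd hp).2 (fun h => (hp.dvd_mul.1 h).elim hpm hpn')
  -- an integer `l` with `m n' l ≡ 1 mod p ^ k`
  obtain ⟨l, hl⟩ : ∃ l : ℤ, ∃ t : ℤ, (m : ℤ) * n' * l = 1 + p ^ k * t := by
    have h1 := Nat.isCoprime_iff_coprime.2 hcop
    obtain ⟨a, b, hab⟩ := h1
    refine ⟨b, -a, ?_⟩
    push_cast at hab ⊢
    linarith
  obtain ⟨t, hl⟩ := hl
  have hpow : ∀ a ∈ CommGroup.primaryComponent A p, a ^ p ^ k = 1 := by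
    rintro a ⟨j, hj⟩
    obtain ⟨i, _, hi⟩ := (Nat.dvd_prime_pow hp).1 (orderOf_dvd_of_pow_eq_one hj)
    have h1 : p ^ i ∣ N := hi ▸ orderOf_dvd_natCard a
    have h2 : i ≤ k := (hp.pow_dvd_iff_le_factorization hN0).1 h1
    rw [← orderOf_dvd_iff_pow_eq_one, hi]
    exact pow_dvd_pow p h2
  -- the retraction
  let ρ0 : B →* A := (zpowGroupHom ((n' : ℤ) * l)).comp cor
  have hρ0 : ∀ b, ρ0 b ∈ CommGroup.primaryComponent A p := by
    intro b
    have h1 : (ρ0 b) ^ p ^ k = 1 := by
      change ((cor b) ^ ((n' : ℤ) * l)) ^ p ^ k = 1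
      have h2 : ((cor b) ^ ((n' : ℤ) * l)) ^ p ^ k = ((cor b) ^ N) ^ l := by
        rw [← zpow_natCast, ← zpow_natCast, ← zpow_mul, ← zpow_mul]
        congr 1
        rw [← hmul]
        push_cast
        ring
      rw [h2, hN, pow_card_eq_one', one_zpow]
    exact ⟨k, h1⟩
  have hret : ∀ a ∈ CommGroup.primaryComponent A p, ρ0 (res a) = a := by
    intro a ha
    change (cor (res a)) ^ ((n' : ℤ) * l) = a
    rw [hrc, ← zpow_natCast, ← zpow_mul, ← mul_assoc, hl, zpow_add, zpow_one, zpow_mul]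
    have h1 : a ^ ((p : ℤ) ^ k) = 1 := by
      have := hpow a ha
      exact_mod_cast this
    rw [h1, one_zpow, mul_one]
  let i : CommGroup.primaryComponent A p →* B := res.comp (CommGroup.primaryComponent A p).subtype
  have hi : Function.Injective i := by
    rw [injective_iff_map_eq_one]
    intro a ha
    have h1 := hret a.1 a.2
    change res a.1 = 1 at ha
    rw [ha, map_one] at h1
    exact Subtype.ext h1.symm
  refine ⟨i.range, ρ0.ker, ?_, ?_, ⟨MonoidHom.ofInjective hi⟩⟩
  · rw [eq_bot_iff]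
    rintro _ ⟨⟨a, rfl⟩, ha⟩
    have h1 : ρ0 (res a.1) = 1 := ha
    rw [hret a.1 a.2] at h1
    have h2 : a = 1 := Subtype.ext h1
    rw [h2, map_one]
    exact Subgroup.one_mem _
  · rw [eq_top_iff]
    intro b _
    have h1 : b = res (ρ0 b) * ((res (ρ0 b))⁻¹ * b) := by group
    rw [h1]
    refine Subgroup.mul_mem_sup ⟨⟨ρ0 b, hρ0 b⟩, rfl⟩ ?_
    rw [MonoidHom.mem_ker, map_mul, map_inv, hret _ (hρ0 b), inv_mul_cancel]

end Cfsg.Agent.S3953
end
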