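import Mathlib.GroupTheory.FiniteAbelian.Duality
import Mathlib.RingTheory.RootsOfUnity.AlgebraicallyClosed
import Mathlib.Analysis.Complex.Polynomial.Basic
import Cfsg.Statements.S3954
import Cfsg.Agent.H487.SchurTransfer
set_option linter.all false

-- part: H487/SchurAb
section
/-!
# Finite abelian groups: quotients are subgroups
-/

set_option autoImplicit false

universe u v w

namespace Cfsg.Agent.H487

open Function

/-- A quotient of a finite abelian group is isomorphic to a subgroup. -/
theorem exists_injective_of_surjective {B : Type u} {X : Type v} [CommGroup B] [CommGroup X]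
    [Finite B] (f : B →* X) (hf : Surjective f) : ∃ g : X →* B, Injective g := by
  have : Finite X := Finite.of_surjective f hf
  have : NeZero (Monoid.exponent B) := ⟨Monoid.exponent_ne_zero_of_finite⟩
  have : NeZero (Monoid.exponent X) := ⟨Monoid.exponent_ne_zero_of_finite⟩
  have : NeZero ((Monoid.exponent B : ℕ) : ℂ) := ⟨by exact_mod_cast NeZero.ne (Monoid.exponent B)⟩
  have : NeZero ((Monoid.exponent X : ℕ) : ℂ) := ⟨by exact_mod_cast NeZero.ne (Monoid.exponent X)⟩
  obtain ⟨eB⟩ := CommGroup.monoidHom_mulEquiv_of_hasEnoughRootsOfUnity B ℂ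
  obtain ⟨eX⟩ := CommGroup.monoidHom_mulEquiv_of_hasEnoughRootsOfUnity X ℂ
  let d : (X →* ℂˣ) →* (B →* ℂˣ) :=
    { toFun := fun χ => χ.comp f
      map_one' := by ext; simp
      map_mul' := by intro a b; ext; simp }
  have hd : Injective d := by
    intro a b hab
    ext x
    obtain ⟨y, rfl⟩ := hf x
    exact congrArg Units.val (DFunLike.congr_fun hab y)
  exact ⟨(eB.toMonoidHom.comp d).comp eX.symm.toMonoidHom,
    (eB.injective.comp hd).comp eX.symm.injective⟩

/-- A subgroup of a quotient of a finite abelian group is isomorphic to a subgroup. -/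
theorem exists_subgroup_of_surjective_of_injective {B : Type u} {X : Type v} {Y : Type w}
    [CommGroup B] [CommGroup X] [Group Y] [Finite B] (f : B →* X) (hf : Surjective f)
    (i : Y →* X) (hi : Injective i) : ∃ C : Subgroup B, Nonempty (Y ≃* C) := by
  obtain ⟨g, hg⟩ := exists_injective_of_surjective f hf
  exact ⟨(g.comp i).range, ⟨MonoidHom.ofInjective (hg.comp hi)⟩⟩

end Cfsg.Agent.H487
end

-- part: S3954
section
set_option autoImplicit false
open Cfsg

namespace Cfsg.Agent.S3954

/-- Let `U` be a subgroup of index `m` in the finite group `G`, let `A` be the Schur multiplier of `G` and `B` that of `U`. Then the subgroup of `m`-th powers of `A` is isomorphic to a subgroup of `B`. -/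
theorem result {G : Type*} [Group G] [Finite G] (U : Subgroup G) {A B : Type*} [CommGroup A] [CommGroup B] (hA : Cfsg.HasSchurMultiplier G A) (hB : Cfsg.HasSchurMultiplier U B) : ∃ C : Subgroup B, Nonempty ((powMonoidHom U.index : A →* A).range ≃* C) := by
  have hBf := H487.finite_multiplier hB
  obtain ⟨⟨Γ, _, _, σ, hσ, ⟨e⟩⟩, -⟩ := hA
  have hpow := H487.exists_powers_embedding hσ.1 hσ.2.1 U
  obtain ⟨f, hf⟩ := H487.HasSchurMultiplier.exists_surj hB
    (σ.subgroupComap_surjective_of_surjective U hσ.1) (H487.central_subgroupComap hσ.2.1 U)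
  let _ : CommGroup (H487.Mult (σ.subgroupComap U)) :=
    H487.commGroupOfLeCenter (inf_le_left.trans (H487.central_subgroupComap hσ.2.1 U))
  -- the embedding of the `m`-th powers
  have hmem : ∀ a : (powMonoidHom U.index : A →* A).range,
      ∃ b : H487.Mult (σ.subgroupComap U), ((b : (U.comap σ : Subgroup Γ)) : Γ) = (e.symm (a : A) : Γ) := by
    rintro ⟨_, ⟨a, rfl⟩⟩
    have ha : ((e.symm a : σ.ker) : Γ) ∈ H487.Mult σ := ⟨(e.symm a).2, hσ.2.2 (e.symm a).2⟩
    obtain ⟨b, hb, hb2⟩ := hpow _ ha
    refine ⟨⟨b, hb⟩, ?_⟩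
    change (b : Γ) = ((e.symm (a ^ U.index) : σ.ker) : Γ)
    rw [hb2, map_pow]
    rfl
  choose g hg using hmem
  let i : (powMonoidHom U.index : A →* A).range →* H487.Mult (σ.subgroupComap U) :=
    { toFun := g
      map_one' := by
        apply Subtype.ext; apply Subtype.ext
        rw [hg]; simp
      map_mul' := by
        intro x y
        apply Subtype.ext; apply Subtype.ext
        rw [hg]
        have h1 : ((g x * g y : H487.Mult (σ.subgroupComap U)) : (U.comap σ : Subgroup Γ)) =
          (g x : (U.comap σ : Subgroup Γ)) * (g y : (U.comap σ : Subgroup Γ)) := rfl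
        rw [h1, Subgroup.coe_mul, Subgroup.coe_mul, map_mul, Subgroup.coe_mul, hg, hg] }
  have hi : Function.Injective i := by
    intro x y hxy
    have h1 : g x = g y := hxy
    have h2 : (e.symm (x : A) : Γ) = (e.symm (y : A) : Γ) := by rw [← hg, ← hg, h1]
    exact Subtype.ext (e.symm.injective (Subtype.ext h2))
  exact H487.exists_subgroup_of_surjective_of_injective f hf i hi

end Cfsg.Agent.S3954
end
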