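import Mathlib.LinearAlgebra.Matrix.GeneralLinearGroup.Basic
import Mathlib.Analysis.Complex.Polynomial.Basic
import Mathlib.FieldTheory.IsAlgClosed.Basic
import Cfsg.Statements.S3955
import Cfsg.Agent.H487.SchurCover
set_option linter.all false

-- part: H487/GLDiv
section
set_option autoImplicit false

namespace Cfsg.Agent.H487

open Matrix

/-- The centre of `GL n ℂ` is divisible. -/
theorem center_GL_divisible (n : ℕ) (k : ℕ) (hk : k ≠ 0) (z : GL (Fin n) ℂ)
    (hz : z ∈ Subgroup.center (GL (Fin n) ℂ)) :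
    ∃ w ∈ Subgroup.center (GL (Fin n) ℂ), w ^ k = z := by
  rw [Matrix.GeneralLinearGroup.center_eq_range_scalar] at hz ⊢
  obtain ⟨c, rfl⟩ := hz
  obtain ⟨d, hd⟩ := IsAlgClosed.exists_pow_nat_eq (c : ℂ) (Nat.pos_of_ne_zero hk)
  have hd0 : d ≠ 0 := by
    rintro rfl
    rw [zero_pow hk] at hd
    exact c.ne_zero hd.symm
  refine ⟨_, ⟨Units.mk0 d hd0, rfl⟩, ?_⟩
  rw [← map_pow]
  congr 1
  ext
  simpa using hd

end Cfsg.Agent.H487
end

-- part: S3955
section
set_option autoImplicit false
open Cfsg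

namespace Cfsg.Agent.S3955

/-- Let `Q` be a finite group with Schur multiplier `A`, and let `σ : Γ →* Q` be a finite stem extension whose kernel is isomorphic to `A` (a Schur covering group of `Q`). Then every homomorphism `γ` from `Q` to the quotient of `GL n ℂ` by its centre lifts along `σ`: there is a homomorphism `ρ : Γ →* GL n ℂ` which, followed by the quotient map, equals `γ ∘ σ`. -/
theorem result {Q : Type*} [Group Q] [Finite Q] {A : Type*} [CommGroup A] (hA : Cfsg.HasSchurMultiplier Q A) {Γ : Type*} [Group Γ] [Finite Γ] (σ : Γ →* Q) (hσ : Cfsg.IsStemExtension σ) (hk : Nonempty (σ.ker ≃* A)) (n : ℕ) (γ : Q →* (GL (Fin n) ℂ ⧸ Subgroup.center (GL (Fin n) ℂ))) : ∃ ρ : Γ →* GL (Fin n) ℂ, (QuotientGroup.mk' (Subgroup.center (GL (Fin n) ℂ))).comp ρ = γ.comp σ := by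
  have hcov := H487.isCover_of_hasSchurMultiplier hA hσ hk
  apply hcov.lift_divisible γ (QuotientGroup.mk'_surjective _)
  · rw [QuotientGroup.ker_mk']
  · rw [QuotientGroup.ker_mk']
    exact fun k hk z hz => H487.center_GL_divisible n k hk z hz

end Cfsg.Agent.S3955
end
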