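import Mathlib.LinearAlgebra.Matrix.ToLin
import Mathlib.LinearAlgebra.Matrix.GeneralLinearGroup.Basic
import Mathlib.LinearAlgebra.FiniteDimensional.Basic
import Mathlib.Analysis.Complex.Basic
import Mathlib.Algebra.Module.Submodule.Pointwise
import Cfsg.Statements.S3956
import Cfsg.Agent.H487.SchurCover
import Mathlib.GroupTheory.FiniteAbelian.Duality
import Mathlib.RingTheory.RootsOfUnity.AlgebraicallyClosed
import Mathlib.Analysis.Complex.Polynomial.Basic
set_option linter.all false

-- part: H487/IndRep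
section
/-!
# The representation induced from a character of a central subgroup
-/

set_option autoImplicit false

universe u v w

namespace Cfsg.Agent.H487

open Function

variable {Δ : Type u} [Group Δ] (M : Subgroup Δ) (lam : M →* ℂˣ)

/-- Functions on `Δ` transforming by `lam` under left translation by `M`. -/
def indSpace : Submodule ℂ (Δ → ℂ) where
  carrier := {f | ∀ (z : M) (x : Δ), f (z * x) = (lam z : ℂ) * f x}
  add_mem' := by
    intro a b ha hb z x
    simp only [Set.mem_ofPred_eq] at ha hb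
    rw [Pi.add_apply, Pi.add_apply, ha, hb]; ring
  zero_mem' := by intro z x; simp
  smul_mem' := by
    intro c f hf z x
    simp only [Set.mem_ofPred_eq] at hf
    rw [Pi.smul_apply, Pi.smul_apply, hf, smul_eq_mul, smul_eq_mul]; ring

/-- Right translation. -/
def indRep : Δ →* (indSpace M lam →ₗ[ℂ] indSpace M lam) where
  toFun g :=
    { toFun := fun f => ⟨fun x => f.1 (x * g), fun z x => by
        change f.1 (z * x * g) = (lam z : ℂ) * f.1 (x * g)
        rw [mul_assoc]; exact f.2 z (x * g)⟩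
      map_add' := fun a b => rfl
      map_smul' := fun c a => rfl }
  map_one' := by
    ext f x
    change f.1 (x * 1) = f.1 x
    rw [mul_one]
  map_mul' a b := by
    ext f x
    change f.1 (x * (a * b)) = f.1 (x * a * b)
    rw [mul_assoc]

theorem indRep_apply (g : Δ) (f : indSpace M lam) (x : Δ) :
    (indRep M lam g f).1 x = f.1 (x * g) := rfl

theorem indRep_central (hM : M ≤ Subgroup.center Δ) (z : M) :
    indRep M lam (z : Δ) = ((lam z : ℂ)) • LinearMap.id := by
  ext f x
  rw [indRep_apply, Subgroup.mem_center_iff.1 (hM z.2) x]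
  exact f.2 z x

/-- There is a nonzero element of `indSpace`. -/
theorem exists_ne_zero_indSpace : ∃ f : indSpace M lam, f ≠ 0 := by
  classical
  refine ⟨⟨fun x => if h : x ∈ M then (lam ⟨x, h⟩ : ℂ) else 0, ?_⟩, ?_⟩
  · intro z x
    by_cases hx : x ∈ M
    · have hzx : (z : Δ) * x ∈ M := M.mul_mem z.2 hx
      change (if h : (z : Δ) * x ∈ M then (lam ⟨z * x, h⟩ : ℂ) else 0) =
        (lam z : ℂ) * (if h : x ∈ M then (lam ⟨x, h⟩ : ℂ) else 0)
      rw [dif_pos hx, dif_pos hzx]
      have : (⟨z * x, hzx⟩ : M) = z * ⟨x, hx⟩ := rfl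
      rw [this, map_mul, Units.val_mul]
    · have hzx : (z : Δ) * x ∉ M := fun h => hx (by
        have := M.mul_mem (M.inv_mem z.2) h
        simpa using this)
      change (if h : (z : Δ) * x ∈ M then (lam ⟨z * x, h⟩ : ℂ) else 0) =
        (lam z : ℂ) * (if h : x ∈ M then (lam ⟨x, h⟩ : ℂ) else 0)
      rw [dif_neg hx, dif_neg hzx, mul_zero]
  · intro h
    have h1 := congrFun (congrArg Subtype.val h) 1
    change (if h : (1 : Δ) ∈ M then (lam ⟨1, h⟩ : ℂ) else 0) = 0 at h1
    rw [dif_pos M.one_mem] at h1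
    exact (lam _).ne_zero h1

/-- A matrix representation of `Δ` in which the central subgroup `M` acts by `lam`. -/
theorem exists_matrix_rep [Finite Δ] (hM : M ≤ Subgroup.center Δ) :
    ∃ (n : ℕ) (ρ : Δ →* Matrix.GeneralLinearGroup (Fin n) ℂ),
      (∀ z ∈ M, ρ z ∈ Subgroup.center (Matrix.GeneralLinearGroup (Fin n) ℂ)) ∧
      ∀ z : M, ρ z = 1 → lam z = 1 := by
  have : Module.Finite ℂ (indSpace M lam) := by
    have : Module.Finite ℂ (Δ → ℂ) := Module.Finite.pi
    infer_instance
  let b := Module.finBasis ℂ (indSpace M lam)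
  let n := Module.finrank ℂ (indSpace M lam)
  let e := LinearMap.toMatrixAlgEquiv b
  let ρ0 : Δ →* Matrix (Fin n) (Fin n) ℂ := (e : _ →* _).comp (indRep M lam)
  let ρ : Δ →* Matrix.GeneralLinearGroup (Fin n) ℂ := MonoidHom.toHomUnits ρ0
  have hρ : ∀ g, ((ρ g : Matrix.GeneralLinearGroup (Fin n) ℂ) : Matrix (Fin n) (Fin n) ℂ) =
      e (indRep M lam g) := fun g => rfl
  have hz : ∀ z : M, ((ρ z : Matrix.GeneralLinearGroup (Fin n) ℂ) : Matrix (Fin n) (Fin n) ℂ) =
      (lam z : ℂ) • (1 : Matrix (Fin n) (Fin n) ℂ) := by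
    intro z
    rw [hρ, indRep_central M lam hM, map_smul]
    congr 1
    exact map_one e
  refine ⟨n, ρ, ?_, ?_⟩
  · intro z hzM
    rw [Subgroup.mem_center_iff]
    intro g
    ext1
    rw [Units.val_mul, Units.val_mul, hz ⟨z, hzM⟩]
    simp
  · intro z h1
    have h2 := hz z
    rw [h1, Units.val_one] at h2
    obtain ⟨f, hf⟩ := exists_ne_zero_indSpace M lam
    have h3 : (LinearMap.id : indSpace M lam →ₗ[ℂ] indSpace M lam) =
        (lam z : ℂ) • LinearMap.id := by
      apply e.injective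
      rw [map_smul]
      have : e LinearMap.id = 1 := map_one e
      rw [this]; exact h2
    have h4 := LinearMap.congr_fun h3 f
    simp only [LinearMap.id_coe, id_eq, LinearMap.smul_apply] at h4
    have h5 : ((lam z : ℂ) - 1) • f = 0 := by
      have h6 := sub_smul (lam z : ℂ) 1 f
      rw [h6, ← h4, one_smul, sub_self]
    rcases smul_eq_zero.1 h5 with h | h
    · ext
      rw [Units.val_one]
      exact sub_eq_zero.1 h
    · exact absurd h hf

end Cfsg.Agent.H487
end

-- part: S3956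
section
set_option autoImplicit false
universe u v
open Cfsg

namespace Cfsg.Agent.S3956

/-- A stem extension along which all projective representations lift is a Schur cover. -/
theorem isCover {Q : Type u} [Group Q] [Finite Q] {Γ : Type v} [Group Γ] (σ : Γ →* Q)
    (hσ : Cfsg.IsStemExtension σ)
    (hlift : ∀ (n : ℕ) (γ : Q →* (GL (Fin n) ℂ ⧸ Subgroup.center (GL (Fin n) ℂ))),
      ∃ ρ : Γ →* GL (Fin n) ℂ,
        (QuotientGroup.mk' (Subgroup.center (GL (Fin n) ℂ))).comp ρ = γ.comp σ) :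
    H487.IsCover σ := by
  have hV := H487.isVersal_pr Q
  obtain ⟨β, hβ⟩ := hV.lift_id hσ.1 hσ.2.1
  obtain ⟨S, hSn, hS, -, hSinf, hker, hf, hstem, hne⟩ :=
    hV.exists_cover (H487.pr Q).ker le_rfl le_sup_left
  have hmap : (H487.Mult (H487.pr Q)).map β = H487.Mult σ :=
    H487.map_ker_inf_commutator hV.surj hσ.2.1 hβ
  rw [H487.mult_of_isStemExtension hσ] at hmap
  let g : H487.MM Q →* σ.ker := (β.comp (H487.Mult (H487.pr Q)).subtype).codRestrict σ.ker (by
    intro x
    rw [← hmap]
    exact ⟨x.1, x.2, rfl⟩)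
  have hg : Function.Surjective g := by
    rintro ⟨y, hy⟩
    have hy' := hy
    rw [← hmap] at hy'
    obtain ⟨x, hx, rfl⟩ := hy'
    exact ⟨⟨x, hx⟩, rfl⟩
  have hinj : Function.Injective g := by
    rw [injective_iff_map_eq_one]
    rintro ⟨x, hx⟩ hgx
    have hβx : β x = 1 := congrArg Subtype.val hgx
    by_contra hne1
    have hx1 : x ≠ 1 := fun h => hne1 (Subtype.ext h)
    have hyk : ((x : H487.EE Q ⧸ S)) ∈ (QuotientGroup.lift S (H487.pr Q) hS).ker := hx.1
    have hy1 : ((x : H487.EE Q ⧸ S)) ≠ 1 := by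
      intro h
      rw [QuotientGroup.eq_one_iff] at h
      have : x ∈ S ⊓ _root_.commutator (H487.EE Q) := ⟨h, hx.2⟩
      rw [hSinf] at this
      exact hx1 this
    let _ : CommGroup (QuotientGroup.lift S (H487.pr Q) hS).ker :=
      H487.commGroupOfLeCenter hstem.2.1
    let y : (QuotientGroup.lift S (H487.pr Q) hS).ker := ⟨_, hyk⟩
    have hyne : y ≠ 1 := fun h => hy1 (congrArg Subtype.val h)
    have : NeZero (Monoid.exponent (QuotientGroup.lift S (H487.pr Q) hS).ker) :=
      ⟨Monoid.exponent_ne_zero_of_finite⟩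
    have : NeZero ((Monoid.exponent (QuotientGroup.lift S (H487.pr Q) hS).ker : ℕ) : ℂ) :=
      ⟨by exact_mod_cast NeZero.ne (Monoid.exponent (QuotientGroup.lift S (H487.pr Q) hS).ker)⟩
    obtain ⟨χ, hχ⟩ := CommGroup.exists_apply_ne_one_of_hasEnoughRootsOfUnity
      (QuotientGroup.lift S (H487.pr Q) hS).ker ℂ hyne
    obtain ⟨n, ρ₀, hρ1, hρ2⟩ := H487.exists_matrix_rep
      (QuotientGroup.lift S (H487.pr Q) hS).ker χ hstem.2.1
    have hle : (QuotientGroup.lift S (H487.pr Q) hS).ker ≤
        ((QuotientGroup.mk' (Subgroup.center (GL (Fin n) ℂ))).comp ρ₀).ker := by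
      intro z hz
      exact (QuotientGroup.eq_one_iff _).2 (hρ1 z hz)
    let e := QuotientGroup.quotientKerEquivOfSurjective _ hstem.1
    let γ : Q →* (GL (Fin n) ℂ ⧸ Subgroup.center (GL (Fin n) ℂ)) :=
      (QuotientGroup.lift _ ((QuotientGroup.mk' (Subgroup.center (GL (Fin n) ℂ))).comp ρ₀)
        hle).comp e.symm.toMonoidHom
    have hγ : ∀ w : H487.EE Q ⧸ S, γ (QuotientGroup.lift S (H487.pr Q) hS w) =
        QuotientGroup.mk' (Subgroup.center (GL (Fin n) ℂ)) (ρ₀ w) := by
      intro w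
      have he : e.symm (QuotientGroup.lift S (H487.pr Q) hS w) =
          ((w : H487.EE Q ⧸ S) :
            (H487.EE Q ⧸ S) ⧸ (QuotientGroup.lift S (H487.pr Q) hS).ker) := by
        rw [MulEquiv.symm_apply_eq]; rfl
      change QuotientGroup.lift _ _ hle (e.symm (QuotientGroup.lift S (H487.pr Q) hS w)) = _
      rw [he]; rfl
    obtain ⟨ρ, hρ⟩ := hlift n γ
    have hρ' : ∀ w, QuotientGroup.mk' (Subgroup.center (GL (Fin n) ℂ)) (ρ w) = γ (σ w) :=
      fun w => DFunLike.congr_fun hρ w
    have hβ' : ∀ w, σ (β w) = H487.pr Q w := fun w => DFunLike.congr_fun hβ w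
    have hagree := H487.eqOn_commutator_of_central
      (τ := QuotientGroup.mk' (Subgroup.center (GL (Fin n) ℂ)))
      (by rw [QuotientGroup.ker_mk']) (φ := ρ.comp β) (ψ := ρ₀.comp (QuotientGroup.mk' S)) (by
        apply MonoidHom.ext
        intro w
        change QuotientGroup.mk' (Subgroup.center (GL (Fin n) ℂ)) (ρ (β w)) =
          QuotientGroup.mk' (Subgroup.center (GL (Fin n) ℂ)) (ρ₀ (w : H487.EE Q ⧸ S))
        rw [hρ', hβ', ← hγ]
        rfl)
    have h1 := hagree x hx.2
    have h2 : ρ₀ (y : H487.EE Q ⧸ S) = 1 := by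
      have : ρ₀ (y : H487.EE Q ⧸ S) = ρ (β x) := h1.symm
      rw [this, hβx, map_one]
    exact hχ (hρ2 y h2)
  exact ⟨hσ, ⟨MulEquiv.ofBijective g ⟨hinj, hg⟩⟩⟩

/-- Let `σ : Γ →* Q` be a finite stem extension of the finite group `Q` such that every homomorphism from `Q` to the quotient of `GL n ℂ` by its centre, for every `n`, lifts along `σ` to a homomorphism `Γ →* GL n ℂ`. Then `σ` is a Schur covering group of `Q`: for every finite stem extension `τ : Δ →* Q` with `Δ` in the same universe as `Q`, the kernel of `τ` is a homomorphic image of the kernel of `σ`. -/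
theorem result {Q : Type u} [Group Q] [Finite Q] {Γ : Type v} [Group Γ] [Finite Γ] (σ : Γ →* Q) (hσ : Cfsg.IsStemExtension σ) (hlift : ∀ (n : ℕ) (γ : Q →* (GL (Fin n) ℂ ⧸ Subgroup.center (GL (Fin n) ℂ))), ∃ ρ : Γ →* GL (Fin n) ℂ, (QuotientGroup.mk' (Subgroup.center (GL (Fin n) ℂ))).comp ρ = γ.comp σ) (Δ : Type u) [Group Δ] [Finite Δ] (τ : Δ →* Q) (hτ : Cfsg.IsStemExtension τ) : ∃ π : σ.ker →* τ.ker, Function.Surjective π := by
  obtain ⟨e⟩ := (isCover σ hσ hlift).iso
  obtain ⟨f, hf⟩ := (H487.isVersal_pr Q).exists_surj_ker hτ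
  exact ⟨f.comp e.symm.toMonoidHom, hf.comp e.symm.surjective⟩

end Cfsg.Agent.S3956
end
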