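import Cfsg.Agent.H487.SchurMult
import Cfsg.Agent.H487.GenComm
import Mathlib.Algebra.Group.MinimalAxioms
import Mathlib.LinearAlgebra.TensorProduct.Basic
import Cfsg.Statements.S3959
set_option linter.all false

-- part: H487/TwProd
section
/-!
# Twisted products `X × Y × T` by a bimultiplicative map `X → Y → T`, as central extensions
-/

set_option autoImplicit false

universe u v w u' v'

namespace Cfsg.Agent.H487

open Function
open scoped commutatorElement

/-- The twisted product. -/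
@[ext] structure TwProd {X : Type u} {Y : Type v} {T : Type w} [Group X] [Group Y] [CommGroup T]
    (β : X →* Y →* T) : Type (max u v w) where
  fst : X
  snd : Y
  thd : T

namespace TwProd

variable {X : Type u} {Y : Type v} {T : Type w} [Group X] [Group Y] [CommGroup T]
  {β : X →* Y →* T}

instance instMulTwProd : Mul (TwProd β) :=
  ⟨fun g h => ⟨g.fst * h.fst, g.snd * h.snd, g.thd * h.thd * β h.fst g.snd⟩⟩

instance instOneTwProd : One (TwProd β) := ⟨⟨1, 1, 1⟩⟩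

instance instInvTwProd : Inv (TwProd β) := ⟨fun g => ⟨g.fst⁻¹, g.snd⁻¹, g.thd⁻¹ * β g.fst g.snd⟩⟩

theorem mul_def (g h : TwProd β) :
    g * h = ⟨g.fst * h.fst, g.snd * h.snd, g.thd * h.thd * β h.fst g.snd⟩ := rfl

theorem one_def : (1 : TwProd β) = ⟨1, 1, 1⟩ := rfl

theorem inv_def (g : TwProd β) : g⁻¹ = ⟨g.fst⁻¹, g.snd⁻¹, g.thd⁻¹ * β g.fst g.snd⟩ := rfl

@[simp] theorem mul_fst (g h : TwProd β) : (g * h).fst = g.fst * h.fst := rfl
@[simp] theorem mul_snd (g h : TwProd β) : (g * h).snd = g.snd * h.snd := rfl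
@[simp] theorem mul_thd (g h : TwProd β) : (g * h).thd = g.thd * h.thd * β h.fst g.snd := rfl
@[simp] theorem one_fst : (1 : TwProd β).fst = 1 := rfl
@[simp] theorem one_snd : (1 : TwProd β).snd = 1 := rfl
@[simp] theorem one_thd : (1 : TwProd β).thd = 1 := rfl

instance instGroupTwProd : Group (TwProd β) :=
  Group.ofLeftAxioms
    (by
      intro a b c
      ext
      · simp [mul_assoc]
      · simp [mul_assoc]
      · simp only [mul_thd, mul_fst, mul_snd, map_mul, MonoidHom.mul_apply]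
        simp only [mul_assoc, mul_comm, mul_left_comm])
    (by intro a; ext <;> simp)
    (by
      intro a
      ext
      · simp [inv_def]
      · simp [inv_def]
      · simp [inv_def])

/-- The projection. -/
def proj : TwProd β →* X × Y where
  toFun g := (g.fst, g.snd)
  map_one' := rfl
  map_mul' _ _ := rfl

/-- The first inclusion. -/
def inl : X →* TwProd β where
  toFun x := ⟨x, 1, 1⟩
  map_one' := rfl
  map_mul' a b := by ext <;> simp

/-- The second inclusion. -/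
def inr : Y →* TwProd β where
  toFun y := ⟨1, y, 1⟩
  map_one' := rfl
  map_mul' a b := by ext <;> simp

/-- The inclusion of the kernel. -/
def inT : T →* TwProd β where
  toFun t := ⟨1, 1, t⟩
  map_one' := rfl
  map_mul' a b := by ext <;> simp

@[simp] theorem inl_fst (x : X) : (inl x : TwProd β).fst = x := rfl
@[simp] theorem inl_snd (x : X) : (inl x : TwProd β).snd = 1 := rfl
@[simp] theorem inl_thd (x : X) : (inl x : TwProd β).thd = 1 := rfl
@[simp] theorem inr_fst (x : Y) : (inr x : TwProd β).fst = 1 := rfl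
@[simp] theorem inr_snd (x : Y) : (inr x : TwProd β).snd = x := rfl
@[simp] theorem inr_thd (x : Y) : (inr x : TwProd β).thd = 1 := rfl
@[simp] theorem inT_fst (x : T) : (inT x : TwProd β).fst = 1 := rfl
@[simp] theorem inT_snd (x : T) : (inT x : TwProd β).snd = 1 := rfl
@[simp] theorem inT_thd (x : T) : (inT x : TwProd β).thd = x := rfl

theorem eq_prod (g : TwProd β) : g = inl g.fst * inr g.snd * inT g.thd := by
  ext <;> simp

theorem inT_beta_mem (x : X) (y : Y) : (inT (β x y) : TwProd β) ∈ _root_.commutator (TwProd β) := by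
  have h : (inT (β x y) : TwProd β) = ⁅(inr y : TwProd β)⁻¹, (inl x : TwProd β)⁻¹⁆ := by
    rw [commutatorElement_def, inv_inv, inv_inv]
    have : (inr y : TwProd β) * inl x = inl x * inr y * (inT (β x y) : TwProd β) := by ext <;> simp
    have h2 : (inr y : TwProd β)⁻¹ * (inl x)⁻¹ * inr y * inl x =
      (inl x * inr y)⁻¹ * (inr y * inl x) := by group
    rw [h2, this]; group
  rw [h, _root_.commutator_def]
  exact Subgroup.commutator_mem_commutator (Subgroup.mem_top _) (Subgroup.mem_top _)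

end TwProd

end Cfsg.Agent.H487
end

-- part: H487/SchurProd
section
/-!
# The Schur multiplier of a direct product
-/

set_option autoImplicit false

universe u v w u' v'

namespace Cfsg.Agent.H487

open Function
open scoped commutatorElement TensorProduct

section Lower

variable {Q₁ : Type u} {Q₂ : Type v} [Group Q₁] [Group Q₂]

/-- The tensor product of the abelianizations, written multiplicatively. -/
abbrev TT (Q₁ : Type u) (Q₂ : Type v) [Group Q₁] [Group Q₂] : Type (max u v) :=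
  Multiplicative (TensorProduct ℤ (Additive (Abelianization Q₁)) (Additive (Abelianization Q₂)))

/-- The pairing `Q₁ → Q₂ → Q₁ᵃᵇ ⊗ Q₂ᵃᵇ`. -/
def pairT (Q₁ : Type u) (Q₂ : Type v) [Group Q₁] [Group Q₂] : Q₁ →* Q₂ →* TT Q₁ Q₂ where
  toFun x :=
    { toFun := fun y => Multiplicative.ofAdd
        ((Additive.ofMul (Abelianization.of x)) ⊗ₜ[ℤ] (Additive.ofMul (Abelianization.of y)))
      map_one' := by
        rw [map_one]
        exact congrArg Multiplicative.ofAdd (TensorProduct.tmul_zero _ _)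
      map_mul' := by
        intro y y'
        rw [map_mul]
        exact congrArg Multiplicative.ofAdd (TensorProduct.tmul_add _ _ _) }
  map_one' := by
    refine MonoidHom.ext fun y => ?_
    change Multiplicative.ofAdd ((Additive.ofMul (Abelianization.of (1 : Q₁))) ⊗ₜ[ℤ]
      (Additive.ofMul (Abelianization.of y))) = 1
    rw [map_one]
    exact congrArg Multiplicative.ofAdd (TensorProduct.zero_tmul _ _)
  map_mul' := by
    intro x x'
    refine MonoidHom.ext fun y => ?_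
    change Multiplicative.ofAdd ((Additive.ofMul (Abelianization.of (x * x'))) ⊗ₜ[ℤ]
      (Additive.ofMul (Abelianization.of y))) = Multiplicative.ofAdd _ * Multiplicative.ofAdd _
    rw [map_mul]
    exact congrArg Multiplicative.ofAdd (TensorProduct.add_tmul _ _ _)

theorem pairT_apply (x : Q₁) (y : Q₂) : pairT Q₁ Q₂ x y = Multiplicative.ofAdd
    ((Additive.ofMul (Abelianization.of x)) ⊗ₜ[ℤ] (Additive.ofMul (Abelianization.of y))) := rfl

theorem closure_pairT : Subgroup.closure {t : TT Q₁ Q₂ | ∃ x y, pairT Q₁ Q₂ x y = t} = ⊤ := by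
  rw [eq_top_iff]
  intro t _
  have h : ∀ s : TensorProduct ℤ (Additive (Abelianization Q₁)) (Additive (Abelianization Q₂)),
      Multiplicative.ofAdd s ∈ Subgroup.closure {t : TT Q₁ Q₂ | ∃ x y, pairT Q₁ Q₂ x y = t} := by
    intro s
    induction s using TensorProduct.induction_on with
    | zero => exact Subgroup.one_mem _
    | tmul a b =>
      apply Subgroup.subset_closure
      obtain ⟨x, hx⟩ := QuotientGroup.mk'_surjective (_root_.commutator Q₁) (Additive.toMul a)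
      obtain ⟨y, hy⟩ := QuotientGroup.mk'_surjective (_root_.commutator Q₂) (Additive.toMul b)
      refine ⟨x, y, ?_⟩
      rw [pairT_apply]
      have h1 : (Additive.ofMul (Abelianization.of x)) = a := congrArg Additive.ofMul hx
      have h2 : (Additive.ofMul (Abelianization.of y)) = b := congrArg Additive.ofMul hy
      rw [h1, h2]
    | add a b ha hb => exact Subgroup.mul_mem _ ha hb
  exact h (Multiplicative.toAdd t)

variable {Γ₁ : Type u} {Γ₂ : Type v} [Group Γ₁] [Group Γ₂] (σ₁ : Γ₁ →* Q₁) (σ₂ : Γ₂ →* Q₂)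

/-- The pulled back pairing. -/
def pairG : Γ₁ →* Γ₂ →* TT Q₁ Q₂ where
  toFun x := (pairT Q₁ Q₂ (σ₁ x)).comp σ₂
  map_one' := by ext y; simp
  map_mul' a b := by ext y; simp

theorem pairG_apply (x : Γ₁) (y : Γ₂) : pairG σ₁ σ₂ x y = pairT Q₁ Q₂ (σ₁ x) (σ₂ y) := rfl

/-- The product extension. -/
def prodExt : TwProd (pairG σ₁ σ₂) →* Q₁ × Q₂ := (MonoidHom.prodMap σ₁ σ₂).comp TwProd.proj

theorem prodExt_apply (g : TwProd (pairG σ₁ σ₂)) : prodExt σ₁ σ₂ g = (σ₁ g.fst, σ₂ g.snd) := rfl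

theorem isStemExtension_prodExt (h₁ : Cfsg.IsStemExtension σ₁) (h₂ : Cfsg.IsStemExtension σ₂) :
    Cfsg.IsStemExtension (prodExt σ₁ σ₂) := by
  refine ⟨?_, ?_, ?_⟩
  · rintro ⟨a, b⟩
    obtain ⟨x, rfl⟩ := h₁.1 a
    obtain ⟨y, rfl⟩ := h₂.1 b
    exact ⟨⟨x, y, 1⟩, rfl⟩
  · intro g hg
    have hg' : prodExt σ₁ σ₂ g = 1 := hg
    rw [prodExt_apply, Prod.mk_eq_one] at hg'
    obtain ⟨hg1, hg2⟩ := hg'
    rw [Subgroup.mem_center_iff]
    intro k
    ext
    · exact Subgroup.mem_center_iff.1 (h₁.2.1 hg1) k.fst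
    · exact Subgroup.mem_center_iff.1 (h₂.2.1 hg2) k.snd
    · simp only [TwProd.mul_thd, pairG_apply, hg1, hg2, map_one, MonoidHom.one_apply, mul_one]
      exact mul_comm k.thd g.thd
  · intro g hg
    have hg' : prodExt σ₁ σ₂ g = 1 := hg
    rw [prodExt_apply, Prod.mk_eq_one] at hg'
    obtain ⟨hg1, hg2⟩ := hg'
    rw [TwProd.eq_prod g]
    have hmap : ∀ {X : Type _} [Group X] (f : X →* TwProd (pairG σ₁ σ₂)) (x : X),
        x ∈ _root_.commutator X → f x ∈ _root_.commutator (TwProd (pairG σ₁ σ₂)) := by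
      intro X _ f x hx
      have h1 : (_root_.commutator X).map f ≤ _root_.commutator (TwProd (pairG σ₁ σ₂)) := by
        rw [_root_.commutator_def, _root_.commutator_def, Subgroup.map_commutator]
        exact Subgroup.commutator_mono le_top le_top
      exact h1 ⟨x, hx, rfl⟩
    have hmap' : ∀ {X : Type _} [Group X] (f : X →* TwProd (pairG σ₁ σ₂)) (x : X),
        x ∈ _root_.commutator X → f x ∈ _root_.commutator (TwProd (pairG σ₁ σ₂)) := by
      intro X _ f x hx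
      have h1 : (_root_.commutator X).map f ≤ _root_.commutator (TwProd (pairG σ₁ σ₂)) := by
        rw [_root_.commutator_def, _root_.commutator_def, Subgroup.map_commutator]
        exact Subgroup.commutator_mono le_top le_top
      exact h1 ⟨x, hx, rfl⟩
    refine Subgroup.mul_mem _ (Subgroup.mul_mem _ ?_ ?_) ?_
    · exact hmap TwProd.inl _ (h₁.2.2 hg1)
    · exact hmap' TwProd.inr _ (h₂.2.2 hg2)
    · have h1 : (⊤ : Subgroup (TT Q₁ Q₂)) ≤
          (_root_.commutator (TwProd (pairG σ₁ σ₂))).comap TwProd.inT := by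
        rw [← closure_pairT, Subgroup.closure_le]
        rintro _ ⟨x, y, rfl⟩
        obtain ⟨x, rfl⟩ := h₁.1 x
        obtain ⟨y, rfl⟩ := h₂.1 y
        exact TwProd.inT_beta_mem (β := pairG σ₁ σ₂) x y
      exact h1 (Subgroup.mem_top _)

/-- The kernel of the product extension. -/
theorem nonempty_ker_prodExt {A : Type w} {B : Type u'} [Group A] [Group B]
    (e₁ : σ₁.ker ≃* A) (e₂ : σ₂.ker ≃* B) :
    Nonempty ((prodExt σ₁ σ₂).ker ≃* A × B × TT Q₁ Q₂) := by
  have hfst : ∀ g : (prodExt σ₁ σ₂).ker, σ₁ g.1.fst = 1 := fun g => (Prod.mk_eq_one.1 g.2).1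
  have hsnd : ∀ g : (prodExt σ₁ σ₂).ker, σ₂ g.1.snd = 1 := fun g => (Prod.mk_eq_one.1 g.2).2
  let f : (prodExt σ₁ σ₂).ker →* A × B × TT Q₁ Q₂ :=
    { toFun := fun g => (e₁ ⟨g.1.fst, hfst g⟩, e₂ ⟨g.1.snd, hsnd g⟩, g.1.thd)
      map_one' := by
        refine Prod.ext ?_ (Prod.ext ?_ rfl)
        · exact map_one e₁
        · exact map_one e₂
      map_mul' := by
        intro g h
        refine Prod.ext ?_ (Prod.ext ?_ ?_)
        · exact map_mul e₁ ⟨g.1.fst, hfst g⟩ ⟨h.1.fst, hfst h⟩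
        · exact map_mul e₂ ⟨g.1.snd, hsnd g⟩ ⟨h.1.snd, hsnd h⟩
        · change (g.1 * h.1).thd = g.1.thd * h.1.thd
          rw [TwProd.mul_thd, pairG_apply, hfst h, map_one, MonoidHom.one_apply, mul_one] }
  refine ⟨MulEquiv.ofBijective f ⟨?_, ?_⟩⟩
  · intro g h hgh
    have h1 := congrArg Prod.fst hgh
    have h2 := congrArg (fun p => p.2.1) hgh
    have h3 := congrArg (fun p => p.2.2) hgh
    apply Subtype.ext
    ext
    · exact congrArg Subtype.val (e₁.injective h1)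
    · exact congrArg Subtype.val (e₂.injective h2)
    · exact h3
  · rintro ⟨a, b, t⟩
    refine ⟨⟨⟨e₁.symm a, e₂.symm b, t⟩, ?_⟩, ?_⟩
    · rw [MonoidHom.mem_ker, prodExt_apply, Prod.mk_eq_one]
      exact ⟨(e₁.symm a).2, (e₂.symm b).2⟩
    · refine Prod.ext ?_ (Prod.ext ?_ rfl)
      · exact e₁.apply_symm_apply a
      · exact e₂.apply_symm_apply b

end Lower

end Cfsg.Agent.H487
end

-- part: H487/SchurProdUpper
section
/-!
# The Schur multiplier of a direct product: upper bound and the theorem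
-/

set_option autoImplicit false

universe u v w u' v'

namespace Cfsg.Agent.H487

open Function
open scoped commutatorElement TensorProduct

section Upper

variable {Q₁ : Type u} {Q₂ : Type v} [Group Q₁] [Group Q₂] {Δ : Type w} [Group Δ]
  (τ : Δ →* Q₁ × Q₂)

/-- Preimage of the first factor. -/
def DD1 : Subgroup Δ := ((MonoidHom.snd Q₁ Q₂).comp τ).ker

/-- Preimage of the second factor. -/
def DD2 : Subgroup Δ := ((MonoidHom.fst Q₁ Q₂).comp τ).ker

theorem mem_DD1 {x : Δ} : x ∈ DD1 τ ↔ (τ x).2 = 1 := Iff.rfl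

theorem mem_DD2 {x : Δ} : x ∈ DD2 τ ↔ (τ x).1 = 1 := Iff.rfl

instance normal_DD1 : (DD1 τ).Normal := MonoidHom.normal_ker _

instance normal_DD2 : (DD2 τ).Normal := MonoidHom.normal_ker _

/-- The restriction to the preimage of the first factor. -/
def res1 : DD1 τ →* Q₁ := ((MonoidHom.fst Q₁ Q₂).comp τ).comp (DD1 τ).subtype

/-- The restriction to the preimage of the second factor. -/
def res2 : DD2 τ →* Q₂ := ((MonoidHom.snd Q₁ Q₂).comp τ).comp (DD2 τ).subtype

theorem res1_apply (x : DD1 τ) : res1 τ x = (τ x).1 := rfl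

theorem res2_apply (x : DD2 τ) : res2 τ x = (τ x).2 := rfl

variable {τ}

theorem res1_surjective (hs : Surjective τ) : Surjective (res1 τ) := by
  intro q
  obtain ⟨x, hx⟩ := hs (q, 1)
  exact ⟨⟨x, by rw [mem_DD1, hx]⟩, by rw [res1_apply, hx]⟩

theorem res2_surjective (hs : Surjective τ) : Surjective (res2 τ) := by
  intro q
  obtain ⟨x, hx⟩ := hs (1, q)
  exact ⟨⟨x, by rw [mem_DD2, hx]⟩, by rw [res2_apply, hx]⟩

theorem res1_ker (x : DD1 τ) : x ∈ (res1 τ).ker ↔ (x : Δ) ∈ τ.ker := by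
  rw [MonoidHom.mem_ker, MonoidHom.mem_ker, res1_apply]
  constructor
  · intro h; exact Prod.ext h x.2
  · intro h; rw [h]; rfl

theorem res2_ker (x : DD2 τ) : x ∈ (res2 τ).ker ↔ (x : Δ) ∈ τ.ker := by
  rw [MonoidHom.mem_ker, MonoidHom.mem_ker, res2_apply]
  constructor
  · intro h; exact Prod.ext x.2 h
  · intro h; rw [h]; rfl

theorem res1_central (hc : τ.ker ≤ Subgroup.center Δ) :
    (res1 τ).ker ≤ Subgroup.center (DD1 τ) := by
  intro x hx
  rw [res1_ker] at hx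
  rw [Subgroup.mem_center_iff]
  intro y
  exact Subtype.ext (Subgroup.mem_center_iff.1 (hc hx) y)

theorem res2_central (hc : τ.ker ≤ Subgroup.center Δ) :
    (res2 τ).ker ≤ Subgroup.center (DD2 τ) := by
  intro x hx
  rw [res2_ker] at hx
  rw [Subgroup.mem_center_iff]
  intro y
  exact Subtype.ext (Subgroup.mem_center_iff.1 (hc hx) y)

theorem comm_mem_ker {x y : Δ} (hx : x ∈ DD1 τ) (hy : y ∈ DD2 τ) : ⁅x, y⁆ ∈ τ.ker := by
  rw [MonoidHom.mem_ker, map_commutatorElement, commutatorElement_eq_one_iff_mul_comm]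
  rw [mem_DD1] at hx
  rw [mem_DD2] at hy
  refine Prod.ext ?_ ?_
  · change (τ x).1 * (τ y).1 = (τ y).1 * (τ x).1
    rw [hy, mul_one, one_mul]
  · change (τ x).2 * (τ y).2 = (τ y).2 * (τ x).2
    rw [hx, mul_one, one_mul]

/-- The commutator pairing into the central kernel. -/
theorem exists_comm_pairing (hs : Surjective τ) (hc : τ.ker ≤ Subgroup.center Δ) :
    ∃ f : TT Q₁ Q₂ →* τ.ker, ∀ x ∈ DD1 τ, ∀ y ∈ DD2 τ,
      ((f (pairT Q₁ Q₂ (τ x).1 (τ y).2) : τ.ker) : Δ) = ⁅x, y⁆ := by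
  let _ : CommGroup τ.ker := commGroupOfLeCenter hc
  -- bimultiplicativity of the commutator
  have hcen : ∀ x ∈ DD1 τ, ∀ y ∈ DD2 τ, ∀ g : Δ, g * ⁅x, y⁆ = ⁅x, y⁆ * g :=
    fun x hx y hy g => Subgroup.mem_center_iff.1 (hc (comm_mem_ker hx hy)) g
  have hmul1 : ∀ x ∈ DD1 τ, ∀ x' ∈ DD1 τ, ∀ y ∈ DD2 τ, ⁅x * x', y⁆ = ⁅x, y⁆ * ⁅x', y⁆ := by
    intro x hx x' hx' y hy
    have h1 : ⁅x * x', y⁆ = (x * ⁅x', y⁆ * x⁻¹) * ⁅x, y⁆ := by
      simp only [commutatorElement_def]; group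
    rw [h1, hcen x' hx' y hy x, hcen x hx y hy ⁅x', y⁆ |>.symm]
    group
  have hmul2 : ∀ x ∈ DD1 τ, ∀ y ∈ DD2 τ, ∀ y' ∈ DD2 τ, ⁅x, y * y'⁆ = ⁅x, y⁆ * ⁅x, y'⁆ := by
    intro x hx y hy y' hy'
    have h1 : ⁅x, y * y'⁆ = ⁅x, y⁆ * (y * ⁅x, y'⁆ * y⁻¹) := by
      simp only [commutatorElement_def]; group
    rw [h1, hcen x hx y' hy' y]
    group
  have hker1 : ∀ x ∈ τ.ker, ∀ y : Δ, ⁅x, y⁆ = 1 := by
    intro x hx y
    rw [commutatorElement_eq_one_iff_mul_comm]
    exact (Subgroup.mem_center_iff.1 (hc hx) y).symm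
  have hker2 : ∀ x : Δ, ∀ y ∈ τ.ker, ⁅x, y⁆ = 1 := by
    intro x y hy
    rw [commutatorElement_eq_one_iff_mul_comm]
    exact (Subgroup.mem_center_iff.1 (hc hy) x)
  -- sections
  let s1 : Q₁ → DD1 τ := fun q => (res1_surjective hs q).choose
  have hs1 : ∀ q, res1 τ (s1 q) = q := fun q => (res1_surjective hs q).choose_spec
  let s2 : Q₂ → DD2 τ := fun q => (res2_surjective hs q).choose
  have hs2 : ∀ q, res2 τ (s2 q) = q := fun q => (res2_surjective hs q).choose_spec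
  have hind : ∀ (x x' : DD1 τ) (y y' : DD2 τ), res1 τ x = res1 τ x' → res2 τ y = res2 τ y' →
      ⁅(x : Δ), (y : Δ)⁆ = ⁅(x' : Δ), (y' : Δ)⁆ := by
    intro x x' y y' hx hy
    have h1 : ((x'⁻¹ * x : DD1 τ) : Δ) ∈ τ.ker := by
      rw [← res1_ker, MonoidHom.mem_ker, map_mul, map_inv, hx]; group
    have h2 : ((y'⁻¹ * y : DD2 τ) : Δ) ∈ τ.ker := by
      rw [← res2_ker, MonoidHom.mem_ker, map_mul, map_inv, hy]; group
    have e1 : (x : Δ) = (x' : Δ) * ((x'⁻¹ * x : DD1 τ) : Δ) := by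
      push_cast; group
    have e2 : (y : Δ) = (y' : Δ) * ((y'⁻¹ * y : DD2 τ) : Δ) := by
      push_cast; group
    calc ⁅(x : Δ), (y : Δ)⁆ = ⁅(x' : Δ) * ((x'⁻¹ * x : DD1 τ) : Δ), (y : Δ)⁆ := by rw [← e1]
      _ = ⁅(x' : Δ), (y : Δ)⁆ * ⁅((x'⁻¹ * x : DD1 τ) : Δ), (y : Δ)⁆ :=
          hmul1 _ x'.2 _ (x'⁻¹ * x : DD1 τ).2 _ y.2
      _ = ⁅(x' : Δ), (y : Δ)⁆ := by rw [hker1 _ h1, mul_one]
      _ = ⁅(x' : Δ), (y' : Δ) * ((y'⁻¹ * y : DD2 τ) : Δ)⁆ := by rw [← e2]
      _ = ⁅(x' : Δ), (y' : Δ)⁆ * ⁅(x' : Δ), ((y'⁻¹ * y : DD2 τ) : Δ)⁆ :=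
          hmul2 _ x'.2 _ y'.2 _ (y'⁻¹ * y : DD2 τ).2
      _ = ⁅(x' : Δ), (y' : Δ)⁆ := by rw [hker2 _ _ h2, mul_one]
  let P : Q₁ →* (Q₂ →* τ.ker) := MonoidHom.mk'
    (fun q₁ => MonoidHom.mk' (fun q₂ => (⟨⁅(s1 q₁ : Δ), (s2 q₂ : Δ)⁆,
        comm_mem_ker (s1 q₁).2 (s2 q₂).2⟩ : τ.ker)) (by
      intro a b
      apply Subtype.ext
      change ⁅(s1 q₁ : Δ), (s2 (a * b) : Δ)⁆ = ⁅(s1 q₁ : Δ), (s2 a : Δ)⁆ * ⁅(s1 q₁ : Δ), (s2 b : Δ)⁆
      rw [← hmul2 _ (s1 q₁).2 _ (s2 a).2 _ (s2 b).2]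
      exact hind (s1 q₁) (s1 q₁) (s2 (a * b)) (s2 a * s2 b) rfl (by rw [map_mul, hs2, hs2, hs2]))) (by
    intro a b
    refine MonoidHom.ext fun q => ?_
    apply Subtype.ext
    change ⁅(s1 (a * b) : Δ), (s2 q : Δ)⁆ = ⁅(s1 a : Δ), (s2 q : Δ)⁆ * ⁅(s1 b : Δ), (s2 q : Δ)⁆
    rw [← hmul1 _ (s1 a).2 _ (s1 b).2 _ (s2 q).2]
    exact hind (s1 (a * b)) (s1 a * s1 b) (s2 q) (s2 q) (by rw [map_mul, hs1, hs1, hs1]) rfl)
  have hP : ∀ q₁ q₂, ((P q₁ q₂ : τ.ker) : Δ) = ⁅(s1 q₁ : Δ), (s2 q₂ : Δ)⁆ := fun _ _ => rfl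
  -- to the abelianizations
  let P1 : Q₁ →* (Abelianization Q₂ →* τ.ker) := MonoidHom.mk' (fun q₁ => Abelianization.lift (P q₁)) (by
    intro a b
    apply Abelianization.hom_ext
    refine MonoidHom.ext fun q => ?_
    simp)
  let P2 : Abelianization Q₁ →* (Abelianization Q₂ →* τ.ker) := Abelianization.lift P1
  have hP2 : ∀ q₁ q₂, P2 (Abelianization.of q₁) (Abelianization.of q₂) = P q₁ q₂ := by
    intro q₁ q₂
    simp [P2, P1]
  let L : Additive (Abelianization Q₁) →+ Additive (Abelianization Q₂) →+ Additive τ.ker :=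
    AddMonoidHom.mk' (fun a => MonoidHom.toAdditive (P2 (Additive.toMul a))) (by
      intro a b
      refine AddMonoidHom.ext fun c => ?_
      change Additive.ofMul (P2 (Additive.toMul a * Additive.toMul b) (Additive.toMul c)) = _
      rw [map_mul]
      rfl)
  have hL : ∀ a c, L a c = Additive.ofMul (P2 (Additive.toMul a) (Additive.toMul c)) :=
    fun _ _ => rfl
  let F := TensorProduct.liftAddHom (R := ℤ) L (by
    intro r m n
    rw [map_zsmul, map_zsmul]
    rfl)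
  have hF : ∀ a c, F (a ⊗ₜ[ℤ] c) = L a c := fun a c => TensorProduct.liftAddHom_tmul _ _ _ _
  refine ⟨AddMonoidHom.toMultiplicativeLeft F, ?_⟩
  intro x hx y hy
  have h1 : (AddMonoidHom.toMultiplicativeLeft F) (pairT Q₁ Q₂ (τ x).1 (τ y).2) =
      P (τ x).1 (τ y).2 := by
    rw [← hP2]
    have h0 : F ((Additive.ofMul (Abelianization.of (τ x).1)) ⊗ₜ[ℤ]
        (Additive.ofMul (Abelianization.of (τ y).2))) =
        Additive.ofMul (P2 (Abelianization.of (τ x).1) (Abelianization.of (τ y).2)) := by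
      rw [hF, hL]; rfl
    exact congrArg Additive.toMul h0
  rw [h1, hP]
  exact hind (s1 (τ x).1) ⟨x, hx⟩ (s2 (τ y).2) ⟨y, hy⟩ (by rw [hs1]; rfl) (by rw [hs2]; rfl)

/-- **Upper bound**: the multipliers of the factors and the tensor product of the abelianizations
together map onto the kernel of every stem extension of the product. -/
theorem exists_surj_prod {A : Type u'} {B : Type v'} [CommGroup A] [CommGroup B]
    (hA : Cfsg.HasSchurMultiplier Q₁ A) (hB : Cfsg.HasSchurMultiplier Q₂ B)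
    (hτ : Cfsg.IsStemExtension τ) : ∃ f : A × B × TT Q₁ Q₂ →* τ.ker, Surjective f := by
  obtain ⟨hs, hc, hc'⟩ := hτ
  obtain ⟨f3, hf3⟩ := exists_comm_pairing hs hc
  obtain ⟨g1, hg1⟩ := HasSchurMultiplier.exists_surj hA (res1_surjective hs) (res1_central hc)
  obtain ⟨g2, hg2⟩ := HasSchurMultiplier.exists_surj hB (res2_surjective hs) (res2_central hc)
  let _ : CommGroup τ.ker := commGroupOfLeCenter hc
  let f1 : A →* τ.ker :=
    (((DD1 τ).subtype.comp (Mult (res1 τ)).subtype).codRestrict τ.ker (by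
      intro x
      exact (res1_ker x.1).1 x.2.1)).comp g1
  let f2 : B →* τ.ker :=
    (((DD2 τ).subtype.comp (Mult (res2 τ)).subtype).codRestrict τ.ker (by
      intro x
      exact (res2_ker x.1).1 x.2.1)).comp g2
  have hf1 : ∀ x ∈ (_root_.commutator (DD1 τ)).map (DD1 τ).subtype, ∀ hx : x ∈ τ.ker,
      ∃ a, f1 a = ⟨x, hx⟩ := by
    rintro _ ⟨x, hx, rfl⟩ hxk
    obtain ⟨a, ha⟩ := hg1 ⟨x, (res1_ker x).2 hxk, hx⟩
    refine ⟨a, ?_⟩
    apply Subtype.ext
    change (((g1 a : Mult (res1 τ)) : DD1 τ) : Δ) = (x : Δ)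
    rw [ha]
  have hf2 : ∀ x ∈ (_root_.commutator (DD2 τ)).map (DD2 τ).subtype, ∀ hx : x ∈ τ.ker,
      ∃ a, f2 a = ⟨x, hx⟩ := by
    rintro _ ⟨x, hx, rfl⟩ hxk
    obtain ⟨a, ha⟩ := hg2 ⟨x, (res2_ker x).2 hxk, hx⟩
    refine ⟨a, ?_⟩
    apply Subtype.ext
    change (((g2 a : Mult (res2 τ)) : DD2 τ) : Δ) = (x : Δ)
    rw [ha]
  refine ⟨f1.coprod (f2.coprod f3), ?_⟩
  -- the commutator subgroup of `Δ`
  set C1 : Subgroup Δ := (_root_.commutator (DD1 τ)).map (DD1 τ).subtype with hC1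
  set C2 : Subgroup Δ := (_root_.commutator (DD2 τ)).map (DD2 τ).subtype with hC2
  set C3 : Subgroup Δ := f3.range.map τ.ker.subtype with hC3
  have hC1' : C1 = ⁅DD1 τ, DD1 τ⁆ := by
    rw [hC1, _root_.commutator_def, Subgroup.map_commutator, ← MonoidHom.range_eq_map,
      Subgroup.range_subtype]
  have hC2' : C2 = ⁅DD2 τ, DD2 τ⁆ := by
    rw [hC2, _root_.commutator_def, Subgroup.map_commutator, ← MonoidHom.range_eq_map,
      Subgroup.range_subtype]
  have hn1 : C1.Normal := by rw [hC1']; infer_instance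
  have hn2 : C2.Normal := by rw [hC2']; infer_instance
  have hn3 : C3.Normal := by
    apply normal_of_le_center
    rintro _ ⟨x, -, rfl⟩
    exact hc x.2
  have hgen : Subgroup.closure ((DD1 τ : Set Δ) ∪ (DD2 τ : Set Δ)) ⊔ Subgroup.center Δ = ⊤ := by
    rw [eq_top_iff]
    intro g _
    apply (le_sup_left : Subgroup.closure _ ≤ _)
    obtain ⟨x, hx⟩ := hs ((τ g).1, 1)
    have h1 : x ∈ DD1 τ := by rw [mem_DD1, hx]
    have h2 : x⁻¹ * g ∈ DD2 τ := by
      rw [mem_DD2, map_mul, map_inv, hx]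
      change ((τ g).1)⁻¹ * (τ g).1 = 1
      group
    have e : g = x * (x⁻¹ * g) := by group
    rw [e]
    exact Subgroup.mul_mem _ (Subgroup.subset_closure (Or.inl h1))
      (Subgroup.subset_closure (Or.inr h2))
  have hle : _root_.commutator Δ ≤ C1 ⊔ C2 ⊔ C3 := by
    have hn : (C1 ⊔ C2 ⊔ C3).Normal := inferInstance
    refine (commutator_le_of_generators _ hgen (C1 ⊔ C2 ⊔ C3) ?_ ?_).2
    · intro s _ m hm
      refine ⟨hn.conj_mem m hm s, ?_⟩
      have := hn.conj_mem m hm s⁻¹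
      rwa [inv_inv] at this
    · have h12 : ∀ x ∈ DD1 τ, ∀ y ∈ DD2 τ, ⁅x, y⁆ ∈ C1 ⊔ C2 ⊔ C3 := by
        intro x hx y hy
        apply (le_sup_right : C3 ≤ _)
        exact ⟨_, ⟨pairT Q₁ Q₂ (τ x).1 (τ y).2, rfl⟩, hf3 x hx y hy⟩
      intro s hs' t ht
      rcases hs' with hs' | hs' <;> rcases ht with ht | ht
      · apply (le_sup_left : C1 ⊔ C2 ≤ _)
        apply (le_sup_left : C1 ≤ _)
        rw [hC1']
        exact Subgroup.commutator_mem_commutator hs' ht
      · exact h12 s hs' t ht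
      · have h1 : ⁅s, t⁆ = ⁅t, s⁆⁻¹ := (commutatorElement_inv t s).symm
        rw [h1]
        exact Subgroup.inv_mem _ (h12 t ht s hs')
      · apply (le_sup_left : C1 ⊔ C2 ≤ _)
        apply (le_sup_right : C2 ≤ _)
        rw [hC2']
        exact Subgroup.commutator_mem_commutator hs' ht
  rintro ⟨k, hk⟩
  have hk' := hle (hc' hk)
  rw [Subgroup.mem_sup_of_normal_right] at hk'
  obtain ⟨m, hm, c, hc3, hmc⟩ := hk'
  rw [Subgroup.mem_sup_of_normal_right] at hm
  obtain ⟨x, hx, y, hy, hxy⟩ := hm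
  obtain ⟨c', ⟨t, rfl⟩, hct⟩ := hc3
  have hcker : c ∈ τ.ker := by rw [← hct]; exact (f3 t).2
  have hx1 : x ∈ DD1 τ := by
    obtain ⟨x', -, rfl⟩ := hx; exact x'.2
  have hy1 : y ∈ DD2 τ := by
    obtain ⟨y', -, rfl⟩ := hy; exact y'.2
  have hxyk : τ x * τ y = 1 := by
    have h1 : τ k = 1 := hk
    rw [← hmc, map_mul, ← hxy, map_mul] at h1
    have h2 : τ c = 1 := hcker
    rw [h2, mul_one] at h1
    exact h1
  have hxk : x ∈ τ.ker := by
    rw [MonoidHom.mem_ker]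
    refine Prod.ext ?_ (by rw [mem_DD1] at hx1; exact hx1)
    have h1 := congrArg Prod.fst hxyk
    change (τ x).1 * (τ y).1 = 1 at h1
    rw [mem_DD2] at hy1
    rw [hy1, mul_one] at h1
    exact h1
  have hyk : y ∈ τ.ker := by
    rw [MonoidHom.mem_ker]
    have h1 : τ x = 1 := hxk
    rw [h1, one_mul] at hxyk
    exact hxyk
  obtain ⟨a, ha⟩ := hf1 x hx hxk
  obtain ⟨b, hb⟩ := hf2 y hy hyk
  refine ⟨(a, b, t), ?_⟩
  rw [MonoidHom.coprod_apply, MonoidHom.coprod_apply, ha, hb]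
  apply Subtype.ext
  change x * (y * ((f3 t : τ.ker) : Δ)) = k
  rw [← hmc, ← hxy, ← hct]
  change x * (y * ((f3 t : τ.ker) : Δ)) = x * y * ((f3 t : τ.ker) : Δ)
  rw [mul_assoc]

/-- The Schur multiplier of a direct product of finite groups. -/
theorem hasSchurMultiplier_prod {A : Type u'} {B : Type v'} [CommGroup A] [CommGroup B]
    (hA : Cfsg.HasSchurMultiplier Q₁ A) (hB : Cfsg.HasSchurMultiplier Q₂ B) :
    Cfsg.HasSchurMultiplier (Q₁ × Q₂) (A × B × TT Q₁ Q₂) := by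
  have hf1 := finite_base hA
  have hf2 := finite_base hB
  refine ⟨?_, fun Γ _ _ σ hσ => exists_surj_prod hA hB hσ⟩
  obtain ⟨⟨Γ₁, _, _, σ₁, hσ₁, ⟨e₁⟩⟩, -⟩ := hA
  obtain ⟨⟨Γ₂, _, _, σ₂, hσ₂, ⟨e₂⟩⟩, -⟩ := hB
  have hst := isStemExtension_prodExt σ₁ σ₂ hσ₁ hσ₂
  exact ⟨TwProd (pairG σ₁ σ₂), inferInstance, finite_of_isStemExtension hst, prodExt σ₁ σ₂, hst,
    nonempty_ker_prodExt σ₁ σ₂ e₁ e₂⟩

end Upper

end Cfsg.Agent.H487
end

-- part: S3959
section
set_option autoImplicit false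
universe u v w
open Cfsg

namespace Cfsg.Agent.S3959

/-- Let `Q₁` and `Q₂` be finite groups with Schur multipliers `A` and `B`. Then the Schur multiplier of `Q₁ × Q₂` is isomorphic to `A × B × (Q₁ᵃᵇ ⊗ Q₂ᵃᵇ)`, the last factor being the tensor product over the integers of the commutator quotients, written multiplicatively. -/
theorem result {Q₁ : Type u} {Q₂ : Type v} [Group Q₁] [Group Q₂] [Finite Q₁] [Finite Q₂] {A B : Type w} [CommGroup A] [CommGroup B] (hA : Cfsg.HasSchurMultiplier Q₁ A) (hB : Cfsg.HasSchurMultiplier Q₂ B) : Cfsg.HasSchurMultiplier (Q₁ × Q₂) (A × B × Multiplicative (TensorProduct ℤ (Additive (Abelianization Q₁)) (Additive (Abelianization Q₂)))) := by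
  exact H487.hasSchurMultiplier_prod hA hB

end Cfsg.Agent.S3959
end
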