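import Cfsg.Statements.S3963
import Cfsg.Agent.H487.SchurPerfect
import Cfsg.Agent.H487.GenComm
import Mathlib.GroupTheory.SpecificGroups.Quaternion
set_option linter.all false

set_option autoImplicit false
open Cfsg

namespace Cfsg.Agent.S3963

open scoped commutatorElement
open QuaternionGroup

theorem ker_eq_bot (n : ℕ) [NeZero n] {Γ : Type*} [Group Γ] (σ : Γ →* QuaternionGroup n)
    (hσ : Cfsg.IsStemExtension σ) : σ.ker = ⊥ := by
  obtain ⟨hs, hc, hc'⟩ := hσ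
  obtain ⟨x, hx⟩ := hs (a 1)
  obtain ⟨y, hy⟩ := hs (xa 0)
  have : NeZero (2 * n) := ⟨by have := NeZero.ne n; omega⟩
  -- generation
  have hpow : ∀ i : ZMod (2 * n), σ (x ^ i.val) = a i := by
    intro i
    rw [map_pow, hx, a_one_pow, ZMod.natCast_zmod_val]
  have hgen : Subgroup.closure {x, y} ⊔ Subgroup.center Γ = ⊤ := by
    rw [eq_top_iff]
    intro g _
    have hxm : x ∈ Subgroup.closure ({x, y} : Set Γ) := Subgroup.subset_closure (by simp)
    have hym : y ∈ Subgroup.closure ({x, y} : Set Γ) := Subgroup.subset_closure (by simp)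
    have key : ∀ h ∈ Subgroup.closure ({x, y} : Set Γ), σ h = σ g →
        g ∈ Subgroup.closure ({x, y} : Set Γ) ⊔ Subgroup.center Γ := by
      intro h hh hhg
      have e : g = h * (h⁻¹ * g) := by group
      rw [e]
      refine Subgroup.mul_mem_sup hh (hc ?_)
      rw [MonoidHom.mem_ker, map_mul, map_inv, hhg]; group
    rcases hg : σ g with i | i
    · exact key (x ^ i.val) (Subgroup.pow_mem _ hxm _) (by rw [hpow, hg])
    · refine key (y * x ^ i.val) (Subgroup.mul_mem _ hym (Subgroup.pow_mem _ hxm _)) ?_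
      rw [map_mul, hpow, hy, hg, xa_mul_a, zero_add]
  -- relations
  obtain ⟨z, hz, hzy⟩ : ∃ z ∈ Subgroup.center Γ, x * y * x = z * y := by
    refine ⟨x * y * x * y⁻¹, hc ?_, by group⟩
    rw [MonoidHom.mem_ker, map_mul, map_mul, map_mul, map_inv, hx, hy]
    simp
  obtain ⟨w, hw, hwy⟩ : ∃ w ∈ Subgroup.center Γ, x ^ n = w * y ^ 2 := by
    refine ⟨x ^ n * (y ^ 2)⁻¹, hc ?_, by group⟩
    rw [MonoidHom.mem_ker, map_mul, map_inv, map_pow, map_pow, hx, hy, a_one_pow, xa_sq]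
    simp
  have hzc : ∀ g, Commute z g := fun g => (Subgroup.mem_center_iff.1 hz g).symm
  have hwc : ∀ g, Commute w g := fun g => (Subgroup.mem_center_iff.1 hw g).symm
  have hyx : y * x * y⁻¹ = z * x⁻¹ := by
    have h1 : y * x = x⁻¹ * (z * y) := by rw [← hzy]; group
    rw [h1, ← mul_assoc, ← (hzc x⁻¹).eq]; group
  have hyxi : y * x⁻¹ * y⁻¹ = x * z⁻¹ := by
    have h2 : y * x⁻¹ * y⁻¹ = (y * x * y⁻¹)⁻¹ := by group
    rw [h2, hyx]; group
  -- the commutator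
  have hcdef : ⁅y, x⁆ = z * (x⁻¹ * x⁻¹) := by
    rw [commutatorElement_def, hyx]; group
  have hcx : Commute x ⁅y, x⁆ := by
    rw [hcdef]
    exact (hzc x).symm.mul_right ((Commute.refl x).inv_right.mul_right (Commute.refl x).inv_right)
  have hcy : y * ⁅y, x⁆ * y⁻¹ = ⁅y, x⁆⁻¹ := by
    have h1 : y * ⁅y, x⁆ * y⁻¹ = z * ((y * x⁻¹ * y⁻¹) * (y * x⁻¹ * y⁻¹)) := by
      rw [hcdef]
      have : y * (z * (x⁻¹ * x⁻¹)) * y⁻¹ = (y * z) * (x⁻¹ * x⁻¹) * y⁻¹ := by group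
      rw [this, ← (hzc y).eq]; group
    rw [h1, hyxi, hcdef]
    have h2 : x * z⁻¹ * (x * z⁻¹) = x * x * (z⁻¹ * z⁻¹) := by
      have : z⁻¹ * x = x * z⁻¹ := (hzc x).inv_left.eq
      calc x * z⁻¹ * (x * z⁻¹) = x * (z⁻¹ * x) * z⁻¹ := by group
        _ = x * (x * z⁻¹) * z⁻¹ := by rw [this]
        _ = _ := by group
    rw [h2]
    have h3 : z * (x * x * (z⁻¹ * z⁻¹)) = (x * x) * z⁻¹ := by
      have : z * (x * x) = x * x * z := (hzc (x * x)).eq
      calc z * (x * x * (z⁻¹ * z⁻¹)) = (z * (x * x)) * (z⁻¹ * z⁻¹) := by group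
        _ = (x * x * z) * (z⁻¹ * z⁻¹) := by rw [this]
        _ = _ := by group
    rw [h3, mul_inv_rev, mul_inv_rev, inv_inv]
  have hcy' : y⁻¹ * ⁅y, x⁆ * y = ⁅y, x⁆⁻¹ := by
    have h1 : ⁅y, x⁆ = y * ⁅y, x⁆⁻¹ * y⁻¹ := by
      have : y * ⁅y, x⁆⁻¹ * y⁻¹ = (y * ⁅y, x⁆ * y⁻¹)⁻¹ := by group
      rw [this, hcy, inv_inv]
    have h2 : y⁻¹ * ⁅y, x⁆ * y = y⁻¹ * (y * ⁅y, x⁆⁻¹ * y⁻¹) * y := by rw [← h1]
    rw [h2]; group
  have hle : _root_.commutator Γ ≤ Subgroup.zpowers ⁅y, x⁆ := by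
    refine (H487.commutator_le_of_generators {x, y} hgen _ ?_ ?_).2
    · intro s hs' m hm
      obtain ⟨k, rfl⟩ := Subgroup.mem_zpowers_iff.1 hm
      rcases hs' with rfl | hs'
      · have h1 : Commute s (⁅y, s⁆ ^ k) := hcx.zpow_right k
        constructor
        · rw [h1.eq]
          have : ⁅y, s⁆ ^ k * s * s⁻¹ = ⁅y, s⁆ ^ k := by group
          rw [this]; exact hm
        · have h2 : s⁻¹ * ⁅y, s⁆ ^ k = ⁅y, s⁆ ^ k * s⁻¹ := h1.inv_left.eq
          rw [h2]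
          have : ⁅y, s⁆ ^ k * s⁻¹ * s = ⁅y, s⁆ ^ k := by group
          rw [this]; exact hm
      · rw [Set.mem_singleton_iff] at hs'
        subst hs'
        constructor
        · have : s * ⁅s, x⁆ ^ k * s⁻¹ = (s * ⁅s, x⁆ * s⁻¹) ^ k := (conj_zpow).symm
          rw [this, hcy]
          exact Subgroup.zpow_mem _ (Subgroup.inv_mem _ (Subgroup.mem_zpowers _)) _
        · have : s⁻¹ * ⁅s, x⁆ ^ k * s = (s⁻¹ * ⁅s, x⁆ * s) ^ k := by
            have := (conj_zpow (a := s⁻¹) (b := ⁅s, x⁆) (i := k)).symm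
            rwa [inv_inv] at this
          rw [this, hcy']
          exact Subgroup.zpow_mem _ (Subgroup.inv_mem _ (Subgroup.mem_zpowers _)) _
    · intro s hs' t ht
      have hself : ∀ g : Γ, ⁅g, g⁆ ∈ Subgroup.zpowers ⁅y, x⁆ := by
        intro g
        have : ⁅g, g⁆ = 1 := by rw [commutatorElement_def]; group
        rw [this]; exact Subgroup.one_mem _
      have hxy : ⁅x, y⁆ ∈ Subgroup.zpowers ⁅y, x⁆ := by
        have h1 : ⁅x, y⁆ = ⁅y, x⁆⁻¹ := (commutatorElement_inv y x).symm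
        rw [h1]; exact Subgroup.inv_mem _ (Subgroup.mem_zpowers _)
      rcases hs' with rfl | hs'
      · rcases ht with rfl | ht
        · exact hself _
        · rw [Set.mem_singleton_iff] at ht; subst ht; exact hxy
      · rw [Set.mem_singleton_iff] at hs'; subst hs'
        rcases ht with rfl | ht
        · exact Subgroup.mem_zpowers _
        · rw [Set.mem_singleton_iff] at ht; subst ht; exact hself _
  -- order of the commutator
  have hcn : ⁅y, x⁆ ^ n = 1 := by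
    have h1 : y * x ^ n * y⁻¹ = x ^ n := by
      rw [hwy]
      have : y * (w * y ^ 2) * y⁻¹ = (y * w) * y ^ 2 * y⁻¹ := by group
      rw [this, ← (hwc y).eq]; group
    have h2 : y * x ^ n * y⁻¹ = z ^ n * (x⁻¹) ^ n := by
      rw [← conj_pow, hyx, (hzc x⁻¹).mul_pow]
    have h3 : z ^ n * (x⁻¹) ^ n = x ^ n := by rw [← h2, h1]
    have h4 : ⁅y, x⁆ ^ n = z ^ n * ((x⁻¹) ^ n * (x⁻¹) ^ n) := by
      rw [hcdef, (hzc _).mul_pow, (Commute.refl x⁻¹).mul_pow]
    rw [h4, ← mul_assoc, h3, inv_pow]; group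
  rw [eq_bot_iff]
  intro k hk
  obtain ⟨j, rfl⟩ := Subgroup.mem_zpowers_iff.1 (hle (hc' hk))
  have hσc : σ ⁅y, x⁆ = (a 1 : QuaternionGroup n) ^ (-2 : ℤ) := by
    have hz1 : σ (y * x * y⁻¹ * x) = 1 := by
      rw [map_mul, map_mul, map_mul, map_inv, hx, hy]
      have : (xa 0 * a 1 : QuaternionGroup n) = (a 1)⁻¹ * xa 0 := by
        rw [eq_inv_mul_iff_mul_eq]; simp
      rw [this]; group
    have h2 : ⁅y, x⁆ = (y * x * y⁻¹ * x) * x ^ (-2 : ℤ) := by
      rw [commutatorElement_def]; group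
    rw [h2, map_mul, hz1, one_mul, map_zpow, hx]
  have h1 : (a 1 : QuaternionGroup n) ^ (-2 * j) = 1 := by
    rw [zpow_mul, ← hσc, ← map_zpow]; exact hk
  have h2 : ((orderOf (a 1 : QuaternionGroup n) : ℕ) : ℤ) ∣ -2 * j := orderOf_dvd_iff_zpow_eq_one.2 h1
  rw [orderOf_a_one] at h2
  have h3 : (n : ℤ) ∣ j := by
    obtain ⟨m, hm⟩ := h2
    refine ⟨-m, ?_⟩
    push_cast at hm
    linarith
  obtain ⟨m, rfl⟩ := h3
  change ⁅y, x⁆ ^ ((n : ℤ) * m) = 1
  rw [zpow_mul, zpow_natCast, hcn, one_zpow]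

/-- For every `n ≥ 1` the dicyclic (generalized quaternion) group of order `4 n` has trivial Schur multiplier. -/
theorem result (n : ℕ) [NeZero n] : Cfsg.HasCyclicSchurMultiplier (QuaternionGroup n) 1 := by
  exact H487.hasCyclicSchurMultiplier_one_of (fun Γ _ _ σ hσ => ker_eq_bot n σ hσ)

end Cfsg.Agent.S3963
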