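import Cfsg.Statements.S3966
import Mathlib
set_option linter.all false

set_option autoImplicit false
open Cfsg
open scoped commutatorElement

namespace Cfsg.Agent.S3966

/-- The map from the dicyclic group of order `4 n` to the dihedral group of order `2 n`. -/
def sig (n : ℕ) : QuaternionGroup n →* DihedralGroup n where
  toFun
    | QuaternionGroup.a i => DihedralGroup.r (ZMod.castHom (dvd_mul_left n 2) (ZMod n) i)
    | QuaternionGroup.xa i => DihedralGroup.sr (ZMod.castHom (dvd_mul_left n 2) (ZMod n) i)
  map_one' := by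
    rw [QuaternionGroup.one_def, DihedralGroup.one_def]
    simp only [map_zero]
  map_mul' := by
    rintro (i | i) (j | j)
    · simp only [QuaternionGroup.a_mul_a, DihedralGroup.r_mul_r, map_add]
    · simp only [QuaternionGroup.a_mul_xa, DihedralGroup.r_mul_sr, map_sub]
    · simp only [QuaternionGroup.xa_mul_a, DihedralGroup.sr_mul_r, map_add]
    · simp only [QuaternionGroup.xa_mul_xa, DihedralGroup.sr_mul_sr, map_add, map_sub,
        map_natCast, CharP.cast_eq_zero, zero_add]

theorem sig_surj (n : ℕ) : Function.Surjective (sig n) := by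
  rintro (i | i)
  · obtain ⟨j, hj⟩ := ZMod.castHom_surjective (dvd_mul_left n 2) i
    exact ⟨QuaternionGroup.a j, by show DihedralGroup.r _ = _; rw [hj]⟩
  · obtain ⟨j, hj⟩ := ZMod.castHom_surjective (dvd_mul_left n 2) i
    exact ⟨QuaternionGroup.xa j, by show DihedralGroup.sr _ = _; rw [hj]⟩

theorem castHom_eq_zero {n : ℕ} [NeZero n] (i : ZMod (2 * n))
    (h : ZMod.castHom (dvd_mul_left n 2) (ZMod n) i = 0) : ∃ k : ℕ, i = ((n * k : ℕ) : ZMod (2 * n)) := by
  have h1 : ((i.val : ℕ) : ZMod n) = 0 := by
    rw [← h, ZMod.castHom_apply, ZMod.natCast_val]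
  rw [ZMod.natCast_eq_zero_iff] at h1
  obtain ⟨k, hk⟩ := h1
  refine ⟨k, ?_⟩
  rw [← hk, ZMod.natCast_val, ZMod.cast_id', id]

theorem mem_ker {n : ℕ} [NeZero n] (x : QuaternionGroup n) (hx : x ∈ (sig n).ker) :
    ∃ k : ℕ, x = QuaternionGroup.a (((n * k : ℕ) : ZMod (2 * n))) := by
  rw [MonoidHom.mem_ker] at hx
  rcases x with (i | i)
  · have hx' : DihedralGroup.r (ZMod.castHom (dvd_mul_left n 2) (ZMod n) i) = DihedralGroup.r 0 := hx
    have h0 : ZMod.castHom (dvd_mul_left n 2) (ZMod n) i = 0 := by
      injection hx'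
    obtain ⟨k, hk⟩ := castHom_eq_zero i h0
    exact ⟨k, by rw [hk]⟩
  · have hx' : DihedralGroup.sr (ZMod.castHom (dvd_mul_left n 2) (ZMod n) i) = DihedralGroup.r 0 := hx
    cases hx'

/-- For even `n ≥ 2` the dicyclic group of order `4 n` is a stem extension of the dihedral group of order `2 n` with kernel of order `2`: there is a surjective homomorphism `QuaternionGroup n →* DihedralGroup n` whose kernel is central, lies in the commutator subgroup and has two elements. Together with the order of the multiplier this exhibits the dicyclic group as a Schur covering group of the dihedral group. -/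
theorem result (n : ℕ) [NeZero n] (hn : Even n) : ∃ σ : QuaternionGroup n →* DihedralGroup n, Cfsg.IsStemExtension σ ∧ Nat.card σ.ker = 2 := by
  refine ⟨sig n, ⟨sig_surj n, ?_, ?_⟩, ?_⟩
  · intro x hx
    obtain ⟨k, rfl⟩ := mem_ker x hx
    have h2 : ((n * k : ℕ) : ZMod (2 * n)) + ((n * k : ℕ) : ZMod (2 * n)) = 0 := by
      rw [← Nat.cast_add, ZMod.natCast_eq_zero_iff]
      exact ⟨k, by ring⟩
    rw [Subgroup.mem_center_iff]
    rintro (j | j)
    · rw [QuaternionGroup.a_mul_a, QuaternionGroup.a_mul_a, add_comm]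
    · rw [QuaternionGroup.xa_mul_a, QuaternionGroup.a_mul_xa]
      congr 1
      rw [eq_sub_iff_add_eq, add_assoc, h2, add_zero]
  · intro x hx
    obtain ⟨k, rfl⟩ := mem_ker x hx
    obtain ⟨m, hm⟩ := hn
    have hc : (QuaternionGroup.a (2 : ZMod (2 * n)) : QuaternionGroup n) ∈ commutator (QuaternionGroup n) := by
      have h := Subgroup.commutator_mem_commutator
        (Subgroup.mem_top (QuaternionGroup.a (1 : ZMod (2 * n)) : QuaternionGroup n))
        (Subgroup.mem_top (QuaternionGroup.xa (0 : ZMod (2 * n)) : QuaternionGroup n))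
      have he : ⁅(QuaternionGroup.a (1 : ZMod (2 * n)) : QuaternionGroup n), QuaternionGroup.xa 0⁆
          = QuaternionGroup.a (2 : ZMod (2 * n)) := by
        rw [commutatorElement_def, mul_inv_eq_iff_eq_mul, mul_inv_eq_iff_eq_mul,
          QuaternionGroup.a_mul_xa, QuaternionGroup.a_mul_xa, QuaternionGroup.xa_mul_a]
        congr 1
        ring
      rw [he] at h
      exact h
    have hp : (QuaternionGroup.a ((n * k : ℕ) : ZMod (2 * n)) : QuaternionGroup n)
        = (QuaternionGroup.a (2 : ZMod (2 * n))) ^ (m * k) := by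
      have h2 : (QuaternionGroup.a (2 : ZMod (2 * n)) : QuaternionGroup n) = QuaternionGroup.a 1 ^ 2 := by
        rw [QuaternionGroup.a_one_pow]; norm_cast
      rw [h2, ← pow_mul, QuaternionGroup.a_one_pow, hm]
      congr 2
      ring
    rw [hp]
    exact Subgroup.pow_mem _ hc _
  · have h1 : Nat.card (QuaternionGroup n) = 4 * n := by
      rw [Nat.card_eq_fintype_card, QuaternionGroup.card]
    have h2 : Nat.card (DihedralGroup n) = 2 * n := by
      rw [Nat.card_eq_fintype_card, DihedralGroup.card]
    have h3 := Subgroup.card_mul_index (sig n).ker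
    rw [Subgroup.index_ker, MonoidHom.range_eq_top_of_surjective _ (sig_surj n), Subgroup.card_top, h1, h2] at h3
    have hn0 : 0 < n := Nat.pos_of_ne_zero (NeZero.ne n)
    nlinarith

end Cfsg.Agent.S3966
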