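import Mathlib
import Cfsg.Agent.H489.Meta
import Cfsg.Statements.S3967
set_option linter.all false

-- part: H489/CyclicExt
section
/-!
# Cyclic extensions of abelian groups

Given an abelian group `N`, an automorphism `β` of `N` with `β ^ n = 1` (`n > 0`) and `a₀ ∈ N` with `β a₀ = a₀`
there is a group `M ≥ N` with an element `b` such that `b x b⁻¹ = β x` for `x ∈ N` and `b ^ n = a₀`.
-/

set_option autoImplicit false

namespace Cfsg.Agent.H489

universe u

open SemidirectProduct in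
/-- **Cyclic extensions** of an abelian group. -/
theorem exists_cyclicExt {N : Type u} [CommGroup N] (β : MulAut N) (n : ℕ) (hn : 0 < n)
    (hβ : β ^ n = 1) (a₀ : N) (ha : β a₀ = a₀) :
    ∃ (M : Type u) (_ : Group M) (j : N →* M) (b : M), Function.Injective j ∧
      (∀ x, b * j x * b⁻¹ = j (β x)) ∧ b ^ n = j a₀ := by
  obtain ⟨φ, hφ⟩ : ∃ φ : Multiplicative ℤ →* MulAut N, ∀ k : ℤ, φ (Multiplicative.ofAdd k) = β ^ k :=
    ⟨zpowersHom _ β, fun k => by simp⟩
  have hfix : ∀ k : ℤ, (β ^ k) a₀ = a₀ := by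
    intro k
    have h : β ∈ MulAction.stabilizer (MulAut N) a₀ := ha
    exact Subgroup.zpow_mem _ h k
  let w : N ⋊[φ] Multiplicative ℤ := inr (Multiplicative.ofAdd (n : ℤ)) * (inl a₀)⁻¹
  have hw : w = inr (Multiplicative.ofAdd (n : ℤ)) * (inl a₀)⁻¹ := rfl
  have hinl : ∀ i : N, (inl i : N ⋊[φ] Multiplicative ℤ) * inr (Multiplicative.ofAdd (n : ℤ))
      = inr (Multiplicative.ofAdd (n : ℤ)) * inl i := by
    intro i
    have h1 := inl_aut (φ := φ) (Multiplicative.ofAdd (n : ℤ)) i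
    rw [hφ, zpow_natCast, hβ, MulAut.one_apply, map_inv, eq_mul_inv_iff_mul_eq] at h1
    exact h1
  have hinr : ∀ k : Multiplicative ℤ, (inr k : N ⋊[φ] Multiplicative ℤ) * inl a₀ = inl a₀ * inr k := by
    intro k
    have h1 := inl_aut (φ := φ) k a₀
    have h2 : φ k a₀ = a₀ := by
      rw [← ofAdd_toAdd k, hφ]
      exact hfix _
    rw [h2, map_inv, eq_mul_inv_iff_mul_eq] at h1
    exact h1.symm
  have h1 : ∀ i : N, Commute (inl i) w := by
    intro i
    rw [hw]
    refine Commute.mul_right (hinl i) (Commute.inv_right ?_)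
    show (inl i : N ⋊[φ] Multiplicative ℤ) * inl a₀ = inl a₀ * inl i
    rw [← map_mul, ← map_mul, mul_comm]
  have h2 : ∀ k : Multiplicative ℤ, Commute (inr k) w := by
    intro k
    rw [hw]
    refine Commute.mul_right ?_ (Commute.inv_right (hinr k))
    show (inr k : N ⋊[φ] Multiplicative ℤ) * inr _ = inr _ * inr k
    rw [← map_mul, ← map_mul, mul_comm]
  have hcen : w ∈ Subgroup.center (N ⋊[φ] Multiplicative ℤ) := by
    rw [Subgroup.mem_center_iff]
    intro g
    rw [← inl_left_mul_inr_right g]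
    exact ((h1 _).mul_left (h2 _)).eq
  have hnorm : (Subgroup.zpowers w).Normal :=
    ⟨by
      intro x hx g
      have hxc : x ∈ Subgroup.center (N ⋊[φ] Multiplicative ℤ) :=
        (Subgroup.zpowers_le.mpr hcen) hx
      rw [Subgroup.mem_center_iff.mp hxc g, mul_inv_cancel_right]
      exact hx⟩
  refine ⟨(N ⋊[φ] Multiplicative ℤ) ⧸ Subgroup.zpowers w, inferInstance,
    (QuotientGroup.mk' _).comp inl, QuotientGroup.mk' _ (inr (Multiplicative.ofAdd 1)), ?_, ?_, ?_⟩
  · rw [injective_iff_map_eq_one]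
    intro x hx
    rw [MonoidHom.comp_apply, QuotientGroup.mk'_apply, QuotientGroup.eq_one_iff,
      Subgroup.mem_zpowers_iff] at hx
    obtain ⟨k, hk⟩ := hx
    have h3 := congrArg (rightHom : N ⋊[φ] Multiplicative ℤ →* Multiplicative ℤ) hk
    rw [map_zpow, hw, map_mul, map_inv, rightHom_inl, rightHom_inl, rightHom_inr, inv_one, mul_one,
      ← ofAdd_zsmul, ofAdd_eq_one, smul_eq_mul] at h3
    have hk0 : k = 0 := by
      rcases mul_eq_zero.mp h3 with h | h
      · exact h
      · exfalso; omega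
    rw [hk0, zpow_zero] at hk
    exact (inl_injective (hk.symm.trans (map_one _).symm))
  · intro x
    rw [MonoidHom.comp_apply, MonoidHom.comp_apply, ← map_inv, ← map_mul, ← map_mul, ← map_inv inr,
      ← inl_aut, hφ, zpow_one]
  · rw [MonoidHom.comp_apply, ← map_pow, ← map_pow, ← ofAdd_nsmul, nsmul_eq_mul, mul_one,
      QuotientGroup.mk'_apply, QuotientGroup.mk'_apply, eq_comm, QuotientGroup.eq]
    have : (inl a₀ : N ⋊[φ] Multiplicative ℤ)⁻¹ * inr (Multiplicative.ofAdd (n : ℤ)) = w := by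
      rw [hw, ← map_inv, hinl]
    rw [this]
    exact Subgroup.mem_zpowers w

end Cfsg.Agent.H489
end

-- part: H489/MetaGroup
section
/-!
# Metacyclic groups given by a presentation

`MG m n r t = ⟨a, b | a ^ m = 1, b ^ n = a ^ t, b a b⁻¹ = a ^ r⟩`. If `m, n > 0`, `r ^ n ≡ 1 (mod m)` and
`r t ≡ t (mod m)`, then `a` has order `m`, and the group is finite.
-/

set_option autoImplicit false

open scoped commutatorElement

namespace Cfsg.Agent.H489

open Subgroup

/-- The relators of the metacyclic group. -/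
def rels (m n r t : ℕ) : Set (FreeGroup Bool) :=
  {FreeGroup.of true ^ m, (FreeGroup.of false) ^ n * (FreeGroup.of true ^ t)⁻¹,
    FreeGroup.of false * FreeGroup.of true * (FreeGroup.of false)⁻¹ * (FreeGroup.of true ^ r)⁻¹}

/-- The metacyclic group with parameters `m`, `n`, `r`, `t`. -/
abbrev MG (m n r t : ℕ) : Type := PresentedGroup (rels m n r t)

section

variable (m n r t : ℕ)

/-- The generator of the normal cyclic subgroup. -/
def xg : MG m n r t := PresentedGroup.of true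

/-- The second generator. -/
def yg : MG m n r t := PresentedGroup.of false

theorem xg_pow : xg m n r t ^ m = 1 := by
  have h : PresentedGroup.mk (rels m n r t) (FreeGroup.of true ^ m) = 1 :=
    PresentedGroup.one_of_mem (by unfold rels; simp)
  rw [map_pow] at h
  exact h

theorem yg_pow : yg m n r t ^ n = xg m n r t ^ t := by
  have h : PresentedGroup.mk (rels m n r t) ((FreeGroup.of false) ^ n * (FreeGroup.of true ^ t)⁻¹) = 1 :=
    PresentedGroup.one_of_mem (by unfold rels; simp)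
  rw [map_mul, map_inv, map_pow, map_pow, mul_inv_eq_one] at h
  exact h

theorem yxy : yg m n r t * xg m n r t * (yg m n r t)⁻¹ = xg m n r t ^ r := by
  have h : PresentedGroup.mk (rels m n r t)
      (FreeGroup.of false * FreeGroup.of true * (FreeGroup.of false)⁻¹ * (FreeGroup.of true ^ r)⁻¹) = 1 :=
    PresentedGroup.one_of_mem (by unfold rels; simp)
  rw [map_mul, map_mul, map_mul, map_inv, map_inv, map_pow, mul_inv_eq_one] at h
  exact h

theorem closure_xy : closure {xg m n r t, yg m n r t} = ⊤ := by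
  have h := PresentedGroup.closure_range_of (rels m n r t)
  rw [← h]
  congr 1
  ext g
  constructor
  · rintro (rfl | rfl)
    · exact ⟨true, rfl⟩
    · exact ⟨false, rfl⟩
  · rintro ⟨b, rfl⟩
    cases b
    · exact Or.inr rfl
    · exact Or.inl rfl

/-- Universal property. -/
theorem exists_lift {H : Type*} [Group H] (a b : H) (h1 : a ^ m = 1) (h2 : b ^ n = a ^ t)
    (h3 : b * a * b⁻¹ = a ^ r) : ∃ f : MG m n r t →* H, f (xg m n r t) = a ∧ f (yg m n r t) = b := by
  let F : Bool → H := fun c => if c then a else b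
  have hF : ∀ w ∈ rels m n r t, FreeGroup.lift F w = 1 := by
    intro w hw
    rcases hw with rfl | rfl | rfl
    · rw [map_pow, FreeGroup.lift_apply_of]; exact h1
    · rw [map_mul, map_inv, map_pow, map_pow, FreeGroup.lift_apply_of, FreeGroup.lift_apply_of,
        mul_inv_eq_one]
      exact h2
    · rw [map_mul, map_mul, map_mul, map_inv, map_inv, map_pow, FreeGroup.lift_apply_of,
        FreeGroup.lift_apply_of, mul_inv_eq_one]
      exact h3
  refine ⟨PresentedGroup.toGroup hF, ?_, ?_⟩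
  · exact PresentedGroup.toGroup.of hF
  · exact PresentedGroup.toGroup.of hF

end

section

variable {m n r t : ℕ}

/-- The order of `x`. -/
theorem orderOf_xg (hm : 0 < m) (hn : 0 < n) (hrn : r ^ n ≡ 1 [MOD m]) (hrt : r * t ≡ t [MOD m]) :
    orderOf (xg m n r t) = m := by
  have : NeZero m := ⟨hm.ne'⟩
  have hr1 : ((r : ZMod m)) ^ n = 1 := by
    have := (ZMod.natCast_eq_natCast_iff _ _ _).mpr hrn
    push_cast at this
    exact this
  let u : (ZMod m)ˣ := Units.ofPowEqOne (r : ZMod m) n hr1 hn.ne'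
  have hu : (u : ZMod m) = r := rfl
  have hun : u ^ n = 1 := Units.ext (by rw [Units.val_pow_eq_pow_val, hu, hr1, Units.val_one])
  obtain ⟨β, hβ⟩ : ∃ β : MulAut (Multiplicative (ZMod m)), ∀ i : ZMod m,
      β (Multiplicative.ofAdd i) = Multiplicative.ofAdd ((r : ZMod m) * i) :=
    ⟨AddEquiv.toMultiplicative (Multiplicative.toAdd (AddAut.mulLeft u)), fun i => rfl⟩
  have hβk : ∀ (k : ℕ) (i : ZMod m), (β ^ k) (Multiplicative.ofAdd i)
      = Multiplicative.ofAdd ((r : ZMod m) ^ k * i) := by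
    intro k
    induction k with
    | zero => intro i; rw [pow_zero, pow_zero, one_mul]; rfl
    | succ k ih =>
      intro i
      rw [pow_succ, MulAut.mul_apply, hβ, ih, pow_succ, mul_assoc]
  have hβn : β ^ n = 1 := by
    ext i
    have := hβk n (Multiplicative.toAdd i)
    rw [hr1, one_mul] at this
    exact this
  have hβt : β (Multiplicative.ofAdd (t : ZMod m)) = Multiplicative.ofAdd (t : ZMod m) := by
    rw [hβ]
    congr 1
    have := (ZMod.natCast_eq_natCast_iff _ _ _).mpr hrt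
    push_cast at this
    exact this
  obtain ⟨M, _, j, b, hj, hjb, hbn⟩ := exists_cyclicExt β n hn hβn _ hβt
  have hone : ∀ k : ℕ, Multiplicative.ofAdd (1 : ZMod m) ^ k = Multiplicative.ofAdd (k : ZMod m) := by
    intro k
    rw [← ofAdd_nsmul, nsmul_one]
  obtain ⟨f, hf1, hf2⟩ := exists_lift m n r t (j (Multiplicative.ofAdd 1)) b
    (by rw [← map_pow, hone, ZMod.natCast_self, ofAdd_zero, map_one])
    (by rw [hbn, ← map_pow, hone])
    (by rw [hjb, hβ, mul_one, ← map_pow, hone])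
  apply Nat.dvd_antisymm
  · exact orderOf_dvd_of_pow_eq_one (xg_pow m n r t)
  · have h1 : orderOf (f (xg m n r t)) ∣ orderOf (xg m n r t) := orderOf_map_dvd f _
    rw [hf1, orderOf_injective j hj] at h1
    have h2 : orderOf (Multiplicative.ofAdd (1 : ZMod m)) = m := by
      rw [orderOf_ofAdd_eq_addOrderOf, ZMod.addOrderOf_one]
    rwa [h2] at h1

/-- `⟨x⟩` is normal. -/
theorem normal_zpowers_xg (hm : 0 < m) : (zpowers (xg m n r t)).Normal := by
  have hfin : Finite (zpowers (xg m n r t)) :=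
    finite_zpowers.mpr (isOfFinOrder_iff_pow_eq_one.mpr ⟨m, hm, xg_pow m n r t⟩)
  rw [← normalizer_eq_top_iff, eq_top_iff, ← closure_xy m n r t, closure_le]
  have : Finite (((zpowers (xg m n r t) : Subgroup (MG m n r t)) : Set (MG m n r t))) := hfin
  rintro g (rfl | rfl)
  · exact le_normalizer (mem_zpowers _)
  · apply mem_normalizer_fintype
    rintro _ ⟨k, rfl⟩
    refine ⟨r * k, ?_⟩
    show xg m n r t ^ ((r : ℤ) * k) = yg m n r t * xg m n r t ^ k * (yg m n r t)⁻¹
    rw [← conj_zpow, yxy, ← zpow_natCast, ← zpow_mul]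

theorem finite_MG (hm : 0 < m) (hn : 0 < n) : Finite (MG m n r t) := by
  have hN := normal_zpowers_xg (m := m) (n := n) (r := r) (t := t) hm
  have hfin : Finite (zpowers (xg m n r t)) :=
    finite_zpowers.mpr (isOfFinOrder_iff_pow_eq_one.mpr ⟨m, hm, xg_pow m n r t⟩)
  have h1 : zpowers (QuotientGroup.mk' (zpowers (xg m n r t)) (yg m n r t)) = ⊤ := by
    have h2 := congrArg (Subgroup.map (QuotientGroup.mk' (zpowers (xg m n r t)))) (closure_xy m n r t)
    rw [MonoidHom.map_closure, Set.image_pair, ← MonoidHom.range_eq_map,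
      MonoidHom.range_eq_top_of_surjective _ (QuotientGroup.mk'_surjective _)] at h2
    rw [eq_top_iff, ← h2, closure_le]
    rintro g (rfl | rfl)
    · have h5 : QuotientGroup.mk' (zpowers (xg m n r t)) (xg m n r t) = 1 :=
        (QuotientGroup.eq_one_iff (xg m n r t)).mpr (mem_zpowers _)
      rw [h5]
      exact one_mem _
    · exact mem_zpowers _
  have h3 : Finite (MG m n r t ⧸ zpowers (xg m n r t)) := by
    have h4 : Finite (zpowers (QuotientGroup.mk' (zpowers (xg m n r t)) (yg m n r t))) := by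
      apply finite_zpowers.mpr
      rw [isOfFinOrder_iff_pow_eq_one]
      refine ⟨n, hn, ?_⟩
      rw [← map_pow, yg_pow, QuotientGroup.mk'_apply, QuotientGroup.eq_one_iff]
      exact ⟨t, by simp⟩
    rw [h1] at h4
    exact Finite.of_equiv _ topEquiv.toEquiv
  exact Finite.of_subgroup_quotient (zpowers (xg m n r t))

/-- The kernel of the map between two metacyclic groups. -/
theorem ker_eq {m n r r' t k : ℕ} (hrr : r' ≡ r [MOD m])
    (hc : xg (m * k) n r' t ^ m ∈ center (MG (m * k) n r' t))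
    (f : MG (m * k) n r' t →* MG m n r t) (hfx : f (xg (m * k) n r' t) = xg m n r t)
    (hfy : f (yg (m * k) n r' t) = yg m n r t) :
    f.ker = zpowers (xg (m * k) n r' t ^ m) := by
  apply le_antisymm
  · have hnorm : (zpowers (xg (m * k) n r' t ^ m)).Normal := ⟨by
      intro z hz g
      have hzc : z ∈ center (MG (m * k) n r' t) := (zpowers_le.mpr hc) hz
      rw [mem_center_iff.mp hzc g, mul_inv_cancel_right]
      exact hz⟩
    set π := QuotientGroup.mk' (zpowers (xg (m * k) n r' t ^ m)) with hπ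
    have h1 : π (xg (m * k) n r' t) ^ m = 1 := by
      rw [← map_pow]
      exact (QuotientGroup.eq_one_iff _).mpr (mem_zpowers _)
    obtain ⟨g, hgx, hgy⟩ := exists_lift m n r t (π (xg (m * k) n r' t)) (π (yg (m * k) n r' t)) h1
      (by rw [← map_pow, yg_pow, map_pow])
      (by
        rw [← map_inv, ← map_mul, ← map_mul, yxy, map_pow]
        exact pow_eq_pow_iff_modEq.mpr (hrr.of_dvd (orderOf_dvd_of_pow_eq_one h1)))
    have h2 : g.comp f = π := by
      apply PresentedGroup.ext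
      intro b
      cases b
      · show g (f (yg (m * k) n r' t)) = π (yg (m * k) n r' t)
        rw [hfy, hgy]
      · show g (f (xg (m * k) n r' t)) = π (xg (m * k) n r' t)
        rw [hfx, hgx]
    intro w hw
    have h3 : π w = 1 := by
      rw [← h2, MonoidHom.comp_apply, MonoidHom.mem_ker.mp hw, map_one]
    exact (QuotientGroup.eq_one_iff _).mp h3
  · rw [zpowers_le, MonoidHom.mem_ker, map_pow, hfx, xg_pow]

end

end Cfsg.Agent.H489
end

-- part: S3967
section
set_option autoImplicit false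
open Cfsg
open scoped commutatorElement

namespace Cfsg.Agent.S3967

open Cfsg.Agent.H489 Subgroup

/-- A lift of a unit. -/
theorem exists_coprime_lift (m₁ k r₁ : ℕ) (hm : 0 < m₁) (hk : 0 < k) (hr : Nat.Coprime r₁ m₁) :
    ∃ u : ℕ, Nat.Coprime u (m₁ * k) ∧ u ≡ r₁ [MOD m₁] := by
  have : NeZero (m₁ * k) := ⟨(Nat.mul_pos hm hk).ne'⟩
  obtain ⟨v, hv⟩ := ZMod.unitsMap_surjective (m := m₁ * k) (dvd_mul_right m₁ k) (ZMod.unitOfCoprime r₁ hr)
  refine ⟨(v : ZMod (m₁ * k)).val, ZMod.val_coe_unit_coprime v, ?_⟩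
  rw [← ZMod.natCast_eq_natCast_iff]
  have h1 := congrArg Units.val hv
  rw [ZMod.coe_unitOfCoprime] at h1
  rw [← h1, ZMod.unitsMap_val]
  exact ZMod.natCast_val _

/-- Numerical data. -/
theorem numbers (m n r l : ℕ) (hm : 0 < m) (hn : 0 < n) (hr : 0 < r) (hrn : r ^ n ≡ 1 [MOD m]) :
    ∃ d m₁ r₁ h : ℕ, 0 < d ∧ 0 < m₁ ∧ 0 < h ∧ m = d * m₁ ∧ r = 1 + d * r₁ ∧ Nat.Coprime r₁ m₁ ∧
      Nat.gcd m (r - 1) = d ∧ m * l / Nat.gcd m (r - 1) = m₁ * l ∧
      Nat.gcd m (∑ i ∈ Finset.range n, r ^ i) = m₁ * h ∧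
      Nat.gcd m (r - 1) * Nat.gcd m (∑ i ∈ Finset.range n, r ^ i) / m = h := by
  obtain ⟨q, rfl⟩ : ∃ q, r = q + 1 := ⟨r - 1, by omega⟩
  simp only [Nat.add_sub_cancel]
  obtain ⟨d, hd⟩ : ∃ d, Nat.gcd m q = d := ⟨_, rfl⟩
  have hd0 : 0 < d := hd ▸ Nat.gcd_pos_of_pos_left _ hm
  obtain ⟨m₁, hm₁⟩ : d ∣ m := hd ▸ Nat.gcd_dvd_left m q
  obtain ⟨r₁, hr₁⟩ : d ∣ q := hd ▸ Nat.gcd_dvd_right m q
  have hm0 : 0 < m₁ := by
    rcases Nat.eq_zero_or_pos m₁ with rfl | h
    · omega
    · exact h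
  have hcop : Nat.Coprime r₁ m₁ := by
    rw [Nat.coprime_comm]
    have h1 : d * Nat.gcd m₁ r₁ = d * 1 := by
      rw [← Nat.gcd_mul_left, ← hm₁, ← hr₁, hd, mul_one]
    exact Nat.eq_of_mul_eq_mul_left hd0 h1
  obtain ⟨s, hs⟩ : ∃ s, ∑ i ∈ Finset.range n, (q + 1) ^ i = s := ⟨_, rfl⟩
  rw [hs]
  have hgeom : q * s + 1 = (q + 1) ^ n := by
    rw [← hs]
    rw [mul_comm]
    exact geom_sum_mul_add q n
  have hm₁s : m₁ ∣ s := by
    have h1 : m ∣ q * s := by
      have h2 : q * s + 1 ≡ 0 + 1 [MOD m] := by rw [hgeom, zero_add]; exact hrn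
      exact (Nat.modEq_zero_iff_dvd).mp (Nat.ModEq.add_right_cancel' 1 h2)
    rw [hm₁, hr₁, mul_assoc] at h1
    have h3 := Nat.dvd_of_mul_dvd_mul_left hd0 h1
    exact hcop.symm.dvd_of_dvd_mul_left h3
  obtain ⟨h, hh⟩ : m₁ ∣ Nat.gcd m s := Nat.dvd_gcd (hm₁ ▸ dvd_mul_left _ _) hm₁s
  have hh0 : 0 < h := by
    rcases Nat.eq_zero_or_pos h with rfl | h'
    · rw [mul_zero] at hh
      have := Nat.gcd_pos_of_pos_left s hm
      omega
    · exact h'
  refine ⟨d, m₁, r₁, h, hd0, hm0, hh0, hm₁, ?_, hcop, hd, ?_, hh, ?_⟩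
  · rw [hr₁, add_comm]
  · rw [hd, hm₁, mul_assoc, Nat.mul_div_cancel_left _ hd0]
  · rw [hd, hh]
    conv_lhs => rw [← mul_assoc, ← hm₁]
    exact Nat.mul_div_cancel_left _ hm

/-- Let `m, n ≥ 1`, `r ≥ 1` with `r ^ n ≡ 1 (mod m)`, and `l` a natural number; put `d = gcd(m, r - 1)`, `t = m l / d` and `h = d · gcd(m, 1 + r + ⋯ + r^(n-1)) / m`. The group presented by generators `a, b` and relations `a ^ m = 1`, `b ^ n = a ^ t`, `b a b⁻¹ = a ^ r` (a metacyclic group of order `m n`) has Schur multiplier cyclic of order `gcd(l, h)`. -/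
theorem result (m n r l : ℕ) (hm : 0 < m) (hn : 0 < n) (hr : 0 < r) (hrn : r ^ n ≡ 1 [MOD m]) : Cfsg.HasCyclicSchurMultiplier (PresentedGroup ({FreeGroup.of true ^ m, (FreeGroup.of false) ^ n * (FreeGroup.of true ^ (m * l / Nat.gcd m (r - 1)))⁻¹, FreeGroup.of false * FreeGroup.of true * (FreeGroup.of false)⁻¹ * (FreeGroup.of true ^ r)⁻¹} : Set (FreeGroup Bool))) (Nat.gcd l (Nat.gcd m (r - 1) * Nat.gcd m (∑ i ∈ Finset.range n, r ^ i) / m)) := by
  obtain ⟨d, m₁, r₁, h, hd0, hm0, hh0, hmd, hrd, hcop, hgd, ht, hg, hh⟩ := numbers m n r l hm hn hr hrn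
  rw [hh, ht]
  change Cfsg.HasCyclicSchurMultiplier (MG m n r (m₁ * l)) (Nat.gcd l h)
  obtain ⟨s, hs⟩ : ∃ s, ∑ i ∈ Finset.range n, r ^ i = s := ⟨_, rfl⟩
  rw [hs] at hg
  obtain ⟨k, hk⟩ : ∃ k, Nat.gcd l h = k := ⟨_, rfl⟩
  rw [hk]
  have hk0 : 0 < k := hk ▸ Nat.gcd_pos_of_pos_right _ hh0
  have hkl : k ∣ l := hk ▸ Nat.gcd_dvd_left l h
  have hkh : k ∣ h := hk ▸ Nat.gcd_dvd_right l h
  have hmk_m : m₁ * k ∣ m := (Nat.mul_dvd_mul_left m₁ hkh).trans (hg ▸ Nat.gcd_dvd_left m s)
  have hmk_s : m₁ * k ∣ s := (Nat.mul_dvd_mul_left m₁ hkh).trans (hg ▸ Nat.gcd_dvd_right m s)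
  have hkd : k ∣ d := by
    rw [hmd, mul_comm d m₁] at hmk_m
    exact Nat.dvd_of_mul_dvd_mul_left hm0 hmk_m
  constructor
  · -- existence
    obtain ⟨u, hu, hur⟩ := exists_coprime_lift m₁ k r₁ hm0 hk0 hcop
    have hrr : 1 + d * u ≡ r [MOD m] := by
      rw [hrd, hmd]
      exact (Nat.ModEq.mul_left' d hur).add_left 1
    have hs' : m₁ * k ∣ ∑ i ∈ Finset.range n, (1 + d * u) ^ i := by
      have h1 : ∑ i ∈ Finset.range n, (1 + d * u) ^ i ≡ ∑ i ∈ Finset.range n, r ^ i [MOD m] := by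
        have h0 := (ZMod.natCast_eq_natCast_iff _ _ _).mpr hrr
        rw [← ZMod.natCast_eq_natCast_iff, Nat.cast_sum, Nat.cast_sum]
        apply Finset.sum_congr rfl
        intro i _
        rw [Nat.cast_pow, Nat.cast_pow, h0]
      have h2 := h1.of_dvd hmk_m
      rw [hs] at h2
      exact (Nat.modEq_zero_iff_dvd).mp (h2.trans ((Nat.modEq_zero_iff_dvd).mpr hmk_s))
    have hrn' : (1 + d * u) ^ n ≡ 1 [MOD (m * k)] := by
      rw [add_comm 1 (d * u), ← geom_sum_mul_add (d * u) n]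
      have h1 : (∑ i ∈ Finset.range n, (d * u + 1) ^ i) * (d * u) ≡ 0 [MOD (m * k)] := by
        rw [Nat.modEq_zero_iff_dvd, hmd, add_comm (d * u) 1]
        obtain ⟨w, hw⟩ := hs'
        rw [hw]
        exact ⟨w * u, by ring⟩
      simpa using h1.add_right 1
    have hrt' : (1 + d * u) * (m₁ * l) ≡ m₁ * l [MOD (m * k)] := by
      have h1 : d * u * (m₁ * l) ≡ 0 [MOD (m * k)] := by
        rw [Nat.modEq_zero_iff_dvd, hmd]
        obtain ⟨w, hw⟩ := hkl
        rw [hw]
        exact ⟨w * u, by ring⟩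
      have h2 := h1.add_left (m₁ * l)
      rw [add_zero] at h2
      have h3 : (1 + d * u) * (m₁ * l) = m₁ * l + d * u * (m₁ * l) := by ring
      rw [h3]
      exact h2
    have hordx : orderOf (xg (m * k) n (1 + d * u) (m₁ * l)) = m * k :=
      orderOf_xg (Nat.mul_pos hm hk0) hn hrn' hrt'
    have hxm : ∀ j : ℕ, m * k ∣ j → xg (m * k) n (1 + d * u) (m₁ * l) ^ j = 1 := by
      intro j hj
      rw [← orderOf_dvd_iff_pow_eq_one, hordx]
      exact hj
    have hcen : xg (m * k) n (1 + d * u) (m₁ * l) ^ m ∈ center (MG (m * k) n (1 + d * u) (m₁ * l)) := by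
      have h1 : closure {xg (m * k) n (1 + d * u) (m₁ * l), yg (m * k) n (1 + d * u) (m₁ * l)} ≤
          centralizer {xg (m * k) n (1 + d * u) (m₁ * l) ^ m} := by
        rw [closure_le]
        rintro g (rfl | rfl)
        · rw [SetLike.mem_coe, mem_centralizer_singleton_iff]
          exact ((Commute.refl _).pow_right m).eq
        · rw [SetLike.mem_coe, mem_centralizer_singleton_iff, ← mul_inv_eq_iff_eq_mul, ← conj_pow, yxy,
            ← pow_mul, add_mul, one_mul, pow_add, hxm (d * u * m), mul_one]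
          obtain ⟨w, hw⟩ := hkd
          exact ⟨w * u, by rw [hw]; ring⟩
      rw [closure_xy] at h1
      rw [mem_center_iff]
      intro g
      exact (mem_centralizer_singleton_iff.mp (h1 (mem_top g)))
    obtain ⟨f, hfx, hfy⟩ := exists_lift (m * k) n (1 + d * u) (m₁ * l) (xg m n r (m₁ * l)) (yg m n r (m₁ * l))
      (by rw [pow_mul, xg_pow, one_pow]) (yg_pow m n r (m₁ * l)) (by
        rw [yxy]
        exact (pow_eq_pow_iff_modEq.mpr (hrr.of_dvd (orderOf_dvd_of_pow_eq_one (xg_pow m n r (m₁ * l))))).symm)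
    have hker := ker_eq hrr hcen f hfx hfy
    have hcard : Nat.card f.ker = k := by
      rw [hker, Nat.card_zpowers, orderOf_pow_of_dvd hm.ne' (by rw [hordx]; exact dvd_mul_right m k), hordx,
        Nat.mul_div_cancel_left _ hm]
    refine ⟨MG (m * k) n (1 + d * u) (m₁ * l), inferInstance, finite_MG (Nat.mul_pos hm hk0) hn, f,
      ⟨?_, ?_, ?_⟩, ?_⟩
    · rw [← MonoidHom.range_eq_top, eq_top_iff, ← closure_xy, closure_le]
      rintro g (rfl | rfl)
      · exact ⟨_, hfx⟩
      · exact ⟨_, hfy⟩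
    · rw [hker, zpowers_le]
      exact hcen
    · rw [hker, zpowers_le]
      have hc : ⁅yg (m * k) n (1 + d * u) (m₁ * l), xg (m * k) n (1 + d * u) (m₁ * l)⁆
          = xg (m * k) n (1 + d * u) (m₁ * l) ^ (d * u) := by
        rw [commutatorElement_def, yxy, add_comm 1, pow_succ, mul_inv_cancel_right]
      have hc' : xg (m * k) n (1 + d * u) (m₁ * l) ^ (d * u) ∈ commutator (MG (m * k) n (1 + d * u) (m₁ * l)) := by
        rw [← hc]
        exact commutator_mem_commutator (mem_top _) (mem_top _)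
      have hd : xg (m * k) n (1 + d * u) (m₁ * l) ^ d ∈ zpowers (xg (m * k) n (1 + d * u) (m₁ * l) ^ (d * u)) := by
        have hdv : orderOf (xg (m * k) n (1 + d * u) (m₁ * l) ^ d) ∣ m₁ * k := by
          apply orderOf_dvd_of_pow_eq_one
          rw [← pow_mul]
          apply hxm
          rw [hmd, mul_assoc]
        obtain ⟨j, hj⟩ := exists_pow_eq_self_of_coprime
          (Nat.Coprime.coprime_dvd_right hdv hu)
        rw [pow_mul]
        exact ⟨j, by simpa using hj⟩
      have hpm : xg (m * k) n (1 + d * u) (m₁ * l) ^ m = (xg (m * k) n (1 + d * u) (m₁ * l) ^ d) ^ m₁ := by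
        rw [← pow_mul, ← hmd]
      rw [hpm]
      exact pow_mem ((zpowers_le.mpr hc') hd) _
    · have hcyc : IsCyclic f.ker := by rw [hker]; infer_instance
      have e := zmodCyclicMulEquiv (G := f.ker) inferInstance
      rw [hcard] at e
      exact ⟨e.symm⟩
  · intro Γ _ _ σ hσ
    obtain ⟨hcyc, h1, h2, h3⟩ := upper σ hσ (xg m n r (m₁ * l)) (yg m n r (m₁ * l)) (closure_xy _ _ _ _)
      m n r (m₁ * l) hr (xg_pow _ _ _ _) (yg_pow _ _ _ _) (yxy _ _ _ _)
    apply exists_surj_of_isCyclic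
    have hordx : orderOf (xg m n r (m₁ * l)) = m := by
      apply orderOf_xg hm hn hrn
      rw [hrd, hmd]
      have h3 : (1 + d * r₁) * (m₁ * l) = m₁ * l + d * m₁ * (r₁ * l) := by ring
      rw [h3]
      exact Nat.modEq_of_dvd (by simp)
    have hord : orderOf ⁅yg m n r (m₁ * l), xg m n r (m₁ * l)⁆ = m₁ := by
      have hc : ⁅yg m n r (m₁ * l), xg m n r (m₁ * l)⁆ = xg m n r (m₁ * l) ^ (d * r₁) := by
        have hg' : ∀ g : MG m n r (m₁ * l), g ^ r * g⁻¹ = g ^ (d * r₁) := by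
          intro g
          rw [mul_inv_eq_iff_eq_mul, ← pow_succ]
          congr 1
          rw [hrd, add_comm]
        rw [commutatorElement_def, yxy, hg']
      have hfin := finite_MG (m := m) (n := n) (r := r) (t := m₁ * l) hm hn
      have hgcd : Nat.gcd m (d * r₁) = d := by
        have hr1 : r - 1 = d * r₁ := by rw [hrd, Nat.add_sub_cancel_left]
        rw [← hr1]
        exact hgd
      rw [hc, orderOf_pow, hordx, hgcd, hmd, Nat.mul_div_cancel_left _ hd0]
    rw [hord] at h1 h2 h3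
    rw [hs] at h3
    have h4 : Nat.card σ.ker ∣ l := by
      rw [mul_comm] at h2
      exact Nat.dvd_of_mul_dvd_mul_left hm0 h2
    have h5 : Nat.card σ.ker ∣ h := by
      have h6 := Nat.dvd_gcd h1 h3
      rw [hg, mul_comm] at h6
      exact Nat.dvd_of_mul_dvd_mul_left hm0 h6
    rw [← hk]
    exact Nat.dvd_gcd h4 h5

end Cfsg.Agent.S3967
end
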