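import Cfsg.Statements.S3968
import Cfsg.Agent.S0135
import Cfsg.Agent.S0138
import Cfsg.Agent.S0142
import Cfsg.Agent.S0189
import Cfsg.Agent.CharDeep.DegreeBound
import Cfsg.Agent.PermutationGroups.IrrSum
set_option linter.all false

set_option autoImplicit false
open Cfsg
open scoped commutatorElement

namespace Cfsg.Agent.S3968

/-- value of a character of degree one at a commutator -/
theorem lin_comm {P : Type*} [Group P] {ψ : P → ℂ} (hψ : IsIrrCharacter P ψ) (h1 : ψ 1 = 1) (x y : P) :
    ψ ⁅x, y⁆ = 1 := by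
  obtain ⟨n, ρ, -, rfl⟩ := hψ
  have hn : n = 1 := by
    rw [Representation.char_one, Module.finrank_fin_fun] at h1
    exact_mod_cast h1
  subst hn
  have hcomm : ρ x * ρ y = ρ y * ρ x := by
    have hc : ρ x = (ρ x (fun _ => 1) 0) • (LinearMap.id : (Fin 1 → ℂ) →ₗ[ℂ] (Fin 1 → ℂ)) := by
      apply LinearMap.ext
      intro v
      have hv : v = v 0 • (fun _ => 1 : Fin 1 → ℂ) := by
        ext i
        fin_cases i
        simp
      rw [hv, map_smul, map_smul]
      congr 1
      ext i
      fin_cases i
      simp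
    rw [hc]
    apply LinearMap.ext
    intro v
    simp
  have h2 : ρ ⁅x, y⁆ = 1 := by
    rw [commutatorElement_def, map_mul, map_mul, map_mul, hcomm, mul_assoc (ρ y), ← map_mul,
      mul_inv_cancel, map_one, mul_one, ← map_mul, mul_inv_cancel, map_one]
  show LinearMap.trace ℂ _ (ρ ⁅x, y⁆) = 1
  rw [h2, LinearMap.trace_one, Module.finrank_fin_fun]
  simp

/-- Let `p` be a prime and `G` a finite group with a faithful irreducible complex character of degree `p` (so `G` is an irreducible linear group in `p` variables). If `p ^ 2` divides the order of `G`, then the centre of `G` is nontrivial. -/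
theorem result {G : Type*} [Group G] [Finite G] (p : ℕ) (hp : p.Prime) (χ : Cfsg.IrrCharacter G) (hdeg : χ.1 1 = p) (hfaith : ∀ g : G, χ.1 g = χ.1 1 → g = 1) (hdiv : p ^ 2 ∣ Nat.card G) : Subgroup.center G ≠ ⊥ := by
  classical
  intro hbot
  have : Fact p.Prime := ⟨hp⟩
  obtain ⟨χ, n, ρ, hirr, hρ⟩ := χ
  simp only at hdeg hfaith
  have hn : n = p := by
    rw [← hρ, Representation.char_one, Module.finrank_fin_fun] at hdeg
    exact_mod_cast hdeg
  subst hn
  obtain ⟨P⟩ : Nonempty (Sylow n G) := inferInstance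
  have := hirr
  -- vanishing on elements centralizing `P`
  have hvan : ∀ z : G, (∀ x ∈ P, x * z = z * x) → z ≠ 1 → χ z = 0 := by
    intro z hz hz1
    have hcop : Nat.Coprime (Module.finrank ℂ (Fin n → ℂ)) (Subgroup.centralizer ({z} : Set G)).index := by
      rw [Module.finrank_fin_fun, Nat.Prime.coprime_iff_not_dvd hp]
      intro hdvd
      have hle : (P : Subgroup G) ≤ Subgroup.centralizer ({z} : Set G) := by
        intro x hx
        rw [Subgroup.mem_centralizer_singleton_iff]
        exact hz x hx
      exact P.not_dvd_index (hdvd.trans (Subgroup.index_dvd_of_le hle))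
    rcases Cfsg.Agent.S0142.result ρ z hcop with h | h
    · rw [← hρ]; exact h
    · exfalso
      rw [Cfsg.Agent.S0138.result] at h
      obtain ⟨ω, hω⟩ := h
      apply hz1
      have hc : z ∈ Subgroup.center G := by
        rw [Subgroup.mem_center_iff]
        intro g
        have h2 : ρ ⁅g, z⁆ = 1 := by
          have hcomm : ρ g * ρ z = ρ z * ρ g := by
            rw [hω]; ext; simp
          rw [commutatorElement_def, map_mul, map_mul, map_mul, hcomm, mul_assoc (ρ z), ← map_mul,
            mul_inv_cancel, map_one, mul_one, ← map_mul, mul_inv_cancel, map_one]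
        have h3 : ⁅g, z⁆ = 1 := by
          apply hfaith
          rw [← hρ]
          show LinearMap.trace ℂ _ (ρ ⁅g, z⁆) = LinearMap.trace ℂ _ (ρ 1)
          rw [h2, MonoidHom.map_one ρ]
        exact commutatorElement_eq_one_iff_mul_comm.mp h3
      rw [hbot] at hc
      exact hc
  have hcharP : IsCharacter P (fun x : P => χ x) := by
    refine ⟨n, ρ.comp (P : Subgroup G).subtype, ?_⟩
    rw [← hρ]
    rfl
  obtain ⟨m, hm⟩ := Cfsg.Agent.PermutationGroups.IrrSum.exists_sum_irr hcharP
  have hm' : ∀ x : P, χ x = m.sum (fun ψ k => k • (ψ : P → ℂ) x) := by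
    intro x
    have h1 := congrFun hm x
    rw [Finsupp.sum, Finset.sum_apply] at h1
    exact h1
  have hPcard : n ^ 2 ∣ Nat.card P := by
    exact P.pow_dvd_card_of_pow_dvd_card hdiv
  by_cases hlin : ∀ ψ ∈ m.support, (ψ : P → ℂ) 1 = 1
  · -- `P` is abelian
    have hab : ∀ x ∈ P, ∀ y ∈ P, x * y = y * x := by
      intro x hx y hy
      have h1 : ⁅x, y⁆ = 1 := by
        apply hfaith
        have h2 := hm' ⁅(⟨x, hx⟩ : P), (⟨y, hy⟩ : P)⁆
        have h3 := hm' 1
        have h4 : χ ⁅x, y⁆ = χ (1 : G) := by
          refine h2.trans (Eq.trans ?_ h3.symm)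
          apply Finsupp.sum_congr
          intro ψ hψ
          rw [lin_comm ψ.2 (hlin ψ hψ), hlin ψ hψ]
        exact h4
      exact commutatorElement_eq_one_iff_mul_comm.mp h1
    obtain ⟨k, hk⟩ := Cfsg.Agent.S0189.result n P χ ⟨n, ρ, hρ⟩ (fun g hg hg1 => hvan g (fun x hx => hab x hx g hg) hg1)
    rw [hdeg] at hk
    have hk' : n = Nat.card P * k := by exact_mod_cast hk
    have h5 : n ^ 2 ∣ n := by
      conv_rhs => rw [hk']
      exact hPcard.mul_right k
    have := Nat.le_of_dvd hp.pos h5
    have := hp.two_le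
    nlinarith
  · push Not at hlin
    obtain ⟨ψ, hψm, hψ1⟩ := hlin
    obtain ⟨d, τ, hτirr, hτ⟩ := ψ.2
    have := hτirr
    have hd1 : (ψ : P → ℂ) 1 = d := by
      rw [← hτ, Representation.char_one, Module.finrank_fin_fun]
    have hdvd : d ∣ Nat.card P := by
      have := Cfsg.Agent.S0135.result τ
      rwa [Module.finrank_fin_fun] at this
    obtain ⟨e, he⟩ := P.isPGroup'.exists_card_eq
    rw [he] at hdvd
    obtain ⟨j, -, hj⟩ := (Nat.dvd_prime_pow hp).mp hdvd
    have hj0 : j ≠ 0 := by
      rintro rfl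
      apply hψ1
      rw [hd1, hj, pow_zero, Nat.cast_one]
    have hnd : n ∣ d := by rw [hj]; exact dvd_pow_self n hj0
    -- degrees of the constituents
    have hdegs : ∀ φ : IrrCharacter P, ∃ f : ℕ, (φ : P → ℂ) 1 = f ∧ 0 < f := by
      intro φ
      obtain ⟨f, θ, hθ, hθφ⟩ := φ.2
      refine ⟨f, ?_, ?_⟩
      · rw [← hθφ, Representation.char_one, Module.finrank_fin_fun]
      · have := Cfsg.Agent.Characters.Central.finrank_pos_of_irr θ hθ
        rwa [Module.finrank_fin_fun] at this
    choose f hf hf0 using hdegs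
    have hfψ : f ψ = d := by
      have := hf ψ
      rw [hd1] at this
      exact_mod_cast this.symm
    have hsum : n = ∑ φ ∈ m.support, m φ * f φ := by
      have h1 := hm' 1
      rw [Finsupp.sum] at h1
      have h2 : (χ : G → ℂ) ((1 : P) : G) = n := hdeg
      rw [h2] at h1
      have h3 : ((n : ℕ) : ℂ) = ((∑ φ ∈ m.support, m φ * f φ : ℕ) : ℂ) := by
        rw [h1]
        push_cast
        apply Finset.sum_congr rfl
        intro φ _
        rw [hf φ, nsmul_eq_mul]
      exact_mod_cast h3
    have hmψ : 0 < m ψ := Nat.pos_of_ne_zero (Finsupp.mem_support_iff.mp hψm)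
    have hnd' : n ≤ d := Nat.le_of_dvd (hfψ ▸ hf0 ψ) hnd
    have hle : n ≤ m ψ * f ψ := by
      rw [hfψ]
      exact hnd'.trans (Nat.le_mul_of_pos_left _ hmψ)
    have hsplit : n = m ψ * f ψ + ∑ φ ∈ m.support.erase ψ, m φ * f φ := by
      rw [Finset.add_sum_erase m.support (fun φ => m φ * f φ) hψm]
      exact hsum
    have hzero : ∑ φ ∈ m.support.erase ψ, m φ * f φ = 0 := by omega
    have hmf : m ψ * d = n := by rw [← hfψ]; omega
    have hm1 : m ψ = 1 := by
      have h2 := hp.two_le
      by_contra hne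
      have h3 : 2 ≤ m ψ := by omega
      nlinarith
    have herase : m.support.erase ψ = ∅ := by
      rw [Finset.eq_empty_iff_forall_notMem]
      intro φ hφ
      have h1 := (Finset.sum_eq_zero_iff.mp hzero) φ hφ
      have h2 := Finsupp.mem_support_iff.mp (Finset.mem_of_mem_erase hφ)
      rcases Nat.mul_eq_zero.mp h1 with h | h
      · exact h2 h
      · exact (hf0 φ).ne' h
    have hres : ∀ x : P, χ x = (ψ : P → ℂ) x := by
      intro x
      rw [hm' x, Finsupp.sum, ← Finset.add_sum_erase _ _ hψm, herase, Finset.sum_empty, add_zero,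
        hm1, one_smul]
    -- a nontrivial central element of `P`
    have : Nontrivial P := by
      rw [← Finite.one_lt_card_iff_nontrivial]
      have h1 := Nat.le_of_dvd Nat.card_pos hPcard
      have h2 := hp.two_le
      nlinarith
    have := P.isPGroup'.center_nontrivial
    obtain ⟨⟨z, hz⟩, hz1⟩ := exists_ne (1 : Subgroup.center P)
    have hFP : Fintype P := Fintype.ofFinite _
    obtain ⟨w, hw, hw2⟩ := Cfsg.Agent.CharDeep.DegreeBound.exists_omega ψ.2 hz
    have h1 := hw2 1
    rw [one_mul, ← hres, hd1] at h1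
    have h2 : χ (z : G) = 0 := by
      apply hvan
      · intro x hx
        have h3 := Subgroup.mem_center_iff.mp hz ⟨x, hx⟩
        exact congrArg Subtype.val h3
      · intro h
        apply hz1
        apply Subtype.ext
        apply Subtype.ext
        exact h
    rw [h2] at h1
    have h3 : ‖w * (d : ℂ)‖ = 0 := by rw [← h1, norm_zero]
    rw [norm_mul, hw, one_mul, Complex.norm_natCast] at h3
    have h4 : d = 0 := by exact_mod_cast h3
    have := hp.two_le
    omega

end Cfsg.Agent.S3968
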