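import Cfsg.Statements.S3971
import Cfsg.Agent.H490.AutRank
import Cfsg.Agent.Transfer.FrobeniusFusion
set_option linter.all false

set_option autoImplicit false
open Cfsg

namespace Cfsg.Agent.S3971

/-- A subgroup `Q` of `P`, where `⟨x⟩ ≤ P` has index at most two, is generated by two elements. -/
theorem exists_generators {G : Type*} [Group G] [Finite G] (P : Subgroup G) (x : G)
    (hx : x ∈ P) (hidx : (Subgroup.zpowers x).relIndex P ≤ 2) (Q : Subgroup G) (hQ : Q ≤ P) :
    ∃ T : Finset Q, Subgroup.closure (T : Set Q) = ⊤ ∧ T.card ≤ 2 := by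
  classical
  -- the cyclic part
  have hcyc : IsCyclic ((Subgroup.zpowers x).subgroupOf Q) := by
    let f : (Subgroup.zpowers x).subgroupOf Q →* Subgroup.zpowers x :=
      { toFun := fun y => ⟨((y : Q) : G), y.2⟩
        map_one' := rfl
        map_mul' := fun a b => rfl }
    refine isCyclic_of_injective f ?_
    intro a b hab
    have h1 : (((a : Q) : G)) = ((b : Q) : G) := congrArg (fun z : Subgroup.zpowers x => (z : G)) hab
    exact Subtype.ext (Subtype.ext h1)
  obtain ⟨c, hc⟩ := hcyc.exists_generator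
  have hcmem : ∀ y : Q, (y : G) ∈ Subgroup.zpowers x → y ∈ Subgroup.zpowers (c : Q) := by
    intro y hy
    obtain ⟨k, hk⟩ := hc ⟨y, hy⟩
    exact ⟨k, congrArg Subtype.val hk⟩
  by_cases hall : ∀ y : Q, (y : G) ∈ Subgroup.zpowers x
  · refine ⟨{(c : Q)}, ?_, by simp⟩
    rw [Finset.coe_singleton, ← Subgroup.zpowers_eq_closure, Subgroup.eq_top_iff']
    exact fun y => hcmem y (hall y)
  · push Not at hall
    obtain ⟨y, hy⟩ := hall
    refine ⟨{(c : Q), y}, ?_, Finset.card_le_two⟩
    rw [Subgroup.eq_top_iff']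
    have hcc : (c : Q) ∈ Subgroup.closure ((({(c : Q), y} : Finset Q)) : Set Q) :=
      Subgroup.subset_closure (by simp)
    have hyc : y ∈ Subgroup.closure ((({(c : Q), y} : Finset Q)) : Set Q) :=
      Subgroup.subset_closure (by simp)
    have hzc : ∀ z : Q, (z : G) ∈ Subgroup.zpowers x →
        z ∈ Subgroup.closure ((({(c : Q), y} : Finset Q)) : Set Q) := by
      intro z hz
      exact (Subgroup.zpowers_le.mpr hcc) (hcmem z hz)
    have h2 : ((Subgroup.zpowers x).subgroupOf P).index = 2 := by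
      have h0 : ((Subgroup.zpowers x).subgroupOf P).index ≤ 2 := hidx
      have h1 : ((Subgroup.zpowers x).subgroupOf P).index ≠ 0 := Subgroup.index_ne_zero_of_finite
      have h3 : ((Subgroup.zpowers x).subgroupOf P).index ≠ 1 := by
        intro h4
        rw [Subgroup.index_eq_one, Subgroup.subgroupOf_eq_top] at h4
        exact hy (h4 (hQ y.2))
      omega
    intro z
    by_cases hz : (z : G) ∈ Subgroup.zpowers x
    · exact hzc z hz
    · have h5 : y⁻¹ * z ∈ Subgroup.closure ((({(c : Q), y} : Finset Q)) : Set Q) := by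
        apply hzc
        have h6 := (Subgroup.mul_mem_iff_of_index_two h2 (a := (⟨(y : G)⁻¹, P.inv_mem (hQ y.2)⟩ : P))
          (b := ⟨z, hQ z.2⟩)).mpr (by
            rw [Subgroup.mem_subgroupOf, Subgroup.mem_subgroupOf]
            change (y : G)⁻¹ ∈ Subgroup.zpowers x ↔ (z : G) ∈ Subgroup.zpowers x
            rw [Subgroup.inv_mem_iff]
            exact ⟨fun h => absurd h hy, fun h => absurd h hz⟩)
        exact h6
      have h7 : z = y * (y⁻¹ * z) := by group
      rw [h7]
      exact Subgroup.mul_mem _ hyc h5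

/-- Let `G` be a finite group of order `2 ^ a * n` with `n` odd and not divisible by `3`, and suppose `G` has an element of order `2 ^ (a - 1)` (so a Sylow `2`-subgroup has a cyclic subgroup of index at most `2`). Then `G` has a normal subgroup of order `n`. -/
theorem result {G : Type*} [Group G] [Finite G] (a n : ℕ) (hG : Nat.card G = 2 ^ a * n) (hn : Odd n) (h3 : ¬ 3 ∣ n) (hx : ∃ x : G, orderOf x = 2 ^ (a - 1)) : ∃ N : Subgroup G, N.Normal ∧ Nat.card N = n := by
  haveI : Fact (Nat.Prime 2) := ⟨Nat.prime_two⟩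
  obtain ⟨x, hx⟩ := hx
  have hn0 : n ≠ 0 := by
    rintro rfl
    exact (by decide : ¬ Odd 0) hn
  have h2n : ¬ 2 ∣ n := by
    rw [← even_iff_two_dvd]; exact Nat.not_even_iff_odd.mpr hn
  have hxp : IsPGroup 2 (Subgroup.zpowers x) := by
    rw [IsPGroup.iff_card]
    exact ⟨a - 1, by rw [Nat.card_zpowers, hx]⟩
  obtain ⟨P, hP⟩ := hxp.exists_le_sylow
  have hPc : Nat.card P = 2 ^ a := by
    rw [P.card_eq_multiplicity, hG, Nat.factorization_mul (by positivity) hn0]
    simp [Nat.Prime.factorization_pow Nat.prime_two, Nat.factorization_eq_zero_of_not_dvd h2n]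
  have hidx : (Subgroup.zpowers x).relIndex P ≤ 2 := by
    have h1 : Nat.card ((Subgroup.zpowers x).subgroupOf P) * ((Subgroup.zpowers x).subgroupOf P).index
        = Nat.card P := Subgroup.card_mul_index _
    have h2 : Nat.card ((Subgroup.zpowers x).subgroupOf P) = 2 ^ (a - 1) := by
      rw [Nat.card_congr (Subgroup.subgroupOfEquivOfLe hP).toEquiv, Nat.card_zpowers, hx]
    rw [h2, hPc] at h1
    change ((Subgroup.zpowers x).subgroupOf P).index ≤ 2
    rcases Nat.eq_zero_or_pos a with h0 | h0
    · subst h0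
      simp only [Nat.zero_sub, pow_zero, one_mul] at h1
      omega
    · have h3 : (2 : ℕ) ^ a = 2 ^ (a - 1) * 2 := by rw [← pow_succ]; congr 1; omega
      rw [h3] at h1
      exact (Nat.eq_of_mul_eq_mul_left (by positivity) h1).le
  have hloc : Cfsg.Agent.Transfer.FrobeniusFusion.LocalCondition 2 G := by
    refine Cfsg.Agent.Transfer.FrobeniusFusion.localCondition_of_sylow P ?_
    intro Q hQ g hg hcop
    by_contra hgC
    obtain ⟨T, hT, hT2⟩ := exists_generators (P : Subgroup G) x (hP (Subgroup.mem_zpowers x)) hidx Q hQ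
    obtain ⟨r, hr, hrg, j, hj1, hj2, hj⟩ := Cfsg.Agent.H490.AutRank.exists_prime_of_normalizer Q
      (P.2.to_le hQ) T hT hT2 g hg hcop hgC
    have hrG : r ∣ Nat.card G := hrg.trans (orderOf_dvd_natCard g)
    interval_cases j
    · exact hr.one_lt.ne' (Nat.dvd_one.mp (by simpa using hj))
    · have h4 : r ∣ 3 := by simpa using hj
      have h5 : r = 3 := (Nat.prime_dvd_prime_iff_eq hr Nat.prime_three).mp h4
      rw [h5, hG] at hrG
      rcases (Nat.Prime.dvd_mul Nat.prime_three).mp hrG with h6 | h6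
      · have := Nat.prime_three.dvd_of_dvd_pow h6
        omega
      · exact h3 h6
  obtain ⟨N, hN, hc⟩ := Cfsg.Agent.Transfer.NormalPComplement.exists_of_sylow
    (Cfsg.Agent.Transfer.FrobeniusFusion.hasNormalPComplement_iff_localCondition.mpr hloc) P
  refine ⟨N, hN, ?_⟩
  have h1 := hc.card_mul_card
  rw [hPc, hG, mul_comm] at h1
  exact Nat.eq_of_mul_eq_mul_left (by positivity) h1

end Cfsg.Agent.S3971
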