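import Cfsg.Statements.S3977
import Cfsg.Agent.Solvable.UniqueOrderP
import Cfsg.Agent.OddOrderLocal.CyclicSub
set_option linter.all false

set_option autoImplicit false
open Cfsg

namespace Cfsg.Agent.S3977

/-- A subgroup of order `p ^ a`, `a ≤ s`, lies in the only subgroup of order `p ^ s`. -/
theorem le_of_unique {G : Type*} [Group G] [Finite G] (p m s : ℕ) (hp : p.Prime)
    (hG : Nat.card G = p ^ m) (hsm : s < m)
    (huniq : ∀ H K : Subgroup G, Nat.card H = p ^ s → Nat.card K = p ^ s → H = K)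
    (H : Subgroup G) (hH : Nat.card H = p ^ s) (K : Subgroup G) (a : ℕ) (ha : a ≤ s)
    (hK : Nat.card K = p ^ a) : K ≤ H := by
  have : Fact p.Prime := ⟨hp⟩
  obtain ⟨L, hL, hKL⟩ := Sylow.exists_subgroup_card_pow_prime_le p
    (by rw [hG]; exact pow_dvd_pow p hsm.le) K hK ha
  rw [huniq H L hH hL]
  exact hKL

/-- Let `p` be a prime and `G` a group of order `p ^ m` which has exactly one subgroup of order `p ^ s`, where `1 ≤ s < m`, and where `s ≥ 2` if `p = 2`. Then `G` is cyclic. (For `p = 2` and `s = 1` the generalized quaternion groups also occur; that case is the classical criterion for a unique involution.) -/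
theorem result {G : Type*} [Group G] [Finite G] (p m s : ℕ) (hp : p.Prime) (hG : Nat.card G = p ^ m) (hs : 1 ≤ s) (hsm : s < m) (h2 : p ≠ 2 ∨ 2 ≤ s) (huniq : ∀ H K : Subgroup G, Nat.card H = p ^ s → Nat.card K = p ^ s → H = K) : IsCyclic G := by
  have : Fact p.Prime := ⟨hp⟩
  have hle := le_of_unique p m s hp hG hsm huniq
  obtain ⟨H, hH⟩ := Sylow.exists_subgroup_card_pow_prime p
    (show p ^ s ∣ Nat.card G by rw [hG]; exact pow_dvd_pow p hsm.le)
  obtain ⟨K, hK, hHK⟩ := Sylow.exists_subgroup_card_pow_prime_le p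
    (show p ^ (s + 1) ∣ Nat.card G by rw [hG]; exact pow_dvd_pow p hsm) H hH (Nat.le_succ s)
  -- `H` is cyclic
  have hne : ∃ x ∈ K, x ∉ H := by
    by_contra hcon
    push Not at hcon
    have h1 : K ≤ H := hcon
    have h3 := Subgroup.card_le_of_le h1
    rw [hK, hH, pow_succ] at h3
    have h4 : 0 < p ^ s := pow_pos hp.pos s
    have h5 := hp.two_le
    nlinarith
  obtain ⟨x, hxK, hxH⟩ := hne
  have hcyc : ∀ a ∈ H, a ∈ Subgroup.zpowers x := by
    have h1 : Subgroup.zpowers x ≤ K := (Subgroup.zpowers_le).2 hxK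
    have h3 : Nat.card (Subgroup.zpowers x) ∣ p ^ (s + 1) := hK ▸ Subgroup.card_dvd_of_le h1
    obtain ⟨j, hj, hjc⟩ := (Nat.dvd_prime_pow hp).1 h3
    rcases Nat.lt_or_ge s j with hsj | hsj
    · have h4 : j = s + 1 := by omega
      have h5 : Subgroup.zpowers x = K := Subgroup.eq_of_le_of_card_ge h1
        (by rw [hK, hjc, h4])
      rw [h5]
      exact fun a ha => hHK ha
    · exact absurd (hle H hH (Subgroup.zpowers x) j hsj hjc (Subgroup.mem_zpowers x)) hxH
  have hcomm : ∀ a ∈ H, ∀ b ∈ H, a * b = b * a := by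
    intro a ha b hb
    obtain ⟨i, rfl⟩ := Subgroup.mem_zpowers_iff.1 (hcyc a ha)
    obtain ⟨j, rfl⟩ := Subgroup.mem_zpowers_iff.1 (hcyc b hb)
    rw [← zpow_add, ← zpow_add, add_comm]
  have hPG : IsPGroup p G := IsPGroup.of_card hG
  have huP : ∀ A B : Subgroup G, Nat.card A = p → Nat.card B = p → A = B := by
    intro A B hA hB
    have hA' : A ≤ Subgroup.zpowers x := fun a ha =>
      hcyc a (hle H hH A 1 hs (by rw [pow_one]; exact hA) ha)
    have hB' : B ≤ Subgroup.zpowers x := fun a ha =>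
      hcyc a (hle H hH B 1 hs (by rw [pow_one]; exact hB) ha)
    exact Cfsg.Agent.OddOrderLocal.CyclicSub.eq_of_card_eq_of_le_cyclic
      (Z := Subgroup.zpowers x) inferInstance hA' hB' (hA.trans hB.symm)
  rcases Cfsg.Agent.Solvable.UniqueOrderP.cyclic_or_quaternion hPG
    (Cfsg.Agent.Solvable.UniqueOrderP.uniqueP_of_subgroup p huP) with h | ⟨rfl, k, hk, ⟨e⟩⟩
  · exact h
  · exfalso
    have hs2 : 2 ≤ s := h2.resolve_left (fun h => h rfl)
    have hmem : ∀ i, e.symm (QuaternionGroup.xa i) ∈ H := by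
      intro i
      have h3 : orderOf (e.symm (QuaternionGroup.xa i)) = 4 := by
        rw [MulEquiv.orderOf_eq]
        exact QuaternionGroup.orderOf_xa i
      exact hle H hH (Subgroup.zpowers (e.symm (QuaternionGroup.xa i))) 2 hs2
        (by rw [Nat.card_zpowers, h3]; rfl) (Subgroup.mem_zpowers _)
    have h3 := hcomm _ (hmem 0) _ (hmem 1)
    rw [← map_mul, ← map_mul] at h3
    have h4 := e.symm.injective h3
    rw [QuaternionGroup.xa_mul_xa, QuaternionGroup.xa_mul_xa] at h4
    injection h4 with h5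
    have h6 : ((2 : ℕ) : ZMod (2 * 2 ^ k)) = 0 := by
      have : (2 : ZMod (2 * 2 ^ k)) = (((2 ^ k : ℕ) : ZMod (2 * 2 ^ k)) + 1 - 0) -
        (((2 ^ k : ℕ) : ZMod (2 * 2 ^ k)) + 0 - 1) := by ring
      rw [Nat.cast_ofNat, this, h5, sub_self]
    rw [ZMod.natCast_eq_zero_iff] at h6
    have h7 := Nat.le_of_dvd (by norm_num) h6
    have h8 : 2 ≤ 2 ^ k := by
      calc 2 = 2 ^ 1 := rfl
        _ ≤ 2 ^ k := Nat.pow_le_pow_right (by norm_num) (Nat.one_le_iff_ne_zero.2 hk)
    omega

end Cfsg.Agent.S3977
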