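import Cfsg.Statements.S3979
import Mathlib.GroupTheory.SpecificGroups.Cyclic
import Mathlib.GroupTheory.Abelianization.Defs
set_option linter.all false

set_option autoImplicit false
open Cfsg

namespace Cfsg.Agent.S3979

/-- A finite cyclic group has trivial Schur multiplier: every finite stem extension of it is an isomorphism, said through `HasCyclicSchurMultiplier G 1`. -/
theorem result {G : Type*} [Group G] [Finite G] [IsCyclic G] : Cfsg.HasCyclicSchurMultiplier G 1 := by
  have key : ∀ (Γ : Type _) [Group Γ] (σ : Γ →* G), IsStemExtension σ → σ.ker = ⊥ := by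
    intro Γ _ σ ⟨_, hcen, hcom⟩
    have hc : ∀ a b : Γ, a * b = b * a :=
      fun a b => (MonoidHom.isMulCommutative_of_isCyclic_of_ker_le_center σ hcen).is_comm.comm a b
    have : commutator Γ = ⊥ := by
      rw [commutator_def, Subgroup.commutator_eq_bot_iff_le_centralizer]
      intro x _
      rw [Subgroup.mem_centralizer_iff]
      intro y _
      exact hc y x
    rw [this] at hcom
    exact le_bot_iff.mp hcom
  refine ⟨⟨G, inferInstance, inferInstance, MonoidHom.id G, ⟨Function.surjective_id, ?_, ?_⟩, ?_⟩, ?_⟩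
  · rw [MonoidHom.ker_id]; exact bot_le
  · rw [MonoidHom.ker_id]; exact bot_le
  · rw [MonoidHom.ker_id]
    haveI : Subsingleton (Multiplicative (ZMod 1)) := by
      change Subsingleton (ZMod 1); infer_instance
    haveI : Unique (Multiplicative (ZMod 1)) := ⟨⟨1⟩, fun a => Subsingleton.elim _ _⟩
    haveI : Unique (⊥ : Subgroup G) := inferInstance
    exact ⟨MulEquiv.ofUnique⟩
  · intro Γ _ _ σ hσ
    refine ⟨1, ?_⟩
    intro x
    refine ⟨1, ?_⟩
    have h1 : (x : Γ) ∈ (⊥ : Subgroup Γ) := key Γ σ hσ ▸ x.2
    apply Subtype.ext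
    simpa using (Subgroup.mem_bot.mp h1).symm

end Cfsg.Agent.S3979
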