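import Cfsg.Agent.H487.SchurMult
import Mathlib.GroupTheory.NoncommCoprod
import Cfsg.Statements.S3980
set_option linter.all false

-- part: H492/SchurProd
section
/-!
# The Schur multiplier of a direct product of groups with coprime abelianizations
-/

set_option autoImplicit false

universe u v w

namespace Cfsg.Agent.H492

open Function
open scoped commutatorElement IsMulCommutative

/-- A homomorphism into an abelian group that factors through `σ : X → Q` has exponent dividing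
`|Q^ab|`. -/
theorem pow_card_abelianization {X : Type u} {Q : Type v} {C : Type w} [Group X] [Group Q]
    [CommGroup C] (σ : X →* Q) (hσ : Surjective σ) (f : X →* C) (hf : σ.ker ≤ f.ker) (x : X) :
    f x ^ Nat.card (Abelianization Q) = 1 := by
  let f' : Q →* C := σ.liftOfSurjective hσ ⟨f, hf⟩
  have hf' : ∀ x, f' (σ x) = f x := fun x => by
    change σ.liftOfSurjective hσ ⟨f, hf⟩ (σ x) = f x
    simp
  have h1 : f x = Abelianization.lift f' (Abelianization.of (σ x)) := by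
    rw [Abelianization.lift_apply_of, hf']
  rw [h1, ← map_pow, pow_card_eq_one', map_one]

/-- Commutators with a fixed element, when they are all central. -/
def commHom {Γ : Type u} [Group Γ] (X : Subgroup Γ) (b : Γ)
    (h : ∀ a ∈ X, ⁅a, b⁆ ∈ Subgroup.center Γ) : X →* Subgroup.center Γ where
  toFun a := ⟨⁅(a : Γ), b⁆, h a a.2⟩
  map_one' := by
    apply Subtype.ext
    change ⁅(1 : Γ), b⁆ = 1
    exact commutatorElement_one_left b
  map_mul' a a' := by
    apply Subtype.ext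
    change ⁅(a : Γ) * a', b⁆ = ⁅(a : Γ), b⁆ * ⁅(a' : Γ), b⁆
    have h1 := Subgroup.mem_center_iff.1 (h a' a'.2)
    calc ⁅(a : Γ) * a', b⁆ = (a * ⁅(a' : Γ), b⁆) * (a : Γ)⁻¹ * ⁅(a : Γ), b⁆ := by
          simp only [commutatorElement_def]; group
      _ = (⁅(a' : Γ), b⁆ * a) * (a : Γ)⁻¹ * ⁅(a : Γ), b⁆ := by rw [h1]
      _ = ⁅(a' : Γ), b⁆ * ⁅(a : Γ), b⁆ := by group
      _ = ⁅(a : Γ), b⁆ * ⁅(a' : Γ), b⁆ := by rw [h1]

section

variable {Q₁ : Type u} {Q₂ : Type v} [Group Q₁] [Group Q₂] {Γ : Type w} [Group Γ]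
  (σ : Γ →* Q₁ × Q₂)

/-- The preimage of the first factor. -/
def pre₁ : Subgroup Γ := ((MonoidHom.snd Q₁ Q₂).comp σ).ker

/-- The preimage of the second factor. -/
def pre₂ : Subgroup Γ := ((MonoidHom.fst Q₁ Q₂).comp σ).ker

/-- The projection to the first factor. -/
def proj₁ : pre₁ σ →* Q₁ := ((MonoidHom.fst Q₁ Q₂).comp σ).comp (pre₁ σ).subtype

/-- The projection to the second factor. -/
def proj₂ : pre₂ σ →* Q₂ := ((MonoidHom.snd Q₁ Q₂).comp σ).comp (pre₂ σ).subtype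

variable {σ}

theorem mem_pre₁ {x : Γ} : x ∈ pre₁ σ ↔ (σ x).2 = 1 := Iff.rfl

theorem mem_pre₂ {x : Γ} : x ∈ pre₂ σ ↔ (σ x).1 = 1 := Iff.rfl

theorem proj₁_surjective (hσ : Surjective σ) : Surjective (proj₁ σ) := by
  intro q
  obtain ⟨x, hx⟩ := hσ (q, 1)
  exact ⟨⟨x, by rw [mem_pre₁, hx]⟩, by
    change (σ x).1 = q
    rw [hx]⟩

theorem proj₂_surjective (hσ : Surjective σ) : Surjective (proj₂ σ) := by
  intro q
  obtain ⟨x, hx⟩ := hσ (1, q)
  exact ⟨⟨x, by rw [mem_pre₂, hx]⟩, by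
    change (σ x).2 = q
    rw [hx]⟩

theorem mem_ker_proj₁ {x : pre₁ σ} : x ∈ (proj₁ σ).ker ↔ (x : Γ) ∈ σ.ker := by
  rw [MonoidHom.mem_ker, MonoidHom.mem_ker]
  constructor
  · intro h
    exact Prod.ext h (mem_pre₁.1 x.2)
  · intro h
    exact congrArg Prod.fst h

theorem mem_ker_proj₂ {x : pre₂ σ} : x ∈ (proj₂ σ).ker ↔ (x : Γ) ∈ σ.ker := by
  rw [MonoidHom.mem_ker, MonoidHom.mem_ker]
  constructor
  · intro h
    exact Prod.ext (mem_pre₂.1 x.2) h
  · intro h
    exact congrArg Prod.snd h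

theorem central_proj₁ (hc : σ.ker ≤ Subgroup.center Γ) :
    (proj₁ σ).ker ≤ Subgroup.center (pre₁ σ) := by
  intro x hx
  rw [Subgroup.mem_center_iff]
  intro y
  exact Subtype.ext (Subgroup.mem_center_iff.1 (hc (mem_ker_proj₁.1 hx)) y)

theorem central_proj₂ (hc : σ.ker ≤ Subgroup.center Γ) :
    (proj₂ σ).ker ≤ Subgroup.center (pre₂ σ) := by
  intro x hx
  rw [Subgroup.mem_center_iff]
  intro y
  exact Subtype.ext (Subgroup.mem_center_iff.1 (hc (mem_ker_proj₂.1 hx)) y)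

theorem exists_mul (hσ : Surjective σ) (x : Γ) : ∃ a ∈ pre₁ σ, ∃ b ∈ pre₂ σ, x = a * b := by
  obtain ⟨a, ha⟩ := hσ ((σ x).1, 1)
  refine ⟨a, by rw [mem_pre₁, ha], a⁻¹ * x, ?_, by group⟩
  rw [mem_pre₂, map_mul, map_inv, ha]
  simp

/-- The two preimages commute if the abelianizations have coprime orders. -/
theorem comm_of_coprime (hσ : Surjective σ) (hc : σ.ker ≤ Subgroup.center Γ)
    (hcop : Nat.Coprime (Nat.card (Abelianization Q₁)) (Nat.card (Abelianization Q₂)))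
    {a b : Γ} (ha : a ∈ pre₁ σ) (hb : b ∈ pre₂ σ) : a * b = b * a := by
  have hker : ∀ a ∈ pre₁ σ, ∀ b ∈ pre₂ σ, ⁅a, b⁆ ∈ σ.ker := by
    intro a ha b hb
    rw [mem_pre₁] at ha
    rw [mem_pre₂] at hb
    rw [MonoidHom.mem_ker, map_commutatorElement]
    ext
    · change ⁅(σ a).1, (σ b).1⁆ = 1
      rw [hb, commutatorElement_one_right]
    · change ⁅(σ a).2, (σ b).2⁆ = 1
      rw [ha, commutatorElement_one_left]
  have h1 : ⁅a, b⁆ ^ Nat.card (Abelianization Q₁) = 1 := by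
    have := pow_card_abelianization (C := ↥(Subgroup.center Γ)) (proj₁ σ) (proj₁_surjective hσ)
      (commHom (pre₁ σ) b (fun a ha => hc (hker a ha b hb))) (by
        intro x hx
        rw [MonoidHom.mem_ker]
        apply Subtype.ext
        change ⁅(x : Γ), b⁆ = 1
        rw [commutatorElement_eq_one_iff_mul_comm]
        exact (Subgroup.mem_center_iff.1 (hc (mem_ker_proj₁.1 hx)) b).symm) ⟨a, ha⟩
    exact congrArg Subtype.val this
  have hker' : ∀ b ∈ pre₂ σ, ⁅b, a⁆ ∈ σ.ker := by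
    intro b hb
    rw [← commutatorElement_inv]
    exact σ.ker.inv_mem (hker a ha b hb)
  have h2 : ⁅b, a⁆ ^ Nat.card (Abelianization Q₂) = 1 := by
    have := pow_card_abelianization (C := ↥(Subgroup.center Γ)) (proj₂ σ) (proj₂_surjective hσ)
      (commHom (pre₂ σ) a (fun b hb => hc (hker' b hb))) (by
        intro x hx
        rw [MonoidHom.mem_ker]
        apply Subtype.ext
        change ⁅(x : Γ), a⁆ = 1
        rw [commutatorElement_eq_one_iff_mul_comm]
        exact (Subgroup.mem_center_iff.1 (hc (mem_ker_proj₂.1 hx)) a).symm) ⟨b, hb⟩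
    exact congrArg Subtype.val this
  rw [← commutatorElement_inv, inv_pow, inv_eq_one] at h2
  have h3 : orderOf ⁅a, b⁆ = 1 :=
    Nat.eq_one_of_dvd_coprimes hcop (orderOf_dvd_of_pow_eq_one h1) (orderOf_dvd_of_pow_eq_one h2)
  rw [orderOf_eq_one_iff, commutatorElement_eq_one_iff_mul_comm] at h3
  exact h3

/-- The commutator subgroup is the product of the commutator subgroups of the two preimages. -/
theorem mem_commutator_of_coprime (hσ : Surjective σ)
    (hcomm : ∀ a ∈ pre₁ σ, ∀ b ∈ pre₂ σ, a * b = b * a) {x : Γ} (hx : x ∈ _root_.commutator Γ) :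
    ∃ a ∈ _root_.commutator (pre₁ σ), ∃ b ∈ _root_.commutator (pre₂ σ), x = (a : Γ) * b := by
  let m : _root_.commutator (pre₁ σ) × _root_.commutator (pre₂ σ) →* Γ :=
    MonoidHom.noncommCoprod ((pre₁ σ).subtype.comp (_root_.commutator (pre₁ σ)).subtype)
      ((pre₂ σ).subtype.comp (_root_.commutator (pre₂ σ)).subtype)
      (fun a b => hcomm _ (SetLike.coe_mem _) _ (SetLike.coe_mem _))
  have hle : _root_.commutator Γ ≤ m.range := by
    rw [_root_.commutator_def, Subgroup.commutator_le]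
    intro x _ y _
    obtain ⟨a, ha, b, hb, rfl⟩ := exists_mul hσ x
    obtain ⟨a', ha', b', hb', rfl⟩ := exists_mul hσ y
    refine ⟨⟨⟨⁅⟨a, ha⟩, ⟨a', ha'⟩⁆, Subgroup.commutator_mem_commutator (Subgroup.mem_top _)
      (Subgroup.mem_top _)⟩, ⟨⁅⟨b, hb⟩, ⟨b', hb'⟩⁆, Subgroup.commutator_mem_commutator
      (Subgroup.mem_top _) (Subgroup.mem_top _)⟩⟩, ?_⟩
    change ⁅a, a'⁆ * ⁅b, b'⁆ = ⁅a * b, a' * b'⁆
    have c1 : Commute a b := hcomm a ha b hb
    have c2 : Commute a b' := hcomm a ha b' hb'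
    have c3 : Commute a' b := hcomm a' ha' b hb
    have c4 : Commute a' b' := hcomm a' ha' b' hb'
    simp only [commutatorElement_def]
    have d1 : a * b * (a' * b') = (a * a') * (b * b') := c3.symm.mul_mul_mul_comm a b'
    have d2 : a' * b' * (a * b) = (a' * a) * (b' * b) := c2.symm.mul_mul_mul_comm a' b
    have d3 : Commute (a' * a) (b' * b) :=
      (c4.mul_right c3).mul_left (c2.mul_right c1)
    have d4 : Commute ((a' * a)⁻¹) (b * b') := by
      have : Commute (a' * a) (b * b') := (c3.mul_right c4).mul_left (c1.mul_right c2)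
      exact this.inv_left
    calc a * a' * a⁻¹ * a'⁻¹ * (b * b' * b⁻¹ * b'⁻¹)
        = a * a' * ((a' * a)⁻¹ * (b * b')) * (b' * b)⁻¹ := by group
      _ = a * a' * ((b * b') * (a' * a)⁻¹) * (b' * b)⁻¹ := by rw [d4.eq]
      _ = (a * a') * (b * b') * ((b' * b) * (a' * a))⁻¹ := by group
      _ = (a * a') * (b * b') * ((a' * a) * (b' * b))⁻¹ := by rw [d3.eq]
      _ = (a * b * (a' * b')) * (a' * b' * (a * b))⁻¹ := by rw [d1, d2]
      _ = _ := by group
  obtain ⟨⟨a, b⟩, rfl⟩ := hle hx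
  exact ⟨a, a.2, b, b.2, rfl⟩

end

end Cfsg.Agent.H492
end

-- part: S3980
section
set_option autoImplicit false
universe u v w
open Cfsg Cfsg.Agent.H492 Cfsg.Agent.H487

namespace Cfsg.Agent.S3980

/-- The product of two stem extensions. -/
theorem isStemExtension_prodMap {Q₁ : Type u} {Q₂ : Type v} [Group Q₁] [Group Q₂]
    {Γ₁ : Type u} {Γ₂ : Type v} [Group Γ₁] [Group Γ₂] {σ₁ : Γ₁ →* Q₁} {σ₂ : Γ₂ →* Q₂}
    (h₁ : Cfsg.IsStemExtension σ₁) (h₂ : Cfsg.IsStemExtension σ₂) :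
    Cfsg.IsStemExtension (MonoidHom.prodMap σ₁ σ₂) := by
  refine ⟨h₁.1.prodMap h₂.1, ?_, ?_⟩
  · rw [MonoidHom.ker_prodMap]
    rintro ⟨x, y⟩ ⟨hx, hy⟩
    rw [Subgroup.mem_center_iff]
    rintro ⟨a, b⟩
    exact Prod.ext (Subgroup.mem_center_iff.1 (h₁.2.1 hx) a) (Subgroup.mem_center_iff.1 (h₂.2.1 hy) b)
  · rw [MonoidHom.ker_prodMap, _root_.commutator_def, ← Subgroup.top_prod_top,
      Subgroup.commutator_prod_prod, ← _root_.commutator_def, ← _root_.commutator_def]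
    exact Subgroup.prod_mono h₁.2.2 h₂.2.2

/-- Let `Q₁` and `Q₂` be finite groups whose commutator quotients have coprime orders, with Schur multipliers `A` and `B`. Then the Schur multiplier of `Q₁ × Q₂` is isomorphic to `A × B`. -/
theorem result {Q₁ : Type u} {Q₂ : Type v} [Group Q₁] [Group Q₂] [Finite Q₁] [Finite Q₂] {A B : Type w} [CommGroup A] [CommGroup B] (hA : Cfsg.HasSchurMultiplier Q₁ A) (hB : Cfsg.HasSchurMultiplier Q₂ B) (hcop : Nat.Coprime (Nat.card (Abelianization Q₁)) (Nat.card (Abelianization Q₂))) : Cfsg.HasSchurMultiplier (Q₁ × Q₂) (A × B) := by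
  refine ⟨?_, ?_⟩
  · obtain ⟨⟨Γ₁, _, _, σ₁, hσ₁, ⟨e₁⟩⟩, -⟩ := hA
    obtain ⟨⟨Γ₂, _, _, σ₂, hσ₂, ⟨e₂⟩⟩, -⟩ := hB
    refine ⟨Γ₁ × Γ₂, inferInstance, inferInstance, MonoidHom.prodMap σ₁ σ₂,
      isStemExtension_prodMap hσ₁ hσ₂, ?_⟩
    rw [MonoidHom.ker_prodMap]
    exact ⟨(Subgroup.prodEquiv σ₁.ker σ₂.ker).trans (MulEquiv.prodCongr e₁ e₂)⟩
  · intro Γ _ _ σ hσ
    obtain ⟨f, hf⟩ := HasSchurMultiplier.exists_surj hA (proj₁_surjective hσ.1)
      (central_proj₁ hσ.2.1)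
    obtain ⟨g, hg⟩ := HasSchurMultiplier.exists_surj hB (proj₂_surjective hσ.1)
      (central_proj₂ hσ.2.1)
    have hcomm : ∀ a ∈ pre₁ σ, ∀ b ∈ pre₂ σ, a * b = b * a :=
      fun a ha b hb => comm_of_coprime hσ.1 hσ.2.1 hcop ha hb
    let f' : A →* Γ := (pre₁ σ).subtype.comp ((Mult (proj₁ σ)).subtype.comp f)
    let g' : B →* Γ := (pre₂ σ).subtype.comp ((Mult (proj₂ σ)).subtype.comp g)
    have hf' : ∀ a, f' a ∈ σ.ker := fun a => mem_ker_proj₁.1 (f a).2.1
    have hg' : ∀ b, g' b ∈ σ.ker := fun b => mem_ker_proj₂.1 (g b).2.1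
    let m : A × B →* Γ := MonoidHom.noncommCoprod f' g'
      (fun a b => hcomm _ (SetLike.coe_mem _) _ (SetLike.coe_mem _))
    have hm : ∀ x, m x ∈ σ.ker := fun x => σ.ker.mul_mem (hf' x.1) (hg' x.2)
    refine ⟨m.codRestrict σ.ker hm, ?_⟩
    rintro ⟨z, hz⟩
    obtain ⟨a, ha, b, hb, rfl⟩ := mem_commutator_of_coprime hσ.1 hcomm (hσ.2.2 hz)
    have h1 := hz
    rw [MonoidHom.mem_ker, map_mul] at h1
    have hak : (a : Γ) ∈ σ.ker := by
      rw [MonoidHom.mem_ker]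
      ext
      · have h2 : (σ a).1 * (σ b).1 = 1 := congrArg Prod.fst h1
        rw [mem_pre₂.1 b.2, mul_one] at h2
        exact h2
      · exact mem_pre₁.1 a.2
    have hbk : (b : Γ) ∈ σ.ker := by
      have := σ.ker.mul_mem (σ.ker.inv_mem hak) hz
      simpa using this
    obtain ⟨a', ha'⟩ := hf ⟨a, mem_ker_proj₁.2 hak, ha⟩
    obtain ⟨b', hb'⟩ := hg ⟨b, mem_ker_proj₂.2 hbk, hb⟩
    refine ⟨(a', b'), ?_⟩
    apply Subtype.ext
    change ((f a' : pre₁ σ) : Γ) * ((g b' : pre₂ σ) : Γ) = a * b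
    rw [ha', hb']

end Cfsg.Agent.S3980
end
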