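import Cfsg.Agent.S1475
import Cfsg.Agent.Lib.Cores
import Cfsg.Agent.Solvable.FpfPGroup
import Cfsg.Statements.S3992
set_option linter.all false

-- part: H494/EppoStruct
section
/-!
# Finite groups in which every element has prime power order (Higman)

`exists_simple_min`: an EPPO group without normal `q`-subgroups has a simple normal subgroup contained
in every nontrivial normal subgroup.  `isPGroup_of_solvable_normal`: the solvable radical of a
nonsolvable EPPO group is a `p`-group.
-/

set_option autoImplicit false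
set_option linter.style.haveILetI false

namespace Cfsg.Agent.H494.EppoStruct

open Subgroup Cfsg

variable {G : Type*} [Group G]

/-- An element commuting with an element of prime order `q` is a `q`-element. -/
theorem pow_of_commute [Finite G] (h : ∀ g : G, IsPrimePow (orderOf g) ∨ g = 1) {q : ℕ} (hq : q.Prime)
    {x z : G} (hz : orderOf z = q) (hxz : Commute x z) : ∃ k : ℕ, orderOf x = q ^ k := by
  haveI : Fact q.Prime := ⟨hq⟩
  rcases h x with hx | rfl
  · obtain ⟨r, k, hr, hk, hrk⟩ := hx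
    have hr' : r.Prime := hr.nat_prime
    by_cases hqr : r = q
    · exact ⟨k, by rw [← hrk, hqr]⟩
    · exfalso
      refine Cfsg.Agent.S1475.not_commute h (a := x) (b := z) ?_ ?_ ?_ hxz
      · rintro rfl
        rw [orderOf_one] at hrk
        exact (Nat.one_lt_pow hk.ne' hr'.one_lt).ne' hrk
      · rintro rfl
        rw [orderOf_one] at hz
        exact hq.one_lt.ne hz
      · rw [hz, ← hrk]
        exact Nat.Coprime.pow_left _ ((Nat.coprime_primes hr' hq).mpr hqr)
  · exact ⟨0, by simp⟩

/-- If `N` and `M` commute elementwise and `M ≠ ⊥`, then for some prime `q`, `N` is a `q`-group. -/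
theorem isPGroup_of_commute [Finite G] (h : ∀ g : G, IsPrimePow (orderOf g) ∨ g = 1) (N M : Subgroup G)
    (hM : M ≠ ⊥) (hc : ∀ a ∈ N, ∀ b ∈ M, Commute a b) : ∃ q : ℕ, q.Prime ∧ IsPGroup q N := by
  have h1 : Nat.card M ≠ 1 := by rwa [Ne, Subgroup.card_eq_one]
  obtain ⟨q, hq, hqM⟩ := Nat.exists_prime_and_dvd h1
  haveI : Fact q.Prime := ⟨hq⟩
  obtain ⟨z, hz⟩ := exists_prime_orderOf_dvd_card' q hqM
  refine ⟨q, hq, ?_⟩
  rw [IsPGroup.iff_orderOf]
  rintro ⟨a, ha⟩
  rw [Subgroup.orderOf_mk]
  exact pow_of_commute h hq (by rw [orderOf_coe, hz]) (hc a ha z z.2)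

theorem exists_min [Finite G] (h : ∀ g : G, IsPrimePow (orderOf g) ∨ g = 1) [Nontrivial G]
    (hcore : ∀ q : ℕ, q.Prime → pCore q G = ⊥) :
    ∃ M : Subgroup G, M.Normal ∧ M ≠ ⊥ ∧ ∀ N : Subgroup G, N.Normal → N ≠ ⊥ → M ≤ N := by
  classical
  have hex : ∃ n, ∃ M : Subgroup G, M.Normal ∧ M ≠ ⊥ ∧ Nat.card M = n :=
    ⟨_, ⊤, inferInstance, top_ne_bot, rfl⟩
  obtain ⟨M, hMn, hM, hcard⟩ := Nat.find_spec hex
  refine ⟨M, hMn, hM, fun N hN hN1 => ?_⟩
  haveI := hMn
  haveI := hN
  by_cases hb : M ⊓ N = ⊥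
  · exfalso
    have hc : ∀ a ∈ M, ∀ b ∈ N, Commute a b :=
      fun a ha b hb' => commute_of_normal_of_disjoint M N hMn hN (disjoint_iff.mpr hb) a b ha hb'
    obtain ⟨q, hq, hMq⟩ := isPGroup_of_commute h M N hN1 hc
    have := Cfsg.Agent.Lib.Cores.le_pCore hMn hMq
    rw [hcore q hq, le_bot_iff] at this
    exact hM this
  · have h1 : Nat.find hex ≤ Nat.card (M ⊓ N : Subgroup G) :=
      Nat.find_min' hex ⟨M ⊓ N, inferInstance, hb, rfl⟩
    have h2 : M ⊓ N = M := by
      apply Subgroup.eq_of_le_of_card_ge inf_le_left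
      rw [hcard]; exact h1
    exact inf_eq_left.mp h2

theorem exists_simple_min [Finite G] (h : ∀ g : G, IsPrimePow (orderOf g) ∨ g = 1) [Nontrivial G]
    (hcore : ∀ q : ℕ, q.Prime → pCore q G = ⊥) :
    ∃ M : Subgroup G, M.Normal ∧ IsSimpleGroup M ∧ ¬ IsMulCommutative M ∧
      ∀ N : Subgroup G, N.Normal → N ≠ ⊥ → M ≤ N := by
  obtain ⟨M, hMn, hM, hmin⟩ := exists_min h hcore
  haveI := hMn
  haveI : Nontrivial M := (Subgroup.nontrivial_iff_ne_bot M).mpr hM
  have hM' : ∀ g : M, IsPrimePow (orderOf g) ∨ g = 1 := by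
    intro g
    rcases h (g : G) with h1 | h1
    · left; rwa [Subgroup.orderOf_coe] at h1
    · right; exact Subtype.ext h1
  have hcM : ∀ q : ℕ, q.Prime → pCore q M = ⊥ := by
    intro q hq
    have h1 := Cfsg.Agent.Lib.Cores.map_subtype_pCore q hMn
    rw [hcore q hq, inf_bot_eq] at h1
    exact (Subgroup.map_eq_bot_iff_of_injective _ M.subtype_injective).mp h1
  obtain ⟨W, hWn, hW, hWmin⟩ := exists_min hM' hcM
  haveI := hWn
  have hWc : W.Characteristic := by
    rw [Subgroup.characteristic_iff_le_map]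
    intro φ
    apply hWmin
    · exact Cfsg.Agent.Lib.Cores.map_normal_of_surjective φ.surjective hWn
    · intro hb
      exact hW ((Subgroup.map_eq_bot_iff_of_injective _ φ.injective).mp hb)
  haveI := hWc
  have hWt : W = ⊤ := by
    have h1 : M ≤ W.map M.subtype := by
      apply hmin
      · infer_instance
      · intro hb
        exact hW ((Subgroup.map_eq_bot_iff_of_injective _ M.subtype_injective).mp hb)
    rw [eq_top_iff]
    rintro ⟨m, hm⟩ -
    obtain ⟨w, hw, hwm⟩ := h1 hm
    have : w = ⟨m, hm⟩ := Subtype.ext hwm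
    rwa [← this]
  refine ⟨M, hMn, ?_, ?_, hmin⟩
  · refine ⟨fun N hN => ?_⟩
    by_cases hN1 : N = ⊥
    · exact Or.inl hN1
    · right
      have := hWmin N hN hN1
      rwa [hWt, top_le_iff] at this
  · intro hcomm
    obtain ⟨q, hq, hMq⟩ := isPGroup_of_commute h M M hM (fun a ha b hb => by
      have := hcomm.is_comm.comm ⟨a, ha⟩ ⟨b, hb⟩
      exact congrArg (fun x : M => (x : G)) this)
    have := Cfsg.Agent.Lib.Cores.le_pCore hMn hMq
    rw [hcore q hq, le_bot_iff] at this
    exact hM this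

theorem solvable_normalizer_of_order [Finite G] (h : ∀ g : G, IsPrimePow (orderOf g) ∨ g = 1) {q : ℕ}
    (hq : q.Prime) {z : G} (hz : orderOf z = q) :
    Group.IsSolvable ↥(normalizer (zpowers z : Set G)) := by
  haveI : Fact q.Prime := ⟨hq⟩
  set f := (zpowers z).normalizerMonoidHom with hf
  let _ : CommGroup (MulAut (zpowers z)) :=
    ((IsCyclic.mulAutMulEquiv (zpowers z)).toMonoidHom).commGroupOfInjective
      (IsCyclic.mulAutMulEquiv (zpowers z)).injective
  have hker : Group.IsSolvable f.ker := by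
    have hp : IsPGroup q f.ker := by
      rw [IsPGroup.iff_orderOf]
      rintro ⟨⟨a, ha⟩, ha'⟩
      rw [Subgroup.orderOf_mk, Subgroup.orderOf_mk]
      rw [hf, Subgroup.normalizerMonoidHom_ker, Subgroup.mem_subgroupOf] at ha'
      exact pow_of_commute h hq hz ((mem_centralizer_iff.mp ha') z (mem_zpowers z)).symm
    haveI := hp.isNilpotent
    infer_instance
  exact solvable_of_ker_le_range f.ker.subtype f (by simp)

/-- The solvable radical of a nonsolvable EPPO group is a `p`-group. -/
theorem isPGroup_of_solvable_normal [Finite G] (hns : ¬ Group.IsSolvable G)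
    (h : ∀ g : G, IsPrimePow (orderOf g) ∨ g = 1) (R : Subgroup G) [R.Normal]
    (hRs : Group.IsSolvable ↥R) : ∃ p : ℕ, p.Prime ∧ IsPGroup p ↥R := by
  by_cases hR : R = ⊥
  · subst hR
    exact ⟨2, Nat.prime_two, IsPGroup.of_bot⟩
  haveI : Nontrivial R := (Subgroup.nontrivial_iff_ne_bot R).mpr hR
  obtain ⟨p, N, hp, hNn, hNp, -, hN⟩ := Cfsg.Agent.Lib.SolvableNormalP.exists_normal_pSubgroup R
  haveI : Fact p.Prime := ⟨hp⟩
  have hK : pCore p G ≠ ⊥ := by
    intro hb
    have h1 := Cfsg.Agent.Lib.Cores.map_subtype_pCore p (inferInstance : R.Normal)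
    rw [hb, inf_bot_eq] at h1
    have h2 := (Subgroup.map_eq_bot_iff_of_injective _ R.subtype_injective).mp h1
    have h3 := Cfsg.Agent.Lib.Cores.le_pCore hNn hNp
    rw [h2, le_bot_iff] at h3
    exact hN h3
  refine ⟨p, hp, ?_⟩
  by_contra hRp
  -- another prime
  obtain ⟨q, hq, hqp, hqR⟩ : ∃ q : ℕ, q.Prime ∧ q ≠ p ∧ q ∣ Nat.card R := by
    by_contra hcon
    push Not at hcon
    apply hRp
    rw [IsPGroup.iff_card]
    refine ⟨(Nat.card R).primeFactorsList.length, ?_⟩
    exact Nat.eq_prime_pow_of_unique_prime_dvd Nat.card_pos.ne' (fun {d} hd hdR => by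
      by_contra hdp
      exact hcon d hd hdp hdR)
  haveI : Fact q.Prime := ⟨hq⟩
  let Q : Sylow q R := default
  have hQ : q ∣ Nat.card (Q : Subgroup R) := by
    rw [Q.card_eq_multiplicity]
    exact dvd_pow_self q (hq.factorization_pos_of_dvd Nat.card_pos.ne' hqR).ne'
  obtain ⟨z, hz⟩ := exists_prime_orderOf_dvd_card' q hQ
  set Q' : Subgroup G := (Q : Subgroup R).map R.subtype with hQ'
  have hQ'p : IsPGroup q Q' := Q.isPGroup'.map _
  have hzQ' : ((z : R) : G) ∈ Q' := ⟨z, z.2, rfl⟩
  have hzq : orderOf ((z : R) : G) = q := by rw [orderOf_coe, orderOf_coe, hz]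
  have huniq : ∀ L₁ L₂ : Subgroup Q', Nat.card L₁ = q → Nat.card L₂ = q → L₁ = L₂ := by
    intro L₁ L₂ h₁ h₂
    refine Cfsg.Agent.Solvable.FpfPGroup.unique_subgroup_of_fpf Q' (pCore p G) hK
      le_normalizer_of_normal ?_ hq hQ'p Q'.subtype Q'.subtype_injective (fun x => x.2) L₁ L₂ h₁ h₂
    intro a ha ha1
    rw [eq_bot_iff]
    rintro v ⟨hv1, hv2⟩
    by_contra hv
    rw [Subgroup.mem_bot] at hv
    refine Cfsg.Agent.S1475.not_commute h (a := v) (b := a) hv ha1 ?_
      ((mem_centralizer_iff.mp hv2) a rfl).symm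
    obtain ⟨j, hj⟩ := (IsPGroup.iff_orderOf.mp (Cfsg.Agent.Lib.Cores.pCore_isPGroup (G := G) p))
      ⟨v, hv1⟩
    obtain ⟨k, hk⟩ := (IsPGroup.iff_orderOf.mp hQ'p) ⟨a, ha⟩
    rw [Subgroup.orderOf_mk] at hj hk
    rw [hj, hk]
    exact Nat.Coprime.pow _ _ ((Nat.coprime_primes hp hq).mpr hqp.symm)
  -- the normalizer of `Q'` normalizes `⟨z⟩`
  have hle : normalizer (Q' : Set G) ≤ normalizer (zpowers ((z : R) : G) : Set G) := by
    intro g hg
    have hg' := (Subgroup.mem_normalizer_iff.mp hg)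
    have hmem : g * ((z : R) : G) * g⁻¹ ∈ Q' := (hg' _).mp hzQ'
    have h1 := huniq (zpowers ⟨((z : R) : G), hzQ'⟩) (zpowers ⟨g * ((z : R) : G) * g⁻¹, hmem⟩)
      (by rw [Nat.card_zpowers, Subgroup.orderOf_mk, hzq])
      (by
        rw [Nat.card_zpowers, Subgroup.orderOf_mk]
        have : orderOf (g * ((z : R) : G) * g⁻¹) = orderOf ((z : R) : G) :=
          orderOf_injective (MulAut.conj g).toMonoidHom (MulAut.conj g).injective _
        rw [this, hzq])
    have h2 : zpowers ((z : R) : G) = zpowers (g * ((z : R) : G) * g⁻¹) := by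
      have h3 := congrArg (Subgroup.map Q'.subtype) h1
      rw [MonoidHom.map_zpowers, MonoidHom.map_zpowers] at h3
      exact h3
    rw [Subgroup.mem_normalizer_iff_map_conj_eq]
    have h4 : (zpowers ((z : R) : G)).map (MulAut.conj g).toMonoidHom
        = zpowers (g * ((z : R) : G) * g⁻¹) := by
      rw [MonoidHom.map_zpowers]; rfl
    exact h4.trans h2.symm
  have hsolN : Group.IsSolvable ↥(normalizer (Q' : Set G)) := by
    haveI := solvable_normalizer_of_order h hq hzq
    exact solvable_of_solvable_injective (Subgroup.inclusion_injective hle)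
  have hF : normalizer (Q' : Set G) ⊔ R = ⊤ := Q.normalizer_sup_eq_top
  apply hns
  have hsQ : Group.IsSolvable (G ⧸ R) := by
    refine solvable_of_surjective (f := (QuotientGroup.mk' R).comp
      (normalizer (Q' : Set G)).subtype) ?_
    intro x
    obtain ⟨g, rfl⟩ := QuotientGroup.mk_surjective x
    have hg : g ∈ normalizer (Q' : Set G) ⊔ R := by rw [hF]; trivial
    obtain ⟨a, ha, b, hb, rfl⟩ := Subgroup.mem_sup_of_normal_right.mp hg
    exact ⟨⟨a, ha⟩, by
      simp only [MonoidHom.coe_comp, Function.comp_apply, coe_subtype, QuotientGroup.mk'_apply]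
      rw [QuotientGroup.eq]
      simpa using hb⟩
  exact solvable_of_ker_le_range R.subtype (QuotientGroup.mk' R) (by simp)

end Cfsg.Agent.H494.EppoStruct
end

-- part: S3992
section
set_option autoImplicit false
set_option linter.style.haveILetI false
open Cfsg

namespace Cfsg.Agent.S3992

/-- Let G be a finite non-solvable group in which every element has prime-power order, and let R be its largest solvable normal subgroup. Then R is a p-group for some prime p; G/R has a non-abelian simple normal subgroup contained in every nontrivial normal subgroup of G/R (its unique minimal normal subgroup); and the order of every solvable subgroup of G has at most two prime divisors. -/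
theorem result {G : Type*} [Group G] [Finite G] (hns : ¬ Group.IsSolvable G) (hpp : ∀ g : G, g ≠ 1 → IsPrimePow (orderOf g))
    (R : Subgroup G) [R.Normal] (hRs : Group.IsSolvable ↥R) (hRmax : ∀ N : Subgroup G, N.Normal → Group.IsSolvable ↥N → N ≤ R) :
    (∃ p : ℕ, p.Prime ∧ IsPGroup p ↥R) ∧
      (∃ M : Subgroup (G ⧸ R), M.Normal ∧ IsSimpleGroup ↥M ∧ ¬ IsMulCommutative ↥M ∧
        ∀ N : Subgroup (G ⧸ R), N.Normal → N ≠ ⊥ → M ≤ N) ∧
      ∀ H : Subgroup G, Group.IsSolvable ↥H → (Nat.card ↥H).primeFactors.card ≤ 2 := by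
  have h : ∀ g : G, IsPrimePow (orderOf g) ∨ g = 1 := by
    intro g
    by_cases hg : g = 1
    · exact Or.inr hg
    · exact Or.inl (hpp g hg)
  refine ⟨Cfsg.Agent.H494.EppoStruct.isPGroup_of_solvable_normal hns h R hRs, ?_, ?_⟩
  · haveI : Nontrivial (G ⧸ R) := by
      by_contra hn
      rw [not_nontrivial_iff_subsingleton] at hn
      apply hns
      exact solvable_of_ker_le_range R.subtype (QuotientGroup.mk' R) (by simp)
    refine Cfsg.Agent.H494.EppoStruct.exists_simple_min
      (Cfsg.Agent.S1475.quotient_orders R h) (fun q hq => ?_)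
    haveI : Fact q.Prime := ⟨hq⟩
    haveI := (Cfsg.Agent.Lib.Cores.pCore_isPGroup (G := G ⧸ R) q).isNilpotent
    set K := (pCore q (G ⧸ R)).comap (QuotientGroup.mk' R) with hK
    have hKs : Group.IsSolvable ↥K := by
      have hKR : R ≤ K := by
        intro r hr
        rw [hK, Subgroup.mem_comap, QuotientGroup.mk'_apply,
          (QuotientGroup.eq_one_iff r).mpr hr]
        exact one_mem _
      let f : K →* pCore q (G ⧸ R) :=
        ((QuotientGroup.mk' R).comp K.subtype).codRestrict _ (fun x => x.2)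
      refine solvable_of_ker_le_range (Subgroup.inclusion hKR) f ?_
      rintro ⟨x, hx⟩ hx'
      have h1 : ((QuotientGroup.mk' R) x) = 1 := congrArg Subtype.val hx'
      rw [QuotientGroup.mk'_apply, QuotientGroup.eq_one_iff] at h1
      exact ⟨⟨x, h1⟩, rfl⟩
    have h2 := hRmax K inferInstance hKs
    rw [eq_bot_iff]
    intro x hx
    obtain ⟨g, rfl⟩ := QuotientGroup.mk_surjective x
    rw [Subgroup.mem_bot, QuotientGroup.eq_one_iff]
    exact h2 hx
  · intro H hH
    refine Cfsg.Agent.S1475.result (G := H) (fun g => ?_)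
    rcases h (g : G) with h1 | h1
    · left; rwa [Subgroup.orderOf_coe] at h1
    · right; exact Subtype.ext h1

end Cfsg.Agent.S3992
end
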