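import Mathlib
import Cfsg.Agent.Lib.ModFour
import Cfsg.Statements.S3994
import Cfsg.Agent.H418.Frob
set_option linter.all false

-- part: H494/MultCount
section
/-!
# Counting elements whose order is a multiple of `n`, from Frobenius' divisibility theorem

`dvd_card_of_frobenius`: if all subgroups of `G` satisfy Frobenius' theorem then the number of elements
of `G` whose order is divisible by `n` is divisible by the `n'`-part of `|G|`.
-/

set_option autoImplicit false
set_option linter.style.haveILetI false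

namespace Cfsg.Agent.H494.MultCount

open Subgroup

/-- The largest divisor of `N` prime to `n` is prime to `n`. -/
theorem coprime_part {N n : ℕ} (hN : N ≠ 0) (hn : n ≠ 0) : (N / Nat.gcd N (n ^ N)).Coprime n := by
  have hg : Nat.gcd N (n ^ N) ≠ 0 := Nat.gcd_ne_zero_left hN
  rw [Nat.coprime_iff_gcd_eq_one]
  by_contra hne
  obtain ⟨p, hp, hpd⟩ := Nat.exists_prime_and_dvd hne
  have h1 : p ∣ N / Nat.gcd N (n ^ N) := hpd.trans (Nat.gcd_dvd_left _ _)
  have h2 : p ∣ n := hpd.trans (Nat.gcd_dvd_right _ _)
  have h3 : N.gcd (n ^ N) * p ∣ N := by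
    obtain ⟨c, hc⟩ := h1
    refine ⟨c, ?_⟩
    rw [mul_assoc, ← hc]
    exact (Nat.mul_div_cancel' (Nat.gcd_dvd_left _ _)).symm
  have h4 : p ^ (N.factorization p) ∣ N.gcd (n ^ N) := by
    apply Nat.dvd_gcd (Nat.ordProj_dvd N p)
    have h5 : N.factorization p ≤ N := (Nat.factorization_lt p hN).le
    exact (pow_dvd_pow p h5).trans (pow_dvd_pow_of_dvd h2 N)
  have h6 : p ^ (N.factorization p + 1) ∣ N := by
    rw [pow_succ]
    exact (Nat.mul_dvd_mul_right h4 p).trans h3
  exact Nat.pow_succ_factorization_not_dvd hN hp h6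

/-- Sum over a conjugation invariant set of a class function: divisibility by `b` may be checked
classwise. -/
theorem dvd_sum_of_classes {G : Type*} [Group G] [Finite G] [Fintype G] (b : ℕ) (Y : Finset G)
    (hY : ∀ x y, IsConj x y → x ∈ Y → y ∈ Y) (f : G → ℕ) (hf : ∀ x y, IsConj x y → f x = f y)
    (h : ∀ y ∈ Y, b ∣ (centralizer ({y} : Set G)).index * f y) : b ∣ ∑ y ∈ Y, f y := by
  classical
  rw [← Finset.sum_fiberwise_of_maps_to (s := Y) (t := Finset.univ) (g := fun y => ConjClasses.mk y)
    (fun _ _ => Finset.mem_univ _)]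
  apply Finset.dvd_sum
  intro c _
  by_cases hc : ∃ y ∈ Y, ConjClasses.mk y = c
  · obtain ⟨y, hy, rfl⟩ := hc
    have h1 : ∑ x ∈ Y with ConjClasses.mk x = ConjClasses.mk y, f x
        = ∑ x ∈ Y with ConjClasses.mk x = ConjClasses.mk y, f y := by
      apply Finset.sum_congr rfl
      intro x hx
      exact hf x y (ConjClasses.mk_eq_mk_iff_isConj.mp (Finset.mem_filter.mp hx).2)
    rw [h1, Finset.sum_const, smul_eq_mul]
    have h2 : (Finset.card {x ∈ Y | ConjClasses.mk x = ConjClasses.mk y})
        = (centralizer ({y} : Set G)).index := by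
      rw [← Cfsg.Agent.Lib.ModFour.card_isConj, Nat.card_eq_fintype_card, Fintype.card_subtype]
      congr 1
      ext x
      simp only [Finset.mem_filter, Finset.mem_univ, true_and]
      constructor
      · rintro ⟨-, hx⟩
        exact (ConjClasses.mk_eq_mk_iff_isConj.mp hx).symm
      · intro hx
        exact ⟨hY y x hx hy, ConjClasses.mk_eq_mk_iff_isConj.mpr hx.symm⟩
    rw [h2]
    exact h y hy
  · have : ({x ∈ Y | ConjClasses.mk x = c} : Finset G) = ∅ := by
      rw [Finset.eq_empty_iff_forall_notMem]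
      intro x hx
      exact hc ⟨x, (Finset.mem_filter.mp hx).1, (Finset.mem_filter.mp hx).2⟩
    rw [this]
    simp

/-- The number of solutions of `z ^ b = 1` in the centralizer of `y`. -/
noncomputable def cnt {G : Type*} [Group G] (b : ℕ) (y : G) : ℕ :=
  Nat.card {z : G // Commute y z ∧ z ^ b = 1}

theorem cnt_conj {G : Type*} [Group G] (b : ℕ) {x y : G} (hxy : IsConj x y) :
    cnt b x = cnt b y := by
  obtain ⟨g, rfl⟩ := isConj_iff.mp hxy
  apply Nat.card_congr
  refine (MulAut.conj g).toEquiv.subtypeEquiv ?_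
  intro z
  have h1 : Commute (g * x * g⁻¹) (g * z * g⁻¹) ↔ Commute x z := by
    constructor
    · intro h
      have h3 : MulAut.conj g (x * z) = MulAut.conj g (z * x) := by
        rw [map_mul, map_mul]; exact h
      exact (MulAut.conj g).injective h3
    · intro h
      exact h.map (MulAut.conj g)
  have h2 : (g * z * g⁻¹) ^ b = 1 ↔ z ^ b = 1 := by
    rw [conj_pow]
    constructor
    · intro h
      have := congrArg (fun w => g⁻¹ * w * g) h
      simpa [mul_assoc] using this
    · intro h
      rw [h]; simp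
  simp only [MulEquiv.toEquiv_eq_coe, EquivLike.coe_coe, MulAut.conj_apply]
  rw [h1, h2]

theorem gcd_dvd_cnt {G : Type*} [Group G] [Finite G]
    (hfrob : ∀ (H : Subgroup G) (m : ℕ), m ∣ Nat.card H → m ∣ Nat.card {g : H // g ^ m = 1})
    (b : ℕ) (y : G) : Nat.gcd b (Nat.card (centralizer ({y} : Set G))) ∣ cnt b y := by
  set C := centralizer ({y} : Set G) with hC
  have h1 := hfrob C (Nat.gcd b (Nat.card C)) (Nat.gcd_dvd_right _ _)
  have h2 : Nat.card {g : C // g ^ (Nat.gcd b (Nat.card C)) = 1} = cnt b y := by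
    apply Nat.card_congr
    refine ⟨fun g => ⟨((g : C) : G), ?_, ?_⟩, fun z => ⟨⟨z, ?_⟩, ?_⟩, fun g => ?_, fun z => ?_⟩
    · have := mem_centralizer_iff.mp (g : C).2 y rfl
      exact this
    · have h3 := g.2
      have h4 : ((g : C)) ^ b = 1 := by
        exact orderOf_dvd_iff_pow_eq_one.mp
          ((orderOf_dvd_of_pow_eq_one h3).trans (Nat.gcd_dvd_left b (Nat.card C)))
      exact congrArg Subtype.val h4
    · rw [hC, mem_centralizer_iff]
      rintro _ rfl
      exact z.2.1
    · have h3 := z.2.2
      apply orderOf_dvd_iff_pow_eq_one.mp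
      apply Nat.dvd_gcd
      · rw [Subgroup.orderOf_mk]; exact orderOf_dvd_of_pow_eq_one h3
      · exact orderOf_dvd_natCard _
    · rfl
    · rfl
  rwa [h2] at h1

/-- Multiples of `n` among the element orders: the count is divisible by the `n'`-part of `|G|`. -/
theorem dvd_card_of_frobenius {G : Type*} [Group G] [Finite G]
    (hfrob : ∀ (H : Subgroup G) (m : ℕ), m ∣ Nat.card H → m ∣ Nat.card {g : H // g ^ m = 1})
    (n a b : ℕ) (hab : a * b = Nat.card G) (hcop : a.Coprime b) (hbn : b.Coprime n) :
    b ∣ Nat.card {g : G // n ∣ orderOf g} := by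
  classical
  haveI := Fintype.ofFinite G
  obtain ⟨e, he1, he2⟩ := Nat.chineseRemainder hcop 1 0
  obtain ⟨f, hf1, hf2⟩ := Nat.chineseRemainder hcop 0 1
  have hbe : b ∣ e := (Nat.modEq_zero_iff_dvd).mp he2
  have haf : a ∣ f := (Nat.modEq_zero_iff_dvd).mp hf1
  have hef : e + f ≡ 1 [MOD a * b] := by
    apply (Nat.modEq_and_modEq_iff_modEq_mul hcop).mp
    constructor
    · exact he1.add hf1
    · exact he2.add hf2
  have hpow : ∀ x : G, x ^ (a * b) = 1 := fun x => by rw [hab]; exact pow_card_eq_one'
  have hsplit : ∀ x : G, x ^ e * x ^ f = x := by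
    intro x
    rw [← pow_add]
    have h1 : x ^ (e + f) = x ^ 1 := by
      rw [pow_eq_pow_iff_modEq]
      exact hef.of_dvd (by rw [hab]; exact orderOf_dvd_natCard x)
    rw [h1, pow_one]
  -- the set of `a`-parts
  let Y : Finset G := {y : G | y ^ a = 1 ∧ n ∣ orderOf y}
  have hmemY : ∀ y, y ∈ Y ↔ y ^ a = 1 ∧ n ∣ orderOf y := fun y => by simp [Y]
  have key : Nat.card {g : G // n ∣ orderOf g} = ∑ y ∈ Y, cnt b y := by
    have h1 : Nat.card {g : G // n ∣ orderOf g}
        = Nat.card (Σ y : Y, {z : G // Commute (y : G) z ∧ z ^ b = 1}) := by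
      apply Nat.card_congr
      refine ⟨fun x => ⟨⟨(x : G) ^ e, ?_⟩, ⟨(x : G) ^ f, ?_, ?_⟩⟩, fun s => ⟨(s.1 : G) * s.2.1, ?_⟩,
        fun x => ?_, fun s => ?_⟩
      · obtain ⟨x, hx⟩ := x
        rw [hmemY]
        constructor
        · obtain ⟨k, rfl⟩ := hbe
          rw [← pow_mul, show b * k * a = a * b * k by ring, pow_mul, hpow, one_pow]
        · have hc : Commute (x ^ e) (x ^ f) := Commute.pow_pow_self x e f
          have hoe : orderOf (x ^ e) ∣ a := by
            apply orderOf_dvd_of_pow_eq_one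
            obtain ⟨k, rfl⟩ := hbe
            rw [← pow_mul, show b * k * a = a * b * k by ring, pow_mul, hpow, one_pow]
          have hof : orderOf (x ^ f) ∣ b := by
            apply orderOf_dvd_of_pow_eq_one
            obtain ⟨k, rfl⟩ := haf
            rw [← pow_mul, show a * k * b = a * b * k by ring, pow_mul, hpow, one_pow]
          have h2 := hc.orderOf_mul_eq_mul_orderOf_of_coprime
            (Nat.Coprime.coprime_dvd_left hoe (Nat.Coprime.coprime_dvd_right hof hcop))
          rw [hsplit] at h2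
          rw [h2] at hx
          exact (Nat.Coprime.coprime_dvd_left hof hbn).symm.dvd_of_dvd_mul_right hx
      · exact Commute.pow_pow_self _ e f
      · obtain ⟨k, rfl⟩ := haf
        rw [← pow_mul, show a * k * b = a * b * k by ring, pow_mul, hpow, one_pow]
      · obtain ⟨⟨y, hy⟩, z, hyz, hz⟩ := s
        obtain ⟨hy1, hy2⟩ := (hmemY y).mp hy
        have h2 := hyz.orderOf_mul_eq_mul_orderOf_of_coprime
            (Nat.Coprime.coprime_dvd_left (orderOf_dvd_of_pow_eq_one hy1)
              (Nat.Coprime.coprime_dvd_right (orderOf_dvd_of_pow_eq_one hz) hcop))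
        show n ∣ orderOf (y * z)
        rw [h2]
        exact hy2.mul_right _
      · exact Subtype.ext (hsplit x)
      · obtain ⟨⟨y, hy⟩, z, hyz, hz⟩ := s
        obtain ⟨hy1, hy2⟩ := (hmemY y).mp hy
        have hye : y ^ e = y := by
          conv_rhs => rw [← pow_one y]
          rw [pow_eq_pow_iff_modEq]
          exact he1.of_dvd (orderOf_dvd_of_pow_eq_one hy1)
        have hyf : y ^ f = 1 := by
          obtain ⟨k, rfl⟩ := haf
          rw [pow_mul, hy1, one_pow]
        have hze : z ^ e = 1 := by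
          obtain ⟨k, rfl⟩ := hbe
          rw [pow_mul, hz, one_pow]
        have hzf : z ^ f = z := by
          conv_rhs => rw [← pow_one z]
          rw [pow_eq_pow_iff_modEq]
          exact hf2.of_dvd (orderOf_dvd_of_pow_eq_one hz)
        have h3 : (y * z) ^ e = y := by rw [hyz.mul_pow, hye, hze, mul_one]
        have h4 : (y * z) ^ f = z := by rw [hyz.mul_pow, hyf, hzf, one_mul]
        refine Sigma.ext (Subtype.ext h3) ?_
        dsimp only
        rw [Subtype.heq_iff_coe_eq]
        · exact h4
        · intro w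
          rw [h3]
    rw [h1, Nat.card_sigma]
    rw [← Finset.sum_coe_sort Y (fun y => cnt b y)]
    rfl
  rw [key]
  apply dvd_sum_of_classes
  · intro x y hxy hx
    rw [hmemY] at hx ⊢
    obtain ⟨g, rfl⟩ := isConj_iff.mp hxy
    have hord : orderOf (g * x * g⁻¹) = orderOf x :=
      orderOf_injective (MulAut.conj g).toMonoidHom (MulAut.conj g).injective x
    refine ⟨?_, by rw [hord]; exact hx.2⟩
    rw [conj_pow, hx.1]; simp
  · intro x y hxy
    exact cnt_conj b hxy
  · intro y _
    have h1 := gcd_dvd_cnt hfrob b y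
    have h2 : b ∣ (centralizer ({y} : Set G)).index
        * Nat.gcd b (Nat.card (centralizer ({y} : Set G))) := by
      rw [← Nat.gcd_mul_left]
      apply Nat.dvd_gcd (Dvd.intro_left _ rfl)
      rw [Subgroup.index_mul_card, ← hab]
      exact Dvd.intro_left _ rfl
    exact h2.trans (Nat.mul_dvd_mul_left _ h1)

end Cfsg.Agent.H494.MultCount
end

-- part: S3994
section
set_option autoImplicit false
open Cfsg

namespace Cfsg.Agent.S3994

/-- Let G be a finite group and n a positive integer. The number of elements of G whose order is divisible by n is either 0 or divisible by the largest divisor of the order of G that is coprime to n. -/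
theorem result {G : Type*} [Group G] [Finite G] (n : ℕ) (hn : 0 < n) :
    Nat.card {g : G // n ∣ orderOf g} = 0 ∨
      (Nat.card G / Nat.gcd (Nat.card G) (n ^ Nat.card G)) ∣ Nat.card {g : G // n ∣ orderOf g} := by
  right
  have hN : Nat.card G ≠ 0 := Nat.card_pos.ne'
  have hcop := Cfsg.Agent.H494.MultCount.coprime_part hN hn.ne'
  refine Cfsg.Agent.H494.MultCount.dvd_card_of_frobenius
    (fun H m hm => Cfsg.Agent.H418.Frob.frobenius_dvd m hm) n
    (Nat.gcd (Nat.card G) (n ^ Nat.card G)) _ (Nat.mul_div_cancel' (Nat.gcd_dvd_left _ _)) ?_ hcop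
  exact Nat.Coprime.coprime_dvd_left (Nat.gcd_dvd_right _ _) (Nat.Coprime.pow_left _ hcop.symm)

end Cfsg.Agent.S3994
end
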