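import Mathlib
import Cfsg.Agent.H494.SameOrder
import Cfsg.Agent.H418.Frob
import Cfsg.Statements.S3996
import Cfsg.Agent.H495.NotFour
import Cfsg.Agent.SolvableStructure.HallConverse
import Cfsg.Agent.FastGrp
import Cfsg.Agent.Prune
set_option linter.all false
open scoped Cfsg.Agent.FastGrp

-- part: H495/ThreeSizes
section
/-!
# Groups whose same-order classes have exactly three sizes

If the numbers of elements of each order occurring in a finite group `G` take exactly three values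
and either there are at least two involutions or `4` divides `|G|`, then at most one odd prime
divides `|G|`.
-/

set_option autoImplicit false

namespace Cfsg.Agent.H495.ThreeSizes

open Cfsg.Agent.H494.SameOrder

theorem sum_divisors_mul {m n : ℕ} (h : m.Coprime n) (f : ℕ → ℕ) :
    ∑ d ∈ (m * n).divisors, f d = ∑ i ∈ m.divisors, ∑ j ∈ n.divisors, f (i * j) := by
  rw [Nat.divisors_mul, Finset.mul_def, Finset.sum_image h.mul_injOn_divisors,
    Finset.sum_product]

/-- The three values are `1`, `a` and `b`. -/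
structure Hyp (G : Type*) [Group G] (a b : ℕ) : Prop where
  val : ∀ g : G, cn G (orderOf g) = 1 ∨ cn G (orderOf g) = a ∨ cn G (orderOf g) = b
  ha : a ≠ 1
  hb : b ≠ 1
  hab : a ≠ b

theorem exists_hyp {G : Type*} [Group G] [Finite G]
    (h : (((fun m : ℕ => Nat.card {g : G // orderOf g = m}) ''
      Set.range (orderOf : G → ℕ))).ncard = 3) : ∃ a b, Hyp G a b := by
  obtain ⟨x, y, z, hxy, hxz, hyz, hS⟩ := Set.ncard_eq_three.mp h
  have h1 : (1 : ℕ) ∈ ((fun m : ℕ => Nat.card {g : G // orderOf g = m}) ''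
      Set.range (orderOf : G → ℕ)) := ⟨1, ⟨1, orderOf_one⟩, cn_one⟩
  have hv : ∀ g : G, cn G (orderOf g) = x ∨ cn G (orderOf g) = y ∨ cn G (orderOf g) = z := by
    intro g
    have : cn G (orderOf g) ∈ ((fun m : ℕ => Nat.card {g : G // orderOf g = m}) ''
      Set.range (orderOf : G → ℕ)) := ⟨orderOf g, ⟨g, rfl⟩, rfl⟩
    rw [hS] at this
    simpa using this
  rw [hS] at h1
  simp only [Set.mem_insert_iff, Set.mem_singleton_iff] at h1
  rcases h1 with rfl | rfl | rfl
  · exact ⟨y, z, hv, hxy.symm, hxz.symm, hyz⟩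
  · exact ⟨x, z, fun g => by rcases hv g with h | h | h <;> simp [h], hxy, hyz.symm, hxz⟩
  · exact ⟨x, y, fun g => by rcases hv g with h | h | h <;> simp [h], hxz, hyz, hxy⟩

theorem Hyp.symm {G : Type*} [Group G] {a b : ℕ} (h : Hyp G a b) : Hyp G b a :=
  ⟨fun g => by rcases h.val g with h | h | h <;> simp [h], h.hb, h.ha, h.hab.symm⟩

section

variable {G : Type*} [Group G] [Finite G] {a b : ℕ}

theorem even_cn {m : ℕ} (hm : 2 < m) : 2 ∣ cn G m :=
  (Nat.totient_even hm).two_dvd.trans (totient_dvd m)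

theorem frob_prime {p : ℕ} (hp : p.Prime) (hpG : p ∣ Nat.card G) : p ∣ 1 + cn G p := by
  have h1 := Cfsg.Agent.H418.Frob.frobenius_dvd p hpG
  rw [card_pow_eq_sum p hp.ne_zero, Nat.Prime.divisors hp, Finset.sum_pair hp.one_lt.ne,
    cn_one] at h1
  exact h1

theorem frob_mul {p q : ℕ} (hp : p.Prime) (hq : q.Prime) (hpq : p ≠ q) (hpG : p ∣ Nat.card G)
    (hqG : q ∣ Nat.card G) : p * q ∣ 1 + cn G q + (cn G p + cn G (p * q)) := by
  have hcop := (Nat.coprime_primes hp hq).mpr hpq
  have h1 := Cfsg.Agent.H418.Frob.frobenius_dvd (p * q) (hcop.mul_dvd_of_dvd_of_dvd hpG hqG)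
  rw [card_pow_eq_sum _ (mul_ne_zero hp.ne_zero hq.ne_zero), sum_divisors_mul hcop,
    Nat.Prime.divisors hp, Nat.Prime.divisors hq, Finset.sum_pair hp.one_lt.ne,
    Finset.sum_pair hq.one_lt.ne, Finset.sum_pair hq.one_lt.ne, one_mul, one_mul, mul_one,
    cn_one] at h1
  exact h1

theorem divisors_four : (4 : ℕ).divisors = {1, 2, 4} := by decide

theorem frob_four (h4 : 4 ∣ Nat.card G) : 4 ∣ 1 + (cn G 2 + cn G 4) := by
  have h1 := Cfsg.Agent.H418.Frob.frobenius_dvd 4 h4
  rw [card_pow_eq_sum _ (by norm_num), divisors_four,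
    Finset.sum_insert (by decide), Finset.sum_insert (by decide), Finset.sum_singleton,
    cn_one] at h1
  exact h1

theorem coprime_four {p : ℕ} (hp : p.Prime) (hp2 : p ≠ 2) : Nat.Coprime 4 p := by
  have : Nat.Coprime (2 ^ 2) p :=
    Nat.Coprime.pow_left 2 ((Nat.coprime_primes Nat.prime_two hp).mpr (Ne.symm hp2))
  exact this

theorem frob_four_mul {p : ℕ} (hp : p.Prime) (hp2 : p ≠ 2) (h4 : 4 ∣ Nat.card G)
    (hpG : p ∣ Nat.card G) :
    4 * p ∣ 1 + cn G p + (cn G 2 + cn G (2 * p) + (cn G 4 + cn G (4 * p))) := by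
  have hcop := coprime_four hp hp2
  have h1 := Cfsg.Agent.H418.Frob.frobenius_dvd (4 * p) (hcop.mul_dvd_of_dvd_of_dvd h4 hpG)
  have hs : ∀ f : ℕ → ℕ, ∑ i ∈ p.divisors, f i = f 1 + f p := by
    intro f
    rw [Nat.Prime.divisors hp, Finset.sum_pair hp.one_lt.ne]
  rw [card_pow_eq_sum _ (mul_ne_zero (by norm_num) hp.ne_zero), sum_divisors_mul hcop,
    divisors_four, Finset.sum_insert (by decide : (1 : ℕ) ∉ ({2, 4} : Finset ℕ)),
    Finset.sum_insert (by decide : (2 : ℕ) ∉ ({4} : Finset ℕ)), Finset.sum_singleton, hs, hs,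
    hs] at h1
  simp only [one_mul, mul_one, cn_one] at h1
  exact h1

theorem frob_four_mul_mul {p q : ℕ} (hp : p.Prime) (hq : q.Prime) (hpq : p ≠ q) (hp2 : p ≠ 2)
    (hq2 : q ≠ 2) (h4 : 4 ∣ Nat.card G) (hpG : p ∣ Nat.card G) (hqG : q ∣ Nat.card G) :
    4 * (p * q) ∣ 1 + cn G q + (cn G p + cn G (p * q)) +
      (cn G 2 + cn G (2 * q) + (cn G (2 * p) + cn G (2 * (p * q))) +
        (cn G 4 + cn G (4 * q) + (cn G (4 * p) + cn G (4 * (p * q))))) := by
  have hcop := (Nat.coprime_primes hp hq).mpr hpq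
  have hcop4 : Nat.Coprime 4 (p * q) :=
    Nat.Coprime.mul_right (coprime_four hp hp2) (coprime_four hq hq2)
  have h1 := Cfsg.Agent.H418.Frob.frobenius_dvd (4 * (p * q))
    (hcop4.mul_dvd_of_dvd_of_dvd h4 (hcop.mul_dvd_of_dvd_of_dvd hpG hqG))
  have hs : ∀ f : ℕ → ℕ, ∑ i ∈ (p * q).divisors, f i = f 1 + f q + (f p + f (p * q)) := by
    intro f
    rw [sum_divisors_mul hcop, Nat.Prime.divisors hp, Nat.Prime.divisors hq,
      Finset.sum_pair hp.one_lt.ne, Finset.sum_pair hq.one_lt.ne, Finset.sum_pair hq.one_lt.ne,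
      one_mul, one_mul, mul_one]
  rw [card_pow_eq_sum _ (mul_ne_zero (by norm_num) (mul_ne_zero hp.ne_zero hq.ne_zero)),
    sum_divisors_mul hcop4, divisors_four, Finset.sum_insert (by decide),
    Finset.sum_insert (by decide), Finset.sum_singleton, hs, hs, hs] at h1
  simp only [one_mul, mul_one, cn_one] at h1
  exact h1

/-- With a unique involution, `x ↦ z x` is a bijection between the elements of odd order `m` and
those of order `2 m`. -/
theorem cn_two_mul (h2 : cn G 2 = 1) {m : ℕ} (hm : Odd m) : cn G (2 * m) = cn G m := by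
  obtain ⟨z, hz⟩ := exists_of_cn_ne_zero (G := G) (m := 2) (by rw [h2]; exact one_ne_zero)
  have hz2 : z * z = 1 := by
    have := pow_orderOf_eq_one z
    rwa [hz, pow_two] at this
  have hzu : ∀ x : G, orderOf x = 2 → x = z := fun x hx => eq_of_cn_one h2 hx hz
  have hzc : ∀ x : G, Commute z x := by
    intro x
    have h1 : x * z * x⁻¹ = z := hzu _ (by
      rw [← MulAut.conj_apply, MulEquiv.orderOf_eq, hz])
    have h2 : x * z = z * x := by
      calc x * z = (x * z * x⁻¹) * x := by group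
        _ = z * x := by rw [h1]
    exact h2.symm
  have hm0 : 0 < m := hm.pos
  symm
  refine Nat.card_congr ⟨fun x => ⟨z * x.1, ?_⟩, fun x => ⟨z * x.1, ?_⟩, ?_, ?_⟩
  · rw [(hzc x.1).orderOf_mul_eq_mul_orderOf_of_coprime, hz, x.2]
    rw [hz, x.2]
    exact Nat.coprime_two_left.mpr hm
  · obtain ⟨x, hx⟩ := x
    simp only
    have h1 : orderOf (x ^ m) = 2 := by
      rw [orderOf_pow, hx, Nat.gcd_eq_right (Dvd.intro_left _ rfl), Nat.mul_div_cancel _ hm0]
    have h3 : x ^ m = z := hzu _ h1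
    have hzm : z ^ m = z := by
      obtain ⟨k, rfl⟩ := hm
      rw [pow_add, pow_mul, pow_two, hz2, one_pow, one_mul, pow_one]
    have h4 : orderOf (z * x) ∣ m := by
      rw [orderOf_dvd_iff_pow_eq_one, (hzc x).mul_pow, h3, hzm, hz2]
    have h5 : 2 * m ∣ 2 * orderOf (z * x) := by
      rw [← hx, orderOf_dvd_iff_pow_eq_one]
      have h6 : x = z * (z * x) := by rw [← mul_assoc, hz2, one_mul]
      have h7 : (z * (z * x)) ^ (2 * orderOf (z * x)) = 1 := by
        have h8 : Commute z (z * x) := (Commute.refl z).mul_right (hzc x)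
        rw [h8.mul_pow, pow_mul, pow_two, hz2, one_pow, one_mul, mul_comm, pow_mul,
          pow_orderOf_eq_one, one_pow]
      rw [h6]
      rwa [← h6] at h7 ⊢
    exact Nat.dvd_antisymm h4 (Nat.dvd_of_mul_dvd_mul_left two_pos h5)
  · intro x
    apply Subtype.ext
    simp only
    rw [← mul_assoc, hz2, one_mul]
  · intro x
    apply Subtype.ext
    simp only
    rw [← mul_assoc, hz2, one_mul]

theorem exists_prime_elt {p : ℕ} (hp : p.Prime) (hpG : p ∣ Nat.card G) :
    ∃ g : G, orderOf g = p := by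
  have := Fact.mk hp
  exact exists_prime_orderOf_dvd_card' p hpG

theorem cast_of_dvd {p n : ℕ} (h : p ∣ n) : (n : ZMod p) = 0 :=
  (ZMod.natCast_eq_zero_iff n p).mpr h

theorem two_ne {p : ℕ} (hp : p.Prime) (hp2 : p ≠ 2) : (2 : ZMod p) ≠ 0 := by
  intro h
  have : ((2 : ℕ) : ZMod p) = 0 := by exact_mod_cast h
  exact hp2 ((Nat.prime_dvd_prime_iff_eq hp Nat.prime_two).mp
    ((ZMod.natCast_eq_zero_iff 2 p).mp this))

theorem one_ne {p : ℕ} (hp : p.Prime) : (1 : ZMod p) ≠ 0 := by
  have := Fact.mk hp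
  exact one_ne_zero

theorem no_two_odd_aux (H : Hyp G a b) (h2 : 2 ∣ Nat.card G) (hc : cn G 2 = a) {p q : ℕ}
    (hp : p.Prime) (hq : q.Prime) (hp2 : p ≠ 2) (hq2 : q ≠ 2) (hpq : p ≠ q)
    (hpG : p ∣ Nat.card G) (hqG : q ∣ Nat.card G) : False := by
  have h1 := frob_prime Nat.prime_two h2
  rw [hc] at h1
  have big : ∀ m, 2 < m → cn G m = 0 ∨ cn G m = b := by
    intro m hm
    by_cases h0 : cn G m = 0
    · exact Or.inl h0
    · right
      obtain ⟨g, rfl⟩ := exists_of_cn_ne_zero h0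
      have h3 := even_cn (G := G) hm
      rcases H.val g with h4 | h4 | h4
      · omega
      · omega
      · exact h4
  have hpr : ∀ {r : ℕ}, r.Prime → r ≠ 2 → r ∣ Nat.card G → cn G r = b := by
    intro r hr hr2 hrG
    rcases big r (by have := hr.two_le; omega) with h | h
    · obtain ⟨g, rfl⟩ := exists_prime_elt hr hrG
      exact absurd h (Nat.card_pos_iff.mpr ⟨⟨g, rfl⟩, inferInstance⟩).ne'
    · exact h
  have hbp : (b : ZMod p) = -1 := by
    have := cast_of_dvd (frob_prime hp hpG)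
    rw [hpr hp hp2 hpG] at this
    push_cast at this
    linear_combination this
  have h3 := cast_of_dvd ((Dvd.intro _ rfl).trans (frob_mul hp hq hpq hpG hqG) : p ∣ _)
  rw [hpr hp hp2 hpG, hpr hq hq2 hqG] at h3
  have hpq2 : 2 < p * q := by
    have := hp.two_le
    have := hq.two_le
    nlinarith
  rcases big (p * q) hpq2 with h4 | h4
  · rw [h4] at h3
    push_cast at h3
    rw [hbp] at h3
    apply one_ne hp
    linear_combination -h3
  · rw [h4] at h3
    push_cast at h3
    rw [hbp] at h3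
    apply two_ne hp hp2
    linear_combination -h3

/-- At least two involutions: at most one odd prime divides `|G|`. -/
theorem no_two_odd_of_ne_one (H : Hyp G a b) (h2 : 2 ∣ Nat.card G) (hc : cn G 2 ≠ 1) {p q : ℕ}
    (hp : p.Prime) (hq : q.Prime) (hp2 : p ≠ 2) (hq2 : q ≠ 2) (hpq : p ≠ q)
    (hpG : p ∣ Nat.card G) (hqG : q ∣ Nat.card G) : False := by
  obtain ⟨z, hz⟩ := exists_prime_elt (G := G) Nat.prime_two h2
  rcases H.val z with h | h | h
  · rw [hz] at h
    exact hc h
  · rw [hz] at h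
    exact no_two_odd_aux H h2 h hp hq hp2 hq2 hpq hpG hqG
  · rw [hz] at h
    exact no_two_odd_aux H.symm h2 h hp hq hp2 hq2 hpq hpG hqG

/-- The data of the case of a unique involution. -/
structure Hyp2 (G : Type*) [Group G] (a b p q : ℕ) : Prop where
  h4 : 4 ∣ Nat.card G
  c2 : cn G 2 = 1
  c4 : cn G 4 = a
  a4 : a % 4 = 2
  big : ∀ m, 2 < m → cn G m = 0 ∨ cn G m = a ∨ cn G m = b
  hp : p.Prime
  hq : q.Prime
  hp2 : p ≠ 2
  hq2 : q ≠ 2
  hpq : p ≠ q
  hpG : p ∣ Nat.card G
  hqG : q ∣ Nat.card G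

omit [Finite G] in
theorem Hyp2.symm {p q : ℕ} (h : Hyp2 G a b p q) : Hyp2 G a b q p :=
  ⟨h.h4, h.c2, h.c4, h.a4, h.big, h.hq, h.hp, h.hq2, h.hp2, h.hpq.symm, h.hqG, h.hpG⟩

omit [Finite G] in
theorem Hyp2.four_dvd {p q : ℕ} (h : Hyp2 G a b p q) : 4 ∣ (p * q).totient := by
  rw [Nat.totient_mul ((Nat.coprime_primes h.hp h.hq).mpr h.hpq)]
  have h1 := (Nat.totient_even (n := p) (by have := h.hp.two_le; have := h.hp2; omega)).two_dvd
  have h2 := (Nat.totient_even (n := q) (by have := h.hq.two_le; have := h.hq2; omega)).two_dvd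
  exact mul_dvd_mul h1 h2

theorem Hyp2.ne_pq {p q : ℕ} (h : Hyp2 G a b p q) : cn G (p * q) ≠ a := by
  intro h1
  have h2 := h.four_dvd.trans (totient_dvd (G := G) (p * q))
  have := h.a4
  omega

theorem Hyp2.ne_four_pq {p q : ℕ} (h : Hyp2 G a b p q) : cn G (4 * (p * q)) ≠ a := by
  intro h1
  have hcop4 : Nat.Coprime 4 (p * q) :=
    Nat.Coprime.mul_right (coprime_four h.hp h.hp2) (coprime_four h.hq h.hq2)
  have h3 : 4 ∣ (4 * (p * q)).totient := by
    rw [Nat.totient_mul hcop4]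
    exact h.four_dvd.mul_left _
  have h2 := h3.trans (totient_dvd (G := G) (4 * (p * q)))
  have := h.a4
  omega

theorem Hyp2.prime_val {p q : ℕ} (h : Hyp2 G a b p q) : cn G p = a ∨ cn G p = b := by
  have h3 := h.hp.two_le
  have h4 := h.hp2
  rcases h.big p (by omega) with h1 | h1
  · obtain ⟨g, hg⟩ := exists_prime_elt h.hp h.hpG
    exact absurd h1 (Nat.card_pos_iff.mpr ⟨⟨g, hg⟩, inferInstance⟩).ne'
  · exact h1

/-- if `s_p = a` then `s_{4p} = b` and `b ≡ 1 (mod p)` -/
theorem Hyp2.four_p {p q : ℕ} (h : Hyp2 G a b p q) (hpa : cn G p = a) :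
    (a : ZMod p) = -1 ∧ cn G (4 * p) = b ∧ (b : ZMod p) = 1 := by
  have hp2 := h.hp.two_le
  have hodd : Odd p := h.hp.odd_of_ne_two h.hp2
  have ha : (a : ZMod p) = -1 := by
    have := cast_of_dvd (frob_prime h.hp h.hpG)
    rw [hpa] at this
    push_cast at this
    linear_combination this
  have h3 := cast_of_dvd ((Dvd.intro_left _ rfl).trans
    (frob_four_mul h.hp h.hp2 h.h4 h.hpG) : p ∣ _)
  rw [cn_two_mul h.c2 hodd, h.c2, h.c4, hpa] at h3
  have h4 : (cn G (4 * p) : ZMod p) = 1 := by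
    push_cast at h3
    rw [ha] at h3
    linear_combination h3
  refine ⟨ha, ?_⟩
  rcases h.big (4 * p) (by omega) with h5 | h5 | h5
  · rw [h5] at h4
    exact absurd h4.symm (by simpa using one_ne h.hp)
  · rw [h5, ha] at h4
    exact absurd (by linear_combination -h4) (two_ne h.hp h.hp2)
  · exact ⟨h5, by rw [← h5]; exact h4⟩

theorem Hyp2.not_ab {p q : ℕ} (h : Hyp2 G a b p q) (hpa : cn G p = a) (hqb : cn G q = b) :
    False := by
  obtain ⟨ha, -, hb⟩ := h.four_p hpa
  have h3 := cast_of_dvd ((Dvd.intro _ rfl).trans (frob_mul h.hp h.hq h.hpq h.hpG h.hqG) : p ∣ _)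
  rw [hpa, hqb] at h3
  have h4 : (cn G (p * q) : ZMod p) = -1 := by
    push_cast at h3
    rw [ha, hb] at h3
    linear_combination h3
  have hp2 := h.hp.two_le
  have hq2 := h.hq.two_le
  rcases h.big (p * q) (by nlinarith [h.hp2, h.hq2, h.hpq]) with h5 | h5 | h5
  · rw [h5] at h4
    apply one_ne h.hp
    push_cast at h4
    linear_combination h4
  · exact h.ne_pq h5
  · rw [h5, hb] at h4
    exact two_ne h.hp h.hp2 (by linear_combination h4)

theorem Hyp2.not_bb {p q : ℕ} (h : Hyp2 G a b p q) (hpb : cn G p = b) (hqb : cn G q = b) :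
    False := by
  have hb : (b : ZMod p) = -1 := by
    have := cast_of_dvd (frob_prime h.hp h.hpG)
    rw [hpb] at this
    push_cast at this
    linear_combination this
  have h3 := cast_of_dvd ((Dvd.intro _ rfl).trans (frob_mul h.hp h.hq h.hpq h.hpG h.hqG) : p ∣ _)
  rw [hpb, hqb] at h3
  have h4 : (cn G (p * q) : ZMod p) = 1 := by
    push_cast at h3
    rw [hb] at h3
    linear_combination h3
  have hp2 := h.hp.two_le
  have hq2 := h.hq.two_le
  rcases h.big (p * q) (by nlinarith [h.hp2, h.hq2, h.hpq]) with h5 | h5 | h5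
  · rw [h5] at h4
    apply one_ne h.hp
    push_cast at h4
    exact h4.symm
  · exact h.ne_pq h5
  · rw [h5, hb] at h4
    exact two_ne h.hp h.hp2 (by linear_combination -h4)

theorem Hyp2.not_aa {p q : ℕ} (h : Hyp2 G a b p q) (hpa : cn G p = a) (hqa : cn G q = a) :
    False := by
  obtain ⟨ha, hp4, hb⟩ := h.four_p hpa
  obtain ⟨-, hq4, -⟩ := h.symm.four_p hqa
  have h3 := cast_of_dvd ((Dvd.intro _ rfl).trans (frob_mul h.hp h.hq h.hpq h.hpG h.hqG) : p ∣ _)
  rw [hpa, hqa] at h3
  have h4 : (cn G (p * q) : ZMod p) = 1 := by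
    push_cast at h3
    rw [ha] at h3
    linear_combination h3
  have hp2 := h.hp.two_le
  have hq2 := h.hq.two_le
  have hpq2 : 2 < p * q := by nlinarith [h.hp2, h.hq2, h.hpq]
  have hpqb : cn G (p * q) = b := by
    rcases h.big (p * q) hpq2 with h5 | h5 | h5
    · rw [h5] at h4
      push_cast at h4
      exact absurd h4.symm (one_ne h.hp)
    · exact absurd h5 h.ne_pq
    · exact h5
  have h6 := cast_of_dvd ((show p ∣ 4 * (p * q) from ⟨4 * q, by ring⟩).trans
    (frob_four_mul_mul h.hp h.hq h.hpq h.hp2 h.hq2 h.h4 h.hpG h.hqG) : p ∣ _)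
  rw [cn_two_mul h.c2 (h.hp.odd_of_ne_two h.hp2), cn_two_mul h.c2 (h.hq.odd_of_ne_two h.hq2),
    cn_two_mul h.c2 ((h.hp.odd_of_ne_two h.hp2).mul (h.hq.odd_of_ne_two h.hq2)), hpqb, hpa, hqa,
    hp4, hq4, h.c2, h.c4] at h6
  have h7 : (cn G (4 * (p * q)) : ZMod p) = -1 := by
    push_cast at h6
    rw [ha, hb] at h6
    linear_combination h6
  rcases h.big (4 * (p * q)) (by omega) with h5 | h5 | h5
  · rw [h5] at h7
    apply one_ne h.hp
    push_cast at h7
    linear_combination h7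
  · exact h.ne_four_pq h5
  · rw [h5, hb] at h7
    exact two_ne h.hp h.hp2 (by linear_combination h7)

/-- One involution and `4 ∣ |G|`: at most one odd prime divides `|G|`. -/
theorem no_two_odd_of_eq_one (H : Hyp G a b) (h4 : 4 ∣ Nat.card G) (hc : cn G 2 = 1) {p q : ℕ}
    (hp : p.Prime) (hq : q.Prime) (hp2 : p ≠ 2) (hq2 : q ≠ 2) (hpq : p ≠ q)
    (hpG : p ∣ Nat.card G) (hqG : q ∣ Nat.card G) : False := by
  have h1 := frob_four h4
  rw [hc] at h1
  have key : ∀ a b, Hyp G a b → cn G 4 = a → False := by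
    intro a b H ha
    have h : Hyp2 G a b p q := by
      refine ⟨h4, hc, ha, by omega, ?_, hp, hq, hp2, hq2, hpq, hpG, hqG⟩
      intro m hm
      by_cases h0 : cn G m = 0
      · exact Or.inl h0
      · right
        obtain ⟨g, rfl⟩ := exists_of_cn_ne_zero h0
        have h3 := even_cn (G := G) hm
        rcases H.val g with h4 | h4 | h4
        · omega
        · exact Or.inl h4
        · exact Or.inr h4
    rcases h.prime_val with h5 | h5 <;> rcases h.symm.prime_val with h6 | h6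
    · exact h.not_aa h5 h6
    · exact h.not_ab h5 h6
    · exact h.symm.not_ab h6 h5
    · exact h.not_bb h5 h6
  have h5 : cn G 4 ≠ 0 := by omega
  obtain ⟨g, hg⟩ := exists_of_cn_ne_zero h5
  rcases H.val g with h | h | h
  · rw [hg] at h
    omega
  · rw [hg] at h
    exact key a b H h
  · rw [hg] at h
    exact key b a H.symm h

/-- Three same-order class sizes and `4 ∣ |G|`: at most two primes divide `|G|`. -/
theorem card_primeFactors_le_two (H : Hyp G a b) (h4 : 4 ∣ Nat.card G) :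
    (Nat.card G).primeFactors.card ≤ 2 := by
  have h2 : 2 ∣ Nat.card G := (by norm_num : (2 : ℕ) ∣ 4).trans h4
  have key : ∀ p q : ℕ, p.Prime → q.Prime → p ≠ 2 → q ≠ 2 → p ∣ Nat.card G → q ∣ Nat.card G →
      p = q := by
    intro p q hp hq hp2 hq2 hpG hqG
    by_contra hpq
    by_cases hc : cn G 2 = 1
    · exact no_two_odd_of_eq_one H h4 hc hp hq hp2 hq2 hpq hpG hqG
    · exact no_two_odd_of_ne_one H h2 hc hp hq hp2 hq2 hpq hpG hqG
  by_contra hcon
  push Not at hcon
  have h5 : 2 ≤ ((Nat.card G).primeFactors.erase 2).card := by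
    have := Finset.pred_card_le_card_erase (s := (Nat.card G).primeFactors) (a := 2)
    omega
  obtain ⟨p, hp, q, hq, hpq⟩ := Finset.one_lt_card.mp h5
  rw [Finset.mem_erase, Nat.mem_primeFactors] at hp hq
  exact hpq (key p q hp.2.1 hq.2.1 hp.1 hq.1 hp.2.2.1 hq.2.2.1)

end

end Cfsg.Agent.H495.ThreeSizes
end

-- part: S3996
section
set_option autoImplicit false
open Cfsg

namespace Cfsg.Agent.S3996

/-- A finite group in which the numbers of elements of each order that occurs (the numbers #{g : o(g) = m}, m ranging over the element orders) take exactly three different values is solvable. -/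
theorem result {G : Type*} [Group G] [Finite G] (h : (((fun m : ℕ => Nat.card {g : G // orderOf g = m}) '' Set.range (orderOf : G → ℕ))).ncard = 3) : Group.IsSolvable G := by
  obtain ⟨a, b, H⟩ := Cfsg.Agent.H495.ThreeSizes.exists_hyp h
  by_cases h4 : 4 ∣ Nat.card G
  · exact Cfsg.Agent.SolvableStructure.HallConverse.isSolvable_of_no_three_primes
      (Cfsg.Agent.H495.ThreeSizes.card_primeFactors_le_two H h4)
  · exact Cfsg.Agent.H495.NotFour.isSolvable_of_not_four_dvd h4

end Cfsg.Agent.S3996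
end
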