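import Cfsg.Statements.S3997
import Cfsg.Agent.H495.OrderType
set_option linter.all false

set_option autoImplicit false
open Cfsg

namespace Cfsg.Agent.S3997

/-- Let G and H be finite groups with the same order type: for every m they have the same number of elements of order m. If G is nilpotent then so is H. -/
theorem result {G H : Type*} [Group G] [Finite G] [Group H] [Finite H] (hT : (∀ m : ℕ, Nat.card {g : G // orderOf g = m} = Nat.card {h : H // orderOf h = m})) (hG : Group.IsNilpotent G) :
    Group.IsNilpotent H := by
  obtain ⟨e, he⟩ := Cfsg.Agent.H495.OrderType.exists_equiv hT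
  have h1 : ∀ (p : ℕ) (_ : Fact p.Prime) (P : Sylow p G), (P : Subgroup G).Normal :=
    ((Group.isNilpotent_of_finite_tfae (G := G)).out 0 3).mp hG
  refine ((Group.isNilpotent_of_finite_tfae (G := H)).out 0 3).mpr ?_
  intro p hp Q
  have hP := h1 p hp default
  exact Cfsg.Agent.H495.OrderType.sylow_normal he (default : Sylow p G) Q

end Cfsg.Agent.S3997
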