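import Cfsg.Agent.H495.OrderType
import Cfsg.Agent.S0529
import Mathlib.GroupTheory.Coset.Card
import Cfsg.Statements.S3998
set_option linter.all false

-- part: H495/Tower
section
set_option autoImplicit false

/-!
Groups with the order type of a supersolvable group have a Sylow tower.
-/

namespace Cfsg.Agent.H495.Tower

open Cfsg.Agent.H495.OrderType

/-- All prime divisors of `m` are at least `n`. -/
def Rough (n m : ℕ) : Prop := ∀ p : ℕ, p.Prime → p ∣ m → n ≤ p

theorem Rough.of_dvd {n m k : ℕ} (h : Rough n m) (hk : k ∣ m) : Rough n k :=
  fun p hp hpk => h p hp (hpk.trans hk)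

theorem rough_one (n : ℕ) : Rough n 1 := fun _ hp h =>
  absurd (Nat.dvd_one.mp h) hp.one_lt.ne'

theorem rough_zero (m : ℕ) : Rough 0 m := fun _ _ _ => Nat.zero_le _

theorem Rough.mul {n a b : ℕ} (ha : Rough n a) (hb : Rough n b) : Rough n (a * b) :=
  fun p hp h => (hp.dvd_mul.mp h).elim (ha p hp) (hb p hp)

/-- The chain of a supersolvable group, indexed by natural numbers. -/
theorem exists_nat_chain {G : Type*} [Group G] [Finite G] (hG : Cfsg.IsSupersolvable G) :
    ∃ (m : ℕ) (H : ℕ → Subgroup G), H 0 = ⊥ ∧ H m = ⊤ ∧ (∀ i, (H i).Normal) ∧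
      (∀ i < m, H i ≤ H (i + 1) ∧ ((H i).relIndex (H (i + 1))).Prime) ∧
      (∀ i j, i ≤ j → j < m → (H j).relIndex (H (j + 1)) ≤ (H i).relIndex (H (i + 1))) := by
  obtain ⟨m, H, h0, hm, hn, hp, hle⟩ := Cfsg.Agent.S0529.result hG
  have key : ∀ i (hi : i < m), H ⟨min i m, by omega⟩ = H (Fin.castSucc ⟨i, hi⟩) ∧
      H ⟨min (i + 1) m, by omega⟩ = H (Fin.succ ⟨i, hi⟩) := by
    intro i hi
    constructor
    · congr 1
      ext
      simp
      omega
    · congr 1
      ext
      simp
      omega
  refine ⟨m, fun i => H ⟨min i m, by omega⟩, ?_, ?_, ?_, ?_, ?_⟩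
  · rw [← h0]
    exact congrArg H (Fin.ext (by simp))
  · rw [← hm]
    exact congrArg H (Fin.ext (by simp))
  · intro i
    exact hn _
  · intro i hi
    simp only
    rw [(key i hi).1, (key i hi).2]
    exact hp _
  · intro i j hij hj
    simp only
    rw [(key i (by omega)).1, (key i (by omega)).2, (key j hj).1, (key j hj).2]
    exact hle _ _ hij

/-- A supersolvable group has, for every `n`, a normal Hall subgroup for the primes at least `n`. -/
theorem exists_rough_hall {G : Type*} [Group G] [Finite G] (hG : Cfsg.IsSupersolvable G) (n : ℕ) :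
    ∃ K : Subgroup G, K.Normal ∧ Rough n (Nat.card K) ∧ ∀ p, p.Prime → p ∣ K.index → p < n := by
  classical
  obtain ⟨m, H, h0, hm, hn, hp, hle⟩ := exists_nat_chain hG
  have hex : ∃ i, i ≤ m ∧ Rough n (Nat.card (H i)) :=
    ⟨0, Nat.zero_le _, by rw [h0, Subgroup.card_bot]; exact rough_one n⟩
  obtain ⟨i, ⟨him, hi⟩, hmax⟩ : ∃ i, (i ≤ m ∧ Rough n (Nat.card (H i))) ∧
      ∀ j, (j ≤ m ∧ Rough n (Nat.card (H j))) → j ≤ i := by
    refine ⟨Nat.findGreatest (fun i => Rough n (Nat.card (H i))) m, ⟨Nat.findGreatest_le _, ?_⟩, ?_⟩
    · obtain ⟨i, hi, hi'⟩ := hex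
      exact Nat.findGreatest_spec (P := fun i => Rough n (Nat.card (H i))) hi hi'
    · rintro j ⟨hj, hj'⟩
      exact Nat.le_findGreatest hj hj'
  refine ⟨H i, hn i, hi, ?_⟩
  rcases him.lt_or_eq with hlt | heq
  · -- the next index is a prime less than `n`
    have hq : (H i).relIndex (H (i + 1)) < n := by
      by_contra hcon
      push Not at hcon
      have : Rough n (Nat.card (H (i + 1))) := by
        rw [← Subgroup.relIndex_bot_left, ← Subgroup.relIndex_mul_relIndex ⊥ (H i) (H (i + 1))
          bot_le (hp i hlt).1, Subgroup.relIndex_bot_left]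
        refine hi.mul ?_
        intro p hpp hpd
        rwa [(Nat.prime_dvd_prime_iff_eq hpp (hp i hlt).2).mp hpd]
      have := hmax (i + 1) ⟨hlt, this⟩
      omega
    have hrel : ∀ k, i + k ≤ m → ∀ p, p.Prime → p ∣ (H i).relIndex (H (i + k)) → p < n := by
      intro k
      induction k with
      | zero =>
        intro _ p hpp hpd
        simp only [Nat.add_zero, Subgroup.relIndex_self] at hpd
        exact absurd (Nat.dvd_one.mp hpd) hpp.one_lt.ne'
      | succ k ih =>
        intro hk p hpp hpd
        have hmono : ∀ k, i + k ≤ m → H i ≤ H (i + k) := by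
          intro k
          induction k with
          | zero => intro _; exact le_rfl
          | succ k ih => intro hk; exact (ih (by omega)).trans (hp (i + k) (by omega)).1
        rw [← add_assoc, ← Subgroup.relIndex_mul_relIndex (H i) (H (i + k)) (H (i + k + 1))
          (hmono k (by omega)) (hp (i + k) (by omega)).1] at hpd
        rcases hpp.dvd_mul.mp hpd with h | h
        · exact ih (by omega) p hpp h
        · have := (Nat.prime_dvd_prime_iff_eq hpp (hp (i + k) (by omega)).2).mp h
          rw [this]
          exact lt_of_le_of_lt (hle i (i + k) (by omega) (by omega)) hq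
    intro p hpp hpd
    have := hrel (m - i) (by omega) p hpp
    rw [show i + (m - i) = m by omega, hm, Subgroup.relIndex_top_right] at this
    exact this hpd
  · subst heq
    intro p hpp hpd
    rw [hm, Subgroup.index_top] at hpd
    exact absurd (Nat.dvd_one.mp hpd) hpp.one_lt.ne'

/-- Membership in a normal Hall subgroup for the primes at least `n`. -/
theorem mem_iff_rough {G : Type*} [Group G] [Finite G] {n : ℕ} {K : Subgroup G} (hK : K.Normal)
    (h1 : Rough n (Nat.card K)) (h2 : ∀ p, p.Prime → p ∣ K.index → p < n) (g : G) :
    g ∈ K ↔ Rough n (orderOf g) := by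
  constructor
  · intro hg
    refine h1.of_dvd ?_
    have := orderOf_dvd_natCard (⟨g, hg⟩ : K)
    rwa [Subgroup.orderOf_mk] at this
  · intro hg
    have h3 : orderOf (QuotientGroup.mk' K g) = 1 := by
      by_contra hne
      obtain ⟨p, hp, hpd⟩ := Nat.exists_prime_and_dvd hne
      have h4 : n ≤ p := hg p hp (hpd.trans (orderOf_map_dvd _ _))
      have h5 : p < n := h2 p hp (hpd.trans (by
        have := orderOf_dvd_natCard (QuotientGroup.mk' K g)
        rwa [Subgroup.index_eq_card]))
      omega
    rw [orderOf_eq_one_iff] at h3
    exact (QuotientGroup.eq_one_iff g).mp h3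

/-- A finite group in which the number of `n`-rough elements is the `n`-rough part of the order,
for every `n`, is solvable. -/
theorem solvable_of_counts {H : Type*} [Group H] [Finite H]
    (hc : ∀ n : ℕ, ∃ b, Nat.card H = Nat.card {h : H // Rough n (orderOf h)} * b ∧
      Rough n (Nat.card {h : H // Rough n (orderOf h)}) ∧ ∀ p, p.Prime → p ∣ b → p < n) :
    Group.IsSolvable H := by
  classical
  have main : ∀ k n : ℕ, n + k = Nat.card H + 1 → ∃ K : Subgroup H, K.Normal ∧
      Group.IsSolvable K ∧ ∀ g, g ∈ K ↔ Rough n (orderOf g) := by
    intro k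
    induction k with
    | zero =>
      intro n hn
      refine ⟨⊥, inferInstance, inferInstance, fun g => ?_⟩
      rw [Subgroup.mem_bot]
      constructor
      · rintro rfl
        rw [orderOf_one]
        exact rough_one n
      · intro hg
        rw [← orderOf_eq_one_iff]
        by_contra hne
        obtain ⟨p, hp, hpd⟩ := Nat.exists_prime_and_dvd hne
        have h4 := hg p hp hpd
        have h5 := Nat.le_of_dvd Nat.card_pos (hpd.trans (orderOf_dvd_natCard g))
        omega
    | succ k ih =>
      intro n hn
      obtain ⟨K, hKn, hKs, hK⟩ := ih (n + 1) (by omega)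
      by_cases hnp : n.Prime
      · -- the essential case
        have := Fact.mk hnp
        -- the preimage of the `p`-elements of the quotient
        have hpre : ∀ g : H, (∃ j, orderOf (QuotientGroup.mk' K g) = n ^ j) ↔
            Rough n (orderOf g) := by
          intro g
          have hg0 : orderOf g ≠ 0 := (orderOf_pos g).ne'
          constructor
          · rintro ⟨j, hj⟩ q hq hqd
            by_cases hqn : q = n
            · exact hqn.ge
            have h1 : g ^ (n ^ j) ∈ K := by
              rw [← QuotientGroup.eq_one_iff, QuotientGroup.mk_pow]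
              have := pow_orderOf_eq_one (QuotientGroup.mk' K g)
              rw [hj] at this
              exact this
            rw [hK] at h1
            have h2 : q ∣ orderOf (g ^ n ^ j) := by
              rw [orderOf_pow]
              have h3 : (orderOf g).gcd (n ^ j) ∣ n ^ j := Nat.gcd_dvd_right _ _
              have h4 : q.Coprime ((orderOf g).gcd (n ^ j)) := by
                refine Nat.Coprime.coprime_dvd_right h3 ?_
                exact Nat.Coprime.pow_right _ ((Nat.coprime_primes hq hnp).mpr hqn)
              have h5 : q ∣ orderOf g / (orderOf g).gcd (n ^ j) * (orderOf g).gcd (n ^ j) := by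
                rwa [Nat.div_mul_cancel (Nat.gcd_dvd_left _ _)]
              exact h4.dvd_of_dvd_mul_right h5
            have := h1 q hq h2
            omega
          · intro hg
            obtain ⟨j, m, hm, hjm⟩ := Nat.exists_eq_pow_mul_and_not_dvd hg0 n hnp.ne_one
            have h1 : g ^ (n ^ j) ∈ K := by
              rw [hK]
              intro q hq hqd
              have h2 : orderOf (g ^ n ^ j) = m := by
                rw [orderOf_pow, hjm, Nat.gcd_eq_right (Dvd.intro _ rfl)]
                exact Nat.mul_div_cancel_left m (pow_pos hnp.pos _)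
              rw [h2] at hqd
              have h3 : n ≤ q := hg q hq (by rw [hjm]; exact hqd.mul_left _)
              have h4 : q ≠ n := by
                rintro rfl
                exact hm hqd
              omega
            have h5 : orderOf (QuotientGroup.mk' K g) ∣ n ^ j := by
              rw [orderOf_dvd_iff_pow_eq_one]
              exact (QuotientGroup.eq_one_iff _).mpr h1
            obtain ⟨i, _, hi⟩ := (Nat.dvd_prime_pow hnp).mp h5
            exact ⟨i, hi⟩
        -- counting
        have hcardK : Nat.card {h : H // Rough (n + 1) (orderOf h)} = Nat.card K :=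
          Nat.card_congr (Equiv.subtypeEquivRight fun g => (hK g).symm)
        have hcount : Nat.card K * Nat.card {x : H ⧸ K // ∃ j, orderOf x = n ^ j} =
            Nat.card {h : H // Rough n (orderOf h)} := by
          rw [← Nat.card_prod]
          refine Nat.card_congr ((QuotientGroup.preimageMkEquivSubgroupProdSet K
            {x : H ⧸ K | ∃ j, orderOf x = n ^ j}).symm.trans ?_)
          exact Equiv.subtypeEquivRight fun g => hpre g
        obtain ⟨b, hb1, hb2, hb3⟩ := hc n
        obtain ⟨b', hb1', hb2', hb3'⟩ := hc (n + 1)
        rw [hcardK] at hb1' hb2'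
        have hKpos : 0 < Nat.card K := Nat.card_pos
        have hq : Nat.card (H ⧸ K) = b' := by
          have h1 := Subgroup.card_eq_card_quotient_mul_card_subgroup K
          rw [hb1', mul_comm (Nat.card (H ⧸ K))] at h1
          exact (Nat.eq_of_mul_eq_mul_left hKpos h1).symm
        set s := Nat.card {x : H ⧸ K // ∃ j, orderOf x = n ^ j} with hs
        have hs0 : s ≠ 0 := by
          have : Nonempty {x : H ⧸ K // ∃ j, orderOf x = n ^ j} := ⟨⟨1, 0, by simp⟩⟩
          exact Nat.card_pos.ne'
        have hsb : s * b = b' := by
          rw [← hcount, hb1', mul_assoc] at hb1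
          exact (Nat.eq_of_mul_eq_mul_left hKpos hb1).symm
        have hspow : s = n ^ s.primeFactorsList.length := by
          refine Nat.eq_prime_pow_of_unique_prime_dvd hs0 fun {d} hd hds => ?_
          have h1 : n ≤ d := hb2 d hd (by rw [← hcount]; exact hds.mul_left _)
          have h2 : d < n + 1 := hb3' d hd (by rw [← hsb]; exact hds.mul_right _)
          omega
        have hnorm : ∀ P : Sylow n (H ⧸ K), (P : Subgroup (H ⧸ K)).Normal := by
          intro P
          apply normal_of_card_le
          rw [← hs, P.card_eq_multiplicity, hspow]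
          refine Nat.pow_le_pow_right hnp.pos ?_
          rw [← Nat.Prime.pow_dvd_iff_le_factorization hnp Nat.card_pos.ne', ← hspow, hq, ← hsb]
          exact Dvd.intro _ rfl
        set P : Sylow n (H ⧸ K) := default with hP
        have hPn := hnorm P
        have hPmem : ∀ x : H ⧸ K, x ∈ (P : Subgroup (H ⧸ K)) ↔ ∃ j, orderOf x = n ^ j := by
          intro x
          constructor
          · intro hx
            obtain ⟨k, hk⟩ := (IsPGroup.iff_orderOf.mp P.isPGroup') ⟨x, hx⟩
            exact ⟨k, by rw [← hk, Subgroup.orderOf_mk]⟩
          · rintro ⟨j, hj⟩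
            have hz : IsPGroup n (Subgroup.zpowers x) := IsPGroup.of_card (n := j) (by
              rw [Nat.card_zpowers, hj])
            obtain ⟨Q, hQ⟩ := hz.exists_le_sylow
            have := Sylow.unique_of_normal P hPn
            have hQP : Q = P := Subsingleton.elim _ _
            rw [← hQP]
            exact hQ (Subgroup.mem_zpowers x)
        refine ⟨(P : Subgroup (H ⧸ K)).comap (QuotientGroup.mk' K), hPn.comap _, ?_, ?_⟩
        · -- solvability
          have hPs : Group.IsSolvable (P : Subgroup (H ⧸ K)) := by
            have := P.isPGroup'.isNilpotent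
            infer_instance
          let φ : ↥((P : Subgroup (H ⧸ K)).comap (QuotientGroup.mk' K)) →* ↥(P : Subgroup (H ⧸ K)) :=
            ((QuotientGroup.mk' K).subgroupComap (P : Subgroup (H ⧸ K)))
          have hker : ∀ x, x ∈ φ.ker → (x : H) ∈ K := by
            intro x hx
            rw [MonoidHom.mem_ker] at hx
            have := congrArg Subtype.val hx
            exact (QuotientGroup.eq_one_iff (x : H)).mp this
          have hle : K ≤ (P : Subgroup (H ⧸ K)).comap (QuotientGroup.mk' K) := by
            intro x hx
            rw [Subgroup.mem_comap]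
            have : QuotientGroup.mk' K x = 1 := (QuotientGroup.eq_one_iff x).mpr hx
            rw [this]
            exact one_mem _
          refine Group.isSolvable_of_ker_le_range (Subgroup.inclusion hle) φ ?_
          intro x hx
          exact ⟨⟨x, hker x hx⟩, by ext; rfl⟩
        · intro g
          exact (hPmem _).trans (hpre g)
      · refine ⟨K, hKn, hKs, fun g => ?_⟩
        rw [hK]
        constructor
        · intro h p hp hpd
          have := h p hp hpd
          omega
        · intro h p hp hpd
          have h1 := h p hp hpd
          have : p ≠ n := by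
            rintro rfl
            exact hnp hp
          omega
  obtain ⟨K, -, hKs, hK⟩ := main (Nat.card H + 1) 0 (by omega)
  have hKtop : K = ⊤ := by
    rw [eq_top_iff]
    intro g _
    exact (hK g).mpr (rough_zero _)
  subst hKtop
  exact Group.isSolvable_of_surjective (f := (⊤ : Subgroup H).subtype) (fun x => ⟨⟨x, trivial⟩, rfl⟩)

/-- A finite group with the order type of a supersolvable group is solvable. -/
theorem solvable_of_equiv {G H : Type*} [Group G] [Finite G] [Group H] [Finite H]
    {e : G ≃ H} (he : ∀ g, orderOf (e g) = orderOf g) (hG : Cfsg.IsSupersolvable G) :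
    Group.IsSolvable H := by
  apply solvable_of_counts
  intro n
  obtain ⟨K, hK1, hK2, hK3⟩ := exists_rough_hall hG n
  have hcard : Nat.card {h : H // Rough n (orderOf h)} = Nat.card K := by
    rw [← card_eq_of_equiv he (fun m => Rough n m)]
    exact Nat.card_congr (Equiv.subtypeEquivRight fun g => (mem_iff_rough hK1 hK2 hK3 g).symm)
  refine ⟨K.index, ?_, ?_, hK3⟩
  · rw [hcard, Subgroup.card_mul_index, Nat.card_congr e]
  · rwa [hcard]

end Cfsg.Agent.H495.Tower
end

-- part: S3998
section
set_option autoImplicit false
open Cfsg

namespace Cfsg.Agent.S3998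

/-- Let G and H be finite groups with the same order type (for every m the same number of elements of order m). If G is supersolvable then H is solvable. -/
theorem result {G H : Type*} [Group G] [Finite G] [Group H] [Finite H] (hT : (∀ m : ℕ, Nat.card {g : G // orderOf g = m} = Nat.card {h : H // orderOf h = m})) (hG : Cfsg.IsSupersolvable G) :
    Group.IsSolvable H := by
  obtain ⟨e, he⟩ := Cfsg.Agent.H495.OrderType.exists_equiv hT
  exact Cfsg.Agent.H495.Tower.solvable_of_equiv he hG

end Cfsg.Agent.S3998
end
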