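import Mathlib
import Cfsg.Agent.H496.CyclicCount
import Cfsg.Agent.H496.ThreePrimes
import Cfsg.Agent.S0144
import Cfsg.Agent.S0041
import Cfsg.Agent.S0039
import Cfsg.Agent.S0126
import Cfsg.Agent.Solvable.HallAux
import Cfsg.Statements.S4004
set_option linter.all false

-- part: H496/ThreeSizes
section
/-!
# Groups of odd order with three same-order class sizes: counting

`cnt G m` is the number of elements of order `m`.
-/

set_option autoImplicit false

namespace Cfsg.Agent.H496.ThreeSizes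

open scoped Pointwise

universe u

/-- number of elements of order `m` -/
noncomputable def cnt (G : Type u) [Group G] (m : ℕ) : ℕ := Nat.card {g : G // orderOf g = m}

variable {G : Type u} [Group G] [Finite G]

theorem cnt_pos_iff (m : ℕ) : 0 < cnt G m ↔ ∃ g : G, orderOf g = m := by
  unfold cnt
  rw [Nat.card_pos_iff]
  constructor
  · rintro ⟨⟨g, hg⟩, -⟩
    exact ⟨g, hg⟩
  · rintro ⟨g, hg⟩
    exact ⟨⟨⟨g, hg⟩⟩, inferInstance⟩

omit [Finite G] in
theorem cnt_one : cnt G 1 = 1 := by
  unfold cnt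
  rw [Nat.card_eq_one_iff_unique]
  refine ⟨⟨fun a b => Subtype.ext ?_⟩, ⟨1, orderOf_one⟩⟩
  rw [orderOf_eq_one_iff.mp a.2, orderOf_eq_one_iff.mp b.2]

theorem totient_dvd_cnt (m : ℕ) : Nat.totient m ∣ cnt G m := by
  have h := Cfsg.Agent.H496.CyclicCount.card_eq_totient_mul (G := G) (d := m) {g : G | orderOf g = m}
    (fun y hy => hy) (fun y hy y' hy' => by
      show orderOf y' = m
      rw [← show orderOf y = m from hy, ← Nat.card_zpowers, ← Nat.card_zpowers, hy'])
  exact ⟨_, h⟩

/-- the number of solutions of `g ^ n = 1` -/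
theorem card_pow_eq_one {n : ℕ} (hn : n ≠ 0) :
    Nat.card {g : G // g ^ n = 1} = ∑ d ∈ n.divisors, cnt G d := by
  classical
  let f : {g : G // g ^ n = 1} → n.divisors := fun g =>
    ⟨orderOf g.1, Nat.mem_divisors.mpr ⟨orderOf_dvd_of_pow_eq_one g.2, hn⟩⟩
  have h1 : Nat.card {g : G // g ^ n = 1} = Nat.card (Σ d : n.divisors, {g : {g : G // g ^ n = 1} // f g = d}) :=
    Nat.card_congr (Equiv.sigmaFiberEquiv f).symm
  rw [h1, Nat.card_sigma, ← Finset.sum_coe_sort n.divisors (fun d => cnt G d)]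
  refine Finset.sum_congr rfl fun d _ => ?_
  unfold cnt
  refine Nat.card_congr ⟨fun g => ⟨g.1.1, congrArg Subtype.val g.2⟩, fun g => ⟨⟨g.1, ?_⟩, Subtype.ext g.2⟩, fun g => rfl, fun g => rfl⟩
  rw [← orderOf_dvd_iff_pow_eq_one, g.2]
  exact (Nat.mem_divisors.mp d.2).1

theorem frob_sum {n : ℕ} (hn : n ∣ Nat.card G) : n ∣ ∑ d ∈ n.divisors, cnt G d := by
  have hn0 : n ≠ 0 := by
    rintro rfl
    exact Nat.card_pos.ne' (Nat.eq_zero_of_zero_dvd hn)
  rw [← card_pow_eq_one hn0]
  exact Cfsg.Agent.H418.Frob.frobenius_dvd n hn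

theorem sum_divisors_mul {m n : ℕ} (hmn : m.Coprime n) (f : ℕ → ℕ) :
    ∑ d ∈ (m * n).divisors, f d = ∑ a ∈ m.divisors, ∑ b ∈ n.divisors, f (a * b) := by
  rw [Nat.divisors_mul, Finset.mul_def, Finset.sum_image hmn.mul_injOn_divisors, Finset.sum_product]

theorem sum_divisors_prime {p : ℕ} (hp : p.Prime) (f : ℕ → ℕ) :
    ∑ d ∈ p.divisors, f d = f 1 + f p := by
  rw [hp.divisors, Finset.sum_pair hp.one_lt.ne]

/-- `|G|_p`-count when there are no elements of order `p ^ 2` -/
theorem pow_dvd_of_no_sq {p k : ℕ} (hp : p.Prime) (hno : cnt G (p ^ 2) = 0) (hk : 0 < k)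
    (h : p ^ k ∣ Nat.card G) : p ^ k ∣ 1 + cnt G p := by
  have h1 := Cfsg.Agent.H418.Frob.frobenius_dvd (G := G) (p ^ k) h
  have h2 : Nat.card {g : G // g ^ (p ^ k) = 1} = Nat.card {g : G // g ^ p = 1} := by
    refine Nat.card_congr (Equiv.subtypeEquivRight fun g => ⟨fun hg => ?_, fun hg => ?_⟩)
    · obtain ⟨j, hj, hjo⟩ := (Nat.dvd_prime_pow hp).mp (orderOf_dvd_of_pow_eq_one hg)
      rcases Nat.lt_or_ge j 2 with h3 | h3
      · rw [← orderOf_dvd_iff_pow_eq_one, hjo]
        calc p ^ j ∣ p ^ 1 := pow_dvd_pow p (by omega)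
          _ = p := pow_one p
      · exfalso
        have h4 : 0 < cnt G (p ^ 2) := by
          rw [cnt_pos_iff]
          refine ⟨g ^ p ^ (j - 2), ?_⟩
          rw [orderOf_pow_of_dvd (pow_pos hp.pos _).ne' (by rw [hjo]; exact pow_dvd_pow p (by omega)),
            hjo, Nat.pow_div (by omega) hp.pos]
          congr 1
          omega
        omega
    · obtain ⟨l, rfl⟩ : ∃ l, k = l + 1 := ⟨k - 1, by omega⟩
      rw [pow_succ', pow_mul, hg, one_pow]
  rw [h2, card_pow_eq_one hp.ne_zero, sum_divisors_prime hp, cnt_one] at h1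
  exact h1

/-- the basic congruences -/
theorem cast_one {p : ℕ} (hp : p.Prime) (hpG : p ∣ Nat.card G) : (cnt G p : ZMod p) = -1 := by
  have h1 := frob_sum hpG
  rw [sum_divisors_prime hp, cnt_one, ← ZMod.natCast_eq_zero_iff] at h1
  push_cast at h1
  linear_combination h1

theorem cast_two {p q : ℕ} (hp : p.Prime) (hq : q.Prime) (hpq : p ≠ q) (hpG : p ∣ Nat.card G)
    (hqG : q ∣ Nat.card G) : (cnt G q : ZMod p) + cnt G (p * q) = 0 := by
  have hc : p.Coprime q := (Nat.coprime_primes hp hq).mpr hpq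
  have h1 := (dvd_mul_right p q).trans (frob_sum (hc.mul_dvd_of_dvd_of_dvd hpG hqG))
  rw [sum_divisors_mul hc, sum_divisors_prime hp, sum_divisors_prime hq, sum_divisors_prime hq,
    ← ZMod.natCast_eq_zero_iff] at h1
  simp only [one_mul, mul_one, cnt_one] at h1
  push_cast at h1
  linear_combination h1 - cast_one hp hpG

theorem cast_three {p q r : ℕ} (hp : p.Prime) (hq : q.Prime) (hr : r.Prime) (hpq : p ≠ q)
    (hpr : p ≠ r) (hqr : q ≠ r) (hpG : p ∣ Nat.card G)
    (hqG : q ∣ Nat.card G) (hrG : r ∣ Nat.card G) :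
    (cnt G (q * r) : ZMod p) + cnt G (p * (q * r)) = 0 := by
  have hc : q.Coprime r := (Nat.coprime_primes hq hr).mpr hqr
  have hc' : p.Coprime (q * r) := Nat.Coprime.mul_right ((Nat.coprime_primes hp hq).mpr hpq)
    ((Nat.coprime_primes hp hr).mpr hpr)
  have h1 := (dvd_mul_right p (q * r)).trans (frob_sum (hc'.mul_dvd_of_dvd_of_dvd hpG
    (hc.mul_dvd_of_dvd_of_dvd hqG hrG)))
  rw [sum_divisors_mul hc', sum_divisors_prime hp, sum_divisors_mul hc, sum_divisors_mul hc,
    sum_divisors_prime hq, sum_divisors_prime hq, sum_divisors_prime hr, sum_divisors_prime hr,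
    sum_divisors_prime hr, sum_divisors_prime hr,
    ← ZMod.natCast_eq_zero_iff] at h1
  simp only [one_mul, mul_one, cnt_one] at h1
  push_cast at h1
  linear_combination h1 - cast_one hp hpG - cast_two hp hq hpq hpG hqG - cast_two hp hr hpr hpG hrG

theorem cnt_prime_pos {p : ℕ} (hp : p.Prime) (hpG : p ∣ Nat.card G) : 0 < cnt G p := by
  have : Fact p.Prime := ⟨hp⟩
  obtain ⟨g, hg⟩ := exists_prime_orderOf_dvd_card' p hpG
  exact (cnt_pos_iff p).mpr ⟨g, hg⟩

theorem two_ne_zero_zmod {p : ℕ} (hp : p.Prime) (hp2 : p ≠ 2) : (2 : ZMod p) ≠ 0 := by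
  intro h
  have h1 : ((2 : ℕ) : ZMod p) = 0 := by exact_mod_cast h
  rw [ZMod.natCast_eq_zero_iff] at h1
  exact hp2 ((Nat.prime_dvd_prime_iff_eq hp Nat.prime_two).mp h1)

theorem one_ne_zero_zmod {p : ℕ} (hp : p.Prime) : (1 : ZMod p) ≠ 0 := by
  have : Fact p.Prime := ⟨hp⟩
  exact one_ne_zero

/-- Two primes `p, q` with `cnt p = cnt q` and a third one `r` in the other class: impossible. -/
theorem claim_one {p q r : ℕ} (hp : p.Prime) (hq : q.Prime) (hr : r.Prime) (hpq : p ≠ q)
    (hpr : p ≠ r) (hqr : q ≠ r) (hpG : p ∣ Nat.card G) (hqG : q ∣ Nat.card G)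
    (hrG : r ∣ Nat.card G) (hp2 : p ≠ 2) (hq2 : q ≠ 2) (hr2 : r ≠ 2)
    (hval : ∀ m, m ≠ 1 → cnt G m ≠ 0 → cnt G m = cnt G p ∨ cnt G m = cnt G r)
    (hsame : cnt G q = cnt G p) : False := by
  have hp1 := cast_one (G := G) hp hpG
  have hq1 := cast_one (G := G) hq hqG
  have hr1 := cast_one (G := G) hr hrG
  have hA := cast_two (G := G) hp hq hpq hpG hqG
  rw [hsame, hp1] at hA
  have hpq1 : p * q ≠ 1 := by
    intro h
    exact hp.one_lt.ne' (Nat.eq_one_of_mul_eq_one_right h)
  have hspq : cnt G (p * q) = cnt G r := by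
    have h0 : cnt G (p * q) ≠ 0 := by
      intro h
      rw [h, Nat.cast_zero, add_zero] at hA
      exact one_ne_zero_zmod hp (by linear_combination -hA)
    rcases hval _ hpq1 h0 with h | h
    · rw [h, hp1] at hA
      exact absurd (by linear_combination -hA) (two_ne_zero_zmod hp hp2)
    · exact h
  rw [hspq] at hA
  -- `cnt r = 1` in `ZMod p`
  have hB := cast_two (G := G) hp hr hpr hpG hrG
  have hpr1 : p * r ≠ 1 := by
    intro h
    exact hp.one_lt.ne' (Nat.eq_one_of_mul_eq_one_right h)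
  have hspr : cnt G (p * r) = cnt G p := by
    have h0 : cnt G (p * r) ≠ 0 := by
      intro h
      rw [h, Nat.cast_zero, add_zero] at hB
      exact one_ne_zero_zmod hp (by linear_combination hB - hA)
    rcases hval _ hpr1 h0 with h | h
    · exact h
    · rw [h] at hB
      exact absurd (by linear_combination hB - 2 * hA) (two_ne_zero_zmod hp hp2)
  -- modulo `q`
  have hA' := cast_two (G := G) hq hp hpq.symm hqG hpG
  have hB' := cast_two (G := G) hq hr hqr hqG hrG
  rw [mul_comm q p, hspq, ← hsame, hq1] at hA'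
  have hqr1 : q * r ≠ 1 := by
    intro h
    exact hq.one_lt.ne' (Nat.eq_one_of_mul_eq_one_right h)
  have hsqr : cnt G (q * r) = cnt G p := by
    have h0 : cnt G (q * r) ≠ 0 := by
      intro h
      rw [h, Nat.cast_zero, add_zero] at hB'
      exact one_ne_zero_zmod hq (by linear_combination hB' - hA')
    rcases hval _ hqr1 h0 with h | h
    · exact h
    · rw [h] at hB'
      exact absurd (by linear_combination hB' - 2 * hA') (two_ne_zero_zmod hq hq2)
  -- the triple product
  have hC := cast_three (G := G) hp hq hr hpq hpr hqr hpG hqG hrG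
  rw [hsqr, hp1] at hC
  have hpqr1 : p * (q * r) ≠ 1 := by
    intro h
    exact hp.one_lt.ne' (Nat.eq_one_of_mul_eq_one_right h)
  have hspqr : cnt G (p * (q * r)) = cnt G r := by
    have h0 : cnt G (p * (q * r)) ≠ 0 := by
      intro h
      rw [h, Nat.cast_zero, add_zero] at hC
      exact one_ne_zero_zmod hp (by linear_combination -hC)
    rcases hval _ hpqr1 h0 with h | h
    · rw [h, hp1] at hC
      exact absurd (by linear_combination -hC) (two_ne_zero_zmod hp hp2)
    · exact h
  have hD := cast_three (G := G) hr hp hq hpr.symm hqr.symm hpq hrG hpG hqG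
  rw [show r * (p * q) = p * (q * r) by ring, hspq, hspqr, hr1] at hD
  exact absurd (by linear_combination -hD) (two_ne_zero_zmod hr hr2)

theorem card_eq_sum : Nat.card G = ∑ d ∈ (Nat.card G).divisors, cnt G d := by
  rw [← card_pow_eq_one Nat.card_pos.ne']
  have h : ∀ g : G, g ^ Nat.card G = 1 := fun g => pow_card_eq_one'
  simp only [h]
  exact (Nat.card_congr (Equiv.subtypeUnivEquiv (fun _ => trivial))).symm

/-- `|G| ≥ 1 + cnt p + cnt q` -/
theorem card_ge {p q : ℕ} (hp : p.Prime) (hq : q.Prime) (hpq : p ≠ q) (hpG : p ∣ Nat.card G)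
    (hqG : q ∣ Nat.card G) : 1 + cnt G p + cnt G q ≤ Nat.card G := by
  rw [card_eq_sum (G := G)]
  have hsub : ({1, p, q} : Finset ℕ) ⊆ (Nat.card G).divisors := by
    intro d hd
    simp only [Finset.mem_insert, Finset.mem_singleton] at hd
    rw [Nat.mem_divisors]
    refine ⟨?_, Nat.card_pos.ne'⟩
    rcases hd with rfl | rfl | rfl
    · exact one_dvd _
    · exact hpG
    · exact hqG
  have h1 := Finset.sum_le_sum_of_subset (f := fun d => cnt G d) hsub
  rw [Finset.sum_insert, Finset.sum_pair hpq, cnt_one] at h1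
  · omega
  · simp only [Finset.mem_insert, Finset.mem_singleton]
    rintro (h | h)
    · exact hp.one_lt.ne h
    · exact hq.one_lt.ne h

/-- Two primes in the same class: impossible. -/
theorem claim_two (hodd : Odd (Nat.card G)) {a b : ℕ} (hab : a ≠ b)
    (hval : ∀ m, m ≠ 1 → cnt G m ≠ 0 → cnt G m = a ∨ cnt G m = b)
    {p q : ℕ} (hp : p.Prime) (hq : q.Prime) (hpq : p ≠ q) (hpG : p ∣ Nat.card G)
    (hqG : q ∣ Nat.card G) : cnt G p ≠ cnt G q := by
  intro hsame
  have h2 : ∀ r : ℕ, r.Prime → r ∣ Nat.card G → r ≠ 2 := by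
    rintro r - h rfl
    exact (Nat.not_even_iff_odd.mpr hodd) (even_iff_two_dvd.mpr h)
  -- the other value
  obtain ⟨B, hB, hvalB⟩ : ∃ B, cnt G p ≠ B ∧ ∀ m, m ≠ 1 → cnt G m ≠ 0 →
      cnt G m = cnt G p ∨ cnt G m = B := by
    rcases hval p hp.one_lt.ne' (cnt_prime_pos hp hpG).ne' with h | h
    · exact ⟨b, by rw [h]; exact hab, fun m hm hm0 => by rw [h]; exact hval m hm hm0⟩
    · exact ⟨a, by rw [h]; exact hab.symm, fun m hm hm0 => by rw [h]; exact (hval m hm hm0).symm⟩
  have hall : ∀ r : ℕ, r.Prime → r ∣ Nat.card G → cnt G r = cnt G p := by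
    intro r hr hrG
    by_contra hne
    have hrB : cnt G r = B := (hvalB r hr.one_lt.ne' (cnt_prime_pos hr hrG).ne').resolve_left hne
    refine claim_one hp hq hr hpq ?_ ?_ hpG hqG hrG (h2 p hp hpG) (h2 q hq hqG) (h2 r hr hrG) ?_ hsame.symm
    · rintro rfl
      exact hne rfl
    · rintro rfl
      exact hne hsame.symm
    · rw [hrB]
      exact hvalB
  have hno : ∀ r : ℕ, r.Prime → r ∣ Nat.card G → cnt G (r ^ 2) = 0 := by
    intro r hr hrG
    obtain ⟨r', hr', hrr', hr'G⟩ : ∃ r' : ℕ, r'.Prime ∧ r ≠ r' ∧ r' ∣ Nat.card G := by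
      by_cases h : r = p
      · exact ⟨q, hq, by rw [h]; exact hpq, hqG⟩
      · exact ⟨p, hp, h, hpG⟩
    have h3 := cast_one (G := G) hr hrG
    have h4 := cast_two (G := G) hr hr' hrr' hrG hr'G
    rw [hall r hr hrG] at h3
    rw [hall r' hr' hr'G, h3] at h4
    have h5 : cnt G (r * r') = B := by
      have h0 : cnt G (r * r') ≠ 0 := by
        intro h
        rw [h, Nat.cast_zero, add_zero] at h4
        exact one_ne_zero_zmod hr (by linear_combination -h4)
      rcases hvalB _ (fun h => hr.one_lt.ne' (Nat.eq_one_of_mul_eq_one_right h)) h0 with h | h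
      · rw [h, h3] at h4
        exact absurd (by linear_combination -h4) (two_ne_zero_zmod hr (h2 r hr hrG))
      · exact h
    rw [h5] at h4
    by_contra h0
    have h6 : (cnt G (r ^ 2) : ZMod r) = 0 := by
      rw [ZMod.natCast_eq_zero_iff]
      refine dvd_trans ?_ (totient_dvd_cnt (G := G) (r ^ 2))
      rw [Nat.totient_prime_pow_succ hr]
      simp
    rcases hvalB _ (by
      intro h
      have := Nat.one_lt_pow (n := 2) (by norm_num) hr.one_lt
      omega) h0 with h | h
    · rw [h, h3] at h6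
      exact one_ne_zero_zmod hr (by linear_combination -h6)
    · rw [h] at h6
      exact one_ne_zero_zmod hr (by linear_combination h6 - h4)
  have hdvd : Nat.card G ∣ 1 + cnt G p := by
    rw [Nat.dvd_iff_prime_pow_dvd_dvd]
    intro r k hr hrk
    rcases Nat.eq_zero_or_pos k with rfl | hk
    · simp
    have hrG : r ∣ Nat.card G := (dvd_pow_self r hk.ne').trans hrk
    rw [← hall r hr hrG]
    exact pow_dvd_of_no_sq hr (hno r hr hrG) hk hrk
  have h7 := Nat.le_of_dvd (by omega) hdvd
  have h8 := card_ge hp hq hpq hpG hqG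
  have h9 := cnt_prime_pos hq hqG
  omega

theorem claim_three (hodd : Odd (Nat.card G)) {a b : ℕ} (hab : a ≠ b)
    (hval : ∀ m, m ≠ 1 → cnt G m ≠ 0 → cnt G m = a ∨ cnt G m = b) :
    (Nat.card G).primeFactors.card ≤ 2 := by
  by_contra hcon
  push Not at hcon
  obtain ⟨p, hp, q, hq, r, hr, hpq, hpr, hqr⟩ := Finset.two_lt_card.mp hcon
  rw [Nat.mem_primeFactors] at hp hq hr
  have h1 := claim_two hodd hab hval hp.1 hq.1 hpq hp.2.1 hq.2.1
  have h2 := claim_two hodd hab hval hp.1 hr.1 hpr hp.2.1 hr.2.1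
  have h3 := claim_two hodd hab hval hq.1 hr.1 hqr hq.2.1 hr.2.1
  have hv : ∀ p : ℕ, p.Prime ∧ p ∣ Nat.card G ∧ Nat.card G ≠ 0 → cnt G p = a ∨ cnt G p = b :=
    fun p hp => hval p hp.1.one_lt.ne' (cnt_prime_pos hp.1 hp.2.1).ne'
  rcases hv p hp with hp' | hp' <;> rcases hv q hq with hq' | hq' <;>
    rcases hv r hr with hr' | hr' <;> omega

/-- conjugation on elements of order `m` -/
@[reducible] def ordAction (P : Subgroup G) (m : ℕ) : MulAction P {g : G // orderOf g = m} where
  smul g y := ⟨(g : G) * y.1 * (g : G)⁻¹, by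
    exact (orderOf_injective (MulAut.conj (g : G)).toMonoidHom (MulAut.conj (g : G)).injective y.1).trans y.2⟩
  one_smul y := by
    apply Subtype.ext
    show ((1 : P) : G) * y.1 * ((1 : P) : G)⁻¹ = y.1
    simp
  mul_smul g h y := by
    apply Subtype.ext
    show ((g * h : P) : G) * y.1 * ((g * h : P) : G)⁻¹ = (g : G) * ((h : G) * y.1 * (h : G)⁻¹) * (g : G)⁻¹
    rw [Subgroup.coe_mul]
    group

/-- If `p` does not divide the number of elements of order `m`, every `p`-subgroup centralises one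
of them. -/
theorem exists_centralized {p : ℕ} [Fact p.Prime] {P : Subgroup G} (hP : IsPGroup p P) {m : ℕ}
    (h : ¬ p ∣ cnt G m) : ∃ y : G, orderOf y = m ∧ ∀ g ∈ P, g * y = y * g := by
  let := ordAction P m
  have h1 : Nat.card {g : G // orderOf g = m} ≡
      Nat.card (MulAction.fixedPoints P {g : G // orderOf g = m}) [MOD p] :=
    hP.card_modEq_card_fixedPoints _
  have h2 : Nat.card (MulAction.fixedPoints P {g : G // orderOf g = m}) ≠ 0 := by
    intro h0
    rw [h0] at h1
    exact h ((Nat.modEq_zero_iff_dvd).mp h1)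
  have h3 : Nonempty (MulAction.fixedPoints P {g : G // orderOf g = m}) := by
    by_contra hne
    rw [not_nonempty_iff] at hne
    exact h2 (Nat.card_of_isEmpty)
  obtain ⟨y, hy⟩ := h3
  refine ⟨y.1, y.2, fun g hg => ?_⟩
  have h4 : g * y.1 * g⁻¹ = y.1 := congrArg Subtype.val (hy ⟨g, hg⟩)
  rwa [mul_inv_eq_iff_eq_mul] at h4

theorem isPGroup_zpowers {p : ℕ} {x : G} {k : ℕ} (hx : orderOf x = p ^ k) :
    IsPGroup p (Subgroup.zpowers x) := by
  apply IsPGroup.of_card (n := k)
  rw [Nat.card_zpowers, hx]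

theorem mul_le_cnt {p q : ℕ} (hp : p.Prime) (hq : q.Prime) (hpq : p ≠ q)
    (h : ¬ p ∣ cnt G q) : (q - 1) * cnt G p ≤ cnt G (q * p) := by
  classical
  have : Fact p.Prime := ⟨hp⟩
  have h1 : cnt G (q * p) = Nat.totient q * Nat.card (Cfsg.Agent.H496.CyclicCount.Pairs G q p) :=
    Cfsg.Agent.H496.CyclicCount.card_orderOf_eq ((Nat.coprime_primes hq hp).mpr hpq.symm)
  rw [h1, Nat.totient_prime hq]
  apply Nat.mul_le_mul_left
  have h2 : ∀ x : {x : G // orderOf x = p}, ∃ y : G, orderOf y = q ∧ Commute y x.1 := by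
    intro x
    have hx : IsPGroup p (Subgroup.zpowers x.1) := isPGroup_zpowers (k := 1) (by rw [x.2, pow_one])
    obtain ⟨y, hy1, hy2⟩ := exists_centralized hx h
    exact ⟨y, hy1, (hy2 x.1 (Subgroup.mem_zpowers x.1)).symm⟩
  choose y hy1 hy2 using h2
  let f : {x : G // orderOf x = p} → Cfsg.Agent.H496.CyclicCount.Pairs G q p :=
    fun x => ⟨(x.1, Subgroup.zpowers (y x)), x.2, y x, ⟨hy1 x, hy2 x⟩, rfl⟩
  have hf : Function.Injective f := by
    intro x x' hxx
    exact Subtype.ext (congrArg (fun z => z.1.1) hxx)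
  exact Nat.card_le_card_of_injective f hf

/-- no elements of order `p * q` -/
theorem claim_four (hodd : Odd (Nat.card G)) {a b : ℕ} (hab : a ≠ b)
    (hval : ∀ m, m ≠ 1 → cnt G m ≠ 0 → cnt G m = a ∨ cnt G m = b)
    {p q : ℕ} (hp : p.Prime) (hq : q.Prime) (hpq : p ≠ q) (hpG : p ∣ Nat.card G)
    (hqG : q ∣ Nat.card G) : cnt G (p * q) = 0 := by
  have h2 : ∀ r : ℕ, r.Prime → r ∣ Nat.card G → r ≠ 2 := by
    rintro r - h rfl
    exact (Nat.not_even_iff_odd.mpr hodd) (even_iff_two_dvd.mpr h)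
  have hne := claim_two hodd hab hval hp hq hpq hpG hqG
  -- it is not `cnt p`
  have key : ∀ {p q : ℕ}, p.Prime → q.Prime → p ≠ q → p ∣ Nat.card G → q ∣ Nat.card G →
      cnt G (p * q) ≠ cnt G p := by
    intro p q hp hq hpq hpG hqG h
    have h3 := cast_two (G := G) hp hq hpq hpG hqG
    rw [h, cast_one hp hpG] at h3
    have h4 : ¬ p ∣ cnt G q := by
      intro h5
      rw [← ZMod.natCast_eq_zero_iff] at h5
      rw [h5] at h3
      exact one_ne_zero_zmod hp (by linear_combination -h3)
    have h5 := mul_le_cnt hp hq hpq h4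
    rw [mul_comm q p, h] at h5
    have h6 := cnt_prime_pos hp hpG
    have h7 : 2 ≤ q - 1 := by
      have := hq.two_le
      have := h2 q hq hqG
      omega
    have h8 : 2 * cnt G p ≤ (q - 1) * cnt G p := Nat.mul_le_mul_right _ h7
    omega
  by_contra h0
  have h3 := key hp hq hpq hpG hqG
  have h4 := key hq hp hpq.symm hqG hpG
  rw [mul_comm q p] at h4
  have hv := hval _ (fun h => hp.one_lt.ne' (Nat.eq_one_of_mul_eq_one_right h)) h0
  have hvp := hval p hp.one_lt.ne' (cnt_prime_pos hp hpG).ne'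
  have hvq := hval q hq.one_lt.ne' (cnt_prime_pos hq hqG).ne'
  rcases hv with hv | hv <;> rcases hvp with hvp | hvp <;> rcases hvq with hvq | hvq <;> omega

end Cfsg.Agent.H496.ThreeSizes
end

-- part: H496/FrobExp
section
/-!
# `{r, t}`-groups of exponent dividing `r * t` without elements of order `r * t`

They are Frobenius groups with complement of prime order (`r`, `t` odd primes).
-/

set_option autoImplicit false

namespace Cfsg.Agent.H496.FrobExp

universe u

/-- The norm argument. -/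
theorem norm_arg {G V : Type*} [Group G] [CommGroup V] (φ : G →* MulAut V) (T : Subgroup G)
    [Fintype T] (hab : ∀ a ∈ T, ∀ b ∈ T, a * b = b * a) (x : G)
    (hxT : ∀ n ∈ T, x⁻¹ * n * x ∈ T) (r : ℕ) (hr : 0 < r)
    (hT : ∀ v : V, (∀ n ∈ T, φ n v = v) → v = 1)
    (hx : ∀ v : V, ∏ j ∈ Finset.range r, φ (x ^ j) v = 1)
    (hfree : ∀ j, 0 < j → j < r → ∀ n ∈ T, n * x ^ j = x ^ j * n → n = 1) (v : V) :
    v ^ Nat.card T = 1 := by
  classical
  have hxT' : ∀ j : ℕ, ∀ n ∈ T, (x ^ j)⁻¹ * n * x ^ j ∈ T := by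
    intro j
    induction j with
    | zero => intro n hn; simpa using hn
    | succ j ih =>
      intro n hn
      have h := ih _ (hxT n hn)
      have h1 : (x ^ (j + 1))⁻¹ * n * x ^ (j + 1) = (x ^ j)⁻¹ * (x⁻¹ * n * x) * x ^ j := by
        rw [pow_succ']
        group
      rwa [h1]
  have hTprod : ∀ u : V, ∏ n : T, φ (n : G) u = 1 := by
    intro u
    apply hT
    intro m hm
    rw [map_prod]
    refine Fintype.prod_equiv (Equiv.mulLeft (⟨m, hm⟩ : T)) _ _ ?_
    intro n
    simp only [Equiv.coe_mulLeft, Subgroup.coe_mul, map_mul, MulAut.mul_apply]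
  have h1 : ∏ n : T, ∏ j ∈ Finset.range r, φ ((n : G) * x ^ j * (n : G)⁻¹) v = 1 := by
    apply Finset.prod_eq_one
    intro n _
    have h2 : ∀ j ∈ Finset.range r, φ ((n : G) * x ^ j * (n : G)⁻¹) v =
        φ (n : G) (φ (x ^ j) (φ (n : G)⁻¹ v)) := by
      intro j _
      simp only [map_mul, MulAut.mul_apply]
    rw [Finset.prod_congr rfl h2, ← map_prod, hx, map_one]
  rw [Finset.prod_comm, ← Finset.prod_erase_mul _ _ (Finset.mem_range.mpr hr)] at h1
  have h3 : ∏ j ∈ (Finset.range r).erase 0, ∏ n : T, φ ((n : G) * x ^ j * (n : G)⁻¹) v = 1 := by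
    apply Finset.prod_eq_one
    intro j hj
    rw [Finset.mem_erase, Finset.mem_range] at hj
    let τ : T → T := fun n => ⟨(x ^ j)⁻¹ * n * x ^ j * (n : G)⁻¹, T.mul_mem (hxT' j n n.2) (T.inv_mem n.2)⟩
    have hτ : Function.Injective τ := by
      intro n m hnm
      have h4 : (x ^ j)⁻¹ * n * x ^ j * (n : G)⁻¹ = (x ^ j)⁻¹ * m * x ^ j * (m : G)⁻¹ :=
        congrArg Subtype.val hnm
      have h5 : (m : G)⁻¹ * n ∈ T := T.mul_mem (T.inv_mem m.2) n.2
      have h6 : (m : G)⁻¹ * n = 1 := by
        apply hfree j (Nat.pos_of_ne_zero hj.1) hj.2 _ h5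
        have h7 := hab _ (hxT' j n n.2) _ (T.inv_mem n.2)
        have h8 : (m : G)⁻¹ * ((x ^ j)⁻¹ * n * x ^ j) = (x ^ j)⁻¹ * n * x ^ j * (m : G)⁻¹ :=
          hab _ (T.inv_mem m.2) _ (hxT' j n n.2)
        have h9 : (x ^ j)⁻¹ * ((m : G)⁻¹ * n) * x ^ j = (m : G)⁻¹ * n := by
          have e1 : (x ^ j)⁻¹ * ((m : G)⁻¹ * n) * x ^ j =
              ((x ^ j)⁻¹ * m * x ^ j)⁻¹ * ((x ^ j)⁻¹ * n * x ^ j) := by group
          have e2 : (x ^ j)⁻¹ * n * x ^ j = (x ^ j)⁻¹ * m * x ^ j * (m : G)⁻¹ * n := by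
            rw [← h4]
            group
          rw [e1, e2]
          group
        calc (m : G)⁻¹ * n * x ^ j = x ^ j * ((x ^ j)⁻¹ * ((m : G)⁻¹ * n) * x ^ j) := by group
          _ = x ^ j * ((m : G)⁻¹ * n) := by rw [h9]
      exact Subtype.ext (inv_mul_eq_one.mp h6).symm
    have hbij : Function.Bijective τ := Finite.injective_iff_bijective.mp hτ
    have h4 : ∀ n : T, φ ((n : G) * x ^ j * (n : G)⁻¹) v = φ (x ^ j) (φ (τ n : G) v) := by
      intro n
      rw [← MulAut.mul_apply, ← map_mul]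
      congr 2
      show (n : G) * x ^ j * (n : G)⁻¹ = x ^ j * ((x ^ j)⁻¹ * n * x ^ j * (n : G)⁻¹)
      group
    rw [Finset.prod_congr rfl (fun n _ => h4 n), ← map_prod,
      hbij.prod_comp (fun n : T => φ (n : G) v), hTprod, map_one]
  rw [h3, one_mul] at h1
  simp only [pow_zero, mul_one, mul_inv_cancel, map_one, MulAut.one_apply, Finset.prod_const,
    Finset.card_univ] at h1
  rw [Nat.card_eq_fintype_card]
  exact h1

/-- Elements of an `{r, t}`-group without elements of orders `r t`, `r ^ 2`, `t ^ 2`. -/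
theorem orderOf_cases {G : Type u} [Group G] [Finite G] {r t : ℕ} (hr : r.Prime) (ht : t.Prime)
    (hrt : r ≠ t) (hG : ∀ p : ℕ, p.Prime → p ∣ Nat.card G → p = r ∨ p = t)
    (hno : ∀ g : G, orderOf g ≠ r * t) (hnor : ∀ g : G, orderOf g ≠ r ^ 2)
    (hnot : ∀ g : G, orderOf g ≠ t ^ 2) (g : G) (hg : g ≠ 1) : orderOf g = r ∨ orderOf g = t := by
  have hcop : Nat.Coprime r t := (Nat.coprime_primes hr ht).mpr hrt
  have hg1 : orderOf g ≠ 1 := by rwa [Ne, orderOf_eq_one_iff]
  have hmin := Nat.minFac_prime hg1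
  have hpow : ∀ p : ℕ, p.Prime → (∀ g : G, orderOf g ≠ p ^ 2) →
      (∀ q : ℕ, q.Prime → q ∣ orderOf g → q = p) → orderOf g = p := by
    intro p hp hnp hq
    have h1 : orderOf g = p ^ (orderOf g).primeFactorsList.length :=
      Nat.eq_prime_pow_of_unique_prime_dvd (orderOf_pos g).ne' (fun {d} hd hd' => hq d hd hd')
    set k := (orderOf g).primeFactorsList.length with hk
    rcases Nat.lt_or_ge k 2 with h2 | h2
    · interval_cases k
      · rw [h1, pow_zero] at hg1
        exact absurd rfl hg1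
      · rw [h1, pow_one]
    · exfalso
      apply hnp (g ^ p ^ (k - 2))
      rw [orderOf_pow_of_dvd (pow_pos hp.pos _).ne' (by rw [h1]; exact pow_dvd_pow p (by omega)),
        h1, Nat.pow_div (by omega) hp.pos]
      congr 1
      omega
  by_cases h1 : r ∣ orderOf g
  · by_cases h2 : t ∣ orderOf g
    · exfalso
      obtain ⟨k, hk⟩ := Cfsg.Agent.H496.ThreePrimes.exists_orderOf_eq_mul g
        (hcop.mul_dvd_of_dvd_of_dvd h1 h2)
      exact hno _ hk
    · left
      apply hpow r hr hnor
      intro q hq hqg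
      rcases hG q hq (hqg.trans (orderOf_dvd_natCard g)) with h | h
      · exact h
      · rw [h] at hqg
        exact absurd hqg h2
  · right
    apply hpow t ht hnot
    intro q hq hqg
    rcases hG q hq (hqg.trans (orderOf_dvd_natCard g)) with h | h
    · rw [h] at hqg
      exact absurd hqg h1
    · exact h

theorem exists_complement {G : Type u} [Group G] [Finite G] {r t : ℕ} (hr : r.Prime) (ht : t.Prime)
    (hrt : r ≠ t) (ht2 : t ≠ 2)
    (hG : ∀ p : ℕ, p.Prime → p ∣ Nat.card G → p = r ∨ p = t) (htG : t ∣ Nat.card G)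
    (hno : ∀ g : G, orderOf g ≠ r * t) (hnor : ∀ g : G, orderOf g ≠ r ^ 2)
    (hnot : ∀ g : G, orderOf g ≠ t ^ 2)
    (V : Subgroup G) (hVn : V.Normal) (hV : V ≠ ⊥) (hVab : IsMulCommutative V)
    (hVr : ∀ v ∈ V, v ^ r = 1) :
    ∃ C : Subgroup G, Cfsg.IsFrobeniusComplement C ∧ (Nat.card C).Prime := by
  classical
  have : Fact t.Prime := ⟨ht⟩
  have : Fact r.Prime := ⟨hr⟩
  have hcop : Nat.Coprime r t := (Nat.coprime_primes hr ht).mpr hrt
  have hcases := orderOf_cases hr ht hrt hG hno hnor hnot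
  have hVo : ∀ v ∈ V, v ≠ 1 → orderOf v = r := fun v hv hv1 => orderOf_eq_prime (hVr v hv) hv1
  -- elements of orders `r`, `t` do not commute
  have hnc : ∀ x y : G, orderOf x = t → orderOf y = r → ¬ Commute x y := by
    intro x y hx hy h
    apply hno (y * x)
    rw [h.symm.orderOf_mul_eq_mul_orderOf_of_coprime, hx, hy]
    rw [hx, hy]
    exact hcop
  obtain ⟨T⟩ : Nonempty (Sylow t G) := inferInstance
  have hTo : ∀ x ∈ (T : Subgroup G), x ≠ 1 → orderOf x = t := by
    intro x hx hx1
    rcases hcases x hx1 with h | h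
    · exfalso
      obtain ⟨k, hk⟩ := IsPGroup.iff_orderOf.mp T.isPGroup' ⟨x, hx⟩
      rw [Subgroup.orderOf_mk, h] at hk
      have h1 : r ∣ t := hr.dvd_of_dvd_pow (by rw [← hk])
      exact hrt ((Nat.prime_dvd_prime_iff_eq hr ht).mp h1)
    · exact h
  have hfpf : ∀ a ∈ (T : Subgroup G), a ≠ 1 → V ⊓ Subgroup.centralizer {a} = ⊥ := by
    intro a ha ha1
    rw [eq_bot_iff]
    intro v hv
    obtain ⟨hv1, hv2⟩ := Subgroup.mem_inf.mp hv
    rw [Subgroup.mem_centralizer_singleton_iff] at hv2
    by_contra hne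
    exact hnc a v (hTo a ha ha1) (hVo v hv1 hne) hv2.symm
  have hTV : ∀ K : Subgroup G, K ≤ Subgroup.normalizer (V : Set G) := by
    intro K c _
    rw [Subgroup.mem_normalizer_iff]
    intro k
    exact ⟨fun hk => hVn.conj_mem k hk c, fun hk => by
      have := hVn.conj_mem _ hk c⁻¹
      have h1 : c⁻¹ * (c * k * c⁻¹) * c⁻¹⁻¹ = k := by group
      rwa [h1] at this⟩
  have hTne : (T : Subgroup G) ≠ ⊥ := by
    intro h
    have h1 := T.card_eq_multiplicity
    rw [h, Subgroup.card_bot] at h1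
    have h2 : 0 < (Nat.card G).factorization t :=
      ht.factorization_pos_of_dvd Nat.card_pos.ne' htG
    have := Nat.one_lt_pow h2.ne' ht.one_lt
    omega
  -- `T` is cyclic
  have hTcyc : IsCyclic (T : Subgroup G) := by
    by_contra hncyc
    obtain ⟨A, -, ⟨hA1, hA2⟩, hA3⟩ := Cfsg.Agent.S0126.result ht2 T.isPGroup' hncyc
    have hA4 : Nat.card (A.map (T : Subgroup G).subtype) = t * t := by
      rw [Subgroup.card_map_of_injective (T : Subgroup G).subtype_injective, hA3, pow_two]
    have hcyc : IsCyclic (A.map (T : Subgroup G).subtype) := by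
      refine Cfsg.Agent.S0041.result (A.map (T : Subgroup G).subtype) V hV (hTV _) ?_
        (Or.inr ⟨t, t, ht, ht, hA4⟩)
      rintro _ ⟨a, -, rfl⟩ ha1
      exact hfpf a a.2 ha1
    obtain ⟨g, hg⟩ := IsCyclic.exists_ofOrder_eq_natCard (α := A.map (T : Subgroup G).subtype)
    obtain ⟨a, ha, hag⟩ := g.2
    have h1 : (g : G) ^ t = 1 := by
      rw [← hag, ← map_pow, hA2 a ha, map_one]
    have h2 := orderOf_dvd_of_pow_eq_one h1
    rw [Subgroup.orderOf_coe, hg, hA4] at h2
    have h3 := Nat.le_of_dvd ht.pos h2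
    nlinarith [ht.two_le]
  have hTab : ∀ a ∈ (T : Subgroup G), ∀ b ∈ (T : Subgroup G), a * b = b * a := by
    intro a ha b hb
    let := IsCyclic.commGroup (α := (T : Subgroup G))
    exact congrArg Subtype.val (mul_comm (⟨a, ha⟩ : (T : Subgroup G)) ⟨b, hb⟩)
  have hTcard : Nat.card (T : Subgroup G) = t := by
    obtain ⟨g, hg⟩ := IsCyclic.exists_ofOrder_eq_natCard (α := (T : Subgroup G))
    rw [← hg, ← Subgroup.orderOf_coe]
    apply hTo _ g.2
    intro h
    rw [← Subgroup.orderOf_coe, h, orderOf_one] at hg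
    exact hTne (Subgroup.card_eq_one.mp hg.symm)
  by_cases hN : Subgroup.normalizer ((T : Subgroup G) : Set G) ≤ Subgroup.centralizer ((T : Subgroup G) : Set G)
  · -- transfer
    have hc := MonoidHom.ker_transferSylow_isComplement' T hN
    set K := (MonoidHom.transferSylow T hN).ker with hK
    have hcK := hc.card_mul_card
    have hKne : K ≠ ⊥ := by
      intro h
      rw [h, Subgroup.card_bot, one_mul] at hcK
      have h1 : (T : Subgroup G) = ⊤ := Subgroup.eq_top_of_card_eq _ hcK
      obtain ⟨v, hv, hv1⟩ := V.bot_or_exists_ne_one.resolve_left hV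
      have h2 := hTo v (by rw [h1]; trivial) hv1
      rw [hVo v hv hv1] at h2
      exact hrt h2
    refine ⟨T, (Cfsg.Agent.S0039.result K T hc hKne hTne).mpr ?_, by rw [hTcard]; exact ht⟩
    intro h hh hh1
    rw [eq_bot_iff]
    intro k hk
    obtain ⟨hk1, hk2⟩ := Subgroup.mem_inf.mp hk
    rw [Subgroup.mem_centralizer_singleton_iff] at hk2
    by_contra hne
    -- `k` is a `t'`-element
    have hkr : orderOf k = r := by
      rcases hcases k hne with h1 | h1
      · exact h1
      · exfalso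
        have h2 : t ∣ Nat.card K := by
          rw [← h1, ← Subgroup.orderOf_mk k hk1]
          exact orderOf_dvd_natCard _
        have h3 : t ^ ((Nat.card G).factorization t + 1) ∣ Nat.card G := by
          rw [pow_succ', ← T.card_eq_multiplicity, ← hcK]
          exact mul_dvd_mul_right h2 _
        have h4 := (Nat.Prime.pow_dvd_iff_le_factorization ht Nat.card_pos.ne').mp h3
        omega
    exact hnc h k (hTo h hh hh1) hkr hk2.symm
  · exfalso
    rw [SetLike.not_le_iff_exists] at hN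
    obtain ⟨x, hxN, hxC⟩ := hN
    have hx1 : x ≠ 1 := by
      rintro rfl
      exact hxC (one_mem _)
    -- `x` has order `r`
    have hxr : orderOf x = r := by
      rcases hcases x hx1 with h | h
      · exact h
      · exfalso
        have h1 : IsPGroup t (Subgroup.zpowers x) :=
          Cfsg.Agent.H496.ThreeSizes.isPGroup_zpowers (k := 1) (by rw [pow_one, h])
        have h2 : IsPGroup t (Subgroup.zpowers x ⊔ (T : Subgroup G) : Subgroup G) :=
          h1.to_sup_of_normal_right' T.isPGroup' (Subgroup.zpowers_le.mpr hxN)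
        have h3 := T.is_maximal' h2 le_sup_right
        have h4 : x ∈ (T : Subgroup G) := by
          rw [← h3]
          exact (le_sup_left : Subgroup.zpowers x ≤ _) (Subgroup.mem_zpowers x)
        apply hxC
        rw [Subgroup.mem_centralizer_iff]
        intro y hy
        exact hTab y hy x h4
    have hxT : ∀ n ∈ (T : Subgroup G), x⁻¹ * n * x ∈ (T : Subgroup G) := by
      intro n hn
      have h1 := Subgroup.mem_normalizer_iff.mp (Subgroup.inv_mem _ hxN) n
      rw [inv_inv] at h1
      exact h1.mp hn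
    let : CommGroup V := { (inferInstance : Group V) with mul_comm := hVab.is_comm.comm }
    let φ : G →* MulAut V := MulAut.conjNormal
    have hφ : ∀ (g : G) (v : V), ((φ g v : V) : G) = g * v * g⁻¹ := fun g v => rfl
    have hVp : IsPGroup r V := by
      rw [IsPGroup.iff_orderOf]
      intro v
      by_cases h : v = 1
      · exact ⟨0, by rw [h, orderOf_one, pow_zero]⟩
      · exact ⟨1, by rw [← Subgroup.orderOf_coe, hVo v v.2 (fun h' => h (Subtype.ext h')), pow_one]⟩
    have hxp : IsPGroup r (Subgroup.zpowers x) :=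
      Cfsg.Agent.H496.ThreeSizes.isPGroup_zpowers (k := 1) (by rw [pow_one, hxr])
    have hsup : IsPGroup r (V ⊔ Subgroup.zpowers x : Subgroup G) := hVp.to_sup_of_normal_left hxp
    have hprod : ∀ v : V, ∏ j ∈ Finset.range r, φ (x ^ j) v = 1 := by
      intro v
      have h1 : ((v : G) * x) ^ r = 1 := by
        have h2 : (v : G) * x ∈ (V ⊔ Subgroup.zpowers x : Subgroup G) :=
          Subgroup.mul_mem_sup v.2 (Subgroup.mem_zpowers x)
        obtain ⟨k, hk⟩ := IsPGroup.iff_orderOf.mp hsup ⟨_, h2⟩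
        rw [Subgroup.orderOf_mk] at hk
        by_cases h3 : (v : G) * x = 1
        · rw [h3, one_pow]
        · rcases hcases _ h3 with h4 | h4
          · rw [← h4]
            exact pow_orderOf_eq_one _
          · exfalso
            rw [h4] at hk
            have h5 : t ∣ r := ht.dvd_of_dvd_pow (by rw [← hk])
            exact hrt ((Nat.prime_dvd_prime_iff_eq ht hr).mp h5).symm
      have hpr : ∀ n : ℕ, ((v : G) * x) ^ n =
          ((∏ j ∈ Finset.range n, φ (x ^ j) v : V) : G) * x ^ n := by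
        intro n
        induction n with
        | zero => simp
        | succ n ih =>
          rw [pow_succ ((v : G) * x), ih, Finset.prod_range_succ, Subgroup.coe_mul, hφ, pow_succ]
          group
      rw [hpr, show x ^ r = 1 by rw [← hxr]; exact pow_orderOf_eq_one x, mul_one] at h1
      exact Subtype.ext h1
    have : Fintype (T : Subgroup G) := Fintype.ofFinite _
    have hfin := norm_arg φ (T : Subgroup G) hTab x hxT r hr.pos
      (by
        intro v hv
        obtain ⟨n, hn, hn1⟩ := (T : Subgroup G).bot_or_exists_ne_one.resolve_left hTne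
        have h1 : n * (v : G) * n⁻¹ = v := congrArg Subtype.val (hv n hn)
        rw [mul_inv_eq_iff_eq_mul] at h1
        have h2 : (v : G) ∈ V ⊓ Subgroup.centralizer {n} := by
          refine Subgroup.mem_inf.mpr ⟨v.2, ?_⟩
          rw [Subgroup.mem_centralizer_singleton_iff]
          exact h1.symm
        rw [hfpf n hn hn1, Subgroup.mem_bot] at h2
        exact Subtype.ext h2)
      hprod
      (by
        intro j hj hjr n hn hc
        by_contra hn1
        refine hnc n (x ^ j) (hTo n hn hn1) ?_ hc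
        rw [Nat.Coprime.orderOf_pow, hxr]
        rw [hxr]
        exact (Nat.Prime.coprime_iff_not_dvd hr).mpr (Nat.not_dvd_of_pos_of_lt hj hjr))
    obtain ⟨v, hv, hv1⟩ := V.bot_or_exists_ne_one.resolve_left hV
    have h1 := congrArg Subtype.val (hfin ⟨v, hv⟩)
    rw [hTcard] at h1
    have h2 : v ^ t = 1 := h1
    have h3 := orderOf_dvd_of_pow_eq_one h2
    rw [hVo v hv hv1] at h3
    exact hrt ((Nat.prime_dvd_prime_iff_eq hr ht).mp h3)

end Cfsg.Agent.H496.FrobExp
end

-- part: S4004
section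
set_option autoImplicit false
open Cfsg

namespace Cfsg.Agent.S4004

open Cfsg.Agent.H496.ThreeSizes

/-- Let G be a finite group of odd order in which the numbers of elements of each order that occurs (the numbers #{g : o(g) = m}, m ranging over the element orders of G) take exactly three different values. Then the order of G has at most two prime divisors; and if it has exactly two, then every Sylow subgroup of G for a prime dividing its order has prime exponent, G is a Frobenius group, and some Frobenius complement of G has prime order. -/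
theorem result {G : Type*} [Group G] [Finite G] (hodd : Odd (Nat.card G)) (h : (((fun m : ℕ => Nat.card {g : G // orderOf g = m}) '' Set.range (orderOf : G → ℕ))).ncard = 3) :
    (Nat.card G).primeFactors.card ≤ 2 ∧
      ((Nat.card G).primeFactors.card = 2 →
        (∀ (p : ℕ) [Fact p.Prime] (P : Sylow p G), p ∣ Nat.card G → Monoid.exponent ↥(P : Subgroup G) = p) ∧
        ∃ C : Subgroup G, Cfsg.IsFrobeniusComplement C ∧ (Nat.card ↥C).Prime) := by
  set T : Set ℕ := (fun m : ℕ => Nat.card {g : G // orderOf g = m}) '' Set.range (orderOf : G → ℕ)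
    with hT
  have h1T : (1 : ℕ) ∈ T := ⟨1, ⟨1, orderOf_one⟩, cnt_one⟩
  obtain ⟨a, b, hab, hab'⟩ : ∃ a b : ℕ, a ≠ b ∧ T \ {1} = {a, b} := by
    have h1 : (T \ {1}).ncard = 2 := by
      rw [Set.ncard_sdiff_singleton_of_mem h1T, h]
    exact Set.ncard_eq_two.mp h1
  have hval : ∀ m, m ≠ 1 → cnt G m ≠ 0 → cnt G m = a ∨ cnt G m = b := by
    intro m hm hm0
    obtain ⟨g, hg⟩ := (cnt_pos_iff m).mp (Nat.pos_of_ne_zero hm0)
    have h2 : cnt G m ∈ T := ⟨m, ⟨g, hg⟩, rfl⟩
    have h3 : cnt G m ≠ 1 := by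
      intro h3
      have h4 : Odd m := by
        rw [← hg]
        exact Odd.of_dvd_nat hodd (orderOf_dvd_natCard g)
      have h5 : 0 < m := hg ▸ orderOf_pos g
      have h6 : 2 < m := by
        obtain ⟨k, hk⟩ := h4
        omega
      have h7 := (even_iff_two_dvd.mp (Nat.totient_even h6)).trans (totient_dvd_cnt (G := G) m)
      rw [h3] at h7
      omega
    have h4 : cnt G m ∈ T \ {1} := ⟨h2, h3⟩
    rw [hab'] at h4
    exact h4
  have h2 : ∀ r : ℕ, r ∣ Nat.card G → r ≠ 2 := by
    rintro r h rfl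
    exact (Nat.not_even_iff_odd.mpr hodd) (even_iff_two_dvd.mpr h)
  refine ⟨claim_three hodd hab hval, fun hc => ?_⟩
  obtain ⟨p, q, hpq, hpf⟩ := Finset.card_eq_two.mp hc
  have hpm : p ∈ (Nat.card G).primeFactors := by rw [hpf]; simp
  have hqm : q ∈ (Nat.card G).primeFactors := by rw [hpf]; simp
  rw [Nat.mem_primeFactors] at hpm hqm
  obtain ⟨hp, hpG, hG0⟩ := hpm
  obtain ⟨hq, hqG, -⟩ := hqm
  have hprimes : ∀ r : ℕ, r.Prime → r ∣ Nat.card G → r = p ∨ r = q := by
    intro r hr hrG
    have h3 : r ∈ (Nat.card G).primeFactors := Nat.mem_primeFactors.mpr ⟨hr, hrG, hG0⟩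
    rw [hpf] at h3
    simpa using h3
  have hpq0 := claim_four hodd hab hval hp hq hpq hpG hqG
  have hne := claim_two hodd hab hval hp hq hpq hpG hqG
  have hnopq : ∀ g : G, orderOf g ≠ p * q := by
    intro g hg
    have := (cnt_pos_iff (p * q)).mpr ⟨g, hg⟩
    omega
  -- no elements of order `r ^ 2`
  have hsq : ∀ r s : ℕ, r.Prime → s.Prime → r ≠ s → r ∣ Nat.card G → s ∣ Nat.card G →
      (∀ g : G, orderOf g ≠ r * s) → cnt G r ≠ cnt G s →
      (∀ m, m ≠ 1 → cnt G m ≠ 0 → cnt G m = cnt G r ∨ cnt G m = cnt G s) →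
      ∀ g : G, orderOf g ≠ r ^ 2 := by
    intro r s hr hs hrs hrG hsG hno hne hv g hg
    have : Fact s.Prime := ⟨hs⟩
    have h3 : cnt G (r ^ 2) ≠ 0 := ((cnt_pos_iff (r ^ 2)).mpr ⟨g, hg⟩).ne'
    have hr2 : r ^ 2 ≠ 1 := by
      have := Nat.one_lt_pow (n := 2) (by norm_num) hr.one_lt
      omega
    have hdr : r ∣ cnt G (r ^ 2) := by
      refine dvd_trans ?_ (totient_dvd_cnt (G := G) (r ^ 2))
      rw [Nat.totient_prime_pow_succ hr]
      simp
    have hds : s ∣ cnt G (r ^ 2) := by
      by_contra hnd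
      obtain ⟨S⟩ : Nonempty (Sylow s G) := inferInstance
      obtain ⟨y, hy1, hy2⟩ := exists_centralized S.isPGroup' hnd
      have hSd : s ∣ Nat.card (S : Subgroup G) := by
        rw [S.card_eq_multiplicity]
        exact dvd_pow_self s (hs.factorization_pos_of_dvd Nat.card_pos.ne' hsG).ne'
      obtain ⟨x, hx⟩ := exists_prime_orderOf_dvd_card' s hSd
      have hxy0 : Commute y (x : G) := (hy2 x x.2).symm
      have hxy : Commute (y ^ r) (x : G) := hxy0.pow_left r
      have hyr : orderOf (y ^ r) = r := by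
        rw [orderOf_pow_of_dvd hr.ne_zero (by rw [hy1]; exact dvd_pow_self r two_ne_zero), hy1,
          pow_two]
        exact Nat.mul_div_cancel _ hr.pos
      apply hno (y ^ r * (x : G))
      rw [hxy.orderOf_mul_eq_mul_orderOf_of_coprime, hyr, Subgroup.orderOf_coe, hx]
      rw [hyr, Subgroup.orderOf_coe, hx]
      exact (Nat.coprime_primes hr hs).mpr hrs
    have key : ∀ t : ℕ, t.Prime → t ∣ Nat.card G → ¬ t ∣ cnt G t := by
      intro t ht htG hd
      have h4 := cast_one (G := G) ht htG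
      rw [(ZMod.natCast_eq_zero_iff _ _).mpr hd] at h4
      exact one_ne_zero_zmod ht (by linear_combination h4)
    rcases hv _ hr2 h3 with h4 | h4
    · rw [h4] at hdr
      exact key r hr hrG hdr
    · rw [h4] at hds
      exact key s hs hsG hds
  have hv' : ∀ m, m ≠ 1 → cnt G m ≠ 0 → cnt G m = cnt G p ∨ cnt G m = cnt G q := by
    intro m hm hm0
    have h3 := hval m hm hm0
    have h4 := hval p hp.one_lt.ne' (cnt_prime_pos hp hpG).ne'
    have h5 := hval q hq.one_lt.ne' (cnt_prime_pos hq hqG).ne'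
    rcases h3 with h3 | h3 <;> rcases h4 with h4 | h4 <;> rcases h5 with h5 | h5 <;> omega
  have hp2 : ∀ g : G, orderOf g ≠ p ^ 2 := hsq p q hp hq hpq hpG hqG hnopq hne hv'
  have hq2 : ∀ g : G, orderOf g ≠ q ^ 2 := hsq q p hq hp hpq.symm hqG hpG
    (fun g hg => hnopq g (by rw [hg, mul_comm])) hne.symm (fun m hm hm0 => (hv' m hm hm0).symm)
  have hcases := Cfsg.Agent.H496.FrobExp.orderOf_cases hp hq hpq hprimes hnopq hp2 hq2
  constructor
  · intro r hr P hrG
    have hrp : r.Prime := hr.out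
    have hexp : Monoid.exponent (P : Subgroup G) ∣ r := by
      apply Monoid.exponent_dvd_of_forall_pow_eq_one
      intro g
      by_cases hg : g = 1
      · rw [hg, one_pow]
      · have hg' : (g : G) ≠ 1 := fun h => hg (Subtype.ext h)
        obtain ⟨k, hk⟩ := IsPGroup.iff_orderOf.mp P.isPGroup' g
        have h3 : orderOf g = r := by
          have h4 : (orderOf g).Prime := by
            rw [← Subgroup.orderOf_coe]
            rcases hcases g hg' with h | h
            · rw [h]; exact hp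
            · rw [h]; exact hq
          have h5 : orderOf g ∣ r := h4.dvd_of_dvd_pow (by rw [← hk])
          exact (Nat.prime_dvd_prime_iff_eq h4 hrp).mp h5
        exact orderOf_dvd_iff_pow_eq_one.mp (by rw [h3])
    rcases (Nat.dvd_prime hrp).mp hexp with h3 | h3
    · exfalso
      have hSd : r ∣ Nat.card (P : Subgroup G) := by
        rw [P.card_eq_multiplicity]
        exact dvd_pow_self r (hrp.factorization_pos_of_dvd Nat.card_pos.ne' hrG).ne'
      obtain ⟨x, hx⟩ := exists_prime_orderOf_dvd_card' r hSd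
      have h4 := Monoid.order_dvd_exponent x
      rw [h3, hx] at h4
      exact hrp.one_lt.ne' (Nat.dvd_one.mp h4)
    · exact h3
  · -- solvable
    have hcard : Nat.card G = p ^ (Nat.card G).factorization p * q ^ (Nat.card G).factorization q := by
      conv_lhs => rw [← Nat.prod_factorization_pow_eq_self hG0]
      rw [Finsupp.prod, Nat.support_factorization, hpf, Finset.prod_pair hpq]
    have hsol : Group.IsSolvable G := Cfsg.Agent.S0144.result p q _ _ hp hq hcard
    have hnt : Nontrivial G := by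
      rw [← Finite.one_lt_card_iff_nontrivial]
      exact lt_of_lt_of_le hp.one_lt (Nat.le_of_dvd Nat.card_pos hpG)
    obtain ⟨r, V, hr, hVn, hVne, hVab, hVr⟩ :=
      Cfsg.Agent.Solvable.HallAux.exists_normal_elementary (G := G)
    have hrG : r ∣ Nat.card G := by
      obtain ⟨v, hv, hv1⟩ := V.bot_or_exists_ne_one.resolve_left hVne
      have : Fact r.Prime := ⟨hr⟩
      rw [← orderOf_eq_prime (hVr v hv) hv1]
      exact orderOf_dvd_natCard v
    rcases hprimes r hr hrG with rfl | rfl
    · exact Cfsg.Agent.H496.FrobExp.exists_complement hp hq hpq (h2 q hqG) hprimes hqG hnopq hp2 hq2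
        V hVn hVne hVab hVr
    · exact Cfsg.Agent.H496.FrobExp.exists_complement hq hp hpq.symm (h2 p hpG)
        (fun s hs hsG => (hprimes s hs hsG).symm) hpG (fun g hg => hnopq g (by rw [hg, mul_comm]))
        hq2 hp2 V hVn hVne hVab hVr

end Cfsg.Agent.S4004
end
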