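import Mathlib
import Cfsg.Agent.Lib.DihedralRecog
import Cfsg.Prelude.Def_Transfer
import Cfsg.Statements.S4211
set_option linter.all false

-- part: H542/Hamiltonian
section
/-!
# Finite Hamiltonian groups

A finite non-abelian group all of whose subgroups are normal is `Q₈ × E × A` with `E` elementary
abelian of exponent `2` and `A` abelian of odd order.
-/

set_option autoImplicit false

namespace Cfsg.Agent.H542.Hamiltonian

open Subgroup

universe u

/-- `(u v) ^ n` when the commutator `c` of `u`, `v` commutes with both. -/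
theorem pow_formula {G : Type u} [Group G] {u v c : G} (hu : Commute c u) (hv : Commute c v)
    (h : v * u = c * u * v) (n : ℕ) : (u * v) ^ n = c ^ (n.choose 2) * (u ^ n * v ^ n) := by
  have h1 : ∀ n : ℕ, v ^ n * u = c ^ n * u * v ^ n := by
    intro n
    induction n with
    | zero => simp
    | succ n ih =>
      have hcv : Commute (c ^ n) v := hv.pow_left n
      calc v ^ (n + 1) * u = v * (v ^ n * u) := by rw [pow_succ']; group
        _ = (v * c ^ n) * u * v ^ n := by rw [ih]; group
        _ = c ^ n * (v * u) * v ^ n := by rw [← hcv.eq]; group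
        _ = c ^ n * (c * u * v) * v ^ n := by rw [h]
        _ = c ^ (n + 1) * u * v ^ (n + 1) := by rw [pow_succ, pow_succ' v]; group
  induction n with
  | zero => simp
  | succ n ih =>
    have hcu : Commute (c ^ n) (u ^ n) := hu.pow_pow n n
    calc (u * v) ^ (n + 1) = (u * v) ^ n * (u * v) := pow_succ _ _
      _ = c ^ (n.choose 2) * u ^ n * (v ^ n * u) * v := by rw [ih]; group
      _ = c ^ (n.choose 2) * (u ^ n * c ^ n) * u * v ^ n * v := by rw [h1]; group
      _ = c ^ (n.choose 2) * (c ^ n * u ^ n) * u * v ^ n * v := by rw [hcu.eq]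
      _ = c ^ (n.choose 2 + n) * (u ^ (n + 1) * v ^ (n + 1)) := by
        rw [pow_add, pow_succ u, pow_succ v]; group
      _ = _ := by
        congr 2
        rw [Nat.choose_succ_succ' n 1, Nat.choose_one_right, add_comm]

theorem zpowers_eq {G : Type u} [Group G] [Finite G] {x c : G} {p k : ℕ} (hp : p.Prime)
    (hx : orderOf x = k * p) (hc : c ∈ zpowers x) (ho : orderOf c = p) :
    zpowers c = zpowers (x ^ k) := by
  have hpos : 0 < orderOf x := orderOf_pos x
  have hk : k ≠ 0 := by rintro rfl; rw [hx, zero_mul] at hpos; exact lt_irrefl _ hpos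
  have h1 : orderOf (x ^ k) = p := by
    rw [orderOf_pow_of_dvd hk (hx ▸ dvd_mul_right _ _), hx, Nat.mul_div_cancel_left _
      (Nat.pos_of_ne_zero hk)]
  apply Subgroup.eq_of_le_of_card_ge
  · rw [zpowers_le]
    obtain ⟨j, hj⟩ := (mem_zpowers_iff).1 hc
    have h2 : c ^ p = 1 := by rw [← ho]; exact pow_orderOf_eq_one c
    have h3 : (x ^ (j * p)) = 1 := by rw [zpow_mul, hj, zpow_natCast]; exact h2
    have h4 : ((orderOf x : ℕ) : ℤ) ∣ j * p := orderOf_dvd_iff_zpow_eq_one.2 h3
    rw [hx, Nat.cast_mul] at h4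
    have h5 : (k : ℤ) ∣ j := Int.dvd_of_mul_dvd_mul_right (by exact_mod_cast hp.ne_zero) h4
    obtain ⟨i, rfl⟩ := h5
    rw [← hj, zpow_mul, zpow_natCast]
    exact ⟨i, rfl⟩
  · rw [Nat.card_zpowers, Nat.card_zpowers, h1, ho]

section

variable {G : Type u} [Group G] (hn : ∀ H : Subgroup G, H.Normal)

include hn

theorem comm_mem_right (x y : G) : x * y * x⁻¹ * y⁻¹ ∈ zpowers y :=
  mul_mem ((hn (zpowers y)).conj_mem y (mem_zpowers y) x) (inv_mem (mem_zpowers y))

theorem comm_mem_left (x y : G) : x * y * x⁻¹ * y⁻¹ ∈ zpowers x := by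
  have h := (hn (zpowers x)).conj_mem x⁻¹ (inv_mem (mem_zpowers x)) y
  have e : x * y * x⁻¹ * y⁻¹ = x * (y * x⁻¹ * y⁻¹) := by group
  rw [e]
  exact mul_mem (mem_zpowers x) h

theorem commute_left (x y : G) : Commute (x * y * x⁻¹ * y⁻¹) x := by
  obtain ⟨j, hj⟩ := mem_zpowers_iff.1 (comm_mem_left hn x y)
  rw [← hj]; exact (Commute.refl x).zpow_left j

theorem commute_right (x y : G) : Commute (x * y * x⁻¹ * y⁻¹) y := by
  obtain ⟨j, hj⟩ := mem_zpowers_iff.1 (comm_mem_right hn x y)
  rw [← hj]; exact (Commute.refl y).zpow_left j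

/-- `[x ^ n, y] = [x, y] ^ n` -/
theorem comm_pow_left (x y : G) (n : ℕ) :
    x ^ n * y * (x ^ n)⁻¹ * y⁻¹ = (x * y * x⁻¹ * y⁻¹) ^ n := by
  induction n with
  | zero => simp
  | succ n ih =>
    have hc := (commute_left hn x y).eq
    set c := x * y * x⁻¹ * y⁻¹ with hcdef
    calc x ^ (n + 1) * y * (x ^ (n + 1))⁻¹ * y⁻¹
        = x * (x ^ n * y * (x ^ n)⁻¹ * y⁻¹) * (y * x⁻¹ * y⁻¹) := by rw [pow_succ']; group
      _ = x * c ^ n * x⁻¹ * (x * y * x⁻¹ * y⁻¹) := by rw [ih]; group
      _ = x * c ^ n * x⁻¹ * c := by rw [← hcdef]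
      _ = c ^ n * (x * x⁻¹) * c := by
        have : Commute x (c ^ n) := (commute_left hn x y).symm.pow_right n
        rw [this.eq, mul_assoc (c ^ n)]
      _ = c ^ (n + 1) := by rw [pow_succ, mul_inv_cancel, mul_one]

theorem comm_pow_right (x y : G) (n : ℕ) :
    x * y ^ n * x⁻¹ * (y ^ n)⁻¹ = (x * y * x⁻¹ * y⁻¹) ^ n := by
  have h := comm_pow_left hn y x n
  have e1 : x * y ^ n * x⁻¹ * (y ^ n)⁻¹ = (y ^ n * x * (y ^ n)⁻¹ * x⁻¹)⁻¹ := by group
  have e2 : x * y * x⁻¹ * y⁻¹ = (y * x * y⁻¹ * x⁻¹)⁻¹ := by group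
  rw [e1, e2, h, inv_pow]

/-- A finite non-abelian group with all subgroups normal contains a quaternion pair. -/
theorem exists_quat [Finite G] (hna : ¬ ∀ a b : G, a * b = b * a) :
    ∃ x y : G, orderOf x = 4 ∧ y * y = x * x ∧ y * x * y⁻¹ = x⁻¹ := by
  classical
  -- a minimal pair
  have hex : ∃ n : ℕ, ∃ x y : G, x * y ≠ y * x ∧ orderOf x + orderOf y = n := by
    push Not at hna
    obtain ⟨a, b, hab⟩ := hna
    exact ⟨_, a, b, hab, rfl⟩
  obtain ⟨x, y, hxy, hsum⟩ := Nat.find_spec hex
  have hmin : ∀ x' y' : G, x' * y' ≠ y' * x' → orderOf x + orderOf y ≤ orderOf x' + orderOf y' := by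
    intro x' y' h
    rw [hsum]
    exact Nat.find_min' hex ⟨x', y', h, rfl⟩
  -- it suffices to do the case where the order of `y` is at most the order of `x`
  suffices H : ∀ x y : G, x * y ≠ y * x →
      (∀ x' y' : G, x' * y' ≠ y' * x' → orderOf x + orderOf y ≤ orderOf x' + orderOf y') →
      orderOf y ≤ orderOf x →
      ∃ x y : G, orderOf x = 4 ∧ y * y = x * x ∧ y * x * y⁻¹ = x⁻¹ by
    rcases le_total (orderOf y) (orderOf x) with h | h
    · exact H x y hxy hmin h
    · exact H y x (Ne.symm hxy) (fun x' y' h' => by rw [add_comm]; exact hmin x' y' h') h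
  clear hsum hmin hxy x y hex hna
  intro x y hxy hmin hle
  set c := x * y * x⁻¹ * y⁻¹ with hc
  have hc1 : c ≠ 1 := by
    intro h
    apply hxy
    calc x * y = c * (y * x) := by rw [hc]; group
      _ = y * x := by rw [h, one_mul]
  have hxpos : 0 < orderOf x := orderOf_pos x
  have hypos : 0 < orderOf y := orderOf_pos y
  have hx1 : orderOf x ≠ 1 := by
    intro h
    rw [orderOf_eq_one_iff] at h
    apply hxy; rw [h]; simp
  have hy1 : orderOf y ≠ 1 := by
    intro h
    rw [orderOf_eq_one_iff] at h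
    apply hxy; rw [h]; simp
  -- primes dividing the orders
  have hpx : ∀ p : ℕ, p.Prime → p ∣ orderOf x → orderOf c = p := by
    intro p hp hpx
    have hlt : orderOf (x ^ p) < orderOf x := by
      rw [orderOf_pow_of_dvd hp.ne_zero hpx]
      exact Nat.div_lt_self hxpos hp.one_lt
    have hcomm : x ^ p * y = y * x ^ p := by
      by_contra hcon
      have := hmin (x ^ p) y hcon
      omega
    have h1 := comm_pow_left hn x y p
    rw [hcomm] at h1
    have h2 : c ^ p = 1 := by rw [hc, ← h1]; group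
    have := (Nat.dvd_prime hp).1 (orderOf_dvd_of_pow_eq_one h2)
    rcases this with h | h
    · exact absurd (orderOf_eq_one_iff.1 h) hc1
    · exact h
  have hpy : ∀ p : ℕ, p.Prime → p ∣ orderOf y → orderOf c = p := by
    intro p hp hpy
    have hlt : orderOf (y ^ p) < orderOf y := by
      rw [orderOf_pow_of_dvd hp.ne_zero hpy]
      exact Nat.div_lt_self hypos hp.one_lt
    have hcomm : x * y ^ p = y ^ p * x := by
      by_contra hcon
      have := hmin x (y ^ p) hcon
      omega
    have h1 := comm_pow_right hn x y p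
    rw [hcomm] at h1
    have h2 : c ^ p = 1 := by rw [hc, ← h1]; group
    have := (Nat.dvd_prime hp).1 (orderOf_dvd_of_pow_eq_one h2)
    rcases this with h | h
    · exact absurd (orderOf_eq_one_iff.1 h) hc1
    · exact h
  obtain ⟨p, hp, hpdx⟩ := Nat.exists_prime_and_dvd hx1
  have hcp : orderOf c = p := hpx p hp hpdx
  have hpdy : p ∣ orderOf y := by
    obtain ⟨r, hr, hrd⟩ := Nat.exists_prime_and_dvd hy1
    have := hpy r hr hrd
    rw [hcp] at this
    rwa [this]
  have hxa : orderOf x = p ^ (orderOf x).primeFactorsList.length :=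
    Nat.eq_prime_pow_of_unique_prime_dvd hxpos.ne' (fun {d} hd hdx => by
      rw [← hpx d hd hdx]; exact hcp)
  have hyb : orderOf y = p ^ (orderOf y).primeFactorsList.length :=
    Nat.eq_prime_pow_of_unique_prime_dvd hypos.ne' (fun {d} hd hdx => by
      rw [← hpy d hd hdx]; exact hcp)
  set a := (orderOf x).primeFactorsList.length
  set b := (orderOf y).primeFactorsList.length
  have hba : b ≤ a := by
    rw [hxa, hyb] at hle
    exact (Nat.pow_le_pow_iff_right hp.one_lt).1 hle
  -- `b ≥ 2`
  have hcx : c ∈ zpowers x := comm_mem_left hn x y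
  have hcy : c ∈ zpowers y := comm_mem_right hn x y
  have hcommx : Commute c x := commute_left hn x y
  have hcommy : Commute c y := commute_right hn x y
  have hb0 : b ≠ 0 := by
    intro h; rw [h, pow_zero] at hyb; exact hy1 hyb
  have hb1 : b ≠ 1 := by
    intro h
    rw [h, pow_one] at hyb
    have : zpowers c = zpowers y := by
      apply Subgroup.eq_of_le_of_card_ge
      · rw [zpowers_le]; exact hcy
      · rw [Nat.card_zpowers, Nat.card_zpowers, hyb, hcp]
    have hy : y ∈ zpowers c := by rw [this]; exact mem_zpowers y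
    obtain ⟨j, hj⟩ := mem_zpowers_iff.1 hy
    apply hxy
    rw [← hj]
    exact (hcommx.zpow_left j).symm.eq
  obtain ⟨b', hb'⟩ : ∃ b', b = b' + 2 := ⟨b - 2, by omega⟩
  set n := p ^ (b' + 1) with hndef
  set s := p ^ (a - b) with hsdef
  have hyn : orderOf y = n * p := by rw [hyb, hb', hndef, ← pow_succ]
  have hxn : orderOf x = (s * n) * p := by
    rw [hxa, hsdef, hndef, mul_assoc, ← pow_succ, ← pow_add]
    congr 1; omega
  have hzx := zpowers_eq hp hxn hcx hcp
  have hzy := zpowers_eq hp hyn hcy hcp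
  -- the new element
  have hmem : (y ^ n)⁻¹ ∈ zpowers (x ^ (s * n)) := by
    rw [← hzx, hzy]; exact inv_mem (mem_zpowers _)
  obtain ⟨w, hw⟩ := mem_powers_iff_mem_zpowers.2 hmem
  have hw' : (x ^ (s * n)) ^ w = (y ^ n)⁻¹ := hw
  set u := x ^ (s * w) with hu
  have hcinv : y * x * y⁻¹ * x⁻¹ = c⁻¹ := by rw [hc]; group
  have hyu : y * u = (c⁻¹) ^ (s * w) * u * y := by
    have h1 := comm_pow_right hn y x (s * w)
    rw [hcinv, ← hu] at h1
    rw [← h1]; group
  have hz := pow_formula (u := u) (v := y) (c := (c⁻¹) ^ (s * w))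
    ((hcommx.inv_left.pow_left _).pow_right _) (hcommy.inv_left.pow_left _) hyu n
  have hun : u ^ n * y ^ n = 1 := by
    rw [hu, ← pow_mul, show s * w * n = s * n * w by ring, pow_mul, hw', inv_mul_cancel]
  rw [hun, mul_one, ← pow_mul] at hz
  by_cases hdiv : p ∣ s * n.choose 2
  · exfalso
    obtain ⟨t, ht⟩ := hdiv
    have h1 : (u * y) ^ n = 1 := by
      rw [hz, show s * w * n.choose 2 = p * (t * w) by rw [← mul_assoc, ← ht]; ring, pow_mul,
        inv_pow, ← hcp, pow_orderOf_eq_one, inv_one, one_pow]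
    have h2 : orderOf (u * y) ≤ n :=
      Nat.le_of_dvd (pow_pos hp.pos _) (orderOf_dvd_of_pow_eq_one h1)
    have h3 : x * (u * y) ≠ (u * y) * x := by
      intro h
      apply hxy
      have hxu : Commute x u := (Commute.refl x).pow_right _
      have h4 : u * (x * y) = u * (y * x) := by
        rw [← mul_assoc, ← hxu.eq, mul_assoc, h, mul_assoc]
      exact mul_left_cancel h4
    have h4 := hmin _ _ h3
    have h5 : n < orderOf y := by
      rw [hyn]; exact lt_mul_of_one_lt_right (pow_pos hp.pos _) hp.one_lt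
    omega
  · -- now `p = 2`, `a = b = 2`
    have hn2 : n = 2 := by
      by_contra hne
      apply hdiv
      exact dvd_mul_of_dvd_right (hp.dvd_choose_pow (by norm_num) (fun h => hne h.symm)) s
    have hp2 : p = 2 := by
      have : p ∣ 2 := by rw [← hn2, hndef]; exact dvd_pow_self p (by omega)
      exact (Nat.prime_dvd_prime_iff_eq hp Nat.prime_two).1 this
    have hs1 : s = 1 := by
      by_contra hne
      apply hdiv
      have : a - b ≠ 0 := by
        intro h; apply hne; rw [hsdef, h, pow_zero]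
      exact dvd_mul_of_dvd_left (dvd_pow_self p this) _
    rw [hn2, hp2] at hyn
    rw [hn2, hp2, hs1] at hxn
    rw [hs1, hn2] at hzx
    rw [hn2] at hzy
    have hc2 : ∀ g : G, orderOf g = 4 → zpowers c = zpowers (g ^ 2) → c = g ^ 2 := by
      intro g hg h
      have h1 : g ^ 2 ∈ zpowers c := by rw [h]; exact mem_zpowers _
      have h2 : g ^ 2 ≠ 1 := by
        intro h3
        have := orderOf_dvd_of_pow_eq_one h3
        rw [hg] at this
        exact absurd this (by norm_num)
      obtain ⟨j, hj⟩ := mem_zpowers_iff.1 h1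
      rcases Int.even_or_odd' j with ⟨i, rfl | rfl⟩
      · exfalso
        apply h2
        rw [← hj, zpow_mul]
        have : c ^ (2 : ℤ) = 1 := by
          have := pow_orderOf_eq_one c
          rw [hcp, hp2] at this
          exact_mod_cast this
        rw [this, one_zpow]
      · rw [← hj, zpow_add, zpow_mul, zpow_one]
        have : c ^ (2 : ℤ) = 1 := by
          have := pow_orderOf_eq_one c
          rw [hcp, hp2] at this
          exact_mod_cast this
        rw [this, one_zpow, one_mul]
    have hcx2 : c = x ^ 2 := hc2 x (by rw [hxn]) (by simpa using hzx)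
    have hcy2 : c = y ^ 2 := hc2 y (by rw [hyn]) hzy
    refine ⟨x, y, by rw [hxn], ?_, ?_⟩
    · rw [← sq, ← sq, ← hcx2, ← hcy2]
    · have h1 : y * x⁻¹ * y⁻¹ = x := by
        have : x * (y * x⁻¹ * y⁻¹) = x * x := by
          rw [← sq, ← hcx2, hc]; group
        exact mul_left_cancel this
      calc y * x * y⁻¹ = (y * x⁻¹ * y⁻¹)⁻¹ := by group
        _ = x⁻¹ := by rw [h1]

/-- Conjugates of an element of order four. -/
theorem conj_four {w : G} (hw : orderOf w = 4) (g : G) :
    g * w * g⁻¹ = w ∨ g * w * g⁻¹ = w⁻¹ := by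
  have h4 : w ^ 4 = 1 := by rw [← hw]; exact pow_orderOf_eq_one w
  have h2 : w ^ 2 ≠ 1 := by
    intro h
    have := orderOf_dvd_of_pow_eq_one h
    rw [hw] at this
    exact absurd this (by norm_num)
  have h1 : w ≠ 1 := by rintro rfl; exact h2 (one_pow 2)
  obtain ⟨j, hj⟩ := mem_zpowers_iff.1 ((hn (zpowers w)).conj_mem w (mem_zpowers w) g)
  rw [← zpow_mod_orderOf, hw] at hj
  have hj0 : 0 ≤ j % ((4 : ℕ) : ℤ) := Int.emod_nonneg _ (by norm_num)
  have hj4 : j % ((4 : ℕ) : ℤ) < 4 := Int.emod_lt_of_pos _ (by norm_num)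
  generalize j % ((4 : ℕ) : ℤ) = i at hj hj0 hj4
  interval_cases i
  · exfalso
    apply h1
    rw [zpow_zero] at hj
    calc w = g⁻¹ * (g * w * g⁻¹) * g := by group
      _ = 1 := by rw [← hj]; group
  · left; rw [← hj, zpow_one]
  · exfalso
    apply h2
    have h3 : (g * w * g⁻¹) ^ 2 = 1 := by
      rw [← hj, ← zpow_natCast, ← zpow_mul]
      exact_mod_cast h4
    rw [conj_pow] at h3
    calc w ^ 2 = g⁻¹ * (g * w ^ 2 * g⁻¹) * g := by group
      _ = 1 := by rw [h3]; group
  · right
    rw [← hj, eq_inv_iff_mul_eq_one]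
    have : w ^ (3 : ℤ) = w ^ 3 := by exact_mod_cast zpow_natCast w 3
    rw [this, ← pow_succ]; exact h4

end

/-- A maximal subgroup of `T` avoiding the involution `c`, `T` elementary abelian. -/
theorem exists_compl {G : Type u} [Group G] [Finite G] (T : Subgroup G)
    (hT : ∀ t ∈ T, t * t = 1) (hTc : ∀ a ∈ T, ∀ b ∈ T, a * b = b * a)
    {c : G} (hc1 : c ≠ 1) :
    ∃ E : Subgroup G, E ≤ T ∧ c ∉ E ∧ T ≤ zpowers c ⊔ E := by
  classical
  have hfin : Set.Finite {E : Subgroup G | E ≤ T ∧ c ∉ E} := Set.toFinite _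
  obtain ⟨E, hE⟩ := hfin.exists_maximal ⟨⊥, bot_le, by rw [mem_bot]; exact hc1⟩
  refine ⟨E, hE.prop.1, hE.prop.2, fun t ht => ?_⟩
  by_cases htE : t ∈ E
  · exact mem_sup_right htE
  · -- the subgroup `E ∪ t E`
    let F : Subgroup G :=
      { carrier := {g | g ∈ E ∨ t * g ∈ E}
        one_mem' := Or.inl E.one_mem
        mul_mem' := by
          rintro a b (ha | ha) (hb | hb)
          · exact Or.inl (E.mul_mem ha hb)
          · right
            have haT : a ∈ T := hE.prop.1 ha
            rw [← mul_assoc, hTc t ht a haT, mul_assoc]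
            exact E.mul_mem ha hb
          · right
            rw [← mul_assoc]
            exact E.mul_mem ha hb
          · left
            have h1 := E.mul_mem ha hb
            have haT : a ∈ T := by
              have := T.mul_mem (T.inv_mem ht) (hE.prop.1 ha)
              simpa using this
            have h2 : t * a * (t * b) = a * b := by
              rw [hTc t ht a haT]
              calc a * t * (t * b) = a * (t * t) * b := by group
                _ = a * b := by rw [hT t ht, mul_one]
            rwa [h2] at h1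
        inv_mem' := by
          rintro a (ha | ha)
          · exact Or.inl (E.inv_mem ha)
          · right
            have haT : a ∈ T := by
              have := T.mul_mem (T.inv_mem ht) (hE.prop.1 ha)
              simpa using this
            have h1 : a⁻¹ = a := inv_eq_of_mul_eq_one_left (hT a haT)
            rwa [h1] }
    have hFT : F ≤ T := by
      rintro a (ha | ha)
      · exact hE.prop.1 ha
      · have := T.mul_mem (T.inv_mem ht) (hE.prop.1 ha)
        simpa using this
    have hEF : E ≤ F := fun a ha => Or.inl ha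
    have htF : t ∈ F := by right; rw [hT t ht]; exact E.one_mem
    have hcF : c ∈ F := by
      by_contra hcon
      have := hE.le_of_ge ⟨hFT, hcon⟩ hEF
      exact htE (this htF)
    rcases hcF with h | h
    · exact absurd h hE.prop.2
    · -- `t c = e ∈ E`
      have h1 : t = (t * c) * c⁻¹ := by group
      rw [h1]
      exact mul_mem (mem_sup_right h) (mem_sup_left (inv_mem (mem_zpowers c)))

/-- **Structure of finite Hamiltonian groups.** -/
theorem structure_thm {G : Type u} [Group G] [Finite G] (hn : ∀ H : Subgroup G, H.Normal)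
    (hna : ¬ ∀ a b : G, a * b = b * a) :
    ∃ Q E A : Subgroup G, Nonempty (Q ≃* QuaternionGroup 2) ∧ Cfsg.IsElementaryAbelian 2 E ∧
      IsMulCommutative A ∧ Odd (Nat.card A) ∧ E ⊓ A = ⊥ ∧ Q ⊓ (E ⊔ A) = ⊥ ∧
      Q ⊔ (E ⊔ A) = ⊤ := by
  classical
  obtain ⟨x, y, hx4, hyx, hconj⟩ := exists_quat hn hna
  have hx2 : x * x ≠ 1 := by
    intro h
    have := orderOf_dvd_of_pow_eq_one (x := x) (n := 2) (by rw [sq]; exact h)
    rw [hx4] at this
    exact absurd this (by norm_num)
  have hx4' : x ^ 4 = 1 := by rw [← hx4]; exact pow_orderOf_eq_one x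
  have hcc : x * x * (x * x) = 1 := by
    rw [← hx4', show (4 : ℕ) = 2 + 2 from rfl, pow_add, sq]
  have hxinv : x ≠ x⁻¹ := fun h => hx2 (by nth_rw 2 [h]; exact mul_inv_cancel x)
  have hns : y ∉ zpowers x := by
    intro h
    obtain ⟨j, hj⟩ := mem_zpowers_iff.1 h
    have h1 : y * x = x * y := by rw [← hj]; exact ((Commute.refl x).zpow_left j).eq
    apply hxinv
    rw [← hconj, h1]; group
  have hy4 : orderOf y = 4 := by
    have h1 : orderOf y ∣ 4 := by
      apply orderOf_dvd_of_pow_eq_one
      calc y ^ 4 = (y * y) * (y * y) := by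
            rw [show (4 : ℕ) = 2 + 2 from rfl, pow_add, sq]
        _ = 1 := by rw [hyx]; exact hcc
    have h2 : ¬ orderOf y ∣ 2 := by
      intro h
      apply hx2
      rw [← hyx, ← sq]; exact orderOf_dvd_iff_pow_eq_one.1 h
    have h3 : orderOf y ∈ Nat.divisors 4 := Nat.mem_divisors.2 ⟨h1, by norm_num⟩
    have h4 : Nat.divisors 4 = {1, 2, 4} := by decide
    rw [h4] at h3
    simp only [Finset.mem_insert, Finset.mem_singleton] at h3
    rcases h3 with h | h | h
    · exact absurd (by rw [h]; exact one_dvd 2) h2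
    · exact absurd (by rw [h]) h2
    · exact h
  have hyinv : y ≠ y⁻¹ := fun h => hx2 (by rw [← hyx]; nth_rw 2 [h]; exact mul_inv_cancel y)
  -- `x y x⁻¹ = y⁻¹`
  have hconj' : x * y * x⁻¹ = y⁻¹ := by
    rcases conj_four hn hy4 x with h | h
    · exfalso
      apply hns
      have h1 : y * x = x * y := by
        calc y * x = (x * y * x⁻¹) * x := by rw [h]
          _ = x * y := by group
      exfalso
      apply hxinv
      rw [← hconj, h1]; group
    · exact h
  set Q := closure ({x, y} : Set G) with hQ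
  have hxQ : x ∈ Q := subset_closure (by simp)
  have hyQ : y ∈ Q := subset_closure (by simp)
  have hQiso : Nonempty (Q ≃* QuaternionGroup 2) :=
    Lib.DihedralRecog.closure_quaternion (m := 2) x y hx4 (by rw [hyx, sq]) hconj hns
  -- the centralizer
  set C := centralizer ({x, y} : Set G) with hC
  have hCmem : ∀ g : G, g ∈ C ↔ x * g = g * x ∧ y * g = g * y := by
    intro g
    rw [hC, mem_centralizer_iff]
    simp
  -- decomposition
  have hdec : ∀ g : G, ∃ q ∈ Q, g * q ∈ C := by
    -- first arrange that `x` is centralized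
    have h1 : ∀ g : G, ∃ q ∈ Q, (g * q) * x * (g * q)⁻¹ = x := by
      intro g
      rcases conj_four hn hx4 g with h | h
      · exact ⟨1, one_mem _, by rw [mul_one]; exact h⟩
      · refine ⟨y, hyQ, ?_⟩
        calc g * y * x * (g * y)⁻¹ = g * (y * x * y⁻¹) * g⁻¹ := by group
          _ = (g * x * g⁻¹)⁻¹ := by rw [hconj]; group
          _ = x := by rw [h, inv_inv]
    intro g
    obtain ⟨q, hq, hgq⟩ := h1 g
    rcases conj_four hn hy4 (g * q) with h | h
    · exact ⟨q, hq, (hCmem _).2 ⟨(mul_inv_eq_iff_eq_mul.1 hgq).symm,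
        (mul_inv_eq_iff_eq_mul.1 h).symm⟩⟩
    · refine ⟨q * x, mul_mem hq hxQ, (hCmem _).2 ⟨?_, ?_⟩⟩
      · refine (mul_inv_eq_iff_eq_mul.1 ?_).symm
        calc g * (q * x) * x * (g * (q * x))⁻¹ = g * q * x * (g * q)⁻¹ := by group
          _ = x := hgq
      · refine (mul_inv_eq_iff_eq_mul.1 ?_).symm
        calc g * (q * x) * y * (g * (q * x))⁻¹ = (g * q) * (x * y * x⁻¹) * (g * q)⁻¹ := by group
          _ = ((g * q) * y * (g * q)⁻¹)⁻¹ := by rw [hconj']; group
          _ = y := by rw [h, inv_inv]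
  -- the commutator of `x` and `y`
  have hcinv : (x * x)⁻¹ = x * x := inv_eq_of_mul_eq_one_left hcc
  have hcxy : x * y * x⁻¹ * y⁻¹ = x * x := by
    rw [hconj', ← mul_inv_rev, hyx, hcinv]
  have hxy : x * y ≠ y * x := by
    intro h
    apply hx2
    rw [← hcxy, h]; group
  -- no elements of order four in `C`
  have hb : ∀ z ∈ C, z ^ 4 = 1 → z * z = 1 := by
    intro z hz hz4
    obtain ⟨hzx, hzy⟩ := (hCmem z).1 hz
    have hcomm : x * (y * z) * x⁻¹ * (y * z)⁻¹ = x * x := by
      calc x * (y * z) * x⁻¹ * (y * z)⁻¹ = x * y * (z * x⁻¹) * z⁻¹ * y⁻¹ := by group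
        _ = x * y * (x⁻¹ * z) * z⁻¹ * y⁻¹ := by
          have : Commute x⁻¹ z := (show Commute x z from hzx).inv_left
          rw [this.eq]
        _ = x * y * x⁻¹ * y⁻¹ := by group
        _ = x * x := hcxy
    have hmem : x * x ∈ zpowers (y * z) := by
      rw [← hcomm]; exact comm_mem_right hn x (y * z)
    have ht4 : (y * z) ^ 4 = 1 := by
      have : Commute y z := hzy
      rw [this.mul_pow, hz4, ← hy4, pow_orderOf_eq_one, one_mul]
    obtain ⟨j, hj⟩ := mem_zpowers_iff.1 hmem
    have hj' : (y * z) ^ (j % 4) = x * x := by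
      rw [← hj]
      conv_rhs => rw [← Int.mul_ediv_add_emod j 4, zpow_add, zpow_mul]
      have : (y * z) ^ (4 : ℤ) = 1 := by exact_mod_cast ht4
      rw [this, one_zpow, one_mul]
    have hj0 : 0 ≤ j % 4 := Int.emod_nonneg _ (by norm_num)
    have hj4 : j % 4 < 4 := Int.emod_lt_of_pos _ (by norm_num)
    -- `y z = x x` is impossible
    have himp : y * z ≠ x * x := by
      intro h
      apply hxy
      have hz' : z = y⁻¹ * (x * x) := by rw [← h]; group
      have h1 : x * (y⁻¹ * (x * x)) = y⁻¹ * (x * x) * x := by rw [← hz']; exact hzx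
      have h2 : x * y⁻¹ = y⁻¹ * x := by
        have h3 : x * y⁻¹ * (x * x) = y⁻¹ * x * (x * x) := by
          calc x * y⁻¹ * (x * x) = x * (y⁻¹ * (x * x)) := by group
            _ = y⁻¹ * (x * x) * x := h1
            _ = y⁻¹ * x * (x * x) := by group
        exact mul_right_cancel h3
      have h4 : Commute x y⁻¹ := h2
      have h5 := h4.inv_right
      rw [inv_inv] at h5
      exact h5.eq
    generalize j % 4 = i at hj' hj0 hj4
    interval_cases i
    · exact absurd (by rw [← hj', zpow_zero]) hx2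
    · exact absurd (by rw [← hj', zpow_one]) himp
    · have h1 : y * z * (y * z) = x * x := by
        rw [← hj', ← sq]; exact_mod_cast rfl
      have h2 : y * z * (y * z) = x * x * (z * z) := by
        calc y * z * (y * z) = y * (z * y) * z := by group
          _ = y * (y * z) * z := by rw [hzy]
          _ = (y * y) * (z * z) := by group
          _ = x * x * (z * z) := by rw [hyx]
      rw [h2] at h1
      have h3 : x * x * (z * z) = x * x * 1 := by rw [mul_one]; exact h1
      exact mul_left_cancel h3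
    · exfalso
      apply himp
      have h1 : (y * z) ^ 3 = x * x := by rw [← hj']; exact_mod_cast rfl
      have h2 : (y * z) = ((y * z) ^ 3)⁻¹ := by
        rw [eq_inv_iff_mul_eq_one, ← pow_succ']; exact ht4
      rw [h2, h1, hcinv]
  have hb' : ∀ (k : ℕ), ∀ z ∈ C, z ^ (2 ^ k) = 1 → z * z = 1 := by
    intro k
    induction k with
    | zero =>
      intro z _ hz1
      rw [pow_zero, pow_one] at hz1
      rw [hz1, one_mul]
    | succ k ih =>
      intro z hz hz1
      have h1 : (z * z) ^ (2 ^ k) = 1 := by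
        rw [← sq, ← pow_mul, ← pow_succ']; exact hz1
      have h2 := ih (z * z) (mul_mem hz hz) h1
      apply hb z hz
      rw [show (4 : ℕ) = 2 + 2 from rfl, pow_add, sq]; exact h2
  -- `C` is abelian
  have hCcomm : ∀ a ∈ C, ∀ b ∈ C, a * b = b * a := by
    by_contra hcon
    have hnC : ∀ H : Subgroup C, H.Normal := by
      intro H
      refine ⟨fun h hh g => ?_⟩
      obtain ⟨k, hk, hke⟩ := (hn (H.map C.subtype)).conj_mem (h : G) ⟨h, hh, rfl⟩ (g : G)
      have : k = g * h * g⁻¹ := Subtype.ext hke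
      rwa [← this]
    obtain ⟨u, v, hu, _, _⟩ := exists_quat hnC (by
      intro h
      apply hcon
      intro a ha b hb
      exact congrArg Subtype.val (h ⟨a, ha⟩ ⟨b, hb⟩))
    have hu' : orderOf (u : G) = 4 := by rw [Subgroup.orderOf_coe]; exact hu
    have h1 := hb u u.2 (by rw [← hu']; exact pow_orderOf_eq_one _)
    have h2 := orderOf_dvd_of_pow_eq_one (x := (u : G)) (n := 2) (by rw [sq]; exact h1)
    rw [hu'] at h2
    exact absurd h2 (by norm_num)
  -- the two parts of `C`
  let T : Subgroup G :=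
    { carrier := {z | z ∈ C ∧ z * z = 1}
      one_mem' := ⟨one_mem _, one_mul 1⟩
      mul_mem' := by
        rintro a b ⟨ha, ha'⟩ ⟨hb, hb'⟩
        refine ⟨mul_mem ha hb, ?_⟩
        calc a * b * (a * b) = a * (b * a) * b := by group
          _ = a * (a * b) * b := by rw [hCcomm a ha b hb]
          _ = (a * a) * (b * b) := by group
          _ = 1 := by rw [ha', hb', one_mul]
      inv_mem' := by
        rintro a ⟨ha, ha'⟩
        refine ⟨inv_mem ha, ?_⟩
        rw [← mul_inv_rev, ha', inv_one] }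
  let A : Subgroup G :=
    { carrier := {z | z ∈ C ∧ Odd (orderOf z)}
      one_mem' := ⟨one_mem _, by rw [orderOf_one]; exact odd_one⟩
      mul_mem' := by
        rintro a b ⟨ha, ha'⟩ ⟨hb, hb'⟩
        refine ⟨mul_mem ha hb, ?_⟩
        have hcomm : Commute a b := hCcomm a ha b hb
        exact Odd.of_dvd_nat (ha'.mul hb') hcomm.orderOf_mul_dvd_mul_orderOf
      inv_mem' := by
        rintro a ⟨ha, ha'⟩
        exact ⟨inv_mem ha, by rwa [orderOf_inv]⟩ }
  have hTC : T ≤ C := fun z hz => hz.1
  have hAC : A ≤ C := fun z hz => hz.1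
  have hTA : ∀ z, z ∈ T → z ∈ A → z = 1 := by
    rintro z ⟨_, hz⟩ ⟨_, hz'⟩
    have h1 := orderOf_dvd_of_pow_eq_one (x := z) (n := 2) (by rw [sq]; exact hz)
    rcases (Nat.dvd_prime Nat.prime_two).1 h1 with h | h
    · exact orderOf_eq_one_iff.1 h
    · rw [h] at hz'; exact absurd hz' (by decide)
  have hCTA : C ≤ T ⊔ A := by
    intro z hz
    obtain ⟨k, m, hm, hzo⟩ := Nat.exists_eq_two_pow_mul_odd (orderOf_pos z).ne'
    have h1 : z ^ m * z ^ m = 1 := by
      apply hb' k (z ^ m) (pow_mem hz m)
      rw [← pow_mul, mul_comm, ← hzo]; exact pow_orderOf_eq_one z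
    obtain ⟨i, hi⟩ := hm
    have h2 : z = z ^ m * ((z * z) ^ i)⁻¹ := by
      rw [← sq, ← pow_mul, hi, pow_succ', eq_mul_inv_iff_mul_eq]
    have h3 : z * z ∈ A := by
      refine ⟨mul_mem hz hz, ?_⟩
      have hmo : Odd m := ⟨i, hi⟩
      refine Odd.of_dvd_nat hmo (orderOf_dvd_of_pow_eq_one ?_)
      have : Commute z z := Commute.refl z
      rw [this.mul_pow]; exact h1
    rw [h2]
    exact mul_mem (mem_sup_left ⟨pow_mem hz m, h1⟩) (mem_sup_right (inv_mem (pow_mem h3 i)))
  have hcC : x * x ∈ C := by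
    rw [hCmem]
    refine ⟨by group, ?_⟩
    rw [← hyx]; group
  have hcT : x * x ∈ T := ⟨hcC, hcc⟩
  obtain ⟨E, hET, hcE, hTE⟩ := exists_compl T (fun t ht => ht.2)
    (fun a ha b hb => hCcomm a (hTC ha) b (hTC hb)) hx2
  -- elements of `E ⊔ A`
  have hEA : ∀ z ∈ E ⊔ A, ∃ e ∈ E, ∃ a ∈ A, e * a = z := by
    intro z hz
    have := hn A
    obtain ⟨e, he, a, ha, h⟩ := mem_sup_of_normal_right.1 hz
    exact ⟨e, he, a, ha, h⟩
  refine ⟨Q, E, A, hQiso, ⟨?_, ?_⟩, ?_, ?_, ?_, ?_, ?_⟩
  · exact ⟨⟨fun a b => Subtype.ext (hCcomm a (hTC (hET a.2)) b (hTC (hET b.2)))⟩⟩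
  · intro a ha
    rw [sq]; exact (hET ha).2
  · exact ⟨⟨fun a b => Subtype.ext (hCcomm a (hAC a.2) b (hAC b.2))⟩⟩
  · rw [← Nat.not_even_iff_odd, even_iff_two_dvd]
    intro h
    have : Fact (Nat.Prime 2) := ⟨Nat.prime_two⟩
    obtain ⟨a, ha⟩ := exists_prime_orderOf_dvd_card' 2 h
    have h1 : Odd (orderOf (a : G)) := a.2.2
    rw [Subgroup.orderOf_coe, ha] at h1
    exact absurd h1 (by decide)
  · rw [eq_bot_iff]
    rintro z ⟨hzE, hzA⟩
    exact hTA z (hET hzE) hzA
  · rw [eq_bot_iff]
    rintro z ⟨hzQ, hzEA⟩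
    -- `z ∈ Q ⊓ C`
    have hzC : z ∈ C := by
      have : E ⊔ A ≤ C := sup_le (hET.trans hTC) hAC
      exact this hzEA
    have hform : ∀ g ∈ Q, g ∈ zpowers x ∨ g * y ∈ zpowers x := by
      intro g hg
      have hZ := hn (zpowers x)
      have hyy : y * y ∈ zpowers x := by rw [hyx]; exact mul_mem (mem_zpowers x) (mem_zpowers x)
      induction hg using Subgroup.closure_induction with
      | mem g hg =>
        rcases hg with rfl | hg
        · exact Or.inl (mem_zpowers _)
        · rw [Set.mem_singleton_iff] at hg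
          rw [hg]; exact Or.inr hyy
      | one => exact Or.inl (one_mem _)
      | mul a b _ _ ha hb =>
        rcases ha with ha | ha <;> rcases hb with hb | hb
        · exact Or.inl (mul_mem ha hb)
        · right; rw [mul_assoc]; exact mul_mem ha hb
        · right
          have h1 := mul_mem ha (hZ.conj_mem _ hb y⁻¹)
          have e : a * y * (y⁻¹ * b * y⁻¹⁻¹) = a * b * y := by group
          rwa [e] at h1
        · left
          have h1 := mul_mem (mul_mem ha (hZ.conj_mem _ hb y⁻¹)) (inv_mem hyy)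
          have e : a * y * (y⁻¹ * (b * y) * y⁻¹⁻¹) * (y * y)⁻¹ = a * b := by group
          rwa [e] at h1
      | inv a _ ha =>
        rcases ha with ha | ha
        · exact Or.inl (inv_mem ha)
        · right
          have h1 := mul_mem (hZ.conj_mem _ (inv_mem ha) y) hyy
          have e : y * (a * y)⁻¹ * y⁻¹ * (y * y) = a⁻¹ * y := by group
          rwa [e] at h1
    have hz : z = 1 ∨ z = x * x := by
      obtain ⟨hzx, hzy⟩ := (hCmem z).1 hzC
      rcases hform z hzQ with h | h
      · obtain ⟨j, hj⟩ := mem_zpowers_iff.1 h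
        have h1 : y * z * y⁻¹ = z := by rw [hzy]; group
        have h2 : y * x ^ j * y⁻¹ = (y * x * y⁻¹) ^ j := by rw [conj_zpow]
        rw [← hj, h2, hconj] at h1
        have h3 : x ^ (j + j) = 1 := by
          rw [zpow_add]
          nth_rw 1 [← h1]
          rw [inv_zpow, inv_mul_cancel]
        have h4 : ((orderOf x : ℕ) : ℤ) ∣ j + j := orderOf_dvd_iff_zpow_eq_one.2 h3
        rw [hx4] at h4
        obtain ⟨i, hi⟩ := h4
        have h5 : j = 2 * i := by push_cast at hi; omega
        rcases Int.even_or_odd' i with ⟨r, rfl | rfl⟩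
        · left
          rw [← hj, h5, show (2 : ℤ) * (2 * r) = 4 * r by ring, zpow_mul]
          have : x ^ (4 : ℤ) = 1 := by exact_mod_cast hx4'
          rw [this, one_zpow]
        · right
          rw [← hj, h5, show (2 : ℤ) * (2 * r + 1) = 4 * r + 2 by ring, zpow_add, zpow_mul]
          have : x ^ (4 : ℤ) = 1 := by exact_mod_cast hx4'
          rw [this, one_zpow, one_mul, ← sq]
          exact_mod_cast rfl
      · exfalso
        apply hxy
        obtain ⟨j, hj⟩ := mem_zpowers_iff.1 h
        have h1 : x * (z * y) = z * y * x := by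
          rw [← hj]; exact ((Commute.refl x).zpow_right j).eq
        have h2 : z * (x * y) = z * (y * x) := by
          calc z * (x * y) = (z * x) * y := by group
            _ = (x * z) * y := by rw [hzx]
            _ = x * (z * y) := by group
            _ = z * y * x := h1
            _ = z * (y * x) := by group
        exact mul_left_cancel h2
    rcases hz with h | h
    · exact h
    · exfalso
      obtain ⟨e, he, a, ha, hea⟩ := hEA z hzEA
      rw [h] at hea
      have h1 : a = e⁻¹ * (x * x) := by rw [← hea]; group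
      have h2 : a ∈ T := by rw [h1]; exact mul_mem (inv_mem (hET he)) hcT
      have h3 := hTA a h2 ha
      rw [h3, mul_one] at hea
      exact hcE (hea ▸ he)
  · rw [eq_top_iff]
    intro g _
    obtain ⟨q, hq, hgq⟩ := hdec g
    have h1 : T ≤ Q ⊔ (E ⊔ A) := by
      refine hTE.trans (sup_le ?_ ?_)
      · rw [zpowers_le]; exact mem_sup_left (mul_mem hxQ hxQ)
      · exact le_sup_left.trans le_sup_right
    have h2 : C ≤ Q ⊔ (E ⊔ A) :=
      hCTA.trans (sup_le h1 (le_sup_right.trans le_sup_right))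
    have h3 : g = (g * q) * q⁻¹ := by group
    rw [h3]
    exact mul_mem (h2 hgq) (mem_sup_left (inv_mem hq))

end Cfsg.Agent.H542.Hamiltonian
end

-- part: S4211
section
set_option autoImplicit false
open Cfsg

namespace Cfsg.Agent.S4211

/-- A finite non-abelian group in which every subgroup is normal is the internal direct product of a subgroup isomorphic to the quaternion group of order `8`, an elementary abelian `2`-subgroup and an abelian subgroup of odd order. -/
theorem result {G : Type*} [Group G] [Finite G] (hna : ¬ IsMulCommutative G) (hn : ∀ H : Subgroup G, H.Normal) : ∃ Q E A : Subgroup G, Nonempty (Q ≃* QuaternionGroup 2) ∧ Cfsg.IsElementaryAbelian 2 E ∧ IsMulCommutative A ∧ Odd (Nat.card A) ∧ E ⊓ A = ⊥ ∧ Q ⊓ (E ⊔ A) = ⊥ ∧ Q ⊔ (E ⊔ A) = ⊤ := by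
  refine Cfsg.Agent.H542.Hamiltonian.structure_thm hn (fun h => hna ?_)
  exact ⟨⟨h⟩⟩

end Cfsg.Agent.S4211
end
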