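import Mathlib
import Cfsg.Agent.Lib.SubnormalJoin
import Cfsg.Agent.SolvableStructure.MinimalNormal
import Cfsg.Agent.SolvableStructure.MinNonNilpotent
import Cfsg.Agent.Solvable.Hall
import Cfsg.Statements.S4214
set_option linter.all false

-- part: H542/HallCount
section
/-!
# The number of Hall subgroups of a finite solvable group

P. Hall: the number of subgroups of order `m` of a finite solvable group of order `m * n`,
`gcd (m, n) = 1`, is a product of prime powers each of which divides the order of a chief factor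
and is congruent to `1` modulo some prime divisor of `m`.
-/

set_option autoImplicit false

namespace Cfsg.Agent.H542.HallCount

open Subgroup Pointwise

universe u

section basic

variable {G : Type u} [Group G]

theorem card_mul_relIndex {H K : Subgroup G} (h : H ≤ K) :
    Nat.card H * H.relIndex K = Nat.card K := by
  have h2 := Subgroup.relIndex_mul_relIndex ⊥ H K bot_le h
  rwa [Subgroup.relIndex_bot_left, Subgroup.relIndex_bot_left] at h2

/-- `|HK| |H ∩ K| = |H| |K|` for `K` normal. -/
theorem card_sup_mul_card_inf [Finite G] (H K : Subgroup G) [K.Normal] :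
    Nat.card ↥(H ⊔ K) * Nat.card ↥(H ⊓ K) = Nat.card H * Nat.card K := by
  have h1 : K.relIndex (H ⊔ K) = K.relIndex H := relIndex_sup_right H K
  have h2 : Nat.card K * K.relIndex (H ⊔ K) = Nat.card ↥(H ⊔ K) :=
    card_mul_relIndex le_sup_right
  have h3 : Nat.card ↥(H ⊓ K) * (H ⊓ K).relIndex H = Nat.card H :=
    card_mul_relIndex inf_le_left
  rw [inf_relIndex_left] at h3
  rw [← h2, h1, ← h3]
  ring

/-- A `q`-group `Q` normalizing the finite subgroup `X`: `|X| ≡ |C_X(Q)|` modulo `q`. -/
theorem card_modEq [Finite G] {q : ℕ} [Fact q.Prime] (X Q : Subgroup G)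
    (hQ : IsPGroup q Q) (hn : Q ≤ normalizer (X : Set G)) :
    Nat.card X ≡ Nat.card ↥(X ⊓ centralizer (Q : Set G)) [MOD q] := by
  let _ : MulAction Q X :=
    { smul := fun a x => ⟨a.1 * x.1 * a.1⁻¹, (mem_normalizer_iff.1 (hn a.2) x.1).1 x.2⟩
      one_smul := fun x => Subtype.ext (by change (1 : G) * x.1 * (1 : G)⁻¹ = x.1; simp)
      mul_smul := fun a b x => Subtype.ext (by
        change (a.1 * b.1) * x.1 * (a.1 * b.1)⁻¹ = a.1 * (b.1 * x.1 * b.1⁻¹) * a.1⁻¹
        group) }
  have h := hQ.card_modEq_card_fixedPoints X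
  have e : Nat.card (MulAction.fixedPoints Q X) = Nat.card ↥(X ⊓ centralizer (Q : Set G)) := by
    refine Nat.card_congr ⟨fun x => ⟨x.1.1, x.1.2, ?_⟩, fun y => ⟨⟨y.1, y.2.1⟩, ?_⟩, ?_, ?_⟩
    · refine mem_centralizer_iff.2 ?_
      intro a ha
      have := congrArg Subtype.val (x.2 ⟨a, ha⟩)
      change a * x.1.1 * a⁻¹ = x.1.1 at this
      exact mul_inv_eq_iff_eq_mul.1 this
    · intro a
      apply Subtype.ext
      change a.1 * y.1 * a.1⁻¹ = y.1
      exact mul_inv_eq_iff_eq_mul.2 (mem_centralizer_iff.1 y.2.2 a.1 a.2)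
    · intro x; rfl
    · intro x; rfl
  rwa [e] at h

/-- The factors of `|K : C_K(H)|`. -/
theorem exists_factors [Finite G] (K : Subgroup G) {p d : ℕ} (hp : p.Prime)
    (hK : Nat.card K = p ^ d) (N : ℕ) :
    ∀ H : Subgroup G, Nat.card H ≤ N → Group.IsSolvable H → H ≤ normalizer (K : Set G) →
      ¬ p ∣ Nat.card H →
      ∃ l : List ℕ, l.prod * Nat.card ↥(K ⊓ centralizer (H : Set G)) = Nat.card K ∧
        ∀ x ∈ l, (∃ e, x = p ^ e) ∧ x ∣ Nat.card K ∧
          ∃ q : ℕ, q.Prime ∧ q ∣ Nat.card H ∧ x ≡ 1 [MOD q] := by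
  induction N with
  | zero =>
    intro H hH
    have := Nat.card_pos (α := H)
    omega
  | succ N ih =>
    intro H hH hsolv hn hpH
    by_cases hHb : H = ⊥
    · subst hHb
      refine ⟨[], ?_, by simp⟩
      have : K ⊓ centralizer ((⊥ : Subgroup G) : Set G) = K := by
        rw [inf_eq_left]
        intro x _
        rw [mem_centralizer_iff]
        intro y hy
        rw [coe_bot, Set.mem_singleton_iff] at hy
        simp [hy]
      rw [this]; simp
    have : Nontrivial H := (Subgroup.nontrivial_iff_ne_bot H).2 hHb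
    obtain ⟨N1, hN1, hq⟩ := SolvableStructure.MinNonNilpotent.exists_normal_index_prime (G := H)
    set q := N1.index with hqdef
    have hqf : Fact q.Prime := ⟨hq⟩
    set H1 := N1.map H.subtype with hH1
    have hH1H : H1 ≤ H := map_subtype_le N1
    have hcardH1 : Nat.card H1 * q = Nat.card H := by
      rw [hH1, ← Nat.card_congr (N1.equivMapOfInjective H.subtype H.subtype_injective).toEquiv]
      exact Subgroup.card_mul_index N1
    have hH1pos : 0 < Nat.card H1 := Nat.card_pos
    have hlt : Nat.card H1 < Nat.card H := by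
      rw [← hcardH1]
      exact lt_mul_of_one_lt_right hH1pos hq.one_lt
    obtain ⟨l, hl, hl'⟩ := ih H1 (by omega)
      (Group.isSolvable_of_isSolvable_injective (f := Subgroup.inclusion hH1H)
        (Subgroup.inclusion_injective hH1H))
      (hH1H.trans hn) (fun h => hpH (h.trans (Dvd.intro _ hcardH1)))
    -- the Sylow `q`-subgroup
    obtain ⟨Q0⟩ : Nonempty (Sylow q H) := inferInstance
    set Q := (Q0 : Subgroup H).map H.subtype with hQ
    have hQH : Q ≤ H := map_subtype_le _
    have hQp : IsPGroup q Q := Q0.2.map _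
    have hgen : N1 ⊔ (Q0 : Subgroup H) = ⊤ := by
      rw [← index_eq_one]
      have h1 : (N1 ⊔ (Q0 : Subgroup H)).index ∣ q := index_dvd_of_le le_sup_left
      have h2 : (N1 ⊔ (Q0 : Subgroup H)).index ∣ (Q0 : Subgroup H).index :=
        index_dvd_of_le le_sup_right
      rcases (Nat.dvd_prime hq).1 h1 with h | h
      · exact h
      · rw [h] at h2
        exact absurd h2 Q0.not_dvd_index
    have hsup : H1 ⊔ Q = H := by
      rw [hH1, hQ, ← Subgroup.map_sup, hgen, ← MonoidHom.range_eq_map, Subgroup.range_subtype]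
    set X := K ⊓ centralizer (H1 : Set G) with hX
    have hXn : Q ≤ normalizer (X : Set G) := by
      intro g hg
      have hgH : g ∈ H := hQH hg
      rw [mem_normalizer_iff]
      have key : ∀ g ∈ H, ∀ x ∈ X, g * x * g⁻¹ ∈ X := by
        intro g hg x hx
        refine ⟨(mem_normalizer_iff.1 (hn hg) x).1 hx.1, mem_centralizer_iff.2 ?_⟩
        intro y hy
        have hy' : g⁻¹ * y * g ∈ H1 := by
          obtain ⟨y0, hy0, rfl⟩ := hy
          have := hN1.conj_mem y0 hy0 ⟨g, hg⟩⁻¹
          refine ⟨_, this, ?_⟩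
          simp
        have h2 := mem_centralizer_iff.1 hx.2 _ hy'
        calc y * (g * x * g⁻¹) = g * ((g⁻¹ * y * g) * x) * g⁻¹ := by group
          _ = g * (x * (g⁻¹ * y * g)) * g⁻¹ := by rw [h2]
          _ = g * x * g⁻¹ * y := by group
      intro x
      constructor
      · exact key g hgH x
      · intro h
        have := key g⁻¹ (inv_mem hgH) _ h
        simpa [mul_assoc] using this
    have hmod := card_modEq X Q hQp hXn
    have hXQ : X ⊓ centralizer (Q : Set G) = K ⊓ centralizer (H : Set G) := by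
      rw [hX, inf_assoc]
      congr 1
      apply le_antisymm
      · intro x hx
        have h1 : H1 ⊔ Q ≤ centralizer ({x} : Set G) := by
          rw [sup_le_iff]
          constructor
          · intro y hy
            rw [mem_centralizer_singleton_iff]
            exact mem_centralizer_iff.1 hx.1 y hy
          · intro y hy
            rw [mem_centralizer_singleton_iff]
            exact mem_centralizer_iff.1 hx.2 y hy
        rw [hsup] at h1
        rw [mem_centralizer_iff]
        intro y hy
        exact mem_centralizer_singleton_iff.1 (h1 hy)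
      · exact le_inf (centralizer_le hH1H) (centralizer_le hQH)
    rw [hXQ] at hmod
    set Y := K ⊓ centralizer (H : Set G) with hY
    have hYX : Y ≤ X := inf_le_inf_left K (centralizer_le hH1H)
    have hrel : Nat.card Y * Y.relIndex X = Nat.card X := card_mul_relIndex hYX
    have hXK : Nat.card X ∣ Nat.card K := card_dvd_of_le inf_le_left
    have hYK : Nat.card Y ∣ Nat.card K := card_dvd_of_le inf_le_left
    have hrK : Y.relIndex X ∣ Nat.card K := (Dvd.intro_left _ hrel).trans hXK
    have hqH : q ∣ Nat.card H := Dvd.intro_left _ hcardH1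
    have hqp : q ≠ p := by rintro h; exact hpH (h ▸ hqH)
    refine ⟨Y.relIndex X :: l, ?_, ?_⟩
    · rw [List.prod_cons, mul_comm (Y.relIndex X), mul_assoc, mul_comm (Y.relIndex X), hrel, hl]
    · intro x hx
      rcases List.mem_cons.1 hx with rfl | hx
      · refine ⟨?_, hrK, q, hq, hqH, ?_⟩
        · rw [hK] at hrK
          obtain ⟨k, _, hk⟩ := (Nat.dvd_prime_pow hp).1 hrK
          exact ⟨k, hk⟩
        · have hcop : (Nat.card Y).Coprime q := by
            rw [hK] at hYK
            exact Nat.Coprime.coprime_dvd_left hYK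
              (Nat.Coprime.pow_left d ((Nat.coprime_primes hp hq).2 (Ne.symm hqp)))
          rw [← hrel] at hmod
          have h3 : Nat.card Y * Y.relIndex X ≡ Nat.card Y * 1 [MOD q] := by rwa [mul_one]
          exact Nat.ModEq.cancel_left_of_coprime (by rw [Nat.gcd_comm]; exact hcop) h3
      · obtain ⟨h1, h2, q', h3, h4, h5⟩ := hl' x hx
        exact ⟨h1, h2, q', h3, h4.trans (Dvd.intro _ hcardH1), h5⟩

/-- number of subgroups in a conjugacy class -/
theorem card_mul_normalizer [Finite G] (m : ℕ)
    (hconj : ∀ H K : Subgroup G, Nat.card H = m → Nat.card K = m →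
      ∃ g : G, MulAut.conj g • H = K) (H0 : Subgroup G) (h0 : Nat.card H0 = m) :
    Nat.card {H : Subgroup G // Nat.card H = m} * Nat.card ↥(normalizer (H0 : Set G)) =
      Nat.card G := by
  classical
  have hcard : ∀ g : G, Nat.card ↥(MulAut.conj g • H0) = m := by
    intro g
    rw [← h0]
    exact Nat.card_congr (Subgroup.equivSMul (MulAut.conj g) H0).symm.toEquiv
  have : Fintype {H : Subgroup G // Nat.card H = m} := Fintype.ofFinite _
  rw [← Nat.card_congr (Equiv.sigmaFiberEquiv
    (fun g : G => (⟨MulAut.conj g • H0, hcard g⟩ : {H : Subgroup G // Nat.card H = m}))),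
    Nat.card_sigma]
  rw [Finset.sum_congr rfl (g := fun _ => Nat.card ↥(normalizer (H0 : Set G)))]
  · rw [Finset.sum_const, Finset.card_univ, ← Nat.card_eq_fintype_card, smul_eq_mul]
  · rintro ⟨H, hH⟩ _
    obtain ⟨g0, rfl⟩ := hconj H0 H h0 hH
    have hmem : ∀ g : G, MulAut.conj g • H0 = H0 ↔ g ∈ normalizer (H0 : Set G) := by
      intro g
      rw [mem_normalizer_iff]
      constructor
      · intro h x
        constructor
        · intro hx
          rw [← h]
          exact smul_mem_pointwise_smul x (MulAut.conj g) H0 hx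
        · intro hx
          rw [← h, mem_pointwise_smul_iff_inv_smul_mem] at hx
          have : (MulAut.conj g)⁻¹ • (g * x * g⁻¹) = x := by
            rw [← map_inv]; simp [MulAut.smul_def, mul_assoc]
          rwa [this] at hx
      · intro h
        ext x
        rw [mem_pointwise_smul_iff_inv_smul_mem, ← map_inv]
        have := h (g⁻¹ * x * g)
        simp only [MulAut.smul_def, MulAut.conj_apply, inv_inv]
        rw [this]
        simp [mul_assoc]
    refine Nat.card_congr ⟨fun x => ⟨g0⁻¹ * x.1, ?_⟩, fun k => ⟨g0 * k.1, ?_⟩, ?_, ?_⟩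
    · have := congrArg Subtype.val x.2
      change MulAut.conj x.1 • H0 = MulAut.conj g0 • H0 at this
      rw [← hmem, map_mul, mul_smul, this, ← mul_smul, ← map_mul]
      simp
    · apply Subtype.ext
      change MulAut.conj (g0 * k.1) • H0 = MulAut.conj g0 • H0
      rw [map_mul, mul_smul, (hmem k.1).2 k.2]
    · intro x; apply Subtype.ext; simp
    · intro k; apply Subtype.ext; simp

/-- The condition on the factors of the number of Hall subgroups. -/
def Good (G : Type u) [Group G] (m x : ℕ) : Prop :=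
  (∃ q e : ℕ, q.Prime ∧ x = q ^ e) ∧
    (∃ K L : Subgroup G, K.Normal ∧ L.Normal ∧ K < L ∧
      (∀ M : Subgroup G, M.Normal → K ≤ M → M ≤ L → M = K ∨ M = L) ∧ x ∣ K.relIndex L) ∧
    (∃ q : ℕ, q.Prime ∧ q ∣ m ∧ x ≡ 1 [MOD q])

theorem Good.lift (K : Subgroup G) [K.Normal] {m m' x : ℕ} (hm : m ∣ m')
    (h : Good (G ⧸ K) m x) : Good G m' x := by
  obtain ⟨h1, ⟨A, B, hA, hB, hAB, hmin, hx⟩, q, hq, hqm, hxq⟩ := h
  have hs := QuotientGroup.mk'_surjective K
  refine ⟨h1, ⟨A.comap (QuotientGroup.mk' K), B.comap (QuotientGroup.mk' K), inferInstance,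
    inferInstance, ?_, ?_, ?_⟩, q, hq, hqm.trans hm, hxq⟩
  · exact (Subgroup.comap_lt_comap_of_surjective hs).2 hAB
  · intro M hM hAM hMB
    have hKM : (QuotientGroup.mk' K).ker ≤ M := by
      exact le_trans (MonoidHom.ker_le_comap _ _) hAM
    have hMe : (M.map (QuotientGroup.mk' K)).comap (QuotientGroup.mk' K) = M :=
      Subgroup.comap_map_eq_self hKM
    have hMn : (M.map (QuotientGroup.mk' K)).Normal := hM.map _ hs
    rcases hmin (M.map (QuotientGroup.mk' K)) hMn
      (by rw [← Subgroup.comap_le_comap_of_surjective hs, hMe]; exact hAM)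
      (by rw [← Subgroup.comap_le_comap_of_surjective hs, hMe]; exact hMB) with h | h
    · left; rw [← hMe, h]
    · right; rw [← hMe, h]
  · have : (A.comap (QuotientGroup.mk' K)).relIndex (B.comap (QuotientGroup.mk' K)) =
        A.relIndex B := by
      rw [Subgroup.relIndex_comap, Subgroup.map_comap_eq_self_of_surjective hs]
    rw [this]; exact hx

end basic

/-- The normalizer of a Hall-type subgroup modulo `K`. -/
theorem comap_normalizer {G : Type u} [Group G] [Finite G] [Group.IsSolvable G]
    (H0 K : Subgroup G) [hK : K.Normal] (hcop : (Nat.card H0).Coprime (Nat.card K)) :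
    (normalizer ((H0.map (QuotientGroup.mk' K) : Subgroup (G ⧸ K)) :
      Set (G ⧸ K))).comap (QuotientGroup.mk' K) = normalizer (H0 : Set G) ⊔ K := by
  have hdisj : H0 ⊓ K = ⊥ := by
    apply Subgroup.eq_bot_of_card_eq
    exact Nat.eq_one_of_dvd_coprimes hcop (card_dvd_of_le inf_le_left)
      (card_dvd_of_le inf_le_right)
  apply le_antisymm
  · intro g hg
    rw [mem_comap, mem_normalizer_iff] at hg
    -- `g H0 g⁻¹` and `H0` lie in `H0 ⊔ K`
    set L := H0 ⊔ K with hL
    have hLc : Nat.card L = Nat.card H0 * Nat.card K := by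
      have h3 := card_sup_mul_card_inf H0 K
      rw [hdisj] at h3
      simpa using h3
    set H1 := H0.map (MulAut.conj g).toMonoidHom with hH1
    have hH1c : Nat.card H1 = Nat.card H0 :=
      (Nat.card_congr (H0.equivMapOfInjective _ (MulAut.conj g).injective).toEquiv).symm
    have hgL : H1 ≤ L := by
      rintro _ ⟨x, hx, rfl⟩
      have h4 := (hg (QuotientGroup.mk' K x)).1 ⟨_, hx, rfl⟩
      obtain ⟨y, hy, hyx⟩ := h4
      have h6 : y⁻¹ * (g * x * g⁻¹) ∈ K := QuotientGroup.eq.1 hyx
      change g * x * g⁻¹ ∈ L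
      have : g * x * g⁻¹ = y * (y⁻¹ * (g * x * g⁻¹)) := by group
      rw [this]
      exact mul_mem (mem_sup_left hy) (mem_sup_right h6)
    obtain ⟨l0, hl0⟩ := Solvable.Hall.hall_conj (G := L) (Nat.card H0) (Nat.card K) hLc hcop
      (H0.subgroupOf L) (H1.subgroupOf L)
      (by rw [Nat.card_congr (Subgroup.subgroupOfEquivOfLe le_sup_left).toEquiv])
      (by rw [Nat.card_congr (Subgroup.subgroupOfEquivOfLe hgL).toEquiv, hH1c])
    have hl1 : ∀ x ∈ H0, (l0 : G) * x * (l0 : G)⁻¹ ∈ H1 := by
      intro x hx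
      have hxL : x ∈ L := mem_sup_left hx
      have h7 : MulAut.conj l0 • (⟨x, hxL⟩ : L) ∈ H1.subgroupOf L := by
        rw [← hl0]
        exact smul_mem_pointwise_smul _ _ _ hx
      exact h7
    -- write `l0 = k * h`
    have hl0K : (l0 : G) ∈ K ⊔ H0 := by rw [sup_comm]; exact l0.2
    obtain ⟨k, hk, h, hh, hkh⟩ := mem_sup_of_normal_left.1 hl0K
    have h10 : ∀ x ∈ H0, k * x * k⁻¹ ∈ H1 := by
      intro x hx
      have := hl1 (h⁻¹ * x * h) (mul_mem (mul_mem (inv_mem hh) hx) hh)
      rw [← hkh] at this
      have e : k * h * (h⁻¹ * x * h) * (k * h)⁻¹ = k * x * k⁻¹ := by group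
      rwa [e] at this
    have h11 : ∀ x ∈ H0, (g⁻¹ * k) * x * (g⁻¹ * k)⁻¹ ∈ H0 := by
      intro x hx
      obtain ⟨y, hy, hyx⟩ := h10 x hx
      change g * y * g⁻¹ = k * x * k⁻¹ at hyx
      have : g⁻¹ * k * x * (g⁻¹ * k)⁻¹ = y := by
        calc g⁻¹ * k * x * (g⁻¹ * k)⁻¹ = g⁻¹ * (k * x * k⁻¹) * g := by group
          _ = y := by rw [← hyx]; group
      rw [this]; exact hy
    have h12 : g⁻¹ * k ∈ normalizer (H0 : Set G) := by
      have h13 : H0.map (MulAut.conj (g⁻¹ * k)).toMonoidHom = H0 := by
        apply Subgroup.eq_of_le_of_card_ge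
        · rintro _ ⟨x, hx, rfl⟩
          exact h11 x hx
        · rw [← Nat.card_congr (H0.equivMapOfInjective _
            (MulAut.conj (g⁻¹ * k)).injective).toEquiv]
      rw [mem_normalizer_iff]
      intro x
      constructor
      · exact h11 x
      · intro hx
        have hx' : g⁻¹ * k * x * (g⁻¹ * k)⁻¹ ∈
            H0.map (MulAut.conj (g⁻¹ * k)).toMonoidHom := by rw [h13]; exact hx
        obtain ⟨y, hy, hyx⟩ := hx'
        have : y = x := (MulAut.conj (g⁻¹ * k)).injective hyx
        rwa [← this]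
    have h14 : g = k * (g⁻¹ * k)⁻¹ := by group
    rw [h14]
    exact mul_mem (mem_sup_right hk) (mem_sup_left (inv_mem h12))
  · rw [sup_le_iff]
    constructor
    · intro g hg
      rw [mem_comap, mem_normalizer_iff]
      have key : ∀ g ∈ normalizer (H0 : Set G), ∀ x ∈ H0.map (QuotientGroup.mk' K),
          QuotientGroup.mk' K g * x * (QuotientGroup.mk' K g)⁻¹ ∈ H0.map (QuotientGroup.mk' K) := by
        rintro g hg _ ⟨y, hy, rfl⟩
        refine ⟨g * y * g⁻¹, (mem_normalizer_iff.1 hg y).1 hy, ?_⟩
        simp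
      intro x
      constructor
      · exact key g hg x
      · intro hx
        have := key g⁻¹ (inv_mem hg) _ hx
        simpa [mul_assoc] using this
    · intro g hg
      rw [mem_comap, QuotientGroup.mk'_apply, (QuotientGroup.eq_one_iff g).2 hg]
      exact one_mem _

theorem main (N : ℕ) : ∀ (G : Type u) [Group G] [Finite G] [Group.IsSolvable G], Nat.card G ≤ N →
    ∀ m n : ℕ, Nat.card G = m * n → m.Coprime n →
      ∃ l : List ℕ, Nat.card {H : Subgroup G // Nat.card H = m} = l.prod ∧
        ∀ x ∈ l, Good G m x := by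
  induction N with
  | zero =>
    intro G _ _ _ hG
    have := Nat.card_pos (α := G)
    omega
  | succ N ih =>
    intro G _ _ _ hG m n hmn hcop
    by_cases hnt : Nontrivial G
    swap
    · rw [not_nontrivial_iff_subsingleton] at hnt
      have h1 : Nat.card G = 1 := Nat.card_unique
      have hm : m = 1 := Nat.eq_one_of_mul_eq_one_right (hmn.symm.trans h1)
      subst hm
      refine ⟨[], ?_, by simp⟩
      rw [List.prod_nil, Nat.card_eq_one_iff_unique]
      exact ⟨inferInstance, ⟨⟨⊥, by simp⟩⟩⟩
    obtain ⟨K, hK, hKne, hmin⟩ := Lib.SubnormalJoin.exists_minimal_normal G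
    obtain ⟨p, d, hp, hd, hcK, hexp⟩ :=
      SolvableStructure.MinimalNormal.exists_prime_of_minimal_normal K hKne hmin
    have hmul : Nat.card G = Nat.card (G ⧸ K) * Nat.card K :=
      Subgroup.card_eq_card_quotient_mul_card_subgroup K
    have hKpos : 0 < Nat.card K := Nat.card_pos
    have hKgt : 1 < Nat.card K := by
      rw [hcK]; exact Nat.one_lt_pow hd.ne' hp.one_lt
    have hQpos : 0 < Nat.card (G ⧸ K) := Nat.card_pos
    have hlt : Nat.card (G ⧸ K) ≤ N := by
      have : Nat.card (G ⧸ K) < Nat.card G := by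
        rw [hmul]; exact lt_mul_of_one_lt_right hQpos hKgt
      omega
    have hGpos : 0 < Nat.card G := Nat.card_pos
    have hs := QuotientGroup.mk'_surjective K
    by_cases hpm : p ∣ m
    · -- `K` lies in every Hall subgroup
      have hpn : Nat.Coprime (p ^ d) n :=
        Nat.Coprime.pow_left d (Nat.Coprime.coprime_dvd_left hpm hcop)
      have hpdm : p ^ d ∣ m := by
        refine hpn.dvd_of_dvd_mul_right ?_
        rw [← hmn, hmul, hcK]; exact dvd_mul_left _ _
      obtain ⟨m', hm'⟩ := hpdm
      have hKH : ∀ H : Subgroup G, Nat.card H = m → K ≤ H := by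
        intro H hH
        have h1 := card_sup_mul_card_inf H K
        have h2 : Nat.card H * H.relIndex (H ⊔ K) = Nat.card ↥(H ⊔ K) :=
          card_mul_relIndex le_sup_left
        have hmpos : 0 < m := by rw [← hH]; exact Nat.card_pos
        have h3 : H.relIndex (H ⊔ K) ∣ n := by
          have h4 : Nat.card ↥(H ⊔ K) ∣ Nat.card G := Subgroup.card_subgroup_dvd_card _
          rw [← h2, hmn, hH] at h4
          exact Nat.dvd_of_mul_dvd_mul_left hmpos h4
        have h5 : H.relIndex (H ⊔ K) ∣ p ^ d := by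
          rw [← h2, hH, hcK, mul_assoc] at h1
          have h6 := Nat.eq_of_mul_eq_mul_left hmpos h1
          exact Dvd.intro _ h6
        have h7 : H.relIndex (H ⊔ K) = 1 := Nat.eq_one_of_dvd_coprimes hpn h5 h3
        have h8 : H ⊔ K ≤ H := Subgroup.relIndex_eq_one.1 h7
        exact le_sup_right.trans h8
      have e : Nat.card {H : Subgroup G // Nat.card H = m} =
          Nat.card {H : Subgroup (G ⧸ K) // Nat.card H = m'} := by
        refine Nat.card_congr ⟨fun H => ⟨H.1.map (QuotientGroup.mk' K), ?_⟩,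
          fun H => ⟨H.1.comap (QuotientGroup.mk' K), ?_⟩, ?_, ?_⟩
        · have h1 := Solvable.Hall.card_map_mk K H.1
          have h2 := H.2.trans hm'
          rw [inf_eq_left.2 (hKH H.1 H.2), h2, hcK, mul_comm] at h1
          exact Nat.eq_of_mul_eq_mul_left (pow_pos hp.pos d) h1
        · rw [Solvable.Hall.card_comap_mk, H.2, hcK, hm', mul_comm]
        · intro H
          apply Subtype.ext
          apply Subgroup.comap_map_eq_self
          rw [QuotientGroup.ker_mk']
          exact hKH H.1 H.2
        · intro H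
          apply Subtype.ext
          exact Subgroup.map_comap_eq_self_of_surjective hs _
      have hQc : Nat.card (G ⧸ K) = m' * n := by
        rw [hmul, hcK, hm', mul_assoc, mul_comm] at hmn
        exact Nat.eq_of_mul_eq_mul_left (pow_pos hp.pos d) hmn
      obtain ⟨l, hl, hl'⟩ := ih (G ⧸ K) hlt m' n hQc
        (Nat.Coprime.coprime_dvd_left (hm' ▸ dvd_mul_left _ _) hcop)
      exact ⟨l, e.trans hl, fun x hx => (hl' x hx).lift K (hm' ▸ dvd_mul_left _ _)⟩
    · -- `p` divides `n`
      have hpm' : Nat.Coprime m (p ^ d) :=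
        Nat.Coprime.pow_right d ((Nat.Prime.coprime_iff_not_dvd hp).2 hpm).symm
      have hpn : p ^ d ∣ n := by
        refine hpm'.symm.dvd_of_dvd_mul_left ?_
        rw [← hmn, hmul, hcK]; exact dvd_mul_left _ _
      obtain ⟨n', hn'⟩ := hpn
      have hQc : Nat.card (G ⧸ K) = m * n' := by
        rw [hmul, hcK, hn', show m * (p ^ d * n') = m * n' * p ^ d by ring] at hmn
        exact Nat.eq_of_mul_eq_mul_right (pow_pos hp.pos d) hmn
      have hcop' : m.Coprime n' := Nat.Coprime.coprime_dvd_right (hn' ▸ dvd_mul_left _ _) hcop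
      obtain ⟨l, hl, hl'⟩ := ih (G ⧸ K) hlt m n' hQc hcop'
      obtain ⟨H0, hH0⟩ := Solvable.Hall.hall_exists (G := G) m n hmn hcop
      have hdisj : H0 ⊓ K = ⊥ := by
        apply Subgroup.eq_bot_of_card_eq
        apply Nat.eq_one_of_dvd_coprimes hpm'
        · rw [← hH0]; exact card_dvd_of_le inf_le_left
        · rw [← hcK]; exact card_dvd_of_le inf_le_right
      have hcH0 : Nat.card (H0.map (QuotientGroup.mk' K)) = m := by
        have h1 := Solvable.Hall.card_map_mk K H0
        rw [inf_comm, hdisj] at h1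
        simpa [hH0] using h1
      have h1 := card_mul_normalizer m (fun A B hA hB =>
        Solvable.Hall.hall_conj m n hmn hcop A B hA hB) H0 hH0
      have h2 := card_mul_normalizer m (fun A B hA hB =>
        Solvable.Hall.hall_conj (G := G ⧸ K) m n' hQc hcop' A B hA hB)
        (H0.map (QuotientGroup.mk' K)) hcH0
      -- the normalizer in the quotient
      set NN := normalizer (H0 : Set G) with hNN
      have hNcomap := comap_normalizer H0 K (by rw [hH0, hcK]; exact hpm')
      have h3 : Nat.card ↥(normalizer ((H0.map (QuotientGroup.mk' K) : Subgroup (G ⧸ K)) :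
          Set (G ⧸ K))) * Nat.card K = Nat.card ↥(NN ⊔ K) := by
        rw [← hNcomap, Solvable.Hall.card_comap_mk]
      have h4 := card_sup_mul_card_inf NN K
      have h5 : NN ⊓ K = K ⊓ centralizer (H0 : Set G) := by
        apply le_antisymm
        · rintro k ⟨hk1, hk2⟩
          have hk2' : k ∈ K := hk2
          refine ⟨hk2, mem_centralizer_iff.2 ?_⟩
          intro h hh
          have h6 : k * h * k⁻¹ ∈ H0 := (mem_normalizer_iff.1 hk1 h).1 hh
          have h7 : k * h * k⁻¹ * h⁻¹ ∈ H0 ⊓ K := by
            refine ⟨H0.mul_mem h6 (H0.inv_mem hh), ?_⟩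
            rw [show k * h * k⁻¹ * h⁻¹ = k * (h * k⁻¹ * h⁻¹) by group]
            exact K.mul_mem hk2' (hK.conj_mem _ (inv_mem hk2') h)
          rw [hdisj, mem_bot] at h7
          have h8 : k * h = h * k := by
            calc k * h = (k * h * k⁻¹ * h⁻¹) * h * k := by group
              _ = h * k := by rw [h7, one_mul]
          exact h8.symm
        · rintro k ⟨hk1, hk2⟩
          refine ⟨?_, hk1⟩
          exact centralizer_le_normalizer _ hk2
      obtain ⟨l2, hl2, hl2'⟩ := exists_factors K hp hcK (Nat.card H0) H0 le_rfl inferInstance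
        (by rw [normalizer_eq_top]; exact le_top) (by rw [hH0]; exact hpm)
      refine ⟨l ++ l2, ?_, ?_⟩
      · rw [List.prod_append, ← hl]
        rw [h5] at h4
        have hNpos : 0 < Nat.card NN := Nat.card_pos
        have hCpos : 0 < Nat.card ↥(K ⊓ centralizer (H0 : Set G)) := Nat.card_pos
        have h6 : Nat.card {H : Subgroup G // Nat.card H = m} * Nat.card NN *
            Nat.card ↥(K ⊓ centralizer (H0 : Set G)) =
            Nat.card {H : Subgroup (G ⧸ K) // Nat.card H = m} * l2.prod * Nat.card NN *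
            Nat.card ↥(K ⊓ centralizer (H0 : Set G)) := by
          calc _ = Nat.card (G ⧸ K) * Nat.card K * Nat.card ↥(K ⊓ centralizer (H0 : Set G)) := by
                rw [h1, hmul]
            _ = Nat.card {H : Subgroup (G ⧸ K) // Nat.card H = m} *
                (Nat.card ↥(NN ⊔ K) * Nat.card ↥(K ⊓ centralizer (H0 : Set G))) := by
                rw [← h2, ← h3]; ring
            _ = Nat.card {H : Subgroup (G ⧸ K) // Nat.card H = m} *
                (Nat.card NN * (l2.prod * Nat.card ↥(K ⊓ centralizer (H0 : Set G)))) := by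
                rw [h4, hl2]
            _ = _ := by ring
        exact Nat.eq_of_mul_eq_mul_right hNpos (Nat.eq_of_mul_eq_mul_right hCpos h6)
      · intro x hx
        rcases List.mem_append.1 hx with hx | hx
        · exact (hl' x hx).lift K dvd_rfl
        · obtain ⟨⟨e, he⟩, h6, q, hq, hqm, hxq⟩ := hl2' x hx
          refine ⟨⟨p, e, hp, he⟩, ⟨⊥, K, inferInstance, hK, bot_lt_iff_ne_bot.2 hKne, ?_, ?_⟩,
            q, hq, hH0 ▸ hqm, hxq⟩
          · intro M hM _ hMK
            exact hmin M hM hMK
          · rw [relIndex_bot_left]; exact h6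

/-- **P. Hall**: the number of Hall subgroups. -/
theorem exists_factorization {G : Type u} [Group G] [Finite G] [Group.IsSolvable G] (m n : ℕ)
    (hG : Nat.card G = m * n) (hmn : Nat.Coprime m n) :
    ∃ (k : ℕ) (f : Fin k → ℕ), Nat.card {H : Subgroup G // Nat.card H = m} = ∏ i, f i ∧
      ∀ i, Good G m (f i) := by
  obtain ⟨l, hl, hl'⟩ := main (Nat.card G) G le_rfl m n hG hmn
  refine ⟨l.length, fun i => l.get i, ?_, fun i => hl' _ (List.get_mem l i)⟩
  rw [hl, ← List.prod_ofFn, List.ofFn_get]

end Cfsg.Agent.H542.HallCount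
end

-- part: S4214
section
set_option autoImplicit false
open Cfsg

namespace Cfsg.Agent.S4214

/-- Let `G` be a finite solvable group of order `mn` with `gcd(m, n) = 1`. Then the number of subgroups of order `m` is a product of natural numbers each of which is a power of a prime, divides the order of some chief factor of `G` (a quotient `L/K` of normal subgroups `K < L` of `G` with no normal subgroup of `G` strictly between them), and is congruent to `1` modulo some prime divisor of `m`. -/
theorem result {G : Type*} [Group G] [Finite G] [Group.IsSolvable G] (m n : ℕ) (hG : Nat.card G = m * n) (hmn : Nat.Coprime m n) : ∃ (k : ℕ) (f : Fin k → ℕ), Nat.card {H : Subgroup G // Nat.card H = m} = ∏ i, f i ∧ ∀ i, (∃ q e : ℕ, q.Prime ∧ f i = q ^ e) ∧ (∃ K L : Subgroup G, K.Normal ∧ L.Normal ∧ K < L ∧ (∀ M : Subgroup G, M.Normal → K ≤ M → M ≤ L → M = K ∨ M = L) ∧ f i ∣ K.relIndex L) ∧ (∃ q : ℕ, q.Prime ∧ q ∣ m ∧ f i ≡ 1 [MOD q]) := by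
  exact Cfsg.Agent.H542.HallCount.exists_factorization m n hG hmn

end Cfsg.Agent.S4214
end
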