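import Cfsg.Agent.H544.MillerC
import Cfsg.Statements.S4220
import Cfsg.Agent.S0415
import Cfsg.Agent.S0416
import Cfsg.Agent.S0417
set_option linter.all false

-- part: H544/MillerD
section
/-!
# Lemmas for Miller's bound on transitivity (degree `kp + r`)

Part D: the case `p ≥ 5`.
-/

set_option autoImplicit false

namespace Cfsg.Agent.H544.MillerD

open Equiv Equiv.Perm MulAction Cfsg.Agent.H544.MillerA Cfsg.Agent.H544.MillerB
  Cfsg.Agent.H544.MillerC
open scoped Pointwise

variable {α : Type*} [Fintype α] [DecidableEq α]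

/-- The normalizer of `P` in `G`. -/
def norm (G P : Subgroup (Perm α)) : Subgroup (Perm α) where
  carrier := {g | g ∈ G ∧ ∀ h, h ∈ P ↔ g * h * g⁻¹ ∈ P}
  mul_mem' := by
    rintro a b ⟨ha, ha'⟩ ⟨hb, hb'⟩
    refine ⟨mul_mem ha hb, fun h => ?_⟩
    have e : a * b * h * (a * b)⁻¹ = a * (b * h * b⁻¹) * a⁻¹ := by group
    rw [e, ← ha', ← hb']
  one_mem' := ⟨one_mem _, fun h => by simp⟩
  inv_mem' := by
    rintro a ⟨ha, ha'⟩
    refine ⟨inv_mem ha, fun h => ?_⟩
    rw [ha' (a⁻¹ * h * a⁻¹⁻¹)]
    have e : a * (a⁻¹ * h * a⁻¹⁻¹) * a⁻¹ = h := by group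
    rw [e]

theorem orbit_smul {G P : Subgroup (Perm α)} (n : norm G P) (x : α) :
    n • (MulAction.orbit P x : Set α) = MulAction.orbit P ((n : Perm α) x) := by
  ext y
  rw [Set.mem_smul_set]
  constructor
  · rintro ⟨_, ⟨⟨h, hh⟩, rfl⟩, rfl⟩
    refine ⟨⟨n * h * (n : Perm α)⁻¹, (n.2.2 h).mp hh⟩, ?_⟩
    show ((n : Perm α) * h * (n : Perm α)⁻¹) ((n : Perm α) x) = (n : Perm α) (h x)
    simp
  · rintro ⟨⟨h, hh⟩, rfl⟩
    have h1 : (n : Perm α)⁻¹ * h * n ∈ P := by
      rw [n.2.2]
      have : (n : Perm α) * ((n : Perm α)⁻¹ * h * n) * (n : Perm α)⁻¹ = h := by group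
      rw [this]; exact hh
    refine ⟨((n : Perm α)⁻¹ * h * n) x, ⟨⟨_, h1⟩, rfl⟩, ?_⟩
    show (n : Perm α) (((n : Perm α)⁻¹ * h * n) x) = h ((n : Perm α) x)
    simp

/-- `F` is preserved by the normalizer. -/
theorem norm_F {G P : Subgroup (Perm α)} {F : Set α} {p : ℕ} (hp : p.Prime) (S : Setup p P F)
    (n : Perm α) (hn : n ∈ norm G P) (x : α) : x ∈ F ↔ n x ∈ F := by
  have key : ∀ m : Perm α, m ∈ norm G P → ∀ x, x ∈ F → m x ∈ F := by
    intro m hm x hx
    by_contra hmx
    have h1 := S.orb _ hmx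
    have h2 : MulAction.orbit P (m x) = {m x} := by
      ext y
      constructor
      · rintro ⟨⟨h, hh⟩, rfl⟩
        show h (m x) = m x
        have h3 : m⁻¹ * h * m ∈ P := by
          rw [hm.2]
          have : m * (m⁻¹ * h * m) * m⁻¹ = h := by group
          rw [this]; exact hh
        have h4 := S.fix x hx _ h3
        have h5 : m ((m⁻¹ * h * m) x) = m x := by rw [h4]
        simpa using h5
      · rintro rfl
        exact mem_orbit_self _
    rw [h2, Nat.card_unique] at h1
    exact hp.one_lt.ne h1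
  refine ⟨key n hn x, fun h => ?_⟩
  have := key n⁻¹ (inv_mem hn) _ h
  simpa using this

/-- The `P`-orbits outside `F`. -/
def orbs {G P : Subgroup (Perm α)} {F : Set α} {p : ℕ} (hp : p.Prime) (S : Setup p P F) :
    SubMulAction (norm G P) (Set α) where
  carrier := {s | ∃ x, x ∉ F ∧ s = (MulAction.orbit P x : Set α)}
  smul_mem' := by
    rintro n _ ⟨x, hx, rfl⟩
    exact ⟨(n : Perm α) x, fun h => hx ((norm_F hp S n n.2 x).mpr h), orbit_smul n x⟩

theorem card_orbs {G P : Subgroup (Perm α)} {F : Set α} {p k : ℕ} (hp : p.Prime)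
    (S : Setup p P F) (hF : Set.ncard Fᶜ = k * p) :
    Nat.card (orbs (G := G) hp S) ≤ k := by
  classical
  have : Fintype (orbs (G := G) hp S) := Fintype.ofFinite _
  let f : (Σ s : orbs (G := G) hp S, (s : Set α)) → (Fᶜ : Set α) := fun q => ⟨q.2.1, by
    obtain ⟨⟨s, x, hx, rfl⟩, ⟨y, ⟨h, hh⟩, rfl⟩⟩ := q
    intro hy
    apply hx
    have h1 : h (h x) = h x := S.fix _ hy h hh
    have h2 : h x = x := h.injective h1
    rw [← h2]; exact hy⟩
  have hf : Function.Injective f := by
    rintro ⟨⟨s, x, hx, rfl⟩, ⟨y, hy⟩⟩ ⟨⟨s', x', hx', rfl⟩, ⟨y', hy'⟩⟩ hxy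
    have h1 : y = y' := congrArg Subtype.val hxy
    subst h1
    have h2 : (MulAction.orbit P x : Set α) = MulAction.orbit P x' := by
      rw [← MulAction.orbit_eq_iff.mpr hy, ← MulAction.orbit_eq_iff.mpr hy']
    have h3 : (⟨MulAction.orbit P x, ⟨x, hx, rfl⟩⟩ : orbs (G := G) hp S) =
        ⟨MulAction.orbit P x', ⟨x', hx', rfl⟩⟩ := Subtype.ext h2
    exact Sigma.subtype_ext h3 rfl
  have h1 := Nat.card_le_card_of_injective f hf
  rw [Nat.card_coe_set_eq, hF, Nat.card_sigma] at h1
  have h2 : ∀ s : orbs (G := G) hp S, Nat.card (s : Set α) = p := by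
    rintro ⟨s, x, hx, rfl⟩
    exact S.orb x hx
  rw [Finset.sum_congr rfl (fun s _ => h2 s), Finset.sum_const, Finset.card_univ, smul_eq_mul,
    ← Nat.card_eq_fintype_card] at h1
  exact Nat.le_of_mul_le_mul_right h1 hp.pos

/-- The restriction homomorphism to `F`. -/
def rho {G P : Subgroup (Perm α)} {F : Set α} {p : ℕ} (hp : p.Prime) (S : Setup p P F) :
    norm G P →* Perm F where
  toFun n := (n : Perm α).subtypePerm (fun x => (norm_F hp S n n.2 x).symm)
  map_one' := by ext x; rfl
  map_mul' a b := by ext x; rfl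

theorem rho_apply {G P : Subgroup (Perm α)} {F : Set α} {p : ℕ} (hp : p.Prime) (S : Setup p P F)
    (n : norm G P) (x : F) : (rho hp S n x : α) = (n : Perm α) x := rfl

/-- The common hypotheses. -/
structure Ctx (G P : Subgroup (Perm α)) (F : Set α) (p k r : ℕ) : Prop where
  hp : p.Prime
  S : Setup p P F
  PG : P ≤ G
  card : Set.ncard F = r
  cardc : Set.ncard Fᶜ = k * p
  surj : ∀ σ : Perm F, ∃ n ∈ norm G P, ∀ x : F, n x = σ x
  hG : IsMultiplyPretransitive G α (r + 1)
  hr : 3 ≤ r
  hk : 1 ≤ k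
  hrk : k < r
  hp5 : 5 ≤ p

namespace Ctx

variable {G P : Subgroup (Perm α)} {F : Set α} {p k r : ℕ}

theorem cardF (C : Ctx G P F p k r) [Fintype F] : Fintype.card F = r := by
  rw [← Nat.card_eq_fintype_card, Nat.card_coe_set_eq, C.card]

theorem cardα (C : Ctx G P F p k r) : Fintype.card α = k * p + r := by
  have := Set.ncard_add_ncard_compl F
  rw [C.card, C.cardc, Nat.card_eq_fintype_card] at this
  omega

theorem rho_surj (C : Ctx G P F p k r) : Function.Surjective (rho (G := G) C.hp C.S) := by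
  intro σ
  obtain ⟨n, hn, hnx⟩ := C.surj σ
  exact ⟨⟨n, hn⟩, Equiv.ext (fun x => Subtype.ext (hnx x))⟩

/-- The final step. -/
theorem final (C : Ctx G P F p k r) (g : Perm α) (hg : g ∈ G) (hgP : ∀ h ∈ P, g * h = h * g)
    (hgo : ∀ x, x ∉ F → ∃ h ∈ P, g x = h x) (hgF : ∃ x ∈ F, g x ≠ x) :
    alternatingGroup α ≤ G := by
  classical
  have hgN : g ∈ norm G P := by
    refine ⟨hg, fun h => ?_⟩
    constructor
    · intro hh
      rw [hgP h hh]; simpa using hh
    · intro hh
      have h1 := hgP _ hh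
      have h2 : g * h = g * h * g⁻¹ * g := by group
      have h3 : g * (g * h * g⁻¹) = g * h := by rw [h1]; group
      have h4 : g * h * g⁻¹ = h := mul_left_cancel h3
      rw [← h4]; exact hh
  set m : Perm F := rho (G := G) C.hp C.S ⟨g, hgN⟩ with hm
  have hm1 : m ≠ 1 := by
    obtain ⟨x, hx, hgx⟩ := hgF
    intro h
    apply hgx
    have := congrArg (fun f : Perm F => (f ⟨x, hx⟩ : α)) h
    exact this
  obtain ⟨a, b, hab, hcom⟩ := exists_swap (by rw [C.cardF]; exact C.hr) m hm1
  obtain ⟨n, hn⟩ := C.rho_surj (swap a b)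
  set c : Perm α := g * n * g⁻¹ * (n : Perm α)⁻¹ with hc
  have hcN : c ∈ norm G P := mul_mem (mul_mem (mul_mem hgN n.2) (inv_mem hgN)) (inv_mem n.2)
  have hρc : rho C.hp C.S ⟨c, hcN⟩ = m * swap a b * m⁻¹ * swap a b := by
    have e : (⟨c, hcN⟩ : norm G P) = ⟨g, hgN⟩ * n * ⟨g, hgN⟩⁻¹ * n⁻¹ := rfl
    rw [e, map_mul, map_mul, map_mul, map_inv, map_inv, hn, swap_inv]
  -- `g⁻¹` commutes with `P` and preserves the orbits
  have hgP' : ∀ h ∈ P, g⁻¹ * h = h * g⁻¹ := by
    intro h hh
    have := hgP h hh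
    calc g⁻¹ * h = g⁻¹ * (h * g) * g⁻¹ := by group
      _ = g⁻¹ * (g * h) * g⁻¹ := by rw [this]
      _ = h * g⁻¹ := by group
  have hgo' : ∀ x, x ∉ F → ∃ h ∈ P, g⁻¹ x = h x := by
    intro x hx
    obtain ⟨h, hh, e⟩ := hgo x hx
    refine ⟨h⁻¹, inv_mem hh, ?_⟩
    rw [Perm.inv_eq_iff_eq]
    have h1 := hgP' h hh
    have h2 : x = g⁻¹ (h x) := by rw [← e]; simp
    rw [← Perm.mul_apply, h1, Perm.mul_apply] at h2
    rw [← Perm.mul_apply, hgP _ (inv_mem hh), Perm.mul_apply, e]; simp
  -- `c` commutes with `P`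
  have hcP : ∀ h ∈ P, c * h = h * c := by
    intro h hh
    have h1 : (n : Perm α)⁻¹ * h * n ∈ P := by
      rw [n.2.2]
      have : (n : Perm α) * ((n : Perm α)⁻¹ * h * n) * (n : Perm α)⁻¹ = h := by group
      rw [this]; exact hh
    have h2 := hgP' _ h1
    calc c * h = g * n * (g⁻¹ * ((n : Perm α)⁻¹ * h * n)) * (n : Perm α)⁻¹ := by rw [hc]; group
      _ = g * n * (((n : Perm α)⁻¹ * h * n) * g⁻¹) * (n : Perm α)⁻¹ := by rw [h2]
      _ = (g * h) * n * g⁻¹ * (n : Perm α)⁻¹ := by group
      _ = (h * g) * n * g⁻¹ * (n : Perm α)⁻¹ := by rw [hgP h hh]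
      _ = h * c := by rw [hc]; group
  have hco : ∀ x, x ∉ F → ∃ h ∈ P, c x = h x := by
    intro x hx
    have hy : (n : Perm α)⁻¹ x ∉ F := by
      rw [norm_F C.hp C.S n n.2]; simpa using hx
    obtain ⟨h, hh, e⟩ := hgo' _ hy
    have h1 : ((n : Perm α) * g⁻¹ * (n : Perm α)⁻¹) x =
        ((n : Perm α) * h * (n : Perm α)⁻¹) x := by
      rw [Perm.mul_apply, Perm.mul_apply, e]; rfl
    have h2 : (n : Perm α) * h * (n : Perm α)⁻¹ ∈ P := (n.2.2 h).mp hh
    obtain ⟨h', hh', e'⟩ := hgo x hx
    refine ⟨(n : Perm α) * h * (n : Perm α)⁻¹ * h', mul_mem h2 hh', ?_⟩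
    have e3 : c = g * ((n : Perm α) * g⁻¹ * (n : Perm α)⁻¹) := by rw [hc]; group
    rw [e3, Perm.mul_apply, h1, ← Perm.mul_apply, hgP _ h2, Perm.mul_apply, e',
      ← Perm.mul_apply]
  -- the `p`-th power
  have hfix : ∀ x, x ∉ F → (c ^ p) x = x := fun x hx =>
    C.S.pow_fix C.hp hcP (hco x hx)
  have hne : c ^ p ≠ 1 := by
    intro h
    have h1 : (m * swap a b * m⁻¹ * swap a b) ^ p = 1 := by
      rw [← hρc, ← map_pow]
      have : (⟨c, hcN⟩ : norm G P) ^ p = 1 := Subtype.ext h
      rw [this, map_one]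
    have h2 : (m * swap a b * m⁻¹ * swap a b) ^ 6 = 1 := by
      rw [conj_swap_mul]; exact swap_mul_swap_pow_six _ _ _ _
    have h3 : Nat.Coprime p 6 := by
      rw [show 6 = 2 * 3 by norm_num, Nat.coprime_mul_iff_right]
      constructor
      · exact (Nat.coprime_primes C.hp Nat.prime_two).mpr (by have := C.hp5; omega)
      · exact (Nat.coprime_primes C.hp Nat.prime_three).mpr (by have := C.hp5; omega)
    have h4 := orderOf_dvd_of_pow_eq_one h1
    have h5 := orderOf_dvd_of_pow_eq_one h2
    have h6 : orderOf (m * swap a b * m⁻¹ * swap a b) ∣ 1 := by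
      rw [← h3]; exact Nat.dvd_gcd h4 h5
    exact hcom (orderOf_eq_one_iff.mp (Nat.dvd_one.mp h6))
  have hsupp : (c ^ p).support.card < 2 * (r + 1) - 2 := by
    have h1 : (c ^ p).support ⊆ F.toFinset := by
      intro x hx
      rw [Equiv.Perm.mem_support] at hx
      rw [Set.mem_toFinset]
      by_contra hxF
      exact hx (hfix x hxF)
    have h2 := Finset.card_le_card h1
    have h3 : F.toFinset.card = r := by
      rw [Set.toFinset_card, C.cardF]
    have := C.hr
    omega
  have hr := C.hr
  have hk := C.hk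
  have hp := C.hp.pos
  exact (Cfsg.Agent.S0711.result G (k := r + 1) (by omega)
    (by rw [C.cardα]; have : 1 ≤ k * p := Nat.mul_pos hk hp; omega) C.hG (c ^ p)
    (pow_mem hcN.1 p) hne hsupp).2

end Ctx

end Cfsg.Agent.H544.MillerD
end

-- part: H544/MillerE
section
/-!
# Lemmas for Miller's bound on transitivity (degree `kp + r`)

Part E: the case `p ≥ 5`, conclusion.
-/

set_option autoImplicit false

namespace Cfsg.Agent.H544.MillerE

open Equiv Equiv.Perm MulAction Cfsg.Agent.H544.MillerA Cfsg.Agent.H544.MillerB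
  Cfsg.Agent.H544.MillerC Cfsg.Agent.H544.MillerD
open scoped Pointwise

variable {α : Type*} [Fintype α] [DecidableEq α]

variable {G P : Subgroup (Perm α)} {F : Set α} {p k r : ℕ}

/-- Commutators of elements that are good everywhere centralize `P`. -/
theorem commutator_centralizes (C : Ctx G P F p k r) (n n' : Perm α) (hn : n ∈ norm G P)
    (hn' : n' ∈ norm G P) (hg : ∀ x, x ∉ F → Setup.Good P n x) (hg' : ∀ x, x ∉ F → Setup.Good P n' x) :
    ∀ h ∈ P, (n * n' * n⁻¹ * n'⁻¹) * h = h * (n * n' * n⁻¹ * n'⁻¹) := by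
  intro h hh
  have hcN : n * n' * n⁻¹ * n'⁻¹ ∈ norm G P :=
    mul_mem (mul_mem (mul_mem hn hn') (inv_mem hn)) (inv_mem hn')
  have h1 : (n * n' * n⁻¹ * n'⁻¹) * h * (n * n' * n⁻¹ * n'⁻¹)⁻¹ = h := by
    apply Equiv.ext
    intro x
    by_cases hx : x ∈ F
    · rw [C.S.fix x hx _ ((hcN.2 h).mp hh), C.S.fix x hx h hh]
    · exact C.S.commutator_fix C.hp hx (hg x hx) (hg' x hx) h hh
  calc (n * n' * n⁻¹ * n'⁻¹) * h
      = (n * n' * n⁻¹ * n'⁻¹) * h * (n * n' * n⁻¹ * n'⁻¹)⁻¹ * (n * n' * n⁻¹ * n'⁻¹) := by group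
    _ = h * (n * n' * n⁻¹ * n'⁻¹) := by rw [h1]

/-- The kernel of the action of the normalizer on the set of nontrivial `P`-orbits. -/
def N0 (C : Ctx G P F p k r) : Subgroup (norm G P) :=
  (MulAction.toPermHom (norm G P) (orbs (G := G) C.hp C.S)).ker

instance N0_normal (C : Ctx G P F p k r) : (N0 C).Normal := MonoidHom.normal_ker _

theorem N0_orbit (C : Ctx G P F p k r) {n : norm G P} (hn : n ∈ N0 C) {x : α} (hx : x ∉ F) :
    ∃ h ∈ P, (n : Perm α) x = h x := by
  have h1 : MulAction.toPermHom (norm G P) (orbs (G := G) C.hp C.S) n = 1 := hn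
  have h2 := congrArg (fun f : Perm (orbs (G := G) C.hp C.S) =>
    (f ⟨MulAction.orbit P x, ⟨x, hx, rfl⟩⟩ : Set α)) h1
  have h3 : n • (MulAction.orbit P x : Set α) = MulAction.orbit P x := h2
  rw [Cfsg.Agent.H544.MillerD.orbit_smul] at h3
  have h4 : (n : Perm α) x ∈ MulAction.orbit P x := by
    rw [← h3]; exact mem_orbit_self _
  obtain ⟨⟨h, hh⟩, e⟩ := h4
  exact ⟨h, hh, e.symm⟩

theorem N0_good (C : Ctx G P F p k r) {n : norm G P} (hn : n ∈ N0 C) {x : α} (hx : x ∉ F) :
    Setup.Good P (n : Perm α) x :=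
  C.S.good_of_orbit C.hp n.2.2 (N0_orbit C hn hx)

theorem N0_index (C : Ctx G P F p k r) : (N0 C).index ≤ k.factorial := by
  classical
  rw [N0, Subgroup.index_ker]
  have h1 : Nat.card (MulAction.toPermHom (norm G P) (orbs (G := G) C.hp C.S)).range ≤
      Nat.card (Perm (orbs (G := G) C.hp C.S)) :=
    Nat.card_le_card_of_injective _ Subtype.val_injective
  rw [Nat.card_perm] at h1
  exact h1.trans (Nat.factorial_le (card_orbs C.hp C.S C.cardc))

/-- The image of `N0` in the symmetric group on `F`. -/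
def M (C : Ctx G P F p k r) : Subgroup (Perm F) := (N0 C).map (rho C.hp C.S)

theorem M_normal (C : Ctx G P F p k r) : (M C).Normal :=
  Subgroup.Normal.map (N0_normal C) _ C.rho_surj

theorem M_ne_bot (C : Ctx G P F p k r) : M C ≠ ⊥ := by
  classical
  intro h
  have h1 : (M C).index ∣ (N0 C).index := Subgroup.index_map_dvd _ C.rho_surj
  have h0 : (N0 C).index ≠ 0 := Subgroup.index_ne_zero_of_finite
  have h2 := (Nat.le_of_dvd (Nat.pos_of_ne_zero h0) h1).trans (N0_index C)
  rw [h, Subgroup.index_bot, Nat.card_perm, Nat.card_coe_set_eq, C.card] at h2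
  have h3 := (Nat.factorial_lt C.hk).mpr C.hrk
  omega

/-- The contradiction hypothesis. -/
def Bad (G P : Subgroup (Perm α)) (F : Set α) : Prop :=
  ∀ g ∈ G, (∀ h ∈ P, g * h = h * g) → (∀ x, x ∉ F → ∃ h ∈ P, g x = h x) → ∀ x ∈ F, g x = x

/-- Under `Bad`, commutators `[n, n']` (with `n' ∈ N0`) centralizing `P` die under `rho`. -/
theorem rho_comm (C : Ctx G P F p k r) (hB : Bad G P F) (n n' : norm G P) (hn' : n' ∈ N0 C)
    (hc : ∀ h ∈ P, ((n : Perm α) * n' * (n : Perm α)⁻¹ * (n' : Perm α)⁻¹) * h =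
      h * ((n : Perm α) * n' * (n : Perm α)⁻¹ * (n' : Perm α)⁻¹)) :
    rho C.hp C.S n * rho C.hp C.S n' = rho C.hp C.S n' * rho C.hp C.S n := by
  set c : norm G P := n * n' * n⁻¹ * n'⁻¹ with hcdef
  have hc0 : c ∈ N0 C := by
    have : c = (n * n' * n⁻¹) * n'⁻¹ := rfl
    rw [this]
    exact mul_mem ((N0_normal C).conj_mem n' hn' n) (inv_mem hn')
  have h1 : rho C.hp C.S c = 1 := by
    apply Equiv.ext
    intro x
    apply Subtype.ext
    rw [rho_apply]
    exact hB c c.2.1 hc (fun y hy => N0_orbit C hc0 hy) x x.2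
  rw [hcdef, map_mul, map_mul, map_mul, map_inv, map_inv] at h1
  rw [mul_inv_eq_one, mul_inv_eq_iff_eq_mul] at h1
  exact h1

theorem M_abelian (C : Ctx G P F p k r) (hB : Bad G P F) :
    ∀ x ∈ M C, ∀ y ∈ M C, x * y = y * x := by
  rintro _ ⟨n, hn, rfl⟩ _ ⟨n', hn', rfl⟩
  exact rho_comm C hB n n' hn' (commutator_centralizes C n n' n.2 n'.2
    (fun x hx => N0_good C hn hx) (fun x hx => N0_good C hn' hx))

/-- Case I: every nonidentity element of `P` moves all points outside `F`. -/
theorem caseI (C : Ctx G P F p k r) (hB : Bad G P F)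
    (h1 : ∀ h ∈ P, ∀ x, x ∉ F → h x = x → h = 1) : False := by
  classical
  have hgood : ∀ n : norm G P, ∀ x, x ∉ F → Setup.Good P (n : Perm α) x := by
    intro n x hx
    refine ⟨n.2.2, fun h hh => ?_⟩
    constructor
    · intro hhx
      rw [h1 h hh x hx hhx]; simp
    · intro hhx
      have := h1 _ ((n.2.2 h).mp hh) x hx hhx
      rw [conj_eq_one_iff] at this
      rw [this]; rfl
  obtain ⟨⟨m, hm⟩, hne'⟩ := Subgroup.ne_bot_iff_exists_ne_one.mp (M_ne_bot C)
  have hne : m ≠ 1 := fun h' => hne' (Subtype.ext h')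
  obtain ⟨a, b, hab, hcom⟩ := exists_swap (by rw [C.cardF]; exact C.hr) m hne
  obtain ⟨n, hn⟩ := C.rho_surj (swap a b)
  obtain ⟨n', hn', rfl⟩ := hm
  have h2 := rho_comm C hB n n' hn' (commutator_centralizes C n n' n.2 n'.2
    (fun x hx => hgood n x hx) (fun x hx => hgood n' x hx))
  rw [hn] at h2
  apply hcom
  rw [← h2]
  simp

theorem five_le (C : Ctx G P F p k r) (hB : Bad G P F) (hr : 5 ≤ r) : False := by
  classical
  have := M_normal C
  exact M_ne_bot C (eq_bot_of_abelian (by rw [C.cardF]; exact hr) (M C) (M_abelian C hB))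

/-- The main case distinction. -/
theorem main5 (C : Ctx G P F p k r) : alternatingGroup α ≤ G := by
  classical
  by_contra hcon
  have hB : Bad G P F := by
    intro g hg hgP hgo x hx
    by_contra hne
    exact hcon (C.final g hg hgP hgo ⟨x, hx, hne⟩)
  have hr4 : r ≤ 4 := by
    by_contra h
    exact five_le C hB (by omega)
  have hrk := C.hrk
  have hk := C.hk
  have hr3 := C.hr
  have hp5 := C.hp5
  have hcα := C.cardα
  have hprim : IsPreprimitive G α := by
    apply isPreprimitive_of_is_two_pretransitive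
    have : p ≤ k * p := Nat.le_mul_of_pos_left p hk
    exact mono (by omega) (by omega) C.hG
  -- all nonidentity elements of `P` move at least `2p` points
  have hsupp : ∀ h ∈ P, h ≠ 1 → 2 * p ≤ h.support.card := by
    intro h hh h1
    by_contra hlt
    push Not at hlt
    obtain ⟨hc, hcard⟩ := C.S.isCycle C.hp hh h1 hlt
    have : p ≤ k * p := Nat.le_mul_of_pos_left p hk
    exact hcon (Cfsg.Agent.S0713.result G hprim C.hp (by omega) (by omega) hc hcard (C.PG hh))
  -- a nonidentity element fixing a point outside `F`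
  obtain ⟨h, hh, x, hx, hhx, h1⟩ : ∃ h ∈ P, ∃ x, x ∉ F ∧ h x = x ∧ h ≠ 1 := by
    by_contra hno
    push Not at hno
    exact caseI C hB hno
  have hsub : ∀ u ∈ P, u.support ⊆ Fᶜ.toFinset := by
    intro u hu y hy
    rw [Set.mem_toFinset]
    intro hyF
    exact (Equiv.Perm.mem_support.mp hy) (C.S.fix y hyF u hu)
  have horbF : ∀ y, y ∉ F → (MulAction.orbit P y : Set α) ⊆ Fᶜ := by
    rintro y hy _ ⟨⟨u, hu⟩, rfl⟩ hF
    apply hy
    have h2 : u (u y) = u y := C.S.fix _ hF u hu
    have h3 : u y = y := u.injective h2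
    rw [← h3]; exact hF
  -- an element of `P` fixing a point fixes its whole orbit
  have hfixorb : ∀ u ∈ P, ∀ y, u y = y → ∀ z ∈ MulAction.orbit P y, u z = z := by
    rintro u hu y huy _ ⟨⟨v, hv⟩, rfl⟩
    show u (v y) = v y
    rw [← Perm.mul_apply, C.S.comm C.hp u hu v hv, Perm.mul_apply, huy]
  have hcardc : Fᶜ.toFinset.card = k * p := by
    rw [← C.cardc, Set.ncard_eq_toFinset_card']
  have horbcard : ∀ y, y ∉ F → (MulAction.orbit P y : Set α).toFinset.card = p := by
    intro y hy
    rw [← Set.ncard_eq_toFinset_card', ← Nat.card_coe_set_eq, C.S.orb y hy]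
  have hbound : ∀ u ∈ P, ∀ y, y ∉ F → u y = y → u.support.card + p ≤ k * p := by
    intro u hu y hy huy
    rw [← hcardc, ← horbcard y hy, ← Finset.card_union_of_disjoint]
    · apply Finset.card_le_card
      apply Finset.union_subset (hsub u hu)
      intro z hz
      rw [Set.mem_toFinset] at hz ⊢
      exact horbF y hy hz
    · rw [Finset.disjoint_left]
      intro z hz hz'
      rw [Set.mem_toFinset] at hz'
      exact (Equiv.Perm.mem_support.mp hz) (hfixorb u hu y huy z hz')
  have hk3 : k = 3 ∧ r = 4 := by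
    have h2 := hbound h hh x hx hhx
    have h3 := hsupp h hh h1
    have h4 : 3 * p ≤ k * p := by omega
    have h5 := Nat.le_of_mul_le_mul_right h4 C.hp.pos
    omega
  obtain ⟨rfl, rfl⟩ := hk3
  -- the support of `h` is everything outside `F` and the orbit of `x`
  have hsupp_h : ∀ y, y ∉ F → y ∉ MulAction.orbit P x → h y ≠ y := by
    intro y hy hyx hhy
    -- `h` fixes the two orbits
    have h2 : h.support.card + p + p ≤ 3 * p := by
      rw [← hcardc]
      calc h.support.card + p + p
          = h.support.card + (MulAction.orbit P x : Set α).toFinset.card +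
              (MulAction.orbit P y : Set α).toFinset.card := by rw [horbcard x hx, horbcard y hy]
        _ = (h.support ∪ (MulAction.orbit P x : Set α).toFinset ∪
              (MulAction.orbit P y : Set α).toFinset).card := by
            rw [Finset.card_union_of_disjoint, Finset.card_union_of_disjoint]
            · rw [Finset.disjoint_left]
              intro z hz hz'
              rw [Set.mem_toFinset] at hz'
              exact (Equiv.Perm.mem_support.mp hz) (hfixorb h hh x hhx z hz')
            · rw [Finset.disjoint_left]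
              intro z hz hz'
              rw [Set.mem_toFinset] at hz'
              rw [Finset.mem_union] at hz
              rcases hz with hz | hz
              · exact (Equiv.Perm.mem_support.mp hz) (hfixorb h hh y hhy z hz')
              · rw [Set.mem_toFinset] at hz
                apply hyx
                have e1 := MulAction.orbit_eq_iff.mpr hz
                have e2 := MulAction.orbit_eq_iff.mpr hz'
                rw [← e1, e2]; exact mem_orbit_self _
        _ ≤ _ := by
            apply Finset.card_le_card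
            apply Finset.union_subset (Finset.union_subset (hsub h hh) ?_) ?_
            · intro z hz
              rw [Set.mem_toFinset] at hz ⊢
              exact horbF x hx hz
            · intro z hz
              rw [Set.mem_toFinset] at hz ⊢
              exact horbF y hy hz
    have h3 := hsupp h hh h1
    have := C.hp.pos
    omega
  -- an element of `P` fixing a point of each of two different orbits is trivial
  have htwo : ∀ u ∈ P, ∀ y z, y ∉ F → z ∉ F → y ∉ MulAction.orbit P z → u y = y → u z = z →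
      u = 1 := by
    intro u hu y z hy hz hyz huy huz
    by_contra hu1
    have h2 : u.support.card + p + p ≤ 3 * p := by
      rw [← hcardc]
      calc u.support.card + p + p
          = u.support.card + (MulAction.orbit P z : Set α).toFinset.card +
              (MulAction.orbit P y : Set α).toFinset.card := by rw [horbcard z hz, horbcard y hy]
        _ = (u.support ∪ (MulAction.orbit P z : Set α).toFinset ∪
              (MulAction.orbit P y : Set α).toFinset).card := by
            rw [Finset.card_union_of_disjoint, Finset.card_union_of_disjoint]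
            · rw [Finset.disjoint_left]
              intro w hw hw'
              rw [Set.mem_toFinset] at hw'
              exact (Equiv.Perm.mem_support.mp hw) (hfixorb u hu z huz w hw')
            · rw [Finset.disjoint_left]
              intro w hw hw'
              rw [Set.mem_toFinset] at hw'
              rw [Finset.mem_union] at hw
              rcases hw with hw | hw
              · exact (Equiv.Perm.mem_support.mp hw) (hfixorb u hu y huy w hw')
              · rw [Set.mem_toFinset] at hw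
                apply hyz
                have e1 := MulAction.orbit_eq_iff.mpr hw
                have e2 := MulAction.orbit_eq_iff.mpr hw'
                rw [← e1, e2]; exact mem_orbit_self _
        _ ≤ _ := by
            apply Finset.card_le_card
            apply Finset.union_subset (Finset.union_subset (hsub u hu) ?_) ?_
            · intro w hw
              rw [Set.mem_toFinset] at hw ⊢
              exact horbF z hz hw
            · intro w hw
              rw [Set.mem_toFinset] at hw ⊢
              exact horbF y hy hw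
    have h3 := hsupp u hu hu1
    have := C.hp.pos
    omega
  -- a point moved by `h`
  obtain ⟨y0, hy0⟩ : ∃ y, h y ≠ y := by
    by_contra hno
    push Not at hno
    exact h1 (Equiv.ext hno)
  have hy0F : y0 ∉ F := fun hF => hy0 (C.S.fix y0 hF h hh)
  have hy0x : y0 ∉ MulAction.orbit P x := fun hz => hy0 (hfixorb h hh x hhx y0 hz)
  -- the stabilizer of the orbit of `x`
  let s0 : orbs (G := G) C.hp C.S := ⟨MulAction.orbit P x, ⟨x, hx, rfl⟩⟩
  let N3 : Subgroup (norm G P) := MulAction.stabilizer (norm G P) s0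
  have hN3 : ∀ n ∈ N3, ∃ u ∈ P, (n : Perm α) x = u x := by
    intro n hn
    have h2 : n • s0 = s0 := hn
    have h3 : n • (MulAction.orbit P x : Set α) = MulAction.orbit P x :=
      congrArg Subtype.val h2
    rw [Cfsg.Agent.H544.MillerD.orbit_smul] at h3
    have h4 : (n : Perm α) x ∈ MulAction.orbit P x := by
      rw [← h3]; exact mem_orbit_self _
    obtain ⟨⟨u, hu⟩, e⟩ := h4
    exact ⟨u, hu, e.symm⟩
  have hpowh : ∀ n ∈ N3, ∃ a : ℕ, (n : Perm α) * h * (n : Perm α)⁻¹ = h ^ a := by
    intro n hn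
    have hg := C.S.good_of_orbit C.hp n.2.2 (hN3 n hn)
    have h2 : ((n : Perm α) * h * (n : Perm α)⁻¹) x = x := (hg.2 h hh).mp hhx
    obtain ⟨a, ha⟩ := C.S.gen C.hp hy0F hh hy0 _ ((n.2.2 h).mp hh)
    refine ⟨a, ?_⟩
    have h3 : ((n : Perm α) * h * (n : Perm α)⁻¹) * (h ^ a)⁻¹ = 1 := by
      have hm1 := (n.2.2 h).mp hh
      have hm2 : (h ^ a)⁻¹ ∈ P := inv_mem (pow_mem hh a)
      apply htwo _ (mul_mem hm1 hm2) y0 x hy0F hx hy0x
      · rw [C.S.comm C.hp _ hm1 _ hm2, Perm.mul_apply, ha]; simp
      · have h4 : (h ^ a)⁻¹ x = x := by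
          rw [Perm.inv_eq_iff_eq]
          exact (Function.IsFixedPt.perm_pow hhx a).symm
        rw [Perm.mul_apply, h4, h2]
    rwa [mul_inv_eq_one] at h3
  -- commutators `[N3, N0]` centralize `P`
  have hcomm : ∀ n ∈ N3, ∀ n' ∈ N0 C, rho C.hp C.S n * rho C.hp C.S n' =
      rho C.hp C.S n' * rho C.hp C.S n := by
    intro n hn n' hn'
    apply rho_comm C hB n n' hn'
    have hn'3 : n' ∈ N3 := by
      have h2 : MulAction.toPermHom (norm G P) (orbs (G := G) C.hp C.S) n' = 1 := hn'
      exact congrArg (fun f : Perm (orbs (G := G) C.hp C.S) => f s0) h2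
    set c : Perm α := (n : Perm α) * n' * (n : Perm α)⁻¹ * (n' : Perm α)⁻¹ with hc
    have hc0 : n * n' * n⁻¹ * n'⁻¹ ∈ N0 C :=
      mul_mem ((N0_normal C).conj_mem n' hn' n) (inv_mem hn')
    have hcN : c ∈ norm G P := (n * n' * n⁻¹ * n'⁻¹).2
    -- `c` commutes with `h`
    obtain ⟨a, ha⟩ := hpowh n hn
    obtain ⟨b, hb⟩ := hpowh n' hn'3
    have hch : c * h * c⁻¹ = h := by
      have e1 : ((n : Perm α) * n') * h * ((n : Perm α) * n')⁻¹ = h ^ (a * b) := by
        have : ((n : Perm α) * n') * h * ((n : Perm α) * n')⁻¹ =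
            (n : Perm α) * ((n' : Perm α) * h * (n' : Perm α)⁻¹) * (n : Perm α)⁻¹ := by group
        rw [this, hb, ← conj_pow, ha, ← pow_mul]
      have e2 : ((n' : Perm α) * n) * h * ((n' : Perm α) * n)⁻¹ = h ^ (a * b) := by
        have : ((n' : Perm α) * n) * h * ((n' : Perm α) * n)⁻¹ =
            (n' : Perm α) * ((n : Perm α) * h * (n : Perm α)⁻¹) * (n' : Perm α)⁻¹ := by group
        rw [this, ha, ← conj_pow, hb, ← pow_mul, mul_comm]
      have e3 : ∀ i : ℕ, c * (((n' : Perm α) * n) * h ^ i * ((n' : Perm α) * n)⁻¹) * c⁻¹ =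
          ((n : Perm α) * n') * h ^ i * ((n : Perm α) * n')⁻¹ := by
        intro i; rw [hc]; group
      -- `h^(ab)` generates: use that `h = ((n'n)) w ((n'n))⁻¹` with `w ∈ ⟨h⟩`
      obtain ⟨i, hi⟩ : ∃ i : ℕ, ((n' : Perm α) * n) * h ^ i * ((n' : Perm α) * n)⁻¹ = h := by
        have h5 : n⁻¹ * n'⁻¹ ∈ N3 := mul_mem (inv_mem hn) (inv_mem hn'3)
        obtain ⟨i, hi⟩ := hpowh _ h5
        refine ⟨i, ?_⟩
        have h6 : ((n⁻¹ * n'⁻¹ : norm G P) : Perm α) = (n : Perm α)⁻¹ * (n' : Perm α)⁻¹ := rfl
        rw [h6] at hi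
        rw [← hi]; group
      have e4 : ((n : Perm α) * n') * h ^ i * ((n : Perm α) * n')⁻¹ = h := by
        rw [← conj_pow, e1, ← e2, conj_pow, hi]
      calc c * h * c⁻¹ = c * (((n' : Perm α) * n) * h ^ i * ((n' : Perm α) * n)⁻¹) * c⁻¹ := by
            rw [hi]
        _ = ((n : Perm α) * n') * h ^ i * ((n : Perm α) * n')⁻¹ := e3 i
        _ = h := e4
    intro v hv
    have hgoal : c * v * c⁻¹ = v := by
      apply Equiv.ext
      intro z
      by_cases hzF : z ∈ F
      · rw [C.S.fix z hzF _ ((hcN.2 v).mp hv), C.S.fix z hzF v hv]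
      by_cases hzx : z ∈ MulAction.orbit P x
      · -- both are good at `z`
        have hg1 : Setup.Good P (n : Perm α) z := by
          apply C.S.good_of_orbit C.hp n.2.2
          obtain ⟨⟨w, hw⟩, rfl⟩ := hzx
          obtain ⟨u, hu, e⟩ := hN3 n hn
          have h5 : (n : Perm α) * w * (n : Perm α)⁻¹ ∈ P := (n.2.2 w).mp hw
          refine ⟨(n : Perm α) * w * (n : Perm α)⁻¹ * u * w⁻¹,
            mul_mem (mul_mem h5 hu) (inv_mem hw), ?_⟩
          show (n : Perm α) (w x) = _
          have : ((n : Perm α) * w * (n : Perm α)⁻¹ * u * w⁻¹) (w x) =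
              ((n : Perm α) * w * (n : Perm α)⁻¹) (u x) := by simp [Perm.mul_apply]
          show (n : Perm α) (w x) = ((n : Perm α) * w * (n : Perm α)⁻¹ * u * w⁻¹) (w x)
          rw [this, ← e]; simp [Perm.mul_apply]
        exact C.S.commutator_fix C.hp hzF hg1 (N0_good C hn' hzF) v hv
      · -- `z` is moved by `h`
        have hhz := hsupp_h z hzF hzx
        obtain ⟨i, hi⟩ := C.S.gen C.hp hzF hh hhz v hv
        -- `v = h^i w`, `w` fixes `z`
        have hw : (v * (h ^ i)⁻¹) z = z := by
          rw [C.S.comm C.hp v hv _ (inv_mem (pow_mem hh i)), Perm.mul_apply, hi]; simp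
        have hwP : v * (h ^ i)⁻¹ ∈ P := mul_mem hv (inv_mem (pow_mem hh i))
        have hcg : Setup.Good P c z := N0_good C hc0 hzF
        have hw2 := (hcg.2 _ hwP).mp hw
        have e1 : c * v * c⁻¹ = (c * h * c⁻¹) ^ i * (c * (v * (h ^ i)⁻¹) * c⁻¹) := by
          have e0 : v = h ^ i * (v * (h ^ i)⁻¹) := by
            rw [C.S.comm C.hp v hv _ (inv_mem (pow_mem hh i))]; group
          rw [conj_pow]
          calc c * v * c⁻¹ = c * (h ^ i * (v * (h ^ i)⁻¹)) * c⁻¹ := by rw [← e0]
            _ = _ := by group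
        rw [e1, Perm.mul_apply, hw2, hch, hi]
    calc c * v = c * v * c⁻¹ * c := by group
      _ = v * c := by rw [hgoal]
  -- counting
  have := M_normal C
  have hinj : ∀ σ ∈ N3.map (rho C.hp C.S), ∀ a : F, σ a = a → σ = 1 := by
    rintro _ ⟨n, hn, rfl⟩ a ha
    apply Equiv.ext
    intro b
    obtain ⟨_, ⟨n', hn', rfl⟩, e⟩ := exists_map (M C) (M_ne_bot C) a b
    have h2 := hcomm n hn n' hn'
    have h3 := congrArg (fun f : Perm F => f a) h2
    simp only [Perm.mul_apply] at h3
    rw [ha, e] at h3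
    exact h3
  have hF4 : Fintype.card F = 4 := C.cardF
  have hF4' : Nat.card F = 4 := by rw [Nat.card_eq_fintype_card]; exact hF4
  have hle : Nat.card (N3.map (rho C.hp C.S)) ≤ 4 := by
    obtain ⟨a⟩ : Nonempty F := by
      rw [← Fintype.card_pos_iff, hF4]; norm_num
    refine le_trans (Nat.card_le_card_of_injective
      (fun σ : N3.map (rho C.hp C.S) => (σ : Perm F) a) ?_) hF4'.le
    rintro ⟨σ, hσ⟩ ⟨τ, hτ⟩ h2
    have h3 : (τ⁻¹ * σ) a = a := by
      have : σ a = τ a := h2
      rw [Perm.mul_apply, this]; simp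
    have h4 := hinj _ (mul_mem (inv_mem hτ) hσ) a h3
    rw [inv_mul_eq_one] at h4
    exact Subtype.ext h4.symm
  have hidx : (N3.map (rho C.hp C.S)).index ≤ 3 := by
    have h2 : (N3.map (rho C.hp C.S)).index ∣ N3.index := Subgroup.index_map_dvd _ C.rho_surj
    have h3 : N3.index ≤ 3 := by
      have h4 : N3.index = (MulAction.orbit (norm G P) s0).ncard := index_stabilizer _ _
      rw [h4]
      have h5 := Set.ncard_le_card (MulAction.orbit (norm G P) s0)
      exact h5.trans (card_orbs C.hp C.S C.cardc)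
    have h0 : N3.index ≠ 0 := Subgroup.index_ne_zero_of_finite
    exact (Nat.le_of_dvd (Nat.pos_of_ne_zero h0) h2).trans h3
  have h24 := Subgroup.index_mul_card (N3.map (rho C.hp C.S))
  rw [Nat.card_perm, hF4'] at h24
  have : (N3.map (rho C.hp C.S)).index * Nat.card (N3.map (rho C.hp C.S)) ≤ 3 * 4 :=
    Nat.mul_le_mul hidx hle
  rw [h24] at this
  norm_num [Nat.factorial] at this

end Cfsg.Agent.H544.MillerE
end

-- part: S4220
section
set_option autoImplicit false
open Cfsg

namespace Cfsg.Agent.S4220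

open Cfsg.Agent.H544.MillerB Cfsg.Agent.H544.MillerC Cfsg.Agent.H544.MillerD
  Cfsg.Agent.H544.MillerE

/-- Let `n = kp + r` with `p` prime, `1 ≤ k < p` and `r > k`, excluding the case `k = 1, r = 2`. Then a permutation group of degree `n` that is `(r + 1)`-fold transitive contains the alternating group. -/
theorem result {α : Type*} [Fintype α] [DecidableEq α] (G : Subgroup (Equiv.Perm α)) {k p r : ℕ} (hp : p.Prime) (hn : Fintype.card α = k * p + r) (hk : 1 ≤ k) (hpk : k < p) (hrk : k < r) (hex : ¬ (k = 1 ∧ r = 2)) (hG : MulAction.IsMultiplyPretransitive G α (r + 1)) : alternatingGroup α ≤ G := by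
  have hr : 3 ≤ r := by omega
  have hkp : 1 ≤ k * p := Nat.mul_pos hk hp.pos
  -- if `n ≤ r + 3` the group is `(n-2)`-transitive
  have hsmall : Fintype.card α ≤ r + 3 → alternatingGroup α ≤ G := by
    intro hle
    apply IsMultiplyPretransitive.alternatingGroup_le
    rw [Nat.card_eq_fintype_card]
    exact mono (by omega) (by omega) hG
  rcases lt_or_ge p 5 with hp5 | hp5
  · have hp23 : p = 2 ∨ p = 3 := by
      have := hp.two_le
      have h4 : p ≠ 4 := by rintro rfl; exact absurd hp (by norm_num)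
      omega
    rcases hp23 with rfl | rfl
    · have : k = 1 := by omega
      subst this
      exact hsmall (by omega)
    · have hk12 : k = 1 ∨ k = 2 := by omega
      rcases hk12 with rfl | rfl
      · exact hsmall (by omega)
      · by_cases hsh : ∃ x : Fin (r + 1) ↪ α, MulAction.stabilizer G x ≠ ⊥
        · obtain ⟨x, hx⟩ := hsh
          obtain ⟨⟨⟨g, hg⟩, hgx⟩, hne'⟩ := Subgroup.ne_bot_iff_exists_ne_one.mp hx
          have hne : g ≠ 1 := fun h' => hne' (Subtype.ext (Subtype.ext h'))
          have hfix : ∀ i, g (x i) = x i := by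
            intro i
            have := DFunLike.congr_fun hgx i
            exact this
          have hsupp : g.support.card < 2 * (r + 1) - 2 := by
            have h1 : Disjoint g.support (Finset.univ.map x) := by
              rw [Finset.disjoint_left]
              intro y hy hy'
              rw [Finset.mem_map] at hy'
              obtain ⟨i, _, rfl⟩ := hy'
              exact (Equiv.Perm.mem_support.mp hy) (hfix i)
            have h2 : (g.support ∪ Finset.univ.map x).card ≤ Fintype.card α :=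
              Finset.card_le_univ _
            rw [Finset.card_union_of_disjoint h1, Finset.card_map, Finset.card_univ,
              Fintype.card_fin] at h2
            omega
          exact (Cfsg.Agent.S0711.result G (k := r + 1) (by omega) (by omega) hG g hg hne
            hsupp).2
        · exfalso
          push Not at hsh
          rcases (show r = 3 ∨ r = 4 ∨ 5 ≤ r by omega) with rfl | rfl | h5
          · have := Cfsg.Agent.S0415.result G (by omega) hsh
            omega
          · have := Cfsg.Agent.S0416.result G (by omega) hsh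
            omega
          · have := Cfsg.Agent.S0417.result G (r + 1) (by omega) (by omega) hsh
            omega
  · -- the main case
    obtain ⟨x0⟩ : Nonempty (Fin r ↪ α) := by
      rw [Function.Embedding.nonempty_iff_card_le, Fintype.card_fin]
      omega
    obtain ⟨P, hPG, hS, hsurj⟩ := exists_setup G hp hn hk hpk hG x0
    have hcard : Set.ncard (Set.range x0) = r := by
      rw [← Set.image_univ, Set.ncard_image_of_injective _ x0.injective, Set.ncard_univ,
        Nat.card_fin]
    have hcardc : Set.ncard (Set.range x0)ᶜ = k * p := by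
      have h2 := Set.ncard_add_ncard_compl (Set.range x0)
      rw [hcard, Nat.card_eq_fintype_card, hn] at h2
      omega
    have C : Ctx G P (Set.range x0) p k r :=
      { hp := hp
        S := hS
        PG := hPG
        card := hcard
        cardc := hcardc
        surj := by
          intro σ
          let e : Fin r ≃ Set.range x0 := Equiv.ofInjective x0 x0.injective
          obtain ⟨n, hnG, hnP, hnx⟩ := hsurj ((e.trans σ).trans e.symm)
          refine ⟨n, ⟨hnG, hnP⟩, ?_⟩
          intro x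
          obtain ⟨i, rfl⟩ := e.surjective x
          have h1 : ((e i : Set.range x0) : α) = x0 i := rfl
          have h2 : (σ (e i) : α) = x0 (e.symm (σ (e i))) := by
            have h3 : ∀ y : Set.range x0, (y : α) = x0 (e.symm y) := by
              intro y
              obtain ⟨j, rfl⟩ := e.surjective y
              rw [Equiv.symm_apply_apply]; rfl
            exact h3 _
          rw [h1, hnx i, h2]
          rfl
        hG := hG
        hr := hr
        hk := hk
        hrk := hrk
        hp5 := hp5 }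
    exact main5 C

end Cfsg.Agent.S4220
end
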