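import Cfsg.Agent.H544.MillerC
import Cfsg.Agent.S0112
import Cfsg.Agent.S0113
import Cfsg.Agent.S0514
import Cfsg.Agent.Lib.Dihedral
import Cfsg.Agent.Lib.KleinOrder
import Cfsg.Agent.S0215
import Cfsg.Statements.S4221
import Cfsg.Agent.S0415
set_option linter.all false

-- part: H544/HallA
section
/-!
# M. Hall's theorem on 4-transitive groups with four-point stabilizers of odd order

Part A: basic facts on the involutions.
-/

set_option autoImplicit false

namespace Cfsg.Agent.H544.HallA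

open Equiv Equiv.Perm MulAction Cfsg.Agent.H544.MillerC

variable {α : Type*} [Fintype α] [DecidableEq α]

/-- Four distinct points. -/
def D4 (a b c d : α) : Prop := a ≠ b ∧ a ≠ c ∧ a ≠ d ∧ b ≠ c ∧ b ≠ d ∧ c ≠ d

/-- The embedding given by four distinct points. -/
def emb4 {a b c d : α} (h : D4 a b c d) : Fin 4 ↪ α where
  toFun := ![a, b, c, d]
  inj' := by
    obtain ⟨h1, h2, h3, h4, h5, h6⟩ := h
    intro i j hij
    fin_cases i <;> fin_cases j <;>
      simp_all [Matrix.cons_val_zero, Matrix.cons_val_one]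

/-- The hypotheses: `G` is 4-transitive and the stabilizer of four points has odd order. -/
structure Hyp (G : Subgroup (Perm α)) : Prop where
  tr : IsMultiplyPretransitive G α 4
  odd : ∀ {a b c d : α}, D4 a b c d → ∀ L : Subgroup (Perm α), L ≤ G →
    (∀ g ∈ L, g a = a ∧ g b = b ∧ g c = c ∧ g d = d) → Odd (Nat.card L)

theorem Hyp.mk' (G : Subgroup (Perm α)) (hG : IsMultiplyPretransitive G α 4) (x : Fin 4 ↪ α)
    (hodd : Odd (Nat.card (stabilizer G x))) : Hyp G := by
  refine ⟨hG, ?_⟩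
  intro a b c d hD L hL hfix
  obtain ⟨g, hg, hgx⟩ := exists_elem hG x (emb4 hD)
  -- `g⁻¹ L g` is contained in the stabilizer of `x`
  let f : L → stabilizer G x := fun l => ⟨⟨g⁻¹ * l * g, mul_mem (mul_mem (inv_mem hg) (hL l.2)) hg⟩, by
    rw [mem_stabilizer_iff]
    apply DFunLike.ext
    intro i
    show (g⁻¹ * (l : Perm α) * g) (x i) = x i
    have h1 : (l : Perm α) (emb4 hD i) = emb4 hD i := by
      obtain ⟨h1, h2, h3, h4⟩ := hfix l l.2
      fin_cases i
      · exact h1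
      · exact h2
      · exact h3
      · exact h4
    rw [Perm.mul_apply, Perm.mul_apply, hgx i, h1, ← hgx i]
    simp⟩
  let F : L →* stabilizer G x :=
    { toFun := f
      map_one' := by
        apply Subtype.ext; apply Subtype.ext
        show g⁻¹ * 1 * g = 1
        simp
      map_mul' := by
        intro l l'
        apply Subtype.ext; apply Subtype.ext
        show g⁻¹ * (l * l' : Perm α) * g = (g⁻¹ * l * g) * (g⁻¹ * l' * g)
        group }
  have hF : Function.Injective F := by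
    intro l l' h
    have h1 : g⁻¹ * (l : Perm α) * g = g⁻¹ * (l' : Perm α) * g :=
      congrArg (fun z : stabilizer G x => ((z : G) : Perm α)) h
    apply Subtype.ext
    simpa using h1
  have h2 : Nat.card L ∣ Nat.card (stabilizer G x) := Subgroup.card_dvd_of_injective F hF
  exact Odd.of_dvd_nat hodd h2

theorem Hyp.elem4 {G : Subgroup (Perm α)} (H : Hyp G) {a b c d a' b' c' d' : α}
    (h : D4 a b c d) (h' : D4 a' b' c' d') :
    ∃ g ∈ G, g a = a' ∧ g b = b' ∧ g c = c' ∧ g d = d' := by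
  obtain ⟨g, hg, hgx⟩ := exists_elem H.tr (emb4 h) (emb4 h')
  exact ⟨g, hg, hgx 0, hgx 1, hgx 2, hgx 3⟩

/-- An element fixing four points has odd order. -/
theorem Hyp.odd_elem {G : Subgroup (Perm α)} (H : Hyp G) {a b c d : α} (h : D4 a b c d)
    {g : Perm α} (hg : g ∈ G) (ha : g a = a) (hb : g b = b) (hc : g c = c) (hd : g d = d) :
    Odd (orderOf g) := by
  rw [← Nat.card_zpowers]
  apply H.odd h
  · rw [Subgroup.zpowers_le]; exact hg
  · rintro _ ⟨k, rfl⟩
    exact ⟨Function.IsFixedPt.perm_zpow ha k, Function.IsFixedPt.perm_zpow hb k,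
      Function.IsFixedPt.perm_zpow hc k, Function.IsFixedPt.perm_zpow hd k⟩

/-- Two involutions whose product has odd order are conjugate in the group they generate. -/
theorem conj_inv {s t : Perm α} (hs : s * s = 1) (ht : t * t = 1) (h : Odd (orderOf (t * s))) :
    ∃ j : ℕ, (t * s) ^ j * s * ((t * s) ^ j)⁻¹ = t := by
  obtain ⟨k, hk⟩ := h
  refine ⟨k + 1, ?_⟩
  have hsi : s⁻¹ = s := inv_eq_of_mul_eq_one_right hs
  have hti : t⁻¹ = t := inv_eq_of_mul_eq_one_right ht
  have h1 : ∀ j : ℕ, s * ((t * s) ^ j)⁻¹ = (t * s) ^ j * s := by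
    intro j
    induction j with
    | zero => simp
    | succ j ih =>
      rw [pow_succ, mul_inv_rev, mul_inv_rev, hsi, hti]
      calc s * (s * t * ((t * s) ^ j)⁻¹) = (s * s) * t * ((t * s) ^ j)⁻¹ := by group
        _ = t * (s * s) * ((t * s) ^ j)⁻¹ := by rw [hs]; group
        _ = t * s * (s * ((t * s) ^ j)⁻¹) := by group
        _ = t * s * ((t * s) ^ j * s) := by rw [ih]
        _ = (t * s) ^ j * (t * s) * s := by
            rw [← mul_assoc, ← pow_succ', pow_succ]
  rw [mul_assoc, h1, ← mul_assoc, ← pow_add]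
  have h2 : (t * s) ^ (k + 1 + (k + 1)) = t * s := by
    have : k + 1 + (k + 1) = orderOf (t * s) + 1 := by omega
    rw [this, pow_succ, pow_orderOf_eq_one, one_mul]
  rw [h2, mul_assoc, hs, mul_one]

/-- Powers with odd exponents. -/
theorem pow_odd_apply {y : Perm α} {p q : α} (hp : y p = q) (hq : y q = p) (k : ℕ) :
    (y ^ (2 * k + 1)) p = q := by
  have h2 : ∀ k : ℕ, (y ^ (2 * k)) p = p := by
    intro k
    induction k with
    | zero => simp
    | succ k ih =>
      rw [show 2 * (k + 1) = 2 * k + 2 by ring, pow_add, Perm.mul_apply, pow_two, Perm.mul_apply,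
        hp, hq, ih]
  rw [pow_succ', Perm.mul_apply, h2, hp]

/-- Extract an involution from an element whose square has odd order. -/
theorem exists_pow_inv {y : Perm α} (h : Odd (orderOf (y * y))) :
    ∃ k : ℕ, y ^ (2 * k + 1) * y ^ (2 * k + 1) = 1 := by
  obtain ⟨k, hk⟩ := h
  refine ⟨k, ?_⟩
  rw [← pow_add, ← hk, ← two_mul, pow_mul, pow_two, pow_orderOf_eq_one]

/-- Transitivity of centralizers of involutions: general form. -/
theorem Hyp.trans4 {G : Subgroup (Perm α)} (H : Hyp G) {a : Perm α} (ha : a ∈ G) (haa : a * a = 1)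
    {p q : Fin 4 → α} (hp : D4 (p 0) (p 1) (p 2) (p 3)) (hq : D4 (q 0) (q 1) (q 2) (q 3))
    (τ : Fin 4 → Fin 4) (hap : ∀ i, a (p i) = p (τ i)) (haq : ∀ i, a (q i) = q (τ i)) :
    ∃ g ∈ G, g * a = a * g ∧ ∀ i, g (p i) = q i := by
  obtain ⟨g, hg, h0, h1, h2, h3⟩ := H.elem4 hp hq
  have hgp : ∀ i, g (p i) = q i := by
    intro i; fin_cases i
    · exact h0
    · exact h1
    · exact h2
    · exact h3
  set b : Perm α := g * a * g⁻¹ with hb
  have hbb : b * b = 1 := by
    rw [hb]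
    calc g * a * g⁻¹ * (g * a * g⁻¹) = g * (a * a) * g⁻¹ := by group
      _ = 1 := by rw [haa]; group
  have hbG : b ∈ G := mul_mem (mul_mem hg ha) (inv_mem hg)
  have hginv : ∀ i, g⁻¹ (q i) = p i := by
    intro i; rw [← hgp i]; simp
  have hbq : ∀ i, b (q i) = a (q i) := by
    intro i
    rw [hb, Perm.mul_apply, Perm.mul_apply, hginv, hap, hgp, haq]
  have habq : ∀ i, (a * b) (q i) = q i := by
    intro i
    rw [Perm.mul_apply, hbq, ← Perm.mul_apply, haa]; rfl
  have hodd : Odd (orderOf (a * b)) :=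
    H.odd_elem hq (mul_mem ha hbG) (habq 0) (habq 1) (habq 2) (habq 3)
  obtain ⟨j, hj⟩ := conj_inv hbb haa hodd
  set z : Perm α := (a * b) ^ j with hz
  have hzG : z ∈ G := pow_mem (mul_mem ha hbG) j
  have hzq : ∀ i, z (q i) = q i := fun i => Function.IsFixedPt.perm_pow (habq i) j
  refine ⟨z * g, mul_mem hzG hg, ?_, ?_⟩
  · have h4 : (z * g) * a * (z * g)⁻¹ = a := by
      calc (z * g) * a * (z * g)⁻¹ = z * b * z⁻¹ := by rw [hb]; group
        _ = a := hj
    calc z * g * a = (z * g) * a * (z * g)⁻¹ * (z * g) := by group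
      _ = a * (z * g) := by rw [h4]
  · intro i
    rw [Perm.mul_apply, hgp, hzq]

/-- Two 2-cycles to two 2-cycles. -/
theorem Hyp.trans22 {G : Subgroup (Perm α)} (H : Hyp G) {a : Perm α} (ha : a ∈ G)
    (haa : a * a = 1) {p q p' q' : α} (hp : a p ≠ p) (hq : a q ≠ q) (hqp : q ≠ p)
    (hqp2 : q ≠ a p) (hp' : a p' ≠ p') (hq' : a q' ≠ q') (hqp' : q' ≠ p') (hqp2' : q' ≠ a p') :
    ∃ g ∈ G, g * a = a * g ∧ g p = p' ∧ g q = q' := by
  have haa' : ∀ x, a (a x) = x := by
    intro x; rw [← Perm.mul_apply, haa]; rfl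
  have key : ∀ {p q : α}, a p ≠ p → a q ≠ q → q ≠ p → q ≠ a p → D4 p (a p) q (a q) := by
    intro p q hp hq hqp hqp2
    refine ⟨hp.symm, hqp.symm, ?_, hqp2.symm, ?_, hq.symm⟩
    · intro h
      apply hqp2
      rw [h, haa']
    · intro h
      exact hqp (a.injective h.symm)
  have h1 := key hp hq hqp hqp2
  have h2 := key hp' hq' hqp' hqp2'
  obtain ⟨g, hg, hga, hgp⟩ := H.trans4 ha haa (p := ![p, a p, q, a q]) (q := ![p', a p', q', a q'])
    h1 h2 ![1, 0, 3, 2]
    (by intro i; fin_cases i <;> simp [haa'])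
    (by intro i; fin_cases i <;> simp [haa'])
  exact ⟨g, hg, hga, hgp 0, hgp 2⟩

/-- Two fixed points and a 2-cycle to two fixed points and a 2-cycle. -/
theorem Hyp.trans112 {G : Subgroup (Perm α)} (H : Hyp G) {a : Perm α} (ha : a ∈ G)
    (haa : a * a = 1) {e f p e' f' p' : α} (he : a e = e) (hf : a f = f) (hef : e ≠ f)
    (hp : a p ≠ p) (he' : a e' = e') (hf' : a f' = f') (hef' : e' ≠ f') (hp' : a p' ≠ p') :
    ∃ g ∈ G, g * a = a * g ∧ g e = e' ∧ g f = f' ∧ g p = p' := by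
  have haa' : ∀ x, a (a x) = x := by
    intro x; rw [← Perm.mul_apply, haa]; rfl
  have key : ∀ {e f p : α}, a e = e → a f = f → e ≠ f → a p ≠ p → D4 e f p (a p) := by
    intro e f p he hf hef hp
    refine ⟨hef, ?_, ?_, ?_, ?_, hp.symm⟩
    · rintro rfl; exact hp he
    · intro h
      apply hp
      have : a (a p) = a e := by rw [h]
      rw [haa', he, h] at this
      exact this.symm
    · rintro rfl; exact hp hf
    · intro h
      apply hp
      have : a (a p) = a f := by rw [h]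
      rw [haa', hf, h] at this
      exact this.symm
  obtain ⟨g, hg, hga, hgp⟩ := H.trans4 ha haa (p := ![e, f, p, a p]) (q := ![e', f', p', a p'])
    (key he hf hef hp) (key he' hf' hef' hp') ![0, 1, 3, 2]
    (by intro i; fin_cases i <;> simp [haa', he, hf])
    (by intro i; fin_cases i <;> simp [haa', he', hf'])
  exact ⟨g, hg, hga, hgp 0, hgp 1, hgp 2⟩

/-- An involution moves all but at most three points. -/
theorem Hyp.support_ge {G : Subgroup (Perm α)} (H : Hyp G) {a : Perm α} (ha : a ∈ G)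
    (haa : a * a = 1) (ha1 : a ≠ 1) : Fintype.card α ≤ a.support.card + 3 := by
  by_contra hlt
  push Not at hlt
  have h1 : 4 ≤ (a.supportᶜ).card := by
    rw [Finset.card_compl]; omega
  obtain ⟨t, ht, htc⟩ := Finset.exists_subset_card_eq h1
  obtain ⟨w, x, y, z, h⟩ : ∃ w x y z : α, D4 w x y z ∧ t = {w, x, y, z} := by
    obtain ⟨w, x, y, z, h1, h2, h3, h4, h5, h6, h7⟩ := Finset.card_eq_four.mp htc
    exact ⟨w, x, y, z, ⟨h1, h2, h3, h4, h5, h6⟩, h7⟩
  obtain ⟨hD, rfl⟩ := h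
  have hfix : ∀ v ∈ ({w, x, y, z} : Finset α), a v = v := by
    intro v hv
    have := ht hv
    rw [Finset.mem_compl, Equiv.Perm.notMem_support] at this
    exact this
  have hodd := H.odd_elem hD ha (hfix w (by simp)) (hfix x (by simp)) (hfix y (by simp))
    (hfix z (by simp))
  have ho : orderOf a = 2 := orderOf_eq_prime (by rw [pow_two, haa]) ha1
  rw [ho] at hodd
  exact absurd hodd (by decide)

/-- Existence of an involution `(p q)(r s)…`. -/
theorem Hyp.exists_inv {G : Subgroup (Perm α)} (H : Hyp G) {p q r s : α} (h : D4 p q r s) :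
    ∃ a ∈ G, a * a = 1 ∧ a p = q ∧ a q = p ∧ a r = s ∧ a s = r := by
  obtain ⟨h1, h2, h3, h4, h5, h6⟩ := h
  obtain ⟨y, hy, e1, e2, e3, e4⟩ := H.elem4 (a := p) (b := q) (c := r) (d := s)
    (a' := q) (b' := p) (c' := s) (d' := r) ⟨h1, h2, h3, h4, h5, h6⟩
    ⟨h1.symm, h5, h4, h3, h2, h6.symm⟩
  have hodd : Odd (orderOf (y * y)) := by
    apply H.odd_elem (a := p) (b := q) (c := r) (d := s) ⟨h1, h2, h3, h4, h5, h6⟩ (mul_mem hy hy)
    · rw [Perm.mul_apply, e1, e2]
    · rw [Perm.mul_apply, e2, e1]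
    · rw [Perm.mul_apply, e3, e4]
    · rw [Perm.mul_apply, e4, e3]
  obtain ⟨k, hk⟩ := exists_pow_inv hodd
  exact ⟨y ^ (2 * k + 1), pow_mem hy _, hk, pow_odd_apply e1 e2 k, pow_odd_apply e2 e1 k,
    pow_odd_apply e3 e4 k, pow_odd_apply e4 e3 k⟩

/-- Existence of an involution `(p)(q)(r s)…` commuting with `a = (p q)(r s)…`. -/
theorem Hyp.exists_u {G : Subgroup (Perm α)} (H : Hyp G) {a : Perm α} (ha : a ∈ G)
    (haa : a * a = 1) {p r : α} (hp : a p ≠ p) (hr : a r ≠ r) (hrp : r ≠ p) (hrp2 : r ≠ a p) :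
    ∃ u ∈ G, u * u = 1 ∧ u * a = a * u ∧ u p = p ∧ u (a p) = a p ∧ u r = a r ∧ u (a r) = r := by
  have haa' : ∀ x, a (a x) = x := by
    intro x; rw [← Perm.mul_apply, haa]; rfl
  have har : a (a r) ≠ a r := fun h => hr (a.injective h)
  have harp : a r ≠ p := by
    intro h; apply hrp2; rw [← h, haa']
  have harp2 : a r ≠ a p := fun h => hrp (a.injective h)
  obtain ⟨y, hy, hya, e1, e2⟩ := H.trans22 ha haa hp hr hrp hrp2 hp har harp harp2
  have hyc : ∀ x, y (a x) = a (y x) := by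
    intro x; rw [← Perm.mul_apply, hya]; rfl
  have e3 : y (a p) = a p := by rw [hyc, e1]
  have e4 : y (a r) = r := by rw [hyc, e2, haa']
  have hD : D4 p (a p) r (a r) :=
    ⟨hp.symm, hrp.symm, harp.symm, hrp2.symm, harp2.symm, hr.symm⟩
  have hodd : Odd (orderOf (y * y)) := by
    apply H.odd_elem hD (mul_mem hy hy)
    · rw [Perm.mul_apply, e1, e1]
    · rw [Perm.mul_apply, e3, e3]
    · rw [Perm.mul_apply, e2, e4]
    · rw [Perm.mul_apply, e4, e2]
  obtain ⟨k, hk⟩ := exists_pow_inv hodd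
  refine ⟨y ^ (2 * k + 1), pow_mem hy _, hk, ?_, pow_odd_apply e1 e1 k, pow_odd_apply e3 e3 k,
    pow_odd_apply e2 e4 k, pow_odd_apply e4 e2 k⟩
  exact ((show Commute y a from hya).pow_left _).eq

end Cfsg.Agent.H544.HallA
end

-- part: H544/HallB
section
/-!
# M. Hall's theorem on 4-transitive groups with four-point stabilizers of odd order

Part B: counting.
-/

set_option autoImplicit false

namespace Cfsg.Agent.H544.HallB

open Equiv Equiv.Perm MulAction Cfsg.Agent.H544.MillerC Cfsg.Agent.H544.HallA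

variable {α : Type*} [Fintype α] [DecidableEq α]

/-- The restriction homomorphism to an invariant set. -/
def restr (L : Subgroup (Perm α)) (Y : Set α) (h : ∀ g ∈ L, ∀ x, x ∈ Y ↔ g x ∈ Y) :
    L →* Perm Y where
  toFun g := (g : Perm α).subtypePerm (fun x => (h g g.2 x).symm)
  map_one' := by ext x; rfl
  map_mul' a b := by ext x; rfl

theorem restr_apply (L : Subgroup (Perm α)) (Y : Set α) (h : ∀ g ∈ L, ∀ x, x ∈ Y ↔ g x ∈ Y)
    (g : L) (x : Y) : (restr L Y h g x : α) = (g : Perm α) x := rfl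

/-- For `n ≥ 8` the group does not contain the alternating group. -/
theorem not_alt {G : Subgroup (Perm α)} (H : Hyp G) (h8 : 8 ≤ Fintype.card α) :
    ¬ alternatingGroup α ≤ G := by
  intro hle
  obtain ⟨t, htc⟩ := Finset.exists_subset_card_eq (s := (Finset.univ : Finset α)) (n := 4)
    (by rw [Finset.card_univ]; omega)
  obtain ⟨w, x, y, z, h1, h2, h3, h4, h5, h6, h7⟩ := Finset.card_eq_four.mp htc.2
  set σ : Perm α := swap w x * swap y z with hσ
  have hmem : σ ∈ alternatingGroup α := by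
    rw [Equiv.Perm.mem_alternatingGroup, hσ, map_mul, sign_swap h1, sign_swap h6]; rfl
  have hcomm : swap w x * swap y z = swap y z * swap w x := by
    apply Disjoint.commute
    rw [Equiv.Perm.disjoint_iff_disjoint_support, support_swap h1, support_swap h6]
    simp [h2, h3, h4, h5, h2.symm, h3.symm, h4.symm, h5.symm]
  have hσσ : σ * σ = 1 := by
    rw [hσ]
    calc swap w x * swap y z * (swap w x * swap y z)
        = swap w x * swap y z * (swap y z * swap w x) := by rw [hcomm]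
      _ = swap w x * (swap y z * swap y z) * swap w x := by group
      _ = 1 := by rw [swap_mul_self, mul_one, swap_mul_self]
  have hσ1 : σ ≠ 1 := by
    intro h
    have : σ w = w := by rw [h]; rfl
    rw [hσ, Perm.mul_apply, swap_apply_of_ne_of_ne h2 h3, swap_apply_left] at this
    exact h1 this.symm
  have h9 := H.support_ge (hle hmem) hσσ hσ1
  have h10 : σ.support.card ≤ 4 := by
    calc _ ≤ ((swap w x).support ⊔ (swap y z).support).card :=
          Finset.card_le_card (support_mul_le _ _)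
      _ ≤ (swap w x).support.card + (swap y z).support.card := Finset.card_union_le _ _
      _ = 4 := by rw [card_support_swap h1, card_support_swap h6]
  omega

/-- Nonidentity elements move at least six points. -/
theorem six_le {G : Subgroup (Perm α)} (H : Hyp G) (h8 : 8 ≤ Fintype.card α) {g : Perm α}
    (hg : g ∈ G) (hg1 : g ≠ 1) : 6 ≤ g.support.card := by
  by_contra hlt
  push Not at hlt
  exact not_alt H h8 (Cfsg.Agent.S0711.result G (k := 4) (by omega) (by omega) H.tr g hg hg1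
    (by omega)).2

/-- An involution has a second 2-cycle. -/
theorem exists_second {G : Subgroup (Perm α)} (H : Hyp G) (h8 : 8 ≤ Fintype.card α) {a : Perm α}
    (ha : a ∈ G) (haa : a * a = 1) (ha1 : a ≠ 1) :
    ∃ p q, a p ≠ p ∧ a q ≠ q ∧ q ≠ p ∧ q ≠ a p := by
  have h6 := six_le H h8 ha ha1
  obtain ⟨p, hp⟩ : a.support.Nonempty := by
    rw [← Finset.card_pos]; omega
  obtain ⟨q, hq⟩ : (a.support \ {p, a p}).Nonempty := by
    rw [← Finset.card_pos]
    have h1 := Finset.le_card_sdiff ({p, a p} : Finset α) a.support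
    have h2 := Finset.card_le_two (a := p) (b := a p)
    omega
  rw [Finset.mem_sdiff, Finset.mem_insert, Finset.mem_singleton, not_or] at hq
  exact ⟨p, q, Equiv.Perm.mem_support.mp hp, Equiv.Perm.mem_support.mp hq.1, hq.2.1, hq.2.2⟩

theorem d4_of {a : Perm α} (haa : a * a = 1) {p q : α} (hp : a p ≠ p) (hq : a q ≠ q)
    (hqp : q ≠ p) (hqp2 : q ≠ a p) : D4 p (a p) q (a q) := by
  have haa' : ∀ x, a (a x) = x := by
    intro x; rw [← Perm.mul_apply, haa]; rfl
  refine ⟨hp.symm, hqp.symm, ?_, hqp2.symm, ?_, hq.symm⟩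
  · intro h
    apply hqp2
    rw [h, haa']
  · intro h
    exact hqp (a.injective h.symm)

/-- All involutions are conjugate, in a controlled way. -/
theorem conj_all {G : Subgroup (Perm α)} (H : Hyp G) (h8 : 8 ≤ Fintype.card α) {s t : Perm α}
    (hs : s ∈ G) (hss : s * s = 1) (hs1 : s ≠ 1) (ht : t ∈ G) (htt : t * t = 1) (ht1 : t ≠ 1) :
    ∃ g ∈ G, g * s * g⁻¹ = t := by
  obtain ⟨p, q, hp, hq, hqp, hqp2⟩ := exists_second H h8 hs hss hs1
  obtain ⟨p', q', hp', hq', hqp', hqp2'⟩ := exists_second H h8 ht htt ht1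
  have hD := d4_of hss hp hq hqp hqp2
  have hD' := d4_of htt hp' hq' hqp' hqp2'
  obtain ⟨g, hg, e1, e2, e3, e4⟩ := H.elem4 hD hD'
  have hss' : ∀ x, s (s x) = x := by
    intro x; rw [← Perm.mul_apply, hss]; rfl
  have htt' : ∀ x, t (t x) = x := by
    intro x; rw [← Perm.mul_apply, htt]; rfl
  set b : Perm α := g * s * g⁻¹ with hb
  have hbb : b * b = 1 := by
    rw [hb]
    calc g * s * g⁻¹ * (g * s * g⁻¹) = g * (s * s) * g⁻¹ := by group
      _ = 1 := by rw [hss]; group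
  have hbG : b ∈ G := mul_mem (mul_mem hg hs) (inv_mem hg)
  have hbg : ∀ x, b (g x) = g (s x) := by
    intro x; rw [hb]; simp
  have f1 : b p' = t p' := by rw [← e1, hbg, e2, e1]
  have f2 : b (t p') = p' := by rw [← e2, hbg, hss', e1]
  have f3 : b q' = t q' := by rw [← e3, hbg, e4, e3]
  have f4 : b (t q') = q' := by rw [← e4, hbg, hss', e3]
  have hodd : Odd (orderOf (t * b)) := by
    apply H.odd_elem hD' (mul_mem ht hbG)
    · rw [Perm.mul_apply, f1, htt']
    · rw [Perm.mul_apply, f2]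
    · rw [Perm.mul_apply, f3, htt']
    · rw [Perm.mul_apply, f4]
  obtain ⟨j, hj⟩ := conj_inv hbb htt hodd
  have hzG : (t * b) ^ j ∈ G := pow_mem (mul_mem ht hbG) j
  generalize (t * b) ^ j = z at hj hzG
  refine ⟨z * g, mul_mem hzG hg, ?_⟩
  calc z * g * s * (z * g)⁻¹ = z * (g * s * g⁻¹) * z⁻¹ := by group
    _ = t := hj

theorem card_support_eq {G : Subgroup (Perm α)} (H : Hyp G) (h8 : 8 ≤ Fintype.card α)
    {s t : Perm α} (hs : s ∈ G) (hss : s * s = 1) (hs1 : s ≠ 1) (ht : t ∈ G) (htt : t * t = 1)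
    (ht1 : t ≠ 1) : s.support.card = t.support.card := by
  obtain ⟨g, _, rfl⟩ := conj_all H h8 hs hss hs1 ht htt ht1
  rw [Equiv.Perm.support_conj, Finset.card_map]

/-- The basic configuration. -/
structure Ctx (G : Subgroup (Perm α)) (a u : Perm α) (p r : α) : Prop where
  H : Hyp G
  h8 : 8 ≤ Fintype.card α
  ha : a ∈ G
  haa : a * a = 1
  hu : u ∈ G
  huu : u * u = 1
  hua : u * a = a * u
  hp : a p ≠ p
  hr : a r ≠ r
  hrp : r ≠ p
  hrp2 : r ≠ a p
  up : u p = p
  uap : u (a p) = a p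
  ur : u r = a r
  uar : u (a r) = r

theorem exists_ctx {G : Subgroup (Perm α)} (H : Hyp G) (h8 : 8 ≤ Fintype.card α) :
    ∃ a u p r, Ctx G a u p r := by
  obtain ⟨t, htc⟩ := Finset.exists_subset_card_eq (s := (Finset.univ : Finset α)) (n := 4)
    (by rw [Finset.card_univ]; omega)
  obtain ⟨w, x, y, z, h1, h2, h3, h4, h5, h6, h7⟩ := Finset.card_eq_four.mp htc.2
  obtain ⟨a, ha, haa, e1, e2, e3, e4⟩ := H.exists_inv (p := w) (q := x) (r := y) (s := z)
    ⟨h1, h2, h3, h4, h5, h6⟩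
  have hp : a w ≠ w := by rw [e1]; exact h1.symm
  have hr : a y ≠ y := by rw [e3]; exact h6.symm
  have hrp2 : y ≠ a w := by rw [e1]; exact h4.symm
  obtain ⟨u, hu, huu, hua, up, uap, ur, uar⟩ := H.exists_u ha haa hp hr h2.symm hrp2
  exact ⟨a, u, w, y, H, h8, ha, haa, hu, huu, hua, hp, hr, h2.symm, hrp2, up, uap, ur, uar⟩

namespace Ctx

variable {G : Subgroup (Perm α)} {a u : Perm α} {p r : α}

theorem ha1 (C : Ctx G a u p r) : a ≠ 1 := by
  rintro rfl
  exact C.hp rfl

theorem hu1 (C : Ctx G a u p r) : u ≠ 1 := by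
  rintro rfl
  exact C.hr C.ur.symm

theorem aa (C : Ctx G a u p r) (x : α) : a (a x) = x := by
  rw [← Perm.mul_apply, C.haa]; rfl

theorem uu (C : Ctx G a u p r) (x : α) : u (u x) = x := by
  rw [← Perm.mul_apply, C.huu]; rfl

theorem ua (C : Ctx G a u p r) (x : α) : u (a x) = a (u x) := by
  rw [← Perm.mul_apply, C.hua]; rfl

theorem even (C : Ctx G a u p r) : Even a.support.card :=
  even_iff_two_dvd.mpr (Equiv.Perm.two_dvd_card_support (by rw [pow_two, C.haa]))

theorem card_le (C : Ctx G a u p r) : a.support.card + 2 ≤ Fintype.card α := by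
  rw [card_support_eq C.H C.h8 C.ha C.haa C.ha1 C.hu C.huu C.hu1]
  have h1 : ({p, a p} : Finset α) ⊆ u.supportᶜ := by
    intro x hx
    rw [Finset.mem_compl, Equiv.Perm.notMem_support]
    rw [Finset.mem_insert, Finset.mem_singleton] at hx
    rcases hx with rfl | rfl
    · exact C.up
    · exact C.uap
  have h2 := Finset.card_le_card h1
  rw [Finset.card_pair C.hp.symm, Finset.card_compl] at h2
  have := Finset.card_le_univ u.support
  omega

theorem card_ge (C : Ctx G a u p r) : Fintype.card α ≤ a.support.card + 3 :=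
  C.H.support_ge C.ha C.haa C.ha1

/-- The centralizer of `a` in the stabilizer of `p`. -/
def D (_ : Ctx G a u p r) : Subgroup (Perm α) where
  carrier := {g | g ∈ G ∧ g * a = a * g ∧ g p = p}
  mul_mem' := by
    rintro g h ⟨h1, h2, h3⟩ ⟨h4, h5, h6⟩
    refine ⟨mul_mem h1 h4, ?_, ?_⟩
    · rw [mul_assoc, h5, ← mul_assoc, h2, mul_assoc]
    · rw [Perm.mul_apply, h6, h3]
  one_mem' := ⟨one_mem _, by simp, rfl⟩
  inv_mem' := by
    rintro g ⟨h1, h2, h3⟩
    refine ⟨inv_mem h1, ?_, ?_⟩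
    · calc g⁻¹ * a = g⁻¹ * (a * g) * g⁻¹ := by group
        _ = g⁻¹ * (g * a) * g⁻¹ := by rw [h2]
        _ = a * g⁻¹ := by group
    · rw [Perm.inv_eq_iff_eq, h3]

theorem mem_D (C : Ctx G a u p r) {g : Perm α} : g ∈ C.D ↔ g ∈ G ∧ g * a = a * g ∧ g p = p :=
  Iff.rfl

theorem D_comm (C : Ctx G a u p r) {g : Perm α} (hg : g ∈ C.D) (x : α) : g (a x) = a (g x) := by
  rw [← Perm.mul_apply, hg.2.1]; rfl

theorem D_ap (C : Ctx G a u p r) {g : Perm α} (hg : g ∈ C.D) : g (a p) = a p := by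
  rw [C.D_comm hg, hg.2.2]

/-- The centralizer of `a` in the stabilizer of `p, a p, r, a r`. -/
def Dr (C : Ctx G a u p r) : Subgroup (Perm α) where
  carrier := {g | g ∈ C.D ∧ g r = r}
  mul_mem' := by
    rintro g h ⟨h1, h2⟩ ⟨h3, h4⟩
    exact ⟨mul_mem h1 h3, by rw [Perm.mul_apply, h4, h2]⟩
  one_mem' := ⟨one_mem _, rfl⟩
  inv_mem' := by
    rintro g ⟨h1, h2⟩
    exact ⟨inv_mem h1, by rw [Perm.inv_eq_iff_eq, h2]⟩

theorem d4 (C : Ctx G a u p r) : D4 p (a p) r (a r) := d4_of C.haa C.hp C.hr C.hrp C.hrp2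

theorem Dr_odd (C : Ctx G a u p r) : Odd (Nat.card C.Dr) := by
  apply C.H.odd C.d4 C.Dr (fun g hg => hg.1.1)
  intro g hg
  exact ⟨hg.1.2.2, C.D_ap hg.1, hg.2, by rw [C.D_comm hg.1, hg.2]⟩

theorem card_D (C : Ctx G a u p r) :
    Nat.card C.D = (a.support.card - 2) * Nat.card C.Dr := by
  have h1 : MulAction.orbit C.D r = ((a.support \ {p, a p} : Finset α) : Set α) := by
    ext y
    rw [Finset.mem_coe, Finset.mem_sdiff, Finset.mem_insert, Finset.mem_singleton, not_or,
      Equiv.Perm.mem_support]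
    constructor
    · rintro ⟨⟨g, hg⟩, rfl⟩
      show a (g r) ≠ g r ∧ g r ≠ p ∧ g r ≠ a p
      refine ⟨?_, ?_, ?_⟩
      · rw [← C.D_comm hg]
        exact fun h => C.hr (g.injective h)
      · intro h
        rw [← hg.2.2] at h
        exact C.hrp (g.injective h)
      · intro h
        rw [← C.D_ap hg] at h
        exact C.hrp2 (g.injective h)
    · rintro ⟨h1, h2, h3⟩
      obtain ⟨g, hg, hga, e1, e2⟩ := C.H.trans22 C.ha C.haa C.hp C.hr C.hrp C.hrp2 C.hp h1 h2 h3
      exact ⟨⟨g, hg, hga, e1⟩, e2⟩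
  have h2 : Nat.card (MulAction.orbit C.D r) = a.support.card - 2 := by
    rw [h1, Nat.card_coe_set_eq, Set.ncard_coe_finset, Finset.card_sdiff_of_subset,
      Finset.card_pair C.hp.symm]
    intro x hx
    rw [Finset.mem_insert, Finset.mem_singleton] at hx
    rw [Equiv.Perm.mem_support]
    rcases hx with rfl | rfl
    · exact C.hp
    · exact fun h => C.hp (a.injective h)
  have h3 : Nat.card (stabilizer C.D r) = Nat.card C.Dr := by
    apply Nat.card_congr
    exact
      { toFun := fun g => ⟨g.1.1, g.1.2, g.2⟩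
        invFun := fun g => ⟨⟨g.1, g.2.1⟩, g.2.2⟩
        left_inv := fun _ => rfl
        right_inv := fun _ => rfl }
  have h4 : Nat.card (MulAction.orbit C.D r) * Nat.card (stabilizer C.D r) = Nat.card C.D := by
    rw [← Nat.card_prod]
    exact Nat.card_congr (MulAction.orbitProdStabilizerEquivGroup C.D r)
  rw [← h4, h2, h3]

theorem not_four_dvd (C : Ctx G a u p r) : ¬ 4 ∣ Nat.card C.D := by
  intro h4
  set Y : Set α := {x | a x = x} with hY
  have hinv : ∀ g ∈ C.D, ∀ x, x ∈ Y ↔ g x ∈ Y := by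
    intro g hg x
    show a x = x ↔ a (g x) = g x
    rw [← C.D_comm hg, g.injective.eq_iff]
  have hYc : Y.ncard = Fintype.card α - a.support.card := by
    have : Y = ((a.supportᶜ : Finset α) : Set α) := by
      ext x
      rw [Finset.mem_coe, Finset.mem_compl, Equiv.Perm.notMem_support]; rfl
    rw [this, Set.ncard_coe_finset, Finset.card_compl]
  have h1 := C.card_le
  have h2 := C.card_ge
  -- the kernel has odd order
  have hker : Odd (Nat.card (restr C.D Y hinv).ker) := by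
    obtain ⟨e, f, he, hf, hef⟩ : ∃ e f, e ∈ Y ∧ f ∈ Y ∧ e ≠ f := by
      have h3 : 1 < Y.ncard := by omega
      obtain ⟨e, he, f, hf, hef⟩ := (Set.one_lt_ncard (Set.toFinite _)).mp h3
      exact ⟨e, f, he, hf, hef⟩
    have hD : D4 e f p (a p) := by
      refine ⟨hef, ?_, ?_, ?_, ?_, C.hp.symm⟩
      · rintro rfl; exact C.hp he
      · rintro rfl; exact C.hp (a.injective he)
      · rintro rfl; exact C.hp hf
      · rintro rfl; exact C.hp (a.injective hf)
    have h3 := C.H.odd hD ((restr C.D Y hinv).ker.map C.D.subtype)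
      (by
        rintro _ ⟨g, _, rfl⟩
        exact g.2.1)
      (by
        rintro _ ⟨g, hg, rfl⟩
        have hg' : restr C.D Y hinv g = 1 := hg
        refine ⟨?_, ?_, g.2.2.2, C.D_ap g.2⟩
        · have := congrArg (fun f : Perm Y => (f ⟨e, he⟩ : α)) hg'
          exact this
        · have := congrArg (fun φ : Perm Y => (φ ⟨f, hf⟩ : α)) hg'
          exact this)
    rw [Nat.card_congr ((restr C.D Y hinv).ker.equivMapOfInjective _
      C.D.subtype_injective).toEquiv]
    exact h3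
  have h5 : Nat.card (restr C.D Y hinv).range ∣ 6 := by
    have h6 : Nat.card (restr C.D Y hinv).range ∣ Nat.card (Perm Y) :=
      Subgroup.card_subgroup_dvd_card _
    rw [Nat.card_perm, Nat.card_coe_set_eq] at h6
    have h7 : Y.ncard = 2 ∨ Y.ncard = 3 := by omega
    rcases h7 with h7 | h7
    · rw [h7] at h6
      exact h6.trans (by norm_num [Nat.factorial])
    · rw [h7] at h6
      exact h6.trans (by norm_num [Nat.factorial])
  have h6 : Nat.card (restr C.D Y hinv).ker * Nat.card (restr C.D Y hinv).range =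
      Nat.card C.D := by
    have := Subgroup.card_mul_index (restr C.D Y hinv).ker
    rwa [Subgroup.index_ker] at this
  rw [← h6] at h4
  have hcop : Nat.Coprime 4 (Nat.card (restr C.D Y hinv).ker) := by
    rw [show 4 = 2 ^ 2 by norm_num]
    exact Nat.Coprime.pow_left 2 ((Nat.coprime_two_left).mpr hker)
  have h8 := (hcop.dvd_of_dvd_mul_left h4).trans h5
  norm_num at h8

/-- The number of points moved by an involution is divisible by four. -/
theorem mod_four (C : Ctx G a u p r) : a.support.card % 4 = 0 := by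
  have h1 := C.not_four_dvd
  rw [C.card_D] at h1
  have h2 := C.even
  have h3 := C.card_ge
  have h4 := C.h8
  by_contra h5
  apply h1
  apply Dvd.dvd.mul_right
  obtain ⟨m, hm⟩ := h2
  omega

end Ctx

end Cfsg.Agent.H544.HallB
end

-- part: H544/HallC
section
/-!
# M. Hall's theorem on 4-transitive groups with four-point stabilizers of odd order

Part C: the Sylow 2-subgroup of the setwise stabilizer of two points.
-/

set_option autoImplicit false

namespace Cfsg.Agent.H544.HallC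

open Equiv Equiv.Perm MulAction Cfsg.Agent.H544.MillerC Cfsg.Agent.H544.HallA
  Cfsg.Agent.H544.HallB

variable {α : Type*} [Fintype α] [DecidableEq α]

/-- One-point stabilizers inside permutation groups. -/
def st (L : Subgroup (Perm α)) (x : α) : Subgroup (Perm α) where
  carrier := {g | g ∈ L ∧ g x = x}
  mul_mem' := by
    rintro g h ⟨h1, h2⟩ ⟨h3, h4⟩
    exact ⟨mul_mem h1 h3, by rw [Perm.mul_apply, h4, h2]⟩
  one_mem' := ⟨one_mem _, rfl⟩
  inv_mem' := by
    rintro g ⟨h1, h2⟩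
    exact ⟨inv_mem h1, by rw [Perm.inv_eq_iff_eq, h2]⟩

theorem mem_st {L : Subgroup (Perm α)} {x : α} {g : Perm α} : g ∈ st L x ↔ g ∈ L ∧ g x = x :=
  Iff.rfl

theorem card_st (L : Subgroup (Perm α)) (x : α) (T : Finset α)
    (hT : ∀ y, y ∈ T ↔ ∃ g ∈ L, g x = y) : Nat.card L = T.card * Nat.card (st L x) := by
  have h1 : MulAction.orbit L x = (T : Set α) := by
    ext y
    rw [Finset.mem_coe, hT]
    constructor
    · rintro ⟨⟨g, hg⟩, e⟩
      exact ⟨g, hg, e⟩
    · rintro ⟨g, hg, e⟩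
      exact ⟨⟨g, hg⟩, e⟩
  have h3 : Nat.card (stabilizer L x) = Nat.card (st L x) := by
    apply Nat.card_congr
    exact
      { toFun := fun g => ⟨g.1.1, g.1.2, g.2⟩
        invFun := fun g => ⟨⟨g.1, g.2.1⟩, g.2.2⟩
        left_inv := fun _ => rfl
        right_inv := fun _ => rfl }
  have h4 : Nat.card (MulAction.orbit L x) * Nat.card (stabilizer L x) = Nat.card L := by
    rw [← Nat.card_prod]
    exact Nat.card_congr (MulAction.orbitProdStabilizerEquivGroup L x)
  rw [← h4, h1, h3, Nat.card_coe_set_eq, Set.ncard_coe_finset]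

theorem exists_notMem (h8 : 8 ≤ Fintype.card α) (T : Finset α) (hT : T.card < 8) :
    ∃ y, y ∉ T := by
  by_contra hcon
  push Not at hcon
  have : Fintype.card α ≤ T.card := Finset.card_le_card (fun x _ => hcon x)
  omega

theorem exists_d4_3 (h8 : 8 ≤ Fintype.card α) {x y z : α} (hxy : x ≠ y) (hxz : x ≠ z)
    (hyz : y ≠ z) : ∃ w, D4 x y z w := by
  obtain ⟨w, hw⟩ := exists_notMem h8 {x, y, z} (lt_of_le_of_lt Finset.card_le_three (by norm_num))
  simp only [Finset.mem_insert, Finset.mem_singleton, not_or] at hw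
  exact ⟨w, hxy, hxz, Ne.symm hw.1, hyz, Ne.symm hw.2.1, Ne.symm hw.2.2⟩

theorem exists_d4_2 (h8 : 8 ≤ Fintype.card α) {x y : α} (hxy : x ≠ y) :
    ∃ z w, D4 x y z w := by
  obtain ⟨z, hz⟩ := exists_notMem h8 {x, y} (lt_of_le_of_lt Finset.card_le_two (by norm_num))
  simp only [Finset.mem_insert, Finset.mem_singleton, not_or] at hz
  obtain ⟨w, hw⟩ := exists_d4_3 h8 hxy (Ne.symm hz.1) (Ne.symm hz.2)
  exact ⟨z, w, hw⟩

theorem exists_d4_1 (h8 : 8 ≤ Fintype.card α) (x : α) : ∃ y z w, D4 x y z w := by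
  obtain ⟨y, hy⟩ := exists_notMem h8 {x} (by simp)
  simp only [Finset.mem_singleton] at hy
  obtain ⟨z, w, h⟩ := exists_d4_2 h8 (Ne.symm hy)
  exact ⟨y, z, w, h⟩

theorem elem1 {G : Subgroup (Perm α)} (H : Hyp G) (h8 : 8 ≤ Fintype.card α) (x x' : α) :
    ∃ g ∈ G, g x = x' := by
  obtain ⟨_, _, _, h⟩ := exists_d4_1 h8 x
  obtain ⟨_, _, _, h'⟩ := exists_d4_1 h8 x'
  obtain ⟨g, hg, e, _⟩ := H.elem4 h h'
  exact ⟨g, hg, e⟩

theorem elem2 {G : Subgroup (Perm α)} (H : Hyp G) (h8 : 8 ≤ Fintype.card α) {x y x' y' : α}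
    (h1 : x ≠ y) (h1' : x' ≠ y') : ∃ g ∈ G, g x = x' ∧ g y = y' := by
  obtain ⟨_, _, h⟩ := exists_d4_2 h8 h1
  obtain ⟨_, _, h'⟩ := exists_d4_2 h8 h1'
  obtain ⟨g, hg, e, e', _⟩ := H.elem4 h h'
  exact ⟨g, hg, e, e'⟩

theorem elem3 {G : Subgroup (Perm α)} (H : Hyp G) (h8 : 8 ≤ Fintype.card α)
    {x y z x' y' z' : α} (h1 : x ≠ y) (h2 : x ≠ z) (h3 : y ≠ z) (h1' : x' ≠ y') (h2' : x' ≠ z')
    (h3' : y' ≠ z') : ∃ g ∈ G, g x = x' ∧ g y = y' ∧ g z = z' := by
  obtain ⟨_, h⟩ := exists_d4_3 h8 h1 h2 h3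
  obtain ⟨_, h'⟩ := exists_d4_3 h8 h1' h2' h3'
  obtain ⟨g, hg, e, e', e'', _⟩ := H.elem4 h h'
  exact ⟨g, hg, e, e', e''⟩

/-- The order of `G` in terms of the order of the stabilizer of one point. -/
theorem card_G {G : Subgroup (Perm α)} (H : Hyp G) (h8 : 8 ≤ Fintype.card α) (x : α) :
    Nat.card G = Fintype.card α * Nat.card (st G x) := by
  rw [card_st G x Finset.univ, Finset.card_univ]
  intro y
  exact ⟨fun _ => elem1 H h8 x y, fun _ => Finset.mem_univ _⟩

theorem card_G1 {G : Subgroup (Perm α)} (H : Hyp G) (h8 : 8 ≤ Fintype.card α) {x y : α}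
    (hxy : x ≠ y) : Nat.card (st G x) = (Fintype.card α - 1) * Nat.card (st (st G x) y) := by
  rw [card_st (st G x) y (Finset.univ \ {x}), Finset.card_sdiff_of_subset (Finset.subset_univ _),
    Finset.card_univ, Finset.card_singleton]
  intro z
  rw [Finset.mem_sdiff, Finset.mem_singleton]
  constructor
  · rintro ⟨_, hz⟩
    obtain ⟨g, hg, e, e'⟩ := elem2 H h8 hxy (Ne.symm hz)
    exact ⟨g, ⟨hg, e⟩, e'⟩
  · rintro ⟨g, ⟨hg, e⟩, rfl⟩
    refine ⟨Finset.mem_univ _, fun h => hxy ?_⟩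
    rw [← e] at h
    exact (g.injective h).symm

theorem card_G2 {G : Subgroup (Perm α)} (H : Hyp G) (h8 : 8 ≤ Fintype.card α) {x y z : α}
    (hxy : x ≠ y) (hxz : x ≠ z) (hyz : y ≠ z) :
    Nat.card (st (st G x) y) = (Fintype.card α - 2) * Nat.card (st (st (st G x) y) z) := by
  rw [card_st (st (st G x) y) z (Finset.univ \ {x, y}),
    Finset.card_sdiff_of_subset (Finset.subset_univ _), Finset.card_univ, Finset.card_pair hxy]
  intro w
  rw [Finset.mem_sdiff, Finset.mem_insert, Finset.mem_singleton, not_or]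
  constructor
  · rintro ⟨_, hz, hz'⟩
    obtain ⟨g, hg, e, e', e''⟩ := elem3 H h8 hxy hxz hyz hxy (Ne.symm hz) (Ne.symm hz')
    exact ⟨g, ⟨⟨hg, e⟩, e'⟩, e''⟩
  · rintro ⟨g, ⟨⟨hg, e⟩, e'⟩, rfl⟩
    refine ⟨Finset.mem_univ _, fun h => hxz ?_, fun h => hyz ?_⟩
    · rw [← e] at h
      exact (g.injective h).symm
    · rw [← e'] at h
      exact (g.injective h).symm

theorem card_G3 {G : Subgroup (Perm α)} (H : Hyp G) {x y z w : α} (h : D4 x y z w) :
    Nat.card (st (st (st G x) y) z) =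
      (Fintype.card α - 3) * Nat.card (st (st (st (st G x) y) z) w) := by
  obtain ⟨h1, h2, h3, h4, h5, h6⟩ := h
  rw [card_st (st (st (st G x) y) z) w (Finset.univ \ {x, y, z}),
    Finset.card_sdiff_of_subset (Finset.subset_univ _), Finset.card_univ,
    Finset.card_eq_three.mpr ⟨x, y, z, h1, h2, h4, rfl⟩]
  intro v
  rw [Finset.mem_sdiff, Finset.mem_insert, Finset.mem_insert, Finset.mem_singleton, not_or, not_or]
  constructor
  · rintro ⟨_, hz, hz', hz''⟩
    obtain ⟨g, hg, e, e', e'', e'''⟩ := H.elem4 (a' := x) (b' := y) (c' := z) (d' := v)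
      ⟨h1, h2, h3, h4, h5, h6⟩ ⟨h1, h2, Ne.symm hz, h4, Ne.symm hz', Ne.symm hz''⟩
    exact ⟨g, ⟨⟨⟨hg, e⟩, e'⟩, e''⟩, e'''⟩
  · rintro ⟨g, ⟨⟨⟨hg, e⟩, e'⟩, e''⟩, rfl⟩
    refine ⟨Finset.mem_univ _, fun h => h3 ?_, fun h => h5 ?_, fun h => h6 ?_⟩
    · rw [← e] at h
      exact (g.injective h).symm
    · rw [← e'] at h
      exact (g.injective h).symm
    · rw [← e''] at h
      exact (g.injective h).symm

theorem odd_G4 {G : Subgroup (Perm α)} (H : Hyp G) {x y z w : α} (h : D4 x y z w) :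
    Odd (Nat.card (st (st (st (st G x) y) z) w)) := by
  apply H.odd h
  · intro g hg; exact hg.1.1.1.1
  · intro g hg; exact ⟨hg.1.1.1.2, hg.1.1.2, hg.1.2, hg.2⟩

end Cfsg.Agent.H544.HallC

namespace Cfsg.Agent.H544.HallB.Ctx

open Equiv Equiv.Perm MulAction Cfsg.Agent.H544.MillerC Cfsg.Agent.H544.HallA
  Cfsg.Agent.H544.HallB Cfsg.Agent.H544.HallC

variable {α : Type*} [Fintype α] [DecidableEq α]
variable {G : Subgroup (Perm α)} {a u : Perm α} {p r : α}

/-- The setwise stabilizer of `{p, a p}`. -/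
def X (_ : Ctx G a u p r) : Subgroup (Perm α) where
  carrier := {g | g ∈ G ∧ ((g p = p ∧ g (a p) = a p) ∨ (g p = a p ∧ g (a p) = p))}
  mul_mem' := by
    rintro g h ⟨h1, h2⟩ ⟨h3, h4⟩
    refine ⟨mul_mem h1 h3, ?_⟩
    rw [Perm.mul_apply, Perm.mul_apply]
    rcases h4 with ⟨e1, e2⟩ | ⟨e1, e2⟩ <;> rcases h2 with ⟨e3, e4⟩ | ⟨e3, e4⟩ <;>
      rw [e1, e2, e3, e4] <;> simp
  one_mem' := ⟨one_mem _, Or.inl ⟨rfl, rfl⟩⟩
  inv_mem' := by
    rintro g ⟨h1, h2⟩
    refine ⟨inv_mem h1, ?_⟩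
    rw [Perm.inv_eq_iff_eq, Perm.inv_eq_iff_eq, Perm.inv_eq_iff_eq, Perm.inv_eq_iff_eq]
    rcases h2 with ⟨e1, e2⟩ | ⟨e1, e2⟩
    · exact Or.inl ⟨e1.symm, e2.symm⟩
    · exact Or.inr ⟨e2.symm, e1.symm⟩

/-- The pointwise stabilizer of `{p, a p}`. -/
def X0 (_ : Ctx G a u p r) : Subgroup (Perm α) := st (st G p) (a p)

theorem mem_X0 (C : Ctx G a u p r) {g : Perm α} : g ∈ C.X0 ↔ g ∈ G ∧ g p = p ∧ g (a p) = a p := by
  constructor
  · rintro ⟨⟨h1, h2⟩, h3⟩; exact ⟨h1, h2, h3⟩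
  · rintro ⟨h1, h2, h3⟩; exact ⟨⟨h1, h2⟩, h3⟩

theorem X0_le (C : Ctx G a u p r) : C.X0 ≤ C.X := by
  intro g hg
  rw [C.mem_X0] at hg
  exact ⟨hg.1, Or.inl hg.2⟩

theorem a_mem_X (C : Ctx G a u p r) : a ∈ C.X := ⟨C.ha, Or.inr ⟨rfl, C.aa p⟩⟩

theorem u_mem_X0 (C : Ctx G a u p r) : u ∈ C.X0 := by
  rw [C.mem_X0]; exact ⟨C.hu, C.up, C.uap⟩

theorem a_notMem_X0 (C : Ctx G a u p r) : a ∉ C.X0 := by
  rw [C.mem_X0]; rintro ⟨_, h, _⟩; exact C.hp h

theorem X_cases (C : Ctx G a u p r) {g : Perm α} (hg : g ∈ C.X) : g ∈ C.X0 ∨ a * g ∈ C.X0 := by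
  rcases hg with ⟨h1, ⟨e1, e2⟩ | ⟨e1, e2⟩⟩
  · left; rw [C.mem_X0]; exact ⟨h1, e1, e2⟩
  · right; rw [C.mem_X0]
    refine ⟨mul_mem C.ha h1, ?_, ?_⟩
    · rw [Perm.mul_apply, e1, C.aa]
    · rw [Perm.mul_apply, e2]

theorem card_X (C : Ctx G a u p r) : Nat.card C.X = 2 * Nat.card C.X0 := by
  have h1 : st C.X p = C.X0 := by
    ext g
    rw [mem_st, C.mem_X0]
    constructor
    · rintro ⟨⟨h1, ⟨e1, e2⟩ | ⟨e1, e2⟩⟩, h3⟩
      · exact ⟨h1, e1, e2⟩
      · exact absurd (e1.symm.trans h3) C.hp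
    · rintro ⟨h1, e1, e2⟩
      exact ⟨⟨h1, Or.inl ⟨e1, e2⟩⟩, e1⟩
  rw [card_st C.X p {p, a p}, h1, Finset.card_pair C.hp.symm]
  intro y
  rw [Finset.mem_insert, Finset.mem_singleton]
  constructor
  · rintro (rfl | rfl)
    · exact ⟨1, one_mem _, rfl⟩
    · exact ⟨a, C.a_mem_X, rfl⟩
  · rintro ⟨g, ⟨_, ⟨e1, _⟩ | ⟨e1, _⟩⟩, rfl⟩
    · exact Or.inl e1
    · exact Or.inr e1

theorem nmod (C : Ctx G a u p r) : Fintype.card α % 4 = 2 ∨ Fintype.card α % 4 = 3 := by
  have h1 := C.mod_four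
  have h2 := C.card_le
  have h3 := C.card_ge
  omega

/-- `4` divides the order of `X0`. -/
theorem four_dvd_X0 (C : Ctx G a u p r) : 4 ∣ Nat.card C.X0 := by
  have h1 := card_G2 C.H C.h8 (x := p) (y := a p) (z := r) C.hp.symm C.hrp.symm C.hrp2.symm
  have h2 := card_G3 C.H C.d4
  have h3 : Nat.card C.X0 = (Fintype.card α - 2) * ((Fintype.card α - 3) *
      Nat.card (st (st (st (st G p) (a p)) r) (a r))) := by
    rw [← h2]; exact h1
  rw [h3, ← mul_assoc]
  apply Dvd.dvd.mul_right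
  rcases C.nmod with h | h
  · apply Dvd.dvd.mul_right; omega
  · apply Dvd.dvd.mul_left; omega

/-- The index of `X` in `G` is odd. -/
theorem exists_odd_G (C : Ctx G a u p r) : ∃ m, Odd m ∧ Nat.card G = m * Nat.card C.X := by
  have h1 := card_G C.H C.h8 p
  have h2 := card_G1 C.H C.h8 (x := p) (y := a p) C.hp.symm
  have h3 : Nat.card (st (st G p) (a p)) = Nat.card C.X0 := rfl
  rw [h2, h3] at h1
  have h8 := C.h8
  rcases C.nmod with h | h
  · refine ⟨(Fintype.card α / 2) * (Fintype.card α - 1), ?_, ?_⟩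
    · rw [Nat.odd_mul]
      constructor
      · rw [Nat.odd_iff]; omega
      · rw [Nat.odd_iff]; omega
    · rw [h1, C.card_X]
      obtain ⟨k, hk⟩ : ∃ k, Fintype.card α = 2 * k := ⟨Fintype.card α / 2, by omega⟩
      rw [hk, Nat.mul_div_cancel_left k (by norm_num)]
      ring
  · refine ⟨Fintype.card α * ((Fintype.card α - 1) / 2), ?_, ?_⟩
    · rw [Nat.odd_mul]
      constructor
      · rw [Nat.odd_iff]; omega
      · rw [Nat.odd_iff]; omega
    · rw [h1, C.card_X]
      obtain ⟨k, hk⟩ : ∃ k, Fintype.card α - 1 = 2 * k := ⟨(Fintype.card α - 1) / 2, by omega⟩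
      rw [hk, Nat.mul_div_cancel_left k (by norm_num)]
      ring

/-- The four-group `{1, a, u, a u}`. -/
def V (C : Ctx G a u p r) : Subgroup (Perm α) where
  carrier := {g | g = 1 ∨ g = a ∨ g = u ∨ g = a * u}
  mul_mem' := by
    have e1 := C.haa
    have e2 := C.huu
    have e3 := C.hua
    have e4 : a * (a * u) = u := by rw [← mul_assoc, e1, one_mul]
    have e5 : a * u * a = u := by rw [mul_assoc, e3, e4]
    have e6 : a * u * u = a := by rw [mul_assoc, e2, mul_one]
    have e7 : u * (a * u) = a := by rw [← mul_assoc, e3, e6]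
    have e8 : a * u * (a * u) = 1 := by rw [← mul_assoc, e5, e2]
    rintro g h (rfl | rfl | rfl | rfl) (rfl | rfl | rfl | rfl) <;>
      simp [e1, e2, e3, e4, e5, e6, e7, e8]
  one_mem' := Or.inl rfl
  inv_mem' := by
    have e1 : a⁻¹ = a := inv_eq_of_mul_eq_one_right C.haa
    have e2 : u⁻¹ = u := inv_eq_of_mul_eq_one_right C.huu
    rintro g (rfl | rfl | rfl | rfl)
    · left; simp
    · right; left; exact e1
    · right; right; left; exact e2
    · right; right; right
      rw [mul_inv_rev, e1, e2, C.hua]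

theorem mem_V (C : Ctx G a u p r) {g : Perm α} : g ∈ C.V ↔ g = 1 ∨ g = a ∨ g = u ∨ g = a * u :=
  Iff.rfl

theorem a_ne_u (C : Ctx G a u p r) : a ≠ u := by
  intro h
  apply C.hp
  rw [h]; exact C.up

theorem card_V (C : Ctx G a u p r) : Nat.card C.V = 4 := by
  have h1 : (C.V : Set (Perm α)) = (({1, a, u, a * u} : Finset (Perm α)) : Set (Perm α)) := by
    ext g
    simp only [SetLike.mem_coe, C.mem_V, Finset.coe_insert, Finset.coe_singleton,
      Set.mem_insert_iff, Set.mem_singleton_iff]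
  have h2 : Nat.card C.V = (C.V : Set (Perm α)).ncard := rfl
  rw [h2, h1, Set.ncard_coe_finset]
  have n1 := C.ha1
  have n2 := C.hu1
  have n3 := C.a_ne_u
  have n4 : a * u ≠ 1 := by
    intro h
    apply n3
    rw [← mul_one a, ← C.huu, ← mul_assoc, h, one_mul]
  have n5 : a * u ≠ a := by
    intro h; exact n2 (mul_eq_left.mp h)
  have n6 : a * u ≠ u := by
    intro h; exact n1 (mul_eq_right.mp h)
  rw [Finset.card_insert_of_notMem, Finset.card_insert_of_notMem, Finset.card_insert_of_notMem,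
    Finset.card_singleton]
  · simp [n6.symm]
  · simp [n3, n5.symm]
  · simp [n1.symm, n2.symm, n4.symm]

end Cfsg.Agent.H544.HallB.Ctx
end

-- part: H544/HallD
section
/-!
# M. Hall's theorem on 4-transitive groups with four-point stabilizers of odd order

Part D: the structure of the Sylow 2-subgroup.
-/

set_option autoImplicit false

namespace Cfsg.Agent.H544.HallB.Ctx

open Equiv Equiv.Perm MulAction Cfsg.Agent.H544.MillerC Cfsg.Agent.H544.HallA
  Cfsg.Agent.H544.HallB Cfsg.Agent.H544.HallC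

variable {α : Type*} [Fintype α] [DecidableEq α]
variable {G : Subgroup (Perm α)} {a u : Perm α} {p r : α}

/-- A Sylow 2-subgroup of `X` containing `V`. -/
structure Syl (C : Ctx G a u p r) (S : Subgroup (Perm α)) (k m : ℕ) : Prop where
  VS : C.V ≤ S
  SX : S ≤ C.X
  card : Nat.card S = 2 ^ k
  odd : Odd m
  cardX : Nat.card C.X = m * 2 ^ k

theorem V_le_X (C : Ctx G a u p r) : C.V ≤ C.X := by
  rintro g (rfl | rfl | rfl | rfl)
  · exact one_mem _
  · exact C.a_mem_X
  · exact C.X0_le C.u_mem_X0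
  · exact mul_mem C.a_mem_X (C.X0_le C.u_mem_X0)

theorem exists_syl (C : Ctx G a u p r) : ∃ S k m, Syl C S k m := by
  have hV : IsPGroup 2 (C.V.subgroupOf C.X) := by
    apply IsPGroup.of_card (n := 2)
    rw [Nat.card_congr (Subgroup.subgroupOfEquivOfLe C.V_le_X).toEquiv, C.card_V]
    norm_num
  obtain ⟨Q, hQ⟩ := hV.exists_le_sylow
  refine ⟨(Q : Subgroup C.X).map C.X.subtype, (Nat.card C.X).factorization 2,
    Nat.card C.X / 2 ^ (Nat.card C.X).factorization 2, ?_, Subgroup.map_subtype_le _, ?_, ?_, ?_⟩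
  · intro g hg
    exact ⟨⟨g, C.V_le_X hg⟩, hQ hg, rfl⟩
  · rw [Nat.card_congr ((Q : Subgroup C.X).equivMapOfInjective _
      C.X.subtype_injective).toEquiv.symm]
    exact Q.card_eq_multiplicity
  · rw [← Nat.coprime_two_left]
    exact Nat.coprime_ordCompl Nat.prime_two Nat.card_pos.ne'
  · exact (Nat.div_mul_cancel (Nat.ordProj_dvd _ _)).symm

theorem sq_mem_X0 (C : Ctx G a u p r) {g : Perm α} (hg : g ∈ C.X) : g * g ∈ C.X0 := by
  rw [C.mem_X0]
  rcases hg with ⟨h1, ⟨e1, e2⟩ | ⟨e1, e2⟩⟩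
  · exact ⟨mul_mem h1 h1, by rw [Perm.mul_apply, e1, e1], by rw [Perm.mul_apply, e2, e2]⟩
  · exact ⟨mul_mem h1 h1, by rw [Perm.mul_apply, e1, e2], by rw [Perm.mul_apply, e2, e1]⟩

namespace Syl

variable {C : Ctx G a u p r} {S : Subgroup (Perm α)} {k m : ℕ}

theorem k_ge (Y : Syl C S k m) : 3 ≤ k := by
  by_contra hlt
  push Not at hlt
  have h1 : 8 ∣ Nat.card C.X := by
    rw [C.card_X]
    obtain ⟨c, hc⟩ := C.four_dvd_X0
    exact ⟨c, by rw [hc]; ring⟩
  rw [Y.cardX] at h1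
  obtain ⟨j, hj⟩ := Y.odd
  have hk : k = 0 ∨ k = 1 ∨ k = 2 := by omega
  rcases hk with rfl | rfl | rfl <;> omega

theorem aS (Y : Syl C S k m) : a ∈ S := Y.VS (Or.inr (Or.inl rfl))

theorem uS (Y : Syl C S k m) : u ∈ S := Y.VS (Or.inr (Or.inr (Or.inl rfl)))

theorem D_cap (Y : Syl C S k m) {g : Perm α} (hg : g ∈ S) (hD : g ∈ C.D) : g = 1 ∨ g = u := by
  have huD : u ∈ C.D := ⟨C.hu, C.hua, C.up⟩
  have h1 : Nat.card (S ⊓ C.D : Subgroup (Perm α)) ∣ 2 ^ k := by
    rw [← Y.card]; exact Subgroup.card_dvd_of_le inf_le_left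
  have h2 : Nat.card (S ⊓ C.D : Subgroup (Perm α)) ∣ Nat.card C.D :=
    Subgroup.card_dvd_of_le inf_le_right
  obtain ⟨j, _, hj⟩ := (Nat.dvd_prime_pow Nat.prime_two).mp h1
  have hj1 : j ≤ 1 := by
    by_contra hlt
    push Not at hlt
    apply C.not_four_dvd
    refine dvd_trans ?_ h2
    rw [hj, show 4 = 2 ^ 2 by norm_num]
    exact pow_dvd_pow 2 hlt
  have hle : Nat.card (S ⊓ C.D : Subgroup (Perm α)) ≤ 2 := by
    rw [hj]
    calc 2 ^ j ≤ 2 ^ 1 := Nat.pow_le_pow_right (by norm_num) hj1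
      _ = 2 := by norm_num
  have hz : Nat.card (Subgroup.zpowers u) = 2 := by
    rw [Nat.card_zpowers]
    exact orderOf_eq_prime (by rw [pow_two, C.huu]) C.hu1
  have hzle : Subgroup.zpowers u ≤ S ⊓ C.D := by
    rw [Subgroup.zpowers_le]; exact ⟨Y.uS, huD⟩
  have heq : Subgroup.zpowers u = S ⊓ C.D :=
    Subgroup.eq_of_le_of_card_ge hzle (by rw [hz]; exact hle)
  have hg2 : g ∈ Subgroup.zpowers u := by rw [heq]; exact ⟨hg, hD⟩
  obtain ⟨i, rfl⟩ := Subgroup.mem_zpowers_iff.mp hg2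
  rcases Int.even_or_odd' i with ⟨c, rfl | rfl⟩
  · left
    rw [zpow_mul, zpow_two, C.huu, one_zpow]
  · right
    rw [zpow_add, zpow_mul, zpow_two, C.huu, one_zpow, one_mul, zpow_one]

theorem cent (Y : Syl C S k m) {g : Perm α} (hg : g ∈ S) (hga : g * a = a * g) : g ∈ C.V := by
  rcases C.X_cases (Y.SX hg) with h | h
  · rw [C.mem_X0] at h
    rcases Y.D_cap hg ⟨h.1, hga, h.2.1⟩ with rfl | rfl
    · exact Or.inl rfl
    · exact Or.inr (Or.inr (Or.inl rfl))
  · rw [C.mem_X0] at h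
    have hag : a * g * a = a * (a * g) := by rw [mul_assoc, hga]
    rcases Y.D_cap (mul_mem Y.aS hg) ⟨h.1, hag, h.2.1⟩ with h1 | h1
    · right; left
      have : g = a⁻¹ := (inv_eq_of_mul_eq_one_right h1).symm
      rw [this]; exact inv_eq_of_mul_eq_one_right C.haa
    · right; right; right
      rw [← h1, ← mul_assoc, C.haa, one_mul]

/-- `S` contains a cyclic subgroup of index two, not containing `a`, with unique involution
`u`. -/
theorem exists_cyclic (Y : Syl C S k m) : ∃ x ∈ S, orderOf x = 2 ^ (k - 1) ∧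
    a ∉ Subgroup.zpowers x ∧ (∀ g ∈ S, g ∈ Subgroup.zpowers x ∨ g * a ∈ Subgroup.zpowers x) ∧
    (∀ g ∈ S, g * x * g⁻¹ ∈ Subgroup.zpowers x) ∧ x ^ 2 ^ (k - 2) = u := by
  have hk := Y.k_ge
  have hfact : Fact (Nat.Prime 2) := ⟨Nat.prime_two⟩
  have hA : Nat.card (C.V.subgroupOf S) = 2 ^ 2 := by
    rw [Nat.card_congr (Subgroup.subgroupOfEquivOfLe Y.VS).toEquiv, C.card_V]; norm_num
  have haA : (⟨a, Y.aS⟩ : S) ∈ C.V.subgroupOf S := Or.inr (Or.inl rfl)
  have hC : Subgroup.centralizer ((C.V.subgroupOf S : Subgroup S) : Set S) = C.V.subgroupOf S := by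
    apply le_antisymm
    · intro g hg
      have h1 := Subgroup.mem_centralizer_iff.mp hg _ haA
      have h2 : a * (g : Perm α) = g * a := congrArg Subtype.val h1
      exact Y.cent g.2 h2.symm
    · intro g hg
      rw [Subgroup.mem_centralizer_iff]
      intro h hh
      apply Subtype.ext
      show (h : Perm α) * g = g * h
      have e3 := C.hua
      have e5 : a * u * a = u := by rw [mul_assoc, e3, ← mul_assoc, C.haa, one_mul]
      have e6 : a * u * u = a := by rw [mul_assoc, C.huu, mul_one]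
      have e7 : u * (a * u) = a := by rw [← mul_assoc, e3, e6]
      have e4 : a * (a * u) = u := by rw [← mul_assoc, C.haa, one_mul]
      have hg' : (g : Perm α) = 1 ∨ (g : Perm α) = a ∨ (g : Perm α) = u ∨ (g : Perm α) = a * u := hg
      have hh' : (h : Perm α) = 1 ∨ (h : Perm α) = a ∨ (h : Perm α) = u ∨ (h : Perm α) = a * u := hh
      rcases hg' with hg' | hg' | hg' | hg' <;> rcases hh' with hh' | hh' | hh' | hh' <;>
        rw [hg', hh'] <;> simp [e3, e4, e5, e6, e7]
  have hmax := Cfsg.Agent.S0112.result (X := S) (p := 2) k Y.card (C.V.subgroupOf S) hA hC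
  obtain ⟨K, hKc, hKi⟩ := Cfsg.Agent.S0113.result (X := S) k hk Y.card hmax
  obtain ⟨x', hx'⟩ := hKc.exists_generator
  set x : Perm α := ((x' : S) : Perm α) with hx
  have hmem : ∀ g : S, g ∈ K ↔ (g : Perm α) ∈ Subgroup.zpowers x := by
    intro g
    constructor
    · intro hg
      obtain ⟨i, hi⟩ := Subgroup.mem_zpowers_iff.mp (hx' ⟨g, hg⟩)
      rw [Subgroup.mem_zpowers_iff]
      refine ⟨i, ?_⟩
      have := congrArg (fun z : K => ((z : S) : Perm α)) hi
      exact this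
    · intro hg
      obtain ⟨i, hi⟩ := Subgroup.mem_zpowers_iff.mp hg
      have h1 : ((x' ^ i : K) : S) = g := Subtype.ext hi
      rw [← h1]; exact (x' ^ i).2
  have hcardK : Nat.card K = 2 ^ (k - 1) := by
    have h1 := K.card_mul_index
    rw [hKi, Y.card] at h1
    have h2 : 2 ^ k = 2 ^ (k - 1) * 2 := by
      rw [← pow_succ]; congr 1; omega
    rw [h2] at h1
    exact Nat.eq_of_mul_eq_mul_right (by norm_num) h1
  have hord : orderOf x = 2 ^ (k - 1) := by
    have h1 : orderOf x' = Nat.card K := orderOf_eq_card_of_forall_mem_zpowers hx'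
    rw [← hcardK, ← h1, hx, Subgroup.orderOf_coe, Subgroup.orderOf_coe]
  have hKn : K.Normal := Subgroup.normal_of_index_eq_two hKi
  have hconj : ∀ g ∈ S, g * x * g⁻¹ ∈ Subgroup.zpowers x := by
    intro g hg
    have h1 : (⟨g, hg⟩ : S) * x' * (⟨g, hg⟩ : S)⁻¹ ∈ K := hKn.conj_mem x' x'.2 ⟨g, hg⟩
    exact (hmem _).mp h1
  -- elements of `V` are killed by `2`
  have hV2 : ∀ g ∈ C.V, g * g = 1 := by
    have e3 := C.hua
    have e5 : a * u * a = u := by rw [mul_assoc, e3, ← mul_assoc, C.haa, one_mul]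
    rintro g (rfl | rfl | rfl | rfl)
    · simp
    · exact C.haa
    · exact C.huu
    · rw [← mul_assoc, e5, C.huu]
  have haK : a ∉ Subgroup.zpowers x := by
    intro ha
    have h1 : x ∈ C.V := by
      apply Y.cent (x' : S).2
      obtain ⟨i, hi⟩ := Subgroup.mem_zpowers_iff.mp ha
      rw [← hi]
      exact (Commute.self_zpow x i).eq
    have h2 := hV2 x h1
    have h3 : orderOf x ∣ 2 := orderOf_dvd_of_pow_eq_one (by rw [pow_two, h2])
    rw [hord] at h3
    have h4 : 2 ^ 2 ∣ 2 ^ (k - 1) := pow_dvd_pow 2 (by omega)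
    have h5 := Nat.le_of_dvd (by norm_num) (h4.trans h3)
    norm_num at h5
  have hdich : ∀ g ∈ S, g ∈ Subgroup.zpowers x ∨ g * a ∈ Subgroup.zpowers x := by
    intro g hg
    have h1 := Subgroup.mul_mem_iff_of_index_two hKi (a := ⟨g, hg⟩) (b := ⟨a, Y.aS⟩)
    by_cases h2 : (⟨g, hg⟩ : S) ∈ K
    · exact Or.inl ((hmem _).mp h2)
    · right
      have h3 : (⟨a, Y.aS⟩ : S) ∉ K := fun h => haK ((hmem _).mp h)
      exact (hmem _).mp (h1.mpr (iff_of_false h2 h3))
  refine ⟨x, (x' : S).2, hord, haK, hdich, hconj, ?_⟩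
  -- the involution of `⟨x⟩`
  set z : Perm α := x ^ 2 ^ (k - 2) with hz
  have hzS : z ∈ S := pow_mem (x' : S).2 _
  have hzz : z * z = 1 := by
    rw [hz, ← pow_two, ← pow_mul, ← pow_succ, show k - 2 + 1 = k - 1 by omega, ← hord,
      pow_orderOf_eq_one]
  have hz1 : z ≠ 1 := by
    intro h
    have h1 := orderOf_dvd_of_pow_eq_one h
    rw [hord, Nat.pow_dvd_pow_iff_le_right (by norm_num)] at h1
    omega
  have hzX0 : z ∈ C.X0 := by
    have h1 : z = x ^ 2 ^ (k - 3) * x ^ 2 ^ (k - 3) := by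
      rw [← pow_two, ← pow_mul, ← pow_succ, show k - 3 + 1 = k - 2 by omega]
    rw [h1]
    exact C.sq_mem_X0 (pow_mem (Y.SX (x' : S).2) _)
  have hza : z * a = a * z := by
    obtain ⟨i, hi⟩ := Subgroup.mem_zpowers_iff.mp (hconj a Y.aS)
    have h1 : a * z * a⁻¹ = z ^ i := by
      rw [hz, ← conj_pow, ← hi, ← zpow_natCast, ← zpow_natCast, ← zpow_mul, ← zpow_mul, mul_comm]
    rcases Int.even_or_odd' i with ⟨c, rfl | rfl⟩
    · exfalso
      rw [zpow_mul, zpow_two, hzz, one_zpow, conj_eq_one_iff] at h1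
      exact hz1 h1
    · rw [zpow_add, zpow_mul, zpow_two, hzz, one_zpow, one_mul, zpow_one] at h1
      calc z * a = (a * z * a⁻¹) * a := by rw [h1]
        _ = a * z := by group
  rcases Y.cent hzS hza with h | h | h | h
  · exact absurd h hz1
  · exact absurd (h ▸ hzX0) C.a_notMem_X0
  · exact h
  · exfalso
    rw [h] at hzX0
    apply C.a_notMem_X0
    have := mul_mem hzX0 (inv_mem C.u_mem_X0)
    rwa [mul_inv_cancel_right] at this

/-- Either `u` is the only involution of `S ∩ X0`, or `S` is dihedral. -/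
theorem dichotomy (Y : Syl C S k m) :
    (∀ t ∈ S, t ∈ C.X0 → t * t = 1 → t = 1 ∨ t = u) ∨
    ∃ x ∈ S, orderOf x = 2 ^ (k - 1) ∧ a ∉ Subgroup.zpowers x ∧
      (∀ g ∈ S, g ∈ Subgroup.zpowers x ∨ g * a ∈ Subgroup.zpowers x) ∧ a * x * a⁻¹ = x⁻¹ := by
  obtain ⟨x, hxS, hord, haK, hdich, hconj, hxu⟩ := Y.exists_cyclic
  have hk := Y.k_ge
  by_cases hno : ∀ t ∈ S, t ∈ C.X0 → t * t = 1 → t = 1 ∨ t = u
  · exact Or.inl hno
  right
  refine ⟨x, hxS, hord, haK, hdich, ?_⟩
  push Not at hno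
  obtain ⟨t, htS, htX, htt, ht1, htu⟩ := hno
  -- `t` is not in `⟨x⟩`
  have htx : t ∉ Subgroup.zpowers x := by
    intro h
    rw [← mem_powers_iff_mem_zpowers] at h
    obtain ⟨i, rfl⟩ := h
    have htt' : x ^ i * x ^ i = 1 := htt
    rw [← pow_add, ← two_mul] at htt'
    have h1 := orderOf_dvd_of_pow_eq_one htt'
    rw [hord, show k - 1 = k - 2 + 1 by omega, pow_succ, mul_comm] at h1
    have h2 : 2 ^ (k - 2) ∣ i := Nat.dvd_of_mul_dvd_mul_left (by norm_num) h1
    obtain ⟨j, rfl⟩ := h2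
    have h3 : x ^ (2 ^ (k - 2) * j) = u ^ j := by rw [pow_mul, hxu]
    rcases Nat.even_or_odd' j with ⟨c, rfl | rfl⟩
    · apply ht1
      show x ^ (2 ^ (k - 2) * (2 * c)) = 1
      rw [h3, pow_mul, pow_two, C.huu, one_pow]
    · apply htu
      show x ^ (2 ^ (k - 2) * (2 * c + 1)) = u
      rw [h3, pow_succ, pow_mul, pow_two, C.huu, one_pow, one_mul]
  have h1 := (hdich t htS).resolve_left htx
  rw [← mem_powers_iff_mem_zpowers] at h1
  obtain ⟨i, hi⟩ := h1
  have hi' : x ^ i = t * a := hi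
  have hai : a⁻¹ = a := inv_eq_of_mul_eq_one_right C.haa
  have hodd : Odd i := by
    rw [← Nat.not_even_iff_odd]
    rintro ⟨j, rfl⟩
    apply C.a_notMem_X0
    have h2 : x ^ (j + j) ∈ C.X0 := by
      rw [pow_add]
      exact C.sq_mem_X0 (pow_mem (Y.SX hxS) j)
    rw [hi'] at h2
    have := mul_mem (inv_mem htX) h2
    rwa [inv_mul_cancel_left] at this
  have h3 : a * x ^ i * a⁻¹ = (x ^ i)⁻¹ := by
    rw [hi', mul_inv_rev, hai]
    have : t⁻¹ = t := inv_eq_of_mul_eq_one_right htt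
    rw [this, mul_assoc, mul_assoc, C.haa, mul_one]
  -- `x` is a power of `x^i`
  have hcop : Nat.Coprime i (orderOf x) := by
    rw [hord]
    exact Nat.Coprime.pow_right _ ((Nat.coprime_two_right).mpr hodd)
  obtain ⟨j, hj⟩ : ∃ j : ℕ, (x ^ i) ^ j = x := exists_pow_eq_self_of_coprime hcop
  calc a * x * a⁻¹ = a * (x ^ i) ^ j * a⁻¹ := by rw [hj]
    _ = (a * x ^ i * a⁻¹) ^ j := by rw [conj_pow]
    _ = ((x ^ i)⁻¹) ^ j := by rw [h3]
    _ = x⁻¹ := by rw [inv_pow, hj]

end Syl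

end Cfsg.Agent.H544.HallB.Ctx
end

-- part: H544/HallE
section
/-!
# M. Hall's theorem on 4-transitive groups with four-point stabilizers of odd order

Part E: the Sylow 2-subgroup is not dihedral.
-/

set_option autoImplicit false

namespace Cfsg.Agent.H544.HallB.Ctx

open Equiv Equiv.Perm MulAction Cfsg.Agent.H544.MillerC Cfsg.Agent.H544.HallA
  Cfsg.Agent.H544.HallB Cfsg.Agent.H544.HallC

variable {α : Type*} [Fintype α] [DecidableEq α]
variable {G : Subgroup (Perm α)} {a u : Perm α} {p r : α}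

/-- An element of odd order whose square fixes a point fixes the point. -/
theorem fix_of_sq {κ : Perm α} (h : Odd (orderOf κ)) {y : α} (hy : κ (κ y) = y) : κ y = y := by
  obtain ⟨c, hc⟩ := h
  have h1 : ∀ i : ℕ, (κ ^ (2 * i)) y = y := by
    intro i
    induction i with
    | zero => simp
    | succ i ih =>
      rw [show 2 * (i + 1) = 2 * i + 2 by ring, pow_add, Perm.mul_apply, pow_two, Perm.mul_apply,
        hy, ih]
  have h2 : κ ^ (2 * (c + 1)) = κ := by
    rw [show 2 * (c + 1) = (2 * c + 1) + 1 by ring, ← hc, pow_succ, pow_orderOf_eq_one, one_mul]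
  calc κ y = (κ ^ (2 * (c + 1))) y := by rw [h2]
    _ = y := h1 _

/-- A normal subgroup of odd order of `C_G(a)` fixes all points moved by `a`. -/
theorem odd_normal_fix (C : Ctx G a u p r) (K : Subgroup (Perm α)) (hKG : K ≤ G)
    (hKa : ∀ κ ∈ K, κ * a = a * κ) (hKn : ∀ g ∈ G, g * a = a * g → ∀ κ ∈ K, g * κ * g⁻¹ ∈ K)
    (hKo : Odd (Nat.card K)) : ∀ κ ∈ K, ∀ y, a y ≠ y → κ y = y := by
  have hord : ∀ κ ∈ K, Odd (orderOf κ) := by
    intro κ hκ
    have h1 : orderOf (⟨κ, hκ⟩ : K) ∣ Nat.card K := orderOf_dvd_natCard _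
    rw [Subgroup.orderOf_mk] at h1
    exact Odd.of_dvd_nat hKo h1
  have hcom : ∀ κ ∈ K, ∀ x, κ (a x) = a (κ x) := by
    intro κ hκ x
    rw [← Perm.mul_apply, hKa κ hκ]; rfl
  intro κ hκ y hy
  by_contra hne
  have h1 : κ y ≠ a y := by
    intro h
    apply hne
    apply fix_of_sq (hord κ hκ)
    rw [h, hcom κ hκ, h, C.aa]
  have h2 : a (κ y) ≠ κ y := by
    rw [← hcom κ hκ]
    exact fun h => hy (κ.injective h)
  have h3 : a (a (κ y)) ≠ a (κ y) := fun h => h2 (a.injective h)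
  have h4 : a (κ y) ≠ y := by
    intro h
    apply h1
    rw [← h, C.aa, h]
  have h5 : a (κ y) ≠ a y := fun h => hne (a.injective h)
  obtain ⟨g, hg, hga, e1, e2⟩ := C.H.trans22 C.ha C.haa hy h2 hne h1 hy h3 h4 h5
  have hκ' : g * κ * g⁻¹ ∈ K := hKn g hg hga κ hκ
  have e3 : (g * κ * g⁻¹) y = a (κ y) := by
    have : g⁻¹ y = y := by rw [Perm.inv_eq_iff_eq, e1]
    rw [Perm.mul_apply, Perm.mul_apply, this, e2]
  set ν : Perm α := κ⁻¹ * (g * κ * g⁻¹) with hν
  have hνK : ν ∈ K := mul_mem (inv_mem hκ) hκ'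
  have e4 : ν y = a y := by
    rw [hν, Perm.mul_apply, e3, ← hcom κ hκ]; simp
  apply hy
  rw [← e4]
  apply fix_of_sq (hord ν hνK)
  rw [e4, hcom ν hνK, e4, C.aa]

namespace Syl

variable {C : Ctx G a u p r} {S : Subgroup (Perm α)} {k m : ℕ}

/-- The dihedral case is impossible. -/
theorem not_dihedral (Y : Syl C S k m) {x : Perm α} (hxS : x ∈ S) (hord : orderOf x = 2 ^ (k - 1))
    (haK : a ∉ Subgroup.zpowers x) (hax : a * x * a⁻¹ = x⁻¹) : False := by
  have hk := Y.k_ge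
  have hSG : S ≤ G := fun g hg => (Y.SX hg).1
  have hfact : Fact (Nat.Prime 2) := ⟨Nat.prime_two⟩
  obtain ⟨m', hm', hGX⟩ := C.exists_odd_G
  -- the Sylow subgroup of `G`
  have hcardSG : Nat.card (S.subgroupOf G) = 2 ^ k := by
    rw [Nat.card_congr (Subgroup.subgroupOfEquivOfLe hSG).toEquiv, Y.card]
  have hpg : IsPGroup 2 (S.subgroupOf G) := IsPGroup.of_card hcardSG
  have hidx : ¬ 2 ∣ (S.subgroupOf G).index := by
    have h1 := (S.subgroupOf G).card_mul_index
    rw [hcardSG, hGX, Y.cardX] at h1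
    have h2 : (S.subgroupOf G).index = m' * m := by
      have : 2 ^ k * (S.subgroupOf G).index = 2 ^ k * (m' * m) := by rw [h1]; ring
      exact Nat.eq_of_mul_eq_mul_left (by positivity) this
    rw [h2]
    have h3 : Odd (m' * m) := Nat.odd_mul.mpr ⟨hm', Y.odd⟩
    rw [← even_iff_two_dvd, Nat.not_even_iff_odd]
    exact h3
  let Q : Sylow 2 G := hpg.toSylow hidx
  have hQ : (Q : Subgroup G) = S.subgroupOf G := rfl
  have hiso : Nonempty ((Q : Subgroup G) ≃* DihedralGroup (2 ^ (k - 1))) := by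
    have hai : a⁻¹ = a := inv_eq_of_mul_eq_one_right C.haa
    rw [hQ]
    apply Cfsg.Agent.Lib.Dihedral.nonempty_mulEquiv (by positivity)
      (r := (⟨⟨x, hSG hxS⟩, Subgroup.mem_subgroupOf.mpr hxS⟩ : S.subgroupOf G))
      (s := (⟨⟨a, C.ha⟩, Subgroup.mem_subgroupOf.mpr Y.aS⟩ : S.subgroupOf G))
    · rw [← Subgroup.orderOf_coe, ← Subgroup.orderOf_coe]
      exact hord
    · apply Subtype.ext; apply Subtype.ext; exact C.haa
    · apply Subtype.ext; apply Subtype.ext
      show a * x * a = x⁻¹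
      rw [← hax, hai]
    · intro h
      apply haK
      obtain ⟨i, hi⟩ := Subgroup.mem_zpowers_iff.mp h
      rw [Subgroup.mem_zpowers_iff]
      exact ⟨i, congrArg (fun z : S.subgroupOf G => ((z : G) : Perm α)) hi⟩
    · rw [hcardSG, ← pow_succ']; congr 1; omega
  have ho : orderOf (⟨a, C.ha⟩ : G) = 2 := by
    rw [Subgroup.orderOf_mk]
    exact orderOf_eq_prime (by rw [pow_two, C.haa]) C.ha1
  have h2k : 2 ≤ 2 ^ (k - 1) := by
    calc 2 = 2 ^ 1 := by norm_num
      _ ≤ 2 ^ (k - 1) := Nat.pow_le_pow_right (by norm_num) (by omega)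
  obtain ⟨N, hN, hNo, j, hj⟩ := Cfsg.Agent.S0514.result Q (2 ^ (k - 1)) h2k hiso ⟨a, C.ha⟩ ho
  -- transport to permutations
  let φ : Subgroup.centralizer ({(⟨a, C.ha⟩ : G)} : Set G) →* Perm α :=
    G.subtype.comp (Subgroup.subtype _)
  have hφ : Function.Injective φ := by
    intro g h e
    exact Subtype.ext (Subtype.ext e)
  have hrange : ∀ g, g ∈ φ.range ↔ g ∈ G ∧ g * a = a * g := by
    intro g
    constructor
    · rintro ⟨c, rfl⟩
      refine ⟨c.1.2, ?_⟩
      have h1 := Subgroup.mem_centralizer_iff.mp c.2 ⟨a, C.ha⟩ rfl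
      exact (congrArg Subtype.val h1).symm
    · rintro ⟨hg, hga⟩
      refine ⟨⟨⟨g, hg⟩, ?_⟩, rfl⟩
      rw [Subgroup.mem_centralizer_iff]
      rintro _ rfl
      exact Subtype.ext hga.symm
  have hcardr : Nat.card φ.range = Nat.card N * 2 ^ j := by
    rw [← hj, N.card_mul_index]
    exact Nat.card_congr (MonoidHom.ofInjective hφ).toEquiv.symm
  have hcardN : Nat.card (N.map φ) = Nat.card N :=
    Nat.card_congr (N.equivMapOfInjective φ hφ).toEquiv.symm
  have hNr : N.map φ ≤ φ.range := by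
    rintro _ ⟨c, _, rfl⟩; exact ⟨c, rfl⟩
  have hfix := C.odd_normal_fix (N.map φ) (fun g hg => ((hrange g).mp (hNr hg)).1)
    (fun g hg => ((hrange g).mp (hNr hg)).2)
    (by
      rintro g hg hga _ ⟨c, hc, rfl⟩
      obtain ⟨d, rfl⟩ := (hrange g).mpr ⟨hg, hga⟩
      refine ⟨d * c * d⁻¹, hN.conj_mem c hc d, ?_⟩
      rw [map_mul, map_mul, map_inv])
    (by rw [hcardN]; exact hNo)
  -- `N ≤ Dr ≤ D ≤ C(a)`
  have h1 : N.map φ ≤ C.Dr := by
    intro g hg
    obtain ⟨h2, h3⟩ := (hrange g).mp (hNr hg)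
    exact ⟨⟨h2, h3, hfix g hg p C.hp⟩, hfix g hg r C.hr⟩
  have h2 : C.D ≤ φ.range := by
    intro g hg
    exact (hrange g).mpr ⟨hg.1, hg.2.1⟩
  have h3 := Subgroup.card_dvd_of_le h1
  have h4 := Subgroup.card_dvd_of_le h2
  rw [hcardr, C.card_D] at h4
  rw [hcardN] at h3
  obtain ⟨e, he⟩ := h3
  rw [he] at h4
  have h5 : Nat.card N * (e * (a.support.card - 2)) ∣ Nat.card N * 2 ^ j := by
    have : (a.support.card - 2) * (Nat.card N * e) = Nat.card N * (e * (a.support.card - 2)) := by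
      ring
    rwa [this] at h4
  have h6 : e * (a.support.card - 2) ∣ 2 ^ j := Nat.dvd_of_mul_dvd_mul_left Nat.card_pos h5
  have h7 : (a.support.card - 2) ∣ 2 ^ j := (Dvd.intro_left e rfl).trans h6
  obtain ⟨i, _, hi⟩ := (Nat.dvd_prime_pow Nat.prime_two).mp h7
  have h8 := C.mod_four
  have h9 := six_le C.H C.h8 C.ha C.ha1
  have h10 : i ≤ 1 := by
    by_contra hlt
    push Not at hlt
    have : 2 ^ 2 ∣ 2 ^ i := pow_dvd_pow 2 hlt
    rw [← hi] at this
    omega
  have h11 : 2 ^ i ≤ 2 ^ 1 := Nat.pow_le_pow_right (by norm_num) h10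
  omega

/-- Hence `u` is the only involution of `S ∩ X0`. -/
theorem unique_inv (Y : Syl C S k m) : ∀ t ∈ S, t ∈ C.X0 → t * t = 1 → t = 1 ∨ t = u := by
  rcases Y.dichotomy with h | ⟨x, h1, h2, h3, _, h5⟩
  · exact h
  · exact (Y.not_dihedral h1 h2 h3 h5).elim

end Syl

end Cfsg.Agent.H544.HallB.Ctx
end

-- part: H544/HallF
section
/-!
# M. Hall's theorem on 4-transitive groups with four-point stabilizers of odd order

Part F: the degree.
-/

set_option autoImplicit false

namespace Cfsg.Agent.H544.HallB.Ctx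

open Equiv Equiv.Perm MulAction Cfsg.Agent.H544.MillerC Cfsg.Agent.H544.HallA
  Cfsg.Agent.H544.HallB Cfsg.Agent.H544.HallC

variable {α : Type*} [Fintype α] [DecidableEq α]
variable {G : Subgroup (Perm α)} {a u : Perm α} {p r : α}

theorem odd_of_mem {K : Subgroup (Perm α)} (hK : Odd (Nat.card K)) {κ : Perm α} (hκ : κ ∈ K) :
    Odd (orderOf κ) := by
  have h1 : orderOf (⟨κ, hκ⟩ : K) ∣ Nat.card K := orderOf_dvd_natCard _
  rw [Subgroup.orderOf_mk] at h1
  exact Odd.of_dvd_nat hK h1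

/-- The conclusion of the Z*-theorem, in a subgroup `L` of the symmetric group. -/
theorem zstar (L S : Subgroup (Perm α)) (hSL : S ≤ L) {k m : ℕ} (hS : Nat.card S = 2 ^ k)
    (hL : Nat.card L = m * 2 ^ k) (hm : Odd m) {u : Perm α} (huS : u ∈ S) (huu : u * u = 1)
    (hu1 : u ≠ 1) (hiso : ∀ g ∈ L, g * u * g⁻¹ ∈ S → g * u * g⁻¹ = u) :
    ∃ N : Subgroup (Perm α), N ≤ L ∧ Odd (Nat.card N) ∧ (∀ g ∈ L, ∀ ν ∈ N, g * ν * g⁻¹ ∈ N) ∧
      ∀ g ∈ L, u * g * u⁻¹ * g⁻¹ ∈ N := by
  have hfact : Fact (Nat.Prime 2) := ⟨Nat.prime_two⟩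
  have hcard : Nat.card (S.subgroupOf L) = 2 ^ k := by
    rw [Nat.card_congr (Subgroup.subgroupOfEquivOfLe hSL).toEquiv, hS]
  have hpg : IsPGroup 2 (S.subgroupOf L) := IsPGroup.of_card hcard
  have hidx : ¬ 2 ∣ (S.subgroupOf L).index := by
    have h1 := (S.subgroupOf L).card_mul_index
    rw [hcard, hL] at h1
    have h2 : (S.subgroupOf L).index = m := by
      have : 2 ^ k * (S.subgroupOf L).index = 2 ^ k * m := by rw [h1]; ring
      exact Nat.eq_of_mul_eq_mul_left (by positivity) this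
    rw [h2, ← even_iff_two_dvd, Nat.not_even_iff_odd]
    exact hm
  let Q : Sylow 2 L := hpg.toSylow hidx
  have ho : orderOf (⟨u, hSL huS⟩ : L) = 2 := by
    rw [Subgroup.orderOf_mk]
    exact orderOf_eq_prime (by rw [pow_two, huu]) hu1
  obtain ⟨N, hN, hNo, hNc⟩ := Cfsg.Agent.S0215.result Q ⟨u, hSL huS⟩ ho
    (show (⟨u, hSL huS⟩ : L) ∈ S.subgroupOf L from Subgroup.mem_subgroupOf.mpr huS)
    (by
      intro g hg
      apply Subtype.ext
      have h1 : (g * ⟨u, hSL huS⟩ * g⁻¹ : L) ∈ S.subgroupOf L := hg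
      exact hiso g g.2 (Subgroup.mem_subgroupOf.mp h1))
  refine ⟨N.map L.subtype, Subgroup.map_subtype_le _, ?_, ?_, ?_⟩
  · rw [Nat.card_congr (N.equivMapOfInjective _ L.subtype_injective).toEquiv.symm]
    exact hNo
  · rintro g hg _ ⟨ν, hν, rfl⟩
    exact ⟨⟨g, hg⟩ * ν * ⟨g, hg⟩⁻¹, hN.conj_mem ν hν _, rfl⟩
  · intro g hg
    exact ⟨_, hNc ⟨g, hg⟩, rfl⟩

/-- Conjugating an involution to another one, with prescribed values. -/
theorem conj4 (H : Hyp G) {s t : Perm α} (hs : s ∈ G) (hss : s * s = 1) (ht : t ∈ G)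
    (htt : t * t = 1) {p q : Fin 4 → α} (hp : D4 (p 0) (p 1) (p 2) (p 3))
    (hq : D4 (q 0) (q 1) (q 2) (q 3)) (τ : Fin 4 → Fin 4) (hap : ∀ i, s (p i) = p (τ i))
    (haq : ∀ i, t (q i) = q (τ i)) :
    ∃ g ∈ G, g * s * g⁻¹ = t ∧ ∀ i, g (p i) = q i := by
  obtain ⟨g, hg, h0, h1, h2, h3⟩ := H.elem4 hp hq
  have hgp : ∀ i, g (p i) = q i := by
    intro i; fin_cases i
    · exact h0
    · exact h1
    · exact h2
    · exact h3
  set b : Perm α := g * s * g⁻¹ with hb
  have hbb : b * b = 1 := by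
    rw [hb]
    calc g * s * g⁻¹ * (g * s * g⁻¹) = g * (s * s) * g⁻¹ := by group
      _ = 1 := by rw [hss]; group
  have hbG : b ∈ G := mul_mem (mul_mem hg hs) (inv_mem hg)
  have hginv : ∀ i, g⁻¹ (q i) = p i := by
    intro i; rw [← hgp i]; simp
  have hbq : ∀ i, b (q i) = t (q i) := by
    intro i
    rw [hb, Perm.mul_apply, Perm.mul_apply, hginv, hap, hgp, haq]
  have habq : ∀ i, (t * b) (q i) = q i := by
    intro i
    rw [Perm.mul_apply, hbq, ← Perm.mul_apply, htt]; rfl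
  have hodd : Odd (orderOf (t * b)) :=
    H.odd_elem hq (mul_mem ht hbG) (habq 0) (habq 1) (habq 2) (habq 3)
  obtain ⟨j, hj⟩ := conj_inv hbb htt hodd
  have hzG : (t * b) ^ j ∈ G := pow_mem (mul_mem ht hbG) j
  have hzq : ∀ i, ((t * b) ^ j) (q i) = q i := fun i => Function.IsFixedPt.perm_pow (habq i) j
  generalize (t * b) ^ j = z at hj hzG hzq
  refine ⟨z * g, mul_mem hzG hg, ?_, ?_⟩
  · calc (z * g) * s * (z * g)⁻¹ = z * b * z⁻¹ := by rw [hb]; group
        _ = t := hj
  · intro i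
    rw [Perm.mul_apply, hgp, hzq]

namespace Syl

variable {C : Ctx G a u p r} {S : Subgroup (Perm α)} {k m : ℕ}

theorem card_inter (Y : Syl C S k m) : Nat.card (S ⊓ C.X0 : Subgroup (Perm α)) = 2 ^ (k - 1) := by
  have hk := Y.k_ge
  have h1 : st S p = S ⊓ C.X0 := by
    ext g
    rw [mem_st, Subgroup.mem_inf, C.mem_X0]
    constructor
    · rintro ⟨h1, h2⟩
      obtain ⟨h3, ⟨e1, e2⟩ | ⟨e1, e2⟩⟩ := Y.SX h1
      · exact ⟨h1, h3, e1, e2⟩
      · exact absurd (e1.symm.trans h2) C.hp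
    · rintro ⟨h1, h2, e1, e2⟩
      exact ⟨h1, e1⟩
  have h2 := card_st S p {p, a p} (by
    intro y
    rw [Finset.mem_insert, Finset.mem_singleton]
    constructor
    · rintro (rfl | rfl)
      · exact ⟨1, one_mem _, rfl⟩
      · exact ⟨a, Y.aS, rfl⟩
    · rintro ⟨g, hg, rfl⟩
      obtain ⟨_, ⟨e1, _⟩ | ⟨e1, _⟩⟩ := Y.SX hg
      · exact Or.inl e1
      · exact Or.inr e1)
  rw [h1, Finset.card_pair C.hp.symm, Y.card, show k = k - 1 + 1 by omega, pow_succ'] at h2
  exact (Nat.eq_of_mul_eq_mul_left (by norm_num) h2).symm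

/-- The degree is not even. -/
theorem not_even (Y : Syl C S k m) : Fintype.card α ≠ a.support.card + 2 := by
  intro hn
  have hk := Y.k_ge
  have h8 := C.h8
  have heven := C.even
  have hap : p ≠ a p := C.hp.symm
  -- apply the Z*-theorem in the stabilizer of `p`
  have hcard : Nat.card (st G p) = ((Fintype.card α - 1) * m) * 2 ^ (k - 1) := by
    rw [card_G1 C.H h8 hap]
    have h1 : Nat.card (st (st G p) (a p)) = Nat.card C.X0 := rfl
    have h2 := C.card_X
    rw [Y.cardX, show 2 ^ k = 2 * 2 ^ (k - 1) by rw [← pow_succ']; congr 1; omega] at h2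
    have h3 : Nat.card C.X0 = m * 2 ^ (k - 1) := by
      have : 2 * Nat.card C.X0 = 2 * (m * 2 ^ (k - 1)) := by rw [← h2]; ring
      exact Nat.eq_of_mul_eq_mul_left (by norm_num) this
    rw [h1, h3]; ring
  have hodd : Odd ((Fintype.card α - 1) * m) := by
    rw [Nat.odd_mul]
    refine ⟨?_, Y.odd⟩
    obtain ⟨c, hc⟩ := heven
    rw [Nat.odd_iff]; omega
  have hX0 : C.X0 ≤ st G p := fun g hg => hg.1
  obtain ⟨N, hNL, hNo, hNn, hNc⟩ := zstar (st G p) (S ⊓ C.X0) (fun g hg => hX0 hg.2)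
    Y.card_inter hcard hodd ⟨Y.uS, C.u_mem_X0⟩ C.huu C.hu1 (by
      intro g hg hgu
      have h1 : (g * u * g⁻¹) * (g * u * g⁻¹) = 1 := by
        calc (g * u * g⁻¹) * (g * u * g⁻¹) = g * (u * u) * g⁻¹ := by group
          _ = 1 := by rw [C.huu]; group
      rcases Y.unique_inv _ hgu.1 hgu.2 h1 with h2 | h2
      · rw [conj_eq_one_iff] at h2
        exact absurd h2 C.hu1
      · exact h2)
  have hordN : ∀ ν ∈ N, Odd (orderOf ν) := fun ν hν => odd_of_mem hNo hν
  -- `N` is nontrivial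
  have hN1 : ∃ ν ∈ N, ν ≠ 1 := by
    by_contra hcon
    push Not at hcon
    obtain ⟨g, hg, e1, e2⟩ := elem2 C.H h8 hap C.hrp.symm
    have h1 := hcon _ (hNc g ⟨hg, e1⟩)
    have h2 : u * g = g * u := by
      rw [mul_inv_eq_one, mul_inv_eq_iff_eq_mul] at h1
      exact h1
    have h3 := congrArg (fun f : Perm α => f (a p)) h2
    simp only [Perm.mul_apply] at h3
    rw [C.uap, e2, C.ur] at h3
    exact C.hr h3
  -- the stabilizer of `a p` in `N` is trivial
  have hK1 : ∀ κ ∈ N, κ (a p) = a p → κ = 1 := by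
    intro κ hκ hκa
    by_contra hne
    obtain ⟨y, hy⟩ : ∃ y, κ y ≠ y := by
      by_contra hcon
      push Not at hcon
      exact hne (Equiv.ext hcon)
    have hκp : κ p = p := (hNL hκ).2
    have hyp : p ≠ y := fun h => hy (h ▸ hκp)
    have hya : a p ≠ y := fun h => hy (h ▸ hκa)
    have hyp' : p ≠ κ y := fun h => hyp (κ.injective (hκp.trans h))
    have hya' : a p ≠ κ y := fun h => hya (κ.injective (hκa.trans h))
    have h1 := card_st (st N (a p)) y (Finset.univ \ {p, a p}) (by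
      intro z
      rw [Finset.mem_sdiff, Finset.mem_insert, Finset.mem_singleton, not_or]
      constructor
      · rintro ⟨_, hz1, hz2⟩
        by_cases hzy : z = y
        · exact ⟨1, one_mem _, hzy.symm⟩
        · obtain ⟨g, hg, e1, e2, e3, e4⟩ := C.H.elem4 (a := p) (b := a p) (c := y) (d := κ y)
            (a' := p) (b' := a p) (c' := y) (d' := z)
            ⟨hap, hyp, hyp', hya, hya', hy.symm⟩
            ⟨hap, hyp, Ne.symm hz1, hya, Ne.symm hz2, Ne.symm hzy⟩
          refine ⟨g * κ * g⁻¹, ⟨hNn g ⟨hg, e1⟩ κ hκ, ?_⟩, ?_⟩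
          · have h2 : g⁻¹ (a p) = a p := by rw [Perm.inv_eq_iff_eq, e2]
            rw [Perm.mul_apply, Perm.mul_apply, h2, hκa, e2]
          · have h2 : g⁻¹ y = y := by rw [Perm.inv_eq_iff_eq, e3]
            rw [Perm.mul_apply, Perm.mul_apply, h2, e4]
      · rintro ⟨g, ⟨hg, hg2⟩, rfl⟩
        have hg1 : g p = p := (hNL hg).2
        refine ⟨Finset.mem_univ _, fun h => hyp ?_, fun h => hya ?_⟩
        · exact (g.injective (h.trans hg1.symm)).symm
        · exact (g.injective (h.trans hg2.symm)).symm)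
    rw [Finset.card_sdiff_of_subset (Finset.subset_univ _), Finset.card_univ,
      Finset.card_pair hap] at h1
    have h2 : Odd (Nat.card (st N (a p))) :=
      Odd.of_dvd_nat hNo (Subgroup.card_dvd_of_le (fun g hg => hg.1))
    rw [h1, Nat.odd_mul] at h2
    obtain ⟨c, hc⟩ := heven
    have h3 := h2.1
    rw [Nat.odd_iff] at h3
    omega
  obtain ⟨ν, hν, hν1⟩ := hN1
  have hνp : ν p = p := (hNL hν).2
  have hνa : ν (a p) ≠ a p := fun h => hν1 (hK1 ν hν h)
  set y := ν (a p) with hy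
  set y' := ν⁻¹ (a p) with hy'
  have hνy' : ν y' = a p := by rw [hy']; simp
  have hyy' : y ≠ y' := by
    intro h
    apply hνa
    apply fix_of_sq (hordN ν hν)
    rw [← hy, h, hνy']
  have h1 : p ≠ y := by
    intro h
    exact hap (ν.injective (hνp.trans h))
  have h2 : p ≠ y' := by
    intro h
    rw [← h, hνp] at hνy'
    exact hap hνy'
  have h3 : a p ≠ y' := by
    intro h
    apply hνa
    rw [← h] at hνy'
    exact hνy'
  obtain ⟨z, hz⟩ := exists_notMem h8 {p, a p, y, y'} (lt_of_le_of_lt Finset.card_le_four (by norm_num))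
  simp only [Finset.mem_insert, Finset.mem_singleton, not_or] at hz
  obtain ⟨g, hg, e1, e2, e3, e4⟩ := C.H.elem4 (a := p) (b := a p) (c := y) (d := y')
    (a' := p) (b' := a p) (c' := y) (d' := z) ⟨hap, h1, h2, Ne.symm hνa, h3, hyy'⟩
    ⟨hap, h1, Ne.symm hz.1, Ne.symm hνa, Ne.symm hz.2.1, Ne.symm hz.2.2.1⟩
  have h4 : ν⁻¹ * (g * ν * g⁻¹) = 1 := by
    apply hK1 _ (mul_mem (inv_mem hν) (hNn g ⟨hg, e1⟩ ν hν))
    have h5 : g⁻¹ (a p) = a p := by rw [Perm.inv_eq_iff_eq, e2]
    rw [Perm.mul_apply, Perm.mul_apply, Perm.mul_apply, h5, ← hy, e3, hy]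
    simp
  have h5 : ν * g = g * ν := by
    have h6 : ν = g * ν * g⁻¹ := inv_mul_eq_one.mp h4
    calc ν * g = (g * ν * g⁻¹) * g := by rw [← h6]
      _ = g * ν := by group
  have h6 : g y' = y' := by
    apply ν.injective
    rw [← Perm.mul_apply, h5, Perm.mul_apply, hνy', e2]
  rw [e4] at h6
  exact hz.2.2.2 h6

end Syl

end Cfsg.Agent.H544.HallB.Ctx
end

-- part: H544/HallG
section
/-!
# M. Hall's theorem on 4-transitive groups with four-point stabilizers of odd order

Part G: the degree is eleven and the order is 7920.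
-/

set_option autoImplicit false

namespace Cfsg.Agent.H544.HallB.Ctx

open Equiv Equiv.Perm MulAction Cfsg.Agent.H544.MillerC Cfsg.Agent.H544.HallA
  Cfsg.Agent.H544.HallB Cfsg.Agent.H544.HallC

variable {α : Type*} [Fintype α] [DecidableEq α]
variable {G : Subgroup (Perm α)} {a u : Perm α} {p r : α}

theorem X0_normal (C : Ctx G a u p r) {g h : Perm α} (hg : g ∈ C.X) (hh : h ∈ C.X0) :
    g * h * g⁻¹ ∈ C.X0 := by
  rw [C.mem_X0] at hh ⊢
  obtain ⟨h1, h2, h3⟩ := hh
  rcases hg with ⟨hg, ⟨e1, e2⟩ | ⟨e1, e2⟩⟩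
  · have e3 : g⁻¹ p = p := by rw [Perm.inv_eq_iff_eq, e1]
    have e4 : g⁻¹ (a p) = a p := by rw [Perm.inv_eq_iff_eq, e2]
    refine ⟨mul_mem (mul_mem hg h1) (inv_mem hg), ?_, ?_⟩
    · rw [Perm.mul_apply, Perm.mul_apply, e3, h2, e1]
    · rw [Perm.mul_apply, Perm.mul_apply, e4, h3, e2]
  · have e3 : g⁻¹ (a p) = p := by rw [Perm.inv_eq_iff_eq, e1]
    have e4 : g⁻¹ p = a p := by rw [Perm.inv_eq_iff_eq, e2]
    refine ⟨mul_mem (mul_mem hg h1) (inv_mem hg), ?_, ?_⟩
    · rw [Perm.mul_apply, Perm.mul_apply, e4, h3, e2]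
    · rw [Perm.mul_apply, Perm.mul_apply, e3, h2, e1]

/-- An odd order subgroup of `X` is contained in `X0`. -/
theorem odd_le_X0 (C : Ctx G a u p r) {ν : Perm α} (hν : ν ∈ C.X) (h : Odd (orderOf ν)) :
    ν ∈ C.X0 := by
  obtain ⟨j, hj⟩ := h
  have h1 : ν = ν ^ (j + 1) * ν ^ (j + 1) := by
    rw [← pow_add, show j + 1 + (j + 1) = (2 * j + 1) + 1 by ring, ← hj, pow_succ,
      pow_orderOf_eq_one, one_mul]
  rw [h1]
  exact C.sq_mem_X0 (pow_mem hν _)

/-- Fixed points of an involution, when there are three of them. -/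
theorem fix_three (C : Ctx G a u p r) (hn : Fintype.card α = a.support.card + 3) {t : Perm α}
    (ht : t ∈ G) (htt : t * t = 1) (ht1 : t ≠ 1) : (t.supportᶜ).card = 3 := by
  rw [Finset.card_compl, ← card_support_eq C.H C.h8 C.ha C.haa C.ha1 ht htt ht1]
  omega

theorem exists_third {t : Perm α} (h3 : (t.supportᶜ).card = 3) {x y : α} (hx : t x = x)
    (hy : t y = y) (hxy : x ≠ y) :
    ∃ e, e ≠ x ∧ e ≠ y ∧ t e = e ∧ ∀ z, t z = z → z = x ∨ z = y ∨ z = e := by
  have hmem : ∀ z, z ∈ t.supportᶜ ↔ t z = z := by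
    intro z
    rw [Finset.mem_compl, Equiv.Perm.notMem_support]
  have hsub : ({x, y} : Finset α) ⊆ t.supportᶜ := by
    intro z hz
    rw [Finset.mem_insert, Finset.mem_singleton] at hz
    rw [hmem]
    rcases hz with rfl | rfl
    · exact hx
    · exact hy
  have h1 : (t.supportᶜ \ {x, y}).card = 1 := by
    rw [Finset.card_sdiff_of_subset hsub, h3, Finset.card_pair hxy]
  obtain ⟨e, he⟩ := Finset.card_eq_one.mp h1
  have h2 : e ∈ t.supportᶜ \ {x, y} := by rw [he]; exact Finset.mem_singleton_self e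
  rw [Finset.mem_sdiff, hmem, Finset.mem_insert, Finset.mem_singleton, not_or] at h2
  refine ⟨e, h2.2.1, h2.2.2, h2.1, ?_⟩
  intro z hz
  by_cases h4 : z ∈ ({x, y} : Finset α)
  · rw [Finset.mem_insert, Finset.mem_singleton] at h4
    rcases h4 with h4 | h4
    · exact Or.inl h4
    · exact Or.inr (Or.inl h4)
  · have h5 : z ∈ t.supportᶜ \ {x, y} := Finset.mem_sdiff.mpr ⟨(hmem z).mpr hz, h4⟩
    rw [he, Finset.mem_singleton] at h5
    exact Or.inr (Or.inr h5)

/-- The fixed points of `a`, `u` and `a u`. -/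
structure Fix3 (C : Ctx G a u p r) (e f f' : α) : Prop where
  ep : e ≠ p
  eap : e ≠ a p
  er : e ≠ r
  ear : e ≠ a r
  ef : e ≠ f
  ef' : e ≠ f'
  ff' : f ≠ f'
  ue : u e = e
  ae : a e = e
  af : a f = f
  af' : a f' = f'
  uf : u f = f'
  uf' : u f' = f
  fixu : ∀ z, u z = z → z = p ∨ z = a p ∨ z = e
  fixa : ∀ z, a z = z → z = e ∨ z = f ∨ z = f'
  fixau : ∀ z, a (u z) = z → z = r ∨ z = a r ∨ z = e

theorem au_inv (C : Ctx G a u p r) : a * u * (a * u) = 1 := by
  calc a * u * (a * u) = a * (u * a) * u := by group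
    _ = (a * a) * (u * u) := by rw [C.hua]; group
    _ = 1 := by rw [C.haa, C.huu, one_mul]

theorem au1 (C : Ctx G a u p r) : a * u ≠ 1 := by
  intro h
  have h1 : (a * u) p = p := by rw [h]; rfl
  rw [Perm.mul_apply, C.up] at h1
  exact C.hp h1

theorem exists_fix3 (C : Ctx G a u p r) (hn : Fintype.card α = a.support.card + 3) :
    ∃ e f f', Fix3 C e f f' := by
  obtain ⟨e, e1, e2, e3, e4⟩ := exists_third (C.fix_three hn C.hu C.huu C.hu1) C.up C.uap C.hp.symm
  have hae : a e = e := by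
    rcases e4 (a e) (by rw [C.ua, e3]) with h | h | h
    · exact absurd (by rw [← h, C.aa]) e2
    · exact absurd (a.injective h) e1
    · exact h
  obtain ⟨t, ht⟩ : ∃ t, t ≠ e ∧ a t = t := by
    have h1 : 1 < (a.supportᶜ).card := by rw [C.fix_three hn C.ha C.haa C.ha1]; norm_num
    obtain ⟨x, hx, y, hy, hxy⟩ := Finset.one_lt_card.mp h1
    rw [Finset.mem_compl, Equiv.Perm.notMem_support] at hx hy
    by_cases hxe : x = e
    · exact ⟨y, fun h => hxy (hxe.trans h.symm), hy⟩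
    · exact ⟨x, hxe, hx⟩
  obtain ⟨hte, hat⟩ := ht
  obtain ⟨t', h1, h2, h3, h4⟩ := exists_third (C.fix_three hn C.ha C.haa C.ha1) hae hat hte.symm
  have hut : u t ≠ t := by
    intro h
    rcases e4 t h with h | h | h
    · rw [h] at hat; exact C.hp hat
    · rw [h, C.aa] at hat; exact C.hp hat.symm
    · exact hte h
  have hut2 : u t = t' := by
    rcases h4 (u t) (by rw [← C.ua, hat]) with h | h | h
    · exfalso
      apply hte
      rw [← C.uu t, h, e3]
    · exact absurd h hut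
    · exact h
  have hr' : (a * u) r = r := by rw [Perm.mul_apply, C.ur, C.aa]
  have har' : (a * u) (a r) = a r := by rw [Perm.mul_apply, C.uar]
  have her : e ≠ r := by
    rintro rfl; exact C.hr hae
  have hear : e ≠ a r := by
    intro h
    rw [h, C.aa] at hae
    exact C.hr hae.symm
  obtain ⟨e', g1, g2, g3, g4⟩ := exists_third
    (C.fix_three hn (mul_mem C.ha C.hu) C.au_inv C.au1) hr' har' C.hr.symm
  have hee' : e = e' := by
    rcases g4 e (by rw [Perm.mul_apply, e3, hae]) with h | h | h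
    · exact absurd h her
    · exact absurd h hear
    · exact h
  refine ⟨e, t, t', ?_⟩
  exact
    { ep := e1
      eap := e2
      er := her
      ear := hear
      ef := hte.symm
      ef' := h1.symm
      ff' := h2.symm
      ue := e3
      ae := hae
      af := hat
      af' := h3
      uf := hut2
      uf' := by rw [← hut2, C.uu]
      fixu := e4
      fixa := h4
      fixau := by
        intro z hz
        rw [hee']
        exact g4 z (by rw [Perm.mul_apply, hz]) }

/-- The normal subgroup `N` of odd order. -/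
structure Nor (C : Ctx G a u p r) (N : Subgroup (Perm α)) : Prop where
  le : N ≤ C.X0
  odd : Odd (Nat.card N)
  nor : ∀ g ∈ C.X, ∀ ν ∈ N, g * ν * g⁻¹ ∈ N
  com : ∀ g ∈ C.X, u * g * u⁻¹ * g⁻¹ ∈ N

theorem Syl.exists_nor {C : Ctx G a u p r} {S : Subgroup (Perm α)} {k m : ℕ} (Y : Syl C S k m) :
    ∃ N, Nor C N := by
  obtain ⟨N, hNL, hNo, hNn, hNc⟩ := zstar C.X S Y.SX Y.card Y.cardX Y.odd Y.uS C.huu C.hu1 (by
      intro g hg hgu
      have h1 : (g * u * g⁻¹) * (g * u * g⁻¹) = 1 := by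
        calc (g * u * g⁻¹) * (g * u * g⁻¹) = g * (u * u) * g⁻¹ := by group
          _ = 1 := by rw [C.huu]; group
      rcases Y.unique_inv _ hgu (C.X0_normal hg C.u_mem_X0) h1 with h2 | h2
      · rw [conj_eq_one_iff] at h2
        exact absurd h2 C.hu1
      · exact h2)
  exact ⟨N, fun ν hν => C.odd_le_X0 (hNL hν) (odd_of_mem hNo hν), hNo, hNn, hNc⟩

namespace Nor

variable {C : Ctx G a u p r} {N : Subgroup (Perm α)}

theorem ne_one (Z : Nor C N) : ∃ ν ∈ N, ∃ y, ν y ≠ y := by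
  by_contra hcon
  push Not at hcon
  have hcon' : ∀ ν ∈ N, ν = 1 := fun ν hν => Equiv.ext (hcon ν hν)
  -- `u` commutes with `X0`
  obtain ⟨w, hw⟩ := exists_notMem C.h8 {p, a p, r, a r}
    (lt_of_le_of_lt Finset.card_le_four (by norm_num))
  simp only [Finset.mem_insert, Finset.mem_singleton, not_or] at hw
  obtain ⟨d1, d2, d3, d4, d5, d6⟩ := C.d4
  obtain ⟨g, hg, e1, e2, e3, e4⟩ := C.H.elem4 (a := p) (b := a p) (c := r) (d := a r)
    (a' := p) (b' := a p) (c' := r) (d' := w) ⟨d1, d2, d3, d4, d5, d6⟩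
    ⟨d1, d2, Ne.symm hw.1, d4, Ne.symm hw.2.1, Ne.symm hw.2.2.1⟩
  have h1 := hcon' _ (Z.com g ⟨hg, Or.inl ⟨e1, e2⟩⟩)
  have h2 : u * g = g * u := by
    rw [mul_inv_eq_one, mul_inv_eq_iff_eq_mul] at h1
    exact h1
  have h3 := congrArg (fun f : Perm α => f r) h2
  simp only [Perm.mul_apply] at h3
  rw [e3, C.ur, e4] at h3
  exact hw.2.2.2 h3.symm

theorem trans (Z : Nor C N) {y z : α} (hy1 : y ≠ p) (hy2 : y ≠ a p) (hz1 : z ≠ p)
    (hz2 : z ≠ a p) : ∃ ν ∈ N, ν y = z := by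
  by_cases hyz : z = y
  · exact ⟨1, one_mem _, hyz.symm⟩
  obtain ⟨ν, hν, x, hx⟩ := Z.ne_one
  have h1 := C.mem_X0.mp (Z.le hν)
  have hxp : x ≠ p := by rintro rfl; exact hx h1.2.1
  have hxap : x ≠ a p := by rintro rfl; exact hx h1.2.2
  have hxp' : ν x ≠ p := by
    intro h; apply hxp; apply ν.injective; rw [h, h1.2.1]
  have hxap' : ν x ≠ a p := by
    intro h; apply hxap; apply ν.injective; rw [h, h1.2.2]
  obtain ⟨g, hg, e1, e2, e3, e4⟩ := C.H.elem4 (a := p) (b := a p) (c := x) (d := ν x)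
    (a' := p) (b' := a p) (c' := y) (d' := z)
    ⟨C.hp.symm, hxp.symm, hxp'.symm, hxap.symm, hxap'.symm, hx.symm⟩
    ⟨C.hp.symm, hy1.symm, hz1.symm, hy2.symm, hz2.symm, Ne.symm hyz⟩
  refine ⟨g * ν * g⁻¹, Z.nor g ⟨hg, Or.inl ⟨e1, e2⟩⟩ ν hν, ?_⟩
  have h2 : g⁻¹ y = x := by rw [Perm.inv_eq_iff_eq, e3]
  rw [Perm.mul_apply, Perm.mul_apply, h2, e4]

/-- Glauberman's argument. -/
theorem glaub (Z : Nor C N) {t : Perm α} (ht : t ∈ C.X) (htt : t * t = 1) {y z : α}
    (hy1 : y ≠ p) (hy2 : y ≠ a p) (hz1 : z ≠ p) (hz2 : z ≠ a p) (hy : t y = y) (hz : t z = z) :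
    ∃ ν ∈ N, ν * t = t * ν ∧ ν y = z := by
  obtain ⟨g, hg, hgy⟩ := Z.trans hy1 hy2 hz1 hz2
  set b : Perm α := g * t * g⁻¹ with hb
  have hbb : b * b = 1 := by
    rw [hb]
    calc g * t * g⁻¹ * (g * t * g⁻¹) = g * (t * t) * g⁻¹ := by group
      _ = 1 := by rw [htt]; group
  have hti : t⁻¹ = t := inv_eq_of_mul_eq_one_right htt
  have htb : t * b ∈ N := by
    have h1 : t * b = (t * g * t⁻¹) * g⁻¹ := by rw [hb, hti]; group
    rw [h1]
    exact mul_mem (Z.nor t ht g hg) (inv_mem hg)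
  obtain ⟨j, hj⟩ := conj_inv hbb htt (odd_of_mem Z.odd htb)
  have hbz : b z = z := by
    have h2 : g⁻¹ z = y := by rw [Perm.inv_eq_iff_eq, hgy]
    rw [hb, Perm.mul_apply, Perm.mul_apply, h2, hy, hgy]
  have htbz : (t * b) z = z := by rw [Perm.mul_apply, hbz, hz]
  have hzz : ((t * b) ^ j) z = z := Function.IsFixedPt.perm_pow htbz j
  have hzN : (t * b) ^ j ∈ N := pow_mem htb j
  generalize (t * b) ^ j = c at hj hzz hzN
  refine ⟨c * g, mul_mem hzN hg, ?_, ?_⟩
  · have h4 : (c * g) * t * (c * g)⁻¹ = t := by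
      calc (c * g) * t * (c * g)⁻¹ = c * b * c⁻¹ := by rw [hb]; group
        _ = t := hj
    calc c * g * t = (c * g) * t * (c * g)⁻¹ * (c * g) := by group
      _ = t * (c * g) := by rw [h4]
  · rw [Perm.mul_apply, hgy, hzz]

theorem mem_inf_cent {K : Subgroup (Perm α)} {t g : Perm α} :
    g ∈ K ⊓ Subgroup.centralizer {t} ↔ g ∈ K ∧ g * t = t * g := by
  rw [Subgroup.mem_inf, Subgroup.mem_centralizer_singleton_iff]

/-- The degree is eleven. -/
theorem degree (Z : Nor C N) (hn : Fintype.card α = a.support.card + 3) {e f f' : α}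
    (F : Fix3 C e f f') : Fintype.card α = 11 := by
  have h8 := C.h8
  have hNfix : ∀ ν ∈ N, ν p = p ∧ ν (a p) = a p := fun ν hν => (C.mem_X0.mp (Z.le hν)).2
  have h1 := card_st N e (Finset.univ \ {p, a p}) (by
    intro z
    rw [Finset.mem_sdiff, Finset.mem_insert, Finset.mem_singleton, not_or]
    constructor
    · rintro ⟨_, hz1, hz2⟩
      exact Z.trans F.ep F.eap hz1 hz2
    · rintro ⟨g, hg, rfl⟩
      obtain ⟨g1, g2⟩ := hNfix g hg
      refine ⟨Finset.mem_univ _, fun h => F.ep ?_, fun h => F.eap ?_⟩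
      · exact g.injective (h.trans g1.symm)
      · exact g.injective (h.trans g2.symm))
  rw [Finset.card_sdiff_of_subset (Finset.subset_univ _), Finset.card_univ,
    Finset.card_pair C.hp.symm] at h1
  have hfp : f ≠ p := by rintro rfl; exact C.hp F.af
  have hfap : f ≠ a p := by
    rintro rfl
    have := F.af
    rw [C.aa] at this
    exact C.hp this.symm
  have hf'p : f' ≠ p := by rintro rfl; exact C.hp F.af'
  have hf'ap : f' ≠ a p := by
    rintro rfl
    have := F.af'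
    rw [C.aa] at this
    exact C.hp this.symm
  have harp : a r ≠ p := by
    intro h; apply C.hrp2; rw [← h, C.aa]
  have harap : a r ≠ a p := fun h => C.hrp (a.injective h)
  have hauX : a * u ∈ C.X := mul_mem C.a_mem_X (C.X0_le C.u_mem_X0)
  -- the centralizer of `a` in `N`
  have h2 := card_st (N ⊓ Subgroup.centralizer {a}) e {e, f, f'} (by
    intro z
    rw [Finset.mem_insert, Finset.mem_insert, Finset.mem_singleton]
    constructor
    · intro hz
      obtain ⟨hz1, hz2, hz3⟩ : z ≠ p ∧ z ≠ a p ∧ a z = z := by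
        rcases hz with rfl | rfl | rfl
        · exact ⟨F.ep, F.eap, F.ae⟩
        · exact ⟨hfp, hfap, F.af⟩
        · exact ⟨hf'p, hf'ap, F.af'⟩
      obtain ⟨ν, hν, h3, h4⟩ := Z.glaub C.a_mem_X C.haa F.ep F.eap hz1 hz2 F.ae hz3
      exact ⟨ν, mem_inf_cent.mpr ⟨hν, h3⟩, h4⟩
    · rintro ⟨g, hg, rfl⟩
      rw [mem_inf_cent] at hg
      apply F.fixa
      rw [← Perm.mul_apply, ← hg.2, Perm.mul_apply, F.ae])
  rw [Finset.card_eq_three.mpr ⟨e, f, f', F.ef, F.ef', F.ff', rfl⟩] at h2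
  -- the centralizer of `a u` in `N`
  have h3 := card_st (N ⊓ Subgroup.centralizer {a * u}) e {r, a r, e} (by
    intro z
    rw [Finset.mem_insert, Finset.mem_insert, Finset.mem_singleton]
    constructor
    · intro hz
      obtain ⟨hz1, hz2, hz3⟩ : z ≠ p ∧ z ≠ a p ∧ (a * u) z = z := by
        rcases hz with rfl | rfl | rfl
        · exact ⟨C.hrp, C.hrp2, by rw [Perm.mul_apply, C.ur, C.aa]⟩
        · exact ⟨harp, harap, by rw [Perm.mul_apply, C.uar]⟩
        · exact ⟨F.ep, F.eap, by rw [Perm.mul_apply, F.ue, F.ae]⟩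
      obtain ⟨ν, hν, h3, h4⟩ := Z.glaub hauX C.au_inv F.ep F.eap hz1 hz2
        (by rw [Perm.mul_apply, F.ue, F.ae]) hz3
      exact ⟨ν, mem_inf_cent.mpr ⟨hν, h3⟩, h4⟩
    · rintro ⟨g, hg, rfl⟩
      rw [mem_inf_cent] at hg
      apply F.fixau
      rw [← Perm.mul_apply, ← Perm.mul_apply, ← hg.2, Perm.mul_apply, Perm.mul_apply, F.ue, F.ae])
  rw [Finset.card_eq_three.mpr ⟨r, a r, e, C.hr.symm, F.er.symm, F.ear.symm, rfl⟩] at h3
  set K := st N e with hK
  have e1 : st (N ⊓ Subgroup.centralizer {a}) e = K ⊓ Subgroup.centralizer {a} := by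
    ext g
    rw [mem_st, mem_inf_cent, mem_inf_cent, hK, mem_st]
    tauto
  have e2 : st (N ⊓ Subgroup.centralizer {a * u}) e = K ⊓ Subgroup.centralizer {a * u} := by
    ext g
    rw [mem_st, mem_inf_cent, mem_inf_cent, hK, mem_st]
    tauto
  have hfixe : ∀ g ∈ N, g * u = u * g → g e = e := by
    intro g hg hgu
    obtain ⟨g1, g2⟩ := hNfix g hg
    rcases F.fixu (g e) (by rw [← Perm.mul_apply, ← hgu, Perm.mul_apply, F.ue]) with h | h | h
    · exact absurd (g.injective (h.trans g1.symm)) F.ep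
    · exact absurd (g.injective (h.trans g2.symm)) F.eap
    · exact h
  have e3 : N ⊓ Subgroup.centralizer {u} = K ⊓ Subgroup.centralizer {u} := by
    ext g
    rw [mem_inf_cent, mem_inf_cent, hK, mem_st]
    constructor
    · rintro ⟨h4, h5⟩; exact ⟨⟨h4, hfixe g h4 h5⟩, h5⟩
    · rintro ⟨⟨h4, _⟩, h5⟩; exact ⟨h4, h5⟩
  have e4 : N ⊓ Subgroup.centralizer {a} ⊓ Subgroup.centralizer {u} =
      K ⊓ Subgroup.centralizer {a} ⊓ Subgroup.centralizer {u} := by
    ext g
    rw [mem_inf_cent, mem_inf_cent, mem_inf_cent, mem_inf_cent, hK, mem_st]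
    constructor
    · rintro ⟨⟨h4, h6⟩, h5⟩; exact ⟨⟨⟨h4, hfixe g h4 h5⟩, h6⟩, h5⟩
    · rintro ⟨⟨⟨h4, _⟩, h6⟩, h5⟩; exact ⟨⟨h4, h6⟩, h5⟩
  have hKN : K ≤ N := fun g hg => hg.1
  have hKo : Odd (Nat.card K) := Odd.of_dvd_nat Z.odd (Subgroup.card_dvd_of_le hKN)
  have huX : u ∈ C.X := C.X0_le C.u_mem_X0
  have hai : a⁻¹ = a := inv_eq_of_mul_eq_one_right C.haa
  have hui : u⁻¹ = u := inv_eq_of_mul_eq_one_right C.huu
  have k1 := Cfsg.Agent.Lib.KleinOrder.card_klein (a := a) (b := u) N Z.odd C.haa C.huu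
    C.hua.symm (fun ν hν => Z.nor a C.a_mem_X ν hν) (fun ν hν => Z.nor u huX ν hν)
  have k2 := Cfsg.Agent.Lib.KleinOrder.card_klein (a := a) (b := u) K hKo C.haa C.huu
    C.hua.symm (fun ν hν => ⟨Z.nor a C.a_mem_X ν hν.1, by
      rw [hai, Perm.mul_apply, Perm.mul_apply, F.ae, hν.2, F.ae]⟩)
    (fun ν hν => ⟨Z.nor u huX ν hν.1, by
      rw [hui, Perm.mul_apply, Perm.mul_apply, F.ue, hν.2, F.ue]⟩)
  rw [e4, e3, h2, h3, e1, e2] at k1
  set A := Nat.card (K ⊓ Subgroup.centralizer {a} : Subgroup (Perm α))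
  set B := Nat.card (K ⊓ Subgroup.centralizer {u} : Subgroup (Perm α))
  set D := Nat.card (K ⊓ Subgroup.centralizer {a * u} : Subgroup (Perm α))
  have hE : 0 < Nat.card (K ⊓ Subgroup.centralizer {a} ⊓ Subgroup.centralizer {u} :
      Subgroup (Perm α)) := Nat.card_pos
  set E := Nat.card (K ⊓ Subgroup.centralizer {a} ⊓ Subgroup.centralizer {u} : Subgroup (Perm α))
  have hNK : Nat.card N = 9 * Nat.card K := by
    have : Nat.card N * E ^ 2 = 9 * Nat.card K * E ^ 2 := by
      rw [k1, mul_assoc 9, k2]; ring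
    exact Nat.eq_of_mul_eq_mul_right (by positivity) this
  rw [hNK] at h1
  have hKpos : 0 < Nat.card K := Nat.card_pos
  have h9 : 9 = Fintype.card α - 2 := Nat.eq_of_mul_eq_mul_right hKpos h1
  omega

end Nor

theorem Dr_trivial (C : Ctx G a u p r) (hn : Fintype.card α = 11) (hs : a.support.card = 8)
    {h : Perm α} (hh : h ∈ C.Dr) : h = 1 := by
  by_contra hne
  have h6 := six_le C.H C.h8 hh.1.1 hne
  have hp : h p = p := hh.1.2.2
  have hap : h (a p) = a p := C.D_ap hh.1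
  have hr : h r = r := hh.2
  have har : h (a r) = a r := by rw [C.D_comm hh.1, hr]
  obtain ⟨d1, d2, d3, d4, d5, d6⟩ := C.d4
  have hcom : ∀ x, h (a x) = a (h x) := C.D_comm hh.1
  have hodd : Odd (orderOf h) := odd_of_mem C.Dr_odd hh
  set W : Finset α := a.support \ {p, a p, r, a r} with hW
  have haap : a (a p) ≠ a p := fun h => C.hp (a.injective h)
  have haar : a (a r) ≠ a r := fun h => C.hr (a.injective h)
  have h4 : ({p, a p, r, a r} : Finset α).card = 4 :=
    Finset.card_eq_four.mpr ⟨p, a p, r, a r, d1, d2, d3, d4, d5, d6, rfl⟩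
  have hWc : W.card = 4 := by
    rw [hW, Finset.card_sdiff_of_subset, hs, h4]
    intro x hx
    simp only [Finset.mem_insert, Finset.mem_singleton] at hx
    rw [Equiv.Perm.mem_support]
    rcases hx with rfl | rfl | rfl | rfl
    · exact C.hp
    · exact haap
    · exact C.hr
    · exact haar
  have hmemW : ∀ x, x ∈ W ↔ a x ≠ x ∧ x ≠ p ∧ x ≠ a p ∧ x ≠ r ∧ x ≠ a r := by
    intro x
    rw [hW, Finset.mem_sdiff, Equiv.Perm.mem_support]
    simp only [Finset.mem_insert, Finset.mem_singleton, not_or]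
  have hW1 : ∀ x, h x ∈ W ↔ x ∈ W := by
    intro x
    rw [hmemW, hmemW, ← hcom, h.injective.ne_iff]
    have g1 : h x = p ↔ x = p := by
      constructor
      · intro e; apply h.injective; rw [e, hp]
      · rintro rfl; exact hp
    have g2 : h x = a p ↔ x = a p := by
      constructor
      · intro e; apply h.injective; rw [e, hap]
      · rintro rfl; exact hap
    have g3 : h x = r ↔ x = r := by
      constructor
      · intro e; apply h.injective; rw [e, hr]
      · rintro rfl; exact hr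
    have g4 : h x = a r ↔ x = a r := by
      constructor
      · intro e; apply h.injective; rw [e, har]
      · rintro rfl; exact har
    simp only [ne_eq, g1, g2, g3, g4]
  obtain ⟨z, hzW, hz⟩ : ∃ z ∈ W, h z = z := by
    set σ : Perm W := h.subtypePerm hW1 with hσ
    have h1 : orderOf σ ∣ orderOf h := by
      apply orderOf_dvd_of_pow_eq_one
      rw [hσ, Equiv.Perm.subtypePerm_pow]
      apply Equiv.ext
      intro x
      apply Subtype.ext
      rw [Equiv.Perm.subtypePerm_apply]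
      simp [pow_orderOf_eq_one]
    have h2 : orderOf σ ∣ 24 := by
      have h3 : orderOf σ ∣ Nat.card (Perm W) := orderOf_dvd_natCard σ
      rw [Nat.card_perm, Nat.card_eq_fintype_card, Fintype.card_coe, hWc] at h3
      exact h3.trans (by norm_num [Nat.factorial])
    have h3 : Odd (orderOf σ) := Odd.of_dvd_nat hodd h1
    have h4' : orderOf σ ∣ 3 := by
      have h5 : Nat.Coprime (orderOf σ) 8 := by
        rw [show 8 = 2 ^ 3 by norm_num]
        exact Nat.Coprime.pow_right 3 ((Nat.coprime_two_right).mpr h3)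
      rw [show 24 = 8 * 3 by norm_num] at h2
      exact h5.dvd_of_dvd_mul_left h2
    have hσ3 : σ ^ 3 ^ 1 = 1 := by
      rw [pow_one]
      exact orderOf_dvd_iff_pow_eq_one.mp h4'
    have : Fact (Nat.Prime 3) := ⟨Nat.prime_three⟩
    obtain ⟨z, hz⟩ := Equiv.Perm.exists_fixed_point_of_prime (p := 3) (n := 1) (by
      rw [Fintype.card_coe, hWc]; norm_num) hσ3
    exact ⟨z, z.2, congrArg Subtype.val hz⟩
  have hzW' := (hmemW z).mp hzW
  obtain ⟨g1, g2, g3, g4, g5⟩ := hzW'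
  have haz : h (a z) = a z := by rw [hcom, hz]
  have hsub : insert z (insert (a z) ({p, a p, r, a r} : Finset α)) ⊆ h.supportᶜ := by
    intro x hx
    rw [Finset.mem_compl, Equiv.Perm.notMem_support]
    simp only [Finset.mem_insert, Finset.mem_singleton] at hx
    rcases hx with rfl | rfl | rfl | rfl | rfl | rfl <;> assumption
  have haz1 : a z ≠ p := by intro h; apply g3; rw [← h, C.aa]
  have haz2 : a z ≠ a p := fun h => g2 (a.injective h)
  have haz3 : a z ≠ r := by intro h; apply g5; rw [← h, C.aa]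
  have haz4 : a z ≠ a r := fun h => g4 (a.injective h)
  have hc := Finset.card_le_card hsub
  rw [Finset.card_insert_of_notMem (by
      simp only [Finset.mem_insert, Finset.mem_singleton, not_or]
      exact ⟨g1.symm, g2, g3, g4, g5⟩), Finset.card_insert_of_notMem (by
      simp only [Finset.mem_insert, Finset.mem_singleton, not_or]
      exact ⟨haz1, haz2, haz3, haz4⟩), h4, Finset.card_compl, hn] at hc
  omega

/-- Elements commuting with `a` and fixing `p`, `e`, `f` are trivial. -/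
theorem rigid {C : Ctx G a u p r} {N : Subgroup (Perm α)} (Z : Nor C N)
    (hn : Fintype.card α = 11) (hs : a.support.card = 8) {e f f' : α} (F : Fix3 C e f f') :
    ∀ h ∈ G, h * a = a * h → h p = p → h e = e → h f = f → h = 1 := by
  have hDr : Nat.card C.Dr = 1 := by
    rw [Subgroup.card_eq_one, Subgroup.eq_bot_iff_forall]
    intro h hh
    exact C.Dr_trivial hn hs hh
  have hD := C.card_D
  rw [hDr, hs] at hD
  have hfixa : ∀ g ∈ C.D, ∀ z, a z = z → a (g z) = g z := by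
    intro g hg z hz
    rw [← C.D_comm hg, hz]
  have huD : u ∈ C.D := ⟨C.hu, C.hua, C.up⟩
  have hfp : f ≠ p := by rintro rfl; exact C.hp F.af
  have hfap : f ≠ a p := by
    rintro rfl
    have := F.af
    rw [C.aa] at this
    exact C.hp this.symm
  have hf'p : f' ≠ p := by rintro rfl; exact C.hp F.af'
  have hf'ap : f' ≠ a p := by
    rintro rfl
    have := F.af'
    rw [C.aa] at this
    exact C.hp this.symm
  have h1 := card_st C.D e {e, f, f'} (by
    intro z
    rw [Finset.mem_insert, Finset.mem_insert, Finset.mem_singleton]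
    constructor
    · intro hz
      obtain ⟨hz1, hz2, hz3⟩ : z ≠ p ∧ z ≠ a p ∧ a z = z := by
        rcases hz with rfl | rfl | rfl
        · exact ⟨F.ep, F.eap, F.ae⟩
        · exact ⟨hfp, hfap, F.af⟩
        · exact ⟨hf'p, hf'ap, F.af'⟩
      obtain ⟨ν, hν, h3, h4⟩ := Z.glaub C.a_mem_X C.haa F.ep F.eap hz1 hz2 F.ae hz3
      have h5 := C.mem_X0.mp (Z.le hν)
      exact ⟨ν, ⟨h5.1, h3, h5.2.1⟩, h4⟩
    · rintro ⟨g, hg, rfl⟩
      exact F.fixa _ (hfixa g hg e F.ae))
  rw [Finset.card_eq_three.mpr ⟨e, f, f', F.ef, F.ef', F.ff', rfl⟩, hD] at h1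
  have h2 := card_st (st C.D e) f {f, f'} (by
    intro z
    rw [Finset.mem_insert, Finset.mem_singleton]
    constructor
    · rintro (rfl | rfl)
      · exact ⟨1, one_mem _, rfl⟩
      · exact ⟨u, ⟨huD, F.ue⟩, F.uf⟩
    · rintro ⟨g, ⟨hg, hge⟩, rfl⟩
      rcases F.fixa _ (hfixa g hg f F.af) with h | h | h
      · exact absurd (g.injective (hge.trans h.symm)) F.ef
      · exact Or.inl h
      · exact Or.inr h)
  rw [Finset.card_pair F.ff'] at h2
  have h3 : Nat.card (st (st C.D e) f) = 1 := by omega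
  rw [Subgroup.card_eq_one, Subgroup.eq_bot_iff_forall] at h3
  intro h hG hha hp he hf
  exact h3 h ⟨⟨⟨hG, hha, hp⟩, he⟩, hf⟩

/-- The order of `G`. -/
theorem order {C : Ctx G a u p r} {N : Subgroup (Perm α)} (Z : Nor C N)
    (hn : Fintype.card α = 11) (hs : a.support.card = 8) {e f f' : α} (F : Fix3 C e f f') :
    Nat.card G = 7920 := by
  have hrig := rigid Z hn hs F
  obtain ⟨d1, d2, d3, d4, d5, d6⟩ := C.d4
  have hfp : f ≠ p := by rintro rfl; exact C.hp F.af
  have hfap : f ≠ a p := by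
    rintro rfl
    have := F.af
    rw [C.aa] at this
    exact C.hp this.symm
  set L := st (st (st (st G p) (a p)) r) (a r) with hL
  have hmem : ∀ {g}, g ∈ L ↔ g ∈ G ∧ g p = p ∧ g (a p) = a p ∧ g r = r ∧ g (a r) = a r := by
    intro g
    rw [hL, mem_st, mem_st, mem_st, mem_st]
    tauto
  have hLo : Odd (Nat.card L) := odd_G4 C.H C.d4
  have hai : a⁻¹ = a := inv_eq_of_mul_eq_one_right C.haa
  have hui : u⁻¹ = u := inv_eq_of_mul_eq_one_right C.huu
  have haL : ∀ g ∈ L, a * g * a⁻¹ ∈ L := by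
    intro g hg
    rw [hmem] at hg ⊢
    obtain ⟨g1, g2, g3, g4, g5⟩ := hg
    refine ⟨mul_mem (mul_mem C.ha g1) (inv_mem C.ha), ?_, ?_, ?_, ?_⟩
    · rw [hai, Perm.mul_apply, Perm.mul_apply, g3, C.aa]
    · rw [hai, Perm.mul_apply, Perm.mul_apply, C.aa, g2]
    · rw [hai, Perm.mul_apply, Perm.mul_apply, g5, C.aa]
    · rw [hai, Perm.mul_apply, Perm.mul_apply, C.aa, g4]
  have huL : ∀ g ∈ L, u * g * u⁻¹ ∈ L := by
    intro g hg
    rw [hmem] at hg ⊢
    obtain ⟨g1, g2, g3, g4, g5⟩ := hg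
    refine ⟨mul_mem (mul_mem C.hu g1) (inv_mem C.hu), ?_, ?_, ?_, ?_⟩
    · rw [hui, Perm.mul_apply, Perm.mul_apply, C.up, g2, C.up]
    · rw [hui, Perm.mul_apply, Perm.mul_apply, C.uap, g3, C.uap]
    · rw [hui, Perm.mul_apply, Perm.mul_apply, C.ur, g5, C.uar]
    · rw [hui, Perm.mul_apply, Perm.mul_apply, C.uar, g4, C.ur]
  -- the centralizers are trivial
  have hDe : D4 e f p (a p) := ⟨F.ef, F.ep, F.eap, hfp, hfap, d1⟩
  have key : ∀ g ∈ G, ∀ t : Perm α, g * a * g⁻¹ = t → ∀ h ∈ G, h * t = t * h →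
      h (g e) = g e → h (g f) = g f → h (g p) = g p → h = 1 := by
    intro g hg t hgt h hh hht h1 h2 h3
    have h4 : g⁻¹ * h * g = 1 := by
      apply hrig _ (mul_mem (mul_mem (inv_mem hg) hh) hg)
      · calc g⁻¹ * h * g * a = g⁻¹ * (h * (g * a * g⁻¹)) * g := by group
          _ = g⁻¹ * ((g * a * g⁻¹) * h) * g := by rw [hgt, hht]
          _ = a * (g⁻¹ * h * g) := by group
      · rw [Perm.mul_apply, Perm.mul_apply, h3]; simp
      · rw [Perm.mul_apply, Perm.mul_apply, h1]; simp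
      · rw [Perm.mul_apply, Perm.mul_apply, h2]; simp
    calc h = g * (g⁻¹ * h * g) * g⁻¹ := by group
      _ = 1 := by rw [h4]; group
  have ca : Nat.card (L ⊓ Subgroup.centralizer {a} : Subgroup (Perm α)) = 1 := by
    rw [Subgroup.card_eq_one, Subgroup.eq_bot_iff_forall]
    intro h hh
    rw [Nor.mem_inf_cent, hmem] at hh
    obtain ⟨⟨g1, g2, g3, g4, g5⟩, g6⟩ := hh
    exact C.Dr_trivial hn hs ⟨⟨g1, g6, g2⟩, g4⟩
  have cu : Nat.card (L ⊓ Subgroup.centralizer {u} : Subgroup (Perm α)) = 1 := by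
    rw [Subgroup.card_eq_one, Subgroup.eq_bot_iff_forall]
    intro h hh
    rw [Nor.mem_inf_cent, hmem] at hh
    obtain ⟨⟨g1, g2, g3, g4, g5⟩, g6⟩ := hh
    obtain ⟨g, hg, hgu, hgp⟩ := conj4 C.H C.ha C.haa C.hu C.huu (p := ![e, f, p, a p])
      (q := ![p, a p, r, a r]) hDe C.d4 ![0, 1, 3, 2]
      (by intro i; fin_cases i <;> simp [C.aa, F.ae, F.af])
      (by intro i; fin_cases i <;> simp [C.up, C.uap, C.ur, C.uar])
    have k0 : g e = p := hgp 0
    have k1 : g f = a p := hgp 1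
    have k2 : g p = r := hgp 2
    exact key g hg u hgu h g1 g6 (by rw [k0, g2]) (by rw [k1, g3]) (by rw [k2, g4])
  have cau : Nat.card (L ⊓ Subgroup.centralizer {a * u} : Subgroup (Perm α)) = 1 := by
    rw [Subgroup.card_eq_one, Subgroup.eq_bot_iff_forall]
    intro h hh
    rw [Nor.mem_inf_cent, hmem] at hh
    obtain ⟨⟨g1, g2, g3, g4, g5⟩, g6⟩ := hh
    obtain ⟨g, hg, hgu, hgp⟩ := conj4 C.H C.ha C.haa (mul_mem C.ha C.hu) C.au_inv
      (p := ![e, f, p, a p]) (q := ![r, a r, p, a p]) hDe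
      ⟨d6, d2.symm, d4.symm, d3.symm, d5.symm, d1⟩ ![0, 1, 3, 2]
      (by intro i; fin_cases i <;> simp [C.aa, F.ae, F.af])
      (by intro i; fin_cases i <;> simp [C.aa, C.up, C.uap, C.ur, C.uar])
    have k0 : g e = r := hgp 0
    have k1 : g f = a r := hgp 1
    have k2 : g p = p := hgp 2
    exact key g hg (a * u) hgu h g1 g6 (by rw [k0, g4]) (by rw [k1, g5]) (by rw [k2, g2])
  have k1 := Cfsg.Agent.Lib.KleinOrder.card_klein (a := a) (b := u) L hLo C.haa C.huu
    C.hua.symm haL huL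
  rw [ca, cu, cau] at k1
  have hL1 : Nat.card L = 1 := by
    have : Nat.card L ∣ 1 := Dvd.intro _ k1
    exact Nat.dvd_one.mp this
  have c0 := card_G C.H C.h8 p
  have c1 := card_G1 C.H C.h8 (x := p) (y := a p) d1
  have c2 := card_G2 C.H C.h8 (x := p) (y := a p) (z := r) d1 d2 d4
  have c3 := card_G3 C.H C.d4
  rw [hn] at c0 c1 c2 c3
  rw [c0, c1, c2, c3, ← hL, hL1]

end Cfsg.Agent.H544.HallB.Ctx

namespace Cfsg.Agent.H544.HallB

open Equiv Equiv.Perm MulAction Cfsg.Agent.H544.MillerC Cfsg.Agent.H544.HallA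
  Cfsg.Agent.H544.HallB.Ctx

/-- Hall's theorem for degree at least eight. -/
theorem main {α : Type*} [Fintype α] [DecidableEq α] {G : Subgroup (Perm α)} (H : Hyp G)
    (h8 : 8 ≤ Fintype.card α) : Fintype.card α = 11 ∧ Nat.card G = 7920 := by
  obtain ⟨a, u, p, r, C⟩ := exists_ctx H h8
  obtain ⟨S, k, m, Y⟩ := C.exists_syl
  have hn : Fintype.card α = a.support.card + 3 := by
    have h1 := Y.not_even
    have h2 := C.card_le
    have h3 := C.card_ge
    omega
  obtain ⟨N, Z⟩ := Y.exists_nor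
  obtain ⟨e, f, f', F⟩ := C.exists_fix3 hn
  have h11 := Z.degree hn F
  exact ⟨h11, order Z h11 (by omega) F⟩

end Cfsg.Agent.H544.HallB
end

-- part: S4221
section
set_option autoImplicit false
open Cfsg

namespace Cfsg.Agent.S4221

open Equiv Equiv.Perm MulAction Cfsg.Agent.H544.HallA

theorem eq_alt {α : Type*} [Fintype α] [DecidableEq α] {G : Subgroup (Equiv.Perm α)}
    (h6 : 6 ≤ Fintype.card α) (H : Hyp G) (hA : alternatingGroup α ≤ G) :
    G = alternatingGroup α := by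
  apply le_antisymm _ hA
  intro g hg
  by_contra hne
  -- a transposition is in `G`
  obtain ⟨w, x, hwx⟩ : ∃ w x : α, w ≠ x := by
    have : 1 < Fintype.card α := by omega
    exact Fintype.one_lt_card_iff.mp this
  have hs : swap w x ∈ G := by
    have h1 : swap w x * g⁻¹ ∈ alternatingGroup α := by
      rw [Equiv.Perm.mem_alternatingGroup] at hne ⊢
      have h2 := (Int.units_eq_one_or (Equiv.Perm.sign g)).resolve_left hne
      rw [map_mul, map_inv, sign_swap hwx, h2]
      rfl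
    have h2 := mul_mem (hA h1) hg
    rwa [inv_mul_cancel_right] at h2
  have h3 := H.support_ge hs (swap_mul_self w x) (by
    intro h
    have : swap w x w = w := by rw [h]; rfl
    rw [swap_apply_left] at this
    exact hwx this.symm)
  rw [card_support_swap hwx] at h3
  omega

/-- Let `G` be a `4`-fold transitive permutation group on a finite set of `n` points in which the pointwise stabilizer of some four distinct points has odd order. Then `n = 4` or `n = 5` with `G` the full symmetric group, or `n = 6` or `n = 7` with `G` the alternating group, or `n = 11` and `G` has order `7920`. -/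
theorem result {α : Type*} [Fintype α] [DecidableEq α] (G : Subgroup (Equiv.Perm α)) (hG : MulAction.IsMultiplyPretransitive G α 4) (x : Fin 4 ↪ α) (hodd : Odd (Nat.card (MulAction.stabilizer G x))) : ((Fintype.card α = 4 ∨ Fintype.card α = 5) ∧ G = ⊤) ∨ ((Fintype.card α = 6 ∨ Fintype.card α = 7) ∧ G = alternatingGroup α) ∨ (Fintype.card α = 11 ∧ Nat.card G = 7920) := by
  have H := Hyp.mk' G hG x hodd
  have h4 : 4 ≤ Fintype.card α := by
    have := Fintype.card_le_of_embedding x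
    rwa [Fintype.card_fin] at this
  have hcases : Fintype.card α = 4 ∨ Fintype.card α = 5 ∨ Fintype.card α = 6 ∨
      Fintype.card α = 7 ∨ 8 ≤ Fintype.card α := by omega
  rcases hcases with h | h | h | h | h
  · left
    refine ⟨Or.inl h, ?_⟩
    apply Equiv.Perm.eq_top_of_isMultiplyPretransitive
    rw [Nat.card_eq_fintype_card, h]
    exact MulAction.isMultiplyPretransitive_of_le (by omega : 4 - 1 ≤ 4)
      (by rw [Nat.card_eq_fintype_card, h])
  · left
    refine ⟨Or.inr h, ?_⟩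
    apply Equiv.Perm.eq_top_of_isMultiplyPretransitive
    rw [Nat.card_eq_fintype_card, h]
    exact hG
  · right; left
    refine ⟨Or.inl h, eq_alt (by omega) H ?_⟩
    apply IsMultiplyPretransitive.alternatingGroup_le
    rw [Nat.card_eq_fintype_card, h]
    exact hG
  · right; left
    refine ⟨Or.inr h, eq_alt (by omega) H ?_⟩
    by_contra hA
    have hsharp : ∀ y : Fin 4 ↪ α, MulAction.stabilizer G y = ⊥ := by
      intro y
      rw [Subgroup.eq_bot_iff_forall]
      intro g hg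
      by_contra hg1
      apply hA
      have hg1' : (g : Perm α) ≠ 1 := fun h => hg1 (Subtype.ext h)
      refine (Cfsg.Agent.S0711.result G (k := 4) (by omega) (by omega) hG g g.2 hg1' ?_).2
      have h1 : Finset.univ.map y ⊆ (g : Perm α).supportᶜ := by
        intro z hz
        rw [Finset.mem_map] at hz
        obtain ⟨i, _, rfl⟩ := hz
        rw [Finset.mem_compl, Equiv.Perm.notMem_support]
        rw [mem_stabilizer_iff] at hg
        exact congrArg (fun f : Fin 4 ↪ α => f i) hg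
      have h2 := Finset.card_le_card h1
      rw [Finset.card_map, Finset.card_univ, Fintype.card_fin, Finset.card_compl, h] at h2
      omega
    have := Cfsg.Agent.S0415.result G h4 hsharp
    omega
  · right; right
    exact Cfsg.Agent.H544.HallB.main H h

end Cfsg.Agent.S4221
end
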