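import Cfsg.Statements.S4222
set_option linter.all false

set_option autoImplicit false
open Cfsg

namespace Cfsg.Agent.S4222

/-- If a normal subgroup `N` of a finite group is complete (its centre is trivial and every automorphism of `N` is inner), then the group is the internal direct product of `N` and the centralizer of `N`: the centralizer is a complement to `N`. -/
theorem result {T : Type*} [Group T] [Finite T] (N : Subgroup T) [N.Normal] (hz : Subgroup.center ↥N = ⊥) (ha : Function.Surjective (MulAut.conj : ↥N →* MulAut ↥N)) : (Subgroup.centralizer (N : Set T)).IsComplement' N := by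
  have hdisj : Disjoint (Subgroup.centralizer (N : Set T)) N := by
    rw [Subgroup.disjoint_def]
    intro x hx hxN
    have h1 : (⟨x, hxN⟩ : N) ∈ Subgroup.center N := by
      rw [Subgroup.mem_center_iff]
      intro g
      apply Subtype.ext
      exact Subgroup.mem_centralizer_iff.mp hx g g.2
    rw [hz, Subgroup.mem_bot] at h1
    exact congrArg Subtype.val h1
  have hcod : Codisjoint (Subgroup.centralizer (N : Set T)) N := by
    rw [codisjoint_iff, eq_top_iff]
    intro t _
    obtain ⟨n, hn⟩ := ha (MulAut.conjNormal t)
    have h2 : t * (n : T)⁻¹ ∈ Subgroup.centralizer (N : Set T) := by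
      rw [Subgroup.mem_centralizer_iff]
      intro h hh
      have h3 := congrArg (fun f : MulAut N => ((f (n⁻¹ * (⟨h, hh⟩ : N) * n) : N) : T)) hn
      simp only [MulAut.conj_apply, MulAut.conjNormal_apply, Subgroup.coe_mul,
        Subgroup.coe_inv] at h3
      have h4 : h = t * ((n : T)⁻¹ * h * n) * t⁻¹ := by
        rw [← h3]; group
      calc h * (t * (n : T)⁻¹) = t * ((n : T)⁻¹ * h * n) * t⁻¹ * (t * (n : T)⁻¹) := by rw [← h4]
        _ = t * (n : T)⁻¹ * h := by group
    have h5 : t = (t * (n : T)⁻¹) * n := by group
    rw [h5]
    exact Subgroup.mul_mem_sup h2 n.2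
  exact Subgroup.isComplement'_of_disjoint_and_mul_eq_univ hdisj (by
    have := Subgroup.mul_normal (Subgroup.centralizer (N : Set T)) N
    rw [codisjoint_iff.mp hcod] at this
    rw [← this]; rfl)

end Cfsg.Agent.S4222
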