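import Cfsg.Agent.PLocal.Regular
import Cfsg.Statements.S4225
set_option linter.all false

-- part: H545/RegularOmega
section
/-!
# Elements of order dividing `p ^ k` in a regular `p`-group

* `commutator_closure_pair_le_normalClosure`: `⟨a, b⟩'` lies in any subgroup normalised by `a, b` containing `[a, b]`.
* `mul_pow_eq_one`: in a finite regular `p`-group, `x ^ p ^ k = 1` and `y ^ p ^ k = 1` imply
  `(x * y) ^ p ^ k = 1`.
* `omegaSub`: the subgroup of the elements `x` with `x ^ p ^ k = 1`.
-/

set_option autoImplicit false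
open Subgroup
open scoped commutatorElement

namespace Cfsg.Agent.H545.RegularOmega

variable {G : Type*} [Group G] {p : ℕ}

/-- If `N` is a subgroup of `⟨a, b⟩` normalised by `⟨a, b⟩` and containing `⁅a, b⁆` then it contains the
derived subgroup of `⟨a, b⟩`. -/
theorem commutator_closure_pair_le (a b : G) (N : Subgroup G)
    (hNn : ∀ g ∈ Subgroup.closure ({a, b} : Set G), ∀ n ∈ N, g * n * g⁻¹ ∈ N)
    (hab : ⁅a, b⁆ ∈ N) :
    ⁅Subgroup.closure ({a, b} : Set G), Subgroup.closure ({a, b} : Set G)⁆ ≤ N := by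
  set L : Subgroup G := Subgroup.closure ({a, b} : Set G) with hL
  have haL : a ∈ L := Subgroup.subset_closure (by simp)
  have hbL : b ∈ L := Subgroup.subset_closure (by simp)
  -- for fixed `x ∈ L`, the set of `y ∈ L` with `⁅x, y⁆ ∈ N` is a subgroup
  have key : ∀ x ∈ L, (⁅x, a⁆ ∈ N) → (⁅x, b⁆ ∈ N) → ∀ y ∈ L, ⁅x, y⁆ ∈ N := by
    intro x hx hxa hxb y hy
    rw [hL] at hy
    induction hy using Subgroup.closure_induction with
    | mem y hy =>
      rcases hy with rfl | rfl
      · exact hxa
      · exact hxb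
    | one => simp
    | mul y z hy hz ihy ihz =>
      have : ⁅x, y * z⁆ = ⁅x, y⁆ * (y * ⁅x, z⁆ * y⁻¹) := by
        simp only [commutatorElement_def]; group
      rw [this]
      exact mul_mem ihy (hNn y hy _ ihz)
    | inv y hy ihy =>
      have : ⁅x, y⁻¹⁆ = y⁻¹ * ⁅x, y⁆⁻¹ * y := by
        simp only [commutatorElement_def]; group
      rw [this]
      have h := hNn y⁻¹ (inv_mem hy) _ (inv_mem ihy)
      simpa using h
  have hba : ⁅b, a⁆ ∈ N := by
    rw [← commutatorElement_inv]; exact inv_mem hab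
  have h1 : ∀ y ∈ L, ⁅a, y⁆ ∈ N := key a haL (by simp) hab
  have h2 : ∀ y ∈ L, ⁅b, y⁆ ∈ N := key b hbL hba (by simp)
  rw [Subgroup.commutator_le]
  intro x hx y hy
  refine key x hx ?_ ?_ y hy
  · rw [← commutatorElement_inv]; exact inv_mem (h1 x hx)
  · rw [← commutatorElement_inv]; exact inv_mem (h2 x hx)

theorem mul_pow_eq_one_aux [Finite G] [Fact p.Prime] (hG : Cfsg.IsRegularPGroup p G) (k : ℕ) (n : ℕ) :
    ∀ H : Subgroup G, Nat.card H = n → ∀ x ∈ H, ∀ y ∈ H, x ^ p ^ k = 1 → y ^ p ^ k = 1 →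
      (x * y) ^ p ^ k = 1 := by
  induction n using Nat.strong_induction_on with
  | _ n ih =>
    intro H hH x hx y hy hxk hyk
    by_cases hxy : x * y = y * x
    · rw [(show Commute x y from hxy).mul_pow, hxk, hyk, one_mul]
    set L : Subgroup G := Subgroup.closure ({x, y} : Set G) with hL
    have hxL : x ∈ L := Subgroup.subset_closure (by simp)
    have hyL : y ∈ L := Subgroup.subset_closure (by simp)
    have hLH : L ≤ H := by
      rw [hL, Subgroup.closure_le]
      rintro z (rfl | rfl)
      · exact hx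
      · exact hy
    have hcard : Nat.card L ≤ Nat.card H := Subgroup.card_le_of_le hLH
    have hLb : L ≠ ⊥ := by
      intro hb
      rw [hb, Subgroup.mem_bot] at hxL hyL
      apply hxy
      rw [hxL, hyL]
    have hL' : ⁅L, L⁆ < L := by
      refine lt_of_le_not_ge (Subgroup.commutator_le_self L) ?_
      intro hle
      exact hLb (Cfsg.Agent.PLocal.Regular.eq_bot_of_le_commutator hG.1 L hle)
    have hcard' : ∀ K : Subgroup G, K < L → Nat.card K < Nat.card L := by
      intro K hK
      by_contra hcon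
      push Not at hcon
      exact hK.ne (Subgroup.eq_of_le_of_card_ge hK.le hcon)
    set K : Subgroup G := zpowers x ⊔ ⁅L, L⁆ with hK
    have hKL : K ≤ L := sup_le (by rw [zpowers_le]; exact hxL) hL'.le
    have hKlt : K < L := by
      refine lt_of_le_not_ge hKL ?_
      intro hle
      have h1 := Cfsg.Agent.PLocal.Regular.le_zpowers_of_le_sup hG.1 L x hxL hle
      obtain ⟨j, hj⟩ := Subgroup.mem_zpowers_iff.mp (h1 hyL)
      apply hxy
      have hcomm : Commute x (x ^ j) := (Commute.refl x).zpow_right j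
      rw [hj] at hcomm
      exact hcomm
    -- the commutator has order dividing `p ^ k`
    have hxK : x ∈ K := (le_sup_left : zpowers x ≤ K) (mem_zpowers x)
    have hL'K : ⁅L, L⁆ ≤ K := le_sup_right
    have hcL : ⁅x, y⁆ ∈ ⁅L, L⁆ := Subgroup.commutator_mem_commutator hxL hyL
    have hyxy : y * x⁻¹ * y⁻¹ ∈ K := by
      have : y * x⁻¹ * y⁻¹ = x⁻¹ * ⁅x, y⁆ := by
        rw [commutatorElement_def]; group
      rw [this]
      exact mul_mem (inv_mem hxK) (hL'K hcL)
    have hcomk : ⁅x, y⁆ ^ p ^ k = 1 := by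
      have h1 : ⁅x, y⁆ = x * (y * x⁻¹ * y⁻¹) := by
        rw [commutatorElement_def]; group
      rw [h1]
      refine ih _ (hH ▸ lt_of_lt_of_le (hcard' K hKlt) hcard) K rfl x hxK _ hyxy hxk ?_
      rw [conj_pow, inv_pow, hxk]; simp
    -- the elements of the derived subgroup of order dividing `p ^ k` form a subgroup
    have hexp : ∀ z ∈ ⁅L, L⁆, z ^ p ^ k = 1 := by
      let N : Subgroup G :=
        { carrier := {z | z ∈ ⁅L, L⁆ ∧ z ^ p ^ k = 1}
          mul_mem' := by
            rintro a b ⟨ha, hak⟩ ⟨hb, hbk⟩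
            exact ⟨mul_mem ha hb, ih _ (hH ▸ lt_of_lt_of_le (hcard' _ hL') hcard) ⁅L, L⁆ rfl a ha b hb hak hbk⟩
          one_mem' := ⟨one_mem _, by simp⟩
          inv_mem' := by
            rintro a ⟨ha, hak⟩
            exact ⟨inv_mem ha, by rw [inv_pow, hak, inv_one]⟩ }
      have hle : ⁅L, L⁆ ≤ N := by
        refine commutator_closure_pair_le x y N ?_ ⟨hcL, hcomk⟩
        rintro g hg z ⟨hz, hzk⟩
        refine ⟨?_, ?_⟩
        · have hgL : g ∈ L := hg
          have h1 : g * z * g⁻¹ = ⁅g, z⁆ * z := by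
            rw [commutatorElement_def]; group
          rw [h1]
          exact mul_mem (Subgroup.commutator_mem_commutator hgL (Subgroup.commutator_le_self L hz)) hz
        · rw [conj_pow, hzk]; simp
      intro z hz
      exact (hle hz).2
    obtain ⟨c, hc, hxyc⟩ := hG.2 x y k
    have hc1 : c = 1 := by
      have hle : Cfsg.powerClosure p k ⁅L, L⁆ ≤ ⊥ := by
        refine (Subgroup.closure_le _).mpr ?_
        rintro _ ⟨z, hz, rfl⟩
        rw [hexp z hz]
        exact one_mem _
      exact Subgroup.mem_bot.mp (hle hc)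
    rw [hxyc, hxk, hyk, hc1]
    simp

/-- In a finite regular `p`-group, the elements of order dividing `p ^ k` are closed under
multiplication. -/
theorem mul_pow_eq_one [Finite G] [Fact p.Prime] (hG : Cfsg.IsRegularPGroup p G) (k : ℕ) {x y : G}
    (hx : x ^ p ^ k = 1) (hy : y ^ p ^ k = 1) : (x * y) ^ p ^ k = 1 :=
  mul_pow_eq_one_aux hG k _ ⊤ rfl x (Subgroup.mem_top _) y (Subgroup.mem_top _) hx hy

/-- The subgroup of the elements of order dividing `p ^ k` of a finite regular `p`-group. -/
def omegaSub [Finite G] [Fact p.Prime] (hG : Cfsg.IsRegularPGroup p G) (k : ℕ) : Subgroup G where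
  carrier := {x | x ^ p ^ k = 1}
  mul_mem' := fun hx hy => mul_pow_eq_one hG k hx hy
  one_mem' := by simp
  inv_mem' := by
    intro x hx
    simp only [Set.mem_setOf_eq] at hx ⊢
    rw [inv_pow, hx, inv_one]

theorem mem_omegaSub [Finite G] [Fact p.Prime] (hG : Cfsg.IsRegularPGroup p G) (k : ℕ) (x : G) :
    x ∈ omegaSub hG k ↔ x ^ p ^ k = 1 := Iff.rfl

end Cfsg.Agent.H545.RegularOmega
end

-- part: S4225
section
set_option autoImplicit false
open Cfsg

namespace Cfsg.Agent.S4225

/-- In a regular `p`-group, for every `k` the elements whose `p^k`-th power is `1` form a characteristic subgroup. -/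
theorem result {G : Type*} [Group G] [Finite G] {p : ℕ} [Fact p.Prime] (hG : Cfsg.IsRegularPGroup p G) (k : ℕ) : ∃ H : Subgroup G, H.Characteristic ∧ (H : Set G) = {x : G | x ^ p ^ k = 1} := by
  refine ⟨Cfsg.Agent.H545.RegularOmega.omegaSub hG k, ?_, rfl⟩
  refine ⟨fun ϕ => ?_⟩
  ext x
  rw [Subgroup.mem_comap, Cfsg.Agent.H545.RegularOmega.mem_omegaSub,
    Cfsg.Agent.H545.RegularOmega.mem_omegaSub]
  constructor
  · intro h
    have h1 : ϕ (x ^ p ^ k) = 1 := by
      rw [map_pow]; exact h
    exact (MulEquiv.map_eq_one_iff ϕ).mp h1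
  · intro h
    have h1 : (ϕ x) ^ p ^ k = 1 := by rw [← map_pow, h, map_one]
    exact h1

end Cfsg.Agent.S4225
end
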