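import Cfsg.Agent.Lib.HallHigman
import Cfsg.Agent.Lib.Cores
import Cfsg.Agent.S0058
import Cfsg.Agent.S0144
import Cfsg.Agent.OddOrderLocal.Thm36Aux
import Cfsg.Statements.S4227
set_option linter.all false

-- part: H545/ExpSix
section
/-!
# Finite groups of exponent dividing six have 2-length and 3-length at most one
-/

set_option autoImplicit false
open Cfsg

namespace Cfsg.Agent.H545.ExpSix

variable {K : Type*} [Group K]

theorem card_eq [Finite K] (h : ∀ x : K, x ^ 6 = 1) : ∃ a b : ℕ, Nat.card K = 2 ^ a * 3 ^ b := by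
  obtain ⟨a, m, hm, hma⟩ := Nat.exists_eq_pow_mul_and_not_dvd (n := Nat.card K)
    Nat.card_pos.ne' 2 (by norm_num)
  have hm0 : m ≠ 0 := by rintro rfl; exact hm (dvd_zero _)
  obtain ⟨b, m', hm', hmb⟩ := Nat.exists_eq_pow_mul_and_not_dvd (n := m) hm0 3 (by norm_num)
  refine ⟨a, b, ?_⟩
  have hm1 : m' = 1 := by
    by_contra hne
    obtain ⟨r, hr, hrm⟩ := Nat.exists_prime_and_dvd hne
    have hrc : r ∣ Nat.card K := by
      rw [hma, hmb]
      exact Dvd.dvd.mul_left (Dvd.dvd.mul_left hrm _) _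
    have := Fact.mk hr
    obtain ⟨x, hx⟩ := exists_prime_orderOf_dvd_card' r hrc
    have h1 : r ∣ 6 := by
      rw [← hx]
      exact orderOf_dvd_of_pow_eq_one (h x)
    have h2 : r = 2 ∨ r = 3 := by
      have h3 : (6 : ℕ) = 2 * 3 := rfl
      rw [h3, hr.dvd_mul] at h1
      rcases h1 with h1 | h1
      · exact Or.inl ((Nat.prime_dvd_prime_iff_eq hr Nat.prime_two).mp h1)
      · exact Or.inr ((Nat.prime_dvd_prime_iff_eq hr Nat.prime_three).mp h1)
    rcases h2 with rfl | rfl
    · apply hm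
      rw [hmb]
      exact Dvd.dvd.mul_left hrm _
    · exact hm' hrm
  rw [hma, hmb, hm1, mul_one]

theorem isSolvable [Finite K] (h : ∀ x : K, x ^ 6 = 1) : Group.IsSolvable K := by
  obtain ⟨a, b, hab⟩ := card_eq h
  exact Cfsg.Agent.S0144.result 2 3 a b Nat.prime_two Nat.prime_three hab

theorem pow_two_of_two (h : ∀ x : K, x ^ 6 = 1) {S : Subgroup K} (hS : IsPGroup 2 S) {x : K}
    (hx : x ∈ S) : x ^ 2 = 1 := by
  obtain ⟨k, hk⟩ := hS ⟨x, hx⟩
  have hk' : x ^ 2 ^ k = 1 := congrArg Subtype.val hk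
  have h1 : orderOf x ∣ Nat.gcd 6 (2 ^ k) :=
    Nat.dvd_gcd (orderOf_dvd_of_pow_eq_one (h x)) (orderOf_dvd_of_pow_eq_one hk')
  have h2 : Nat.gcd 6 (2 ^ k) ∣ 2 := by
    have h3 : Nat.gcd 6 (2 ^ k) ∣ 6 := Nat.gcd_dvd_left _ _
    have h4 : Nat.Coprime (Nat.gcd 6 (2 ^ k)) 3 := by
      refine Nat.Coprime.coprime_dvd_left (Nat.gcd_dvd_right _ _) ?_
      exact Nat.Coprime.pow_left k (by norm_num)
    exact h4.dvd_of_dvd_mul_right (by simpa using h3 : Nat.gcd 6 (2 ^ k) ∣ 2 * 3)
  exact orderOf_dvd_iff_pow_eq_one.mp (h1.trans h2)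

theorem pow_three_of_three (h : ∀ x : K, x ^ 6 = 1) {S : Subgroup K} (hS : IsPGroup 3 S) {x : K}
    (hx : x ∈ S) : x ^ 3 = 1 := by
  obtain ⟨k, hk⟩ := hS ⟨x, hx⟩
  have hk' : x ^ 3 ^ k = 1 := congrArg Subtype.val hk
  have h1 : orderOf x ∣ Nat.gcd 6 (3 ^ k) :=
    Nat.dvd_gcd (orderOf_dvd_of_pow_eq_one (h x)) (orderOf_dvd_of_pow_eq_one hk')
  have h2 : Nat.gcd 6 (3 ^ k) ∣ 3 := by
    have h3 : Nat.gcd 6 (3 ^ k) ∣ 6 := Nat.gcd_dvd_left _ _
    have h4 : Nat.Coprime (Nat.gcd 6 (3 ^ k)) 2 := by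
      refine Nat.Coprime.coprime_dvd_left (Nat.gcd_dvd_right _ _) ?_
      exact Nat.Coprime.pow_left k (by norm_num)
    exact h4.dvd_of_dvd_mul_left (by simpa using h3 : Nat.gcd 6 (3 ^ k) ∣ 2 * 3)
  exact orderOf_dvd_iff_pow_eq_one.mp (h1.trans h2)

theorem cube_eq (x : K) : x ^ 3 = x * x * x := by rw [pow_succ, pow_two]

/-- The final computation: `A` is given by three commuting involutions permuted by `g`. -/
theorem final (v g x x' x'' : K) (hg : g ^ 3 = 1) (hx' : g * x * g⁻¹ = x') (hx'' : g * x' * g⁻¹ = x'')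
    (hv3 : v ^ 3 = 1) (hvg : (v * g) ^ 3 = 1) (h1 : x * v * x⁻¹ = v) (h2 : x' * v * x'⁻¹ = v⁻¹)
    (h3 : x'' * v * x''⁻¹ = v⁻¹) : v = 1 := by
  have hg' : g * g * g = 1 := by rw [← hg, cube_eq]
  have hx0 : g * x'' * g⁻¹ = x := by
    rw [← hx'', ← hx']
    calc g * (g * (g * x * g⁻¹) * g⁻¹) * g⁻¹ = (g * g * g) * x * (g * g * g)⁻¹ := by group
      _ = x := by rw [hg']; group
  set v1 := g * v * g⁻¹ with hv1
  set v2 := g * v1 * g⁻¹ with hv2
  have hprod : v * v1 * v2 = 1 := by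
    have : v * v1 * v2 * (g * g * g) = (v * g) ^ 3 := by
      rw [hv2, hv1, cube_eq]; group
    rw [hg', mul_one, hvg] at this
    exact this
  have hc1 : x * v1 * x⁻¹ = v1⁻¹ := by
    have e1 : x * v1 * x⁻¹ = g * (x'' * v * x''⁻¹) * g⁻¹ := by
      rw [← hx0, hv1]; group
    rw [e1, h3, hv1]; group
  have hc2 : x * v2 * x⁻¹ = v2⁻¹ := by
    have e0 : x = g * (g * x' * g⁻¹) * g⁻¹ := by rw [hx'', hx0]
    have e1 : x * v2 * x⁻¹ = g * (g * (x' * v * x'⁻¹) * g⁻¹) * g⁻¹ := by
      rw [e0, hv2, hv1]; group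
    rw [e1, h2, hv2, hv1]; simp only [mul_inv_rev, inv_inv, mul_assoc]
  have hprod2 : v * v1⁻¹ * v2⁻¹ = 1 := by
    have e1 : x * (v * v1 * v2) * x⁻¹ = (x * v * x⁻¹) * (x * v1 * x⁻¹) * (x * v2 * x⁻¹) := by group
    rw [hprod, h1, hc1, hc2] at e1
    rw [← e1]; group
  have hv1' : v1 ^ 3 = 1 := by rw [hv1, conj_pow, hv3]; group
  have hv2' : v2 ^ 3 = 1 := by rw [hv2, conj_pow, hv1']; group
  have e1 : v2 * v1 = v := by
    have : v * (v2 * v1)⁻¹ = 1 := by rw [← hprod2]; group
    exact (mul_inv_eq_one.mp this).symm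
  have e2 : v = (v1 * v2)⁻¹ := by
    rw [mul_assoc] at hprod
    exact eq_inv_of_mul_eq_one_left hprod
  have e3 : v2 ^ 2 * v1 ^ 2 = 1 := by
    have : v2 * v1 * (v1 * v2) = 1 := by rw [e1, e2]; group
    calc v2 ^ 2 * v1 ^ 2 = v2 * (v2 * v1 * (v1 * v2)) * v2⁻¹ := by rw [sq, sq]; group
      _ = 1 := by rw [this]; group
  have e4 : v2⁻¹ * v1⁻¹ = 1 := by
    have a1 : v2⁻¹ = v2 ^ 2 := by
      rw [inv_eq_iff_mul_eq_one, ← pow_succ']; exact hv2'
    have a2 : v1⁻¹ = v1 ^ 2 := by
      rw [inv_eq_iff_mul_eq_one, ← pow_succ']; exact hv1'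
    rw [a1, a2]; exact e3
  rw [e2, mul_inv_rev]
  exact e4

set_option maxHeartbeats 1000000 in
theorem three_core [Finite K] (h : ∀ x : K, x ^ 6 = 1) (h0 : pPrimeCore 3 K = ⊥) :
    (pCore 3 K).index.Coprime 3 := by
  have hsol : Group.IsSolvable K := isSolvable h
  have : Fact (Nat.Prime 3) := ⟨Nat.prime_three⟩
  have : Fact (Nat.Prime 2) := ⟨Nat.prime_two⟩
  set Q := pCore 3 K with hQ
  have hQn : Q.Normal := Lib.Cores.pCore_normal 3
  have hQp : IsPGroup 3 Q := Lib.Cores.pCore_isPGroup 3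
  have hCQ : Subgroup.centralizer (Q : Set K) ≤ Q :=
    Lib.HallHigman.centralizer_pCore_le_of_solvable 3 h0
  have hexpL : ∀ x : K ⧸ Q, x ^ 6 = 1 := by
    intro x
    obtain ⟨y, rfl⟩ := QuotientGroup.mk'_surjective Q x
    rw [← map_pow, h, map_one]
  have hsolL : Group.IsSolvable (K ⧸ Q) := isSolvable hexpL
  -- the `2`-core of the quotient
  have hL3 : pCore 3 (K ⧸ Q) = ⊥ := Lib.Cores.pCore_quotient_pCore 3
  have hL2 : pPrimeCore 2 (K ⧸ Q) = ⊥ := by
    rw [eq_bot_iff, ← hL3]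
    refine Lib.Cores.le_pCore (Lib.Cores.pPrimeCore_normal 2) ?_
    have h1 := Lib.Cores.pPrimeCore_coprime (G := K ⧸ Q) 2
    obtain ⟨a, b, hab⟩ := card_eq (K := pPrimeCore 2 (K ⧸ Q)) (fun x => Subtype.ext (hexpL x))
    have ha : a = 0 := by
      by_contra hne
      rw [hab] at h1
      have h2 : 2 ∣ 2 ^ a * 3 ^ b := Dvd.dvd.mul_right (dvd_pow_self 2 hne) _
      have h3 := Nat.Coprime.eq_one_of_dvd h1.symm h2
      norm_num at h3
    refine IsPGroup.of_card (n := b) ?_
    rw [hab, ha, pow_zero, one_mul]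
  set E := pCore 2 (K ⧸ Q) with hE
  have hEn : E.Normal := Lib.Cores.pCore_normal 2
  have hEp : IsPGroup 2 E := Lib.Cores.pCore_isPGroup 2
  have hCE : Subgroup.centralizer (E : Set (K ⧸ Q)) ≤ E :=
    Lib.HallHigman.centralizer_pCore_le_of_solvable 2 hL2
  by_contra hnot
  have hdvd : 3 ∣ Nat.card (K ⧸ Q) := by
    rw [← Subgroup.index_eq_card]
    by_contra hno
    exact hnot ((Nat.Prime.coprime_iff_not_dvd Nat.prime_three).mpr hno).symm
  obtain ⟨gb, hgb⟩ := exists_prime_orderOf_dvd_card' 3 hdvd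
  -- Frattini argument
  let T : Subgroup K := E.comap (QuotientGroup.mk' Q)
  have hTn : T.Normal := inferInstance
  have hQT : Q ≤ T := by
    intro x hx
    change QuotientGroup.mk' Q x ∈ E
    rw [QuotientGroup.mk'_apply, (QuotientGroup.eq_one_iff x).mpr hx]
    exact one_mem _
  obtain ⟨S₀⟩ : Nonempty (Sylow 2 T) := inferInstance
  let S : Subgroup K := (S₀ : Subgroup T).map T.subtype
  have hS2 : IsPGroup 2 S := S₀.2.map _
  have hNT : Subgroup.normalizer (S : Set K) ⊔ T = ⊤ := Sylow.normalizer_sup_eq_top S₀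
  have hmapT : T.map (QuotientGroup.mk' Q) = E :=
    Subgroup.map_comap_eq_self_of_surjective (QuotientGroup.mk'_surjective Q) E
  have hmapS : S.map (QuotientGroup.mk' Q) = E := by
    refine Subgroup.eq_of_le_of_card_ge ?_ ?_
    · rw [← hmapT]
      exact Subgroup.map_mono (Subgroup.map_subtype_le _)
    · -- the index of `S` in `T` is odd, `E` is a `2`-group
      let f : T →* K ⧸ Q := (QuotientGroup.mk' Q).comp T.subtype
      have hfr : f.range = E := by
        rw [← hmapT, MonoidHom.range_comp, Subgroup.range_subtype]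
      have hS' : S.map (QuotientGroup.mk' Q) = (S₀ : Subgroup T).map f := by
        rw [Subgroup.map_map]
      rw [hS']
      have hidx : ((S₀ : Subgroup T).map f).relIndex E ∣ (S₀ : Subgroup T).index := by
        have h1 : ((S₀ : Subgroup T).map f).relIndex f.range = (S₀ ⊔ f.ker : Subgroup T).index := by
          rw [Subgroup.relIndex, ← Subgroup.index_comap_of_surjective _ f.rangeRestrict_surjective]
          congr 1
          ext t
          rw [Subgroup.mem_comap, Subgroup.mem_subgroupOf, MonoidHom.coe_rangeRestrict,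
            ← Subgroup.mem_comap, Subgroup.comap_map_eq]
        rw [hfr] at h1
        rw [h1]
        exact Subgroup.index_dvd_of_le le_sup_left
      have hle : (S₀ : Subgroup T).map f ≤ E := by
        rw [← hfr, MonoidHom.range_eq_map]
        exact Subgroup.map_mono le_top
      have h2 : ((S₀ : Subgroup T).map f).relIndex E ∣ Nat.card E := Subgroup.relIndex_dvd_card _ _
      obtain ⟨n, hn⟩ := IsPGroup.iff_card.mp hEp
      rw [hn] at h2
      have h3 : Nat.Coprime (((S₀ : Subgroup T).map f).relIndex E) 2 := by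
        refine Nat.Coprime.coprime_dvd_left hidx ?_
        exact ((Nat.Prime.coprime_iff_not_dvd Nat.prime_two).mpr S₀.not_dvd_index).symm
      have h4 := Nat.eq_one_of_dvd_coprimes (Nat.Coprime.pow_right n h3) dvd_rfl h2
      have h5 := Lib.HallHigman.card_mul_relIndex' hle
      rw [h4, mul_one] at h5
      exact h5.ge
  have hTsup : T ≤ S ⊔ Q := by
    intro t ht
    have h1 : QuotientGroup.mk' Q t ∈ S.map (QuotientGroup.mk' Q) := by rw [hmapS]; exact ht
    obtain ⟨s, hs, hst⟩ := h1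
    have h2 : s⁻¹ * t ∈ Q := QuotientGroup.eq.mp hst
    have h3 : t = s * (s⁻¹ * t) := by group
    rw [h3]
    exact Subgroup.mul_mem_sup hs h2
  have hNQ : Subgroup.normalizer (S : Set K) ⊔ Q = ⊤ := by
    rw [eq_top_iff, ← hNT]
    refine sup_le le_sup_left (hTsup.trans (sup_le_sup Subgroup.le_normalizer le_rfl))
  -- lift the element of order three
  obtain ⟨k₀, hk₀⟩ := QuotientGroup.mk'_surjective Q gb
  obtain ⟨n, hn, q, hq, hnq⟩ : ∃ n ∈ Subgroup.normalizer (S : Set K), ∃ q ∈ Q, n * q = k₀ := by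
    have h1 : k₀ ∈ Subgroup.normalizer (S : Set K) ⊔ Q := by rw [hNQ]; exact Subgroup.mem_top _
    rw [Subgroup.mem_sup_of_normal_right] at h1
    exact h1
  have hnb : QuotientGroup.mk' Q n = gb := by
    rw [← hk₀, ← hnq, map_mul, QuotientGroup.mk'_apply Q q, (QuotientGroup.eq_one_iff q).mpr hq,
      mul_one]
  set g := n ^ 4 with hg
  have hgN : g ∈ Subgroup.normalizer (S : Set K) := pow_mem hn 4
  have hg3 : g ^ 3 = 1 := by
    rw [hg, ← pow_mul]
    have : n ^ (4 * 3) = (n ^ 6) ^ 2 := by rw [← pow_mul]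
    rw [this, h, one_pow]
  have hgb3 : gb ^ 3 = 1 := by rw [← hgb]; exact pow_orderOf_eq_one gb
  have hgb' : QuotientGroup.mk' Q g = gb := by
    rw [hg, map_pow, hnb, pow_succ, hgb3, one_mul]
  have hgbE : gb ∉ E := by
    intro hmem
    have h1 := hEp.orderOf_coprime (show Nat.Coprime 2 3 by norm_num) ⟨gb, hmem⟩
    rw [Subgroup.orderOf_mk, hgb] at h1
    norm_num at h1
  -- `g` does not centralize `S`
  obtain ⟨s, hsS, hgs⟩ : ∃ s ∈ S, g * s * g⁻¹ ≠ s := by
    by_contra hno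
    push Not at hno
    apply hgbE
    apply hCE
    rw [Subgroup.mem_centralizer_iff]
    intro e he
    rw [SetLike.mem_coe, ← hmapS] at he
    obtain ⟨s, hs, rfl⟩ := he
    rw [← hgb', ← map_mul, ← map_mul]
    congr 1
    have := hno s hs
    rw [mul_inv_eq_iff_eq_mul] at this
    exact this.symm
  have hconjS : ∀ t ∈ S, g * t * g⁻¹ ∈ S := fun t ht => (Subgroup.mem_normalizer_iff.mp hgN t).mp ht
  have hS2' : ∀ t ∈ S, t * t = 1 := fun t ht => by
    have := pow_two_of_two h hS2 ht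
    rwa [sq] at this
  have hinvS : ∀ t ∈ S, t⁻¹ = t := fun t ht => inv_eq_of_mul_eq_one_left (hS2' t ht)
  have hcommS : ∀ t ∈ S, ∀ t' ∈ S, t * t' = t' * t := by
    intro t ht t' ht'
    have h1 := hinvS _ (mul_mem ht ht')
    rw [mul_inv_rev, hinvS t ht, hinvS t' ht'] at h1
    exact h1.symm
  set s1 := g * s * g⁻¹ with hs1
  set s2 := g * s1 * g⁻¹ with hs2
  have hs1S : s1 ∈ S := hconjS s hsS
  have hs2S : s2 ∈ S := hconjS s1 hs1S
  have hg' : g * g * g = 1 := by rw [← hg3, cube_eq]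
  have hs3 : g * s2 * g⁻¹ = s := by
    rw [hs2, hs1]
    calc g * (g * (g * s * g⁻¹) * g⁻¹) * g⁻¹ = (g * g * g) * s * (g * g * g)⁻¹ := by group
      _ = s := by rw [hg']; group
  set a := s * s1 with ha
  set b := s1 * s2 with hb
  set c := s2 * s with hc
  have haS : a ∈ S := mul_mem hsS hs1S
  have hbS : b ∈ S := mul_mem hs1S hs2S
  have hcS : c ∈ S := mul_mem hs2S hsS
  have hga : g * a * g⁻¹ = b := by
    rw [ha, hb, hs2]; conv_rhs => rw [hs1]
    rw [hs1]; group
  have hgb2 : g * b * g⁻¹ = c := by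
    rw [hb, hc]
    calc g * (s1 * s2) * g⁻¹ = (g * s1 * g⁻¹) * (g * s2 * g⁻¹) := by group
      _ = s2 * s := by rw [hs3]
  have hgc : g * c * g⁻¹ = a := by
    rw [hc, ha]
    calc g * (s2 * s) * g⁻¹ = (g * s2 * g⁻¹) * (g * s * g⁻¹) := by group
      _ = s * s1 := by rw [hs3]
  have hab : a * b = c := by
    rw [ha, hb, hc]
    calc s * s1 * (s1 * s2) = s * (s1 * s1) * s2 := by group
      _ = s * s2 := by rw [hS2' s1 hs1S, mul_one]
      _ = s2 * s := hcommS s hsS s2 hs2S
  have ha1 : a ≠ 1 := by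
    intro h1
    apply hgs
    have h2 : s1 = s⁻¹ := eq_inv_of_mul_eq_one_right h1
    rw [hinvS s hsS] at h2
    exact h2
  have hb1 : b ≠ 1 := by
    intro h1
    apply ha1
    have h2 : a = g⁻¹ * b * g := by rw [← hga]; group
    rw [h2, h1]; group
  have hc1 : c ≠ 1 := by
    intro h1
    apply hb1
    have h2 : b = g⁻¹ * c * g := by rw [← hgb2]; group
    rw [h2, h1]; group
  have hab1 : a ≠ b := by
    intro h1
    apply hc1
    rw [← hab, ← h1]
    exact hS2' a haS
  -- the four-group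
  let A : Subgroup K :=
    { carrier := {1, a, b, c}
      mul_mem' := by
        have hbc : b * c = a := by
          rw [← hab, ← mul_assoc, hcommS b hbS a haS, mul_assoc, hS2' b hbS, mul_one]
        have hac : a * c = b := by
          rw [← hab, ← mul_assoc, hS2' a haS, one_mul]
        have hba : b * a = c := by rw [hcommS b hbS a haS, hab]
        have hcb : c * b = a := by rw [hcommS c hcS b hbS, hbc]
        have hca : c * a = b := by rw [hcommS c hcS a haS, hac]
        rintro x y (rfl | rfl | rfl | rfl) (rfl | rfl | rfl | rfl) <;>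
          simp [hab, hbc, hac, hba, hcb, hca, hS2' a haS, hS2' b hbS, hS2' c hcS]
      one_mem' := by simp
      inv_mem' := by
        rintro x (rfl | rfl | rfl | rfl)
        · simp
        · rw [hinvS a haS]; simp
        · rw [hinvS b hbS]; simp
        · rw [hinvS c hcS]; simp }
  have memA : ∀ x, x ∈ A ↔ x = 1 ∨ x = a ∨ x = b ∨ x = c := fun x => Iff.rfl
  have hAS : A ≤ S := by
    intro x hx
    rcases (memA x).mp hx with rfl | rfl | rfl | rfl
    · exact one_mem _
    · exact haS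
    · exact hbS
    · exact hcS
  have hAc : IsMulCommutative A := ⟨⟨fun x y => Subtype.ext (hcommS _ (hAS x.2) _ (hAS y.2))⟩⟩
  have hAcyc : ¬ IsCyclic A := by
    intro hcyc
    obtain ⟨⟨t, ht⟩, htgen⟩ := hcyc.exists_generator
    have h1 : ∀ x ∈ A, x = 1 ∨ x = t := by
      intro x hx
      obtain ⟨m, hm⟩ := Subgroup.mem_zpowers_iff.mp (htgen ⟨x, hx⟩)
      have hm' : t ^ m = x := congrArg Subtype.val hm
      rcases Int.even_or_odd' m with ⟨j, rfl | rfl⟩
      · left
        rw [← hm', zpow_mul, zpow_two, hS2' t (hAS ht), one_zpow]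
      · right
        rw [← hm', zpow_add, zpow_mul, zpow_two, hS2' t (hAS ht), one_zpow, one_mul, zpow_one]
    have h2 := (h1 a ((memA a).mpr (by tauto))).resolve_left ha1
    have h3 := (h1 b ((memA b).mpr (by tauto))).resolve_left hb1
    exact hab1 (h2.trans h3.symm)
  have hAQ : A ≤ Subgroup.normalizer (Q : Set K) := by
    rw [Subgroup.normalizer_eq_top Q]
    exact le_top
  have hcop : (Nat.card A).Coprime (Nat.card Q) := by
    obtain ⟨m, hm⟩ := IsPGroup.iff_card.mp (hS2.to_le hAS)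
    obtain ⟨m', hm'⟩ := IsPGroup.iff_card.mp hQp
    rw [hm, hm']
    exact Nat.Coprime.pow m m' (by norm_num)
  have hgen := Cfsg.Agent.S0058.result A Q hAcyc hAQ hcop
  -- some `C_Q(x)` is not centralized by `A`
  obtain ⟨x, hxA, hx1, w, hwQ, hwx, y, hyA, hyw⟩ : ∃ x ∈ A, x ≠ 1 ∧ ∃ w ∈ Q, x * w = w * x ∧
      ∃ y ∈ A, y * w ≠ w * y := by
    by_contra hno
    push Not at hno
    have h1 : Q ≤ Subgroup.centralizer (A : Set K) := by
      conv_lhs => rw [← hgen]
      refine iSup₂_le ?_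
      rintro x ⟨hxA, hx1⟩ w ⟨hwQ, hwx⟩
      rw [Subgroup.mem_centralizer_iff]
      intro y hy
      exact hno x hxA hx1 w hwQ (Subgroup.mem_centralizer_singleton_iff.mp hwx).symm y hy
    have h2 : a ∈ Q := by
      apply hCQ
      rw [Subgroup.mem_centralizer_iff]
      intro q hq
      exact (Subgroup.mem_centralizer_iff.mp (h1 hq) a ((memA a).mpr (by tauto))).symm
    have h3 := pow_three_of_three h hQp h2
    have h4 := pow_two_of_two h hS2 haS
    apply ha1
    have h5 : a ^ 3 = a := by rw [pow_succ, h4, one_mul]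
    rw [← h5, h3]
  set v := w⁻¹ * (y * w * y⁻¹) with hv
  have hvQ : v ∈ Q := mul_mem (inv_mem hwQ) (hQn.conj_mem w hwQ y)
  have hv1 : v ≠ 1 := by
    intro h1
    apply hyw
    have h2 := inv_mul_eq_one.mp h1
    calc y * w = (y * w * y⁻¹) * y := by group
      _ = w * y := by rw [← h2]
  have hxS := hAS hxA
  have hyS := hAS hyA
  have hxy := hcommS x hxS y hyS
  have hxv : x * v * x⁻¹ = v := by
    have h1 : x * w * x⁻¹ = w := by rw [hwx]; group
    have h2 : x * y * x⁻¹ = y := by rw [hxy]; group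
    calc x * v * x⁻¹ = (x * w * x⁻¹)⁻¹ * ((x * y * x⁻¹) * (x * w * x⁻¹) * (x * y * x⁻¹)⁻¹) := by
          rw [hv]; group
      _ = v := by rw [h1, h2]
  have hyv : y * v * y⁻¹ = v⁻¹ := by
    have h1 := hS2' y hyS
    have h2 := hinvS y hyS
    calc y * v * y⁻¹ = (y * w⁻¹ * y⁻¹) * ((y * y) * w * (y * y)⁻¹) := by rw [hv]; group
      _ = (y * w⁻¹ * y⁻¹) * w := by rw [h1]; group
      _ = v⁻¹ := by rw [hv]; group
  have hyxv : (y * x) * v * (y * x)⁻¹ = v⁻¹ := by
    calc (y * x) * v * (y * x)⁻¹ = y * (x * v * x⁻¹) * y⁻¹ := by group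
      _ = v⁻¹ := by rw [hxv, hyv]
  have hy1 : y ≠ 1 := by rintro rfl; apply hyw; group
  have hyx : y ≠ x := by rintro rfl; exact hyw hwx
  have hv3 : v ^ 3 = 1 := pow_three_of_three h hQp hvQ
  have hvg : (v * g) ^ 3 = 1 := by
    have h1 : (v * g) ^ 3 ∈ Q := by
      rw [← QuotientGroup.eq_one_iff, ← QuotientGroup.mk'_apply, map_pow, map_mul, hgb',
        QuotientGroup.mk'_apply, (QuotientGroup.eq_one_iff v).mpr hvQ, one_mul, hgb3]
    have h2 := pow_three_of_three h hQp h1
    have h3 : ((v * g) ^ 3) ^ 2 = 1 := by rw [← pow_mul]; exact h _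
    have h4 : ((v * g) ^ 3) ^ 3 = (v * g) ^ 3 := by rw [pow_succ ((v * g) ^ 3) 2, h3, one_mul]
    rw [← h4, h2]
  apply hv1
  -- every element of `A` other than `1`, `x` inverts `v`
  have hall : ∀ t ∈ A, t ≠ 1 → t ≠ x → t * v * t⁻¹ = v⁻¹ := by
    intro t ht ht1 htx
    have h1 : t = y ∨ t = y * x := by
      have hba : b * a = c := by rw [hcommS b hbS a haS, hab]
      have hac : a * c = b := by rw [← hab, ← mul_assoc, hS2' a haS, one_mul]
      have hca : c * a = b := by rw [hcommS c hcS a haS, hac]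
      have hbc : b * c = a := by
        rw [← hab, ← mul_assoc, hcommS b hbS a haS, mul_assoc, hS2' b hbS, mul_one]
      have hcb : c * b = a := by rw [hcommS c hcS b hbS, hbc]
      rcases (memA x).mp hxA with rfl | hx | hx | hx <;>
        rcases (memA y).mp hyA with rfl | hy | hy | hy <;>
        rcases (memA t).mp ht with rfl | ht' | ht' | ht' <;>
        first
          | exact absurd rfl hx1
          | exact absurd rfl hy1
          | exact absurd rfl ht1
          | exact absurd (hy.trans hx.symm) hyx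
          | exact absurd (ht'.trans hx.symm) htx
          | exact Or.inl (ht'.trans hy.symm)
          | (right; rw [ht', hy, hx]; first | exact hab.symm | exact hba.symm | exact hac.symm | exact hca.symm | exact hbc.symm | exact hcb.symm)
    rcases h1 with rfl | rfl
    · exact hyv
    · exact hyxv
  rcases (memA x).mp hxA with rfl | hx | hx | hx
  · exact absurd rfl hx1
  · subst hx
    exact final v g a b c hg3 hga hgb2 hv3 hvg hxv
      (hall b ((memA b).mpr (by tauto)) hb1 hab1.symm)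
      (hall c ((memA c).mpr (by tauto)) hc1 (by
        intro h1; apply hb1; rw [← hab] at h1; exact left_eq_mul.mp h1.symm))
  · subst hx
    exact final v g b c a hg3 hgb2 hgc hv3 hvg hxv
      (hall c ((memA c).mpr (by tauto)) hc1 (by
        intro h1; apply ha1; rw [← hab] at h1; exact right_eq_mul.mp h1.symm))
      (hall a ((memA a).mpr (by tauto)) ha1 hab1)
  · subst hx
    exact final v g c a b hg3 hgc hga hv3 hvg hxv
      (hall a ((memA a).mpr (by tauto)) ha1 (by
        intro h1; apply hb1; rw [← hab] at h1; exact left_eq_mul.mp h1))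
      (hall b ((memA b).mpr (by tauto)) hb1 (by
        intro h1; apply ha1; rw [← hab] at h1; exact right_eq_mul.mp h1))

theorem two_core [Finite K] (h : ∀ x : K, x ^ 6 = 1) (h0 : pPrimeCore 2 K = ⊥) :
    (pCore 2 K).index.Coprime 2 := by
  have hsol : Group.IsSolvable K := isSolvable h
  have : Fact (Nat.Prime 2) := ⟨Nat.prime_two⟩
  have hCQ : Subgroup.centralizer (pCore 2 K : Set K) ≤ pCore 2 K :=
    Lib.HallHigman.centralizer_pCore_le_of_solvable 2 h0
  obtain ⟨S⟩ : Nonempty (Sylow 2 K) := inferInstance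
  have hS2' : ∀ t ∈ (S : Subgroup K), t * t = 1 := fun t ht => by
    have := pow_two_of_two h S.2 ht
    rwa [sq] at this
  have hinvS : ∀ t ∈ (S : Subgroup K), t⁻¹ = t := fun t ht =>
    inv_eq_of_mul_eq_one_left (hS2' t ht)
  have hcommS : ∀ t ∈ (S : Subgroup K), ∀ t' ∈ (S : Subgroup K), t * t' = t' * t := by
    intro t ht t' ht'
    have h1 := hinvS _ (mul_mem ht ht')
    rw [mul_inv_rev, hinvS t ht, hinvS t' ht'] at h1
    exact h1.symm
  have hQS : pCore 2 K ≤ (S : Subgroup K) := Lib.Cores.pCore_le_sylow S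
  have hSC : (S : Subgroup K) ≤ Subgroup.centralizer (pCore 2 K : Set K) := by
    intro s hs
    rw [Subgroup.mem_centralizer_iff]
    intro q hq
    exact hcommS q (hQS hq) s hs
  have heq : (S : Subgroup K) = pCore 2 K := le_antisymm (hSC.trans hCQ) hQS
  rw [← heq]
  exact ((Nat.Prime.coprime_iff_not_dvd Nat.prime_two).mpr S.not_dvd_index).symm

theorem pLength_le_one [Finite K] (p : ℕ) [Fact p.Prime]
    (h : (pCore p (K ⧸ pPrimeCore p K)).index.Coprime p) : PLengthLE p 1 K := by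
  have hn : (pPrimeCore p K).Normal := Lib.Cores.pPrimeCore_normal p
  have h1 : PLengthLE p 1 (K ⧸ pPrimeCore p K) :=
    Cfsg.Agent.OddOrderLocal.Thm36Aux.pLength_of_normal_pgroup (pCore p (K ⧸ pPrimeCore p K))
      (Lib.Cores.pCore_normal p) (Lib.Cores.pCore_isPGroup p) h
  refine Cfsg.Agent.OddOrderLocal.Thm36Aux.pLength_of_surjective
    (QuotientGroup.mk' (pPrimeCore p K)) (QuotientGroup.mk'_surjective _) ?_ h1
  rw [QuotientGroup.ker_mk']
  exact Lib.Cores.pPrimeCore_coprime p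

theorem main [Finite K] (h : ∀ x : K, x ^ 6 = 1) : PLengthLE 2 1 K ∧ PLengthLE 3 1 K := by
  have : Fact (Nat.Prime 2) := ⟨Nat.prime_two⟩
  have : Fact (Nat.Prime 3) := ⟨Nat.prime_three⟩
  have hexp : ∀ (N : Subgroup K) [N.Normal] (x : K ⧸ N), x ^ 6 = 1 := by
    intro N _ x
    obtain ⟨y, rfl⟩ := QuotientGroup.mk'_surjective N x
    rw [← map_pow, h, map_one]
  refine ⟨pLength_le_one 2 ?_, pLength_le_one 3 ?_⟩
  · have hn : (pPrimeCore 2 K).Normal := Lib.Cores.pPrimeCore_normal 2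
    exact two_core (hexp _) (Lib.Cores.pPrimeCore_quotient_pPrimeCore 2)
  · have hn : (pPrimeCore 3 K).Normal := Lib.Cores.pPrimeCore_normal 3
    exact three_core (hexp _) (Lib.Cores.pPrimeCore_quotient_pPrimeCore 3)

end Cfsg.Agent.H545.ExpSix
end

-- part: S4227
section
set_option autoImplicit false
open Cfsg

namespace Cfsg.Agent.S4227

/-- A finite group in which every element has order dividing `6` has `2`-length at most `1` and `3`-length at most `1`. -/
theorem result {G : Type*} [Group G] [Finite G] (h : ∀ x : G, x ^ 6 = 1) : Cfsg.PLengthLE 2 1 G ∧ Cfsg.PLengthLE 3 1 G := by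
  exact Cfsg.Agent.H545.ExpSix.main h

end Cfsg.Agent.S4227
end
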