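import Cfsg.Statements.S4275
import Cfsg.Agent.H559.TwoTransPerm
set_option linter.all false

set_option autoImplicit false
open Cfsg

namespace Cfsg.Agent.S4275

/-- Let G be a transitive group of permutations of a finite set Ω, let o ∈ Ω, and let α be an automorphism of G. Then α is induced by conjugation by a permutation of Ω normalizing G if and only if the image under α of the stabilizer of o fixes some point of Ω. -/
theorem result {Ω : Type*} [Fintype Ω] (G : Subgroup (Equiv.Perm Ω)) (htr : MulAction.IsPretransitive G Ω) (o : Ω) (α : G ≃* G) : (∃ σ : Equiv.Perm Ω, σ ∈ Subgroup.normalizer (G : Set (Equiv.Perm Ω)) ∧ ∀ g : G, ((α g : G) : Equiv.Perm Ω) = σ * (g : Equiv.Perm Ω) * σ⁻¹) ↔ ∃ ω : Ω, ∀ g ∈ (MulAction.stabilizer G o).map α.toMonoidHom, g • ω = ω := by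
  classical
  constructor
  · rintro ⟨σ, -, hσ⟩
    refine ⟨σ o, ?_⟩
    intro g hg
    obtain ⟨h, hh, rfl⟩ := Subgroup.mem_map.1 hg
    have h1 : ((α h : G) : Equiv.Perm Ω) = σ * (h : Equiv.Perm Ω) * σ⁻¹ := hσ h
    change ((α h : G) : Equiv.Perm Ω) (σ o) = σ o
    rw [h1]
    have h2 : (h : Equiv.Perm Ω) o = o := hh
    simp [h2]
  · rintro ⟨ω, hω⟩
    obtain ⟨σ, hσ⟩ := Cfsg.Agent.H559.TwoTrans.exists_perm_of_fixed G α htr o ω hω
    exact ⟨σ, Cfsg.Agent.H559.TwoTrans.mem_normalizer G α σ hσ,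
      Cfsg.Agent.H559.TwoTrans.conj_eq G α σ hσ⟩

end Cfsg.Agent.S4275
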