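import Mathlib
import Cfsg.Agent.PLocal.HHBLinear
import Cfsg.Agent.PLocal.HHBJordan
import Cfsg.Agent.Characters.MonomialNil
import Cfsg.Statements.S4282
set_option linter.all false

-- part: H557/HHCrit
section
/-!
helper557: the critical case of Theorem B of Hall and Higman for an arbitrary `q`-group.

* `sum_conj`, `trace_formula` : Schur orthogonality over an algebraically closed field in which `|Q|` is invertible;
* `decomp` : every operator commuting with `Y` is a scalar plus a trace;
* `exists_eigenvector`, `finrank_pow` : the degree of an irreducible representation of a `q`-group is a power of `q`.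
-/

set_option autoImplicit false
set_option linter.unusedSectionVars false

namespace Cfsg.Agent.H557.HHCrit

open Module Cfsg.Agent.PLocal.HHBLinear Cfsg.Agent.PLocal.HHBJordan

variable {K : Type*} [Field K] {U : Type*} [AddCommGroup U] [Module K U] {Q : Type*} [Group Q]

/-! ### Schur orthogonality -/

section Schur

variable [IsAlgClosed K] [FiniteDimensional K U] [Nontrivial U] [Fintype Q] {ρ : Q →* Module.End K U}

theorem sum_conj_scalar (hirr : IsIrr ρ) (A : Module.End K U) :
    ∃ c : K, ∑ g : Q, ρ g * A * ρ g⁻¹ = c • 1 := by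
  refine schur hirr _ fun h => ?_
  rw [Finset.sum_mul, Finset.mul_sum, ← Equiv.sum_comp (Equiv.mulLeft h)]
  refine Finset.sum_congr rfl fun g _ => ?_
  rw [Equiv.coe_mulLeft, mul_inv_rev, map_mul, map_mul]
  have h1 : ρ h⁻¹ * ρ h = 1 := by rw [← map_mul, inv_mul_cancel, map_one]
  simp only [mul_assoc]
  rw [h1, mul_one]

theorem trace_sum_conj (A : Module.End K U) :
    LinearMap.trace K U (∑ g : Q, ρ g * A * ρ g⁻¹) = (Fintype.card Q : K) * LinearMap.trace K U A := by
  rw [map_sum]
  have h1 : ∀ g : Q, LinearMap.trace K U (ρ g * A * ρ g⁻¹) = LinearMap.trace K U A := by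
    intro g
    rw [LinearMap.trace_mul_comm, ← mul_assoc, ← map_mul, inv_mul_cancel, map_one, one_mul]
  rw [Finset.sum_congr rfl fun g _ => h1 g, Finset.sum_const, nsmul_eq_mul]
  rfl

/-- the dimension is invertible in `K` -/
theorem finrank_ne_zero (hirr : IsIrr ρ) (hcard : (Fintype.card Q : K) ≠ 0) : (finrank K U : K) ≠ 0 := by
  obtain ⟨v, hv⟩ := exists_ne (0 : U)
  obtain ⟨ψ, hψ⟩ : ∃ ψ : Module.Dual K U, ψ v = 1 := Module.Projective.exists_dual_eq_one K hv
  obtain ⟨c, hc⟩ := sum_conj_scalar hirr (ψ.smulRight v)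
  have h1 := trace_sum_conj (ρ := ρ) (ψ.smulRight v)
  rw [hc, map_smul, LinearMap.trace_one, LinearMap.trace_smulRight, hψ, mul_one, smul_eq_mul] at h1
  intro h0
  rw [h0, mul_zero] at h1
  exact hcard h1.symm

theorem sum_conj (hirr : IsIrr ρ) (A : Module.End K U) :
    (finrank K U : K) • ∑ g : Q, ρ g * A * ρ g⁻¹ = ((Fintype.card Q : K) * LinearMap.trace K U A) • 1 := by
  obtain ⟨c, hc⟩ := sum_conj_scalar hirr A
  have h1 := trace_sum_conj (ρ := ρ) A
  rw [hc, map_smul, LinearMap.trace_one, smul_eq_mul] at h1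
  rw [hc, smul_smul, ← h1, mul_comm]

/-- **the inversion formula** -/
theorem trace_formula (hirr : IsIrr ρ) (T : Module.End K U) :
    (finrank K U : K) • ∑ g : Q, (LinearMap.trace K U (T * ρ g⁻¹)) • ρ g = (Fintype.card Q : K) • T := by
  let b := Module.finBasis K U
  have hT : T = ∑ i, (b.coord i).smulRight (T (b i)) := by
    refine b.ext fun j => ?_
    rw [LinearMap.sum_apply, Finset.sum_eq_single j]
    · simp
    · intro i _ hi
      rw [LinearMap.smulRight_apply, Basis.coord_apply, Basis.repr_self, Finsupp.single_eq_of_ne hi, zero_smul]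
    · intro h; exact absurd (Finset.mem_univ j) h
  have htr : ∀ g : Q, LinearMap.trace K U (T * ρ g⁻¹) = ∑ i, b.coord i (ρ g⁻¹ (T (b i))) := by
    intro g
    conv_lhs => rw [hT]
    rw [Finset.sum_mul, map_sum]
    refine Finset.sum_congr rfl fun i _ => ?_
    have h1 : (b.coord i).smulRight (T (b i)) * ρ g⁻¹ = ((b.coord i).comp (ρ g⁻¹)).smulRight (T (b i)) := by
      ext w; rfl
    rw [h1, LinearMap.trace_smulRight]
    rfl
  ext w
  have key : ∀ i, (finrank K U : K) • ∑ g : Q, (b.coord i (ρ g⁻¹ (T (b i)))) • ρ g w =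
      ((Fintype.card Q : K) * b.coord i w) • T (b i) := by
    intro i
    have h1 := congrArg (fun S : Module.End K U => S (T (b i))) (sum_conj hirr ((b.coord i).smulRight w))
    simp only [LinearMap.smul_apply, LinearMap.sum_apply, Module.End.mul_apply, LinearMap.smulRight_apply,
      map_smul, LinearMap.trace_smulRight, Module.End.one_apply] at h1
    exact h1
  rw [LinearMap.smul_apply, LinearMap.sum_apply, LinearMap.smul_apply]
  simp_rw [LinearMap.smul_apply, htr, Finset.sum_smul]
  rw [Finset.sum_comm, Finset.smul_sum, Finset.sum_congr rfl fun i _ => key i]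
  conv_rhs => rw [hT, LinearMap.sum_apply, Finset.smul_sum]
  refine Finset.sum_congr rfl fun i _ => ?_
  rw [LinearMap.smulRight_apply, smul_smul]

end Schur

/-! ### the trace decomposition -/

section Decomp

variable {ρ : Q →* Module.End K U} {Y : (Module.End K U)ˣ} {σ : MulAut Q}

theorem conj_pow (hY : ∀ h, (Y : Module.End K U) * ρ h = ρ (σ h) * Y) (i : ℕ) (u : Q) :
    ((Y ^ i : (Module.End K U)ˣ) : Module.End K U) * ρ u * ((Y ^ i)⁻¹ : (Module.End K U)ˣ) = ρ ((σ ^ i) u) := by
  have h1 : ((Y ^ i : (Module.End K U)ˣ) : Module.End K U) * ρ u = ρ ((σ ^ i) u) * (Y ^ i : (Module.End K U)ˣ) := by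
    induction i with
    | zero => simp
    | succ i ih =>
      rw [pow_succ', Units.val_mul, mul_assoc, ih, ← mul_assoc, hY, pow_succ', MulAut.mul_apply, mul_assoc]
  rw [h1, mul_assoc, Units.mul_inv, mul_one]

theorem trace_inv (hY : ∀ h, (Y : Module.End K U) * ρ h = ρ (σ h) * Y) {T : Module.End K U}
    (hT : (Y : Module.End K U) * T = T * Y) (g : Q) :
    LinearMap.trace K U (T * ρ (σ g)⁻¹) = LinearMap.trace K U (T * ρ g⁻¹) := by
  have h1 : ρ (σ g)⁻¹ = (Y : Module.End K U) * ρ g⁻¹ * ((Y⁻¹ : (Module.End K U)ˣ) : Module.End K U) := by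
    rw [hY, map_inv σ g, mul_assoc, Units.mul_inv, mul_one]
  rw [h1, ← mul_assoc, ← mul_assoc, ← hT, LinearMap.trace_mul_comm, mul_assoc, ← mul_assoc, ← mul_assoc,
    Units.inv_mul, one_mul]

theorem trace_inv_pow (hY : ∀ h, (Y : Module.End K U) * ρ h = ρ (σ h) * Y) {T : Module.End K U}
    (hT : (Y : Module.End K U) * T = T * Y) (i : ℕ) (g : Q) :
    LinearMap.trace K U (T * ρ ((σ ^ i) g)⁻¹) = LinearMap.trace K U (T * ρ g⁻¹) := by
  induction i with
  | zero => simp
  | succ i ih => rw [pow_succ', MulAut.mul_apply, trace_inv hY hT, ih]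

theorem exists_trace_of_finset [DecidableEq Q] {P : Q → Module.End K U} {N : ℕ} (hN : 0 < N)
    (hP : ∀ i u, ((Y ^ i : (Module.End K U)ˣ) : Module.End K U) * P u * ((Y ^ i)⁻¹ : (Module.End K U)ˣ) =
      P ((σ ^ i) u)) (hσ : σ ^ N = 1) (n : ℕ) :
    ∀ S : Finset Q, S.card = n → (∀ u ∈ S, MulAction.period σ u = N) → (∀ u ∈ S, σ u ∈ S) →
      ∃ E : Module.End K U, ∑ u ∈ S, P u = tr Y N E := by
  induction n using Nat.strong_induction_on with
  | _ n ih =>
    intro S hSn hSr hSσ
    unfold tr at ih ⊢
    rcases S.eq_empty_or_nonempty with hS | ⟨u, hu⟩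
    · exact ⟨0, by simp [hS]⟩
    · have hper := hSr u hu
      have hpow : ∀ i, (σ ^ i) u ∈ S := by
        intro i
        induction i with
        | zero => simpa using hu
        | succ i ih => rw [pow_succ', MulAut.mul_apply]; exact hSσ _ ih
      let O : Finset Q := (Finset.range N).image (fun i => (σ ^ i) u)
      have hinj : Set.InjOn (fun i => (σ ^ i) u) (Finset.range N : Set ℕ) := by
        intro i hi j hj hij
        have hi' : i < N := Finset.mem_range.1 hi
        have hj' : j < N := Finset.mem_range.1 hj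
        have h1 : ∀ a b : ℕ, a ≤ b → b < N → (σ ^ a) u = (σ ^ b) u → a = b := by
          intro a b hab hb h
          have h2 : (σ ^ (b - a)) • u = u := by
            have h3 : σ ^ b = σ ^ a * σ ^ (b - a) := by rw [← pow_add]; congr 1; omega
            rw [h3, MulAut.mul_apply] at h
            exact (σ ^ a).injective h.symm
          rw [MulAction.pow_smul_eq_iff_period_dvd, hper] at h2
          have := Nat.eq_zero_of_dvd_of_lt h2 (by omega)
          omega
        rcases le_total i j with h | h
        · exact h1 i j h hj' hij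
        · exact (h1 j i h hi' hij.symm).symm
      have hOS : O ⊆ S := by
        intro v hv
        obtain ⟨i, _, rfl⟩ := Finset.mem_image.1 hv
        exact hpow i
      have huO : u ∈ O := Finset.mem_image.2 ⟨0, Finset.mem_range.2 hN, by simp⟩
      obtain ⟨E, hE⟩ := ih (S \ O).card (by
        rw [← hSn]
        exact Finset.card_lt_card (Finset.sdiff_ssubset hOS ⟨u, huO⟩)) (S \ O) rfl
        (fun v hv => hSr v (Finset.mem_sdiff.1 hv).1)
        (by
          intro v hv
          obtain ⟨hvS, hvO⟩ := Finset.mem_sdiff.1 hv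
          refine Finset.mem_sdiff.2 ⟨hSσ v hvS, fun hcon => hvO ?_⟩
          obtain ⟨i, hi, hiv⟩ := Finset.mem_image.1 hcon
          rcases Nat.eq_zero_or_pos i with h0 | h0
          · refine Finset.mem_image.2 ⟨N - 1, Finset.mem_range.2 (by omega), ?_⟩
            apply σ.injective
            rw [← hiv, h0, ← MulAut.mul_apply, ← pow_succ', Nat.sub_add_cancel hN, hσ, pow_zero]
          · refine Finset.mem_image.2 ⟨i - 1, Finset.mem_range.2
              (by have := Finset.mem_range.1 hi; omega), ?_⟩
            apply σ.injective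
            rw [← hiv, ← MulAut.mul_apply, ← pow_succ', Nat.sub_add_cancel h0])
      refine ⟨E + P u, ?_⟩
      rw [← Finset.sum_sdiff hOS, hE, Finset.sum_image hinj, ← Finset.sum_add_distrib]
      refine Finset.sum_congr rfl fun i _ => ?_
      rw [← hP, mul_add, add_mul]

/-- **Key decomposition**: everything commuting with `Y` is a scalar plus a trace. -/
theorem decomp [Fintype Q] [IsAlgClosed K] [FiniteDimensional K U] [Nontrivial U] (hirr : IsIrr ρ)
    (hcard : (Fintype.card Q : K) ≠ 0) (hY : ∀ h, (Y : Module.End K U) * ρ h = ρ (σ h) * Y) {N : ℕ} (hN : 0 < N)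
    (hσ : σ ^ N = 1) (hfix : ∀ u : Q, MulAction.period σ u = N ∨ (σ u = u ∧ ∃ c : K, ρ u = c • 1)) :
    Decomp Y N := by
  classical
  intro T hT
  set d : K := (finrank K U : K) with hd
  have hd0 : d ≠ 0 := finrank_ne_zero hirr hcard
  set φ : Q → K := fun g => LinearMap.trace K U (T * ρ g⁻¹) with hφ
  have h1 := trace_formula hirr T
  have h2 : T = ((Fintype.card Q : K)⁻¹ * d) • ∑ g : Q, φ g • ρ g := by
    rw [← smul_smul, h1, smul_smul, inv_mul_cancel₀ hcard, one_smul]
  obtain ⟨E, hE⟩ := exists_trace_of_finset (P := fun g => φ g • ρ g) (Y := Y) (σ := σ) hN (fun i u => by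
      rw [mul_smul_comm, smul_mul_assoc, conj_pow hY]
      show _ = φ ((σ ^ i) u) • _
      rw [hφ]
      simp only
      rw [trace_inv_pow hY hT]) hσ _
    (Finset.univ.filter fun u => ¬ ∃ c : K, ρ u = c • 1) rfl
    (fun u hu => (hfix u).resolve_right fun h => (Finset.mem_filter.1 hu).2 h.2)
    (fun u hu => by
      refine Finset.mem_filter.2 ⟨Finset.mem_univ _, fun ⟨c, hc⟩ => (Finset.mem_filter.1 hu).2 ⟨c, ?_⟩⟩
      have h3 := hY u
      rw [hc, smul_mul_assoc, one_mul] at h3
      have h4 : ((Y⁻¹ : (Module.End K U)ˣ) : Module.End K U) * ((Y : Module.End K U) * ρ u) =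
          ((Y⁻¹ : (Module.End K U)ˣ) : Module.End K U) * (c • (Y : Module.End K U)) := by rw [h3]
      rw [← mul_assoc, Units.inv_mul, one_mul, mul_smul_comm, Units.inv_mul] at h4
      exact h4)
  have hsc : ∃ c : K, ∑ g ∈ Finset.univ.filter (fun u => ∃ c : K, ρ u = c • 1), φ g • ρ g = c • 1 := by
    refine Finset.sum_induction _ (fun E => ∃ c : K, E = c • (1 : Module.End K U)) ?_ ⟨0, by rw [zero_smul]⟩ ?_
    · rintro _ _ ⟨a, rfl⟩ ⟨b, rfl⟩
      exact ⟨a + b, by rw [add_smul]⟩
    · intro g hg
      obtain ⟨c, hc⟩ := (Finset.mem_filter.1 hg).2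
      exact ⟨φ g * c, by rw [hc, smul_smul]⟩
  obtain ⟨c, hc⟩ := hsc
  refine ⟨(Fintype.card Q : K)⁻¹ * d * c, ((Fintype.card Q : K)⁻¹ * d) • E, ?_⟩
  conv_lhs => rw [h2, ← Finset.sum_filter_add_sum_filter_not Finset.univ (fun u => ∃ c : K, ρ u = c • 1)]
  rw [hc, hE, smul_add, smul_smul]
  congr 1
  unfold tr
  rw [Finset.smul_sum]
  refine Finset.sum_congr rfl fun i _ => ?_
  rw [mul_smul_comm, smul_mul_assoc]

end Decomp

/-! ### degrees -/

universe u v

open Cfsg.Agent.Characters.MonomialNil (exists_central_mod)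

theorem exists_eigenvector_aux {K : Type*} [Field K] [IsAlgClosed K] (n : ℕ) : ∀ (G : Type u) [Group G] [Finite G]
    [Group.IsNilpotent G] (V : Type v) [AddCommGroup V] [Module K V] [FiniteDimensional K V]
    [Nontrivial V] (ρ : Representation K G V), finrank K V = n →
    ∃ (H : Subgroup G) (v : V), v ≠ 0 ∧ (∀ g ∈ H, ∃ c : K, ρ g v = c • v) ∧ H.index ≤ n := by
  induction n using Nat.strong_induction_on with
  | _ n ih =>
    intro G _ _ _ V _ _ _ _ ρ hn
    classical
    by_cases hs : ∀ g, ∃ c : K, ρ g = c • (1 : Module.End K V)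
    · obtain ⟨v, hv⟩ := exists_ne (0 : V)
      refine ⟨⊤, v, hv, fun g _ => ?_, ?_⟩
      · obtain ⟨c, hc⟩ := hs g
        exact ⟨c, by rw [hc]; rfl⟩
      · rw [Subgroup.index_top, ← hn]
        exact Module.finrank_pos
    · -- the subgroup of elements acting as scalars
      let Z : Subgroup G :=
        { carrier := {g | ∃ c : K, ρ g = c • (1 : Module.End K V)}
          one_mem' := ⟨1, by simp⟩
          mul_mem' := by
            rintro a b ⟨c, hc⟩ ⟨d, hd⟩
            exact ⟨c * d, by rw [map_mul, hc, hd, smul_mul_smul_comm, one_mul]⟩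
          inv_mem' := by
            rintro a ⟨c, hc⟩
            have h1 : ρ a⁻¹ * ρ a = 1 := by rw [← map_mul, inv_mul_cancel, map_one]
            rw [hc, mul_smul_comm, mul_one] at h1
            have hc0 : c ≠ 0 := by
              rintro rfl
              rw [zero_smul] at h1
              exact zero_ne_one h1
            refine ⟨c⁻¹, ?_⟩
            rw [← h1, smul_smul, inv_mul_cancel₀ hc0, one_smul] }
      have hZ : Z ≠ ⊤ := by
        intro h
        apply hs
        intro g
        have : g ∈ Z := h ▸ Subgroup.mem_top g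
        exact this
      obtain ⟨a, haZ, hcomm⟩ := exists_central_mod Z hZ
      -- `ρ a * ρ g = c g • (ρ g * ρ a)`
      have hc : ∀ g, ∃ c : K, ρ a * ρ g = c • (ρ g * ρ a) := by
        intro g
        obtain ⟨c, hc⟩ := hcomm g
        refine ⟨c, ?_⟩
        have : a * g = (a * g * a⁻¹ * g⁻¹) * (g * a) := by group
        rw [← map_mul, this, map_mul, hc, map_mul, smul_mul_assoc, one_mul]
      have hunit : ∀ g, IsUnit (ρ g) := fun g => (Group.isUnit g).map ρ
      choose c hc using hc
      have huniq : ∀ (g : G) (d : K), ρ a * ρ g = d • (ρ g * ρ a) → c g = d := by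
        intro g d hd
        have h1 := (hc g).symm.trans hd
        have h2 : ρ g * ρ a ≠ 0 := ((hunit g).mul (hunit a)).ne_zero
        exact smul_left_injective K h2 h1
      have hc1 : c 1 = 1 := huniq 1 1 (by simp)
      have hcmul : ∀ g h : G, c (g * h) = c g * c h := by
        intro g h
        apply huniq
        rw [map_mul, ← mul_assoc, hc g, smul_mul_assoc, mul_assoc, hc h, mul_smul_comm, smul_smul,
          mul_assoc]
      let e : G →* Kˣ := MonoidHom.toHomUnits ⟨⟨c, hc1⟩, hcmul⟩
      have he : ∀ g, (e g : K) = c g := fun g => rfl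
      -- an eigenvalue of `ρ a`
      obtain ⟨μ, hμ⟩ := Module.End.exists_eigenvalue (ρ a)
      let W : Submodule K V := Module.End.eigenspace (ρ a) μ
      have hW0 : W ≠ ⊥ := hμ
      have hWtop : W ≠ ⊤ := by
        intro h
        apply haZ
        refine ⟨μ, LinearMap.ext fun x => ?_⟩
        have : x ∈ W := h ▸ Submodule.mem_top
        exact Module.End.mem_eigenspace_iff.mp this
      have hμ0 : μ ≠ 0 := by
        rintro rfl
        obtain ⟨x, hx⟩ := hμ.exists_hasEigenvector
        have h1 := hx.apply_eq_smul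
        rw [zero_smul] at h1
        apply hx.2
        have h2 : ρ a⁻¹ (ρ a x) = x := by
          rw [← Module.End.mul_apply, ← map_mul, inv_mul_cancel, map_one, Module.End.one_apply]
        rw [← h2, h1, map_zero]
      -- `ρ g` maps `W` into the eigenspace for `c g * μ`
      have hmaps : ∀ (g : G) (x : V), x ∈ W → ρ g x ∈ Module.End.eigenspace (ρ a) (c g * μ) := by
        intro g x hx
        rw [Module.End.mem_eigenspace_iff]
        have h1 : ρ a x = μ • x := Module.End.mem_eigenspace_iff.mp hx
        have h2 := congrArg (fun f : Module.End K V => f x) (hc g)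
        simp only [Module.End.mul_apply, LinearMap.smul_apply] at h2
        rw [h2, h1, map_smul, smul_smul]
      let L : Subgroup G := e.ker
      have hL : ∀ k : L, ∀ x ∈ W, ρ k x ∈ W := by
        intro k x hx
        have h1 := hmaps k x hx
        have h2 : e k = 1 := k.2
        rw [← he, h2, Units.val_one, one_mul] at h1
        exact h1
      -- the representation of `L` on `W`
      let σ : Representation K L W :=
        { toFun := fun k => (ρ k).restrict (hL k)
          map_one' := by
            ext x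
            simp
          map_mul' := by
            intro k l
            ext x
            simp [LinearMap.restrict_apply] }
      have hσ : ∀ (k : L) (w : W), ((σ k w : W) : V) = ρ k w := fun k w => rfl
      have : Nontrivial W := Submodule.nontrivial_iff_ne_bot.mpr hW0
      have hlt : finrank K W < n := hn ▸ Submodule.finrank_lt hWtop
      obtain ⟨H, w, hw0, hwH, hidx⟩ := ih _ hlt L W σ rfl
      refine ⟨H.map L.subtype, w, ?_, ?_, ?_⟩
      · intro h
        exact hw0 (Subtype.ext h)
      · rintro _ ⟨k, hk, rfl⟩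
        obtain ⟨d, hd⟩ := hwH k hk
        exact ⟨d, by rw [Subgroup.subtype_apply, ← hσ, hd]; rfl⟩
      · rw [Subgroup.index_map_subtype]
        -- dimension count
        have hKidx : L.index = Nat.card e.range := Subgroup.index_ker e
        have hcount : Nat.card e.range * finrank K W ≤ finrank K V := by
          have : Finite e.range := Finite.of_surjective e.rangeRestrict e.rangeRestrict_surjective
          have : Fintype e.range := Fintype.ofFinite _
          let p : e.range → Submodule K V := fun x =>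
            Module.End.eigenspace (ρ a) (((x : Kˣ) : K) * μ)
          have hp : iSupIndep p := by
            refine (Module.End.eigenspaces_iSupIndep (ρ a)).comp
              (f := fun x : e.range => ((x : Kˣ) : K) * μ) ?_
            intro x y hxy
            exact Subtype.ext (Units.ext (mul_right_cancel₀ hμ0 hxy))
          have hinj := hp.dfinsupp_lsum_injective
          have h1 : finrank K (DirectSum e.range fun x => p x) ≤ finrank K V :=
            LinearMap.finrank_le_finrank_of_injective
              (f := (DFinsupp.lsum ℕ (M := fun x => p x) fun i => (p i).subtype)) hinj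
          rw [Module.finrank_directSum] at h1
          refine le_trans ?_ h1
          have h2 : ∀ x : e.range, finrank K W ≤ finrank K (p x) := by
            rintro ⟨_, g, rfl⟩
            let f : W →ₗ[K] p ⟨e g, g, rfl⟩ :=
              ((ρ g).domRestrict W).codRestrict _ (fun x => hmaps g x x.2)
            refine LinearMap.finrank_le_finrank_of_injective (f := f) ?_
            intro x y hxy
            have h3 : ρ g x = ρ g y := congrArg Subtype.val hxy
            have h4 : ρ g⁻¹ (ρ g x) = ρ g⁻¹ (ρ g y) := by rw [h3]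
            rw [← Module.End.mul_apply, ← Module.End.mul_apply, ← map_mul, inv_mul_cancel,
              map_one, Module.End.one_apply, Module.End.one_apply] at h4
            exact Subtype.ext h4
          calc Nat.card e.range * finrank K W = ∑ _x : e.range, finrank K W := by
                rw [Finset.sum_const, Finset.card_univ, smul_eq_mul, Nat.card_eq_fintype_card]
            _ ≤ _ := Finset.sum_le_sum fun x _ => h2 x
        rw [hn] at hcount
        calc H.index * L.index ≤ finrank K W * L.index := Nat.mul_le_mul_right _ hidx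
          _ = Nat.card e.range * finrank K W := by rw [hKidx, mul_comm]
          _ ≤ n := hcount

/-- **the degree of an irreducible representation of a `q`-group is a power of `q`** -/
theorem finrank_pow {K : Type*} [Field K] [IsAlgClosed K] {q : ℕ} [Fact q.Prime] {G : Type u} [Group G] [Finite G]
    (hG : IsPGroup q G) {V : Type v} [AddCommGroup V] [Module K V] [FiniteDimensional K V] [Nontrivial V]
    (ρ : G →* Module.End K V) (hirr : IsIrr ρ) : ∃ b : ℕ, finrank K V = q ^ b := by
  classical
  have hnil : Group.IsNilpotent G := hG.isNilpotent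
  obtain ⟨H, v, hv, hH, hidx⟩ := exists_eigenvector_aux _ G V ρ rfl
  have hFin : Finite (G ⧸ H) := inferInstance
  have hFt : Fintype (G ⧸ H) := Fintype.ofFinite _
  let S : Submodule K V := Submodule.span K (Set.range fun c : G ⧸ H => ρ c.out v)
  have hmem : ∀ g : G, ρ g v ∈ S := by
    intro g
    have h1 : ((g : G ⧸ H).out)⁻¹ * g ∈ H := by
      rw [← QuotientGroup.eq, QuotientGroup.out_eq']
    obtain ⟨c, hc⟩ := hH _ h1
    have h2 : ρ g v = c • ρ (g : G ⧸ H).out v := by
      rw [← map_smul, ← hc, ← Module.End.mul_apply, ← map_mul, mul_inv_cancel_left]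
    rw [h2]
    exact S.smul_mem _ (Submodule.subset_span ⟨_, rfl⟩)
  have hinv : ∀ h : G, ∀ w ∈ S, ρ h w ∈ S := by
    intro h w hw
    refine Submodule.span_induction (p := fun w _ => ρ h w ∈ S) ?_ ?_ ?_ ?_ hw
    · rintro _ ⟨c, rfl⟩
      simp only
      rw [← Module.End.mul_apply, ← map_mul]
      exact hmem _
    · rw [map_zero]; exact S.zero_mem
    · intro a b _ _ ha hb
      rw [map_add]; exact S.add_mem ha hb
    · intro a b _ hb
      rw [map_smul]; exact S.smul_mem _ hb
  have hS : S = ⊤ := by
    refine (hirr S hinv).resolve_left fun h => hv ?_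
    have h1 := hmem 1
    rw [h, map_one, Module.End.one_apply, Submodule.mem_bot] at h1
    exact h1
  have hle : finrank K V ≤ H.index := by
    have h1 := finrank_range_le_card (R := K) (fun c : G ⧸ H => ρ c.out v)
    unfold Set.finrank at h1
    have h2 : Submodule.span K (Set.range fun c : G ⧸ H => ρ c.out v) = ⊤ := hS
    rw [h2, finrank_top] at h1
    rw [Subgroup.index, Nat.card_eq_fintype_card]
    exact h1
  have heq : finrank K V = H.index := le_antisymm hle hidx
  obtain ⟨b, hb⟩ := hG.index H
  exact ⟨b, heq.trans hb⟩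

end Cfsg.Agent.H557.HHCrit
end

-- part: S4282
section
set_option autoImplicit false
open Cfsg

namespace Cfsg.Agent.S4282

/-- A critical case behind the Hall–Higman theorem. Let p ≠ q be primes and G a finite group generated by a normal q-subgroup Q and a cyclic p-subgroup generated by x, such that the centralizer of every non-identity element of that cyclic subgroup is its product with the centre of G. Let K be an algebraically closed field of characteristic p and ρ a faithful representation of G on a nonzero finite-dimensional K-space whose restriction to Q is irreducible. If s is the least exponent with (ρ(x) − 1)^s = 0, then |⟨x⟩| − 1 ≤ s ≤ |⟨x⟩|; and if s = |⟨x⟩| − 1 then |⟨x⟩| − 1 is a power of q and Q is non-abelian. -/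
theorem result {G : Type*} [Group G] [Finite G] (p q : ℕ) [Fact p.Prime] [Fact q.Prime] (hpq : p ≠ q) (Q : Subgroup G) [Q.Normal] (hQ : IsPGroup q Q) (x : G) (hx : IsPGroup p (Subgroup.zpowers x)) (hgen : Q ⊔ Subgroup.zpowers x = ⊤) (hC : ∀ y ∈ Subgroup.zpowers x, y ≠ 1 → Subgroup.centralizer ({y} : Set G) = Subgroup.zpowers x ⊔ Subgroup.center G) {K : Type*} [Field K] [IsAlgClosed K] [CharP K p] {V : Type*} [AddCommGroup V] [Module K V] [FiniteDimensional K V] [Nontrivial V] (ρ : Representation K G V) (hfaith : Function.Injective ρ) (hirr : ∀ W : Submodule K V, (∀ g ∈ Q, Submodule.map (ρ g) W ≤ W) → W = ⊥ ∨ W = ⊤) (s : ℕ) (hs : (ρ x - 1) ^ s = 0) (hmin : ∀ k < s, (ρ x - 1) ^ k ≠ 0) : Nat.card (Subgroup.zpowers x) - 1 ≤ s ∧ s ≤ Nat.card (Subgroup.zpowers x) ∧ (s = Nat.card (Subgroup.zpowers x) - 1 → (∃ b : ℕ, Nat.card (Subgroup.zpowers x) - 1 = q ^ b) ∧ ¬ IsMulCommutative Q) := by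
  classical
  have hpp : p.Prime := Fact.out
  have hqq : q.Prime := Fact.out
  obtain ⟨n, hn⟩ := (IsPGroup.iff_card).1 hx
  have hcardx : orderOf x = p ^ n := by rw [← Nat.card_zpowers, hn]
  rw [hn]
  -- `s ≤ p ^ n`
  have hxp : (ρ x - 1) ^ (p ^ n) = 0 := by
    have : CharP (Module.End K V) p := charP_of_injective_algebraMap (algebraMap K (Module.End K V)).injective p
    rw [sub_pow_char_pow_of_commute _ _ (Commute.one_right _), one_pow, ← map_pow, ← hcardx, pow_orderOf_eq_one,
      map_one, sub_self]
  have hle : s ≤ p ^ n := by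
    by_contra hcon
    exact hmin _ (not_le.1 hcon) hxp
  rcases Nat.eq_zero_or_pos n with hn0 | hn1
  · subst hn0
    rw [pow_zero] at hle ⊢
    refine ⟨by simp, hle, fun h0 => ?_⟩
    exfalso
    have h1 : s = 0 := by simpa using h0
    rw [h1, pow_zero] at hs
    exact one_ne_zero hs
  -- the data for the decomposition
  have hx1 : x ≠ 1 := by
    rintro rfl
    rw [orderOf_one] at hcardx
    exact absurd hcardx.symm (Nat.one_lt_pow hn1.ne' hpp.one_lt).ne'
  let _ : Fintype Q := Fintype.ofFinite Q
  let ρQ : Q →* Module.End K V := (ρ : G →* Module.End K V).comp Q.subtype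
  have hirr' : Cfsg.Agent.PLocal.HHBLinear.IsIrr ρQ := by
    intro S hS
    refine hirr S fun g hg => ?_
    rintro _ ⟨w, hw, rfl⟩
    exact hS ⟨g, hg⟩ w hw
  obtain ⟨a, ha⟩ := IsPGroup.iff_card.1 hQ
  have hcard : (Fintype.card Q : K) ≠ 0 := by
    rw [← Nat.card_eq_fintype_card, ha]
    intro h0
    rw [CharP.cast_eq_zero_iff K p] at h0
    exact hpq ((Nat.prime_dvd_prime_iff_eq hpp hqq).1 (hpp.dvd_of_dvd_pow h0))
  let σ : MulAut Q := MulAut.conjNormal x
  have hσ : ∀ (i : ℕ) (u : Q), (((σ ^ i) u : Q) : G) = x ^ i * u * (x ^ i)⁻¹ := by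
    intro i u
    have h1 : σ ^ i = MulAut.conjNormal (x ^ i) := (map_pow _ _ _).symm
    rw [h1, MulAut.conjNormal_apply]
  let Y : (Module.End K V)ˣ := ⟨ρ x, ρ x⁻¹, by rw [← map_mul, mul_inv_cancel, map_one],
    by rw [← map_mul, inv_mul_cancel, map_one]⟩
  have hYval : (Y : Module.End K V) = ρ x := rfl
  have hY : ∀ h, (Y : Module.End K V) * ρQ h = ρQ (σ h) * Y := by
    intro h
    show ρ x * ρ (h : G) = ρ ((σ h : Q) : G) * ρ x
    have h1 := hσ 1 h
    rw [pow_one, pow_one] at h1
    rw [h1, ← map_mul, ← map_mul]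
    congr 1
    group
  have hN : 0 < p ^ n := pow_pos hpp.pos n
  have hσN : σ ^ (p ^ n) = 1 := by
    ext u
    rw [hσ, ← hcardx, pow_orderOf_eq_one]
    simp
  have hfix : ∀ u : Q, MulAction.period σ u = p ^ n ∨ (σ u = u ∧ ∃ c : K, ρQ u = c • 1) := by
    intro u
    by_cases hper : MulAction.period σ u = p ^ n
    · exact Or.inl hper
    right
    set m := MulAction.period σ u with hm
    have hmd : m ∣ p ^ n := by
      rw [hm, ← MulAction.pow_smul_eq_iff_period_dvd, hσN, one_smul]
    have hmlt : m < p ^ n := lt_of_le_of_ne (Nat.le_of_dvd hN hmd) hper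
    have hmpos : 0 < m := Nat.pos_of_dvd_of_pos hmd hN
    have hfixm : (σ ^ m) • u = u := by
      rw [MulAction.pow_smul_eq_iff_period_dvd]
    have hcomm : x ^ m * (u : G) * (x ^ m)⁻¹ = u := by
      rw [← hσ]
      exact congrArg Subtype.val hfixm
    have hxm : x ^ m ≠ 1 := by
      intro h
      have h1 := orderOf_dvd_of_pow_eq_one h
      rw [hcardx] at h1
      exact absurd (Nat.le_of_dvd hmpos h1) (not_le.2 hmlt)
    have hu1 : (u : G) ∈ Subgroup.centralizer ({x ^ m} : Set G) := by
      rw [Subgroup.mem_centralizer_singleton_iff]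
      exact (mul_inv_eq_iff_eq_mul.1 hcomm).symm
    rw [hC _ (Subgroup.npow_mem_zpowers x m) hxm] at hu1
    obtain ⟨y, hy, z, hz, hyz⟩ := Subgroup.mem_sup_of_normal_right.1 hu1
    have hz' := Subgroup.mem_center_iff.1 hz
    -- the order of `u` is prime to `p`
    have hyc : y ∈ Subgroup.center G := by
      have hcop : Nat.Coprime (q ^ a) (orderOf y) := by
        obtain ⟨k, hk⟩ := (Nat.dvd_prime_pow hpp).1 (hcardx ▸ orderOf_dvd_of_mem_zpowers hy)
        rw [hk.2]
        exact Nat.Coprime.pow _ _ ((Nat.coprime_primes hqq hpp).2 hpq.symm)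
      have h1 : y ^ (q ^ a) ∈ Subgroup.center G := by
        have h2 : (y * z) ^ (q ^ a) = 1 := by
          rw [hyz, ← Subgroup.coe_pow, ← ha, pow_card_eq_one', Subgroup.coe_one]
        rw [(show Commute y z from hz' y).mul_pow] at h2
        rw [eq_inv_of_mul_eq_one_left h2]
        exact Subgroup.inv_mem _ (Subgroup.pow_mem _ hz _)
      have h3 : y ∈ Subgroup.zpowers (y ^ (q ^ a)) := by
        obtain ⟨k, hk⟩ := exists_pow_eq_self_of_coprime hcop
        have h4 := Subgroup.npow_mem_zpowers (y ^ (q ^ a)) k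
        rwa [hk] at h4
      exact (Subgroup.zpowers_le.2 h1) h3
    have huc : (u : G) ∈ Subgroup.center G := hyz ▸ Subgroup.mul_mem _ hyc hz
    have huc' := Subgroup.mem_center_iff.1 huc
    refine ⟨?_, ?_⟩
    · apply Subtype.ext
      have h1 := hσ 1 u
      rw [pow_one, pow_one] at h1
      rw [h1, huc' x, mul_inv_cancel_right]
    · refine Cfsg.Agent.PLocal.HHBLinear.schur hirr' _ fun h => ?_
      show ρ (u : G) * ρ (h : G) = ρ (h : G) * ρ (u : G)
      rw [← map_mul, ← map_mul, huc' h]
  have hD := Cfsg.Agent.H557.HHCrit.decomp (ρ := ρQ) hirr' hcard hY hN hσN hfix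
  have hY1 : (Y : Module.End K V) - 1 ≠ 0 := by
    intro h
    apply hx1
    apply hfaith
    rw [map_one]
    exact sub_eq_zero.1 h
  have hlow := Cfsg.Agent.PLocal.HHBJordan.pow_ne_zero_of_decomp p n hn1 hD hY1
  have hp2 : 2 ≤ p ^ n := Nat.one_lt_pow hn1.ne' hpp.one_lt
  have hge : p ^ n - 1 ≤ s := by
    by_contra hcon
    apply hlow
    obtain ⟨k, hk⟩ : ∃ k, p ^ n - 2 = s + k := ⟨p ^ n - 2 - s, by omega⟩
    rw [hYval, hk, pow_add, hs, zero_mul]
  refine ⟨hge, hle, fun hs1 => ?_⟩
  rw [hs1] at hs
  have hdim := Cfsg.Agent.PLocal.HHBJordan.finrank_eq_of_decomp p n hn1 hD hY1 hs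
  refine ⟨?_, fun hcommQ => ?_⟩
  · obtain ⟨b, hb⟩ := Cfsg.Agent.H557.HHCrit.finrank_pow hQ ρQ hirr'
    exact ⟨b, by rw [← hdim, hb]⟩
  · -- an abelian group acts by scalars
    have hsc : ∀ u : Q, ∃ c : K, ρQ u = c • 1 := fun u =>
      Cfsg.Agent.PLocal.HHBLinear.schur hirr' _ fun h => by
        rw [← map_mul, ← map_mul, hcommQ.is_comm.comm u h]
    obtain ⟨v, hv⟩ := exists_ne (0 : V)
    have htop : Submodule.span K {v} = ⊤ := by
      refine (hirr' (Submodule.span K {v}) fun h w hw => ?_).resolve_left fun h => hv ?_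
      · obtain ⟨c, hc⟩ := hsc h
        rw [hc, LinearMap.smul_apply, Module.End.one_apply]
        exact Submodule.smul_mem _ _ hw
      · exact Submodule.span_singleton_eq_bot.1 h
    have h1 : Module.finrank K V = 1 := by
      rw [← finrank_top K V, ← htop, finrank_span_singleton hv]
    rw [hdim] at h1
    rw [h1, pow_one] at hs
    exact hY1 hs

end Cfsg.Agent.S4282
end
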