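import Mathlib
import Cfsg.Agent.H558.CsBasic
import Cfsg.Agent.S0033
import Cfsg.Agent.Solvable.FpfCyclic
import Cfsg.Agent.Characters.CNBasic
import Cfsg.Agent.PermutationGroups.ZassReduction
import Cfsg.Agent.S1442
import Cfsg.Statements.S4284
set_option linter.all false

-- part: H558/CsBase
section
/-!
# Groups whose non-central class sizes have the same `p`-part (helper558, for S4284)
-/

set_option autoImplicit false

namespace Cfsg.Agent.H558.Cs

open Subgroup

variable {G : Type*} [Group G]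

/-- the centralizer of an element -/
abbrev CG (x : G) : Subgroup G := centralizer ({x} : Set G)

theorem mem_CG {x y : G} : y ∈ CG x ↔ y * x = x * y := mem_centralizer_singleton_iff

theorem center_le_CG (x : G) : center G ≤ CG x := fun _ hz =>
  mem_CG.2 ((mem_center_iff.1 hz x).symm)

theorem self_mem_CG (x : G) : x ∈ CG x := mem_CG.2 rfl

theorem CG_eq_top_iff {x : G} : CG x = ⊤ ↔ x ∈ center G := by
  constructor
  · intro h
    rw [mem_center_iff]
    intro g
    have : g ∈ CG x := h ▸ mem_top g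
    exact mem_CG.1 this
  · intro h
    rw [eq_top_iff]
    intro g _
    exact mem_CG.2 (mem_center_iff.1 h g)

theorem PEl.of_pgroup_card [Finite G] {p k : ℕ} {K : Subgroup G} (hK : Nat.card K = p ^ k) {g : G}
    (hg : g ∈ K) : PEl p g := by
  refine ⟨k, ?_⟩
  rw [← hK]
  apply orderOf_dvd_iff_pow_eq_one.1
  have := orderOf_dvd_natCard (⟨g, hg⟩ : K)
  rwa [← Subgroup.orderOf_coe] at this

theorem isPGroup_of_forall {p : ℕ} {K : Subgroup G} (h : ∀ g ∈ K, PEl p g) : IsPGroup p K := by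
  intro g
  obtain ⟨k, hk⟩ := h g g.2
  exact ⟨k, Subtype.ext (by simpa using hk)⟩

theorem PEl.isPGroup_zpowers {p : ℕ} {g : G} (h : PEl p g) : IsPGroup p (zpowers g) := by
  apply isPGroup_of_forall
  intro x hx
  obtain ⟨k, hk⟩ := h
  obtain ⟨m, rfl⟩ := mem_zpowers_iff.1 hx
  exact ⟨k, by rw [← zpow_natCast, ← zpow_mul, mul_comm, zpow_mul, zpow_natCast, hk, one_zpow]⟩

section

variable [Finite G] {p : ℕ} [hp : Fact p.Prime]

theorem card_le_of_isPGroup {K C : Subgroup G} (hK : IsPGroup p K) (hKC : K ≤ C) :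
    Nat.card K ≤ p ^ (Nat.card C).factorization p := by
  obtain ⟨k, hk⟩ := IsPGroup.iff_card.1 hK
  rw [hk]
  have h1 : p ^ k ∣ Nat.card C := hk ▸ card_dvd_of_le hKC
  exact Nat.pow_le_pow_right hp.out.pos
    ((hp.out.pow_dvd_iff_le_factorization Nat.card_pos.ne').1 h1)

/-- A subgroup containing a `p`-group of full order ... -/
theorem exists_pgroup_card (C : Subgroup G) : ∃ T : Subgroup G, T ≤ C ∧ IsPGroup p T ∧
    Nat.card T = p ^ (Nat.card C).factorization p := by
  obtain ⟨Q⟩ : Nonempty (Sylow p C) := inferInstance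
  refine ⟨(Q : Subgroup C).map C.subtype, map_subtype_le _, Q.2.map _, ?_⟩
  rw [Nat.card_congr ((Q : Subgroup C).equivMapOfInjective C.subtype
    C.subtype_injective).toEquiv.symm]
  exact Q.card_eq_multiplicity

theorem not_dvd_index_iff {C : Subgroup G} :
    ¬ p ∣ C.index ↔ (Nat.card C).factorization p = (Nat.card G).factorization p := by
  have h := congrArg (fun n => n.factorization p) C.card_mul_index
  simp only [Nat.factorization_mul Nat.card_pos.ne' FiniteIndex.index_ne_zero,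
    Finsupp.add_apply] at h
  rw [hp.out.dvd_iff_one_le_factorization FiniteIndex.index_ne_zero]
  omega

namespace Dec

variable {C P H : Subgroup G}

theorem mem_P (h : Dec p C P H) {g : G} (hg : g ∈ C) (hgp : PEl p g) : g ∈ P := by
  obtain ⟨x, hx, y, hy, rfl⟩ := h.mulm g hg
  have hc := h.comm x hx y hy
  have h1 : PEl p x := PEl.of_mem h.pgrp hx
  have h2 : PEl p y := by
    have : y = x⁻¹ * (x * y) := by group
    rw [this]
    refine h1.inv.mul hgp ?_
    rw [inv_mul_cancel_left, hc, mul_assoc, mul_inv_cancel, mul_one]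
  have h3 : y = 1 := h2.eq_one hp.out (not_dvd_orderOf_of_mem h.cop hy)
  rw [h3, mul_one]; exact hx

theorem mem_H (h : Dec p C P H) {g : G} (hg : g ∈ C) (hgp : ¬ p ∣ orderOf g) : g ∈ H := by
  obtain ⟨x, hx, y, hy, rfl⟩ := h.mulm g hg
  have hc : Commute x y := h.comm x hx y hy
  have h1 : PEl p x := PEl.of_mem h.pgrp hx
  have h2 : x ^ (orderOf (x * y) * Nat.card H) = 1 := by
    have e1 : (x * y) ^ (orderOf (x * y) * Nat.card H) = 1 := by
      rw [pow_mul, pow_orderOf_eq_one, one_pow]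
    have e2 : y ^ (orderOf (x * y) * Nat.card H) = 1 := by
      rw [mul_comm, pow_mul]
      have h4 : y ^ Nat.card H = 1 := by
        apply orderOf_dvd_iff_pow_eq_one.1
        have := orderOf_dvd_natCard (⟨y, hy⟩ : H)
        rwa [← Subgroup.orderOf_coe] at this
      rw [h4, one_pow]
    rw [hc.mul_pow, e2, mul_one] at e1
    exact e1
  have h3 : x = 1 := by
    apply h1.eq_one hp.out
    intro hd
    have := hd.trans (orderOf_dvd_of_pow_eq_one h2)
    rcases hp.out.dvd_mul.1 this with h | h'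
    · exact hgp h
    · exact h.cop h'
  rw [h3, one_mul]; exact hy

theorem mem_H_iff (h : Dec p C P H) {g : G} : g ∈ H ↔ g ∈ C ∧ ¬ p ∣ orderOf g :=
  ⟨fun hg => ⟨h.le' hg, not_dvd_orderOf_of_mem h.cop hg⟩, fun hg => h.mem_H hg.1 hg.2⟩

theorem mem_P_iff (h : Dec p C P H) {g : G} : g ∈ P ↔ g ∈ C ∧ PEl p g :=
  ⟨fun hg => ⟨h.le hg, PEl.of_mem h.pgrp hg⟩, fun hg => h.mem_P hg.1 hg.2⟩

theorem disj (h : Dec p C P H) {g : G} (hgP : g ∈ P) (hgH : g ∈ H) : g = 1 :=
  (PEl.of_mem h.pgrp hgP).eq_one hp.out (not_dvd_orderOf_of_mem h.cop hgH)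

theorem card_eq (h : Dec p C P H) : Nat.card C = Nat.card P * Nat.card H := by
  rw [← Nat.card_prod]
  symm
  refine Nat.card_congr (Equiv.ofBijective (fun z : P × H => (⟨z.1 * z.2,
    mul_mem (h.le z.1.2) (h.le' z.2.2)⟩ : C)) ⟨?_, ?_⟩)
  · rintro ⟨x, y⟩ ⟨x', y'⟩ hxy
    have e : (x : G) * y = x' * y' := congrArg Subtype.val hxy
    have e2 : (x' : G)⁻¹ * x = y' * (y : G)⁻¹ := by
      rw [inv_mul_eq_iff_eq_mul, ← mul_assoc, ← e, mul_inv_cancel_right]
    have h1 : (x' : G)⁻¹ * x = 1 := h.disj (mul_mem (inv_mem x'.2) x.2)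
      (e2 ▸ mul_mem y'.2 (inv_mem y.2))
    have h2 : (y' : G) * (y : G)⁻¹ = 1 := e2 ▸ h1
    rw [Prod.mk.injEq]
    exact ⟨Subtype.ext (inv_mul_eq_one.1 h1).symm, Subtype.ext (mul_inv_eq_one.1 h2).symm⟩
  · rintro ⟨g, hg⟩
    obtain ⟨x, hx, y, hy, rfl⟩ := h.mulm g hg
    exact ⟨⟨⟨x, hx⟩, ⟨y, hy⟩⟩, rfl⟩

theorem card_P (h : Dec p C P H) : Nat.card P = p ^ (Nat.card C).factorization p := by
  obtain ⟨k, hk⟩ := IsPGroup.iff_card.1 h.pgrp
  rw [hk, h.card_eq, Nat.factorization_mul Nat.card_pos.ne' Nat.card_pos.ne', Finsupp.add_apply,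
    Nat.factorization_eq_zero_of_not_dvd h.cop, hk, add_zero, hp.out.factorization_pow,
    Finsupp.single_eq_same]

theorem conj_H (h : Dec p C P H) {g : G} (hg : ∀ c ∈ C, g * c * g⁻¹ ∈ C) {u : G} (hu : u ∈ H) :
    g * u * g⁻¹ ∈ H :=
  h.mem_H (hg u (h.le' hu)) (not_dvd_orderOf_conj (not_dvd_orderOf_of_mem h.cop hu) g)

theorem conj_P (h : Dec p C P H) {g : G} (hg : ∀ c ∈ C, g * c * g⁻¹ ∈ C) {u : G} (hu : u ∈ P) :
    g * u * g⁻¹ ∈ P :=
  h.mem_P (hg u (h.le hu)) ((PEl.of_mem h.pgrp hu).conj g)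

end Dec

/-- All non-central elements have class size with `p`-part `p ^ a`, `a ≥ 1`. -/
structure Base (G : Type*) [Group G] (p a : ℕ) : Prop where
  pos : 0 < a
  ind : ∀ x : G, x ∉ center G → (CG x).index.factorization p = a
  ex : ∃ x : G, x ∉ center G

variable {a : ℕ}

theorem Base.card_add (hB : Base G p a) {x : G} (hx : x ∉ center G) :
    (Nat.card (CG x)).factorization p + a = (Nat.card G).factorization p := by
  rw [← hB.ind x hx, ← (CG x).card_mul_index, Nat.factorization_mul Nat.card_pos.ne'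
    FiniteIndex.index_ne_zero, Finsupp.add_apply]

theorem Base.card_eq (hB : Base G p a) {x y : G} (hx : x ∉ center G) (hy : y ∉ center G) :
    (Nat.card (CG x)).factorization p = (Nat.card (CG y)).factorization p := by
  have h1 := hB.card_add hx
  have h2 := hB.card_add hy
  omega

theorem Base.mem_center (hB : Base G p a) {x : G} (S : Sylow p G)
    (h : (S : Subgroup G) ≤ CG x) : x ∈ center G := by
  by_contra hx
  have h1 := hB.card_add hx
  have h2 : ¬ p ∣ (CG x).index := fun hd => S.not_dvd_index (hd.trans (index_dvd_of_le h))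
  rw [not_dvd_index_iff] at h2
  have := hB.pos
  omega

theorem Base.exists_pEl (hB : Base G p a) : ∃ w : G, PEl p w ∧ w ∉ center G := by
  by_contra hcon
  push Not at hcon
  obtain ⟨x, hx⟩ := hB.ex
  obtain ⟨S⟩ : Nonempty (Sylow p G) := inferInstance
  exact hx (hB.mem_center S fun s hs => center_le_CG x (hcon s (PEl.of_mem S.2 hs)))

/-- Every non-central element commutes with a non-central `p`-element. -/
theorem Base.exists_comm_pEl (hB : Base G p a) {x : G} (hx : x ∉ center G) :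
    ∃ y ∈ CG x, PEl p y ∧ y ∉ center G := by
  by_contra hcon
  push Not at hcon
  obtain ⟨w, hw, hwc⟩ := hB.exists_pEl
  obtain ⟨T, hTC, hT, hTcard⟩ := exists_pgroup_card (p := p) (CG x)
  have hTc : T ≤ center G := fun t ht => hcon t (hTC ht) (PEl.of_mem hT ht)
  have hle : T ⊔ zpowers w ≤ CG w :=
    sup_le (hTc.trans (center_le_CG w)) (zpowers_le.2 (self_mem_CG w))
  have hpg : IsPGroup p (T ⊔ zpowers w : Subgroup G) := by
    refine IsPGroup.to_sup_of_normal_left' hT hw.isPGroup_zpowers ?_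
    intro g _
    rw [mem_normalizer_iff]
    intro h
    constructor
    · intro hh
      rw [mem_center_iff.1 (hTc hh) g]; simpa using hh
    · intro hh
      have := mem_center_iff.1 (hTc hh) g
      have e : h = g⁻¹ * (g * h * g⁻¹) * g := by group
      rw [e]
      have e2 : g⁻¹ * (g * h * g⁻¹) * g = g * h * g⁻¹ := by
        rw [mul_assoc, ← this]; group
      rw [e2]; exact hh
  have h1 := card_le_of_isPGroup hpg hle
  rw [hB.card_eq hwc hx, ← hTcard] at h1
  have h2 : T = T ⊔ zpowers w := eq_of_le_of_card_ge le_sup_left h1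
  have h3 : w ∈ T := by rw [h2]; exact mem_sup_right (mem_zpowers w)
  exact hwc (hTc h3)

/-- **Centralizers of non-central `p`-elements are direct products.** -/
theorem Base.exists_dec (hB : Base G p a) {x : G} (hx : x ∉ center G) (hxp : PEl p x) :
    ∃ P H : Subgroup G, Dec p (CG x) P H := by
  have key : ∀ u : CG x, ¬ p ∣ orderOf u → ¬ p ∣ (centralizer ({u} : Set (CG x))).index := by
    intro u hu
    have hu' : ¬ p ∣ orderOf (u : G) := by rwa [Subgroup.orderOf_coe]
    have hcomm : x * u = u * x := (mem_CG.1 u.2).symm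
    have hC := centralizer_mul_of_pEl hp.out hcomm hxp hu'
    have hxu : x * u ∉ center G := by
      intro hc
      apply hx
      have h1 : x ∈ zpowers (x * (u : G)) :=
        mem_zpowers_mul_left hcomm (coprime_of_pEl hp.out hxp hu')
      exact (zpowers_le.2 hc) h1
    have h2 : (centralizer ({u} : Set (CG x))) = (CG (x * u)).subgroupOf (CG x) := by
      ext z
      rw [mem_subgroupOf, mem_centralizer_singleton_iff]
      change _ ↔ (z : G) ∈ centralizer ({x * (u : G)} : Set G)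
      rw [hC, mem_inf, mem_centralizer_singleton_iff, mem_centralizer_singleton_iff]
      constructor
      · intro h
        exact ⟨mem_CG.1 z.2, by simpa using congrArg Subtype.val h⟩
      · intro h
        exact Subtype.ext (by simpa using h.2)
    have h3 : CG (x * u) ≤ CG x := by
      change centralizer ({x * (u : G)} : Set G) ≤ _
      rw [hC]; exact inf_le_left
    rw [h2]
    change ¬ p ∣ (CG (x * (u : G))).relIndex (CG x)
    have h4 := relIndex_mul_index h3
    intro hd
    have h0 : (CG (x * (u : G))).relIndex (CG x) ≠ 0 := by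
      intro h; rw [h, zero_mul] at h4; exact FiniteIndex.index_ne_zero h4.symm
    have h5 := congrArg (fun n => n.factorization p) h4
    simp only [Nat.factorization_mul h0 FiniteIndex.index_ne_zero, Finsupp.add_apply] at h5
    rw [hB.ind _ hxu, hB.ind _ hx] at h5
    have := (hp.out.dvd_iff_one_le_factorization h0).1 hd
    omega
  obtain ⟨P, H, hD⟩ := exists_dec_top key
  refine ⟨P.map (CG x).subtype, H.map (CG x).subtype, map_subtype_le _, map_subtype_le _,
    hD.pgrp.map _, ?_, ?_, ?_⟩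
  · rw [Nat.card_congr (H.equivMapOfInjective (CG x).subtype
      (CG x).subtype_injective).toEquiv.symm]
    exact hD.cop
  · rintro _ ⟨s, hs, rfl⟩ _ ⟨t, ht, rfl⟩
    simpa using congrArg Subtype.val (hD.comm s hs t ht)
  · intro g hg
    obtain ⟨s, hs, t, ht, hst⟩ := hD.mulm ⟨g, hg⟩ (mem_top _)
    exact ⟨s, ⟨s, hs, rfl⟩, t, ⟨t, ht, rfl⟩, by simpa using congrArg Subtype.val hst⟩

end

end Cfsg.Agent.H558.Cs
end

-- part: H558/CsAct
section
/-!
# Fixed-point-free actions modulo the centre (helper558, for S4284)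
-/

set_option autoImplicit false

namespace Cfsg.Agent.H558.Cs

open Subgroup

variable {G : Type*} [Group G]

theorem le_normalizer_of {H N : Subgroup G} (hN : ∀ g ∈ N, ∀ h ∈ H, g * h * g⁻¹ ∈ H) :
    N ≤ normalizer (H : Set G) := by
  intro g hg
  rw [mem_normalizer_iff]
  intro h
  refine ⟨hN g hg h, fun hh => ?_⟩
  have := hN g⁻¹ (inv_mem hg) _ hh
  have e : g⁻¹ * (g * h * g⁻¹) * g⁻¹⁻¹ = h := by group
  rwa [e] at this

/-- conjugation action of `N` on the image of `H` in `G / Z(G)` -/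
noncomputable def act (H N : Subgroup G) (hN : ∀ g ∈ N, ∀ h ∈ H, g * h * g⁻¹ ∈ H) :
    N →* MulAut (H.map (QuotientGroup.mk' (center G))) :=
  (H.map (QuotientGroup.mk' (center G))).normalizerMonoidHom.comp
    (((QuotientGroup.mk' (center G)).comp N.subtype).codRestrict
      (normalizer ((H.map (QuotientGroup.mk' (center G)) : Subgroup (G ⧸ center G)) : Set _))
      (fun g => le_normalizer_of (N := N.map (QuotientGroup.mk' (center G))) (by
        rintro _ ⟨g, hg, rfl⟩ _ ⟨h, hh, rfl⟩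
        exact ⟨g * h * g⁻¹, hN g hg h hh, by simp⟩) (mem_map_of_mem _ g.2)))

theorem act_apply (H N : Subgroup G) (hN : ∀ g ∈ N, ∀ h ∈ H, g * h * g⁻¹ ∈ H) (g : N)
    (x : H.map (QuotientGroup.mk' (center G))) :
    ((act H N hN g x : H.map (QuotientGroup.mk' (center G))) : G ⧸ center G) =
      QuotientGroup.mk' (center G) g * x * (QuotientGroup.mk' (center G) g)⁻¹ := rfl

theorem eq_of_comm_mod_center {q : ℕ} [Fact q.Prime] {t u z : G} (ht : PEl q t)
    (hz : z ∈ center G) (hzq : ¬ q ∣ orderOf z) (h : t * u * t⁻¹ = u * z) : t * u = u * t := by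
  have hn : ∀ n : ℕ, t ^ n * u * (t ^ n)⁻¹ = u * z ^ n := by
    intro n
    induction n with
    | zero => simp
    | succ n ih =>
      have : t ^ (n + 1) * u * (t ^ (n + 1))⁻¹ = t * (t ^ n * u * (t ^ n)⁻¹) * t⁻¹ := by
        rw [pow_succ']; group
      rw [this, ih]
      have hzn : z ^ n ∈ center G := pow_mem hz n
      calc t * (u * z ^ n) * t⁻¹ = t * u * (z ^ n * t⁻¹) := by group
        _ = t * u * (t⁻¹ * z ^ n) := by rw [(mem_center_iff.1 hzn t⁻¹)]
        _ = t * u * t⁻¹ * z ^ n := by group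
        _ = u * z ^ (n + 1) := by rw [h, pow_succ', mul_assoc]
  obtain ⟨k, hk⟩ := ht
  have h1 := hn (q ^ k)
  rw [hk, one_mul, inv_one, mul_one] at h1
  have h2 : z ^ q ^ k = 1 := by
    have : u * z ^ q ^ k = u * 1 := by rw [mul_one]; exact h1.symm
    exact mul_left_cancel this
  have h3 : z = 1 := PEl.eq_one (Fact.out : q.Prime) ⟨k, h2⟩ hzq
  rw [h3, mul_one] at h
  rw [mul_inv_eq_iff_eq_mul] at h
  exact h

theorem act_fix [Finite G] {q : ℕ} [Fact q.Prime] (H N : Subgroup G)
    (hN : ∀ g ∈ N, ∀ h ∈ H, g * h * g⁻¹ ∈ H)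
    (hH : ¬ q ∣ Nat.card H) {t : G} (ht : t ∈ N) (htq : PEl q t) {u : G} (hu : u ∈ H)
    (h : act H N hN ⟨t, ht⟩ ⟨QuotientGroup.mk' (center G) u, mem_map_of_mem _ hu⟩ =
      ⟨QuotientGroup.mk' (center G) u, mem_map_of_mem _ hu⟩) : t * u = u * t := by
  have h1 := congrArg Subtype.val h
  rw [act_apply] at h1
  change (QuotientGroup.mk' (center G) t) * (QuotientGroup.mk' (center G) u) *
    (QuotientGroup.mk' (center G) t)⁻¹ = QuotientGroup.mk' (center G) u at h1
  rw [← map_mul, ← map_inv, ← map_mul] at h1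
  have h2 : u⁻¹ * (t * u * t⁻¹) ∈ center G := by
    have := (QuotientGroup.eq (s := center G)).1 h1.symm
    exact this
  refine eq_of_comm_mod_center htq h2 ?_ (by group)
  exact not_dvd_orderOf_of_mem hH (mul_mem (inv_mem hu) (hN t ht u hu))

/-- **Thompson**: a `q'`-subgroup `H` with an element `t` of `q`-power order normalizing it, acting
with order dividing `q`, fixing only central elements, is nilpotent. -/
theorem isNilpotent_of_fpf [Finite G] {q : ℕ} [hq : Fact q.Prime] (H : Subgroup G)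
    (hH : ¬ q ∣ Nat.card H) {t : G} (htq : PEl q t) (htH : ∀ h ∈ H, t * h * t⁻¹ ∈ H)
    (htp : ∀ h ∈ H, t ^ q * h = h * t ^ q) (hfix : ∀ u ∈ H, t * u = u * t → u ∈ center G) :
    Group.IsNilpotent H := by
  have hN : ∀ g ∈ zpowers t, ∀ h ∈ H, g * h * g⁻¹ ∈ H := by
    have h1 : t ∈ normalizer (H : Set G) := mem_normalizer_fintype htH
    intro g hg h hh
    exact (mem_normalizer_iff.1 ((zpowers_le.2 h1) hg) h).1 hh
  set K := H.map (QuotientGroup.mk' (center G)) with hK
  have hnK : Group.IsNilpotent K := by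
    rcases subsingleton_or_nontrivial K with hs | hs
    · infer_instance
    set φ := act H (zpowers t) hN ⟨t, mem_zpowers t⟩ with hφ
    have hfp : MonoidHom.FixedPointFree ((φ : K ≃* K) : K →* K) := by
      rintro ⟨x, hx⟩ hfx
      obtain ⟨u, hu, rfl⟩ := hx
      have h1 : t * u = u * t := act_fix H (zpowers t) hN hH (mem_zpowers t) htq hu hfx
      apply Subtype.ext
      exact (QuotientGroup.eq_one_iff u).2 (hfix u hu h1)
    refine Cfsg.Agent.S0033.result φ hfp q hq.out ?_
    refine orderOf_eq_prime ?_ ?_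
    · have : φ ^ q = act H (zpowers t) hN (⟨t, mem_zpowers t⟩ ^ q) := by rw [map_pow]
      rw [this]
      ext ⟨x, hx⟩
      obtain ⟨u, hu, rfl⟩ := hx
      rw [act_apply]
      change (QuotientGroup.mk' (center G) (t ^ q)) * (QuotientGroup.mk' (center G) u) *
        (QuotientGroup.mk' (center G) (t ^ q))⁻¹ = QuotientGroup.mk' (center G) u
      rw [← map_mul, ← map_inv, ← map_mul, htp u hu, mul_inv_cancel_right]
    · intro h1
      obtain ⟨x, hx⟩ := exists_ne (1 : K)
      exact hx (hfp x (by rw [h1]; rfl))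
  have hsurj : ∀ x : H, (QuotientGroup.mk' (center G)) x ∈ K := fun x => mem_map_of_mem _ x.2
  refine Subgroup.isNilpotent_of_ker_le_center
    (((QuotientGroup.mk' (center G)).comp H.subtype).codRestrict K hsurj) ?_
  intro x hx
  rw [MonoidHom.mem_ker] at hx
  have h1 := congrArg Subtype.val hx
  have h2 : (x : G) ∈ center G := (QuotientGroup.eq_one_iff (x : G)).1 h1
  rw [mem_center_iff]
  intro g
  exact Subtype.ext (by simpa using mem_center_iff.1 h2 g)

/-- In a normal subgroup `A` of a `p`-group `P`, `A` not central in `G`, there is a non-central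
element which is central modulo `Z(G)` in `P` and has its `p`-th power in `Z(G)`. -/
theorem exists_special [Finite G] {p : ℕ} [hp : Fact p.Prime] {P A : Subgroup G}
    (hP : IsPGroup p P) (hAP : A ≤ P) (hA : ∀ g ∈ P, ∀ x ∈ A, g * x * g⁻¹ ∈ A)
    (hAZ : ¬ A ≤ center G) : ∃ x ∈ A, x ∉ center G ∧
      (∀ g ∈ P, g * x * g⁻¹ * x⁻¹ ∈ center G) ∧ x ^ p ∈ center G := by
  set π := QuotientGroup.mk' (center G) with hπ
  have hmem : ∀ g : G, π g = 1 ↔ g ∈ center G := fun g => QuotientGroup.eq_one_iff g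
  obtain ⟨w, hw, hw1, hwc⟩ := Cfsg.Agent.Characters.CNBasic.exists_mem_center_of_normal
    (P.map π) (hP.map π) (A.map π) ((hP.to_le hAP).map π) (by
      intro h
      apply hAZ
      intro a ha
      rw [← hmem]
      have : π a ∈ A.map π := mem_map_of_mem _ ha
      rw [h] at this
      exact mem_bot.1 this) (by
      rintro _ ⟨g, hg, rfl⟩ _ ⟨x, hx, rfl⟩
      exact ⟨g * x * g⁻¹, hA g hg x hx, by simp⟩)
  -- an element of order `p`
  obtain ⟨k, hk⟩ := PEl.of_mem ((hP.to_le hAP).map π) hw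
  have hex : ∃ k, w ^ p ^ k = 1 := ⟨k, hk⟩
  classical
  set j := Nat.find hex with hj
  have hj0 : j ≠ 0 := by
    intro h
    have := Nat.find_spec hex
    rw [← hj, h, pow_zero, pow_one] at this
    exact hw1 this
  obtain ⟨i, hi⟩ := Nat.exists_eq_succ_of_ne_zero hj0
  have h1 : w ^ p ^ i ≠ 1 := Nat.find_min hex (by rw [← hj, hi]; exact Nat.lt_succ_self i)
  have h2 : (w ^ p ^ i) ^ p = 1 := by
    rw [← pow_mul, ← pow_succ]
    have := Nat.find_spec hex
    rwa [← hj, hi] at this
  obtain ⟨a, ha, rfl⟩ := hw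
  refine ⟨a ^ p ^ i, pow_mem ha _, ?_, ?_, ?_⟩
  · rw [← hmem, map_pow]; exact h1
  · intro g hg
    rw [← hmem]
    have h3 := hwc (π g) (mem_map_of_mem _ hg)
    have h4 : Commute (π g) (π a ^ p ^ i) := (show Commute (π g) (π a) from h3).pow_right _
    rw [map_mul, map_mul, map_mul, map_inv, map_inv, map_pow, h4.eq]
    group
  · rw [← hmem, map_pow, map_pow]; exact h2

/-- data of a special element -/
structure Spec [Finite G] {p : ℕ} [Fact p.Prime] (P : Sylow p G) (x : G) : Prop where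
  mem : x ∈ P
  nc : x ∉ center G
  comm : ∀ g ∈ P, g * x * g⁻¹ * x⁻¹ ∈ center G
  pow : x ^ p ∈ center G

theorem Base.exists_spec [Finite G] {p a : ℕ} [hp : Fact p.Prime] (hB : Base G p a)
    (P : Sylow p G) : ∃ x, Spec P x := by
  obtain ⟨x, hx, h1, h2, h3⟩ := exists_special (A := (P : Subgroup G)) P.2 le_rfl
    (fun g hg x hx => mul_mem (mul_mem hg hx) (inv_mem hg)) (by
      intro h
      obtain ⟨x, hx⟩ := hB.ex
      exact hx (hB.mem_center P (h.trans (center_le_CG x))))
  exact ⟨x, hx, h1, h2, h3⟩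

namespace Spec

variable [Finite G] {p a : ℕ} [hp : Fact p.Prime] {P : Sylow p G} {x : G}

theorem pEl (h : Spec P x) : PEl p x := PEl.of_mem P.2 h.mem

/-- `P` normalizes `C(x)`. -/
theorem conj_CG (h : Spec P x) {g : G} (hg : g ∈ P) : ∀ c ∈ CG x, g * c * g⁻¹ ∈ CG x := by
  intro c hc
  rw [mem_CG] at hc ⊢
  have h1 := h.comm g⁻¹ (inv_mem hg)
  -- g⁻¹ x g = z x
  set z := g⁻¹ * x * g⁻¹⁻¹ * x⁻¹ with hz
  have h2 : g⁻¹ * x * g = z * x := by rw [hz]; group
  have hzc := fun y => mem_center_iff.1 h1 y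
  have h3 : c * (g⁻¹ * x * g) = (g⁻¹ * x * g) * c := by
    rw [h2]
    calc c * (z * x) = (c * z) * x := by group
      _ = z * (c * x) := by rw [hzc c]; group
      _ = z * x * c := by rw [hc]; group
  calc g * c * g⁻¹ * x = g * (c * (g⁻¹ * x * g)) * g⁻¹ := by group
    _ = g * ((g⁻¹ * x * g) * c) * g⁻¹ := by rw [h3]
    _ = x * (g * c * g⁻¹) := by group

/-- the commutator map `g ↦ [g, x]` on the subgroup where it is central -/
theorem comm_mul {x g h : G} (hh : h * x * h⁻¹ * x⁻¹ ∈ center G) :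
    (g * h) * x * (g * h)⁻¹ * x⁻¹ = (g * x * g⁻¹ * x⁻¹) * (h * x * h⁻¹ * x⁻¹) := by
  set z := h * x * h⁻¹ * x⁻¹ with hz
  have h2 : h * x * h⁻¹ = z * x := by rw [hz]; group
  have hzc := fun y => mem_center_iff.1 hh y
  calc (g * h) * x * (g * h)⁻¹ * x⁻¹ = g * (h * x * h⁻¹) * g⁻¹ * x⁻¹ := by group
    _ = (g * z) * x * g⁻¹ * x⁻¹ := by rw [h2]; group
    _ = z * (g * x * g⁻¹ * x⁻¹) := by rw [hzc g]; group
    _ = (g * x * g⁻¹ * x⁻¹) * z := by rw [hzc]

end Spec

end Cfsg.Agent.H558.Cs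
end

-- part: H558/CsSpec
section
/-!
# The special element of a Sylow subgroup (helper558, for S4284)
-/

set_option autoImplicit false

namespace Cfsg.Agent.H558.Cs

open Subgroup

variable {G : Type*} [Group G]

theorem comm_pow_eq {x g : G} (hg : g * x * g⁻¹ * x⁻¹ ∈ center G) (n : ℕ) :
    g * x ^ n * g⁻¹ * (x ^ n)⁻¹ = (g * x * g⁻¹ * x⁻¹) ^ n := by
  set z := g * x * g⁻¹ * x⁻¹ with hz
  have h2 : g * x * g⁻¹ = z * x := by rw [hz]; group
  have h3 : g * x ^ n * g⁻¹ = z ^ n * x ^ n := by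
    rw [← (show Commute z x from (mem_center_iff.1 hg x).symm).mul_pow, ← h2, conj_pow]
  rw [h3]; group

/-- The subgroup where `g ↦ [g, x]` is central. -/
def LC (x : G) : Subgroup G where
  carrier := {g | g * x * g⁻¹ * x⁻¹ ∈ center G}
  mul_mem' := by
    intro g h hg hh
    simp only [Set.mem_ofPred_eq] at hg hh ⊢
    have hh' : h * x * h⁻¹ * x⁻¹ ∈ center G := hh
    set z := h * x * h⁻¹ * x⁻¹ with hz
    have h2 : h * x * h⁻¹ = z * x := by rw [hz]; group
    have hzc := fun y => mem_center_iff.1 hh' y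
    have : (g * h) * x * (g * h)⁻¹ * x⁻¹ = (g * x * g⁻¹ * x⁻¹) * z := by
      calc (g * h) * x * (g * h)⁻¹ * x⁻¹ = g * (h * x * h⁻¹) * g⁻¹ * x⁻¹ := by group
        _ = (g * z) * x * g⁻¹ * x⁻¹ := by rw [h2]; group
        _ = z * (g * x * g⁻¹ * x⁻¹) := by rw [hzc g]; group
        _ = (g * x * g⁻¹ * x⁻¹) * z := by rw [hzc]
    rw [this]
    exact mul_mem hg hh'
  one_mem' := by simp
  inv_mem' := by
    intro g hg
    simp only [Set.mem_ofPred_eq] at hg ⊢
    set z := g * x * g⁻¹ * x⁻¹ with hz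
    have hzc := fun y => mem_center_iff.1 hg y
    have h2 : g⁻¹ * x * g⁻¹⁻¹ * x⁻¹ = z⁻¹ := by
      have h3 : x = g⁻¹ * (z * x) * g := by rw [hz]; group
      have h4 : x = z * (g⁻¹ * x * g) := by
        calc x = g⁻¹ * (z * x) * g := h3
          _ = (g⁻¹ * z) * x * g := by group
          _ = z * (g⁻¹ * x * g) := by rw [hzc]; group
      have h5 : g⁻¹ * x * g = z⁻¹ * x := by rw [eq_inv_mul_iff_mul_eq]; exact h4.symm
      rw [inv_inv, h5]; group
    rw [h2]
    exact inv_mem hg

theorem mem_LC {x g : G} : g ∈ LC x ↔ g * x * g⁻¹ * x⁻¹ ∈ center G := Iff.rfl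

/-- the commutator homomorphism -/
def fC (x : G) : LC x →* center G where
  toFun g := ⟨g * x * (g : G)⁻¹ * x⁻¹, g.2⟩
  map_one' := Subtype.ext (by simp)
  map_mul' := by
    rintro ⟨g, hg⟩ ⟨h, hh⟩
    apply Subtype.ext
    have hh' : h * x * h⁻¹ * x⁻¹ ∈ center G := hh
    set z := h * x * h⁻¹ * x⁻¹ with hz
    have h2 : h * x * h⁻¹ = z * x := by rw [hz]; group
    have hzc := fun y => mem_center_iff.1 hh' y
    change (g * h) * x * (g * h)⁻¹ * x⁻¹ = (g * x * g⁻¹ * x⁻¹) * z
    calc (g * h) * x * (g * h)⁻¹ * x⁻¹ = g * (h * x * h⁻¹) * g⁻¹ * x⁻¹ := by group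
      _ = (g * z) * x * g⁻¹ * x⁻¹ := by rw [h2]; group
      _ = z * (g * x * g⁻¹ * x⁻¹) := by rw [hzc g]; group
      _ = (g * x * g⁻¹ * x⁻¹) * z := by rw [hzc]

theorem fC_coe (x : G) (g : LC x) : ((fC x g : center G) : G) = g * x * (g : G)⁻¹ * x⁻¹ := rfl

theorem fC_eq_one {x : G} (g : LC x) : fC x g = 1 ↔ (g : G) ∈ CG x := by
  rw [mem_CG, Subtype.ext_iff, fC_coe, coe_one, mul_inv_eq_one, mul_inv_eq_iff_eq_mul]

variable [Finite G] {p a : ℕ} [hp : Fact p.Prime]

theorem fC_pow_eq_one {x : G} (hx : x ^ p ∈ center G) (g : LC x) : fC x g ^ p = 1 := by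
  apply Subtype.ext
  rw [SubmonoidClass.coe_pow, fC_coe, ← comm_pow_eq g.2, coe_one,
    mul_inv_eq_one, mul_inv_eq_iff_eq_mul]
  exact mem_center_iff.1 hx g

theorem card_range_fC_le (hB : Base G p a) {x : G} (hxc : x ∉ center G)
    (hx : x ^ p ∈ center G) : Nat.card (fC x).range ≤ p ^ a := by
  have hpg : IsPGroup p (fC x).range := by
    rintro ⟨y, g, rfl⟩
    exact ⟨1, Subtype.ext (by rw [pow_one]; exact fC_pow_eq_one hx g)⟩
  obtain ⟨j, hj⟩ := IsPGroup.iff_card.1 hpg
  have hCL : CG x ≤ LC x := by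
    intro g hg
    rw [mem_CG] at hg
    rw [mem_LC, hg]; simp
  have h1 : Nat.card (fC x).range ∣ (CG x).index := by
    have h2 : (fC x).ker = (CG x).subgroupOf (LC x) := by
      ext g
      rw [MonoidHom.mem_ker, fC_eq_one, mem_subgroupOf]
    have h3 : Nat.card (fC x).range = (fC x).ker.index := by
      rw [Subgroup.index_ker]
    rw [h3, h2]
    exact Dvd.intro _ (relIndex_mul_index hCL)
  rw [hj] at h1 ⊢
  have h4 := (hp.out.pow_dvd_iff_le_factorization FiniteIndex.index_ne_zero).1 h1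
  rw [hB.ind x hxc] at h4
  exact Nat.pow_le_pow_right hp.out.pos h4

namespace Spec

variable {P : Sylow p G} {x : G} {P0 H : Subgroup G}

theorem le_LC (h : Spec P x) : (P : Subgroup G) ≤ LC x := fun g hg => h.comm g hg

theorem card_mul (hB : Base G p a) (h : Spec P x) (hD : Dec p (CG x) P0 H) :
    Nat.card P = Nat.card P0 * p ^ a := by
  rw [hD.card_P, ← pow_add, hB.card_add h.nc]
  exact P.card_eq_multiplicity

/-- `C_P(x)` is the `p`-part of `C(x)`. -/
theorem eq_inf (hB : Base G p a) (h : Spec P x) (hD : Dec p (CG x) P0 H) :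
    P0 = (P : Subgroup G) ⊓ CG x := by
  have hle : (P : Subgroup G) ⊓ CG x ≤ P0 := fun g hg =>
    hD.mem_P hg.2 (PEl.of_mem P.2 hg.1)
  symm
  apply eq_of_le_of_card_ge hle
  set f : (P : Subgroup G) →* center G := (fC x).comp (inclusion h.le_LC) with hf
  have h1 : Nat.card P = Nat.card f.ker * Nat.card f.range := by
    rw [← Subgroup.index_ker, card_mul_index]
  have h2 : Nat.card f.range ≤ p ^ a := by
    refine le_trans ?_ (card_range_fC_le hB h.nc h.pow)
    refine card_le_of_le (?_ : f.range ≤ (fC x).range)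
    rintro _ ⟨g, rfl⟩
    exact ⟨_, rfl⟩
  have h3 : Nat.card f.ker ≤ Nat.card ((P : Subgroup G) ⊓ CG x : Subgroup G) := by
    have h4 : f.ker.map (P : Subgroup G).subtype ≤ (P : Subgroup G) ⊓ CG x := by
      rintro _ ⟨g, hg, rfl⟩
      refine ⟨g.2, ?_⟩
      have : fC x (inclusion h.le_LC g) = 1 := hg
      rw [fC_eq_one] at this
      exact this
    refine le_trans (le_of_eq ?_) (card_le_of_le h4)
    exact Nat.card_congr (f.ker.equivMapOfInjective _ (P : Subgroup G).subtype_injective).toEquiv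
  rw [card_mul hB h hD] at h1
  have hpos : 0 < p ^ a := Nat.pow_pos hp.out.pos
  by_contra hcon
  push Not at hcon
  have h5 : Nat.card f.ker < Nat.card P0 := lt_of_le_of_lt h3 hcon
  have h6 : Nat.card f.ker * Nat.card f.range ≤ Nat.card f.ker * p ^ a :=
    Nat.mul_le_mul_left _ h2
  have h7 : Nat.card f.ker * p ^ a < Nat.card P0 * p ^ a := Nat.mul_lt_mul_of_pos_right h5 hpos
  omega

theorem P0_le (hB : Base G p a) (h : Spec P x) (hD : Dec p (CG x) P0 H) :
    P0 ≤ (P : Subgroup G) := by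
  rw [eq_inf hB h hD]; exact inf_le_left

theorem pow_mem (hB : Base G p a) (h : Spec P x) (hD : Dec p (CG x) P0 H) {g : G} (hg : g ∈ P) :
    g ^ p ∈ P0 := by
  rw [eq_inf hB h hD]
  refine ⟨Subgroup.pow_mem _ hg p, ?_⟩
  have h1 := fC_pow_eq_one h.pow ⟨g, h.le_LC hg⟩
  rw [← map_pow, fC_eq_one] at h1
  exact h1

theorem commutator_mem (hB : Base G p a) (h : Spec P x) (hD : Dec p (CG x) P0 H) {g k : G}
    (hg : g ∈ (P : Subgroup G)) (hk : k ∈ (P : Subgroup G)) : g * k * g⁻¹ * k⁻¹ ∈ P0 := by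
  rw [eq_inf hB h hD]
  refine ⟨(P : Subgroup G).mul_mem ((P : Subgroup G).mul_mem ((P : Subgroup G).mul_mem hg hk)
    ((P : Subgroup G).inv_mem hg)) ((P : Subgroup G).inv_mem hk), ?_⟩
  have h1 : fC x ((⟨g, h.le_LC hg⟩ : LC x) * ⟨k, h.le_LC hk⟩ * (⟨g, h.le_LC hg⟩ : LC x)⁻¹ *
      (⟨k, h.le_LC hk⟩ : LC x)⁻¹) = 1 := by
    rw [map_mul, map_mul, map_mul, map_inv, map_inv]
    have hc : fC x ⟨g, h.le_LC hg⟩ * fC x ⟨k, h.le_LC hk⟩ =
        fC x ⟨k, h.le_LC hk⟩ * fC x ⟨g, h.le_LC hg⟩ :=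
      Subtype.ext (mem_center_iff.1 (fC x ⟨k, h.le_LC hk⟩).2 _)
    rw [hc]; group
  rw [fC_eq_one] at h1
  exact h1

theorem conj_H (h : Spec P x) (hD : Dec p (CG x) P0 H) :
    ∀ g ∈ (P : Subgroup G), ∀ u ∈ H, g * u * g⁻¹ ∈ H := fun _ hg _ hu =>
  hD.conj_H (h.conj_CG hg) hu

theorem fix (hB : Base G p a) (h : Spec P x) (hD : Dec p (CG x) P0 H) {g u : G} (hg : g ∈ P)
    (hg0 : g ∉ P0) (hu : u ∈ H) (hgu : g * u = u * g) : u ∈ center G := by
  by_contra huc
  have hle : P0 ⊔ zpowers g ≤ CG u := by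
    apply sup_le
    · intro y hy
      exact mem_CG.2 (hD.comm y hy u hu)
    · exact zpowers_le.2 (mem_CG.2 hgu)
  have hpg : IsPGroup p (P0 ⊔ zpowers g : Subgroup G) :=
    P.2.to_le (sup_le (P0_le hB h hD) (zpowers_le.2 hg))
  have h1 := card_le_of_isPGroup hpg hle
  rw [hB.card_eq huc h.nc, ← hD.card_P] at h1
  have h2 : P0 = P0 ⊔ zpowers g := eq_of_le_of_card_ge le_sup_left h1
  apply hg0
  rw [h2]
  exact mem_sup_right (mem_zpowers g)

theorem exists_not_mem (hB : Base G p a) (h : Spec P x) (hD : Dec p (CG x) P0 H) :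
    ∃ t ∈ P, t ∉ P0 := by
  by_contra hcon
  push Not at hcon
  have h1 := card_le_of_le (show (P : Subgroup G) ≤ P0 from hcon)
  have h2 := card_mul hB h hD
  have h3 : 2 ≤ p ^ a := by
    calc 2 ≤ p := hp.out.two_le
      _ = p ^ 1 := (pow_one p).symm
      _ ≤ p ^ a := Nat.pow_le_pow_right hp.out.pos hB.pos
  have h4 : 0 < Nat.card P0 := Nat.card_pos
  have h5 : Nat.card P0 * 2 ≤ Nat.card P0 * p ^ a := Nat.mul_le_mul_left _ h3
  change Nat.card (P : Subgroup G) ≤ _ at h1
  have h6 : Nat.card (P : Subgroup G) = Nat.card P0 * p ^ a := h2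
  omega

theorem nilp (hB : Base G p a) (h : Spec P x) (hD : Dec p (CG x) P0 H) : Group.IsNilpotent H := by
  obtain ⟨t, ht, ht0⟩ := exists_not_mem hB h hD
  refine isNilpotent_of_fpf (q := p) H hD.cop (t := t) (PEl.of_mem P.2 ht)
    (conj_H h hD t ht) ?_ (fun u hu htu => fix hB h hD ht ht0 hu htu)
  intro u hu
  exact hD.comm _ (pow_mem hB h hD ht) u hu

/-- If `C(x)` has non-central `p'`-elements then `a = 1`. -/
theorem a_eq_one (hB : Base G p a) (h : Spec P x) (hD : Dec p (CG x) P0 H)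
    (hH : ¬ H ≤ center G) : a = 1 := by
  have hnil := nilp hB h hD
  set K := H.map (QuotientGroup.mk' (center G)) with hK
  set Φ := act H (P : Subgroup G) (conj_H h hD) with hΦ
  obtain ⟨u, hu, huc⟩ := Set.not_subset.1 hH
  have huK : QuotientGroup.mk' (center G) u ∈ K := mem_map_of_mem _ hu
  have hnK : Nontrivial K := by
    refine ⟨⟨⟨_, huK⟩, 1, ?_⟩⟩
    intro h1
    exact huc ((QuotientGroup.eq_one_iff u).1 (congrArg Subtype.val h1))
  have hnilK : Group.IsNilpotent K := by
    have hsurj : Function.Surjective ((QuotientGroup.mk' (center G)).subgroupMap H) :=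
      MonoidHom.subgroupMap_surjective _ _
    exact Group.nilpotent_of_surjective _ hsurj
  have hker : ∀ g : (P : Subgroup G), (g : G) ∈ P0 → Φ g = 1 := by
    intro g hg
    ext ⟨y, hy⟩
    obtain ⟨v, hv, rfl⟩ := hy
    rw [hΦ, act_apply]
    change (QuotientGroup.mk' (center G) g) * (QuotientGroup.mk' (center G) v) *
        (QuotientGroup.mk' (center G) g)⁻¹ = QuotientGroup.mk' (center G) v
    rw [← map_mul, ← map_inv, ← map_mul, hD.comm g hg v hv, mul_inv_cancel_right]
  have hfix : ∀ g : (P : Subgroup G), (g : G) ∉ P0 → ∀ v : K, Φ g v = v → v = 1 := by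
    rintro g hg ⟨y, hy⟩ hv
    obtain ⟨v, hv', rfl⟩ := hy
    have h1 : (g : G) * v = v * g :=
      act_fix H (P : Subgroup G) (conj_H h hD) hD.cop g.2 (PEl.of_mem P.2 g.2) hv' hv
    apply Subtype.ext
    exact (QuotientGroup.eq_one_iff v).2 (fix hB h hD g.2 hg hv' h1)
  have hcyc : IsCyclic Φ.range := by
    refine Cfsg.Agent.Solvable.FpfCyclic.isCyclic_of_fpf_nilpotent (W := K) ?_ Φ.range.subtype ?_
    · rintro ⟨_, g, rfl⟩ ⟨_, k, rfl⟩
      apply Subtype.ext
      change Φ g * Φ k = Φ k * Φ g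
      rw [← map_mul, ← map_mul]
      have h1 : g * k = (g * k * g⁻¹ * k⁻¹) * (k * g) := by group
      rw [h1, map_mul, hker (g * k * g⁻¹ * k⁻¹) (commutator_mem hB h hD g.2 k.2), one_mul]
    · rintro ⟨_, g, rfl⟩ hne v hv
      refine hfix g ?_ v hv
      intro hg
      exact hne (Subtype.ext (hker g hg))
  have hcard : Nat.card Φ.range ≤ p := by
    obtain ⟨r, hr⟩ := hcyc.exists_generator
    rw [← orderOf_eq_card_of_forall_mem_zpowers hr]
    apply Nat.le_of_dvd hp.out.pos
    apply orderOf_dvd_of_pow_eq_one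
    obtain ⟨_, g, rfl⟩ := r
    apply Subtype.ext
    change Φ g ^ p = 1
    rw [← map_pow]
    exact hker _ (pow_mem hB h hD g.2)
  have h1 : Nat.card P = Nat.card Φ.ker * Nat.card Φ.range := by
    rw [← Subgroup.index_ker, card_mul_index]
  have h2 : Nat.card Φ.ker ≤ Nat.card P0 := by
    have h4 : Φ.ker.map (P : Subgroup G).subtype ≤ P0 := by
      rintro _ ⟨g, hg, rfl⟩
      by_contra hg0
      have hg1 : Φ g = 1 := hg
      have h5 := hfix g hg0 ⟨_, huK⟩ (by rw [hg1]; rfl)
      exact huc ((QuotientGroup.eq_one_iff u).1 (congrArg Subtype.val h5))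
    refine le_trans (le_of_eq ?_) (card_le_of_le h4)
    exact Nat.card_congr (Φ.ker.equivMapOfInjective _ (P : Subgroup G).subtype_injective).toEquiv
  have h3 := card_mul hB h hD
  have h4 : Nat.card P0 * p ^ a ≤ Nat.card P0 * p := by
    rw [← h3, h1]
    exact Nat.mul_le_mul h2 hcard
  have h5 : p ^ a ≤ p ^ 1 := by
    rw [pow_one]; exact Nat.le_of_mul_le_mul_left h4 Nat.card_pos
  have h6 := (Nat.pow_le_pow_iff_right hp.out.one_lt).1 h5
  have := hB.pos
  omega

end Spec

end Cfsg.Agent.H558.Cs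
end

-- part: H558/CsTwo
section
/-!
# Groups acting on a `p`-group and an `r`-group without outer fixed points (helper558, for S4284)
-/

set_option autoImplicit false
set_option linter.style.haveILetI false
set_option linter.unusedSectionVars false

namespace Cfsg.Agent.H558.Cs

open Subgroup

/-- `E` acts on the abelian `p`-group `V`; the fixed points of each non-identity element are `F`. -/
structure AFix (p : ℕ) {E V : Type*} [Group E] [Group V] (φ : E →* MulAut V)
    (F : Subgroup V) : Prop where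
  comm : ∀ x y : V, x * y = y * x
  pgrp : IsPGroup p V
  fixF : ∀ e : E, ∀ v ∈ F, φ e v = v
  fix : ∀ e : E, e ≠ 1 → ∀ v, φ e v = v → v ∈ F
  ne : F ≠ ⊤

namespace AFix

variable {p : ℕ} [hp : Fact p.Prime] {E V : Type*} [Group E] [Finite E] [Group V] [Finite V]
  {φ : E →* MulAut V} {F : Subgroup V}

/-- A normal subgroup of order prime to `p` is trivial. -/
theorem alpha (h : AFix p φ F) (hpE : p ∣ Nat.card E) (T : Subgroup E) [hTn : T.Normal]
    (hT : ¬ p ∣ Nat.card T) : T = ⊥ := by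
  classical
  by_contra hT1
  letI : CommGroup V := { ‹Group V› with mul_comm := h.comm }
  haveI : Fintype T := Fintype.ofFinite T
  let N : V →* V :=
    { toFun := fun v => ∏ τ : T, φ (τ : E) v
      map_one' := by simp
      map_mul' := by intro x y; simp [Finset.prod_mul_distrib] }
  have hNdef : ∀ v, N v = ∏ τ : T, φ (τ : E) v := fun v => rfl
  obtain ⟨τ0, hτ0, hτ1⟩ : ∃ x ∈ T, x ≠ (1 : E) := by
    by_contra hcon
    push Not at hcon
    exact hT1 ((eq_bot_iff_forall T).2 hcon)
  have hNF : ∀ v, N v ∈ F := by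
    intro v
    refine h.fix τ0 hτ1 _ ?_
    rw [hNdef, map_prod]
    refine Fintype.prod_equiv (Equiv.mulLeft (⟨τ0, hτ0⟩ : T)) _ _ ?_
    intro τ
    simp [map_mul, MulAut.mul_apply]
  have hNf : ∀ f ∈ F, N f = f ^ Nat.card T := by
    intro f hf
    rw [hNdef]
    have h1 : ∀ τ : T, φ (τ : E) f = f := fun τ => h.fixF (τ : E) f hf
    simp only [h1]
    simp [Nat.card_eq_fintype_card]
  have hker_F : ∀ f ∈ F, f ∈ N.ker → f = 1 := by
    intro f hf hk
    rw [MonoidHom.mem_ker, hNf f hf] at hk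
    obtain ⟨k, hk2⟩ := h.pgrp f
    have h1 : orderOf f ∣ Nat.card T := orderOf_dvd_of_pow_eq_one hk
    exact PEl.eq_one hp.out ⟨k, hk2⟩ (fun h2 => hT (h2.trans h1))
  have hker : N.ker ≠ ⊥ := by
    intro hk
    apply h.ne
    have hinj : Function.Injective (fun v : V => (⟨N v, hNF v⟩ : F)) := by
      intro x y hxy
      exact (MonoidHom.ker_eq_bot_iff N).1 hk (congrArg Subtype.val hxy)
    apply eq_top_of_card_eq
    exact le_antisymm (Nat.card_le_card_of_injective _ Subtype.val_injective)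
      (Nat.card_le_card_of_injective _ hinj)
  have hinv : ∀ (e : E) (v : V), N (φ e v) = φ e (N v) := by
    intro e v
    rw [hNdef, hNdef, map_prod]
    symm
    refine Fintype.prod_equiv (MulAut.conjNormal e : T ≃* T).toEquiv _ _ ?_
    intro τ
    rw [← MulAut.mul_apply, ← MulAut.mul_apply, ← map_mul, ← map_mul]
    congr 2
    simp [MulAut.conjNormal_apply]
  obtain ⟨e, he⟩ := exists_prime_orderOf_dvd_card' p hpE
  have he1 : e ≠ 1 := by
    intro h1
    rw [h1, orderOf_one] at he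
    exact hp.out.one_lt.ne he
  have hmap : ∀ g : E, ∀ v ∈ N.ker, φ g v ∈ N.ker := by
    intro g v hv
    rw [MonoidHom.mem_ker] at hv ⊢
    rw [hinv, hv, map_one]
  letI act : MulAction (zpowers e) N.ker :=
    { smul := fun g v => ⟨φ (g : E) v, hmap g v v.2⟩
      one_smul := by
        intro v
        apply Subtype.ext
        change φ ((1 : zpowers e) : E) v = v
        simp
      mul_smul := by
        intro g g' v
        apply Subtype.ext
        change φ ((g * g' : zpowers e) : E) v = φ (g : E) (φ (g' : E) v)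
        rw [← MulAut.mul_apply, ← map_mul]; rfl }
  have hsmul : ∀ (g : zpowers e) (v : N.ker), ((g • v : N.ker) : V) = φ (g : E) v :=
    fun g v => rfl
  have hpe : IsPGroup p (zpowers e) := by
    have : PEl p e := ⟨1, by rw [pow_one, ← he]; exact pow_orderOf_eq_one e⟩
    exact this.isPGroup_zpowers
  have hpd : p ∣ Nat.card N.ker := by
    obtain ⟨k, hk⟩ := IsPGroup.iff_card.1 (h.pgrp.to_subgroup N.ker)
    rw [hk]
    apply dvd_pow_self
    rintro rfl
    rw [pow_zero] at hk
    exact hker (eq_bot_of_card_eq _ hk)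
  obtain ⟨w, hw, hw1⟩ := hpe.exists_fixed_point_of_prime_dvd_card_of_fixed_point N.ker hpd
    (a := 1) (by
      intro g
      apply Subtype.ext
      rw [hsmul]
      simp)
  have h1 : φ e w = w := by
    have := hw ⟨e, mem_zpowers e⟩
    exact congrArg Subtype.val this
  exact hw1 (Subtype.ext (hker_F w (h.fix e he1 w h1) w.2)).symm

/-- Elements of order prime to `p` have trivial fixed points modulo `F`. -/
theorem beta (h : AFix p φ F) {e : E} (he : e ≠ 1) (hep : ¬ p ∣ orderOf e) {v : V}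
    (hv : v⁻¹ * φ e v ∈ F) : v ∈ F := by
  set f := v⁻¹ * φ e v with hf
  have h0 : φ e v = v * f := by rw [hf]; group
  have h1 : ∀ n : ℕ, φ (e ^ n) v = v * f ^ n := by
    intro n
    induction n with
    | zero => simp
    | succ n ih =>
      rw [pow_succ, map_mul, MulAut.mul_apply, h0, map_mul, ih, h.fixF _ f hv, mul_assoc,
        ← pow_succ]
  have h2 := h1 (orderOf e)
  rw [pow_orderOf_eq_one, map_one, MulAut.one_apply] at h2
  have h3 : f ^ orderOf e = 1 := by
    have : v * f ^ orderOf e = v * 1 := by rw [mul_one]; exact h2.symm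
    exact mul_left_cancel this
  have h4 : f = 1 := PEl.eq_one hp.out (h.pgrp f) (fun hd =>
    hep (hd.trans (orderOf_dvd_of_pow_eq_one h3)))
  exact h.fix e he v (by rw [h0, h4, mul_one])

theorem normal (h : AFix p φ F) : F.Normal :=
  ⟨fun n hn g => by rwa [h.comm g n, mul_inv_cancel_right]⟩

theorem map_mem (h : AFix p φ F) (e : E) : F.map ((φ e : V ≃* V) : V →* V) = F := by
  ext v
  constructor
  · rintro ⟨w, hw, rfl⟩
    have := h.fixF e w hw
    change φ e w ∈ F
    rw [this]; exact hw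
  · intro hv
    exact ⟨v, hv, h.fixF e v hv⟩

/-- the action on `V / F` -/
noncomputable def qact (h : AFix p φ F) [F.Normal] : E →* MulAut (V ⧸ F) where
  toFun e := QuotientGroup.congr F F (φ e) (h.map_mem e)
  map_one' := by
    ext x
    induction x using QuotientGroup.induction_on with
    | H z => simp
  map_mul' e f := by
    ext x
    induction x using QuotientGroup.induction_on with
    | H z => simp

theorem qact_mk (h : AFix p φ F) [F.Normal] (e : E) (v : V) :
    h.qact e (v : V ⧸ F) = ((φ e v : V) : V ⧸ F) := rfl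

theorem qact_fix (h : AFix p φ F) [F.Normal] {e : E} (he : e ≠ 1) (hep : ¬ p ∣ orderOf e)
    {x : V ⧸ F} (hx : h.qact e x = x) : x = 1 := by
  induction x using QuotientGroup.induction_on with
  | H v =>
    rw [qact_mk] at hx
    rw [QuotientGroup.eq_one_iff]
    exact h.beta he hep ((QuotientGroup.eq).1 hx.symm)

theorem nontrivial_quot (h : AFix p φ F) : Nontrivial (V ⧸ F) := by
  have hF := h.ne
  by_contra hcon
  rw [not_nontrivial_iff_subsingleton] at hcon
  exact hF (QuotientGroup.subgroup_eq_top_of_subsingleton F hcon)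

theorem quot_comm (h : AFix p φ F) [F.Normal] (x y : V ⧸ F) : x * y = y * x := by
  induction x using QuotientGroup.induction_on with
  | H v =>
    induction y using QuotientGroup.induction_on with
    | H w => rw [← QuotientGroup.mk_mul, ← QuotientGroup.mk_mul, h.comm]

/-- For odd primes `t ≠ p` the Sylow `t`-subgroups of `E` are cyclic. -/
theorem sylow_cyclic (h : AFix p φ F) {t : ℕ} [ht : Fact t.Prime] (htp : t ≠ p) (ht2 : t ≠ 2)
    (S : Sylow t E) : IsCyclic S := by
  haveI := h.normal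
  haveI := h.nontrivial_quot
  letI : CommGroup (V ⧸ F) := { (inferInstance : Group (V ⧸ F)) with mul_comm := h.quot_comm }
  obtain ⟨Q⟩ : Nonempty (Sylow t (S : Subgroup E)) := inferInstance
  have hQ : (Q : Subgroup (S : Subgroup E)) = ⊤ := by
    have h1 : (⊤ : Subgroup (S : Subgroup E)) ≤ Q := by
      have : (Q : Subgroup (S : Subgroup E)) = ⊤ :=
        (Q.3 ((S.2).to_subgroup ⊤) le_top).symm
      rw [this]
    exact top_le_iff.1 h1
  have hfix : ∀ g : (S : Subgroup E), g ≠ 1 → ∀ v : V ⧸ F,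
      (h.qact.comp (S : Subgroup E).subtype) g v = v → v = 1 := by
    intro g hg v hv
    refine h.qact_fix (e := (g : E)) (fun h1 => hg (Subtype.ext h1)) ?_ hv
    obtain ⟨k, hk⟩ := (PEl.of_mem S.2 g.2).orderOf_dvd
    intro hd
    have := hp.out.dvd_of_dvd_pow (hd.trans hk)
    exact htp ((Nat.prime_dvd_prime_iff_eq hp.out ht.out).1 this).symm
  rcases Cfsg.Agent.PermutationGroups.ZassReduction.sylow_cyclic_or_quaternion
    (h.qact.comp (S : Subgroup E).subtype) hfix t Q with h1 | ⟨h1, -⟩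
  · have h2 : IsCyclic (Q : Subgroup (S : Subgroup E)) := h1
    rw [hQ] at h2
    exact (topEquiv.isCyclic).1 h2
  · exact absurd h1 ht2

/-- An involution inverts `V / F` if `p` is odd. -/
theorem inv_of_involution (h : AFix p φ F) (hp2 : p ≠ 2) [F.Normal] {e : E} (he : orderOf e = 2)
    (x : V ⧸ F) : h.qact e x = x⁻¹ := by
  have he1 : e ≠ 1 := by
    intro h1; rw [h1, orderOf_one] at he; omega
  have hep : ¬ p ∣ orderOf e := by
    rw [he]
    intro hd
    exact hp2 ((Nat.prime_dvd_prime_iff_eq hp.out Nat.prime_two).1 hd)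
  have h2 : ∀ y, h.qact e (h.qact e y) = y := by
    intro y
    rw [← MulAut.mul_apply, ← map_mul, ← pow_two, ← he, pow_orderOf_eq_one, map_one]
    rfl
  have h1 : h.qact e (x * h.qact e x) = x * h.qact e x := by
    rw [map_mul, h2, h.quot_comm]
  have h3 := h.qact_fix he1 hep h1
  exact eq_inv_of_mul_eq_one_right h3

section Two

variable {r : ℕ} [hr : Fact r.Prime] {W : Type*} [Group W] [Finite W] {ψ : E →* MulAut W}
  {F' : Subgroup W}

theorem false_of_even (h : AFix p φ F) (h' : AFix r ψ F') (hpr : p ≠ r)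
    (hpE : p ∣ Nat.card E) (hrE : r ∣ Nat.card E) (hr2 : r ≠ 2) (h2 : 2 ∣ Nat.card E) : False := by
  haveI := h'.normal
  haveI := h'.nontrivial_quot
  obtain ⟨e, he⟩ := exists_prime_orderOf_dvd_card' 2 h2
  have hT : h'.qact.ker = ⊥ := by
    refine h.alpha hpE _ ?_
    intro hd
    obtain ⟨t, ht⟩ := exists_prime_orderOf_dvd_card' p hd
    have ht' : orderOf (t : E) = p := by rw [Subgroup.orderOf_coe, ht]
    have ht1 : (t : E) ≠ 1 := by
      intro h1; rw [h1, orderOf_one] at ht'; exact hp.out.one_lt.ne ht'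
    have htr : ¬ r ∣ orderOf (t : E) := by
      rw [ht']
      intro hd
      exact hpr ((Nat.prime_dvd_prime_iff_eq hr.out hp.out).1 hd).symm
    obtain ⟨x, hx⟩ := exists_ne (1 : W ⧸ F')
    apply hx
    apply h'.qact_fix ht1 htr
    have := t.2
    rw [MonoidHom.mem_ker] at this
    rw [this]; rfl
  have hinj : Function.Injective h'.qact := (MonoidHom.ker_eq_bot_iff _).1 hT
  have hcen : e ∈ center E := by
    rw [mem_center_iff]
    intro g
    apply hinj
    ext x
    rw [map_mul, map_mul, MulAut.mul_apply, MulAut.mul_apply,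
      h'.inv_of_involution hr2 he, h'.inv_of_involution hr2 he, map_inv]
  haveI : (zpowers e).Normal := ⟨by
    intro n hn g
    have : n ∈ center E := (zpowers_le.2 hcen) hn
    rw [mem_center_iff.1 this g, mul_inv_cancel_right]; exact hn⟩
  have h3 := h'.alpha hrE (zpowers e) (by
    rw [Nat.card_zpowers, he]
    intro hd
    exact hr2 ((Nat.prime_dvd_prime_iff_eq hr.out Nat.prime_two).1 hd))
  rw [zpowers_eq_bot] at h3
  rw [h3, orderOf_one] at he
  omega

theorem false_of_odd (h : AFix p φ F) (h' : AFix r ψ F') (hpr : p ≠ r)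
    (hpE : p ∣ Nat.card E) (hrE : r ∣ Nat.card E) (h2 : ¬ 2 ∣ Nat.card E) : False := by
  haveI : IsZGroup E := ⟨by
    intro t ht S
    haveI : Fact t.Prime := ⟨ht⟩
    by_cases ht2 : t = 2
    · subst ht2
      have h1 : Nat.card S = 1 := by
        rw [S.card_eq_multiplicity, Nat.factorization_eq_zero_of_not_dvd h2, pow_zero]
      haveI : Subsingleton S := (Nat.card_eq_one_iff_unique.1 h1).1
      infer_instance
    · by_cases htp : t = p
      · exact h'.sylow_cyclic (htp ▸ hpr) ht2 S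
      · exact h.sylow_cyclic htp ht2 S⟩
  haveI : Nontrivial E := by
    by_contra hcon
    rw [not_nontrivial_iff_subsingleton] at hcon
    rw [Nat.card_unique] at hpE
    exact hp.out.one_lt.ne' (Nat.dvd_one.1 hpE)
  obtain ⟨q, hq, N, hN, hN1, -, hNq⟩ :=
    Cfsg.Agent.Characters.CNBasic.exists_normal_elementary E
  have key : ∀ s : ℕ, s.Prime → s ≠ q → ¬ s ∣ Nat.card N := by
    intro s hs hsq hd
    haveI : Fact s.Prime := ⟨hs⟩
    obtain ⟨x, hx⟩ := exists_prime_orderOf_dvd_card' s hd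
    have h1 : (x : E) ^ q = 1 := hNq x x.2
    have h3 : x ^ q = 1 := Subtype.ext (by simpa using h1)
    have h4 := orderOf_dvd_of_pow_eq_one h3
    rw [hx] at h4
    exact hsq ((Nat.prime_dvd_prime_iff_eq hs hq).1 h4)
  by_cases hqp : p = q
  · exact hN1 (h'.alpha hrE N (key r hr.out (fun h => hpr (hqp.trans h.symm))))
  · exact hN1 (h.alpha hpE N (key p hp.out hqp))

/-- The abstract statement behind "`m` is a prime power". -/
theorem no_two (h : AFix p φ F) (h' : AFix r ψ F') (hpr : p ≠ r)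
    (hpE : p ∣ Nat.card E) (hrE : r ∣ Nat.card E) : False := by
  by_cases h2 : 2 ∣ Nat.card E
  · by_cases hr2 : r = 2
    · exact false_of_even h' h hpr.symm hrE hpE (fun h => hpr (h.trans hr2.symm)) h2
    · exact false_of_even h h' hpr hpE hrE hr2 h2
  · exact false_of_odd h h' hpr hpE hrE h2

end Two

end AFix

end Cfsg.Agent.H558.Cs
end

-- part: H558/CsA
section
/-!
# No two primes (helper558, for S4284)
-/

set_option autoImplicit false
set_option linter.unusedSectionVars false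
set_option linter.style.haveILetI false

namespace Cfsg.Agent.H558.Cs

open Subgroup

variable {G : Type*} [Group G] [Finite G]

theorem not_dvd_of_pEl {p r : ℕ} [hp : Fact p.Prime] [hr : Fact r.Prime] (hpr : p ≠ r) {x : G}
    (hx : PEl p x) : ¬ r ∣ orderOf x := by
  intro hd
  obtain ⟨k, hk⟩ := hx.orderOf_dvd
  exact hpr ((Nat.prime_dvd_prime_iff_eq hr.out hp.out).1
    (hr.out.dvd_of_dvd_pow (hd.trans hk))).symm

theorem dvd_card_of_pEl {E : Type*} [Group E] [Finite E] {p : ℕ} [hp : Fact p.Prime] {e : E}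
    (he : PEl p e) (he1 : e ≠ 1) : p ∣ Nat.card E := by
  by_contra hd
  apply he1
  refine he.eq_one hp.out ?_
  intro h
  exact hd (h.trans (orderOf_dvd_natCard e))

/-- fixed points of an element outside the full `p`-part of a centralizer are central -/
theorem Base.fix_of_not_mem {p a : ℕ} [hp : Fact p.Prime] (hB : Base G p a) {P : Sylow p G}
    {x : G} (hx : x ∉ center G) {P0 H : Subgroup G} (hD : Dec p (CG x) P0 H)
    (hle : P0 ≤ (P : Subgroup G)) {g u : G} (hg : g ∈ P)
    (hg0 : g ∉ P0) (hu : ∀ y ∈ P0, y * u = u * y) (hgu : g * u = u * g) : u ∈ center G := by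
  by_contra huc
  have hle' : P0 ⊔ zpowers g ≤ CG u := by
    apply sup_le
    · intro y hy
      exact mem_CG.2 (hu y hy)
    · exact zpowers_le.2 (mem_CG.2 hgu)
  have hpg : IsPGroup p (P0 ⊔ zpowers g : Subgroup G) :=
    P.2.to_le (sup_le hle (zpowers_le.2 hg))
  have h1 := card_le_of_isPGroup hpg hle'
  rw [hB.card_eq huc hx, ← hD.card_P] at h1
  have h2 : P0 = P0 ⊔ zpowers g := eq_of_le_of_card_ge le_sup_left h1
  apply hg0
  rw [h2]
  exact mem_sup_right (mem_zpowers g)

theorem A1 {p r b : ℕ} [hp : Fact p.Prime] [hr : Fact r.Prime] (hpr : p ≠ r) (hB : Base G r b)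
    {x z : G} (hxp : PEl p x) (hx : x ∉ center G) (hz : z ∉ center G)
    (hzx : z ∈ CG x) {P0 H R0 K : Subgroup G} (hD : Dec p (CG x) P0 H)
    (hD' : Dec r (CG z) R0 K) (hn : Group.IsNilpotent H) :
    R0 ≤ CG x ∧ ∀ w ∈ CG x, PEl r w → w ∈ R0 := by
  have hxz : x ∈ CG z := mem_CG.2 (mem_CG.1 hzx).symm
  have hxK : x ∈ K := hD'.mem_H hxz (not_dvd_of_pEl hpr hxp)
  have h1 : R0 ≤ CG x := fun y hy => mem_CG.2 (hD'.comm y hy x hxK)
  have h2 : R0 ≤ H := fun y hy =>
    hD.mem_H (h1 hy) (not_dvd_of_pEl (fun h => hpr h.symm) (PEl.of_mem hD'.pgrp hy))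
  refine ⟨h1, ?_⟩
  intro w hw hwr
  have hwH : w ∈ H := hD.mem_H hw (not_dvd_of_pEl (fun h => hpr h.symm) hwr)
  have hcard : Nat.card (R0.subgroupOf H) = r ^ (Nat.card H).factorization r := by
    rw [Nat.card_congr (subgroupOfEquivOfLe h2).toEquiv, hD'.card_P, hB.card_eq hz hx,
      hD.card_eq, Nat.factorization_mul Nat.card_pos.ne' Nat.card_pos.ne', Finsupp.add_apply,
      hD.card_P, hp.out.factorization_pow, Finsupp.single_eq_of_ne hpr.symm, zero_add]
  let S : Sylow r H := Sylow.ofCard (R0.subgroupOf H) hcard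
  have hSn : (S : Subgroup H).Normal :=
    (((Group.isNilpotent_of_finite_tfae (G := H)).out 0 3 : _ ↔ ∀ (q : ℕ) (_ : Fact q.Prime) (S : Sylow q H), (S : Subgroup H).Normal).1 hn) r hr S
  haveI := Sylow.unique_of_normal S hSn
  have hwp : PEl r (⟨w, hwH⟩ : H) := by
    obtain ⟨k, hk⟩ := hwr
    exact ⟨k, Subtype.ext (by simpa using hk)⟩
  obtain ⟨Q, hQ⟩ := hwp.isPGroup_zpowers.exists_le_sylow
  have hQS : Q = S := Subsingleton.elim _ _
  have h3 : (⟨w, hwH⟩ : H) ∈ (S : Subgroup H) := hQS ▸ hQ (mem_zpowers _)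
  exact mem_subgroupOf.1 h3

theorem A2 {p r b : ℕ} [hp : Fact p.Prime] [hr : Fact r.Prime] (hpr : p ≠ r) (hB : Base G r b)
    {x z : G} (hxp : PEl p x) (hx : x ∉ center G) (hz : z ∉ center G)
    (hzx : z ∈ CG x) (hzr : PEl r z) {P0 H R0 K : Subgroup G} (hD : Dec p (CG x) P0 H)
    (hD' : Dec r (CG z) R0 K) (hn : Group.IsNilpotent H) :
    (∀ u ∈ R0, ∀ w ∈ R0, u * w = w * u) ∧ ∀ z' ∈ R0, z' ∉ center G → CG z' = CG z := by
  obtain ⟨h1, h2⟩ := A1 hpr hB hxp hx hz hzx hD hD' hn
  have key : ∀ z' ∈ R0, z' ∉ center G → ∃ K', Dec r (CG z') R0 K' := by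
    intro z' hz' hz'c
    have hz'r : PEl r z' := PEl.of_mem hD'.pgrp hz'
    obtain ⟨R1, K1, hD1⟩ := hB.exists_dec hz'c hz'r
    obtain ⟨h3, h4⟩ := A1 hpr hB hxp hx hz'c (h1 hz') hD hD1 hn
    have h5 : R1 = R0 := by
      apply le_antisymm
      · exact fun w hw => h2 w (h3 hw) (PEl.of_mem hD1.pgrp hw)
      · exact fun w hw => h4 w (h1 hw) (PEl.of_mem hD'.pgrp hw)
    exact ⟨K1, h5 ▸ hD1⟩
  have hab : ∀ u ∈ R0, ∀ w ∈ R0, u * w = w * u := by
    intro u hu w hw
    by_cases huc : u ∈ center G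
    · exact ((mem_center_iff.1 huc w)).symm
    · obtain ⟨K', hK'⟩ := key u hu huc
      exact (mem_CG.1 (hK'.le hw)).symm
  refine ⟨hab, ?_⟩
  have hle : ∀ (s t : G) (K' : Subgroup G), s ∈ R0 → t ∈ R0 → Dec r (CG s) R0 K' →
      CG s ≤ CG t := by
    intro s t K' hs ht hDs g hg
    obtain ⟨u, hu, v, hv, rfl⟩ := hDs.mulm g hg
    rw [mem_CG]
    have e1 := hab u hu t ht
    have e2 := hDs.comm t ht v hv
    calc u * v * t = u * (v * t) := by group
      _ = u * t * v := by rw [← e2]; group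
      _ = t * (u * v) := by rw [e1]; group
  intro z' hz' hz'c
  obtain ⟨K', hK'⟩ := key z' hz' hz'c
  have hzR : z ∈ R0 := hD'.mem_P (self_mem_CG z) hzr
  exact le_antisymm (hle z' z K' hz' hzR hK') (hle z z' K hzR hz' hD')

theorem A3 {p r b : ℕ} [hp : Fact p.Prime] [hr : Fact r.Prime] (hpr : p ≠ r) (hB : Base G r b)
    {x z : G} (hxp : PEl p x) (hx : x ∉ center G) (hz : z ∉ center G)
    (hzx : z ∈ CG x) (hzr : PEl r z) {P0 H R0 K : Subgroup G} (hD : Dec p (CG x) P0 H)
    (hD' : Dec r (CG z) R0 K) (hn : Group.IsNilpotent H) (hP0 : P0 ≤ CG z) :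
    CG x ≤ CG z := by
  obtain ⟨h1, h2⟩ := A1 hpr hB hxp hx hz hzx hD hD' hn
  obtain ⟨hab, h3⟩ := A2 hpr hB hxp hx hz hzx hzr hD hD' hn
  have hzR : z ∈ R0 := hD'.mem_P (self_mem_CG z) hzr
  have hzH : z ∈ H := hD.mem_H hzx (not_dvd_of_pEl (fun h => hpr h.symm) hzr)
  intro g hg
  obtain ⟨u, hu, v, hv, rfl⟩ := hD.mulm g hg
  refine mul_mem (hP0 hu) ?_
  obtain ⟨c, d, hcd, hcd', hc, hd, hcz, hdz⟩ := exists_parts hr.out v
  have hcH : c ∈ H := (zpowers_le.2 hv) hcz
  have hdH : d ∈ H := (zpowers_le.2 hv) hdz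
  rw [hcd]
  refine mul_mem (mem_CG.2 (hab c (h2 c (hD.le' hcH) hc) z hzR)) (mem_CG.2 ?_)
  have h4 := Cfsg.Agent.Characters.CNBasic.commute_of_coprime hn (x := (⟨z, hzH⟩ : H))
    (y := (⟨d, hdH⟩ : H)) (by
      have := coprime_of_pEl hr.out hzr hd
      rwa [← Subgroup.orderOf_coe, ← Subgroup.orderOf_coe])
  exact (congrArg Subtype.val h4).symm

/-- an element outside `R0` normalizing it, with `r`-th power in `R0` -/
theorem exists_normalizing {r : ℕ} [hr : Fact r.Prime] {R : Subgroup G} (hR : IsPGroup r R)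
    {R0 : Subgroup G} (hle : R0 ≤ R) (hlt : R0 ≠ R) :
    ∃ g ∈ R, g ∉ R0 ∧ (∀ u ∈ R0, g * u * g⁻¹ ∈ R0) ∧ g ^ r ∈ R0 := by
  haveI : Group.IsNilpotent R := hR.isNilpotent
  have h1 : R0.subgroupOf R < ⊤ := by
    rw [lt_top_iff_ne_top]
    intro h
    exact hlt (le_antisymm hle (subgroupOf_eq_top.1 h))
  have h2 := Group.normalizerCondition_of_isNilpotent (G := R) _ h1
  obtain ⟨g, hg, hg0⟩ := SetLike.exists_of_lt h2
  have hnorm : ∀ n : ℕ, ∀ u ∈ R0, ((g : G) ^ n) * u * ((g : G) ^ n)⁻¹ ∈ R0 := by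
    intro n u hu
    have h3 : g ^ n ∈ normalizer ((R0.subgroupOf R : Subgroup R) : Set R) := pow_mem hg n
    have h4 := (mem_normalizer_iff.1 h3 ⟨u, hle hu⟩).1 (mem_subgroupOf.2 hu)
    have h5 := mem_subgroupOf.1 h4
    simpa using h5
  have hex : ∃ k : ℕ, (g : G) ^ r ^ k ∈ R0 := by
    obtain ⟨k, hk⟩ := PEl.of_mem hR g.2
    exact ⟨k, hk ▸ one_mem _⟩
  classical
  set j := Nat.find hex with hj
  have hj0 : j ≠ 0 := by
    intro h
    have := Nat.find_spec hex
    rw [← hj, h, pow_zero, pow_one] at this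
    exact hg0 (mem_subgroupOf.2 this)
  obtain ⟨i, hi⟩ := Nat.exists_eq_succ_of_ne_zero hj0
  refine ⟨(g : G) ^ r ^ i, pow_mem g.2 _, Nat.find_min hex (by
    rw [← hj, hi]; exact Nat.lt_succ_self i), hnorm _, ?_⟩
  rw [← pow_mul, ← pow_succ]
  have := Nat.find_spec hex
  rwa [← hj, hi] at this

/-- **No two primes.** -/
theorem Base.no_two {p r a b : ℕ} [hp : Fact p.Prime] [hr : Fact r.Prime] (hpr : p ≠ r)
    (hA : Base G p a) (hB : Base G r b) : False := by
  obtain ⟨P⟩ : Nonempty (Sylow p G) := inferInstance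
  obtain ⟨x, hx⟩ := hA.exists_spec P
  obtain ⟨P0, H, hD⟩ := hA.exists_dec hx.nc hx.pEl
  have hnH := Spec.nilp hA hx hD
  obtain ⟨z, hzx, hzr, hz⟩ := hB.exists_comm_pEl hx.nc
  obtain ⟨R0, K, hD'⟩ := hB.exists_dec hz hzr
  obtain ⟨h1, h2⟩ := A1 hpr hB hx.pEl hx.nc hz hzx hD hD' hnH
  obtain ⟨h3, h4⟩ := A2 hpr hB hx.pEl hx.nc hz hzx hzr hD hD' hnH
  have hxz : x ∈ CG z := mem_CG.2 (mem_CG.1 hzx).symm
  -- the Sylow `r`-subgroup
  obtain ⟨R, hR⟩ := hD'.pgrp.exists_le_sylow
  have hR0 : R0 ≠ (R : Subgroup G) := by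
    intro h
    apply hz
    apply hB.mem_center R
    rw [← h]; exact hD'.le
  obtain ⟨g, hgR, hg0, hgn, hgr⟩ := exists_normalizing R.2 hR hR0
  have hzR : z ∈ R0 := hD'.mem_P (self_mem_CG z) hzr
  have hgn' : ∀ u ∈ R0, g⁻¹ * u * g⁻¹⁻¹ ∈ R0 := by
    have h5 : g ∈ normalizer (R0 : Set G) := mem_normalizer_fintype hgn
    intro u hu
    exact (mem_normalizer_iff.1 (inv_mem h5) u).1 hu
  have hgC : ∀ c ∈ CG z, g * c * g⁻¹ ∈ CG z := by
    intro c hc
    have h5 := hgn' z hzR
    have h6 : g⁻¹ * z * g⁻¹⁻¹ ∉ center G := by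
      intro h
      apply hz
      have h7 := mem_center_iff.1 h g
      have : z = g⁻¹ * z * g⁻¹⁻¹ := by
        have e : g * (g⁻¹ * z * g⁻¹⁻¹) = z * g := by group
        rw [e] at h7
        exact mul_right_cancel h7
      rw [this]; exact h
    have h7 := h4 _ h5 h6
    rw [← h7, mem_CG] at hc
    rw [mem_CG]
    calc g * c * g⁻¹ * z = g * (c * (g⁻¹ * z * g⁻¹⁻¹)) * g⁻¹ := by group
      _ = g * ((g⁻¹ * z * g⁻¹⁻¹) * c) * g⁻¹ := by rw [hc]
      _ = z * (g * c * g⁻¹) := by group
  have hnK : Group.IsNilpotent K := by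
    refine isNilpotent_of_fpf (q := r) K hD'.cop (t := g) (PEl.of_mem R.2 hgR)
      (fun u hu => hD'.conj_H hgC hu) (fun u hu => hD'.comm _ hgr u hu) ?_
    intro u hu hgu
    exact hB.fix_of_not_mem hz hD' hR hgR hg0 (fun y hy => hD'.comm y hy u hu) hgu
  obtain ⟨k1, k2⟩ := A1 hpr.symm hA hzr hz hx.nc hxz hD' hD hnK
  obtain ⟨k3, k4⟩ := A2 hpr.symm hA hzr hz hx.nc hxz hx.pEl hD' hD hnK
  have hC : CG x = CG z := le_antisymm (A3 hpr hB hx.pEl hx.nc hz hzx hzr hD hD' hnH k1)
    (A3 hpr.symm hA hzr hz hx.nc hxz hx.pEl hD' hD hnK h1)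
  have hxP : x ∈ P0 := hD.mem_P (self_mem_CG x) hx.pEl
  -- the normalizer of `C`
  set N : Subgroup G := normalizer ((CG x : Subgroup G) : Set G) with hN
  have hCN : CG x ≤ N := le_normalizer
  haveI : ((CG x).subgroupOf N).Normal := Subgroup.normal_in_normalizer
  have hNP : N ≤ normalizer ((P0 : Subgroup G) : Set G) := by
    apply le_normalizer_of
    intro g hg y hy
    exact hD.conj_P (fun c hc => (mem_normalizer_iff.1 hg c).1 hc) hy
  have hNR : N ≤ normalizer ((R0 : Subgroup G) : Set G) := by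
    apply le_normalizer_of
    intro g hg y hy
    refine hD'.conj_P (fun c hc => ?_) hy
    rw [← hC] at hc ⊢
    exact (mem_normalizer_iff.1 hg c).1 hc
  have hφ : (CG x).subgroupOf N ≤ (P0.normalizerMonoidHom.comp (inclusion hNP)).ker := by
    intro c hc
    rw [MonoidHom.mem_ker]
    ext v
    change (c : G) * v * (c : G)⁻¹ = v
    have h5 : (c : G) ∈ CG x := mem_subgroupOf.1 hc
    obtain ⟨u, hu, w, hw, hcu⟩ := hD.mulm _ h5
    rw [mul_inv_eq_iff_eq_mul, hcu]
    have e1 := k3 u hu v v.2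
    have e2 := hD.comm v v.2 w hw
    calc u * w * v = u * (w * v) := by group
      _ = u * v * w := by rw [← e2]; group
      _ = v * (u * w) := by rw [e1]; group
  have hψ : (CG x).subgroupOf N ≤ (R0.normalizerMonoidHom.comp (inclusion hNR)).ker := by
    intro c hc
    rw [MonoidHom.mem_ker]
    ext v
    change (c : G) * v * (c : G)⁻¹ = v
    have h5 : (c : G) ∈ CG z := hC ▸ mem_subgroupOf.1 hc
    obtain ⟨u, hu, w, hw, hcu⟩ := hD'.mulm _ h5
    rw [mul_inv_eq_iff_eq_mul, hcu]
    have e1 := h3 u hu v v.2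
    have e2 := hD'.comm v v.2 w hw
    calc u * w * v = u * (w * v) := by group
      _ = u * v * w := by rw [← e2]; group
      _ = v * (u * w) := by rw [e1]; group
  set φ : N ⧸ (CG x).subgroupOf N →* MulAut P0 := QuotientGroup.lift _ _ hφ with hφd
  set ψ : N ⧸ (CG x).subgroupOf N →* MulAut R0 := QuotientGroup.lift _ _ hψ with hψd
  have hone : ∀ n : N, (n : N ⧸ (CG x).subgroupOf N) = 1 ↔ (n : G) ∈ CG x := by
    intro n
    rw [QuotientGroup.eq_one_iff, mem_subgroupOf]
  have hφm : ∀ (n : N) (v : P0), ((φ (n : N ⧸ (CG x).subgroupOf N) v : P0) : G) =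
      n * v * (n : G)⁻¹ := fun n v => rfl
  have hψm : ∀ (n : N) (v : R0), ((ψ (n : N ⧸ (CG x).subgroupOf N) v : R0) : G) =
      n * v * (n : G)⁻¹ := fun n v => rfl
  have a1 : AFix p φ ((center G).subgroupOf P0) := by
    refine ⟨fun u v => Subtype.ext (k3 u u.2 v v.2), hD.pgrp, ?_, ?_, ?_⟩
    · intro e v hv
      induction e using QuotientGroup.induction_on with
      | H n =>
        apply Subtype.ext
        rw [hφm]
        have h5 := mem_center_iff.1 (mem_subgroupOf.1 hv) (n : G)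
        rw [h5, mul_inv_cancel_right]
    · intro e he v hv
      induction e using QuotientGroup.induction_on with
      | H n =>
        rw [mem_subgroupOf]
        by_contra hvc
        apply he
        rw [hone, ← k4 v v.2 hvc, mem_CG]
        have h5 := congrArg Subtype.val hv
        rw [hφm, mul_inv_eq_iff_eq_mul] at h5
        exact h5
    · intro h
      have : (⟨x, hxP⟩ : P0) ∈ (center G).subgroupOf P0 := h ▸ mem_top _
      exact hx.nc (mem_subgroupOf.1 this)
  have a2 : AFix r ψ ((center G).subgroupOf R0) := by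
    refine ⟨fun u v => Subtype.ext (h3 u u.2 v v.2), hD'.pgrp, ?_, ?_, ?_⟩
    · intro e v hv
      induction e using QuotientGroup.induction_on with
      | H n =>
        apply Subtype.ext
        rw [hψm]
        have h5 := mem_center_iff.1 (mem_subgroupOf.1 hv) (n : G)
        rw [h5, mul_inv_cancel_right]
    · intro e he v hv
      induction e using QuotientGroup.induction_on with
      | H n =>
        rw [mem_subgroupOf]
        by_contra hvc
        apply he
        rw [hone, hC, ← h4 v v.2 hvc, mem_CG]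
        have h5 := congrArg Subtype.val hv
        rw [hψm, mul_inv_eq_iff_eq_mul] at h5
        exact h5
    · intro h
      have : (⟨z, hzR⟩ : R0) ∈ (center G).subgroupOf R0 := h ▸ mem_top _
      exact hz (mem_subgroupOf.1 this)
  -- elements of order `p` and `r`
  have hPel : ∀ (q : ℕ) (n : N), PEl q (n : G) → PEl q (n : N ⧸ (CG x).subgroupOf N) := by
    rintro q n ⟨k, hk⟩
    refine ⟨k, ?_⟩
    have : n ^ q ^ k = 1 := Subtype.ext (by simpa using hk)
    rw [← QuotientGroup.mk_pow, this]; rfl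
  have b1 : p ∣ Nat.card (N ⧸ (CG x).subgroupOf N) := by
    obtain ⟨t, ht, ht0⟩ := Spec.exists_not_mem hA hx hD
    have htN : t ∈ N := mem_normalizer_fintype (fun c hc => hx.conj_CG ht c hc)
    have htp : PEl p t := PEl.of_mem P.2 ht
    refine dvd_card_of_pEl (hPel p ⟨t, htN⟩ htp) ?_
    rw [Ne, hone]
    intro h
    exact ht0 (hD.mem_P h htp)
  have b2 : r ∣ Nat.card (N ⧸ (CG x).subgroupOf N) := by
    have htN : g ∈ N := mem_normalizer_fintype (fun c hc => by
      change g * c * g⁻¹ ∈ CG x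
      rw [hC]; exact hgC c (hC ▸ hc))
    have hgr : PEl r g := PEl.of_mem R.2 hgR
    refine dvd_card_of_pEl (hPel r ⟨g, htN⟩ hgr) ?_
    rw [Ne, hone, hC]
    intro h
    exact hg0 (hD'.mem_P h hgr)
  exact a1.no_two a2 hpr b1 b2

end Cfsg.Agent.H558.Cs
end

-- part: H558/CsB
section
/-!
# A `p`-element of class size `p ^ a` (helper558, for S4284)
-/

set_option autoImplicit false
set_option linter.unusedSectionVars false
set_option linter.style.haveILetI false

namespace Cfsg.Agent.H558.Cs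

open Subgroup

variable {G : Type*} [Group G] [Finite G]

/-- class sizes `1`, `p ^ a`, `p ^ a * n`. -/
structure CS (G : Type*) [Group G] (p a n : ℕ) : Prop where
  pos : 0 < a
  n1 : 1 < n
  cop : ¬ p ∣ n
  ind : ∀ x : G, x ∉ center G → (CG x).index = p ^ a ∨ (CG x).index = p ^ a * n
  ex1 : ∃ x : G, (CG x).index = p ^ a
  ex2 : ∃ x : G, (CG x).index = p ^ a * n

theorem index_one_of_mem {x : G} (hx : x ∈ center G) : (CG x).index = 1 := by
  rw [CG_eq_top_iff.2 hx, index_top]

section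

variable {p : ℕ} [hp : Fact p.Prime]

theorem mem_of_relIndex {N C : Subgroup G} [hN : N.Normal] (h : ¬ p ∣ N.relIndex C) {y : G}
    (hy : y ∈ C) (hyp : PEl p y) : y ∈ N := by
  have h1 : N.relIndex C = Nat.card (C.map (QuotientGroup.mk' N)) := by
    have := relIndex_ker C (QuotientGroup.mk' N)
    rwa [QuotientGroup.ker_mk'] at this
  have h2 : QuotientGroup.mk' N y = 1 := by
    apply PEl.eq_one hp.out (p := p)
    · obtain ⟨k, hk⟩ := hyp
      exact ⟨k, by rw [← map_pow, hk, map_one]⟩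
    · apply not_dvd_orderOf_of_mem (H := C.map (QuotientGroup.mk' N))
      · rwa [← h1]
      · exact mem_map_of_mem _ hy
  exact (QuotientGroup.eq_one_iff y).1 h2

theorem mem_of_normal {N C T : Subgroup G} [hN : N.Normal] (hTN : T ≤ N) (hTC : T ≤ C)
    (hT : Nat.card T = p ^ (Nat.card C).factorization p) {y : G}
    (hy : y ∈ C) (hyp : PEl p y) : y ∈ N := by
  refine mem_of_relIndex (p := p) (C := C) ?_ hy hyp
  intro hd
  have h1 : Nat.card (N.subgroupOf C) * N.relIndex C = Nat.card C :=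
    (N.subgroupOf C).card_mul_index
  have h2 : Nat.card T ∣ Nat.card (N.subgroupOf C) := by
    have h3 : Nat.card (N.subgroupOf C) = Nat.card (N ⊓ C : Subgroup G) := by
      rw [← subgroupOf_map_subtype]
      exact Nat.card_congr ((N.subgroupOf C).equivMapOfInjective _ C.subtype_injective).toEquiv
    rw [h3]
    exact card_dvd_of_le (le_inf hTN hTC)
  have h4 : p ^ (Nat.card C).factorization p * p ∣ Nat.card C := by
    rw [← hT, ← h1]
    exact Nat.mul_dvd_mul h2 hd
  rw [← pow_succ] at h4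
  exact Nat.pow_succ_factorization_not_dvd Nat.card_pos.ne' hp.out h4

theorem mem_core {C : Subgroup G} (hC : C.index = p) {y : G} (hy : y ∈ C) (hyp : PEl p y) :
    y ∈ C.normalCore := by
  refine mem_of_relIndex (p := p) (C := C) ?_ hy hyp
  intro hd
  have h1 : C.normalCore.relIndex C * C.index = C.normalCore.index :=
    relIndex_mul_index (normalCore_le C)
  have h2 : C.normalCore.index ∣ p.factorial := by
    rw [Subgroup.normalCore_eq_ker, Subgroup.index_ker]
    have h3 : Nat.card (Equiv.Perm (G ⧸ C)) = p.factorial := by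
      rw [Nat.card_perm]
      change (Nat.card (G ⧸ C)).factorial = _
      rw [← Subgroup.index_eq_card, hC]
    rw [← h3]
    exact card_subgroup_dvd_card _
  rw [← h1, hC] at h2
  obtain ⟨q, hq⟩ := Nat.exists_eq_succ_of_ne_zero hp.out.ne_zero
  have h3 : p.factorial = q.factorial * p := by
    rw [hq, Nat.factorial_succ, mul_comm]
  rw [h3] at h2
  have h4 : C.normalCore.relIndex C ∣ q.factorial := Nat.dvd_of_mul_dvd_mul_right hp.out.pos h2
  have h5 := (hp.out.dvd_factorial).1 (hd.trans h4)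
  omega

/-- A `p'`-element commuting with a `p`-element outside a subgroup of index `p` is in it. -/
theorem mem_of_comm {C : Subgroup G} (hC : C.index = p) {y u : G} (hy : y ∉ C) (hyp : PEl p y)
    (hu : ¬ p ∣ orderOf u) (huy : u * y = y * u) : u ∈ C := by
  have h1 : (MulAction.orbit (zpowers y) ((1 : G) : G ⧸ C)) = Set.univ := by
    obtain ⟨k, hk⟩ := hyp.isPGroup_zpowers.card_orbit ((1 : G) : G ⧸ C)
    have hcard : Nat.card (G ⧸ C) = p := by rw [← Subgroup.index_eq_card, hC]
    apply Set.eq_univ_of_forall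
    have hk0 : k ≠ 0 := by
      rintro rfl
      rw [pow_zero] at hk
      have hsub := (Nat.card_eq_one_iff_unique.1 hk).1
      have e1 : (⟨((1 : G) : G ⧸ C), MulAction.mem_orbit_self _⟩ :
          MulAction.orbit (zpowers y) ((1 : G) : G ⧸ C)) =
          ⟨(⟨y, mem_zpowers y⟩ : zpowers y) • ((1 : G) : G ⧸ C), MulAction.mem_orbit _ _⟩ :=
        Subsingleton.elim _ _
      have e2 : ((1 : G) : G ⧸ C) = ((y * 1 : G) : G ⧸ C) := congrArg Subtype.val e1
      rw [QuotientGroup.eq, mul_one, inv_one, one_mul] at e2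
      exact hy e2
    have h2 : Nat.card (G ⧸ C) ≤ Nat.card (MulAction.orbit (zpowers y) ((1 : G) : G ⧸ C)) := by
      rw [hcard, hk]
      exact Nat.le_self_pow hk0 p
    intro z
    have h3 : Function.Surjective (Subtype.val :
        MulAction.orbit (zpowers y) ((1 : G) : G ⧸ C) → G ⧸ C) := by
      have := (Nat.bijective_iff_injective_and_card (Subtype.val :
        MulAction.orbit (zpowers y) ((1 : G) : G ⧸ C) → G ⧸ C)).2
        ⟨Subtype.val_injective, le_antisymm
          (Nat.card_le_card_of_injective _ Subtype.val_injective) h2⟩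
      exact this.2
    obtain ⟨w, rfl⟩ := h3 z
    exact w.2
  have h2 : ((u : G) : G ⧸ C) ∈ MulAction.orbit (zpowers y) ((1 : G) : G ⧸ C) :=
    h1 ▸ Set.mem_univ _
  obtain ⟨⟨w, hw⟩, hwu⟩ := h2
  have hwu' : ((w * 1 : G) : G ⧸ C) = (u : G ⧸ C) := hwu
  rw [QuotientGroup.eq, mul_one] at hwu'
  obtain ⟨j, rfl⟩ := mem_zpowers_iff.1 hw
  have hyj : PEl p (y ^ j)⁻¹ := by
    obtain ⟨k, hk⟩ := hyp
    refine ⟨k, ?_⟩
    rw [inv_pow, ← zpow_natCast, ← zpow_mul, mul_comm, zpow_mul, zpow_natCast, hk, one_zpow,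
      inv_one]
  have hcom : (y ^ j)⁻¹ * u = u * (y ^ j)⁻¹ :=
    ((show Commute u y from huy).zpow_right j).inv_right.eq.symm
  exact (zpowers_le.2 hwu') (mem_zpowers_mul_right hcom (coprime_of_pEl hp.out hyj hu))

end

namespace CS

variable {p a n : ℕ} [hp : Fact p.Prime]

theorem not_dvd_index_n (h : CS G p a n) : (p ^ a).factorization p = a ∧
    (p ^ a * n).factorization p = a := by
  have h1 : (p ^ a).factorization p = a := by
    rw [hp.out.factorization_pow, Finsupp.single_eq_same]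
  have hn0 : n ≠ 0 := by have := h.n1; omega
  refine ⟨h1, ?_⟩
  rw [Nat.factorization_mul (pow_ne_zero _ hp.out.ne_zero) hn0, Finsupp.add_apply, h1,
    Nat.factorization_eq_zero_of_not_dvd h.cop, add_zero]

theorem one_lt (h : CS G p a n) : 1 < p ^ a := Nat.one_lt_pow h.pos.ne' hp.out.one_lt

theorem base (h : CS G p a n) : Base G p a := by
  refine ⟨h.pos, ?_, ?_⟩
  · intro x hx
    rcases h.ind x hx with h1 | h1
    · rw [h1]; exact h.not_dvd_index_n.1
    · rw [h1]; exact h.not_dvd_index_n.2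
  · obtain ⟨x, hx⟩ := h.ex1
    refine ⟨x, ?_⟩
    intro hxc
    rw [index_one_of_mem hxc] at hx
    have := h.one_lt
    omega

theorem not_center1 (h : CS G p a n) {x : G} (hx : (CG x).index = p ^ a) : x ∉ center G := by
  intro hxc
  rw [index_one_of_mem hxc] at hx
  have := h.one_lt
  omega

theorem index_of_le (h : CS G p a n) {x y : G} (hy : y ∉ center G) (hle : CG x ≤ CG y)
    (hx : (CG x).index = p ^ a) : (CG y).index = p ^ a := by
  rcases h.ind y hy with h1 | h1
  · exact h1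
  · exfalso
    have h2 := index_dvd_of_le hle
    rw [h1, hx] at h2
    have h3 := Nat.le_of_dvd (pow_pos hp.out.pos _) h2
    have h4 : p ^ a * 1 < p ^ a * n := Nat.mul_lt_mul_of_pos_left h.n1 (pow_pos hp.out.pos _)
    omega

/-- If `C(x)` is of the smallest order, then it is contained in `C(y)` for commuting `y` of
coprime order. -/
theorem le_of_type2 (h : CS G p a n) {x y : G} (hx : (CG x).index = p ^ a * n)
    (hxy : x ∉ center G) (hc : CG (x * y) = CG x ⊓ CG y) : CG x ≤ CG y := by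
  have h1 : CG (x * y) ≤ CG x := by rw [hc]; exact inf_le_left
  have h2 : (x * y) ∉ center G := by
    intro hcc
    have h3 := CG_eq_top_iff.2 hcc
    rw [h3] at h1
    exact hxy (CG_eq_top_iff.1 (top_le_iff.1 h1))
  have h3 : (CG (x * y)).index ≤ p ^ a * n := by
    rcases h.ind _ h2 with h4 | h4
    · rw [h4]; exact Nat.le_mul_of_pos_right _ (by have := h.n1; omega)
    · rw [h4]
  have h4 : CG (x * y) = CG x := by
    apply eq_of_le_of_card_ge h1
    have e1 := (CG (x * y)).card_mul_index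
    have e2 := (CG x).card_mul_index
    rw [hx] at e2
    by_contra hcon
    push Not at hcon
    have h5 : Nat.card (CG (x * y)) * (CG (x * y)).index ≤
        Nat.card (CG (x * y)) * (p ^ a * n) := Nat.mul_le_mul_left _ h3
    have h6 : Nat.card (CG (x * y)) * (p ^ a * n) < Nat.card (CG x) * (p ^ a * n) :=
      Nat.mul_lt_mul_of_pos_right hcon (by
        have := h.n1
        have := pow_pos hp.out.pos a
        positivity)
    omega
  rw [← h4, hc]; exact inf_le_right

theorem card_H_eq (h : CS G p a n) {x y : G} {P0 H P1 H1 : Subgroup G}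
    (hi : (CG x).index = (CG y).index) (hD : Dec p (CG x) P0 H) (hD1 : Dec p (CG y) P1 H1) :
    Nat.card H = Nat.card H1 := by
  have e1 := (CG x).card_mul_index
  have e2 := (CG y).card_mul_index
  rw [hi] at e1
  have e3 : Nat.card (CG x) = Nat.card (CG y) :=
    Nat.eq_of_mul_eq_mul_right (Nat.pos_of_ne_zero FiniteIndex.index_ne_zero) (e1.trans e2.symm)
  have e4 : Nat.card P0 = Nat.card P1 := by rw [hD.card_P, hD1.card_P, e3]
  rw [hD.card_eq, hD1.card_eq, e4] at e3
  exact Nat.eq_of_mul_eq_mul_left Nat.card_pos e3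

/-- **A `p`-element of class size `p ^ a`.** -/
theorem exists_type1 (h : CS G p a n) : ∃ y : G, PEl p y ∧ (CG y).index = p ^ a := by
  have hB := h.base
  by_contra hcon
  push Not at hcon
  have hno : ∀ y : G, PEl p y → y ∉ center G → (CG y).index = p ^ a * n := by
    intro y hy hyc
    rcases h.ind y hyc with h1 | h1
    · exact absurd h1 (hcon y hy)
    · exact h1
  obtain ⟨w0, hw0⟩ := h.ex1
  obtain ⟨c, v, hcv, hcv', hc, hv, -, -⟩ := exists_parts hp.out w0
  have hCw : CG w0 = CG c ⊓ CG v := by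
    rw [hcv]; exact centralizer_mul_of_pEl hp.out hcv' hc hv
  have hcc : c ∈ center G := by
    by_contra hcc
    have := h.index_of_le hcc (hCw ▸ inf_le_left) hw0
    exact hcon c hc this
  have hCv : CG w0 = CG v := by rw [hCw, CG_eq_top_iff.2 hcc, top_inf_eq]
  have hvi : (CG v).index = p ^ a := hCv ▸ hw0
  have hvc : v ∉ center G := h.not_center1 hvi
  obtain ⟨P⟩ : Nonempty (Sylow p G) := inferInstance
  obtain ⟨x, hx⟩ := hB.exists_spec P
  obtain ⟨P0, H, hD⟩ := hB.exists_dec hx.nc hx.pEl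
  have hHc : ∀ {y : G} {P1 H1 : Subgroup G}, PEl p y → y ∉ center G → Dec p (CG y) P1 H1 →
      Nat.card H = Nat.card H1 := by
    intro y P1 H1 hy hyc hD1
    exact h.card_H_eq ((hno x hx.pEl hx.nc).trans (hno y hy hyc).symm) hD hD1
  by_cases hH : H ≤ center G
  · obtain ⟨y, hyv, hyp, hyc⟩ := hB.exists_comm_pEl hvc
    obtain ⟨P1, H1, hD1⟩ := hB.exists_dec hyc hyp
    have hvy : v ∈ H1 := hD1.mem_H (mem_CG.2 (mem_CG.1 hyv).symm) hv
    have hle : H ≤ H1 := fun g hg => hD1.mem_H (center_le_CG y (hH hg))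
      (not_dvd_orderOf_of_mem hD.cop hg)
    have heq : H = H1 := eq_of_le_of_card_ge hle (hHc hyp hyc hD1).ge
    exact hvc (hH (heq ▸ hvy))
  -- case II
  have ha : a = 1 := hx.a_eq_one hB hD hH
  subst ha
  rw [pow_one] at hvi
  have hcore : ∀ {w g : G}, (CG w).index = p → g ∈ CG w → PEl p g → g ∈ (CG w).normalCore :=
    fun hw hg hgp => mem_core hw hg hgp
  -- `y1`
  obtain ⟨y1, hy1, hy1v⟩ : ∃ y1 : G, PEl p y1 ∧ y1 ∉ CG v := by
    by_contra hcon2
    push Not at hcon2
    exact hvc (hB.mem_center P fun g hg => hcon2 g (PEl.of_mem P.2 hg))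
  have hy1c : y1 ∉ center G := fun hh => hy1v (center_le_CG v hh)
  have hy1n : y1 ∉ (CG v).normalCore := fun hh => hy1v (normalCore_le _ hh)
  obtain ⟨P1, H1, hD1⟩ := hB.exists_dec hy1c hy1
  obtain ⟨u, huH, huc⟩ : ∃ u ∈ H1, u ∉ center G := by
    by_contra hcon2
    push Not at hcon2
    have hle : H1 ≤ H := fun g hg => hD.mem_H (center_le_CG x (hcon2 g hg))
      (not_dvd_orderOf_of_mem hD1.cop hg)
    have heq : H1 = H := eq_of_le_of_card_ge hle (hHc hy1 hy1c hD1).le
    exact hH (heq ▸ hcon2)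
  have hu : ¬ p ∣ orderOf u := not_dvd_orderOf_of_mem hD1.cop huH
  have huy : u * y1 = y1 * u := mem_CG.1 (hD1.le' huH)
  -- `u` is in the core of `C(v)`
  have huv : u ∈ (CG v).normalCore := by
    intro g
    refine mem_of_comm (y := g * y1 * g⁻¹) hvi ?_ (hy1.conj g) (not_dvd_orderOf_conj hu g) ?_
    · intro hh
      apply hy1n
      have h1 := hcore hvi hh (hy1.conj g)
      have h2 := (normalCore_normal (CG v)).conj_mem _ h1 g⁻¹
      have e : g⁻¹ * (g * y1 * g⁻¹) * g⁻¹⁻¹ = y1 := by group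
      rwa [e] at h2
    · calc g * u * g⁻¹ * (g * y1 * g⁻¹) = g * (u * y1) * g⁻¹ := by group
        _ = g * (y1 * u) * g⁻¹ := by rw [huy]
        _ = g * y1 * g⁻¹ * (g * u * g⁻¹) := by group
  have huv' : u * v = v * u := mem_CG.1 (normalCore_le _ huv)
  rcases h.ind u huc with hui | hui
  · -- type I
    rw [pow_one] at hui
    have hvu : v * u ∉ center G := by
      intro hh
      apply hy1v
      rw [mem_CG]
      have h1 := mem_center_iff.1 hh y1
      -- y1 (v u) = (v u) y1 = v y1 u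
      have h2 : y1 * v * u = v * y1 * u := by
        calc y1 * v * u = y1 * (v * u) := by group
          _ = v * (u * y1) := by rw [h1]; group
          _ = v * y1 * u := by rw [huy]; group
      exact mul_right_cancel h2
    obtain ⟨T, hTC, hT, hTcard⟩ := exists_pgroup_card (p := p) (CG (v * u))
    have hy1u : y1 ∈ CG u := mem_CG.2 huy.symm
    -- `y'`
    obtain ⟨y', hy'T, hy'⟩ : ∃ y' ∈ T, ¬ (y' ∈ CG u ∧ y' ∈ CG v) := by
      by_contra hcon2
      push Not at hcon2
      have hTv : T ≤ (CG v).normalCore := fun g hg =>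
        hcore hvi (hcon2 g hg).2 (PEl.of_mem hT hg)
      have hTu : T ≤ CG u := fun g hg => (hcon2 g hg).1
      apply hy1n
      refine mem_of_normal (p := p) hTv hTu ?_ hy1u hy1
      rw [hTcard, hB.card_eq hvu huc]
    have hy'p : PEl p y' := PEl.of_mem hT hy'T
    have hy'c : y' * (v * u) = (v * u) * y' := mem_CG.1 (hTC hy'T)
    set w := u⁻¹ * (y' * u * y'⁻¹) with hw
    have hw2 : w = v * (y' * v * y'⁻¹)⁻¹ := by
      have e1 : (y' * v * y'⁻¹) * (y' * u * y'⁻¹) = v * u := by
        calc (y' * v * y'⁻¹) * (y' * u * y'⁻¹) = (y' * (v * u)) * y'⁻¹ := by group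
          _ = v * u := by rw [hy'c]; group
      have e2 : y' * u * y'⁻¹ = (y' * v * y'⁻¹)⁻¹ * (u * v) := by
        rw [eq_inv_mul_iff_mul_eq, e1, huv']
      have e3 : y' * u * y'⁻¹ = u * w := by rw [hw]; group
      -- conj commutes
      have e4 : (y' * u * y'⁻¹) * (y' * v * y'⁻¹) = u * v := by
        calc (y' * u * y'⁻¹) * (y' * v * y'⁻¹) = y' * (u * v) * y'⁻¹ := by group
          _ = y' * (v * u) * y'⁻¹ := by rw [huv']
          _ = v * u := by rw [hy'c]; group
          _ = u * v := huv'.symm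
      rw [e3] at e4
      have e5 : w * (y' * v * y'⁻¹) = v := by
        have : u * (w * (y' * v * y'⁻¹)) = u * v := by rw [← e4]; group
        exact mul_left_cancel this
      exact eq_mul_inv_of_mul_eq e5
    have hcK : ∀ (s : G) {g : G}, g ∈ (CG s).normalCore →
        g * (y' * s * y'⁻¹) = (y' * s * y'⁻¹) * g := by
      intro s g hg
      have h1 := (normalCore_normal (CG s)).conj_mem _ hg y'⁻¹
      have h2 : (y'⁻¹ * g * y'⁻¹⁻¹) * s = s * (y'⁻¹ * g * y'⁻¹⁻¹) :=
        mem_CG.1 (normalCore_le _ h1)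
      calc g * (y' * s * y'⁻¹) = y' * ((y'⁻¹ * g * y'⁻¹⁻¹) * s) * y'⁻¹ := by group
        _ = y' * (s * (y'⁻¹ * g * y'⁻¹⁻¹)) * y'⁻¹ := by rw [h2]
        _ = (y' * s * y'⁻¹) * g := by group
    have hwu : (CG u).normalCore ≤ CG w := by
      intro g hg
      have h1 : Commute g (y' * u * y'⁻¹) := hcK u hg
      have h2 : Commute g u := mem_CG.1 (normalCore_le _ hg)
      exact mem_CG.2 (h2.inv_right.mul_right h1).eq
    have hwv : (CG v).normalCore ≤ CG w := by
      intro g hg
      have h1 : Commute g (y' * v * y'⁻¹) := hcK v hg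
      have h2 : Commute g v := mem_CG.1 (normalCore_le _ hg)
      rw [hw2]
      exact mem_CG.2 (h2.mul_right h1.inv_right).eq
    have hwc : w ∈ center G := by
      by_contra hwc
      apply hy1n
      obtain ⟨T', hTC', hT', hTcard'⟩ := exists_pgroup_card (p := p) (CG v)
      have hT'v : T' ≤ (CG v).normalCore := fun g hg =>
        hcore hvi (hTC' hg) (PEl.of_mem hT' hg)
      refine mem_of_normal (p := p) (C := CG w) hT'v (hT'v.trans hwv) ?_
        (hwu (hcore hui hy1u hy1)) hy1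
      rw [hTcard', hB.card_eq hvc hwc]
    have hwo : ¬ p ∣ orderOf w := by
      intro hd
      apply hu
      refine hd.trans (orderOf_dvd_of_pow_eq_one ?_)
      have e3 : y' * u * y'⁻¹ = u * w := by rw [hw]; group
      have e4 : (u * w) ^ orderOf u = 1 := by
        rw [← e3, conj_pow, pow_orderOf_eq_one]; group
      rw [(show Commute u w from mem_center_iff.1 hwc u).mul_pow, pow_orderOf_eq_one,
        one_mul] at e4
      exact e4
    have hy'u : y' * u = u * y' :=
      eq_of_comm_mod_center hy'p hwc hwo (by rw [hw]; group)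
    have hy'v : y' * v = v * y' := by
      have : y' * v * u = v * y' * u := by
        calc y' * v * u = y' * (v * u) := by group
          _ = v * (u * y') := by rw [hy'c]; group
          _ = v * y' * u := by rw [← hy'u]; group
      exact mul_right_cancel this
    exact hy' ⟨mem_CG.2 hy'u, mem_CG.2 hy'v⟩
  · -- type II
    have h1 : CG u ≤ CG y1 := by
      apply h.le_of_type2 hui huc
      have h2 := centralizer_mul_of_pEl hp.out huy.symm hy1 hu
      change CG (y1 * u) = CG y1 ⊓ CG u at h2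
      rw [huy, h2, inf_comm]
    apply hy1v
    have h2 : v ∈ CG y1 := h1 (mem_CG.2 huv'.symm)
    exact mem_CG.2 (mem_CG.1 h2).symm

end CS

end Cfsg.Agent.H558.Cs
end

-- part: H558/CsFinal
section
/-!
# The structure of the groups with class sizes `1`, `m`, `m n` (helper558, for S4284)
-/

set_option autoImplicit false
set_option linter.unusedSectionVars false
set_option linter.style.haveILetI false
set_option linter.unusedVariables false

namespace Cfsg.Agent.H558.Cs

open Subgroup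
open scoped commutatorElement

theorem relIndex_eq_card_map {G : Type*} [Group G] (N C : Subgroup G) [hN : N.Normal] :
    N.relIndex C = Nat.card (C.map (QuotientGroup.mk' N)) := by
  have := relIndex_ker C (QuotientGroup.mk' N)
  rwa [QuotientGroup.ker_mk'] at this

theorem card_mul_relIndex' {G : Type*} [Group G] (N C : Subgroup G) :
    Nat.card (N ⊓ C : Subgroup G) * N.relIndex C = Nat.card C := by
  have h6 : Nat.card (N.subgroupOf C) = Nat.card (N ⊓ C : Subgroup G) := by
    rw [← subgroupOf_map_subtype]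
    exact Nat.card_congr ((N.subgroupOf C).equivMapOfInjective _ C.subtype_injective).toEquiv
  rw [← h6]
  exact (N.subgroupOf C).card_mul_index

/-- `|A| = |A ∩ C(t)| |P'|` for an abelian normal subgroup `A` with `P = A⟨t⟩`. -/
theorem card_commutator {P : Type*} [Group P] [Finite P] (A : Subgroup P) [hAn : A.Normal]
    (hA : ∀ a ∈ A, ∀ b ∈ A, a * b = b * a) (t : P) (htop : A ⊔ zpowers t = ⊤) :
    Nat.card A = Nat.card (A ⊓ CG t : Subgroup P) * Nat.card (commutator P) := by
  have hcA : ∀ a ∈ A, t * a⁻¹ * t⁻¹ ∈ A := fun a ha => hAn.conj_mem _ (inv_mem ha) t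
  let L : A →* P :=
    { toFun := fun a => (a : P) * (t * (a : P)⁻¹ * t⁻¹)
      map_one' := by simp
      map_mul' := by
        rintro ⟨a, ha⟩ ⟨b, hb⟩
        change (a * b) * (t * (a * b)⁻¹ * t⁻¹) = (a * (t * a⁻¹ * t⁻¹)) * (b * (t * b⁻¹ * t⁻¹))
        have e1 := hA _ (hcA a ha) b hb
        calc (a * b) * (t * (a * b)⁻¹ * t⁻¹) =
            a * b * ((t * b⁻¹ * t⁻¹) * (t * a⁻¹ * t⁻¹)) := by group
          _ = a * b * ((t * a⁻¹ * t⁻¹) * (t * b⁻¹ * t⁻¹)) := by
            rw [hA _ (hcA a ha) _ (hcA b hb)]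
          _ = a * (b * (t * a⁻¹ * t⁻¹)) * (t * b⁻¹ * t⁻¹) := by group
          _ = a * ((t * a⁻¹ * t⁻¹) * b) * (t * b⁻¹ * t⁻¹) := by rw [e1]
          _ = _ := by group }
  have hL : ∀ a : A, L a = (a : P) * (t * (a : P)⁻¹ * t⁻¹) := fun a => rfl
  have hLA : L.range ≤ A := by
    rintro _ ⟨a, rfl⟩
    exact mul_mem a.2 (hcA a a.2)
  have hnorm : L.range.Normal := by
    have h1 : (⊤ : Subgroup P) ≤ normalizer ((L.range : Subgroup P) : Set P) := by
      rw [← htop]
      refine sup_le ?_ ?_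
      · intro a ha
        apply mem_normalizer_fintype
        intro d hd
        change a * d * a⁻¹ ∈ L.range
        rw [hA a ha d (hLA hd), mul_inv_cancel_right]
        exact hd
      · rw [zpowers_le]
        apply mem_normalizer_fintype
        rintro _ ⟨a, rfl⟩
        refine ⟨⟨t * a * t⁻¹, hAn.conj_mem _ a.2 t⟩, ?_⟩
        rw [hL, hL]
        change (t * (a : P) * t⁻¹) * (t * (t * (a : P) * t⁻¹)⁻¹ * t⁻¹) = _
        group
    exact normalizer_eq_top_iff.1 (top_le_iff.1 h1)
  have hcomm : commutator P = L.range := by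
    apply le_antisymm
    · rw [← Subgroup.Normal.quotient_commutative_iff_commutator_le]
      set π := QuotientGroup.mk' L.range with hπ
      have hat : ∀ a ∈ A, π a * π t = π t * π a := by
        intro a ha
        have h1 : π (L ⟨a, ha⟩) = 1 := (QuotientGroup.eq_one_iff _).2 ⟨_, rfl⟩
        rw [hL] at h1
        change π (a * (t * a⁻¹ * t⁻¹)) = 1 at h1
        rw [map_mul, map_mul, map_mul, map_inv, map_inv] at h1
        have h2 : π a * (π t * (π a)⁻¹ * (π t)⁻¹) * (π t * π a) = π t * π a := by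
          rw [h1, one_mul]
        rw [← h2]; group
      have key : ∀ z : P ⧸ L.range, (∀ a ∈ A, π a * z = z * π a) → π t * z = z * π t →
          ∀ w : P, π w * z = z * π w := by
        intro z h1 h2 w
        have h3 : (⊤ : Subgroup P) ≤ (CG z).comap π := by
          rw [← htop]
          refine sup_le (fun a ha => ?_) (zpowers_le.2 ?_)
          · exact mem_comap.2 (mem_CG.2 (h1 a ha))
          · exact mem_comap.2 (mem_CG.2 h2)
        exact mem_CG.1 (mem_comap.1 (h3 (mem_top w)))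
      have hAc : ∀ a ∈ A, ∀ w : P, π w * π a = π a * π w := by
        intro a ha
        refine key _ (fun b hb => ?_) (hat a ha).symm
        rw [← map_mul, ← map_mul, hA b hb a ha]
      have htc : ∀ w : P, π w * π t = π t * π w := key _ hat rfl
      refine ⟨⟨fun x y => ?_⟩⟩
      obtain ⟨u, rfl⟩ := QuotientGroup.mk'_surjective L.range x
      obtain ⟨v, rfl⟩ := QuotientGroup.mk'_surjective L.range y
      exact key (π v) (fun a ha => (hAc a ha v).symm) (htc v).symm u
    · rintro _ ⟨a, rfl⟩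
      have h1 : L a = ⁅(a : P), t⁆ := by
        rw [hL, commutatorElement_def]; group
      rw [h1, _root_.commutator_def]
      exact commutator_mem_commutator (mem_top _) (mem_top _)
  have hker : Nat.card L.ker = Nat.card (A ⊓ CG t : Subgroup P) := by
    have h1 : L.ker.map A.subtype = A ⊓ CG t := by
      ext g
      constructor
      · rintro ⟨a, ha, rfl⟩
        refine ⟨a.2, mem_CG.2 ?_⟩
        have h2 : (a : P) * (t * (a : P)⁻¹ * t⁻¹) = 1 := ha
        have h3 : (a : P) * (t * (a : P)⁻¹ * t⁻¹) * (t * a) = t * a := by rw [h2, one_mul]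
        change (a : P) * t = t * a
        rw [← h3]; group
      · rintro ⟨hg, hgt⟩
        refine ⟨⟨g, hg⟩, ?_, rfl⟩
        change g * (t * g⁻¹ * t⁻¹) = 1
        have h2 : g * t = t * g := mem_CG.1 hgt
        calc g * (t * g⁻¹ * t⁻¹) = (g * t) * g⁻¹ * t⁻¹ := by group
          _ = 1 := by rw [h2]; group
    rw [← h1]
    exact Nat.card_congr (L.ker.equivMapOfInjective _ A.subtype_injective).toEquiv
  rw [hcomm, ← hker, ← Subgroup.index_ker, card_mul_index]

variable {G : Type*} [Group G] [Finite G]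

theorem eq_of_mul_pow {p u v i j : ℕ} (hp : p.Prime) (hu : ¬ p ∣ u) (hv : ¬ p ∣ v)
    (h : u * p ^ i = v * p ^ j) : u = v := by
  apply Nat.dvd_antisymm
  · have h1 : u ∣ v * p ^ j := h ▸ Dvd.intro _ rfl
    exact (Nat.Coprime.pow_right j ((Nat.Prime.coprime_iff_not_dvd hp).2 hu).symm).dvd_of_dvd_mul_right h1
  · have h1 : v ∣ u * p ^ i := h ▸ Dvd.intro _ rfl
    exact (Nat.Coprime.pow_right i ((Nat.Prime.coprime_iff_not_dvd hp).2 hv).symm).dvd_of_dvd_mul_right h1

theorem exists_mul {p a : ℕ} [hp : Fact p.Prime] (P : Sylow p G) {C : Subgroup G}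
    (hC : C.index = p ^ a) (g : G) : ∃ x ∈ (P : Subgroup G), ∃ c ∈ C, g = x * c := by
  set O := MulAction.orbit (P : Subgroup G) ((1 : G) : G ⧸ C) with hO
  set S := MulAction.stabilizer (P : Subgroup G) ((1 : G) : G ⧸ C) with hS
  have h1 : S.index = Nat.card O := by
    rw [hS, MulAction.index_stabilizer]; rfl
  have h2 : Nat.card S ≤ p ^ (Nat.card C).factorization p := by
    have h3 : S.map (P : Subgroup G).subtype ≤ C := by
      rintro _ ⟨s, hs, rfl⟩
      have h4 : s • ((1 : G) : G ⧸ C) = ((1 : G) : G ⧸ C) := hs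
      have h5 : (((s : G) * 1 : G) : G ⧸ C) = ((1 : G) : G ⧸ C) := h4
      rw [QuotientGroup.eq, mul_one, mul_one] at h5
      exact inv_mem_iff.1 h5
    have h4 : Nat.card S = Nat.card (S.map (P : Subgroup G).subtype) :=
      Nat.card_congr (S.equivMapOfInjective _ (P : Subgroup G).subtype_injective).toEquiv
    rw [h4]
    exact card_le_of_isPGroup ((P.2.to_subgroup S).map _) h3
  have h3 : Nat.card (P : Subgroup G) = p ^ (Nat.card C).factorization p * p ^ a := by
    have h4 : (Nat.card G).factorization p = (Nat.card C).factorization p + a := by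
      rw [← C.card_mul_index, Nat.factorization_mul Nat.card_pos.ne'
        FiniteIndex.index_ne_zero, Finsupp.add_apply, hC, hp.out.factorization_pow,
        Finsupp.single_eq_same]
    rw [← pow_add, ← h4]
    exact P.card_eq_multiplicity
  have h4 : p ^ a ≤ Nat.card O := by
    rw [← h1]
    by_contra hcon
    push Not at hcon
    have e1 := S.card_mul_index
    rw [h3] at e1
    have e2 : Nat.card S * S.index ≤ p ^ (Nat.card C).factorization p * S.index :=
      Nat.mul_le_mul_right _ h2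
    have e3 : p ^ (Nat.card C).factorization p * S.index <
        p ^ (Nat.card C).factorization p * p ^ a :=
      Nat.mul_lt_mul_of_pos_left hcon (pow_pos hp.out.pos _)
    omega
  have h5 : Nat.card (G ⧸ C) = p ^ a := by rw [← Subgroup.index_eq_card, hC]
  have h6 : Function.Surjective (Subtype.val : O → G ⧸ C) := by
    have := (Nat.bijective_iff_injective_and_card (Subtype.val : O → G ⧸ C)).2
      ⟨Subtype.val_injective, le_antisymm
        (Nat.card_le_card_of_injective _ Subtype.val_injective) (h5 ▸ h4)⟩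
    exact this.2
  obtain ⟨⟨z, hz⟩, hzg⟩ := h6 ((g : G) : G ⧸ C)
  obtain ⟨w, hw⟩ := hz
  have h7 : (((w : G) * 1 : G) : G ⧸ C) = (g : G ⧸ C) := hw.trans hzg
  rw [QuotientGroup.eq, mul_one] at h7
  exact ⟨w, w.2, _, h7, by group⟩

/-- the situation after the choice of `y` -/
structure Fin1 (G : Type*) [Group G] (p a n : ℕ) (y : G) (A H : Subgroup G) : Prop where
  cs : CS G p a n
  pel : PEl p y
  idx : (CG y).index = p ^ a
  dec : Dec p (CG y) A H

namespace Fin1

variable {p a n : ℕ} [hp : Fact p.Prime] {y : G} {A H : Subgroup G}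

theorem normalClosure_le (h : Fin1 G p a n y A H) :
    IsPGroup p (normalClosure ({y} : Set G)) := by
  obtain ⟨P, hP⟩ := h.pel.isPGroup_zpowers.exists_le_sylow
  have hyP : y ∈ (P : Subgroup G) := hP (mem_zpowers y)
  apply P.2.to_le
  rw [normalClosure, closure_le]
  intro z hz
  rw [Group.mem_conjugatesOfSet_iff] at hz
  obtain ⟨w, hw, hwz⟩ := hz
  rw [Set.mem_singleton_iff] at hw
  subst hw
  obtain ⟨g, rfl⟩ := isConj_iff.1 hwz
  obtain ⟨x, hx, c, hc, rfl⟩ := exists_mul P h.idx g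
  have e : x * c * w * (x * c)⁻¹ = x * w * x⁻¹ := by
    have e1 : c * w = w * c := mem_CG.1 hc
    calc x * c * w * (x * c)⁻¹ = x * (c * w) * c⁻¹ * x⁻¹ := by group
      _ = x * (w * c) * c⁻¹ * x⁻¹ := by rw [e1]
      _ = x * w * x⁻¹ := by group
  rw [e]
  exact (P : Subgroup G).mul_mem ((P : Subgroup G).mul_mem hx hyP) ((P : Subgroup G).inv_mem hx)

theorem le_centralizer (h : Fin1 G p a n y A H) :
    H ≤ centralizer ((normalClosure ({y} : Set G) : Subgroup G) : Set G) := by
  set U := normalClosure ({y} : Set G) with hU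
  have hUp : IsPGroup p U := h.normalClosure_le
  have hyU : y ∈ U := subset_normalClosure rfl
  have hnil : Group.IsNilpotent U := hUp.isNilpotent
  refine Cfsg.Agent.S1442.result U H hnil ?_ ?_ ?_
  · rw [normalizer_eq_top]; exact le_top
  · obtain ⟨k, hk⟩ := IsPGroup.iff_card.1 hUp
    rw [hk]
    exact (Nat.Coprime.pow_left k ((Nat.Prime.coprime_iff_not_dvd hp.out).2 h.dec.cop)).symm
  · intro u hu
    refine ⟨hu.1, ?_⟩
    have hyC : y ∈ U ⊓ centralizer (H : Set G) := by
      exact ⟨hyU, mem_centralizer_iff.2 fun v hv => mem_CG.1 (h.dec.le' hv)⟩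
    have huy : u ∈ CG y := mem_CG.2 (mem_centralizer_iff.1 hu.2 y hyC).symm
    have huA : u ∈ A := h.dec.mem_P huy (PEl.of_mem hUp hu.1)
    exact mem_centralizer_iff.2 fun v hv => (h.dec.comm u huA v hv).symm

theorem mem_H_of_centralizer (h : Fin1 G p a n y A H) {g : G}
    (hg : g ∈ centralizer ((normalClosure ({y} : Set G) : Subgroup G) : Set G))
    (hgp : ¬ p ∣ orderOf g) : g ∈ H := by
  refine h.dec.mem_H (mem_CG.2 ?_) hgp
  exact (mem_centralizer_iff.1 hg y (subset_normalClosure rfl)).symm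

theorem normal_H (h : Fin1 G p a n y A H) : H.Normal := by
  refine ⟨fun v hv g => ?_⟩
  haveI : (centralizer ((normalClosure ({y} : Set G) : Subgroup G) : Set G)).Normal :=
    inferInstance
  refine h.mem_H_of_centralizer (this.conj_mem _ (h.le_centralizer hv) g) ?_
  exact not_dvd_orderOf_conj (not_dvd_orderOf_of_mem h.dec.cop hv) g

theorem card_G (h : Fin1 G p a n y A H) : Nat.card G = Nat.card H * (Nat.card A * p ^ a) := by
  rw [← (CG y).card_mul_index, h.idx, h.dec.card_eq]; ring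

theorem card_A (h : Fin1 G p a n y A H) : ∃ k, Nat.card A = p ^ k := IsPGroup.iff_card.1 h.dec.pgrp

theorem index_H (h : Fin1 G p a n y A H) : ∃ k, H.index = p ^ k := by
  obtain ⟨k, hk⟩ := h.card_A
  refine ⟨k + a, ?_⟩
  have h1 := h.card_G
  rw [← H.card_mul_index, hk, ← pow_add] at h1
  exact Nat.eq_of_mul_eq_mul_left Nat.card_pos h1

/-- every `p'`-element is in `H` -/
theorem mem_H (h : Fin1 G p a n y A H) {g : G} (hg : ¬ p ∣ orderOf g) : g ∈ H := by
  haveI := h.normal_H
  obtain ⟨k, hk⟩ := h.index_H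
  rw [← QuotientGroup.eq_one_iff (N := H)]
  have h1 : ((g : G ⧸ H)) ^ p ^ k = 1 := by
    rw [← hk, Subgroup.index_eq_card]; exact pow_card_eq_one'
  have h2 : (g : G ⧸ H) ^ orderOf g = 1 := by
    rw [← QuotientGroup.mk_pow, pow_orderOf_eq_one]; rfl
  exact PEl.eq_one hp.out ⟨k, h1⟩ (fun hd => hg (hd.trans (orderOf_dvd_of_pow_eq_one h2)))

theorem cop_A (h : Fin1 G p a n y A H) : y ∉ center G := h.cs.not_center1 h.idx

/-- `|H ∩ C(g)| s = |H|` if the class size of `g` is `p ^ a s`. -/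
theorem card_inf (h : Fin1 G p a n y A H) {g : G} {s : ℕ} (hs : ¬ p ∣ s)
    (hg : (CG g).index = p ^ a * s) : Nat.card (H ⊓ CG g : Subgroup G) * s = Nat.card H := by
  haveI := h.normal_H
  obtain ⟨k, hk⟩ := h.index_H
  have h1 : H.relIndex (CG g) ∣ p ^ k := hk ▸ relIndex_dvd_index_of_normal H (CG g)
  obtain ⟨j, -, hj⟩ := (Nat.dvd_prime_pow hp.out).1 h1
  have h2 : Nat.card (H ⊓ CG g : Subgroup G) * H.relIndex (CG g) = Nat.card (CG g) := by
    have h3 : Nat.card (H.subgroupOf (CG g)) = Nat.card (H ⊓ CG g : Subgroup G) := by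
      rw [← subgroupOf_map_subtype]
      exact Nat.card_congr ((H.subgroupOf (CG g)).equivMapOfInjective _
        (CG g).subtype_injective).toEquiv
    rw [← h3]
    exact (H.subgroupOf (CG g)).card_mul_index
  have h3 := (CG g).card_mul_index
  rw [← h2, hj, hg, ← H.card_mul_index, hk] at h3
  refine eq_of_mul_pow (i := j + a) (j := k) hp.out ?_ h.dec.cop ?_
  · rw [hp.out.dvd_mul]
    rintro (hd | hd)
    · exact h.dec.cop (hd.trans (card_dvd_of_le inf_le_left))
    · exact hs hd
  · rw [← h3, pow_add]; ring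

theorem le_of_index (h : Fin1 G p a n y A H) {g : G} (hg : (CG g).index = p ^ a) : H ≤ CG g := by
  have h1 := h.card_inf (s := 1) (fun hd => hp.out.one_lt.ne' (Nat.dvd_one.1 hd))
    (by rw [mul_one]; exact hg)
  rw [mul_one] at h1
  have h2 : (H ⊓ CG g : Subgroup G) = H := eq_of_le_of_card_ge inf_le_left h1.ge
  rw [← h2]; exact inf_le_right

theorem index_of_le (h : Fin1 G p a n y A H) {g : G} (hgc : g ∉ center G) (hg : H ≤ CG g) :
    (CG g).index = p ^ a := by
  rcases h.cs.ind g hgc with h1 | h1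
  · exact h1
  · exfalso
    have h2 := h.card_inf h.cs.cop h1
    rw [inf_eq_left.2 hg] at h2
    have h3 : 0 < Nat.card H := Nat.card_pos
    have h4 := h.cs.n1
    nlinarith

theorem H_not_center (h : Fin1 G p a n y A H) : ¬ H ≤ center G := by
  intro hH
  obtain ⟨x, hx⟩ := h.cs.ex2
  have h2 := h.card_inf h.cs.cop hx
  rw [inf_eq_left.2 (hH.trans (center_le_CG x))] at h2
  have h3 : 0 < Nat.card H := Nat.card_pos
  have h4 := h.cs.n1
  nlinarith

/-- a `p`-element centralizing `H` is in `A` -/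
theorem mem_A (h : Fin1 G p a n y A H) {g : G} (hg : PEl p g) (hgH : ∀ v ∈ H, g * v = v * g) :
    g ∈ A := by
  haveI := h.normal_H
  obtain ⟨h0, h0H, h0c⟩ := Set.not_subset.1 h.H_not_center
  set D := centralizer (H : Set G) with hD
  have hgD : g ∈ D := mem_centralizer_iff.2 fun v hv => (hgH v hv).symm
  have hAD : A ≤ D := fun u hu => mem_centralizer_iff.2 fun v hv => (h.dec.comm u hu v hv).symm
  obtain ⟨k, hk⟩ := h.index_H
  have hpq : IsPGroup p (G ⧸ H) := by
    apply IsPGroup.of_card (n := k)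
    rw [← Subgroup.index_eq_card, hk]
  haveI : Group.IsNilpotent (G ⧸ H) := hpq.isNilpotent
  have hnil : Group.IsNilpotent D := by
    refine Subgroup.isNilpotent_of_ker_le_center ((QuotientGroup.mk' H).comp D.subtype) ?_
    intro z hz
    have h1 : (z : G) ∈ H := (QuotientGroup.eq_one_iff (z : G)).1 hz
    rw [mem_center_iff]
    intro w
    exact Subtype.ext (mem_centralizer_iff.1 w.2 z h1).symm
  obtain ⟨Q, hQ⟩ := (h.dec.pgrp.comap_of_injective D.subtype D.subtype_injective).exists_le_sylow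
  have hQn : (Q : Subgroup D).Normal :=
    (((Group.isNilpotent_of_finite_tfae (G := D)).out 0 3 : _ ↔ ∀ (q : ℕ) (_ : Fact q.Prime)
      (S : Sylow q D), (S : Subgroup D).Normal).1 hnil) p hp Q
  haveI := Sylow.unique_of_normal Q hQn
  have hgp : PEl p (⟨g, hgD⟩ : D) := by
    obtain ⟨k, hk⟩ := hg
    exact ⟨k, Subtype.ext (by simpa using hk)⟩
  obtain ⟨Q', hQ'⟩ := hgp.isPGroup_zpowers.exists_le_sylow
  have hQQ : Q' = Q := Subsingleton.elim _ _
  have h3 : (⟨g, hgD⟩ : D) ∈ (Q : Subgroup D) := hQQ ▸ hQ' (mem_zpowers _)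
  have h4 : (Q : Subgroup D).map D.subtype ≤ CG h0 := by
    rintro _ ⟨z, -, rfl⟩
    exact mem_CG.2 (mem_centralizer_iff.1 z.2 h0 h0H).symm
  have h5 := card_le_of_isPGroup (Q.2.map D.subtype) h4
  rw [h.cs.base.card_eq h0c h.cop_A, ← h.dec.card_P] at h5
  have h6 : A ≤ (Q : Subgroup D).map D.subtype := by
    intro u hu
    exact ⟨⟨u, hAD hu⟩, hQ (mem_subgroupOf.2 hu), rfl⟩
  have h7 : A = (Q : Subgroup D).map D.subtype := eq_of_le_of_card_ge h6 h5
  rw [h7]
  exact ⟨_, h3, rfl⟩

theorem normal_A (h : Fin1 G p a n y A H) : A.Normal := by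
  haveI := h.normal_H
  refine ⟨fun u hu g => h.mem_A ((PEl.of_mem h.dec.pgrp hu).conj g) ?_⟩
  intro v hv
  have h1 : g⁻¹ * v * g⁻¹⁻¹ ∈ H := h.normal_H.conj_mem v hv g⁻¹
  have h2 := h.dec.comm u hu _ h1
  calc g * u * g⁻¹ * v = g * (u * (g⁻¹ * v * g⁻¹⁻¹)) * g⁻¹ := by group
    _ = g * ((g⁻¹ * v * g⁻¹⁻¹) * u) * g⁻¹ := by rw [h2]
    _ = v * (g * u * g⁻¹) := by group

theorem y_mem (h : Fin1 G p a n y A H) : y ∈ A := h.dec.mem_P (self_mem_CG y) h.pel

theorem CG_eq (h : Fin1 G p a n y A H) {z : G} (hz : z ∈ A) (hzc : z ∉ center G) :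
    CG z = CG y := by
  have hzp : PEl p z := PEl.of_mem h.dec.pgrp hz
  have hHz : H ≤ CG z := fun v hv => mem_CG.2 (h.dec.comm z hz v hv).symm
  have hi := h.index_of_le hzc hHz
  obtain ⟨A', H', hD⟩ := h.cs.base.exists_dec hzc hzp
  have hHH : H ≤ H' := fun v hv => hD.mem_H (hHz hv) (not_dvd_orderOf_of_mem h.dec.cop hv)
  have hAA : A' ≤ A := fun u hu => h.mem_A (PEl.of_mem hD.pgrp hu)
    (fun v hv => hD.comm u hu v (hHH hv))
  have e1 := (CG z).card_mul_index
  have e2 := (CG y).card_mul_index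
  rw [hi] at e1
  rw [h.idx] at e2
  have e3 : Nat.card (CG z) = Nat.card (CG y) :=
    Nat.eq_of_mul_eq_mul_right (pow_pos hp.out.pos a) (e1.trans e2.symm)
  apply eq_of_le_of_card_ge
  · intro g hg
    obtain ⟨u, hu, v, hv, rfl⟩ := hD.mulm g hg
    exact mul_mem (h.dec.le (hAA hu)) (h.dec.le' (h.mem_H (not_dvd_orderOf_of_mem hD.cop hv)))
  · rw [e3]

theorem comm_A (h : Fin1 G p a n y A H) : ∀ u ∈ A, ∀ w ∈ A, u * w = w * u := by
  intro u hu w hw
  by_cases huc : u ∈ center G
  · exact (mem_center_iff.1 huc w).symm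
  · have h1 : w ∈ CG u := by rw [h.CG_eq hu huc]; exact h.dec.le hw
    exact (mem_CG.1 h1).symm

/-- `p`-elements outside `A` -/
theorem type2 (h : Fin1 G p a n y A H) {t : G} (htp : PEl p t) (ht : t ∉ A) :
    (CG t).index = p ^ a * n ∧ H ⊓ CG t = H ⊓ center G ∧
      Nat.card (H ⊓ center G : Subgroup G) * n = Nat.card H := by
  have htc : t ∉ center G := fun hh => ht (h.dec.mem_P (center_le_CG y hh) htp)
  have h1 : (CG t).index = p ^ a * n := by
    rcases h.cs.ind t htc with h1 | h1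
    · exfalso
      have h2 := h.le_of_index h1
      exact ht (h.mem_A htp fun v hv => (mem_CG.1 (h2 hv)).symm)
    · exact h1
  have h2 : H ⊓ CG t = H ⊓ center G := by
    apply le_antisymm
    · rintro u ⟨huH, hut⟩
      refine ⟨huH, ?_⟩
      by_contra huc
      haveI := h.normal_A
      have h3 : A ⊔ zpowers t ≤ CG u := by
        refine sup_le (fun z hz => mem_CG.2 (h.dec.comm z hz u huH)) (zpowers_le.2 ?_)
        exact mem_CG.2 (mem_CG.1 hut).symm
      have h4 : IsPGroup p (A ⊔ zpowers t : Subgroup G) := by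
        rw [sup_comm]
        exact IsPGroup.to_sup_of_normal_right htp.isPGroup_zpowers h.dec.pgrp
      have h5 := card_le_of_isPGroup h4 h3
      rw [h.cs.base.card_eq huc h.cop_A, ← h.dec.card_P] at h5
      have h6 : A = A ⊔ zpowers t := eq_of_le_of_card_ge le_sup_left h5
      apply ht
      rw [h6]
      exact mem_sup_right (mem_zpowers t)
    · exact inf_le_inf_left H (center_le_CG t)
  refine ⟨h1, h2, ?_⟩
  rw [← h2]
  exact h.card_inf h.cs.cop h1

theorem exists_t (h : Fin1 G p a n y A H) (P : Sylow p G) : ∃ t ∈ P, t ∉ A := by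
  by_contra hcon
  push Not at hcon
  exact h.cop_A (h.cs.base.mem_center P fun g hg => h.dec.le (hcon g hg))

theorem comm_H (h : Fin1 G p a n y A H) : ∀ u ∈ H, ∀ w ∈ H, u * w = w * u := by
  intro u hu w hw
  by_cases huc : u ∈ center G
  · exact (mem_center_iff.1 huc w).symm
  · rcases h.cs.ind u huc with h1 | h1
    · exact (mem_CG.1 (h.le_of_index h1 hw)).symm
    · exfalso
      obtain ⟨P⟩ : Nonempty (Sylow p G) := inferInstance
      obtain ⟨t, htP, htA⟩ := h.exists_t P
      obtain ⟨-, -, h2⟩ := h.type2 (PEl.of_mem P.2 htP) htA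
      have h3 := h.card_inf h.cs.cop h1
      have h4 : Nat.card (H ⊓ center G : Subgroup G) = Nat.card (H ⊓ CG u : Subgroup G) :=
        Nat.eq_of_mul_eq_mul_right (by have := h.cs.n1; omega) (h2.trans h3.symm)
      have h5 : (H ⊓ center G : Subgroup G) = H ⊓ CG u :=
        eq_of_le_of_card_ge (inf_le_inf_left H (center_le_CG u)) h4.ge
      have h6 : u ∈ (H ⊓ CG u : Subgroup G) := ⟨hu, self_mem_CG u⟩
      rw [← h5] at h6
      exact huc h6.2

theorem comm_M (h : Fin1 G p a n y A H) : ∀ u ∈ CG y, ∀ w ∈ CG y, u * w = w * u := by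
  intro u hu w hw
  obtain ⟨u1, hu1, u2, hu2, rfl⟩ := h.dec.mulm u hu
  obtain ⟨w1, hw1, w2, hw2, rfl⟩ := h.dec.mulm w hw
  have c1 : Commute u1 w1 := h.comm_A _ hu1 _ hw1
  have c2 : Commute u1 w2 := h.dec.comm _ hu1 _ hw2
  have c3 : Commute w1 u2 := h.dec.comm _ hw1 _ hu2
  have c4 : Commute u2 w2 := h.comm_H _ hu2 _ hw2
  exact ((c1.mul_right c2).mul_left (c3.symm.mul_right c4)).eq

theorem normal_M (h : Fin1 G p a n y A H) : (CG y).Normal := by
  refine ⟨fun u hu g => ?_⟩
  obtain ⟨u1, hu1, u2, hu2, rfl⟩ := h.dec.mulm u hu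
  have e : g * (u1 * u2) * g⁻¹ = (g * u1 * g⁻¹) * (g * u2 * g⁻¹) := by group
  rw [e]
  exact mul_mem (h.dec.le (h.normal_A.conj_mem _ hu1 g)) (h.dec.le' (h.normal_H.conj_mem _ hu2 g))

theorem coe_M (h : Fin1 G p a n y A H) :
    ((CG y : Subgroup G) : Set G) = {x : G | (CG x).index = 1 ∨ (CG x).index = p ^ a} := by
  ext x
  simp only [SetLike.mem_coe, Set.mem_ofPred_eq]
  constructor
  · intro hx
    by_cases hxc : x ∈ center G
    · exact Or.inl (index_one_of_mem hxc)
    · right
      refine h.cs.index_of_le hxc (fun g hg => mem_CG.2 (h.comm_M g hg x hx)) h.idx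
  · rintro (hx | hx)
    · rw [Subgroup.index_eq_one, CG_eq_top_iff] at hx
      exact center_le_CG y hx
    · have h1 := h.le_of_index hx
      obtain ⟨c, d, hcd, hcd', hc, hd, hcz, hdz⟩ := exists_parts hp.out x
      rw [hcd]
      refine mul_mem (h.dec.le (h.mem_A hc ?_)) (h.dec.le' (h.mem_H hd))
      intro v hv
      obtain ⟨k, rfl⟩ := mem_zpowers_iff.1 hcz
      exact ((show Commute v x from mem_CG.1 (h1 hv)).zpow_right k).symm.eq

theorem A_le (h : Fin1 G p a n y A H) (P : Sylow p G) : A ≤ P := by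
  haveI := h.normal_A
  exact h.dec.pgrp.le_sylow_of_normal P

theorem a_eq_one (h : Fin1 G p a n y A H) : a = 1 := by
  obtain ⟨P⟩ : Nonempty (Sylow p G) := inferInstance
  obtain ⟨x, hx, h1, h2, h3⟩ := exists_special (A := A) P.2 (h.A_le P)
    (fun g _ u hu => h.normal_A.conj_mem u hu g) (fun hh => h.cop_A (hh h.y_mem))
  have hS : Spec P x := ⟨h.A_le P hx, h1, h2, h3⟩
  have hD : Dec p (CG x) A H := by rw [h.CG_eq hx h1]; exact h.dec
  exact hS.a_eq_one h.cs.base hD h.H_not_center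

theorem card_P (h : Fin1 G p a n y A H) (P : Sylow p G) :
    Nat.card (P : Subgroup G) = Nat.card A * p := by
  have h1 := h.cs.base.card_add h.cop_A
  rw [h.a_eq_one] at h1
  have h2 : Nat.card (P : Subgroup G) = p ^ (Nat.card G).factorization p := P.card_eq_multiplicity
  rw [h2, ← h1, pow_succ, h.dec.card_P]

theorem dvd_sub (h : Fin1 G p a n y A H) : p ∣ n - 1 := by
  obtain ⟨P⟩ : Nonempty (Sylow p G) := inferInstance
  obtain ⟨t, htP, htA⟩ := h.exists_t P
  have htp : PEl p t := PEl.of_mem P.2 htP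
  obtain ⟨-, h2, h3⟩ := h.type2 htp htA
  have hN : ∀ g ∈ (P : Subgroup G), ∀ v ∈ H, g * v * g⁻¹ ∈ H := fun g _ v hv =>
    h.normal_H.conj_mem v hv g
  set π := QuotientGroup.mk' (center G) with hπ
  set X := H.map π with hX
  have hXc : Nat.card X = n := by
    have h4 : Nat.card X = (center G).relIndex H := by
      have := relIndex_ker H π
      rw [hπ, QuotientGroup.ker_mk'] at this
      exact this.symm
    have h5 : Nat.card (center G ⊓ H : Subgroup G) * (center G).relIndex H = Nat.card H := by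
      have h6 : Nat.card ((center G).subgroupOf H) = Nat.card (center G ⊓ H : Subgroup G) := by
        rw [← subgroupOf_map_subtype]
        exact Nat.card_congr (((center G).subgroupOf H).equivMapOfInjective _
          H.subtype_injective).toEquiv
      rw [← h6]
      exact ((center G).subgroupOf H).card_mul_index
    rw [h4]
    rw [inf_comm, ← h3] at h5
    exact Nat.eq_of_mul_eq_mul_left Nat.card_pos h5
  set Φ := act H (P : Subgroup G) hN with hΦ
  letI : MulAction (P : Subgroup G) X := MulAction.compHom X Φ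
  have hsm : ∀ (g : (P : Subgroup G)) (x : X), g • x = Φ g x := fun g x => rfl
  have h4 := P.2.card_modEq_card_fixedPoints X
  have h5 : Nat.card (MulAction.fixedPoints (P : Subgroup G) X) = 1 := by
    rw [Nat.card_eq_one_iff_unique]
    constructor
    · constructor
      have key : ∀ z : MulAction.fixedPoints (P : Subgroup G) X, (z : X) = 1 := by
        rintro ⟨⟨x, hx⟩, hfx⟩
        obtain ⟨u, hu, rfl⟩ := hx
        have h6 := hfx ⟨t, htP⟩
        rw [hsm] at h6
        have h7 : t * u = u * t := act_fix H (P : Subgroup G) hN h.dec.cop htP htp hu h6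
        have h8 : u ∈ (H ⊓ CG t : Subgroup G) := ⟨hu, mem_CG.2 h7.symm⟩
        rw [h2] at h8
        apply Subtype.ext
        exact (QuotientGroup.eq_one_iff u).2 h8.2
      intro z w
      exact Subtype.ext ((key z).trans (key w).symm)
    · refine ⟨⟨1, fun g => ?_⟩⟩
      rw [hsm, map_one]
  rw [hXc, h5] at h4
  exact (Nat.modEq_iff_dvd' (by have := h.cs.n1; omega)).1 h4.symm

theorem card_A_inf (h : Fin1 G p a n y A H) {t : G} (htp : PEl p t) (htA : t ∉ A) :
    Nat.card A = Nat.card (A ⊓ CG t : Subgroup G) * p := by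
  have htc : t ∉ center G := fun hh => htA (h.dec.mem_P (center_le_CG y hh) htp)
  obtain ⟨T, K, hD⟩ := h.cs.base.exists_dec htc htp
  have htT : t ∈ T := hD.mem_P (self_mem_CG t) htp
  obtain ⟨P, hP⟩ := hD.pgrp.exists_le_sylow
  have h1 : Nat.card T = Nat.card A := by
    rw [hD.card_P, h.dec.card_P, h.cs.base.card_eq htc h.cop_A]
  haveI := h.normal_A
  have h2 : A ⊓ CG t = A ⊓ T := by
    apply le_antisymm
    · rintro u ⟨hu, hut⟩
      exact ⟨hu, hD.mem_P hut (PEl.of_mem h.dec.pgrp hu)⟩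
    · exact inf_le_inf_left A hD.le
  have h3 : Nat.card (A ⊓ T : Subgroup G) * A.relIndex T = Nat.card T := by
    have h6 : Nat.card (A.subgroupOf T) = Nat.card (A ⊓ T : Subgroup G) := by
      rw [← subgroupOf_map_subtype]
      exact Nat.card_congr ((A.subgroupOf T).equivMapOfInjective _ T.subtype_injective).toEquiv
    rw [← h6]
    exact (A.subgroupOf T).card_mul_index
  have h4 : A.relIndex (P : Subgroup G) = p := by
    have h5 := card_mul_relIndex' A (P : Subgroup G)
    rw [inf_eq_left.2 (h.A_le P), h.card_P P] at h5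
    exact Nat.eq_of_mul_eq_mul_left Nat.card_pos h5
  have h5 : A.relIndex T ∣ A.relIndex (P : Subgroup G) := by
    rw [relIndex_eq_card_map, relIndex_eq_card_map]
    exact card_dvd_of_le (map_mono hP)
  rw [h4] at h5
  rcases (Nat.dvd_prime hp.out).1 h5 with h6 | h6
  · exfalso
    exact htA ((relIndex_eq_one.1 h6) htT)
  · rw [h2, ← h1, ← h3, h6]

end Fin1

end Cfsg.Agent.H558.Cs
end

-- part: S4284
section
set_option autoImplicit false
open Cfsg

namespace Cfsg.Agent.S4284

open Cfsg.Agent.H558.Cs Subgroup in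
theorem exists_cs {G : Type*} [Group G] [Finite G] (m n : ℕ) (hm : 1 < m) (hn : 1 < n)
    (hcop : m.Coprime n) (h : Set.range (fun x : G => (Subgroup.centralizer ({x} : Set G)).index) =
      ({1, m, m * n} : Set ℕ)) : ∃ p a : ℕ, p.Prime ∧ m = p ^ a ∧ CS G p a n := by
  have hind : ∀ x : G, x ∉ center G → (CG x).index = m ∨ (CG x).index = m * n := by
    intro x hx
    have h1 : (CG x).index ∈ ({1, m, m * n} : Set ℕ) := h ▸ ⟨x, rfl⟩
    rcases h1 with h1 | h1 | h1
    · exfalso
      apply hx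
      rw [Subgroup.index_eq_one] at h1
      exact CG_eq_top_iff.1 h1
    · exact Or.inl h1
    · exact Or.inr h1
  obtain ⟨x1, hx1⟩ : ∃ x : G, (CG x).index = m := by
    have : m ∈ Set.range (fun x : G => (Subgroup.centralizer ({x} : Set G)).index) := by
      rw [h]; simp
    exact this
  obtain ⟨x2, hx2⟩ : ∃ x : G, (CG x).index = m * n := by
    have : m * n ∈ Set.range (fun x : G => (Subgroup.centralizer ({x} : Set G)).index) := by
      rw [h]; simp
    exact this
  have hbase : ∀ p : ℕ, p.Prime → p ∣ m → Base G p (m.factorization p) := by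
    intro p hp hpm
    have hpn : ¬ p ∣ n := by
      intro hd
      have := Nat.dvd_gcd hpm hd
      rw [hcop] at this
      exact hp.one_lt.ne' (Nat.dvd_one.1 this)
    refine ⟨(hp.dvd_iff_one_le_factorization (by omega)).1 hpm, ?_, x1, ?_⟩
    · intro x hx
      rcases hind x hx with h1 | h1
      · rw [h1]
      · rw [h1, Nat.factorization_mul (by omega) (by omega), Finsupp.add_apply,
          Nat.factorization_eq_zero_of_not_dvd hpn, add_zero]
    · intro hc
      rw [index_one_of_mem hc] at hx1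
      omega
  obtain ⟨p, hp, hpm⟩ := Nat.exists_prime_and_dvd (show m ≠ 1 by omega)
  have huniq : ∀ {q : ℕ}, q.Prime → q ∣ m → q = p := by
    intro q hq hqm
    by_contra hqp
    haveI : Fact p.Prime := ⟨hp⟩
    haveI : Fact q.Prime := ⟨hq⟩
    exact Base.no_two hqp (hbase q hq hqm) (hbase p hp hpm)
  have hpow := Nat.eq_prime_pow_of_unique_prime_dvd (show m ≠ 0 by omega) huniq
  set a := m.primeFactorsList.length with ha
  refine ⟨p, a, hp, hpow, ⟨?_, hn, ?_, ?_, ⟨x1, hx1.trans hpow⟩, ⟨x2, ?_⟩⟩⟩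
  · rcases Nat.eq_zero_or_pos a with h0 | h0
    · rw [h0, pow_zero] at hpow; omega
    · exact h0
  · intro hd
    have := Nat.dvd_gcd hpm hd
    rw [hcop] at this
    exact hp.one_lt.ne' (Nat.dvd_one.1 this)
  · intro x hx
    rw [← hpow]; exact hind x hx
  · rw [← hpow]; exact hx2

open Cfsg.Agent.H558.Cs Subgroup in
theorem card_comm {G : Type*} [Group G] [Finite G] {p a n : ℕ} [hp : Fact p.Prime] {y : G}
    {A H : Subgroup G} (F : Fin1 G p a n y A H) (P : Sylow p G) :
    Nat.card (commutator (P : Subgroup G)) = p := by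
  obtain ⟨t, htP, htA⟩ := F.exists_t P
  have htp : PEl p t := PEl.of_mem P.2 htP
  have hAP : A ≤ (P : Subgroup G) := F.A_le P
  haveI := F.normal_A
  haveI : (A.subgroupOf (P : Subgroup G)).Normal := inferInstance
  have hcard : Nat.card (A.subgroupOf (P : Subgroup G)) = Nat.card A :=
    Nat.card_congr (subgroupOfEquivOfLe hAP).toEquiv
  have htop : A.subgroupOf (P : Subgroup G) ⊔ zpowers (⟨t, htP⟩ : (P : Subgroup G)) = ⊤ := by
    apply eq_top_of_card_eq
    set S := A.subgroupOf (P : Subgroup G) ⊔ zpowers (⟨t, htP⟩ : (P : Subgroup G)) with hS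
    have h1 : Nat.card (A.subgroupOf (P : Subgroup G)) ∣ Nat.card S := card_dvd_of_le le_sup_left
    rw [hcard] at h1
    have h2 : Nat.card S ∣ Nat.card A * p := by
      rw [← F.card_P P]; exact card_subgroup_dvd_card S
    obtain ⟨k, hk⟩ := h1
    rw [hk] at h2
    have h3 : k ∣ p := Nat.dvd_of_mul_dvd_mul_left Nat.card_pos h2
    rcases (Nat.dvd_prime hp.out).1 h3 with h4 | h4
    · exfalso
      rw [h4, mul_one] at hk
      have h5 : A.subgroupOf (P : Subgroup G) = S :=
        eq_of_le_of_card_ge le_sup_left (by rw [hk, hcard])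
      have h6 : (⟨t, htP⟩ : (P : Subgroup G)) ∈ S := mem_sup_right (mem_zpowers _)
      rw [← h5, mem_subgroupOf] at h6
      exact htA h6
    · rw [hk, h4, F.card_P P]
  have h1 := card_commutator (A.subgroupOf (P : Subgroup G)) (by
    intro u hu w hw
    exact Subtype.ext (F.comm_A u (mem_subgroupOf.1 hu) w (mem_subgroupOf.1 hw)))
    (⟨t, htP⟩ : (P : Subgroup G)) htop
  have h2 : Nat.card (A.subgroupOf (P : Subgroup G) ⊓ CG (⟨t, htP⟩ : (P : Subgroup G)) :
      Subgroup (P : Subgroup G)) = Nat.card (A ⊓ CG t : Subgroup G) := by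
    have h3 : (A.subgroupOf (P : Subgroup G) ⊓ CG (⟨t, htP⟩ : (P : Subgroup G))).map
        (P : Subgroup G).subtype = A ⊓ CG t := by
      ext g
      constructor
      · rintro ⟨z, ⟨hz1, hz2⟩, rfl⟩
        exact ⟨mem_subgroupOf.1 hz1, mem_CG.2 (congrArg Subtype.val (mem_CG.1 hz2))⟩
      · rintro ⟨hg1, hg2⟩
        exact ⟨⟨g, hAP hg1⟩, ⟨mem_subgroupOf.2 hg1, mem_CG.2 (Subtype.ext (mem_CG.1 hg2))⟩, rfl⟩
    rw [← h3]
    exact Nat.card_congr (Subgroup.equivMapOfInjective _ _ (P : Subgroup G).subtype_injective).toEquiv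
  rw [hcard, F.card_A_inf htp htA, h2] at h1
  exact (Nat.eq_of_mul_eq_mul_left Nat.card_pos h1).symm

/-- Let G be a finite group with no nontrivial abelian direct factor whose conjugacy class sizes are exactly 1, m and m·n with m, n > 1 coprime. Then m is a prime p dividing n − 1; the elements whose class has size 1 or p form an abelian normal subgroup of index p; G has a normal p-complement; and the commutator subgroup of a Sylow p-subgroup of G has order p. -/
theorem result {G : Type*} [Group G] [Finite G] (hnodf : ∀ A B : Subgroup G, A.Normal → B.Normal → A ⊓ B = ⊥ → A ⊔ B = ⊤ → IsMulCommutative A → A = ⊥) (m n : ℕ) (hm : 1 < m) (hn : 1 < n) (hcop : m.Coprime n) (h : Set.range (fun x : G => (Subgroup.centralizer ({x} : Set G)).index) = ({1, m, m * n} : Set ℕ)) : m.Prime ∧ m ∣ n - 1 ∧ (∃ M : Subgroup G, M.Normal ∧ (M : Set G) = {x : G | (Subgroup.centralizer ({x} : Set G)).index = 1 ∨ (Subgroup.centralizer ({x} : Set G)).index = m} ∧ M.index = m ∧ IsMulCommutative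 M) ∧ (∃ N : Subgroup G, N.Normal ∧ (Nat.card N).Coprime m ∧ ∃ a : ℕ, N.index = m ^ a) ∧ ∀ P : Sylow m G, Nat.card (commutator (P : Subgroup G)) = m := by
  obtain ⟨p, a, hp, hmp, hcs⟩ := exists_cs m n hm hn hcop h
  haveI : Fact p.Prime := ⟨hp⟩
  obtain ⟨y, hy, hyi⟩ := hcs.exists_type1
  obtain ⟨A, H, hD⟩ := hcs.base.exists_dec (hcs.not_center1 hyi) hy
  have F : Cfsg.Agent.H558.Cs.Fin1 G p a n y A H := ⟨hcs, hy, hyi, hD⟩
  have ha := F.a_eq_one
  have hmp' : m = p := by rw [hmp, ha, pow_one]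
  subst hmp'
  refine ⟨hp, F.dvd_sub, ⟨Subgroup.centralizer ({y} : Set G), F.normal_M, ?_, ?_, ?_⟩,
    ⟨H, F.normal_H, ?_, F.index_H⟩, card_comm F⟩
  · have h1 := F.coe_M
    rw [ha, pow_one] at h1
    exact h1
  · have h1 := F.idx
    rw [ha, pow_one] at h1
    exact h1
  · exact ⟨⟨fun u w => Subtype.ext (F.comm_M u u.2 w w.2)⟩⟩
  · exact ((Nat.Prime.coprime_iff_not_dvd hp).2 hD.cop).symm

end Cfsg.Agent.S4284
end
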