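import Cfsg.Statements.S4290
import Cfsg.Agent.H559.TwoTransPerm
set_option linter.all false

set_option autoImplicit false
open Cfsg

namespace Cfsg.Agent.S4290

/-- Let G be a doubly transitive group of permutations of a finite set Ω in which a point stabilizer is a Hall subgroup of G (its order is coprime to its index). Then every automorphism of G of odd order is induced by conjugation by a permutation of Ω normalizing G. -/
theorem result {Ω : Type*} [Fintype Ω] (G : Subgroup (Equiv.Perm Ω)) (h2 : MulAction.IsMultiplyPretransitive G Ω 2) (o : Ω) (hHall : (Nat.card (MulAction.stabilizer G o)).Coprime (MulAction.stabilizer G o).index) (α : MulAut G) (hα : Odd (orderOf α)) : ∃ σ : Equiv.Perm Ω, σ ∈ Subgroup.normalizer (G : Set (Equiv.Perm Ω)) ∧ ∀ g : G, ((α g : G) : Equiv.Perm Ω) = σ * (g : Equiv.Perm Ω) * σ⁻¹ := by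
  classical
  have hpre : MulAction.IsPretransitive G Ω :=
    MulAction.isPretransitive_of_is_two_pretransitive
  have hcard : (MulAction.stabilizer G o).index = Fintype.card Ω := by
    rw [MulAction.index_stabilizer_of_transitive, Nat.card_eq_fintype_card]
  obtain ⟨⟨σ, hσ⟩, -⟩ := Cfsg.Agent.H559.TwoTrans.core h2 α hα o o (by
    rw [← hcard]
    refine Nat.Coprime.coprime_dvd_left ?_ hHall
    have h1 : Nat.card (MulAction.orbit ((MulAction.stabilizer G o).map α.toMonoidHom) o) ∣
        Nat.card ((MulAction.stabilizer G o).map α.toMonoidHom) := by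
      rw [← Nat.card_congr (MulAction.orbitEquivQuotientStabilizer _ o).symm]
      exact Subgroup.card_quotient_dvd_card _
    rwa [Subgroup.card_map_of_injective (f := α.toMonoidHom) α.injective] at h1)
  exact ⟨σ, Cfsg.Agent.H559.TwoTrans.mem_normalizer G α σ hσ,
    Cfsg.Agent.H559.TwoTrans.conj_eq G α σ hσ⟩

end Cfsg.Agent.S4290
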