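import Cfsg.Statements.S4292
import Cfsg.Agent.H560.Reduce
import Cfsg.Agent.H348.FPF
import Cfsg.Agent.S3357
set_option linter.all false

set_option autoImplicit false
open Cfsg

set_option linter.style.haveILetI false

namespace Cfsg.Agent.S4292

open Cfsg.Agent.H560 Cfsg.Agent.H348

/-- the coefficient field -/
abbrev K : Type := AlgebraicClosure ℚ

/-- the action of `A × B` on matrices -/
noncomputable def act {A B : Type*} [Group A] [Group B] {n m : ℕ} (ρ : A →* GL (Fin n) K) (σ : B →* GL (Fin m) K) :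
    A × B →* AddMonoid.End (Matrix (Fin n) (Fin m) K) where
  toFun x :=
    { toFun := fun X => (ρ x.1 : Matrix (Fin n) (Fin n) K) * X * (((σ x.2)⁻¹ : GL (Fin m) K) : Matrix (Fin m) (Fin m) K)
      map_zero' := by rw [Matrix.mul_zero, Matrix.zero_mul]
      map_add' := by intro a b; rw [Matrix.mul_add, Matrix.add_mul] }
  map_one' := by
    ext1 X
    show ((ρ 1 : GL (Fin n) K) : Matrix (Fin n) (Fin n) K) * X * (((σ 1)⁻¹ : GL (Fin m) K) : Matrix (Fin m) (Fin m) K) = X
    rw [map_one, map_one, inv_one, Units.val_one, Units.val_one, Matrix.one_mul, Matrix.mul_one]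
  map_mul' := by
    intro a b
    ext1 X
    show ((ρ (a.1 * b.1) : GL (Fin n) K) : Matrix (Fin n) (Fin n) K) * X *
      (((σ (a.2 * b.2))⁻¹ : GL (Fin m) K) : Matrix (Fin m) (Fin m) K) =
      (ρ a.1 : Matrix (Fin n) (Fin n) K) * ((ρ b.1 : Matrix (Fin n) (Fin n) K) * X *
        (((σ b.2)⁻¹ : GL (Fin m) K) : Matrix (Fin m) (Fin m) K)) * (((σ a.2)⁻¹ : GL (Fin m) K) : Matrix (Fin m) (Fin m) K)
    rw [map_mul, map_mul, mul_inv_rev, Units.val_mul, Units.val_mul]
    simp only [Matrix.mul_assoc]

theorem act_apply {A B : Type*} [Group A] [Group B] {n m : ℕ} (ρ : A →* GL (Fin n) K)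
    (σ : B →* GL (Fin m) K) (x : A × B) (X : Matrix (Fin n) (Fin m) K) :
    act ρ σ x X = (ρ x.1 : Matrix (Fin n) (Fin n) K) * X * (((σ x.2)⁻¹ : GL (Fin m) K) : Matrix (Fin m) (Fin m) K) := rfl

/-- Let A and B be nontrivial finite groups. Then the direct product A × B occurs as a Frobenius complement if and only if A and B both occur as Frobenius complements and the orders of A and B are coprime. -/
theorem result {A B : Type*} [Group A] [Finite A] [Nontrivial A] [Group B] [Finite B] [Nontrivial B] :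
    (∃ (L : Type) (_ : Group L) (_ : Finite L) (H : Subgroup L), Cfsg.IsFrobeniusComplement H ∧ Nonempty ((A × B) ≃* H)) ↔
    ((∃ (L : Type) (_ : Group L) (_ : Finite L) (H : Subgroup L), Cfsg.IsFrobeniusComplement H ∧ Nonempty (A ≃* H)) ∧
     (∃ (L : Type) (_ : Group L) (_ : Finite L) (H : Subgroup L), Cfsg.IsFrobeniusComplement H ∧ Nonempty (B ≃* H)) ∧
     (Nat.card A).Coprime (Nat.card B)) := by
  constructor
  · intro h
    have hAB : HasFPF (A × B) := hasFPF_of_exists h
    have hA : HasFPF A := hAB.of_injective (MonoidHom.inl A B) (fun x y hxy => congrArg Prod.fst hxy)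
    have hB : HasFPF B := hAB.of_injective (MonoidHom.inr A B) (fun x y hxy => congrArg Prod.snd hxy)
    refine ⟨?_, ?_, ?_⟩
    · obtain ⟨V, _, _, _, φ, hφ⟩ := hA
      obtain ⟨L, i1, i2, H, h1, h2, -⟩ := exists_of_fpf φ hφ
      exact ⟨L, i1, i2, H, h1, h2⟩
    · obtain ⟨V, _, _, _, φ, hφ⟩ := hB
      obtain ⟨L, i1, i2, H, h1, h2, -⟩ := exists_of_fpf φ hφ
      exact ⟨L, i1, i2, H, h1, h2⟩
    · by_contra hco
      obtain ⟨p, hp, hpA, hpB⟩ := Nat.Prime.not_coprime_iff_dvd.1 hco
      haveI : Fact p.Prime := ⟨hp⟩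
      obtain ⟨a, ha⟩ := exists_prime_orderOf_dvd_card' (G := A) p hpA
      obtain ⟨b, hb⟩ := exists_prime_orderOf_dvd_card' (G := B) p hpB
      have h1 : orderOf ((a, 1) : A × B) = p := by rw [Prod.orderOf_mk, orderOf_one, ha]; simp
      have h2 : orderOf ((1, b) : A × B) = p := by rw [Prod.orderOf_mk, orderOf_one, hb]; simp
      have h3 := hAB.zpowers_eq (x := ((a, 1) : A × B)) (y := ((1, b) : A × B)) (by simp)
        (h1.trans h2.symm)
      have h4 : ((a, 1) : A × B) ∈ Subgroup.zpowers ((1, b) : A × B) := by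
        rw [← h3]; exact Subgroup.mem_zpowers _
      obtain ⟨k, hk⟩ := Subgroup.mem_zpowers_iff.1 h4
      have h5 : a = 1 := by
        have := congrArg Prod.fst hk
        simpa using this.symm
      rw [h5, orderOf_one] at ha
      exact hp.one_lt.ne ha
  · rintro ⟨hA, hB, hco⟩
    obtain ⟨n, ρ, hn, -, -, hρ⟩ := Cfsg.Agent.S3357.result hA
    obtain ⟨m, σ, hm, -, -, hσ⟩ := Cfsg.Agent.S3357.result hB
    haveI : Nonempty (Fin n) := ⟨⟨0, hn⟩⟩
    haveI : Nonempty (Fin m) := ⟨⟨0, hm⟩⟩
    have hleft : ∀ a : A, a ≠ 1 → ∀ X : Matrix (Fin n) (Fin m) K, act ρ σ (a, 1) X = X → X = 0 := by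
      intro a ha X hX
      rw [act_apply] at hX
      simp only [map_one, inv_one, Units.val_one, Matrix.mul_one] at hX
      ext i j
      have h1 := hρ a ha (fun i => X i j) (by
        ext i
        have h2 := congrFun (congrFun hX i) j
        rw [Matrix.mul_apply] at h2
        exact h2)
      exact congrFun h1 i
    have hright : ∀ b : B, b ≠ 1 → ∀ X : Matrix (Fin n) (Fin m) K, act ρ σ (1, b) X = X → X = 0 := by
      intro b hb X hX
      rw [act_apply] at hX
      simp only [map_one, Units.val_one, Matrix.one_mul] at hX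
      have hX' : X * (σ b : Matrix (Fin m) (Fin m) K) = X := by
        conv_lhs => rw [← hX]
        rw [Matrix.mul_assoc, ← Units.val_mul, inv_mul_cancel, Units.val_one, Matrix.mul_one]
      have hdet : ((σ b : Matrix (Fin m) (Fin m) K) - 1).det ≠ 0 := by
        intro h0
        obtain ⟨v, hv, hv0⟩ := Matrix.exists_mulVec_eq_zero_iff.2 h0
        apply hv
        apply hσ b hb
        rw [Matrix.sub_mulVec, Matrix.one_mulVec, sub_eq_zero] at hv0
        exact hv0
      have h3 : X * ((σ b : Matrix (Fin m) (Fin m) K) - 1) = 0 := by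
        rw [Matrix.mul_sub, hX', Matrix.mul_one, sub_self]
      have h4 : IsUnit ((σ b : Matrix (Fin m) (Fin m) K) - 1) :=
        (Matrix.isUnit_iff_isUnit_det _).2 (isUnit_iff_ne_zero.2 hdet)
      obtain ⟨w, hw⟩ := h4
      rw [← hw] at h3
      have h5 := congrArg (fun Y => Y * ((w⁻¹ : (Matrix (Fin m) (Fin m) K)ˣ) : Matrix (Fin m) (Fin m) K)) h3
      simpa only [Matrix.mul_assoc, Units.mul_inv, Matrix.mul_one, Matrix.zero_mul] using h5
    have hpow : ∀ (x : A × B) (X : Matrix (Fin n) (Fin m) K), act ρ σ x X = X →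
        ∀ k : ℕ, act ρ σ (x ^ k) X = X := by
      intro x X hX k
      induction k with
      | zero => rw [pow_zero, map_one]; rfl
      | succ k ih =>
        rw [pow_succ, map_mul]
        show act ρ σ (x ^ k) (act ρ σ x X) = X
        rw [hX, ih]
    refine exists_of_fpf_torsionfree (U := Matrix (Fin n) (Fin m) K) ?_ (act ρ σ) ?_
    · intro k X hk hX
      ext i j
      have h1 := congrFun (congrFun hX i) j
      rw [Matrix.smul_apply, Matrix.zero_apply, zsmul_eq_mul, mul_eq_zero] at h1
      rcases h1 with h1 | h1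
      · exact absurd (Int.cast_eq_zero.1 h1) hk
      · exact h1
    · rintro ⟨a, b⟩ hab X hX
      by_cases ha : a = 1
      · have hb : b ≠ 1 := by
          rintro rfl
          exact hab (by rw [ha]; rfl)
        subst ha
        exact hright b hb X hX
      · have h1 := hpow _ X hX (Nat.card B)
        have h2 : ((a, b) : A × B) ^ Nat.card B = (a ^ Nat.card B, 1) := by
          rw [Prod.pow_mk, pow_card_eq_one']
        rw [h2] at h1
        refine hleft _ ?_ X h1
        intro h3
        apply ha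
        have h4 : orderOf a ∣ 1 := by
          rw [← hco.gcd_eq_one]
          exact Nat.dvd_gcd (orderOf_dvd_natCard a) (orderOf_dvd_of_pow_eq_one h3)
        exact orderOf_eq_one_iff.1 (Nat.dvd_one.1 h4)

end Cfsg.Agent.S4292
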