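import Cfsg.Statements.S4293
import Cfsg.Agent.H560.Reduce
set_option linter.all false

set_option autoImplicit false
open Cfsg

namespace Cfsg.Agent.S4293

open Cfsg.Agent.H560

/-- Left multiplication. -/
def lmul {D : Type*} [DivisionRing D] (H : Subgroup Dˣ) : H →* AddMonoid.End D where
  toFun h := AddMonoidHom.mulLeft ((h : Dˣ) : D)
  map_one' := by
    ext v
    show (1 : D) * v = v
    exact one_mul v
  map_mul' := by
    intro a b
    ext v
    show ((a : Dˣ) : D) * ((b : Dˣ) : D) * v = ((a : Dˣ) : D) * (((b : Dˣ) : D) * v)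
    exact mul_assoc _ _ _

/-- A nontrivial finite subgroup of the multiplicative group of a division ring occurs as a Frobenius complement of some finite Frobenius group. -/
theorem result {D : Type*} [DivisionRing D] (H : Subgroup Dˣ) [Finite H] (hH : H ≠ ⊥) :
    ∃ (L : Type) (_ : Group L) (_ : Finite L) (C : Subgroup L), Cfsg.IsFrobeniusComplement C ∧ Nonempty (H ≃* C) := by
  have hnt : Nontrivial H := (Subgroup.nontrivial_iff_ne_bot H).2 hH
  have hfpf : ∀ a : H, a ≠ 1 → ∀ v : D, lmul H a v = v → v = 0 := by
    intro a ha v hv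
    have h1 : ((a : Dˣ) : D) * v = v := hv
    by_contra h0
    apply ha
    apply Subtype.ext
    apply Units.ext
    exact mul_right_cancel₀ h0 (h1.trans (one_mul v).symm)
  obtain ⟨p, hp⟩ := CharP.exists D
  rcases CharP.char_is_prime_or_zero D p with hpp | h0
  · refine exists_of_fpf_prime (lmul H) hfpf p hpp ?_ (1 : D) ?_
    · intro hdvd
      haveI : Fact p.Prime := ⟨hpp⟩
      obtain ⟨x, hx⟩ := exists_prime_orderOf_dvd_card' (G := H) p hdvd
      have h2 : (((x : Dˣ) : D) - 1) ^ p = 0 := by
        rw [sub_pow_char_of_commute p (Commute.one_right _), one_pow]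
        have h3 : x ^ p = 1 := by rw [← hx, pow_orderOf_eq_one]
        have h4 : ((x : Dˣ) : D) ^ p = 1 := by
          rw [← Units.val_pow_eq_pow_val, ← Subgroup.coe_pow, h3]; rfl
        rw [h4, sub_self]
      have h5 : ((x : Dˣ) : D) - 1 = 0 := pow_eq_zero_iff hpp.ne_zero |>.1 h2
      have h6 : x = 1 := by
        apply Subtype.ext
        apply Units.ext
        exact sub_eq_zero.1 h5
      rw [h6, orderOf_one] at hx
      exact hpp.one_lt.ne hx
    · intro m hm hm0
      rw [zsmul_one, CharP.intCast_eq_zero_iff D p] at hm0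
      have h7 : (p : ℤ) ∣ 1 := by
        have := dvd_sub hm0 hm
        simpa using this
      have h8 : p ∣ 1 := by exact_mod_cast h7
      exact hpp.one_lt.ne' (Nat.dvd_one.1 h8)
  · subst h0
    haveI : CharZero D := CharP.charP_to_charZero D
    refine exists_of_fpf_torsionfree ?_ (lmul H) hfpf
    intro m v hm hv
    rw [zsmul_eq_mul, mul_eq_zero] at hv
    rcases hv with h | h
    · exact absurd (Int.cast_eq_zero.1 h) hm
    · exact h

end Cfsg.Agent.S4293
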