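import Cfsg.Agent.PermutationGroups.AutSL25
import Mathlib
import Cfsg.Agent.H560.QuatLift
import Cfsg.Agent.S4293
import Cfsg.Agent.H348.Nonsolvable
import Cfsg.Statements.S4294
set_option linter.all false

-- part: H560/SL25Facts
section
/-!
Small kernel-checked facts about `SL(2,5)`.
-/

set_option autoImplicit false

namespace Cfsg.Agent.H560.SL25Facts

open Cfsg.Agent.PermutationGroups.AutSL25

/-- an element of order four anticommuting with `S` -/
def J : SL25 := ⟨!![2, 0; 0, 3], by decide⟩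

theorem relJ : J * J = -1 := by decide +kernel
theorem relJS : J * S = -1 * (S * J) := by decide +kernel
theorem ST_ne : S * T ≠ -1 := by decide +kernel
theorem S_ne : S * S ≠ 1 := by decide +kernel

set_option maxRecDepth 100000 in
/-- Elements of order five are conjugate to `T` or `T²`. -/
theorem conj_T : ∀ x : SL25, x * x * x * x * x = 1 → x ≠ 1 →
    ∃ g : SL25, g * x = T * g ∨ g * x = T * T * g := by decide +kernel

set_option maxRecDepth 100000 in
/-- The pairs `(s, T)` of the type of `(S, T)` are conjugate to `(S, T)`. -/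
theorem conj_S : ∀ s : SL25, s * s = -1 → (s * T) * (s * T) * (s * T) = -1 →
    ∃ k : Fin 5, T ^ k.val * S = s * T ^ k.val := by decide +kernel

theorem relSJ : S * J = J * S⁻¹ := by decide +kernel

/-- group-theoretic bookkeeping -/
theorem aux_conj {G : Type*} [Group G] {a b y s t : G} {k : ℕ} (hy : y * b = t * y)
    (hk : t ^ k * s = (y * a * y⁻¹) * t ^ k) :
    ((t ^ k)⁻¹ * y) * a = s * ((t ^ k)⁻¹ * y) ∧ ((t ^ k)⁻¹ * y) * b = t * ((t ^ k)⁻¹ * y) := by
  constructor
  · have h1 : s = (t ^ k)⁻¹ * (y * a * y⁻¹) * t ^ k := by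
      rw [mul_assoc, ← hk, inv_mul_cancel_left]
    rw [h1]
    group
  · have h1 : t * (t ^ k)⁻¹ = (t ^ k)⁻¹ * t := ((Commute.refl t).pow_right k).inv_right.eq
    rw [mul_assoc, hy, ← mul_assoc, ← mul_assoc, h1]

theorem aux_sq {G : Type*} [Group G] {a y n : G} (hn : y * n * y⁻¹ = n) (h : a * a = n) :
    (y * a * y⁻¹) * (y * a * y⁻¹) = n := by
  rw [← hn, ← h]
  group

theorem aux_cube {G : Type*} [Group G] {a b y n t : G} (hn : y * n * y⁻¹ = n) (hy : y * b = t * y)
    (h : (a * b) * (a * b) * (a * b) = n) :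
    ((y * a * y⁻¹) * t) * ((y * a * y⁻¹) * t) * ((y * a * y⁻¹) * t) = n := by
  have ht : t = y * b * y⁻¹ := by rw [hy, mul_inv_cancel_right]
  rw [ht, ← hn, ← h]
  group

/-- An automorphism of `SL(2,5)` is inner or maps `T` to a conjugate of `T²`. -/
theorem aut_cases (α : SL25 ≃* SL25) :
    (∃ z : SL25, z * α S = S * z ∧ z * α T = T * z) ∨ (∃ y : SL25, y * α T = T * T * y) := by
  have hαneg : α (-1) = -1 := map_neg_one (α : MulAut SL25)
  obtain ⟨y, hy⟩ := conj_T (α T)
    (by rw [← map_mul, ← map_mul, ← map_mul, ← map_mul, relT, map_one])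
    (fun h => T_ne ((MulEquiv.map_eq_one_iff α).1 h))
  rcases hy with hy | hy
  · left
    have hS2 : α S * α S = -1 := by rw [← map_mul, relS, hαneg]
    have hS3 : (α S * α T) * (α S * α T) * (α S * α T) = -1 := by
      rw [← map_mul, ← map_mul, ← map_mul, relST, hαneg]
    have hneg : y * (-1) * y⁻¹ = -1 := by rw [mul_neg, mul_one, neg_mul, mul_inv_cancel]
    obtain ⟨k', hk'⟩ := conj_S (y * α S * y⁻¹) (aux_sq hneg hS2) (aux_cube hneg hy hS3)
    exact ⟨(T ^ k'.val)⁻¹ * y, aux_conj hy hk'⟩
  · right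
    exact ⟨y, hy⟩

end Cfsg.Agent.H560.SL25Facts
end

-- part: H560/GaussPoly
section
/-!
Gauss' formula `4 Φ_l = Y² + l Z²` for a prime `l ≡ 3 (mod 4)`, with `Y`, `Z` rational polynomials.
-/

set_option autoImplicit false

namespace Cfsg.Agent.H560.GaussPoly

open Polynomial

variable (l : ℕ) [hl : Fact l.Prime]

/-- the cyclotomic field -/
abbrev F : Type := CyclotomicField l ℚ

/-- the cyclotomic field is a cyclotomic extension -/
theorem isCyc : IsCyclotomicExtension {l} ℚ (F l) := by
  have h : NeZero ((l : ℕ) : ℚ) := ⟨by exact_mod_cast hl.out.ne_zero⟩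
  exact CyclotomicField.isCyclotomicExtension l ℚ

attribute [local instance] isCyc

/-- a primitive root of unity -/
noncomputable def eta : F l := IsCyclotomicExtension.zeta l ℚ (F l)

theorem eta_prim : IsPrimitiveRoot (eta l) l := IsCyclotomicExtension.zeta_spec l ℚ (F l)

/-- the additive character `a ↦ η ^ a` -/
noncomputable def psi : AddChar (ZMod l) (F l) :=
  AddChar.zmodChar l ((IsPrimitiveRoot.iff_def (eta l) l).mp (eta_prim l)).left

theorem psi_prim : (psi l).IsPrimitive := AddChar.zmodChar_primitive_of_primitive_root l (eta_prim l)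

theorem psi_apply (a : ZMod l) : psi l a = eta l ^ a.val := AddChar.zmodChar_apply _ _

theorem psi_one : psi l 1 = eta l := by
  rw [psi_apply, ZMod.val_one, pow_one]

theorem psi_inj {a b : ZMod l} (h : psi l a = psi l b) : a = b := by
  rw [psi_apply, psi_apply] at h
  exact ZMod.val_injective l ((eta_prim l).pow_inj (ZMod.val_lt a) (ZMod.val_lt b) h)

/-- the quadratic character with values in the cyclotomic field -/
noncomputable def chi : MulChar (ZMod l) (F l) :=
  (quadraticChar (ZMod l)).ringHomComp (Int.castRingHom (F l))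

theorem chi_apply (a : ZMod l) : chi l a = ((quadraticChar (ZMod l) a : ℤ) : F l) := rfl

/-- The product of `X - η ^ a` over the `a` with quadratic character `e`. -/
noncomputable def half (e : ℤ) : (F l)[X] :=
  ∏ a ∈ Finset.univ.filter (fun a : ZMod l => quadraticChar (ZMod l) a = e), (X - C (psi l a))

theorem prod_all : ∏ a : ZMod l, (X - C (psi l a)) = (X ^ l - 1 : (F l)[X]) := by
  classical
  rw [X_pow_sub_one_eq_prod hl.out.pos (eta_prim l)]
  have h1 : Finset.image (psi l) Finset.univ = nthRootsFinset l (1 : F l) := by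
    apply Finset.eq_of_subset_of_card_le
    · intro x hx
      obtain ⟨a, -, rfl⟩ := Finset.mem_image.1 hx
      rw [mem_nthRootsFinset hl.out.pos, psi_apply, ← pow_mul, mul_comm, pow_mul,
        (eta_prim l).pow_eq_one, one_pow]
    · rw [(eta_prim l).card_nthRootsFinset, Finset.card_image_of_injective _ (fun a b h => psi_inj l h),
        Finset.card_univ, ZMod.card]
  rw [← h1, Finset.prod_image (fun a _ b _ h => psi_inj l h)]

theorem half_mul_half (h2 : l ≠ 2) : half l 1 * half l (-1) = cyclotomic l (F l) := by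
  have h1 : (X - 1 : (F l)[X]) ≠ 0 := X_sub_C_ne_zero 1
  apply mul_right_cancel₀ h1
  rw [cyclotomic_prime_mul_X_sub_one, ← prod_all]
  have hchar : ringChar (ZMod l) ≠ 2 := by rw [ZMod.ringChar_zmod_n]; exact h2
  have h3 : (Finset.univ : Finset (ZMod l)) =
      insert 0 ((Finset.univ.filter (fun a : ZMod l => quadraticChar (ZMod l) a = 1)) ∪
        (Finset.univ.filter (fun a : ZMod l => quadraticChar (ZMod l) a = -1))) := by
    ext a
    simp only [Finset.mem_univ, Finset.mem_insert, Finset.mem_union, Finset.mem_filter, true_and,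
      true_iff]
    by_cases ha : a = 0
    · exact Or.inl ha
    · exact Or.inr (quadraticChar_dichotomy ha)
  rw [h3, Finset.prod_insert, Finset.prod_union]
  · rw [AddChar.map_zero_eq_one, mul_comm]
    rfl
  · rw [Finset.disjoint_filter]
    intro a _ ha hb
    rw [ha] at hb
    norm_num at hb
  · simp

/-- The Galois group acts on the powers of `η`. -/
theorem exists_unit (σ : F l ≃ₐ[ℚ] F l) : ∃ b : (ZMod l)ˣ, ∀ a : ZMod l, σ (psi l a) = psi l (b * a) := by
  refine ⟨(eta_prim l).autToPow ℚ σ, fun a => ?_⟩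
  have h1 := (eta_prim l).autToPow_spec ℚ σ
  set b := (eta_prim l).autToPow ℚ σ with hb
  have h2 : σ (psi l a) = (psi l (b : ZMod l)) ^ a.val := by
    rw [psi_apply, map_pow, ← h1, psi_apply]
  rw [h2, ← AddChar.map_nsmul_eq_pow, nsmul_eq_mul, ZMod.natCast_val, ZMod.cast_id, mul_comm]

theorem map_half (σ : F l ≃ₐ[ℚ] F l) (b : (ZMod l)ˣ)
    (hb : ∀ a : ZMod l, σ (psi l a) = psi l (b * a)) (e : ℤ) :
    (half l e).map (σ : F l →+* F l) = half l (quadraticChar (ZMod l) b * e) := by
  unfold half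
  rw [Polynomial.map_prod]
  have hbb : quadraticChar (ZMod l) (b : ZMod l) * quadraticChar (ZMod l) (b : ZMod l) = 1 := by
    rw [← map_mul, ← sq]
    exact quadraticChar_sq_one' b.ne_zero
  refine Finset.prod_bij (fun a _ => (b : ZMod l) * a) ?_ ?_ ?_ ?_
  · intro a ha
    rw [Finset.mem_filter] at ha ⊢
    refine ⟨Finset.mem_univ _, ?_⟩
    rw [map_mul, ha.2]
  · intro a _ a' _ h
    exact b.isUnit.mul_left_cancel h
  · intro c hc
    rw [Finset.mem_filter] at hc
    refine ⟨((b⁻¹ : (ZMod l)ˣ) : ZMod l) * c, ?_, ?_⟩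
    · rw [Finset.mem_filter]
      refine ⟨Finset.mem_univ _, ?_⟩
      rw [map_mul, hc.2, ← mul_assoc, ← map_mul]
      have : (((b⁻¹ : (ZMod l)ˣ) : ZMod l) * (b : ZMod l)) = 1 := by
        rw [← Units.val_mul, inv_mul_cancel, Units.val_one]
      rw [this, map_one, one_mul]
    · rw [← mul_assoc, ← Units.val_mul, mul_inv_cancel, Units.val_one, one_mul]
  · intro a _
    rw [Polynomial.map_sub, map_X, map_C]
    congr 2
    exact hb a

/-- the Gauss sum -/
noncomputable def tau : F l := gaussSum (chi l) (psi l)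

theorem sigma_tau (σ : F l ≃ₐ[ℚ] F l) (b : (ZMod l)ˣ)
    (hb : ∀ a : ZMod l, σ (psi l a) = psi l (b * a)) :
    σ (tau l) = ((quadraticChar (ZMod l) (b : ZMod l) : ℤ) : F l) * tau l := by
  have h1 : σ (tau l) = gaussSum (chi l) ((psi l).mulShift (b : ZMod l)) := by
    unfold tau gaussSum
    rw [map_sum]
    refine Finset.sum_congr rfl fun a _ => ?_
    rw [map_mul, hb a, chi_apply, map_intCast, AddChar.mulShift_apply]
  have h2 := gaussSum_mulShift (chi l) (psi l) b
  have hbb : quadraticChar (ZMod l) (b : ZMod l) * quadraticChar (ZMod l) (b : ZMod l) = 1 := by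
    rw [← map_mul, ← sq]
    exact quadraticChar_sq_one' b.ne_zero
  rw [h1, tau, ← h2, ← mul_assoc, chi_apply, ← Int.cast_mul, hbb, Int.cast_one, one_mul]

theorem tau_sq (h3 : l % 4 = 3) : tau l ^ 2 = -(l : F l) := by
  have hl2 : l ≠ 2 := by omega
  have hchar : ringChar (ZMod l) ≠ 2 := by rw [ZMod.ringChar_zmod_n]; exact hl2
  have hq : (chi l).IsQuadratic := (quadraticChar_isQuadratic (ZMod l)).comp _
  have hne : chi l ≠ 1 := by
    intro h
    obtain ⟨a, ha⟩ := quadraticChar_exists_neg_one' hchar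
    have h4 := congrArg (fun c : MulChar (ZMod l) (F l) => c a) h
    simp only [MulChar.one_apply_coe] at h4
    rw [chi_apply, ha] at h4
    norm_num at h4
  unfold tau
  rw [gaussSum_sq hne hq (psi_prim l), chi_apply, ZMod.card,
    quadraticChar_neg_one hchar, ZMod.card, ZMod.χ₄_nat_three_mod_four h3]
  push_cast
  ring

/-- A polynomial over the cyclotomic field all of whose Galois conjugates are itself is rational. -/
theorem exists_of_fixed (P : (F l)[X]) (h : ∀ σ : F l ≃ₐ[ℚ] F l, P.map (σ : F l →+* F l) = P) :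
    ∃ Q : ℚ[X], Q.map (algebraMap ℚ (F l)) = P := by
  have hG : IsGalois ℚ (F l) := IsCyclotomicExtension.isGalois {l} ℚ (F l)
  have hfd : FiniteDimensional ℚ (F l) := IsCyclotomicExtension.finiteDimensional {l} ℚ (F l)
  rw [← Polynomial.mem_lifts, Polynomial.lifts_iff_coeff_lifts]
  intro n
  rw [IsGalois.mem_range_algebraMap_iff_fixed]
  intro σ
  have := congrArg (fun Q => Q.coeff n) (h σ)
  simpa [coeff_map] using this

/-- **Gauss' formula**. -/
theorem exists_gauss (h3 : l % 4 = 3) :
    ∃ Y Z : ℚ[X], 4 * cyclotomic l ℚ = Y ^ 2 + (l : ℚ[X]) * Z ^ 2 := by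
  have hl2 : l ≠ 2 := by omega
  have hl0 : (l : ℚ) ≠ 0 := by exact_mod_cast hl.out.ne_zero
  have hval : ∀ b : (ZMod l)ˣ, quadraticChar (ZMod l) (b : ZMod l) = 1 ∨
      quadraticChar (ZMod l) (b : ZMod l) = -1 := fun b => quadraticChar_dichotomy b.ne_zero
  obtain ⟨Y, hY⟩ := exists_of_fixed l (half l 1 + half l (-1)) (by
    intro σ
    obtain ⟨b, hb⟩ := exists_unit l σ
    rw [Polynomial.map_add, map_half l σ b hb, map_half l σ b hb]
    rcases hval b with h | h
    · rw [h, one_mul, one_mul]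
    · rw [h, mul_one, neg_one_mul, neg_neg, add_comm])
  obtain ⟨Z, hZ⟩ := exists_of_fixed l (C (tau l) * (half l 1 - half l (-1))) (by
    intro σ
    obtain ⟨b, hb⟩ := exists_unit l σ
    rw [Polynomial.map_mul, Polynomial.map_sub, map_half l σ b hb, map_half l σ b hb, map_C]
    have ht : (σ : F l →+* F l) (tau l) = _ := sigma_tau l σ b hb
    rw [ht]
    rcases hval b with h | h
    · rw [h, one_mul, one_mul, Int.cast_one, one_mul]
    · rw [h, mul_one, neg_one_mul, neg_neg, Int.cast_neg, Int.cast_one, neg_one_mul, C_neg]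
      ring)
  refine ⟨Y, C ((l : ℚ)⁻¹) * Z, ?_⟩
  apply Polynomial.map_injective (algebraMap ℚ (F l)) (algebraMap ℚ (F l)).injective
  have hC : (C (tau l) : (F l)[X]) ^ 2 = -(l : (F l)[X]) := by
    rw [← C_pow, tau_sq l h3, C_neg, C_eq_natCast]
  have hl0' : (l : F l) ≠ 0 := by exact_mod_cast hl.out.ne_zero
  have hinv : (l : (F l)[X]) * C ((l : F l)⁻¹) = 1 := by
    rw [← C_eq_natCast, ← C_mul, mul_inv_cancel₀ hl0', C_1]
  rw [Polynomial.map_mul, Polynomial.map_add, Polynomial.map_mul, Polynomial.map_pow,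
    Polynomial.map_pow, Polynomial.map_mul, hY, hZ, map_C, map_cyclotomic, Polynomial.map_natCast,
    ← half_mul_half l hl2, map_inv₀, map_natCast]
  have h4 : (4 : ℚ[X]).map (algebraMap ℚ (F l)) = 4 := by
    rw [show (4 : ℚ[X]) = ((4 : ℕ) : ℚ[X]) by norm_num, Polynomial.map_natCast]; norm_num
  rw [h4]
  set A := half l 1
  set B := half l (-1)
  set c := (C ((l : F l)⁻¹) : (F l)[X])
  have h5 : (l : (F l)[X]) * (c * (C (tau l) * (A - B))) ^ 2 = -(A - B) ^ 2 := by
    have : (l : (F l)[X]) * (c * (C (tau l) * (A - B))) ^ 2 =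
        ((l : (F l)[X]) * c) * c * (C (tau l)) ^ 2 * (A - B) ^ 2 := by ring
    rw [this, hC, hinv]
    have h6 : (1 : (F l)[X]) * c * -(l : (F l)[X]) = -((l : (F l)[X]) * c) := by ring
    rw [h6, hinv]
    ring
  rw [h5]
  ring

end Cfsg.Agent.H560.GaussPoly
end

-- part: H560/TwoForm
section
/-!
For a prime `l` with `l ≡ 3 (mod 4)` and `l ≡ 3 (mod 5)` the number `2 l` is of the form
`x² + 5 y²`.
-/

set_option autoImplicit false
set_option linter.style.haveILetI false

namespace Cfsg.Agent.H560.TwoForm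

theorem not_sq_three : ∀ x : ZMod 5, x * x ≠ 3 := by decide

/-- `-5` is a square modulo `l`. -/
theorem exists_sq_eq (l : ℕ) [hl : Fact l.Prime] (h4 : l % 4 = 3) (h5 : l % 5 = 3) :
    ∃ t : ZMod l, t * t = -5 := by
  have hl2 : l ≠ 2 := by omega
  have hchar : ringChar (ZMod l) ≠ 2 := by rw [ZMod.ringChar_zmod_n]; exact hl2
  haveI : Fact (Nat.Prime 5) := ⟨by norm_num⟩
  have h1 : ¬ IsSquare ((5 : ℕ) : ZMod l) := by
    rw [← ZMod.exists_sq_eq_prime_iff_of_mod_four_eq_one (p := 5) (q := l) (by norm_num) hl2]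
    have h6 : ((l : ℕ) : ZMod 5) = 3 := by
      have : ((l : ℕ) : ZMod 5) = ((3 : ℕ) : ZMod 5) := (ZMod.natCast_eq_natCast_iff' _ _ _).2 h5
      exact this
    rw [h6]
    rintro ⟨x, hx⟩
    exact not_sq_three x hx.symm
  have h2 : ¬ IsSquare (-1 : ZMod l) := by
    rw [ZMod.exists_sq_eq_neg_one_iff]
    omega
  have h50 : ((5 : ℕ) : ZMod l) ≠ 0 := by
    intro h; exact h1 (by rw [h]; exact ⟨0, by simp⟩)
  have h10 : (-1 : ZMod l) ≠ 0 := by simp
  have hq1 : quadraticChar (ZMod l) ((5 : ℕ) : ZMod l) = -1 :=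
    (quadraticChar_dichotomy h50).resolve_left fun h => h1 ((quadraticChar_one_iff_isSquare h50).1 h)
  have hq2 : quadraticChar (ZMod l) (-1 : ZMod l) = -1 :=
    (quadraticChar_dichotomy h10).resolve_left fun h => h2 ((quadraticChar_one_iff_isSquare h10).1 h)
  have hq : quadraticChar (ZMod l) (-1 * ((5 : ℕ) : ZMod l)) = 1 := by
    rw [map_mul, hq1, hq2]; norm_num
  obtain ⟨t, ht⟩ := (quadraticChar_one_iff_isSquare (mul_ne_zero h10 h50)).1 hq
  exact ⟨t, by rw [← ht]; push_cast; ring⟩

/-- Thue's lemma for the congruence `x ≡ t y`. -/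
theorem thue (l : ℕ) [hl : Fact l.Prime] (t : ZMod l) :
    ∃ x y : ℤ, (x : ZMod l) = t * y ∧ (x ≠ 0 ∨ y ≠ 0) ∧ x ^ 2 < l ∧ y ^ 2 < l := by
  set n := Nat.sqrt l with hn
  have hn1 : n * n ≤ l := Nat.sqrt_le l
  have hn2 : l < (n + 1) * (n + 1) := Nat.lt_succ_sqrt l
  have hn3 : n * n < l := by
    rcases hn1.lt_or_eq with h | h
    · exact h
    · exfalso
      exact hl.out.not_isSquare ⟨n, h.symm⟩
  obtain ⟨⟨a, b⟩, -, ⟨a', b'⟩, -, hne, heq⟩ :=
    Finset.exists_ne_map_eq_of_card_lt_of_maps_to
      (s := (Finset.univ : Finset (Fin (n + 1) × Fin (n + 1)))) (t := (Finset.univ : Finset (ZMod l)))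
      (by rw [Finset.card_univ, Finset.card_univ, Fintype.card_prod, Fintype.card_fin, ZMod.card]
          exact hn2)
      (f := fun z => ((z.1 : ℕ) : ZMod l) - t * ((z.2 : ℕ) : ZMod l)) (fun _ _ => Finset.mem_univ _)
  refine ⟨(a : ℤ) - a', (b : ℤ) - b', ?_, ?_, ?_, ?_⟩
  · push_cast
    simp only at heq
    linear_combination heq
  · by_contra hcon
    push Not at hcon
    apply hne
    have h1 : (a : ℕ) = a' := by omega
    have h2 : (b : ℕ) = b' := by omega
    exact Prod.ext (Fin.ext h1) (Fin.ext h2)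
  · have h1 : (a : ℤ) ≤ n := by have := a.2; omega
    have h2 : (a' : ℤ) ≤ n := by have := a'.2; omega
    have h3 : (0 : ℤ) ≤ (a : ℕ) := Int.natCast_nonneg _
    have h4 : (0 : ℤ) ≤ (a' : ℕ) := Int.natCast_nonneg _
    have h5 : ((n : ℤ)) * n < l := by exact_mod_cast hn3
    nlinarith
  · have h1 : (b : ℤ) ≤ n := by have := b.2; omega
    have h2 : (b' : ℤ) ≤ n := by have := b'.2; omega
    have h3 : (0 : ℤ) ≤ (b : ℕ) := Int.natCast_nonneg _
    have h4 : (0 : ℤ) ≤ (b' : ℕ) := Int.natCast_nonneg _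
    have h5 : ((n : ℤ)) * n < l := by exact_mod_cast hn3
    nlinarith

theorem not_one (l : ℕ) (h4 : l % 4 = 3) (x y : ℤ) : x ^ 2 + 5 * y ^ 2 ≠ l := by
  intro h
  obtain ⟨a, rfl | rfl⟩ := Int.even_or_odd' x <;> obtain ⟨b, rfl | rfl⟩ := Int.even_or_odd' y <;>
    ring_nf at h <;> omega

/-- **For a prime `l` with `l ≡ 3 (mod 4)` and `l ≡ 3 (mod 5)`, `2 l = x² + 5 y²`.** -/
theorem exists_two_mul (l : ℕ) [hl : Fact l.Prime] (h4 : l % 4 = 3) (h5 : l % 5 = 3) :
    ∃ x y : ℤ, x ^ 2 + 5 * y ^ 2 = 2 * l := by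
  obtain ⟨t, ht⟩ := exists_sq_eq l h4 h5
  obtain ⟨x, y, hxy, hne, hx, hy⟩ := thue l t
  have hdvd : (l : ℤ) ∣ x ^ 2 + 5 * y ^ 2 := by
    rw [← ZMod.intCast_zmod_eq_zero_iff_dvd]
    push_cast
    rw [hxy]
    linear_combination (y : ZMod l) ^ 2 * ht
  obtain ⟨k, hk⟩ := hdvd
  have hlpos : (0 : ℤ) < l := by exact_mod_cast hl.out.pos
  have hpos : 0 < x ^ 2 + 5 * y ^ 2 := by
    rcases hne with h | h
    · have := pow_pos (abs_pos.2 h) 2
      rw [sq_abs] at this
      nlinarith [sq_nonneg y]
    · have := pow_pos (abs_pos.2 h) 2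
      rw [sq_abs] at this
      nlinarith [sq_nonneg x]
  have hk0 : 0 < k := by
    by_contra hcon
    push Not at hcon
    nlinarith
  have hk6 : k < 6 := by
    by_contra hcon
    push Not at hcon
    nlinarith
  have hcases : k = 1 ∨ k = 2 ∨ k = 3 ∨ k = 4 ∨ k = 5 := by omega
  rcases hcases with rfl | rfl | rfl | rfl | rfl
  · exact absurd (by rw [hk, mul_one]) (not_one l h4 x y)
  · exact ⟨x, y, by rw [hk, mul_comm]⟩
  · -- `3 l`
    have h3 : (3 : ℤ) ∣ (x - y) * (x + y) := by
      refine ⟨l - 2 * y ^ 2, ?_⟩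
      linear_combination hk
    rcases Int.Prime.dvd_mul' Nat.prime_three h3 with h | h
    · obtain ⟨c, hc⟩ := h
      push_cast at hc
      obtain rfl : x = y + 3 * c := by linarith
      refine ⟨2 * y + c, c, ?_⟩
      have : 3 * ((2 * y + c) ^ 2 + 5 * c ^ 2) = 3 * (2 * (l : ℤ)) := by linear_combination 2 * hk
      linarith
    · obtain ⟨c, hc⟩ := h
      push_cast at hc
      obtain rfl : x = -y + 3 * c := by linarith
      refine ⟨2 * y - c, c, ?_⟩
      have : 3 * ((2 * y - c) ^ 2 + 5 * c ^ 2) = 3 * (2 * (l : ℤ)) := by linear_combination 2 * hk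
      linarith
  · exfalso
    obtain ⟨a, rfl | rfl⟩ := Int.even_or_odd' x <;> obtain ⟨b, rfl | rfl⟩ := Int.even_or_odd' y
    · refine not_one l h4 a b ?_
      linarith
    · ring_nf at hk; omega
    · ring_nf at hk; omega
    · have h8 : Even (a * (a + 1)) := Int.even_mul_succ_self a
      have h9 : Even (b * (b + 1)) := Int.even_mul_succ_self b
      obtain ⟨u, hu⟩ := h8
      obtain ⟨v, hv⟩ := h9
      have h10 : 8 * u + 40 * v + 6 = 4 * (l : ℤ) := by linear_combination hk - 4 * hu - 20 * hv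
      omega
  · have h6 : (5 : ℤ) ∣ x ^ 2 := ⟨l - y ^ 2, by linear_combination hk⟩
    have h7 : (5 : ℤ) ∣ x := Int.Prime.dvd_pow' (by norm_num : Nat.Prime 5) h6
    obtain ⟨c, rfl⟩ := h7
    exfalso
    refine not_one l h4 y c ?_
    linarith

end Cfsg.Agent.H560.TwoForm
end

-- part: H560/DivRing
section
/-!
Division rings containing quaternion elements: the quaternion algebra `(-1,-1)` over
`ℚ(√5, ζ_r)` is split for every prime `r ∉ {2, 5}`, expressed inside a division ring.
-/

set_option autoImplicit false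
set_option linter.style.haveILetI false

namespace Cfsg.Agent.H560.DivRing

section

variable {D : Type*} [DivisionRing D] [CharZero D]

/-- A quaternion with commuting coefficients of norm zero vanishes. -/
theorem eq_zero_of_norm_eq_zero {i j A B C E : D} (hi : i * i = -1) (hj : j * j = -1)
    (hij : j * i = -(i * j)) (hAi : Commute A i) (hAj : Commute A j) (hBi : Commute B i)
    (hBj : Commute B j) (hCi : Commute C i) (hCj : Commute C j) (hEi : Commute E i)
    (hEj : Commute E j) (hAB : Commute A B) (hAC : Commute A C) (hAE : Commute A E)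
    (hBC : Commute B C) (hBE : Commute B E) (hCE : Commute C E)
    (h : A * A + B * B + C * C + E * E = 0) : A = 0 := by
  have h20 : (2 : D) ≠ 0 := two_ne_zero
  have hi0 : i ≠ 0 := by
    rintro rfl
    rw [mul_zero] at hi
    exact one_ne_zero (neg_eq_zero.1 hi.symm)
  have hj0 : j ≠ 0 := by
    rintro rfl
    rw [mul_zero] at hj
    exact one_ne_zero (neg_eq_zero.1 hj.symm)
  obtain ⟨k, hk⟩ : ∃ k, k = i * j := ⟨_, rfl⟩
  have hji : j * i = -k := by rw [hij, hk]
  have hki : k * i = j := by
    rw [hk, mul_assoc, hji, hk, mul_neg, ← mul_assoc, hi, neg_one_mul, neg_neg]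
  have hik : i * k = -j := by rw [hk, ← mul_assoc, hi, neg_one_mul]
  have hkj : k * j = -i := by rw [hk, mul_assoc, hj, mul_neg_one]
  have hjk : j * k = i := by
    rw [hk, ← mul_assoc, hij, neg_mul, mul_assoc, hj, mul_neg_one, neg_neg]
  have hkk : k * k = -1 := by
    nth_rw 1 [hk]
    rw [mul_assoc, hjk, hi]
  have hAk : Commute A k := by rw [hk]; exact hAi.mul_right hAj
  have hBk : Commute B k := by rw [hk]; exact hBi.mul_right hBj
  have hCk : Commute C k := by rw [hk]; exact hCi.mul_right hCj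
  have hEk : Commute E k := by rw [hk]; exact hEi.mul_right hEj
  obtain ⟨v, hv⟩ : ∃ v, v = B * i + C * j + E * k := ⟨_, rfl⟩
  have hAv : Commute A v := by
    rw [hv]
    exact ((hAB.mul_right hAi).add_right (hAC.mul_right hAj)).add_right (hAE.mul_right hAk)
  have hvv : v * v = -(B * B + C * C + E * E) := by
    rw [hv]
    have e1 : B * i * (B * i) = -(B * B) := by
      rw [hBi.symm.mul_mul_mul_comm, hi, mul_neg_one]
    have e2 : C * j * (C * j) = -(C * C) := by
      rw [hCj.symm.mul_mul_mul_comm, hj, mul_neg_one]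
    have e3 : E * k * (E * k) = -(E * E) := by
      rw [hEk.symm.mul_mul_mul_comm, hkk, mul_neg_one]
    have e4 : B * i * (C * j) = (B * C) * k := by
      rw [hCi.symm.mul_mul_mul_comm, ← hk]
    have e5 : C * j * (B * i) = -((B * C) * k) := by
      rw [hBj.symm.mul_mul_mul_comm, hji, mul_neg, hBC.eq]
    have e6 : B * i * (E * k) = -((B * E) * j) := by
      rw [hEi.symm.mul_mul_mul_comm, hik, mul_neg]
    have e7 : E * k * (B * i) = (B * E) * j := by
      rw [hBk.symm.mul_mul_mul_comm, hki, hBE.eq]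
    have e8 : C * j * (E * k) = (C * E) * i := by
      rw [hEj.symm.mul_mul_mul_comm, hjk]
    have e9 : E * k * (C * j) = -((C * E) * i) := by
      rw [hCk.symm.mul_mul_mul_comm, hkj, mul_neg, hCE.eq]
    rw [add_mul, add_mul, mul_add, mul_add, mul_add, mul_add, mul_add, mul_add, e1, e2, e3, e4, e5,
      e6, e7, e8, e9]
    abel
  have hprod : (A + v) * (A - v) = 0 := by
    rw [add_mul, mul_sub, mul_sub, hvv, hAv.eq]
    have : A * A - v * A + (v * A - -(B * B + C * C + E * E)) = A * A + B * B + C * C + E * E := by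
      abel
    rw [this, h]
  -- the key: `A = v` implies `A = 0`
  have key : ∀ A' : D, Commute A' i → Commute A' j → A' = v → A' = 0 := by
    intro A' h1 h2 h3
    have h4 : v * i = i * v := by rw [← h3]; exact h1
    have h5 : v * i = -B - C * k + E * j := by
      rw [hv, add_mul, add_mul, mul_assoc, mul_assoc, mul_assoc, hi, hji, hki, mul_neg_one, mul_neg]
      abel
    have h6 : i * v = -B + C * k - E * j := by
      rw [hv, mul_add, mul_add, ← mul_assoc, ← mul_assoc, ← mul_assoc, ← hBi.eq, ← hCi.eq, ← hEi.eq,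
        mul_assoc, mul_assoc, mul_assoc, hi, ← hk, hik, mul_neg_one, mul_neg]
      abel
    have h7 : C * k = E * j := by
      have h8 : (2 : D) * (C * k - E * j) = 0 := by
        have : (2 : D) * (C * k - E * j) = (-B + C * k - E * j) - (-B - C * k + E * j) := by
          rw [two_mul]; abel
        rw [this, ← h5, ← h6, h4, sub_self]
      have h9 := (mul_eq_zero.1 h8).resolve_left h20
      exact sub_eq_zero.1 h9
    have h10 : C * j = -(E * k) := by
      have h11 : C * k * i = E * j * i := by rw [h7]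
      rw [mul_assoc, mul_assoc, hki, hji, mul_neg] at h11
      exact h11
    have h12 : v = B * i := by rw [hv, h10]; abel
    have h13 : A' * j = j * A' := h2
    rw [h3, h12, ← mul_assoc j, ← hBj.eq, mul_assoc B j i, hij, mul_neg, mul_assoc] at h13
    have h14 : (2 : D) * (B * (i * j)) = 0 := by
      rw [two_mul]
      nth_rw 1 [h13]
      abel
    have h15 := (mul_eq_zero.1 h14).resolve_left h20
    have h16 : B = 0 := by
      rcases mul_eq_zero.1 h15 with h | h
      · exact h
      · rcases mul_eq_zero.1 h with h | h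
        · exact absurd h hi0
        · exact absurd h hj0
    rw [h3, h12, h16, zero_mul]
  rcases mul_eq_zero.1 hprod with h1 | h1
  · have h2 := key (-A) hAi.neg_left hAj.neg_left (neg_eq_of_add_eq_zero_right h1)
    exact neg_eq_zero.1 h2
  · exact key A hAi hAj (sub_eq_zero.1 h1)

theorem commute_aeval {m x : D} (h : Commute m x) (P : Polynomial ℚ) :
    Commute (Polynomial.aeval m P) x := by
  induction P using Polynomial.induction_on' with
  | add p q hp hq => rw [map_add]; exact hp.add_left hq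
  | monomial n a =>
    rw [Polynomial.aeval_monomial]
    exact (show Commute (algebraMap ℚ D a) x from Algebra.commutes a x).mul_left (h.pow_left n)

/-- **The quaternion algebra `(-1,-1)` over `ℚ(√5, ζ_r)` is split**: in a division ring of
characteristic zero containing anticommuting square roots `i`, `j` of `-1` and a square root of `5`
commuting with them, there is no element of prime order `r ∉ {2, 5}` commuting with everything. -/
theorem eq_one_of_commute {i j w m : D} (hi : i * i = -1) (hj : j * j = -1)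
    (hij : j * i = -(i * j)) (hw : w * w = 5) (hwi : Commute w i) (hwj : Commute w j)
    (hwm : Commute w m) (hmi : Commute m i) (hmj : Commute m j) {r : ℕ} (hr : r.Prime)
    (hr2 : r ≠ 2) (hr5 : r ≠ 5) (hm : m ^ r = 1) : m = 1 := by
  by_contra hm1
  have hr0 : 0 < r := hr.pos
  -- the prime `l`
  have hco : Nat.Coprime 20 r := by
    have h1 : Nat.Coprime 2 r := (Nat.coprime_primes Nat.prime_two hr).2 (Ne.symm hr2)
    have h2 : Nat.Coprime 5 r := (Nat.coprime_primes (by norm_num) hr).2 (Ne.symm hr5)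
    have h3 : (20 : ℕ) = 2 * 2 * 5 := by norm_num
    rw [h3]
    exact (h1.mul_left h1).mul_left h2
  obtain ⟨k, hk1, hk2⟩ := Nat.chineseRemainder hco 3 (r - 1)
  have hkc : k.Coprime (20 * r) := by
    have h1 : Nat.Coprime k 20 := by
      have h2 : Nat.gcd k 20 = Nat.gcd 3 20 := hk1.gcd_eq
      rw [Nat.Coprime, h2]
      norm_num
    have h3 : Nat.Coprime k r := by
      have h4 : Nat.gcd k r = Nat.gcd (r - 1) r := hk2.gcd_eq
      rw [Nat.Coprime, h4]
      exact (Nat.coprime_self_sub_left (by omega)).2 (Nat.coprime_one_left r)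
    exact h1.mul_right h3
  obtain ⟨l, -, hl, hlk⟩ := Nat.forall_exists_prime_gt_and_modEq 0 (q := 20 * r) (a := k)
    (by positivity) hkc
  haveI : Fact l.Prime := ⟨hl⟩
  have hl20 : l ≡ 3 [MOD 20] := (hlk.of_dvd (dvd_mul_right 20 r)).trans hk1
  have hlr : l ≡ r - 1 [MOD r] := (hlk.of_dvd (dvd_mul_left r 20)).trans hk2
  have hl20' : l % 20 = 3 := hl20
  have hl4 : l % 4 = 3 := by omega
  have hl5 : l % 5 = 3 := by omega
  obtain ⟨Y, Z, hYZ⟩ := GaussPoly.exists_gauss l hl4
  obtain ⟨x, y, hxy⟩ := TwoForm.exists_two_mul l hl4 hl5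
  -- evaluate at `m`
  obtain ⟨a, ha⟩ : ∃ a, a = Polynomial.aeval m Y := ⟨_, rfl⟩
  obtain ⟨b, hb⟩ : ∃ b, b = Polynomial.aeval m Z := ⟨_, rfl⟩
  have hcomm : ∀ z : D, Commute m z → Commute a z ∧ Commute b z := by
    intro z hz
    rw [ha, hb]
    exact ⟨commute_aeval hz Y, commute_aeval hz Z⟩
  obtain ⟨hai, hbi⟩ := hcomm i hmi
  obtain ⟨haj, hbj⟩ := hcomm j hmj
  obtain ⟨haw, hbw⟩ := hcomm w hwm.symm
  obtain ⟨ham, hbm⟩ := hcomm m (Commute.refl m)
  have hab : Commute a b := (hcomm b hbm.symm).1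
  have hphi : Polynomial.aeval m (Polynomial.cyclotomic l ℚ) = -m ^ (r - 1) := by
    have h1 := congrArg (Polynomial.aeval m) (Polynomial.cyclotomic_prime_mul_X_sub_one ℚ l)
    rw [map_mul, map_sub, map_sub, map_pow, map_one, Polynomial.aeval_X] at h1
    have h2 : m ^ l = m ^ (r - 1) := by
      rw [← Nat.mod_add_div l r, pow_add, pow_mul, hm, one_pow, mul_one, hlr,
        Nat.mod_eq_of_lt (by omega)]
    rw [h2] at h1
    have h3 : m ^ (r - 1) * m = 1 := by rw [← pow_succ, Nat.sub_add_cancel hr0, hm]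
    have h4 : -m ^ (r - 1) * (m - 1) = m ^ (r - 1) - 1 := by
      rw [mul_sub, neg_mul, h3, mul_one]; abel
    rw [← h4] at h1
    exact mul_right_cancel₀ (sub_ne_zero.2 hm1) h1
  have hodd : Odd r := hr.odd_of_ne_two hr2
  obtain ⟨s, hs⟩ := hodd
  have hrs : r - 1 = s + s := by omega
  obtain ⟨u, hu⟩ : ∃ u, u = m ^ s := ⟨_, rfl⟩
  have huu : m ^ (r - 1) = u * u := by rw [hrs, pow_add, hu]
  have hmain : (4 : D) * (u * u) + a * a + (l : D) * (b * b) = 0 := by
    have h1 := congrArg (Polynomial.aeval m) hYZ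
    rw [map_mul, map_add, map_mul, map_pow, map_pow, map_natCast, hphi, huu, ← ha, ← hb] at h1
    have h4 : (Polynomial.aeval m) (4 : Polynomial ℚ) = (4 : D) := by
      rw [show (4 : Polynomial ℚ) = ((4 : ℕ) : Polynomial ℚ) by norm_num, map_natCast]; norm_num
    rw [h4, mul_neg, sq, sq] at h1
    rw [add_assoc, ← h1]
    exact add_neg_cancel _
  have hui : Commute u i := by rw [hu]; exact hmi.pow_left s
  have huj : Commute u j := by rw [hu]; exact hmj.pow_left s
  have huw : Commute u w := by rw [hu]; exact hwm.symm.pow_left s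
  have hua : Commute u a := by rw [hu]; exact (ham.symm).pow_left s
  have hub : Commute u b := by rw [hu]; exact (hbm.symm).pow_left s
  -- the coefficients
  have hxc : ∀ z : D, Commute (x : D) z := fun z => Int.cast_commute x z
  have hyc : ∀ z : D, Commute (y : D) z := fun z => Int.cast_commute y z
  have h2c : ∀ z : D, Commute (2 : D) z := fun z => Commute.ofNat_left 2 z
  have h4c : ∀ z : D, Commute (4 : D) z := fun z => Commute.ofNat_left 4 z
  obtain ⟨c, hc⟩ : ∃ c : D, c = (x : D) + (y : D) * w := ⟨_, rfl⟩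
  obtain ⟨e, he⟩ : ∃ e : D, e = (x : D) - (y : D) * w := ⟨_, rfl⟩
  have hcz : ∀ z : D, Commute w z → Commute c z ∧ Commute e z := by
    intro z hz
    rw [hc, he]
    exact ⟨(hxc z).add_left ((hyc z).mul_left hz), (hxc z).sub_left ((hyc z).mul_left hz)⟩
  have hcc : c * c + e * e = 4 * (l : D) := by
    have h1 : (y : D) * w * ((y : D) * w) = ((5 * y ^ 2 : ℤ) : D) := by
      rw [(hyc w).symm.mul_mul_mul_comm, hw]
      push_cast
      rw [sq, ((Commute.ofNat_left 5 ((y : D) * (y : D))).eq)]
    have h2 : c * c + e * e = 2 * ((x : D) * (x : D)) + 2 * ((y : D) * w * ((y : D) * w)) := by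
      rw [hc, he]; noncomm_ring
    rw [h2, h1]
    have h3 : (((2 * (x * x) + 2 * (5 * y ^ 2) : ℤ)) : D) = ((4 * (l : ℤ) : ℤ) : D) := by
      congr 1
      linear_combination 2 * hxy
    push_cast at h3 ⊢
    exact h3
  have hzero : (4 * u) * (4 * u) + (2 * a) * (2 * a) + (c * b) * (c * b) + (e * b) * (e * b) = 0 := by
    have h1 : (4 * u) * (4 * u) = 4 * (4 * (u * u)) := by
      rw [(h4c u).symm.mul_mul_mul_comm, mul_assoc]
    have h2 : (2 * a) * (2 * a) = 4 * (a * a) := by
      rw [(h2c a).symm.mul_mul_mul_comm]; norm_num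
    have hcb := (hcz b hbw.symm).1
    have heb := (hcz b hbw.symm).2
    have h3 : (c * b) * (c * b) = (c * c) * (b * b) := hcb.symm.mul_mul_mul_comm _ _
    have h4 : (e * b) * (e * b) = (e * e) * (b * b) := heb.symm.mul_mul_mul_comm _ _
    rw [h1, h2, h3, h4, add_assoc, ← add_mul, hcc, mul_assoc 4 (l : D), ← mul_add, ← mul_add, hmain,
      mul_zero]
  obtain ⟨hci, hei⟩ := hcz i hwi
  obtain ⟨hcj, hej⟩ := hcz j hwj
  obtain ⟨hcu, heu⟩ := hcz u huw.symm
  obtain ⟨hca, hea⟩ := hcz a haw.symm
  obtain ⟨hcb, heb⟩ := hcz b hbw.symm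
  obtain ⟨hcw, hew⟩ := hcz w (Commute.refl w)
  obtain ⟨-, hec⟩ := hcz c hcw.symm
  have hfin : (4 : D) * u = 0 := by
    refine eq_zero_of_norm_eq_zero (A := 4 * u) (B := 2 * a) (C := c * b) (E := e * b) hi hj hij
      ((h4c _).mul_left hui) ((h4c _).mul_left huj) ((h2c _).mul_left hai) ((h2c _).mul_left haj)
      (hci.mul_left hbi) (hcj.mul_left hbj) (hei.mul_left hbi) (hej.mul_left hbj)
      ?_ ?_ ?_ ?_ ?_ ?_ hzero
    · exact (h4c _).mul_left ((h2c u).symm.mul_right hua)
    · exact (h4c _).mul_left (hcu.symm.mul_right hub)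
    · exact (h4c _).mul_left (heu.symm.mul_right hub)
    · exact (h2c _).mul_left (hca.symm.mul_right hab)
    · exact (h2c _).mul_left (hea.symm.mul_right hab)
    · refine Commute.mul_left (Commute.mul_right hec.symm hcb) (Commute.mul_right heb.symm (Commute.refl b))
  have hu0 : u = 0 := (mul_eq_zero.1 hfin).resolve_left (by
    have h := (Nat.cast_ne_zero (R := D)).2 (four_ne_zero : (4 : ℕ) ≠ 0)
    exact_mod_cast h)
  have hm0 : m ≠ 0 := by
    rintro rfl
    rw [zero_pow hr0.ne'] at hm
    exact zero_ne_one hm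
  rw [hu] at hu0
  exact pow_ne_zero s hm0 hu0

/-- The algebra `(-1, 5)` over `ℚ` is split. -/
theorem false_of_anticomm {t w : D} (ht : t * t = -1) (hw : w * w = 5) (htw : t * w = -(w * t)) :
    False := by
  have h20 : (2 : D) ≠ 0 := two_ne_zero
  have h1 : (1 + 2 * t + w) * (1 - 2 * t - w) = 0 := by
    have h2 : (1 + 2 * t + w) * (1 - 2 * t - w) =
        1 - 4 * (t * t) - 2 * (t * w + w * t) - w * w := by noncomm_ring
    rw [h2, ht, hw, htw]
    norm_num
  have h3 : ∀ z : D, w = z - 2 * t → Commute t z → False := by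
    intro z hz hc
    have h4 : t * w = w * t := by
      rw [hz, mul_sub, sub_mul, hc.eq]
      congr 1
      rw [← mul_assoc, mul_assoc 2, ((Commute.ofNat_left 2 t).eq).symm, mul_assoc]
    have h5 : (2 : D) * (w * t) = 0 := by
      rw [two_mul]
      nth_rw 1 [← h4]
      rw [htw, neg_add_cancel]
    rcases mul_eq_zero.1 ((mul_eq_zero.1 h5).resolve_left h20) with h | h
    · rw [h, mul_zero] at hw
      norm_num at hw
    · rw [h, mul_zero] at ht
      exact one_ne_zero (neg_eq_zero.1 ht.symm)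
  rcases mul_eq_zero.1 h1 with h | h
  · refine h3 (-1) ?_ ((Commute.one_right t).neg_right)
    rw [eq_neg_of_add_eq_zero_right h]
    abel
  · refine h3 1 ?_ (Commute.one_right t)
    rw [← sub_eq_zero.1 h]

end

end Cfsg.Agent.H560.DivRing
end

-- part: H560/Icos
section
/-!
The binary icosahedral group `SL(2,5)` inside a division ring: the central square root of `5`.
-/

set_option autoImplicit false
set_option linter.style.haveILetI false

namespace Cfsg.Agent.H560.Icos

open Cfsg.Agent.PermutationGroups.AutSL25 Cfsg.Agent.H560.SL25Facts Cfsg.Agent.H560.DivRing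

variable {D : Type*} [DivisionRing D] (F : SL25 →* D)

theorem map_neg_one (hF : Function.Injective F) : F (-1) = -1 := by
  have h1 : F (-1) * F (-1) = 1 := by
    rw [← map_mul, neg_mul_neg, one_mul, map_one]
  rcases mul_self_eq_one_iff.1 h1 with h | h
  · exfalso
    apply neg_one_ne
    apply hF
    rw [h, map_one]
  · exact h

theorem ii (hF : Function.Injective F) : F S * F S = -1 := by
  rw [← map_mul, relS, map_neg_one F hF]

theorem jj (hF : Function.Injective F) : F J * F J = -1 := by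
  rw [← map_mul, relJ, map_neg_one F hF]

theorem ji (hF : Function.Injective F) : F J * F S = -(F S * F J) := by
  rw [← map_mul, relJS, map_mul, map_neg_one F hF, map_mul, neg_one_mul]

theorem two_ne (hF : Function.Injective F) : (2 : D) ≠ 0 := by
  intro h
  have h1 : (-1 : D) = 1 := by
    have h2 : (1 : D) + 1 = 0 := by rw [one_add_one_eq_two]; exact h
    exact neg_eq_of_add_eq_zero_left h2
  apply neg_one_ne
  apply hF
  rw [map_neg_one F hF, h1, map_one]

/-- the trace of `T` -/
def c : D := F T + F T⁻¹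

theorem inv_mul_T : F T⁻¹ * F T = 1 := by rw [← map_mul, inv_mul_cancel, map_one]

theorem T_mul_inv : F T * F T⁻¹ = 1 := by rw [← map_mul, mul_inv_cancel, map_one]

theorem W_rel (hF : Function.Injective F) :
    (F S * F T) * (F S * F T) = F S * F T - 1 := by
  obtain ⟨W, hW⟩ : ∃ W, W = F S * F T := ⟨_, rfl⟩
  have h3 : W * W * W = -1 := by
    rw [hW, ← map_mul, ← map_mul, ← map_mul, relST, map_neg_one F hF]
  have h1 : W ≠ -1 := by
    rw [hW, ← map_mul, ← map_neg_one F hF]
    intro h
    exact ST_ne (hF h)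
  have h4 : (W + 1) * (W * W - W + 1) = 0 := by
    have : (W + 1) * (W * W - W + 1) = W * W * W + 1 := by noncomm_ring
    rw [this, h3, neg_add_cancel]
  have h5 := (mul_eq_zero.1 h4).resolve_left (fun h => h1 (eq_neg_of_add_eq_zero_left h))
  rw [← hW]
  have h6 : W * W = (W * W - W + 1) + (W - 1) := by abel
  rw [h6, h5, zero_add]

theorem commute_S (hF : Function.Injective F) : Commute (c F) (F S) := by
  have hii := ii F hF
  have hW := W_rel F hF
  obtain ⟨i, hi⟩ : ∃ i, i = F S := ⟨_, rfl⟩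
  obtain ⟨b, hb⟩ : ∃ b, b = F T := ⟨_, rfl⟩
  obtain ⟨b', hb'⟩ : ∃ b', b' = F T⁻¹ := ⟨_, rfl⟩
  have h1 : b' * b = 1 := by rw [hb', hb]; exact inv_mul_T F
  have hb0 : b ≠ 0 := by
    rintro rfl
    rw [mul_zero] at h1
    exact zero_ne_one h1
  rw [← hi] at hii hW
  rw [← hb] at hW
  have h2 : b' = (1 - i * b) * i := by
    apply mul_right_cancel₀ hb0
    rw [h1, mul_assoc, sub_mul, one_mul, hW]
    abel
  have hc : c F = b + b' := by rw [hb, hb']; rfl
  rw [hc, ← hi]
  show (b + b') * i = i * (b + b')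
  rw [h2]
  have e1 : (b + (1 - i * b) * i) * i = b * i + i * i - i * b * (i * i) := by noncomm_ring
  have e2 : i * (b + (1 - i * b) * i) = i * b + i * i - (i * i) * b * i := by noncomm_ring
  rw [e1, e2, hii]
  noncomm_ring

theorem commute_T : Commute (c F) (F T) := by
  show (F T + F T⁻¹) * F T = F T * (F T + F T⁻¹)
  rw [add_mul, mul_add, inv_mul_T, T_mul_inv]

/-- the subgroup of elements commuting with a given element of `D` -/
def cent (x : D) : Subgroup SL25 where
  carrier := {g | Commute x (F g)}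
  mul_mem' := by
    intro a b ha hb
    show Commute x (F (a * b))
    rw [map_mul]
    exact Commute.mul_right ha hb
  one_mem' := by
    show Commute x (F 1)
    rw [map_one]
    exact Commute.one_right x
  inv_mem' := by
    intro a ha
    have h1 : F a⁻¹ = (F a)⁻¹ := by
      apply eq_inv_of_mul_eq_one_left
      rw [← map_mul, inv_mul_cancel, map_one]
    show Commute x (F a⁻¹)
    rw [h1]
    exact Commute.inv_right₀ ha

theorem commute_of (x : D) (h1 : Commute x (F S)) (h2 : Commute x (F T)) (g : SL25) :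
    Commute x (F g) := by
  have h3 : Subgroup.closure ({S, T} : Set SL25) ≤ cent F x := by
    rw [Subgroup.closure_le]
    rintro y (rfl | hy)
    · exact h1
    · rw [Set.mem_singleton_iff] at hy
      rw [hy]
      exact h2
  rw [closure_eq_top] at h3
  exact h3 (Subgroup.mem_top g)

theorem commute_c (hF : Function.Injective F) (g : SL25) : Commute (c F) (F g) :=
  commute_of F _ (commute_S F hF) (commute_T F) g

theorem T_pow (hF : Function.Injective F) :
    F T * F T * F T * F T + F T * F T * F T + F T * F T + F T + 1 = 0 := by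
  obtain ⟨b, hb⟩ : ∃ b, b = F T := ⟨_, rfl⟩
  rw [← hb]
  have h1 : b * b * b * b * b = 1 := by
    rw [hb, ← map_mul, ← map_mul, ← map_mul, ← map_mul, relT, map_one]
  have h2 : b ≠ 1 := by
    rw [hb, ← map_one F]
    intro h
    exact T_ne (hF h)
  have h3 : (b - 1) * (b * b * b * b + b * b * b + b * b + b + 1) = 0 := by
    have : (b - 1) * (b * b * b * b + b * b * b + b * b + b + 1) = b * b * b * b * b - 1 := by
      noncomm_ring
    rw [this, h1, sub_self]
  exact (mul_eq_zero.1 h3).resolve_left (sub_ne_zero.2 h2)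

theorem T_inv : F T⁻¹ = F T * F T * F T * F T := by
  rw [← map_mul, ← map_mul, ← map_mul]
  congr 1
  rw [inv_eq_iff_mul_eq_one, ← mul_assoc, ← mul_assoc, ← mul_assoc, relT]

/-- `c² + c = 1`. -/
theorem c_rel (hF : Function.Injective F) : c F * c F + c F = 1 := by
  have h5 := T_pow F hF
  have h6 : c F = F T + F T * F T * F T * F T := by
    show F T + F T⁻¹ = _
    rw [T_inv]
  have h7 : F T * F T * F T * F T * F T = 1 := by
    rw [← map_mul, ← map_mul, ← map_mul, ← map_mul, relT, map_one]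
  rw [h6]
  obtain ⟨b, hb⟩ : ∃ b, b = F T := ⟨_, rfl⟩
  rw [← hb] at h5 h7 ⊢
  have h8 : (b + b * b * b * b) * (b + b * b * b * b) + (b + b * b * b * b) =
      (b * b * b * b + b * b * b + b * b + b + 1) - 1 + 2 * (b * b * b * b * b) +
        (b * b * b * b * b) * (b * b * b) - b * b * b := by noncomm_ring
  rw [h8, h5, h7]
  noncomm_ring

/-- `w = 2 c + 1` is a square root of `5`. -/
theorem w_sq (hF : Function.Injective F) : (2 * c F + 1) * (2 * c F + 1) = 5 := by
  have h1 : (2 * c F + 1) * (2 * c F + 1) = 4 * (c F * c F + c F) + 1 := by noncomm_ring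
  rw [h1, c_rel F hF]
  norm_num

theorem commute_w (hF : Function.Injective F) (g : SL25) : Commute (2 * c F + 1) (F g) :=
  ((Commute.ofNat_left 2 _).mul_left (commute_c F hF g)).add_left (Commute.one_left _)

/-- `T² + T⁻² = -1 - c`. -/
theorem c_two (hF : Function.Injective F) : F (T * T) + F (T * T)⁻¹ = -1 - c F := by
  have h1 : F (T * T) = F T * F T := map_mul _ _ _
  have h2 : F (T * T)⁻¹ = F T⁻¹ * F T⁻¹ := by rw [mul_inv_rev, map_mul]
  have h3 : c F * c F = F T * F T + F T⁻¹ * F T⁻¹ + 2 := by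
    show (F T + F T⁻¹) * (F T + F T⁻¹) = _
    have h0 : (2 : D) = 1 + 1 := one_add_one_eq_two.symm
    rw [add_mul, mul_add, mul_add, inv_mul_T, T_mul_inv, h0]
    abel
  have h4 := c_rel F hF
  rw [h1, h2]
  have h5 : F T * F T + F T⁻¹ * F T⁻¹ = c F * c F + c F - 2 - c F := by
    rw [h3]; abel
  rw [h5, h4]
  norm_num

end Cfsg.Agent.H560.Icos
end

-- part: H560/DivSub
section
/-!
Non-solvable finite subgroups of division rings.
-/

set_option autoImplicit false
set_option linter.style.haveILetI false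
set_option linter.unusedSectionVars false

namespace Cfsg.Agent.H560.DivSub

open Cfsg.Agent.PermutationGroups.AutSL25 Cfsg.Agent.H560.SL25Facts Cfsg.Agent.H560.DivRing
open Cfsg.Agent.H560.Icos Cfsg.Agent.H348 Cfsg.Agent.H560

/-- A division ring containing `SL(2,5)` has characteristic zero. -/
theorem charZero {D : Type*} [DivisionRing D] (F : SL25 →* D) (hF : Function.Injective F) :
    CharZero D := by
  obtain ⟨p, hp⟩ := CharP.exists D
  rcases CharP.char_is_prime_or_zero D p with hpp | h0
  · exfalso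
    haveI : Fact p.Prime := ⟨hpp⟩
    obtain ⟨a, b, hab⟩ := ZMod.sq_add_sq p (-1)
    have h2 := two_ne F hF
    have hii := ii F hF
    have hjj := jj F hF
    have hji := ji F hF
    let φ : ZMod p →+* D := ZMod.castHom (dvd_refl p) D
    have hc : ∀ (x : ZMod p) (z : D), Commute (φ x) z := by
      intro x z
      obtain ⟨n, rfl⟩ := ZMod.intCast_surjective x
      rw [map_intCast]
      exact Int.cast_commute n z
    -- the element `1 + a i + b j` has norm zero
    have h1 : (1 + (φ a * F S + φ b * F J)) * (1 - (φ a * F S + φ b * F J)) = 0 := by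
      have h3 : (φ a * F S + φ b * F J) * (φ a * F S + φ b * F J) = 1 := by
        have e1 : φ a * F S * (φ a * F S) = -(φ a * φ a) := by
          rw [(hc a (F S)).symm.mul_mul_mul_comm, hii, mul_neg_one]
        have e2 : φ b * F J * (φ b * F J) = -(φ b * φ b) := by
          rw [(hc b (F J)).symm.mul_mul_mul_comm, hjj, mul_neg_one]
        have e3 : φ a * F S * (φ b * F J) = (φ a * φ b) * (F S * F J) :=
          (hc b (F S)).symm.mul_mul_mul_comm _ _
        have e4 : φ b * F J * (φ a * F S) = -((φ a * φ b) * (F S * F J)) := by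
          rw [(hc a (F J)).symm.mul_mul_mul_comm, hji, mul_neg, (hc b (φ a)).eq]
        rw [add_mul, mul_add, mul_add, e1, e2, e3, e4]
        have h4 : φ a * φ a + φ b * φ b = -1 := by
          rw [← map_mul, ← map_mul, ← map_add, ← sq, ← sq, hab, map_neg, map_one]
        have h5 : -(φ a * φ a) + φ a * φ b * (F S * F J) +
            (-(φ a * φ b * (F S * F J)) + -(φ b * φ b)) = -(φ a * φ a + φ b * φ b) := by abel
        rw [h5, h4, neg_neg]
      have h6 : ∀ v : D, (1 + v) * (1 - v) = 1 - v * v := by intro v; noncomm_ring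
      rw [h6, h3, sub_self]
    have hij0 : F S * F J ≠ 0 := by
      intro h
      rcases mul_eq_zero.1 h with h | h
      · rw [h, mul_zero] at hii
        exact one_ne_zero (neg_eq_zero.1 hii.symm)
      · rw [h, mul_zero] at hjj
        exact one_ne_zero (neg_eq_zero.1 hjj.symm)
    -- hence `a i + b j = ± 1` commutes with `i` and with `j`
    have key : ∀ v : D, v = φ a * F S + φ b * F J → (∀ z : D, Commute v z) → False := by
      intro v hv hcom
      have h7 : v * F S = F S * v := (hcom (F S)).eq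
      have h8 : v * F S = -φ a - φ b * (F S * F J) := by
        rw [hv, add_mul, mul_assoc, hii, mul_assoc, hji, mul_neg_one, mul_neg]
        abel
      have h9 : F S * v = -φ a + φ b * (F S * F J) := by
        rw [hv, mul_add, ← mul_assoc, ← (hc a (F S)).eq, mul_assoc, hii, ← mul_assoc,
          ← (hc b (F S)).eq, mul_assoc, mul_neg_one]
      have h10 : (2 : D) * (φ b * (F S * F J)) = 0 := by
        have : (2 : D) * (φ b * (F S * F J)) = (-φ a + φ b * (F S * F J)) -
            (-φ a - φ b * (F S * F J)) := by rw [two_mul]; abel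
        rw [this, ← h8, ← h9, h7, sub_self]
      have h11 : φ b = 0 := by
        rcases mul_eq_zero.1 ((mul_eq_zero.1 h10).resolve_left h2) with h | h
        · exact h
        · exact absurd h hij0
      have h12 : v * F J = F J * v := (hcom (F J)).eq
      rw [hv, h11, zero_mul, add_zero, mul_assoc, ← mul_assoc (F J), ← (hc a (F J)).eq, mul_assoc,
        hji, mul_neg] at h12
      have h13 : (2 : D) * (φ a * (F S * F J)) = 0 := by
        rw [two_mul]
        nth_rw 1 [h12]
        rw [neg_add_cancel]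
      have h14 : φ a = 0 := by
        rcases mul_eq_zero.1 ((mul_eq_zero.1 h13).resolve_left h2) with h | h
        · exact h
        · exact absurd h hij0
      have h15 : φ a * φ a + φ b * φ b = -1 := by
        rw [← map_mul, ← map_mul, ← map_add, ← sq, ← sq, hab, map_neg, map_one]
      rw [h14, h11, mul_zero, add_zero] at h15
      exact one_ne_zero (neg_eq_zero.1 h15.symm)
    rcases mul_eq_zero.1 h1 with h | h
    · refine key (-1) ?_ (fun z => (Commute.one_left z).neg_left)
      exact (eq_neg_of_add_eq_zero_right h).symm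
    · refine key 1 ?_ (fun z => Commute.one_left z)
      exact sub_eq_zero.1 h
  · subst h0
    exact CharP.charP_to_charZero D

/-- An element of order four outside the subgroup `L` of index two, in a group with cyclic or
quaternion `2`-subgroups containing a quaternion subgroup. -/
theorem exists_order_four {H : Type*} [Group H] [Finite H] (hFPF : HasFPF H) (L : Subgroup H)
    (hidx : L.index = 2) (x y : H) (hx : x ^ (2 * 2) = 1) (hy : y * y = x ^ 2)
    (hxy : x * y = y * x⁻¹) (hne : x * y ≠ y * x) :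
    ∃ t : H, t ∉ L ∧ (t * t) * (t * t) = 1 := by
  haveI : Fact (Nat.Prime 2) := ⟨Nat.prime_two⟩
  obtain ⟨q, hq⟩ : ∃ q : QuaternionGroup 2 →* H, q = quatHom 2 x y hx hy hxy := ⟨_, rfl⟩
  have hqx : q (QuaternionGroup.a 1) = x := by
    rw [hq, quatHom_a]
    have := pw_natCast (2 * 2) x hx 1
    rw [Nat.cast_one, pow_one] at this
    exact this
  have hqy : q (QuaternionGroup.xa 0) = y := by
    rw [hq, quatHom_xa, pw_zero, mul_one]
  have hqrange : IsPGroup 2 q.range := by
    have h1 : IsPGroup 2 (QuaternionGroup 2) := by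
      apply IsPGroup.of_card (n := 3)
      rw [Nat.card_eq_fintype_card, QuaternionGroup.card]
      norm_num
    exact h1.of_surjective q.rangeRestrict q.rangeRestrict_surjective
  obtain ⟨P, hP⟩ := hqrange.exists_le_sylow
  have hxP : x ∈ (P : Subgroup H) := hP ⟨_, hqx⟩
  have hyP : y ∈ (P : Subgroup H) := hP ⟨_, hqy⟩
  have hPnc : ¬ IsCyclic (P : Subgroup H) := by
    intro hc
    apply hne
    have h1 : (⟨x, hxP⟩ : (P : Subgroup H)) * ⟨y, hyP⟩ = ⟨y, hyP⟩ * ⟨x, hxP⟩ :=
      IsCyclic.commGroup.mul_comm _ _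
    exact congrArg Subtype.val h1
  obtain ⟨n, ⟨eP⟩⟩ := (((hFPF.subgroup (P : Subgroup H)).cyclic_or_quaternion Nat.prime_two
    P.2).resolve_left hPnc).2
  obtain ⟨g, hg⟩ : ∃ g : QuaternionGroup (2 ^ n) →* H,
    g = (P : Subgroup H).subtype.comp eP.symm.toMonoidHom := ⟨_, rfl⟩
  have hgrange : (P : Subgroup H) ≤ g.range := by
    intro x hx
    refine ⟨eP ⟨x, hx⟩, ?_⟩
    rw [hg]
    show ((eP.symm (eP ⟨x, hx⟩) : (P : Subgroup H)) : H) = x
    rw [MulEquiv.symm_apply_apply]
  obtain ⟨k, hk⟩ : ∃ k, g (QuaternionGroup.xa k) ∉ L := by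
    by_contra hcon
    push Not at hcon
    have hPL : (P : Subgroup H) ≤ L := by
      refine hgrange.trans ?_
      rintro _ ⟨y, rfl⟩
      rcases y with y | y
      · have h1 : (QuaternionGroup.a y : QuaternionGroup (2 ^ n)) =
            QuaternionGroup.xa 0 * QuaternionGroup.xa (y - ((2 ^ n : ℕ) : ZMod (2 * 2 ^ n))) := by
          rw [QuaternionGroup.xa_mul_xa]
          congr 1
          ring
        rw [h1, map_mul]
        exact mul_mem (hcon _) (hcon _)
      · exact hcon y
    have h2 := Subgroup.relIndex_mul_index hPL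
    have h3 : 2 ∣ (P : Subgroup H).index := by
      rw [← h2, hidx]
      exact dvd_mul_left _ _
    exact P.not_dvd_index h3
  refine ⟨g (QuaternionGroup.xa k), hk, ?_⟩
  rw [← map_mul, ← map_mul]
  have h2 : (QuaternionGroup.xa k : QuaternionGroup (2 ^ n)) * QuaternionGroup.xa k *
      (QuaternionGroup.xa k * QuaternionGroup.xa k) = 1 := by
    rw [← QuaternionGroup.xa_pow_four k]
    simp only [pow_succ, pow_zero, one_mul, mul_assoc]
  rw [h2, map_one]

section

variable {D H : Type*} [DivisionRing D] [CharZero D] [Group H] [Finite H] (ι : H →* D)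
  (hι : Function.Injective ι) (L : Subgroup H) (f : SL25 →* H) (hf : Function.Injective f)
  (hfL : f.range = L)

include hι hf hfL

theorem mem_of_sq (x : H) (hx : ι x * ι x = 1) : x ∈ L := by
  have hF : Function.Injective (ι.comp f) := hι.comp hf
  rcases mul_self_eq_one_iff.1 hx with h | h
  · rw [hι (h.trans (map_one ι).symm)]
    exact one_mem _
  · have h1 : ι (f (-1)) = -1 := map_neg_one (ι.comp f) hF
    rw [← h1] at h
    rw [hι h, ← hfL]
    exact ⟨_, rfl⟩

/-- No element outside `L` centralizes `L`. -/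
theorem mem_of_commute (hidx : L.index = 2) (u : H) (hS : Commute (ι u) (ι (f S)))
    (hT : Commute (ι u) (ι (f T))) : u ∈ L := by
  have hF : Function.Injective (ι.comp f) := hι.comp hf
  have huu : u * u ∈ L := Subgroup.mul_self_mem_of_index_two hidx u
  rw [← hfL] at huu
  obtain ⟨v, hv⟩ := huu
  have hFv : ι (f v) = ι u * ι u := by rw [hv, map_mul]
  have hv2 := mem_center_iff v ⟨by
    apply hF
    show ι (f (v * S)) = ι (f (S * v))
    rw [map_mul, map_mul, map_mul, map_mul, hFv]
    exact (hS.mul_left hS).eq, by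
    apply hF
    show ι (f (v * T)) = ι (f (T * v))
    rw [map_mul, map_mul, map_mul, map_mul, hFv]
    exact (hT.mul_left hT).eq⟩
  have hii : ι (f S) * ι (f S) = -1 := ii (ι.comp f) hF
  have hneg : ι (f (-1)) = -1 := map_neg_one (ι.comp f) hF
  rcases hv2 with h | h
  · apply mem_of_sq ι hι L f hf hfL
    rw [← hFv, h, map_one, map_one]
  · have h1 : u * f S ∈ L := by
      apply mem_of_sq ι hι L f hf hfL
      rw [map_mul, hS.symm.mul_mul_mul_comm, ← hFv, h, hneg, hii]
      norm_num
    have h2 : u = (u * f S) * (f S)⁻¹ := by rw [mul_inv_cancel_right]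
    rw [h2]
    refine mul_mem h1 (inv_mem ?_)
    rw [← hfL]
    exact ⟨_, rfl⟩

/-- The subgroup isomorphic to `SL(2,5)` does not have index two. -/
theorem index_ne_two [L.Normal] (hFPF : HasFPF H) (hidx : L.index = 2) : False := by
  have hF : Function.Injective (ι.comp f) := hι.comp hf
  have hii : ι (f S) * ι (f S) = -1 := ii (ι.comp f) hF
  have hjj : ι (f J) * ι (f J) = -1 := jj (ι.comp f) hF
  have hji : ι (f J) * ι (f S) = -(ι (f S) * ι (f J)) := ji (ι.comp f) hF
  have hneg : ι (f (-1)) = -1 := map_neg_one (ι.comp f) hF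
  have hJ2 : f J * f J = f S ^ 2 := by
    rw [← map_mul, relJ, ← map_pow, sq, relS]
  have hS4 : f S ^ (2 * 2) = 1 := by
    rw [← map_pow, pow_mul, sq S, relS, neg_one_sq, map_one]
  have hSJ : f S * f J = f J * (f S)⁻¹ := by
    rw [← map_inv, ← map_mul, ← map_mul, relSJ]
  have hne : f S * f J ≠ f J * f S := by
    intro h
    have h3 : ι (f S) * ι (f J) = ι (f J) * ι (f S) := by
      rw [← map_mul, h, map_mul]
    rw [hji] at h3
    have h4 : (2 : D) * (ι (f S) * ι (f J)) = 0 := by
      rw [two_mul]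
      nth_rw 1 [h3]
      rw [neg_add_cancel]
    rcases mul_eq_zero.1 ((mul_eq_zero.1 h4).resolve_left two_ne_zero) with h | h
    · rw [h, mul_zero] at hii
      exact one_ne_zero (neg_eq_zero.1 hii.symm)
    · rw [h, mul_zero] at hjj
      exact one_ne_zero (neg_eq_zero.1 hjj.symm)
  obtain ⟨t, htL, ht4⟩ := exists_order_four hFPF L hidx (f S) (f J) hS4 hJ2 hSJ hne
  have htt : ι t * ι t = -1 := by
    have h1 : (ι t * ι t) * (ι t * ι t) = 1 := by
      rw [← map_mul, ← map_mul, ht4, map_one]
    rcases mul_self_eq_one_iff.1 h1 with h | h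
    · exact absurd (mem_of_sq ι hι L f hf hfL t h) htL
    · exact h
  -- conjugation by `t`
  obtain ⟨e, he⟩ : ∃ e : SL25 ≃* L, ∀ x, ((e x : L) : H) = f x := by
    refine ⟨(MonoidHom.ofInjective hf).trans (MulEquiv.subgroupCongr hfL), fun x => rfl⟩
  obtain ⟨α, hα⟩ : ∃ α : SL25 ≃* SL25, ∀ x, f (α x) = t * f x * t⁻¹ := by
    refine ⟨(e.trans (MulAut.conjNormal t : MulAut L)).trans e.symm, fun x => ?_⟩
    rw [← he, ← he]
    show ((e (e.symm ((MulAut.conjNormal t : MulAut L) (e x))) : L) : H) = _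
    rw [MulEquiv.apply_symm_apply, MulAut.conjNormal_apply]
  have hα' : ∀ x, ι t * ι (f x) = ι (f (α x)) * ι t := by
    intro x
    rw [← map_mul, ← map_mul, hα, inv_mul_cancel_right]
  rcases aut_cases α with ⟨z, hzS, hzT⟩ | ⟨y, hy⟩
  · apply htL
    have h1 : f z * t ∈ L := by
      apply mem_of_commute ι hι L f hf hfL hidx
      · have e1 : ι (f z) * ι (f (α S)) = ι (f S) * ι (f z) := by
          rw [← map_mul, ← map_mul, ← map_mul, ← map_mul, hzS]
        show ι (f z * t) * ι (f S) = ι (f S) * ι (f z * t)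
        rw [map_mul, mul_assoc, hα', ← mul_assoc, ← mul_assoc, e1]
      · have e1 : ι (f z) * ι (f (α T)) = ι (f T) * ι (f z) := by
          rw [← map_mul, ← map_mul, ← map_mul, ← map_mul, hzT]
        show ι (f z * t) * ι (f T) = ι (f T) * ι (f z * t)
        rw [map_mul, mul_assoc, hα', ← mul_assoc, ← mul_assoc, e1]
    have h2 : t = (f z)⁻¹ * (f z * t) := by rw [inv_mul_cancel_left]
    rw [h2]
    refine mul_mem (inv_mem ?_) h1
    rw [← hfL]
    exact ⟨_, rfl⟩
  · have hww := w_sq (ι.comp f) hF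
    obtain ⟨G, hG⟩ : ∃ G : SL25 →* D, G = ι.comp f := ⟨_, rfl⟩
    rw [← hG] at hww hF
    have hGf : ∀ x, ι (f x) = G x := fun x => by rw [hG]; rfl
    have h1 : G (α T) + G (α T)⁻¹ = -1 - c G := by
      have h2 : α T = y⁻¹ * (T * T) * y := by
        rw [mul_assoc, ← hy, inv_mul_cancel_left]
      have h2' : (α T)⁻¹ = y⁻¹ * (T * T)⁻¹ * y := by
        rw [h2]; group
      have h3 : G y⁻¹ * (G (T * T) + G (T * T)⁻¹) * G y = G (α T) + G (α T)⁻¹ := by
        rw [h2', h2, mul_add, add_mul, ← map_mul, ← map_mul, ← map_mul, ← map_mul]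
      have h4 : Commute (-1 - c G) (G y) :=
        ((Commute.one_left _).neg_left).sub_left (commute_c G hF y)
      rw [← h3, c_two G hF, mul_assoc, h4.eq, ← mul_assoc, ← map_mul, inv_mul_cancel, map_one,
        one_mul]
    have h2 : ι t * c G = (-1 - c G) * ι t := by
      have h5 : ι t * c G = ι t * G T + ι t * G T⁻¹ := mul_add _ _ _
      rw [h5, ← hGf, ← hGf, hα', hα', ← add_mul, hGf, hGf, map_inv, h1]
    refine false_of_anticomm (t := ι t) (w := 2 * c G + 1) htt hww ?_
    obtain ⟨cc, hcc⟩ : ∃ cc, cc = c G := ⟨_, rfl⟩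
    rw [← hcc] at h2 ⊢
    obtain ⟨tt, htt'⟩ : ∃ tt, tt = ι t := ⟨_, rfl⟩
    rw [← htt'] at h2 ⊢
    have h3 : tt * (2 * cc + 1) = 2 * (tt * cc) + tt := by noncomm_ring
    have h4 : -((2 * cc + 1) * tt) = 2 * ((-1 - cc) * tt) + tt := by noncomm_ring
    rw [h3, h4, h2]

end

/-- No nontrivial element of order coprime to `30` commutes with `SL(2,5)` in a division ring. -/
theorem eq_bot_of_commute {D H : Type*} [DivisionRing D] [CharZero D] [Group H] [Finite H]
    (ι : H →* D) (hι : Function.Injective ι) (F : SL25 →* D) (hF : Function.Injective F)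
    (M : Subgroup H) (hcomm : ∀ m ∈ M, ∀ g : SL25, Commute (ι m) (F g))
    (hcop : (Nat.card M).Coprime 30) : M = ⊥ := by
  rw [← Subgroup.card_eq_one]
  by_contra hM1
  obtain ⟨r, hr, hrM⟩ := Nat.exists_prime_and_dvd hM1
  haveI : Fact r.Prime := ⟨hr⟩
  obtain ⟨m, hm⟩ := exists_prime_orderOf_dvd_card' (G := M) r hrM
  have hr30 : Nat.Coprime r 30 := Nat.Coprime.coprime_dvd_left hrM hcop
  have hmc : ∀ g : SL25, Commute (ι (m : H)) (F g) := hcomm _ m.2
  have hmcc : Commute (ι (m : H)) (c F) := (hmc T).add_right (hmc T⁻¹)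
  have h1 : ι (m : H) = 1 := by
    refine eq_one_of_commute (i := F S) (j := F J) (w := 2 * c F + 1) (ii F hF) (jj F hF) (ji F hF)
      (w_sq F hF) (commute_w F hF S) (commute_w F hF J) ?_ (hmc S) (hmc J) hr ?_ ?_ ?_
    · exact (((Commute.ofNat_right _ 2).mul_right hmcc).add_right (Commute.one_right _)).symm
    · rintro rfl
      norm_num at hr30
    · rintro rfl
      norm_num at hr30
    · rw [← map_pow, ← Subgroup.coe_pow, ← hm, pow_orderOf_eq_one]
      simp
  have h2 : m = 1 := by
    apply Subtype.ext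
    apply hι
    rw [h1, Subgroup.coe_one, map_one]
  rw [h2, orderOf_one] at hm
  exact hr.one_lt.ne hm

/-- **Non-solvable finite subgroups of the multiplicative group of a division ring are isomorphic
to `SL(2,5)`.** -/
theorem main {D : Type*} [DivisionRing D] (H : Subgroup Dˣ) [Finite H]
    (hns : ¬ Group.IsSolvable H) : Nonempty (H ≃* SL25) := by
  have hbot : H ≠ ⊥ := by
    rintro rfl
    exact hns inferInstance
  have hFPF : HasFPF H := hasFPF_of_exists (Cfsg.Agent.S4293.result H hbot)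
  obtain ⟨L, M, hLc, -, -, -, hidx, hcomm, ⟨e⟩, -, hcop⟩ := hFPF.nonsolvable hns
  haveI := hLc
  haveI hLn : L.Normal := inferInstance
  -- the embedding
  obtain ⟨ι, hι⟩ : ∃ ι : H →* D, Function.Injective ι :=
    ⟨(Units.coeHom D).comp H.subtype, fun x y hxy => Subtype.ext (Units.ext hxy)⟩
  obtain ⟨f, hf, hfL⟩ : ∃ f : SL25 →* H, Function.Injective f ∧ f.range = L := by
    refine ⟨L.subtype.comp e.symm.toMonoidHom, L.subtype_injective.comp e.symm.injective, ?_⟩
    ext x
    constructor
    · rintro ⟨y, rfl⟩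
      exact (e.symm y).2
    · intro hx
      refine ⟨e ⟨x, hx⟩, ?_⟩
      show ((e.symm (e ⟨x, hx⟩) : L) : H) = x
      rw [MulEquiv.symm_apply_apply]
  have hF : Function.Injective (ι.comp f) := hι.comp hf
  haveI : CharZero D := charZero (ι.comp f) hF
  have hM : M = ⊥ := by
    refine eq_bot_of_commute ι hι (ι.comp f) hF M ?_ hcop
    intro m hm g
    show ι m * ι (f g) = ι (f g) * ι m
    rw [← map_mul, ← map_mul, hcomm _ (by rw [← hfL]; exact ⟨g, rfl⟩) _ hm]
  rw [hM, sup_bot_eq] at hidx
  rcases hidx with hidx | hidx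
  · rw [Subgroup.index_eq_one] at hidx
    exact ⟨(Subgroup.topEquiv.symm.trans (MulEquiv.subgroupCongr hidx.symm)).trans e⟩
  · exact (index_ne_two ι hι L f hf hfL hFPF hidx).elim

end Cfsg.Agent.H560.DivSub
end

-- part: S4294
section
set_option autoImplicit false
open Cfsg

namespace Cfsg.Agent.S4294

/-- A finite non-solvable subgroup of the multiplicative group of a division ring is isomorphic to the binary icosahedral group SL(2,5). -/
theorem result {D : Type*} [DivisionRing D] (H : Subgroup Dˣ) [Finite H] (hH : ¬ Group.IsSolvable H) :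
    Nonempty (H ≃* Matrix.SpecialLinearGroup (Fin 2) (ZMod 5)) := by
  exact Cfsg.Agent.H560.DivSub.main H hH

end Cfsg.Agent.S4294
end
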