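import Cfsg.Statements.S4295
import Cfsg.Agent.H560.Square
import Cfsg.Agent.H560.Semi
import Cfsg.Agent.H560.QuatLift
set_option linter.all false

set_option autoImplicit false
open Cfsg

namespace Cfsg.Agent.S4295

open Cfsg.Agent.H560

/-- For odd `k` there is a commutative ring of order `k` in which `-1` is a sum of two squares. -/
theorem exists_ring : ∀ k : ℕ, Odd k → ∃ (R : Type) (_ : CommRing R) (_ : Finite R) (a b : R),
    Nat.card R = k ∧ a * a + b * b = -1 := by
  intro k
  induction k using Nat.strong_induction_on with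
  | _ k ih =>
    intro hk
    by_cases h1 : k = 1
    · subst h1
      refine ⟨PUnit, inferInstance, inferInstance, 0, 0, ?_, Subsingleton.elim _ _⟩
      exact Nat.card_unique
    obtain ⟨p, hp, q, rfl⟩ := Nat.exists_prime_and_dvd h1
    haveI : Fact p.Prime := ⟨hp⟩
    have hq := (Nat.odd_mul.1 hk).2
    have hq0 : 0 < q := hq.pos
    obtain ⟨R, _, _, a, b, hR, hab⟩ := ih q (by nlinarith [hp.two_le]) hq
    obtain ⟨c, d, hcd⟩ := ZMod.sq_add_sq p (-1)
    refine ⟨ZMod p × R, inferInstance, inferInstance, (c, a), (d, b), ?_, ?_⟩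
    · rw [Nat.card_prod, Nat.card_zmod, hR]
    · ext
      · show c * c + d * d = -1
        rw [← hcd]; ring
      · exact hab

/-- For a natural number m the following are equivalent: (a) some finite group has a Frobenius complement isomorphic to the quaternion group of order 8 whose Frobenius kernel (the identity together with the elements lying in no conjugate of the complement) has exactly m elements; (b) m is an odd perfect square greater than 1. -/
theorem result (m : ℕ) :
    (∃ (L : Type) (_ : Group L) (_ : Finite L) (H : Subgroup L), Cfsg.IsFrobeniusComplement H ∧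
        Nonempty (H ≃* QuaternionGroup 2) ∧ Nat.card (Cfsg.frobeniusKernel H) = m) ↔
    (Odd m ∧ IsSquare m ∧ 1 < m) := by
  constructor
  · rintro ⟨L, _, _, H, hF, ⟨e⟩, rfl⟩
    let f : QuaternionGroup 2 →* L := H.subtype.comp e.symm.toMonoidHom
    have hf : Function.Injective f := H.subtype_injective.comp e.symm.injective
    have hfH : ∀ x, f x ∈ H := fun x => (e.symm x).2
    obtain ⟨h1, h2⟩ := odd_isSquare_card_kernel H hF
      (i := f (QuaternionGroup.a 1)) (j := f (QuaternionGroup.xa 0)) (z := f (QuaternionGroup.a 2))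
      (hfH _) (hfH _) (hfH _) (by rw [← map_mul, ← map_one f]; congr 1) (by
        intro h
        have h1 := hf (h.trans (map_one f).symm)
        rw [← QuaternionGroup.a_zero] at h1
        have h2 : (2 : ZMod (2 * 2)) = 0 := QuaternionGroup.a.inj h1
        exact absurd h2 (by decide)) (by
        rw [← map_mul, ← map_mul, ← map_mul]
        congr 1)
    refine ⟨h1, h2, ?_⟩
    rw [Cfsg.Agent.Solvable.FrobeniusKernel.card_kernel hF]
    exact Subgroup.one_lt_index_of_ne_top hF.2.1
  · rintro ⟨hodd, ⟨k, rfl⟩, h1⟩
    have hk : Odd k := (Nat.odd_mul.1 hodd).1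
    obtain ⟨R, _, _, a, b, hR, hab⟩ := exists_ring k hk
    have hk1 : 1 < k := by nlinarith
    have hnt : Nontrivial R := by
      rw [← Finite.one_lt_card_iff_nontrivial, hR]
      exact hk1
    let I : (Matrix (Fin 2) (Fin 2) R)ˣ := ⟨!![0, 1; -1, 0], !![0, -1; 1, 0], by
      ext i j; fin_cases i <;> fin_cases j <;> simp [Matrix.mul_apply, Fin.sum_univ_two], by
      ext i j; fin_cases i <;> fin_cases j <;> simp [Matrix.mul_apply, Fin.sum_univ_two]⟩
    have hab' : -(a * a) + -(b * b) = 1 := by linear_combination -hab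
    have hba' : -(b * b) + -(a * a) = 1 := by linear_combination -hab
    let J : (Matrix (Fin 2) (Fin 2) R)ˣ := ⟨!![a, b; b, -a], !![-a, -b; -b, a], by
      ext i j; fin_cases i <;> fin_cases j <;>
        simp [Matrix.mul_apply, Fin.sum_univ_two, hab', hba', mul_comm b a], by
      ext i j; fin_cases i <;> fin_cases j <;>
        simp [Matrix.mul_apply, Fin.sum_univ_two, hab', hba', mul_comm b a]⟩
    have hI2 : I ^ 2 = -1 := by
      apply Units.ext
      ext i j; fin_cases i <;> fin_cases j <;> simp [I, pow_two, Matrix.mul_apply, Fin.sum_univ_two]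
    have hI4 : I ^ (2 * 2) = 1 := by rw [pow_mul, hI2]; simp
    have hJ2 : J * J = I ^ 2 := by
      rw [hI2]
      apply Units.ext
      ext i j; fin_cases i <;> fin_cases j <;>
        simp [J, Matrix.mul_apply, Fin.sum_univ_two, mul_comm b a]
      · exact hab
      · linear_combination hab
    have hIJ : I * J = J * I⁻¹ := by
      apply Units.ext
      ext i j; fin_cases i <;> fin_cases j <;>
        simp [I, J, Matrix.mul_apply, Fin.sum_univ_two]
    let φ := quatHom 2 I J hI4 hJ2 hIJ
    have hφz : φ (QuaternionGroup.a 2) = -1 := by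
      show pw (2 * 2) I hI4 ((2 : ℕ) : ZMod (2 * 2)) = -1
      rw [pw_natCast, hI2]
    let ψ : QuaternionGroup 2 →* Module.End R (Fin 2 → R) :=
      (Matrix.toLinAlgEquiv' (R := R) (n := Fin 2)).toMulEquiv.toMonoidHom.comp
        ((Units.coeHom _).comp φ)
    have hψz : ∀ v, ψ (QuaternionGroup.a 2) v = -v := by
      intro v
      show (Matrix.toLinAlgEquiv' (R := R) (n := Fin 2)) ((φ (QuaternionGroup.a 2) : _ˣ) : _) v = -v
      rw [hφz, Units.val_neg, Units.val_one, map_neg, map_one]
      rfl
    have hnn : ∀ v : Fin 2 → R, -v = v → v = 0 := by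
      intro v hv
      have h3 : addOrderOf v ∣ 2 := by
        apply addOrderOf_dvd_of_nsmul_eq_zero
        rw [two_nsmul]
        nth_rw 1 [← hv]
        exact neg_add_cancel v
      have h4 : addOrderOf v ∣ k * k := by
        have : Nat.card (Fin 2 → R) = k * k := by
          rw [Nat.card_fun, hR, Nat.card_fin, pow_two]
        rw [← this]
        exact addOrderOf_dvd_natCard v
      have h5 : addOrderOf v ∣ 1 := by
        have : Nat.Coprime 2 (k * k) := (Nat.coprime_two_left).2 hodd
        rw [← this.gcd_eq_one]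
        exact Nat.dvd_gcd h3 h4
      exact AddMonoid.addOrderOf_eq_one_iff.1 (Nat.dvd_one.1 h5)
    obtain ⟨L, i1, i2, H, hF, ⟨e⟩, hc⟩ := exists_of_fpf_linear ψ (by
      intro g hg v hv
      have h3 : g = QuaternionGroup.a 2 ∨ g * g = QuaternionGroup.a 2 := by
        revert hg
        clear hv
        revert g
        decide
      rcases h3 with rfl | h3
      · apply hnn
        rw [← hψz, hv]
      · apply hnn
        rw [← hψz, ← h3, map_mul, Module.End.mul_apply, hv, hv])
    refine ⟨L, i1, i2, H, hF, ⟨e.symm⟩, ?_⟩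
    rw [hc, Nat.card_fun, hR, Nat.card_fin, pow_two]

end Cfsg.Agent.S4295
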