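import Cfsg.Statements.S4296
import Cfsg.Agent.S0040
import Cfsg.Agent.H560.Square
set_option linter.all false

set_option autoImplicit false
open Cfsg

namespace Cfsg.Agent.S4296

/-- Let H be a Frobenius complement in a finite group, and suppose some Sylow subgroup of H is not cyclic. Then the number of elements of the Frobenius kernel (the identity together with the elements lying in no conjugate of H) is an odd perfect square. -/
theorem result {L : Type*} [Group L] [Finite L] (H : Subgroup L) (hF : Cfsg.IsFrobeniusComplement H)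
    (hZ : ∃ (p : ℕ) (_ : Fact p.Prime) (P : Sylow p H), ¬ IsCyclic P) :
    Odd (Nat.card (Cfsg.frobeniusKernel H)) ∧ IsSquare (Nat.card (Cfsg.frobeniusKernel H)) := by
  obtain ⟨p, hp, P, hP⟩ := hZ
  obtain ⟨N, hN, hNn, hc⟩ := Cfsg.Agent.S0035.result H hF
  have := hNn
  have hNbot : N ≠ ⊥ := by
    intro h0
    rw [h0] at hc
    exact hF.2.1 (Subgroup.isComplement'_bot_left.1 hc)
  have hfpf := (Cfsg.Agent.S0039.result N H hc hNbot hF.1).1 hF
  rcases Cfsg.Agent.S0040.result N H hc hNbot hfpf p P with h | ⟨n, ⟨e⟩⟩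
  · exact absurd h hP
  rcases n with _ | n
  · exfalso
    apply hP
    have h1 : IsCyclic (QuaternionGroup (2 ^ 0)) := QuaternionGroup.quaternionGroup_one_isCyclic
    exact isCyclic_of_injective e.toMonoidHom e.injective
  -- the homomorphism into `L`
  let f : QuaternionGroup (2 ^ (n + 1)) →* L :=
    H.subtype.comp ((P : Subgroup H).subtype.comp e.symm.toMonoidHom)
  have hf : Function.Injective f :=
    H.subtype_injective.comp ((P : Subgroup H).subtype_injective.comp e.symm.injective)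
  have hfH : ∀ x, f x ∈ H := fun x => (((P : Subgroup H).subtype (e.symm x))).2
  have h4 : ((2 ^ n : ℕ) : ZMod (2 * 2 ^ (n + 1))) + (2 ^ n : ℕ) = (2 ^ (n + 1) : ℕ) := by
    push_cast; ring
  have h5 : ((2 ^ (n + 1) : ℕ) : ZMod (2 * 2 ^ (n + 1))) + (2 ^ (n + 1) : ℕ) = 0 := by
    have h6 : ((2 * 2 ^ (n + 1) : ℕ) : ZMod (2 * 2 ^ (n + 1))) = 0 := ZMod.natCast_self _
    rw [← h6]; push_cast; ring
  refine Cfsg.Agent.H560.odd_isSquare_card_kernel H hF
    (i := f (QuaternionGroup.a ((2 ^ n : ℕ) : ZMod (2 * 2 ^ (n + 1)))))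
    (j := f (QuaternionGroup.xa 0))
    (z := f (QuaternionGroup.a ((2 ^ (n + 1) : ℕ) : ZMod (2 * 2 ^ (n + 1)))))
    (hfH _) (hfH _) (hfH _) ?_ ?_ ?_
  · rw [← map_mul, QuaternionGroup.a_mul_a, h5, QuaternionGroup.a_zero, map_one]
  · intro h
    have h1 := hf (h.trans (map_one f).symm)
    rw [← QuaternionGroup.a_zero] at h1
    have h2 : ((2 ^ (n + 1) : ℕ) : ZMod (2 * 2 ^ (n + 1))) = 0 := QuaternionGroup.a.inj h1
    rw [ZMod.natCast_eq_zero_iff] at h2
    have h3 := Nat.le_of_dvd (by positivity) h2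
    have h6 : 0 < 2 ^ (n + 1) := by positivity
    omega
  · rw [← map_mul, ← map_mul, ← map_mul, QuaternionGroup.a_mul_xa, QuaternionGroup.xa_mul_a,
      QuaternionGroup.a_mul_xa]
    congr 2
    rw [← h4]
    ring

end Cfsg.Agent.S4296
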