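import Cfsg.Statements.S4299
import Mathlib
import Cfsg.Agent.H561.FrobComp
set_option linter.all false

set_option autoImplicit false
open Cfsg

namespace Cfsg.Agent.S4299

/-- For every `n ≥ 1` there is a prime `p` and an element of order `n` in `(ℤ/p)ˣ`. -/
theorem exists_unit_orderOf (n : ℕ) (hn : n ≠ 0) :
    ∃ (p : ℕ) (_ : p.Prime) (u : (ZMod p)ˣ), n < p ∧ p ≡ 1 [MOD n] ∧ orderOf u = n := by
  obtain ⟨p, hp, hpn, hmod⟩ := Nat.exists_prime_gt_modEq_one (k := n) n hn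
  have : Fact p.Prime := ⟨hp⟩
  obtain ⟨g, hg⟩ := IsCyclic.exists_ofOrder_eq_natCard (α := (ZMod p)ˣ)
  have hcard : Nat.card (ZMod p)ˣ = p - 1 := by
    rw [Nat.card_eq_fintype_card, ZMod.card_units]
  have hdvd : n ∣ p - 1 := (Nat.modEq_iff_dvd' hp.one_le).1 hmod.symm
  obtain ⟨m, hm⟩ := hdvd
  have hp1 : p - 1 ≠ 0 := by have := hp.two_le; omega
  have hm0 : m ≠ 0 := by rintro rfl; exact hp1 (by rw [hm, mul_zero])
  refine ⟨p, hp, g ^ m, hpn, hmod, ?_⟩
  rw [orderOf_pow' _ hm0, hg, hcard, hm, Nat.gcd_eq_right (Dvd.intro_left n rfl)]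
  exact Nat.mul_div_cancel _ (Nat.pos_of_ne_zero hm0)

/-- Every nontrivial finite cyclic group occurs as a Frobenius complement of some finite Frobenius group. -/
theorem result {C : Type*} [Group C] [Finite C] [IsCyclic C] [Nontrivial C] :
    ∃ (L : Type) (_ : Group L) (_ : Finite L) (H : Subgroup L), Cfsg.IsFrobeniusComplement H ∧ Nonempty (C ≃* H) := by
  obtain ⟨p, hp, u, -, -, hu⟩ := exists_unit_orderOf (Nat.card C) Nat.card_pos.ne'
  have : Fact p.Prime := ⟨hp⟩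
  have hcard : Nat.card C = Nat.card (Subgroup.zpowers u) := by rw [Nat.card_zpowers, hu]
  have e : C ≃* Subgroup.zpowers u := mulEquivOfCyclicCardEq hcard
  have : Nontrivial (Subgroup.zpowers u) := e.symm.toEquiv.nontrivial
  obtain ⟨L, i1, i2, H, hH, ⟨f⟩⟩ := Cfsg.Agent.H561.FrobComp.exists_of_units
    (K := ZMod p) (Subgroup.zpowers u).subtype (Subgroup.subtype_injective _)
  exact ⟨L, i1, i2, H, hH, ⟨e.trans f.symm⟩⟩

end Cfsg.Agent.S4299
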