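import Cfsg.Statements.S4297
import Mathlib
import Cfsg.Agent.H561.FrobComp
import Cfsg.Agent.S4299
set_option linter.all false

set_option autoImplicit false
open Cfsg

namespace Cfsg.Agent.S4297

open Matrix

set_option linter.unusedSimpArgs false

section
variable {n p : ℕ} [NeZero n] [Fact p.Prime] (u : (ZMod p)ˣ) (hu : orderOf u = 2 * n)

/-- the exponential map `ZMod (2n) → (ZMod p)ˣ` -/
def E (i : ZMod (2 * n)) : (ZMod p)ˣ := u ^ i.val

include hu in
theorem E_add (i j : ZMod (2 * n)) : E u (i + j) = E u i * E u j := by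
  unfold E
  have : NeZero (2 * n) := ⟨mul_ne_zero two_ne_zero (NeZero.ne n)⟩
  have h := pow_mod_orderOf u (i.val + j.val)
  rw [hu] at h
  rw [ZMod.val_add, ← pow_add, h]

include hu in
theorem E_zero : E (n := n) u 0 = 1 := by
  have h := E_add u hu 0 0
  rw [add_zero] at h
  exact left_eq_mul.1 h

include hu in
theorem E_neg (i : ZMod (2 * n)) : E u (-i) = (E u i)⁻¹ := by
  rw [eq_inv_iff_mul_eq_one, ← E_add u hu, neg_add_cancel, E_zero u hu]

include hu in
theorem E_n : (E (n := n) u (n : ZMod (2 * n)) : ZMod p) = -1 := by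
  have hn : n ≠ 0 := NeZero.ne n
  have h1 : E (n := n) u (n : ZMod (2 * n)) = u ^ n := by
    unfold E
    rw [ZMod.val_natCast, Nat.mod_eq_of_lt (by omega)]
  rw [h1]
  have h2 : (u ^ n) ^ 2 = 1 := by rw [← pow_mul, mul_comm, ← hu, pow_orderOf_eq_one]
  have h3 : u ^ n ≠ 1 := by
    intro h
    have h4 := orderOf_dvd_of_pow_eq_one h
    rw [hu] at h4
    have := Nat.le_of_dvd (Nat.pos_of_ne_zero hn) h4
    omega
  have h5 : ((u ^ n : (ZMod p)ˣ) : ZMod p) ^ 2 = 1 := by
    rw [← Units.val_pow_eq_pow_val, h2, Units.val_one]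
  rcases mul_self_eq_one_iff.1 ((sq _).symm.trans h5) with h | h
  · exact absurd (Units.ext h) h3
  · exact h

/-- The two-dimensional representation. -/
def F : QuaternionGroup n → Matrix.SpecialLinearGroup (Fin 2) (ZMod p)
  | .a i => ⟨!![(E u i : ZMod p), 0; 0, ((E u i)⁻¹ : (ZMod p)ˣ)], by
      rw [Matrix.det_fin_two_of, Units.mul_inv, mul_zero, sub_zero]⟩
  | .xa i => ⟨!![0, ((E u i)⁻¹ : (ZMod p)ˣ); -(E u i : ZMod p), 0], by
      rw [Matrix.det_fin_two_of, mul_neg, Units.inv_mul, mul_zero, zero_sub, neg_neg]⟩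

include hu in
theorem F_mul (g h : QuaternionGroup n) : F u (g * h) = F u g * F u h := by
  apply Subtype.ext
  rw [Matrix.SpecialLinearGroup.coe_mul]
  have hn := E_n u hu
  rcases g with i | i <;> rcases h with j | j
  · rw [QuaternionGroup.a_mul_a]
    simp only [F, E_add u hu, Matrix.mul_fin_two, mul_inv, Units.val_mul, mul_zero, zero_mul, add_zero, zero_add,
      neg_mul, mul_neg, neg_neg, neg_zero]
  · rw [QuaternionGroup.a_mul_xa]
    simp only [F, sub_eq_add_neg, E_add u hu, E_neg u hu, Matrix.mul_fin_two, mul_inv, inv_inv, Units.val_mul,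
      mul_zero, zero_mul, add_zero, zero_add, neg_mul, mul_neg, neg_neg, neg_zero]
    rw [mul_comm ((E u j : (ZMod p)ˣ) : ZMod p), mul_comm (((E u j)⁻¹ : (ZMod p)ˣ) : ZMod p)]
  · rw [QuaternionGroup.xa_mul_a]
    simp only [F, E_add u hu, Matrix.mul_fin_two, mul_inv, Units.val_mul, mul_zero, zero_mul, add_zero, zero_add,
      neg_mul, mul_neg, neg_neg, neg_zero]
  · rw [QuaternionGroup.xa_mul_xa]
    have hn' : (((E (n := n) u (n : ZMod (2 * n)))⁻¹ : (ZMod p)ˣ) : ZMod p) = -1 := by
      rw [← E_neg u hu]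
      have h2 := E_add u hu (n : ZMod (2 * n)) (-(n : ZMod (2 * n)))
      rw [add_neg_cancel, E_zero u hu] at h2
      have h3 := congrArg Units.val h2
      rw [Units.val_mul, hn, Units.val_one] at h3
      linear_combination h3
    simp only [F, sub_eq_add_neg, E_add u hu, E_neg u hu, Matrix.mul_fin_two, mul_inv, inv_inv, Units.val_mul, hn,
      hn', mul_zero, zero_mul, add_zero, zero_add, neg_mul, mul_neg, neg_neg, neg_zero, one_mul]
    rw [mul_comm ((E u j : (ZMod p)ˣ) : ZMod p), mul_comm (((E u j)⁻¹ : (ZMod p)ˣ) : ZMod p)]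

include hu in
theorem F_injective : Function.Injective (F (n := n) u) := by
  have : NeZero (2 * n) := ⟨mul_ne_zero two_ne_zero (NeZero.ne n)⟩
  have hE : Function.Injective (E (n := n) u) := by
    intro i j hij
    unfold E at hij
    have h1 := pow_injOn_Iio_orderOf (x := u) (by rw [Set.mem_Iio, hu]; exact ZMod.val_lt i)
      (by rw [Set.mem_Iio, hu]; exact ZMod.val_lt j) hij
    exact ZMod.val_injective _ h1
  intro g h hgh
  have h1 := congrArg (fun A : Matrix.SpecialLinearGroup (Fin 2) (ZMod p) => (A : Matrix (Fin 2) (Fin 2) (ZMod p)) 0 0) hgh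
  have h2 := congrArg (fun A : Matrix.SpecialLinearGroup (Fin 2) (ZMod p) => (A : Matrix (Fin 2) (Fin 2) (ZMod p)) 1 0) hgh
  rcases g with i | i <;> rcases h with j | j
  · have h3 : (E u i : ZMod p) = E u j := h1
    rw [hE (Units.ext h3)]
  · have h3 : (E u i : ZMod p) = 0 := h1
    exact absurd h3 (Units.ne_zero _)
  · have h3 : (0 : ZMod p) = E u j := h1
    exact absurd h3.symm (Units.ne_zero _)
  · have h3 : -(E u i : ZMod p) = -E u j := h2
    rw [hE (Units.ext (neg_injective h3))]

end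

/-- For every n ≥ 2 the dicyclic group of order 4n (generated by an element a of order 2n and an element x with x² = aⁿ and x a x⁻¹ = a⁻¹) occurs as a Frobenius complement of some finite Frobenius group. -/
theorem result (n : ℕ) (hn : 2 ≤ n) :
    ∃ (L : Type) (_ : Group L) (_ : Finite L) (H : Subgroup L), Cfsg.IsFrobeniusComplement H ∧ Nonempty (H ≃* QuaternionGroup n) := by
  have : NeZero n := ⟨by omega⟩
  obtain ⟨p, hp, u, hpn, -, hu⟩ := Cfsg.Agent.S4299.exists_unit_orderOf (2 * n) (by omega)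
  have : Fact p.Prime := ⟨hp⟩
  have : Nontrivial (QuaternionGroup n) := ⟨.a 0, .xa 0, fun h => by cases h⟩
  refine Cfsg.Agent.H561.FrobComp.exists_of_sl (K := ZMod p)
    (MonoidHom.mk' (F u) (F_mul u hu)) (F_injective u hu) ?_
  rw [Nat.card_eq_fintype_card, QuaternionGroup.card]
  intro h
  rw [ZMod.natCast_eq_zero_iff] at h
  rcases hp.dvd_mul.1 h with h | h
  · have := Nat.le_of_dvd (by norm_num) h
    have h5 : p ≠ 4 := by rintro rfl; norm_num at hp
    omega
  · have := Nat.le_of_dvd (by omega) h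
    omega

end Cfsg.Agent.S4297
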