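import Cfsg.Statements.S4298
import Mathlib
import Cfsg.Agent.H561.FrobComp
set_option linter.all false

set_option autoImplicit false
open Cfsg

namespace Cfsg.Agent.S4298

open Matrix

/-- the entries of a matrix over `ZMod 5`, as a quadruple -/
abbrev Q5 : Type := ZMod 5 × ZMod 5 × ZMod 5 × ZMod 5

/-- multiplication of quadruples as `2 × 2` matrices -/
def mul5 (A B : Q5) : Q5 :=
  (A.1 * B.1 + A.2.1 * B.2.2.1, A.1 * B.2.1 + A.2.1 * B.2.2.2,
    A.2.2.1 * B.1 + A.2.2.2 * B.2.2.1, A.2.2.1 * B.2.1 + A.2.2.2 * B.2.2.2)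

/-- powers of the element of order three -/
def pu (i : ZMod 3) : Q5 :=
  if i = 0 then (1, 0, 0, 1) else if i = 1 then (0, 1, 4, 4) else (4, 4, 1, 0)

/-- sign -/
def sg (t : ZMod 3) (A : Q5) : Q5 := if t = 2 then (-A.1, -A.2.1, -A.2.2.1, -A.2.2.2) else A

/-- the map, by the Bruhat decomposition -/
def F (a b c d : ZMod 3) : Q5 :=
  if c = 0 then sg a (pu (b * a))
  else sg (-c) (mul5 (mul5 (pu (a * c)) (2, 0, 2, 3)) (pu (d * c)))

theorem F_mul : ∀ a b c d : ZMod 3, a * d - b * c = 1 → ∀ a' b' c' d' : ZMod 3, a' * d' - b' * c' = 1 →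
    F (a * a' + b * c') (a * b' + b * d') (c * a' + d * c') (c * b' + d * d') =
      mul5 (F a b c d) (F a' b' c' d') := by
  decide +kernel

theorem F_det : ∀ a b c d : ZMod 3, a * d - b * c = 1 →
    (F a b c d).1 * (F a b c d).2.2.2 - (F a b c d).2.1 * (F a b c d).2.2.1 = 1 := by
  decide +kernel

theorem F_inj : ∀ a b c d : ZMod 3, a * d - b * c = 1 → (F a b c d).1 = 1 → (F a b c d).2.1 = 0 →
    (F a b c d).2.2.1 = 0 → (F a b c d).2.2.2 = 1 → a = 1 ∧ b = 0 ∧ c = 0 ∧ d = 1 := by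
  decide +kernel

/-- The image matrix. -/
def M (A : Matrix (Fin 2) (Fin 2) (ZMod 3)) : Matrix (Fin 2) (Fin 2) (ZMod 5) :=
  !![(F (A 0 0) (A 0 1) (A 1 0) (A 1 1)).1, (F (A 0 0) (A 0 1) (A 1 0) (A 1 1)).2.1;
    (F (A 0 0) (A 0 1) (A 1 0) (A 1 1)).2.2.1, (F (A 0 0) (A 0 1) (A 1 0) (A 1 1)).2.2.2]

theorem M_det (A : Matrix (Fin 2) (Fin 2) (ZMod 3)) (hA : A.det = 1) : (M A).det = 1 := by
  rw [M, Matrix.det_fin_two_of]
  apply F_det
  rw [← Matrix.det_fin_two]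
  exact hA

theorem M_mul (A B : Matrix (Fin 2) (Fin 2) (ZMod 3)) (hA : A.det = 1) (hB : B.det = 1) :
    M (A * B) = M A * M B := by
  rw [Matrix.det_fin_two] at hA hB
  have h := F_mul _ _ _ _ hA _ _ _ _ hB
  have e : ∀ i j, (A * B) i j = A i 0 * B 0 j + A i 1 * B 1 j := by
    intro i j
    rw [Matrix.mul_apply, Fin.sum_univ_two]
  unfold M
  simp only [e, h, Matrix.mul_fin_two]
  rfl

/-- The homomorphism `SL(2,3) → SL(2,5)`. -/
def φ : SpecialLinearGroup (Fin 2) (ZMod 3) →* SpecialLinearGroup (Fin 2) (ZMod 5) :=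
  MonoidHom.mk' (fun A => ⟨M A.1, M_det A.1 A.2⟩)
    (fun A B => Subtype.ext (M_mul A.1 B.1 A.2 B.2))

theorem ne_zero : ((24 : ℕ) : ZMod 5) ≠ 0 := by decide

theorem φ_injective : Function.Injective φ := by
  rw [injective_iff_map_eq_one]
  intro A hA
  have hdet : A 0 0 * A 1 1 - A 0 1 * A 1 0 = 1 := by
    have h := A.2
    rw [Matrix.det_fin_two] at h
    exact h
  have h00 : (F (A 0 0) (A 0 1) (A 1 0) (A 1 1)).1 = 1 :=
    congrArg (fun M : SpecialLinearGroup (Fin 2) (ZMod 5) => M 0 0) hA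
  have h01 : (F (A 0 0) (A 0 1) (A 1 0) (A 1 1)).2.1 = 0 :=
    congrArg (fun M : SpecialLinearGroup (Fin 2) (ZMod 5) => M 0 1) hA
  have h10 : (F (A 0 0) (A 0 1) (A 1 0) (A 1 1)).2.2.1 = 0 :=
    congrArg (fun M : SpecialLinearGroup (Fin 2) (ZMod 5) => M 1 0) hA
  have h11 : (F (A 0 0) (A 0 1) (A 1 0) (A 1 1)).2.2.2 = 1 :=
    congrArg (fun M : SpecialLinearGroup (Fin 2) (ZMod 5) => M 1 1) hA
  obtain ⟨ha, hb, hc, hd⟩ := F_inj _ _ _ _ hdet h00 h01 h10 h11
  ext i j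
  fin_cases i <;> fin_cases j
  · exact ha
  · exact hb
  · exact hc
  · exact hd

/-- The group SL(2,3) of order 24 (the binary tetrahedral group) occurs as a Frobenius complement of some finite Frobenius group. -/
theorem result :
    ∃ (L : Type) (_ : Group L) (_ : Finite L) (H : Subgroup L), Cfsg.IsFrobeniusComplement H ∧ Nonempty (H ≃* Matrix.SpecialLinearGroup (Fin 2) (ZMod 3)) := by
  have : Fact (Nat.Prime 5) := ⟨by norm_num⟩
  have : Fact (Nat.Prime 3) := ⟨by norm_num⟩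
  have : Nontrivial (SpecialLinearGroup (Fin 2) (ZMod 3)) := ⟨1, -1, by decide⟩
  refine Cfsg.Agent.H561.FrobComp.exists_of_sl (K := ZMod 5) φ φ_injective ?_
  have h : Nat.card (SpecialLinearGroup (Fin 2) (ZMod 3)) = 24 := by
    rw [Nat.card_eq_fintype_card]
    decide +kernel
  rw [h]
  exact ne_zero

end Cfsg.Agent.S4298
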