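import Mathlib
import Cfsg.Prelude.Def_PLocal
import Cfsg.Agent.PLocal.ThompsonJ
import Cfsg.Agent.PLocal.Timmesfeld
import Cfsg.Agent.PLocal.FFBridge
import Cfsg.Agent.Lib.PSolvable
import Cfsg.Agent.S0616
import Cfsg.Agent.PLocal.HallHigmanPrime
import Cfsg.Agent.S0611
import Cfsg.Agent.PLocal.ThompsonJA
import Cfsg.Agent.PLocal.ElemAbSup
import Cfsg.Statements.S4302
import Cfsg.Agent.Transfer.ThompsonFactor
import Cfsg.Agent.LieClassical.SLTwoTwo
import Cfsg.Agent.Lib.MinNormal
import Cfsg.Agent.S0044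
import Cfsg.Agent.S0617
set_option linter.all false

-- part: H561/FFAbelian
section
/-!
# Abelian best offenders

The Timmesfeld replacement theorem for abelian (not necessarily elementary abelian) offenders, and its consequence:
in a solvable group `H` with `O_2(H) = 1` acting faithfully on an elementary abelian 2-group `V`, an abelian
2-subgroup `A` with `|B| |C_V(B)| ≤ |A| |C_V(A)|` for all `B ≤ A` is elementary abelian.
-/

set_option autoImplicit false
open Cfsg
open scoped commutatorElement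

namespace Cfsg.Agent.H561.FFAbelian

open PLocal.Timmesfeld

/-- The inequality of best offenders. -/
def Ineq {G : Type*} [Group G] (V A : Subgroup G) : Prop :=
  ∀ B : Subgroup G, B ≤ A →
      Nat.card B * Nat.card ↥(V ⊓ Subgroup.centralizer (B : Set G)) ≤
        Nat.card A * Nat.card ↥(V ⊓ Subgroup.centralizer (A : Set G))

/-- Replacement for abelian offenders: `B = C_A([V, A])`. -/
theorem replacement {G : Type*} [Group G] [Finite G] {p : ℕ} [Fact p.Prime] (V A : Subgroup G)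
    (hV : Cfsg.IsElementaryAbelian p V) (hAV : A ≤ Subgroup.normalizer (V : Set G))
    (hbest : Ineq V A) (hAA : ⁅A, A⁆ ≤ Subgroup.centralizer (V : Set G)) :
    Cfsg.IsBestOffenderOn p V (A ⊓ Subgroup.centralizer ((⁅V, A⁆ : Subgroup G) : Set G)) ∧
    V ⊓ Subgroup.centralizer ((A ⊓ Subgroup.centralizer ((⁅V, A⁆ : Subgroup G) : Set G) : Subgroup G) : Set G) =
      ⁅V, A⁆ ⊔ (V ⊓ Subgroup.centralizer (A : Set G)) := by
  classical
  have hVc : ∀ x ∈ V, ∀ y ∈ V, x * y = y * x := fun x hx y hy =>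
    congrArg Subtype.val (hV.1.1.1 (⟨x, hx⟩ : V) (⟨y, hy⟩ : V))
  have hVp : ∀ x ∈ V, x ^ p = 1 := (PLocal.ThompsonJ.isElementaryAbelian_iff.1 hV).2
  set C : Subgroup G := V ⊓ Subgroup.centralizer (A : Set G) with hC
  set m : ℕ := Nat.card A * Nat.card C with hm
  have hmpos : 0 < m := Nat.mul_pos Nat.card_pos Nat.card_pos
  -- upper bound for the measure
  have hle : ∀ W : Subgroup G, W ≤ V → meas A W ≤ m := by
    intro W hW
    refine le_trans (Nat.mul_le_mul_left _ ?_) (hbest (A ⊓ Subgroup.centralizer (W : Set G)) inf_le_left)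
    refine Subgroup.card_le_of_le ?_
    refine le_inf hW ?_
    rw [Subgroup.le_centralizer_iff]
    exact inf_le_right
  -- commutators lie in V
  have hUV : ⁅V, A⁆ ≤ V := by
    rw [Subgroup.commutator_le]
    intro u hu a ha
    exact commutator_mem_of_mem hAV hu ha
  have hCV : C ≤ V := inf_le_left
  -- `[V, A]` is the join of the `[u, A]`
  let T : Finset G := (Set.toFinite (V : Set G)).toFinset
  have hT : ∀ u, u ∈ T ↔ u ∈ V := fun u => by simp [T]
  have hsup : ⁅V, A⁆ ≤ T.sup (elemComm A) := by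
    rw [Subgroup.commutator_le]
    intro u hu a ha
    exact Finset.le_sup (f := elemComm A) ((hT u).2 hu) (Subgroup.subset_closure ⟨a, ha, rfl⟩)
  have hsup' : T.sup (elemComm A) = ⁅V, A⁆ := by
    refine le_antisymm (Finset.sup_le fun u hu => (Subgroup.closure_le _).2 ?_) hsup
    rintro x ⟨a, ha, rfl⟩
    exact Subgroup.commutator_mem_commutator ((hT u).1 hu) ha
  have hmeasC : m ≤ meas A (⊥ ⊔ C) := by
    rw [bot_sup_eq, meas_def]
    refine Nat.mul_le_mul_right _ (Subgroup.card_le_of_le ?_)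
    refine le_inf le_rfl ?_
    rw [Subgroup.le_centralizer_iff]
    exact inf_le_right
  have hmain : (m ≤ meas A (⁅V, A⁆ ⊔ C)) ∧ ⁅V, A⁆ ≤ V := by
    rw [← hsup']
    refine Finset.sup_induction (p := fun W => m ≤ meas A (W ⊔ C) ∧ W ≤ V) ⟨hmeasC, bot_le⟩ ?_ ?_
    · rintro W₁ ⟨h₁, h₁'⟩ W₂ ⟨h₂, h₂'⟩
      refine ⟨?_, sup_le h₁' h₂'⟩
      have h3 := meas_mul_meas_le A (W₁ ⊔ C) (W₂ ⊔ C)
      have h4 : (W₁ ⊔ C) ⊔ (W₂ ⊔ C) = W₁ ⊔ W₂ ⊔ C := (sup_sup_distrib_right W₁ W₂ C).symm
      rw [h4] at h3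
      have h5 := hle ((W₁ ⊔ C) ⊓ (W₂ ⊔ C)) (inf_le_left.trans (sup_le h₁' hCV))
      have h6 : m * m ≤ meas A (W₁ ⊔ W₂ ⊔ C) * m :=
        (Nat.mul_le_mul h₁ h₂).trans (h3.trans (Nat.mul_le_mul_left _ h5))
      exact Nat.le_of_mul_le_mul_right h6 hmpos
    · intro u hu
      exact ⟨le_meas_elemComm hVc hAV hAA ((hT u).1 hu), elemComm_le hAV ((hT u).1 hu)⟩
  have hmain1 := hmain.1
  set X : Subgroup G := ⁅V, A⁆ with hX
  set B : Subgroup G := A ⊓ Subgroup.centralizer (X : Set G) with hB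
  have hBW : A ⊓ Subgroup.centralizer ((X ⊔ C : Subgroup G) : Set G) = B := by
    refine le_antisymm (inf_le_inf_left _ (Subgroup.centralizer_le (SetLike.coe_subset_coe.2 le_sup_left))) ?_
    refine le_inf inf_le_left ?_
    rw [centralizer_sup]
    refine le_inf inf_le_right (inf_le_left.trans ?_)
    rw [Subgroup.le_centralizer_iff]
    exact inf_le_right
  have hXC : X ⊔ C ≤ V ⊓ Subgroup.centralizer (B : Set G) := by
    refine le_inf (sup_le hUV hCV) ?_
    rw [Subgroup.le_centralizer_iff, ← hBW]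
    exact inf_le_right
  have hcard1 : m ≤ Nat.card B * Nat.card (X ⊔ C : Subgroup G) := by
    rw [meas_def, hBW] at hmain1
    exact hmain1
  have hcard2 := hbest B inf_le_left
  have hcard3 : Nat.card (X ⊔ C : Subgroup G) = Nat.card (V ⊓ Subgroup.centralizer (B : Set G) : Subgroup G) := by
    refine le_antisymm (Subgroup.card_le_of_le hXC) ?_
    exact Nat.le_of_mul_le_mul_left (hcard2.trans hcard1) Nat.card_pos
  have hfix : V ⊓ Subgroup.centralizer (B : Set G) = X ⊔ C :=
    (Subgroup.eq_of_le_of_card_ge hXC hcard3.ge).symm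
  refine ⟨⟨?_, ?_, ?_⟩, hfix⟩
  · intro B' hB'
    refine (hbest B' (hB'.trans inf_le_left)).trans ?_
    rw [← hcard3]
    exact hcard1
  · exact (Subgroup.commutator_mono inf_le_left inf_le_left).trans hAA
  · -- quadratic action
    intro b hb
    rw [Subgroup.mem_centralizer_iff]
    intro v hv
    have hbc : ∀ x ∈ X, b * x = x * b := fun x hx =>
      ((Subgroup.mem_centralizer_iff.1 hb.2) x hx).symm
    have hc : ⁅v, b⁆ ∈ X := Subgroup.commutator_mem_commutator hv hb.1
    have hcV : ⁅v, b⁆ ∈ V := hUV hc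
    have key : ∀ n : ℕ, v * b ^ n = ⁅v, b⁆ ^ n * (b ^ n * v) := by
      intro n
      induction n with
      | zero => simp
      | succ n ih =>
        have h1 : v * b = ⁅v, b⁆ * (b * v) := by rw [commutatorElement_def]; group
        have h2 : ⁅v, b⁆ * b ^ n = b ^ n * ⁅v, b⁆ :=
          ((show Commute b ⁅v, b⁆ from hbc _ hc).pow_left n).symm.eq
        calc v * b ^ (n + 1) = v * b ^ n * b := by rw [pow_succ]; group
          _ = ⁅v, b⁆ ^ n * (b ^ n * (v * b)) := by rw [ih]; group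
          _ = ⁅v, b⁆ ^ n * (b ^ n * ⁅v, b⁆ * b * v) := by rw [h1]; group
          _ = ⁅v, b⁆ ^ n * (⁅v, b⁆ * b ^ n * b * v) := by rw [h2]
          _ = ⁅v, b⁆ ^ (n + 1) * (b ^ (n + 1) * v) := by rw [pow_succ, pow_succ]; group
    rw [key p, hVp _ hcV, one_mul]

/-- Nilpotent action: if the `p`-group `A` normalizes the abelian `p`-group `V` and `V = [V, A] C_V(A)`, then
`[V, A] = 1`. -/
theorem commutator_eq_bot {G : Type*} [Group G] [Finite G] {p : ℕ} [Fact p.Prime] {V A : Subgroup G}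
    (hV : IsPGroup p V) (hVc : ∀ x ∈ V, ∀ y ∈ V, x * y = y * x) (hA : IsPGroup p A)
    (hAV : A ≤ Subgroup.normalizer (V : Set G))
    (h1 : V ≤ ⁅V, A⁆ ⊔ (V ⊓ Subgroup.centralizer (A : Set G))) : ⁅V, A⁆ = ⊥ := by
  have hVA : ⁅V, A⁆ ≤ V := by
    rw [Subgroup.commutator_le]
    intro u hu a ha
    exact commutator_mem_of_mem hAV hu ha
  have hH : IsPGroup p (V ⊔ A : Subgroup G) := hV.to_sup_of_normal_left' hA hAV
  have hnil : Group.IsNilpotent (V ⊔ A : Subgroup G) := hH.isNilpotent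
  refine eq_bot_of_le_commutator hnil (hVA.trans le_sup_left) ?_
  let K : Subgroup G :=
    { carrier := {v | v ∈ V ∧ ∀ a ∈ A, ⁅v, a⁆ ∈ ⁅⁅V, A⁆, A⁆}
      one_mem' := ⟨one_mem _, fun a _ => by rw [commutatorElement_one_left]; exact one_mem _⟩
      mul_mem' := by
        rintro x y ⟨hx, hx'⟩ ⟨hy, hy'⟩
        refine ⟨mul_mem hx hy, fun a ha => ?_⟩
        have e : ⁅x * y, a⁆ = ⁅y, a⁆ * ⁅x, a⁆ := by
          have := hVc x hx _ (commutator_mem_of_mem hAV hy ha)
          calc ⁅x * y, a⁆ = (x * ⁅y, a⁆) * x⁻¹ * ⁅x, a⁆ := by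
                simp only [commutatorElement_def]; group
            _ = (⁅y, a⁆ * x) * x⁻¹ * ⁅x, a⁆ := by rw [this]
            _ = _ := by group
        rw [e]
        exact mul_mem (hy' a ha) (hx' a ha)
      inv_mem' := by
        rintro x ⟨hx, hx'⟩
        refine ⟨inv_mem hx, fun a ha => ?_⟩
        have e : ⁅x⁻¹, a⁆ = ⁅x, a⁆⁻¹ := by
          have := hVc x⁻¹ (inv_mem hx) _ (inv_mem (commutator_mem_of_mem hAV hx ha))
          calc ⁅x⁻¹, a⁆ = (x⁻¹ * ⁅x, a⁆⁻¹) * x := by
                simp only [commutatorElement_def]; group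
            _ = (⁅x, a⁆⁻¹ * x⁻¹) * x := by rw [this]
            _ = _ := by group
        rw [e]
        exact inv_mem (hx' a ha) }
  have hVK : V ≤ K := by
    refine h1.trans (sup_le ?_ ?_)
    · intro w hw
      exact ⟨hVA hw, fun a ha => Subgroup.commutator_mem_commutator hw ha⟩
    · rintro c ⟨hcV, hcA⟩
      refine ⟨hcV, fun a ha => ?_⟩
      have : ⁅c, a⁆ = 1 := by
        rw [commutatorElement_eq_one_iff_mul_comm]
        exact (Subgroup.mem_centralizer_iff.1 hcA a ha).symm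
      rw [this]
      exact one_mem _
  calc ⁅V, A⁆ ≤ ⁅⁅V, A⁆, A⁆ := by
        rw [Subgroup.commutator_le]
        intro v hv a ha
        exact (hVK hv).2 a ha
    _ ≤ _ := Subgroup.commutator_mono le_rfl le_sup_right

/-- `H` is solvable and acts faithfully on the elementary abelian 2-group `V`, and `O_2(H) = 1`. -/
structure Sit {G : Type*} [Group G] (V H : Subgroup G) : Prop where
  hV : Cfsg.IsElementaryAbelian 2 V
  hHV : H ≤ Subgroup.normalizer (V : Set G)
  hf : H ⊓ Subgroup.centralizer (V : Set G) = ⊥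
  hs : Group.IsSolvable H
  hO : Cfsg.pCore 2 H = ⊥

section
variable {G : Type*} [Group G] [Finite G] {V H : Subgroup G}

omit [Finite G] in
/-- `O_2(K) = 1` for `K` normal in `H`. -/
theorem Sit.pCore_eq_bot (h : Sit V H) {K : Subgroup G} (hKH : K ≤ H)
    (hHK : H ≤ Subgroup.normalizer (K : Set G)) : Cfsg.pCore 2 K = ⊥ := by
  set P : Subgroup G := (Cfsg.pCore 2 K).map K.subtype with hP
  have hPK : P ≤ K := Subgroup.map_subtype_le _
  have hPn : H ≤ Subgroup.normalizer (P : Set G) :=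
    hHK.trans (PLocal.FFBridge.normalizer_le_normalizer_map K _ (Lib.Cores.pCore_characteristic 2))
  have hPp : IsPGroup 2 P := (Lib.Cores.pCore_isPGroup (G := K) 2).map _
  have h1 : P.subgroupOf H ≤ Cfsg.pCore 2 H := by
    apply Lib.Cores.le_pCore
    · exact Subgroup.normal_subgroupOf_of_le_normalizer hPn
    · exact hPp.comap_of_injective H.subtype H.subtype_injective
  rw [h.hO, le_bot_iff, Subgroup.subgroupOf_eq_bot, disjoint_iff, inf_eq_left.2 (hPK.trans hKH)] at h1
  rw [hP, Subgroup.map_eq_bot_iff_of_injective _ K.subtype_injective] at h1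
  exact h1

/-- `C_K(O(K)) ≤ O(K)` for `K` normal in `H`. -/
theorem Sit.centralizer_le (h : Sit V H) {K : Subgroup G} (hKH : K ≤ H)
    (hHK : H ≤ Subgroup.normalizer (K : Set G)) :
    Subgroup.centralizer (Cfsg.pPrimeCore 2 K : Set K) ≤ Cfsg.pPrimeCore 2 K := by
  have hs := h.hs
  have : Group.IsSolvable K := Group.isSolvable_of_isSolvable_injective (Subgroup.inclusion_injective hKH)
  exact PLocal.HallHigmanPrime.centralizer_pPrimeCore_le_of_pSolvable 2
    (Lib.PSolvable.IsPSolvable_of_solvable 2) (h.pCore_eq_bot hKH hHK)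

/-- The group generated by the best offenders in `H`. -/
def gen (V H : Subgroup G) : Subgroup G :=
  ⨆ A : {A : Subgroup G // A ≤ H ∧ Cfsg.IsBestOffenderOn 2 V A}, (A : Subgroup G)

omit [Finite G] in
theorem gen_le (V H : Subgroup G) : gen V H ≤ H := iSup_le fun A => A.2.1

omit [Finite G] in
theorem le_gen {A : Subgroup G} (hA : A ≤ H) (hb : Cfsg.IsBestOffenderOn 2 V A) : A ≤ gen V H :=
  le_iSup (fun A : {A : Subgroup G // A ≤ H ∧ Cfsg.IsBestOffenderOn 2 V A} => (A : Subgroup G)) ⟨A, hA, hb⟩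

omit [Finite G] in
theorem gen_eq (V H : Subgroup G) : gen V H =
    ⨆ A : {A : Subgroup G // A ≤ gen V H ∧ Cfsg.IsBestOffenderOn 2 V A}, (A : Subgroup G) := by
  apply le_antisymm
  · refine iSup_le ?_
    rintro ⟨A, hA, hb⟩
    exact le_iSup (fun A : {A : Subgroup G // A ≤ gen V H ∧ Cfsg.IsBestOffenderOn 2 V A} => (A : Subgroup G))
      ⟨A, le_gen hA hb, hb⟩
  · exact iSup_le fun A => A.2.1

omit [Finite G] in
theorem Sit.le_normalizer_gen (h : Sit V H) : H ≤ Subgroup.normalizer (gen V H : Set G) := by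
  intro g hg
  have key : ∀ x ∈ H, (gen V H).map (MulAut.conj x).toMonoidHom ≤ gen V H := by
    intro x hx
    rw [gen, Subgroup.map_iSup]
    refine iSup_le ?_
    rintro ⟨A, hA, hb⟩
    apply le_gen
    · rintro _ ⟨a, ha, rfl⟩
      exact H.mul_mem (H.mul_mem hx (hA ha)) (H.inv_mem hx)
    · exact PLocal.FFMin.isBestOffenderOn_map_conj (h.hHV hx) hb
  rw [Subgroup.mem_normalizer_iff]
  intro x
  constructor
  · intro hx
    exact key g hg ⟨x, hx, rfl⟩
  · intro hx
    have h1 := key g⁻¹ (H.inv_mem hg) ⟨_, hx, rfl⟩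
    have e : (MulAut.conj g⁻¹).toMonoidHom (g * x * g⁻¹) = x := by
      show g⁻¹ * (g * x * g⁻¹) * g⁻¹⁻¹ = x
      group
    rwa [e] at h1

omit [Finite G] in
theorem card_le_two_mul [Finite G] {A A' : Subgroup G} {b : G} (h : ∀ a ∈ A, a ∈ A' ∨ b⁻¹ * a ∈ A') :
    Nat.card A ≤ Nat.card A' * 2 := by
  classical
  have h2 : Nat.card (A' × Bool) = Nat.card A' * 2 := by
    rw [Nat.card_prod, Nat.card_eq_fintype_card (α := Bool), Fintype.card_bool]
  rw [← h2]
  refine Nat.card_le_card_of_injective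
    (fun a : A => if ha : (a : G) ∈ A' then ((⟨a, ha⟩, false) : A' × Bool)
      else (⟨b⁻¹ * a, (h a a.2).resolve_left ha⟩, true)) ?_
  intro x y hxy
  by_cases hx : (x : G) ∈ A' <;> by_cases hy : (y : G) ∈ A'
  · simp only [hx, hy, dif_pos, Prod.mk.injEq, Subtype.mk.injEq, and_true] at hxy
    exact Subtype.ext hxy
  · simp [hx, hy] at hxy
  · simp [hx, hy] at hxy
  · simp only [hx, hy, dif_neg, not_false_eq_true, Prod.mk.injEq, Subtype.mk.injEq, and_true,
      mul_right_inj] at hxy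
    exact Subtype.ext hxy

theorem card_two_mul_le {X Y : Subgroup G} (h : X < Y) : 2 * Nat.card X ≤ Nat.card Y := by
  obtain ⟨k, hk⟩ := Subgroup.card_dvd_of_le h.le
  have h1 : Nat.card X ≠ Nat.card Y := by
    intro h2
    exact h.ne (Subgroup.eq_of_le_of_card_ge h.le h2.ge)
  have h2 : 0 < Nat.card Y := Nat.card_pos
  rcases k with _ | _ | k
  · omega
  · omega
  · rw [hk]
    nlinarith [Nat.card_pos (α := X)]

/-- Abelian offenders are elementary abelian. -/
theorem Sit.sq_eq_one (h : Sit V H) : ∀ (n : ℕ) (A : Subgroup G), Nat.card A = n → A ≤ H → IsPGroup 2 A →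
    (∀ a ∈ A, ∀ b ∈ A, a * b = b * a) → Ineq V A → ∀ a ∈ A, a * a = 1 := by
  intro n
  induction n using Nat.strong_induction_on with
  | _ n ih =>
  intro A hn hAH hAp hAc hbest
  have hVc : ∀ x ∈ V, ∀ y ∈ V, x * y = y * x := fun x hx y hy =>
    congrArg Subtype.val (h.hV.1.1.1 (⟨x, hx⟩ : V) (⟨y, hy⟩ : V))
  have hV2 : ∀ x ∈ V, x ^ 2 = 1 := (PLocal.ThompsonJ.isElementaryAbelian_iff.1 h.hV).2
  have hVp : IsPGroup 2 V := fun x => ⟨1, Subtype.ext (by simpa using hV2 x x.2)⟩
  have hAV : A ≤ Subgroup.normalizer (V : Set G) := hAH.trans h.hHV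
  have hAA : ⁅A, A⁆ ≤ Subgroup.centralizer (V : Set G) := by
    have : ⁅A, A⁆ = ⊥ := by
      rw [Subgroup.commutator_eq_bot_iff_le_centralizer]
      intro a ha
      rw [Subgroup.mem_centralizer_iff]
      exact fun b hb => hAc b hb a ha
    rw [this]
    exact bot_le
  by_cases hA1 : A = ⊥
  · subst hA1
    intro a ha
    rw [Subgroup.mem_bot] at ha
    rw [ha, one_mul]
  obtain ⟨hB, hfix⟩ := replacement V A h.hV hAV hbest hAA
  set B : Subgroup G := A ⊓ Subgroup.centralizer ((⁅V, A⁆ : Subgroup G) : Set G) with hBdef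
  have hBne : ⁅V, B⁆ ≠ ⊥ := by
    intro hbot
    rw [Subgroup.commutator_eq_bot_iff_le_centralizer] at hbot
    rw [inf_eq_left.2 hbot] at hfix
    have h1 := commutator_eq_bot hVp hVc hAp hAV hfix.le
    rw [Subgroup.commutator_eq_bot_iff_le_centralizer, Subgroup.le_centralizer_iff] at h1
    exact hA1 (le_bot_iff.1 (h.hf ▸ le_inf hAH h1))
  -- a minimal offender
  obtain ⟨B₁, hB₁min⟩ := (Set.toFinite {C : Subgroup G | C ≤ B ∧ Cfsg.IsBestOffenderOn 2 V C ∧
    ⁅V, C⁆ ≠ ⊥}).exists_minimal ⟨B, le_rfl, hB, hBne⟩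
  obtain ⟨⟨hB₁B, hB₁, hB₁ne⟩, hmin'⟩ := hB₁min
  have hmin : ∀ C : Subgroup G, C ≤ B₁ → Cfsg.IsBestOffenderOn 2 V C → ⁅V, C⁆ ≠ ⊥ → C = B₁ :=
    fun C hC hC1 hC2 => le_antisymm hC (hmin' ⟨hC.trans hB₁B, hC1, hC2⟩ hC)
  have hB₁A : B₁ ≤ A := hB₁B.trans inf_le_left
  have hB₁H : B₁ ≤ H := hB₁A.trans hAH
  set K := gen V H with hK
  have hKH : K ≤ H := gen_le V H
  have hHK : H ≤ Subgroup.normalizer (K : Set G) := h.le_normalizer_gen
  have hB₁K : B₁ ≤ K := le_gen hB₁H hB₁
  have hK1 : K ≠ ⊥ := by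
    intro hK1
    rw [hK1, le_bot_iff] at hB₁K
    apply hB₁ne
    rw [hB₁K, Subgroup.commutator_bot_right]
  have hKf : K ⊓ Subgroup.centralizer (V : Set G) = ⊥ :=
    le_bot_iff.1 (h.hf ▸ inf_le_inf_right _ hKH)
  have hKc := h.centralizer_le hKH hHK
  have hB₁card : Nat.card B₁ = 2 :=
    (S0611.result V K h.hV (hKH.trans h.hHV) hKf hKc (gen_eq V H) hK1 B₁ hB₁K hB₁ hB₁ne hmin).1
  obtain ⟨-, -, hW4, hWi, hWs, -⟩ :=
    S0616.result V K h.hV (hKH.trans h.hHV) hKf hKc (gen_eq V H) hK1 B₁ hB₁K hB₁ hB₁ne hmin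
  set N : Subgroup G := (Cfsg.pPrimeCore 2 ↥K).map K.subtype with hN
  set E : Subgroup G := ⁅N, B₁⁆ ⊔ B₁ with hE
  set W : Subgroup G := ⁅V, E⁆ with hW
  have hNK : N ≤ K := Subgroup.map_subtype_le _
  have hNn : H ≤ Subgroup.normalizer (N : Set G) :=
    hHK.trans (PLocal.FFBridge.normalizer_le_normalizer_map K _ (Lib.Cores.pPrimeCore_characteristic 2))
  have hWV : W ≤ V := by
    rw [← hWs]; exact le_sup_left
  -- `A` normalizes `E` and `W`
  have hmapB : ∀ a ∈ A, B₁.map (MulAut.conj a).toMonoidHom = B₁ := by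
    intro a ha
    apply Subgroup.mem_normalizer_iff_map_conj_eq.1
    rw [Subgroup.mem_normalizer_iff]
    intro x
    constructor
    · intro hx
      rw [hAc a ha x (hB₁A hx), mul_inv_cancel_right]
      exact hx
    · intro hx
      have h1 := hAc a⁻¹ (A.inv_mem ha) _ (hB₁A hx)
      have h2 : x = a * x * a⁻¹ := by
        calc x = a⁻¹ * (a * x * a⁻¹) * a := by group
          _ = (a * x * a⁻¹) * a⁻¹ * a := by rw [h1]
          _ = _ := by group
      rw [h2]; exact hx
  have hmapN : ∀ a ∈ A, N.map (MulAut.conj a).toMonoidHom = N := fun a ha =>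
    Subgroup.mem_normalizer_iff_map_conj_eq.1 (hNn (hAH ha))
  have hmapV : ∀ a ∈ A, V.map (MulAut.conj a).toMonoidHom = V := fun a ha =>
    Subgroup.mem_normalizer_iff_map_conj_eq.1 (hAV ha)
  have hmapE : ∀ a ∈ A, E.map (MulAut.conj a).toMonoidHom = E := by
    intro a ha
    rw [hE, Subgroup.map_sup, Subgroup.map_commutator, hmapB a ha, hmapN a ha]
  have hmapW : ∀ a ∈ A, W.map (MulAut.conj a).toMonoidHom = W := by
    intro a ha
    rw [hW, Subgroup.map_commutator, hmapV a ha, hmapE a ha]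
  have hAW : ∀ a ∈ A, ∀ w ∈ W, a * w * a⁻¹ ∈ W := by
    intro a ha w hw
    have h1 : (MulAut.conj a).toMonoidHom w ∈ W.map (MulAut.conj a).toMonoidHom := ⟨w, hw, rfl⟩
    rw [hmapW a ha] at h1
    exact h1
  -- the generator `b` of `B₁`
  obtain ⟨b, hb, hb1⟩ : ∃ b ∈ B₁, b ≠ 1 := by
    by_contra hcon
    push Not at hcon
    have : B₁ = ⊥ := (Subgroup.eq_bot_iff_forall _).2 hcon
    rw [this, Subgroup.card_bot] at hB₁card
    omega
  have hbA : b ∈ A := hB₁A hb
  have hbb : b * b = 1 := by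
    have h1 : (⟨b, hb⟩ : B₁) ^ 2 = 1 := by
      rw [← hB₁card]; exact pow_card_eq_one'
    have h2 := congrArg Subtype.val h1
    rw [← pow_two]
    exact h2
  have hB₁eq : ∀ x ∈ B₁, x = 1 ∨ x = b := by
    intro x hx
    by_contra hcon
    push Not at hcon
    have h1 : ({1, b, x} : Set G) ⊆ (B₁ : Set G) := by
      intro y hy
      rcases hy with rfl | rfl | rfl
      · exact B₁.one_mem
      · exact hb
      · exact hx
    have h2 := Set.ncard_le_ncard h1
    have h3 : ({1, b, x} : Set G).ncard = 3 := by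
      rw [Set.ncard_eq_three]
      exact ⟨1, b, x, hb1.symm, hcon.1.symm, hcon.2.symm, rfl⟩
    have h4 : (B₁ : Set G).ncard = 2 := hB₁card
    omega
  obtain ⟨w₁, hw₁, hw₁b⟩ : ∃ w ∈ W, b * w ≠ w * b := by
    by_contra hcon
    push Not at hcon
    apply hB₁ne
    rw [Subgroup.commutator_eq_bot_iff_le_centralizer, ← hWs]
    refine sup_le ?_ ?_
    · intro w hw
      rw [Subgroup.mem_centralizer_iff]
      intro x hx
      rcases hB₁eq x hx with rfl | rfl
      · rw [one_mul, mul_one]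
      · exact hcon w hw
    · exact inf_le_right.trans (Subgroup.centralizer_le (SetLike.coe_subset_coe.2 le_sup_right))
  have hWsq : ∀ w ∈ W, w * w = 1 := fun w hw => by rw [← pow_two]; exact hV2 w (hWV hw)
  have hWinv : ∀ w ∈ W, w⁻¹ = w := fun w hw => inv_eq_of_mul_eq_one_left (hWsq w hw)
  have hWc : ∀ x ∈ W, ∀ y ∈ W, x * y = y * x := fun x hx y hy => hVc x (hWV hx) y (hWV hy)
  set w₂ := b * w₁ * b⁻¹ with hw₂
  have hw₂W : w₂ ∈ W := hAW b hbA w₁ hw₁
  set w₀ := w₂ * w₁ with hw₀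
  have hw₀W : w₀ ∈ W := W.mul_mem hw₂W hw₁
  have hw21 : w₂ ≠ w₁ := by
    intro h1
    apply hw₁b
    rw [hw₂] at h1
    calc b * w₁ = b * w₁ * b⁻¹ * b := by group
      _ = w₁ * b := by rw [h1]
  have hw₀1 : w₀ ≠ 1 := by
    intro h1
    apply hw21
    have h2 := eq_inv_of_mul_eq_one_left h1
    rw [h2, hWinv w₁ hw₁]
  have hw₁1 : w₁ ≠ 1 := by
    intro h1
    apply hw₁b
    rw [h1, mul_one, one_mul]
  have hw₂1 : w₂ ≠ 1 := by
    intro h1
    apply hw₁1
    rw [hw₂] at h1
    exact conj_eq_one_iff.1 h1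
  have hw01 : w₀ ≠ w₁ := by
    intro h1
    apply hw₂1
    rw [hw₀] at h1
    exact mul_eq_right.1 h1
  have hw02 : w₀ ≠ w₂ := by
    intro h1
    apply hw₁1
    rw [hw₀] at h1
    exact mul_eq_left.1 h1
  have hWeq : (W : Set G) = {1, w₀, w₁, w₂} := by
    symm
    apply Set.eq_of_subset_of_ncard_le
    · rintro x (rfl | rfl | rfl | rfl)
      · exact W.one_mem
      · exact hw₀W
      · exact hw₁
      · exact hw₂W
    · have h4 : (W : Set G).ncard = 4 := hW4
      rw [h4, Set.ncard_insert_of_notMem (by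
          simp only [Set.mem_insert_iff, Set.mem_singleton_iff, not_or]
          exact ⟨hw₀1.symm, hw₁1.symm, hw₂1.symm⟩),
        Set.ncard_eq_three.2 ⟨w₀, w₁, w₂, hw01, hw02, hw21.symm, rfl⟩]
    · exact Set.toFinite _
  have hbw₀ : b * w₀ * b⁻¹ = w₀ := by
    have h1 : b * w₂ * b⁻¹ = w₁ := by
      rw [hw₂]
      calc b * (b * w₁ * b⁻¹) * b⁻¹ = (b * b) * w₁ * (b * b)⁻¹ := by group
        _ = w₁ := by rw [hbb]; group
    calc b * w₀ * b⁻¹ = (b * w₂ * b⁻¹) * (b * w₁ * b⁻¹) := by rw [hw₀]; group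
      _ = w₁ * w₂ := by rw [h1]
      _ = w₀ := hWc _ hw₁ _ hw₂W
  -- elements of `A` fix `w₀`
  have hAw₀ : ∀ a ∈ A, a * w₀ * a⁻¹ = w₀ := by
    intro a ha
    have h1 : a * w₀ * a⁻¹ ∈ (W : Set G) := hAW a ha w₀ hw₀W
    have h2 : b * (a * w₀ * a⁻¹) * b⁻¹ = a * w₀ * a⁻¹ := by
      have h3 := hAc a ha b hbA
      calc b * (a * w₀ * a⁻¹) * b⁻¹ = (b * a) * w₀ * (b * a)⁻¹ := by group
        _ = (a * b) * w₀ * (a * b)⁻¹ := by rw [h3]
        _ = a * (b * w₀ * b⁻¹) * a⁻¹ := by group
        _ = a * w₀ * a⁻¹ := by rw [hbw₀]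
    rw [hWeq] at h1
    rcases h1 with h1 | h1 | h1 | h1
    · exact absurd (conj_eq_one_iff.1 h1) hw₀1
    · exact h1
    · exfalso
      rw [h1] at h2
      exact hw21 h2
    · exfalso
      rw [Set.mem_singleton_iff] at h1
      rw [h1] at h2
      apply hw21
      have h3 : b * w₂ * b⁻¹ = b * w₁ * b⁻¹ := by rw [h2]
      exact mul_left_cancel (mul_right_cancel h3)
  have hcent : ∀ x : G, x * w₀ * x⁻¹ = w₀ → x * w₁ * x⁻¹ = w₁ → x ∈ Subgroup.centralizer (W : Set G) := by
    intro x h0 h1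
    have h2 : x * w₂ * x⁻¹ = w₂ := by
      have e : w₂ = w₀ * w₁ := by
        rw [hw₀, mul_assoc, hWsq w₁ hw₁, mul_one]
      rw [e]
      calc x * (w₀ * w₁) * x⁻¹ = (x * w₀ * x⁻¹) * (x * w₁ * x⁻¹) := by group
        _ = w₀ * w₁ := by rw [h0, h1]
    rw [Subgroup.mem_centralizer_iff]
    intro w hw
    rw [hWeq] at hw
    have key : ∀ v : G, x * v * x⁻¹ = v → v * x = x * v := by
      intro v hv
      calc v * x = (x * v * x⁻¹) * x := by rw [hv]
        _ = x * v := by group
    rcases hw with rfl | rfl | rfl | hw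
    · rw [one_mul, mul_one]
    · exact key _ h0
    · exact key _ h1
    · rw [Set.mem_singleton_iff] at hw
      rw [hw]
      exact key _ h2
  have hdich : ∀ a ∈ A, a ∈ A ⊓ Subgroup.centralizer (W : Set G) ∨
      b⁻¹ * a ∈ A ⊓ Subgroup.centralizer (W : Set G) := by
    intro a ha
    have h1 : a * w₁ * a⁻¹ ∈ (W : Set G) := hAW a ha w₁ hw₁
    rw [hWeq] at h1
    rcases h1 with h1 | h1 | h1 | h1
    · exact absurd (conj_eq_one_iff.1 h1) hw₁1
    · exfalso
      have h2 : a * w₁ * a⁻¹ = a * w₀ * a⁻¹ := by rw [h1, hAw₀ a ha]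
      exact hw01 (mul_left_cancel (mul_right_cancel h2)).symm
    · exact Or.inl ⟨ha, hcent a (hAw₀ a ha) h1⟩
    · right
      rw [Set.mem_singleton_iff] at h1
      have hba : b⁻¹ * a ∈ A := A.mul_mem (A.inv_mem hbA) ha
      refine ⟨hba, hcent _ (hAw₀ _ hba) ?_⟩
      calc b⁻¹ * a * w₁ * (b⁻¹ * a)⁻¹ = b⁻¹ * (a * w₁ * a⁻¹) * b := by group
        _ = b⁻¹ * (b * w₁ * b⁻¹) * b := by rw [h1]
        _ = w₁ := by group
  set A' : Subgroup G := A ⊓ Subgroup.centralizer (W : Set G) with hA'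
  have hbA' : b ∉ A' := by
    intro hbA'
    exact hw₁b (Subgroup.mem_centralizer_iff.1 hbA'.2 w₁ hw₁).symm
  have hlt : Nat.card A' < n := by
    rw [← hn]
    have h1 : A' < A := lt_of_le_of_ne inf_le_left (fun h1 => hbA' (h1 ▸ hbA))
    have := card_two_mul_le h1
    have h2 : 0 < Nat.card A' := Nat.card_pos
    omega
  have hineq : Ineq V A' := by
    intro C hC
    have h1 := hbest C (hC.trans inf_le_left)
    have h2 : Nat.card A ≤ Nat.card A' * 2 := card_le_two_mul hdich
    have h3 : 2 * Nat.card ↥(V ⊓ Subgroup.centralizer (A : Set G)) ≤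
        Nat.card ↥(V ⊓ Subgroup.centralizer (A' : Set G)) := by
      apply card_two_mul_le
      refine lt_of_le_of_ne (inf_le_inf_left _ (Subgroup.centralizer_le (SetLike.coe_subset_coe.2 inf_le_left))) ?_
      intro h4
      have h5 : w₁ ∈ V ⊓ Subgroup.centralizer (A' : Set G) := by
        refine ⟨hWV hw₁, ?_⟩
        refine Subgroup.mem_centralizer_iff.2 ?_
        intro x hx
        exact ((Subgroup.mem_centralizer_iff.1 hx.2) w₁ hw₁).symm
      rw [← h4] at h5
      exact hw₁b (Subgroup.mem_centralizer_iff.1 h5.2 b hbA)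
    calc Nat.card C * Nat.card ↥(V ⊓ Subgroup.centralizer (C : Set G)) ≤
          Nat.card A * Nat.card ↥(V ⊓ Subgroup.centralizer (A : Set G)) := h1
      _ ≤ Nat.card A' * 2 * Nat.card ↥(V ⊓ Subgroup.centralizer (A : Set G)) := by gcongr
      _ = Nat.card A' * (2 * Nat.card ↥(V ⊓ Subgroup.centralizer (A : Set G))) := by ring
      _ ≤ _ := by gcongr
  have hIH := ih _ hlt A' rfl (inf_le_left.trans hAH) (hAp.to_le inf_le_left)
    (fun a ha b hb => hAc a ha.1 b hb.1) hineq
  intro a ha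
  rcases hdich a ha with h1 | h1
  · exact hIH a h1
  · have h2 := hIH _ h1
    have h3 := hAc b⁻¹ (A.inv_mem hbA) a ha
    have h4 : b⁻¹ * b⁻¹ = 1 := by rw [← mul_inv_rev, hbb, inv_one]
    calc a * a = (b⁻¹ * b⁻¹) * (a * a) := by rw [h4, one_mul]
      _ = b⁻¹ * (b⁻¹ * a) * a := by group
      _ = b⁻¹ * (a * b⁻¹) * a := by rw [h3]
      _ = b⁻¹ * a * (b⁻¹ * a) := by group
      _ = 1 := h2

end

end Cfsg.Agent.H561.FFAbelian
end

-- part: H561/FFAbelianBridge
section
/-!
# Abelian subgroups of largest order as offenders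
-/

set_option autoImplicit false
open Cfsg
open scoped commutatorElement

namespace Cfsg.Agent.H561.FFAbelian

open PLocal.FFBridge Subgroup

/-- Abelian subgroups of largest order satisfy the best-offender inequality on every abelian normal subgroup
contained in `T`. -/
theorem ineq_of_max {G : Type*} [Group G] [Finite G] {T A V : Subgroup G}
    (hA : A ∈ PLocal.ThompsonJA.maxAbelianIn T) (hVT : V ≤ T)
    (hVc : ∀ x ∈ V, ∀ y ∈ V, x * y = y * x) : Ineq V A := by
  obtain ⟨hAT, hAc, hmax⟩ := hA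
  rw [PLocal.ThompsonJA.isMulCommutative_iff] at hAc
  intro B hBA
  have h2 : V ⊓ centralizer (B : Set G) ≤ centralizer (B : Set G) := inf_le_right
  rw [← PLocal.ElemAbSup.card_sup_mul_card_inf h2]
  refine Nat.mul_le_mul (hmax _ (sup_le (hBA.trans hAT) (inf_le_left.trans hVT)) ?_)
    (Subgroup.card_le_of_le ?_)
  · rw [PLocal.ThompsonJA.isMulCommutative_iff]
    have key : B ⊔ (V ⊓ centralizer (B : Set G)) ≤
        centralizer ((B ⊔ (V ⊓ centralizer (B : Set G)) : Subgroup G) : Set G) := by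
      refine sup_le ?_ ?_
      · rw [le_centralizer_iff]
        refine sup_le ?_ inf_le_right
        intro x hx
        rw [mem_centralizer_iff]
        exact fun y hy => hAc y (hBA hy) x (hBA hx)
      · rw [le_centralizer_iff]
        refine sup_le ?_ ?_
        · rw [le_centralizer_iff]
          exact inf_le_right
        · intro x hx
          rw [mem_centralizer_iff]
          exact fun y hy => hVc y hy.1 x hx.1
    intro x hx y hy
    exact (mem_centralizer_iff.1 (key hy) x hx)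
  · intro x hx
    refine mem_inf.2 ⟨hx.2.1, ?_⟩
    rw [mem_centralizer_iff]
    intro a ha
    exact hAc a ha x (hBA hx.1)

section
variable {K Γ : Type*} [Group K] [Group Γ] {V : Subgroup K} {f : K →* Γ} {j : V →* Γ}

/-- Images under a compatible pair satisfy the inequality. -/
theorem ineq_map [Finite K] (h : Compat V f j) [V.Normal] {A : Subgroup K}
    (h1 : Ineq V A) : Ineq j.range (A.map f) := by
  intro B hB
  -- `B = f(B')` with `B' = A ∩ f⁻¹(B) ≥ A ∩ ker f`
  let B' : Subgroup K := A ⊓ B.comap f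
  have hB'A : B' ≤ A := inf_le_left
  have hB' : B'.map f = B := by
    apply le_antisymm
    · rintro _ ⟨b, hb, rfl⟩
      exact hb.2
    · intro b hb
      obtain ⟨a, ha, rfl⟩ := hB hb
      exact ⟨a, ⟨ha, hb⟩, rfl⟩
  have h4 := h1 B' hB'A
  rw [← hB', h.card_inf_centralizer, h.card_inf_centralizer]
  -- orders: `|A| = |f(A)| |A ∩ ker f|`, `|B'| = |f(B')| |A ∩ ker f|`
  have hcard : ∀ C : Subgroup K, Nat.card C = Nat.card (C.map f) * Nat.card ↥(C ⊓ f.ker) := by
    intro C
    have e1 : (C.map f) = (f.comp C.subtype).range := by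
      rw [MonoidHom.range_comp, Subgroup.range_subtype]
    have e2 : Nat.card ↥(C ⊓ f.ker) = Nat.card (f.comp C.subtype).ker := by
      have e3 : (f.comp C.subtype).ker = (C ⊓ f.ker).subgroupOf C := by
        ext x
        simp [MonoidHom.mem_ker, Subgroup.mem_subgroupOf]
      rw [e3]
      exact (Nat.card_congr (Subgroup.subgroupOfEquivOfLe inf_le_left).toEquiv).symm
    rw [e1, e2, ← Subgroup.index_ker, mul_comm, Subgroup.card_mul_index]
  have hk : B' ⊓ f.ker = A ⊓ f.ker := by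
    ext x
    constructor
    · rintro ⟨⟨hx, _⟩, hx'⟩
      exact ⟨hx, hx'⟩
    · rintro ⟨hx, hx'⟩
      refine ⟨⟨hx, ?_⟩, hx'⟩
      change f x ∈ B
      rw [(hx' : f x = 1)]
      exact B.one_mem
  rw [hcard B', hcard A, hk] at h4
  have hpos : 0 < Nat.card ↥(A ⊓ f.ker) := Nat.card_pos
  have h5 : (Nat.card ↥(A ⊓ f.ker)) *
      (Nat.card ↥(B'.map f) * Nat.card ↥(V ⊓ centralizer (B' : Set K))) ≤
      (Nat.card ↥(A ⊓ f.ker)) *
      (Nat.card ↥(A.map f) * Nat.card ↥(V ⊓ centralizer (A : Set K))) := by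
    calc _ = Nat.card ↥(B'.map f) * Nat.card ↥(A ⊓ f.ker) *
          Nat.card ↥(V ⊓ centralizer (B' : Set K)) := by ring
      _ ≤ _ := h4
      _ = _ := by ring
  exact Nat.le_of_mul_le_mul_left h5 hpos

end

/-- The situation in the semidirect product: `Γ ≥ f(X), j(U)`. -/
theorem sit_of_compat {X Γ : Type*} [Group X] [Finite X] [Group Γ] [Group.IsSolvable X] (U : Subgroup X) (hUn : U.Normal)
    (hU : Cfsg.IsElementaryAbelian 2 U) (hO : Cfsg.pCore 2 (X ⧸ centralizer (U : Set X)) = ⊥)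
    {f : X →* Γ} {j : U →* Γ} (h : Compat U f j) (hker : ∀ k : X, f k = 1 ↔ k ∈ centralizer (U : Set X)) :
    Sit j.range f.range := by
  refine ⟨?_, ?_, ?_, ?_, ?_⟩
  · rw [PLocal.ThompsonJ.isElementaryAbelian_iff] at hU ⊢
    constructor
    · rintro _ ⟨v, rfl⟩ _ ⟨w, rfl⟩
      rw [← map_mul, ← map_mul]
      congr 1
      exact Subtype.ext (hU.1 v v.2 w w.2)
    · rintro _ ⟨v, rfl⟩
      rw [← map_pow]
      have : v ^ 2 = 1 := Subtype.ext (hU.2 v v.2)
      rw [this, map_one]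
  · rintro _ ⟨k, rfl⟩
    rw [Subgroup.mem_normalizer_iff]
    intro x
    constructor
    · rintro ⟨v, rfl⟩
      exact ⟨⟨k * v * k⁻¹, hUn.conj_mem _ v.2 k⟩, (h.act k v _ rfl).symm⟩
    · rintro ⟨v, hv⟩
      have h1 := h.act k⁻¹ v ⟨k⁻¹ * v * k⁻¹⁻¹, hUn.conj_mem _ v.2 k⁻¹⟩ rfl
      refine ⟨_, h1.symm.trans ?_⟩
      rw [hv, map_inv]; group
  · rw [eq_bot_iff]
    rintro _ ⟨⟨k, rfl⟩, hk⟩
    have : k ∈ centralizer (U : Set X) := by
      rw [Subgroup.mem_centralizer_iff]
      intro v hv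
      exact ((h.commute_iff k ⟨v, hv⟩).1
        ((Subgroup.mem_centralizer_iff.1 hk) (j ⟨v, hv⟩) ⟨⟨v, hv⟩, rfl⟩).symm).symm
    rw [(hker k).2 this]
    exact Subgroup.one_mem _
  · exact Group.isSolvable_of_surjective f.rangeRestrict_surjective
  · have hk : f.ker = centralizer (U : Set X) := by
      ext x
      exact hker x
    let e : X ⧸ centralizer (U : Set X) ≃* f.range :=
      (QuotientGroup.quotientMulEquivOfEq hk.symm).trans (QuotientGroup.quotientKerEquivRange f)
    have h1 := Lib.Cores.map_equiv_pCore e 2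
    rw [hO, Subgroup.map_bot] at h1
    exact h1.symm

end Cfsg.Agent.H561.FFAbelian
end

-- part: S4302
section
set_option autoImplicit false
open Cfsg

namespace Cfsg.Agent.S4302

open Subgroup
open scoped commutatorElement

/-- an element of odd order which centralises `Ω₁(T)` centralises the abelian 2-group `T` -/
theorem odd_centralizes {G : Type*} [Group G] [Finite G] {T : Subgroup G}
    (hcomm : ∀ x ∈ T, ∀ y ∈ T, x * y = y * x) {g : G} (hodd : Odd (orderOf g))
    (hg : ∀ t ∈ T, g * t * g⁻¹ ∈ T) (hA : ∀ t ∈ T, t * t = 1 → g * t = t * g) (k : ℕ) :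
    ∀ t ∈ T, t ^ 2 ^ k = 1 → g * t = t * g := by
  induction k with
  | zero =>
    intro t ht h
    rw [pow_zero, pow_one] at h
    rw [h, mul_one, one_mul]
  | succ k ih =>
    intro t ht h
    have h1 : g * (t * t) = (t * t) * g := by
      apply ih _ (mul_mem ht ht)
      rw [← pow_two, ← pow_mul, ← pow_succ']
      exact h
    set a := g * t * g⁻¹ * t⁻¹ with ha
    have haT : a ∈ T := mul_mem (hg t ht) (inv_mem ht)
    have h2 : a * a = 1 := by
      have e1 := hcomm (t⁻¹) (inv_mem ht) (g * t * g⁻¹) (hg t ht)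
      calc a * a = g * t * g⁻¹ * (t⁻¹ * (g * t * g⁻¹)) * t⁻¹ := by rw [ha]; group
        _ = g * (t * t) * g⁻¹ * (t * t)⁻¹ := by rw [e1]; group
        _ = 1 := by rw [h1]; group
    have h3 : g * a = a * g := hA a haT h2
    -- `g t g⁻¹ = a t`, so `g^n t g^-n = a^n t`
    have h4 : ∀ n : ℕ, g ^ n * t = a ^ n * t * g ^ n := by
      intro n
      induction n with
      | zero => simp
      | succ n ihn =>
        have h5 : g * t = a * t * g := by rw [ha]; group
        have h6 : g * a ^ n = a ^ n * g := ((show Commute g a from h3).pow_right n).eq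
        calc g ^ (n + 1) * t = g * (g ^ n * t) := by rw [pow_succ']; group
          _ = (g * a ^ n) * t * g ^ n := by rw [ihn]; group
          _ = a ^ n * (g * t) * g ^ n := by rw [h6]; group
          _ = a ^ n * (a * t * g) * g ^ n := by rw [h5]
          _ = a ^ (n + 1) * t * g ^ (n + 1) := by rw [pow_succ, pow_succ' g n]; group
    have h5 := h4 (orderOf g)
    rw [pow_orderOf_eq_one, one_mul, mul_one] at h5
    have h6 : a ^ orderOf g = 1 := by
      exact (right_eq_mul.1 h5)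
    obtain ⟨m, hm⟩ := hodd
    have h7 : a = 1 := by
      rw [hm, pow_succ, pow_mul, pow_two, h2, one_pow, one_mul] at h6
      exact h6
    have h8 : g * t = a * t * g := by rw [ha]; group
    rw [h8, h7, one_mul]

theorem exists_iso {Γ : Type*} [Group Γ] [Finite Γ] {V H : Subgroup Γ} (h : Cfsg.Agent.H561.FFAbelian.Sit V H)
    {K : Subgroup Γ} (hKH : K ≤ H) (hHK : H ≤ normalizer (K : Set Γ)) (hK1 : K ≠ ⊥)
    (hgen : K = ⨆ A : {A : Subgroup Γ // A ≤ K ∧ Cfsg.IsBestOffenderOn 2 V A}, (A : Subgroup Γ)) :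
    ∃ n : ℕ, 1 ≤ n ∧ Nonempty (K ≃* (Fin n → Equiv.Perm (Fin 3))) := by
  classical
  have hKf : K ⊓ Subgroup.centralizer (V : Set Γ) = ⊥ :=
    le_bot_iff.1 (h.hf ▸ inf_le_inf_right _ hKH)
  obtain ⟨-, h1, h2, h3, -⟩ := S0617.result V K h.hV (hKH.trans h.hHV) hKf (h.centralizer_le hKH hHK) hgen hK1
  set ι := {E : Subgroup Γ // ∃ A : Subgroup Γ, A ≤ K ∧ Cfsg.IsBestOffenderOn 2 V A ∧ ⁅V, A⁆ ≠ ⊥ ∧
    (∀ B : Subgroup Γ, B ≤ A → Cfsg.IsBestOffenderOn 2 V B → ⁅V, B⁆ ≠ ⊥ → B = A) ∧
    E = ⁅((Cfsg.pPrimeCore 2 ↥K).map K.subtype), A⁆ ⊔ A} with hι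
  have hle : ∀ E : ι, (E : Subgroup Γ) ≤ K := by
    intro E
    exact (le_iSup (fun E : ι => (E : Subgroup Γ)) E).trans h3.le
  have hcomm : Pairwise fun E F : ι => ∀ x y : Γ, x ∈ (E : Subgroup Γ) → y ∈ (F : Subgroup Γ) → Commute x y := by
    intro E F hEF x y hx hy
    have hd : Disjoint (E : Subgroup Γ) (F : Subgroup Γ) := h2.pairwiseDisjoint hEF
    have h4 : x * y * x⁻¹ * y⁻¹ ∈ (E : Subgroup Γ) ⊓ (F : Subgroup Γ) := by
      refine ⟨?_, ?_⟩
      · have h5 := (mem_normalizer_iff.1 ((h1 E).1 (hle F hy)) x⁻¹).1 (E.1.inv_mem hx)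
        have h6 := E.1.mul_mem hx h5
        have e : x * y * x⁻¹ * y⁻¹ = x * (y * x⁻¹ * y⁻¹) := by group
        rw [e]
        exact h6
      · exact F.1.mul_mem ((mem_normalizer_iff.1 ((h1 F).1 (hle E hx)) y).1 hy) (F.1.inv_mem hy)
    rw [hd.eq_bot, mem_bot] at h4
    show x * y = y * x
    calc x * y = (x * y * x⁻¹ * y⁻¹) * (y * x) := by group
      _ = y * x := by rw [h4, one_mul]
  obtain ⟨e1⟩ := Cfsg.Agent.Lib.MinNormal.mulEquiv_pi_of_iSupIndep (fun E : ι => (E : Subgroup Γ)) hcomm h2 h3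
  have hS : Nonempty (Matrix.SpecialLinearGroup (Fin 2) (ZMod 2) ≃* Equiv.Perm (Fin 3)) :=
    ⟨MulEquiv.ofBijective LieClassical.SLTwoTwo.hom LieClassical.SLTwoTwo.hom_bijective⟩
  obtain ⟨eS⟩ := hS
  have e2 : ∀ E : ι, Nonempty ((E : Subgroup Γ) ≃* Equiv.Perm (Fin 3)) := fun E =>
    ⟨(h1 E).2.1.some.trans eS⟩
  let e3 : ∀ E : ι, (E : Subgroup Γ) ≃* Equiv.Perm (Fin 3) := fun E => (e2 E).some
  have hfin : Finite ι := inferInstance
  obtain ⟨n, ⟨e4⟩⟩ := Finite.exists_equiv_fin ι
  refine ⟨n, ?_, ⟨e1.trans ((MulEquiv.piCongrRight fun E => e3 E).trans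
    (MulEquiv.arrowCongr e4 (MulEquiv.refl _)))⟩⟩
  rw [Nat.one_le_iff_ne_zero]
  rintro rfl
  have : IsEmpty ι := e4.isEmpty
  exact hK1 (h3.symm.trans (iSup_of_empty _))

/-- Part one: the Frattini argument. -/
theorem part_one {X : Type*} [Group X] [Finite X] (T : Sylow 2 X) (C : Subgroup X) :
    C ⊔ normalClosure (Cfsg.thompsonSubgroupAOf (T : Subgroup X) : Set X) ⊔
      normalizer (Cfsg.thompsonSubgroupAOf (T : Subgroup X) : Set X) = ⊤ := by
  set J := Cfsg.thompsonSubgroupAOf (T : Subgroup X) with hJ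
  set Y := normalClosure (J : Set X) with hY
  have hJT : J ≤ (T : Subgroup X) := PLocal.ThompsonJA.thompsonSubgroupAOf_le _
  have hJY : J ≤ Y := le_normalClosure
  have h1 := Lib.SylowNormalInf.normalizer_inf_sup_eq_top T Y
  have h2 : Cfsg.thompsonSubgroupAOf ((T : Subgroup X) ⊓ Y) = J :=
    PLocal.ThompsonJA.thompsonSubgroupAOf_eq_of_le (le_inf hJT hJY) inf_le_left
  have h3 : normalizer (((T : Subgroup X) ⊓ Y : Subgroup X) : Set X) ≤ normalizer (J : Set X) := by
    have h4 := PLocal.ThompsonJA.normalizer_le_normalizer_thompsonSubgroupAOf ((T : Subgroup X) ⊓ Y)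
    rwa [h2] at h4
  rw [eq_top_iff, ← h1]
  exact sup_le (h3.trans le_sup_right) (le_sup_right.trans le_sup_left)

theorem pCore_quotient_congr {X : Type*} [Group X] {N M : Subgroup X} [N.Normal] [M.Normal] (h : N = M)
    (hN : Cfsg.pCore 2 (X ⧸ N) = ⊥) : Cfsg.pCore 2 (X ⧸ M) = ⊥ := by
  subst h
  exact hN

/-- Part two. -/
theorem part_two {X : Type*} [Group X] [Finite X]
    [Group.IsSolvable X] (hF : Cfsg.fittingSubgroup X = Cfsg.pCore 2 X) (T : Sylow 2 X)
    (Z C Y : Subgroup X) [hCn0 : C.Normal] (hZ : Z = (T : Subgroup X) ⊓ centralizer ((T : Subgroup X) : Set X))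
    (hC : C = (centralizer (Z : Set X)).normalCore)
    (hY : Y = normalClosure (Cfsg.thompsonSubgroupAOf (T : Subgroup X) : Set X)) :
    Y ≤ C ∨ ∃ n : ℕ, 1 ≤ n ∧ Nonempty (↥Y ⧸ C.subgroupOf Y ≃* (Fin n → Equiv.Perm (Fin 3))) := by
  classical
  set Q := Cfsg.pCore 2 X with hQ
  have hQn : Q.Normal := Lib.Cores.pCore_normal 2
  have hCQ : centralizer (Q : Set X) ≤ Q := by
    have := S0044.result (G := X)
    rwa [hF] at this
  have hQT : Q ≤ (T : Subgroup X) := Lib.Cores.pCore_le_sylow T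
  set V := normalClosure (Z : Set X) with hV
  have hVn : V.Normal := normalClosure_normal
  have hZV : Z ≤ V := le_normalClosure
  -- `V ≤ Z(Q)`
  have hZQ : Z ≤ Q ⊓ centralizer (Q : Set X) := by
    have h1 : Z ≤ centralizer (Q : Set X) := by
      rw [hZ]
      exact inf_le_right.trans (centralizer_le (SetLike.coe_subset_coe.2 hQT))
    exact le_inf (h1.trans hCQ) h1
  have hZQn : (Q ⊓ centralizer (Q : Set X)).Normal := inferInstance
  have hVQ : V ≤ Q ⊓ centralizer (Q : Set X) := normalClosure_le_normal (SetLike.coe_subset_coe.2 hZQ)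
  have hVc : ∀ x ∈ V, ∀ y ∈ V, x * y = y * x := fun x hx y hy =>
    mem_centralizer_iff.1 (hVQ hy).2 x (hVQ hx).1
  have hVp : IsPGroup 2 V := (Lib.Cores.pCore_isPGroup (G := X) 2).to_le (hVQ.trans inf_le_left)
  have hVT : V ≤ (T : Subgroup X) := (hVQ.trans inf_le_left).trans hQT
  -- `C = C_X(V)`
  have hCV : C = centralizer (V : Set X) := by
    have hCn : C.Normal := by rw [hC]; exact normalCore_normal _
    apply le_antisymm
    · have h1 : Z ≤ centralizer (C : Set X) := by
        rw [le_centralizer_iff, hC]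
        exact normalCore_le _
      have h2 : V ≤ centralizer (C : Set X) := normalClosure_le_normal (SetLike.coe_subset_coe.2 h1)
      rwa [le_centralizer_iff] at h2
    · rw [hC]
      exact normal_le_normalCore.2 (centralizer_le (SetLike.coe_subset_coe.2 hZV))
  have hcore : Cfsg.pCore 2 (X ⧸ centralizer (V : Set X)) = ⊥ :=
    Transfer.ThompsonFactor.pCore_quotient_centralizer_eq_bot T (Z : Set X) (by
      intro z hz x hx
      have hz' : z ∈ Z := hz
      rw [hZ] at hz'
      exact mem_centralizer_iff.1 hz'.2 x hx)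
  -- `U = Ω₁(V)`
  let U : Subgroup X :=
    { carrier := {x | x ∈ V ∧ x * x = 1}
      one_mem' := ⟨one_mem _, one_mul 1⟩
      mul_mem' := by
        rintro x y ⟨hx, hx'⟩ ⟨hy, hy'⟩
        refine ⟨mul_mem hx hy, ?_⟩
        calc x * y * (x * y) = x * (y * x) * y := by group
          _ = x * (x * y) * y := by rw [hVc x hx y hy]
          _ = (x * x) * (y * y) := by group
          _ = 1 := by rw [hx', hy', one_mul]
      inv_mem' := by
        rintro x ⟨hx, hx'⟩
        refine ⟨inv_mem hx, ?_⟩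
        rw [← mul_inv_rev, hx', inv_one] }
  have hUV : U ≤ V := fun x hx => hx.1
  have hUn : U.Normal := by
    constructor
    rintro x ⟨hx, hx'⟩ g
    refine ⟨hVn.conj_mem x hx g, ?_⟩
    calc g * x * g⁻¹ * (g * x * g⁻¹) = g * (x * x) * g⁻¹ := by group
      _ = 1 := by rw [hx']; group
  have hU : Cfsg.IsElementaryAbelian 2 U := by
    rw [PLocal.ThompsonJ.isElementaryAbelian_iff]
    exact ⟨fun x hx y hy => hVc x hx.1 y hy.1, fun x hx => by rw [pow_two]; exact hx.2⟩
  -- `C_X(U) = C_X(V)`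
  have hCU : centralizer (U : Set X) = centralizer (V : Set X) := by
    apply le_antisymm
    · have h1 : (centralizer (U : Set X)).map (QuotientGroup.mk' (centralizer (V : Set X))) ≤
          Cfsg.pCore 2 (X ⧸ centralizer (V : Set X)) := by
        apply Lib.Cores.le_pCore
        · exact Normal.map inferInstance _ (QuotientGroup.mk'_surjective _)
        · rintro ⟨_, ⟨x, hx, rfl⟩⟩
          obtain ⟨k, m, hm, hkm⟩ := Nat.exists_eq_two_pow_mul_odd (n := orderOf x) (orderOf_pos x).ne'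
          refine ⟨k, Subtype.ext ?_⟩
          show QuotientGroup.mk' (centralizer (V : Set X)) x ^ 2 ^ k = 1
          rw [← map_pow, QuotientGroup.mk'_apply, QuotientGroup.eq_one_iff]
          have hodd : Odd (orderOf (x ^ 2 ^ k)) := by
            rw [orderOf_pow' _ (by positivity), hkm, Nat.gcd_eq_right (Dvd.intro _ rfl),
              Nat.mul_div_cancel_left _ (by positivity)]
            exact hm
          have hxU : x ^ 2 ^ k ∈ centralizer (U : Set X) := pow_mem hx _
          rw [mem_centralizer_iff]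
          intro v hv
          obtain ⟨r, hr⟩ := hVp ⟨v, hv⟩
          have hr' : v ^ 2 ^ r = 1 := congrArg Subtype.val hr
          exact (odd_centralizes hVc hodd (fun t ht => hVn.conj_mem t ht _)
            (fun t ht ht2 => (mem_centralizer_iff.1 hxU t ⟨ht, ht2⟩).symm) r v hv hr').symm
      rw [hcore, le_bot_iff, Subgroup.map_eq_bot_iff, QuotientGroup.ker_mk'] at h1
      exact h1
    · exact centralizer_le (SetLike.coe_subset_coe.2 hUV)
  obtain ⟨Γ, hΓ, hΓfin, f, j, hcompat, hker, -⟩ := PLocal.FFBridge.exists_data U hUn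
  have hcore' : Cfsg.pCore 2 (X ⧸ centralizer (U : Set X)) = ⊥ := pCore_quotient_congr hCU.symm hcore
  have hsit := Cfsg.Agent.H561.FFAbelian.sit_of_compat U hUn hU hcore' hcompat hker
  by_cases hYC : Y ≤ C
  · exact Or.inl hYC
  right
  have hYn : Y.Normal := by rw [hY]; exact normalClosure_normal
  have hkerf : f.ker = C := by
    ext x
    rw [hCV, ← hCU]
    exact hker x
  -- offenders
  have hoff : ∀ A ∈ PLocal.ThompsonJA.maxAbelianIn (T : Subgroup X),
      Cfsg.IsBestOffenderOn 2 j.range (A.map f) := by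
    intro A hA
    have h1 := Cfsg.Agent.H561.FFAbelian.ineq_of_max hA (hUV.trans hVT)
      (fun x hx y hy => hVc x hx.1 y hy.1)
    have h2 := Cfsg.Agent.H561.FFAbelian.ineq_map hcompat h1
    have hAc := (PLocal.ThompsonJA.isMulCommutative_iff _).1
      (PLocal.ThompsonJA.isMulCommutative_map f hA.2.1)
    have h3 := hsit.sq_eq_one _ (A.map f) rfl (map_le_range f A)
      ((T.isPGroup'.to_le hA.1).map f) hAc h2
    refine ⟨h2, ?_, ?_⟩
    · have : ⁅A.map f, A.map f⁆ = ⊥ := by
        rw [commutator_eq_bot_iff_le_centralizer]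
        intro a ha
        rw [mem_centralizer_iff]
        exact fun b hb => hAc b hb a ha
      rw [this]
      exact bot_le
    · intro a ha
      rw [pow_two, h3 a ha]
      exact one_mem _
  obtain ⟨n, hn, ⟨e⟩⟩ := exists_iso hsit (K := Y.map f) (map_le_range f Y) (by
      rintro _ ⟨k, rfl⟩
      rw [Subgroup.mem_normalizer_iff_map_conj_eq]
      have e1 : (MulAut.conj (f k) : Γ →* Γ).comp f = f.comp (MulAut.conj k : X →* X) := by
        ext x
        simp
      rw [Subgroup.map_map, e1, ← Subgroup.map_map]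
      congr 1
      exact Subgroup.mem_normalizer_iff_map_conj_eq.1
        ((Subgroup.normalizer_eq_top_iff.2 hYn) ▸ Subgroup.mem_top k)) (by
      intro h1
      apply hYC
      rw [← hkerf]
      exact (Subgroup.map_eq_bot_iff _).1 h1) (by
      apply le_antisymm
      · have h1 : Y ≤ (⨆ A : {A : Subgroup Γ // A ≤ Y.map f ∧ Cfsg.IsBestOffenderOn 2 j.range A},
            (A : Subgroup Γ)).comap f := by
          conv_lhs => rw [hY]
          rw [normalClosure, closure_le]
          intro y hy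
          rw [Group.mem_conjugatesOfSet_iff] at hy
          obtain ⟨x, hx, hxy⟩ := hy
          obtain ⟨g, rfl⟩ := isConj_iff.1 hxy
          -- `x ∈ J(T)`
          have hJ : Cfsg.thompsonSubgroupAOf (T : Subgroup X) ≤
              (⨆ A : {A : Subgroup Γ // A ≤ Y.map f ∧ Cfsg.IsBestOffenderOn 2 j.range A},
                (A : Subgroup Γ)).comap (f.comp (MulAut.conj g).toMonoidHom) := by
            rw [PLocal.ThompsonJA.thompsonSubgroupAOf_eq_sSup]
            refine sSup_le ?_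
            intro A hA
            rw [← map_le_iff_le_comap]
            have e1 : A.map (f.comp (MulAut.conj g).toMonoidHom) =
                (A.map f).map (MulAut.conj (f g)).toMonoidHom := by
              rw [map_map]
              congr 1
              ext x
              simp
            have e2 : (A.map f).map (MulAut.conj (f g)).toMonoidHom ≤ Y.map f := by
              rw [← e1, ← map_map]
              apply map_mono
              rintro _ ⟨a, ha, rfl⟩
              refine hYn.conj_mem a ?_ g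
              rw [hY]
              exact le_normalClosure (PLocal.ThompsonJA.le_thompsonSubgroupAOf hA ha)
            have e3 : Cfsg.IsBestOffenderOn 2 j.range ((A.map f).map (MulAut.conj (f g)).toMonoidHom) :=
              PLocal.FFMin.isBestOffenderOn_map_conj (hsit.hHV ⟨g, rfl⟩) (hoff A hA)
            rw [e1]
            exact le_iSup (fun A : {A : Subgroup Γ // A ≤ Y.map f ∧ Cfsg.IsBestOffenderOn 2 j.range A} =>
              (A : Subgroup Γ)) ⟨_, e2, e3⟩
          exact hJ hx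
        rw [map_le_iff_le_comap]
        exact h1
      · exact iSup_le fun A => A.2.1)
  refine ⟨n, hn, ⟨?_⟩⟩
  let φ : Y →* Γ := f.comp Y.subtype
  have hφker : C.subgroupOf Y = φ.ker := by
    ext x
    rw [mem_subgroupOf, ← hkerf]
    rfl
  have hφrange : φ.range = Y.map f := by
    rw [MonoidHom.range_comp, range_subtype]
  exact ((QuotientGroup.quotientMulEquivOfEq hφker).trans
    ((QuotientGroup.quotientKerEquivRange φ).trans (MulEquiv.subgroupCongr hφrange))).trans e

/-- Let `X` be a finite solvable group whose Fitting subgroup is a 2-group (equivalently `F(X) = O₂(X)`), `T` a Sylow 2-subgroup of `X`, `J(T)` the subgroup generated by the abelian subgroups of `T` of largest order, `C` the largest normal subgroup of `X` centralizing the centre `Z(T)`, and `Y` the normal closure of `J(T)` in `X`. Then `X = C · Y · N_X(J(T))`, and either `Y ≤ C`, or `CY/C` is isomorphic to a direct product of at least one copy of the symmetric group of degree 3. -/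
theorem result {X : Type*} [Group X] [Finite X]
    [Group.IsSolvable X] (hF : Cfsg.fittingSubgroup X = Cfsg.pCore 2 X) (T : Sylow 2 X) :
    ((Subgroup.centralizer (((T : Subgroup X) ⊓ Subgroup.centralizer ((T : Subgroup X) : Set X) : Subgroup X) : Set X)).normalCore
        ⊔ Subgroup.normalClosure (Cfsg.thompsonSubgroupAOf (T : Subgroup X) : Set X)
        ⊔ Subgroup.normalizer (Cfsg.thompsonSubgroupAOf (T : Subgroup X) : Set X) = ⊤) ∧
    (Subgroup.normalClosure (Cfsg.thompsonSubgroupAOf (T : Subgroup X) : Set X)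
        ≤ (Subgroup.centralizer (((T : Subgroup X) ⊓ Subgroup.centralizer ((T : Subgroup X) : Set X) : Subgroup X) : Set X)).normalCore
      ∨ ∃ n : ℕ, 1 ≤ n ∧
        Nonempty (↥(Subgroup.normalClosure (Cfsg.thompsonSubgroupAOf (T : Subgroup X) : Set X)) ⧸
            ((Subgroup.centralizer (((T : Subgroup X) ⊓ Subgroup.centralizer ((T : Subgroup X) : Set X) : Subgroup X) : Set X)).normalCore).subgroupOf
              (Subgroup.normalClosure (Cfsg.thompsonSubgroupAOf (T : Subgroup X) : Set X))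
          ≃* (Fin n → Equiv.Perm (Fin 3)))) :=
  ⟨part_one T _, part_two hF T _ _ _ rfl rfl rfl⟩

end Cfsg.Agent.S4302
end
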