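import Mathlib.GroupTheory.FixedPointFree
import Cfsg.Agent.SignalizersComponents.NoFixedGen
import Cfsg.Agent.Transfer.TausskyTwoGroup
import Cfsg.Agent.S0022
import Cfsg.Agent.H851.P1
import Cfsg.Agent.H562.FpfFinal
import Cfsg.Statements.S4305
set_option linter.all false

-- part: H851/P6
section
/-!
# P6: the symmetric group of degree three acting on a `q`-group
-/

set_option autoImplicit false
set_option linter.unusedSectionVars false

namespace Cfsg.Agent.H851.PQ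

open Module
open Cfsg.Agent.OddOrderLocal.Thm34Weights

attribute [local instance] wtAction

/-! ### The symmetric group of degree three acting without fixed points on a group of odd order -/

section S3

variable {X : Type*} [Group X] [Finite X]

theorem mem_of_sq_mem (hodd : Odd (Nat.card X)) {C : Subgroup X} {x : X} (h : x * x ∈ C) : x ∈ C := by
  have h1 : Odd (orderOf x) := hodd.of_dvd_nat (orderOf_dvd_natCard x)
  obtain ⟨n, hn⟩ := h1
  have h2 : x = (x * x) ^ (n + 1) := by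
    rw [← pow_two, ← pow_mul]
    have h3 : 2 * (n + 1) = orderOf x + 1 := by omega
    rw [h3, pow_succ, pow_orderOf_eq_one, one_mul]
  rw [h2]
  exact C.pow_mem h _

theorem s3_comm (hodd : Odd (Nat.card X)) (σ τ : X →* X) (hσ : ∀ x, σ (σ (σ x)) = x)
    (hτ : ∀ x, τ (τ x) = x) (hστ : ∀ x, τ (σ x) = σ (σ (τ x)))
    (hfix : ∀ x, σ x = x → τ x = x → x = 1) (C : Subgroup X) [hCn : C.Normal]
    (hC : ∀ x, τ x * x⁻¹ ∈ C) (hC3 : ∀ x, x ∈ C → σ x ∈ C → σ (σ x) ∈ C → x = 1) (x y : X) :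
    x * y = y * x := by
  -- `σ` is fixed point free
  have hfpf : ∀ x, σ x = x → x = 1 := by
    let K : Subgroup X :=
      { carrier := {x | σ x = x}
        mul_mem' := by
          intro a b ha hb
          show σ (a * b) = a * b
          rw [map_mul, ha, hb]
        one_mem' := map_one σ
        inv_mem' := by
          intro a ha
          show σ a⁻¹ = a⁻¹
          rw [map_inv, ha] }
    have hK : ∀ x, x ∈ K ↔ σ x = x := fun x => Iff.rfl
    have hτK : ∀ x ∈ K, τ x ∈ K := by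
      intro x hx
      rw [hK] at hx ⊢
      have h1 := hστ x
      rw [hx] at h1
      have h2 := congrArg σ h1
      rw [hσ] at h2
      exact h2
    let φ : K →* K := (τ.comp K.subtype).codRestrict K (fun x => hτK x x.2)
    have hφ : ∀ x : K, ((φ x : K) : X) = τ x := fun x => rfl
    have h1 : MonoidHom.FixedPointFree φ := by
      intro g hg
      apply Subtype.ext
      exact hfix g g.2 (congrArg Subtype.val hg)
    have h2 : Function.Involutive φ := by
      intro g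
      apply Subtype.ext
      rw [hφ, hφ, hτ]
    have h3 := MonoidHom.FixedPointFree.coe_eq_inv_of_involutive h1 h2
    intro x hx
    have h4 : τ x = x⁻¹ := congrArg Subtype.val (congrFun h3 ⟨x, hx⟩)
    have h5 := hC x
    rw [h4] at h5
    have h6 : x ∈ C := by
      apply mem_of_sq_mem hodd
      have h7 := C.inv_mem h5
      have h8 : (x⁻¹ * x⁻¹)⁻¹ = x * x := by rw [mul_inv_rev, inv_inv]
      rwa [h8] at h7
    exact hC3 x h6 (by rw [hx]; exact h6) (by rw [hx, hx]; exact h6)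
  have hF : MonoidHom.FixedPointFree σ := hfpf
  have hsurj : ∀ x, ∃ y, x = σ y * y⁻¹ := by
    intro x
    obtain ⟨y, hy⟩ := hF.commutatorMap_surjective x⁻¹
    refine ⟨y, ?_⟩
    rw [MonoidHom.commutatorMap_apply] at hy
    rw [← inv_inv x, ← hy]
    rw [div_eq_mul_inv]
    group
  -- the product of the three conjugates is trivial
  have hprod : ∀ x, σ (σ x) * σ x * x = 1 := by
    intro x
    obtain ⟨y, rfl⟩ := hsurj x
    simp only [map_mul, map_inv, hσ]
    group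
  have h2 : ∀ x, x ∈ C → σ x ∈ C → x = 1 := by
    intro x hx hσx
    apply hC3 x hx hσx
    have h3 := hprod x
    have h4 : σ (σ x) = (σ x * x)⁻¹ := by
      rw [eq_inv_iff_mul_eq_one, ← mul_assoc]; exact h3
    rw [h4]
    exact C.inv_mem (C.mul_mem hσx hx)
  -- every element is a product of an element of `C` and an element of `σ C`
  have hCC : ∀ x, ∃ c ∈ C, ∃ d ∈ C, x = c * σ d := by
    intro x
    obtain ⟨y, rfl⟩ := hsurj x
    -- write `y = σ z`, so that `σ y = σ σ z`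
    set z := σ (σ y) with hz
    have hy : y = σ z := by rw [hz, hσ]
    refine ⟨τ (σ (τ z)) * (σ (τ z))⁻¹, hC _, τ z * z⁻¹, hC z, ?_⟩
    rw [hστ, hτ, map_mul, map_inv, hy]
    group
  -- the three subgroups commute pairwise
  have hcom1 : ∀ c ∈ C, ∀ d ∈ C, c * σ d = σ d * c := by
    intro c hc d hd
    have h3 : c * σ d * c⁻¹ * (σ d)⁻¹ ∈ C := by
      have h4 := hCn.conj_mem c⁻¹ (C.inv_mem hc) (σ d)
      have h5 : c * σ d * c⁻¹ * (σ d)⁻¹ = c * (σ d * c⁻¹ * (σ d)⁻¹) := by group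
      rw [h5]
      exact C.mul_mem hc h4
    -- apply `σ σ`
    have h6 : σ (σ (c * σ d * c⁻¹ * (σ d)⁻¹)) ∈ C := by
      have h7 : σ (σ (c * σ d * c⁻¹ * (σ d)⁻¹)) = (σ (σ c) * d * (σ (σ c))⁻¹) * d⁻¹ := by
        simp only [map_mul, map_inv, hσ]
      rw [h7]
      exact C.mul_mem (hCn.conj_mem d hd _) (C.inv_mem hd)
    have h8 := h2 _ h6 (by rw [hσ]; exact h3)
    have h9 : c * σ d * c⁻¹ * (σ d)⁻¹ = 1 := by
      have := congrArg σ h8
      rw [hσ, map_one] at this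
      exact this
    rw [mul_inv_eq_one, mul_inv_eq_iff_eq_mul] at h9
    exact h9
  have hcom2 : ∀ c ∈ C, ∀ d ∈ C, c * σ (σ d) = σ (σ d) * c := by
    intro c hc d hd
    have h3 := hcom1 d hd c hc
    have h4 := congrArg (fun x => σ (σ x)) h3
    simp only [map_mul, hσ] at h4
    exact h4.symm
  have hcen : ∀ c ∈ C, ∀ x, c * x = x * c := by
    intro c hc x
    obtain ⟨a, ha, b, hb, hab⟩ := hCC (σ (σ x))
    have h3 : x = σ a * σ (σ b) := by
      have := congrArg σ hab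
      rw [hσ, map_mul] at this
      exact this
    rw [h3, ← mul_assoc, hcom1 c hc a ha, mul_assoc, hcom2 c hc b hb, ← mul_assoc]
  have hcen' : ∀ c ∈ C, ∀ x, σ c * x = x * σ c := by
    intro c hc x
    have h3 := congrArg σ (hcen c hc (σ (σ x)))
    rw [map_mul, map_mul, hσ] at h3
    exact h3
  obtain ⟨c, hc, d, hd, rfl⟩ := hCC x
  rw [mul_assoc, hcen' d hd, ← mul_assoc, hcen c hc, mul_assoc]

end S3

/-! ### Passing to a section -/

section Sec

variable {Γ : Type*} [Group Γ] [Finite Γ]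

/-- Fixed points modulo an invariant normal subgroup, for a group `⟨s, h⟩` acting without fixed points. -/
theorem mem_of_fixed_mod (Q : Subgroup Γ) [hQn : Q.Normal] (s h : Γ) (hs : s ^ 3 = 1) (hh : h ^ 2 = 1)
    (hhs : h * s * h⁻¹ = s⁻¹) (h3 : ¬ 3 ∣ Nat.card Q) (h2 : ¬ 2 ∣ Nat.card Q)
    (hCQ : ∀ x ∈ Q, s * x = x * s → h * x = x * h → x = 1) (D : Subgroup Γ) (hDQ : D ≤ Q)
    (hQD : ∀ y ∈ Q, ∀ d ∈ D, y * d * y⁻¹ ∈ D) (hsD : ∀ d ∈ D, s * d * s⁻¹ ∈ D)
    (hhD : ∀ d ∈ D, h * d * h⁻¹ ∈ D) (x : Γ) (hx : x ∈ Q) (hsx : s * x * s⁻¹ * x⁻¹ ∈ D)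
    (hhx : h * x * h⁻¹ * x⁻¹ ∈ D) : x ∈ D := by
  have hQnorm : Subgroup.normalizer (Q : Set Γ) = ⊤ := Subgroup.normalizer_eq_top_iff.mpr hQn
  have hQsol : ∀ (g : Γ), Group.IsSolvable (Subgroup.zpowers g) := fun g => inferInstance
  have hQDn : Q ≤ Subgroup.normalizer (D : Set Γ) := fun y hy => mem_normalizer_of_le (hQD y hy)
  have hsDn : s ∈ Subgroup.normalizer (D : Set Γ) := mem_normalizer_of_le hsD
  have hhDn : h ∈ Subgroup.normalizer (D : Set Γ) := mem_normalizer_of_le hhD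
  have hcop : ∀ {p : ℕ} (g : Γ), p.Prime → g ^ p = 1 → ¬ p ∣ Nat.card Q → ∀ K : Subgroup Γ, K ≤ Q →
      (Nat.card (Subgroup.zpowers g)).Coprime (Nat.card K) := by
    intro p g hp hg hpQ K hK
    rw [Nat.card_zpowers]
    refine Nat.Coprime.coprime_dvd_left (orderOf_dvd_of_pow_eq_one hg) ?_
    rw [Nat.Prime.coprime_iff_not_dvd hp]
    exact fun h => hpQ (h.trans (Subgroup.card_dvd_of_le hK))
  -- commutators with powers
  have hpow : ∀ g : Γ, g ∈ Subgroup.normalizer (D : Set Γ) → ∀ y : Γ, g * y * g⁻¹ * y⁻¹ ∈ D →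
      ∀ a ∈ Subgroup.zpowers g, a * y * a⁻¹ * y⁻¹ ∈ D := by
    intro g hg y hy a ha
    let S : Subgroup Γ :=
      { carrier := {a | a ∈ Subgroup.normalizer (D : Set Γ) ∧ a * y * a⁻¹ * y⁻¹ ∈ D}
        mul_mem' := by
          rintro a b ⟨ha, ha'⟩ ⟨hb, hb'⟩
          refine ⟨Subgroup.mul_mem _ ha hb, ?_⟩
          have h1 : a * b * y * (a * b)⁻¹ * y⁻¹ = (a * (b * y * b⁻¹ * y⁻¹) * a⁻¹) * (a * y * a⁻¹ * y⁻¹) := by
            group
          rw [h1]
          exact D.mul_mem ((Subgroup.mem_normalizer_iff.mp ha _).mp hb') ha'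
        one_mem' := by
          refine ⟨Subgroup.one_mem _, ?_⟩
          have h1 : (1 : Γ) * y * 1⁻¹ * y⁻¹ = 1 := by group
          rw [h1]; exact D.one_mem
        inv_mem' := by
          rintro a ⟨ha, ha'⟩
          refine ⟨Subgroup.inv_mem _ ha, ?_⟩
          have h1 : a⁻¹ * y * a⁻¹⁻¹ * y⁻¹ = a⁻¹ * (a * y * a⁻¹ * y⁻¹)⁻¹ * a⁻¹⁻¹ := by group
          rw [h1]
          exact (Subgroup.mem_normalizer_iff.mp (Subgroup.inv_mem _ ha) _).mp (D.inv_mem ha') }
    have h1 : Subgroup.zpowers g ≤ S := by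
      rw [Subgroup.zpowers_le]
      exact ⟨hg, hy⟩
    exact (h1 ha).2
  obtain ⟨c, hc, hxc⟩ := Cfsg.Agent.S0022.result (Subgroup.zpowers s) Q (by rw [hQnorm]; exact le_top)
    (hcop s Nat.prime_three hs h3 Q le_rfl) (Or.inl (hQsol s)) D hDQ hQDn
    (by rw [Subgroup.zpowers_le]; exact hsDn) x hx (hpow s hsDn x hsx)
  have hcQ : c ∈ Q := hc.1
  have hcs : s * c = c * s := (Subgroup.mem_centralizer_iff.mp hc.2) s (Subgroup.mem_zpowers s)
  -- the second step
  let K : Subgroup Γ := Q ⊓ Subgroup.centralizer ({s} : Set Γ)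
  have hK : ∀ y, y ∈ K ↔ y ∈ Q ∧ s * y = y * s := by
    intro y
    show y ∈ Q ⊓ Subgroup.centralizer ({s} : Set Γ) ↔ _
    rw [Subgroup.mem_inf, Subgroup.mem_centralizer_singleton_iff]
    constructor
    · rintro ⟨h1, h2⟩; exact ⟨h1, h2.symm⟩
    · rintro ⟨h1, h2⟩; exact ⟨h1, h2.symm⟩
  have hhK : ∀ y ∈ K, h * y * h⁻¹ ∈ K := by
    intro y hy
    rw [hK] at hy ⊢
    refine ⟨hQn.conj_mem y hy.1 h, ?_⟩
    have h4 : s * h = h * s⁻¹ := by
      rw [← hhs]
      have h5 : h⁻¹ = h := by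
        rw [inv_eq_iff_mul_eq_one, ← pow_two]; exact hh
      rw [h5, ← mul_assoc, ← mul_assoc, ← pow_two, hh, one_mul]
    have h5 : s⁻¹ * y = y * s⁻¹ := by
      rw [inv_mul_eq_iff_eq_mul, ← mul_assoc, hy.2, mul_inv_cancel_right]
    have h6 : h⁻¹ * s = s⁻¹ * h⁻¹ := by
      have := congrArg (fun g => h⁻¹ * g * h⁻¹) h4
      simp only [mul_assoc] at this
      rw [mul_inv_cancel, mul_one, ← mul_assoc h⁻¹ h, inv_mul_cancel, one_mul] at this
      exact this
    calc s * (h * y * h⁻¹) = (s * h) * y * h⁻¹ := by group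
      _ = h * (s⁻¹ * y) * h⁻¹ := by rw [h4]; group
      _ = h * y * (s⁻¹ * h⁻¹) := by rw [h5]; group
      _ = h * y * h⁻¹ * s := by rw [← h6]; group
  have hcx : c * x⁻¹ ∈ D := by
    have h4 := hQD x hx _ hxc
    have h5 : x * (x⁻¹ * c) * x⁻¹ = c * x⁻¹ := by group
    rwa [h5] at h4
  have hhc : h * c * h⁻¹ * c⁻¹ ∈ D := by
    have h4 : h * c * h⁻¹ * c⁻¹ = (h * (c * x⁻¹) * h⁻¹) * (h * x * h⁻¹ * x⁻¹) * (c * x⁻¹)⁻¹ := by group
    rw [h4]
    exact D.mul_mem (D.mul_mem (hhD _ hcx) hhx) (D.inv_mem hcx)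
  have hcK : c ∈ K := (hK c).mpr ⟨hcQ, hcs⟩
  have hKQ : K ≤ Q := inf_le_left
  have hhKn : h ∈ Subgroup.normalizer (K : Set Γ) := mem_normalizer_of_le hhK
  have hDKn : ∀ g ∈ Subgroup.normalizer (D : Set Γ), g ∈ Subgroup.normalizer (K : Set Γ) →
      g ∈ Subgroup.normalizer ((D ⊓ K : Subgroup Γ) : Set Γ) := by
    intro g h4 h5
    apply mem_normalizer_of_le
    rintro y ⟨hy1, hy2⟩
    exact ⟨(Subgroup.mem_normalizer_iff.mp h4 y).mp hy1, (Subgroup.mem_normalizer_iff.mp h5 y).mp hy2⟩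
  have hinv2 : ∀ a ∈ Subgroup.zpowers h, a ∈ Subgroup.normalizer (K : Set Γ) := by
    intro a ha
    exact (Subgroup.zpowers_le.mpr hhKn) ha
  obtain ⟨c', hc', hcc'⟩ := Cfsg.Agent.S0022.result (Subgroup.zpowers h) K
    (by rw [Subgroup.zpowers_le]; exact hhKn)
    (hcop h Nat.prime_two hh h2 K hKQ) (Or.inl (hQsol h)) (D ⊓ K) inf_le_right
    (fun g hg => hDKn g (hQDn (hKQ hg)) (Subgroup.le_normalizer hg))
    (by
      intro g hg
      exact hDKn g ((Subgroup.zpowers_le.mpr hhDn) hg) (hinv2 g hg)) c hcK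
    (by
      intro a ha
      refine ⟨hpow h hhDn c hhc a ha, ?_⟩
      exact K.mul_mem ((Subgroup.mem_normalizer_iff.mp (hinv2 a ha) c).mp hcK) (K.inv_mem hcK))
  have hc'1 : c' = 1 := by
    have h4 := (hK c').mp hc'.1
    exact hCQ c' h4.1 h4.2 ((Subgroup.mem_centralizer_iff.mp hc'.2) h (Subgroup.mem_zpowers h))
  rw [hc'1, mul_one] at hcc'
  have hcD : c ∈ D := by
    have := D.inv_mem hcc'.1
    rwa [inv_inv] at this
  have h4 : x = c * (x⁻¹ * c)⁻¹ := by group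
  rw [h4]
  exact D.mul_mem hcD (D.inv_mem hxc)

/-- The data of `s3_comm` in a section `Q / D`. -/
theorem section_comm (Q : Subgroup Γ) [hQn : Q.Normal] (s h : Γ) (hs : s ^ 3 = 1) (hh : h ^ 2 = 1)
    (hhs : h * s * h⁻¹ = s⁻¹) (h3 : ¬ 3 ∣ Nat.card Q) (h2 : ¬ 2 ∣ Nat.card Q)
    (hCQ : ∀ x ∈ Q, s * x = x * s → h * x = x * h → x = 1) (D : Subgroup Γ) (hDQ : D ≤ Q)
    (hQD : ∀ y ∈ Q, ∀ d ∈ D, y * d * y⁻¹ ∈ D) (hsD : ∀ d ∈ D, s * d * s⁻¹ ∈ D)
    (hhD : ∀ d ∈ D, h * d * h⁻¹ ∈ D)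
    (hor : (∀ y ∈ Q, s * y * s⁻¹ * y⁻¹ ∈ D) ∨
      ∃ C : Subgroup Γ, D ≤ C ∧ C ≤ Q ∧ (∀ y ∈ Q, ∀ c ∈ C, y * c * y⁻¹ ∈ C) ∧
        (∀ y ∈ Q, h * y * h⁻¹ * y⁻¹ ∈ C) ∧
        ∀ y, y ∈ C → s * y * s⁻¹ ∈ C → s * (s * y * s⁻¹) * s⁻¹ ∈ C → y ∈ D) :
    ∀ x ∈ Q, ∀ y ∈ Q, x * y * x⁻¹ * y⁻¹ ∈ D := by
  have hQDn : Q ≤ Subgroup.normalizer (D : Set Γ) := fun y hy => mem_normalizer_of_le (hQD y hy)
  have hsDn : s ∈ Subgroup.normalizer (D : Set Γ) := mem_normalizer_of_le hsD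
  have hhDn : h ∈ Subgroup.normalizer (D : Set Γ) := mem_normalizer_of_le hhD
  have hQall : ∀ g : Γ, g ∈ Subgroup.normalizer (Q : Set Γ) := by
    intro g
    rw [Subgroup.normalizer_eq_top_iff.mpr hQn]
    exact Subgroup.mem_top g
  have hDn : (D.subgroupOf Q).Normal := Subgroup.normal_subgroupOf_of_le_normalizer hQDn
  let A : Subgroup Γ := Subgroup.normalizer (D : Set Γ)
  have hAQ : A ≤ Subgroup.normalizer (Q : Set Γ) := fun g _ => hQall g
  let σ := secAct Q D A hAQ le_rfl ⟨s, hsDn⟩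
  let τ := secAct Q D A hAQ le_rfl ⟨h, hhDn⟩
  have hσm : ∀ y : Q, σ (y : Q ⧸ D.subgroupOf Q) =
      ((⟨s * y * s⁻¹, (Subgroup.mem_normalizer_iff.mp (hQall s) y).mp y.2⟩ : Q) : Q ⧸ D.subgroupOf Q) :=
    fun y => rfl
  have hτm : ∀ y : Q, τ (y : Q ⧸ D.subgroupOf Q) =
      ((⟨h * y * h⁻¹, (Subgroup.mem_normalizer_iff.mp (hQall h) y).mp y.2⟩ : Q) : Q ⧸ D.subgroupOf Q) :=
    fun y => rfl
  have hmk : ∀ (a b : Q), (a : Q ⧸ D.subgroupOf Q) = (b : Q ⧸ D.subgroupOf Q) ↔ (a : Γ) * (b : Γ)⁻¹ ∈ D := by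
    intro a b
    rw [← inv_inj, ← QuotientGroup.mk_inv, ← QuotientGroup.mk_inv, QuotientGroup.eq,
      Subgroup.mem_subgroupOf]
    rw [inv_inv]
    rfl
  have hσ3 : ∀ x, σ (σ (σ x)) = x := by
    intro x
    obtain ⟨y, rfl⟩ := QuotientGroup.mk_surjective x
    rw [hσm, hσm, hσm]
    congr 1
    apply Subtype.ext
    show s * (s * (s * (y : Γ) * s⁻¹) * s⁻¹) * s⁻¹ = y
    have h4 : s * (s * (s * (y : Γ) * s⁻¹) * s⁻¹) * s⁻¹ = s ^ 3 * y * (s ^ 3)⁻¹ := by
      simp only [pow_succ, pow_zero, one_mul, mul_inv_rev, mul_assoc]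
    rw [h4, hs]; group
  have hτ2 : ∀ x, τ (τ x) = x := by
    intro x
    obtain ⟨y, rfl⟩ := QuotientGroup.mk_surjective x
    rw [hτm, hτm]
    congr 1
    apply Subtype.ext
    show h * (h * (y : Γ) * h⁻¹) * h⁻¹ = y
    have h4 : h * (h * (y : Γ) * h⁻¹) * h⁻¹ = h ^ 2 * y * (h ^ 2)⁻¹ := by
      simp only [pow_succ, pow_zero, one_mul, mul_inv_rev, mul_assoc]
    rw [h4, hh]; group
  have hhs' : h * s = s * s * h := by
    have h4 : s⁻¹ = s * s := by
      rw [inv_eq_iff_mul_eq_one, ← pow_two, ← pow_succ']; exact hs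
    rw [← h4, ← hhs]; group
  have hστ : ∀ x, τ (σ x) = σ (σ (τ x)) := by
    intro x
    obtain ⟨y, rfl⟩ := QuotientGroup.mk_surjective x
    rw [hτm, hσm, hτm, hσm, hσm]
    congr 1
    apply Subtype.ext
    show h * (s * (y : Γ) * s⁻¹) * h⁻¹ = s * (s * (h * (y : Γ) * h⁻¹) * s⁻¹) * s⁻¹
    have h4 : h * (s * (y : Γ) * s⁻¹) * h⁻¹ = (h * s) * y * (h * s)⁻¹ := by group
    rw [h4, hhs']; group
  have hfix : ∀ x, σ x = x → τ x = x → x = 1 := by
    intro x hx1 hx2
    obtain ⟨y, rfl⟩ := QuotientGroup.mk_surjective x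
    rw [hσm, hmk] at hx1
    rw [hτm, hmk] at hx2
    rw [QuotientGroup.eq_one_iff, Subgroup.mem_subgroupOf]
    exact mem_of_fixed_mod Q s h hs hh hhs h3 h2 hCQ D hDQ hQD hsD hhD y y.2 hx1 hx2
  have hodd : Odd (Nat.card (Q ⧸ D.subgroupOf Q)) := by
    rw [← Nat.not_even_iff_odd, even_iff_two_dvd]
    exact fun h4 => h2 (h4.trans (Subgroup.card_quotient_dvd_card _))
  -- the conclusion for the quotient
  have key : ∀ x y : Q ⧸ D.subgroupOf Q, x * y = y * x := by
    rcases hor with hor | ⟨C, hDC, hCQ', hCn, hhC, hC3⟩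
    · have h4 : MonoidHom.FixedPointFree τ := by
        intro x hx
        apply hfix x ?_ hx
        obtain ⟨y, rfl⟩ := QuotientGroup.mk_surjective x
        rw [hσm, hmk]
        exact hor y y.2
      exact fun x y => MonoidHom.FixedPointFree.commute_all_of_involutive h4 hτ2 x y
    · let C' : Subgroup (Q ⧸ D.subgroupOf Q) := (C.subgroupOf Q).map (QuotientGroup.mk' (D.subgroupOf Q))
      have hC' : ∀ y : Q, (y : Q ⧸ D.subgroupOf Q) ∈ C' ↔ (y : Γ) ∈ C := by
        intro y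
        constructor
        · rintro ⟨z, hz, hzy⟩
          have h4 : (z : Q ⧸ D.subgroupOf Q) = (y : Q ⧸ D.subgroupOf Q) := hzy
          rw [hmk] at h4
          have h5 : (y : Γ) = ((z : Γ) * (y : Γ)⁻¹)⁻¹ * z := by group
          rw [h5]
          exact C.mul_mem (C.inv_mem (hDC h4)) hz
        · intro hy
          exact ⟨y, hy, rfl⟩
      have hC'n : C'.Normal := by
        constructor
        intro x hx g
        obtain ⟨y, rfl⟩ := QuotientGroup.mk_surjective x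
        obtain ⟨z, rfl⟩ := QuotientGroup.mk_surjective g
        rw [hC'] at hx
        have h4 := hCn z z.2 y hx
        exact (hC' (z * y * z⁻¹)).mpr h4
      intro x y
      refine s3_comm hodd (σ : (Q ⧸ D.subgroupOf Q) →* _) (τ : (Q ⧸ D.subgroupOf Q) →* _) hσ3 hτ2 hστ
        hfix C' ?_ ?_ x y
      · intro x
        obtain ⟨y, rfl⟩ := QuotientGroup.mk_surjective x
        exact (hC' (⟨h * y * h⁻¹, _⟩ * y⁻¹)).mpr (hhC y y.2)
      · intro x hx1 hx2 hx3
        obtain ⟨y, rfl⟩ := QuotientGroup.mk_surjective x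
        have h4 := (hC' y).mp hx1
        have h5 := (hC' _).mp hx2
        have h6 := (hC' _).mp hx3
        rw [QuotientGroup.eq_one_iff, Subgroup.mem_subgroupOf]
        exact hC3 y h4 h5 h6
  intro x hx y hy
  have h4 := key ((⟨x, hx⟩ : Q) : Q ⧸ D.subgroupOf Q) ((⟨y, hy⟩ : Q) : Q ⧸ D.subgroupOf Q)
  rw [← QuotientGroup.mk_mul, ← QuotientGroup.mk_mul, hmk] at h4
  have h5 : x * y * x⁻¹ * y⁻¹ = x * y * (y * x)⁻¹ := by group
  rw [h5]
  exact h4

end Sec

/-! ### The representation -/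

section Core

variable {k Γ V : Type*} [Field k] [IsAlgClosed k] [Group Γ] [Finite Γ] [AddCommGroup V] [Module k V]
    [FiniteDimensional k V]

/-- `[Q, s]` is trivial on a subspace on which `s`, of order three, has no fixed vectors. -/
theorem comm_on_sub (ρ : Representation k Γ V) (Q : Subgroup Γ) (s : Γ) (hs : s ^ 3 = 1)
    (hsQ : ∀ y ∈ Q, s * y * s⁻¹ ∈ Q) (hsol : Group.IsSolvable Q) (h2 : ¬ 2 ∣ Nat.card Q)
    (h3 : ¬ 3 ∣ Nat.card Q) (hQk : (Nat.card Q : k) ≠ 0) (h3k : (3 : k) ≠ 0)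
    (W : Submodule k V) (hQW : ∀ y ∈ Q, ∀ w ∈ W, ρ y w ∈ W) (hsW : ∀ w ∈ W, ρ s w ∈ W)
    (hfix : ∀ w ∈ W, ρ s w = w → w = 0) : ∀ y ∈ Q, ∀ w ∈ W, ρ (s * y * s⁻¹ * y⁻¹) w = w := by
  let G : Subgroup Γ := Q ⊔ Subgroup.zpowers s
  have hQG : Q ≤ G := le_sup_left
  have hxG : s ∈ G := (le_sup_right : Subgroup.zpowers s ≤ G) (Subgroup.mem_zpowers s)
  let K : Subgroup G := Q.subgroupOf G
  let x' : G := ⟨s, hxG⟩
  have hKx : K ⊔ Subgroup.zpowers x' = ⊤ := by
    apply Subgroup.map_injective G.subtype_injective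
    rw [Subgroup.map_sup, MonoidHom.map_zpowers, ← MonoidHom.range_eq_map, Subgroup.range_subtype,
      Subgroup.map_subgroupOf_eq_of_le hQG]
    rfl
  let τ : Representation k G V := ρ.comp G.subtype
  have hWinv : ∀ g : G, ∀ w ∈ W, τ g w ∈ W := by
    apply Cfsg.Agent.OddOrderLocal.Thm34Base.inv_of_gen τ K x' hKx W
    · intro g hg w hw
      exact hQW g hg w hw
    · exact hsW
  let S : Subrepresentation τ := ⟨W, fun g w hw => hWinv g w hw⟩
  have hcard : Nat.card K = Nat.card Q := Nat.card_congr (Subgroup.subgroupOfEquivOfLe hQG).toEquiv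
  have hKsol : Group.IsSolvable K :=
    Group.isSolvable_of_isSolvable_injective (f := (Subgroup.subgroupOfEquivOfLe hQG).toMonoidHom)
      (Subgroup.subgroupOfEquivOfLe hQG).injective
  have hmain := Cfsg.Agent.SignalizersComponents.NoFixedGen.comm_of_no_fixed_algClosed S.toRepresentation
    K x' (r := 3) Nat.prime_three (by norm_num) (Subtype.ext hs) (fun y hy => hsQ y hy) hKsol
    (by
      rw [hcard]
      intro h
      exact h2 (dvd_trans (by norm_num) h))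
    (by rw [hcard]; exact h3) (by rw [hcard]; exact hQk) (by exact_mod_cast h3k)
    (by
      intro v hv
      apply Subtype.ext
      exact hfix v v.2 (congrArg Subtype.val hv))
  have hmain' : ∀ y ∈ Q, ∀ w ∈ W, ρ (s * y) w = ρ (y * s) w := by
    intro y hy w hw
    have h1 := LinearMap.congr_fun (hmain ⟨y, hQG hy⟩ hy) ⟨w, hw⟩
    exact congrArg Subtype.val h1
  intro y hy w hw
  have hinv : ∀ g : G, ∀ w ∈ W, ρ ((g : Γ)⁻¹) w ∈ W := fun g w hw => hWinv g⁻¹ w hw
  have hu : ρ (s⁻¹ * y⁻¹) w ∈ W := by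
    rw [map_mul, End.mul_apply]
    exact hinv ⟨s, hxG⟩ _ (hinv ⟨y, hQG hy⟩ w hw)
  have h1 := hmain' y hy _ hu
  have h5 : s * y * s⁻¹ * y⁻¹ = s * y * (s⁻¹ * y⁻¹) := by group
  rw [h5, map_mul, End.mul_apply, h1, ← End.mul_apply, ← map_mul]
  have h6 : y * s * (s⁻¹ * y⁻¹) = 1 := by group
  rw [h6, map_one, End.one_apply]

/-- The elements of `Q` acting trivially on the weight spaces in `O`. -/
def DO (ρ : Representation k Γ V) (Q Z : Subgroup Γ) (O : Set (Z → k)) : Subgroup Γ where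
  carrier := {y | y ∈ Q ∧ ∀ ψ ∈ O, ∀ w ∈ wt ρ Z ψ, ρ y w = w}
  mul_mem' := by
    rintro a b ⟨ha, ha'⟩ ⟨hb, hb'⟩
    refine ⟨Q.mul_mem ha hb, fun ψ hψ w hw => ?_⟩
    rw [map_mul, End.mul_apply, hb' ψ hψ w hw, ha' ψ hψ w hw]
  one_mem' := ⟨Q.one_mem, fun ψ _ w _ => by rw [map_one, End.one_apply]⟩
  inv_mem' := by
    rintro a ⟨ha, ha'⟩
    refine ⟨Q.inv_mem ha, fun ψ hψ w hw => ?_⟩
    have h1 : ρ a⁻¹ (ρ a w) = w := by
      rw [← End.mul_apply, ← map_mul, inv_mul_cancel, map_one, End.one_apply]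
    rw [ha' ψ hψ w hw] at h1
    exact h1

theorem mem_DO {ρ : Representation k Γ V} {Q Z : Subgroup Γ} {O : Set (Z → k)} {y : Γ} :
    y ∈ DO ρ Q Z O ↔ y ∈ Q ∧ ∀ ψ ∈ O, ∀ w ∈ wt ρ Z ψ, ρ y w = w := Iff.rfl

theorem conj_mem_DO {ρ : Representation k Γ V} {Q Z : Subgroup Γ} [hQn : Q.Normal] [Z.Normal]
    {O : Set (Z → k)} {g : Γ} (hg : ∀ ψ ∈ O, g⁻¹ • ψ ∈ O) (d : Γ) (hd : d ∈ DO ρ Q Z O) :
    g * d * g⁻¹ ∈ DO ρ Q Z O := by
  refine ⟨hQn.conj_mem d hd.1 g, fun ψ hψ w hw => ?_⟩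
  have h1 := hd.2 (g⁻¹ • ψ) (hg ψ hψ) _ (smul_mem_wt hw g⁻¹)
  rw [map_mul, map_mul, End.mul_apply, End.mul_apply, h1, ← End.mul_apply, ← map_mul, mul_inv_cancel,
    map_one, End.one_apply]

/-- The set-up: a group `⟨s, h⟩` of degree three acting without fixed points on `Q` and on `V`, and a
weight `χ` of a central subgroup `Z` of `Q`. -/
structure Setup (ρ : Representation k Γ V) (Q Z : Subgroup Γ) (s h : Γ) : Prop where
  Qn : Q.Normal
  Zn : Z.Normal
  hs : s ^ 3 = 1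
  hh : h ^ 2 = 1
  hhs : h * s * h⁻¹ = s⁻¹
  h3 : ¬ 3 ∣ Nat.card Q
  h2 : ¬ 2 ∣ Nat.card Q
  Qk : (Nat.card Q : k) ≠ 0
  h2k : (2 : k) ≠ 0
  h3k : (3 : k) ≠ 0
  sol : Group.IsSolvable Q
  CQ : ∀ x ∈ Q, s * x = x * s → h * x = x * h → x = 1
  hV : ∀ v : V, ρ s v = v → ρ h v = v → v = 0
  ZQ : Z ≤ Q
  Zc : ∀ z ∈ Z, ∀ y ∈ Q, z * y = y * z

namespace Setup

variable {ρ : Representation k Γ V} {Q Z : Subgroup Γ} {s h : Γ}

theorem hs' (S : Setup ρ Q Z s h) : s⁻¹ = s * s := by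
  rw [inv_eq_iff_mul_eq_one, ← pow_two, ← pow_succ']; exact S.hs

theorem hh' (S : Setup ρ Q Z s h) : h⁻¹ = h := by
  rw [inv_eq_iff_mul_eq_one, ← pow_two]; exact S.hh

theorem hsss (S : Setup ρ Q Z s h) : s * (s * s) = 1 := by
  rw [← pow_two, ← pow_succ']; exact S.hs

theorem hs2 (S : Setup ρ Q Z s h) : h * s = s * s * h := by
  rw [← S.hs', ← S.hhs]; group

theorem Zk (S : Setup ρ Q Z s h) : (Nat.card Z : k) ≠ 0 := by
  intro h0
  apply S.Qk
  obtain ⟨m, hm⟩ := Subgroup.card_dvd_of_le S.ZQ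
  rw [hm, Nat.cast_mul, h0, zero_mul]

theorem Zcomm (S : Setup ρ Q Z s h) : ∀ a ∈ Z, ∀ b ∈ Z, a * b = b * a :=
  fun a ha b hb => S.Zc a ha b (S.ZQ hb)

theorem smul_Q [Z.Normal] (S : Setup ρ Q Z s h) (y : Γ) (hy : y ∈ Q) (ψ : Z → k) : y • ψ = ψ := by
  funext z
  rw [wt_smul_def]
  congr 1
  apply Subtype.ext
  rw [MulAut.conjNormal_apply, inv_inv]
  have h1 := S.Zc z z.2 y hy
  rw [mul_assoc, h1, ← mul_assoc, inv_mul_cancel, one_mul]

theorem wt_Q [Z.Normal] (S : Setup ρ Q Z s h) (y : Γ) (hy : y ∈ Q) (ψ : Z → k) (w : V)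
    (hw : w ∈ wt ρ Z ψ) : ρ y w ∈ wt ρ Z ψ := by
  have h1 := smul_mem_wt hw y
  rwa [S.smul_Q y hy] at h1

/-- the sum over the powers of `s` is compatible with `h` -/
theorem h_orb (S : Setup ρ Q Z s h) (u : V) : ρ h (orb ρ s 3 u) = orb ρ s 3 (ρ h u) := by
  have e1 : ∀ v, ρ h (ρ s v) = ρ s (ρ s (ρ h v)) := by
    intro v
    simp only [← End.mul_apply, ← map_mul]
    rw [S.hs2]
    simp only [mul_assoc]
  have e2 : ∀ v, ρ s (ρ s (ρ s v)) = v := by
    intro v
    simp only [← End.mul_apply, ← map_mul]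
    rw [S.hsss, map_one, End.one_apply]
  unfold orb
  simp only [Finset.sum_range_succ, Finset.sum_range_zero, zero_add, pow_zero, pow_one, End.one_apply,
    pow_two, End.mul_apply, map_add]
  rw [e1, e1, e1]
  rw [e2 (ρ s (ρ h u))]
  abel

theorem s_orb (S : Setup ρ Q Z s h) (u : V) : ρ s (orb ρ s 3 u) = orb ρ s 3 u :=
  orb_fixed ρ s S.hs u

theorem h_h (S : Setup ρ Q Z s h) (u : V) : ρ h (ρ h u) = u := by
  rw [← End.mul_apply, ← map_mul, ← pow_two, S.hh, map_one, End.one_apply]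

/-- The case of a weight fixed by `h` but not by `s`. -/
theorem case_h [Z.Normal] (S : Setup ρ Q Z s h) (χ : Z → k) (hsχ : s • χ ≠ χ) (hhχ : h • χ = χ) :
    ∃ D : Subgroup Γ, (∀ x ∈ Q, ∀ y ∈ Q, x * y * x⁻¹ * y⁻¹ ∈ D) ∧
      ∀ y ∈ D, ∀ w ∈ wt ρ Z χ, ρ y w = w := by
  have hQn := S.Qn
  -- no fixed vectors of `h`
  have hfix : ∀ w ∈ wt ρ Z χ, ρ h w = w → w = 0 := by
    intro w hw hhw
    by_contra hw0
    have h1 := orb_ne_zero S.Zk S.Zcomm Nat.prime_three S.hs hsχ hw hw0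
    apply h1
    apply S.hV
    · exact S.s_orb w
    · rw [S.h_orb, hhw]
  have hneg : ∀ w ∈ wt ρ Z χ, ρ h w = - w := by
    intro w hw
    have h1 : w + ρ h w ∈ wt ρ Z χ := by
      apply Submodule.add_mem _ hw
      have := smul_mem_wt hw h
      rwa [hhχ] at this
    have h2 := hfix _ h1 (by rw [map_add, S.h_h, add_comm])
    exact eq_neg_of_add_eq_zero_right h2
  have hC : ∀ y ∈ Q, h * y * h⁻¹ * y⁻¹ ∈ DO ρ Q Z {χ} := by
    intro y hy
    refine ⟨Q.mul_mem (hQn.conj_mem y hy h) (Q.inv_mem hy), ?_⟩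
    rintro ψ hψ w hw
    rw [Set.mem_singleton_iff] at hψ
    subst hψ
    have hw1 : ρ y⁻¹ w ∈ wt ρ Z ψ := S.wt_Q _ (Q.inv_mem hy) ψ w hw
    have h1 : h * y * h⁻¹ * y⁻¹ = h * (y * (h * y⁻¹)) := by
      rw [S.hh']; simp only [mul_assoc]
    rw [h1]
    simp only [map_mul, End.mul_apply]
    rw [hneg _ hw1, map_neg, ← End.mul_apply, ← map_mul, mul_inv_cancel, map_one, End.one_apply,
      map_neg, hneg w hw, neg_neg]
  -- the set of weights
  let O : Set (Z → k) := {χ, s • χ, s • s • χ}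
  have hs3 : ∀ ψ : Z → k, s • s • s • ψ = ψ := by
    intro ψ
    rw [← mul_smul, ← mul_smul, mul_assoc, S.hsss, one_smul]
  have hOs : ∀ ψ ∈ O, s⁻¹ • ψ ∈ O := by
    intro ψ hψ
    rw [S.hs', mul_smul]
    rcases hψ with rfl | rfl | rfl
    · right; right; rfl
    · left; exact hs3 _
    · right; left; rw [hs3]
  have hhs' : ∀ ψ : Z → k, h • s • ψ = s • s • h • ψ := by
    intro ψ
    rw [← mul_smul, S.hs2, mul_smul, mul_smul]
  have hOh : ∀ ψ ∈ O, h⁻¹ • ψ ∈ O := by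
    intro ψ hψ
    rw [S.hh']
    rcases hψ with rfl | rfl | rfl
    · left; exact hhχ
    · right; right
      show h • s • χ = s • s • χ
      rw [hhs', hhχ]
    · right; left
      show h • s • s • χ = s • χ
      rw [hhs', hhs', hhχ, hs3]
  have hOQ : ∀ (O : Set (Z → k)), ∀ y ∈ Q, ∀ ψ ∈ O, y⁻¹ • ψ ∈ O := by
    intro O y hy ψ hψ
    rw [S.smul_Q _ (Q.inv_mem hy)]; exact hψ
  have hCD : ∀ (g : Γ) (y : Γ), g⁻¹ * y * g ∈ DO ρ Q Z {χ} → ∀ w ∈ wt ρ Z (g • χ), ρ y w = w := by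
    intro g y hy w hw
    have h1 : ρ g⁻¹ w ∈ wt ρ Z χ := by
      have := smul_mem_wt hw g⁻¹
      rwa [← mul_smul, inv_mul_cancel, one_smul] at this
    have h2 := hy.2 χ rfl _ h1
    have h3 := congrArg (ρ g) h2
    simp only [← End.mul_apply, ← map_mul] at h3
    have h4 : g * (g⁻¹ * y * g * g⁻¹) = y := by group
    rw [h4, mul_inv_cancel, map_one, End.one_apply] at h3
    exact h3
  refine ⟨DO ρ Q Z O, ?_, fun y hy w hw => hy.2 χ (Or.inl rfl) w hw⟩
  apply section_comm Q s h S.hs S.hh S.hhs S.h3 S.h2 S.CQ (DO ρ Q Z O) (fun y hy => hy.1)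
    (fun y hy d hd => conj_mem_DO (hOQ O y hy) d hd) (fun d hd => conj_mem_DO hOs d hd)
    (fun d hd => conj_mem_DO hOh d hd)
  right
  refine ⟨DO ρ Q Z {χ}, ?_, fun y hy => hy.1, fun y hy d hd => conj_mem_DO (hOQ _ y hy) d hd, hC, ?_⟩
  · rintro y ⟨hy1, hy2⟩
    exact ⟨hy1, fun ψ hψ w hw => hy2 ψ (Or.inl hψ) w hw⟩
  · intro y hy1 hy2 hy3
    refine ⟨hy1.1, ?_⟩
    rintro ψ (rfl | rfl | rfl) w hw
    · exact hy1.2 _ rfl w hw
    · apply hCD s y ?_ w hw
      have h1 : s * (s * y * s⁻¹) * s⁻¹ = s⁻¹ * y * s := by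
        rw [S.hs']
        have : s * s * s = 1 := by rw [← pow_two, ← pow_succ]; exact S.hs
        calc s * (s * y * (s * s)) * (s * s) = (s * s) * y * s * (s * s * s) := by simp only [mul_assoc]
          _ = _ := by rw [this, mul_one]
      rw [← h1]; exact hy3
    · apply hCD (s * s) y ?_ w (by rw [mul_smul]; exact hw)
      have h1 : s * y * s⁻¹ = (s * s)⁻¹ * y * (s * s) := by
        rw [← S.hs', inv_inv]
      rw [← h1]; exact hy2

/-- The case of a weight fixed by `s` but not by `h`. -/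
theorem case_s [Z.Normal] (S : Setup ρ Q Z s h) (χ : Z → k) (hsχ : s • χ = χ) (hhχ : h • χ ≠ χ) :
    ∃ D : Subgroup Γ, (∀ x ∈ Q, ∀ y ∈ Q, x * y * x⁻¹ * y⁻¹ ∈ D) ∧
      ∀ y ∈ D, ∀ w ∈ wt ρ Z χ, ρ y w = w := by
  have hQn := S.Qn
  have hhs' : ∀ ψ : Z → k, h • s • ψ = s • s • h • ψ := by
    intro ψ
    rw [← mul_smul, S.hs2, mul_smul, mul_smul]
  have hs3 : ∀ ψ : Z → k, s • s • s • ψ = ψ := by
    intro ψ
    rw [← mul_smul, ← mul_smul, mul_assoc, S.hsss, one_smul]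
  have hshχ : s • h • χ = h • χ := by
    have h1 := hhs' χ
    rw [hsχ] at h1
    have h2 := congrArg (fun ψ => s • ψ) h1
    simp only [hs3] at h2
    exact h2
  have hhh : ∀ ψ : Z → k, h • h • ψ = ψ := by
    intro ψ
    rw [← mul_smul, ← pow_two, S.hh, one_smul]
  have hfix : ∀ w ∈ wt ρ Z χ, ρ s w = w → w = 0 := by
    intro w hw hsw
    by_contra hw0
    have h1 := orb_ne_zero S.Zk S.Zcomm Nat.prime_two S.hh hhχ hw hw0
    apply h1
    have h2 : orb ρ h 2 w = w + ρ h w := by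
      unfold orb
      simp only [Finset.sum_range_succ, Finset.sum_range_zero, zero_add, pow_zero, pow_one, End.one_apply]
    rw [h2]
    apply S.hV
    · rw [map_add, hsw]
      congr 1
      have h3 : ρ s (ρ h w) = ρ h (ρ s (ρ s w)) := by
        simp only [← End.mul_apply, ← map_mul]
        have h4 : s * h = h * (s * s) := by
          rw [← mul_assoc, S.hs2, mul_assoc (s * s), S.hs2]
          have : s * s * s = 1 := by rw [← pow_two, ← pow_succ]; exact S.hs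
          calc s * h = s * (s * s * s) * h := by rw [this, mul_one]
            _ = _ := by simp only [mul_assoc]
        rw [h4]
      rw [h3, hsw, hsw]
    · rw [map_add, S.h_h, add_comm]
  have hfix' : ∀ w ∈ wt ρ Z (h • χ), ρ s w = w → w = 0 := by
    intro w hw hsw
    have h1 : ρ h w ∈ wt ρ Z χ := by
      have := smul_mem_wt hw h
      rwa [hhh] at this
    have h3 : ρ s (ρ h w) = ρ h w := by
      have h5 : ρ h (ρ s w) = ρ s (ρ s (ρ h w)) := by
        simp only [← End.mul_apply, ← map_mul]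
        rw [S.hs2]
        simp only [mul_assoc]
      rw [hsw] at h5
      have h6 := congrArg (ρ s) h5
      have h7 : ∀ v, ρ s (ρ s (ρ s v)) = v := by
        intro v
        simp only [← End.mul_apply, ← map_mul]
        rw [S.hsss, map_one, End.one_apply]
      rw [h7] at h6
      exact h6
    have h4 := hfix _ h1 h3
    have h5 := congrArg (ρ h) h4
    rw [S.h_h, map_zero] at h5
    exact h5
  let O : Set (Z → k) := {χ, h • χ}
  have hOs : ∀ ψ ∈ O, s⁻¹ • ψ ∈ O := by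
    intro ψ hψ
    rw [S.hs', mul_smul]
    rcases hψ with rfl | rfl
    · left
      show s • s • _ = _
      rw [hsχ, hsχ]
    · right
      show s • s • h • χ = h • χ
      rw [hshχ, hshχ]
  have hOh : ∀ ψ ∈ O, h⁻¹ • ψ ∈ O := by
    intro ψ hψ
    rw [S.hh']
    rcases hψ with rfl | rfl
    · right; rfl
    · left; exact hhh _
  have hOQ : ∀ (O : Set (Z → k)), ∀ y ∈ Q, ∀ ψ ∈ O, y⁻¹ • ψ ∈ O := by
    intro O y hy ψ hψ
    rw [S.smul_Q _ (Q.inv_mem hy)]; exact hψ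
  refine ⟨DO ρ Q Z O, ?_, fun y hy w hw => hy.2 χ (Or.inl rfl) w hw⟩
  apply section_comm Q s h S.hs S.hh S.hhs S.h3 S.h2 S.CQ (DO ρ Q Z O) (fun y hy => hy.1)
    (fun y hy d hd => conj_mem_DO (hOQ O y hy) d hd) (fun d hd => conj_mem_DO hOs d hd)
    (fun d hd => conj_mem_DO hOh d hd)
  left
  intro y hy
  refine ⟨Q.mul_mem (hQn.conj_mem y hy s) (Q.inv_mem hy), ?_⟩
  rintro ψ (rfl | rfl) w hw
  · exact comm_on_sub ρ Q s S.hs (fun y hy => hQn.conj_mem y hy s) S.sol S.h2 S.h3 S.Qk S.h3k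
      (wt ρ Z ψ) (fun y hy w hw => S.wt_Q y hy ψ w hw)
      (fun w hw => by have := smul_mem_wt hw s; rwa [hsχ] at this) hfix y hy w hw
  · exact comm_on_sub ρ Q s S.hs (fun y hy => hQn.conj_mem y hy s) S.sol S.h2 S.h3 S.Qk S.h3k
      (wt ρ Z (h • χ)) (fun y hy w hw => S.wt_Q y hy _ w hw)
      (fun w hw => by have := smul_mem_wt hw s; rwa [hshχ] at this) hfix' y hy w hw

/-- The case of a weight fixed by `s` and `h`. -/
theorem case_fixed [Z.Normal] (S : Setup ρ Q Z s h) (χ : Z → k) (hsχ : s • χ = χ) (hhχ : h • χ = χ)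
    (hχ : wt ρ Z χ ≠ ⊥) (z : Z) : χ z = 1 := by
  have hcomm : ∀ a b : Z, a * b = b * a := fun a b => Subtype.ext (S.Zcomm a a.2 b b.2)
  have hs3 : ∀ a : Z, MulAut.conjNormal s (MulAut.conjNormal s (MulAut.conjNormal s a)) = a := by
    intro a
    apply Subtype.ext
    simp only [MulAut.conjNormal_apply]
    have h4 : s * (s * (s * (a : Γ) * s⁻¹) * s⁻¹) * s⁻¹ = (s * (s * s)) * a * (s * (s * s))⁻¹ := by
      simp only [mul_inv_rev, mul_assoc]
    rw [h4, S.hsss]; group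
  have hh2 : ∀ a : Z, MulAut.conjNormal h (MulAut.conjNormal h a) = a := by
    intro a
    apply Subtype.ext
    simp only [MulAut.conjNormal_apply]
    have h4 : h * (h * (a : Γ) * h⁻¹) * h⁻¹ = h ^ 2 * a * (h ^ 2)⁻¹ := by
      simp only [pow_succ, pow_zero, one_mul, mul_inv_rev, mul_assoc]
    rw [h4, S.hh]; group
  have hsh : ∀ a : Z, MulAut.conjNormal s (MulAut.conjNormal h a) =
      MulAut.conjNormal h (MulAut.conjNormal s (MulAut.conjNormal s a)) := by
    intro a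
    apply Subtype.ext
    simp only [MulAut.conjNormal_apply]
    have h5 : s * h = h * s * s := by
      rw [S.hs2, mul_assoc (s * s), S.hs2]
      have : s * s * s = 1 := by rw [← pow_two, ← pow_succ]; exact S.hs
      calc s * h = s * (s * s * s) * h := by rw [this, mul_one]
        _ = _ := by simp only [mul_assoc]
    have h4 : s * (h * (a : Γ) * h⁻¹) * s⁻¹ = (s * h) * a * (s * h)⁻¹ := by group
    rw [h4, h5]; group
  have hχs : ∀ a : Z, χ (MulAut.conjNormal s a) = χ a := by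
    intro a
    have h1 := congrFun hsχ (MulAut.conjNormal s a)
    rw [wt_smul_def] at h1
    have h2 : MulAut.conjNormal s⁻¹ (MulAut.conjNormal s a) = a := by
      rw [← MulAut.mul_apply, ← map_mul, inv_mul_cancel, map_one, MulAut.one_apply]
    rw [h2] at h1
    exact h1.symm
  have hχh : ∀ a : Z, χ (MulAut.conjNormal h a) = χ a := by
    intro a
    have h1 := congrFun hhχ (MulAut.conjNormal h a)
    rw [wt_smul_def] at h1
    have h2 : MulAut.conjNormal h⁻¹ (MulAut.conjNormal h a) = a := by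
      rw [← MulAut.mul_apply, ← map_mul, inv_mul_cancel, map_one, MulAut.one_apply]
    rw [h2] at h1
    exact h1.symm
  set f : MulAut Z := MulAut.conjNormal s with hf
  set t : MulAut Z := MulAut.conjNormal h with ht
  let u : Z := z * f z * f (f z)
  have hfu : f u = u := by
    show f (z * f z * f (f z)) = z * f z * f (f z)
    rw [map_mul, map_mul, hs3, hcomm (f z * f (f z)) z, mul_assoc]
  let v : Z := u * t u
  have hfv : f v = v := by
    show f (u * t u) = u * t u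
    rw [map_mul, hfu, hsh, hfu, hfu]
  have htv : t v = v := by
    show t (u * t u) = u * t u
    rw [map_mul, hh2, hcomm]
  have hv1 : v = 1 := by
    apply Subtype.ext
    apply S.CQ v (S.ZQ v.2)
    · have h1 := congrArg Subtype.val hfv
      rw [hf, MulAut.conjNormal_apply] at h1
      exact mul_inv_eq_iff_eq_mul.mp h1
    · have h1 := congrArg Subtype.val htv
      rw [ht, MulAut.conjNormal_apply] at h1
      exact mul_inv_eq_iff_eq_mul.mp h1
  have h6 : χ z ^ 6 = 1 := by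
    have h1 : χ v = 1 := by rw [hv1]; exact wt_one hχ
    have h2 : χ v = χ z * χ z * χ z * (χ z * χ z * χ z) := by
      show χ (z * f z * f (f z) * t (z * f z * f (f z))) = _
      rw [wt_mul hχ, hχh, wt_mul hχ, wt_mul hχ, hχs, hχs, hχs]
    rw [h1] at h2
    rw [h2]; ring
  have hpow : ∀ n : ℕ, χ z ^ n = χ (z ^ n) := by
    intro n
    induction n with
    | zero => rw [pow_zero, pow_zero, wt_one hχ]
    | succ n ih => rw [pow_succ, ih, pow_succ, wt_mul hχ]
  have hn : χ z ^ (Nat.card Z) = 1 := by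
    rw [hpow, pow_card_eq_one', wt_one hχ]
  have hc : Nat.Coprime 6 (Nat.card Z) := by
    have h5 : (6 : ℕ) = 2 * 3 := rfl
    rw [h5]
    apply Nat.Coprime.mul_left
    · exact (Nat.Prime.coprime_iff_not_dvd Nat.prime_two).mpr
        (fun h => S.h2 (h.trans (Subgroup.card_dvd_of_le S.ZQ)))
    · exact (Nat.Prime.coprime_iff_not_dvd Nat.prime_three).mpr
        (fun h => S.h3 (h.trans (Subgroup.card_dvd_of_le S.ZQ)))
  rw [← orderOf_eq_one_iff]
  exact Nat.eq_one_of_dvd_coprimes hc (orderOf_dvd_of_pow_eq_one h6) (orderOf_dvd_of_pow_eq_one hn)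

/-- No regular orbit of weights. -/
theorem exists_fix [Z.Normal] (S : Setup ρ Q Z s h) (χ : Z → k) (hsχ : s • χ ≠ χ)
    (hχ : wt ρ Z χ ≠ ⊥) : ∃ i : ℕ, (s ^ i * h) • χ = χ := by
  classical
  by_contra hcon
  push Not at hcon
  obtain ⟨w, hw, hw0⟩ := Submodule.exists_mem_ne_zero_of_ne_bot hχ
  have hv : orb ρ s 3 (w + ρ h w) = 0 := by
    apply S.hV
    · exact S.s_orb _
    · rw [S.h_orb, map_add, S.h_h, add_comm]
  have hsi : ∀ i : ℕ, (s ^ i)⁻¹ = s ^ (2 * i) := by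
    intro i
    rw [inv_eq_iff_mul_eq_one, ← pow_add]
    have : i + 2 * i = 3 * i := by ring
    rw [this, pow_mul, S.hs, one_pow]
  have hshχ : s • h • χ ≠ h • χ := by
    intro h0
    apply hsχ
    have h1 : s • s • h • χ = h • χ := by rw [h0, h0]
    rw [← mul_smul, ← mul_smul, ← S.hs2, mul_smul] at h1
    exact smul_left_cancel h h1
  have hne : ∀ i j : ℕ, s ^ i • χ ≠ s ^ j • h • χ := by
    intro i j h0
    apply hcon (2 * i + j)
    rw [pow_add, mul_smul, mul_smul, ← h0, ← hsi, ← mul_smul, inv_mul_cancel, one_smul]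
  have h1 := eq_zero_of_sum_wt S.Zk S.Zcomm (Finset.range 3 ×ˢ (Finset.univ : Finset Bool))
    (fun a => s ^ a.1 • (if a.2 then h • χ else χ))
    (fun a => (ρ s ^ a.1) (if a.2 then ρ h w else w)) (by
      rintro ⟨i, b⟩ hi ⟨j, c⟩ hj hij
      rw [Finset.mem_product, Finset.mem_range] at hi hj
      cases b <;> cases c
      · have h2 : s ^ i • χ = s ^ j • χ := by simpa using hij
        have h3 : i = j := smul_pow_injOn Nat.prime_three S.hs hsχ hi.1 hj.1 h2
        rw [h3]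
      · exact absurd (by simpa using hij) (hne i j)
      · exact absurd (by simpa using hij.symm) (hne j i)
      · have h2 : s ^ i • h • χ = s ^ j • h • χ := by simpa using hij
        have h3 : i = j := smul_pow_injOn Nat.prime_three S.hs hshχ hi.1 hj.1 h2
        rw [h3]) (by
      rintro ⟨i, b⟩ _
      show (ρ s ^ i) _ ∈ _
      rw [← map_pow]
      apply smul_mem_wt
      cases b
      · simpa using hw
      · simpa using smul_mem_wt hw h) (by
      rw [Finset.sum_product]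
      rw [← hv]
      unfold orb
      apply Finset.sum_congr rfl
      intro i _
      rw [Fintype.sum_bool, map_add]
      simp only [if_true, Bool.false_eq_true, if_false]
      rw [add_comm]) (0, false) (by simp)
  apply hw0
  simpa using h1

theorem swap (S : Setup ρ Q Z s h) (i : ℕ) : Setup ρ Q Z s (s ^ i * h) where
  Qn := S.Qn
  Zn := S.Zn
  hs := S.hs
  hh := by
    have h1 : ∀ i : ℕ, h * s ^ i = (s ^ i)⁻¹ * h := by
      intro i
      induction i with
      | zero => simp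
      | succ n ih =>
        have h2 : h * s = s⁻¹ * h := by rw [S.hs', S.hs2]
        rw [pow_succ, ← mul_assoc, ih, mul_assoc, h2, mul_inv_rev, ← mul_assoc, ← mul_inv_rev,
          ← pow_succ', pow_succ, mul_inv_rev]
    rw [pow_two, mul_assoc, ← mul_assoc h, h1, mul_assoc, ← pow_two, S.hh, mul_one, mul_inv_cancel]
  hhs := by
    have h1 : s ^ i * h * s * (s ^ i * h)⁻¹ = s ^ i * (h * s * h⁻¹) * (s ^ i)⁻¹ := by group
    rw [h1, S.hhs, ← zpow_natCast]
    group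
  h3 := S.h3
  h2 := S.h2
  Qk := S.Qk
  h2k := S.h2k
  h3k := S.h3k
  sol := S.sol
  CQ := by
    intro x hx h1 h2
    apply S.CQ x hx h1
    have h3 : s ^ i * x = x * s ^ i := ((show Commute s x from h1).pow_left i)
    have h4 : s ^ i * (h * x) = s ^ i * (x * h) := by
      rw [← mul_assoc, h2, ← mul_assoc, ← mul_assoc, h3]
    exact mul_left_cancel h4
  hV := by
    intro v h1 h2
    apply S.hV v h1
    have h3 : ∀ n : ℕ, ρ (s ^ n) v = v := by
      intro n
      induction n with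
      | zero => rw [pow_zero, map_one, End.one_apply]
      | succ n ih => rw [pow_succ, map_mul, End.mul_apply, h1, ih]
    rw [map_mul, End.mul_apply] at h2
    have h4 : ρ (s ^ i) (ρ h v) = ρ (s ^ i) v := by rw [h2, h3]
    have h5 := congrArg (ρ (s ^ i)⁻¹) h4
    simp only [← End.mul_apply, ← map_mul] at h5
    rw [← mul_assoc, inv_mul_cancel, one_mul, map_one, End.one_apply] at h5
    exact h5
  ZQ := S.ZQ
  Zc := S.Zc

/-- Every weight of `Z` is trivial on the commutator subgroup of `Q`. -/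
theorem weight_trivial [Z.Normal] (S : Setup ρ Q Z s h) (χ : Z → k) (hχ : wt ρ Z χ ≠ ⊥) (z : Z)
    (hz : (z : Γ) ∈ (⁅Q, Q⁆ : Subgroup Γ)) : χ z = 1 := by
  have key : (∃ D : Subgroup Γ, (∀ x ∈ Q, ∀ y ∈ Q, x * y * x⁻¹ * y⁻¹ ∈ D) ∧
      ∀ y ∈ D, ∀ w ∈ wt ρ Z χ, ρ y w = w) → χ z = 1 := by
    rintro ⟨D, hD, hDw⟩
    have hle : ⁅Q, Q⁆ ≤ D := by
      rw [Subgroup.commutator_le]
      intro a ha b hb
      exact hD a ha b hb
    obtain ⟨w, hw, hw0⟩ := Submodule.exists_mem_ne_zero_of_ne_bot hχ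
    have h1 := hDw z (hle hz) w hw
    rw [mem_wt.mp hw z] at h1
    have h2 : (χ z - 1) • w = 0 := by rw [sub_smul, one_smul, h1, sub_self]
    rcases smul_eq_zero.mp h2 with h3 | h3
    · exact sub_eq_zero.mp h3
    · exact absurd h3 hw0
  by_cases hsχ : s • χ = χ
  · by_cases hhχ : h • χ = χ
    · exact S.case_fixed χ hsχ hhχ hχ z
    · exact key (S.case_s χ hsχ hhχ)
  · obtain ⟨i, hi⟩ := S.exists_fix χ hsχ hχ
    exact key ((S.swap i).case_h χ hsχ hi)

end Setup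

/-- The faithful case. -/
theorem P6_faithful (ρ : Representation k Γ V) (Q : Subgroup Γ) [hQn : Q.Normal] (s h : Γ) {q : ℕ}
    (hs : s ^ 3 = 1) (hh : h ^ 2 = 1) (hhs : h * s * h⁻¹ = s⁻¹) (hq : q.Prime) (hQ : IsPGroup q Q)
    (hq2 : q ≠ 2) (hq3 : q ≠ 3) (hqk : (q : k) ≠ 0) (h2k : (2 : k) ≠ 0) (h3k : (3 : k) ≠ 0)
    (hCQ : ∀ x ∈ Q, s * x = x * s → h * x = x * h → x = 1)
    (hV : ∀ v : V, ρ s v = v → ρ h v = v → v = 0) (hinj : ∀ x ∈ Q, ρ x = 1 → x = 1) :
    ∀ x ∈ Q, ∀ y ∈ Q, x * y = y * x := by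
  classical
  haveI := Fact.mk hq
  by_contra hcon
  push Not at hcon
  obtain ⟨x, hx, y, hy, hxy⟩ := hcon
  obtain ⟨n, hn⟩ := (IsPGroup.iff_card (p := q)).mp hQ
  have hNbot : commutator Q ≠ ⊥ := by
    intro h0
    apply hxy
    have h1 := Subgroup.commutator_mem_commutator (Subgroup.mem_top (⟨x, hx⟩ : Q))
      (Subgroup.mem_top (⟨y, hy⟩ : Q))
    rw [← commutator_def, h0, Subgroup.mem_bot, commutatorElement_eq_one_iff_mul_comm] at h1
    exact congrArg Subtype.val h1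
  obtain ⟨z, hz1, hz2, hz3⟩ := Cfsg.Agent.Transfer.TausskyTwoGroup.exists_ne_one_mem_inf_center hQ
    (commutator Q) hNbot
  let Z : Subgroup Γ := Q ⊓ Subgroup.centralizer (Q : Set Γ)
  haveI hZn : Z.Normal := inferInstanceAs (Q ⊓ Subgroup.centralizer (Q : Set Γ)).Normal
  have hndvd : ∀ p : ℕ, p.Prime → p ≠ q → ¬ p ∣ Nat.card Q := by
    intro p hp hpq h0
    rw [hn] at h0
    exact hpq ((Nat.prime_dvd_prime_iff_eq hp hq).mp (hp.dvd_of_dvd_pow h0))
  have S : Setup ρ Q Z s h :=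
    { Qn := hQn
      Zn := hZn
      hs := hs
      hh := hh
      hhs := hhs
      h3 := hndvd 3 Nat.prime_three (Ne.symm hq3)
      h2 := hndvd 2 Nat.prime_two (Ne.symm hq2)
      Qk := by rw [hn, Nat.cast_pow]; exact pow_ne_zero _ hqk
      h2k := h2k
      h3k := h3k
      sol := by
        haveI := hQ.isNilpotent
        infer_instance
      CQ := hCQ
      hV := hV
      ZQ := inf_le_left
      Zc := by
        intro a ha b hb
        exact ((Subgroup.mem_centralizer_iff.mp ha.2) b hb).symm }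
  have hzZ : (z : Γ) ∈ Z := by
    refine Subgroup.mem_inf.mpr ⟨z.2, ?_⟩
    rw [Subgroup.mem_centralizer_iff]
    intro b hb
    exact congrArg Subtype.val ((Subgroup.mem_center_iff.mp hz2) ⟨b, hb⟩)
  have hzQ : (z : Γ) ∈ (⁅Q, Q⁆ : Subgroup Γ) := by
    have h1 : (commutator Q).map Q.subtype = ⁅Q, Q⁆ := by
      rw [commutator_def, Subgroup.map_commutator, ← MonoidHom.range_eq_map, Subgroup.range_subtype]
    rw [← h1]
    exact ⟨z, hz1, rfl⟩
  -- `z` acts trivially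
  apply hz3
  apply Subtype.ext
  apply hinj z z.2
  have htop := iSup_wt ρ Z S.Zk S.Zcomm
  have hle : (⊤ : Submodule k V) ≤ LinearMap.ker (ρ (z : Γ) - 1) := by
    rw [← htop]
    apply iSup_le
    intro χ
    by_cases hχ : wt ρ Z χ = ⊥
    · rw [hχ]; exact bot_le
    · intro w hw
      rw [LinearMap.mem_ker, LinearMap.sub_apply, End.one_apply, mem_wt.mp hw ⟨z, hzZ⟩,
        S.weight_trivial χ hχ ⟨z, hzZ⟩ hzQ, one_smul, sub_self]
  ext v
  have h1 := hle (Submodule.mem_top (x := v))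
  rw [LinearMap.mem_ker, LinearMap.sub_apply] at h1
  exact sub_eq_zero.mp h1

end Core

/-- P6. -/
theorem P6 {k Γ V : Type*} [Field k] [IsAlgClosed k] [Group Γ] [Finite Γ] [AddCommGroup V] [Module k V]
    [FiniteDimensional k V] (ρ : Representation k Γ V) (Q F H : Subgroup Γ) [Q.Normal] {q : ℕ}
    (hF : Nat.card F = 3) (hH : Nat.card H = 2) (hHF : H ≤ Subgroup.normalizer (F : Set Γ))
    (hne : ¬ H ≤ Subgroup.centralizer (F : Set Γ)) (hq : q.Prime) (hQ : IsPGroup q Q) (hq2 : q ≠ 2)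
    (hq3 : q ≠ 3) (hqk : (q : k) ≠ 0) (h2k : (2 : k) ≠ 0) (h3k : (3 : k) ≠ 0)
    (hCQ : ∀ x ∈ Q, (∀ a ∈ F, a * x = x * a) → (∀ a ∈ H, a * x = x * a) → x = 1)
    (hV : ∀ v : V, (∀ a ∈ F, ρ a v = v) → (∀ a ∈ H, ρ a v = v) → v = 0) :
    ∀ x ∈ Q, ∀ y ∈ Q, ρ (x * y) = ρ (y * x) := by
  classical
  have hQn : Q.Normal := inferInstance
  -- generators
  obtain ⟨s, hsF⟩ : ∃ s : Γ, F = Subgroup.zpowers s := by
    haveI : Fact (Nat.Prime 3) := ⟨Nat.prime_three⟩
    haveI : IsCyclic F := isCyclic_of_prime_card hF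
    obtain ⟨g, hg⟩ := IsCyclic.exists_generator (α := F)
    refine ⟨g, le_antisymm ?_ ?_⟩
    · intro a ha
      obtain ⟨n, hn⟩ := Subgroup.mem_zpowers_iff.mp (hg ⟨a, ha⟩)
      exact Subgroup.mem_zpowers_iff.mpr ⟨n, congrArg Subtype.val hn⟩
    · rw [Subgroup.zpowers_le]; exact g.2
  obtain ⟨h, hhH⟩ : ∃ h : Γ, H = Subgroup.zpowers h := by
    haveI : Fact (Nat.Prime 2) := ⟨Nat.prime_two⟩
    haveI : IsCyclic H := isCyclic_of_prime_card hH
    obtain ⟨g, hg⟩ := IsCyclic.exists_generator (α := H)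
    refine ⟨g, le_antisymm ?_ ?_⟩
    · intro a ha
      obtain ⟨n, hn⟩ := Subgroup.mem_zpowers_iff.mp (hg ⟨a, ha⟩)
      exact Subgroup.mem_zpowers_iff.mpr ⟨n, congrArg Subtype.val hn⟩
    · rw [Subgroup.zpowers_le]; exact g.2
  have hos : orderOf s = 3 := by rw [← Nat.card_zpowers, ← hsF, hF]
  have hoh : orderOf h = 2 := by rw [← Nat.card_zpowers, ← hhH, hH]
  have hs : s ^ 3 = 1 := by rw [← hos]; exact pow_orderOf_eq_one s
  have hh : h ^ 2 = 1 := by rw [← hoh]; exact pow_orderOf_eq_one h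
  have hsF' : s ∈ F := by rw [hsF]; exact Subgroup.mem_zpowers s
  have hhH' : h ∈ H := by rw [hhH]; exact Subgroup.mem_zpowers h
  have hs' : s⁻¹ = s * s := by
    rw [inv_eq_iff_mul_eq_one, ← pow_two, ← pow_succ']; exact hs
  have hhs : h * s * h⁻¹ = s⁻¹ := by
    have h1 : h * s * h⁻¹ ∈ F := (Subgroup.mem_normalizer_iff.mp (hHF hhH') s).mp hsF'
    rw [hsF, ← mem_powers_iff_mem_zpowers] at h1
    obtain ⟨n, hn⟩ := h1
    have hn' : s ^ n = h * s * h⁻¹ := hn
    have h2 : s ^ n = s ^ (n % 3) := by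
      rw [← hos, pow_mod_orderOf]
    rw [h2] at hn'
    have h3 : n % 3 < 3 := Nat.mod_lt _ (by norm_num)
    have h4 : n % 3 = 0 ∨ n % 3 = 1 ∨ n % 3 = 2 := by omega
    rcases h4 with h4 | h4 | h4
    · exfalso
      rw [h4, pow_zero] at hn'
      have h5 : s = 1 := by
        have h6 := congrArg (fun g => h⁻¹ * g * h) hn'
        simp only [mul_one, inv_mul_cancel] at h6
        have h7 : h⁻¹ * (h * s * h⁻¹) * h = s := by group
        rw [h7] at h6
        exact h6.symm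
      rw [h5, orderOf_one] at hos
      norm_num at hos
    · exfalso
      rw [h4, pow_one] at hn'
      apply hne
      rw [hhH, Subgroup.zpowers_le, Subgroup.mem_centralizer_iff]
      intro a ha
      rw [SetLike.mem_coe, hsF, Subgroup.mem_zpowers_iff] at ha
      obtain ⟨m, rfl⟩ := ha
      have h5 : Commute h s := by
        show h * s = s * h
        rw [← mul_inv_eq_iff_eq_mul]; exact hn'.symm
      exact (h5.zpow_right m).symm
    · rw [h4] at hn'
      rw [← hn', hs', pow_two]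
  have hFall : ∀ {P : Γ → Prop}, P 1 → (∀ a b, P a → P b → P (a * b)) → P s → ∀ a ∈ F, P a := by
    intro P h1 hmul hPs a ha
    rw [hsF, ← mem_powers_iff_mem_zpowers] at ha
    obtain ⟨n, rfl⟩ := ha
    show P (s ^ n)
    induction n with
    | zero => rw [pow_zero]; exact h1
    | succ n ih => rw [pow_succ]; exact hmul _ _ ih hPs
  have hHall : ∀ {P : Γ → Prop}, P 1 → (∀ a b, P a → P b → P (a * b)) → P h → ∀ a ∈ H, P a := by
    intro P h1 hmul hPh a ha
    rw [hhH, ← mem_powers_iff_mem_zpowers] at ha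
    obtain ⟨n, rfl⟩ := ha
    show P (h ^ n)
    induction n with
    | zero => rw [pow_zero]; exact h1
    | succ n ih => rw [pow_succ]; exact hmul _ _ ih hPh
  have hCQ' : ∀ x ∈ Q, s * x = x * s → h * x = x * h → x = 1 := by
    intro x hx h1 h2
    apply hCQ x hx
    · apply hFall (P := fun a => a * x = x * a) (by rw [one_mul, mul_one]) _ h1
      intro a b ha hb
      rw [mul_assoc, hb, ← mul_assoc, ha, mul_assoc]
    · apply hHall (P := fun a => a * x = x * a) (by rw [one_mul, mul_one]) _ h2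
      intro a b ha hb
      rw [mul_assoc, hb, ← mul_assoc, ha, mul_assoc]
  have hV' : ∀ v : V, ρ s v = v → ρ h v = v → v = 0 := by
    intro v h1 h2
    apply hV v
    · apply hFall (P := fun a => ρ a v = v) (by rw [map_one, End.one_apply]) _ h1
      intro a b ha hb
      rw [map_mul, End.mul_apply, hb, ha]
    · apply hHall (P := fun a => ρ a v = v) (by rw [map_one, End.one_apply]) _ h2
      intro a b ha hb
      rw [map_mul, End.mul_apply, hb, ha]
  obtain ⟨n, hn⟩ : ∃ n, Nat.card Q = q ^ n := by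
    haveI := Fact.mk hq
    exact (IsPGroup.iff_card (p := q)).mp hQ
  have hndvd : ∀ p : ℕ, p.Prime → p ≠ q → ¬ p ∣ Nat.card Q := by
    intro p hp hpq h0
    rw [hn] at h0
    exact hpq ((Nat.prime_dvd_prime_iff_eq hp hq).mp (hp.dvd_of_dvd_pow h0))
  -- factor out the kernel
  let N : Subgroup Γ := Q ⊓ MonoidHom.ker ρ
  haveI hNn : N.Normal := inferInstanceAs (Q ⊓ MonoidHom.ker ρ).Normal
  have hNker : N ≤ MonoidHom.ker ρ := inf_le_right
  let ρ' : Representation k (Γ ⧸ N) V := QuotientGroup.lift N ρ (fun g hg => hNker hg)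
  have hρ' : ∀ g : Γ, ρ' (QuotientGroup.mk' N g) = ρ g := fun g => rfl
  let Q' : Subgroup (Γ ⧸ N) := Q.map (QuotientGroup.mk' N)
  haveI hQ'n : Q'.Normal := Subgroup.Normal.map hQn _ (QuotientGroup.mk'_surjective N)
  have hmk1 : ∀ g : Γ, QuotientGroup.mk' N g = 1 ↔ g ∈ N := fun g => QuotientGroup.eq_one_iff g
  have hmain := P6_faithful ρ' Q' (QuotientGroup.mk' N s) (QuotientGroup.mk' N h) (q := q)
    (by rw [← map_pow, hs, map_one]) (by rw [← map_pow, hh, map_one])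
    (by rw [← map_mul, ← map_inv, ← map_mul, hhs, map_inv]) hq (hQ.map _) hq2 hq3 hqk h2k h3k
    (by
      rintro _ ⟨x, hx, rfl⟩ h1 h2
      rw [hmk1]
      have hcm : ∀ g : Γ, QuotientGroup.mk' N g * QuotientGroup.mk' N x =
          QuotientGroup.mk' N x * QuotientGroup.mk' N g → g * x * g⁻¹ * x⁻¹ ∈ N := by
        intro g hg
        rw [← hmk1, map_mul, map_mul, map_mul, map_inv, map_inv, hg]
        group
      exact mem_of_fixed_mod Q s h hs hh hhs (hndvd 3 Nat.prime_three (Ne.symm hq3))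
        (hndvd 2 Nat.prime_two (Ne.symm hq2)) hCQ' N inf_le_left
        (fun y _ d hd => hNn.conj_mem d hd y) (fun d hd => hNn.conj_mem d hd s)
        (fun d hd => hNn.conj_mem d hd h) x hx (hcm s h1) (hcm h h2))
    hV' (by
      rintro _ ⟨x, hx, rfl⟩ h1
      rw [hmk1]
      exact ⟨hx, h1⟩)
  intro x hx y hy
  have h1 := hmain _ ⟨x, hx, rfl⟩ _ ⟨y, hy, rfl⟩
  rw [← map_mul, ← map_mul] at h1
  have h2 := congrArg ρ' h1
  rw [hρ', hρ'] at h2
  exact h2

end Cfsg.Agent.H851.PQ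
end

-- part: H562/FpfS3
section
/-!
# The symmetric group of degree 3 acting without fixed points
-/

set_option autoImplicit false

namespace Cfsg.Agent.H562.FpfS3

open Cfsg Cfsg.Agent.H562.FpfSetup Cfsg.Agent.H562.FpfThm Cfsg.Agent.Lib.Cores

open Cfsg.Agent.OddOrderLocal.Thm34 in
/-- P6 over an arbitrary field -/
theorem P6_field {k : Type*} [Field k] {Γ : Type*} [Group Γ] [Finite Γ] {V : Type*} [AddCommGroup V] [Module k V]
    [FiniteDimensional k V] (ρ : Representation k Γ V) (Q F H : Subgroup Γ) [Q.Normal] {q : ℕ}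
    (hF : Nat.card F = 3) (hH : Nat.card H = 2) (hHF : H ≤ Subgroup.normalizer (F : Set Γ))
    (hne : ¬ H ≤ Subgroup.centralizer (F : Set Γ)) (hq : q.Prime) (hQ : IsPGroup q Q) (hq2 : q ≠ 2)
    (hq3 : q ≠ 3) (hqk : (q : k) ≠ 0) (h2k : (2 : k) ≠ 0) (h3k : (3 : k) ≠ 0)
    (hCQ : ∀ x ∈ Q, (∀ a ∈ F, a * x = x * a) → (∀ a ∈ H, a * x = x * a) → x = 1)
    (hV : ∀ v : V, (∀ a ∈ F, ρ a v = v) → (∀ a ∈ H, ρ a v = v) → v = 0) :
    ∀ x ∈ Q, ∀ y ∈ Q, ρ (x * y) = ρ (y * x) := by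
  have hcast : ∀ n : ℕ, (n : k) ≠ 0 → (n : AlgebraicClosure k) ≠ 0 := by
    intro n hn h
    apply hn
    have h1 : algebraMap k (AlgebraicClosure k) (n : k) = 0 := by rw [map_natCast, h]
    exact (map_eq_zero _).1 h1
  have hcard : (Nat.card (F ⊔ H : Subgroup Γ) : k) ≠ 0 := by
    intro h
    have hc : Nat.card (H ⊔ F : Subgroup Γ) ∣ Nat.card H * Nat.card F :=
      Cfsg.Agent.OddOrderLocal.DecompBasic.card_sup_dvd hHF
    rw [sup_comm] at h
    obtain ⟨m, hm⟩ := hc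
    have h1 : ((Nat.card H * Nat.card F : ℕ) : k) = 0 := by rw [hm, Nat.cast_mul, h, zero_mul]
    rw [Nat.cast_mul, hH, hF] at h1
    rcases mul_eq_zero.1 h1 with h1 | h1
    · exact h2k (by exact_mod_cast h1)
    · exact h3k (by exact_mod_cast h1)
  have hV' := no_fixed_bc (AlgebraicClosure k) ρ F H hcard hV
  intro x hx y hy
  exact eq_of_bc (Cfsg.Agent.H851.PQ.P6 (bc (AlgebraicClosure k) ρ) Q F H hF hH hHF hne hq hQ hq2 hq3
    (hcast _ hqk) (by have := hcast 2 (by exact_mod_cast h2k); exact_mod_cast this)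
    (by have := hcast 3 (by exact_mod_cast h3k); exact_mod_cast this) hCQ hV' x hx y hy)

open Cfsg.Agent.OddOrderLocal.Thm34 in
/-- P6 for an elementary abelian group -/
theorem P6_elem {Γ : Type*} [Group Γ] [Finite Γ] {M : Type*} [CommGroup M] [Finite M] (r : ℕ)
    [hr : Fact r.Prime] (hM : ∀ m : M, m ^ r = 1) (φ : Γ →* MulAut M) (Q F H : Subgroup Γ) [Q.Normal] {q : ℕ}
    (hF : Nat.card F = 3) (hH : Nat.card H = 2) (hHF : H ≤ Subgroup.normalizer (F : Set Γ))
    (hne : ¬ H ≤ Subgroup.centralizer (F : Set Γ)) (hq : q.Prime) (hQ : IsPGroup q Q) (hq2 : q ≠ 2)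
    (hq3 : q ≠ 3) (hqr : q ≠ r) (h2r : 2 ≠ r) (h3r : 3 ≠ r)
    (hCQ : ∀ x ∈ Q, (∀ a ∈ F, a * x = x * a) → (∀ a ∈ H, a * x = x * a) → x = 1)
    (hV : ∀ m : M, (∀ a ∈ F, φ a m = m) → (∀ a ∈ H, φ a m = m) → m = 1) :
    ∀ x ∈ Q, ∀ y ∈ Q, ∀ m, φ (x * y) m = φ (y * x) m := by
  let _inst : Module (ZMod r) (Additive M) := AddCommGroup.zmodModule (by
    intro a
    exact hM a.toMul)
  have hfinA : Finite (Additive M) := inferInstanceAs (Finite M)
  have hfd : FiniteDimensional (ZMod r) (Additive M) := Module.Finite.of_finite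
  have hpF : ∀ n : ℕ, ¬ r ∣ n → (n : ZMod r) ≠ 0 := by
    intro n hn h
    exact hn ((ZMod.natCast_eq_zero_iff n r).1 h)
  have hnd : ∀ {p : ℕ}, p.Prime → p ≠ r → ¬ r ∣ p := by
    intro p hp hpr h
    exact hpr ((Nat.prime_dvd_prime_iff_eq hr.out hp).1 h).symm
  intro x hx y hy m
  have h1 := @P6_field (ZMod r) _ Γ _ _ (Additive M) _ _inst hfd (elemRep r φ) Q F H _ q hF hH hHF hne hq hQ
    hq2 hq3 (hpF _ (hnd hq hqr)) (by exact_mod_cast hpF 2 (hnd Nat.prime_two h2r))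
    (by exact_mod_cast hpF 3 (hnd Nat.prime_three h3r)) hCQ (fun v h1 h2 => hV v.toMul h1 h2) x hx y hy
  exact LinearMap.congr_fun h1 (Additive.ofMul m)

/-- a finite nilpotent group is commutative if all `O_p` are -/
theorem comm_of_pCore {K : Type*} [Group K] [Finite K] (hK : Group.IsNilpotent K)
    (h : ∀ q : ℕ, q.Prime → ∀ x ∈ pCore q K, ∀ y ∈ pCore q K, x * y = y * x) (a b : K) : a * b = b * a := by
  have htop : (⨆ p : Nat.Primes, pCore (p : ℕ) K) = ⊤ := by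
    rw [← fittingSubgroup_eq_iSup_pCore, fittingSubgroup_eq_top_iff]
    exact hK
  have h1 : ∀ p : Nat.Primes, ∀ x ∈ pCore (p : ℕ) K, ∀ p' : Nat.Primes, ∀ y ∈ pCore (p' : ℕ) K,
      x * y = y * x := by
    intro p x hx p' y hy
    by_cases hpp : p = p'
    · subst hpp
      exact h p p.2 x hx y hy
    · have hp : Fact (p : ℕ).Prime := ⟨p.2⟩
      have hp' : Fact (p' : ℕ).Prime := ⟨p'.2⟩
      have hdis : Disjoint (pCore (p : ℕ) K) (pCore (p' : ℕ) K) := by
        have : (Nat.card (pCore (p : ℕ) K)).Coprime (Nat.card (pCore (p' : ℕ) K)) :=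
          IsPGroup.coprime_card_of_ne (p : ℕ) (p' : ℕ) (fun hh => hpp (Subtype.ext hh)) _ _
            (pCore_isPGroup _) (pCore_isPGroup _)
        exact Subgroup.disjoint_of_coprime_natCard this
      exact (Subgroup.commute_of_normal_of_disjoint _ _ (pCore_normal (G := K) (p : ℕ))
        (pCore_normal (G := K) (p' : ℕ)) hdis x y hx hy).eq
  have h2 : ∀ x : K, (∀ p' : Nat.Primes, ∀ y ∈ pCore (p' : ℕ) K, x * y = y * x) → ∀ y, x * y = y * x := by
    intro x hx y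
    have h3 : (⊤ : Subgroup K) ≤ Subgroup.centralizer {x} := by
      rw [← htop]
      apply iSup_le
      intro p' y hy
      rw [Subgroup.mem_centralizer_singleton_iff]
      exact (hx p' y hy).symm
    exact (Subgroup.mem_centralizer_singleton_iff.1 (h3 (Subgroup.mem_top y))).symm
  apply h2
  intro p' y hy
  exact (h2 y (fun p x hx => h1 p' y hy p x hx) a).symm

variable {Γ : Type*} [Group Γ] [Finite Γ] {G : Subgroup Γ} [G.Normal] {F H : Subgroup Γ}

/-- `G / Fit G` is commutative if `F H` is the symmetric group of degree 3 -/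
theorem comm_quot (h : Hyp G F H) [Group.IsSolvable G] (hF : Nat.card F = 3) (hH : Nat.card H = 2)
    (hne : ¬ H ≤ Subgroup.centralizer (F : Set Γ)) (a b : G ⧸ fittingSubgroup G) : a * b = b * a := by
  set π := QuotientGroup.mk' (N G) with hπ
  have hcF := card_map_of_not_dvd h.hF h.hFG
  have hcH := card_map_of_not_dvd h.hH h.hHG
  have hKn : Group.IsNilpotent (K2 G) := by
    have := h.nilpotent
    exact Group.nilpotent_of_mulEquiv (e G)
  have hcomm : ∀ a b : K2 G, a * b = b * a := by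
    apply comm_of_pCore hKn
    intro q hq x hx y hy
    have : Fact q.Prime := ⟨hq⟩
    by_cases hx1 : x = 1
    · rw [hx1, one_mul, mul_one]
    set Q : Subgroup (Γ ⧸ N G) := (pCore q (K2 G)).map (K2 G).subtype with hQdef
    have hcore : (pCore q (K2 G)).Characteristic := pCore_characteristic q
    have hQn : Q.Normal := inferInstance
    have hQK : Q ≤ K2 G := Subgroup.map_subtype_le _
    have hQ : IsPGroup q Q := (pCore_isPGroup q).map _
    have hxQ : (x : Γ ⧸ N G) ∈ Q := ⟨x, hx, rfl⟩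
    have hyQ : (y : Γ ⧸ N G) ∈ Q := ⟨y, hy, rfl⟩
    have hqG : q ∣ Nat.card G := by
      obtain ⟨n, hn⟩ := IsPGroup.iff_card.1 hQ
      rcases Nat.eq_zero_or_pos n with h0 | h0
      · exfalso
        rw [h0, pow_zero, Subgroup.card_eq_one] at hn
        rw [hn, Subgroup.mem_bot] at hxQ
        exact hx1 (Subtype.ext hxQ)
      · have h2 : q ∣ Nat.card Q := by rw [hn]; exact dvd_pow_self q h0.ne'
        exact (h2.trans (Subgroup.card_dvd_of_le hQK)).trans (card_K2_dvd (G := G))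
    have hneq : ∀ {p : ℕ}, p ∣ Nat.card G → p ≠ 3 ∧ p ≠ 2 :=
      fun hp => ⟨fun hh => h.hFG (hF ▸ hh ▸ hp), fun hh => h.hHG (hH ▸ hh ▸ hp)⟩
    have hHF' : H.map π ≤ Subgroup.normalizer ((F.map π : Subgroup (Γ ⧸ N G)) : Set (Γ ⧸ N G)) := by
      apply Cfsg.Agent.H562.FpfCore.le_normalizer_of_conj
      rintro _ ⟨x, hx, rfl⟩ _ ⟨a, ha, rfl⟩
      exact ⟨x * a * x⁻¹, h.hHF x hx a ha, by rw [map_mul, map_mul, map_inv]⟩
    have hne' : ¬ H.map π ≤ Subgroup.centralizer ((F.map π : Subgroup (Γ ⧸ N G)) : Set (Γ ⧸ N G)) := by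
      intro hle
      apply hne
      intro u hu
      rw [Subgroup.mem_centralizer_iff]
      intro v hv
      have h3 := Subgroup.mem_centralizer_iff.1 (hle ⟨u, hu, rfl⟩) _ ⟨v, hv, rfl⟩
      have h4 : u * v * u⁻¹ * v⁻¹ ∈ N G := by
        rw [← QuotientGroup.eq_one_iff]
        show π (u * v * u⁻¹ * v⁻¹) = 1
        rw [map_mul, map_mul, map_mul, ← h3, map_inv, map_inv, mul_inv_cancel_right, mul_inv_cancel]
      have h5 : u * v * u⁻¹ * v⁻¹ ∈ F := F.mul_mem (h.hHF u hu v hv) (F.inv_mem hv)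
      have h6 : F ⊓ G = ⊥ := by
        apply (Subgroup.disjoint_of_coprime_natCard _).eq_bot
        exact (Nat.Prime.coprime_iff_not_dvd h.hF).2 h.hFG
      have h7 : u * v * u⁻¹ * v⁻¹ ∈ F ⊓ G := ⟨h5, N_le G h4⟩
      rw [h6, Subgroup.mem_bot] at h7
      have h8 : v * u = (u * v * u⁻¹ * v⁻¹)⁻¹ * (u * v) := by group
      rw [h8, h7, inv_one, one_mul]
    have key : x * y * x⁻¹ * y⁻¹ = 1 := by
      have hmem : x * y * x⁻¹ * y⁻¹ ∈ pCore q (K2 G) :=
        (pCore q (K2 G)).mul_mem ((pCore q (K2 G)).mul_mem ((pCore q (K2 G)).mul_mem hx hy) (inv_mem hx))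
          (inv_mem hy)
      apply eq_one_of_phi G hq hmem
      intro r hr hrq hrG v
      have h1 := @P6_elem (Γ ⧸ N G) _ _ (pCore r G ⧸ frattini (pCore r G)) (commV G r) _ r hr (V_pow G r)
        (phi G r) Q (F.map π) (H.map π) hQn q (by rw [hcF, hF]) (by rw [hcH, hH]) hHF' hne' hq hQ
        (hneq hqG).2 (hneq hqG).1 hrq.symm (hneq hrG).2.symm (hneq hrG).1.symm
        (fun z hz => h.fix_K2 (hQK hz)) (h.fix_V r) _ hxQ _ hyQ
      have h2 : phi G r ((x * y * x⁻¹ * y⁻¹ : K2 G) : Γ ⧸ N G) =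
          phi G r ((x : Γ ⧸ N G) * y) * (phi G r ((y : Γ ⧸ N G) * x))⁻¹ := by
        rw [← map_inv, ← map_mul]
        congr 1
        rw [Subgroup.coe_mul, Subgroup.coe_mul, Subgroup.coe_mul, Subgroup.coe_inv, Subgroup.coe_inv]
        group
      have h3 : phi G r ((x : Γ ⧸ N G) * y) = phi G r ((y : Γ ⧸ N G) * x) := MulEquiv.ext h1
      rw [h2, h3, mul_inv_cancel, MulAut.one_apply]
    have h2 : x * y = (x * y * x⁻¹ * y⁻¹) * (y * x) := by group
    rw [h2, key, one_mul]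
  apply (e G).injective
  rw [map_mul, map_mul]
  exact hcomm _ _

end Cfsg.Agent.H562.FpfS3
end

-- part: S4305
section
set_option autoImplicit false
open Cfsg

namespace Cfsg.Agent.S4305

/-- Let the symmetric group of degree 3 act by automorphisms on a finite solvable group `G` of order prime to 6, so that only the identity of `G` is fixed by all of it. Then the derived subgroup of `G` is nilpotent. -/
theorem result {G : Type*} [Group G] [Finite G] [Group.IsSolvable G]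
    [MulDistribMulAction (Equiv.Perm (Fin 3)) G] (hcop : (Nat.card G).Coprime 6)
    (hfpf : ∀ g : G, (∀ a : Equiv.Perm (Fin 3), a • g = g) → g = 1) :
    Group.IsNilpotent ↥(commutator G) := by
  have h2G : ¬ 2 ∣ Nat.card G := by
    rw [← Nat.prime_two.coprime_iff_not_dvd]
    exact (hcop.coprime_dvd_right (by norm_num)).symm
  have h3G : ¬ 3 ∣ Nat.card G := by
    rw [← Nat.prime_three.coprime_iff_not_dvd]
    exact (hcop.coprime_dvd_right (by norm_num)).symm
  have hA : Nat.card (Equiv.Perm (Fin 3)) = 3 * 2 := by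
    rw [Nat.card_eq_fintype_card, Fintype.card_perm, Fintype.card_fin]
    rfl
  have hAna : ¬ IsMulCommutative (Equiv.Perm (Fin 3)) := by
    intro h
    have h1 := h.is_comm.comm (Equiv.swap (0 : Fin 3) 1) (Equiv.swap (1 : Fin 3) 2)
    exact absurd h1 (by decide)
  obtain ⟨F, H, hF, hH, hFn, hdvd, htop, hne⟩ := Cfsg.Agent.H562.FpfFinal.exists_FH Nat.prime_three
    Nat.prime_two (by norm_num) hA hAna
  have hyp := Cfsg.Agent.H562.FpfFinal.hyp Nat.prime_three Nat.prime_two hF hH hFn hdvd htop h3G h2G hfpf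
  have hs : Group.IsSolvable (Cfsg.Agent.H562.FpfFinal.Gs G (Equiv.Perm (Fin 3))) :=
    Group.isSolvable_of_surjective
      (f := (Cfsg.Agent.H562.FpfFinal.eG (G := G) (A := Equiv.Perm (Fin 3))).toMonoidHom)
      (Cfsg.Agent.H562.FpfFinal.eG (G := G) (A := Equiv.Perm (Fin 3))).surjective
  have hinj : Function.Injective (SemidirectProduct.inr :
      Equiv.Perm (Fin 3) →* Cfsg.Agent.H562.FpfFinal.Sd G (Equiv.Perm (Fin 3))) :=
    SemidirectProduct.inr_injective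
  have hcomm := Cfsg.Agent.H562.FpfS3.comm_quot hyp
    ((Nat.card_congr (F.equivMapOfInjective _ hinj).toEquiv.symm).trans hF)
    ((Nat.card_congr (H.equivMapOfInjective _ hinj).toEquiv.symm).trans hH)
    (by
      intro hle
      apply hne
      intro u hu
      rw [Subgroup.mem_centralizer_iff]
      intro v hv
      have h3 := Subgroup.mem_centralizer_iff.1 (hle ⟨u, hu, rfl⟩) _ ⟨v, hv, rfl⟩
      rw [← map_mul, ← map_mul] at h3
      exact hinj h3)
  have hcommG : ∀ a b : G ⧸ fittingSubgroup G, a * b = b * a := by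
    intro a b
    have hn1 : (fittingSubgroup G).Normal := Cfsg.Agent.Lib.Cores.fittingSubgroup_normal
    apply (QuotientGroup.congr (fittingSubgroup G)
      (fittingSubgroup (Cfsg.Agent.H562.FpfFinal.Gs G (Equiv.Perm (Fin 3))))
      (Cfsg.Agent.H562.FpfFinal.eG (G := G) (A := Equiv.Perm (Fin 3)))
      (Cfsg.Agent.Lib.Cores.map_equiv_fittingSubgroup _)).injective
    rw [map_mul, map_mul]
    exact hcomm _ _
  have hle : commutator G ≤ fittingSubgroup G := by
    rw [← Subgroup.Normal.quotient_commutative_iff_commutator_le]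
    exact ⟨⟨hcommG⟩⟩
  have hnil : Group.IsNilpotent (fittingSubgroup G) := Cfsg.Agent.Lib.Cores.fittingSubgroup_isNilpotent
  exact Group.nilpotent_of_mulEquiv (Subgroup.subgroupOfEquivOfLe hle)

end Cfsg.Agent.S4305
end
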