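import Mathlib
import Cfsg.Prelude.Def_Transfer
import Cfsg.Agent.Lib.CoprimeHyperplane
import Cfsg.Agent.H565.RankTwo
import Cfsg.Statements.S4316
import Cfsg.Agent.H565.Semi
set_option linter.all false

-- part: H565/ProdSet
section
/-!
# Products of subgroups in nilpotent groups

`PS l` is the set of products `s₁ ⋯ sₙ`, `sᵢ` in the `i`-th member of the list `l` of subgroups.
`mem_PS_of_isNilpotent`: if each term of the lower central series of the nilpotent group `R` is generated by its
intersections with the members of `l` then `R = PS l`.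
`index_le_of_mem_PS`: bound for the number of conjugates of a product.
-/

set_option autoImplicit false

namespace Cfsg.Agent.H565.ProdSet

open Subgroup
open scoped commutatorElement

variable {R : Type*} [Group R]

/-- Products of elements of the members of a list of subgroups, in this order. -/
def PS : List (Subgroup R) → Set R
  | [] => {1}
  | S :: l => {x | ∃ s ∈ S, ∃ t ∈ PS l, x = s * t}

theorem one_mem_PS (l : List (Subgroup R)) : (1 : R) ∈ PS l := by
  induction l with
  | nil => exact rfl
  | cons S l ih => exact ⟨1, S.one_mem, 1, ih, by simp⟩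

/-- Inserting a factor which is central modulo `N`. -/
theorem exists_mem_PS_mul (N : Subgroup R) {z : R} (hz : ∀ t : R, t⁻¹ * z⁻¹ * t * z ∈ N) :
    ∀ (l : List (Subgroup R)) (S : Subgroup R), S ∈ l → z ∈ S → ∀ y ∈ PS l, ∃ y' ∈ PS l, y'⁻¹ * (y * z) ∈ N := by
  intro l
  induction l with
  | nil => intro S hS; simp at hS
  | cons S' l ih =>
    intro S hS hzS y hy
    obtain ⟨s, hs, t, ht, rfl⟩ := hy
    rcases List.mem_cons.mp hS with rfl | hS'
    · refine ⟨(s * z) * t, ⟨s * z, S.mul_mem hs hzS, t, ht, rfl⟩, ?_⟩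
      have h1 := hz t
      have h2 : (s * z * t)⁻¹ * (s * t * z) = t⁻¹ * z⁻¹ * t * z := by group
      rw [h2]; exact h1
    · obtain ⟨y', hy', h2⟩ := ih S hS' hzS t ht
      refine ⟨s * y', ⟨s, hs, y', hy', rfl⟩, ?_⟩
      have h3 : (s * y')⁻¹ * (s * t * z) = y'⁻¹ * (t * z) := by group
      rw [h3]; exact h2

theorem exists_mem_PS_step (M N : Subgroup R) [N.Normal] (l : List (Subgroup R))
    (hMN : ∀ z ∈ M, ∀ t : R, t⁻¹ * z⁻¹ * t * z ∈ N)
    (hgen : M ≤ ⨆ S : {S : Subgroup R // S ∈ l}, S.1 ⊓ M) {z : R} (hz : z ∈ M) :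
    ∀ y ∈ PS l, ∃ y' ∈ PS l, y'⁻¹ * (y * z) ∈ N := by
  have hz' := hgen hz
  clear hz
  induction hz' using Subgroup.iSup_induction' with
  | hp S x hx =>
    intro y hy
    exact exists_mem_PS_mul N (hMN x hx.2) l S.1 S.2 hx.1 y hy
  | h1 =>
    intro y hy
    exact ⟨y, hy, by simp [N.one_mem]⟩
  | hmul x x' hx hx' ih1 ih2 =>
    intro y hy
    obtain ⟨y1, hy1, h1⟩ := ih1 y hy
    obtain ⟨y2, hy2, h2⟩ := ih2 y1 hy1
    refine ⟨y2, hy2, ?_⟩
    have h3 : y2⁻¹ * (y * (x * x')) = (y2⁻¹ * (y1 * x')) * (x'⁻¹ * (y1⁻¹ * (y * x)) * x') := by group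
    rw [h3]
    refine N.mul_mem h2 ?_
    have := (inferInstance : N.Normal).conj_mem _ h1 x'⁻¹
    simpa using this

theorem mem_PS_of_isNilpotent (hR : Group.IsNilpotent R) (l : List (Subgroup R))
    (h : ∀ k : ℕ, (⊤ : Subgroup R).lowerCentralSeries k ≤ ⨆ S : {S : Subgroup R // S ∈ l}, S.1 ⊓ (⊤ : Subgroup R).lowerCentralSeries k) (x : R) :
    x ∈ PS l := by
  have key : ∀ k : ℕ, ∃ y ∈ PS l, y⁻¹ * x ∈ (⊤ : Subgroup R).lowerCentralSeries k := by
    intro k
    induction k with
    | zero => exact ⟨1, one_mem_PS l, by simp⟩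
    | succ k ih =>
      obtain ⟨y, hy, hyx⟩ := ih
      obtain ⟨y', hy', h1⟩ := exists_mem_PS_step ((⊤ : Subgroup R).lowerCentralSeries k)
        ((⊤ : Subgroup R).lowerCentralSeries (k + 1)) l (by
        intro z hz t
        have h2 : ⁅z⁻¹, t⁻¹⁆ ∈ (⊤ : Subgroup R).lowerCentralSeries (k + 1) := by
          rw [Subgroup.lowerCentralSeries_succ]
          exact subset_closure ⟨z⁻¹, ((⊤ : Subgroup R).lowerCentralSeries k).inv_mem hz, t⁻¹, mem_top _, rfl⟩
        have h3 : t⁻¹ * z⁻¹ * t * z = (⁅z⁻¹, t⁻¹⁆)⁻¹ := by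
          rw [commutatorElement_def]; group
        rw [h3]
        exact inv_mem h2) (h k) hyx y hy
      refine ⟨y', hy', ?_⟩
      have h4 : y * (y⁻¹ * x) = x := by group
      rwa [h4] at h1
  obtain ⟨n, hn⟩ := Subgroup.nilpotent_iff_lowerCentralSeries.mp hR
  obtain ⟨y, hy, hyx⟩ := key n
  rw [hn, mem_bot, inv_mul_eq_one] at hyx
  rwa [← hyx]

/-- The number of conjugates of a product. -/
theorem index_mul_le [Finite R] (x y : R) : (centralizer ({x * y} : Set R)).index ≤
    (centralizer ({x} : Set R)).index * (centralizer ({y} : Set R)).index := by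
  have hle : centralizer ({x} : Set R) ⊓ centralizer ({y} : Set R) ≤ centralizer ({x * y} : Set R) := by
    intro g hg
    have h1 := (mem_inf.mp hg).1
    have h2 := (mem_inf.mp hg).2
    rw [mem_centralizer_singleton_iff] at h1 h2 ⊢
    rw [← mul_assoc, h1, mul_assoc, h2, mul_assoc]
  exact le_trans (Nat.le_of_dvd (Nat.pos_of_ne_zero index_ne_zero_of_finite) (index_dvd_of_le hle)) index_inf_le

theorem index_le_of_mem_PS {K : Type*} [Group K] [Finite K] (f : R →* K) {k : ℕ} :
    ∀ (l : List (Subgroup R)), (∀ S ∈ l, ∀ s ∈ S, (centralizer ({f s} : Set K)).index ≤ k) → ∀ x ∈ PS l,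
      (centralizer ({f x} : Set K)).index ≤ k ^ l.length := by
  intro l
  induction l with
  | nil =>
    intro _ x hx
    have hx1 : x = 1 := hx
    subst hx1
    have : centralizer ({f 1} : Set K) = ⊤ := by
      rw [eq_top_iff]
      intro g _
      rw [mem_centralizer_singleton_iff]; simp
    rw [this]; simp
  | cons S l ih =>
    intro h x hx
    obtain ⟨s, hs, t, ht, rfl⟩ := hx
    rw [List.length_cons, pow_succ, mul_comm (k ^ l.length), map_mul]
    exact le_trans (index_mul_le (f s) (f t)) (Nat.mul_le_mul (h S List.mem_cons_self s hs)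
      (ih (fun S' hS' => h S' (List.mem_cons_of_mem _ hS')) t ht))

end Cfsg.Agent.H565.ProdSet
end

-- part: H565/BFC
section
/-!
# B. H. Neumann's theorem on groups with bounded conjugacy classes

`exists_bound`: for every `n` there is `N` such that a finite group all of whose conjugacy classes have at most `n`
elements has a derived subgroup of order at most `N`.
-/

set_option autoImplicit false

namespace Cfsg.Agent.H565.BFC

open Subgroup

/-- The conjugacy class of `x` as a finset. -/
noncomputable def cls {G : Type*} [Group G] [Finite G] (x : G) : Finset G := by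
  classical
  haveI := Fintype.ofFinite G
  exact Finset.univ.image (fun g : G => g * x * g⁻¹)

theorem mem_cls {G : Type*} [Group G] [Finite G] {x y : G} : y ∈ cls x ↔ ∃ g : G, g * x * g⁻¹ = y := by
  classical
  haveI := Fintype.ofFinite G
  unfold cls
  simp

theorem card_cls {G : Type*} [Group G] [Finite G] (x : G) :
    (cls x).card = (centralizer ({x} : Set G)).index := by
  classical
  haveI := Fintype.ofFinite G
  let f : G ⧸ centralizer ({x} : Set G) → G := Quotient.lift (fun g : G => g * x * g⁻¹) (by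
    intro a b hab
    have h : a⁻¹ * b ∈ centralizer ({x} : Set G) := QuotientGroup.leftRel_apply.mp hab
    rw [mem_centralizer_singleton_iff] at h
    show a * x * a⁻¹ = b * x * b⁻¹
    have h2 : a⁻¹ * b * x = x * (a⁻¹ * b) := h
    calc a * x * a⁻¹ = a * (x * (a⁻¹ * b)) * b⁻¹ := by group
      _ = a * (a⁻¹ * b * x) * b⁻¹ := by rw [h2]
      _ = b * x * b⁻¹ := by group)
  have hf : Function.Injective f := by
    intro u v
    refine Quotient.inductionOn₂ u v ?_
    intro a b hab
    have hab' : a * x * a⁻¹ = b * x * b⁻¹ := hab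
    apply Quotient.sound
    show (QuotientGroup.leftRel (centralizer ({x} : Set G))) a b
    rw [QuotientGroup.leftRel_apply, mem_centralizer_singleton_iff]
    calc a⁻¹ * b * x = a⁻¹ * (b * x * b⁻¹) * b := by group
      _ = a⁻¹ * (a * x * a⁻¹) * b := by rw [hab']
      _ = x * (a⁻¹ * b) := by group
  haveI : Fintype (G ⧸ centralizer ({x} : Set G)) := Fintype.ofFinite _
  have h1 : cls x = (Finset.univ : Finset (G ⧸ centralizer ({x} : Set G))).image f := by
    ext y
    rw [mem_cls, Finset.mem_image]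
    constructor
    · rintro ⟨g, hg⟩
      exact ⟨(g : G ⧸ centralizer ({x} : Set G)), Finset.mem_univ _, hg⟩
    · rintro ⟨u, -, hu⟩
      revert hu
      refine Quotient.inductionOn u ?_
      intro g hg
      exact ⟨g, hg⟩
  rw [h1, Finset.card_image_of_injective _ hf, Finset.card_univ, ← Nat.card_eq_fintype_card]
  rfl

/-- The number of commutators of a finite group with classes of size at most `n` is at most `n ^ n * n * (n * n)`. -/
theorem card_commutatorSet_le {G : Type*} [Group G] [Finite G] {n : ℕ}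
    (h : ∀ x : G, (centralizer ({x} : Set G)).index ≤ n) :
    Nat.card (commutatorSet G) ≤ n ^ n * (n * (n * n)) := by
  classical
  haveI := Fintype.ofFinite G
  obtain ⟨a, ha⟩ := Finite.exists_max (fun x : G => (cls x).card)
  have hcn : ∀ x : G, (cls x).card ≤ n := fun x => by rw [card_cls]; exact h x
  have hn1 : 1 ≤ n := by
    have h1 : 0 < (cls (1 : G)).card := Finset.card_pos.mpr ⟨1, mem_cls.mpr ⟨1, by simp⟩⟩
    exact le_trans h1 (hcn 1)
  -- chosen conjugators
  have hch : ∀ b : {b // b ∈ cls a}, ∃ g : G, g * a * g⁻¹ = b.1 := fun b => mem_cls.mp b.2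
  choose gb hgb using hch
  let C : Subgroup G := ⨅ b : {b // b ∈ cls a}, centralizer ({gb b} : Set G)
  have hC : C.index ≤ n ^ n := by
    calc C.index ≤ ∏ b : {b // b ∈ cls a}, (centralizer ({gb b} : Set G)).index := index_iInf_le _
      _ ≤ ∏ _b : {b // b ∈ cls a}, n := Finset.prod_le_prod' (fun b _ => h _)
      _ = n ^ (cls a).card := by simp
      _ ≤ n ^ n := Nat.pow_le_pow_right hn1 (hcn a)
  let T : Finset G := Finset.image₂ (fun u v => u⁻¹ * v) (cls a) (cls a)
  have hT : T.card ≤ n * n :=
    le_trans (Finset.card_image₂_le _ _ _) (Nat.mul_le_mul (hcn a) (hcn a))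
  have key : ∀ c ∈ C, ∀ g : G, g * c * g⁻¹ * c⁻¹ ∈ T := by
    intro c hc g
    have hcb : ∀ b : {b // b ∈ cls a}, gb b * c = c * gb b := by
      intro b
      have h1 : c ∈ centralizer ({gb b} : Set G) := (mem_iInf.mp hc) b
      rw [mem_centralizer_singleton_iff] at h1
      exact h1.symm
    -- all `b c` are conjugates of `a c`
    have hsub : (cls a).image (fun b => b * c) ⊆ cls (a * c) := by
      intro y hy
      rw [Finset.mem_image] at hy
      obtain ⟨b, hb, rfl⟩ := hy
      refine mem_cls.mpr ⟨gb ⟨b, hb⟩, ?_⟩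
      have h1 := hgb ⟨b, hb⟩
      have h2 := hcb ⟨b, hb⟩
      calc gb ⟨b, hb⟩ * (a * c) * (gb ⟨b, hb⟩)⁻¹ = gb ⟨b, hb⟩ * a * (c * gb ⟨b, hb⟩ * (gb ⟨b, hb⟩)⁻¹) * (gb ⟨b, hb⟩)⁻¹ := by group
        _ = gb ⟨b, hb⟩ * a * (gb ⟨b, hb⟩ * c * (gb ⟨b, hb⟩)⁻¹) * (gb ⟨b, hb⟩)⁻¹ := by rw [h2]
        _ = b * c := by
          have h3 : c * (gb ⟨b, hb⟩)⁻¹ = (gb ⟨b, hb⟩)⁻¹ * c := by
            have h4 := congrArg (fun z => (gb ⟨b, hb⟩)⁻¹ * z * (gb ⟨b, hb⟩)⁻¹) h2
            simp only [mul_assoc, inv_mul_cancel_left, mul_inv_cancel, mul_one] at h4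
            exact h4
          have h5 : gb ⟨b, hb⟩ * c * (gb ⟨b, hb⟩)⁻¹ = c := by
            rw [mul_assoc, h3, mul_inv_cancel_left]
          rw [h5, mul_assoc, h3, ← mul_assoc, h1]
    have hcard : (cls (a * c)).card ≤ ((cls a).image (fun b => b * c)).card := by
      rw [Finset.card_image_of_injective _ (mul_left_injective c)]
      exact ha (a * c)
    have heq : (cls a).image (fun b => b * c) = cls (a * c) := Finset.eq_of_subset_of_card_le hsub hcard
    have hg : g * (a * c) * g⁻¹ ∈ cls (a * c) := mem_cls.mpr ⟨g, rfl⟩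
    rw [← heq, Finset.mem_image] at hg
    obtain ⟨b, hb, hbc⟩ := hg
    refine Finset.mem_image₂.mpr ⟨g * a * g⁻¹, mem_cls.mpr ⟨g, rfl⟩, b, hb, ?_⟩
    have : g * c * g⁻¹ = (g * a * g⁻¹)⁻¹ * (b * c) := by
      rw [hbc]; group
    rw [this]; group
  -- the commutators
  let rep : G ⧸ C → G := fun q => q.out
  haveI : Fintype (G ⧸ C) := Fintype.ofFinite _
  let S : Finset G := (Finset.univ : Finset (G ⧸ C)).biUnion fun q =>
    Finset.image₂ (fun u v => u * (rep q)⁻¹ * (rep q * v * (rep q)⁻¹)) (cls (rep q)) T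
  have hS : S.card ≤ n ^ n * (n * (n * n)) := by
    calc S.card ≤ (Finset.univ : Finset (G ⧸ C)).card * (n * (n * n)) := by
          apply Finset.card_biUnion_le_card_mul
          intro q _
          exact le_trans (Finset.card_image₂_le _ _ _) (Nat.mul_le_mul (hcn _) hT)
      _ ≤ n ^ n * (n * (n * n)) := by
          apply Nat.mul_le_mul_right
          rw [Finset.card_univ, ← Nat.card_eq_fintype_card]
          exact hC
  have hsub : commutatorSet G ⊆ (S : Set G) := by
    rintro _ ⟨g, x, rfl⟩
    rw [Finset.mem_coe]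
    refine Finset.mem_biUnion.mpr ⟨(x : G ⧸ C), Finset.mem_univ _, ?_⟩
    obtain ⟨c, hc⟩ := QuotientGroup.mk_out_eq_mul C x
    -- out = x * c
    have hx : x = rep (x : G ⧸ C) * (c : G)⁻¹ := by
      show x = (x : G ⧸ C).out * (c : G)⁻¹
      rw [hc]; group
    refine Finset.mem_image₂.mpr ⟨g * rep (x : G ⧸ C) * g⁻¹, mem_cls.mpr ⟨g, rfl⟩,
      g * (c : G)⁻¹ * g⁻¹ * ((c : G)⁻¹)⁻¹, key _ (C.inv_mem c.2) g, ?_⟩
    rw [commutatorElement_def]
    generalize rep (x : G ⧸ C) = r at hx ⊢
    rw [hx]
    group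
  calc Nat.card (commutatorSet G) ≤ Nat.card (S : Set G) := Nat.card_mono (Finset.finite_toSet S) hsub
    _ = S.card := by simp
    _ ≤ _ := hS

/-- **B. H. Neumann's theorem** for finite groups: the order of the derived subgroup is bounded in terms of the
largest class size. -/
theorem exists_bound (n : ℕ) : ∃ N : ℕ, ∀ (G : Type*) [Group G] [Finite G],
    (∀ x : G, (centralizer ({x} : Set G)).index ≤ n) → Nat.card (commutator G) ≤ N := by
  refine ⟨(Finset.range (n ^ n * (n * (n * n)) + 1)).sup cardCommutatorBound, ?_⟩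
  intro G _ _ h
  refine le_trans (card_commutator_le_of_finite_commutatorSet G) ?_
  exact Finset.le_sup (f := cardCommutatorBound) (Finset.mem_range.mpr (Nat.lt_succ_of_le (card_commutatorSet_le h)))

end Cfsg.Agent.H565.BFC
end

-- part: H565/PrimePow
section
/-!
# Groups whose elements of prime power order have small conjugacy classes

`exists_bound`: if all elements of prime power order of a finite group have at most `k` conjugates then the order of the
derived subgroup is bounded in terms of `k`.
-/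

set_option autoImplicit false

namespace Cfsg.Agent.H565.PrimePow

open Subgroup

/-- An element whose prime power parts are in `H` is in `H`. -/
theorem mem_of_parts {K : Type*} [Group K] [Finite K] {x : K} {H : Subgroup K}
    (h : ∀ r : ℕ, r.Prime → x ^ (orderOf x / r ^ (orderOf x).factorization r) ∈ H) : x ∈ H := by
  classical
  have hn : orderOf x ≠ 0 := (orderOf_pos x).ne'
  have hex : ∃ e : ℕ, 0 < e ∧ x ^ e ∈ H := ⟨orderOf x, orderOf_pos x, by rw [pow_orderOf_eq_one]; exact H.one_mem⟩
  set e := Nat.find hex with he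
  obtain ⟨he0, heH⟩ := Nat.find_spec hex
  have hdvd : ∀ d : ℕ, x ^ d ∈ H → e ∣ d := by
    intro d hd
    by_contra hnd
    have hpos : 0 < d % e := Nat.pos_of_ne_zero (fun h0 => hnd (Nat.dvd_of_mod_eq_zero h0))
    have hlt : d % e < e := Nat.mod_lt _ he0
    refine Nat.find_min hex hlt ⟨hpos, ?_⟩
    have h1 : x ^ d = x ^ (e * (d / e)) * x ^ (d % e) := by rw [← pow_add, Nat.div_add_mod]
    have h2 : x ^ (d % e) = (x ^ (e * (d / e)))⁻¹ * x ^ d := by rw [h1]; group
    rw [h2]
    refine H.mul_mem (H.inv_mem ?_) hd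
    rw [pow_mul]
    exact H.pow_mem heH _
  have he1 : e = 1 := by
    by_contra hne
    obtain ⟨r, hr, hre⟩ := Nat.exists_prime_and_dvd hne
    have h1 := hdvd _ (h r hr)
    exact Nat.not_dvd_ordCompl hr hn (hre.trans h1)
  have h2 : x ^ e ∈ H := heH
  rw [he1, pow_one] at h2
  exact h2

theorem orderOf_part {K : Type*} [Group K] [Finite K] (x : K) (r : ℕ) :
    orderOf (x ^ (orderOf x / r ^ (orderOf x).factorization r)) = r ^ (orderOf x).factorization r := by
  have hn : orderOf x ≠ 0 := (orderOf_pos x).ne'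
  have hd : orderOf x / r ^ (orderOf x).factorization r ∣ orderOf x := Nat.ordCompl_dvd _ _
  have hpos : orderOf x / r ^ (orderOf x).factorization r ≠ 0 := (Nat.ordCompl_pos r hn).ne'
  rw [orderOf_pow_of_dvd hpos hd]
  have h1 := Nat.ordProj_mul_ordCompl_eq_self (orderOf x) r
  have h2 : orderOf x = r ^ (orderOf x).factorization r * (orderOf x / r ^ (orderOf x).factorization r) := h1.symm
  exact Nat.div_eq_of_eq_mul_left (Nat.pos_of_ne_zero hpos) h2

theorem index_le {K : Type*} [Group K] [Finite K] {k : ℕ}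
    (h : ∀ x : K, (∃ r a : ℕ, r.Prime ∧ orderOf x = r ^ a) → (centralizer ({x} : Set K)).index ≤ k) (x : K) :
    (centralizer ({x} : Set K)).index ≤ k ^ k := by
  classical
  have hk : 1 ≤ k := by
    have h1 := h 1 ⟨2, 0, Nat.prime_two, by simp⟩
    have h2 : (centralizer ({(1 : K)} : Set K)).index ≠ 0 := Subgroup.index_ne_zero_of_finite
    omega
  -- elements of order a power of a large prime are central
  have hcent : ∀ r a : ℕ, r.Prime → k < r → ∀ g : K, orderOf g = r ^ a → ∀ y : K, g * y = y * g := by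
    intro r a hr hkr g hg y
    have h1 : y ∈ centralizer ({g} : Set K) := by
      apply mem_of_parts
      intro s hs
      set z := y ^ (orderOf y / s ^ (orderOf y).factorization s) with hz
      have hz1 : (centralizer ({z} : Set K)).index ≤ k := h z ⟨s, _, hs, orderOf_part y s⟩
      have h2 : (centralizer ({z} : Set K)).relIndex (zpowers g) ∣ Nat.card (zpowers g) :=
        Subgroup.relIndex_dvd_card _ _
      rw [Nat.card_zpowers, hg] at h2
      have h3 : (centralizer ({z} : Set K)).relIndex (zpowers g) ≤ k := by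
        refine le_trans ?_ hz1
        rw [← Subgroup.relIndex_top_right]
        exact Subgroup.relIndex_le_of_le_right le_top (by
          rw [Subgroup.relIndex_top_right]; exact Subgroup.index_ne_zero_of_finite)
      obtain ⟨b, hb, hb2⟩ := (Nat.dvd_prime_pow hr).mp h2
      have h4 : b = 0 := by
        by_contra hb0
        have h5 : r ^ 1 ≤ r ^ b := Nat.pow_le_pow_right hr.pos (Nat.pos_of_ne_zero hb0)
        rw [pow_one, ← hb2] at h5
        omega
      rw [h4, pow_zero, Subgroup.relIndex_eq_one] at hb2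
      have h6 := hb2 (mem_zpowers g)
      rw [mem_centralizer_singleton_iff] at h6 ⊢
      exact h6.symm
    rw [mem_centralizer_singleton_iff] at h1
    exact h1.symm
  let f : Fin k → Subgroup K := fun i =>
    if ((i : ℕ) + 1).Prime then
      centralizer ({x ^ (orderOf x / ((i : ℕ) + 1) ^ (orderOf x).factorization ((i : ℕ) + 1))} : Set K) else ⊤
  have hle : ⨅ i, f i ≤ centralizer ({x} : Set K) := by
    intro g hg
    have h1 : x ∈ centralizer ({g} : Set K) := by
      apply mem_of_parts
      intro r hr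
      rw [mem_centralizer_singleton_iff]
      by_cases hrk : k < r
      · exact (hcent r _ hr hrk _ (orderOf_part x r) g)
      · have hr1 : r - 1 < k := by have := hr.one_lt; omega
        have h2 := (mem_iInf.mp hg) ⟨r - 1, hr1⟩
        have h3 : ((⟨r - 1, hr1⟩ : Fin k) : ℕ) + 1 = r := by
          show r - 1 + 1 = r
          have := hr.one_lt; omega
        simp only [f, h3, if_pos hr] at h2
        rw [mem_centralizer_singleton_iff] at h2
        exact h2.symm
    rw [mem_centralizer_singleton_iff] at h1 ⊢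
    exact h1.symm
  calc (centralizer ({x} : Set K)).index ≤ (⨅ i, f i).index :=
        Nat.le_of_dvd (Nat.pos_of_ne_zero Subgroup.index_ne_zero_of_finite) (Subgroup.index_dvd_of_le hle)
    _ ≤ ∏ i, (f i).index := Subgroup.index_iInf_le f
    _ ≤ ∏ _i : Fin k, k := by
        refine Finset.prod_le_prod' (fun i _ => ?_)
        by_cases hp : ((i : ℕ) + 1).Prime
        · simp only [f, if_pos hp]
          exact h _ ⟨_, _, hp, orderOf_part x _⟩
        · simp only [f, if_neg hp, Subgroup.index_top]
          exact hk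
    _ = k ^ k := by simp

/-- If the elements of prime power order have at most `k` conjugates then the order of the derived subgroup is bounded. -/
theorem exists_bound (k : ℕ) : ∃ N : ℕ, ∀ (K : Type*) [Group K] [Finite K],
    (∀ x : K, (∃ r a : ℕ, r.Prime ∧ orderOf x = r ^ a) → (centralizer ({x} : Set K)).index ≤ k) →
      Nat.card (commutator K) ≤ N := by
  obtain ⟨N, hN⟩ := BFC.exists_bound (k ^ k)
  exact ⟨N, fun K _ _ h => hN K (index_le h)⟩

end Cfsg.Agent.H565.PrimePow
end

-- part: H565/RankThree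
section
/-!
# Coprime action of an elementary abelian group of order `q³`: the order of the derived subgroup

`exists_bound`: `A` elementary abelian of order `q³` acts coprimely on `K` and the derived subgroup of `C_K(a)` has order
at most `m` for `1 ≠ a ∈ A`. Then the order of the derived subgroup of `K` is bounded in terms of `q` and `m`.
-/

set_option autoImplicit false

namespace Cfsg.Agent.H565.RankThree

open Subgroup
open scoped Pointwise

theorem index_le_card_commutator {L : Type*} [Group L] [Finite L] (y : L) :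
    (centralizer ({y} : Set L)).index ≤ Nat.card (commutator L) := by
  classical
  rw [← BFC.card_cls]
  have h1 : (BFC.cls y).card = Nat.card {b : L // b ∈ BFC.cls y} := by
    rw [Nat.card_eq_fintype_card]; simp
  rw [h1]
  refine Nat.card_le_card_of_injective
    (fun b : {b : L // b ∈ BFC.cls y} => (⟨b.1 * y⁻¹, ?_⟩ : commutator L)) ?_
  · obtain ⟨g, hg⟩ := BFC.mem_cls.mp b.2
    rw [← hg]
    exact commutator_mem_commutator (mem_top g) (mem_top y)
  · intro a b hab
    have h2 : a.1 * y⁻¹ = b.1 * y⁻¹ := congrArg Subtype.val hab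
    exact Subtype.ext (mul_right_cancel h2)

theorem index_conj {L : Type*} [Group L] [Finite L] (g y : L) :
    (centralizer ({g * y * g⁻¹} : Set L)).index = (centralizer ({y} : Set L)).index := by
  rw [← BFC.card_cls, ← BFC.card_cls]
  congr 1
  ext b
  rw [BFC.mem_cls, BFC.mem_cls]
  constructor
  · rintro ⟨h, rfl⟩
    exact ⟨h * g, by group⟩
  · rintro ⟨h, rfl⟩
    exact ⟨h * g⁻¹, by group⟩

variable {G : Type*} [Group G] [Finite G]

omit [Finite G] in
theorem index_centralizer_subtype (L : Subgroup G) (y : L) :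
    (centralizer ({y} : Set L)).index = (centralizer ({(y : G)} : Set G)).relIndex L := by
  rw [relIndex]
  congr 1
  ext g
  rw [mem_centralizer_singleton_iff, mem_subgroupOf, mem_centralizer_singleton_iff]
  constructor
  · intro h; exact congrArg Subtype.val h
  · intro h; exact Subtype.ext h

/-- Elements of `K` centralised by a subgroup `M` of order `q²` of `A` have few conjugates in `K`. -/
theorem relIndex_le_of_rank_two {q m : ℕ} (hq : q.Prime) (M K : Subgroup G) (hMK : M ≤ normalizer (K : Set G))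
    (hM : Nat.card M = q ^ 2) (hMab : ∀ a ∈ M, ∀ b ∈ M, a * b = b * a) (hMexp : ∀ a ∈ M, a ^ q = 1)
    (hcop : ¬ q ∣ Nat.card K)
    (hm : ∀ a ∈ M, a ≠ 1 → Nat.card (commutator ↥(K ⊓ centralizer ({a} : Set G))) ≤ m)
    {y : G} (hyK : y ∈ K) (hyM : y ∈ centralizer (M : Set G)) :
    (centralizer ({y} : Set G)).relIndex K ≤ m ^ q ^ 3 := by
  have h1 : (K ⊓ centralizer ({y} : Set G)).relIndex K = (centralizer ({y} : Set G)).relIndex K :=
    inf_relIndex_left _ _
  rw [← h1]
  have hMy : ∀ a ∈ M, a * y * a⁻¹ = y := by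
    intro a ha
    rw [(mem_centralizer_iff.mp hyM) a ha]; group
  refine RankTwo.relIndex_le hq M K (K ⊓ centralizer ({y} : Set G)) hMK ?_ inf_le_left hM hMab hMexp hcop ?_
  · -- `M` normalises `C_K(y)`
    have key : ∀ a ∈ M, ∀ g ∈ K ⊓ centralizer ({y} : Set G), a * g * a⁻¹ ∈ K ⊓ centralizer ({y} : Set G) := by
      intro a ha g hg
      obtain ⟨hg1, hg2⟩ := mem_inf.mp hg
      refine mem_inf.mpr ⟨(mem_normalizer_iff.mp (hMK ha) g).mp hg1, ?_⟩
      rw [mem_centralizer_singleton_iff] at hg2 ⊢
      have h2 := hMy a ha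
      have h3 : a⁻¹ * y * a = y := by
        have := hMy a⁻¹ (M.inv_mem ha)
        simpa using this
      calc a * g * a⁻¹ * y = a * (g * (a⁻¹ * y * a)) * a⁻¹ := by group
        _ = a * (g * y) * a⁻¹ := by rw [h3]
        _ = a * (y * g) * a⁻¹ := by rw [hg2]
        _ = (a * y * a⁻¹) * (a * g * a⁻¹) := by group
        _ = y * (a * g * a⁻¹) := by rw [h2]
    intro a ha
    rw [mem_normalizer_iff]
    intro g
    constructor
    · exact key a ha g
    · intro hg
      have h2 := key a⁻¹ (M.inv_mem ha) _ hg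
      have h3 : a⁻¹ * (a * g * a⁻¹) * a⁻¹⁻¹ = g := by group
      rwa [h3] at h2
  · intro f hf hf1
    set L : Subgroup G := K ⊓ centralizer ({f} : Set G) with hL
    have hyL : y ∈ L := by
      refine mem_inf.mpr ⟨hyK, ?_⟩
      rw [mem_centralizer_singleton_iff]
      exact ((mem_centralizer_iff.mp hyM) f hf).symm
    have h2 : K ⊓ centralizer ({y} : Set G) ⊓ centralizer ({f} : Set G) = centralizer ({y} : Set G) ⊓ L := by
      rw [hL]; ac_rfl
    rw [h2, inf_relIndex_right]
    have h3 := index_centralizer_subtype L ⟨y, hyL⟩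
    have h4 := index_le_card_commutator (⟨y, hyL⟩ : L)
    rw [h3] at h4
    exact h4.trans (hm f hf hf1)

/-- Elements of prime power order of `K` have few conjugates. -/
theorem index_le_of_primePow {q m : ℕ} (hq : q.Prime) (A K : Subgroup G) (hAK : A ≤ normalizer (K : Set G))
    (hA : Nat.card A = q ^ 3) (hAel : Cfsg.IsElementaryAbelian q A)
    (hAab : ∀ a ∈ A, ∀ b ∈ A, a * b = b * a) (hAexp : ∀ a ∈ A, a ^ q = 1)
    (hcop : ¬ q ∣ Nat.card K)
    (hm : ∀ a ∈ A, a ≠ 1 → Nat.card (commutator ↥(K ⊓ centralizer ({a} : Set G))) ≤ m)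
    (x : K) (hx : ∃ r a : ℕ, r.Prime ∧ orderOf x = r ^ a) :
    (centralizer ({x} : Set K)).index ≤ (m ^ q ^ 3) ^ 2 ^ q ^ 3 := by
  classical
  haveI : Fact q.Prime := ⟨hq⟩
  obtain ⟨r, a, hr, hxr⟩ := hx
  haveI : Fact r.Prime := ⟨hr⟩
  have hcop' : (Nat.card A).Coprime (Nat.card K) := by
    rw [hA]
    exact Nat.Coprime.pow_left _ ((Nat.Prime.coprime_iff_not_dvd hq).mpr hcop)
  have hsolv : Group.IsSolvable A := by
    have h1 : IsPGroup q A := IsPGroup.of_card hA
    have := h1.isNilpotent
    infer_instance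
  have hAne : A ≠ ⊥ := by
    rintro rfl
    rw [Subgroup.card_bot] at hA
    have : 1 < q ^ 3 := Nat.one_lt_pow (by norm_num) hq.one_lt
    omega
  -- an invariant Sylow subgroup
  have hAbot : A ≤ normalizer ((⊥ : Subgroup G) : Set G) := by
    rw [Subgroup.normalizer_eq_top (H := (⊥ : Subgroup G))]; exact le_top
  obtain ⟨P, -, hP⟩ := Cfsg.Agent.S0025.result A K hAK hcop' (Or.inl hsolv) r ⊥ bot_le (IsPGroup.of_bot) hAbot
  set R : Subgroup G := (P : Subgroup K).map K.subtype with hR
  have hRK : R ≤ K := Subgroup.map_subtype_le _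
  have hRp : IsPGroup r R := P.isPGroup'.map _
  have hRn : Group.IsNilpotent R := hRp.isNilpotent
  -- hyperplanes
  let HP : Finset (Subgroup G) := (Set.toFinite {B : Subgroup G | B ≤ A ∧ B.relIndex A = q}).toFinset
  have hHP : ∀ B, B ∈ HP ↔ B ≤ A ∧ B.relIndex A = q := fun B => by simp [HP]
  have hm1 : 1 ≤ m := by
    obtain ⟨a, ha, ha1⟩ := (Subgroup.bot_or_exists_ne_one A).resolve_left hAne
    exact le_trans Nat.card_pos (hm a ha ha1)
  let l : List (Subgroup R) := HP.toList.map (fun B : Subgroup G => (centralizer (B : Set G)).subgroupOf R)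
  have hlen : l.length ≤ 2 ^ q ^ 3 := by
    have h1 : l.length = HP.card := by simp [l]
    rw [h1, ← hA]
    have h2 : HP.card ≤ Nat.card (Set A) := by
      have h3 : HP.card = Nat.card {B : Subgroup G // B ∈ HP} := by
        rw [Nat.card_eq_fintype_card]; simp
      rw [h3]
      refine Nat.card_le_card_of_injective
        (fun B : {B : Subgroup G // B ∈ HP} => ((B.1.subgroupOf A : Subgroup A) : Set A)) ?_
      intro B C hBC
      have h4 : B.1.subgroupOf A = C.1.subgroupOf A := SetLike.coe_injective hBC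
      apply Subtype.ext
      have h5 := congrArg (Subgroup.map A.subtype) h4
      rwa [subgroupOf_map_subtype, subgroupOf_map_subtype, inf_eq_left.mpr ((hHP _).mp B.2).1,
        inf_eq_left.mpr ((hHP _).mp C.2).1] at h5
    have h6 : Nat.card (Set A) = 2 ^ Nat.card A := by
      haveI := Fintype.ofFinite A
      rw [Nat.card_eq_fintype_card, Nat.card_eq_fintype_card, Fintype.card_set]
    omega
  -- the elements of the members of `l` have few conjugates
  have hmem : ∀ S ∈ l, ∀ s ∈ S, (centralizer ({(Subgroup.inclusion hRK) s} : Set K)).index ≤ m ^ q ^ 3 := by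
    intro S hS s hs
    simp only [l, List.mem_map, Finset.mem_toList] at hS
    obtain ⟨B, hB, rfl⟩ := hS
    obtain ⟨hBA, hBi⟩ := (hHP B).mp hB
    rw [index_centralizer_subtype]
    have hBcard : Nat.card B = q ^ 2 := by
      have h1 := relIndex_mul_relIndex ⊥ B A bot_le hBA
      rw [relIndex_bot_left, relIndex_bot_left, hBi, hA] at h1
      have h2 : q ^ 3 = q ^ 2 * q := by ring
      rw [h2] at h1
      exact Nat.eq_of_mul_eq_mul_right hq.pos h1
    have hs' : (s : G) ∈ centralizer (B : Set G) := mem_subgroupOf.mp hs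
    exact relIndex_le_of_rank_two hq B K (hBA.trans hAK) hBcard (fun a ha b hb => hAab a (hBA ha) b (hBA hb))
      (fun a ha => hAexp a (hBA ha)) hcop (fun a ha => hm a (hBA ha)) (hRK s.2) hs'
  -- generation
  have hgen : ∀ k : ℕ, (⊤ : Subgroup R).lowerCentralSeries k ≤
      ⨆ S : {S : Subgroup R // S ∈ l}, S.1 ⊓ (⊤ : Subgroup R).lowerCentralSeries k := by
    intro k
    have hQ : ((⊤ : Subgroup R).lowerCentralSeries k).map R.subtype = R.lowerCentralSeries k :=
      top_subtype_lowerCentralSeries R k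
    have hQR : R.lowerCentralSeries k ≤ R := by rw [← hQ]; exact map_subtype_le _
    have hAQ : ∀ j, A ≤ normalizer (R.lowerCentralSeries j : Set G) := by
      intro j
      intro a ha
      have hmap : R.map (MulAut.conj a).toMonoidHom = R := by
        have h1 := hP ha
        rw [mem_normalizer_iff] at h1
        ext z
        rw [mem_map]
        constructor
        · rintro ⟨w, hw, rfl⟩
          exact (h1 w).mp hw
        · intro hz
          refine ⟨a⁻¹ * z * a, ?_, ?_⟩
          · rw [h1]; convert hz using 1; group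
          · show a * (a⁻¹ * z * a) * a⁻¹ = z
            group
      have h2 : (R.lowerCentralSeries j).map (MulAut.conj a).toMonoidHom = R.lowerCentralSeries j := by
        rw [map_lowerCentralSeries, hmap]
      rw [mem_normalizer_iff]
      intro z
      constructor
      · intro hz
        rw [← h2]
        exact ⟨z, hz, rfl⟩
      · intro hz
        rw [← h2] at hz
        obtain ⟨w, hw, hwz⟩ := hz
        have h3 : a * w * a⁻¹ = a * z * a⁻¹ := hwz
        have h4 : w = z := by
          have := mul_right_cancel h3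
          exact mul_left_cancel this
        rwa [← h4]
    have hcopQ : (Nat.card (R.lowerCentralSeries k)).Coprime q := by
      have h1 : ¬ q ∣ Nat.card (R.lowerCentralSeries k) := fun h =>
        hcop (h.trans (Subgroup.card_dvd_of_le (hQR.trans hRK)))
      exact ((Nat.Prime.coprime_iff_not_dvd hq).mpr h1).symm
    have hgen := Cfsg.Agent.Lib.CoprimeHyperplane.le_iSup_hyperplane A (R.lowerCentralSeries k) hAel hAne hcopQ (hAQ k)
    rw [← Subgroup.map_le_map_iff_of_injective (f := R.subtype) R.subtype_injective, hQ]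
    refine hgen.le.trans (iSup_le ?_)
    rintro ⟨B, hBA, hBi⟩
    have hSl : (centralizer (B : Set G)).subgroupOf R ∈ l := by
      simp only [l, List.mem_map, Finset.mem_toList]
      exact ⟨B, (hHP B).mpr ⟨hBA, hBi⟩, rfl⟩
    refine le_trans ?_ (Subgroup.map_mono (le_iSup (fun S : {S : Subgroup R // S ∈ l} =>
      S.1 ⊓ (⊤ : Subgroup R).lowerCentralSeries k) ⟨_, hSl⟩))
    intro z hz
    obtain ⟨hz1, hz2⟩ := mem_inf.mp hz
    refine ⟨⟨z, hQR hz1⟩, mem_inf.mpr ⟨mem_subgroupOf.mpr hz2, ?_⟩, rfl⟩
    rw [← hQ] at hz1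
    obtain ⟨w, hw, hwz⟩ := hz1
    have : w = ⟨z, hQR (by rw [← hQ]; exact ⟨w, hw, hwz⟩)⟩ := Subtype.ext hwz
    rw [← this]
    exact hw
  -- every element of the Sylow subgroup is a product
  have hall : ∀ s : R, (centralizer ({(Subgroup.inclusion hRK) s} : Set K)).index ≤ (m ^ q ^ 3) ^ 2 ^ q ^ 3 := by
    intro s
    have h1 := ProdSet.mem_PS_of_isNilpotent hRn l hgen s
    have h2 := ProdSet.index_le_of_mem_PS (Subgroup.inclusion hRK) (k := m ^ q ^ 3) l hmem s h1
    exact h2.trans (Nat.pow_le_pow_right (Nat.pow_pos hm1) hlen)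
  -- conjugation
  have hzp : IsPGroup r (zpowers x) := by
    apply IsPGroup.of_card (n := a)
    rw [Nat.card_zpowers, hxr]
  obtain ⟨Q, hQ⟩ := hzp.exists_le_sylow
  obtain ⟨g, hg⟩ := MulAction.exists_smul_eq K Q P
  have hgx : g * x * g⁻¹ ∈ (P : Subgroup K) := by
    rw [← hg]
    have h1 : ((g • Q : Sylow r K) : Subgroup K) = MulAut.conj g • (Q : Subgroup K) := rfl
    rw [h1]
    exact Subgroup.smul_mem_pointwise_smul _ (MulAut.conj g) _ (hQ (mem_zpowers x))
  rw [← index_conj g x]
  have h1 : ((g * x * g⁻¹ : K) : G) ∈ R := ⟨_, hgx, rfl⟩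
  exact hall ⟨_, h1⟩

end Cfsg.Agent.H565.RankThree
end

-- part: S4316
section
-- import your own Cfsg.Agent.* helpers here

set_option autoImplicit false
universe u
open Cfsg

namespace Cfsg.Agent.S4316

open Cfsg.Agent.H565 Cfsg.Agent.H565.Semi

/-- There is a function `f` of two natural-number arguments with the following property. Let `q` be a prime and `A` an elementary abelian group of order `q³` acting by automorphisms on a finite group `G` of order prime to `q`, and suppose that for every non-identity `a ∈ A` the derived subgroup of the fixed-point subgroup `C_G(a)` has order at most `m`. Then the derived subgroup of `G` has order at most `f(q, m)`. -/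
theorem result :
    ∃ f : ℕ → ℕ → ℕ, ∀ (q m : ℕ) (A G : Type u) [Group A] [Finite A] [Group G] [Finite G] [MulDistribMulAction A G],
      q.Prime → Nat.card A = q ^ 3 → (∀ a b : A, a * b = b * a) → (∀ a : A, a ^ q = 1) → ¬ q ∣ Nat.card G →
      (∀ a : A, a ≠ 1 → Nat.card ↥(commutator ↥(FixedPoints.subgroup (Subgroup.zpowers a) G)) ≤ m) →
      Nat.card ↥(commutator G) ≤ f q m := by
  choose F hF using fun k : ℕ => PrimePow.exists_bound.{u} k
  refine ⟨fun q m => F ((m ^ q ^ 3) ^ 2 ^ q ^ 3), ?_⟩
  intro q m A G _ _ _ _ _ hq hA hab hexp hcop hm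
  have hcardA : Nat.card (iA A G).range = q ^ 3 := by
    rw [← hA]
    exact Nat.card_congr ((iA A G).ofInjective iA_injective).toEquiv.symm
  have hcardG : Nat.card (iG A G).range = Nat.card G :=
    Nat.card_congr ((iG A G).ofInjective iG_injective).toEquiv.symm
  have hAexp : ∀ a ∈ (iA A G).range, a ^ q = 1 := by
    rintro _ ⟨a, rfl⟩
    rw [← map_pow, hexp, map_one]
  have hAab : ∀ a ∈ (iA A G).range, ∀ b ∈ (iA A G).range, a * b = b * a := by
    rintro _ ⟨a, rfl⟩ _ ⟨b, rfl⟩
    rw [← map_mul, hab, map_mul]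
  have hAel : Cfsg.IsElementaryAbelian q (iA A G).range :=
    ⟨⟨⟨fun a b => Subtype.ext (hAab a.1 a.2 b.1 b.2)⟩⟩, hAexp⟩
  rw [card_commutator_congr ((iG A G).ofInjective iG_injective)]
  apply hF ((m ^ q ^ 3) ^ 2 ^ q ^ 3)
  apply RankThree.index_le_of_primePow hq (iA A G).range (iG A G).range range_iA_le_normalizer hcardA hAel hAab hAexp
    (by rw [hcardG]; exact hcop)
  rintro _ ⟨a, rfl⟩ ha1
  have ha : a ≠ 1 := fun h => ha1 (by rw [h, map_one])
  rw [← card_commutator_congr (fixEquiv a)]
  exact hm a ha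

end Cfsg.Agent.S4316
end
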