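import Mathlib
import Cfsg.Agent.H524.ClassSize
import Cfsg.Agent.Lib.NormalAbelian
import Cfsg.Statements.S4321
set_option linter.all false

-- part: H566/SingGraph
section
/-!
# Class sizes of `p`-singular elements (helper566)

`exists_link` : `G` finite, `p` not dividing `|Z(G)|`; for `p`-singular `x`, `y` there is a `p`-singular `w` whose class
size has a common prime divisor with the class size of `x` and one with the class size of `y` (S4321).
-/

set_option autoImplicit false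
set_option linter.unusedSectionVars false

namespace Cfsg.Agent.H566.SingGraph

open Subgroup Cfsg.Agent.H524.ClassSize
open scoped commutatorElement

variable {G : Type*} [Group G]

/-- the class size -/
noncomputable abbrev ci (x : G) : ℕ := (centralizer ({x} : Set G)).index

theorem mem_C {x g : G} : g ∈ centralizer ({x} : Set G) ↔ x * g = g * x := by
  rw [mem_centralizer_iff]
  constructor
  · intro h
    exact h x rfl
  · rintro h _ rfl
    exact h

theorem C_le_of_zpow {x a : G} (h : a ∈ zpowers x) : centralizer ({x} : Set G) ≤ centralizer ({a} : Set G) := by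
  intro g hg
  obtain ⟨n, rfl⟩ := h
  rw [mem_C] at hg ⊢
  exact (Commute.zpow_left hg n)

theorem ci_dvd_of_zpow [Finite G] {x a : G} (h : a ∈ zpowers x) : ci a ∣ ci x := index_dvd_of_le (C_le_of_zpow h)

theorem ci_conj (g x : G) : ci (g * x * g⁻¹) = ci x := by
  have h1 : centralizer ({g * x * g⁻¹} : Set G) = (centralizer ({x} : Set G)).map (MulAut.conj g).toMonoidHom := by
    ext y
    rw [mem_C]
    constructor
    · intro h
      refine ⟨g⁻¹ * y * g, ?_, ?_⟩
      · show g⁻¹ * y * g ∈ centralizer ({x} : Set G)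
        rw [mem_C]
        have : x * (g⁻¹ * y * g) = g⁻¹ * (g * x * g⁻¹ * y) * g := by group
        rw [this, h]; group
      · show g * (g⁻¹ * y * g) * g⁻¹ = y
        group
    · rintro ⟨z, hz, rfl⟩
      have hz' : x * z = z * x := mem_C.1 hz
      show g * x * g⁻¹ * (g * z * g⁻¹) = g * z * g⁻¹ * (g * x * g⁻¹)
      have : g * x * g⁻¹ * (g * z * g⁻¹) = g * (x * z) * g⁻¹ := by group
      rw [this, hz']; group
  show (centralizer ({g * x * g⁻¹} : Set G)).index = _
  rw [h1, index_map_of_bijective (MulAut.conj g).bijective]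

theorem ci_eq_one {x : G} : ci x = 1 ↔ x ∈ center G := by
  show (centralizer ({x} : Set G)).index = 1 ↔ _
  rw [index_eq_one, mem_center_iff]
  constructor
  · intro h g
    have : g ∈ centralizer ({x} : Set G) := by rw [h]; exact mem_top g
    exact (mem_C.1 this).symm
  · intro h
    rw [eq_top_iff]
    intro g _
    rw [mem_C]
    exact (h g).symm

theorem ci_pos [Finite G] (x : G) : 0 < ci x := Nat.pos_of_ne_zero FiniteIndex.index_ne_zero

/-- Subgroups of coprime index. -/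
theorem index_inf_of_coprime [Finite G] {H K : Subgroup G} (h : H.index.Coprime K.index) :
    (H ⊓ K).index = H.index * K.index := by
  apply le_antisymm index_inf_le
  exact Nat.le_of_dvd (Nat.pos_of_ne_zero FiniteIndex.index_ne_zero)
    (h.mul_dvd_of_dvd_of_dvd (index_dvd_of_le inf_le_left) (index_dvd_of_le inf_le_right))

theorem exists_mul_of_coprime [Finite G] {H K : Subgroup G} (h : H.index.Coprime K.index) (g : G) :
    ∃ k ∈ K, ∃ h ∈ H, g = k * h := by
  have h1 : H.relIndex K = H.index := by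
    have h2 : (H ⊓ K).relIndex K * K.index = (H ⊓ K).index := relIndex_mul_index inf_le_right
    rw [index_inf_of_coprime h, inf_relIndex_right] at h2
    exact Nat.eq_of_mul_eq_mul_right (Nat.pos_of_ne_zero FiniteIndex.index_ne_zero) h2
  have h2 : MulAction.stabilizer ↥K (QuotientGroup.mk 1 : G ⧸ H) = H.subgroupOf K := by
    ext k
    rw [MulAction.mem_stabilizer_iff, mem_subgroupOf]
    show (QuotientGroup.mk (k.1 * 1) : G ⧸ H) = QuotientGroup.mk 1 ↔ _
    rw [mul_one, eq_comm, QuotientGroup.eq, inv_one, one_mul]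
  have h3 : (MulAction.orbit ↥K (QuotientGroup.mk 1 : G ⧸ H)).ncard = Nat.card (G ⧸ H) := by
    rw [← MulAction.index_stabilizer, h2]
    exact h1
  have h4 : MulAction.orbit ↥K (QuotientGroup.mk 1 : G ⧸ H) = Set.univ :=
    Set.eq_of_subset_of_ncard_le (Set.subset_univ _) (by rw [h3, Set.ncard_univ])
  have h5 : (QuotientGroup.mk g : G ⧸ H) ∈ MulAction.orbit ↥K (QuotientGroup.mk 1 : G ⧸ H) := by
    rw [h4]; exact Set.mem_univ _
  obtain ⟨k, hk⟩ := h5
  have hk' : (QuotientGroup.mk (k.1 * 1) : G ⧸ H) = QuotientGroup.mk g := hk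
  rw [mul_one, QuotientGroup.eq] at hk'
  exact ⟨k.1, k.2, k.1⁻¹ * g, hk', by group⟩

variable [Finite G]

/-- conjugation into a Sylow subgroup -/
theorem exists_conj_mem {p : ℕ} [Fact p.Prime] (P : Sylow p G) {b : G} (hb : ∃ k : ℕ, orderOf b = p ^ k) :
    ∃ g : G, g * b * g⁻¹ ∈ (P : Subgroup G) := by
  obtain ⟨g, h, -⟩ := conj_mem_sup P (Commute.one_right b) hb (by
    have h1 : (centralizer ({(1 : G)} : Set G)).index = 1 := ci_eq_one.2 (one_mem _)
    rw [h1]
    exact (Fact.out : p.Prime).one_lt.ne' ∘ Nat.dvd_one.1)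
  exact ⟨g, h⟩

theorem exists_sylow_le {p : ℕ} [Fact p.Prime] {a : G} (h : ¬ p ∣ ci a) :
    ∃ P : Sylow p G, (P : Subgroup G) ≤ centralizer ({a} : Set G) := by
  obtain ⟨P, -, hP⟩ := exists_sylow_between h (IsPGroup.of_bot (p := p)) (bot_le : ⊥ ≤ _)
  exact ⟨P, hP⟩

/-- **Step 1.** -/
theorem commute_of_coprime {p : ℕ} [Fact p.Prime] {a b : G} (hb : ∃ k : ℕ, orderOf b = p ^ k)
    (hab : (ci a).Coprime (ci b)) (ha : ¬ p ∣ ci a) : Commute a b := by
  obtain ⟨P, hP⟩ := exists_sylow_le ha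
  obtain ⟨g, hg⟩ := exists_conj_mem P hb
  obtain ⟨k, hk, h, hh, rfl⟩ := exists_mul_of_coprime hab.symm g
  rw [mem_C] at hh
  have h1 : k * h * b * (k * h)⁻¹ = k * b * k⁻¹ := by
    calc k * h * b * (k * h)⁻¹ = k * (h * b) * h⁻¹ * k⁻¹ := by group
      _ = k * (b * h) * h⁻¹ * k⁻¹ := by rw [hh]
      _ = k * b * k⁻¹ := by group
  rw [h1] at hg
  have h2 := hP hg
  have h3 : b ∈ centralizer ({a} : Set G) := by
    have : b = k⁻¹ * (k * b * k⁻¹) * k := by group
    rw [this]
    exact mul_mem (mul_mem (inv_mem hk) h2) hk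
  exact mem_C.1 h3

/-- the conjugacy class -/
def cls (b : G) : Set G := {d | ∃ g : G, d = g * b * g⁻¹}

omit [Finite G] in
theorem cls_conj {b d : G} (hd : d ∈ cls b) (g : G) : g * d * g⁻¹ ∈ cls b := by
  obtain ⟨h, rfl⟩ := hd
  exact ⟨g * h, by group⟩

theorem card_cls (b : G) : Nat.card (cls b) = ci b := by
  have h1 : centralizer ({b} : Set G) =
      (MulAction.stabilizer (ConjAct G) b).comap (ConjAct.toConjAct : G ≃* ConjAct G).toMonoidHom := by
    ext g
    rw [mem_C, mem_comap, MulAction.mem_stabilizer_iff]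
    show _ ↔ ConjAct.toConjAct g • b = b
    rw [ConjAct.smul_def]
    show _ ↔ g * b * g⁻¹ = b
    rw [mul_inv_eq_iff_eq_mul, eq_comm]
  have h2 : ci b = (MulAction.stabilizer (ConjAct G) b).index := by
    show (centralizer ({b} : Set G)).index = _
    rw [h1]
    exact index_comap_of_surjective _ (ConjAct.toConjAct : G ≃* ConjAct G).surjective
  rw [h2, MulAction.index_stabilizer]
  have h3 : cls b = MulAction.orbit (ConjAct G) b := by
    ext d
    constructor
    · rintro ⟨g, rfl⟩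
      exact ⟨ConjAct.toConjAct g, rfl⟩
    · rintro ⟨g, rfl⟩
      exact ⟨ConjAct.ofConjAct g, rfl⟩
  rw [← h3]
  rfl

/-- the elements moving the class of `b` to itself by left multiplication -/
def Nst (b : G) : Subgroup G where
  carrier := {x | ∀ d, d ∈ cls b ↔ x * d ∈ cls b}
  one_mem' := by intro d; rw [one_mul]
  mul_mem' := by
    intro x y hx hy d
    rw [mul_assoc]
    exact (hy d).trans (hx _)
  inv_mem' := by
    intro x hx d
    have := hx (x⁻¹ * d)
    rw [mul_inv_cancel_left] at this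
    exact this.symm

omit [Finite G] in
theorem nst_normal (b : G) : (Nst b).Normal := by
  constructor
  intro n hn g d
  have h1 : d ∈ cls b ↔ g⁻¹ * d * g ∈ cls b := by
    constructor
    · intro h
      have := cls_conj h g⁻¹
      rwa [inv_inv] at this
    · intro h
      have := cls_conj h g
      rwa [show g * (g⁻¹ * d * g) * g⁻¹ = d by group] at this
  have h2 : g * n * g⁻¹ * d ∈ cls b ↔ n * (g⁻¹ * d * g) ∈ cls b := by
    constructor
    · intro h
      have := cls_conj h g⁻¹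
      rwa [inv_inv, show g⁻¹ * (g * n * g⁻¹ * d) * g = n * (g⁻¹ * d * g) by group] at this
    · intro h
      have := cls_conj h g
      rwa [show g * (n * (g⁻¹ * d * g)) * g⁻¹ = g * n * g⁻¹ * d by group] at this
  rw [h1, h2]
  exact hn _

theorem card_nst_dvd (b : G) : Nat.card (Nst b) ∣ ci b := by
  have hn := nst_normal b
  have h1 : cls b = QuotientGroup.mk ⁻¹' ((QuotientGroup.mk : G → G ⧸ Nst b) '' cls b) := by
    ext x
    constructor
    · intro h
      exact ⟨x, h, rfl⟩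
    · rintro ⟨d, hd, hdx⟩
      rw [QuotientGroup.eq] at hdx
      have h2 : x * d⁻¹ ∈ Nst b := by
        have := hn.conj_mem _ hdx d
        rwa [show d * (d⁻¹ * x) * d⁻¹ = x * d⁻¹ by group] at this
      have h3 := (h2 d).1 hd
      rwa [inv_mul_cancel_right] at h3
  rw [← card_cls, h1, Nat.card_congr (QuotientGroup.preimageMkEquivSubgroupProdSet _ _), Nat.card_prod]
  exact dvd_mul_right _ _

omit [Finite G] in
theorem relIndex_dvd_of_normal {N H : Subgroup G} [Finite G] (hN : N.Normal) : H.relIndex N ∣ H.index := by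
  obtain ⟨t, ht⟩ : N.relIndex H ∣ N.index := relIndex_dvd_index_of_normal N H
  have h1 : (H ⊓ N).relIndex N * N.index = (H ⊓ N).index := relIndex_mul_index inf_le_right
  have h2 : (H ⊓ N).relIndex H * H.index = (H ⊓ N).index := relIndex_mul_index inf_le_left
  rw [inf_relIndex_right] at h1
  rw [inf_relIndex_left, ← h1, ht] at h2
  refine ⟨t, ?_⟩
  have h3 : 0 < N.relIndex H := Nat.pos_of_ne_zero fun h => by
    rw [h, zero_mul] at ht
    exact (FiniteIndex.index_ne_zero (H := N)) ht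
  have h4 : N.relIndex H * H.index = N.relIndex H * (H.relIndex N * t) := by rw [h2]; ring
  exact Nat.eq_of_mul_eq_mul_left h3 h4

/-- **Step 2.** -/
theorem dvd_of_coprime {p : ℕ} [Fact p.Prime] {a b : G} (ha : ∃ k : ℕ, orderOf a = p ^ k)
    (hac : a ∉ center G) (h1 : (ci a).Coprime (ci b)) (h2 : (ci (a * b)).Coprime (ci a)) : p ∣ ci b := by
  -- the basic relation
  have key : ∀ c ∈ cls a, ∀ d ∈ cls b, c⁻¹ * a * d ∈ cls b := by
    rintro c hc _ ⟨g, rfl⟩
    obtain ⟨k, hk, h, hh, rfl⟩ := exists_mul_of_coprime h1.symm g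
    rw [mem_C] at hk hh
    have h3 : k * h * b * (k * h)⁻¹ = k * b * k⁻¹ := by
      calc k * h * b * (k * h)⁻¹ = k * (h * b) * h⁻¹ * k⁻¹ := by group
        _ = k * (b * h) * h⁻¹ * k⁻¹ := by rw [hh]
        _ = k * b * k⁻¹ := by group
    rw [h3]
    obtain ⟨g', hg'⟩ : k⁻¹ * c * k⁻¹⁻¹ ∈ cls a := cls_conj hc k⁻¹
    obtain ⟨k', hk', h', hh', rfl⟩ := exists_mul_of_coprime h2.symm g'
    rw [mem_C] at hk' hh'
    have h4 : k' * h' * a * (k' * h')⁻¹ = k' * a * k'⁻¹ := by
      calc k' * h' * a * (k' * h')⁻¹ = k' * (h' * a) * h'⁻¹ * k'⁻¹ := by group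
        _ = k' * (a * h') * h'⁻¹ * k'⁻¹ := by rw [hh']
        _ = k' * a * k'⁻¹ := by group
    rw [h4] at hg'
    have h5 : (k' * a * k'⁻¹) * (k' * b * k'⁻¹) = a * b := by
      calc (k' * a * k'⁻¹) * (k' * b * k'⁻¹) = k' * (a * b) * k'⁻¹ := by group
        _ = (a * b * k') * k'⁻¹ := by rw [hk']
        _ = a * b := by group
    have h6 : c⁻¹ * a * (k * b * k⁻¹) = k * ((k' * a * k'⁻¹)⁻¹ * (a * b)) * k⁻¹ := by
      rw [← hg']
      have h7 : c⁻¹ * a * (k * b * k⁻¹) = c⁻¹ * (a * k) * b * k⁻¹ := by group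
      rw [h7, hk]
      group
    rw [h6]
    apply cls_conj
    have h8 : (k' * a * k'⁻¹)⁻¹ * (a * b) = k' * b * k'⁻¹ := by
      rw [← h5]; group
    rw [h8]
    exact ⟨k', rfl⟩
  have key2 : ∀ c ∈ cls a, ∀ c' ∈ cls a, ∀ d ∈ cls b, c⁻¹ * c' * d ∈ cls b := by
    rintro c hc _ ⟨g, rfl⟩ d hd
    have h3 := key (g⁻¹ * c * g⁻¹⁻¹) (cls_conj hc g⁻¹) (g⁻¹ * d * g⁻¹⁻¹) (cls_conj hd g⁻¹)
    have h4 := cls_conj h3 g
    have h5 : g * ((g⁻¹ * c * g⁻¹⁻¹)⁻¹ * a * (g⁻¹ * d * g⁻¹⁻¹)) * g⁻¹ = c⁻¹ * (g * a * g⁻¹) * d := by group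
    rwa [h5] at h4
  have key3 : ∀ c ∈ cls a, ∀ c' ∈ cls a, c⁻¹ * c' ∈ Nst b := by
    intro c hc c' hc' d
    refine ⟨key2 c hc c' hc' d, fun h => ?_⟩
    have := key2 c' hc' c hc _ h
    rwa [show c'⁻¹ * c * (c⁻¹ * c' * d) = d by group] at this
  have hn := nst_normal b
  have hle : Nst b ≤ centralizer ({a} : Set G) := by
    rw [← relIndex_eq_one]
    have h3 : (centralizer ({a} : Set G)).relIndex (Nst b) ∣ ci a := relIndex_dvd_of_normal hn
    have h4 : (centralizer ({a} : Set G)).relIndex (Nst b) ∣ ci b :=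
      (relIndex_dvd_card _ _).trans (card_nst_dvd b)
    exact Nat.dvd_one.1 (h1 ▸ Nat.dvd_gcd h3 h4)
  rw [mem_center_iff] at hac
  push Not at hac
  obtain ⟨g, hg⟩ := hac
  have haa : a ∈ cls a := ⟨1, by group⟩
  have hx := key3 _ (⟨g, rfl⟩ : g * a * g⁻¹ ∈ cls a) a haa
  set c := g * a * g⁻¹ with hc
  have hcomm : Commute c⁻¹ a := by
    have h3 := mem_C.1 (hle hx)
    -- a * (c⁻¹ * a) = c⁻¹ * a * a
    have h4 : a * c⁻¹ = c⁻¹ * a := by
      apply mul_right_cancel (b := a)
      rw [mul_assoc]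
      exact h3
    exact h4.symm
  have hne : c⁻¹ * a ≠ 1 := by
    intro h
    apply hg
    have h3 : c = a := (inv_mul_eq_one.1 h)
    rw [hc, mul_inv_eq_iff_eq_mul] at h3
    exact h3
  obtain ⟨k, hk⟩ := ha
  have hck : c ^ p ^ k = 1 := by
    rw [hc, conj_pow, ← hk, pow_orderOf_eq_one]; group
  have hpow : (c⁻¹ * a) ^ p ^ k = 1 := by
    rw [hcomm.mul_pow, inv_pow, hck, ← hk, pow_orderOf_eq_one, inv_one, one_mul]
  obtain ⟨j, -, hj⟩ := (Nat.dvd_prime_pow (Fact.out : p.Prime)).1 (orderOf_dvd_of_pow_eq_one hpow)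
  have hj0 : j ≠ 0 := by
    rintro rfl
    rw [pow_zero, orderOf_eq_one_iff] at hj
    exact hne hj
  have h5 : orderOf (c⁻¹ * a) ∣ Nat.card (Nst b) := by
    rw [← Nat.card_zpowers]
    exact card_dvd_of_le (by rw [zpowers_le]; exact hx)
  exact ((dvd_pow_self p hj0).trans (hj ▸ h5)).trans (card_nst_dvd b)

theorem ppow_dvd {p : ℕ} (hp : p.Prime) {n k : ℕ} (h : n ∣ p ^ k) {q : ℕ} (hq : q.Prime) (hqn : q ∣ n) : q = p :=
  (Nat.prime_dvd_prime_iff_eq hq hp).1 (hq.dvd_of_dvd_pow (hqn.trans h))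

/-- **Step 3.** -/
theorem ppow_of_coprime {p : ℕ} [Fact p.Prime] {a w : G} (P : Sylow p G)
    (hP : (P : Subgroup G) ≤ centralizer ({a} : Set G))
    (hu : ∀ u : G, Commute a u → (orderOf u).Coprime p → ¬ p ∣ (centralizer ({a} : Set G) ⊓ centralizer ({u} : Set G)).index)
    (hw : w ∈ (P : Subgroup G)) (hc : (ci w).Coprime (ci a)) {q : ℕ} (hq : q.Prime) (hqw : q ∣ ci w) : q = p := by
  have hp : p.Prime := Fact.out
  set H := centralizer ({a} : Set G) with hH
  let PH : Sylow p ↥H := P.subtype hP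
  have h1 : (PH : Subgroup ↥H) ⊔ centralizer ((PH : Subgroup ↥H) : Set ↥H) = ⊤ := by
    refine sylow_sup_centralizer (fun y hy hpy => ?_) PH
    refine hu y.1 (mem_C.1 y.2) (by rwa [Subgroup.orderOf_coe]) ?_
    have h2 : (centralizer ({y} : Set ↥H)).index ∣ (H ⊓ centralizer ({(y : G)} : Set G)).index := by
      have h3 : centralizer ({y} : Set ↥H) = (H ⊓ centralizer ({(y : G)} : Set G)).subgroupOf H := by
        ext z
        rw [mem_subgroupOf, mem_inf]
        constructor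
        · intro h
          exact ⟨z.2, mem_C.2 (congrArg Subtype.val (mem_C.1 h))⟩
        · rintro ⟨-, h⟩
          exact mem_C.2 (Subtype.ext (mem_C.1 h))
      rw [h3, ← relIndex_mul_index (inf_le_left : H ⊓ centralizer ({(y : G)} : Set G) ≤ H)]
      exact dvd_mul_right _ _
    exact hpy.trans h2
  obtain ⟨hn, -⟩ := normal_and_complement PH h1
  have hCn : (centralizer ((PH : Subgroup ↥H) : Set ↥H)).Normal := inferInstance
  have h2 : (centralizer ((PH : Subgroup ↥H) : Set ↥H)).index ∣ Nat.card PH := by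
    rw [← relIndex_top_right, ← h1, relIndex_sup_right]
    exact relIndex_dvd_card _ _
  have h3 : (centralizer ({w} : Set G)).relIndex H = ci w := by
    have h4 : (centralizer ({w} : Set G) ⊓ H).relIndex H * H.index = (centralizer ({w} : Set G) ⊓ H).index :=
      relIndex_mul_index inf_le_right
    rw [index_inf_of_coprime hc, inf_relIndex_right] at h4
    exact Nat.eq_of_mul_eq_mul_right (Nat.pos_of_ne_zero FiniteIndex.index_ne_zero) h4
  have h4 : (centralizer ({w} : Set G)).relIndex H ∣ (centralizer ((PH : Subgroup ↥H) : Set ↥H)).index := by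
    apply index_dvd_of_le
    intro z hz
    rw [mem_subgroupOf, mem_C]
    have h5 := mem_centralizer_iff.1 hz ⟨w, hP hw⟩ (show (⟨w, hP hw⟩ : ↥H) ∈ ((PH : Subgroup ↥H) : Set ↥H) from hw)
    exact congrArg Subtype.val h5
  rw [h3] at h4
  obtain ⟨k, hk⟩ := PH.isPGroup'.exists_card_eq
  exact ppow_dvd hp (hk ▸ (h4.trans h2)) hq hqw

theorem mem_sylow_of_ppow {p : ℕ} [Fact p.Prime] {w : G} (hw : ∃ k : ℕ, orderOf w = p ^ k)
    (h : ∀ q : ℕ, q.Prime → q ∣ ci w → q = p) (P : Sylow p G) : w ∈ (P : Subgroup G) := by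
  obtain ⟨g, hg⟩ := exists_conj_mem P hw
  have hc : (ci w).Coprime (P : Subgroup G).index := by
    rw [Nat.coprime_iff_gcd_eq_one]
    by_contra hne
    obtain ⟨q, hq, hqd⟩ := Nat.exists_prime_and_dvd hne
    have h1 := h q hq (hqd.trans (Nat.gcd_dvd_left _ _))
    subst h1
    exact P.not_dvd_index (hqd.trans (Nat.gcd_dvd_right _ _))
  obtain ⟨k, hk, h, hh, rfl⟩ := exists_mul_of_coprime hc g
  rw [mem_C] at hh
  have h3 : k * h * w * (k * h)⁻¹ = k * w * k⁻¹ := by
    calc k * h * w * (k * h)⁻¹ = k * (h * w) * h⁻¹ * k⁻¹ := by group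
      _ = k * (w * h) * h⁻¹ * k⁻¹ := by rw [hh]
      _ = k * w * k⁻¹ := by group
  rw [h3] at hg
  have : w = k⁻¹ * (k * w * k⁻¹) * k := by group
  rw [this]
  exact mul_mem (mul_mem (inv_mem hk) hg) hk

theorem exists_orderOf_pow {p : ℕ} [Fact p.Prime] {P : Subgroup G} (hP : IsPGroup p P) {x : G} (hx : x ∈ P) :
    ∃ k : ℕ, orderOf x = p ^ k := by
  obtain ⟨k, hk⟩ := IsPGroup.iff_orderOf.1 hP ⟨x, hx⟩
  exact ⟨k, by rw [← hk, Subgroup.orderOf_mk]⟩

/-- **The final step**: the Sylow `p`-subgroup is normal, and each of its elements has class size a power of `p` or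
prime to `p`. -/
theorem final {p : ℕ} [Fact p.Prime] (P : Sylow p G) (hPn : (P : Subgroup G).Normal)
    (hZ : ¬ p ∣ Nat.card (center G))
    (hD : ∀ w ∈ (P : Subgroup G), (∀ q : ℕ, q.Prime → q ∣ ci w → q = p) ∨ ¬ p ∣ ci w) {b : G}
    (hb : b ∈ (P : Subgroup G)) (hpb : p ∣ ci b) : False := by
  have hp : p.Prime := Fact.out
  have hcen : ∀ w : G, ¬ p ∣ ci w → ∀ x ∈ (P : Subgroup G), w * x = x * w := by
    intro w hw x hx
    obtain ⟨Q, hQ⟩ := exists_sylow_le hw
    have h1 : Q = P := ((P.unique_of_normal hPn).uniq Q).trans ((P.unique_of_normal hPn).uniq P).symm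
    rw [h1] at hQ
    exact mem_C.1 (hQ hx)
  have hnil : Group.IsNilpotent ↥(P : Subgroup G) := P.isPGroup'.isNilpotent
  -- the commutator subgroup is centralized by the Sylow `q`-subgroups
  have hq : ∀ q : ℕ, q.Prime → q ≠ p → ∀ Q : Sylow q G, ∀ x y : ↥(P : Subgroup G), ∀ z ∈ (Q : Subgroup G),
      (x.1 * y.1 * x.1⁻¹ * y.1⁻¹) * z = z * (x.1 * y.1 * x.1⁻¹ * y.1⁻¹) := by
    intro q hq hqp Q x y z hz
    have hqf : Fact q.Prime := ⟨hq⟩
    let P0 : Subgroup ↥(P : Subgroup G) :=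
      (centralizer ((Q : Subgroup G) : Set G)).subgroupOf (P : Subgroup G) ⊔ center ↥(P : Subgroup G)
    have htop : P0 = ⊤ := by
      by_contra hne
      obtain ⟨g, hg⟩ := Cfsg.Agent.H395.Jordan.exists_not_conj_mem hne
      rcases hD g.1 g.2 with h | h
      · have hqg : ¬ q ∣ ci g.1 := fun hd => hqp (h q hq hd)
        obtain ⟨Q', hQ'⟩ := exists_sylow_le hqg
        obtain ⟨t, ht⟩ := MulAction.exists_smul_eq G Q Q'
        have hc : (P : Subgroup G).index.Coprime (ci g.1) := by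
          rw [Nat.coprime_iff_gcd_eq_one]
          by_contra hne
          obtain ⟨r, hr, hrd⟩ := Nat.exists_prime_and_dvd hne
          have h1 := h r hr (hrd.trans (Nat.gcd_dvd_right _ _))
          subst h1
          exact P.not_dvd_index (hrd.trans (Nat.gcd_dvd_left _ _))
        obtain ⟨c, hcc, k, hk, rfl⟩ := exists_mul_of_coprime hc t
        apply hg ⟨k, hk⟩
        apply mem_sup_left
        rw [mem_subgroupOf, mem_centralizer_iff]
        intro y hy
        have h2 : (c * k) * y * (c * k)⁻¹ ∈ (Q' : Subgroup G) := by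
          rw [← ht]
          show (c * k) * y * (c * k)⁻¹ ∈ (((c * k) • Q : Sylow q G) : Subgroup G)
          rw [Sylow.coe_subgroup_smul]
          exact ⟨y, hy, rfl⟩
        have h3 := mem_C.1 (hQ' h2)
        rw [mem_C] at hcc
        show y * (k⁻¹ * g.1 * k) = (k⁻¹ * g.1 * k) * y
        have h4 : g.1 * (c * (k * y * k⁻¹) * c⁻¹) = c * (k * y * k⁻¹) * c⁻¹ * g.1 := by
          rw [show c * (k * y * k⁻¹) * c⁻¹ = c * k * y * (c * k)⁻¹ by group]
          exact h3
        have h5 : c⁻¹ * g.1 = g.1 * c⁻¹ := by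
          rw [inv_mul_eq_iff_eq_mul, ← mul_assoc, ← hcc, mul_inv_cancel_right]
        have h6 : g.1 * (k * y * k⁻¹) = (k * y * k⁻¹) * g.1 := by
          have h7 : c * (g.1 * (k * y * k⁻¹)) * c⁻¹ = c * ((k * y * k⁻¹) * g.1) * c⁻¹ := by
            calc c * (g.1 * (k * y * k⁻¹)) * c⁻¹ = (c * g.1) * (k * y * k⁻¹) * c⁻¹ := by group
              _ = (g.1 * c) * (k * y * k⁻¹) * c⁻¹ := by rw [hcc]
              _ = g.1 * (c * (k * y * k⁻¹) * c⁻¹) := by group
              _ = c * (k * y * k⁻¹) * c⁻¹ * g.1 := h4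
              _ = c * (k * y * k⁻¹) * (c⁻¹ * g.1) := by group
              _ = c * (k * y * k⁻¹) * (g.1 * c⁻¹) := by rw [h5]
              _ = c * ((k * y * k⁻¹) * g.1) * c⁻¹ := by group
          exact mul_left_cancel (mul_right_cancel h7)
        calc y * (k⁻¹ * g.1 * k) = k⁻¹ * ((k * y * k⁻¹) * g.1) * k := by group
          _ = k⁻¹ * (g.1 * (k * y * k⁻¹)) * k := by rw [h6]
          _ = (k⁻¹ * g.1 * k) * y := by group
      · exact hg 1 (by
          apply mem_sup_right
          rw [inv_one, one_mul, mul_one, mem_center_iff]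
          intro x
          exact Subtype.ext (hcen g.1 h x.1 x.2).symm)
    have hdec : ∀ x : ↥(P : Subgroup G), ∃ c ∈ centralizer ((Q : Subgroup G) : Set G), ∃ z : G,
        (∀ y ∈ (P : Subgroup G), z * y = y * z) ∧ x.1 = c * z ∧ c ∈ (P : Subgroup G) ∧ z ∈ (P : Subgroup G) := by
      intro x
      have h1 : x ∈ P0 := by rw [htop]; exact mem_top x
      obtain ⟨c, hc, z, hz, rfl⟩ := mem_sup_of_normal_right.1 h1
      refine ⟨c.1, hc, z.1, fun y hy => ?_, rfl, c.2, z.2⟩
      exact (congrArg Subtype.val (mem_center_iff.1 hz ⟨y, hy⟩)).symm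
    obtain ⟨c, hc, z1, hz1, hx, hcP, hz1P⟩ := hdec x
    obtain ⟨d, hd, z2, hz2, hy, hdP, hz2P⟩ := hdec y
    have h1 : x.1 * y.1 * x.1⁻¹ * y.1⁻¹ = c * d * c⁻¹ * d⁻¹ := by
      rw [hx, hy, mul_inv_rev, mul_inv_rev]
      have e1 : z1 * (d * z2) = d * z2 * z1 := hz1 _ (mul_mem hdP hz2P)
      calc c * z1 * (d * z2) * (z1⁻¹ * c⁻¹) * (z2⁻¹ * d⁻¹)
          = c * (z1 * (d * z2)) * (z1⁻¹ * c⁻¹) * (z2⁻¹ * d⁻¹) := by group
        _ = c * (d * z2 * z1) * (z1⁻¹ * c⁻¹) * (z2⁻¹ * d⁻¹) := by rw [e1]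
        _ = c * d * (z2 * c⁻¹) * z2⁻¹ * d⁻¹ := by group
        _ = c * d * (c⁻¹ * z2) * z2⁻¹ * d⁻¹ := by rw [hz2 _ (inv_mem hcP)]
        _ = c * d * c⁻¹ * d⁻¹ := by group
    rw [h1]
    have h2 : c * d * c⁻¹ * d⁻¹ ∈ centralizer ((Q : Subgroup G) : Set G) :=
      mul_mem (mul_mem (mul_mem hc hd) (inv_mem hc)) (inv_mem hd)
    exact ((mem_centralizer_iff.1 h2) z hz).symm
  -- the group is not commutative
  have hPb : ¬ (P : Subgroup G) ≤ centralizer ({b} : Set G) := fun h =>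
    P.not_dvd_index (hpb.trans (index_dvd_of_le h))
  have hne : commutator ↥(P : Subgroup G) ≠ ⊥ := by
    intro h
    apply hPb
    intro x hx
    rw [mem_C]
    have h1 : ⁅(⟨b, hb⟩ : ↥(P : Subgroup G)), ⟨x, hx⟩⁆ ∈ commutator ↥(P : Subgroup G) :=
      commutator_mem_commutator (mem_top _) (mem_top _)
    rw [h, mem_bot, commutatorElement_eq_one_iff_mul_comm] at h1
    exact congrArg Subtype.val h1
  have h1 := Cfsg.Agent.Lib.NormalAbelian.normal_inf_center_ne_bot (commutator ↥(P : Subgroup G)) hne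
  obtain ⟨⟨z, hzc, hzz⟩, hz1'⟩ := ne_bot_iff_exists_ne_one.1 h1
  have hz1 : z ≠ 1 := fun h => hz1' (Subtype.ext h)
  have hcz : z.1 ∈ center G := by
    rw [← ci_eq_one]
    by_contra hne1
    obtain ⟨r, hr, hrd⟩ := Nat.exists_prime_and_dvd hne1
    by_cases hrp : r = p
    · subst hrp
      refine P.not_dvd_index (hrd.trans (index_dvd_of_le fun x hx => mem_C.2 ?_))
      exact (congrArg Subtype.val (mem_center_iff.1 hzz ⟨x, hx⟩)).symm
    · have hrf : Fact r.Prime := ⟨hr⟩
      obtain ⟨Q⟩ : Nonempty (Sylow r G) := inferInstance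
      refine Q.not_dvd_index (hrd.trans (index_dvd_of_le fun x hx => mem_C.2 ?_))
      have h2 : commutator ↥(P : Subgroup G) ≤ (centralizer ({x} : Set G)).subgroupOf (P : Subgroup G) := by
        rw [commutator_def, commutator_le]
        intro u _ v _
        rw [mem_subgroupOf, mem_C]
        exact (hq r hr hrp Q u v x hx).symm
      exact (mem_C.1 (mem_subgroupOf.1 (h2 hzc))).symm
  apply hZ
  obtain ⟨k, hk⟩ := exists_orderOf_pow P.isPGroup' z.2
  have hk0 : k ≠ 0 := by
    rintro rfl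
    rw [pow_zero, orderOf_eq_one_iff] at hk
    exact hz1 (Subtype.ext hk)
  have h3 : orderOf z.1 ∣ Nat.card (center G) := by
    rw [← Nat.card_zpowers]
    exact card_dvd_of_le (by rw [zpowers_le]; exact hcz)
  exact (dvd_pow_self p hk0).trans (hk ▸ h3)

omit [Finite G] in
theorem centralizer_mul {a u : G} (h : Commute a u) (hc : (orderOf a).Coprime (orderOf u)) :
    centralizer ({a * u} : Set G) = centralizer ({a} : Set G) ⊓ centralizer ({u} : Set G) := by
  apply le_antisymm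
  · intro g hg
    rw [mem_C] at hg
    have hg' : Commute (a * u) g := hg
    -- a power of `a u` is `a`
    obtain ⟨k, hk1, hk2⟩ := Nat.chineseRemainder hc 1 0
    have h1 : (a * u) ^ k = a := by
      rw [h.mul_pow]
      have h2 : a ^ k = a := by
        conv_rhs => rw [← pow_one a]
        exact pow_eq_pow_iff_modEq.2 hk1
      have h3 : u ^ k = 1 := by
        rw [← pow_zero u]
        exact pow_eq_pow_iff_modEq.2 hk2
      rw [h2, h3, mul_one]
    have h4 : Commute a g := by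
      have := hg'.pow_left k
      rwa [h1] at this
    refine ⟨mem_C.2 h4, mem_C.2 ?_⟩
    have h5 : u = a⁻¹ * (a * u) := by group
    rw [h5]
    exact (h4.inv_left.mul_left hg')
  · rintro g ⟨h1, h2⟩
    rw [mem_C]
    exact (show Commute a g from mem_C.1 h1).mul_left (show Commute u g from mem_C.1 h2)

/-- **The core**: two non-central `p`-elements. -/
theorem core {p : ℕ} [Fact p.Prime] (hZ : ¬ p ∣ Nat.card (center G)) {a b : G} (ha : ∃ k : ℕ, orderOf a = p ^ k)
    (hb : ∃ k : ℕ, orderOf b = p ^ k) (hac : a ∉ center G) (hbc : b ∉ center G) (hpa : ¬ p ∣ ci a)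
    (hno : ∀ w : G, p ∣ orderOf w → (ci w).Coprime (ci a) ∨ (ci w).Coprime (ci b)) : False := by
  have hp : p.Prime := Fact.out
  have dvd_ord : ∀ w : G, (∃ k : ℕ, orderOf w = p ^ k) → w ≠ 1 → p ∣ orderOf w := by
    rintro w ⟨k, hk⟩ hw
    rw [hk]
    refine dvd_pow_self p ?_
    rintro rfl
    rw [pow_zero, orderOf_eq_one_iff] at hk
    exact hw hk
  have ha1 : a ≠ 1 := fun h => hac (h ▸ one_mem _)
  have hb1 : b ≠ 1 := fun h => hbc (h ▸ one_mem _)
  have hca1 : ci a ≠ 1 := fun h => hac (ci_eq_one.1 h)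
  have hcb1 : ci b ≠ 1 := fun h => hbc (ci_eq_one.1 h)
  have hab : (ci a).Coprime (ci b) := by
    rcases hno a (dvd_ord a ha ha1) with h | h
    · exact absurd ((Nat.coprime_self _).1 h) hca1
    · exact h
  have hcomm := commute_of_coprime hb hab hpa
  have habp : ∃ k : ℕ, orderOf (a * b) = p ^ k := by
    obtain ⟨k, hk⟩ := ha
    obtain ⟨l, hl⟩ := hb
    have h1 : (a * b) ^ p ^ (k + l) = 1 := by
      rw [hcomm.mul_pow, pow_add, pow_mul, ← hk, pow_orderOf_eq_one, one_pow, one_mul, mul_comm, pow_mul, ← hl,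
        pow_orderOf_eq_one, one_pow]
    obtain ⟨j, -, hj⟩ := (Nat.dvd_prime_pow hp).1 (orderOf_dvd_of_pow_eq_one h1)
    exact ⟨j, hj⟩
  have hab1 : a * b ≠ 1 := by
    intro h
    have h1 : a = b⁻¹ := eq_inv_of_mul_eq_one_left h
    have h2 : ci a = ci b := by
      have h3 : centralizer ({a} : Set G) = centralizer ({b} : Set G) := by
        rw [h1]
        ext g
        rw [mem_C, mem_C]
        exact Commute.inv_left_iff
      show (centralizer ({a} : Set G)).index = (centralizer ({b} : Set G)).index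
      rw [h3]
    rw [h2] at hab
    exact hcb1 ((Nat.coprime_self _).1 hab)
  have hpb : p ∣ ci b := by
    rcases hno _ (dvd_ord _ habp hab1) with h | h
    · exact dvd_of_coprime ha hac hab h
    · exfalso
      apply hpa
      refine dvd_of_coprime hb hbc hab.symm ?_
      rw [← hcomm.eq]
      exact h
  obtain ⟨P, hP⟩ := exists_sylow_le hpa
  -- the dichotomy
  have hu : ∀ u : G, Commute a u → (orderOf u).Coprime p →
      ¬ p ∣ (centralizer ({a} : Set G) ⊓ centralizer ({u} : Set G)).index := by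
    intro u hau hup
    obtain ⟨k, hk⟩ := ha
    have hc : (orderOf a).Coprime (orderOf u) := by
      rw [hk]
      exact (hup.symm.pow_left k)
    rw [← centralizer_mul hau hc]
    have h1 : p ∣ orderOf (a * u) := by
      rw [hau.orderOf_mul_eq_mul_orderOf_of_coprime hc]
      exact (dvd_ord a ⟨k, hk⟩ ha1).trans (dvd_mul_right _ _)
    have h2 : ci a ∣ ci (a * u) := by
      apply index_dvd_of_le
      rw [centralizer_mul hau hc]
      exact inf_le_left
    rcases hno _ h1 with h | h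
    · exact absurd (Nat.dvd_one.1 (h ▸ Nat.dvd_gcd h2 dvd_rfl)) hca1
    · intro h3
      exact hp.one_lt.ne' (Nat.dvd_one.1 (h ▸ Nat.dvd_gcd h3 hpb))
  have hD : ∀ w : G, (∃ k : ℕ, orderOf w = p ^ k) → (∀ q : ℕ, q.Prime → q ∣ ci w → q = p) ∨ ¬ p ∣ ci w := by
    intro w hw
    by_cases hw1 : w = 1
    · right
      rw [hw1, ci_eq_one.2 (one_mem _)]
      exact hp.one_lt.ne' ∘ Nat.dvd_one.1
    rcases hno w (dvd_ord w hw hw1) with h | h
    · left
      intro q hq hqw
      obtain ⟨g, hg⟩ := exists_conj_mem P hw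
      refine ppow_of_coprime P hP hu hg ?_ hq ?_
      · rw [ci_conj]; exact h
      · rw [ci_conj]; exact hqw
    · right
      intro h3
      exact hp.one_lt.ne' (Nat.dvd_one.1 (h ▸ Nat.dvd_gcd h3 hpb))
  -- elements outside the intersection of the Sylow subgroups
  have hout : ∀ x : G, (∃ k : ℕ, orderOf x = p ^ k) → (∃ Q : Sylow p G, x ∉ (Q : Subgroup G)) →
      ∀ r : G, (∀ Q : Sylow p G, r ∈ (Q : Subgroup G)) → Commute x r := by
    rintro x hx ⟨Q, hQ⟩ r hr
    rcases hD x hx with h | h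
    · exact absurd (mem_sylow_of_ppow hx h Q) hQ
    · obtain ⟨Q', hQ'⟩ := exists_sylow_le h
      exact mem_C.1 (hQ' (hr Q'))
  have hbR : ∀ Q : Sylow p G, b ∈ (Q : Subgroup G) := by
    intro Q
    rcases hD b hb with h | h
    · exact mem_sylow_of_ppow hb h Q
    · exact absurd hpb h
  have hall : ∀ x ∈ (P : Subgroup G), ∀ Q : Sylow p G, x ∈ (Q : Subgroup G) := by
    by_contra hcon
    push Not at hcon
    obtain ⟨x, hxP, Q, hxQ⟩ := hcon
    have hpP : ∀ y ∈ (P : Subgroup G), ∃ k : ℕ, orderOf y = p ^ k := fun y hy => exists_orderOf_pow P.isPGroup' hy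
    have hle : (P : Subgroup G) ≤ centralizer ({b} : Set G) := by
      intro y hy
      rw [mem_C]
      by_cases hyR : ∃ Q : Sylow p G, y ∉ (Q : Subgroup G)
      · exact (hout y (hpP y hy) hyR b hbR).symm
      · push Not at hyR
        have h1 : Commute x b := hout x (hpP x hxP) ⟨Q, hxQ⟩ b hbR
        have h2 : Commute (x * y) b := hout (x * y) (hpP _ (mul_mem hxP hy))
          ⟨Q, fun h => hxQ ((mul_mem_cancel_right (hyR Q)).1 h)⟩ b hbR
        have h3 : Commute (x⁻¹ * (x * y)) b := h1.inv_left.mul_left h2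
        rw [inv_mul_cancel_left] at h3
        exact h3.symm
    exact P.not_dvd_index (hpb.trans (index_dvd_of_le hle))
  have hPn : (P : Subgroup G).Normal := by
    constructor
    intro x hx g
    have h1 := hall x hx (g⁻¹ • P)
    rw [Sylow.coe_subgroup_smul] at h1
    obtain ⟨y, hy, hyx⟩ := h1
    have h2 : g⁻¹ * y * g⁻¹⁻¹ = x := hyx
    have h3 : g * x * g⁻¹ = y := by rw [← h2]; group
    rw [h3]
    exact hy
  exact final P hPn hZ (fun w hw => hD w (exists_orderOf_pow P.isPGroup' hw)) (hbR P) hpb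

/-- **The link between two `p`-singular elements.** -/
theorem exists_link {p : ℕ} [Fact p.Prime] (hZ : ¬ p ∣ Nat.card (center G)) {x y : G} (hx : p ∣ orderOf x)
    (hy : p ∣ orderOf y) : ∃ w : G, p ∣ orderOf w ∧ ¬ (ci w).Coprime (ci x) ∧ ¬ (ci w).Coprime (ci y) := by
  have hp : p.Prime := Fact.out
  by_contra hcon
  push Not at hcon
  have part : ∀ x : G, p ∣ orderOf x → ∃ a ∈ zpowers x, (∃ k : ℕ, orderOf a = p ^ k) ∧ a ∉ center G := by
    intro x hx
    obtain ⟨a, b, hab, hcomm, ha, hb, haz, -⟩ := exists_decomp p x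
    refine ⟨a, haz, ha, ?_⟩
    intro hac
    obtain ⟨k, hk⟩ := ha
    have hk0 : k ≠ 0 := by
      rintro rfl
      rw [pow_zero, orderOf_eq_one_iff] at hk
      rw [hk, one_mul] at hab
      rw [hab] at hb
      exact hp.one_lt.ne' (Nat.dvd_one.1 (hb ▸ Nat.dvd_gcd hx dvd_rfl))
    apply hZ
    have h3 : orderOf a ∣ Nat.card (center G) := by
      rw [← Nat.card_zpowers]
      exact card_dvd_of_le (by rw [zpowers_le]; exact hac)
    exact (dvd_pow_self p hk0).trans (hk ▸ h3)
  obtain ⟨a, hax, ha, hac⟩ := part x hx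
  obtain ⟨b, hby, hb, hbc⟩ := part y hy
  have hno : ∀ w : G, p ∣ orderOf w → (ci w).Coprime (ci a) ∨ (ci w).Coprime (ci b) := by
    intro w hw
    by_cases h : (ci w).Coprime (ci x)
    · exact Or.inl (h.coprime_dvd_right (ci_dvd_of_zpow hax))
    · exact Or.inr ((hcon w hw h).coprime_dvd_right (ci_dvd_of_zpow hby))
  by_cases hpa : p ∣ ci a
  · have hpb : ¬ p ∣ ci b := by
      intro hpb
      have ha1 : a ≠ 1 := fun h => hac (h ▸ one_mem _)
      have hao : p ∣ orderOf a := by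
        obtain ⟨k, hk⟩ := ha
        rw [hk]
        refine dvd_pow_self p ?_
        rintro rfl
        rw [pow_zero, orderOf_eq_one_iff] at hk
        exact ha1 hk
      rcases hno a hao with h | h
      · exact hac (ci_eq_one.1 ((Nat.coprime_self _).1 h))
      · exact hp.one_lt.ne' (Nat.dvd_one.1 (h ▸ Nat.dvd_gcd hpa hpb))
    exact core hZ hb ha hbc hac hpb fun w hw => (hno w hw).symm
  · exact core hZ ha hb hac hbc hpa hno

end Cfsg.Agent.H566.SingGraph
end

-- part: S4321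
section
-- import your own Cfsg.Agent.* helpers here

set_option autoImplicit false
open Cfsg

namespace Cfsg.Agent.S4321

/-- Let `G` be a finite group and `p` a prime not dividing the order of the centre of `G`. Consider the primes dividing the size of some conjugacy class of a `p`-singular element (an element of order divisible by `p`), two of them adjacent when their product divides such a class size. Then any two distinct such primes are joined by a path with at most 3 edges (the graph is connected of diameter at most 3). -/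
theorem result {G : Type*} [Group G] [Finite G] (p : ℕ) [Fact p.Prime]
    (hZ : ¬ p ∣ Nat.card ↥(Subgroup.center G)) (r s : ℕ) (hr : (r.Prime ∧ ∃ x : G, p ∣ orderOf x ∧ r ∣ (Subgroup.centralizer ({x} : Set G)).index)) (hs : (s.Prime ∧ ∃ x : G, p ∣ orderOf x ∧ s ∣ (Subgroup.centralizer ({x} : Set G)).index)) (hrs : r ≠ s) :
    (∃ x : G, p ∣ orderOf x ∧ r * s ∣ (Subgroup.centralizer ({x} : Set G)).index) ∨ (∃ t : ℕ, (t.Prime ∧ ∃ x : G, p ∣ orderOf x ∧ t ∣ (Subgroup.centralizer ({x} : Set G)).index) ∧ t ≠ r ∧ t ≠ s ∧ (∃ x : G, p ∣ orderOf x ∧ r * t ∣ (Subgroup.centralizer ({x} : Set G)).index) ∧ (∃ x : G, p ∣ orderOf x ∧ t * s ∣ (Subgroup.centralizer ({x} : Set G)).index)) ∨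
      (∃ t u : ℕ, (t.Prime ∧ ∃ x : G, p ∣ orderOf x ∧ t ∣ (Subgroup.centralizer ({x} : Set G)).index) ∧ (u.Prime ∧ ∃ x : G, p ∣ orderOf x ∧ u ∣ (Subgroup.centralizer ({x} : Set G)).index) ∧ t ≠ r ∧ u ≠ s ∧ t ≠ u ∧ (∃ x : G, p ∣ orderOf x ∧ r * t ∣ (Subgroup.centralizer ({x} : Set G)).index) ∧ (∃ x : G, p ∣ orderOf x ∧ t * u ∣ (Subgroup.centralizer ({x} : Set G)).index) ∧ (∃ x : G, p ∣ orderOf x ∧ u * s ∣ (Subgroup.centralizer ({x} : Set G)).index)) := by
  obtain ⟨hr, x, hx, hrx⟩ := hr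
  obtain ⟨hs, y, hy, hsy⟩ := hs
  obtain ⟨w, hw, h1, h2⟩ := Cfsg.Agent.H566.SingGraph.exists_link hZ hx hy
  obtain ⟨t, ht, htd⟩ := Nat.exists_prime_and_dvd (n := Nat.gcd _ _) h1
  obtain ⟨u, hu, hud⟩ := Nat.exists_prime_and_dvd (n := Nat.gcd _ _) h2
  have htw := htd.trans (Nat.gcd_dvd_left _ _)
  have htx := htd.trans (Nat.gcd_dvd_right _ _)
  have huw := hud.trans (Nat.gcd_dvd_left _ _)
  have huy := hud.trans (Nat.gcd_dvd_right _ _)
  have mk : ∀ {a b n : ℕ}, a.Prime → b.Prime → a ≠ b → a ∣ n → b ∣ n → a * b ∣ n := fun ha hb hab h3 h4 =>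
    ((Nat.coprime_primes ha hb).2 hab).mul_dvd_of_dvd_of_dvd h3 h4
  by_cases htr : t = r
  · subst htr
    by_cases hus : u = s
    · subst hus
      exact Or.inl ⟨w, hw, mk ht hu hrs htw huw⟩
    by_cases hut : u = t
    · subst hut
      exact Or.inl ⟨y, hy, mk hu hs hrs huy hsy⟩
    exact Or.inr (Or.inl ⟨u, ⟨hu, w, hw, huw⟩, hut, hus, ⟨w, hw, mk ht hu (Ne.symm hut) htw huw⟩,
      ⟨y, hy, mk hu hs hus huy hsy⟩⟩)
  by_cases hts : t = s
  · subst hts
    exact Or.inl ⟨x, hx, mk hr ht hrs hrx htx⟩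
  by_cases hut : u = t
  · subst hut
    exact Or.inr (Or.inl ⟨u, ⟨hu, w, hw, huw⟩, htr, hts, ⟨x, hx, mk hr hu (Ne.symm htr) hrx htx⟩,
      ⟨y, hy, mk hu hs hts huy hsy⟩⟩)
  by_cases hus : u = s
  · subst hus
    exact Or.inr (Or.inl ⟨t, ⟨ht, w, hw, htw⟩, htr, hts, ⟨x, hx, mk hr ht (Ne.symm htr) hrx htx⟩,
      ⟨w, hw, mk ht hu hts htw huw⟩⟩)
  exact Or.inr (Or.inr ⟨t, u, ⟨ht, w, hw, htw⟩, ⟨hu, w, hw, huw⟩, htr, hus, Ne.symm hut,
    ⟨x, hx, mk hr ht (Ne.symm htr) hrx htx⟩, ⟨w, hw, mk ht hu (Ne.symm hut) htw huw⟩,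
    ⟨y, hy, mk hu hs hus huy hsy⟩⟩)

end Cfsg.Agent.S4321
end
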