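import Cfsg.Agent.H590.RegInner
import Cfsg.Agent.S0952
import Cfsg.Statements.S4428
set_option linter.all false

-- part: H590/Subsection
section
/-!
# Height zero characters and subsections

If `χ ∈ B` has height zero, `x` is a `p`-element and `b` is a block of `C = C_G(x)` inducing `B`
then for `ψ ∈ b` the inner product over the `p`-regular elements of `C` of `c ↦ χ (x c)` with `ψ`
is, up to the factor `ψ(1)`, a unit of the local ring.
-/

set_option autoImplicit false

open scoped ComplexConjugate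

namespace Cfsg.Agent.H590.Subsection

open Cfsg Cfsg.Agent.Blocks Cfsg.Agent.Blocks.HeightZero

variable {G : Type*} [Group G]

/-- A block component has the same scalar product over the `p`-regular elements with a member of
the block. -/
theorem sum_reg_blockPart [Finite G] [Fintype G] {p : ℕ} [Fact p.Prime] {M : Ideal AlgInt}
    (hM : IsPModular p M) {b : Set (IrrCharacter G)} (hb : IsPBlock M b) {ϑ : G → ℂ}
    (hϑ : IsClassFunction G ϑ) {ψ : IrrCharacter G} (hψ : ψ ∈ b) :
    ∑ y : G, (if p ∣ orderOf y then (0 : ℂ) else blockPart b ϑ y) * conj ((ψ : G → ℂ) y) =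
      ∑ y : G, (if p ∣ orderOf y then (0 : ℂ) else ϑ y) * conj ((ψ : G → ℂ) y) := by
  classical
  have hMp : M.IsPrime := Local.isPrime_of_isPModular hM
  have hfin : Finite (IrrCharacter G) := Characters.Core.finite_irr
  have : Fintype (IrrCharacter G) := Fintype.ofFinite _
  have h0 : ∀ φ : IrrCharacter G, φ ∉ b →
      ∑ y : G, (if p ∣ orderOf y then (0 : ℂ) else (φ : G → ℂ) y) * conj ((ψ : G → ℂ) y) = 0 := by
    intro φ hφ
    have h1 := S0952.result p M hM φ ψ (fun hs => hφ (Basic.isPBlock_mem_of_sameBlock hb hψ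
      (Basic.sameBlock_symm hs)))
    rw [finsum_mem_eq_finite_toFinset_sum _ (Set.toFinite _)] at h1
    refine Eq.trans (Eq.symm ?_) h1
    have h2 : ∀ y ∈ (Set.toFinite {x : G | ¬ p ∣ orderOf x}).toFinset,
        (φ : G → ℂ) y * conj ((ψ : G → ℂ) y) =
        (if p ∣ orderOf y then (0 : ℂ) else (φ : G → ℂ) y) * conj ((ψ : G → ℂ) y) := by
      intro y hy
      have hy' : ¬ p ∣ orderOf y := by simpa using hy
      rw [if_neg hy']
    rw [Finset.sum_congr rfl h2]
    apply Finset.sum_subset (Finset.subset_univ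
      (Set.toFinite {x : G | ¬ p ∣ orderOf x}).toFinset)
    intro y _ hy
    have hy' : p ∣ orderOf y := by simpa using hy
    rw [if_pos hy', zero_mul]
  -- expand both sides
  have hL : ∀ y : G, (if p ∣ orderOf y then (0 : ℂ) else blockPart b ϑ y) * conj ((ψ : G → ℂ) y) =
      ∑ φ : IrrCharacter G, (if φ ∈ b then classInner ϑ (φ : G → ℂ) else 0) *
        ((if p ∣ orderOf y then (0 : ℂ) else (φ : G → ℂ) y) * conj ((ψ : G → ℂ) y)) := by
    intro y
    have h1 : blockPart b ϑ y = ∑ φ : IrrCharacter G,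
        (if φ ∈ b then classInner ϑ (φ : G → ℂ) else 0) * (φ : G → ℂ) y := by
      unfold blockPart
      rw [finsum_mem_def, finsum_eq_sum_of_fintype]
      refine Finset.sum_congr rfl fun φ _ => ?_
      by_cases hφ : φ ∈ b
      · rw [Set.indicator_of_mem hφ, if_pos hφ]
        congr 1
        unfold classInner
        congr 1
        exact Finset.sum_congr (by ext; simp) fun _ _ => rfl
      · rw [Set.indicator_of_notMem hφ, if_neg hφ, zero_mul]
    by_cases hy : p ∣ orderOf y
    · simp [hy]
    · simp only [hy, if_false]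
      rw [h1, Finset.sum_mul]
      refine Finset.sum_congr rfl fun φ _ => ?_
      ring
  have hR : ∀ y : G, (if p ∣ orderOf y then (0 : ℂ) else ϑ y) * conj ((ψ : G → ℂ) y) =
      ∑ φ : IrrCharacter G, classInner ϑ (φ : G → ℂ) *
        ((if p ∣ orderOf y then (0 : ℂ) else (φ : G → ℂ) y) * conj ((ψ : G → ℂ) y)) := by
    intro y
    have h1 : ϑ y = ∑ φ : IrrCharacter G, classInner ϑ (φ : G → ℂ) * (φ : G → ℂ) y := by
      conv_lhs => rw [Characters.Core.classFunction_eq_sum hϑ]
      simp [Finset.sum_apply]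
    by_cases hy : p ∣ orderOf y
    · simp [hy]
    · simp only [hy, if_false]
      rw [h1, Finset.sum_mul]
      refine Finset.sum_congr rfl fun φ _ => ?_
      ring
  rw [Finset.sum_congr rfl fun y _ => hL y, Finset.sum_congr rfl fun y _ => hR y,
    Finset.sum_comm, Finset.sum_comm (s := (Finset.univ : Finset G))]
  refine Finset.sum_congr rfl fun φ _ => ?_
  rw [← Finset.mul_sum, ← Finset.mul_sum]
  by_cases hφ : φ ∈ b
  · rw [if_pos hφ]
  · rw [h0 φ hφ, mul_zero, mul_zero]

/-- `S4428`, core: the inner product over `p`-regular elements does not vanish. -/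
theorem sum_reg_translate_ne_zero [Fintype G] {p : ℕ} [Fact p.Prime] {M : Ideal AlgInt}
    (hM : IsPModular p M) {B : Set (IrrCharacter G)} (χ : IrrCharacter G) (hχ : χ ∈ B)
    (h0 : blockHeight p B (χ : G → ℂ) = 0) (x : G) (hx : ∃ k : ℕ, orderOf x = p ^ k)
    (C : Subgroup G) [Fintype C] (hxC : ∀ y ∈ C, x * y = y * x) {b : Set (IrrCharacter C)}
    (hb : IsInducedBlock M C b B) {ψ : IrrCharacter C} (hψ : ψ ∈ b) :
    ∑ y : C, (if p ∣ orderOf y then (0 : ℂ) else (χ : G → ℂ) (x * (y : G))) *
        conj ((ψ : C → ℂ) y) ≠ 0 := by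
  classical
  have hMp : M.IsPrime := Local.isPrime_of_isPModular hM
  intro hcon
  have h1 := RegInner.not_memLocalIdeal_sum_of_mem hM C hb χ hψ hχ h0
  apply h1
  -- the difference
  let f : C → ℂ := fun y => if p ∣ orderOf y then (0 : ℂ) else
    (χ : G → ℂ) ((y : G)⁻¹) - (χ : G → ℂ) (x * (y : G)⁻¹)
  have hf : IsClassFunction C f := by
    intro g h
    simp only [f]
    have hord : orderOf (h * g * h⁻¹) = orderOf g := orderOf_conj g h
    rw [hord]
    have e1 : (χ : G → ℂ) (((h * g * h⁻¹ : C) : G)⁻¹) = (χ : G → ℂ) ((g : G)⁻¹) := by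
      have := Basic.irr_conj χ.2 ((g : G)⁻¹) (h : G)
      rw [← this]
      simp [mul_assoc]
    have e2 : (χ : G → ℂ) (x * ((h * g * h⁻¹ : C) : G)⁻¹) = (χ : G → ℂ) (x * (g : G)⁻¹) := by
      have := Basic.irr_conj χ.2 (x * (g : G)⁻¹) (h : G)
      rw [← this]
      have h3 := hxC h h.2
      simp only [Subgroup.coe_mul, Subgroup.coe_inv, mul_inv_rev, inv_inv]
      rw [← mul_assoc, ← mul_assoc, h3]
      simp [mul_assoc]
    rw [e1, e2]
  have hfJ : ∀ y, MemLocalIdeal M (f y) := by
    intro y
    simp only [f]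
    split_ifs with hy
    · exact Local.memLocalIdeal_zero
    · have hreg : ¬ p ∣ orderOf ((y : G)⁻¹) := by
        rwa [orderOf_inv, Subgroup.orderOf_coe]
      have hpart : IsPPart p (x * (y : G)⁻¹) x :=
        ⟨(y : G)⁻¹, rfl, hxC _ (C.inv_mem y.2), hx, hreg⟩
      have h2 := CharactersDeep.ModCongr.memLocalIdeal_character_sub hM χ.2 _ _ hpart
      rw [inv_mul_cancel_left] at h2
      exact Local.memLocalIdeal_sub_comm h2
  have hsumJ : MemLocalIdeal M (∑ y : C, f y * ((ψ : C → ℂ) y / (ψ : C → ℂ) 1)) := by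
    obtain ⟨T, hT⟩ := ClassSum.exists_reps (G := C)
    rw [hT f _ hf]
    refine Local.memLocalIdeal_sum fun t _ => ?_
    rw [ClassSum.finsum_conj_div (irr_isClassFunction ψ)]
    exact Local.memLocalIdeal_mul_right (hfJ t)
      (Local.memLocalRing_of_isIntegral (isIntegral_centralChar ψ t))
  -- the sum of translates
  have hsum0 : ∑ y : C, (if p ∣ orderOf y then (0 : ℂ) else (χ : G → ℂ) (x * (y : G)⁻¹)) *
      ((ψ : C → ℂ) y / (ψ : C → ℂ) 1) = 0 := by
    have h2 : ∑ y : C, (if p ∣ orderOf y then (0 : ℂ) else (χ : G → ℂ) (x * (y : G)⁻¹)) *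
      ((ψ : C → ℂ) y / (ψ : C → ℂ) 1) = (∑ y : C,
        (if p ∣ orderOf y then (0 : ℂ) else (χ : G → ℂ) (x * (y : G))) *
          conj ((ψ : C → ℂ) y)) / (ψ : C → ℂ) 1 := by
      rw [Finset.sum_div]
      refine Fintype.sum_equiv (Equiv.inv C) _ _ ?_
      intro y
      simp only [Equiv.inv_apply, orderOf_inv]
      rw [Characters.Core.isCharacter_apply_inv (Characters.Core.isIrr_isCharacter ψ.2),
        Complex.conj_conj, Subgroup.coe_inv]
      ring
    rw [h2, hcon, zero_div]
  have hfinal : ∑ h : C, regCoeff p (χ : G → ℂ) (h : G) * ((ψ : C → ℂ) h / (ψ : C → ℂ) 1) =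
      ∑ y : C, f y * ((ψ : C → ℂ) y / (ψ : C → ℂ) 1) := by
    rw [← add_zero (∑ y : C, f y * ((ψ : C → ℂ) y / (ψ : C → ℂ) 1)), ← hsum0,
      ← Finset.sum_add_distrib]
    refine Finset.sum_congr rfl fun y _ => ?_
    have hord : orderOf (y : G) = orderOf y := Subgroup.orderOf_coe y
    by_cases hy : p ∣ orderOf y
    · simp only [f, if_pos hy]
      rw [regCoeff_of_dvd _ (by rwa [hord])]
      ring
    · simp only [f, if_neg hy]
      rw [regCoeff_of_not_dvd _ (by rwa [hord]),
        Characters.Core.isCharacter_apply_inv (Characters.Core.isIrr_isCharacter χ.2)]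
      ring
  rw [hfinal]
  exact hsumJ

end Cfsg.Agent.H590.Subsection
end

-- part: S4428
section
set_option autoImplicit false
open Cfsg

namespace Cfsg.Agent.S4428

/-- Let χ be an irreducible character of height zero in the p-block B of the finite group G (relative to a maximal ideal M of the algebraic integers containing p). Let x be a p-element of G with centralizer C, and let b be a block of C that induces B. Form the class function ϑ(c) = χ(x c) on C and its b-part (the sum over ψ ∈ b of the inner product of ϑ with ψ, times ψ). Then the b-part of ϑ does not vanish identically on the p-regular elements of C. (Compare the second main Theorem, which gives vanishing when b does not induce B.) -/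
theorem result {G : Type*} [Group G] [Finite G] (p : ℕ) [Fact p.Prime] (M : Ideal Cfsg.AlgInt) (hM : Cfsg.IsPModular p M) (B : Set (Cfsg.IrrCharacter G)) (hB : Cfsg.IsPBlock M B) (χ : Cfsg.IrrCharacter G) (hχ : χ ∈ B) (h0 : Cfsg.blockHeight p B (χ : G → ℂ) = 0) (x : G) (hx : ∃ k : ℕ, orderOf x = p ^ k) (b : Set (Cfsg.IrrCharacter (Subgroup.centralizer ({x} : Set G)))) (hb : Cfsg.IsInducedBlock M (Subgroup.centralizer ({x} : Set G)) b B) : ∃ y : Subgroup.centralizer ({x} : Set G), ¬ p ∣ orderOf y ∧ Cfsg.blockPart b (fun c : Subgroup.centralizer ({x} : Set G) => (χ : G → ℂ) (x * (c : G))) y ≠ 0 := by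
  classical
  have := Fintype.ofFinite G
  have := Fintype.ofFinite (Subgroup.centralizer ({x} : Set G))
  have hMp : M.IsPrime := Cfsg.Agent.Blocks.Local.isPrime_of_isPModular hM
  obtain ⟨ψ, hψ⟩ := Cfsg.Agent.Blocks.Basic.isPBlock_nonempty hb.1
  have hxC : ∀ y ∈ Subgroup.centralizer ({x} : Set G), x * y = y * x := by
    intro y hy
    exact (Subgroup.mem_centralizer_singleton_iff.1 hy).symm
  have h1 := Cfsg.Agent.H590.Subsection.sum_reg_translate_ne_zero hM χ hχ h0 x hx
    (Subgroup.centralizer ({x} : Set G)) hxC hb hψ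
  have hϑ : IsClassFunction (Subgroup.centralizer ({x} : Set G))
      (fun c : Subgroup.centralizer ({x} : Set G) => (χ : G → ℂ) (x * (c : G))) := by
    intro g h
    have e := Cfsg.Agent.Blocks.Basic.irr_conj χ.2 (x * (g : G)) (h : G)
    simp only
    rw [← e]
    have h3 := hxC h h.2
    simp only [Subgroup.coe_mul, Subgroup.coe_inv]
    rw [← mul_assoc, ← mul_assoc, h3]
    simp [mul_assoc]
  rw [← Cfsg.Agent.H590.Subsection.sum_reg_blockPart hM hb.1 hϑ hψ] at h1
  obtain ⟨y, -, hy⟩ := Finset.exists_ne_zero_of_sum_ne_zero h1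
  refine ⟨y, ?_, ?_⟩
  · intro hd
    rw [if_pos hd, zero_mul] at hy
    exact hy rfl
  · intro h
    rw [h] at hy
    simp at hy

end Cfsg.Agent.S4428
end
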