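import Mathlib
import Cfsg.Prelude.Def_Blocks
import Cfsg.Agent.Blocks.Local
import Cfsg.Agent.Blocks.Basic
import Cfsg.Agent.Blocks.ClassSum
import Cfsg.Agent.Blocks.BlockPart
import Cfsg.Agent.Blocks.Osima
import Cfsg.Agent.Characters.Core
import Cfsg.Agent.S0913
import Cfsg.Agent.S0150
import Cfsg.Statements.S4430
set_option linter.all false

-- part: H590/IndBlockPart
section
/-!
# The block components of an induced character

If `b^G = B₀` and `ξ ∈ b` then the value at `1` of the `B`-component of `ξ^G`, divided by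
`ξ^G(1)`, is congruent modulo the local ideal to `1` if `B = B₀` and to `0` otherwise.
-/

set_option autoImplicit false

open scoped ComplexConjugate

namespace Cfsg.Agent.H590.IndBlockPart

open Cfsg Cfsg.Agent.Blocks

variable {G : Type*} [Group G]

/-- the degree of the induced character -/
theorem indFun_one [Fintype G] (H : Subgroup G) (ξ : IrrCharacter H) :
    ∃ N : ℕ, N ≠ 0 ∧ indFun H (ξ : H → ℂ) 1 = N := by
  obtain ⟨n, hn, h⟩ := Characters.Core.isIrr_apply_one ξ.2
  refine ⟨H.index * n, mul_ne_zero Subgroup.index_ne_zero_of_finite hn.ne', ?_⟩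
  rw [Characters.Core.indFun_apply]
  have h1 : ∀ x : G, extendByZero H (ξ : H → ℂ) (x⁻¹ * 1 * x) = (ξ : H → ℂ) 1 := by
    intro x
    have h2 : x⁻¹ * 1 * x = ((1 : H) : G) := by simp
    rw [h2, ClassSum.extendByZero_coe']
  rw [Finset.sum_congr rfl fun x _ => h1 x, Finset.sum_const, Finset.card_univ,
    Fintype.card_eq_nat_card, nsmul_eq_mul, h, ← H.card_mul_index]
  have h3 : (Nat.card H : ℂ) ≠ 0 := by exact_mod_cast Nat.card_pos.ne'
  push_cast
  field_simp

/-- block parts of an induced character at `1` are natural numbers -/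
theorem blockPart_one [Fintype G] (H : Subgroup G) [Fintype H] (ξ : IrrCharacter H)
    (B : Set (IrrCharacter G)) :
    ∃ n : ℕ, blockPart B (indFun H (ξ : H → ℂ)) 1 = n := by
  classical
  have hfin : Finite (IrrCharacter G) := Characters.Core.finite_irr
  have : Fintype (IrrCharacter G) := Fintype.ofFinite _
  have h1 : ∀ χ : IrrCharacter G, ∃ n : ℕ,
      classInner (indFun H (ξ : H → ℂ)) (χ : G → ℂ) * (χ : G → ℂ) 1 = n := by
    intro χ
    obtain ⟨m, -, hm⟩ := Characters.Core.isIrr_apply_one χ.2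
    have h2 : classInner (indFun H (ξ : H → ℂ)) (χ : G → ℂ) =
        classInner (ξ : H → ℂ) (fun x : H => (χ : G → ℂ) x) :=
      S0150.classInner_indFun H _ _ (Characters.Core.isIrr_isClassFunction χ.2)
    have h3 : IsCharacter H (fun x : H => (χ : G → ℂ) x) :=
      Characters.Core.isCharacter_comp H.subtype (Characters.Core.isIrr_isCharacter χ.2)
    obtain ⟨k, hk⟩ := Characters.Core.classInner_isNat
      (Characters.Core.isIrr_isCharacter ξ.2) h3
    exact ⟨k * m, by rw [h2, hk, hm]; push_cast; ring⟩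
  choose n hn using h1
  refine ⟨∑ χ : IrrCharacter G, if χ ∈ B then n χ else 0, ?_⟩
  unfold blockPart
  rw [finsum_mem_def, finsum_eq_sum_of_fintype]
  push_cast
  refine Finset.sum_congr rfl fun χ _ => ?_
  by_cases hχ : χ ∈ B
  · rw [Set.indicator_of_mem hχ, if_pos hχ, ← hn χ]
    congr 1
    unfold classInner
    congr 1
    exact Finset.sum_congr (by ext; simp) fun _ _ => rfl
  · rw [Set.indicator_of_notMem hχ, if_neg hχ]

/-- value of the idempotent of a set of characters at a central character -/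
theorem sum_blockCoeff_mul [Fintype G] (B : Set (IrrCharacter G)) [DecidablePred (· ∈ B)]
    (χ : IrrCharacter G) :
    ∑ g : G, blockCoeff B g * ((χ : G → ℂ) g / (χ : G → ℂ) 1) = if χ ∈ B then 1 else 0 := by
  have h1 := Osima.omegaL_irrIdem B χ
  rw [Central.omegaL_apply, Finset.sum_div] at h1
  split_ifs at h1 ⊢ with h
  · rw [← h1]
    exact Finset.sum_congr rfl fun g _ => by rw [Osima.coeff_irrIdem]; ring
  · rw [← h1]
    exact Finset.sum_congr rfl fun g _ => by rw [Osima.coeff_irrIdem]; ring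

/-- The congruence. -/
theorem memLocalIdeal_ratio [Fintype G] {p : ℕ} [Fact p.Prime] {M : Ideal AlgInt}
    (hM : IsPModular p M) (H : Subgroup G) [Fintype H] {b : Set (IrrCharacter H)}
    {B₀ : Set (IrrCharacter G)} (hind : IsInducedBlock M H b B₀) {ξ : IrrCharacter H}
    (hξ : ξ ∈ b) {B : Set (IrrCharacter G)} (hB : IsPBlock M B) [Decidable (B = B₀)] :
    MemLocalIdeal M (blockPart B (indFun H (ξ : H → ℂ)) 1 / indFun H (ξ : H → ℂ) 1 -
      if B = B₀ then 1 else 0) := by
  classical
  have hMp : M.IsPrime := Local.isPrime_of_isPModular hM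
  obtain ⟨χ₀, hχ₀⟩ := Basic.isPBlock_nonempty hind.2.1
  have hcl : IsClassFunction G (indFun H (ξ : H → ℂ)) := S0150.indFun_isClassFunction H _
  have hsame : SameBlock M (indFun H (ξ : H → ℂ)) (χ₀ : G → ℂ) := by
    intro g
    rw [Induced.centralChar_indFun]
    exact hind.2.2 ξ hξ χ₀ hχ₀ g
  have h1 := ClassSum.memLocalIdeal_of_sameBlock hcl
    (Characters.Core.isIrr_isClassFunction χ₀.2) hsame
    (Osima.isClassFunction_blockCoeff B) (S0913.result p M hM B hB)
  rw [sum_blockCoeff_mul] at h1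
  have h2 : blockPart B (indFun H (ξ : H → ℂ)) 1 / indFun H (ξ : H → ℂ) 1 =
      ∑ g : G, blockCoeff B g * (indFun H (ξ : H → ℂ) g / indFun H (ξ : H → ℂ) 1) := by
    rw [BlockPart.blockPart_eq_sum B hcl 1, Finset.sum_div]
    refine Finset.sum_congr rfl fun g _ => ?_
    rw [mul_one]
    ring
  rw [h2]
  have h3 : (if χ₀ ∈ B then (1 : ℂ) else 0) = if B = B₀ then 1 else 0 := by
    by_cases h : B = B₀
    · rw [if_pos h, if_pos (h ▸ hχ₀)]
    · rw [if_neg h, if_neg]
      intro hmem
      exact h (Basic.isPBlock_eq_of_mem hB hind.2.1 hmem hχ₀)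
  rw [h3] at h1
  exact h1

/-- a ratio of natural numbers in the local ideal -/
theorem factorization_lt_of_memLocalIdeal {p : ℕ} {M : Ideal AlgInt}
    (hM : IsPModular p M) {n N : ℕ} (hn : n ≠ 0) (hN : N ≠ 0)
    (h : MemLocalIdeal M ((n : ℂ) / (N : ℂ))) : N.factorization p < n.factorization p := by
  have hMp : M.IsPrime := Local.isPrime_of_isPModular hM
  have hp := hM.1
  by_contra hlt
  push Not at hlt
  have hn' : n = p ^ n.factorization p * (n / p ^ n.factorization p) :=
    (Nat.ordProj_mul_ordCompl_eq_self n p).symm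
  have hnd : ¬ p ∣ n / p ^ n.factorization p := Nat.not_dvd_ordCompl hp hn
  have hN' : N = p ^ n.factorization p * (N / p ^ n.factorization p) := by
    rw [Nat.mul_div_cancel']
    exact (hp.pow_dvd_iff_le_factorization hN).2 hlt
  have hp0 : ((p ^ n.factorization p : ℕ) : ℂ) ≠ 0 := by
    exact_mod_cast pow_ne_zero _ hp.ne_zero
  have hNC : (N : ℂ) ≠ 0 := by exact_mod_cast hN
  have h1 : ((N / p ^ n.factorization p : ℕ) : ℂ) * ((n : ℂ) / (N : ℂ)) =
      ((n / p ^ n.factorization p : ℕ) : ℂ) := by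
    have e1 : (n : ℂ) = ((p ^ n.factorization p : ℕ) : ℂ) *
        ((n / p ^ n.factorization p : ℕ) : ℂ) := by exact_mod_cast hn'
    have e2 : (N : ℂ) = ((p ^ n.factorization p : ℕ) : ℂ) *
        ((N / p ^ n.factorization p : ℕ) : ℂ) := by exact_mod_cast hN'
    rw [mul_div_assoc', div_eq_iff hNC]
    linear_combination ((N / p ^ n.factorization p : ℕ) : ℂ) * e1 -
      ((n / p ^ n.factorization p : ℕ) : ℂ) * e2
  have h2 := Local.memLocalIdeal_mul_left
    (Local.memLocalRing_natCast (M := M) (N / p ^ n.factorization p)) h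
  rw [h1] at h2
  exact hnd ((Local.memLocalIdeal_natCast_iff hM _).1 h2)

theorem memLocalIdeal_natDiv {p : ℕ} {M : Ideal AlgInt}
    (hM : IsPModular p M) {n N : ℕ} (hn : n ≠ 0) (hN : N ≠ 0)
    (h : N.factorization p < n.factorization p) : MemLocalIdeal M ((n : ℂ) / (N : ℂ)) := by
  have hMp : M.IsPrime := Local.isPrime_of_isPModular hM
  have hp := hM.1
  obtain ⟨k, hk⟩ : ∃ k, n.factorization p = N.factorization p + (k + 1) :=
    ⟨n.factorization p - N.factorization p - 1, by omega⟩
  have hn' : n = p ^ n.factorization p * (n / p ^ n.factorization p) :=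
    (Nat.ordProj_mul_ordCompl_eq_self n p).symm
  have hN' : N = p ^ N.factorization p * (N / p ^ N.factorization p) :=
    (Nat.ordProj_mul_ordCompl_eq_self N p).symm
  have hnd : ¬ p ∣ N / p ^ N.factorization p := Nat.not_dvd_ordCompl hp hN
  have hp0 : ((p : ℕ) : ℂ) ^ N.factorization p ≠ 0 := by
    exact_mod_cast pow_ne_zero _ hp.ne_zero
  have hq0 : ((N / p ^ N.factorization p : ℕ) : ℂ) ≠ 0 := by
    intro h0
    apply hnd
    rw [Nat.cast_eq_zero.1 h0]
    exact dvd_zero _
  have e1 : (n : ℂ) = (p : ℂ) ^ N.factorization p * ((p : ℂ) ^ k * p *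
      ((n / p ^ n.factorization p : ℕ) : ℂ)) := by
    have : (n : ℂ) = (p : ℂ) ^ n.factorization p * ((n / p ^ n.factorization p : ℕ) : ℂ) := by
      exact_mod_cast hn'
    have h5 : (p : ℂ) ^ n.factorization p =
        (p : ℂ) ^ N.factorization p * ((p : ℂ) ^ k * p) := by
      rw [hk, pow_add, pow_succ]
    rw [this, h5]
    ring
  have e2 : (N : ℂ) = (p : ℂ) ^ N.factorization p *
      ((N / p ^ N.factorization p : ℕ) : ℂ) := by exact_mod_cast hN'
  have h1 : (n : ℂ) / (N : ℂ) = ((N / p ^ N.factorization p : ℕ) : ℂ)⁻¹ *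
      (((p : ℂ) ^ k * ((n / p ^ n.factorization p : ℕ) : ℂ)) * (p : ℂ)) := by
    rw [e1, e2]
    field_simp
  rw [h1]
  refine Local.memLocalIdeal_mul_left (Local.memLocalRing_inv_natCast hM hnd) ?_
  refine Local.memLocalIdeal_mul_left (Local.memLocalRing_mul
    (Local.memLocalRing_pow (Local.memLocalRing_natCast _) _) (Local.memLocalRing_natCast _)) ?_
  exact Local.memLocalIdeal_p hM

theorem factorization_eq_of_memLocalIdeal {p : ℕ} {M : Ideal AlgInt}
    (hM : IsPModular p M) {n N : ℕ} (hN : N ≠ 0)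
    (h : MemLocalIdeal M ((n : ℂ) / (N : ℂ) - 1)) :
    n ≠ 0 ∧ n.factorization p = N.factorization p := by
  have hMp : M.IsPrime := Local.isPrime_of_isPModular hM
  have hNC : (N : ℂ) ≠ 0 := by exact_mod_cast hN
  have h1 : ¬ MemLocalIdeal M ((n : ℂ) / (N : ℂ)) := by
    intro hcon
    exact Local.not_memLocalIdeal_one ((Local.memLocalIdeal_iff_of_sub h).1 hcon)
  have h2 : MemLocalRing M ((n : ℂ) / (N : ℂ)) :=
    (Local.memLocalRing_iff_of_sub h).2 Local.memLocalRing_one
  have hn : n ≠ 0 := by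
    rintro rfl
    apply h1
    rw [Nat.cast_zero, zero_div]
    exact Local.memLocalIdeal_zero
  have hnC : (n : ℂ) ≠ 0 := by exact_mod_cast hn
  refine ⟨hn, ?_⟩
  rcases lt_trichotomy (n.factorization p) (N.factorization p) with hlt | heq | hlt
  · exfalso
    have h3 := memLocalIdeal_natDiv hM hN hn hlt
    have h4 := Local.memLocalIdeal_mul_left h2 h3
    have h5 : (n : ℂ) / (N : ℂ) * ((N : ℂ) / (n : ℂ)) = 1 := by field_simp
    rw [h5] at h4
    exact Local.not_memLocalIdeal_one h4
  · exact heq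
  · exact absurd (memLocalIdeal_natDiv hM hn hN hlt) h1

end Cfsg.Agent.H590.IndBlockPart
end

-- part: S4430
section
set_option autoImplicit false
open Cfsg

namespace Cfsg.Agent.S4430

/-- Let H be a subgroup of the finite group G, b a block of H whose induced block B₀ in G is defined (relative to a maximal ideal M of the algebraic integers containing p), and ξ ∈ b. For a block B of G let n_B be the value at 1 of the B-part of the induced character ξ^G (a natural number: the sum over χ ∈ B of the multiplicity of χ in ξ^G times χ(1)). Then for B = B₀ the exact power of p dividing n_B equals the exact power of p dividing ξ^G(1), while for every other block B either n_B = 0 or n_B is divisible by a strictly higher power of p than ξ^G(1). -/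
theorem result {G : Type*} [Group G] [Fintype G] (p : ℕ) [Fact p.Prime] (M : Ideal Cfsg.AlgInt) (hM : Cfsg.IsPModular p M) (H : Subgroup G) [Fintype H] (b : Set (Cfsg.IrrCharacter H)) (B₀ : Set (Cfsg.IrrCharacter G)) (hind : Cfsg.IsInducedBlock M H b B₀) (ξ : Cfsg.IrrCharacter H) (hξ : ξ ∈ b) : (∃ n : ℕ, Cfsg.blockPart B₀ (Cfsg.indFun H (ξ : H → ℂ)) 1 = (n : ℂ) ∧ n ≠ 0 ∧ n.factorization p = (Cfsg.charDegree (Cfsg.indFun H (ξ : H → ℂ))).factorization p) ∧ ∀ B : Set (Cfsg.IrrCharacter G), Cfsg.IsPBlock M B → B ≠ B₀ → ∃ n : ℕ, Cfsg.blockPart B (Cfsg.indFun H (ξ : H → ℂ)) 1 = (n : ℂ) ∧ (n = 0 ∨ (Cfsg.charDegree (Cfsg.indFun H (ξ : H → ℂ))).factorization p < n.factorization p) := by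
  classical
  obtain ⟨N, hN0, hN⟩ := Cfsg.Agent.H590.IndBlockPart.indFun_one H ξ
  have hdeg : Cfsg.charDegree (Cfsg.indFun H (ξ : H → ℂ)) = N := by
    unfold charDegree
    rw [hN]
    simp
  rw [hdeg]
  constructor
  · obtain ⟨n, hn⟩ := Cfsg.Agent.H590.IndBlockPart.blockPart_one H ξ B₀
    have h1 := Cfsg.Agent.H590.IndBlockPart.memLocalIdeal_ratio hM H hind hξ hind.2.1
    rw [if_pos rfl, hn, hN] at h1
    obtain ⟨h2, h3⟩ :=
      Cfsg.Agent.H590.IndBlockPart.factorization_eq_of_memLocalIdeal hM hN0 h1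
    exact ⟨n, hn, h2, h3⟩
  · intro B hB hne
    obtain ⟨n, hn⟩ := Cfsg.Agent.H590.IndBlockPart.blockPart_one H ξ B
    have h1 := Cfsg.Agent.H590.IndBlockPart.memLocalIdeal_ratio hM H hind hξ hB
    rw [if_neg hne, hn, hN, sub_zero] at h1
    refine ⟨n, hn, ?_⟩
    by_cases h0 : n = 0
    · exact Or.inl h0
    · exact Or.inr
        (Cfsg.Agent.H590.IndBlockPart.factorization_lt_of_memLocalIdeal hM h0 hN0 h1)

end Cfsg.Agent.S4430
end
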