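import Cfsg.Agent.H592.HarStar
import Cfsg.Statements.S4440
set_option linter.all false

-- part: H592/HarMain
section
/-!
# Harada's conjecture for `p`-solvable groups

`mem_core`: in a `p`-solvable group with central `p'`-core, the `p`-regular elements centralizing
`O_p(G)` are in the `p'`-core.
`main`: if `∑_{χ ∈ U} χ(1) χ` vanishes at the `p`-singular elements of a `p`-solvable group then `U`
is a union of blocks.
-/

set_option autoImplicit false
open Cfsg

namespace Cfsg.Agent.H592.Har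

open Cfsg.Agent Cfsg.Agent.Characters.Core Cfsg.Agent.OddOrderCharacters.IndRes
open scoped ComplexConjugate

universe u

theorem mem_core {G : Type u} [Group G] [Finite G] (p : ℕ) [Fact p.Prime]
    (hsolv : IsPSolvable p G) (hc : pPrimeCore p G ≤ Subgroup.center G) {g : G}
    (hg : ¬ p ∣ orderOf g) (h : ∀ x ∈ pCore p G, x * g = g * x) : g ∈ pPrimeCore p G := by
  have hp : p.Prime := Fact.out
  obtain ⟨Q, hQn, hNQ, ⟨k, hk⟩, P, hPp, hPQ, hCP⟩ := S4492.exists_group_data (G := G) p hsolv
  obtain ⟨N, hNdef⟩ : ∃ N : Subgroup G, N = pPrimeCore p G := ⟨_, rfl⟩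
  rw [← hNdef] at hc hNQ hk ⊢
  have hN : N.Normal := hNdef ▸ Lib.Cores.pPrimeCore_normal p
  obtain ⟨S⟩ : Nonempty (Sylow p Q) := inferInstance
  -- `Q = N S`
  have htop : N.subgroupOf Q ⊔ (S : Subgroup Q) = ⊤ := by
    have h1 : (N.subgroupOf Q ⊔ (S : Subgroup Q)).index ∣ p ^ k :=
      dvd_trans (Subgroup.index_dvd_of_le le_sup_left) (dvd_of_eq hk)
    have h2 : ¬ p ∣ (N.subgroupOf Q ⊔ (S : Subgroup Q)).index := fun h =>
      S.not_dvd_index (h.trans (Subgroup.index_dvd_of_le le_sup_right))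
    obtain ⟨j, -, hj⟩ := (Nat.dvd_prime_pow hp).1 h1
    rcases Nat.eq_zero_or_pos j with h0 | h0
    · rw [h0, pow_zero] at hj
      exact Subgroup.index_eq_one.1 hj
    · exact absurd (hj ▸ dvd_pow_self p h0.ne') h2
  have hSn : (S : Subgroup Q).Normal := by
    rw [← Subgroup.normalizer_eq_top_iff, eq_top_iff, ← htop]
    refine sup_le ?_ Subgroup.le_normalizer
    intro x hx
    have hx' : (x : G) ∈ Subgroup.center G := hc hx
    rw [Subgroup.mem_normalizer_iff]
    intro y
    have h1 : x * y * x⁻¹ = y := by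
      apply Subtype.ext
      show (x : G) * y * (x : G)⁻¹ = y
      rw [← Subgroup.mem_center_iff.1 hx' (y : G), mul_inv_cancel_right]
    rw [h1]
  have hS : (S : Subgroup Q) ≤ pCore p Q := Lib.Cores.le_pCore hSn S.2
  have hPS : P.subgroupOf Q ≤ (S : Subgroup Q) := by
    have h1 : IsPGroup p (P.subgroupOf Q) := hPp.comap_of_injective Q.subtype Q.subtype_injective
    obtain ⟨S', hS'⟩ := h1.exists_le_sylow
    obtain ⟨c, hc'⟩ := MulAction.exists_smul_eq Q S S'
    rw [Sylow.smul_eq_of_normal] at hc'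
    rw [hc']
    exact hS'
  have hPc : P ≤ pCore p G := by
    intro x hx
    have h1 : (⟨x, hPQ hx⟩ : Q) ∈ pCore p Q := hS (hPS hx)
    have h2 : x ∈ (pCore p Q).map Q.subtype := ⟨_, h1, rfl⟩
    rw [Lib.Cores.map_subtype_pCore p hQn] at h2
    exact h2.2
  have hgQ : g ∈ Q := by
    apply hCP
    rw [Subgroup.mem_centralizer_iff]
    intro x hx
    exact h x (hPc hx)
  have h1 : g ^ p ^ k ∈ N := by
    have h2 := (N.subgroupOf Q).pow_index_mem (⟨g, hgQ⟩ : Q)
    have h3 : (N.subgroupOf Q).index = p ^ k := hk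
    rw [h3] at h2
    exact h2
  exact pow_mem_of_coprime h1
    (Nat.Coprime.pow_left k (hp.coprime_iff_not_dvd.2 hg)).symm

/-- The case of an invariant character of the `p'`-core. -/
theorem invariant_case (p : ℕ) [Fact p.Prime] (M : Ideal AlgInt) (hM : IsPModular p M) (n : ℕ)
    (ih : ∀ (G : Type u) [Group G] [Finite G], IsPSolvable p G →
      (∃ L : Subgroup G, L.Normal ∧ ¬ p ∣ Nat.card L ∧ L.index ≤ n) →
      ∀ U : Set (IrrCharacter G), Van p (fS U) → Closed M U)
    (G : Type u) [Group G] [Fintype G] (hsolv : IsPSolvable p G) (N : Subgroup G) [hN : N.Normal]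
    [Fintype N] (hNdef : N = pPrimeCore p G) (hNp : ¬ p ∣ Nat.card N) (hNi : N.index ≤ n + 1)
    (θ : IrrCharacter N)
    (hinv : ∀ (g : G) (n : N), (θ : N → ℂ) ⟨g * n * g⁻¹, hN.conj_mem n n.2 g⟩ = (θ : N → ℂ) n)
    (U : Set (IrrCharacter G)) (hU : Van p (fS U)) (χ : IrrCharacter G) (hχ : χ ∈ U)
    (hθ : classInner (fun n : N => (χ : G → ℂ) n) (θ : N → ℂ) ≠ 0) (χ₁ : IrrCharacter G)
    (hθ₁ : classInner (fun n : N => (χ₁ : G → ℂ) n) (θ : N → ℂ) ≠ 0) : χ₁ ∈ U := by
  classical
  have hp : p.Prime := Fact.out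
  have hprime : M.IsPrime := Blocks.Local.isPrime_of_isPModular hM
  by_contra hχ₁U
  let W : Set (IrrCharacter G) :=
    {χ | classInner (fun n : N => (χ : G → ℂ) n) (θ : N → ℂ) ≠ 0}
  have hW : Closed M W := fun φ hφ φ' hφ' =>
    Blocks.PrimeNormal.constituent_of_sameBlock hM N hNp φ.2 φ'.2 hφ' θ.2 hφ
  let X : Set (IrrCharacter G) := U ∩ W
  let Y : Set (IrrCharacter G) := W \ U
  have hXW : ∀ φ ∈ X, classInner (fun n : N => ((φ : IrrCharacter G) : G → ℂ) n) (θ : N → ℂ) ≠ 0 :=
    fun φ hφ => hφ.2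
  have hYW : ∀ φ ∈ Y, classInner (fun n : N => ((φ : IrrCharacter G) : G → ℂ) n) (θ : N → ℂ) ≠ 0 :=
    fun φ hφ => hφ.1
  have hXY : Disjoint X Y := by
    rw [Set.disjoint_left]
    rintro φ ⟨h1, -⟩ ⟨-, h2⟩
    exact h2 h1
  -- `fS X` vanishes at the `p`-singular elements
  have hX : Van p (fS X) := by
    have h1 : fS X = pr W (fS U) := by
      refine eq_pr (isClassFunction_fS X) (fun φ hφ => ?_) (fun φ hφ => ?_)
      · by_cases h : φ ∈ U
        · rw [classInner_fS_of_mem h, classInner_fS_of_mem (⟨h, hφ⟩ : φ ∈ X)]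
        · rw [classInner_fS_of_notMem h, classInner_fS_of_notMem (fun h' => h h'.1)]
      · exact classInner_fS_of_notMem fun h => hφ h.2
    rw [h1]
    exact van_pr p hM hW hU
  -- `fS W` is supported on `N`
  have hWind : fS W = (θ : N → ℂ) 1 • indFun N (θ : N → ℂ) := by
    symm
    refine eq_fS (isClassFunction_smul _ (isClassFunction_indFun N _)) (fun φ hφ => ?_)
      (fun φ hφ => ?_)
    · rw [classInner_smul_left, classInner_indFun_left N _ (isIrr_isClassFunction φ.2)]
      have h2 := S4492.restrict_eq_smul N φ.2 θ.2 hinv hφ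
      obtain ⟨k, hk⟩ := classInner_isNat (isCharacter_res N (isIrr_isCharacter φ.2))
        (isIrr_isCharacter θ.2)
      have h3 := congrFun h2 1
      have h4 : classInner (fun n : N => (φ : G → ℂ) n) (θ : N → ℂ) = k := hk
      rw [h4] at h3
      simp only [Pi.smul_apply, smul_eq_mul, Subgroup.coe_one] at h3
      rw [← classInner_conj_symm]
      have h5 : classInner (res N (φ : G → ℂ)) (θ : N → ℂ) = k := hk
      rw [h5, Complex.conj_natCast, h3, mul_comm]
    · rw [classInner_smul_left, classInner_indFun_left N _ (isIrr_isClassFunction φ.2),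
        ← classInner_conj_symm]
      have h5 : classInner (res N (φ : G → ℂ)) (θ : N → ℂ) = 0 := by
        by_contra h6
        exact hφ h6
      rw [h5, map_zero, mul_zero]
  have hWsum : fS W = fS X + fS Y := by
    symm
    refine eq_fS (isClassFunction_add (isClassFunction_fS X) (isClassFunction_fS Y))
      (fun φ hφ => ?_) (fun φ hφ => ?_)
    · rw [classInner_add_left]
      by_cases h : φ ∈ U
      · rw [classInner_fS_of_mem (U := X) ⟨h, hφ⟩,
          classInner_fS_of_notMem (U := Y) (fun h' => h'.2 h), add_zero]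
      · rw [classInner_fS_of_mem (U := Y) ⟨hφ, h⟩,
          classInner_fS_of_notMem (U := X) (fun h' => h h'.1), zero_add]
    · rw [classInner_add_left, classInner_fS_of_notMem (fun h => hφ h.2),
        classInner_fS_of_notMem (fun h => hφ h.1), add_zero]
  have hsum : ∀ g, g ∉ N → fS X g + fS Y g = 0 := by
    intro g hg
    have h1 := congrFun hWsum g
    rw [Pi.add_apply, hWind, Pi.smul_apply,
      CharactersDeep.NormalInd.indFun_of_not_mem N (θ : N → ℂ) hg, smul_zero] at h1
    exact h1.symm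
  have hY : Van p (fS Y) := by
    intro g hg
    have hgN : g ∉ N := fun h => hNp (hg.trans (by
      have := orderOf_dvd_natCard (⟨g, h⟩ : N)
      rwa [Subgroup.orderOf_mk] at this))
    have h1 := hsum g hgN
    rw [hX g hg, zero_add] at h1
    exact h1
  -- the cover
  obtain ⟨D, hDg, hDf, π, s, ψ, h1, h2, h3, h4, h5, h6, h7, h8⟩ := exists_cover p N hNp θ hinv
  let C : Cover p N (θ : N → ℂ) D := ⟨π, s, ψ, h1, h2, h3, h4, h5, h6, h7, h8⟩
  have hX' : Van p (fS (C.star X)) := C.star_van θ.2 hXW hX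
  have hY' : Van p (fS (C.star Y)) := C.star_van θ.2 hYW hY
  have hdisj : Disjoint (C.star X) (C.star Y) := C.star_disjoint hXY
  have hne : (C.star X).Nonempty ∧ (C.star Y).Nonempty :=
    ⟨C.star_nonempty θ.2 hXW ⟨χ, hχ, hθ⟩, C.star_nonempty θ.2 hYW ⟨χ₁, hθ₁, hχ₁U⟩⟩
  have hsum' := C.star_sum θ.2 hXW hYW hsum
  have hlin := C.star_lin (X := X) (Y := Y)
  have hcore := C.pPrimeCore_le hNdef
  have hsolv' := C.isPSolvable hsolv
  have hC : ∀ q : D ⧸ C.s.range, ¬ p ∣ orderOf q →
      (∀ x ∈ pCore p (D ⧸ C.s.range), x * q = q * x) → q ∈ C.Z := fun q hq h =>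
    hcore (mem_core p hsolv' (hcore.trans C.Z_le_center) hq h)
  by_cases hP : pCore p (D ⧸ C.s.range) = ⊥
  · refine final_step C.Z (C.star X) (C.star Y) hdisj hlin (fun q hq => ?_) hne
    by_cases hqr : p ∣ orderOf q
    · exact hX' q hqr
    · refine absurd (hC q hqr fun x hx => ?_) hq
      rw [hP, Subgroup.mem_bot] at hx
      rw [hx, one_mul, mul_one]
  · have hPn : (pCore p (D ⧸ C.s.range)).Normal := Lib.Cores.pCore_normal p
    refine central p hM (pCore p (D ⧸ C.s.range)) (Lib.Cores.pCore_isPGroup p)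
      (PLocal.PSolvable.isPSolvable_quotient hsolv' _) ?_ C.Z C.Z_le_center hC (C.star X)
      (C.star Y) hdisj hX' hY' hsum' hlin hne
    refine ih _ (PLocal.PSolvable.isPSolvable_quotient hsolv' _) ?_
    have hZn : C.Z.Normal := ⟨fun x hx g => by
      rw [Subgroup.mem_center_iff.1 (C.Z_le_center hx) g, mul_inv_cancel_right]
      exact hx⟩
    have hZp : ¬ p ∣ Nat.card C.Z := fun h => C.ker_p (h.trans (Subgroup.card_map_dvd _ _))
    refine ⟨C.Z.map (QuotientGroup.mk' (pCore p (D ⧸ C.s.range))),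
      hZn.map _ (QuotientGroup.mk'_surjective _), fun h => hZp (h.trans
        (Subgroup.card_map_dvd _ _)), ?_⟩
    rw [Subgroup.index_map, QuotientGroup.ker_mk', MonoidHom.range_eq_top.2
      (QuotientGroup.mk'_surjective _), Subgroup.index_top, mul_one]
    have e1 : C.Z.index ≤ n + 1 := by
      rw [C.index_Z]
      exact hNi
    have e2 : (C.Z ⊔ pCore p (D ⧸ C.s.range)).index < C.Z.index := by
      refine Subgroup.index_strictAnti ?_
      refine lt_of_le_of_ne le_sup_left fun h => hP ?_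
      have h9 : pCore p (D ⧸ C.s.range) ≤ C.Z := by
        rw [h]
        exact le_sup_right
      rw [eq_bot_iff]
      intro x hx
      rw [Subgroup.mem_bot]
      refine eq_one_of_regular (Lib.Cores.pCore_isPGroup p) hx fun h10 => hZp (h10.trans ?_)
      have := orderOf_dvd_natCard (⟨x, h9 hx⟩ : C.Z)
      rwa [Subgroup.orderOf_mk] at this
    omega

theorem main (p : ℕ) [Fact p.Prime] (M : Ideal AlgInt) (hM : IsPModular p M) (n : ℕ) :
    ∀ (G : Type u) [Group G] [Finite G], IsPSolvable p G →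
      (∃ L : Subgroup G, L.Normal ∧ ¬ p ∣ Nat.card L ∧ L.index ≤ n) →
      ∀ U : Set (IrrCharacter G), Van p (fS U) → Closed M U := by
  classical
  have hp : p.Prime := Fact.out
  have hprime : M.IsPrime := Blocks.Local.isPrime_of_isPModular hM
  induction n with
  | zero =>
    rintro G _ _ _ ⟨L, -, -, h⟩
    exact absurd (Nat.le_zero.1 h) Subgroup.index_ne_zero_of_finite
  | succ n ih =>
    rintro G _ _ hsolv ⟨L, hLn, hLp, hLi⟩ U hU χ hχ χ₁ hχ₁
    have := Fintype.ofFinite G
    obtain ⟨N, hNdef⟩ : ∃ N : Subgroup G, N = pPrimeCore p G := ⟨_, rfl⟩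
    have hN : N.Normal := hNdef ▸ Lib.Cores.pPrimeCore_normal p
    have hNp : ¬ p ∣ Nat.card N := by
      rw [hNdef]
      exact hp.coprime_iff_not_dvd.1 (Lib.Cores.pPrimeCore_coprime (G := G) p).symm
    have hLN : L ≤ N := by
      rw [hNdef]
      exact Lib.Cores.le_pPrimeCore hLn (hp.coprime_iff_not_dvd.2 hLp).symm
    have hNi : N.index ≤ n + 1 := by
      refine le_trans (Nat.le_of_dvd ?_ (Subgroup.index_dvd_of_le hLN)) hLi
      exact Nat.pos_of_ne_zero Subgroup.index_ne_zero_of_finite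
    have := Fintype.ofFinite N
    obtain ⟨θ, hθ⟩ := Blocks.Fong.exists_constituent N χ
    have hθ₁ : classInner (fun n : N => (χ₁ : G → ℂ) n) (θ : N → ℂ) ≠ 0 :=
      Blocks.PrimeNormal.constituent_of_sameBlock hM N hNp χ.2 χ₁.2 hχ₁ θ.2 hθ
    by_cases hinv : ∀ (g : G) (n : N),
        (θ : N → ℂ) ⟨g * n * g⁻¹, hN.conj_mem n n.2 g⟩ = (θ : N → ℂ) n
    · exact invariant_case p M hM n ih G hsolv N hNdef hNp hNi θ hinv U hU χ hχ hθ χ₁ hθ₁
    · -- the Clifford correspondence
      obtain ⟨T, hTdef⟩ : ∃ T : Subgroup G,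
        T = OddOrderCharacters.PF9.CliffGen.inertia N (θ : N → ℂ) := ⟨_, rfl⟩
      obtain ⟨b, hbdef⟩ : ∃ b : Set (IrrCharacter N), b = blockOf M (θ : N → ℂ) := ⟨_, rfl⟩
      have hb : IsPBlock M b := hbdef ▸ Blocks.Basic.isPBlock_blockOf θ
      have hbs : ∀ θ', θ' ∈ b ↔ θ' = θ := by
        intro θ'
        rw [hbdef]
        exact mem_blockOf_iff hM hNp θ θ'
      have hθb : θ ∈ b := (hbs θ).2 rfl
      have hst : H591.Reynolds.IsStab b T := by
        rw [hTdef, hbdef]
        exact isStab_inertia hM hNp θ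
      have hNT : N ≤ T := by
        rw [hTdef]
        exact OddOrderCharacters.PF9.CliffGen.le_inertia (isIrr_isClassFunction θ.2)
      have hTtop : T ≠ ⊤ := by
        intro h
        apply hinv
        intro g
        have h1 : g ∈ T := h ▸ Subgroup.mem_top g
        rw [hTdef] at h1
        exact OddOrderCharacters.PF9.CliffGen.mem_inertia'.1 h1
      have := Fintype.ofFinite T
      -- the characters of `T` over `θ`
      let W : Set (IrrCharacter T) := {ψ | classInner
        (OddOrderCharacters.PF9.CliffGen.resTo hNT (ψ : T → ℂ)) (θ : N → ℂ) ≠ 0}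
      have hW : Closed M W := by
        intro ψ hψ φ hφ
        obtain ⟨θ', hθ'⟩ := H591.Reynolds.exists_over hNT φ.2
        have h1 := H591.ReynoldsMain.over_of_mem p hM hb hst hNT
          (Blocks.Basic.isPBlock_blockOf ψ) (Blocks.Basic.mem_blockOf_self ψ) hθb hψ
          (ψ := φ) hφ hθ'
        rw [(hbs θ').1 h1] at hθ'
        exact hθ'
      have hirr : ∀ ψ ∈ W, IsIrrCharacter G (indFun T ((ψ : IrrCharacter T) : T → ℂ)) :=
        fun ψ hψ => H591.Reynolds.irr_ind hb hst hNT ψ.2 hθb hψ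
      let U' : Set (IrrCharacter T) :=
        {ψ | ψ ∈ W ∧ ∃ φ ∈ U, (φ : G → ℂ) = indFun T (ψ : T → ℂ)}
      have hT0 : (T.index : ℂ) ≠ 0 := by
        have : T.index ≠ 0 := Subgroup.index_ne_zero_of_finite
        exact_mod_cast this
      have hU' : Van p (fS U') := by
        have h1 : (T.index : ℂ) • fS U' = pr W (res T (fS U)) := by
          refine eq_pr (isClassFunction_smul _ (isClassFunction_fS U')) (fun ψ hψ => ?_)
            (fun ψ hψ => ?_)
          · rw [classInner_smul_left, ← classInner_indFun_right T _ (isClassFunction_fS U)]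
            by_cases h : ψ ∈ U'
            · obtain ⟨φ, hφ, h2⟩ := h.2
              rw [classInner_fS_of_mem h, ← h2, classInner_fS_of_mem hφ, h2, indFun_apply_one]
            · rw [classInner_fS_of_notMem h, mul_zero]
              symm
              refine classInner_fS_of_notMem (χ := ⟨_, hirr ψ hψ⟩) fun h2 => h ⟨hψ, _, h2, rfl⟩
          · rw [classInner_smul_left, classInner_fS_of_notMem (fun h => hψ h.1), mul_zero]
        have h2 : Van p (pr W (res T (fS U))) := van_pr p hM hW (van_res hU T)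
        intro t ht
        have h3 := h2 t ht
        rw [← h1, Pi.smul_apply, smul_eq_mul] at h3
        exact (mul_eq_zero.1 h3).resolve_left hT0
      have hcl : Closed M U' := by
        refine ih T (PLocal.PSolvable.isPSolvable_subgroup hsolv T) ⟨N.subgroupOf T, inferInstance,
          ?_, ?_⟩ U' hU'
        · rwa [Nat.card_congr (Subgroup.subgroupOfEquivOfLe hNT).toEquiv]
        · have h1 : N.relIndex T * T.index = N.index := Subgroup.relIndex_mul_index hNT
          have h2 : T.index ≠ 1 := fun h => hTtop (Subgroup.index_eq_one.1 h)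
          have h3 : T.index ≠ 0 := Subgroup.index_ne_zero_of_finite
          have h4 : N.relIndex T ≠ 0 := by
            intro h
            rw [h, zero_mul] at h1
            exact Subgroup.index_ne_zero_of_finite h1.symm
          have h5 : 2 ≤ T.index := by omega
          have h6 : N.relIndex T * 2 ≤ N.index := by
            rw [← h1]
            exact Nat.mul_le_mul_left _ h5
          show N.relIndex T ≤ n
          omega
      obtain ⟨ψ, hψ, hχψ⟩ := H591.ReynoldsMain.exists_ind hprime hb hst hNT hθb hθ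
      obtain ⟨ψ₁, hψ₁, hχψ₁⟩ := H591.ReynoldsMain.exists_ind hprime hb hst hNT hθb hθ₁
      have h1 : ψ ∈ U' := ⟨hψ, χ, hχ, hχψ⟩
      rw [hχψ, hχψ₁] at hχ₁
      have h2 : SameBlock M (ψ : T → ℂ) (ψ₁ : T → ℂ) :=
        H591.Reynolds.sameBlock_of_ind p hM hb hst hNT ψ.2 ψ₁.2 hθb hθb hψ hψ₁ hχ₁
      obtain ⟨-, φ, hφ, h3⟩ := hcl ψ h1 ψ₁ h2
      have h4 : χ₁ = φ := Subtype.ext (hχψ₁.trans h3.symm)
      rw [h4]
      exact hφ

end Cfsg.Agent.H592.Har
end

-- part: S4440
section
-- import your own Cfsg.Agent.* helpers here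

set_option autoImplicit false
open Cfsg

namespace Cfsg.Agent.S4440

/-- Let G be a finite p-solvable group and fix a maximal ideal M of the algebraic integers containing p. Let U be a set of irreducible characters of G such that the class function Σ_{χ ∈ U} χ(1)·χ vanishes at every p-singular element of G. Then U is a union of p-blocks: if χ ∈ U and ψ lies in the same block as χ, then ψ ∈ U. -/
theorem result {G : Type*} [Group G] [Finite G] (p : ℕ) [Fact p.Prime] (M : Ideal Cfsg.AlgInt) (hM : Cfsg.IsPModular p M) (hsolv : Cfsg.IsPSolvable p G) (U : Set (Cfsg.IrrCharacter G)) (hU : ∀ x : G, p ∣ orderOf x → ∑ᶠ χ ∈ U, (χ : G → ℂ) 1 * (χ : G → ℂ) x = 0) (χ : Cfsg.IrrCharacter G) (hχ : χ ∈ U) (ψ : Cfsg.IrrCharacter G) (hψ : Cfsg.SameBlock M (χ : G → ℂ) (ψ : G → ℂ)) : ψ ∈ U := by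
  have hp : p.Prime := Fact.out
  exact Cfsg.Agent.H592.Har.main p M hM (⊥ : Subgroup G).index G hsolv
    ⟨⊥, inferInstance, by rw [Subgroup.card_bot]; exact hp.one_lt.ne' ∘ Nat.dvd_one.1, le_rfl⟩
    U hU χ hχ ψ hψ

end Cfsg.Agent.S4440
end
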