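import Mathlib
import Cfsg.Prelude.Def_Blocks
import Cfsg.Prelude.Def_Local
import Cfsg.Agent.H593.Robinson1
import Cfsg.Agent.H593.RobinsonRank
import Cfsg.Agent.Blocks.Osima
import Cfsg.Agent.S0907
import Cfsg.Agent.S0908
import Cfsg.Agent.S0911
import Cfsg.Agent.S0912
import Cfsg.Agent.S0957
import Cfsg.Statements.S4443
set_option linter.all false

-- part: H593/Robinson2
section
/-!
# Robinson's count of blocks with a normal defect group: the reduction modulo `p`
-/

set_option autoImplicit false
set_option linter.unusedSectionVars false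
set_option linter.unusedVariables false

namespace Cfsg.Agent.H593.Robinson

open Cfsg
open scoped ComplexConjugate
open Cfsg.Agent.Blocks.Local
open Cfsg.Agent.Blocks.Basic
open Cfsg.Agent.Characters.Core

variable {G : Type*} [Group G]

/-- The characters with `D` in the kernel and degree divisible by `q`. -/
def InX (D : Subgroup G) (q : ℕ) (χ : G → ℂ) : Prop :=
  (∀ x ∈ D, ∀ g : G, χ (x * g) = χ g) ∧ q ∣ charDegree χ

/-- The weight `χ(1)² |D| / (|G| q)`. -/
noncomputable def kappa (D : Subgroup G) (q : ℕ) (χ : G → ℂ) : ℂ :=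
  χ 1 ^ 2 * (Nat.card D : ℂ) / ((Nat.card G : ℂ) * (q : ℂ))

section

variable [Fintype G] {p : ℕ} [hp : Fact p.Prime] {M : Ideal AlgInt}

theorem factorization_quot (D : Subgroup G) [D.Normal] :
    (Nat.card (G ⧸ D)).factorization p =
      (Nat.card G).factorization p - (Nat.card D).factorization p := by
  have h := Subgroup.card_eq_card_quotient_mul_card_subgroup D
  rw [h, Nat.factorization_mul Nat.card_pos.ne' Nat.card_pos.ne']
  simp

theorem factorization_pow_self' (n : ℕ) : (p ^ n).factorization p = n := by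
  rw [hp.out.factorization_pow]
  simp

theorem card_sylow_factorization (S : Sylow p G) :
    (Nat.card S).factorization p = (Nat.card G).factorization p := by
  rw [S.card_eq_multiplicity, factorization_pow_self']

theorem isIntegral_irr' {χ : G → ℂ} (hχ : IsIrrCharacter G χ) (g : G) : IsIntegral ℤ (χ g) :=
  Cfsg.Agent.Blocks.DefectCard.isIntegral_irr hχ g

theorem memLocalRing_irr (hM : IsPModular p M) {χ : G → ℂ} (hχ : IsIrrCharacter G χ) (g : G) :
    MemLocalRing M (χ g) := by
  have := isPrime_of_isPModular hM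
  exact memLocalRing_algInt (M := M) ⟨χ g, isIntegral_irr' hχ g⟩

theorem memLocalRing_centralChar' (hM : IsPModular p M) {χ : G → ℂ} (hχ : IsIrrCharacter G χ)
    (g : G) : MemLocalRing M (centralChar χ g) := by
  have := isPrime_of_isPModular hM
  exact memLocalRing_algInt (M := M)
    ⟨centralChar χ g, Cfsg.Agent.Blocks.ConvCentral.isIntegral_centralChar hχ g⟩

theorem memLocalRing_kappa (hM : IsPModular p M) (D : Subgroup G) [D.Normal] {χ : G → ℂ}
    (hχ : IsIrrCharacter G χ)
    (h : InX D (p ^ ((Nat.card G).factorization p - (Nat.card D).factorization p)) χ) :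
    MemLocalRing M
      (kappa D (p ^ ((Nat.card G).factorization p - (Nat.card D).factorization p)) χ) := by
  have := isPrime_of_isPModular hM
  set q := p ^ ((Nat.card G).factorization p - (Nat.card D).factorization p) with hq
  have hD : (Nat.card D).factorization p ≤ (Nat.card G).factorization p :=
    (Nat.factorization_le_iff_dvd Nat.card_pos.ne' Nat.card_pos.ne').2
      (Subgroup.card_subgroup_dvd_card D) p
  obtain ⟨k, hk⟩ := h.2
  have hq0 : q ≠ 0 := pow_ne_zero _ hp.out.ne_zero
  have h1 : kappa D q χ = ((k ^ 2 * (q * Nat.card D) : ℕ) : ℂ) / ((Nat.card G : ℕ) : ℂ) := by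
    rw [kappa, irr_one_eq_charDegree hχ, hk]
    have hqC : (q : ℂ) ≠ 0 := Nat.cast_ne_zero.2 hq0
    have h2 : (Nat.card G : ℂ) ≠ 0 := Nat.cast_ne_zero.2 Nat.card_pos.ne'
    push_cast
    field_simp
  rw [h1]
  by_cases hk0 : k = 0
  · subst hk0
    simpa using memLocalRing_zero (M := M)
  refine Cfsg.Agent.Blocks.DefectCard.memLocalRing_natDiv hM Nat.card_pos.ne' ?_
  rw [Nat.factorization_mul (pow_ne_zero _ hk0) (mul_ne_zero hq0 Nat.card_pos.ne'),
    Nat.factorization_mul hq0 Nat.card_pos.ne', Finsupp.add_apply, Finsupp.add_apply, hq,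
    factorization_pow_self']
  omega

open Classical in
/-- The contribution of one character, modulo the local ideal. -/
theorem term_congr (hM : IsPModular p M) (D : Subgroup G) [D.Normal] (hD : IsPGroup p D)
    (S : Sylow p G) [Fintype S] {χ : G → ℂ} (hχ : IsIrrCharacter G χ) (u v : G)
    (hu : (Subgroup.centralizer ({u} : Set G)).index.factorization p =
      (Nat.card G).factorization p - (Nat.card D).factorization p)
    (hv : (Subgroup.centralizer ({v} : Set G)).index.factorization p =
      (Nat.card G).factorization p - (Nat.card D).factorization p) :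
    MemLocalIdeal M (χ 1 / (Nat.card G : ℂ) * centralChar χ v * centralChar χ u *
        (∑ s : S, conj (χ s)) /
        ((p ^ ((Nat.card G).factorization p - (Nat.card D).factorization p) : ℕ) : ℂ) -
      if InX D (p ^ ((Nat.card G).factorization p - (Nat.card D).factorization p)) χ then
        kappa D (p ^ ((Nat.card G).factorization p - (Nat.card D).factorization p)) χ *
          centralChar χ v * centralChar χ u else 0) := by
  have hprime := isPrime_of_isPModular hM
  have := Fintype.ofFinite D
  set q := p ^ ((Nat.card G).factorization p - (Nat.card D).factorization p) with hq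
  have hq0 : q ≠ 0 := pow_ne_zero _ hp.out.ne_zero
  have hqC : (q : ℂ) ≠ 0 := Nat.cast_ne_zero.2 hq0
  have hGC : (Nat.card G : ℂ) ≠ 0 := Nat.cast_ne_zero.2 Nat.card_pos.ne'
  have hχ1 : χ 1 ≠ 0 := irr_one_ne_zero hχ
  have hDS : D ≤ S := hD.le_sylow_of_normal S
  by_cases hX : InX D q χ
  · rw [if_pos hX]
    have hR : ∑ s : S, conj (χ s) = (Nat.card D : ℂ) * χ 1 := by
      refine sum_sylow_of_defect_zero p D S S.2 hDS hχ hX.1 ?_
      rw [factorization_quot]
      exact hX.2
    rw [hR, kappa]
    have h0 : χ 1 / (Nat.card G : ℂ) * centralChar χ v * centralChar χ u *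
        ((Nat.card D : ℂ) * χ 1) / (q : ℂ) -
        χ 1 ^ 2 * (Nat.card D : ℂ) / ((Nat.card G : ℂ) * (q : ℂ)) * centralChar χ v *
          centralChar χ u = 0 := by
      field_simp
      ring
    rw [h0]
    exact memLocalIdeal_zero
  · rw [if_neg hX, sub_zero]
    rcases dichotomy D hχ with hker | hzero
    · have hnq : ¬ q ∣ charDegree χ := fun h => hX ⟨hker, h⟩
      have hlt : (charDegree χ).factorization p <
          (Nat.card G).factorization p - (Nat.card D).factorization p := by
        by_contra hcon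
        push Not at hcon
        exact hnq ((pow_dvd_pow p hcon).trans (Nat.ordProj_dvd _ _))
      obtain ⟨r, hr⟩ := sum_subgroup_nat (S : Subgroup G) hχ
      have hr' : ∑ s : S, conj (χ s) = (Nat.card S : ℂ) * r := hr
      have hdeg : χ 1 = (charDegree χ : ℂ) := irr_one_eq_charDegree hχ
      have heq : χ 1 / (Nat.card G : ℂ) * centralChar χ v * centralChar χ u *
          (∑ s : S, conj (χ s)) / (q : ℂ) =
          (((Nat.card S : ℕ) : ℂ) / ((Nat.card G : ℕ) : ℂ)) *
            ((((Subgroup.centralizer ({v} : Set G)).index : ℕ) : ℂ) / ((q : ℕ) : ℂ)) * χ v * χ u *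
            (r : ℂ) * ((((Subgroup.centralizer ({u} : Set G)).index : ℕ) : ℂ) /
              ((charDegree χ : ℕ) : ℂ)) := by
        rw [hr', centralChar_def, centralChar_def, ← hdeg]
        field_simp
      rw [heq]
      refine memLocalIdeal_mul_left ?_ ?_
      · refine memLocalRing_mul (memLocalRing_mul (memLocalRing_mul (memLocalRing_mul ?_ ?_)
          (memLocalRing_irr hM hχ v)) (memLocalRing_irr hM hχ u)) (memLocalRing_natCast r)
        · refine Cfsg.Agent.Blocks.DefectCard.memLocalRing_natDiv hM Nat.card_pos.ne' ?_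
          rw [card_sylow_factorization]
        · refine Cfsg.Agent.Blocks.DefectCard.memLocalRing_natDiv hM hq0 ?_
          rw [hv, hq, factorization_pow_self']
      · refine Cfsg.Agent.Blocks.DefectCard.memLocalIdeal_natDiv hM (charDegree_pos hχ).ne' ?_
        rw [hu]
        exact hlt
    · have hR : ∑ s : S, conj (χ s) = 0 :=
        sum_sylow_of_sum_zero D (S : Subgroup G) hDS hzero
      rw [hR, mul_zero, zero_div]
      exact memLocalIdeal_zero

open Classical in
/-- The number of pairs modulo the local ideal. -/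
theorem pairs_congr [Fintype (IrrCharacter G)] (hM : IsPModular p M) (D : Subgroup G) [D.Normal]
    (hD : IsPGroup p D)
    (S : Sylow p G) (u v : G)
    (hu : (Subgroup.centralizer ({u⁻¹} : Set G)).index.factorization p =
      (Nat.card G).factorization p - (Nat.card D).factorization p)
    (hv : (Subgroup.centralizer ({v} : Set G)).index.factorization p =
      (Nat.card G).factorization p - (Nat.card D).factorization p) :
    MemLocalIdeal M ((Nat.card {yz : G × G // IsConj u yz.1 ∧ IsConj v yz.2 ∧
        yz.2 * yz.1⁻¹ ∈ (S : Subgroup G)} : ℂ) /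
        ((p ^ ((Nat.card G).factorization p - (Nat.card D).factorization p) : ℕ) : ℂ) -
      ∑ χ : IrrCharacter G,
        if InX D (p ^ ((Nat.card G).factorization p - (Nat.card D).factorization p))
          (χ : G → ℂ) then
        kappa D (p ^ ((Nat.card G).factorization p - (Nat.card D).factorization p)) (χ : G → ℂ) *
          centralChar (χ : G → ℂ) v * centralChar (χ : G → ℂ) u⁻¹ else 0) := by
  have hprime := isPrime_of_isPModular hM
  have := Fintype.ofFinite S
  rw [card_pairs (S : Subgroup G) u v, Finset.sum_div]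
  exact memLocalIdeal_sum_sub_sum fun χ _ => term_congr hM D hD S χ.2 u⁻¹ v hu hv

end

end Cfsg.Agent.H593.Robinson
end

-- part: H593/Robinson3
section
/-!
# Robinson's count of blocks with a normal defect group: blocks
-/

set_option autoImplicit false
set_option linter.unusedSectionVars false
set_option linter.unusedVariables false

namespace Cfsg.Agent.H593.Robinson

open Cfsg
open scoped ComplexConjugate
open Cfsg.Agent.Blocks.Local
open Cfsg.Agent.Blocks.Basic
open Cfsg.Agent.Characters.Core

variable {G : Type*} [Group G]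

section

variable [Fintype G] {p : ℕ} [hp : Fact p.Prime] {M : Ideal AlgInt}

theorem map_conj_normal (D : Subgroup G) [D.Normal] (x : G) :
    D.map (MulAut.conj x).toMonoidHom = D := by
  have := Subgroup.Normal.map_conj_eq (H := D) x
  exact this

theorem card_map_subtype {g : G} (P : Sylow p (Subgroup.centralizer ({g} : Set G))) :
    Nat.card ((P : Subgroup (Subgroup.centralizer ({g} : Set G))).map
      (Subgroup.centralizer ({g} : Set G)).subtype) =
      p ^ (Nat.card (Subgroup.centralizer ({g} : Set G))).factorization p := by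
  rw [← P.card_eq_multiplicity]
  exact (Nat.card_congr ((P : Subgroup (Subgroup.centralizer ({g} : Set G))).equivMapOfInjective
    _ (Subgroup.subtype_injective _)).toEquiv).symm

/-- The exponent of `p` in the class size. -/
theorem index_factorization {g : G} {D : Subgroup G} (h : IsSylowCentralizer p g D) :
    (Subgroup.centralizer ({g} : Set G)).index.factorization p =
      (Nat.card G).factorization p - (Nat.card D).factorization p := by
  obtain ⟨P, rfl⟩ := h
  rw [card_map_subtype, factorization_pow_self',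
    ← Subgroup.card_mul_index (Subgroup.centralizer ({g} : Set G)),
    Nat.factorization_mul Nat.card_pos.ne' Subgroup.index_ne_zero_of_finite]
  simp

theorem sylowCentralizer_of_coeff (hM : IsPModular p M) {b : Set (IrrCharacter G)}
    (hb : IsPBlock M b) {D : Subgroup G} [D.Normal] (hD : IsDefectGroup p M b D) {g : G}
    {b' : Set (IrrCharacter G)} (hb' : IsPBlock M b') (hD' : IsDefectGroup p M b' D)
    (h1 : ¬ MemLocalIdeal M (blockCoeff b g)) {χ : IrrCharacter G} (hχ : χ ∈ b')
    (h2 : ¬ MemLocalIdeal M (centralChar (χ : G → ℂ) g)) : IsSylowCentralizer p g D := by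
  obtain ⟨k, hk, P, hP⟩ := hD
  obtain ⟨k', hk', P', hP'⟩ := hD'
  obtain ⟨x, Q, hQ⟩ := (Cfsg.Agent.S0911.result p M hM b hb k hk P g).1
    (Cfsg.Agent.Blocks.Osima.memLocalRing_blockCoeff hM hb g) h1
  obtain ⟨x', Q', hQ'⟩ := (Cfsg.Agent.S0911.result p M hM b' hb' k' hk' P' g).2 ⟨χ, hχ, h2⟩
  rw [← hP, map_conj_normal] at hQ
  rw [← hP', map_conj_normal] at hQ'
  refine ⟨Q', ?_⟩
  refine Subgroup.eq_of_le_of_card_ge hQ' ?_
  rw [card_map_subtype, ← card_map_subtype Q]
  exact Subgroup.card_le_of_le hQ

theorem regular_of_coeff (hM : IsPModular p M) {b : Set (IrrCharacter G)}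
    (hb : IsPBlock M b) {g : G} (h : blockCoeff b g ≠ 0) : ¬ p ∣ orderOf g := by
  intro hg
  apply h
  rw [blockCoeff_def, Cfsg.Agent.S0907.result p M hM b hb 1 g (by simpa using hp.out.one_lt.ne') hg,
    mul_zero]

theorem dvd_of_mem (hM : IsPModular p M) {b : Set (IrrCharacter G)}
    (hb : IsPBlock M b) {D : Subgroup G} (hD : IsDefectGroup p M b D) {χ : IrrCharacter G}
    (hχ : χ ∈ b) : p ^ ((Nat.card G).factorization p - (Nat.card D).factorization p) ∣
      charDegree (χ : G → ℂ) := by
  have h1 := Cfsg.Agent.S0908.result p M hM b hb D hD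
  have h2 : (Nat.card D).factorization p = blockDefect p b := by
    rw [h1, factorization_pow_self']
  rw [blockDefect_def] at h2
  have h3 : sInf ((fun χ : IrrCharacter G => (charDegree (χ : G → ℂ)).factorization p) '' b) ≤
      (charDegree (χ : G → ℂ)).factorization p := Nat.sInf_le ⟨χ, hχ, rfl⟩
  have h4 : (charDegree (χ : G → ℂ)).factorization p ≤ (Nat.card G).factorization p :=
    (Nat.factorization_le_iff_dvd (charDegree_pos χ.2).ne' Nat.card_pos.ne').2
      (Cfsg.Agent.H593.GlaubermanP.charDegree_dvd χ.2) p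
  refine (pow_dvd_pow p ?_).trans (Nat.ordProj_dvd (charDegree (χ : G → ℂ)) p)
  omega

/-- A character whose block does not have `D` as a defect group. -/
theorem ideal_of_not_defect (hM : IsPModular p M) (D : Subgroup G) [D.Normal] (hD : IsPGroup p D)
    {b : Set (IrrCharacter G)} (hb : IsPBlock M b) (hbD : ¬ IsDefectGroup p M b D)
    {χ : IrrCharacter G} (hχ : χ ∈ b) {g : G} (hg : IsSylowCentralizer p g D) :
    MemLocalIdeal M (centralChar (χ : G → ℂ) g) := by
  by_contra h
  obtain ⟨k, hk⟩ := Cfsg.Agent.Blocks.Osima.exists_isDefectClass hM hb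
  obtain ⟨P⟩ : Nonempty (Sylow p (Subgroup.centralizer ({k} : Set G))) := inferInstance
  set D' := (P : Subgroup (Subgroup.centralizer ({k} : Set G))).map
      (Subgroup.centralizer ({k} : Set G)).subtype with hD'
  have hdef : IsDefectGroup p M b D' := ⟨k, hk, P, rfl⟩
  have h1 : D ≤ D' := by
    refine le_trans ?_ (Cfsg.Agent.S0912.result p M hM b hb D' hdef)
    exact le_sSup (show D ∈ {N : Subgroup G | N.Normal ∧ IsPGroup p N} from ⟨inferInstance, hD⟩)
  obtain ⟨x, Q, hQ⟩ := (Cfsg.Agent.S0911.result p M hM b hb k hk P g).2 ⟨χ, hχ, h⟩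
  obtain ⟨Q', hQ'⟩ := hg
  have h2 : Nat.card D' ≤ Nat.card D := by
    have e1 : Nat.card D = Nat.card ((Q : Subgroup (Subgroup.centralizer ({g} : Set G))).map
        (Subgroup.centralizer ({g} : Set G)).subtype) := by
      rw [hQ', card_map_subtype, card_map_subtype]
    rw [e1]
    refine le_trans (le_of_eq ?_) (Subgroup.card_le_of_le hQ)
    exact Nat.card_congr (D'.equivMapOfInjective _ (MulAut.conj x).injective).toEquiv
  have h3 : D = D' := Subgroup.eq_of_le_of_card_ge h1 h2
  exact hbD (h3 ▸ hdef)

open Classical in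
/-- The block weight. -/
noncomputable def kap [Fintype (IrrCharacter G)] [M.IsPrime] (D : Subgroup G) (q : ℕ)
    (b : Set (IrrCharacter G)) : ResField M :=
  ∑ χ : IrrCharacter G, if χ ∈ b ∧ InX D q (χ : G → ℂ) then redC M (kappa D q (χ : G → ℂ)) else 0

open Classical in
theorem blockCoeff_eq [Fintype (IrrCharacter G)] (hM : IsPModular p M) {b : Set (IrrCharacter G)}
    (hb : IsPBlock M b) {D : Subgroup G} [D.Normal] (hD : IsPGroup p D)
    (hbD : IsDefectGroup p M b D) {g : G} (hg : ¬ p ∣ orderOf g) (hgD : IsSylowCentralizer p g D) :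
    blockCoeff b g =
      (((p ^ ((Nat.card G).factorization p - (Nat.card D).factorization p) : ℕ) : ℂ) /
        (((Subgroup.centralizer ({g} : Set G)).index : ℕ) : ℂ)) *
        ∑ χ : IrrCharacter G, if χ ∈ b ∧
          InX D (p ^ ((Nat.card G).factorization p - (Nat.card D).factorization p)) (χ : G → ℂ) then
          kappa D (p ^ ((Nat.card G).factorization p - (Nat.card D).factorization p)) (χ : G → ℂ) *
            centralChar (χ : G → ℂ) g⁻¹ else 0 := by
  have := Fintype.ofFinite D
  set q := p ^ ((Nat.card G).factorization p - (Nat.card D).factorization p) with hq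
  have hq0 : q ≠ 0 := pow_ne_zero _ hp.out.ne_zero
  have hqC : (q : ℂ) ≠ 0 := Nat.cast_ne_zero.2 hq0
  have hGC : (Nat.card G : ℂ) ≠ 0 := Nat.cast_ne_zero.2 Nat.card_pos.ne'
  have hKC : ((Subgroup.centralizer ({g} : Set G)).index : ℂ) ≠ 0 :=
    Nat.cast_ne_zero.2 Subgroup.index_ne_zero_of_finite
  -- the sum over the coset
  have h1 : blockCoeff b g = ∑ x : D, blockCoeff b (x * g) := by
    rw [Finset.sum_eq_single (1 : D)]
    · simp
    · intro x _ hx
      by_contra hne
      refine regular_of_coeff hM hb hne ?_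
      have hcomm : Commute (x : G) g := by
        have := le_centralizer_of_isSylowCentralizer hgD x.2
        rw [Subgroup.mem_centralizer_singleton_iff] at this
        exact this
      have hcop : (orderOf (x : G)).Coprime (orderOf g) := by
        obtain ⟨k, hk⟩ := (IsPGroup.iff_orderOf.1 hD) x
        rw [Subgroup.orderOf_coe, hk]
        exact Nat.Coprime.pow_left _ ((Nat.Prime.coprime_iff_not_dvd hp.out).2 hg)
      rw [hcomm.orderOf_mul_eq_mul_orderOf_of_coprime hcop]
      refine Dvd.dvd.mul_right ?_ _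
      obtain ⟨k, hk⟩ := (IsPGroup.iff_orderOf.1 hD) x
      rw [Subgroup.orderOf_coe, hk]
      refine dvd_pow_self p ?_
      rintro rfl
      rw [pow_zero, orderOf_eq_one_iff] at hk
      exact hx hk
    · intro h
      exact absurd (Finset.mem_univ _) h
  have h2 : ∀ y : G, blockCoeff b y = (Nat.card G : ℂ)⁻¹ * ∑ χ : IrrCharacter G,
      if χ ∈ b then (χ : G → ℂ) 1 * conj ((χ : G → ℂ) y) else 0 := fun y =>
    Cfsg.Agent.Blocks.Osima.blockCoeff_eq_sum b y
  rw [h1]
  simp only [h2]
  rw [← Finset.mul_sum, Finset.sum_comm, Finset.mul_sum, Finset.mul_sum]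
  refine Finset.sum_congr rfl fun χ _ => ?_
  by_cases hχb : χ ∈ b
  · have hdvd : q ∣ charDegree (χ : G → ℂ) := dvd_of_mem hM hb hbD hχb
    have h3 : ∑ x : D, (if χ ∈ b then (χ : G → ℂ) 1 * conj ((χ : G → ℂ) (x * g)) else 0) =
        (χ : G → ℂ) 1 * conj (∑ x : D, (χ : G → ℂ) (x * g)) := by
      rw [map_sum, Finset.mul_sum]
      exact Finset.sum_congr rfl fun x _ => if_pos hχb
    rw [h3]
    rcases dichotomy D χ.2 with hker | hzero
    · rw [if_pos ⟨hχb, hker, hdvd⟩]
      have h4 : ∑ x : D, (χ : G → ℂ) (x * g) = (Nat.card D : ℂ) * (χ : G → ℂ) g := by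
        rw [Finset.sum_congr rfl fun (x : D) _ => hker x x.2 g, Finset.sum_const, nsmul_eq_mul,
          Nat.card_eq_fintype_card, Finset.card_univ]
      have h5 : conj ((χ : G → ℂ) g) = (χ : G → ℂ) g⁻¹ :=
        (isCharacter_apply_inv (isIrr_isCharacter χ.2) g).symm
      have h6 : (Subgroup.centralizer ({g⁻¹} : Set G)).index =
          (Subgroup.centralizer ({g} : Set G)).index := by
        congr 1
        ext x
        rw [Subgroup.mem_centralizer_singleton_iff, Subgroup.mem_centralizer_singleton_iff]
        constructor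
        · intro h
          have := congrArg (fun y => g * y * g) h
          have h7 : g * (x * g⁻¹) * g = g * x := by group
          have h8 : g * (g⁻¹ * x) * g = x * g := by group
          rw [h7, h8] at this
          exact this.symm
        · intro h
          have := congrArg (fun y => g⁻¹ * y * g⁻¹) h
          have h7 : g⁻¹ * (x * g) * g⁻¹ = g⁻¹ * x := by group
          have h8 : g⁻¹ * (g * x) * g⁻¹ = x * g⁻¹ := by group
          rw [h7, h8] at this
          exact this.symm
      have hχ1 : (χ : G → ℂ) 1 ≠ 0 := irr_one_ne_zero χ.2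
      rw [h4, map_mul, Complex.conj_natCast, h5, kappa, centralChar_def, h6]
      field_simp
    · rw [if_neg (fun h => ?_), hzero, map_zero, mul_zero, mul_zero]
      rw [mul_zero]
      have h9 := hzero 1
      rw [Finset.sum_congr rfl fun (x : D) _ => h.2.1 x x.2 1, Finset.sum_const,
        nsmul_eq_mul] at h9
      rcases mul_eq_zero.1 h9 with h9 | h9
      · rw [Finset.card_univ] at h9
        exact absurd h9 (Nat.cast_ne_zero.2 Fintype.card_ne_zero)
      · exact irr_one_ne_zero χ.2 h9
  · rw [if_neg (fun h => hχb h.1), mul_zero]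
    simp [hχb]

open Classical in
/-- The block weight does not vanish. -/
theorem kap_ne_zero [Fintype (IrrCharacter G)] [hprime : M.IsPrime] (hM : IsPModular p M)
    {b : Set (IrrCharacter G)}
    (hb : IsPBlock M b) {D : Subgroup G} [D.Normal] (hD : IsPGroup p D)
    (hbD : IsDefectGroup p M b D) :
    kap (M := M) D (p ^ ((Nat.card G).factorization p - (Nat.card D).factorization p)) b ≠ 0 := by
  set q := p ^ ((Nat.card G).factorization p - (Nat.card D).factorization p) with hq
  have hq0 : q ≠ 0 := pow_ne_zero _ hp.out.ne_zero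
  obtain ⟨g, hg, hgD⟩ := isDefectGroup_iff.1 hbD
  have hg0 : blockCoeff b g ≠ 0 := fun h => hg.2.1 (by rw [h]; exact memLocalIdeal_zero)
  have hreg := regular_of_coeff hM hb hg0
  have h1 := blockCoeff_eq hM hb hD hbD hreg hgD
  rw [← hq] at h1
  obtain ⟨ξ, hξ⟩ := isPBlock_nonempty hb
  have hmem : ∀ χ : IrrCharacter G, MemLocalRing M (if χ ∈ b ∧ InX D q (χ : G → ℂ) then
      kappa D q (χ : G → ℂ) * centralChar (χ : G → ℂ) g⁻¹ else 0) := by
    intro χ
    split_ifs with h
    · exact memLocalRing_mul (memLocalRing_kappa hM D χ.2 h.2) (memLocalRing_centralChar' hM χ.2 _)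
    · exact memLocalRing_zero
  intro h0
  apply hg.2.1
  rw [h1]
  refine memLocalIdeal_mul_left ?_ ?_
  · refine Cfsg.Agent.Blocks.DefectCard.memLocalRing_natDiv hM
      Subgroup.index_ne_zero_of_finite ?_
    rw [index_factorization hgD, hq, factorization_pow_self']
  · rw [← redC_eq_zero_iff (memLocalRing_sum fun χ _ => hmem χ), redC_sum fun χ _ => hmem χ]
    have h2 : ∀ χ : IrrCharacter G, redC M (if χ ∈ b ∧ InX D q (χ : G → ℂ) then
        kappa D q (χ : G → ℂ) * centralChar (χ : G → ℂ) g⁻¹ else 0) =
        (if χ ∈ b ∧ InX D q (χ : G → ℂ) then redC M (kappa D q (χ : G → ℂ)) else 0) *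
          redC M (centralChar (ξ : G → ℂ) g⁻¹) := by
      intro χ
      split_ifs with h
      · rw [redC_mul (memLocalRing_kappa hM D χ.2 h.2) (memLocalRing_centralChar' hM χ.2 _)]
        congr 1
        rw [redC_eq_iff (memLocalRing_centralChar' hM χ.2 _) (memLocalRing_centralChar' hM ξ.2 _)]
        exact isPBlock_sameBlock hb h.1 hξ g⁻¹
      · rw [redC_zero, zero_mul]
    rw [Finset.sum_congr rfl fun χ _ => h2 χ, ← Finset.sum_mul]
    have h3 : ∑ χ : IrrCharacter G, (if χ ∈ b ∧ InX D q (χ : G → ℂ) then
        redC M (kappa D q (χ : G → ℂ)) else 0) = 0 := h0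
    rw [h3, zero_mul]

end

end Cfsg.Agent.H593.Robinson
end

-- part: H593/Robinson4
section
/-!
# Robinson's count of blocks with a normal defect group: the matrix
-/

set_option autoImplicit false
set_option linter.unusedSectionVars false
set_option linter.unusedVariables false

namespace Cfsg.Agent.H593.Robinson

open Cfsg
open scoped ComplexConjugate
open Cfsg.Agent.Blocks.Local
open Cfsg.Agent.Blocks.Basic
open Cfsg.Agent.Characters.Core

variable {G : Type*} [Group G]

section

variable [Fintype G] {p : ℕ} [hp : Fact p.Prime] {M : Ideal AlgInt} [hprime : M.IsPrime]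

/-- The blocks with defect group `D`. -/
abbrev Bl (p : ℕ) (M : Ideal AlgInt) (D : Subgroup G) : Type _ :=
  {b : Set (IrrCharacter G) // IsPBlock M b ∧ IsDefectGroup p M b D}

/-- A member of the block. -/
noncomputable def rep {D : Subgroup G} (b : Bl p M D) : IrrCharacter G :=
  (isPBlock_nonempty b.2.1).choose

theorem rep_mem {D : Subgroup G} (b : Bl p M D) : rep b ∈ b.1 :=
  (isPBlock_nonempty b.2.1).choose_spec

/-- The reduced central character of the block. -/
noncomputable def cbar {D : Subgroup G} (b : Bl p M D) (g : G) : ResField M :=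
  redC M (centralChar (rep b : G → ℂ) g)

theorem redC_centralChar_eq (hM : IsPModular p M) {D : Subgroup G} (b : Bl p M D)
    {χ : IrrCharacter G} (hχ : χ ∈ b.1) (g : G) :
    redC M (centralChar (χ : G → ℂ) g) = cbar b g := by
  rw [cbar, redC_eq_iff (memLocalRing_centralChar' hM χ.2 _) (memLocalRing_centralChar' hM (rep b).2 _)]
  exact isPBlock_sameBlock b.2.1 hχ (rep_mem b) g

theorem mul_eq_one (hM : IsPModular p M) (D : Subgroup G) [D.Normal]
    {ι : Type*} [Fintype ι] [Fintype (Bl p M D)] [DecidableEq (Bl p M D)] (r : ι → G)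
    (hinj : ∀ i j, IsConj (r i) (r j) → i = j)
    (hcov : ∀ g : G, ¬ p ∣ orderOf g → IsSylowCentralizer p g D → ∃ i, IsConj (r i) g) :
    (Matrix.of fun (b : Bl p M D) (i : ι) => cbar b (r i)) *
      (Matrix.of fun (i : ι) (b : Bl p M D) => redC M (blockCoeff b.1 (r i))) = 1 := by
  classical
  have := Fintype.ofFinite (ConjClasses G)
  ext b b'
  rw [Matrix.mul_apply, Matrix.one_apply]
  have hbb : ∀ g : G, ¬ MemLocalIdeal M (blockCoeff b'.1 g) →
      ¬ MemLocalIdeal M (centralChar (rep b : G → ℂ) g) → ∃ i, IsConj (r i) g := by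
    intro g h1 h2
    refine hcov g (regular_of_coeff hM b'.2.1 (ne_zero_of_not_memLocalIdeal h1)) ?_
    exact sylowCentralizer_of_coeff hM b'.2.1 b'.2.2 b.2.1 b.2.2 h1 (rep_mem b) h2
  have hring1 : ∀ g : G, MemLocalRing M (blockCoeff b'.1 g) := fun g =>
    Cfsg.Agent.Blocks.Osima.memLocalRing_blockCoeff hM b'.2.1 g
  have hring2 : ∀ g : G, MemLocalRing M (centralChar (rep b : G → ℂ) g) := fun g =>
    memLocalRing_centralChar' hM (rep b).2 g
  have key : ∑ i : ι, (Matrix.of fun (b : Bl p M D) (i : ι) => cbar b (r i)) b i *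
      (Matrix.of fun (i : ι) (b : Bl p M D) => redC M (blockCoeff b.1 (r i))) i b' =
      ∑ c : ConjClasses G, redC M (blockCoeff b'.1 (Quotient.out c) *
        centralChar (rep b : G → ℂ) (Quotient.out c : G)) := by
    refine Fintype.sum_of_injective (fun i => ConjClasses.mk (r i)) ?_ _ _ ?_ ?_
    · intro i j hij
      exact hinj i j (ConjClasses.mk_eq_mk_iff_isConj.1 hij)
    · intro c hc
      have hr : ConjClasses.mk (Quotient.out c : G) = c := Quotient.out_eq c
      rw [redC_mul (hring1 _) (hring2 _)]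
      by_contra h0
      have h1 : ¬ MemLocalIdeal M (blockCoeff b'.1 (Quotient.out c)) := fun h =>
        h0 (by rw [(redC_eq_zero_iff (hring1 _)).2 h, zero_mul])
      have h2 : ¬ MemLocalIdeal M (centralChar (rep b : G → ℂ) (Quotient.out c : G)) := fun h =>
        h0 (by rw [(redC_eq_zero_iff (hring2 _)).2 h, mul_zero])
      obtain ⟨i, hi⟩ := hbb _ h1 h2
      refine hc ⟨i, ?_⟩
      simp only
      rw [← hr]
      exact ConjClasses.mk_eq_mk_iff_isConj.2 hi
    · intro i
      have hr : ConjClasses.mk (Quotient.out (ConjClasses.mk (r i)) : G) = ConjClasses.mk (r i) :=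
        Quotient.out_eq _
      have hconj := ConjClasses.mk_eq_mk_iff_isConj.1 hr
      rw [redC_mul (hring1 _) (hring2 _), blockCoeff_isConj b'.1 hconj,
        centralChar_isConj (rep b).2 hconj]
      simp only [Matrix.of_apply, cbar]
      ring
  have e := redC_sum (M := M) (s := (Finset.univ : Finset (ConjClasses G)))
    (f := fun c => blockCoeff b'.1 (Quotient.out c) *
      centralChar (rep b : G → ℂ) (Quotient.out c : G))
    (fun c _ => memLocalRing_mul (hring1 _) (hring2 _))
  refine key.trans (e.symm.trans ?_)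
  by_cases hb : b = b'
  · rw [if_pos hb]
    subst hb
    rw [Cfsg.Agent.Blocks.Osima.sum_blockCoeff_mul_centralChar (rep_mem b), redC_one]
  · rw [if_neg hb, Cfsg.Agent.Blocks.Osima.sum_blockCoeff_mul_centralChar_of_notMem, redC_zero]
    intro h
    exact hb (Subtype.ext (isPBlock_eq_of_mem b.2.1 b'.2.1 (rep_mem b) h))

open Classical in
theorem group_term (hM : IsPModular p M) (D : Subgroup G) [D.Normal] (hD : IsPGroup p D)
    [Fintype (Bl p M D)] (χ : IrrCharacter G) (q : ℕ) (u v : G) (hv : IsSylowCentralizer p v D) :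
    (if InX D q (χ : G → ℂ) then redC M (kappa D q (χ : G → ℂ)) *
      redC M (centralChar (χ : G → ℂ) v) * redC M (centralChar (χ : G → ℂ) u) else 0) =
      ∑ b : Bl p M D, (if χ ∈ b.1 ∧ InX D q (χ : G → ℂ) then redC M (kappa D q (χ : G → ℂ)) else 0)
        * cbar b v * cbar b u := by
  by_cases hX : InX D q (χ : G → ℂ)
  · rw [if_pos hX]
    by_cases hd : IsDefectGroup p M (blockOf M (χ : G → ℂ)) D
    · set b : Bl p M D := ⟨blockOf M (χ : G → ℂ), isPBlock_blockOf χ, hd⟩ with hb
      have hχb : χ ∈ b.1 := mem_blockOf_self χ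
      rw [Finset.sum_eq_single b]
      · rw [if_pos ⟨hχb, hX⟩, redC_centralChar_eq hM b hχb, redC_centralChar_eq hM b hχb]
      · intro b' _ hne
        rw [if_neg, zero_mul, zero_mul]
        rintro ⟨h, -⟩
        exact hne (Subtype.ext (isPBlock_eq_of_mem b'.2.1 b.2.1 h hχb))
      · intro h
        exact absurd (Finset.mem_univ _) h
    · have h0 : redC M (centralChar (χ : G → ℂ) v) = 0 := by
        rw [redC_eq_zero_iff (memLocalRing_centralChar' hM χ.2 _)]
        exact ideal_of_not_defect hM D hD (isPBlock_blockOf χ) hd (mem_blockOf_self χ) hv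
      rw [h0, mul_zero, zero_mul]
      symm
      refine Finset.sum_eq_zero fun b _ => ?_
      rw [if_neg, zero_mul, zero_mul]
      rintro ⟨h, -⟩
      apply hd
      rw [← isPBlock_eq_blockOf b.2.1 h]
      exact b.2.2
  · rw [if_neg hX]
    symm
    refine Finset.sum_eq_zero fun b _ => ?_
    rw [if_neg (fun h => hX h.2), zero_mul, zero_mul]

open Classical in
/-- The entry of the matrix in the residue field. -/
theorem entry (hM : IsPModular p M) (D : Subgroup G) [D.Normal] (hD : IsPGroup p D)
    [Fintype (IrrCharacter G)] [Fintype (Bl p M D)] (S : Sylow p G) (u v : G)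
    (hu : IsSylowCentralizer p u D) (hu' : IsSylowCentralizer p u⁻¹ D)
    (hv : IsSylowCentralizer p v D) :
    ((Nat.card {yz : G × G // IsConj u yz.1 ∧ IsConj v yz.2 ∧
        yz.2 * yz.1⁻¹ ∈ (S : Subgroup G)} /
        p ^ ((Nat.card G).factorization p - (Nat.card D).factorization p) : ℕ) : ResField M) =
      ∑ b : Bl p M D,
        kap (M := M) D (p ^ ((Nat.card G).factorization p - (Nat.card D).factorization p)) b.1 *
          cbar b v * cbar b u⁻¹ := by
  set q := p ^ ((Nat.card G).factorization p - (Nat.card D).factorization p) with hq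
  have hq0 : q ≠ 0 := pow_ne_zero _ hp.out.ne_zero
  have hqC : (q : ℂ) ≠ 0 := Nat.cast_ne_zero.2 hq0
  have hDG : (Nat.card D).factorization p ≤ (Nat.card G).factorization p :=
    (Nat.factorization_le_iff_dvd Nat.card_pos.ne' Nat.card_pos.ne').2
      (Subgroup.card_subgroup_dvd_card D) p
  have hdvd : q ∣ Nat.card {yz : G × G // IsConj u yz.1 ∧ IsConj v yz.2 ∧
        yz.2 * yz.1⁻¹ ∈ (S : Subgroup G)} := by
    obtain ⟨Q, hQ⟩ := id hu
    have h1 := Cfsg.Agent.S0957.result p S u v Q
    have h2 : Nat.card S / Nat.card Q = q := by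
      have h3 : Nat.card Q = p ^ (Nat.card D).factorization p := by
        rw [hQ, card_map_subtype, factorization_pow_self', Q.card_eq_multiplicity]
      rw [h3, S.card_eq_multiplicity, Nat.pow_div hDG hp.out.pos]
    rwa [h2] at h1
  have h1 := pairs_congr hM D hD S u v (index_factorization hu') (index_factorization hv)
  rw [← hq] at h1
  have hmem : ∀ χ : IrrCharacter G, MemLocalRing M (if InX D q (χ : G → ℂ) then
        kappa D q (χ : G → ℂ) * centralChar (χ : G → ℂ) v * centralChar (χ : G → ℂ) u⁻¹
          else 0) := by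
    intro χ
    split_ifs with h
    · exact memLocalRing_mul (memLocalRing_mul (memLocalRing_kappa hM D χ.2 h)
        (memLocalRing_centralChar' hM χ.2 _)) (memLocalRing_centralChar' hM χ.2 _)
    · exact memLocalRing_zero
  rw [← redC_natCast, Nat.cast_div hdvd hqC, (redC_eq_iff ((memLocalRing_iff_of_sub h1).2
    (memLocalRing_sum fun χ _ => hmem χ)) (memLocalRing_sum fun χ _ => hmem χ)).2 h1,
    redC_sum fun χ _ => hmem χ]
  have h2 : ∀ χ : IrrCharacter G, redC M (if InX D q (χ : G → ℂ) then
        kappa D q (χ : G → ℂ) * centralChar (χ : G → ℂ) v * centralChar (χ : G → ℂ) u⁻¹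
          else 0) =
      ∑ b : Bl p M D, (if χ ∈ b.1 ∧ InX D q (χ : G → ℂ) then redC M (kappa D q (χ : G → ℂ)) else 0)
        * cbar b v * cbar b u⁻¹ := by
    intro χ
    rw [← group_term hM D hD χ q u⁻¹ v hv]
    split_ifs with h
    · rw [redC_mul (memLocalRing_mul (memLocalRing_kappa hM D χ.2 h)
        (memLocalRing_centralChar' hM χ.2 _)) (memLocalRing_centralChar' hM χ.2 _),
        redC_mul (memLocalRing_kappa hM D χ.2 h) (memLocalRing_centralChar' hM χ.2 _)]
    · exact redC_zero
  rw [Finset.sum_congr rfl fun χ _ => h2 χ, Finset.sum_comm]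
  refine Finset.sum_congr rfl fun b _ => ?_
  rw [← Finset.sum_mul, ← Finset.sum_mul]
  rfl

theorem isSylowCentralizer_inv {g : G} {D : Subgroup G} (h : IsSylowCentralizer p g D) :
    IsSylowCentralizer p g⁻¹ D := by
  rw [isSylowCentralizer_iff] at h ⊢
  have : Subgroup.centralizer ({g⁻¹} : Set G) = Subgroup.centralizer ({g} : Set G) := by
    ext x
    rw [Subgroup.mem_centralizer_singleton_iff, Subgroup.mem_centralizer_singleton_iff]
    constructor
    · intro h
      have := congrArg (fun y => g * y * g) h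
      have h7 : g * (x * g⁻¹) * g = g * x := by group
      have h8 : g * (g⁻¹ * x) * g = x * g := by group
      rw [h7, h8] at this
      exact this.symm
    · intro h
      have := congrArg (fun y => g⁻¹ * y * g⁻¹) h
      have h7 : g⁻¹ * (x * g) * g⁻¹ = g⁻¹ * x := by group
      have h8 : g⁻¹ * (g * x) * g⁻¹ = x * g⁻¹ := by group
      rw [h7, h8] at this
      exact this.symm
  rw [this]
  exact h

theorem isConj_inv' {a b : G} (h : IsConj a b) : IsConj a⁻¹ b⁻¹ := by
  obtain ⟨c, hc⟩ := isConj_iff.1 h
  exact isConj_iff.2 ⟨c, by rw [← hc]; group⟩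

/-- **Robinson's theorem**, for a system of representatives of the classes. -/
theorem rank_eq (hM : IsPModular p M) (D : Subgroup G) [D.Normal] (hD : IsPGroup p D)
    (S : Sylow p G) {ι : Type*} [Fintype ι] (r : ι → G)
    (hinj : ∀ i j, IsConj (r i) (r j) → i = j) (hreg : ∀ i, IsSylowCentralizer p (r i) D)
    (hcov : ∀ g : G, ¬ p ∣ orderOf g → IsSylowCentralizer p g D → ∃ i, IsConj (r i) g) :
    (Matrix.of fun i j : ι => ((Nat.card {yz : G × G // IsConj (r i) yz.1 ∧ IsConj (r j) yz.2 ∧
      yz.2 * yz.1⁻¹ ∈ (S : Subgroup G)} /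
        p ^ ((Nat.card G).factorization p - (Nat.card D).factorization p) : ℕ) : ZMod p)).rank =
      Nat.card (Bl p M D) := by
  classical
  have : Finite (IrrCharacter G) := finite_irr
  have := Fintype.ofFinite (IrrCharacter G)
  have : Finite (Bl p M D) := Subtype.finite
  have := Fintype.ofFinite (Bl p M D)
  have := charP_resField hM
  have hVE := mul_eq_one hM D r hinj hcov
  have hVE' := mul_eq_one hM D (fun i => (r i)⁻¹)
    (fun i j h => hinj i j (by have := isConj_inv' h; rwa [inv_inv, inv_inv] at this))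
    (fun g hg hgD => by
      obtain ⟨i, hi⟩ := hcov g⁻¹ (by rwa [orderOf_inv]) (isSylowCentralizer_inv hgD)
      exact ⟨i, by have := isConj_inv' hi; rwa [inv_inv] at this⟩)
  rw [← RobinsonRank.rank_map (ZMod.castHom (dvd_refl p) (ResField M)),
    Nat.card_eq_fintype_card (α := Bl p M D)]
  refine RobinsonRank.rank_of_factor _ _ _ _
    (fun b : Bl p M D => kap (M := M) D
      (p ^ ((Nat.card G).factorization p - (Nat.card D).factorization p)) b.1)
    (fun b => kap_ne_zero hM b.2.1 hD b.2.2) hVE hVE' _ ?_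
  ext i j
  rw [Matrix.map_apply, Matrix.of_apply, map_natCast,
    entry hM D hD S (r i) (r j) (hreg i) (isSylowCentralizer_inv (hreg i)) (hreg j),
    Matrix.mul_apply]
  refine Finset.sum_congr rfl fun b _ => ?_
  rw [Matrix.mul_diagonal, Matrix.transpose_apply, Matrix.of_apply, Matrix.of_apply]
  ring

end

end Cfsg.Agent.H593.Robinson
end

-- part: S4443
section
set_option autoImplicit false
open Cfsg

namespace Cfsg.Agent.S4443

/-- Let D be a normal p-subgroup of the finite group G, of order p^d, let p^a be the p-part of the order of G, and fix a Sylow p-subgroup S and a maximal ideal M of the algebraic integers containing p. Index by a finite type ι (via an injective map K) exactly the conjugacy classes of p-regular elements x of G for which D is a Sylow p-subgroup of C_G(x). For classes K_i, K_j let ω(i, j) be the number of pairs (y, z) ∈ K_i × K_j with z y⁻¹ ∈ S; this number is divisible by p^(a−d). Then the number of p-blocks of G having D as a defect group equals the rank over ℤ/pℤ of the matrix with (i, j)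 entry ω(i, j)/p^(a−d) reduced modulo p. -/
theorem result {G : Type*} [Group G] [Finite G] (p : ℕ) [Fact p.Prime] (M : Ideal Cfsg.AlgInt) (hM : Cfsg.IsPModular p M) (D : Subgroup G) [D.Normal] (hD : IsPGroup p D) (S : Sylow p G) {ι : Type*} [Fintype ι] [DecidableEq ι] (K : ι → ConjClasses G) (hKinj : Function.Injective K) (hK : ∀ C : ConjClasses G, (∃ i, K i = C) ↔ ∃ x ∈ C.carrier, ¬ p ∣ orderOf x ∧ ∃ Q : Sylow p (Subgroup.centralizer ({x} : Set G)), (Q : Subgroup (Subgroup.centralizer ({x} : Set G))).map (Subgroup.centralizer ({x} : Set G)).subtype = D) : Nat.card {B : Set (Cfsg.IrrCharacter G) // Cfsg.IsPBlock M B ∧ Cfsg.IsDefectGroup p M B D} = (Matrix.of fun i j : ι => ((Nat.card {yz : G × G // yz.1 ∈ (K i).carrier ∧ yz.2 ∈ (K j).carrier ∧ yz.2 * yz.1⁻¹ ∈ (S : Subgroup G)} / p ^ ((Nat.card G).factorization p - (Nat.card D).factorization p) : ℕ) : ZMod p)).rank := by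
  classical
  have hprime := Cfsg.Agent.Blocks.Local.isPrime_of_isPModular hM
  have := Fintype.ofFinite G
  have hmk : ∀ i, ConjClasses.mk (Quotient.out (K i) : G) = K i := fun i => Quotient.out_eq (K i)
  have hcar : ∀ (i : ι) (y : G), y ∈ (K i).carrier ↔ IsConj (Quotient.out (K i) : G) y := by
    intro i y
    rw [ConjClasses.mem_carrier_iff_mk_eq, ← ConjClasses.mk_eq_mk_iff_isConj, hmk]
    exact eq_comm
  have hDmap : ∀ x : G, D.map (MulAut.conj x).toMonoidHom = D :=
    fun x => Cfsg.Agent.H593.Robinson.map_conj_normal D x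
  have hreg : ∀ i, Cfsg.Agent.Blocks.Basic.IsSylowCentralizer p (Quotient.out (K i) : G) D := by
    intro i
    obtain ⟨x, hx, -, Q, hQ⟩ := (hK (K i)).1 ⟨i, rfl⟩
    rw [hcar] at hx
    obtain ⟨c, hc⟩ := isConj_iff.1 hx.symm
    have h1 := Cfsg.Agent.Blocks.Basic.isSylowCentralizer_conj (p := p) ⟨Q, hQ.symm⟩ c
    rwa [hc, hDmap] at h1
  have hinj : ∀ i j, IsConj (Quotient.out (K i) : G) (Quotient.out (K j) : G) → i = j := by
    intro i j h
    apply hKinj
    rw [← hmk i, ← hmk j]
    exact ConjClasses.mk_eq_mk_iff_isConj.2 h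
  have hcov : ∀ g : G, ¬ p ∣ orderOf g → Cfsg.Agent.Blocks.Basic.IsSylowCentralizer p g D →
      ∃ i, IsConj (Quotient.out (K i) : G) g := by
    rintro g hg ⟨Q, hQ⟩
    obtain ⟨i, hi⟩ := (hK (ConjClasses.mk g)).2 ⟨g, ConjClasses.mem_carrier_mk, hg, Q, hQ.symm⟩
    refine ⟨i, ?_⟩
    rw [← ConjClasses.mk_eq_mk_iff_isConj, hmk, hi]
  have h := Cfsg.Agent.H593.Robinson.rank_eq hM D hD S (fun i => (Quotient.out (K i) : G)) hinj
    hreg hcov
  rw [show Nat.card {B : Set (Cfsg.IrrCharacter G) // Cfsg.IsPBlock M B ∧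
    Cfsg.IsDefectGroup p M B D} = Nat.card (Cfsg.Agent.H593.Robinson.Bl p M D) from rfl, ← h]
  congr 1
  ext i j
  simp only [Matrix.of_apply, hcar]

end Cfsg.Agent.S4443
end
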