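import Cfsg.Statements.S4446
import Cfsg.Agent.H594.CyclicMain
set_option linter.all false

set_option autoImplicit false
open Cfsg

namespace Cfsg.Agent.S4446

open Cfsg.Agent.Characters.Core Cfsg.Agent.H594.Cyclic

/-- Let the finite group Γ be generated by a normal subgroup G and a cyclic subgroup S of coprime orders, C = G ⊓ C(S), and let χ be an S-invariant irreducible character of G with canonical extension χ̂ to Γ (the extension whose determinantal order is coprime to the order of S). Then there are exactly one irreducible character β of C and one sign ε such that χ̂(c s) = ε β(c) for every c ∈ C and every generator s of S; this β is a constituent of the restriction of χ to C; distinct S-invariant χ give distinct β; and every irreducible character of C arises in this way. -/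
theorem result {Γ : Type*} [Group Γ] [Fintype Γ] (G S : Subgroup Γ) [Fintype G] (hnorm : ∀ s ∈ S, ∀ g ∈ G, s * g * s⁻¹ ∈ G) (hcop : (Nat.card G).Coprime (Nat.card S)) (htop : G ⊔ S = ⊤) (hcyc : IsCyclic S) (C : Subgroup Γ) [Fintype C] (hC : C = G ⊓ Subgroup.centralizer (S : Set Γ)) (hCG : C ≤ G) : (∀ (χ : Cfsg.IrrCharacter G) (χh : Cfsg.IrrCharacter Γ), (∀ s ∈ S, ∀ g g' : G, (g' : Γ) = s * g * s⁻¹ → (χ : G → ℂ) g' = (χ : G → ℂ) g) → (∀ g : G, (χh : Γ → ℂ) g = (χ : G → ℂ) g) → (Cfsg.detOrder (χh : Γ → ℂ)).Coprime (Nat.card S) → (∃! βε : Cfsg.IrrCharacter C × ℤ, (βε.2 = 1 ∨ βε.2 = -1) ∧ ∀ c : C, ∀ s : Γ, Subgroup.zpowers s = S → (χh : Γ → ℂ) ((c : Γ) * s) = (βε.2 : ℂ) * (βε.1 : C → ℂ) c) ∧ ∀ β : Cfsg.IrrCharacter C, ∀ ε : ℤ, (ε = 1 ∨ ε = -1) → (∀ c : C, ∀ s : Γ, Subgroup.zpowers s = S → (χh : Γ → ℂ) ((c : Γ) * s) = (ε : ℂ) * (β : C → ℂ) c) → Cfsg.classInner (fun c :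 C => (χ : G → ℂ) ⟨c, hCG c.2⟩) (β : C → ℂ) ≠ 0) ∧ (∀ (χ χ' : Cfsg.IrrCharacter G) (χh χh' : Cfsg.IrrCharacter Γ), (∀ s ∈ S, ∀ g g' : G, (g' : Γ) = s * g * s⁻¹ → (χ : G → ℂ) g' = (χ : G → ℂ) g) → (∀ s ∈ S, ∀ g g' : G, (g' : Γ) = s * g * s⁻¹ → (χ' : G → ℂ) g' = (χ' : G → ℂ) g) → (∀ g : G, (χh : Γ → ℂ) g = (χ : G → ℂ) g) → (∀ g : G, (χh' : Γ → ℂ) g = (χ' : G → ℂ) g) → (Cfsg.detOrder (χh : Γ → ℂ)).Coprime (Nat.card S) → (Cfsg.detOrder (χh' : Γ → ℂ)).Coprime (Nat.card S) → ∀ β : Cfsg.IrrCharacter C, ∀ ε ε' : ℤ, (ε = 1 ∨ ε = -1) → (ε' = 1 ∨ ε' = -1) → (∀ c : C, ∀ s : Γ, Subgroup.zpowers s = S → (χh : Γ → ℂ) ((c : Γ) * s) = (ε : ℂ) * (β : C → ℂ) c) → (∀ c : C, ∀ s : Γ, Subgroup.zpowers s = S → (χh' : Γ → ℂ) ((c : Γ) * s) = (ε' : ℂ) * (β : C → ℂ) c) → χ = χ') ∧ (∀ β : Cfsg.IrrCharacter C, ∃ (χ : Cfsg.IrrCharacter G) (χh : Cfsg.IrrCharacter Γ) (ε : ℤ), (∀ s ∈ S, ∀ g g' : G,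 (g' : Γ) = s * g * s⁻¹ → (χ : G → ℂ) g' = (χ : G → ℂ) g) ∧ (∀ g : G, (χh : Γ → ℂ) g = (χ : G → ℂ) g) ∧ (Cfsg.detOrder (χh : Γ → ℂ)).Coprime (Nat.card S) ∧ (ε = 1 ∨ ε = -1) ∧ ∀ c : C, ∀ s : Γ, Subgroup.zpowers s = S → (χh : Γ → ℂ) ((c : Γ) * s) = (ε : ℂ) * (β : C → ℂ) c) := by
  classical
  have hGn : G.Normal := normal_of_top hnorm htop
  have hidx := index_eq hcop htop
  obtain ⟨⟨s, hsS⟩, hs0⟩ := hcyc.exists_generator
  have hs : Subgroup.zpowers s = S := by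
    apply le_antisymm
    · rw [Subgroup.zpowers_le]; exact hsS
    · intro x hx
      obtain ⟨k, hk⟩ := hs0 ⟨x, hx⟩
      exact ⟨k, congrArg Subtype.val hk⟩
  have hcore : ∀ (χ : Cfsg.IrrCharacter G) (χh : Cfsg.IrrCharacter Γ),
      (∀ g : G, (χh : Γ → ℂ) g = (χ : G → ℂ) g) → (Cfsg.detOrder (χh : Γ → ℂ)).Coprime (Nat.card S) →
      ∃ (β : IrrCharacter C) (ε : ℤ), (ε = 1 ∨ ε = -1) ∧
      (∀ c : C, ∀ t : Γ, Subgroup.zpowers t = S → (χh : Γ → ℂ) ((c : Γ) * t) = (ε : ℂ) * (β : C → ℂ) c) ∧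
      classInner (fun c : C => (χh : Γ → ℂ) c) (β : C → ℂ) ≠ 0 := by
    intro χ χh hres hdet
    have h1 : (fun g : G => (χh : Γ → ℂ) g) = (χ : G → ℂ) := funext hres
    exact core G S hcop hidx C hC χh.2 (by rw [h1]; exact χ.2) hdet hs
  have huniq : ∀ (f : Γ → ℂ) (β β' : IrrCharacter C) (ε ε' : ℤ), (ε = 1 ∨ ε = -1) → (ε' = 1 ∨ ε' = -1) →
      (∀ c : C, ∀ t : Γ, Subgroup.zpowers t = S → f ((c : Γ) * t) = (ε : ℂ) * (β : C → ℂ) c) →
      (∀ c : C, ∀ t : Γ, Subgroup.zpowers t = S → f ((c : Γ) * t) = (ε' : ℂ) * (β' : C → ℂ) c) →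
      β = β' ∧ ε = ε' := by
    intro f β β' ε ε' hε hε' h h'
    exact sign_unique hε hε' (fun c => (h c s hs).symm.trans (h' c s hs))
  have hinj : ∀ (χ χ' : Cfsg.IrrCharacter G) (χh χh' : Cfsg.IrrCharacter Γ),
      (∀ g : G, (χh : Γ → ℂ) g = (χ : G → ℂ) g) → (∀ g : G, (χh' : Γ → ℂ) g = (χ' : G → ℂ) g) →
      ∀ β : Cfsg.IrrCharacter C, ∀ ε ε' : ℤ, (ε = 1 ∨ ε = -1) → (ε' = 1 ∨ ε' = -1) →
      (∀ c : C, ∀ s : Γ, Subgroup.zpowers s = S → (χh : Γ → ℂ) ((c : Γ) * s) = (ε : ℂ) * (β : C → ℂ) c) →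
      (∀ c : C, ∀ s : Γ, Subgroup.zpowers s = S → (χh' : Γ → ℂ) ((c : Γ) * s) = (ε' : ℂ) * (β : C → ℂ) c) →
      χ = χ' := by
    intro χ χ' χh χh' hr hr' β ε ε' hε hε' h h'
    by_contra hne
    have h1 := coset_orthogonal G S hcop C hC hs χ.2 χ'.2 χh.2 χh'.2 hr hr' (fun h => hne (Subtype.ext h))
    have h2 : (fun c : C => (χh : Γ → ℂ) ((c : Γ) * s)) = (ε : ℂ) • (β : C → ℂ) := funext fun c => h c s hs
    have h3 : (fun c : C => (χh' : Γ → ℂ) ((c : Γ) * s)) = (ε' : ℂ) • (β : C → ℂ) := funext fun c => h' c s hs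
    rw [h2, h3, classInner_smul_left, classInner_smul_right, classInner_irr_self β.2] at h1
    rcases hε with rfl | rfl <;> rcases hε' with rfl | rfl <;> norm_num at h1
  refine ⟨?_, ?_, ?_⟩
  · intro χ χh hinv hres hdet
    obtain ⟨β, ε, hε, hβ, hne⟩ := hcore χ χh hres hdet
    refine ⟨⟨(β, ε), ⟨hε, hβ⟩, ?_⟩, ?_⟩
    · rintro ⟨β', ε'⟩ ⟨hε', hβ'⟩
      obtain ⟨h1, h2⟩ := huniq χh β' β ε' ε hε' hε hβ' hβ
      rw [h1, h2]
    · intro β' ε' hε' hβ'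
      obtain ⟨h1, -⟩ := huniq χh β' β ε' ε hε' hε hβ' hβ
      rw [h1]
      have h2 : (fun c : C => (χh : Γ → ℂ) c) = fun c : C => (χ : G → ℂ) ⟨c, hCG c.2⟩ :=
        funext fun c => hres ⟨c, hCG c.2⟩
      rw [← h2]
      exact hne
  · intro χ χ' χh χh' _ _ hr hr' _ _ β ε ε' hε hε' h h'
    exact hinj χ χ' χh χh' hr hr' β ε ε' hε hε' h h'
  · -- counting
    let I := {χ : Cfsg.IrrCharacter G // (∀ s ∈ S, ∀ g g' : G, (g' : Γ) = s * g * s⁻¹ → (χ : G → ℂ) g' = (χ : G → ℂ) g)}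
    have hch : ∀ χ : I, ∃ (χh : IrrCharacter Γ) (β : IrrCharacter C) (ε : ℤ), (∀ g : G, (χh : Γ → ℂ) g = (χ.1 : G → ℂ) g) ∧
        (detOrder (χh : Γ → ℂ)).Coprime (Nat.card S) ∧ (ε = 1 ∨ ε = -1) ∧
        (∀ c : C, ∀ t : Γ, Subgroup.zpowers t = S → (χh : Γ → ℂ) ((c : Γ) * t) = (ε : ℂ) * (β : C → ℂ) c) := by
      intro χ
      obtain ⟨χh, h1, h2⟩ := exists_canonical G S hnorm hcop hidx htop χ.1 χ.2
      obtain ⟨β, ε, hε, hβ, -⟩ := hcore χ.1 χh h1 h2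
      exact ⟨χh, β, ε, h1, h2, hε, hβ⟩
    choose E B ep h1 h2 h3 h4 using hch
    have hBinj : Function.Injective B := by
      intro χ χ' h
      apply Subtype.ext
      exact hinj χ.1 χ'.1 (E χ) (E χ') (h1 χ) (h1 χ') (B χ) (ep χ) (ep χ') (h3 χ) (h3 χ') (h4 χ) (h ▸ h4 χ')
    have hsolv : Group.IsSolvable S := by
      have : IsCyclic S := hcyc
      have : Group.IsSolvable (Subgroup.zpowers s) := inferInstance
      rwa [hs] at this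
    have hcard : Nat.card I = Nat.card (IrrCharacter C) := by
      have e1 := Cfsg.Agent.S4445.result G S hnorm hcop hsolv
      have e2 := Cfsg.Agent.H594.ClassCount.card_classes hnorm hcop (Or.inl hsolv) hC
      rw [card_irr]
      exact e1.trans e2
    have hf1 : Finite (IrrCharacter C) := finite_irr
    have hf2 : Finite (IrrCharacter G) := finite_irr
    have hf3 : Finite I := Subtype.finite
    have hbij : Function.Bijective B := by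
      have := Fintype.ofFinite I
      have := Fintype.ofFinite (IrrCharacter C)
      rw [Fintype.bijective_iff_injective_and_card]
      exact ⟨hBinj, by rw [← Nat.card_eq_fintype_card, ← Nat.card_eq_fintype_card, hcard]⟩
    intro β
    obtain ⟨χ, rfl⟩ := hbij.2 β
    exact ⟨χ.1, E χ, ep χ, χ.2, h1 χ, h2 χ, h3 χ, h4 χ⟩

end Cfsg.Agent.S4446
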