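import Cfsg.Statements.S4450
import Cfsg.Agent.H595.Triple
import Cfsg.Agent.S4448
set_option linter.all false

set_option autoImplicit false
open Cfsg

namespace Cfsg.Agent.S4450

open Cfsg.Agent.H595.Count Cfsg.Agent.H595.Central Cfsg.Agent.H595.Triple Cfsg.Agent.H595.Solv

/-- **The central case**, `A / Z` solvable. -/
theorem central_case2 {Q : Type*} [Group Q] [Finite Q] (A Z : Subgroup Q) [hA : A.Normal]
    [hZn : Z.Normal] (hZ : Z ≤ Subgroup.center Q) (hZA : Z ≤ A)
    (hcop : (A.index).Coprime (Z.relIndex A))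
    (hsol : Group.IsSolvable (A ⧸ Z.subgroupOf A)) (l : Z →* ℂˣ) :
    ∃ β : IrrCharacter A, CInv A (β : A → ℂ) ∧ ∀ (a : A) (z : Z),
      (β : A → ℂ) (a * ⟨z, hZA z.2⟩) = (β : A → ℂ) a * l z := by
  have := Fintype.ofFinite Q
  obtain ⟨m, h⟩ := exists_powHyp hA hZ hZA
  have hA0 := h.A0_normal
  have := Fintype.ofFinite h.A0
  obtain ⟨S, hS⟩ := Subgroup.exists_right_complement'_of_coprime (h.hall hcop)
  have hcard : (Nat.card h.A0).Coprime (Nat.card S) := by
    rw [← hS.symm.index_eq_card]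
    exact h.hall hcop
  have hAsol : Group.IsSolvable A := by
    have hcomm : ∀ x y : Z.subgroupOf A, x * y = y * x := by
      intro x y
      apply Subtype.ext
      apply Subtype.ext
      exact (Subgroup.mem_center_iff.1 (hZ y.2) ((x : A) : Q))
    have hs1 : Group.IsSolvable (Z.subgroupOf A) := Group.isSolvable_of_comm hcomm
    exact Group.isSolvable_of_ker_le_range (Z.subgroupOf A).subtype
      (QuotientGroup.mk' (Z.subgroupOf A)) (by simp)
  have hA0sol : Group.IsSolvable h.A0 :=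
    Group.isSolvable_of_isSolvable_injective (Subgroup.inclusion_injective h.A0_le)
  let NN : Subgroup Q := Z ⊓ h.A0
  have := Fintype.ofFinite NN
  have hn1 : ∀ s ∈ S, ∀ g ∈ h.A0, s * g * s⁻¹ ∈ h.A0 := fun s _ g hg => hA0.conj_mem g hg s
  have hn2 : ∀ s ∈ S, ∀ g ∈ NN, s * g * s⁻¹ ∈ NN := fun s _ g hg => by
    have h1 : s * g * s⁻¹ = g := by
      rw [Subgroup.mem_center_iff.1 (hZ hg.1) s, mul_inv_cancel_right]
    rw [h1]
    exact hg
  have hNA : NN ≤ h.A0 := inf_le_right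
  have hNZ : NN ≤ Z := inf_le_left
  have hNn : (NN.subgroupOf h.A0).Normal := by
    constructor
    intro n hn g
    have h1 : g * n * g⁻¹ = n := by
      apply Subtype.ext
      show (g : Q) * n * (g : Q)⁻¹ = n
      have h2 : (g : Q) * (n : Q) = (n : Q) * g := Subgroup.mem_center_iff.1 (hZ (hNZ hn)) (g : Q)
      rw [h2, mul_inv_cancel_right]
    rw [h1]
    exact hn
  obtain ⟨χ, hover, hχ⟩ := Cfsg.Agent.S4448.result h.A0 S NN hn1 hNA hn2
    (Nat.Coprime.coprime_dvd_left (Subgroup.relIndex_dvd_card NN h.A0) hcard) inferInstance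
    (homIrr (l.comp (Subgroup.inclusion hNZ))) (by
      intro s hs g g' hg
      have h1 : g' = g := Subtype.ext (by
        rw [hg, Subgroup.mem_center_iff.1 (hZ (hNZ g.2)) s, mul_inv_cancel_right])
      rw [h1])
  have hoc := over_central (Subgroup.inclusion hNA) (fun n => by
    rw [Subgroup.mem_center_iff]
    intro g
    exact Subtype.ext (Subgroup.mem_center_iff.1 (hZ (hNZ n.2)) (g : Q))) χ
    (l.comp (Subgroup.inclusion hNZ)) hover
  exact extend_central h l χ (cinv_of h.A0 S hS.sup_eq_top χ hχ)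
    (by
      intro a b z hbz
      have h1 : (b : Q) ∈ NN := ⟨by rw [hbz]; exact z.2, b.2⟩
      have h2 := hoc a ⟨b, h1⟩
      have h3 : (Subgroup.inclusion hNZ) (⟨b, h1⟩ : NN) = z := Subtype.ext hbz
      rw [MonoidHom.comp_apply, h3] at h2
      exact h2)

/-- Let N ≤ G be normal subgroups of the finite group Γ with the index of G in Γ coprime to the index of N in G, and Γ/G or G/N solvable. Then for every irreducible character ϑ of N invariant under conjugation by Γ, the induced character ϑ^G has an irreducible constituent invariant under conjugation by Γ. -/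
theorem result {Γ : Type*} [Group Γ] [Fintype Γ] (G N : Subgroup Γ) [hG : G.Normal] [hN : N.Normal] [Fintype G] [Fintype N] (hNG : N ≤ G) (hcop : (G.index).Coprime (N.relIndex G)) (hsolv : Group.IsSolvable (Γ ⧸ G) ∨ Group.IsSolvable (G ⧸ N.subgroupOf G)) (θ : Cfsg.IrrCharacter N) (hinv : ∀ (x : Γ) (n : N), (θ : N → ℂ) ⟨x * n * x⁻¹, hN.conj_mem n n.2 x⟩ = (θ : N → ℂ) n) : ∃ χ : Cfsg.IrrCharacter G, Cfsg.classInner (fun n : N => (χ : G → ℂ) ⟨n, hNG n.2⟩) (θ : N → ℂ) ≠ 0 ∧ ∀ (x : Γ) (g : G), (χ : G → ℂ) ⟨x * g * x⁻¹, hG.conj_mem g g.2 x⟩ = (χ : G → ℂ) g := by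
  obtain ⟨Δ, _, _, π, s, χR, hcov⟩ := exists_cov N θ hinv
  obtain ⟨Q, _, _, A, Z, hA, hZn, hZA, l, hZc, hAi, hrel, hs1, hs2, hmain⟩ :=
    hcov.reduce G hNG θ.2
  have hcop' : (A.index).Coprime (Z.relIndex A) := by
    rw [hAi, hrel]
    exact hcop
  have hβ : ∃ β : IrrCharacter A, CInv A (β : A → ℂ) ∧ ∀ (a : A) (z : Z),
      (β : A → ℂ) (a * ⟨z, hZA z.2⟩) = (β : A → ℂ) a * l z := by
    rcases hsolv with h | h
    · exact central_case A Z hZc hZA hcop' (hs1 h) l
    · exact central_case2 A Z hZc hZA hcop' (hs2 h) l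
  obtain ⟨β, hβinv, hβl⟩ := hβ
  obtain ⟨χ, hχN, hχinv⟩ := hmain β hβl
  refine ⟨χ, ?_, hχinv hβinv⟩
  have h1 : (fun n : N => (χ : G → ℂ) ⟨n, hNG n.2⟩) = (β : A → ℂ) 1 • (θ : N → ℂ) := by
    funext n
    exact hχN n
  rw [h1, Cfsg.Agent.Characters.Core.classInner_smul_left,
    Cfsg.Agent.Characters.Core.classInner_irr_self θ.2, mul_one]
  exact Cfsg.Agent.Characters.Core.isIrr_apply_one_ne_zero β.2

end Cfsg.Agent.S4450
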