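import Cfsg.Agent.Characters.Core
import Cfsg.Agent.S0187
import Cfsg.Agent.H594.CyclicMain
import Cfsg.Agent.J3Type.CharTools
import Cfsg.Agent.S0189
import Cfsg.Statements.S4451
import Cfsg.Agent.Blocks.Basic
set_option linter.all false

-- part: H595/CycForm
section
/-!
# Characters of abelian groups of absolute value one outside the identity

* `comb` : integers `a i` (`n` of them) with `n ∑ a² - (∑ a)² = n - 1` are `m + ε δ_{i, i₀}`;
* `char_form` : a character of an abelian group of absolute value one outside `1` is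
  `m ρ + ε μ`, `ρ` the regular and `μ` a linear character.
-/

set_option autoImplicit false
set_option linter.unusedSectionVars false

namespace Cfsg.Agent.H595.CycForm

open Cfsg
open scoped ComplexConjugate
open Cfsg.Agent.Characters.Core

theorem comb {ι : Type*} [Fintype ι] [DecidableEq ι] (a : ι → ℤ) (h2 : 2 ≤ Fintype.card ι)
    (h : (Fintype.card ι : ℤ) * ∑ i, a i ^ 2 - (∑ i, a i) ^ 2 = Fintype.card ι - 1) :
    ∃ (m ε : ℤ) (i₀ : ι), (ε = 1 ∨ ε = -1) ∧ ∀ i, a i = m + if i = i₀ then ε else 0 := by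
  set n : ℤ := (Fintype.card ι : ℤ) with hn
  have hn2 : (2 : ℤ) ≤ n := by rw [hn]; exact_mod_cast h2
  -- the double sum
  have h1 : ∑ i, ∑ j, (a i - a j) ^ 2 = 2 * (n - 1) := by
    have h3 : ∀ i, ∑ j, (a i - a j) ^ 2 = n * a i ^ 2 - 2 * a i * ∑ j, a j + ∑ j, a j ^ 2 := by
      intro i
      rw [Finset.mul_sum]
      have h4 : n * a i ^ 2 = ∑ _j : ι, a i ^ 2 := by
        rw [Finset.sum_const, nsmul_eq_mul, hn, Finset.card_univ]
      rw [h4, ← Finset.sum_sub_distrib, ← Finset.sum_add_distrib]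
      exact Finset.sum_congr rfl fun j _ => by ring
    simp only [h3]
    rw [Finset.sum_add_distrib, Finset.sum_sub_distrib, Finset.sum_const, nsmul_eq_mul,
      Finset.card_univ, ← Finset.mul_sum, ← Finset.sum_mul, ← Finset.mul_sum, ← hn]
    linear_combination 2 * h
  -- some row is small
  obtain ⟨i, hi⟩ : ∃ i, ∑ j, (a i - a j) ^ 2 ≤ 1 := by
    by_contra hcon
    push Not at hcon
    have h3 : ∑ _i : ι, (2 : ℤ) ≤ ∑ i, ∑ j, (a i - a j) ^ 2 :=
      Finset.sum_le_sum fun i _ => hcon i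
    rw [Finset.sum_const, nsmul_eq_mul, Finset.card_univ, h1, ← hn] at h3
    linarith
  have hnn : ∀ j, 0 ≤ (a i - a j) ^ 2 := fun j => sq_nonneg _
  by_cases hall : ∀ j, a j = a i
  · exfalso
    have h3 : ∑ i, ∑ j, (a i - a j) ^ 2 = 0 := by
      refine Finset.sum_eq_zero fun k _ => Finset.sum_eq_zero fun j _ => ?_
      rw [hall k, hall j]
      ring
    rw [h1] at h3
    linarith
  · push Not at hall
    obtain ⟨j, hj⟩ := hall
    have hj1 : 1 ≤ (a i - a j) ^ 2 := by
      have : a i - a j ≠ 0 := sub_ne_zero.2 (Ne.symm hj)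
      have h5 : 0 < (a i - a j) ^ 2 := by positivity
      linarith
    rw [← Finset.add_sum_erase _ _ (Finset.mem_univ j)] at hi
    have h6 : 0 ≤ ∑ k ∈ Finset.univ.erase j, (a i - a k) ^ 2 :=
      Finset.sum_nonneg fun k _ => hnn k
    have h7 : ∑ k ∈ Finset.univ.erase j, (a i - a k) ^ 2 = 0 := by linarith
    have h8 : (a i - a j) ^ 2 = 1 := by linarith
    have h9 : ∀ k, k ≠ j → a k = a i := by
      intro k hk
      have h10 := (Finset.sum_eq_zero_iff_of_nonneg (fun k _ => hnn k)).1 h7 k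
        (Finset.mem_erase.2 ⟨hk, Finset.mem_univ k⟩)
      have h11 : a i - a k = 0 := by
        exact pow_eq_zero_iff (n := 2) (by norm_num) |>.1 h10
      linarith
    refine ⟨a i, a j - a i, j, ?_, fun k => ?_⟩
    · have h12 : (a j - a i - 1) * (a j - a i + 1) = 0 := by nlinarith
      rcases mul_eq_zero.1 h12 with h13 | h13
      · left; linarith
      · right; linarith
    · by_cases hk : k = j
      · subst hk
        rw [if_pos rfl]
        ring
      · rw [if_neg hk, add_zero, h9 k hk]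

/-- The sum of the irreducible characters of an abelian group. -/
theorem sum_irr {S : Type*} [Group S] [Fintype S] [Fintype (IrrCharacter S)] [DecidableEq S]
    (hab : ∀ x y : S, x * y = y * x) (t : S) :
    ∑ χ : IrrCharacter S, (χ : S → ℂ) t = if t = 1 then (Nat.card S : ℂ) else 0 := by
  have h1 : ∀ χ : IrrCharacter S, (χ : S → ℂ) 1 = 1 := Cfsg.Agent.S0187.result.1 hab
  let f : S → ℂ := fun x => if x = 1 then (Nat.card S : ℂ) else 0
  have hf : IsClassFunction S f := by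
    intro g k
    have h2 : k * g * k⁻¹ = g := by rw [hab k g, mul_inv_cancel_right]
    rw [h2]
  have h2 := congrFun (classFunction_eq_sum hf) t
  have h3 : ∀ χ : IrrCharacter S, classInner f (χ : S → ℂ) = 1 := by
    intro χ
    rw [classInner_def, Finset.sum_eq_single (1 : S)]
    · show (Nat.card S : ℂ)⁻¹ * ((if (1 : S) = 1 then (Nat.card S : ℂ) else 0) * _) = 1
      rw [if_pos rfl, h1, map_one, mul_one, inv_mul_cancel₀ card_ne_zero_complex]
    · intro b _ hb
      show (if b = 1 then (Nat.card S : ℂ) else 0) * _ = 0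
      rw [if_neg hb, zero_mul]
    · intro h; exact absurd (Finset.mem_univ _) h
  show _ = f t
  rw [h2, Finset.sum_apply]
  refine Finset.sum_congr rfl fun χ _ => ?_
  rw [h3, one_smul]

/-- **Characters of absolute value one outside the identity.** -/
theorem char_form {S : Type*} [Group S] [Finite S] (hab : ∀ x y : S, x * y = y * x)
    (h2 : 2 ≤ Nat.card S) {D : S → ℂ} (hD : IsCharacter S D)
    (h : ∀ t, t ≠ 1 → D t * conj (D t) = 1) :
    ∃ (m : ℕ) (ε : ℤ) (μ : IrrCharacter S), (ε = 1 ∨ ε = -1) ∧ (μ : S → ℂ) 1 = 1 ∧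
      (∀ t, t ≠ 1 → D t = (ε : ℂ) * (μ : S → ℂ) t) ∧ D 1 = (Nat.card S : ℂ) * m + ε := by
  classical
  have := Fintype.ofFinite S
  have : Finite (IrrCharacter S) := finite_irr
  have := Fintype.ofFinite (IrrCharacter S)
  have hlin : ∀ χ : IrrCharacter S, (χ : S → ℂ) 1 = 1 := Cfsg.Agent.S0187.result.1 hab
  have hcard : Fintype.card (IrrCharacter S) = Nat.card S := by
    have h1 := sum_irr hab (1 : S)
    rw [if_pos rfl, Finset.sum_congr rfl fun χ _ => hlin χ, Finset.sum_const, nsmul_eq_mul,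
      mul_one, Finset.card_univ] at h1
    exact_mod_cast h1
  obtain ⟨c, hc⟩ := exists_nat_comb hD
  have hD1 : D 1 = ((∑ χ, c χ : ℕ) : ℂ) := by
    rw [hc, Finset.sum_apply, Nat.cast_sum]
    refine Finset.sum_congr rfl fun χ _ => ?_
    rw [Pi.smul_apply, hlin, nsmul_eq_mul, mul_one]
  have hcs : ∀ χ : IrrCharacter S, classInner D (χ : S → ℂ) = c χ := fun χ => by
    rw [hc, classInner_sum_nsmul_irr]
  have hn0 : (Nat.card S : ℂ) ≠ 0 := card_ne_zero_complex
  -- the norm of `D`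
  have hnorm : (Nat.card S : ℂ) * ((∑ χ, c χ ^ 2 : ℕ) : ℂ) = (D 1) ^ 2 + (Nat.card S - 1) := by
    have h3 : classInner D D = ((∑ χ, c χ ^ 2 : ℕ) : ℂ) := by
      have h4 : D = ∑ χ : IrrCharacter S, (c χ : ℂ) • (χ : S → ℂ) := by
        conv_lhs => rw [hc]
        refine Finset.sum_congr rfl fun χ _ => ?_
        rw [Nat.cast_smul_eq_nsmul]
      conv_lhs => rw [h4]
      rw [classInner_sum_smul_sum_smul, Nat.cast_sum]
      refine Finset.sum_congr rfl fun χ _ => ?_
      rw [Complex.conj_natCast]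
      push_cast
      ring
    rw [← h3, classInner_def, ← mul_assoc, mul_inv_cancel₀ hn0, one_mul,
      ← Finset.add_sum_erase _ _ (Finset.mem_univ (1 : S))]
    have h5 : ∑ t ∈ Finset.univ.erase (1 : S), D t * conj (D t) = (Nat.card S : ℂ) - 1 := by
      rw [Finset.sum_congr rfl fun t ht => h t (Finset.mem_erase.1 ht).1, Finset.sum_const,
        nsmul_eq_mul, mul_one, Finset.card_erase_of_mem (Finset.mem_univ _), Finset.card_univ,
        ← Nat.card_eq_fintype_card, Nat.cast_sub (by omega), Nat.cast_one]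
    rw [h5, hD1, Complex.conj_natCast]
    ring
  have hZ : (Fintype.card (IrrCharacter S) : ℤ) * ∑ χ, (c χ : ℤ) ^ 2 - (∑ χ, (c χ : ℤ)) ^ 2 =
      Fintype.card (IrrCharacter S) - 1 := by
    rw [hcard]
    rw [hD1] at hnorm
    have h6 : (((Nat.card S : ℤ) * ∑ χ, (c χ : ℤ) ^ 2 : ℤ) : ℂ) =
        (((∑ χ, (c χ : ℤ)) ^ 2 + (Nat.card S - 1) : ℤ) : ℂ) := by
      push_cast
      push_cast at hnorm
      exact hnorm
    have h7 : (Nat.card S : ℤ) * ∑ χ, (c χ : ℤ) ^ 2 = (∑ χ, (c χ : ℤ)) ^ 2 + (Nat.card S - 1) := by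
      exact_mod_cast h6
    linarith
  obtain ⟨m, ε, μ, hε, hm⟩ := comb (fun χ => (c χ : ℤ)) (by rw [hcard]; exact h2) hZ
  -- `m` is not negative
  have hm0 : 0 ≤ m := by
    obtain ⟨ν, hν⟩ : ∃ ν : IrrCharacter S, ν ≠ μ := by
      have : Nontrivial (IrrCharacter S) := Fintype.one_lt_card_iff_nontrivial.1 (by
        rw [hcard]; omega)
      exact exists_ne μ
    have := hm ν
    rw [if_neg hν, add_zero] at this
    rw [← this]
    exact Int.natCast_nonneg _
  obtain ⟨k, rfl⟩ := Int.eq_ofNat_of_zero_le hm0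
  have hDt : ∀ t, D t = (k : ℂ) * (∑ χ : IrrCharacter S, (χ : S → ℂ) t) + (ε : ℂ) * (μ : S → ℂ) t := by
    intro t
    have h8 : D t = ∑ χ : IrrCharacter S, (c χ : ℂ) * (χ : S → ℂ) t := by
      conv_lhs => rw [hc]
      rw [Finset.sum_apply]
      refine Finset.sum_congr rfl fun χ _ => ?_
      rw [Pi.smul_apply, nsmul_eq_mul]
    have h9 : ∀ χ : IrrCharacter S, (c χ : ℂ) = (k : ℂ) + if χ = μ then (ε : ℂ) else 0 := by
      intro χ
      have h10 := hm χ
      have h11 : (((c χ : ℤ) : ℤ) : ℂ) = (((k : ℤ) + if χ = μ then ε else 0 : ℤ) : ℂ) := by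
        rw [h10]
      push_cast at h11
      exact h11
    rw [h8, Finset.mul_sum]
    have h12 : (ε : ℂ) * (μ : S → ℂ) t = ∑ χ : IrrCharacter S,
        (if χ = μ then (ε : ℂ) else 0) * (χ : S → ℂ) t := by
      simp only [ite_mul, zero_mul, Finset.sum_ite_eq', Finset.mem_univ, if_true]
    rw [h12, ← Finset.sum_add_distrib]
    refine Finset.sum_congr rfl fun χ _ => ?_
    rw [h9]
    ring
  refine ⟨k, ε, μ, hε, hlin μ, fun t ht => ?_, ?_⟩
  · rw [hDt, sum_irr hab, if_neg ht, mul_zero, zero_add]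
  · rw [hDt, sum_irr hab, if_pos rfl, hlin, mul_one, mul_comm]

end Cfsg.Agent.H595.CycForm
end

-- part: H595/CycFpf
section
/-!
# Coprime fixed-point-free-like cyclic action: restriction of the canonical extension

* `core_x` : for `x ∈ S` with `C_G(x) = C` the values `χ̂ (c x)` are `± β_x (c)`;
* `zero_iff` : a character of a cyclic group with values `0, ±1` off the identity vanishes
  everywhere or nowhere off the identity.
-/

set_option autoImplicit false
set_option linter.unusedSectionVars false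

namespace Cfsg.Agent.H595.CycFpf

open Cfsg
open scoped ComplexConjugate
open Cfsg.Agent.Characters.Core Cfsg.Agent.CharactersDeep.CosetAverage
open Cfsg.Agent.H594 Cfsg.Agent.H594.Cyclic

/-- **The values on the coset of one element.** -/
theorem core_x {Γ : Type*} [Group Γ] [Fintype Γ] (G S : Subgroup Γ) [Fintype G] [G.Normal]
    (hcop : (Nat.card G).Coprime (Nat.card S)) (hidx : G.index = Nat.card S) (C : Subgroup Γ)
    [Fintype C] (hC : C = G ⊓ Subgroup.centralizer (S : Set Γ)) {χh : Γ → ℂ}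
    (hχh : IsIrrCharacter Γ χh) (hres : IsIrrCharacter G (fun g : G => χh g))
    (hdet : (detOrder χh).Coprime (Nat.card S)) {s : Γ} (hsS : s ∈ S)
    (hCs : G ⊓ Subgroup.centralizer ({s} : Set Γ) = C) :
    ∃ (β : IrrCharacter C) (ε : ℤ), (ε = 1 ∨ ε = -1) ∧
      ∀ c : C, χh ((c : Γ) * s) = (ε : ℂ) * (β : C → ℂ) c := by
  classical
  have hCG : C ≤ G := hC ▸ inf_le_left
  have hCS : ∀ c ∈ C, ∀ t ∈ S, c * t = t * c := by
    intro c hc t ht
    rw [hC] at hc
    exact (Subgroup.mem_centralizer_iff.1 hc.2 t ht).symm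
  have hcardΓ : Nat.card Γ = Nat.card G * Nat.card S := by rw [← hidx, Subgroup.card_mul_index]
  have hcfχ := isIrr_isClassFunction hχh
  have hpow : ∀ m : ℕ, m.Coprime (Nat.card S) → ∀ c ∈ C, ∀ t ∈ S, χh (c * t ^ m) = χh (c * t) := by
    intro m hm c hc t ht
    obtain ⟨k, hk1, hkm⟩ : ∃ k : ℕ, k ≡ 1 [MOD Nat.card G] ∧ k ≡ m [MOD Nat.card S] :=
      ⟨_, (Nat.chineseRemainder hcop 1 m).2⟩
    have hkc : k.Coprime (Nat.card Γ) := by
      rw [hcardΓ]
      apply Nat.Coprime.mul_right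
      · show Nat.gcd k (Nat.card G) = 1
        rw [hk1.gcd_eq, Nat.gcd_one_left]
      · show Nat.gcd k (Nat.card S) = 1
        rw [hkm.gcd_eq]
        exact hm
    have h1 := canonical_pow G hχh hres (by rw [hidx]; exact hcop) (by rw [hidx]; exact hdet) hkc
      hk1 (c * t)
    rw [← h1]
    congr 1
    rw [(show Commute c t from hCS c hc t ht).mul_pow]
    have h2 : c ^ k = c := by
      have h4 : k ≡ 1 [MOD orderOf c] := by
        refine hk1.of_dvd ?_
        have := orderOf_dvd_natCard (⟨c, hCG hc⟩ : G)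
        rwa [Subgroup.orderOf_mk] at this
      rw [← pow_mod_orderOf, h4, pow_mod_orderOf, pow_one]
    have h3 : t ^ k = t ^ m := by
      have h4 : k ≡ m [MOD orderOf t] := by
        refine hkm.of_dvd ?_
        have := orderOf_dvd_natCard (⟨t, ht⟩ : S)
        rwa [Subgroup.orderOf_mk] at this
      rw [← pow_mod_orderOf, h4, pow_mod_orderOf]
    rw [h2, h3]
  let φ : C × S →* Γ := MonoidHom.noncommCoprod C.subtype S.subtype (fun c t => hCS c c.2 t t.2)
  have hX : IsCharacter (C × S) (χh ∘ φ) := isCharacter_comp φ (isIrr_isCharacter hχh)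
  set b : C → ℂ := fun c => χh ((c : Γ) * s) with hb
  have hbc : IsClassFunction C b := by
    intro c d
    show χh (((d * c * d⁻¹ : C) : Γ) * s) = χh (c * s)
    have h1 : ((d * c * d⁻¹ : C) : Γ) * s = d * (c * s) * (d : Γ)⁻¹ := by
      have h2 := hCS _ (C.inv_mem d.2) s hsS
      push_cast
      calc (d : Γ) * c * (d : Γ)⁻¹ * s = d * c * ((d : Γ)⁻¹ * s) := by group
        _ = _ := by rw [h2]; group
    rw [h1]
    exact hcfχ _ _
  have hint : ∀ ψ : IrrCharacter C, ∃ k : ℤ, classInner b (ψ : C → ℂ) = k := by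
    intro ψ
    have hf := isCharacter_partial hX (isIrr_isCharacter ψ.2)
    have h1 : ∃ k : ℤ, (fun t => classInner (fun c => (χh ∘ φ) (c, t)) (ψ : C → ℂ))
        (⟨s, hsS⟩ : S) = k := by
      apply Cfsg.Agent.Characters.GaloisBasic.exists_int_of_rat hf
      rw [Cfsg.Agent.Characters.GaloisBasic.exists_rat_iff hf]
      intro m hm
      show classInner _ _ = classInner _ _
      congr 1
      funext c
      exact hpow m hm c c.2 s hsS
    exact h1
  have hbg : IsGeneralizedCharacter C b := by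
    have := finite_irr (G := C)
    have := Fintype.ofFinite (IrrCharacter C)
    rw [isGeneralizedCharacter_iff]
    choose k hk using hint
    refine ⟨k, ?_⟩
    conv_lhs => rw [classFunction_eq_sum hbc]
    refine Finset.sum_congr rfl fun ψ _ => ?_
    rw [hk, Int.cast_smul_eq_zsmul]
  have hcop' : (Nat.card G).Coprime (Nat.card (Subgroup.zpowers s)) :=
    Nat.Coprime.coprime_dvd_right (Subgroup.card_dvd_of_le ((Subgroup.zpowers_le).2 hsS)) hcop
  have hC' : C = G ⊓ Subgroup.centralizer ((Subgroup.zpowers s : Subgroup Γ) : Set Γ) := by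
    apply le_antisymm
    · intro c hc
      refine Subgroup.mem_inf.2 ⟨hCG hc, ?_⟩
      rw [Subgroup.mem_centralizer_iff]
      rintro _ ⟨j, rfl⟩
      exact (hCS c hc _ (S.zpow_mem hsS j)).symm
    · rw [← hCs]
      refine inf_le_inf le_rfl (Subgroup.centralizer_le ?_)
      intro y hy
      rw [Set.mem_singleton_iff.1 hy]
      exact Subgroup.mem_zpowers s
  have hnorm1 : classInner b b = 1 := by
    have h1 := CosetSum.coset_sum (G := G) (S := Subgroup.zpowers s) (C := C)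
      (fun t _ g hg => ‹G.Normal›.conj_mem g hg t) hcop' hC' rfl (fun x => χh x * conj (χh x)) (by
        intro x _ y
        simp only [hcfχ y x])
    rw [cosetAverage_self G χh hχh hres s] at h1
    exact h1.symm
  rcases isIrr_of_generalized hbg hnorm1 with h | h
  · exact ⟨⟨b, h⟩, 1, Or.inl rfl, fun c => by simp [hb]⟩
  · exact ⟨⟨-b, h⟩, -1, Or.inr rfl, fun c => by simp [hb]⟩

/-- A character with values `0, ±1` off the identity on the powers of `s`. -/
theorem zero_iff {S : Type*} [Group S] [Finite S] {D : S → ℂ} (hD : IsCharacter S D)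
    (h : ∀ x, x ≠ 1 → D x = ((0 : ℤ) : ℂ) ∨ D x = ((1 : ℤ) : ℂ) ∨ D x = ((-1 : ℤ) : ℂ)) (s : S) :
    ∀ k : ℕ, s ^ k ≠ 1 → (D (s ^ k) = 0 ↔ D s = 0) := by
  intro k
  induction k using Nat.strong_induction_on with
  | _ k ih =>
  intro hk
  have hk0 : k ≠ 0 := by
    rintro rfl
    exact hk (pow_zero s)
  by_cases hk1 : k = 1
  · rw [hk1, pow_one]
  · have hp := Nat.minFac_prime hk1
    obtain ⟨j, hj⟩ := Nat.minFac_dvd k
    set p := k.minFac with hpdef
    have hj0 : j ≠ 0 := by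
      rintro rfl
      exact hk0 (by rw [hj, mul_zero])
    have hjk : j < k := by
      rw [hj]
      have := hp.two_le
      nlinarith [Nat.pos_of_ne_zero hj0]
    have hpow : s ^ k = (s ^ j) ^ p := by rw [← pow_mul, mul_comm j p, ← hj]
    have hsj : s ^ j ≠ 1 := by
      intro h1
      exact hk (by rw [hpow, h1, one_pow])
    rw [← ih j hjk hsj, hpow]
    have hsk : (s ^ j) ^ p ≠ 1 := by rw [← hpow]; exact hk
    have hpn : ¬ (p : ℤ) ∣ 1 := by
      intro h1
      exact hp.one_lt.ne' (by exact_mod_cast Int.eq_one_of_dvd_one (Int.natCast_nonneg p) h1)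
    have key := fun a b => Cfsg.Agent.J3Type.CharTools.int_congr hD (s ^ j) hp (a := a) (b := b)
    rcases h _ hsj with ha | ha | ha <;> rcases h _ hsk with hb | hb | hb
    · simp [ha, hb]
    · exact absurd (by simpa using key _ _ ha hb) hpn
    · exact absurd (by simpa using key _ _ ha hb) hpn
    · exact absurd (by simpa using key _ _ ha hb) hpn
    · simp [ha, hb]
    · simp [ha, hb]
    · exact absurd (by simpa using key _ _ ha hb) hpn
    · simp [ha, hb]
    · simp [ha, hb]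

end Cfsg.Agent.H595.CycFpf
end

-- part: S4451
section
set_option autoImplicit false
open Cfsg

namespace Cfsg.Agent.S4451

/-- Let the finite group Γ be generated by a normal subgroup G and a cyclic subgroup S of coprime orders such that every non-identity element of S has the same centraliser C = G ⊓ C(S) in G. Let χ be an S-invariant irreducible character of G, χ̂ its canonical extension to Γ (determinantal order coprime to the order of S), and β the irreducible character of C with χ̂(c s) = ε₀ β(c) for c ∈ C and generators s of S (ε₀ = ±1). Then there are a sign ε = ±1, which may differ from ε₀, and a linear character μ of S with μ² = 1, such that: (a) χ̂(c x) = ε β(c) μ(x) for all c ∈ C and all x ∈ S other than 1; (b) the restriction of χ to C equals |S|·ϑ + ε β for some character ϑ of C or ϑ = 0; (c) |S| divides χ(1) − ε β(1). -/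
theorem result {Γ : Type*} [Group Γ] [Fintype Γ] (G S : Subgroup Γ) [Fintype G] (hnorm : ∀ s ∈ S, ∀ g ∈ G, s * g * s⁻¹ ∈ G) (hcop : (Nat.card G).Coprime (Nat.card S)) (htop : G ⊔ S = ⊤) (hcyc : IsCyclic S) (C : Subgroup Γ) [Fintype C] (hC : C = G ⊓ Subgroup.centralizer (S : Set Γ)) (hCG : C ≤ G) (hfpf : ∀ x ∈ S, x ≠ 1 → G ⊓ Subgroup.centralizer ({x} : Set Γ) = C) (χ : Cfsg.IrrCharacter G) (hinv : (∀ s ∈ S, ∀ g g' : G, (g' : Γ) = s * g * s⁻¹ → (χ : G → ℂ) g' = (χ : G → ℂ) g)) (χh : Cfsg.IrrCharacter Γ) (hext : (∀ g : G, (χh : Γ → ℂ) g = (χ : G → ℂ) g)) (hdet : (Cfsg.detOrder (χh : Γ → ℂ)).Coprime (Nat.card S)) (β : Cfsg.IrrCharacter C) (ε₀ : ℤ) (hε₀ : ε₀ = 1 ∨ ε₀ = -1) (hβ : ∀ c : C, ∀ s : Γ, Subgroup.zpowers s = S → (χh : Γ → ℂ) ((c : Γ) * s) = (ε₀ : ℂ) * (β : C → ℂ) c) : ∃ ε : ℤ, (ε = 1 ∨ ε = -1) ∧ (∃ μ : S → ℂ, Cfsg.IsCharacter S μ ∧ μ 1 = 1 ∧ (∀ x : S, μ x * μ x = 1) ∧ ∀ c : C, ∀ x : S, x ≠ 1 → (χh : Γ → ℂ) ((c : Γ) * x) = (ε : ℂ) * (β : C →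 ℂ) c * μ x) ∧ (∃ ϑ : C → ℂ, Cfsg.IsCharacter C ϑ ∧ (fun c : C => (χ : G → ℂ) ⟨c, hCG c.2⟩) = fun c => (Nat.card S : ℂ) * ϑ c + (ε : ℂ) * (β : C → ℂ) c) ∧ (Nat.card S : ℤ) ∣ (Cfsg.charDegree (χ : G → ℂ) : ℤ) - ε * (Cfsg.charDegree (β : C → ℂ) : ℤ) := by
  classical
  have : G.Normal := Cfsg.Agent.H594.Cyclic.normal_of_top hnorm htop
  have hidx : G.index = Nat.card S := Cfsg.Agent.H594.Cyclic.index_eq hcop htop
  obtain ⟨s', hs'⟩ := hcyc.exists_generator
  obtain ⟨s, hsS⟩ := s'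
  have hs : Subgroup.zpowers s = S := by
    apply le_antisymm
    · rw [Subgroup.zpowers_le]; exact hsS
    · intro y hy
      obtain ⟨k, hk⟩ := Subgroup.mem_zpowers_iff.1 (hs' ⟨y, hy⟩)
      exact Subgroup.mem_zpowers_iff.2 ⟨k, congrArg Subtype.val hk⟩
  have hdegχ : (χ : G → ℂ) 1 = (charDegree (χ : G → ℂ) : ℂ) :=
    Cfsg.Agent.Blocks.Basic.irr_one_eq_charDegree χ.2
  have hdegβ : (β : C → ℂ) 1 = (charDegree (β : C → ℂ) : ℂ) :=
    Cfsg.Agent.Blocks.Basic.irr_one_eq_charDegree β.2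
  rcases Nat.lt_or_ge (Nat.card S) 2 with hS | hS
  · -- the trivial case
    have hS1 : Nat.card S = 1 := by
      have : 0 < Nat.card S := Nat.card_pos
      omega
    have hSbot : S = ⊥ := Subgroup.eq_bot_of_card_eq _ hS1
    refine ⟨ε₀, hε₀, ⟨1, Cfsg.Agent.Characters.Core.isCharacter_one, rfl, fun x => by simp, ?_⟩,
      ⟨0, Cfsg.Agent.Characters.Core.isCharacter_zero, ?_⟩, ?_⟩
    · intro c x hx
      refine absurd ?_ hx
      apply Subtype.ext
      have h0 : ∀ y ∈ S, y = 1 := fun y hy => Subgroup.mem_bot.1 (hSbot ▸ hy)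
      exact h0 x x.2
    · funext c
      have h1 := hβ c 1 (by rw [Subgroup.zpowers_one_eq_bot, hSbot])
      rw [mul_one] at h1
      rw [Pi.zero_apply, mul_zero, zero_add, ← h1]
      exact (hext ⟨c, hCG c.2⟩).symm
    · rw [hS1]
      exact one_dvd _
  -- the main case
  have hχres : IsIrrCharacter G (fun g : G => (χh : Γ → ℂ) g) := by
    have : (fun g : G => (χh : Γ → ℂ) g) = (χ : G → ℂ) := funext hext
    rw [this]
    exact χ.2
  have hCS : ∀ c ∈ C, ∀ t ∈ S, c * t = t * c := by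
    intro c hc t ht
    rw [hC] at hc
    exact (Subgroup.mem_centralizer_iff.1 hc.2 t ht).symm
  let φ : C × S →* Γ := MonoidHom.noncommCoprod C.subtype S.subtype (fun c t => hCS c c.2 t t.2)
  have hX : IsCharacter (C × S) ((χh : Γ → ℂ) ∘ φ) :=
    Cfsg.Agent.Characters.Core.isCharacter_comp φ (Cfsg.Agent.Characters.Core.isIrr_isCharacter χh.2)
  let D : IrrCharacter C → S → ℂ := fun γ t =>
    classInner (fun c : C => (χh : Γ → ℂ) ((c : Γ) * t)) (γ : C → ℂ)
  have hD : ∀ γ, IsCharacter S (D γ) := fun γ =>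
    Cfsg.Agent.H594.Cyclic.isCharacter_partial hX (Cfsg.Agent.Characters.Core.isIrr_isCharacter γ.2)
  -- the values on the cosets
  have hcore : ∀ x : S, x ≠ 1 → ∃ (δ : IrrCharacter C) (ε : ℤ), (ε = 1 ∨ ε = -1) ∧
      ∀ c : C, (χh : Γ → ℂ) ((c : Γ) * x) = (ε : ℂ) * (δ : C → ℂ) c := fun x hx =>
    Cfsg.Agent.H595.CycFpf.core_x G S hcop hidx C hC χh.2 hχres hdet x.2
      (hfpf x x.2 (fun h => hx (Subtype.ext h)))
  have hDval : ∀ x : S, x ≠ 1 → ∃ (δ : IrrCharacter C) (ε : ℤ), (ε = 1 ∨ ε = -1) ∧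
      (∀ c : C, (χh : Γ → ℂ) ((c : Γ) * x) = (ε : ℂ) * (δ : C → ℂ) c) ∧
      ∀ γ, D γ x = if γ = δ then (ε : ℂ) else 0 := by
    intro x hx
    obtain ⟨δ, ε, hε, h⟩ := hcore x hx
    refine ⟨δ, ε, hε, h, fun γ => ?_⟩
    have h1 : (fun c : C => (χh : Γ → ℂ) ((c : Γ) * x)) = (ε : ℂ) • (δ : C → ℂ) := funext h
    show classInner (fun c : C => (χh : Γ → ℂ) ((c : Γ) * x)) (γ : C → ℂ) = _
    rw [h1, Cfsg.Agent.Characters.Core.classInner_smul_left]
    by_cases hγ : γ = δ
    · rw [if_pos hγ, hγ, Cfsg.Agent.Characters.Core.classInner_irr_self δ.2, mul_one]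
    · rw [if_neg hγ, Cfsg.Agent.Characters.Core.classInner_irr_ne δ.2 γ.2
        (fun h => hγ (Subtype.ext h.symm)), mul_zero]
  have hD3 : ∀ γ, ∀ x : S, x ≠ 1 →
      D γ x = ((0 : ℤ) : ℂ) ∨ D γ x = ((1 : ℤ) : ℂ) ∨ D γ x = ((-1 : ℤ) : ℂ) := by
    intro γ x hx
    obtain ⟨δ, ε, hε, -, h⟩ := hDval x hx
    rw [h γ]
    by_cases hγ : γ = δ
    · rw [if_pos hγ]
      rcases hε with rfl | rfl
      · exact Or.inr (Or.inl rfl)
      · exact Or.inr (Or.inr rfl)
    · rw [if_neg hγ]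
      exact Or.inl (by simp)
  have hs1 : (⟨s, hsS⟩ : S) ≠ 1 := by
    intro h
    have h1 : s = 1 := congrArg Subtype.val h
    rw [h1, Subgroup.zpowers_one_eq_bot] at hs
    rw [← hs, Subgroup.card_bot] at hS
    omega
  have hε₀0 : (ε₀ : ℂ) ≠ 0 := by rcases hε₀ with h | h <;> rw [h] <;> norm_num
  have hDs : D β ⟨s, hsS⟩ ≠ 0 := by
    have h1 : (fun c : C => (χh : Γ → ℂ) ((c : Γ) * s)) = (ε₀ : ℂ) • (β : C → ℂ) :=
      funext fun c => hβ c s hs
    show classInner (fun c : C => (χh : Γ → ℂ) ((c : Γ) * s)) (β : C → ℂ) ≠ 0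
    rw [h1, Cfsg.Agent.Characters.Core.classInner_smul_left,
      Cfsg.Agent.Characters.Core.classInner_irr_self β.2, mul_one]
    exact hε₀0
  have hDβ : ∀ x : S, x ≠ 1 → D β x ≠ 0 := by
    intro x hx
    have hxs : x ∈ Submonoid.powers (⟨s, hsS⟩ : S) := by
      rw [mem_powers_iff_mem_zpowers]
      exact hs' x
    obtain ⟨k, hk⟩ := hxs
    have hk' : (⟨s, hsS⟩ : S) ^ k = x := hk
    rw [← hk'] at hx ⊢
    intro h0
    exact hDs ((Cfsg.Agent.H595.CycFpf.zero_iff (hD β) (hD3 β) _ k hx).1 h0)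
  have hDall : ∀ x : S, x ≠ 1 → ∃ ε : ℤ, (ε = 1 ∨ ε = -1) ∧
      (∀ c : C, (χh : Γ → ℂ) ((c : Γ) * x) = (ε : ℂ) * (β : C → ℂ) c) ∧
      ∀ γ, D γ x = if γ = β then (ε : ℂ) else 0 := by
    intro x hx
    obtain ⟨δ, ε, hε, h1, h⟩ := hDval x hx
    have h2 : β = δ := by
      by_contra hne
      have := h β
      rw [if_neg hne] at this
      exact hDβ x hx this
    subst h2
    exact ⟨ε, hε, h1, h⟩
  have hab : ∀ x y : S, x * y = y * x := by
    intro x y
    obtain ⟨i, rfl⟩ := Subgroup.mem_zpowers_iff.1 (hs' x)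
    obtain ⟨j, rfl⟩ := Subgroup.mem_zpowers_iff.1 (hs' y)
    rw [← zpow_add, ← zpow_add, add_comm]
  obtain ⟨m, ε, μ, hε, hμ1, hμt, hm⟩ := Cfsg.Agent.H595.CycForm.char_form hab hS (hD β) (by
    intro t ht
    obtain ⟨e, he, -, h⟩ := hDall t ht
    rw [h β, if_pos rfl]
    rcases he with rfl | rfl <;> simp)
  have hεε : (ε : ℂ) * ε = 1 := by rcases hε with rfl | rfl <;> norm_num
  -- the expansion of the restriction of `χ`
  have := Cfsg.Agent.Characters.Core.finite_irr (G := C)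
  have := Fintype.ofFinite (IrrCharacter C)
  have hk : ∀ γ : IrrCharacter C, ∃ k : ℕ,
      D γ 1 = (Nat.card S : ℂ) * k + if γ = β then (ε : ℂ) else 0 := by
    intro γ
    by_cases hγ : γ = β
    · refine ⟨m, ?_⟩
      rw [if_pos hγ, hγ]
      exact hm
    · obtain ⟨k, hk⟩ := Cfsg.Agent.S0189.card_dvd_degree_of_vanishing (⊤ : Subgroup S) (D γ) (hD γ)
        (by
          intro g _ hg
          obtain ⟨e, he, -, h⟩ := hDall g hg
          rw [h γ, if_neg hγ])
      refine ⟨k, ?_⟩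
      rw [if_neg hγ, add_zero, hk, Subgroup.card_top]
  choose k hk using hk
  have hχC : (fun c : C => (χ : G → ℂ) ⟨c, hCG c.2⟩) = fun c : C =>
      (Nat.card S : ℂ) * (∑ γ : IrrCharacter C, (k γ : ℕ) • (γ : C → ℂ)) c +
        (ε : ℂ) * (β : C → ℂ) c := by
    have hcf : IsClassFunction C (fun c : C => (χ : G → ℂ) ⟨c, hCG c.2⟩) :=
      Cfsg.Agent.Characters.Core.isCharacter_isClassFunction
        (Cfsg.Agent.Characters.Core.isCharacter_comp (Subgroup.inclusion hCG)
          (Cfsg.Agent.Characters.Core.isIrr_isCharacter χ.2))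
    have h1 : ∀ γ : IrrCharacter C,
        classInner (fun c : C => (χ : G → ℂ) ⟨c, hCG c.2⟩) (γ : C → ℂ) = D γ 1 := by
      intro γ
      show _ = classInner (fun c : C => (χh : Γ → ℂ) ((c : Γ) * ((1 : S) : Γ))) (γ : C → ℂ)
      congr 1
      funext c
      rw [OneMemClass.coe_one, mul_one]
      exact (hext ⟨c, hCG c.2⟩).symm
    conv_lhs => rw [Cfsg.Agent.Characters.Core.classFunction_eq_sum hcf]
    funext c
    rw [Finset.sum_apply, Finset.sum_apply, Finset.mul_sum]
    have h2 : (ε : ℂ) * (β : C → ℂ) c = ∑ γ : IrrCharacter C,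
        (if γ = β then (ε : ℂ) else 0) * (γ : C → ℂ) c := by
      simp only [ite_mul, zero_mul, Finset.sum_ite_eq', Finset.mem_univ, if_true]
    rw [h2, ← Finset.sum_add_distrib]
    refine Finset.sum_congr rfl fun γ _ => ?_
    rw [h1, hk, Pi.smul_apply, Pi.smul_apply, smul_eq_mul, nsmul_eq_mul]
    ring
  have hϑ : IsCharacter C (∑ γ : IrrCharacter C, (k γ : ℕ) • (γ : C → ℂ)) :=
    Cfsg.Agent.Characters.Core.isCharacter_sum _ fun γ _ =>
      Cfsg.Agent.Characters.Core.isCharacter_nsmul _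
        (Cfsg.Agent.Characters.Core.isIrr_isCharacter γ.2)
  refine ⟨ε, hε, ⟨(μ : S → ℂ), Cfsg.Agent.Characters.Core.isIrr_isCharacter μ.2, hμ1, ?_, ?_⟩,
    ⟨_, hϑ, hχC⟩, ?_⟩
  · intro x
    by_cases hx : x = 1
    · rw [hx, hμ1, mul_one]
    · obtain ⟨e, he, -, h⟩ := hDall x hx
      have h1 := hμt x hx
      rw [h β, if_pos rfl] at h1
      have h2 : (e : ℂ) * e = 1 := by rcases he with rfl | rfl <;> norm_num
      calc (μ : S → ℂ) x * (μ : S → ℂ) x
          = ((ε : ℂ) * ε) * ((μ : S → ℂ) x * (μ : S → ℂ) x) := by rw [hεε, one_mul]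
        _ = ((ε : ℂ) * (μ : S → ℂ) x) * ((ε : ℂ) * (μ : S → ℂ) x) := by ring
        _ = 1 := by rw [← h1, h2]
  · intro c x hx
    obtain ⟨e, he, h0, h⟩ := hDall x hx
    have h1 := hμt x hx
    rw [h β, if_pos rfl] at h1
    rw [h0, h1]
    ring
  · obtain ⟨d, hd⟩ := Cfsg.Agent.Characters.Core.isCharacter_apply_one hϑ
    have h1 := congrFun hχC 1
    have h2 : (charDegree (χ : G → ℂ) : ℂ) = (Nat.card S : ℂ) * d +
        (ε : ℂ) * (charDegree (β : C → ℂ) : ℂ) := by
      rw [← hdegχ, ← hdegβ, ← hd]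
      exact h1
    refine ⟨d, ?_⟩
    have h3 : ((charDegree (χ : G → ℂ) : ℤ) : ℂ) =
        (((Nat.card S : ℤ) * d + ε * (charDegree (β : C → ℂ) : ℤ) : ℤ) : ℂ) := by
      push_cast
      exact h2
    have h4 : (charDegree (χ : G → ℂ) : ℤ) =
        (Nat.card S : ℤ) * d + ε * (charDegree (β : C → ℂ) : ℤ) := by exact_mod_cast h3
    rw [h4]
    ring

end Cfsg.Agent.S4451
end
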