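import Cfsg.Agent.SignalizersComponents.BaerTrick
import Cfsg.Agent.Lib.CoprimeAbelian
import Cfsg.Agent.H595.Solv
import Cfsg.Agent.OddOrderCharacters.PF9.CliffGen
import Cfsg.Agent.CharDeep.CliffordCorr
import Cfsg.Agent.CharDeep.IrrEquiv
import Cfsg.Agent.H596.CoverCor
import Cfsg.Agent.H596.CoverAct
import Cfsg.Agent.H594.GlauUp
import Cfsg.Agent.Blocks.Basic
import Cfsg.Statements.S4453
import Cfsg.Agent.H595.Conj
import Cfsg.Agent.Solvable.Glauberman
set_option linter.all false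

-- part: H596/BaerTrace
section
/-!
# The trace of a group of automorphisms on a group of odd order and class at most two

`N` is a finite group of odd order and class at most two and the finite group `S` acts on it. The
product over `S` in the commutative group given by the Baer trick is a map `P : N → N`.
-/

set_option autoImplicit false

open scoped commutatorElement

namespace Cfsg.Agent.H596.BaerTrace

open Cfsg.Agent.SignalizersComponents.BaerTrick

universe u

theorem exists_copy {N : Type u} [Group N] (hc : ∀ x y : N, ⁅x, y⁆ ∈ Subgroup.center N) {h : ℕ}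
    (hh : ∀ x : N, x ^ (2 * h) = x) :
    ∃ (V : Type u) (_ : CommGroup V) (e : N ≃ V), ∀ x y, e (bmul h x y) = e x * e y := by
  let inst : CommGroup (Copy N) := baerGroup hc hh
  exact ⟨Copy N, inst, (Equiv.refl N : N ≃ Copy N), fun x y => rfl⟩

variable {N : Type*} [Group N]

theorem mul_eq_bmul (hc : ∀ x y : N, ⁅x, y⁆ ∈ Subgroup.center N) (h : ℕ) (x y : N) :
    x * y = bmul h (bmul h x y) (⁅x, y⁆ ^ h) := by
  have c1 : ⁅x, y⁆ ^ h ∈ Subgroup.center N := Subgroup.pow_mem _ (hc _ _) _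
  rw [bmul_def, bmul_def, comm_of_mem_center_left c1, one_pow, mul_one, mul_assoc (x * y),
    ← commutatorElement_inv x y, inv_pow, inv_mul_cancel, mul_one]

theorem bmul_of_commute (h : ℕ) {x y : N} (hxy : Commute x y) : bmul h x y = x * y := by
  rw [bmul_def, (commutatorElement_eq_one_iff_mul_comm).mpr hxy.symm.eq, one_pow, mul_one]

/-- The Baer trace. -/
theorem exists_trace (N : Type*) [Group N] [Finite N] (hodd : Odd (Nat.card N))
    (hc : ∀ x y : N, ⁅x, y⁆ ∈ Subgroup.center N) (S : Type*) [Group S] [Finite S]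
    [MulDistribMulAction S N] :
    ∃ (P : N → N) (h : ℕ), (∀ x : N, x ^ (2 * h) = x) ∧
      (∀ (s : S) x, s • P x = P x) ∧ (∀ (s : S) x, P (s • x) = P x) ∧
      (∀ α : N →* N, (∀ (s : S) x, α (s • x) = s • α x) → ∀ x, P (α x) = α (P x)) ∧
      (∀ x, (∀ s : S, s • x = x) → P x = x ^ Nat.card S) ∧
      (∀ x y, (∀ s : S, s • ⁅x, y⁆ = ⁅x, y⁆) →
        P (x * y) = P x * P y * ⁅P y, P x⁆ ^ h * ⁅x, y⁆ ^ (h * Nat.card S)) ∧
      (∀ (A : Type) [CommGroup A] (R : Subgroup N), (∀ (s : S), ∀ x ∈ R, s • x ∈ R) →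
        ∀ μ : R →* A, (∀ (s : S) (x y : R), (y : N) = s • (x : N) → μ y = μ x) →
          ∀ (x : R), ∃ hx : P x ∈ R, μ ⟨P x, hx⟩ = μ x ^ Nat.card S) := by
  classical
  obtain ⟨k, hk⟩ := hodd
  have hh : ∀ x : N, x ^ (2 * (k + 1)) = x := by
    intro x
    have h1 : 2 * (k + 1) = Nat.card N + 1 := by rw [hk]; ring
    rw [h1, pow_succ, pow_card_eq_one', one_mul]
  obtain ⟨h, rfl⟩ : ∃ h, h = k + 1 := ⟨_, rfl⟩
  generalize k + 1 = h at hh
  have hfS : Fintype S := Fintype.ofFinite S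
  obtain ⟨V, _, e, he⟩ := exists_copy hc hh
  have he1 : e 1 = 1 := by
    have := he 1 1
    rw [one_bmul] at this
    exact mul_eq_left.1 this.symm
  have hepow : ∀ (x : N) (n : ℕ), e (x ^ n) = e x ^ n := by
    intro x n
    induction n with
    | zero => rw [pow_zero, pow_zero, he1]
    | succ n ih =>
      rw [pow_succ, pow_succ, ← ih, ← he, bmul_of_commute h (Commute.pow_left rfl n)]
  let P : N → N := fun x => e.symm (∏ s : S, e (s • x))
  have hP : ∀ x : N, e (P x) = ∏ s : S, e (s • x) := fun x => e.apply_symm_apply _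
  -- endomorphisms
  let lift : (N →* N) → (V →* V) := fun α =>
    { toFun := fun x => e (α (e.symm x))
      map_one' := by
        rw [← he1, e.symm_apply_apply, map_one]
      map_mul' := fun x y => by
        obtain ⟨x, rfl⟩ := e.surjective x
        obtain ⟨y, rfl⟩ := e.surjective y
        rw [← he, e.symm_apply_apply, e.symm_apply_apply, e.symm_apply_apply, map_bmul, he] }
  have hlift : ∀ (α : N →* N) (x : N), lift α (e x) = e (α x) := fun α x => by
    show e (α (e.symm (e x))) = _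
    rw [e.symm_apply_apply]
  have hact : ∀ (s : S) (x : N), e (s • x) = lift (MulDistribMulAction.toMonoidHom N s) (e x) :=
    fun s x => by rw [hlift]; rfl
  refine ⟨P, h, hh, ?_, ?_, ?_, ?_, ?_, ?_⟩
  · intro s x
    apply e.injective
    rw [hact, hP, map_prod]
    refine Fintype.prod_bijective (fun t : S => s * t) (Group.mulLeft_bijective s) _ _ fun t => ?_
    rw [← hact, mul_smul]
  · intro s x
    apply e.injective
    rw [hP, hP]
    refine Fintype.prod_bijective (fun t : S => t * s) (Group.mulRight_bijective s) _ _ fun t => ?_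
    rw [mul_smul]
  · intro α hα x
    apply e.injective
    rw [← hlift, hP, hP, map_prod]
    refine Finset.prod_congr rfl fun s _ => ?_
    rw [hlift, hα]
  · intro x hx
    apply e.injective
    rw [hP, hepow, Finset.prod_congr rfl fun s _ => by rw [hx s], Finset.prod_const,
      Finset.card_univ, Nat.card_eq_fintype_card]
  · intro x y hxy
    have e0 : ∀ a b : N, P (bmul h a b) = bmul h (P a) (P b) := by
      intro a b
      apply e.injective
      rw [hP, he, hP, hP, ← Finset.prod_mul_distrib]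
      refine Finset.prod_congr rfl fun s _ => ?_
      rw [hact, he, map_mul, ← hact, ← hact]
    have e1 : P (⁅x, y⁆ ^ h) = ⁅x, y⁆ ^ (h * Nat.card S) := by
      apply e.injective
      rw [hP, Finset.prod_congr rfl fun s _ => by rw [smul_pow', hxy s], Finset.prod_const,
        Finset.card_univ, Nat.card_eq_fintype_card, pow_mul, hepow _ (Fintype.card S)]
    have e2 : ⁅x, y⁆ ^ (h * Nat.card S) ∈ Subgroup.center N := Subgroup.pow_mem _ (hc _ _) _
    rw [mul_eq_bmul hc h x y, e0, e0, e1, bmul_of_commute h, bmul_def]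
    exact (Subgroup.mem_center_iff.mp e2 _)
  · intro A _ R hR μ hμ x
    -- the subgroup of the Baer group
    let R' : Subgroup V :=
      { carrier := {y : V | e.symm y ∈ R}
        mul_mem' := by
          intro a b ha hb
          obtain ⟨a, rfl⟩ := e.surjective a
          obtain ⟨b, rfl⟩ := e.surjective b
          rw [Set.mem_ofPred_eq, e.symm_apply_apply] at ha hb
          rw [Set.mem_ofPred_eq, ← he, e.symm_apply_apply, bmul_def]
          refine R.mul_mem (R.mul_mem ha hb) (R.pow_mem ?_ _)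
          rw [commutatorElement_def]
          exact R.mul_mem (R.mul_mem (R.mul_mem hb ha) (R.inv_mem hb)) (R.inv_mem ha)
        one_mem' := by
          rw [Set.mem_ofPred_eq, ← he1, e.symm_apply_apply]
          exact R.one_mem
        inv_mem' := by
          intro a ha
          obtain ⟨a, rfl⟩ := e.surjective a
          rw [Set.mem_ofPred_eq, e.symm_apply_apply] at ha
          have h1 : e a⁻¹ = (e a)⁻¹ := by
            rw [eq_inv_iff_mul_eq_one, ← he, inv_bmul, he1]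
          rw [Set.mem_ofPred_eq, ← h1, e.symm_apply_apply]
          exact R.inv_mem ha }
    have hR' : ∀ y : V, y ∈ R' ↔ e.symm y ∈ R := fun y => Iff.rfl
    let μ' : R' →* A :=
      { toFun := fun y => μ ⟨e.symm (y : V), y.2⟩
        map_one' := by
          rw [← map_one μ]
          congr 1
          apply Subtype.ext
          show e.symm 1 = 1
          rw [← he1, e.symm_apply_apply]
        map_mul' := by
          intro a b
          have ha' : e.symm (a : V) ∈ R := a.2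
          have hb' : e.symm (b : V) ∈ R := b.2
          have e5 : (⟨e.symm ((a * b : R') : V), (a * b).2⟩ : R) =
              ⟨e.symm (a : V), ha'⟩ * ⟨e.symm (b : V), hb'⟩ *
                ⁅(⟨e.symm (b : V), hb'⟩ : R), ⟨e.symm (a : V), ha'⟩⁆ ^ h := by
            apply Subtype.ext
            show e.symm ((a : V) * (b : V)) = e.symm (a : V) * e.symm (b : V) *
              ⁅e.symm (b : V), e.symm (a : V)⁆ ^ h
            rw [← bmul_def]
            apply e.injective
            rw [he, e.apply_symm_apply, e.apply_symm_apply, e.apply_symm_apply]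
          rw [e5, map_mul, map_mul, map_pow, map_commutatorElement,
            commutatorElement_eq_one_iff_mul_comm.mpr (mul_comm _ _), one_pow, mul_one] }
    have hmem : ∀ s : S, e (s • (x : N)) ∈ R' := fun s => by
      rw [hR', e.symm_apply_apply]
      exact hR s x x.2
    have e1 : e (P x) = ((∏ s : S, (⟨e (s • (x : N)), hmem s⟩ : R') : R') : V) := by
      rw [hP, Subgroup.val_finsetProd]
    have hx : P x ∈ R := by
      have h1 := (∏ s : S, (⟨e (s • (x : N)), hmem s⟩ : R') : R').2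
      rw [← e1, hR', e.symm_apply_apply] at h1
      exact h1
    refine ⟨hx, ?_⟩
    have e2 : μ ⟨P x, hx⟩ = μ' (∏ s : S, (⟨e (s • (x : N)), hmem s⟩ : R')) := by
      show _ = μ ⟨_, _⟩
      congr 1
      apply Subtype.ext
      show P x = e.symm _
      rw [← e1, e.symm_apply_apply]
    rw [e2, map_prod]
    have e3 : ∀ s : S, μ' ⟨e (s • (x : N)), hmem s⟩ = μ x := by
      intro s
      refine hμ s x ⟨_, _⟩ ?_
      exact e.symm_apply_apply _
    rw [Finset.prod_congr rfl fun s _ => e3 s, Finset.prod_const, Finset.card_univ,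
      Nat.card_eq_fintype_card]

end Cfsg.Agent.H596.BaerTrace
end

-- part: H596/OddConf
section
/-!
# Central configurations

`S` acts on the finite group `G` of odd order, with coprime orders; `K` is a normal `S`-invariant
subgroup, with `⁅K, K⁆ ≤ Z`, where `Z ≤ K` is a central subgroup of `G` fixed by `S`; and `G` is the
product of `K` and the fixed points of `S`.
-/

set_option autoImplicit false

open scoped commutatorElement

namespace Cfsg.Agent.H596.OddConf

open Cfsg.Agent.H596.BaerTrace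

variable {G : Type*} [Group G] {S : Type*} [Group S] [MulDistribMulAction S G]

/-- A central configuration. -/
structure Conf (S : Type*) [Group S] [MulDistribMulAction S G] (K Z : Subgroup G) : Prop where
  normal : K.Normal
  smul_mem : ∀ (s : S), ∀ k ∈ K, s • k ∈ K
  le : Z ≤ K
  center : Z ≤ Subgroup.center G
  fix : ∀ z ∈ Z, ∀ s : S, s • z = z
  comm : ∀ a ∈ K, ∀ b ∈ K, ⁅a, b⁆ ∈ Z
  gen : ∀ g, ∃ k ∈ K, ∃ h, (∀ s : S, s • h = h) ∧ g = k * h
  odd : Odd (Nat.card G)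
  cop : (Nat.card G).Coprime (Nat.card S)

/-- Exponents inverting `m` modulo `n`. -/
theorem exists_exp {n m : ℕ} (hn : n ≠ 0) (h : n.Coprime m) (W : Type*) [Group W]
    (hW : ∀ x : W, x ^ n = 1) : ∃ j : ℕ, ∀ x : W, x ^ (m * j) = x := by
  rcases Nat.lt_or_ge 1 n with h1 | h1
  · obtain ⟨j, -, hj⟩ := Nat.exists_mul_mod_eq_one_of_coprime h.symm h1
    refine ⟨j, fun x => ?_⟩
    have h2 := Nat.div_add_mod (m * j) n
    rw [hj] at h2
    rw [← h2, pow_add, pow_mul, hW, one_pow, one_mul, pow_one]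
  · have h2 : n = 1 := by omega
    subst h2
    refine ⟨0, fun x => ?_⟩
    have := hW x
    rw [pow_one] at this
    rw [this, one_pow]

/-- The trace on `K`, as a function on `K` with values in `G`. -/
theorem Conf.exists_trace [Finite G] [Finite S] {K Z : Subgroup G} (c : Conf S K Z) :
    ∃ (P : G → G) (h j : ℕ), (∀ x : G, x ^ (2 * h) = x) ∧ (∀ x : G, x ^ (Nat.card S * j) = x) ∧
      (∀ x ∈ K, P x ∈ K) ∧
      (∀ x ∈ K, ∀ s : S, s • P x = P x) ∧ (∀ x ∈ K, ∀ s : S, P (s • x) = P x) ∧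
      (∀ g : G, (∀ s : S, s • g = g) → ∀ x ∈ K, P (g * x * g⁻¹) = g * P x * g⁻¹) ∧
      (∀ x ∈ K, (∀ s : S, s • x = x) → P x = x ^ Nat.card S) ∧
      (∀ x ∈ K, ∀ y ∈ K,
        P (x * y) = P x * P y * ⁅P y, P x⁆ ^ h * ⁅x, y⁆ ^ (h * Nat.card S)) ∧
      (∀ (A : Type) [CommGroup A] (R : Subgroup G), R ≤ K → (∀ (s : S), ∀ x ∈ R, s • x ∈ R) →
        ∀ μ : R →* A, (∀ (s : S) (x y : R), (y : G) = s • (x : G) → μ y = μ x) →
          ∀ (x : R), ∃ hx : P x ∈ R, μ ⟨P x, hx⟩ = μ x ^ Nat.card S) := by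
  classical
  have hn := c.normal
  let act : MulDistribMulAction S K :=
    { smul := fun s k => ⟨s • (k : G), c.smul_mem s k k.2⟩
      one_smul := fun k => Subtype.ext (one_smul S (k : G))
      mul_smul := fun s t k => Subtype.ext (mul_smul s t (k : G))
      smul_mul := fun s x y => Subtype.ext (smul_mul' s (x : G) (y : G))
      smul_one := fun s => Subtype.ext (smul_one s) }
  have hact : ∀ (s : S) (k : K), ((s • k : K) : G) = s • (k : G) := fun s k => rfl
  have hodd : Odd (Nat.card K) := by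
    obtain ⟨m, hm⟩ := Subgroup.card_subgroup_dvd_card K
    have h1 := c.odd
    rw [hm] at h1
    exact (Nat.odd_mul.1 h1).1
  have hc : ∀ x y : K, ⁅x, y⁆ ∈ Subgroup.center K := by
    intro x y
    rw [Subgroup.mem_center_iff]
    intro z
    apply Subtype.ext
    have h1 := Subgroup.mem_center_iff.1 (c.center (c.comm x x.2 y y.2)) (z : G)
    exact h1
  obtain ⟨P, h, hh, h1, h2, h3, h4, h5, h6⟩ := BaerTrace.exists_trace K hodd hc S
  obtain ⟨h', hh'⟩ : ∃ h' : ℕ, ∀ x : G, x ^ (2 * h') = x := by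
    obtain ⟨k, hk⟩ := c.odd
    refine ⟨k + 1, fun x => ?_⟩
    have h1 : 2 * (k + 1) = Nat.card G + 1 := by rw [hk]; ring
    rw [h1, pow_succ, pow_card_eq_one', one_mul]
  obtain ⟨j, hj⟩ := exists_exp (Nat.card_pos (α := G)).ne' c.cop G (fun x => pow_card_eq_one')
  -- the exponents agree on `K`
  have hK : ∀ x : K, x ^ h = x ^ h' := by
    intro x
    have e1 : (x : G) ^ (2 * h') = x := hh' x
    have e2 : x ^ (2 * h') = x := Subtype.ext (by rw [Subgroup.coe_pow]; exact e1)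
    calc x ^ h = (x ^ (2 * h')) ^ h := by rw [e2]
      _ = (x ^ (2 * h)) ^ h' := by rw [← pow_mul, ← pow_mul]; congr 1; ring
      _ = x ^ h' := by rw [hh]
  let Q : G → G := fun x => if hx : x ∈ K then (P ⟨x, hx⟩ : K) else 1
  have hQ : ∀ (x : K), Q x = P x := fun x => by
    show (if hx : (x : G) ∈ K then ((P ⟨x, hx⟩ : K) : G) else 1) = _
    rw [dif_pos x.2]
  have hfix : ∀ (x : K) (s : S), s • x = x ↔ s • (x : G) = x := by
    intro x s
    rw [← hact, Subtype.ext_iff]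
  refine ⟨Q, h', j, hh', hj, ?_, ?_, ?_, ?_, ?_, ?_, ?_⟩
  · intro x hx
    lift x to K using hx
    rw [hQ]; exact (P x).2
  · intro x hx s
    lift x to K using hx
    rw [hQ, ← hact, h1]
  · intro x hx s
    lift x to K using hx
    rw [hQ, ← hact, hQ, h2]
  · intro g hg x hx
    lift x to K using hx
    have e1 : g * (x : G) * g⁻¹ = (MulAut.conjNormal g x : K) := (MulAut.conjNormal_apply g x).symm
    rw [hQ, e1, hQ]
    have e2 := h3 (MulAut.conjNormal g : MulAut K).toMonoidHom (by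
      intro s y
      apply Subtype.ext
      show ((MulAut.conjNormal g (s • y) : K) : G) = s • ((MulAut.conjNormal g y : K) : G)
      rw [MulAut.conjNormal_apply, MulAut.conjNormal_apply, hact, smul_mul', smul_mul', smul_inv',
        hg]) x
    have e3 := congrArg (fun y : K => (y : G)) e2
    refine e3.trans ?_
    exact MulAut.conjNormal_apply g (P x)
  · intro x hx hs
    lift x to K using hx
    rw [hQ, h4 x fun s => (hfix x s).2 (hs s), Subgroup.coe_pow]
  · intro x hx y hy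
    lift x to K using hx
    lift y to K using hy
    have e1 : ∀ s : S, s • ⁅x, y⁆ = ⁅x, y⁆ := by
      intro s
      rw [hfix]
      exact c.fix _ (c.comm x x.2 y y.2) s
    have e2 := h5 x y e1
    rw [pow_mul, hK, hK, ← pow_mul] at e2
    rw [hQ, hQ, ← Subgroup.coe_mul, hQ, e2]
    simp only [Subgroup.coe_mul, Subgroup.coe_pow, commutatorElement_def, Subgroup.coe_inv]
  · intro A _ R hR hRS μ hμ x
    let R' : Subgroup K := R.subgroupOf K
    let i : R' →* R := (Subgroup.subgroupOfEquivOfLe hR).toMonoidHom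
    have hi : ∀ y : R', ((i y : R) : G) = ((y : K) : G) := fun y => rfl
    obtain ⟨hx, hx'⟩ := h6 A R' (by
      intro s y hy
      exact hRS s y hy) (μ.comp i) (by
      intro s y z hyz
      refine hμ s (i y) (i z) ?_
      rw [hi, hi, hyz, hact]) ⟨⟨x, hR x.2⟩, x.2⟩
    have e1 : Q x = P ⟨x, hR x.2⟩ := hQ ⟨x, hR x.2⟩
    have e2 : Q x ∈ R := by
      rw [e1]; exact hx
    refine ⟨e2, ?_⟩
    have e3 : μ ⟨Q x, e2⟩ = (μ.comp i) ⟨P ⟨x, hR x.2⟩, hx⟩ := by
      show _ = μ (i _)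
      congr 1
      apply Subtype.ext
      rw [hi]
      exact e1
    rw [e3, hx']
    rfl

theorem commutator_pow_mem {Z : Subgroup G} {a : G} (ha : a ∈ Z) (n : ℕ) : a ^ n ∈ Z :=
  Z.pow_mem ha n

/-- Reduction to the case that the fixed points of `S` in `K` lie in `Z`. -/
theorem Conf.exists_reduced [Finite G] [Finite S] {K Z : Subgroup G} (c : Conf S K Z) :
    ∃ M : Subgroup G, Conf S M Z ∧ ∀ x ∈ M, (∀ s : S, s • x = x) → x ∈ Z := by
  have hn := c.normal
  obtain ⟨P, h, j, hh, hj, hPK, hPs, hsP, hPc, hPf, hPm, -⟩ := c.exists_trace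
  have hZc : ∀ z ∈ Z, ∀ g : G, g * z = z * g := fun z hz g =>
    Subgroup.mem_center_iff.1 (c.center hz) g
  have hcomm1 : ∀ z ∈ Z, ∀ g : G, ⁅z, g⁆ = 1 := fun z hz g =>
    commutatorElement_eq_one_iff_mul_comm.2 (hZc z hz g).symm
  have hcomm2 : ∀ z ∈ Z, ∀ g : G, ⁅g, z⁆ = 1 := fun z hz g =>
    commutatorElement_eq_one_iff_mul_comm.2 (hZc z hz g)
  have hP1 : P 1 = 1 := by
    rw [hPf 1 K.one_mem fun s => smul_one s, one_pow]
  let M : Subgroup G :=
    { carrier := {x | x ∈ K ∧ P x ∈ Z}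
      mul_mem' := by
        rintro x y ⟨hx, hx'⟩ ⟨hy, hy'⟩
        refine ⟨K.mul_mem hx hy, ?_⟩
        rw [hPm x hx y hy, hcomm1 _ hy', one_pow, mul_one]
        exact Z.mul_mem (Z.mul_mem hx' hy') (Z.pow_mem (c.comm x hx y hy) _)
      one_mem' := ⟨K.one_mem, by rw [hP1]; exact Z.one_mem⟩
      inv_mem' := by
        rintro x ⟨hx, hx'⟩
        refine ⟨K.inv_mem hx, ?_⟩
        have h1 := hPm x hx x⁻¹ (K.inv_mem hx)
        rw [mul_inv_cancel, hP1, hcomm2 _ hx', one_pow, mul_one,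
          commutatorElement_eq_one_iff_mul_comm.2 (by rw [mul_inv_cancel, inv_mul_cancel]), one_pow,
          mul_one] at h1
        rw [eq_inv_of_mul_eq_one_right h1.symm]
        exact Z.inv_mem hx' }
  have hM : ∀ x, x ∈ M ↔ x ∈ K ∧ P x ∈ Z := fun x => Iff.rfl
  refine ⟨M, ⟨?_, ?_, ?_, c.center, c.fix, ?_, ?_, c.odd, c.cop⟩, ?_⟩
  · refine ⟨fun x hx g => ?_⟩
    obtain ⟨hx, hx'⟩ := (hM x).1 hx
    obtain ⟨k, hk, g, hg, rfl⟩ := c.gen g
    have e0 : ∀ y ∈ M, k * y * k⁻¹ ∈ M := by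
      intro y hy
      obtain ⟨hy, hy'⟩ := (hM y).1 hy
      have e1 : k * y * k⁻¹ = ⁅k, y⁆ * y := by rw [commutatorElement_def]; group
      have e2 := c.comm k hk y hy
      have e3 := c.le e2
      rw [e1, hM]
      refine ⟨K.mul_mem e3 hy, ?_⟩
      rw [hPm _ e3 y hy, hcomm1 _ e2, one_pow, mul_one, hPf _ e3 (c.fix _ e2), hcomm1 _ hy',
        one_pow, mul_one]
      exact Z.mul_mem (Z.pow_mem e2 _) hy'
    have e1 : k * g * x * (k * g)⁻¹ = k * (g * x * g⁻¹) * k⁻¹ := by group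
    rw [e1]
    apply e0
    rw [hM, hPc g hg x hx]
    refine ⟨hn.conj_mem x hx g, ?_⟩
    rw [hZc _ hx', mul_inv_cancel_right]
    exact hx'
  · intro s x hx
    obtain ⟨hx, hx'⟩ := (hM x).1 hx
    rw [hM, hsP x hx]
    exact ⟨c.smul_mem s x hx, hx'⟩
  · intro z hz
    rw [hM, hPf z (c.le hz) (c.fix z hz)]
    exact ⟨c.le hz, Z.pow_mem hz _⟩
  · intro a ha b hb
    exact c.comm a ((hM a).1 ha).1 b ((hM b).1 hb).1
  · intro g
    obtain ⟨k, hk, g, hg, rfl⟩ := c.gen g
    have hf : ∀ s : S, s • (P k ^ j) = P k ^ j := fun s => by rw [smul_pow', hPs k hk]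
    have hkj : P k ^ j ∈ K := K.pow_mem (hPK k hk) _
    refine ⟨k * (P k ^ j)⁻¹, ?_, P k ^ j * g, ?_, by group⟩
    · rw [hM]
      refine ⟨K.mul_mem hk (K.inv_mem hkj), ?_⟩
      have e1 : P (P k ^ j)⁻¹ = (P k)⁻¹ := by
        rw [hPf _ (K.inv_mem hkj) (fun s => by rw [smul_inv', hf]), inv_pow, ← pow_mul,
          mul_comm j, hj]
      rw [hPm _ hk _ (K.inv_mem hkj), e1, mul_inv_cancel, one_mul,
        commutatorElement_eq_one_iff_mul_comm.2 (by rw [mul_inv_cancel, inv_mul_cancel]), one_pow,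
        one_mul]
      exact Z.pow_mem (c.comm _ hk _ (K.inv_mem hkj)) _
    · intro s
      rw [smul_mul', hf, hg]
  · intro x hx hs
    obtain ⟨hx, hx'⟩ := (hM x).1 hx
    rw [hPf x hx hs] at hx'
    rw [← hj x, pow_mul]
    exact Z.pow_mem hx' _

/-- The quadratic map of a reduced central configuration. -/
theorem Conf.exists_quad [Finite G] [Finite S] {K Z : Subgroup G} (c : Conf S K Z)
    (hK : ∀ x ∈ K, (∀ s : S, s • x = x) → x ∈ Z) :
    ∃ F : G → G, (∀ x ∈ K, F x ∈ Z) ∧ (∀ x ∈ K, ∀ y ∈ K, F (x * y) = F x * F y * ⁅x, y⁆) ∧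
      (∀ z ∈ Z, F z = z * z) ∧ (∀ x ∈ K, ∀ s : S, F (s • x) = F x) ∧
      (∀ g : G, (∀ s : S, s • g = g) → ∀ x ∈ K, F (g * x * g⁻¹) = F x) ∧
      (∀ (R : Subgroup G), R ≤ K → (∀ (s : S), ∀ x ∈ R, s • x ∈ R) →
        ∀ μ : R →* ℂˣ, (∀ (s : S) (x y : R), (y : G) = s • (x : G) → μ y = μ x) →
          ∀ (x : R), F x = 1 → μ x = 1) := by
  have hn := c.normal
  obtain ⟨P, h, j, hh, hj, hPK, hPs, hsP, hPc, hPf, hPm, hPμ⟩ := c.exists_trace
  have hZc : ∀ z ∈ Z, ∀ g : G, g * z = z * g := fun z hz g =>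
    Subgroup.mem_center_iff.1 (c.center hz) g
  have hcomm1 : ∀ z ∈ Z, ∀ g : G, ⁅z, g⁆ = 1 := fun z hz g =>
    commutatorElement_eq_one_iff_mul_comm.2 (hZc z hz g).symm
  have hPZ : ∀ x ∈ K, P x ∈ Z := fun x hx => hK _ (hPK x hx) (hPs x hx)
  refine ⟨fun x => P x ^ (2 * j), ?_, ?_, ?_, ?_, ?_, ?_⟩
  · intro x hx
    exact Z.pow_mem (hPZ x hx) _
  · intro x hx y hy
    have e1 := c.comm x hx y hy
    show P (x * y) ^ (2 * j) = P x ^ (2 * j) * P y ^ (2 * j) * ⁅x, y⁆
    rw [hPm x hx y hy, hcomm1 _ (hPZ y hy), one_pow, mul_one,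
      (show Commute (P x * P y) (⁅x, y⁆ ^ (h * Nat.card S)) from hZc _ (Z.pow_mem e1 _) _).mul_pow,
      (show Commute (P x) (P y) from hZc _ (hPZ y hy) _).mul_pow, ← pow_mul]
    congr 1
    rw [show h * Nat.card S * (2 * j) = (Nat.card S * j) * (2 * h) by ring, pow_mul, hj, hh]
  · intro z hz
    show P z ^ (2 * j) = z * z
    rw [hPf z (c.le hz) (c.fix z hz), ← pow_mul, show Nat.card S * (2 * j) = Nat.card S * j * 2 by ring,
      pow_mul, hj, pow_two]
  · intro x hx s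
    show P (s • x) ^ (2 * j) = P x ^ (2 * j)
    rw [hsP x hx]
  · intro g hg x hx
    show P (g * x * g⁻¹) ^ (2 * j) = P x ^ (2 * j)
    rw [hPc g hg x hx, hZc _ (hPZ x hx), mul_inv_cancel_right]
  · intro R hR hRS μ hμ x hx
    obtain ⟨h1, h2⟩ := hPμ ℂˣ R hR hRS μ hμ x
    have h3 : P x = 1 := by
      have e1 : P x ^ (2 * j) = 1 := hx
      have e2 : P x ^ 2 = 1 := by
        rw [← hj (P x ^ 2), ← pow_mul, show 2 * (Nat.card S * j) = 2 * j * Nat.card S by ring, pow_mul,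
          e1, one_pow]
      rw [← hh (P x), pow_mul, e2, one_pow]
    have h4 : μ ⟨P x, h1⟩ = 1 := by
      rw [← map_one μ]
      congr 1
      exact Subtype.ext h3
    rw [h4] at h2
    have h5 : x ^ (Nat.card S * j) = x := Subtype.ext (by rw [Subgroup.coe_pow]; exact hj x)
    rw [← h5, map_pow, pow_mul, ← h2, one_pow]

/-- The involutory automorphism of a reduced central configuration. -/
theorem Conf.exists_inv [Finite G] {K Z : Subgroup G} (c : Conf S K Z)
    (hK : ∀ x ∈ K, (∀ s : S, s • x = x) → x ∈ Z) (F : G → G) (hFZ : ∀ x ∈ K, F x ∈ Z)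
    (hFm : ∀ x ∈ K, ∀ y ∈ K, F (x * y) = F x * F y * ⁅x, y⁆) (hF2 : ∀ z ∈ Z, F z = z * z)
    (hFs : ∀ x ∈ K, ∀ s : S, F (s • x) = F x)
    (hFc : ∀ g : G, (∀ s : S, s • g = g) → ∀ x ∈ K, F (g * x * g⁻¹) = F x) :
    ∃ τ : MulAut G, (∀ k ∈ K, ∀ g, (∀ s : S, s • g = g) → τ (k * g) = F k * k⁻¹ * g) ∧
      (∀ g, τ (τ g) = g) ∧ (∀ g, τ g = g ↔ ∀ s : S, s • g = g) ∧
      ∀ (s : S) g, τ (s • g) = s • τ g := by
  have hn := c.normal
  have hZc : ∀ z ∈ Z, ∀ g : G, g * z = z * g := fun z hz g =>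
    Subgroup.mem_center_iff.1 (c.center hz) g
  have hF1 : F 1 = 1 := by rw [hF2 1 Z.one_mem, mul_one]
  have hFinv : ∀ x ∈ K, F x⁻¹ = (F x)⁻¹ := by
    intro x hx
    have h1 := hFm x hx x⁻¹ (K.inv_mem hx)
    rw [mul_inv_cancel, hF1,
      commutatorElement_eq_one_iff_mul_comm.2 (by rw [mul_inv_cancel, inv_mul_cancel]), mul_one] at h1
    exact eq_inv_of_mul_eq_one_right h1.symm
  choose kk hkk hh hhh hgen using c.gen
  let T : G → G := fun g => F (kk g) * (kk g)⁻¹ * hh g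
  have hT : ∀ k ∈ K, ∀ g, (∀ s : S, s • g = g) → T (k * g) = F k * k⁻¹ * g := by
    intro k hk g hg
    -- two decompositions
    obtain ⟨k', hk', g', hg', e⟩ : ∃ k', k' ∈ K ∧ ∃ g', (∀ s : S, s • g' = g') ∧ k * g = k' * g' ∧
        T (k * g) = F k' * k'⁻¹ * g' := ⟨kk (k * g), hkk _, hh (k * g), hhh _, hgen _, rfl⟩
    obtain ⟨e1, e2⟩ := e
    rw [e2]
    have h1 : k'⁻¹ * k = g' * g⁻¹ := by
      rw [inv_mul_eq_iff_eq_mul, ← mul_assoc, ← e1, mul_inv_cancel_right]
    have h2 : k'⁻¹ * k ∈ Z := by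
      apply hK _ (K.mul_mem (K.inv_mem hk') hk)
      intro s
      rw [h1, smul_mul', smul_inv', hg, hg']
    obtain ⟨z, hz⟩ : ∃ z, z = k'⁻¹ * k := ⟨_, rfl⟩
    rw [← hz] at h1 h2
    have h3 : k = k' * z := by rw [hz]; group
    have h4 : g' = z * g := by rw [h1]; group
    rw [h3, h4, hFm k' hk' z (c.le h2), hF2 z h2,
      commutatorElement_eq_one_iff_mul_comm.2 (hZc z h2 k'), mul_one, mul_inv_rev]
    calc F k' * k'⁻¹ * (z * g) = F k' * (k'⁻¹ * z) * g := by group
      _ = F k' * (z * k'⁻¹) * g := by rw [hZc z h2]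
      _ = F k' * (z * z) * (z⁻¹ * k'⁻¹) * g := by group
  have hmul : ∀ a b, T (a * b) = T a * T b := by
    intro a b
    obtain ⟨k, hk, g, hg, rfl⟩ := c.gen a
    obtain ⟨k', hk', g', hg', rfl⟩ := c.gen b
    have e1 : k * g * (k' * g') = (k * (g * k' * g⁻¹)) * (g * g') := by group
    have e2 : ∀ s : S, s • (g * g') = g * g' := fun s => by rw [smul_mul', hg, hg']
    have e3 : g * k' * g⁻¹ ∈ K := hn.conj_mem k' hk' g
    rw [e1, hT _ (K.mul_mem hk e3) _ e2, hT k hk g hg, hT k' hk' g' hg', hFm k hk _ e3,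
      hFc g hg k' hk']
    have e4 : ⁅k, g * k' * g⁻¹⁆ * (k * (g * k' * g⁻¹))⁻¹ = k⁻¹ * (g * k'⁻¹ * g⁻¹) := by
      have h1 : ⁅k, g * k' * g⁻¹⁆ ∈ Z := c.comm k hk _ e3
      rw [← hZc _ h1 (k * (g * k' * g⁻¹))⁻¹]
      have h2 := hZc _ h1 (k⁻¹ * (g * k' * g⁻¹)⁻¹)
      rw [commutatorElement_def] at h1 h2 ⊢
      have h3 : (k * (g * k' * g⁻¹))⁻¹ * (k * (g * k' * g⁻¹) * k⁻¹ * (g * k' * g⁻¹)⁻¹) =
          k⁻¹ * (g * k' * g⁻¹)⁻¹ := by group
      rw [h3]
      group
    have e5 := hZc _ (hFZ k' hk')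
    calc F k * F k' * ⁅k, g * k' * g⁻¹⁆ * (k * (g * k' * g⁻¹))⁻¹ * (g * g')
        = F k * F k' * (⁅k, g * k' * g⁻¹⁆ * (k * (g * k' * g⁻¹))⁻¹) * (g * g') := by
          simp only [mul_assoc]
      _ = F k * (F k' * (k⁻¹ * g)) * k'⁻¹ * g' := by rw [e4]; group
      _ = F k * ((k⁻¹ * g) * F k') * k'⁻¹ * g' := by rw [e5]
      _ = F k * k⁻¹ * g * (F k' * k'⁻¹ * g') := by group
  have hinv : ∀ g, T (T g) = g := by
    intro a
    obtain ⟨k, hk, g, hg, rfl⟩ := c.gen a
    have h1 := hFZ k hk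
    rw [hT k hk g hg, hT _ (K.mul_mem (c.le h1) (K.inv_mem hk)) g hg,
      hFm _ (c.le h1) _ (K.inv_mem hk), hF2 _ h1, hFinv k hk,
      commutatorElement_eq_one_iff_mul_comm.2 (hZc _ h1 _).symm, mul_one]
    have e5 := hZc _ h1
    calc F k * F k * (F k)⁻¹ * (F k * k⁻¹)⁻¹ * g = (F k * k) * (F k)⁻¹ * g := by group
      _ = (k * F k) * (F k)⁻¹ * g := by rw [e5]
      _ = k * g := by group
  let τ : MulAut G :=
    { toFun := T
      invFun := T
      left_inv := hinv
      right_inv := hinv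
      map_mul' := hmul }
  have hτ : ∀ g, τ g = T g := fun g => rfl
  refine ⟨τ, hT, hinv, ?_, ?_⟩
  · intro a
    constructor
    · obtain ⟨k, hk, g, hg, rfl⟩ := c.gen a
      intro h1 s
      rw [hτ, hT k hk g hg] at h1
      have h2 : F k = k * k := by
        have := mul_right_cancel h1
        rwa [mul_inv_eq_iff_eq_mul] at this
      have h3 : s • k * s • k = k * k := by
        rw [← smul_mul', ← h2]
        exact c.fix _ (hFZ k hk) s
      have h4 : s • k = k := by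
        obtain ⟨m, hm⟩ := c.odd
        have e1 : ∀ x : G, x ^ (2 * (m + 1)) = x := by
          intro x
          have h1 : 2 * (m + 1) = Nat.card G + 1 := by rw [hm]; ring
          rw [h1, pow_succ, pow_card_eq_one', one_mul]
        have e2 : (s • k) ^ (2 * (m + 1)) = k ^ (2 * (m + 1)) := by
          rw [pow_mul, pow_mul, pow_two, pow_two, h3]
        rwa [e1, e1] at e2
      rw [smul_mul', h4, hg]
    · intro h1
      rw [hτ, ← one_mul a, hT 1 K.one_mem a h1, hF1, inv_one, one_mul]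
  · intro s a
    obtain ⟨k, hk, g, hg, rfl⟩ := c.gen a
    rw [hτ, hτ, smul_mul', hg s, hT _ (c.smul_mem s k hk) g hg, hT k hk g hg, hFs k hk, smul_mul',
      smul_mul', smul_inv', hg s, c.fix _ (hFZ k hk)]

end Cfsg.Agent.H596.OddConf
end

-- part: H596/OddCentral
section
/-!
# The character correspondence for central configurations

In a reduced central configuration the `S`-invariant irreducible characters of `G` are those
invariant under the involutory automorphism `τ`.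
-/

set_option autoImplicit false

open scoped commutatorElement ComplexConjugate

namespace Cfsg.Agent.H596.OddConf

open Cfsg Module
open Cfsg.Agent.Characters.Core
open Cfsg.Agent.H593.GlaubermanP (Setup Inv)
open Cfsg.Agent.H595.Solv
open Cfsg.Agent.OddOrderCharacters.PF9.CliffGen
open Cfsg.Agent.OddOrderCharacters.IndRes (res)

/-- A non-zero intertwiner of an irreducible representation with its twist by an automorphism. -/
theorem char_eq_of_intertwiner {G : Type*} [Group G] [Fintype G] {n : ℕ}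
    (ρ : Representation ℂ G (Fin n → ℂ)) (hρ : IsIrrCharacter G ρ.character) (τ : MulAut G)
    (T : (Fin n → ℂ) →ₗ[ℂ] (Fin n → ℂ)) (hT0 : T ≠ 0) (hT : ∀ g, T * ρ g = ρ (τ g) * T) (g : G) :
    ρ.character (τ g) = ρ.character g := by
  let σ : Representation ℂ G (Fin n → ℂ) := ρ.comp τ.toMonoidHom
  let f : Representation.IntertwiningMap ρ σ :=
    LinearMap.intertwiningMap_of_isIntertwiningMap ρ σ T fun g v => by
      have := LinearMap.congr_fun (hT g) v
      exact this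
  have hf : f ≠ 0 := by
    intro h
    apply hT0
    have := congrArg Representation.IntertwiningMap.toLinearMap h
    exact this
  have h1 := classInner_character σ ρ
  have h2 : finrank ℂ (Representation.IntertwiningMap ρ σ) ≠ 0 := by
    intro h
    have h3 := Module.finrank_zero_iff.1 h
    exact hf (Subsingleton.elim _ _)
  have h3 : σ.character = ρ.character ∘ τ := rfl
  have h4 : IsIrrCharacter G (ρ.character ∘ τ) := isIrr_comp τ.toMonoidHom τ.surjective hρ
  by_contra hne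
  have h5 : ρ.character ∘ τ ≠ ρ.character := fun h => hne (congrFun h g)
  rw [h3, classInner_irr_ne h4 hρ h5] at h1
  exact h2 (by exact_mod_cast h1.symm)

variable {G : Type*} [Group G] [Fintype G] {S : Type*} [Group S] [MulDistribMulAction S G]

/-- A class function constituent is invariant: the commuting case of Glauberman's lemma. -/
theorem inv_of_conj {R : Subgroup G} [hR : R.Normal] {j : ℕ}
    (hj : ∀ s : S, s ^ (Nat.card G * j) = s) (hRS : ∀ s : S, ∀ x ∈ R, s • x ∈ R) (f : R → ℂ) (s : S)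
    (h : ∃ g : G, (∀ t : S, t • g = g) ∧ ∀ x y : R, (y : G) = s • (x : G) →
      f y = f ⟨g * x * g⁻¹, hR.conj_mem x x.2 g⟩) (x y : R) (hxy : (y : G) = s • (x : G)) :
    f y = f x := by
  obtain ⟨g, hg, h⟩ := h
  have h1 : ∀ n : ℕ, ∀ x y : R, (y : G) = s ^ n • (x : G) →
      f y = f ⟨g ^ n * x * (g ^ n)⁻¹, hR.conj_mem x x.2 (g ^ n)⟩ := by
    intro n
    induction n with
    | zero =>
      intro x y hy
      congr 1
      apply Subtype.ext
      rw [hy, pow_zero, one_smul]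
      simp
    | succ n ih =>
      intro x y hy
      have e1 : (y : G) = s • ((⟨s ^ n • (x : G), hRS _ _ x.2⟩ : R) : G) := by
        rw [hy, pow_succ', mul_smul]
      rw [h _ y e1]
      have e2 : ((⟨g * (⟨s ^ n • (x : G), hRS _ _ x.2⟩ : R) * g⁻¹,
          hR.conj_mem _ (hRS _ _ x.2) g⟩ : R) : G) =
          s ^ n • ((⟨g * x * g⁻¹, hR.conj_mem x x.2 g⟩ : R) : G) := by
        show g * (s ^ n • (x : G)) * g⁻¹ = s ^ n • (g * x * g⁻¹)
        rw [smul_mul', smul_mul', smul_inv', hg]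
      rw [ih _ _ e2]
      congr 1
      apply Subtype.ext
      show g ^ n * (g * x * g⁻¹) * (g ^ n)⁻¹ = g ^ (n + 1) * x * (g ^ (n + 1))⁻¹
      rw [pow_succ]
      group
  have h2 := h1 (Nat.card G * j) x y (by rw [hj]; exact hxy)
  rw [h2]
  congr 1
  apply Subtype.ext
  show g ^ (Nat.card G * j) * x * (g ^ (Nat.card G * j))⁻¹ = x
  rw [pow_mul, pow_card_eq_one', one_pow]
  simp

/-- In a reduced central configuration an `S`-invariant character is `τ`-invariant. -/
theorem Conf.tau_of_inv [Finite S] {K Z : Subgroup G} (c : Conf S K Z) (F : G → G)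
    (hFμ : ∀ (R : Subgroup G), R ≤ K → (∀ (s : S), ∀ x ∈ R, s • x ∈ R) →
        ∀ μ : R →* ℂˣ, (∀ (s : S) (x y : R), (y : G) = s • (x : G) → μ y = μ x) →
          ∀ (x : R), F x = 1 → μ x = 1) (hFZ : ∀ x ∈ K, F x ∈ Z)
    (τ : MulAut G) (hτ : ∀ k ∈ K, ∀ g, (∀ s : S, s • g = g) → τ (k * g) = F k * k⁻¹ * g)
    (hττ : ∀ g, τ (τ g) = g) (χ : IrrCharacter G) (hχ : Inv S (χ : G → ℂ)) (g : G) :
    (χ : G → ℂ) (τ g) = (χ : G → ℂ) g := by
  classical
  obtain ⟨χ, hirr⟩ := χ
  have hn := c.normal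
  obtain ⟨n, ρ, hρ, rfl⟩ := isIrrCharacter_def.1 hirr
  show ρ.character (τ g) = ρ.character g
  have hZc : ∀ z ∈ Z, ∀ g : G, g * z = z * g := fun z hz g =>
    Subgroup.mem_center_iff.1 (c.center hz) g
  have hτK : ∀ k ∈ K, τ k = F k * k⁻¹ := by
    intro k hk
    have := hτ k hk 1 (fun s => smul_one s)
    rwa [mul_one, mul_one] at this
  have hτg : ∀ g : G, τ g * g⁻¹ ∈ K := by
    intro g
    obtain ⟨k, hk, g, hg, rfl⟩ := c.gen g
    rw [hτ k hk g hg]
    have : F k * k⁻¹ * g * (k * g)⁻¹ = F k * k⁻¹ * k⁻¹ := by group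
    rw [this]
    exact K.mul_mem (K.mul_mem (c.le (hFZ k hk)) (K.inv_mem hk)) (K.inv_mem hk)
  let V : Finset G := Finset.univ.filter fun v => v ∈ K ∧ τ v = v⁻¹
  have hV : ∀ v, v ∈ V ↔ v ∈ K ∧ τ v = v⁻¹ := fun v => by simp [V]
  let T : (Fin n → ℂ) →ₗ[ℂ] (Fin n → ℂ) := ∑ v ∈ V, ρ v
  -- `T` intertwines
  have hT : ∀ g, T * ρ g = ρ (τ g) * T := by
    intro g
    show (∑ v ∈ V, ρ v) * ρ g = ρ (τ g) * ∑ v ∈ V, ρ v
    rw [Finset.sum_mul, Finset.mul_sum]
    have hstab : ∀ g : G, ∀ v ∈ V, τ g * v * g⁻¹ ∈ V := by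
      intro g v hv
      obtain ⟨hv, hv'⟩ := (hV v).1 hv
      rw [hV]
      constructor
      · have : τ g * v * g⁻¹ = (τ g * g⁻¹) * (g * v * g⁻¹) := by group
        rw [this]
        exact K.mul_mem (hτg g) (hn.conj_mem v hv g)
      · rw [map_mul, map_mul, hττ, map_inv, hv']
        group
    symm
    refine Finset.sum_bij' (fun v _ => τ g * v * g⁻¹) (fun v _ => τ g⁻¹ * v * g⁻¹⁻¹) ?_ ?_ ?_ ?_ ?_
    · intro v hv; exact hstab g v hv
    · intro v hv; exact hstab g⁻¹ v hv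
    · intro v hv
      simp only [map_inv]
      group
    · intro v hv
      simp only [map_inv]
      group
    · intro v hv
      rw [← map_mul, ← map_mul]
      congr 1
      group
  -- `R`
  let R : Subgroup G :=
    { carrier := {x | x ∈ K ∧ ∀ y ∈ K, ρ x * ρ y = ρ y * ρ x}
      mul_mem' := by
        rintro a b ⟨ha, ha'⟩ ⟨hb, hb'⟩
        refine ⟨K.mul_mem ha hb, fun y hy => ?_⟩
        rw [map_mul, mul_assoc, hb' y hy, ← mul_assoc, ha' y hy, mul_assoc]
      one_mem' := ⟨K.one_mem, fun y _ => by rw [map_one, one_mul, mul_one]⟩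
      inv_mem' := by
        rintro a ⟨ha, ha'⟩
        refine ⟨K.inv_mem ha, fun y hy => ?_⟩
        have h1 := ha' y hy
        have h2 : ρ a⁻¹ * (ρ a * ρ y) * ρ a⁻¹ = ρ a⁻¹ * (ρ y * ρ a) * ρ a⁻¹ := by rw [h1]
        have e1 : ρ a⁻¹ * ρ a = 1 := by rw [← map_mul, inv_mul_cancel, map_one]
        have e2 : ρ a * ρ a⁻¹ = 1 := by rw [← map_mul, mul_inv_cancel, map_one]
        rw [← mul_assoc, e1, one_mul, mul_assoc, mul_assoc, e2, mul_one] at h2
        exact h2.symm }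
  have hR : ∀ x, x ∈ R ↔ x ∈ K ∧ ∀ y ∈ K, ρ x * ρ y = ρ y * ρ x := fun x => Iff.rfl
  have hcomm_one : ∀ x ∈ R, ∀ y ∈ K, ρ ⁅x, y⁆ = 1 := by
    intro x hx y hy
    have h1 := ((hR x).1 hx).2 y hy
    have : ρ (x * y) = ρ (y * x) := by rw [map_mul, map_mul, h1]
    have e1 : ⁅x, y⁆ = x * y * (y * x)⁻¹ := by rw [commutatorElement_def]; group
    rw [e1, map_mul, this, ← map_mul, mul_inv_cancel, map_one]
  have hcomm_iff : ∀ x ∈ K, x ∈ R ↔ ∀ y ∈ K, ρ ⁅x, y⁆ = 1 := by
    intro x hx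
    constructor
    · exact hcomm_one x
    · intro h
      refine (hR x).2 ⟨hx, fun y hy => ?_⟩
      have e1 : x * y = ⁅x, y⁆ * (y * x) := by rw [commutatorElement_def]; group
      rw [← map_mul, e1, map_mul, h y hy, one_mul, map_mul]
  have hRK : R ≤ K := fun x hx => ((hR x).1 hx).1
  have hRn : R.Normal := by
    refine ⟨fun x hx g => ?_⟩
    rw [hcomm_iff _ (hn.conj_mem x (hRK hx) g)]
    intro y hy
    have h1 := hcomm_one x hx (g⁻¹ * y * g⁻¹⁻¹) (hn.conj_mem y hy g⁻¹)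
    have e1 : ⁅g * x * g⁻¹, y⁆ = g * ⁅x, g⁻¹ * y * g⁻¹⁻¹⁆ * g⁻¹ := by
      simp only [commutatorElement_def]; group
    rw [e1, map_mul, map_mul, h1, mul_one, ← map_mul, mul_inv_cancel, map_one]
  have hRS : ∀ s : S, ∀ x ∈ R, s • x ∈ R := by
    intro s x hx
    rw [hcomm_iff _ (c.smul_mem s x (hRK hx))]
    intro y hy
    have h1 := hcomm_one x hx (s⁻¹ • y) (c.smul_mem s⁻¹ y hy)
    have e1 : ⁅s • x, y⁆ = s • ⁅x, s⁻¹ • y⁆ := by
      simp only [commutatorElement_def, smul_mul', smul_inv', smul_inv_smul]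
    rw [e1, c.fix _ (c.comm x (hRK hx) _ (c.smul_mem s⁻¹ y hy)), h1]
  have hZR : Z ≤ R := by
    intro z hz
    rw [hcomm_iff z (c.le hz)]
    intro y hy
    rw [commutatorElement_eq_one_iff_mul_comm.2 (hZc z hz y).symm, map_one]
  -- scalars
  have hscal : ∀ z ∈ Z, ∃ a : ℂ, ρ z = a • (1 : (Fin n → ℂ) →ₗ[ℂ] (Fin n → ℂ)) := by
    intro z hz
    apply Cfsg.Agent.CharDeep.IrrEquiv.exists_smul_of_commute ρ hρ
    intro g
    rw [← map_mul, ← map_mul, hZc z hz]
  have hchar_def : ∀ g, ρ.character g = LinearMap.trace ℂ _ (ρ g) := fun g => rfl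
  -- values outside `R`
  have hout : ∀ v ∈ K, v ∉ R → ρ.character v = 0 := by
    intro v hv hvR
    rw [hcomm_iff v hv] at hvR
    push Not at hvR
    obtain ⟨y, hy, hne⟩ := hvR
    obtain ⟨a, ha⟩ := hscal _ (c.comm v hv y hy)
    have h1 : ρ.character (y * v * y⁻¹) = ρ.character v := isIrr_isClassFunction hirr v y
    have e1 : v = ⁅v, y⁆ * (y * v * y⁻¹) := by rw [commutatorElement_def]; group
    have h2 : ρ.character v = a * ρ.character v := by
      conv_lhs => rw [e1]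
      rw [hchar_def, map_mul, ha, smul_mul_assoc, one_mul, map_smul, smul_eq_mul, ← hchar_def, h1]
    have h3 : a ≠ 1 := by
      rintro rfl
      rw [one_smul] at ha
      exact hne ha
    have h4 : (1 - a) * ρ.character v = 0 := by
      rw [sub_mul, one_mul, ← h2, sub_self]
    rcases mul_eq_zero.1 h4 with h5 | h5
    · exact absurd (sub_eq_zero.1 h5).symm h3
    · exact h5
  -- values on `R`
  have hin : ∀ v ∈ V, v ∈ R → ρ.character v = ρ.character 1 := by
    intro v hv hvR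
    obtain ⟨hvK, hvτ⟩ := (hV v).1 hv
    have hFv : F v = 1 := by
      rw [hτK v hvK] at hvτ
      have := mul_eq_right.1 hvτ
      exact this
    have : Finite (IrrCharacter R) := finite_irr
    have : Fintype (IrrCharacter R) := Fintype.ofFinite _
    obtain ⟨m, hm, hm'⟩ := Cfsg.Agent.CharDeep.CliffordCorr.exists_nat_coeffs
      (Cfsg.Agent.Characters.Clifford.isCharacter_restrict R (isIrr_isCharacter hirr))
    have hone : ∀ μ : IrrCharacter R, m μ ≠ 0 → (μ : R → ℂ) ⟨v, hvR⟩ = (μ : R → ℂ) 1 := by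
      intro μ hμ
      have hne : classInner (res R ρ.character) (μ : R → ℂ) ≠ 0 := by
        have := hm' μ
        rw [show res R ρ.character = fun h : R => ρ.character h from rfl, this]
        exact_mod_cast hμ
      obtain ⟨f, hf⟩ := exists_hom_of_constituent R (isIrr_isCharacter hirr) (by
        intro y hy
        have h1 : ⁅R, R⁆ ≤ (MonoidHom.toHomUnits ρ).ker := by
          rw [Subgroup.commutator_le]
          intro a ha b hb
          rw [MonoidHom.mem_ker]
          apply Units.ext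
          exact hcomm_one a ha b (hRK hb)
        have h2 : ρ y = 1 := congrArg Units.val (MonoidHom.mem_ker.1 (h1 hy))
        rw [hchar_def, hchar_def, h2, map_one ρ]) μ.2 hne
      -- invariance of `f` under `S`
      obtain ⟨j, hj⟩ := exists_exp (Nat.card_pos (α := S)).ne' c.cop.symm S
        (fun x => pow_card_eq_one')
      have hinv : ∀ (s : S) (x y : R), (y : G) = s • (x : G) → (μ : R → ℂ) y = (μ : R → ℂ) x := by
        intro s
        apply inv_of_conj hj hRS (μ : R → ℂ) s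
        let a : R ≃* R :=
          { toFun := fun x => ⟨s • (x : G), hRS s x x.2⟩
            invFun := fun x => ⟨s⁻¹ • (x : G), hRS s⁻¹ x x.2⟩
            left_inv := fun x => Subtype.ext (inv_smul_smul s (x : G))
            right_inv := fun x => Subtype.ext (smul_inv_smul s (x : G))
            map_mul' := fun x y => Subtype.ext (smul_mul' s (x : G) (y : G)) }
        have ha : ∀ x : R, ((a x : R) : G) = s • (x : G) := fun x => rfl
        have h1 : IsIrrCharacter R ((μ : R → ℂ) ∘ a) := isIrr_comp a.toMonoidHom a.surjective μ.2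
        have h2 : classInner (fun x : R => ρ.character x) ((μ : R → ℂ) ∘ a) ≠ 0 := by
          have e1 : (fun x : R => ρ.character x) = (fun x : R => ρ.character x) ∘ a := by
            funext x
            show ρ.character x = ρ.character (a x : R)
            rw [ha]
            exact (hχ s x).symm
          rw [e1, classInner_comp_equiv]
          exact hne
        obtain ⟨g, hg⟩ := Cfsg.Agent.Characters.Clifford.exists_conj_of_constituents R hirr μ.2 h1
          hne h2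
        obtain ⟨k, hk, g, hgs, rfl⟩ := c.gen g
        refine ⟨g, hgs, fun x y hxy => ?_⟩
        have h3 := congrFun hg x
        have e1 : ((μ : R → ℂ) ∘ a) x = (μ : R → ℂ) y := by
          show (μ : R → ℂ) (a x) = _
          exact congrArg (μ : R → ℂ) (Subtype.ext (by rw [ha, hxy]))
        rw [← e1, h3]
        obtain ⟨x', hx'⟩ : ∃ x' : R, x' = ⟨g * x * g⁻¹, hRn.conj_mem x x.2 g⟩ := ⟨_, rfl⟩
        rw [← hx']
        have hx'' : (x' : G) = g * x * g⁻¹ := by rw [hx']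
        have hmem : ⁅k, (x' : G)⁆ ∈ R := hZR (c.comm k hk x' (hRK x'.2))
        have e2 : (MulAut.conjNormal (k * g) : MulAut R) x = ⟨_, hmem⟩ * x' := by
          apply Subtype.ext
          rw [MulAut.conjNormal_apply, Subgroup.coe_mul]
          show _ = ⁅k, (x' : G)⁆ * (x' : G)
          rw [hx'', commutatorElement_def]
          group
        show (μ : R → ℂ) ((MulAut.conjNormal (k * g) : MulAut R) x) = _
        rw [e2, hf]
        show ((f (_ * x') : ℂˣ) : ℂ) = _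
        rw [map_mul, Units.val_mul]
        have e3 : (μ : R → ℂ) ⟨_, hmem⟩ = (μ : R → ℂ) 1 := by
          apply constituent_ker (Cfsg.Agent.Characters.Clifford.isCharacter_restrict R
            (isIrr_isCharacter hirr)) μ.2 hne
          show ρ.character ⁅k, (x' : G)⁆ = ρ.character ((1 : R) : G)
          have h5 : ρ ⁅k, (x' : G)⁆ = 1 := by
            have h6 := hcomm_one _ x'.2 k hk
            have h7 : ρ ⁅k, (x' : G)⁆ * ρ ⁅(x' : G), k⁆ = 1 := by
              rw [← map_mul, ← commutatorElement_inv (x' : G) k, inv_mul_cancel, map_one]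
            rwa [h6, mul_one] at h7
          rw [hchar_def, hchar_def, h5, Subgroup.coe_one, map_one ρ]
        rw [hf] at e3
        have e4 : ((f ⟨_, hmem⟩ : ℂˣ) : ℂ) = 1 := by
          have : (fun b : R => (f b : ℂ)) ⟨_, hmem⟩ = (fun b : R => (f b : ℂ)) 1 := e3
          simpa using this
        rw [e4, one_mul]
      have hfinv : ∀ (s : S) (x y : R), (y : G) = s • (x : G) → f y = f x := by
        intro s x y hxy
        have h1 := hinv s x y hxy
        rw [hf] at h1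
        exact Units.ext h1
      have h2 := hFμ R hRK hRS f hfinv ⟨v, hvR⟩ hFv
      rw [hf]
      show ((f ⟨v, hvR⟩ : ℂˣ) : ℂ) = ((f 1 : ℂˣ) : ℂ)
      rw [h2, map_one]
    have e1 := congrFun hm ⟨v, hvR⟩
    have e2 := congrFun hm 1
    simp only [Finset.sum_apply, Pi.smul_apply, smul_eq_mul] at e1 e2
    have e3 : (((1 : R) : R) : G) = 1 := rfl
    rw [e3] at e2
    rw [e1, e2]
    refine Finset.sum_congr rfl fun μ _ => ?_
    by_cases h0 : m μ = 0
    · rw [h0, Nat.cast_zero, zero_mul, zero_mul]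
    · rw [hone μ h0]
  -- the trace
  have htr : LinearMap.trace ℂ _ T = ((V.filter (· ∈ R)).card : ℂ) * ρ.character 1 := by
    show LinearMap.trace ℂ _ (∑ v ∈ V, ρ v) = _
    rw [map_sum, ← Finset.sum_filter_add_sum_filter_not V (· ∈ R)]
    have e1 : ∑ v ∈ V.filter (¬ · ∈ R), LinearMap.trace ℂ _ (ρ v) = 0 := by
      refine Finset.sum_eq_zero fun v hv => ?_
      rw [Finset.mem_filter, hV] at hv
      exact hout v hv.1.1 hv.2
    have e2 : ∑ v ∈ V.filter (· ∈ R), LinearMap.trace ℂ _ (ρ v) =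
        ∑ v ∈ V.filter (· ∈ R), ρ.character 1 := by
      refine Finset.sum_congr rfl fun v hv => ?_
      rw [Finset.mem_filter] at hv
      exact hin v hv.1 hv.2
    rw [e1, e2, add_zero, Finset.sum_const, nsmul_eq_mul]
  have hT0 : T ≠ 0 := by
    intro h
    rw [h, map_zero] at htr
    rcases mul_eq_zero.1 htr.symm with h1 | h1
    · have h2 : (V.filter (· ∈ R)).card ≠ 0 := by
        rw [Finset.card_ne_zero]
        refine ⟨1, ?_⟩
        rw [Finset.mem_filter, hV]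
        exact ⟨⟨K.one_mem, by rw [map_one, inv_one]⟩, R.one_mem⟩
      exact h2 (by exact_mod_cast h1)
    · exact isIrr_apply_one_ne_zero hirr h1
  exact char_eq_of_intertwiner ρ hirr τ T hT0 hT g

/-- **The central case.** -/
theorem Conf.main [Finite S] {K Z : Subgroup G} (c : Conf S K Z) {D : Type*} [Group D] [Fintype D]
    (ι : D →* G) (hι : Function.Injective ι) (hfix : ∀ g : G, (∀ s : S, s • g = g) ↔ ∃ d, ι d = g) :
    (∀ χ : IrrCharacter G, Inv S (χ : G → ℂ) → ∃ β, Cor ι 2 χ β) ∧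
    (∀ (χ : IrrCharacter G) (β β' : IrrCharacter D), Inv S (χ : G → ℂ) → Cor ι 2 χ β →
      Cor ι 2 χ β' → β = β') ∧
    (∀ (χ χ' : IrrCharacter G) (β : IrrCharacter D), Inv S (χ : G → ℂ) → Inv S (χ' : G → ℂ) →
      Cor ι 2 χ β → Cor ι 2 χ' β → χ = χ') ∧
    (∀ β : IrrCharacter D, ∃ χ : IrrCharacter G, Inv S (χ : G → ℂ) ∧ Cor ι 2 χ β) := by
  obtain ⟨M, c, hM⟩ := c.exists_reduced
  obtain ⟨F, hFZ, hFm, hF2, hFs, hFc, hFμ⟩ := c.exists_quad hM
  obtain ⟨τ, hτ, hττ, hτfix, hτs⟩ := c.exists_inv hM F hFZ hFm hF2 hFs hFc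
  have hcase : ∀ s : Subgroup.zpowers τ, (s : MulAut G) = 1 ∨ (s : MulAut G) = τ := by
    rintro ⟨s, k, rfl⟩
    have h2 : τ ^ (2 : ℤ) = 1 := by
      ext g
      exact hττ g
    rcases Int.even_or_odd' k with ⟨m, rfl | rfl⟩
    · left
      show τ ^ (2 * m) = 1
      rw [zpow_mul, h2, one_zpow]
    · right
      show τ ^ (2 * m + 1) = τ
      rw [zpow_add, zpow_mul, h2, one_zpow, one_mul, zpow_one]
  have hsmul : ∀ (s : Subgroup.zpowers τ) (g : G), s • g = (s : MulAut G) g := fun s g => rfl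
  let t : Subgroup.zpowers τ := ⟨τ, Subgroup.mem_zpowers τ⟩
  have hp : Fact (Nat.Prime 2) := ⟨Nat.prime_two⟩
  have hset : Setup (Subgroup.zpowers τ) ι 2 := by
    refine ⟨hι, ?_, ?_, ?_⟩
    · intro g
      rw [← hfix, ← hτfix]
      constructor
      · intro h
        exact h t
      · intro h s
        rw [hsmul]
        rcases hcase s with h1 | h1
        · rw [h1]; rfl
        · rw [h1, h]
    · intro s
      refine ⟨1, ?_⟩
      rw [pow_one]
      apply Subtype.ext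
      rw [Subgroup.coe_pow]
      rcases hcase s with h1 | h1
      · rw [h1]; exact one_pow 2
      · rw [h1]
        ext g
        exact hττ g
    · intro h
      have := c.odd
      rw [← Nat.not_even_iff_odd, even_iff_two_dvd] at this
      exact this h
  have hinv : ∀ χ : IrrCharacter G, Inv S (χ : G → ℂ) → Inv (Subgroup.zpowers τ) (χ : G → ℂ) := by
    intro χ hχ s g
    rw [hsmul]
    rcases hcase s with h1 | h1
    · rw [h1]; rfl
    · rw [h1]
      exact c.tau_of_inv F hFμ hFZ τ hτ hττ χ hχ g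
  refine ⟨fun χ _ => exists_cor_beta hset χ, fun χ β β' h hβ hβ' =>
    cor_unique_beta hset (hinv χ h) hβ hβ', fun χ χ' β h h' hβ hβ' =>
    cor_unique_chi hset (hinv χ h) (hinv χ' h') hβ hβ', fun β => ?_⟩
  obtain ⟨χ, hχ, hc⟩ := exists_cor_chi hset β
  refine ⟨χ, fun s g => ?_, hc⟩
  -- the twist by `s`
  let χs : IrrCharacter G := twist (aut S G s) χ
  have h1 : Inv (Subgroup.zpowers τ) (χs : G → ℂ) := by
    intro u g
    show (χ : G → ℂ) (s • (u • g)) = (χ : G → ℂ) (s • g)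
    rw [hsmul]
    rcases hcase u with h1 | h1
    · rw [h1]; rfl
    · rw [h1, ← hτs]
      exact hχ t (s • g)
  have h2 : Cor ι 2 χs β := by
    obtain ⟨m, hm, hm'⟩ := hc
    refine ⟨m, ?_, hm'⟩
    rw [← hm]
    congr 1
    funext d
    show (χ : G → ℂ) (s • ι d) = (χ : G → ℂ) (ι d)
    rw [(hfix (ι d)).2 ⟨d, rfl⟩ s]
  have h3 := cor_unique_chi hset h1 hχ h2 hc
  have h4 : (χs : G → ℂ) g = (χ : G → ℂ) g := by rw [h3]
  exact h4

end Cfsg.Agent.H596.OddConf
end

-- part: H596/CoverRed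
section
/-!
# Reduction to the central case by a cover
-/

set_option autoImplicit false

open scoped commutatorElement ComplexConjugate

namespace Cfsg.Agent.H596.CoverRed

open Cfsg Module
open Cfsg.Agent.Characters.Core
open Cfsg.Agent.H593.GlaubermanP (Setup Inv)
open Cfsg.Agent.H595.Solv
open Cfsg.Agent.H595.Fix
open Cfsg.Agent.H596.CoverCor Cfsg.Agent.H596.OddConf
open Cfsg.Agent.Classification.BGIsometry (classInner_comp')

universe u

/-- The action on a quotient. -/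
@[instance_reducible]
noncomputable def quotAct {E S : Type*} [Group E] [Group S] [MulDistribMulAction S E]
    (N : Subgroup E) [N.Normal] (hN : ∀ (s : S), ∀ x ∈ N, s • x ∈ N) :
    MulDistribMulAction S (E ⧸ N) where
  smul s := QuotientGroup.map N N (MulDistribMulAction.toMonoidHom E s) (fun x hx => hN s x hx)
  one_smul x := by
    induction x using QuotientGroup.induction_on with
    | H x =>
      show (((1 : S) • x : E) : E ⧸ N) = x
      rw [one_smul]
  mul_smul s t x := by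
    induction x using QuotientGroup.induction_on with
    | H x =>
      show (((s * t) • x : E) : E ⧸ N) = ((s • t • x : E) : E ⧸ N)
      rw [mul_smul]
  smul_mul s x y := by
    show QuotientGroup.map N N _ _ (x * y) = QuotientGroup.map N N _ _ x * QuotientGroup.map N N _ _ y
    rw [map_mul]
  smul_one s := by
    show QuotientGroup.map N N _ _ 1 = 1
    rw [map_one]

theorem central_scalar {G : Type*} [Group G] {χ : G → ℂ} (hχ : IsIrrCharacter G χ) {z : G}
    (hz : z ∈ Subgroup.center G) : ∃ a : ℂ, ∀ x, χ (z * x) = a * χ x := by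
  obtain ⟨n, ρ, hρ, rfl⟩ := isIrrCharacter_def.1 hχ
  obtain ⟨a, ha⟩ := Cfsg.Agent.CharDeep.IrrEquiv.exists_smul_of_commute ρ hρ (ρ z) (by
    intro g
    rw [← map_mul, ← map_mul, Subgroup.mem_center_iff.1 hz])
  refine ⟨a, fun x => ?_⟩
  show LinearMap.trace ℂ _ (ρ (z * x)) = a * LinearMap.trace ℂ _ (ρ x)
  rw [map_mul, ha, smul_mul_assoc, one_mul, map_smul, smul_eq_mul]

theorem inner_scalar {G : Type*} [Group G] [Fintype G] {f g : G → ℂ} {z : G} {a b : ℂ}
    (hf : ∀ x, f (z * x) = a * f x) (hg : ∀ x, g (z * x) = b * g x) (h : classInner f g ≠ 0) :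
    a * conj b = 1 := by
  have h1 : classInner f g = a * conj b * classInner f g := by
    rw [classInner_def]
    have e1 : ∑ x : G, f x * conj (g x) = ∑ x : G, f (z * x) * conj (g (z * x)) :=
      (Fintype.sum_bijective (fun x => z * x) (Group.mulLeft_bijective z) _ _ fun x => rfl).symm
    have e2 : ∑ x : G, f (z * x) * conj (g (z * x)) = a * conj b * ∑ x : G, f x * conj (g x) := by
      rw [Finset.mul_sum]
      refine Finset.sum_congr rfl fun x _ => ?_
      rw [hf, hg, map_mul]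
      ring
    conv_lhs => rw [e1, e2]
    ring
  have h2 : (1 - a * conj b) * classInner f g = 0 := by
    rw [sub_mul, one_mul, ← h1, sub_self]
  rcases mul_eq_zero.1 h2 with h3 | h3
  · exact (sub_eq_zero.1 h3).symm
  · exact absurd h3 h

/-- Primes dividing the order of an extension by a kernel of known exponent. -/
theorem prime_dvd {E G : Type*} [Group E] [Finite E] [Group G] [Finite G] (p : E →* G) {m : ℕ}
    (hm : ∀ x, p x = 1 → x ^ m = 1) {r : ℕ} (hr : r.Prime) (h : r ∣ Nat.card E) :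
    r ∣ Nat.card G ∨ r ∣ m := by
  have : Fact r.Prime := ⟨hr⟩
  obtain ⟨x, hx⟩ := exists_prime_orderOf_dvd_card' r h
  by_cases h1 : p x = 1
  · right
    rw [← hx]
    exact orderOf_dvd_of_pow_eq_one (hm x h1)
  · left
    have h2 : orderOf (p x) ∣ r := by
      rw [← hx]
      exact orderOf_map_dvd p x
    rcases (Nat.dvd_prime hr).1 h2 with h3 | h3
    · exact absurd (orderOf_eq_one_iff.1 h3) h1
    · rw [← h3]
      exact orderOf_dvd_natCard _

theorem eq_one_of_smul {Q S : Type*} [Group Q] [Group S] [Finite S] [MulDistribMulAction S Q] {m : ℕ}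
    (hm : m.Coprime (Nat.card S)) {s : S} {x z : Q} (h : s • x = z * x) (hz : s • z = z)
    (hzm : z ^ m = 1) : z = 1 := by
  have h1 : ∀ n : ℕ, s ^ n • x = z ^ n * x := by
    intro n
    induction n with
    | zero => rw [pow_zero, pow_zero, one_smul, one_mul]
    | succ n ih => rw [pow_succ', mul_smul, ih, smul_mul', smul_pow', hz, h, ← mul_assoc, ← pow_succ]
  have h2 := h1 (Nat.card S)
  rw [pow_card_eq_one', one_smul] at h2
  have h3 : z ^ Nat.card S = 1 := mul_eq_right.1 h2.symm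
  have h4 : orderOf z ∣ 1 := by
    have h5 := Nat.dvd_gcd (orderOf_dvd_of_pow_eq_one hzm) (orderOf_dvd_of_pow_eq_one h3)
    rwa [hm] at h5
  exact orderOf_eq_one_iff.1 (Nat.dvd_one.1 h4)

/-- **The case of an invariant character of `L`.** -/
theorem main {G : Type u} [Group G] [Fintype G] {S : Type*} [Group S] [Finite S]
    [MulDistribMulAction S G] {D : Type*} [Group D] [Fintype D] (ι : D →* G)
    (hι : Function.Injective ι) (L K : Subgroup G) [hL : L.Normal] [hK : K.Normal] [Fintype L]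
    (hodd : Odd (Nat.card G)) (hcop : (Nat.card G).Coprime (Nat.card S)) (hLK : L ≤ K)
    (hLS : ∀ (s : S), ∀ l ∈ L, s • l ∈ L) (hKS : ∀ (s : S), ∀ k ∈ K, s • k ∈ K)
    (hab : ∀ a ∈ K, ∀ b ∈ K, ⁅a, b⁆ ∈ L) (hfix : ∀ g : G, (∀ s : S, s • g * g⁻¹ ∈ L) ↔ ∃ d, ι d = g)
    (hgen : ∀ g, ∃ k ∈ K, ∃ d, g = k * ι d) (i : L →* D) (hi : ∀ l, ι (i l) = l)
    (φ : IrrCharacter L) (hG : ∀ (g : G) (l : L), (φ : L → ℂ) (MulAut.conjNormal g l) = (φ : L → ℂ) l)
    (hS : ∀ (s : S) (x y : L), (y : G) = s • (x : G) → (φ : L → ℂ) y = (φ : L → ℂ) x) :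
    (∀ χ : IrrCharacter G, Inv S (χ : G → ℂ) →
      classInner (fun l : L => (χ : G → ℂ) l) (φ : L → ℂ) ≠ 0 →
      ∃ ψ : IrrCharacter D, classInner (fun l : L => (ψ : D → ℂ) (i l)) (φ : L → ℂ) ≠ 0 ∧
        Cor ι 2 χ ψ) ∧
    (∀ (χ : IrrCharacter G) (ψ ψ' : IrrCharacter D), Inv S (χ : G → ℂ) →
      classInner (fun l : L => (χ : G → ℂ) l) (φ : L → ℂ) ≠ 0 →
      classInner (fun l : L => (ψ : D → ℂ) (i l)) (φ : L → ℂ) ≠ 0 →
      classInner (fun l : L => (ψ' : D → ℂ) (i l)) (φ : L → ℂ) ≠ 0 →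
      Cor ι 2 χ ψ → Cor ι 2 χ ψ' → ψ = ψ') ∧
    (∀ (χ χ' : IrrCharacter G) (ψ : IrrCharacter D), Inv S (χ : G → ℂ) → Inv S (χ' : G → ℂ) →
      classInner (fun l : L => (χ : G → ℂ) l) (φ : L → ℂ) ≠ 0 →
      classInner (fun l : L => (χ' : G → ℂ) l) (φ : L → ℂ) ≠ 0 →
      classInner (fun l : L => (ψ : D → ℂ) (i l)) (φ : L → ℂ) ≠ 0 →
      Cor ι 2 χ ψ → Cor ι 2 χ' ψ → χ = χ') ∧
    (∀ ψ : IrrCharacter D, classInner (fun l : L => (ψ : D → ℂ) (i l)) (φ : L → ℂ) ≠ 0 →
      ∃ χ : IrrCharacter G, Inv S (χ : G → ℂ) ∧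
        classInner (fun l : L => (χ : G → ℂ) l) (φ : L → ℂ) ≠ 0 ∧ Cor ι 2 χ ψ) := by
  classical
  obtain ⟨φ, hφ⟩ := φ
  obtain ⟨n, ρ, hρ, rfl⟩ := isIrrCharacter_def.1 hφ
  obtain ⟨E, _, _, _, p, σ, j, hp, hpj, hσj, hscal, hpc, hconj, hps, hjs, hfixp, htr, hexp⟩ :=
    CoverAct.exists_cover L ρ hρ hG hLS hS
  have hfE : Fintype E := Fintype.ofFinite E
  set X : E → ℂ := σ.character with hXdef
  have hXj : ∀ l, X (j l) = ρ.character l := fun l => by
    show LinearMap.trace ℂ _ (σ (j l)) = LinearMap.trace ℂ _ (ρ l)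
    rw [hσj]
  have hXcomp : X ∘ j = ρ.character := funext hXj
  have hXchar : IsCharacter E X := ⟨n, σ, rfl⟩
  have hXirr : IsIrrCharacter E X := by
    apply Cfsg.Agent.CharactersDeep.MaxInduced.isIrr_of_comp j hXchar
    rw [hXcomp]; exact hφ
  -- the quotient
  have hN : j.range.Normal := by
    refine ⟨?_⟩
    rintro _ ⟨l, rfl⟩ x
    rw [hconj]
    exact ⟨_, rfl⟩
  have hNS : ∀ (s : S), ∀ x ∈ j.range, s • x ∈ j.range := by
    rintro s _ ⟨l, rfl⟩
    exact ⟨⟨s • (l : G), hLS s l l.2⟩, (hjs s l _ rfl).symm⟩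
  let actQ : MulDistribMulAction S (E ⧸ j.range) := quotAct j.range hNS
  let q : E →* E ⧸ j.range := QuotientGroup.mk' j.range
  have hq : Function.Surjective q := QuotientGroup.mk'_surjective _
  have hqs : ∀ (s : S) (x : E), s • q x = q (s • x) := fun s x => rfl
  have hqj : ∀ l, q (j l) = 1 := fun l => (QuotientGroup.eq_one_iff _).2 ⟨l, rfl⟩
  have hq1 : ∀ x, q x = 1 → ∃ l, x = j l := by
    intro x hx
    obtain ⟨l, hl⟩ := (QuotientGroup.eq_one_iff x).1 hx
    exact ⟨l, hl.symm⟩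
  -- orders
  have hLG : Nat.card L ∣ Nat.card G := Subgroup.card_subgroup_dvd_card L
  have hnL : n ∣ Nat.card G := by
    have h1 := Cfsg.Agent.H593.GlaubermanP.charDegree_dvd hφ
    have h2 : charDegree ρ.character = n := by
      apply Cfsg.Agent.Blocks.Basic.charDegree_of_eq
      rw [Representation.char_one, finrank_fin_fun]
    rw [h2] at h1
    exact h1.trans hLG
  have hcopm : (n * Nat.card L).Coprime (Nat.card S) :=
    Nat.Coprime.mul_left (Nat.Coprime.coprime_dvd_left hnL hcop)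
      (Nat.Coprime.coprime_dvd_left hLG hcop)
  have hprime : ∀ r : ℕ, r.Prime → r ∣ Nat.card (E ⧸ j.range) → r ∣ Nat.card G := by
    intro r hr h
    have h1 : r ∣ Nat.card E := h.trans (Subgroup.card_quotient_dvd_card _)
    rcases prime_dvd p hexp hr h1 with h2 | h2
    · exact h2
    · rcases hr.dvd_mul.1 h2 with h3 | h3
      · exact h3.trans hnL
      · exact h3.trans hLG
  -- fixed points of `S` in the quotient
  have hmem : ∀ x : E, (∀ s : S, s • q x = q x) ↔ ∃ d, ι d = p x := by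
    intro x
    rw [← hfix]
    constructor
    · intro h s
      have h1 : q (s • x * x⁻¹) = 1 := by
        rw [map_mul, ← hqs, h s, map_inv, mul_inv_cancel]
      obtain ⟨l, hl⟩ := hq1 _ h1
      have h2 : s • p x * (p x)⁻¹ = l := by
        rw [← hps, ← map_inv, ← map_mul, hl, hpj]
      rw [h2]
      exact l.2
    · intro h s
      obtain ⟨l, hl⟩ : ∃ l : L, (l : G) = s • p x * (p x)⁻¹ := ⟨⟨_, h s⟩, rfl⟩
      obtain ⟨z, hz⟩ : ∃ z, z = s • x * x⁻¹ * (j l)⁻¹ := ⟨_, rfl⟩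
      have hpz : p z = 1 := by
        rw [hz, map_mul, map_mul, map_inv, map_inv, hps, hpj, hl, mul_inv_cancel]
      have h1 : s • q x = q z * q x := by
        have e1 : s • x = z * x * (x⁻¹ * j l * x) := by rw [hz]; group
        have e2 : x⁻¹ * j l * x = j (MulAut.conjNormal (p x⁻¹) l) := by
          rw [← hconj, inv_inv]
        rw [hqs, e1, map_mul, e2, hqj, mul_one, map_mul]
      have h2 : q z = 1 := eq_one_of_smul (s := s) hcopm h1 (by rw [hqs, hfixp s z hpz])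
        (by rw [← map_pow, hexp z hpz, map_one])
      rw [h1, h2, one_mul]
  -- the central configuration
  have hZc : ∀ z, p z = 1 → ∀ y, y * z = z * y := fun z hz y =>
    Subgroup.mem_center_iff.1 (hpc z hz) y
  have hconf : Conf S ((K.comap p).map q) (p.ker.map q) := by
    refine ⟨?_, ?_, ?_, ?_, ?_, ?_, ?_, ?_, ?_⟩
    · exact (hK.comap p).map q hq
    · rintro s _ ⟨x, hx, rfl⟩
      refine ⟨s • x, ?_, (hqs s x).symm⟩
      show p (s • x) ∈ K
      rw [hps]
      exact hKS s _ hx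
    · apply Subgroup.map_mono
      intro x hx
      show p x ∈ K
      rw [MonoidHom.mem_ker.1 hx]
      exact K.one_mem
    · rintro _ ⟨z, hz, rfl⟩
      rw [Subgroup.mem_center_iff]
      intro y
      obtain ⟨y, rfl⟩ := hq y
      rw [← map_mul, ← map_mul, hZc z hz]
    · rintro _ ⟨z, hz, rfl⟩ s
      rw [hqs, hfixp s z hz]
    · rintro _ ⟨x, hx, rfl⟩ _ ⟨y, hy, rfl⟩
      obtain ⟨l, hl⟩ : ∃ l : L, (l : G) = ⁅p x, p y⁆ := ⟨⟨_, hab _ hx _ hy⟩, rfl⟩
      refine ⟨⁅x, y⁆ * (j l)⁻¹, ?_, ?_⟩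
      · show p _ = 1
        rw [map_mul, map_commutatorElement, map_inv, hpj, hl, mul_inv_cancel]
      · rw [map_mul, map_inv, hqj, inv_one, mul_one, map_commutatorElement]
    · intro y
      obtain ⟨x, rfl⟩ := hq y
      obtain ⟨k, hk, d, hkd⟩ := hgen (p x)
      obtain ⟨y, hy⟩ := hp (ι d)
      refine ⟨q (x * y⁻¹), ⟨x * y⁻¹, ?_, rfl⟩, q y, ?_, ?_⟩
      · show p (x * y⁻¹) ∈ K
        rw [map_mul, map_inv, hy, hkd, mul_inv_cancel_right]
        exact hk
      · rw [hmem]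
        exact ⟨d, hy.symm⟩
      · rw [← map_mul, inv_mul_cancel_right]
    · rw [← Nat.not_even_iff_odd, even_iff_two_dvd]
      intro h
      have := hprime 2 Nat.prime_two h
      rw [← Nat.not_even_iff_odd, even_iff_two_dvd] at hodd
      exact hodd this
    · apply Nat.coprime_of_dvd
      intro r hr h h'
      have h1 := hprime r hr h
      have h2 := Nat.dvd_gcd h1 h'
      rw [hcop] at h2
      exact hr.one_lt.ne' (Nat.dvd_one.1 h2)
  have hfQ : Fintype (E ⧸ j.range) := Fintype.ofFinite _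
  let H : Subgroup (E ⧸ j.range) := fx S (E ⧸ j.range)
  have hfH : Fintype H := Fintype.ofFinite _
  obtain ⟨c1, c2, c3, c4⟩ := hconf.main H.subtype Subtype.val_injective (fun g => by
    constructor
    · intro h
      exact ⟨⟨g, h⟩, rfl⟩
    · rintro ⟨d, rfl⟩
      exact d.2)
  -- the subgroup over `D`
  let ED : Subgroup E := ι.range.comap p
  have hfED : Fintype ED := Fintype.ofFinite _
  have hED : ∀ x, x ∈ ED ↔ ∃ d, ι d = p x := fun x => Iff.rfl
  let pD : ED →* D := ((MonoidHom.ofInjective hι).symm : ι.range →* D).comp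
    ((p.subgroupComap ι.range))
  have hpD : ∀ x : ED, ι (pD x) = p x := by
    intro x
    have h1 := (MonoidHom.ofInjective hι).apply_symm_apply ((p.subgroupComap ι.range) x)
    exact congrArg Subtype.val h1
  let qD : ED →* H :=
    { toFun := fun x => ⟨q x, (hmem x).2 x.2⟩
      map_one' := Subtype.ext (map_one q)
      map_mul' := fun x y => Subtype.ext (map_mul q (x : E) (y : E)) }
  have hqD : ∀ x : ED, ((qD x : H) : E ⧸ j.range) = q x := fun x => rfl
  have hpDs : Function.Surjective pD := by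
    intro d
    obtain ⟨x, hx⟩ := hp (ι d)
    refine ⟨⟨x, d, hx.symm⟩, hι ?_⟩
    rw [hpD, hx]
  have hqDs : Function.Surjective qD := by
    rintro ⟨y, hy⟩
    obtain ⟨x, rfl⟩ := hq y
    exact ⟨⟨x, (hmem x).1 hy⟩, rfl⟩
  have hjED : ∀ l : L, j l ∈ ED := fun l => ⟨i l, by rw [hi, hpj]⟩
  -- irreducibility on the kernels
  let jq : L →* q.ker := j.codRestrict q.ker fun l => MonoidHom.mem_ker.2 (hqj l)
  have hjq : Function.Surjective jq := by
    rintro ⟨x, hx⟩
    obtain ⟨l, rfl⟩ := hq1 x (MonoidHom.mem_ker.1 hx)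
    exact ⟨l, rfl⟩
  have hXN : IsIrrCharacter q.ker (fun x => X x) := by
    apply Cfsg.Agent.CharactersDeep.MaxInduced.isIrr_of_comp jq
      (isCharacter_comp q.ker.subtype hXchar)
    show IsIrrCharacter L (X ∘ j)
    rw [hXcomp]; exact hφ
  have hfq : Fintype q.ker := Fintype.ofFinite _
  let jD : L →* qD.ker := (j.codRestrict ED hjED).codRestrict qD.ker fun l => by
    rw [MonoidHom.mem_ker]
    exact Subtype.ext (hqj l)
  have hjD : Function.Surjective jD := by
    rintro ⟨x, hx⟩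
    obtain ⟨l, hl⟩ := hq1 x (congrArg Subtype.val (MonoidHom.mem_ker.1 hx))
    exact ⟨l, Subtype.ext (Subtype.ext hl.symm)⟩
  let XD : ED → ℂ := fun x => X x
  have hXDchar : IsCharacter ED XD := isCharacter_comp ED.subtype hXchar
  have hXDN : IsIrrCharacter qD.ker (fun x => XD x) := by
    apply Cfsg.Agent.CharactersDeep.MaxInduced.isIrr_of_comp jD
      (isCharacter_comp qD.ker.subtype hXDchar)
    show IsIrrCharacter L (X ∘ j)
    rw [hXcomp]; exact hφ
  have hXDirr : IsIrrCharacter ED XD :=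
    Cfsg.Agent.CharactersDeep.MaxInduced.isIrr_of_comp qD.ker.subtype hXDchar hXDN
  have hfqD : Fintype qD.ker := Fintype.ofFinite _
  -- existence of related characters
  have hexG : ∀ χ : IrrCharacter G, classInner (fun l : L => (χ : G → ℂ) l) ρ.character ≠ 0 →
      ∃ η : IrrCharacter (E ⧸ j.range), Rel p q X (χ : G → ℂ) η.1 := by
    intro χ hχ
    obtain ⟨η, hη, hrel⟩ := exists_rel_of_over hp hq hXirr hXN χ.2 (by
      rw [← classInner_comp' jq hjq]
      have e1 : (fun n : q.ker => (χ : G → ℂ) (p n)) ∘ jq = fun l : L => (χ : G → ℂ) l := by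
        funext l
        show (χ : G → ℂ) (p (j l)) = _
        rw [hpj]
      have e2 : (fun n : q.ker => X n) ∘ jq = ρ.character := hXcomp
      rw [e1, e2]
      exact hχ)
    exact ⟨⟨η, hη⟩, hrel⟩
  have hexD : ∀ ψ : IrrCharacter D, classInner (fun l : L => (ψ : D → ℂ) (i l)) ρ.character ≠ 0 →
      ∃ ξ : IrrCharacter H, Rel pD qD XD (ψ : D → ℂ) ξ.1 := by
    intro ψ hψ
    obtain ⟨ξ, hξ, hrel⟩ := exists_rel_of_over hpDs hqDs hXDirr hXDN ψ.2 (by
      rw [← classInner_comp' jD hjD]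
      have e1 : (fun n : qD.ker => (ψ : D → ℂ) (pD n)) ∘ jD = fun l : L => (ψ : D → ℂ) (i l) := by
        funext l
        show (ψ : D → ℂ) (pD ⟨j l, hjED l⟩) = _
        exact congrArg ψ.1 (hι (by rw [hpD, hi, hpj]))
      have e2 : (fun n : qD.ker => XD n) ∘ jD = ρ.character := hXcomp
      rw [e1, e2]
      exact hψ)
    exact ⟨⟨ξ, hξ⟩, hrel⟩
  -- over `φ`
  have hover : ∀ (χ : IrrCharacter G) (η : IrrCharacter (E ⧸ j.range)),
      Rel p q X (χ : G → ℂ) η.1 →
      classInner (fun l : L => (χ : G → ℂ) l) ρ.character ≠ 0 := by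
    intro χ η hrel
    have e1 : (fun l : L => (χ : G → ℂ) l) = η.1 1 • ρ.character := by
      funext l
      show (χ : G → ℂ) l = η.1 1 * ρ.character l
      rw [← hpj l, hrel, hXj, hqj, mul_comm]
    rw [e1, classInner_smul_left, classInner_irr_self hφ, mul_one]
    exact isIrr_apply_one_ne_zero η.2
  have hoverD : ∀ (ψ : IrrCharacter D) (ξ : IrrCharacter H),
      Rel pD qD XD (ψ : D → ℂ) ξ.1 →
      classInner (fun l : L => (ψ : D → ℂ) (i l)) ρ.character ≠ 0 := by
    intro ψ ξ hrel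
    have e1 : (fun l : L => (ψ : D → ℂ) (i l)) = ξ.1 1 • ρ.character := by
      funext l
      show (ψ : D → ℂ) (i l) = ξ.1 1 * ρ.character l
      have h1 : i l = pD ⟨j l, hjED l⟩ := by
        apply hι
        rw [hpD, hi, hpj]
      have h2 : qD ⟨j l, hjED l⟩ = 1 := Subtype.ext (hqj l)
      rw [h1, hrel, h2, ← hXj, mul_comm]
    rw [e1, classInner_smul_left, classInner_irr_self hφ, mul_one]
    exact isIrr_apply_one_ne_zero ξ.2
  -- invariance
  have hinv : ∀ (χ : IrrCharacter G) (η : IrrCharacter (E ⧸ j.range)),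
      Rel p q X (χ : G → ℂ) η.1 → (Inv S (χ : G → ℂ) ↔ Inv S η.1) := by
    intro χ η hrel
    constructor
    · intro h s y
      let η' : IrrCharacter (E ⧸ j.range) := twist (aut S (E ⧸ j.range) s) η
      have hrel' : Rel p q X (χ : G → ℂ) η'.1 := by
        intro x
        have h1 := hrel (s • x)
        rw [hps, h s, htr] at h1
        exact h1
      have h1 := hrel.classInner hp hq hXirr hXN hrel'
      rw [classInner_irr_self χ.2] at h1
      have h2 : η.1 = η'.1 := by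
        by_contra hne
        rw [classInner_irr_ne η.2 η'.2 hne] at h1
        exact one_ne_zero h1
      have h3 := congrFun h2 y
      exact h3.symm
    · intro h s g
      obtain ⟨x, rfl⟩ := hp g
      rw [← hps, hrel, hrel, htr, ← hqs, h s]
  -- multiplicities
  have hmult : ∀ (χ : IrrCharacter G) (η : IrrCharacter (E ⧸ j.range)) (ψ : IrrCharacter D)
      (ξ : IrrCharacter H), Rel p q X (χ : G → ℂ) η.1 →
      Rel pD qD XD (ψ : D → ℂ) ξ.1 → (Cor ι 2 χ ψ ↔ Cor H.subtype 2 η ξ) := by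
    intro χ η ψ ξ h1 h2
    have h3 : Rel pD qD XD ((χ : G → ℂ) ∘ ι) (η.1 ∘ H.subtype) := by
      intro x
      show (χ : G → ℂ) (ι (pD x)) = X x * η.1 (q x)
      rw [hpD, h1]
    have h4 := h3.classInner hpDs hqDs hXDirr hXDN h2
    unfold Cor
    rw [h4]
  have hne_of_cor : ∀ (η : IrrCharacter (E ⧸ j.range)) (ξ : IrrCharacter H),
      Cor H.subtype 2 η ξ → classInner (η.1 ∘ H.subtype) ξ.1 ≠ 0 := by
    rintro η ξ ⟨m, hm, hm'⟩ h0
    rw [h0] at hm
    apply hm'
    have : m = 0 := by exact_mod_cast hm.symm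
    rw [this]
    exact dvd_zero 2
  -- the scalars
  have hlam : ∀ (η : IrrCharacter (E ⧸ j.range)) (ξ : IrrCharacter H), Cor H.subtype 2 η ξ →
      ∀ z : ED, p z = 1 → ∃ a b : ℂ, a * conj b = 1 ∧ (X z * η.1 (q z) = X 1 * η.1 1 ↔ a = 1) ∧
        (XD z * ξ.1 (qD z) = XD 1 * ξ.1 1 ↔ b = 1) := by
    intro η ξ hc z hz
    obtain ⟨a, ha⟩ := central_scalar hXirr (hpc z hz)
    obtain ⟨b, hb⟩ := central_scalar η.2 (z := q z) (by
      rw [Subgroup.mem_center_iff]
      intro y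
      obtain ⟨y, rfl⟩ := hq y
      rw [← map_mul, ← map_mul, hZc z hz])
    obtain ⟨b', hb'⟩ := central_scalar ξ.2 (z := qD z) (by
      rw [Subgroup.mem_center_iff]
      intro y
      obtain ⟨y, rfl⟩ := hqDs y
      rw [← map_mul, ← map_mul]
      congr 1
      exact Subtype.ext (hZc z hz y))
    have h1 : classInner (fun x : ED => XD x * (η.1 ∘ H.subtype) (qD x))
        (fun x : ED => XD x * ξ.1 (qD x)) ≠ 0 := by
      rw [classInner_mul hqDs hXDirr hXDN]
      exact hne_of_cor η ξ hc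
    have h2 := inner_scalar (z := z) (a := a * b) (b := a * b') (by
      intro x
      show X (z * x) * η.1 (q (z * x)) = a * b * (X x * η.1 (q x))
      rw [ha, map_mul, hb]
      ring) (by
      intro x
      show X (z * x) * ξ.1 (qD (z * x)) = a * b' * (X x * ξ.1 (qD x))
      rw [ha, map_mul, hb']
      ring) h1
    have hX1 : X 1 * η.1 1 ≠ 0 :=
      mul_ne_zero (isIrr_apply_one_ne_zero hXirr) (isIrr_apply_one_ne_zero η.2)
    have hX1' : X 1 * ξ.1 1 ≠ 0 :=
      mul_ne_zero (isIrr_apply_one_ne_zero hXirr) (isIrr_apply_one_ne_zero ξ.2)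
    refine ⟨a * b, a * b', h2, ?_, ?_⟩
    · have e1 : X z * η.1 (q z) = a * b * (X 1 * η.1 1) := by
        have h3 := ha 1
        have h4 := hb 1
        rw [mul_one] at h3 h4
        rw [h3, h4]
        ring
      rw [e1]
      exact mul_eq_right₀ hX1
    · have e1 : XD z * ξ.1 (qD z) = a * b' * (XD 1 * ξ.1 1) := by
        have h3 := ha 1
        have h4 := hb' 1
        rw [mul_one] at h3 h4
        show X z * _ = a * b' * (X 1 * _)
        rw [h3, h4]
        ring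
      rw [e1]
      exact mul_eq_right₀ hX1'
  have hdown : ∀ (χ : IrrCharacter G) (η : IrrCharacter (E ⧸ j.range)) (ξ : IrrCharacter H),
      Rel p q X (χ : G → ℂ) η.1 → Cor H.subtype 2 η ξ →
      ∃ ψ : IrrCharacter D, Rel pD qD XD (ψ : D → ℂ) ξ.1 := by
    intro χ η ξ hrel hc
    obtain ⟨ψ, hψ, hψ'⟩ := exists_rel_of_ker hpDs hqDs hXDirr hXDN ξ.2 (by
      intro z hz
      have hz' : p z = 1 := by rw [← hpD, hz, map_one]
      obtain ⟨a, b, hab', h1, h2⟩ := hlam η ξ hc z hz'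
      rw [h2]
      have h3 : a = 1 := by
        rw [← h1]
        have e1 := hrel z
        have e2 := hrel 1
        rw [hz'] at e1
        rw [map_one, map_one] at e2
        rw [← e1, e2]
      rw [h3, one_mul] at hab'
      exact (map_eq_one_iff _ (starRingEnd ℂ).injective).1 hab')
    exact ⟨⟨ψ, hψ⟩, hψ'⟩
  have hup : ∀ (ψ : IrrCharacter D) (η : IrrCharacter (E ⧸ j.range)) (ξ : IrrCharacter H),
      Rel pD qD XD (ψ : D → ℂ) ξ.1 → Cor H.subtype 2 η ξ →
      ∃ χ : IrrCharacter G, Rel p q X (χ : G → ℂ) η.1 := by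
    intro ψ η ξ hrel hc
    obtain ⟨χ, hχ, hχ'⟩ := exists_rel_of_ker hp hq hXirr hXN η.2 (by
      intro z hz
      have hzED : z ∈ ED := ⟨1, by rw [map_one, hz]⟩
      obtain ⟨a, b, hab', h1, h2⟩ := hlam η ξ hc ⟨z, hzED⟩ hz
      rw [h1]
      have h3 : b = 1 := by
        rw [← h2]
        have e1 := hrel ⟨z, hzED⟩
        have e2 := hrel 1
        have e3 : pD ⟨z, hzED⟩ = 1 := hι (by rw [hpD, map_one]; exact hz)
        rw [e3] at e1
        rw [map_one, map_one] at e2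
        rw [← e1, e2]
      rw [h3, map_one, mul_one] at hab'
      exact hab')
    exact ⟨⟨χ, hχ⟩, hχ'⟩
  refine ⟨?_, ?_, ?_, ?_⟩
  · intro χ hχ hne
    obtain ⟨η, hη⟩ := hexG χ hne
    obtain ⟨ξ, hξ⟩ := c1 η ((hinv χ η hη).1 hχ)
    obtain ⟨ψ, hψ⟩ := hdown χ η ξ hη hξ
    exact ⟨ψ, hoverD ψ ξ hψ, (hmult χ η ψ ξ hη hψ).2 hξ⟩
  · intro χ ψ ψ' hχ hne hneψ hneψ' hcψ hcψ'
    obtain ⟨η, hη⟩ := hexG χ hne
    obtain ⟨ξ, hξ⟩ := hexD ψ hneψ
    obtain ⟨ξ', hξ'⟩ := hexD ψ' hneψ'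
    have h1 := c2 η ξ ξ' ((hinv χ η hη).1 hχ) ((hmult χ η ψ ξ hη hξ).1 hcψ)
      ((hmult χ η ψ' ξ' hη hξ').1 hcψ')
    rw [← h1] at hξ'
    apply Subtype.ext
    funext d
    obtain ⟨x, rfl⟩ := hpDs d
    rw [hξ x, hξ' x]
  · intro χ χ' ψ hχ hχ' hne hne' hneψ hc hc'
    obtain ⟨η, hη⟩ := hexG χ hne
    obtain ⟨η', hη'⟩ := hexG χ' hne'
    obtain ⟨ξ, hξ⟩ := hexD ψ hneψ
    have h1 := c3 η η' ξ ((hinv χ η hη).1 hχ) ((hinv χ' η' hη').1 hχ')
      ((hmult χ η ψ ξ hη hξ).1 hc) ((hmult χ' η' ψ ξ hη' hξ).1 hc')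
    rw [← h1] at hη'
    apply Subtype.ext
    funext g
    obtain ⟨x, rfl⟩ := hp g
    rw [hη x, hη' x]
  · intro ψ hne
    obtain ⟨ξ, hξ⟩ := hexD ψ hne
    obtain ⟨η, hη, hc⟩ := c4 ξ
    obtain ⟨χ, hχ⟩ := hup ψ η ξ hξ hc
    exact ⟨χ, (hinv χ η hχ).2 hη, hover χ η hχ, (hmult χ η ψ ξ hχ hξ).2 hc⟩

end Cfsg.Agent.H596.CoverRed
end

-- part: H596/OddMain
section
/-!
# The correspondence for an abelian section of odd order
-/

set_option autoImplicit false

open scoped commutatorElement ComplexConjugate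

namespace Cfsg.Agent.H596.OddMain

open Cfsg Module
open Cfsg.Agent.Characters.Core
open Cfsg.Agent.H593.GlaubermanP (Setup Inv)
open Cfsg.Agent.H595.Solv
open Cfsg.Agent.H594.Glau (autPerm autPerm_apply autPerm_apply_apply perm_fixed exists_irr over_trans)
open Cfsg.Agent.OddOrderCharacters.PF9.CliffGen
open Cfsg.Agent.OddOrderCharacters.IndRes (res classInner_indFun_right)
open Cfsg.Agent.OddOrderCharacters.NormalInduced (conjFn)
open Cfsg.Agent.Classification.BGIsometry (classInner_comp')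
open Cfsg.Agent.H596.OddConf (inv_of_conj exists_exp)

universe u v

variable {G : Type u} [Group G] {S : Type*} [Group S] [MulDistribMulAction S G]

/-- The action on an invariant subgroup. -/
@[instance_reducible]
def subAct (T : Subgroup G) (hT : ∀ (s : S), ∀ t ∈ T, s • t ∈ T) : MulDistribMulAction S T where
  smul s t := ⟨s • (t : G), hT s t t.2⟩
  one_smul t := Subtype.ext (one_smul S (t : G))
  mul_smul s s' t := Subtype.ext (mul_smul s s' (t : G))
  smul_mul s x y := Subtype.ext (smul_mul' s (x : G) (y : G))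
  smul_one s := Subtype.ext (smul_one s)

/-- Fixed points in an invariant coset. -/
theorem exists_fixed_coset [Finite G] [Finite S] (T : Subgroup G)
    (hTS : ∀ (s : S), ∀ t ∈ T, s • t ∈ T) (hcop : (Nat.card T).Coprime (Nat.card S))
    (hsolv : Group.IsSolvable T) (g : G) (hg : ∀ s : S, s • g * g⁻¹ ∈ T) :
    ∃ t ∈ T, ∀ s : S, s • (t * g) = t * g := by
  obtain ⟨t, ht⟩ := perm_fixed (MulAction.toPermHom S G) (MulAction.toPermHom T G) (by
      intro s t
      refine ⟨⟨s • (t : G), hTS s t t.2⟩, ?_⟩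
      ext x
      show s • ((t : G) * s⁻¹ • x) = s • (t : G) * x
      rw [smul_mul', smul_inv_smul])
    (Nat.Coprime.coprime_dvd_left (Subgroup.card_range_dvd _)
      (Nat.Coprime.coprime_dvd_right (Subgroup.card_range_dvd _) hcop.symm))
    (by
      right
      have := hsolv
      exact Group.isSolvable_of_surjective (f := (MulAction.toPermHom T G).rangeRestrict)
        (MonoidHom.rangeRestrict_surjective _)) g (by
      intro s
      refine ⟨⟨_, hg s⟩, ?_⟩
      show s • g = s • g * g⁻¹ * g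
      rw [inv_mul_cancel_right])
  exact ⟨t, t.2, fun s => ht s⟩

/-- An invariant constituent on a normal subgroup. -/
theorem exists_below [Fintype G] [Finite S] (L : Subgroup G) [hL : L.Normal] [Fintype L]
    (hLS : ∀ (s : S), ∀ l ∈ L, s • l ∈ L) (hcop : (Nat.card G).Coprime (Nat.card S))
    (hsolv : Group.IsSolvable G) (χ : IrrCharacter G) (hχ : Inv S (χ : G → ℂ)) :
    ∃ φ : IrrCharacter L, classInner (fun l : L => (χ : G → ℂ) l) (φ : L → ℂ) ≠ 0 ∧
      ∀ (s : S) (x y : L), (y : G) = s • (x : G) → (φ : L → ℂ) y = (φ : L → ℂ) x := by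
  classical
  have hfin : Finite (IrrCharacter L) := finite_irr
  let act : MulDistribMulAction S L := subAct L hLS
  have hact : ∀ (s : S) (x : L), ((s • x : L) : G) = s • (x : G) := fun s x => rfl
  set f : S →* Equiv.Perm (IrrCharacter L) :=
    (autPerm L).comp (MulDistribMulAction.toMulAut S L) with hf
  set h : G →* Equiv.Perm (IrrCharacter L) := (autPerm L).comp MulAut.conjNormal with hh
  have hcf : IsClassFunction L (fun n : L => (χ : G → ℂ) n) :=
    isCharacter_isClassFunction (Cfsg.Agent.Characters.Clifford.isCharacter_restrict L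
      (isIrr_isCharacter χ.2))
  obtain ⟨θ0, hθ0⟩ := exists_irr hcf (fun h0 => by
    have := congrFun h0 1
    exact isIrr_apply_one_ne_zero χ.2 this)
  have hinner : ∀ (e : MulAut L), (∀ n : L, (χ : G → ℂ) (e n : L) = (χ : G → ℂ) n) →
      ∀ θ : IrrCharacter L, classInner (fun n : L => (χ : G → ℂ) n) (autPerm L e θ : L → ℂ) =
        classInner (fun n : L => (χ : G → ℂ) n) (θ : L → ℂ) := by
    intro e he θ
    have h1 := Cfsg.Agent.Characters.Clifford.classInner_comp_mulEquiv e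
      (fun n : L => (χ : G → ℂ) n) (autPerm L e θ : L → ℂ)
    rw [← h1]
    congr 1
    · funext n; exact he n
    · funext n; exact autPerm_apply_apply _ _ _
  obtain ⟨g, hg⟩ := perm_fixed f h (fun s g => ⟨s • g, by
      rw [hf, hh]
      simp only [MonoidHom.comp_apply]
      rw [← map_mul, ← map_inv, ← map_mul]
      congr 1
      ext x
      show ((s • (MulAut.conjNormal g (s⁻¹ • x)) : L) : G) = ((MulAut.conjNormal (s • g) x : L) : G)
      rw [hact, MulAut.conjNormal_apply, MulAut.conjNormal_apply, hact, smul_mul', smul_mul',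
        smul_inv_smul, smul_inv']⟩)
    (Nat.Coprime.coprime_dvd_left (Subgroup.card_range_dvd f)
      (Nat.Coprime.coprime_dvd_right (Subgroup.card_range_dvd h) hcop.symm))
    (by
      right
      have := hsolv
      exact Group.isSolvable_of_surjective (f := h.rangeRestrict) h.rangeRestrict_surjective) θ0 (by
      intro s
      have h1 : classInner (fun n : L => (χ : G → ℂ) n) (f s θ0 : L → ℂ) ≠ 0 := by
        rw [hf]
        show classInner _ (autPerm L (MulDistribMulAction.toMulAut S L s) θ0 : L → ℂ) ≠ 0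
        rw [hinner _ (fun n => hχ s (n : G))]
        exact hθ0
      obtain ⟨g, hg⟩ := Cfsg.Agent.Characters.Clifford.exists_conj_of_constituents L χ.2 θ0.2
        (f s θ0).2 hθ0 h1
      refine ⟨g⁻¹, ?_⟩
      apply Subtype.ext
      rw [hg]
      funext n
      show (θ0 : L → ℂ) (MulAut.conjNormal g n) = (θ0 : L → ℂ) ((MulAut.conjNormal g⁻¹)⁻¹ n)
      rw [map_inv, inv_inv])
  refine ⟨h g θ0, ?_, ?_⟩
  · rw [hh]
    show classInner _ (autPerm L (MulAut.conjNormal g) θ0 : L → ℂ) ≠ 0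
    rw [hinner _ (fun n => by
      rw [MulAut.conjNormal_apply]
      exact isIrr_isClassFunction χ.2 _ _)]
    exact hθ0
  · intro s x y hxy
    have h1 := hg s
    have h2 : y = s • x := Subtype.ext hxy
    rw [h2]
    conv_lhs => rw [← h1]
    exact autPerm_apply_apply (MulDistribMulAction.toMulAut S L s) (h g θ0) x

/-- Induction commutes with automorphisms. -/
theorem indFun_smul [Fintype G] (T : Subgroup G) (hTS : ∀ (s : S), ∀ t ∈ T, s • t ∈ T)
    (ζ : T → ℂ) (s : S) (g : G) :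
    indFun T ζ (s • g) = indFun T (fun t : T => ζ ⟨s • (t : G), hTS s t t.2⟩) g := by
  rw [indFun_apply, indFun_apply]
  congr 1
  symm
  refine Fintype.sum_bijective (fun x : G => s • x) (MulAction.bijective s) _ _ fun x => ?_
  have e1 : (s • x)⁻¹ * s • g * s • x = s • (x⁻¹ * g * x) := by
    rw [smul_mul', smul_mul', smul_inv']
  rw [e1]
  by_cases h : x⁻¹ * g * x ∈ T
  · rw [extendByZero_of_mem T _ h, extendByZero_of_mem T _ (hTS s _ h)]
  · have h' : s • (x⁻¹ * g * x) ∉ T := by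
      intro h'
      have := hTS s⁻¹ _ h'
      rw [inv_smul_smul] at this
      exact h this
    rw [extendByZero_of_notMem T _ h, extendByZero_of_notMem T _ h']

/-- **The correspondence over an invariant character of `L`.** -/
theorem over_main [Fintype G] [Finite S] {D : Type v} [Group D] [Fintype D] (ι : D →* G)
    (hι : Function.Injective ι) (L K : Subgroup G) [hL : L.Normal] [hK : K.Normal] [Fintype L]
    (hodd : Odd (Nat.card G)) (hcop : (Nat.card G).Coprime (Nat.card S))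
    (hsolv : Group.IsSolvable G) (hLK : L ≤ K)
    (hLS : ∀ (s : S), ∀ l ∈ L, s • l ∈ L) (hKS : ∀ (s : S), ∀ k ∈ K, s • k ∈ K)
    (hab : ∀ a ∈ K, ∀ b ∈ K, ⁅a, b⁆ ∈ L) (hfix : ∀ g : G, (∀ s : S, s • g * g⁻¹ ∈ L) ↔ ∃ d, ι d = g)
    (hgen : ∀ g, ∃ k ∈ K, ∃ d, g = k * ι d) (i : L →* D) (hi : ∀ l, ι (i l) = l)
    (φ : IrrCharacter L)
    (hS : ∀ (s : S) (x y : L), (y : G) = s • (x : G) → (φ : L → ℂ) y = (φ : L → ℂ) x) :
    (∀ χ : IrrCharacter G, Inv S (χ : G → ℂ) →
      classInner (fun l : L => (χ : G → ℂ) l) (φ : L → ℂ) ≠ 0 →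
      ∃ ψ : IrrCharacter D, classInner (fun l : L => (ψ : D → ℂ) (i l)) (φ : L → ℂ) ≠ 0 ∧
        Cor ι 2 χ ψ) ∧
    (∀ (χ : IrrCharacter G) (ψ ψ' : IrrCharacter D), Inv S (χ : G → ℂ) →
      classInner (fun l : L => (χ : G → ℂ) l) (φ : L → ℂ) ≠ 0 →
      classInner (fun l : L => (ψ : D → ℂ) (i l)) (φ : L → ℂ) ≠ 0 →
      classInner (fun l : L => (ψ' : D → ℂ) (i l)) (φ : L → ℂ) ≠ 0 →
      Cor ι 2 χ ψ → Cor ι 2 χ ψ' → ψ = ψ') ∧
    (∀ (χ χ' : IrrCharacter G) (ψ : IrrCharacter D), Inv S (χ : G → ℂ) → Inv S (χ' : G → ℂ) →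
      classInner (fun l : L => (χ : G → ℂ) l) (φ : L → ℂ) ≠ 0 →
      classInner (fun l : L => (χ' : G → ℂ) l) (φ : L → ℂ) ≠ 0 →
      classInner (fun l : L => (ψ : D → ℂ) (i l)) (φ : L → ℂ) ≠ 0 →
      Cor ι 2 χ ψ → Cor ι 2 χ' ψ → χ = χ') ∧
    (∀ ψ : IrrCharacter D, classInner (fun l : L => (ψ : D → ℂ) (i l)) (φ : L → ℂ) ≠ 0 →
      ∃ χ : IrrCharacter G, Inv S (χ : G → ℂ) ∧
        classInner (fun l : L => (χ : G → ℂ) l) (φ : L → ℂ) ≠ 0 ∧ Cor ι 2 χ ψ) := by
  classical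
  -- the inertia group
  let T : Subgroup G := inertia L φ.1
  have hT : ∀ g, g ∈ T ↔ conjFn L φ.1 g = φ.1 := fun g => mem_inertia
  have hT' : ∀ g, g ∈ T ↔ ∀ l : L, φ.1 ⟨g * l * g⁻¹, hL.conj_mem l l.2 g⟩ = φ.1 l :=
    fun g => mem_inertia'
  have hLT : L ≤ T := le_inertia (isIrr_isClassFunction φ.2)
  have hTS : ∀ (s : S), ∀ t ∈ T, s • t ∈ T := by
    intro s t ht
    rw [hT'] at ht ⊢
    intro l
    have e1 := hS s ⟨t * (s⁻¹ • (l : G)) * t⁻¹, hL.conj_mem _ (hLS s⁻¹ l l.2) t⟩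
      ⟨s • t * l * (s • t)⁻¹, hL.conj_mem l l.2 _⟩ (by
        rw [smul_mul', smul_mul', smul_inv_smul, smul_inv'])
    have e2 := hS s ⟨s⁻¹ • (l : G), hLS s⁻¹ l l.2⟩ l (by rw [smul_inv_smul])
    rw [e1, e2]
    exact ht ⟨s⁻¹ • (l : G), hLS s⁻¹ l l.2⟩
  let actT : MulDistribMulAction S T := subAct T hTS
  have hactT : ∀ (s : S) (t : T), ((s • t : T) : G) = s • (t : G) := fun s t => rfl
  have hfT : Fintype T := Fintype.ofFinite T
  let TD : Subgroup D := T.comap ι
  have hfTD : Fintype TD := Fintype.ofFinite TD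
  have hTD : ∀ d, d ∈ TD ↔ ι d ∈ T := fun d => Iff.rfl
  let ND : Subgroup D := L.comap ι
  have hND : ND.Normal := hL.comap ι
  have hfND : Fintype ND := Fintype.ofFinite ND
  let φD : ND → ℂ := fun n => φ.1 ⟨ι n, n.2⟩
  let eN : L →* ND := i.codRestrict ND fun l => by
    show ι (i l) ∈ L
    rw [hi]; exact l.2
  have heN : Function.Surjective eN := by
    rintro ⟨n, hn⟩
    refine ⟨⟨ι n, hn⟩, Subtype.ext (hι ?_)⟩
    show ι (i ⟨ι n, hn⟩) = ι n
    rw [hi]
  have hφDe : φD ∘ eN = φ.1 := by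
    funext l
    show φ.1 ⟨ι (i l), _⟩ = φ.1 l
    exact congrArg φ.1 (Subtype.ext (hi l))
  have hφD : IsIrrCharacter ND φD :=
    isIrr_comp (ι.subgroupComap L) (by
      rintro ⟨l, hl⟩
      refine ⟨eN ⟨l, hl⟩, Subtype.ext ?_⟩
      exact hi ⟨l, hl⟩) φ.2
  have hTD' : ∀ d, d ∈ TD ↔ conjFn ND φD d = φD := by
    intro d
    rw [hTD, hT']
    constructor
    · intro h
      funext n
      have h1 := h ⟨ι n, n.2⟩
      refine Eq.trans ?_ h1
      show φ.1 ⟨ι (d * n * d⁻¹), _⟩ = φ.1 ⟨ι d * ι n * (ι d)⁻¹, _⟩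
      exact congrArg φ.1 (Subtype.ext (by
        show ι (d * n * d⁻¹) = ι d * ι n * (ι d)⁻¹
        rw [map_mul, map_mul, map_inv]))
    · intro h l
      have h1 := congrFun h (eN l)
      have h2 : φD (eN l) = φ.1 l := congrFun hφDe l
      rw [h2] at h1
      refine Eq.trans ?_ h1
      show φ.1 ⟨ι d * l * (ι d)⁻¹, _⟩ = φ.1 ⟨ι (d * i l * d⁻¹), _⟩
      exact congrArg φ.1 (Subtype.ext (by
        show ι d * l * (ι d)⁻¹ = ι (d * i l * d⁻¹)
        rw [map_mul, map_mul, map_inv, hi]))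
  have hNTD : ND ≤ TD := fun d hd => hLT hd
  let ιT : TD →* T := ι.subgroupComap T
  have hιTc : ∀ d : TD, ((ιT d : T) : G) = ι d := fun d => rfl
  have hιT : Function.Injective ιT := by
    intro a b hab
    apply Subtype.ext
    apply hι
    exact congrArg Subtype.val hab
  let j : L.subgroupOf T ≃* L := Subgroup.subgroupOfEquivOfLe hLT
  have hjc : ∀ x : L.subgroupOf T, ((j x : L) : G) = ((x : T) : G) := fun x => rfl
  let φT : IrrCharacter (L.subgroupOf T) := ⟨φ.1 ∘ j, isIrr_comp j.toMonoidHom j.surjective φ.2⟩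
  have hiTD : ∀ x : L.subgroupOf T, i (j x) ∈ TD := by
    intro x
    show ι (i (j x)) ∈ T
    rw [hi]
    exact hLT (j x).2
  let iT : L.subgroupOf T →* TD := (i.comp j.toMonoidHom).codRestrict TD hiTD
  have hiT : ∀ x, ιT (iT x) = x := by
    intro x
    apply Subtype.ext
    exact hi (j x)
  have hfLT : Fintype (L.subgroupOf T) := Fintype.ofFinite _
  -- arithmetic
  have hTG : Nat.card T ∣ Nat.card G := Subgroup.card_subgroup_dvd_card T
  have hoddT : Odd (Nat.card T) := by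
    obtain ⟨m, hm⟩ := hTG
    rw [hm] at hodd
    exact (Nat.odd_mul.1 hodd).1
  have hcopT : (Nat.card T).Coprime (Nat.card S) := Nat.Coprime.coprime_dvd_left hTG hcop
  have hfixT : ∀ g : T, (∀ s : S, s • g * g⁻¹ ∈ L.subgroupOf T) ↔ ∃ d, ιT d = g := by
    intro g
    have h1 := hfix g
    constructor
    · intro h
      obtain ⟨d, hd⟩ := h1.1 (fun s => h s)
      have hd' : d ∈ TD := by
        rw [hTD, hd]; exact g.2
      exact ⟨⟨d, hd'⟩, Subtype.ext hd⟩
    · rintro ⟨d, rfl⟩ s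
      exact h1.2 ⟨d, rfl⟩ s
  have hgenT : ∀ g : T, ∃ k ∈ K.subgroupOf T, ∃ d, g = k * ιT d := by
    intro g
    have hKT : ∀ s : S, s • (g : G) * (g : G)⁻¹ ∈ K ⊓ T := by
      intro s
      refine ⟨?_, T.mul_mem (hTS s g g.2) (T.inv_mem g.2)⟩
      obtain ⟨k, hk, d, hkd⟩ := hgen g
      have h1 : s • ι d * (ι d)⁻¹ ∈ K := hLK ((hfix (ι d)).2 ⟨d, rfl⟩ s)
      have e1 : s • (g : G) * (g : G)⁻¹ = s • k * (s • ι d * (ι d)⁻¹) * k⁻¹ := by
        rw [hkd, smul_mul']; group
      rw [e1]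
      exact K.mul_mem (K.mul_mem (hKS s k hk) h1) (K.inv_mem hk)
    obtain ⟨t, ht, ht'⟩ := exists_fixed_coset (S := S) (K ⊓ T)
      (fun s t ht => ⟨hKS s t ht.1, hTS s t ht.2⟩)
      (Nat.Coprime.coprime_dvd_left (Subgroup.card_subgroup_dvd_card _) hcop)
      (by have := hsolv; infer_instance)
      g hKT
    obtain ⟨d, hd⟩ := (hfix (t * g)).1 (fun s => by
      rw [ht' s, mul_inv_cancel]; exact L.one_mem)
    have hd' : d ∈ TD := by
      rw [hTD, hd]
      exact T.mul_mem ht.2 g.2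
    refine ⟨⟨t⁻¹, T.inv_mem ht.2⟩, K.inv_mem ht.1, ⟨d, hd'⟩, Subtype.ext ?_⟩
    show (g : G) = t⁻¹ * ι d
    rw [hd]
    group
  obtain ⟨A, B, C', D'⟩ := CoverRed.main (S := S) ιT hιT (L.subgroupOf T) (K.subgroupOf T) hoddT
    hcopT (fun x hx => hLK hx) (fun s l hl => hLS s l hl) (fun s l hl => hKS s l hl)
    (fun a ha b hb => hab a ha b hb) hfixT hgenT iT hiT φT (by
      intro g l
      show φ.1 (j (MulAut.conjNormal g l)) = φ.1 (j l)
      rw [← (hT' (g : G)).1 g.2 (j l)]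
      exact congrArg φ.1 (Subtype.ext (by
        rw [hjc, MulAut.conjNormal_apply]
        rfl))) (by
      intro s x y hxy
      exact hS s (j x) (j y) (by rw [hjc, hjc, hxy, hactT]))
  -- the two forms of "over `φ`"
  have hovG : ∀ ζ : T → ℂ, classInner (fun l : L.subgroupOf T => ζ l) φT.1 =
      classInner (resTo hLT ζ) φ.1 := by
    intro ζ
    exact classInner_comp_equiv j (resTo hLT ζ) φ.1
  have hovD : ∀ ψ : D → ℂ, classInner (res ND ψ) φD = classInner (fun l : L => ψ (i l)) φ.1 := by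
    intro ψ
    rw [← classInner_comp' eN heN, hφDe]
    rfl
  have hovTD : ∀ ψ : TD → ℂ, classInner (fun l : L.subgroupOf T => ψ (iT l)) φT.1 =
      classInner (resTo hNTD ψ) φD := by
    intro ψ
    rw [← classInner_comp' eN heN, hφDe]
    exact classInner_comp_equiv j (resTo hNTD ψ ∘ eN) φ.1
  -- Clifford correspondence
  have hupG : ∀ χ : IrrCharacter G, classInner (fun l : L => (χ : G → ℂ) l) φ.1 ≠ 0 →
      ∃ ζ : IrrCharacter T, classInner (fun l : L.subgroupOf T => ζ.1 l) φT.1 ≠ 0 ∧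
        χ.1 = indFun T ζ.1 := by
    intro χ hχ
    obtain ⟨ζ, hζ, h1, h2⟩ := exists_ind φ.2 hT hLT χ.2 hχ
    exact ⟨⟨ζ, hζ⟩, by rw [hovG]; exact h1, h2⟩
  have hupD : ∀ ψ : IrrCharacter D, classInner (fun l : L => (ψ : D → ℂ) (i l)) φ.1 ≠ 0 →
      ∃ ξ : IrrCharacter TD, classInner (fun l : L.subgroupOf T => ξ.1 (iT l)) φT.1 ≠ 0 ∧
        ψ.1 = indFun TD ξ.1 := by
    intro ψ hψ
    obtain ⟨ξ, hξ, h1, h2⟩ := exists_ind hφD hTD' hNTD ψ.2 (by rw [hovD]; exact hψ)
    exact ⟨⟨ξ, hξ⟩, by rw [hovTD]; exact h1, h2⟩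
  have hirrG : ∀ ζ : IrrCharacter T, classInner (fun l : L.subgroupOf T => ζ.1 l) φT.1 ≠ 0 →
      IsIrrCharacter G (indFun T ζ.1) := fun ζ hζ =>
    irr_ind φ.2 hT hLT ζ.2 (by rw [← hovG]; exact hζ)
  have hirrD : ∀ ξ : IrrCharacter TD, classInner (fun l : L.subgroupOf T => ξ.1 (iT l)) φT.1 ≠ 0 →
      IsIrrCharacter D (indFun TD ξ.1) := fun ξ hξ =>
    irr_ind hφD hTD' hNTD ξ.2 (by rw [← hovTD]; exact hξ)
  have hoverG : ∀ ζ : IrrCharacter T, classInner (fun l : L.subgroupOf T => ζ.1 l) φT.1 ≠ 0 →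
      classInner (fun l : L => indFun T ζ.1 l) φ.1 ≠ 0 := by
    intro ζ hζ
    have h1 : classInner (res T (indFun T ζ.1)) ζ.1 ≠ 0 := by
      rw [← classInner_indFun_right T ζ.1 (isIrr_isClassFunction (hirrG ζ hζ)),
        classInner_irr_self (hirrG ζ hζ)]
      exact one_ne_zero
    exact over_trans (Subgroup.inclusion hLT)
      (Cfsg.Agent.Characters.Clifford.isCharacter_restrict T (isIrr_isCharacter (hirrG ζ hζ)))
      ζ.2 φ.2 h1 (by
        have h2 := hovG ζ.1
        rw [h2] at hζ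
        exact hζ)
  have hoverD : ∀ ξ : IrrCharacter TD,
      classInner (fun l : L.subgroupOf T => ξ.1 (iT l)) φT.1 ≠ 0 →
      classInner (fun l : L => indFun TD ξ.1 (i l)) φ.1 ≠ 0 := by
    intro ξ hξ
    have h1 : classInner (res TD (indFun TD ξ.1)) ξ.1 ≠ 0 := by
      rw [← classInner_indFun_right TD ξ.1 (isIrr_isClassFunction (hirrD ξ hξ)),
        classInner_irr_self (hirrD ξ hξ)]
      exact one_ne_zero
    rw [← hovD]
    exact over_trans (Subgroup.inclusion hNTD)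
      (Cfsg.Agent.Characters.Clifford.isCharacter_restrict TD (isIrr_isCharacter (hirrD ξ hξ)))
      ξ.2 hφD h1 (by
        have h2 := hovTD ξ.1
        rw [h2] at hξ
        exact hξ)
  -- invariance
  have hinv : ∀ (χ : IrrCharacter G) (ζ : IrrCharacter T),
      classInner (fun l : L.subgroupOf T => ζ.1 l) φT.1 ≠ 0 → χ.1 = indFun T ζ.1 →
      (Inv S (χ : G → ℂ) ↔ Inv S ζ.1) := by
    intro χ ζ hζ hind
    constructor
    · intro h s t
      let ζs : IrrCharacter T := twist (aut S T s) ζ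
      have h1 : classInner (resTo hLT ζs.1) φ.1 ≠ 0 := by
        let a : L ≃* L :=
          { toFun := fun x => ⟨s • (x : G), hLS s x x.2⟩
            invFun := fun x => ⟨s⁻¹ • (x : G), hLS s⁻¹ x x.2⟩
            left_inv := fun x => Subtype.ext (inv_smul_smul s (x : G))
            right_inv := fun x => Subtype.ext (smul_inv_smul s (x : G))
            map_mul' := fun x y => Subtype.ext (smul_mul' s (x : G) (y : G)) }
        have e1 : φ.1 = φ.1 ∘ a := funext fun x => (hS s x (a x) rfl).symm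
        have e2 : resTo hLT ζs.1 = resTo hLT ζ.1 ∘ a := rfl
        rw [e2]
        conv_lhs => rw [e1]
        rw [classInner_comp_equiv, ← hovG]
        exact hζ
      have h2 : indFun T ζ.1 = indFun T ζs.1 := by
        funext g
        have h3 := indFun_smul T hTS ζ.1 s g
        rw [← hind, h s g, hind] at h3
        exact h3
      have h3 := ind_inj φ.2 hT hLT ζ.2 ζs.2 (by rw [← hovG]; exact hζ) h1 h2
      have h4 := congrFun h3 t
      exact h4.symm
    · intro h s g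
      rw [hind, indFun_smul T hTS ζ.1 s g]
      congr 1
      funext t
      exact h s t
  -- multiplicities
  have hmult : ∀ (χ : IrrCharacter G) (ζ : IrrCharacter T) (ψ : IrrCharacter D)
      (ξ : IrrCharacter TD), classInner (fun l : L.subgroupOf T => ζ.1 l) φT.1 ≠ 0 →
      χ.1 = indFun T ζ.1 → classInner (fun l : L.subgroupOf T => ξ.1 (iT l)) φT.1 ≠ 0 →
      ψ.1 = indFun TD ξ.1 → (Cor ι 2 χ ψ ↔ Cor ιT 2 ζ ξ) := by
    intro χ ζ ψ ξ hζ hχζ hξ hψξ
    have hfin : Finite (IrrCharacter T) := finite_irr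
    have hfin' : Fintype (IrrCharacter T) := Fintype.ofFinite _
    have key : classInner (χ.1 ∘ ι) ψ.1 = classInner (ζ.1 ∘ ιT) ξ.1 := by
      have hcf : IsClassFunction D (χ.1 ∘ ι) :=
        isCharacter_isClassFunction (isCharacter_comp ι (isIrr_isCharacter χ.2))
      rw [hψξ, classInner_indFun_right TD ξ.1 hcf]
      have e1 : res TD (χ.1 ∘ ι) = (fun t : T => χ.1 t) ∘ ιT := rfl
      obtain ⟨m, hm, hm'⟩ := Cfsg.Agent.CharDeep.CliffordCorr.exists_nat_coeffs
        (Cfsg.Agent.Characters.Clifford.isCharacter_restrict T (isIrr_isCharacter χ.2))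
      have e2 : (fun t : T => χ.1 t) ∘ ιT =
          ∑ η : IrrCharacter T, ((m η : ℂ) • (η.1 ∘ ιT)) := by
        funext d
        have := congrFun hm (ιT d)
        rw [Function.comp_apply, this]
        simp only [Finset.sum_apply, Pi.smul_apply, Function.comp_apply]
      rw [e1, e2, classInner_sum_left, Finset.sum_eq_single ζ]
      · rw [classInner_smul_left]
        have h1 : (m ζ : ℂ) = 1 := by
          rw [← hm' ζ]
          have h2 := classInner_indFun_right T ζ.1 (isIrr_isClassFunction χ.2)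
          rw [← hχζ, classInner_irr_self χ.2] at h2
          exact h2.symm
        rw [h1, one_mul]
      · intro η _ hne
        rw [classInner_smul_left]
        by_contra h0
        obtain ⟨h1, h2⟩ := mul_ne_zero_iff.1 h0
        have h3 : classInner (fun l : L.subgroupOf T => η.1 l) φT.1 ≠ 0 := by
          have h4 := over_trans iT (X := η.1 ∘ ιT)
            (isCharacter_comp ιT (isIrr_isCharacter η.2)) ξ.2 φT.2 h2 hξ
          have e3 : (fun n : L.subgroupOf T => (η.1 ∘ ιT) (iT n)) =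
              fun l : L.subgroupOf T => η.1 (l : T) := by
            funext l
            rw [Function.comp_apply, hiT]
          rw [e3] at h4
          exact h4
        have h4 : χ.1 = indFun T η.1 := by
          by_contra h5
          have h6 := classInner_irr_ne χ.2 (hirrG η h3) h5
          rw [classInner_indFun_right T η.1 (isIrr_isClassFunction χ.2)] at h6
          have h7 := hm' η
          rw [show (fun h : T => χ.1 h) = res T χ.1 from rfl, h6] at h7
          exact h1 h7.symm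
        have h5 := ind_inj φ.2 hT hLT η.2 ζ.2 (by rw [← hovG]; exact h3)
          (by rw [← hovG]; exact hζ) (h4.symm.trans hχζ)
        exact hne (Subtype.ext h5)
      · intro h; exact absurd (Finset.mem_univ _) h
    unfold Cor
    rw [key]
  refine ⟨?_, ?_, ?_, ?_⟩
  · intro χ hχ hne
    obtain ⟨ζ, hζ, hχζ⟩ := hupG χ hne
    obtain ⟨ξ, hξ, hc⟩ := A ζ ((hinv χ ζ hζ hχζ).1 hχ) hζ
    exact ⟨⟨_, hirrD ξ hξ⟩, hoverD ξ hξ, (hmult χ ζ ⟨_, hirrD ξ hξ⟩ ξ hζ hχζ hξ rfl).2 hc⟩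
  · intro χ ψ ψ' hχ hne hψ hψ' hc hc'
    obtain ⟨ζ, hζ, hχζ⟩ := hupG χ hne
    obtain ⟨ξ, hξ, hψξ⟩ := hupD ψ hψ
    obtain ⟨ξ', hξ', hψξ'⟩ := hupD ψ' hψ'
    have h1 := B ζ ξ ξ' ((hinv χ ζ hζ hχζ).1 hχ) hζ hξ hξ' ((hmult χ ζ ψ ξ hζ hχζ hξ hψξ).1 hc)
      ((hmult χ ζ ψ' ξ' hζ hχζ hξ' hψξ').1 hc')
    apply Subtype.ext
    rw [hψξ, hψξ', h1]
  · intro χ χ' ψ hχ hχ' hne hne' hψ hc hc'
    obtain ⟨ζ, hζ, hχζ⟩ := hupG χ hne
    obtain ⟨ζ', hζ', hχζ'⟩ := hupG χ' hne'
    obtain ⟨ξ, hξ, hψξ⟩ := hupD ψ hψ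
    have h1 := C' ζ ζ' ξ ((hinv χ ζ hζ hχζ).1 hχ) ((hinv χ' ζ' hζ' hχζ').1 hχ') hζ hζ' hξ
      ((hmult χ ζ ψ ξ hζ hχζ hξ hψξ).1 hc) ((hmult χ' ζ' ψ ξ hζ' hχζ' hξ hψξ).1 hc')
    apply Subtype.ext
    rw [hχζ, hχζ', h1]
  · intro ψ hψ
    obtain ⟨ξ, hξ, hψξ⟩ := hupD ψ hψ
    obtain ⟨ζ, hζi, hζ, hc⟩ := D' ξ hξ
    exact ⟨⟨_, hirrG ζ hζ⟩, (hinv ⟨_, hirrG ζ hζ⟩ ζ hζ rfl).2 hζi, hoverG ζ hζ,
      (hmult ⟨_, hirrG ζ hζ⟩ ζ ψ ξ hζ rfl hξ hψξ).2 hc⟩

theorem inertia_smul {L : Subgroup G} [hL : L.Normal] (hLS : ∀ (s : S), ∀ l ∈ L, s • l ∈ L)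
    {φ : L → ℂ} (hS : ∀ (s : S) (x y : L), (y : G) = s • (x : G) → φ y = φ x) (s : S) {t : G}
    (ht : t ∈ inertia L φ) : s • t ∈ inertia L φ := by
  rw [mem_inertia'] at ht ⊢
  intro l
  have e1 := hS s ⟨t * (s⁻¹ • (l : G)) * t⁻¹, hL.conj_mem _ (hLS s⁻¹ l l.2) t⟩
    ⟨s • t * l * (s • t)⁻¹, hL.conj_mem l l.2 _⟩ (by
      rw [smul_mul', smul_mul', smul_inv_smul, smul_inv'])
  have e2 := hS s ⟨s⁻¹ • (l : G), hLS s⁻¹ l l.2⟩ l (by rw [smul_inv_smul])
  rw [e1, e2]
  exact ht ⟨s⁻¹ • (l : G), hLS s⁻¹ l l.2⟩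

/-- The action on the source of an injective homomorphism with invariant range. -/
@[instance_reducible]
noncomputable def pullAct {D : Type v} [Group D] (ι : D →* G) (hι : Function.Injective ι)
    (h : ∀ (s : S) (d : D), ∃ d', ι d' = s • ι d) : MulDistribMulAction S D where
  smul s d := (h s d).choose
  one_smul d := hι ((h 1 d).choose_spec.trans (one_smul S (ι d)))
  mul_smul s t d := hι (by
    refine (h (s * t) d).choose_spec.trans ?_
    refine Eq.trans ?_ (h s (h t d).choose).choose_spec.symm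
    rw [(h t d).choose_spec, mul_smul])
  smul_mul s x y := hι (by
    refine (h s (x * y)).choose_spec.trans ?_
    show s • ι (x * y) = ι ((h s x).choose * (h s y).choose)
    rw [map_mul, map_mul, (h s x).choose_spec, (h s y).choose_spec, smul_mul'])
  smul_one s := hι ((h s 1).choose_spec.trans (by rw [map_one, smul_one]))

/-- Constituents over `L` of an irreducible character of `D` are conjugate. -/
theorem exists_conj_D [Fintype G] {D : Type v} [Group D] [Fintype D] (ι : D →* G)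
    (hι : Function.Injective ι) (L : Subgroup G) [hL : L.Normal] [Fintype L]
    (i : L →* D) (hi : ∀ l, ι (i l) = l) (ψ : IrrCharacter D) (φ φ' : IrrCharacter L)
    (h : classInner (fun l : L => (ψ : D → ℂ) (i l)) (φ : L → ℂ) ≠ 0)
    (h' : classInner (fun l : L => (ψ : D → ℂ) (i l)) (φ' : L → ℂ) ≠ 0) :
    ∃ d : D, ∀ l : L, φ'.1 l = φ.1 (MulAut.conjNormal (ι d) l) := by
  let ND : Subgroup D := L.comap ι
  have hND : ND.Normal := hL.comap ι
  have hfND : Fintype ND := Fintype.ofFinite ND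
  let eN : L →* ND := i.codRestrict ND fun l => by
    show ι (i l) ∈ L
    rw [hi]; exact l.2
  have heN : Function.Surjective eN := by
    rintro ⟨n, hn⟩
    refine ⟨⟨ι n, hn⟩, Subtype.ext (hι ?_)⟩
    show ι (i ⟨ι n, hn⟩) = ι n
    rw [hi]
  have hsur : Function.Surjective (ι.subgroupComap L) := by
    rintro ⟨l, hl⟩
    refine ⟨eN ⟨l, hl⟩, Subtype.ext ?_⟩
    exact hi ⟨l, hl⟩
  have hcomp : ∀ f : L → ℂ, (f ∘ (ι.subgroupComap L)) ∘ eN = f := by
    intro f
    funext l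
    exact congrArg f (Subtype.ext (hi l))
  have hne : ∀ φ : IrrCharacter L, classInner (fun l : L => (ψ : D → ℂ) (i l)) (φ : L → ℂ) ≠ 0 →
      classInner (fun n : ND => (ψ : D → ℂ) n) (φ.1 ∘ (ι.subgroupComap L)) ≠ 0 := by
    intro φ h
    rw [← classInner_comp' eN heN, hcomp]
    exact h
  obtain ⟨d, hd⟩ := Cfsg.Agent.Characters.Clifford.exists_conj_of_constituents ND ψ.2
    (isIrr_comp (ι.subgroupComap L) hsur φ.2) (isIrr_comp (ι.subgroupComap L) hsur φ'.2)
    (hne φ h) (hne φ' h')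
  refine ⟨d, fun l => ?_⟩
  have h1 := congrFun hd (eN l)
  have h2 := congrFun (hcomp φ'.1) l
  rw [← h2]
  refine h1.trans ?_
  show φ.1 (ι.subgroupComap L (MulAut.conjNormal d (eN l))) = _
  refine congrArg φ.1 (Subtype.ext ?_)
  show ι ((MulAut.conjNormal d (eN l) : ND) : D) = _
  rw [MulAut.conjNormal_apply, MulAut.conjNormal_apply, map_mul, map_mul, map_inv]
  show ι d * ι (i l) * (ι d)⁻¹ = _
  rw [hi]

/-- **The correspondence.** -/
theorem main [Fintype G] [Finite S] {D : Type v} [Group D] [Fintype D] (ι : D →* G)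
    (hι : Function.Injective ι) (L K : Subgroup G) [hL : L.Normal] [hK : K.Normal]
    (hodd : Odd (Nat.card G)) (hcop : (Nat.card G).Coprime (Nat.card S))
    (hsolv : Group.IsSolvable G) (hLK : L ≤ K)
    (hLS : ∀ (s : S), ∀ l ∈ L, s • l ∈ L) (hKS : ∀ (s : S), ∀ k ∈ K, s • k ∈ K)
    (hab : ∀ a ∈ K, ∀ b ∈ K, ⁅a, b⁆ ∈ L) (hfix : ∀ g : G, (∀ s : S, s • g * g⁻¹ ∈ L) ↔ ∃ d, ι d = g)
    (hgen : ∀ g, ∃ k ∈ K, ∃ d, g = k * ι d) :
    (∀ χ : IrrCharacter G, Inv S (χ : G → ℂ) →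
      ∃! ψ : IrrCharacter D, (∀ (s : S) (d d' : D), ι d' = s • ι d → ψ.1 d' = ψ.1 d) ∧
        Cor ι 2 χ ψ) ∧
    (∀ (χ χ' : IrrCharacter G) (ψ : IrrCharacter D), Inv S (χ : G → ℂ) → Inv S (χ' : G → ℂ) →
      (∀ (s : S) (d d' : D), ι d' = s • ι d → ψ.1 d' = ψ.1 d) →
      Cor ι 2 χ ψ → Cor ι 2 χ' ψ → χ = χ') ∧
    (∀ ψ : IrrCharacter D, (∀ (s : S) (d d' : D), ι d' = s • ι d → ψ.1 d' = ψ.1 d) →
      ∃ χ : IrrCharacter G, Inv S (χ : G → ℂ) ∧ Cor ι 2 χ ψ) := by
  classical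
  have hfL : Fintype L := Fintype.ofFinite L
  have hcpL : (Nat.card L).Coprime (Nat.card S) :=
    Nat.Coprime.coprime_dvd_left (Subgroup.card_subgroup_dvd_card L) hcop
  have hsolvL : Group.IsSolvable L := by have := hsolv; infer_instance
  have hi0 : ∀ l : L, ∃ d, ι d = l := fun l =>
    (hfix l).1 fun s => L.mul_mem (hLS s l l.2) (L.inv_mem l.2)
  obtain ⟨i, hi⟩ : ∃ i : L →* D, ∀ l, ι (i l) = l := by
    choose f hf using hi0
    exact ⟨{ toFun := f
             map_one' := hι (by rw [hf, map_one]; rfl)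
             map_mul' := fun x y => hι (by rw [map_mul, hf, hf, hf]; rfl) }, hf⟩
  have hSD : ∀ (s : S) (d : D), ∃ d', ι d' = s • ι d := by
    intro s d
    rw [← hfix]
    intro t
    have h1 := (hfix (ι d)).2 ⟨d, rfl⟩
    have e1 : t • s • ι d * (s • ι d)⁻¹ = (t * s) • ι d * (ι d)⁻¹ * (s • ι d * (ι d)⁻¹)⁻¹ := by
      rw [mul_smul]; group
    rw [e1]
    exact L.mul_mem (h1 _) (L.inv_mem (h1 s))
  let actD : MulDistribMulAction S D := pullAct ι hι hSD
  have hactD : ∀ (s : S) (d : D), ι (s • d) = s • ι d := fun s d => (hSD s d).choose_spec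
  have hInvD : ∀ ψ : D → ℂ, (∀ (s : S) (d d' : D), ι d' = s • ι d → ψ d' = ψ d) ↔ Inv S ψ := by
    intro ψ
    constructor
    · intro h s d
      exact h s d _ (hactD s d)
    · intro h s d d' hd
      have : d' = s • d := hι (by rw [hactD, hd])
      rw [this]; exact h s d
  obtain ⟨e, he⟩ := exists_exp (Nat.card_pos (α := S)).ne' hcop.symm S (fun x => pow_card_eq_one')
  let aL : S → (L ≃* L) := fun s =>
    { toFun := fun x => ⟨s • (x : G), hLS s x x.2⟩
      invFun := fun x => ⟨s⁻¹ • (x : G), hLS s⁻¹ x x.2⟩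
      left_inv := fun x => Subtype.ext (inv_smul_smul s (x : G))
      right_inv := fun x => Subtype.ext (smul_inv_smul s (x : G))
      map_mul' := fun x y => Subtype.ext (smul_mul' s (x : G) (y : G)) }
  have haL : ∀ (s : S) (x : L), ((aL s x : L) : G) = s • (x : G) := fun s x => rfl
  have hiaL : ∀ (s : S) (x : L), i (aL s x) = s • i x := fun s x => hι (by
    rw [hi, hactD, hi, haL])
  -- constituents of invariant characters of `D` are invariant
  have hcon : ∀ (ψ : IrrCharacter D) (φ : IrrCharacter L), Inv S ψ.1 →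
      classInner (fun l : L => (ψ : D → ℂ) (i l)) (φ : L → ℂ) ≠ 0 →
      ∀ (s : S) (x y : L), (y : G) = s • (x : G) → (φ : L → ℂ) y = (φ : L → ℂ) x := by
    intro ψ φ hψ hne s
    apply inv_of_conj he hLS (φ : L → ℂ) s
    let φs : IrrCharacter L := twist (aL s) φ
    have h1 : classInner (fun l : L => (ψ : D → ℂ) (i l)) (φs : L → ℂ) ≠ 0 := by
      have e1 : (fun l : L => (ψ : D → ℂ) (i l)) = (fun l : L => (ψ : D → ℂ) (i l)) ∘ aL s := by
        funext l
        show ψ.1 (i l) = ψ.1 (i (aL s l))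
        rw [hiaL, hψ s]
      rw [e1]
      show classInner _ (φ.1 ∘ aL s) ≠ 0
      rw [classInner_comp_equiv]
      exact hne
    obtain ⟨d, hd⟩ := exists_conj_D ι hι L i hi ψ φ φs hne h1
    obtain ⟨l, hl, hfixl⟩ := exists_fixed_coset (S := S) L hLS hcpL hsolvL (ι d)
      ((hfix (ι d)).2 ⟨d, rfl⟩)
    refine ⟨l * ι d, hfixl, fun x y hxy => ?_⟩
    have h2 := hd x
    have h3 : φs.1 x = φ.1 y := congrArg φ.1 (Subtype.ext (by rw [haL, hxy]))
    rw [h3] at h2
    refine h2.trans ?_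
    have h4 := isIrr_isClassFunction φ.2 (MulAut.conjNormal (ι d) x) ⟨l, hl⟩
    refine h4.symm.trans ?_
    refine congrArg φ.1 (Subtype.ext ?_)
    show l * ((MulAut.conjNormal (ι d) x : L) : G) * l⁻¹ = l * ι d * x * (l * ι d)⁻¹
    rw [MulAut.conjNormal_apply]
    group
  have hexcon : ∀ ψ : IrrCharacter D, ∃ φ : IrrCharacter L,
      classInner (fun l : L => (ψ : D → ℂ) (i l)) (φ : L → ℂ) ≠ 0 := by
    intro ψ
    exact exists_irr (isCharacter_isClassFunction (isCharacter_comp i (isIrr_isCharacter ψ.2)))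
      (fun h0 => by
        have := congrFun h0 1
        rw [map_one] at this
        exact isIrr_apply_one_ne_zero ψ.2 this)
  have hne_of_cor : ∀ (χ : IrrCharacter G) (ψ : IrrCharacter D), Cor ι 2 χ ψ →
      classInner ((χ : G → ℂ) ∘ ι) (ψ : D → ℂ) ≠ 0 := by
    rintro χ ψ ⟨m, hm, hm'⟩ h0
    rw [h0] at hm
    apply hm'
    have : m = 0 := by exact_mod_cast hm.symm
    rw [this]
    exact dvd_zero 2
  have hoverG : ∀ (χ : IrrCharacter G) (ψ : IrrCharacter D) (φ : IrrCharacter L), Cor ι 2 χ ψ →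
      classInner (fun l : L => (ψ : D → ℂ) (i l)) (φ : L → ℂ) ≠ 0 →
      classInner (fun l : L => (χ : G → ℂ) l) (φ : L → ℂ) ≠ 0 := by
    intro χ ψ φ hc h
    have h1 := over_trans i (X := (χ : G → ℂ) ∘ ι) (isCharacter_comp ι (isIrr_isCharacter χ.2)) ψ.2
      φ.2 (hne_of_cor χ ψ hc) h
    have e1 : (fun n : L => ((χ : G → ℂ) ∘ ι) (i n)) = fun l : L => (χ : G → ℂ) l := by
      funext l
      rw [Function.comp_apply, hi]
    rw [e1] at h1
    exact h1
  refine ⟨?_, ?_, ?_⟩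
  · intro χ hχ
    obtain ⟨φ, hφ, hφS⟩ := exists_below L hLS hcop hsolv χ hχ
    obtain ⟨A, B, -, -⟩ := over_main ι hι L K hodd hcop hsolv hLK hLS hKS hab hfix hgen i hi φ hφS
    obtain ⟨ψ, hψ, hc⟩ := A χ hχ hφ
    refine ⟨ψ, ⟨?_, hc⟩, ?_⟩
    · show ∀ (s : S) (d d' : D), ι d' = s • ι d → ψ.1 d' = ψ.1 d
      rw [hInvD]
      intro s d
      let ψs : IrrCharacter D := twist (aut S D s) ψ
      have h1 : classInner (fun l : L => (ψs : D → ℂ) (i l)) (φ : L → ℂ) ≠ 0 := by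
        have e1 : (fun l : L => (ψs : D → ℂ) (i l)) = (fun l : L => (ψ : D → ℂ) (i l)) ∘ aL s := by
          funext l
          show ψ.1 (s • i l) = ψ.1 (i (aL s l))
          rw [hiaL]
        have e2 : φ.1 = φ.1 ∘ aL s := funext fun x => (hφS s x (aL s x) rfl).symm
        rw [e1, e2, classInner_comp_equiv]
        exact hψ
      have h2 : Cor ι 2 χ ψs := by
        obtain ⟨m, hm, hm'⟩ := hc
        refine ⟨m, ?_, hm'⟩
        rw [← hm]
        have e1 : (χ : G → ℂ) ∘ ι = ((χ : G → ℂ) ∘ ι) ∘ (aut S D s) := by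
          funext d
          show (χ : G → ℂ) (ι d) = (χ : G → ℂ) (ι (s • d))
          rw [hactD, hχ s]
        conv_lhs => rw [e1]
        exact classInner_comp_equiv (aut S D s) _ _
      have h3 := B χ ψ ψs hχ hφ hψ h1 hc h2
      have h4 := congrFun (congrArg Subtype.val h3) d
      exact h4.symm
    · rintro ψ' ⟨hψ', hc'⟩
      have hψ'' : Inv S ψ'.1 := (hInvD ψ'.1).1 hψ'
      obtain ⟨φ', hφ'⟩ := hexcon ψ'
      have hφ'S := hcon ψ' φ' hψ'' hφ'
      have hφ'G := hoverG χ ψ' φ' hc' hφ'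
      obtain ⟨g, hg⟩ := Cfsg.Agent.Characters.Clifford.exists_conj_of_constituents L χ.2 φ.2 φ'.2
        hφ hφ'G
      -- `g` may be taken in the range of `ι`
      have hgT : ∀ s : S, s • g * g⁻¹ ∈ inertia L φ.1 := by
        intro s
        rw [mem_inertia']
        intro l
        have h1 : ∀ x : L, φ.1 ⟨s • g * x * (s • g)⁻¹, hL.conj_mem x x.2 _⟩ =
            φ.1 ⟨g * x * g⁻¹, hL.conj_mem x x.2 g⟩ := by
          intro x
          have e1 := hφS s ⟨g * (s⁻¹ • (x : G)) * g⁻¹, hL.conj_mem _ (hLS s⁻¹ x x.2) g⟩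
            ⟨s • g * x * (s • g)⁻¹, hL.conj_mem x x.2 _⟩ (by
              rw [smul_mul', smul_mul', smul_inv_smul, smul_inv'])
          have e2 := hφ'S s ⟨s⁻¹ • (x : G), hLS s⁻¹ x x.2⟩ x (by rw [smul_inv_smul])
          have e3 := congrFun hg ⟨s⁻¹ • (x : G), hLS s⁻¹ x x.2⟩
          have e4 := congrFun hg x
          rw [e1]
          have e5 : φ.1 ⟨g * (s⁻¹ • (x : G)) * g⁻¹, hL.conj_mem _ (hLS s⁻¹ x x.2) g⟩ =
              (φ.1 ∘ (MulAut.conjNormal g : MulAut L)) ⟨s⁻¹ • (x : G), hLS s⁻¹ x x.2⟩ := by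
            refine congrArg φ.1 (Subtype.ext ?_)
            rw [MulAut.conjNormal_apply]
          have e6 : φ.1 ⟨g * x * g⁻¹, hL.conj_mem x x.2 g⟩ =
              (φ.1 ∘ (MulAut.conjNormal g : MulAut L)) x :=
            congrArg φ.1 (Subtype.ext (MulAut.conjNormal_apply g _).symm)
          rw [e5, e6]
          exact (e3.symm.trans e2.symm).trans e4
        have h2 := h1 ⟨g⁻¹ * l * g⁻¹⁻¹, hL.conj_mem l l.2 g⁻¹⟩
        refine Eq.trans (congrArg φ.1 (Subtype.ext ?_)) (h2.trans (congrArg φ.1 (Subtype.ext ?_)))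
        · show s • g * g⁻¹ * l * (s • g * g⁻¹)⁻¹ = s • g * (g⁻¹ * l * g⁻¹⁻¹) * (s • g)⁻¹
          group
        · show g * (g⁻¹ * l * g⁻¹⁻¹) * g⁻¹ = l
          group
      obtain ⟨t, ht, hfixt⟩ := exists_fixed_coset (S := S) (inertia L φ.1)
        (fun s t ht => inertia_smul hLS hφS s ht)
        (Nat.Coprime.coprime_dvd_left (Subgroup.card_subgroup_dvd_card _) hcop)
        (by have := hsolv; infer_instance) g hgT
      obtain ⟨d, hd⟩ := (hfix (t * g)).1 (fun s => by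
        rw [hfixt s, mul_inv_cancel]; exact L.one_mem)
      have h1 : φ'.1 = φ.1 ∘ (MulAut.conjNormal (ι d) : MulAut L) := by
        funext x
        rw [mem_inertia'] at ht
        have h2 := ht (MulAut.conjNormal g x)
        have h3 : φ'.1 x = φ.1 (MulAut.conjNormal g x) := congrFun hg x
        rw [h3, ← h2]
        refine congrArg φ.1 (Subtype.ext ?_)
        show t * ((MulAut.conjNormal g x : L) : G) * t⁻¹ = _
        rw [MulAut.conjNormal_apply, MulAut.conjNormal_apply, hd]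
        group
      have h2 : classInner (fun l : L => (ψ' : D → ℂ) (i l)) (φ : L → ℂ) ≠ 0 := by
        rw [h1] at hφ'
        have e1 : (fun l : L => (ψ' : D → ℂ) (i l)) =
            (fun l : L => (ψ' : D → ℂ) (i l)) ∘ (MulAut.conjNormal (ι d) : MulAut L) := by
          funext l
          have e2 : i (MulAut.conjNormal (ι d) l) = d * i l * d⁻¹ := hι (by
            rw [hi, MulAut.conjNormal_apply, map_mul, map_mul, map_inv, hi])
          show ψ'.1 (i l) = ψ'.1 (i (MulAut.conjNormal (ι d) l))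
          rw [e2]
          exact (isIrr_isClassFunction ψ'.2 (i l) d).symm
        rw [e1, classInner_comp_equiv] at hφ'
        exact hφ'
      exact (B χ ψ ψ' hχ hφ hψ h2 hc hc').symm
  · intro χ χ' ψ hχ hχ' hψ hc hc'
    obtain ⟨φ, hφ⟩ := hexcon ψ
    have hφS := hcon ψ φ ((hInvD ψ.1).1 hψ) hφ
    obtain ⟨-, -, C', -⟩ := over_main ι hι L K hodd hcop hsolv hLK hLS hKS hab hfix hgen i hi φ hφS
    exact C' χ χ' ψ hχ hχ' (hoverG χ ψ φ hc hφ) (hoverG χ' ψ φ hc' hφ) hφ hc hc'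
  · intro ψ hψ
    obtain ⟨φ, hφ⟩ := hexcon ψ
    have hφS := hcon ψ φ ((hInvD ψ.1).1 hψ) hφ
    obtain ⟨-, -, -, D'⟩ := over_main ι hι L K hodd hcop hsolv hLK hLS hKS hab hfix hgen i hi φ hφS
    obtain ⟨χ, hχ, -, hc⟩ := D' ψ hφ
    exact ⟨χ, hχ, hc⟩

end Cfsg.Agent.H596.OddMain
end

-- part: S4453
section
set_option autoImplicit false
open Cfsg

namespace Cfsg.Agent.S4453

/-- Inside a finite group Γ let S normalise the solvable subgroup G of odd order with the orders of G and S coprime, let C = G ⊓ C(S), and let L ≤ K be S-invariant normal subgroups of G with K/L abelian, G = KC and H = LC (so C ≤ H ≤ G). Then for each S-invariant irreducible character χ of G there is exactly one S-invariant irreducible character ψ of H whose multiplicity in the restriction of χ to H is odd, and χ ↦ ψ is a bijection from the S-invariant irreducible characters of G onto those of H (distinct χ give distinct ψ, and every S-invariant ψ arises). -/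
theorem result {Γ : Type*} [Group Γ] [Fintype Γ] (G S : Subgroup Γ) [Fintype G] (hnorm : ∀ s ∈ S, ∀ g ∈ G, s * g * s⁻¹ ∈ G) (hcop : (Nat.card G).Coprime (Nat.card S)) (hGsolv : Group.IsSolvable G) (hodd : Odd (Nat.card G)) (C : Subgroup Γ) [Fintype C] (hC : C = G ⊓ Subgroup.centralizer (S : Set Γ)) (hCG : C ≤ G) (K L H : Subgroup Γ) [Fintype H] (hLK : L ≤ K) (hKG : K ≤ G) (hKn : ∀ g ∈ G, ∀ k ∈ K, g * k * g⁻¹ ∈ K) (hLn : ∀ g ∈ G, ∀ l ∈ L, g * l * g⁻¹ ∈ L) (hKS : ∀ s ∈ S, ∀ k ∈ K, s * k * s⁻¹ ∈ K) (hLS : ∀ s ∈ S, ∀ l ∈ L, s * l * s⁻¹ ∈ L) (hab : ∀ a ∈ K, ∀ b ∈ K, a * b * a⁻¹ * b⁻¹ ∈ L) (hGKC : K ⊔ C = G) (hH : H = L ⊔ C) (hHG : H ≤ G) : (∀ χ : Cfsg.IrrCharacter G, (∀ s ∈ S, ∀ g g' : G, (g' : Γ) = s * g * s⁻¹ → (χ : G → ℂ) g' = (χ : G → ℂ) g) → ∃! ψ : Cfsg.IrrCharacter H, (∀ s ∈ S, ∀ g g' : H, (g' : Γ) = s * g * s⁻¹ → (ψ : H → ℂ) g' = (ψ : H → ℂ) g) ∧ ∃ m : ℕ, Cfsg.classInner (fun h : H => (χ : G → ℂ) ⟨h, hHG h.2⟩) (ψ : H → ℂ) = (m : ℂ) ∧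 Odd m) ∧ (∀ χ χ' : Cfsg.IrrCharacter G, (∀ s ∈ S, ∀ g g' : G, (g' : Γ) = s * g * s⁻¹ → (χ : G → ℂ) g' = (χ : G → ℂ) g) → (∀ s ∈ S, ∀ g g' : G, (g' : Γ) = s * g * s⁻¹ → (χ' : G → ℂ) g' = (χ' : G → ℂ) g) → ∀ ψ : Cfsg.IrrCharacter H, (∀ s ∈ S, ∀ g g' : H, (g' : Γ) = s * g * s⁻¹ → (ψ : H → ℂ) g' = (ψ : H → ℂ) g) → ∀ m m' : ℕ, Cfsg.classInner (fun h : H => (χ : G → ℂ) ⟨h, hHG h.2⟩) (ψ : H → ℂ) = (m : ℂ) → Odd m → Cfsg.classInner (fun h : H => (χ' : G → ℂ) ⟨h, hHG h.2⟩) (ψ : H → ℂ) = (m' : ℂ) → Odd m' → χ = χ') ∧ (∀ ψ : Cfsg.IrrCharacter H, (∀ s ∈ S, ∀ g g' : H, (g' : Γ) = s * g * s⁻¹ → (ψ : H → ℂ) g' = (ψ : H → ℂ) g) → ∃ χ : Cfsg.IrrCharacter G, (∀ s ∈ S, ∀ g g' : G, (g' : Γ) = s * g * s⁻¹ → (χ : G → ℂ) g' = (χ : G → ℂ) g) ∧ ∃ m : ℕ, Cfsg.classInner (fun h : H => (χ : G → ℂ) ⟨h, hHG h.2⟩) (ψ : H → ℂ) = (m : ℂ) ∧ Odd m) := by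
  classical
  have hLG : L ≤ G := hLK.trans hKG
  let actG : MulDistribMulAction S G := Cfsg.Agent.H595.Conj.conjAct G S hnorm
  have hact : ∀ (s : S) (g : G), ((s • g : G) : Γ) = (s : Γ) * g * (s : Γ)⁻¹ := fun s g => rfl
  have hLn' : (L.subgroupOf G).Normal := ⟨fun l hl g => hLn g g.2 l hl⟩
  have hKn' : (K.subgroupOf G).Normal := ⟨fun k hk g => hKn g g.2 k hk⟩
  have hLS' : ∀ (s : S), ∀ l ∈ L.subgroupOf G, s • l ∈ L.subgroupOf G :=
    fun s l hl => hLS s s.2 l hl
  have hKS' : ∀ (s : S), ∀ k ∈ K.subgroupOf G, s • k ∈ K.subgroupOf G :=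
    fun s k hk => hKS s s.2 k hk
  have hCnorm : ∀ M : Subgroup Γ, (∀ g ∈ G, ∀ m ∈ M, g * m * g⁻¹ ∈ M) →
      C ≤ Subgroup.normalizer (M : Set Γ) := by
    intro M hM c hc
    rw [Subgroup.mem_normalizer_iff]
    intro m
    refine ⟨fun hm => hM c (hCG hc) m hm, fun hm => ?_⟩
    have h1 := hM c⁻¹ (G.inv_mem (hCG hc)) _ hm
    have e1 : c⁻¹ * (c * m * c⁻¹) * c⁻¹⁻¹ = m := by group
    rwa [e1] at h1
  have hCfix : ∀ c : G, (c : Γ) ∈ C ↔ ∀ s : S, s • c = c := by
    intro c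
    rw [hC, Subgroup.mem_inf]
    constructor
    · rintro ⟨-, h⟩ s
      apply Subtype.ext
      rw [hact]
      have h1 := Subgroup.mem_centralizer_iff.1 h s s.2
      rw [h1, mul_inv_cancel_right]
    · intro h
      refine ⟨c.2, ?_⟩
      rw [Subgroup.mem_centralizer_iff]
      intro s hs
      have h1 := congrArg Subtype.val (h ⟨s, hs⟩)
      rw [hact] at h1
      exact mul_inv_eq_iff_eq_mul.1 h1
  have hCH : C ≤ H := by rw [hH]; exact le_sup_right
  have hLH : L ≤ H := by rw [hH]; exact le_sup_left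
  have hfix : ∀ g : G, (∀ s : S, s • g * g⁻¹ ∈ L.subgroupOf G) ↔
      ∃ d, Subgroup.inclusion hHG d = g := by
    intro g
    constructor
    · intro h
      obtain ⟨l, hl, hfl⟩ := Cfsg.Agent.H596.OddMain.exists_fixed_coset (S := S) (L.subgroupOf G)
        hLS' (Nat.Coprime.coprime_dvd_left (Subgroup.card_subgroup_dvd_card _) hcop)
        (by have := hGsolv; infer_instance) g h
      have h1 : ((l * g : G) : Γ) ∈ C := (hCfix _).2 hfl
      have h2 : (g : Γ) ∈ H := by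
        have e1 : (g : Γ) = (l : Γ)⁻¹ * ((l * g : G) : Γ) := by
          rw [Subgroup.coe_mul]; group
        rw [e1]
        exact H.mul_mem (H.inv_mem (hLH hl)) (hCH h1)
      exact ⟨⟨g, h2⟩, rfl⟩
    · rintro ⟨d, rfl⟩ s
      have hd : (d : Γ) ∈ C ⊔ L := by
        have e1 : H ≤ C ⊔ L := by rw [hH, sup_comm]
        exact e1 d.2
      obtain ⟨l, hl, c, hc, hlc⟩ := Cfsg.Agent.Solvable.Glauberman.exists_mul_of_mem_sup C L
        (hCnorm L hLn) hd
      show ((s • (Subgroup.inclusion hHG d) * (Subgroup.inclusion hHG d)⁻¹ : G) : Γ) ∈ L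
      rw [Subgroup.coe_mul, hact, Subgroup.coe_inv]
      show (s : Γ) * d * (s : Γ)⁻¹ * (d : Γ)⁻¹ ∈ L
      have h1 : (s : Γ) * c * (s : Γ)⁻¹ = c := by
        have h2 := (hCfix ⟨c, hCG hc⟩).1 hc s
        have h3 := congrArg Subtype.val h2
        rw [hact] at h3
        exact h3
      have e1 : (s : Γ) * d * (s : Γ)⁻¹ * (d : Γ)⁻¹ =
          ((s : Γ) * l * (s : Γ)⁻¹) * ((s : Γ) * c * (s : Γ)⁻¹) * c⁻¹ * l⁻¹ := by
        rw [hlc]; group
      rw [e1, h1, mul_inv_cancel_right]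
      exact L.mul_mem (hLS s s.2 l hl) (L.inv_mem hl)
  have hgen : ∀ g : G, ∃ k ∈ K.subgroupOf G, ∃ d, g = k * Subgroup.inclusion hHG d := by
    intro g
    have hg : (g : Γ) ∈ C ⊔ K := by
      have e1 : G ≤ C ⊔ K := by rw [sup_comm]; exact hGKC.ge
      exact e1 g.2
    obtain ⟨k, hk, c, hc, hkc⟩ := Cfsg.Agent.Solvable.Glauberman.exists_mul_of_mem_sup C K
      (hCnorm K hKn) hg
    exact ⟨⟨k, hKG hk⟩, hk, ⟨c, hCH hc⟩, Subtype.ext hkc⟩
  obtain ⟨h1, h2, h3⟩ := Cfsg.Agent.H596.OddMain.main (S := S) (Subgroup.inclusion hHG)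
    (Subgroup.inclusion_injective hHG) (L.subgroupOf G) (K.subgroupOf G) hodd hcop hGsolv
    (fun x hx => hLK hx) hLS' hKS' (fun a ha b hb => hab a ha b hb) hfix hgen
  have hI : ∀ χ : Cfsg.IrrCharacter G,
      (∀ s ∈ S, ∀ g g' : G, (g' : Γ) = s * g * s⁻¹ → (χ : G → ℂ) g' = (χ : G → ℂ) g) ↔
      Cfsg.Agent.H593.GlaubermanP.Inv S (χ : G → ℂ) := fun χ =>
    Cfsg.Agent.H595.Conj.inv_iff G S hnorm χ.1
  have hID : ∀ ψ : Cfsg.IrrCharacter H,
      (∀ s ∈ S, ∀ g g' : H, (g' : Γ) = s * g * s⁻¹ → (ψ : H → ℂ) g' = (ψ : H → ℂ) g) ↔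
      ∀ (s : S) (d d' : H), Subgroup.inclusion hHG d' = s • Subgroup.inclusion hHG d →
        ψ.1 d' = ψ.1 d := by
    intro ψ
    constructor
    · intro h s d d' hd
      exact h s s.2 d d' (congrArg Subtype.val hd)
    · intro h s hs d d' hd
      exact h ⟨s, hs⟩ d d' (Subtype.ext hd)
  have hCor : ∀ (χ : Cfsg.IrrCharacter G) (ψ : Cfsg.IrrCharacter H),
      (∃ m : ℕ, Cfsg.classInner (fun h : H => (χ : G → ℂ) ⟨h, hHG h.2⟩) (ψ : H → ℂ) = (m : ℂ) ∧
        Odd m) ↔ Cfsg.Agent.H595.Solv.Cor (Subgroup.inclusion hHG) 2 χ ψ := by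
    intro χ ψ
    constructor
    · rintro ⟨m, hm, hm'⟩
      refine ⟨m, hm, ?_⟩
      rwa [← even_iff_two_dvd, Nat.not_even_iff_odd]
    · rintro ⟨m, hm, hm'⟩
      refine ⟨m, hm, ?_⟩
      rwa [← even_iff_two_dvd, Nat.not_even_iff_odd] at hm'
  refine ⟨?_, ?_, ?_⟩
  · intro χ hχ
    obtain ⟨ψ, ⟨hψ, hc⟩, huniq⟩ := h1 χ ((hI χ).1 hχ)
    refine ⟨ψ, ⟨(hID ψ).2 hψ, (hCor χ ψ).2 hc⟩, ?_⟩
    rintro ψ' ⟨hψ', hc'⟩
    exact huniq ψ' ⟨(hID ψ').1 hψ', (hCor χ ψ').1 hc'⟩
  · intro χ χ' hχ hχ' ψ hψ m m' hm hmo hm' hmo'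
    exact h2 χ χ' ψ ((hI χ).1 hχ) ((hI χ').1 hχ') ((hID ψ).1 hψ) ((hCor χ ψ).1 ⟨m, hm, hmo⟩)
      ((hCor χ' ψ).1 ⟨m', hm', hmo'⟩)
  · intro ψ hψ
    obtain ⟨χ, hχ, hc⟩ := h3 ψ ((hID ψ).1 hψ)
    exact ⟨χ, (hI χ).2 hχ, (hCor χ ψ).2 hc⟩

end Cfsg.Agent.S4453
end
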