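import Cfsg.Agent.H596.Degree
import Cfsg.Agent.OddOrderCharacters.PF9.CliffGen
import Cfsg.Statements.S4457
import Cfsg.Agent.S4456
set_option linter.all false

-- part: H596/TwoDegrees
section
/-!
# Groups with two character degrees: the part with a normal abelian Hall subgroup

`M` is an abelian normal subgroup of the finite group `G` with a complement `H` of coprime order,
`G / M` is nilpotent, all irreducible degrees of `G` are `1` or `m`, and `M` is not central. Then
`C_G(M)` is abelian of index `m`.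
-/

set_option autoImplicit false

namespace Cfsg.Agent.H596.TwoDegrees

open Cfsg Cfsg.Agent.Characters.Core
open Cfsg.Agent.OddOrderCharacters.PF9.CliffGen Cfsg.Agent.OddOrderCharacters.NormalInduced
open Cfsg.Agent.Blocks.Basic (charDegree_of_eq irr_one_eq_charDegree charDegree_pos)

universe u

variable {G : Type u} [Group G]

/-- The conjugate of a linear character of a normal subgroup. -/
def cf (M : Subgroup G) [M.Normal] (g : G) (μ : M →* ℂˣ) : M →* ℂˣ :=
  μ.comp (MulAut.conjNormal g : MulAut M).toMonoidHom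

theorem cf_apply (M : Subgroup G) [M.Normal] (g : G) (μ : M →* ℂˣ) (x : M) :
    cf M g μ x = μ (MulAut.conjNormal g x) := rfl

theorem cf_one (M : Subgroup G) [M.Normal] (μ : M →* ℂˣ) : cf M 1 μ = μ := by
  ext x
  rw [cf_apply, map_one]; rfl

theorem cf_mul (M : Subgroup G) [M.Normal] (g h : G) (μ : M →* ℂˣ) :
    cf M (g * h) μ = cf M h (cf M g μ) := by
  ext x
  rw [cf_apply, cf_apply, cf_apply, map_mul]; rfl

theorem cf_hom_mul (M : Subgroup G) [M.Normal] (g : G) (μ ν : M →* ℂˣ) :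
    cf M g (μ * ν) = cf M g μ * cf M g ν := rfl

/-- The inertia group. -/
def iner (M : Subgroup G) [M.Normal] (μ : M →* ℂˣ) : Subgroup G where
  carrier := {g | cf M g μ = μ}
  one_mem' := cf_one M μ
  mul_mem' {g h} hg hh := by
    show cf M (g * h) μ = μ
    rw [cf_mul, show cf M g μ = μ from hg]; exact hh
  inv_mem' {g} hg := by
    show cf M g⁻¹ μ = μ
    have : cf M (g * g⁻¹) μ = μ := by rw [mul_inv_cancel, cf_one]
    rwa [cf_mul, show cf M g μ = μ from hg] at this

theorem mem_iner {M : Subgroup G} [M.Normal] {μ : M →* ℂˣ} {g : G} :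
    g ∈ iner M μ ↔ cf M g μ = μ := Iff.rfl

theorem mem_iner_iff_conjFn {M : Subgroup G} [M.Normal] {μ : M →* ℂˣ} {g : G} :
    g ∈ iner M μ ↔ conjFn M (fun n => (μ n : ℂ)) g = fun n => (μ n : ℂ) := by
  rw [mem_iner]
  constructor
  · intro h
    funext n
    have := congrArg (fun f : M →* ℂˣ => ((f n : ℂˣ) : ℂ)) h
    exact this
  · intro h
    ext n
    exact congrFun h n

theorem cf_of_mem_centralizer {M : Subgroup G} [M.Normal] {μ : M →* ℂˣ} {g : G}
    (hg : g ∈ Subgroup.centralizer (M : Set G)) : cf M g μ = μ := by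
  ext x
  rw [cf_apply]
  congr 2
  apply Subtype.ext
  rw [MulAut.conjNormal_apply, ← (Subgroup.mem_centralizer_iff.1 hg x x.2), mul_assoc,
    mul_inv_cancel, mul_one]

theorem mem_centralizer_of_forall [Finite G] {M : Subgroup G} [M.Normal]
    (hM : ∀ a ∈ M, ∀ b ∈ M, a * b = b * a) {g : G} (h : ∀ μ : M →* ℂˣ, g ∈ iner M μ) :
    g ∈ Subgroup.centralizer (M : Set G) := by
  rw [Subgroup.mem_centralizer_iff]
  intro x hx
  let _ : CommGroup M := { (inferInstance : Group M) with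
    mul_comm := fun a b => Subtype.ext (hM a a.2 b b.2) }
  by_contra hne
  have hne' : (MulAut.conjNormal g ⟨x, hx⟩ : M) * (⟨x, hx⟩ : M)⁻¹ ≠ 1 := by
    intro h1
    rw [mul_inv_eq_one] at h1
    have h2 := congrArg Subtype.val h1
    rw [MulAut.conjNormal_apply] at h2
    apply hne
    have h3 : g * x * g⁻¹ = x := h2
    rw [mul_inv_eq_iff_eq_mul] at h3
    exact h3.symm
  obtain ⟨φ, hφ⟩ := CommGroup.exists_apply_ne_one_of_hasEnoughRootsOfUnity M ℂ hne'
  apply hφ
  have h1 : cf M g φ = φ := h φ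
  have h2 := congrArg (fun f : M →* ℂˣ => f ⟨x, hx⟩) h1
  have h3 : φ (MulAut.conjNormal g ⟨x, hx⟩) = φ ⟨x, hx⟩ := h2
  rw [map_mul, h3, map_inv, mul_inv_cancel]

/-- The stabilizer of a noninvariant linear character has index `m` and is abelian modulo `M`. -/
theorem index_iner [Finite G] {m : ℕ}
    (hcd : ∀ χ : IrrCharacter G, charDegree (χ : G → ℂ) = 1 ∨ charDegree (χ : G → ℂ) = m)
    (M H : Subgroup G) [hMn : M.Normal] (hinf : M ⊓ H = ⊥) (hsup : M ⊔ H = ⊤)
    (hM : ∀ a ∈ M, ∀ b ∈ M, a * b = b * a) (μ : M →* ℂˣ) (hμ : iner M μ ≠ ⊤) :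
    (iner M μ).index = m ∧ ∀ x ∈ iner M μ, ∀ y ∈ iner M μ, x * y * x⁻¹ * y⁻¹ ∈ M := by
  classical
  have := Fintype.ofFinite G
  set T := iner M μ with hT
  have := Fintype.ofFinite T
  have := Fintype.ofFinite M
  have hMC : M ≤ Subgroup.centralizer (M : Set G) := fun x hx =>
    Subgroup.mem_centralizer_iff.2 fun y hy => hM y hy x hx
  have hMT : M ≤ T := fun x hx => cf_of_mem_centralizer (hMC hx)
  have hT' : ∀ g, g ∈ T ↔ conjFn M (fun n => (μ n : ℂ)) g = fun n => (μ n : ℂ) := fun g =>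
    mem_iner_iff_conjFn
  obtain ⟨F, hF, -⟩ := exists_extension hinf hsup hMT (fun g hg => (hT' g).1 hg)
    (1 : ↥(T ⊓ H) →* ℂˣ)
  have key : ∀ ψ : T → ℂ, IsIrrCharacter T ψ → (∀ n : M, ψ ⟨n, hMT n.2⟩ = ψ 1) →
      T.index * charDegree ψ = 1 ∨ T.index * charDegree ψ = m := by
    intro ψ hψ hker
    have h1 := irr_twist hT' hMT hF hψ hker
    have h2 : charDegree (indFun T (fun t => (F t : ℂ) * ψ t)) = T.index * charDegree ψ := by
      apply charDegree_of_eq
      rw [CharactersDeep.NormalInd.indFun_one, map_one, Units.val_one, one_mul,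
        irr_one_eq_charDegree hψ, Nat.cast_mul]
    rw [← h2]
    exact hcd ⟨_, h1⟩
  have hTi : T.index ≠ 1 := fun h => hμ (Subgroup.index_eq_one.1 h)
  have hone : T.index = m := by
    have h1 := key (1 : T → ℂ) isIrr_one (fun n => rfl)
    have h2 : charDegree (1 : T → ℂ) = 1 := charDegree_of_eq (by simp)
    rw [h2, mul_one] at h1
    exact h1.resolve_left hTi
  have hpos : 0 < T.index := Nat.pos_of_ne_zero Subgroup.index_ne_zero_of_finite
  have hlin : ∀ ψ : T → ℂ, IsIrrCharacter T ψ → (∀ n : M, ψ ⟨n, hMT n.2⟩ = ψ 1) →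
      charDegree ψ = 1 := by
    intro ψ hψ hker
    rcases key ψ hψ hker with h | h
    · exact absurd (Nat.eq_one_of_mul_eq_one_right h) hTi
    · rw [← hone] at h
      exact Nat.eq_of_mul_eq_mul_left hpos (by rw [h, mul_one])
  refine ⟨hone, fun x hx y hy => ?_⟩
  have hcomm : ∀ a b : T ⧸ M.subgroupOf T, a * b = b * a := by
    refine comm_of_charDegree_eq_one fun χ => ?_
    have h1 := isIrr_comp (QuotientGroup.mk' (M.subgroupOf T)) (QuotientGroup.mk'_surjective _) χ.2
    have h2 := hlin _ h1 (fun n => by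
      show (χ : _ → ℂ) (QuotientGroup.mk' (M.subgroupOf T) ⟨n, hMT n.2⟩) =
        (χ : _ → ℂ) (QuotientGroup.mk' (M.subgroupOf T) 1)
      rw [map_one]
      exact congrArg (χ : _ → ℂ) ((QuotientGroup.eq_one_iff (⟨n, hMT n.2⟩ : T)).2
        (Subgroup.mem_subgroupOf.2 n.2)))
    rwa [charDegree_comp _ χ.2] at h2
  have h1 := hcomm (QuotientGroup.mk' _ ⟨x, hx⟩) (QuotientGroup.mk' _ ⟨y, hy⟩)
  rw [← map_mul, ← map_mul] at h1
  have h2 : (⟨x, hx⟩ * ⟨y, hy⟩ : T) * (⟨y, hy⟩ * ⟨x, hx⟩)⁻¹ ∈ M.subgroupOf T := by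
    rw [← QuotientGroup.eq_one_iff]
    show (QuotientGroup.mk' (M.subgroupOf T) (_ * _⁻¹)) = 1
    rw [map_mul, map_inv, h1, mul_inv_cancel]
  rw [Subgroup.mem_subgroupOf] at h2
  convert h2 using 1
  push_cast
  group

/-- The quotient by the centralizer of `M` is abelian. -/
theorem comm_mod_centralizer [Finite G] {m : ℕ}
    (hcd : ∀ χ : IrrCharacter G, charDegree (χ : G → ℂ) = 1 ∨ charDegree (χ : G → ℂ) = m)
    (M H : Subgroup G) [hMn : M.Normal] (hinf : M ⊓ H = ⊥) (hsup : M ⊔ H = ⊤)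
    (hM : ∀ a ∈ M, ∀ b ∈ M, a * b = b * a) (hnil : Group.IsNilpotent (G ⧸ M)) (x y : G) :
    x * y * x⁻¹ * y⁻¹ ∈ Subgroup.centralizer (M : Set G) := by
  classical
  set C := Subgroup.centralizer (M : Set G) with hC
  have hCn : C.Normal := by rw [hC]; infer_instance
  have hMC : M ≤ C := fun x hx =>
    Subgroup.mem_centralizer_iff.2 fun y hy => hM y hy x hx
  -- the quotient is nilpotent
  have hnilC : Group.IsNilpotent (G ⧸ C) :=
    Group.nilpotent_of_surjective (QuotientGroup.map M C (MonoidHom.id G) hMC)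
      (by
        intro q
        obtain ⟨g, rfl⟩ := QuotientGroup.mk_surjective q
        exact ⟨(g : G ⧸ M), rfl⟩)
  have hcomm : ∀ a b : G ⧸ C, a * b = b * a := by
    refine comm_of_charDegree_eq_one ?_
    by_contra hne
    push Not at hne
    obtain ⟨χ, hχ⟩ := hne
    have hχm : charDegree (χ : G ⧸ C → ℂ) = m := by
      have h1 := isIrr_comp (QuotientGroup.mk' C) (QuotientGroup.mk'_surjective _) χ.2
      have h2 := hcd ⟨_, h1⟩
      rw [show charDegree ((⟨_, h1⟩ : IrrCharacter G) : G → ℂ) = charDegree (χ : G ⧸ C → ℂ) from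
        charDegree_comp _ χ.2] at h2
      exact h2.resolve_left hχ
    have hcen : ∀ z : G, (z : G ⧸ C) ∈ Subgroup.center (G ⧸ C) → z ∈ C := by
      intro z hz
      apply mem_centralizer_of_forall hM
      intro μ
      by_cases hμ : iner M μ = ⊤
      · rw [hμ]; exact Subgroup.mem_top z
      obtain ⟨h1, h2⟩ := index_iner hcd M H hinf hsup hM μ hμ
      have hCT : C ≤ iner M μ := fun c hc => cf_of_mem_centralizer hc
      let A : Subgroup (G ⧸ C) := (iner M μ).map (QuotientGroup.mk' C)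
      have hAi : A.index = m := by
        rw [← h1]
        exact Subgroup.index_map_eq _ (QuotientGroup.mk'_surjective _)
          (by rw [QuotientGroup.ker_mk']; exact hCT)
      have hAab : ∀ a ∈ A, ∀ b ∈ A, a * b = b * a := by
        rintro _ ⟨a, ha, rfl⟩ _ ⟨b, hb, rfl⟩
        rw [← map_mul, ← map_mul, ← mul_inv_eq_one, ← map_inv, ← map_mul]
        have h3 := hMC (h2 a ha b hb)
        exact (QuotientGroup.eq_one_iff _).2 (by
          rwa [mul_inv_rev, ← mul_assoc])
      have hBab : ∀ a ∈ A ⊔ Subgroup.center (G ⧸ C), ∀ b ∈ A ⊔ Subgroup.center (G ⧸ C),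
          a * b = b * a := by
        intro a ha b hb
        rw [Subgroup.mem_sup_of_normal_right] at ha hb
        obtain ⟨a1, ha1, a2, ha2, rfl⟩ := ha
        obtain ⟨b1, hb1, b2, hb2, rfl⟩ := hb
        have ha2' := Subgroup.mem_center_iff.1 ha2
        have hb2' := Subgroup.mem_center_iff.1 hb2
        calc a1 * a2 * (b1 * b2) = a1 * (a2 * b1) * b2 := by group
          _ = a1 * (b1 * a2) * b2 := by rw [ha2' b1]
          _ = (a1 * b1) * (a2 * b2) := by group
          _ = (b1 * a1) * (b2 * a2) := by rw [hAab a1 ha1 b1 hb1, ha2' b2]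
          _ = b1 * (a1 * b2) * a2 := by group
          _ = b1 * (b2 * a1) * a2 := by rw [hb2' a1]
          _ = b1 * b2 * (a1 * a2) := by group
      have h3 := charDegree_le_index χ.2 _ hBab
      rw [hχm, ← hAi] at h3
      have h4 : (A ⊔ Subgroup.center (G ⧸ C)).index ≤ A.index :=
        Nat.le_of_dvd (Nat.pos_of_ne_zero Subgroup.index_ne_zero_of_finite)
          (Subgroup.index_dvd_of_le le_sup_left)
      have h5 : A = A ⊔ Subgroup.center (G ⧸ C) := by
        by_contra hne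
        have h6 : A < A ⊔ Subgroup.center (G ⧸ C) := lt_of_le_of_ne le_sup_left hne
        have h7 := Subgroup.index_strictAnti h6
        omega
      have h6 : (z : G ⧸ C) ∈ A := by
        rw [h5]; exact (le_sup_right : _ ≤ A ⊔ Subgroup.center (G ⧸ C)) hz
      obtain ⟨t, ht, htz⟩ := h6
      have h7 : t⁻¹ * z ∈ C := QuotientGroup.eq.1 htz
      have : z = t * (t⁻¹ * z) := by group
      rw [this]
      exact mul_mem ht (hCT h7)
    have hcen' : Subgroup.center (G ⧸ C) = ⊥ := by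
      rw [eq_bot_iff]
      intro q hq
      obtain ⟨z, rfl⟩ := QuotientGroup.mk_surjective q
      exact Subgroup.mem_bot.2 ((QuotientGroup.eq_one_iff z).2 (hcen z hq))
    have hnt : Nontrivial (G ⧸ C) := by
      by_contra hnt
      rw [not_nontrivial_iff_subsingleton] at hnt
      apply hχ
      have := charDegree_dvd_card χ.2
      rw [Nat.card_of_subsingleton (1 : G ⧸ C)] at this
      exact Nat.dvd_one.1 this
    exact Group.IsNilpotent.center_ne_bot (G ⧸ C) hcen'
  have h1 := hcomm (x : G ⧸ C) (y : G ⧸ C)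
  rw [← QuotientGroup.eq_one_iff]
  show (x : G ⧸ C) * y * (x : G ⧸ C)⁻¹ * (y : G ⧸ C)⁻¹ = 1
  rw [h1]
  group

/-- Averaging over a subgroup `D` of coprime order: there is an element `μ` moved by `t` such that
the stabilizer of `lam * μ` fixes both `lam` and `μ`. -/
theorem exists_average {Λ : Type*} [CommGroup Λ] (c : G → Λ →* Λ)
    (c_mul : ∀ g h μ, c (g * h) μ = c h (c g μ)) (c_comm : ∀ g h μ, c (g * h) μ = c (h * g) μ)
    (D : Subgroup G) [Finite D] (n : ℕ) (hn : ∀ μ : Λ, μ ^ n = 1) (hcop : n.Coprime (Nat.card D))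
    (lam : Λ) (hlam : ∀ d ∈ D, c d lam = lam) (t : G) (ht : t ∈ D) (μ0 : Λ) (hμ0 : c t μ0 ≠ μ0) :
    ∃ μ : Λ, c t μ ≠ μ ∧ ∀ h, c h (lam * μ) = lam * μ → c h lam = lam ∧ c h μ = μ := by
  classical
  have := Fintype.ofFinite D
  have hinj : ∀ α β : Λ, α ^ Nat.card D = β ^ Nat.card D → α = β := by
    intro α β h
    have h2 : (α * β⁻¹) ^ Nat.card D = 1 := by
      rw [mul_pow, inv_pow, h, mul_inv_cancel]
    have h4 : orderOf (α * β⁻¹) ∣ 1 := by
      rw [← hcop]
      exact Nat.dvd_gcd (orderOf_dvd_of_pow_eq_one (hn _)) (orderOf_dvd_of_pow_eq_one h2)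
    rw [Nat.dvd_one, orderOf_eq_one_iff, mul_inv_eq_one] at h4
    exact h4
  let nu : Λ → Λ := fun μ => ∏ d : D, c d μ
  have hnu_mul : ∀ α β, nu (α * β) = nu α * nu β := fun α β => by
    show ∏ d : D, c d (α * β) = (∏ d : D, c d α) * (∏ d : D, c d β)
    rw [← Finset.prod_mul_distrib]
    exact Finset.prod_congr rfl fun d _ => map_mul _ _ _
  have hnu_inv : ∀ α, (∀ d : G, d ∈ D → c d α = α) → nu α = α ^ Nat.card D := by
    intro α hα
    show ∏ d : D, c (d : G) α = _
    rw [Finset.prod_congr rfl (fun (d : D) _ => hα d d.2), Finset.prod_const, Finset.card_univ,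
      Nat.card_eq_fintype_card]
  have hnu_fix : ∀ α, ∀ d : G, d ∈ D → c d (nu α) = nu α := by
    intro α d hd
    show c d (∏ e : D, c e α) = ∏ e : D, c e α
    rw [map_prod]
    refine Fintype.prod_equiv (Equiv.mulRight (⟨d, hd⟩ : D)) _ _ fun e => ?_
    rw [← c_mul]
    rfl
  have hnu_cf : ∀ (h : G) α, c h (nu α) = nu (c h α) := by
    intro h α
    show c h (∏ e : D, c e α) = ∏ e : D, c e (c h α)
    rw [map_prod]
    refine Finset.prod_congr rfl fun e _ => ?_
    rw [← c_mul, c_comm, c_mul]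
  have hnu_one : nu 1 = 1 := Finset.prod_eq_one fun d _ => map_one _
  have hnu_pow : ∀ (α : Λ) (j : ℕ), nu (α ^ j) = nu α ^ j := by
    intro α j
    induction j with
    | zero => rw [pow_zero, pow_zero, hnu_one]
    | succ j ih => rw [pow_succ, pow_succ, hnu_mul, ih]
  have hnuμ : nu (μ0 ^ Nat.card D * (nu μ0)⁻¹) = 1 := by
    have h1 : nu (μ0 ^ Nat.card D * (nu μ0)⁻¹) * nu (nu μ0) = nu (μ0 ^ Nat.card D) := by
      rw [← hnu_mul, inv_mul_cancel_right]
    rw [hnu_pow, hnu_inv _ (hnu_fix μ0)] at h1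
    exact mul_eq_right.1 h1
  refine ⟨μ0 ^ Nat.card D * (nu μ0)⁻¹, ?_, ?_⟩
  · intro h8
    apply hμ0
    apply hinj
    rw [← map_pow]
    have h9 := congrArg (fun x => x * nu μ0) h8
    simp only [inv_mul_cancel_right] at h9
    have h10 : c t (μ0 ^ Nat.card D * (nu μ0)⁻¹) * nu μ0 = c t (μ0 ^ Nat.card D) := by
      conv_lhs => rw [← hnu_fix μ0 t ht]
      rw [← map_mul, hnu_fix μ0 t ht, inv_mul_cancel_right]
    rw [← h10]; exact h9
  · intro h h1
    have h2 : c h (nu (lam * (μ0 ^ Nat.card D * (nu μ0)⁻¹))) =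
      nu (lam * (μ0 ^ Nat.card D * (nu μ0)⁻¹)) := by rw [hnu_cf, h1]
    rw [hnu_mul, hnuμ, mul_one, hnu_inv lam hlam, map_pow] at h2
    have h4 : c h lam = lam := hinj _ _ h2
    refine ⟨h4, ?_⟩
    rw [map_mul, h4] at h1
    exact mul_left_cancel h1

/-- Conjugation as an endomorphism of the dual group. -/
def cfHom (M : Subgroup G) [M.Normal] (g : G) : (M →* ℂˣ) →* (M →* ℂˣ) where
  toFun := cf M g
  map_one' := rfl
  map_mul' _ _ := rfl

theorem cfHom_apply (M : Subgroup G) [M.Normal] (g : G) (μ : M →* ℂˣ) :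
    cfHom M g μ = cf M g μ := rfl

theorem pow_card_eq_one [Finite G] (M : Subgroup G) (μ : M →* ℂˣ) : μ ^ Nat.card M = 1 := by
  ext x
  rw [MonoidHom.pow_apply, ← map_pow, pow_card_eq_one', map_one]
  rfl

/-- The stabilizers of the noninvariant linear characters are all equal to the centralizer. -/
theorem iner_eq_centralizer [Finite G] {m : ℕ}
    (hcd : ∀ χ : IrrCharacter G, charDegree (χ : G → ℂ) = 1 ∨ charDegree (χ : G → ℂ) = m)
    (M H : Subgroup G) [hMn : M.Normal] (hinf : M ⊓ H = ⊥) (hsup : M ⊔ H = ⊤)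
    (hM : ∀ a ∈ M, ∀ b ∈ M, a * b = b * a) (hnil : Group.IsNilpotent (G ⧸ M))
    (hcop : (Nat.card M).Coprime (Nat.card H)) (lam : M →* ℂˣ) (hlam : iner M lam ≠ ⊤) :
    iner M lam = Subgroup.centralizer (M : Set G) := by
  classical
  have hMC : M ≤ Subgroup.centralizer (M : Set G) := fun x hx =>
    Subgroup.mem_centralizer_iff.2 fun y hy => hM y hy x hx
  have hMle : ∀ μ, M ≤ iner M μ := fun μ x hx => cf_of_mem_centralizer (hMC hx)
  have hcC : ∀ (x y : G) (μ : M →* ℂˣ), cf M (x * y) μ = cf M (y * x) μ := by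
    intro x y μ
    have h1 := comm_mod_centralizer hcd M H hinf hsup hM hnil x y
    have h2 : x * y = (x * y * x⁻¹ * y⁻¹) * (y * x) := by group
    rw [h2, cf_mul, cf_of_mem_centralizer h1]
  refine le_antisymm ?_ fun g hg => cf_of_mem_centralizer hg
  intro g hg
  by_contra hgC
  -- reduce to an element of `H`
  obtain ⟨a, ha, t, ht, rfl⟩ := Subgroup.mem_sup_of_normal_left.1
    (show g ∈ M ⊔ H by rw [hsup]; exact Subgroup.mem_top g)
  have htl : t ∈ iner M lam := by
    have := mul_mem (inv_mem (hMle lam ha)) hg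
    rwa [inv_mul_cancel_left] at this
  have htC : t ∉ Subgroup.centralizer (M : Set G) := fun h => hgC (mul_mem (hMC ha) h)
  have hμ0 : ∃ μ0 : M →* ℂˣ, t ∉ iner M μ0 := by
    by_contra hcon
    push Not at hcon
    exact htC (mem_centralizer_of_forall hM hcon)
  obtain ⟨μ0, hμ0⟩ := hμ0
  obtain ⟨μ, hμt, hkey'⟩ := exists_average (cfHom M) (fun g h μ => cf_mul M g h μ)
    (fun g h μ => hcC g h μ) (iner M lam ⊓ H) (Nat.card M) (pow_card_eq_one M)
    (Nat.Coprime.coprime_dvd_right (Subgroup.card_dvd_of_le inf_le_right) hcop) lam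
    (fun d hd => hd.1) t ⟨htl, ht⟩ μ0 hμ0
  have hkey : ∀ h : G, h ∈ iner M (lam * μ) → h ∈ iner M lam ∧ h ∈ iner M μ := hkey'
  have hne : iner M (lam * μ) ≠ ⊤ := by
    intro h
    apply hlam
    rw [eq_top_iff]
    intro x _
    exact (hkey x (by rw [h]; exact Subgroup.mem_top x)).1
  have hle : iner M (lam * μ) ≤ iner M lam := fun x hx => (hkey x hx).1
  have heq : iner M (lam * μ) = iner M lam := by
    by_contra hne'
    have h6 := Subgroup.index_strictAnti (lt_of_le_of_ne hle hne')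
    rw [(index_iner hcd M H hinf hsup hM _ hne).1, (index_iner hcd M H hinf hsup hM _ hlam).1] at h6
    exact lt_irrefl _ h6
  exact hμt (hkey t (by rw [heq]; exact htl)).2

/-- **Main result**: the centralizer of `M` has index `m` and is abelian. -/
theorem main [Finite G] {m : ℕ}
    (hcd : ∀ χ : IrrCharacter G, charDegree (χ : G → ℂ) = 1 ∨ charDegree (χ : G → ℂ) = m)
    (M H : Subgroup G) [hMn : M.Normal] (hinf : M ⊓ H = ⊥) (hsup : M ⊔ H = ⊤)
    (hM : ∀ a ∈ M, ∀ b ∈ M, a * b = b * a) (hnil : Group.IsNilpotent (G ⧸ M))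
    (hcop : (Nat.card M).Coprime (Nat.card H)) (lam : M →* ℂˣ) (hlam : iner M lam ≠ ⊤) :
    (Subgroup.centralizer (M : Set G)).index = m ∧
      ∀ a ∈ Subgroup.centralizer (M : Set G), ∀ b ∈ Subgroup.centralizer (M : Set G),
        a * b = b * a := by
  have h1 := iner_eq_centralizer hcd M H hinf hsup hM hnil hcop lam hlam
  obtain ⟨h2, h3⟩ := index_iner hcd M H hinf hsup hM lam hlam
  rw [h1] at h2 h3
  refine ⟨h2, fun a ha b hb => ?_⟩
  have hc := h3 a ha b hb
  set c := a * b * a⁻¹ * b⁻¹ with hcdef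
  have hcb : c * b = b * c := by
    exact (Subgroup.mem_centralizer_iff.1 hb c hc)
  have hca : c * a = a * c := by
    exact (Subgroup.mem_centralizer_iff.1 ha c hc)
  have hab : a * b * a⁻¹ = c * b := by rw [hcdef]; group
  -- conjugation by powers of `a`
  have hpow : ∀ n : ℕ, a ^ n * b * (a ^ n)⁻¹ = c ^ n * b := by
    intro n
    induction n with
    | zero => simp
    | succ n ih =>
      have hcn : a * c ^ n = c ^ n * a :=
        ((Commute.pow_right (show Commute a c from hca.symm) n)).eq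
      calc a ^ (n + 1) * b * (a ^ (n + 1))⁻¹ = a * (a ^ n * b * (a ^ n)⁻¹) * a⁻¹ := by
            rw [pow_succ']; group
        _ = a * c ^ n * b * a⁻¹ := by rw [ih]; group
        _ = c ^ n * (a * b * a⁻¹) := by rw [hcn]; group
        _ = c ^ (n + 1) * b := by rw [hab, pow_succ]; group
  have hidx : M.index = Nat.card H := by
    have h4 : M.IsComplement' H := Subgroup.isComplement'_of_disjoint_and_mul_eq_univ
      (by rw [disjoint_iff]; exact hinf)
      (by rw [← Subgroup.normal_mul]; rw [hsup]; rfl)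
    exact h4.symm.index_eq_card
  have h4 : a ^ Nat.card H ∈ M := by
    rw [← hidx]; exact Subgroup.pow_index_mem M a
  have h5 : c ^ Nat.card H = 1 := by
    have h6 := hpow (Nat.card H)
    have h7 := Subgroup.mem_centralizer_iff.1 hb _ h4
    rw [h7, mul_inv_cancel_right] at h6
    exact (mul_eq_right.1 h6.symm)
  have h6 : c ^ Nat.card M = 1 := by
    have := pow_card_eq_one' (x := (⟨c, hc⟩ : M))
    exact congrArg Subtype.val this
  have h7 : orderOf c ∣ 1 := by
    rw [← hcop]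
    exact Nat.dvd_gcd (orderOf_dvd_of_pow_eq_one h6) (orderOf_dvd_of_pow_eq_one h5)
  rw [Nat.dvd_one, orderOf_eq_one_iff] at h7
  rw [h7, one_mul] at hab
  rw [mul_inv_eq_iff_eq_mul] at hab
  exact hab

end Cfsg.Agent.H596.TwoDegrees
end

-- part: S4457
section
set_option autoImplicit false
open Cfsg

namespace Cfsg.Agent.S4457

open Cfsg.Agent.Characters.Core Cfsg.Agent.H596 Cfsg.Agent.H596.TwoDegrees
open Cfsg.Agent.Blocks.Basic (charDegree_of_eq irr_one_eq_charDegree charDegree_pos)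

theorem result {G : Type*} [Group G] [Finite G] (m : ℕ) (hcd : ∀ χ : Cfsg.IrrCharacter G, Cfsg.charDegree (χ : G → ℂ) = 1 ∨ Cfsg.charDegree (χ : G → ℂ) = m) (hm : ∃ χ : Cfsg.IrrCharacter G, Cfsg.charDegree (χ : G → ℂ) = m) (hm1 : m ≠ 1) : (∃ A : Subgroup G, A.Normal ∧ (∀ a ∈ A, ∀ b ∈ A, a * b = b * a) ∧ A.index = m) ∨ ∃ p e : ℕ, p.Prime ∧ m = p ^ e ∧ ∃ P A : Subgroup G, P.Normal ∧ A.Normal ∧ IsPGroup p P ∧ (∀ a ∈ A, ∀ b ∈ A, a * b = b * a) ∧ P ⊓ A = ⊥ ∧ P ⊔ A = ⊤ := by
  classical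
  obtain ⟨χ₀, hχ₀⟩ := hm
  have hmpos : 0 < m := hχ₀ ▸ charDegree_pos χ₀.2
  -- normal p-complements
  have hthompson : ∀ p : m.primeFactors, ∃ N : Subgroup G, N.Normal ∧ (Nat.card N).Coprime p.1 ∧
      ∃ k : ℕ, N.index = p.1 ^ k := by
    intro p
    refine S4456.result p.1 (Nat.prime_of_mem_primeFactors p.2) fun χ hχ => ?_
    rw [(hcd χ).resolve_left hχ]
    exact Nat.dvd_of_mem_primeFactors p.2
  choose N hNn hNc k hNk using hthompson
  have hNn' : ∀ p, (N p).Normal := hNn
  let M : Subgroup G := ⨅ p, N p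
  have hMn : M.Normal := Subgroup.normal_iInf_normal hNn
  let φ : G →* (∀ p, G ⧸ N p) := MonoidHom.pi fun p => QuotientGroup.mk' (N p)
  have hker : φ.ker = M := by
    ext x
    rw [MonoidHom.mem_ker, Subgroup.mem_iInf, funext_iff]
    exact forall_congr' fun p => QuotientGroup.eq_one_iff x
  let ψ : G ⧸ M →* (∀ p, G ⧸ N p) := QuotientGroup.lift M φ (by rw [← hker])
  have hψ : Function.Injective ψ := by
    rw [injective_iff_map_eq_one]
    intro q
    obtain ⟨x, rfl⟩ := QuotientGroup.mk_surjective q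
    intro hx
    rw [QuotientGroup.eq_one_iff, ← hker]
    exact hx
  have hp : ∀ p : m.primeFactors, Fact (p.1.Prime) := fun p =>
    ⟨Nat.prime_of_mem_primeFactors p.2⟩
  have hpg : ∀ p : m.primeFactors, IsPGroup p.1 (G ⧸ N p) := fun p =>
    IsPGroup.of_card (n := k p) (hNk p)
  have hnilp : ∀ p : m.primeFactors, Group.IsNilpotent (G ⧸ N p) := fun p =>
    (hpg p).isNilpotent
  have hnil : Group.IsNilpotent (G ⧸ M) :=
    Subgroup.isNilpotent_of_ker_le_center ψ (by
      rw [(MonoidHom.ker_eq_bot_iff ψ).2 hψ]; exact bot_le)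
  have hidx : ∀ q : ℕ, q.Prime → q ∣ M.index → q ∈ m.primeFactors := by
    intro q hq hqM
    have h1 : M.index ∣ Nat.card (∀ p, G ⧸ N p) := Subgroup.card_dvd_of_injective ψ hψ
    have h2 := hqM.trans h1
    rw [Nat.card_pi] at h2
    obtain ⟨p, -, hp'⟩ := (Prime.dvd_finsetProd_iff hq.prime _).1 h2
    have h3 : q ∣ p.1 ^ k p := by rw [← hNk p]; exact hp'
    have h4 := (Nat.prime_dvd_prime_iff_eq hq (hp p).out).1 (hq.dvd_of_dvd_pow h3)
    rw [h4]; exact p.2
  have hMq : ∀ q ∈ m.primeFactors, ¬ q ∣ Nat.card M := by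
    intro q hq hqM
    have h1 : q ∣ Nat.card (N ⟨q, hq⟩) :=
      hqM.trans (Subgroup.card_dvd_of_le (iInf_le _ (⟨q, hq⟩ : m.primeFactors)))
    have h2 := Nat.dvd_gcd h1 (dvd_refl q)
    rw [hNc ⟨q, hq⟩] at h2
    exact (Nat.prime_of_mem_primeFactors hq).one_lt.ne' (Nat.dvd_one.1 h2)
  have hcop : (Nat.card M).Coprime M.index :=
    Nat.coprime_of_dvd' fun q hq h1 h2 => absurd h1 (hMq q (hidx q hq h2))
  have hcopm : (Nat.card M).Coprime m :=
    Nat.coprime_of_dvd' fun q hq h1 h2 =>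
      absurd h1 (hMq q (Nat.mem_primeFactors.2 ⟨hq, h2, hmpos.ne'⟩))
  have hM : ∀ a ∈ M, ∀ b ∈ M, a * b = b * a := fun a ha b hb =>
    congrArg Subtype.val (comm_of_normal_coprime hcd M hcopm ⟨a, ha⟩ ⟨b, hb⟩)
  obtain ⟨H, hH⟩ := Subgroup.exists_right_complement'_of_coprime hcop
  have hinf : M ⊓ H = ⊥ := disjoint_iff.1 hH.disjoint
  have hsup : M ⊔ H = ⊤ := hH.sup_eq_top
  have hHc : (Nat.card M).Coprime (Nat.card H) := by
    rwa [← hH.symm.index_eq_card]
  by_cases hcen : ∃ lam : M →* ℂˣ, iner M lam ≠ ⊤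
  · obtain ⟨lam, hlam⟩ := hcen
    obtain ⟨h1, h2⟩ := main hcd M H hinf hsup hM hnil hHc lam hlam
    left
    exact ⟨Subgroup.centralizer (M : Set G), inferInstance, h2, h1⟩
  · push Not at hcen
    right
    have hMcen : M ≤ Subgroup.center G := by
      intro x hx
      rw [Subgroup.mem_center_iff]
      intro g
      have := mem_centralizer_of_forall hM (g := g) (fun μ => by
        rw [hcen μ]; exact Subgroup.mem_top g)
      exact (Subgroup.mem_centralizer_iff.1 this x hx).symm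
    have hG : Group.IsNilpotent G :=
      Subgroup.isNilpotent_of_ker_le_center (QuotientGroup.mk' M)
        (by rw [QuotientGroup.ker_mk']; exact hMcen)
    obtain ⟨p, hpp, hpm⟩ := Nat.exists_prime_and_dvd hm1
    have hpf : p ∈ m.primeFactors := Nat.mem_primeFactors.2 ⟨hpp, hpm, hmpos.ne'⟩
    have := Fact.mk hpp
    let P : Sylow p G := default
    have hPn : (P : Subgroup G).Normal := inferInstance
    let A : Subgroup G := N ⟨p, hpf⟩
    have hAn : A.Normal := hNn ⟨p, hpf⟩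
    have hPA : (P : Subgroup G) ⊓ A = ⊥ := by
      rw [← disjoint_iff]
      apply Subgroup.disjoint_of_coprime_natCard
      obtain ⟨j, hj⟩ := IsPGroup.iff_card.1 P.isPGroup'
      rw [hj]
      exact Nat.Coprime.pow_left j (Nat.coprime_comm.1 (hNc ⟨p, hpf⟩))
    have hPA' : (P : Subgroup G) ⊔ A = ⊤ := by
      rw [← Subgroup.index_eq_one]
      have h1 : ((P : Subgroup G) ⊔ A).index ∣ (P : Subgroup G).index :=
        Subgroup.index_dvd_of_le le_sup_left
      have h2 : ((P : Subgroup G) ⊔ A).index ∣ A.index :=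
        Subgroup.index_dvd_of_le le_sup_right
      have h3 : A.index = p ^ k ⟨p, hpf⟩ := hNk ⟨p, hpf⟩
      rw [h3] at h2
      have h4 : Nat.Coprime (P : Subgroup G).index (p ^ k ⟨p, hpf⟩) := by
        apply Nat.Coprime.pow_right
        rw [Nat.coprime_comm, hpp.coprime_iff_not_dvd]
        exact P.not_dvd_index
      have h5 := Nat.dvd_gcd h1 h2
      rw [h4] at h5
      exact Nat.dvd_one.1 h5
    have hcommP : ∀ a b : G ⧸ (P : Subgroup G), a * b = b * a := by
      refine comm_of_charDegree_eq_one fun χ => ?_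
      have h1 := isIrr_comp (QuotientGroup.mk' (P : Subgroup G))
        (QuotientGroup.mk'_surjective _) χ.2
      have h2 := hcd ⟨_, h1⟩
      rw [show charDegree ((⟨_, h1⟩ : IrrCharacter G) : G → ℂ) =
        charDegree (χ : G ⧸ (P : Subgroup G) → ℂ) from charDegree_comp _ χ.2] at h2
      refine h2.resolve_right fun h3 => ?_
      have h4 := charDegree_dvd_card χ.2
      rw [h3] at h4
      exact P.not_dvd_index (hpm.trans h4)
    have hA : ∀ a ∈ A, ∀ b ∈ A, a * b = b * a := by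
      intro a ha b hb
      have h1 := hcommP (a : G ⧸ (P : Subgroup G)) b
      have h2 : (b * a)⁻¹ * (a * b) ∈ (P : Subgroup G) := QuotientGroup.eq.1 h1.symm
      have h3 : (b * a)⁻¹ * (a * b) ∈ (P : Subgroup G) ⊓ A :=
        ⟨h2, A.mul_mem (A.inv_mem (A.mul_mem hb ha)) (A.mul_mem ha hb)⟩
      rw [hPA, Subgroup.mem_bot, inv_mul_eq_one] at h3
      exact h3.symm
    have hmd : m ∣ p ^ k ⟨p, hpf⟩ := by
      have h1 := charDegree_dvd_index χ₀.2 A hA
      rw [hχ₀] at h1
      exact h1.trans (dvd_of_eq (hNk ⟨p, hpf⟩))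
    obtain ⟨e, -, he⟩ := (Nat.dvd_prime_pow hpp).1 hmd
    exact ⟨p, e, hpp, he, P, A, hPn, hAn, P.isPGroup', hA, hPA, hPA'⟩

end Cfsg.Agent.S4457
end
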