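import Cfsg.Statements.S4462
import Cfsg.Agent.S4461
set_option linter.all false

set_option autoImplicit false
open Cfsg

namespace Cfsg.Agent.S4462

open Cfsg.Agent.H597.Base
open Cfsg.Agent.Characters.Core
open Subgroup

universe u

/-- The set of irreducible character degrees. -/
def cdSet (G : Type u) [Group G] : Set ℕ := {d : ℕ | ∃ χ : IrrCharacter G, charDegree (χ : G → ℂ) = d}

theorem finite_cdSet (G : Type u) [Group G] [Finite G] : (cdSet G).Finite := by
  have := finite_irr (G := G)
  have h : cdSet G = Set.range fun χ : IrrCharacter G => charDegree (χ : G → ℂ) := rfl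
  rw [h]
  exact Set.finite_range _

theorem one_mem_cdSet (G : Type u) [Group G] [Finite G] : 1 ∈ cdSet G :=
  ⟨⟨1, isIrr_one⟩, Blocks.Basic.charDegree_of_eq (by simp)⟩

/-- The degrees of a quotient by the Fitting subgroup form a proper subset. -/
theorem ncard_lt {G : Type u} [Group G] [Finite G] (hsolv : Group.IsSolvable G)
    (h : fittingSubgroup G ≠ ⊤) [(fittingSubgroup G).Normal] :
    (cdSet (G ⧸ fittingSubgroup G)).ncard < (cdSet G).ncard := by
  classical
  have := Fintype.ofFinite G
  set F := fittingSubgroup G with hF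
  apply Set.ncard_lt_ncard _ (finite_cdSet G)
  have hsurj := QuotientGroup.mk'_surjective F
  have hinfl : ∀ χ : IrrCharacter (G ⧸ F), IsIrrCharacter G ((χ : G ⧸ F → ℂ) ∘ QuotientGroup.mk' F) :=
    fun χ => isIrr_comp _ hsurj χ.2
  have hdeg : ∀ χ : IrrCharacter (G ⧸ F), charDegree ((χ : G ⧸ F → ℂ) ∘ QuotientGroup.mk' F) =
      charDegree (χ : G ⧸ F → ℂ) := by
    intro χ
    rw [Blocks.Basic.charDegree_def, Blocks.Basic.charDegree_def, Function.comp_apply, map_one]
  obtain ⟨d, hd, hmax⟩ := Set.exists_max_image (cdSet (G ⧸ F)) id (finite_cdSet _)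
    ⟨1, one_mem_cdSet _⟩
  obtain ⟨χ, rfl⟩ := hd
  have hψ : ∃ ψ : IrrCharacter G, charDegree ((χ : G ⧸ F → ℂ) ∘ QuotientGroup.mk' F) <
      charDegree (ψ : G → ℂ) := by
    have hFK : F ≤ ker (isIrr_isCharacter (hinfl χ)) := by
      intro f hf
      show (χ : G ⧸ F → ℂ) (QuotientGroup.mk' F f) = (χ : G ⧸ F → ℂ) (QuotientGroup.mk' F 1)
      rw [map_one, QuotientGroup.mk'_apply, (QuotientGroup.eq_one_iff f).2 hf]
    have hKsol : Group.IsSolvable (G ⧸ ker (isIrr_isCharacter (hinfl χ))) :=
      Group.isSolvable_of_surjective (QuotientGroup.mk'_surjective (ker (isIrr_isCharacter (hinfl χ))))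
    obtain ⟨ψ, hψ, -⟩ := S4461.result (⟨_, hinfl χ⟩ : IrrCharacter G)
      (ker (isIrr_isCharacter (hinfl χ))) (fun g => Iff.rfl) (by
        by_cases hle : ker (isIrr_isCharacter (hinfl χ)) ≤ fittingSubgroup G
        · have heq : ker (isIrr_isCharacter (hinfl χ)) = fittingSubgroup G := le_antisymm hle hFK
          exact Or.inr ⟨heq, hKsol, heq ▸ h⟩
        · exact Or.inl hle)
    exact ⟨ψ, hψ⟩
  obtain ⟨ψ, hψ⟩ := hψ
  refine ⟨?_, fun hsub => ?_⟩
  · rintro _ ⟨η, rfl⟩
    exact ⟨⟨_, hinfl η⟩, hdeg η⟩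
  · have h1 : charDegree (ψ : G → ℂ) ∈ cdSet (G ⧸ F) := hsub ⟨ψ, rfl⟩
    have h2 := hmax _ h1
    rw [hdeg] at hψ
    exact absurd h2 (not_le.2 hψ)

/-- The quotient condition. -/
def NilQuot {G : Type u} [Group G] (A B : Subgroup G) : Prop :=
  ∀ _ : (A.subgroupOf B).Normal, Group.IsNilpotent (B ⧸ A.subgroupOf B)

theorem nilQuot_comap {G : Type u} {H : Type u} [Group G] [Group H] (f : G →* H)
    {A B : Subgroup H} (hA : A.Normal) (h : NilQuot A B) : NilQuot (A.comap f) (B.comap f) := by
  intro _
  have hn : (A.subgroupOf B).Normal := inferInstance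
  have := h hn
  let g : B.comap f →* B := f.subgroupComap B
  have hle : (A.comap f).subgroupOf (B.comap f) ≤ (A.subgroupOf B).comap g := by
    intro x hx
    exact hx
  let q : (B.comap f) ⧸ (A.comap f).subgroupOf (B.comap f) →* B ⧸ A.subgroupOf B :=
    QuotientGroup.map _ _ g hle
  have hinj : Function.Injective q := by
    rw [injective_iff_map_eq_one]
    intro a ha
    obtain ⟨x, rfl⟩ := QuotientGroup.mk_surjective a
    rw [QuotientGroup.map_mk, QuotientGroup.eq_one_iff] at ha
    exact (QuotientGroup.eq_one_iff x).2 ha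
  exact Subgroup.isNilpotent_of_ker_le_center q
    (by rw [(MonoidHom.ker_eq_bot_iff q).2 hinj]; exact bot_le)

theorem main : ∀ (k : ℕ) (G : Type u) [Group G] [Finite G], Nat.card G = k →
    Group.IsSolvable G → ∃ N : ℕ → Subgroup G, N 0 = ⊥ ∧ (∀ i, (cdSet G).ncard ≤ i → N i = ⊤) ∧
      Monotone N ∧ (∀ i, (N i).Normal) ∧ ∀ i, NilQuot (N i) (N (i + 1)) := by
  intro k
  induction k using Nat.strong_induction_on with
  | _ k ih =>
  intro G _ _ hk hsolv
  classical
  have hpos : 0 < (cdSet G).ncard := (Set.ncard_pos (finite_cdSet G)).2 ⟨1, one_mem_cdSet G⟩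
  have hFn : (fittingSubgroup G).Normal := Cfsg.Agent.Lib.Cores.fittingSubgroup_normal
  have hFnil : Group.IsNilpotent (fittingSubgroup G) :=
    Cfsg.Agent.Lib.Cores.fittingSubgroup_isNilpotent
  have hbotF : NilQuot ⊥ (fittingSubgroup G) := by
    intro _
    exact Group.nilpotent_quotient_of_nilpotent _
  by_cases hF : fittingSubgroup G = ⊤
  · refine ⟨fun i => if i = 0 then ⊥ else ⊤, by simp, fun i hi => ?_, ?_, ?_, ?_⟩
    · simp only
      rw [if_neg (by omega)]
    · intro i j hij
      show (if i = 0 then (⊥ : Subgroup G) else ⊤) ≤ if j = 0 then ⊥ else ⊤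
      by_cases hi : i = 0
      · rw [if_pos hi]; exact bot_le
      · rw [if_neg (show j ≠ 0 by omega)]; exact le_top
    · intro i
      show (if i = 0 then (⊥ : Subgroup G) else ⊤).Normal
      split_ifs <;> infer_instance
    · intro i
      show NilQuot (if i = 0 then (⊥ : Subgroup G) else ⊤) (if i + 1 = 0 then ⊥ else ⊤)
      rw [if_neg (Nat.succ_ne_zero i)]
      by_cases hi : i = 0
      · rw [if_pos hi, ← hF]; exact hbotF
      · rw [if_neg hi, ← hF]
        intro _
        have := hFnil
        exact Group.nilpotent_quotient_of_nilpotent _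
  · have hlt := ncard_lt hsolv hF
    have hFne : fittingSubgroup G ≠ ⊥ := by
      intro hbot
      have : Nontrivial G := by
        by_contra hnt
        rw [not_nontrivial_iff_subsingleton] at hnt
        exact hF (Subsingleton.elim _ _)
      obtain ⟨p, N, hp, hN, hNp, -, hNne, -⟩ := Cfsg.Agent.Solvable.Carter.exists_min_normal G
      have := Fact.mk hp
      apply hNne
      rw [eq_bot_iff, ← hbot]
      exact Cfsg.Agent.Lib.Cores.le_fittingSubgroup hN hNp.isNilpotent
    have hcard : Nat.card (G ⧸ fittingSubgroup G) < k := by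
      rw [← hk, ← index_eq_card, ← (fittingSubgroup G).index_mul_card]
      have h1 : 1 < Nat.card (fittingSubgroup G) := by
        have h2 := (one_lt_card_iff_ne_bot (H := fittingSubgroup G)).2 hFne
        exact h2
      have h2 : 0 < (fittingSubgroup G).index := Nat.pos_of_ne_zero index_ne_zero_of_finite
      nlinarith
    obtain ⟨N, hN0, hNtop, hNmono, hNn, hNq⟩ := ih _ hcard (G ⧸ fittingSubgroup G) rfl
      (Group.isSolvable_of_surjective (QuotientGroup.mk'_surjective (fittingSubgroup G)))
    refine ⟨fun i => if i = 0 then ⊥ else (N (i - 1)).comap (QuotientGroup.mk' _), by simp,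
      fun i hi => ?_, ?_, ?_, ?_⟩
    · show (if i = 0 then (⊥ : Subgroup G) else (N (i - 1)).comap (QuotientGroup.mk' _)) = ⊤
      rw [if_neg (by omega), hNtop (i - 1) (by omega), comap_top]
    · intro i j hij
      show (if i = 0 then (⊥ : Subgroup G) else (N (i - 1)).comap (QuotientGroup.mk' _)) ≤
        if j = 0 then (⊥ : Subgroup G) else (N (j - 1)).comap (QuotientGroup.mk' _)
      by_cases hi : i = 0
      · rw [if_pos hi]; exact bot_le
      · rw [if_neg (show j ≠ 0 by omega), if_neg hi]
        exact comap_mono (hNmono (by omega))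
    · intro i
      show (if i = 0 then (⊥ : Subgroup G) else (N (i - 1)).comap (QuotientGroup.mk' _)).Normal
      by_cases hi : i = 0
      · rw [if_pos hi]; infer_instance
      · rw [if_neg hi]; exact (hNn _).comap _
    · intro i
      show NilQuot (if i = 0 then (⊥ : Subgroup G) else (N (i - 1)).comap (QuotientGroup.mk' _))
        (if i + 1 = 0 then (⊥ : Subgroup G) else (N (i + 1 - 1)).comap (QuotientGroup.mk' _))
      rw [if_neg (Nat.succ_ne_zero i), Nat.add_sub_cancel]
      by_cases hi : i = 0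
      · subst hi
        rw [if_pos rfl, hN0, MonoidHom.comap_bot, QuotientGroup.ker_mk']
        exact hbotF
      · rw [if_neg hi]
        have h1 := hNq (i - 1)
        rw [Nat.sub_add_cancel (by omega)] at h1
        exact nilQuot_comap _ (hNn _) h1

/-- Let G be a finite solvable group with exactly n distinct irreducible character degrees. Then G has normal subgroups 1 = N₀ ≤ N₁ ≤ ⋯ ≤ Nₙ = G with every quotient N_{i+1}/N_i nilpotent (the nilpotent length of G is at most n). -/
theorem result {G : Type*} [Group G] [Finite G] (hsolv : Group.IsSolvable G) (n : ℕ) (hcd : Nat.card {d : ℕ // ∃ χ : Cfsg.IrrCharacter G, Cfsg.charDegree (χ : G → ℂ) = d} = n) : ∃ N : Fin (n + 1) → Subgroup G, N 0 = ⊥ ∧ N (Fin.last n) = ⊤ ∧ Monotone N ∧ (∀ i, (N i).Normal) ∧ ∀ i : Fin n, ∀ h : (N i.castSucc).subgroupOf (N i.succ) |>.Normal, Group.IsNilpotent (↥(N i.succ) ⧸ (N i.castSucc).subgroupOf (N i.succ)) := by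
  obtain ⟨N, h0, htop, hmono, hn, hq⟩ := main (Nat.card G) G rfl hsolv
  refine ⟨fun i => N i, h0, htop _ ?_, fun i j hij => hmono hij, fun i => hn _, fun i h => ?_⟩
  · have : (cdSet G).ncard = n := hcd
    rw [this]; simp
  · exact hq i h

end Cfsg.Agent.S4462
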