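import Mathlib
import Cfsg.Agent.H598.MaxDeg2
import Cfsg.Agent.CharactersDeep.Extraspecial
import Cfsg.Agent.CharactersDeep.FeitLinear
import Cfsg.Agent.Characters.CCBasic
import Cfsg.Agent.H686.CharKit
import Cfsg.Agent.S4464
import Cfsg.Agent.S0144
import Cfsg.Statements.S4463
set_option linter.all false

-- part: H598/MinNon
section
/-!
# Nonabelian groups all of whose proper quotients are abelian
-/

set_option autoImplicit false

namespace Cfsg.Agent.H598.MinNon

open Cfsg Cfsg.Agent Cfsg.Agent.Characters Cfsg.Agent.Characters.Core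
open Cfsg.Agent.H597.Base Cfsg.Agent.H598.MaxDeg
open scoped ComplexConjugate commutatorElement

universe u

variable {Q : Type u} [Group Q] [Finite Q]

omit [Finite Q] in
theorem comm_iff_commutator : (∀ x y : Q, x * y = y * x) ↔ commutator Q = ⊥ := by
  constructor
  · intro h
    rw [eq_bot_iff, commutator_def, Subgroup.commutator_le]
    intro x _ y _
    rw [Subgroup.mem_bot, commutatorElement_def, h x y]
    group
  · intro h x y
    have h1 : ⁅x, y⁆ ∈ commutator Q :=
      Subgroup.commutator_mem_commutator (Subgroup.mem_top x) (Subgroup.mem_top y)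
    rw [h, Subgroup.mem_bot, commutatorElement_eq_one_iff_mul_comm] at h1
    exact h1

omit [Finite Q] in
theorem mul_inv_mem_commutator (x y : Q) : x * y * x⁻¹ * y⁻¹ ∈ commutator Q := by
  have h1 : ⁅x, y⁆ ∈ commutator Q :=
    Subgroup.commutator_mem_commutator (Subgroup.mem_top x) (Subgroup.mem_top y)
  rwa [commutatorElement_def] at h1

/-- Case of a nontrivial centre: a nonlinear character which vanishes off the centre and has degree
`|Q : Z(Q)|^(1/2)`. -/
theorem exists_of_center (hQ : ∀ N : Subgroup Q, N.Normal → N ≠ ⊥ → commutator Q ≤ N)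
    (hnc : ¬ ∀ x y : Q, x * y = y * x) (hZ : Subgroup.center Q ≠ ⊥) :
    ∃ ζ : Q → ℂ, IsIrrCharacter Q ζ ∧ 2 ≤ charDegree ζ ∧
      (∀ g, g ∉ Subgroup.center Q → ζ g = 0) ∧ (Subgroup.center Q).index = charDegree ζ ^ 2 := by
  classical
  have := Fintype.ofFinite Q
  have hcl := hQ _ inferInstance hZ
  obtain ⟨ζ, hζ, h2⟩ := exists_nonlinear hnc
  have hker : ∀ g, ζ g = ζ 1 → g = 1 := by
    intro g hg
    by_contra hne
    have h3 : ker (isIrr_isCharacter hζ) ≠ ⊥ := by
      intro h4
      have : g ∈ ker (isIrr_isCharacter hζ) := hg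
      rw [h4, Subgroup.mem_bot] at this
      exact hne this
    have h4 := hQ _ inferInstance h3
    have h5 := CharactersDeep.FeitLinear.apply_one_eq_one (commutator Q) mul_inv_mem_commutator hζ
      (fun k hk => h4 hk)
    rw [apply_one hζ] at h5
    have h6 : charDegree ζ = 1 := by exact_mod_cast h5
    omega
  obtain ⟨c, hc, -⟩ := CharactersDeep.Extraspecial.exists_central_hom hζ
  have hc1 : ∀ z : Subgroup.center Q, z ≠ 1 → (c z : ℂ) ≠ 1 := by
    intro z hz h3
    apply hz
    apply Subtype.ext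
    apply hker
    have h4 := hc 1 z
    rw [one_mul, h3, mul_one] at h4
    exact h4
  have hv : ∀ g, g ∉ Subgroup.center Q → ζ g = 0 := fun g hg =>
    CharactersDeep.Extraspecial.eq_zero_of_notMem_center hcl (isIrr_isClassFunction hζ)
      (fun z => (c z : ℂ)) hc1 hc hg
  refine ⟨ζ, hζ, h2, hv, ?_⟩
  have h3 := card_eq_sum_normSq_of_vanish hζ (Subgroup.center Q) hv
  have h4 : ∀ z : Subgroup.center Q, Complex.normSq (ζ z) = (charDegree ζ : ℝ) ^ 2 := by
    intro z
    have h5 := hc 1 z
    rw [one_mul] at h5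
    rw [h5, map_mul, apply_one hζ, Complex.normSq_natCast, Complex.normSq_eq_norm_sq,
      Linear.norm_hom_apply c z]
    ring
  rw [Finset.sum_congr rfl fun z _ => h4 z, Finset.sum_const, Finset.card_univ, nsmul_eq_mul,
    ← Nat.card_eq_fintype_card, ← (Subgroup.center Q).card_mul_index] at h3
  have h5 : Nat.card (Subgroup.center Q) * (Subgroup.center Q).index
      = Nat.card (Subgroup.center Q) * charDegree ζ ^ 2 := by exact_mod_cast h3
  exact Nat.eq_of_mul_eq_mul_left Nat.card_pos h5

omit [Finite Q] in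
/-- If `m` commutes with `y` and with `y a⁻¹` then with `a`. -/
theorem commute_aux {m y a : Q} (h : m * y = y * m) (h' : m * (y * a⁻¹) = (y * a⁻¹) * m) :
    m * a = a * m := by
  have h1 : Commute m y := h
  have h2 : Commute m (y * a⁻¹) := h'
  have h3 : Commute m ((y * a⁻¹)⁻¹ * y) := (h2.inv_right).mul_right h1
  have h4 : (y * a⁻¹)⁻¹ * y = a := by group
  rwa [h4] at h3

section metab

variable (hQ : ∀ N : Subgroup Q, N.Normal → N ≠ ⊥ → commutator Q ≤ N)
  (hab : ∀ x ∈ commutator Q, ∀ y ∈ commutator Q, x * y = y * x)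

omit [Finite Q] in
include hQ hab in
/-- An element outside `C(Q')` centralizes no nontrivial element of `Q'`. -/
theorem eq_one_of_commute {a : Q} (ha : a ∉ Subgroup.centralizer (commutator Q : Set Q)) {v : Q}
    (hv : v ∈ commutator Q) (hva : v * a = a * v) : v = 1 := by
  let M : Subgroup Q := commutator Q ⊓ Subgroup.centralizer ({a} : Set Q)
  have hM : M.Normal := by
    constructor
    intro w hw g
    obtain ⟨hw1, hw2⟩ := Subgroup.mem_inf.1 hw
    rw [Subgroup.mem_centralizer_singleton_iff] at hw2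
    have h1 : g * w * g⁻¹ ∈ commutator Q := (inferInstance : (commutator Q).Normal).conj_mem w hw1 g
    refine Subgroup.mem_inf.2 ⟨h1, ?_⟩
    rw [Subgroup.mem_centralizer_singleton_iff]
    have h2 := hab _ h1 _ (mul_inv_mem_commutator g a)
    -- `g a g⁻¹ = (g a g⁻¹ a⁻¹) a`
    have h3 : g * w * g⁻¹ * (g * a * g⁻¹) = (g * a * g⁻¹) * (g * w * g⁻¹) := by
      calc g * w * g⁻¹ * (g * a * g⁻¹) = g * (w * a) * g⁻¹ := by group
        _ = g * (a * w) * g⁻¹ := by rw [hw2]
        _ = _ := by group
    exact commute_aux h3 h2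
  by_contra hne
  apply ha
  have h1 : M ≠ ⊥ := by
    intro h2
    have h3 : v ∈ M := Subgroup.mem_inf.2 ⟨hv, Subgroup.mem_centralizer_singleton_iff.2 hva⟩
    rw [h2, Subgroup.mem_bot] at h3
    exact hne h3
  have h2 := hQ M hM h1
  rw [Subgroup.mem_centralizer_iff]
  intro w hw
  exact Subgroup.mem_centralizer_singleton_iff.1 (Subgroup.mem_inf.1 (h2 hw)).2

include hQ hab in
/-- For `a ∉ C(Q')`, every element of `Q'` is a commutator `v a v⁻¹ a⁻¹` with `v ∈ Q'`. -/
theorem exists_comm_eq {a : Q} (ha : a ∉ Subgroup.centralizer (commutator Q : Set Q)) {u : Q}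
    (hu : u ∈ commutator Q) : ∃ v ∈ commutator Q, v * a * v⁻¹ * a⁻¹ = u := by
  let φ : commutator Q → commutator Q := fun v => ⟨v * a * v⁻¹ * a⁻¹, mul_inv_mem_commutator _ _⟩
  have hφ : Function.Injective φ := by
    intro v w h
    have h1 : (v : Q) * a * (v : Q)⁻¹ * a⁻¹ = w * a * (w : Q)⁻¹ * a⁻¹ := congrArg Subtype.val h
    have h2 : ((w : Q)⁻¹ * v) * a = a * ((w : Q)⁻¹ * v) := by
      have h3 := mul_right_cancel h1
      calc ((w : Q)⁻¹ * v) * a = (w : Q)⁻¹ * (v * a * (v : Q)⁻¹) * v := by group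
        _ = (w : Q)⁻¹ * (w * a * (w : Q)⁻¹) * v := by rw [h3]
        _ = _ := by group
    have h3 := eq_one_of_commute hQ hab ha
      ((commutator Q).mul_mem ((commutator Q).inv_mem w.2) v.2) h2
    exact Subtype.ext (inv_mul_eq_one.1 h3).symm
  obtain ⟨v, hv⟩ := (Finite.injective_iff_surjective.1 hφ) ⟨u, hu⟩
  exact ⟨v, v.2, congrArg Subtype.val hv⟩

include hQ hab in
/-- `C(Q') = Q'` if the centre is trivial. -/
theorem centralizer_le (hnc : commutator Q ≠ ⊥) (hZ : Subgroup.center Q = ⊥) :
    Subgroup.centralizer (commutator Q : Set Q) ≤ commutator Q := by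
  -- an element outside the centralizer
  obtain ⟨a, ha⟩ : ∃ a, a ∉ Subgroup.centralizer (commutator Q : Set Q) := by
    by_contra hc
    push Not at hc
    apply hnc
    rw [eq_bot_iff, ← hZ]
    intro v hv
    rw [Subgroup.mem_center_iff]
    intro g
    exact (Subgroup.mem_centralizer_iff.1 (hc g) v hv).symm
  intro c hc
  obtain ⟨v, hv, hvc⟩ := exists_comm_eq hQ hab ha (mul_inv_mem_commutator c a)
  have hvcent : v ∈ Subgroup.centralizer (commutator Q : Set Q) :=
    Subgroup.mem_centralizer_iff.2 fun w hw => hab w hw v hv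
  set d : Q := v⁻¹ * c with hd
  have hdc : d ∈ Subgroup.centralizer (commutator Q : Set Q) :=
    Subgroup.mul_mem _ (Subgroup.inv_mem _ hvcent) hc
  have hda : d * a = a * d := by
    have h3 := mul_right_cancel hvc
    calc d * a = v⁻¹ * (c * a * c⁻¹) * c := by rw [hd]; group
      _ = v⁻¹ * (v * a * v⁻¹) * c := by rw [h3]
      _ = a * d := by rw [hd]; group
  have hdZ : d ∈ Subgroup.center Q := by
    rw [Subgroup.mem_center_iff]
    intro g
    -- `z = g d g⁻¹ d⁻¹` is trivial
    have hz := mul_inv_mem_commutator g d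
    have h1 : g * d * g⁻¹ ∈ Subgroup.centralizer (commutator Q : Set Q) :=
      (inferInstance : (Subgroup.centralizer (commutator Q : Set Q)).Normal).conj_mem d hdc g
    have h2 : (g * d * g⁻¹) * a = a * (g * d * g⁻¹) := by
      have h3 : (g * d * g⁻¹) * (g * a * g⁻¹) = (g * a * g⁻¹) * (g * d * g⁻¹) := by
        calc (g * d * g⁻¹) * (g * a * g⁻¹) = g * (d * a) * g⁻¹ := by group
          _ = g * (a * d) * g⁻¹ := by rw [hda]
          _ = _ := by group
      exact commute_aux h3 (Subgroup.mem_centralizer_iff.1 h1 _ (mul_inv_mem_commutator g a)).symm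
    have h6 : (g * d * g⁻¹ * d⁻¹) * a = a * (g * d * g⁻¹ * d⁻¹) := by
      have h7 : d⁻¹ * a = a * d⁻¹ := by
        calc d⁻¹ * a = d⁻¹ * (a * d) * d⁻¹ := by group
          _ = d⁻¹ * (d * a) * d⁻¹ := by rw [hda]
          _ = a * d⁻¹ := by group
      calc (g * d * g⁻¹ * d⁻¹) * a = (g * d * g⁻¹) * (d⁻¹ * a) := by group
        _ = (g * d * g⁻¹) * (a * d⁻¹) := by rw [h7]
        _ = ((g * d * g⁻¹) * a) * d⁻¹ := by group
        _ = (a * (g * d * g⁻¹)) * d⁻¹ := by rw [h2]
        _ = _ := by group
    have h7 := eq_one_of_commute hQ hab ha hz h6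
    calc g * d = (g * d * g⁻¹ * d⁻¹) * d * g := by group
      _ = d * g := by rw [h7, one_mul]
  rw [hZ, Subgroup.mem_bot] at hdZ
  have : c = v := by
    rw [hd] at hdZ
    exact (inv_mul_eq_one.1 hdZ).symm
  rw [this]
  exact hv

include hQ hab in
/-- If the centre is trivial and `Q'` is abelian, `|Q : Q'|` is a character degree. -/
theorem index_le (hnc : commutator Q ≠ ⊥) (hZ : Subgroup.center Q = ⊥) {b : ℕ} (hb : Bd Q b) :
    (commutator Q).index ≤ b := by
  classical
  have := Fintype.ofFinite Q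
  have hC := centralizer_le hQ hab hnc hZ
  obtain ⟨w, hw1⟩ := (Subgroup.ne_bot_iff_exists_ne_one (H := commutator Q)).1 hnc
  obtain ⟨l, hl, hlw⟩ : ∃ l : commutator Q → ℂ, IsIrrCharacter (commutator Q) l ∧ l w ≠ l 1 := by
    by_contra hc
    push Not at hc
    exact hw1 (eq_one_of_forall hc)
  have hl1 : l 1 = 1 := CCBasic.irr_apply_one_of_comm (A := commutator Q)
    (fun x y => Subtype.ext (hab x x.2 y y.2)) hl
  obtain ⟨f, hf⟩ := Linear.exists_hom_of_isIrrCharacter hl hl1
  have h1 := H681.DegBasic.induced_degree (commutator Q) hl (d := 1) (by rw [hl1]; simp) (by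
    intro a ha
    by_contra hna
    have ha' : a ∉ Subgroup.centralizer (commutator Q : Set Q) := fun h => hna (hC h)
    apply hlw
    obtain ⟨v, hv, hvw⟩ := exists_comm_eq hQ hab ha' w.2
    have h2 := ha ⟨v, hv⟩
    rw [hf] at h2 hlw ⊢
    -- `w = v * (a v a⁻¹)⁻¹`
    have hmem : a * v * a⁻¹ ∈ commutator Q := (inferInstance : (commutator Q).Normal).conj_mem v hv a
    have h3 : w = (⟨v, hv⟩ : commutator Q) * (⟨a * v * a⁻¹, hmem⟩ : commutator Q)⁻¹ := by
      apply Subtype.ext
      rw [← hvw]
      push_cast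
      group
    have h4 : f ⟨a * v * a⁻¹, hmem⟩ = f ⟨v, hv⟩ := by
      ext
      exact h2
    show ((f w : ℂˣ) : ℂ) = ((f 1 : ℂˣ) : ℂ)
    rw [h3, map_mul, map_inv, h4, mul_inv_cancel, map_one])
  rw [mul_one] at h1
  obtain ⟨χ, hχ, h2⟩ := H681.DegBasic.mem_charDegrees.1 h1
  rw [apply_one hχ] at h2
  have h3 : charDegree χ = (commutator Q).index := by exact_mod_cast h2
  rw [← h3]
  exact hb χ hχ

end metab

end Cfsg.Agent.H598.MinNon
end

-- part: H598/MinNonC
section
/-!
# A small conjugacy class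
-/

set_option autoImplicit false

namespace Cfsg.Agent.H598.MinNon

open Cfsg Cfsg.Agent Cfsg.Agent.Characters Cfsg.Agent.Characters.Core
open Cfsg.Agent.H597.Base Cfsg.Agent.H598.MaxDeg
open scoped ComplexConjugate commutatorElement

universe u

variable {Q : Type u} [Group Q] [Finite Q]

/-- There is a nontrivial conjugacy class of size at most `b²`. -/
theorem exists_small_class [Nontrivial Q] {b : ℕ} (h : Bd Q b) :
    ∃ x : Q, x ≠ 1 ∧ (Subgroup.centralizer ({x} : Set Q)).index ≤ b ^ 2 := by
  classical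
  have := Fintype.ofFinite Q
  have := finite_irr (G := Q)
  have := Fintype.ofFinite (IrrCharacter Q)
  by_contra hc
  push Not at hc
  set k := Fintype.card (IrrCharacter Q) with hk
  have h1 : ∑ x : Q, Nat.card (Subgroup.centralizer ({x} : Set Q)) = k * Nat.card Q := by
    have h2 : ∑ x : Q, (Nat.card (Subgroup.centralizer ({x} : Set Q)) : ℝ) = k * Nat.card Q := by
      rw [Finset.sum_congr rfl fun x _ => (H686.CharKit.sum_normSq x).symm, Finset.sum_comm,
        Finset.sum_congr rfl fun χ _ => (card_eq_sum_normSq χ.2).symm, Finset.sum_const,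
        Finset.card_univ, nsmul_eq_mul]
    exact_mod_cast h2
  have h2 := H686.CharKit.sum_deg_sq (G := Q)
  have hone : Nat.card (Subgroup.centralizer ({(1 : Q)} : Set Q)) = Nat.card Q := by
    have : Subgroup.centralizer ({(1 : Q)} : Set Q) = ⊤ := by
      rw [Subgroup.eq_top_iff']
      intro x
      rw [Subgroup.mem_centralizer_singleton_iff, mul_one, one_mul]
    rw [this, Subgroup.card_top]
  rw [← Finset.add_sum_erase _ _ (Finset.mem_univ (1 : Q)), hone] at h1
  have h3 : (∑ x ∈ Finset.univ.erase (1 : Q), Nat.card (Subgroup.centralizer ({x} : Set Q)))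
      * (b ^ 2 + 1) ≤ (Nat.card Q - 1) * Nat.card Q := by
    rw [Finset.sum_mul]
    refine (Finset.sum_le_card_nsmul _ _ (Nat.card Q) fun x hx => ?_).trans ?_
    · have h4 := hc x (Finset.ne_of_mem_erase hx)
      rw [← (Subgroup.centralizer ({x} : Set Q)).card_mul_index]
      exact Nat.mul_le_mul_left _ h4
    · rw [Finset.card_erase_of_mem (Finset.mem_univ _), Finset.card_univ, smul_eq_mul,
        Nat.card_eq_fintype_card]
  have h4 : Nat.card Q ≤ 1 + (k - 1) * b ^ 2 := by
    rw [← h2, ← Finset.add_sum_erase _ _ (Finset.mem_univ (⟨1, isIrr_one⟩ : IrrCharacter Q))]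
    have h5 : charDegree ((⟨1, isIrr_one⟩ : IrrCharacter Q) : Q → ℂ) = 1 := by
      have h6 := apply_one (isIrr_one (G := Q))
      have h7 : charDegree (1 : Q → ℂ) = 1 := by
        rw [Pi.one_apply] at h6
        exact_mod_cast h6.symm
      exact h7
    rw [h5, one_pow]
    refine Nat.add_le_add_left ?_ 1
    refine (Finset.sum_le_card_nsmul _ _ (b ^ 2) fun χ _ => ?_).trans ?_
    · exact Nat.pow_le_pow_left (h χ χ.2) 2
    · rw [Finset.card_erase_of_mem (Finset.mem_univ _), Finset.card_univ, smul_eq_mul]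
  have hQ1 : 1 < Nat.card Q := Finite.one_lt_card
  have hk1 : 1 ≤ k := Fintype.card_pos_iff.2 ⟨⟨1, isIrr_one⟩⟩
  set S := ∑ x ∈ Finset.univ.erase (1 : Q), Nat.card (Subgroup.centralizer ({x} : Set Q)) with hS
  obtain ⟨k', hk'⟩ : ∃ k', k = k' + 1 := ⟨k - 1, by omega⟩
  obtain ⟨n, hn⟩ : ∃ n, Nat.card Q = n + 1 := ⟨Nat.card Q - 1, by omega⟩
  rw [hk', hn] at h1 h4
  rw [hn] at h3 hQ1
  simp only [Nat.add_sub_cancel] at h3 h4
  -- `S = k' (n + 1)`
  have h5 : S = k' * (n + 1) := by linarith
  rw [h5] at h3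
  have h6 : k' * (b ^ 2 + 1) ≤ n := by
    have h7 : (k' * (b ^ 2 + 1)) * (n + 1) ≤ n * (n + 1) := by nlinarith
    exact Nat.le_of_mul_le_mul_right h7 (by omega)
  nlinarith

omit [Finite Q] in
/-- The centralizer of a nontrivial element has trivial core, if `Q'` is not abelian and lies in all
nontrivial normal subgroups. -/
theorem normalCore_eq_bot (hQ : ∀ N : Subgroup Q, N.Normal → N ≠ ⊥ → commutator Q ≤ N)
    (hnab : ¬ ∀ x ∈ commutator Q, ∀ y ∈ commutator Q, x * y = y * x) {x : Q} (hx : x ≠ 1) :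
    (Subgroup.centralizer ({x} : Set Q)).normalCore = ⊥ := by
  by_contra hne
  have h1 := hQ _ inferInstance hne
  have h2 : x ∈ Subgroup.centralizer (commutator Q : Set Q) := by
    rw [Subgroup.mem_centralizer_iff]
    intro w hw
    exact Subgroup.mem_centralizer_singleton_iff.1 (Subgroup.normalCore_le _ (h1 hw))
  have h3 : Subgroup.centralizer (commutator Q : Set Q) ≠ ⊥ := by
    intro h4
    rw [h4, Subgroup.mem_bot] at h2
    exact hx h2
  have h4 := hQ _ inferInstance h3
  apply hnab
  intro a ha c hc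
  exact (Subgroup.mem_centralizer_iff.1 (h4 ha) c hc).symm

omit [Finite Q] in
/-- If `Q'` is not abelian and lies in all nontrivial normal subgroups then `Q` is not solvable. -/
theorem not_solvable (hQ : ∀ N : Subgroup Q, N.Normal → N ≠ ⊥ → commutator Q ≤ N)
    (hnab : ¬ ∀ x ∈ commutator Q, ∀ y ∈ commutator Q, x * y = y * x) :
    ¬ Group.IsSolvable Q := by
  intro hs
  have hne : commutator Q ≠ ⊥ := by
    intro h
    apply hnab
    intro x hx y hy
    rw [h, Subgroup.mem_bot] at hx hy
    rw [hx, hy]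
  have h1 : ⁅commutator Q, commutator Q⁆ ≠ ⊥ := by
    intro h2
    apply hnab
    intro x hx y hy
    have h3 := Subgroup.commutator_mem_commutator hx hy
    rw [h2, Subgroup.mem_bot, commutatorElement_eq_one_iff_mul_comm] at h3
    exact h3
  have h2 := hQ _ (Subgroup.commutator_normal _ _) h1
  have h3 : ⁅commutator Q, commutator Q⁆ = commutator Q :=
    le_antisymm (Subgroup.commutator_le_left _ _) h2
  have h4 : ∀ n : ℕ, commutator Q ≤ derivedSeries Q n := by
    intro n
    induction n with
    | zero => exact le_top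
    | succ n ih =>
      rw [derivedSeries_succ, ← h3]
      exact Subgroup.commutator_mono ih ih
  obtain ⟨n, hn⟩ := hs.solvable
  have h5 := h4 n
  rw [hn] at h5
  exact hne (le_bot_iff.1 h5)

end Cfsg.Agent.H598.MinNon
end

-- part: H598/AbelianIndex
section
/-!
# An abelian subgroup of index at most `(b!)²`
-/

set_option autoImplicit false

namespace Cfsg.Agent.H598.AbelianIndex

open Cfsg Cfsg.Agent Cfsg.Agent.Characters Cfsg.Agent.Characters.Core
open Cfsg.Agent.H597.Base Cfsg.Agent.H598.MaxDeg Cfsg.Agent.H598.MinNon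
open scoped ComplexConjugate commutatorElement

universe u

/-- A number all of whose prime divisors are `2` or `3`. -/
theorem eq_two_pow_mul_three_pow {n : ℕ} (hn : n ≠ 0) (h : ∀ p, p.Prime → p ∣ n → p < 5) :
    n = 2 ^ n.factorization 2 * 3 ^ n.factorization 3 := by
  have h1 : n.factorization.support ⊆ ({2, 3} : Finset ℕ) := by
    intro p hp
    rw [Nat.support_factorization] at hp
    have h2 := h p (Nat.prime_of_mem_primeFactors hp) (Nat.dvd_of_mem_primeFactors hp)
    have h3 := Nat.prime_of_mem_primeFactors hp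
    interval_cases p
    · exact absurd h3 (by norm_num)
    · exact absurd h3 (by norm_num)
    · simp
    · simp
    · exact absurd h3 (by norm_num)
  conv_lhs => rw [← Nat.prod_factorization_pow_eq_self hn]
  rw [Finsupp.prod_of_support_subset _ h1 _ (by intro i _; exact pow_zero i),
    Finset.prod_pair (by norm_num)]

variable {Q : Type u} [Group Q] [Finite Q]

theorem false_of_le_four (hQ : ∀ N : Subgroup Q, N.Normal → N ≠ ⊥ → commutator Q ≤ N)
    (hnab : ¬ ∀ x ∈ commutator Q, ∀ y ∈ commutator Q, x * y = y * x) (hb : Bd Q 4) : False := by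
  apply not_solvable hQ hnab
  refine S0144.result 2 3 _ _ Nat.prime_two Nat.prime_three
    (eq_two_pow_mul_three_pow (Nat.card_pos (α := Q)).ne' fun p hp hd => ?_)
  by_contra hp5
  push Not at hp5
  obtain ⟨P, hP1, hP2, hP3, hP4⟩ := S4464.result (G := Q) p hp
    (fun χ => lt_of_le_of_lt (hb χ χ.2) (by omega))
  apply hnab
  have h1 : P ≠ ⊥ := by
    rintro rfl
    rw [Subgroup.index_bot] at hP4
    exact hP4 hd
  have h2 := hQ P hP1 h1
  exact fun x hx y hy => hP2 x (h2 hx) y (h2 hy)

theorem factorial_ineq {b : ℕ} (hb : 5 ≤ b) :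
    b ^ 4 * ((b / 2).factorial) ^ 2 ≤ (b.factorial) ^ 2 := by
  obtain ⟨c, rfl⟩ : ∃ c, b = c + 3 := ⟨b - 3, by omega⟩
  have h1 : (c + 3) / 2 ≤ c := by omega
  have h2 := Nat.factorial_le h1
  have h3 : (c + 3).factorial = (c + 3) * ((c + 2) * ((c + 1) * c.factorial)) := by
    rw [Nat.factorial_succ, Nat.factorial_succ, Nat.factorial_succ]
  have h4 : (c + 3) ^ 2 * ((c + 3) / 2).factorial ≤ (c + 3).factorial := by
    rw [h3]
    have h5 : (c + 3) * c.factorial ≤ (c + 2) * ((c + 1) * c.factorial) := by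
      rw [← mul_assoc]
      exact Nat.mul_le_mul_right _ (by nlinarith)
    calc (c + 3) ^ 2 * ((c + 3) / 2).factorial ≤ (c + 3) ^ 2 * c.factorial :=
          Nat.mul_le_mul_left _ h2
      _ = (c + 3) * ((c + 3) * c.factorial) := by ring
      _ ≤ _ := Nat.mul_le_mul_left _ h5
  calc (c + 3) ^ 4 * (((c + 3) / 2).factorial) ^ 2
      = ((c + 3) ^ 2 * ((c + 3) / 2).factorial) ^ 2 := by ring
    _ ≤ _ := Nat.pow_le_pow_left h4 2

/-- The key step: a subgroup of small index with smaller degrees. -/
theorem exists_subgroup (G : Type u) [Group G] [Finite G] {b : ℕ} (h : Bd G b)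
    (hG : ¬ ∀ x y : G, x * y = y * x) :
    ∃ (H : Subgroup G) (c : ℕ), c < b ∧ Bd H c ∧
      H.index * (c.factorial) ^ 2 ≤ (b.factorial) ^ 2 := by
  classical
  have := Fintype.ofFinite G
  have hb0 := h.pos
  -- a maximal normal subgroup with nonabelian quotient
  obtain ⟨K, hK, hKmax⟩ : ∃ K : Subgroup G, (K.Normal ∧ ¬ commutator G ≤ K) ∧
      ∀ N : Subgroup G, N.Normal → K < N → commutator G ≤ N := by
    have hfin : {K : Subgroup G | K.Normal ∧ ¬ commutator G ≤ K}.Finite := Set.toFinite _
    obtain ⟨K, hK⟩ := hfin.exists_maximal ⟨⊥, inferInstance, fun h1 =>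
      hG (comm_iff_commutator.2 (le_bot_iff.1 h1))⟩
    refine ⟨K, hK.1, fun N hN hKN => ?_⟩
    by_contra hc
    exact hKN.not_ge (hK.2 ⟨hN, hc⟩ hKN.le)
  obtain ⟨hKn, hKc⟩ := hK
  have hπ := QuotientGroup.mk'_surjective K
  have hcomm : commutator (G ⧸ K) = (commutator G).map (QuotientGroup.mk' K) := by
    rw [commutator_def, commutator_def, Subgroup.map_commutator,
      Subgroup.map_top_of_surjective _ hπ]
  have hQ : ∀ N : Subgroup (G ⧸ K), N.Normal → N ≠ ⊥ → commutator (G ⧸ K) ≤ N := by
    intro N hN hne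
    rw [hcomm, Subgroup.map_le_iff_le_comap]
    apply hKmax _ (hN.comap _)
    refine lt_of_le_of_ne ?_ ?_
    · intro k hk
      rw [Subgroup.mem_comap, QuotientGroup.mk'_apply, (QuotientGroup.eq_one_iff k).2 hk]
      exact N.one_mem
    · intro h1
      apply hne
      rw [← Subgroup.map_comap_eq_self_of_surjective hπ N, ← h1, QuotientGroup.map_mk'_self]
  have hnc : ¬ ∀ x y : G ⧸ K, x * y = y * x := by
    intro h1
    rw [comm_iff_commutator, hcomm, Subgroup.map_eq_bot_iff, QuotientGroup.ker_mk'] at h1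
    exact hKc h1
  have hQb : Bd (G ⧸ K) b := h.comp (QuotientGroup.mk' K) hπ
  -- a subgroup of index at most `b²` with smaller degrees is enough
  have fin : ∀ H : Subgroup G, H.index ≤ b ^ 2 → Bd H (b - 1) →
      ∃ (H : Subgroup G) (c : ℕ), c < b ∧ Bd H c ∧
        H.index * (c.factorial) ^ 2 ≤ (b.factorial) ^ 2 := by
    intro H h1 h2
    refine ⟨H, b - 1, by omega, h2, ?_⟩
    calc H.index * ((b - 1).factorial) ^ 2 ≤ b ^ 2 * ((b - 1).factorial) ^ 2 :=
          Nat.mul_le_mul_right _ h1
      _ = (b * (b - 1).factorial) ^ 2 := by ring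
      _ = _ := by rw [Nat.mul_factorial_pred hb0.ne']
  by_cases hZ : Subgroup.center (G ⧸ K) = ⊥
  · have hcne : commutator (G ⧸ K) ≠ ⊥ := fun h1 => hnc (comm_iff_commutator.2 h1)
    by_cases hab : ∀ x ∈ commutator (G ⧸ K), ∀ y ∈ commutator (G ⧸ K), x * y = y * x
    · -- Frobenius type
      have h1 := index_le hQ hab hcne hZ hQb
      set R : Subgroup G := (commutator (G ⧸ K)).comap (QuotientGroup.mk' K) with hR
      have hRn : R.Normal := (inferInstance : (commutator (G ⧸ K)).Normal).comap _
      have hRi : R.index = (commutator (G ⧸ K)).index := Subgroup.index_comap_of_surjective _ hπ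
      have hKR : K ≤ R := by
        intro k hk
        rw [hR, Subgroup.mem_comap, QuotientGroup.mk'_apply, (QuotientGroup.eq_one_iff k).2 hk]
        exact one_mem _
      obtain ⟨H, h2, h3⟩ := h.exists_of_chief R K (lt_of_le_of_ne hKR (by
          intro h2
          apply hcne
          rw [← Subgroup.map_comap_eq_self_of_surjective hπ (commutator (G ⧸ K)), ← hR, ← h2,
            QuotientGroup.map_mk'_self])) (by
          intro M hM hKM hMR
          by_cases hMK : M = K
          · exact Or.inl hMK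
          · right
            apply le_antisymm hMR
            have h2 := hKmax M hM (lt_of_le_of_ne hKM (Ne.symm hMK))
            rw [hR, hcomm]
            intro g hg
            rw [Subgroup.mem_comap] at hg
            obtain ⟨c, hc, hc'⟩ := hg
            rw [QuotientGroup.mk'_apply, QuotientGroup.mk'_apply, QuotientGroup.eq] at hc'
            have h3 : g = c * (c⁻¹ * g) := by group
            rw [h3]
            exact M.mul_mem (h2 hc) (hKM hc')) (by
          rw [Subgroup.commutator_le]
          intro x hx y hy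
          rw [← QuotientGroup.eq_one_iff, ← QuotientGroup.mk'_apply, map_commutatorElement,
            commutatorElement_eq_one_iff_mul_comm]
          exact hab _ hx _ hy) hnc (by rw [hRi]; exact h1)
      exact fin H h2 h3
    · -- nonsolvable case
      have hnt : Nontrivial (G ⧸ K) := by
        by_contra h1
        rw [not_nontrivial_iff_subsingleton] at h1
        exact hnc fun x y => Subsingleton.elim _ _
      obtain ⟨x, hx1, hx⟩ := exists_small_class hQb
      have hcore := normalCore_eq_bot hQ hab hx1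
      set H : Subgroup G := (Subgroup.centralizer ({x} : Set (G ⧸ K))).comap (QuotientGroup.mk' K)
        with hH
      have hHi : H.index ≤ b ^ 2 := by
        rw [hH, Subgroup.index_comap_of_surjective _ hπ]
        exact hx
      by_cases hHb : Bd H (b - 1)
      · exact fin H hHi hHb
      obtain ⟨η, hη, hηb⟩ := h.exists_eq hHb
      have h1 := h.relIndex_core_le H hη hηb
      have hHK : H.normalCore ≤ K := by
        intro g hg
        have h2 : QuotientGroup.mk' K g ∈ (Subgroup.centralizer ({x} : Set (G ⧸ K))).normalCore := by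
          intro y
          obtain ⟨y, rfl⟩ := hπ y
          have h3 : y * g * y⁻¹ ∈ H := hg y
          rw [hH, Subgroup.mem_comap] at h3
          rw [map_mul, map_mul, map_inv] at h3
          exact h3
        rw [hcore, Subgroup.mem_bot, QuotientGroup.mk'_apply, QuotientGroup.eq_one_iff] at h2
        exact h2
      have hKi : K.index ≤ b ^ 4 := by
        have h2 : K.index ≤ H.normalCore.index := Subgroup.index_antitone hHK
        have h3 : H.normalCore.relIndex H * H.index = H.normalCore.index :=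
          Subgroup.relIndex_mul_index H.normalCore_le
        have h4 := Nat.mul_le_mul h1 hHi
        rw [h3] at h4
        calc K.index ≤ _ := h2
          _ ≤ _ := h4
          _ = b ^ 4 := by ring
      have hb5 : 5 ≤ b := by
        by_contra hb
        exact false_of_le_four hQ hab (hQb.mono (by omega))
      refine ⟨K, b / 2, by omega, h.half K hnc, ?_⟩
      exact (Nat.mul_le_mul_right _ hKi).trans (factorial_ineq hb5)
  · -- nontrivial centre
    obtain ⟨ζ, hζ, hζ2, hv, hi⟩ := exists_of_center hQ hnc hZ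
    have hζ' : IsIrrCharacter G (ζ ∘ QuotientGroup.mk' K) := isIrr_comp _ hπ hζ
    have hdeg : charDegree (ζ ∘ QuotientGroup.mk' K) = charDegree ζ := by
      have h4 := apply_one hζ'
      rw [Function.comp_apply, map_one, apply_one hζ] at h4
      exact_mod_cast h4.symm
    have hHi : ((Subgroup.center (G ⧸ K)).comap (QuotientGroup.mk' K)).index = charDegree ζ ^ 2 := by
      rw [Subgroup.index_comap_of_surjective _ hπ, hi]
    apply fin ((Subgroup.center (G ⧸ K)).comap (QuotientGroup.mk' K))
    · rw [hHi]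
      exact Nat.pow_le_pow_left (hQb ζ hζ) 2
    · by_contra hc
      obtain ⟨η, hη, hηb⟩ := h.exists_eq hc
      have h1 := h.index_le_of_vanish _ hη hηb hζ' (fun g hg => hv _ hg)
      rw [hHi, hdeg] at h1
      nlinarith

/-- The main result. -/
theorem main (b : ℕ) : ∀ (G : Type u) [Group G] [Finite G], Bd G b →
    ∃ A : Subgroup G, (∀ x ∈ A, ∀ y ∈ A, x * y = y * x) ∧ A.index ≤ (b.factorial) ^ 2 := by
  induction b using Nat.strong_induction_on with
  | _ b ih =>
    intro G _ _ h
    by_cases hG : ∀ x y : G, x * y = y * x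
    · refine ⟨⊤, fun x _ y _ => hG x y, ?_⟩
      rw [Subgroup.index_top]
      exact Nat.one_le_pow _ _ (Nat.factorial_pos b)
    · obtain ⟨H, c, hc, hHc, hi⟩ := exists_subgroup G h hG
      obtain ⟨A, hA, hAi⟩ := ih c hc H hHc
      refine ⟨A.map H.subtype, ?_, ?_⟩
      · rintro _ ⟨x, hx, rfl⟩ _ ⟨y, hy, rfl⟩
        rw [← map_mul, ← map_mul, hA x hx y hy]
      · rw [Subgroup.index_map_subtype]
        calc A.index * H.index ≤ (c.factorial) ^ 2 * H.index := Nat.mul_le_mul_right _ hAi
          _ = H.index * (c.factorial) ^ 2 := mul_comm _ _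
          _ ≤ _ := hi

end Cfsg.Agent.H598.AbelianIndex
end

-- part: S4463
section
set_option autoImplicit false
open Cfsg

namespace Cfsg.Agent.S4463

/-- Let b be the largest irreducible character degree of the finite group G. Then G has an abelian subgroup of index at most (b!)². -/
theorem result {G : Type*} [Group G] [Finite G] (b : ℕ) (hb : IsGreatest {d : ℕ | ∃ χ : Cfsg.IrrCharacter G, Cfsg.charDegree (χ : G → ℂ) = d} b) : ∃ A : Subgroup G, (∀ x ∈ A, ∀ y ∈ A, x * y = y * x) ∧ A.index ≤ (Nat.factorial b) ^ 2 := by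
  obtain ⟨A, hA, hi⟩ := Cfsg.Agent.H598.AbelianIndex.main b G
    (fun χ hχ => hb.2 ⟨⟨χ, hχ⟩, rfl⟩)
  exact ⟨A, hA, hi⟩

end Cfsg.Agent.S4463
end
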