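import Mathlib
import Cfsg.Prelude.Def_Characters
import Cfsg.Agent.H599.Galois
import Cfsg.Agent.Characters.DegreeBounds
import Cfsg.Agent.S0185
import Cfsg.Statements.S4465
set_option linter.all false

-- part: H599/Hall
section
/-!
# Blichfeldt: abelian Hall subgroups of linear groups for the primes larger than `n + 1`
-/

set_option autoImplicit false

namespace Cfsg.Agent.H599.Hall

open Module Cfsg Cfsg.Agent.Characters Cfsg.Agent.Characters.Core

universe u

/-- `G` has an abelian Hall subgroup for the primes larger than `N + 1`. -/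
def HallProp (N : ℕ) (G : Type*) [Group G] : Prop :=
  ∃ A : Subgroup G, (∀ x ∈ A, ∀ y ∈ A, x * y = y * x) ∧
    (∀ q : ℕ, q.Prime → q ∣ Nat.card A → N + 1 < q) ∧
    ∀ q : ℕ, q.Prime → q ∣ A.index → q ≤ N + 1

section basic

variable {G : Type*} [Group G]

theorem HallProp.up {N : ℕ} {H : Subgroup G} (h : HallProp N H)
    (hidx : ∀ q : ℕ, q.Prime → q ∣ H.index → q ≤ N + 1) : HallProp N G := by
  obtain ⟨A, hA, hA1, hA2⟩ := h
  refine ⟨A.map H.subtype, ?_, ?_, ?_⟩
  · rintro _ ⟨x, hx, rfl⟩ _ ⟨y, hy, rfl⟩
    exact congrArg Subtype.val (hA x hx y hy)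
  · intro q hq hdvd
    rw [Nat.card_congr (A.equivMapOfInjective _ H.subtype_injective).symm.toEquiv] at hdvd
    exact hA1 q hq hdvd
  · intro q hq hdvd
    rw [Subgroup.index_map_subtype] at hdvd
    rcases hq.dvd_mul.1 hdvd with h | h
    · exact hA2 q hq h
    · exact hidx q hq h

/-- An `r`-element is conjugate into every subgroup of index prime to `r`. -/
theorem conj_into [Finite G] {r : ℕ} (hr : r.Prime) {A : Subgroup G} (hA : ¬ r ∣ A.index) {w : G}
    (hw : ∃ k : ℕ, w ^ r ^ k = 1) : ∃ g : G, g⁻¹ * w * g ∈ A := by
  have := Fact.mk hr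
  have hZ : IsPGroup r (Subgroup.zpowers w) := by
    obtain ⟨k, hk⟩ := hw
    rintro ⟨y, hy⟩
    obtain ⟨j, rfl⟩ := Subgroup.mem_zpowers_iff.1 hy
    refine ⟨k, Subtype.ext ?_⟩
    show (w ^ j) ^ r ^ k = 1
    rw [← zpow_natCast, ← zpow_mul, mul_comm, zpow_mul, zpow_natCast, hk, one_zpow]
  obtain ⟨a, ha⟩ := hZ.nonempty_fixed_point_of_prime_not_dvd_card (G ⧸ A) (by
    rwa [← Subgroup.index_eq_card])
  obtain ⟨g, rfl⟩ := QuotientGroup.mk_surjective a
  refine ⟨g, ?_⟩
  have h1 := ha ⟨w, Subgroup.mem_zpowers w⟩
  have h2 : ((w * g : G) : G ⧸ A) = (g : G ⧸ A) := h1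
  rw [QuotientGroup.eq] at h2
  have h3 := A.inv_mem h2
  have h4 : ((w * g)⁻¹ * g)⁻¹ = g⁻¹ * w * g := by group
  rwa [h4] at h3

theorem le_centralizer_of_comm {A : Subgroup G} (hA : ∀ x ∈ A, ∀ y ∈ A, x * y = y * x) {a : G}
    (ha : a ∈ A) : A ≤ Subgroup.centralizer ({a} : Set G) := by
  intro x hx
  rw [Subgroup.mem_centralizer_singleton_iff]
  exact hA x hx a ha

end basic

section rep

variable {G : Type*} [Group G] {V : Type*} [AddCommGroup V] [Module ℂ V]

theorem exists_quot_rep (ρ : Representation ℂ G V) (K : Subgroup G) [K.Normal]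
    (hK : ∀ g, g ∈ K ↔ ρ g = 1) :
    ∃ σ : Representation ℂ (G ⧸ K) V, Function.Injective σ ∧ ∀ g : G, σ (g : G ⧸ K) = ρ g := by
  have hle : K ≤ MonoidHom.ker (ρ : G →* Module.End ℂ V) := fun g hg => by
    rw [MonoidHom.mem_ker]
    exact (hK g).1 hg
  refine ⟨QuotientGroup.lift K (ρ : G →* Module.End ℂ V) hle, ?_, fun g => rfl⟩
  rw [injective_iff_map_eq_one]
  intro a ha
  obtain ⟨g, rfl⟩ := QuotientGroup.mk_surjective a
  rw [QuotientGroup.eq_one_iff, hK]
  exact ha

variable [Finite G] [FiniteDimensional ℂ V]

/-- Sylow subgroups for primes larger than the degree are abelian, so the centralizer of an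
`r`-element has index prime to `r`. -/
theorem not_dvd_index_centralizer (ρ : Representation ℂ G V) (hρ : Function.Injective ρ) {r : ℕ}
    (hr : r.Prime) (hnr : finrank ℂ V < r) {x : G} (hx : ∃ k : ℕ, x ^ r ^ k = 1) :
    ¬ r ∣ (Subgroup.centralizer ({x} : Set G)).index := by
  have := Fact.mk hr
  have hZ : IsPGroup r (Subgroup.zpowers x) := by
    obtain ⟨k, hk⟩ := hx
    rintro ⟨y, hy⟩
    obtain ⟨j, rfl⟩ := Subgroup.mem_zpowers_iff.1 hy
    refine ⟨k, Subtype.ext ?_⟩
    show (x ^ j) ^ r ^ k = 1
    rw [← zpow_natCast, ← zpow_mul, mul_comm, zpow_mul, zpow_natCast, hk, one_zpow]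
  obtain ⟨P, hP⟩ := hZ.exists_le_sylow
  have hcomm : ∀ a ∈ (P : Subgroup G), ∀ b ∈ (P : Subgroup G), a * b = b * a := by
    intro a ha b hb
    have h1 := Cfsg.Agent.S0185.result (G := P) (V := V)
      (show Representation ℂ P V from ρ.comp (P : Subgroup G).subtype)
      (fun x y hxy => Subtype.ext (hρ hxy)) (fun q hq hdvd => by
        obtain ⟨k, hk⟩ := IsPGroup.iff_card.1 P.isPGroup'
        rw [hk] at hdvd
        have : q = r := (Nat.prime_dvd_prime_iff_eq hq hr).1 (hq.dvd_of_dvd_pow hdvd)
        rw [this]
        exact hnr) ⟨a, ha⟩ ⟨b, hb⟩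
    exact congrArg Subtype.val h1
  intro hdvd
  apply P.not_dvd_index
  exact hdvd.trans (Subgroup.index_dvd_of_le
    (le_centralizer_of_comm hcomm (hP (Subgroup.mem_zpowers x))))

end rep

/-- The twist by a power of the determinant: if the prime `p` larger than the degree divides the
order of the centre then a quotient by a nontrivial normal `p`-subgroup has a faithful
representation of the same degree. -/
theorem exists_twist {G : Type*} [Group G] [Finite G] {V : Type*} [AddCommGroup V] [Module ℂ V]
    [FiniteDimensional ℂ V] (ρ : Representation ℂ G V) (hirr : ρ.IsIrreducible)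
    (hρ : Function.Injective ρ) {p : ℕ} (hp : p.Prime) (hn : finrank ℂ V < p)
    (hn0 : 0 < finrank ℂ V)
    (hpZ : p ∣ Nat.card (Subgroup.center G)) :
    ∃ (K : Subgroup G) (_ : K.Normal), K ≠ ⊥ ∧ IsPGroup p K ∧
      ∃ σ : Representation ℂ (G ⧸ K) V, Function.Injective σ := by
  classical
  have := Fact.mk hp
  obtain ⟨a, b, hb, hab⟩ := Nat.exists_eq_pow_mul_and_not_dvd (Nat.card_pos (α := G)).ne' p
    hp.one_lt.ne'
  have hcop : (p ^ a).Coprime b :=
    Nat.Coprime.pow_left a ((Nat.Prime.coprime_iff_not_dvd hp).2 hb)
  -- `k ≡ 0 mod b`, `n k ≡ -1 mod p ^ a`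
  obtain ⟨k, hkb, hkp⟩ : ∃ k : ℕ, b ∣ k ∧ p ^ a ∣ finrank ℂ V * k + 1 := by
    have hnc : (finrank ℂ V).Coprime (p ^ a) := by
      apply Nat.Coprime.pow_right
      rw [Nat.coprime_comm, Nat.Prime.coprime_iff_not_dvd hp]
      intro h
      have := Nat.le_of_dvd hn0 h
      omega
    obtain ⟨c, hc⟩ : ∃ c : ℕ, p ^ a ∣ finrank ℂ V * c + 1 := by
      by_cases ha : a = 0
      · exact ⟨0, by rw [ha, pow_zero]; exact one_dvd _⟩
      obtain ⟨d, hd⟩ := Nat.exists_mul_mod_eq_one_of_coprime hnc (Nat.one_lt_pow ha hp.one_lt)
      refine ⟨d * (p ^ a - 1), ?_⟩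
      have h1 : finrank ℂ V * d ≡ 1 [MOD p ^ a] := by
        rw [Nat.ModEq, hd.2, Nat.mod_eq_of_lt (Nat.one_lt_pow ha hp.one_lt)]
      have h2 : finrank ℂ V * (d * (p ^ a - 1)) + 1 ≡ 0 [MOD p ^ a] := by
        have h3 : finrank ℂ V * (d * (p ^ a - 1)) + 1 ≡ 1 * (p ^ a - 1) + 1 [MOD p ^ a] := by
          rw [← mul_assoc]
          exact Nat.ModEq.add_right 1 (Nat.ModEq.mul_right _ h1)
        refine h3.trans ?_
        have h4 : 1 * (p ^ a - 1) + 1 = p ^ a := by
          have : 0 < p ^ a := pow_pos hp.pos a
          omega
        rw [h4]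
        exact (Nat.modEq_zero_iff_dvd).2 dvd_rfl
      exact (Nat.modEq_zero_iff_dvd).1 h2
    obtain ⟨k, hk1, hk2⟩ := Nat.chineseRemainder hcop c 0
    refine ⟨k, (Nat.modEq_zero_iff_dvd).1 hk2, ?_⟩
    apply (Nat.modEq_zero_iff_dvd).1
    have h1 : finrank ℂ V * k + 1 ≡ finrank ℂ V * c + 1 [MOD p ^ a] :=
      Nat.ModEq.add_right 1 (Nat.ModEq.mul_left _ hk1)
    exact h1.trans ((Nat.modEq_zero_iff_dvd).2 hc)
  let δ : G →* ℂ := (LinearMap.det : Module.End ℂ V →* ℂ).comp (ρ : G →* Module.End ℂ V)
  let ρ' : Representation ℂ G V :=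
    { toFun := fun g => (δ g) ^ k • ρ g
      map_one' := by rw [map_one, map_one, one_pow, one_smul]
      map_mul' := fun g h => by
        rw [map_mul, map_mul, mul_pow, smul_mul_smul_comm] }
  have hρ' : ∀ g, ρ' g = (δ g) ^ k • ρ g := fun g => rfl
  let K : Subgroup G := MonoidHom.ker (ρ' : G →* Module.End ℂ V)
  have hKmem : ∀ g, g ∈ K ↔ ρ' g = 1 := fun g => MonoidHom.mem_ker
  have hKn : K.Normal := MonoidHom.normal_ker _
  -- a central element of order `p`
  obtain ⟨z, hz⟩ := exists_prime_orderOf_dvd_card' p hpZ
  have hzo : orderOf (z : G) = p := by rw [Subgroup.orderOf_coe, hz]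
  have hzK : (z : G) ∈ K := by
    rw [hKmem, hρ']
    -- `z` acts as a scalar
    obtain ⟨c, hc⟩ := Central.exists_smul_of_comm ρ hirr (ρ (z : G)) (fun g => by
      rw [← map_mul, ← map_mul, Subgroup.mem_center_iff.1 z.2 g])
    have hcp : c ^ p = 1 := by
      have h1 : ρ (z : G) ^ p = 1 := by
        rw [← map_pow, ← hzo, pow_orderOf_eq_one, map_one]
      have h2 : ∀ j : ℕ, ρ (z : G) ^ j = c ^ j • (1 : Module.End ℂ V) := by
        intro j
        induction j with
        | zero => simp
        | succ j ih =>
          rw [pow_succ, ih, hc, smul_mul_smul_comm, one_mul, pow_succ]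
      rw [h2 p] at h1
      have : Nontrivial V := Module.nontrivial_of_finrank_pos hn0
      obtain ⟨v, hv⟩ := exists_ne (0 : V)
      have h3 := LinearMap.congr_fun h1 v
      rw [LinearMap.smul_apply, Module.End.one_apply] at h3
      have h4 : (c ^ p - 1) • v = 0 := by rw [sub_smul, one_smul, h3, sub_self]
      rcases smul_eq_zero.1 h4 with h | h
      · exact sub_eq_zero.1 h
      · exact absurd h hv
    have hδ : δ (z : G) = c ^ finrank ℂ V := by
      show LinearMap.det (ρ (z : G)) = c ^ finrank ℂ V
      rw [hc, LinearMap.det_smul, map_one, mul_one]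
    rw [hδ, hc, smul_smul, ← pow_mul, ← pow_succ]
    have hpa : p ∣ finrank ℂ V * k + 1 := by
      refine (dvd_pow_self p ?_).trans hkp
      rintro rfl
      apply hb
      have h1 : p ∣ Nat.card G := hpZ.trans (Subgroup.card_subgroup_dvd_card _)
      rw [hab, pow_zero, one_mul] at h1
      exact h1
    obtain ⟨e, he⟩ := hpa
    rw [he, pow_mul, hcp, one_pow, one_smul]
  have hKp : IsPGroup p K := by
    rintro ⟨g, hg⟩
    refine ⟨a, Subtype.ext ?_⟩
    show g ^ p ^ a = 1
    apply hρ
    rw [hKmem, hρ'] at hg
    have h1 : ((δ g) ^ k) ^ p ^ a = 1 := by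
      obtain ⟨e, rfl⟩ := hkb
      rw [← pow_mul, mul_right_comm, mul_comm b, ← hab, pow_mul, ← map_pow, pow_card_eq_one',
        map_one, one_pow]
    have h2 : ((δ g) ^ k • ρ g) ^ p ^ a = 1 := by rw [hg, one_pow]
    rw [smul_pow, h1, one_smul, ← map_pow] at h2
    rw [h2, map_one]
  refine ⟨K, hKn, ?_, hKp, ?_⟩
  · intro h
    rw [h, Subgroup.mem_bot] at hzK
    rw [hzK, orderOf_one] at hzo
    exact hp.one_lt.ne hzo
  · obtain ⟨σ, hσ, _⟩ := exists_quot_rep ρ' K hKmem
    exact ⟨σ, hσ⟩

/-- **Blichfeldt.** -/
theorem hall (N : ℕ) : ∀ (s : ℕ) (G : Type u) [Group G] [Finite G] (V : Type)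
    [AddCommGroup V] [Module ℂ V] [FiniteDimensional ℂ V] (ρ : Representation ℂ G V),
    Function.Injective ρ → finrank ℂ V ≤ N → Nat.card G + finrank ℂ V ≤ s → HallProp N G := by
  intro s
  induction s with
  | zero =>
    intro G _ _ V _ _ _ ρ _ _ hs
    have := Nat.card_pos (α := G)
    omega
  | succ s ih =>
    intro G _ _ V _ _ _ ρ hρ hN hs
    classical
    -- the trivial case
    by_cases hV : finrank ℂ V = 0
    · have hVs : Subsingleton V := Module.finrank_zero_iff.1 hV
      have hG : Subsingleton G := by
        refine ⟨fun a b => hρ ?_⟩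
        ext v
        exact Subsingleton.elim _ _
      refine ⟨⊤, fun x _ y _ => Subsingleton.elim _ _, ?_, ?_⟩
      · intro q hq h
        have h1 : Nat.card (⊤ : Subgroup G) = 1 := Nat.card_eq_one_iff_unique.2
          ⟨inferInstance, ⟨1⟩⟩
        rw [h1] at h
        exact absurd (Nat.dvd_one.1 h) hq.ne_one
      · intro q hq h
        rw [Subgroup.index_top] at h
        exact absurd (Nat.dvd_one.1 h) hq.ne_one
    have hVpos : 0 < finrank ℂ V := Nat.pos_of_ne_zero hV
    have hVnt : Nontrivial V := Module.nontrivial_of_finrank_pos hVpos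
    -- proper subgroups of index prime to the primes `> N + 1`
    have hsub : ∀ H : Subgroup G, H ≠ ⊤ → HallProp N H := by
      intro H hH
      have h1 : Nat.card H < Nat.card G := by
        refine lt_of_le_of_ne (Subgroup.card_le_card_group H) fun h => hH ?_
        exact Subgroup.eq_top_of_card_eq H h
      exact ih H V (show Representation ℂ H V from ρ.comp H.subtype)
        (fun a b hab => Subtype.ext (hρ hab)) hN (by omega)
    obtain ⟨U, hU⟩ := exists_irreducible_sub ρ
    obtain ⟨U', hU'⟩ := exists_isCompl_sub U
    have hdim := Submodule.finrank_add_eq_of_isCompl hU'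
    by_cases hU'0 : finrank ℂ U'.toSubmodule = 0
    · -- the irreducible case
      have hirr : ρ.IsIrreducible := by
        apply isIrreducible_of_isIrrCharacter
        rw [character_eq_add_of_isCompl U U' hU']
        have h1 : U'.toRepresentation.character = 0 := by
          have hs : Subsingleton U'.toSubmodule := Module.finrank_zero_iff.1 hU'0
          funext g
          rw [Representation.character]
          have : (U'.toRepresentation g) = 0 := by
            ext v
            exact congrArg Subtype.val (Subsingleton.elim _ _)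
          rw [this, map_zero]
          rfl
        rw [h1, add_zero]
        exact isIrrCharacter_of_rep _ hU
      by_cases hZ : ∃ p : ℕ, p.Prime ∧ N + 1 < p ∧ p ∣ Nat.card (Subgroup.center G)
      · obtain ⟨p, hp, hNp, hpZ⟩ := hZ
        have := Fact.mk hp
        obtain ⟨K, hKn, hK0, hKp, σ, hσ⟩ := exists_twist ρ hirr hρ hp (by omega) hVpos hpZ
        have hcard := Subgroup.card_eq_card_quotient_mul_card_subgroup K
        have hK1 : 1 < Nat.card K := by
          rw [Nat.one_lt_iff_ne_zero_and_ne_one]
          exact ⟨Nat.card_pos.ne', fun h => hK0 (Subgroup.card_eq_one.1 h)⟩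
        have hlt : Nat.card (G ⧸ K) < Nat.card G := by
          rw [hcard]
          have := Nat.card_pos (α := G ⧸ K)
          nlinarith
        obtain ⟨A₁, hA, hA1, hA2⟩ := ih (G ⧸ K) V σ hσ hN (by omega)
        set A := A₁.comap (QuotientGroup.mk' K) with hAdef
        have hidx : A.index = A₁.index :=
          Subgroup.index_comap_of_surjective A₁ (QuotientGroup.mk'_surjective K)
        have hcardA : Nat.card A = Nat.card A₁ * Nat.card K := by
          have h1 := Subgroup.card_mul_index A
          have h2 := Subgroup.card_mul_index A₁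
          have h3 : 0 < A.index := Nat.pos_of_ne_zero (Subgroup.index_ne_zero_of_finite)
          apply Nat.eq_of_mul_eq_mul_right h3
          rw [h1, hcard, ← h2, hidx]
          ring
        have hprimes : ∀ q : ℕ, q.Prime → q ∣ Nat.card A → N + 1 < q := by
          intro q hq hdvd
          rw [hcardA] at hdvd
          rcases hq.dvd_mul.1 hdvd with h | h
          · exact hA1 q hq h
          · obtain ⟨j, hj⟩ := IsPGroup.iff_card.1 hKp
            rw [hj] at h
            have : q = p := (Nat.prime_dvd_prime_iff_eq hq hp).1 (hq.dvd_of_dvd_pow h)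
            omega
        refine ⟨A, ?_, hprimes, ?_⟩
        · intro x hx y hy
          have h1 := Cfsg.Agent.S0185.result (G := A) (V := V)
            (show Representation ℂ A V from ρ.comp A.subtype)
            (fun a b hab => Subtype.ext (hρ hab)) (fun q hq hdvd => by
              have := hprimes q hq hdvd
              omega) ⟨x, hx⟩ ⟨y, hy⟩
          exact congrArg Subtype.val h1
        · intro q hq hdvd
          rw [hidx] at hdvd
          exact hA2 q hq hdvd
      · push Not at hZ
        by_cases hp0 : ∃ p : ℕ, p.Prime ∧ N + 1 < p ∧ p ∣ Nat.card G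
        · obtain ⟨p, hp, hNp, hpG⟩ := hp0
          have := Fact.mk hp
          obtain ⟨x₀, hx₀⟩ := exists_prime_orderOf_dvd_card' p hpG
          have hproper : ∀ (r : ℕ) (x : G), r.Prime → N + 1 < r → orderOf x = r →
              Subgroup.centralizer ({x} : Set G) ≠ ⊤ := by
            intro r x hr hNr hx htop
            apply hZ r hr hNr
            have h1 : x ∈ Subgroup.center G := by
              rw [Subgroup.mem_center_iff]
              intro g
              have h2 : g ∈ Subgroup.centralizer ({x} : Set G) := by rw [htop]; trivial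
              rwa [Subgroup.mem_centralizer_singleton_iff] at h2
            rw [← hx, ← Subgroup.orderOf_mk x h1]
            exact orderOf_dvd_natCard _
          have hpow : ∀ (r : ℕ) (x : G), orderOf x = r → ∃ k : ℕ, x ^ r ^ k = 1 := by
            intro r x hx
            exact ⟨1, by rw [pow_one, ← hx, pow_orderOf_eq_one]⟩
          -- the index of the centralizer of `x₀`
          have hidx : ∀ q : ℕ, q.Prime → q ∣ (Subgroup.centralizer ({x₀} : Set G)).index →
              q ≤ N + 1 := by
            intro q hq hdvd
            by_contra hNq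
            push Not at hNq
            by_cases hqp : q = p
            · subst hqp
              exact not_dvd_index_centralizer ρ hρ hp (by omega) (hpow q x₀ hx₀) hdvd
            by_cases hqG : q ∣ Nat.card G
            · obtain ⟨x, y, hxy, hx, hy⟩ := Cfsg.Agent.H599.Galois.exists_commuting ρ hρ hirr hp hq
                (by omega) (by omega) hpG hqG
              set C := Subgroup.centralizer ({x} : Set G) with hC
              obtain ⟨A, hA, hA1, hA2⟩ := hsub C (hproper p x hp hNp hx)
              have hyC : y ∈ C := by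
                rw [hC, Subgroup.mem_centralizer_singleton_iff]
                exact hxy.symm
              obtain ⟨c, hc⟩ := conj_into (G := C) hq (A := A)
                (fun h => by have := hA2 q hq h; omega) (w := ⟨y, hyC⟩)
                ⟨1, Subtype.ext (by
                  show y ^ q ^ 1 = 1
                  rw [pow_one, ← hy, pow_orderOf_eq_one])⟩
              -- `y' = c⁻¹ y c`
              set y' : G := (c : G)⁻¹ * y * c with hy'
              have hy'o : orderOf y' = q := by
                have h1 : y' = MulAut.conj (c : G)⁻¹ y := by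
                  rw [MulAut.conj_apply, inv_inv]
                rw [h1, MulEquiv.orderOf_eq, hy]
              have hAle : A.map C.subtype ≤ Subgroup.centralizer ({y'} : Set G) := by
                apply le_centralizer_of_comm
                · rintro _ ⟨a, ha, rfl⟩ _ ⟨b, hb, rfl⟩
                  exact congrArg Subtype.val (hA a ha b hb)
                · exact ⟨_, hc, rfl⟩
              have hp1 : ¬ p ∣ (Subgroup.centralizer ({y'} : Set G)).index := by
                intro h
                have h2 := h.trans (Subgroup.index_dvd_of_le hAle)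
                rw [Subgroup.index_map_subtype] at h2
                rcases hp.dvd_mul.1 h2 with h3 | h3
                · have := hA2 p hp h3; omega
                · exact not_dvd_index_centralizer ρ hρ hp (by omega) (hpow p x hx) h3
              have hq1 : ¬ q ∣ (Subgroup.centralizer ({y'} : Set G)).index :=
                not_dvd_index_centralizer ρ hρ hq (by omega) (hpow q y' hy'o)
              set D := Subgroup.centralizer ({y'} : Set G) with hD
              obtain ⟨B, hB, hB1, hB2⟩ := hsub D (hproper q y' hq hNq hy'o)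
              have hBidx : ∀ r : ℕ, r.Prime → N + 1 < r → ¬ r ∣ D.index →
                  ¬ r ∣ (B.map D.subtype).index := by
                intro r hr hNr hrD h
                rw [Subgroup.index_map_subtype] at h
                rcases hr.dvd_mul.1 h with h3 | h3
                · have := hB2 r hr h3; omega
                · exact hrD h3
              obtain ⟨g, hg⟩ := conj_into hp (hBidx p hp hNp hp1) (hpow p x₀ hx₀)
              have hBle : (B.map D.subtype).map (MulAut.conj g).toMonoidHom ≤
                  Subgroup.centralizer ({x₀} : Set G) := by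
                apply le_centralizer_of_comm
                · rintro _ ⟨_, ⟨a, ha, rfl⟩, rfl⟩ _ ⟨_, ⟨b, hb, rfl⟩, rfl⟩
                  rw [← map_mul, ← map_mul, ← map_mul, ← map_mul, hB a ha b hb]
                · refine ⟨_, hg, ?_⟩
                  show g * (g⁻¹ * x₀ * g) * g⁻¹ = x₀
                  group
              apply hBidx q hq hNq hq1
              have h5 : ((B.map D.subtype).map (MulAut.conj g).toMonoidHom).index =
                  (B.map D.subtype).index := Subgroup.index_map_equiv _ (MulAut.conj g)
              rw [← h5]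
              exact hdvd.trans (Subgroup.index_dvd_of_le hBle)
            · exact hqG (hdvd.trans (Subgroup.index_dvd_card _))
          exact (hsub _ (hproper p x₀ hp hNp hx₀)).up hidx
        · push Not at hp0
          refine ⟨⊥, ?_, ?_, ?_⟩
          · intro x hx y hy
            rw [Subgroup.mem_bot] at hx hy
            rw [hx, hy]
          · intro q hq h
            rw [Subgroup.card_bot] at h
            exact absurd (Nat.dvd_one.1 h) hq.ne_one
          · intro q hq h
            rw [Subgroup.index_bot] at h
            by_contra hcon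
            push Not at hcon
            exact hp0 q hq hcon h
    · -- the reducible case
      have hU0 : 0 < finrank ℂ U.toSubmodule := by
        have : Nontrivial U.toSubmodule := by
          by_contra hc
          rw [not_nontrivial_iff_subsingleton] at hc
          obtain ⟨a, b, hab⟩ := hU.toNontrivial
          exact hab (Subrepresentation.toSubmodule_injective (Subsingleton.elim _ _))
        exact finrank_pos
      have key : ∀ W : Subrepresentation ρ, finrank ℂ W.toSubmodule < finrank ℂ V →
          HallProp N G ∨ ((∀ a b : G, W.toRepresentation (a * b) = W.toRepresentation (b * a)) ∧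
            ∃ m : ℕ, (∀ q : ℕ, q.Prime → q ∣ m → N + 1 < q) ∧
              ∀ g : G, W.toRepresentation (g ^ m) = 1) := by
        intro W hW
        let K : Subgroup G := MonoidHom.ker (W.toRepresentation : G →* Module.End ℂ W.toSubmodule)
        have hKmem : ∀ g, g ∈ K ↔ W.toRepresentation g = 1 := fun g => MonoidHom.mem_ker
        have hKn : K.Normal := MonoidHom.normal_ker _
        obtain ⟨σ, hσ, hσg⟩ := exists_quot_rep W.toRepresentation K hKmem
        have hle : Nat.card (G ⧸ K) ≤ Nat.card G := by
          have h1 := Subgroup.card_eq_card_quotient_mul_card_subgroup K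
          have h2 := Nat.card_pos (α := K)
          rw [h1]
          exact Nat.le_mul_of_pos_right _ h2
        obtain ⟨A₁, hA, hA1, hA2⟩ := ih (G ⧸ K) W.toSubmodule σ hσ (by omega) (by omega)
        by_cases hA₁ : A₁ = ⊤
        · right
          refine ⟨fun a b => ?_, Nat.card (G ⧸ K), ?_, ?_⟩
          · rw [← hσg, ← hσg]
            congr 1
            exact hA (a : G ⧸ K) (hA₁ ▸ Subgroup.mem_top _) (b : G ⧸ K) (hA₁ ▸ Subgroup.mem_top _)
          · intro q hq hdvd
            apply hA1 q hq
            rw [hA₁, Nat.card_congr Subgroup.topEquiv.toEquiv]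
            exact hdvd
          · intro g
            rw [← hσg, QuotientGroup.mk_pow, pow_card_eq_one', map_one]
        · left
          have hidx : (A₁.comap (QuotientGroup.mk' K)).index = A₁.index :=
            Subgroup.index_comap_of_surjective A₁ (QuotientGroup.mk'_surjective K)
          apply HallProp.up (H := A₁.comap (QuotientGroup.mk' K))
          · apply hsub
            intro h
            apply hA₁
            rw [h, Subgroup.index_top] at hidx
            exact Subgroup.index_eq_one.1 hidx.symm
          · intro q hq hdvd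
            rw [hidx] at hdvd
            exact hA2 q hq hdvd
      rcases key U (by omega) with h | ⟨hc1, m₁, hm₁, hk₁⟩
      · exact h
      rcases key U' (by omega) with h | ⟨hc2, m₂, hm₂, hk₂⟩
      · exact h
      -- an element trivial on both summands is trivial
      have hext : ∀ a b : G, U.toRepresentation a = U.toRepresentation b →
          U'.toRepresentation a = U'.toRepresentation b → a = b := by
        intro a b h1 h2
        apply hρ
        refine LinearMap.ext fun v => ?_
        have hv : v ∈ U.toSubmodule ⊔ U'.toSubmodule := by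
          rw [hU'.sup_eq_top]; trivial
        obtain ⟨u, hu, u', hu', rfl⟩ := Submodule.mem_sup.1 hv
        rw [map_add, map_add]
        congr 1
        · exact congrArg Subtype.val (LinearMap.congr_fun h1 ⟨u, hu⟩)
        · exact congrArg Subtype.val (LinearMap.congr_fun h2 ⟨u', hu'⟩)
      refine ⟨⊤, fun x _ y _ => hext _ _ (hc1 x y) (hc2 x y), ?_, ?_⟩
      · intro q hq hdvd
        have := Fact.mk hq
        rw [Nat.card_congr Subgroup.topEquiv.toEquiv] at hdvd
        obtain ⟨g, hg⟩ := exists_prime_orderOf_dvd_card' q hdvd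
        have h1 : g ^ (m₁ * m₂) = 1 := by
          apply hext
          · rw [pow_mul, map_pow, hk₁, one_pow, map_one]
          · rw [mul_comm, pow_mul, map_pow, hk₂, one_pow, map_one]
        have h2 : q ∣ m₁ * m₂ := by
          rw [← hg]
          exact orderOf_dvd_of_pow_eq_one h1
        rcases hq.dvd_mul.1 h2 with h | h
        · exact hm₁ q hq h
        · exact hm₂ q hq h
      · intro q hq h
        rw [Subgroup.index_top] at h
        exact absurd (Nat.dvd_one.1 h) hq.ne_one

end Cfsg.Agent.H599.Hall
end

-- part: S4465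
section
set_option autoImplicit false
open Cfsg

namespace Cfsg.Agent.S4465

/-- Let the finite group G have a faithful character χ of degree n (G is a linear group of degree n), and let π be the set of primes greater than n + 1. Then G has an abelian Hall π-subgroup: an abelian subgroup A whose order is divisible only by primes greater than n + 1 and whose index is divisible by no prime greater than n + 1. -/
theorem result {G : Type*} [Group G] [Finite G] (χ : G → ℂ) (hχ : Cfsg.IsCharacter G χ) (hfaith : ∀ g : G, χ g = χ 1 → g = 1) (n : ℕ) (hn : Cfsg.charDegree χ = n) : ∃ A : Subgroup G, (∀ x ∈ A, ∀ y ∈ A, x * y = y * x) ∧ (∀ q : ℕ, q.Prime → q ∣ Nat.card A → n + 1 < q) ∧ ∀ q : ℕ, q.Prime → q ∣ A.index → q ≤ n + 1 := by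
  obtain ⟨m, ρ, rfl⟩ := hχ
  have hm : m = n := by
    rw [← hn, charDegree, Representation.char_one, Module.finrank_fin_fun, Complex.natCast_re,
      Nat.floor_natCast]
  subst hm
  have hρ : Function.Injective ρ := by
    rw [injective_iff_map_eq_one]
    intro g hg
    apply hfaith
    rw [Representation.character, Representation.character, hg, map_one ρ]
  exact Cfsg.Agent.H599.Hall.hall m _ G (Fin m → ℂ) ρ hρ (by rw [Module.finrank_fin_fun]) le_rfl

end Cfsg.Agent.S4465
end
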