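import Cfsg.Agent.Blocks.CyclicAssembly
import Cfsg.Agent.Blocks.CyclicUpper
import Cfsg.Agent.Blocks.ExistsModular
import Cfsg.Agent.H681.SimpleChar
import Cfsg.Agent.CharDeep.PowerDegrees
import Cfsg.Agent.Blocks.Knorr
import Cfsg.Statements.S4466
set_option linter.all false

-- part: H589/PrimeDegrees
section
/-!
# Groups all of whose nonlinear irreducible characters have prime degree

`simple_false`: a nonabelian finite simple group has a nonlinear irreducible character of
composite degree.  `isSolvable`: a finite group all of whose nonlinear irreducible characters have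
prime degree is solvable.
-/

set_option autoImplicit false
set_option linter.unusedSectionVars false

open Cfsg

namespace Cfsg.Agent.H589.PrimeDegrees

open Cfsg.Agent.Characters.Core
open Cfsg.Agent.Blocks.Basic (charDegree_of_eq irr_one_eq_charDegree charDegree_pos)
open Cfsg.Agent.H681.DegBasic Cfsg.Agent.H681.SimpleChar
open Cfsg.Agent.Blocks.CyclicGroup

universe u

/-- The degrees are one or prime. -/
def PD (G : Type u) [Group G] : Prop :=
  ∀ χ : IrrCharacter G, charDegree (χ : G → ℂ) ≠ 1 → (charDegree (χ : G → ℂ)).Prime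

theorem simple_false {S : Type u} [Group S] [Finite S] [IsSimpleGroup S]
    (hna : ¬ ∀ a b : S, a * b = b * a) (h : PD S) : False := by
  classical
  have := Fintype.ofFinite S
  have hfin := finite_irr (G := S)
  -- the largest degree
  obtain ⟨χ₀, hχ₀⟩ : ∃ χ : IrrCharacter S, charDegree (χ : S → ℂ) ≠ 1 := by
    by_contra hcon
    push Not at hcon
    apply hna
    refine Cfsg.Agent.CharDeep.PowerDegrees.comm_of_forall_linear (fun χ => ?_)
    rw [irr_one_eq_charDegree χ.2, hcon χ, Nat.cast_one]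
  have : Nonempty (IrrCharacter S) := ⟨χ₀⟩
  obtain ⟨χ₁, hχ₁⟩ := Finite.exists_max (fun χ : IrrCharacter S => charDegree (χ : S → ℂ))
  have hpr : (charDegree (χ₁ : S → ℂ)).Prime := by
    apply h
    have h1 := (h χ₀ hχ₀).one_lt
    have h2 := hχ₁ χ₀
    omega
  obtain ⟨p, hpd⟩ : ∃ p, p = charDegree (χ₁ : S → ℂ) := ⟨_, rfl⟩
  rw [← hpd] at hpr
  have hmax : ∀ χ : IrrCharacter S, charDegree (χ : S → ℂ) ≤ p := fun χ => by
    rw [hpd]; exact hχ₁ χ
  have hp := Fact.mk hpr
  have hpmem : p ∈ charDegrees S := mem_charDegrees.2 ⟨χ₁, χ₁.2, by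
    rw [hpd]; exact irr_one_eq_charDegree χ₁.2⟩
  have h2 := degree_ne_two hna
  have hp2 : p ≠ 2 := fun e => h2 (e ▸ hpmem)
  have hpodd : Odd p := hpr.odd_of_ne_two hp2
  obtain ⟨P⟩ : Nonempty (Sylow p S) := inferInstance
  have hP : Nat.card P = p := card_sylow_of_degree hna hpr hpmem P
  obtain ⟨M, hM⟩ := Cfsg.Agent.Blocks.ExistsModular.exists_isPModular hpr
  obtain ⟨e, he⟩ : ∃ e, (Subgroup.centralizer ((P : Subgroup S) : Set S)).relIndex
      (Subgroup.normalizer ((P : Subgroup S) : Set S)) = e := ⟨_, rfl⟩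
  obtain ⟨z, hz, a, n, -, hfuse, hΩ, hmul, hcard, hrows, hgram, -, hdeg⟩ :=
    Cfsg.Agent.Blocks.CyclicUpper.structure_thm hM P hP e he
      (Cfsg.Agent.Blocks.CyclicAssembly.lower P hP hM e he)
  have : Fintype ((ZMod p)ˣ ⧸ fuse z hz) := Fintype.ofFinite _
  have : Fintype (principalBlock M S) := Fintype.ofFinite _
  have hpp := hpr.two_le
  have hepos : 0 < e := by
    rcases Nat.eq_zero_or_pos e with h0 | h0
    · rw [h0, zero_mul] at hmul; omega
    · exact h0
  have hΩ' : Fintype.card ((ZMod p)ˣ ⧸ fuse z hz) = (p - 1) / e := by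
    rw [← Nat.card_eq_fintype_card, hΩ]
  have hΩpos : 0 < (p - 1) / e := by
    rw [← hΩ']; exact Fintype.card_pos
  have hep : e ≤ p - 1 := by
    calc e = e * 1 := (mul_one e).symm
      _ ≤ e * ((p - 1) / e) := Nat.mul_le_mul_left _ hΩpos
      _ = p - 1 := hmul
  -- nontrivial members of the principal block
  have hdegne : ∀ χ : IrrCharacter S, (χ : S → ℂ) ≠ 1 → charDegree (χ : S → ℂ) ≠ 1 := by
    intro χ hχ h1
    exact hχ (eq_one_of_degree_one hna χ.2 (by rw [irr_one_eq_charDegree χ.2, h1, Nat.cast_one]))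
  have hprime : ∀ χ : IrrCharacter S, (χ : S → ℂ) ≠ 1 → (charDegree (χ : S → ℂ)).Prime :=
    fun χ hχ => h χ (hdegne χ hχ)
  have hne2 : ∀ χ : IrrCharacter S, charDegree (χ : S → ℂ) ≠ 2 := by
    intro χ hχ
    exact h2 (mem_charDegrees.2 ⟨χ, χ.2, by rw [irr_one_eq_charDegree χ.2, hχ]⟩)
  have hodd : ∀ χ : IrrCharacter S, (χ : S → ℂ) ≠ 1 → Odd (charDegree (χ : S → ℂ)) :=
    fun χ hχ => (hprime χ hχ).odd_of_ne_two (hne2 χ)
  -- the degree formula in the four cases
  have hsum : ∀ (χ : principalBlock M S) (c : ℤ), (∀ i, a χ i = c) →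
      (charDegree ((χ : IrrCharacter S) : S → ℂ) : ℤ) = p * n χ + c * (p - 1) := by
    intro χ c hc
    rw [hdeg χ, finsum_eq_sum_of_fintype]
    simp only [hc]
    rw [Finset.sum_const, Finset.card_univ, hΩ', nsmul_eq_mul]
    have h3 : ((e : ℤ) * ((p - 1) / e : ℕ)) = (p : ℤ) - 1 := by
      have h4 : ((e * ((p - 1) / e) : ℕ) : ℤ) = ((p - 1 : ℕ) : ℤ) := by rw [hmul]
      rw [Nat.cast_sub (by omega)] at h4
      push_cast at h4 ⊢
      exact h4
    rw [← mul_assoc, h3]
    ring
  have hunit : ∀ (χ : principalBlock M S) (c : ℤ) (i₀ : (ZMod p)ˣ ⧸ fuse z hz),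
      (∀ i, a χ i = if i = i₀ then c else 0) →
      (charDegree ((χ : IrrCharacter S) : S → ℂ) : ℤ) = p * n χ + c * e := by
    intro χ c i₀ hc
    rw [hdeg χ, finsum_eq_sum_of_fintype]
    simp only [hc]
    rw [Finset.sum_ite_eq' Finset.univ i₀]
    simp only [Finset.mem_univ, if_true]
    ring
  -- constant rows only for the trivial character
  have hconst : ∀ χ : principalBlock M S, ((χ : IrrCharacter S) : S → ℂ) ≠ 1 →
      ¬ (∀ i, a χ i = 1) ∧ ¬ (∀ i, a χ i = -1) := by
    intro χ hχ
    have hle := hmax (χ : IrrCharacter S)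
    have ho := hodd _ hχ
    have hpr' := hprime _ hχ
    generalize hd : charDegree ((χ : IrrCharacter S) : S → ℂ) = d at hle ho hpr'
    have hle' : (d : ℤ) ≤ p := by exact_mod_cast hle
    have hd2 := hpr'.two_le
    have hn0 : (0 : ℤ) ≤ n χ := by positivity
    have hp2' : (2 : ℤ) ≤ p := by exact_mod_cast hpp
    constructor
    · intro hc
      have h3 := hsum χ 1 hc
      rw [hd] at h3
      have hn : (n χ : ℤ) = 0 := by
        by_contra hne
        have h4 : (1 : ℤ) ≤ n χ := by omega
        nlinarith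
      rw [hn] at h3
      have h5 : d = p - 1 := by
        have : (d : ℤ) = p - 1 := by linarith
        omega
      have h6 : Even (p - 1) := hpodd.tsub_odd odd_one
      rw [← h5] at h6
      exact (Nat.not_even_iff_odd.2 ho) h6
    · intro hc
      have h3 := hsum χ (-1) hc
      rw [hd] at h3
      have hn : (n χ : ℤ) = 1 := by
        rcases lt_trichotomy (n χ : ℤ) 1 with h4 | h4 | h4
        · have h5 : (n χ : ℤ) = 0 := by omega
          rw [h5] at h3
          have : (0 : ℤ) < d := by exact_mod_cast hpr'.pos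
          linarith
        · exact h4
        · exfalso
          have h5 : (2 : ℤ) ≤ n χ := by omega
          nlinarith
      rw [hn] at h3
      have : (d : ℤ) = 1 := by linarith
      omega
  -- a nontrivial member of the block
  have hcard2 : 1 < Nat.card (principalBlock M S) := by rw [hcard]; omega
  obtain ⟨χ, hχ⟩ : ∃ χ : principalBlock M S, ((χ : IrrCharacter S) : S → ℂ) ≠ 1 := by
    rw [Finite.one_lt_card_iff_nontrivial] at hcard2
    obtain ⟨x, y, hxy⟩ := hcard2.exists_pair_ne
    by_cases hx : ((x : IrrCharacter S) : S → ℂ) = 1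
    · refine ⟨y, fun hy => hxy ?_⟩
      exact Subtype.ext (Subtype.ext (hx.trans hy.symm))
    · exact ⟨x, hx⟩
  have hc := hconst χ hχ
  have hnsub : ¬ Subsingleton ((ZMod p)ˣ ⧸ fuse z hz) := by
    intro hs
    rcases hrows χ with h3 | h3 | ⟨i₀, h3⟩ | ⟨i₀, h3⟩
    · exact hc.1 h3
    · exact hc.2 h3
    · exact hc.1 fun i => by rw [h3, if_pos (Subsingleton.elim _ _)]
    · exact hc.2 fun i => by rw [h3, if_pos (Subsingleton.elim _ _)]
  rw [not_subsingleton_iff_nontrivial] at hnsub
  obtain ⟨i, j, hij⟩ := hnsub.exists_pair_ne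
  have hg := hgram i j
  rw [if_neg hij, add_zero, finsum_eq_sum_of_fintype] at hg
  have he1 : e = 1 := by
    by_contra hne
    have h3 : ∑ χ : principalBlock M S, a χ i * a χ j ≤
        ∑ χ : principalBlock M S, if ((χ : IrrCharacter S) : S → ℂ) = 1 then (1 : ℤ) else 0 := by
      refine Finset.sum_le_sum fun ψ _ => ?_
      by_cases hψ : ((ψ : IrrCharacter S) : S → ℂ) = 1
      · rw [if_pos hψ]
        rcases hrows ψ with h4 | h4 | ⟨i₀, h4⟩ | ⟨i₀, h4⟩
        · rw [h4, h4]; norm_num
        · rw [h4, h4]; norm_num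
        · rw [h4, h4]; split_ifs <;> norm_num
        · rw [h4, h4]; split_ifs <;> norm_num
      · rw [if_neg hψ]
        have hc' := hconst ψ hψ
        rcases hrows ψ with h4 | h4 | ⟨i₀, h4⟩ | ⟨i₀, h4⟩
        · exact absurd h4 hc'.1
        · exact absurd h4 hc'.2
        · rw [h4, h4]
          by_cases hi : i = i₀
          · rw [if_neg (fun hj => hij (hi.trans hj.symm) : ¬ j = i₀), mul_zero]
          · rw [if_neg hi, zero_mul]
        · rw [h4, h4]
          by_cases hi : i = i₀
          · rw [if_neg (fun hj => hij (hi.trans hj.symm) : ¬ j = i₀), mul_zero]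
          · rw [if_neg hi, zero_mul]
    have h5 : (∑ χ : principalBlock M S, if ((χ : IrrCharacter S) : S → ℂ) = 1 then (1 : ℤ) else 0)
        ≤ 1 := by
      rw [Finset.sum_boole]
      have h6 : (Finset.univ.filter fun χ : principalBlock M S =>
          ((χ : IrrCharacter S) : S → ℂ) = 1).card ≤ 1 := by
        rw [Finset.card_le_one]
        intro x hx y hy
        rw [Finset.mem_filter] at hx hy
        exact Subtype.ext (Subtype.ext (hx.2.trans hy.2.symm))
      exact_mod_cast h6
    have h7 : (e : ℤ) ≤ 1 := by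
      rw [← hg]; exact h3.trans h5
    have h8 : e ≤ 1 := by exact_mod_cast h7
    omega
  -- `e = 1`
  have hle := hmax (χ : IrrCharacter S)
  have ho := hodd _ hχ
  have hpr' := hprime _ hχ
  generalize hd : charDegree ((χ : IrrCharacter S) : S → ℂ) = d at hle ho hpr'
  have hle' : (d : ℤ) ≤ p := by exact_mod_cast hle
  have hd2 := hpr'.two_le
  have hn0 : (0 : ℤ) ≤ n χ := by positivity
  have hp2' : (2 : ℤ) ≤ p := by exact_mod_cast hpp
  rcases hrows χ with h3 | h3 | ⟨i₀, h3⟩ | ⟨i₀, h3⟩
  · exact hc.1 h3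
  · exact hc.2 h3
  · have h4 := hunit χ 1 i₀ h3
    rw [hd, he1, Nat.cast_one] at h4
    have hn : (n χ : ℤ) = 0 := by
      by_contra hne
      have h4 : (1 : ℤ) ≤ n χ := by omega
      nlinarith
    rw [hn] at h4
    have : (d : ℤ) = 1 := by linarith
    omega
  · have h7 := hunit χ (-1) i₀ h3
    rw [hd, he1, Nat.cast_one] at h7
    have hn : (n χ : ℤ) = 1 := by
      rcases lt_trichotomy (n χ : ℤ) 1 with h4 | h4 | h4
      · have h5 : (n χ : ℤ) = 0 := by omega
        rw [h5] at h7
        have : (0 : ℤ) < d := by exact_mod_cast hpr'.pos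
        linarith
      · exact h4
      · exfalso
        have h5 : (2 : ℤ) ≤ n χ := by omega
        nlinarith
    rw [hn] at h7
    have h5 : d = p - 1 := by
      have : (d : ℤ) = p - 1 := by linarith
      omega
    have h6 : Even (p - 1) := hpodd.tsub_odd odd_one
    rw [← h5] at h6
    exact (Nat.not_even_iff_odd.2 ho) h6

/-- The hypothesis for normal subgroups. -/
theorem pd_normal {G : Type u} [Group G] [Finite G] (h : PD G) (N : Subgroup G) [N.Normal] :
    PD N := by
  intro θ hθ
  have := Fintype.ofFinite G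
  have := Fintype.ofFinite N
  obtain ⟨χ, hχ, h1⟩ := Cfsg.Agent.CharDeep.PowerDegrees.exists_irr_over N θ.2
  obtain ⟨m, hm⟩ := Cfsg.Agent.CharDeep.PowerDegrees.degree_dvd N hχ θ.2 h1
  rw [irr_one_eq_charDegree hχ, irr_one_eq_charDegree θ.2] at hm
  have hm' : charDegree χ = m * charDegree (θ : N → ℂ) := by exact_mod_cast hm
  have hdvd : charDegree (θ : N → ℂ) ∣ charDegree χ := Dvd.intro_left m hm'.symm
  have h2 : charDegree χ ≠ 1 := fun h3 => hθ (Nat.dvd_one.1 (h3 ▸ hdvd))
  have h3 := h ⟨χ, hχ⟩ h2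
  exact ((Nat.dvd_prime h3).1 hdvd).resolve_left hθ ▸ h3

/-- The hypothesis for quotients. -/
theorem pd_quotient {G : Type u} [Group G] (h : PD G) (N : Subgroup G) [N.Normal] :
    PD (G ⧸ N) := by
  intro χ hχ
  have h1 := isIrr_comp (QuotientGroup.mk' N) (QuotientGroup.mk'_surjective N) χ.2
  have h2 := h ⟨_, h1⟩
  have h3 : charDegree ((χ : G ⧸ N → ℂ) ∘ (QuotientGroup.mk' N)) = charDegree (χ : G ⧸ N → ℂ) := by
    apply charDegree_of_eq
    rw [Function.comp_apply, map_one]
    exact irr_one_eq_charDegree χ.2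
  rw [← h3]
  exact h2 (by show charDegree _ ≠ 1; rw [h3]; exact hχ)

theorem isSolvable : ∀ (n : ℕ) (G : Type u) [Group G] [Finite G], Nat.card G = n → PD G →
    Group.IsSolvable G := by
  intro n
  induction n using Nat.strong_induction_on with
  | _ n ih =>
  intro G _ _ hcard h
  classical
  by_cases hN : ∃ N : Subgroup G, N.Normal ∧ N ≠ ⊥ ∧ N ≠ ⊤
  · obtain ⟨N, hNn, hN1, hN2⟩ := hN
    have h1 : Nat.card N < n := by
      rw [← hcard]
      exact lt_of_le_of_ne (Subgroup.card_le_card_group N)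
        fun he => hN2 (Subgroup.eq_top_of_card_eq N he)
    have h2 : Nat.card (G ⧸ N) < n := by
      rw [← hcard, ← N.index_eq_card]
      have h3 := N.index_mul_card
      have h4 : 1 < Nat.card N := (Subgroup.one_lt_card_iff_ne_bot N).2 hN1
      have h5 : 0 < N.index := Nat.pos_of_ne_zero Subgroup.index_ne_zero_of_finite
      nlinarith
    have h3 := ih _ h1 N rfl (pd_normal h N)
    have h4 := ih _ h2 (G ⧸ N) rfl (pd_quotient h N)
    exact (Group.isSolvable_iff_subgroup_quotient N).2 ⟨h3, h4⟩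
  · push Not at hN
    by_cases hnt : Nontrivial G
    · have hs : IsSimpleGroup G := ⟨fun N hNn => by
        by_contra hcon
        push Not at hcon
        exact hcon.2 (hN N hNn hcon.1)⟩
      by_cases hc : ∀ a b : G, a * b = b * a
      · exact Group.isSolvable_of_comm hc
      · exact (simple_false hc h).elim
    · rw [not_nontrivial_iff_subsingleton] at hnt
      exact Group.isSolvable_of_comm fun a b => Subsingleton.elim _ _

end Cfsg.Agent.H589.PrimeDegrees
end

-- part: S4466
section
set_option autoImplicit false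
open Cfsg

namespace Cfsg.Agent.S4466

/-- If every irreducible character of the finite group G of degree greater than one has prime degree, then G is solvable. -/
theorem result {G : Type*} [Group G] [Finite G] (h : ∀ χ : Cfsg.IrrCharacter G, Cfsg.charDegree (χ : G → ℂ) ≠ 1 → (Cfsg.charDegree (χ : G → ℂ)).Prime) : Group.IsSolvable G := by
  exact Cfsg.Agent.H589.PrimeDegrees.isSolvable _ G rfl h

end Cfsg.Agent.S4466
end
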