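import Cfsg.Statements.S4468
import Cfsg.Agent.H599.Ito
set_option linter.all false

set_option autoImplicit false
open Cfsg

namespace Cfsg.Agent.S4468

/-- Let the finite p-solvable group G have a faithful character χ of degree n ≤ p − 1 and suppose that a Sylow p-subgroup of G is not normal. Then n = p − 1, n is a power of 2, and χ is irreducible. -/
theorem result {G : Type*} [Group G] [Finite G] (χ : G → ℂ) (hχ : Cfsg.IsCharacter G χ) (hfaith : ∀ g : G, χ g = χ 1 → g = 1) (n : ℕ) (hn : Cfsg.charDegree χ = n) (p : ℕ) (hp : p.Prime) (hsolv : Cfsg.IsPSolvable p G) (hnp : n + 1 ≤ p) (P : Sylow p G) (hP : ¬ (P : Subgroup G).Normal) : n + 1 = p ∧ (∃ k : ℕ, n = 2 ^ k) ∧ Cfsg.IsIrrCharacter G χ := by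
  have := Fact.mk hp
  obtain ⟨m, ρ, rfl⟩ := hχ
  have hm : m = n := by
    rw [← hn, charDegree, Representation.char_one, Module.finrank_fin_fun, Complex.natCast_re,
      Nat.floor_natCast]
  subst hm
  have hρ : Function.Injective ρ := by
    rw [injective_iff_map_eq_one]
    intro g hg
    apply hfaith
    rw [Representation.character, Representation.character, hg, map_one ρ]
  obtain ⟨h1, h2, h3⟩ := Cfsg.Agent.H599.Ito.main ρ hρ hsolv hnp P hP
  exact ⟨h1, h2, m, ρ, h3, rfl⟩

end Cfsg.Agent.S4468
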