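import Cfsg.Statements.S4470
import Cfsg.Agent.H599.Arc
set_option linter.all false

set_option autoImplicit false
open Cfsg

namespace Cfsg.Agent.S4470

/-- Let the finite group G have a faithful character of degree n. Then G has an abelian normal subgroup A such that every abelian subgroup H of G satisfies [H : H ⊓ A] ≤ 12^n. -/
theorem result {G : Type*} [Group G] [Finite G] (χ : G → ℂ) (hχ : Cfsg.IsCharacter G χ) (hfaith : ∀ g : G, χ g = χ 1 → g = 1) (n : ℕ) (hn : Cfsg.charDegree χ = n) : ∃ A : Subgroup G, A.Normal ∧ (∀ x ∈ A, ∀ y ∈ A, x * y = y * x) ∧ ∀ H : Subgroup G, (∀ x ∈ H, ∀ y ∈ H, x * y = y * x) → (A.subgroupOf H).index ≤ 12 ^ n := by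
  obtain ⟨m, ρ, rfl⟩ := hχ
  have hm : m = n := by
    rw [← hn, charDegree, Representation.char_one, Module.finrank_fin_fun, Complex.natCast_re,
      Nat.floor_natCast]
  subst hm
  have hρ : Function.Injective ρ := by
    rw [injective_iff_map_eq_one]
    intro g hg
    apply hfaith
    rw [Representation.character, Representation.character, hg, map_one ρ]
  have : Fintype G := Fintype.ofFinite G
  obtain ⟨φ, h⟩ := Cfsg.Agent.H599.Unitary.exists_inv ρ
  refine ⟨Cfsg.Agent.H599.Arc.nearSubgroup ρ, Cfsg.Agent.H599.Arc.nearSubgroup_normal ρ,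
    Cfsg.Agent.H599.Arc.nearSubgroup_comm h hρ, fun H hH => ?_⟩
  have := Cfsg.Agent.H599.Arc.index_le h H hH
  rwa [Module.finrank_fin_fun] at this

end Cfsg.Agent.S4470
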