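import Mathlib
import Cfsg.Prelude.Def_Characters
import Cfsg.Agent.Characters.Core
import Cfsg.Agent.Characters.MonomialNil
import Cfsg.Agent.H599.TwoP
import Cfsg.Agent.S4465
import Cfsg.Statements.S4469
import Cfsg.Agent.S4470
set_option linter.all false

-- part: H599/Mono
section
/-!
# Monomial bases for representations of nilpotent groups
-/

set_option autoImplicit false

namespace Cfsg.Agent.H599.Mono

open Module Cfsg Cfsg.Agent.Characters Cfsg.Agent.Characters.Core

universe u v

/-- An irreducible representation with an eigenvector of a subgroup `H` of index at most `dim V`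
is monomial in the basis of translates. -/
theorem basis_of_eigenvector {G : Type u} [Group G] [Finite G] {V : Type v} [AddCommGroup V]
    [Module ℂ V] [FiniteDimensional ℂ V] (ρ : Representation ℂ G V) (hρ : ρ.IsIrreducible)
    (H : Subgroup G) {v : V} (hv : v ≠ 0) (hlam : ∀ h ∈ H, ∃ c : ℂ, ρ h v = c • v)
    (hidx : H.index ≤ finrank ℂ V) :
    ∃ (b : Basis (Fin (finrank ℂ V)) ℂ V), ∀ g i, ∃ (j : _) (c : ℂ), ρ g (b i) = c • b j := by
  classical
  have : Fintype (G ⧸ H) := Fintype.ofFinite _
  let b : G ⧸ H → V := fun q => ρ q.out v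
  have hx : ∀ x : G, ∃ c : ℂ, ρ x v = c • b (x : G ⧸ H) := by
    intro x
    have h1 : ((x : G ⧸ H).out)⁻¹ * x ∈ H := by
      rw [← QuotientGroup.eq, QuotientGroup.out_eq']
    obtain ⟨c, hc⟩ := hlam _ h1
    refine ⟨c, ?_⟩
    show ρ x v = c • ρ (x : G ⧸ H).out v
    rw [← map_smul, ← hc, ← Module.End.mul_apply, ← map_mul, mul_inv_cancel_left]
  have hstep : ∀ g q, ∃ c : ℂ, ρ g (b q) = c • b ((g * q.out : G) : G ⧸ H) := by
    intro g q
    obtain ⟨c, hc⟩ := hx (g * q.out)
    exact ⟨c, by rw [← hc, map_mul, Module.End.mul_apply]⟩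
  have hspan : Submodule.span ℂ (Set.range b) = ⊤ := by
    let S : Subrepresentation ρ :=
      { toSubmodule := Submodule.span ℂ (Set.range b)
        apply_mem_toSubmodule := by
          intro g w hw
          refine Submodule.span_induction (p := fun w _ => ρ g w ∈ Submodule.span ℂ (Set.range b))
            ?_ ?_ ?_ ?_ hw
          · rintro _ ⟨q, rfl⟩
            obtain ⟨c, hc⟩ := hstep g q
            rw [hc]
            exact Submodule.smul_mem _ _ (Submodule.subset_span ⟨_, rfl⟩)
          · simp
          · intro x y _ _ hx hy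
            rw [map_add]
            exact Submodule.add_mem _ hx hy
          · intro a x _ hx
            rw [map_smul]
            exact Submodule.smul_mem _ _ hx }
    have hS : S = ⊥ ∨ S = ⊤ := hρ.eq_bot_or_eq_top S
    rcases hS with hS | hS
    · exfalso
      apply hv
      have hvS : v ∈ S.toSubmodule := by
        obtain ⟨c, hc⟩ := hx 1
        rw [map_one, Module.End.one_apply] at hc
        rw [hc]
        exact Submodule.smul_mem _ _ (Submodule.subset_span ⟨_, rfl⟩)
      rw [hS] at hvS
      exact (Submodule.mem_bot ℂ).mp hvS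
    · have := congrArg Subrepresentation.toSubmodule hS
      exact this
  have hcard : Fintype.card (G ⧸ H) = finrank ℂ V := by
    have h1 : finrank ℂ V ≤ Fintype.card (G ⧸ H) := by
      have := finrank_range_le_card (R := ℂ) b
      rw [Set.finrank, hspan, finrank_top] at this
      exact this
    refine le_antisymm ?_ h1
    rw [← Nat.card_eq_fintype_card]
    exact hidx
  let B : Basis (G ⧸ H) ℂ V := basisOfTopLeSpanOfCardEqFinrank b hspan.ge hcard
  have hB : ∀ q, B q = b q := fun q => by simp [B]
  let e : (G ⧸ H) ≃ Fin (finrank ℂ V) := Fintype.equivFinOfCardEq hcard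
  refine ⟨B.reindex e, fun g i => ?_⟩
  obtain ⟨c, hc⟩ := hstep g (e.symm i)
  refine ⟨e ((g * (e.symm i).out : G) : G ⧸ H), c, ?_⟩
  rw [Basis.reindex_apply, Basis.reindex_apply, hB, hB, e.symm_apply_apply]
  exact hc

/-- Representations of finite nilpotent groups are monomial. -/
theorem exists_mono_basis {G : Type u} [Group G] [Finite G] [Group.IsNilpotent G] {V : Type v}
    [AddCommGroup V] [Module ℂ V] [FiniteDimensional ℂ V] (ρ : Representation ℂ G V) :
    ∃ (ι : Type) (_ : Fintype ι) (b : Basis ι ℂ V), ∀ g i, ∃ (j : ι) (c : ℂ),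
      ρ g (b i) = c • b j := by
  classical
  refine rep_induction (G := G)
    (P := fun V _ _ ρ => ∃ (ι : Type) (_ : Fintype ι) (b : Basis ι ℂ V), ∀ g i,
      ∃ (j : ι) (c : ℂ), ρ g (b i) = c • b j) ?_ ?_ V ρ
  · intro V _ _ ρ hV
    exact ⟨Empty, inferInstance, Basis.empty V, fun g i => i.elim⟩
  · intro V _ _ _ ρ U U' hU hUi ⟨κ, hκ, c, hc⟩
    have hnt : Nontrivial U.toSubmodule := by
      by_contra hc
      rw [not_nontrivial_iff_subsingleton] at hc
      obtain ⟨a, b, hab⟩ := hUi.toNontrivial
      exact hab (Subrepresentation.toSubmodule_injective (Subsingleton.elim _ _))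
    obtain ⟨H, v, hv, hH, hidx⟩ :=
      Cfsg.Agent.Characters.MonomialNil.exists_eigenvector_of_nilpotent U.toRepresentation
    obtain ⟨b, hb⟩ := basis_of_eigenvector U.toRepresentation hUi H hv hH hidx
    refine ⟨Fin (finrank ℂ U.toSubmodule) ⊕ κ, inferInstance,
      (b.prod c).map (Submodule.prodEquivOfIsCompl _ _ hU), ?_⟩
    intro g i
    have hl : ∀ i, ((b.prod c).map (Submodule.prodEquivOfIsCompl _ _ hU)) (Sum.inl i) =
        (b i : V) := by
      intro i
      rw [Basis.map_apply, Basis.prod_apply]
      simp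
    have hr : ∀ i, ((b.prod c).map (Submodule.prodEquivOfIsCompl _ _ hU)) (Sum.inr i) =
        (c i : V) := by
      intro i
      rw [Basis.map_apply, Basis.prod_apply]
      simp
    rcases i with i | i
    · obtain ⟨j, a, h⟩ := hb g i
      refine ⟨Sum.inl j, a, ?_⟩
      rw [hl, hl]
      exact congrArg Subtype.val h
    · obtain ⟨j, a, h⟩ := hc g i
      refine ⟨Sum.inr j, a, ?_⟩
      rw [hr, hr]
      exact congrArg Subtype.val h

/-- A group with a faithful monomial representation has an abelian normal subgroup of index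
dividing `n!`. -/
theorem exists_abelian_of_mono {G : Type u} [Group G] {V : Type v} [AddCommGroup V]
    [Module ℂ V] [FiniteDimensional ℂ V] (ρ : Representation ℂ G V) (hρ : Function.Injective ρ)
    {ι : Type} [Fintype ι] (b : Basis ι ℂ V)
    (hb : ∀ g i, ∃ (j : ι) (c : ℂ), ρ g (b i) = c • b j) :
    ∃ A : Subgroup G, (∀ x ∈ A, ∀ y ∈ A, x * y = y * x) ∧
      A.index ∣ (finrank ℂ V).factorial := by
  classical
  choose π c hπ using hb
  have hc0 : ∀ g i, c g i ≠ 0 := by
    intro g i h0
    have h1 := hπ g i
    rw [h0, zero_smul] at h1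
    apply b.ne_zero i
    have : ρ g⁻¹ (ρ g (b i)) = b i := by
      rw [← Module.End.mul_apply, ← map_mul, inv_mul_cancel, map_one, Module.End.one_apply]
    rw [← this, h1, map_zero]
  have huniq : ∀ g i j (d : ℂ), ρ g (b i) = d • b j → π g i = j := by
    intro g i j d hd
    rw [hπ] at hd
    by_contra hne
    have h1 := congrArg (fun w => b.repr w (π g i)) hd
    simp only [map_smul, Basis.repr_self, Finsupp.smul_apply, Finsupp.single_eq_same,
      smul_eq_mul, mul_one] at h1
    rw [Finsupp.single_eq_of_ne hne, mul_zero] at h1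
    exact hc0 g i h1
  have h1 : ∀ i, π 1 i = i := fun i => huniq 1 i i 1 (by
    rw [map_one, Module.End.one_apply, one_smul])
  have hmul : ∀ g h i, π (g * h) i = π g (π h i) := by
    intro g h i
    apply huniq (g * h) i _ (c h i * c g (π h i))
    rw [map_mul, Module.End.mul_apply, hπ h i, map_smul, hπ g, smul_smul]
  let θ : G →* Equiv.Perm ι :=
    { toFun := fun g =>
        { toFun := π g
          invFun := π g⁻¹
          left_inv := fun i => by rw [← hmul, inv_mul_cancel, h1]
          right_inv := fun i => by rw [← hmul, mul_inv_cancel, h1] }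
      map_one' := Equiv.ext fun i => h1 i
      map_mul' := fun g h => Equiv.ext fun i => hmul g h i }
  refine ⟨θ.ker, ?_, ?_⟩
  · intro x hx y hy
    have hx' : ∀ i, π x i = i := fun i => congrArg (fun e : Equiv.Perm ι => e i)
      (MonoidHom.mem_ker.1 hx)
    have hy' : ∀ i, π y i = i := fun i => congrArg (fun e : Equiv.Perm ι => e i)
      (MonoidHom.mem_ker.1 hy)
    apply hρ
    rw [map_mul, map_mul]
    refine b.ext fun i => ?_
    rw [Module.End.mul_apply, Module.End.mul_apply, hπ x i, hπ y i, map_smul, map_smul, hx' i,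
      hy' i, hπ x i, hπ y i, hx' i, hy' i, smul_comm]
  · rw [Subgroup.index_ker]
    refine (Subgroup.card_subgroup_dvd_card θ.range).trans ?_
    rw [Nat.card_perm, Nat.card_eq_fintype_card, ← Module.finrank_eq_card_basis b]

end Cfsg.Agent.H599.Mono
end

-- part: H599/Jordan
section
/-!
# The counting behind Jordan's theorem
-/

set_option autoImplicit false

namespace Cfsg.Agent.H599.Jordan

open Module Cfsg

universe u

/-- The index of a normal subgroup `A` bounded by local data. -/
theorem index_le {G : Type u} [Group G] [Finite G] (n B : ℕ) (A : Subgroup G)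
    (hAB : ∀ H : Subgroup G, (∀ x ∈ H, ∀ y ∈ H, x * y = y * x) → (A.subgroupOf H).index ≤ B)
    (hmono : ∀ (p : ℕ) [Fact p.Prime] (P : Sylow p G), ∃ P₀ : Subgroup G, P₀ ≤ P ∧
      (∀ x ∈ P₀, ∀ y ∈ P₀, x * y = y * x) ∧ P₀.relIndex P ∣ n.factorial)
    (hhall : Cfsg.Agent.H599.Hall.HallProp n G) :
    A.index ≤ n.factorial * B ^ (Nat.primeCounting (n + 1) + 1) := by
  classical
  set i := A.index with hi
  have hi0 : i ≠ 0 := Subgroup.index_ne_zero_of_finite
  -- small primes
  have hsmall : ∀ p : ℕ, p.Prime → p ^ i.factorization p ≤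
      p ^ (n.factorial).factorization p * B := by
    intro p hp
    have := Fact.mk hp
    obtain ⟨P⟩ := (inferInstance : Nonempty (Sylow p G))
    obtain ⟨P₀, hP₀P, hP₀, hP₀n⟩ := hmono p P
    have h1 : p ^ i.factorization p ∣ A.relIndex P := by
      have h2 : i ∣ (P : Subgroup G).index * A.relIndex P := by
        rw [mul_comm, ← Subgroup.inf_relIndex_right, Subgroup.relIndex_mul_index inf_le_right]
        exact Subgroup.index_dvd_of_le inf_le_left
      have h3 : (p ^ i.factorization p).Coprime (P : Subgroup G).index :=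
        Nat.Coprime.pow_left _ ((Nat.Prime.coprime_iff_not_dvd hp).2 P.not_dvd_index)
      exact h3.dvd_of_dvd_mul_left ((Nat.ordProj_dvd i p).trans h2)
    have hpos : 0 < A.relIndex P := Nat.pos_of_ne_zero Subgroup.index_ne_zero_of_finite
    have h4 : A.relIndex P ≤ P₀.relIndex P * A.relIndex P₀ := by
      have h5 : (A ⊓ P₀).relIndex P = A.relIndex P₀ * P₀.relIndex P := by
        rw [← Subgroup.relIndex_inf_mul_relIndex, inf_eq_left.2 hP₀P]
      rw [mul_comm, ← h5]
      exact Nat.le_of_dvd (Nat.pos_of_ne_zero Subgroup.index_ne_zero_of_finite)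
        (Subgroup.relIndex_dvd_of_le_left _ inf_le_left)
    have h6 : A.relIndex P₀ ≤ B := hAB P₀ hP₀
    have h7 : P₀.relIndex P ∣ p ^ (n.factorial).factorization p := by
      obtain ⟨k, hk⟩ := IsPGroup.iff_card.1 P.isPGroup'
      have h8 : P₀.relIndex P ∣ p ^ k := by
        rw [← hk]
        exact Subgroup.relIndex_dvd_card _ _
      obtain ⟨j, _, hj⟩ := (Nat.dvd_prime_pow hp).1 h8
      rw [hj] at hP₀n ⊢
      exact pow_dvd_pow p ((hp.pow_dvd_iff_le_factorization (Nat.factorial_ne_zero n)).1 hP₀n)
    have h9 : P₀.relIndex P ≤ p ^ (n.factorial).factorization p :=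
      Nat.le_of_dvd (pow_pos hp.pos _) h7
    calc p ^ i.factorization p ≤ A.relIndex P := Nat.le_of_dvd hpos h1
      _ ≤ P₀.relIndex P * A.relIndex P₀ := h4
      _ ≤ p ^ (n.factorial).factorization p * B := Nat.mul_le_mul h9 h6
  -- large primes
  have hlarge : ∏ p ∈ i.primeFactors.filter (fun p => ¬ p ≤ n + 1), p ^ i.factorization p ≤ B := by
    obtain ⟨H, hH, hH1, hH2⟩ := hhall
    have h1 : ∏ p ∈ i.primeFactors.filter (fun p => ¬ p ≤ n + 1), p ^ i.factorization p ∣
        A.relIndex H := by
      apply Finset.prod_dvd_of_isRelPrime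
      · intro p hp q hq hpq
        have hp' := (Nat.prime_of_mem_primeFactors (Finset.mem_filter.1 hp).1)
        have hq' := (Nat.prime_of_mem_primeFactors (Finset.mem_filter.1 hq).1)
        show IsRelPrime (p ^ i.factorization p) (q ^ i.factorization q)
        rw [← Nat.coprime_iff_isRelPrime]
        exact Nat.Coprime.pow _ _ ((Nat.coprime_primes hp' hq').2 hpq)
      · intro p hp
        have hp' := (Nat.prime_of_mem_primeFactors (Finset.mem_filter.1 hp).1)
        have hpn := (Finset.mem_filter.1 hp).2
        have h2 : i ∣ H.index * A.relIndex H := by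
          rw [mul_comm, ← Subgroup.inf_relIndex_right, Subgroup.relIndex_mul_index inf_le_right]
          exact Subgroup.index_dvd_of_le inf_le_left
        have h3 : (p ^ i.factorization p).Coprime H.index :=
          Nat.Coprime.pow_left _ ((Nat.Prime.coprime_iff_not_dvd hp').2
            (fun h => hpn (hH2 p hp' h)))
        exact h3.dvd_of_dvd_mul_left ((Nat.ordProj_dvd i p).trans h2)
    exact (Nat.le_of_dvd (Nat.pos_of_ne_zero Subgroup.index_ne_zero_of_finite) h1).trans (hAB H hH)
  -- the product
  have hprod : i = (∏ p ∈ i.primeFactors.filter (fun p => p ≤ n + 1), p ^ i.factorization p) *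
      ∏ p ∈ i.primeFactors.filter (fun p => ¬ p ≤ n + 1), p ^ i.factorization p := by
    rw [Finset.prod_filter_mul_prod_filter_not]
    exact (Nat.prod_factorization_pow_eq_self hi0).symm
  have hS : ∏ p ∈ i.primeFactors.filter (fun p => p ≤ n + 1), p ^ i.factorization p ≤
      n.factorial * B ^ Nat.primeCounting (n + 1) := by
    let S := (Finset.range (n + 2)).filter Nat.Prime
    have hcard : S.card = Nat.primeCounting (n + 1) := by
      rw [Nat.primeCounting, Nat.primeCounting', Nat.count_eq_card_filter_range]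
    have hsub : i.primeFactors.filter (fun p => p ≤ n + 1) ⊆ S := by
      intro p hp
      obtain ⟨h1, h2⟩ := Finset.mem_filter.1 hp
      exact Finset.mem_filter.2 ⟨Finset.mem_range.2 (by omega), Nat.prime_of_mem_primeFactors h1⟩
    calc ∏ p ∈ i.primeFactors.filter (fun p => p ≤ n + 1), p ^ i.factorization p
        ≤ ∏ p ∈ S, p ^ i.factorization p := by
          apply Finset.prod_le_prod_of_subset_of_one_le' hsub
          intro p hp _
          exact Nat.one_le_pow _ _ (Finset.mem_filter.1 hp).2.pos
      _ ≤ ∏ p ∈ S, (p ^ (n.factorial).factorization p * B) :=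
          Finset.prod_le_prod' fun p hp => hsmall p (Finset.mem_filter.1 hp).2
      _ = (∏ p ∈ S, p ^ (n.factorial).factorization p) * B ^ Nat.primeCounting (n + 1) := by
          rw [Finset.prod_mul_distrib, Finset.prod_const, hcard]
      _ ≤ n.factorial * B ^ Nat.primeCounting (n + 1) := by
          apply Nat.mul_le_mul_right
          apply Nat.le_of_dvd (Nat.factorial_pos n)
          apply Finset.prod_dvd_of_isRelPrime
          · intro p hp q hq hpq
            have hp' := (Finset.mem_filter.1 hp).2
            have hq' := (Finset.mem_filter.1 hq).2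
            show IsRelPrime (p ^ _) (q ^ _)
            rw [← Nat.coprime_iff_isRelPrime]
            exact Nat.Coprime.pow _ _ ((Nat.coprime_primes hp' hq').2 hpq)
          · intro p _
            exact Nat.ordProj_dvd _ p
  calc i = _ := hprod
    _ ≤ (n.factorial * B ^ Nat.primeCounting (n + 1)) * B := Nat.mul_le_mul hS hlarge
    _ = n.factorial * B ^ (Nat.primeCounting (n + 1) + 1) := by rw [pow_succ, mul_assoc]

/-- Sylow subgroups of linear groups of degree `n` have abelian subgroups of index dividing
`n!`. -/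
theorem exists_abelian_sylow {G : Type u} [Group G] [Finite G] {V : Type} [AddCommGroup V]
    [Module ℂ V] [FiniteDimensional ℂ V] (ρ : Representation ℂ G V) (hρ : Function.Injective ρ)
    (p : ℕ) [Fact p.Prime] (P : Sylow p G) :
    ∃ P₀ : Subgroup G, P₀ ≤ P ∧ (∀ x ∈ P₀, ∀ y ∈ P₀, x * y = y * x) ∧
      P₀.relIndex P ∣ (finrank ℂ V).factorial := by
  have : Group.IsNilpotent P := P.isPGroup'.isNilpotent
  let σ : Representation ℂ P V := ρ.comp (P : Subgroup G).subtype
  have hσ : Function.Injective σ := fun a b hab => Subtype.ext (hρ hab)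
  obtain ⟨ι, hι, b, hb⟩ := Cfsg.Agent.H599.Mono.exists_mono_basis σ
  obtain ⟨A, hA, hA1⟩ := Cfsg.Agent.H599.Mono.exists_abelian_of_mono σ hσ b hb
  refine ⟨A.map (P : Subgroup G).subtype, Subgroup.map_subtype_le _, ?_, ?_⟩
  · rintro _ ⟨x, hx, rfl⟩ _ ⟨y, hy, rfl⟩
    exact congrArg Subtype.val (hA x hx y hy)
  · have h1 : (A.map (P : Subgroup G).subtype).relIndex (P : Subgroup G) = A.index := by
      rw [Subgroup.relIndex, Subgroup.subgroupOf, Subgroup.comap_map_eq_self_of_injective
        (P : Subgroup G).subtype_injective]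
    rw [h1]
    exact hA1

end Cfsg.Agent.H599.Jordan
end

-- part: S4469
section
set_option autoImplicit false
open Cfsg

namespace Cfsg.Agent.S4469

/-- The classical bound for finite linear groups, in explicit form. Let the finite group G have a faithful character of degree n. Then G has an abelian normal subgroup whose index is at most n! · 12^(n·(π(n+1)+1)), π(k) denoting the number of primes not exceeding k. -/
theorem result {G : Type*} [Group G] [Finite G] (χ : G → ℂ) (hχ : Cfsg.IsCharacter G χ) (hfaith : ∀ g : G, χ g = χ 1 → g = 1) (n : ℕ) (hn : Cfsg.charDegree χ = n) : ∃ A : Subgroup G, A.Normal ∧ (∀ x ∈ A, ∀ y ∈ A, x * y = y * x) ∧ A.index ≤ Nat.factorial n * 12 ^ (n * (Nat.primeCounting (n + 1) + 1)) := by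
  obtain ⟨A, hAn, hA, hAB⟩ := Cfsg.Agent.S4470.result χ hχ hfaith n hn
  have hhall := Cfsg.Agent.S4465.result χ hχ hfaith n hn
  obtain ⟨m, ρ, rfl⟩ := hχ
  have hm : m = n := by
    rw [← hn, charDegree, Representation.char_one, Module.finrank_fin_fun, Complex.natCast_re,
      Nat.floor_natCast]
  subst hm
  have hρ : Function.Injective ρ := by
    rw [injective_iff_map_eq_one]
    intro g hg
    apply hfaith
    rw [Representation.character, Representation.character, hg, map_one ρ]
  refine ⟨A, hAn, hA, ?_⟩
  have h1 := Cfsg.Agent.H599.Jordan.index_le m (12 ^ m) A hAB (fun p _ P => by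
    have := Cfsg.Agent.H599.Jordan.exists_abelian_sylow ρ hρ p P
    rwa [Module.finrank_fin_fun] at this) hhall
  rwa [← pow_mul] at h1

end Cfsg.Agent.S4469
end
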