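import Cfsg.Agent.PLocal.HallHigmanPrime
import Cfsg.Agent.Lib.Cores
import Cfsg.Agent.Lib.PSolvable
import Cfsg.Agent.S0001
import Mathlib.GroupTheory.SchurZassenhaus
import Mathlib.GroupTheory.Subgroup.Centralizer
import Cfsg.Statements.S4472
import Cfsg.Agent.H600.Canon
set_option linter.all false

-- part: H600/PSol
section
/-!
# `p`-solvable groups: a `p'`-subgroup `K` on which a `p`-subgroup acts with small kernel
-/

set_option autoImplicit false

namespace Cfsg.Agent.H600.PSol

open Cfsg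
open scoped Pointwise

universe u

/-- Let `G` be `p`-solvable. There are a `p'`-subgroup `K` and a `p`-group `A` of automorphisms of
`K` induced by elements of `G`, with `|G : O_p(G)|_p ≤ |A|`. -/
theorem exists_action {G : Type u} [Group G] [Finite G] {p : ℕ} [hp : Fact p.Prime]
    (hG : IsPSolvable p G) :
    ∃ (K : Subgroup G) (A : Subgroup (MulAut K)), (Nat.card K).Coprime p ∧ IsPGroup p A ∧
      (∀ a ∈ A, ∃ g : G, ∀ x : K, ((a x : K) : G) = g * x * g⁻¹) ∧
      p ^ ((pCore p G).index).factorization p ≤ Nat.card A := by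
  classical
  set Q := pCore p G with hQ
  have hQn : Q.Normal := Cfsg.Agent.Lib.Cores.pCore_normal p
  have hQp : IsPGroup p Q := Cfsg.Agent.Lib.Cores.pCore_isPGroup p
  let π : G →* G ⧸ Q := QuotientGroup.mk' Q
  have hπ : Function.Surjective π := QuotientGroup.mk'_surjective Q
  have hmem : ∀ x : G, π x = 1 ↔ x ∈ Q := fun x => QuotientGroup.eq_one_iff x
  have hbot : pCore p (G ⧸ Q) = ⊥ := Cfsg.Agent.Lib.Cores.pCore_quotient_pCore p
  have hsolv : IsPSolvable p (G ⧸ Q) := Cfsg.Agent.Lib.PSolvable.IsPSolvable_of_surjective p hG π hπ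
  have hcent := PLocal.HallHigmanPrime.centralizer_pPrimeCore_le_of_pSolvable p hsolv hbot
  set Kb := pPrimeCore p (G ⧸ Q) with hKb
  have hKbn : Kb.Normal := Cfsg.Agent.Lib.Cores.pPrimeCore_normal p
  have hKbc : (Nat.card Kb).Coprime p := Cfsg.Agent.Lib.Cores.pPrimeCore_coprime p
  let L : Subgroup G := Kb.comap π
  have hLn : L.Normal := hKbn.comap π
  have hQL : Q ≤ L := by
    intro x hx
    show π x ∈ Kb
    rw [(hmem x).2 hx]
    exact Kb.one_mem
  let QL : Subgroup L := Q.subgroupOf L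
  have hQLn : QL.Normal := hQn.subgroupOf L
  have hcardQL : Nat.card QL = Nat.card Q := Nat.card_congr (Subgroup.subgroupOfEquivOfLe hQL).toEquiv
  obtain ⟨k, hk⟩ := IsPGroup.iff_card.1 hQp
  have hidx : QL.index = Nat.card Kb := by
    have h1 : (π.comp L.subtype).ker = QL := by
      ext x
      rw [MonoidHom.mem_ker, Subgroup.mem_subgroupOf, ← hmem]
      rfl
    rw [← h1, Subgroup.index_ker, MonoidHom.range_comp, Subgroup.range_subtype]
    rw [Subgroup.map_comap_eq_self_of_surjective hπ]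
  have hcop : (Nat.card QL).Coprime QL.index := by
    rw [hcardQL, hidx, hk]
    exact (Nat.Coprime.pow_right k hKbc).symm
  obtain ⟨H, hH⟩ := Subgroup.exists_right_complement'_of_coprime hcop
  have hHcard : Nat.card H = Nat.card Kb := by
    rw [← hidx]
    exact (Subgroup.IsComplement'.index_eq_card hH.symm).symm
  let K : Subgroup G := H.map L.subtype
  have hKcard : Nat.card K = Nat.card Kb := by
    rw [← hHcard]
    exact (Nat.card_congr (H.equivMapOfInjective L.subtype L.subtype_injective).toEquiv).symm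
  have hKL : K ≤ L := by
    rintro _ ⟨x, _, rfl⟩
    exact x.2
  -- every element of `Kb` lifts to `K`
  have hlift : ∀ y ∈ Kb, ∃ x ∈ K, π x = y := by
    intro y hy
    obtain ⟨g, rfl⟩ := hπ y
    have hg : g ∈ L := hy
    obtain ⟨⟨q, h⟩, hqh⟩ := hH.2 ⟨g, hg⟩
    have hqh' : (q : L) * (h : L) = ⟨g, hg⟩ := hqh
    refine ⟨((h : L) : G), ⟨h, h.2, rfl⟩, ?_⟩
    have h2 : (((q : L) : G)) * ((h : L) : G) = g := by
      have := congrArg (fun z : L => (z : G)) hqh'
      exact this
    rw [← h2, map_mul]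
    have h3 : π ((q : L) : G) = 1 := (hmem _).2 q.2
    rw [h3, one_mul]
  -- Frattini argument
  have hsolvQL : Group.IsSolvable QL := by
    have h1 : IsPGroup p QL := hQp.of_injective (Subgroup.subgroupOfEquivOfLe hQL).toMonoidHom
      (Subgroup.subgroupOfEquivOfLe hQL).injective
    have h2 : Group.IsNilpotent QL := h1.isNilpotent
    infer_instance
  have hfrat : ∀ g : G, ∃ n ∈ Subgroup.normalizer (K : Set G), π n = π g := by
    intro g
    let φ : MulAut L := MulAut.conjNormal g
    have hφ : ∀ x : L, ((φ x : L) : G) = g * x * g⁻¹ := fun x => MulAut.conjNormal_apply g x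
    have hφQ : QL.map φ.toMonoidHom = QL := by
      apply le_antisymm
      · rintro _ ⟨x, hx, rfl⟩
        show ((φ x : L) : G) ∈ Q
        rw [hφ]
        exact hQn.conj_mem _ hx g
      · intro x hx
        refine ⟨φ⁻¹ x, ?_, ?_⟩
        · show ((φ⁻¹ x : L) : G) ∈ Q
          have h1 : ((φ⁻¹ x : L) : G) = g⁻¹ * x * g := by
            have h2 := hφ (φ⁻¹ x)
            rw [← MulAut.mul_apply, mul_inv_cancel, MulAut.one_apply] at h2
            rw [h2]; group
          rw [h1]
          have := hQn.conj_mem _ hx g⁻¹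
          rwa [inv_inv] at this
        · show φ (φ⁻¹ x) = x
          rw [← MulAut.mul_apply, mul_inv_cancel, MulAut.one_apply]
    have hH2 : Subgroup.IsComplement' QL (H.map φ.toMonoidHom) := by
      apply Subgroup.isComplement'_of_card_mul_and_disjoint
      · have h1 : Nat.card (H.map φ.toMonoidHom) = Nat.card H :=
          (Nat.card_congr (H.equivMapOfInjective φ.toMonoidHom φ.injective).toEquiv).symm
        rw [h1]
        exact hH.card_mul_card
      · have h1 := hH.disjoint
        rw [disjoint_iff] at h1 ⊢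
        have h2 := Subgroup.map_inf QL H φ.toMonoidHom φ.injective
        rw [h1, Subgroup.map_bot, hφQ] at h2
        exact h2.symm
    obtain ⟨l, hl⟩ := Cfsg.Agent.S0001.result QL hcop (Or.inl hsolvQL) H (H.map φ.toMonoidHom) hH hH2
    -- `l⁻¹ * g` normalizes `K`
    have hnorm : (l : G)⁻¹ * g ∈ Subgroup.normalizer (K : Set G) := by
      have hle : ∀ x ∈ K, ((l : G)⁻¹ * g) * x * ((l : G)⁻¹ * g)⁻¹ ∈ K := by
        rintro _ ⟨x, hx, rfl⟩
        have h1 : φ x ∈ MulAut.conj l • H := by
          rw [hl]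
          exact ⟨x, hx, rfl⟩
        rw [Subgroup.mem_pointwise_smul_iff_inv_smul_mem] at h1
        refine ⟨_, h1, ?_⟩
        have h2 : ((MulAut.conj l)⁻¹ • (φ x) : L) = l⁻¹ * φ x * l := by
          rw [← map_inv]
          show l⁻¹ * φ x * (l⁻¹)⁻¹ = _
          rw [inv_inv]
        rw [h2]
        show (l : G)⁻¹ * ((φ x : L) : G) * l = _
        rw [hφ]
        show (l : G)⁻¹ * (g * x * g⁻¹) * l = ((l : G)⁻¹ * g) * x * ((l : G)⁻¹ * g)⁻¹
        group
      rw [Subgroup.mem_normalizer_iff_map_conj_eq]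
      apply Subgroup.eq_of_le_of_card_ge
      · rintro _ ⟨x, hx, rfl⟩
        exact hle x hx
      · exact (Nat.card_congr (K.equivMapOfInjective _ (MulAut.conj _).injective).toEquiv).le
    have hl2 : π (l : G) ∈ Kb := l.2
    obtain ⟨x, hx, hx2⟩ := hlift _ hl2
    refine ⟨x * ((l : G)⁻¹ * g), Subgroup.mul_mem _ (Subgroup.le_normalizer hx) hnorm, ?_⟩
    rw [map_mul, hx2, map_mul, map_inv]
    group
  -- the Sylow subgroup of the normalizer
  let N := Subgroup.normalizer (K : Set G)
  let f : N →* G ⧸ Q := π.comp N.subtype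
  have hf : Function.Surjective f := by
    intro y
    obtain ⟨g, rfl⟩ := hπ y
    obtain ⟨n, hn, hn2⟩ := hfrat g
    exact ⟨⟨n, hn⟩, hn2⟩
  obtain ⟨P⟩ : Nonempty (Sylow p N) := inferInstance
  let c : N →* MulAut K := K.normalizerMonoidHom
  have hc : ∀ (n : N) (x : K), ((c n x : K) : G) = n * x * (n : G)⁻¹ := fun n x => rfl
  let f1 : P →* G ⧸ Q := f.comp (P : Subgroup N).subtype
  let f2 : P →* MulAut K := c.comp (P : Subgroup N).subtype
  have hkerle : f2.ker ≤ f1.ker := by
    intro x hx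
    rw [MonoidHom.mem_ker] at hx ⊢
    have h1 : ∀ y : K, ((x : N) : G) * y * ((x : N) : G)⁻¹ = y := by
      intro y
      rw [← hc]
      have h2 : f2 x y = y := by rw [hx]; rfl
      exact congrArg Subtype.val h2
    have h2 : f1 x ∈ Kb := by
      apply hcent
      rw [Subgroup.mem_centralizer_iff]
      intro y hy
      obtain ⟨z, hz, rfl⟩ := hlift y hy
      have h3 := h1 ⟨z, hz⟩
      show π z * π ((x : N) : G) = π ((x : N) : G) * π z
      rw [← map_mul, ← map_mul]
      congr 1
      exact (mul_inv_eq_iff_eq_mul.1 h3).symm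
    obtain ⟨j, hj⟩ := P.2 x
    have h3 : f1 x ^ p ^ j = 1 := by rw [← map_pow, hj, map_one]
    have h4 : orderOf (f1 x) ∣ p ^ j := orderOf_dvd_of_pow_eq_one h3
    have h5 : orderOf (f1 x) ∣ Nat.card Kb := by
      have := orderOf_dvd_natCard (⟨f1 x, h2⟩ : Kb)
      rwa [← Subgroup.orderOf_coe] at this
    have h6 : (Nat.card Kb).Coprime (p ^ j) := Nat.Coprime.pow_right j hKbc
    exact orderOf_eq_one_iff.1 (Nat.eq_one_of_dvd_coprimes h6 h5 h4)
  refine ⟨K, f2.range, ?_, ?_, ?_, ?_⟩
  · rw [hKcard]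
    exact hKbc
  · exact P.2.of_surjective f2.rangeRestrict f2.rangeRestrict_surjective
  · rintro _ ⟨x, rfl⟩
    exact ⟨((x : N) : G), fun y => hc _ _⟩
  · have h1 : f1.ker.index ≤ f2.ker.index :=
      Nat.le_of_dvd (Nat.pos_of_ne_zero Subgroup.index_ne_zero_of_finite) (Subgroup.index_dvd_of_le hkerle)
    rw [Subgroup.index_ker, Subgroup.index_ker] at h1
    refine le_trans (le_of_eq ?_) h1
    have h2 : f1.range = ((P.mapSurjective hf : Sylow p (G ⧸ Q)) : Subgroup (G ⧸ Q)) := by
      rw [Sylow.coe_mapSurjective, MonoidHom.range_comp, Subgroup.range_subtype]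
    rw [h2]
    have h3 := (P.mapSurjective hf : Sylow p (G ⧸ Q)).card_eq_multiplicity
    rw [h3, ← Subgroup.index_eq_card]

end Cfsg.Agent.H600.PSol
end

-- part: S4472
section
set_option autoImplicit false
open Cfsg

namespace Cfsg.Agent.S4472

/-- Let the finite p-solvable group G have a faithful character of degree n, and let p^a be the index of O_p(G) in a Sylow p-subgroup of G (the p-part of [G : O_p(G)]). Then a ≤ Σ_{i ≥ 0} ⌊n / ((p − 1) p^i)⌋ (a finite sum; the terms vanish for p^i > n). -/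
theorem result {G : Type*} [Group G] [Finite G] (χ : G → ℂ) (hχ : Cfsg.IsCharacter G χ) (hfaith : ∀ g : G, χ g = χ 1 → g = 1) (n : ℕ) (hn : Cfsg.charDegree χ = n) (p : ℕ) (hp : p.Prime) (hsolv : Cfsg.IsPSolvable p G) : ((Cfsg.pCore p G).index).factorization p ≤ ∑ i ∈ Finset.range (n + 1), n / ((p - 1) * p ^ i) := by
  have : Fact p.Prime := ⟨hp⟩
  have h1 : χ 1 = n := Cfsg.Agent.S4488.apply_one_eq hχ hn
  obtain ⟨K, A, hK, hA, hAg, hle⟩ := Cfsg.Agent.H600.PSol.exists_action hsolv
  have h2 := Cfsg.Agent.H600.Canon.bd hp n (Nat.card K) K A (χ ∘ K.subtype) hA hK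
    (Cfsg.Agent.Characters.Core.isCharacter_comp K.subtype hχ)
    (fun x hx => by
      have h3 : χ (x : G) = χ 1 := hx
      exact Subtype.ext (hfaith _ h3))
    (fun a ha x => by
      obtain ⟨g, hg⟩ := hAg a ha
      show χ ((a x : K) : G) = χ (x : G)
      rw [hg]
      exact Cfsg.Agent.Characters.Core.isCharacter_isClassFunction hχ (x : G) g)
    (by
      show χ ((1 : K) : G) = n
      exact h1) le_rfl
  exact (Nat.pow_le_pow_iff_right hp.one_lt).1 (hle.trans h2)

end Cfsg.Agent.S4472
end
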