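import Mathlib.GroupTheory.GroupAction.Quotient
import Mathlib.GroupTheory.Index
import Mathlib.Tactic
import Cfsg.Statements.S4473
import Cfsg.Agent.Blocks.Basic
import Cfsg.Agent.Characters.MonomialVec
import Cfsg.Agent.Characters.Linear
import Cfsg.Agent.CharactersDeep.Imprimitivity
import Mathlib.LinearAlgebra.Eigenspace.Semisimple
set_option linter.all false

-- part: H600/KleinCount
section
/-!
# Klein's count

A finite group `G` acting on a finite set `Ω`, with a normal subgroup `Z` acting trivially, such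
that every element outside `Z` fixes exactly two points, every point is fixed by an element outside
`Z` and every orbit has at least three points: then `[G : Z]` is `12`, `24` or `60`.
-/

set_option autoImplicit false

namespace Cfsg.Agent.H600.KleinCount

/-- The arithmetic of the orbit lengths, sorted case. -/
theorem arith_sorted {g n0 n1 n2 e0 e1 e2 : ℕ} (h0 : e0 * n0 = g) (h1 : e1 * n1 = g)
    (h2 : e2 * n2 = g) (he0 : 2 ≤ e0) (h01 : e0 ≤ e1) (h12 : e1 ≤ e2)
    (hn0 : 3 ≤ n0) (hn1 : 3 ≤ n1) (hn2 : 3 ≤ n2) (hsum : n0 + n1 + n2 = g + 2) :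
    g = 12 ∨ g = 24 ∨ g = 60 := by
  have he0' : e0 = 2 := by
    by_contra hne
    have h3 : 3 ≤ e0 := by omega
    have a0 : 3 * n0 ≤ g := by rw [← h0]; exact Nat.mul_le_mul_right _ h3
    have a1 : 3 * n1 ≤ g := by rw [← h1]; exact Nat.mul_le_mul_right _ (by omega)
    have a2 : 3 * n2 ≤ g := by rw [← h2]; exact Nat.mul_le_mul_right _ (by omega)
    omega
  subst he0'
  have he1 : e1 = 3 := by
    by_contra hne
    rcases (show e1 = 2 ∨ 4 ≤ e1 by omega) with h | h
    · subst h
      omega
    · have a1 : 4 * n1 ≤ g := by rw [← h1]; exact Nat.mul_le_mul_right _ h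
      have a2 : 4 * n2 ≤ g := by rw [← h2]; exact Nat.mul_le_mul_right _ (by omega)
      omega
  subst he1
  have he2 : e2 < 6 := by
    by_contra hne
    have a2 : 6 * n2 ≤ g := by rw [← h2]; exact Nat.mul_le_mul_right _ (by omega)
    omega
  interval_cases e2 <;> omega

/-- The arithmetic of the orbit lengths. -/
theorem arith {g n0 n1 n2 e0 e1 e2 : ℕ} (h0 : e0 * n0 = g) (h1 : e1 * n1 = g)
    (h2 : e2 * n2 = g) (he0 : 2 ≤ e0) (he1 : 2 ≤ e1) (he2 : 2 ≤ e2)
    (hn0 : 3 ≤ n0) (hn1 : 3 ≤ n1) (hn2 : 3 ≤ n2) (hsum : n0 + n1 + n2 = g + 2) :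
    g = 12 ∨ g = 24 ∨ g = 60 := by
  rcases le_total e0 e1 with a | a <;> rcases le_total e1 e2 with b | b <;>
    rcases le_total e0 e2 with c | c
  · exact arith_sorted h0 h1 h2 he0 a b hn0 hn1 hn2 hsum
  · exact arith_sorted h0 h1 h2 he0 a b hn0 hn1 hn2 hsum
  · exact arith_sorted h0 h2 h1 he0 c b hn0 hn2 hn1 (by omega)
  · exact arith_sorted h2 h0 h1 he2 c a hn2 hn0 hn1 (by omega)
  · exact arith_sorted h1 h0 h2 he1 a c hn1 hn0 hn2 (by omega)
  · exact arith_sorted h1 h2 h0 he1 b c hn1 hn2 hn0 (by omega)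
  · exact arith_sorted h2 h1 h0 he2 b a hn2 hn1 hn0 (by omega)
  · exact arith_sorted h2 h1 h0 he2 b a hn2 hn1 hn0 (by omega)

/-- **Klein's count.** -/
theorem klein_count {G Ω : Type*} [Group G] [Finite G] [MulAction G Ω] [Finite Ω]
    (Z : Subgroup G) (hZ : ∀ z ∈ Z, ∀ ω : Ω, z • ω = ω)
    (hfix : ∀ x ∉ Z, Nat.card {ω : Ω // x • ω = ω} = 2) (hne : ∃ x, x ∉ Z)
    (hpole : ∀ ω : Ω, ∃ x ∉ Z, x • ω = ω)
    (h3 : ∀ ω : Ω, 3 ≤ (MulAction.stabilizer G ω).index) :
    Z.index = 12 ∨ Z.index = 24 ∨ Z.index = 60 := by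
  classical
  have hG := Fintype.ofFinite G
  have hΩ := Fintype.ofFinite Ω
  set R := Quotient (MulAction.orbitRel G Ω) with hR
  have hRf : Finite R := Quotient.finite _
  have hRft := Fintype.ofFinite R
  -- orbit lengths
  have hlen : ∀ ω : Ω, ∃ e : ℕ, 2 ≤ e ∧ e * (MulAction.stabilizer G ω).index = Z.index := by
    intro ω
    have hle : Z ≤ MulAction.stabilizer G ω := fun z hz => MulAction.mem_stabilizer_iff.2 (hZ z hz ω)
    refine ⟨Z.relIndex (MulAction.stabilizer G ω), ?_, Subgroup.relIndex_mul_index hle⟩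
    have h1 : Z.relIndex (MulAction.stabilizer G ω) ≠ 0 := by
      rw [Subgroup.relIndex]
      exact Subgroup.index_ne_zero_of_finite
    have h2 : Z.relIndex (MulAction.stabilizer G ω) ≠ 1 := by
      intro h
      rw [Subgroup.relIndex_eq_one] at h
      obtain ⟨x, hx, hxω⟩ := hpole ω
      exact hx (h (MulAction.mem_stabilizer_iff.2 hxω))
    omega
  have hcardΩ : Nat.card Ω = ∑ q : R, (MulAction.stabilizer G (q.out : Ω)).index := by
    rw [Nat.card_congr (MulAction.selfEquivSigmaOrbitsQuotientStabilizer G Ω), Nat.card_sigma]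
    rfl
  have hburn : ∑ x : G, Nat.card (MulAction.fixedBy Ω x) = Nat.card R * Nat.card G := by
    have := MulAction.sum_card_fixedBy_eq_card_orbits_mul_card_group G Ω
    rw [Nat.card_eq_fintype_card, Nat.card_eq_fintype_card, ← this]
    exact Finset.sum_congr rfl fun x _ => Nat.card_eq_fintype_card
  have hsum : ∑ x : G, Nat.card (MulAction.fixedBy Ω x) =
      Nat.card Z * Nat.card Ω + 2 * (Nat.card G - Nat.card Z) := by
    rw [← Finset.sum_filter_add_sum_filter_not Finset.univ (fun x => x ∈ Z)]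
    have c1 : (Finset.univ.filter (fun x => x ∈ Z)).card = Nat.card Z := by
      rw [Nat.card_eq_fintype_card]
      exact (Fintype.card_subtype _).symm
    have c2 : (Finset.univ.filter (fun x => x ∉ Z)).card = Nat.card G - Nat.card Z := by
      have := Finset.card_filter_add_card_filter_not (s := (Finset.univ : Finset G))
        (fun x => x ∈ Z)
      rw [c1, Finset.card_univ, ← Nat.card_eq_fintype_card] at this
      omega
    rw [Finset.sum_congr rfl (g := fun _ => Nat.card Ω), Finset.sum_const, c1, smul_eq_mul,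
      Finset.sum_congr rfl (g := fun _ => 2), Finset.sum_const, c2, smul_eq_mul, mul_comm _ 2]
    · intro x hx
      exact hfix x (Finset.mem_filter.1 hx).2
    · intro x hx
      have : MulAction.fixedBy Ω x = Set.univ := by
        ext ω
        simp only [MulAction.mem_fixedBy, Set.mem_univ, iff_true]
        exact hZ x (Finset.mem_filter.1 hx).2 ω
      rw [this]
      exact Nat.card_congr (Equiv.Set.univ Ω)
  set g := Z.index with hg
  have hGc : Nat.card Z * g = Nat.card G := Z.card_mul_index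
  have hZpos : 0 < Nat.card Z := Nat.card_pos
  have hg2 : 2 ≤ g := by
    have h1 : g ≠ 0 := Subgroup.index_ne_zero_of_finite
    have h2 : g ≠ 1 := by
      intro h
      obtain ⟨x, hx⟩ := hne
      rw [hg, Subgroup.index_eq_one] at h
      exact hx (by rw [h]; trivial)
    omega
  set r := Nat.card R with hr
  have key : Nat.card Ω + 2 * g = r * g + 2 := by
    have h1 : Nat.card Z * Nat.card Ω + 2 * (Nat.card G - Nat.card Z) = r * Nat.card G := by
      rw [← hsum, hburn]
    rw [← hGc] at h1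
    have h2 : Nat.card Z ≤ Nat.card Z * g := Nat.le_mul_of_pos_right _ (by omega)
    have h3 : Nat.card Z * (Nat.card Ω + 2 * g) = Nat.card Z * (r * g + 2) := by
      zify at h1 ⊢
      rw [Nat.cast_sub h2] at h1
      push_cast at h1
      linarith
    exact Nat.eq_of_mul_eq_mul_left hZpos h3
  have hrc : Fintype.card R = r := by rw [hr, Nat.card_eq_fintype_card]
  have hΩge : 3 * r ≤ Nat.card Ω := by
    rw [hcardΩ, ← hrc, ← Finset.card_univ, mul_comm, ← smul_eq_mul, ← Finset.sum_const]
    exact Finset.sum_le_sum fun q _ => h3 _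
  have hΩle : 2 * Nat.card Ω ≤ r * g := by
    rw [hcardΩ, ← hrc, ← Finset.card_univ, ← smul_eq_mul (Finset.univ.card), ← Finset.sum_const,
      Finset.mul_sum]
    refine Finset.sum_le_sum fun q _ => ?_
    obtain ⟨e, he, h⟩ := hlen (q.out : Ω)
    rw [← h]
    exact Nat.mul_le_mul_right _ he
  have hr3 : r = 3 := by
    rcases Nat.lt_or_ge r 4 with h4 | h4
    · interval_cases r
      · omega
      · omega
      · omega
      · rfl
    · exfalso
      have : 4 * g ≤ r * g := Nat.mul_le_mul_right _ h4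
      have h5 : 2 * (r * g) + 4 = 2 * Nat.card Ω + 4 * g := by omega
      omega
  -- name the three orbits
  have e : R ≃ Fin 3 := (Fintype.equivFinOfCardEq (by rw [hrc, hr3]))
  have hsum3 : Nat.card Ω = ∑ i : Fin 3, (MulAction.stabilizer G ((e.symm i).out : Ω)).index := by
    rw [hcardΩ]
    exact Fintype.sum_equiv e _ _ (fun q => by rw [Equiv.symm_apply_apply])
  rw [Fin.sum_univ_three] at hsum3
  obtain ⟨e0, he0, h0⟩ := hlen ((e.symm 0).out : Ω)
  obtain ⟨e1, he1, h1⟩ := hlen ((e.symm 1).out : Ω)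
  obtain ⟨e2, he2, h2⟩ := hlen ((e.symm 2).out : Ω)
  refine arith h0 h1 h2 he0 he1 he2 (h3 _) (h3 _) (h3 _) ?_
  rw [← hsum3]
  rw [hr3] at key
  omega

end Cfsg.Agent.H600.KleinCount
end

-- part: S4473
section
-- import your own Cfsg.Agent.* helpers here

set_option autoImplicit false
open Cfsg

namespace Cfsg.Agent.S4473

open Module Cfsg.Agent.Characters

theorem finrank_map_inj {f : End ℂ (Fin 2 → ℂ)} (hinj : Function.Injective f)
    (L : Submodule ℂ (Fin 2 → ℂ)) : finrank ℂ (L.map f) = finrank ℂ L :=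
  (Submodule.equivMapOfInjective f hinj L).finrank_eq.symm

theorem apply_mem_of_map_eq {f : End ℂ (Fin 2 → ℂ)} {L : Submodule ℂ (Fin 2 → ℂ)}
    (h : L.map f = L) {v : Fin 2 → ℂ} (hv : v ∈ L) : f v ∈ L := by
  have : f v ∈ L.map f := Submodule.mem_map_of_mem hv
  rwa [h] at this

/-- A diagonalizable non-scalar invertible operator on the plane fixes exactly two lines. -/
theorem two_lines (f : End ℂ (Fin 2 → ℂ)) (hf : f.IsSemisimple) (hinj : Function.Injective f)
    (hns : ∀ c : ℂ, f ≠ c • (1 : End ℂ (Fin 2 → ℂ))) :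
    ∃ L₁ L₂ : Submodule ℂ (Fin 2 → ℂ), L₁ ≠ L₂ ∧ finrank ℂ L₁ = 1 ∧ finrank ℂ L₂ = 1 ∧
      L₁.map f = L₁ ∧ L₂.map f = L₂ ∧
      ∀ L : Submodule ℂ (Fin 2 → ℂ), finrank ℂ L = 1 → L.map f = L → L = L₁ ∨ L = L₂ := by
  classical
  have hV : finrank ℂ (Fin 2 → ℂ) = 2 := by simp
  have htop : ∀ c : ℂ, f.eigenspace c ≠ ⊤ := by
    intro c h
    apply hns c
    apply LinearMap.ext
    intro v
    have hv : v ∈ f.eigenspace c := by rw [h]; exact Submodule.mem_top
    rw [End.mem_eigenspace_iff] at hv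
    exact hv
  obtain ⟨a, ha⟩ := End.exists_eigenvalue f
  have ha' : f.eigenspace a ≠ ⊥ := ha
  obtain ⟨b, hab, hb⟩ : ∃ b, b ≠ a ∧ f.eigenspace b ≠ ⊥ := by
    by_contra hcon
    push Not at hcon
    apply htop a
    have h := hf.iSup_eigenspace_eq_top
    rw [eq_top_iff, ← h]
    refine iSup_le fun c => ?_
    by_cases hc : c = a
    · rw [hc]
    · rw [hcon c hc]
      exact bot_le
  have hrank : ∀ c : ℂ, f.eigenspace c ≠ ⊥ → finrank ℂ (f.eigenspace c) = 1 := by
    intro c hc
    have h1 : finrank ℂ (f.eigenspace c) ≠ 0 := by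
      intro h
      exact hc (Submodule.finrank_eq_zero.1 h)
    have h2 : finrank ℂ (f.eigenspace c) < finrank ℂ (Fin 2 → ℂ) :=
      Submodule.finrank_lt (htop c)
    rw [hV] at h2
    omega
  have hdisj : Disjoint (f.eigenspace a) (f.eigenspace b) :=
    (End.eigenspaces_iSupIndep f).pairwiseDisjoint hab.symm
  have hsup : f.eigenspace a ⊔ f.eigenspace b = ⊤ := by
    apply Submodule.eq_top_of_finrank_eq
    have := Submodule.finrank_sup_add_finrank_inf_eq (f.eigenspace a) (f.eigenspace b)
    rw [hdisj.eq_bot, finrank_bot, hrank a ha', hrank b hb] at this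
    rw [hV]
    exact this
  have hmap : ∀ c : ℂ, (f.eigenspace c).map f = f.eigenspace c := by
    intro c
    apply Submodule.eq_of_le_of_finrank_eq
    · rintro _ ⟨v, hv, rfl⟩
      have hv' : v ∈ f.eigenspace c := hv
      rw [End.mem_eigenspace_iff] at hv'
      rw [hv']
      exact Submodule.smul_mem _ _ hv
    · exact finrank_map_inj hinj _
  refine ⟨f.eigenspace a, f.eigenspace b, ?_, hrank a ha', hrank b hb, hmap a, hmap b, ?_⟩
  · intro h
    rw [h, disjoint_self] at hdisj
    exact hb hdisj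
  · intro L hL1 hLf
    obtain ⟨v, hv0, hv⟩ := finrank_eq_one_iff'.1 hL1
    have hv0' : (v : Fin 2 → ℂ) ≠ 0 := fun h => hv0 (Subtype.ext h)
    have hfv : f v ∈ L := apply_mem_of_map_eq hLf v.2
    obtain ⟨c, hc⟩ := hv ⟨f v, hfv⟩
    have hc' : c • (v : Fin 2 → ℂ) = f v := congrArg Subtype.val hc
    have hLv : ∀ d : ℂ, (v : Fin 2 → ℂ) ∈ f.eigenspace d → f.eigenspace d ≠ ⊥ → L = f.eigenspace d := by
      intro d hd hd0
      apply Submodule.eq_of_le_of_finrank_eq
      · intro w hw
        obtain ⟨k, hk⟩ := hv ⟨w, hw⟩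
        have hk' : k • (v : Fin 2 → ℂ) = w := congrArg Subtype.val hk
        rw [← hk']
        exact Submodule.smul_mem _ _ hd
      · rw [hL1, hrank d hd0]
    have hvtop : (v : Fin 2 → ℂ) ∈ f.eigenspace a ⊔ f.eigenspace b := by
      rw [hsup]; exact Submodule.mem_top
    obtain ⟨x, hx, y, hy, hxy⟩ := Submodule.mem_sup.1 hvtop
    have hx' := End.mem_eigenspace_iff.1 hx
    have hy' := End.mem_eigenspace_iff.1 hy
    rw [← hxy, map_add, hx', hy', smul_add] at hc'
    have h1 : (c - a) • x = (b - c) • y := by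
      rw [sub_smul, sub_smul]
      have : c • x + c • y = a • x + b • y := hc'
      rw [sub_eq_sub_iff_add_eq_add, this]
      abel
    have h2 : (c - a) • x = 0 := by
      have m1 : (c - a) • x ∈ f.eigenspace a := Submodule.smul_mem _ _ hx
      have m2 : (c - a) • x ∈ f.eigenspace b := by
        rw [h1]
        exact Submodule.smul_mem _ _ hy
      exact (Submodule.disjoint_def.1 hdisj) _ m1 m2
    have h3 : (b - c) • y = 0 := by rw [← h1, h2]
    rcases smul_eq_zero.1 h2 with h4 | h4
    · -- c = a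
      have hca : c = a := sub_eq_zero.1 h4
      rcases smul_eq_zero.1 h3 with h5 | h5
      · exact absurd ((sub_eq_zero.1 h5).trans hca) hab
      · left
        apply hLv a _ ha'
        rw [← hxy, h5, add_zero]
        exact hx
    · right
      apply hLv b _ hb
      rw [← hxy, h4, zero_add]
      exact hy

variable {G : Type*} [Group G]

/-- The lines fixed by a noncentral element. -/
def Pole (ρ : Representation ℂ G (Fin 2 → ℂ)) : Type _ :=
  {L : Submodule ℂ (Fin 2 → ℂ) // finrank ℂ L = 1 ∧ ∃ x : G, x ∉ Subgroup.center G ∧ L.map (ρ x) = L}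

theorem map_map' (ρ : Representation ℂ G (Fin 2 → ℂ)) (g h : G) (L : Submodule ℂ (Fin 2 → ℂ)) :
    (L.map (ρ h)).map (ρ g) = L.map (ρ (g * h)) := by
  rw [map_mul, Module.End.mul_eq_comp, Submodule.map_comp]

theorem map_one' (ρ : Representation ℂ G (Fin 2 → ℂ)) (L : Submodule ℂ (Fin 2 → ℂ)) :
    L.map (ρ 1) = L := by
  rw [map_one]
  exact Submodule.map_id L

theorem rho_inj (ρ : Representation ℂ G (Fin 2 → ℂ)) (g : G) : Function.Injective (ρ g) := by
  intro v w h
  have : ρ g⁻¹ (ρ g v) = ρ g⁻¹ (ρ g w) := by rw [h]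
  simpa [← Module.End.mul_apply, ← map_mul] using this

/-- The action on poles. -/
@[reducible] def poleAction (ρ : Representation ℂ G (Fin 2 → ℂ)) : MulAction G (Pole ρ) where
  smul g L := ⟨L.1.map (ρ g), by
    refine ⟨?_, ?_⟩
    · rw [finrank_map_inj (rho_inj ρ g)]
      exact L.2.1
    · obtain ⟨x, hx, hxL⟩ := L.2.2
      refine ⟨g * x * g⁻¹, ?_, ?_⟩
      · intro h
        apply hx
        have := (inferInstance : (Subgroup.center G).Normal).conj_mem _ h g⁻¹
        simpa [mul_assoc] using this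
      · rw [map_map']
        have : g * x * g⁻¹ * g = g * x := by group
        rw [this, ← map_map', hxL]⟩
  one_smul L := Subtype.ext (map_one' ρ L.1)
  mul_smul g h L := Subtype.ext (map_map' ρ g h L.1).symm

/-- Let the finite group G have a faithful irreducible character χ of degree 2 that is primitive: χ is not induced from a character of any proper subgroup. Then the centre of G has index 12, 24 or 60. -/
theorem result {G : Type*} [Group G] [Fintype G] (χ : Cfsg.IrrCharacter G) (hfaith : ∀ g : G, (χ : G → ℂ) g = (χ : G → ℂ) 1 → g = 1) (h2 : Cfsg.charDegree (χ : G → ℂ) = 2) (hprim : ∀ H : Subgroup G, H ≠ ⊤ → ∀ θ : H → ℂ, Cfsg.IsCharacter H θ → (χ : G → ℂ) ≠ Cfsg.indFun H θ) : (Subgroup.center G).index = 12 ∨ (Subgroup.center G).index = 24 ∨ (Subgroup.center G).index = 60 := by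
  classical
  obtain ⟨χ, hχ⟩ := χ
  obtain ⟨n, ρ, hρ, rfl⟩ := hχ
  simp only at hfaith h2 hprim
  have hn : n = 2 := by
    have h1 : ρ.character 1 = (finrank ℂ (Fin n → ℂ) : ℂ) := Representation.char_one ρ
    rw [finrank_fin_fun] at h1
    rw [Blocks.Basic.charDegree_of_eq h1] at h2
    exact h2
  subst hn
  have hfaith' : ∀ g : G, ρ g = 1 → g = 1 := by
    intro g hg
    apply hfaith
    rw [Representation.character, Representation.character, hg, map_one ρ]
  -- scalar elements are central
  have hscal : ∀ x : G, (∃ c : ℂ, ρ x = c • (1 : End ℂ (Fin 2 → ℂ))) → x ∈ Subgroup.center G := by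
    rintro x ⟨c, hc⟩
    rw [Subgroup.mem_center_iff]
    intro g
    have h1 : ρ (g * x * g⁻¹ * x⁻¹) = 1 := by
      have h3 : ρ (g * x * g⁻¹) = ρ x := by
        rw [map_mul, map_mul, hc]
        have h4 : ρ g * ρ g⁻¹ = 1 := by rw [← map_mul, mul_inv_cancel, map_one]
        rw [mul_smul_comm, mul_one, smul_mul_assoc, h4]
      rw [map_mul, h3, ← map_mul, mul_inv_cancel, map_one]
    have h2 := hfaith' _ h1
    have h3 : g * x * g⁻¹ * x⁻¹ = g * x * (x * g)⁻¹ := by group
    rw [h3, mul_inv_eq_one] at h2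
    exact h2
  have hcent : ∀ x ∈ Subgroup.center G, ∃ c : ℂ, ρ x = c • (1 : End ℂ (Fin 2 → ℂ)) := by
    intro x hx
    apply CharactersDeep.Imprimitivity.exists_smul_of_comm ρ hρ
    intro g
    rw [← map_mul, ← map_mul, Subgroup.mem_center_iff.1 hx g]
  have hlines : ∀ x : G, x ∉ Subgroup.center G → _ := fun x hx =>
    two_lines (ρ x) (CharactersDeep.Imprimitivity.isSemisimple_rep ρ x) (rho_inj ρ x)
      (fun c hc => hx (hscal x ⟨c, hc⟩))
  let _act := poleAction ρ
  have hsmul : ∀ (g : G) (L : Pole ρ), (g • L).1 = L.1.map (ρ g) := fun _ _ => rfl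
  have hstab : ∀ (g : G) (ω : Pole ρ), g • ω = ω → ω.1.map (ρ g) = ω.1 := fun g ω h =>
    congrArg Subtype.val h
  -- finiteness
  have hfix2 : ∀ x ∉ Subgroup.center G, Nat.card {ω : Pole ρ // x • ω = ω} = 2 := by
    intro x hx
    obtain ⟨L₁, L₂, hne, h1, h2, hm1, hm2, hall⟩ := hlines x hx
    have : Nat.card {ω : Pole ρ // x • ω = ω} = Nat.card (Fin 2) := by
      refine Nat.card_congr (Equiv.symm (Equiv.ofBijective
        (fun i : Fin 2 => if i = 0 then
          (⟨⟨L₁, h1, x, hx, hm1⟩, Subtype.ext hm1⟩ : {ω : Pole ρ // x • ω = ω}) else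
          ⟨⟨L₂, h2, x, hx, hm2⟩, Subtype.ext hm2⟩) ⟨?_, ?_⟩))
      · intro i j hij
        fin_cases i <;> fin_cases j
        · rfl
        · exfalso
          simp only [Fin.zero_eta, if_true, Fin.mk_one, one_ne_zero, if_false] at hij
          exact hne (congrArg (fun ω => ω.1.1) hij)
        · exfalso
          simp only [Fin.zero_eta, if_true, Fin.mk_one, one_ne_zero, if_false] at hij
          exact hne (congrArg (fun ω => ω.1.1) hij).symm
        · rfl
      · rintro ⟨⟨L, hL, hL'⟩, hLx⟩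
        have hLx' : L.map (ρ x) = L := congrArg Subtype.val hLx
        rcases hall L hL hLx' with h | h
        · refine ⟨0, ?_⟩
          apply Subtype.ext
          apply Subtype.ext
          exact h.symm
        · refine ⟨1, ?_⟩
          apply Subtype.ext
          apply Subtype.ext
          exact h.symm
    rw [this]
    simp
  have hfin : Finite (Pole ρ) := by
    have h1 : (Set.univ : Set (Pole ρ)) = ⋃ x ∈ {x : G | x ∉ Subgroup.center G},
        {ω : Pole ρ | x • ω = ω} := by
      ext ω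
      simp only [Set.mem_univ, Set.mem_iUnion, true_iff]
      obtain ⟨x, hx, hxω⟩ := ω.2.2
      exact ⟨x, hx, Subtype.ext hxω⟩
    rw [← Set.finite_univ_iff, h1]
    refine Set.Finite.biUnion (Set.toFinite _) ?_
    intro x hx
    have h2 := hfix2 x hx
    exact Set.finite_coe_iff.1 (Nat.finite_of_card_ne_zero (by
      show Nat.card {ω : Pole ρ // x • ω = ω} ≠ 0
      rw [h2]
      norm_num))
  -- nonabelian
  have hnc : ∃ x : G, x ∉ Subgroup.center G := by
    by_contra hcon
    push Not at hcon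
    have hirr := (CharactersDeep.Imprimitivity.isIrreducible_iff ρ).1 hρ
    have h3 := hirr.2 (Submodule.span ℂ {Pi.single 0 1}) (by
      intro g v hv
      obtain ⟨c, hc⟩ := hcent g (hcon g)
      rw [hc]
      exact Submodule.smul_mem _ _ hv)
    have h4 : finrank ℂ (Submodule.span ℂ {(Pi.single 0 1 : Fin 2 → ℂ)}) = 1 :=
      finrank_span_singleton (by
        intro h
        have := congrFun h 0
        simp at this)
    rcases h3 with h3 | h3
    · rw [h3, finrank_bot] at h4
      omega
    · rw [h3, finrank_top] at h4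
      simp at h4
  refine H600.KleinCount.klein_count (Ω := Pole ρ) (Subgroup.center G) ?_ hfix2 hnc ?_ ?_
  · intro z hz ω
    obtain ⟨c, hc⟩ := hcent z hz
    apply Subtype.ext
    rw [hsmul, hc]
    apply Submodule.eq_of_le_of_finrank_eq
    · rintro _ ⟨v, hv, rfl⟩
      exact Submodule.smul_mem _ _ hv
    · have h := finrank_map_inj (rho_inj ρ z) ω.1
      rw [hc] at h
      exact h
  · intro ω
    obtain ⟨x, hx, hxω⟩ := ω.2.2
    exact ⟨x, hx, Subtype.ext hxω⟩
  · intro ω
    by_contra hlt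
    push Not at hlt
    set S := MulAction.stabilizer G ω with hS
    obtain ⟨v, hv0, hv⟩ := finrank_eq_one_iff'.1 ω.2.1
    have hv0' : (v : Fin 2 → ℂ) ≠ 0 := fun h => hv0 (Subtype.ext h)
    have heig : ∀ g ∈ S, ∃ c : ℂ, ρ g (v : Fin 2 → ℂ) = c • (v : Fin 2 → ℂ) := by
      intro g hg
      have h1 : ω.1.map (ρ g) = ω.1 := hstab g ω (MulAction.mem_stabilizer_iff.1 hg)
      have h3 : ρ g v ∈ ω.1 := apply_mem_of_map_eq h1 v.2
      obtain ⟨c, hc⟩ := hv ⟨_, h3⟩
      exact ⟨c, (congrArg Subtype.val hc).symm⟩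
    by_cases htop : S = ⊤
    · have hirr := (CharactersDeep.Imprimitivity.isIrreducible_iff ρ).1 hρ
      have h3 := hirr.2 ω.1 (by
        intro g w hw
        have hg : g ∈ S := by rw [htop]; trivial
        have h1 : ω.1.map (ρ g) = ω.1 := hstab g ω (MulAction.mem_stabilizer_iff.1 hg)
        exact apply_mem_of_map_eq h1 hw)
      have h4 := ω.2.1
      rcases h3 with h3 | h3
      · rw [h3, finrank_bot] at h4
        omega
      · rw [h3, finrank_top] at h4
        simp at h4
    · obtain ⟨lam, hlam⟩ := MonomialVec.exists_hom_of_eigenvector ρ S hv0' heig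
      have h5 := MonomialVec.character_eq_indFun ρ hρ S lam hv0' hlam (by
        rw [finrank_fin_fun]
        omega)
      exact hprim S htop _ (Characters.Linear.isCharacter_hom lam) h5

end Cfsg.Agent.S4473
end
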