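import Mathlib
import Cfsg.Statements.S4477
import Cfsg.Agent.Characters.Core
import Cfsg.Agent.Characters.Linear
import Cfsg.Agent.S0135
import Cfsg.Agent.H604.FS
set_option linter.all false

/-!
# The Alperin-Feit-Thompson theorem: 2-groups with `1` modulo `4` involutions
-/

set_option autoImplicit false
open Cfsg

namespace Cfsg.Agent.S4477

open scoped ComplexConjugate
open Cfsg.Agent.Characters.Core Cfsg.Agent.H604.FS

universe u

variable {G : Type u} [Group G]

/-- A maximal subgroup of a 2-group is the kernel of a linear character with square one. -/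
theorem exists_hom_of_coatom [Finite G] (hG : IsPGroup 2 G) (M : Subgroup G) (hM : IsCoatom M) :
    ∃ f : G →* ℂˣ, (∀ g, f g ^ 2 = 1) ∧ f.ker = M := by
  have : Group.IsNilpotent G := hG.isNilpotent
  have hn : M.Normal := Subgroup.NormalizerCondition.normal_of_coatom M
    (Group.normalizerCondition_of_isNilpotent (G := G)) hM
  have hQ : IsPGroup 2 (G ⧸ M) := hG.to_quotient M
  have hnt : Nontrivial (G ⧸ M) := by
    rw [QuotientGroup.nontrivial_iff]
    exact hM.1
  have : Group.IsNilpotent (G ⧸ M) := hQ.isNilpotent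
  have hcomm : commutator (G ⧸ M) ≠ ⊤ := (Group.IsSolvable.commutator_lt_top_of_nontrivial (G ⧸ M)).ne
  have hcard : Nat.card (G ⧸ M →* ℂˣ) ≠ 1 := by
    rw [Characters.Linear.card_hom_eq_index_commutator]
    exact fun h => hcomm (Subgroup.index_eq_one.1 h)
  obtain ⟨f, hf⟩ : ∃ f : G ⧸ M →* ℂˣ, f ≠ 1 := by
    by_contra hcon
    push Not at hcon
    exact hcard (Nat.card_eq_one_iff_unique.2 ⟨⟨fun a b => (hcon a).trans (hcon b).symm⟩, ⟨1⟩⟩)
  have hker : ∀ h : G ⧸ M →* ℂˣ, h ≠ 1 → (h.comp (QuotientGroup.mk' M)).ker = M := by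
    intro h hh
    have hle : M ≤ (h.comp (QuotientGroup.mk' M)).ker := by
      intro x hx
      rw [MonoidHom.mem_ker, MonoidHom.comp_apply]
      have : QuotientGroup.mk' M x = 1 := (QuotientGroup.eq_one_iff x).2 hx
      rw [this, map_one]
    rcases hM.le_iff.1 hle with h1 | h1
    · exfalso
      apply hh
      refine MonoidHom.ext fun x => ?_
      obtain ⟨y, rfl⟩ := QuotientGroup.mk'_surjective M x
      have : y ∈ (h.comp (QuotientGroup.mk' M)).ker := h1 ▸ Subgroup.mem_top y
      rw [MonoidHom.mem_ker, MonoidHom.comp_apply] at this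
      rw [this]
      rfl
    · exact h1
  refine ⟨f.comp (QuotientGroup.mk' M), ?_, hker f hf⟩
  have hsq : f * f = 1 := by
    by_contra hne
    have h1 := hker _ hne
    obtain ⟨x, hx⟩ := exists_prime_orderOf_dvd_card' 2 (hQ.card_eq_or_dvd.resolve_left
      (Finite.one_lt_card (α := G ⧸ M)).ne')
    obtain ⟨y, rfl⟩ := QuotientGroup.mk'_surjective M x
    have h2 : y ∈ ((f * f).comp (QuotientGroup.mk' M)).ker := by
      rw [MonoidHom.mem_ker, MonoidHom.comp_apply, MonoidHom.mul_apply, ← map_mul, ← sq, ← hx,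
        pow_orderOf_eq_one, map_one]
    rw [h1] at h2
    have h3 : QuotientGroup.mk' M y = 1 := (QuotientGroup.eq_one_iff y).2 h2
    rw [h3, orderOf_one] at hx
    norm_num at hx
  intro x
  have h1 := DFunLike.congr_fun hsq (QuotientGroup.mk' M x)
  rw [MonoidHom.mul_apply] at h1
  rw [MonoidHom.comp_apply, sq, h1]
  rfl

/-- A 2-group with at most two linear characters of square one is cyclic. -/
theorem isCyclic_of_card [Finite G] (hG : IsPGroup 2 G)
    (h : ∀ f g : G →* ℂˣ, (∀ x, f x ^ 2 = 1) → (∀ x, g x ^ 2 = 1) → f ≠ 1 → g ≠ 1 → f = g) :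
    IsCyclic G := by
  by_cases hbot : ∀ M : Subgroup G, ¬ IsCoatom M
  · have h1 : (⊥ : Subgroup G) = ⊤ :=
      (eq_top_or_exists_le_coatom (⊥ : Subgroup G)).resolve_right (by
        rintro ⟨M, hM, -⟩
        exact hbot M hM)
    have : Subsingleton G := by
      refine ⟨fun a b => ?_⟩
      have ha : a ∈ (⊥ : Subgroup G) := h1 ▸ Subgroup.mem_top a
      have hb : b ∈ (⊥ : Subgroup G) := h1 ▸ Subgroup.mem_top b
      rw [Subgroup.mem_bot] at ha hb
      rw [ha, hb]
    infer_instance
  · push Not at hbot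
    obtain ⟨M, hM⟩ := hbot
    obtain ⟨g, hg⟩ : ∃ g, g ∉ M := by
      by_contra hcon
      push Not at hcon
      exact hM.1 (eq_top_iff.2 fun x _ => hcon x)
    refine ⟨g, ?_⟩
    intro x
    rcases eq_top_or_exists_le_coatom (Subgroup.zpowers g) with h1 | ⟨M', hM', hle⟩
    · exact (h1 ▸ Subgroup.mem_top x : x ∈ Subgroup.zpowers g)
    · exfalso
      obtain ⟨f, hf2, hf⟩ := exists_hom_of_coatom hG M hM
      obtain ⟨f', hf2', hf'⟩ := exists_hom_of_coatom hG M' hM'
      have hne : ∀ (k : G →* ℂˣ) (L : Subgroup G), IsCoatom L → k.ker = L → k ≠ 1 := by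
        rintro k L hL hk rfl
        apply hL.1
        rw [← hk]
        exact MonoidHom.ker_one
      have := h f f' hf2 hf2' (hne f M hM hf) (hne f' M' hM' hf')
      apply hg
      rw [← hf, this, hf']
      exact hle (Subgroup.mem_zpowers g)

/-- The characters that are fixed by multiplication with `n` linear characters have degree with
square at least `n`. -/
theorem card_le_of_fixed [Finite G] {χ : G → ℂ} (hχ : IsIrrCharacter G χ) {d : ℕ} (hd : χ 1 = d)
    (A : Set (G →* ℂˣ)) (hA : ∀ f ∈ A, ∀ g, (f g : ℂ) * χ g = χ g) : Nat.card A ≤ d ^ 2 := by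
  classical
  have := Fintype.ofFinite G
  have hfin : Finite (IrrCharacter G) := finite_irr
  have := Fintype.ofFinite (IrrCharacter G)
  have hψ : IsCharacter G (fun g => χ g * conj (χ g)) :=
    isCharacter_mul (isIrr_isCharacter hχ) (isCharacter_conj (isIrr_isCharacter hχ))
  obtain ⟨m, hm⟩ := exists_nat_comb hψ
  let ι : A → IrrCharacter G := fun f => ⟨fun g => (f.1 g : ℂ), Characters.Linear.isIrrCharacter_hom f.1⟩
  have hι : Function.Injective ι := by
    intro f f' h
    apply Subtype.ext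
    ext g
    exact congrFun (congrArg Subtype.val h) g
  have hfA : Finite A := Finite.of_injective ι hι
  have := Fintype.ofFinite A
  have hmι : ∀ f : A, m (ι f) = 1 := by
    intro f
    have h1 : classInner (fun g => χ g * conj (χ g)) (ι f : G → ℂ) = (m (ι f) : ℂ) := by
      rw [hm]
      exact classInner_sum_nsmul_irr _ _
    have h2 : classInner (fun g => χ g * conj (χ g)) (ι f : G → ℂ) = 1 := by
      rw [← classInner_irr_self hχ]
      unfold classInner
      congr 1
      refine Finset.sum_congr rfl fun g _ => ?_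
      show χ g * conj (χ g) * conj (f.1 g : ℂ) = _
      rw [mul_assoc, ← map_mul, mul_comm (χ g) (f.1 g : ℂ), hA f.1 f.2 g]
    rw [h2] at h1
    exact_mod_cast h1.symm
  have h1 := congrFun hm 1
  simp only [Finset.sum_apply, Pi.smul_apply] at h1
  rw [hd, Complex.conj_natCast] at h1
  have hdeg : ∀ φ : IrrCharacter G, ∃ n : ℕ, 0 < n ∧ (φ : G → ℂ) 1 = n := fun φ => isIrr_apply_one φ.2
  choose n hn0 hn using hdeg
  have h2 : d * d = ∑ φ : IrrCharacter G, m φ * n φ := by
    have : (d : ℂ) * d = ∑ φ : IrrCharacter G, ((m φ * n φ : ℕ) : ℂ) := by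
      rw [h1]
      refine Finset.sum_congr rfl fun φ _ => ?_
      rw [hn, nsmul_eq_mul]
      push_cast
      rfl
    exact_mod_cast this
  rw [sq, h2, Nat.card_eq_fintype_card, ← Finset.card_univ, Finset.card_eq_sum_ones]
  calc ∑ f : A, 1 = ∑ φ ∈ Finset.univ.image ι, 1 := by
        rw [Finset.sum_image (fun a _ b _ h => hι h)]
    _ ≤ ∑ φ ∈ Finset.univ.image ι, m φ * n φ := by
        refine Finset.sum_le_sum fun φ hφ => ?_
        obtain ⟨f, -, rfl⟩ := Finset.mem_image.1 hφ
        rw [hmι, one_mul]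
        exact hn0 _
    _ ≤ ∑ φ : IrrCharacter G, m φ * n φ :=
        Finset.sum_le_sum_of_subset (Finset.subset_univ _)

theorem real_of_sq {f : G →* ℂˣ} (hf : ∀ g, f g ^ 2 = 1) (g : G) :
    (f g : ℂ) = 1 ∨ (f g : ℂ) = -1 := by
  have h2 : (f g : ℂ) ^ 2 = 1 := by rw [← Units.val_pow_eq_pow_val, hf g, Units.val_one]
  exact sq_eq_one_iff.1 h2

/-- The counting argument modulo `4`. -/
theorem odd_card [Finite G] (hG : IsPGroup 2 G)
    (ht : Nat.card {x : G // orderOf x = 2} % 4 = 1)
    (h4 : 4 ∣ Nat.card {f : G →* ℂˣ // ∀ g, f g ^ 2 = 1}) :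
    ¬ 2 ∣ Nat.card {χ : IrrCharacter G // (χ : G → ℂ) 1 = 2 ∧ ∀ g, ((χ : G → ℂ) g).im = 0} := by
  classical
  intro h2
  have := Fintype.ofFinite G
  have hfin : Finite (IrrCharacter G) := finite_irr
  have := Fintype.ofFinite (IrrCharacter G)
  have hdeg : ∀ φ : IrrCharacter G, ∃ n : ℕ, 0 < n ∧ (φ : G → ℂ) 1 = n := fun φ => isIrr_apply_one φ.2
  choose n hn0 hn using hdeg
  have hsum := sum_ind (G := G) 1
  rw [card_sq_eq_one] at hsum
  have hsum' : ∑ χ : IrrCharacter G, ind χ * n χ = 1 + Nat.card {x : G // orderOf x = 2} := by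
    have : ((∑ χ : IrrCharacter G, ind χ * n χ : ℤ) : ℂ) =
        ((1 + Nat.card {x : G // orderOf x = 2} : ℤ) : ℂ) := by
      push_cast at hsum ⊢
      rw [← hsum]
      exact Finset.sum_congr rfl fun χ _ => by rw [hn]
    exact_mod_cast this
  let a : IrrCharacter G → ℤ := fun χ =>
    if n χ = 1 ∧ ∀ g, ((χ : G → ℂ) g).im = 0 then 1 else 0
  let b : IrrCharacter G → ℤ := fun χ =>
    if n χ = 2 ∧ ∀ g, ((χ : G → ℂ) g).im = 0 then 1 else 0
  have key : ∀ χ : IrrCharacter G, (4 : ℤ) ∣ ind χ * n χ - (a χ + 2 * b χ) := by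
    intro χ
    obtain ⟨h01, hval, hreal⟩ := ind_spec χ
    have hpow : ∃ k, n χ = 2 ^ k := by
      obtain ⟨m, hm⟩ := IsPGroup.iff_card.1 hG
      have h1 : n χ ∣ Nat.card G := by
        obtain ⟨r, ρ, hρ, hχ⟩ := χ.2
        have h1 := Cfsg.Agent.S0135.result ρ
        have h3 := hn χ
        rw [← hχ, Representation.char_one] at h3
        have h4 : Module.finrank ℂ (Fin r → ℂ) = n χ := by exact_mod_cast h3
        rwa [h4] at h1
      rw [hm] at h1
      obtain ⟨k, -, hk⟩ := (Nat.dvd_prime_pow Nat.prime_two).1 h1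
      exact ⟨k, hk⟩
    obtain ⟨k, hk⟩ := hpow
    by_cases hr : ∀ g, ((χ : G → ℂ) g).im = 0
    · have h0 : ind χ ≠ 0 := fun h => by
        obtain ⟨g, hg⟩ := hreal.1 h
        exact hg (hr g)
      by_cases hn1 : n χ = 1
      · -- linear
        obtain ⟨f, hf⟩ := Characters.Linear.exists_hom_of_isIrrCharacter χ.2
          (by rw [hn, hn1, Nat.cast_one])
        have hval' : ind χ = 1 := by
          have e1 : ∀ s : G, (χ : G → ℂ) (s * s) = 1 := by
            intro s
            have h5 := Characters.Linear.norm_hom_apply f s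
            have h6 := hr s
            rw [hf] at h6 ⊢
            simp only at h6 ⊢
            rw [map_mul, Units.val_mul]
            have h7 : conj (f s : ℂ) = f s := Complex.conj_eq_iff_im.2 h6
            have h8 : (f s : ℂ) * conj (f s : ℂ) = 1 := by
              rw [Complex.mul_conj, Complex.normSq_eq_norm_sq, h5]; simp
            rwa [h7] at h8
          rw [Finset.sum_congr rfl fun s _ => e1 s, Finset.sum_const, Finset.card_univ,
            nsmul_eq_mul, mul_one, ← Nat.card_eq_fintype_card,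
            inv_mul_cancel₀ card_ne_zero_complex] at hval
          exact_mod_cast hval.symm
        have ha : a χ = 1 := if_pos ⟨hn1, hr⟩
        have hb : b χ = 0 := if_neg (fun h => by omega)
        rw [hval', hn1, ha, hb]
        simp
      · have ha : a χ = 0 := if_neg (fun h => hn1 h.1)
        by_cases hn2 : n χ = 2
        · have hb : b χ = 1 := if_pos ⟨hn2, hr⟩
          rw [hn2, ha, hb]
          rcases h01 with h | h | h
          · exact absurd h h0
          · rw [h]; norm_num
          · rw [h]; norm_num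
        · have hb : b χ = 0 := if_neg (fun h => hn2 h.1)
          rw [ha, hb]
          have hk2 : 2 ≤ k := by
            rcases k with _ | _ | k
            · exact absurd hk hn1
            · exact absurd hk hn2
            · omega
          have h4 : (4 : ℤ) ∣ n χ := by
            obtain ⟨j, rfl⟩ := Nat.exists_eq_add_of_le hk2
            rw [hk, pow_add]
            exact ⟨2 ^ j, by push_cast; ring⟩
          simpa using h4.mul_left (ind χ)
    · have h0 : ind χ = 0 := by
        push Not at hr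
        exact hreal.2 hr
      have ha : a χ = 0 := if_neg (fun h => hr h.2)
      have hb : b χ = 0 := if_neg (fun h => hr h.2)
      rw [h0, ha, hb]
      simp
  have hA : ∑ χ : IrrCharacter G, a χ = Nat.card {f : G →* ℂˣ // ∀ g, f g ^ 2 = 1} := by
    have h1 : Nat.card {f : G →* ℂˣ // ∀ g, f g ^ 2 = 1} =
        Nat.card {χ : IrrCharacter G // n χ = 1 ∧ ∀ g, ((χ : G → ℂ) g).im = 0} := by
      refine Nat.card_eq_of_bijective (fun f => ⟨⟨fun g => (f.1 g : ℂ),
        Characters.Linear.isIrrCharacter_hom f.1⟩, ?_, ?_⟩) ⟨?_, ?_⟩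
      · have h3 := hn ⟨fun g => (f.1 g : ℂ), Characters.Linear.isIrrCharacter_hom f.1⟩
        simp only [map_one, Units.val_one] at h3
        exact_mod_cast h3.symm
      · intro g
        show ((f.1 g : ℂ)).im = 0
        rcases real_of_sq f.2 g with h | h <;> rw [h] <;> simp
      · intro f f' h
        apply Subtype.ext
        ext g
        exact congrFun (congrArg (fun x => (x.1 : IrrCharacter G).1) h) g
      · rintro ⟨χ, h1, h2⟩
        obtain ⟨f, hf⟩ := Characters.Linear.exists_hom_of_isIrrCharacter χ.2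
          (by rw [hn, h1, Nat.cast_one])
        refine ⟨⟨f, ?_⟩, ?_⟩
        · intro g
          apply Units.ext
          have h5 := Characters.Linear.norm_hom_apply f g
          have h6 := h2 g
          rw [hf] at h6
          simp only at h6
          have h7 : conj (f g : ℂ) = f g := Complex.conj_eq_iff_im.2 h6
          have h8 : (f g : ℂ) * conj (f g : ℂ) = 1 := by
            rw [Complex.mul_conj, Complex.normSq_eq_norm_sq, h5]; simp
          rw [h7] at h8
          rw [sq, Units.val_mul, h8]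
          rfl
        · apply Subtype.ext
          apply Subtype.ext
          exact hf.symm
    rw [h1, Nat.card_eq_fintype_card, Fintype.card_subtype, Finset.card_filter]
    push_cast
    rfl
  have hB : ∑ χ : IrrCharacter G, b χ =
      Nat.card {χ : IrrCharacter G // (χ : G → ℂ) 1 = 2 ∧ ∀ g, ((χ : G → ℂ) g).im = 0} := by
    rw [Nat.card_eq_fintype_card, Fintype.card_subtype, Finset.card_filter]
    push_cast
    refine Finset.sum_congr rfl fun χ _ => ?_
    have : (χ : G → ℂ) 1 = 2 ↔ n χ = 2 := by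
      rw [hn]
      exact_mod_cast Iff.rfl
    simp only [b, this]
  have hdvd : (4 : ℤ) ∣ ∑ χ : IrrCharacter G, (ind χ * n χ - (a χ + 2 * b χ)) :=
    Finset.dvd_sum fun χ _ => key χ
  rw [Finset.sum_sub_distrib, Finset.sum_add_distrib, ← Finset.mul_sum, hA, hB, hsum'] at hdvd
  obtain ⟨x, hx⟩ := h4
  obtain ⟨y, hy⟩ := h2
  rw [hx, hy] at hdvd
  push_cast at hdvd
  omega

/-- Let G be a finite 2-group whose number of involutions is congruent to 1 modulo 4. Then G is cyclic or its commutator subgroup has index 4. -/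
theorem result {G : Type*} [Group G] [Finite G] (hG : IsPGroup 2 G) (ht : Nat.card {x : G // orderOf x = 2} % 4 = 1) : IsCyclic G ∨ (commutator G).index = 4 := by
  classical
  by_contra hcon
  push Not at hcon
  obtain ⟨hnc, hidx⟩ := hcon
  have := Fintype.ofFinite G
  have hfin : Finite (IrrCharacter G) := finite_irr
  have hDfin : Finite (G →* ℂˣ) := by
    refine Nat.finite_of_card_ne_zero ?_
    rw [Characters.Linear.card_hom_eq_index_commutator]
    exact Subgroup.index_ne_zero_of_finite
  have hDp : IsPGroup 2 (G →* ℂˣ) := by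
    obtain ⟨m, hm⟩ := IsPGroup.iff_card.1 hG
    have h1 : (commutator G).index ∣ 2 ^ m := hm ▸ (commutator G).index_dvd_card
    obtain ⟨k, -, hk⟩ := (Nat.dvd_prime_pow Nat.prime_two).1 h1
    exact IsPGroup.of_card (n := k) (by rw [Characters.Linear.card_hom_eq_index_commutator, hk])
  let A : Subgroup (G →* ℂˣ) :=
    { carrier := {f | ∀ g, f g ^ 2 = 1}
      one_mem' := fun g => one_pow 2
      mul_mem' := fun {a b} ha hb g => by
        rw [MonoidHom.mul_apply, mul_pow, ha g, hb g, one_mul]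
      inv_mem' := fun {a} ha g => by
        rw [MonoidHom.inv_apply, inv_pow, ha g, inv_one] }
  let A₄ : Subgroup (G →* ℂˣ) :=
    { carrier := {f | ∀ g, f g ^ 4 = 1}
      one_mem' := fun g => one_pow 4
      mul_mem' := fun {a b} ha hb g => by
        rw [MonoidHom.mul_apply, mul_pow, ha g, hb g, one_mul]
      inv_mem' := fun {a} ha g => by
        rw [MonoidHom.inv_apply, inv_pow, ha g, inv_one] }
  have hAA : A ≤ A₄ := by
    intro f hf g
    have : f g ^ 2 = 1 := hf g
    rw [show 4 = 2 * 2 from rfl, pow_mul, this, one_pow]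
  have h4 : 4 ∣ Nat.card A := by
    obtain ⟨k, hk⟩ := IsPGroup.iff_card.1 (hDp.to_subgroup A)
    rw [hk]
    rcases k with _ | _ | k
    · exfalso
      apply hnc
      apply isCyclic_of_card hG
      intro f g hf hg hf1 _
      have h1 : Subsingleton A := (Nat.card_eq_one_iff_unique.1 (by rw [hk]; rfl)).1
      exact absurd (congrArg Subtype.val (Subsingleton.elim (⟨f, hf⟩ : A) 1)) hf1
    · exfalso
      apply hnc
      apply isCyclic_of_card hG
      intro f g hf hg hf1 hg1
      by_contra hfg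
      have h1 : Nat.card A = 2 := by rw [hk]; rfl
      have := Fintype.ofFinite A
      have h3 : ({1, ⟨f, hf⟩, ⟨g, hg⟩} : Finset A).card = 3 := by
        rw [Finset.card_insert_of_notMem, Finset.card_insert_of_notMem, Finset.card_singleton]
        · simp only [Finset.mem_singleton]
          exact fun h => hfg (congrArg Subtype.val h)
        · simp only [Finset.mem_insert, Finset.mem_singleton]
          rintro (h | h)
          · exact hf1 (congrArg Subtype.val h).symm
          · exact hg1 (congrArg Subtype.val h).symm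
      have h5 := Finset.card_le_univ ({1, ⟨f, hf⟩, ⟨g, hg⟩} : Finset A)
      rw [← Nat.card_eq_fintype_card] at h5
      omega
    · exact ⟨2 ^ k, by ring⟩
  have hodd := odd_card hG ht h4
  -- the actions
  let act : (G →* ℂˣ) → IrrCharacter G → IrrCharacter G := fun f χ =>
    ⟨fun g => (f g : ℂ) * (χ : G → ℂ) g, isIrr_hom_mul f χ.2⟩
  have act_one : ∀ χ, act 1 χ = χ := fun χ => Subtype.ext (funext fun g => by simp [act])
  have act_mul : ∀ f f' χ, act (f * f') χ = act f (act f' χ) := fun f f' χ =>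
    Subtype.ext (funext fun g => by simp [act, mul_assoc])
  have act_comm : ∀ f f' χ, act f (act f' χ) = act f' (act f χ) := fun f f' χ =>
    Subtype.ext (funext fun g => by simp only [act]; ring)
  let Ω := {χ : IrrCharacter G // (χ : G → ℂ) 1 = 2 ∧ ∀ g, ((χ : G → ℂ) g).im = 0}
  let act1 : MulAction A Ω :=
    { smul := fun f χ => ⟨act f.1 χ.1, by
        refine ⟨by simp [act, χ.2.1], fun g => ?_⟩
        show ((f.1 g : ℂ) * (χ.1 : G → ℂ) g).im = 0
        rcases real_of_sq f.2 g with h | h
        · rw [h, one_mul]; exact χ.2.2 g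
        · rw [h, neg_one_mul, Complex.neg_im, χ.2.2 g, neg_zero]⟩
      one_smul := fun χ => Subtype.ext (act_one χ.1)
      mul_smul := fun f f' χ => Subtype.ext (act_mul f.1 f'.1 χ.1) }
  have hmod := (hDp.to_subgroup A).card_modEq_card_fixedPoints Ω
  have hodd1 : ¬ 2 ∣ Nat.card (MulAction.fixedPoints A Ω) := by
    intro h
    apply hodd
    exact (Nat.modEq_zero_iff_dvd.1 (hmod.trans (Nat.modEq_zero_iff_dvd.2 h)))
  let Ω₁ := {χ : IrrCharacter G // ((χ : G → ℂ) 1 = 2 ∧ ∀ g, ((χ : G → ℂ) g).im = 0) ∧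
    ∀ f ∈ A, act f χ = χ}
  have hcardΩ : Nat.card (MulAction.fixedPoints A Ω) = Nat.card Ω₁ := by
    refine Nat.card_congr
      { toFun := fun χ => ⟨χ.1.1, χ.1.2, fun f hf => congrArg Subtype.val (χ.2 ⟨f, hf⟩)⟩
        invFun := fun χ => ⟨⟨χ.1, χ.2.1⟩, fun f => Subtype.ext (χ.2.2 f.1 f.2)⟩
        left_inv := fun χ => rfl
        right_inv := fun χ => rfl }
  rw [hcardΩ] at hodd1
  let act2 : MulAction A₄ Ω₁ :=
    { smul := fun f χ => ⟨act f.1 χ.1, by
        refine ⟨⟨by simp [act, χ.2.1.1], fun g => ?_⟩, fun h hh => ?_⟩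
        · show ((f.1 g : ℂ) * (χ.1 : G → ℂ) g).im = 0
          apply Complex.conj_eq_iff_im.1
          have h1 : (f.1 * f.1)⁻¹ ∈ A := by
            intro g
            have : f.1 g ^ 4 = 1 := f.2 g
            rw [MonoidHom.inv_apply, MonoidHom.mul_apply, inv_pow, ← sq, ← pow_mul, this, inv_one]
          have h2 := congrFun (congrArg Subtype.val (χ.2.2 _ h1)) g
          have h2' : (((f.1 * f.1)⁻¹ g : ℂˣ) : ℂ) * (χ.1 : G → ℂ) g = (χ.1 : G → ℂ) g := h2
          have h3 : conj ((χ.1 : G → ℂ) g) = (χ.1 : G → ℂ) g :=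
            Complex.conj_eq_iff_im.2 (χ.2.1.2 g)
          have h5 := Characters.Linear.norm_hom_apply f.1 g
          have h6 : (f.1 g : ℂ) * conj (f.1 g : ℂ) = 1 := by
            rw [Complex.mul_conj, Complex.normSq_eq_norm_sq, h5]; simp
          have h7 : (((f.1 * f.1)⁻¹ g : ℂˣ) : ℂ) * ((f.1 g : ℂ) * (f.1 g : ℂ)) = 1 := by
            rw [← Units.val_mul, ← Units.val_mul]
            show (((f.1 g * f.1 g)⁻¹ * (f.1 g * f.1 g) : ℂˣ) : ℂ) = 1
            rw [inv_mul_cancel]
            rfl
          rw [map_mul, h3]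
          have h8 : conj (f.1 g : ℂ) = (((f.1 * f.1)⁻¹ g : ℂˣ) : ℂ) * (f.1 g : ℂ) := by
            have h9 : (f.1 g : ℂ) ≠ 0 := (f.1 g).ne_zero
            have h10 : (f.1 g : ℂ) * conj (f.1 g : ℂ) =
                (f.1 g : ℂ) * ((((f.1 * f.1)⁻¹ g : ℂˣ) : ℂ) * (f.1 g : ℂ)) := by
              rw [h6, ← h7]; ring
            exact mul_left_cancel₀ h9 h10
          rw [h8]
          calc (((f.1 * f.1)⁻¹ g : ℂˣ) : ℂ) * (f.1 g : ℂ) * (χ.1 : G → ℂ) g =
              (f.1 g : ℂ) * ((((f.1 * f.1)⁻¹ g : ℂˣ) : ℂ) * (χ.1 : G → ℂ) g) := by ring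
            _ = _ := by rw [h2']
        · rw [act_comm, χ.2.2 h hh]⟩
      one_smul := fun χ => Subtype.ext (act_one χ.1)
      mul_smul := fun f f' χ => Subtype.ext (act_mul f.1 f'.1 χ.1) }
  obtain ⟨χ, hχ⟩ := (hDp.to_subgroup A₄).nonempty_fixed_point_of_prime_not_dvd_card Ω₁ hodd1
  have hle := card_le_of_fixed χ.1.2 (d := 2) (by rw [χ.2.1.1]; norm_num) (A₄ : Set (G →* ℂˣ))
    (fun f hf g => congrFun (congrArg (fun x => (x.1 : IrrCharacter G).1) (hχ ⟨f, hf⟩)) g)
  have hle' : Nat.card A₄ ≤ 4 := hle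
  have hAeq : A = A₄ := by
    apply SetLike.coe_injective
    apply Set.eq_of_subset_of_ncard_le hAA ?_ (Set.toFinite _)
    show Nat.card A₄ ≤ Nat.card A
    exact hle'.trans (Nat.le_of_dvd Nat.card_pos h4)
  have hcardA : Nat.card A = 4 := by
    have := Nat.le_of_dvd Nat.card_pos h4
    rw [← hAeq] at hle'
    omega
  -- `D = A`
  have hDA : A = ⊤ := by
    by_contra hne
    obtain ⟨f, hf⟩ : ∃ f, f ∉ A := by
      by_contra h
      push Not at h
      exact hne (eq_top_iff.2 fun x _ => h x)
    obtain ⟨k, hk⟩ := hDp f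
    -- the least k with f ^ 2 ^ k ∈ A
    have hex : ∃ k, f ^ 2 ^ k ∈ A := ⟨k, by rw [hk]; exact A.one_mem⟩
    have h1 := Nat.find_spec hex
    have h2 : Nat.find hex ≠ 0 := by
      intro h
      rw [h, pow_zero, pow_one] at h1
      exact hf h1
    obtain ⟨j, hj⟩ := Nat.exists_eq_succ_of_ne_zero h2
    have h3 : f ^ 2 ^ j ∉ A := Nat.find_min hex (by omega)
    apply h3
    rw [hAeq]
    intro g
    rw [hj] at h1
    have h5 : ((f ^ 2 ^ (j + 1)) g) ^ 2 = 1 := h1 g
    have h6 : ∀ n : ℕ, (f ^ n) g = f g ^ n := fun n => rfl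
    rw [h6] at h5 ⊢
    rw [← h5, ← pow_mul, ← pow_mul]
    congr 1
    ring
  apply hidx
  rw [← Characters.Linear.card_hom_eq_index_commutator, ← hcardA, hDA]
  exact (Nat.card_congr Subgroup.topEquiv.toEquiv).symm

end Cfsg.Agent.S4477
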