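import Cfsg.Statements.S4478
import Cfsg.Agent.Characters.Core
import Cfsg.Agent.Blocks.Basic
import Cfsg.Agent.S0158
import Cfsg.Agent.S0165
set_option linter.all false

set_option autoImplicit false
open Cfsg

namespace Cfsg.Agent.S4478

variable {G : Type*} [Group G] [Fintype G]

/-- Squaring permutes the elements of odd order. -/
theorem sum_odd (f : G → ℂ) [DecidablePred fun g : G => Odd (orderOf g)] :
    ∑ g : G with Odd (orderOf g), f (g * g) = ∑ g : G with Odd (orderOf g), f g := by
  classical
  have hodd : ∀ g : G, Odd (orderOf g) → Odd (orderOf (g * g)) := by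
    intro g hg
    rw [← pow_two]
    exact hg.of_dvd_nat (orderOf_pow_dvd 2)
  refine Finset.sum_bij (fun g _ => g * g) ?_ ?_ ?_ (fun _ _ => rfl)
  · intro g hg
    simp only [Finset.mem_filter, Finset.mem_univ, true_and] at hg ⊢
    exact hodd g hg
  · intro g hg h hh hgh
    simp only [Finset.mem_filter, Finset.mem_univ, true_and] at hg hh
    have hgh' : g * g = h * h := hgh
    have hN : Odd (orderOf g * orderOf h) := hg.mul hh
    obtain ⟨k, hk⟩ := hN
    have e1 : g ^ (orderOf g * orderOf h) = 1 := by rw [pow_mul, pow_orderOf_eq_one, one_pow]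
    have e2 : h ^ (orderOf g * orderOf h) = 1 := by
      rw [mul_comm, pow_mul, pow_orderOf_eq_one, one_pow]
    have e3 : ∀ u : G, u ^ (orderOf g * orderOf h) = 1 → u = (u * u) ^ (k + 1) := by
      intro u hu
      calc u = u ^ (orderOf g * orderOf h) * u := by rw [hu, one_mul]
        _ = u ^ (2 * (k + 1)) := by rw [← pow_succ, hk]; congr 1
        _ = (u * u) ^ (k + 1) := by rw [pow_mul, pow_two]
    rw [e3 g e1, e3 h e2, hgh']
  · intro g hg
    simp only [Finset.mem_filter, Finset.mem_univ, true_and] at hg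
    obtain ⟨k, hk⟩ := hg
    refine ⟨g ^ (k + 1), ?_, ?_⟩
    · simp only [Finset.mem_filter, Finset.mem_univ, true_and]
      exact Odd.of_dvd_nat ⟨k, hk⟩ (orderOf_pow_dvd _)
    · have e1 : g ^ (orderOf g) = 1 := pow_orderOf_eq_one g
      calc g ^ (k + 1) * g ^ (k + 1) = g ^ (orderOf g) * g := by
            rw [← pow_add, ← pow_succ, hk]; congr 1; ring
        _ = g := by rw [e1, one_mul]

/-- Let G be a finite group of even order and χ an irreducible character of G whose degree x is divisible by the full power of 2 dividing the order of G and, for every odd prime p such that G has an element of order 2p, by the full power of p dividing the order of G. Then all involutions of G are conjugate, the centralizer of every involution has order exactly x with x coprime to its index, and the Frobenius–Schur indicator of χ equals 1. -/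
theorem result {G : Type*} [Group G] [Fintype G] (heven : Even (Nat.card G)) (χ : Cfsg.IrrCharacter G) (h2 : 2 ^ (Nat.card G).factorization 2 ∣ Cfsg.charDegree (χ : G → ℂ)) (hp : ∀ p : ℕ, p.Prime → p ≠ 2 → (∃ g : G, orderOf g = 2 * p) → p ^ (Nat.card G).factorization p ∣ Cfsg.charDegree (χ : G → ℂ)) : (∀ s t : G, orderOf s = 2 → orderOf t = 2 → IsConj s t) ∧ (∀ s : G, orderOf s = 2 → Nat.card (Subgroup.centralizer ({s} : Set G)) = Cfsg.charDegree (χ : G → ℂ) ∧ (Nat.card (Subgroup.centralizer ({s} : Set G))).Coprime (Subgroup.centralizer ({s} : Set G)).index) ∧ (Nat.card G : ℂ)⁻¹ * ∑ g : G, (χ : G → ℂ) (g * g) = 1 := by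
  classical
  set x := Cfsg.charDegree (χ : G → ℂ) with hxdef
  have hx1 : (χ : G → ℂ) 1 = x := Cfsg.Agent.Blocks.Basic.irr_one_eq_charDegree χ.2
  have hx0 : 0 < x := Cfsg.Agent.Blocks.Basic.charDegree_pos χ.2
  have hG0 : Nat.card G ≠ 0 := Nat.card_pos.ne'
  have hvan : ∀ r : ℕ, r.Prime → r ^ (Nat.card G).factorization r ∣ x → ∀ g : G,
      r ∣ orderOf g → (χ : G → ℂ) g = 0 := by
    intro r hr hrx g hg
    obtain ⟨n, ρ, hρ, hρχ⟩ := χ.2
    have hd : Module.finrank ℂ (Fin n → ℂ) = x := by
      have h1 : (χ : G → ℂ) 1 = (Module.finrank ℂ (Fin n → ℂ) : ℂ) := by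
        rw [← hρχ]; simp [Representation.character]
      rw [hx1] at h1
      exact_mod_cast h1.symm
    have := Cfsg.Agent.S0165.result ρ r ((Nat.card G).factorization r) hr
      (Nat.ordProj_dvd _ _) (Nat.pow_succ_factorization_not_dvd hG0 hr) (by rw [hd]; exact hrx) g hg
    rw [hρχ] at this
    exact this
  have h2a : 2 ∣ x := by
    refine dvd_trans ?_ h2
    refine dvd_pow_self 2 ?_
    exact (Nat.Prime.factorization_pos_of_dvd Nat.prime_two hG0 heven.two_dvd).ne'
  -- the sum
  have hodd : ∑ g : G with Odd (orderOf g), (χ : G → ℂ) g = 0 := by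
    have h3 : ∑ g : G, (χ : G → ℂ) g = 0 := by
      have h4 := Cfsg.Agent.Characters.Core.classInner_irr_ne (G := G) χ.2
        Cfsg.Agent.Characters.Core.isIrr_one (fun h => by
          have h5 : (χ : G → ℂ) 1 = 1 := by rw [h]; rfl
          rw [hx1] at h5
          have h6 : x = 1 := by exact_mod_cast h5
          omega)
      rw [Cfsg.Agent.Characters.Core.classInner_def] at h4
      simp only [Pi.one_apply, map_one, mul_one, mul_eq_zero, inv_eq_zero] at h4
      rcases h4 with h4 | h4
      · exact absurd h4 (by exact_mod_cast hG0)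
      · exact h4
    refine Eq.trans ?_ h3
    rw [Finset.sum_filter]
    refine Finset.sum_congr rfl fun g _ => ?_
    split_ifs with hg
    · rfl
    · rw [hvan 2 Nat.prime_two h2 g (Nat.not_odd_iff_even.1 hg).two_dvd]
  have hsq : ∀ g : G, ¬ Odd (orderOf g) → (χ : G → ℂ) (g * g) = if orderOf g = 2 then (x : ℂ) else 0 := by
    intro g hg
    rw [Nat.not_odd_iff_even] at hg
    obtain ⟨m, hm⟩ := hg.two_dvd
    have hm0 : m ≠ 0 := by
      rintro rfl
      exact (orderOf_pos g).ne' hm
    have hgg : orderOf (g * g) = m := by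
      rw [← pow_two, orderOf_pow_of_dvd two_ne_zero hg.two_dvd, hm,
        Nat.mul_div_cancel_left _ two_pos]
    split_ifs with hg2
    · have h3 : g * g = 1 := by rw [← pow_two, ← hg2, pow_orderOf_eq_one]
      rw [h3, hx1]
    · by_cases hme : 2 ∣ m
      · exact hvan 2 Nat.prime_two h2 _ (by rw [hgg]; exact hme)
      · obtain ⟨r, hr, hrm⟩ := Nat.exists_prime_and_dvd (n := m) (by
          rintro rfl
          exact hg2 hm)
        obtain ⟨c, hc⟩ := hrm
        have hc0 : c ≠ 0 := by
          rintro rfl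
          rw [mul_zero] at hc
          exact hm0 hc
        have hr2 : r ≠ 2 := by
          rintro rfl
          exact hme ⟨c, hc⟩
        refine hvan r hr (hp r hr hr2 ⟨g ^ c, ?_⟩) _ (by rw [hgg]; exact ⟨c, hc⟩)
        rw [orderOf_pow_of_dvd hc0 (by rw [hm, hc]; exact ⟨2 * r, by ring⟩), hm, hc,
          show 2 * (r * c) = 2 * r * c by ring, Nat.mul_div_cancel _ (Nat.pos_of_ne_zero hc0)]
  set t := Nat.card {g : G // orderOf g = 2} with ht
  have hsum : ∑ g : G, (χ : G → ℂ) (g * g) = (t : ℂ) * x := by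
    rw [← Finset.sum_filter_add_sum_filter_not Finset.univ (fun g : G => Odd (orderOf g)),
      sum_odd (χ : G → ℂ), hodd, zero_add]
    rw [Finset.sum_congr rfl fun g hg => hsq g (Finset.mem_filter.1 hg).2]
    rw [Finset.sum_filter]
    have h3 : ∀ g : G, (if ¬ Odd (orderOf g) then (if orderOf g = 2 then (x : ℂ) else 0) else 0) =
        if orderOf g = 2 then (x : ℂ) else 0 := by
      intro g
      by_cases hg : orderOf g = 2
      · rw [hg]; simp
      · simp [hg]
    simp_rw [h3]
    rw [← Finset.sum_filter, Finset.sum_const, nsmul_eq_mul, ht, Nat.card_eq_fintype_card,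
      Fintype.card_subtype]
  obtain ⟨s₀, hs₀⟩ := exists_prime_orderOf_dvd_card' (G := G) 2 heven.two_dvd
  have ht0 : 0 < t := by
    have : Nonempty {g : G // orderOf g = 2} := ⟨⟨s₀, hs₀⟩⟩
    exact Nat.card_pos
  have hν : (Nat.card G : ℂ)⁻¹ * ∑ g : G, (χ : G → ℂ) (g * g) = 1 := by
    obtain ⟨n, ρ, hρ, hρχ⟩ := χ.2
    have h3 := (Cfsg.Agent.S0158.result ρ).1
    rw [hρχ, hsum] at h3
    rw [hsum]
    have h4 : ((Nat.card G : ℂ)⁻¹ * ((t : ℂ) * x)) = (((Nat.card G : ℝ)⁻¹ * ((t : ℝ) * x) : ℝ) : ℂ) := by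
      push_cast; ring
    have h5 : 0 < (Nat.card G : ℝ)⁻¹ * ((t : ℝ) * x) := by
      have h6 : (0 : ℝ) < Nat.card G := by exact_mod_cast Nat.card_pos
      have h7 : (0 : ℝ) < t := by exact_mod_cast ht0
      have h8 : (0 : ℝ) < x := by exact_mod_cast hx0
      positivity
    rcases h3 with h3 | h3 | h3
    · rw [h4] at h3
      have : (Nat.card G : ℝ)⁻¹ * ((t : ℝ) * x) = 0 := by exact_mod_cast h3
      linarith
    · exact h3
    · rw [h4] at h3
      have : (Nat.card G : ℝ)⁻¹ * ((t : ℝ) * x) = -1 := by exact_mod_cast h3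
      linarith
  have hcard : t * x = Nat.card G := by
    rw [hsum] at hν
    have h3 : (Nat.card G : ℂ) ≠ 0 := by exact_mod_cast hG0
    field_simp at hν
    exact_mod_cast hν
  -- centralizers
  have hfull : ∀ s : G, orderOf s = 2 → ∀ r : ℕ, r.Prime →
      r ∣ Nat.card (Subgroup.centralizer ({s} : Set G)) → r ^ (Nat.card G).factorization r ∣ x := by
    intro s hs r hr hrs
    by_cases hr2 : r = 2
    · rw [hr2]; exact h2
    · have := Fact.mk hr
      obtain ⟨h, hh⟩ := exists_prime_orderOf_dvd_card' r hrs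
      refine hp r hr hr2 ⟨s * h, ?_⟩
      have hc : Commute s (h : G) := (Subgroup.mem_centralizer_singleton_iff.1 h.2).symm
      rw [hc.orderOf_mul_eq_mul_orderOf_of_coprime, hs, Subgroup.orderOf_coe, hh]
      rw [hs, Subgroup.orderOf_coe, hh]
      exact (Nat.coprime_primes Nat.prime_two hr).2 (Ne.symm hr2)
  have hdvd : ∀ s : G, orderOf s = 2 → Nat.card (Subgroup.centralizer ({s} : Set G)) ∣ x := by
    intro s hs
    refine (Nat.factorization_prime_le_iff_dvd Nat.card_pos.ne' hx0.ne').1 fun r hr => ?_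
    by_cases hrs : r ∣ Nat.card (Subgroup.centralizer ({s} : Set G))
    · refine le_trans ((Nat.factorization_le_iff_dvd Nat.card_pos.ne' hG0).2
        (Subgroup.card_subgroup_dvd_card _) r) ?_
      exact (hr.pow_dvd_iff_le_factorization hx0.ne').1 (hfull s hs r hr hrs)
    · rw [Nat.factorization_eq_zero_of_not_dvd hrs]
      exact Nat.zero_le _
  have hclass : ∀ s : G, orderOf s = 2 → (∀ g : G, orderOf g = 2 → IsConj s g) ∧
      (Subgroup.centralizer ({s} : Set G)).index = t := by
    intro s hs
    have h3 : (Subgroup.centralizer ({s} : Set G)).index = (ConjClasses.mk s).carrier.ncard :=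
      Cfsg.Agent.Blocks.Basic.index_centralizer_eq_ncard s
    have h4 := (Subgroup.centralizer ({s} : Set G)).card_mul_index
    have h5 : t ≤ (Subgroup.centralizer ({s} : Set G)).index := by
      have h6 := Nat.le_of_dvd hx0 (hdvd s hs)
      by_contra hcon
      push Not at hcon
      have h7 : Nat.card (Subgroup.centralizer ({s} : Set G)) *
          (Subgroup.centralizer ({s} : Set G)).index < x * t := by
        calc Nat.card (Subgroup.centralizer ({s} : Set G)) *
          (Subgroup.centralizer ({s} : Set G)).index ≤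
            x * (Subgroup.centralizer ({s} : Set G)).index := Nat.mul_le_mul_right _ h6
          _ < x * t := Nat.mul_lt_mul_of_pos_left hcon hx0
      rw [h4, ← hcard, mul_comm] at h7
      exact lt_irrefl _ h7
    have h6 : (ConjClasses.mk s).carrier ⊆ {g : G | orderOf g = 2} := by
      intro g hg
      rw [ConjClasses.mem_carrier_iff_mk_eq, ConjClasses.mk_eq_mk_iff_isConj] at hg
      obtain ⟨c, rfl⟩ := isConj_iff.1 hg.symm
      show orderOf (c * s * c⁻¹) = 2
      rw [← hs, ← MulAut.conj_apply]
      exact orderOf_injective (MulAut.conj c).toMonoidHom (MulAut.conj c).injective s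
    have h7 : t = ({g : G | orderOf g = 2} : Set G).ncard := rfl
    have h8 : (ConjClasses.mk s).carrier = {g : G | orderOf g = 2} :=
      Set.eq_of_subset_of_ncard_le h6 (by rw [← h7, ← h3]; exact h5) (Set.toFinite _)
    refine ⟨fun g hg => ?_, ?_⟩
    · have h9 : g ∈ (ConjClasses.mk s).carrier := by rw [h8]; exact hg
      rw [ConjClasses.mem_carrier_iff_mk_eq, ConjClasses.mk_eq_mk_iff_isConj] at h9
      exact h9.symm
    · rw [h3, h8, h7]
  have hcx : ∀ s : G, orderOf s = 2 → Nat.card (Subgroup.centralizer ({s} : Set G)) = x := by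
    intro s hs
    have h4 := (Subgroup.centralizer ({s} : Set G)).card_mul_index
    rw [(hclass s hs).2, ← hcard, mul_comm t x] at h4
    exact Nat.eq_of_mul_eq_mul_right ht0 h4
  refine ⟨fun s g hs hg => (hclass s hs).1 g hg, fun s hs => ⟨hcx s hs, ?_⟩, hν⟩
  rw [(hclass s hs).2, Nat.coprime_iff_gcd_eq_one]
  by_contra hcon
  obtain ⟨r, hr, hrd⟩ := Nat.exists_prime_and_dvd hcon
  have hr1 : r ∣ Nat.card (Subgroup.centralizer ({s} : Set G)) := hrd.trans (Nat.gcd_dvd_left _ _)
  have hr2 : r ∣ t := hrd.trans (Nat.gcd_dvd_right _ _)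
  have h3 := hfull s hs r hr hr1
  have h4 : r ^ ((Nat.card G).factorization r + 1) ∣ Nat.card G := by
    have h5 : r ^ (Nat.card G).factorization r * r ∣ x * t := Nat.mul_dvd_mul h3 hr2
    rwa [mul_comm x t, hcard, ← pow_succ] at h5
  exact Nat.pow_succ_factorization_not_dvd hG0 hr h4

end Cfsg.Agent.S4478
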