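import Cfsg.Agent.S4475
import Cfsg.Agent.Characters.Core
import Cfsg.Agent.H608.Klein
import Cfsg.Agent.CharactersDeep.FeitOddAux
import Cfsg.Statements.S4480
set_option linter.all false

-- part: H608/Indicator
section
/-!
# Irreducible characters with indicator `-1` have even degree
-/

set_option autoImplicit false

open Cfsg Cfsg.Agent.Characters

namespace Cfsg.Agent.H608.Indicator

/-- An irreducible character with indicator `-1` has even degree. -/
theorem even_of_indicator {G : Type*} [Group G] [Fintype G] {χ : G → ℂ} (hχ : IsIrrCharacter G χ)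
    (hreal : ∀ g, (χ g).im = 0) (h : (Nat.card G : ℂ)⁻¹ * ∑ s : G, χ (s * s) = -1) {d : ℕ}
    (hd : χ 1 = d) : Even d := by
  obtain ⟨n, ρ, hρ, rfl⟩ := hχ
  have hirr : ρ.IsIrreducible := hρ
  have hdn : d = n := by
    have h1 : ρ.character 1 = (Module.finrank ℂ (Fin n → ℂ) : ℂ) := Representation.char_one ρ
    rw [hd] at h1
    have h2 : d = Module.finrank ℂ (Fin n → ℂ) := by exact_mod_cast h1
    rw [h2, Module.finrank_fin_fun]
  rw [hdn]
  obtain ⟨⟨A, hA0, hA⟩, hT⟩ := Cfsg.Agent.S4475.result n ρ hirr hreal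
  have hskew : A.transpose = -A := by
    have := hT A hA
    rw [h] at this
    simpa using this
  by_contra hodd
  rw [Nat.not_even_iff_odd] at hodd
  have hdet : A.det = 0 := by
    have h1 : A.det = (-1 : ℂ) ^ n * A.det := by
      conv_lhs => rw [← Matrix.det_transpose, hskew, Matrix.det_neg, Fintype.card_fin]
    rw [hodd.neg_one_pow] at h1
    have : A.det + A.det = 0 := by
      nth_rewrite 1 [h1]; ring
    exact add_self_eq_zero.1 this
  obtain ⟨v, hv0, hv⟩ := Matrix.exists_mulVec_eq_zero_iff.2 hdet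
  -- the kernel is invariant
  let K : Submodule ℂ (Fin n → ℂ) := LinearMap.ker (Matrix.toLin' A)
  have hinv : ∀ g : G, ∀ w ∈ K, ρ g w ∈ K := by
    intro g w hw
    have hw' : A.mulVec w = 0 := by
      have : Matrix.toLin' A w = 0 := hw
      rwa [Matrix.toLin'_apply] at this
    have h1 := congrArg (fun B : Matrix (Fin n) (Fin n) ℂ => B.mulVec w) (hA g)
    simp only [hw'] at h1
    rw [← Matrix.mulVec_mulVec, ← Matrix.mulVec_mulVec] at h1
    have h2 : (LinearMap.toMatrix' (ρ g)).mulVec w = ρ g w := by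
      rw [← Matrix.toLin'_apply, Matrix.toLin'_toMatrix']
    rw [h2] at h1
    have h3 : (LinearMap.toMatrix' (ρ g⁻¹)).transpose.mulVec
        ((LinearMap.toMatrix' (ρ g)).transpose.mulVec (A.mulVec (ρ g w))) = 0 := by
      rw [h1, Matrix.mulVec_zero]
    rw [Matrix.mulVec_mulVec, ← Matrix.transpose_mul, ← LinearMap.toMatrix'_mul, ← map_mul,
      mul_inv_cancel, map_one, LinearMap.toMatrix'_one, Matrix.transpose_one,
      Matrix.one_mulVec] at h3
    show Matrix.toLin' A (ρ g w) = 0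
    rw [Matrix.toLin'_apply, h3]
  let S : Subrepresentation ρ := ⟨K, fun g w hw => hinv g w hw⟩
  rcases hirr.eq_bot_or_eq_top S with h1 | h1
  · have h2 : K = ⊥ := congrArg Subrepresentation.toSubmodule h1
    apply hv0
    have h3 : v ∈ K := by
      show Matrix.toLin' A v = 0
      rw [Matrix.toLin'_apply, hv]
    rw [h2] at h3
    exact (Submodule.mem_bot ℂ).1 h3
  · have h2 : K = ⊤ := congrArg Subrepresentation.toSubmodule h1
    apply hA0
    have h3 : Matrix.toLin' A = 0 := LinearMap.ker_eq_top.1 h2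
    exact (LinearEquiv.map_eq_zero_iff Matrix.toLin').1 h3

end Cfsg.Agent.H608.Indicator
end

-- part: H608/KleinReal
section
/-!
# Klein four Sylow 2-subgroups, the case `ε₁ ε₂ ε₃ = -1`

The two characters of the principal 2-block with value `1` at involutions are complex conjugate.
-/

set_option autoImplicit false

open Cfsg Subgroup Cfsg.Agent.Blocks Cfsg.Agent.Blocks.Basic Cfsg.Agent.Blocks.Local
open Cfsg.Agent.Characters
open scoped ComplexConjugate

namespace Cfsg.Agent.H608.Klein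

universe u

variable {G : Type u} [Group G] [Finite G]

theorem centralizer_inv_singleton (g : G) :
    centralizer ({g⁻¹} : Set G) = centralizer ({g} : Set G) := by
  ext x
  rw [mem_centralizer_singleton_iff, mem_centralizer_singleton_iff]
  constructor
  · intro h
    have h1 : Commute x g⁻¹ := h
    exact (Commute.inv_right_iff.1 h1).eq
  · intro h
    have h1 : Commute x g := h
    exact (Commute.inv_right_iff.2 h1).eq

theorem centralChar_conj {χ : G → ℂ} (hχ : IsIrrCharacter G χ) (g : G) :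
    centralChar (fun x => conj (χ x)) g = centralChar χ g⁻¹ := by
  obtain ⟨d, -, hd⟩ := Core.isIrr_apply_one hχ
  show ((centralizer ({g} : Set G)).index : ℂ) * conj (χ g) / conj (χ 1) =
    ((centralizer ({g⁻¹} : Set G)).index : ℂ) * χ g⁻¹ / χ 1
  rw [centralizer_inv_singleton, Core.isCharacter_apply_inv (Core.isIrr_isCharacter hχ), hd,
    map_natCast]

/-- The principal block is closed under complex conjugation. -/
theorem conj_mem_principalBlock {M : Ideal AlgInt} {χ : IrrCharacter G}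
    (hχ : χ ∈ principalBlock M G) :
    (⟨fun g => conj ((χ : G → ℂ) g), Core.isIrr_conj χ.2⟩ : IrrCharacter G) ∈
      principalBlock M G := by
  rw [PrincipalSection.mem_principalBlock_iff] at hχ ⊢
  intro g
  have h1 := hχ g⁻¹
  show MemLocalIdeal M (centralChar (fun _ => (1 : ℂ)) g -
    centralChar (fun x => conj ((χ : G → ℂ) x)) g)
  rw [centralChar_conj χ.2]
  have h2 : centralChar (fun _ : G => (1 : ℂ)) g = centralChar (fun _ : G => (1 : ℂ)) g⁻¹ := by
    unfold centralChar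
    rw [centralizer_inv_singleton]
  rw [h2]
  exact h1

variable {M : Ideal AlgInt} {g₀ : ℕ} {P : Sylow 2 G} {J : G} {χ₁ χ₂ χ₃ : IrrCharacter G}
  {ε₁ ε₂ ε₃ : ℤ}

/-- There are no elements whose square has `2`-part `J`. -/
theorem no_square (hP : IsKleinFour (P : Subgroup G)) (hJ2 : orderOf J = 2) (s : G)
    (u : centralizer ({J} : Set G)) (hu : ¬ 2 ∣ orderOf u) : s * s ≠ J * (u : G) := by
  have : Fact (Nat.Prime 2) := ⟨Nat.prime_two⟩
  intro hs
  have hJJ : J * J = 1 := by rw [← sq, ← hJ2, pow_orderOf_eq_one]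
  have hcu : Commute J (u : G) := (mem_centralizer_singleton_iff.1 u.2).symm
  obtain ⟨k, hk⟩ : Odd (orderOf u) := Nat.odd_iff.2 (by omega)
  have hpow : (s * s) ^ orderOf u = J := by
    rw [hs, hcu.mul_pow, ← Subgroup.orderOf_coe, pow_orderOf_eq_one, Subgroup.orderOf_coe, mul_one,
      hk, pow_succ, pow_mul, sq, hJJ, one_pow, one_mul]
  set r := s ^ orderOf u with hr
  have hrr : r * r = J := by
    refine Eq.trans ?_ hpow
    rw [hr, ← sq, ← sq, ← pow_mul, ← pow_mul, mul_comm]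
  have hr4 : r ^ 2 ^ 2 = 1 := by
    have : r ^ 2 ^ 2 = (r * r) * (r * r) := by
      rw [show (2 : ℕ) ^ 2 = 2 + 2 from rfl, pow_add, sq]
    rw [this, hrr, hJJ]
  have hzp : IsPGroup 2 (Subgroup.zpowers r) := by
    obtain ⟨k, -, hk⟩ := (Nat.dvd_prime_pow Nat.prime_two).1 (orderOf_dvd_of_pow_eq_one hr4)
    refine IsPGroup.of_card (n := k) ?_
    rw [Nat.card_zpowers, hk]
  obtain ⟨S', hS'⟩ := hzp.exists_le_sylow
  obtain ⟨g, hg⟩ := MulAction.exists_smul_eq G S' P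
  have hmem : g * r * g⁻¹ ∈ (P : Subgroup G) := by
    rw [← hg]
    exact ⟨r, hS' (Subgroup.mem_zpowers r), rfl⟩
  have hk := hP
  have h2 := IsKleinFour.mul_self (⟨_, hmem⟩ : (P : Subgroup G))
  have h3 : g * r * g⁻¹ * (g * r * g⁻¹) = 1 := congrArg Subtype.val h2
  have h4 : J = 1 := by
    rw [← hrr]
    calc r * r = g⁻¹ * (g * r * g⁻¹ * (g * r * g⁻¹)) * g := by group
      _ = 1 := by rw [h3]; group
  rw [h4, orderOf_one] at hJ2
  omega

theorem KHyp.odd_degree (h : KHyp M g₀ P J χ₁ χ₂ χ₃ ε₁ ε₂ ε₃) {χ : IrrCharacter G} {ε : ℤ}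
    (hε : ε = 1 ∨ ε = -1) (hv : (χ : G → ℂ) J = ε) : Odd (charDegree (χ : G → ℂ)) := by
  obtain ⟨x, hx, hx'⟩ := CharactersDeep.FeitOddAux.exists_int_apply χ.2 h.hJ2
  have h1 := hx' _ (KHyp.deg χ).1
  rw [hv] at hx
  have h2 : ε = x := by exact_mod_cast hx
  rw [← h2] at h1
  obtain ⟨k, hk⟩ := h1
  rw [Nat.odd_iff]
  rcases hε with rfl | rfl <;> omega

/-- The indicator of an irreducible character of odd degree is `0` or `1`; if it is `0`, then the
character is not real. -/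
theorem exists_indicator_of_odd [Fintype G] (χ : IrrCharacter G)
    (hodd : Odd (charDegree (χ : G → ℂ))) :
    ∃ n : ℤ, (n = 0 ∨ n = 1) ∧ (Nat.card G : ℂ)⁻¹ * ∑ s : G, (χ : G → ℂ) (s * s) = n ∧
      (n = 0 → ∃ g, ((χ : G → ℂ) g).im ≠ 0) := by
  obtain ⟨n, h1, h2, h3⟩ := CharactersDeep.FeitOddAux.exists_indicator χ.2
  refine ⟨n, ?_, h2, h3.1⟩
  rcases h1 with h1 | h1 | h1
  · exact Or.inl h1
  · exact Or.inr h1
  · exfalso
    rw [← Nat.not_even_iff_odd] at hodd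
    apply hodd
    refine Indicator.even_of_indicator χ.2 (fun g => ?_) (by rw [h2, h1]; simp) (KHyp.deg χ).1
    by_contra hg
    have := h3.2 ⟨g, hg⟩
    omega

theorem KHyp.signs (h : KHyp M g₀ P J χ₁ χ₂ χ₃ ε₁ ε₂ ε₃) (hprod : ε₁ * ε₂ * ε₃ = -1)
    (hε₃ : ε₃ = -1) : ε₁ = 1 ∧ ε₂ = 1 := by
  obtain ⟨h1, h2, -⟩ := h.hε
  have h3 := h.degree_eq
  have d1 := (KHyp.deg χ₁).2
  have d2 := (KHyp.deg χ₂).2
  have d3 := (KHyp.deg χ₃).2
  subst hε₃
  rcases h1 with rfl | rfl <;> rcases h2 with rfl | rfl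
  · exact ⟨rfl, rfl⟩
  · omega
  · omega
  · exfalso; omega

theorem KHyp.charDegree_eq (h : KHyp M g₀ P J χ₁ χ₂ χ₃ ε₁ ε₂ ε₃) (hprod : ε₁ * ε₂ * ε₃ = -1)
    (hε₃ : ε₃ = -1) : charDegree (χ₁ : G → ℂ) = charDegree (χ₂ : G → ℂ) := by
  classical
  have := Fintype.ofFinite G
  have : Fact (Nat.Prime 2) := ⟨Nat.prime_two⟩
  obtain ⟨e1, e2⟩ := h.signs hprod hε₃
  obtain ⟨ρ, hρ, hH⟩ := h.ret
  have h1 := SecProj.sum_indicator h.hM hH (fun s u hu => no_square h.klein h.hJ2 s u hu)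
  rw [h.finsum_eq] at h1
  obtain ⟨v1, v2, v3⟩ := h.hval
  obtain ⟨n1, a1, b1, c1⟩ := exists_indicator_of_odd χ₁ (h.odd_degree h.hε.1 v1)
  obtain ⟨n2, a2, b2, c2⟩ := exists_indicator_of_odd χ₂ (h.odd_degree h.hε.2.1 v2)
  obtain ⟨n3, a3, b3, c3⟩ := exists_indicator_of_odd χ₃ (h.odd_degree h.hε.2.2 v3)
  have hG : (Nat.card G : ℂ) ≠ 0 := by exact_mod_cast Nat.card_pos.ne'
  have b0 : (Nat.card G : ℂ)⁻¹ * ∑ s : G, ((⟨fun _ => 1, isIrrCharacter_one⟩ : IrrCharacter G) :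
      G → ℂ) (s * s) = 1 := by
    simp only [Finset.sum_const, Finset.card_univ, nsmul_eq_mul, mul_one]
    rw [← Nat.card_eq_fintype_card]
    exact inv_mul_cancel₀ hG
  rw [b0, b1, b2, b3, v1, v2, v3, e1, e2, hε₃] at h1
  simp only [map_one, map_intCast] at h1
  have h2 : (1 : ℤ) + n1 + n2 - n3 = 0 := by
    have : (((1 : ℤ) + n1 + n2 - n3 : ℤ) : ℂ) = ((0 : ℤ) : ℂ) := by
      push_cast
      push_cast at h1
      rw [← h1]; ring
    exact_mod_cast this
  have h3 : n1 = 0 := by omega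
  obtain ⟨g, hg⟩ := c1 h3
  have hmem : χ₁ ∈ principalBlock M G := by
    rw [h.hB]; exact Or.inr (Or.inl rfl)
  have hc := conj_mem_principalBlock hmem
  rw [h.hB] at hc
  rcases hc with hc | hc | hc | hc
  · exfalso
    have hc' : (fun g => conj ((χ₁ : G → ℂ) g)) = fun _ => 1 := hc
    have := congrFun hc' g
    apply hg
    have h4 := congrArg Complex.im this
    simp at h4
    exact h4
  · exfalso
    have := congrFun (congrArg Subtype.val hc) g
    apply hg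
    exact Complex.conj_eq_iff_im.1 this
  · rw [← hc]
    obtain ⟨d, -, hd⟩ := Core.isIrr_apply_one χ₁.2
    unfold charDegree
    simp [hd]
  · exfalso
    have := congrFun (congrArg Subtype.val hc) J
    have h5 : conj ((χ₁ : G → ℂ) J) = (χ₃ : G → ℂ) J := this
    rw [v1, v3, e1, hε₃] at h5
    simp at h5
    norm_num at h5

end Cfsg.Agent.H608.Klein
end

-- part: S4480
section
set_option autoImplicit false
open Cfsg

namespace Cfsg.Agent.S4480

/-- Same setting as the Klein-four order formula: G of order 4·g₀ (g₀ odd) with no normal 2-complement, P a Sylow 2-subgroup, J an involution of P, M over 2, principal 2-block {1, χ₁, χ₂, χ₃} with χ_i(J) = ε_i = ±1. Suppose ε₁ε₂ε₃ = −1 and ε₃ = −1, and put q = x₃ = χ₃(1). Then there is a natural number m with 4·c(J) = m·c(P)·(q + 1), and the order of G equals (m³·c(P)/4)·(q³ − q)/2, that is 8·#G = m³·c(P)·(q³ − q). -/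
theorem result {G : Type*} [Group G] [Finite G] (M : Ideal Cfsg.AlgInt) (hM : Cfsg.IsPModular 2 M) (g₀ : ℕ) (hg₀ : Odd g₀) (hG : Nat.card G = 4 * g₀) (hnc : ¬ ∃ N : Subgroup G, N.Normal ∧ Nat.card N = g₀) (P : Sylow 2 G) (J : G) (hJ : J ∈ (P : Subgroup G)) (hJ2 : orderOf J = 2) (χ₁ χ₂ χ₃ : Cfsg.IrrCharacter G) (ε₁ ε₂ ε₃ : ℤ) (hB : Cfsg.principalBlock M G = {χ : Cfsg.IrrCharacter G | (χ : G → ℂ) = (fun _ => 1) ∨ χ = χ₁ ∨ χ = χ₂ ∨ χ = χ₃}) (hdist : (χ₁ : G → ℂ) ≠ (fun _ => 1) ∧ (χ₂ : G → ℂ) ≠ (fun _ => 1) ∧ (χ₃ : G → ℂ) ≠ (fun _ => 1) ∧ χ₁ ≠ χ₂ ∧ χ₁ ≠ χ₃ ∧ χ₂ ≠ χ₃) (hε : (ε₁ = 1 ∨ ε₁ = -1) ∧ (ε₂ = 1 ∨ ε₂ = -1) ∧ (ε₃ = 1 ∨ ε₃ = -1)) (hval : (χ₁ : G → ℂ) J = ε₁ ∧ (χ₂ : G → ℂ) J = ε₂ ∧ (χ₃ : G → ℂ) J = ε₃) (hprod : ε₁ * ε₂ * ε₃ = -1) (hε₃ : ε₃ = -1) : ∃ m : ℕ, 4 * Nat.card (Subgroup.centralizer ({J} : Set G)) = m * Nat.card (Subgroup.centralizer ((P : Subgroup G) : Set G)) * (Cfsg.charDegree (χ₃ : G → ℂ) + 1) ∧ 8 * Nat.card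 G = m ^ 3 * Nat.card (Subgroup.centralizer ((P : Subgroup G) : Set G)) * (Cfsg.charDegree (χ₃ : G → ℂ) ^ 3 - Cfsg.charDegree (χ₃ : G → ℂ)) := by
  have h : Cfsg.Agent.H608.Klein.KHyp M g₀ P J χ₁ χ₂ χ₃ ε₁ ε₂ ε₃ :=
    ⟨hM, hg₀, hG, hnc, hJ, hJ2, hB, hdist, hε, hval⟩
  obtain ⟨e1, e2⟩ := h.signs hprod hε₃
  have h1 := h.order_eq
  have h2 := h.degree_eq
  have h3 := h.charDegree_eq hprod hε₃
  have d1 := (Cfsg.Agent.H608.Klein.KHyp.deg χ₁).2
  have d3 := (Cfsg.Agent.H608.Klein.KHyp.deg χ₃).2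
  have hcl : Nat.card {x : G // IsConj J x} = (Subgroup.centralizer ({J} : Set G)).index :=
    Cfsg.Agent.Blocks.Central.card_isConj J
  have k1 := Cfsg.Agent.CharactersDeep.FeitOddAux.degree_dvd_card_mul χ₁.2 (t := J)
    (Cfsg.Agent.H608.Klein.KHyp.deg χ₁).1 hcl hval.1
  have k3 := Cfsg.Agent.CharactersDeep.FeitOddAux.degree_dvd_card_mul χ₃.2 (t := J)
    (Cfsg.Agent.H608.Klein.KHyp.deg χ₃).1 hcl hval.2.2
  have hidx := (Subgroup.centralizer ({J} : Set G)).card_mul_index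
  rw [← h3, e1, e2, hε₃] at h1
  rw [← h3, e1, e2, hε₃] at h2
  rw [e1] at k1
  rw [hε₃] at k3
  have hd : 0 < Nat.card (Subgroup.centralizer ((P : Subgroup G) : Set G)) := Nat.card_pos
  have hc : 0 < Nat.card (Subgroup.centralizer ({J} : Set G)) := Nat.card_pos
  have hn : 0 < Nat.card G := Nat.card_pos
  generalize Cfsg.charDegree (χ₁ : G → ℂ) = x at *
  generalize Cfsg.charDegree (χ₃ : G → ℂ) = q at *
  generalize Nat.card (Subgroup.centralizer ({J} : Set G)) = c at *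
  generalize Nat.card (Subgroup.centralizer ((P : Subgroup G) : Set G)) = d at *
  generalize (Subgroup.centralizer ({J} : Set G)).index = k at *
  generalize Nat.card G = n at *
  have hq : q = 2 * x + 1 := by push_cast at h2; omega
  obtain ⟨a, ha⟩ := k1
  obtain ⟨b', hb'⟩ := k3
  obtain ⟨b, hb⟩ : ∃ b : ℤ, (k : ℤ) = q * b := ⟨-b', by linarith⟩
  have ha' : (k : ℤ) = x * a := by linarith
  have hx0 : (0 : ℚ) < x := by exact_mod_cast d1
  have hq0 : (0 : ℚ) < q := by exact_mod_cast d3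
  have hcq : (0 : ℚ) < c := by exact_mod_cast hc
  have hdq : (0 : ℚ) < d := by exact_mod_cast hd
  -- the order formula
  have hord : (n : ℚ) * (q + 1) ^ 2 * d ^ 2 = 8 * c ^ 3 * (q * (q - 1)) := by
    have hxq : (x : ℚ) = (q - 1) / 2 := by
      rw [hq]; push_cast; ring
    have hq1 : (q : ℚ) - 1 ≠ 0 := by
      have : (q : ℚ) - 1 = 2 * x := by rw [hq]; push_cast; ring
      rw [this]; positivity
    rw [hxq] at h1
    push_cast at h1
    field_simp at h1
    linarith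
  -- the square
  have hsq : (4 * (c : ℤ)) ^ 2 = ((d : ℤ) * (q + 1)) ^ 2 * (a - 2 * b) := by
    have hk : (c : ℚ) * k = n := by exact_mod_cast hidx
    have hkk : (k : ℚ) * (q + 1) ^ 2 * d ^ 2 = 8 * c ^ 2 * (q * (q - 1)) := by
      have : (c : ℚ) * ((k : ℚ) * (q + 1) ^ 2 * d ^ 2) = c * (8 * c ^ 2 * (q * (q - 1))) := by
        rw [← hk] at hord
        linarith
      exact mul_left_cancel₀ hcq.ne' this
    have haq : (k : ℚ) = x * a := by exact_mod_cast ha'
    have hbq : (k : ℚ) = q * b := by exact_mod_cast hb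
    have hqx : (q : ℚ) = 2 * x + 1 := by rw [hq]; push_cast; ring
    have e3 : (a : ℚ) * (q + 1) ^ 2 * d ^ 2 = 16 * c ^ 2 * q := by
      have : (x : ℚ) * ((a : ℚ) * (q + 1) ^ 2 * d ^ 2) = x * (16 * c ^ 2 * q) := by
        have h5 : (q : ℚ) - 1 = 2 * x := by rw [hqx]; ring
        rw [h5, haq] at hkk
        linarith
      exact mul_left_cancel₀ hx0.ne' this
    have e4 : (b : ℚ) * (q + 1) ^ 2 * d ^ 2 = 8 * c ^ 2 * (q - 1) := by
      have : (q : ℚ) * ((b : ℚ) * (q + 1) ^ 2 * d ^ 2) = q * (8 * c ^ 2 * (q - 1)) := by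
        rw [hbq] at hkk
        linarith
      exact mul_left_cancel₀ hq0.ne' this
    have e5 : (4 * (c : ℚ)) ^ 2 = ((d : ℚ) * (q + 1)) ^ 2 * (a - 2 * b) := by
      linear_combination 2 * e4 - e3
    exact_mod_cast e5
  have hdvd : d * (q + 1) ∣ 4 * c := by
    have h6 : ((d : ℤ) * (q + 1)) ^ 2 ∣ (4 * (c : ℤ)) ^ 2 := ⟨_, hsq⟩
    have h7 : (d * (q + 1)) ^ 2 ∣ (4 * c) ^ 2 := by exact_mod_cast h6
    exact (Nat.pow_dvd_pow_iff (by norm_num)).1 h7
  obtain ⟨m, hm⟩ := hdvd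
  refine ⟨m, by rw [hm]; ring, ?_⟩
  have hmq : (4 : ℚ) * c = d * (q + 1) * m := by exact_mod_cast hm
  have hle : q ≤ q ^ 3 := Nat.le_self_pow (by norm_num) q
  have goal : (8 : ℚ) * n = m ^ 3 * d * (q ^ 3 - q) := by
    have h8 : ((q : ℚ) + 1) ^ 2 * d ^ 2 * (8 * n) =
        ((q : ℚ) + 1) ^ 2 * d ^ 2 * (m ^ 3 * d * (q ^ 3 - q)) := by
      have h9 : (64 : ℚ) * c ^ 3 = (d * (q + 1) * m) ^ 3 := by rw [← hmq]; ring
      linear_combination 8 * hord + (q * (q - 1)) * h9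
    exact mul_left_cancel₀ (by positivity) h8
  zify [hle]
  exact_mod_cast goal

end Cfsg.Agent.S4480
end
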