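import Cfsg.Agent.H603.Final
import Cfsg.Statements.S4485
set_option linter.all false

-- part: H603/Faithful
section
/-!
# Faithful characters of small degree under the uniform centralizer condition
-/

set_option autoImplicit false

namespace Cfsg.Agent.H603.Faithful

open Cfsg Cfsg.Agent.Characters.Core Cfsg.Agent.H603.Cent Cfsg.Agent.H603.Ind
open scoped ComplexConjugate

universe u

variable {p : ℕ}

/-- The hypothesis passes to subgroups containing `Q`. -/
theorem hyp_subgroupOf {G : Type u} [Group G] {Q K : Subgroup G} (h : Hyp p Q) (hQK : Q ≤ K) :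
    Hyp p (Q.subgroupOf K) where
  ne_bot := by
    intro h1
    apply h.ne_bot
    have h2 := Subgroup.map_subgroupOf_eq_of_le hQK
    rw [h1, Subgroup.map_bot] at h2
    exact h2.symm
  star := by
    intro x hx hx1
    have hxQ : (x : G) ∈ Q := hx
    have hx1' : (x : G) ≠ 1 := fun h1 => hx1 (Subtype.ext h1)
    ext k
    rw [Subgroup.mem_centralizer_singleton_iff, Subgroup.mem_centralizer_iff]
    constructor
    · intro h1 y hy
      have h2 : (k : G) ∈ Subgroup.centralizer ({(x : G)} : Set G) := by
        rw [Subgroup.mem_centralizer_singleton_iff]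
        exact congrArg Subtype.val h1
      rw [h.star x hxQ hx1', Subgroup.mem_centralizer_iff] at h2
      exact Subtype.ext (h2 y hy)
    · intro h1
      exact (h1 x hx).symm
  pgroup := by
    intro x
    obtain ⟨k, hk⟩ := h.pgroup ⟨(x : K), x.2⟩
    refine ⟨k, ?_⟩
    have h1 := congrArg Subtype.val hk
    apply Subtype.ext
    apply Subtype.ext
    simpa using h1
  max := by
    intro c hc k hk
    show (c : G) ∈ Q
    apply h.max (c : G) _ k
    · have := congrArg Subtype.val hk
      simpa using this
    · rw [Subgroup.mem_centralizer_iff] at hc ⊢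
      intro y hy
      exact congrArg Subtype.val (hc ⟨y, hQK hy⟩ hy)

theorem main (m : ℕ) : ∀ {G : Type u} [Group G] [Finite G] [Fact p.Prime] (P : Sylow p G),
    Nat.card G ≤ m → Hyp p (P : Subgroup G) → ∀ (χ : G → ℂ), IsCharacter G χ →
      (∀ g : G, χ g = χ 1 → g = 1) → ∀ x : ℕ, χ 1 = x → x ^ 2 + 1 < Nat.card (P : Subgroup G) →
        (P : Subgroup G).Normal := by
  induction m with
  | zero =>
    intro G _ _ _ P hm
    exact absurd hm (by have := Nat.card_pos (α := G); omega)
  | succ m ih =>
    intro G _ _ _ P hm h χ hχ hf x hx hdeg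
    classical
    have hfin : Finite (IrrCharacter G) := finite_irr
    have : Fintype (IrrCharacter G) := Fintype.ofFinite _
    obtain ⟨n, hn⟩ := exists_nat_comb hχ
    choose d hdpos hd using fun i : IrrCharacter G => isIrr_apply_one i.2
    have hxd : x = ∑ i, n i * d i := by
      have h1 := congrFun hn 1
      rw [hx, Finset.sum_apply] at h1
      have h2 : (x : ℂ) = ((∑ i, n i * d i : ℕ) : ℂ) := by
        rw [h1]
        push_cast
        refine Finset.sum_congr rfl fun i _ => ?_
        rw [Pi.smul_apply, nsmul_eq_mul, hd i]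
      exact_mod_cast h2
    by_cases hbig : ∃ i, 0 < n i ∧ 2 ≤ d i
    · obtain ⟨i, hni, hdi⟩ := hbig
      have hdx : d i ≤ x := by
        rw [hxd]
        calc d i ≤ n i * d i := Nat.le_mul_of_pos_left _ hni
          _ ≤ ∑ i, n i * d i := Finset.single_le_sum (f := fun i => n i * d i)
            (fun _ _ => Nat.zero_le _) (Finset.mem_univ i)
      obtain ⟨K, hKn, hKt, hPK⟩ := Final.exists_normal P h i.2 (d i) (hd i) hdi
        (lt_of_le_of_lt (by gcongr) hdeg)
      -- induction
      have hcard : Nat.card K < Nat.card G := by
        have h1 : K.index ≠ 1 := fun h1 => hKt (Subgroup.index_eq_one.1 h1)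
        have h2 := Subgroup.index_mul_card K
        have h3 : K.index ≠ 0 := Subgroup.index_ne_zero_of_finite
        have h4 : 2 ≤ K.index := by omega
        have h5 := Nat.card_pos (α := K)
        nlinarith
      have hPs : ((P.subtype hPK : Sylow p K) : Subgroup K) = (P : Subgroup G).subgroupOf K :=
        Sylow.coe_subtype _ _
      have hP' : ((P.subtype hPK : Sylow p K) : Subgroup K).Normal := by
        refine ih (P.subtype hPK) (by omega) ?_ (fun k => χ k)
          (isCharacter_comp K.subtype hχ) ?_ x hx ?_
        · rw [hPs]; exact hyp_subgroupOf h hPK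
        · intro k hk
          exact Subtype.ext (hf k hk)
        · rw [hPs, Nat.card_congr (Subgroup.subgroupOfEquivOfLe hPK).toEquiv]
          exact hdeg
      have hchar := Sylow.characteristic_of_normal _ hP'
      have h1 : (((P.subtype hPK : Sylow p K) : Subgroup K).map K.subtype).Normal :=
        ConjAct.normal_of_characteristic_of_normal
      rw [hPs, Subgroup.map_subgroupOf_eq_of_le hPK] at h1
      exact h1
    · push Not at hbig
      have hcomm : ∀ a b : G, a * b = b * a := by
        intro a b
        have h1 : χ ((b * a)⁻¹ * (a * b)) = χ 1 := by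
          rw [hn, Finset.sum_apply, Finset.sum_apply]
          refine Finset.sum_congr rfl fun i _ => ?_
          rw [Pi.smul_apply, Pi.smul_apply]
          rcases Nat.eq_zero_or_pos (n i) with h0 | h0
          · rw [h0, zero_smul, zero_smul]
          · have h2 : d i = 1 := by
              have := hbig i h0
              have := hdpos i
              omega
            have h3 : (i : G → ℂ) 1 = 1 := by rw [hd i, h2, Nat.cast_one]
            obtain ⟨f, hf'⟩ := Characters.Linear.exists_hom_of_isIrrCharacter i.2 h3
            rw [hf']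
            show n i • ((f ((b * a)⁻¹ * (a * b)) : ℂˣ) : ℂ) = n i • ((f 1 : ℂˣ) : ℂ)
            rw [map_mul, map_inv, map_mul, map_mul, mul_comm (f b), inv_mul_cancel, map_one]
        have h2 := hf _ h1
        have h3 : b * a * ((b * a)⁻¹ * (a * b)) = a * b := by group
        rw [h2, mul_one] at h3
        exact h3.symm
      refine ⟨fun y hy g => ?_⟩
      rw [hcomm g y, mul_inv_cancel_right]
      exact hy

end Cfsg.Agent.H603.Faithful
end

-- part: S4485
section
set_option autoImplicit false
open Cfsg

namespace Cfsg.Agent.S4485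

open Cfsg.Agent.Characters.Core

theorem apply_one_eq {G : Type*} [Group G] {χ : G → ℂ} (hχ : Cfsg.IsCharacter G χ) :
    χ 1 = (Cfsg.charDegree χ : ℂ) := by
  obtain ⟨n, hn⟩ := isCharacter_apply_one hχ
  unfold Cfsg.charDegree
  rw [hn]
  simp

/-- Let G be a finite group and p a prime dividing its order such that every non-identity element of a Sylow p-subgroup P has the same centralizer as P itself (so P is abelian); let p^n be the order of P. If G has a faithful character of degree x with x² < p^n − 1, then P is normal in G. -/
theorem result {G : Type*} [Group G] [Finite G] (p : ℕ) (hp : p.Prime) (hpG : p ∣ Nat.card G) (P : Sylow p G) (hstar : ∀ x ∈ (P : Subgroup G), x ≠ 1 → Subgroup.centralizer ({x} : Set G) = Subgroup.centralizer ((P : Subgroup G) : Set G)) (n : ℕ) (hn : Nat.card P = p ^ n) (χ : G → ℂ) (hχ : Cfsg.IsCharacter G χ) (hfaith : ∀ g : G, χ g = χ 1 → g = 1) (hdeg : Cfsg.charDegree χ ^ 2 + 1 < p ^ n) : (P : Subgroup G).Normal := by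
  have : Fact p.Prime := ⟨hp⟩
  have h := Cfsg.Agent.H603.Cent.hyp_of_sylow P hpG hstar
  have hPn : Nat.card (P : Subgroup G) = p ^ n := hn
  exact Cfsg.Agent.H603.Faithful.main (Nat.card G) P le_rfl h χ hχ hfaith _ (apply_one_eq hχ)
    (by rw [hPn]; exact hdeg)

end Cfsg.Agent.S4485
end
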