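import Mathlib
import Cfsg.Statements.S4489
import Cfsg.Agent.Characters.Core
import Cfsg.Agent.Characters.Clifford
import Cfsg.Agent.Characters.GaloisIrr
import Cfsg.Agent.CharactersDeep.NormalInd
import Cfsg.Agent.CharactersDeep.PrimeIndex
import Cfsg.Agent.CharDeep.LinearChar
import Cfsg.Agent.CharDeep.PowerDegrees
import Cfsg.Agent.Blocks.Basic
import Cfsg.Agent.S0139
import Cfsg.Agent.S0146
import Cfsg.Agent.S0148
import Cfsg.Agent.S0174
import Cfsg.Agent.S0176
import Cfsg.Agent.S0193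
set_option linter.all false

/-!
# The order of a p-group with a faithful irreducible character, by its degree and field of values

Induction on the group.  The Galois orbit of `χ` is replaced by the set `orb p χ` of the functions
`g ↦ χ (g ^ m)`, `m` prime to `p`; it has at most `[ℚ(χ) : ℚ]` elements.
-/

set_option autoImplicit false
open Cfsg

namespace Cfsg.Agent.S4489

open scoped ComplexConjugate
open Cfsg.Agent.Characters.Core Cfsg.Agent.CharactersDeep.NormalInd

universe u

/-- the functions `g ↦ χ (g ^ m)`, `m` prime to `p` -/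
def orb {G : Type u} [Group G] (p : ℕ) (χ : G → ℂ) : Set (G → ℂ) :=
  {ψ | ∃ m : ℕ, ¬ p ∣ m ∧ ψ = fun g => χ (g ^ m)}

theorem coprime_card {G : Type u} [Group G] [Finite G] {p : ℕ} [hp : Fact p.Prime]
    (hG : IsPGroup p G) {m : ℕ} (hm : ¬ p ∣ m) : m.Coprime (Nat.card G) := by
  obtain ⟨n, hn⟩ := IsPGroup.iff_card.1 hG
  rw [hn]
  exact (Nat.Coprime.pow_left n ((hp.out.coprime_iff_not_dvd).2 hm)).symm

theorem isIrr_of_mem_orb {G : Type u} [Group G] [Finite G] {p : ℕ} [Fact p.Prime]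
    (hG : IsPGroup p G) {χ ψ : G → ℂ} (hχ : IsIrrCharacter G χ) (h : ψ ∈ orb p χ) :
    IsIrrCharacter G ψ := by
  obtain ⟨m, hm, rfl⟩ := h
  exact Characters.GaloisIrr.isIrr_pow (coprime_card hG hm) hχ

theorem finite_orb {G : Type u} [Group G] [Finite G] {p : ℕ} [Fact p.Prime]
    (hG : IsPGroup p G) {χ : G → ℂ} (hχ : IsIrrCharacter G χ) : (orb p χ).Finite := by
  have h1 : Finite (IrrCharacter G) := finite_irr
  have h2 : ({ψ : G → ℂ | IsIrrCharacter G ψ}).Finite := h1
  exact h2.subset fun ψ hψ => isIrr_of_mem_orb hG hχ hψ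

/-- inverse exponent -/
theorem exists_inv_pow {G : Type u} [Group G] [Finite G] {p : ℕ} [Fact p.Prime]
    (hG : IsPGroup p G) {m : ℕ} (hm : ¬ p ∣ m) :
    ∃ m' : ℕ, ¬ p ∣ m' ∧ ∀ g : G, g ^ (m * m') = g := by
  have hp : p.Prime := Fact.out
  obtain ⟨n, hn⟩ := IsPGroup.iff_card.1 hG
  have hcop : m.Coprime (p ^ (n + 1)) := by
    exact (Nat.Coprime.pow_left (n + 1) ((hp.coprime_iff_not_dvd).2 hm)).symm
  obtain ⟨m', hm'⟩ := Nat.exists_mul_mod_eq_one_of_coprime hcop (Nat.one_lt_pow (by omega) hp.one_lt)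
  have hmod : m * m' ≡ 1 [MOD p ^ (n + 1)] := by
    rw [Nat.ModEq, Nat.mod_eq_of_lt (Nat.one_lt_pow (by omega) hp.one_lt)]
    exact hm'.2
  refine ⟨m', ?_, ?_⟩
  · intro h
    have h1 : m * m' ≡ 1 [MOD p] := hmod.of_dvd (dvd_pow_self p (by omega))
    have h2 : m * m' ≡ 0 [MOD p] := (Nat.modEq_zero_iff_dvd).2 (Dvd.dvd.mul_left h m)
    have h3 := (h2.symm.trans h1).symm
    have h4 : p ∣ 1 := (Nat.modEq_zero_iff_dvd).1 h3
    exact hp.one_lt.ne' (Nat.dvd_one.1 h4)
  · intro g
    have h1 : orderOf g ∣ p ^ (n + 1) := by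
      have := orderOf_dvd_natCard g
      rw [hn] at this
      exact this.trans (pow_dvd_pow p (by omega))
    have h2 : g ^ (m * m') = g ^ 1 := pow_eq_pow_iff_modEq.2 (hmod.of_dvd h1)
    rw [h2, pow_one]

/-- the kernel of a character -/
theorem exists_ker {G : Type u} [Group G] [Finite G] {χ : G → ℂ} (hχ : IsCharacter G χ) :
    ∃ K : Subgroup G, K.Normal ∧ ∀ g, g ∈ K ↔ χ g = χ 1 := by
  obtain ⟨n, ρ, rfl⟩ := hχ
  refine ⟨(ρ : G →* _).ker, inferInstance, fun g => ?_⟩
  rw [MonoidHom.mem_ker]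
  have h1 := Cfsg.Agent.S0139.result ρ g
  rw [Representation.char_one, h1]
  rfl

/-- a maximal subgroup of index `p` containing a proper subgroup -/
theorem exists_maximal {G : Type u} [Group G] [Finite G] {p : ℕ} [Fact p.Prime]
    (hG : IsPGroup p G) (H : Subgroup G) (hH : H ≠ ⊤) :
    ∃ M : Subgroup G, M.Normal ∧ M.index = p ∧ H ≤ M := by
  have hp : p.Prime := Fact.out
  obtain ⟨n, hn⟩ := IsPGroup.iff_card.1 hG
  obtain ⟨k, hk⟩ := IsPGroup.iff_card.1 (hG.to_subgroup H)
  have hkn : k < n := by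
    by_contra hcon
    push Not at hcon
    apply hH
    apply Subgroup.eq_top_of_card_eq
    apply le_antisymm (Subgroup.card_le_card_group H)
    rw [hn, hk]
    exact Nat.pow_le_pow_right hp.pos hcon
  obtain ⟨M, hM, hHM⟩ := Sylow.exists_subgroup_card_pow_prime_le (G := G) p (n := k) (m := n - 1)
    (by rw [hn]; exact pow_dvd_pow p (by omega)) H hk (by omega)
  have hidx : M.index = p := by
    have h1 := M.card_mul_index
    rw [hM, hn] at h1
    have h2 : p ^ n = p ^ (n - 1) * p := by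
      rw [← pow_succ]
      congr 1
      omega
    rw [h2] at h1
    exact Nat.eq_of_mul_eq_mul_left (pow_pos hp.pos _) h1
  refine ⟨M, ?_, hidx, hHM⟩
  apply Subgroup.normal_of_index_eq_minFac_card
  rw [hidx, hn, Nat.pow_minFac (by omega), hp.minFac_eq]

/-- a nonlinear irreducible character is induced from an irreducible character of a subgroup of
index `p` -/
theorem exists_induced {G : Type u} [Group G] [Fintype G] {p : ℕ} [Fact p.Prime]
    (hG : IsPGroup p G) {χ : G → ℂ} (hχ : IsIrrCharacter G χ) (h1 : χ 1 ≠ 1) :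
    ∃ (M : Subgroup G) (hM : M.Normal) (ψ : M → ℂ), M.index = p ∧ IsIrrCharacter M ψ ∧
      indFun M ψ = χ ∧
      ∀ g : G, (∀ n : M, ψ ⟨g * n * g⁻¹, hM.conj_mem n n.2 g⟩ = ψ n) → g ∈ M := by
  classical
  have hp : p.Prime := Fact.out
  have hnil : Group.IsNilpotent G := hG.isNilpotent
  obtain ⟨H, lam, hlam⟩ := Cfsg.Agent.S0176.result χ hχ
  have hH : H ≠ ⊤ := by
    intro h
    apply h1
    have h2 : H.index = 1 := by rw [h, Subgroup.index_top]
    rw [hlam, indFun_one, h2]
    simp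
  obtain ⟨M, hM, hMi, hHM⟩ := exists_maximal hG H hH
  have := Fintype.ofFinite M
  have hvan : ∀ g : G, g ∉ M → χ g = 0 := by
    intro g hg
    rw [hlam, Characters.Core.indFun_apply]
    have h2 : ∀ x : G, extendByZero H (fun h => (lam h : ℂ)) (x⁻¹ * g * x) = 0 := by
      intro x
      apply Characters.Core.extendByZero_of_notMem
      intro h3
      apply hg
      have h4 := hM.conj_mem _ (hHM h3) x
      have h5 : x * (x⁻¹ * g * x) * x⁻¹ = g := by group
      rwa [h5] at h4
    rw [Finset.sum_eq_zero fun x _ => h2 x, mul_zero]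
  -- the norm of the restriction
  have hnorm : classInner (fun k : M => χ k) (fun k : M => χ k) = p := by
    have h2 := classInner_irr_self hχ
    rw [classInner_def] at h2 ⊢
    rw [CharactersDeep.PrimeIndex.sum_subtype_eq M (fun g => χ g * conj (χ g))
      (fun g hg => by rw [hvan g hg, zero_mul])] at h2
    have h3 := M.card_mul_index
    rw [hMi] at h3
    have hc : (Nat.card G : ℂ) = Nat.card M * p := by exact_mod_cast h3.symm
    have hc0 : (Nat.card M : ℂ) ≠ 0 := card_ne_zero_complex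
    have hp0 : (p : ℂ) ≠ 0 := by exact_mod_cast hp.ne_zero
    rw [hc] at h2
    field_simp at h2 ⊢
    rw [h2]
  -- a constituent
  obtain ⟨ψ, hψ, hne⟩ : ∃ ψ : M → ℂ, IsIrrCharacter M ψ ∧ classInner (fun k : M => χ k) ψ ≠ 0 := by
    by_contra hcon
    push Not at hcon
    have hcf : IsClassFunction M (fun k : M => χ k) := by
      intro g h
      exact isIrr_isClassFunction hχ g h
    have h2 := classFunction_eq_zero hcf hcon
    have h3 : χ ((1 : M) : G) = 0 := congrFun h2 1
    exact isIrr_apply_one_ne_zero hχ h3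
  -- the stabilizer
  let S : Subgroup G :=
    { carrier := {g : G | ∀ h : M, ψ ⟨g * h * g⁻¹, hM.conj_mem h h.2 g⟩ = ψ h}
      one_mem' := by
        intro h
        congr 1
        apply Subtype.ext
        simp
      mul_mem' := by
        intro a b ha hb h
        have h1 := hb h
        have h2 := ha ⟨b * h * b⁻¹, hM.conj_mem h h.2 b⟩
        rw [← h1, ← h2]
        congr 1
        apply Subtype.ext
        simp [mul_assoc]
      inv_mem' := by
        intro a ha h
        have h2 := ha ⟨a⁻¹ * h * a⁻¹⁻¹, hM.conj_mem h h.2 a⁻¹⟩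
        rw [← h2]
        congr 1
        apply Subtype.ext
        simp [mul_assoc] }
  have hMS : M ≤ S := by
    intro a ha h
    exact isIrr_isClassFunction hψ h ⟨a, ha⟩
  have hcardS : Nat.card S = Nat.card {g : G // ∀ h : M, ψ ⟨g * h * g⁻¹, hM.conj_mem h h.2 g⟩ = ψ h} :=
    rfl
  have hmul : M.relIndex S * S.index = p := by
    rw [← hMi]
    exact Subgroup.relIndex_mul_index hMS
  rcases (Nat.dvd_prime hp).1 (Dvd.intro_left _ hmul : S.index ∣ p) with h | h
  · exfalso
    have hS : S = ⊤ := Subgroup.index_eq_one.1 h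
    have hcl := Cfsg.Agent.S0174.result M hM χ hχ ψ hψ hne
    have hset : {ψ' : M → ℂ | ∃ g : G, ψ' = fun n : M => ψ ⟨g * n * g⁻¹, hM.conj_mem n n.2 g⟩} =
        {ψ} := by
      ext ψ'
      constructor
      · rintro ⟨g, rfl⟩
        have hg : g ∈ S := hS ▸ Subgroup.mem_top g
        exact funext hg
      · rintro rfl
        refine ⟨1, funext fun n => ?_⟩
        congr 1
        apply Subtype.ext
        simp
    rw [hset, finsum_mem_singleton] at hcl
    obtain ⟨e, he⟩ := classInner_isNat (Characters.Clifford.isCharacter_restrict M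
      (isIrr_isCharacter hχ)) (isIrr_isCharacter hψ)
    rw [he] at hcl
    rw [hcl, classInner_smul_left, classInner_smul_right, classInner_irr_self hψ] at hnorm
    have h2 : e * e = p := by
      have : (e : ℂ) * (e : ℂ) = p := by
        rw [← hnorm]
        simp
      exact_mod_cast this
    exact (Nat.prime_mul_iff.1 (h2 ▸ hp)).elim (fun h3 => h3.1.one_lt.ne' h3.2)
      (fun h3 => h3.1.one_lt.ne' h3.2)
  · have h2 : M.relIndex S = 1 := by
      rw [h] at hmul
      exact Nat.eq_of_mul_eq_mul_right hp.pos (by rw [hmul, one_mul])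
    have h3 : S = M := le_antisymm (Subgroup.relIndex_eq_one.1 h2) hMS
    have h193 := Cfsg.Agent.S0193.result M ψ hψ
    rw [← hcardS, h3] at h193
    have hc : (Nat.card M : ℂ) ≠ 0 := card_ne_zero_complex
    have h4 : classInner (indFun M ψ) (indFun M ψ) = 1 :=
      mul_left_cancel₀ hc (h193.trans (mul_one _).symm)
    have h5 : IsIrrCharacter G (indFun M ψ) :=
      isIrr_of_classInner_self (Cfsg.Agent.S0148.result M ψ (isIrr_isCharacter hψ)) h4
    refine ⟨M, hM, ψ, hMi, hψ, ?_, fun g hg => ?_⟩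
    · by_contra hne2
      have h6 := classInner_irr_ne h5 hχ hne2
      rw [Cfsg.Agent.S0146.result M ψ χ (isIrr_isClassFunction hχ)] at h6
      apply hne
      rw [← classInner_conj_symm, h6, map_zero]
    · have : g ∈ S := hg
      rwa [h3] at this

section step

variable {G : Type u} [Group G] [Fintype G] {p : ℕ} [hp : Fact p.Prime]

/-- powers prime to the index -/
theorem pow_mem_iff (M : Subgroup G) [M.Normal] (hMi : M.index = p) {m : ℕ} (hm : ¬ p ∣ m)
    (y : G) : y ^ m ∈ M ↔ y ∈ M := by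
  constructor
  · intro h
    have h1 : y ^ p ∈ M := by
      rw [← hMi]
      exact M.pow_index_mem y
    have hcop : Nat.Coprime m p := ((hp.out.coprime_iff_not_dvd).2 hm).symm
    have h2 := Nat.gcd_eq_gcd_ab m p
    rw [hcop] at h2
    have h3 : y = (y ^ m) ^ (Nat.gcdA m p) * (y ^ p) ^ (Nat.gcdB m p) := by
      rw [← zpow_natCast, ← zpow_natCast, ← zpow_mul, ← zpow_mul, ← zpow_add]
      rw [← h2]
      simp
    rw [h3]
    exact M.mul_mem (M.zpow_mem h _) (M.zpow_mem h1 _)
  · exact fun h => M.pow_mem h m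

theorem indFun_pow (M : Subgroup G) [M.Normal] (hMi : M.index = p) (ψ : M → ℂ) {m : ℕ}
    (hm : ¬ p ∣ m) : indFun M (fun n => ψ (n ^ m)) = fun g => indFun M ψ (g ^ m) := by
  funext g
  rw [Characters.Core.indFun_apply, Characters.Core.indFun_apply]
  congr 1
  refine Finset.sum_congr rfl fun x _ => ?_
  have h1 : x⁻¹ * g ^ m * x = (x⁻¹ * g * x) ^ m := by
    have := map_pow (MulAut.conj x⁻¹) g m
    simpa using this
  rw [h1]
  by_cases h : x⁻¹ * g * x ∈ M
  · rw [Characters.Core.extendByZero_of_mem M _ h,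
      Characters.Core.extendByZero_of_mem M _ ((pow_mem_iff M hMi hm _).2 h)]
    rfl
  · rw [Characters.Core.extendByZero_of_notMem M _ h,
      Characters.Core.extendByZero_of_notMem M _ (fun h' => h ((pow_mem_iff M hMi hm _).1 h'))]

/-- The kernel of `χ = ψ^G` consists of the elements of `M` with all conjugates in `ker ψ`. -/
theorem ind_eq_one_iff (M : Subgroup G) [hM : M.Normal] {ψ : M → ℂ}
    (hψ : IsCharacter M ψ) (hψ1 : ψ 1 ≠ 0) (g : G) :
    indFun M ψ g = indFun M ψ 1 ↔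
      ∃ hg : g ∈ M, ∀ x : G, ψ ⟨x * g * x⁻¹, hM.conj_mem g hg x⟩ = ψ 1 := by
  have hc : (Nat.card M : ℂ) ≠ 0 := card_ne_zero_complex
  have h1 : indFun M ψ 1 = (Nat.card M : ℂ)⁻¹ * ∑ _x : G, ψ 1 := by
    rw [show (1 : G) = ((1 : M) : G) from rfl, indFun_coe]
    congr 1
    refine Finset.sum_congr rfl fun x _ => ?_
    congr 1
    apply Subtype.ext
    simp
  constructor
  · intro h
    by_cases hg : g ∈ M
    · refine ⟨hg, ?_⟩
      obtain ⟨d, ρ, hρ⟩ := hψ
      have hd : ψ 1 = d := by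
        rw [← hρ, Representation.char_one]
        simp
      have h2 := indFun_coe M ψ ⟨g, hg⟩
      simp only at h2
      rw [h2, h1] at h
      have h3 : ∑ x : G, ψ ⟨x * g * x⁻¹, hM.conj_mem g hg x⟩ = ∑ _x : G, ψ 1 := by
        exact mul_left_cancel₀ (inv_ne_zero hc) h
      -- compare real parts
      have h4 : ∀ x : G, (ψ ⟨x * g * x⁻¹, hM.conj_mem g hg x⟩).re ≤ (d : ℝ) := by
        intro x
        have h5 : ‖ψ ⟨x * g * x⁻¹, hM.conj_mem g hg x⟩‖ ≤ d := by
          rw [← hρ]
          have := Cfsg.Agent.Characters.Values.norm_character_le ρ ⟨x * g * x⁻¹, hM.conj_mem g hg x⟩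
          simpa using this
        exact (Complex.re_le_norm _).trans h5
      have h6 : ∑ x : G, (ψ ⟨x * g * x⁻¹, hM.conj_mem g hg x⟩).re = ∑ _x : G, (d : ℝ) := by
        have := congrArg Complex.re h3
        rw [Complex.re_sum, Complex.re_sum] at this
        rw [this]
        refine Finset.sum_congr rfl fun x _ => ?_
        rw [hd]
        simp
      have h7 := (Finset.sum_eq_sum_iff_of_le fun x _ => h4 x).1 h6
      intro x
      have h8 : (ψ ⟨x * g * x⁻¹, hM.conj_mem g hg x⟩).re = d := h7 x (Finset.mem_univ x)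
      have h9 : ‖ψ ⟨x * g * x⁻¹, hM.conj_mem g hg x⟩‖ ≤ d := by
        rw [← hρ]
        have := Cfsg.Agent.Characters.Values.norm_character_le ρ ⟨x * g * x⁻¹, hM.conj_mem g hg x⟩
        simpa using this
      rw [hd]
      have h10 := Complex.re_le_norm (ψ ⟨x * g * x⁻¹, hM.conj_mem g hg x⟩)
      have h11 : ‖ψ ⟨x * g * x⁻¹, hM.conj_mem g hg x⟩‖ = d := le_antisymm h9 (h8 ▸ h10)
      apply Complex.ext
      · rw [h8]; simp
      · have h12 := Complex.sq_norm (ψ ⟨x * g * x⁻¹, hM.conj_mem g hg x⟩)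
        rw [h11, Complex.normSq_apply, h8] at h12
        have h13 : (ψ ⟨x * g * x⁻¹, hM.conj_mem g hg x⟩).im ^ 2 = 0 := by nlinarith
        simpa using h13
    · exfalso
      rw [indFun_of_not_mem M ψ hg, h1, Finset.sum_const, nsmul_eq_mul] at h
      have h2 : ((Finset.univ : Finset G).card : ℂ) ≠ 0 := by
        rw [Finset.card_univ]
        exact_mod_cast Fintype.card_ne_zero
      exact (mul_ne_zero (inv_ne_zero hc) (mul_ne_zero h2 hψ1)) h.symm
  · rintro ⟨hg, h⟩
    have h2 := indFun_coe M ψ ⟨g, hg⟩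
    simp only at h2
    rw [h2, h1]
    congr 1
    exact Finset.sum_congr rfl fun x _ => h x

/-- the order of the kernel -/
noncomputable def kc {G : Type u} [Group G] (χ : G → ℂ) : ℕ := Nat.card {g : G // χ g = χ 1}

theorem kc_eq {G : Type u} [Group G] {χ : G → ℂ} {K : Subgroup G}
    (hK : ∀ g, g ∈ K ↔ χ g = χ 1) : kc χ = Nat.card K :=
  Nat.card_congr (Equiv.subtypeEquivRight fun g => (hK g).symm)

/-- `|G : ker ψ^G| ≤ p |M : ker ψ|^p` -/
theorem card_bound (M : Subgroup G) [hM : M.Normal] (hMi : M.index = p) {ψ : M → ℂ}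
    (hψ : IsCharacter M ψ) (hψ1 : ψ 1 ≠ 0) {a b : ℕ}
    (ha : Nat.card G = p ^ a * kc (indFun M ψ)) (hb : Nat.card M = p ^ b * kc ψ) :
    a ≤ 1 + p * b := by
  classical
  have hp' : p.Prime := hp.out
  have hχ := Cfsg.Agent.S0148.result M ψ hψ
  obtain ⟨K, hKn, hK⟩ := exists_ker hψ
  obtain ⟨N, hNn, hN⟩ := exists_ker hχ
  rw [kc_eq hN] at ha
  rw [kc_eq hK] at hb
  have hNM : N ≤ M := by
    intro g hg
    rw [hN, ind_eq_one_iff M hψ hψ1] at hg
    exact hg.1
  -- the embedding
  let F : M → (G ⧸ M → M ⧸ K) := fun n c =>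
    ((⟨(Quotient.out c : G) * n * (Quotient.out c : G)⁻¹, hM.conj_mem n n.2 _⟩ : M) : M ⧸ K)
  have hF : ∀ n n' : M, F n = F n' → n⁻¹ * n' ∈ N.subgroupOf M := by
    intro n n' h
    rw [Subgroup.mem_subgroupOf, hN, ind_eq_one_iff M hψ hψ1]
    refine ⟨(n⁻¹ * n').2, fun x => ?_⟩
    -- write `x = m * out c`
    set c : G ⧸ M := (x : G ⧸ M) with hc
    have hx : x * (Quotient.out c : G)⁻¹ ∈ M := by
      have h1 : ((Quotient.out c : G) : G ⧸ M) = (x : G ⧸ M) := Quotient.out_eq c
      rw [QuotientGroup.eq] at h1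
      have h2 := hM.conj_mem _ h1 (Quotient.out c : G)
      have h3 : (Quotient.out c : G) * ((Quotient.out c : G)⁻¹ * x) * (Quotient.out c : G)⁻¹ =
          x * (Quotient.out c : G)⁻¹ := by group
      rwa [h3] at h2
    have h4 := congrFun h c
    have h5 := QuotientGroup.eq.1 h4
    rw [hK] at h5
    have h6 := isCharacter_isClassFunction hψ
      ((⟨(Quotient.out c : G) * n * (Quotient.out c : G)⁻¹, hM.conj_mem n n.2 _⟩ : M)⁻¹ *
        (⟨(Quotient.out c : G) * n' * (Quotient.out c : G)⁻¹, hM.conj_mem n' n'.2 _⟩ : M))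
      ⟨x * (Quotient.out c : G)⁻¹, hx⟩
    rw [h5] at h6
    rw [← h6]
    congr 1
    apply Subtype.ext
    simp only [Subgroup.coe_mul, Subgroup.coe_inv]
    group
  let F' : (M ⧸ N.subgroupOf M) → (G ⧸ M → M ⧸ K) := fun q => F (Quotient.out q)
  have hF' : Function.Injective F' := by
    intro q q' h
    have h1 := hF _ _ h
    rw [← QuotientGroup.eq] at h1
    have e1 : ((Quotient.out q : M) : M ⧸ N.subgroupOf M) = q := Quotient.out_eq q
    have e2 : ((Quotient.out q' : M) : M ⧸ N.subgroupOf M) = q' := Quotient.out_eq q'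
    rw [e1, e2] at h1
    exact h1
  have hle := Nat.card_le_card_of_injective F' hF'
  rw [Nat.card_fun] at hle
  have e1 : Nat.card (M ⧸ N.subgroupOf M) * Nat.card N = Nat.card M := by
    have := Subgroup.card_mul_index (N.subgroupOf M)
    rw [Nat.card_congr (Subgroup.subgroupOfEquivOfLe hNM).toEquiv] at this
    rw [mul_comm]
    exact this
  have e2 : Nat.card (M ⧸ K) = p ^ b := by
    have := Subgroup.card_mul_index K
    rw [hb, mul_comm (p ^ b)] at this
    exact Nat.eq_of_mul_eq_mul_left Nat.card_pos this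
  have e3 : Nat.card (G ⧸ M) = p := hMi
  rw [e2, e3] at hle
  have e4 := M.card_mul_index
  rw [hMi, ← e1, ha] at e4
  have e5 : Nat.card (M ⧸ N.subgroupOf M) * p = p ^ a := by
    have h0 : 0 < Nat.card N := Nat.card_pos
    apply Nat.eq_of_mul_eq_mul_right h0
    rw [← e4]
    ring
  have e6 : p ^ a ≤ p ^ (1 + p * b) := by
    rw [← e5, pow_add, pow_one, mul_comm p b, pow_mul, mul_comm]
    exact Nat.mul_le_mul_left p hle
  exact (Nat.pow_le_pow_iff_right hp'.one_lt).1 e6

/-- Case A : if the powers fixing `χ = ψ^G` fix `ψ`, the orbit of `ψ` is not longer. -/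
theorem orb_le (hG : IsPGroup p G) (M : Subgroup G) [hM : M.Normal] (hMi : M.index = p)
    {ψ : M → ℂ} (hχ : IsIrrCharacter G (indFun M ψ))
    (hfix : ∀ m : ℕ, ¬ p ∣ m → (fun g => indFun M ψ (g ^ m)) = indFun M ψ →
      (fun n => ψ (n ^ m)) = ψ) : Nat.card (orb p ψ) ≤ Nat.card (orb p (indFun M ψ)) := by
  have hfin : Finite (orb p (indFun M ψ)) := finite_orb hG hχ
  let F : orb p ψ → orb p (indFun M ψ) := fun ψ' => ⟨indFun M (ψ' : M → ℂ), by
    obtain ⟨m, hm, h⟩ := ψ'.2
    exact ⟨m, hm, by rw [h, indFun_pow M hMi ψ hm]⟩⟩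
  refine Nat.card_le_card_of_injective F ?_
  rintro ⟨ψ₁, m₁, hm₁, rfl⟩ ⟨ψ₂, m₂, hm₂, rfl⟩ h
  have h1 : indFun M (fun n => ψ (n ^ m₁)) = indFun M (fun n => ψ (n ^ m₂)) :=
    congrArg Subtype.val h
  rw [indFun_pow M hMi ψ hm₁, indFun_pow M hMi ψ hm₂] at h1
  obtain ⟨m', hm', hinv⟩ := exists_inv_pow hG hm₂
  have h2 : (fun g => indFun M ψ (g ^ (m' * m₁))) = indFun M ψ := by
    funext g
    rw [pow_mul]
    have h3 : indFun M ψ ((g ^ m') ^ m₁) = indFun M ψ ((g ^ m') ^ m₂) := congrFun h1 (g ^ m')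
    rw [h3, ← pow_mul, mul_comm, hinv]
  have h4 := hfix (m' * m₁) (by
    rw [hp.out.dvd_mul]
    exact fun h => h.elim hm' hm₁) h2
  apply Subtype.ext
  funext n
  have h5 : ψ ((n ^ m₂) ^ (m' * m₁)) = ψ (n ^ m₂) := congrFun h4 (n ^ m₂)
  show ψ (n ^ m₁) = ψ (n ^ m₂)
  rw [← h5]
  congr 1
  apply Subtype.ext
  have h6 := hinv (n : G)
  push_cast
  rw [← pow_mul, ← mul_assoc, pow_mul, h6]

/-- Case B : the orbit of `ψ` has at most `p` times the length. -/
theorem orb_le' (hG : IsPGroup p G) (M : Subgroup G) [hM : M.Normal] (hMi : M.index = p)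
    {ψ : M → ℂ} (hψ : IsIrrCharacter M ψ) (hχ : IsIrrCharacter G (indFun M ψ)) :
    Nat.card (orb p ψ) ≤ p * Nat.card (orb p (indFun M ψ)) := by
  classical
  have := Fintype.ofFinite M
  have hfin : Finite (orb p (indFun M ψ)) := finite_orb hG hχ
  have hmem : ∀ ψ' : orb p ψ, indFun M (ψ' : M → ℂ) ∈ orb p (indFun M ψ) := by
    rintro ⟨ψ', m, hm, rfl⟩
    exact ⟨m, hm, by rw [indFun_pow M hMi ψ hm]⟩
  -- two elements with the same image are conjugate
  have hconj : ∀ ψ₁ ψ₂ : orb p ψ, indFun M (ψ₁ : M → ℂ) = indFun M (ψ₂ : M → ℂ) →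
      ∃ g : G, (ψ₂ : M → ℂ) = (ψ₁ : M → ℂ) ∘ (MulAut.conjNormal g : MulAut M) := by
    intro ψ₁ ψ₂ h
    have i1 := isIrr_of_mem_orb (hG.to_subgroup M) hψ ψ₁.2
    have i2 := isIrr_of_mem_orb (hG.to_subgroup M) hψ ψ₂.2
    have i3 := isIrr_of_mem_orb hG hχ (hmem ψ₁)
    refine Characters.Clifford.exists_conj_of_constituents M i3 i1 i2 ?_ ?_
    · rw [← classInner_conj_symm, ← Cfsg.Agent.S0146.result M _ _ (isIrr_isClassFunction i3),
        classInner_irr_self i3, map_one]
      exact one_ne_zero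
    · rw [← classInner_conj_symm, ← Cfsg.Agent.S0146.result M _ _ (isIrr_isClassFunction i3), ← h,
        classInner_irr_self i3, map_one]
      exact one_ne_zero
  have hne : Nonempty (orb p ψ) := ⟨⟨ψ, 1, fun h => hp.out.one_lt.ne' (Nat.dvd_one.1 h), by simp⟩⟩
  -- representatives
  let im : orb p ψ → orb p (indFun M ψ) := fun ψ' => ⟨_, hmem ψ'⟩
  have hrep : ∀ ψ' : orb p ψ, im (Function.invFun im (im ψ')) = im ψ' := fun ψ' =>
    Function.invFun_eq ⟨ψ', rfl⟩
  have hch : ∀ ψ' : orb p ψ, ∃ g : G, (ψ' : M → ℂ) =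
      ((Function.invFun im (im ψ') : orb p ψ) : M → ℂ) ∘ (MulAut.conjNormal g : MulAut M) :=
    fun ψ' => hconj _ _ (congrArg Subtype.val (hrep ψ'))
  choose γ hγ using hch
  let F : orb p ψ → (G ⧸ M) × orb p (indFun M ψ) := fun ψ' => ((γ ψ' : G ⧸ M), im ψ')
  have hF : Function.Injective F := by
    intro ψ₁ ψ₂ h
    have h1 : ((γ ψ₁ : G) : G ⧸ M) = (γ ψ₂ : G) := congrArg Prod.fst h
    have h2 : im ψ₁ = im ψ₂ := congrArg Prod.snd h
    rw [QuotientGroup.eq] at h1
    apply Subtype.ext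
    rw [hγ ψ₁, hγ ψ₂, h2]
    set φ := Function.invFun im (im ψ₂)
    have iφ := isIrr_of_mem_orb (hG.to_subgroup M) hψ φ.2
    funext n
    have h3 := isIrr_isClassFunction iφ ((MulAut.conjNormal (γ ψ₂) : MulAut M) n)
      ⟨γ ψ₁ * (γ ψ₂)⁻¹, by
        have h4 := hM.conj_mem _ (M.inv_mem h1) (γ ψ₁)
        have h5 : γ ψ₁ * ((γ ψ₁)⁻¹ * γ ψ₂)⁻¹ * (γ ψ₁)⁻¹ = γ ψ₁ * (γ ψ₂)⁻¹ := by group
        rwa [h5] at h4⟩
    show (φ : M → ℂ) _ = (φ : M → ℂ) _
    rw [← h3]
    refine congrArg (φ : M → ℂ) (Subtype.ext ?_)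
    simp only [MulAut.conjNormal_apply, Subgroup.coe_mul, Subgroup.coe_inv]
    group
  have h1 := Nat.card_le_card_of_injective F hF
  rw [Nat.card_prod] at h1
  have e3 : Nat.card (G ⧸ M) = p := hMi
  rwa [e3] at h1

/-- Case B : the kernels have the same order. -/
theorem kc_eq_of_conj (M : Subgroup G) [hM : M.Normal] (hMi : M.index = p)
    {ψ : M → ℂ} (hψ : IsIrrCharacter M ψ) {m : ℕ} (g : G) (hg : g ∉ M)
    (h : (fun n => ψ (n ^ m)) = ψ ∘ (MulAut.conjNormal g : MulAut M)) :
    kc (indFun M ψ) = kc ψ := by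
  have hψc := isIrr_isCharacter hψ
  have hψ1 := isIrr_apply_one_ne_zero hψ
  obtain ⟨K, hKn, hK⟩ := exists_ker hψc
  -- `K` as a subgroup of `G` is normalised by `M` and `g`
  let L : Subgroup G := K.map M.subtype
  have hLmem : ∀ x : G, x ∈ L ↔ ∃ hx : x ∈ M, (⟨x, hx⟩ : M) ∈ K := by
    intro x
    constructor
    · rintro ⟨y, hy, rfl⟩
      exact ⟨y.2, hy⟩
    · rintro ⟨hx, hy⟩
      exact ⟨⟨x, hx⟩, hy, rfl⟩
  have hMn : M ≤ Subgroup.normalizer (L : Set G) := by
    intro y hy
    rw [Subgroup.mem_normalizer_iff]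
    have key : ∀ z ∈ M, ∀ x ∈ L, z * x * z⁻¹ ∈ L := by
      intro z hz x hx
      obtain ⟨hxM, hxK⟩ := (hLmem x).1 hx
      refine (hLmem _).2 ⟨M.mul_mem (M.mul_mem hz hxM) (M.inv_mem hz), ?_⟩
      exact hKn.conj_mem _ hxK ⟨z, hz⟩
    intro x
    constructor
    · exact key y hy x
    · intro hx
      have := key y⁻¹ (M.inv_mem hy) _ hx
      simpa [mul_assoc] using this
  have hgK : ∀ x ∈ L, g * x * g⁻¹ ∈ L := by
    intro x hx
    obtain ⟨hxM, hxK⟩ := (hLmem x).1 hx
    refine (hLmem _).2 ⟨hM.conj_mem x hxM g, ?_⟩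
    rw [hK]
    have h1 : ψ ((⟨x, hxM⟩ : M) ^ m) = ψ ((MulAut.conjNormal g : MulAut M) ⟨x, hxM⟩) :=
      congrFun h ⟨x, hxM⟩
    have h2 : ψ ((⟨x, hxM⟩ : M) ^ m) = ψ 1 := (hK _).1 (K.pow_mem hxK m)
    rw [← h2, h1]
    congr 1
  have hgn : g ∈ Subgroup.normalizer (L : Set G) := by
    rw [Subgroup.mem_normalizer_iff]
    -- finite: conjugation by `g` maps `L` onto `L`
    have hsub : L.map (MulAut.conj g).toMonoidHom ≤ L := by
      rintro _ ⟨x, hx, rfl⟩
      exact hgK x hx
    have hcard : Nat.card (L.map (MulAut.conj g).toMonoidHom) = Nat.card L :=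
      Subgroup.card_map_of_injective (MulAut.conj g).injective
    have heq : L.map (MulAut.conj g).toMonoidHom = L :=
      Subgroup.eq_of_le_of_card_ge hsub hcard.ge
    intro x
    constructor
    · exact hgK x
    · intro hx
      rw [← heq] at hx
      obtain ⟨y, hy, hyx⟩ := hx
      have : y = x := (MulAut.conj g).injective hyx
      exact this ▸ hy
  have htop : Subgroup.normalizer (L : Set G) = ⊤ := by
    have h1 : (Subgroup.normalizer (L : Set G)).index ∣ p := by
      rw [← hMi]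
      exact Subgroup.index_dvd_of_le hMn
    rcases (Nat.dvd_prime hp.out).1 h1 with h2 | h2
    · exact Subgroup.index_eq_one.1 h2
    · exfalso
      apply hg
      have h3 : M.relIndex (Subgroup.normalizer (L : Set G)) = 1 := by
        have h4 := Subgroup.relIndex_mul_index hMn
        rw [h2, hMi] at h4
        exact Nat.eq_of_mul_eq_mul_right hp.out.pos (by rw [h4, one_mul])
      exact (Subgroup.relIndex_eq_one.1 h3) hgn
  have hLn : L.Normal := Subgroup.normalizer_eq_top_iff.1 htop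
  unfold kc
  refine Nat.card_congr
    { toFun := fun x => ⟨⟨x, ((ind_eq_one_iff M hψc hψ1 _).1 x.2).1⟩, ?_⟩
      invFun := fun n => ⟨(n : M), ?_⟩
      left_inv := fun x => rfl
      right_inv := fun n => rfl }
  · obtain ⟨hx, hx'⟩ := (ind_eq_one_iff M hψc hψ1 _).1 x.2
    refine Eq.trans ?_ (hx' 1)
    congr 1
    apply Subtype.ext
    simp
  · rw [ind_eq_one_iff M hψc hψ1]
    refine ⟨n.1.2, fun x => ?_⟩
    have h1 : ((n : M) : G) ∈ L := (hLmem _).2 ⟨n.1.2, (hK _).2 n.2⟩
    obtain ⟨h2, h3⟩ := (hLmem _).1 (hLn.conj_mem _ h1 x)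
    exact (hK _).1 h3

end step

/-- a linear character of a `p`-group with kernel of index `p ^ a` has at least `φ (p ^ a)`
conjugates -/
theorem totient_le {G : Type u} [Group G] [Finite G] {p : ℕ} [hp : Fact p.Prime]
    (hG : IsPGroup p G) {χ : G → ℂ} (hχ : IsIrrCharacter G χ) (h1 : χ 1 = 1) {a : ℕ}
    (ha : Nat.card G = p ^ a * kc χ) : (p ^ a).totient ≤ Nat.card (orb p χ) := by
  classical
  have hp' : p.Prime := hp.out
  have hfin : Finite (orb p χ) := finite_orb hG hχ
  obtain ⟨f, hf⟩ := CharDeep.LinearChar.exists_hom_of_isCharacter (isIrr_isCharacter hχ) h1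
  -- the kernel and the range
  have hker : ∀ g, g ∈ f.ker ↔ χ g = χ 1 := by
    intro g
    rw [MonoidHom.mem_ker, h1, hf]
    constructor
    · intro h; rw [h]; simp
    · intro h; exact Units.ext h
  have hrange : Nat.card f.range = p ^ a := by
    rw [kc_eq hker] at ha
    have h2 := f.ker.card_mul_index
    rw [Subgroup.index_ker, ha, mul_comm (p ^ a)] at h2
    exact Nat.eq_of_mul_eq_mul_left Nat.card_pos h2
  have hfr : Finite f.range := Nat.finite_of_card_ne_zero (by rw [hrange]; exact (pow_pos hp'.pos a).ne')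
  have hcyc : IsCyclic f.range := inferInstance
  obtain ⟨z, hz⟩ := hcyc.exists_ofOrder_eq_natCard
  obtain ⟨g₀, hg₀⟩ := z.2
  have hord : orderOf (f g₀) = p ^ a := by
    rw [hg₀, ← hrange, ← hz, Subgroup.orderOf_coe]
  -- the map from residues prime to `p ^ a`
  let S : Finset ℕ := (Finset.range (p ^ a)).filter (fun m => (p ^ a).Coprime m)
  have hS : S.card = (p ^ a).totient := by
    rw [Nat.totient_eq_card_coprime]
  rcases Nat.eq_zero_or_pos a with h0 | h0
  · subst h0
    rw [pow_zero, Nat.totient_one]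
    have : Nonempty (orb p χ) := ⟨⟨χ, 1, fun h => hp'.one_lt.ne' (Nat.dvd_one.1 h), by simp⟩⟩
    exact Nat.card_pos
  have hmem : ∀ m ∈ S, ¬ p ∣ m := by
    intro m hm
    have h3 := (Finset.mem_filter.1 hm).2
    intro h4
    have h5 := Nat.dvd_gcd (dvd_pow_self p h0.ne') h4
    rw [h3] at h5
    exact hp'.one_lt.ne' (Nat.dvd_one.1 h5)
  let F : S → orb p χ := fun m => ⟨fun g => χ (g ^ (m : ℕ)), m, hmem m m.2, rfl⟩
  have hF : Function.Injective F := by
    rintro ⟨m, hm⟩ ⟨m', hm'⟩ h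
    have h2 : χ (g₀ ^ m) = χ (g₀ ^ m') := congrFun (congrArg Subtype.val h) g₀
    rw [hf, hf, map_pow, map_pow] at h2
    have h3 : (f g₀) ^ m = (f g₀) ^ m' := Units.ext h2
    rw [pow_eq_pow_iff_modEq, hord] at h3
    have h4 := Finset.mem_range.1 (Finset.mem_filter.1 hm).1
    have h5 := Finset.mem_range.1 (Finset.mem_filter.1 hm').1
    apply Subtype.ext
    exact Nat.ModEq.eq_of_lt_of_lt h3 h4 h5
  have h6 := Nat.card_le_card_of_injective F hF
  rwa [Nat.card_eq_fintype_card, Fintype.card_coe, hS] at h6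

/-- The bound, for characters with kernel. -/
theorem bound (p : ℕ) [hp : Fact p.Prime] : ∀ (n : ℕ) (G : Type u) [Group G] [Finite G],
    Nat.card G = n → IsPGroup p G → ∀ (χ : G → ℂ), IsIrrCharacter G χ → ∀ a f t : ℕ,
    Nat.card G = p ^ a * kc χ → χ 1 = f → Nat.card (orb p χ) ≤ (p - 1) * p ^ t →
    (p - 1) * a ≤ (f - 1) + (p - 1) * (t + 1) * f := by
  intro n
  induction n using Nat.strong_induction_on with
  | _ n ih =>
  intro G _ _ hn hG χ hχ a f t ha hf ht
  have := Fintype.ofFinite G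
  have hp' : p.Prime := hp.out
  obtain ⟨q, hq⟩ : ∃ q, p = q + 1 := ⟨p - 1, by have := hp'.one_lt; omega⟩
  have hp1 : p - 1 = q := by omega
  have hq0 : 0 < q := by have := hp'.one_lt; omega
  by_cases h1 : χ 1 = 1
  · -- linear characters
    have hf1 : f = 1 := by
      rw [hf] at h1
      exact_mod_cast h1
    subst hf1
    have h2 := (totient_le hG hχ h1 ha).trans ht
    have h3 : a ≤ t + 1 := by
      rcases Nat.eq_zero_or_pos a with h0 | h0
      · omega
      · rw [Nat.totient_prime_pow hp' h0, mul_comm] at h2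
        have h4 := Nat.le_of_mul_le_mul_left h2 (by omega : 0 < p - 1)
        have h5 := (Nat.pow_le_pow_iff_right hp'.one_lt).1 h4
        omega
    have h4 := Nat.mul_le_mul_left (p - 1) h3
    simpa using h4
  · obtain ⟨M, hM, ψ, hMi, hψ, hind, hstab⟩ := exists_induced hG hχ h1
    have := Fintype.ofFinite M
    subst hind
    have hψc := isIrr_isCharacter hψ
    have hψ1 := isIrr_apply_one_ne_zero hψ
    obtain ⟨d, hd0, hd⟩ := isIrr_apply_one hψ
    have hfd : f = p * d := by
      rw [indFun_one, hMi, hd] at hf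
      exact_mod_cast hf.symm
    have hMG : IsPGroup p M := hG.to_subgroup M
    have hcardM : Nat.card M < n := by
      have h2 := M.card_mul_index
      rw [hMi, hn] at h2
      rw [← h2]
      exact (Nat.lt_mul_iff_one_lt_right Nat.card_pos).2 hp'.one_lt
    -- the index of the kernel of `ψ`
    obtain ⟨K, hKn, hK⟩ := exists_ker hψc
    obtain ⟨b, hb⟩ : ∃ b, K.index = p ^ b := by
      obtain ⟨c, hc⟩ := IsPGroup.iff_card.1 hMG
      have h2 := K.index_dvd_card
      rw [hc] at h2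
      obtain ⟨b, -, hb⟩ := (Nat.dvd_prime_pow hp').1 h2
      exact ⟨b, hb⟩
    have hb' : Nat.card M = p ^ b * kc ψ := by
      rw [kc_eq hK, ← hb, mul_comm]
      exact K.card_mul_index.symm
    by_cases hfix : ∀ m : ℕ, ¬ p ∣ m → (fun g => indFun M ψ (g ^ m)) = indFun M ψ →
      (fun n => ψ (n ^ m)) = ψ
    · -- case A
      have h2 := (orb_le hG M hMi hχ hfix).trans ht
      have h3 := ih _ hcardM M rfl hMG ψ hψ b d t hb' hd h2
      have h4 := card_bound M hMi hψc hψ1 ha hb'
      rw [hp1] at h3 ⊢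
      rw [hfd]
      have h5 : q * a ≤ q * (1 + p * b) := Nat.mul_le_mul_left q h4
      have h6 : p * (q * b) ≤ p * ((d - 1) + q * (t + 1) * d) := Nat.mul_le_mul_left p h3
      have h7 : p * (d - 1) + p = p * d := by
        obtain ⟨d', rfl⟩ : ∃ d', d = d' + 1 := ⟨d - 1, by omega⟩
        simp
        ring
      have h8 : p * ((d - 1) + q * (t + 1) * d) = p * (d - 1) + q * (t + 1) * (p * d) := by ring
      have h9 : q * (1 + p * b) = q + p * (q * b) := by ring
      rw [h8] at h6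
      rw [h9] at h5
      omega
    · -- case B
      push Not at hfix
      obtain ⟨m, hm, hχm, hψm⟩ := hfix
      have hconj : ∃ g : G, (fun n => ψ (n ^ m)) = ψ ∘ (MulAut.conjNormal g : MulAut M) := by
        have i2 : IsIrrCharacter M (fun n => ψ (n ^ m)) :=
          isIrr_of_mem_orb hMG hψ ⟨m, hm, rfl⟩
        refine Characters.Clifford.exists_conj_of_constituents M hχ hψ i2 ?_ ?_
        · rw [← classInner_conj_symm, ← Cfsg.Agent.S0146.result M _ _ (isIrr_isClassFunction hχ),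
            classInner_irr_self hχ, map_one]
          exact one_ne_zero
        · rw [← classInner_conj_symm, ← Cfsg.Agent.S0146.result M _ _ (isIrr_isClassFunction hχ),
            indFun_pow M hMi ψ hm, hχm, classInner_irr_self hχ, map_one]
          exact one_ne_zero
      obtain ⟨g, hg⟩ := hconj
      have hgM : g ∉ M := by
        intro hgM
        apply hψm
        rw [hg]
        funext n
        have h2 := isIrr_isClassFunction hψ n ⟨g, hgM⟩
        rw [← h2]
        show ψ _ = ψ _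
        congr 1
      have h2 := kc_eq_of_conj M hMi hψ g hgM hg
      have hab : a = b + 1 := by
        have h3 := M.card_mul_index
        rw [hMi, hb', ha, h2] at h3
        have h4 : 0 < kc ψ := by
          rw [kc_eq hK]
          exact Nat.card_pos
        have h5 : p ^ (b + 1) = p ^ a := by
          apply Nat.eq_of_mul_eq_mul_right h4
          rw [← h3, pow_succ]
          ring
        exact (Nat.pow_right_injective hp'.two_le h5).symm
      have h6 : Nat.card (orb p ψ) ≤ (p - 1) * p ^ (t + 1) := by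
        refine (orb_le' hG M hMi hψ hχ).trans ?_
        have h7 := Nat.mul_le_mul_left p ht
        refine h7.trans (le_of_eq ?_)
        rw [pow_succ]
        ring
      have h7 := ih _ hcardM M rfl hMG ψ hψ b d (t + 1) hb' hd h6
      rw [hp1] at h7 ⊢
      rw [hfd, hab]
      -- `q (b + 1) ≤ (p d - 1) + q (t + 1) p d`
      have h8 : p * d = q * d + d := by rw [hq]; ring
      have h9 : q * (t + 1) * (p * d) = q * (t + 1) * d + q * ((t + 1) * (q * d)) := by
        rw [h8]; ring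
      have h10 : q * (t + 1 + 1) * d = q * (t + 1) * d + q * d := by ring
      have h11 : q * 1 ≤ q * ((t + 1) * (q * d)) :=
        Nat.mul_le_mul_left q (Nat.mul_pos (by omega) (Nat.mul_pos hq0 hd0))
      rw [h9, h8]
      rw [h10] at h7
      have h12 : q * (b + 1) = q * b + q := by ring
      rw [h12]
      omega

/-- the orbit is at most as long as the degree of the field of values -/
theorem card_orb_le {G : Type u} [Group G] [Finite G] {p : ℕ} [Fact p.Prime]
    (hG : IsPGroup p G) {χ : G → ℂ} (hχ : IsIrrCharacter G χ)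
    (hfin : Module.finrank ℚ (IntermediateField.adjoin ℚ (Set.range χ)) ≠ 0) :
    Nat.card (orb p χ) ≤ Module.finrank ℚ (IntermediateField.adjoin ℚ (Set.range χ)) := by
  classical
  set K := IntermediateField.adjoin ℚ (Set.range χ) with hK
  have hfd : FiniteDimensional ℚ K := Module.finite_of_finrank_pos (Nat.pos_of_ne_zero hfin)
  rw [← AlgHom.card ℚ K ℂ, ← Nat.card_eq_fintype_card]
  have hch : ∀ ψ : orb p χ, ∃ σ : ℂ →ₐ[ℚ] ℂ, ∀ g : G, σ (χ g) = (ψ : G → ℂ) g := by
    rintro ⟨ψ, m, hm, rfl⟩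
    obtain ⟨σ, hσ⟩ := Characters.GaloisBasic.exists_ringEquiv_of_coprime (G := G)
      (coprime_card hG hm)
    refine ⟨RingHom.toRatAlgHom (σ : ℂ →+* ℂ), fun g => ?_⟩
    exact hσ χ (isIrr_isCharacter hχ) g
  choose σ hσ using hch
  let F : orb p χ → (K →ₐ[ℚ] ℂ) := fun ψ => (σ ψ).comp K.val
  refine Nat.card_le_card_of_injective F ?_
  intro ψ ψ' h
  apply Subtype.ext
  funext g
  have hmem : χ g ∈ K := IntermediateField.subset_adjoin ℚ _ ⟨g, rfl⟩
  have h1 : F ψ ⟨χ g, hmem⟩ = F ψ' ⟨χ g, hmem⟩ := by rw [h]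
  rw [← hσ ψ g, ← hσ ψ' g]
  exact h1

/-- Let P be a finite p-group of order p^a with a > 0, and χ a faithful irreducible character of P of degree f whose field of values ℚ(χ) has degree (p − 1)·p^t over ℚ. Then a ≤ (f − 1)/(p − 1) + (t + 1)·f; in integer form, (p − 1)·a ≤ (f − 1) + (p − 1)(t + 1)·f. -/
theorem result {P : Type*} [Group P] [Finite P] (p a : ℕ) (hp : p.Prime) (ha : 0 < a) (hP : Nat.card P = p ^ a) (χ : Cfsg.IrrCharacter P) (hfaith : ∀ g : P, (χ : P → ℂ) g = (χ : P → ℂ) 1 → g = 1) (f t : ℕ) (hf : Cfsg.charDegree (χ : P → ℂ) = f) (hfield : Module.finrank ℚ (IntermediateField.adjoin ℚ (Set.range (χ : P → ℂ))) = (p - 1) * p ^ t) : (p - 1) * a ≤ (f - 1) + (p - 1) * (t + 1) * f := by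
  have hpf : Fact p.Prime := ⟨hp⟩
  have hG : IsPGroup p P := IsPGroup.iff_card.2 ⟨a, hP⟩
  have hkc : kc (χ : P → ℂ) = 1 := by
    unfold kc
    have : Unique {g : P // (χ : P → ℂ) g = (χ : P → ℂ) 1} :=
      ⟨⟨⟨1, rfl⟩⟩, fun g => Subtype.ext (hfaith g g.2)⟩
    exact Nat.card_unique
  have hne : (p - 1) * p ^ t ≠ 0 := by
    have := hp.one_lt
    exact Nat.mul_ne_zero (by omega) (pow_pos hp.pos t).ne'
  refine bound p _ P rfl hG (χ : P → ℂ) χ.2 a f t (by rw [hkc, mul_one]; exact hP) ?_ ?_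
  · rw [Blocks.Basic.irr_one_eq_charDegree χ.2, hf]
  · rw [← hfield]
    exact card_orb_le hG χ.2 (by rw [hfield]; exact hne)

end Cfsg.Agent.S4489
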