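import Cfsg.Statements.S4509
import Cfsg.Agent.H608.SelfCent
set_option linter.all false

set_option autoImplicit false
open Cfsg

namespace Cfsg.Agent.S4509

open Cfsg.Agent.H608.SelfCent

/-- Let the finite group G contain an element x of prime order p with C_G(x) = ⟨x⟩; let t be the number of conjugacy classes of elements of order p and 1 + n·p the number of subgroups of order p. Then G has a normal subgroup of order 1 + n·p if and only if either t = p − 1, or t < p − 1 and G″ ≠ G′. Moreover, if t = p − 1 then G′ has order 1 + n·p and G/G′ is cyclic of order p; and if t < p − 1 and G″ ≠ G′ then G″ has order 1 + n·p and G′ has order p·(1 + n·p). -/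
theorem result {G : Type*} [Group G] [Finite G] (p : ℕ) (hp : p.Prime) (x : G) (hx : orderOf x = p) (hC : Subgroup.centralizer ({x} : Set G) = Subgroup.zpowers x) (t : ℕ) (ht : Nat.card {C : ConjClasses G // ∃ g ∈ C.carrier, orderOf g = p} = t) (n : ℕ) (hn : Nat.card {H : Subgroup G // Nat.card H = p} = 1 + n * p) : ((∃ S : Subgroup G, S.Normal ∧ Nat.card S = 1 + n * p) ↔ (t = p - 1 ∨ (t < p - 1 ∧ derivedSeries G 2 ≠ derivedSeries G 1))) ∧ (t = p - 1 → Nat.card (commutator G) = 1 + n * p ∧ IsCyclic (G ⧸ commutator G) ∧ (commutator G).index = p) ∧ (t < p - 1 → derivedSeries G 2 ≠ derivedSeries G 1 → Nat.card (derivedSeries G 2) = 1 + n * p ∧ Nat.card (commutator G) = p * (1 + n * p)) := by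
  have := Fact.mk hp
  obtain ⟨q, hN, htq, hind⟩ := exists_q hx hC
  set N := Subgroup.normalizer ((Subgroup.zpowers x : Subgroup G) : Set G) with hNdef
  rw [ht] at htq
  rw [hn] at hind
  have hx1 := ne_one hx hC
  have hp2 := hp.two_le
  have hd1 : derivedSeries G 1 = commutator G := derivedSeries_one G
  have hd2 : derivedSeries G 2 = ⁅commutator G, commutator G⁆ := by
    rw [derivedSeries_succ, hd1]
  have hxN : x ∈ N := Subgroup.le_normalizer (Subgroup.mem_zpowers x)
  have hnp : ¬ p ∣ 1 + n * p := fun h => hp.one_lt.ne' (Nat.dvd_one.1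
    ((Nat.dvd_add_left (Dvd.intro_left n rfl)).1 h))
  have hq1 : q ≠ 0 := by
    rintro rfl
    omega
  have htle : t ≤ p - 1 := by
    rw [← htq]
    exact Nat.le_mul_of_pos_right t (Nat.pos_of_ne_zero hq1)
  -- `t = p - 1` iff `N = P`
  have hq_iff : t = p - 1 ↔ q = 1 := by
    constructor
    · intro h
      rw [h] at htq
      exact (Nat.mul_eq_left (by omega)).1 htq
    · rintro rfl
      omega
  have hNle : q = 1 → N ≤ Subgroup.zpowers x := by
    intro h
    rw [h, mul_one] at hN
    have : Subgroup.zpowers x = N := Subgroup.eq_of_le_of_card_ge Subgroup.le_normalizer (by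
      rw [Nat.card_zpowers, hx]; exact hN.le)
    rw [← this]
  -- `x ∈ G'` as soon as `q ≠ 1`
  have hxG : q ≠ 1 → x ∈ commutator G := by
    intro hq
    by_contra hcon
    apply hq
    have h1 : ¬ p ∣ Nat.card (commutator G) := fun h => hcon (mem_of_dvd hx hC h)
    have h2 := inf_normalizer hx hC h1
    have h3 : N ≤ Subgroup.zpowers x := by
      intro y hy
      rw [← hC, Subgroup.mem_centralizer_singleton_iff]
      have h4 : y * x * y⁻¹ * x⁻¹ ∈ commutator G ⊓ N := by
        refine Subgroup.mem_inf.2 ⟨?_, N.mul_mem (N.mul_mem (N.mul_mem hy hxN)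
          (N.inv_mem hy)) (N.inv_mem hxN)⟩
        rw [commutator_def]
        exact Subgroup.commutator_mem_commutator (Subgroup.mem_top y) (Subgroup.mem_top x)
      rw [h2, Subgroup.mem_bot] at h4
      calc y * x = (y * x * y⁻¹ * x⁻¹) * x * y := by group
        _ = x * y := by rw [h4, one_mul]
    have h4 := Subgroup.card_le_of_le h3
    rw [hN, Nat.card_zpowers, hx] at h4
    have h5 : q ≤ 1 := by
      by_contra hc
      have : p * 2 ≤ p * q := Nat.mul_le_mul_left p (by omega)
      omega
    omega
  -- the case `t = p - 1`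
  have case1 : t = p - 1 → Nat.card (commutator G) = 1 + n * p ∧
      IsCyclic (G ⧸ commutator G) ∧ (commutator G).index = p := by
    intro h
    have hNx := hNle (hq_iff.1 h)
    obtain ⟨P, hP⟩ := exists_sylow hx hC
    have hPN : Subgroup.normalizer (P : Set G) ≤ Subgroup.centralizer (P : Set G) := by
      rw [← P.coe_coe, hP, centralizer_zpowers hx hC]
      exact hNx
    have hcompl := MonoidHom.ker_transferSylow_isComplement' P hPN
    set K := (MonoidHom.transferSylow P hPN).ker with hK
    have hKp : ¬ p ∣ Nat.card K := MonoidHom.not_dvd_card_ker_transferSylow P hPN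
    have hKi : K.index = p := by
      rw [hcompl.symm.index_eq_card]
      exact card_sylow hx hP
    have hPc : (P : Subgroup G).index = Nat.card K := hcompl.index_eq_card
    have hKc : Nat.card K = 1 + n * p := by
      rw [hind, ← hPc, hP]
      have h1 : Subgroup.zpowers x = N := le_antisymm Subgroup.le_normalizer hNx
      rw [← h1]
    have hle : K ≤ commutator G := by
      intro y hy
      obtain ⟨s, _, rfl⟩ := exists_commutator hx hC hKp hy
      rw [commutator_def]
      exact Subgroup.commutator_mem_commutator (Subgroup.mem_top s) (Subgroup.mem_top x)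
    have hge : commutator G ≤ K := by
      have hpr : (Nat.card (G ⧸ K)).Prime := by
        rw [← Subgroup.index_eq_card, hKi]; exact hp
      have : IsCyclic (G ⧸ K) := isCyclic_of_prime_card (p := p) (by
        rw [← Subgroup.index_eq_card, hKi])
      have hcomm : ∀ a b : G ⧸ K, a * b = b * a := by
        intro a b
        obtain ⟨c, hc⟩ := IsCyclic.exists_generator (α := G ⧸ K)
        obtain ⟨k, rfl⟩ := Subgroup.mem_zpowers_iff.1 (hc a)
        obtain ⟨l, rfl⟩ := Subgroup.mem_zpowers_iff.1 (hc b)
        rw [← zpow_add, ← zpow_add, add_comm]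
      rw [commutator_def, Subgroup.commutator_le]
      intro a _ b _
      rw [← QuotientGroup.eq_one_iff, commutatorElement_def]
      simp only [QuotientGroup.mk_mul, QuotientGroup.mk_inv]
      rw [hcomm (a : G ⧸ K) (b : G ⧸ K)]
      group
    have heq : commutator G = K := le_antisymm hge hle
    refine ⟨by rw [heq]; exact hKc, isCyclic_of_prime_card (p := p) (by
      rw [← Subgroup.index_eq_card, heq, hKi]), by rw [heq]; exact hKi⟩
  -- the case `t < p - 1`, `G'' ≠ G'`
  have case2 : t < p - 1 → derivedSeries G 2 ≠ derivedSeries G 1 →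
      Nat.card (derivedSeries G 2) = 1 + n * p ∧ Nat.card (commutator G) = p * (1 + n * p) := by
    intro h hne
    have hq : q ≠ 1 := fun h' => by
      have := hq_iff.2 h'
      omega
    have hxc := hxG hq
    have hle : derivedSeries G 2 ≤ commutator G := by
      rw [← hd1]; exact derivedSeries_antitone (G := G) (by norm_num)
    have hS : ¬ p ∣ Nat.card (derivedSeries G 2) := by
      intro hdvd
      apply hne
      rw [hd1]
      exact le_antisymm hle (commutator_le_of_mem hx hC (mem_of_dvd hx hC hdvd))
    have hG' : commutator G = derivedSeries G 2 ⊔ Subgroup.zpowers x := by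
      apply le_antisymm
      · intro g hg
        apply mem_sup_of_comm hx hC hS
        rw [hd2]
        exact Subgroup.commutator_mem_commutator hg hxc
      · exact sup_le hle (Subgroup.zpowers_le.2 hxc)
    have htop : derivedSeries G 2 ⊔ N = ⊤ := by
      rw [eq_top_iff]
      intro g _
      obtain ⟨m, hm, y, hy, rfl⟩ := exists_mul hx hC hxc g
      rw [hG'] at hm
      refine Subgroup.mul_mem _ ?_ ((le_sup_right : N ≤ _) hy)
      have : derivedSeries G 2 ⊔ Subgroup.zpowers x ≤ derivedSeries G 2 ⊔ N :=
        sup_le_sup_left Subgroup.le_normalizer _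
      exact this hm
    have hcard := card_eq_index hx hC hS htop
    refine ⟨by rw [hcard, hind], ?_⟩
    have h2 := card_sup hx hC hS
    rw [← hG', hcard] at h2
    rw [h2, hind]
  refine ⟨⟨?_, ?_⟩, case1, case2⟩
  · rintro ⟨S, hSn, hSc⟩
    by_cases h : t = p - 1
    · exact Or.inl h
    · right
      have hlt : t < p - 1 := lt_of_le_of_ne htle h
      have hq : q ≠ 1 := fun h' => h (hq_iff.2 h')
      refine ⟨hlt, ?_⟩
      have hxc := hxG hq
      have hS : ¬ p ∣ Nat.card S := by rw [hSc]; exact hnp
      have h0 : S ⊓ N = ⊥ := inf_normalizer hx hC hS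
      -- `S N = G`
      have hcompl : Subgroup.IsComplement' S N := by
        apply Subgroup.isComplement'_of_card_mul_and_disjoint
        · rw [hSc, hind, mul_comm]
          exact N.card_mul_index
        · exact disjoint_iff.2 h0
      have htop : S ⊔ N = ⊤ := hcompl.sup_eq_top
      -- `G' ≤ S ⟨x⟩`
      have hG' : commutator G ≤ S ⊔ Subgroup.zpowers x := by
        rw [commutator_def, Subgroup.commutator_le]
        intro a _ b _
        have ha : a ∈ S ⊔ N := by rw [htop]; trivial
        have hb : b ∈ S ⊔ N := by rw [htop]; trivial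
        obtain ⟨s, hs, m, hm, rfl⟩ := Subgroup.mem_sup_of_normal_left.1 ha
        obtain ⟨s', hs', m', hm', rfl⟩ := Subgroup.mem_sup_of_normal_left.1 hb
        have e1 : ((s : G) : G ⧸ S) = 1 := (QuotientGroup.eq_one_iff _).2 hs
        have e2 : ((s' : G) : G ⧸ S) = 1 := (QuotientGroup.eq_one_iff _).2 hs'
        rw [commutatorElement_def]
        have e3 : ((s * m * (s' * m') * (s * m)⁻¹ * (s' * m')⁻¹ : G) : G ⧸ S) =
            ((m * m' * m⁻¹ * m'⁻¹ : G) : G ⧸ S) := by
          simp only [QuotientGroup.mk_mul, QuotientGroup.mk_inv, e1, e2, one_mul]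
        have e4 : (s * m * (s' * m') * (s * m)⁻¹ * (s' * m')⁻¹) * (m * m' * m⁻¹ * m'⁻¹)⁻¹ ∈ S := by
          rw [← QuotientGroup.eq_one_iff, QuotientGroup.mk_mul, QuotientGroup.mk_inv, e3,
            mul_inv_cancel]
        have e5 : s * m * (s' * m') * (s * m)⁻¹ * (s' * m')⁻¹ =
            ((s * m * (s' * m') * (s * m)⁻¹ * (s' * m')⁻¹) * (m * m' * m⁻¹ * m'⁻¹)⁻¹) *
            (m * m' * m⁻¹ * m'⁻¹) := by group
        rw [e5]
        exact Subgroup.mul_mem_sup e4 (commutator_mem hx hC hm hm')
      have hG'' : derivedSeries G 2 ≤ S := by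
        rw [hd2, Subgroup.commutator_le]
        intro a ha b hb
        obtain ⟨s, hs, m, hm, rfl⟩ := Subgroup.mem_sup_of_normal_left.1 (hG' ha)
        obtain ⟨s', hs', m', hm', rfl⟩ := Subgroup.mem_sup_of_normal_left.1 (hG' hb)
        have e1 : ((s : G) : G ⧸ S) = 1 := (QuotientGroup.eq_one_iff _).2 hs
        have e2 : ((s' : G) : G ⧸ S) = 1 := (QuotientGroup.eq_one_iff _).2 hs'
        obtain ⟨k, rfl⟩ := Subgroup.mem_zpowers_iff.1 hm
        obtain ⟨l, rfl⟩ := Subgroup.mem_zpowers_iff.1 hm'
        rw [← QuotientGroup.eq_one_iff, commutatorElement_def]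
        simp only [QuotientGroup.mk_mul, QuotientGroup.mk_inv, e1, e2, one_mul,
          QuotientGroup.mk_zpow]
        group
      intro heq
      rw [hd1] at heq
      rw [heq] at hG''
      have h1 : x ∈ S ⊓ N := Subgroup.mem_inf.2 ⟨hG'' hxc, hxN⟩
      rw [h0, Subgroup.mem_bot] at h1
      exact hx1 h1
  · rintro (h | ⟨h, hne⟩)
    · exact ⟨commutator G, inferInstance, (case1 h).1⟩
    · exact ⟨derivedSeries G 2, inferInstance, (case2 h hne).1⟩

end Cfsg.Agent.S4509
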