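import Cfsg.Statements.S4496
import Cfsg.Agent.H608.SelfCent
set_option linter.all false

set_option autoImplicit false
open Cfsg

namespace Cfsg.Agent.S4496

open Cfsg.Agent.H608.SelfCent

/-- Let the finite group G contain an element x of prime order p with C_G(x) = ⟨x⟩. Then: (a) every normal subgroup of order divisible by p contains the commutator subgroup; (b) every normal subgroup S of order prime to p has order dividing the number of subgroups of order p of G and congruent to 1 modulo p, and in G/S the image of x again has prime order p and commutes only with its own powers. -/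
theorem result {G : Type*} [Group G] [Finite G] (p : ℕ) (hp : p.Prime) (x : G) (hx : orderOf x = p) (hC : Subgroup.centralizer ({x} : Set G) = Subgroup.zpowers x) (S : Subgroup G) [S.Normal] : (p ∣ Nat.card S → commutator G ≤ S) ∧ (¬ p ∣ Nat.card S → Nat.card S ∣ Nat.card {H : Subgroup G // Nat.card H = p} ∧ Nat.card S % p = 1 ∧ orderOf (QuotientGroup.mk x : G ⧸ S) = p ∧ Subgroup.centralizer ({(QuotientGroup.mk x : G ⧸ S)} : Set (G ⧸ S)) = Subgroup.zpowers (QuotientGroup.mk x : G ⧸ S)) := by
  have : Fact p.Prime := ⟨hp⟩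
  refine ⟨fun h => commutator_le_of_mem hx hC (mem_of_dvd hx hC h), fun hS => ?_⟩
  have h0 := inf_normalizer hx hC hS
  have h00 := inf_zpowers hx hC hS
  have hxS : x ∉ S := by
    intro h
    have h1 : x ∈ S ⊓ Subgroup.zpowers x := ⟨h, Subgroup.mem_zpowers x⟩
    rw [h00, Subgroup.mem_bot] at h1
    exact ne_one hx hC h1
  refine ⟨?_, ?_, ?_, ?_⟩
  · obtain ⟨q, -, -, hq⟩ := exists_q hx hC
    rw [hq]
    set N := Subgroup.normalizer ((Subgroup.zpowers x : Subgroup G) : Set G) with hN
    have h1 : N.relIndex (S ⊔ N) = Nat.card S := by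
      have h2 : Nat.card S * S.relIndex (S ⊔ N) = Nat.card (S ⊔ N : Subgroup G) := by
        rw [← Subgroup.relIndex_bot_left, ← Subgroup.relIndex_bot_left]
        exact Subgroup.relIndex_mul_relIndex _ _ _ bot_le le_sup_left
      have h3 : Nat.card N * N.relIndex (S ⊔ N) = Nat.card (S ⊔ N : Subgroup G) := by
        rw [← Subgroup.relIndex_bot_left, ← Subgroup.relIndex_bot_left]
        exact Subgroup.relIndex_mul_relIndex _ _ _ bot_le le_sup_right
      have h4 : S.relIndex (S ⊔ N) = Nat.card N := by
        rw [Subgroup.relIndex_sup_left, ← Subgroup.inf_relIndex_right, h0,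
          Subgroup.relIndex_bot_left]
      rw [h4, ← h3, mul_comm] at h2
      exact (Nat.eq_of_mul_eq_mul_left Nat.card_pos h2).symm
    rw [← h1]
    exact Subgroup.relIndex_dvd_index_of_le le_sup_right
  · let φ : Subgroup.zpowers x →* MulAut S :=
      (MulAut.conjNormal : G →* MulAut S).comp (Subgroup.zpowers x).subtype
    let act : MulAction (Subgroup.zpowers x) S := MulAction.compHom S φ
    have hpg : IsPGroup p (Subgroup.zpowers x) :=
      IsPGroup.of_card (n := 1) (by rw [Nat.card_zpowers, hx, pow_one])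
    have h1 := hpg.card_modEq_card_fixedPoints S
    have h2 : Nat.card (@MulAction.fixedPoints (Subgroup.zpowers x) S _ act) = 1 := by
      rw [Nat.card_eq_one_iff_exists]
      refine ⟨⟨1, ?_⟩, ?_⟩
      · intro y
        exact map_one (φ y)
      · rintro ⟨s, hs⟩
        have h3 : φ ⟨x, Subgroup.mem_zpowers x⟩ s = s := hs ⟨x, Subgroup.mem_zpowers x⟩
        have h4 : x * (s : G) * x⁻¹ = s := by
          have := congrArg Subtype.val h3
          rwa [show ((φ ⟨x, Subgroup.mem_zpowers x⟩ s : S) : G) = x * (s : G) * x⁻¹ from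
            MulAut.conjNormal_apply x s] at this
        have h5 : (s : G) ∈ S ⊓ Subgroup.zpowers x := by
          refine Subgroup.mem_inf.2 ⟨s.2, ?_⟩
          rw [← hC, Subgroup.mem_centralizer_singleton_iff]
          calc (s : G) * x = (x * (s : G) * x⁻¹) * x := by rw [h4]
            _ = x * s := by group
        rw [h00, Subgroup.mem_bot] at h5
        exact Subtype.ext (Subtype.ext h5)
    rw [h2] at h1
    rw [h1, Nat.mod_eq_of_lt hp.one_lt]
  · refine orderOf_eq_prime ?_ ?_
    · rw [← QuotientGroup.mk_pow, ← hx, pow_orderOf_eq_one]; rfl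
    · rw [Ne, QuotientGroup.eq_one_iff]; exact hxS
  · refine le_antisymm ?_ ?_
    · intro g hg
      obtain ⟨g, rfl⟩ := QuotientGroup.mk_surjective g
      rw [Subgroup.mem_centralizer_singleton_iff] at hg
      have h1 : g * x * g⁻¹ * x⁻¹ ∈ S := by
        rw [← QuotientGroup.eq_one_iff]
        simp only [QuotientGroup.mk_mul, QuotientGroup.mk_inv]
        rw [hg]; group
      obtain ⟨s, hs, y, hy, rfl⟩ := Subgroup.mem_sup_of_normal_left.1 (mem_sup_of_comm hx hC hS h1)
      obtain ⟨k, rfl⟩ := Subgroup.mem_zpowers_iff.1 hy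
      rw [QuotientGroup.mk_mul, (QuotientGroup.eq_one_iff s).2 hs, one_mul, QuotientGroup.mk_zpow]
      exact Subgroup.zpow_mem _ (Subgroup.mem_zpowers _) k
    · rw [Subgroup.zpowers_le, Subgroup.mem_centralizer_singleton_iff]

end Cfsg.Agent.S4496
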