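import Cfsg.Statements.S4497
import Cfsg.Agent.H608.SelfCent
import Cfsg.Agent.S4509
import Cfsg.Agent.S4495
import Cfsg.Agent.Lib.Cores
set_option linter.all false

set_option autoImplicit false
open Cfsg

namespace Cfsg.Agent.S4497

open Cfsg.Agent.H608.SelfCent

/-- Let the finite group G contain an element x of prime order p with C_G(x) = ⟨x⟩, let t be the number of conjugacy classes of elements of order p, and let S* = O_{p′}(G) be the largest normal subgroup of order prime to p. Then S* ≤ G′; if t ≠ p − 1 the quotient G′/S* is simple (in particular non-trivial); if t = p − 1 then G′ = S*. -/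
theorem result {G : Type*} [Group G] [Finite G] (p : ℕ) (hp : p.Prime) (x : G) (hx : orderOf x = p) (hC : Subgroup.centralizer ({x} : Set G) = Subgroup.zpowers x) (t : ℕ) (ht : Nat.card {C : ConjClasses G // ∃ g ∈ C.carrier, orderOf g = p} = t) : Cfsg.pPrimeCore p G ≤ commutator G ∧ (t ≠ p - 1 → ∀ h : ((Cfsg.pPrimeCore p G).subgroupOf (commutator G)).Normal, IsSimpleGroup (↥(commutator G) ⧸ (Cfsg.pPrimeCore p G).subgroupOf (commutator G))) ∧ (t = p - 1 → commutator G = Cfsg.pPrimeCore p G) := by
  have := Fact.mk hp
  have hSn : (Cfsg.pPrimeCore p G).Normal := by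
    infer_instance
  have hSc : (Nat.card (Cfsg.pPrimeCore p G)).Coprime p :=
    (Cfsg.Agent.Lib.Cores.le_pPrimeCore_iff hSn).1 le_rfl
  have hSp : ¬ p ∣ Nat.card (Cfsg.pPrimeCore p G) := fun h =>
    (Nat.Prime.coprime_iff_not_dvd hp).1 hSc.symm h
  have hle : Cfsg.pPrimeCore p G ≤ commutator G := by
    intro y hy
    obtain ⟨s, -, rfl⟩ := exists_commutator hx hC hSp hy
    rw [← commutatorElement_def, commutator_def]
    exact Subgroup.commutator_mem_commutator (Subgroup.mem_top _) (Subgroup.mem_top _)
  have hle' : ∀ K : Subgroup G, K.Normal → ¬ p ∣ Nat.card K → K ≤ Cfsg.pPrimeCore p G :=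
    fun K hK h => Cfsg.Agent.Lib.Cores.le_pPrimeCore hK
      (Nat.coprime_comm.1 ((Nat.Prime.coprime_iff_not_dvd hp).2 h))
  have hmem : ∀ (K : Subgroup G) (a b : K), a * b * a⁻¹ * b⁻¹ ∈ commutator K := by
    intro K a b
    rw [← commutatorElement_def, commutator_def]
    exact Subgroup.commutator_mem_commutator (Subgroup.mem_top _) (Subgroup.mem_top _)
  refine ⟨hle, fun htp h => ?_, fun htp => ?_⟩
  · have hxG : x ∈ commutator G := Cfsg.Agent.S4495.mem_commutator hx hC (by rw [ht]; exact htp)
    set x' : commutator G := ⟨x, hxG⟩ with hx'def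
    have hx' : orderOf x' = p := by rw [← hx, ← Subgroup.orderOf_coe]
    have hC' : Subgroup.centralizer ({x'} : Set (commutator G)) = Subgroup.zpowers x' := by
      refine le_antisymm ?_ ?_
      · intro g hg
        rw [Subgroup.mem_centralizer_singleton_iff] at hg
        have h1 : (g : G) ∈ Subgroup.zpowers x := by
          rw [← hC, Subgroup.mem_centralizer_singleton_iff]
          exact congrArg Subtype.val hg
        obtain ⟨k, hk⟩ := Subgroup.mem_zpowers_iff.1 h1
        exact Subgroup.mem_zpowers_iff.2 ⟨k, Subtype.ext (by simpa using hk)⟩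
      · rw [Subgroup.zpowers_le, Subgroup.mem_centralizer_singleton_iff]
    have key : ∀ K : Subgroup (commutator G), K.Normal →
        (Cfsg.pPrimeCore p G).subgroupOf (commutator G) ≤ K →
        K ≤ (Cfsg.pPrimeCore p G).subgroupOf (commutator G) ∨ K = ⊤ := by
      intro K hK hSK
      by_cases hpK : p ∣ Nat.card K
      · right
        have h1 : x' ∈ K := mem_of_dvd hx' hC' hpK
        have h2 : commutator (commutator G) ≤ K := commutator_le_of_mem hx' hC' h1
        -- `G'' = map`
        set D : Subgroup G := (commutator (commutator G)).map (commutator G).subtype with hD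
        have hDn : D.Normal := by
          infer_instance
        by_cases hpD : p ∣ Nat.card D
        · have h3 := (commutator_le_of_mem hx hC (mem_of_dvd hx hC hpD))
          rw [eq_top_iff]
          intro g _
          obtain ⟨g', hg', hgg⟩ := h3 g.2
          have : g' = g := Subtype.ext hgg
          rw [← this]
          exact h2 hg'
        · have h3 := hle' D hDn hpD
          rw [eq_top_iff]
          intro g _
          -- `g` commutes with `x'` modulo `S`
          have h4 : (g : G) * x * (g : G)⁻¹ * x⁻¹ ∈ Cfsg.pPrimeCore p G := by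
            refine h3 ⟨g * x' * g⁻¹ * x'⁻¹, ?_, ?_⟩
            · exact hmem _ g x'
            · rfl
          have h5 := mem_sup_of_comm hx hC hSp h4
          obtain ⟨s, hs, y, hy, hsy⟩ := Subgroup.mem_sup_of_normal_left.1 h5
          obtain ⟨k, rfl⟩ := Subgroup.mem_zpowers_iff.1 hy
          have h6 : g = (⟨s, hle hs⟩ : commutator G) * x' ^ k := Subtype.ext (by
            rw [← hsy]; rfl)
          rw [h6]
          refine K.mul_mem (hSK ?_) (K.zpow_mem h1 k)
          rw [Subgroup.mem_subgroupOf]
          exact hs
      · left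
        -- `K ≤ O_{p'}(G') ≤ O_{p'}(G)`
        set E : Subgroup G := (Cfsg.pPrimeCore p (commutator G)).map (commutator G).subtype with hE
        have hchar : (Cfsg.pPrimeCore p (commutator G)).Characteristic :=
          Cfsg.Agent.Lib.Cores.pPrimeCore_characteristic p
        have hEn : E.Normal := by infer_instance
        have hcard : Nat.card E = Nat.card (Cfsg.pPrimeCore p (commutator G)) :=
          Subgroup.card_map_of_injective (commutator G).subtype_injective
        have hEp : ¬ p ∣ Nat.card E := by
          rw [hcard]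
          have h7 := (Cfsg.Agent.Lib.Cores.le_pPrimeCore_iff (p := p)
            (N := Cfsg.pPrimeCore p (commutator G)) inferInstance).1 le_rfl
          exact fun h => (Nat.Prime.coprime_iff_not_dvd hp).1 h7.symm h
        have h8 := hle' E hEn hEp
        have h9 : K ≤ Cfsg.pPrimeCore p (commutator G) :=
          Cfsg.Agent.Lib.Cores.le_pPrimeCore hK
            (Nat.coprime_comm.1 ((Nat.Prime.coprime_iff_not_dvd hp).2 hpK))
        intro g hg
        rw [Subgroup.mem_subgroupOf]
        exact h8 ⟨g, h9 hg, rfl⟩
    have hnt : Nontrivial (↥(commutator G) ⧸ (Cfsg.pPrimeCore p G).subgroupOf (commutator G)) := by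
      refine ⟨⟨(x' : ↥(commutator G) ⧸ (Cfsg.pPrimeCore p G).subgroupOf (commutator G)), 1, ?_⟩⟩
      intro hcon
      rw [QuotientGroup.eq_one_iff, Subgroup.mem_subgroupOf] at hcon
      have h1 : x ∈ Cfsg.pPrimeCore p G ⊓ Subgroup.zpowers x := ⟨hcon, Subgroup.mem_zpowers x⟩
      rw [inf_zpowers hx hC hSp, Subgroup.mem_bot] at h1
      exact ne_one hx hC h1
    refine ⟨fun H hH => ?_⟩
    have h1 := key (H.comap (QuotientGroup.mk' _)) inferInstance (by
      intro g hg
      rw [Subgroup.mem_comap, QuotientGroup.mk'_apply, (QuotientGroup.eq_one_iff g).2 hg]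
      exact H.one_mem)
    rcases h1 with h1 | h1
    · left
      rw [eq_bot_iff]
      intro g hg
      obtain ⟨g, rfl⟩ := QuotientGroup.mk_surjective g
      exact (QuotientGroup.eq_one_iff g).2 (h1 hg)
    · right
      rw [eq_top_iff]
      intro g _
      obtain ⟨g, rfl⟩ := QuotientGroup.mk_surjective g
      have : g ∈ H.comap (QuotientGroup.mk' _) := by rw [h1]; trivial
      exact this
  · obtain ⟨n, hn⟩ := Cfsg.Agent.S4495.exists_count hx hC
    have h1 := ((Cfsg.Agent.S4509.result p hp x hx hC t ht n hn).2.1 htp).1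
    refine le_antisymm (hle' _ inferInstance ?_) hle
    rw [h1]
    exact fun h => hp.one_lt.ne' (Nat.dvd_one.1
      ((Nat.dvd_add_left (Dvd.intro_left n rfl)).1 h))

end Cfsg.Agent.S4497
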