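import Cfsg.Statements.S4505
import Cfsg.Agent.S4510
set_option linter.all false

set_option autoImplicit false
open Cfsg

namespace Cfsg.Agent.S4505

open Cfsg.Agent.S0962

/-- Let G be a finite group, p a prime and M a maximal ideal of the algebraic integers containing p. For every σ, the number of p-blocks of defect exactly σ is at most the number of conjugacy classes of p-regular elements whose centralizer has order divisible by p^σ but not by p^(σ+1). -/
theorem result {G : Type*} [Group G] [Finite G] (p : ℕ) [Fact p.Prime] (M : Ideal Cfsg.AlgInt) (hM : Cfsg.IsPModular p M) (σ : ℕ) : Nat.card {B : Set (Cfsg.IrrCharacter G) // Cfsg.IsPBlock M B ∧ Cfsg.blockDefect p B = σ} ≤ Nat.card {C : ConjClasses G // ∃ g : G, ConjClasses.mk g = C ∧ ¬ p ∣ orderOf g ∧ (Nat.card (Subgroup.centralizer ({g} : Set G))).factorization p = σ} := by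
  classical
  have : Fintype G := Fintype.ofFinite G
  have := Cfsg.Agent.Characters.Core.finite_irr (G := G)
  have hMp : M.IsPrime := hM.2.1.isPrime
  have : Fintype (ConjClasses G) := Fintype.ofFinite _
  have hsub : ∀ {z w : ℂ}, MemLocalIdeal M z → MemLocalIdeal M w → MemLocalIdeal M (z - w) := by
    intro z w hz hw
    have hz' : MemLocalRing M z := by
      obtain ⟨a, b, _, hb, h⟩ := hz
      exact ⟨a, b, hb, h⟩
    have hw' : MemLocalRing M w := by
      obtain ⟨a, b, _, hb, h⟩ := hw
      exact ⟨a, b, hb, h⟩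
    exact (locIdeal M).sub_mem (a := ⟨z, hz'⟩) (b := ⟨w, hw'⟩) hz hw
  have hzero : MemLocalIdeal M 0 := (locIdeal M).zero_mem
  have hrefl : ∀ χ : IrrCharacter G, χ ∈ blockOf M (χ : G → ℂ) := by
    intro χ g
    rw [sub_self]
    exact hzero
  -- two members of a block have congruent central characters
  have hmem : ∀ B : Set (IrrCharacter G), IsPBlock M B → ∀ χ ∈ B, ∀ ψ ∈ B, ∀ g : G,
      MemLocalIdeal M (centralChar (χ : G → ℂ) g - centralChar (ψ : G → ℂ) g) := by
    rintro B ⟨θ, rfl⟩ χ hχ ψ hψ g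
    have h1 := hsub (hψ g) (hχ g)
    have h2 : centralChar (χ : G → ℂ) g - centralChar (ψ : G → ℂ) g =
      centralChar (θ : G → ℂ) g - centralChar (ψ : G → ℂ) g -
        (centralChar (θ : G → ℂ) g - centralChar (χ : G → ℂ) g) := by ring
    rw [h2]
    exact h1
  have hsubset : ∀ θ θ' χ : IrrCharacter G, χ ∈ blockOf M (θ : G → ℂ) →
      χ ∈ blockOf M (θ' : G → ℂ) → blockOf M (θ : G → ℂ) ⊆ blockOf M (θ' : G → ℂ) := by
    intro θ θ' χ hχ hχ' ψ hψ g
    have h1 := hsub (hχ' g) (hsub (hχ g) (hψ g))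
    have h2 : centralChar (θ' : G → ℂ) g - centralChar (ψ : G → ℂ) g =
      centralChar (θ' : G → ℂ) g - centralChar (χ : G → ℂ) g -
      (centralChar (θ : G → ℂ) g - centralChar (χ : G → ℂ) g -
        (centralChar (θ : G → ℂ) g - centralChar (ψ : G → ℂ) g)) := by ring
    rw [h2]
    exact h1
  have heq : ∀ B B' : Set (IrrCharacter G), IsPBlock M B → IsPBlock M B' → ∀ χ ∈ B, χ ∈ B' →
      B = B' := by
    rintro B B' ⟨θ, rfl⟩ ⟨θ', rfl⟩ χ hχ hχ'
    exact Set.Subset.antisymm (hsubset θ θ' χ hχ hχ') (hsubset θ' θ χ hχ' hχ)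
  set 𝓑 := {B : Set (Cfsg.IrrCharacter G) // Cfsg.IsPBlock M B ∧ Cfsg.blockDefect p B = σ}
    with h𝓑
  set 𝓒 := {C : ConjClasses G // ∃ g : G, ConjClasses.mk g = C ∧ ¬ p ∣ orderOf g ∧ (Nat.card (Subgroup.centralizer ({g} : Set G))).factorization p = σ}
    with h𝓒
  have : Fintype 𝓑 := Fintype.ofFinite _
  have : Fintype 𝓒 := Fintype.ofFinite _
  have hrep : ∀ B : 𝓑, ∃ χ : IrrCharacter G, χ ∈ B.1 := by
    rintro ⟨B, ⟨χ, hχ⟩, hd⟩
    refine ⟨χ, ?_⟩
    show χ ∈ B
    rw [hχ]
    exact hrefl χ
  choose rep hrep using hrep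
  have hnt : Nontrivial (locRing M ⧸ locIdeal M) :=
    Ideal.Quotient.nontrivial_iff.2 locIdeal_ne_top
  let F := locRing M ⧸ locIdeal M
  let lam : 𝓑 → ConjClasses G → locRing M := fun B C =>
    ⟨centralChar (rep B : G → ℂ) C.out, centralChar_mem M (rep B) C.out⟩
  let co : ConjClasses G → 𝓑 → locRing M := fun C B =>
    ⟨blockCoeff B.1 C.out, Cfsg.Agent.S0913.result p M hM B.1 B.2.1 C.out⟩
  let q : locRing M →+* F := Ideal.Quotient.mk (locIdeal M)
  have hq : ∀ z : locRing M, q z = 0 ↔ MemLocalIdeal M (z : ℂ) := fun z =>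
    Ideal.Quotient.eq_zero_iff_mem
  have key : ∀ B B' : 𝓑, ∑ C : ConjClasses G, q (lam B C) * q (co C B') =
      if B = B' then 1 else 0 := by
    intro B B'
    have h1 : ∑ C : ConjClasses G, lam B C * co C B' = if rep B ∈ B'.1 then 1 else 0 := by
      apply Subtype.ext
      have h2 := sum_centralChar_mul_blockCoeff B'.1 (rep B)
      push_cast
      split_ifs with h
      · rw [if_pos h] at h2
        exact h2
      · rw [if_neg h] at h2
        exact h2
    have h3 : rep B ∈ B'.1 ↔ B = B' := by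
      constructor
      · intro h
        exact Subtype.ext (heq B.1 B'.1 B.2.1 B'.2.1 (rep B) (hrep B) h)
      · rintro rfl
        exact hrep B
    have h4 := congrArg q h1
    rw [map_sum] at h4
    simp only [map_mul] at h4
    rw [h4]
    by_cases h : B = B'
    · rw [if_pos (h3.2 h), if_pos h, map_one]
    · rw [if_neg (fun h' => h (h3.1 h')), if_neg h, map_zero]
  let Λ : Matrix 𝓑 𝓒 F := fun B C => q (lam B C.1)
  let A : Matrix 𝓒 𝓑 F := fun C B => q (co C.1 B)
  have hΛA : Λ * A = 1 := by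
    ext B B'
    rw [Matrix.mul_apply, Matrix.one_apply, ← key B B']
    have h1 : ∑ C ∈ Finset.univ.filter (fun C : ConjClasses G => ∃ g : G, ConjClasses.mk g = C ∧ ¬ p ∣ orderOf g ∧ (Nat.card (Subgroup.centralizer ({g} : Set G))).factorization p = σ), q (lam B C) * q (co C B') = ∑ C : ConjClasses G, q (lam B C) * q (co C B') := by
      refine Finset.sum_subset (Finset.subset_univ _) ?_
      intro C _ hC
      by_contra hne
      apply hC
      rw [Finset.mem_filter]
      refine ⟨Finset.mem_univ _, C.out, Quotient.out_eq C, ?_, le_antisymm ?_ ?_⟩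
      · intro h
        apply hne
        have h6 : blockCoeff B'.1 C.out = 0 := by
          unfold blockCoeff
          rw [Cfsg.Agent.S0907.result p M hM B'.1 B'.2.1 1 C.out (by
            rw [orderOf_one]
            exact fun h => (Fact.out : p.Prime).one_lt.ne' (Nat.dvd_one.1 h)) h, mul_zero]
        have h7 : MemLocalIdeal M ((co C B' : locRing M) : ℂ) := by
          show MemLocalIdeal M (blockCoeff B'.1 C.out)
          rw [h6]
          exact hzero
        rw [(hq (co C B')).2 h7, mul_zero]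
      · rw [← B'.2.2]
        refine Cfsg.Agent.S4510.le_blockDefect hM B'.2.1 C.out fun h => ?_
        apply hne
        have h7 : MemLocalIdeal M ((co C B' : locRing M) : ℂ) := h
        rw [(hq (co C B')).2 h7, mul_zero]
      · rw [← B.2.2]
        refine blockDefect_le hM B.1 ⟨rep B, hrep B⟩ C.out fun χ hχ h => ?_
        apply hne
        have h5 := hsub h (hmem B.1 B.2.1 χ hχ (rep B) (hrep B) C.out)
        rw [sub_sub_cancel] at h5
        rw [(hq (lam B C)).2 h5, zero_mul]
    rw [← h1]
    rw [Finset.sum_subtype (Finset.univ.filter _) (p := fun C : ConjClasses G => ∃ g : G, ConjClasses.mk g = C ∧ ¬ p ∣ orderOf g ∧ (Nat.card (Subgroup.centralizer ({g} : Set G))).factorization p = σ)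
      (by intro x; simp)]
  have hrank : Fintype.card 𝓑 ≤ Fintype.card 𝓒 := by
    have h1 := Matrix.rank_mul_le_left Λ A
    rw [hΛA, Matrix.rank_one] at h1
    exact h1.trans (Matrix.rank_le_card_width Λ)
  rw [Nat.card_eq_fintype_card, Nat.card_eq_fintype_card]
  exact hrank

end Cfsg.Agent.S4505
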