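import Cfsg.Agent.H608.CycOne
import Cfsg.Agent.H608.PConj
import Cfsg.Agent.SmallSimple.TheoremCCor
import Cfsg.Statements.S4507
set_option linter.all false

-- part: H608/CycOneConj
section
/-!
# `p`-conjugacy in the blocks of positive defect, `|P| = p`

The exceptional characters over `θ` form one class of `p`-conjugate characters, the nonexceptional
ones are `p`-rational.
-/

set_option autoImplicit false

open Cfsg Subgroup Cfsg.Agent.Blocks.Basic Cfsg.Agent.Blocks.Local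
open Cfsg.Agent.Characters Cfsg.Agent.Characters.Core
open Cfsg.Agent.SmallSimple.ThetaSetup Cfsg.Agent.SmallSimple.ThetaOrtho
open Cfsg.Agent.SmallSimple.TheoremC Cfsg.Agent.SmallSimple.TheoremCCor
open Cfsg.Agent.SmallSimple.PrimeDual
open Cfsg.Agent.H608.PConj
open scoped ComplexConjugate

namespace Cfsg.Agent.H608.CycOneConj

universe u

variable {G : Type u} [Group G] [Finite G] {p : ℕ} [Fact p.Prime] {P : Sylow p G} {K : Subgroup G}

/-- The `p`-singular elements up to conjugacy. -/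
theorem exists_conj_mul (hK : IsComp p (P : Subgroup G) K) (hP : Nat.card P = p) {g : G}
    (hg : p ∣ orderOf g) : ∃ (c : G) (x : P) (y : K), x ≠ 1 ∧ c * g * c⁻¹ = x * y := by
  obtain ⟨z, y, hzy, hcomm, ⟨k, hk⟩, hy⟩ := Blocks.PPart.exists_isPPart p g
  have hz1 : z ≠ 1 := by
    rintro rfl
    rw [one_mul] at hzy
    rw [hzy] at hy
    exact hy hg
  have hzP : IsPGroup p (zpowers z) := IsPGroup.of_card (n := k) (by rw [Nat.card_zpowers, hk])
  obtain ⟨Q, hQ⟩ := hzP.exists_le_sylow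
  obtain ⟨c, hc⟩ := MulAction.exists_smul_eq G Q P
  have hu : c * z * c⁻¹ ∈ (P : Subgroup G) := by
    rw [← hc, Sylow.coe_subgroup_smul]
    refine ⟨z, hQ (mem_zpowers z), ?_⟩
    simp [MulAut.conj_apply]
  have hu1 : c * z * c⁻¹ ≠ 1 := by
    intro h
    apply hz1
    have : z = c⁻¹ * (c * z * c⁻¹) * c := by group
    rw [this, h]; group
  have hyK : c * y * c⁻¹ ∈ K := by
    rw [hK, ← Blocks.CyclicOrtho.centralizer_eq P hP hu hu1, mem_centralizer_singleton_iff]
    refine ⟨?_, ?_⟩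
    · have h1 : y * z = z * y := hcomm.eq.symm
      calc c * y * c⁻¹ * (c * z * c⁻¹) = c * (y * z) * c⁻¹ := by group
        _ = c * (z * y) * c⁻¹ := by rw [h1]
        _ = _ := by group
    · have h2 : orderOf (c * y * c⁻¹) = orderOf y := by
        have := orderOf_injective (MulAut.conj c).toMonoidHom (MulAut.conj c).injective y
        simpa using this
      rw [h2]
      exact hy
  refine ⟨c, ⟨_, hu⟩, ⟨_, hyK⟩, fun h => hu1 (congrArg Subtype.val h), ?_⟩
  show c * g * c⁻¹ = c * z * c⁻¹ * (c * y * c⁻¹)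
  rw [← hzy]; group

/-- An automorphism fixing the `p'`-roots of unity fixes the values of the characters of `K`. -/
theorem fix_theta (hK : IsComp p (P : Subgroup G) K) {σ : ℂ ≃+* ℂ}
    (hσ : σ (Complex.exp (2 * Real.pi * Complex.I /
      ((Nat.card G / p ^ (Nat.card G).factorization p) : ℕ))) =
      Complex.exp (2 * Real.pi * Complex.I /
        ((Nat.card G / p ^ (Nat.card G).factorization p) : ℕ))) {θ : K → ℂ} (hθ : IsCharacter K θ)
    (y : K) : σ (θ y) = θ y := by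
  have hp : p.Prime := Fact.out
  have h1 : y ^ (Nat.card G / p ^ (Nat.card G).factorization p) = 1 := by
    apply Subtype.ext
    push_cast
    exact pow_compl_eq_one hp ((hK (y : G)).1 y.2).2
  have h3 := GaloisBasic.map_apply (σ : ℂ →+* ℂ) (m := 1)
    (n := Nat.card G / p ^ (Nat.card G).factorization p)
    (fun z hz => fix_of_fix_exp (compl_pos p).ne' σ hσ z hz) hθ (compl_pos p).ne' h1
  rw [pow_one] at h3
  exact h3

theorem part_map (hK : IsComp p (P : Subgroup G) K) {σ : ℂ ≃+* ℂ}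
    (hσ : σ (Complex.exp (2 * Real.pi * Complex.I /
      ((Nat.card G / p ^ (Nat.card G).factorization p) : ℕ))) =
      Complex.exp (2 * Real.pi * Complex.I /
        ((Nat.card G / p ^ (Nat.card G).factorization p) : ℕ))) {θ : K → ℂ} (hθ : IsCharacter K θ)
    {χ ψ : G → ℂ} (hψ : ψ = fun g => σ (χ g)) (x : G) : part θ ψ x = σ (part θ χ x) := by
  have := Fintype.ofFinite K
  rw [part_eq, part_eq, map_mul, map_inv₀, map_natCast, map_sum]
  congr 1
  refine Finset.sum_congr rfl fun y _ => ?_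
  rw [map_mul, hψ]
  congr 1
  have h1 : conj (θ y) = θ y⁻¹ := (isCharacter_apply_inv hθ y).symm
  rw [h1, fix_theta hK hσ hθ]

/-- `p`-conjugation preserves the sets `Over P θ`. -/
theorem mem_Over_of_pConj (hK : IsComp p (P : Subgroup G) K) {θ : IrrCharacter K}
    {χ ψ : IrrCharacter G} (h : ψ ∈ pConj p χ) (hχ : χ ∈ Over P (θ : K → ℂ)) :
    ψ ∈ Over P (θ : K → ℂ) := by
  obtain ⟨σ, hσ, hψ⟩ := h
  obtain ⟨x, hx, hne⟩ := hχ
  refine ⟨x, hx, ?_⟩
  rw [part_map hK hσ (isIrr_isCharacter θ.2) hψ]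
  exact fun h => hne ((map_eq_zero_iff σ σ.injective).1 h)

theorem pConj_symm {χ ψ : IrrCharacter G} (h : ψ ∈ pConj p χ) : χ ∈ pConj p ψ := by
  obtain ⟨σ, hσ, hψ⟩ := h
  refine ⟨σ.symm, ?_, ?_⟩
  · rw [RingEquiv.symm_apply_eq]; exact hσ.symm
  · funext g
    rw [hψ]
    exact (σ.symm_apply_apply _).symm

/-- The nonexceptional characters are `p`-rational. -/
theorem eq_of_pConj_of_const (hK : IsComp p (P : Subgroup G) K) (hP : Nat.card P = p)
    {θ : IrrCharacter K} {χ ψ : IrrCharacter G} (hχ : χ ∈ Over P (θ : K → ℂ)) {c : ℤ}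
    (hc : ∀ x : P, x ≠ 1 → part (θ : K → ℂ) (χ : G → ℂ) x = c) (h : ψ ∈ pConj p χ) : ψ = χ := by
  have hp : p.Prime := Fact.out
  apply Subtype.ext
  funext g
  by_cases hg : p ∣ orderOf g
  · obtain ⟨σ, hσ, hψ⟩ := h
    obtain ⟨a, x, y, hx, hxy⟩ := exists_conj_mul hK hP hg
    have e1 : (χ : G → ℂ) g = (χ : G → ℂ) (x * y) := by
      rw [← hxy, isIrr_isClassFunction χ.2]
    have e2 : (ψ : G → ℂ) g = σ ((χ : G → ℂ) g) := congrFun hψ g
    rw [e2, e1, apply_of_const hK hP θ.2 hχ hc hx y, map_mul, map_intCast, map_sum]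
    congr 1
    exact Finset.sum_congr rfl fun θ' _ => fix_theta hK hσ (isIrr_isCharacter θ'.2) y
  · exact apply_eq_of_mem_pConj hp h hg

/-- Powers of linear characters. -/
def pw {Q : Type u} [Group Q] (k : ℕ) (l : Q →* ℂˣ) : Q →* ℂˣ := (powMonoidHom k).comp l

theorem pw_apply {Q : Type u} [Group Q] (k : ℕ) (l : Q →* ℂˣ) (x : Q) : pw k l x = l x ^ k := rfl

theorem apply_pow_eq_one {Q : Type u} [Group Q] (hP : Nat.card Q = p) (l : Q →* ℂˣ) (x : Q) :
    l x ^ p = 1 := by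
  rw [← map_pow]
  have : x ^ p = 1 := by rw [← hP]; exact pow_card_eq_one'
  rw [this, map_one]

theorem pw_injective {Q : Type u} [Group Q] (hP : Nat.card Q = p) {k : ℕ} (hk : k.Coprime p) :
    Function.Injective (pw k : (Q →* ℂˣ) → (Q →* ℂˣ)) := by
  intro a b hab
  apply MonoidHom.ext
  intro x
  have h1 : a x ^ k = b x ^ k := by
    rw [← pw_apply, ← pw_apply, hab]
  have h12 : (a x / b x) ^ k = 1 := by
    rw [div_pow]; exact div_eq_one.2 h1
  have h13 : (a x / b x) ^ p = 1 := by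
    rw [div_pow, apply_pow_eq_one hP, apply_pow_eq_one hP, div_one]
  have h14 : orderOf (a x / b x) ∣ 1 := by
    have := Nat.dvd_gcd (orderOf_dvd_of_pow_eq_one h12) (orderOf_dvd_of_pow_eq_one h13)
    rwa [hk] at this
  exact div_eq_one.1 (orderOf_eq_one_iff.1 (Nat.dvd_one.1 h14))

theorem pw_one {Q : Type u} [Group Q] (k : ℕ) : pw k (1 : Q →* ℂˣ) = 1 := by
  apply MonoidHom.ext
  intro x
  rw [pw_apply, MonoidHom.one_apply, one_pow]

/-- Two nontrivial linear characters of `P` are powers of each other. -/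
theorem exists_pow_eq {Q : Type u} [Group Q] [Finite Q] (hP : Nat.card Q = p) {l l' : Q →* ℂˣ}
    (hl : l ≠ 1) (hl' : l' ≠ 1) : ∃ k : ℕ, k.Coprime p ∧ l' = pw k l := by
  have hp : p.Prime := Fact.out
  have : Nontrivial Q := by
    rw [← Finite.one_lt_card_iff_nontrivial, hP]; exact hp.one_lt
  obtain ⟨x, hx⟩ := exists_ne (1 : Q)
  have hxo : orderOf x = p := by
    have h1 := orderOf_dvd_natCard x
    rw [hP] at h1
    rcases (Nat.dvd_prime hp).1 h1 with h | h
    · exact absurd (orderOf_eq_one_iff.1 h) hx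
    · exact h
  have h1 : IsPrimitiveRoot (l x) p := by
    have h2 : orderOf (l x) = p := by
      rw [orderOf_injective l (injective_of_ne_one hp hP hl), hxo]
    rw [← h2]
    exact IsPrimitiveRoot.orderOf _
  have h2 : (l' x) ^ p = 1 := by
    rw [← map_pow, ← hxo, pow_orderOf_eq_one, map_one]
  have : NeZero p := ⟨hp.ne_zero⟩
  obtain ⟨k, hk, hkx⟩ : ∃ k < p, (l x) ^ k = l' x := by
    have h3 : IsPrimitiveRoot ((l x : ℂˣ) : ℂ) p := IsPrimitiveRoot.coe_units_iff.2 h1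
    obtain ⟨k, hk, hk'⟩ := h3.eq_pow_of_pow_eq_one (ξ := ((l' x : ℂˣ) : ℂ)) (by
      rw [← Units.val_pow_eq_pow_val, h2, Units.val_one])
    exact ⟨k, hk, Units.ext (by rw [Units.val_pow_eq_pow_val]; exact hk')⟩
  have heq : l' = pw k l := by
    apply MonoidHom.ext
    intro y
    have hy : y ∈ zpowers x := mem_zpowers_of_prime_card hP hx
    obtain ⟨j, rfl⟩ := mem_zpowers_iff.1 hy
    rw [map_zpow, map_zpow, pw_apply, hkx]
  refine ⟨k, ?_, heq⟩
  rw [Nat.coprime_comm, Nat.Prime.coprime_iff_not_dvd hp]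
  intro hdvd
  have hk0 : k = 0 := Nat.eq_zero_of_dvd_of_lt hdvd hk
  apply hl'
  rw [heq, hk0]
  apply MonoidHom.ext
  intro y
  rw [pw_apply, pow_zero, MonoidHom.one_apply]

/-- An automorphism fixing the `p'`-roots of unity with prescribed action on the `p`-th ones. -/
theorem exists_ringEquiv (hP : Nat.card P = p) {k : ℕ} (hk : k.Coprime p) :
    ∃ σ : ℂ ≃+* ℂ, σ (Complex.exp (2 * Real.pi * Complex.I /
      ((Nat.card G / p ^ (Nat.card G).factorization p) : ℕ))) =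
      Complex.exp (2 * Real.pi * Complex.I /
        ((Nat.card G / p ^ (Nat.card G).factorization p) : ℕ)) ∧
      ∀ z : ℂ, z ^ p = 1 → σ z = z ^ k := by
  have hp : p.Prime := Fact.out
  set m := Nat.card G / p ^ (Nat.card G).factorization p with hm
  have hn : p * m = Nat.card G := by
    have h1 := Nat.ordProj_mul_ordCompl_eq_self (Nat.card G) p
    rw [← hm, CycOne.factorization_card hP, pow_one] at h1
    exact h1
  have hmp : m.Coprime p := by
    rw [Nat.coprime_comm, Nat.Prime.coprime_iff_not_dvd hp]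
    exact Nat.not_dvd_ordCompl hp Nat.card_pos.ne'
  have hm0 : m ≠ 0 := (compl_pos (G := G) p).ne'
  obtain ⟨k', h1, h2⟩ := Nat.chineseRemainder hmp 1 k
  have hk' : k'.Coprime (Nat.card G) := by
    rw [← hn, Nat.coprime_mul_iff_right]
    constructor
    · rw [Nat.Coprime, h2.gcd_eq]; exact hk
    · rw [Nat.Coprime, h1.gcd_eq]; exact Nat.gcd_one_left m
  obtain ⟨σ, hσ⟩ := GaloisBasic.exists_ringEquiv_pow (Nat.card_pos (α := G)).ne' hk'
  refine ⟨σ, ?_, ?_⟩
  · rw [hσ _ (exp_pow_card p)]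
    apply exp_pow_of_modEq hm0
    have := (ZMod.natCast_eq_natCast_iff k' 1 m).2 h1
    rw [this, Nat.cast_one]
  · intro z hz
    rw [hσ z (by rw [← hn, pow_mul, hz, one_pow])]
    have ho : orderOf z ∣ p := orderOf_dvd_of_pow_eq_one hz
    rw [← pow_mod_orderOf z k', ← pow_mod_orderOf z k]
    congr 1
    exact h2.of_dvd ho

/-- Sets of linear characters are determined by their sums off the identity. -/
theorem finset_eq_of_sum_eq [Fintype (P →* ℂˣ)] [DecidableEq (P →* ℂˣ)] (S T : Finset (P →* ℂˣ))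
    (hS : 1 ∉ S) (hT : 1 ∉ T)
    (h : ∀ x : P, x ≠ 1 → ∑ l ∈ S, ((l x : ℂˣ) : ℂ) = ∑ l ∈ T, ((l x : ℂˣ) : ℂ)) : S = T := by
  classical
  let b : (P →* ℂˣ) → ℂ := fun l => (if l ∈ S then 1 else 0) - (if l ∈ T then 1 else 0)
  have h0 : ∀ x : P, x ≠ 1 → ∑ l : P →* ℂˣ, b l * conj ((l x : ℂˣ) : ℂ) = 0 := by
    intro x hx
    have h1 := h x⁻¹ (inv_ne_one.2 hx)
    have h2 : ∀ l : P →* ℂˣ, b l * conj ((l x : ℂˣ) : ℂ) =
        (if l ∈ S then ((l x⁻¹ : ℂˣ) : ℂ) else 0) - (if l ∈ T then ((l x⁻¹ : ℂˣ) : ℂ) else 0) := by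
      intro l
      rw [conj_hom_apply]
      simp only [b, sub_mul, ite_mul, one_mul, zero_mul]
    rw [Finset.sum_congr rfl fun l _ => h2 l, Finset.sum_sub_distrib, ← Finset.sum_filter,
      ← Finset.sum_filter, Finset.filter_mem_eq_inter, Finset.filter_mem_eq_inter,
      Finset.univ_inter, Finset.univ_inter, h1, sub_self]
  ext l
  have h1 := eq_of_sum_eq_zero b h0 l 1
  have h2 : b 1 = 0 := by simp [b, hS, hT]
  rw [h2] at h1
  by_cases e1 : l ∈ S <;> by_cases e2 : l ∈ T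
  · simp [e1, e2]
  · simp [b, e1, e2] at h1
  · simp [b, e1, e2] at h1
  · simp [e1, e2]

/-- **The exceptional characters form one class of `p`-conjugate characters.** -/
theorem pConj_exceptional (hK : IsComp p (P : Subgroup G) K) (hP : Nat.card P = p)
    {θ : IrrCharacter K} {e t : ℕ} (he : Nat.card (stabAct hK (θ : K → ℂ)) = e)
    (ht : e * t = p - 1) :
    ∃ (NE X : Finset (IrrCharacter G)) (δ : IrrCharacter G → ℤ),
      (∀ χ : IrrCharacter G, χ ∈ Over P (θ : K → ℂ) ↔ χ ∈ NE ∨ χ ∈ X) ∧ Disjoint NE X ∧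
      NE.card = e ∧ X.card = t ∧
      (∀ Θ ∈ X, ∀ ψ : IrrCharacter G, ψ ∈ pConj p Θ ↔ ψ ∈ X) ∧
      (∀ χ ∈ NE, ∀ ψ : IrrCharacter G, ψ ∈ pConj p χ → ψ = χ) ∧
      (∀ χ ∈ Over P (θ : K → ℂ), δ χ = 1 ∨ δ χ = -1) ∧
      (∀ Θ ∈ X, ∀ g : G, ¬ p ∣ orderOf g →
        ∑ χ ∈ NE, (δ χ : ℂ) * (χ : G → ℂ) g + (δ Θ : ℂ) * (Θ : G → ℂ) g = 0) := by
  classical
  have hp : p.Prime := Fact.out
  have := finite_dual hp hP
  have := Fintype.ofFinite (P →* ℂˣ)
  obtain ⟨NE, X, ε, d, S, h1, h2, h3, h4, h5, h6, h7, h8, h9, h10, h11⟩ := theoremC hK hP θ.2 he ht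
  have hrat : ∀ χ ∈ NE, ∀ ψ : IrrCharacter G, ψ ∈ pConj p χ → ψ = χ := fun χ hχ ψ hψ =>
    eq_of_pConj_of_const hK hP ((h1 χ).2 (Or.inl hχ)) (h7 χ hχ) hψ
  have hcl : ∀ Θ ∈ X, ∀ ψ : IrrCharacter G, ψ ∈ pConj p Θ → ψ ∈ X := by
    intro Θ hΘ ψ hψ
    have h12 := mem_Over_of_pConj hK hψ ((h1 Θ).2 (Or.inr hΘ))
    rcases (h1 ψ).1 h12 with h | h
    · exfalso
      have h13 := hrat ψ h Θ (pConj_symm hψ)
      rw [← h13] at h
      exact Finset.disjoint_left.1 h2 h hΘ
    · exact h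
  have he0 : 0 < e := by
    rw [← he]; exact Nat.card_pos
  have hd0 : (d : ℂ) ≠ 0 := by rcases h6 with rfl | rfl <;> norm_num
  have htr : ∀ Θ ∈ X, ∀ ψ ∈ X, ψ ∈ pConj p Θ := by
    intro Θ hΘ Θ' hΘ'
    obtain ⟨l, hl⟩ : (S Θ).Nonempty := by
      rw [← Finset.card_pos, (h8 Θ hΘ).1]; exact he0
    obtain ⟨l', hl'⟩ : (S Θ').Nonempty := by
      rw [← Finset.card_pos, (h8 Θ' hΘ').1]; exact he0
    have hl1 : l ≠ 1 := fun h => (h8 Θ hΘ).2.1 (h ▸ hl)
    have hl1' : l' ≠ 1 := fun h => (h8 Θ' hΘ').2.1 (h ▸ hl')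
    obtain ⟨k, hk, hkl⟩ := exists_pow_eq hP hl1 hl1'
    obtain ⟨σ, hσ, hσp⟩ := exists_ringEquiv (G := G) hP hk
    let Ψ : IrrCharacter G := ⟨fun g => σ ((Θ : G → ℂ) g), GaloisIrr.isIrr_map σ Θ.2⟩
    have hΨ : Ψ ∈ pConj p Θ := ⟨σ, hσ, rfl⟩
    have hΨX := hcl Θ hΘ Ψ hΨ
    -- the exponents of `Ψ`
    have hinj := pw_injective (Q := P) hP hk
    have hSS : S Ψ = (S Θ).image (pw k) := by
      apply finset_eq_of_sum_eq
      · exact (h8 Ψ hΨX).2.1
      · intro hmem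
        obtain ⟨a, ha, hak⟩ := Finset.mem_image.1 hmem
        have : a = 1 := hinj (by rw [hak, pw_one])
        exact (h8 Θ hΘ).2.1 (this ▸ ha)
      · intro x hx
        have e1 := (h8 Ψ hΨX).2.2.2 x hx
        have e2 := (h8 Θ hΘ).2.2.2 x hx
        have e3 := part_map hK hσ (isIrr_isCharacter θ.2) (χ := (Θ : G → ℂ)) (ψ := (Ψ : G → ℂ)) rfl
          (x : G)
        rw [e1, e2, map_mul, map_intCast] at e3
        have e4 := mul_left_cancel₀ hd0 e3
        rw [e4, map_sum, Finset.sum_image fun a _ b _ h => hinj h]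
        refine Finset.sum_congr rfl fun a _ => ?_
        rw [hσp _ (by rw [← Units.val_pow_eq_pow_val, apply_pow_eq_one hP, Units.val_one]), pw_apply,
          Units.val_pow_eq_pow_val]
    have hmem : l' ∈ S Ψ := by
      rw [hSS, hkl]
      exact Finset.mem_image_of_mem _ hl
    have : Ψ = Θ' := by
      by_contra hne
      exact Finset.disjoint_left.1 (h9 Ψ hΨX Θ' hΘ' hne) hmem hl'
    rw [← this]
    exact hΨ
  refine ⟨NE, X, fun χ => if χ ∈ NE then ε χ else -d, h1, h2, h3, h4,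
    fun Θ hΘ ψ => ⟨hcl Θ hΘ ψ, htr Θ hΘ ψ⟩, hrat, ?_, ?_⟩
  · intro χ hχ
    by_cases h : χ ∈ NE
    · simp only [h, if_true]; exact h5 χ h
    · simp only [h, if_false]
      rcases h6 with rfl | rfl
      · right; rfl
      · left; rfl
  · intro Θ hΘ g hg
    have hΘNE : Θ ∉ NE := fun h => Finset.disjoint_left.1 h2 h hΘ
    have e1 : ∑ χ ∈ NE, ((if χ ∈ NE then ε χ else -d : ℤ) : ℂ) * (χ : G → ℂ) g =
        ∑ χ ∈ NE, (ε χ : ℂ) * (χ : G → ℂ) g :=
      Finset.sum_congr rfl fun χ hχ => by rw [if_pos hχ]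
    show ∑ χ ∈ NE, ((if χ ∈ NE then ε χ else -d : ℤ) : ℂ) * (χ : G → ℂ) g +
      ((if Θ ∈ NE then ε Θ else -d : ℤ) : ℂ) * (Θ : G → ℂ) g = 0
    rw [e1, h11 Θ hΘ g hg, if_neg hΘNE]
    push_cast
    ring

end Cfsg.Agent.H608.CycOneConj
end

-- part: S4507
section
set_option autoImplicit false
open Cfsg

namespace Cfsg.Agent.S4507

/-- Let G be a finite group whose order g is divisible by the prime p exactly once, g′ = g/p, and fix a maximal ideal M of the algebraic integers containing p. Call two irreducible characters p-conjugate when a field automorphism of ℂ fixing the g′-th roots of unity carries one to the other. Let B be a p-block of positive defect (its defect group is a Sylow p-subgroup). Then B contains a subset Y (the exceptional family) such that: Y is a full p-conjugacy class (its members are pairwise p-conjugate and every p-conjugate of a member of Y lies in Y); every member of B outside Y is p-conjugate only to itself;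 the size t of Y divides p − 1 and B has exactly t + (p − 1)/t members; and there are signs δ_χ = ±1 (χ ∈ B) such that for every p-regular element x and every θ ∈ Y, Σ_{χ ∈ B ∖ Y} δ_χ χ(x) + δ_θ θ(x) = 0. -/
theorem result {G : Type*} [Group G] [Finite G] (p : ℕ) [Fact p.Prime] (M : Ideal Cfsg.AlgInt) (hM : Cfsg.IsPModular p M) (hdiv : p ∣ Nat.card G) (hsq : ¬ p ^ 2 ∣ Nat.card G) (B : Set (Cfsg.IrrCharacter G)) (hB : Cfsg.IsPBlock M B) (hd : 0 < Cfsg.blockDefect p B) : ∃ Y : Set (Cfsg.IrrCharacter G), Y ⊆ B ∧ Y.Nonempty ∧ (∀ θ ∈ Y, ∀ ψ : Cfsg.IrrCharacter G, (∃ σ : ℂ ≃+* ℂ, σ (Complex.exp (2 * Real.pi * Complex.I / ((Nat.card G / p ^ (Nat.card G).factorization p) : ℕ))) = Complex.exp (2 * Real.pi * Complex.I / ((Nat.card G / p ^ (Nat.card G).factorization p) : ℕ)) ∧ (ψ : G → ℂ) = fun g => σ ((θ : G → ℂ) g)) ↔ ψ ∈ Y) ∧ (∀ χ ∈ B, χ ∉ Y → ∀ ψ : Cfsg.IrrCharacter G, (∃ σ : ℂ ≃+* ℂ, σ (Complex.exp (2 * Real.pi * Complex.I / ((Nat.card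 G / p ^ (Nat.card G).factorization p) : ℕ))) = Complex.exp (2 * Real.pi * Complex.I / ((Nat.card G / p ^ (Nat.card G).factorization p) : ℕ)) ∧ (ψ : G → ℂ) = fun g => σ ((χ : G → ℂ) g)) → ψ = χ) ∧ Nat.card Y ∣ p - 1 ∧ Nat.card B = Nat.card Y + (p - 1) / Nat.card Y ∧ ∃ δ : Cfsg.IrrCharacter G → ℤ, (∀ χ ∈ B, δ χ = 1 ∨ δ χ = -1) ∧ ∀ x : G, ¬ p ∣ orderOf x → ∀ θ ∈ Y, (∑ᶠ χ ∈ B \ Y, (δ χ : ℂ) * (χ : G → ℂ) x) + (δ θ : ℂ) * (θ : G → ℂ) x = 0 := by
  classical
  have hp : p.Prime := Fact.out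
  obtain ⟨P⟩ := (inferInstance : Nonempty (Sylow p G))
  have hfac : (Nat.card G).factorization p = 1 := by
    apply le_antisymm
    · by_contra h
      apply hsq
      rw [hp.pow_dvd_iff_le_factorization Nat.card_pos.ne']
      omega
    · rw [← hp.pow_dvd_iff_le_factorization Nat.card_pos.ne', pow_one]
      exact hdiv
  have hP : Nat.card (P : Subgroup G) = p := by
    rw [P.card_eq_multiplicity, hfac, pow_one]
  obtain ⟨K, hK⟩ := Cfsg.Agent.SmallSimple.ThetaSetup.exists_isComp P hP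
  obtain ⟨θ, hθ⟩ := Cfsg.Agent.H608.CycOne.exists_eq_Over hK hP hM hB hd
  have hcyc : IsCyclic (MulAut P) := Cfsg.Agent.SmallSimple.ThetaGroup.isCyclic_mulAut hP
  have hcard : Nat.card (MulAut P) = p - 1 := by
    have : IsCyclic P := isCyclic_of_prime_card hP
    have h1 := IsCyclic.card_mulAut P
    rw [h1]
    have h2 : Nat.card P = p := hP
    rw [h2, Nat.totient_prime hp]
  have hfin : Finite (MulAut P) := Nat.finite_of_card_ne_zero (by
    rw [hcard]; have := hp.one_lt; omega)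
  obtain ⟨t, ht⟩ : Nat.card (Cfsg.Agent.SmallSimple.ThetaOrtho.stabAct hK (θ : K → ℂ)) ∣ p - 1 := by
    rw [← hcard]; exact Subgroup.card_subgroup_dvd_card _
  obtain ⟨NE, X, δ, h1, h2, h3, h4, h5, h6, h7, h8⟩ :=
    Cfsg.Agent.H608.CycOneConj.pConj_exceptional hK hP (θ := θ) rfl ht.symm
  have hp1 := hp.one_lt
  have ht0 : 0 < t := by
    rcases Nat.eq_zero_or_pos t with h | h
    · rw [h, mul_zero] at ht; omega
    · exact h
  have hXcard : Nat.card (X : Set (Cfsg.IrrCharacter G)) = t := by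
    rw [← h4]; simp
  have hBeq : B = (NE : Set (Cfsg.IrrCharacter G)) ∪ X := by
    rw [hθ]
    ext χ
    rw [h1]; simp
  refine ⟨(X : Set (Cfsg.IrrCharacter G)), ?_, ?_, ?_, ?_, ?_, ?_, δ, ?_, ?_⟩
  · rw [hBeq]; exact Set.subset_union_right
  · rw [Finset.coe_nonempty, ← Finset.card_pos, h4]; exact ht0
  · intro θ' hθ' ψ
    exact h5 θ' hθ' ψ
  · intro χ hχ hχX ψ hψ
    rw [hBeq] at hχ
    exact h6 χ (hχ.resolve_right hχX) ψ hψ
  · rw [hXcard, ht]; exact dvd_mul_left _ _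
  · rw [hXcard, hBeq, Nat.card_coe_set_eq, Set.ncard_union_eq (by
      rw [Finset.disjoint_coe]; exact h2), Set.ncard_coe_finset, Set.ncard_coe_finset, h3, h4, ht,
      Nat.mul_div_cancel _ ht0, add_comm]
  · intro χ hχ
    rw [hθ] at hχ
    exact h7 χ hχ
  · intro x hx θ' hθ'
    rw [← h8 θ' hθ' x hx]
    congr 1
    have hdiff : B \ (X : Set (Cfsg.IrrCharacter G)) = (NE : Set (Cfsg.IrrCharacter G)) := by
      rw [hBeq, Set.union_diff_right]
      exact (sdiff_eq_left.2 (by rw [Finset.disjoint_coe]; exact h2))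
    rw [hdiff, finsum_mem_coe_finset]

end Cfsg.Agent.S4507
end
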