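import Mathlib
import Cfsg.Agent.H639.PI2
import Cfsg.Agent.H639.Small3
import Cfsg.Agent.H653.CycFinal
import Cfsg.Agent.H608.PerfComp
import Cfsg.Agent.Blocks.UniqueBlock
import Cfsg.Agent.S4652
import Cfsg.Agent.S1528
import Cfsg.Agent.Characters.CCBasic
import Cfsg.Agent.OddOrderCharacters.IndRes
import Cfsg.Statements.S4634
set_option linter.all false

-- part: H608/CycFrob
section
/-!
# The Frobenius group of order `|Q| e` with a cyclic self-centralizing subgroup `Q`
-/

set_option autoImplicit false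
set_option linter.unusedSectionVars false

open Cfsg

namespace Cfsg.Agent.H608.CycFrob

open Cfsg.Agent.Blocks.Local Cfsg.Agent.Characters
open Cfsg.Agent.Blocks.Basic (isPBlock_blockOf mem_blockOf_self isPBlock_eq_blockOf
  isPBlock_eq_of_mem isPBlock_nonempty)

universe u

section Aut

/-- In a finite cyclic group a subgroup is determined by its order. -/
theorem mem_iff_pow_eq_one {A : Type*} [Group A] [Finite A] (hA : IsCyclic A) (K : Subgroup A)
    (x : A) : x ∈ K ↔ x ^ Nat.card K = 1 := by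
  classical
  have : Fintype A := Fintype.ofFinite A
  constructor
  · intro hx
    have h := pow_card_eq_one' (x := (⟨x, hx⟩ : K))
    exact congrArg Subtype.val h
  · intro hx
    have h1 : (Finset.univ.filter fun a : A => a ∈ K) ⊆
        Finset.univ.filter fun a : A => a ^ Nat.card K = 1 := by
      intro a ha
      rw [Finset.mem_filter] at ha ⊢
      refine ⟨Finset.mem_univ _, ?_⟩
      have h := pow_card_eq_one' (x := (⟨a, ha.2⟩ : K))
      exact congrArg Subtype.val h
    have h2 : (Finset.univ.filter fun a : A => a ^ Nat.card K = 1).card ≤ Nat.card K :=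
      IsCyclic.card_pow_eq_one_le (α := A) Nat.card_pos
    have h3 : (Finset.univ.filter fun a : A => a ∈ K).card = Nat.card K := by
      rw [Nat.card_eq_fintype_card, Fintype.card_subtype]
    have h4 := Finset.eq_of_subset_of_card_le h1 (by rw [h3]; exact h2)
    have h5 : x ∈ Finset.univ.filter fun a : A => a ^ Nat.card K = 1 := by
      rw [Finset.mem_filter]
      exact ⟨Finset.mem_univ _, hx⟩
    rw [← h4, Finset.mem_filter] at h5
    exact h5.2

/-- A subgroup of the automorphism group of a cyclic `p`-group whose order divides `p - 1` is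
determined by its order. -/
theorem mem_iff_of_dvd {p : ℕ} (hp : p.Prime) {P : Type*} [Group P] [Finite P] (hP : IsCyclic P)
    {n : ℕ} (hn : Nat.card P = p ^ n) (K : Subgroup (MulAut P)) (hK : Nat.card K ∣ p - 1)
    (τ : MulAut P) : τ ∈ K ↔ τ ^ Nat.card K = 1 := by
  rcases hp.eq_two_or_odd' with h2 | hodd
  · have h1 : Nat.card K = 1 := by
      rw [h2] at hK
      exact Nat.dvd_one.mp hK
    rw [h1, pow_one, Subgroup.card_eq_one.mp h1, Subgroup.mem_bot]
  · have : Fact p.Prime := ⟨hp⟩
    have h3 : IsCyclic (ZMod (Nat.card P))ˣ := by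
      rw [hn]
      exact ZMod.isCyclic_units_of_prime_pow p hp (by
        rintro rfl
        exact absurd hodd (by decide)) n
    have h4 : IsCyclic (MulAut P) := by
      have e := IsCyclic.mulAutMulEquiv P
      exact isCyclic_of_surjective e.symm.toMonoidHom e.symm.surjective
    have : Finite (MulAut P) := inferInstance
    exact mem_iff_pow_eq_one h4 K τ

end Aut

variable {F : Type u} [Group F] [Fintype F] {p : ℕ} [Fact p.Prime] {M : Ideal AlgInt}
  {Q : Subgroup F} {n e : ℕ}

/-- `Q` is normal. -/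
theorem normal (hn : Nat.card Q = p ^ n) (he : Q.index = e) (he1 : e ∣ p - 1) (he0 : 0 < e) :
    Q.Normal := by
  have hp : p.Prime := Fact.out
  have hlt : e < p := lt_of_le_of_lt (Nat.le_of_dvd (by have := hp.two_le; omega) he1)
    (by have := hp.two_le; omega)
  have hnd : ¬ p ∣ Q.index := by
    rw [he]
    exact fun h => absurd (Nat.le_of_dvd he0 h) (by omega)
  have hQ : IsPGroup p Q := IsPGroup.of_card hn
  obtain ⟨S, hS⟩ := hQ.exists_le_sylow
  have hSQ : (S : Subgroup F) = Q := by
    refine le_antisymm ?_ hS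
    obtain ⟨k, hk⟩ := IsPGroup.iff_card.mp S.isPGroup'
    have h1 : Q.relIndex S ∣ Nat.card S := Subgroup.relIndex_dvd_card _ _
    rw [hk] at h1
    have h2 : Q.relIndex S ∣ Q.index := by
      rw [← Subgroup.relIndex_mul_index hS]
      exact dvd_mul_right _ _
    have h3 : (Q.relIndex S) = 1 := by
      obtain ⟨j, hj, hj'⟩ := (Nat.dvd_prime_pow hp).mp h1
      rcases Nat.eq_zero_or_pos j with h0 | h0
      · rw [hj', h0, pow_zero]
      · exfalso
        apply hnd
        refine (dvd_trans ?_ h2)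
        rw [hj']
        exact dvd_pow_self p h0.ne'
    exact Subgroup.relIndex_eq_one.mp h3
  have h1 := card_sylow_modEq_one p F
  have h2 : Nat.card (Sylow p F) ∣ e := by
    rw [← he, ← hSQ]
    exact S.card_dvd_index
  have h3 : Nat.card (Sylow p F) = 1 := by
    have h4 : Nat.card (Sylow p F) < p := lt_of_le_of_lt (Nat.le_of_dvd he0 h2) hlt
    have h5 := (Nat.ModEq.eq_of_lt_of_lt h1 h4 hp.one_lt)
    exact h5
  rw [Nat.card_eq_one_iff_unique] at h3
  have := h3.1
  have h4 := Sylow.normal_of_subsingleton S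
  rwa [hSQ] at h4

/-- Centralizers of nontrivial elements of `Q`. -/
theorem centralizer_le (hn : Nat.card Q = p ^ n) (he : Q.index = e) (he1 : e ∣ p - 1) (he0 : 0 < e)
    (hQ : IsCyclic Q) (hQC : Subgroup.centralizer (Q : Set F) = Q) {x g : F} (hx : x ∈ Q)
    (hx1 : x ≠ 1) (hg : g * x * g⁻¹ = x) : g ∈ Q := by
  have hN := normal hn he he1 he0
  have hp : p.Prime := Fact.out
  have h1 : ¬ p ∣ (Subgroup.centralizer (Q : Set F)).relIndex ⊤ := by
    rw [hQC, Subgroup.relIndex_top_right, he]
    exact fun h => absurd ((Nat.le_of_dvd he0 h).trans (Nat.le_of_dvd (by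
      have := hp.two_le
      omega) he1)) (by have := hp.two_le; omega)
  have h2 := Cfsg.Agent.H641.mem_centralizer_of_relIndex hp (P := Q) (T := ⊤) (IsPGroup.of_card hn)
    hQ (by rw [Subgroup.normalizer_eq_top]) le_top h1 (Subgroup.mem_top g) hx hx1 hg
  rwa [hQC] at h2

/-- All characters lie in one block. -/
theorem isPBlock_univ_of {A : Type*} [Group A] [Finite A] (hM : IsPModular p M) (P : Subgroup A)
    [P.Normal] (hP : IsPGroup p P) (hC : Subgroup.centralizer (P : Set A) ≤ P) :
    (principalBlock M A : Set (IrrCharacter A)) = Set.univ := by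
  rw [Set.eq_univ_iff_forall]
  intro χ
  exact Cfsg.Agent.Blocks.UniqueBlock.sameBlock_of_centralizer_le hM P hP hC
    ⟨fun _ => 1, Characters.Core.isIrr_one⟩ χ

theorem isPBlock_principal {A : Type*} [Group A] [Finite A] :
    IsPBlock M (principalBlock M A : Set (IrrCharacter A)) :=
  ⟨⟨fun _ => 1, Characters.Core.isIrr_one⟩, rfl⟩

/-- The characters whose kernel does not contain `Q`. -/
theorem apply_eq (hn : Nat.card Q = p ^ n) (he : Q.index = e) (he1 : e ∣ p - 1) (he0 : 0 < e)
    (hQ : IsCyclic Q) (hQC : Subgroup.centralizer (Q : Set F) = Q) (η : IrrCharacter F)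
    (hη : ∃ x ∈ Q, (η : F → ℂ) x ≠ (η : F → ℂ) 1) {y : F} (hy : IsPRegular p y) :
    (y = 1 → (η : F → ℂ) y = (e : ℂ)) ∧ (y ≠ 1 → (η : F → ℂ) y = 0) := by
  have hN := normal hn he he1 he0
  have hp : p.Prime := Fact.out
  obtain ⟨φ, hφ, hind⟩ := Cfsg.Agent.S1528.result Q (fun x hx hx1 g hg =>
    centralizer_le hn he he1 he0 hQ hQC hx hx1 (by
      have h1 := Subgroup.mem_centralizer_singleton_iff.mp hg
      rw [mul_inv_eq_iff_eq_mul]
      exact h1)) (η : F → ℂ) η.2 hη
  constructor
  · intro h1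
    rw [hind, h1, Cfsg.Agent.OddOrderCharacters.IndRes.indFun_apply_one Q φ, he]
    have h3 : φ 1 = 1 := Cfsg.Agent.Characters.CCBasic.irr_apply_one_of_comm
      (fun a b => Cfsg.Agent.H653.CycPairs.comm_of_isCyclic (hQ) a.1 a.2 b.1 b.2 |> Subtype.ext) hφ
    rw [h3, mul_one]
  · intro h1
    rw [hind]
    apply Cfsg.Agent.H608.PerfInd.indFun_eq_zero
    intro t ht
    exfalso
    have h2 : y ∈ Q := by
      obtain ⟨c, hc⟩ := isConj_iff.mp ht.symm
      rw [← hc]
      exact hN.conj_mem _ t.2 c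
    apply h1
    by_contra h3
    have h4 : orderOf (⟨y, h2⟩ : Q) ∣ p ^ n := hn ▸ orderOf_dvd_natCard _
    rw [Subgroup.orderOf_mk] at h4
    obtain ⟨j, -, hj⟩ := (Nat.dvd_prime_pow hp).mp h4
    apply hy
    rw [hj]
    refine dvd_pow_self p ?_
    rintro rfl
    rw [pow_zero, orderOf_eq_one_iff] at hj
    exact h3 hj

open Cfsg.Agent.H639 in
/-- The full setting for `F`. -/
theorem exists_full [M.IsPrime] (hM : IsPModular p M) (hn0 : n ≠ 0) (hn : Nat.card Q = p ^ n)
    (he : Q.index = e) (he1 : e ∣ p - 1) (he0 : 0 < e)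
    (hQ : IsCyclic Q) (hQC : Subgroup.centralizer (Q : Set F) = Q) :
    ∃ (c : ∀ R : Subgroup F, Set (IrrCharacter (Subgroup.centralizer (R : Set F))))
      (ζ : Subgroup F → F → ℂ), Full p M (Set.univ : Set (IrrCharacter F)) ⟨Q, Set.univ⟩ c ζ ∧
        Nat.card (inQ (⟨Q, Set.univ⟩ : BrauerPairIdx F)) = e := by
  have hN := normal hn he he1 he0
  have hp : p.Prime := Fact.out
  have hQp : IsPGroup p Q := IsPGroup.of_card hn
  have hQ1 : Q ≠ ⊥ := by
    rintro rfl
    rw [Subgroup.card_bot] at hn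
    exact absurd hn.symm (Nat.one_lt_pow hn0 hp.one_lt).ne'
  have hF : (principalBlock M F : Set (IrrCharacter F)) = Set.univ :=
    isPBlock_univ_of hM Q hQp hQC.le
  have hCp : IsPGroup p (Subgroup.centralizer (Q : Set F)) := by rw [hQC]; exact hQp
  have hC : (principalBlock M (Subgroup.centralizer (Q : Set F)) :
      Set (IrrCharacter (Subgroup.centralizer (Q : Set F)))) = Set.univ :=
    isPBlock_univ_of hM ⊤ (hCp.to_subgroup ⊤) le_top
  have hCb : IsPBlock M (Set.univ : Set (IrrCharacter (Subgroup.centralizer (Q : Set F)))) := by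
    rw [← hC]
    exact isPBlock_principal
  have hdef : IsDefectGroup p M (Set.univ : Set (IrrCharacter F)) Q := by
    rw [← hF]
    rw [Cfsg.Agent.S4652.result p M hM]
    obtain ⟨S, hS⟩ := hQp.exists_le_sylow
    refine ⟨S, le_antisymm ?_ hS⟩
    obtain ⟨k, hk⟩ := IsPGroup.iff_card.mp S.isPGroup'
    have h1 : Q.relIndex S ∣ Nat.card S := Subgroup.relIndex_dvd_card _ _
    rw [hk] at h1
    have h2 : Q.relIndex S ∣ Q.index := by
      rw [← Subgroup.relIndex_mul_index hS]
      exact dvd_mul_right _ _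
    have h3 : (Q.relIndex S) = 1 := by
      obtain ⟨j, hj, hj'⟩ := (Nat.dvd_prime_pow hp).mp h1
      rcases Nat.eq_zero_or_pos j with h0 | h0
      · rw [hj', h0, pow_zero]
      · exfalso
        have h5 : p ∣ e := by
          rw [← he]
          refine dvd_trans ?_ h2
          rw [hj']
          exact dvd_pow_self p h0.ne'
        exact absurd ((Nat.le_of_dvd he0 h5).trans (Nat.le_of_dvd (by
          have := hp.two_le
          omega) he1)) (by have := hp.two_le; omega)
    exact Subgroup.relIndex_eq_one.mp h3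
  have hind : IsInducedBlock M (Subgroup.centralizer (Q : Set F)) Set.univ
      (Set.univ : Set (IrrCharacter F)) := by
    obtain ⟨B, hB⟩ := Cfsg.Agent.H649.inducedBlockDefined_centralizer hM hQp hCb
    have h1 : B = Set.univ := by
      obtain ⟨χ, hχ⟩ := isPBlock_nonempty hB.2.1
      rw [← hF]
      refine isPBlock_eq_of_mem hB.2.1 isPBlock_principal hχ ?_
      rw [hF]
      exact Set.mem_univ _
    rwa [h1] at hB
  have hab : ∀ x ∈ Q, ∀ y ∈ Q, x * y = y * x := Cfsg.Agent.H653.CycPairs.comm_of_isCyclic hQ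
  obtain ⟨c, ζ, hfull⟩ := Cfsg.Agent.H639.exists_full hM hdef hQ1 hab hind (by
    intro g _ _ x hx hx1 hgx
    rw [hQC]
    exact centralizer_le hn he he1 he0 hQ hQC hx hx1 hgx)
  refine ⟨c, ζ, hfull, ?_⟩
  rw [card_inQ hfull.hs, stabT_eq_idxStab]
  have hT := Cfsg.Agent.H653.CycFinal.eq_idxStab (M := M) (D := Q) hCb (T := ⊤) (by
    intro g
    refine ⟨fun _ => ⟨?_, fun _ _ _ _ => Set.mem_univ _⟩, fun _ => Subgroup.mem_top _⟩
    rw [Subgroup.normalizer_eq_top]
    exact Subgroup.mem_top _)
  change (Subgroup.centralizer (Q : Set F)).relIndex (H651.idxStab ⟨Q, Set.univ⟩) = e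
  rw [← hT, hQC, Subgroup.relIndex_top_right, he]

end Cfsg.Agent.H608.CycFrob
end

-- part: S4634
section
set_option autoImplicit false
open Cfsg

namespace Cfsg.Agent.S4634

open Cfsg.Agent.H639 in
/-- Let B be a block of the finite group G relative to a maximal ideal M of the algebraic integers containing the prime p, with a nontrivial cyclic defect group P, let c be a block of C_G(P) inducing B, T the stabilizer of c in N_G(P) and e the index of C_G(P) in T. Let F be any finite group of order #P · e having a cyclic subgroup Q of order #P that is its own centralizer (F is then the semidirect product of Q by a cyclic group of order e acting faithfully). Then there is a perfect isometry from the set of all irreducible characters of F onto B whose signs agree on all the characters of F that do not contain Q in their kernel. -/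
theorem result {G : Type*} [Group G] [Finite G] (p : ℕ) [Fact p.Prime] (M : Ideal Cfsg.AlgInt) (hM : Cfsg.IsPModular p M) (B : Set (Cfsg.IrrCharacter G)) (hB : Cfsg.IsPBlock M B) (P : Subgroup G) (hPD : Cfsg.IsDefectGroup p M B P) (hP1 : P ≠ ⊥) (hcyc : IsCyclic P) (c : Set (Cfsg.IrrCharacter (Subgroup.centralizer (P : Set G)))) (hc : Cfsg.IsInducedBlock M (Subgroup.centralizer (P : Set G)) c B) (T : Subgroup G) (hT : ∀ g : G, g ∈ T ↔ (g ∈ Subgroup.normalizer (P : Set G) ∧ Cfsg.StabilizesBlock (Subgroup.centralizer (P : Set G)) c g)) (e : ℕ) (he : (Subgroup.centralizer (P : Set G)).relIndex T = e) (F : Type*) [Group F] [Finite F] (hF : Nat.card F = Nat.card P * e) (Q : Subgroup F) (hQ : IsCyclic Q) (hQcard : Nat.card Q = Nat.card P) (hQC : Subgroup.centralizer (Q : Set F) = Q) : ∃ (I : Cfsg.IrrCharacter F → Cfsg.IrrCharacter G) (ε : Cfsg.IrrCharacter F → ℤ), Cfsg.IsPerfectIsometry p M (Set.univ : Set (Cfsg.IrrCharacter F)) B I ε ∧ ∀ η η' : Cfsg.IrrCharacter F, (∃ x ∈ Q, (η : F → ℂ) x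 ≠ (η : F → ℂ) 1) → (∃ x ∈ Q, (η' : F → ℂ) x ≠ (η' : F → ℂ) 1) → ε η = ε η' := by
  have hp : p.Prime := Fact.out
  have hMp : M.IsPrime := hM.2.1.isPrime
  have : Fintype G := Fintype.ofFinite G
  have : Fintype F := Fintype.ofFinite F
  have hPp : IsPGroup p P := H641.isPGroup_of_isDefectGroup hPD
  obtain ⟨n, hn⟩ := IsPGroup.iff_card.mp hPp
  have hn0 : n ≠ 0 := by
    rintro rfl
    rw [pow_zero] at hn
    exact hP1 (Subgroup.eq_bot_of_card_eq _ hn)
  obtain ⟨z, hz⟩ := H653.CycFinal.exists_hyp hM hcyc (Nat.one_le_iff_ne_zero.mpr hn0) hn hPD hc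
  have hstab : stabT (⟨P, c⟩ : BrauerPairIdx G) = T := stabT_eq hM hc.1 hT
  have he' : (Subgroup.centralizer (P : Set G)).relIndex (H651.idxStab ⟨P, c⟩) = e := by
    rw [← stabT_eq_idxStab, hstab, he]
  obtain ⟨he1, -, he0⟩ := H653.CycFinal.dvd_and hz hn he'
  have hab : ∀ x ∈ P, ∀ y ∈ P, x * y = y * x := H653.CycPairs.comm_of_isCyclic hcyc
  obtain ⟨c1, ζ1, hF1⟩ := H639.exists_full hM hPD hP1 hab hc (by
    intro g hg1 hg2 x hx hx1 hgx
    refine H641.mem_centralizer_of_relIndex hp (P := P) (T := T) hPp hcyc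
      (fun t ht => ((hT t).mp ht).1) ?_ (not_dvd_relIndex' hM hPD hab hc hT)
      ((hT g).mpr ⟨hg1, hg2⟩) hx hx1 hgx
    rw [← hstab]
    exact hz.centralizer_le_stab.trans_eq (stabT_eq_idxStab _).symm)
  have hcard1 : Nat.card (inQ (⟨P, c⟩ : BrauerPairIdx G)) = e := by
    rw [card_inQ hF1.hs, hstab]
    exact he
  have hidx : Q.index = e := by
    have h1 := Q.card_mul_index
    rw [hF, hQcard] at h1
    exact Nat.eq_of_mul_eq_mul_left Nat.card_pos h1
  obtain ⟨c2, ζ2, hF2, hcard2⟩ := H608.CycFrob.exists_full (Q := Q) hM hn0 (hQcard.trans hn) hidx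
    he1 he0 hQ hQC
  let θ : Q ≃* P := mulEquivOfCyclicCardEq hQcard
  obtain ⟨I, ε, hI, -⟩ := exists_isPerfectIsometry hF1 hF2 θ (by
    intro τ
    have h1 := H608.CycFrob.mem_iff_of_dvd hp hcyc hn (inQ (⟨P, c⟩ : BrauerPairIdx G))
      (by rw [hcard1]; exact he1) (MulAut.congr θ τ)
    have h2 := H608.CycFrob.mem_iff_of_dvd hp hQ (hQcard.trans hn)
      (inQ (⟨Q, Set.univ⟩ : BrauerPairIdx F)) (by rw [hcard2]; exact he1) τ
    rw [hcard1] at h1
    rw [hcard2] at h2
    refine h1.trans (Iff.trans ?_ h2.symm)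
    rw [← map_pow, map_eq_one_iff _ (MulAut.congr θ).injective])
    (hF1.card_eq_of_isCyclic hcyc) (hF2.card_eq_of_isCyclic hQ)
  refine ⟨I, ε, hI, fun η η' h h' => (H608.PerfComp.sign_eq hI (Set.mem_univ _) (Set.mem_univ _)
    fun y hy => ?_).1⟩
  have h1 := H608.CycFrob.apply_eq (hQcard.trans hn) hidx he1 he0 hQ hQC η h hy
  have h2 := H608.CycFrob.apply_eq (hQcard.trans hn) hidx he1 he0 hQ hQC η' h' hy
  by_cases hy1 : y = 1
  · rw [h1.1 hy1, h2.1 hy1]
  · rw [h1.2 hy1, h2.2 hy1]

end Cfsg.Agent.S4634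
end
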