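import Mathlib
import Cfsg.Agent.Lib.ThompsonPQ
import Cfsg.Agent.Lib.CoprimeCommutator
import Cfsg.Agent.H644.Pairs
import Cfsg.Agent.H648.CoverAlg
import Cfsg.Agent.H649.PairInduced
import Cfsg.Agent.Blocks.PRegular
import Cfsg.Statements.S4642
import Cfsg.Agent.H646.OverPrime
import Cfsg.Agent.Lib.Cores
set_option linter.all false

-- part: H646/PConstrGrp
section
/-!
# Group theory of `p`-constrained groups needed for their blocks

`K` normal of order prime to `p`, `L = K Q` normal, `Q` a `p`-group with `C_G(Q) ≤ L`.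

* `mem_of_centralizes`: `R` a `p`-group normalizing `Q`; an element of order prime to `p` of
  `C_G(R)` centralizing `C_Q(R)` lies in `K`.
* `exists_conj_normalized`: every `p`-group `R` normalizes some conjugate of `Q`.
-/

set_option autoImplicit false
set_option linter.unusedSectionVars false

namespace Cfsg.Agent.H646.PConstrGrp

variable {G : Type*} [Group G] [Finite G] {p : ℕ} [Fact p.Prime]

theorem coprime_orderOf_card {Q : Subgroup G} (hQ : IsPGroup p Q) {x : G}
    (hx : (orderOf x).Coprime p) (hxQ : x ∈ Q) : x = 1 := by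
  obtain ⟨k, hk⟩ := hQ ⟨x, hxQ⟩
  have h1 : x ^ p ^ k = 1 := by
    have := congrArg (fun z : Q => (z : G)) hk
    simpa using this
  have h2 := orderOf_dvd_of_pow_eq_one h1
  have h3 : orderOf x = 1 := Nat.eq_one_of_dvd_coprimes (hx.pow_right k) dvd_rfl h2
  exact orderOf_eq_one_iff.mp h3

/-- An element of the `p`-group `Q` in the `p'`-group `K` is trivial. -/
theorem eq_one_of_mem {K Q : Subgroup G} (hK : ¬ p ∣ Nat.card K) (hQ : IsPGroup p Q) {x : G}
    (hx : x ∈ K) (hxQ : x ∈ Q) : x = 1 := by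
  refine coprime_orderOf_card hQ ?_ hxQ
  have h1 : orderOf x ∣ Nat.card K := by
    have := orderOf_dvd_natCard (⟨x, hx⟩ : K)
    rwa [Subgroup.orderOf_mk] at this
  exact Nat.Coprime.coprime_dvd_left h1 ((Nat.Prime.coprime_iff_not_dvd Fact.out).2 hK).symm

/-- The `P × Q` lemma in the quotient. -/
theorem mem_of_centralizes {K L Q R : Subgroup G} [K.Normal] [L.Normal]
    (hK : ¬ p ∣ Nat.card K) (hQ : IsPGroup p Q) (hL : L = K ⊔ Q) (hR : IsPGroup p R)
    (hRQ : R ≤ Subgroup.normalizer (Q : Set G))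
    (hC : Subgroup.centralizer (Q : Set G) ≤ L) {x : G}
    (hxR : x ∈ Subgroup.centralizer (R : Set G)) (hx : (orderOf x).Coprime p)
    (hxQ : ∀ u ∈ Q, u ∈ Subgroup.centralizer (R : Set G) → x * u = u * x) : x ∈ K := by
  classical
  let π : G →* G ⧸ K := QuotientGroup.mk' K
  have hker : ∀ g : G, π g = 1 ↔ g ∈ K := fun g => QuotientGroup.eq_one_iff g
  have hLmap : L.map π = Q.map π := by
    rw [hL, Subgroup.map_sup]
    have : K.map π = ⊥ := by
      rw [Subgroup.map_eq_bot_iff]
      intro k hk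
      exact (hker k).mpr hk
    rw [this, bot_sup_eq]
  have hnorm : (Q.map π).Normal := by
    rw [← hLmap]
    exact ‹L.Normal›.map π (QuotientGroup.mk'_surjective K)
  have key : (Subgroup.zpowers x).map π ≤ Subgroup.centralizer ((Q.map π : Subgroup (G ⧸ K)) :
      Set (G ⧸ K)) := by
    refine Lib.ThompsonPQ.thompson_p_times_q p (R.map π) ((Subgroup.zpowers x).map π) (Q.map π)
      (hR.map π) ?_ (hQ.map π) ?_ ?_ ?_ ?_
    · rw [MonoidHom.map_zpowers, Nat.card_zpowers]
      exact Nat.Coprime.coprime_dvd_left (orderOf_map_dvd π x) hx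
    · rintro _ ⟨r, hr, rfl⟩
      rw [Subgroup.mem_centralizer_iff]
      rintro _ ⟨y, hy, rfl⟩
      obtain ⟨n, rfl⟩ := Subgroup.mem_zpowers_iff.mp hy
      rw [← map_mul, ← map_mul]
      have h1 : Commute x r := (Subgroup.mem_centralizer_iff.mp hxR r hr).symm
      rw [(h1.zpow_left n).eq]
    · exact (Subgroup.map_mono hRQ).trans (Subgroup.le_normalizer_map π)
    · rw [Subgroup.normalizer_eq_top_iff.mpr hnorm]
      exact le_top
    · rintro _ ⟨⟨u, hu, rfl⟩, huR⟩
      have h1 : u ∈ Subgroup.centralizer (R : Set G) := by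
        rw [Subgroup.mem_centralizer_iff]
        intro r hr
        have h2 := Subgroup.mem_centralizer_iff.mp huR (π r) ⟨r, hr, rfl⟩
        have h3 : r * u * r⁻¹ * u⁻¹ ∈ K := by
          rw [← hker, map_mul, map_mul, map_mul, map_inv, map_inv, h2]
          group
        have h4 : r * u * r⁻¹ * u⁻¹ ∈ Q :=
          Q.mul_mem ((Subgroup.mem_normalizer_iff.mp (hRQ hr) u).mp hu) (Q.inv_mem hu)
        have h5 := eq_one_of_mem hK hQ h3 h4
        rw [mul_inv_eq_one, mul_inv_eq_iff_eq_mul] at h5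
        exact h5
      rw [Subgroup.mem_centralizer_iff]
      rintro _ ⟨y, hy, rfl⟩
      obtain ⟨n, rfl⟩ := Subgroup.mem_zpowers_iff.mp hy
      have h2 : Commute x u := hxQ u hu h1
      rw [← map_mul, ← map_mul, (h2.zpow_left n).eq]
  have h1 : ∀ a ∈ Q, x⁻¹ * (a * x * a⁻¹) ∈ K := by
    intro a ha
    rw [← hker, map_mul, map_inv, map_mul, map_mul, map_inv]
    have h2 := Subgroup.mem_centralizer_iff.mp (key ⟨x, Subgroup.mem_zpowers x, rfl⟩) (π a)
      ⟨a, ha, rfl⟩
    rw [h2]
    group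
  obtain ⟨c, hc, hcK⟩ := Lib.CoprimeCommutator.exists_fixed_in_coset p Q K hQ
    (by rw [Subgroup.normalizer_eq_top_iff.mpr ‹K.Normal›]; exact le_top) hK x h1
  have hKL : K ≤ L := by rw [hL]; exact le_sup_left
  have hxL : x ∈ L := by
    have := L.mul_mem (hC hc) (L.inv_mem (hKL hcK))
    rwa [show c * (x⁻¹ * c)⁻¹ = x by group] at this
  rw [← hker]
  refine coprime_orderOf_card (hQ.map π) (Nat.Coprime.coprime_dvd_left (orderOf_map_dvd π x) hx) ?_
  rw [← hLmap]
  exact ⟨x, hxL, rfl⟩

/-- Every `p`-group normalizes a conjugate of `Q`, `Q` Sylow in the normal subgroup `L`. -/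
theorem exists_conj_normalized {L Q R : Subgroup G} [L.Normal] (hQL : Q ≤ L) (hQ : IsPGroup p Q)
    (hQS : ¬ p ∣ Q.relIndex L) (hR : IsPGroup p R) :
    ∃ g : G, R ≤ Subgroup.normalizer ((Q.map (MulAut.conj g).toMonoidHom : Subgroup G) : Set G) := by
  obtain ⟨S₀, hS₀⟩ := hQ.exists_le_sylow
  obtain ⟨S, hS⟩ := hR.exists_le_sylow
  have h1 : (S₀ : Subgroup G) ⊓ L = Q := by
    have h2 : Q ≤ (S₀ : Subgroup G) ⊓ L := le_inf hS₀ hQL
    have h3 : IsPGroup p ((S₀ : Subgroup G) ⊓ L : Subgroup G) := S₀.2.to_le inf_le_left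
    refine (Subgroup.relIndex_eq_one.mp ?_).antisymm h2
    have h4 : Q.relIndex ((S₀ : Subgroup G) ⊓ L) ∣ Q.relIndex L := by
      have := Subgroup.relIndex_mul_relIndex Q ((S₀ : Subgroup G) ⊓ L) L h2 inf_le_right
      rw [← this]
      exact dvd_mul_right _ _
    obtain ⟨n, hn⟩ := (IsPGroup.iff_card.mp h3)
    have h5 : Q.relIndex ((S₀ : Subgroup G) ⊓ L) ∣ p ^ n := by
      rw [← hn]
      exact Subgroup.relIndex_dvd_card Q _
    obtain ⟨i, -, hi⟩ := (Nat.dvd_prime_pow (Fact.out : p.Prime)).mp h5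
    rcases Nat.eq_zero_or_pos i with h0 | h0
    · rw [hi, h0, pow_zero]
    · exact absurd ((dvd_pow_self p h0.ne').trans (hi ▸ h4)) hQS
  obtain ⟨g, hg⟩ := MulAction.exists_smul_eq G S₀ S
  refine ⟨g, ?_⟩
  have h2 : ((S₀ : Subgroup G)).map (MulAut.conj g).toMonoidHom = (S : Subgroup G) := by
    rw [← hg]
    rfl
  have h3 : Q.map (MulAut.conj g).toMonoidHom = (S : Subgroup G) ⊓ L := by
    rw [← h1, Subgroup.map_inf _ _ _ (MulAut.conj g).injective, h2]
    congr 1
    ext x
    rw [Subgroup.mem_map_equiv, MulAut.conj_symm_apply]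
    constructor
    · intro hx
      have := ‹L.Normal›.conj_mem _ hx g
      simpa [mul_assoc] using this
    · intro hx
      have := ‹L.Normal›.conj_mem _ hx g⁻¹
      simpa [mul_assoc] using this
  rw [h3]
  intro r hr
  rw [Subgroup.mem_normalizer_iff]
  intro x
  have hrS := hS hr
  constructor
  · rintro ⟨hx1, hx2⟩
    exact ⟨(S : Subgroup G).mul_mem ((S : Subgroup G).mul_mem hrS hx1) ((S : Subgroup G).inv_mem hrS),
      ‹L.Normal›.conj_mem _ hx2 r⟩
  · rintro ⟨hx1, hx2⟩
    have e1 := (S : Subgroup G).mul_mem ((S : Subgroup G).mul_mem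
      ((S : Subgroup G).inv_mem hrS) hx1) hrS
    have e2 := ‹L.Normal›.conj_mem _ hx2 r⁻¹
    refine ⟨?_, ?_⟩
    · rwa [show r⁻¹ * (r * x * r⁻¹) * r = x by group] at e1
    · simpa [mul_assoc] using e2

end Cfsg.Agent.H646.PConstrGrp
end

-- part: H646/PConstr
section
/-!
# Brauer images of the idempotent of an invariant character of a normal `p'`-subgroup

`K` is a normal subgroup of `G` of order prime to `p`, `R` is a `p`-subgroup.

* `exists_lift`: `(C_K(R))`-invariant elements of `k[C_G(R)]` supported on `K` are images under the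
  Brauer map of elements supported on `K` and invariant under `K` and `R`;
* `exists_nil`: on the image of the idempotent of a block `{θ}` of `K` such elements are scalars up
  to nilpotent elements.
-/

set_option autoImplicit false
set_option linter.unusedSectionVars false

open Cfsg

namespace Cfsg.Agent.H646.PConstr

open Cfsg.Agent.H644 Cfsg.Agent.Blocks.Local

universe u

section Grp

variable {G : Type u} [Group G] [Finite G] {p : ℕ} [Fact p.Prime]

/-- Elements of `C_G(R)` conjugate under `K` are conjugate under `C_K(R)`. -/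
theorem exists_conj_centralizer {K R : Subgroup G} [hKn : K.Normal] (hK : ¬ p ∣ Nat.card K)
    (hR : IsPGroup p R) {x y k : G} (hx : x ∈ Subgroup.centralizer (R : Set G))
    (hy : y ∈ Subgroup.centralizer (R : Set G)) (hk : k ∈ K) (h : k * x * k⁻¹ = y) :
    ∃ c ∈ K, c ∈ Subgroup.centralizer (R : Set G) ∧ c * x * c⁻¹ = y := by
  have hN : ¬ p ∣ Nat.card (K ⊓ Subgroup.centralizer ({x} : Set G) : Subgroup G) := fun hd =>
    hK (hd.trans (Subgroup.card_dvd_of_le inf_le_left))
  have hRN : R ≤ Subgroup.normalizer ((K ⊓ Subgroup.centralizer ({x} : Set G) : Subgroup G) :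
      Set G) := by
    have key : ∀ r ∈ R, ∀ g ∈ K ⊓ Subgroup.centralizer ({x} : Set G),
        r * g * r⁻¹ ∈ K ⊓ Subgroup.centralizer ({x} : Set G) := by
      rintro r hr g ⟨hg1, hg2⟩
      replace hg2 : g * x = x * g := Subgroup.mem_centralizer_singleton_iff.mp hg2
      refine Subgroup.mem_inf.mpr ⟨hKn.conj_mem _ hg1 r, ?_⟩
      rw [Subgroup.mem_centralizer_singleton_iff]
      have h1 : r * x = x * r := Subgroup.mem_centralizer_iff.mp hx r hr
      have h2 : r⁻¹ * x = x * r⁻¹ := by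
        rw [inv_mul_eq_iff_eq_mul, ← mul_assoc, h1, mul_inv_cancel_right]
      calc r * g * r⁻¹ * x = r * g * (r⁻¹ * x) := by group
        _ = r * (g * x) * r⁻¹ := by rw [h2]; group
        _ = (r * x) * g * r⁻¹ := by rw [hg2]; group
        _ = x * (r * g * r⁻¹) := by rw [h1]; group
    intro r hr
    rw [Subgroup.mem_normalizer_iff]
    intro g
    refine ⟨key r hr g, fun hg => ?_⟩
    have := key r⁻¹ (R.inv_mem hr) _ hg
    rwa [show r⁻¹ * (r * g * r⁻¹) * r⁻¹⁻¹ = g by group] at this
  obtain ⟨c, hc, hc2⟩ := Lib.CoprimeCommutator.exists_fixed_in_coset p R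
    (K ⊓ Subgroup.centralizer ({x} : Set G)) hR hRN hN k (fun a ha => by
      refine Subgroup.mem_inf.mpr ⟨?_, ?_⟩
      · exact K.mul_mem (K.inv_mem hk) (hKn.conj_mem _ hk a)
      · rw [Subgroup.mem_centralizer_singleton_iff]
        have h1 : a * x = x * a := Subgroup.mem_centralizer_iff.mp hx a ha
        have h2 : a * y = y * a := Subgroup.mem_centralizer_iff.mp hy a ha
        have h1' : a⁻¹ * x = x * a⁻¹ := by
          rw [inv_mul_eq_iff_eq_mul, ← mul_assoc, h1, mul_inv_cancel_right]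
        have h3 : k * x = y * k := by rw [← h]; group
        have h4 : x * k⁻¹ = k⁻¹ * y := by rw [← h]; group
        calc k⁻¹ * (a * k * a⁻¹) * x = k⁻¹ * a * k * (a⁻¹ * x) := by group
          _ = k⁻¹ * a * (k * x) * a⁻¹ := by rw [h1']; group
          _ = k⁻¹ * (a * y) * k * a⁻¹ := by rw [h3]; group
          _ = (k⁻¹ * y) * a * k * a⁻¹ := by rw [h2]; group
          _ = x * (k⁻¹ * (a * k * a⁻¹)) := by rw [← h4]; group)
  refine ⟨c, ?_, hc, ?_⟩
  · have := K.mul_mem hk hc2.1
    rwa [mul_inv_cancel_left] at this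
  · have h1 := Subgroup.mem_centralizer_singleton_iff.mp hc2.2
    have h2 : c = k * (k⁻¹ * c) := by group
    rw [h2]
    calc k * (k⁻¹ * c) * x * (k * (k⁻¹ * c))⁻¹ = k * ((k⁻¹ * c) * x) * (k⁻¹ * c)⁻¹ * k⁻¹ := by group
      _ = k * x * k⁻¹ := by rw [h1]; group
      _ = y := h

end Grp

section Alg

variable {k : Type*} [Field k] {G : Type u} [Group G] [Finite G] {p : ℕ} [Fact p.Prime]

theorem exists_lift {K R : Subgroup G} [hKn : K.Normal] (hK : ¬ p ∣ Nat.card K)
    (hR : IsPGroup p R) (w : MonoidAlgebra k (Subgroup.centralizer (R : Set G)))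
    (hw : ∀ h : Subgroup.centralizer (R : Set G), (h : G) ∉ K → w.coeff h = 0)
    (hw' : ∀ h c : Subgroup.centralizer (R : Set G), (c : G) ∈ K →
      w.coeff (c * h * c⁻¹) = w.coeff h) :
    ∃ z : MonoidAlgebra k G, (∀ g, g ∉ K → z.coeff g = 0) ∧ IsInv K z ∧ IsInv R z ∧
      br R z = w := by
  classical
  let H := Subgroup.centralizer (R : Set G)
  let P : G → H → Prop := fun g y => (y : G) ∈ K ∧ ∃ κ ∈ K, g = κ * y * κ⁻¹
  let z : MonoidAlgebra k G := mkA fun g => if h : ∃ y : H, P g y then w.coeff h.choose else 0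
  have hz : ∀ (g : G) (y : H), P g y → z.coeff g = w.coeff y := by
    intro g y hy
    have hex : ∃ y : H, P g y := ⟨y, hy⟩
    show (if h : ∃ y : H, P g y then w.coeff h.choose else 0) = _
    rw [dif_pos hex]
    obtain ⟨hy1, κ, hκ, hg⟩ := hy
    obtain ⟨hy1', κ', hκ', hg'⟩ := hex.choose_spec
    obtain ⟨c, hcK, hcR, hc⟩ := exists_conj_centralizer hK hR y.2 hex.choose.2
      (K.mul_mem (K.inv_mem hκ') hκ) (by
        rw [← mul_left_cancel_iff (a := κ'), ← mul_right_cancel_iff (a := κ'⁻¹)]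
        rw [← hg', hg]
        group)
    have h1 : hex.choose = (⟨c, hcR⟩ : H) * y * (⟨c, hcR⟩ : H)⁻¹ := by
      apply Subtype.ext
      exact hc.symm
    rw [h1]
    exact hw' y ⟨c, hcR⟩ hcK
  have hz0 : ∀ g : G, (¬ ∃ y : H, P g y) → z.coeff g = 0 := by
    intro g hg
    show (if h : ∃ y : H, P g y then w.coeff h.choose else 0) = _
    rw [dif_neg hg]
  have hcongr : ∀ g g' : G, (∀ y : H, P g y ↔ P g' y) → z.coeff g = z.coeff g' := by
    intro g g' h
    by_cases hg : ∃ y : H, P g y
    · obtain ⟨y, hy⟩ := hg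
      rw [hz g y hy, hz g' y ((h y).mp hy)]
    · rw [hz0 g hg, hz0 g' fun ⟨y, hy⟩ => hg ⟨y, (h y).mpr hy⟩]
  refine ⟨z, ?_, ?_, ?_, ?_⟩
  · intro g hg
    refine hz0 g ?_
    rintro ⟨y, hy, κ, hκ, rfl⟩
    exact hg (K.mul_mem (K.mul_mem hκ hy) (K.inv_mem hκ))
  · intro a ha g
    refine hcongr _ _ fun y => ?_
    constructor
    · rintro ⟨hy, κ, hκ, h⟩
      refine ⟨hy, a⁻¹ * κ, K.mul_mem (K.inv_mem ha) hκ, ?_⟩
      rw [← mul_left_cancel_iff (a := a), ← mul_right_cancel_iff (a := a⁻¹), h]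
      group
    · rintro ⟨hy, κ, hκ, h⟩
      refine ⟨hy, a * κ, K.mul_mem ha hκ, ?_⟩
      rw [h]
      group
  · intro r hr g
    refine hcongr _ _ fun y => ?_
    have hry : r * (y : G) = y * r := Subgroup.mem_centralizer_iff.mp y.2 r hr
    have hry' : r⁻¹ * (y : G) = y * r⁻¹ := by
      rw [inv_mul_eq_iff_eq_mul, ← mul_assoc, hry, mul_inv_cancel_right]
    constructor
    · rintro ⟨hy, κ, hκ, h⟩
      refine ⟨hy, r⁻¹ * κ * r, by simpa using hKn.conj_mem _ hκ r⁻¹, ?_⟩
      rw [← mul_left_cancel_iff (a := r), ← mul_right_cancel_iff (a := r⁻¹), h]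
      calc κ * (y : G) * κ⁻¹ = κ * (y * r) * r⁻¹ * κ⁻¹ := by group
        _ = κ * (r * y) * r⁻¹ * κ⁻¹ := by rw [hry]
        _ = r * (r⁻¹ * κ * r * y * (r⁻¹ * κ * r)⁻¹) * r⁻¹ := by group
    · rintro ⟨hy, κ, hκ, h⟩
      refine ⟨hy, r * κ * r⁻¹, hKn.conj_mem _ hκ r, ?_⟩
      rw [h]
      calc r * (κ * (y : G) * κ⁻¹) * r⁻¹ = r * κ * (y * r⁻¹) * r * κ⁻¹ * r⁻¹ := by group
        _ = r * κ * (r⁻¹ * y) * r * κ⁻¹ * r⁻¹ := by rw [hry']
        _ = r * κ * r⁻¹ * y * (r * κ * r⁻¹)⁻¹ := by group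
  · refine ext_coeff fun h => ?_
    rw [coeff_br]
    by_cases hh : (h : G) ∈ K
    · exact hz _ h ⟨hh, 1, K.one_mem, by group⟩
    · rw [hw h hh]
      refine hz0 _ ?_
      rintro ⟨y, hy, κ, hκ, h'⟩
      exact hh (h' ▸ K.mul_mem (K.mul_mem hκ hy) (K.inv_mem hκ))

end Alg

section Res

variable {G : Type u} [Group G] [Finite G] {p : ℕ} [Fact p.Prime] {M : Ideal AlgInt} [M.IsPrime]

/-- On the idempotent of the block `{θ}` of `K` the `K`-invariant elements supported on `K` are
scalars up to nilpotent elements. -/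
theorem exists_nil (hM : IsPModular p M) {K : Subgroup G} {θ : IrrCharacter K}
    (hθ : IsPBlock M ({θ} : Set (IrrCharacter K))) (z : MonoidAlgebra (ResField M) G)
    (hz : ∀ g, g ∉ K → z.coeff g = 0) (hzK : IsInv K z) :
    ∃ (c : ResField M) (n : ℕ),
      (z * emb K (idem M {θ}) - c • emb K (idem M {θ})) ^ n = 0 := by
  have h1 : emb K (res K z) = z := H648.CoverAlg.emb_res_of_supp hz
  have h2 : IsCls (res K z) := isCls_res hzK
  have hu := isUnion_of_isPBlock hθ
  refine ⟨lam M (θ : K → ℂ) (res K z), Nat.card (IrrCharacter K), ?_⟩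
  have h3 : (res K z * idem M {θ} - lam M (θ : K → ℂ) (res K z) • idem M {θ}) ^
      Nat.card (IrrCharacter K) = 0 := by
    refine pow_eq_zero_of_lam (isCls_sub (isCls_mul h2 (isCls_idem _))
      (isCls_smul (isCls_idem _) _)) fun χ => ?_
    rw [map_sub, map_smul, lam_mul χ h2 (isCls_idem _), smul_eq_mul]
    by_cases hχ : χ ∈ ({θ} : Set (IrrCharacter K))
    · rw [lam_idem_of_mem hM hu hχ, Set.mem_singleton_iff.mp hχ, sub_self]
    · rw [lam_idem_of_notMem hM hu hχ, mul_zero, mul_zero, sub_self]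
  have h4 := congrArg (emb K) h3
  rw [map_pow, map_sub, map_mul, map_smul, h1, map_zero] at h4
  exact h4

theorem isInv_pow {k : Type*} [Field k] {S : Subgroup G} {x : MonoidAlgebra k G} (hx : IsInv S x)
    (n : ℕ) : IsInv S (x ^ n) := by
  induction n with
  | zero => rw [pow_zero]; exact isInv_one S
  | succ n ih => rw [pow_succ]; exact isInv_mul ih hx

theorem br_pow {k : Type*} [Field k] [CharP k p] {R : Subgroup G} (hR : IsPGroup p R)
    {x : MonoidAlgebra k G} (hx : IsInv R x) (n : ℕ) : br R (x ^ n) = br R x ^ n := by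
  induction n with
  | zero => rw [pow_zero, pow_zero, br_one]
  | succ n ih => rw [pow_succ, pow_succ, br_mul (p := p) hR (isInv_pow hx n) hx, ih]

/-- The Brauer image of the idempotent of an `R`-invariant character of `K`. -/
theorem exists_nil_br (hM : IsPModular p M) {K R : Subgroup G} [hKn : K.Normal]
    (hK : ¬ p ∣ Nat.card K) (hR : IsPGroup p R) {θ : IrrCharacter K}
    (hθ : IsPBlock M ({θ} : Set (IrrCharacter K)))
    (hinv : IsInv R (emb K (idem M ({θ} : Set (IrrCharacter K)))))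
    (w : MonoidAlgebra (ResField M) (Subgroup.centralizer (R : Set G)))
    (hw : ∀ h : Subgroup.centralizer (R : Set G), (h : G) ∉ K → w.coeff h = 0)
    (hw' : ∀ h c : Subgroup.centralizer (R : Set G), (c : G) ∈ K →
      w.coeff (c * h * c⁻¹) = w.coeff h) :
    ∃ (c : ResField M) (n : ℕ), (w * br R (emb K (idem M {θ})) -
      c • br R (emb K (idem M ({θ} : Set (IrrCharacter K))))) ^ n = 0 := by
  have := charP_resField hM
  obtain ⟨z, hz, hzK, hzR, rfl⟩ := exists_lift hK hR w hw hw'
  obtain ⟨c, n, hc⟩ := exists_nil hM hθ z hz hzK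
  refine ⟨c, n, ?_⟩
  have h1 := congrArg (br R) hc
  rw [br_pow (p := p) hR (isInv_sub (isInv_mul hzR hinv) (isInv_smul hinv c)), map_sub, map_smul,
    br_mul (p := p) hR hzR hinv, map_zero] at h1
  exact h1

/-- A scalar up to nilpotents. -/
theorem lam_eq_of_nil {Γ : Type*} [Group Γ] [Finite Γ] {E w : MonoidAlgebra (ResField M) Γ}
    (hE : IsCls E) (hw : IsCls w) {c : ResField M} {n : ℕ} (h : (w * E - c • E) ^ n = 0)
    {φ : IrrCharacter Γ} (hφ : lam M (φ : Γ → ℂ) E = 1) : lam M (φ : Γ → ℂ) w = c := by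
  have h1 := congrArg (lam M (φ : Γ → ℂ)) h
  rw [lam_pow φ (isCls_sub (isCls_mul hw hE) (isCls_smul hE c)), map_sub, map_smul, lam_mul φ hw hE,
    hφ, mul_one, smul_eq_mul, mul_one, map_zero] at h1
  exact sub_eq_zero.mp (eq_zero_of_pow_eq_zero h1)

omit [M.IsPrime] in
/-- Elements of order prime to `p` of `K Q` lie in `K`. -/
theorem mem_of_isPRegular {K L Q : Subgroup G} [K.Normal] (hQ : IsPGroup p Q) (hL : L = K ⊔ Q)
    {x : G} (hxL : x ∈ L) (hx : IsPRegular p x) : x ∈ K := by
  let π : G →* G ⧸ K := QuotientGroup.mk' K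
  have hker : ∀ g : G, π g = 1 ↔ g ∈ K := fun g => QuotientGroup.eq_one_iff g
  have hLmap : L.map π = Q.map π := by
    rw [hL, Subgroup.map_sup]
    have : K.map π = ⊥ := by
      rw [Subgroup.map_eq_bot_iff]
      intro k hk
      exact (hker k).mpr hk
    rw [this, bot_sup_eq]
  have hcop : (orderOf x).Coprime p := ((Nat.Prime.coprime_iff_not_dvd Fact.out).2 hx).symm
  rw [← hker]
  refine PConstrGrp.coprime_orderOf_card (hQ.map π)
    (Nat.Coprime.coprime_dvd_left (orderOf_map_dvd π x) hcop) ?_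
  rw [← hLmap]
  exact ⟨x, hxL, rfl⟩

/-- All blocks of `C_G(R)` over the Brauer image of the idempotent of `θ` are equal. -/
theorem sameBlock_of_lam_br (hM : IsPModular p M) {K L Q R : Subgroup G} [hKn : K.Normal]
    [hLn : L.Normal] (hK : ¬ p ∣ Nat.card K) (hQ : IsPGroup p Q) (hL : L = K ⊔ Q)
    (hC : Subgroup.centralizer (Q : Set G) ≤ L) (hR : IsPGroup p R)
    (hRQ : R ≤ Subgroup.normalizer (Q : Set G)) {θ : IrrCharacter K}
    (hθ : IsPBlock M ({θ} : Set (IrrCharacter K)))
    (hcls : IsCls (emb K (idem M ({θ} : Set (IrrCharacter K)))))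
    (hone : (idem M ({θ} : Set (IrrCharacter K))).coeff 1 ≠ 0)
    {φ φ' : IrrCharacter (Subgroup.centralizer (R : Set G))}
    (hφ : lam M (φ : Subgroup.centralizer (R : Set G) → ℂ)
      (br R (emb K (idem M ({θ} : Set (IrrCharacter K))))) = 1)
    (hφ' : lam M (φ' : Subgroup.centralizer (R : Set G) → ℂ)
      (br R (emb K (idem M ({θ} : Set (IrrCharacter K))))) = 1) :
    SameBlock M (φ : Subgroup.centralizer (R : Set G) → ℂ)
      (φ' : Subgroup.centralizer (R : Set G) → ℂ) := by
  classical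
  have := charP_resField hM
  set e : MonoidAlgebra (ResField M) G := emb K (idem M ({θ} : Set (IrrCharacter K))) with he
  have hee : e * e = e := by
    rw [he, ← map_mul, idem_mul_self hM (isUnion_of_isPBlock hθ)]
  let H : Subgroup G := Subgroup.centralizer (R : Set G)
  set E : MonoidAlgebra (ResField M) H := br R e with hEdef
  have hE : IsCls E := isCls_br_of_isCls hcls
  have hEE : E * E = E := by
    rw [hEdef, ← br_mul (p := p) hR (isInv_of_isCls hcls _) (isInv_of_isCls hcls _), hee]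
  have hEsupp : ∀ h : H, (h : G) ∉ K → E.coeff h = 0 := by
    intro h hh
    rw [hEdef, coeff_br, he, coeff_emb_of_notMem _ hh]
  have hE1 : E.coeff 1 ≠ 0 := by
    rw [hEdef, coeff_br, he, Subgroup.coe_one, coeff_emb_of_mem _ K.one_mem]
    exact hone
  have keyH : ∀ ψ ψ' : IrrCharacter H, lam M (ψ : H → ℂ) E = 1 → lam M (ψ' : H → ℂ) E = 1 →
      ∀ x : H, (x : G) ∈ K → lam M (ψ : H → ℂ) (clsSum M x) = lam M (ψ' : H → ℂ) (clsSum M x) := by
    intro ψ ψ' hψ hψ' x hx
    obtain ⟨c, n, hc⟩ := exists_nil_br hM hK hR hθ (isInv_of_isCls hcls _) (clsSum M x) (by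
      intro h hh
      rw [coeff_clsSum, if_neg]
      intro hcj
      obtain ⟨a, rfl⟩ := isConj_iff.mp hcj
      exact hh (hKn.conj_mem _ hx (a : G))) (by
      intro h c _
      exact isCls_clsSum x h c)
    rw [lam_eq_of_nil hE (isCls_clsSum x) hc hψ, lam_eq_of_nil hE (isCls_clsSum x) hc hψ']
  have keyN : ∀ (N : Subgroup H), (∀ h : H, (h : G) ∈ K → h ∈ N) → ∀ ψ ψ' : IrrCharacter N,
      lam M (ψ : N → ℂ) (res N E) = 1 → lam M (ψ' : N → ℂ) (res N E) = 1 →
      ∀ x : N, ((x : H) : G) ∈ K →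
        lam M (ψ : N → ℂ) (clsSum M x) = lam M (ψ' : N → ℂ) (clsSum M x) := by
    intro N hKN ψ ψ' hψ hψ' x hx
    have hEN : emb N (res N E) = E :=
      H648.CoverAlg.emb_res_of_supp fun h hh => hEsupp h fun hhK => hh (hKN h hhK)
    obtain ⟨c, n, hc⟩ := exists_nil_br hM hK hR hθ (isInv_of_isCls hcls _) (emb N (clsSum M x)) (by
      intro h hh
      by_cases hN : h ∈ N
      · rw [coeff_emb_of_mem _ hN, coeff_clsSum, if_neg]
        intro hcj
        obtain ⟨a, ha⟩ := isConj_iff.mp hcj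
        have ha' : h = (a : H) * x * (a : H)⁻¹ := congrArg (fun z : N => (z : H)) ha.symm
        exact hh (ha' ▸ hKn.conj_mem _ hx ((a : H) : G))
      · rw [coeff_emb_of_notMem _ hN]) (by
      intro h c hc
      exact isInv_emb (isCls_clsSum x) c (hKN c hc) h)
    rw [← he, ← hEdef, ← hEN, ← map_mul, ← map_smul, ← map_sub, ← map_pow] at hc
    have hc' := emb_injective N (hc.trans (map_zero _).symm)
    have hNE : IsCls (res N E) := isCls_res (isInv_of_isCls hE _)
    rw [lam_eq_of_nil hNE (isCls_clsSum x) hc' hψ, lam_eq_of_nil hNE (isCls_clsSum x) hc' hψ']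
  have key0 : ∀ ψ : IrrCharacter H, lam M (ψ : H → ℂ) E = 1 → ∀ x : H, IsPRegular p x →
      (x : G) ∉ K → lam M (ψ : H → ℂ) (clsSum M x) = 0 := by
    intro ψ hψ x hxreg hxK
    let N : Subgroup H := L.subgroupOf H
    have hKL : K ≤ L := by rw [hL]; exact le_sup_left
    have hQL : Q ≤ L := by rw [hL]; exact le_sup_right
    have hKN : ∀ h : H, (h : G) ∈ K → h ∈ N := fun h hh => hKL hh
    have hEN : emb N (res N E) = E :=
      H648.CoverAlg.emb_res_of_supp fun h hh => hEsupp h fun hhK => hh (hKN h hhK)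
    have hNE : IsCls (res N E) := isCls_res (isInv_of_isCls hE _)
    have hNEE : res N E * res N E = res N E := by
      refine emb_injective N ?_
      rw [map_mul, hEN, hEE]
    have hNE0 : res N E ≠ 0 := by
      intro h0
      apply hE1
      have := congrArg (fun z => z.coeff (1 : N)) h0
      simpa using this
    set c : Set (IrrCharacter N) := suppSet M (res N E) with hc
    have hcE : res N E = idem M c := eq_idem_suppSet hM hNE hNEE
    have hcB : IsPBlock M c := by
      obtain ⟨ξ, hξ⟩ := exists_lam_eq_one hNE hNEE hNE0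
      refine ⟨ξ, ?_⟩
      ext ξ'
      constructor
      · intro hξ'
        have := Fintype.ofFinite N
        refine (Blocks.PRegular.sameBlock_iff_of_isPRegular hM ξ ξ').mpr fun y hy => ?_
        have hyK : ((y : H) : G) ∈ K := by
          refine mem_of_isPRegular hQ hL (x := ((y : H) : G)) y.2 ?_
          unfold IsPRegular at hy ⊢
          rwa [Subgroup.orderOf_coe, Subgroup.orderOf_coe]
        have h1 := keyN N hKN ξ ξ' hξ hξ' y hyK
        rw [lam_clsSum, lam_clsSum] at h1
        exact (redC_eq_iff (H649.memLocalRing_centralChar ξ y)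
          (H649.memLocalRing_centralChar ξ' y)).mp h1
      · intro hξ'
        exact isUnion_suppSet (M := M) (res N E) ξ hξ ξ' hξ'
    have hBψ : IsPBlock M (blockOf M (ψ : H → ℂ)) := Blocks.Basic.isPBlock_blockOf ψ
    have hψB : ψ ∈ blockOf M (ψ : H → ℂ) := Blocks.Basic.mem_blockOf_self ψ
    have hEi : E * idem M (blockOf M (ψ : H → ℂ)) = idem M (blockOf M (ψ : H → ℂ)) := by
      have h1 : blockOf M (ψ : H → ℂ) ⊆ suppSet M E := fun χ hχ =>
        isUnion_suppSet (M := M) E ψ hψ χ hχ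
      conv_lhs => rw [eq_idem_suppSet hM hE hEE]
      rw [idem_mul_idem hM (isUnion_suppSet E) (isUnion_of_isPBlock hBψ),
        Set.inter_eq_right.mpr h1]
    have hne : idem M (blockOf M (ψ : H → ℂ)) ≠ 0 :=
      idem_ne_zero hM (isUnion_of_isPBlock hBψ) ⟨ψ, hψB⟩
    let QH : Subgroup H := Q.subgroupOf H
    have hQH : IsPGroup p QH := hQ.comap_subtype
    have hQN : QH ≤ N := fun h hh => hQL hh
    have hbr : br QH (idem M (blockOf M (ψ : H → ℂ))) ≠ 0 := by
      intro h0
      refine hne (H648.CoverAlg.eq_zero_of_br N hM hQH hQN hcB ?_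
        (isInv_of_isCls (isCls_idem _) _) (idem_mul_self hM (isUnion_of_isPBlock hBψ)) ?_ h0)
      · rw [← hcE]
        intro h1
        apply hE1
        have := congrArg (fun z => z.coeff 1) h1
        simpa using this
      · rw [← hcE, hEN, hEi]
    have hbcls : IsCls (br QH (idem M (blockOf M (ψ : H → ℂ)))) :=
      isCls_br_of_isCls (isCls_idem _)
    obtain ⟨ξ, hξ⟩ := exists_lam_eq_one hbcls (by
      rw [← br_mul (p := p) hQH (isInv_of_isCls (isCls_idem _) _)
        (isInv_of_isCls (isCls_idem _) _), idem_mul_self hM (isUnion_of_isPBlock hBψ)]) hbr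
    obtain ⟨B', hB', h1, h2, h3⟩ := exists_block_of_pair hM hQH ξ
    have hBB : blockOf M (ψ : H → ℂ) = B' := h2 _ hBψ hξ
    rw [← h3 ψ (hBB ▸ hψB) _ (isCls_clsSum x)]
    have h4 : br QH (clsSum M x) = 0 := by
      refine ext_coeff fun h => ?_
      rw [coeff_br, coeff_clsSum, if_neg, MonoidAlgebra.coeff_zero, Finsupp.zero_apply]
      intro hcj
      obtain ⟨a, ha⟩ := isConj_iff.mp hcj
      have hord : orderOf ((h : H) : G) = orderOf x := by
        rw [Subgroup.orderOf_coe, ← ha]
        exact MulEquiv.orderOf_eq (MulAut.conj a) x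
      have hhK : ((h : H) : G) ∈ K := by
        refine PConstrGrp.mem_of_centralizes hK hQ hL hR hRQ hC (h : H).2 ?_ ?_
        · rw [hord]
          exact ((Nat.Prime.coprime_iff_not_dvd Fact.out).2 hxreg).symm
        · intro u hu huR
          have h5 := Subgroup.mem_centralizer_iff.mp h.2 (⟨u, huR⟩ : H) hu
          exact (congrArg (fun z : H => (z : G)) h5).symm
      apply hxK
      have h6 : (x : G) = (a : G)⁻¹ * (h : H) * a := by
        rw [← ha]
        push_cast
        group
      rw [h6]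
      simpa using hKn.conj_mem _ hhK (a : G)⁻¹
    rw [h4, map_zero]
  have := Fintype.ofFinite H
  refine (Blocks.PRegular.sameBlock_iff_of_isPRegular hM φ φ').mpr fun x hx => ?_
  have h1 : lam M (φ : H → ℂ) (clsSum M x) = lam M (φ' : H → ℂ) (clsSum M x) := by
    by_cases hxK : (x : G) ∈ K
    · exact keyH φ φ' hφ hφ' x hxK
    · rw [key0 φ hφ x hx hxK, key0 φ' hφ' x hx hxK]
  rw [lam_clsSum, lam_clsSum] at h1
  exact (redC_eq_iff (H649.memLocalRing_centralChar φ x)
    (H649.memLocalRing_centralChar φ' x)).mp h1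

end Res

end Cfsg.Agent.H646.PConstr
end

-- part: S4642
section
set_option autoImplicit false
open Cfsg

namespace Cfsg.Agent.S4642

/-- Let G be a finite group, p a prime, M a maximal ideal of the algebraic integers containing p, K the largest normal subgroup of G of order prime to p, and L the preimage in G of the largest normal p-subgroup of G/K. Let Q be a Sylow p-subgroup of L and suppose C_G(Q) ≤ L. Let θ be an irreducible character of K invariant under conjugation by every element of G, and let B be the set of irreducible characters of G whose restriction to K contains θ. Then B is a block of G, every Sylow p-subgroup of G is a defect group of B, and B is of principal type: for every p-subgroup R of G exactly one block of C_G(R) induces B. -/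
theorem result {G : Type*} [Group G] [Fintype G] (p : ℕ) [Fact p.Prime] (M : Ideal Cfsg.AlgInt) (hM : Cfsg.IsPModular p M) (K : Subgroup G) (hK : K = Cfsg.pPrimeCore p G) [Fintype K] (L : Subgroup G) (hL : L = Cfsg.pPrimePCore p G) (Q : Subgroup G) (hQL : Q ≤ L) (hQp : IsPGroup p Q) (hQS : ¬ p ∣ Q.relIndex L) (hCQ : Subgroup.centralizer (Q : Set G) ≤ L) (θ : Cfsg.IrrCharacter K) (hθ : ∀ g : G, Cfsg.IsConjCharOf K g (θ : K → ℂ) (θ : K → ℂ)) (B : Set (Cfsg.IrrCharacter G)) (hBdef : ∀ χ : Cfsg.IrrCharacter G, χ ∈ B ↔ Cfsg.classInner (fun k : K => (χ : G → ℂ) k) (θ : K → ℂ) ≠ 0) : Cfsg.IsPBlock M B ∧ (∀ S : Sylow p G, Cfsg.IsDefectGroup p M B S) ∧ ∀ R : Subgroup G, IsPGroup p R → ∃! f : Set (Cfsg.IrrCharacter (Subgroup.centralizer (R : Set G))), Cfsg.IsInducedBlock M (Subgroup.centralizer (R : Set G)) f B := by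
  classical
  have hprime : M.IsPrime := hM.2.1.isPrime
  have := Agent.Blocks.Local.charP_resField hM
  subst hK
  have hKn : (pPrimeCore p G).Normal := Lib.Cores.pPrimeCore_normal p
  have hKc : ¬ p ∣ Nat.card (pPrimeCore p G) :=
    (Nat.Prime.coprime_iff_not_dvd Fact.out).1 (Lib.Cores.pPrimeCore_coprime p).symm
  have hLn : L.Normal := by
    rw [hL]
    exact (Lib.Cores.pCore_normal p).comap _
  have hKL : pPrimeCore p G ≤ L := by
    rw [hL]
    intro x hx
    rw [pPrimePCore, Subgroup.mem_comap, QuotientGroup.mk'_apply,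
      (QuotientGroup.eq_one_iff x).mpr hx]
    exact Subgroup.one_mem _
  -- `L = K Q`
  have hLKQ : L = pPrimeCore p G ⊔ Q := by
    refine le_antisymm ?_ (sup_le hKL hQL)
    rw [← Subgroup.relIndex_eq_one]
    have h1 : (pPrimeCore p G ⊔ Q).relIndex L ∣ Q.relIndex L := by
      have := Subgroup.relIndex_mul_relIndex Q (pPrimeCore p G ⊔ Q) L le_sup_right
        (sup_le hKL hQL)
      rw [← this]
      exact dvd_mul_left _ _
    have h2 : (pPrimeCore p G ⊔ Q).relIndex L ∣ (pPrimeCore p G).relIndex L := by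
      have := Subgroup.relIndex_mul_relIndex (pPrimeCore p G) (pPrimeCore p G ⊔ Q) L le_sup_left
        (sup_le hKL hQL)
      rw [← this]
      exact dvd_mul_left _ _
    have h3 : ∃ n : ℕ, (pPrimeCore p G).relIndex L = p ^ n := by
      obtain ⟨n, hn⟩ := IsPGroup.iff_card.mp (Lib.Cores.pCore_isPGroup (G := G ⧸ pPrimeCore p G) p)
      refine ⟨n, ?_⟩
      rw [← hn]
      have h4 : L.map (QuotientGroup.mk' (pPrimeCore p G)) = pCore p (G ⧸ pPrimeCore p G) := by
        rw [hL, pPrimePCore, Subgroup.map_comap_eq_self_of_surjective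
          (QuotientGroup.mk'_surjective _)]
      rw [← h4, ← Subgroup.relIndex_ker, QuotientGroup.ker_mk']
    obtain ⟨n, hn⟩ := h3
    rw [hn] at h2
    obtain ⟨i, -, hi⟩ := (Nat.dvd_prime_pow (Fact.out : p.Prime)).mp h2
    rcases Nat.eq_zero_or_pos i with h0 | h0
    · rw [hi, h0, pow_zero]
    · exact absurd ((dvd_pow_self p h0.ne').trans (hi ▸ h1)) hQS
  have hinv : ∀ g : G, Blocks.Fong.cj (pPrimeCore p G) g θ = θ := by
    intro g
    have h1 := (H646.UCov.isConjCharOf_iff (pPrimeCore p G) g⁻¹ θ θ).mp (hθ g⁻¹)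
    rw [inv_inv] at h1
    exact h1.symm
  have hBeq : B = Blocks.Fong.lyingOver (pPrimeCore p G) {θ} := by
    ext χ
    rw [hBdef, Blocks.Fong.mem_lyingOver]
    simp
  have hθB := H646.OverPrime.isPBlock_singleton hM hKc θ
  have hidem := H646.OverPrime.idem_lyingOver (M := M) (pPrimeCore p G) hinv
  have hcls : H644.IsCls (H644.emb (pPrimeCore p G)
      (H644.idem M ({θ} : Set (IrrCharacter (pPrimeCore p G))))) := by
    rw [← hidem]
    exact H644.isCls_idem _
  have hone : (H644.idem M ({θ} : Set (IrrCharacter (pPrimeCore p G)))).coeff 1 ≠ 0 := by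
    rw [H644.coeff_idem]
    intro h
    rw [Blocks.Local.redC_eq_zero_iff (H644.memLocalRing_blockCoeff hM
      (H644.isUnion_of_isPBlock hθB) _)] at h
    exact H646.OverPrime.not_memLocalIdeal_one hM hKc θ h
  -- uniqueness on `C_G(R)`
  have huniq : ∀ R : Subgroup G, IsPGroup p R → ∀ φ φ' : IrrCharacter
      (Subgroup.centralizer (R : Set G)),
      H644.lam M (φ : Subgroup.centralizer (R : Set G) → ℂ) (H644.br R (H644.idem M B)) = 1 →
      H644.lam M (φ' : Subgroup.centralizer (R : Set G) → ℂ) (H644.br R (H644.idem M B)) = 1 →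
      SameBlock M (φ : Subgroup.centralizer (R : Set G) → ℂ)
        (φ' : Subgroup.centralizer (R : Set G) → ℂ) := by
    intro R hR φ φ' hφ hφ'
    rw [hBeq, hidem] at hφ hφ'
    obtain ⟨g, hg⟩ := H646.PConstrGrp.exists_conj_normalized hQL hQp hQS hR
    have hLconj : L.map (MulAut.conj g).toMonoidHom = L := by
      ext x
      rw [Subgroup.mem_map_equiv, MulAut.conj_symm_apply]
      constructor
      · intro hx
        have := hLn.conj_mem _ hx g
        simpa [mul_assoc] using this
      · intro hx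
        have := hLn.conj_mem _ hx g⁻¹
        simpa [mul_assoc] using this
    have hKconj : (pPrimeCore p G).map (MulAut.conj g).toMonoidHom = pPrimeCore p G := by
      ext x
      rw [Subgroup.mem_map_equiv, MulAut.conj_symm_apply]
      constructor
      · intro hx
        have := hKn.conj_mem _ hx g
        simpa [mul_assoc] using this
      · intro hx
        have := hKn.conj_mem _ hx g⁻¹
        simpa [mul_assoc] using this
    refine H646.PConstr.sameBlock_of_lam_br hM (L := L) hKc (hQp.map (MulAut.conj g).toMonoidHom)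
      ?_ ?_ hR hg hθB hcls hone hφ hφ'
    · conv_lhs => rw [← hLconj, hLKQ, Subgroup.map_sup, hKconj]
    · intro x hx
      have h1 := (H644.mem_centralizer_map_conj Q g (g⁻¹ * x * g)).mpr (by
        simpa [mul_assoc] using hx)
      have := hLn.conj_mem _ (hCQ h1) g
      simpa [mul_assoc] using this
  have hcl : H644.IsCls (H644.idem M B) := H644.isCls_idem B
  have hU : H644.IsUnion M B := by
    rw [hBeq]
    exact H646.OverPrime.isUnion_lyingOver _ hM hKc hinv
  have hmem : ∀ χ : IrrCharacter G, H644.lam M (χ : G → ℂ) (H644.idem M B) = 1 ↔ χ ∈ B :=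
    fun χ => H644.lam_idem_eq_one_iff hM hU
  have hbr : ∀ R : Subgroup G, H644.br R (H644.idem M B) ≠ 0 := by
    intro R h0
    apply hone
    have h1 := congrArg (fun z => z.coeff 1) h0
    rw [hBeq, hidem] at h1
    simp only [H644.coeff_br, MonoidAlgebra.coeff_zero, Finsupp.zero_apply, Subgroup.coe_one] at h1
    rwa [H644.coeff_emb_of_mem _ (pPrimeCore p G).one_mem] at h1
  -- characters of `C_G(R)` over characters of `B`
  have hblk : IsPBlock M B := by
    obtain ⟨χ₀, hχ₀⟩ := Blocks.Over.exists_over (pPrimeCore p G) θ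
    have hχ₀B : χ₀ ∈ B := (hBdef χ₀).mpr hχ₀
    refine ⟨χ₀, ?_⟩
    ext χ
    constructor
    · intro hχ
      have hbot : IsPGroup p (⊥ : Subgroup G) := IsPGroup.of_bot
      have key : ∀ χ ∈ B, ∃ φ : IrrCharacter (Subgroup.centralizer ((⊥ : Subgroup G) : Set G)),
          H644.lam M (φ : Subgroup.centralizer ((⊥ : Subgroup G) : Set G) → ℂ)
            (H644.br ⊥ (H644.idem M B)) = 1 ∧ ∀ z, H644.IsCls z →
          H644.lam M (φ : Subgroup.centralizer ((⊥ : Subgroup G) : Set G) → ℂ) (H644.br ⊥ z) =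
            H644.lam M (χ : G → ℂ) z := by
        intro χ hχ
        have hbb : IsPBlock M (blockOf M (χ : G → ℂ)) := Blocks.Basic.isPBlock_blockOf χ
        have hself := Blocks.Basic.mem_blockOf_self (M := M) χ
        have h1 : H644.IsCls (H644.br (⊥ : Subgroup G) (H644.idem M (blockOf M (χ : G → ℂ)))) :=
          H644.isCls_br_of_isCls (H644.isCls_idem _)
        obtain ⟨φ, hφ⟩ := H644.exists_lam_eq_one h1 (by
          rw [← H644.br_mul (p := p) hbot (H644.isInv_of_isCls (H644.isCls_idem _) _)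
            (H644.isInv_of_isCls (H644.isCls_idem _) _),
            H644.idem_mul_self hM (H644.isUnion_of_isPBlock hbb)]) (by
          intro h0
          apply H644.idem_ne_zero hM (H644.isUnion_of_isPBlock hbb) ⟨χ, hself⟩
          refine H644.ext_coeff fun g => ?_
          have := congrArg (fun z => z.coeff (⟨g, by
            rw [Subgroup.mem_centralizer_iff]
            intro h hh
            rw [SetLike.mem_coe, Subgroup.mem_bot] at hh
            rw [hh, one_mul, mul_one]⟩ : Subgroup.centralizer ((⊥ : Subgroup G) : Set G))) h0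
          exact this)
        obtain ⟨B', hB', -, h2, h3⟩ := H644.exists_block_of_pair hM hbot φ
        have hBB := h2 _ hbb hφ
        have h4 := h3 χ (hBB ▸ hself)
        exact ⟨φ, by rw [h4 _ hcl, hmem]; exact hχ, h4⟩
      obtain ⟨φ, hφ, h1⟩ := key χ hχ
      obtain ⟨φ', hφ', h1'⟩ := key χ₀ hχ₀B
      have h2 := (H644.lam_eq_iff_sameBlock φ' φ).mpr (huniq ⊥ hbot φ' φ hφ' hφ)
      intro g
      have h3 : H644.lam M (χ₀ : G → ℂ) (H644.clsSum M g) =
          H644.lam M (χ : G → ℂ) (H644.clsSum M g) := by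
        rw [← h1 _ (H644.isCls_clsSum g), ← h1' _ (H644.isCls_clsSum g), h2]
      rw [H644.lam_clsSum, H644.lam_clsSum] at h3
      exact (Blocks.Local.redC_eq_iff (H649.memLocalRing_centralChar χ₀ g)
        (H649.memLocalRing_centralChar χ g)).mp h3
    · intro hχ
      exact hU χ₀ hχ₀B χ hχ
  refine ⟨hblk, fun S => ?_, fun R hR => ?_⟩
  · rw [Blocks.Basic.isDefectGroup_iff]
    refine ⟨1, by rw [hBeq]; exact H646.OverPrime.isDefectClass_one _ hM hKc hinv, ?_⟩
    rw [Blocks.Basic.isSylowCentralizer_iff]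
    refine ⟨S.2, ?_, fun T hT _ hST => ?_⟩
    · intro x _
      rw [Subgroup.mem_centralizer_singleton_iff, mul_one, one_mul]
    · exact S.3 hT hST
  · have hE : H644.IsCls (H644.br R (H644.idem M B)) := H644.isCls_br_of_isCls hcl
    obtain ⟨φ, hφ⟩ := H644.exists_lam_eq_one hE (by
      rw [← H644.br_mul (p := p) hR (H644.isInv_of_isCls hcl _)
        (H644.isInv_of_isCls hcl _), H644.idem_mul_self hM hU]) (hbr R)
    have hf : IsPBlock M (blockOf M (φ : Subgroup.centralizer (R : Set G) → ℂ)) :=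
      Blocks.Basic.isPBlock_blockOf φ
    have hself := Blocks.Basic.mem_blockOf_self (M := M) φ
    refine ⟨_, (H649.isBrauerPairOf_iff_isInducedBlock hM hblk hR hf).mp ?_, fun f hfB => ?_⟩
    · rw [H644.isBrauerPairOf_iff hM]
      exact ⟨⟨hR, hf⟩, hblk, (H644.forall_lam_iff hf hself _ _).2 hφ⟩
    · have h1 := (H649.isBrauerPairOf_iff_isInducedBlock hM hblk hR hfB.1).mpr hfB
      rw [H644.isBrauerPairOf_iff hM] at h1
      obtain ⟨ψ, hψ⟩ := Blocks.Basic.isPBlock_nonempty hfB.1
      have h2 := huniq R hR φ ψ hφ (h1.2.2 ψ hψ)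
      exact Blocks.Basic.isPBlock_eq_of_mem hfB.1 hf hψ h2

end Cfsg.Agent.S4642
end
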