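import Mathlib
import Cfsg.Agent.H640.Inv1
import Cfsg.Agent.H637.TaskA
import Cfsg.Agent.H593.GlaubermanP2
import Cfsg.Agent.H648.Dict
import Cfsg.Agent.Blocks.CliffordCentral
import Cfsg.Agent.Blocks.Fong
import Cfsg.Prelude.Def_BlockRank
import Cfsg.Prelude.Def_Local
import Cfsg.Agent.Lib.HallHigman
import Cfsg.Agent.Lib.PSolvable
import Cfsg.Agent.S4492
import Cfsg.Prelude.Def_BlockLocal
import Cfsg.Agent.H592.Transit
import Cfsg.Agent.S4435
import Cfsg.Agent.S4436
import Cfsg.Agent.S0920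
import Cfsg.Agent.H646.OverPrime
import Cfsg.Agent.H648.FirstMain
import Cfsg.Agent.H608.PerfComp
import Cfsg.Agent.H644.Trace
import Cfsg.Statements.S4643
set_option linter.all false

-- part: H640/Inv2
section
/-!
# The invariant case (helper640), part 2: the extension of the Glauberman correspondent
-/

set_option autoImplicit false
set_option linter.unusedSectionVars false

namespace Cfsg.Agent.H640

open Module Matrix IsLocalRing Cfsg

/-- scalars of order prime to `p` with a congruence are equal -/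
theorem scalar_eq {p : ℕ} [hp : Fact p.Prime] {n m e r : ℕ} (he : (e : ZMod p) ^ 2 = 1)
    (hm : ¬ p ∣ m) (hr : ¬ p ∣ r) {l l' d d₁ : ℂ} (hd : IsIntegral ℤ d) (hd₁ : IsIntegral ℤ d₁)
    (hl : l ^ r = 1) (hl' : l' ^ r = 1) (h1 : (n : ℂ) = e * m + p * d₁)
    (h2 : n * l = e * (m * l') + p * d) : l = l' := by
  obtain ⟨B, hB⟩ := exists_valRing p
  have hr0 : r ≠ 0 := fun h => hr (h ▸ dvd_zero p)
  obtain ⟨L, hL⟩ : ∃ L : B, (L : ℂ) = l := ⟨⟨l, mem_of_pow_eq_one hr0 hl⟩, rfl⟩
  obtain ⟨L', hL'⟩ : ∃ L : B, (L : ℂ) = l' := ⟨⟨l', mem_of_pow_eq_one hr0 hl'⟩, rfl⟩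
  obtain ⟨D, hD⟩ : ∃ D : B, (D : ℂ) = d := ⟨⟨d, mem_of_isIntegral hd⟩, rfl⟩
  obtain ⟨D₁, hD₁⟩ : ∃ D : B, (D : ℂ) = d₁ := ⟨⟨d₁, mem_of_isIntegral hd₁⟩, rfl⟩
  have h3 : (e : B) * m * (L - L') = p * (D - D₁ * L) := by
    apply Subtype.ext
    push_cast
    rw [hL, hL', hD, hD₁]
    have : (n : ℂ) * l = (e * m + p * d₁) * l := by rw [h1]
    linear_combination h2 - this
  have h4 := congrArg (residue B) h3
  rw [map_mul, map_mul, map_mul, map_natCast, map_natCast, map_natCast,
    CharP.cast_eq_zero (ResidueField B) p, zero_mul, map_sub] at h4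
  have he' : (e : ResidueField B) ≠ 0 := by
    intro h0
    have h5 := congrArg (ZMod.castHom (dvd_refl p) (ResidueField B)) he
    rw [map_pow, map_natCast, map_one, h0] at h5
    simp at h5
  have hm' : (m : ResidueField B) ≠ 0 := SData.cast_ne B hm
  have h5 : residue B L = residue B L' := by
    rcases mul_eq_zero.1 h4 with h6 | h6
    · exact absurd h6 (mul_ne_zero he' hm')
    · exact sub_eq_zero.1 h6
  have h6 : L = L' := by
    refine eq_of_residue hr ?_ ?_ h5
    · apply Subtype.ext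
      show (L : ℂ) ^ r = 1
      rw [hL, hl]
    · apply Subtype.ext
      show (L' : ℂ) ^ r = 1
      rw [hL', hl']
  rw [← hL, ← hL', h6]

/-- **The extension of the Glauberman correspondent, in the covering group.** -/
theorem inv_core {G : Type*} [Group G] [Finite G] {p : ℕ} [hp : Fact p.Prime]
    (N : Subgroup G) [hN : N.Normal] [Fintype N] (hpN : ¬ p ∣ Nat.card N)
    (P : Subgroup G) (hP : IsPGroup p P) (H : Subgroup G)
    (hH : H = Subgroup.normalizer (P : Set G)) [Fintype (N.subgroupOf H)]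
    {Δ : Type*} [Group Δ] [Finite Δ] (π : Δ →* G) (hπ : Function.Surjective π)
    (hZp : ¬ p ∣ Nat.card π.ker) (hZ : π.ker ≤ Subgroup.center Δ)
    (ν : N →* Δ) (hν : ∀ x, π (ν x) = x)
    {n : ℕ} (hn : 0 < n) (V : Δ →* Matrix (Fin n) (Fin n) ℂ) (hV : Orth (V.comp ν)) :
    ∃ (m : ℕ) (Q : (H.comap π) →* Matrix (Fin m) (Fin m) ℂ) (φ : IrrCharacter (N.subgroupOf H))
      (e : ℕ), (e : ZMod p) ^ 2 = 1 ∧
      (∀ (x : N) (hx : (x : G) ∈ H),
        (Q ⟨ν x, by rw [Subgroup.mem_comap, hν]; exact hx⟩).trace =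
          (φ : N.subgroupOf H → ℂ) ⟨⟨(x : G), hx⟩, x.2⟩) ∧
      (∀ z (hz : z ∈ π.ker), ∃ l : ℂ, V z = l • (1 : Matrix (Fin n) (Fin n) ℂ) ∧ Q ⟨z, by
        rw [Subgroup.mem_comap, MonoidHom.mem_ker.1 hz]; exact one_mem _⟩ =
          l • (1 : Matrix (Fin m) (Fin m) ℂ)) ∧
      ∀ (x : N) (hx : (x : G) ∈ H), ∃ d : ℂ, IsIntegral ℤ d ∧
        (V (ν x)).trace = e * (φ : N.subgroupOf H → ℂ) ⟨⟨(x : G), hx⟩, x.2⟩ + p * d := by
  classical
  have hnC : (n : ℂ) ≠ 0 := Nat.cast_ne_zero.2 hn.ne'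
  have hNC : (Nat.card N : ℂ) ≠ 0 := Nat.cast_ne_zero.2 Nat.card_pos.ne'
  -- groups
  let Hh : Subgroup Δ := H.comap π
  let Nh : Subgroup Δ := N.comap π
  have hNhn : Nh.Normal := hN.comap π
  have : Fintype Nh := Fintype.ofFinite _
  have hNhp : ¬ p ∣ Nat.card Nh := not_dvd_comap π hZp N hpN
  let π' : Hh →* H := (π.comp Hh.subtype).codRestrict H (fun a => a.2)
  have hπ'c : ∀ a : Hh, ((π' a : H) : G) = π a := fun a => rfl
  have hπ's : Function.Surjective π' := by
    intro y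
    obtain ⟨a, ha⟩ := hπ y
    exact ⟨⟨a, by show π a ∈ H; rw [ha]; exact y.2⟩, Subtype.ext ha⟩
  have hπ'k : ∀ a : Hh, a ∈ π'.ker ↔ (a : Δ) ∈ π.ker := by
    intro a
    rw [MonoidHom.mem_ker, MonoidHom.mem_ker]
    constructor
    · intro h
      exact congrArg Subtype.val h
    · intro h
      exact Subtype.ext h
  have hπ'c' : π'.ker ≤ Subgroup.center Hh := by
    intro a ha
    rw [Subgroup.mem_center_iff]
    intro b
    exact Subtype.ext (Subgroup.mem_center_iff.1 (hZ ((hπ'k a).1 ha)) b)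
  let PH : Subgroup H := P.subgroupOf H
  have hPHn : PH.Normal := by
    refine ⟨fun x hx g => ?_⟩
    rw [Subgroup.mem_subgroupOf] at hx ⊢
    have hg : (g : G) ∈ Subgroup.normalizer (P : Set G) := hH ▸ g.2
    exact (Subgroup.mem_normalizer_iff.1 hg x).1 hx
  have hPHp : IsPGroup p PH := hP.comap_subtype
  obtain ⟨Pp, hPpn, hPpp, hPpmap⟩ := exists_lift π' hπ's hπ'c' PH hPHn hPHp
  -- action
  let α : Hh →* MulAut Nh := (MulAut.conjNormal (H := Nh)).comp Hh.subtype
  have hα : ∀ (a : Hh) (x : Nh), ((α a x : Nh) : Δ) = a * x * (a : Δ)⁻¹ := fun a x =>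
    MulAut.conjNormal_apply _ _
  let R : Nh →* Matrix (Fin n) (Fin n) ℂ := V.comp Nh.subtype
  have hR : Orth R := by
    refine orth_of_scalar hn fun M hM => ?_
    refine ⟨_, hV.scalar hnC hNC fun x => ?_⟩
    exact hM ⟨ν x, by show π (ν x) ∈ N; rw [hν]; exact x.2⟩
  let S : Hh →* Matrix (Fin n) (Fin n) ℂ := V.comp Hh.subtype
  have hS : ∀ a x, S a * R x = R (α a x) * S a := by
    intro a x
    show V a * V x = V ((α a x : Nh) : Δ) * V a
    rw [hα, ← map_mul, ← map_mul, inv_mul_cancel_right]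
  let C : Subgroup Nh := fixSub α Pp
  have : Fintype C := Fintype.ofFinite _
  obtain ⟨m, T, e, hm, hT, he, hgl, Q, hQ, hQP, hQs⟩ := thmD_aux p (Nat.card Pp) Nh Hh hNhp α Pp
    hPpn hPpp le_rfl n R hR hn S hS C (fun x => Iff.rfl)
  have hmC : (m : ℂ) ≠ 0 := Nat.cast_ne_zero.2 hm.ne'
  have hCC : (Nat.card C : ℂ) ≠ 0 := Nat.cast_ne_zero.2 Nat.card_pos.ne'
  -- elements of `Nh ∩ Hh` commute with `Pp`
  have hcop : ∀ x : Δ, x ∈ Nh → ∀ hx : x ∈ Hh, (⟨x, hx⟩ : Hh) ∈ Pp → x = 1 := by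
    intro x hxN hx hxP
    obtain ⟨j, hj⟩ := hPpp ⟨⟨x, hx⟩, hxP⟩
    have hj' : x ^ p ^ j = 1 := congrArg (fun t : Pp => ((t : Hh) : Δ)) hj
    have h1 : (⟨x, hxN⟩ : Nh) ^ p ^ j = 1 := Subtype.ext hj'
    have h2 : (⟨x, hxN⟩ : Nh) ^ Nat.card Nh = 1 := pow_card_eq_one'
    have h3 : Nat.gcd (p ^ j) (Nat.card Nh) = 1 :=
      Nat.Coprime.pow_left j ((Nat.Prime.coprime_iff_not_dvd hp.out).2 hNhp)
    have h4 := pow_gcd_eq_one.2 ⟨h1, h2⟩
    rw [h3, pow_one] at h4
    exact congrArg Subtype.val h4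
  have hcomm : ∀ (x : Δ) (hxN : x ∈ Nh) (hx : x ∈ Hh), ∀ g ∈ Pp,
      (⟨x, hx⟩ : Hh) * g = g * ⟨x, hx⟩ := by
    intro x hxN hx g hg
    have h1 : (⟨x, hx⟩ : Hh) * g * (⟨x, hx⟩ : Hh)⁻¹ * g⁻¹ ∈ Pp :=
      mul_mem (hPpn.conj_mem g hg _) (inv_mem hg)
    have h2 : x * g * x⁻¹ * (g : Δ)⁻¹ ∈ Nh := by
      have h3 : x * g * x⁻¹ * (g : Δ)⁻¹ = x * ((g : Δ) * x⁻¹ * (g : Δ)⁻¹) := by group
      rw [h3]
      exact mul_mem hxN (hNhn.conj_mem _ (inv_mem hxN) _)
    have h4 := hcop _ h2 (mul_mem (mul_mem (mul_mem hx g.2) (inv_mem hx)) (inv_mem g.2)) h1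
    apply Subtype.ext
    show x * g = g * x
    exact mul_inv_eq_iff_eq_mul.1 (mul_inv_eq_one.1 h4)
  have hmemC : ∀ (x : Δ) (hxN : x ∈ Nh), x ∈ Hh → (⟨x, hxN⟩ : Nh) ∈ C := by
    intro x hxN hx g hg
    apply Subtype.ext
    rw [hα]
    have h1 := congrArg Subtype.val (hcomm x hxN hx g hg)
    have h2 : x * (g : Δ) = g * x := h1
    show (g : Δ) * x * (g : Δ)⁻¹ = x
    rw [← h2, mul_inv_cancel_right]
  -- the value of `Q` on `Nh ∩ Hh`
  have hQT : ∀ (x : Δ) (hxN : x ∈ Nh) (hx : x ∈ Hh),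
      Q ⟨x, hx⟩ = T ⟨⟨x, hxN⟩, hmemC x hxN hx⟩ := by
    intro x hxN hx
    refine hQs ⟨x, hx⟩ _ (hcomm x hxN hx) (fun y => ?_) rfl
    apply Subtype.ext
    rw [hα]
    rfl
  -- elements of `C` lie in `Hh`
  have hCH : ∀ c : C, ((c : Nh) : Δ) ∈ Hh := by
    intro c
    show π ((c : Nh) : Δ) ∈ H
    rw [hH, Subgroup.mem_normalizer_iff]
    have h1 : ∀ y ∈ P, π ((c : Nh) : Δ) * y * (π ((c : Nh) : Δ))⁻¹ = y := by
      intro y hy
      have hyH : y ∈ H := hH ▸ (Subgroup.le_normalizer hy)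
      have h2 : (⟨y, hyH⟩ : H) ∈ Pp.map π' := by rw [hPpmap]; exact hy
      obtain ⟨g, hg, hgy⟩ := h2
      have h3 : π (g : Δ) = y := congrArg Subtype.val hgy
      have h4 : ((g : Hh) : Δ) * ((c : Nh) : Δ) * ((g : Hh) : Δ)⁻¹ = ((c : Nh) : Δ) :=
        congrArg Subtype.val (c.2 g hg)
      have h5 : ((c : Nh) : Δ) * g * ((c : Nh) : Δ)⁻¹ = g := by
        rw [mul_inv_eq_iff_eq_mul] at h4 ⊢
        exact h4.symm
      rw [← h3, ← map_mul, ← map_inv, ← map_mul, h5]
    intro y
    constructor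
    · intro hy
      rw [h1 y hy]
      exact hy
    · intro hy
      have h2 := h1 _ hy
      have h3 : π ((c : Nh) : Δ) * (π ((c : Nh) : Δ) * y * (π ((c : Nh) : Δ))⁻¹) *
          (π ((c : Nh) : Δ))⁻¹ = π ((c : Nh) : Δ) * y * (π ((c : Nh) : Δ))⁻¹ := h2
      have h4 : π ((c : Nh) : Δ) * y * (π ((c : Nh) : Δ))⁻¹ = y := by
        have h5 := mul_right_cancel h3
        exact mul_left_cancel h5
      rw [h4] at hy
      exact hy
  -- the kernel of `π`
  have hkerN : ∀ z ∈ π.ker, z ∈ Nh := by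
    intro z hz
    show π z ∈ N
    rw [MonoidHom.mem_ker.1 hz]
    exact one_mem _
  have hkerH : ∀ z ∈ π.ker, z ∈ Hh := by
    intro z hz
    show π z ∈ H
    rw [MonoidHom.mem_ker.1 hz]
    exact one_mem _
  have hsc : ∀ (z : Δ) (hz : z ∈ π.ker),
      ∃ l' : ℂ, T ⟨⟨z, hkerN z hz⟩, hmemC z (hkerN z hz) (hkerH z hz)⟩ =
        l' • (1 : Matrix (Fin m) (Fin m) ℂ) := by
    intro z hz
    refine ⟨_, hT.scalar hmC hCC fun c => ?_⟩
    rw [← map_mul, ← map_mul]
    congr 1
    apply Subtype.ext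
    apply Subtype.ext
    show z * ((c : Nh) : Δ) = ((c : Nh) : Δ) * z
    exact (Subgroup.mem_center_iff.1 (hZ hz) _).symm
  -- the character of `N ∩ H`
  let T' : N.subgroupOf H →* Matrix (Fin m) (Fin m) ℂ :=
    { toFun := fun x => Q ⟨ν ⟨((x : H) : G), x.2⟩, by
        show π (ν _) ∈ H
        rw [hν]
        exact (x : H).2⟩
      map_one' := by
        have h1 : (⟨ν ⟨(((1 : N.subgroupOf H) : H) : G), (1 : N.subgroupOf H).2⟩, by
          show π (ν _) ∈ H
          rw [hν]
          exact ((1 : N.subgroupOf H) : H).2⟩ : Hh) = 1 := by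
          apply Subtype.ext
          show ν ⟨(((1 : N.subgroupOf H) : H) : G), (1 : N.subgroupOf H).2⟩ = 1
          rw [← map_one ν]
          rfl
        rw [h1, map_one]
      map_mul' := fun x y => by
        rw [← map_mul]
        congr 1
        apply Subtype.ext
        show ν _ = ν _ * ν _
        rw [← map_mul]
        rfl }
  have hT'T : ∀ (x : N.subgroupOf H), T' x = T ⟨⟨ν ⟨((x : H) : G), x.2⟩, by
      show π (ν _) ∈ N
      rw [hν]
      exact x.2⟩, hmemC _ _ (by
        show π (ν _) ∈ H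
        rw [hν]
        exact (x : H).2)⟩ := fun x => hQT _ _ _
  have hT' : Orth T' := by
    refine orth_of_scalar hm fun M hM => ?_
    refine ⟨_, hT.scalar hmC hCC fun c => ?_⟩
    -- `c = ν x * z`
    have hcN : π ((c : Nh) : Δ) ∈ N := (c : Nh).2
    have hcH : π ((c : Nh) : Δ) ∈ H := hCH c
    let x : N.subgroupOf H := ⟨⟨π ((c : Nh) : Δ), hcH⟩, hcN⟩
    let z : Δ := (ν ⟨π ((c : Nh) : Δ), hcN⟩)⁻¹ * ((c : Nh) : Δ)
    have hz : z ∈ π.ker := by
      rw [MonoidHom.mem_ker]
      show π ((ν ⟨π ((c : Nh) : Δ), hcN⟩)⁻¹ * ((c : Nh) : Δ)) = 1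
      rw [map_mul, map_inv, hν, inv_mul_cancel]
    obtain ⟨l', hl'⟩ := hsc z hz
    have h1 : T c = l' • T' x := by
      have h2 : c = ⟨⟨ν ⟨((x : H) : G), x.2⟩, by
        show π (ν _) ∈ N
        rw [hν]
        exact x.2⟩, hmemC _ _ (by
          show π (ν _) ∈ H
          rw [hν]
          exact (x : H).2)⟩ * ⟨⟨z, hkerN z hz⟩, hmemC z (hkerN z hz) (hkerH z hz)⟩ := by
        apply Subtype.ext
        apply Subtype.ext
        show ((c : Nh) : Δ) = ν ⟨π ((c : Nh) : Δ), hcN⟩ *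
          ((ν ⟨π ((c : Nh) : Δ), hcN⟩)⁻¹ * ((c : Nh) : Δ))
        rw [mul_inv_cancel_left]
      conv_lhs => rw [h2]
      rw [map_mul, hl', hT'T, Matrix.mul_smul, Matrix.mul_one]
    rw [h1, Matrix.mul_smul, Matrix.smul_mul, hM]
  refine ⟨m, Q, ⟨_, isIrr_of_orth hT' hm⟩, e, he, fun x hx => rfl, fun z hz => ?_,
    fun x hx => ?_⟩
  · -- scalars
    obtain ⟨l', hl'⟩ := hsc z hz
    have hVz : V z = ((V z).trace / n) • (1 : Matrix (Fin n) (Fin n) ℂ) := by
      refine hV.scalar hnC hNC fun x => ?_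
      rw [MonoidHom.comp_apply, ← map_mul, ← map_mul,
        Subgroup.mem_center_iff.1 (hZ hz) (ν x)]
    set l := (V z).trace / n with hl
    have hr : ¬ p ∣ Nat.card π.ker := hZp
    have hz1 : z ^ Nat.card π.ker = 1 := by
      have h1 : (⟨z, hz⟩ : π.ker) ^ Nat.card π.ker = 1 := pow_card_eq_one'
      exact congrArg Subtype.val h1
    have hlr : l ^ Nat.card π.ker = 1 := by
      have h1 : V z ^ Nat.card π.ker = 1 := by rw [← map_pow, hz1, map_one]
      rw [hVz, smul_pow, one_pow] at h1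
      have h2 := congrFun (congrFun h1 ⟨0, hn⟩) ⟨0, hn⟩
      simpa using h2
    have hlr' : l' ^ Nat.card π.ker = 1 := by
      have h1 : T ⟨⟨z, hkerN z hz⟩, hmemC z (hkerN z hz) (hkerH z hz)⟩ ^ Nat.card π.ker = 1 := by
        rw [← map_pow]
        have h2 : (⟨⟨z, hkerN z hz⟩, hmemC z (hkerN z hz) (hkerH z hz)⟩ : C) ^ Nat.card π.ker = 1 :=
          Subtype.ext (Subtype.ext hz1)
        rw [h2, map_one]
      rw [hl', smul_pow, one_pow] at h1
      have h2 := congrFun (congrFun h1 ⟨0, hm⟩) ⟨0, hm⟩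
      simpa using h2
    have hmp : ¬ p ∣ m := by
      have hCp : ¬ p ∣ Nat.card C := fun h => hNhp (h.trans (Subgroup.card_subgroup_dvd_card C))
      exact fun h => hCp (h.trans (dim_dvd hT hm))
    obtain ⟨d₁, hd₁, h₁⟩ := hgl 1
    rw [map_one, OneMemClass.coe_one, map_one, Matrix.trace_one, Matrix.trace_one, Fintype.card_fin,
      Fintype.card_fin] at h₁
    obtain ⟨d, hd, h₂⟩ := hgl ⟨⟨z, hkerN z hz⟩, hmemC z (hkerN z hz) (hkerH z hz)⟩
    have h₃ : R ⟨z, hkerN z hz⟩ = V z := rfl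
    rw [h₃, hVz, hl', Matrix.trace_smul, Matrix.trace_one, Fintype.card_fin, Matrix.trace_smul,
      Matrix.trace_one, Fintype.card_fin, smul_eq_mul, smul_eq_mul] at h₂
    have hll : l = l' := scalar_eq he hmp hr hd hd₁ hlr hlr' h₁ (by
      linear_combination h₂)
    refine ⟨l, hVz, ?_⟩
    rw [hQT z (hkerN z hz) (hkerH z hz), hl', hll]
  · obtain ⟨d, hd, h₂⟩ := hgl ⟨⟨ν x, by
      show π (ν _) ∈ N
      rw [hν]
      exact x.2⟩, hmemC _ _ (by
        show π (ν _) ∈ H
        rw [hν]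
        exact hx)⟩
    refine ⟨d, hd, ?_⟩
    have h3 := hT'T ⟨⟨(x : G), hx⟩, x.2⟩
    show (V (ν x)).trace = e * (T' ⟨⟨(x : G), hx⟩, x.2⟩).trace + p * d
    rw [h3]
    exact h₂

end Cfsg.Agent.H640
end

-- part: H640/Inv3
section
/-!
# The invariant case (helper640), part 3: the perfect isometry
-/

set_option autoImplicit false
set_option linter.unusedSectionVars false

namespace Cfsg.Agent.H640

open Module Matrix IsLocalRing Cfsg
open Cfsg.Agent.Characters.Core

/-- the multiplicity from a congruence -/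
theorem mult_of_congr {p : ℕ} [hp : Fact p.Prime] {C : Type*} [Group C] [Fintype C]
    (hC : ¬ p ∣ Nat.card C) {θ φ : C → ℂ} (hθ : IsCharacter C θ) (hφ : IsIrrCharacter C φ)
    {e : ℕ} (he : (e : ZMod p) ^ 2 = 1)
    (h : ∀ c, ∃ d : ℂ, IsIntegral ℤ d ∧ θ c = e * φ c + p * d) :
    ∃ k : ℕ, classInner θ φ = k ∧ ¬ p ∣ k := by
  classical
  obtain ⟨k, hk⟩ := classInner_isNat hθ (isIrr_isCharacter hφ)
  refine ⟨k, hk, fun hpk => ?_⟩
  choose d hd hd' using h
  obtain ⟨B, hB⟩ := exists_valRing p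
  have hC0 : (Nat.card C : ℂ) ≠ 0 := Nat.cast_ne_zero.2 Nat.card_pos.ne'
  have h1 : ∑ c : C, φ c * (starRingEnd ℂ) (φ c) = Nat.card C := by
    have h2 := classInner_irr_self hφ
    rw [classInner, inv_mul_eq_one₀ hC0] at h2
    exact h2.symm
  have h2 : ∑ c : C, θ c * (starRingEnd ℂ) (φ c) = Nat.card C * k := by
    rw [classInner] at hk
    rw [← hk, mul_inv_cancel_left₀ hC0]
  have hint : ∀ c, IsIntegral ℤ ((starRingEnd ℂ) (φ c)) := by
    intro c
    rw [← isCharacter_apply_inv (isIrr_isCharacter hφ)]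
    obtain ⟨l, ρ, -, hρ⟩ := hφ
    rw [← hρ]
    exact Cfsg.Agent.Characters.AverageRoots.isIntegral_character ρ _
  have hδ : IsIntegral ℤ (∑ c : C, d c * (starRingEnd ℂ) (φ c)) :=
    IsIntegral.sum _ fun c _ => (hd c).mul (hint c)
  have h3 : (Nat.card C : ℂ) * k = e * Nat.card C + p * ∑ c : C, d c * (starRingEnd ℂ) (φ c) := by
    rw [← h2, ← h1, Finset.mul_sum, Finset.mul_sum, ← Finset.sum_add_distrib]
    refine Finset.sum_congr rfl fun c _ => ?_
    rw [hd' c]
    ring
  have h4 : (Nat.card C : B) * k = e * Nat.card C + p * ⟨_, mem_of_isIntegral hδ⟩ := by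
    apply Subtype.ext
    push_cast
    exact h3
  have h5 := congrArg (residue B) h4
  rw [map_add, map_mul, map_mul, map_mul, map_natCast, map_natCast, map_natCast, map_natCast,
    CharP.cast_eq_zero (ResidueField B) p, zero_mul, add_zero,
    (CharP.cast_eq_zero_iff (ResidueField B) p k).2 hpk, mul_zero] at h5
  have h6 : (Nat.card C : ResidueField B) ≠ 0 := SData.cast_ne B hC
  have he' : (e : ResidueField B) ≠ 0 := by
    intro h0
    have h5 := congrArg (ZMod.castHom (dvd_refl p) (ResidueField B)) he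
    rw [map_pow, map_natCast, map_one, h0] at h5
    simp at h5
  exact mul_ne_zero he' h6 h5.symm

/-- **The invariant case.** -/
theorem thmI {G : Type*} [Group G] [Fintype G] (p : ℕ) [Fact p.Prime] (M : Ideal AlgInt)
    (hM : IsPModular p M) (N : Subgroup G) [hN : N.Normal] [Fintype N] (hpN : ¬ p ∣ Nat.card N)
    (P : Subgroup G) (hP : IsPGroup p P) (H : Subgroup G)
    (hH : H = Subgroup.normalizer (P : Set G)) [Fintype H] [Fintype (N.subgroupOf H)]
    (hNH : N ⊔ H = ⊤) (θ : IrrCharacter N)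
    (hinv : ∀ (g : G) (n : N), (θ : N → ℂ) ⟨g * n * g⁻¹, hN.conj_mem n n.2 g⟩ = (θ : N → ℂ) n) :
    ∃ (φ : IrrCharacter (N.subgroupOf H)) (e : ℕ),
      classInner (fun x : N.subgroupOf H => (θ : N → ℂ) ⟨((x : H) : G), x.2⟩)
        (φ : N.subgroupOf H → ℂ) = e ∧ ¬ p ∣ e ∧
      (∀ (h : H) (x : N.subgroupOf H), (φ : N.subgroupOf H → ℂ)
        ⟨h * x * h⁻¹, (hN.subgroupOf H).conj_mem x x.2 h⟩ = (φ : N.subgroupOf H → ℂ) x) ∧
      ∃ (I : IrrCharacter H → IrrCharacter G) (ε : IrrCharacter H → ℤ), IsPerfectIsometry p M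
      {ψ : IrrCharacter H | classInner (fun x : N.subgroupOf H => (ψ : H → ℂ) x)
        (φ : N.subgroupOf H → ℂ) ≠ 0}
      {χ : IrrCharacter G | classInner (fun x : N => (χ : G → ℂ) x) (θ : N → ℂ) ≠ 0} I ε := by
  classical
  obtain ⟨n, R, hn, hR, hRθ⟩ := exists_orth θ.2
  have hinv' : ∀ (g : G) (x : N), (R (MulAut.conjNormal g x)).trace = (R x).trace := by
    intro g x
    rw [hRθ, hRθ, ← hinv g x]
    congr 1
  let D := toI N R hR hn hinv'
  have hfin := D.finite_Lh
  let π := D.pr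
  have hπ : Function.Surjective π := D.pr_surjective
  have hZp : ¬ p ∣ Nat.card π.ker := D.not_dvd_ker hpN
  have hZ : π.ker ≤ Subgroup.center D.Lh := D.ker_le_center
  let ν := nu N R hR hn hinv'
  have hν : ∀ x, π (ν x) = x := fun x => rfl
  have hVν : (D.mat).comp ν = R := rfl
  obtain ⟨m, Q, φ, e, he, hQφ, hQz, hcong⟩ := inv_core (p := p) N hpN P hP H hH π hπ hZp hZ ν hν hn
    D.mat (by rw [hVν]; exact hR)
  have hpC : ¬ p ∣ Nat.card (N.subgroupOf H) := by
    intro h
    apply hpN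
    refine h.trans ?_
    exact Subgroup.card_dvd_of_injective
      (({ toFun := fun x => ⟨((x : H) : G), x.2⟩
          map_one' := rfl
          map_mul' := fun _ _ => rfl } : N.subgroupOf H →* N)) (fun x y hxy =>
        Subtype.ext (Subtype.ext (congrArg (fun t : N => (t : G)) hxy)))
  have hθc : IsCharacter (N.subgroupOf H)
      (fun x : N.subgroupOf H => (θ : N → ℂ) ⟨((x : H) : G), x.2⟩) :=
    isCharacter_comp (({ toFun := fun x => ⟨((x : H) : G), x.2⟩
                         map_one' := rfl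
                         map_mul' := fun _ _ => rfl } : N.subgroupOf H →* N))
      (isIrr_isCharacter θ.2)
  obtain ⟨k, hk, hpk⟩ := mult_of_congr (p := p) hpC hθc φ.2 he (fun x => by
    obtain ⟨d, hd, hd'⟩ := hcong ⟨((x : H) : G), x.2⟩ (x : H).2
    refine ⟨d, hd, ?_⟩
    rw [← hRθ]
    exact hd')
  refine ⟨φ, k, hk, hpk, fun h x => ?_, ?_⟩
  · -- invariance
    obtain ⟨a, ha⟩ := hπ (h : G)
    have haH : a ∈ H.comap π := by
      show π a ∈ H
      rw [ha]
      exact h.2
    have h1 := hQφ ⟨((x : H) : G), x.2⟩ (x : H).2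
    have hcH : ((h * x * h⁻¹ : H) : G) ∈ H := (h * x * h⁻¹ : H).2
    have hcN : ((h * x * h⁻¹ : H) : G) ∈ N := hN.conj_mem ((x : H) : G) x.2 (h : G)
    have h2 := hQφ ⟨((h * x * h⁻¹ : H) : G), hcN⟩ hcH
    have h3 : (⟨ν ⟨((h * x * h⁻¹ : H) : G), hcN⟩, by
        rw [Subgroup.mem_comap, hν]; exact hcH⟩ : H.comap π) =
        ⟨a, haH⟩ * ⟨ν ⟨((x : H) : G), x.2⟩, by
          rw [Subgroup.mem_comap, hν]; exact (x : H).2⟩ * ⟨a, haH⟩⁻¹ := by
      apply Subtype.ext
      show ν _ = a * ν _ * a⁻¹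
      rw [conj_nu]
      congr 1
      apply Subtype.ext
      rw [MulAut.conjNormal_apply]
      have h4 : D.pr a = h := ha
      rw [h4]
      rfl
    rw [h3, map_mul, map_mul, Matrix.trace_mul_comm, ← Matrix.mul_assoc, ← map_mul, inv_mul_cancel,
      map_one, Matrix.one_mul, h1] at h2
    exact h2.symm
  · choose l hl using hQz
    refine Cfsg.Agent.H637.TaskA.taskA p M hM N hpN H hNH θ φ π hπ hZp hZ ν hν
      (range_nu_normal N R hR hn hinv') D.mat Q (fun x => hRθ x) hQφ
      (fun z => if hz : z ∈ π.ker then l z hz else 0) (fun z hz => ?_) (fun z hz => ?_)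
    · rw [dif_pos hz]
      exact (hl z hz).1
    · simp only [dif_pos hz]
      exact (hl z hz).2

end Cfsg.Agent.H640
end

-- part: H621/BrauerGlauberman
section
/-!
# The Brauer correspondent covers the Glauberman correspondent
-/

set_option autoImplicit false
set_option linter.unusedSectionVars false
set_option linter.unusedVariables false

open Cfsg

namespace Cfsg.Agent.H621.BrauerGlauberman

open Cfsg.Agent.H644 Cfsg.Agent.Blocks.Local Cfsg.Agent.Blocks.ConvCentral
open Cfsg.Agent.Blocks.MinMax (omega omega_def)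
open Cfsg.Agent.H593.GlaubermanP

section Setup

variable {G : Type*} [Group G] (N P H : Subgroup G) [hN : N.Normal]

/-- The embedding of `N ∩ H` into `N`. -/
def iota : N.subgroupOf H →* N where
  toFun x := ⟨((x : H) : G), x.2⟩
  map_one' := rfl
  map_mul' _ _ := rfl

theorem coe_iota (x : N.subgroupOf H) : ((iota N H x : N) : G) = ((x : H) : G) := rfl

/-- `P` acts on `N` by conjugation. -/
@[instance_reducible]
def act : MulDistribMulAction P N where
  smul s g := ⟨(s : G) * g * (s : G)⁻¹, hN.conj_mem g g.2 s⟩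
  one_smul g := Subtype.ext (by
    show ((1 : P) : G) * g * ((1 : P) : G)⁻¹ = g
    rw [OneMemClass.coe_one, one_mul, inv_one, mul_one])
  mul_smul s t g := Subtype.ext (by
    show ((s * t : P) : G) * g * ((s * t : P) : G)⁻¹ = s * (t * g * (t : G)⁻¹) * (s : G)⁻¹
    rw [Subgroup.coe_mul]
    group)
  smul_mul s g h := Subtype.ext (by
    show (s : G) * ((g * h : N) : G) * (s : G)⁻¹ =
      (s * g * (s : G)⁻¹) * (s * h * (s : G)⁻¹)
    rw [Subgroup.coe_mul]
    group)
  smul_one s := Subtype.ext (by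
    show (s : G) * ((1 : N) : G) * (s : G)⁻¹ = ((1 : N) : G)
    rw [OneMemClass.coe_one, mul_one, mul_inv_cancel])

end Setup

theorem setup {G : Type*} [Group G] [Finite G] {p : ℕ} [Fact p.Prime] (N : Subgroup G)
    [hN : N.Normal] [Fintype N] (hpN : ¬ p ∣ Nat.card N) (P : Subgroup G) (hP : IsPGroup p P)
    (H : Subgroup G) (hH : H = Subgroup.normalizer (P : Set G)) [Fintype (N.subgroupOf H)] :
    letI := act N P
    Setup P (iota N H) p := by
  let _ := act N P
  have hcoe : ∀ (s : P) (g : N), ((s • g : N) : G) = (s : G) * g * (s : G)⁻¹ := fun _ _ => rfl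
  refine ⟨fun x y hxy => ?_, fun g => ⟨fun h => ?_, ?_⟩, hP, hpN⟩
  · exact Subtype.ext (Subtype.ext (congrArg (fun z : N => (z : G)) hxy))
  · -- `g` centralizes `P`
    have hgH : (g : G) ∈ H := by
      rw [hH, Subgroup.mem_normalizer_iff]
      intro k
      have h1 : ∀ s : P, (s : G) * g = g * s := fun s =>
        mul_inv_eq_iff_eq_mul.1 (congrArg Subtype.val (h s))
      constructor
      · intro hk
        have h2 := h1 ⟨k, hk⟩
        have h3 : (g : G) * k * (g : G)⁻¹ = k := by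
          rw [← h2]
          exact mul_inv_cancel_right _ _
        rw [h3]
        exact hk
      · intro hk
        have h2 := h1 ⟨_, hk⟩
        have h3 : (g : G) * k * (g : G)⁻¹ = k := by
          simp only at h2
          have h4 : (g : G) * k = g * (g * k * (g : G)⁻¹) := by
            rw [← h2, inv_mul_cancel_right]
          exact (mul_left_cancel h4).symm
        rwa [← h3]
    exact ⟨⟨⟨g, hgH⟩, g.2⟩, Subtype.ext rfl⟩
  · rintro ⟨c, rfl⟩ s
    -- the commutator lies in `N ∩ P = 1`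
    apply Subtype.ext
    rw [hcoe, coe_iota]
    have hcH : ((c : H) : G) ∈ Subgroup.normalizer (P : Set G) := hH ▸ (c : H).2
    set x : G := ((c : H) : G) with hx
    have hxN : x ∈ N := c.2
    set t : G := (s : G) * x * (s : G)⁻¹ * x⁻¹ with ht
    have htN : t ∈ N := N.mul_mem (hN.conj_mem x hxN s) (N.inv_mem hxN)
    have htP : t ∈ P := by
      have h1 : x * (s : G)⁻¹ * x⁻¹ ∈ P := ((Subgroup.mem_normalizer_iff.1 hcH) _).1
        (P.inv_mem s.2)
      have h2 : t = (s : G) * (x * (s : G)⁻¹ * x⁻¹) := by rw [ht]; group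
      rw [h2]
      exact P.mul_mem s.2 h1
    have ht1 : t = 1 := by
      obtain ⟨k, hk⟩ := hP ⟨t, htP⟩
      have hk' : t ^ p ^ k = 1 := congrArg Subtype.val hk
      have h1 : orderOf t ∣ p ^ k := orderOf_dvd_of_pow_eq_one hk'
      have h2 : orderOf t ∣ Nat.card N := by
        have := orderOf_dvd_natCard (⟨t, htN⟩ : N)
        rwa [Subgroup.orderOf_mk] at this
      have h3 : (p ^ k).Coprime (Nat.card N) :=
        Nat.Coprime.pow_left _ (((Fact.out : p.Prime).coprime_iff_not_dvd).2 hpN)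
      exact orderOf_eq_one_iff.1 (Nat.eq_one_of_dvd_coprimes h3 h1 h2)
    exact mul_inv_eq_one.1 ht1

theorem lin_of_supp {G : Type*} [Group G] [Fintype G] (N : Subgroup G) [Fintype N] (χ f : G → ℂ)
    (hf : ∀ g, g ∉ N → f g = 0) : lin χ f = ∑ n : N, f n * χ n := by
  classical
  rw [lin_def]
  have h1 : ∑ n : N, f n * χ n = ∑ g ∈ Finset.univ.filter (· ∈ N), f g * χ g := by
    refine Finset.sum_bij (fun n _ => (n : G)) (fun n _ => ?_) (fun a _ b _ h => Subtype.ext h)
      (fun g hg => ?_) (fun _ _ => rfl)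
    · exact Finset.mem_filter.2 ⟨Finset.mem_univ _, n.2⟩
    · exact ⟨⟨g, (Finset.mem_filter.1 hg).2⟩, Finset.mem_univ _, rfl⟩
  rw [h1]
  symm
  refine Finset.sum_subset (Finset.filter_subset _ _) fun g _ hg => ?_
  rw [hf g fun h => hg (Finset.mem_filter.2 ⟨Finset.mem_univ _, h⟩), zero_mul]

theorem taskC {G : Type*} [Group G] [Fintype G] (p : ℕ) [Fact p.Prime] (M : Ideal AlgInt)
    (hM : IsPModular p M) (N : Subgroup G) [hN : N.Normal] [Fintype N] (hpN : ¬ p ∣ Nat.card N)
    (P : Subgroup G) (hP : IsPGroup p P) (H : Subgroup G)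
    (hH : H = Subgroup.normalizer (P : Set G)) [Fintype (N.subgroupOf H)]
    (θ : IrrCharacter N)
    (hinv : ∀ (g : G) (n : N), (θ : N → ℂ) ⟨g * n * g⁻¹, hN.conj_mem n n.2 g⟩ = (θ : N → ℂ) n)
    (β : IrrCharacter (N.subgroupOf H)) (e : ℕ)
    (he : classInner (fun x : N.subgroupOf H => (θ : N → ℂ) ⟨((x : H) : G), x.2⟩)
      (β : N.subgroupOf H → ℂ) = e) (hpe : ¬ p ∣ e)
    (B : Set (IrrCharacter G)) (c : Set (IrrCharacter H)) (hc : IsInducedBlock M H c B)
    (χ : IrrCharacter G) (hχ : χ ∈ B)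
    (hχθ : classInner (fun x : N => (χ : G → ℂ) x) (θ : N → ℂ) ≠ 0) :
    ∀ η ∈ c, classInner (fun x : N.subgroupOf H => (η : H → ℂ) x) (β : N.subgroupOf H → ℂ) ≠ 0 := by
  classical
  intro η hη
  have hprime := isPrime_of_isPModular hM
  let _ := act N P
  have hset : Setup P (iota N H) p := setup N hpN P hP H hH
  have hFH : Fintype H := Fintype.ofFinite H
  -- the function
  let f : G → ℂ := fun g => if h : g ∈ N then idem θ ⟨g, h⟩ else 0
  have hfN : ∀ n : N, f n = idem θ n := fun n => dif_pos n.2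
  have hf0 : ∀ g, g ∉ N → f g = 0 := fun g hg => dif_neg hg
  have hF : ∀ (g : G) (n : N), idem θ ⟨g * n * g⁻¹, hN.conj_mem n n.2 g⟩ = idem θ n := by
    intro g n
    rw [idem_apply, idem_apply, hinv]
  have hf : IsClassFunction G f := by
    intro g k
    by_cases hg : g ∈ N
    · have h1 := hF k ⟨g, hg⟩
      rw [← hfN, ← hfN] at h1
      exact h1
    · rw [hf0 g hg, hf0]
      intro h
      apply hg
      have := hN.conj_mem _ h k⁻¹
      have h2 : k⁻¹ * (k * g * k⁻¹) * k⁻¹⁻¹ = g := by group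
      rwa [h2] at this
  have hfR : ∀ g, MemLocalRing M (f g) := by
    intro g
    by_cases hg : g ∈ N
    · have h1 := idem_mem hM hpN θ ⟨g, hg⟩
      rw [← hfN] at h1
      exact h1
    · rw [hf0 g hg]
      exact memLocalRing_zero
  -- the value of `χ`
  have h1 : omega (χ : G → ℂ) f = 1 := by
    rw [omega_def, lin_of_supp N _ f hf0]
    have h2 := Cfsg.Agent.Blocks.CliffordCentral.sum_div_eq_of_constituent N χ θ hχθ
      (fun n => f n) (fun g n => by
        show f (g * n * g⁻¹) = f n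
        exact hf n g)
    rw [h2]
    have h3 : ∑ n : N, f n * (θ : N → ℂ) n = lin (θ : N → ℂ) (idem θ) := by
      rw [lin_def]
      exact Finset.sum_congr rfl fun n _ => by rw [hfN]
    rw [h3, lin_idem, if_pos rfl, div_self (irr_one_ne_zero θ.2)]
  -- the value of `η`
  let f' : H → ℂ := fun h => f h
  have hf' : IsClassFunction H f' := fun g k => hf g k
  have hfR' : ∀ h, MemLocalRing M (f' h) := fun h => hfR h
  have hres : res H (toK M f) = toK M f' := by
    refine ext_coeff fun h => ?_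
    rw [coeff_res, coeff_toK, coeff_toK]
  have h2 := (Cfsg.Agent.H648.Dict.isInducedBlock_iff.1 hc).2.2 η hη χ hχ (toK M f) (isCls_toK hf)
  rw [hres, lam_toK η.2 hf' hfR', lam_toK χ.2 hf hfR, h1] at h2
  have hC : (N.subgroupOf H).Normal := inferInstance
  obtain ⟨β', hβ'⟩ := Cfsg.Agent.Blocks.Fong.exists_constituent (N.subgroupOf H) η
  have h3 : omega (η : H → ℂ) f' = b (iota N H) θ β' := by
    rw [omega_def, lin_of_supp (N.subgroupOf H) _ f' (fun g hg => hf0 g hg)]
    have h4 := Cfsg.Agent.Blocks.CliffordCentral.sum_div_eq_of_constituent (N.subgroupOf H) η β' hβ'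
      (fun n => f' n) (fun g n => by
        show f' (g * n * g⁻¹) = f' n
        exact hf' n g)
    rw [h4, b_def, lin_def]
    congr 1
    refine Finset.sum_congr rfl fun n _ => ?_
    congr 1
    exact hfN (iota N H n)
  have hgood' : ¬ MemLocalIdeal M (b (iota N H) θ β') := by
    intro h5
    rw [h3, redC_eq_iff (b_mem hset hM θ β') memLocalRing_one] at h2
    have h6 := memLocalIdeal_sub h5 h2
    rw [sub_sub_cancel] at h6
    exact not_memLocalIdeal_one h6
  have hgood : ¬ MemLocalIdeal M (b (iota N H) θ β) := fun h =>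
    hpe ((good_iff hset hM (χ := θ) (β := β) (m := e) he).1 h)
  have hinv' : Inv P (θ : N → ℂ) := fun s n => hinv s n
  have hbb := unique_beta hset hM hinv' hgood hgood'
  rw [hbb]
  exact hβ'

end Cfsg.Agent.H621.BrauerGlauberman
end

-- part: H621/PSolvAb
section
set_option autoImplicit false
open Cfsg

namespace Cfsg.Agent.H621.PSolvAb

open Cfsg.Agent.Lib.HallHigman

/-- A `p`-solvable group with abelian Sylow `p`-subgroup `P`: `O_{p'}(G) P` is normal,
`G = O_{p'}(G) N_G(P)` and `O_{p'}(N_G(P)) = O_{p'}(G) ∩ N_G(P)`. -/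
theorem taskF {G : Type*} [Group G] [Finite G] (p : ℕ) [Fact p.Prime] (hsolv : IsPSolvable p G)
    (P : Sylow p G) (hPab : ∀ x ∈ P, ∀ y ∈ P, x * y = y * x) :
    (pPrimeCore p G ⊔ (P : Subgroup G)).Normal ∧
    pPrimeCore p G ⊔ Subgroup.normalizer ((P : Subgroup G) : Set G) = ⊤ ∧
    pPrimeCore p (Subgroup.normalizer ((P : Subgroup G) : Set G)) =
      (pPrimeCore p G).subgroupOf (Subgroup.normalizer ((P : Subgroup G) : Set G)) := by
  have hKn : (pPrimeCore p G).Normal := Cfsg.Agent.Lib.HallHigman.pPrimeCore_normal p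
  have hKc : (Nat.card (pPrimeCore p G)).Coprime p := pPrimeCore_coprime p
  have hcent : Subgroup.centralizer (Cfsg.pCore p (G ⧸ pPrimeCore p G) : Set (G ⧸ pPrimeCore p G)) ≤
      Cfsg.pCore p (G ⧸ pPrimeCore p G) := by
    apply Cfsg.Agent.Lib.PSolvable.centralizer_pCore_le_of_pSolvable p
    · exact Cfsg.Agent.Lib.PSolvable.IsPSolvable_of_surjective p hsolv
        (QuotientGroup.mk' (pPrimeCore p G)) (QuotientGroup.mk'_surjective _)
    · exact pPrimeCore_quotient_eq_bot p _ rfl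
  have h1 : (pPrimeCore p G ⊔ (P : Subgroup G)).Normal := by
    rw [sup_comm]
    refine sylow_sup_normal_of_centralizer_le p P ?_ _ hcent
    exact ⟨⟨fun a b => Subtype.ext (hPab a a.2 b b.2)⟩⟩
  refine ⟨h1, ?_, ?_⟩
  · have h2 := Sylow.normalizer_sup_eq_top' (N := pPrimeCore p G ⊔ (P : Subgroup G)) P le_sup_right
    rw [eq_top_iff, ← h2]
    refine sup_le le_sup_right (sup_le le_sup_left (le_trans ?_ le_sup_right))
    exact Subgroup.le_normalizer
  · set N := Subgroup.normalizer ((P : Subgroup G) : Set G) with hN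
    have hPN : (P : Subgroup G) ≤ N := Subgroup.le_normalizer
    have hXn : (pPrimeCore p N).Normal := Cfsg.Agent.Lib.HallHigman.pPrimeCore_normal p
    have hXc : (Nat.card (pPrimeCore p N)).Coprime p := pPrimeCore_coprime p
    apply le_antisymm
    · intro x hx
      rw [Subgroup.mem_subgroupOf]
      -- `x` centralizes `P`
      have hxP : ∀ y ∈ (P : Subgroup G), y * (x : G) = (x : G) * y := by
        intro y hy
        have hyN : y ∈ N := hPN hy
        -- commutator
        have hc1 : x * ⟨y, hyN⟩ * x⁻¹ * (⟨y, hyN⟩ : N)⁻¹ ∈ pPrimeCore p N := by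
          have := hXn.conj_mem x⁻¹ (inv_mem hx) ⟨y, hyN⟩
          have h3 := mul_mem hx this
          convert h3 using 1
          group
        have hc2 : (x : G) * y * (x : G)⁻¹ * y⁻¹ ∈ (P : Subgroup G) := by
          refine mul_mem ?_ (inv_mem hy)
          have := (Subgroup.mem_normalizer_iff.mp x.2 y).mp hy
          exact this
        have ho1 : orderOf ((x : G) * y * (x : G)⁻¹ * y⁻¹) ∣ Nat.card (pPrimeCore p N) := by
          have h4 : orderOf (x * ⟨y, hyN⟩ * x⁻¹ * (⟨y, hyN⟩ : N)⁻¹) ∣ Nat.card (pPrimeCore p N) :=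
            Subgroup.orderOf_dvd_natCard _ hc1
          rwa [← Subgroup.orderOf_coe] at h4
        have ho2 : orderOf ((x : G) * y * (x : G)⁻¹ * y⁻¹) ∣ Nat.card (P : Subgroup G) :=
          Subgroup.orderOf_dvd_natCard _ hc2
        obtain ⟨k, hk⟩ := (IsPGroup.iff_card).mp P.isPGroup'
        have h5 := Nat.eq_one_of_dvd_coprimes (a := Nat.card (pPrimeCore p N))
          (b := Nat.card (P : Subgroup G)) (by rw [hk]; exact Nat.Coprime.pow_right k hXc) ho1 ho2
        have h6 := orderOf_eq_one_iff.mp h5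
        have h7 : (x : G) * y = y * (x : G) := by
          have := congrArg (· * (y * (x : G))) h6
          simpa [mul_assoc] using this
        exact h7.symm
      have hbar : QuotientGroup.mk' (pPrimeCore p G) (x : G) ∈
          Cfsg.pCore p (G ⧸ pPrimeCore p G) := by
        apply hcent
        rw [Subgroup.mem_centralizer_iff]
        intro z hz
        have hf : Function.Surjective (QuotientGroup.mk' (pPrimeCore p G)) :=
          QuotientGroup.mk'_surjective _
        let R : Sylow p (G ⧸ pPrimeCore p G) := P.mapSurjective hf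
        have hR : (R : Subgroup (G ⧸ pPrimeCore p G)) =
            (P : Subgroup G).map (QuotientGroup.mk' (pPrimeCore p G)) := P.coe_mapSurjective hf
        have hz' : z ∈ (R : Subgroup (G ⧸ pPrimeCore p G)) := pCore_le_sylow p R hz
        rw [hR] at hz'
        obtain ⟨b, hb, rfl⟩ := hz'
        rw [← map_mul, ← map_mul, hxP b hb]
      have hp : IsPGroup p (Cfsg.pCore p (G ⧸ pPrimeCore p G)) := pCore_isPGroup p
      obtain ⟨k, hk⟩ := (IsPGroup.iff_card).mp hp
      have ho1 : orderOf (QuotientGroup.mk' (pPrimeCore p G) (x : G)) ∣ p ^ k := by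
        rw [← hk]; exact Subgroup.orderOf_dvd_natCard _ hbar
      have ho2 : orderOf (QuotientGroup.mk' (pPrimeCore p G) (x : G)) ∣ Nat.card (pPrimeCore p N) := by
        refine (orderOf_map_dvd _ _).trans ?_
        rw [Subgroup.orderOf_coe]
        exact Subgroup.orderOf_dvd_natCard _ hx
      have h5 := Nat.eq_one_of_dvd_coprimes (Nat.Coprime.pow_right k hXc) ho2 ho1
      have h6 := orderOf_eq_one_iff.mp h5
      exact (QuotientGroup.eq_one_iff _).mp h6
    · apply le_pPrimeCore (hKn.comap _)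
      refine Nat.Coprime.coprime_dvd_left ?_ hKc
      exact Subgroup.card_comap_dvd_of_injective _ _ N.subtype_injective

end Cfsg.Agent.H621.PSolvAb
end

-- part: H640/Final1
section
/-!
# The theorem when the character of `O_{p'}(G)` is invariant (helper640)
-/

set_option autoImplicit false
set_option linter.unusedSectionVars false

namespace Cfsg.Agent.H640

open Cfsg
open Cfsg.Agent.Characters.Core

theorem ndvd_pPrimeCore {G : Type*} [Group G] [Finite G] (p : ℕ) [hp : Fact p.Prime] :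
    ¬ p ∣ Nat.card (pPrimeCore p G) := by
  intro h
  have h1 := Cfsg.Agent.Lib.Cores.pPrimeCore_coprime (G := G) p
  have h2 := Nat.dvd_gcd h dvd_rfl
  rw [Nat.Coprime] at h1
  rw [h1] at h2
  exact hp.out.one_lt.ne' (Nat.dvd_one.1 h2)

/-- **The invariant case of S4643.** -/
theorem case_inv {G : Type*} [Group G] [Fintype G] (p : ℕ) [Fact p.Prime] (M : Ideal AlgInt)
    (hM : IsPModular p M) (hsolv : IsPSolvable p G) (B : Set (IrrCharacter G))
    (hB : IsPBlock M B) (P : Subgroup G) (hPD : IsDefectGroup p M B P)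
    (hPab : ∀ x ∈ P, ∀ y ∈ P, x * y = y * x) (H : Subgroup G)
    (hH : H = Subgroup.normalizer (P : Set G)) (c : Set (IrrCharacter H))
    (hc : IsInducedBlock M H c B) (N : Subgroup G) (hNdef : N = pPrimeCore p G) [hN : N.Normal]
    [Fintype N] (θ : IrrCharacter N) (χ : IrrCharacter G) (hχ : χ ∈ B)
    (hχθ : classInner (fun x : N => (χ : G → ℂ) x) (θ : N → ℂ) ≠ 0)
    (hinv : ∀ (g : G) (n : N), (θ : N → ℂ) ⟨g * n * g⁻¹, hN.conj_mem n n.2 g⟩ = (θ : N → ℂ) n) :
    ∃ (I : IrrCharacter H → IrrCharacter G) (ε : IrrCharacter H → ℤ),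
      IsPerfectIsometry p M c B I ε := by
  classical
  have hprime := Cfsg.Agent.Blocks.Local.isPrime_of_isPModular hM
  have : Fintype H := Fintype.ofFinite _
  have : Fintype (N.subgroupOf H) := Fintype.ofFinite _
  have hpN : ¬ p ∣ Nat.card N := by
    rw [hNdef]
    exact ndvd_pPrimeCore p
  -- `B` consists of the characters over `θ`
  obtain ⟨B₁, hB₁, hB₁mem, -, hB₁D⟩ := Cfsg.Agent.S4492.result p M hM hsolv N hNdef θ hinv
  have hBB : B = B₁ := by
    have h1 : χ ∈ B₁ := (hB₁mem χ).2 hχθ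
    rw [Cfsg.Agent.Blocks.Basic.isPBlock_eq_blockOf hB hχ,
      Cfsg.Agent.Blocks.Basic.isPBlock_eq_blockOf hB₁ h1]
  obtain ⟨PS, hPS⟩ := hB₁D P (hBB ▸ hPD)
  have hP : IsPGroup p P := by rw [hPS]; exact PS.isPGroup'
  obtain ⟨-, hNH, hcore⟩ := Cfsg.Agent.H621.PSolvAb.taskF p hsolv PS
    (fun x hx y hy => hPab x (hPS ▸ hx) y (hPS ▸ hy))
  rw [← hNdef, ← hPS, ← hH] at hNH
  have hcoreH : N.subgroupOf H = pPrimeCore p H := by
    subst hH
    subst hNdef
    rw [hPS]
    exact hcore.symm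
  obtain ⟨φ, e, he, hpe, hφinv, I, ε, hI⟩ := thmI p M hM N hpN P hP H hH hNH θ hinv
  -- `c` consists of the characters over `φ`
  have hsolvH : IsPSolvable p H :=
    Cfsg.Agent.Lib.PSolvable.IsPSolvable_of_injective p hsolv H.subtype H.subtype_injective
  have hnH : (N.subgroupOf H).Normal := hN.subgroupOf H
  obtain ⟨c₁, hc₁, hc₁mem, -, -⟩ := Cfsg.Agent.S4492.result p M hM hsolvH (N.subgroupOf H) hcoreH φ
    hφinv
  have hover := Cfsg.Agent.H621.BrauerGlauberman.taskC p M hM N hpN P hP H hH θ hinv φ e he hpe B c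
    hc χ hχ hχθ
  have hcc : c = c₁ := by
    obtain ⟨η, hη⟩ := Cfsg.Agent.Blocks.Basic.isPBlock_nonempty hc.1
    have h1 : η ∈ c₁ := (hc₁mem η).2 (hover η hη)
    rw [Cfsg.Agent.Blocks.Basic.isPBlock_eq_blockOf hc.1 hη,
      Cfsg.Agent.Blocks.Basic.isPBlock_eq_blockOf hc₁ h1]
  have e1 : c = {ψ : IrrCharacter H | classInner (fun x : N.subgroupOf H => (ψ : H → ℂ) x)
        (φ : N.subgroupOf H → ℂ) ≠ 0} := by
    rw [hcc]
    ext ψ
    exact hc₁mem ψ
  have e2 : B = {χ : IrrCharacter G | classInner (fun x : N => (χ : G → ℂ) x)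
      (θ : N → ℂ) ≠ 0} := by
    rw [hBB]
    ext ψ
    exact hB₁mem ψ
  rw [e1, e2]
  exact ⟨I, ε, hI⟩

end Cfsg.Agent.H640
end

-- part: H640/Final2
section
/-!
# Transport of induced blocks and perfect isometries along isomorphisms (helper640)
-/

set_option autoImplicit false
set_option linter.unusedSectionVars false

namespace Cfsg.Agent.H640

open Cfsg
open Cfsg.Agent.Characters.Core
open Cfsg.Agent.H592.Transport

theorem indCC_tr {G : Type*} [Group G] {H H' : Subgroup G} (e : H' ≃* H)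
    (he : ∀ y : H', IsConj (y : G) (e y : G)) (ξ : IrrCharacter H) (g : G) :
    inducedCentralChar H' (tr e ξ : H' → ℂ) g = inducedCentralChar H (ξ : H → ℂ) g := by
  rw [inducedCentralChar, inducedCentralChar]
  refine finsum_mem_eq_of_bijOn e ⟨fun y hy => ?_, e.injective.injOn, fun y hy => ?_⟩ fun y _ => ?_
  · exact IsConj.trans (show IsConj g (y : G) from hy) (he y)
  · refine ⟨e.symm y, ?_, e.apply_symm_apply y⟩
    have h1 := he (e.symm y)
    rw [e.apply_symm_apply] at h1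
    exact IsConj.trans (show IsConj g (y : G) from hy) h1.symm
  · rw [tr_apply, tr_apply, map_one]

theorem isInduced_tr {G : Type*} [Group G] {M : Ideal AlgInt} [M.IsPrime] {H H' : Subgroup G}
    (e : H' ≃* H) (he : ∀ y : H', IsConj (y : G) (e y : G)) {c : Set (IrrCharacter H)}
    {B : Set (IrrCharacter G)} (h : IsInducedBlock M H c B) :
    IsInducedBlock M H' (trSet e c) B := by
  refine ⟨isPBlock_trSet e h.1, h.2.1, fun ξ hξ χ hχ g => ?_⟩
  have h1 : ξ = tr e (tr e.symm ξ) := (tr_tr_symm e ξ).symm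
  rw [h1, indCC_tr e he]
  exact h.2.2 _ hξ χ hχ g

theorem card_centralizer_equiv {A B : Type*} [Group A] [Group B] (e : A ≃* B) (y : A) :
    Nat.card (Subgroup.centralizer ({y} : Set A)) =
      Nat.card (Subgroup.centralizer ({e y} : Set B)) := by
  refine Nat.card_congr (e.toEquiv.subtypeEquiv fun a => ?_)
  rw [Subgroup.mem_centralizer_singleton_iff, Subgroup.mem_centralizer_singleton_iff]
  show a * y = y * a ↔ e a * e y = e y * e a
  rw [← map_mul, ← map_mul]
  exact e.injective.eq_iff.symm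

theorem isPRegular_equiv {A B : Type*} [Group A] [Group B] (p : ℕ) (e : A ≃* B) (y : A) :
    IsPRegular p y ↔ IsPRegular p (e y) := by
  rw [IsPRegular, IsPRegular, MulEquiv.orderOf_eq]

theorem perf_tr {G A B : Type*} [Group G] [Group A] [Group B] {p : ℕ} {M : Ideal AlgInt}
    (e : A ≃* B) {c : Set (IrrCharacter B)} {b : Set (IrrCharacter G)}
    {I : IrrCharacter B → IrrCharacter G} {ε : IrrCharacter B → ℤ}
    (h : IsPerfectIsometry p M c b I ε) :
    IsPerfectIsometry p M (trSet e c) b (fun η => I (tr e.symm η)) (fun η => ε (tr e.symm η)) := by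
  obtain ⟨h1, h2, h3⟩ := h
  refine ⟨⟨fun η hη => h1.mapsTo hη, fun η hη η' hη' heq => ?_, fun χ hχ => ?_⟩,
    fun η hη => h2 _ hη, ?_⟩
  · have h4 := h1.injOn hη hη' heq
    rw [← tr_tr_symm e η, h4, tr_tr_symm]
  · obtain ⟨η, hη, rfl⟩ := h1.surjOn hχ
    exact ⟨tr e η, tr_mem_trSet.2 hη, by simp only [tr_symm_tr]⟩
  · have hker : ∀ x y, signedBijectionKernel (trSet e c) (fun η => I (tr e.symm η))
        (fun η => ε (tr e.symm η)) x y = signedBijectionKernel c I ε x (e y) := by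
      intro x y
      rw [signedBijectionKernel, signedBijectionKernel, finsum_trSet]
      refine finsum_mem_congr rfl fun η _ => ?_
      rw [tr_symm_tr, tr_apply]
    intro x y
    obtain ⟨h4, h5, h6⟩ := h3 x (e y)
    rw [hker, card_centralizer_equiv e y, isPRegular_equiv p e y]
    exact ⟨h4, h5, h6⟩

end Cfsg.Agent.H640
end

-- part: H640/Final3
section
/-!
# Fong–Reynolds reduction (helper640)
-/

set_option autoImplicit false
set_option linter.unusedSectionVars false

namespace Cfsg.Agent.H640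

open Cfsg
open Cfsg.Agent.Characters.Core
open Cfsg.Agent.H591.Reynolds
open Cfsg.Agent.OddOrderCharacters.NormalInduced (conjFn conjFn_apply)
open Cfsg.Agent.OddOrderCharacters.PF9.CliffGen (resTo resTo_apply)

universe u

/-- the stabilizer condition for a single character -/
theorem isStab_singleton {G : Type u} [Group G] {N T : Subgroup G} [hN : N.Normal]
    (θ : IrrCharacter N) (hT : ∀ g, g ∈ T ↔ conjFn N (θ : N → ℂ) g = θ) :
    IsStab ({θ} : Set (IrrCharacter N)) T := by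
  intro g
  rw [hT]
  constructor
  · rintro h _ rfl θ' h'
    apply Subtype.ext
    funext n
    rw [h' n]
    exact congrFun h n
  · intro h
    have h1 := h θ rfl (Cfsg.Agent.Blocks.Covering.conjIrr N g θ) (fun n => by
      rw [← conjFn_eq_conjIrr]
      rfl)
    rw [conjFn_eq_conjIrr]
    exact congrArg Subtype.val h1

/-- The Fong–Reynolds bijection. -/
theorem fr {G : Type u} [Group G] [Fintype G] (p : ℕ) [Fact p.Prime] {M : Ideal AlgInt}
    (hM : IsPModular p M) {N T : Subgroup G} [hN : N.Normal] [Fintype N] [Fintype T]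
    (hpN : ¬ p ∣ Nat.card N) (θ : IrrCharacter N)
    (hT : ∀ g, g ∈ T ↔ conjFn N (θ : N → ℂ) g = θ) (hNT : N ≤ T)
    {B' : Set (IrrCharacter T)} (hB' : IsPBlock M B') {ψ₀ : IrrCharacter T} (hψ₀ : ψ₀ ∈ B')
    (h₀ : classInner (resTo hNT (ψ₀ : T → ℂ)) (θ : N → ℂ) ≠ 0) :
    ∃ B : Set (IrrCharacter G), IsInducedBlock M T B' B ∧
      (∀ D : Subgroup T, IsDefectGroup p M B' D → IsDefectGroup p M B (D.map T.subtype)) ∧
      ∃ F : IrrCharacter T → IrrCharacter G, Set.BijOn F B' B ∧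
        ∀ ψ ∈ B', (F ψ : G → ℂ) = indFun T (ψ : T → ℂ) := by
  classical
  have hst := isStab_singleton θ hT
  have hb : IsPBlock M ({θ} : Set (IrrCharacter N)) :=
    Cfsg.Agent.H646.OverPrime.isPBlock_singleton hM hpN θ
  obtain ⟨B, hind, -, hirr, hmem⟩ := (Cfsg.Agent.S4435.result p M hM N {θ} hb T hst hNT).1 B' hB'
    ⟨ψ₀, hψ₀, θ, rfl, h₀⟩
  refine ⟨B, hind, (Cfsg.Agent.S4436.result p M hM N {θ} hb T hst hNT B' hB'
    ⟨ψ₀, hψ₀, θ, rfl, h₀⟩ B hind).1, ?_⟩
  have hover : ∀ ψ ∈ B', classInner (resTo hNT (ψ : T → ℂ)) (θ : N → ℂ) ≠ 0 := by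
    intro ψ hψ
    obtain ⟨θ', hθ'⟩ := exists_over hNT ψ.2
    have h1 : θ' = θ := Cfsg.Agent.H591.ReynoldsMain.over_of_mem p hM hb hst hNT hB' hψ₀ rfl h₀ hψ hθ'
    rwa [h1] at hθ'
  let F : IrrCharacter T → IrrCharacter G := fun ψ =>
    if h : ψ ∈ B' then ⟨_, hirr ψ h⟩ else ⟨_, isIrr_one⟩
  have hF : ∀ ψ ∈ B', (F ψ : G → ℂ) = indFun T (ψ : T → ℂ) := by
    intro ψ hψ
    show ((if h : ψ ∈ B' then (⟨_, hirr ψ h⟩ : IrrCharacter G) else ⟨_, isIrr_one⟩ :
      IrrCharacter G) : G → ℂ) = _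
    rw [dif_pos hψ]
  refine ⟨F, ⟨fun ψ hψ => (hmem _).2 ⟨ψ, hψ, hF ψ hψ⟩, fun ψ hψ ψ' hψ' h => ?_,
    fun χ hχ => ?_⟩, hF⟩
  · have h1 : indFun T (ψ : T → ℂ) = indFun T (ψ' : T → ℂ) := by
      rw [← hF ψ hψ, ← hF ψ' hψ', h]
    exact Subtype.ext (Cfsg.Agent.H591.Cliff.ind_inj θ.2 (fun g hg => (hT g).2 hg) hNT ψ.2 ψ'.2
      (hover ψ hψ) (hover ψ' hψ') h1)
  · obtain ⟨ψ, hψ, h⟩ := (hmem χ).1 hχ
    exact ⟨ψ, hψ, Subtype.ext (by rw [hF ψ hψ, h])⟩

/-- The covering block over an inertia group. -/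
theorem exists_fr {G : Type u} [Group G] [Fintype G] (p : ℕ) [Fact p.Prime] {M : Ideal AlgInt}
    (hM : IsPModular p M) {N T : Subgroup G} [hN : N.Normal] [Fintype N] [Fintype T]
    (hpN : ¬ p ∣ Nat.card N) (θ : IrrCharacter N)
    (hT : ∀ g, g ∈ T ↔ conjFn N (θ : N → ℂ) g = θ) (hNT : N ≤ T)
    {B : Set (IrrCharacter G)} (hB : IsPBlock M B) {χ : IrrCharacter G} (hχ : χ ∈ B)
    (h : classInner (fun n : N => (χ : G → ℂ) n) (θ : N → ℂ) ≠ 0) :
    ∃ B' : Set (IrrCharacter T), IsPBlock M B' ∧ IsInducedBlock M T B' B ∧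
      ∃ ψ₀ ∈ B', classInner (resTo hNT (ψ₀ : T → ℂ)) (θ : N → ℂ) ≠ 0 := by
  have hst := isStab_singleton θ hT
  have hb : IsPBlock M ({θ} : Set (IrrCharacter N)) :=
    Cfsg.Agent.H646.OverPrime.isPBlock_singleton hM hpN θ
  obtain ⟨B', hB', ⟨ψ, hψ, θ', hθ', h'⟩, hind⟩ :=
    (Cfsg.Agent.S4435.result p M hM N {θ} hb T hst hNT).2.2 B hB ⟨χ, hχ, θ, rfl, h⟩
  rw [Set.mem_singleton_iff] at hθ'
  subst hθ'
  exact ⟨B', hB', hind, ψ, hψ, h'⟩

/-- First main theorem with a named normalizer. -/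
theorem first_main {G : Type u} [Group G] [Finite G] (p : ℕ) [Fact p.Prime] (M : Ideal AlgInt)
    (hM : IsPModular p M) (D : Subgroup G) (hD : IsPGroup p D) (H : Subgroup G)
    (hH : H = Subgroup.normalizer (D : Set G)) (B : Set (IrrCharacter G)) (hB : IsPBlock M B)
    (hBD : IsDefectGroup p M B D) :
    ∃! b : Set (IrrCharacter H), IsPBlock M b ∧ IsDefectGroup p M b (D.subgroupOf H) ∧
      IsInducedBlock M H b B := by
  subst hH
  exact (Cfsg.Agent.S0920.result p M hM D hD).2 B hB hBD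

/-- The Glauberman correspondents of conjugate characters. -/
theorem stab_glauberman {G : Type u} [Group G] [Fintype G] {p : ℕ} [Fact p.Prime]
    {M : Ideal AlgInt} (hM : IsPModular p M)
    {N : Subgroup G} [hN : N.Normal] [Fintype N] (hpN : ¬ p ∣ Nat.card N) (P : Subgroup G)
    (hP : IsPGroup p P) (H : Subgroup G) (hH : H = Subgroup.normalizer (P : Set G))
    [Fintype (N.subgroupOf H)] [hnH : (N.subgroupOf H).Normal] (θ : IrrCharacter N)
    (hθP : ∀ g ∈ P, conjFn N (θ : N → ℂ) g = θ) :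
    ∃ (φ : IrrCharacter (N.subgroupOf H)) (e : ℕ),
      classInner (fun x : N.subgroupOf H => (θ : N → ℂ) ⟨((x : H) : G), x.2⟩)
        (φ : N.subgroupOf H → ℂ) = e ∧ ¬ p ∣ e ∧
      ∀ h : H, conjFn N (θ : N → ℂ) h = θ ↔
        conjFn (N.subgroupOf H) (φ : N.subgroupOf H → ℂ) h = φ := by
  classical
  open Cfsg.Agent.H593.GlaubermanP Cfsg.Agent.H621.BrauerGlauberman in
  let _ := act N P
  have hset : Setup P (iota N H) p := setup N hpN P hP H hH
  have hact : ∀ (s : P) (g : N), ((s • g : N) : G) = (s : G) * g * (s : G)⁻¹ := fun _ _ => rfl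
  have hInv : ∀ ξ : IrrCharacter N, (∀ g ∈ P, conjFn N (ξ : N → ℂ) g = ξ) →
      Inv P (ξ : N → ℂ) := by
    intro ξ hξ s g
    exact congrFun (hξ s s.2) g
  obtain ⟨φ, hφ⟩ := exists_beta hset hM θ
  obtain ⟨e, he⟩ := exists_mult (ι := iota N H) θ φ
  have hpe : ¬ p ∣ e := fun h => hφ ((good_iff hset hM he).2 h)
  refine ⟨φ, e, he, hpe, fun h => ?_⟩
  -- the conjugate
  have hnorm : ∀ h : H, ∀ g ∈ P, (h : G) * g * (h : G)⁻¹ ∈ P := by
    intro h g hg
    have h1 : (h : G) ∈ Subgroup.normalizer (P : Set G) := hH ▸ h.2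
    exact (Subgroup.mem_normalizer_iff.1 h1 g).1 hg
  let θh : IrrCharacter N := Cfsg.Agent.Blocks.Covering.conjIrr N (h : G) θ
  have hθh : ∀ n : N, (θh : N → ℂ) n = (θ : N → ℂ) ⟨h * n * (h : G)⁻¹, hN.conj_mem n n.2 h⟩ := by
    intro n
    show (Cfsg.Agent.Blocks.Covering.conjIrr N (h : G) θ : N → ℂ) n = _
    rw [← conjFn_eq_conjIrr]
    rfl
  have hθhP : ∀ g ∈ P, conjFn N (θh : N → ℂ) g = θh := by
    intro g hg
    funext n
    rw [conjFn_apply, hθh, hθh]
    have h1 := congrFun (hθP _ (hnorm h g hg)) ⟨h * n * (h : G)⁻¹, hN.conj_mem n n.2 h⟩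
    rw [conjFn_apply] at h1
    rw [← h1]
    refine congrArg (θ : N → ℂ) (Subtype.ext ?_)
    show (h : G) * (g * n * g⁻¹) * (h : G)⁻¹ =
      (h : G) * g * (h : G)⁻¹ * (h * n * (h : G)⁻¹) * ((h : G) * g * (h : G)⁻¹)⁻¹
    group
  let φh : IrrCharacter (N.subgroupOf H) :=
    Cfsg.Agent.Blocks.Covering.conjIrr (N.subgroupOf H) h φ
  have hφh : ∀ x : N.subgroupOf H, (φh : N.subgroupOf H → ℂ) x =
      (φ : N.subgroupOf H → ℂ) ⟨h * x * h⁻¹, hnH.conj_mem x x.2 h⟩ := by
    intro x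
    show (Cfsg.Agent.Blocks.Covering.conjIrr (N.subgroupOf H) h φ : N.subgroupOf H → ℂ) x = _
    rw [← conjFn_eq_conjIrr]
    rfl
  have hmult : classInner ((θh : N → ℂ) ∘ (iota N H)) (φh : N.subgroupOf H → ℂ) = e := by
    rw [← he, classInner, classInner]
    congr 1
    refine Fintype.sum_equiv (MulAut.conjNormal h : N.subgroupOf H ≃* N.subgroupOf H).toEquiv _ _
      fun x => ?_
    have e1 : (φh : N.subgroupOf H → ℂ) x = (φ : N.subgroupOf H → ℂ)
        ((MulAut.conjNormal h : N.subgroupOf H ≃* N.subgroupOf H).toEquiv x) := by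
      rw [hφh]
      congr 1
    have e2 : ((θh : N → ℂ) ∘ (iota N H)) x = ((θ : N → ℂ) ∘ (iota N H))
        ((MulAut.conjNormal h : N.subgroupOf H ≃* N.subgroupOf H).toEquiv x) := by
      rw [Function.comp_apply, Function.comp_apply, hθh]
      congr 1
    rw [e1, e2]
  have hgood : ¬ MemLocalIdeal M (b (iota N H) θh φh) := fun hh =>
    hpe ((good_iff hset hM hmult).1 hh)
  constructor
  · intro h1
    have h2 : θh = θ := Subtype.ext (by rw [← conjFn_eq_conjIrr]; exact h1)
    rw [h2] at hgood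
    have h3 := unique_beta hset hM (hInv θ hθP) hgood hφ
    rw [conjFn_eq_conjIrr]
    exact congrArg Subtype.val h3
  · intro h1
    have h2 : φh = φ := Subtype.ext (by rw [← conjFn_eq_conjIrr]; exact h1)
    rw [h2] at hgood
    have h3 := unique_chi hset hM (hInv θh hθhP) (hInv θ hθP) hgood hφ
    rw [conjFn_eq_conjIrr]
    exact congrArg Subtype.val h3

end Cfsg.Agent.H640
end

-- part: H640/Final4
section
/-!
# Fong–Reynolds reduction (helper640), part 2
-/

set_option autoImplicit false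
set_option linter.unusedSectionVars false

namespace Cfsg.Agent.H640

open Cfsg
open Cfsg.Agent.Characters.Core
open Cfsg.Agent.H591.Reynolds
open Cfsg.Agent.H592.Transport
open Cfsg.Agent.OddOrderCharacters.NormalInduced (conjFn conjFn_apply)
open Cfsg.Agent.OddOrderCharacters.PF9.CliffGen (resTo resTo_apply down)

universe u

theorem trSet_symm {A B : Type*} [Group A] [Group B] (e : A ≃* B) (b : Set (IrrCharacter A)) :
    trSet e (trSet e.symm b) = b := by
  ext θ
  rw [mem_trSet, mem_trSet]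
  show tr e.symm.symm (tr e.symm θ) ∈ b ↔ θ ∈ b
  rw [MulEquiv.symm_symm, tr_tr_symm]

theorem trSet_trans {A B C : Type*} [Group A] [Group B] [Group C] (e : A ≃* B) (f : B ≃* C)
    (b : Set (IrrCharacter C)) : trSet e (trSet f b) = trSet (e.trans f) b := by
  ext θ
  exact Iff.rfl

/-- The non-invariant case, after choosing the character suitably. -/
theorem case_sub {G : Type u} [Group G] [Fintype G] (p : ℕ) [Fact p.Prime] {M : Ideal AlgInt}
    (hM : IsPModular p M)
    (B : Set (IrrCharacter G)) (hB : IsPBlock M B) (P : Subgroup G) (hP : IsPGroup p P)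
    (hPD : IsDefectGroup p M B P)
    (H : Subgroup G) (hH : H = Subgroup.normalizer (P : Set G)) (c : Set (IrrCharacter H))
    (hcD : IsDefectGroup p M c (P.subgroupOf H)) (hc : IsInducedBlock M H c B)
    (N : Subgroup G) [hN : N.Normal] [Fintype N] (hpN : ¬ p ∣ Nat.card N) (θ : IrrCharacter N)
    (T : Subgroup G) [Fintype T] (hT : ∀ g, g ∈ T ↔ conjFn N (θ : N → ℂ) g = θ) (hNT : N ≤ T)
    (B' : Set (IrrCharacter T)) (hB' : IsPBlock M B') (hind : IsInducedBlock M T B' B)
    (ψ₀ : IrrCharacter T) (hψ₀ : ψ₀ ∈ B')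
    (h₀ : classInner (resTo hNT (ψ₀ : T → ℂ)) (θ : N → ℂ) ≠ 0)
    (hPT : P ≤ T) (hB'D : IsDefectGroup p M B' (P.subgroupOf T))
    (ih : ∀ (X : Subgroup T), X = Subgroup.normalizer ((P.subgroupOf T : Subgroup T) : Set T) →
      ∀ (b' : Set (IrrCharacter X)), IsDefectGroup p M b' ((P.subgroupOf T).subgroupOf X) →
      IsInducedBlock M X b' B' →
      ∃ (I : IrrCharacter X → IrrCharacter T) (ε : IrrCharacter X → ℤ),
        IsPerfectIsometry p M b' B' I ε) :
    ∃ (I : IrrCharacter H → IrrCharacter G) (ε : IrrCharacter H → ℤ),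
      IsPerfectIsometry p M c B I ε := by
  classical
  have hprime := Cfsg.Agent.Blocks.Local.isPrime_of_isPModular hM
  let X₀ : Subgroup G := T ⊓ H
  let X : Subgroup T := X₀.subgroupOf T
  let Y : Subgroup H := X₀.subgroupOf H
  have hmemX : ∀ t : T, t ∈ X ↔ (t : G) ∈ H := fun t =>
    ⟨fun h => (Subgroup.mem_inf.1 h).2, fun h => Subgroup.mem_inf.2 ⟨t.2, h⟩⟩
  have hmemY : ∀ t : H, t ∈ Y ↔ (t : G) ∈ T := fun t =>
    ⟨fun h => (Subgroup.mem_inf.1 h).1, fun h => Subgroup.mem_inf.2 ⟨h, t.2⟩⟩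
  have hX : X = Subgroup.normalizer ((P.subgroupOf T : Subgroup T) : Set T) := by
    ext t
    rw [hmemX, Cfsg.Agent.H648.FirstMain.mem_normalizer_subgroupOf_iff hPT, hH]
  have hP' : IsPGroup p (P.subgroupOf T) := hP.comap_subtype
  obtain ⟨b', ⟨hb', hb'D, hb'ind⟩, -⟩ := first_main p M hM (P.subgroupOf T) hP' X hX B' hB' hB'D
  obtain ⟨I', ε', hI'⟩ := ih X hX b' hb'D hb'ind
  have hXT : X₀ ≤ T := inf_le_left
  have hXH : X₀ ≤ H := inf_le_right
  let eX : X ≃* X₀ := Cfsg.Agent.H592.Transit.inK hXT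
  let eY : Y ≃* X₀ := Cfsg.Agent.H592.Transit.inK hXH
  let b₀ : Set (IrrCharacter X₀) := trSet eX.symm b'
  have hb₀ : IsPBlock M b₀ := isPBlock_trSet eX.symm hb'
  have hb₀' : trSet eX b₀ = b' := trSet_symm eX b'
  let e : Y ≃* X := eY.trans eX.symm
  let b'' : Set (IrrCharacter Y) := trSet e b'
  have hb''₀ : trSet eY b₀ = b'' := rfl
  have hb'' : IsPBlock M b'' := isPBlock_trSet e hb'
  have hecoe : ∀ y : Y, (((e y : X) : T) : G) = ((y : H) : G) := fun y => rfl
  have hI'' := perf_tr e hI'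
  -- `b₀` induces `B`
  have hb₀B : IsInducedBlock M X₀ b₀ B := by
    refine (Cfsg.Agent.H592.Transit.trans_induced hXT hb₀ (C := B') ?_).2 hind
    show IsInducedBlock M X (trSet eX b₀) B'
    rw [hb₀']
    exact hb'ind
  -- the Glauberman correspondent
  have hnH : (N.subgroupOf H).Normal := hN.subgroupOf H
  have : Fintype (N.subgroupOf H) := Fintype.ofFinite _
  have : Fintype H := Fintype.ofFinite _
  have : Fintype Y := Fintype.ofFinite _
  obtain ⟨φ, k, hk, hpk, hstabφ⟩ := stab_glauberman hM hpN P hP H hH θ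
    (fun g hg => (hT g).1 (hPT hg))
  have hCY : N.subgroupOf H ≤ Y := fun x hx => (hmemY x).2 (hNT hx)
  have hY : ∀ h : H, h ∈ Y ↔ conjFn (N.subgroupOf H) (φ : N.subgroupOf H → ℂ) h = φ := by
    intro h
    rw [hmemY, hT, hstabφ]
  have hpC : ¬ p ∣ Nat.card (N.subgroupOf H) := by
    intro h
    apply hpN
    refine h.trans ?_
    exact Subgroup.card_dvd_of_injective (Cfsg.Agent.H621.BrauerGlauberman.iota N H)
      (fun x y hxy => Subtype.ext (Subtype.ext (congrArg (fun t : N => (t : G)) hxy)))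
  -- `b''` covers `φ`
  obtain ⟨ψ'', hψ'', h''⟩ : ∃ ψ'' ∈ b'', classInner (resTo hCY (ψ'' : Y → ℂ))
      (φ : N.subgroupOf H → ℂ) ≠ 0 := by
    have hNTn : (N.subgroupOf T).Normal := hN.subgroupOf T
    have : Fintype (N.subgroupOf T) := Fintype.ofFinite _
    have : Fintype ((N.subgroupOf T).subgroupOf X) := Fintype.ofFinite _
    have hpNT : ¬ p ∣ Nat.card (N.subgroupOf T) := by
      rw [Nat.card_congr (Subgroup.subgroupOfEquivOfLe hNT).toEquiv]
      exact hpN
    let θT : IrrCharacter (N.subgroupOf T) := ⟨down N T θ, Cfsg.Agent.H591.Cliff.isIrr_down hNT θ.2⟩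
    let j : (N.subgroupOf T).subgroupOf X ≃* N.subgroupOf H :=
      { toFun := fun x => ⟨⟨(((x : X) : T) : G), (hmemX _).1 (x : X).2⟩, x.2⟩
        invFun := fun y => ⟨⟨⟨((y : H) : G), hNT y.2⟩, (hmemX _).2 (y : H).2⟩, y.2⟩
        left_inv := fun x => rfl
        right_inv := fun y => rfl
        map_mul' := fun x y => rfl }
    have hover := Cfsg.Agent.H621.BrauerGlauberman.taskC p M hM (N.subgroupOf T) hpNT
      (P.subgroupOf T) hP' X hX θT (fun g n => by
        have h1 := congrFun ((hT (g : G)).1 g.2) ⟨((n : T) : G), n.2⟩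
        rw [conjFn_apply] at h1
        exact h1) (tr j φ) k (by
        rw [← hk, classInner, classInner]
        rw [Nat.card_congr j.toEquiv]
        congr 1
        refine Fintype.sum_equiv j.toEquiv _ _ fun x => ?_
        rfl) hpk B' b' hb'ind ψ₀ hψ₀ (by
        have h1 : classInner (fun x : N.subgroupOf T => (ψ₀ : T → ℂ) x)
            (θT : N.subgroupOf T → ℂ) = classInner (resTo hNT (ψ₀ : T → ℂ)) (θ : N → ℂ) := by
          rw [classInner, classInner,
            Nat.card_congr (Subgroup.subgroupOfEquivOfLe hNT).toEquiv]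
          congr 1
          refine Fintype.sum_equiv (Subgroup.subgroupOfEquivOfLe hNT).toEquiv _ _ fun x => ?_
          rfl
        rw [h1]
        exact h₀)
    obtain ⟨η, hη⟩ := Cfsg.Agent.Blocks.Basic.isPBlock_nonempty hb'
    refine ⟨tr e η, tr_mem_trSet.2 hη, ?_⟩
    have h1 : classInner (resTo hCY (tr e η : Y → ℂ)) (φ : N.subgroupOf H → ℂ) =
        classInner (fun x : (N.subgroupOf T).subgroupOf X => (η : X → ℂ) x)
          (tr j φ : (N.subgroupOf T).subgroupOf X → ℂ) := by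
      rw [classInner, classInner, Nat.card_congr j.toEquiv]
      congr 1
      symm
      refine Fintype.sum_equiv j.toEquiv _ _ fun x => ?_
      rfl
    rw [h1]
    exact hover η hη
  obtain ⟨c₁, hc₁ind, hc₁D, F₁, hF₁, hF₁'⟩ := fr p hM hpC φ hY hCY hb'' hψ'' h''
  obtain ⟨B₁, hB₁ind, -, F, hF, hF'⟩ := fr p hM hpN θ hT hNT hB' hψ₀ h₀
  have hBB : B₁ = B := Cfsg.Agent.H592.Transit.induced_unique hB₁ind hind
  subst hBB
  -- `c₁` induces `B`
  have hc₁B : IsInducedBlock M H c₁ B₁ :=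
    (Cfsg.Agent.H592.Transit.trans_induced hXH hb₀ (C := c₁) hc₁ind).1 hb₀B
  -- the defect group of `c₁`
  have hc₁D' : IsDefectGroup p M c₁ (P.subgroupOf H) := by
    have h1 := hc₁D _ (isDefectGroup_trSet e hb'D)
    have h2 : (((P.subgroupOf T).subgroupOf X).comap e.toMonoidHom).map Y.subtype =
        P.subgroupOf H := by
      ext h
      constructor
      · rintro ⟨y, hy, rfl⟩
        exact hy
      · intro hh
        refine ⟨⟨h, (hmemY h).2 (hPT hh)⟩, ?_, rfl⟩
        exact hh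
    rw [h2] at h1
    exact h1
  have hcc : c = c₁ := by
    obtain ⟨c₂, -, huniq⟩ := first_main p M hM P hP H hH B₁ hB hPD
    rw [huniq c ⟨hc.1, hcD, hc⟩, huniq c₁ ⟨hc₁B.1, hc₁D', hc₁B⟩]
  subst hcc
  obtain ⟨I, ε, hI, -⟩ := Cfsg.Agent.H608.PerfInd.exists_isPerfectIsometry p M hM T Y B' b'' _ _
    hI'' B₁ F hF hF' c F₁ hF₁ hF₁'
  exact ⟨I, ε, hI⟩

end Cfsg.Agent.H640
end

-- part: H640/Final5
section
/-!
# Perfect isometries for `p`-solvable groups with abelian defect group: the induction (helper640)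
-/

set_option autoImplicit false
set_option linter.unusedSectionVars false

namespace Cfsg.Agent.H640

open Cfsg
open Cfsg.Agent.Characters.Core
open Cfsg.Agent.H591.Reynolds
open Cfsg.Agent.H592.Transport
open Cfsg.Agent.OddOrderCharacters.NormalInduced (conjFn conjFn_apply)
open Cfsg.Agent.OddOrderCharacters.PF9.CliffGen (resTo resTo_apply down inertia mem_inertia
  le_inertia)

universe u

/-- conjugation between the normalizers of conjugate subgroups -/
def nConj {G : Type u} [Group G] {P P' : Subgroup G} (x : G)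
    (hx : P'.map (MulAut.conj x).toMonoidHom = P) {H H' : Subgroup G}
    (hH : H = Subgroup.normalizer (P : Set G)) (hH' : H' = Subgroup.normalizer (P' : Set G)) :
    H' ≃* H where
  toFun y := ⟨x * y * x⁻¹, by
    have hy : (y : G) ∈ Subgroup.normalizer (P' : Set G) := hH' ▸ y.2
    rw [hH, ← hx, Subgroup.mem_normalizer_iff]
    intro g
    have h1 : ∀ g : G, g ∈ P'.map (MulAut.conj x).toMonoidHom ↔ x⁻¹ * g * x ∈ P' := by
      intro g
      constructor
      · rintro ⟨z, hz, rfl⟩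
        show x⁻¹ * (x * z * x⁻¹) * x ∈ P'
        have : x⁻¹ * (x * z * x⁻¹) * x = z := by group
        rw [this]
        exact hz
      · intro h
        refine ⟨_, h, ?_⟩
        show x * (x⁻¹ * g * x) * x⁻¹ = g
        group
    show g ∈ P'.map (MulAut.conj x).toMonoidHom ↔
      x * y * x⁻¹ * g * (x * y * x⁻¹)⁻¹ ∈ P'.map (MulAut.conj x).toMonoidHom
    rw [h1, h1, Subgroup.mem_normalizer_iff.1 hy]
    have h2 : x⁻¹ * (x * y * x⁻¹ * g * (x * y * x⁻¹)⁻¹) * x = y * (x⁻¹ * g * x) * (y : G)⁻¹ := by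
      group
    rw [h2]⟩
  invFun y := ⟨x⁻¹ * y * x, by
    have hy : (y : G) ∈ Subgroup.normalizer (P : Set G) := hH ▸ y.2
    rw [hH', Subgroup.mem_normalizer_iff]
    intro g
    have h1 : ∀ g : G, g ∈ P' ↔ x * g * x⁻¹ ∈ P := by
      intro g
      rw [← hx]
      constructor
      · intro h
        exact ⟨g, h, rfl⟩
      · rintro ⟨z, hz, hz'⟩
        have hz'' : x * z * x⁻¹ = x * g * x⁻¹ := hz'
        have h3 : z = g := mul_left_cancel (mul_right_cancel hz'')
        rw [← h3]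
        exact hz
    rw [h1, h1, Subgroup.mem_normalizer_iff.1 hy]
    have h2 : x * (x⁻¹ * y * x * g * (x⁻¹ * y * x)⁻¹) * x⁻¹ = y * (x * g * x⁻¹) * (y : G)⁻¹ := by
      group
    rw [h2]⟩
  left_inv y := Subtype.ext (by
    show x⁻¹ * (x * y * x⁻¹) * x = y
    group)
  right_inv y := Subtype.ext (by
    show x * (x⁻¹ * y * x) * x⁻¹ = y
    group)
  map_mul' y z := Subtype.ext (by
    show x * (y * z) * x⁻¹ = x * y * x⁻¹ * (x * z * x⁻¹)
    group)

theorem nConj_coe {G : Type u} [Group G] {P P' : Subgroup G} (x : G)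
    (hx : P'.map (MulAut.conj x).toMonoidHom = P) {H H' : Subgroup G}
    (hH : H = Subgroup.normalizer (P : Set G)) (hH' : H' = Subgroup.normalizer (P' : Set G))
    (y : H') : ((nConj x hx hH hH' y : H) : G) = x * y * x⁻¹ := rfl

/-- **The theorem, with a named normalizer.** -/
theorem main_aux (p : ℕ) [hp : Fact p.Prime] (M : Ideal AlgInt) (hM : IsPModular p M) (k : ℕ) :
    ∀ (G : Type u) [Group G] [Fintype G] (_ : Nat.card G ≤ k) (_ : IsPSolvable p G)
      (B : Set (IrrCharacter G)) (_ : IsPBlock M B) (P : Subgroup G) (_ : IsDefectGroup p M B P)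
      (_ : ∀ x ∈ P, ∀ y ∈ P, x * y = y * x) (H : Subgroup G)
      (_ : H = Subgroup.normalizer (P : Set G)) (c : Set (IrrCharacter H))
      (_ : IsDefectGroup p M c (P.subgroupOf H)) (_ : IsInducedBlock M H c B),
      ∃ (I : IrrCharacter H → IrrCharacter G) (ε : IrrCharacter H → ℤ),
        IsPerfectIsometry p M c B I ε := by
  classical
  have hprime := Cfsg.Agent.Blocks.Local.isPrime_of_isPModular hM
  induction k with
  | zero =>
    intro G _ _ hk
    exact absurd hk (by have := Nat.card_pos (α := G); omega)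
  | succ k ih =>
    intro G _ _ hk hsolv B hB P hPD hPab H hH c hcD hc
    let N : Subgroup G := pPrimeCore p G
    have hN : N.Normal := Cfsg.Agent.Lib.Cores.pPrimeCore_normal p
    have : Fintype N := Fintype.ofFinite _
    have hpN : ¬ p ∣ Nat.card N := ndvd_pPrimeCore p
    obtain ⟨χ, hχ⟩ := Cfsg.Agent.Blocks.Basic.isPBlock_nonempty hB
    obtain ⟨θ, hθ⟩ : ∃ θ : IrrCharacter N,
        classInner (fun n : N => (χ : G → ℂ) n) (θ : N → ℂ) ≠ 0 := by
      have h1 : IsCharacter N (fun n : N => (χ : G → ℂ) n) :=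
        isCharacter_comp N.subtype (isIrr_isCharacter χ.2)
      have h2 : (fun n : N => (χ : G → ℂ) n) ≠ 0 := by
        intro h
        exact isIrr_apply_one_ne_zero χ.2 (congrFun h 1)
      obtain ⟨θ, hθ, h3⟩ :=
        Cfsg.Agent.OddOrderCharacters.PF4Type.exists_irr_constituent h1 h2
      exact ⟨⟨θ, hθ⟩, h3⟩
    let T : Subgroup G := inertia N (θ : N → ℂ)
    have : Fintype T := Fintype.ofFinite _
    have hT : ∀ g, g ∈ T ↔ conjFn N (θ : N → ℂ) g = θ := fun g => Iff.rfl
    have hNT : N ≤ T := le_inertia (isIrr_isClassFunction θ.2)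
    by_cases hTtop : T = ⊤
    · refine case_inv p M hM hsolv B hB P hPD hPab H hH c hc N rfl θ χ hχ hθ fun g n => ?_
      have h1 : conjFn N (θ : N → ℂ) g = θ := (hT g).1 (hTtop ▸ Subgroup.mem_top g)
      exact congrFun h1 n
    · obtain ⟨B', hB', hind, ψ₀, hψ₀, h₀⟩ := exists_fr p hM hpN θ hT hNT hB hχ hθ
      obtain ⟨D', hD'⟩ := Cfsg.Agent.H644.exists_isDefectGroup hM hB'
      obtain ⟨B₁, hB₁ind, hB₁D, -⟩ := fr p hM hpN θ hT hNT hB' hψ₀ h₀
      have hBB : B₁ = B := Cfsg.Agent.H592.Transit.induced_unique hB₁ind hind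
      subst hBB
      have hP'D : IsDefectGroup p M B₁ (D'.map T.subtype) := hB₁D D' hD'
      obtain ⟨x, hx⟩ := Cfsg.Agent.H644.exists_conj_of_isDefectGroup hM hB hP'D hPD
      let P' : Subgroup G := D'.map T.subtype
      have hP'T : P' ≤ T := Subgroup.map_subtype_le _
      have hP'D' : P'.subgroupOf T = D' :=
        Subgroup.comap_map_eq_self_of_injective T.subtype_injective D'
      have hP' : IsPGroup p P' := Cfsg.Agent.Blocks.Basic.isPGroup_of_isDefectGroup hP'D
      have hP'ab : ∀ y ∈ P', ∀ z ∈ P', y * z = z * y := by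
        intro y hy z hz
        have h1 : x * y * x⁻¹ ∈ P := hx ▸ ⟨y, hy, rfl⟩
        have h2 : x * z * x⁻¹ ∈ P := hx ▸ ⟨z, hz, rfl⟩
        have h3 := hPab _ h1 _ h2
        have h4 : x * (y * z) * x⁻¹ = x * (z * y) * x⁻¹ := by
          calc x * (y * z) * x⁻¹ = (x * y * x⁻¹) * (x * z * x⁻¹) := by group
            _ = (x * z * x⁻¹) * (x * y * x⁻¹) := h3
            _ = _ := by group
        exact mul_left_cancel (mul_right_cancel h4)
      let H' : Subgroup G := Subgroup.normalizer (P' : Set G)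
      let e : H' ≃* H := nConj x hx hH rfl
      have hecoe : ∀ y : H', ((e y : H) : G) = x * y * x⁻¹ := fun y => rfl
      let c' : Set (IrrCharacter H') := trSet e c
      have hc'ind : IsInducedBlock M H' c' B₁ :=
        isInduced_tr e (fun y => isConj_iff.2 ⟨x, rfl⟩) hc
      have hc'D : IsDefectGroup p M c' (P'.subgroupOf H') := by
        have h1 := isDefectGroup_trSet e hcD
        have h2 : (P.subgroupOf H).comap e.toMonoidHom = P'.subgroupOf H' := by
          ext y
          show x * (y : G) * x⁻¹ ∈ P ↔ (y : G) ∈ P'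
          rw [← hx]
          constructor
          · rintro ⟨z, hz, hz'⟩
            have hz'' : x * z * x⁻¹ = x * y * x⁻¹ := hz'
            have h3 : z = y := mul_left_cancel (mul_right_cancel hz'')
            rw [← h3]
            exact hz
          · intro h
            exact ⟨y, h, rfl⟩
        rw [h2] at h1
        exact h1
      have hcard : Nat.card T ≤ k := by
        have h1 : Nat.card T < Nat.card G := by
          rcases lt_or_eq_of_le (Nat.card_le_card_of_injective _ T.subtype_injective) with h | h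
          · exact h
          · exact absurd (Subgroup.eq_top_of_card_eq T h) hTtop
        omega
      have hsolvT : IsPSolvable p T :=
        Cfsg.Agent.Lib.PSolvable.IsPSolvable_of_injective p hsolv T.subtype T.subtype_injective
      obtain ⟨I', ε', hI'⟩ := case_sub p hM B₁ hB P' hP' hP'D H' rfl c' hc'D hc'ind N hpN θ T hT hNT
        B' hB' hind ψ₀ hψ₀ h₀ hP'T (by rw [hP'D']; exact hD') (fun X hX b' hb'D hb'ind =>
          ih T hcard hsolvT B' hB' (P'.subgroupOf T) (by rw [hP'D']; exact hD')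
            (fun y hy z hz => Subtype.ext (hP'ab _ hy _ hz)) X hX b' hb'D hb'ind)
      have h5 := perf_tr e.symm hI'
      rw [show trSet e.symm c' = c from trSet_symm e.symm c] at h5
      exact ⟨_, _, h5⟩

end Cfsg.Agent.H640
end

-- part: S4643
section
set_option autoImplicit false
open Cfsg

namespace Cfsg.Agent.S4643

/-- Let G be a finite p-solvable group, M a maximal ideal of the algebraic integers containing the prime p, and B a block of G with a commutative defect group P. Let c be the Brauer correspondent of B: the block of N_G(P) with defect group P that induces B. Then B and c contain the same number of irreducible characters, have the same p-regular rank, and there is a perfect isometry from c onto B. -/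
theorem result {G : Type*} [Group G] [Finite G] (p : ℕ) [Fact p.Prime] (M : Ideal Cfsg.AlgInt) (hM : Cfsg.IsPModular p M) (hsolv : Cfsg.IsPSolvable p G) (B : Set (Cfsg.IrrCharacter G)) (hB : Cfsg.IsPBlock M B) (P : Subgroup G) (hPD : Cfsg.IsDefectGroup p M B P) (hPab : ∀ x ∈ P, ∀ y ∈ P, x * y = y * x) (c : Set (Cfsg.IrrCharacter (Subgroup.normalizer (P : Set G)))) (hcD : Cfsg.IsDefectGroup p M c (P.subgroupOf (Subgroup.normalizer (P : Set G)))) (hc : Cfsg.IsInducedBlock M (Subgroup.normalizer (P : Set G)) c B) : Nat.card c = Nat.card B ∧ Cfsg.blockRank p c = Cfsg.blockRank p B ∧ ∃ (I : Cfsg.IrrCharacter (Subgroup.normalizer (P : Set G)) → Cfsg.IrrCharacter G) (ε : Cfsg.IrrCharacter (Subgroup.normalizer (P : Set G)) → ℤ), Cfsg.IsPerfectIsometry p M c B I ε := by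
  have := Fintype.ofFinite G
  obtain ⟨I, ε, h⟩ := Cfsg.Agent.H640.main_aux p M hM (Nat.card G) G le_rfl hsolv B hB P hPD hPab
    (Subgroup.normalizer (P : Set G)) rfl c hcD hc
  exact ⟨Cfsg.Agent.H608.PerfComp.card_eq h, Cfsg.Agent.H608.PerfComp.blockRank_eq h, I, ε, h⟩

end Cfsg.Agent.S4643
end
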