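import Cfsg.Statements.S4644
import Cfsg.Agent.H645.Watanabe
set_option linter.all false

set_option autoImplicit false
open Cfsg

namespace Cfsg.Agent.S4644

/-- Let B be a block of the finite group G relative to a maximal ideal M of the algebraic integers containing the prime p, with a commutative defect group P; let c be a block of C_G(P) inducing B and T the stabilizer of c in N_G(P). Let u be an element of P fixed under conjugation by every element of T, H = C_G(u) (so C_G(P) ≤ H), and f the block of H induced by c inside H. Then B and f have the same p-regular rank and the same number of irreducible characters. -/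
theorem result {G : Type*} [Group G] [Finite G] (p : ℕ) [Fact p.Prime] (M : Ideal Cfsg.AlgInt) (hM : Cfsg.IsPModular p M) (B : Set (Cfsg.IrrCharacter G)) (hB : Cfsg.IsPBlock M B) (P : Subgroup G) (hPD : Cfsg.IsDefectGroup p M B P) (hPab : ∀ x ∈ P, ∀ y ∈ P, x * y = y * x) (c : Set (Cfsg.IrrCharacter (Subgroup.centralizer (P : Set G)))) (hc : Cfsg.IsInducedBlock M (Subgroup.centralizer (P : Set G)) c B) (T : Subgroup G) (hT : ∀ g : G, g ∈ T ↔ (g ∈ Subgroup.normalizer (P : Set G) ∧ Cfsg.StabilizesBlock (Subgroup.centralizer (P : Set G)) c g)) (u : G) (hu : u ∈ P) (huT : ∀ g ∈ T, g * u * g⁻¹ = u) (H : Subgroup G) (hH : H = Subgroup.centralizer ({u} : Set G)) (f : Set (Cfsg.IrrCharacter H)) (hf : Cfsg.IsInducedBlockIn M H (Subgroup.centralizer (P : Set G)) c f) : Cfsg.blockRank p B = Cfsg.blockRank p f ∧ Nat.card B = Nat.card f := by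
  have hMp : M.IsPrime := Cfsg.Agent.Blocks.Local.isPrime_of_isPModular hM
  have := Fintype.ofFinite G
  have hmax := Cfsg.Agent.H641.isMaximal_of_induced hM hPD hc
  have hPg := Cfsg.Agent.H641.isPGroup_of_isDefectGroup hPD
  have hH' : H = Subgroup.centralizer ((Subgroup.zpowers u : Subgroup G) : Set G) := by
    rw [hH, Cfsg.Agent.H652.Ctr.centralizer_zpowers_eq]
  clear hH
  subst hH'
  have hle := (Cfsg.Agent.H645.AbelPair.inducedIn_iff hM hPg hPab
    (Subgroup.zpowers_le_of_mem hu) hc.1).1 hf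
  have hstab : ∀ t ∈ Cfsg.Agent.H645.FusCount.stab (⟨P, c⟩ : BrauerPairIdx G),
      t * u * t⁻¹ = u := fun t ht =>
    huT t ((hT t).2 ((Cfsg.Agent.H649.conjIdx_eq_iff hc.1 t).1 ht))
  have hb : Cfsg.Agent.H652.DoubleCount.bP p M (⟨P, c⟩ : BrauerPairIdx G) u =
      ⟨Subgroup.zpowers u, f⟩ :=
    Cfsg.Agent.H652.DoubleCount.bP_eq hM hmax.1.1 hu rfl hle
  have h1 := Cfsg.Agent.H645.Watanabe.rank_eq hM (a := ⟨P, c⟩) hmax hPab hu hstab
  have h2 := Cfsg.Agent.H645.Watanabe.card_eq hM (a := ⟨P, c⟩) hmax hPab hu hstab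
  rw [hb] at h1 h2
  exact ⟨h1.symm, h2.symm⟩

end Cfsg.Agent.S4644
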