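import Cfsg.Statements.S4645
import Cfsg.Agent.H641.CycQuot
import Cfsg.Agent.H641.Inertial
import Cfsg.Agent.H641.CycNil
import Cfsg.Agent.S4682
import Cfsg.Agent.S4689
set_option linter.all false

set_option autoImplicit false
open Cfsg

namespace Cfsg.Agent.S4645

open Cfsg.Agent.H644 Cfsg.Agent.Blocks.Local Cfsg.Agent.H651 Cfsg.Agent.H649 Cfsg.Agent.H641

/-- Let B be a block of the finite group G relative to a maximal ideal M of the algebraic integers containing the prime p, with a nontrivial cyclic defect group P; let c be a block of C_G(P) inducing B and T the stabilizer of c in N_G(P). Let Q be a nontrivial subgroup of P (so C_G(P) ≤ C_G(Q)), f the block of C_G(Q) induced by c inside C_G(Q), and T' the stabilizer of f in N_G(Q). Then T' = T·C_G(Q), the index of C_G(Q) in T' equals the index of C_G(P) in T, f has p-regular rank 1, and f is a nilpotent block of C_G(Q). -/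
theorem result {G : Type*} [Group G] [Finite G] (p : ℕ) [Fact p.Prime] (M : Ideal Cfsg.AlgInt) (hM : Cfsg.IsPModular p M) (B : Set (Cfsg.IrrCharacter G)) (hB : Cfsg.IsPBlock M B) (P : Subgroup G) (hPD : Cfsg.IsDefectGroup p M B P) (hP1 : P ≠ ⊥) (hcyc : IsCyclic P) (c : Set (Cfsg.IrrCharacter (Subgroup.centralizer (P : Set G)))) (hc : Cfsg.IsInducedBlock M (Subgroup.centralizer (P : Set G)) c B) (T : Subgroup G) (hT : ∀ g : G, g ∈ T ↔ (g ∈ Subgroup.normalizer (P : Set G) ∧ Cfsg.StabilizesBlock (Subgroup.centralizer (P : Set G)) c g)) (Q : Subgroup G) (hQP : Q ≤ P) (hQ1 : Q ≠ ⊥) (f : Set (Cfsg.IrrCharacter (Subgroup.centralizer (Q : Set G)))) (hf : Cfsg.IsInducedBlockIn M (Subgroup.centralizer (Q : Set G)) (Subgroup.centralizer (P : Set G)) c f) (T' : Subgroup G) (hT' : ∀ g : G, g ∈ T' ↔ (g ∈ Subgroup.normalizer (Q : Set G) ∧ Cfsg.StabilizesBlock (Subgroup.centralizer (Q : Set G)) f g)) : T' = T ⊔ Subgroup.centralizer (Q : Set G) ∧ (Subgroup.centralizer (Q : Set G)).relIndex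 T' = (Subgroup.centralizer (P : Set G)).relIndex T ∧ Cfsg.blockRank p f = 1 ∧ Cfsg.IsNilpotentBlock p M f := by
  have : M.IsPrime := hM.2.1.isPrime
  have := Fintype.ofFinite G
  have := Fintype.ofFinite (Subgroup.centralizer (Q : Set G))
  have hp : p.Prime := hM.1
  have hP : IsPGroup p P := isPGroup_of_isDefectGroup hPD
  have hmax := isMaximal_of_induced hM hPD hc
  have hTe := eq_pairStab hM hc.1 hT
  have hab : ∀ x ∈ P, ∀ y ∈ P, x * y = y * x := by
    intro x hx y hy
    let _ := hcyc.commGroup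
    exact congrArg Subtype.val (mul_comm (⟨x, hx⟩ : P) ⟨y, hy⟩)
  have hPC : P ≤ Subgroup.centralizer (P : Set G) := fun x hx =>
    Subgroup.mem_centralizer_iff.2 fun y hy => hab y hy x hx
  have hm := not_dvd_relIndex hM hmax
  rw [sup_eq_right.2 hPC, ← hTe] at hm
  have hTN : T ≤ Subgroup.normalizer (P : Set G) := fun x hx => ((hT x).1 hx).1
  have hCT : Subgroup.centralizer (P : Set G) ≤ T := by
    rw [hTe]
    exact Cfsg.Agent.H644.centralizer_le_pairStab P c
  have hfree : ∀ g ∈ T, ∀ x ∈ P, x ≠ 1 → g * x * g⁻¹ = x →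
      g ∈ Subgroup.centralizer (P : Set G) := fun g hg x hx hx1 hgx =>
    mem_centralizer_of_relIndex hp hP hcyc hTN hCT hm hg hx hx1 hgx
  have hsub := isNormalSubpair_of_inducedIn hM hP hab hQP hf
  have hle : SubpairLE p M Q f P c := subpairLE_of_isNormalSubpair hsub
  obtain ⟨h1, h2⟩ := Cfsg.Agent.S4682.result p M hM B P c hmax hab Q f hQP hf.2.1 hle T' hT' T hT
  -- `T` normalizes `Q`
  have hTQ : T ≤ Subgroup.normalizer (Q : Set G) :=
    hTN.trans (normalizer_le_of_isCyclic hcyc hQP)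
  have hnil : IsNilpotentBlock p M f := by
    refine isNilpotentBlock_of_free hM hmax hab (fun t ht u hu hu1 htu => ?_) hQ1 hle
    exact hfree t ((hT t).2 ((conjIdx_eq_iff hc.1 t).1 ht)) u hu hu1 htu
  refine ⟨?_, ?_, (Cfsg.Agent.S4689.result p M hM f hnil).1, hnil⟩
  · apply le_antisymm
    · intro x hx
      obtain ⟨y, hy, z, hz, rfl⟩ := h1 x hx
      exact Subgroup.mul_mem_sup hy hz
    · refine sup_le (fun t ht => ?_) (fun z hz => ?_)
      · exact (hT' t).2 ((conjIdx_eq_iff hf.2.1 t).1 (conjIdx_eq_of_le hM hmax.1.1 hle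
          ((conjIdx_eq_iff hc.1 t).2 ((hT t).1 ht)) (hTQ ht)))
      · exact (hT' z).2 ⟨Subgroup.centralizer_le_normalizer _ hz, stabilizesBlock_of_mem f hz⟩
  · have h3 : T ⊓ Subgroup.centralizer (Q : Set G) = Subgroup.centralizer (P : Set G) := by
      apply le_antisymm
      · rintro t ⟨ht, htQ⟩
        obtain ⟨a, ha⟩ := Subgroup.ne_bot_iff_exists_ne_one.1 hQ1
        refine hfree t ht a (hQP a.2) (fun h' => ha (Subtype.ext h')) ?_
        rw [← (Subgroup.mem_centralizer_iff.1 htQ) a a.2, mul_inv_cancel_right]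
      · exact le_inf hCT (centralizer_mono hQP)
    have h4 : T ⊓ Subgroup.normalizer (Q : Set G) = T := inf_eq_left.2 hTQ
    rw [h3, h4] at h2
    exact h2

end Cfsg.Agent.S4645
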