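import Mathlib
import Cfsg.Agent.Lib.PGroupFixedVector
import Cfsg.Agent.Blocks.OrbitSum
import Cfsg.Agent.H644.Trace
import Cfsg.Agent.H646.RankIdem
import Cfsg.Statements.S4647
import Cfsg.Agent.S0908
set_option linter.all false

-- part: H646/PermModule
section
/-!
# Direct summands of permutation modules of `p`-groups

`P` is a finite `p`-group acting on the finite set `X`, `k` is a field of characteristic `p` and
`E` is a `P`-equivariant idempotent matrix indexed by `X`, that is, a direct summand of the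
permutation module `kX`.

* `exists_orbit`: if `E ≠ 0` then there is `y₀` such that `E` is injective on the functions
  supported on the orbit of `y₀`, and `x'` with the same stabilizer as `y₀` and `E x' y₀ ≠ 0`;
* `exists_conj_le`: if all subgroups `T` with a `T`-fixed vector of the summand not vanishing at
  some `T`-fixed point have order at most `N`, the rank is at most `|P|/N` and `T₀` is such a
  subgroup of order `N`, then all such subgroups are conjugate to subgroups of `T₀`.
-/

set_option autoImplicit false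
set_option linter.unusedSectionVars false

namespace Cfsg.Agent.H646.PermModule

variable {k : Type*} [Field k] {P X : Type*} [Group P] [MulAction P X]

/-- The permutation representation on functions. -/
def permRep (k : Type*) [Field k] (P X : Type*) [Group P] [MulAction P X] :
    Representation k P (X → k) where
  toFun g := LinearMap.funLeft k k (fun x : X => g⁻¹ • x)
  map_one' := by
    ext v x
    simp [LinearMap.funLeft_apply]
  map_mul' g h := by
    ext v x
    simp [LinearMap.funLeft_apply, mul_smul]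

theorem permRep_apply (g : P) (v : X → k) (x : X) : permRep k P X g v x = v (g⁻¹ • x) := rfl

variable [Fintype X]

/-- Equivariant matrices. -/
def Equi (P : Type*) [Group P] [MulAction P X] (E : Matrix X X k) : Prop :=
  ∀ (g : P) (x y : X), E (g • x) (g • y) = E x y

theorem mulVec_permRep {E : Matrix X X k} (hE : Equi P E) (g : P) (v : X → k) :
    E.mulVec (permRep k P X g v) = permRep k P X g (E.mulVec v) := by
  funext x
  rw [permRep_apply]
  simp only [Matrix.mulVec, dotProduct]
  rw [← Equiv.sum_comp (MulAction.toPerm g : Equiv.Perm X)]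
  refine Finset.sum_congr rfl fun y _ => ?_
  rw [MulAction.toPerm_apply, permRep_apply, inv_smul_smul]
  congr 1
  rw [← hE g⁻¹ x (g • y), inv_smul_smul]

/-- A sum of a function invariant under a `p`-group reduces to the fixed points. -/
theorem sum_eq_sum_fixed {p : ℕ} [Fact p.Prime] [CharP k p] (T : Subgroup P) (hT : IsPGroup p T)
    (f : X → k) (hf : ∀ t ∈ T, ∀ y, f (t • y) = f y)
    [DecidablePred fun y : X => ∀ t ∈ T, t • y = y] :
    ∑ y, f y = ∑ y with ∀ t ∈ T, t • y = y, f y := by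
  classical
  obtain ⟨a, ha⟩ := Blocks.OrbitSum.sum_eq_sum_fixed_add_smul (P := T) (Ω := X) hT f
    (fun u ω => hf u u.2 ω)
  rw [ha, nsmul_eq_mul, CharP.cast_eq_zero, zero_mul, add_zero]
  refine Finset.sum_congr ?_ fun _ _ => rfl
  ext y
  simp only [Finset.mem_filter, Finset.mem_univ, true_and, MulAction.mem_fixedPoints]
  exact ⟨fun h t ht => h ⟨t, ht⟩, fun h t => h t t.2⟩

variable [Finite P] {p : ℕ} [Fact p.Prime] [CharP k p]

theorem exists_orbit [DecidableEq X] (hP : IsPGroup p P) {E : Matrix X X k} (hE : Equi P E)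
    (hEE : E * E = E) (hE0 : E ≠ 0) : ∃ x' y₀ : X, E x' y₀ ≠ 0 ∧
      MulAction.stabilizer P x' = MulAction.stabilizer P y₀ ∧
      ∀ w : X → k, (∀ y, y ∉ MulAction.orbit P y₀ → w y = 0) → E.mulVec w = 0 → w = 0 := by
  classical
  -- a fixed vector
  obtain ⟨v, hv, hv0, hvfix⟩ := Lib.PGroupFixedVector.exists_mem_ne_zero_fixed_rep hP
    (permRep k P X) (LinearMap.range E.mulVecLin) (by
      rintro g _ ⟨w, rfl⟩
      refine ⟨permRep k P X g w, ?_⟩
      rw [Matrix.mulVecLin_apply, Matrix.mulVecLin_apply, mulVec_permRep hE]) (by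
      intro h0
      apply hE0
      rw [LinearMap.range_eq_bot] at h0
      ext x y
      have := congrFun (LinearMap.congr_fun h0 (Pi.single y 1)) x
      rw [Matrix.mulVecLin_apply, Matrix.mulVec_single_one] at this
      exact this)
  have hEv : E.mulVec v = v := by
    obtain ⟨w, rfl⟩ := hv
    rw [Matrix.mulVecLin_apply, Matrix.mulVec_mulVec, hEE]
  have hvinv : ∀ (g : P) (x : X), v (g • x) = v x := by
    intro g x
    have := congrFun (hvfix g⁻¹) x
    rw [permRep_apply, inv_inv] at this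
    exact this
  obtain ⟨x₀, hx₀⟩ := Function.ne_iff.mp hv0
  obtain ⟨x', hx', hmax⟩ := Finset.exists_max_image (Finset.univ.filter fun x => v x ≠ 0)
    (fun x => Nat.card (MulAction.stabilizer P x)) ⟨x₀, by simpa using hx₀⟩
  rw [Finset.mem_filter] at hx'
  let R := MulAction.stabilizer P x'
  have hRp : IsPGroup p R := hP.to_subgroup R
  have hmax' : ∀ y, (∀ t ∈ R, t • y = y) → v y ≠ 0 → MulAction.stabilizer P y = R := by
    intro y hy hvy
    refine (Subgroup.eq_of_le_of_card_ge ?_ (hmax y (by simpa using hvy))).symm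
    intro t ht
    exact hy t ht
  have h1 : v x' = ∑ y with ∀ t ∈ R, t • y = y, E x' y * v y := by
    conv_lhs => rw [← hEv]
    rw [Matrix.mulVec, dotProduct]
    refine sum_eq_sum_fixed R hRp _ fun t ht y => ?_
    rw [hvinv, ← hE t x' y, show t • x' = x' from ht]
  rw [← Finset.sum_fiberwise_of_maps_to (t := (Finset.univ : Finset (Finset X)))
    (g := fun y => (MulAction.orbit P y).toFinset) (fun _ _ => Finset.mem_univ _)] at h1
  obtain ⟨O, -, hO⟩ := Finset.exists_ne_zero_of_sum_ne_zero (h1 ▸ hx'.2)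
  obtain ⟨y₀, hy₀, hy₀'⟩ := Finset.exists_ne_zero_of_sum_ne_zero hO
  simp only [Finset.mem_filter, Finset.mem_univ, true_and] at hy₀
  have hE₀ : E x' y₀ ≠ 0 := left_ne_zero_of_mul hy₀'
  have hvy₀ : v y₀ ≠ 0 := right_ne_zero_of_mul hy₀'
  have hmemO : ∀ y, (MulAction.orbit P y).toFinset = O ↔ y ∈ MulAction.orbit P y₀ := by
    intro y
    rw [← hy₀.2, Set.toFinset_inj]
    exact MulAction.orbit_eq_iff
  have hsum : ∑ y with (∀ t ∈ R, t • y = y), (if y ∈ MulAction.orbit P y₀ then E x' y else 0)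
      ≠ 0 := by
    intro h0
    apply hO
    have h2 : ∀ y ∈ (Finset.univ.filter fun y : X => ∀ t ∈ R, t • y = y).filter
        (fun y => (MulAction.orbit P y).toFinset = O), E x' y * v y = E x' y * v y₀ := by
      intro y hy
      rw [Finset.mem_filter, hmemO] at hy
      obtain ⟨g, rfl⟩ := hy.2
      rw [hvinv]
    rw [Finset.sum_congr rfl h2, ← Finset.sum_mul]
    rw [← Finset.sum_filter] at h0
    have h3 : (Finset.univ.filter fun y : X => ∀ t ∈ R, t • y = y).filter
        (fun y => (MulAction.orbit P y).toFinset = O) =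
        (Finset.univ.filter fun y : X => ∀ t ∈ R, t • y = y).filter
        (fun y => y ∈ MulAction.orbit P y₀) := by
      refine Finset.filter_congr fun y _ => ?_
      exact hmemO y
    rw [h3, h0, zero_mul]
  refine ⟨x', y₀, hE₀, (hmax' y₀ hy₀.1 hvy₀).symm, ?_⟩
  intro w hw hEw
  by_contra hw0
  let W : Submodule k (X → k) :=
    { carrier := {w | (∀ y, y ∉ MulAction.orbit P y₀ → w y = 0) ∧ E.mulVec w = 0}
      add_mem' := by
        rintro a b ⟨ha, ha'⟩ ⟨hb, hb'⟩
        refine ⟨fun y hy => ?_, ?_⟩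
        · rw [Pi.add_apply, ha y hy, hb y hy, add_zero]
        · rw [Matrix.mulVec_add, ha', hb', add_zero]
      zero_mem' := ⟨fun _ _ => rfl, Matrix.mulVec_zero E⟩
      smul_mem' := by
        rintro c a ⟨ha, ha'⟩
        refine ⟨fun y hy => ?_, ?_⟩
        · rw [Pi.smul_apply, ha y hy, smul_zero]
        · rw [Matrix.mulVec_smul, ha', smul_zero] }
  obtain ⟨w₀, ⟨hw₁, hw₂⟩, hw₃, hw₄⟩ := Lib.PGroupFixedVector.exists_mem_ne_zero_fixed_rep hP
    (permRep k P X) W (by
      rintro g a ⟨ha, ha'⟩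
      refine ⟨fun y hy => ?_, ?_⟩
      · rw [permRep_apply]
        refine ha _ fun hy' => hy ?_
        have := MulAction.mem_orbit_of_mem_orbit g hy'
        rwa [smul_inv_smul] at this
      · rw [mulVec_permRep hE, ha', map_zero]) (by
      intro h0
      exact hw0 ((Submodule.eq_bot_iff W).mp h0 w ⟨hw, hEw⟩))
  have hwinv : ∀ (g : P) (x : X), w₀ (g • x) = w₀ x := by
    intro g x
    have := congrFun (hw₄ g⁻¹) x
    rw [permRep_apply, inv_inv] at this
    exact this
  have hc : w₀ y₀ ≠ 0 := by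
    intro h0
    apply hw₃
    funext y
    by_cases hy : y ∈ MulAction.orbit P y₀
    · obtain ⟨g, rfl⟩ := hy
      rw [hwinv, h0]
      rfl
    · exact hw₁ y hy
  have h5 : ∑ y with (∀ t ∈ R, t • y = y), E x' y * w₀ y = 0 := by
    rw [← sum_eq_sum_fixed R hRp (fun y => E x' y * w₀ y) fun t ht y => ?_]
    · exact congrFun hw₂ x'
    · rw [hwinv, ← hE t x' y, show t • x' = x' from ht]
  apply hsum
  have h6 : ∀ y, E x' y * w₀ y = (if y ∈ MulAction.orbit P y₀ then E x' y else 0) * w₀ y₀ := by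
    intro y
    by_cases hy : y ∈ MulAction.orbit P y₀
    · rw [if_pos hy]
      obtain ⟨g, rfl⟩ := hy
      rw [hwinv]
    · rw [if_neg hy, hw₁ y hy, mul_zero, zero_mul]
  rw [Finset.sum_congr rfl fun y _ => h6 y, ← Finset.sum_mul] at h5
  exact (mul_eq_zero.mp h5).resolve_right hc

/-- Extension by zero from a subset. -/
noncomputable def ext0 (k : Type*) [Field k] (O : Set X) : (O → k) →ₗ[k] (X → k) :=
  Function.ExtendByZero.linearMap k (Subtype.val : O → X)

theorem ext0_mem (O : Set X) (w : O → k) (x : O) : ext0 k O w (x : X) = w x :=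
  Function.Injective.extend_apply Subtype.val_injective w (0 : X → k) x

theorem ext0_notMem (O : Set X) (w : O → k) {x : X} (hx : x ∉ O) : ext0 k O w x = 0 := by
  refine Function.extend_apply' w (0 : X → k) x ?_
  rintro ⟨y, rfl⟩
  exact hx y.2

theorem card_orbit_mul (y₀ : X) : Nat.card (MulAction.orbit P y₀) *
    Nat.card (MulAction.stabilizer P y₀) = Nat.card P := by
  classical
  have := Fintype.ofFinite P
  rw [Nat.card_eq_fintype_card, Nat.card_eq_fintype_card, Nat.card_eq_fintype_card]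
  exact MulAction.card_orbit_mul_card_stabilizer_eq_card_group P y₀

theorem exists_conj_le [DecidableEq X] (hP : IsPGroup p P) {E : Matrix X X k} (hE : Equi P E)
    (hEE : E * E = E) {N : ℕ}
    (hbound : ∀ (T : Subgroup P) (v : X → k) (x : X), E.mulVec v = v →
      (∀ t ∈ T, ∀ y, v (t • y) = v y) → (∀ t ∈ T, t • x = x) → v x ≠ 0 → Nat.card T ≤ N)
    (hrank : E.rank * N ≤ Nat.card P) {T₀ : Subgroup P} (hT₀ : Nat.card T₀ = N)
    {v₀ : X → k} {x₀ : X} (hv₀ : E.mulVec v₀ = v₀) (hv₀T : ∀ t ∈ T₀, ∀ y, v₀ (t • y) = v₀ y)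
    (hx₀ : ∀ t ∈ T₀, t • x₀ = x₀) (hvx₀ : v₀ x₀ ≠ 0)
    {T : Subgroup P} {v : X → k} {x : X} (hv : E.mulVec v = v)
    (hvT : ∀ t ∈ T, ∀ y, v (t • y) = v y) (hx : ∀ t ∈ T, t • x = x) (hvx : v x ≠ 0) :
    ∃ g : P, ∀ t ∈ T, g⁻¹ * t * g ∈ T₀ := by
  classical
  have hE0 : E ≠ 0 := by
    rintro rfl
    rw [Matrix.zero_mulVec] at hv₀
    rw [← hv₀] at hvx₀
    exact hvx₀ rfl
  obtain ⟨x', y₀, hne, hstab, hinj⟩ := exists_orbit hP hE hEE hE0
  let R := MulAction.stabilizer P y₀
  have hRN : Nat.card R ≤ N := by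
    refine hbound R (E.mulVec (Pi.single y₀ 1)) x' ?_ ?_ ?_ ?_
    · rw [Matrix.mulVec_mulVec, hEE]
    · intro t ht y
      rw [Matrix.mulVec_single_one]
      show E (t • y) y₀ = E y y₀
      conv_lhs => rw [← show t • y₀ = y₀ from ht]
      exact hE t y y₀
    · intro t ht
      have ht' : t ∈ MulAction.stabilizer P x' := hstab ▸ ht
      exact ht'
    · rw [Matrix.mulVec_single_one]
      exact hne
  let O := MulAction.orbit P y₀
  have hcardO : Nat.card O * Nat.card R = Nat.card P := card_orbit_mul y₀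
  let Ψ : (O → k) →ₗ[k] (X → k) := E.mulVecLin ∘ₗ ext0 k O
  have hΨinj : Function.Injective Ψ := by
    rw [← LinearMap.ker_eq_bot, LinearMap.ker_eq_bot']
    intro w hw
    have h1 : ext0 k O w = 0 := by
      refine hinj _ (fun y hy => ext0_notMem O w hy) ?_
      exact hw
    funext y
    rw [← ext0_mem O w y, h1]
    rfl
  have hle : LinearMap.range Ψ ≤ LinearMap.range E.mulVecLin := by
    rintro _ ⟨w, rfl⟩
    exact ⟨_, rfl⟩
  have hRpos : 0 < Nat.card R := Nat.card_pos
  have hfin : E.rank ≤ Nat.card O := by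
    have h1 : E.rank * Nat.card R ≤ Nat.card O * Nat.card R := by
      rw [hcardO]
      exact (Nat.mul_le_mul_left _ hRN).trans hrank
    exact Nat.le_of_mul_le_mul_right h1 hRpos
  have hrange : LinearMap.range Ψ = LinearMap.range E.mulVecLin := by
    refine Submodule.eq_of_le_of_finrank_le hle ?_
    rw [LinearMap.finrank_range_of_inj hΨinj, Module.finrank_fintype_fun_eq_card,
      ← Nat.card_eq_fintype_card]
    exact hfin
  -- every fixed vector of the summand not vanishing at a fixed point sees a point of the orbit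
  have key : ∀ (T : Subgroup P) (v : X → k) (x : X), E.mulVec v = v →
      (∀ t ∈ T, ∀ y, v (t • y) = v y) → (∀ t ∈ T, t • x = x) → v x ≠ 0 →
      ∃ y ∈ O, ∀ t ∈ T, t • y = y := by
    intro T v x hv hvT hx hvx
    by_contra hcon
    push Not at hcon
    have h1 : v ∈ LinearMap.range Ψ := by
      rw [hrange]
      exact ⟨v, hv⟩
    obtain ⟨w', hw'⟩ := h1
    set w := ext0 k O w' with hw
    have hEw : E.mulVec w = v := hw'
    have hwO : ∀ y, y ∉ O → w y = 0 := fun y hy => ext0_notMem O w' hy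
    have hwT : ∀ t ∈ T, ∀ y, w (t • y) = w y := by
      intro t ht y
      have h2 : permRep k P X t⁻¹ w - w = 0 := by
        refine hinj _ (fun z hz => ?_) ?_
        · rw [Pi.sub_apply, permRep_apply, inv_inv, hwO z hz, hwO (t • z), sub_zero]
          intro hz'
          apply hz
          have := MulAction.mem_orbit_of_mem_orbit t⁻¹ hz'
          rwa [inv_smul_smul] at this
        · rw [Matrix.mulVec_sub, mulVec_permRep hE, hEw]
          funext z
          rw [Pi.sub_apply, permRep_apply, inv_inv, hvT t ht z, sub_self]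
          rfl
      have h3 := congrFun h2 y
      rw [Pi.sub_apply, permRep_apply, inv_inv] at h3
      exact sub_eq_zero.mp h3
    apply hvx
    rw [← hEw, Matrix.mulVec, dotProduct, sum_eq_sum_fixed T (hP.to_subgroup T) _ fun t ht y => ?_]
    · refine Finset.sum_eq_zero fun y hy => ?_
      rw [Finset.mem_filter] at hy
      rw [hwO y, mul_zero]
      intro hyO
      obtain ⟨t, ht, hne⟩ := hcon y hyO
      exact hne (hy.2 t ht)
    · rw [hwT t ht]
      conv_lhs => rw [← hx t ht]
      rw [hE]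
  obtain ⟨y₁, ⟨g₁, rfl⟩, hy₁'⟩ := key T₀ v₀ x₀ hv₀ hv₀T hx₀ hvx₀
  obtain ⟨y₂, ⟨g₂, rfl⟩, hy₂'⟩ := key T v x hv hvT hx hvx
  have hstab₁ : MulAction.stabilizer P (g₁ • y₀) = T₀ := by
    refine (Subgroup.eq_of_le_of_card_ge (fun t ht => hy₁' t ht) ?_).symm
    have h1 := card_orbit_mul (P := P) (g₁ • y₀)
    have h2 : MulAction.orbit P (g₁ • y₀) = O :=
      MulAction.orbit_eq_iff.mpr (MulAction.mem_orbit y₀ g₁)
    rw [h2, ← hcardO] at h1
    have : Nonempty O := ⟨⟨y₀, MulAction.mem_orbit_self y₀⟩⟩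
    have h3 := Nat.eq_of_mul_eq_mul_left (Nat.card_pos (α := O)) h1
    rw [h3, hT₀]
    exact hRN
  refine ⟨g₂ * g₁⁻¹, fun t ht => ?_⟩
  rw [← hstab₁, MulAction.mem_stabilizer_iff]
  have h1 := hy₂' t ht
  simp only [mul_inv_rev, inv_inv, mul_smul, inv_smul_smul]
  simp only at h1
  rw [h1, inv_smul_smul]

end Cfsg.Agent.H646.PermModule
end

-- part: H646/TwoSided
section
/-!
# The block algebra as a module for `S × S`

`S` is a `p`-subgroup of `G`, `S × S` acts on `G` by `(s, t) • g = s g t⁻¹`.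

* `isPGroup_prod`, `equi_convK`;
* `card_le_of_fixed`: a subgroup `T` of `S × S` with a `T`-fixed vector of `K[G] b` not vanishing
  at some `T`-fixed point of `G` has order at most the order of a defect group.
-/

set_option autoImplicit false
set_option linter.unusedSectionVars false

namespace Cfsg.Agent.H646.TwoSided

open Cfsg
open Cfsg.Agent.Blocks.Local Cfsg.Agent.H644

variable {G : Type*} [Group G]

/-- The two-sided action. -/
@[reducible] def twoSided (S : Subgroup G) : MulAction (S × S) G where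
  smul st g := (st.1 : G) * g * (st.2 : G)⁻¹
  one_smul g := by
    show ((1 : S) : G) * g * ((1 : S) : G)⁻¹ = g
    simp
  mul_smul a b g := by
    show ((a.1 * b.1 : S) : G) * g * ((a.2 * b.2 : S) : G)⁻¹ =
      (a.1 : G) * ((b.1 : G) * g * (b.2 : G)⁻¹) * (a.2 : G)⁻¹
    push_cast
    group

theorem twoSided_smul (S : Subgroup G) (st : S × S) (g : G) :
    letI := twoSided S
    st • g = (st.1 : G) * g * (st.2 : G)⁻¹ := rfl

theorem isPGroup_prod {p : ℕ} {S : Subgroup G} (hS : IsPGroup p S) : IsPGroup p (S × S) := by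
  rintro ⟨s, t⟩
  obtain ⟨m, hm⟩ := hS s
  obtain ⟨n, hn⟩ := hS t
  refine ⟨m + n, ?_⟩
  rw [Prod.pow_mk, pow_add]
  refine Prod.ext ?_ ?_
  · show s ^ (p ^ m * p ^ n) = 1
    rw [pow_mul, hm, one_pow]
  · show t ^ (p ^ m * p ^ n) = 1
    rw [mul_comm, pow_mul, hn, one_pow]

variable [Fintype G] {p : ℕ} {M : Ideal AlgInt} [M.IsPrime]

theorem equi_convK (S : Subgroup G) {u : MonoidAlgebra (ResField M) G} (hu : IsCls u) :
    letI := twoSided S
    PermModule.Equi (S × S) (RankIdem.convK u) := by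
  letI := twoSided S
  intro g x y
  rw [RankIdem.convK_apply, RankIdem.convK_apply, twoSided_smul, twoSided_smul,
    ← hu (y⁻¹ * x) (g.2 : G)]
  congr 1
  group

theorem isInv_emb_centralizer {k : Type*} [Field k] (Q : Subgroup G)
    (y : MonoidAlgebra k (Subgroup.centralizer (Q : Set G))) : IsInv Q (emb _ y) := by
  intro u hu g
  by_cases hg : g ∈ Subgroup.centralizer (Q : Set G)
  · have h1 : u * g = g * u := Subgroup.mem_centralizer_iff.mp hg u hu
    rw [h1, mul_inv_cancel_right]
  · rw [coeff_emb_of_notMem _ hg, coeff_emb_of_notMem]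
    intro h
    apply hg
    rw [Subgroup.mem_centralizer_iff] at h ⊢
    have h0 := h u hu
    have h1 : g * u = u * g := by
      have h2 : u * (u * g * u⁻¹) = u * g * u⁻¹ * u := h0
      rw [inv_mul_cancel_right] at h2
      have h3 : u * g * u⁻¹ = g := mul_left_cancel h2
      rw [mul_inv_eq_iff_eq_mul] at h3
      exact h3.symm
    have h4 : u * g * u⁻¹ = g := by rw [← h1, mul_inv_cancel_right]
    rw [h4] at h
    exact h

/-- Subgroups of `S × S` seen by the block algebra are at most as large as a defect group. -/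
theorem card_le_of_fixed [Fact p.Prime] (hM : IsPModular p M) {B : Set (IrrCharacter G)}
    (hB : IsPBlock M B) {D : Subgroup G} (hD : IsDefectGroup p M B D) {S : Subgroup G}
    (hS : IsPGroup p S) (T : Subgroup (S × S)) (v : G → ResField M) (x : G)
    (hv : (RankIdem.convK (idem M B)).mulVec v = v)
    (hvT : ∀ t ∈ T, ∀ y : G, v ((t.1 : G) * y * (t.2 : G)⁻¹) = v y)
    (hx : ∀ t ∈ T, (t.1 : G) * x * (t.2 : G)⁻¹ = x) (hvx : v x ≠ 0) :
    Nat.card T ≤ Nat.card D := by
  have := charP_resField hM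
  let f : S × S →* G := S.subtype.comp (MonoidHom.snd S S)
  let T₂ : Subgroup G := T.map f
  have hT₂p : IsPGroup p T₂ := ((isPGroup_prod hS).to_subgroup T).map f
  have hinj : Set.InjOn f (T : Set (S × S)) := by
    rintro ⟨s, t⟩ hst ⟨s', t'⟩ hst' h
    have h1 : t = t' := Subtype.ext h
    subst h1
    have h2 := hx _ hst
    have h3 := hx _ hst'
    simp only at h2 h3
    have h4 : (s : G) = s' := mul_right_cancel (mul_right_cancel (h2.trans h3.symm))
    rw [Prod.mk.injEq]
    exact ⟨Subtype.ext h4, rfl⟩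
  have hcard : Nat.card T = Nat.card T₂ := by
    refine Nat.card_congr (Equiv.ofBijective (fun t : T => (⟨f t, t, t.2, rfl⟩ : T₂)) ⟨?_, ?_⟩)
    · intro a b hab
      exact Subtype.ext (hinj a.2 b.2 (congrArg (fun z : T₂ => (z : G)) hab))
    · rintro ⟨_, t, ht, rfl⟩
      exact ⟨⟨t, ht⟩, rfl⟩
  let v' : MonoidAlgebra (ResField M) G := mkA v
  have hv' : v' * idem M B = v' := by
    refine ext_coeff fun g => ?_
    have h1 := congrFun (RankIdem.convK_mulVec (idem M B) v') g
    rw [← h1]
    exact congrFun hv g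
  let w : MonoidAlgebra (ResField M) G := MonoidAlgebra.single x⁻¹ 1 * v'
  have hwc : ∀ g, w.coeff g = v (x * g) := by
    intro g
    show (MonoidAlgebra.single x⁻¹ 1 * v').coeff g = _
    rw [MonoidAlgebra.coeff_single_mul_apply, one_mul, inv_inv]
    rfl
  have hw : w * idem M B = w := by
    show MonoidAlgebra.single x⁻¹ 1 * v' * idem M B = MonoidAlgebra.single x⁻¹ 1 * v'
    rw [mul_assoc, hv']
  have hwinv : IsInv T₂ w := by
    rintro _ ⟨t, ht, rfl⟩ g
    rw [hwc, hwc]
    have h1 := hx t ht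
    have h2 : x * (t.2 : G) = t.1 * x := by
      rw [mul_inv_eq_iff_eq_mul] at h1
      exact h1.symm
    rw [← hvT t ht (x * g)]
    congr 1
    show x * ((t.2 : G) * g * (t.2 : G)⁻¹) = _
    rw [← mul_assoc, ← mul_assoc, h2]
    group
  have hbinv : IsInv T₂ (idem M B) := isInv_of_isCls (isCls_idem B) _
  have hbr : br T₂ (idem M B) ≠ 0 := by
    intro h0
    have h1 := br_mul (p := p) hT₂p hwinv hbinv
    rw [hw, h0, mul_zero] at h1
    have h2 := congrArg (fun z => z.coeff 1) h1
    simp only [coeff_br, MonoidAlgebra.coeff_zero, Finsupp.zero_apply, Subgroup.coe_one, hwc,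
      mul_one] at h2
    exact hvx h2
  obtain ⟨D', hD', hle⟩ := (br_idem_ne_zero_iff hM hB hT₂p).mp hbr
  obtain ⟨t, ht⟩ := exists_conj_of_isDefectGroup hM hB hD hD'
  rw [hcard]
  refine (Subgroup.card_le_of_le hle).trans ?_
  rw [← ht]
  exact Nat.le_of_dvd Nat.card_pos (Subgroup.card_map_dvd _ _)

end Cfsg.Agent.H646.TwoSided
end

-- part: S4647
section
set_option autoImplicit false
open Cfsg

namespace Cfsg.Agent.S4647

/-- Let B be a block of the finite group G relative to a maximal ideal M of the algebraic integers containing the prime p, p^a the p-part of the order of G and p^d the order of a defect group D of B. If Σ_{χ ∈ B} χ(1)² = p^(2a−d) (the least possible value), then B is nilpotent. -/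
theorem result {G : Type*} [Group G] [Finite G] (p : ℕ) [Fact p.Prime] (M : Ideal Cfsg.AlgInt) (hM : Cfsg.IsPModular p M) (B : Set (Cfsg.IrrCharacter G)) (hB : Cfsg.IsPBlock M B) (D : Subgroup G) (hD : Cfsg.IsDefectGroup p M B D) (a d : ℕ) (ha : (Nat.card G).factorization p = a) (hd : Nat.card D = p ^ d) (hmin : ∑ᶠ χ ∈ B, Cfsg.charDegree (χ : G → ℂ) ^ 2 = p ^ (2 * a - d)) : Cfsg.IsNilpotentBlock p M B := by
  classical
  have hprime : M.IsPrime := hM.2.1.isPrime
  have := Agent.Blocks.Local.charP_resField hM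
  have := Fintype.ofFinite G
  refine ⟨hB, fun Q e hQe x hxQ _ hxreg => ?_⟩
  have hQp : IsPGroup p Q := hQe.1.1
  obtain ⟨S, hQS⟩ := hQp.exists_le_sylow
  letI := H646.TwoSided.twoSided (S : Subgroup G)
  have hSp := H646.TwoSided.isPGroup_prod S.2
  -- a defect group inside `S`
  obtain ⟨S', hS'⟩ := (Blocks.Basic.isPGroup_of_isDefectGroup hD).exists_le_sylow
  obtain ⟨g₀, hg₀⟩ := MulAction.exists_smul_eq G S' S
  have hg₀' : ((S' : Subgroup G)).map (MulAut.conj g₀).toMonoidHom = (S : Subgroup G) := by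
    rw [← hg₀]
    rfl
  let D₀ : Subgroup G := D.map (MulAut.conj g₀).toMonoidHom
  have hD₀ : IsDefectGroup p M B D₀ := Blocks.Basic.isDefectGroup_conj hD g₀
  have hD₀S : D₀ ≤ (S : Subgroup G) := by
    rw [← hg₀']
    exact Subgroup.map_mono hS'
  have hcardD₀ : Nat.card D₀ = Nat.card D := by
    refine (Nat.card_congr (Subgroup.equivMapOfInjective D _ ?_).toEquiv).symm
    exact (MulAut.conj g₀).injective
  have hcardS : Nat.card S = p ^ a := by rw [S.card_eq_multiplicity, ha]
  have hda : d ≤ a := by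
    have h1 := Subgroup.card_dvd_of_le hD₀S
    rw [hcardD₀, hd, hcardS] at h1
    exact (Nat.pow_dvd_pow_iff_le_right (Fact.out : p.Prime).one_lt).mp h1
  let E := H646.RankIdem.convK (H644.idem M B)
  have hcls : H644.IsCls (H644.idem M B) := H644.isCls_idem B
  have hE := H646.TwoSided.equi_convK (S : Subgroup G) hcls
  have hbb := H644.idem_mul_self hM (H644.isUnion_of_isPBlock hB)
  have hEE : E * E = E := by
    rw [H646.RankIdem.convK_mul, hbb]
  have hrank : E.rank * Nat.card D ≤ Nat.card (S × S) := by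
    rw [H646.RankIdem.rank_convK_idem hM (H644.isUnion_of_isPBlock hB), hmin, hd, Nat.card_prod,
      hcardS, ← pow_add, ← pow_add]
    refine le_of_eq ?_
    congr 1
    omega
  -- the diagonal copy of the defect group
  let T₀ : Subgroup (S × S) := (D₀.subgroupOf S).map (MonoidHom.prod (MonoidHom.id S) (MonoidHom.id S))
  have hT₀ : Nat.card T₀ = Nat.card D := by
    rw [← hcardD₀]
    have h1 : Function.Injective (MonoidHom.prod (MonoidHom.id S) (MonoidHom.id S)) := by
      intro a b hab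
      exact congrArg Prod.fst hab
    rw [← Nat.card_congr (Subgroup.equivMapOfInjective (D₀.subgroupOf S) _ h1).toEquiv]
    exact Nat.card_congr (Subgroup.subgroupOfEquivOfLe hD₀S).toEquiv
  have hT₀mem : ∀ t ∈ T₀, ∃ u ∈ D₀, (t.1 : G) = u ∧ (t.2 : G) = u := by
    rintro _ ⟨u, hu, rfl⟩
    exact ⟨u, hu, rfl, rfl⟩
  have hD₀p := Blocks.Basic.isPGroup_of_isDefectGroup hD₀
  obtain ⟨x₀, hx₀⟩ : ∃ x₀ : Subgroup.centralizer (D₀ : Set G), (H644.idem M B).coeff x₀ ≠ 0 := by
    have h1 := (H644.br_idem_ne_zero_iff hM hB hD₀p).mpr ⟨D₀, hD₀, le_refl _⟩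
    by_contra hcon
    push Not at hcon
    apply h1
    refine H644.ext_coeff fun g => ?_
    rw [H644.coeff_br, hcon g]
    rfl
  have hv₀ : E.mulVec (fun g => (H644.idem M B).coeff g) = fun g => (H644.idem M B).coeff g := by
    rw [H646.RankIdem.convK_mulVec, hbb]
  -- the twisted diagonal copy of `Q`
  have hxmem : ∀ u ∈ Q, x * u * x⁻¹ ∈ Q := fun u hu => (Subgroup.mem_normalizer_iff.mp hxQ u).mp hu
  let f : Q →* S × S := MonoidHom.prod
    { toFun := fun u => ⟨x * u * x⁻¹, hQS (hxmem u u.2)⟩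
      map_one' := Subtype.ext (by simp)
      map_mul' := fun u v => Subtype.ext (by push_cast; group) }
    (Subgroup.inclusion hQS)
  let T : Subgroup (S × S) := f.range
  let w : MonoidAlgebra (Blocks.Local.ResField M) G :=
    H644.emb _ (H644.idem M e) * H644.idem M B
  have hwinv : H644.IsInv Q w := H644.isInv_mul (H646.TwoSided.isInv_emb_centralizer Q _)
    (H644.isInv_of_isCls hcls _)
  have hwb : w * H644.idem M B = w := by
    show H644.emb _ (H644.idem M e) * H644.idem M B * H644.idem M B = _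
    rw [mul_assoc, hbb]
  obtain ⟨c, hc⟩ : ∃ c : Subgroup.centralizer (Q : Set G), w.coeff c ≠ 0 := by
    by_contra hcon
    push Not at hcon
    have h1 : H644.br Q w = 0 := by
      refine H644.ext_coeff fun g => ?_
      rw [H644.coeff_br, hcon g]
      rfl
    have h2 : H644.br Q w = H644.idem M e * H644.br Q (H644.idem M B) := by
      show H644.br Q (H644.emb _ (H644.idem M e) * H644.idem M B) = _
      rw [H644.br_mul (p := p) hQp (H646.TwoSided.isInv_emb_centralizer Q _)
        (H644.isInv_of_isCls hcls _)]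
      congr 1
      exact H644.res_emb _ _
    rw [h1] at h2
    have h3 := (H644.isBrauerPairOf_iff hM).mp hQe
    obtain ⟨ξ, hξ⟩ := Blocks.Basic.isPBlock_nonempty h3.1.2
    have h4 := congrArg (H644.lam M (ξ : Subgroup.centralizer (Q : Set G) → ℂ)) h2
    rw [H644.lam_mul ξ (H644.isCls_idem _) (H644.isCls_br_of_isCls hcls), h3.2.2 ξ hξ,
      H644.lam_idem_of_mem hM (H644.isUnion_of_isPBlock h3.1.2) hξ, map_zero, mul_one] at h4
    exact zero_ne_one h4
  let wx : MonoidAlgebra (Blocks.Local.ResField M) G := MonoidAlgebra.single x 1 * w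
  have hwxc : ∀ g, wx.coeff g = w.coeff (x⁻¹ * g) := by
    intro g
    show (MonoidAlgebra.single x 1 * w).coeff g = _
    rw [MonoidAlgebra.coeff_single_mul_apply, one_mul]
  have hv : E.mulVec (fun g => wx.coeff g) = fun g => wx.coeff g := by
    rw [H646.RankIdem.convK_mulVec]
    have : wx * H644.idem M B = wx := by
      show MonoidAlgebra.single x 1 * w * H644.idem M B = _
      rw [mul_assoc, hwb]
    rw [this]
  obtain ⟨g, hg⟩ := H646.PermModule.exists_conj_le (p := p) hSp hE hEE
    (fun T v y hv hvT hy hvy => H646.TwoSided.card_le_of_fixed hM hB hD S.2 T v y hv hvT hy hvy)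
    hrank hT₀ hv₀ (x₀ := (x₀ : G)) (by
      intro t ht y
      obtain ⟨u, hu, h1, h2⟩ := hT₀mem t ht
      rw [H646.TwoSided.twoSided_smul, h1, h2]
      exact hcls y u) (by
      intro t ht
      obtain ⟨u, hu, h1, h2⟩ := hT₀mem t ht
      rw [H646.TwoSided.twoSided_smul, h1, h2, Subgroup.mem_centralizer_iff.mp x₀.2 u hu,
        mul_inv_cancel_right]) hx₀ (T := T) (x := x * (c : G)) hv (by
      rintro _ ⟨u, rfl⟩ y
      rw [H646.TwoSided.twoSided_smul]
      show wx.coeff (x * u * x⁻¹ * y * (u : G)⁻¹) = wx.coeff y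
      rw [hwxc, hwxc, ← hwinv u u.2 (x⁻¹ * y)]
      congr 1
      group) (by
      rintro _ ⟨u, rfl⟩
      rw [H646.TwoSided.twoSided_smul]
      show x * u * x⁻¹ * (x * c) * (u : G)⁻¹ = x * c
      have h1 := Subgroup.mem_centralizer_iff.mp c.2 u u.2
      calc x * u * x⁻¹ * (x * c) * (u : G)⁻¹ = x * (u * c) * (u : G)⁻¹ := by group
        _ = x * c := by rw [h1]; group) (by
      rw [hwxc, inv_mul_cancel_left]
      exact hc)
  -- conjugation by `x` on `Q` is conjugation by an element of `S`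
  obtain ⟨s, t⟩ := g
  have hconj : ∀ u ∈ Q, x * u * x⁻¹ = ((s * t⁻¹ : S) : G) * u * ((s * t⁻¹ : S) : G)⁻¹ := by
    intro u hu
    obtain ⟨u', hu', h1, h2⟩ := hT₀mem _ (hg (f ⟨u, hu⟩) ⟨⟨u, hu⟩, rfl⟩)
    have h3 : (s : G)⁻¹ * (x * u * x⁻¹) * s = u' := h1
    have h4 : (t : G)⁻¹ * u * t = u' := h2
    rw [← h4] at h3
    calc x * u * x⁻¹ = s * ((s : G)⁻¹ * (x * u * x⁻¹) * s) * (s : G)⁻¹ := by group
      _ = s * ((t : G)⁻¹ * u * t) * (s : G)⁻¹ := by rw [h3]
      _ = _ := by push_cast; group
  have hpow : ∀ n : ℕ, ∀ u ∈ Q, x ^ n * u * (x ^ n)⁻¹ =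
      ((s * t⁻¹ : S) : G) ^ n * u * (((s * t⁻¹ : S) : G) ^ n)⁻¹ := by
    intro n
    induction n with
    | zero => intro u _; simp
    | succ n ih =>
      intro u hu
      have h1 := ih _ (hxmem u hu)
      calc x ^ (n + 1) * u * (x ^ (n + 1))⁻¹ = x ^ n * (x * u * x⁻¹) * (x ^ n)⁻¹ := by
            rw [pow_succ]; group
        _ = ((s * t⁻¹ : S) : G) ^ n * (x * u * x⁻¹) * (((s * t⁻¹ : S) : G) ^ n)⁻¹ := h1
        _ = _ := by rw [hconj u hu, pow_succ]; group
  obtain ⟨n, hn⟩ := S.2 (s * t⁻¹)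
  have hn' : ((s * t⁻¹ : S) : G) ^ p ^ n = 1 := by
    rw [← Subgroup.coe_pow, hn, Subgroup.coe_one]
  have hxn : x ^ p ^ n ∈ Subgroup.centralizer (Q : Set G) := by
    rw [Subgroup.mem_centralizer_iff]
    intro u hu
    have h1 := hpow (p ^ n) u hu
    rw [hn', one_mul, inv_one, mul_one, mul_inv_eq_iff_eq_mul] at h1
    exact h1.symm
  have hcop : (orderOf x).Coprime (p ^ n) :=
    Nat.Coprime.pow_right n ((Nat.Prime.coprime_iff_not_dvd Fact.out).2 hxreg).symm
  obtain ⟨m, hm⟩ := exists_pow_eq_self_of_coprime hcop.symm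
  rw [← hm]
  exact Subgroup.pow_mem _ hxn m

end Cfsg.Agent.S4647
end
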