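import Mathlib
import Cfsg.Prelude.Def_Blocks
import Cfsg.Prelude.Def_BlockRank
import Cfsg.Agent.H646.RankTrace
import Cfsg.Agent.H662.IrrTransport
import Cfsg.Agent.Blocks.CentralizerSum
import Cfsg.Agent.Blocks.PPart
import Cfsg.Agent.S0919
import Cfsg.Statements.S4651
set_option linter.all false

-- part: H643/ChainComb
section
/-!
# Alternating sums over chains of `p`-subgroups

For a finite group `G` and functions of the stabilizer `stab s = ⋂ N_G(Q)` (`Q ∈ s`) of a chain `s` of
nontrivial `p`-subgroups: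

* `sum_chains_eq_sum_normalChains`: the alternating sum over all nonempty chains equals the one over
  the normal chains (every member normal in the largest one);
* `sum_chains_eq_single`: if `f (stab s)` vanishes unless the `p`-element `u ≠ 1` lies in `stab s`, and
  only depends on `stab s ⊓ C(u)`, then the alternating sum over all nonempty chains is the
  contribution `f (N_G(⟨u⟩))` of the chain `{⟨u⟩}`.
-/

set_option autoImplicit false

namespace Cfsg.Agent.H643.ChainComb

open Classical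

section Toggle

variable {α : Type*}

/-- Remove `R` from `s` or add it. -/
noncomputable def toggle (s : Finset α) (R : α) : Finset α :=
  if R ∈ s then s.erase R else insert R s

theorem toggle_of_mem {s : Finset α} {R : α} (h : R ∈ s) : toggle s R = s.erase R := if_pos h

theorem toggle_of_notMem {s : Finset α} {R : α} (h : R ∉ s) : toggle s R = insert R s := if_neg h

theorem toggle_toggle (s : Finset α) (R : α) : toggle (toggle s R) R = s := by
  by_cases h : R ∈ s
  · rw [toggle_of_mem h, toggle_of_notMem (Finset.notMem_erase R s), Finset.insert_erase h]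
  · rw [toggle_of_notMem h, toggle_of_mem (Finset.mem_insert_self R s), Finset.erase_insert h]

theorem toggle_ne (s : Finset α) (R : α) : toggle s R ≠ s := by
  by_cases h : R ∈ s
  · rw [toggle_of_mem h]
    intro h'
    exact Finset.notMem_erase R s (h'.symm ▸ h)
  · rw [toggle_of_notMem h]
    intro h'
    exact h (h' ▸ Finset.mem_insert_self R s)

theorem mem_toggle_of_ne {s : Finset α} {R x : α} (h : x ≠ R) : x ∈ toggle s R ↔ x ∈ s := by
  by_cases hR : R ∈ s
  · rw [toggle_of_mem hR, Finset.mem_erase]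
    exact ⟨fun h' => h'.2, fun h' => ⟨h, h'⟩⟩
  · rw [toggle_of_notMem hR, Finset.mem_insert]
    exact ⟨fun h' => h'.resolve_left h, Or.inr⟩

theorem sign_toggle {s : Finset α} {R : α} (h1 : s.Nonempty) (h2 : (toggle s R).Nonempty) :
    (-1 : ℂ) ^ ((toggle s R).card - 1) = - (-1 : ℂ) ^ (s.card - 1) := by
  have hs := Finset.card_pos.2 h1
  have ht := Finset.card_pos.2 h2
  by_cases h : R ∈ s
  · rw [toggle_of_mem h] at ht ⊢
    have h3 := Finset.card_erase_of_mem h
    obtain ⟨k, hk⟩ : ∃ k, s.card = k + 2 := ⟨s.card - 2, by omega⟩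
    rw [h3, hk]
    have e1 : k + 2 - 1 - 1 = k := by omega
    have e2 : k + 2 - 1 = k + 1 := by omega
    rw [e1, e2, pow_succ]
    ring
  · rw [toggle_of_notMem h, Finset.card_insert_of_notMem h]
    obtain ⟨k, hk⟩ : ∃ k, s.card = k + 1 := ⟨s.card - 1, by omega⟩
    rw [hk]
    have e1 : k + 1 + 1 - 1 = k + 1 := by omega
    have e2 : k + 1 - 1 = k := by omega
    rw [e1, e2, pow_succ]
    ring

end Toggle

variable {G : Type*} [Group G]

/-- `s` is a chain of nontrivial `p`-subgroups. -/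
def IsCh (p : ℕ) (s : Finset (Subgroup G)) : Prop :=
  (∀ Q ∈ s, ∀ R ∈ s, Q ≤ R ∨ R ≤ Q) ∧ ∀ Q ∈ s, Q ≠ ⊥ ∧ IsPGroup p Q

/-- The stabilizer of a chain. -/
def stab (s : Finset (Subgroup G)) : Subgroup G := ⨅ Q ∈ s, Subgroup.normalizer (Q : Set G)

theorem mem_stab {s : Finset (Subgroup G)} {g : G} :
    g ∈ stab s ↔ ∀ Q ∈ s, g ∈ Subgroup.normalizer (Q : Set G) := by
  unfold stab
  simp only [Subgroup.mem_iInf]

/-- The member `T` does not normalize some smaller member. -/
def Bad (s : Finset (Subgroup G)) (T : Subgroup G) : Prop :=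
  ∃ Q ∈ s, Q ≤ T ∧ ¬ T ≤ Subgroup.normalizer (Q : Set G)

/-- `T` is the smallest bad member of `s` and `R` is the subgroup of `T` normalizing all the members of
`s` below `T`. -/
def IsData (s : Finset (Subgroup G)) (T R : Subgroup G) : Prop :=
  T ∈ s ∧ Bad s T ∧ (∀ T' ∈ s, T' < T → ¬ Bad s T') ∧
    R = T ⊓ ⨅ Q ∈ s.filter (· < T), Subgroup.normalizer (Q : Set G)

theorem mem_data {s : Finset (Subgroup G)} {T R : Subgroup G} (h : IsData s T R) {g : G} :
    g ∈ R ↔ g ∈ T ∧ ∀ Q ∈ s, Q < T → g ∈ Subgroup.normalizer (Q : Set G) := by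
  rw [h.2.2.2, Subgroup.mem_inf]
  simp only [Subgroup.mem_iInf, Finset.mem_filter, and_imp]

theorem exists_isData {s : Finset (Subgroup G)}
    (hb : ∃ T ∈ s, Bad s T) : ∃ T R, IsData s T R := by
  obtain ⟨T0, hT0, hT0b⟩ := hb
  have hne : (s.filter (Bad s)).Nonempty := ⟨T0, Finset.mem_filter.2 ⟨hT0, hT0b⟩⟩
  obtain ⟨T, hT⟩ := Finset.exists_minimal hne
  refine ⟨T, _, (Finset.mem_filter.1 hT.1).1, (Finset.mem_filter.1 hT.1).2, ?_, rfl⟩
  intro T' hT' hlt hbad
  exact absurd (hT.2 (Finset.mem_filter.2 ⟨hT', hbad⟩) hlt.le) hlt.not_ge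

theorem isData_unique {p : ℕ} {s : Finset (Subgroup G)} (hs : IsCh p s) {T R T' R' : Subgroup G}
    (h : IsData s T R) (h' : IsData s T' R') : R = R' := by
  have hT : T = T' := by
    rcases hs.1 T h.1 T' h'.1 with h1 | h1
    · rcases h1.eq_or_lt with h2 | h2
      · exact h2
      · exact absurd h.2.1 (h'.2.2.1 T h.1 h2)
    · rcases h1.eq_or_lt with h2 | h2
      · exact h2.symm
      · exact absurd h'.2.1 (h.2.2.1 T' h'.1 h2)
  subst hT
  rw [h.2.2.2, h'.2.2.2]

section Data

variable {p : ℕ} {s : Finset (Subgroup G)} {T R : Subgroup G}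

theorem data_le (h : IsData s T R) : R ≤ T := fun _ hg => ((mem_data h).1 hg).1

theorem data_le_normalizer (h : IsData s T R) {Q : Subgroup G} (hQ : Q ∈ s) (hQT : Q < T) :
    R ≤ Subgroup.normalizer (Q : Set G) := fun _ hg => ((mem_data h).1 hg).2 Q hQ hQT

theorem exists_below (h : IsData s T R) : ∃ Q ∈ s, Q < T ∧ ¬ T ≤ Subgroup.normalizer (Q : Set G) := by
  obtain ⟨Q, hQ, hQT, hN⟩ := h.2.1
  refine ⟨Q, hQ, lt_of_le_of_ne hQT ?_, hN⟩
  rintro rfl
  exact hN Subgroup.le_normalizer

theorem data_ne (h : IsData s T R) : R ≠ T := by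
  rintro rfl
  obtain ⟨Q, hQ, hQT, hN⟩ := exists_below h
  exact hN (data_le_normalizer h hQ hQT)

theorem data_lt (h : IsData s T R) : R < T := lt_of_le_of_ne (data_le h) (data_ne h)

/-- The members below `T` lie in `R`. -/
theorem le_data (hs : IsCh p s) (h : IsData s T R) {Q : Subgroup G} (hQ : Q ∈ s) (hQT : Q < T) :
    Q ≤ R := by
  intro g hg
  refine (mem_data h).2 ⟨hQT.le hg, fun Q' hQ' hQT' => ?_⟩
  rcases hs.1 Q hQ Q' hQ' with h1 | h1
  · exact Subgroup.le_normalizer (h1 hg)
  · by_contra h2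
    exact h.2.2.1 Q hQ hQT ⟨Q', hQ', h1, fun h3 => h2 (h3 hg)⟩

theorem le_or_ge_data (hs : IsCh p s) (h : IsData s T R) {Q : Subgroup G} (hQ : Q ∈ s) :
    (Q < T ∧ Q ≤ R) ∨ (T ≤ Q ∧ R < Q) := by
  rcases hs.1 Q hQ T h.1 with h1 | h1
  · rcases h1.eq_or_lt with h2 | h2
    · exact Or.inr ⟨h2.ge, h2 ▸ data_lt h⟩
    · exact Or.inl ⟨h2, le_data hs h hQ h2⟩
  · exact Or.inr ⟨h1, (data_lt h).trans_le h1⟩

theorem data_ne_bot (hs : IsCh p s) (h : IsData s T R) : R ≠ ⊥ := by
  obtain ⟨Q, hQ, hQT, -⟩ := exists_below h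
  intro hR
  have := le_data hs h hQ hQT
  rw [hR, le_bot_iff] at this
  exact (hs.2 Q hQ).1 this

theorem data_isPGroup (hs : IsCh p s) (h : IsData s T R) : IsPGroup p R :=
  IsPGroup.of_injective (hs.2 T h.1).2 (Subgroup.inclusion (data_le h))
    (Subgroup.inclusion_injective _)

/-- `s` with `R` added is a chain with the same data. -/
theorem isCh_insert (hs : IsCh p s) (h : IsData s T R) : IsCh p (insert R s) := by
  constructor
  · intro Q hQ Q' hQ'
    rcases Finset.mem_insert.1 hQ with e1 | hQ1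
    · rcases Finset.mem_insert.1 hQ' with e2 | hQ1'
      · exact Or.inl (e1.trans e2.symm).le
      · rcases le_or_ge_data hs h hQ1' with h1 | h1
        · exact Or.inr (e1 ▸ h1.2)
        · exact Or.inl (e1 ▸ h1.2.le)
    · rcases Finset.mem_insert.1 hQ' with e2 | hQ1'
      · rcases le_or_ge_data hs h hQ1 with h1 | h1
        · exact Or.inl (e2 ▸ h1.2)
        · exact Or.inr (e2 ▸ h1.2.le)
      · exact hs.1 Q hQ1 Q' hQ1'
  · intro Q hQ
    rcases Finset.mem_insert.1 hQ with rfl | hQ
    · exact ⟨data_ne_bot hs h, data_isPGroup hs h⟩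
    · exact hs.2 Q hQ

theorem isData_insert (hs : IsCh p s) (h : IsData s T R) : IsData (insert R s) T R := by
  refine ⟨Finset.mem_insert_of_mem h.1, ?_, ?_, ?_⟩
  · obtain ⟨Q, hQ, hQT, hN⟩ := h.2.1
    exact ⟨Q, Finset.mem_insert_of_mem hQ, hQT, hN⟩
  · intro T' hT' hlt hbad
    obtain ⟨Q, hQ, hQT', hN⟩ := hbad
    rcases Finset.mem_insert.1 hT' with e1 | hT1
    · rcases Finset.mem_insert.1 hQ with e2 | hQ1
      · apply hN
        rw [e1, e2]
        exact Subgroup.le_normalizer
      · apply hN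
        rw [e1]
        exact data_le_normalizer h hQ1 (hQT'.trans_lt hlt)
    · rcases Finset.mem_insert.1 hQ with e2 | hQ1
      · have h1 : T' = Q := le_antisymm (e2 ▸ le_data hs h hT1 hlt) hQT'
        apply hN
        rw [h1]
        exact Subgroup.le_normalizer
      · exact h.2.2.1 T' hT1 hlt ⟨Q, hQ1, hQT', hN⟩
  · ext g
    rw [Subgroup.mem_inf]
    simp only [Subgroup.mem_iInf, Finset.mem_filter, and_imp, Finset.mem_insert, forall_eq_or_imp]
    rw [mem_data h]
    constructor
    · rintro ⟨h1, h2⟩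
      exact ⟨h1, fun _ => Subgroup.le_normalizer ((mem_data h).2 ⟨h1, h2⟩), h2⟩
    · rintro ⟨h1, -, h2⟩
      exact ⟨h1, h2⟩

theorem isCh_erase (hs : IsCh p s) (R : Subgroup G) : IsCh p (s.erase R) :=
  ⟨fun Q hQ Q' hQ' => hs.1 Q (Finset.mem_of_mem_erase hQ) Q' (Finset.mem_of_mem_erase hQ'),
    fun Q hQ => hs.2 Q (Finset.mem_of_mem_erase hQ)⟩

/-- The normalizer condition: a `p`-subgroup `R` of a finite `p`-group `W` with `W ⊓ N(R) ≤ R` is `W`. -/
theorem eq_of_normalizer [Finite G] [Fact p.Prime] {W R : Subgroup G} (hW : IsPGroup p W)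
    (hRW : R ≤ W) (h : W ⊓ Subgroup.normalizer (R : Set G) ≤ R) : R = W := by
  have hnil : Group.IsNilpotent W := hW.isNilpotent
  have hnc := Group.normalizerCondition_of_isNilpotent (G := W)
  by_contra hne
  have hlt : R.subgroupOf W < ⊤ := by
    rw [lt_top_iff_ne_top]
    intro h1
    rw [Subgroup.subgroupOf_eq_top] at h1
    exact hne (le_antisymm hRW h1)
  have h2 := hnc _ hlt
  obtain ⟨x, hx, hxR⟩ := SetLike.exists_of_lt h2
  apply hxR
  rw [Subgroup.mem_subgroupOf]
  apply h
  refine Subgroup.mem_inf.2 ⟨x.2, ?_⟩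
  rw [Subgroup.mem_normalizer_iff] at hx ⊢
  intro g
  constructor
  · intro hg
    have := (hx ⟨g, hRW hg⟩).1 hg
    exact this
  · intro hg
    have hgW : g ∈ W := by
      have h3 : (x : G) * g * (x : G)⁻¹ ∈ W := hRW hg
      have h4 := W.mul_mem (W.mul_mem (W.inv_mem x.2) h3) x.2
      simpa [mul_assoc] using h4
    exact (hx ⟨g, hgW⟩).2 hg

theorem isData_erase [Finite G] [Fact p.Prime] (hs : IsCh p s) (h : IsData s T R) :
    IsData (s.erase R) T R := by
  by_cases hRs : R ∈ s
  swap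
  · rwa [Finset.erase_eq_of_notMem hRs]
  have hTs : T ∈ s.erase R := Finset.mem_erase.2 ⟨(data_ne h).symm, h.1⟩
  set W : Subgroup G := T ⊓ ⨅ Q ∈ (s.erase R).filter (· < T), Subgroup.normalizer (Q : Set G)
    with hW
  have hWm : ∀ g, g ∈ W ↔ g ∈ T ∧ ∀ Q ∈ s, Q ≠ R → Q < T → g ∈ Subgroup.normalizer (Q : Set G) := by
    intro g
    rw [hW, Subgroup.mem_inf]
    simp only [Subgroup.mem_iInf, Finset.mem_filter, and_imp, Finset.mem_erase]
    exact ⟨fun h => ⟨h.1, fun Q h1 h2 h3 => h.2 Q h2 h1 h3⟩,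
      fun h => ⟨h.1, fun Q h1 h2 h3 => h.2 Q h2 h1 h3⟩⟩
  have hWR : R = W := by
    refine eq_of_normalizer (p := p) ?_ ?_ ?_
    · exact IsPGroup.of_injective (hs.2 T h.1).2
        (Subgroup.inclusion (show W ≤ T from fun g hg => ((hWm g).1 hg).1))
        (Subgroup.inclusion_injective _)
    · intro g hg
      have h1 := (mem_data h).1 hg
      exact (hWm g).2 ⟨h1.1, fun Q hQ _ hQT => h1.2 Q hQ hQT⟩
    · intro g hg
      rw [mem_data h]
      have h1 := (hWm g).1 hg.1
      refine ⟨h1.1, fun Q hQ hQT => ?_⟩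
      by_cases hQR : Q = R
      · subst hQR
        exact hg.2
      · exact h1.2 Q hQ hQR hQT
  refine ⟨hTs, ?_, ?_, hWR⟩
  · by_contra hnb
    apply data_ne h
    rw [hWR]
    refine le_antisymm (fun g hg => ((hWm g).1 hg).1) fun g hg => (hWm g).2 ⟨hg, ?_⟩
    intro Q hQ hQR hQT
    by_contra h3
    exact hnb ⟨Q, Finset.mem_erase.2 ⟨hQR, hQ⟩, hQT.le, fun h4 => h3 (h4 hg)⟩
  · rintro T' hT' hlt ⟨Q, hQ, h1, h2⟩
    exact h.2.2.1 T' (Finset.mem_of_mem_erase hT') hlt
      ⟨Q, Finset.mem_of_mem_erase hQ, h1, h2⟩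

theorem isCh_toggle (hs : IsCh p s) (h : IsData s T R) : IsCh p (toggle s R) := by
  by_cases hR : R ∈ s
  · rw [toggle_of_mem hR]; exact isCh_erase hs R
  · rw [toggle_of_notMem hR]; exact isCh_insert hs h

theorem isData_toggle [Finite G] [Fact p.Prime] (hs : IsCh p s) (h : IsData s T R) :
    IsData (toggle s R) T R := by
  by_cases hR : R ∈ s
  · rw [toggle_of_mem hR]; exact isData_erase hs h
  · rw [toggle_of_notMem hR]; exact isData_insert hs h

end Data

theorem mem_normalizer_iff_conj {Q : Subgroup G} {g : G} :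
    g ∈ Subgroup.normalizer (Q : Set G) ↔ ∀ x, x ∈ Q ↔ g * x * g⁻¹ ∈ Q :=
  Subgroup.mem_normalizer_iff

/-- The elements normalizing `Q` normalize its normalizer. -/
theorem mem_normalizer_normalizer {Q : Subgroup G} {g : G}
    (hg : g ∈ Subgroup.normalizer (Q : Set G)) (x : G) :
    x ∈ Subgroup.normalizer (Q : Set G) ↔ g * x * g⁻¹ ∈ Subgroup.normalizer (Q : Set G) := by
  constructor
  · intro hx
    exact Subgroup.mul_mem _ (Subgroup.mul_mem _ hg hx) (Subgroup.inv_mem _ hg)
  · intro hx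
    have := Subgroup.mul_mem _ (Subgroup.mul_mem _ (Subgroup.inv_mem _ hg) hx) hg
    simpa [mul_assoc] using this

theorem stab_insert (s : Finset (Subgroup G)) (R : Subgroup G)
    (h : ∀ g ∈ stab s, g ∈ Subgroup.normalizer (R : Set G)) : stab (insert R s) = stab s := by
  ext g
  rw [mem_stab, mem_stab]
  simp only [Finset.mem_insert, forall_eq_or_imp]
  exact ⟨fun h1 => h1.2, fun h1 => ⟨h g (mem_stab.2 h1), h1⟩⟩

theorem data_stab {s : Finset (Subgroup G)} {T R : Subgroup G} (h : IsData s T R) :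
    ∀ g ∈ stab s, g ∈ Subgroup.normalizer (R : Set G) := by
  intro g hg
  rw [mem_stab] at hg
  rw [mem_normalizer_iff_conj]
  intro x
  rw [mem_data h, mem_data h, (mem_normalizer_iff_conj.1 (hg T h.1) x)]
  refine and_congr_right fun _ => forall_congr' fun Q => forall_congr' fun hQ =>
    forall_congr' fun _ => ?_
  exact mem_normalizer_normalizer (hg Q hQ) x

theorem stab_toggle_data [Finite G] {p : ℕ} [Fact p.Prime] {s : Finset (Subgroup G)}
    (hs : IsCh p s) {T R : Subgroup G} (h : IsData s T R) : stab (toggle s R) = stab s := by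
  by_cases hR : R ∈ s
  · have h1 := stab_insert _ R (data_stab (isData_erase hs h))
    rw [toggle_of_mem hR, ← h1, Finset.insert_erase hR]
  · rw [toggle_of_notMem hR]
    exact stab_insert s R (data_stab h)

/-- The chain is normal. -/
def IsNormalCh (s : Finset (Subgroup G)) : Prop :=
  ∃ T ∈ s, ∀ Q ∈ s, Q ≤ T ∧ T ≤ Subgroup.normalizer (Q : Set G)

theorem exists_max {p : ℕ} {s : Finset (Subgroup G)} (hs : IsCh p s) (hne : s.Nonempty) :
    ∃ T ∈ s, ∀ Q ∈ s, Q ≤ T := by
  obtain ⟨T, hT⟩ := Finset.exists_maximal hne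
  refine ⟨T, hT.1, fun Q hQ => ?_⟩
  rcases hs.1 Q hQ T hT.1 with h1 | h1
  · exact h1
  · exact hT.2 hQ h1

theorem exists_bad_iff {p : ℕ} {s : Finset (Subgroup G)} (hs : IsCh p s) (hne : s.Nonempty) :
    (∃ T ∈ s, Bad s T) ↔ ¬ IsNormalCh s := by
  constructor
  · rintro ⟨T, hT, Q, hQ, hQT, hN⟩ ⟨T', hT', h⟩
    exact hN ((h T hT).1.trans (h Q hQ).2)
  · intro h
    obtain ⟨T, hT, hmax⟩ := exists_max hs hne
    by_contra hb
    push Not at hb
    refine h ⟨T, hT, fun Q hQ => ⟨hmax Q hQ, ?_⟩⟩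
    by_contra h1
    exact hb T hT ⟨Q, hQ, hmax Q hQ, h1⟩

variable [Finite G]

noncomputable local instance instFintypeSubgroup : Fintype (Subgroup G) := Fintype.ofFinite _

/-- All nonempty chains. -/
noncomputable def chains (p : ℕ) (G : Type*) [Group G] [Finite G] : Finset (Finset (Subgroup G)) :=
  Finset.univ.filter fun s => s.Nonempty ∧ IsCh p s

theorem mem_chains {p : ℕ} {s : Finset (Subgroup G)} : s ∈ chains p G ↔ s.Nonempty ∧ IsCh p s := by
  unfold chains
  rw [Finset.mem_filter]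
  exact ⟨fun h => h.2, fun h => ⟨Finset.mem_univ _, h⟩⟩

/-- The non-normal chains cancel. -/
theorem sum_nonNormal (p : ℕ) [Fact p.Prime] (f : Subgroup G → ℂ) :
    ∑ s ∈ (chains p G).filter (fun s => ¬ IsNormalCh s), (-1 : ℂ) ^ (s.card - 1) * f (stab s) = 0 := by
  have hdata : ∀ s ∈ (chains p G).filter (fun s => ¬ IsNormalCh s), ∃ R : Subgroup G,
      ∃ T, IsData s T R := by
    intro s hs
    rw [Finset.mem_filter, mem_chains] at hs
    obtain ⟨T, R, h⟩ := exists_isData ((exists_bad_iff hs.1.2 hs.1.1).2 hs.2)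
    exact ⟨R, T, h⟩
  choose! R hR using hdata
  have hmem : ∀ s ∈ (chains p G).filter (fun s => ¬ IsNormalCh s),
      toggle s (R s) ∈ (chains p G).filter (fun s => ¬ IsNormalCh s) := by
    intro s hs
    obtain ⟨T, hT⟩ := hR s hs
    rw [Finset.mem_filter, mem_chains] at hs ⊢
    have h1 := isData_toggle hs.1.2 hT
    have h2 := isCh_toggle hs.1.2 hT
    have h3 : (toggle s (R s)).Nonempty := ⟨T, h1.1⟩
    exact ⟨⟨h3, h2⟩, (exists_bad_iff h2 h3).1 ⟨T, h1.1, h1.2.1⟩⟩
  have hRR : ∀ s ∈ (chains p G).filter (fun s => ¬ IsNormalCh s), R (toggle s (R s)) = R s := by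
    intro s hs
    obtain ⟨T, hT⟩ := hR s hs
    obtain ⟨T', hT'⟩ := hR _ (hmem s hs)
    have hs' := hs
    rw [Finset.mem_filter, mem_chains] at hs'
    exact isData_unique (isCh_toggle hs'.1.2 hT) hT' (isData_toggle hs'.1.2 hT)
  refine Finset.sum_involution (fun s _ => toggle s (R s)) ?_ ?_ hmem ?_
  · intro s hs
    obtain ⟨T, hT⟩ := hR s hs
    have hs2 := hmem s hs
    rw [Finset.mem_filter, mem_chains] at hs hs2
    rw [stab_toggle_data hs.1.2 hT, sign_toggle hs.1.1 hs2.1.1]
    ring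
  · intro s _ _
    exact toggle_ne s _
  · intro s hs
    rw [hRR s hs, toggle_toggle]

/-- Only the normal chains count. -/
theorem sum_chains_eq_sum_normalChains (p : ℕ) [Fact p.Prime] (f : Subgroup G → ℂ) :
    ∑ s ∈ chains p G, (-1 : ℂ) ^ (s.card - 1) * f (stab s) =
      ∑ s ∈ (chains p G).filter IsNormalCh, (-1 : ℂ) ^ (s.card - 1) * f (stab s) := by
  rw [← Finset.sum_filter_add_sum_filter_not (chains p G) IsNormalCh, sum_nonNormal, add_zero]

section Fixed

variable {p : ℕ}

/-- The subgroup that is added or removed: the largest member not containing `u`, together with `u`. -/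
noncomputable def uR (u : G) (s : Finset (Subgroup G)) : Subgroup G :=
  (s.filter (fun Q => u ∉ Q)).sup id ⊔ Subgroup.zpowers u

omit [Finite G] in
theorem mem_uR (u : G) (s : Finset (Subgroup G)) : u ∈ uR u s :=
  (le_sup_right : Subgroup.zpowers u ≤ uR u s) (Subgroup.mem_zpowers u)

omit [Finite G] in
theorem uR_congr {u : G} {s s' : Finset (Subgroup G)}
    (h : ∀ Q, u ∉ Q → (Q ∈ s ↔ Q ∈ s')) : uR u s = uR u s' := by
  unfold uR
  congr 2
  ext Q
  rw [Finset.mem_filter, Finset.mem_filter]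
  constructor
  · rintro ⟨h1, h2⟩; exact ⟨(h Q h2).1 h1, h2⟩
  · rintro ⟨h1, h2⟩; exact ⟨(h Q h2).2 h1, h2⟩

omit [Finite G] in
theorem uR_toggle (u : G) (s : Finset (Subgroup G)) : uR u (toggle s (uR u s)) = uR u s := by
  refine uR_congr fun Q hQ => mem_toggle_of_ne ?_
  rintro rfl
  exact hQ (mem_uR u s)

omit [Finite G] in
/-- The largest member not containing `u`, or the trivial subgroup. -/
theorem sup_mem {s : Finset (Subgroup G)} (hs : IsCh p s) (u : G) :
    ((s.filter (fun Q => u ∉ Q)).sup id = ⊥ ∧ s.filter (fun Q => u ∉ Q) = ∅) ∨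
      ((s.filter (fun Q => u ∉ Q)).sup id ∈ s ∧ u ∉ (s.filter (fun Q => u ∉ Q)).sup id) := by
  rcases (s.filter (fun Q => u ∉ Q)).eq_empty_or_nonempty with h | h
  · left
    rw [h]
    exact ⟨Finset.sup_empty, rfl⟩
  · right
    obtain ⟨T, hT⟩ := Finset.exists_maximal h
    have hT1 := Finset.mem_filter.1 hT.1
    have hmax : ∀ Q ∈ s.filter (fun Q => u ∉ Q), Q ≤ T := by
      intro Q hQ
      rcases hs.1 Q (Finset.mem_filter.1 hQ).1 T hT1.1 with h1 | h1
      · exact h1
      · exact hT.2 hQ h1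
    have h2 : (s.filter (fun Q => u ∉ Q)).sup id = T :=
      le_antisymm (Finset.sup_le hmax) (Finset.le_sup (f := id) hT.1)
    rw [h2]
    exact hT1

omit [Finite G] in
theorem le_or_ge_uR {s : Finset (Subgroup G)} (hs : IsCh p s) (u : G) {Q : Subgroup G}
    (hQ : Q ∈ s) : Q ≤ uR u s ∨ uR u s ≤ Q := by
  by_cases hu : u ∈ Q
  · right
    unfold uR
    refine sup_le ?_ ((Subgroup.zpowers_le).2 hu)
    refine Finset.sup_le fun Q' hQ' => ?_
    have h1 := Finset.mem_filter.1 hQ'
    rcases hs.1 Q' h1.1 Q hQ with h2 | h2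
    · exact h2
    · exact absurd (h2 hu) h1.2
  · left
    exact (Finset.le_sup (f := id) (Finset.mem_filter.2 ⟨hQ, hu⟩)).trans le_sup_left

omit [Finite G] in
theorem uR_ne_bot {u : G} (hu : u ≠ 1) (s : Finset (Subgroup G)) : uR u s ≠ ⊥ := by
  intro h
  have := mem_uR u s
  rw [h, Subgroup.mem_bot] at this
  exact hu this

omit [Finite G] in
theorem isPGroup_uR [Fact p.Prime] {s : Finset (Subgroup G)} (hs : IsCh p s) {u : G}
    (hu : IsPGroup p (Subgroup.zpowers u)) (hus : u ∈ stab s) : IsPGroup p (uR u s) := by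
  rw [mem_stab] at hus
  unfold uR
  rcases sup_mem hs u with h | h
  · rw [h.1, bot_sup_eq]
    exact hu
  · refine IsPGroup.to_sup_of_normal_left' (hs.2 _ h.1).2 hu ?_
    exact (Subgroup.zpowers_le).2 (hus _ h.1)

omit [Finite G] in
theorem isCh_toggle_uR [Fact p.Prime] {s : Finset (Subgroup G)} (hs : IsCh p s) {u : G}
    (hu1 : u ≠ 1) (hu : IsPGroup p (Subgroup.zpowers u)) (hus : u ∈ stab s) :
    IsCh p (toggle s (uR u s)) := by
  by_cases h : uR u s ∈ s
  · rw [toggle_of_mem h]
    exact isCh_erase hs _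
  · rw [toggle_of_notMem h]
    constructor
    · intro Q hQ Q' hQ'
      rcases Finset.mem_insert.1 hQ with rfl | hQ
      · rcases Finset.mem_insert.1 hQ' with rfl | hQ'
        · exact Or.inl le_rfl
        · exact (le_or_ge_uR hs u hQ').symm
      · rcases Finset.mem_insert.1 hQ' with rfl | hQ'
        · exact le_or_ge_uR hs u hQ
        · exact hs.1 Q hQ Q' hQ'
    · intro Q hQ
      rcases Finset.mem_insert.1 hQ with rfl | hQ
      · exact ⟨uR_ne_bot hu1 s, isPGroup_uR hs hu hus⟩
      · exact hs.2 Q hQ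

omit [Finite G] in
/-- An element normalizing two subgroups normalizes their join. -/
theorem mem_normalizer_sup {A B : Subgroup G} {g : G} (hA : g ∈ Subgroup.normalizer (A : Set G))
    (hB : g ∈ Subgroup.normalizer (B : Set G)) :
    g ∈ Subgroup.normalizer ((A ⊔ B : Subgroup G) : Set G) := by
  have key : ∀ h : G, h ∈ Subgroup.normalizer (A : Set G) → h ∈ Subgroup.normalizer (B : Set G) →
      ∀ x ∈ A ⊔ B, h * x * h⁻¹ ∈ A ⊔ B := by
    intro h hA hB x hx
    have h1 : (A ⊔ B) ≤ (A ⊔ B).comap (MulAut.conj h).toMonoidHom := by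
      refine sup_le (fun a ha => ?_) (fun b hb => ?_)
      · change h * a * h⁻¹ ∈ A ⊔ B
        exact (le_sup_left : A ≤ A ⊔ B) ((mem_normalizer_iff_conj.1 hA a).1 ha)
      · change h * b * h⁻¹ ∈ A ⊔ B
        exact (le_sup_right : B ≤ A ⊔ B) ((mem_normalizer_iff_conj.1 hB b).1 hb)
    exact h1 hx
  rw [mem_normalizer_iff_conj]
  intro x
  refine ⟨key g hA hB x, fun hx => ?_⟩
  have := key g⁻¹ (Subgroup.inv_mem _ hA) (Subgroup.inv_mem _ hB) _ hx
  simpa [mul_assoc] using this

omit [Finite G] in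
theorem mem_normalizer_uR {s : Finset (Subgroup G)} (hs : IsCh p s) {u g : G}
    (hg : ∀ Q ∈ s, u ∉ Q → g ∈ Subgroup.normalizer (Q : Set G))
    (hgu : g ∈ Subgroup.centralizer ({u} : Set G)) :
    g ∈ Subgroup.normalizer ((uR u s : Subgroup G) : Set G) := by
  refine mem_normalizer_sup ?_ ?_
  · rcases sup_mem hs u with h | h
    · rw [h.1]
      rw [mem_normalizer_iff_conj]
      intro x
      rw [Subgroup.mem_bot, Subgroup.mem_bot]
      constructor
      · rintro rfl; simp
      · intro h'; simpa using h'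
    · exact hg _ h.1 h.2
  · rw [mem_normalizer_iff_conj]
    have hc : g * u * g⁻¹ = u := by
      rw [Subgroup.mem_centralizer_singleton_iff.1 hgu]; group
    have hc2 : ∀ k : ℤ, g * u ^ k * g⁻¹ = u ^ k := by
      intro k
      rw [← conj_zpow, hc]
    intro x
    constructor
    · rintro ⟨k, rfl⟩
      exact ⟨k, (hc2 k).symm⟩
    · rintro ⟨k, hk⟩
      refine ⟨k, ?_⟩
      simp only at hk ⊢
      have h1 : x = g⁻¹ * u ^ k * g := by rw [hk]; group
      rw [h1]
      have h2 := hc2 k
      calc u ^ k = g⁻¹ * (g * u ^ k * g⁻¹) * g := by group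
        _ = g⁻¹ * u ^ k * g := by rw [h2]

omit [Finite G] in
/-- Toggling does not change `stab s ⊓ C(u)`. -/
theorem stab_toggle_uR {s : Finset (Subgroup G)} (hs : IsCh p s)
    {u : G} :
    stab (toggle s (uR u s)) ⊓ Subgroup.centralizer ({u} : Set G) =
      stab s ⊓ Subgroup.centralizer ({u} : Set G) := by
  have key : ∀ g ∈ Subgroup.centralizer ({u} : Set G),
      (∀ Q ∈ s, u ∉ Q → g ∈ Subgroup.normalizer (Q : Set G)) →
      g ∈ Subgroup.normalizer ((uR u s : Subgroup G) : Set G) :=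
    fun g hg h => mem_normalizer_uR hs h hg
  ext g
  rw [Subgroup.mem_inf, Subgroup.mem_inf, mem_stab, mem_stab]
  refine and_congr_left fun hg => ?_
  constructor
  · intro h Q hQ
    by_cases hQR : Q = uR u s
    · subst hQR
      refine key g hg fun Q' hQ' huQ' => h Q' ((mem_toggle_of_ne ?_).2 hQ')
      rintro rfl
      exact huQ' (mem_uR u s)
    · exact h Q ((mem_toggle_of_ne hQR).2 hQ)
  · intro h Q hQ
    by_cases hQR : Q = uR u s
    · subst hQR
      exact key g hg fun Q' hQ' _ => h Q' hQ'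
    · exact h Q ((mem_toggle_of_ne hQR).1 hQ)

/-- The fixed-point sum. -/
theorem sum_chains_eq_single (p : ℕ) [Fact p.Prime] {u : G} (hu1 : u ≠ 1)
    (hu : IsPGroup p (Subgroup.zpowers u)) (f : Subgroup G → ℂ)
    (hf0 : ∀ H : Subgroup G, u ∉ H → f H = 0)
    (hf : ∀ H H' : Subgroup G, u ∈ H → u ∈ H' →
      H ⊓ Subgroup.centralizer ({u} : Set G) = H' ⊓ Subgroup.centralizer ({u} : Set G) →
      f H = f H') :
    ∑ s ∈ chains p G, (-1 : ℂ) ^ (s.card - 1) * f (stab s) =
      f (Subgroup.normalizer ((Subgroup.zpowers u : Subgroup G) : Set G)) := by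
  have hucc : u ∈ Subgroup.centralizer ({u} : Set G) := Subgroup.mem_centralizer_singleton_iff.2 rfl
  set s0 : Finset (Subgroup G) := {Subgroup.zpowers u} with hs0
  have hs0R : uR u s0 = Subgroup.zpowers u := by
    unfold uR
    have : s0.filter (fun Q => u ∉ Q) = ∅ := by
      rw [Finset.filter_eq_empty_iff]
      intro Q hQ
      rw [hs0, Finset.mem_singleton] at hQ
      subst hQ
      exact not_not.2 (Subgroup.mem_zpowers u)
    rw [this, Finset.sup_empty, bot_sup_eq]
  have hRe : uR u (∅ : Finset (Subgroup G)) = Subgroup.zpowers u := by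
    unfold uR
    rw [Finset.filter_empty, Finset.sup_empty, bot_sup_eq]
  have hstab0 : stab s0 = Subgroup.normalizer ((Subgroup.zpowers u : Subgroup G) : Set G) := by
    ext g
    rw [mem_stab, hs0]
    simp
  have hzb : Subgroup.zpowers u ≠ ⊥ := by
    intro h
    exact hu1 (Subgroup.zpowers_eq_bot.1 h)
  have hs0mem : s0 ∈ chains p G := by
    rw [mem_chains]
    refine ⟨Finset.singleton_nonempty _, ?_, ?_⟩
    · intro Q hQ R hR
      rw [hs0, Finset.mem_singleton] at hQ hR
      subst hQ; subst hR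
      exact Or.inl le_rfl
    · intro Q hQ
      rw [hs0, Finset.mem_singleton] at hQ
      subst hQ
      exact ⟨hzb, hu⟩
  rw [← Finset.sum_filter_add_sum_filter_not (chains p G) (fun s => u ∈ stab s)]
  have hz : ∑ s ∈ (chains p G).filter (fun s => ¬ u ∈ stab s),
      (-1 : ℂ) ^ (s.card - 1) * f (stab s) = 0 := by
    refine Finset.sum_eq_zero fun s hs => ?_
    rw [hf0 _ (Finset.mem_filter.1 hs).2, mul_zero]
  rw [hz, add_zero]
  have hs0mem' : s0 ∈ (chains p G).filter (fun s => u ∈ stab s) := by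
    rw [Finset.mem_filter]
    refine ⟨hs0mem, ?_⟩
    rw [hstab0]
    exact Subgroup.le_normalizer (Subgroup.mem_zpowers u)
  rw [← Finset.add_sum_erase _ _ hs0mem']
  have hcard : (-1 : ℂ) ^ (s0.card - 1) * f (stab s0) =
      f (Subgroup.normalizer ((Subgroup.zpowers u : Subgroup G) : Set G)) := by
    rw [hstab0, hs0, Finset.card_singleton]
    simp
  rw [hcard]
  have hrest : ∑ s ∈ ((chains p G).filter (fun s => u ∈ stab s)).erase s0,
      (-1 : ℂ) ^ (s.card - 1) * f (stab s) = 0 := by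
    have hmem : ∀ s ∈ ((chains p G).filter (fun s => u ∈ stab s)).erase s0,
        toggle s (uR u s) ∈ ((chains p G).filter (fun s => u ∈ stab s)).erase s0 := by
      intro s hs
      rw [Finset.mem_erase, Finset.mem_filter, mem_chains] at hs ⊢
      obtain ⟨h1, ⟨h2, h3⟩, h4⟩ := hs
      refine ⟨?_, ⟨?_, ?_⟩, ?_⟩
      · intro h5
        have h6 : uR u s = Subgroup.zpowers u := by
          rw [← uR_toggle, h5, hs0R]
        have h7 := toggle_toggle s (uR u s)
        rw [h5, h6, toggle_of_mem (Finset.mem_singleton_self _), Finset.erase_singleton] at h7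
        rw [← h7] at h2
        exact Finset.not_nonempty_empty h2
      · rw [Finset.nonempty_iff_ne_empty]
        intro h5
        have h6 : uR u s = Subgroup.zpowers u := by
          rw [← uR_toggle, h5, hRe]
        have h7 := toggle_toggle s (uR u s)
        rw [h5, h6, toggle_of_notMem (Finset.notMem_empty _)] at h7
        exact h1 h7.symm
      · exact isCh_toggle_uR h3 hu1 hu h4
      · have h5 : u ∈ stab (toggle s (uR u s)) ⊓ Subgroup.centralizer ({u} : Set G) := by
          rw [stab_toggle_uR h3]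
          exact ⟨h4, hucc⟩
        exact h5.1
    refine Finset.sum_involution (fun s _ => toggle s (uR u s)) ?_ ?_ hmem ?_
    · intro s hs
      have hs2 := hmem s hs
      rw [Finset.mem_erase, Finset.mem_filter, mem_chains] at hs hs2
      rw [sign_toggle hs.2.1.1 hs2.2.1.1,
        hf _ _ hs2.2.2 hs.2.2 (stab_toggle_uR hs.2.1.2)]
      ring
    · intro s _ _
      exact toggle_ne s _
    · intro s _
      change toggle (toggle s (uR u s)) (uR u (toggle s (uR u s))) = s
      rw [uR_toggle, toggle_toggle]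
  rw [hrest, add_zero]

end Fixed

end Cfsg.Agent.H643.ChainComb
end

-- part: H643/ChainSum
section
/-!
# Alternating sums of `k(B) - l(B)` over chains of `p`-subgroups

* `card_mul_diff`: `#H * (k(S) - l(S))` is the sum of `∑_{χ ∈ S} |χ(x)|²` over the elements `x` of order
  divisible by `p`, for a union `S` of blocks of `H`;
* `val_section`: for `u ∈ H` a `p`-element and `y ∈ C_H(u)` `p`-regular, the sum of `|χ(u y)|²` over the
  characters of `H` in blocks inducing `b` is the sum of `|ψ(y)|²` over the characters of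
  `C_H(u)` in blocks inducing `b` (second main theorem and transitivity of block induction);
* `main`: the alternating sum formula (S4651).
-/

set_option autoImplicit false

open Cfsg

namespace Cfsg.Agent.H643.ChainSum

open Cfsg.Agent.Blocks.Basic Cfsg.Agent.Blocks.Local
open Cfsg.Agent.H646.RegInner Cfsg.Agent.H646.RankTrace
open Cfsg.Agent.H643.ChainComb
open scoped ComplexConjugate

/-! ### The rank of a union of blocks -/

section Rank

variable {G : Type*} [Group G] {p : ℕ} {M : Ideal AlgInt}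

/-- `S` is a union of blocks. -/
def IsUnionB (M : Ideal AlgInt) (S : Set (IrrCharacter G)) : Prop :=
  ∀ χ ∈ S, ∀ ψ : IrrCharacter G, SameBlock M (χ : G → ℂ) (ψ : G → ℂ) → ψ ∈ S

theorem isUnionB_of_isPBlock [M.IsPrime] {B : Set (IrrCharacter G)} (hB : IsPBlock M B) :
    IsUnionB M B := by
  intro χ hχ ψ h
  exact isPBlock_mem_of_sameBlock hB hχ h

variable [Fintype G]

open Classical in
theorem pRegularPart_eq_sum_union [M.IsPrime] (hM : IsPModular p M) [Fact p.Prime]
    {S : Set (IrrCharacter G)} (hS : IsUnionB M S) [Fintype (IrrCharacter G)]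
    {χ : IrrCharacter G} (hχ : χ ∈ S) :
    pRegularPart p (χ : G → ℂ) = ∑ ψ : IrrCharacter G with ψ ∈ S,
      classInner (pRegularPart p (χ : G → ℂ)) (ψ : G → ℂ) • (ψ : G → ℂ) := by
  have hcl := isClassFunction_pRegularPart (p := p) (Blocks.Basic.irr_isClassFunction χ.2)
  conv_lhs => rw [Characters.Core.classFunction_eq_sum hcl]
  rw [Finset.sum_filter]
  refine Finset.sum_congr rfl fun ψ _ => ?_
  split_ifs with h
  · rfl
  · have h2 : ψ ∉ blockOf M (χ : G → ℂ) := fun h3 => h (hS χ hχ ψ h3)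
    rw [classInner_pRegularPart_eq_zero hM (isPBlock_blockOf χ) (mem_blockOf_self χ) h2, zero_smul]

open Classical in
theorem blockRank_eq_sum_union [M.IsPrime] (hM : IsPModular p M) [Fact p.Prime]
    {S : Set (IrrCharacter G)} (hS : IsUnionB M S) [Fintype (IrrCharacter G)] :
    (blockRank p S : ℂ) = ∑ ψ : IrrCharacter G with ψ ∈ S,
      classInner (pRegularPart p (ψ : G → ℂ)) (ψ : G → ℂ) := by
  let E : (G → ℂ) →ₗ[ℂ] (G → ℂ) := ∑ ψ : IrrCharacter G with ψ ∈ S,
    (innerForm (ψ : G → ℂ)).smulRight (pRegularPart p (ψ : G → ℂ))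
  have hE : ∀ f, E f = ∑ ψ : IrrCharacter G with ψ ∈ S,
      classInner f (ψ : G → ℂ) • pRegularPart p (ψ : G → ℂ) := by
    intro f
    rw [LinearMap.sum_apply]
    rfl
  have hproj : LinearMap.IsProj (regSpan p S) E := by
    refine ⟨fun f => ?_, fun f hf => ?_⟩
    · rw [hE]
      refine Submodule.sum_mem _ fun ψ hψ => Submodule.smul_mem _ _ (pRegularPart_mem_regSpan ?_)
      simpa using hψ
    · refine Submodule.span_induction (p := fun f _ => E f = f) ?_ ?_ ?_ ?_ hf
      · rintro _ ⟨χ, hχ, rfl⟩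
        have h1 := pRegularPart_eq_sum_union hM hS hχ
        have h2 : pRegularPart p (pRegularPart p (χ : G → ℂ)) = ∑ ψ : IrrCharacter G with ψ ∈ S,
            classInner (pRegularPart p (χ : G → ℂ)) (ψ : G → ℂ) • pRegularPart p (ψ : G → ℂ) := by
          conv_lhs => rw [h1, ← regMap_apply, map_sum]
          refine Finset.sum_congr rfl fun ψ _ => ?_
          rw [map_smul, regMap_apply]
        rw [hE, ← h2, pRegularPart_pRegularPart]
      · exact map_zero E
      · intro x y _ _ hx hy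
        rw [map_add, hx, hy]
      · intro c x _ hx
        rw [map_smul, hx]
  have htr := hproj.trace
  rw [blockRank_eq_finrank, ← htr, map_sum]
  refine Finset.sum_congr rfl fun ψ _ => ?_
  rw [LinearMap.trace_smulRight, innerForm_apply]

end Rank

/-- The sum of the squared absolute values at `x` over `S`. -/
noncomputable def nrm {G : Type*} [Group G] (S : Set (IrrCharacter G)) (x : G) : ℂ :=
  ∑ᶠ χ ∈ S, (χ : G → ℂ) x * conj ((χ : G → ℂ) x)

open Classical in
/-- `#G * (k(S) - l(S))` as a sum over the elements of order divisible by `p`. -/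
theorem card_mul_diff {G : Type*} [Group G] [Fintype G] {p : ℕ} {M : Ideal AlgInt}
    (hM : IsPModular p M) [Fact p.Prime] {S : Set (IrrCharacter G)} (hS : IsUnionB M S) :
    (Nat.card G : ℂ) * ((Nat.card S : ℂ) - (blockRank p S : ℂ)) =
      ∑ x : G with p ∣ orderOf x, nrm S x := by
  have := isPrime_of_isPModular hM
  have hfin : Finite (IrrCharacter G) := Characters.Core.finite_irr
  have := Fintype.ofFinite (IrrCharacter G)
  have hne : (Nat.card G : ℂ) ≠ 0 := by exact_mod_cast Nat.card_pos.ne'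
  have hn : ∀ x : G, nrm S x = ∑ χ : IrrCharacter G with χ ∈ S,
      (χ : G → ℂ) x * conj ((χ : G → ℂ) x) := by
    intro x
    unfold nrm
    rw [finsum_mem_eq_toFinset_sum]
    refine Finset.sum_congr ?_ fun _ _ => rfl
    ext; simp
  have h1 : (Nat.card G : ℂ) * (Nat.card S : ℂ) = ∑ x : G, nrm S x := by
    have e1 : ∀ χ : IrrCharacter G, ∑ x : G, (χ : G → ℂ) x * conj ((χ : G → ℂ) x) =
        (Nat.card G : ℂ) := by
      intro χ
      have h := Characters.Core.classInner_irr_self χ.2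
      rw [classInner_def] at h
      field_simp at h
      exact h
    simp_rw [hn]
    rw [Finset.sum_comm, Finset.sum_congr rfl fun χ _ => e1 χ, Finset.sum_const, nsmul_eq_mul,
      mul_comm]
    congr 2
    rw [Nat.card_eq_fintype_card, Fintype.card_subtype]
  have h2 : (Nat.card G : ℂ) * (blockRank p S : ℂ) =
      ∑ x : G, if p ∣ orderOf x then 0 else nrm S x := by
    rw [blockRank_eq_sum_union hM hS, Finset.mul_sum]
    have e2 : ∀ x : G, (if p ∣ orderOf x then 0 else nrm S x) =
        ∑ χ : IrrCharacter G with χ ∈ S, pRegularPart p (χ : G → ℂ) x * conj ((χ : G → ℂ) x) := by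
      intro x
      split_ifs with hx
      · symm
        refine Finset.sum_eq_zero fun χ _ => ?_
        rw [pRegularPart_of_dvd hx, zero_mul]
      · rw [hn]
        refine Finset.sum_congr rfl fun χ _ => ?_
        rw [pRegularPart_of_not_dvd hx]
    simp_rw [e2]
    rw [Finset.sum_comm]
    refine Finset.sum_congr rfl fun χ _ => ?_
    rw [classInner_def, ← mul_assoc, mul_inv_cancel₀ hne, one_mul]
  rw [mul_sub, h1, h2, ← Finset.sum_sub_distrib, Finset.sum_filter]
  refine Finset.sum_congr rfl fun x _ => ?_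
  split_ifs <;> simp

/-! ### Characters in blocks inducing `b` -/

section Ind

variable {G : Type*} [Group G] {M : Ideal AlgInt}

/-- The irreducible characters of `H` in blocks inducing `b`. -/
def indSet (M : Ideal AlgInt) (b : Set (IrrCharacter G)) (H : Subgroup G) :
    Set (IrrCharacter H) :=
  {ψ | ∃ β : Set (IrrCharacter H), ψ ∈ β ∧ IsInducedBlock M H β b}

theorem mem_indSet_iff [M.IsPrime] {b : Set (IrrCharacter G)} {H : Subgroup G}
    {ψ : IrrCharacter H} :
    ψ ∈ indSet M b H ↔ IsInducedBlock M H (blockOf M (ψ : H → ℂ)) b := by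
  constructor
  · rintro ⟨β, hψ, hβ⟩
    rw [← isPBlock_eq_blockOf hβ.1 hψ]
    exact hβ
  · intro h
    exact ⟨_, mem_blockOf_self ψ, h⟩

theorem isUnionB_indSet [M.IsPrime] (b : Set (IrrCharacter G)) (H : Subgroup G) :
    IsUnionB M (indSet M b H) := by
  intro χ hχ ψ h
  rw [mem_indSet_iff] at hχ ⊢
  rwa [← blockOf_eq_of_sameBlock h]

open Classical in
/-- The sum of `|ψ(g)|²` over the characters of `H` in blocks inducing `b` (zero for `g ∉ H`). -/
noncomputable def val (M : Ideal AlgInt) (b : Set (IrrCharacter G)) (H : Subgroup G) (g : G) : ℂ :=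
  if h : g ∈ H then nrm (indSet M b H) ⟨g, h⟩ else 0

theorem val_of_mem {b : Set (IrrCharacter G)} {H : Subgroup G} {g : G} (h : g ∈ H) :
    val M b H g = nrm (indSet M b H) ⟨g, h⟩ := dif_pos h

theorem val_of_notMem {b : Set (IrrCharacter G)} {H : Subgroup G} {g : G} (h : g ∉ H) :
    val M b H g = 0 := dif_neg h

variable [Finite G] {p : ℕ} [Fact p.Prime]

/-- The blocks of the centralizer of a `p`-element induce. -/
theorem exists_induced (hM : IsPModular p M) {z : G} (hz : ∃ k : ℕ, orderOf z = p ^ k)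
    (ξ : IrrCharacter (Subgroup.centralizer ({z} : Set G))) :
    ∃ B : Set (IrrCharacter G),
      IsInducedBlock M (Subgroup.centralizer ({z} : Set G))
        (blockOf M (ξ : Subgroup.centralizer ({z} : Set G) → ℂ)) B := by
  have := isPrime_of_isPModular hM
  obtain ⟨k, hk⟩ := hz
  have hzH : z ∈ Subgroup.centralizer ({z} : Set G) := Subgroup.mem_centralizer_singleton_iff.2 rfl
  have hP : IsPGroup p (Subgroup.zpowers z) := by
    refine IsPGroup.of_card (n := k) ?_
    rw [Nat.card_zpowers, hk]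
  have hcent : Subgroup.centralizer ((Subgroup.zpowers z : Subgroup G) : Set G) =
      Subgroup.centralizer ({z} : Set G) := by
    ext x
    rw [Subgroup.mem_centralizer_singleton_iff]
    constructor
    · intro h
      exact (Subgroup.mem_centralizer_iff.1 h z (Subgroup.mem_zpowers z)).symm
    · intro h
      rw [Subgroup.mem_centralizer_iff]
      rintro w ⟨n, rfl⟩
      exact (show Commute z x from h.symm).zpow_left n
  exact S0919.result p M hM (Subgroup.zpowers z) _ hP
    ((Subgroup.zpowers_le).2 hzH) hcent.le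
    (by rw [← hcent]; exact Subgroup.centralizer_le_normalizer _)
    (blockOf M (ξ : Subgroup.centralizer ({z} : Set G) → ℂ)) (isPBlock_blockOf ξ)

/-- The section formula for `G` itself. -/
theorem nrm_section (hM : IsPModular p M) {b : Set (IrrCharacter G)} (hb : IsPBlock M b)
    {u y : G} (hu : ∃ k : ℕ, orderOf u = p ^ k) (hy : ¬ p ∣ orderOf y) (hc : Commute u y) :
    nrm b (u * y) = val M b (Subgroup.centralizer ({u} : Set G)) y := by
  have := isPrime_of_isPModular hM
  have hyC : y ∈ Subgroup.centralizer ({u} : Set G) :=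
    Subgroup.mem_centralizer_singleton_iff.2 hc.eq.symm
  have hy' : ¬ p ∣ orderOf (⟨y, hyC⟩ : Subgroup.centralizer ({u} : Set G)) := by
    rwa [← Subgroup.orderOf_coe]
  rw [val_of_mem hyC]
  exact Blocks.CentralizerSum.sum_section hM u hu rfl hb (A := indSet M b _)
    (fun ξ => mem_indSet_iff) ⟨y, hyC⟩ ⟨y, hyC⟩ hy' hy'

/-- The section formula for the characters of `H` in blocks inducing `b`. -/
theorem val_section (hM : IsPModular p M) {b : Set (IrrCharacter G)} {H : Subgroup G}
    {u y : G} (hu : ∃ k : ℕ, orderOf u = p ^ k) (hy : ¬ p ∣ orderOf y) (hc : Commute u y)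
    (huH : u ∈ H) (hyH : y ∈ H) :
    val M b H (u * y) = val M b (H ⊓ Subgroup.centralizer ({u} : Set G)) y := by
  have := isPrime_of_isPModular hM
  set K : Subgroup G := H ⊓ Subgroup.centralizer ({u} : Set G) with hK
  have hyC : y ∈ Subgroup.centralizer ({u} : Set G) :=
    Subgroup.mem_centralizer_singleton_iff.2 hc.eq.symm
  have hyK : y ∈ K := Subgroup.mem_inf.2 ⟨hyH, hyC⟩
  rw [val_of_mem (H.mul_mem huH hyH), val_of_mem hyK]
  -- the centralizer inside `H`
  set uH : H := ⟨u, huH⟩ with huH'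
  set Z : Subgroup H := Subgroup.centralizer ({uH} : Set H) with hZ
  have hmemZ : ∀ x : H, x ∈ Z ↔ (x : G) ∈ Subgroup.centralizer ({u} : Set G) := by
    intro x
    rw [hZ, Subgroup.mem_centralizer_singleton_iff, Subgroup.mem_centralizer_singleton_iff,
      Subtype.ext_iff]
    rfl
  let e : Z ≃* K :=
    { toFun := fun x => ⟨((x : H) : G), Subgroup.mem_inf.2 ⟨(x : H).2, (hmemZ x).1 x.2⟩⟩
      invFun := fun x => ⟨⟨(x : G), (Subgroup.mem_inf.1 x.2).1⟩,
        (hmemZ _).2 (Subgroup.mem_inf.1 x.2).2⟩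
      left_inv := fun x => rfl
      right_inv := fun x => rfl
      map_mul' := fun x y => rfl }
  have he : ∀ x : Z, ((e x : K) : G) = ((x : H) : G) := fun _ => rfl
  have huo : ∃ k : ℕ, orderOf uH = p ^ k := by
    obtain ⟨k, hk⟩ := hu
    exact ⟨k, by rw [← Subgroup.orderOf_coe]; exact hk⟩
  -- blocks of `H` inducing `b`
  set I : Set (Set (IrrCharacter H)) := {β | IsInducedBlock M H β b} with hI
  have hfin : Finite (IrrCharacter H) := Characters.Core.finite_irr
  have hfinZ : Finite (IrrCharacter Z) := Characters.Core.finite_irr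
  have hIU : indSet M b H = ⋃₀ I := by
    ext ψ
    rw [Set.mem_sUnion]
    constructor
    · rintro ⟨β, h1, h2⟩
      exact ⟨β, h2, h1⟩
    · rintro ⟨β, h1, h2⟩
      exact ⟨β, h2, h1⟩
  have hdisj : I.PairwiseDisjoint id := by
    intro β hβ β' hβ' hne
    change Disjoint β β'
    rw [Set.disjoint_left]
    intro ψ h1 h2
    exact hne (isPBlock_eq_of_mem hβ.1 hβ'.1 h1 h2)
  let A : Set (IrrCharacter H) → Set (IrrCharacter Z) := fun β =>
    {ξ | IsInducedBlock M Z (blockOf M (ξ : Z → ℂ)) β}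
  have hAdisj : I.PairwiseDisjoint A := by
    intro β hβ β' hβ' hne
    change Disjoint (A β) (A β')
    rw [Set.disjoint_left]
    intro ψ h1 h2
    exact hne (Blocks.CentralizerSum.inducedBlock_unique h1 h2)
  have hAU : H662.trB e (⋃ β ∈ I, A β) = indSet M b K := by
    ext ψ
    rw [H662.mem_trB, mem_indSet_iff, Set.mem_iUnion₂]
    have hψ : H662.trB e (blockOf M ((H662.tr e.symm ψ : IrrCharacter Z) : Z → ℂ)) =
        blockOf M (ψ : K → ℂ) := by
      rw [H662.trB_blockOf, H662.tr_tr_symm]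
    constructor
    · rintro ⟨β, hβ, h1⟩
      have h2 := H662.induced_trans e he h1 hβ
      rwa [hψ] at h2
    · intro h1
      obtain ⟨β, hβ⟩ := exists_induced hM huo (H662.tr e.symm ψ)
      rw [← hψ] at h1
      exact ⟨β, H662.induced_of_trans e he hβ h1, hβ⟩
  have hyZ : (⟨y, hyH⟩ : H) ∈ Z := (hmemZ _).2 hyC
  have hord : ¬ p ∣ orderOf (⟨⟨y, hyH⟩, hyZ⟩ : Z) := by
    rw [← Subgroup.orderOf_coe, ← Subgroup.orderOf_coe]
    exact hy
  calc nrm (indSet M b H) ⟨u * y, H.mul_mem huH hyH⟩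
      = ∑ᶠ β ∈ I, ∑ᶠ χ ∈ β, (χ : H → ℂ) ⟨u * y, H.mul_mem huH hyH⟩ *
          conj ((χ : H → ℂ) ⟨u * y, H.mul_mem huH hyH⟩) := by
        unfold nrm
        rw [hIU, finsum_mem_sUnion hdisj (Set.toFinite _) fun _ _ => Set.toFinite _]
    _ = ∑ᶠ β ∈ I, ∑ᶠ ξ ∈ A β, (ξ : Z → ℂ) ⟨⟨y, hyH⟩, hyZ⟩ *
          conj ((ξ : Z → ℂ) ⟨⟨y, hyH⟩, hyZ⟩) := by
        refine finsum_mem_congr rfl fun β hβ => ?_
        exact Blocks.CentralizerSum.sum_section hM uH huo rfl hβ.1 (A := A β)
          (fun ξ => Iff.rfl) ⟨⟨y, hyH⟩, hyZ⟩ ⟨⟨y, hyH⟩, hyZ⟩ hord hord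
    _ = ∑ᶠ ξ ∈ ⋃ β ∈ I, A β, (ξ : Z → ℂ) ⟨⟨y, hyH⟩, hyZ⟩ *
          conj ((ξ : Z → ℂ) ⟨⟨y, hyH⟩, hyZ⟩) := by
        rw [finsum_mem_biUnion hAdisj (Set.toFinite _) fun _ _ => Set.toFinite _]
    _ = nrm (indSet M b K) ⟨y, hyK⟩ := by
        unfold nrm
        rw [← hAU, H662.finsum_trB]
        rfl

end Ind

/-! ### The formula -/

section Main

variable {G : Type*} [Group G] [Finite G] {p : ℕ} [Fact p.Prime] {M : Ideal AlgInt}

open Classical in
/-- `#H * (k(b_H) - l(b_H))` as a sum over `G`. -/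
theorem card_mul_indSet [Fintype G] (hM : IsPModular p M) (b : Set (IrrCharacter G))
    (H : Subgroup G) :
    (Nat.card H : ℂ) * ((Nat.card (indSet M b H) : ℂ) - (blockRank p (indSet M b H) : ℂ)) =
      ∑ g : G with p ∣ orderOf g, val M b H g := by
  have := isPrime_of_isPModular hM
  have := Fintype.ofFinite H
  rw [card_mul_diff hM (isUnionB_indSet b H)]
  have h1 : ∀ x : H, nrm (indSet M b H) x = val M b H (x : G) := fun x => (val_of_mem x.2).symm
  simp_rw [h1]
  rw [Finset.sum_filter, Finset.sum_filter]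
  have h2 : ∀ x : H, (if p ∣ orderOf x then val M b H (x : G) else 0) =
      (fun g : G => if p ∣ orderOf g then val M b H g else 0) (x : G) := by
    intro x
    simp only [Subgroup.orderOf_coe]
  simp_rw [h2]
  have h3 : ∑ x : H, (fun g : G => if p ∣ orderOf g then val M b H g else 0) (x : G) =
      ∑ g ∈ Finset.univ.map (Function.Embedding.subtype (· ∈ H)),
        (fun g : G => if p ∣ orderOf g then val M b H g else 0) g := by
    rw [Finset.sum_map]
    rfl
  rw [h3]
  refine Finset.sum_subset (Finset.subset_univ _) fun g _ hg => ?_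
  have hgH : g ∉ H := by
    intro h
    apply hg
    rw [Finset.mem_map]
    exact ⟨⟨g, h⟩, Finset.mem_univ _, rfl⟩
  rw [val_of_notMem hgH]
  simp

/-- The contribution of one element. -/
theorem sum_chains_val (hM : IsPModular p M) {b : Set (IrrCharacter G)} (hb : IsPBlock M b)
    {g : G} (hg : p ∣ orderOf g) :
    ∑ s ∈ chains p G, (-1 : ℂ) ^ (s.card - 1) * val M b (stab s) g = nrm b g := by
  obtain ⟨u, hu⟩ := Blocks.PPart.exists_isPPart p g
  obtain ⟨n, hn⟩ := Blocks.PPart.exists_pow_eq (G := G) p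
  have hun : g ^ n = u := hn g u hu
  obtain ⟨y, rfl, hc, hup, hy⟩ := hu
  have hu1 : u ≠ 1 := by
    rintro rfl
    rw [one_mul] at hg
    exact hy hg
  have hP : IsPGroup p (Subgroup.zpowers u) := by
    obtain ⟨k, hk⟩ := hup
    refine IsPGroup.of_card (n := k) ?_
    rw [Nat.card_zpowers, hk]
  have hyC : y ∈ Subgroup.centralizer ({u} : Set G) :=
    Subgroup.mem_centralizer_singleton_iff.2 hc.eq.symm
  have hmem : ∀ H : Subgroup G, u ∈ H → (u * y ∈ H ↔ y ∈ H ⊓ Subgroup.centralizer ({u} : Set G)) := by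
    intro H hH
    rw [Subgroup.mem_inf]
    constructor
    · intro h
      refine ⟨?_, hyC⟩
      have := H.mul_mem (H.inv_mem hH) h
      rwa [inv_mul_cancel_left] at this
    · rintro ⟨h, -⟩
      exact H.mul_mem hH h
  have hval : ∀ H : Subgroup G, u ∈ H →
      val M b H (u * y) = val M b (H ⊓ Subgroup.centralizer ({u} : Set G)) y := by
    intro H hH
    by_cases h : u * y ∈ H
    · have h1 := (hmem H hH).1 h
      exact val_section hM hup hy hc hH (Subgroup.mem_inf.1 h1).1
    · rw [val_of_notMem h, val_of_notMem (fun h1 => h ((hmem H hH).2 h1))]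
  rw [sum_chains_eq_single p hu1 hP (fun H => val M b H (u * y))]
  · have hN : Subgroup.centralizer ({u} : Set G) ≤
        Subgroup.normalizer ((Subgroup.zpowers u : Subgroup G) : Set G) := by
      intro x hx
      have hxu := Subgroup.mem_centralizer_singleton_iff.1 hx
      refine Subgroup.centralizer_le_normalizer _ ?_
      rw [Subgroup.mem_centralizer_iff]
      rintro w ⟨m, rfl⟩
      exact (show Commute u x from hxu.symm).zpow_left m
    rw [hval _ (Subgroup.le_normalizer (Subgroup.mem_zpowers u)), inf_eq_right.2 hN,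
      nrm_section hM hb hup hy hc]
  · intro H hH
    refine val_of_notMem fun h => hH ?_
    rw [← hun]
    exact H.pow_mem h n
  · intro H H' hH hH' h
    rw [hval H hH, hval H' hH', h]

/-- **The alternating sum formula** (S4651). -/
theorem main (hM : IsPModular p M) {b : Set (IrrCharacter G)} (hb : IsPBlock M b) :
    (Nat.card G : ℤ) * ((Nat.card b : ℤ) - (blockRank p b : ℤ)) =
      ∑ᶠ s ∈ {s : Finset (Subgroup G) | s.Nonempty ∧ (∀ Q ∈ s, ∀ R ∈ s, Q ≤ R ∨ R ≤ Q) ∧
        (∀ Q ∈ s, Q ≠ ⊥ ∧ IsPGroup p Q) ∧ ∃ T ∈ s, ∀ Q ∈ s, Q ≤ T ∧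
          T ≤ Subgroup.normalizer ((Q : Subgroup G) : Set G)},
        (-1 : ℤ) ^ (s.card - 1) * (Nat.card (stab s) : ℤ) *
          ((Nat.card (indSet M b (stab s)) : ℤ) - (blockRank p (indSet M b (stab s)) : ℤ)) := by
  classical
  have := isPrime_of_isPModular hM
  have := Fintype.ofFinite G
  have hset : {s : Finset (Subgroup G) | s.Nonempty ∧ (∀ Q ∈ s, ∀ R ∈ s, Q ≤ R ∨ R ≤ Q) ∧
        (∀ Q ∈ s, Q ≠ ⊥ ∧ IsPGroup p Q) ∧ ∃ T ∈ s, ∀ Q ∈ s, Q ≤ T ∧
          T ≤ Subgroup.normalizer ((Q : Subgroup G) : Set G)} =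
      (((chains p G).filter IsNormalCh : Finset (Finset (Subgroup G))) :
        Set (Finset (Subgroup G))) := by
    ext s
    rw [Finset.mem_coe, Finset.mem_filter, mem_chains]
    constructor
    · rintro ⟨h1, h2, h3, h4⟩
      exact ⟨⟨h1, h2, h3⟩, h4⟩
    · rintro ⟨⟨h1, h2, h3⟩, h4⟩
      exact ⟨h1, h2, h3, h4⟩
  rw [hset, finsum_mem_coe_finset]
  apply Int.cast_injective (α := ℂ)
  have hterm : ∀ s : Finset (Subgroup G), (((-1 : ℤ) ^ (s.card - 1) * (Nat.card (stab s) : ℤ) *
          ((Nat.card (indSet M b (stab s)) : ℤ) - (blockRank p (indSet M b (stab s)) : ℤ)) : ℤ) : ℂ) =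
      (-1 : ℂ) ^ (s.card - 1) * ((fun H : Subgroup G => ∑ g : G with p ∣ orderOf g, val M b H g)
        (stab s)) := by
    intro s
    simp only
    rw [← card_mul_indSet hM b (stab s)]
    push_cast
    ring
  rw [Int.cast_sum, Finset.sum_congr rfl fun s _ => hterm s,
    ← sum_chains_eq_sum_normalChains p (fun H : Subgroup G =>
      ∑ g : G with p ∣ orderOf g, val M b H g)]
  push_cast
  rw [card_mul_diff hM (isUnionB_of_isPBlock hb)]
  simp_rw [Finset.mul_sum]
  rw [Finset.sum_comm]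
  refine Finset.sum_congr rfl fun g hg => ?_
  exact (sum_chains_val hM hb (Finset.mem_filter.1 hg).2).symm

end Main

end Cfsg.Agent.H643.ChainSum
end

-- part: S4651
section
set_option autoImplicit false
open Cfsg

namespace Cfsg.Agent.S4651

/-- An alternating-sum identity over chains of p-subgroups (the character-count form behind the chain reformulation of Alperin's weight conjecture, which holds unconditionally for the difference k − l). Let b be a block of the finite group G relative to a maximal ideal M of the algebraic integers containing the prime p. Consider the nonempty chains s = {Q_0 < Q_1 < ⋯ < Q_m} of nontrivial p-subgroups of G in which every member is normal in the largest member; let N_G(s) be the intersection of the normalizers of the members (the stabilizer of the chain), and let b_s be the set of irreducible characters of N_G(s) lying in blocks of N_G(s) that induce b. Then #G · (k(b) − l(b)) equals the sum over all such chains s of (−1)^m · #N_G(s) ·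 (k(b_s) − l(b_s)), where k counts irreducible characters and l is the p-regular rank; equivalently, k(b) − l(b) is the alternating sum of k(b_s) − l(b_s) over representatives of the conjugacy classes of such chains. -/
theorem result {G : Type*} [Group G] [Finite G] (p : ℕ) [Fact p.Prime] (M : Ideal Cfsg.AlgInt) (hM : Cfsg.IsPModular p M) (b : Set (Cfsg.IrrCharacter G)) (hb : Cfsg.IsPBlock M b) : (Nat.card G : ℤ) * ((Nat.card b : ℤ) - (Cfsg.blockRank p b : ℤ)) = ∑ᶠ s ∈ {s : Finset (Subgroup G) | s.Nonempty ∧ (∀ Q ∈ s, ∀ R ∈ s, Q ≤ R ∨ R ≤ Q) ∧ (∀ Q ∈ s, Q ≠ ⊥ ∧ IsPGroup p Q) ∧ ∃ T ∈ s, ∀ Q ∈ s, Q ≤ T ∧ T ≤ Subgroup.normalizer ((Q : Subgroup G) : Set G)}, (-1 : ℤ) ^ (s.card - 1) * (Nat.card (((⨅ Q ∈ s, Subgroup.normalizer ((Q : Subgroup G) : Set G) : Subgroup G))) : ℤ) * ((Nat.card {ψ : Cfsg.IrrCharacter (((⨅ Q ∈ s, Subgroup.normalizer ((Q : Subgroup G) : Set G) : Subgroup G))) | ∃ β : Set (Cfsg.IrrCharacter (((⨅ Q ∈ s, Subgroup.normalizer ((Q : Subgroup G) : Set G) : Subgroup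 G)))), ψ ∈ β ∧ Cfsg.IsInducedBlock M (((⨅ Q ∈ s, Subgroup.normalizer ((Q : Subgroup G) : Set G) : Subgroup G))) β b} : ℤ) - (Cfsg.blockRank p {ψ : Cfsg.IrrCharacter (((⨅ Q ∈ s, Subgroup.normalizer ((Q : Subgroup G) : Set G) : Subgroup G))) | ∃ β : Set (Cfsg.IrrCharacter (((⨅ Q ∈ s, Subgroup.normalizer ((Q : Subgroup G) : Set G) : Subgroup G)))), ψ ∈ β ∧ Cfsg.IsInducedBlock M (((⨅ Q ∈ s, Subgroup.normalizer ((Q : Subgroup G) : Set G) : Subgroup G))) β b} : ℤ)) := by
  exact Cfsg.Agent.H643.ChainSum.main hM hb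

end Cfsg.Agent.S4651
end
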