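import Cfsg.Statements.S4670
import Cfsg.Agent.H648.FirstMain
set_option linter.all false

set_option autoImplicit false
open Cfsg

namespace Cfsg.Agent.S4670

open Cfsg.Agent.H644 Cfsg.Agent.H648.FirstMain Cfsg.Agent.H648.Dict

/-- Fix a prime p and a maximal ideal M of the algebraic integers containing p. Let P be a p-subgroup of the finite group G and H a subgroup containing N_G(P). For every p-block B of G with defect group P there is exactly one p-block c of H with defect group P whose idempotent agrees with that of B, modulo the local ideal at M, at every element of C_G(P) (their Brauer-map images at P coincide); and every p-block c of H with defect group P arises in this way from exactly one such B. This is the Brauer correspondence over H. -/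
theorem result {G : Type*} [Group G] [Fintype G] (p : ℕ) [Fact p.Prime] (M : Ideal Cfsg.AlgInt) (hM : Cfsg.IsPModular p M) (P H : Subgroup G) (hP : IsPGroup p P) (hH : Subgroup.normalizer (P : Set G) ≤ H) : (∀ B : Set (Cfsg.IrrCharacter G), Cfsg.IsPBlock M B → Cfsg.IsDefectGroup p M B P → ∃! c : Set (Cfsg.IrrCharacter H), Cfsg.IsPBlock M c ∧ Cfsg.IsDefectGroup p M c (P.subgroupOf H) ∧ ∀ x : G, x ∈ Subgroup.centralizer (P : Set G) → Cfsg.MemLocalIdeal M (Cfsg.blockCoeff B x - Cfsg.subgroupBlockCoeff H c x)) ∧ (∀ c : Set (Cfsg.IrrCharacter H), Cfsg.IsPBlock M c → Cfsg.IsDefectGroup p M c (P.subgroupOf H) → ∃! B : Set (Cfsg.IrrCharacter G), Cfsg.IsPBlock M B ∧ Cfsg.IsDefectGroup p M B P ∧ ∀ x : G, x ∈ Subgroup.centralizer (P : Set G) → Cfsg.MemLocalIdeal M (Cfsg.blockCoeff B x - Cfsg.subgroupBlockCoeff H c x)) := by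
  have hMp : M.IsPrime := hM.2.1.isPrime
  have hPH : P ≤ H := Subgroup.le_normalizer.trans hH
  constructor
  · intro B hB hPB
    obtain ⟨c, hc⟩ := exists_over_of_block hM hH hB hPB
    refine ⟨c, ⟨hc.isPBlock_c, hc.defect_c, (br_eq_iff hM hB hc.isPBlock_c).1 hc.br_eq⟩, ?_⟩
    rintro c' ⟨hc', -, h⟩
    have h1 := (br_eq_iff hM hB hc').2 h
    have hne := br_idem_ne_zero hM hB hPB
    exact eq_of_br_eq hM hP hPH hc' hc.isPBlock_c (by rw [← h1]; exact hne)
      (by rw [← h1, hc.br_eq])
  · intro c hc hPc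
    obtain ⟨B, hB⟩ := exists_block_of_over hM hP hH hc hPc
    refine ⟨B, ⟨hB.isPBlock_B, hB.defect_B, (br_eq_iff hM hB.isPBlock_B hc).1 hB.br_eq⟩, ?_⟩
    rintro B' ⟨hB', hdB', h⟩
    have h1 := (br_eq_iff hM hB' hc).2 h
    exact eq_of_br_eq_top hM hP hB' hB.isPBlock_B (br_idem_ne_zero hM hB' hdB')
      (by rw [h1, hB.br_eq])

end Cfsg.Agent.S4670
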