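import Cfsg.Statements.S4674
import Cfsg.Agent.H648.HarrisKnorr
set_option linter.all false

set_option autoImplicit false
open Cfsg

namespace Cfsg.Agent.S4674

open Cfsg.Agent.H644 Cfsg.Agent.H648.FirstMain Cfsg.Agent.H648.Dict Cfsg.Agent.H648.HarrisKnorr

/-- Fix a prime p and a maximal ideal M of the algebraic integers containing p. Let N be a normal subgroup of the finite group G, Q a p-subgroup of N, H = N_G(Q) and L = H ∩ N = N_N(Q). Let d be a p-block of N with defect group Q and e the p-block of L with defect group Q that induces d inside N (its Brauer correspondent). Then block induction from H to G is a bijection from the p-blocks of H covering e onto the p-blocks of G covering d: every block of H covering e induces exactly one block of G, and that block covers d; and every block of G covering d is induced by exactly one block of H covering e. -/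
theorem result {G : Type*} [Group G] [Fintype G] (p : ℕ) [Fact p.Prime] (M : Ideal Cfsg.AlgInt) (hM : Cfsg.IsPModular p M) (N : Subgroup G) [N.Normal] [Fintype N] (Q : Subgroup G) (hQ : IsPGroup p Q) (hQN : Q ≤ N) [Fintype ↥(Subgroup.normalizer (Q : Set G) ⊓ N)] (d : Set (Cfsg.IrrCharacter N)) (hd : Cfsg.IsPBlock M d) (hdQ : Cfsg.IsDefectGroup p M d (Q.subgroupOf N)) (e : Set (Cfsg.IrrCharacter ↥(Subgroup.normalizer (Q : Set G) ⊓ N))) (he : Cfsg.IsPBlock M e) (heQ : Cfsg.IsDefectGroup p M e (Q.subgroupOf (Subgroup.normalizer (Q : Set G) ⊓ N))) (hed : Cfsg.IsInducedBlockIn M N (Subgroup.normalizer (Q : Set G) ⊓ N) e d) : (∀ c : Set (Cfsg.IrrCharacter ↥(Subgroup.normalizer (Q : Set G))), Cfsg.IsPBlock M c → (∃ ψ ∈ c, ∃ ξ ∈ e, Cfsg.classInner (fun l : ↥(Subgroup.normalizer (Q : Set G) ⊓ N) => (ψ : ↥(Subgroup.normalizer (Q : Set G)) → ℂ) (Subgroup.inclusion inf_le_left l)) (ξ : ↥(Subgroup.normalizer (Q : Set G) ⊓ N) → ℂ) ≠ 0) → ∃! B : Set (Cfsg.IrrCharacter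 G), Cfsg.IsInducedBlock M (Subgroup.normalizer (Q : Set G)) c B ∧ (∃ χ ∈ B, ∃ θ ∈ d, Cfsg.classInner (fun n : N => (χ : G → ℂ) n) (θ : N → ℂ) ≠ 0)) ∧ (∀ B : Set (Cfsg.IrrCharacter G), Cfsg.IsPBlock M B → (∃ χ ∈ B, ∃ θ ∈ d, Cfsg.classInner (fun n : N => (χ : G → ℂ) n) (θ : N → ℂ) ≠ 0) → ∃! c : Set (Cfsg.IrrCharacter ↥(Subgroup.normalizer (Q : Set G))), (Cfsg.IsPBlock M c ∧ ∃ ψ ∈ c, ∃ ξ ∈ e, Cfsg.classInner (fun l : ↥(Subgroup.normalizer (Q : Set G) ⊓ N) => (ψ : ↥(Subgroup.normalizer (Q : Set G)) → ℂ) (Subgroup.inclusion inf_le_left l)) (ξ : ↥(Subgroup.normalizer (Q : Set G) ⊓ N) → ℂ) ≠ 0) ∧ Cfsg.IsInducedBlock M (Subgroup.normalizer (Q : Set G)) c B) := by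
  classical
  have hMp : M.IsPrime := hM.2.1.isPrime
  have : Fintype ((Subgroup.normalizer (Q : Set G) ⊓ N).subgroupOf
      (Subgroup.normalizer (Q : Set G))) := Fintype.ofFinite _
  constructor
  · intro c hc hcov
    rw [coversIn_iff N (Subgroup.normalizer (Q : Set G))] at hcov
    obtain ⟨B, hB⟩ := Cfsg.Agent.S0919.result p M hM Q (Subgroup.normalizer (Q : Set G)) hQ
      Subgroup.le_normalizer (centralizer_le_normalizer Q) le_rfl c hc
    refine ⟨B, ⟨hB, covers_of_induced N _ hM hed hcov hB⟩, ?_⟩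
    rintro B' ⟨hB', -⟩
    exact isInducedBlock_unique hB' hB
  · intro B hB hcov
    obtain ⟨c, hc, hc1, hc2⟩ := exists_cover_of_covers N hM hQN hd hdQ he heQ hed hB hcov
    refine ⟨c, ⟨⟨hc, (coversIn_iff N (Subgroup.normalizer (Q : Set G))).2 hc1⟩, hc2⟩, ?_⟩
    rintro c' ⟨⟨hc', hc1'⟩, hc2'⟩
    rw [coversIn_iff N (Subgroup.normalizer (Q : Set G))] at hc1'
    exact cover_unique N hM hQN rfl he heQ hc' hc hc1' hc1 hc2' hc2

end Cfsg.Agent.S4674
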