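import Cfsg.Agent.H649.StabBlock
import Cfsg.Agent.Blocks.Deflate
import Cfsg.Agent.Blocks.CyclicUpper
import Cfsg.Agent.Classification.BGIsometry
import Cfsg.Agent.S0887
import Cfsg.Agent.S0969
import Cfsg.Statements.S4694
set_option linter.all false

-- part: H649/WeightRad
section
/-!
# Brauer pairs carrying a weight are centric and radical (S4694)
-/

set_option autoImplicit false
set_option linter.unusedSectionVars false

open Cfsg

namespace Cfsg.Agent.H649

open Cfsg.Agent.Blocks.Local
open Cfsg.Agent.Blocks.Basic (isPBlock_nonempty charDegree_of_eq irr_one_eq_charDegree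
  charDegree_pos)

universe u

variable {p : ℕ} [Fact p.Prime] {M : Ideal AlgInt}

/-- Deflation of a character constant on the cosets of a normal subgroup. -/
theorem exists_deflate {T : Type u} [Group T] [Finite T] (N : Subgroup T) [N.Normal]
    (χ : IrrCharacter T) (h : ∀ n ∈ N, ∀ t : T, (χ : T → ℂ) (n * t) = (χ : T → ℂ) t) :
    ∃ χ' : IrrCharacter (T ⧸ N), ∀ t : T, (χ : T → ℂ) t = (χ' : T ⧸ N → ℂ) (QuotientGroup.mk t) := by
  have := Fintype.ofFinite N
  obtain ⟨χ', h'⟩ := Cfsg.Agent.Blocks.Deflate.exists_deflation N χ χ.2 (by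
    have h1 : ∀ n : N, (χ : T → ℂ) n = (χ : T → ℂ) 1 := fun n => by
      have h2 := h n n.2 1
      rwa [mul_one] at h2
    rw [Finset.sum_congr rfl fun n _ => h1 n, Finset.sum_const, nsmul_eq_mul,
      irr_one_eq_charDegree χ.2]
    have h3 := charDegree_pos χ.2
    have h4 : 0 < (Finset.univ : Finset N).card := Finset.card_pos.2 ⟨1, Finset.mem_univ _⟩
    exact mul_ne_zero (Nat.cast_ne_zero.2 h4.ne') (Nat.cast_ne_zero.2 h3.ne'))
  exact ⟨χ', fun t => congrFun h' t⟩

/-- A group with an irreducible character of `p`-defect zero has trivial `p`-core. -/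
theorem pCore_eq_bot_of_defect_zero (hM : IsPModular p M) {X : Type u} [Group X] [Finite X]
    (χ : IrrCharacter X)
    (h : (charDegree (χ : X → ℂ)).factorization p = (Nat.card X).factorization p) :
    pCore p X = ⊥ := by
  have h1 := (Cfsg.Agent.S0969.result p M hM (⊥ : Subgroup X) IsPGroup.of_bot bot_le χ
    (by rw [h, Subgroup.index_bot])).1
  have hp : M.IsPrime := isPrime_of_isPModular hM
  have h2 := Cfsg.Agent.S0912.result p M hM _ ⟨χ, rfl⟩ ⊥ h1
  exact le_bot_iff.1 h2

theorem index_factorization_eq {X : Type u} [Group X] [Finite X] (H : Subgroup X) :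
    (Nat.card X).factorization p = (Nat.card H).factorization p + H.index.factorization p := by
  rw [← Subgroup.card_mul_index H, Nat.factorization_mul Nat.card_pos.ne'
    (Subgroup.index_ne_zero_of_finite)]
  rfl

/-- The constituents on a normal subgroup of a character of `p`-defect zero have `p`-defect
zero. -/
theorem factorization_constituent {X : Type u} [Group X] [Finite X] (N : Subgroup X) [N.Normal]
    [Fintype N] (χ : IrrCharacter X)
    (h : (charDegree (χ : X → ℂ)).factorization p = (Nat.card X).factorization p)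
    (θ : IrrCharacter N) (hθ : classInner (fun n : N => (χ : X → ℂ) n) (θ : N → ℂ) ≠ 0) :
    (charDegree (θ : N → ℂ)).factorization p = (Nat.card N).factorization p := by
  have := Fintype.ofFinite X
  obtain ⟨h1, h2⟩ := Cfsg.Agent.S0887.result N χ χ.2 θ θ.2 hθ _ _ (irr_one_eq_charDegree χ.2)
    (irr_one_eq_charDegree θ.2)
  have h3 : (charDegree (θ : N → ℂ)).factorization p ≤ (Nat.card N).factorization p :=
    (Nat.factorization_le_iff_dvd (charDegree_pos θ.2).ne' Nat.card_pos.ne').2
      (Cfsg.Agent.Blocks.CyclicUpper.charDegree_dvd θ.2) p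
  have h4 := (Nat.factorization_le_iff_dvd
    (Nat.div_pos (Nat.le_of_dvd (charDegree_pos χ.2) h1) (charDegree_pos θ.2)).ne'
    Subgroup.index_ne_zero_of_finite).2 h2 p
  rw [Nat.factorization_div h1, Finsupp.coe_tsub, Pi.sub_apply] at h4
  have h5 := index_factorization_eq (p := p) N
  omega

section Main

variable {G : Type u} [Group G] [Finite G] {Q : Subgroup G}
  {e : Set (IrrCharacter (Subgroup.centralizer (Q : Set G)))} {T : Subgroup G}

/-- A normal `p`-subgroup of the stabilizer lies in `Q`, if the pair carries a weight. -/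
theorem le_of_weight (hM : IsPModular p M) (hT : IsStab Q e T)
    (χ : IrrCharacter T)
    (hχQ : ∀ n ∈ Q.subgroupOf T, ∀ t : T, (χ : T → ℂ) (n * t) = (χ : T → ℂ) t)
    (hdeg : (charDegree (χ : T → ℂ)).factorization p + (Nat.card Q).factorization p =
      (Nat.card T).factorization p) {R : Subgroup G} (hRT : R ≤ T) (hR : IsPGroup p R)
    (hRn : ∀ t ∈ T, t ∈ Subgroup.normalizer (R : Set G)) : R ≤ Q := by
  have := Fintype.ofFinite G
  have hQn : (Q.subgroupOf T).Normal := hT.normal_subgroupOf
  obtain ⟨χ', hχ'⟩ := exists_deflate (Q.subgroupOf T) χ hχQ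
  have h1 : charDegree (χ' : T ⧸ Q.subgroupOf T → ℂ) = charDegree (χ : T → ℂ) := by
    rw [charDegree, charDegree, hχ' 1]
    rfl
  have h2 := index_factorization_eq (p := p) (Q.subgroupOf T)
  rw [card_subgroupOf hT.le] at h2
  have h3 : pCore p (T ⧸ Q.subgroupOf T) = ⊥ := by
    apply pCore_eq_bot_of_defect_zero hM χ'
    rw [h1]
    change _ = (Q.subgroupOf T).index.factorization p
    omega
  have h4 : (R.subgroupOf T).Normal := by
    refine ⟨fun x hx t => ?_⟩
    rw [Subgroup.mem_subgroupOf] at hx ⊢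
    exact (Subgroup.mem_normalizer_iff.1 (hRn t t.2) _).1 hx
  have h5 : ((R.subgroupOf T).map (QuotientGroup.mk' (Q.subgroupOf T))).Normal :=
    h4.map _ (QuotientGroup.mk'_surjective _)
  have h6 : IsPGroup p ((R.subgroupOf T).map (QuotientGroup.mk' (Q.subgroupOf T))) :=
    (hR.comap_of_injective T.subtype (Subgroup.subtype_injective T)).map _
  have h7 := Cfsg.Agent.Lib.Cores.le_pCore h5 h6
  rw [h3, le_bot_iff, Subgroup.map_eq_bot_iff, QuotientGroup.ker_mk'] at h7
  intro r hr
  exact h7 (show (⟨r, hRT hr⟩ : T) ∈ R.subgroupOf T from hr)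

/-- `Z(Q)` is a defect group of `e`, if the pair carries a weight. -/
theorem isDefectGroup_of_weight (hM : IsPModular p M) (hQ : IsPGroup p Q) (he : IsPBlock M e)
    (hT : IsStab Q e T) {F : Set (IrrCharacter T)}
    (hFc : ∀ t : T, blockCoeff F t =
      subgroupBlockCoeff (Subgroup.centralizer (Q : Set G)) e (t : G))
    (χ : IrrCharacter T) (hχ : χ ∈ F)
    (hχQ : ∀ n ∈ Q.subgroupOf T, ∀ t : T, (χ : T → ℂ) (n * t) = (χ : T → ℂ) t)
    (hdeg : (charDegree (χ : T → ℂ)).factorization p + (Nat.card Q).factorization p =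
      (Nat.card T).factorization p) :
    IsDefectGroup p M e ((Q ⊓ Subgroup.centralizer (Q : Set G)).subgroupOf
      (Subgroup.centralizer (Q : Set G))) := by
  classical
  have hp : M.IsPrime := isPrime_of_isPModular hM
  have := Fintype.ofFinite G
  have hQn : (Q.subgroupOf T).Normal := hT.normal_subgroupOf
  have hCn : ((Subgroup.centralizer (Q : Set G)).subgroupOf T).Normal := hT.normal_centralizer
  have := Fintype.ofFinite (Subgroup.centralizer (Q : Set G))
  obtain ⟨χ', hχ'⟩ := exists_deflate (Q.subgroupOf T) χ hχQ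
  have h1 : charDegree (χ' : T ⧸ Q.subgroupOf T → ℂ) = charDegree (χ : T → ℂ) := by
    rw [charDegree, charDegree, hχ' 1]
    rfl
  have h2 := index_factorization_eq (p := p) (Q.subgroupOf T)
  rw [card_subgroupOf hT.le] at h2
  have h3 : (charDegree (χ' : T ⧸ Q.subgroupOf T → ℂ)).factorization p =
      (Nat.card (T ⧸ Q.subgroupOf T)).factorization p := by
    rw [h1]
    change _ = (Q.subgroupOf T).index.factorization p
    omega
  -- the image of `C_G(Q)`
  let N : Subgroup (T ⧸ Q.subgroupOf T) :=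
    ((Subgroup.centralizer (Q : Set G)).subgroupOf T).map (QuotientGroup.mk' (Q.subgroupOf T))
  have hN : N.Normal := hCn.map _ (QuotientGroup.mk'_surjective _)
  have := Fintype.ofFinite N
  obtain ⟨θ', hθ'⟩ := Cfsg.Agent.Blocks.Fong.exists_constituent N χ'
  have h4 := factorization_constituent N χ' h3 θ' hθ'
  let π : Subgroup.centralizer (Q : Set G) →* N :=
    ((QuotientGroup.mk' (Q.subgroupOf T)).comp
      (Subgroup.inclusion hT.centralizer_le)).codRestrict N (fun c => ⟨_, c.2, rfl⟩)
  have hπ : Function.Surjective π := by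
    rintro ⟨_, t, ht, rfl⟩
    exact ⟨⟨(t : G), ht⟩, rfl⟩
  let θ : IrrCharacter (Subgroup.centralizer (Q : Set G)) :=
    ⟨fun c => (θ' : N → ℂ) (π c), Cfsg.Agent.Characters.Core.isIrr_comp π hπ θ'.2⟩
  have h5 : θ ∈ e := by
    refine mem_of_constituent hT hFc hχ ?_
    have h6 := Cfsg.Agent.Classification.BGIsometry.classInner_comp π hπ
      (fun n : N => (χ' : T ⧸ Q.subgroupOf T → ℂ) n) (θ' : N → ℂ)
    rw [← h6] at hθ'
    convert hθ' using 3
    exact hχ' _
  have h6 : charDegree (θ : Subgroup.centralizer (Q : Set G) → ℂ) = charDegree (θ' : N → ℂ) := by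
    rw [charDegree, charDegree]
    congr 3
  have h7 : π.ker = (Q ⊓ Subgroup.centralizer (Q : Set G)).subgroupOf
      (Subgroup.centralizer (Q : Set G)) := by
    ext c
    rw [MonoidHom.mem_ker, Subgroup.mem_subgroupOf]
    have h8 : π c = 1 ↔ ((Subgroup.inclusion hT.centralizer_le c : T) : T ⧸ Q.subgroupOf T) = 1 :=
      Subtype.ext_iff
    rw [h8, QuotientGroup.eq_one_iff, Subgroup.mem_subgroupOf]
    exact ⟨fun h => ⟨h, c.2⟩, fun h => h.1⟩
  have h8 : π.ker.index = Nat.card N := by
    rw [Subgroup.index_ker, MonoidHom.range_eq_top.2 hπ, Subgroup.card_top]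
  have h9 := (Cfsg.Agent.S0969.result p M hM ((Q ⊓ Subgroup.centralizer (Q : Set G)).subgroupOf
    (Subgroup.centralizer (Q : Set G)))
    (IsPGroup.comap_of_injective
      (H := (Q ⊓ Subgroup.centralizer (Q : Set G) : Subgroup G)) (hQ.to_inf_left)
      (Subgroup.centralizer (Q : Set G)).subtype (Subgroup.subtype_injective _)) (by
      intro z hz
      rw [Subgroup.mem_center_iff]
      intro c
      exact Subtype.ext (Subgroup.mem_centralizer_iff.1 c.2 z hz.1).symm) θ (by
      rw [← h7, h8, h6, h4])).1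
  rwa [← Cfsg.Agent.Blocks.Fong.isPBlock_eq_blockOf hp he h5] at h9

end Main

end Cfsg.Agent.H649
end

-- part: S4694
section
set_option autoImplicit false
open Cfsg

namespace Cfsg.Agent.S4694

/-- Fix a prime p and a maximal ideal M of the algebraic integers containing p, a p-block B of the finite group G and a Brauer pair (Q, e) of B. Let T be the stabilizer of e in N_G(Q) and suppose that (Q, e) carries a weight: the block of T whose idempotent is that of e contains an irreducible character χ that is constant on the cosets of Q and whose degree has p-part equal to the p-part of the index of Q in T. Then Z(Q) is a defect group of e as a block of C_G(Q), and Q is the largest normal p-subgroup of T: every p-subgroup of T normalized by T lies in Q. -/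
theorem result {G : Type*} [Group G] [Fintype G] (p : ℕ) [Fact p.Prime] (M : Ideal Cfsg.AlgInt) (hM : Cfsg.IsPModular p M) (B : Set (Cfsg.IrrCharacter G)) (Q : Subgroup G) (e : Set (Cfsg.IrrCharacter (Subgroup.centralizer (Q : Set G)))) (hQe : Cfsg.IsBrauerPairOf p M B Q e) (T : Subgroup G) (hT : ∀ y : G, y ∈ T ↔ y ∈ Subgroup.normalizer (Q : Set G) ∧ Cfsg.StabilizesBlock (Subgroup.centralizer (Q : Set G)) e y) (F' : Set (Cfsg.IrrCharacter T)) (hF' : Cfsg.IsPBlock M F') (hF'e : ∀ t : T, Cfsg.blockCoeff F' t = Cfsg.subgroupBlockCoeff (Subgroup.centralizer (Q : Set G)) e (t : G)) (χ : Cfsg.IrrCharacter T) (hχ : χ ∈ F') (hχQ : ∀ q : G, q ∈ Q → ∀ t : T, ∀ t' : T, (t' : G) = q * (t : G) → (χ : T → ℂ) t' = (χ : T → ℂ) t) (hdeg : (Cfsg.charDegree (χ : T → ℂ)).factorization p + (Nat.card Q).factorization p = (Nat.card T).factorization p) : Cfsg.IsDefectGroup p M e ((Q ⊓ Subgroup.centralizer (Q : Set G)).subgroupOf (Subgroup.centralizer (Q : Set G))) ∧ ∀ R : Subgroup G, R ≤ T → IsPGroup p R → (∀ t ∈ T, t ∈ Subgroup.normalizer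 (R : Set G)) → R ≤ Q := by
  have hT' : Cfsg.Agent.H649.IsStab Q e T := hT
  have hχQ' : ∀ n ∈ Q.subgroupOf T, ∀ t : T, (χ : T → ℂ) (n * t) = (χ : T → ℂ) t :=
    fun n hn t => hχQ n hn t (n * t) rfl
  exact ⟨Cfsg.Agent.H649.isDefectGroup_of_weight hM hQe.1.1 hQe.1.2 hT' hF'e χ hχ hχQ' hdeg,
    fun R hRT hR hRn => Cfsg.Agent.H649.le_of_weight hM hT' χ hχQ' hdeg hRT hR hRn⟩

end Cfsg.Agent.S4694
end
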