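import Cfsg.Agent.SmallSimple.BrauerTypesSetup_mg
import Cfsg.Agent.H607.BP.NonSelf
import Mathlib
import Cfsg.Prelude.Def_Characters
import Cfsg.Agent.Characters.Core
import Cfsg.Agent.SmallSimple.BrauerTypesBasic
import Cfsg.Agent.Characters.Linear
import Cfsg.Agent.SmallSimple.SelfCentPrime
import Cfsg.Agent.SmallSimple.SylowGeometryInv_mg
import Cfsg.Agent.SmallSimple.TheoremBCor
import Cfsg.Statements.S4700
import Cfsg.Agent.Lib.Cores
import Cfsg.Agent.H482.SylowNumbers
import Cfsg.Agent.H426.SL2Unrec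
set_option linter.all false

-- part: H607/BP/Types
section
/-!
Adapted from `SmallSimple.BrauerTypes`: the hypothesis `2 n < p + 3` is replaced by `NoForm p n`.
-/

set_option autoImplicit false
set_option linter.unusedSectionVars false
open Cfsg
open scoped ComplexConjugate

namespace Cfsg.Agent.H607.BP.Types

open Cfsg.Agent.Characters.Core Cfsg.Agent.SmallSimple.BrauerTypesBasic
  Cfsg.Agent.H607.BP.Arith
open Cfsg.Agent.SmallSimple.BrauerTypes (BData sum_const_off sum_linear)

universe u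

variable {G : Type u} [Group G]

section
variable [Finite G] {p n e t : ℕ} {P N : Subgroup G} [Fintype P] [Fintype N]

/-- The hypotheses on the group. -/
structure Hyp {G : Type u} [Group G] (p n e t : ℕ) (P N : Subgroup G) : Prop where
  prime : p.Prime
  le : P ≤ N
  cardP : Nat.card P = p
  cardN : Nat.card N = p * e
  cardG : Nat.card G = p * e * (1 + n * p)
  het : e * t = p - 1
  n_pos : 1 ≤ n
  hn : NoForm p n
  he : 2 ≤ e
  ti : ∀ y ∈ P, y ≠ 1 → ∀ x : G, x⁻¹ * y * x ∈ N → x ∈ N
  memP : ∀ y ∈ N, orderOf y = p → y ∈ P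
  perf : ∀ f : G →* ℂˣ, f = 1

variable (H : Hyp p n e t P N) (D : BData p P e t)
include H D

theorem t_pos : 1 ≤ t := by
  rcases Nat.eq_zero_or_pos t with h | h
  · have h1 := H.het
    have h2 := H.prime.two_le
    rw [h] at h1
    omega
  · exact h

theorem m0_NE {χ : IrrCharacter G} (hχ : χ ∈ D.NE) :
    (p : ℤ) * mult P χ = deg χ + (p - 1) * D.ε χ := by
  have h1 := mult_spec P χ
  rw [sum_const_off H.cardP (D.val_NE χ hχ), deg_spec, H.cardP] at h1
  exact_mod_cast h1.symm

theorem m0_X {χ : IrrCharacter G} (hχ : χ ∈ D.X) :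
    (p : ℤ) * mult P χ = deg χ - D.d * e := by
  classical
  have h1 := mult_spec P χ
  rw [← Finset.add_sum_erase _ _ (Finset.mem_univ (1 : P))] at h1
  have h2 : ∑ x ∈ Finset.univ.erase (1 : P), (χ : G → ℂ) x = - D.d * e := by
    have h3 : ∑ x ∈ Finset.univ.erase (1 : P), (χ : G → ℂ) x =
        ∑ x ∈ Finset.univ.erase (1 : P), (D.d : ℂ) * ∑ l ∈ D.S χ, (l x : ℂ) := by
      refine Finset.sum_congr rfl fun x hx => ?_
      exact D.val_X χ hχ x (Finset.ne_of_mem_erase hx)
    have h4 : ∑ x : P, (D.d : ℂ) * ∑ l ∈ D.S χ, (l x : ℂ) = 0 := by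
      rw [← Finset.mul_sum, Finset.sum_comm]
      rw [Finset.sum_eq_zero, mul_zero]
      intro l hl
      exact sum_linear (fun h => D.one_notMem_S χ hχ (h ▸ hl))
    rw [← Finset.add_sum_erase _ _ (Finset.mem_univ (1 : P))] at h4
    rw [h3]
    have h5 : (D.d : ℂ) * ∑ l ∈ D.S χ, ((l 1 : ℂˣ) : ℂ) = D.d * e := by
      simp only [map_one, Units.val_one, Finset.sum_const, nsmul_eq_mul, mul_one]
      rw [D.card_S χ hχ]
    rw [h5] at h4
    linear_combination h4
  rw [h2, OneMemClass.coe_one, deg_spec, H.cardP] at h1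
  have h6 : ((p : ℤ) * mult P χ : ℂ) = deg χ - D.d * e := by
    push_cast
    rw [← h1]; ring
  exact_mod_cast h6

theorem m0_rest {χ : IrrCharacter G} (h1 : χ ∉ D.NE) (h2 : χ ∉ D.X) :
    p * mult P χ = deg χ := by
  have h3 := mult_spec P χ
  rw [sum_const_off H.cardP (D.val_rest χ h1 h2), deg_spec, H.cardP, mul_zero, add_zero] at h3
  exact_mod_cast h3.symm

theorem deg_sq_le (χ : IrrCharacter G) : deg χ * deg χ ≤ p * e * (1 + n * p) := by
  have := finite_irr (G := G)
  have := Fintype.ofFinite (IrrCharacter G)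
  rw [← H.cardG, ← sum_deg_sq (G := G), ← sq]
  exact Finset.single_le_sum (f := fun χ : IrrCharacter G => deg χ ^ 2)
    (fun _ _ => Nat.zero_le _) (Finset.mem_univ χ)

theorem deg_dvd' {χ : IrrCharacter G} (h : ¬ p ∣ deg χ) : deg χ ∣ e * (1 + n * p) := by
  have h1 := deg_dvd χ
  rw [H.cardG, mul_assoc] at h1
  exact Nat.Coprime.dvd_of_dvd_mul_left
    ((Nat.Prime.coprime_iff_not_dvd H.prime).mpr h).symm h1

theorem NE_pos {χ : IrrCharacter G} (hχ : χ ∈ D.NE) (hε : D.ε χ = 1) :
    (χ = triv G ∧ mult P χ = 1) ∨ (deg χ = 1 + n * p ∧ mult P χ = n + 1) := by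
  have h1 := m0_NE H D hχ
  rw [hε, mul_one] at h1
  have hp := H.prime.two_le
  have h2 : p * mult P χ + 1 = deg χ + p := by
    have : (p : ℤ) * mult P χ + 1 = deg χ + p := by linarith
    exact_mod_cast this
  have hmod : deg χ % p = 1 := by
    have h3 : (deg χ + p) % p = (p * mult P χ + 1) % p := by rw [h2]
    rw [Nat.add_mod_right, Nat.mul_add_mod] at h3
    rw [h3]; exact Nat.mod_eq_of_lt (by omega)
  have hnd : ¬ p ∣ deg χ := by
    intro h
    rw [Nat.mod_eq_zero_of_dvd h] at hmod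
    exact absurd hmod (by norm_num)
  rcases deg_pos hp H.hn H.het hmod (deg_dvd' H D hnd) with h | h
  · left
    refine ⟨eq_triv_of_deg H.perf χ h, ?_⟩
    rw [h] at h2
    have h3 : p * mult P χ = p * 1 := by omega
    exact Nat.eq_of_mul_eq_mul_left (by omega) h3
  · right
    refine ⟨h, ?_⟩
    rw [h] at h2
    have h3 : p * mult P χ = p * (n + 1) := by
      have : 1 + n * p + p = p * (n + 1) + 1 := by ring
      omega
    exact Nat.eq_of_mul_eq_mul_left (by omega) h3

theorem NE_neg {χ : IrrCharacter G} (hχ : χ ∈ D.NE) (hε : D.ε χ = -1) :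
    deg χ = p - 1 ∧ mult P χ = 0 := by
  have h1 := m0_NE H D hχ
  rw [hε] at h1
  have hp := H.prime.two_le
  have h2 : p * mult P χ + p = deg χ + 1 := by
    have : (p : ℤ) * mult P χ + p = deg χ + 1 := by linarith
    exact_mod_cast this
  have hmod : (deg χ + 1) % p = 0 := by
    rw [← h2]; simp
  have hnd : ¬ p ∣ deg χ := by
    intro h
    have h3 : p ∣ 1 := (Nat.dvd_add_right h).mp (Nat.dvd_of_mod_eq_zero hmod)
    have := Nat.le_of_dvd (by norm_num) h3
    omega
  have h4 := deg_neg hp H.hn H.n_pos (by have := H.he; omega) H.het hmod (deg_dvd' H D hnd)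
    (deg_sq_le H D χ)
  refine ⟨h4, ?_⟩
  rw [h4] at h2
  have h5 : p * mult P χ = p * 0 := by omega
  exact Nat.eq_of_mul_eq_mul_left (by omega) h5

theorem e_lt : e < p := by
  have h1 := H.het
  have h2 := t_pos H D
  have h3 := H.prime.two_le
  have h4 : e ≤ e * t := Nat.le_mul_of_pos_right _ h2
  omega

theorem X_pos (hd : D.d = 1) {χ : IrrCharacter G} (hχ : χ ∈ D.X) :
    deg χ = e ∧ mult P χ = 0 := by
  have h1 := m0_X H D hχ
  rw [hd, one_mul] at h1
  have hp := H.prime.two_le
  have h2 : deg χ = p * mult P χ + e := by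
    have : (deg χ : ℤ) = p * mult P χ + e := by linarith
    exact_mod_cast this
  have he := H.he
  have hep := e_lt H D
  have hnd : ¬ p ∣ deg χ := by
    rw [h2]
    intro h
    have h3 := (Nat.dvd_add_right (dvd_mul_right p _)).mp h
    have := Nat.le_of_dvd (by omega) h3
    omega
  exact exc_pos hp H.hn H.n_pos (by omega) H.het h2 (deg_dvd' H D hnd) (deg_sq_le H D χ)

theorem X_neg (hd : D.d = -1) {χ : IrrCharacter G} (hχ : χ ∈ D.X) :
    deg χ * t = 1 + n * p ∧ mult P χ * t = n + 1 := by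
  have h1 := m0_X H D hχ
  rw [hd] at h1
  have hp := H.prime.two_le
  have h2 : deg χ + e = p * mult P χ := by
    have : (deg χ : ℤ) + e = p * mult P χ := by linarith
    exact_mod_cast this
  have he := H.he
  have hep := e_lt H D
  have hnd : ¬ p ∣ deg χ := by
    intro h
    have h4 : p ∣ deg χ + e := h2 ▸ dvd_mul_right p _
    have h3 := (Nat.dvd_add_right h).mp h4
    have := Nat.le_of_dvd (by omega) h3
    omega
  have hc1 : deg χ ≠ 1 := by
    intro h
    have h3 := eq_triv_of_deg H.perf χ h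
    exact Finset.disjoint_left.mp D.disj D.one_mem.1 (h3 ▸ hχ)
  exact exc_neg hp H.hn H.het hc1 h2 (deg_dvd' H D hnd)

end

end Cfsg.Agent.H607.BP.Types
end

-- part: H607/BP/Main
section
/-!
Adapted from `SmallSimple.BrauerTypesMain` (hypothesis `NoForm p n`).
-/

set_option autoImplicit false
set_option linter.unusedSectionVars false
open Cfsg
open scoped ComplexConjugate

namespace Cfsg.Agent.H607.BP.Main

open Cfsg.Agent.Characters.Core Cfsg.Agent.SmallSimple.BrauerTypesBasic
  Cfsg.Agent.SmallSimple.BrauerTypesArith Cfsg.Agent.H607.BP.Types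
open Cfsg.Agent.SmallSimple.BrauerTypes (BData sum_const_off sum_linear)

universe u

variable {G : Type u} [Group G] [Finite G] {p n e t : ℕ} {P N : Subgroup G} [Fintype P] [Fintype N]

section sets
variable (D : BData p P e t)

open scoped Classical in
/-- nonexceptional, positive, nontrivial -/
noncomputable def setA : Finset (IrrCharacter G) :=
  (D.NE.erase (triv G)).filter (fun χ => D.ε χ = 1)

open scoped Classical in
/-- nonexceptional, negative -/
noncomputable def setB : Finset (IrrCharacter G) :=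
  (D.NE.erase (triv G)).filter (fun χ => ¬ D.ε χ = 1)

open scoped Classical in
/-- characters vanishing on `P` minus `1` -/
noncomputable def setR [Fintype (IrrCharacter G)] : Finset (IrrCharacter G) :=
  (D.NE ∪ D.X)ᶜ

theorem sum_NE {M : Type*} [AddCommMonoid M] (f : IrrCharacter G → M) :
    ∑ χ ∈ D.NE, f χ = f (triv G) + (∑ χ ∈ setA D, f χ + ∑ χ ∈ setB D, f χ) := by
  classical
  rw [← Finset.add_sum_erase _ _ D.one_mem.1]
  congr 1
  exact (Finset.sum_filter_add_sum_filter_not _ _ _).symm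

theorem sum_all {M : Type*} [AddCommMonoid M] [Fintype (IrrCharacter G)]
    (f : IrrCharacter G → M) :
    ∑ χ, f χ = f (triv G) + (∑ χ ∈ setA D, f χ + ∑ χ ∈ setB D, f χ) + ∑ χ ∈ D.X, f χ +
      ∑ χ ∈ setR D, f χ := by
  classical
  rw [← Finset.sum_add_sum_compl (D.NE ∪ D.X), Finset.sum_union D.disj, sum_NE]
  rfl

end sets

variable (H : Hyp p n e t P N) (D : BData p P e t)
include H D

theorem card_AB : (setA D).card + (setB D).card + 1 = e := by
  have h := sum_NE D (fun _ => 1)
  simp only [Finset.sum_const, smul_eq_mul, mul_one] at h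
  rw [D.card_NE] at h
  omega

theorem mem_A {χ : IrrCharacter G} (h : χ ∈ setA D) : deg χ = 1 + n * p ∧ mult P χ = n + 1 := by
  classical
  simp only [setA, Finset.mem_filter, Finset.mem_erase] at h
  rcases NE_pos H D h.1.2 h.2 with h1 | h1
  · exact absurd h1.1 h.1.1
  · exact h1

theorem mem_B {χ : IrrCharacter G} (h : χ ∈ setB D) :
    deg χ = p - 1 ∧ mult P χ = 0 ∧ D.ε χ = -1 := by
  classical
  simp only [setB, Finset.mem_filter, Finset.mem_erase] at h
  have hε : D.ε χ = -1 := (D.ε_eq χ h.1.2).resolve_left h.2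
  exact ⟨(NE_neg H D h.1.2 hε).1, (NE_neg H D h.1.2 hε).2, hε⟩

theorem eps_A {χ : IrrCharacter G} (h : χ ∈ setA D) : D.ε χ = 1 := by
  classical
  simp only [setA, Finset.mem_filter] at h
  exact h.2

theorem mem_R [Fintype (IrrCharacter G)] {χ : IrrCharacter G} (h : χ ∈ setR D) :
    p * mult P χ = deg χ := by
  classical
  simp only [setR, Finset.mem_compl, Finset.mem_union, not_or] at h
  exact m0_rest H D h.1 h.2

theorem exists_X : ∃ Θ, Θ ∈ D.X := by
  have h := t_pos H D
  rw [← D.card_X] at h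
  exact Finset.card_pos.mp h

theorem p_cast : ((p - 1 : ℕ) : ℤ) = p - 1 := by
  have := H.prime.two_le
  push_cast [Nat.cast_sub (show 1 ≤ p by omega)]
  ring

/-- the relation on degrees -/
theorem relation {Θ : IrrCharacter G} (hΘ : Θ ∈ D.X) :
    (1 : ℤ) + (setA D).card * (1 + n * p) - (setB D).card * (p - 1) = D.d * deg Θ := by
  have h1 := D.rel Θ hΘ 1 (by
    rw [orderOf_one]
    intro h
    have := Nat.le_of_dvd (by norm_num) h
    have := H.prime.two_le
    omega)
  simp only [deg_spec] at h1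
  have h2 : ∑ χ ∈ D.NE, D.ε χ * (deg χ : ℤ) = D.d * deg Θ := by
    exact_mod_cast h1
  rw [sum_NE, deg_triv, D.one_mem.2] at h2
  have hA : ∑ χ ∈ setA D, D.ε χ * (deg χ : ℤ) = (setA D).card * (1 + n * p) := by
    rw [Finset.sum_congr rfl (g := fun _ => ((1 : ℤ) + n * p))]
    · rw [Finset.sum_const, nsmul_eq_mul]
    · intro χ hχ
      rw [eps_A H D hχ, (mem_A H D hχ).1]; push_cast; ring
  have hB : ∑ χ ∈ setB D, D.ε χ * (deg χ : ℤ) = - ((setB D).card * (p - 1)) := by
    rw [Finset.sum_congr rfl (g := fun _ => (-((p : ℤ) - 1)))]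
    · rw [Finset.sum_const, nsmul_eq_mul]; ring
    · intro χ hχ
      rw [(mem_B H D hχ).2.2, (mem_B H D hχ).1, p_cast H D]; ring
  rw [hA, hB] at h2
  push_cast at h2
  linarith

theorem sum_squares [Fintype (IrrCharacter G)] {c : ℕ} (hc : ∀ Θ ∈ D.X, deg Θ = c) :
    (1 : ℤ) + (setA D).card * (1 + n * p) ^ 2 + (setB D).card * (p - 1) ^ 2 + t * c ^ 2 +
      p ^ 2 * (∑ χ ∈ setR D, (mult P χ) ^ 2 : ℕ) = p * e * (1 + n * p) := by
  have h1 := sum_deg_sq (G := G)
  rw [H.cardG, sum_all D] at h1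
  have hA : ∑ χ ∈ setA D, deg χ ^ 2 = (setA D).card * (1 + n * p) ^ 2 := by
    rw [Finset.sum_congr rfl (g := fun _ => (1 + n * p) ^ 2)]
    · rw [Finset.sum_const, smul_eq_mul]
    · intro χ hχ
      rw [(mem_A H D hχ).1]
  have hB : ∑ χ ∈ setB D, deg χ ^ 2 = (setB D).card * (p - 1) ^ 2 := by
    rw [Finset.sum_congr rfl (g := fun _ => (p - 1) ^ 2)]
    · rw [Finset.sum_const, smul_eq_mul]
    · intro χ hχ
      rw [(mem_B H D hχ).1]
  have hX : ∑ χ ∈ D.X, deg χ ^ 2 = t * c ^ 2 := by
    rw [Finset.sum_congr rfl (g := fun _ => c ^ 2)]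
    · rw [Finset.sum_const, smul_eq_mul, D.card_X]
    · intro χ hχ
      rw [hc χ hχ]
  have hR : ∑ χ ∈ setR D, deg χ ^ 2 = p ^ 2 * (∑ χ ∈ setR D, (mult P χ) ^ 2 : ℕ) := by
    rw [Finset.mul_sum]
    refine Finset.sum_congr rfl fun χ hχ => ?_
    rw [← mem_R H D hχ]; ring
  rw [hA, hB, hX, hR, deg_triv] at h1
  have h2 : ((1 ^ 2 + ((setA D).card * (1 + n * p) ^ 2 + (setB D).card * (p - 1) ^ 2) + t * c ^ 2 +
      p ^ 2 * (∑ χ ∈ setR D, (mult P χ) ^ 2) : ℕ) : ℤ) = ((p * e * (1 + n * p) : ℕ) : ℤ) := by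
    exact_mod_cast h1
  push_cast at h2
  rw [p_cast H D] at h2
  push_cast
  linarith

/-- The structure of the degrees: cases. -/
theorem cases [Fintype (IrrCharacter G)] :
    (∑ χ ∈ setR D, (mult P χ) ^ 2 = n) ∧
    ((D.d = 1 ∧ ((setA D).card : ℤ) * (n + 1) = e - 1) ∨
     (D.d = -1 ∧ (∃ k : ℕ, k * t = n + 1) ∧
        ((n : ℤ) + 1) * (t * (setA D).card + 1) = t * (e - 1))) := by
  obtain ⟨Θ, hΘ⟩ := exists_X H D
  have hrel := relation H D hΘ
  have hAB : ((setA D).card : ℤ) + (setB D).card + 1 = e := by exact_mod_cast card_AB H D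
  have hp : (2 : ℤ) ≤ p := by exact_mod_cast H.prime.two_le
  have het : (e : ℤ) * t = p - 1 := by
    rw [← p_cast H D, ← H.het]; push_cast; ring
  have ht : (1 : ℤ) ≤ t := by exact_mod_cast t_pos H D
  rcases D.d_eq with hd | hd
  · have hc : ∀ Θ ∈ D.X, deg Θ = e := fun Θ hΘ => (X_pos H D hd hΘ).1
    rw [hd, hc Θ hΘ, one_mul] at hrel
    have h1 := case_two hp hAB hrel
    have h2 := case_two_sum hp hAB het h1 (sum_squares H D hc)
    refine ⟨by exact_mod_cast h2, Or.inl ⟨hd, h1⟩⟩
  · have hc : ∀ Θ' ∈ D.X, deg Θ' = deg Θ := by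
      intro Θ' hΘ'
      have h1 := (X_neg H D hd hΘ').1
      have h2 := (X_neg H D hd hΘ).1
      exact Nat.eq_of_mul_eq_mul_right (t_pos H D) (h1.trans h2.symm)
    have hct : (deg Θ : ℤ) * t = 1 + n * p := by exact_mod_cast (X_neg H D hd hΘ).1
    rw [hd, neg_one_mul] at hrel
    have h1 := case_one hp hAB het hct hrel
    have h2 := case_one_sum hp ht hAB het hct h1 (sum_squares H D hc)
    refine ⟨by exact_mod_cast h2, Or.inr ⟨hd, ⟨mult P Θ, (X_neg H D hd hΘ).2⟩, h1⟩⟩

/-! ### The permutation character -/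

omit [Fintype P] in
theorem index_N : N.index = 1 + n * p := by
  have h := N.card_mul_index
  rw [H.cardN, H.cardG] at h
  have hp := H.prime.pos
  have he := H.he
  exact Nat.eq_of_mul_eq_mul_left (Nat.mul_pos hp (by omega)) h

theorem perm_P [Fintype G] {y : G} (hy : y ∈ P) (hy1 : y ≠ 1) : perm N y = 1 := by
  classical
  have h := perm_apply N y
  have hf : (Finset.univ.filter (fun x : G => x⁻¹ * y * x ∈ N)) =
      Finset.univ.filter (fun x : G => x ∈ N) := by
    ext x
    simp only [Finset.mem_filter, Finset.mem_univ, true_and]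
    constructor
    · exact H.ti y hy hy1 x
    · intro hx
      exact N.mul_mem (N.mul_mem (N.inv_mem hx) (H.le hy)) hx
  have hcard : (Finset.univ.filter (fun x : G => x ∈ N)).card = Nat.card N := by
    rw [Nat.card_eq_fintype_card, Fintype.card_subtype]
  rw [hf, hcard] at h
  have h2 : (Nat.card N : ℂ) * perm N y = Nat.card N * 1 := by rw [mul_one]; exact h
  exact mul_left_cancel₀ (card_ne N) h2

/-- The coefficients of the permutation character. -/
theorem perm_coeffs [Fintype G] [Fintype (IrrCharacter G)] {c : IrrCharacter G → ℕ}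
    (hc : perm N = ∑ χ : IrrCharacter G, c χ • (χ : G → ℂ)) : ∑ χ, c χ ^ 2 = n + 1 := by
  classical
  have hle : ∀ χ, c χ ≤ mult P χ := by
    intro χ
    rw [perm_coeff N hc χ]
    exact mult_mono H.le χ
  have htriv : c (triv G) = 1 := by rw [perm_coeff N hc, mult_triv]
  have hp2 := H.prime.two_le
  -- first equation
  have h1 : ∑ χ, c χ * mult P χ = n + 1 := by
    have h := sum_comb P hc
    rw [sum_const_off (c := 1) H.cardP (fun x hx hx1 => perm_P H D hx hx1), perm_one,
      index_N H D, H.cardP] at h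
    have h2 : ((p * (n + 1) : ℕ) : ℂ) = ((p * ∑ χ, c χ * mult P χ : ℕ) : ℂ) := by
      rw [Nat.cast_mul p (∑ χ, c χ * mult P χ), ← h]; push_cast; ring
    have h3 : p * (n + 1) = p * ∑ χ, c χ * mult P χ := by exact_mod_cast h2
    exact (Nat.eq_of_mul_eq_mul_left (by omega) h3).symm
  have h2 : ∑ χ, c χ * deg χ = 1 + n * p := by
    have h := one_comb hc
    rw [perm_one, index_N H D] at h
    exact_mod_cast h.symm
  rw [sum_all D, htriv, mult_triv] at h1
  rw [sum_all D, htriv, deg_triv] at h2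
  have hA1 : ∑ χ ∈ setA D, c χ * mult P χ = (∑ χ ∈ setA D, c χ) * (n + 1) := by
    rw [Finset.sum_mul]
    exact Finset.sum_congr rfl fun χ hχ => by rw [(mem_A H D hχ).2]
  have hA2 : ∑ χ ∈ setA D, c χ * deg χ = (∑ χ ∈ setA D, c χ) * (1 + n * p) := by
    rw [Finset.sum_mul]
    exact Finset.sum_congr rfl fun χ hχ => by rw [(mem_A H D hχ).1]
  have hB0 : ∀ χ ∈ setB D, c χ = 0 := by
    intro χ hχ
    have := hle χ
    rw [(mem_B H D hχ).2.1] at this
    omega
  have hB1 : ∑ χ ∈ setB D, c χ * mult P χ = 0 :=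
    Finset.sum_eq_zero fun χ hχ => by rw [hB0 χ hχ, zero_mul]
  have hB2 : ∑ χ ∈ setB D, c χ * deg χ = 0 :=
    Finset.sum_eq_zero fun χ hχ => by rw [hB0 χ hχ, zero_mul]
  have hR2 : ∑ χ ∈ setR D, c χ * deg χ = p * ∑ χ ∈ setR D, c χ * mult P χ := by
    rw [Finset.mul_sum]
    exact Finset.sum_congr rfl fun χ hχ => by rw [← mem_R H D hχ]; ring
  have hX : (p : ℤ) * (∑ χ ∈ D.X, c χ * mult P χ : ℕ) - (∑ χ ∈ D.X, c χ * deg χ : ℕ) =
      - (D.d * e * (∑ χ ∈ D.X, c χ : ℕ)) := by
    push_cast
    rw [Finset.mul_sum, Finset.mul_sum, ← Finset.sum_sub_distrib, ← Finset.sum_neg_distrib]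
    refine Finset.sum_congr rfl fun χ hχ => ?_
    have := m0_X H D hχ
    linear_combination (c χ : ℤ) * this
  rw [hA1, hB1] at h1
  rw [hA2, hB2, hR2] at h2
  -- combine
  have hkey : ((p : ℤ) - 1) * (∑ χ ∈ setA D, c χ : ℕ) =
      D.d * e * (∑ χ ∈ D.X, c χ : ℕ) := by
    have h1' : ((1 * 1 + ((∑ χ ∈ setA D, c χ) * (n + 1) + 0) + ∑ χ ∈ D.X, c χ * mult P χ +
        ∑ χ ∈ setR D, c χ * mult P χ : ℕ) : ℤ) = ((n + 1 : ℕ) : ℤ) := by exact_mod_cast h1
    have h2' : ((1 * 1 + ((∑ χ ∈ setA D, c χ) * (1 + n * p) + 0) + ∑ χ ∈ D.X, c χ * deg χ +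
        p * ∑ χ ∈ setR D, c χ * mult P χ : ℕ) : ℤ) = ((1 + n * p : ℕ) : ℤ) := by exact_mod_cast h2
    push_cast at h1' h2' hX ⊢
    linear_combination (p : ℤ) * h1' - h2' - hX
  have hX0 : ∑ χ ∈ D.X, c χ = 0 := by
    rcases D.d_eq with hd | hd
    · refine Finset.sum_eq_zero fun χ hχ => ?_
      have := hle χ
      rw [(X_pos H D hd hχ).2] at this
      omega
    · rw [hd] at hkey
      by_contra hne
      have h3 : (1 : ℤ) ≤ (∑ χ ∈ D.X, c χ : ℕ) := by
        have : 1 ≤ ∑ χ ∈ D.X, c χ := Nat.one_le_iff_ne_zero.mpr hne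
        exact_mod_cast this
      have h4 : (0 : ℤ) ≤ (∑ χ ∈ setA D, c χ : ℕ) := by positivity
      have h5 : (2 : ℤ) ≤ p := by exact_mod_cast hp2
      have h6 : (2 : ℤ) ≤ e := by exact_mod_cast H.he
      have h7 : 0 ≤ ((p : ℤ) - 1) * (∑ χ ∈ setA D, c χ : ℕ) := mul_nonneg (by linarith) h4
      nlinarith
  have hA0 : ∑ χ ∈ setA D, c χ = 0 := by
    rw [hX0] at hkey
    simp only [Nat.cast_zero, mul_zero] at hkey
    have h5 : (2 : ℤ) ≤ p := by exact_mod_cast hp2
    have := (mul_eq_zero.mp hkey).resolve_left (by linarith)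
    exact_mod_cast this
  have hX0' : ∀ χ ∈ D.X, c χ = 0 := Finset.sum_eq_zero_iff.mp hX0
  have hA0' : ∀ χ ∈ setA D, c χ = 0 := Finset.sum_eq_zero_iff.mp hA0
  have hR : ∑ χ ∈ setR D, c χ * mult P χ = n := by
    have hXX : ∑ χ ∈ D.X, c χ * mult P χ = 0 :=
      Finset.sum_eq_zero fun χ hχ => by rw [hX0' χ hχ, zero_mul]
    rw [hA0, hXX] at h1
    omega
  have hsq := (cases H D).1
  have heq : ∀ χ ∈ setR D, c χ * mult P χ = mult P χ ^ 2 := by
    refine (Finset.sum_eq_sum_iff_of_le ?_).mp (hR.trans hsq.symm)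
    intro χ _
    rw [sq]
    exact Nat.mul_le_mul_right _ (hle χ)
  have hceq : ∀ χ ∈ setR D, c χ ^ 2 = mult P χ ^ 2 := by
    intro χ hχ
    have hpos : 0 < mult P χ := by
      rcases Nat.eq_zero_or_pos (mult P χ) with h | h
      · have h3 := mem_R H D hχ
        have h4 := deg_pos χ
        rw [h] at h3
        omega
      · exact h
    have h3 := heq χ hχ
    rw [sq] at h3
    rw [Nat.eq_of_mul_eq_mul_right hpos h3]
  rw [sum_all D, htriv]
  have e1 : ∑ χ ∈ setA D, c χ ^ 2 = 0 :=
    Finset.sum_eq_zero fun χ hχ => by rw [hA0' χ hχ]; rfl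
  have e2 : ∑ χ ∈ setB D, c χ ^ 2 = 0 :=
    Finset.sum_eq_zero fun χ hχ => by rw [hB0 χ hχ]; rfl
  have e3 : ∑ χ ∈ D.X, c χ ^ 2 = 0 :=
    Finset.sum_eq_zero fun χ hχ => by rw [hX0' χ hχ]; rfl
  have e4 : ∑ χ ∈ setR D, c χ ^ 2 = n := by
    rw [← hsq]
    exact Finset.sum_congr rfl hceq
  rw [e1, e2, e3, e4]
  omega

open scoped Classical in
/-- sizes of the intersections `N ∩ N^x` -/
theorem inter_le {x : G} (hx : x ∉ N) :
    (Finset.univ.filter (fun g : N => x⁻¹ * (g : G) * x ∈ N)).card ≤ e := by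
  let K : Subgroup N := (N.comap (MulAut.conj x⁻¹).toMonoidHom).subgroupOf N
  have hK : ∀ g : N, g ∈ K ↔ x⁻¹ * (g : G) * x ∈ N := by
    intro g
    simp [K, Subgroup.mem_subgroupOf, Subgroup.mem_comap]
  have hcard : (Finset.univ.filter (fun g : N => x⁻¹ * (g : G) * x ∈ N)).card = Nat.card K := by
    rw [← Fintype.card_subtype, ← Nat.card_eq_fintype_card]
    exact Nat.card_congr (Equiv.subtypeEquivRight fun g => (hK g).symm)
  rw [hcard]
  have hdvd : Nat.card K ∣ p * e := by
    rw [← H.cardN]; exact Subgroup.card_subgroup_dvd_card K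
  have hnd : ¬ p ∣ Nat.card K := by
    intro h
    have := Fact.mk H.prime
    obtain ⟨g, hg⟩ := exists_prime_orderOf_dvd_card' p h
    have hg1 : orderOf ((g : N) : G) = p := by
      rw [Subgroup.orderOf_coe, Subgroup.orderOf_coe, hg]
    have hgP := H.memP _ (g : N).2 hg1
    have hgne : ((g : N) : G) ≠ 1 := by
      intro h1
      rw [h1, orderOf_one] at hg1
      exact H.prime.one_lt.ne hg1
    exact hx (H.ti _ hgP hgne x ((hK g.1).mp g.2))
  have h1 : Nat.card K ∣ e :=
    Nat.Coprime.dvd_of_dvd_mul_left ((Nat.Prime.coprime_iff_not_dvd H.prime).mpr hnd).symm hdvd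
  have he := H.he
  exact Nat.le_of_dvd (by omega) h1

open scoped Classical in
theorem inter_eq {x : G} (hx : x ∉ N) :
    (Finset.univ.filter (fun g : N => x⁻¹ * (g : G) * x ∈ N)).card = e := by
  have := Fintype.ofFinite G
  have := finite_irr (G := G)
  have := Fintype.ofFinite (IrrCharacter G)
  obtain ⟨c, hc⟩ := isCharacter_iff.1 (perm_isCharacter N)
  have h1 := perm_coeffs H D hc
  have h2 := perm_norm N
  rw [norm_comb hc, h1] at h2
  have h3 : Nat.card N ^ 2 * (n + 1) =
      ∑ x : G, (Finset.univ.filter (fun g : N => x⁻¹ * (g : G) * x ∈ N)).card := by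
    exact_mod_cast h2
  rw [← Finset.sum_filter_add_sum_filter_not Finset.univ (fun x : G => x ∈ N)] at h3
  have h4 : ∑ x with x ∈ N, (Finset.univ.filter (fun g : N => x⁻¹ * (g : G) * x ∈ N)).card =
      Nat.card N * Nat.card N := by
    have : ∀ x ∈ Finset.univ.filter (fun x : G => x ∈ N),
        (Finset.univ.filter (fun g : N => x⁻¹ * (g : G) * x ∈ N)).card = Nat.card N := by
      intro x hx
      rw [Finset.mem_filter] at hx
      rw [Finset.filter_true_of_mem, Finset.card_univ, Nat.card_eq_fintype_card]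
      intro g _
      exact N.mul_mem (N.mul_mem (N.inv_mem hx.2) g.2) hx.2
    rw [Finset.sum_congr rfl this, Finset.sum_const, smul_eq_mul]
    congr 1
    rw [Nat.card_eq_fintype_card, Fintype.card_subtype]
  rw [h4] at h3
  have hnot : (Finset.univ.filter (fun x : G => ¬ x ∈ N)).card = Nat.card N * (n * p) := by
    have h5 := Finset.card_filter_add_card_filter_not (s := (Finset.univ : Finset G)) (fun x : G => x ∈ N)
    have h6 : (Finset.univ.filter (fun x : G => x ∈ N)).card = Nat.card N := by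
      rw [Nat.card_eq_fintype_card, Fintype.card_subtype]
    rw [h6, Finset.card_univ, ← Nat.card_eq_fintype_card, H.cardG, ← H.cardN] at h5
    have : Nat.card N * (1 + n * p) = Nat.card N + Nat.card N * (n * p) := by ring
    omega
  have hsum : ∑ x with ¬ x ∈ N, (Finset.univ.filter (fun g : N => x⁻¹ * (g : G) * x ∈ N)).card =
      ∑ x : G with ¬ x ∈ N, e := by
    rw [Finset.sum_const, smul_eq_mul, hnot]
    have e1 : Nat.card N ^ 2 * (n + 1) = Nat.card N * Nat.card N + Nat.card N * Nat.card N * n := by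
      ring
    have e2 : Nat.card N * (n * p) * e = Nat.card N * Nat.card N * n := by
      conv_rhs => rw [mul_assoc, H.cardN]
      rw [H.cardN]; ring
    omega
  have := (Finset.sum_eq_sum_iff_of_le (fun x hx => inter_le H D (Finset.mem_filter.mp hx).2)).mp
    hsum x (by simp [hx])
  exact this

end Cfsg.Agent.H607.BP.Main
end

-- part: H607/BP/Prod
section
/-!
Adapted from `SmallSimple.BrauerTypesProd` (hypothesis `NoForm p n`): the product of an exceptional character of degree
`e` with its complex conjugate.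
-/

set_option autoImplicit false
set_option linter.unusedSectionVars false
open Cfsg
open scoped ComplexConjugate

namespace Cfsg.Agent.H607.BP.Prod

open Cfsg.Agent.Characters.Core Cfsg.Agent.SmallSimple.BrauerTypesBasic
  Cfsg.Agent.SmallSimple.BrauerTypesArith Cfsg.Agent.H607.BP.Types
  Cfsg.Agent.H607.BP.Main
open Cfsg.Agent.SmallSimple.BrauerTypes (BData sum_const_off sum_linear)

universe u

variable {G : Type u} [Group G] [Finite G] {p n e t : ℕ} {P N : Subgroup G} [Fintype P] [Fintype N]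

/-- `∑ l(x) conj l'(x)` -/
theorem sum_linear_mul (l l' : P →* ℂˣ) :
    ∑ x : P, (l x : ℂ) * conj (l' x : ℂ) = if l = l' then (Nat.card P : ℂ) else 0 := by
  classical
  have hconj : ∀ x : P, conj (l' x : ℂ) = ((l'⁻¹ x : ℂˣ) : ℂ) := by
    intro x
    rw [MonoidHom.inv_apply, Units.val_inv_eq_inv_val]
    have h := Cfsg.Agent.Characters.Linear.norm_hom_apply l' x
    rw [Complex.inv_eq_conj h]
  have h1 : ∀ x : P, (l x : ℂ) * conj (l' x : ℂ) = (((l * l'⁻¹) x : ℂˣ) : ℂ) := by
    intro x
    rw [hconj x, MonoidHom.mul_apply, Units.val_mul]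
  rw [Finset.sum_congr rfl fun x _ => h1 x]
  split_ifs with h
  · subst h
    simp [Nat.card_eq_fintype_card]
  · apply sum_linear
    intro h2
    apply h
    exact mul_inv_eq_one.mp h2

variable (H : Hyp p n e t P N) (D : BData p P e t)
include H D

theorem case_two_final (hd : D.d = 1) (ht : 2 ≤ t) : n = 1 ∧ t = 2 := by
  classical
  have := Fintype.ofFinite G
  have := finite_irr (G := G)
  have := Fintype.ofFinite (IrrCharacter G)
  obtain ⟨Θ, hΘ⟩ := exists_X H D
  have hdeg := (X_pos H D hd hΘ).1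
  set ψ : G → ℂ := fun g => (Θ : G → ℂ) g * conj ((Θ : G → ℂ) g) with hψ
  have hψc : IsCharacter G ψ :=
    isCharacter_mul (isIrr_isCharacter Θ.2) (isCharacter_conj (isIrr_isCharacter Θ.2))
  obtain ⟨c, hc⟩ := isCharacter_iff.1 hψc
  -- multiplicity of the trivial character
  have hc1 : c (triv G) = 1 := by
    have h1 := coeff_triv hc
    have h2 : classInner ψ 1 = 1 := by
      rw [← classInner_irr_self Θ.2, classInner_def, classInner_def]
      congr 1
      refine Finset.sum_congr rfl fun g _ => ?_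
      simp [hψ]
    rw [h2] at h1
    exact_mod_cast h1.symm
  -- value at one
  have hdegsum : ∑ χ, c χ * deg χ = e ^ 2 := by
    have h1 := one_comb hc
    have h2 : ψ 1 = ((e ^ 2 : ℕ) : ℂ) := by
      simp only [hψ]
      rw [deg_spec, hdeg, Complex.conj_natCast]
      push_cast; ring
    rw [h2] at h1
    exact_mod_cast h1.symm
  -- fixed points of P
  have hval : ∀ x : P, (Θ : G → ℂ) x = ∑ l ∈ D.S Θ, (l x : ℂ) := by
    intro x
    by_cases hx : x = 1
    · subst hx
      rw [OneMemClass.coe_one, deg_spec, hdeg]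
      simp only [map_one, Units.val_one, Finset.sum_const, nsmul_eq_mul, mul_one]
      rw [D.card_S Θ hΘ]
    · rw [D.val_X Θ hΘ x hx, hd]
      simp
  have hfix : ∑ x : P, ψ x = (Nat.card P : ℂ) * (e : ℕ) := by
    have h1 : ∀ x : P, ψ x = ∑ l ∈ D.S Θ, ∑ l' ∈ D.S Θ, (l x : ℂ) * conj (l' x : ℂ) := by
      intro x
      simp only [hψ]
      rw [hval x, map_sum, Finset.sum_mul_sum]
    rw [Finset.sum_congr rfl fun x _ => h1 x, Finset.sum_comm]
    have h2 : ∀ l ∈ D.S Θ, ∑ x : P, ∑ l' ∈ D.S Θ, (l x : ℂ) * conj (l' x : ℂ) =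
        (Nat.card P : ℂ) := by
      intro l hl
      rw [Finset.sum_comm]
      rw [Finset.sum_congr rfl fun l' _ => sum_linear_mul l l']
      rw [Finset.sum_ite_eq, if_pos hl]
    rw [Finset.sum_congr rfl h2, Finset.sum_const, nsmul_eq_mul, D.card_S Θ hΘ]
    ring
  have hmult : ∑ χ, c χ * mult P χ = e := by
    have h1 := sum_comb P hc
    rw [hfix] at h1
    have h2 := mul_left_cancel₀ (card_ne P) h1
    exact_mod_cast h2.symm
  rw [sum_all D, hc1, mult_triv] at hmult
  rw [sum_all D, hc1, deg_triv] at hdegsum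
  have hA1 : ∑ χ ∈ setA D, c χ * mult P χ = (∑ χ ∈ setA D, c χ) * (n + 1) := by
    rw [Finset.sum_mul]
    exact Finset.sum_congr rfl fun χ hχ => by rw [(mem_A H D hχ).2]
  have hA2 : ∑ χ ∈ setA D, c χ * deg χ = (∑ χ ∈ setA D, c χ) * (1 + n * p) := by
    rw [Finset.sum_mul]
    exact Finset.sum_congr rfl fun χ hχ => by rw [(mem_A H D hχ).1]
  have hB1 : ∑ χ ∈ setB D, c χ * mult P χ = 0 :=
    Finset.sum_eq_zero fun χ hχ => by rw [(mem_B H D hχ).2.1, mul_zero]
  have hX1 : ∑ χ ∈ D.X, c χ * mult P χ = 0 :=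
    Finset.sum_eq_zero fun χ hχ => by rw [(X_pos H D hd hχ).2, mul_zero]
  have hR2 : ∑ χ ∈ setR D, c χ * deg χ = p * ∑ χ ∈ setR D, c χ * mult P χ := by
    rw [Finset.mul_sum]
    exact Finset.sum_congr rfl fun χ hχ => by rw [← mem_R H D hχ]; ring
  rw [hA1, hB1, hX1] at hmult
  rw [hA2, hR2] at hdegsum
  set M := ∑ χ ∈ setA D, c χ
  set F := ∑ χ ∈ setR D, c χ * mult P χ
  have hn1 : (1 : ℤ) ≤ n := by exact_mod_cast H.n_pos
  have he : (2 : ℤ) ≤ e := by exact_mod_cast H.he
  have ht' : (2 : ℤ) ≤ t := by exact_mod_cast ht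
  have het : (e : ℤ) * t = p - 1 := by
    rw [← p_cast H D, ← H.het]; push_cast; ring
  have h1 : (e : ℤ) - 1 = (n + 1) * M + F := by
    have : ((1 * 1 + (M * (n + 1) + 0) + 0 + F : ℕ) : ℤ) = e := by exact_mod_cast hmult
    push_cast at this
    linarith
  have h2 : (1 : ℤ) + M * (1 + n * p) + p * F ≤ e ^ 2 := by
    have h3 : 1 * 1 + M * (1 + n * p) + p * F ≤ e ^ 2 := by
      rw [← hdegsum]
      omega
    have h4 : ((1 * 1 + M * (1 + n * p) + p * F : ℕ) : ℤ) ≤ ((e ^ 2 : ℕ) : ℤ) := by
      exact_mod_cast h3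
    push_cast at h4
    linarith
  have := c_three hn1 he ht' het (by positivity) (by positivity) h1 h2
  exact ⟨by exact_mod_cast this.1, by exact_mod_cast this.2⟩

end Cfsg.Agent.H607.BP.Prod
end

-- part: H607/BP/Final
section
/-!
Adapted from `SmallSimple.BrauerTypesFinal` (hypothesis `NoForm p n`).
-/

set_option autoImplicit false
set_option linter.unusedSectionVars false
open Cfsg

namespace Cfsg.Agent.H607.BP.Final

open Subgroup Cfsg.Agent.SmallSimple.SelfCentPrime Cfsg.Agent.H607.BP.Types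
  Cfsg.Agent.H607.BP.Main
  Cfsg.Agent.H607.BP.Prod
  Cfsg.Agent.SmallSimple.SylowGeometry Cfsg.Agent.SmallSimple.SylowGeometryInv
  Cfsg.Agent.Characters.Core

open Cfsg.Agent.SmallSimple.BrauerTypes (BData)

universe u
variable {G : Type u} [Group G] [Finite G] {p : ℕ} [hp : Fact p.Prime] {z : G}

theorem geom {n e t : ℕ} (P : Sylow p G) (hcP : Nat.card P = p)
    (hcent : centralizer (P : Set G) = P) (hnS : n * p + 1 = Nat.card (Sylow p G))
    (H : Hyp p n e t (P : Subgroup G) (normalizer (P : Set G)))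
    (D : BData p (P : Subgroup G) e t) : Geom p e n G := by
  classical
  have := Fintype.ofFinite (P : Subgroup G)
  have := Fintype.ofFinite (normalizer (P : Set G))
  refine geom_of_card_inf P hcP hcent (by rw [H.cardN, mul_comm]) hnS ?_
  intro Q hQ
  obtain ⟨x, hx⟩ := MulAction.exists_smul_eq G P Q
  have hxN : x ∉ normalizer (P : Set G) := by
    intro h
    exact hQ (by rw [← hx, Sylow.smul_eq_iff_mem_normalizer.2 h])
  have h1 := inter_eq H D hxN
  rw [← h1, ← Fintype.card_subtype, ← Nat.card_eq_fintype_card]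
  have hmem : ∀ g : G, g ∈ normalizer (Q : Set G) ↔ x⁻¹ * g * x ∈ normalizer (P : Set G) := by
    intro g
    rw [← Sylow.smul_eq_iff_mem_normalizer, ← Sylow.smul_eq_iff_mem_normalizer, ← hx, mul_smul,
      mul_smul, inv_smul_eq_iff]
  refine Nat.card_congr
    { toFun := fun g => ⟨⟨g.1, g.2.1⟩, (hmem g.1).1 g.2.2⟩
      invFun := fun g => ⟨g.1.1, g.1.2, (hmem g.1.1).2 g.2⟩
      left_inv := fun g => rfl
      right_inv := fun g => rfl }

/-- The end of Brauer's theorem from the types. -/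
theorem final {n e t : ℕ} (hperf : commutator G = ⊤) (hz : orderOf z = p)
    (hC : centralizer ({z} : Set G) = zpowers z) (P : Sylow p G) (hcP : Nat.card P = p)
    (hcent : centralizer (P : Set G) = P) (hnS : n * p + 1 = Nat.card (Sylow p G))
    (H : Hyp p n e t (P : Subgroup G) (normalizer (P : Set G)))
    (D : BData p (P : Subgroup G) e t) :
    (∃ (F : Type) (_ : Field F) (_ : Fintype F), Fintype.card F = p ∧ 3 < p ∧
      Nonempty (G ≃* Matrix.ProjectiveSpecialLinearGroup (Fin 2) F)) ∨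
    (∃ (m : ℕ) (F : Type) (_ : Field F) (_ : Fintype F), Fintype.card F = 2 ^ m ∧
      p = 2 ^ m + 1 ∧ 3 < p ∧ Nonempty (G ≃* Matrix.ProjectiveSpecialLinearGroup (Fin 2) F)) := by
  classical
  have := Fintype.ofFinite (P : Subgroup G)
  have := Fintype.ofFinite (normalizer (P : Set G))
  have := Fintype.ofFinite G
  have := finite_irr (G := G)
  have := Fintype.ofFinite (IrrCharacter G)
  have hGeom := geom P hcP hcent hnS H D
  have hcases := (cases H D).2
  have he := H.he
  have hn := H.n_pos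
  have het := H.het
  have ht := t_pos H D
  have hp2 := H.prime.two_le
  have hcG := H.cardG
  have key : ∀ {x : ℕ}, n + 1 < p → n + 1 ∣ e * t := by
    intro x hlt
    have h1 := hGeom.succ_dvd_pred (by omega) (by omega) (by
      intro h
      have := Nat.le_of_dvd (by omega) h
      omega)
    rw [het]
    exact h1
  have hlast : (n = 1 ∧ t = 2) ∨ (e = 2 ∧ n + 1 = t) := by
    rcases hcases with ⟨hd, hx⟩ | ⟨hd, ⟨k, hk⟩, hx⟩
    · left
      have hx' : (setA D).card * (n + 1) + 1 = e := by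
        have : ((setA D).card * (n + 1) + 1 : ℤ) = e := by linarith
        exact_mod_cast this
      have hpos : 0 < (setA D).card := by
        rcases Nat.eq_zero_or_pos (setA D).card with h | h
        · rw [h] at hx'; omega
        · exact h
      have hle : n + 1 ≤ (setA D).card * (n + 1) := Nat.le_mul_of_pos_left _ hpos
      have het2 : e ≤ e * t := Nat.le_mul_of_pos_right _ ht
      have h1 : n + 1 ∣ e * t := key (x := 0) (by omega)
      have hcop : Nat.Coprime (n + 1) e := by
        rw [← hx']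
        have h2 : Nat.gcd (n + 1) ((setA D).card * (n + 1) + 1) ∣ 1 := by
          have h3 := Nat.gcd_dvd_left (n + 1) ((setA D).card * (n + 1) + 1)
          have h4 := Nat.gcd_dvd_right (n + 1) ((setA D).card * (n + 1) + 1)
          exact (Nat.dvd_add_right (Dvd.dvd.mul_left h3 _)).1 h4
        exact Nat.dvd_one.1 h2
      have h2 : n + 1 ∣ t := hcop.dvd_of_dvd_mul_left h1
      have h3 := Nat.le_of_dvd ht h2
      exact case_two_final H D hd (by omega)
    · have hx' : k * (t * (setA D).card + 1) + 1 = e := by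
        have h1 : (k * (t * (setA D).card + 1) + 1 : ℤ) = e := by
          have hk' : (k : ℤ) * t = n + 1 := by exact_mod_cast hk
          rw [← hk'] at hx
          have ht' : (t : ℤ) ≠ 0 := by exact_mod_cast (by omega : t ≠ 0)
          apply mul_left_cancel₀ ht'
          linear_combination hx
        exact_mod_cast h1
      have hk1 : 0 < k := by
        rcases Nat.eq_zero_or_pos k with h | h
        · rw [h] at hk; omega
        · exact h
      have hke : k + 1 ≤ e := by
        have : k ≤ k * (t * (setA D).card + 1) := Nat.le_mul_of_pos_right _ (by omega)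
        omega
      have hlt : n + 1 < p := by
        rw [← hk]
        have h2 : (k + 1) * t ≤ e * t := Nat.mul_le_mul_right t hke
        have h3 : (k + 1) * t = k * t + t := by ring
        omega
      have h1 : k * t ∣ e * t := by
        rw [hk]
        exact key (x := 0) hlt
      have h2 : k ∣ e := Nat.dvd_of_mul_dvd_mul_right ht h1
      have h3 : k ∣ 1 := by
        rw [← hx'] at h2
        exact (Nat.dvd_add_right (dvd_mul_right _ _)).1 h2
      have hk' : k = 1 := Nat.dvd_one.1 h3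
      rw [hk', one_mul] at hk hx'
      have hodd : 2 ∣ e * t := by
        rw [het]
        have hpne : p ≠ 2 := by
          intro h
          rw [h] at het
          have h4 : e ∣ 1 := Dvd.intro t het
          have := Nat.le_of_dvd (by norm_num) h4
          omega
        have := (H.prime.odd_of_ne_two hpne)
        obtain ⟨j, hj⟩ := this
        exact ⟨j, by omega⟩
      have heven : 2 ∣ e := by
        rcases (Nat.Prime.dvd_mul Nat.prime_two).1 hodd with h | h
        · exact h
        · rw [← hx']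
          exact (Nat.dvd_add_right (Dvd.dvd.mul_right h _)).2 (dvd_refl 2)
      rcases (even_and_eq_two_or hGeom heven (by omega) hk.symm het).2 with h | h
      · left
        exact ⟨by omega, h⟩
      · right
        exact ⟨h, hk.symm⟩
  clear hcases key
  rcases hlast with ⟨h1, h2⟩ | ⟨h1, h2⟩
  · left
    subst h1 h2
    have hp1 : p = 2 * e + 1 := by omega
    refine ⟨ZMod p, inferInstance, inferInstance, ZMod.card p, by omega, ?_⟩
    refine Cfsg.Agent.SmallSimple.PSL2Perfect.psl2_of_perfect_card (by omega) hperf hz hC ?_ (by rw [← hnS, one_mul])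
      (ZMod.card p)
    rw [hcG, one_mul, ← het]
    ring
  · right
    subst h1
    obtain ⟨⟨i, hi⟩, hcen, hconj⟩ := elementary_of_eq_two hGeom (by omega) (by rw [h2, het])
    have hp3 : p = 2 * n + 3 := by omega
    have hsq : ∀ c ∈ centralizer ({i} : Set G), c ^ 2 = 1 := by
      intro c hc
      rw [sq]
      exact (hcen i hi).2 c hc
    refine Cfsg.Agent.SmallSimple.BrauerEnd.psl_of_e_eq_two (by omega) ?_ z hz hC i hi (hcen i hi).1 hsq ?_
    · rw [hcG]
      have e1 : p - 1 = 2 * n + 2 := by omega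
      have e2 : p - 2 = 2 * n + 1 := by omega
      rw [e1, e2, hp3]
      ring
    · intro c hc hc1
      obtain ⟨g, hg⟩ := hconj i c hi (by
        exact orderOf_eq_prime (hsq c hc) hc1)
      exact isConj_iff.2 ⟨g, hg⟩

end Cfsg.Agent.H607.BP.Final
end

-- part: H607/BP/Setup
section
/-!
Adapted from `SmallSimple.BrauerTypesSetup` and `S0996` (hypothesis `NoForm p n`).
-/

set_option autoImplicit false
set_option linter.unusedSectionVars false
open Cfsg

namespace Cfsg.Agent.H607.BP.Setup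

open Subgroup Cfsg.Agent.SmallSimple.SelfCentPrime Cfsg.Agent.H607.BP.Types Cfsg.Agent.H607.BP.Arith
open Cfsg.Agent.SmallSimple.BrauerTypesSetup (not_normal eq_of_commutator_le)
open Cfsg.Agent.SmallSimple.BrauerTypesBasic

universe u
variable {G : Type u} [Group G] [Finite G] {p : ℕ} [hp : Fact p.Prime] {z : G}

/-- The numerical setup. -/
theorem setup (hperf : commutator G = ⊤) (hz : orderOf z = p)
    (hC : centralizer ({z} : Set G) = zpowers z)
    (hn : ∀ n, Nat.card (Sylow p G) = 1 + n * p → NoForm p n) :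
    ∃ (P : Sylow p G) (n e t : ℕ), (P : Subgroup G) = zpowers z ∧
      Nat.card P = p ∧
      centralizer (P : Set G) = P ∧
      (centralizer (P : Set G)).relIndex (normalizer (P : Set G)) = e ∧
      n * p + 1 = Nat.card (Sylow p G) ∧ p ≠ 2 ∧
      Hyp p n e t (P : Subgroup G) (normalizer (P : Set G)) := by
  obtain ⟨P, hP⟩ := exists_sylow_eq_zpowers hz hC
  obtain ⟨n, t, -, -, hnS, hGt⟩ := Cfsg.Agent.S0995.result hperf p z hz hC
  have hcP : Nat.card P = p := card_sylow_eq hz hC P
  have hcent : centralizer (P : Set G) = P := by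
    have h1 : centralizer ((zpowers z : Subgroup G) : Set G) = zpowers z := by
      rw [centralizer_zpowers, hC]
    rw [← hP] at h1
    exact h1
  have hPN : (P : Subgroup G) ≤ normalizer (P : Set G) := le_normalizer
  have hcN : Nat.card (normalizer (P : Set G)) =
      p * (centralizer (P : Set G)).relIndex (normalizer (P : Set G)) := by
    rw [hcent]
    have h1 := relIndex_mul_relIndex ⊥ (P : Subgroup G) (normalizer (P : Set G)) bot_le hPN
    have h2 : Nat.card (P : Subgroup G) = p := hcP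
    rw [relIndex_bot_left, relIndex_bot_left, h2] at h1
    exact h1.symm
  set e := (centralizer (P : Set G)).relIndex (normalizer (P : Set G)) with he
  have hidx : Nat.card (Sylow p G) = (normalizer (P : Set G)).index :=
    P.card_eq_index_normalizer
  have hcG : Nat.card G = p * e * (1 + n * p) := by
    have h1 := (normalizer (P : Set G)).card_mul_index
    rw [← hidx, hcN, hnS] at h1
    exact h1.symm
  have hp0 := hp.out.pos
  have het : e * t = p - 1 := by
    rw [hcG] at hGt
    have h2 : (p * (1 + n * p)) * (e * t) = (p * (1 + n * p)) * (p - 1) := by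
      linarith [hGt]
    exact Nat.eq_of_mul_eq_mul_left (Nat.mul_pos hp0 (by omega)) h2
  have hmemP : ∀ y ∈ normalizer (P : Set G), orderOf y = p → y ∈ (P : Subgroup G) := by
    intro y hy hyo
    have hpg : IsPGroup p (zpowers y) := by
      apply IsPGroup.of_card (n := 1)
      rw [Nat.card_zpowers, hyo, pow_one]
    have h1 := IsPGroup.inf_normalizer_sylow hpg P
    have h2 : y ∈ zpowers y ⊓ normalizer (P : Set G) := ⟨mem_zpowers y, hy⟩
    rw [h1] at h2
    exact h2.2
  have hordP : ∀ y ∈ (P : Subgroup G), y ≠ 1 → orderOf y = p := by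
    intro y hy hy1
    have h1 : orderOf y ∣ p := by
      have := Subgroup.orderOf_dvd_natCard (P : Subgroup G) hy
      rwa [show Nat.card (P : Subgroup G) = p from hcP] at this
    rcases (Nat.dvd_prime hp.out).1 h1 with h2 | h2
    · exact absurd (orderOf_eq_one_iff.1 h2) hy1
    · exact h2
  have hzP : z ∈ (P : Subgroup G) := hP ▸ mem_zpowers z
  -- `n ≥ 1`
  have hn1 : 1 ≤ n := by
    by_contra h
    have hn0 : n = 0 := by omega
    rw [hn0, zero_mul, add_zero] at hnS
    rw [hidx, Subgroup.index_eq_one] at hnS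
    refine not_normal hperf hz hC ?_
    intro g
    have hg : g ∈ normalizer (P : Set G) := hnS ▸ mem_top g
    rw [← hP]
    exact (mem_normalizer_iff.1 hg z).1 hzP
  have hperf' : ∀ f : G →* ℂˣ, f = 1 := by
    intro f
    have h1 := Abelianization.commutator_subset_ker f
    rw [hperf] at h1
    ext g
    have := h1 (mem_top g)
    rw [MonoidHom.mem_ker] at this
    rw [this]
    rfl
  -- `e ≥ 2`
  have he2 : 2 ≤ e := by
    by_contra h
    have he0 : e ≠ 0 := by
      intro h0
      rw [h0, mul_zero, zero_mul] at hcG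
      exact Nat.card_pos.ne' hcG
    have he1 : e = 1 := by omega
    have h1 : normalizer (P : Set G) ≤ centralizer (P : Set G) := by
      rw [← Subgroup.relIndex_eq_one, ← he, he1]
    have h2 := MonoidHom.ker_transferSylow_isComplement' P h1
    have h3 : commutator G ≤ (MonoidHom.transferSylow P h1).ker := by
      have hcommP : ∀ a b : P, a * b = b * a := by
        have : IsMulCommutative (P : Subgroup G) := by
          rw [hP]; infer_instance
        intro a b
        exact mul_comm' a b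
      rw [_root_.commutator_def, commutator_le]
      intro a _ b _
      rw [MonoidHom.mem_ker, commutatorElement_def]
      simp only [map_mul, map_inv]
      rw [hcommP (MonoidHom.transferSylow P h1 a) (MonoidHom.transferSylow P h1 b)]
      group
    rw [hperf, top_le_iff] at h3
    rw [h3] at h2
    have h4 : (P : Subgroup G) = ⊥ := by
      have := h2.disjoint
      rwa [top_disjoint] at this
    rw [h4, Subgroup.mem_bot] at hzP
    rw [hzP, orderOf_one] at hz
    exact hp.out.one_lt.ne hz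
  have hp2 : p ≠ 2 := by
    rintro rfl
    have : e ∣ 1 := Dvd.intro t het
    have := Nat.le_of_dvd (by norm_num) this
    omega
  refine ⟨P, n, e, t, hP, hcP, hcent, rfl, by rw [hnS, add_comm], hp2, ?_⟩
  refine ⟨hp.out, hPN, hcP, hcN, hcG, het, hn1, ?_, he2, ?_, hmemP, hperf'⟩
  · exact hn n (by rw [hnS])
  · intro y hy hy1 x hx
    have hyo := hordP y hy hy1
    have hyx : orderOf (x⁻¹ * y * x) = p := by
      rw [← hyo]
      have h7 : SemiconjBy x⁻¹ y (x⁻¹ * y * x) := by
        unfold SemiconjBy; group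
      exact (SemiconjBy.orderOf_eq _ h7).symm
    have h1 := hmemP _ hx hyx
    -- `P = ⟨y⟩ = ⟨x⁻¹ y x⟩`
    have hy' : y ∈ zpowers z := hP ▸ hy
    have e1 : zpowers y = (P : Subgroup G) := by
      rw [hP]; exact zpowers_eq_of_mem hz hy' hy1
    have hx1 : x⁻¹ * y * x ≠ 1 := by
      intro h
      rw [h, orderOf_one] at hyx
      exact hp.out.one_lt.ne hyx
    have e2 : zpowers (x⁻¹ * y * x) = (P : Subgroup G) := by
      rw [hP]; exact zpowers_eq_of_mem hz (hP ▸ h1) hx1
    have e3 : ∀ w : G, w ∈ (P : Subgroup G) → x⁻¹ * w * x ∈ (P : Subgroup G) := by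
      intro w hw
      rw [← e1] at hw
      obtain ⟨i, rfl⟩ := mem_zpowers_iff.1 hw
      have := conj_zpow (i := i) (a := x⁻¹) (b := y)
      rw [inv_inv] at this
      rw [← this, ← e2]
      exact zpow_mem (mem_zpowers _) i
    have e4 : ∀ w : G, w ∈ (P : Subgroup G) → x * w * x⁻¹ ∈ (P : Subgroup G) := by
      intro w hw
      rw [← e2] at hw
      obtain ⟨i, rfl⟩ := mem_zpowers_iff.1 hw
      have h5 : x * (x⁻¹ * y * x) ^ i * x⁻¹ = y ^ i := by
        have := conj_zpow (i := i) (a := x) (b := x⁻¹ * y * x)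
        rw [← this]
        congr 1
        group
      rw [h5, ← e1]
      exact zpow_mem (mem_zpowers _) i
    refine mem_normalizer_iff.2 ?_
    intro w
    constructor
    · exact e4 w
    · intro hw
      have := e3 _ hw
      have h6 : x⁻¹ * (x * w * x⁻¹) * x = w := by group
      rwa [h6] at this

/-- Self-centralizing Sylow subgroups of prime order, `n` not of the form. -/
theorem selfCent (hperf : commutator G = ⊤) (hz : orderOf z = p)
    (hC : centralizer ({z} : Set G) = zpowers z)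
    (hn : ∀ n, Nat.card (Sylow p G) = 1 + n * p → NoForm p n) :
    (∃ (F : Type) (_ : Field F) (_ : Fintype F), Fintype.card F = p ∧ 3 < p ∧
      Nonempty (G ≃* Matrix.ProjectiveSpecialLinearGroup (Fin 2) F)) ∨
    (∃ (m : ℕ) (F : Type) (_ : Field F) (_ : Fintype F), Fintype.card F = 2 ^ m ∧
      p = 2 ^ m + 1 ∧ 3 < p ∧ Nonempty (G ≃* Matrix.ProjectiveSpecialLinearGroup (Fin 2) F)) := by
  obtain ⟨P, n, e, t, -, hcP, hcent, he, hnS, hp2, H⟩ := setup hperf hz hC hn
  obtain ⟨NE, X, ε, d, S, h1, h2, h3, h4, h5, ⟨χ₁, h6, h6', h6''⟩, h7, h8, -, h9, h10⟩ :=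
    Cfsg.Agent.SmallSimple.TheoremBCor.theoremB_selfCent p hp2 P hcP hcent e t he H.het
  have htriv : χ₁ = triv G := Subtype.ext h6'
  rw [htriv] at h6 h6''
  exact Final.final hperf hz hC P hcP hcent hnS H
    { NE := NE, X := X, ε := ε, d := d, S := S, disj := h1, card_NE := h2, card_X := h3,
      ε_eq := h4, d_eq := h5, one_mem := ⟨h6, h6''⟩, val_NE := h7,
      card_S := fun Θ hΘ => (h8 Θ hΘ).1
      one_notMem_S := fun Θ hΘ => (h8 Θ hΘ).2.1
      val_X := fun Θ hΘ => (h8 Θ hΘ).2.2
      rel := h9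
      val_rest := fun χ hχ hχ' => (h10 χ hχ hχ').1 }

end Cfsg.Agent.H607.BP.Setup
end

-- part: S4700
section
set_option autoImplicit false
open Cfsg

namespace Cfsg.Agent.S4700

open Cfsg.Agent.H607.BP.Arith

/-- Let G be a finite perfect group and p a prime such that a Sylow p-subgroup of G has order p, and write the number of Sylow p-subgroups as 1 + np. Let H = O_p'(G). Then either p > 3 and G/H is isomorphic to PSL(2, p); or p = 2^m + 1 > 3 and G/H is isomorphic to SL(2, 2^m); or n = (hup + u^2 + u + h)/(u + 1) for some positive integers h and u. -/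
theorem result {G : Type*} [Group G] [Finite G] (hperf : commutator G = ⊤) (p : ℕ) [Fact p.Prime] (P : Sylow p G) (hP : Nat.card P = p) (n : ℕ) (hn : Nat.card (Sylow p G) = 1 + n * p) : (∃ (F : Type) (_ : Field F) (_ : Fintype F), Fintype.card F = p ∧ 3 < p ∧ Nonempty (G ⧸ Cfsg.pPrimeCore p G ≃* Matrix.ProjectiveSpecialLinearGroup (Fin 2) F)) ∨ (∃ (m : ℕ) (F : Type) (_ : Field F) (_ : Fintype F), Fintype.card F = 2 ^ m ∧ p = 2 ^ m + 1 ∧ 3 < p ∧ Nonempty (G ⧸ Cfsg.pPrimeCore p G ≃* Matrix.SpecialLinearGroup (Fin 2) F)) ∨ (∃ h u : ℕ, 0 < h ∧ 0 < u ∧ n * (u + 1) = h * u * p + u ^ 2 + u + h) := by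
  classical
  have hp : p.Prime := Fact.out
  by_cases hF : NoForm p n
  swap
  · unfold NoForm at hF
    push Not at hF
    obtain ⟨h, u, h1, h2, h3⟩ := hF
    exact Or.inr (Or.inr ⟨h, u, h1, h2, h3⟩)
  let H := Cfsg.pPrimeCore p G
  have hHc : (Nat.card H).Coprime p := Cfsg.Agent.Lib.Cores.pPrimeCore_coprime p
  have hs : Function.Surjective (QuotientGroup.mk' H) := QuotientGroup.mk'_surjective H
  let Q : Sylow p (G ⧸ H) := P.mapSurjective hs
  -- `G / H` is perfect
  have hperf' : commutator (G ⧸ H) = ⊤ := by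
    have h1 : (commutator G).map (QuotientGroup.mk' H) = commutator (G ⧸ H) := by
      rw [_root_.commutator_def, _root_.commutator_def, Subgroup.map_commutator,
        ← MonoidHom.range_eq_map, MonoidHom.range_eq_top.2 hs]
    rw [← h1, hperf, ← MonoidHom.range_eq_map, MonoidHom.range_eq_top.2 hs]
  have hcore : ∀ N : Subgroup (G ⧸ H), N.Normal → (Nat.card N).Coprime p → N = ⊥ := by
    intro N hN hc
    have h1 := Cfsg.Agent.Lib.Cores.le_pPrimeCore hN hc
    rw [Cfsg.Agent.Lib.Cores.pPrimeCore_quotient_pPrimeCore] at h1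
    exact le_bot_iff.1 h1
  -- the order of `Q`
  have hinf : (P : Subgroup G) ⊓ H = ⊥ := by
    apply Subgroup.inf_eq_bot_of_coprime
    rw [show Nat.card (P : Subgroup G) = p from hP]
    exact hHc.symm
  have hQ : Nat.card Q = p := by
    have h1 : (Q : Subgroup (G ⧸ H)) = (P : Subgroup G).map (QuotientGroup.mk' H) :=
      Sylow.coe_mapSurjective hs P
    have h2 : Nat.card ((P : Subgroup G).map (QuotientGroup.mk' H)) = Nat.card (P : Subgroup G) := by
      apply Nat.card_congr
      refine (Equiv.ofBijective (fun x : (P : Subgroup G) =>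
        (⟨QuotientGroup.mk' H x, ⟨x, x.2, rfl⟩⟩ :
          (P : Subgroup G).map (QuotientGroup.mk' H))) ⟨?_, ?_⟩).symm
      · intro x y hxy
        have h3 : QuotientGroup.mk' H (x : G) = QuotientGroup.mk' H (y : G) :=
          congrArg Subtype.val hxy
        have h4 : (x : G)⁻¹ * y ∈ H := QuotientGroup.eq.1 h3
        have h5 : (x : G)⁻¹ * y ∈ (P : Subgroup G) ⊓ H :=
          ⟨(P : Subgroup G).mul_mem ((P : Subgroup G).inv_mem x.2) y.2, h4⟩
        rw [hinf, Subgroup.mem_bot, inv_mul_eq_one] at h5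
        exact Subtype.ext h5
      · rintro ⟨_, x, hx, rfl⟩
        exact ⟨⟨x, hx⟩, rfl⟩
    have h3 : Nat.card (Q : Subgroup (G ⧸ H)) = Nat.card (P : Subgroup G) := by rw [h1, h2]
    exact h3.trans hP
  -- the number of Sylow subgroups of `G / H`
  have hdvd : Nat.card (Sylow p (G ⧸ H)) ∣ Nat.card (Sylow p G) :=
    Cfsg.Agent.H482.SylowNumbers.card_sylow_dvd_of_surjective p (QuotientGroup.mk' H) hs
  have hmod : Nat.card (Sylow p (G ⧸ H)) % p = 1 := by
    have := card_sylow_modEq_one p (G ⧸ H)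
    have h1 : Nat.card (Sylow p (G ⧸ H)) % p = 1 % p := this
    rw [h1, Nat.mod_eq_of_lt hp.one_lt]
  obtain ⟨n', hn'⟩ : ∃ n', Nat.card (Sylow p (G ⧸ H)) = 1 + n' * p := by
    refine ⟨Nat.card (Sylow p (G ⧸ H)) / p, ?_⟩
    have := Nat.mod_add_div (Nat.card (Sylow p (G ⧸ H))) p
    rw [hmod] at this
    rw [mul_comm]
    exact this.symm
  have hn'1 : n' ≠ 0 := by
    rintro rfl
    rw [zero_mul, add_zero, Q.card_eq_index_normalizer, Subgroup.index_eq_one] at hn'
    exact Cfsg.Agent.H607.BP.NonSelf.not_normal hperf' Q hQ hn'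
  have hnn : n' = n := by
    obtain ⟨k, hk⟩ := hdvd
    rw [hn, hn'] at hk
    have hkm : k % p = 1 := by
      have h1 : (1 + n * p) % p = ((1 + n' * p) * k) % p := by rw [hk]
      rw [Nat.add_mul_mod_self_right, Nat.mul_mod, Nat.add_mul_mod_self_right, ← Nat.mul_mod,
        one_mul, Nat.mod_eq_of_lt hp.one_lt] at h1
      exact h1.symm
    obtain ⟨m, hm⟩ : ∃ m, k = 1 + m * p := by
      refine ⟨k / p, ?_⟩
      have := Nat.mod_add_div k p
      rw [hkm] at this
      rw [mul_comm]
      exact this.symm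
    rcases Nat.eq_zero_or_pos m with h0 | h0
    · rw [h0, zero_mul, add_zero] at hm
      rw [hm, mul_one] at hk
      have h2 : n * p = n' * p := by omega
      exact (Nat.eq_of_mul_eq_mul_right hp.pos h2).symm
    · exfalso
      refine hF (m * (n' + 1)) n' (Nat.mul_pos h0 (Nat.succ_pos _)) (Nat.pos_of_ne_zero hn'1) ?_
      rw [hm] at hk
      have h3 : n = n' + m + m * n' * p := by
        have h4 : n * p = (n' + m + m * n' * p) * p := by
          have h5 : 1 + n * p = 1 + (n' + m + m * n' * p) * p := by rw [hk]; ring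
          omega
        exact Nat.eq_of_mul_eq_mul_right hp.pos h4
      rw [h3]; ring
  rw [hnn] at hn'
  have hcent := Cfsg.Agent.H607.BP.NonSelf.cent_eq hperf' hcore Q hQ hn' hF
  obtain ⟨z, hzQ, hz1⟩ := Cfsg.Agent.H607.BP.NonSelf.exists_ne_one Q hQ
  have hz : orderOf z = p := by
    have h1 : orderOf z ∣ p := by
      have := Subgroup.orderOf_dvd_natCard (Q : Subgroup (G ⧸ H)) hzQ
      rwa [show Nat.card (Q : Subgroup (G ⧸ H)) = p from hQ] at this
    rcases (Nat.dvd_prime hp).1 h1 with h2 | h2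
    · exact absurd (orderOf_eq_one_iff.1 h2) hz1
    · exact h2
  have hC : Subgroup.centralizer ({z} : Set (G ⧸ H)) = Subgroup.zpowers z := by
    have h1 := Cfsg.Agent.Blocks.CyclicOrtho.centralizer_eq Q hQ hzQ hz1
    rw [h1]
    have h2 : Subgroup.zpowers z = (Q : Subgroup (G ⧸ H)) := by
      apply Subgroup.eq_of_le_of_card_ge
      · rw [Subgroup.zpowers_le]; exact hzQ
      · rw [Nat.card_zpowers, hz]; exact hQ.le
    rw [h2]
    exact hcent
  rcases Cfsg.Agent.H607.BP.Setup.selfCent hperf' hz hC (by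
    intro k hk
    rw [hn'] at hk
    have h1 : n * p = k * p := by omega
    rw [← Nat.eq_of_mul_eq_mul_right hp.pos h1]
    exact hF) with ⟨F, i1, i2, h1, h2, h3⟩ | ⟨m, F, i1, i2, h1, h2, h3, ⟨f⟩⟩
  · exact Or.inl ⟨F, i1, i2, h1, h2, h3⟩
  · right; left
    have hm : m ≠ 0 := by
      rintro rfl
      rw [pow_zero] at h2
      omega
    have : Fact (Nat.Prime 2) := ⟨Nat.prime_two⟩
    have hchar : CharP F 2 := by
      obtain ⟨q, hq⟩ := CharP.exists F
      have hqp : q.Prime := CharP.char_is_prime F q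
      obtain ⟨k, -, hk⟩ := FiniteField.card F q
      rw [h1] at hk
      have h4 : q ∣ 2 ^ m := by rw [hk]; exact dvd_pow_self q k.pos.ne'
      have h5 : q = 2 := (Nat.prime_dvd_prime_iff_eq hqp Nat.prime_two).1
        (hqp.dvd_of_dvd_pow h4)
      rw [← h5]
      exact hq
    exact ⟨m, F, i1, i2, h1, h2, h3, ⟨f.trans (Cfsg.Agent.H426.psl2EvenEquiv F)⟩⟩

end Cfsg.Agent.S4700
end
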