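import Cfsg.Statements.S4701
import Cfsg.Agent.H655.PrimeNormal
import Cfsg.Agent.S0999
import Cfsg.Agent.S0243
import Cfsg.Agent.H426.SL2Unrec
set_option linter.all false

set_option autoImplicit false
open Cfsg

namespace Cfsg.Agent.S4701

open Cfsg.Agent.H655.PrimeNormal

/-- the order of `PSL(2, F)` -/
theorem card_psl {F : Type} [Field F] [Fintype F] {q : ℕ} (hF : Fintype.card F = q) :
    Nat.gcd 2 (q - 1) * Nat.card (Matrix.ProjectiveSpecialLinearGroup (Fin 2) F) = q * (q ^ 2 - 1) := by
  have hq : 1 < q := by rw [← hF]; exact Fintype.one_lt_card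
  have h := Cfsg.Agent.S0243.result (F := F) rfl 2 le_rfl
  rw [hF] at h
  rw [Fin.prod_univ_two] at h
  simp only [Fin.val_zero, Fin.val_one, pow_zero, pow_one] at h
  have h2 : (q ^ 2 - 1) * (q ^ 2 - q) = (q - 1) * (q * (q ^ 2 - 1)) := by
    have : q ^ 2 - q = (q - 1) * q := by
      rw [Nat.sub_mul, one_mul, pow_two]
    rw [this]; ring
  rw [h2] at h
  have h3 : (q - 1) * (Nat.gcd 2 (q - 1) * Nat.card (Matrix.ProjectiveSpecialLinearGroup (Fin 2) F)) =
      (q - 1) * (q * (q ^ 2 - 1)) := by
    rw [← h]; ring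
  exact Nat.eq_of_mul_eq_mul_left (by omega) h3

/-- Let G be a finite perfect group and p a prime dividing the order of G with p^3 larger than the order of G. Suppose a Sylow p-subgroup of G is not normal and G has no normal subgroup of order 2. Then p > 3 and G is isomorphic to PSL(2, p), or to SL(2, 2^m) with p = 2^m + 1. -/
theorem result {G : Type*} [Group G] [Finite G] (hperf : commutator G = ⊤) (p : ℕ) [Fact p.Prime] (hdvd : p ∣ Nat.card G) (hbig : Nat.card G < p ^ 3) (P : Sylow p G) (hP : ¬ (P : Subgroup G).Normal) (h2 : ∀ N : Subgroup G, N.Normal → Nat.card N ≠ 2) : (∃ (F : Type) (_ : Field F) (_ : Fintype F), Fintype.card F = p ∧ 3 < p ∧ Nonempty (G ≃* Matrix.ProjectiveSpecialLinearGroup (Fin 2) F)) ∨ (∃ (m : ℕ) (F : Type) (_ : Field F) (_ : Fintype F), Fintype.card F = 2 ^ m ∧ p = 2 ^ m + 1 ∧ 3 < p ∧ Nonempty (G ≃* Matrix.SpecialLinearGroup (Fin 2) F)) := by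
  classical
  have hp : p.Prime := Fact.out
  have hp2 := hp.two_le
  -- `|P| = p`
  have hnp : p + 1 ≤ Nat.card (Sylow p G) := by
    have h1 := card_sylow_modEq_one p G
    have h3 : Nat.card (Sylow p G) ≠ 1 := by
      intro h
      have := (Nat.card_eq_one_iff_unique.1 h).1
      exact hP (Sylow.normal_of_subsingleton P)
    have h4 : 0 < Nat.card (Sylow p G) := Nat.card_pos
    by_contra hlt
    push Not at hlt
    have h5 : Nat.card (Sylow p G) % p = 1 % p := h1
    rw [Nat.mod_eq_of_lt hp.one_lt] at h5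
    rcases Nat.lt_or_ge (Nat.card (Sylow p G)) p with h6 | h6
    · rw [Nat.mod_eq_of_lt h6] at h5
      exact h3 h5
    · have h7 : Nat.card (Sylow p G) = p := by omega
      rw [h7, Nat.mod_self] at h5
      omega
  have hPcard : Nat.card P = p := by
    have h1 := P.card_eq_multiplicity
    have h3 : p ^ 1 ∣ Nat.card G := by rw [pow_one]; exact hdvd
    have h4 : 1 ≤ (Nat.card G).factorization p :=
      (hp.pow_dvd_iff_le_factorization Nat.card_pos.ne').1 h3
    have h5 : (Nat.card G).factorization p < 2 := by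
      by_contra hge
      push Not at hge
      have h6 : Nat.card (Sylow p G) * Nat.card P ∣ Nat.card G := by
        have h7 := Cfsg.Agent.SmallSimple.BurnsideNC.card_sylow_mul_card_normalizer P
        have h8 : Nat.card P ∣ Nat.card (Subgroup.normalizer ((P : Subgroup G) : Set G)) :=
          Subgroup.card_dvd_of_le Subgroup.le_normalizer
        rw [← h7]
        exact Nat.mul_dvd_mul_left _ h8
      have h7 := Nat.le_of_dvd Nat.card_pos h6
      have h8 : p ^ 2 ≤ Nat.card P := by
        rw [h1]
        exact Nat.pow_le_pow_right hp.pos hge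
      have h9 : (p + 1) * p ^ 2 ≤ Nat.card G := (Nat.mul_le_mul hnp h8).trans h7
      have h10 : (p + 1) * p ^ 2 = p ^ 3 + p ^ 2 := by ring
      omega
    rw [h1, show (Nat.card G).factorization p = 1 by omega, pow_one]
  set M := Subgroup.normalClosure ((P : Subgroup G) : Set G) with hM
  obtain ⟨R, hR, hRG, hsimple, hnd, hdvdS, hmax⟩ := exists_section P hPcard
  have hMn : M.Normal := Subgroup.normalClosure_normal
  have hPM : (P : Subgroup G) ≤ M := Subgroup.subset_normalClosure
  have hnc := not_comm hperf P hPcard M hMn hPM R hRG hnd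
  have hcM : Nat.card M = Nat.card (M ⧸ R) * Nat.card R :=
    Subgroup.card_eq_card_quotient_mul_card_subgroup R
  have hcG : Nat.card G = M.index * Nat.card M := (M.index_mul_card).symm
  have hS : Nat.card (M ⧸ R) < p ^ 3 := by
    have h1 : Nat.card (M ⧸ R) ≤ Nat.card G := by
      apply Nat.le_of_dvd Nat.card_pos
      rw [hcG, hcM]
      exact ⟨M.index * Nat.card R, by ring⟩
    omega
  have key : Nat.card (M ⧸ R) * (M.index * Nat.card R) = Nat.card G := by
    rw [hcG, hcM]; ring
  have hidx0 : 0 < M.index := Nat.pos_of_ne_zero M.index_ne_zero_of_finite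
  have hR0 : 0 < Nat.card R := Nat.card_pos
  -- once `|G : M| |R| ≤ 2` we are done
  have hfin : M.index * Nat.card R < 3 → Nonempty (G ≃* (M ⧸ R)) := by
    intro hlt
    have hidx : M.index = 1 := by
      have h1 : M.index ≤ 2 := by
        have : M.index * 1 ≤ M.index * Nat.card R := Nat.mul_le_mul_left _ hR0
        omega
      by_contra hne
      have h3 : M.index = 2 := by omega
      -- `G / M` has order 2, commutative
      have h4 : IsCyclic (G ⧸ M) := by
        have := Fact.mk Nat.prime_two
        exact isCyclic_of_prime_card (p := 2) h3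
      have h5 : commutator G ≤ M := by
        rw [commutator_def, Subgroup.commutator_le]
        intro a _ b _
        rw [← QuotientGroup.eq_one_iff]
        have h6 : ∀ x y : G ⧸ M, x * y = y * x :=
          (IsCyclic.isMulCommutative (α := G ⧸ M)).is_comm.comm
        show (QuotientGroup.mk (a * b * a⁻¹ * b⁻¹) : G ⧸ M) = 1
        rw [QuotientGroup.mk_mul, QuotientGroup.mk_mul, QuotientGroup.mk_mul, h6 (QuotientGroup.mk a)]
        rw [QuotientGroup.mk_inv, QuotientGroup.mk_inv]
        group
      rw [hperf, top_le_iff] at h5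
      rw [h5, Subgroup.index_top] at h3
      omega
    have hMt : M = ⊤ := Subgroup.index_eq_one.1 hidx
    have hRc : Nat.card R = 1 := by
      rw [hidx, one_mul] at hlt
      have h3 := h2 (R.map M.subtype) hRG
      rw [Nat.card_congr (R.equivMapOfInjective M.subtype M.subtype_injective).toEquiv.symm] at h3
      omega
    have hRb : R = ⊥ := Subgroup.card_eq_one.1 hRc
    let e1 : (M ⧸ R) ≃* M := (QuotientGroup.quotientMulEquivOfEq hRb).trans QuotientGroup.quotientBot
    let e2 : M ≃* G := (MulEquiv.subgroupCongr hMt).trans Subgroup.topEquiv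
    exact ⟨(e1.trans e2).symm⟩
  rcases Cfsg.Agent.S0999.result hnc p hp hdvdS hS with
    ⟨F, hF, hFf, hFc, hp3, ⟨e⟩⟩ | ⟨m, F, hF, hFf, hFc, hpm, hp3, ⟨e⟩⟩
  · left
    refine ⟨F, hF, hFf, hFc, hp3, ?_⟩
    have hcS := card_psl hFc
    rw [← Nat.card_congr e.toEquiv] at hcS
    have hg : Nat.gcd 2 (p - 1) ≤ 2 := Nat.gcd_le_left _ (by norm_num)
    have h3 : p * (p ^ 2 - 1) ≤ 2 * Nat.card (M ⧸ R) := by
      rw [← hcS]
      exact Nat.mul_le_mul_right _ hg
    have h4 : M.index * Nat.card R < 3 := by
      by_contra hge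
      push Not at hge
      have h5 : Nat.card (M ⧸ R) * 3 ≤ Nat.card G := by
        rw [← key]
        exact Nat.mul_le_mul_left _ hge
      have h6 : p * (p ^ 2 - 1) = p ^ 3 - p := by
        rw [Nat.mul_sub, mul_one]
        congr 1
        ring
      have h7 : 16 * p ≤ p ^ 3 := by
        have : 4 * 4 * p ≤ p * p * p := by gcongr <;> omega
        calc 16 * p = 4 * 4 * p := by ring
          _ ≤ p * p * p := this
          _ = p ^ 3 := by ring
      omega
    obtain ⟨e'⟩ := hfin h4
    exact ⟨e'.trans e⟩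
  · right
    refine ⟨m, F, hF, hFf, hFc, hpm, hp3, ?_⟩
    have hcS := card_psl hFc
    rw [← Nat.card_congr e.toEquiv] at hcS
    have hm : 2 ^ m = p - 1 := by omega
    have hm0 : m ≠ 0 := by
      rintro rfl
      omega
    have hodd : Nat.gcd 2 (2 ^ m - 1) = 1 := by
      have h3 : ¬ 2 ∣ 2 ^ m - 1 := by
        intro h
        have h4 : 2 ∣ 2 ^ m := dvd_pow_self 2 hm0
        have h6 : 0 < 2 ^ m := by positivity
        omega
      exact (Nat.prime_two.coprime_iff_not_dvd).2 h3
    rw [hodd, one_mul] at hcS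
    have h4 : M.index * Nat.card R < 3 := by
      by_contra hge
      push Not at hge
      have h5 : Nat.card (M ⧸ R) * 3 ≤ Nat.card G := by
        rw [← key]
        exact Nat.mul_le_mul_left _ hge
      obtain ⟨q, hq⟩ : ∃ q, q = 2 ^ m := ⟨_, rfl⟩
      rw [← hq] at hcS hm
      have hpq : p = q + 1 := by omega
      have h6 : q * (q ^ 2 - 1) * 3 < (q + 1) ^ 3 := by
        rw [← hcS, ← hpq]
        omega
      have h7 : q ^ 2 - 1 = (q + 1) * (q - 1) := by
        have : q ^ 2 - 1 ^ 2 = (q + 1) * (q - 1) := Nat.sq_sub_sq q 1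
        simpa using this
      rw [h7] at h6
      have h8 : (q + 1) * (q * (q - 1) * 3) < (q + 1) * (q + 1) ^ 2 := by
        calc (q + 1) * (q * (q - 1) * 3) = q * ((q + 1) * (q - 1)) * 3 := by ring
          _ < (q + 1) ^ 3 := h6
          _ = (q + 1) * (q + 1) ^ 2 := by ring
      have h9 := lt_of_mul_lt_mul_left h8 (Nat.zero_le _)
      obtain ⟨k, hk⟩ : ∃ k, q = k + 4 := ⟨q - 4, by
        -- `q ≥ 4` is a power of two `≥ 3`
        have : 3 ≤ q := by omega
        have hq4 : q ≠ 3 := by
          intro h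
          rw [h] at hq
          have : 2 ∣ 3 := by rw [hq]; exact dvd_pow_self 2 hm0
          omega
        omega⟩
      rw [hk] at h9
      have h10 : k + 4 - 1 = k + 3 := by omega
      rw [h10] at h9
      nlinarith
    obtain ⟨e'⟩ := hfin h4
    have hchar : CharP F 2 := by
      obtain ⟨q, hq⟩ := CharP.exists F
      have hqp : q.Prime := (CharP.char_is_prime_or_zero F q).resolve_right (by
        intro h0
        have : CharP F 0 := by rw [← h0]; exact hq
        have := CharP.charP_to_charZero F
        exact not_finite F)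
      have hd : q ∣ Fintype.card F := by
        rw [← CharP.cast_eq_zero_iff F q]
        exact Nat.cast_card_eq_zero F
      rw [hFc] at hd
      have : q = 2 := (Nat.prime_dvd_prime_iff_eq hqp Nat.prime_two).1 (hqp.dvd_of_dvd_pow hd)
      rw [← this]; exact hq
    have hz : Subgroup.center (Matrix.SpecialLinearGroup (Fin 2) F) = ⊥ :=
      Cfsg.Agent.H426.center_sl2_even
    let e3 : Matrix.ProjectiveSpecialLinearGroup (Fin 2) F ≃* Matrix.SpecialLinearGroup (Fin 2) F :=
      (QuotientGroup.quotientMulEquivOfEq hz).trans QuotientGroup.quotientBot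
    exact ⟨(e'.trans e).trans e3⟩

end Cfsg.Agent.S4701
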