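import Cfsg.Statements.S4702
import Cfsg.Agent.PermutationGroups.SharpThreeEvenMain
import Cfsg.Agent.PermutationGroups.SharplyTwoTransitive
import Cfsg.Agent.LieExceptional.PGLeqPSL
import Cfsg.Agent.H426.SL2Unrec
set_option linter.all false

set_option autoImplicit false
open Cfsg

namespace Cfsg.Agent.S4702

/-- the degree of a sharply 2-transitive action on an even number of points is a power of two -/
theorem two_pow_of_sharp {G α : Type*} [Group G] [MulAction G α] [Finite α] [Nontrivial α]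
    (hT : ∀ a b c d : α, a ≠ b → c ≠ d → ∃ g : G, g • a = c ∧ g • b = d)
    (hU : ∀ (g : G) (a b : α), a ≠ b → g • a = a → g • b = b → g = 1)
    (hev : Even (Nat.card α)) : ∃ a : ℕ, Nat.card α = 2 ^ a := by
  obtain ⟨N, -, -, -, -, hc, hconj⟩ :=
    Cfsg.Agent.PermutationGroups.SharplyTwoTransitive.exists_regular_normal hT hU
  have hpos : 0 < Nat.card α := Nat.card_pos
  have hfin : Finite N := Nat.finite_of_card_ne_zero (by omega)
  have h2 : 2 ∣ Nat.card N := by rw [hc]; exact hev.two_dvd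
  obtain ⟨x, hx⟩ := exists_prime_orderOf_dvd_card' (G := N) 2 h2
  have hx1 : (x : G) ≠ 1 := by
    intro h
    have : x = 1 := Subtype.ext h
    rw [this, orderOf_one] at hx
    omega
  have hpg : IsPGroup 2 N := by
    intro y
    refine ⟨1, ?_⟩
    by_cases hy : (y : G) = 1
    · have : y = 1 := Subtype.ext hy
      rw [this, one_pow]
    · obtain ⟨g, hg⟩ := hconj x x.2 y y.2 hx1 hy
      apply Subtype.ext
      have hx2 : (x : G) ^ 2 = 1 := by
        have := pow_orderOf_eq_one x
        rw [hx] at this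
        exact congrArg Subtype.val this
      rw [Subgroup.coe_pow, pow_one, ← hg, conj_pow, hx2]
      simp
  obtain ⟨n, hn⟩ := (IsPGroup.iff_card (p := 2) (G := N)).1 hpg
  exact ⟨n, by rw [← hc, hn]⟩

/-- Let G be a triply transitive permutation group on a finite set of odd size m ≥ 3 in which only the identity fixes three or more points. Then m = 2^a + 1 for some a ≥ 1 and G is isomorphic to SL(2, 2^a). -/
theorem result {α : Type*} [Fintype α] [DecidableEq α] (hm : 3 ≤ Fintype.card α) (hodd : Odd (Fintype.card α)) (G : Subgroup (Equiv.Perm α)) (h3 : MulAction.IsMultiplyPretransitive G α 3) (hfix : ∀ g : G, 3 ≤ Nat.card (MulAction.fixedBy α g) → g = 1) : ∃ a : ℕ, 1 ≤ a ∧ Fintype.card α = 2 ^ a + 1 ∧ ∃ (F : Type) (_ : Field F) (_ : Fintype F), Fintype.card F = 2 ^ a ∧ Nonempty (G ≃* Matrix.SpecialLinearGroup (Fin 2) F) := by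
  classical
  have key : ∀ a b c : α, a ≠ b → a ≠ c → b ≠ c → ∃ x : Fin 3 ↪ α, x 0 = a ∧ x 1 = b ∧ x 2 = c := by
    intro a b c hab hac hbc
    refine ⟨⟨![a, b, c], ?_⟩, rfl, rfl, rfl⟩
    intro i j hij
    fin_cases i <;> fin_cases j <;> simp_all
  have H3 : ∀ a b c a' b' c' : α, a ≠ b → a ≠ c → b ≠ c → a' ≠ b' → a' ≠ c' → b' ≠ c' →
      ∃ g ∈ G, g a = a' ∧ g b = b' ∧ g c = c' := by
    intro a b c a' b' c' h1 h2 h3' h4 h5 h6
    obtain ⟨x, hx0, hx1, hx2⟩ := key a b c h1 h2 h3'
    obtain ⟨y, hy0, hy1, hy2⟩ := key a' b' c' h4 h5 h6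
    obtain ⟨g, hg⟩ := h3.exists_smul_eq x y
    refine ⟨g, g.2, ?_, ?_, ?_⟩
    · rw [← hx0, ← hy0, ← hg]; rfl
    · rw [← hx1, ← hy1, ← hg]; rfl
    · rw [← hx2, ← hy2, ← hg]; rfl
  have HS : ∀ g ∈ G, ∀ a b c : α, a ≠ b → a ≠ c → b ≠ c → g a = a → g b = b → g c = c → g = 1 := by
    intro g hg a b c hab hac hbc ha hb hc
    have h := hfix ⟨g, hg⟩ (by
      have hsub : ({a, b, c} : Set α) ⊆ MulAction.fixedBy α (⟨g, hg⟩ : G) := by
        intro x hx
        simp only [Set.mem_insert_iff, Set.mem_singleton_iff] at hx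
        rw [MulAction.mem_fixedBy]
        rcases hx with rfl | rfl | rfl
        · exact ha
        · exact hb
        · exact hc
      have h3c : Set.ncard ({a, b, c} : Set α) = 3 := by
        rw [Set.ncard_eq_toFinset_card']
        simp [hab, hac, hbc]
      have := Set.ncard_le_ncard hsub (Set.toFinite _)
      rw [h3c] at this
      exact this)
    exact congrArg Subtype.val h
  -- a point
  obtain ⟨p0⟩ : Nonempty α := Fintype.card_pos_iff.1 (by omega)
  -- the action of the stabiliser on the complement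
  let Ω := SubMulAction.ofStabilizer G p0
  have hcΩ : Nat.card Ω = Fintype.card α - 1 := by
    rw [SubMulAction.nat_card_ofStabilizer_eq, Nat.card_eq_fintype_card]
  have hfin : Finite Ω := Nat.finite_of_card_ne_zero (by omega)
  have hnt : Nontrivial Ω := Finite.one_lt_card_iff_nontrivial.1 (by omega)
  have hcoe : ∀ (g : MulAction.stabilizer G p0) (x : Ω), ((g • x : Ω) : α) = (g : G) • (x : α) := by
    intro g x; rfl
  have hne : ∀ x : Ω, (x : α) ≠ p0 := by
    intro x
    exact x.2
  obtain ⟨a, ha⟩ := two_pow_of_sharp (G := MulAction.stabilizer G p0) (α := Ω) (by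
    intro x y z w hxy hzw
    obtain ⟨g, hg, h0, h1, h2⟩ := H3 p0 x y p0 z w (hne x).symm (hne y).symm
      (fun h => hxy (Subtype.ext h)) (hne z).symm (hne w).symm (fun h => hzw (Subtype.ext h))
    refine ⟨⟨⟨g, hg⟩, ?_⟩, ?_, ?_⟩
    · rw [MulAction.mem_stabilizer_iff]; exact h0
    · apply Subtype.ext; rw [hcoe]; exact h1
    · apply Subtype.ext; rw [hcoe]; exact h2) (by
    intro g x y hxy hx hy
    have := HS g.1 g.1.2 p0 x y (hne x).symm (hne y).symm (fun h => hxy (Subtype.ext h))
      (MulAction.mem_stabilizer_iff.1 g.2) (by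
        have := congrArg Subtype.val hx
        rw [hcoe] at this
        exact this) (by
        have := congrArg Subtype.val hy
        rw [hcoe] at this
        exact this)
    apply Subtype.ext
    apply Subtype.ext
    exact this) (by
    rw [hcΩ]
    obtain ⟨k, hk⟩ := hodd
    exact ⟨k, by omega⟩)
  have ha1 : 1 ≤ a := by
    rcases Nat.eq_zero_or_pos a with h | h
    · rw [h, pow_zero, hcΩ] at ha; omega
    · exact h
  have hcard : Fintype.card α = 2 ^ a + 1 := by
    rw [← ha, hcΩ]; omega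
  refine ⟨a, ha1, hcard, ?_⟩
  obtain ⟨F, hF, hFf, hFc, ⟨e⟩⟩ :=
    Cfsg.Agent.PermutationGroups.SharpThreeEvenMain.main ha1 hcard G H3 HS
  refine ⟨F, hF, hFf, hFc, ?_⟩
  have hchar : CharP F 2 := by
    obtain ⟨q, hq⟩ := CharP.exists F
    have hqp : q.Prime := (CharP.char_is_prime_or_zero F q).resolve_right (by
      intro h0
      have : CharP F 0 := by rw [← h0]; exact hq
      have := CharP.charP_to_charZero F
      exact not_finite F)
    have hd : q ∣ Fintype.card F := by
      rw [← CharP.cast_eq_zero_iff F q]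
      exact Nat.cast_card_eq_zero F
    rw [hFc] at hd
    have : q = 2 := (Nat.prime_dvd_prime_iff_eq hqp Nat.prime_two).1 (hqp.dvd_of_dvd_pow hd)
    rw [← this]; exact hq
  have hsq : ∀ x : F, ∃ r : F, x = r ^ 2 := by
    intro x
    obtain ⟨r, hr⟩ := (bijective_frobenius F 2).2 x
    exact ⟨r, by rw [← hr, frobenius_def]⟩
  obtain ⟨e2⟩ := Cfsg.Agent.LieExceptional.PGLeqPSL.nonempty_pgl_mulEquiv_psl F hsq
  have hz : Subgroup.center (Matrix.SpecialLinearGroup (Fin 2) F) = ⊥ :=
    Cfsg.Agent.H426.center_sl2_even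
  let e3 : Matrix.ProjectiveSpecialLinearGroup (Fin 2) F ≃* Matrix.SpecialLinearGroup (Fin 2) F :=
    (QuotientGroup.quotientMulEquivOfEq hz).trans QuotientGroup.quotientBot
  exact ⟨(e.trans e2).trans e3⟩

end Cfsg.Agent.S4702
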