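import Mathlib
import Cfsg.Prelude.Def_Blocks
import Cfsg.Agent.CharactersDeep.NormalSylow
import Cfsg.Agent.H656.TwoPSimple
import Cfsg.Agent.H656.PM2Centre
import Cfsg.Agent.H656.PM2Seven
import Cfsg.Agent.H656.DihedralP
import Cfsg.Agent.S0165
import Cfsg.Agent.H418.Frob
import Cfsg.Agent.Characters.GaloisBasic
import Cfsg.Agent.Characters.CentralCharacter
import Cfsg.Agent.SporadicA.M11CharSimple
import Cfsg.Statements.S4705
import Cfsg.Agent.S4701
import Cfsg.Agent.ClassicalGeometry.PSL2Basic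
set_option linter.all false

-- part: H656/PM2Reduction
section
/-!
# Reduction to perfect groups

`P` is a nonnormal Sylow `p`-subgroup of order `p > 5` and the group has a faithful irreducible
character of degree `p - 2`. The commutator subgroup `G₁` inherits the hypotheses, is perfect and
`G = G₁ Z(G)`.
-/

set_option autoImplicit false
set_option linter.unusedSectionVars false
set_option linter.unusedVariables false

namespace Cfsg.Agent.H656.PM2Reduction

open Cfsg ZMod
open scoped ComplexConjugate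
open Cfsg.Agent.Blocks.Basic
open Cfsg.Agent.H593.D1Local
open Cfsg.Agent.H656.PM2Centre
open Cfsg.Agent.Characters.Core (isIrr_isCharacter isCharacter_apply_inv isIrr_comp
  isCharacter_comp classInner_irr_self classInner_irr_ne isIrr_iff_classInner_self
  isIrr_isClassFunction finite_irr classFunction_eq_sum isCharacter_mul classInner_isNat
  isIrr_apply_one)

variable {G : Type*} [Group G] [Fintype G] {p : ℕ} [hp : Fact p.Prime] {K : Subgroup G}

theorem zpowers_eq {P : Subgroup G} (hP : Nat.card P = p) {z : G} (hz : z ∈ P)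
    (hzo : orderOf z = p) : Subgroup.zpowers z = P := by
  have : Finite P := inferInstance
  apply Subgroup.eq_of_le_of_card_ge
  · rwa [Subgroup.zpowers_le]
  · rw [hP, Nat.card_zpowers, hzo]

/-- **Normal `p'`-subgroups centralize `P`.** -/
theorem le_centralizer (P : Sylow p G) (hP : Nat.card P = p) (ζ : G → ℂ)
    (hζ : IsIrrCharacter G ζ) (hfaith : ∀ g : G, ζ g = ζ 1 → g = 1)
    (hdeg : charDegree ζ + 1 < p) (M : Subgroup G) [hM : M.Normal] (hMp : ¬ p ∣ Nat.card M) :
    M ≤ Subgroup.centralizer ((P : Subgroup G) : Set G) := by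
  classical
  obtain ⟨K, h⟩ := exists_loc P hP
  obtain ⟨z, hzP, hz1, hz⟩ := exists_gen h
  have hPz := zpowers_eq hP hzP hz
  have hζ1 := irr_one_eq_charDegree hζ
  obtain ⟨n, ρ, hρ, rfl⟩ := hζ
  have hn : charDegree ρ.character = n := by
    have h1 : ρ.character 1 = (n : ℂ) := by rw [Representation.char_one]; simp
    rw [h1] at hζ1
    exact_mod_cast hζ1.symm
  rw [hn] at hdeg
  set T : Subgroup G := M ⊔ Subgroup.zpowers z with hT
  have hzT : z ∈ T := by
    have h1 : Subgroup.zpowers z ≤ T := le_sup_right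
    exact h1 (Subgroup.mem_zpowers z)
  have hMT : M ≤ T := le_sup_left
  have := Fintype.ofFinite T
  obtain ⟨s, hs, hker⟩ := Cfsg.Agent.CharactersDeep.NormalSylow.exists_constituents
    (ρ.comp T.subtype)
  have key : ∀ t : T, z * (t : G) * z⁻¹ * (t : G)⁻¹ = 1 := by
    intro t
    apply hfaith
    have h1 : ρ (z * (t : G) * z⁻¹ * (t : G)⁻¹) = 1 := by
      have h2 := hker ((⟨z, hzT⟩ : T) * t * (⟨z, hzT⟩ : T)⁻¹ * t⁻¹) ?_
      · exact h2
      · intro ψ hψ
        obtain ⟨hirr, d, hd0, hdn, hd⟩ := hs ψ hψ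
        apply Cfsg.Agent.CharactersDeep.NormalSylow.apply_commutator_eq hirr hd
        have hMn : (M.subgroupOf T).Normal := inferInstance
        refine Cfsg.Agent.CharactersDeep.SmallDegree.norm_eq_degree p (M.subgroupOf T) ?_
          (⟨z, hzT⟩ : T) 0 ?_ ?_ ?_ ψ hirr d hd (by omega)
        · rw [Nat.card_congr (Subgroup.subgroupOfEquivOfLe hMT).toEquiv, Nat.coprime_comm]
          exact (hp.out.coprime_iff_not_dvd).2 hMp
        · rw [Subgroup.orderOf_mk, hz, zero_add, pow_one]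
        · rw [eq_top_iff]
          intro t _
          obtain ⟨m, hm, y, hy, hmy⟩ := Subgroup.mem_sup_of_normal_left.1
            (show (t : G) ∈ M ⊔ Subgroup.zpowers z from t.2)
          obtain ⟨j, rfl⟩ := Subgroup.mem_zpowers_iff.1 hy
          rw [Subgroup.mem_sup_of_normal_left]
          refine ⟨⟨m, hMT hm⟩, Subgroup.mem_subgroupOf.2 hm, (⟨z, hzT⟩ : T) ^ j,
            Subgroup.zpow_mem_zpowers _ _, Subtype.ext ?_⟩
          push_cast
          exact hmy
        · intro g
          have h2 : (⟨z, hzT⟩ : T) ^ p = 1 := by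
            apply Subtype.ext
            push_cast
            rw [← hz, pow_orderOf_eq_one]
          rw [h2, mul_one, one_mul]
    unfold Representation.character
    rw [h1, map_one ρ]
  intro m hm
  rw [← hPz, Subgroup.mem_centralizer_iff]
  intro y hy
  obtain ⟨j, rfl⟩ := Subgroup.mem_zpowers_iff.1 hy
  have h1 := key ⟨m, hMT hm⟩
  have h2 : Commute z m := by
    show z * m = m * z
    calc z * m = (z * m * z⁻¹ * m⁻¹) * (m * z) := by group
      _ = m * z := by
        have h3 : z * m * z⁻¹ * m⁻¹ = 1 := h1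
        rw [h3, one_mul]
  exact (h2.zpow_left j).eq

/-- **Normal `p'`-subgroups are central.** -/
theorem le_center (P : Sylow p G) (hP : Nat.card P = p) (ζ : G → ℂ)
    (hζ : IsIrrCharacter G ζ) (hfaith : ∀ g : G, ζ g = ζ 1 → g = 1)
    (hdeg : charDegree ζ + 1 < p) (h : Loc p (P : Subgroup G) K)
    (hc : ∀ l : LL (P : Subgroup G) K, ((l : K) : G) ∈ Subgroup.center G)
    (M : Subgroup G) [hM : M.Normal] (hMp : ¬ p ∣ Nat.card M) :
    M ≤ Subgroup.center G := by
  intro m hm
  have h1 := le_centralizer P hP ζ hζ hfaith hdeg M hMp hm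
  obtain ⟨y, l, hyl⟩ := h.dec h1
  have hcomm : Commute (y : G) ((l : K) : G) := h.comm y.2 (mem_LL.1 l.2)
  have hy : (y : G) = 1 := by
    by_contra hy1
    have h2 := h.dvd_orderOf y.2 hy1 l
    rw [← hyl] at h2
    apply hMp
    refine h2.trans ?_
    have h3 : orderOf (⟨m, hm⟩ : M) ∣ Nat.card M := orderOf_dvd_natCard _
    rwa [Subgroup.orderOf_mk] at h3
  rw [hyl, hy, one_mul]
  exact hc l

/-- **Normal subgroups are central or large.** -/
theorem normal_cases (P : Sylow p G) (hP : Nat.card P = p) (hnn : ¬ (P : Subgroup G).Normal)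
    (ζ : G → ℂ) (hζ : IsIrrCharacter G ζ) (hfaith : ∀ g : G, ζ g = ζ 1 → g = 1)
    (hdeg : charDegree ζ + 1 < p) (h : Loc p (P : Subgroup G) K)
    (hc : ∀ l : LL (P : Subgroup G) K, ((l : K) : G) ∈ Subgroup.center G)
    (hi : (LL (P : Subgroup G) K).index = 2) (N : Subgroup G) (hN : N.Normal) :
    N ≤ Subgroup.center G ∨ ((P : Subgroup G) ≤ N ∧ N ⊔ Subgroup.center G = ⊤) := by
  classical
  by_cases hdvd : p ∣ Nat.card N
  swap
  · left
    exact le_center P hP ζ hζ hfaith hdeg h hc N hdvd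
  right
  have hPN := TwoPSimple.sylow_le hP hN hdvd
  refine ⟨hPN, ?_⟩
  have hPc : Nat.card (P : Subgroup G) = p := hP
  set Q : Sylow p N := P.subtype hPN with hQ
  have hQP : (Q : Subgroup N).map N.subtype = (P : Subgroup G) := by
    rw [hQ, Sylow.coe_subtype, Subgroup.map_subgroupOf_eq_of_le hPN]
  have hQN : ¬ (Q : Subgroup N).Normal := by
    intro hn
    apply hnn
    have hch := Sylow.characteristic_of_normal Q hn
    rw [← hQP]
    exact ConjAct.normal_of_characteristic_of_normal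
  have hQc : Nat.card (Q : Subgroup N) = p := by
    have h1 : Nat.card ((Q : Subgroup N).map N.subtype) = p := by rw [hQP]; exact hPc
    rw [← Nat.card_congr ((Q : Subgroup N).equivMapOfInjective N.subtype
      N.subtype_injective).toEquiv] at h1
    exact h1
  -- an element of `N` normalizing but not centralizing `P`
  obtain ⟨n₀, hn₀, hn₀'⟩ : ∃ n₀ ∈ Subgroup.normalizer ((Q : Subgroup N) : Set N),
      n₀ ∉ Subgroup.centralizer ((Q : Subgroup N) : Set N) := by
    by_contra hcon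
    push Not at hcon
    have h1 := MonoidHom.ker_transferSylow_isComplement' Q hcon
    set M := (MonoidHom.transferSylow Q hcon).ker with hM
    have hMn : M.Normal := inferInstance
    have h3 : M.index = p := by
      have h4 := h1.card_mul_card
      have h5 := Subgroup.card_mul_index M
      rw [← h5] at h4
      rw [← hQc]
      exact (Nat.eq_of_mul_eq_mul_left Nat.card_pos h4).symm
    have h2 : ¬ p ∣ Nat.card M := by
      intro hd
      have h4 : p * p ∣ Nat.card G := by
        have h5 : Nat.card M * M.index ∣ Nat.card G := by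
          rw [Subgroup.card_mul_index]
          exact Subgroup.card_subgroup_dvd_card _
        rw [h3] at h5
        exact (Nat.mul_dvd_mul_right hd p).trans h5
      have h5 := P.card_eq_multiplicity
      rw [hPc] at h5
      have h6 : (Nat.card G).factorization p = 1 := by
        exact (Nat.pow_right_injective hp.out.two_le (by simpa using h5)).symm
      have h7 : p ^ 2 ∣ Nat.card G := by rw [pow_two]; exact h4
      rw [hp.out.pow_dvd_iff_le_factorization Nat.card_pos.ne'] at h7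
      omega
    have hMm := TwoPSimple.normal_map_complement hN M hMn h3 h2
    have hMc : (M.map N.subtype) ≤ Subgroup.center G := by
      refine le_center P hP ζ hζ hfaith hdeg h hc (M.map N.subtype) ?_
      rwa [← Nat.card_congr (M.equivMapOfInjective N.subtype N.subtype_injective).toEquiv]
    apply hQN
    refine ⟨fun x hx g => ?_⟩
    obtain ⟨⟨⟨m, hm⟩, ⟨q, hq⟩⟩, hmq⟩ := h1.2 g
    change m * q = g at hmq
    subst hmq
    have hm1 : (m : G) ∈ Subgroup.center G := hMc ⟨m, hm, rfl⟩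
    have h4 : m * q * x * (m * q)⁻¹ = q * x * q⁻¹ := by
      apply Subtype.ext
      push_cast
      have h5 := Subgroup.mem_center_iff.1 hm1
      have h6 : (m : G) * q * x * ((m : G) * q)⁻¹ = m * ((q : G) * x * (q : G)⁻¹) * (m : G)⁻¹ := by
        group
      rw [h6, ← h5, mul_assoc, mul_inv_cancel, mul_one]
    rw [h4]
    exact Q.mul_mem (Q.mul_mem hq hx) (Q.inv_mem hq)
  have hn₀P : (n₀ : G) ∈ Subgroup.normalizer ((P : Subgroup G) : Set G) := by
    rw [Subgroup.mem_normalizer_iff]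
    intro y
    rw [Subgroup.mem_normalizer_iff] at hn₀
    constructor
    · intro hy
      have h1 : (⟨y, hPN hy⟩ : N) ∈ (Q : Subgroup N) := by
        rw [hQ, Sylow.coe_subtype, Subgroup.mem_subgroupOf]; exact hy
      have h2 := (hn₀ _).1 h1
      have h3 := Subgroup.mem_map_of_mem N.subtype h2
      rw [hQP] at h3
      exact h3
    · intro hy
      have hyN : y ∈ N := by
        have h1 := N.mul_mem (N.mul_mem (N.inv_mem n₀.2) (hPN hy)) n₀.2
        have h2 : (n₀ : G)⁻¹ * ((n₀ : G) * y * (n₀ : G)⁻¹) * (n₀ : G) = y := by group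
        rwa [h2] at h1
      have h1 : n₀ * ⟨y, hyN⟩ * n₀⁻¹ ∈ (Q : Subgroup N) := by
        rw [hQ, Sylow.coe_subtype, Subgroup.mem_subgroupOf]; exact hy
      have h2 := (hn₀ _).2 h1
      have h3 := Subgroup.mem_map_of_mem N.subtype h2
      rw [hQP] at h3
      exact h3
  have hn₀C : (n₀ : G) ∉ Subgroup.centralizer ((P : Subgroup G) : Set G) := by
    intro hcc
    apply hn₀'
    rw [Subgroup.mem_centralizer_iff] at hcc ⊢
    intro y hy
    have h3 := Subgroup.mem_map_of_mem N.subtype (show y ∈ (Q : Subgroup N) from hy)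
    rw [hQP] at h3
    exact Subtype.ext (hcc _ h3)
  obtain ⟨k₀, hk₀, y₀, hy₀, hn₀eq⟩ := h.mul _ hn₀P
  have hk₀L : (⟨k₀, hk₀⟩ : K) ∉ LL (P : Subgroup G) K := by
    intro hk
    apply hn₀C
    rw [hn₀eq]
    exact mul_mem (mem_LL.1 hk) (h.le_centralizer hy₀)
  have hk₀N : k₀ ∈ N := by
    have h1 : k₀ = (n₀ : G) * y₀⁻¹ := by rw [hn₀eq]; group
    rw [h1]
    exact N.mul_mem n₀.2 (N.inv_mem (hPN hy₀))
  have hNP : Subgroup.normalizer ((P : Subgroup G) : Set G) ≤ N ⊔ Subgroup.center G := by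
    intro n hn
    obtain ⟨k, hk, y, hy, rfl⟩ := h.mul _ hn
    apply mul_mem
    · by_cases hkL : (⟨k, hk⟩ : K) ∈ LL (P : Subgroup G) K
      · exact Subgroup.mem_sup_right (hc ⟨_, hkL⟩)
      · have h1 : (⟨k, hk⟩ : K) * (⟨k₀, hk₀⟩ : K) ∈ LL (P : Subgroup G) K :=
          (Subgroup.mul_mem_iff_of_index_two hi).2 (iff_of_false hkL hk₀L)
        have h2 : k = (k * k₀) * k₀⁻¹ := by group
        rw [h2]
        exact mul_mem (Subgroup.mem_sup_right (hc ⟨_, h1⟩))
          (Subgroup.mem_sup_left (N.inv_mem hk₀N))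
    · exact Subgroup.mem_sup_left (hPN hy)
  have hfr := Sylow.normalizer_sup_eq_top Q
  rw [hQP] at hfr
  rw [eq_top_iff, ← hfr]
  exact sup_le hNP le_sup_left

/-- The restriction of an irreducible character to a subgroup `N` with `N Z(G) = G`. -/
theorem isIrr_restrict (N : Subgroup G) (hN : N ⊔ Subgroup.center G = ⊤) {ζ : G → ℂ}
    (hζ : IsIrrCharacter G ζ) : IsIrrCharacter N (ζ ∘ N.subtype) := by
  classical
  have := Fintype.ofFinite N
  have hz : ∀ z ∈ Subgroup.center G, ∀ g, ζ (g * z) * conj (ζ (g * z)) = ζ g * conj (ζ g) := by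
    intro z hz g
    obtain ⟨ω, hω, h⟩ := Cfsg.Agent.CharactersDeep.SmallDegree.exists_central_mul hζ
      (fun g => Subgroup.mem_center_iff.1 hz g)
    rw [h, map_mul]
    have h1 : ω * conj ω = 1 := by rw [Complex.mul_conj, Complex.normSq_eq_norm_sq, hω]; norm_num
    linear_combination (ζ g * conj (ζ g)) * h1
  have hsum : ∀ g : G, ∑ a : N, ζ (g * a) * conj (ζ (g * a)) = ∑ a : N, ζ a * conj (ζ a) := by
    intro g
    have hg : g ∈ N ⊔ Subgroup.center G := by rw [hN]; trivial
    rw [Subgroup.mem_sup_of_normal_right] at hg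
    obtain ⟨b, hb, z, hz', rfl⟩ := hg
    rw [← Equiv.sum_comp (Equiv.mulLeft (⟨b, hb⟩ : N)) (fun a : N => ζ a * conj (ζ a))]
    refine Finset.sum_congr rfl fun a _ => ?_
    have h1 : b * z * (a : G) = b * a * z := by
      rw [mul_assoc, mul_assoc, Subgroup.mem_center_iff.1 hz' (a : G)]
    rw [h1, hz z hz']
    rfl
  have h1 : ∑ a : N, ∑ g : G, ζ (g * a) * conj (ζ (g * a)) =
      (Nat.card G : ℂ) * ∑ a : N, ζ a * conj (ζ a) := by
    rw [Finset.sum_comm, Finset.sum_congr rfl fun g _ => hsum g, Finset.sum_const,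
      Finset.card_univ, nsmul_eq_mul, Nat.card_eq_fintype_card]
  have h2 : ∑ a : N, ∑ g : G, ζ (g * a) * conj (ζ (g * a)) =
      (Nat.card N : ℂ) * ∑ g : G, ζ g * conj (ζ g) := by
    have h3 : ∀ a : N, ∑ g : G, ζ (g * a) * conj (ζ (g * a)) = ∑ g : G, ζ g * conj (ζ g) :=
      fun a => Equiv.sum_comp (Equiv.mulRight (a : G)) (fun g => ζ g * conj (ζ g))
    rw [Finset.sum_congr rfl fun a _ => h3 a, Finset.sum_const, Finset.card_univ, nsmul_eq_mul,
      Nat.card_eq_fintype_card]
  have h3 := classInner_irr_self hζ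
  rw [classInner_def] at h3
  have hG : (Nat.card G : ℂ) ≠ 0 := by exact_mod_cast Nat.card_pos.ne'
  have hNc : (Nat.card N : ℂ) ≠ 0 := by exact_mod_cast Nat.card_pos.ne'
  rw [isIrr_iff_classInner_self (isCharacter_comp N.subtype (isIrr_isCharacter hζ)),
    classInner_def]
  rw [h1] at h2
  have h4 : ∑ a : N, (ζ ∘ N.subtype) a * conj ((ζ ∘ N.subtype) a) =
      ∑ a : N, ζ a * conj (ζ a) := rfl
  rw [h4]
  have h5 : ∑ g : G, ζ g * conj (ζ g) = Nat.card G := by
    field_simp at h3
    exact h3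
  rw [h5] at h2
  apply mul_left_cancel₀ hG
  rw [mul_one, ← mul_assoc, mul_comm (Nat.card G : ℂ), mul_assoc, h2, ← mul_assoc,
    inv_mul_cancel₀ hNc, one_mul]

/-- **Reduction to perfect groups.** -/
theorem reduce (P : Sylow p G) (hP : Nat.card P = p) (h5 : 5 < p)
    (hnn : ¬ (P : Subgroup G).Normal) (ζ : G → ℂ) (hζ : IsIrrCharacter G ζ)
    (hfaith : ∀ g : G, ζ g = ζ 1 → g = 1) (hdeg : charDegree ζ = p - 2) :
    ∃ (G₁ : Subgroup G) (P₁ : Sylow p G₁), commutator G₁ = ⊤ ∧ Nat.card P₁ = p ∧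
      ¬ (P₁ : Subgroup G₁).Normal ∧ IsIrrCharacter G₁ (ζ ∘ G₁.subtype) ∧
      (∀ g : G₁, (ζ ∘ G₁.subtype) g = (ζ ∘ G₁.subtype) 1 → g = 1) ∧
      charDegree (ζ ∘ G₁.subtype) = p - 2 ∧
      (Subgroup.center G₁ = ⊥ → Nonempty (G ≃* G₁ × Subgroup.center G)) := by
  classical
  obtain ⟨K, h, hc, hi⟩ := local_structure P hP h5 hnn ζ hζ hfaith hdeg
  have hPc : Nat.card (P : Subgroup G) = p := hP
  rcases normal_cases P hP hnn ζ hζ hfaith (by omega) h hc hi (commutator G) inferInstance with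
    h1 | ⟨hPN, hN⟩
  · exfalso
    apply hnn
    have h2 : Group.IsNilpotent G := by
      rw [Subgroup.nilpotent_iff_lowerCentralSeries]
      refine ⟨2, ?_⟩
      rw [show (2 : ℕ) = 1 + 1 from rfl, Subgroup.lowerCentralSeries_succ_eq_bot]
      rw [Subgroup.top_lowerCentralSeries_one]
      exact h1
    have h3 := Group.normalizerCondition_of_isNilpotent (G := G)
    exact Sylow.normal_of_normalizerCondition h3 P
  refine ⟨commutator G, P.subtype hPN, ?_, ?_, ?_, isIrr_restrict _ hN hζ, ?_, ?_, ?_⟩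
  · have h2 : ∀ g : G, ∃ a : commutator G, ∃ z ∈ Subgroup.center G, g = a * z := by
      intro g
      have hg : g ∈ commutator G ⊔ Subgroup.center G := by rw [hN]; trivial
      rw [Subgroup.mem_sup_of_normal_right] at hg
      obtain ⟨b, hb, z, hz', rfl⟩ := hg
      exact ⟨⟨b, hb⟩, z, hz', rfl⟩
    have h3 : commutator G ≤ (commutator (commutator G)).map (commutator G).subtype := by
      refine Subgroup.commutator_le.2 ?_
      intro g _ g' _
      obtain ⟨a, z, hz, rfl⟩ := h2 g
      obtain ⟨b, w, hw, rfl⟩ := h2 g'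
      refine ⟨a * b * a⁻¹ * b⁻¹, Subgroup.commutator_mem_commutator (Subgroup.mem_top a)
        (Subgroup.mem_top b), ?_⟩
      rw [commutatorElement_def]
      show (a : G) * (b : G) * (a : G)⁻¹ * (b : G)⁻¹ = _
      have hz' := Subgroup.mem_center_iff.1 hz
      have hw' := Subgroup.mem_center_iff.1 hw
      simp only [mul_inv_rev]
      have e1 : (a : G) * z * (b * w) * (z⁻¹ * (a : G)⁻¹) * (w⁻¹ * (b : G)⁻¹) =
          (a : G) * (z * (b * w) * z⁻¹) * (a : G)⁻¹ * (w⁻¹ * (b : G)⁻¹) := by group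
      have e2 : z * ((b : G) * w) * z⁻¹ = b * w := by
        rw [← hz' ((b : G) * w), mul_assoc, mul_inv_cancel, mul_one]
      have e3 : (a : G) * (b * w) * (a : G)⁻¹ * (w⁻¹ * (b : G)⁻¹) =
          (a : G) * b * (w * (a : G)⁻¹ * w⁻¹) * (b : G)⁻¹ := by group
      have e4 : w * (a : G)⁻¹ * w⁻¹ = (a : G)⁻¹ := by
        rw [← hw' ((a : G)⁻¹), mul_assoc, mul_inv_cancel, mul_one]
      rw [e1, e2, e3, e4]
    rw [eq_top_iff]
    intro x _
    obtain ⟨y, hy, hyx⟩ := h3 x.2
    have : y = x := Subtype.ext hyx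
    rwa [← this]
  · have h2 : ((P.subtype hPN : Sylow p (commutator G)) : Subgroup (commutator G)) =
        (P : Subgroup G).subgroupOf (commutator G) := Sylow.coe_subtype _ _
    show Nat.card ((P.subtype hPN : Sylow p (commutator G)) : Subgroup (commutator G)) = p
    rw [h2, Nat.card_congr (Subgroup.subgroupOfEquivOfLe hPN).toEquiv]
    exact hPc
  · intro hn
    apply hnn
    have hch := Sylow.characteristic_of_normal (P.subtype hPN) hn
    have h2 : ((P.subtype hPN : Sylow p (commutator G)) : Subgroup (commutator G)).map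
        (commutator G).subtype = (P : Subgroup G) := by
      rw [Sylow.coe_subtype, Subgroup.map_subgroupOf_eq_of_le hPN]
    rw [← h2]
    exact ConjAct.normal_of_characteristic_of_normal
  · intro g hg
    exact Subtype.ext (hfaith g hg)
  · rw [← hdeg, charDegree_def, charDegree_def]
    rfl
  · intro hZ
    have hf : ∀ (a : commutator G) (z : Subgroup.center G), (a : G) * z = z * a :=
      fun a z => Subgroup.mem_center_iff.1 z.2 a
    let f : commutator G × Subgroup.center G →* G :=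
      { toFun := fun q => (q.1 : G) * q.2
        map_one' := by simp
        map_mul' := by
          rintro ⟨a, z⟩ ⟨b, w⟩
          push_cast
          show (a : G) * b * ((z : G) * w) = a * z * (b * w)
          have := hf b z
          calc (a : G) * b * ((z : G) * w) = a * (b * z) * w := by group
            _ = a * (z * b) * w := by rw [this]
            _ = a * z * (b * w) := by group }
    have hinj : Function.Injective f := by
      rw [injective_iff_map_eq_one]
      rintro ⟨a, z⟩ haz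
      have h2 : (a : G) * z = 1 := haz
      have h3 : (a : G) = ((z⁻¹ : Subgroup.center G) : G) := by
        rw [eq_inv_of_mul_eq_one_left h2]
        rfl
      have h4 : a ∈ Subgroup.center (commutator G) := by
        rw [Subgroup.mem_center_iff]
        intro g
        apply Subtype.ext
        push_cast
        rw [h3]
        exact Subgroup.mem_center_iff.1 (z⁻¹).2 g
      rw [hZ, Subgroup.mem_bot] at h4
      have h5 : z = 1 := by
        rw [h4] at h2
        apply Subtype.ext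
        push_cast at h2
        rwa [one_mul] at h2
      rw [h4, h5]
      rfl
    have hsurj : Function.Surjective f := by
      intro g
      have hg : g ∈ commutator G ⊔ Subgroup.center G := by rw [hN]; trivial
      rw [Subgroup.mem_sup_of_normal_right] at hg
      obtain ⟨b, hb, z, hz', rfl⟩ := hg
      exact ⟨(⟨b, hb⟩, ⟨z, hz'⟩), rfl⟩
    exact ⟨(MulEquiv.ofBijective f ⟨hinj, hsurj⟩).symm⟩

end Cfsg.Agent.H656.PM2Reduction
end

-- part: H656/PM2Simple
section
/-!
# Perfect groups with a faithful irreducible character of degree `p - 2`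

Such a group (with a nonnormal Sylow `p`-subgroup `P` of order `p > 5`) is simple with
`C_G(P) = P`, `|N_G(P)| = 2 p`, and has an irreducible character `ρ` of degree `p - 1` and
`(p - 1) / 2` irreducible characters equal to `ρ - 1` on `p`-regular elements.
-/

set_option autoImplicit false
set_option linter.unusedSectionVars false
set_option linter.unusedVariables false

namespace Cfsg.Agent.H656.PM2Simple

open Cfsg ZMod
open scoped ComplexConjugate
open Cfsg.Agent.Blocks.Basic
open Cfsg.Agent.Blocks.CyclicGroup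
open Cfsg.Agent.H593.D1Local
open Cfsg.Agent.H593.D1Sec
open Cfsg.Agent.H656.PM2Centre
open Cfsg.Agent.H656.PM2Count
open Cfsg.Agent.H656.PM2Block
open Cfsg.Agent.H656.PM2Eq
open Cfsg.Agent.H656.PM2Seven
open Cfsg.Agent.Characters.Core (isIrr_isCharacter finite_irr isIrr_apply_one)

variable {G : Type*} [Group G] [Fintype G] {p : ℕ} [hp : Fact p.Prime]

theorem main (P : Sylow p G) (hP : Nat.card P = p) (h5 : 5 < p)
    (hnn : ¬ (P : Subgroup G).Normal) (hperf : commutator G = ⊤) (ζ : G → ℂ)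
    (hζ : IsIrrCharacter G ζ)
    (hfaith : ∀ g : G, ζ g = ζ 1 → g = 1) (hdeg : charDegree ζ = p - 2) :
    Subgroup.center G = ⊥ ∧ IsSimpleGroup G ∧ DihedralP.Hyp P ∧
    ∃ (ρ : IrrCharacter G) (Ω : Type) (_ : Fintype Ω) (Ψ : Ω → IrrCharacter G),
      (ρ : G → ℂ) 1 = (p : ℂ) - 1 ∧ (∀ y ∈ (P : Subgroup G), y ≠ 1 → (ρ : G → ℂ) y = -1) ∧
      2 * Fintype.card Ω = p - 1 ∧ Function.Injective Ψ ∧ (∀ ω, (Ψ ω : G → ℂ) ≠ 1) ∧
      (∀ (ω : Ω) (g : G), ¬ p ∣ orderOf g → (Ψ ω : G → ℂ) g = (ρ : G → ℂ) g - 1) := by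
  classical
  obtain ⟨K, z, x, S⟩ := exists_sit P hP h5 hnn hperf ζ hζ hfaith hdeg
  have := Fintype.ofFinite (LL (P : Subgroup G) K)
  have hp0 : (p : ℂ) ≠ 0 := Nat.cast_ne_zero.2 hp.out.ne_zero
  have hζ1 : ζ 1 = (p : ℂ) - 2 := by
    rw [irr_one_eq_charDegree hζ, hdeg, Nat.cast_sub (by omega)]
    push_cast
    rfl
  obtain ⟨θ, χ₁, χ₂, k, r, δ, hθ, hθ₁, hδ, hζx, hd₁, hd₂, hx₁, hrδ, hP₂, hreg, hsq, hE⟩ :=
    zeta_block S hζ hdeg
  have hk := k_eq_zero S hperf hζ hζ1 θ hθ hδ hζx hrδ hsq hE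
  subst hk
  have hχ₁ : (χ₁ : G → ℂ) = 1 := by
    obtain ⟨f, hf⟩ := Cfsg.Agent.Characters.Linear.exists_hom_of_isIrrCharacter χ₁.2
      (by rw [hd₁]; push_cast; ring)
    rw [hf]
    funext g
    have h2 : g ∈ commutator G := by rw [hperf]; trivial
    have h3 := Abelianization.commutator_subset_ker f h2
    rw [MonoidHom.mem_ker] at h3
    rw [h3]
    rfl
  have hL : ∀ l : LL (P : Subgroup G) K, ((l : K) : G) = 1 := by
    intro l
    apply hfaith
    have h1 := hθ₁ 1 l
    rw [hχ₁] at h1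
    have h2 : (θ : LL (P : Subgroup G) K → ℂ) l = 1 := by
      have h3 : (1 : ℂ) = 1 * (θ : LL (P : Subgroup G) K → ℂ) l := h1
      rw [one_mul] at h3
      exact h3.symm
    have h3 := hθ 1 l
    rw [h2, mul_one, one_mul] at h3
    exact h3
  have hLc : Nat.card (LL (P : Subgroup G) K) = 1 := by
    rw [Nat.card_eq_one_iff_unique]
    refine ⟨⟨fun l l' => Subtype.ext (Subtype.ext ((hL l).trans (hL l').symm))⟩, ⟨1⟩⟩
  have hKc : Nat.card K = 2 := by
    rw [← Subgroup.card_mul_index (LL (P : Subgroup G) K), hLc, S.idx, one_mul]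
  have hcent : Subgroup.centralizer ((P : Subgroup G) : Set G) = P := by
    apply le_antisymm
    · intro c hc
      obtain ⟨y, l, hyl⟩ := S.loc.dec hc
      rw [hyl, hL l, mul_one]
      exact y.2
    · exact S.loc.le_centralizer
  have hnorm : Nat.card (Subgroup.normalizer ((P : Subgroup G) : Set G)) = 2 * p := by
    have h1 := S.loc.card_eq (T := Subgroup.normalizer ((P : Subgroup G) : Set G))
      Subgroup.le_normalizer le_rfl
    have h2 : (Subgroup.normalizer ((P : Subgroup G) : Set G)).subgroupOf K = ⊤ :=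
      Subgroup.subgroupOf_eq_top.2 S.loc.le
    rw [h1, h2, Subgroup.card_top, hKc]
  have hHyp : DihedralP.Hyp P := ⟨hP, hcent, hnorm, by omega⟩
  have hcen : Subgroup.center G = ⊥ := by
    rw [Subgroup.eq_bot_iff_forall]
    intro c hc
    have h1 : c ∈ (P : Subgroup G) := by
      rw [← hcent, Subgroup.mem_centralizer_iff]
      exact fun y _ => Subgroup.mem_center_iff.1 hc y
    by_contra hc1
    apply hnn
    apply normal_of_le_center
    have h2 := Cfsg.Agent.H593.D1Block.zpowers_eq S.loc (S.loc.mem_pow h1 hc1) h1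
    rw [← h2, Subgroup.zpowers_le]
    exact hc
  have hsimple : IsSimpleGroup G := by
    have hnt : Nontrivial G := by
      refine ⟨⟨z, 1, ?_⟩⟩
      intro h1
      have h2 := S.ord
      rw [h1, orderOf_one] at h2
      exact hp.out.one_lt.ne h2
    refine ⟨fun N hN => ?_⟩
    rcases PM2Reduction.normal_cases P hP hnn ζ hζ hfaith (by omega) S.loc S.cen S.idx N hN with
      h1 | ⟨-, h1⟩
    · left
      rw [hcen] at h1
      exact le_bot_iff.1 h1
    · right
      rw [hcen, sup_bot_eq] at h1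
      exact h1
  have hρ1 : (χ₂ : G → ℂ) 1 = (p : ℂ) - 1 := by rw [hd₂]; push_cast; ring
  obtain ⟨χ, a, d, A, B, Ω, hΩ, Ψ, hχ1, ha, hcardΩ, hd1, hχd, hχx, e₁, hχP, hΨ, hΨsum, hinj, hdisj,
    hall, hE0⟩ := principal_block S hperf
  have h10 : (1 : ZMod p) ≠ 0 := one_ne_zero
  have hχ₂1 : (χ₂ : G → ℂ) ≠ 1 := by
    intro h1
    rw [h1] at hρ1
    have h2 : (1 : ℂ) = (p : ℂ) - 1 := hρ1
    have h3 : (p : ℂ) = ((2 : ℕ) : ℂ) := by push_cast; linear_combination -h2
    have h4 : p = 2 := by exact_mod_cast h3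
    omega
  have hχ₂ : χ₂ = χ := by
    by_contra hcon
    by_cases hω : ∀ ω, χ₂ ≠ Ψ ω
    · have h1 := hall χ₂ (fun g l => by rw [hL l, mul_one]) hχ₂1 hcon hω 1 h10
      rw [hP₂ 1 h10] at h1
      norm_num at h1
    · push Not at hω
      obtain ⟨ω, hω⟩ := hω
      have h1 := hΨsum ω
      rw [← hω, Finset.sum_congr rfl fun (m : (ZMod p)ˣ) _ => hP₂ (m : ZMod p) (Units.ne_zero m),
        Finset.sum_const, Finset.card_univ, ZMod.card_units, nsmul_eq_mul,
        Nat.cast_sub hp.out.one_lt.le] at h1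
      have h2 : ((p : ℤ) - 1) * -1 = -2 * a := by exact_mod_cast h1
      rcases ha with h | h <;> rw [h] at h2 <;> omega
  have haC : (a : ℂ) = -1 := by
    rw [← hχP 1 h10, ← hχ₂, hP₂ 1 h10]
  refine ⟨hcen, hsimple, hHyp, χ₂, Ω, hΩ, Ψ, hρ1, ?_, hcardΩ, hinj, fun ω => (hdisj ω).2, ?_⟩
  · intro y hy hy1
    obtain ⟨i, rfl⟩ := S.exists_u hy
    apply hP₂
    rintro rfl
    rw [u_zero] at hy1
    exact hy1 rfl
  · intro ω g hg
    rw [hΨ ω g hg, haC, hχ₂]
    ring

end Cfsg.Agent.H656.PM2Simple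
end

-- part: H656/PM2Order
section
/-!
# The order of a simple group with irreducible characters of degrees `p - 1` and `p - 2`

`G` is a simple group with `C_G(P) = P` and `|N_G(P)| = 2 p`, an irreducible character `ρ` of degree
`p - 1` and `(p - 1) / 2` irreducible characters equal to `ρ - 1` on `p`-regular elements. Then
`|G| = p (p - 1) (p - 2)`.
-/

set_option autoImplicit false
set_option linter.unusedSectionVars false
set_option linter.unusedVariables false

namespace Cfsg.Agent.H656.PM2Order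

open Cfsg
open scoped ComplexConjugate
open Cfsg.Agent.Blocks.Basic (irr_one_eq_charDegree)
open Cfsg.Agent.Characters.Core (isIrr_isCharacter finite_irr isIrr_apply_one classInner_irr_self
  classInner_irr_ne classInner_isNat isCharacter_comp isCharacter_one)

variable {G : Type*} [Group G] [Fintype G] {p : ℕ} [hp : Fact p.Prime]

/-- A character of `p`-defect zero vanishes on `p`-singular elements. -/
theorem defect_zero_vanish {χ : G → ℂ} (hχ : IsIrrCharacter G χ) (q : ℕ) (hq : q.Prime) {d : ℕ}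
    (hd : χ 1 = d) (hdef : q ^ (Nat.card G).factorization q ∣ d) {x : G} (hx : q ∣ orderOf x) :
    χ x = 0 := by
  obtain ⟨n, ρ, hρ, rfl⟩ := hχ
  have h1 : ρ.character 1 = (Module.finrank ℂ (Fin n → ℂ) : ℂ) := Representation.char_one ρ
  have h2 : Module.finrank ℂ (Fin n → ℂ) = d := by
    rw [h1] at hd
    exact_mod_cast hd
  have := hρ
  exact Cfsg.Agent.S0165.result ρ q ((Nat.card G).factorization q) hq (Nat.ordProj_dvd _ _)
    (Nat.pow_succ_factorization_not_dvd Nat.card_pos.ne' hq) (by rw [h2]; exact hdef) x hx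

/-- Integrality of the central character at an element with integer value. -/
theorem dvd_index_mul {χ : G → ℂ} (hχ : IsIrrCharacter G χ) {d : ℕ} (hd : χ 1 = d) {x : G} {v : ℤ}
    (hx : χ x = v) : (d : ℤ) ∣ (Subgroup.centralizer ({x} : Set G)).index * v := by
  have hd0 : (d : ℂ) ≠ 0 := by
    rw [← hd]
    exact Cfsg.Agent.Characters.Core.isIrr_apply_one_ne_zero hχ
  obtain ⟨n, ρ, hρ, rfl⟩ := hχ
  have := hρ
  have h1 := Cfsg.Agent.Characters.CentralCharacter.isIntegral_index_mul_character_div ρ x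
  have h2 : ρ.character 1 = (Module.finrank ℂ (Fin n → ℂ) : ℂ) := Representation.char_one ρ
  rw [hx, ← h2, hd] at h1
  obtain ⟨z, hz⟩ := Cfsg.Agent.Characters.GaloisBasic.exists_int_of_isIntegral h1
    ⟨((Subgroup.centralizer ({x} : Set G)).index * v / d : ℚ), by push_cast; rfl⟩
  refine ⟨z, ?_⟩
  rw [div_eq_iff hd0] at hz
  have h3 : (((Subgroup.centralizer ({x} : Set G)).index * v : ℤ) : ℂ) = ((z * d : ℤ) : ℂ) := by
    push_cast
    exact hz
  have h4 : ((Subgroup.centralizer ({x} : Set G)).index * v : ℤ) = z * d := by exact_mod_cast h3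
  rw [h4, mul_comm]

variable {P : Sylow p G}

/-- `p`-singular elements have order `p`. -/
theorem orderOf_eq (h : DihedralP.Hyp P) {g : G} (hg : p ∣ orderOf g) : orderOf g = p := by
  obtain ⟨m, hm⟩ := hg
  have hm0 : 0 < m := by
    have h1 := orderOf_pos g
    rw [hm] at h1
    exact Nat.pos_of_mul_pos_left h1
  have hy : orderOf (g ^ m) = p := by
    rw [orderOf_pow_of_dvd hm0.ne' (by rw [hm]; exact Dvd.intro_left _ rfl), hm,
      Nat.mul_div_cancel _ hm0]
  have h1 : IsPGroup p (Subgroup.zpowers (g ^ m)) := by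
    apply IsPGroup.of_card (n := 1)
    rw [Nat.card_zpowers, hy, pow_one]
  obtain ⟨Q, hQ⟩ := h1.exists_le_sylow
  obtain ⟨c, hc⟩ := MulAction.exists_smul_eq G Q P
  have h2 : c * g ^ m * c⁻¹ ∈ (P : Subgroup G) := by
    rw [← hc]
    exact Subgroup.smul_mem_pointwise_smul (g ^ m) (MulAut.conj c) _
      (hQ (Subgroup.mem_zpowers _))
  have h3 : c * g ^ m * c⁻¹ ≠ 1 := by
    intro h4
    have h5 : g ^ m = 1 := by
      have : g ^ m = c⁻¹ * (c * g ^ m * c⁻¹) * c := by group
      rw [this, h4]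
      group
    rw [h5, orderOf_one] at hy
    exact hp.out.one_lt.ne hy
  have h4 : c * g * c⁻¹ ∈ (P : Subgroup G) := by
    rw [← h.centralizer_singleton h2 h3, Subgroup.mem_centralizer_singleton_iff]
    rw [← conj_pow]
    exact (Commute.refl (c * g * c⁻¹)).pow_right m
  have h5 : orderOf (c * g * c⁻¹) = orderOf g := (MulAut.conj c).orderOf_eq g
  have h6 : orderOf (c * g * c⁻¹) ∣ p := by
    have h7 : orderOf (⟨c * g * c⁻¹, h4⟩ : (P : Subgroup G)) ∣ Nat.card (P : Subgroup G) :=
      orderOf_dvd_natCard _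
    rw [Subgroup.orderOf_mk] at h7
    rw [← h.card]
    exact h7
  rw [h5] at h6
  exact Nat.dvd_antisymm h6 ⟨m, hm⟩

/-- Norms of combinations of distinct irreducible characters. -/
theorem norm_comb {I : Type*} [Fintype I] (F : I → IrrCharacter G) (hF : Function.Injective F)
    (c : I → ℝ) : ∑ g : G, (∑ i, (c i : ℂ) * (F i : G → ℂ) g) *
      conj (∑ i, (c i : ℂ) * (F i : G → ℂ) g) = (Nat.card G : ℂ) * ∑ i, (c i : ℂ) ^ 2 := by
  classical
  have hG : (Nat.card G : ℂ) ≠ 0 := by exact_mod_cast Nat.card_pos.ne'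
  have h2 : ∀ g : G, (∑ i, (c i : ℂ) * (F i : G → ℂ) g) *
      conj (∑ i, (c i : ℂ) * (F i : G → ℂ) g) = ∑ i, ∑ j, ((c i : ℂ) * (c j : ℂ)) *
        ((F i : G → ℂ) g * conj ((F j : G → ℂ) g)) := by
    intro g
    rw [map_sum, Finset.sum_mul_sum]
    refine Finset.sum_congr rfl fun i _ => Finset.sum_congr rfl fun j _ => ?_
    rw [map_mul, Complex.conj_ofReal]
    ring
  rw [Finset.sum_congr rfl fun g _ => h2 g, Finset.sum_comm, Finset.mul_sum]
  refine Finset.sum_congr rfl fun i _ => ?_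
  rw [Finset.sum_comm, Finset.sum_eq_single i]
  · rw [← Finset.mul_sum]
    have h3 := classInner_irr_self (F i).2
    rw [Cfsg.Agent.Characters.Core.classInner_def] at h3
    have h4 : ∑ g : G, (F i : G → ℂ) g * conj ((F i : G → ℂ) g) = Nat.card G := by
      field_simp at h3
      exact h3
    rw [h4]
    ring
  · intro j _ hj
    rw [← Finset.mul_sum]
    have h3 := classInner_irr_ne (F i).2 (F j).2 (fun h => hj (hF (Subtype.ext h)).symm)
    rw [Cfsg.Agent.Characters.Core.classInner_def] at h3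
    have h4 : ∑ g : G, (F i : G → ℂ) g * conj ((F j : G → ℂ) g) = 0 :=
      (mul_eq_zero.1 h3).resolve_left (inv_ne_zero hG)
    rw [h4, mul_zero]
  · intro h3
    exact absurd (Finset.mem_univ _) h3

/-- The number of elements of even order. -/
theorem card_even (h : DihedralP.Hyp P) {ρ : IrrCharacter G} (hρ0 : ∀ g : G, 2 ∣ orderOf g →
    (ρ : G → ℂ) g = 0) {Ω : Type} [Fintype Ω] (Ψ : Ω → IrrCharacter G)
    (hinj : Function.Injective Ψ) (h1 : ∀ ω, (Ψ ω : G → ℂ) ≠ 1)
    (hΨ : ∀ (ω : Ω) (g : G), ¬ p ∣ orderOf g → (Ψ ω : G → ℂ) g = (ρ : G → ℂ) g - 1)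
    (hp5 : 5 < p) :
    Nat.card {g : G // 2 ∣ orderOf g} * (1 + Fintype.card Ω) ≤ Nat.card G := by
  classical
  let F : Option Ω → IrrCharacter G := fun i => match i with
    | none => ⟨1, Cfsg.Agent.Characters.Core.isIrr_one⟩
    | some ω => Ψ ω
  have hF : Function.Injective F := by
    rintro (_ | ω) (_ | ω') hω
    · rfl
    · exact absurd (congrArg Subtype.val hω).symm (h1 ω')
    · exact absurd (congrArg Subtype.val hω) (h1 ω)
    · exact congrArg some (hinj hω)
  let c : Option Ω → ℝ := fun i => match i with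
    | none => 1
    | some ω => -1
  have h2 := norm_comb F hF c
  have h3 : ∑ i, (c i : ℂ) ^ 2 = 1 + Fintype.card Ω := by
    rw [Fintype.sum_option]
    simp [c]
  rw [h3] at h2
  have h4 : ∀ g : G, (∑ i, (c i : ℂ) * (F i : G → ℂ) g) *
      conj (∑ i, (c i : ℂ) * (F i : G → ℂ) g) =
      ((Complex.normSq (∑ i, (c i : ℂ) * (F i : G → ℂ) g) : ℝ) : ℂ) :=
    fun g => Complex.mul_conj _
  rw [Finset.sum_congr rfl fun g _ => h4 g] at h2
  have h5 : ∑ g : G, Complex.normSq (∑ i, (c i : ℂ) * (F i : G → ℂ) g) =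
      (Nat.card G : ℝ) * (1 + Fintype.card Ω) := by exact_mod_cast h2
  have h6 : ∀ g : G, 2 ∣ orderOf g → Complex.normSq (∑ i, (c i : ℂ) * (F i : G → ℂ) g) =
      (1 + Fintype.card Ω : ℝ) ^ 2 := by
    intro g hg
    have hgp : ¬ p ∣ orderOf g := by
      intro hgp
      rw [orderOf_eq h hgp] at hg
      rcases (Nat.dvd_prime hp.out).1 hg with h' | h' <;> omega
    have h7 : ∑ i, (c i : ℂ) * (F i : G → ℂ) g = ((1 + Fintype.card Ω : ℝ) : ℂ) := by
      rw [Fintype.sum_option]
      have h8 : ∀ ω : Ω, (c (some ω) : ℂ) * (F (some ω) : G → ℂ) g = 1 := by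
        intro ω
        show ((-1 : ℝ) : ℂ) * (Ψ ω : G → ℂ) g = 1
        rw [hΨ ω g hgp, hρ0 g hg]
        push_cast
        ring
      rw [Finset.sum_congr rfl fun ω _ => h8 ω, Finset.sum_const, Finset.card_univ, nsmul_eq_mul]
      show ((1 : ℝ) : ℂ) * (1 : ℂ) + _ = _
      push_cast
      ring
    rw [h7, Complex.normSq_ofReal]
    ring
  have h7 : ∑ g ∈ Finset.univ.filter (fun g : G => 2 ∣ orderOf g),
      Complex.normSq (∑ i, (c i : ℂ) * (F i : G → ℂ) g) ≤
      (Nat.card G : ℝ) * (1 + Fintype.card Ω) := by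
    rw [← h5]
    exact Finset.sum_le_sum_of_subset_of_nonneg (Finset.filter_subset _ _)
      fun g _ _ => Complex.normSq_nonneg _
  rw [Finset.sum_congr rfl fun g hg => h6 g (Finset.mem_filter.1 hg).2, Finset.sum_const,
    nsmul_eq_mul] at h7
  have h8 : (Finset.univ.filter (fun g : G => 2 ∣ orderOf g)).card =
      Nat.card {g : G // 2 ∣ orderOf g} := by
    rw [Nat.card_eq_fintype_card, Fintype.card_subtype]
  rw [h8] at h7
  have h9 : (0 : ℝ) < 1 + Fintype.card Ω := by positivity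
  have h10 : ((Nat.card {g : G // 2 ∣ orderOf g} : ℝ) * (1 + Fintype.card Ω)) *
      (1 + Fintype.card Ω) ≤ (Nat.card G : ℝ) * (1 + Fintype.card Ω) := by
    rw [mul_assoc, ← pow_two]
    exact h7
  have h11 := le_of_mul_le_mul_right h10 h9
  exact_mod_cast h11

/-- Counting elements whose `2`-part is conjugate to the involution `x`. -/
theorem card_mul_le {x : G} (hx : orderOf x = 2) :
    Nat.card G * Nat.card {a : Subgroup.centralizer ({x} : Set G) // ¬ 2 ∣ orderOf a} ≤
      Nat.card (Subgroup.centralizer ({x} : Set G)) * Nat.card {g : G // 2 ∣ orderOf g} := by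
  classical
  set C := Subgroup.centralizer ({x} : Set G) with hC
  set N := ordCompl[2] (Nat.card G) with hN
  have hxx : x * x = 1 := by
    have := pow_orderOf_eq_one x
    rw [hx, pow_two] at this
    exact this
  have hNodd : ¬ 2 ∣ N := Nat.not_dvd_ordCompl Nat.prime_two Nat.card_pos.ne'
  have hxN : x ^ N = x := by
    obtain ⟨r, hr⟩ : ∃ r, N = 2 * r + 1 := ⟨N / 2, by omega⟩
    rw [hr, pow_succ, pow_mul, pow_two, hxx, one_pow, one_mul]
  have haN : ∀ a : C, ¬ 2 ∣ orderOf a → (a : G) ^ N = 1 := by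
    intro a ha
    apply orderOf_dvd_iff_pow_eq_one.1
    rw [Subgroup.orderOf_coe]
    have h1 : orderOf a ∣ Nat.card G := by
      rw [← Subgroup.orderOf_coe]
      exact orderOf_dvd_natCard _
    have h2 : (orderOf a).Coprime (2 ^ (Nat.card G).factorization 2) := by
      apply Nat.Coprime.pow_right
      rw [Nat.coprime_comm, Nat.prime_two.coprime_iff_not_dvd]
      exact ha
    rw [← Nat.ordProj_mul_ordCompl_eq_self (Nat.card G) 2] at h1
    exact h2.dvd_of_dvd_mul_left h1
  have hcomm : ∀ a : C, Commute x (a : G) := by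
    intro a
    exact (Subgroup.mem_centralizer_singleton_iff.1 a.2).symm
  have hprod : ∀ a : C, ¬ 2 ∣ orderOf a → (x * (a : G)) ^ N = x := by
    intro a ha
    rw [(hcomm a).mul_pow, hxN, haN a ha, mul_one]
  have heven : ∀ (g : G) (a : C), ¬ 2 ∣ orderOf a → 2 ∣ orderOf (g * (x * (a : G)) * g⁻¹) := by
    intro g a ha
    have h1 : orderOf (g * (x * (a : G)) * g⁻¹) = orderOf (x * (a : G)) :=
      (MulAut.conj g).orderOf_eq (x * (a : G))
    rw [h1]
    have h2 : orderOf ((x * (a : G)) ^ N) ∣ orderOf (x * (a : G)) := orderOf_pow_dvd N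
    rw [hprod a ha, hx] at h2
    exact h2
  let Φ : G × {a : C // ¬ 2 ∣ orderOf a} → {g : G // 2 ∣ orderOf g} := fun q =>
    ⟨q.1 * (x * ((q.2 : C) : G)) * q.1⁻¹, heven _ _ q.2.2⟩
  have hfib : ∀ s : {g : G // 2 ∣ orderOf g},
      (Finset.univ.filter fun q : G × {a : C // ¬ 2 ∣ orderOf a} => Φ q = s).card ≤ Nat.card C := by
    intro s
    rcases (Finset.univ.filter fun q : G × {a : C // ¬ 2 ∣ orderOf a} => Φ q = s).eq_empty_or_nonempty
      with h1 | ⟨q₀, hq₀⟩
    · rw [h1, Finset.card_empty]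
      exact Nat.zero_le _
    · have hpow : ∀ q : G × {a : C // ¬ 2 ∣ orderOf a}, Φ q = s →
          q.1 * x * q.1⁻¹ = (s : G) ^ N := by
        intro q hq
        rw [← hq]
        show _ = (q.1 * (x * ((q.2 : C) : G)) * q.1⁻¹) ^ N
        rw [conj_pow, hprod _ q.2.2]
      have h2 := hpow q₀ (Finset.mem_filter.1 hq₀).2
      have hmem : ∀ q : G × {a : C // ¬ 2 ∣ orderOf a}, Φ q = s → q₀.1⁻¹ * q.1 ∈ C := by
        intro q hq
        have h3 := hpow q hq
        rw [← h2] at h3
        refine Subgroup.mem_centralizer_singleton_iff.2 ?_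
        calc q₀.1⁻¹ * q.1 * x = q₀.1⁻¹ * (q.1 * x * q.1⁻¹) * q.1 := by group
          _ = q₀.1⁻¹ * (q₀.1 * x * q₀.1⁻¹) * q.1 := by rw [h3]
          _ = x * (q₀.1⁻¹ * q.1) := by group
      rw [Nat.card_eq_fintype_card, ← Finset.card_univ]
      refine Finset.card_le_card_of_injOn
        (fun q => if hq : Φ q = s then (⟨q₀.1⁻¹ * q.1, hmem q hq⟩ : C) else 1)
        (fun _ _ => Finset.mem_univ _) ?_
      intro q hq q' hq' hqq
      have e1 : Φ q = s := (Finset.mem_filter.1 hq).2
      have e2 : Φ q' = s := (Finset.mem_filter.1 hq').2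
      simp only [dif_pos e1, dif_pos e2] at hqq
      have e3 : q.1 = q'.1 := mul_left_cancel (congrArg Subtype.val hqq)
      have e4 : q.1 * (x * ((q.2 : C) : G)) * q.1⁻¹ = q'.1 * (x * ((q'.2 : C) : G)) * q'.1⁻¹ :=
        congrArg Subtype.val (e1.trans e2.symm)
      rw [e3] at e4
      have e5 : ((q.2 : C) : G) = ((q'.2 : C) : G) :=
        mul_left_cancel (mul_left_cancel (mul_right_cancel e4))
      exact Prod.ext e3 (Subtype.ext (Subtype.ext e5))
  have h1 := Finset.card_le_mul_card_image_of_maps_to (s := Finset.univ)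
    (t := (Finset.univ : Finset {g : G // 2 ∣ orderOf g})) (f := Φ)
    (fun _ _ => Finset.mem_univ _) (Nat.card C) (fun s _ => hfib s)
  rw [Finset.card_univ, Finset.card_univ, Fintype.card_prod, ← Nat.card_eq_fintype_card,
    ← Nat.card_eq_fintype_card, ← Nat.card_eq_fintype_card] at h1
  exact h1

/-- An element of odd order. -/
theorem pow_ordCompl_eq_one {C : Type*} [Group C] [Finite C] (a : C) :
    a ^ (ordCompl[2] (Nat.card C)) = 1 ↔ ¬ 2 ∣ orderOf a := by
  constructor
  · intro h1 h2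
    exact Nat.not_dvd_ordCompl Nat.prime_two Nat.card_pos.ne'
      (h2.trans (orderOf_dvd_of_pow_eq_one h1))
  · intro ha
    apply orderOf_dvd_iff_pow_eq_one.1
    have h1 : orderOf a ∣ Nat.card C := orderOf_dvd_natCard _
    have h2 : (orderOf a).Coprime (2 ^ (Nat.card C).factorization 2) := by
      apply Nat.Coprime.pow_right
      rw [Nat.coprime_comm, Nat.prime_two.coprime_iff_not_dvd]
      exact ha
    rw [← Nat.ordProj_mul_ordCompl_eq_self (Nat.card C) 2] at h1
    exact h2.dvd_of_dvd_mul_left h1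

theorem norm_le {χ : G → ℂ} (hχ : IsIrrCharacter G χ) {d : ℕ} (hd : χ 1 = d) (g : G) :
    ‖χ g‖ ≤ d := by
  obtain ⟨n, ρ, hρ, rfl⟩ := hχ
  have h2 := Cfsg.Agent.Characters.Values.norm_character_le ρ g
  have h3 : (Module.finrank ℂ (Fin n → ℂ) : ℂ) = d := by rw [← hd, Representation.char_one]
  have h4 : Module.finrank ℂ (Fin n → ℂ) = d := by exact_mod_cast h3
  rwa [h4] at h2

/-- **The order of `G`.** -/
theorem card_eq [IsSimpleGroup G] (h : DihedralP.Hyp P) (hp5 : 5 < p) (ρ : IrrCharacter G)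
    (hρ1 : (ρ : G → ℂ) 1 = (p : ℂ) - 1)
    (hρP : ∀ y ∈ (P : Subgroup G), y ≠ 1 → (ρ : G → ℂ) y = -1) {Ω : Type} [Fintype Ω]
    (Ψ : Ω → IrrCharacter G) (hΩ : 2 * Fintype.card Ω = p - 1)
    (hinj : Function.Injective Ψ) (h1 : ∀ ω, (Ψ ω : G → ℂ) ≠ 1)
    (hΨ : ∀ (ω : Ω) (g : G), ¬ p ∣ orderOf g → (Ψ ω : G → ℂ) g = (ρ : G → ℂ) g - 1) :
    Nat.card G = p * (p - 1) * (p - 2) := by
  classical
  obtain ⟨x, hx, hxP⟩ := h.exists_not_mem
  have hxo : orderOf x = 2 := h.orderOf_eq_two hx hxP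
  have hp1 : 1 < p := hp.out.one_lt
  have hnc : ¬ ∀ a b : G, a * b = b * a := by
    intro hc
    apply hxP
    rw [← h.cent, Subgroup.mem_centralizer_iff]
    exact fun y _ => hc y x
  have hρ1' : (ρ : G → ℂ) 1 = ((p - 1 : ℕ) : ℂ) := by
    rw [hρ1, Nat.cast_sub hp1.le]
    push_cast
    rfl
  have hρne : (ρ : G → ℂ) ≠ 1 := by
    intro h2
    rw [h2] at hρ1'
    have h3 : ((1 : ℕ) : ℂ) = ((p - 1 : ℕ) : ℂ) := by rw [Nat.cast_one]; exact hρ1'
    have h4 : 1 = p - 1 := by exact_mod_cast h3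
    omega
  have hker : ∀ g : G, ‖(ρ : G → ℂ) g‖ = ((p - 1 : ℕ) : ℝ) → g = 1 := by
    intro g hg
    by_contra hg1
    exact hρne (Cfsg.Agent.SporadicA.M11CharSimple.eq_one_of_norm_eq hnc ρ.2 hg1 hρ1' hg)
  have hf2 : (Nat.card G).factorization 2 = (p - 1).factorization 2 := by
    refine h.factorization_two ρ.2 hρ1 hρP ?_
    intro b hb hcon
    have h2 := hker b (by rw [hcon, hρ1', Complex.norm_natCast])
    rw [h2, orderOf_one] at hb
    omega
  have hρ0 : ∀ g : G, 2 ∣ orderOf g → (ρ : G → ℂ) g = 0 := fun g hg =>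
    defect_zero_vanish ρ.2 2 Nat.prime_two hρ1' (by rw [hf2]; exact Nat.ordProj_dvd _ _) hg
  have hE := card_even h hρ0 Ψ hinj h1 hΨ hp5
  have hcm := card_mul_le hxo
  have hcardmul := h.card_mul ρ.2 hρ1 hρP hx hxP
  set C := Subgroup.centralizer ({x} : Set G) with hC
  set c := Nat.card C with hc
  set A := Nat.card {a : C // ¬ 2 ∣ orderOf a} with hA
  set E := Nat.card {g : G // 2 ∣ orderOf g} with hEdef
  set t := Fintype.card Ω with ht
  have hG0 : 0 < Nat.card G := Nat.card_pos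
  have hc0 : 0 < c := Nat.card_pos
  have hAt : A * (1 + t) ≤ c := by
    have h2 : Nat.card G * (A * (1 + t)) ≤ Nat.card G * c := by
      calc Nat.card G * (A * (1 + t)) = (Nat.card G * A) * (1 + t) := by ring
        _ ≤ (c * E) * (1 + t) := Nat.mul_le_mul_right _ hcm
        _ = c * (E * (1 + t)) := by ring
        _ ≤ c * Nat.card G := Nat.mul_le_mul_left _ hE
        _ = Nat.card G * c := by ring
    exact Nat.le_of_mul_le_mul_left h2 hG0
  have hΩne : Nonempty Ω := by
    rw [← Fintype.card_pos_iff]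
    omega
  obtain ⟨ω⟩ := hΩne
  have hxreg : ¬ p ∣ orderOf x := by
    rw [hxo]
    intro h2
    have := Nat.le_of_dvd (by norm_num) h2
    omega
  have h1reg : ¬ p ∣ orderOf (1 : G) := by
    rw [orderOf_one]; exact hp.out.not_dvd_one
  -- `p - 1` divides `c`
  obtain ⟨k, hk⟩ : p - 1 ∣ c := by
    have hΨ1 : (Ψ ω : G → ℂ) 1 = ((p - 2 : ℕ) : ℂ) := by
      rw [hΨ ω 1 h1reg, hρ1, Nat.cast_sub (by omega)]
      push_cast
      ring
    have hΨx : (Ψ ω : G → ℂ) x = ((-1 : ℤ) : ℂ) := by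
      rw [hΨ ω x hxreg, hρ0 x (by rw [hxo])]
      push_cast
      ring
    have h2 := dvd_index_mul (Ψ ω).2 hΨ1 hΨx
    rw [mul_neg_one, dvd_neg] at h2
    have h3 : (p - 2) ∣ C.index := by exact_mod_cast h2
    obtain ⟨I, hI⟩ := h3
    have h4 : c * C.index = Nat.card G := Subgroup.card_mul_index C
    rw [← h4, hI] at hcardmul
    have h5 : (c * (p - 2)) * (I * (p - 1)) = (c * (p - 2)) * (p * c) := by
      calc (c * (p - 2)) * (I * (p - 1)) = c * ((p - 2) * I) * (p - 1) := by ring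
        _ = p * (p - 2) * c ^ 2 := hcardmul
        _ = (c * (p - 2)) * (p * c) := by ring
    have h6 := Nat.eq_of_mul_eq_mul_left (Nat.mul_pos hc0 (by omega)) h5
    have h7 : p - 1 ∣ p * c := ⟨I, by rw [← h6]; ring⟩
    have h8 : (p - 1).Coprime p := by
      rw [Nat.coprime_comm, hp.out.coprime_iff_not_dvd]
      intro h9
      have := Nat.le_of_dvd (by omega) h9
      omega
    exact h8.dvd_of_dvd_mul_left h7
  have hk0 : 0 < k := by
    rcases Nat.eq_zero_or_pos k with h2 | h2
    · rw [h2, mul_zero] at hk; omega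
    · exact h2
  have hcardG : Nat.card G = p * (p - 2) * (p - 1) * k ^ 2 := by
    apply Nat.eq_of_mul_eq_mul_right (show 0 < p - 1 by omega)
    rw [hcardmul, hk]
    ring
  have hk2 : ¬ 2 ∣ k := by
    intro h2
    have h3 : 2 ^ ((p - 1).factorization 2 + 1) ∣ Nat.card G := by
      have h4 : 2 ^ (p - 1).factorization 2 ∣ p - 1 := Nat.ordProj_dvd _ _
      have h5 : 2 ∣ k ^ 2 := dvd_pow h2 (by norm_num)
      rw [hcardG, pow_succ, mul_assoc]
      exact Dvd.dvd.mul_left (mul_dvd_mul h4 h5) _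
    rw [← hf2] at h3
    exact Nat.pow_succ_factorization_not_dvd hG0.ne' Nat.prime_two h3
  -- Frobenius
  have hfrob : ordCompl[2] c ∣ A := by
    have h2 := Cfsg.Agent.H418.Frob.frobenius_dvd (G := C) (ordCompl[2] c) (Nat.ordCompl_dvd _ _)
    have h3 : Nat.card {g : C // g ^ (ordCompl[2] c) = 1} = A := by
      apply Nat.card_congr
      exact Equiv.subtypeEquivRight fun a => pow_ordCompl_eq_one a
    rwa [h3] at h2
  have hoc : ordCompl[2] c = ordCompl[2] (p - 1) * k := by
    rw [hk, Nat.ordCompl_mul, (Nat.ordCompl_eq_self_iff_zero_or_not_dvd k Nat.prime_two).2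
      (Or.inr hk2)]
  have hw0 : 0 < ordCompl[2] (p - 1) := Nat.ordCompl_pos 2 (by omega)
  obtain ⟨j, hj⟩ := hfrob
  rw [hoc] at hj
  have hA0 : 0 < A := by
    have : Nonempty {a : C // ¬ 2 ∣ orderOf a} := ⟨⟨1, by rw [orderOf_one]; norm_num⟩⟩
    exact Nat.card_pos
  have hj0 : 0 < j := by
    rcases Nat.eq_zero_or_pos j with h2 | h2
    · rw [h2, mul_zero] at hj; omega
    · exact h2
  have hAk : A = k := by
    set w := ordCompl[2] (p - 1) with hw
    have h2 : (p + 1) * (w * j * k) ≤ 2 * (p - 1) * k := by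
      have h3 : 2 * (A * (1 + t)) ≤ 2 * c := Nat.mul_le_mul_left _ hAt
      have h4 : 2 * (A * (1 + t)) = A * (2 + 2 * t) := by ring
      rw [h4, hΩ, hj, hk] at h3
      have h5 : 2 + (p - 1) = p + 1 := by omega
      rw [h5] at h3
      calc (p + 1) * (w * j * k) = w * k * j * (p + 1) := by ring
        _ ≤ 2 * ((p - 1) * k) := h3
        _ = 2 * (p - 1) * k := by ring
    have h3 : (p + 1) * (w * j) ≤ 2 * (p - 1) := by
      apply Nat.le_of_mul_le_mul_right _ hk0
      calc (p + 1) * (w * j) * k = (p + 1) * (w * j * k) := by ring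
        _ ≤ _ := h2
    have h4 : w * j < 2 := by
      by_contra hcon
      have h5 : (p + 1) * 2 ≤ (p + 1) * (w * j) := Nat.mul_le_mul_left _ (by omega)
      omega
    have h5 : 0 < w * j := Nat.mul_pos hw0 hj0
    have h6 : w * j = 1 := by omega
    rw [hj]
    calc w * k * j = (w * j) * k := by ring
      _ = k := by rw [h6, one_mul]
  -- the restriction to `C`
  have hCreg : ∀ g : C, ¬ p ∣ orderOf (g : G) := by
    intro g hg
    have h2 := orderOf_eq h hg
    have h3 : Commute x (g : G) := (Subgroup.mem_centralizer_singleton_iff.1 g.2).symm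
    have h4 : orderOf (x * (g : G)) = 2 * p := by
      rw [h3.orderOf_mul_eq_mul_orderOf_of_coprime, hxo, h2]
      rw [hxo, h2]
      exact (Nat.coprime_primes Nat.prime_two hp.out).2 (by omega)
    have h5 := orderOf_eq h (g := x * (g : G)) (by rw [h4]; exact Dvd.intro_left _ rfl)
    omega
  obtain ⟨n, hn⟩ := classInner_isNat (isCharacter_comp C.subtype (isIrr_isCharacter (Ψ ω).2))
    (isCharacter_one (G := C))
  rw [Cfsg.Agent.Characters.Core.classInner_def] at hn
  have hcC : (c : ℂ) ≠ 0 := by exact_mod_cast hc0.ne'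
  have h2 : ∑ g : C, ((ρ : G → ℂ) (g : G) - 1) = c * n := by
    have h3 : ∑ g : C, ((Ψ ω : G → ℂ) ∘ C.subtype) g * conj ((1 : C → ℂ) g) =
        ∑ g : C, ((ρ : G → ℂ) (g : G) - 1) := by
      refine Finset.sum_congr rfl fun g _ => ?_
      show (Ψ ω : G → ℂ) (g : G) * conj (1 : ℂ) = _
      rw [map_one, mul_one, hΨ ω g (hCreg g)]
    rw [h3] at hn
    rw [← hn, ← hc, mul_inv_cancel_left₀ hcC]
  have h3 : ∑ g ∈ Finset.univ.filter (fun g : C => ¬ 2 ∣ orderOf g), (ρ : G → ℂ) (g : G) =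
      c * (n + 1) := by
    rw [Finset.sum_sub_distrib, Finset.sum_const, Finset.card_univ, nsmul_eq_mul, mul_one,
      ← Nat.card_eq_fintype_card, ← hc] at h2
    rw [Finset.sum_filter]
    have h4 : ∀ g : C, (if ¬ 2 ∣ orderOf g then (ρ : G → ℂ) (g : G) else 0) = (ρ : G → ℂ) (g : G) := by
      intro g
      by_cases hg : 2 ∣ orderOf g
      · rw [if_neg (not_not.2 hg), hρ0 g (by rw [Subgroup.orderOf_coe]; exact hg)]
      · rw [if_pos hg]
    rw [Finset.sum_congr rfl fun g _ => h4 g]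
    linear_combination h2
  have h4 : ∑ g ∈ Finset.univ.filter (fun g : C => ¬ 2 ∣ orderOf g),
      (((p - 1 : ℕ) : ℝ) - ((ρ : G → ℂ) (g : G)).re) ≤ 0 := by
    have h5 := congrArg Complex.re h3
    rw [Complex.re_sum] at h5
    have h6 : ((c : ℂ) * (n + 1)).re = (c : ℝ) * (n + 1) := by
      have : ((c : ℂ) * (n + 1)) = (((c : ℝ) * (n + 1) : ℝ) : ℂ) := by push_cast; rfl
      rw [this, Complex.ofReal_re]
    rw [h6] at h5
    rw [Finset.sum_sub_distrib, h5, Finset.sum_const, nsmul_eq_mul]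
    have h7 : (Finset.univ.filter (fun g : C => ¬ 2 ∣ orderOf g)).card = k := by
      rw [← hAk, hA, Nat.card_eq_fintype_card, Fintype.card_subtype]
    rw [h7, hk]
    push_cast
    have h8 : (0 : ℝ) ≤ ((p - 1 : ℕ) : ℝ) * k * n := by positivity
    nlinarith
  have h5 : ∀ g : C, 0 ≤ (((p - 1 : ℕ) : ℝ) - ((ρ : G → ℂ) (g : G)).re) := by
    intro g
    have h6 := norm_le ρ.2 hρ1' (g : G)
    have h7 := Complex.re_le_norm ((ρ : G → ℂ) (g : G))
    linarith
  have h6 : ∀ g : C, ¬ 2 ∣ orderOf g → g = 1 := by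
    intro g hg
    have h7 := (Finset.sum_eq_zero_iff_of_nonneg (fun g _ => h5 g)).1
      (le_antisymm h4 (Finset.sum_nonneg fun g _ => h5 g)) g
      (Finset.mem_filter.2 ⟨Finset.mem_univ _, hg⟩)
    have h8 := norm_le ρ.2 hρ1' (g : G)
    have h9 := Complex.re_le_norm ((ρ : G → ℂ) (g : G))
    exact Subtype.ext (hker g (le_antisymm h8 (by linarith)))
  have hk1 : k = 1 := by
    rw [← hAk, hA, Nat.card_eq_one_iff_unique]
    refine ⟨⟨fun a b => Subtype.ext ?_⟩, ⟨1, by rw [orderOf_one]; norm_num⟩⟩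
    rw [h6 a a.2, h6 b b.2]
  rw [hcardG, hk1]
  ring

end Cfsg.Agent.H656.PM2Order
end

-- part: S4705
section
set_option autoImplicit false
open Cfsg

namespace Cfsg.Agent.S4705

/-- Let G be a finite group with centre Z and p > 5 a prime such that a Sylow p-subgroup of G has order p and is not normal. If G has a faithful irreducible character of degree p − 2, then p = 2^a + 1 for some a and G is isomorphic to the direct product of SL(2, 2^a) with Z. -/
theorem result {G : Type*} [Group G] [Finite G] (p : ℕ) [Fact p.Prime] (hp : 5 < p) (P : Sylow p G) (hP : Nat.card P = p) (hnn : ¬ (P : Subgroup G).Normal) (ζ : G → ℂ) (hζ : Cfsg.IsIrrCharacter G ζ) (hfaith : ∀ g : G, ζ g = ζ 1 → g = 1) (hdeg : Cfsg.charDegree ζ = p - 2) : ∃ (a : ℕ) (F : Type) (_ : Field F) (_ : Fintype F), p = 2 ^ a + 1 ∧ Fintype.card F = 2 ^ a ∧ Nonempty (G ≃* Matrix.SpecialLinearGroup (Fin 2) F × Subgroup.center G) := by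
  classical
  have := Fintype.ofFinite G
  obtain ⟨G₁, P₁, hperf, hP₁, hnn₁, hζ₁, hfaith₁, hdeg₁, hprod⟩ :=
    Cfsg.Agent.H656.PM2Reduction.reduce P hP hp hnn ζ hζ hfaith hdeg
  have := Fintype.ofFinite G₁
  obtain ⟨hcen, hsimple, hHyp, ρ, Ω, hΩ, Ψ, hρ1, hρP, hcard, hinj, hΨ1, hΨ⟩ :=
    Cfsg.Agent.H656.PM2Simple.main P₁ hP₁ hp hnn₁ hperf _ hζ₁ hfaith₁ hdeg₁
  have hG := Cfsg.Agent.H656.PM2Order.card_eq hHyp hp ρ hρ1 hρP Ψ hcard hinj hΨ1 hΨ
  have hpp : p.Prime := Fact.out
  have hlt : Nat.card G₁ < p ^ 3 := by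
    rw [hG]
    have h1 : p * (p - 1) < p * p := Nat.mul_lt_mul_of_pos_left (by omega) (by omega)
    calc p * (p - 1) * (p - 2) ≤ p * (p - 1) * p := Nat.mul_le_mul_left _ (by omega)
      _ < p * p * p := Nat.mul_lt_mul_of_pos_right h1 (by omega)
      _ = p ^ 3 := by ring
  have h2 : ∀ N : Subgroup G₁, N.Normal → Nat.card N ≠ 2 := by
    intro N hN hN2
    rcases hN.eq_bot_or_eq_top with h | h
    · rw [h, Subgroup.card_bot] at hN2
      omega
    · rw [h, Subgroup.card_top, hG] at hN2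
      have h3 : p ∣ p * (p - 1) * (p - 2) := ⟨(p - 1) * (p - 2), by ring⟩
      rw [hN2] at h3
      have := Nat.le_of_dvd (by norm_num) h3
      omega
  rcases Cfsg.Agent.S4701.result hperf p (by rw [hG]; exact ⟨(p - 1) * (p - 2), by ring⟩) hlt P₁ hnn₁
    h2 with ⟨F, _, _, hF, -, ⟨e⟩⟩ | ⟨m, F, _, _, hF, hpm, -, ⟨e⟩⟩
  · exfalso
    have hodd : Odd (Fintype.card F) := by
      rw [hF]
      exact hpp.odd_of_ne_two (by omega)
    have h3 := Cfsg.Agent.ClassicalGeometry.PSL2Basic.card_PSL2_odd F hodd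
    rw [← Nat.card_congr e.toEquiv, hG, hF] at h3
    obtain ⟨q, hq⟩ : ∃ q, p = q + 2 := ⟨p - 2, by omega⟩
    have h4 : p ^ 2 - 1 = (p - 1) * (p + 1) := by
      rw [hq]
      have h5 : (q + 2) ^ 2 = (q + 2 - 1) * (q + 2 + 1) + 1 := by
        have : q + 2 - 1 = q + 1 := by omega
        rw [this]
        ring
      omega
    rw [h4] at h3
    have h5 : (p * (p - 1)) * ((p - 2) * 2) = (p * (p - 1)) * (p + 1) := by
      calc (p * (p - 1)) * ((p - 2) * 2) = p * (p - 1) * (p - 2) * 2 := by ring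
        _ = p * ((p - 1) * (p + 1)) := h3
        _ = (p * (p - 1)) * (p + 1) := by ring
    have h6 := Nat.eq_of_mul_eq_mul_left (Nat.mul_pos (by omega) (by omega)) h5
    omega
  · obtain ⟨e'⟩ := hprod hcen
    exact ⟨m, F, inferInstance, inferInstance, hpm, hF,
      ⟨e'.trans (MulEquiv.prodCongr e (MulEquiv.refl _))⟩⟩

end Cfsg.Agent.S4705
end
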