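import Mathlib
import Cfsg.Prelude.Def_Blocks
import Cfsg.Prelude.Def_Local
import Cfsg.Agent.Blocks.Basic
import Cfsg.Agent.Blocks.Local
import Cfsg.Agent.Blocks.BlockKer
import Cfsg.Agent.Blocks.PrincipalKernel
import Cfsg.Agent.Blocks.Deflate
import Cfsg.Agent.S0938
import Cfsg.Agent.H646.RegInner
import Cfsg.Agent.OddOrderLocal.PLengthSub
import Cfsg.Agent.OddOrderLocal.PLengthOne
import Cfsg.Statements.S4711
set_option linter.all false

-- part: H657/PLenOne
section
/-!
# Groups of `p`-length one and the principal block on the normalizer of a Sylow subgroup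

* `regular_mem_ker`: if all members of the principal block restrict irreducibly to `N_G(P)`, the
  `p`-regular elements of the normal closure of `P` are in the kernel of the principal block.
* `pLengthLE_one_of_irr`, `irr_of_pLengthLE_one`.
-/

set_option autoImplicit false

namespace Cfsg.Agent.H657.PLenOne

open Cfsg
open scoped ComplexConjugate
open Cfsg.Agent
open Cfsg.Agent.H646.RegInner

variable {G : Type*} [Group G]

section

variable [Fintype G] {p : ℕ} [Fact p.Prime] {M : Ideal AlgInt}

omit [Fact p.Prime] in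
open Classical in
/-- If `χ` restricts irreducibly to `N_G(P)`, the averages of `χ` over `P` and over the normal
closure of `P` agree. -/
theorem sum_closure (P : Sylow p G) {χ : G → ℂ} (hχ : IsIrrCharacter G χ)
    (hirr : IsIrrCharacter (Subgroup.normalizer ((P : Subgroup G) : Set G)) (fun n => χ n)) :
    (∑ g : G with g ∈ (P : Subgroup G), χ g) *
        (Nat.card (Subgroup.normalClosure ((P : Subgroup G) : Set G)) : ℂ) =
      (∑ g : G with g ∈ Subgroup.normalClosure ((P : Subgroup G) : Set G), χ g) *
        (Nat.card (P : Subgroup G) : ℂ) := by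
  set L : Subgroup G := Subgroup.normalClosure ((P : Subgroup G) : Set G) with hL
  set N : Subgroup G := Subgroup.normalizer ((P : Subgroup G) : Set G) with hN
  have hPN : (P : Subgroup G) ≤ N := Subgroup.le_normalizer
  have hPL : (P : Subgroup G) ≤ L := Subgroup.subset_normalClosure
  have hLn : L.Normal := Subgroup.normalClosure_normal
  have hcard : ∀ H : Subgroup G, ((Finset.univ.filter (fun g : G => g ∈ H)).card : ℂ) =
      (Nat.card H : ℂ) := by
    intro H
    rw [Nat.card_eq_fintype_card, Fintype.card_subtype]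
  have hconst : ∀ H : Subgroup G, (∀ g ∈ H, χ g = χ 1) →
      ∑ g : G with g ∈ H, χ g = (Nat.card H : ℂ) * χ 1 := by
    intro H h
    rw [Finset.sum_congr rfl (g := fun _ => χ 1) (fun g hg => h g (by simpa using hg)),
      Finset.sum_const, nsmul_eq_mul, hcard]
  have h1 : χ 1 ≠ 0 := Blocks.Basic.irr_one_ne_zero hχ
  by_cases h0 : ∑ g : G with g ∈ (P : Subgroup G), χ g = 0
  · -- then the sum over `L` vanishes
    have h2 : ∑ g : G with g ∈ L, χ g = 0 := by
      by_contra hne
      have h3 : ∀ g ∈ L, χ g = χ 1 := fun g hg =>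
        Blocks.BlockKer.apply_eq_of_sum_ne_zero hχ L hLn
          (Finset.univ.filter (fun g : G => g ∈ L)) (by simp) hne hg
      rw [hconst P (fun g hg => h3 g (hPL hg))] at h0
      rcases mul_eq_zero.1 h0 with h | h
      · exact absurd h (by exact_mod_cast Nat.card_pos.ne')
      · exact h1 h
    rw [h0, h2, zero_mul, zero_mul]
  · have h2 : ∀ x ∈ (P : Subgroup G), χ x = χ 1 := by
      intro x hx
      have hsum : ∑ n ∈ (Finset.univ.filter (fun n : N => (n : G) ∈ (P : Subgroup G))),
          χ (n : G) = ∑ g : G with g ∈ (P : Subgroup G), χ g := by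
        refine Finset.sum_bij' (fun n _ => (n : G)) (fun g hg => ⟨g, hPN (by simpa using hg)⟩)
          ?_ ?_ ?_ ?_ ?_
        · intro n hn; simpa using hn
        · intro g hg; simpa using hg
        · intro n _; rfl
        · intro g _; rfl
        · intro n _; rfl
      have hnorm : ((P : Subgroup G).subgroupOf N).Normal := by
        rw [hN]
        exact Subgroup.normal_in_normalizer
      exact Blocks.BlockKer.apply_eq_of_sum_ne_zero hirr ((P : Subgroup G).subgroupOf N) hnorm
        (Finset.univ.filter (fun n : N => (n : G) ∈ (P : Subgroup G)))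
        (by intro n; simp [Subgroup.mem_subgroupOf]) (by rw [hsum]; exact h0)
        (g := ⟨x, hPN hx⟩) (by simpa [Subgroup.mem_subgroupOf] using hx)
    obtain ⟨K, hKn, hK⟩ := Blocks.BlockKer.exists_kernel hχ
    have h3 : L ≤ K := by
      have : (P : Subgroup G) ≤ K := fun x hx => (hK x).2 (h2 x hx)
      exact Subgroup.normalClosure_le_normal this
    rw [hconst P h2, hconst L (fun g hg => (hK g).1 (h3 hg))]
    ring

omit [Fintype G] in
/-- The only `p`-regular element of a `p`-group is `1`. -/
theorem eq_one_of_mem (P : Sylow p G) {x : G} (hx : x ∈ (P : Subgroup G))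
    (h : ¬ p ∣ orderOf x) : x = 1 := by
  obtain ⟨k, hk⟩ := (IsPGroup.iff_orderOf.mp P.2) ⟨x, hx⟩
  rw [Subgroup.orderOf_mk] at hk
  rcases Nat.eq_zero_or_pos k with rfl | hk0
  · rw [pow_zero, orderOf_eq_one_iff] at hk
    exact hk
  · exact absurd (hk ▸ dvd_pow_self p hk0.ne') h

/-- If all members of the principal block restrict irreducibly to `N_G(P)`, the `p`-regular
elements of the normal closure of `P` are in the kernel of the principal block. -/
theorem regular_mem_ker (hM : IsPModular p M) (P : Sylow p G)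
    (hirr : ∀ χ ∈ principalBlock M G,
      IsIrrCharacter (Subgroup.normalizer ((P : Subgroup G) : Set G)) (fun n => (χ : G → ℂ) n))
    {χ : IrrCharacter G} (hχ : χ ∈ principalBlock M G) {g : G}
    (hg : g ∈ Subgroup.normalClosure ((P : Subgroup G) : Set G)) (hreg : ¬ p ∣ orderOf g) :
    (χ : G → ℂ) g = (χ : G → ℂ) 1 := by
  classical
  have hprime : M.IsPrime := hM.2.1.isPrime
  have hfin : Finite (IrrCharacter G) := Characters.Core.finite_irr
  have := Fintype.ofFinite (IrrCharacter G)
  set L : Subgroup G := Subgroup.normalClosure ((P : Subgroup G) : Set G) with hL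
  have hirr1 : IsIrrCharacter G (fun _ : G => (1 : ℂ)) := Blocks.Basic.isIrrCharacter_one
  have hone : (⟨fun _ : G => (1 : ℂ), hirr1⟩ : IrrCharacter G) ∈ principalBlock M G :=
    Blocks.Basic.mem_blockOf_self (M := M) (⟨fun _ : G => (1 : ℂ), hirr1⟩ : IrrCharacter G)
  have hB : IsPBlock M (principalBlock M G) := ⟨⟨fun _ : G => (1 : ℂ), hirr1⟩, rfl⟩
  have hPne : (Nat.card (P : Subgroup G) : ℂ) ≠ 0 := by exact_mod_cast Nat.card_pos.ne'
  -- the average formula
  have key : ∀ θ : IrrCharacter G, θ ∈ principalBlock M G →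
      (θ : G → ℂ) 1 * (Nat.card L : ℂ) =
        (∑ g ∈ (Finset.univ.filter (fun g : G => g ∈ L)).filter (fun g => ¬ p ∣ orderOf g),
          (θ : G → ℂ) g) * (Nat.card (P : Subgroup G) : ℂ) := by
    intro θ hθ
    have hexp := pRegularPart_eq_sum hM hB hθ
    have hsumP : ∑ g : G with g ∈ (P : Subgroup G), pRegularPart p (θ : G → ℂ) g =
        (θ : G → ℂ) 1 := by
      rw [Finset.sum_eq_single (1 : G)]
      · rw [pRegularPart_of_not_dvd]
        rw [orderOf_one]
        exact fun h => (Fact.out : p.Prime).one_lt.ne' (Nat.dvd_one.mp h)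
      · intro x hx hx1
        refine pRegularPart_of_dvd ?_
        by_contra hcon
        exact hx1 (eq_one_of_mem P (by simpa using hx) hcon)
      · intro h
        exact absurd (by simp [(P : Subgroup G).one_mem]) h
    have hsumL : ∑ g : G with g ∈ L, pRegularPart p (θ : G → ℂ) g =
        ∑ g ∈ (Finset.univ.filter (fun g : G => g ∈ L)).filter (fun g => ¬ p ∣ orderOf g),
          (θ : G → ℂ) g := by
      rw [Finset.sum_filter (fun g => ¬ p ∣ orderOf g)]
      refine Finset.sum_congr rfl fun g _ => ?_
      rw [pRegularPart_apply]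
      by_cases h : p ∣ orderOf g <;> simp [h]
    rw [← hsumP, ← hsumL, hexp]
    simp only [Finset.sum_apply, Pi.smul_apply, smul_eq_mul]
    rw [Finset.sum_comm, Finset.sum_comm (s := Finset.univ.filter (fun g : G => g ∈ L)),
      Finset.sum_mul, Finset.sum_mul]
    refine Finset.sum_congr rfl fun φ hφ => ?_
    have hφB : φ ∈ principalBlock M G := by simpa using hφ
    rw [← Finset.mul_sum, ← Finset.mul_sum, mul_assoc, mul_assoc,
      sum_closure P φ.2 (hirr φ hφB)]
  set T : Finset G := (Finset.univ.filter (fun g : G => g ∈ L)).filter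
    (fun g => ¬ p ∣ orderOf g) with hT
  have h1 := key _ hone
  have h2 := key _ hχ
  simp only [one_mul, Finset.sum_const, nsmul_eq_mul, mul_one] at h1
  have h3 : ∑ g ∈ T, (χ : G → ℂ) g = (T.card : ℂ) * (χ : G → ℂ) 1 := by
    have h4 : (∑ g ∈ T, (χ : G → ℂ) g) * (Nat.card (P : Subgroup G) : ℂ) =
        ((T.card : ℂ) * (χ : G → ℂ) 1) * (Nat.card (P : Subgroup G) : ℂ) := by
      rw [← h2, h1]
      ring
    exact mul_right_cancel₀ hPne h4
  refine Blocks.PrincipalKernel.apply_eq_of_sum_eq (Blocks.Basic.irr_isCharacter χ.2) h3 ?_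
  rw [hT, Finset.mem_filter, Finset.mem_filter]
  exact ⟨⟨Finset.mem_univ _, hg⟩, hreg⟩

end

section

variable [Finite G] {p : ℕ} [Fact p.Prime] {M : Ideal AlgInt}

/-- If all members of the principal block restrict irreducibly to `N_G(P)`, the group has
`p`-length at most one. -/
theorem pLengthLE_one_of_irr (hM : IsPModular p M) (P : Sylow p G)
    (hirr : ∀ χ ∈ principalBlock M G,
      IsIrrCharacter (Subgroup.normalizer ((P : Subgroup G) : Set G)) (fun n => (χ : G → ℂ) n)) :
    PLengthLE p 1 G := by
  classical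
  have := Fintype.ofFinite G
  have hp : p.Prime := Fact.out
  have hprime : M.IsPrime := hM.2.1.isPrime
  set L : Subgroup G := Subgroup.normalClosure ((P : Subgroup G) : Set G) with hL
  have hPL : (P : Subgroup G) ≤ L := Subgroup.subset_normalClosure
  have hLn : L.Normal := Subgroup.normalClosure_normal
  have hirr1 : IsIrrCharacter G (fun _ : G => (1 : ℂ)) := Blocks.Basic.isIrrCharacter_one
  have hone : (⟨fun _ : G => (1 : ℂ), hirr1⟩ : IrrCharacter G) ∈ principalBlock M G :=
    Blocks.Basic.mem_blockOf_self (M := M) (⟨fun _ : G => (1 : ℂ), hirr1⟩ : IrrCharacter G)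
  have hB : IsPBlock M (principalBlock M G) := ⟨⟨fun _ : G => (1 : ℂ), hirr1⟩, rfl⟩
  obtain ⟨K, hKn, hK, hKp, -, -⟩ := S0938.result p M hM _ hB _ hone
  rw [OddOrderLocal.PLengthSub.pLengthLE_one_iff]
  refine ⟨K, L ⊔ K, hKn, Subgroup.sup_normal _ _, le_sup_right,
    (hp.coprime_iff_not_dvd.2 hKp).symm, ?_, ?_⟩
  · rw [Subgroup.relIndex_sup_right]
    -- `L / (L ∩ K)` is a `p`-group
    have h1 : IsPGroup p (L ⧸ K.subgroupOf L) := by
      intro q
      obtain ⟨l, rfl⟩ := QuotientGroup.mk_surjective q
      refine ⟨(orderOf l).factorization p, ?_⟩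
      rw [← QuotientGroup.mk_pow, QuotientGroup.eq_one_iff, Subgroup.mem_subgroupOf]
      have h2 : ((l ^ p ^ (orderOf l).factorization p : L) : G) ∈ (K : Set G) := by
        rw [hK]
        intro χ hχ
        refine regular_mem_ker hM P hirr hχ (SetLike.coe_mem _) ?_
        rw [Subgroup.orderOf_coe]
        have hpos : orderOf l ≠ 0 := (orderOf_pos l).ne'
        rw [orderOf_pow_of_dvd (pow_ne_zero _ hp.ne_zero) (Nat.ordProj_dvd _ _)]
        exact Nat.not_dvd_ordCompl hp hpos
      exact h2
    obtain ⟨n, hn⟩ := IsPGroup.iff_card.1 h1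
    exact ⟨n, hn⟩
  · have h1 : (L ⊔ K).index ∣ (P : Subgroup G).index :=
      Subgroup.index_dvd_of_le (hPL.trans le_sup_left)
    have h2 : ¬ p ∣ (P : Subgroup G).index := P.not_dvd_index
    exact (hp.coprime_iff_not_dvd.2 (fun h => h2 (h.trans h1))).symm

/-- In a group of `p`-length at most one all members of the principal block restrict irreducibly
to `N_G(P)`. -/
theorem irr_of_pLengthLE_one (hM : IsPModular p M) (P : Sylow p G) (h : PLengthLE p 1 G)
    {χ : IrrCharacter G} (hχ : χ ∈ principalBlock M G) :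
    IsIrrCharacter (Subgroup.normalizer ((P : Subgroup G) : Set G)) (fun n => (χ : G → ℂ) n) := by
  have hp : p.Prime := Fact.out
  have hK : ¬ p ∣ Nat.card (pPrimeCore p G) :=
    hp.coprime_iff_not_dvd.1 (OddOrderLocal.PLengthOne.card_pPrimeCore_coprime p).symm
  have hKn : (pPrimeCore p G).Normal := inferInstance
  have := Fintype.ofFinite G
  have := Fintype.ofFinite (pPrimeCore p G)
  obtain ⟨χ', hχ'⟩ := Blocks.Deflate.exists_deflation (pPrimeCore p G) (χ : G → ℂ) χ.2 (by
    rw [Finset.sum_congr rfl (g := fun _ => (χ : G → ℂ) 1) (fun n _ =>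
      Blocks.PrincipalKernel.principalBlock_apply_eq hM hK hχ n.2), Finset.sum_const,
      nsmul_eq_mul]
    refine mul_ne_zero ?_ (Blocks.Basic.irr_one_ne_zero χ.2)
    rw [Finset.card_univ, ← Nat.card_eq_fintype_card]
    exact_mod_cast Nat.card_pos.ne')
  have hsurj : Function.Surjective ((QuotientGroup.mk' (pPrimeCore p G)).comp
      (Subgroup.normalizer ((P : Subgroup G) : Set G)).subtype) := by
    intro q
    obtain ⟨x, rfl⟩ := QuotientGroup.mk_surjective q
    obtain ⟨g, hg, k, hk, rfl⟩ := OddOrderLocal.PLengthOne.exists_mul_of_pLengthLE_one h P x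
    refine ⟨⟨g, hg⟩, ?_⟩
    rw [MonoidHom.comp_apply, Subgroup.subtype_apply, QuotientGroup.mk'_apply,
      QuotientGroup.eq]
    simpa using hk
  have := Characters.Core.isIrr_comp _ hsurj χ'.2
  convert this using 1
  ext n
  rw [hχ']
  rfl

end

end Cfsg.Agent.H657.PLenOne
end

-- part: S4711
section
set_option autoImplicit false
open Cfsg

namespace Cfsg.Agent.S4711

/-- Let p be a prime, M a maximal ideal of the algebraic integers containing p, G a finite group, P a Sylow p-subgroup and N = N_G(P). Then G has p-length 1 (G = O_{p',p,p'}(G)) if and only if every irreducible character in the principal p-block of G restricts to an irreducible character of N. -/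
theorem result {G : Type*} [Group G] [Finite G] (p : ℕ) [Fact p.Prime] (M : Ideal Cfsg.AlgInt) (hM : Cfsg.IsPModular p M) (P : Sylow p G) : Cfsg.PLengthLE p 1 G ↔ ∀ χ ∈ Cfsg.principalBlock M G, Cfsg.IsIrrCharacter ↥(Subgroup.normalizer ((P : Subgroup G) : Set G)) (fun n : ↥(Subgroup.normalizer ((P : Subgroup G) : Set G)) => (χ : G → ℂ) n) :=
  ⟨fun h _ hχ => H657.PLenOne.irr_of_pLengthLE_one hM P h hχ,
    fun h => H657.PLenOne.pLengthLE_one_of_irr hM P h⟩

end Cfsg.Agent.S4711
end
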