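import Cfsg.Statements.S4715
import Cfsg.Agent.H658.InertialBound
set_option linter.all false
-- import your own Cfsg.Agent.* helpers here

set_option autoImplicit false
open Cfsg

namespace Cfsg.Agent.S4715

/-- Let p be a prime, M a maximal ideal of the algebraic integers containing p, B a p-block of the finite group G with defect group D of order p^d, H = D·C_G(D), b a block of H inducing B, T the stabilizer of b in N_G(D) and e = [T : H] the inertial index of B; let n be the integer with p^n ≤ e < p^(n+1) and p^c the order of the centre of D. Then every irreducible character in B has height h with h + c ≤ n + d. -/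
theorem result {G : Type*} [Group G] [Finite G] (p : ℕ) [Fact p.Prime] (M : Ideal Cfsg.AlgInt) (hM : Cfsg.IsPModular p M) (B : Set (Cfsg.IrrCharacter G)) (hB : Cfsg.IsPBlock M B) (D : Subgroup G) (hBD : Cfsg.IsDefectGroup p M B D) (d : ℕ) (hDd : Nat.card D = p ^ d) (H : Subgroup G) (hH : H = D ⊔ Subgroup.centralizer (D : Set G)) (b : Set (Cfsg.IrrCharacter H)) (hind : Cfsg.IsInducedBlock M H b B) (T : Subgroup G) (hT : ∀ g : G, g ∈ T ↔ (g ∈ Subgroup.normalizer (D : Set G) ∧ ∀ θ ∈ b, ∀ θ' : Cfsg.IrrCharacter H, (∀ h h' : H, (h' : G) = g * h * g⁻¹ → (θ' : H → ℂ) h' = (θ : H → ℂ) h) → θ' ∈ b)) (e : ℕ) (he : H.relIndex T = e) (n : ℕ) (hn : p ^ n ≤ e ∧ e < p ^ (n + 1)) (c : ℕ) (hc : Nat.card (Subgroup.center D) = p ^ c) : ∀ χ ∈ B, Cfsg.blockHeight p B (χ : G → ℂ) + c ≤ n + d := by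
  classical
  subst hH
  intro χ hχ
  have hpp : p.Prime := Fact.out
  have hcard := Cfsg.Agent.S0908.result p M hM B hB D hBD
  have hd : blockDefect p B = d := by
    rw [hDd] at hcard
    exact (Nat.pow_right_injective hpp.two_le hcard).symm
  have hzc : ∀ z : Subgroup.center D, ∀ w ∈ D, ((z : D) : G) * w = w * ((z : D) : G) := by
    intro z w hw
    have h1 := Subgroup.mem_center_iff.1 z.2 ⟨w, hw⟩
    exact (congrArg Subtype.val h1).symm
  choose f hf1 hf2 hf3 hf4 using fun z : Subgroup.center D =>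
    Cfsg.Agent.H658.exists_major hM hBD (z : D).2 (hzc z) hind
  have := Fintype.ofFinite (Subgroup.center D)
  have h1 := Cfsg.Agent.H658.card_center_le hM hBD f hf1 hf2 hf4 hχ
  have h2 := Cfsg.Agent.H658.sum_center_le hM hBD f hf1 hf3 χ hT
  rw [hc, hd] at h1
  rw [he] at h2
  have hp1 : (1 : ℝ) < p := by exact_mod_cast hpp.one_lt
  have hle : blockHeight p B (χ : G → ℂ) ≤ d := by
    have := Fintype.ofFinite G
    have hadd := Cfsg.Agent.H648.HeightForm.defect_add (p := p) B hχ
    have h3 : (charDegree (χ : G → ℂ)).factorization p ≤ (Nat.card G).factorization p :=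
      (Nat.factorization_le_iff_dvd
        (Cfsg.Agent.Blocks.Basic.charDegree_pos χ.2).ne' Nat.card_pos.ne').2
        (Cfsg.Agent.S0914.degree_spec χ).2.2 p
    omega
  obtain ⟨k, hk⟩ : ∃ k, k = d - blockHeight p B (χ : G → ℂ) := ⟨_, rfl⟩
  rw [← hk] at h1
  have h3 : (p : ℝ) ^ c < (p : ℝ) ^ (k + (n + 1)) := by
    calc (p : ℝ) ^ c = ((p ^ c : ℕ) : ℝ) := by push_cast; rfl
      _ ≤ (p : ℝ) ^ k * (e : ℝ) := h1.trans (mul_le_mul_of_nonneg_left h2 (by positivity))
      _ < (p : ℝ) ^ k * (p : ℝ) ^ (n + 1) := by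
          refine mul_lt_mul_of_pos_left ?_ (by positivity)
          exact_mod_cast hn.2
      _ = (p : ℝ) ^ (k + (n + 1)) := (pow_add _ _ _).symm
  have h4 := (pow_lt_pow_iff_right₀ hp1).1 h3
  omega

end Cfsg.Agent.S4715
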