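import Mathlib.GroupTheory.ClassEquation
import Mathlib.Algebra.Order.Floor.Semiring
import Mathlib.Data.Rat.Floor
import Mathlib.Tactic
import Cfsg.Statements.S4718
import Cfsg.Agent.H659.BlockBound
set_option linter.all false

-- part: H659/Landau
section
/-!
# Landau's theorem

`landau` : the order of a finite group with at most `k` conjugacy classes is bounded by a function
of `k`.
-/

set_option autoImplicit false

namespace Cfsg.Agent.H659.Landau

/-- Finitely many multisets of `k` positive integers have reciprocals adding up to `q`. -/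
theorem egypt (k : ℕ) : ∀ q : ℚ, ∃ N : ℕ, ∀ s : Multiset ℕ, Multiset.card s = k →
    (∀ n ∈ s, 0 < n) → (s.map (fun n : ℕ => (1 / n : ℚ))).sum = q → ∀ n ∈ s, n ≤ N := by
  induction k with
  | zero =>
    intro q
    refine ⟨0, fun s hs _ _ n hn => ?_⟩
    rw [Multiset.card_eq_zero.1 hs] at hn
    simp at hn
  | succ k ih =>
    intro q
    choose F hF using ih
    set m : ℕ := ⌊((k + 1 : ℕ) : ℚ) / q⌋₊ with hm
    refine ⟨m + ∑ n ∈ Finset.range (m + 1), F (q - 1 / n), fun s hs hpos hsum => ?_⟩
    -- some element is small
    have hex : ∃ n ∈ s, n ≤ m := by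
      by_contra hcon
      push Not at hcon
      have hq : 0 < q := by
        rw [← hsum]
        have hne : s ≠ 0 := by
          intro h
          rw [h] at hs
          simp at hs
        obtain ⟨a, ha⟩ := Multiset.exists_mem_of_ne_zero hne
        obtain ⟨t, rfl⟩ := Multiset.exists_cons_of_mem ha
        rw [Multiset.map_cons, Multiset.sum_cons]
        have h1 : 0 < (1 / a : ℚ) := by
          have : 0 < a := hpos a ha
          positivity
        have h2 : 0 ≤ (t.map (fun n : ℕ => (1 / n : ℚ))).sum := by
          apply Multiset.sum_nonneg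
          intro x hx
          obtain ⟨n, _, rfl⟩ := Multiset.mem_map.1 hx
          positivity
        linarith
      have hlt : ∀ n ∈ s, (1 / n : ℚ) < q / (k + 1 : ℕ) := by
        intro n hn
        have h1 : ((k + 1 : ℕ) : ℚ) / q < n := by
          have h2 := Nat.lt_floor_add_one (((k + 1 : ℕ) : ℚ) / q)
          have h3 : (⌊((k + 1 : ℕ) : ℚ) / q⌋₊ : ℚ) + 1 ≤ n := by
            have := hcon n hn
            rw [← hm]
            exact_mod_cast this
          linarith
        have hn0 : (0 : ℚ) < n := by exact_mod_cast hpos n hn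
        rw [div_lt_iff₀ hq] at h1
        rw [div_lt_div_iff₀ hn0 (by positivity)]
        linarith
      have hsum2 : (s.map (fun n : ℕ => (1 / n : ℚ))).sum < (s.map (fun _ => q / (k + 1 : ℕ))).sum := by
        apply Multiset.sum_lt_sum
        · intro n hn
          exact (hlt n hn).le
        · have hne : s ≠ 0 := by
            intro h
            rw [h] at hs
            simp at hs
          obtain ⟨a, ha⟩ := Multiset.exists_mem_of_ne_zero hne
          exact ⟨a, ha, hlt a ha⟩
      rw [Multiset.map_const', Multiset.sum_replicate, hs, hsum, nsmul_eq_mul] at hsum2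
      have : ((k + 1 : ℕ) : ℚ) * (q / (k + 1 : ℕ)) = q := by
        field_simp
      rw [this] at hsum2
      exact lt_irrefl _ hsum2
    obtain ⟨n, hn, hnm⟩ := hex
    obtain ⟨t, rfl⟩ := Multiset.exists_cons_of_mem hn
    rw [Multiset.card_cons] at hs
    rw [Multiset.map_cons, Multiset.sum_cons] at hsum
    intro x hx
    rw [Multiset.mem_cons] at hx
    rcases hx with rfl | hx
    · exact hnm.trans (Nat.le_add_right _ _)
    · have h1 := hF (q - 1 / n) t (by omega)
        (fun y hy => hpos y (Multiset.mem_cons_of_mem hy)) (by linarith) x hx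
      refine h1.trans (le_trans ?_ (Nat.le_add_left _ _))
      exact Finset.single_le_sum (f := fun j : ℕ => F (q - 1 / (j : ℚ)))
        (s := Finset.range (m + 1)) (fun _ _ => Nat.zero_le _)
        (Finset.mem_range.2 (Nat.lt_succ_of_le hnm))

theorem card_class_mul_card_centralizer {G : Type*} [Group G] [Finite G] (g : G) :
    Nat.card {x : G // ConjClasses.mk x = ConjClasses.mk g} *
      Nat.card (Subgroup.centralizer ({g} : Set G)) = Nat.card G := by
  have h0 : Nat.card {x : G // ConjClasses.mk x = ConjClasses.mk g} =
      Nat.card (ConjClasses.mk g).carrier := by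
    refine Nat.card_congr (Equiv.subtypeEquivRight fun x => ?_)
    rw [ConjClasses.mem_carrier_iff_mk_eq]
  have h1 : (Subgroup.centralizer ({g} : Set G)).index = Nat.card (ConjClasses.mk g).carrier := by
    rw [Subgroup.centralizer_eq_comap_stabilizer]
    refine (Subgroup.index_comap_of_surjective (MulAction.stabilizer (ConjAct G) g)
      (f := (ConjAct.toConjAct (G := G)).toMonoidHom) (MulEquiv.surjective _)).trans ?_
    rw [MulAction.index_stabilizer, ConjAct.orbit_eq_carrier_conjClasses]
    rfl
  rw [h0, ← h1, mul_comm]
  exact Subgroup.card_mul_index _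

/-- **Landau's theorem**: finite groups with exactly `k` conjugacy classes have bounded order. -/
theorem landau_eq (k : ℕ) : ∃ N : ℕ, ∀ (G : Type*) [Group G] [Finite G],
    Nat.card (ConjClasses G) = k → Nat.card G ≤ N := by
  classical
  obtain ⟨N, hN⟩ := egypt k 1
  refine ⟨N, fun G _ _ hk => ?_⟩
  have := Fintype.ofFinite G
  have := Fintype.ofFinite (ConjClasses G)
  set f : ConjClasses G → ℕ :=
    fun c => Nat.card (Subgroup.centralizer ({Quotient.out c} : Set G)) with hf
  have hG0 : (0 : ℚ) < Nat.card G := by exact_mod_cast Nat.card_pos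
  have hrec : ∀ c : ConjClasses G, (1 / f c : ℚ) =
      (Nat.card {x : G // ConjClasses.mk x = c} : ℚ) / Nat.card G := by
    intro c
    have h1 := card_class_mul_card_centralizer (Quotient.out c)
    have h2 : ConjClasses.mk (Quotient.out c) = c := Quotient.out_eq c
    rw [h2] at h1
    have h3 : (0 : ℚ) < f c := by exact_mod_cast Nat.card_pos
    rw [div_eq_div_iff h3.ne' hG0.ne', one_mul, ← h1]
    push_cast
    rfl
  have hmem := hN (Finset.univ.val.map f) (by
      rw [Multiset.card_map, Finset.card_val, Finset.card_univ, ← Nat.card_eq_fintype_card, hk])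
    (by
      intro n hn
      obtain ⟨c, _, rfl⟩ := Multiset.mem_map.1 hn
      exact Nat.card_pos)
    (by
      rw [Multiset.map_map]
      change ∑ c : ConjClasses G, (1 / f c : ℚ) = 1
      rw [Finset.sum_congr rfl fun c _ => hrec c, ← Finset.sum_div, div_eq_one_iff_eq hG0.ne']
      have h1 : (Nat.card G : ℚ) = ((∑ c : ConjClasses G, Nat.card {x : G // ConjClasses.mk x = c} : ℕ) : ℚ) := by
        congr 1
        rw [Nat.card_eq_fintype_card, ← Finset.card_univ,
          Finset.card_eq_sum_card_fiberwise (f := ConjClasses.mk) (t := Finset.univ)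
            (fun _ _ => Finset.mem_coe.2 (Finset.mem_univ _))]
        refine Finset.sum_congr rfl fun c _ => ?_
        rw [Nat.card_eq_fintype_card, Fintype.card_subtype]
      rw [h1]
      push_cast
      rfl)
    (f (ConjClasses.mk 1)) (Multiset.mem_map.2 ⟨_, Finset.mem_univ_val _, rfl⟩)
  have h1 : Quotient.out (ConjClasses.mk (1 : G)) = 1 := by
    have h2 : ConjClasses.mk (Quotient.out (ConjClasses.mk (1 : G))) = ConjClasses.mk 1 :=
      Quotient.out_eq _
    rw [ConjClasses.mk_eq_mk_iff_isConj, isConj_one_left] at h2
    exact h2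
  have h2 : f (ConjClasses.mk 1) = Nat.card G := by
    simp only [hf]
    rw [h1]
    have : Subgroup.centralizer ({(1 : G)} : Set G) = ⊤ := by
      rw [eq_top_iff]
      intro x _
      rw [Subgroup.mem_centralizer_singleton_iff]
      simp
    rw [this]
    exact Subgroup.card_top
  rwa [h2] at hmem

/-- **Landau's theorem**: finite groups with at most `k` conjugacy classes have bounded order. -/
theorem landau (k : ℕ) : ∃ N : ℕ, ∀ (G : Type*) [Group G] [Finite G],
    Nat.card (ConjClasses G) ≤ k → Nat.card G ≤ N := by
  choose F hF using landau_eq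
  refine ⟨∑ j ∈ Finset.range (k + 1), F j, fun G _ _ hk => ?_⟩
  refine (hF _ G rfl).trans ?_
  exact Finset.single_le_sum (f := F) (fun _ _ => Nat.zero_le _)
    (Finset.mem_range.2 (Nat.lt_succ_of_le hk))

end Cfsg.Agent.H659.Landau
end

-- part: S4718
section
set_option autoImplicit false
universe u
open Cfsg

namespace Cfsg.Agent.S4718

/-- A finite group with a single `p`-block has at most `|G|_p ^ 2` conjugacy classes. -/
theorem card_conjClasses_le {G : Type*} [Group G] [Finite G] {p : ℕ} [Fact p.Prime]
    {M : Ideal AlgInt} (hM : IsPModular p M)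
    (h : ∀ B : Set (IrrCharacter G), IsPBlock M B → B = principalBlock M G) :
    Nat.card (ConjClasses G) ≤ (p ^ (Nat.card G).factorization p) ^ 2 := by
  have hMp : M.IsPrime := Blocks.Local.isPrime_of_isPModular hM
  have hall : principalBlock M G = Set.univ := by
    rw [Set.eq_univ_iff_forall]
    intro χ
    rw [← h (blockOf M (χ : G → ℂ)) ⟨χ, rfl⟩]
    exact Blocks.Basic.mem_blockOf_self χ
  have h1 := H659.BlockBound.card_block_le hM (principalBlock M G)
    ⟨⟨fun _ => 1, Characters.Core.isIrr_one⟩, rfl⟩
  rw [hall, Nat.card_congr (Equiv.Set.univ (IrrCharacter G)), Characters.Core.card_irr] at h1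
  exact h1

/-- Let p be a prime and a a natural number. There is a bound N such that every finite group whose Sylow p-subgroups have order p^a and whose only p-block (relative to a maximal ideal of the algebraic integers containing p) is the principal block has order at most N. -/
theorem result (p : ℕ) [Fact p.Prime] (a : ℕ) : ∃ N : ℕ, ∀ (G : Type u) [Group G] [Finite G] (M : Ideal Cfsg.AlgInt), Cfsg.IsPModular p M → (Nat.card G).factorization p = a → (∀ B : Set (Cfsg.IrrCharacter G), Cfsg.IsPBlock M B → B = Cfsg.principalBlock M G) → Nat.card G ≤ N := by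
  obtain ⟨N, hN⟩ := H659.Landau.landau.{u} ((p ^ a) ^ 2)
  refine ⟨N, fun G _ _ M hM ha hB => hN G ?_⟩
  have h1 := card_conjClasses_le hM hB
  rwa [ha] at h1

end Cfsg.Agent.S4718
end
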