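import Cfsg.Prelude.Def_Blocks
import Cfsg.Agent.Characters.Core
import Cfsg.Agent.Blocks.Basic
import Cfsg.Agent.Blocks.Knorr
import Cfsg.Agent.S0906
import Cfsg.Agent.S0908
import Cfsg.Agent.S0917
import Cfsg.Agent.S0919
import Cfsg.Agent.S0936
import Cfsg.Agent.S0941
import Cfsg.Statements.S4719
import Cfsg.Agent.S4718
import Cfsg.Agent.H659.BFC
set_option linter.all false

-- part: H659/Deficiency
section
/-!
# Deficiency classes

A finite group has deficiency class `r` (for the prime `p`) when all its nonprincipal `p`-blocks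
have defect `< r`.

* `blockDefect_le_of_induced` : the defect of a block is at most the defect of the induced block.
* `defClass_centralizer` : the deficiency class passes to centralizers of `p`-elements.
* `defClass_quotient` : `r + 1` for `H` gives `r` for the quotient by a central subgroup of order
  `p`.
-/

set_option autoImplicit false

open Cfsg

namespace Cfsg.Agent.H659.Deficiency

open Cfsg.Agent.Blocks Cfsg.Agent.Characters.Core

variable {G : Type*} [Group G] [Finite G] {p : ℕ} [Fact p.Prime] {M : Ideal AlgInt}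

/-- Every block has a defect group. -/
theorem exists_defectGroup (hM : IsPModular p M) (B : Set (IrrCharacter G)) (hB : IsPBlock M B) :
    ∃ D : Subgroup G, IsDefectGroup p M B D := by
  obtain ⟨g, hg⟩ := S0906.result p M hM B hB
  exact ⟨_, g, hg, default, rfl⟩

theorem blockDefect_le_of_induced (hM : IsPModular p M) (H : Subgroup G)
    (b : Set (IrrCharacter H)) (B : Set (IrrCharacter G)) (h : IsInducedBlock M H b B) :
    blockDefect p b ≤ blockDefect p B := by
  have hp : p.Prime := Fact.out
  obtain ⟨D, hD⟩ := exists_defectGroup hM b h.1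
  obtain ⟨E, hE, hDE⟩ := S0917.result p M hM H b h.1 B h.2.1 h D hD
  have h1 := S0908.result p M hM b h.1 D hD
  have h2 := S0908.result p M hM B h.2.1 E hE
  have h3 : Nat.card (D.map H.subtype) = Nat.card D :=
    (Nat.card_congr (D.equivMapOfInjective H.subtype H.subtype_injective).toEquiv).symm
  have h4 := Subgroup.card_dvd_of_le hDE
  rw [h3, h1, h2] at h4
  exact (Nat.pow_dvd_pow_iff_le_right hp.one_lt).1 h4

theorem inducedBlockDefined_centralizer (hM : IsPModular p M) (y : G)
    (hy : ∃ k : ℕ, orderOf y = p ^ k)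
    (b : Set (IrrCharacter (Subgroup.centralizer ({y} : Set G)))) (hb : IsPBlock M b) :
    InducedBlockDefined M (Subgroup.centralizer ({y} : Set G)) b := by
  obtain ⟨k, hk⟩ := hy
  have hP : IsPGroup p (Subgroup.zpowers y) := by
    refine IsPGroup.of_card (n := k) ?_
    rw [Nat.card_zpowers, hk]
  have hcent : Subgroup.centralizer ((Subgroup.zpowers y : Subgroup G) : Set G) =
      Subgroup.centralizer ({y} : Set G) := by
    rw [Subgroup.zpowers_eq_closure, Subgroup.centralizer_closure]
  exact S0919.result p M hM (Subgroup.zpowers y) _ hP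
    (Subgroup.zpowers_le.2 (Subgroup.mem_centralizer_singleton_iff.2 rfl)) hcent.le
    (by rw [← hcent]; exact Subgroup.centralizer_le_normalizer _) b hb

/-- The deficiency class passes to centralizers of `p`-elements. -/
theorem defClass_centralizer (hM : IsPModular p M) (r : ℕ)
    (h : ∀ B : Set (IrrCharacter G), IsPBlock M B → B ≠ principalBlock M G → blockDefect p B < r)
    (y : G) (hy : ∃ k : ℕ, orderOf y = p ^ k)
    (b : Set (IrrCharacter (Subgroup.centralizer ({y} : Set G)))) (hb : IsPBlock M b)
    (hb' : b ≠ principalBlock M (Subgroup.centralizer ({y} : Set G))) : blockDefect p b < r := by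
  have hdef := inducedBlockDefined_centralizer hM y hy b hb
  obtain ⟨B, hB⟩ := id hdef
  have hne : B ≠ principalBlock M G := by
    rintro rfl
    exact hb' ((S0936.result p M hM _ b hdef).1 hB)
  exact (blockDefect_le_of_induced hM _ b B hB).trans_lt (h B hB.2.1 hne)

/-- The deficiency class and quotients by a central subgroup of order `p`. -/
theorem defClass_quotient (hM : IsPModular p M) (r : ℕ)
    (h : ∀ B : Set (IrrCharacter G), IsPBlock M B → B ≠ principalBlock M G →
      blockDefect p B < r + 1)
    (Z : Subgroup G) [Z.Normal] (hZ : Z ≤ Subgroup.center G) (hZp : Nat.card Z = p)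
    (b : Set (IrrCharacter (G ⧸ Z))) (hb : IsPBlock M b)
    (hb' : b ≠ principalBlock M (G ⧸ Z)) : blockDefect p b < r := by
  have hp : p.Prime := Fact.out
  have hMp : M.IsPrime := Local.isPrime_of_isPModular hM
  have hPZ : IsPGroup p Z := IsPGroup.of_card (n := 1) (by rw [hZp, pow_one])
  have hcent : Subgroup.centralizer (Z : Set G) = ⊤ := by
    rw [eq_top_iff]
    intro x _
    rw [Subgroup.mem_centralizer_iff]
    intro z hz
    exact (Subgroup.mem_center_iff.1 (hZ hz) x).symm
  have h941 := (S0941.result p M hM Z hPZ ⟨0, by rw [hcent, Subgroup.index_top, pow_zero]⟩).1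
  obtain ⟨χ, rfl⟩ := hb
  have hinf : ∀ θ : IrrCharacter (G ⧸ Z),
      IsIrrCharacter G ((θ : G ⧸ Z → ℂ) ∘ QuotientGroup.mk) := fun θ =>
    isIrr_comp (QuotientGroup.mk' Z) (QuotientGroup.mk'_surjective Z) θ.2
  set χ' : IrrCharacter G := ⟨_, hinf χ⟩ with hχ'
  have hne : blockOf M (χ' : G → ℂ) ≠ principalBlock M G := by
    intro heq
    apply hb'
    apply Basic.blockOf_eq_of_sameBlock
    have h1 : χ' ∈ principalBlock M G := by
      rw [← heq]
      exact Basic.mem_blockOf_self χ'
    have h2 : SameBlock M (χ' : G → ℂ) (fun _ => 1) := Basic.sameBlock_symm h1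
    exact (h941 χ ⟨fun _ => 1, isIrr_one⟩).2 h2
  have h1 := h _ ⟨χ', rfl⟩ hne
  -- compare the defects
  have hcard : Nat.card G = Nat.card (G ⧸ Z) * p := by
    rw [← hZp]
    exact Subgroup.card_eq_card_quotient_mul_card_subgroup Z
  have hfac : (Nat.card G).factorization p = (Nat.card (G ⧸ Z)).factorization p + 1 := by
    rw [hcard, Nat.factorization_mul Nat.card_pos.ne' hp.ne_zero, Finsupp.add_apply,
      hp.factorization_self]
  set f : IrrCharacter G → ℕ := fun θ => (charDegree (θ : G → ℂ)).factorization p with hf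
  set f' : IrrCharacter (G ⧸ Z) → ℕ := fun θ => (charDegree (θ : G ⧸ Z → ℂ)).factorization p
    with hf'
  have hne' : (f' '' blockOf M (χ : G ⧸ Z → ℂ)).Nonempty := ⟨_, χ, Basic.mem_blockOf_self χ, rfl⟩
  obtain ⟨θ, hθ, hθ'⟩ := Nat.sInf_mem hne'
  have h2 : sInf (f '' blockOf M (χ' : G → ℂ)) ≤ sInf (f' '' blockOf M (χ : G ⧸ Z → ℂ)) := by
    rw [← hθ']
    apply Nat.sInf_le
    refine ⟨⟨_, hinf θ⟩, (h941 χ θ).1 hθ, ?_⟩
    simp only [hf, hf']
    rfl
  have h3 : sInf (f' '' blockOf M (χ : G ⧸ Z → ℂ)) ≤ (Nat.card (G ⧸ Z)).factorization p := by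
    rw [← hθ']
    exact (Nat.factorization_le_iff_dvd (by
      obtain ⟨n, hn, h⟩ := isIrr_apply_one θ.2
      have : charDegree (θ : G ⧸ Z → ℂ) = n := by
        unfold charDegree
        rw [h]
        simp
      omega) Nat.card_pos.ne').2 (Knorr.charDegree_dvd θ.2) p
  have h4 : blockDefect p (blockOf M (χ' : G → ℂ)) =
      (Nat.card G).factorization p - sInf (f '' blockOf M (χ' : G → ℂ)) := rfl
  have h5 : blockDefect p (blockOf M (χ : G ⧸ Z → ℂ)) =
      (Nat.card (G ⧸ Z)).factorization p - sInf (f' '' blockOf M (χ : G ⧸ Z → ℂ)) := rfl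
  rw [h4] at h1
  rw [h5]
  omega

end Cfsg.Agent.H659.Deficiency
end

-- part: S4719
section
set_option autoImplicit false
universe u
open Cfsg

namespace Cfsg.Agent.S4719

open Subgroup

theorem main (r : ℕ) : ∀ a : ℕ, ∃ N : ℕ, ∀ (G : Type u) [Group G] [Finite G] (M : Ideal AlgInt),
    IsPModular 2 M → (Nat.card G).factorization 2 = a →
    (∀ B : Set (IrrCharacter G), IsPBlock M B → B ≠ principalBlock M G → blockDefect 2 B < r) →
    (∃ E : Subgroup G, (∀ x ∈ E, ∀ y ∈ E, x * y = y * x) ∧ (∀ x ∈ E, x * x = 1) ∧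
      Nat.card E = 2 ^ (r + 1)) → Nat.card G ≤ N := by
  have : Fact (Nat.Prime 2) := ⟨Nat.prime_two⟩
  induction r with
  | zero =>
    intro a
    obtain ⟨N, hN⟩ := S4718.result.{u} 2 a
    refine ⟨N, fun G _ _ M hM ha hB _ => hN G M hM ha fun B hBB => ?_⟩
    by_contra hne
    exact absurd (hB B hBB hne) (Nat.not_lt_zero _)
  | succ r ih =>
    intro a
    choose F hF using ih
    obtain ⟨N, hN⟩ := H659.BFC.exists_order_bound.{u} (2 * ∑ j ∈ Finset.range (a + 1), F j)
    refine ⟨N, fun G _ _ M hM ha hB hE => ?_⟩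
    obtain ⟨E, hEc, hE2, hEcard⟩ := hE
    -- the centralizers of the involutions of `E`
    have key : ∀ x ∈ E, x ≠ 1 →
        Nat.card (centralizer ({x} : Set G)) ≤ 2 * ∑ j ∈ Finset.range (a + 1), F j := by
      intro x hxE hx1
      have hx2 : orderOf x = 2 := by
        apply orderOf_eq_prime _ hx1
        rw [pow_two, hE2 x hxE]
      set H := centralizer ({x} : Set G) with hH
      have hxH : x ∈ H := mem_centralizer_singleton_iff.2 rfl
      set z : H := ⟨x, hxH⟩ with hz
      set Z : Subgroup H := zpowers z with hZ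
      have hzc : z ∈ center H := by
        rw [mem_center_iff]
        intro g
        exact Subtype.ext (mem_centralizer_singleton_iff.1 g.2)
      have hZc : Z ≤ center H := by
        rw [hZ, zpowers_le]
        exact hzc
      have hZn : Z.Normal := ⟨fun n hn g => by
        have := mem_center_iff.1 (hZc hn) g
        rwa [this, mul_inv_cancel_right]⟩
      have hZcard : Nat.card Z = 2 := by
        rw [hZ, Nat.card_zpowers, hz, orderOf_mk, hx2]
      have hdef := H659.Deficiency.defClass_centralizer hM (r + 1) hB x ⟨1, by rw [hx2, pow_one]⟩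
      have hdef2 := H659.Deficiency.defClass_quotient (G := H) hM r hdef Z hZc hZcard
      -- the elementary abelian subgroup
      have hEH : E ≤ H := by
        intro y hy
        rw [hH, mem_centralizer_singleton_iff]
        exact hEc y hy x hxE
      set E' : Subgroup H := E.subgroupOf H with hE'
      have hE'card : Nat.card E' = 2 ^ (r + 1 + 1) := by
        rw [← hEcard]
        exact Nat.card_congr (subgroupOfEquivOfLe hEH).toEquiv
      have hZE' : Z ≤ E' := by
        rw [hZ, zpowers_le]
        exact hxE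
      have hmapcard : Nat.card (E'.map (QuotientGroup.mk' Z)) = 2 ^ (r + 1) := by
        have h3 := relIndex_ker (K := E') (QuotientGroup.mk' Z)
        rw [QuotientGroup.ker_mk'] at h3
        have h4 := relIndex_mul_relIndex (⊥ : Subgroup H) Z E' bot_le hZE'
        rw [relIndex_bot_left, relIndex_bot_left, h3, hZcard, hE'card, pow_succ' 2 (r + 1)] at h4
        exact Nat.eq_of_mul_eq_mul_left (by norm_num) h4
      have hbound := hF ((Nat.card (H ⧸ Z)).factorization 2) (H ⧸ Z) M hM rfl hdef2
        ⟨E'.map (QuotientGroup.mk' Z), ?_, ?_, hmapcard⟩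
      · have hcard : Nat.card H = Nat.card (H ⧸ Z) * 2 := by
          rw [← hZcard]
          exact card_eq_card_quotient_mul_card_subgroup Z
        have hle : (Nat.card (H ⧸ Z)).factorization 2 ≤ a := by
          rw [← ha]
          refine (Nat.factorization_le_iff_dvd Nat.card_pos.ne' Nat.card_pos.ne').2 ?_ 2
          exact (Dvd.intro _ hcard.symm).trans (card_subgroup_dvd_card H)
        have hsum : F ((Nat.card (H ⧸ Z)).factorization 2) ≤ ∑ j ∈ Finset.range (a + 1), F j :=
          Finset.single_le_sum (f := F) (fun _ _ => Nat.zero_le _)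
            (Finset.mem_range.2 (Nat.lt_succ_of_le hle))
        rw [hcard]
        omega
      · rintro _ ⟨u, hu, rfl⟩ _ ⟨v, hv, rfl⟩
        rw [← map_mul, ← map_mul]
        congr 1
        exact Subtype.ext (hEc u hu v hv)
      · rintro _ ⟨u, hu, rfl⟩
        rw [← map_mul]
        have : u * u = 1 := Subtype.ext (hE2 u hu)
        rw [this, map_one]
    -- two different involutions
    have hcard4 : 4 ≤ Nat.card E := by
      rw [hEcard]
      calc 4 = 2 ^ 2 := by norm_num
        _ ≤ 2 ^ (r + 1 + 1) := Nat.pow_le_pow_right (by norm_num) (by omega)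
    have hnc : (E : Set G).ncard = Nat.card E := rfl
    obtain ⟨x, hxE, hx1⟩ : ∃ x ∈ (E : Set G), x ∉ ({1} : Set G) := by
      apply Set.exists_mem_notMem_of_ncard_lt_ncard _ (Set.toFinite _)
      rw [Set.ncard_singleton, hnc]
      omega
    obtain ⟨y, hyE, hy1⟩ : ∃ y ∈ (E : Set G), y ∉ ({1, x} : Set G) := by
      apply Set.exists_mem_notMem_of_ncard_lt_ncard _ (Set.toFinite _)
      have := Set.ncard_insert_le (1 : G) ({x} : Set G)
      rw [Set.ncard_singleton] at this
      rw [hnc]
      omega
    simp only [Set.mem_singleton_iff] at hx1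
    simp only [Set.mem_insert_iff, Set.mem_singleton_iff, not_or] at hy1
    have hxy1 : x * y ≠ 1 := by
      intro h
      apply hy1.2
      have h2 := hE2 x hxE
      rw [← h2] at h
      exact mul_left_cancel h
    exact hN G x y (hE2 x hxE) (hE2 y hyE) (hEc x hxE y hyE) (key x hxE hx1) (key y hyE hy1.1)
      (key (x * y) (E.mul_mem hxE hyE) hxy1)

/-- For every natural number a there is a bound N with the following property. Let G be a finite group with Sylow 2-subgroups of order 2^a and r ≥ 0 such that G has no non-principal 2-block (relative to a maximal ideal of the algebraic integers containing 2) of defect ≥ r, and suppose a Sylow 2-subgroup of G contains an elementary abelian subgroup of order 2^(r+1). Then the order of G is at most N. -/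
theorem result (a : ℕ) : ∃ N : ℕ, ∀ (G : Type u) [Group G] [Finite G] (M : Ideal Cfsg.AlgInt) (r : ℕ) (P : Sylow 2 G), Cfsg.IsPModular 2 M → Nat.card P = 2 ^ a → (∀ B : Set (Cfsg.IrrCharacter G), Cfsg.IsPBlock M B → B ≠ Cfsg.principalBlock M G → Cfsg.blockDefect 2 B < r) → (∃ E : Subgroup G, E ≤ (P : Subgroup G) ∧ IsMulCommutative E ∧ (∀ x ∈ E, x * x = 1) ∧ Nat.card E = 2 ^ (r + 1)) → Nat.card G ≤ N := by
  have : Fact (Nat.Prime 2) := ⟨Nat.prime_two⟩
  choose F hF using main.{u}
  refine ⟨∑ r ∈ Finset.range (a + 1), F r a, fun G _ _ M r P hM hP hB hE => ?_⟩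
  obtain ⟨E, hEP, hEc, hE2, hEcard⟩ := hE
  have hra : r + 1 ≤ a := by
    have h1 := card_dvd_of_le hEP
    rw [hEcard] at h1
    change 2 ^ (r + 1) ∣ Nat.card P at h1
    rw [hP] at h1
    exact (Nat.pow_dvd_pow_iff_le_right (by norm_num)).1 h1
  have hGa : (Nat.card G).factorization 2 = a := by
    have h1 := P.card_eq_multiplicity
    change Nat.card P = _ at h1
    rw [hP] at h1
    exact (Nat.pow_right_injective (le_refl 2) h1).symm
  have h1 := hF r a G M hM hGa hB ⟨E, fun x hx y hy => ?_, hE2, hEcard⟩
  · refine h1.trans ?_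
    exact Finset.single_le_sum (f := fun r => F r a) (fun _ _ => Nat.zero_le _)
      (Finset.mem_range.2 (by omega))
  · have := hEc.is_comm.comm (⟨x, hx⟩ : E) ⟨y, hy⟩
    exact congrArg Subtype.val this

end Cfsg.Agent.S4719
end
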