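import Cfsg.Statements.S4720
import Cfsg.Agent.Blocks.PPart
import Cfsg.Agent.Blocks.PrincipalSection
import Cfsg.Agent.S0925
set_option linter.all false

set_option autoImplicit false
open Cfsg

namespace Cfsg.Agent.S4720

open scoped ComplexConjugate

open Cfsg.Agent.Blocks

theorem exists_orderOf {G : Type*} [Group G] [Finite G] {p : ℕ} [Fact p.Prime] {P : Subgroup G}
    (hP : IsPGroup p P) {x : G} (hx : x ∈ P) : ∃ k : ℕ, orderOf x = p ^ k := by
  have hp : p.Prime := Fact.out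
  obtain ⟨n, hn⟩ := hP ⟨x, hx⟩
  have hn' : x ^ (p ^ n) = 1 := by simpa using congrArg Subtype.val hn
  obtain ⟨j, -, hj⟩ := (Nat.dvd_prime_pow hp).1 (orderOf_dvd_of_pow_eq_one hn')
  exact ⟨j, hj⟩

theorem lam_eq {G : Type*} [Group G] [Finite G] {p : ℕ} [Fact p.Prime] {M : Ideal AlgInt}
    (hM : IsPModular p M) (y : G) (hy : ∃ k : ℕ, orderOf y = p ^ k) (c : ℚ)
    (hc : ((∑ᶠ ψ ∈ Cfsg.principalBlock M ↥(Subgroup.centralizer ({y} : Set G)),
      Cfsg.charDegree (ψ : ↥(Subgroup.centralizer ({y} : Set G)) → ℂ) ^ 2) : ℚ) = c) :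
    ∑ᶠ ζ ∈ principalBlock M G, (ζ : G → ℂ) y * conj ((ζ : G → ℂ) y) = (c : ℂ) := by
  classical
  have h1 := PrincipalSection.sum_principalBlock_section hM y hy
    (H := Subgroup.centralizer ({y} : Set G)) rfl 1 1
    (by rw [orderOf_one]; exact (Fact.out : p.Prime).one_lt.ne' ∘ Nat.dvd_one.1)
    (by rw [orderOf_one]; exact (Fact.out : p.Prime).one_lt.ne' ∘ Nat.dvd_one.1)
  simp only [OneMemClass.coe_one, mul_one] at h1
  rw [h1, ← hc]
  have : Finite (IrrCharacter ↥(Subgroup.centralizer ({y} : Set G))) :=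
    Characters.Core.finite_irr
  have := Fintype.ofFinite (IrrCharacter ↥(Subgroup.centralizer ({y} : Set G)))
  rw [finsum_mem_eq_toFinset_sum, finsum_mem_eq_toFinset_sum]
  push_cast
  refine Finset.sum_congr rfl fun ξ _ => ?_
  obtain ⟨n, hn, h⟩ := Characters.Core.isIrr_apply_one ξ.2
  have : charDegree (ξ : ↥(Subgroup.centralizer ({y} : Set G)) → ℂ) = n := by
    unfold charDegree
    rw [h]
    simp
  rw [this, h]
  simp [pow_two]

theorem result {G : Type*} [Group G] [Finite G] (p : ℕ) [Fact p.Prime] (M : Ideal Cfsg.AlgInt) (hM : Cfsg.IsPModular p M) (P : Subgroup G) (hP : IsPGroup p P) (N : Subgroup G) (hPN : P ≤ N) (hNN : N ≤ Subgroup.normalizer (P : Set G)) (U : Set G) (hUne : U.Nonempty) (hUP : U ⊆ (P : Set G)) (hUN : ∀ n ∈ N, ∀ u ∈ U, n * u * n⁻¹ ∈ U) (hfus : ∀ u ∈ U, ∀ g : G, g * u * g⁻¹ ∈ (P : Set G) → ∃ n ∈ N, n * u * n⁻¹ = g * u * g⁻¹) (w : ℚ) (hw : ∀ y ∈ U, ((∑ᶠ ψ ∈ Cfsg.principalBlock M ↥(Subgroup.centralizer ({y} : Set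 G)), Cfsg.charDegree (ψ : ↥(Subgroup.centralizer ({y} : Set G)) → ℂ) ^ 2) : ℚ) = w * Nat.card ↥(N ⊓ Subgroup.centralizer ({y} : Set G))) (θ η : ↥P → ℂ) (hθ : Cfsg.IsGeneralizedCharacter ↥P θ) (hη : Cfsg.IsGeneralizedCharacter ↥P η) (hθU : ∀ y : ↥P, (y : G) ∉ U → θ y = 0) : ∑ᶠ χ ∈ Cfsg.principalBlock M G, ((Nat.card ↥P : ℂ)⁻¹ * ∑ᶠ y : ↥P, (χ : G → ℂ) (y : G) * θ y⁻¹) * (starRingEnd ℂ) ((Nat.card ↥P : ℂ)⁻¹ * ∑ᶠ y : ↥P, (χ : G → ℂ) (y : G) * η y⁻¹) = ((w : ℂ) / ((Nat.card ↥P : ℂ) ^ 2)) * ∑ᶠ y : ↥P, θ y * (starRingEnd ℂ) (∑ᶠ x : ↥N, Cfsg.extendByZero P η ((x : G) * (y : G) * (x : G)⁻¹)) := by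
  classical
  have : Finite (IrrCharacter G) := Characters.Core.finite_irr
  have := Fintype.ofFinite (IrrCharacter G)
  have := Fintype.ofFinite G
  have : Fintype P := Fintype.ofFinite P
  have : Fintype N := Fintype.ofFinite N
  -- the scalar products of columns
  set S : G → G → ℂ := fun y z => ∑ᶠ χ ∈ principalBlock M G, (χ : G → ℂ) z * conj ((χ : G → ℂ) y)
    with hS
  have hext : ∀ z : P, extendByZero P η (z : G) = η z := by
    intro z
    unfold extendByZero
    exact Subtype.val_injective.extend_apply η 0 z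
  have hSconj : ∀ y z : G, IsConj y z → S y z = S y y := by
    intro y z h
    refine finsum_mem_congr rfl fun χ _ => ?_
    rw [Basic.irr_isConj χ.2 h]
  have hSne : ∀ y z : P, ¬ IsConj (y : G) (z : G) → S y z = 0 := by
    intro y z h
    have h1 := (S0925.result (G := G) p M hM).2 z y z y
      (PPart.isPPart_of_isPGroup (exists_orderOf hP z.2))
      (PPart.isPPart_of_isPGroup (exists_orderOf hP y.2)) (fun h' => h h'.symm)
      (principalBlock M G) PrincipalSection.isPBlock_principalBlock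
    rw [← h1]
    refine finsum_mem_congr rfl fun χ _ => ?_
    rw [Characters.Core.isCharacter_apply_inv (Characters.Core.isIrr_isCharacter χ.2) (y : G)]
  have hSU : ∀ y ∈ U, S y y = (w : ℂ) * Nat.card ↥(N ⊓ Subgroup.centralizer ({y} : Set G)) := by
    intro y hy
    have h1 := lam_eq hM y (exists_orderOf hP (hUP hy)) _ (hw y hy)
    rw [hS]
    simp only
    rw [h1]
    push_cast
    rfl
  -- left hand side
  have hL : ∀ χ : IrrCharacter G,
      ((Nat.card ↥P : ℂ)⁻¹ * ∑ᶠ y : ↥P, (χ : G → ℂ) (y : G) * θ y⁻¹) *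
        (starRingEnd ℂ) ((Nat.card ↥P : ℂ)⁻¹ * ∑ᶠ y : ↥P, (χ : G → ℂ) (y : G) * η y⁻¹) =
      ((Nat.card ↥P : ℂ) ^ 2)⁻¹ * ∑ y : P, ∑ z : P, θ y * conj (η z) *
        ((χ : G → ℂ) (z : G) * conj ((χ : G → ℂ) (y : G))) := by
    intro χ
    have hinv : ∀ g : G, (χ : G → ℂ) g⁻¹ = conj ((χ : G → ℂ) g) :=
      fun g => Characters.Core.isCharacter_apply_inv (Characters.Core.isIrr_isCharacter χ.2) g
    have h1 : ∀ f : P → ℂ, ∑ᶠ y : ↥P, (χ : G → ℂ) (y : G) * f y⁻¹ =
        ∑ y : P, conj ((χ : G → ℂ) (y : G)) * f y := by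
      intro f
      rw [finsum_eq_sum_of_fintype]
      refine Fintype.sum_equiv (Equiv.inv P) _ _ fun y => ?_
      rw [Equiv.inv_apply, InvMemClass.coe_inv, hinv, Complex.conj_conj]
    rw [h1, h1, map_mul, map_sum, map_inv₀, Complex.conj_natCast, mul_mul_mul_comm,
      Finset.sum_mul_sum, pow_two, mul_inv]
    congr 1
    refine Finset.sum_congr rfl fun y _ => Finset.sum_congr rfl fun z _ => ?_
    rw [map_mul, Complex.conj_conj]
    ring
  rw [finsum_mem_congr rfl fun χ _ => hL χ]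
  have hL2 : ∑ᶠ χ ∈ principalBlock M G, (((Nat.card ↥P : ℂ) ^ 2)⁻¹ * ∑ y : P, ∑ z : P,
      θ y * conj (η z) * ((χ : G → ℂ) (z : G) * conj ((χ : G → ℂ) (y : G)))) =
      ((Nat.card ↥P : ℂ) ^ 2)⁻¹ * ∑ y : P, ∑ z : P, θ y * conj (η z) * S y z := by
    rw [finsum_mem_eq_toFinset_sum, ← Finset.mul_sum, Finset.sum_comm]
    congr 1
    refine Finset.sum_congr rfl fun y _ => ?_
    rw [Finset.sum_comm]
    refine Finset.sum_congr rfl fun z _ => ?_
    rw [← Finset.mul_sum]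
    congr 1
    simp only [hS]
    rw [finsum_mem_eq_toFinset_sum]
  rw [hL2, div_eq_mul_inv, mul_comm (w : ℂ), mul_assoc]
  congr 1
  rw [finsum_eq_sum_of_fintype, Finset.mul_sum]
  refine Finset.sum_congr rfl fun y _ => ?_
  by_cases hyU : (y : G) ∈ U
  swap
  · simp only [hθU y hyU, zero_mul, Finset.sum_const_zero, mul_zero]
  -- the sum over `N`
  rw [finsum_eq_sum_of_fintype, map_sum]
  have hterm : ∀ z : P, θ y * conj (η z) * S y z =
      (w : ℂ) * θ y * ∑ x : N, if (x : G) * (y : G) * (x : G)⁻¹ = (z : G) then conj (η z) else 0 := by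
    intro z
    by_cases hc : IsConj (y : G) (z : G)
    · obtain ⟨g, hg⟩ := isConj_iff.1 hc
      obtain ⟨n, hn, hn'⟩ := hfus y hyU g (by rw [hg]; exact z.2)
      rw [hg] at hn'
      rw [hSconj _ _ hc, hSU _ hyU, ← Finset.sum_filter, Finset.sum_const, nsmul_eq_mul]
      have hcard : (Finset.univ.filter (fun x : N => (x : G) * (y : G) * (x : G)⁻¹ = (z : G))).card =
          Nat.card ↥(N ⊓ Subgroup.centralizer ({(y : G)} : Set G)) := by
        rw [← Fintype.card_subtype, ← Nat.card_eq_fintype_card]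
        refine Nat.card_congr
          { toFun := fun x => ⟨n⁻¹ * (x : N), ?_, ?_⟩
            invFun := fun c => ⟨⟨n * c, ?_⟩, ?_⟩
            left_inv := ?_
            right_inv := ?_ }
        · exact N.mul_mem (N.inv_mem hn) x.1.2
        · refine Subgroup.mem_centralizer_singleton_iff.2 ?_
          have hx : (x.1 : G) * (y : G) * (x.1 : G)⁻¹ = n * y * n⁻¹ := x.2.trans hn'.symm
          calc n⁻¹ * (x : N) * (y : G) = n⁻¹ * ((x.1 : G) * y * (x.1 : G)⁻¹) * (x.1 : G) := by group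
            _ = n⁻¹ * (n * y * n⁻¹) * (x.1 : G) := by rw [hx]
            _ = (y : G) * (n⁻¹ * (x : N)) := by group
        · exact N.mul_mem hn c.2.1
        · have hc2 := Subgroup.mem_centralizer_singleton_iff.1 c.2.2
          change n * (c : G) * (y : G) * (n * (c : G))⁻¹ = z
          rw [← hn']
          calc n * (c : G) * (y : G) * (n * (c : G))⁻¹ = n * ((c : G) * y) * (c : G)⁻¹ * n⁻¹ := by group
            _ = n * (y * (c : G)) * (c : G)⁻¹ * n⁻¹ := by rw [hc2]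
            _ = n * y * n⁻¹ := by group
        · intro x
          apply Subtype.ext
          apply Subtype.ext
          simp
        · intro c
          apply Subtype.ext
          simp
      rw [hcard]
      ring
    · rw [hSne _ _ hc, mul_zero]
      have : ∀ x : N, ¬ ((x : G) * (y : G) * (x : G)⁻¹ = (z : G)) :=
        fun x hx => hc (isConj_iff.2 ⟨x, hx⟩)
      simp [this]
  rw [Finset.sum_congr rfl fun z _ => hterm z, ← Finset.mul_sum, Finset.sum_comm, mul_assoc]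
  congr 2
  refine Finset.sum_congr rfl fun x _ => ?_
  have hxP : (x : G) * (y : G) * (x : G)⁻¹ ∈ P := by
    have := hNN x.2
    rw [Subgroup.mem_normalizer_iff] at this
    exact (this y).1 y.2
  rw [Finset.sum_eq_single (⟨(x : G) * (y : G) * (x : G)⁻¹, hxP⟩ : P)]
  · rw [if_pos rfl]
    have := hext ⟨(x : G) * (y : G) * (x : G)⁻¹, hxP⟩
    simp only at this
    rw [this]
  · intro z _ hz
    rw [if_neg]
    intro h
    apply hz
    apply Subtype.ext
    exact h.symm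
  · intro h
    exact absurd (Finset.mem_univ _) h

end Cfsg.Agent.S4720
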