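import Mathlib
import Cfsg.Prelude.Def_Blocks
import Cfsg.Agent.Characters.Core
import Cfsg.Agent.Characters.ClassMul
import Cfsg.Agent.Blocks.Basic
import Cfsg.Agent.Blocks.PPart
import Cfsg.Agent.Blocks.PrincipalSection
import Cfsg.Agent.S0925
import Cfsg.Agent.Blocks.Homocyclic
import Cfsg.Agent.S4709
import Cfsg.Agent.S0907
import Cfsg.Agent.S0898
import Cfsg.Agent.S0944
import Cfsg.Statements.S4721
set_option linter.all false

-- part: H659/Arith3
section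
/-!
# The arithmetic of three degrees

The arithmetic part of Brauer's theorem on groups with an abelian Sylow subgroup `P`,
`|N(P) : C(P)| = 3`.
-/

set_option autoImplicit false

namespace Cfsg.Agent.H659.Arith3

theorem one_neg {x y w a b c : ℤ} (hx : 0 < x) (hy : 0 < y) (hs : x + y + w = -1)
    (hz : a + b + c = 0) (hE : a ^ 2 * y * w + b ^ 2 * x * w + c ^ 2 * x * y = 0) : a = 0 := by
  have hw : w = -1 - x - y := by linarith
  have hc : c = -a - b := by linarith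
  subst hw
  subst hc
  have h1 : a ^ 2 * y + b ^ 2 * x + (a * y - b * x) ^ 2 = 0 := by linear_combination -hE
  have h2 : 0 ≤ a ^ 2 * y := by positivity
  have h3 : 0 ≤ b ^ 2 * x := by positivity
  have h4 : 0 ≤ (a * y - b * x) ^ 2 := sq_nonneg _
  have h5 : a ^ 2 * y = 0 := by linarith
  rcases mul_eq_zero.1 h5 with h | h
  · exact pow_eq_zero_iff (two_ne_zero) |>.1 h
  · exact absurd h hy.ne'

theorem main {a₂ a₃ a₄ : ℤ} (ha₂ : a₂ = 1 ∨ a₂ = -1) (ha₃ : a₃ = 1 ∨ a₃ = -1)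
    (ha₄ : a₄ = 1 ∨ a₄ = -1) {f₂ f₃ f₄ : ℕ} (hf₂ : 0 < f₂) (hf₃ : 0 < f₃) (hf₄ : 0 < f₄)
    {y₂ y₃ y₄ : ℤ} (h₂ : y₂ ≠ f₂) (h₃ : y₃ ≠ f₃) (h₄ : y₄ ≠ f₄)
    (R1 : 1 + a₂ * f₂ + a₃ * f₃ + a₄ * f₄ = 0)
    (R2 : 1 + a₂ * y₂ + a₃ * y₃ + a₄ * y₄ = 0)
    (R3 : (1 : ℚ) + a₂ * (y₂ : ℚ) ^ 2 / f₂ + a₃ * (y₃ : ℚ) ^ 2 / f₃ + a₄ * (y₄ : ℚ) ^ 2 / f₄ = 0) :
    (if a₂ = -1 then 1 else 0) + (if a₃ = -1 then 1 else 0) + (if a₄ = -1 then 1 else 0) = 2 ∧
      IsSquare (f₄ * (f₂ * f₃)) := by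
  have e₂ : a₂ ^ 2 = 1 := by rcases ha₂ with h | h <;> rw [h] <;> norm_num
  have e₃ : a₃ ^ 2 = 1 := by rcases ha₃ with h | h <;> rw [h] <;> norm_num
  have e₄ : a₄ ^ 2 = 1 := by rcases ha₄ with h | h <;> rw [h] <;> norm_num
  have R3' : (f₂ : ℤ) * f₃ * f₄ + a₂ * y₂ ^ 2 * (f₃ * f₄) + a₃ * y₃ ^ 2 * (f₂ * f₄) +
      a₄ * y₄ ^ 2 * (f₂ * f₃) = 0 := by
    have hf₂' : (f₂ : ℚ) ≠ 0 := by exact_mod_cast hf₂.ne'
    have hf₃' : (f₃ : ℚ) ≠ 0 := by exact_mod_cast hf₃.ne'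
    have hf₄' : (f₄ : ℚ) ≠ 0 := by exact_mod_cast hf₄.ne'
    have : ((f₂ : ℚ) * f₃ * f₄ + a₂ * y₂ ^ 2 * (f₃ * f₄) + a₃ * y₃ ^ 2 * (f₂ * f₄) +
        a₄ * y₄ ^ 2 * (f₂ * f₃)) = 0 := by
      field_simp at R3
      linear_combination R3
    exact_mod_cast this
  -- signed degrees and defects
  set x₂ : ℤ := a₂ * f₂ with hx₂
  set x₃ : ℤ := a₃ * f₃ with hx₃
  set x₄ : ℤ := a₄ * f₄ with hx₄
  set z₂ : ℤ := a₂ * (f₂ - y₂) with hz₂
  set z₃ : ℤ := a₃ * (f₃ - y₃) with hz₃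
  set z₄ : ℤ := a₄ * (f₄ - y₄) with hz₄
  have a₂0 : a₂ ≠ 0 := by rcases ha₂ with h | h <;> rw [h] <;> norm_num
  have a₃0 : a₃ ≠ 0 := by rcases ha₃ with h | h <;> rw [h] <;> norm_num
  have a₄0 : a₄ ≠ 0 := by rcases ha₄ with h | h <;> rw [h] <;> norm_num
  have hz₂0 : z₂ ≠ 0 := mul_ne_zero a₂0 (sub_ne_zero.2 (Ne.symm h₂))
  have hz₃0 : z₃ ≠ 0 := mul_ne_zero a₃0 (sub_ne_zero.2 (Ne.symm h₃))
  have hz₄0 : z₄ ≠ 0 := mul_ne_zero a₄0 (sub_ne_zero.2 (Ne.symm h₄))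
  have S1 : x₂ + x₃ + x₄ = -1 := by linarith
  have S2 : z₂ + z₃ + z₄ = 0 := by
    rw [hz₂, hz₃, hz₄]
    linear_combination R1 - R2
  have S3 : z₂ ^ 2 * x₃ * x₄ + z₃ ^ 2 * x₂ * x₄ + z₄ ^ 2 * x₂ * x₃ = 0 := by
    rw [hz₂, hz₃, hz₄, hx₂, hx₃, hx₄]
    have : (a₂ * ((f₂ : ℤ) - y₂)) ^ 2 * (a₃ * f₃) * (a₄ * f₄) + (a₃ * (f₃ - y₃)) ^ 2 * (a₂ * f₂) * (a₄ * f₄)
        + (a₄ * (f₄ - y₄)) ^ 2 * (a₂ * f₂) * (a₃ * f₃) =
        a₂ ^ 2 * ((f₂ : ℤ) - y₂) ^ 2 * a₃ * f₃ * a₄ * f₄ + a₃ ^ 2 * (f₃ - y₃) ^ 2 * a₂ * f₂ * a₄ * f₄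
        + a₄ ^ 2 * (f₄ - y₄) ^ 2 * a₂ * f₂ * a₃ * f₃ := by ring
    rw [this, e₂, e₃, e₄]
    have k : (((f₂ : ℤ) - y₂) ^ 2 * a₃ * f₃ * a₄ * f₄ + (f₃ - y₃) ^ 2 * a₂ * f₂ * a₄ * f₄
        + (f₄ - y₄) ^ 2 * a₂ * f₂ * a₃ * f₃) * (a₂ * a₃ * a₄) = 0 := by
      have k2 : (((f₂ : ℤ) - y₂) ^ 2 * a₃ * f₃ * a₄ * f₄ + (f₃ - y₃) ^ 2 * a₂ * f₂ * a₄ * f₄
        + (f₄ - y₄) ^ 2 * a₂ * f₂ * a₃ * f₃) * (a₂ * a₃ * a₄) =
        a₃ ^ 2 * a₄ ^ 2 * a₂ * ((f₂ : ℤ) - y₂) ^ 2 * f₃ * f₄ +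
        a₂ ^ 2 * a₄ ^ 2 * a₃ * (f₃ - y₃) ^ 2 * f₂ * f₄ +
        a₂ ^ 2 * a₃ ^ 2 * a₄ * (f₄ - y₄) ^ 2 * f₂ * f₃ := by ring
      rw [k2, e₂, e₃, e₄]
      linear_combination R3' + (f₂ : ℤ) * f₃ * f₄ * R1 - 2 * (f₂ : ℤ) * f₃ * f₄ * R2
    have k3 : a₂ * a₃ * a₄ ≠ 0 := mul_ne_zero (mul_ne_zero a₂0 a₃0) a₄0
    have k4 := (mul_eq_zero.1 k).resolve_right k3
    linear_combination k4
  have p₂ : a₂ = 1 → 0 < x₂ := by
    intro h; rw [hx₂, h, one_mul]; exact_mod_cast hf₂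
  have p₃ : a₃ = 1 → 0 < x₃ := by
    intro h; rw [hx₃, h, one_mul]; exact_mod_cast hf₃
  have p₄ : a₄ = 1 → 0 < x₄ := by
    intro h; rw [hx₄, h, one_mul]; exact_mod_cast hf₄
  have n₂ : a₂ = -1 → x₂ < 0 := by
    intro h; rw [hx₂, h, neg_one_mul]; have : (0 : ℤ) < f₂ := by exact_mod_cast hf₂
    linarith
  have n₃ : a₃ = -1 → x₃ < 0 := by
    intro h; rw [hx₃, h, neg_one_mul]; have : (0 : ℤ) < f₃ := by exact_mod_cast hf₃
    linarith
  have n₄ : a₄ = -1 → x₄ < 0 := by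
    intro h; rw [hx₄, h, neg_one_mul]; have : (0 : ℤ) < f₄ := by exact_mod_cast hf₄
    linarith
  have hcount : (if a₂ = -1 then 1 else 0) + (if a₃ = -1 then 1 else 0) +
      (if a₄ = -1 then 1 else 0) = 2 := by
    rcases ha₂ with h2 | h2 <;> rcases ha₃ with h3 | h3 <;> rcases ha₄ with h4 | h4
    · exfalso
      have := p₂ h2; have := p₃ h3; have := p₄ h4
      linarith
    · exfalso
      exact hz₂0 (one_neg (p₂ h2) (p₃ h3) S1 S2 S3)
    · exfalso
      exact hz₂0 (one_neg (x := x₂) (y := x₄) (w := x₃) (b := z₄) (c := z₃) (p₂ h2) (p₄ h4)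
        (by linarith) (by linarith) (by linear_combination S3))
    · rw [h2, h3, h4]; norm_num
    · exfalso
      exact hz₃0 (one_neg (x := x₃) (y := x₄) (w := x₂) (b := z₄) (c := z₂) (p₃ h3) (p₄ h4)
        (by linarith) (by linarith) (by linear_combination S3))
    · rw [h2, h3, h4]; norm_num
    · rw [h2, h3, h4]; norm_num
    · exfalso
      have q2 := n₂ h2
      have q3 := n₃ h3
      have q4 := n₄ h4
      have r1 : 0 < z₂ ^ 2 * x₃ * x₄ := by
        have : 0 < z₂ ^ 2 := by positivity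
        have := mul_pos_of_neg_of_neg q3 q4
        nlinarith
      have r2 : 0 ≤ z₃ ^ 2 * x₂ * x₄ := by
        have : 0 ≤ z₃ ^ 2 := by positivity
        have := mul_pos_of_neg_of_neg q2 q4
        nlinarith
      have r3 : 0 ≤ z₄ ^ 2 * x₂ * x₃ := by
        have : 0 ≤ z₄ ^ 2 := by positivity
        have := mul_pos_of_neg_of_neg q2 q3
        nlinarith
      linarith
  refine ⟨hcount, ?_⟩
  -- the square
  have hsq : z₃ ^ 2 * (x₂ * x₃ * x₄) = (z₂ * x₃ * (1 + x₃) - z₃ * x₂ * x₃) ^ 2 := by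
    have hz4' : z₄ = -z₂ - z₃ := by linarith
    have hx4' : x₄ = -1 - x₂ - x₃ := by linarith
    rw [hz4', hx4'] at S3
    rw [hx4']
    linear_combination x₃ * (1 + x₃) * S3
  have hprod : x₂ * x₃ * x₄ = (f₄ * (f₂ * f₃) : ℕ) := by
    have h1 : a₂ * a₃ * a₄ = 1 := by
      rcases ha₂ with h2 | h2 <;> rcases ha₃ with h3 | h3 <;> rcases ha₄ with h4 | h4 <;>
        rw [h2, h3, h4] at hcount ⊢ <;> revert hcount <;> norm_num
    rw [hx₂, hx₃, hx₄]
    push_cast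
    linear_combination (f₂ : ℤ) * f₃ * f₄ * h1
  have hdvd : z₃ ^ 2 ∣ (z₂ * x₃ * (1 + x₃) - z₃ * x₂ * x₃) ^ 2 := ⟨_, hsq.symm⟩
  obtain ⟨k, hk⟩ := (Int.pow_dvd_pow_iff (two_ne_zero)).1 hdvd
  have hfin : x₂ * x₃ * x₄ = k ^ 2 := by
    have h1 : z₃ ^ 2 * (x₂ * x₃ * x₄) = z₃ ^ 2 * k ^ 2 := by
      rw [hsq, hk]; ring
    exact mul_left_cancel₀ (pow_ne_zero 2 hz₃0) h1
  rw [hprod] at hfin
  refine ⟨k.natAbs, ?_⟩
  have h1 : ((f₄ * (f₂ * f₃) : ℕ) : ℤ) = ((k.natAbs * k.natAbs : ℕ) : ℤ) := by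
    rw [hfin]
    push_cast
    rw [pow_two]
    exact (abs_mul_abs_self k).symm
  exact_mod_cast h1

end Cfsg.Agent.H659.Arith3
end

-- part: H659/StructConst
section
/-!
# Class structure constants inside the principal block

`structure_vanish` : if no element with `p`-part `x` is a product of two conjugates of the
involution `t` then the principal-block part of the structure constant vanishes at `x`.
-/

set_option autoImplicit false

open Cfsg
open scoped ComplexConjugate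

namespace Cfsg.Agent.H659.StructConst

open Subgroup Cfsg.Agent.Characters.Core Cfsg.Agent.Blocks

variable {G : Type*} [Group G] [Finite G] {p : ℕ} [Fact p.Prime]

omit [Finite G] [Fact p.Prime] in
theorem isPPart_inv {z y : G} (h : IsPPart p z y) : IsPPart p z⁻¹ y⁻¹ := by
  obtain ⟨w, rfl, hcm, ⟨k, hk⟩, hw⟩ := h
  refine ⟨w⁻¹, ?_, hcm.inv_inv, ⟨k, by rw [orderOf_inv, hk]⟩, by rwa [orderOf_inv]⟩
  rw [← mul_inv_rev, hcm.eq]

theorem structure_vanish {M : Ideal AlgInt} (hM : IsPModular p M) (t x : G)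
    (hx : ∃ k : ℕ, orderOf x = p ^ k)
    (hno : ∀ z : G, IsPPart p z x⁻¹ → ∀ a b : G, a * t * a⁻¹ * (b * t * b⁻¹) ≠ z) :
    ∑ᶠ χ ∈ principalBlock M G, ((χ : G → ℂ) t) ^ 2 / (χ : G → ℂ) 1 * (χ : G → ℂ) x = 0 := by
  classical
  have : Finite (IrrCharacter G) := finite_irr
  have := Fintype.ofFinite (IrrCharacter G)
  have := Fintype.ofFinite G
  set c : IrrCharacter G → ℂ := fun χ => ((χ : G → ℂ) t) ^ 2 / (χ : G → ℂ) 1 with hc
  set θ : G → ℂ := ∑ χ : IrrCharacter G, c χ • (χ : G → ℂ) with hθ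
  have hθcl : IsClassFunction G θ := by
    intro g h
    rw [hθ]
    simp only [Finset.sum_apply, Pi.smul_apply]
    refine Finset.sum_congr rfl fun χ _ => ?_
    rw [Basic.irr_conj χ.2]
  have hzero : ∀ z y : G, IsPPart p z y → IsConj x y → θ z = 0 := by
    intro z y hzy hy
    obtain ⟨g, hg⟩ := isConj_iff.1 hy
    have h1 := Characters.ClassMul.card_conj_mul_conj t t z⁻¹
    have hy' : IsPPart p z⁻¹ y⁻¹ := isPPart_inv hzy
    have h0 : Nat.card {q : G × G // q.1 * t * q.1⁻¹ * (q.2 * t * q.2⁻¹) = z⁻¹} = 0 := by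
      have : IsEmpty {q : G × G // q.1 * t * q.1⁻¹ * (q.2 * t * q.2⁻¹) = z⁻¹} := by
        refine ⟨fun q => ?_⟩
        have h2 := PPart.isPPart_conj hy' g⁻¹
        have h3 : g⁻¹ * y⁻¹ * (g⁻¹)⁻¹ = x⁻¹ := by
          rw [← hg]
          group
        rw [h3] at h2
        refine hno _ h2 (g⁻¹ * q.1.1) (g⁻¹ * q.1.2) ?_
        have h4 : q.1.1 * t * q.1.1⁻¹ * (q.1.2 * t * q.1.2⁻¹) = z⁻¹ := q.2
        have h5 : g⁻¹ * z⁻¹ * (g⁻¹)⁻¹ =
            g⁻¹ * (q.1.1 * t * q.1.1⁻¹ * (q.1.2 * t * q.1.2⁻¹)) * (g⁻¹)⁻¹ := by rw [h4]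
        rw [h5]
        group
      exact Nat.card_of_isEmpty
    rw [h0, Nat.cast_zero] at h1
    have hne : (Nat.card G : ℂ) ≠ 0 := card_ne_zero_complex
    have h2 := (mul_eq_zero.1 h1.symm).resolve_left hne
    rw [← h2, hθ]
    simp only [Finset.sum_apply, Pi.smul_apply, smul_eq_mul, hc]
    refine Finset.sum_congr rfl fun χ _ => ?_
    rw [isCharacter_apply_inv (isIrr_isCharacter χ.2) z, Complex.conj_conj]
    ring
  have key := (S0925.result (G := G) p M hM).1 θ hθcl x hx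
    (fun u z huz hxz => hzero u z huz hxz)
    (principalBlock M G) PrincipalSection.isPBlock_principalBlock x x
    (PPart.isPPart_of_isPGroup hx) (IsConj.refl x)
  rw [← key]
  unfold blockPart
  refine finsum_mem_congr rfl fun χ _ => ?_
  have h6 : ∀ inst : Fintype G, @classInner G _ inst θ (χ : G → ℂ) = c χ :=
    fun inst => @classInner_sum_smul_irr G _ inst _ c χ
  rw [h6]

end Cfsg.Agent.H659.StructConst
end

-- part: H659/Frob3Group
section
/-!
# Abelian Sylow subgroups with an automizer of order three acting semiregularly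
-/

set_option autoImplicit false
set_option linter.unusedSectionVars false

namespace Cfsg.Agent.H659.Frob3Group

open Subgroup

variable {G : Type*} [Group G] [Finite G] {p : ℕ} [Fact p.Prime] (P : Sylow p G)

/-- The hypotheses. -/
structure Hyp : Prop where
  comm : ∀ x ∈ (P : Subgroup G), ∀ y ∈ (P : Subgroup G), x * y = y * x
  idx : (centralizer ((P : Subgroup G) : Set G)).relIndex
    (normalizer ((P : Subgroup G) : Set G)) = 3
  frob : ∀ y : G, y ∈ (P : Subgroup G) → y ≠ 1 →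
    centralizer ({y} : Set G) ⊓ normalizer ((P : Subgroup G) : Set G) =
      centralizer ((P : Subgroup G) : Set G)

variable {P}

theorem mem_of_commute (h : Hyp P) {y n : G} (hy : y ∈ (P : Subgroup G)) (hy1 : y ≠ 1)
    (hn : n ∈ normalizer ((P : Subgroup G) : Set G)) (hc : n * y * n⁻¹ = y) :
    n ∈ centralizer ((P : Subgroup G) : Set G) := by
  rw [← h.frob y hy hy1]
  refine ⟨mem_centralizer_singleton_iff.2 ?_, hn⟩
  calc n * y = (n * y * n⁻¹) * n := by group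
    _ = y * n := by rw [hc]

theorem pow_three_mem (h : Hyp P) {n : G} (hn : n ∈ normalizer ((P : Subgroup G) : Set G)) :
    n ^ 3 ∈ centralizer ((P : Subgroup G) : Set G) := by
  have := Subgroup.pow_index_mem ((centralizer ((P : Subgroup G) : Set G)).subgroupOf
    (normalizer ((P : Subgroup G) : Set G))) ⟨n, hn⟩
  have h2 : ((centralizer ((P : Subgroup G) : Set G)).subgroupOf
    (normalizer ((P : Subgroup G) : Set G))).index = 3 := h.idx
  rw [h2] at this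
  exact this

theorem conj_mem (n x : G) (hn : n ∈ normalizer ((P : Subgroup G) : Set G))
    (hx : x ∈ (P : Subgroup G)) : n * x * n⁻¹ ∈ (P : Subgroup G) :=
  (mem_normalizer_iff.1 hn x).1 hx

theorem exists_gen (h : Hyp P) : ∃ n ∈ normalizer ((P : Subgroup G) : Set G),
    n ∉ centralizer ((P : Subgroup G) : Set G) := by
  by_contra hcon
  push Not at hcon
  have : (centralizer ((P : Subgroup G) : Set G)).relIndex
      (normalizer ((P : Subgroup G) : Set G)) = 1 := Subgroup.relIndex_eq_one.2 hcon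
  rw [h.idx] at this
  omega

theorem exists_coset (h : Hyp P) {n g : G} (hn : n ∈ normalizer ((P : Subgroup G) : Set G))
    (hnC : n ∉ centralizer ((P : Subgroup G) : Set G))
    (hg : g ∈ normalizer ((P : Subgroup G) : Set G)) :
    ∃ i : ℕ, i < 3 ∧ ∃ c ∈ centralizer ((P : Subgroup G) : Set G), g = n ^ i * c := by
  have : Fact (Nat.Prime 3) := ⟨Nat.prime_three⟩
  set N := normalizer ((P : Subgroup G) : Set G) with hN
  set C : Subgroup N := (centralizer ((P : Subgroup G) : Set G)).subgroupOf N with hC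
  have hCn : C.Normal := by
    rw [hC, hN, ← normalizerMonoidHom_ker]
    exact MonoidHom.normal_ker _
  have hcard : Nat.card (N ⧸ C) = 3 := h.idx
  have hne : ((⟨n, hn⟩ : N) : N ⧸ C) ≠ 1 := by
    intro h1
    rw [QuotientGroup.eq_one_iff] at h1
    exact hnC h1
  obtain ⟨k, hk⟩ := mem_powers_of_prime_card hcard hne (g' := ((⟨g, hg⟩ : N) : N ⧸ C))
  have hk' : ((⟨n, hn⟩ ^ k : N) : N ⧸ C) = ((⟨g, hg⟩ : N) : N ⧸ C) := by
    rw [QuotientGroup.mk_pow]
    exact hk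
  rw [QuotientGroup.eq] at hk'
  have hmem : (n ^ k)⁻¹ * g ∈ centralizer ((P : Subgroup G) : Set G) := hk'
  have h3 := pow_three_mem h hn
  refine ⟨k % 3, Nat.mod_lt _ (by norm_num), (n ^ (k % 3))⁻¹ * g, ?_, by group⟩
  have h4 : (n ^ (k % 3))⁻¹ * g = (n ^ 3) ^ (k / 3) * ((n ^ k)⁻¹ * g) := by
    have h5 : n ^ k = (n ^ 3) ^ (k / 3) * n ^ (k % 3) := by
      rw [← pow_mul, ← pow_add, Nat.div_add_mod]
    have h6 : n ^ k = n ^ (k % 3) * (n ^ 3) ^ (k / 3) := by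
      rw [← pow_mul, ← pow_add, Nat.mod_add_div]
    rw [h6]
    group
  rw [h4]
  exact Subgroup.mul_mem _ (Subgroup.pow_mem _ h3 _) hmem

theorem conj_centralizer {c x : G} (hc : c ∈ centralizer ((P : Subgroup G) : Set G))
    (hx : x ∈ (P : Subgroup G)) : c * x * c⁻¹ = x := by
  have := mem_centralizer_iff.1 hc x hx
  calc c * x * c⁻¹ = x * c * c⁻¹ := by rw [this]
    _ = x := by group

theorem conj_eq_pow (h : Hyp P) {n g y : G} (hn : n ∈ normalizer ((P : Subgroup G) : Set G))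
    (hnC : n ∉ centralizer ((P : Subgroup G) : Set G))
    (hg : g ∈ normalizer ((P : Subgroup G) : Set G)) (hy : y ∈ (P : Subgroup G)) :
    ∃ i : ℕ, i < 3 ∧ g * y * g⁻¹ = n ^ i * y * (n ^ i)⁻¹ := by
  obtain ⟨i, hi, c, hc, rfl⟩ := exists_coset h hn hnC hg
  refine ⟨i, hi, ?_⟩
  calc n ^ i * c * y * (n ^ i * c)⁻¹ = n ^ i * (c * y * c⁻¹) * (n ^ i)⁻¹ := by group
    _ = _ := by rw [conj_centralizer hc hy]

theorem fusion (h : Hyp P) {x g : G} (hx : x ∈ (P : Subgroup G))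
    (hg : g * x * g⁻¹ ∈ (P : Subgroup G)) :
    ∃ n ∈ normalizer ((P : Subgroup G) : Set G), n * x * n⁻¹ = g * x * g⁻¹ := by
  have : IsMulCommutative (P : Subgroup G) :=
    ⟨⟨fun a b => Subtype.ext (h.comm a a.2 b b.2)⟩⟩
  obtain ⟨n, hn, hn'⟩ := Sylow.conj_eq_normalizer_conj_of_mem P x g⁻¹ hx (by rwa [inv_inv])
  exact ⟨n⁻¹, Subgroup.inv_mem _ hn, by rw [inv_inv] at hn' ⊢; exact hn'.symm⟩

/-- Real elements of `P` have order at most two. -/
theorem real (h : Hyp P) {y g : G} (hy : y ∈ (P : Subgroup G)) (hg : g * y * g⁻¹ = y⁻¹) :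
    y * y = 1 := by
  by_cases hy1 : y = 1
  · rw [hy1, one_mul]
  obtain ⟨n, hn, hn'⟩ := fusion h hy (g := g) (by rw [hg]; exact P.inv_mem hy)
  rw [hg] at hn'
  have h2 : n * n ∈ centralizer ((P : Subgroup G) : Set G) := by
    apply mem_of_commute h hy hy1 (mul_mem hn hn)
    calc n * n * y * (n * n)⁻¹ = n * (n * y * n⁻¹) * n⁻¹ := by group
      _ = n * y⁻¹ * n⁻¹ := by rw [hn']
      _ = (n * y * n⁻¹)⁻¹ := by group
      _ = y := by rw [hn', inv_inv]
  have h3 := pow_three_mem h hn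
  have h1 : n ∈ centralizer ((P : Subgroup G) : Set G) := by
    have : n = (n * n)⁻¹ * n ^ 3 := by group
    rw [this]
    exact mul_mem (inv_mem h2) h3
  have h4 := conj_centralizer h1 hy
  rw [hn'] at h4
  calc y * y = y⁻¹ * y := by rw [h4]
    _ = 1 := by group

theorem prod_eq_one (h : Hyp P) {n y : G} (hn : n ∈ normalizer ((P : Subgroup G) : Set G))
    (hnC : n ∉ centralizer ((P : Subgroup G) : Set G)) (hy : y ∈ (P : Subgroup G)) :
    y * (n * y * n⁻¹) * (n * (n * y * n⁻¹) * n⁻¹) = 1 := by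
  by_contra hne
  have h1 := conj_mem n y hn hy
  have h2 := conj_mem n _ hn h1
  apply hnC
  refine mem_of_commute h (mul_mem (mul_mem hy h1) h2) hne hn ?_
  have h3 := conj_centralizer (pow_three_mem h hn) hy
  calc n * (y * (n * y * n⁻¹) * (n * (n * y * n⁻¹) * n⁻¹)) * n⁻¹
      = (n * y * n⁻¹) * (n * (n * y * n⁻¹) * n⁻¹) * (n ^ 3 * y * (n ^ 3)⁻¹) := by group
    _ = (n * y * n⁻¹) * (n * (n * y * n⁻¹) * n⁻¹) * y := by rw [h3]
    _ = y * ((n * y * n⁻¹) * (n * (n * y * n⁻¹) * n⁻¹)) := (h.comm _ hy _ (mul_mem h1 h2)).symm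
    _ = y * (n * y * n⁻¹) * (n * (n * y * n⁻¹) * n⁻¹) := by group

/-- The automorphism induced on `P`. -/
theorem card_modEq (h : Hyp P) : Nat.card (P : Subgroup G) ≡ 1 [MOD 3] := by
  have : Fact (Nat.Prime 3) := ⟨Nat.prime_three⟩
  obtain ⟨n, hn, hnC⟩ := exists_gen h
  set τ : MulAut (P : Subgroup G) := (P : Subgroup G).normalizerMonoidHom ⟨n, hn⟩ with hτ
  have hτapp : ∀ x : (P : Subgroup G), ((τ x : (P : Subgroup G)) : G) = n * x * n⁻¹ := by
    intro x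
    rfl
  have hτ3 : τ ^ 3 = 1 := by
    ext x
    have : ((τ (τ (τ x)) : (P : Subgroup G)) : G) = x := by
      rw [hτapp, hτapp, hτapp]
      have h3 := conj_centralizer (pow_three_mem h hn) x.2
      calc n * (n * (n * x * n⁻¹) * n⁻¹) * n⁻¹ = n ^ 3 * x * (n ^ 3)⁻¹ := by
            simp only [pow_succ, pow_zero, one_mul, mul_inv_rev, mul_assoc]
        _ = x := h3
    exact this
  have hp3 : IsPGroup 3 (zpowers τ) := by
    rintro ⟨x, k, rfl⟩
    refine ⟨1, Subtype.ext ?_⟩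
    change (τ ^ k) ^ (3 ^ 1) = 1
    rw [pow_one, ← zpow_natCast, ← zpow_mul, mul_comm, zpow_mul, zpow_natCast, hτ3, one_zpow]
  have h1 := hp3.card_modEq_card_fixedPoints (P : Subgroup G)
  have h2 : Nat.card (MulAction.fixedPoints (zpowers τ) (P : Subgroup G)) = 1 := by
    have h5 : MulAction.fixedPoints (zpowers τ) (P : Subgroup G) = {1} := by
      ext x
      rw [MulAction.mem_fixedPoints, Set.mem_singleton_iff]
      constructor
      · intro hx
        by_contra hne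
        apply hnC
        have hx' := hx ⟨τ, mem_zpowers τ⟩
        have hx'' : τ x = x := hx'
        refine mem_of_commute h x.2 (fun hh => hne (Subtype.ext hh)) hn ?_
        rw [← hτapp, hx'']
      · rintro rfl m
        exact map_one (m : MulAut (P : Subgroup G))
    rw [h5]
    simp
  rw [h2] at h1
  exact h1

/-- If `p = 2`, `t ∈ P` is an involution and `u`, `u * y` are conjugates of `t` lying in `P`, then
`y` is a conjugate of `t` or trivial. -/
theorem mem_orbit (h : Hyp P) {n t u y : G} (hn : n ∈ normalizer ((P : Subgroup G) : Set G))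
    (hnC : n ∉ centralizer ((P : Subgroup G) : Set G)) (ht : t ∈ (P : Subgroup G))
    (hu : u ∈ (P : Subgroup G)) (huy : u * y ∈ (P : Subgroup G)) {a b : G}
    (ha : a * t * a⁻¹ = u) (hb : b * t * b⁻¹ = u * y) :
    ∃ i j : ℕ, i < 3 ∧ j < 3 ∧ y = (n ^ i * t * (n ^ i)⁻¹)⁻¹ * (n ^ j * t * (n ^ j)⁻¹) := by
  obtain ⟨m, hm, hm'⟩ := fusion h ht (g := a) (by rw [ha]; exact hu)
  obtain ⟨m', hm2, hm2'⟩ := fusion h ht (g := b) (by rw [hb]; exact huy)
  obtain ⟨i, hi, hi'⟩ := conj_eq_pow h hn hnC hm ht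
  obtain ⟨j, hj, hj'⟩ := conj_eq_pow h hn hnC hm2 ht
  refine ⟨i, j, hi, hj, ?_⟩
  rw [← hi', ← hj', hm', hm2', ha, hb]
  group

end Cfsg.Agent.H659.Frob3Group
end

-- part: H659/Frob3Product
section
/-!
# Products of two conjugates of an involution and an abelian Sylow subgroup
-/

set_option autoImplicit false
set_option linter.unusedSectionVars false

open Cfsg

namespace Cfsg.Agent.H659.Frob3Product

open Subgroup Cfsg.Agent.Blocks Frob3Group

variable {G : Type*} [Group G] [Finite G]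

theorem conj_inv_of_product {p : ℕ} [Fact p.Prime] {t z x a b : G} (ht : t * t = 1)
    (hx : IsPPart p z x) (hab : a * t * a⁻¹ * (b * t * b⁻¹) = z) :
    (a * t * a⁻¹) * x * (a * t * a⁻¹)⁻¹ = x⁻¹ := by
  set u := a * t * a⁻¹ with hu
  set v := b * t * b⁻¹ with hv
  have hu2 : u * u = 1 := by
    rw [hu]
    calc a * t * a⁻¹ * (a * t * a⁻¹) = a * (t * t) * a⁻¹ := by group
      _ = 1 := by rw [ht]; group
  have hv2 : v * v = 1 := by
    rw [hv]
    calc b * t * b⁻¹ * (b * t * b⁻¹) = b * (t * t) * b⁻¹ := by group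
      _ = 1 := by rw [ht]; group
  have huinv : u⁻¹ = u := inv_eq_of_mul_eq_one_left hu2
  have hvinv : v⁻¹ = v := inv_eq_of_mul_eq_one_left hv2
  have hz : u * z * u⁻¹ = z⁻¹ := by
    rw [← hab, huinv, mul_inv_rev, huinv, hvinv]
    calc u * (u * v) * u = (u * u) * v * u := by group
      _ = v * u := by rw [hu2, one_mul]
  have h1 := PPart.isPPart_conj hx u
  rw [hz] at h1
  have h2 : IsPPart p z⁻¹ x⁻¹ := by
    obtain ⟨y, rfl, hc, ⟨k, hk⟩, hy⟩ := hx
    refine ⟨y⁻¹, ?_, hc.inv_inv, ⟨k, by rw [orderOf_inv, hk]⟩, by rwa [orderOf_inv]⟩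
    rw [← mul_inv_rev, hc.eq]
  exact PPart.isPPart_unique h1 h2

variable {p : ℕ} [Fact p.Prime] {P : Sylow p G}

/-- `p` odd: no element with nontrivial `p`-part in `P` is a product of two conjugates of an
involution. -/
theorem no_product_odd (h : Hyp P) (hp2 : p ≠ 2) {t z x : G} (ht : t * t = 1)
    (hxP : x ∈ (P : Subgroup G)) (hx1 : x ≠ 1) (hx : IsPPart p z x) (a b : G) :
    a * t * a⁻¹ * (b * t * b⁻¹) ≠ z := by
  intro hab
  have hp : p.Prime := Fact.out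
  have h1 := conj_inv_of_product ht hx hab
  have h2 := Frob3Group.real h hxP h1
  obtain ⟨y, rfl, hc, ⟨k, hk⟩, hy⟩ := hx
  apply hx1
  rw [← orderOf_eq_one_iff]
  have h3 : orderOf x ∣ 2 := orderOf_dvd_of_pow_eq_one (by rw [pow_two, h2])
  rw [hk] at h3 ⊢
  rcases (Nat.dvd_prime Nat.prime_two).1 h3 with h4 | h4
  · exact h4
  · exfalso
    rcases Nat.eq_zero_or_pos k with rfl | hk0
    · norm_num at h4
    · have h5 : p ∣ 2 := by rw [← h4]; exact dvd_pow_self p hk0.ne'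
      exact hp2 ((Nat.prime_dvd_prime_iff_eq hp Nat.prime_two).1 h5)

/-- `p = 2`: the `2`-part of a product of two conjugates of an involution `t ∈ P`, when it lies in
`P`, is a product of conjugates of `t` under the normalizer. -/
theorem product_two {P : Sylow 2 G} (h : Hyp P) {n t z x : G}
    (hn : n ∈ normalizer ((P : Subgroup G) : Set G))
    (hnC : n ∉ centralizer ((P : Subgroup G) : Set G)) (ht : orderOf t = 2)
    (htP : t ∈ (P : Subgroup G)) (hxP : x ∈ (P : Subgroup G)) (hx : IsPPart 2 z x) (a b : G)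
    (hab : a * t * a⁻¹ * (b * t * b⁻¹) = z) :
    ∃ i j : ℕ, i < 3 ∧ j < 3 ∧ x = (n ^ i * t * (n ^ i)⁻¹)⁻¹ * (n ^ j * t * (n ^ j)⁻¹) := by
  have ht2 : t * t = 1 := by rw [← pow_two, ← ht, pow_orderOf_eq_one]
  have h1 := conj_inv_of_product ht2 hx hab
  have hx2 := Frob3Group.real h hxP h1
  have hxinv : x⁻¹ = x := inv_eq_of_mul_eq_one_left hx2
  set u := a * t * a⁻¹ with hu
  have hu2 : u * u = 1 := by
    rw [hu]
    calc a * t * a⁻¹ * (a * t * a⁻¹) = a * (t * t) * a⁻¹ := by group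
      _ = 1 := by rw [ht2]; group
  have huinv : u⁻¹ = u := inv_eq_of_mul_eq_one_left hu2
  have hux : u * x = x * u := by
    rw [hxinv] at h1
    calc u * x = (u * x * u⁻¹) * u := by group
      _ = x * u := by rw [h1]
  -- the odd part
  obtain ⟨y, hy, hc, ⟨k, hk⟩, hyo⟩ := hx
  have hz : u * z * u⁻¹ = z⁻¹ := by
    rw [← hab, huinv, mul_inv_rev, huinv]
    have hv2 : (b * t * b⁻¹)⁻¹ = b * t * b⁻¹ := by
      apply inv_eq_of_mul_eq_one_left
      calc b * t * b⁻¹ * (b * t * b⁻¹) = b * (t * t) * b⁻¹ := by group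
        _ = 1 := by rw [ht2]; group
    rw [hv2]
    calc u * (u * (b * t * b⁻¹)) * u = (u * u) * (b * t * b⁻¹) * u := by group
      _ = (b * t * b⁻¹) * u := by rw [hu2, one_mul]
  have huy : u * y * u⁻¹ = y⁻¹ := by
    have h2 : u * y * u⁻¹ = (u * x * u⁻¹)⁻¹ * (u * z * u⁻¹) := by
      rw [← hy]; group
    rw [h2, h1, hz, ← hy, mul_inv_rev, inv_inv]
    have h3 : x * (y⁻¹ * x⁻¹) = x * (y⁻¹ * x⁻¹) := rfl
    have h4 : y⁻¹ * x⁻¹ = x⁻¹ * y⁻¹ := by rw [← mul_inv_rev, ← mul_inv_rev, hc.eq]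
    rw [h4]
    group
  obtain ⟨m, hm⟩ : ∃ m, orderOf y = 2 * m + 1 := by
    have : Odd (orderOf y) := Nat.not_even_iff_odd.1 (fun he => hyo he.two_dvd)
    exact this
  set r := y ^ (m + 1) with hr
  have hrr : r * r = y := by
    rw [hr, ← pow_add]
    have : m + 1 + (m + 1) = orderOf y + 1 := by omega
    rw [this, pow_succ, pow_orderOf_eq_one, one_mul]
  have hur : u * r * u⁻¹ = r⁻¹ := by
    rw [hr, ← inv_pow, ← huy, conj_pow]
  have hxr : x * r = r * x := (hc.pow_right (m + 1)).eq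
  have hconj : (r * b) * t * (r * b)⁻¹ = u * x := by
    have hv : b * t * b⁻¹ = u⁻¹ * z := by rw [← hab]; group
    have h2 : u * r = r⁻¹ * u := by
      calc u * r = (u * r * u⁻¹) * u := by group
        _ = r⁻¹ * u := by rw [hur]
    calc (r * b) * t * (r * b)⁻¹ = r * (b * t * b⁻¹) * r⁻¹ := by group
      _ = r * (u⁻¹ * z) * r⁻¹ := by rw [hv]
      _ = r * (u * (x * (r * r))) * r⁻¹ := by rw [huinv, hrr, hy]
      _ = r * (u * (x * r)) := by group
      _ = r * (u * r) * x := by rw [hxr]; group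
      _ = u * x := by rw [h2]; group
  -- move `u` into `P` by an element of the centralizer of `x`
  set K := centralizer ({x} : Set G) with hK
  have hPK : (P : Subgroup G) ≤ K := by
    intro w hw
    rw [hK, mem_centralizer_singleton_iff]
    exact h.comm w hw x hxP
  have huK : u ∈ K := by
    rw [hK, mem_centralizer_singleton_iff]
    exact hux
  have hu1 : orderOf u = 2 := by
    rw [← ht, hu]
    exact (MulAut.conj a).orderOf_eq t
  obtain ⟨s, hs, -, hconj2⟩ := Homocyclic.exists_isConj_mem (P.subtype hPK) (⟨u, huK⟩ : K)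
    (by rw [orderOf_mk, hu1])
  obtain ⟨c, hc'⟩ := isConj_iff.1 hconj2
  have hcG : (c : G) * u * (c : G)⁻¹ = s := congrArg Subtype.val hc'
  have hsP : (s : G) ∈ (P : Subgroup G) := hs
  have hcx : (c : G) * x = x * c := mem_centralizer_singleton_iff.1 c.2
  refine mem_orbit h (u := s) (y := x) (a := c * a) (b := c * (r * b)) hn hnC htP hsP
    (mul_mem hsP hxP) ?_ ?_
  · rw [← hcG, hu]; group
  · calc (c : G) * (r * b) * t * ((c : G) * (r * b))⁻¹ = c * ((r * b) * t * (r * b)⁻¹) * (c : G)⁻¹ := by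
          group
      _ = c * (u * x) * (c : G)⁻¹ := by rw [hconj]
      _ = (c * u * (c : G)⁻¹) * (c * x * (c : G)⁻¹) := by group
      _ = s * x := by rw [hcG, hcx]; group

end Cfsg.Agent.H659.Frob3Product
end

-- part: H659/Frob3Dual
section
/-!
# Linear characters of an abelian Sylow subgroup with automizer of order three
-/

set_option autoImplicit false
set_option linter.unusedSectionVars false

namespace Cfsg.Agent.H659.Frob3Dual

open Subgroup Frob3Group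

variable {G : Type*} [Group G] [Finite G] {p : ℕ} [Fact p.Prime] (P : Sylow p G)

/-- The orbit of `ψ` under the normalizer, as in the statements. -/
def orb (ψ : (P : Subgroup G) →* ℂˣ) : Set ((P : Subgroup G) →* ℂˣ) :=
  {ψ' | ∃ n : G, n ∈ normalizer ((P : Subgroup G) : Set G) ∧
    ∀ w w' : (P : Subgroup G), (w' : G) = n * w * n⁻¹ → ψ' w' = ψ w}

variable {P}

/-- Conjugation by `n` on `P`. -/
noncomputable def cj (n : G) (hn : n ∈ normalizer ((P : Subgroup G) : Set G)) :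
    (P : Subgroup G) →* (P : Subgroup G) :=
  ((P : Subgroup G).normalizerMonoidHom ⟨n, hn⟩ : MulAut (P : Subgroup G)).toMonoidHom

theorem cj_coe (n : G) (hn : n ∈ normalizer ((P : Subgroup G) : Set G)) (x : (P : Subgroup G)) :
    ((cj n hn x : (P : Subgroup G)) : G) = n * x * n⁻¹ := rfl

theorem cj_three (h : Hyp P) (n : G) (hn : n ∈ normalizer ((P : Subgroup G) : Set G))
    (x : (P : Subgroup G)) : cj n hn (cj n hn (cj n hn x)) = x := by
  apply Subtype.ext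
  rw [cj_coe, cj_coe, cj_coe]
  have h3 := conj_centralizer (pow_three_mem h hn) x.2
  calc n * (n * (n * x * n⁻¹) * n⁻¹) * n⁻¹ = n ^ 3 * x * (n ^ 3)⁻¹ := by
        simp only [pow_succ, pow_zero, one_mul, mul_inv_rev, mul_assoc]
    _ = x := h3

/-- The conjugate of a character. -/
noncomputable def tw (n : G) (hn : n ∈ normalizer ((P : Subgroup G) : Set G))
    (ψ : (P : Subgroup G) →* ℂˣ) : (P : Subgroup G) →* ℂˣ := ψ.comp (cj n hn)

theorem tw_apply (n : G) (hn : n ∈ normalizer ((P : Subgroup G) : Set G))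
    (ψ : (P : Subgroup G) →* ℂˣ) (x : (P : Subgroup G)) : tw n hn ψ x = ψ (cj n hn x) := rfl

theorem tw_three (h : Hyp P) (n : G) (hn : n ∈ normalizer ((P : Subgroup G) : Set G))
    (ψ : (P : Subgroup G) →* ℂˣ) : tw n hn (tw n hn (tw n hn ψ)) = ψ := by
  ext x
  rw [tw_apply, tw_apply, tw_apply, cj_three h]

/-- Only the trivial character is fixed. -/
theorem eq_one_of_tw (h : Hyp P) {n : G} (hn : n ∈ normalizer ((P : Subgroup G) : Set G))
    (hnC : n ∉ centralizer ((P : Subgroup G) : Set G)) {ψ : (P : Subgroup G) →* ℂˣ}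
    (hψ : tw n hn ψ = ψ) : ψ = 1 := by
  have hinj : Function.Injective (fun x : (P : Subgroup G) => x⁻¹ * cj n hn x) := by
    intro x y hxy
    simp only at hxy
    by_contra hne
    apply hnC
    have hcomm : ∀ a b : (P : Subgroup G), a * b = b * a :=
      fun a b => Subtype.ext (h.comm a a.2 b b.2)
    have h1 : cj n hn (x * y⁻¹) = x * y⁻¹ := by
      rw [map_mul, map_inv]
      have h2 : cj n hn x = x * (y⁻¹ * cj n hn y) := by rw [← hxy]; group
      rw [h2]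
      group
    refine mem_of_commute h (x * y⁻¹).2 (fun h0 => hne ?_) hn ?_
    · have : x * y⁻¹ = 1 := Subtype.ext h0
      exact mul_inv_eq_one.1 this
    · rw [← cj_coe n hn, h1]
  ext z
  obtain ⟨x, hx⟩ := (Finite.injective_iff_surjective.1 hinj) z
  simp only at hx
  rw [← hx, map_mul, map_inv, ← tw_apply, hψ]
  simp

theorem orb_eq (h : Hyp P) {n : G} (hn : n ∈ normalizer ((P : Subgroup G) : Set G))
    (hnC : n ∉ centralizer ((P : Subgroup G) : Set G)) (ψ : (P : Subgroup G) →* ℂˣ) :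
    orb P ψ = {ψ, tw n hn ψ, tw n hn (tw n hn ψ)} := by
  ext ψ'
  simp only [Set.mem_insert_iff, Set.mem_singleton_iff]
  constructor
  · rintro ⟨g, hg, hg'⟩
    obtain ⟨i, hi, c, hc, rfl⟩ := exists_coset h hn hnC hg
    have key : ∀ w w' : (P : Subgroup G), (w' : G) = n ^ i * w * (n ^ i)⁻¹ → ψ' w' = ψ w := by
      intro w w' hw
      apply hg'
      rw [hw]
      have := conj_centralizer hc w.2
      calc n ^ i * w * (n ^ i)⁻¹ = n ^ i * (c * w * c⁻¹) * (n ^ i)⁻¹ := by rw [this]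
        _ = n ^ i * c * w * (n ^ i * c)⁻¹ := by group
    interval_cases i
    · left
      ext w
      rw [key w w (by simp)]
    · right; right
      have h1 : tw n hn ψ' = ψ := by
        ext w
        rw [tw_apply, key w (cj n hn w) (by rw [cj_coe, pow_one])]
      rw [← h1, tw_three h]
    · right; left
      have h1 : tw n hn (tw n hn ψ') = ψ := by
        ext w
        rw [tw_apply, tw_apply, key w (cj n hn (cj n hn w)) (by
          rw [cj_coe, cj_coe]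
          simp only [pow_succ, pow_zero, one_mul, mul_inv_rev, mul_assoc])]
      rw [← h1, tw_three h]
  · rintro (rfl | rfl | rfl)
    · refine ⟨1, one_mem _, fun w w' hw => ?_⟩
      have : w' = w := Subtype.ext (by rw [hw]; group)
      rw [this]
    · refine ⟨n ^ 2, pow_mem hn 2, fun w w' hw => ?_⟩
      have : w' = cj n hn (cj n hn w) := Subtype.ext (by
        rw [hw, cj_coe, cj_coe]
        simp only [pow_succ, pow_zero, one_mul, mul_inv_rev, mul_assoc])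
      rw [this, tw_apply, cj_three h]
    · refine ⟨n, hn, fun w w' hw => ?_⟩
      have : w' = cj n hn w := Subtype.ext (by rw [hw, cj_coe])
      rw [this, tw_apply, tw_apply, cj_three h]

theorem tw_ne_one {n : G} (hn : n ∈ normalizer ((P : Subgroup G) : Set G))
    {ψ : (P : Subgroup G) →* ℂˣ} (h : Hyp P) (hψ : ψ ≠ 1) : tw n hn ψ ≠ 1 := by
  intro h1
  apply hψ
  have h2 := tw_three h n hn ψ
  rw [← h2, h1]
  ext x
  simp [tw_apply]

theorem finsum_orb (h : Hyp P) {n : G} (hn : n ∈ normalizer ((P : Subgroup G) : Set G))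
    (hnC : n ∉ centralizer ((P : Subgroup G) : Set G)) {ψ : (P : Subgroup G) →* ℂˣ}
    (hψ : ψ ≠ 1) (F : ((P : Subgroup G) →* ℂˣ) → ℂ) :
    ∑ᶠ ψ' ∈ orb P ψ, F ψ' = F ψ + F (tw n hn ψ) + F (tw n hn (tw n hn ψ)) := by
  classical
  rw [orb_eq h hn hnC]
  have h1 : tw n hn ψ ≠ ψ := fun h0 => hψ (eq_one_of_tw h hn hnC h0)
  have h2 : tw n hn (tw n hn ψ) ≠ tw n hn ψ := fun h0 =>
    tw_ne_one hn h hψ (eq_one_of_tw h hn hnC h0)
  have h3 : tw n hn (tw n hn ψ) ≠ ψ := by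
    intro h0
    apply h1
    conv_rhs => rw [← tw_three h n hn ψ, h0]
  have hset : ({ψ, tw n hn ψ, tw n hn (tw n hn ψ)} : Set ((P : Subgroup G) →* ℂˣ)) =
      (({ψ, tw n hn ψ, tw n hn (tw n hn ψ)} : Finset ((P : Subgroup G) →* ℂˣ)) : Set _) := by
    simp
  rw [hset, finsum_mem_coe_finset, Finset.sum_insert, Finset.sum_insert, Finset.sum_singleton]
  · ring
  · rw [Finset.mem_singleton]
    exact h2.symm
  · rw [Finset.mem_insert, Finset.mem_singleton, not_or]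
    exact ⟨h1.symm, h3.symm⟩

section orth

variable {A : Type*} [Group A] [Fintype A]

theorem sum_units_eq_zero {ψ : A →* ℂˣ} (hψ : ψ ≠ 1) : ∑ x : A, ((ψ x : ℂˣ) : ℂ) = 0 := by
  have := sum_hom_units_eq_zero ((Units.coeHom ℂ).comp ψ) (by
    intro h0
    apply hψ
    ext x
    have := DFunLike.congr_fun h0 x
    simpa using this)
  exact this

theorem sum_units_mul_inv {ψ φ : A →* ℂˣ} :
    ∑ x : A, ((ψ x : ℂˣ) : ℂ) * ((φ x⁻¹ : ℂˣ) : ℂ) =
      open Classical in if ψ = φ then (Nat.card A : ℂ) else 0 := by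
  classical
  split_ifs with h
  · subst h
    have : ∀ x : A, ((ψ x : ℂˣ) : ℂ) * ((ψ x⁻¹ : ℂˣ) : ℂ) = 1 := by
      intro x
      rw [← Units.val_mul, ← map_mul, mul_inv_cancel, map_one, Units.val_one]
    rw [Finset.sum_congr rfl fun x _ => this x]
    simp
  · have h1 : ∀ x : A, ((ψ x : ℂˣ) : ℂ) * ((φ x⁻¹ : ℂˣ) : ℂ) = (((ψ * φ⁻¹) x : ℂˣ) : ℂ) := by
      intro x
      rw [← Units.val_mul, map_inv]
      rfl
    rw [Finset.sum_congr rfl fun x _ => h1 x]
    apply sum_units_eq_zero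
    intro h0
    exact h (mul_inv_eq_one.1 h0)

end orth

/-- A linear character which is trivial on a proper subgroup of an abelian group. -/
theorem exists_trivial_on (h : Hyp P) (V : Subgroup (P : Subgroup G)) (hV : V ≠ ⊤) :
    ∃ ψ : (P : Subgroup G) →* ℂˣ, ψ ≠ 1 ∧ ∀ v ∈ V, ψ v = 1 := by
  have hcomm : ∀ a b : (P : Subgroup G), a * b = b * a :=
    fun a b => Subtype.ext (h.comm a a.2 b b.2)
  have hVn : V.Normal := ⟨fun v hv g => by rwa [hcomm g v, mul_inv_cancel_right]⟩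
  let _ : CommGroup ((P : Subgroup G) ⧸ V) :=
    { (inferInstance : Group ((P : Subgroup G) ⧸ V)) with
      mul_comm := by
        intro a b
        induction a using QuotientGroup.induction_on with
        | H a =>
          induction b using QuotientGroup.induction_on with
          | H b => rw [← QuotientGroup.mk_mul, ← QuotientGroup.mk_mul, hcomm] }
  obtain ⟨x, hx⟩ : ∃ x, x ∉ V := by
    by_contra hcon
    push Not at hcon
    exact hV (eq_top_iff.2 fun x _ => hcon x)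
  have hx1 : (x : (P : Subgroup G) ⧸ V) ≠ 1 := by
    rwa [Ne, QuotientGroup.eq_one_iff]
  obtain ⟨φ, hφ⟩ := CommGroup.exists_apply_ne_one_of_hasEnoughRootsOfUnity
    ((P : Subgroup G) ⧸ V) ℂ hx1
  refine ⟨φ.comp (QuotientGroup.mk' V), ?_, ?_⟩
  · intro h0
    apply hφ
    have := DFunLike.congr_fun h0 x
    exact this
  · intro v hv
    have : (QuotientGroup.mk' V) v = 1 := (QuotientGroup.eq_one_iff v).2 hv
    rw [MonoidHom.comp_apply, this, map_one]

end Cfsg.Agent.H659.Frob3Dual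
end

-- part: H659/Frob3Data
section
/-!
# The principal block for an abelian Sylow subgroup with automizer of order three

`reduced` : the data of S4709 with `m = 3`, normalised to `d = 0`.
-/

set_option autoImplicit false
set_option linter.unusedSectionVars false

open Cfsg
open scoped ComplexConjugate

namespace Cfsg.Agent.H659.Frob3Data

open Subgroup Cfsg.Agent.Blocks Cfsg.Agent.Characters.Core Frob3Group Frob3Dual

variable {G : Type*} [Group G] [Finite G] {p : ℕ} [Fact p.Prime]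

/-- the block data -/
structure Data (M : Ideal AlgInt) (P : Sylow p G) (X Y : Set (IrrCharacter G))
    (a : IrrCharacter G → ℤ) (δ : ℤ) (ζ : ((P : Subgroup G) →* ℂˣ) → IrrCharacter G) : Prop where
  block : principalBlock M G = X ∪ Y
  disj : Disjoint X Y
  cardX : Nat.card X = 3
  cardY : Nat.card Y = (Nat.card P - 1) / 3
  one : ∃ χ₁ ∈ X, (χ₁ : G → ℂ) = fun _ => 1
  hδ : δ = 1 ∨ δ = -1
  valX : ∀ χ ∈ X, (a χ = 1 ∨ a χ = -1) ∧ ∀ z y : G, IsPPart p z y → y ∈ (P : Subgroup G) →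
    y ≠ 1 → (χ : G → ℂ) z = (a χ : ℂ)
  memY : ∀ ψ : (P : Subgroup G) →* ℂˣ, ψ ≠ 1 → ζ ψ ∈ Y
  surjY : ∀ η ∈ Y, ∃ ψ : (P : Subgroup G) →* ℂˣ, ψ ≠ 1 ∧ ζ ψ = η
  orbY : ∀ ψ ψ' : (P : Subgroup G) →* ℂˣ, ψ ≠ 1 → ψ' ∈ orb P ψ → ζ ψ' = ζ ψ
  valY : ∀ ψ : (P : Subgroup G) →* ℂˣ, ψ ≠ 1 → ∀ (z : G) (y : (P : Subgroup G)),
    IsPPart p z (y : G) → (y : G) ≠ 1 →
    (ζ ψ : G → ℂ) z = (δ : ℂ) * ∑ᶠ ψ' ∈ orb P ψ, ((ψ' y : ℂˣ) : ℂ)
  regY : ∀ η ∈ Y, ∀ η' ∈ Y, ∀ g : G, ¬ p ∣ orderOf g → (η : G → ℂ) g = (η' : G → ℂ) g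
  rel : ∀ η ∈ Y, ∀ g : G, ¬ p ∣ orderOf g →
    -(δ : ℂ) * (η : G → ℂ) g + ∑ᶠ χ ∈ X, (a χ : ℂ) * (χ : G → ℂ) g = 0

theorem dvd_orderOf {z y : G} (hz : IsPPart p z y) (hy1 : y ≠ 1) : p ∣ orderOf z := by
  by_contra hcon
  exact hy1 (PPart.isPPart_unique hz (PPart.isPPart_of_not_dvd hcon))

theorem one_not_dvd : ¬ p ∣ orderOf (1 : G) := by
  rw [orderOf_one]
  exact (Fact.out : p.Prime).one_lt.ne' ∘ Nat.dvd_one.1

/-- Sum over a disjoint union. -/
theorem finsum_union {ι : Type*} [Finite ι] (X Y : Set ι) (h : Disjoint X Y) (F : ι → ℂ) :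
    ∑ᶠ χ ∈ X ∪ Y, F χ = ∑ᶠ χ ∈ X, F χ + ∑ᶠ χ ∈ Y, F χ :=
  finsum_mem_union h (Set.toFinite _) (Set.toFinite _)

/-- The sum of the exceptional characters at a `p`-singular element. -/
theorem sumY (M : Ideal AlgInt) (hM : IsPModular p M) {X Y : Set (IrrCharacter G)}
    {a : IrrCharacter G → ℤ} (hB : principalBlock M G = X ∪ Y) (hd : Disjoint X Y)
    (c : ℤ) {η₀ : IrrCharacter G}
    (hreg : ∀ η ∈ Y, (η : G → ℂ) 1 = (η₀ : G → ℂ) 1)
    (hrel : (c : ℂ) * (η₀ : G → ℂ) 1 + ∑ᶠ χ ∈ X, (a χ : ℂ) * (χ : G → ℂ) 1 = 0)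
    {z : G} (hz : p ∣ orderOf z) (hX : ∀ χ ∈ X, (χ : G → ℂ) z = (a χ : ℂ)) :
    ∑ᶠ η ∈ Y, (η : G → ℂ) z = c := by
  classical
  have : Finite (IrrCharacter G) := finite_irr
  have := Fintype.ofFinite (IrrCharacter G)
  have h1 := S0907.result (G := G) p M hM (principalBlock M G)
    ⟨⟨fun _ => 1, isIrr_one⟩, rfl⟩ 1 z one_not_dvd hz
  rw [hB, finsum_union X Y hd] at h1
  have h2 : ∑ᶠ χ ∈ X, (χ : G → ℂ) 1 * conj ((χ : G → ℂ) z) =
      ∑ᶠ χ ∈ X, (a χ : ℂ) * (χ : G → ℂ) 1 := by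
    refine finsum_mem_congr rfl fun χ hχ => ?_
    rw [hX χ hχ, map_intCast, mul_comm]
  have h3 : ∑ᶠ χ ∈ Y, (χ : G → ℂ) 1 * conj ((χ : G → ℂ) z) =
      (η₀ : G → ℂ) 1 * conj (∑ᶠ η ∈ Y, (η : G → ℂ) z) := by
    rw [finsum_mem_eq_toFinset_sum, finsum_mem_eq_toFinset_sum, map_sum, Finset.mul_sum]
    refine Finset.sum_congr rfl fun χ hχ => ?_
    rw [hreg χ (by simpa using hχ)]
  rw [h2, h3] at h1
  have h4 : (η₀ : G → ℂ) 1 * (conj (∑ᶠ η ∈ Y, (η : G → ℂ) z) - c) = 0 := by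
    linear_combination h1 - hrel
  have h5 := (mul_eq_zero.1 h4).resolve_left (isIrr_apply_one_ne_zero η₀.2)
  have h6 : conj (∑ᶠ η ∈ Y, (η : G → ℂ) z) = (c : ℂ) := sub_eq_zero.1 h5
  have h7 := congrArg conj h6
  rw [Complex.conj_conj, map_intCast] at h7
  exact h7

theorem reduced (M : Ideal AlgInt) (hM : IsPModular p M) (P : Sylow p G)
    (hyp : Hyp P) (hP : 4 < Nat.card P)
    (hcyc : ∃ g : G, g ∈ Subgroup.normalizer ((P : Subgroup G) : Set G) ∧
      Subgroup.centralizer ((P : Subgroup G) : Set G) ⊔ Subgroup.zpowers g =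
        Subgroup.normalizer ((P : Subgroup G) : Set G)) :
    ∃ X Y a δ ζ, Data M P X Y a δ ζ := by
  classical
  have : Finite (IrrCharacter G) := finite_irr
  have := Fintype.ofFinite (IrrCharacter G)
  have hp : p.Prime := Fact.out
  have hab : IsMulCommutative P := ⟨⟨fun a b => Subtype.ext (hyp.comm a a.2 b b.2)⟩⟩
  obtain ⟨s, X, Y, hs, hB, hdisj, hX, hY, hone, a, d, δ, ζ, hδ, hXa, hζY, hζs, hζc, hζv, hnorm,
    hreg, hrel⟩ := S4709.result p M hM P hab (by omega) 3 (by norm_num) hP hyp.idx hcyc hyp.frob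
  -- the number `r` of exceptional characters
  have hmod : Nat.card P ≡ 1 [MOD 3] := card_modEq hyp
  set r : ℕ := (Nat.card P - 1) / 3 with hr
  have hr3 : Nat.card P = 3 * r + 1 := by
    have : Nat.card P % 3 = 1 := hmod
    omega
  have hr2 : 2 ≤ r := by omega
  have hrne3 : r ≠ 3 := by
    intro h
    obtain ⟨k, hk⟩ := P.2.exists_card_eq
    have h10 : Nat.card P = 10 := by omega
    change Nat.card P = p ^ k at hk
    rw [h10] at hk
    have h2 : 2 ∣ p := Nat.prime_two.dvd_of_dvd_pow (n := k) (by rw [← hk]; norm_num)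
    have h5 : 5 ∣ p := Nat.prime_five.dvd_of_dvd_pow (n := k) (by rw [← hk]; norm_num)
    have h2' := (Nat.prime_dvd_prime_iff_eq Nat.prime_two hp).1 h2
    have h5' := (Nat.prime_dvd_prime_iff_eq Nat.prime_five hp).1 h5
    omega
  -- the numbers `a`
  obtain ⟨χ₁, hχ₁, hχ₁'⟩ := hone
  obtain ⟨y₀, hy₀, hy₀1⟩ : ∃ y ∈ (P : Subgroup G), y ≠ 1 := by
    by_contra hcon
    push Not at hcon
    have : (P : Subgroup G) = ⊥ := (Subgroup.eq_bot_iff_forall _).2 hcon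
    have h1 : Nat.card (P : Subgroup G) = 1 := by rw [this, Subgroup.card_bot]
    change Nat.card P = 1 at h1
    omega
  have hpow : ∀ y ∈ (P : Subgroup G), ∃ k : ℕ, orderOf y = p ^ k := by
    intro y hy
    obtain ⟨n, hn⟩ := P.2 ⟨y, hy⟩
    have hn' : y ^ (p ^ n) = 1 := by simpa using congrArg Subtype.val hn
    obtain ⟨j, -, hj⟩ := (Nat.dvd_prime_pow hp).1 (orderOf_dvd_of_pow_eq_one hn')
    exact ⟨j, hj⟩
  have ha1 : a χ₁ = 1 := by
    have h1 := (hXa χ₁ hχ₁).2 y₀ y₀ (PPart.isPPart_of_isPGroup (hpow y₀ hy₀)) hy₀ hy₀1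
    rw [hχ₁'] at h1
    have h2 : (1 : ℂ) = (a χ₁ : ℂ) := h1
    exact_mod_cast h2.symm
  have hXcard : X.toFinset.card = s := by
    rw [← hX, Nat.card_eq_fintype_card, Set.toFinset_card]
  set A : ℤ := ∑ᶠ χ ∈ X, a χ ^ 2 with hA
  have hAsum : A = ∑ χ ∈ X.toFinset, a χ ^ 2 := by rw [hA, finsum_mem_eq_toFinset_sum]
  have hsq : ∀ χ ∈ X, 1 ≤ a χ ^ 2 := by
    intro χ hχ
    have := (hXa χ hχ).1
    have : 0 < a χ ^ 2 := by positivity
    linarith
  have hAs : (s : ℤ) ≤ A := by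
    rw [hAsum, ← hXcard, Finset.card_eq_sum_ones]
    push_cast
    exact Finset.sum_le_sum fun χ hχ => hsq χ (by simpa using hχ)
  have hs1 : 1 ≤ s := by
    rw [← hXcard]
    exact Finset.card_pos.2 ⟨χ₁, by simpa using hχ₁⟩
  have hAle : ∀ χ ∈ X, a χ ^ 2 ≤ A := by
    intro χ hχ
    rw [hAsum]
    exact Finset.single_le_sum (f := fun χ => a χ ^ 2) (fun χ _ => sq_nonneg _) (by simpa using hχ)
  -- if `A = 3` then `s = 3` and all `a` are signs
  have hA3 : A = 3 → s = 3 ∧ ∀ χ ∈ X, a χ = 1 ∨ a χ = -1 := by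
    intro h
    have h1 : ∀ χ ∈ X, a χ = 1 ∨ a χ = -1 := by
      intro χ hχ
      have h2 := hAle χ hχ
      rw [h] at h2
      have h3 := (hXa χ hχ).1
      have h4 : a χ ≤ 1 := by nlinarith
      have h5 : -1 ≤ a χ := by nlinarith
      omega
    refine ⟨?_, h1⟩
    have h2 : A = s := by
      rw [hAsum, ← hXcard, Finset.card_eq_sum_ones]
      push_cast
      refine Finset.sum_congr rfl fun χ hχ => ?_
      rcases h1 χ (by simpa using hχ) with h | h <;> rw [h] <;> norm_num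
    rw [h] at h2
    exact_mod_cast h2.symm
  -- the norm equation
  have hnorm' : (d - δ) ^ 2 + ((r : ℤ) - 1) * d ^ 2 + A = 4 := by
    have h1 : ((Nat.card P : ℤ) - 1) / 3 = r := by
      rw [hr3]; push_cast; omega
    have h2 := hnorm
    push_cast at h2
    rw [h1] at h2
    linarith
  have hδ2 : δ ^ 2 = 1 := by rcases hδ with h | h <;> rw [h] <;> norm_num
  have hrZ : (2 : ℤ) ≤ r := by exact_mod_cast hr2
  have hA1 : 1 ≤ A := by have : (1 : ℤ) ≤ s := by exact_mod_cast hs1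
                         linarith
  have hdcases : d = 0 ∨ (d = δ ∧ r = 2) := by
    have h1 : d ^ 2 ≤ ((r : ℤ) - 1) * d ^ 2 := by nlinarith [sq_nonneg d]
    have h2 : d ^ 2 ≤ 3 := by nlinarith [sq_nonneg (d - δ)]
    have h3 : d ≤ 1 := by nlinarith
    have h4 : -1 ≤ d := by nlinarith
    by_cases hd0 : d = 0
    · exact Or.inl hd0
    · right
      have hd1 : d = 1 ∨ d = -1 := by omega
      have hdδ : d = δ := by
        by_contra hne
        have : d - δ = 2 ∨ d - δ = -2 := by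
          rcases hd1 with h | h <;> rcases hδ with h' | h' <;> rw [h, h'] at hne ⊢ <;> omega
        have h5 : (d - δ) ^ 2 = 4 := by rcases this with h | h <;> rw [h] <;> norm_num
        have h6 : d ^ 2 = 1 := by rcases hd1 with h | h <;> rw [h] <;> norm_num
        rw [h5, h6] at hnorm'
        linarith
      refine ⟨hdδ, ?_⟩
      rw [hdδ, hδ2, sub_self] at hnorm'
      have h7 : (r : ℤ) ≤ 4 := by linarith
      have h8 : r ≤ 4 := by exact_mod_cast h7
      have hr4 : r ≠ 4 := by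
        intro h4
        rw [h4] at hnorm'
        have hA1' : A = 1 := by push_cast at hnorm'; linarith
        have hs1' : s = 1 := by
          have : (s : ℤ) ≤ 1 := by rw [← hA1']; exact hAs
          have : s ≤ 1 := by exact_mod_cast this
          omega
        -- `X = {χ₁}`
        have hX1 : X.toFinset = {χ₁} := by
          rw [hs1'] at hXcard
          obtain ⟨x, hx⟩ := Finset.card_eq_one.1 hXcard
          have : χ₁ ∈ X.toFinset := by simpa using hχ₁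
          rw [hx] at this ⊢
          rw [Finset.mem_singleton.1 this]
        obtain ⟨η, hη⟩ : Y.Nonempty := by
          rw [← Set.ncard_pos (Set.toFinite _)]
          change 0 < Nat.card Y
          rw [hY]; omega
        have h9 := hrel η hη 1 one_not_dvd
        rw [finsum_mem_eq_toFinset_sum, hX1, Finset.sum_singleton, ha1, hχ₁'] at h9
        obtain ⟨n, hn, hn'⟩ := isIrr_apply_one η.2
        rw [hn'] at h9
        have h10 : (r : ℂ) = 4 := by
          rw [h4]; norm_num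
        rw [h10, hdδ] at h9
        have h11 : (3 * δ * n + 1 : ℤ) = 0 := by
          have : ((3 * δ * n + 1 : ℤ) : ℂ) = 0 := by
            push_cast
            linear_combination h9
          exact_mod_cast this
        rcases hδ with h | h <;> rw [h] at h11 <;> omega
      omega
  have hYne : Y.Nonempty := by
    rw [← Set.ncard_pos (Set.toFinite _)]
    change 0 < Nat.card Y
    rw [hY]; omega
  rcases hdcases with hd | ⟨hdδ, hr2'⟩
  · -- the case `d = 0`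
    have hA3' : A = 3 := by
      rw [hd] at hnorm'
      have : (0 - δ) ^ 2 = 1 := by rw [zero_sub, neg_sq, hδ2]
      rw [this] at hnorm'
      linarith
    obtain ⟨hs3, hsign⟩ := hA3 hA3'
    refine ⟨X, Y, a, δ, ζ, ⟨hB, hdisj, by rw [hX, hs3], by rw [hY], ⟨χ₁, hχ₁, hχ₁'⟩, hδ,
      fun χ hχ => ⟨hsign χ hχ, (hXa χ hχ).2⟩, hζY, hζs, ?_, ?_, hreg, ?_⟩⟩
    · intro ψ ψ' hψ hψ'
      exact hζc ψ ψ' hψ hψ'
    · intro ψ hψ z y hz hy
      have := hζv ψ hψ z y hz hy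
      rw [hd, Int.cast_zero, zero_add] at this
      exact this
    · intro η hη g hg
      have := hrel η hη g hg
      rw [hd, Int.cast_zero, mul_zero, zero_sub] at this
      exact this
  · -- the case `d = δ`, two exceptional characters
    have hA3' : A = 3 := by
      rw [hdδ, hr2', hδ2, sub_self] at hnorm'
      push_cast at hnorm'
      linarith
    obtain ⟨hs3, hsign⟩ := hA3 hA3'
    have hY2 : Y.ncard = 2 := by
      change Nat.card Y = 2
      rw [hY, hr2']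
    obtain ⟨η₁, η₂, hη, hYeq⟩ := Set.ncard_eq_two.1 hY2
    have hη₁ : η₁ ∈ Y := by rw [hYeq]; simp
    have hη₂ : η₂ ∈ Y := by rw [hYeq]; simp
    have hrel' : ∀ η ∈ Y, ∀ g : G, ¬ p ∣ orderOf g →
        (δ : ℂ) * (η : G → ℂ) g + ∑ᶠ χ ∈ X, (a χ : ℂ) * (χ : G → ℂ) g = 0 := by
      intro η hη g hg
      have := hrel η hη g hg
      rw [hr2', hdδ] at this
      push_cast at this
      linear_combination this
    have hsum : ∀ z y : G, IsPPart p z y → y ∈ (P : Subgroup G) → y ≠ 1 →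
        (η₁ : G → ℂ) z + (η₂ : G → ℂ) z = δ := by
      intro z y hz hy hy1
      have h1 := sumY M hM hB hdisj (a := a) δ (η₀ := η₁)
        (fun η hη => hreg η hη η₁ hη₁ 1 one_not_dvd) (hrel' η₁ hη₁ 1 one_not_dvd)
        (dvd_orderOf hz hy1) (fun χ hχ => (hXa χ hχ).2 z y hz hy hy1)
      rw [← h1, hYeq, finsum_mem_pair hη]
    have hδ' : (-δ = 1 ∨ -δ = -1) := by rcases hδ with h | h <;> rw [h] <;> norm_num
    refine ⟨X, Y, a, -δ, fun ψ => if ζ ψ = η₁ then η₂ else η₁, ⟨hB, hdisj, by rw [hX, hs3],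
      by rw [hY], ⟨χ₁, hχ₁, hχ₁'⟩, hδ', fun χ hχ => ⟨hsign χ hχ, (hXa χ hχ).2⟩, ?_, ?_, ?_, ?_,
      hreg, ?_⟩⟩
    · intro ψ _
      split_ifs
      exacts [hη₂, hη₁]
    · intro η hηY
      rw [hYeq] at hηY
      rcases hηY with rfl | hηY
      · obtain ⟨ψ, hψ, hψ'⟩ := hζs η₂ hη₂
        refine ⟨ψ, hψ, ?_⟩
        rw [hψ', if_neg hη.symm]
      · rw [Set.mem_singleton_iff] at hηY
        subst hηY
        obtain ⟨ψ, hψ, hψ'⟩ := hζs η₁ hη₁
        refine ⟨ψ, hψ, ?_⟩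
        rw [hψ', if_pos rfl]
    · intro ψ ψ' hψ hψ'
      rw [hζc ψ ψ' hψ hψ']
    · intro ψ hψ z y hz hy
      have h1 := hζv ψ hψ z y hz hy
      have h2 := hsum z y hz y.2 hy
      have h3 : (ζ ψ : G → ℂ) z = (d : ℂ) + (δ : ℂ) * ∑ᶠ ψ' ∈ orb P ψ, ((ψ' y : ℂˣ) : ℂ) := h1
      have h4 : ζ ψ ∈ ({η₁, η₂} : Set (IrrCharacter G)) := by
        rw [← hYeq]; exact hζY ψ hψ
      have hδ2' : (δ : ℂ) * δ = 1 := by exact_mod_cast (pow_two δ ▸ hδ2)
      rw [hdδ] at h3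
      push_cast
      rcases h4 with h4 | h4
      · rw [if_pos h4]
        rw [h4] at h3
        linear_combination h2 - h3
      · rw [Set.mem_singleton_iff] at h4
        rw [if_neg (by rw [h4]; exact hη.symm)]
        rw [h4] at h3
        linear_combination h2 - h3
    · intro η hη g hg
      have := hrel' η hη g hg
      push_cast
      linear_combination this

end Cfsg.Agent.H659.Frob3Data
end

-- part: H659/Frob3Invol
section
/-!
# The principal block for an abelian Sylow subgroup with automizer of order three: involutions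
-/

set_option autoImplicit false
set_option linter.unusedSectionVars false

open Cfsg
open scoped ComplexConjugate

namespace Cfsg.Agent.H659.Frob3Invol

open Subgroup Cfsg.Agent.Blocks Cfsg.Agent.Characters.Core Frob3Group Frob3Dual Frob3Data

variable {G : Type*} [Group G] [Finite G] {p : ℕ} [Fact p.Prime]

theorem exists_orderOf (P : Sylow p G) {x : G} (hx : x ∈ (P : Subgroup G)) :
    ∃ k : ℕ, orderOf x = p ^ k := by
  have hp : p.Prime := Fact.out
  obtain ⟨n, hn⟩ := P.2 ⟨x, hx⟩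
  have hn' : x ^ (p ^ n) = 1 := by simpa using congrArg Subtype.val hn
  obtain ⟨j, -, hj⟩ := (Nat.dvd_prime_pow hp).1 (orderOf_dvd_of_pow_eq_one hn')
  exact ⟨j, hj⟩

/-- `χ(t) ^ 2 / χ(1)` -/
noncomputable def cc (t : G) (χ : IrrCharacter G) : ℂ := ((χ : G → ℂ) t) ^ 2 / (χ : G → ℂ) 1

variable {M : Ideal AlgInt} {P : Sylow p G} {X Y : Set (IrrCharacter G)}
  {a : IrrCharacter G → ℤ} {δ : ℤ} {ζ : ((P : Subgroup G) →* ℂˣ) → IrrCharacter G}

theorem nonempty_Y (hyp : Hyp P) (hP : 4 < Nat.card P) (D : Data M P X Y a δ ζ) : Y.Nonempty := by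
  have : Finite (IrrCharacter G) := finite_irr
  have hmod : Nat.card P % 3 = 1 := card_modEq hyp
  rw [← Set.ncard_pos (Set.toFinite _)]
  have h : Y.ncard = (Nat.card P - 1) / 3 := D.cardY
  rw [h]
  omega

/-- The relations at the involution, `p` odd. -/
theorem relations_odd (hM : IsPModular p M) (hyp : Hyp P) (hP : 4 < Nat.card P) (hp2 : p ≠ 2)
    (D : Data M P X Y a δ ζ) (t : G) (ht : orderOf t = 2) :
    ∃ η₀ ∈ Y, -(δ : ℂ) * (η₀ : G → ℂ) t + ∑ᶠ χ ∈ X, (a χ : ℂ) * (χ : G → ℂ) t = 0 ∧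
      -(δ : ℂ) * cc t η₀ + ∑ᶠ χ ∈ X, (a χ : ℂ) * cc t χ = 0 := by
  classical
  have : Finite (IrrCharacter G) := finite_irr
  have := Fintype.ofFinite (IrrCharacter G)
  have hp : p.Prime := Fact.out
  have ht2 : t * t = 1 := by rw [← pow_two, ← ht, pow_orderOf_eq_one]
  obtain ⟨η₀, hη₀⟩ := nonempty_Y hyp hP D
  have htp : ¬ p ∣ orderOf t := by
    rw [ht]
    intro h
    exact hp2 ((Nat.prime_dvd_prime_iff_eq hp Nat.prime_two).1 h)
  refine ⟨η₀, hη₀, D.rel η₀ hη₀ t htp, ?_⟩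
  obtain ⟨y₀, hy₀, hy₀1⟩ : ∃ y ∈ (P : Subgroup G), y ≠ 1 := by
    by_contra hcon
    push Not at hcon
    have : (P : Subgroup G) = ⊥ := (Subgroup.eq_bot_iff_forall _).2 hcon
    have h1 : Nat.card (P : Subgroup G) = 1 := by rw [this, Subgroup.card_bot]
    change Nat.card P = 1 at h1
    omega
  have hpart := PPart.isPPart_of_isPGroup (exists_orderOf P hy₀)
  have h1 := StructConst.structure_vanish hM t y₀ (exists_orderOf P hy₀)
    (fun z hz a b => Frob3Product.no_product_odd hyp hp2 ht2 (P.inv_mem hy₀)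
      (fun h => hy₀1 (inv_eq_one.1 h)) hz a b)
  rw [D.block, finsum_union X Y D.disj] at h1
  have h2 : ∑ᶠ χ ∈ X, ((χ : G → ℂ) t) ^ 2 / (χ : G → ℂ) 1 * (χ : G → ℂ) y₀ =
      ∑ᶠ χ ∈ X, (a χ : ℂ) * cc t χ := by
    refine finsum_mem_congr rfl fun χ hχ => ?_
    rw [(D.valX χ hχ).2 y₀ y₀ hpart hy₀ hy₀1, mul_comm]
    rfl
  have h3 : ∑ᶠ χ ∈ Y, ((χ : G → ℂ) t) ^ 2 / (χ : G → ℂ) 1 * (χ : G → ℂ) y₀ =
      cc t η₀ * ∑ᶠ η ∈ Y, (η : G → ℂ) y₀ := by
    rw [finsum_mem_eq_toFinset_sum, finsum_mem_eq_toFinset_sum, Finset.mul_sum]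
    refine Finset.sum_congr rfl fun χ hχ => ?_
    have hχY : χ ∈ Y := by simpa using hχ
    rw [D.regY χ hχY η₀ hη₀ t htp, D.regY χ hχY η₀ hη₀ 1 one_not_dvd]
    rfl
  have h4 := sumY M hM D.block D.disj (a := a) (-δ) (η₀ := η₀)
    (fun η hη => D.regY η hη η₀ hη₀ 1 one_not_dvd)
    (by have := D.rel η₀ hη₀ 1 one_not_dvd
        push_cast
        exact this)
    (dvd_orderOf hpart hy₀1) (fun χ hχ => (D.valX χ hχ).2 y₀ y₀ hpart hy₀ hy₀1)
  rw [h2, h3, h4] at h1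
  push_cast at h1
  linear_combination h1

/-- The four-group generated by the conjugates of an involution of `P` under the normalizer. -/
theorem exists_four (P : Sylow 2 G) (hyp : Hyp P) {n t : G}
    (hn : n ∈ normalizer ((P : Subgroup G) : Set G))
    (hnC : n ∉ centralizer ((P : Subgroup G) : Set G)) (htP : t ∈ (P : Subgroup G))
    (ht : t * t = 1) :
    ∃ V : Subgroup (P : Subgroup G), Nat.card V ≤ 4 ∧
      ∀ i : ℕ, i < 3 → ∀ x : (P : Subgroup G), (x : G) = n ^ i * t * (n ^ i)⁻¹ → x ∈ V := by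
  classical
  have hcomm : ∀ a b : (P : Subgroup G), a * b = b * a :=
    fun a b => Subtype.ext (hyp.comm a a.2 b b.2)
  set s₀ : (P : Subgroup G) := ⟨t, htP⟩ with hs₀
  set s₁ : (P : Subgroup G) := cj n hn s₀ with hs₁
  set s₂ : (P : Subgroup G) := cj n hn s₁ with hs₂
  have h00 : s₀ * s₀ = 1 := Subtype.ext ht
  have h11 : s₁ * s₁ = 1 := by rw [hs₁, ← map_mul, h00, map_one]
  have h22 : s₂ * s₂ = 1 := by rw [hs₂, ← map_mul, h11, map_one]
  have h012 : s₀ * s₁ * s₂ = 1 := Subtype.ext (prod_eq_one hyp hn hnC htP)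
  have h01 : s₀ * s₁ = s₂ := by
    calc s₀ * s₁ = s₀ * s₁ * (s₂ * s₂) := by rw [h22, mul_one]
      _ = (s₀ * s₁ * s₂) * s₂ := by group
      _ = s₂ := by rw [h012, one_mul]
  have h02 : s₀ * s₂ = s₁ := by
    rw [← h01, ← mul_assoc, h00, one_mul]
  have h12 : s₁ * s₂ = s₀ := by
    rw [← h01, hcomm s₀ s₁, ← mul_assoc, h11, one_mul]
  have h10 : s₁ * s₀ = s₂ := by rw [hcomm, h01]
  have h20 : s₂ * s₀ = s₁ := by rw [hcomm, h02]
  have h21 : s₂ * s₁ = s₀ := by rw [hcomm, h12]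
  let V : Subgroup (P : Subgroup G) :=
    { carrier := (({1, s₀, s₁, s₂} : Finset (P : Subgroup G)) : Set (P : Subgroup G))
      one_mem' := by simp
      mul_mem' := by
        intro x y hx hy
        simp only [Finset.coe_insert, Finset.coe_singleton, Set.mem_insert_iff,
          Set.mem_singleton_iff] at hx hy ⊢
        rcases hx with rfl | rfl | rfl | rfl <;> rcases hy with rfl | rfl | rfl | rfl <;>
          simp [h00, h11, h22, h01, h02, h12, h10, h20, h21]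
      inv_mem' := by
        intro x hx
        simp only [Finset.coe_insert, Finset.coe_singleton, Set.mem_insert_iff,
          Set.mem_singleton_iff] at hx ⊢
        rcases hx with rfl | rfl | rfl | rfl
        · simp
        · right; left; exact inv_eq_of_mul_eq_one_left h00
        · right; right; left; exact inv_eq_of_mul_eq_one_left h11
        · right; right; right; exact inv_eq_of_mul_eq_one_left h22 }
  refine ⟨V, ?_, ?_⟩
  · have h1 : Nat.card V = ({1, s₀, s₁, s₂} : Finset (P : Subgroup G)).card := by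
      have h0 : ((({1, s₀, s₁, s₂} : Finset (P : Subgroup G)) :
        Set (P : Subgroup G))).ncard = ({1, s₀, s₁, s₂} : Finset (P : Subgroup G)).card :=
        Set.ncard_coe_finset _
      exact h0
    rw [h1]
    refine (Finset.card_insert_le _ _).trans ?_
    refine Nat.succ_le_succ ((Finset.card_insert_le _ _).trans ?_)
    refine Nat.succ_le_succ ((Finset.card_insert_le _ _).trans ?_)
    simp
  · intro i hi x hx
    change x ∈ (({1, s₀, s₁, s₂} : Finset (P : Subgroup G)) : Set (P : Subgroup G))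
    simp only [Finset.coe_insert, Finset.coe_singleton, Set.mem_insert_iff, Set.mem_singleton_iff]
    interval_cases i
    · right; left
      apply Subtype.ext
      rw [hx]; simp [hs₀]
    · right; right; left
      apply Subtype.ext
      rw [hx, hs₁, cj_coe]; simp [hs₀]
    · right; right; right
      apply Subtype.ext
      rw [hx, hs₂, cj_coe, hs₁, cj_coe]
      simp only [pow_succ, pow_zero, one_mul, mul_inv_rev, mul_assoc, hs₀]

/-- The weighted sums of the exceptional characters. -/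
theorem weight_Y {M : Ideal AlgInt} {P : Sylow p G} {X Y : Set (IrrCharacter G)}
    {a : IrrCharacter G → ℤ} {δ : ℤ} {ζ : ((P : Subgroup G) →* ℂˣ) → IrrCharacter G}
    [Fintype (P : Subgroup G)]
    (hyp : Hyp P) (D : Data M P X Y a δ ζ) {ψ₀ : (P : Subgroup G) →* ℂˣ} (hψ₀ : ψ₀ ≠ 1)
    (η : IrrCharacter G) (hη : η ∈ Y) :
    ∑ y : (P : Subgroup G), (1 - ((ψ₀ y⁻¹ : ℂˣ) : ℂ)) * (η : G → ℂ) y =
      open Classical in if η = ζ ψ₀ then -(δ : ℂ) * Nat.card (P : Subgroup G) else 0 := by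
  classical
  obtain ⟨n, hn, hnC⟩ := exists_gen hyp
  have key : ∀ ψ : (P : Subgroup G) →* ℂˣ, ψ ≠ 1 →
      ∑ y : (P : Subgroup G), (1 - ((ψ₀ y⁻¹ : ℂˣ) : ℂ)) * (ζ ψ : G → ℂ) y =
      -(δ : ℂ) * ((if ψ = ψ₀ then (Nat.card (P : Subgroup G) : ℂ) else 0) +
        (if tw n hn ψ = ψ₀ then (Nat.card (P : Subgroup G) : ℂ) else 0) +
        (if tw n hn (tw n hn ψ) = ψ₀ then (Nat.card (P : Subgroup G) : ℂ) else 0)) := by
    intro ψ hψ
    have h1 : ∀ y : (P : Subgroup G), (1 - ((ψ₀ y⁻¹ : ℂˣ) : ℂ)) * (ζ ψ : G → ℂ) y =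
        (δ : ℂ) * ((((ψ y : ℂˣ) : ℂ) + ((tw n hn ψ y : ℂˣ) : ℂ) +
          ((tw n hn (tw n hn ψ) y : ℂˣ) : ℂ)) -
          (((ψ y : ℂˣ) : ℂ) * ((ψ₀ y⁻¹ : ℂˣ) : ℂ) + ((tw n hn ψ y : ℂˣ) : ℂ) * ((ψ₀ y⁻¹ : ℂˣ) : ℂ) +
          ((tw n hn (tw n hn ψ) y : ℂˣ) : ℂ) * ((ψ₀ y⁻¹ : ℂˣ) : ℂ))) := by
      intro y
      by_cases hy : (y : G) = 1
      · have hy' : y = 1 := Subtype.ext hy
        subst hy'
        simp
      · rw [D.valY ψ hψ y y (PPart.isPPart_of_isPGroup (exists_orderOf P y.2)) hy,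
          finsum_orb hyp hn hnC hψ]
        ring
    rw [Finset.sum_congr rfl fun y _ => h1 y, ← Finset.mul_sum, Finset.sum_sub_distrib,
      Finset.sum_add_distrib, Finset.sum_add_distrib, Finset.sum_add_distrib,
      Finset.sum_add_distrib, sum_units_eq_zero hψ, sum_units_eq_zero (tw_ne_one hn hyp hψ),
      sum_units_eq_zero (tw_ne_one hn hyp (tw_ne_one hn hyp hψ)), sum_units_mul_inv,
      sum_units_mul_inv, sum_units_mul_inv]
    ring
  by_cases hη0 : η = ζ ψ₀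
  · rw [if_pos hη0, hη0, key ψ₀ hψ₀]
    have h1 : tw n hn ψ₀ ≠ ψ₀ := fun h0 => hψ₀ (eq_one_of_tw hyp hn hnC h0)
    have h3 : tw n hn (tw n hn ψ₀) ≠ ψ₀ := by
      intro h0
      apply h1
      conv_rhs => rw [← tw_three hyp n hn ψ₀, h0]
    rw [if_pos rfl, if_neg h1, if_neg h3]
    ring
  · rw [if_neg hη0]
    obtain ⟨ψ, hψ, hψ'⟩ := D.surjY η hη
    have hno : ψ₀ ∉ orb P ψ := by
      intro h
      apply hη0
      rw [← hψ', D.orbY ψ ψ₀ hψ h]
    rw [orb_eq hyp hn hnC] at hno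
    simp only [Set.mem_insert_iff, Set.mem_singleton_iff, not_or] at hno
    rw [← hψ', key ψ hψ, if_neg (Ne.symm hno.1), if_neg (Ne.symm hno.2.1),
      if_neg (Ne.symm hno.2.2)]
    ring

/-- The relations at the involution, `p = 2`. -/
theorem relations_two {M : Ideal AlgInt} {P : Sylow 2 G} {X Y : Set (IrrCharacter G)}
    {a : IrrCharacter G → ℤ} {δ : ℤ} {ζ : ((P : Subgroup G) →* ℂˣ) → IrrCharacter G}
    [Fact (Nat.Prime 2)]
    (hM : IsPModular 2 M) (hyp : Hyp P) (hP : 4 < Nat.card P)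
    (D : Data M P X Y a δ ζ) (t : G) (ht : orderOf t = 2) (htP : t ∈ (P : Subgroup G)) :
    ∃ η₀ ∈ Y, -(δ : ℂ) * (η₀ : G → ℂ) t + ∑ᶠ χ ∈ X, (a χ : ℂ) * (χ : G → ℂ) t = 0 ∧
      -(δ : ℂ) * cc t η₀ + ∑ᶠ χ ∈ X, (a χ : ℂ) * cc t χ = 0 := by
  classical
  have : Finite (IrrCharacter G) := finite_irr
  have := Fintype.ofFinite (IrrCharacter G)
  have := Fintype.ofFinite (P : Subgroup G)
  have ht2 : t * t = 1 := by rw [← pow_two, ← ht, pow_orderOf_eq_one]
  have ht1 : t ≠ 1 := by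
    rintro rfl
    rw [orderOf_one] at ht
    norm_num at ht
  obtain ⟨n, hn, hnC⟩ := exists_gen hyp
  obtain ⟨V, hVcard, hV⟩ := exists_four P hyp hn hnC htP ht2
  have hVtop : V ≠ ⊤ := by
    intro h
    rw [h, Subgroup.card_top] at hVcard
    change Nat.card P ≤ 4 at hVcard
    omega
  obtain ⟨ψ₀, hψ₀, hψ₀V⟩ := exists_trivial_on hyp V hVtop
  have htpart : IsPPart 2 t t := PPart.isPPart_of_isPGroup (exists_orderOf P htP)
  refine ⟨ζ ψ₀, D.memY ψ₀ hψ₀, ?_, ?_⟩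
  · -- the value at `t`
    have h1 := D.valY ψ₀ hψ₀ t ⟨t, htP⟩ htpart ht1
    rw [finsum_orb hyp hn hnC hψ₀] at h1
    have e0 : ψ₀ ⟨t, htP⟩ = 1 := hψ₀V _ (hV 0 (by norm_num) _ (by simp))
    have e1 : tw n hn ψ₀ ⟨t, htP⟩ = 1 := by
      rw [tw_apply]
      exact hψ₀V _ (hV 1 (by norm_num) _ (by rw [cj_coe]; simp))
    have e2 : tw n hn (tw n hn ψ₀) ⟨t, htP⟩ = 1 := by
      rw [tw_apply, tw_apply]
      exact hψ₀V _ (hV 2 (by norm_num) _ (by
        rw [cj_coe, cj_coe]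
        simp only [pow_succ, pow_zero, one_mul, mul_inv_rev, mul_assoc]))
    rw [e0, e1, e2, Units.val_one] at h1
    have h2 : ∑ᶠ χ ∈ X, (a χ : ℂ) * (χ : G → ℂ) t = 3 := by
      have h3 : ∑ᶠ χ ∈ X, (a χ : ℂ) * (χ : G → ℂ) t = ∑ᶠ χ ∈ X, (1 : ℂ) := by
        refine finsum_mem_congr rfl fun χ hχ => ?_
        rw [(D.valX χ hχ).2 t t htpart htP ht1]
        rcases (D.valX χ hχ).1 with h | h <;> rw [h] <;> norm_num
      rw [h3, finsum_mem_eq_toFinset_sum, Finset.sum_const, nsmul_eq_mul, mul_one]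
      have h4 : X.toFinset.card = 3 := by
        rw [← D.cardX, Nat.card_eq_fintype_card, Set.toFinset_card]
      rw [h4]
      norm_num
    rw [h1, h2]
    have h5 : (δ : ℂ) * δ = 1 := by
      rcases D.hδ with h | h <;> rw [h] <;> norm_num
    linear_combination -3 * h5
  · -- the weighted sum
    have hvan : ∀ y : (P : Subgroup G), y ∉ V →
        ∑ᶠ χ ∈ principalBlock M G, cc t χ * (χ : G → ℂ) y = 0 := by
      intro y hy
      refine StructConst.structure_vanish hM t y (exists_orderOf P y.2) ?_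
      intro z hz a' b' hab
      obtain ⟨i, j, hi, hj, hij⟩ := Frob3Product.product_two hyp hn hnC ht htP
        (P.inv_mem y.2) hz a' b' hab
      apply hy
      have hmi : n ^ i * t * (n ^ i)⁻¹ ∈ (P : Subgroup G) := conj_mem _ _ (pow_mem hn i) htP
      have hmj : n ^ j * t * (n ^ j)⁻¹ ∈ (P : Subgroup G) := conj_mem _ _ (pow_mem hn j) htP
      have h1 := hV i hi ⟨_, hmi⟩ rfl
      have h2 := hV j hj ⟨_, hmj⟩ rfl
      have h3 : y = (⟨_, hmj⟩ : (P : Subgroup G))⁻¹ * ⟨_, hmi⟩ := by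
        apply Subtype.ext
        have h4 : (y : G) = ((y : G)⁻¹)⁻¹ := (inv_inv _).symm
        rw [h4, hij]
        simp only [Subgroup.coe_mul, InvMemClass.coe_inv]
        group
      rw [h3]
      exact V.mul_mem (V.inv_mem h2) h1
    have hW : ∑ y : (P : Subgroup G), (1 - ((ψ₀ y⁻¹ : ℂˣ) : ℂ)) *
        ∑ᶠ χ ∈ principalBlock M G, cc t χ * (χ : G → ℂ) y = 0 := by
      apply Finset.sum_eq_zero
      intro y _
      by_cases hy : y ∈ V
      · rw [hψ₀V _ (V.inv_mem hy), Units.val_one, sub_self, zero_mul]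
      · rw [hvan y hy, mul_zero]
    have hswap : ∑ y : (P : Subgroup G), (1 - ((ψ₀ y⁻¹ : ℂˣ) : ℂ)) *
        ∑ᶠ χ ∈ principalBlock M G, cc t χ * (χ : G → ℂ) y =
        ∑ᶠ χ ∈ principalBlock M G, cc t χ *
          ∑ y : (P : Subgroup G), (1 - ((ψ₀ y⁻¹ : ℂˣ) : ℂ)) * (χ : G → ℂ) y := by
      simp only [finsum_mem_eq_toFinset_sum, Finset.mul_sum]
      rw [Finset.sum_comm]
      refine Finset.sum_congr rfl fun χ _ => Finset.sum_congr rfl fun y _ => ?_
      ring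
    rw [hswap, D.block, finsum_union X Y D.disj] at hW
    have hinv : ψ₀⁻¹ ≠ 1 := by
      intro h
      apply hψ₀
      ext x
      have h1 := DFunLike.congr_fun h x
      have h2 : (ψ₀ x)⁻¹ = 1 := h1
      rw [inv_eq_one.1 h2]
      rfl
    have hX : ∑ᶠ χ ∈ X, cc t χ *
        ∑ y : (P : Subgroup G), (1 - ((ψ₀ y⁻¹ : ℂˣ) : ℂ)) * (χ : G → ℂ) y =
        Nat.card (P : Subgroup G) * ∑ᶠ χ ∈ X, (a χ : ℂ) * cc t χ := by
      rw [finsum_mem_eq_toFinset_sum, finsum_mem_eq_toFinset_sum, Finset.mul_sum]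
      refine Finset.sum_congr rfl fun χ hχ => ?_
      have hχX : χ ∈ X := by simpa using hχ
      have h1 : ∀ y : (P : Subgroup G), (1 - ((ψ₀ y⁻¹ : ℂˣ) : ℂ)) * (χ : G → ℂ) y =
          (a χ : ℂ) * (1 - ((ψ₀⁻¹ y : ℂˣ) : ℂ)) := by
        intro y
        have h0 : ψ₀ y⁻¹ = ψ₀⁻¹ y := by rw [map_inv]; rfl
        by_cases hy : (y : G) = 1
        · have hy' : y = 1 := Subtype.ext hy
          subst hy'
          simp
        · rw [(D.valX χ hχX).2 y y (PPart.isPPart_of_isPGroup (exists_orderOf P y.2)) y.2 hy, h0]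
          ring
      rw [Finset.sum_congr rfl fun y _ => h1 y, ← Finset.mul_sum, Finset.sum_sub_distrib,
        sum_units_eq_zero hinv, Finset.sum_const, Finset.card_univ, nsmul_eq_mul,
        ← Nat.card_eq_fintype_card]
      ring
    have hY : ∑ᶠ χ ∈ Y, cc t χ *
        ∑ y : (P : Subgroup G), (1 - ((ψ₀ y⁻¹ : ℂˣ) : ℂ)) * (χ : G → ℂ) y =
        Nat.card (P : Subgroup G) * (-(δ : ℂ) * cc t (ζ ψ₀)) := by
      rw [finsum_mem_eq_toFinset_sum]
      have h1 : ∀ χ ∈ Y.toFinset, cc t χ *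
          ∑ y : (P : Subgroup G), (1 - ((ψ₀ y⁻¹ : ℂˣ) : ℂ)) * (χ : G → ℂ) y =
          if χ = ζ ψ₀ then cc t (ζ ψ₀) * (-(δ : ℂ) * Nat.card (P : Subgroup G)) else 0 := by
        intro χ hχ
        rw [weight_Y hyp D hψ₀ χ (by simpa using hχ)]
        by_cases h : χ = ζ ψ₀
        · rw [if_pos h, if_pos h, h]
        · rw [if_neg h, if_neg h, mul_zero]
      rw [Finset.sum_congr rfl h1, Finset.sum_ite_eq' Y.toFinset (ζ ψ₀), if_pos (by
        simpa using D.memY ψ₀ hψ₀)]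
      ring
    rw [hX, hY, ← mul_add] at hW
    have hne : (Nat.card (P : Subgroup G) : ℂ) ≠ 0 := by exact_mod_cast Nat.card_pos.ne'
    have := (mul_eq_zero.1 hW).resolve_left hne
    linear_combination this

end Cfsg.Agent.H659.Frob3Invol
end

-- part: S4721
section
set_option autoImplicit false
open Cfsg

namespace Cfsg.Agent.S4721

open Subgroup Cfsg.Agent.Blocks Cfsg.Agent.Characters.Core H659.Frob3Group H659.Frob3Dual
  H659.Frob3Data H659.Frob3Invol

theorem relations {G : Type*} [Group G] [Finite G] {p : ℕ} [Fact p.Prime] {M : Ideal AlgInt}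
    {P : Sylow p G} {X Y : Set (IrrCharacter G)} {a : IrrCharacter G → ℤ} {δ : ℤ}
    {ζ : ((P : Subgroup G) →* ℂˣ) → IrrCharacter G}
    (hM : IsPModular p M) (hyp : Hyp P) (hP : 4 < Nat.card P)
    (D : Data M P X Y a δ ζ) (t : G) (ht : orderOf t = 2) :
    ∃ η₀ ∈ Y, -(δ : ℂ) * (η₀ : G → ℂ) t + ∑ᶠ χ ∈ X, (a χ : ℂ) * (χ : G → ℂ) t = 0 ∧
      -(δ : ℂ) * cc t η₀ + ∑ᶠ χ ∈ X, (a χ : ℂ) * cc t χ = 0 := by
  by_cases hp2 : p = 2
  · subst hp2
    obtain ⟨t', ht'P, ht', hconj⟩ := Homocyclic.exists_isConj_mem P t ht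
    obtain ⟨η₀, hη₀, h1, h2⟩ := relations_two hM hyp hP D t' ht' ht'P
    have hval : ∀ χ : IrrCharacter G, (χ : G → ℂ) t' = (χ : G → ℂ) t :=
      fun χ => (Basic.irr_isConj χ.2 hconj).symm
    refine ⟨η₀, hη₀, ?_, ?_⟩
    · simpa only [hval] using h1
    · simpa only [cc, hval] using h2
  · exact relations_odd hM hyp hP hp2 D t ht

theorem charDegree_eq {G : Type*} [Group G] {χ : G → ℂ} {n : ℕ} (h : χ 1 = n) :
    charDegree χ = n := by
  unfold charDegree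
  rw [h]
  simp

theorem final {G : Type*} [Group G] [Finite G] {p : ℕ} [Fact p.Prime] {M : Ideal AlgInt}
    {P : Sylow p G} {X Y : Set (IrrCharacter G)} {a : IrrCharacter G → ℤ} {δ : ℤ}
    {ζ : ((P : Subgroup G) →* ℂˣ) → IrrCharacter G}
    (hM : IsPModular p M) (hyp : Hyp P) (hP : 4 < Nat.card P)
    (D : Data M P X Y a δ ζ) (t : G) (ht : orderOf t = 2)
    (hK : ∀ K : Subgroup G, K.Normal → t ∈ K → K = ⊤) :
    Nat.card {χ : IrrCharacter G // χ ∈ X ∧ (χ : G → ℂ) ≠ (fun _ => 1) ∧ a χ = -1} +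
        (if δ = 1 then 1 else 0) = 2 ∧
      ∀ η ∈ Y, IsSquare (charDegree (η : G → ℂ) *
        ∏ᶠ χ ∈ {χ : IrrCharacter G | χ ∈ X ∧ (χ : G → ℂ) ≠ fun _ => 1},
          charDegree (χ : G → ℂ)) := by
  classical
  have : Finite (IrrCharacter G) := finite_irr
  have := Fintype.ofFinite (IrrCharacter G)
  have := Fintype.ofFinite G
  obtain ⟨χ₁, hχ₁, hχ₁'⟩ := D.one
  have hXc : X.ncard = 3 := D.cardX
  have hdiff : (X \ {χ₁}).ncard = 2 := by
    rw [Set.ncard_diff_singleton_of_mem hχ₁, hXc]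
  obtain ⟨χ₂, χ₃, h23, hX'⟩ := Set.ncard_eq_two.1 hdiff
  have hχ₂ : χ₂ ∈ X \ {χ₁} := by rw [hX']; simp
  have hχ₃ : χ₃ ∈ X \ {χ₁} := by rw [hX']; simp
  have h21 : χ₂ ≠ χ₁ := hχ₂.2
  have h31 : χ₃ ≠ χ₁ := hχ₃.2
  have hXeq : X = (({χ₁, χ₂, χ₃} : Finset (IrrCharacter G)) : Set (IrrCharacter G)) := by
    have h1 : X = insert χ₁ (X \ {χ₁}) := by
      rw [Set.insert_diff_singleton, Set.insert_eq_of_mem hχ₁]
    rw [h1, hX']
    simp
  have hsumX : ∀ F : IrrCharacter G → ℂ, ∑ᶠ χ ∈ X, F χ = F χ₁ + F χ₂ + F χ₃ := by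
    intro F
    rw [hXeq, finsum_mem_coe_finset, Finset.sum_insert, Finset.sum_insert, Finset.sum_singleton]
    · ring
    · rw [Finset.mem_singleton]; exact h23
    · rw [Finset.mem_insert, Finset.mem_singleton, not_or]; exact ⟨h21.symm, h31.symm⟩
  have hne1 : ∀ χ : IrrCharacter G, χ ≠ χ₁ → (χ : G → ℂ) ≠ fun _ => 1 := by
    intro χ hχ h
    exact hχ (Subtype.ext (h.trans hχ₁'.symm))
  have ha1 : a χ₁ = 1 := by
    obtain ⟨y₀, hy₀, hy₀1⟩ : ∃ y ∈ (P : Subgroup G), y ≠ 1 := by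
      by_contra hcon
      push Not at hcon
      have : (P : Subgroup G) = ⊥ := (Subgroup.eq_bot_iff_forall _).2 hcon
      have h1 : Nat.card (P : Subgroup G) = 1 := by rw [this, Subgroup.card_bot]
      change Nat.card P = 1 at h1
      omega
    have h1 := (D.valX χ₁ hχ₁).2 y₀ y₀ (PPart.isPPart_of_isPGroup (exists_orderOf P hy₀)) hy₀ hy₀1
    rw [hχ₁'] at h1
    have h2 : (1 : ℂ) = (a χ₁ : ℂ) := h1
    exact_mod_cast h2.symm
  -- nontrivial characters do not have `t` in the kernel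
  have hker : ∀ χ : IrrCharacter G, (χ : G → ℂ) ≠ (fun _ => 1) →
      (χ : G → ℂ) t ≠ (χ : G → ℂ) 1 := by
    intro χ hχ h
    apply hχ
    refine S0898.eq_one_of_ker (zpowers t) (fun K hK1 hK2 => hK K hK1 (hK2 (mem_zpowers t))) χ.2 ?_
    rintro ⟨s, hs, hs'⟩
    apply hs'
    obtain ⟨k, rfl⟩ := mem_zpowers_iff.1 hs
    rcases Int.even_or_odd k with ⟨m, hm⟩ | ⟨m, hm⟩
    · have : t ^ k = 1 := by
        rw [hm, ← two_mul, zpow_mul]
        have h2 : t ^ (2 : ℤ) = 1 := by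
          have := pow_orderOf_eq_one t
          rw [ht] at this
          exact_mod_cast this
        rw [h2, one_zpow]
      rw [this]
    · have : t ^ k = t := by
        rw [hm, zpow_add, zpow_mul, zpow_one]
        have h2 : t ^ (2 : ℤ) = 1 := by
          have := pow_orderOf_eq_one t
          rw [ht] at this
          exact_mod_cast this
        rw [h2, one_zpow, one_mul]
      rw [this, h]
  obtain ⟨η₀, hη₀, R2, R3⟩ := relations hM hyp hP D t ht
  have R1 := D.rel η₀ hη₀ 1 one_not_dvd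
  rw [hsumX] at R1 R2 R3
  -- integral values
  obtain ⟨y₂, hy₂, -⟩ := S0944.result χ₂ t ht
  obtain ⟨y₃, hy₃, -⟩ := S0944.result χ₃ t ht
  obtain ⟨y₄, hy₄, -⟩ := S0944.result η₀ t ht
  obtain ⟨f₂, hf₂, hf₂'⟩ := isIrr_apply_one χ₂.2
  obtain ⟨f₃, hf₃, hf₃'⟩ := isIrr_apply_one χ₃.2
  obtain ⟨f₄, hf₄, hf₄'⟩ := isIrr_apply_one η₀.2
  have hη₀ne : (η₀ : G → ℂ) ≠ fun _ => 1 := by
    intro h
    have h1 : η₀ = χ₁ := Subtype.ext (h.trans hχ₁'.symm)
    exact (Set.disjoint_left.1 D.disj hχ₁) (h1 ▸ hη₀)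
  have k₂ : y₂ ≠ f₂ := by
    intro h
    apply hker χ₂ (hne1 χ₂ h21)
    rw [hy₂, hf₂', h]
    norm_cast
  have k₃ : y₃ ≠ f₃ := by
    intro h
    apply hker χ₃ (hne1 χ₃ h31)
    rw [hy₃, hf₃', h]
    norm_cast
  have k₄ : y₄ ≠ f₄ := by
    intro h
    apply hker η₀ hη₀ne
    rw [hy₄, hf₄', h]
    norm_cast
  have hδ' : -δ = 1 ∨ -δ = -1 := by
    rcases D.hδ with h | h <;> rw [h] <;> norm_num
  have e1 : (χ₁ : G → ℂ) 1 = 1 := by rw [hχ₁']
  have et : (χ₁ : G → ℂ) t = 1 := by rw [hχ₁']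
  have R1' : 1 + a χ₂ * f₂ + a χ₃ * f₃ + (-δ) * f₄ = (0 : ℤ) := by
    rw [hf₂', hf₃', hf₄', e1, ha1] at R1
    have : ((1 + a χ₂ * f₂ + a χ₃ * f₃ + (-δ) * f₄ : ℤ) : ℂ) = 0 := by
      push_cast
      linear_combination R1
    exact_mod_cast this
  have R2' : 1 + a χ₂ * y₂ + a χ₃ * y₃ + (-δ) * y₄ = (0 : ℤ) := by
    rw [hy₂, hy₃, hy₄, et, ha1] at R2
    have : ((1 + a χ₂ * y₂ + a χ₃ * y₃ + (-δ) * y₄ : ℤ) : ℂ) = 0 := by
      push_cast
      linear_combination R2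
    exact_mod_cast this
  have R3' : (1 : ℚ) + a χ₂ * (y₂ : ℚ) ^ 2 / f₂ + a χ₃ * (y₃ : ℚ) ^ 2 / f₃ +
      ((-δ : ℤ) : ℚ) * (y₄ : ℚ) ^ 2 / f₄ = 0 := by
    simp only [cc] at R3
    rw [hy₂, hy₃, hy₄, et, ha1, e1, hf₂', hf₃', hf₄'] at R3
    have : (((1 : ℚ) + a χ₂ * (y₂ : ℚ) ^ 2 / f₂ + a χ₃ * (y₃ : ℚ) ^ 2 / f₃ +
      ((-δ : ℤ) : ℚ) * (y₄ : ℚ) ^ 2 / f₄ : ℚ) : ℂ) = 0 := by
      push_cast
      linear_combination R3
    exact_mod_cast this
  obtain ⟨hcount, hsq⟩ := H659.Arith3.main (D.valX χ₂ hχ₂.1).1 (D.valX χ₃ hχ₃.1).1 hδ' hf₂ hf₃ hf₄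
    k₂ k₃ k₄ R1' R2' R3'
  constructor
  · have hset : Nat.card {χ : IrrCharacter G // χ ∈ X ∧ (χ : G → ℂ) ≠ (fun _ => 1) ∧ a χ = -1} =
        (if a χ₂ = -1 then 1 else 0) + (if a χ₃ = -1 then 1 else 0) := by
      have h1 : Nat.card {χ : IrrCharacter G // χ ∈ X ∧ (χ : G → ℂ) ≠ (fun _ => 1) ∧ a χ = -1} =
          (({χ₂, χ₃} : Finset (IrrCharacter G)).filter (fun χ => a χ = -1)).card := by
        rw [Nat.card_eq_fintype_card, Fintype.card_subtype]
        congr 1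
        ext χ
        simp only [Finset.mem_filter, Finset.mem_univ, true_and, Finset.mem_insert,
          Finset.mem_singleton]
        constructor
        · rintro ⟨h1, h2, h3⟩
          refine ⟨?_, h3⟩
          have h4 : χ ∈ X \ {χ₁} := ⟨h1, fun h => h2 (by rw [h]; exact hχ₁')⟩
          rw [hX'] at h4
          exact h4
        · rintro ⟨h1, h3⟩
          rcases h1 with rfl | rfl
          · exact ⟨hχ₂.1, hne1 _ h21, h3⟩
          · exact ⟨hχ₃.1, hne1 _ h31, h3⟩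
      rw [h1, Finset.card_filter, Finset.sum_insert (by rw [Finset.mem_singleton]; exact h23),
        Finset.sum_singleton]
    rw [hset, ← hcount]
    congr 1
    rcases D.hδ with h | h <;> rw [h] <;> norm_num
  · intro η hη
    have h1 : charDegree (η : G → ℂ) = f₄ :=
      charDegree_eq ((D.regY η hη η₀ hη₀ 1 one_not_dvd).trans hf₄')
    have h2 : ∏ᶠ χ ∈ {χ : IrrCharacter G | χ ∈ X ∧ (χ : G → ℂ) ≠ fun _ => 1},
          charDegree (χ : G → ℂ) = f₂ * f₃ := by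
      have h3 : {χ : IrrCharacter G | χ ∈ X ∧ (χ : G → ℂ) ≠ fun _ => 1} = {χ₂, χ₃} := by
        rw [← hX']
        ext χ
        constructor
        · rintro ⟨h1, h2⟩
          exact ⟨h1, fun h => h2 (by rw [h]; exact hχ₁')⟩
        · rintro ⟨h1, h2⟩
          exact ⟨h1, hne1 χ h2⟩
      rw [h3, finprod_mem_pair h23, charDegree_eq hf₂', charDegree_eq hf₃']
    rw [h1, h2]
    exact hsq

/-- Let p be a prime, M a maximal ideal of the algebraic integers containing p, and G a finite group with a nontrivial abelian Sylow p-subgroup P, N = N_G(P), C = C_G(P), such that N/C is cyclic of order 3, #P > 4, and C_G(y) ∩ N = C for every non-identity y ∈ P. Then the principal p-block is the disjoint union of a set X of exactly 3 characters containing the principal character and a set Y of (#P − 1)/3 characters, with signs a_χ = ±1 (χ ∈ X, a = 1 at the principal character) and δ = ±1 such that every χ ∈ X takes the value a_χ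 at every element whose p-part is a non-identity element of P, and there is a map ζ from the non-principal linear characters of P onto Y, constant on N-conjugacy classes, with ζ_ψ(z) = δ·Σ ψ'(y) over the N-orbit of ψ, for z with p-part y ≠ 1 in P. If moreover G has an involution lying in no proper normal subgroup of G, then exactly two of the three numbers −δ and a_χ (χ ∈ X non-principal) equal −1, and the product of the degrees of the two non-principal members of X and of any member of Y is a perfect square. -/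
theorem result {G : Type*} [Group G] [Finite G] (p : ℕ) [Fact p.Prime] (M : Ideal Cfsg.AlgInt) (hM : Cfsg.IsPModular p M) (P : Sylow p G) (hab : IsMulCommutative P) (hP1 : Nat.card P ≠ 1) (hCN : (Subgroup.centralizer ((P : Subgroup G) : Set G)).relIndex (Subgroup.normalizer ((P : Subgroup G) : Set G)) = 3) (hcyc : ∃ g : G, g ∈ Subgroup.normalizer ((P : Subgroup G) : Set G) ∧ Subgroup.centralizer ((P : Subgroup G) : Set G) ⊔ Subgroup.zpowers g = Subgroup.normalizer ((P : Subgroup G) : Set G)) (hm2 : 3 + 1 < Nat.card P) (hfrob : ∀ y : G, y ∈ (P : Subgroup G) → y ≠ 1 → Subgroup.centralizer ({y} : Set G) ⊓ Subgroup.normalizer ((P : Subgroup G) : Set G) = Subgroup.centralizer ((P : Subgroup G) : Set G)) : ∃ (X Y : Set (Cfsg.IrrCharacter G)), Cfsg.principalBlock M G = X ∪ Y ∧ Disjoint X Y ∧ Nat.card X = 3 ∧ Nat.card Y = (Nat.card P - 1) / 3 ∧ (∃ χ₁ ∈ X, (χ₁ : G → ℂ) = fun _ => 1) ∧ ∃ (a : Cfsg.IrrCharacter G → ℤ) (δ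 : ℤ) (ζ : (↥(P : Subgroup G) →* ℂˣ) → Cfsg.IrrCharacter G), (δ = 1 ∨ δ = -1) ∧ (∀ χ ∈ X, (a χ = 1 ∨ a χ = -1) ∧ ∀ z y : G, Cfsg.IsPPart p z y → y ∈ (P : Subgroup G) → y ≠ 1 → (χ : G → ℂ) z = (a χ : ℂ)) ∧ (∀ ψ : ↥(P : Subgroup G) →* ℂˣ, ψ ≠ 1 → ζ ψ ∈ Y) ∧ (∀ η ∈ Y, ∃ ψ : ↥(P : Subgroup G) →* ℂˣ, ψ ≠ 1 ∧ ζ ψ = η) ∧ (∀ ψ ψ' : ↥(P : Subgroup G) →* ℂˣ, ψ ≠ 1 → (∃ n : G, n ∈ Subgroup.normalizer ((P : Subgroup G) : Set G) ∧ ∀ w w' : ↥(P : Subgroup G), (w' : G) = n * w * n⁻¹ → ψ' w' = ψ w) → ζ ψ' = ζ ψ) ∧ (∀ ψ : ↥(P : Subgroup G) →* ℂˣ, ψ ≠ 1 → ∀ (z : G) (y : ↥(P : Subgroup G)), Cfsg.IsPPart p z (y : G) → (y : G) ≠ 1 → (ζ ψ : G → ℂ) z = (δ : ℂ) * ∑ᶠ ψ' ∈ {ψ' : ↥(P : Subgroup G) →* ℂˣ | ∃ n : G, n ∈ Subgroup.normalizer ((P : Subgroup G) : Set G) ∧ ∀ w w' : ↥(P : Subgroup G), (w' : G) = n * w * n⁻¹ → ψ' w' = ψ w}, ((ψ' y : ℂˣ) : ℂ)) ∧ ((∃ t : G, orderOf t = 2 ∧ ∀ K : Subgroup G, K.Normal → t ∈ K → K = ⊤) → Nat.card {χ :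 Cfsg.IrrCharacter G // χ ∈ X ∧ (χ : G → ℂ) ≠ (fun _ => 1) ∧ a χ = -1} + (if δ = 1 then 1 else 0) = 2 ∧ ∀ η ∈ Y, IsSquare (Cfsg.charDegree (η : G → ℂ) * ∏ᶠ χ ∈ {χ : Cfsg.IrrCharacter G | χ ∈ X ∧ (χ : G → ℂ) ≠ fun _ => 1}, Cfsg.charDegree (χ : G → ℂ))) := by
  have hyp : Hyp P := ⟨fun x hx y hy => congrArg Subtype.val
    (hab.is_comm.comm (⟨x, hx⟩ : (P : Subgroup G)) ⟨y, hy⟩), hCN, hfrob⟩
  obtain ⟨X, Y, a, δ, ζ, D⟩ := H659.Frob3Data.reduced M hM P hyp hm2 hcyc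
  refine ⟨X, Y, D.block, D.disj, D.cardX, D.cardY, D.one, a, δ, ζ, D.hδ, D.valX, D.memY,
    D.surjY, D.orbY, D.valY, ?_⟩
  rintro ⟨t, ht, hK⟩
  exact final hM hyp hm2 D t ht hK

end Cfsg.Agent.S4721
end
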