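import Cfsg.Statements.S4722
import Cfsg.Agent.Characters.Core
import Cfsg.Agent.Blocks.PPart
import Cfsg.Agent.Blocks.BlockKer
import Cfsg.Agent.Blocks.Basic
import Cfsg.Agent.S0840
import Cfsg.Agent.S0925
import Cfsg.Agent.S0938
import Cfsg.Agent.S0944
set_option linter.all false

set_option autoImplicit false
open Cfsg
open scoped ComplexConjugate

namespace Cfsg.Agent.S4722

open Cfsg.Agent.Characters

section aux

variable {G : Type*} [Group G] [Finite G]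

/-- An involution inverting `g` inverts its `p`-part. -/
theorem inv_pPart {p : ℕ} [Fact p.Prime] {g x s : G} (h : IsPPart p g x)
    (hs : s * g * s⁻¹ = g⁻¹) : s * x * s⁻¹ = x⁻¹ := by
  have h1 := Cfsg.Agent.Blocks.PPart.isPPart_conj h s
  rw [hs] at h1
  have h2 : IsPPart p g⁻¹ x⁻¹ := by
    obtain ⟨y, rfl, hc, ⟨k, hk⟩, hy⟩ := h
    refine ⟨y⁻¹, ?_, hc.inv_inv, ⟨k, by rw [orderOf_inv, hk]⟩, by rwa [orderOf_inv]⟩
    rw [← mul_inv_rev, hc.eq]
  exact Cfsg.Agent.Blocks.PPart.isPPart_unique h1 h2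

/-- The function whose multiplicities are `χ(t)² / χ(1)`. -/
theorem exists_fun (t : G) : ∃ ϑ : G → ℂ, IsClassFunction G ϑ ∧
    (∀ B : Set (IrrCharacter G), ∀ y : G, blockPart B ϑ y =
      ∑ᶠ χ ∈ B, ((χ : G → ℂ) t ^ 2 / (χ : G → ℂ) 1) * (χ : G → ℂ) y) ∧
    (∀ y : G, (∀ a b : G, IsConj t a → IsConj t b → a * b ≠ y⁻¹) → ϑ y = 0) := by
  classical
  have : Finite (IrrCharacter G) := Core.finite_irr
  have := Fintype.ofFinite (IrrCharacter G)
  have := Fintype.ofFinite G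
  refine ⟨∑ χ : IrrCharacter G, ((χ : G → ℂ) t ^ 2 / (χ : G → ℂ) 1) • (χ : G → ℂ), ?_, ?_, ?_⟩
  · intro g h
    rw [Finset.sum_apply, Finset.sum_apply]
    refine Finset.sum_congr rfl fun χ _ => ?_
    rw [Pi.smul_apply, Pi.smul_apply, Core.isIrr_isClassFunction χ.2 g h]
  · intro B y
    unfold blockPart
    refine finsum_mem_congr rfl fun χ _ => ?_
    congr 1
    have h1 := Core.classInner_sum_smul_irr (G := G)
      (fun χ : IrrCharacter G => (χ : G → ℂ) t ^ 2 / (χ : G → ℂ) 1) χ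
    convert h1
  · intro y hy
    have h0 := Cfsg.Agent.S0840.result t t y⁻¹
    have hemp : Nat.card {p : G × G // IsConj t p.1 ∧ IsConj t p.2 ∧ p.1 * p.2 = y⁻¹} = 0 := by
      rw [Nat.card_eq_zero]
      left
      refine ⟨fun p => ?_⟩
      exact hy _ _ p.2.1 p.2.2.1 p.2.2.2
    rw [hemp] at h0
    have hk : (Nat.card {x : G // IsConj t x} : ℂ) ≠ 0 := by
      have : Nonempty {x : G // IsConj t x} := ⟨⟨t, IsConj.refl t⟩⟩
      exact_mod_cast Nat.card_pos.ne'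
    have hG : (Nat.card G : ℂ) ≠ 0 := by exact_mod_cast Nat.card_pos.ne'
    rw [Nat.cast_zero, eq_comm, mul_eq_zero] at h0
    rcases h0 with h0 | h0
    · exfalso
      rw [div_eq_zero_iff] at h0
      rcases h0 with h0 | h0
      · rcases mul_eq_zero.1 h0 with h0 | h0 <;> exact hk h0
      · exact hG h0
    · rw [finsum_eq_sum_of_fintype] at h0
      rw [Finset.sum_apply, ← h0]
      refine Finset.sum_congr rfl fun χ _ => ?_
      rw [Pi.smul_apply, smul_eq_mul,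
        ← Core.isCharacter_apply_inv (Core.isIrr_isCharacter χ.2), inv_inv]
      ring

/-- Exchanging the two summations. -/
theorem swap (P : Subgroup G) (θ : ↥P → ℂ) (B : Set (IrrCharacter G)) (c : IrrCharacter G → ℂ)
    (h : ∀ y : ↥P, θ y⁻¹ ≠ 0 → ∑ᶠ χ ∈ B, c χ * (χ : G → ℂ) (y : G) = 0) :
    ∑ᶠ χ ∈ B, ((Nat.card ↥P : ℂ)⁻¹ * ∑ᶠ y : ↥P, (χ : G → ℂ) (y : G) * θ y⁻¹) * c χ = 0 := by
  classical
  have : Finite (IrrCharacter G) := Core.finite_irr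
  have := Fintype.ofFinite (IrrCharacter G)
  have := Fintype.ofFinite G
  have : Fintype P := Fintype.ofFinite _
  rw [finsum_mem_eq_finite_toFinset_sum _ (Set.toFinite B)]
  simp_rw [finsum_eq_sum_of_fintype]
  have h1 : ∀ χ : IrrCharacter G, ((Nat.card ↥P : ℂ)⁻¹ * ∑ y : ↥P, (χ : G → ℂ) (y : G) * θ y⁻¹) *
      c χ = (Nat.card ↥P : ℂ)⁻¹ * ∑ y : ↥P, θ y⁻¹ * (c χ * (χ : G → ℂ) (y : G)) := by
    intro χ
    rw [mul_assoc, Finset.sum_mul]
    congr 1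
    refine Finset.sum_congr rfl fun y _ => ?_
    ring
  rw [Finset.sum_congr rfl fun χ _ => h1 χ, ← Finset.mul_sum, Finset.sum_comm]
  rw [Finset.sum_eq_zero, mul_zero]
  intro y _
  rw [← Finset.mul_sum]
  by_cases hy : θ y⁻¹ = 0
  · rw [hy, zero_mul]
  · have := h y hy
    rw [finsum_mem_eq_finite_toFinset_sum _ (Set.toFinite B)] at this
    rw [this, mul_zero]

/-- The equality case of Cauchy–Schwarz used below. -/
theorem equal_ratios {ι : Type*} (s : Finset ι) (x r : ι → ℝ) (h0 : ∑ i ∈ s, x i = 0)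
    (h1 : ∑ i ∈ s, x i * r i = 0) (h2 : ∑ i ∈ s, x i * r i ^ 2 = 0)
    (hpos : ∀ i ∈ s, ∀ j ∈ s, 0 < x i → 0 < x j → i = j) :
    ∃ ρ : ℝ, ∀ i ∈ s, x i ≠ 0 → r i = ρ := by
  by_cases hex : ∃ i ∈ s, 0 < x i
  · obtain ⟨i₀, hi₀, hx₀⟩ := hex
    refine ⟨r i₀, fun i hi hxi => ?_⟩
    have h3 : ∑ i ∈ s, x i * (r i - r i₀) ^ 2 = 0 := by
      have : ∀ i ∈ s, x i * (r i - r i₀) ^ 2 =
          x i * r i ^ 2 - 2 * r i₀ * (x i * r i) + r i₀ ^ 2 * x i := by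
        intro i _
        ring
      rw [Finset.sum_congr rfl this, Finset.sum_add_distrib, Finset.sum_sub_distrib,
        ← Finset.mul_sum, ← Finset.mul_sum, h0, h1, h2]
      ring
    have h4 : ∀ i ∈ s, x i * (r i - r i₀) ^ 2 ≤ 0 := by
      intro i hi
      by_cases hii : 0 < x i
      · rw [hpos i hi i₀ hi₀ hii hx₀, sub_self]
        simp
      · push Not at hii
        exact mul_nonpos_of_nonpos_of_nonneg hii (sq_nonneg _)
    have h5 := (Finset.sum_eq_zero_iff_of_nonpos h4).1 h3 i hi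
    rcases mul_eq_zero.1 h5 with h6 | h6
    · exact absurd h6 hxi
    · exact sub_eq_zero.1 (pow_eq_zero_iff (two_ne_zero) |>.1 h6)
  · push Not at hex
    refine ⟨0, fun i hi hxi => absurd ?_ hxi⟩
    exact (Finset.sum_eq_zero_iff_of_nonpos hex).1 h0 i hi

end aux

/-- Let M be a maximal ideal of the algebraic integers containing 2, P a 2-subgroup of the finite group G, U a subset of P, and t an involution of G such that no element of U is inverted by any conjugate of t. Let θ be a generalized character of P vanishing outside U, and for χ in the principal 2-block B₀ put a_χ = #P⁻¹ Σ_{y ∈ P} χ(y) θ(y⁻¹). Then Σ_{χ ∈ B₀} a_χ χ(t)^2/χ(1) = 0, Σ_{χ ∈ B₀} a_χ χ(1) = 0 and Σ_{χ ∈ B₀} a_χ χ(t) = 0. If moreover #P⁻¹ Σ_{y ∈ P} θ(y) ≠ 0, then either at least two of the a_χ have positive real part and at least two have negative real part, or G has a proper normal subgroup containing O_2'(G) and t. -/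
theorem result {G : Type*} [Group G] [Finite G] (M : Ideal Cfsg.AlgInt) (hM : Cfsg.IsPModular 2 M) (P : Subgroup G) (hP : IsPGroup 2 P) (U : Set G) (hUP : U ⊆ (P : Set G)) (t : G) (ht : orderOf t = 2) (hinv : ∀ u ∈ U, ∀ g : G, (g * t * g⁻¹) * u * (g * t * g⁻¹)⁻¹ ≠ u⁻¹) (θ : ↥P → ℂ) (hθ : Cfsg.IsGeneralizedCharacter ↥P θ) (hθU : ∀ y : ↥P, (y : G) ∉ U → θ y = 0) : (∑ᶠ χ ∈ Cfsg.principalBlock M G, ((Nat.card ↥P : ℂ)⁻¹ * ∑ᶠ y : ↥P, (χ : G → ℂ) (y : G) * θ y⁻¹) * (χ : G → ℂ) t ^ 2 / (χ : G → ℂ) 1 = 0) ∧ (∑ᶠ χ ∈ Cfsg.principalBlock M G, ((Nat.card ↥P : ℂ)⁻¹ * ∑ᶠ y : ↥P, (χ : G → ℂ) (y : G) * θ y⁻¹) * (χ : G → ℂ) 1 = 0) ∧ (∑ᶠ χ ∈ Cfsg.principalBlock M G, ((Nat.card ↥P : ℂ)⁻¹ * ∑ᶠ y : ↥P, (χ : G → ℂ) (y : G) * θ y⁻¹) * (χ : G → ℂ) t = 0) ∧ ((Nat.card ↥P : ℂ)⁻¹ * ∑ᶠ y : ↥P, θ y ≠ 0 → (2 ≤ Nat.card {χ : Cfsg.IrrCharacter G // χ ∈ Cfsg.principalBlock M G ∧ 0 < (((Nat.card ↥P : ℂ)⁻¹ * ∑ᶠ y : ↥P, (χ : G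 → ℂ) (y : G) * θ y⁻¹)).re} ∧ 2 ≤ Nat.card {χ : Cfsg.IrrCharacter G // χ ∈ Cfsg.principalBlock M G ∧ (((Nat.card ↥P : ℂ)⁻¹ * ∑ᶠ y : ↥P, (χ : G → ℂ) (y : G) * θ y⁻¹)).re < 0}) ∨ ∃ K : Subgroup G, K.Normal ∧ K ≠ ⊤ ∧ Cfsg.pPrimeCore 2 G ≤ K ∧ t ∈ K) := by
  classical
  haveI : Fact (Nat.Prime 2) := ⟨Nat.prime_two⟩
  have hprime : M.IsPrime := hM.2.1.isPrime
  have hfin : Finite (IrrCharacter G) := Core.finite_irr
  have hft := Fintype.ofFinite (IrrCharacter G)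
  have hB : IsPBlock M (principalBlock M G) :=
    ⟨⟨fun _ => 1, Cfsg.Agent.Blocks.Basic.isIrrCharacter_one⟩, rfl⟩
  have ht2 : t * t = 1 := by rw [← pow_two, ← ht, pow_orderOf_eq_one]
  have htinv : t⁻¹ = t := inv_eq_of_mul_eq_one_left ht2
  have hyU : ∀ y : ↥P, θ y⁻¹ ≠ 0 → ((y : G))⁻¹ ∈ U := by
    intro y hy
    by_contra hcon
    exact hy (hθU _ (by simpa using hcon))
  have hyord : ∀ y : ↥P, ∃ k : ℕ, orderOf (y : G) = 2 ^ k := by
    intro y
    obtain ⟨k, hk⟩ := IsPGroup.iff_orderOf.1 hP y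
    exact ⟨k, by rw [Subgroup.orderOf_coe, hk]⟩
  -- no conjugate of `t` inverts `y`
  have hyinv : ∀ y : ↥P, θ y⁻¹ ≠ 0 → ∀ g : G, (g * t * g⁻¹) * (y : G) * (g * t * g⁻¹)⁻¹ ≠
      ((y : G))⁻¹ := by
    intro y hy g h
    apply hinv _ (hyU y hy) g
    rw [inv_inv]
    have := congrArg (fun z => z⁻¹) h
    simp only [inv_inv] at this
    calc (g * t * g⁻¹) * ((y : G))⁻¹ * (g * t * g⁻¹)⁻¹
        = ((g * t * g⁻¹) * (y : G) * (g * t * g⁻¹)⁻¹)⁻¹ := by group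
      _ = (y : G) := this
  obtain ⟨ϑ, hϑc, hϑB, hϑ0⟩ := exists_fun (G := G) t
  have C1 : ∑ᶠ χ ∈ Cfsg.principalBlock M G, ((Nat.card ↥P : ℂ)⁻¹ * ∑ᶠ y : ↥P, (χ : G → ℂ) (y : G) * θ y⁻¹) * ((χ : G → ℂ) t ^ 2 / (χ : G → ℂ) 1) = 0 := by
    refine swap P θ _ (fun χ => (χ : G → ℂ) t ^ 2 / (χ : G → ℂ) 1) fun y hy => ?_
    rw [← hϑB]
    refine (Cfsg.Agent.S0925.result 2 M hM).1 ϑ hϑc (y : G) (hyord y) ?_ _ hB (y : G) (y : G)
      (Cfsg.Agent.Blocks.PPart.isPPart_of_isPGroup (hyord y)) (IsConj.refl _)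
    intro u z huz hyz
    refine hϑ0 u ?_
    intro a b ha hb hab
    obtain ⟨g, rfl⟩ := isConj_iff.1 ha
    obtain ⟨g', rfl⟩ := isConj_iff.1 hb
    obtain ⟨c, hc⟩ := isConj_iff.1 hyz
    set s := g * t * g⁻¹ with hs
    set s' := g' * t * g'⁻¹ with hs'
    have hs2 : s * s = 1 := by
      rw [hs]
      calc g * t * g⁻¹ * (g * t * g⁻¹) = g * (t * t) * g⁻¹ := by group
        _ = 1 := by rw [ht2]; group
    have hs'2 : s' * s' = 1 := by
      rw [hs']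
      calc g' * t * g'⁻¹ * (g' * t * g'⁻¹) = g' * (t * t) * g'⁻¹ := by group
        _ = 1 := by rw [ht2]; group
    have hsi : s⁻¹ = s := inv_eq_of_mul_eq_one_left hs2
    have hs'i : s'⁻¹ = s' := inv_eq_of_mul_eq_one_left hs'2
    have hu : u = s' * s := by
      have := congrArg (fun z => z⁻¹) hab
      simp only [inv_inv, mul_inv_rev, hsi, hs'i] at this
      exact this.symm
    have hsu : s * u * s⁻¹ = u⁻¹ := by
      rw [← hab, hu, hsi]
      calc s * (s' * s) * s = s * s' * (s * s) := by group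
        _ = s * s' := by rw [hs2, mul_one]
    have hsz := inv_pPart huz hsu
    apply hyinv y hy (c⁻¹ * g)
    have e1 : c⁻¹ * g * t * (c⁻¹ * g)⁻¹ = c⁻¹ * s * c := by rw [hs]; group
    rw [e1]
    have e2 : (y : G) = c⁻¹ * z * c := by rw [← hc]; group
    rw [e2]
    calc c⁻¹ * s * c * (c⁻¹ * z * c) * (c⁻¹ * s * c)⁻¹ = c⁻¹ * (s * z * s⁻¹) * c := by group
      _ = c⁻¹ * z⁻¹ * c := by rw [hsz]
      _ = (c⁻¹ * z * c)⁻¹ := by group
  have C2 : ∑ᶠ χ ∈ Cfsg.principalBlock M G, ((Nat.card ↥P : ℂ)⁻¹ * ∑ᶠ y : ↥P, (χ : G → ℂ) (y : G) * θ y⁻¹) * (χ : G → ℂ) 1 = 0 := by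
    refine swap P θ _ (fun χ => (χ : G → ℂ) 1) fun y hy => ?_
    have h1 := (Cfsg.Agent.S0925.result 2 M hM).2 (y : G) 1 (y : G) 1
      (Cfsg.Agent.Blocks.PPart.isPPart_of_isPGroup (hyord y))
      (Cfsg.Agent.Blocks.PPart.isPPart_of_isPGroup ⟨0, by simp⟩) ?_ _ hB
    · rw [← h1]
      refine finsum_mem_congr rfl fun χ _ => ?_
      rw [inv_one, mul_comm]
    · intro h
      rw [isConj_one_left] at h
      apply hyinv y hy 1
      rw [h]
      group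
  have C3 : ∑ᶠ χ ∈ Cfsg.principalBlock M G, ((Nat.card ↥P : ℂ)⁻¹ * ∑ᶠ y : ↥P, (χ : G → ℂ) (y : G) * θ y⁻¹) * (χ : G → ℂ) t = 0 := by
    refine swap P θ _ (fun χ => (χ : G → ℂ) t) fun y hy => ?_
    have h1 := (Cfsg.Agent.S0925.result 2 M hM).2 (y : G) t (y : G) t
      (Cfsg.Agent.Blocks.PPart.isPPart_of_isPGroup (hyord y))
      (Cfsg.Agent.Blocks.PPart.isPPart_of_isPGroup ⟨1, by simpa using ht⟩) ?_ _ hB
    · rw [← h1]
      refine finsum_mem_congr rfl fun χ _ => ?_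
      rw [htinv, mul_comm]
    · intro h
      obtain ⟨c, hc⟩ := isConj_iff.1 h
      apply hyinv y hy c⁻¹
      have e1 : c⁻¹ * t * c⁻¹⁻¹ = (y : G) := by rw [← hc]; group
      rw [e1]
      have e2 : (y : G) * (y : G) = 1 := by
        rw [← e1]
        calc c⁻¹ * t * c⁻¹⁻¹ * (c⁻¹ * t * c⁻¹⁻¹) = c⁻¹ * (t * t) * c := by group
          _ = 1 := by rw [ht2]; group
      rw [e2, one_mul]
  refine ⟨?_, C2, C3, ?_⟩
  · rw [← C1]
    refine finsum_mem_congr rfl fun χ _ => ?_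
    ring
  intro hne
  by_cases hdich : (2 ≤ Nat.card {χ : Cfsg.IrrCharacter G // χ ∈ Cfsg.principalBlock M G ∧ 0 < (((Nat.card ↥P : ℂ)⁻¹ * ∑ᶠ y : ↥P, (χ : G → ℂ) (y : G) * θ y⁻¹)).re} ∧ 2 ≤ Nat.card {χ : Cfsg.IrrCharacter G // χ ∈ Cfsg.principalBlock M G ∧ (((Nat.card ↥P : ℂ)⁻¹ * ∑ᶠ y : ↥P, (χ : G → ℂ) (y : G) * θ y⁻¹)).re < 0})
  · exact Or.inl hdich
  right
  -- the integers `n χ`
  have hfP : Fintype ↥P := Fintype.ofFinite _
  have hint : ∀ χ : IrrCharacter G, ∃ n : ℤ,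
      (Nat.card ↥P : ℂ)⁻¹ * ∑ᶠ y : ↥P, (χ : G → ℂ) (y : G) * θ y⁻¹ = n := by
    intro χ
    obtain ⟨α, β, hα, hβ, rfl⟩ := hθ
    have hres : IsCharacter P ((χ : G → ℂ) ∘ P.subtype) :=
      Core.isCharacter_comp P.subtype (Core.isIrr_isCharacter χ.2)
    obtain ⟨n, hn⟩ := Core.classInner_isNat hres hα
    obtain ⟨m, hm⟩ := Core.classInner_isNat hres hβ
    refine ⟨(n : ℤ) - m, ?_⟩
    push_cast
    rw [← hn, ← hm, Core.classInner_def, Core.classInner_def, ← mul_sub,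
      ← Finset.sum_sub_distrib, finsum_eq_sum_of_fintype]
    congr 1
    refine Finset.sum_congr rfl fun y _ => ?_
    rw [Pi.sub_apply, Core.isCharacter_apply_inv hα, Core.isCharacter_apply_inv hβ, mul_sub]
    rfl
  choose n hn using hint
  have hval : ∀ χ : IrrCharacter G, ∃ v : ℤ, (χ : G → ℂ) t = v := fun χ => by
    obtain ⟨v, hv, -⟩ := Cfsg.Agent.S0944.result χ t ht
    exact ⟨v, hv⟩
  choose v hv using hval
  have hdeg : ∀ χ : IrrCharacter G, (χ : G → ℂ) 1 = (charDegree (χ : G → ℂ) : ℂ) := fun χ =>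
    Cfsg.Agent.Blocks.Basic.irr_one_eq_charDegree χ.2
  have hdpos : ∀ χ : IrrCharacter G, (0 : ℝ) < (charDegree (χ : G → ℂ) : ℝ) := fun χ => by
    exact_mod_cast Cfsg.Agent.Blocks.Basic.charDegree_pos χ.2
  set B := principalBlock M G with hBdef
  set S : Finset (IrrCharacter G) := (Set.toFinite B).toFinset with hS
  have hmS : ∀ χ, χ ∈ S ↔ χ ∈ B := fun χ => by rw [hS, Set.Finite.mem_toFinset]
  -- the three real relations
  have R0 : ∑ χ ∈ S, (n χ : ℝ) * (charDegree (χ : G → ℂ) : ℝ) = 0 := by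
    have h := C2
    rw [finsum_mem_eq_finite_toFinset_sum _ (Set.toFinite B)] at h
    have h' : ((∑ χ ∈ S, (n χ : ℝ) * (charDegree (χ : G → ℂ) : ℝ) : ℝ) : ℂ) = 0 := by
      rw [← h]
      push_cast
      refine Finset.sum_congr rfl fun χ _ => ?_
      rw [hn, hdeg]
    exact_mod_cast h'
  have R1 : ∑ χ ∈ S, (n χ : ℝ) * (charDegree (χ : G → ℂ) : ℝ) *
      ((v χ : ℝ) / (charDegree (χ : G → ℂ) : ℝ)) = 0 := by
    have h := C3
    rw [finsum_mem_eq_finite_toFinset_sum _ (Set.toFinite B)] at h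
    have h' : ((∑ χ ∈ S, (n χ : ℝ) * (v χ : ℝ) : ℝ) : ℂ) = 0 := by
      rw [← h]
      push_cast
      refine Finset.sum_congr rfl fun χ _ => ?_
      rw [hn, hv]
    have h'' : ∑ χ ∈ S, (n χ : ℝ) * (v χ : ℝ) = 0 := by exact_mod_cast h'
    rw [← h'']
    refine Finset.sum_congr rfl fun χ _ => ?_
    have := (hdpos χ).ne'
    field_simp
  have R2 : ∑ χ ∈ S, (n χ : ℝ) * (charDegree (χ : G → ℂ) : ℝ) *
      ((v χ : ℝ) / (charDegree (χ : G → ℂ) : ℝ)) ^ 2 = 0 := by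
    have h := C1
    rw [finsum_mem_eq_finite_toFinset_sum _ (Set.toFinite B)] at h
    have h' : ((∑ χ ∈ S, (n χ : ℝ) * ((v χ : ℝ) ^ 2 / (charDegree (χ : G → ℂ) : ℝ)) : ℝ) : ℂ)
        = 0 := by
      rw [← h]
      push_cast
      refine Finset.sum_congr rfl fun χ _ => ?_
      rw [hn, hv, hdeg]
    have h'' : ∑ χ ∈ S, (n χ : ℝ) * ((v χ : ℝ) ^ 2 / (charDegree (χ : G → ℂ) : ℝ)) = 0 := by
      exact_mod_cast h'
    rw [← h'']
    refine Finset.sum_congr rfl fun χ _ => ?_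
    have := (hdpos χ).ne'
    field_simp
  have hre : ∀ χ : IrrCharacter G, (((Nat.card ↥P : ℂ)⁻¹ *
      ∑ᶠ y : ↥P, (χ : G → ℂ) (y : G) * θ y⁻¹)).re = (n χ : ℝ) := fun χ => by
    rw [hn χ]
    simp
  -- all ratios are equal
  have hrat : ∃ ρ : ℝ, ∀ χ ∈ S, (n χ : ℝ) * (charDegree (χ : G → ℂ) : ℝ) ≠ 0 →
      (v χ : ℝ) / (charDegree (χ : G → ℂ) : ℝ) = ρ := by
    rw [not_and_or, not_le, not_le] at hdich
    rcases hdich with hd | hd
    · refine equal_ratios S _ _ R0 R1 R2 ?_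
      intro χ hχ ψ hψ h1 h2
      have h1' : 0 < (n χ : ℝ) := (mul_pos_iff_of_pos_right (hdpos χ)).1 h1
      have h2' : 0 < (n ψ : ℝ) := (mul_pos_iff_of_pos_right (hdpos ψ)).1 h2
      by_contra hcon
      have hlt : 1 < Nat.card {χ : Cfsg.IrrCharacter G // χ ∈ B ∧
          0 < (((Nat.card ↥P : ℂ)⁻¹ * ∑ᶠ y : ↥P, (χ : G → ℂ) (y : G) * θ y⁻¹)).re} := by
        rw [Finite.one_lt_card_iff_nontrivial]
        exact ⟨⟨⟨χ, (hmS χ).1 hχ, by rw [hre]; exact h1'⟩, ⟨ψ, (hmS ψ).1 hψ, by rw [hre]; exact h2'⟩,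
          fun h => hcon (congrArg Subtype.val h)⟩⟩
      omega
    · have N0 : ∑ χ ∈ S, -((n χ : ℝ) * (charDegree (χ : G → ℂ) : ℝ)) = 0 := by
        rw [Finset.sum_neg_distrib, R0, neg_zero]
      have N1 : ∑ χ ∈ S, -((n χ : ℝ) * (charDegree (χ : G → ℂ) : ℝ)) *
          ((v χ : ℝ) / (charDegree (χ : G → ℂ) : ℝ)) = 0 := by
        simp_rw [neg_mul]
        rw [Finset.sum_neg_distrib, R1, neg_zero]
      have N2 : ∑ χ ∈ S, -((n χ : ℝ) * (charDegree (χ : G → ℂ) : ℝ)) *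
          ((v χ : ℝ) / (charDegree (χ : G → ℂ) : ℝ)) ^ 2 = 0 := by
        simp_rw [neg_mul]
        rw [Finset.sum_neg_distrib, R2, neg_zero]
      obtain ⟨ρ, hρ⟩ := equal_ratios S _ _ N0 N1 N2 (by
        intro χ hχ ψ hψ h1 h2
        have h1' : (n χ : ℝ) < 0 := by
          by_contra hc
          push Not at hc
          have := mul_nonneg hc (hdpos χ).le
          linarith
        have h2' : (n ψ : ℝ) < 0 := by
          by_contra hc
          push Not at hc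
          have := mul_nonneg hc (hdpos ψ).le
          linarith
        by_contra hcon
        have hlt : 1 < Nat.card {χ : Cfsg.IrrCharacter G // χ ∈ B ∧
            (((Nat.card ↥P : ℂ)⁻¹ * ∑ᶠ y : ↥P, (χ : G → ℂ) (y : G) * θ y⁻¹)).re < 0} := by
          rw [Finite.one_lt_card_iff_nontrivial]
          exact ⟨⟨⟨χ, (hmS χ).1 hχ, by rw [hre]; exact h1'⟩,
            ⟨ψ, (hmS ψ).1 hψ, by rw [hre]; exact h2'⟩,
            fun h => hcon (congrArg Subtype.val h)⟩⟩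
        omega)
      exact ⟨ρ, fun χ hχ h => hρ χ hχ (neg_ne_zero.2 h)⟩
  obtain ⟨ρ, hρ⟩ := hrat
  -- the principal character
  set one : IrrCharacter G := ⟨fun _ => 1, Cfsg.Agent.Blocks.Basic.isIrrCharacter_one⟩ with hone
  have honeB : one ∈ B := Cfsg.Agent.Blocks.Basic.mem_blockOf_self one
  have hn1 : n one ≠ 0 := by
    intro h0
    apply hne
    have h1 := hn one
    rw [h0, Int.cast_zero] at h1
    rw [← h1]
    congr 1
    rw [finsum_eq_sum_of_fintype, finsum_eq_sum_of_fintype, ← Equiv.sum_comp (Equiv.inv ↥P)]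
    refine Finset.sum_congr rfl fun y _ => ?_
    rw [Equiv.inv_apply, hone]
    simp
  have hdone : charDegree (one : G → ℂ) = 1 :=
    Cfsg.Agent.Blocks.Basic.charDegree_of_eq (by rw [hone]; simp)
  have hvone : v one = 1 := by
    have h1 := hv one
    have h2 : (one : G → ℂ) t = 1 := rfl
    rw [h2] at h1
    exact_mod_cast h1.symm
  have hρ1 : ρ = 1 := by
    have h1 := hρ one ((hmS one).2 honeB) (by
      rw [hdone, Nat.cast_one, mul_one]
      exact_mod_cast hn1)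
    rw [← h1, hvone, hdone]
    norm_num
  -- another character with nonzero multiplicity
  obtain ⟨χ, hχB, hχ1, hχn⟩ : ∃ χ ∈ B, χ ≠ one ∧ n χ ≠ 0 := by
    by_contra hcon
    push Not at hcon
    have h1 : ∑ χ ∈ S, (n χ : ℝ) * (charDegree (χ : G → ℂ) : ℝ) = (n one : ℝ) := by
      rw [Finset.sum_eq_single one]
      · rw [hdone, Nat.cast_one, mul_one]
      · intro χ hχ hne1
        rw [hcon χ ((hmS χ).1 hχ) hne1]
        simp
      · intro h
        exact absurd ((hmS one).2 honeB) h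
    rw [R0] at h1
    exact hn1 (by exact_mod_cast h1.symm)
  have hχt : (χ : G → ℂ) t = (χ : G → ℂ) 1 := by
    have h1 := hρ χ ((hmS χ).2 hχB) (mul_ne_zero (by exact_mod_cast hχn) (hdpos χ).ne')
    rw [hρ1, div_eq_one_iff_eq (hdpos χ).ne'] at h1
    rw [hv, hdeg]
    exact_mod_cast h1
  obtain ⟨K, hKn, hK⟩ := Cfsg.Agent.Blocks.BlockKer.exists_kernel χ.2
  refine ⟨K, hKn, ?_, ?_, (hK t).2 hχt⟩
  · rintro rfl
    apply hχ1
    -- a constant irreducible character is principal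
    have hconst : ∀ g : G, (χ : G → ℂ) g = (χ : G → ℂ) 1 := fun g => (hK g).1 (Subgroup.mem_top g)
    have := Fintype.ofFinite G
    by_contra hcon
    have h1 := Core.classInner_irr_ne χ.2 one.2 (fun h => hcon (Subtype.ext h))
    rw [Core.classInner_def] at h1
    have h2 : ∑ g : G, (χ : G → ℂ) g * conj ((one : G → ℂ) g) =
        (Nat.card G : ℂ) * (χ : G → ℂ) 1 := by
      rw [Finset.sum_congr rfl fun g _ => by
        rw [hconst g, show (one : G → ℂ) g = 1 from rfl, map_one, mul_one]]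
      rw [Finset.sum_const, nsmul_eq_mul, Nat.card_eq_fintype_card, Finset.card_univ]
    rw [h2, inv_mul_cancel_left₀ (by exact_mod_cast Nat.card_pos.ne')] at h1
    exact Cfsg.Agent.Blocks.Basic.irr_one_ne_zero χ.2 h1
  · refine sSup_le ?_
    rintro N ⟨hNn, hNc⟩
    intro g hg
    rw [hK]
    obtain ⟨K', -, hK'k, -, -, hK'⟩ := Cfsg.Agent.S0938.result 2 M hM B hB one honeB
    have hNd : ¬ 2 ∣ Nat.card N := by
      intro h
      have h3 := Nat.Coprime.eq_one_of_dvd hNc.symm h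
      omega
    have h4 := hK' N hNn hNd (fun g _ => rfl) hg
    have h5 : g ∈ blockKer B := by
      rw [← hK'k]
      exact h4
    exact h5 χ hχB

end Cfsg.Agent.S4722
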