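-- Statement S4726 (Cfsg.blk7_induced_block_defect_groups_nested_when_centralizer_inside).
import Cfsg.Agent.H662.IndLocal
import Cfsg.Agent.Blocks.Fong
import Cfsg.Agent.Blocks.Over
import Cfsg.Agent.S0913
import Cfsg.Agent.S0964
import Cfsg.Agent.S0971
import Cfsg.Statements.S4726
set_option linter.all false

-- part: H661/CentDefect
section
/-!
# Defect groups and normal subgroups

* `inf_le_of_unique_cover`: if the block `B` of `G` is the only block covering the block `b` of the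
  normal subgroup `N`, then `D ∩ N` is contained in a conjugate of a defect group of `b`, for
  every defect group `D` of `B`.
* `centralizer_inf_le`: if `Q` is a normal `p`-subgroup of `G` and the block `b` of `Q C_G(Q)` with
  defect group `Q` induces `B`, then `C_D(Q) ≤ Q` for every defect group `D` of `B`.
* `exists_chain`: if the block `b` of `H` with defect group `D₀` induces `B` and `C_G(D₀) ≤ H`, then
  `B` has a defect group `D ≥ D₀` with `Z(D) ≤ D₀`.
-/

set_option autoImplicit false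

open Cfsg

namespace Cfsg.Agent.H661

open Cfsg.Agent.Blocks.Local Cfsg.Agent.Blocks.Basic
open Cfsg.Agent.Blocks.Fong (cj cj_apply cj_cj cj_one lyingOver mem_lyingOver exists_constituent
  blockCoeff_lyingOver exists_block_of_blockCoeff lideal_zero)
open Cfsg.Agent.H662
open scoped ComplexConjugate

section Cover

variable {G : Type*} [Group G] [Fintype G] {p : ℕ} [Fact p.Prime] {M : Ideal AlgInt}

omit [Fintype G] in
theorem classInner_cj (N : Subgroup G) [hN : N.Normal] [Fintype N] (χ : IrrCharacter G)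
    (ψ : IrrCharacter N) (g : G) :
    classInner (fun n : N => (χ : G → ℂ) n) (cj N g ψ : N → ℂ) =
      classInner (fun n : N => (χ : G → ℂ) n) (ψ : N → ℂ) := by
  rw [classInner_def, classInner_def]
  congr 1
  refine Fintype.sum_equiv (MulAut.conjNormal (H := N) g).toEquiv _ _ fun n => ?_
  rw [cj_apply]
  congr 1
  change (χ : G → ℂ) n = (χ : G → ℂ) ((MulAut.conjNormal g n : N) : G)
  rw [MulAut.conjNormal_apply]
  exact (irr_conj χ.2 _ _).symm

theorem inf_le_of_unique_cover (hM : IsPModular p M) (N : Subgroup G) [hN : N.Normal] [Fintype N]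
    {b : Set (IrrCharacter N)} (hb : IsPBlock M b) {B : Set (IrrCharacter G)}
    (hB : IsPBlock M B)
    (hun : ∀ χ : IrrCharacter G,
      (∃ θ ∈ b, classInner (fun n : N => (χ : G → ℂ) n) (θ : N → ℂ) ≠ 0) → χ ∈ B)
    {D₀ : Subgroup N} (hD₀ : IsDefectGroup p M b D₀) {D : Subgroup G}
    (hD : IsDefectGroup p M B D) :
    ∃ g : G, D ⊓ N ≤ (D₀.map N.subtype).map (MulAut.conj g).toMonoidHom := by
  classical
  have hMp : M.IsPrime := hM.2.1.isPrime
  obtain ⟨θ₀, hθ₀⟩ := isPBlock_nonempty hb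
  obtain ⟨χ₀, hχ₀⟩ := Cfsg.Agent.Blocks.Over.exists_over N θ₀
  have hχ₀B : χ₀ ∈ B := hun χ₀ ⟨θ₀, hθ₀, hχ₀⟩
  -- the union of the conjugates of `b`
  obtain ⟨b', hb'⟩ : ∃ b' : Set (IrrCharacter N), ∀ ψ, ψ ∈ b' ↔ ∃ g : G, cj N g ψ ∈ b :=
    ⟨{ψ | ∃ g : G, cj N g ψ ∈ b}, fun _ => Iff.rfl⟩
  have hcl0 : ∀ χ ∈ B, ∀ ψ : IrrCharacter N,
      classInner (fun n : N => (χ : G → ℂ) n) (ψ : N → ℂ) ≠ 0 → ψ ∈ b' := by
    intro χ hχ ψ hψ
    obtain ⟨g, θ', hθ', h⟩ := Cfsg.Agent.S0964.result p M hM N B hB b hb χ₀ hχ₀B θ₀ hθ₀ hχ₀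
      χ hχ ψ hψ
    refine (hb' ψ).2 ⟨g⁻¹, ?_⟩
    have h1 : ψ = cj N g θ' := by
      apply Subtype.ext
      funext n
      rw [h n, cj_apply]
      rfl
    rw [h1, cj_cj, mul_inv_cancel, cj_one]
    exact hθ'
  have hinv : ∀ (g : G) (θ : IrrCharacter N), θ ∈ b' → cj N g θ ∈ b' := by
    intro g θ hθ
    obtain ⟨h, hh⟩ := (hb' θ).1 hθ
    refine (hb' _).2 ⟨g⁻¹ * h, ?_⟩
    rw [cj_cj, mul_inv_cancel_left]
    exact hh
  have hlo : lyingOver N b' = B := by
    ext χ
    constructor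
    · rintro ⟨ψ, hψ, hne⟩
      obtain ⟨g, hg⟩ := (hb' ψ).1 hψ
      refine hun χ ⟨_, hg, ?_⟩
      rw [classInner_cj]
      exact hne
    · intro hχ
      obtain ⟨ψ, hψ⟩ := exists_constituent N χ
      exact ⟨ψ, hcl0 χ hχ ψ hψ, hψ⟩
  have hcl : ∀ χ ∈ lyingOver N b', ∀ ψ : IrrCharacter N,
      classInner (fun n : N => (χ : G → ℂ) n) (ψ : N → ℂ) ≠ 0 → ψ ∈ b' := by
    rw [hlo]
    exact hcl0
  -- a defect class of `B`
  rw [isDefectGroup_iff] at hD
  obtain ⟨y, hy, hDy⟩ := hD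
  have hcoef := hy.2.1
  rw [← hlo, blockCoeff_lyingOver N b' hinv hcl] at hcoef
  by_cases hyN : y ∈ N
  swap
  · rw [dif_neg hyN] at hcoef
    exact absurd memLocalIdeal_zero hcoef
  rw [dif_pos hyN] at hcoef
  have hA : ∀ χ ∈ b', blockOf M (χ : N → ℂ) ⊆ b' := by
    intro χ hχ ψ hψ
    obtain ⟨g, hg⟩ := (hb' χ).1 hχ
    refine (hb' ψ).2 ⟨g, ?_⟩
    refine isPBlock_mem_of_sameBlock hb hg ?_
    have h1 := (sameBlock_tr (M := M) (MulAut.conjNormal (H := N) g).symm χ ψ).2 hψ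
    exact h1
  obtain ⟨ψ, hψ, hψc⟩ := exists_block_of_blockCoeff hMp b' hA ⟨y, hyN⟩ hcoef
  obtain ⟨g, hg⟩ := (hb' ψ).1 hψ
  -- transport by the automorphism `n ↦ g⁻¹ n g`
  obtain ⟨e, he⟩ : ∃ e : N ≃* N, e = (MulAut.conjNormal (H := N) g).symm := ⟨_, rfl⟩
  have heN : ∀ n : N, ((e n : N) : G) = g⁻¹ * (n : G) * g := by
    intro n
    rw [he]
    exact MulAut.conjNormal_symm_apply g n
  have hbe : b = trB e (blockOf M (ψ : N → ℂ)) := by
    rw [trB_blockOf]
    have h1 : tr e ψ = cj N g ψ := by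
      rw [he]
      rfl
    rw [h1]
    exact isPBlock_eq_blockOf hb hg
  have hce : ¬ MemLocalIdeal M (blockCoeff b (e ⟨y, hyN⟩)) := by
    rw [hbe, blockCoeff_trB]
    exact hψc
  -- min-max for `b`
  obtain ⟨x0, hx0, P, hP⟩ := hD₀
  obtain ⟨x, Q, hxQ⟩ := (Cfsg.Agent.S0911.result p M hM b hb x0 hx0 P (e ⟨y, hyN⟩)).1
    (Cfsg.Agent.S0913.result p M hM b hb _) hce
  rw [← hP] at hxQ
  -- `D ∩ N`, transported by `e`
  have hDp := isPGroup_of_isSylowCentralizer hDy
  have hDC := le_centralizer_of_isSylowCentralizer hDy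
  have hE : IsPGroup p ((D.subgroupOf N).map e.toMonoidHom) :=
    (hDp.comap_of_injective N.subtype N.subtype_injective).map _
  have hEC : (D.subgroupOf N).map e.toMonoidHom ≤ Subgroup.centralizer ({e ⟨y, hyN⟩} : Set N) := by
    rw [← map_centralizer_singleton]
    refine Subgroup.map_mono fun n hn => ?_
    rw [Subgroup.mem_centralizer_singleton_iff]
    apply Subtype.ext
    exact Subgroup.mem_centralizer_singleton_iff.1 (hDC hn)
  obtain ⟨E, hE1, hE2⟩ := exists_isSylowCentralizer hE hEC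
  obtain ⟨c, -, hc⟩ := isSylowCentralizer_conj_of_isConj (p := p) (g := e ⟨y, hyN⟩)
    (h := e ⟨y, hyN⟩) ⟨Q, rfl⟩ hE1 (IsConj.refl _)
  have hfin : (D.subgroupOf N).map e.toMonoidHom ≤ D₀.map (MulAut.conj (c * x)).toMonoidHom := by
    refine hE2.trans ?_
    rw [hc, ← map_conj_map_conj]
    exact Subgroup.map_mono hxQ
  refine ⟨g * ((c * x : N) : G), ?_⟩
  rintro z ⟨hzD, hzN⟩
  obtain ⟨d, hd, hdz⟩ := hfin ⟨⟨z, hzN⟩, hzD, rfl⟩
  refine ⟨(d : G), ⟨d, hd, rfl⟩, ?_⟩
  have h1 : ((c * x : N) : G) * (d : G) * ((c * x : N) : G)⁻¹ = g⁻¹ * z * g := by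
    have h2 := congrArg (Subtype.val : N → G) hdz
    have h3 : (((e.toMonoidHom ⟨z, hzN⟩) : N) : G) = g⁻¹ * z * g := heN ⟨z, hzN⟩
    rw [h3] at h2
    rw [← h2]
    rfl
  change (g * ((c * x : N) : G)) * (d : G) * (g * ((c * x : N) : G))⁻¹ = z
  have h4 : (g * ((c * x : N) : G)) * (d : G) * (g * ((c * x : N) : G))⁻¹ =
      g * (((c * x : N) : G) * (d : G) * ((c * x : N) : G)⁻¹) * g⁻¹ := by
    rw [mul_inv_rev]
    simp only [mul_assoc]
  rw [h4, h1]
  group

/-- If `Q` is a normal `p`-subgroup of `G`, `K = Q C_G(Q)`, `b` is a block of `K` with defect group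
contained in `Q`, and `b` induces `B`, then `D ∩ K ≤ Q` for every defect group `D` of `B`. -/
theorem inf_le_of_induced (hM : IsPModular p M) (Q : Subgroup G) [hQn : Q.Normal]
    (hQ : IsPGroup p Q) {K : Subgroup G} (hK : K = Q ⊔ Subgroup.centralizer (Q : Set G))
    {b : Set (IrrCharacter K)} {B : Set (IrrCharacter G)} (h : IsInducedBlock M K b B)
    {D₀ : Subgroup K} (hD₀ : IsDefectGroup p M b D₀) (hD₀Q : D₀.map K.subtype ≤ Q)
    {D : Subgroup G} (hD : IsDefectGroup p M B D) : D ⊓ K ≤ Q := by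
  classical
  subst hK
  have hMp : M.IsPrime := hM.2.1.isPrime
  have hCn : (Subgroup.centralizer (Q : Set G)).Normal := Subgroup.normal_centralizer
  have hNn : (Q ⊔ Subgroup.centralizer (Q : Set G)).Normal := Subgroup.sup_normal _ _
  have := Fintype.ofFinite ↥(Q ⊔ Subgroup.centralizer (Q : Set G))
  obtain ⟨g, hg⟩ := inf_le_of_unique_cover hM (Q ⊔ Subgroup.centralizer (Q : Set G)) h.1 h.2.1
    (fun χ hχ => by
      have h1 := (Cfsg.Agent.S0971.result p M hM Q hQ b h.1).2 (blockOf M (χ : G → ℂ)) ⟨χ, rfl⟩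
        ⟨χ, mem_blockOf_self χ, hχ⟩
      rw [inducedBlock_unique h h1]
      exact mem_blockOf_self χ) hD₀ hD
  refine hg.trans ?_
  rintro _ ⟨z, hz, rfl⟩
  exact hQn.conj_mem z (hD₀Q hz) g

end Cover

section Chain

variable {G : Type*} [Group G] [Finite G] {p : ℕ} [Fact p.Prime] {M : Ideal AlgInt}

/-- The chain argument. -/
theorem exists_chain_aux (hM : IsPModular p M) {B : Set (IrrCharacter G)} :
    ∀ (n : ℕ) (Q : Subgroup G)
      (b : Set (IrrCharacter ↥(Q ⊔ Subgroup.centralizer (Q : Set G)))),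
      IsPGroup p Q → IsInducedBlock M (Q ⊔ Subgroup.centralizer (Q : Set G)) b B →
      IsDefectGroup p M b (Q.subgroupOf (Q ⊔ Subgroup.centralizer (Q : Set G))) →
      Nat.card G - Nat.card Q = n →
      ∃ D : Subgroup G, IsDefectGroup p M B D ∧ Q ≤ D ∧ ∀ z ∈ D, (∀ w ∈ D, z * w = w * z) → z ∈ Q := by
  have hMp : M.IsPrime := hM.2.1.isPrime
  intro n
  induction n using Nat.strong_induction_on with
  | _ n ih =>
    intro Q b hQp hbB hbD hn
    obtain ⟨N, hN⟩ : ∃ N : Subgroup G, N = Subgroup.normalizer (Q : Set G) := ⟨_, rfl⟩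
    have hQN : Q ≤ N := hN ▸ Subgroup.le_normalizer
    have hCN : Subgroup.centralizer (Q : Set G) ≤ N := by
      rw [hN]
      exact Subgroup.centralizer_le_normalizer _
    have hKN : Q ⊔ Subgroup.centralizer (Q : Set G) ≤ N := sup_le hQN hCN
    obtain ⟨f, hf, hfB⟩ := exists_in_overgroup hM hQp le_sup_left le_sup_right
      (hKN.trans hN.le) hKN hbB.1
    have hfB := hfB B hbB
    obtain ⟨R, hR⟩ := exists_defectGroup hM hf.2.1
    have hQR := le_defectGroup_of_normal hM hQp hN.le hf.2.1 hR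
    by_cases hRQ : R = Q.subgroupOf N
    · subst hN
      rw [hRQ] at hR
      obtain ⟨B', -, hB'Q, hind⟩ := (Cfsg.Agent.S0920.result p M hM Q hQp).1 f hf.2.1 hR
      have hBB' : B' = B := inducedBlock_unique hind hfB
      rw [hBB'] at hB'Q
      exact ⟨Q, hB'Q, le_refl _, fun z hz _ => hz⟩
    · obtain ⟨R', hR'⟩ : ∃ R' : Subgroup G, R.map N.subtype = R' := ⟨_, rfl⟩
      have hQR' : Q ≤ R' := by
        intro x hx
        rw [← hR']
        exact ⟨⟨x, hQN hx⟩, hQR (show (⟨x, hQN hx⟩ : N) ∈ Q.subgroupOf N from hx), rfl⟩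
      have hCR : Subgroup.centralizer (R' : Set G) ≤ Subgroup.centralizer (Q : Set G) :=
        Subgroup.centralizer_le hQR'
      have hR'p : IsPGroup p R' := hR' ▸ (isDefectGroup_isPGroup hR).map N.subtype
      have hR'N : R' ≤ N := hR' ▸ Subgroup.map_subtype_le R
      obtain ⟨b', hb', hb'D⟩ := exists_root hM hf.2.1 hR hR' (hCR.trans hCN)
      have hK'N : R' ⊔ Subgroup.centralizer (R' : Set G) ≤ N := sup_le hR'N (hCR.trans hCN)
      have hb'B : IsInducedBlock M _ b' B := trans_in hK'N hb' hfB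
      have hcardR : Nat.card R' = Nat.card R := by
        rw [← hR']
        exact Nat.card_congr (R.equivMapOfInjective N.subtype N.subtype_injective).symm.toEquiv
      have hcardQ : Nat.card (Q.subgroupOf N) = Nat.card Q :=
        Nat.card_congr (Subgroup.subgroupOfEquivOfLe hQN).toEquiv
      have hlt : Nat.card Q < Nat.card R := by
        rw [← hcardQ]
        refine lt_of_le_of_ne (Nat.le_of_dvd Nat.card_pos (Subgroup.card_dvd_of_le hQR)) ?_
        intro h
        exact hRQ (Subgroup.eq_of_le_of_card_ge hQR h.ge).symm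
      have hRle : Nat.card R' ≤ Nat.card G :=
        Nat.le_of_dvd Nat.card_pos (Subgroup.card_subgroup_dvd_card R')
      obtain ⟨D, hD, hRD, hDz⟩ := ih (Nat.card G - Nat.card R') (by omega) R' b' hR'p hb'B hb'D rfl
      refine ⟨D, hD, hQR'.trans hRD, fun z hz hzc => ?_⟩
      -- `z ∈ Z(D) ≤ R'` centralizes `Q`
      have hzR' : z ∈ R' := hDz z hz hzc
      have hzC : z ∈ Subgroup.centralizer (Q : Set G) := by
        rw [Subgroup.mem_centralizer_iff]
        intro w hw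
        exact (hzc w (hRD (hQR' hw))).symm
      -- `R ∩ K ≤ Q` inside `N`
      have := Fintype.ofFinite N
      have hQNn : (Q.subgroupOf N).Normal := by
        refine ⟨fun x hx g => ?_⟩
        rw [Subgroup.mem_subgroupOf] at hx ⊢
        exact (Subgroup.mem_normalizer_iff.1 (hN ▸ g.2) _).1 hx
      have hQNp : IsPGroup p (Q.subgroupOf N) := hQp.comap_of_injective N.subtype N.subtype_injective
      have hKeq : (Q ⊔ Subgroup.centralizer (Q : Set G)).subgroupOf N =
          Q.subgroupOf N ⊔ Subgroup.centralizer ((Q.subgroupOf N : Subgroup N) : Set N) := by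
        apply Subgroup.map_injective N.subtype_injective
        have h1 : (Q.subgroupOf N).map N.subtype = Q := by
          rw [Subgroup.subgroupOf_map_subtype, inf_eq_left.2 hQN]
        rw [Subgroup.map_sup, Subgroup.subgroupOf_map_subtype, inf_eq_left.2 hKN,
          map_centralizer_eq (Q.subgroupOf N) (by rw [h1]; exact hCN), h1]
      have hfK := (isInducedBlockIn_iff hKN).1 hf
      have hDb := isDefectGroup_trB (eIn hKN).symm hbD
      have h2 := inf_le_of_induced hM (Q.subgroupOf N) hQNp hKeq hfK hDb (by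
        rintro _ ⟨_, ⟨x, hx, rfl⟩, rfl⟩
        exact hx) hR
      have hzN : z ∈ N := hR'N hzR'
      have hzR : (⟨z, hzN⟩ : N) ∈ R := by
        rw [← hR'] at hzR'
        obtain ⟨w, hw, hwz⟩ := hzR'
        have h3 : (⟨z, hzN⟩ : N) = w := Subtype.ext hwz.symm
        rw [h3]
        exact hw
      exact h2 ⟨hzR, show z ∈ Q ⊔ Subgroup.centralizer (Q : Set G) from
        (le_sup_right : _ ≤ Q ⊔ Subgroup.centralizer (Q : Set G)) hzC⟩

/-- If the block `b` of `H` with defect group `D₀`, `C_G(D₀) ≤ H`, induces `B`, then `B` has a defect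
group `D ≥ D₀` with `Z(D) ≤ D₀`. -/
theorem exists_chain (hM : IsPModular p M) {H : Subgroup G} {b : Set (IrrCharacter H)}
    {B : Set (IrrCharacter G)} (h : IsInducedBlock M H b B) {D₀ : Subgroup H}
    (hD₀ : IsDefectGroup p M b D₀)
    (hC : Subgroup.centralizer ((D₀.map H.subtype : Subgroup G) : Set G) ≤ H) :
    ∃ D : Subgroup G, IsDefectGroup p M B D ∧ D₀.map H.subtype ≤ D ∧
      ∀ z ∈ D, (∀ w ∈ D, z * w = w * z) → z ∈ D₀.map H.subtype := by
  have hMp : M.IsPrime := hM.2.1.isPrime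
  obtain ⟨Q, hQ⟩ : ∃ Q : Subgroup G, D₀.map H.subtype = Q := ⟨_, rfl⟩
  rw [hQ] at hC ⊢
  have hQp : IsPGroup p Q := hQ ▸ (isDefectGroup_isPGroup hD₀).map H.subtype
  have hQH : Q ≤ H := hQ ▸ Subgroup.map_subtype_le D₀
  obtain ⟨b', hb', hb'D⟩ := exists_root hM h.1 hD₀ hQ hC
  exact exists_chain_aux hM _ Q b' hQp (trans_in (sup_le hQH hC) hb' h) hb'D rfl

/-- A block of `H` with defect group `D₀` such that `C_G(D₀) ≤ H` induces a block of `G`. -/
theorem inducedBlockDefined (hM : IsPModular p M) {H : Subgroup G} {b : Set (IrrCharacter H)}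
    (hb : IsPBlock M b) {D₀ : Subgroup H} (hD₀ : IsDefectGroup p M b D₀)
    (hC : Subgroup.centralizer ((D₀.map H.subtype : Subgroup G) : Set G) ≤ H) :
    InducedBlockDefined M H b := by
  have hMp : M.IsPrime := hM.2.1.isPrime
  obtain ⟨Q, hQ⟩ : ∃ Q : Subgroup G, D₀.map H.subtype = Q := ⟨_, rfl⟩
  rw [hQ] at hC
  have hQp : IsPGroup p Q := hQ ▸ (isDefectGroup_isPGroup hD₀).map H.subtype
  have hQH : Q ≤ H := hQ ▸ Subgroup.map_subtype_le D₀
  obtain ⟨b', hb', hb'D⟩ := exists_root hM hb hD₀ hQ hC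
  obtain ⟨B, hB⟩ := Cfsg.Agent.S0919.result p M hM Q (Q ⊔ Subgroup.centralizer (Q : Set G)) hQp
    le_sup_left le_sup_right
    (sup_le Subgroup.le_normalizer (Subgroup.centralizer_le_normalizer _)) b' hb'.1
  exact ⟨B, of_trans_in (sup_le hQH hC) hb' hB⟩

end Chain

end Cfsg.Agent.H661
end

-- part: S4726
section
set_option autoImplicit false
open Cfsg

namespace Cfsg.Agent.S4726

open Cfsg.Agent.H661 Cfsg.Agent.H662

/-- Let p be a prime, M a maximal ideal of the algebraic integers containing p, H a subgroup of the finite group G and b a p-block of H with defect group D₀ such that C_G(D₀) ≤ H. Then b induces a block of G, and for every block B of G induced by b there is a defect group D of B with Z(D) ≤ Z(D₀) ≤ D₀ ≤ D (as subgroups of G). In particular, if the defect groups of B are abelian then D₀ is a defect group of B. -/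
theorem result {G : Type*} [Group G] [Finite G] (p : ℕ) [Fact p.Prime] (M : Ideal Cfsg.AlgInt) (hM : Cfsg.IsPModular p M) (H : Subgroup G) (b : Set (Cfsg.IrrCharacter ↥H)) (hb : Cfsg.IsPBlock M b) (D₀ : Subgroup ↥H) (hD₀ : Cfsg.IsDefectGroup p M b D₀) (hC : Subgroup.centralizer ((D₀.map H.subtype : Subgroup G) : Set G) ≤ H) : Cfsg.InducedBlockDefined M H b ∧ ∀ B : Set (Cfsg.IrrCharacter G), Cfsg.IsInducedBlock M H b B → (∃ D : Subgroup G, Cfsg.IsDefectGroup p M B D ∧ (Subgroup.center ↥D).map D.subtype ≤ ((Subgroup.center ↥D₀).map D₀.subtype).map H.subtype ∧ ((Subgroup.center ↥D₀).map D₀.subtype).map H.subtype ≤ D₀.map H.subtype ∧ D₀.map H.subtype ≤ D) ∧ (∀ D : Subgroup G, Cfsg.IsDefectGroup p M B D → IsMulCommutative ↥D → Cfsg.IsDefectGroup p M B (D₀.map H.subtype)) := by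
  refine ⟨inducedBlockDefined hM hb hD₀ hC, fun B hB => ?_⟩
  obtain ⟨D, hD, hle, hz⟩ := exists_chain hM hB hD₀ hC
  refine ⟨⟨D, hD, ?_, ?_, hle⟩, fun E hE hcomm => ?_⟩
  · rintro _ ⟨z, hzc, rfl⟩
    have hzc' : ∀ w ∈ D, (z : G) * w = w * (z : G) := fun w hw =>
      (congrArg Subtype.val (Subgroup.mem_center_iff.1 hzc ⟨w, hw⟩)).symm
    obtain ⟨y, hy, hyz⟩ := hz z z.2 hzc'
    refine ⟨y, ⟨⟨y, hy⟩, ?_, rfl⟩, hyz⟩
    rw [SetLike.mem_coe, Subgroup.mem_center_iff]
    rintro ⟨w, hw⟩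
    apply Subtype.ext
    apply Subtype.ext
    have h1 := hzc' (w : G) (hle ⟨w, hw, rfl⟩)
    have h2 : (y : G) = (z : G) := hyz
    rw [← h2] at h1
    exact h1.symm
  · exact Subgroup.map_mono (Subgroup.map_subtype_le _)
  · obtain ⟨x, hx⟩ := defectGroup_conj hM hB.2.1 hE hD
    have hDcomm : ∀ z ∈ D, ∀ w ∈ D, z * w = w * z := by
      rw [hx]
      rintro _ ⟨z, hz, rfl⟩ _ ⟨w, hw, rfl⟩
      have h1 : (⟨z, hz⟩ : E) * ⟨w, hw⟩ = ⟨w, hw⟩ * ⟨z, hz⟩ := hcomm.is_comm.comm _ _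
      have h2 : z * w = w * z := congrArg Subtype.val h1
      rw [← map_mul, h2, map_mul]
    have h3 : D₀.map H.subtype = D := le_antisymm hle fun z hzD => hz z hzD fun w hw => hDcomm z hzD w hw
    rw [h3]
    exact hD

end Cfsg.Agent.S4726
end
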