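-- Statement S4727 (Cfsg.blk7_brauer_correspondent_pi_prime_core_in_kernel_character_constant_on_cosets).
import Cfsg.Statements.S4727
import Cfsg.Agent.S4734
import Cfsg.Agent.Blocks.CentralizerSum
set_option linter.all false

set_option autoImplicit false
open Cfsg

namespace Cfsg.Agent.S4727

open Cfsg.Agent.H662

/-- Let p be a prime, π a set of primes containing p, M a maximal ideal of the algebraic integers containing p, and B a p-block of the finite group G with defect group D; let B₁ be the block of N_G(D) with defect group D that induces B (the Brauer correspondent of B). Suppose every element of O_π'(N_G(D)), the largest normal subgroup of N_G(D) whose order has no prime divisor in π, lies in the kernel of every member of B₁. If y is a p-element whose centralizer C has a normal Hall π'-subgroup (every element of C whose order has no prime divisor in π lies in O_π'(C)), then χ(y x) = χ(y) for every χ ∈ B and every x ∈ C whose order has no prime divisor in π. -/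
theorem result {G : Type*} [Group G] [Finite G] (p : ℕ) [Fact p.Prime] (M : Ideal Cfsg.AlgInt) (hM : Cfsg.IsPModular p M) (π : Set ℕ) (hpπ : p ∈ π) (B : Set (Cfsg.IrrCharacter G)) (hB : Cfsg.IsPBlock M B) (D : Subgroup G) (hBD : Cfsg.IsDefectGroup p M B D) (B₁ : Set (Cfsg.IrrCharacter ↥(Subgroup.normalizer (D : Set G)))) (hB₁ : Cfsg.IsInducedBlock M (Subgroup.normalizer (D : Set G)) B₁ B) (hB₁D : Cfsg.IsDefectGroup p M B₁ (D.subgroupOf (Subgroup.normalizer (D : Set G)))) (hker : ∀ n : ↥(Subgroup.normalizer (D : Set G)), n ∈ Cfsg.piCore {q | q ∉ π} ↥(Subgroup.normalizer (D : Set G)) → n ∈ Cfsg.blockKer B₁) (y : G) (hy : ∃ k : ℕ, orderOf y = p ^ k) (hC : ∀ x : ↥(Subgroup.centralizer ({y} : Set G)), (∀ q : ℕ, q.Prime → q ∣ orderOf x → q ∉ π) → x ∈ Cfsg.piCore {q | q ∉ π} ↥(Subgroup.centralizer ({y} : Set G))) : ∀ χ ∈ B, ∀ x : G, x ∈ Subgroup.centralizer ({y} : Set G) → (∀ q : ℕ, q.Prime → q ∣ orderOf x → q ∉ π) → (χ : G → ℂ) (y * x) = (χ : G → ℂ) y := by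
  classical
  intro χ hχ x hx hxo
  have hp : p.Prime := Fact.out
  have hMp : M.IsPrime := hM.2.1.isPrime
  have := Fintype.ofFinite G
  obtain ⟨C, hCdef⟩ : ∃ C : Subgroup G, C = Subgroup.centralizer ({y} : Set G) := ⟨_, rfl⟩
  rw [← hCdef] at hC hx
  have := Fintype.ofFinite C
  have : Finite (IrrCharacter C) := Cfsg.Agent.Characters.Core.finite_irr
  have := Fintype.ofFinite (IrrCharacter C)
  let A : Set (IrrCharacter C) := {ξ | IsInducedBlock M C (blockOf M (ξ : C → ℂ)) B}
  have hreg : ¬ p ∣ orderOf (⟨x, hx⟩ : C) := by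
    rw [Subgroup.orderOf_mk]
    exact fun h => hxo p hp h hpπ
  have hreg1 : ¬ p ∣ orderOf (1 : C) := by
    rw [orderOf_one]
    exact fun h => hp.one_lt.ne' (Nat.dvd_one.1 h)
  have h1 := Cfsg.Agent.Blocks.CentralizerSum.sum_components hM y hy hCdef hB (A := A)
    (fun _ => Iff.rfl) ⟨x, hx⟩ hreg χ
  have h2 := Cfsg.Agent.Blocks.CentralizerSum.sum_components hM y hy hCdef hB (A := A)
    (fun _ => Iff.rfl) 1 hreg1 χ
  rw [if_pos hχ] at h1 h2
  have h3 : (χ : G → ℂ) (y * x) = (χ : G → ℂ) (y * ((1 : C) : G)) := by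
    rw [← h2]
    refine Eq.trans h1.symm ?_
    refine Finset.sum_congr rfl fun ξ hξ => ?_
    congr 1
    have hind : IsInducedBlock M C (blockOf M (ξ : C → ℂ)) B := (Finset.mem_filter.1 hξ).2
    obtain ⟨D₀, hD₀⟩ := exists_defectGroup hM hind.1
    have hyC : y ∈ C := by
      rw [hCdef]; exact Subgroup.mem_centralizer_singleton_iff.2 rfl
    have hyp : IsPGroup p (Subgroup.zpowers y) := by
      obtain ⟨k, hk⟩ := hy
      refine IsPGroup.of_card (n := k) ?_
      rw [Nat.card_zpowers, hk]
    have hCN : C ≤ Subgroup.normalizer (Subgroup.zpowers y : Set G) := by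
      refine le_trans ?_ (Subgroup.centralizer_le_normalizer _)
      rw [hCdef]
      intro z hz
      rw [Subgroup.mem_centralizer_iff]
      rintro _ ⟨k, rfl⟩
      rw [Subgroup.mem_centralizer_singleton_iff] at hz
      exact (show Commute y z from hz.symm).zpow_left k
    have hyD := le_defectGroup_of_normal hM hyp hCN hind.1 hD₀
    have hyD' : (⟨y, hyC⟩ : C) ∈ D₀ := hyD (by
      rw [Subgroup.mem_subgroupOf]
      exact Subgroup.mem_zpowers y)
    have hCle : Subgroup.centralizer ((D₀.map C.subtype : Subgroup G) : Set G) ≤ C := by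
      intro z hz
      rw [hCdef, Subgroup.mem_centralizer_singleton_iff]
      rw [Subgroup.mem_centralizer_iff] at hz
      exact (hz y ⟨⟨y, hyC⟩, hyD', rfl⟩).symm
    have hcore := hC ⟨x, hx⟩ (fun q hq hd => hxo q hq (by rwa [Subgroup.orderOf_mk] at hd))
    exact Cfsg.Agent.S4734.result p M hM π hpπ B hB D hBD B₁ hB₁ hB₁D hker C
      (blockOf M (ξ : C → ℂ)) hind D₀ hD₀ hCle ⟨x, hx⟩ hcore ξ
      (Cfsg.Agent.Blocks.Basic.mem_blockOf_self ξ)
  rw [h3, Subgroup.coe_one, mul_one]

end Cfsg.Agent.S4727
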