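-- Statement S4729 (Cfsg.blk7_principal_block_small_faithful_degree_centralizer_of_sylow_p_group).
import Cfsg.Statements.S4729
import Cfsg.Agent.Blocks.Local
import Cfsg.Agent.Blocks.Basic
import Cfsg.Agent.S0138
import Cfsg.Agent.S0142
import Cfsg.Agent.S0901
import Cfsg.Agent.SmallSimple.DetKernel
set_option linter.all false

set_option autoImplicit false
open Cfsg

namespace Cfsg.Agent.S4729

open Cfsg.Agent.Blocks.Local Cfsg.Agent.SmallSimple.DetKernel
open Finset

/-- A representation of a perfect group has determinant one. -/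
theorem det_eq_one_of_perfect {G : Type*} [Group G] (hperf : commutator G = ⊤) {V : Type*}
    [AddCommGroup V] [Module ℂ V] (ρ : Representation ℂ G V) (g : G) :
    LinearMap.det (ρ g) = 1 := by
  let f : G →* ℂ := (LinearMap.det : (V →ₗ[ℂ] V) →* ℂ).comp ρ
  have h1 : g ∈ commutator G := by rw [hperf]; trivial
  have h2 : commutator G ≤ f.toHomUnits.ker := Abelianization.commutator_subset_ker _
  have h3 := congrArg Units.val ((MonoidHom.mem_ker).mp (h2 h1))
  simpa [f] using h3

/-- The multiplicity argument on the eigenvalues of an element of prime order `q`. -/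
theorem eigen_count {ι : Type*} [Fintype ι] {p q : ℕ} (hp : p.Prime) (hq : q.Prime) (hpq : p ≠ q)
    (M : Ideal Cfsg.AlgInt) (hM : Cfsg.IsPModular p M) (μ : ι → ℂ) (hμ : ∀ j, μ j ^ q = 1)
    (hcong : ∀ r : ℕ, MemLocalIdeal M ((Fintype.card ι : ℂ) - ∑ j, μ j ^ r))
    (hcard : Fintype.card ι < 2 * p) (hprod : ∏ j, μ j = 1) (j : ι) : μ j = 1 := by
  classical
  have hPr := isPrime_of_isPModular hM
  have hpq' : ¬ p ∣ q := fun h => hpq ((Nat.prime_dvd_prime_iff_eq hp hq).1 h)
  have hint : ∀ z : ℂ, z ^ q = 1 → MemLocalRing M z := fun z hz =>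
    memLocalRing_of_isIntegral (IsIntegral.of_pow hq.pos (by rw [hz]; exact isIntegral_one))
  -- multiplicities of nontrivial eigenvalues are divisible by `p`
  have hdvd : ∀ l : ℂ, l ^ q = 1 → l ≠ 1 → p ∣ #{j | μ j = l} := by
    intro l hl hl1
    have h1 := wsum μ (fun _ => (1 : ℂ)) hq.ne_zero hμ hl
    simp only [mul_one, sum_const, nsmul_eq_mul] at h1
    have hlinv : (l⁻¹) ^ q = 1 := by rw [inv_pow, hl, inv_one]
    have hlinv1 : l⁻¹ ≠ 1 := fun h => hl1 (by simpa using h)
    have h2 : ∑ r ∈ range q, (l⁻¹) ^ r * ∑ j, μ j ^ r =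
        - ∑ r ∈ range q, (l⁻¹) ^ r * ((Fintype.card ι : ℂ) - ∑ j, μ j ^ r) := by
      have h3 : ∑ r ∈ range q, (l⁻¹) ^ r * ((Fintype.card ι : ℂ) - ∑ j, μ j ^ r) =
          (∑ r ∈ range q, (l⁻¹) ^ r) * (Fintype.card ι : ℂ) -
            ∑ r ∈ range q, (l⁻¹) ^ r * ∑ j, μ j ^ r := by
        rw [Finset.sum_mul, ← Finset.sum_sub_distrib]
        refine Finset.sum_congr rfl fun r _ => ?_
        ring
      rw [h3, sum_pow_eq_zero hlinv hlinv1]
      ring
    have h4 : MemLocalIdeal M (((q * #{j | μ j = l} : ℕ) : ℂ)) := by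
      push_cast
      rw [h1, h2]
      refine memLocalIdeal_neg (memLocalIdeal_sum fun r _ => ?_)
      exact memLocalIdeal_mul_left (memLocalRing_pow (hint _ hlinv) r) (hcong r)
    rw [memLocalIdeal_natCast_iff hM] at h4
    exact (hp.dvd_mul.1 h4).resolve_left hpq'
  by_contra hj
  -- all nontrivial eigenvalues are equal to `μ j`
  have hpos : ∀ i : ι, μ i ≠ 1 → p ≤ #{k | μ k = μ i} := by
    intro i hi
    refine Nat.le_of_dvd (Finset.card_pos.2 ⟨i, by simp⟩) (hdvd _ (hμ i) hi)
  have hall : ∀ i : ι, μ i ≠ 1 → μ i = μ j := by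
    intro i hi
    by_contra hne
    have h1 : Disjoint (univ.filter fun k => μ k = μ i) (univ.filter fun k => μ k = μ j) := by
      rw [Finset.disjoint_left]
      intro k hk hk'
      simp only [mem_filter, mem_univ, true_and] at hk hk'
      exact hne (hk.symm.trans hk')
    have h2 := Finset.card_le_univ ((univ.filter fun k => μ k = μ i) ∪ (univ.filter fun k => μ k = μ j))
    rw [Finset.card_union_of_disjoint h1] at h2
    have h3 := hpos i hi
    have h4 := hpos j hj
    omega
  have hcardj : #{k | μ k = μ j} = p := by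
    obtain ⟨c, hc⟩ := hdvd _ (hμ j) hj
    have h1 := hpos j hj
    have h2 := Finset.card_le_univ (univ.filter fun k => μ k = μ j)
    have h3 : c ≠ 0 := by
      rintro rfl
      rw [hc] at h1
      have := hp.pos
      omega
    have h4 : c < 2 := by
      by_contra h5
      push Not at h5
      have : p * 2 ≤ p * c := Nat.mul_le_mul_left _ h5
      omega
    have h5 : c = 1 := by omega
    rw [hc, h5, mul_one]
  have hprod' : ∏ k, μ k = μ j ^ p := by
    rw [← Finset.prod_filter_mul_prod_filter_not univ (fun k => μ k = μ j)]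
    rw [Finset.prod_congr rfl (g := fun _ => μ j) (fun k hk => (mem_filter.1 hk).2)]
    rw [Finset.prod_const, hcardj]
    rw [Finset.prod_eq_one, mul_one]
    intro k hk
    by_contra h
    exact (mem_filter.1 hk).2 (hall k h)
  rw [hprod] at hprod'
  have h1 : μ j ^ Nat.gcd p q = 1 := by
    have := orderOf_dvd_of_pow_eq_one hprod'.symm
    have h2 := orderOf_dvd_of_pow_eq_one (hμ j)
    exact orderOf_dvd_iff_pow_eq_one.1 (Nat.dvd_gcd this h2)
  rw [(Nat.coprime_primes hp hq).2 hpq, pow_one] at h1
  exact hj h1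

/-- Let p be a prime, M a maximal ideal of the algebraic integers containing p, G a finite perfect group and P a Sylow p-subgroup. If the principal p-block of G contains a faithful irreducible character of degree less than 2p, then the centralizer of P is a p-group. -/
theorem result {G : Type*} [Group G] [Finite G] (p : ℕ) [Fact p.Prime] (M : Ideal Cfsg.AlgInt) (hM : Cfsg.IsPModular p M) (hperf : commutator G = ⊤) (P : Sylow p G) (χ : Cfsg.IrrCharacter G) (hχ : χ ∈ Cfsg.principalBlock M G) (hfaith : ∀ g : G, (χ : G → ℂ) g = (χ : G → ℂ) 1 → g = 1) (hdeg : Cfsg.charDegree (χ : G → ℂ) < 2 * p) : IsPGroup p ↥(Subgroup.centralizer ((P : Subgroup G) : Set G)) := by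
  classical
  obtain ⟨χ, n, ρ, hρ, rfl⟩ := χ
  have hρi := hρ
  have hp : p.Prime := Fact.out
  have hPr := isPrime_of_isPModular hM
  have hn1 : ρ.character 1 = (n : ℂ) := by
    rw [Representation.char_one, Module.finrank_fin_fun]
  have hdeg' : n < 2 * p := by
    have h1 : charDegree ρ.character = n := by
      unfold charDegree
      rw [hn1]
      simp
    have h2 : charDegree ρ.character < 2 * p := hdeg
    rwa [h1] at h2
  have hn0 : n ≠ 0 := by
    intro h0
    have h1 := Cfsg.Agent.Blocks.Basic.irr_one_ne_zero (G := G) (χ := ρ.character) ⟨n, ρ, hρi, rfl⟩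
    rw [hn1, h0] at h1
    exact h1 Nat.cast_zero
  -- the congruence for elements centralizing `P`
  have hcong : ∀ y ∈ Subgroup.centralizer ((P : Subgroup G) : Set G),
      ¬ p ∣ (Subgroup.centralizer ({y} : Set G)).index ∧
      MemLocalIdeal M (((Subgroup.centralizer ({y} : Set G)).index : ℂ) -
        ((Subgroup.centralizer ({y} : Set G)).index : ℂ) * ρ.character y / n) := by
    intro y hy
    refine ⟨fun hdvd => ?_, ?_⟩
    · have hle : (P : Subgroup G) ≤ Subgroup.centralizer ({y} : Set G) := by
        intro z hz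
        rw [Subgroup.mem_centralizer_singleton_iff]
        exact hy z hz
      exact P.not_dvd_index (hdvd.trans (Subgroup.index_dvd_of_le hle))
    · have h1 : MemLocalIdeal M (centralChar (fun _ : G => (1 : ℂ)) y - centralChar ρ.character y) :=
        hχ y
      have h2 : centralChar (fun _ : G => (1 : ℂ)) y - centralChar ρ.character y =
          ((Subgroup.centralizer ({y} : Set G)).index : ℂ) -
        ((Subgroup.centralizer ({y} : Set G)).index : ℂ) * ρ.character y / n := by
        simp only [centralChar, hn1, mul_one, div_one]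
      rwa [h2] at h1
  -- suppose an element `x` of prime order `q ≠ p` centralizes `P`
  suffices key : ∀ (q : ℕ), q.Prime → q ≠ p → ∀ x ∈ Subgroup.centralizer ((P : Subgroup G) : Set G),
      orderOf x = q → False by
    intro c
    have hcpos : orderOf c ≠ 0 := (orderOf_pos c).ne'
    by_contra hne
    have h1 : ∃ q : ℕ, q.Prime ∧ q ≠ p ∧ q ∣ orderOf c := by
      by_contra hall
      push Not at hall
      apply hne
      refine ⟨(orderOf c).primeFactorsList.length, ?_⟩
      have h2 := Nat.eq_prime_pow_of_unique_prime_dvd hcpos (p := p) (fun {d} hd hdc => by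
        by_contra h3
        exact hall d hd h3 hdc)
      rw [← h2]
      exact pow_orderOf_eq_one c
    obtain ⟨q, hq, hqp, m, hm⟩ := h1
    have h3 : orderOf (c ^ m) = q := by
      have hmpos : m ≠ 0 := by
        rintro rfl
        exact hcpos (by rw [hm, mul_zero])
      rw [orderOf_pow_of_dvd hmpos ⟨q, by rw [hm, mul_comm]⟩, hm]
      exact Nat.mul_div_cancel _ (Nat.pos_of_ne_zero hmpos)
    refine key q hq hqp ((c ^ m : ↥(Subgroup.centralizer ((P : Subgroup G) : Set G))) : G)
      (c ^ m).2 ?_
    rw [Subgroup.orderOf_coe]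
    exact h3
  intro q hq hqp x hx hox
  have hx1 : x ≠ 1 := by
    rintro rfl
    rw [orderOf_one] at hox
    exact hq.one_lt.ne hox
  have hxq : x ^ q = 1 := by rw [← hox]; exact pow_orderOf_eq_one x
  by_cases hpn : p ∣ n
  · -- `n = p`
    have hnp : n = p := by
      obtain ⟨c, rfl⟩ := hpn
      have h1 : c ≠ 0 := by
        rintro rfl
        exact hn0 (mul_zero _)
      have h2 : c < 2 := by
        by_contra h5
        push Not at h5
        have : p * 2 ≤ p * c := Nat.mul_le_mul_left _ h5
        omega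
      have h5 : c = 1 := by omega
      rw [h5, mul_one]
    obtain ⟨hind, hc⟩ := hcong x hx
    have hcop : Nat.Coprime (Module.finrank ℂ (Fin n → ℂ))
        (Subgroup.centralizer ({x} : Set G)).index := by
      rw [Module.finrank_fin_fun, hnp]
      exact (Nat.Prime.coprime_iff_not_dvd hp).mpr hind
    have hchx : ρ.character x ≠ 0 := by
      intro h0
      rw [h0, mul_zero, zero_div, sub_zero, memLocalIdeal_natCast_iff hM] at hc
      exact hind hc
    have hnorm := (Cfsg.Agent.S0142.result ρ x hcop).resolve_left hchx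
    obtain ⟨w, hw⟩ := (Cfsg.Agent.S0138.result ρ x).mp hnorm
    have hchar : ρ.character x = w * n := by
      have h1 : ρ.character x = LinearMap.trace ℂ _ (ρ x) := rfl
      rw [h1, hw, map_smul, smul_eq_mul]
      rw [LinearMap.trace_id, Module.finrank_fin_fun]
    have hn0' : (n : ℂ) ≠ 0 := Nat.cast_ne_zero.2 hn0
    rw [hchar, ← mul_assoc, mul_div_assoc, div_self hn0', mul_one] at hc
    have hwq : w ^ q = 1 := by
      have hpow : (ρ x) ^ q = 1 := by rw [← map_pow, hxq, map_one]
      have h3 : (w • (LinearMap.id : (Fin n → ℂ) →ₗ[ℂ] (Fin n → ℂ))) ^ q =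
          (w ^ q) • (LinearMap.id : (Fin n → ℂ) →ₗ[ℂ] (Fin n → ℂ)) := by
        rw [smul_pow]
        congr 1
        exact one_pow q
      rw [hw, h3] at hpow
      have h4 := congrArg (LinearMap.trace ℂ (Fin n → ℂ)) hpow
      rw [map_smul, LinearMap.trace_id, Module.finrank_fin_fun, LinearMap.trace_one,
        Module.finrank_fin_fun, smul_eq_mul] at h4
      exact mul_right_cancel₀ hn0' (by rw [h4, one_mul])
    have hwint : IsIntegral ℤ w := IsIntegral.of_pow hq.pos (by rw [hwq]; exact isIntegral_one)
    have h1w : MemLocalIdeal M (1 - w) := by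
      have h5 : MemLocalIdeal M (((Subgroup.centralizer ({x} : Set G)).index : ℂ) * (1 - w)) := by
        rw [mul_sub, mul_one]; exact hc
      rcases memLocalIdeal_or_of_mul (memLocalRing_natCast _)
        (memLocalRing_sub memLocalRing_one (memLocalRing_of_isIntegral hwint)) h5 with h | h
      · rw [memLocalIdeal_natCast_iff hM] at h
        exact absurd h hind
      · exact h
    have hqnd : ¬ p ∣ q := fun h => hqp ((Nat.prime_dvd_prime_iff_eq hp hq).1 h).symm
    have hw1 : (1 : AlgInt) = ⟨w, hwint⟩ := by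
      refine (Cfsg.Agent.S0901.result p M hM).1 1 ⟨w, hwint⟩ ⟨q, hqnd, by simp⟩ ⟨q, hqnd, hwq⟩ ?_
      rw [← memLocalIdeal_algInt_iff]
      simpa using h1w
    have hw1' : w = 1 := (congrArg Subtype.val hw1).symm
    apply hx1
    apply hfaith
    change ρ.character x = ρ.character 1
    rw [hchar, hn1, hw1', one_mul]
  · -- `p ∤ n`
    have hT : (ρ x) ^ q = 1 := by rw [← map_pow, hxq, map_one]
    obtain ⟨b, μ, hμ1, hμ2⟩ := Cfsg.Agent.Characters.GaloisBasic.exists_basis_eigenvectors
      (ρ x) hq.ne_zero hT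
    have htr : ∀ r : ℕ, ρ.character (x ^ r) = ∑ i, μ i ^ r := by
      intro r
      have h1 := Cfsg.Agent.Characters.GaloisBasic.trace_pow_of_basis (ρ x) b μ hμ1 r
      rw [← h1, ← map_pow]
      rfl
    have hdet : ∏ i, μ i = 1 := by
      rw [← det_of_basis b μ (ρ x) hμ1]
      exact det_eq_one_of_perfect hperf ρ x
    have hcardn : Fintype.card (Fin (Module.finrank ℂ (Fin n → ℂ))) = n := by
      rw [Fintype.card_fin, Module.finrank_fin_fun]
    have hall := eigen_count hp hq (Ne.symm hqp) M hM μ hμ2 (by
      intro r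
      rw [hcardn, ← htr]
      obtain ⟨hind, hc⟩ := hcong (x ^ r) (Subgroup.pow_mem _ hx r)
      have hn0' : (n : ℂ) ≠ 0 := Nat.cast_ne_zero.2 hn0
      have h5 : MemLocalIdeal M (((Subgroup.centralizer ({x ^ r} : Set G)).index : ℂ) *
          (n - ρ.character (x ^ r))) := by
        have h6 := memLocalIdeal_mul_right hc (memLocalRing_natCast (M := M) n)
        rw [sub_mul, div_mul_cancel₀ _ hn0'] at h6
        rw [mul_sub]
        exact h6
      have hint : IsIntegral ℤ (ρ.character (x ^ r)) :=
        Cfsg.Agent.Characters.GaloisBasic.isIntegral_apply ⟨n, ρ, rfl⟩ (x ^ r)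
      rcases memLocalIdeal_or_of_mul (memLocalRing_natCast _)
        (memLocalRing_sub (memLocalRing_natCast n) (memLocalRing_of_isIntegral hint)) h5 with h | h
      · rw [memLocalIdeal_natCast_iff hM] at h
        exact absurd h hind
      · exact h) (by rw [hcardn]; exact hdeg') hdet
    apply hx1
    apply hfaith
    change ρ.character x = ρ.character 1
    have h1 := htr 1
    rw [pow_one] at h1
    rw [h1, hn1, Finset.sum_congr rfl (g := fun _ => (1 : ℂ)) (fun i _ => by rw [hall i, one_pow])]
    rw [Finset.sum_const, Finset.card_univ, hcardn]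
    simp

end Cfsg.Agent.S4729
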