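import Cfsg.Statements.S4731
import Cfsg.Agent.Blocks.Basic
import Cfsg.Agent.Blocks.Local
import Cfsg.Agent.S0907
import Cfsg.Agent.S0925
import Cfsg.Agent.S0140
set_option linter.all false

set_option autoImplicit false
open Cfsg

namespace Cfsg.Agent.S4731

open Cfsg.Agent.Characters.Core
open scoped ComplexConjugate

/-- Let p ≠ q be primes, M_p and M_q maximal ideals of the algebraic integers containing p and q respectively, and G a finite group with no element of order pq; let q^b be the q-part of the order of G. For a p-block B_p (relative to M_p), a q-block B_q (relative to M_q) and a p-singular element y, the sum of χ(1)χ(y) over the irreducible characters χ lying in both B_p and B_q is q^b times an algebraic integer. -/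
theorem result {G : Type*} [Group G] [Finite G] (p q : ℕ) [Fact p.Prime] [Fact q.Prime] (hpq : p ≠ q) (Mp Mq : Ideal Cfsg.AlgInt) (hMp : Cfsg.IsPModular p Mp) (hMq : Cfsg.IsPModular q Mq) (hno : ∀ g : G, orderOf g ≠ p * q) (b : ℕ) (hb : (Nat.card G).factorization q = b) (Bp : Set (Cfsg.IrrCharacter G)) (hBp : Cfsg.IsPBlock Mp Bp) (Bq : Set (Cfsg.IrrCharacter G)) (hBq : Cfsg.IsPBlock Mq Bq) (y : G) (hy : p ∣ orderOf y) : ∃ ω : Cfsg.AlgInt, ∑ᶠ χ ∈ Bp ∩ Bq, (Cfsg.charDegree (χ : G → ℂ) : ℂ) * (χ : G → ℂ) y = (q : ℂ) ^ b * (ω : ℂ) := by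
  classical
  have hp : p.Prime := Fact.out
  have hq : q.Prime := Fact.out
  have := Fintype.ofFinite G
  have : Finite (IrrCharacter G) := finite_irr
  have := Fintype.ofFinite (IrrCharacter G)
  -- no element is both `p`-singular and `q`-singular
  have hsing : ∀ g : G, q ∣ orderOf g → ¬ p ∣ orderOf g := by
    intro g hqg hpg
    have hdvd : p * q ∣ orderOf g :=
      Nat.Coprime.mul_dvd_of_dvd_of_dvd ((Nat.coprime_primes hp hq).2 hpq) hpg hqg
    obtain ⟨k, hk⟩ := hdvd
    have hg0 : orderOf g ≠ 0 := (orderOf_pos g).ne'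
    have hk0 : k ≠ 0 := by
      rintro rfl
      exact hg0 (by rw [hk, mul_zero])
    refine hno (g ^ k) ?_
    rw [orderOf_pow_of_dvd hk0 ⟨p * q, by rw [hk, mul_comm]⟩, hk,
      Nat.mul_div_cancel _ (Nat.pos_of_ne_zero hk0)]
  set ϑ : G → ℂ := ∑ χ : IrrCharacter G, (if χ ∈ Bp then (χ : G → ℂ) y else 0) • (χ : G → ℂ)
    with hϑ
  have hϑv : ∀ g : G, q ∣ orderOf g → ϑ g = 0 := by
    intro g hg
    have h1 := Cfsg.Agent.S0907.result p Mp hMp Bp hBp g⁻¹ y
      (by rw [orderOf_inv]; exact hsing g hg) hy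
    have h2 : ϑ g = conj (∑ᶠ χ ∈ Bp, (χ : G → ℂ) g⁻¹ * conj ((χ : G → ℂ) y)) := by
      rw [Cfsg.Agent.Blocks.Orthogonality.finsum_mem_eq_sum_filter, map_sum, hϑ,
        Finset.sum_apply, Finset.sum_filter]
      refine Finset.sum_congr rfl fun χ _ => ?_
      split_ifs with h
      · rw [map_mul, Complex.conj_conj, Pi.smul_apply, smul_eq_mul,
          isCharacter_apply_inv (Cfsg.Agent.Blocks.Basic.irr_isCharacter χ.2),
          Complex.conj_conj, mul_comm]
      · simp
    rw [h2, h1, map_zero]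
  have hinner : ∀ χ : IrrCharacter G, classInner ϑ (χ : G → ℂ) =
      if χ ∈ Bp then (χ : G → ℂ) y else 0 := by
    intro χ
    rw [hϑ]
    exact classInner_sum_smul_irr _ χ
  set Θ : G → ℂ := fun g => ∑ χ : IrrCharacter G with χ ∈ Bp ∩ Bq, (χ : G → ℂ) y * (χ : G → ℂ) g
    with hΘ
  have hpart : ∀ g : G, blockPart Bq ϑ g = Θ g := by
    intro g
    unfold blockPart
    rw [Cfsg.Agent.Blocks.Orthogonality.finsum_mem_eq_sum_filter, hΘ]
    simp only [Finset.sum_filter]
    refine Finset.sum_congr rfl fun χ _ => ?_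
    have h := hinner χ
    have h' : (@classInner G _ (Fintype.ofFinite G) ϑ (χ : G → ℂ)) =
        if χ ∈ Bp then (χ : G → ℂ) y else 0 := by
      convert h
    rw [h']
    by_cases h1 : χ ∈ Bq <;> by_cases h2 : χ ∈ Bp <;> simp [h1, h2]
  have hΘv : ∀ g : G, q ∣ orderOf g → Θ g = 0 := by
    intro g hg
    obtain ⟨z, hz⟩ := Cfsg.Agent.Blocks.Orthogonality.exists_isPPart hq g
    rw [← hpart]
    have hz1 := Cfsg.Agent.Blocks.Orthogonality.ne_one_of_isPPart hg hz
    refine Cfsg.Agent.Blocks.Orthogonality.blockPart_eq_zero hMq Bq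
      (Cfsg.Agent.S0913.result q Mq hMq Bq hBq) ϑ z ?_ g z hz (IsConj.refl z)
    intro u z' hu hzz'
    apply hϑv
    obtain ⟨w, hw, hc, ⟨k, hk⟩, hw'⟩ := hu
    have hz'1 : z' ≠ 1 := by
      rintro rfl
      exact hz1 (isConj_one_left.1 hzz')
    have hk0 : k ≠ 0 := by
      rintro rfl
      rw [pow_zero] at hk
      exact hz'1 (orderOf_eq_one_iff.1 hk)
    have hcop : Nat.Coprime (orderOf z') (orderOf w) := by
      rw [hk]
      exact Nat.Coprime.pow_left k ((Nat.Prime.coprime_iff_not_dvd hq).2 hw')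
    rw [← hw, hc.orderOf_mul_eq_mul_orderOf_of_coprime hcop, hk]
    exact (dvd_pow_self q hk0).mul_right _
  -- restriction to a Sylow `q`-subgroup
  obtain ⟨Q⟩ : Nonempty (Sylow q G) := inferInstance
  have hinv : ∀ χ : IrrCharacter G, ∃ k : ℕ, ∑ᶠ z : Q, (χ : G → ℂ) (z : G) = (Nat.card Q : ℂ) * k := by
    intro χ
    obtain ⟨m, ρ, hρ, hρχ⟩ := χ.2
    have := Fintype.ofFinite Q
    let σ : Representation ℂ Q (Fin m → ℂ) := ρ.comp (Q : Subgroup G).subtype
    have : Invertible (Nat.card Q : ℂ) := invertibleOfNonzero (by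
      exact_mod_cast Nat.card_pos.ne')
    have h1 := Representation.card_inv_mul_sum_char_eq_finrank σ
    refine ⟨Module.finrank ℂ σ.invariants, ?_⟩
    have hP : (Nat.card Q : ℂ) ≠ 0 := by exact_mod_cast Nat.card_pos.ne'
    rw [← h1, mul_inv_cancel_left₀ hP, finsum_eq_sum_of_fintype]
    refine Finset.sum_congr rfl fun z _ => ?_
    rw [← hρχ]
    rfl
  choose k hk using hinv
  have := Fintype.ofFinite Q
  have hsum : ∑ z : Q, Θ (z : G) = Θ 1 := by
    refine Finset.sum_eq_single (1 : Q) ?_ ?_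
    · intro z _ hz
      apply hΘv
      obtain ⟨m, hm⟩ := IsPGroup.iff_orderOf.1 Q.isPGroup' z
      rw [Subgroup.orderOf_coe, hm]
      refine dvd_pow_self q ?_
      rintro rfl
      exact hz (orderOf_eq_one_iff.1 (by rw [hm, pow_zero]))
    · intro h; exact absurd (Finset.mem_univ _) h
  have hint : ∀ χ : IrrCharacter G, IsIntegral ℤ ((χ : G → ℂ) y) := by
    intro χ
    obtain ⟨m, ρ, hρ, hρχ⟩ := χ.2
    rw [← hρχ]
    exact Cfsg.Agent.S0140.result ρ y
  refine ⟨⟨∑ χ : IrrCharacter G with χ ∈ Bp ∩ Bq, (χ : G → ℂ) y * k χ, ?_⟩, ?_⟩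
  · refine Subalgebra.sum_mem _ fun χ _ => ?_
    exact (integralClosure ℤ ℂ).mul_mem (hint χ) (natCast_mem _ _)
  · have hcard : (Nat.card Q : ℂ) = (q : ℂ) ^ b := by
      rw [Sylow.card_eq_multiplicity Q, hb]
      push_cast
      rfl
    rw [Cfsg.Agent.Blocks.Orthogonality.finsum_mem_eq_sum_filter]
    have h1 : ∑ χ : IrrCharacter G with χ ∈ Bp ∩ Bq,
        (charDegree (χ : G → ℂ) : ℂ) * (χ : G → ℂ) y = Θ 1 := by
      refine Finset.sum_congr rfl fun χ _ => ?_
      rw [Cfsg.Agent.Blocks.Basic.irr_one_eq_charDegree χ.2, mul_comm]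
    rw [h1, ← hsum, hΘ]
    simp only
    rw [Finset.sum_comm, Finset.mul_sum]
    refine Finset.sum_congr rfl fun χ _ => ?_
    have hk' : ∑ᶠ z : ↥(Q : Subgroup G), (χ : G → ℂ) (z : G) = (Nat.card Q : ℂ) * k χ := hk χ
    rw [← Finset.mul_sum, ← finsum_eq_sum_of_fintype, hk', hcard]
    ring

end Cfsg.Agent.S4731
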