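import Mathlib
import Cfsg.Agent.H662.TwoStep
import Cfsg.Agent.H662.Burnside
import Cfsg.Agent.H662.TensorPow
import Cfsg.Agent.H659.BlockBound
import Cfsg.Agent.Blocks.BlockRank
import Cfsg.Agent.Blocks.CyclicAssembly
import Cfsg.Agent.Characters.ClassMul
import Cfsg.Agent.H662.ChermakDelgado
import Cfsg.Agent.H662.Jordan
import Cfsg.Agent.H662.LiftRep
import Cfsg.Statements.S4732
import Cfsg.Agent.Blocks.ExistsModular
set_option linter.all false

-- part: H662/BFReduce
section
/-!
# Abelian subgroups of bounded index: reductions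

* `Bd K p m n c` : every finite group with `|G|_p ≤ p ^ m` and a faithful representation of
  dimension at most `n` has an abelian subgroup of index at most `c`;
* `of_invariant` : the case of a proper invariant subspace;
* `of_nonscalar` : the case of an abelian normal subgroup not acting by scalars.
-/

set_option autoImplicit false
open Module
open scoped commutatorElement

namespace Cfsg.Agent.H662.BF

open Cfsg.Agent.H662.KeyAbs

universe u

/-- Abelian subgroups of bounded index. -/
def Bd (K : Type) [Field K] (p m n c : ℕ) : Prop :=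
  ∀ (G : Type u) [Group G] [Finite G] (V : Type) [AddCommGroup V] [Module K V]
    [FiniteDimensional K V] (ρ : Representation K G V), Function.Injective ρ →
    finrank K V ≤ n → (Nat.card G).factorization p ≤ m →
    ∃ A : Subgroup G, (∀ a ∈ A, ∀ b ∈ A, a * b = b * a) ∧ A.index ≤ c

theorem factorization_le_of_dvd {a b : ℕ} (hb : b ≠ 0) (h : a ∣ b) (p : ℕ) :
    a.factorization p ≤ b.factorization p := by
  have ha : a ≠ 0 := fun h0 => hb (by rw [h0] at h; exact Nat.eq_zero_of_zero_dvd h)
  exact (Nat.factorization_le_iff_dvd ha hb).2 h p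

variable {K : Type} [Field K] {p m n c : ℕ}

/-- The bound for representations that need not be faithful. -/
theorem Bd.ker (h : Bd.{u} K p m n c) {G : Type u} [Group G] [Finite G] {V : Type}
    [AddCommGroup V] [Module K V] [FiniteDimensional K V] (ρ : Representation K G V)
    (hn : finrank K V ≤ n) (hm : (Nat.card G).factorization p ≤ m) :
    ∃ A : Subgroup G, (∀ a ∈ A, ∀ b ∈ A, ρ (a * b) = ρ (b * a)) ∧ A.index ≤ c := by
  set N := MonoidHom.ker ρ with hN
  let ρ' : Representation K (G ⧸ N) V := QuotientGroup.lift N ρ le_rfl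
  have hρ' : ∀ g : G, ρ' (QuotientGroup.mk g) = ρ g := fun g => rfl
  have hinj : Function.Injective ρ' := by
    rw [injective_iff_map_eq_one]
    intro x
    induction x using QuotientGroup.induction_on with
    | H g =>
      intro hg
      rw [hρ'] at hg
      rw [QuotientGroup.eq_one_iff]
      exact hg
  have hcard : Nat.card (G ⧸ N) ∣ Nat.card G := Subgroup.card_quotient_dvd_card N
  obtain ⟨A, hA, hAc⟩ := h (G ⧸ N) V ρ' hinj hn
    ((factorization_le_of_dvd Nat.card_pos.ne' hcard p).trans hm)
  refine ⟨A.comap (QuotientGroup.mk' N), fun a ha b hb => ?_, ?_⟩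
  · rw [← hρ', ← hρ', QuotientGroup.mk_mul, QuotientGroup.mk_mul]
    congr 1
    exact hA _ ha _ hb
  · rw [Subgroup.index_comap_of_surjective _ (QuotientGroup.mk'_surjective N)]
    exact hAc

/-- A group with a normal `p`-subgroup and abelian quotient. -/
theorem exists_complement {G : Type*} [Group G] [Finite G] [hp : Fact p.Prime] (A U : Subgroup G)
    (hU : ∀ u ∈ U, u ^ p = 1) (hAU : ∀ a ∈ A, ∀ b ∈ A, a * b * (b * a)⁻¹ ∈ U) :
    ∃ C : Subgroup G, (∀ a ∈ C, ∀ b ∈ C, a * b = b * a) ∧
      C.index ≤ p ^ (Nat.card G).factorization p * A.index := by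
  have hcomm : commutator A ≤ U.subgroupOf A := by
    rw [commutator_def, Subgroup.commutator_le]
    intro a _ b _
    rw [Subgroup.mem_subgroupOf]
    have h1 := hAU a a.2 b b.2
    have h2 : ((⁅a, b⁆ : A) : G) = (a : G) * b * ((b : G) * a)⁻¹ := by
      rw [commutatorElement_def]
      push_cast
      group
    rw [h2]
    exact h1
  have hpg : IsPGroup p (U.subgroupOf A) := by
    intro x
    refine ⟨1, ?_⟩
    rw [pow_one]
    apply Subtype.ext
    apply Subtype.ext
    have := hU _ x.2
    simpa using this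
  obtain ⟨Q, hQ⟩ := hpg.exists_le_sylow
  have hQn : (Q : Subgroup A).Normal := Subgroup.Normal.of_commutator_le A (hcomm.trans hQ)
  obtain ⟨C, hC⟩ := Subgroup.exists_right_complement'_of_coprime (N := (Q : Subgroup A))
    Q.card_coprime_index
  refine ⟨C.map A.subtype, ?_, ?_⟩
  · rintro _ ⟨a, ha, rfl⟩ _ ⟨b, hb, rfl⟩
    have h1 : ⁅a, b⁆ ∈ (Q : Subgroup A) := hQ (hcomm (Subgroup.commutator_mem_commutator
      (Subgroup.mem_top a) (Subgroup.mem_top b)))
    have h2 : ⁅a, b⁆ ∈ C := by
      rw [commutatorElement_def]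
      exact C.mul_mem (C.mul_mem (C.mul_mem ha hb) (C.inv_mem ha)) (C.inv_mem hb)
    have h3 : ⁅a, b⁆ = 1 := by
      have := hC.disjoint.le_bot (Subgroup.mem_inf.2 ⟨h1, h2⟩)
      exact Subgroup.mem_bot.1 this
    rw [commutatorElement_eq_one_iff_mul_comm] at h3
    exact congrArg Subtype.val h3
  · rw [Subgroup.index_map_subtype, hC.index_eq_card, Q.card_eq_multiplicity]
    apply Nat.mul_le_mul_right
    exact Nat.pow_le_pow_right hp.out.pos
      (factorization_le_of_dvd Nat.card_pos.ne' (Subgroup.card_subgroup_dvd_card A) p)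

/-- A proper invariant subspace. -/
theorem of_invariant [hp : Fact p.Prime] [CharP K p] (h : Bd.{u} K p m n c) {G : Type u} [Group G]
    [Finite G] {V : Type} [AddCommGroup V] [Module K V] [FiniteDimensional K V]
    (ρ : Representation K G V) (hρ : Function.Injective ρ) (hn : finrank K V ≤ n + 1)
    (hm : (Nat.card G).factorization p ≤ m) (N : Submodule K V) (hN : Inv ρ N) (hN0 : N ≠ ⊥)
    (hN1 : N ≠ ⊤) : ∃ A : Subgroup G, (∀ a ∈ A, ∀ b ∈ A, a * b = b * a) ∧
      A.index ≤ p ^ m * (c * c) := by
  have hf1 : 0 < finrank K N := by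
    rw [Module.finrank_pos_iff]
    exact Submodule.nontrivial_iff_ne_bot.2 hN0
  have hf2 : finrank K N < finrank K V := Submodule.finrank_lt hN1
  have hf3 := Submodule.finrank_quotient_add_finrank N
  obtain ⟨A1, hA1, hc1⟩ := h.ker (sub ρ N hN) (by omega) hm
  obtain ⟨A2, hA2, hc2⟩ := h.ker (quot ρ N hN) (by omega) hm
  obtain ⟨C, hC, hCi⟩ := exists_complement (p := p) (A1 ⊓ A2)
    (MonoidHom.ker (sub ρ N hN) ⊓ MonoidHom.ker (quot ρ N hN)) (by
      rintro u ⟨hu1, hu2⟩
      apply hρ
      rw [map_one]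
      exact pow_eq_one ρ N hN hu1 hu2) (by
      intro a ha b hb
      refine Subgroup.mem_inf.2 ⟨?_, ?_⟩
      · rw [MonoidHom.mem_ker, map_mul, hA1 a ha.1 b hb.1, ← map_mul, mul_inv_cancel, map_one]
      · rw [MonoidHom.mem_ker, map_mul, hA2 a ha.2 b hb.2, ← map_mul, mul_inv_cancel, map_one])
  refine ⟨C, hC, hCi.trans (Nat.mul_le_mul (Nat.pow_le_pow_right hp.out.pos hm) ?_)⟩
  exact Subgroup.index_inf_le.trans (Nat.mul_le_mul hc1 hc2)

/-- The stabilizer of a weight space of an abelian normal subgroup. -/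
theorem exists_stabilizer [IsAlgClosed K] {G : Type u} [Group G] [Finite G] {V : Type*}
    [AddCommGroup V] [Module K V] [FiniteDimensional K V] (ρ : Representation K G V)
    (A : Subgroup G) [hAn : A.Normal] (hA : ∀ a ∈ A, ∀ b ∈ A, a * b = b * a)
    (hns : ∃ a ∈ A, ∀ c : K, ρ a ≠ c • 1) :
    ∃ G' : Subgroup G, G'.index ≤ finrank K V ∧
      ∃ N : Submodule K V, N ≠ ⊥ ∧ N ≠ ⊤ ∧ ∀ g ∈ G', ∀ v ∈ N, ρ g v ∈ N := by
  classical
  have hnt : Nontrivial V := by
    by_contra hn
    rw [not_nontrivial_iff_subsingleton] at hn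
    obtain ⟨a, -, ha⟩ := hns
    exact ha 1 (Subsingleton.elim _ _)
  -- a common eigenvector
  obtain ⟨N₀, -, hN₀⟩ := exists_minInv (ρ.comp A.subtype : Representation K A V) ⊤
    (fun g v _ => Submodule.mem_top) top_ne_bot
  have hsc : ∀ a : A, ∃ c : K, ∀ v ∈ N₀, ρ a v = c • v := by
    intro a
    refine exists_scalar (ρ.comp A.subtype : Representation K A V) hN₀ (ρ a) (fun b => ?_)
      (fun v hv => hN₀.1 a v hv)
    show ρ b * ρ a = ρ a * ρ b
    rw [← map_mul, ← map_mul, hA b b.2 a a.2]
  choose χ hχ using hsc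
  let E : (A → K) → Submodule K V := fun ψ => ⨅ a : A, LinearMap.ker (ρ a - ψ a • 1)
  have hE : ∀ ψ v, v ∈ E ψ ↔ ∀ a : A, ρ a v = ψ a • v := by
    intro ψ v
    simp only [E, Submodule.mem_iInf, LinearMap.mem_ker, LinearMap.sub_apply, LinearMap.smul_apply,
      Module.End.one_apply, sub_eq_zero]
  have hEχ : E χ ≠ ⊥ := by
    intro h0
    apply hN₀.2.1
    rw [eq_bot_iff, ← h0]
    intro v hv
    rw [hE]
    exact fun a => hχ a v hv
  have hEtop : E χ ≠ ⊤ := by
    intro h0
    obtain ⟨a, ha, hac⟩ := hns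
    apply hac (χ ⟨a, ha⟩)
    ext v
    have h1 : v ∈ E χ := by rw [h0]; exact Submodule.mem_top
    exact (hE χ v).1 h1 ⟨a, ha⟩
  -- the action on weights
  let act : G → (A → K) → (A → K) := fun g ψ a => ψ ⟨g⁻¹ * a * g, by
    have := hAn.conj_mem a a.2 g⁻¹
    simpa using this⟩
  have hact : ∀ g h ψ, act (g * h) ψ = act g (act h ψ) := by
    intro g h ψ
    funext a
    show ψ _ = ψ _
    congr 1
    apply Subtype.ext
    show (g * h)⁻¹ * a * (g * h) = h⁻¹ * (g⁻¹ * a * g) * h
    group
  have hact1 : ∀ ψ, act 1 ψ = ψ := by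
    intro ψ
    funext a
    show ψ _ = ψ a
    congr 1
    apply Subtype.ext
    show (1 : G)⁻¹ * a * 1 = a
    group
  have hEact : ∀ g ψ v, v ∈ E ψ → ρ g v ∈ E (act g ψ) := by
    intro g ψ v hv
    rw [hE] at hv ⊢
    intro a
    have h1 := hv ⟨g⁻¹ * a * g, by
      have := hAn.conj_mem a a.2 g⁻¹
      simpa using this⟩
    have h2 : ρ a (ρ g v) = ρ g (ρ (g⁻¹ * a * g) v) := by
      rw [← Module.End.mul_apply, ← Module.End.mul_apply, ← map_mul, ← map_mul]
      congr 2
      group
    rw [h2]
    have h3 : ρ (g⁻¹ * a * g) v = ψ ⟨g⁻¹ * a * g, by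
      have := hAn.conj_mem a a.2 g⁻¹
      simpa using this⟩ • v := h1
    rw [h3, map_smul]
  -- independence
  have hind : iSupIndep E := by
    have h1 : iSupIndep fun ψ : A → K => ⨅ a : A, Module.End.maxGenEigenspace (ρ a) (ψ a) := by
      apply Module.End.independent_iInf_maxGenEigenspace_of_forall_mapsTo
      intro a b c
      apply Module.End.mapsTo_maxGenEigenspace_of_comm
      show ρ b * ρ a = ρ a * ρ b
      rw [← map_mul, ← map_mul, hA b b.2 a a.2]
    refine h1.mono fun ψ => ?_
    refine le_iInf fun a => ?_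
    intro v hv
    rw [hE] at hv
    rw [Module.End.mem_maxGenEigenspace]
    refine ⟨1, ?_⟩
    rw [pow_one, LinearMap.sub_apply, LinearMap.smul_apply, Module.End.one_apply, hv a, sub_self]
  let X : Set (A → K) := Set.range fun g => act g χ
  have hXfin : X.Finite := Set.finite_range _
  have hXfin' : Finite X := hXfin
  have : Fintype X := Fintype.ofFinite X
  have hXcard : Nat.card X ≤ finrank K V := by
    have h1 : iSupIndep (E ∘ (Subtype.val : X → (A → K))) := hind.comp Subtype.val_injective
    have : Fintype {x : X // (E ∘ (Subtype.val : X → (A → K))) x ≠ ⊥} := Fintype.ofFinite _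
    have h2 := h1.subtype_ne_bot_le_finrank
    refine le_trans ?_ h2
    rw [Nat.card_eq_fintype_card]
    apply Fintype.card_le_of_injective (fun x : X => (⟨x, ?_⟩ :
      {x : X // (E ∘ (Subtype.val : X → (A → K))) x ≠ ⊥}))
    · intro x y hxy
      exact congrArg Subtype.val hxy
    · obtain ⟨_, g, rfl⟩ := x
      obtain ⟨v, hv, hv0⟩ := (Submodule.ne_bot_iff _).1 hEχ
      refine (Submodule.ne_bot_iff _).2 ⟨ρ g v, hEact g χ v hv, fun h0 => hv0 ?_⟩
      have h3 := congrArg (ρ g⁻¹) h0
      rw [← Module.End.mul_apply, ← map_mul, inv_mul_cancel, map_one, map_zero] at h3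
      exact h3
  let G' : Subgroup G :=
    { carrier := {g | act g χ = χ}
      mul_mem' := fun {g h} hg hh => by
        show act (g * h) χ = χ
        have hg' : act g χ = χ := hg
        have hh' : act h χ = χ := hh
        rw [hact, hh', hg']
      one_mem' := hact1 χ
      inv_mem' := fun {g} hg => by
        show act g⁻¹ χ = χ
        have hg' : act g χ = χ := hg
        conv_lhs => rw [← hg']
        rw [← hact, inv_mul_cancel, hact1] }
  refine ⟨G', ?_, E χ, hEχ, hEtop, fun g hg v hv => ?_⟩
  · refine le_trans (index_le_of_map (X := X) G' (fun g => ⟨act g χ, g, rfl⟩) ?_) hXcard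
    intro g g' hgg
    have h1 : act g χ = act g' χ := congrArg Subtype.val hgg
    show act (g⁻¹ * g') χ = χ
    rw [hact, ← h1, ← hact, inv_mul_cancel, hact1]
  · have h1 := hEact g χ v hv
    have h2 : act g χ = χ := hg
    rwa [h2] at h1

/-- An abelian normal subgroup that does not act by scalars. -/
theorem of_nonscalar [hp : Fact p.Prime] [CharP K p] [IsAlgClosed K] (h : Bd.{u} K p m n c)
    {G : Type u} [Group G] [Finite G] {V : Type} [AddCommGroup V] [Module K V]
    [FiniteDimensional K V] (ρ : Representation K G V) (hρ : Function.Injective ρ)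
    (hn : finrank K V ≤ n + 1) (hm : (Nat.card G).factorization p ≤ m)
    (A : Subgroup G) [hAn : A.Normal] (hA : ∀ a ∈ A, ∀ b ∈ A, a * b = b * a)
    (hns : ∃ a ∈ A, ∀ c : K, ρ a ≠ c • 1) :
    ∃ B : Subgroup G, (∀ a ∈ B, ∀ b ∈ B, a * b = b * a) ∧
      B.index ≤ p ^ m * (c * c) * (n + 1) := by
  obtain ⟨G', hG', N, hN0, hN1, hN⟩ := exists_stabilizer ρ A hA hns
  obtain ⟨B, hB, hBi⟩ := of_invariant h (ρ.comp G'.subtype : Representation K G' V)
    (hρ.comp G'.subtype_injective) hn
    ((factorization_le_of_dvd Nat.card_pos.ne' (Subgroup.card_subgroup_dvd_card G') p).trans hm)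
    N (fun g v hv => hN g g.2 v hv) hN0 hN1
  refine ⟨B.map G'.subtype, ?_, ?_⟩
  · rintro _ ⟨a, ha, rfl⟩ _ ⟨b, hb, rfl⟩
    exact congrArg Subtype.val (hB a ha b hb)
  · rw [Subgroup.index_map_subtype]
    exact Nat.mul_le_mul hBi (hG'.trans hn)

end Cfsg.Agent.H662.BF
end

-- part: H662/BFScalar
section
/-!
# Abelian subgroups of bounded index: the centralizer of the subgroup generated by `p`-elements
-/

set_option autoImplicit false
open Module

namespace Cfsg.Agent.H662.BF

open Cfsg.Agent.H662.KeyAbs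

universe u

section scal

variable {K : Type*} [Field K] {G : Type*} [Group G] {V : Type*} [AddCommGroup V] [Module K V]

/-- The elements acting by scalars. -/
def scal (ρ : Representation K G V) : Subgroup G where
  carrier := {g | ∃ c : K, ρ g = c • 1}
  mul_mem' := by
    rintro g h ⟨c, hc⟩ ⟨d, hd⟩
    exact ⟨c * d, by rw [map_mul, hc, hd, smul_mul_smul_comm, one_mul]⟩
  one_mem' := ⟨1, by rw [map_one, one_smul]⟩
  inv_mem' := by
    rintro g ⟨c, hc⟩
    have h1 : ρ g⁻¹ * ρ g = 1 := by rw [← map_mul, inv_mul_cancel, map_one]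
    rw [hc, mul_smul_comm, mul_one] at h1
    rcases subsingleton_or_nontrivial V with hV | hV
    · exact ⟨1, Subsingleton.elim _ _⟩
    · have hc0 : c ≠ 0 := by
        intro h0
        rw [h0, zero_smul] at h1
        exact zero_ne_one h1
      exact ⟨c⁻¹, by rw [← h1, smul_smul, inv_mul_cancel₀ hc0, one_smul]⟩

theorem mem_scal {ρ : Representation K G V} {g : G} : g ∈ scal ρ ↔ ∃ c : K, ρ g = c • 1 := Iff.rfl

theorem scal_comm {ρ : Representation K G V} (hρ : Function.Injective ρ) {z : G} (hz : z ∈ scal ρ)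
    (g : G) : z * g = g * z := by
  obtain ⟨c, hc⟩ := hz
  apply hρ
  rw [map_mul, map_mul, hc, smul_mul_assoc, one_mul, mul_smul_comm, mul_one]

theorem scal_eq_one {p : ℕ} [Fact p.Prime] [CharP K p] {ρ : Representation K G V}
    (hρ : Function.Injective ρ) {z : G} (hz : z ∈ scal ρ) {k : ℕ} (hk : z ^ p ^ k = 1) : z = 1 := by
  obtain ⟨c, hc⟩ := hz
  apply hρ
  rw [map_one]
  rcases subsingleton_or_nontrivial V with hV | hV
  · exact Subsingleton.elim _ _
  have h1 : (c ^ p ^ k) • (1 : Module.End K V) = 1 := by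
    rw [← one_pow (M := Module.End K V) (p ^ k), ← smul_pow, ← hc, ← map_pow, hk, map_one, one_pow]
  have h2 : c ^ p ^ k = 1 := by
    obtain ⟨v, hv⟩ := exists_ne (0 : V)
    have h3 := LinearMap.congr_fun h1 v
    rw [LinearMap.smul_apply, Module.End.one_apply] at h3
    exact smul_left_injective K hv (by simpa using h3)
  have h3 : (c - 1) ^ p ^ k = 0 := by
    rw [sub_pow_char_pow (p := p), h2, one_pow, sub_self]
  have h4 : c = 1 := sub_eq_zero.1 (pow_eq_zero_iff (pow_ne_zero k (Fact.out : p.Prime).ne_zero)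
    |>.1 h3)
  rw [hc, h4, one_smul]

end scal

/-- The `p`-elements. -/
def pElts (p : ℕ) (G : Type*) [Group G] : Set G := {x | ∃ k : ℕ, x ^ p ^ k = 1}

section main

variable {K : Type} [Field K] {p : ℕ} [hp : Fact p.Prime] [CharP K p] {G : Type u} [Group G]
  [Finite G] {V : Type} [AddCommGroup V] [Module K V]

omit [Finite G] in
theorem mem_centralizer_of (ρ : Representation K G V) (hρ : Function.Injective ρ) {t : G}
    (ht : ∀ h ∈ pElts p G, h⁻¹ * (t * h * t⁻¹) ∈ scal ρ) :
    t ∈ Subgroup.centralizer ((Subgroup.closure (pElts p G) : Subgroup G) : Set G) := by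
  have h1 : Subgroup.closure (pElts p G) ≤ Subgroup.centralizer ({t} : Set G) := by
    rw [Subgroup.closure_le]
    rintro h hh
    obtain ⟨k, hk⟩ := id hh
    have hz := ht h hh
    set z := h⁻¹ * (t * h * t⁻¹) with hzdef
    have h2 : t * h * t⁻¹ = h * z := by rw [hzdef]; group
    have h3 : (t * h * t⁻¹) ^ p ^ k = 1 := by
      rw [conj_pow, hk, mul_one, mul_inv_cancel]
    rw [h2, (show Commute h z from (scal_comm hρ hz h).symm).mul_pow, hk, one_mul] at h3
    have h4 := scal_eq_one hρ hz h3
    rw [h4, mul_one] at h2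
    rw [SetLike.mem_coe, Subgroup.mem_centralizer_singleton_iff]
    calc h * t = t * h * t⁻¹ * t := by rw [h2]
      _ = t * h := by group
  rw [Subgroup.mem_centralizer_iff]
  intro h hh
  have := h1 hh
  rw [Subgroup.mem_centralizer_singleton_iff] at this
  exact this

/-- The index of the centralizer. -/
theorem index_centralizer_le (ρ : Representation K G V) (hρ : Function.Injective ρ)
    [hHn : (Subgroup.closure (pElts p G)).Normal] :
    (Subgroup.centralizer ((Subgroup.closure (pElts p G) : Subgroup G) : Set G)).index ≤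
      ((scal ρ).relIndex (Subgroup.closure (pElts p G))) ^
        ((scal ρ).relIndex (Subgroup.closure (pElts p G))) := by
  set H := Subgroup.closure (pElts p G) with hH
  set ZH := (scal ρ).subgroupOf H with hZH
  have hcard : Nat.card (H ⧸ ZH → H ⧸ ZH) = (scal ρ).relIndex H ^ (scal ρ).relIndex H := by
    rw [Nat.card_fun]
    rfl
  rw [← hcard]
  refine index_le_of_map _ (fun g (q : H ⧸ ZH) =>
    (QuotientGroup.mk (MulAut.conjNormal g (Quotient.out q)) : H ⧸ ZH)) ?_
  intro g g' hgg
  refine mem_centralizer_of (p := p) ρ hρ fun h hh => ?_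
  have hhH : h ∈ H := Subgroup.subset_closure hh
  set q : H ⧸ ZH := QuotientGroup.mk (⟨h, hhH⟩ : H) with hq
  set o : H := Quotient.out q with ho
  have h1 : (QuotientGroup.mk o : H ⧸ ZH) = QuotientGroup.mk (⟨h, hhH⟩ : H) := by
    rw [ho, QuotientGroup.out_eq', hq]
  rw [QuotientGroup.eq] at h1
  replace h1 := Subgroup.mem_subgroupOf.1 h1
  have h2 := congrFun hgg q
  rw [QuotientGroup.eq] at h2
  replace h2 := Subgroup.mem_subgroupOf.1 h2
  set z : G := ((o⁻¹ * (⟨h, hhH⟩ : H) : H) : G) with hz
  have h3 : h = (o : G) * z := by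
    rw [hz]
    push_cast
    group
  have h4 : (((MulAut.conjNormal g o)⁻¹ * MulAut.conjNormal g' o : H) : G) =
      g * ((o : G)⁻¹ * ((g⁻¹ * g') * (o : G) * (g⁻¹ * g')⁻¹)) * g⁻¹ := by
    push_cast
    rw [MulAut.conjNormal_apply, MulAut.conjNormal_apply]
    group
  have h2' : g * ((o : G)⁻¹ * ((g⁻¹ * g') * (o : G) * (g⁻¹ * g')⁻¹)) * g⁻¹ ∈ scal ρ := by
    rw [← h4]
    exact h2
  set w : G := (o : G)⁻¹ * ((g⁻¹ * g') * (o : G) * (g⁻¹ * g')⁻¹) with hw
  have h5 : w ∈ scal ρ := by
    have h6 := scal_comm hρ h2' g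
    have h7 : w = g⁻¹ * ((g * w * g⁻¹) * g) := by group
    rw [h7, h6]
    rw [inv_mul_cancel_left]
    exact h2'
  have h6 : h⁻¹ * ((g⁻¹ * g') * h * (g⁻¹ * g')⁻¹) = w := by
    rw [h3]
    have h7 : (g⁻¹ * g') * ((o : G) * z) * (g⁻¹ * g')⁻¹ =
        ((g⁻¹ * g') * (o : G) * (g⁻¹ * g')⁻¹) * z := by
      have h8 := scal_comm hρ h1 (g⁻¹ * g')⁻¹
      calc (g⁻¹ * g') * ((o : G) * z) * (g⁻¹ * g')⁻¹
          = (g⁻¹ * g') * (o : G) * (z * (g⁻¹ * g')⁻¹) := by simp only [mul_assoc]
        _ = _ := by rw [h8]; simp only [mul_assoc]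
    rw [h7, mul_inv_rev]
    calc z⁻¹ * (o : G)⁻¹ * (((g⁻¹ * g') * (o : G) * (g⁻¹ * g')⁻¹) * z)
        = z⁻¹ * (w * z) := by rw [hw]; simp only [mul_assoc]
      _ = w := by rw [scal_comm hρ h5 z, inv_mul_cancel_left]
  rw [h6]
  exact h5

instance closure_pElts_normal : (Subgroup.closure (pElts p G)).Normal := by
  refine ⟨fun n hn g => ?_⟩
  have h1 : Subgroup.closure (pElts p G) ≤
      (Subgroup.closure (pElts p G)).comap (MulAut.conj g).toMonoidHom := by
    rw [Subgroup.closure_le]
    rintro x ⟨k, hk⟩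
    apply Subgroup.subset_closure
    refine ⟨k, ?_⟩
    show (g * x * g⁻¹) ^ p ^ k = 1
    rw [conj_pow, hk, mul_one, mul_inv_cancel]
  exact h1 hn

/-- The reduction to `p'`-groups. -/
theorem of_scalar [FiniteDimensional K V] {N J r : ℕ} (h0 : Bd.{u} K p 0 N J)
    (ρ : Representation K G V) (hρ : Function.Injective ρ) (hn : finrank K V ≤ N)
    (hsc : ∀ A : Subgroup G, A.Normal → (∀ a ∈ A, ∀ b ∈ A, a * b = b * a) → A ≤ scal ρ)
    (hr : (scal ρ).relIndex (Subgroup.closure (pElts p G)) ≤ r) :
    ∃ B : Subgroup G, (∀ a ∈ B, ∀ b ∈ B, a * b = b * a) ∧ B.index ≤ J * r ^ r := by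
  set H := Subgroup.closure (pElts p G) with hH
  set C := Subgroup.centralizer (H : Set G) with hC
  have hCi : C.index ≤ r ^ r := by
    have h1 := index_centralizer_le (p := p) ρ hρ
    have hpos : 0 < (scal ρ).relIndex H := Nat.pos_of_ne_zero (by
      show ((scal ρ).subgroupOf H).index ≠ 0
      exact Subgroup.index_ne_zero_of_finite)
    refine h1.trans ((Nat.pow_le_pow_left hr _).trans (Nat.pow_le_pow_right (by omega) hr))
  have hCp : ¬ p ∣ Nat.card C := by
    intro hdvd
    obtain ⟨x, hx⟩ := exists_prime_orderOf_dvd_card' p hdvd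
    have hxp : (x : G) ^ p ^ 1 = 1 := by
      rw [pow_one, ← hx, ← Subgroup.coe_pow, pow_orderOf_eq_one, Subgroup.coe_one]
    have hxH : (x : G) ∈ H := Subgroup.subset_closure ⟨1, hxp⟩
    have hle := hsc (C ⊓ H) inferInstance (fun a ha b hb =>
      (Subgroup.mem_centralizer_iff.1 (Subgroup.mem_inf.1 ha).1 b (Subgroup.mem_inf.1 hb).2).symm)
    have h1 := scal_eq_one hρ (hle ⟨x.2, hxH⟩) hxp
    have h2 : x = 1 := Subtype.ext h1
    rw [h2, orderOf_one] at hx
    exact hp.out.one_lt.ne hx
  obtain ⟨B, hB, hBi⟩ := h0 C V (ρ.comp C.subtype) (hρ.comp C.subtype_injective) hn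
    (le_of_eq (Nat.factorization_eq_zero_of_not_dvd hCp))
  refine ⟨B.map C.subtype, ?_, ?_⟩
  · rintro _ ⟨a, ha, rfl⟩ _ ⟨b, hb, rfl⟩
    exact congrArg Subtype.val (hB a ha b hb)
  · rw [Subgroup.index_map_subtype]
    exact Nat.mul_le_mul hBi hCi

end main

end Cfsg.Agent.H662.BF
end

-- part: H662/Key
section
/-!
# The tensor power argument

`exists_not_commute`: there is `i`, depending on `p` and `n` only, such that for every
representation `ρ` of degree `n` of a finite group `H` over an algebraically closed field of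
characteristic `p`, with an element `x` of order `p` acting nontrivially, and every weight `e` of
total mass one, the `e`-averages of the endomorphisms of the tensor power `big p n i ρ` do not all
commute with `H`.
-/

set_option autoImplicit false
open Module

namespace Cfsg.Agent.H662.Key

open Cfsg.Agent.H662.TensorPow Cfsg.Agent.H662.KeyAbs

variable {K : Type*} [Field K] {H : Type*} [Group H]

/-- The tensor power of degree `i * (p - 1)` of a matrix representation. -/
noncomputable def big (p n i : ℕ) (ρ : H →* Matrix (Fin n) (Fin n) K) :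
    Representation K H ((Fin i → Fin (p - 1) → Fin n) → K) :=
  ((Matrix.toLinAlgEquiv' : Matrix (Fin i → Fin (p - 1) → Fin n) (Fin i → Fin (p - 1) → Fin n) K ≃ₐ[K]
    _) : _ →* _).comp ((tpHom i).comp ((tpHom (p - 1)).comp ρ))

theorem big_apply (p n i : ℕ) (ρ : H →* Matrix (Fin n) (Fin n) K) (g : H) :
    big p n i ρ g = Matrix.toLinAlgEquiv' (tp i (tp (p - 1) (ρ g))) := rfl

theorem exists_not_commute (K : Type*) [Field K] [IsAlgClosed K] (p : ℕ) [hp : Fact p.Prime]
    [CharP K p] (n : ℕ) :
    ∃ i : ℕ, ∀ (H : Type*) [Group H] [Fintype H] (ρ : H →* Matrix (Fin n) (Fin n) K) (x : H),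
      x ^ p = 1 → ρ x ≠ 1 → ∀ e : H → K, ∑ g, e g = 1 →
      ∃ (a : Module.End K ((Fin i → Fin (p - 1) → Fin n) → K)) (h : H),
        big p n i ρ h * avg (big p n i ρ) e a ≠ avg (big p n i ρ) e a * big p n i ρ h := by
  classical
  rcases Nat.eq_zero_or_pos n with hn | hn
  · subst hn
    refine ⟨0, fun H _ _ ρ x _ hx => absurd (Subsingleton.elim _ _) hx⟩
  set N := Fintype.card (Fin (p - 1) → Fin n) with hN
  have hNpos : 0 < N := by
    rw [hN, Fintype.card_fun, Fintype.card_fin, Fintype.card_fin]
    positivity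
  obtain ⟨i, hi⟩ := exists_growth (N ^ 2) ((N - 1) ^ 2) (N ^ 2)
    (Nat.pow_lt_pow_left (by omega) (by norm_num))
  refine ⟨i, fun H _ _ ρ x hx hx1 e he => ?_⟩
  by_contra hcon
  push Not at hcon
  set X := tp (p - 1) (ρ x) with hX
  set Y := tp (p - 1) (ρ x⁻¹) with hY
  have hXp : X ^ p = 1 := by rw [hX, ← tp_pow, ← map_pow, hx, map_one, tp_one]
  have hYp : Y ^ p = 1 := by rw [hY, ← tp_pow, ← map_pow, inv_pow, hx, inv_one, map_one, tp_one]
  have hYX : Y * X = 1 := by rw [hY, hX, ← tp_mul, ← map_mul, inv_mul_cancel, map_one, tp_one]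
  have hXY : X * Y = 1 := by rw [hY, hX, ← tp_mul, ← map_mul, mul_inv_cancel, map_one, tp_one]
  obtain ⟨u, hu⟩ := exists_free_vector (p := p) (X := ρ x) (by rw [← map_pow, hx, map_one]) hx1
  obtain ⟨a₀, φ, B, C, hBC1, hBC2⟩ := exists_phi_base hXp hYp hYX u hu
  obtain ⟨Φ, hΦ⟩ := exists_phi hXY hBC1 hBC2 i
  set D := Nat.sqrt ((i + 1) ^ (N ^ 2)) with hD
  have key := finrank_le p (big p n i ρ) e he (fun a h => hcon a h) x hx D ((N - 1) ^ i)
    (by
      intro S hS
      rw [hD, Nat.le_sqrt']
      refine (sq_finrank_le _ hS).trans ?_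
      have h1 : Submodule.span K (Set.range (big p n i ρ)) =
          (Submodule.span K (Set.range fun g => tp i (tp (p - 1) (ρ g)))).map
            (Matrix.toLinAlgEquiv' : Matrix (Fin i → Fin (p - 1) → Fin n)
              (Fin i → Fin (p - 1) → Fin n) K ≃ₐ[K] _).toLinearEquiv.toLinearMap := by
        rw [Submodule.map_span, ← Set.range_comp]
        rfl
      rw [h1, LinearEquiv.finrank_map_eq]
      apply finrank_span_tp_le
      rintro _ ⟨g, rfl⟩
      exact ⟨_, rfl⟩)
    (Matrix.toLinAlgEquiv' Φ) (Matrix.toLinAlgEquiv' (tp i (B * C)))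
    (by
      have h1 := congrArg (Matrix.toLinAlgEquiv' : Matrix (Fin i → Fin (p - 1) → Fin n)
              (Fin i → Fin (p - 1) → Fin n) K ≃ₐ[K] _) hΦ
      rw [map_add, map_sum, map_one] at h1
      simp only [map_mul, map_pow] at h1
      exact h1)
    (by
      have hc : Fintype.card {a : (Fin (p - 1) → Fin n) // a ≠ a₀} = N - 1 := by
        rw [Fintype.card_subtype, Finset.filter_ne', Finset.card_erase_of_mem (Finset.mem_univ _),
          Finset.card_univ]
      have h1 := rank_tp_le i B C
      rw [hc] at h1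
      exact h1)
  rw [Module.finrank_fintype_fun_eq_card, Fintype.card_fun, ← hN, Fintype.card_fin] at key
  have h1 : (N ^ 2) ^ i ≤ (i + 1) ^ (N ^ 2) * ((N - 1) ^ 2) ^ i := by
    calc (N ^ 2) ^ i = (N ^ i) ^ 2 := by ring
      _ ≤ (D * (N - 1) ^ i) ^ 2 := Nat.pow_le_pow_left key 2
      _ = D ^ 2 * ((N - 1) ^ 2) ^ i := by ring
      _ ≤ (i + 1) ^ (N ^ 2) * ((N - 1) ^ 2) ^ i :=
          Nat.mul_le_mul_right _ (by rw [hD]; exact Nat.sqrt_le' _)
  omega

end Cfsg.Agent.H662.Key
end

-- part: H662/PrinIdem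
section
/-!
# The principal idempotent

`A` is a finite-dimensional algebra and `ε : A →+* K` a homomorphism.  `IsPrin ε e` says that `e` is
the least central idempotent with `ε e = 1`.  It exists (`exists_isPrin`), is unique
(`IsPrin.unique`), hence invariant under automorphisms (`IsPrin.map_eq`), and divisible by each
central element `y` with `ε y ≠ 0` (`IsPrin.exists_eq_mul`).
-/

set_option autoImplicit false
open Module

namespace Cfsg.Agent.H662

/-- The least central idempotent on which `ε` is `1`. -/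
structure IsPrin {A K : Type*} [Ring A] [Ring K] (ε : A →+* K) (e : A) : Prop where
  comm : ∀ a, e * a = a * e
  idem : e * e = e
  aug : ε e = 1
  least : ∀ f : A, (∀ a, f * a = a * f) → f * f = f → ε f = 1 → e * f = e

namespace IsPrin

section

variable {A K : Type*} [Ring A] [Ring K] {ε : A →+* K}

theorem unique {e e' : A} (h : IsPrin ε e) (h' : IsPrin ε e') : e = e' := by
  have h1 := h.least e' h'.comm h'.idem h'.aug
  have h2 := h'.least e h.comm h.idem h.aug
  rw [← h1, h.comm e', h2]

theorem map_eq {e : A} (h : IsPrin ε e) (σ : A ≃+* A) (hσ : ∀ a, ε (σ a) = 1 ↔ ε a = 1) :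
    σ e = e := by
  refine unique ⟨fun a => ?_, ?_, (hσ e).2 h.aug, fun f hf hf2 hf1 => ?_⟩ h
  · obtain ⟨b, rfl⟩ := σ.surjective a
    rw [← map_mul, h.comm, map_mul]
  · rw [← map_mul, h.idem]
  · obtain ⟨f', rfl⟩ := σ.surjective f
    have h1 : ∀ a, f' * a = a * f' := by
      intro a
      apply σ.injective
      rw [map_mul, hf, map_mul]
    have h2 : f' * f' = f' := by
      apply σ.injective
      rw [map_mul, hf2]
    rw [← map_mul, h.least f' h1 h2 ((hσ f').1 hf1)]

end

variable {A K : Type*} [Field K] [Ring A] [Algebra K A] [FiniteDimensional K A] {ε : A →+* K}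

/-- A central element on which `ε` is nonzero divides the principal idempotent. -/
theorem exists_eq_mul {e : A} (h : IsPrin ε e) {y : A} (hy : ∀ a, y * a = a * y)
    (hy0 : ε y ≠ 0) : ∃ c, e = y * c := by
  have h1 := (LinearMap.eventually_isCompl_ker_pow_range_pow (LinearMap.mulLeft K y)).and
    (Filter.eventually_ge_atTop 1)
  obtain ⟨n, hn, hn1⟩ := h1.exists
  have h2 : (1 : A) ∈ LinearMap.ker (LinearMap.mulLeft K y ^ n) ⊔
      LinearMap.range (LinearMap.mulLeft K y ^ n) := by
    rw [hn.sup_eq_top]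
    exact Submodule.mem_top
  obtain ⟨a, ha, _, ⟨b, rfl⟩, hab⟩ := Submodule.mem_sup.1 h2
  rw [LinearMap.mem_ker, LinearMap.pow_mulLeft, LinearMap.mulLeft_apply] at ha
  rw [LinearMap.pow_mulLeft, LinearMap.mulLeft_apply] at hab
  have hyn : ∀ a, y ^ n * a = a * y ^ n := fun a => ((show Commute y a from hy a).pow_left n).eq
  have hz : y ^ n * (y ^ n * b) = y ^ n := by
    have := congrArg (fun t => y ^ n * t) hab
    simp only [mul_add, ha, zero_add, mul_one] at this
    exact this
  set f : A := y ^ n * b with hf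
  have hfy : f * y ^ n = y ^ n := by rw [← hyn, hz]
  have hff : f * f = f := by
    rw [hf]
    calc y ^ n * b * (y ^ n * b) = (y ^ n * (y ^ n * b)) * b := by
          rw [mul_assoc, ← mul_assoc b, ← hyn b]
          simp only [mul_assoc]
      _ = y ^ n * b := by rw [hz]
  have hfa : ∀ a, f * a = a * f := by
    intro a
    have e1 : f * (a * f) = a * f := by
      have e3 : a * f = y ^ n * (a * b) := by rw [hf, ← mul_assoc, ← hyn, mul_assoc]
      rw [e3, ← mul_assoc, hfy]
    have e2 : (f * a) * f = f * a := by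
      have e3 : f * a = (b * a) * y ^ n := by
        rw [hf, hyn b, mul_assoc, hyn a, mul_assoc]
      rw [e3, mul_assoc, hz]
    rw [← e2, mul_assoc, e1]
  have hef : ε f = 1 := by
    have h3 : ε y ^ n * ε f = ε y ^ n * 1 := by
      rw [mul_one, ← map_pow, ← map_mul, hz]
    exact mul_left_cancel₀ (pow_ne_zero n hy0) h3
  have h4 := h.least f hfa hff hef
  refine ⟨y ^ (n - 1) * b * e, ?_⟩
  rw [← mul_assoc, ← mul_assoc, ← pow_succ', Nat.sub_add_cancel hn1, ← hf, ← h.comm f, h4]

/-- Existence of the principal idempotent. -/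
theorem _root_.Cfsg.Agent.H662.exists_isPrin (ε : A →+* K) : ∃ e : A, IsPrin ε e := by
  classical
  let P : ℕ → Prop := fun d => ∃ f : A, (∀ a, f * a = a * f) ∧ f * f = f ∧ ε f = 1 ∧
    finrank K (LinearMap.range (LinearMap.mulLeft K f)) = d
  have hP : ∃ d, P d := ⟨_, 1, fun a => by rw [one_mul, mul_one], one_mul 1, map_one ε, rfl⟩
  obtain ⟨e, he1, he2, he3, he4⟩ := Nat.find_spec hP
  refine ⟨e, he1, he2, he3, fun f hf1 hf2 hf3 => ?_⟩
  have h1 : ∀ a, (e * f) * a = a * (e * f) := by
    intro a
    rw [mul_assoc, hf1, ← mul_assoc, he1, mul_assoc]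
  have h2 : (e * f) * (e * f) = e * f := by
    rw [mul_assoc, ← mul_assoc f, ← he1 f, mul_assoc e f f, hf2, ← mul_assoc, he2]
  have h3 : ε (e * f) = 1 := by rw [map_mul, he3, hf3, mul_one]
  have h4 : Nat.find hP ≤ finrank K (LinearMap.range (LinearMap.mulLeft K (e * f))) :=
    Nat.find_min' hP ⟨e * f, h1, h2, h3, rfl⟩
  have h5 : LinearMap.range (LinearMap.mulLeft K (e * f)) ≤
      LinearMap.range (LinearMap.mulLeft K e) := by
    rintro _ ⟨a, rfl⟩
    exact ⟨f * a, by rw [LinearMap.mulLeft_apply, LinearMap.mulLeft_apply, mul_assoc]⟩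
  have h6 := Submodule.eq_of_le_of_finrank_le h5 (he4 ▸ h4)
  have h7 : e ∈ LinearMap.range (LinearMap.mulLeft K (e * f)) := by
    rw [h6]
    exact ⟨e, by rw [LinearMap.mulLeft_apply, he2]⟩
  obtain ⟨b, hb⟩ := h7
  rw [LinearMap.mulLeft_apply] at hb
  have h8 : (e * f) * e = e := by
    calc (e * f) * e = (e * f) * ((e * f) * b) := by rw [hb]
      _ = e := by rw [← mul_assoc, h2, hb]
  rw [mul_assoc, ← he1, ← mul_assoc, he2] at h8
  exact h8

end IsPrin

end Cfsg.Agent.H662
end

-- part: H662/PrinRep
section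
/-!
# Irreducible representations in the principal block

* `aug` : the augmentation of the group algebra;
* `asAlgebraHom_eq_aug` : central elements act through the augmentation on an irreducible
  representation on which the principal idempotent is the identity;
* `card_le` : there are at most `|H|_p ^ 2` of these over the residue field.
-/

set_option autoImplicit false
open Module Cfsg

namespace Cfsg.Agent.H662.PrinRep

open Cfsg.Agent.H662.KeyAbs Cfsg.Agent.Blocks.Central Cfsg.Agent.Blocks.Local

/-- The augmentation. -/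
noncomputable def aug (K H : Type*) [Field K] [Group H] : MonoidAlgebra K H →+* K :=
  (MonoidAlgebra.lift K K H (1 : H →* K) : MonoidAlgebra K H →ₐ[K] K).toRingHom

section general

variable {K : Type*} [Field K] {H : Type*} [Group H]

theorem aug_apply [Fintype H] (a : MonoidAlgebra K H) : aug K H a = ∑ g, a.coeff g := by
  show MonoidAlgebra.lift K K H (1 : H →* K) a = _
  rw [MonoidAlgebra.lift_apply, Finsupp.sum_fintype _ _ (by simp)]
  simp

theorem aug_smul (c : K) (a : MonoidAlgebra K H) : aug K H (c • a) = c * aug K H a := by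
  show MonoidAlgebra.lift K K H (1 : H →* K) (c • a) = _
  rw [map_smul, smul_eq_mul]
  rfl

theorem aug_classSum [Finite H] (g : H) : aug K H (classSum K g) =
    ((Subgroup.centralizer ({g} : Set H)).index : K) := by
  classical
  have := Fintype.ofFinite H
  rw [aug_apply]
  have h1 : ∑ x : H, (classSum K g).coeff x = ∑ x ∈ Finset.univ.filter (IsConj g), (1 : K) := by
    rw [Finset.sum_filter]
    refine Finset.sum_congr rfl fun x _ => ?_
    rw [coeff_classSum]
    split_ifs <;> rfl
  rw [h1, Finset.sum_const, nsmul_eq_mul, mul_one]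
  congr 1
  have h := Cfsg.Agent.Characters.ClassMul.card_filter_isConj g
  rw [← h]

variable {V : Type*} [AddCommGroup V] [Module K V] [FiniteDimensional K V]

/-- Schur's lemma. -/
theorem exists_scalar_of_irreducible [IsAlgClosed K] (ρ : Representation K H V)
    (hirr : ρ.IsIrreducible) (f : Module.End K V) (hf : ∀ h, ρ h * f = f * ρ h) :
    ∃ c : K, f = c • 1 := by
  obtain ⟨hnt, h⟩ := (isIrreducible_iff ρ).1 hirr
  have hmin : MinInv ρ ⊤ := by
    refine ⟨fun g v _ => Submodule.mem_top, top_ne_bot, fun S hS _ h0 => ?_⟩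
    exact (h S hS).resolve_left h0
  obtain ⟨c, hc⟩ := exists_scalar ρ hmin f hf fun v _ => Submodule.mem_top
  exact ⟨c, LinearMap.ext fun v => hc v Submodule.mem_top⟩

/-- Central elements act through the augmentation on principal irreducibles. -/
theorem asAlgebraHom_eq_aug [IsAlgClosed K] [Finite H] {e : MonoidAlgebra K H}
    (he : IsPrin (aug K H) e) (ρ : Representation K H V) (hirr : ρ.IsIrreducible)
    (h1 : ρ.asAlgebraHom e = 1) {z : MonoidAlgebra K H} (hz : ∀ a, z * a = a * z) :
    ρ.asAlgebraHom z = aug K H z • 1 := by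
  obtain ⟨hnt, -⟩ := (isIrreducible_iff ρ).1 hirr
  obtain ⟨c, hc⟩ := exists_scalar_of_irreducible ρ hirr (ρ.asAlgebraHom z) (by
    intro h
    rw [← Representation.asAlgebraHom_single_one, ← map_mul, ← map_mul, hz])
  suffices h : aug K H z = c by rw [hc, h]
  have hfd : FiniteDimensional K (MonoidAlgebra K H) := inferInstance
  by_contra hne
  have hy : ∀ a, (z - c • 1) * a = a * (z - c • 1) := by
    intro a
    rw [sub_mul, mul_sub, hz, smul_mul_assoc, one_mul, mul_smul_comm, mul_one]
  have hy0 : aug K H (z - c • 1) ≠ 0 := by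
    rw [map_sub, aug_smul, map_one, mul_one]
    exact sub_ne_zero.2 hne
  obtain ⟨b, hb⟩ := he.exists_eq_mul hy hy0
  have h2 := congrArg ρ.asAlgebraHom hb
  rw [map_mul, map_sub, hc, map_smul, map_one, sub_self, zero_mul, h1] at h2
  exact one_ne_zero h2

end general

section block

universe u

variable {H : Type u} [Group H] [Finite H] {p : ℕ} [Fact p.Prime] {M : Ideal AlgInt}
  [hP : M.IsPrime]

/-- The number of principal irreducible representations. -/
theorem card_le (hM : IsPModular p M) {e : MonoidAlgebra (ResField M) H}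
    (he : IsPrin (aug (ResField M) H) e) {ι : Type*} [Finite ι] {V : ι → Type*}
    [∀ i, AddCommGroup (V i)] [∀ i, Module (ResField M) (V i)]
    [∀ i, FiniteDimensional (ResField M) (V i)]
    (ρ : ∀ i, Representation (ResField M) H (V i)) (hirr : ∀ i, (ρ i).IsIrreducible)
    (hne : ∀ i j, i ≠ j → IsEmpty (Representation.Equiv (ρ i) (ρ j)))
    (h1 : ∀ i, (ρ i).asAlgebraHom e = 1) :
    Nat.card ι ≤ (p ^ (Nat.card H).factorization p) ^ 2 := by
  have hmax : M.IsMaximal := isMaximal_of_isPModular hM
  have halg : IsAlgClosed (ResField M) := Cfsg.Agent.Blocks.CyclicAssembly.isAlgClosed_resField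
  set χ₀ : IrrCharacter H := ⟨fun _ => 1, Cfsg.Agent.Characters.Core.isIrr_one⟩ with hχ₀
  have hB : IsPBlock M (blockOf M (χ₀ : H → ℂ)) := ⟨χ₀, rfl⟩
  have h2 := Cfsg.Agent.Blocks.BlockRank.add_le_card hM hB
    (Cfsg.Agent.Blocks.Basic.mem_blockOf_self χ₀) ρ hirr hne
    (fun i g => by
      have hz : ∀ a : MonoidAlgebra (ResField M) H,
          classSum (ResField M) g * a = a * classSum (ResField M) g := fun a =>
        ((Subalgebra.mem_center_iff.1 (classSum_mem_center g)) a).symm
      rw [asAlgebraHom_eq_aug he (ρ i) (hirr i) (h1 i) hz, aug_classSum]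
      congr 1
      have h3 : centralChar (χ₀ : H → ℂ) g =
          (((Subgroup.centralizer ({g} : Set H)).index : ℕ) : ℂ) := by
        unfold centralChar
        rw [hχ₀]
        simp
      rw [h3, redC_natCast])
    (κ := Empty) (fun j => j.elim) (fun j => j.elim) (fun j => j.elim) (fun j => j.elim)
    (linearIndependent_empty_type)
  have h3 := Cfsg.Agent.H659.BlockBound.card_block_le hM _ hB
  rw [Nat.card_eq_zero.2 (Or.inl (inferInstance : IsEmpty Empty)), add_zero] at h2
  exact h2.trans h3

end block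

end Cfsg.Agent.H662.PrinRep
end

-- part: H662/TraceField
section
/-!
# A bound for the image of a representation in the principal block

If the principal idempotent of `H` over the residue field acts as the identity on a space of
dimension `d`, then the kernel of `H` on this space has index at most
`(p ^ m * p ^ (p ^ m) ^ 2) ^ (d ^ 2)`, `p ^ m` being the order of a Sylow `p`-subgroup of `H`.
-/

set_option autoImplicit false
open Module Cfsg

namespace Cfsg.Agent.H662.TraceField

open Cfsg.Agent.H662.KeyAbs Cfsg.Agent.H662.PrinRep Cfsg.Agent.Blocks.Local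

section twist

variable {K : Type*} [Field K] {H : Type*} [Group H] {ι : Type*} [Fintype ι]

/-- Twist of a representation by a field automorphism. -/
def twist (φ : K ≃+* K) (ρ : Representation K H (ι → K)) : Representation K H (ι → K) where
  toFun g :=
    { toFun := fun v i => φ (ρ g (fun j => φ.symm (v j)) i)
      map_add' := fun v w => by
        funext i
        have : (fun j => φ.symm ((v + w) j)) = (fun j => φ.symm (v j)) + fun j => φ.symm (w j) := by
          funext j
          simp
        rw [this, map_add]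
        simp
      map_smul' := fun c v => by
        funext i
        have : (fun j => φ.symm ((c • v) j)) = φ.symm c • fun j => φ.symm (v j) := by
          funext j
          simp
        rw [this, map_smul]
        simp }
  map_one' := by
    ext v i
    simp
  map_mul' g h := by
    ext v i
    simp [Module.End.mul_apply]

omit [Fintype ι] in
theorem twist_apply (φ : K ≃+* K) (ρ : Representation K H (ι → K)) (g : H) (v : ι → K) (i : ι) :
    twist φ ρ g v i = φ (ρ g (fun j => φ.symm (v j)) i) := rfl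

theorem trace_twist (φ : K ≃+* K) (ρ : Representation K H (ι → K)) (g : H) :
    LinearMap.trace K (ι → K) (twist φ ρ g) = φ (LinearMap.trace K (ι → K) (ρ g)) := by
  classical
  rw [LinearMap.trace_eq_matrix_trace K (Pi.basisFun K ι),
    LinearMap.trace_eq_matrix_trace K (Pi.basisFun K ι), Matrix.trace, Matrix.trace, map_sum]
  refine Finset.sum_congr rfl fun i _ => ?_
  simp only [Matrix.diag_apply, LinearMap.toMatrix_apply, Pi.basisFun_apply, Pi.basisFun_repr]
  rw [twist_apply]
  have h : (fun j => φ.symm ((Pi.single i (1 : K) : ι → K) j)) = Pi.single i 1 := by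
    funext j
    by_cases hj : j = i
    · subst hj
      simp
    · simp [hj]
  rw [h]

omit [Fintype ι] in
theorem isIrreducible_twist (φ : K ≃+* K) (ρ : Representation K H (ι → K))
    (hirr : ρ.IsIrreducible) : (twist φ ρ).IsIrreducible := by
  obtain ⟨hnt, h⟩ := (isIrreducible_iff ρ).1 hirr
  rw [isIrreducible_iff]
  refine ⟨hnt, fun S hS => ?_⟩
  let S' : Submodule K (ι → K) :=
    { carrier := {v | (fun i => φ (v i)) ∈ S}
      add_mem' := fun {v w} hv hw => by
        have h1 := S.add_mem hv hw
        have h2 : (fun i => φ ((v + w) i)) = (fun i => φ (v i)) + fun i => φ (w i) := by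
          funext i
          simp
        show (fun i => φ ((v + w) i)) ∈ S
        rw [h2]
        exact h1
      zero_mem' := by
        have h2 : (fun i => φ ((0 : ι → K) i)) = 0 := by
          funext i
          simp
        show (fun i => φ ((0 : ι → K) i)) ∈ S
        rw [h2]
        exact S.zero_mem
      smul_mem' := fun c v hv => by
        have h2 : (fun i => φ ((c • v) i)) = φ c • fun i => φ (v i) := by
          funext i
          simp
        show (fun i => φ ((c • v) i)) ∈ S
        rw [h2]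
        exact S.smul_mem _ hv }
  have hS' : ∀ v, v ∈ S' ↔ (fun i => φ (v i)) ∈ S := fun v => Iff.rfl
  have hinv : Inv ρ S' := by
    intro g v hv
    rw [hS'] at hv ⊢
    have h1 := hS g _ hv
    have h2 : twist φ ρ g (fun i => φ (v i)) = fun i => φ (ρ g v i) := by
      funext i
      rw [twist_apply]
      simp
    rw [h2] at h1
    exact h1
  have hback : ∀ w : ι → K, (fun i => φ ((fun j => φ.symm (w j)) i)) = w := by
    intro w
    funext i
    simp
  rcases h S' hinv with h0 | h0
  · left
    rw [eq_bot_iff]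
    intro w hw
    have h1 : (fun j => φ.symm (w j)) ∈ S' := by
      rw [hS', hback]
      exact hw
    rw [h0, Submodule.mem_bot] at h1
    rw [Submodule.mem_bot]
    funext j
    have := congrFun h1 j
    simpa using this
  · right
    rw [eq_top_iff]
    intro w _
    have h1 : (fun j => φ.symm (w j)) ∈ S' := by
      rw [h0]
      exact Submodule.mem_top
    rw [hS', hback] at h1
    exact h1

theorem asAlgebraHom_eq_sum [Fintype H] {V : Type*} [AddCommGroup V] [Module K V]
    (ρ : Representation K H V) (a : MonoidAlgebra K H) :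
    ρ.asAlgebraHom a = ∑ g, a.coeff g • ρ g := by
  rw [Representation.asAlgebraHom_def, MonoidAlgebra.lift_apply,
    Finsupp.sum_fintype _ _ (by simp)]

omit [Fintype ι] in
theorem asAlgebraHom_twist [Finite H] (φ : K ≃+* K) (ρ : Representation K H (ι → K))
    {e : MonoidAlgebra K H} (he : ∀ g, φ (e.coeff g) = e.coeff g) (h1 : ρ.asAlgebraHom e = 1) :
    (twist φ ρ).asAlgebraHom e = 1 := by
  have := Fintype.ofFinite H
  rw [asAlgebraHom_eq_sum] at h1 ⊢
  ext v i
  have h2 := congrFun (LinearMap.congr_fun h1 (fun j => φ.symm (v j))) i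
  rw [LinearMap.sum_apply, Finset.sum_apply] at h2 ⊢
  have h3 := congrArg φ h2
  rw [map_sum] at h3
  simp only [LinearMap.smul_apply, Pi.smul_apply, smul_eq_mul, map_mul, he, Module.End.one_apply,
    RingEquiv.apply_symm_apply] at h3 ⊢
  simpa only [twist_apply] using h3

/-- The principal idempotent has coefficients fixed by all automorphisms of the field. -/
theorem coeff_fixed {e : MonoidAlgebra K H} [Finite H] (he : IsPrin (aug K H) e) (φ : K ≃+* K)
    (g : H) : φ (e.coeff g) = e.coeff g := by
  have := Fintype.ofFinite H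
  have h1 : ∀ a : MonoidAlgebra K H, aug K H (MonoidAlgebra.mapRingEquiv H φ a) =
      φ (aug K H a) := by
    intro a
    rw [aug_apply, aug_apply, map_sum]
    simp
  have h2 := he.map_eq (MonoidAlgebra.mapRingEquiv H φ) (fun a => by
    rw [h1]
    constructor
    · intro h
      exact φ.injective (by rw [h, map_one])
    · intro h
      rw [h, map_one])
  have h3 := congrArg (fun a : MonoidAlgebra K H => a.coeff g) h2
  simpa using h3

/-- The principal idempotent is invariant under automorphisms of the group. -/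
theorem coeff_aut {e : MonoidAlgebra K H} [Finite H] (he : IsPrin (aug K H) e) (σ : H ≃* H)
    (g : H) : e.coeff (σ g) = e.coeff g := by
  have := Fintype.ofFinite H
  have h1 : ∀ a : MonoidAlgebra K H, aug K H (MonoidAlgebra.domCongr K K σ a) = aug K H a := by
    intro a
    rw [aug_apply, aug_apply]
    simp only [MonoidAlgebra.coeff_domCongr]
    exact Equiv.sum_comp σ.symm.toEquiv (fun x => a.coeff x)
  have h2 := he.map_eq (MonoidAlgebra.domCongr K K σ).toRingEquiv (fun a => by
    show aug K H (MonoidAlgebra.domCongr K K σ a) = 1 ↔ _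
    rw [h1])
  have h3 := congrArg (fun a : MonoidAlgebra K H => a.coeff (σ g)) h2
  have h4 : (MonoidAlgebra.domCongr K K σ e).coeff (σ g) = e.coeff (σ g) := h3
  rw [MonoidAlgebra.coeff_domCongr, MulEquiv.symm_apply_apply] at h4
  exact h4.symm

end twist

section bound

theorem trace_equiv {K : Type*} [Field K] {H : Type*} [Group H] {V W : Type*} [AddCommGroup V]
    [Module K V] [AddCommGroup W] [Module K W]
    {ρ : Representation K H V} {σ : Representation K H W} (e : Representation.Equiv ρ σ) (g : H) :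
    LinearMap.trace K V (ρ g) = LinearMap.trace K W (σ g) := by
  have h1 : σ g = e.toLinearEquiv.conj (ρ g) := by
    ext w
    rw [LinearEquiv.conj_apply_apply]
    have h2 := LinearMap.congr_fun (e.isIntertwining' g) (e.toLinearEquiv.symm w)
    have h3 : e.toLinearEquiv (e.toLinearEquiv.symm w) = w := e.toLinearEquiv.apply_symm_apply w
    have h4 : e.toLinearEquiv (ρ g (e.toLinearEquiv.symm w)) =
        σ g (e.toLinearEquiv (e.toLinearEquiv.symm w)) := h2
    rw [h3] at h4
    exact h4.symm
  rw [h1, LinearMap.trace_conj']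

universe u

variable {H : Type u} [Group H] [Finite H] {p : ℕ} [hp : Fact p.Prime] {M : Ideal AlgInt}
  [hP : M.IsPrime]

/-- The traces of a principal irreducible representation lie in a small finite field. -/
theorem exists_trace_pow (hM : IsPModular p M) {e : MonoidAlgebra (ResField M) H}
    (he : IsPrin (aug (ResField M) H) e) {ι : Type} [Fintype ι]
    (ρ : Representation (ResField M) H (ι → ResField M)) (hirr : ρ.IsIrreducible)
    (h1 : ρ.asAlgebraHom e = 1) :
    ∃ t : ℕ, 1 ≤ t ∧ t ≤ (p ^ (Nat.card H).factorization p) ^ 2 ∧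
      ∀ g, LinearMap.trace (ResField M) (ι → ResField M) (ρ g) ^ p ^ t =
        LinearMap.trace (ResField M) (ι → ResField M) (ρ g) := by
  have hmax : M.IsMaximal := isMaximal_of_isPModular hM
  have halg : IsAlgClosed (ResField M) := Cfsg.Agent.Blocks.CyclicAssembly.isAlgClosed_resField
  have hchar : CharP (ResField M) p := charP_resField hM
  set s := (p ^ (Nat.card H).factorization p) ^ 2 with hs
  let φ : ℕ → (ResField M ≃+* ResField M) := fun k => iterateFrobeniusEquiv (ResField M) p k
  have hφ : ∀ k x, φ k x = x ^ p ^ k := fun k x => iterateFrobeniusEquiv_def _ _ _ _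
  have hnot : ¬ ∀ i j : Fin (s + 1), i ≠ j →
      IsEmpty (Representation.Equiv (twist (φ i) ρ) (twist (φ j) ρ)) := by
    intro hne
    have h2 := card_le hM he (fun k : Fin (s + 1) => twist (φ k) ρ)
      (fun k => isIrreducible_twist _ _ hirr) hne
      (fun k => asAlgebraHom_twist _ _ (coeff_fixed he _) h1)
    rw [Nat.card_eq_fintype_card, Fintype.card_fin] at h2
    omega
  push Not at hnot
  obtain ⟨i, j, hij, hne⟩ := hnot
  have key : ∀ i j : Fin (s + 1), i < j →
      Nonempty (Representation.Equiv (twist (φ i) ρ) (twist (φ j) ρ)) →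
      ∃ t : ℕ, 1 ≤ t ∧ t ≤ s ∧
      ∀ g, LinearMap.trace (ResField M) (ι → ResField M) (ρ g) ^ p ^ t =
        LinearMap.trace (ResField M) (ι → ResField M) (ρ g) := by
    intro i j hij ⟨E⟩
    refine ⟨(j : ℕ) - i, by have : (i : ℕ) < j := hij; omega, by have := j.2; omega, fun g => ?_⟩
    have h3 := trace_equiv E g
    rw [trace_twist, trace_twist, hφ, hφ] at h3
    have h4 : (j : ℕ) = ((j : ℕ) - i) + i := by
      have : (i : ℕ) < j := hij
      omega
    rw [h4, pow_add, pow_mul, ← hφ, ← hφ (i : ℕ)] at h3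
    exact ((φ i).injective h3).symm
  rcases lt_or_gt_of_ne hij with h | h
  · exact key i j h hne
  · exact key j i h ⟨hne.some.symm⟩

/-- The solutions of `x ^ q = x`. -/
theorem ncard_fixed_le {K : Type*} [Field K] {q : ℕ} (hq : 1 < q) :
    {x : K | x ^ q = x}.Finite ∧ {x : K | x ^ q = x}.ncard ≤ q := by
  classical
  have h0 : (Polynomial.X ^ q - Polynomial.X : Polynomial K) ≠ 0 :=
    FiniteField.X_pow_card_sub_X_ne_zero K hq
  have h1 : {x : K | x ^ q = x} =
      ((Polynomial.X ^ q - Polynomial.X : Polynomial K).roots.toFinset : Set K) := by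
    ext x
    simp only [Set.mem_ofPred_eq, Finset.mem_coe, Multiset.mem_toFinset]
    rw [Polynomial.mem_roots h0, Polynomial.IsRoot, Polynomial.eval_sub, Polynomial.eval_pow,
      Polynomial.eval_X, sub_eq_zero]
  refine ⟨by rw [h1]; exact Finset.finite_toSet _, ?_⟩
  rw [h1, Set.ncard_coe_finset]
  refine (Multiset.toFinset_card_le _).trans ((Polynomial.card_roots' _).trans ?_)
  rw [FiniteField.X_pow_card_sub_X_natDegree_eq K hq]

/-- The trace form separates endomorphisms. -/
theorem eq_of_trace_eq {K : Type*} [Field K] {V : Type*} [AddCommGroup V] [Module K V]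
    [FiniteDimensional K V] {A A' : Module.End K V}
    (h : ∀ B : Module.End K V, LinearMap.trace K V (A * B) = LinearMap.trace K V (A' * B)) :
    A = A' := by
  ext v
  by_contra hne
  obtain ⟨f, hf⟩ : ∃ f : Module.Dual K V, f (A v - A' v) = 1 :=
    Module.Projective.exists_dual_eq_one K (sub_ne_zero.2 hne)
  have h1 := h (f.smulRight v)
  have h2 : ∀ T : Module.End K V, T * (f.smulRight v) = f.smulRight (T v) := by
    intro T
    ext w
    simp [Module.End.mul_apply]
  rw [h2, h2, LinearMap.trace_smulRight, LinearMap.trace_smulRight, ← sub_eq_zero, ← map_sub,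
    hf] at h1
  exact one_ne_zero h1

/-- Transport of a representation along a linear isomorphism. -/
def conjRep {K : Type*} [Field K] {V W : Type*} [AddCommGroup V] [Module K V] [AddCommGroup W]
    [Module K W] (b : V ≃ₗ[K] W) {G : Type*} [Group G] (ρ : Representation K G V) :
    Representation K G W where
  toFun g := b.conj (ρ g)
  map_one' := by
    ext w
    simp
  map_mul' g h := by
    ext w
    simp [LinearEquiv.conj_apply_apply, Module.End.mul_apply]

theorem conjRep_apply {K : Type*} [Field K] {V W : Type*} [AddCommGroup V] [Module K V]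
    [AddCommGroup W] [Module K W] (b : V ≃ₗ[K] W) {G : Type*} [Group G]
    (ρ : Representation K G V) (g : G) (w : W) : conjRep b ρ g w = b (ρ g (b.symm w)) := rfl

theorem isIrreducible_conjRep {K : Type*} [Field K] {V W : Type*} [AddCommGroup V] [Module K V]
    [AddCommGroup W] [Module K W] (b : V ≃ₗ[K] W) {G : Type*} [Group G]
    (ρ : Representation K G V) (hirr : ρ.IsIrreducible) : (conjRep b ρ).IsIrreducible := by
  obtain ⟨hnt, h⟩ := (isIrreducible_iff ρ).1 hirr
  rw [isIrreducible_iff]
  refine ⟨b.injective.nontrivial, fun S hS => ?_⟩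
  have hinv : Inv ρ (S.comap b.toLinearMap) := by
    intro g v hv
    have h1 := hS g _ hv
    rw [conjRep_apply] at h1
    have h2 : b.symm (b.toLinearMap v) = v := b.symm_apply_apply v
    rw [h2] at h1
    exact h1
  rcases h _ hinv with h0 | h0
  · left
    rw [eq_bot_iff]
    intro w hw
    have h1 : b.symm w ∈ S.comap b.toLinearMap := by
      rw [Submodule.mem_comap]
      have h2 : b.toLinearMap (b.symm w) = w := b.apply_symm_apply w
      rwa [h2]
    rw [h0, Submodule.mem_bot] at h1
    rw [Submodule.mem_bot, ← b.apply_symm_apply w, h1, map_zero]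
  · right
    rw [eq_top_iff]
    intro w _
    have h1 : b.symm w ∈ S.comap b.toLinearMap := by
      rw [h0]
      exact Submodule.mem_top
    rw [Submodule.mem_comap] at h1
    have h2 : b.toLinearMap (b.symm w) = w := b.apply_symm_apply w
    rwa [h2] at h1

theorem asAlgebraHom_conjRep {K : Type*} [Field K] {V W : Type*} [AddCommGroup V] [Module K V]
    [AddCommGroup W] [Module K W] (b : V ≃ₗ[K] W) {G : Type*} [Group G] [Finite G]
    (ρ : Representation K G V) {e : MonoidAlgebra K G} (h1 : ρ.asAlgebraHom e = 1) :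
    (conjRep b ρ).asAlgebraHom e = 1 := by
  have := Fintype.ofFinite G
  rw [asAlgebraHom_eq_sum] at h1 ⊢
  have h2 := congrArg b.conj h1
  rw [map_sum] at h2
  simp only [map_smul] at h2
  have h3 : b.conj (1 : Module.End K V) = 1 := by
    ext w
    simp
  rw [h3] at h2
  exact h2

theorem index_ker_of_trace {K : Type*} [Field K] [IsAlgClosed K] {G : Type*} [Group G] {V : Type*}
    [AddCommGroup V] [Module K V] [FiniteDimensional K V] (ρ : Representation K G V)
    (hirr : ρ.IsIrreducible) {q : ℕ} (hq1 : 1 < q)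
    (ht : ∀ g, LinearMap.trace K V (ρ g) ^ q = LinearMap.trace K V (ρ g)) :
    (MonoidHom.ker ρ).index ≤ q ^ (finrank K V ^ 2) := by
  obtain ⟨hTfin, hTcard⟩ := ncard_fixed_le (K := K) hq1
  set T := {x : K | x ^ q = x} with hT
  have hTf : Finite T := hTfin
  obtain ⟨S, hS1, hS2, hS3⟩ := exists_linearIndependent K (Set.range ρ)
  rw [span_range_eq_top ρ hirr] at hS2
  have hSf : Finite S := hS3.finite
  have := Fintype.ofFinite S
  have hScard : Nat.card S ≤ finrank K V ^ 2 := by
    have h2 := hS3.fintype_card_le_finrank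
    rw [Module.finrank_linearMap, ← sq] at h2
    rwa [Nat.card_eq_fintype_card]
  have hmem : ∀ (g : G) (B : S), LinearMap.trace K V (ρ g * (B : Module.End K V)) ∈ T := by
    intro g B
    obtain ⟨h, hh⟩ := hS1 B.2
    rw [← hh, ← map_mul]
    exact ht _
  refine (index_le_of_map (X := S → T) (MonoidHom.ker ρ) (fun g B => ⟨_, hmem g B⟩) ?_).trans ?_
  · intro g g' hgg
    have h2 : (LinearMap.trace K V) ∘ₗ (LinearMap.mulLeft K (ρ g)) =
        (LinearMap.trace K V) ∘ₗ (LinearMap.mulLeft K (ρ g')) := by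
      apply LinearMap.ext_on hS2
      intro B hB
      exact congrArg Subtype.val (congrFun hgg ⟨B, hB⟩)
    have h3 : ρ g = ρ g' := eq_of_trace_eq fun B => LinearMap.congr_fun h2 B
    rw [MonoidHom.mem_ker, map_mul, ← h3, ← map_mul, inv_mul_cancel, map_one]
  · rw [Nat.card_fun]
    calc Nat.card T ^ Nat.card S ≤ q ^ Nat.card S := Nat.pow_le_pow_left hTcard _
      _ ≤ q ^ (finrank K V ^ 2) := Nat.pow_le_pow_right (by omega) hScard

/-- The kernel of a principal irreducible representation. -/
theorem index_ker_irreducible (hM : IsPModular p M) {e : MonoidAlgebra (ResField M) H}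
    (he : IsPrin (aug (ResField M) H) e) {V : Type*} [AddCommGroup V] [Module (ResField M) V]
    [FiniteDimensional (ResField M) V] (ρ : Representation (ResField M) H V)
    (hirr : ρ.IsIrreducible) (h1 : ρ.asAlgebraHom e = 1) :
    (MonoidHom.ker ρ).index ≤
      (p ^ (p ^ (Nat.card H).factorization p) ^ 2) ^ (finrank (ResField M) V ^ 2) := by
  have hmax : M.IsMaximal := isMaximal_of_isPModular hM
  have halg : IsAlgClosed (ResField M) := Cfsg.Agent.Blocks.CyclicAssembly.isAlgClosed_resField
  -- pass to coordinates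
  obtain ⟨t, ht1, ht2, ht⟩ := exists_trace_pow hM he
    (conjRep (finBasis (ResField M) V).equivFun ρ) (isIrreducible_conjRep _ ρ hirr)
    (asAlgebraHom_conjRep _ ρ h1)
  have ht' : ∀ g, LinearMap.trace (ResField M) V (ρ g) ^ p ^ t =
      LinearMap.trace (ResField M) V (ρ g) := by
    intro g
    have h2 := ht g
    have h3 : LinearMap.trace (ResField M) _ (conjRep (finBasis (ResField M) V).equivFun ρ g) =
        LinearMap.trace (ResField M) V (ρ g) := LinearMap.trace_conj' (ρ g) _
    rw [h3] at h2
    exact h2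
  refine (index_ker_of_trace ρ hirr (Nat.one_lt_pow (by omega) hp.out.one_lt) ht').trans ?_
  exact Nat.pow_le_pow_left (Nat.pow_le_pow_right hp.out.pos ht2) _

/-- The kernel of a representation in the principal block. -/
theorem index_ker_le (hM : IsPModular p M) {e : MonoidAlgebra (ResField M) H}
    (he : IsPrin (aug (ResField M) H) e) {V : Type*} [AddCommGroup V] [Module (ResField M) V]
    [FiniteDimensional (ResField M) V] (ρ : Representation (ResField M) H V)
    (h1 : ρ.asAlgebraHom e = 1) :
    (MonoidHom.ker ρ).index ≤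
      (p ^ (Nat.card H).factorization p * p ^ (p ^ (Nat.card H).factorization p) ^ 2) ^
        (finrank (ResField M) V ^ 2) := by
  have hchar : CharP (ResField M) p := charP_resField hM
  have hp1 := hp.out.pos
  set P := p ^ (Nat.card H).factorization p with hP
  set Q := p ^ P ^ 2 with hQ
  have hPpos : 0 < P := Nat.pow_pos hp1
  have hQpos : 0 < Q := Nat.pow_pos hp1
  induction hn : finrank (ResField M) V using Nat.strong_induction_on generalizing V with
  | _ n ih =>
    rcases subsingleton_or_nontrivial V with hV | hV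
    · have h2 : MonoidHom.ker ρ = ⊤ := by
        rw [eq_top_iff]
        intro g _
        exact Subsingleton.elim _ _
      rw [h2, Subgroup.index_top]
      exact Nat.one_le_pow _ _ (by positivity)
    by_cases hirr : ρ.IsIrreducible
    · have h2 := index_ker_irreducible hM he ρ hirr h1
      rw [← hP, ← hQ, hn] at h2
      exact h2.trans (Nat.pow_le_pow_left (Nat.le_mul_of_pos_left _ hPpos) _)
    · rw [isIrreducible_iff] at hirr
      push Not at hirr
      obtain ⟨N, hN, hN0, hN1⟩ := hirr hV
      have h2 := Cfsg.Agent.H662.KeyAbs.index_ker_le (p := p) ρ N hN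
      have hf1 : 0 < finrank (ResField M) N := by
        rw [Module.finrank_pos_iff]
        exact Submodule.nontrivial_iff_ne_bot.2 hN0
      have hf2 : finrank (ResField M) N < finrank (ResField M) V :=
        Submodule.finrank_lt hN1
      have hf3 := Submodule.finrank_quotient_add_finrank N
      have h3 := ih _ (by omega) (sub ρ N hN) (asAlgebraHom_sub_eq_one ρ N hN h1) rfl
      have h4 := ih _ (by omega) (quot ρ N hN) (asAlgebraHom_quot_eq_one ρ N hN h1) rfl
      set a := finrank (ResField M) N with ha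
      set b := finrank (ResField M) (V ⧸ N) with hb
      have hab : n = a + b := by omega
      refine h2.trans ?_
      calc P * ((MonoidHom.ker (sub ρ N hN)).index * (MonoidHom.ker (quot ρ N hN)).index)
          ≤ (P * Q) * ((P * Q) ^ a ^ 2 * (P * Q) ^ b ^ 2) :=
            Nat.mul_le_mul (Nat.le_mul_of_pos_right _ hQpos) (Nat.mul_le_mul h3 h4)
        _ = (P * Q) ^ (a ^ 2 + b ^ 2 + 1) := by ring
        _ ≤ (P * Q) ^ (n ^ 2) := by
            apply Nat.pow_le_pow_right (by positivity)
            rw [hab]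
            have hb1 : 1 ≤ b := by omega
            nlinarith

end bound

end Cfsg.Agent.H662.TraceField
end

-- part: H662/BFKernel
section
/-!
# Abelian subgroups of bounded index: the kernel on the principal part of the tensor power
-/

set_option autoImplicit false
open Module

namespace Cfsg.Agent.H662.BF

open Cfsg.Agent.H662.KeyAbs Cfsg.Agent.H662.PrinRep Cfsg.Agent.H662.TraceField
open Cfsg.Agent.H662.Key

universe u

/-- The bound for the image of a group on a space in the principal block. -/
def ImageBound (K : Type) [Field K] (p : ℕ) : Prop :=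
  ∀ (H : Type u) [Group H] [Finite H] (e : MonoidAlgebra K H), IsPrin (aug K H) e →
    ∀ (V : Type) [AddCommGroup V] [Module K V] [FiniteDimensional K V]
    (ρ : Representation K H V), ρ.asAlgebraHom e = 1 →
    (MonoidHom.ker ρ).index ≤
      (p ^ (Nat.card H).factorization p * p ^ (p ^ (Nat.card H).factorization p) ^ 2) ^
        (finrank K V ^ 2)

section conj

variable {K : Type*} [Field K] {H : Type*} [Group H] {U : Type*} [AddCommGroup U] [Module K U]

/-- The conjugation representation. -/
def Ad (σ : Representation K H U) : Representation K H (Module.End K U) where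
  toFun h := (LinearMap.mulLeft K (σ h)) ∘ₗ (LinearMap.mulRight K (σ h⁻¹))
  map_one' := by
    refine LinearMap.ext fun a => ?_
    simp
  map_mul' g h := by
    refine LinearMap.ext fun a => ?_
    simp [Module.End.mul_apply, mul_assoc]

theorem Ad_apply (σ : Representation K H U) (h : H) (a : Module.End K U) :
    Ad σ h a = σ h * a * σ h⁻¹ := by
  simp [Ad, mul_assoc]

theorem asAlgebraHom_Ad [Fintype H] (σ : Representation K H U) (e : MonoidAlgebra K H)
    (a : Module.End K U) : (Ad σ).asAlgebraHom e a = avg σ (fun h => e.coeff h) a := by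
  rw [asAlgebraHom_eq_sum, LinearMap.sum_apply, avg]
  refine Finset.sum_congr rfl fun h _ => ?_
  rw [LinearMap.smul_apply, Ad_apply]

/-- The principal part. -/
noncomputable def prinPart (σ : Representation K H U) (e : MonoidAlgebra K H) :
    Submodule K (Module.End K U) := LinearMap.range ((Ad σ).asAlgebraHom e)

theorem inv_prinPart (σ : Representation K H U) {e : MonoidAlgebra K H}
    (he : ∀ a, e * a = a * e) : Inv (Ad σ) (prinPart σ e) := by
  rintro h _ ⟨a, rfl⟩
  refine ⟨Ad σ h a, ?_⟩
  have h1 := congrArg (Ad σ).asAlgebraHom (he (MonoidAlgebra.single h 1))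
  rw [map_mul, map_mul, Representation.asAlgebraHom_single_one] at h1
  exact LinearMap.congr_fun h1 a

theorem asAlgebraHom_prinPart (σ : Representation K H U) {e : MonoidAlgebra K H}
    (he : ∀ a, e * a = a * e) (he2 : e * e = e) :
    (sub (Ad σ) (prinPart σ e) (inv_prinPart σ he)).asAlgebraHom e = 1 := by
  refine LinearMap.ext fun x => Subtype.ext ?_
  rw [coe_asAlgebraHom_sub]
  obtain ⟨_, a, rfl⟩ := x
  show (Ad σ).asAlgebraHom e ((Ad σ).asAlgebraHom e a) = (Ad σ).asAlgebraHom e a
  rw [← Module.End.mul_apply, ← map_mul, he2]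

theorem mem_ker_prinPart [Fintype H] (σ : Representation K H U) {e : MonoidAlgebra K H}
    (he : ∀ a, e * a = a * e) (k : H) :
    k ∈ MonoidHom.ker (sub (Ad σ) (prinPart σ e) (inv_prinPart σ he)) ↔
      ∀ a, σ k * avg σ (fun h => e.coeff h) a * σ k⁻¹ = avg σ (fun h => e.coeff h) a := by
  rw [MonoidHom.mem_ker]
  have h0 : ∀ a, Ad σ k ((Ad σ).asAlgebraHom e a) =
      σ k * avg σ (fun h => e.coeff h) a * σ k⁻¹ := by
    intro a
    rw [Ad_apply, asAlgebraHom_Ad]
  constructor
  · intro hk a
    have h1 : Ad σ k ((Ad σ).asAlgebraHom e a) = (Ad σ).asAlgebraHom e a :=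
      congrArg Subtype.val (LinearMap.congr_fun hk ⟨(Ad σ).asAlgebraHom e a, a, rfl⟩)
    rw [h0, asAlgebraHom_Ad] at h1
    exact h1
  · intro hk
    refine LinearMap.ext fun x => Subtype.ext ?_
    obtain ⟨_, a, rfl⟩ := x
    show Ad σ k ((Ad σ).asAlgebraHom e a) = (Ad σ).asAlgebraHom e a
    rw [h0, asAlgebraHom_Ad]
    exact hk a

end conj

section main

variable {K : Type} [Field K] {p : ℕ} [hp : Fact p.Prime] [CharP K p] {G : Type u} [Group G]
  [Finite G] {V : Type} [AddCommGroup V] [Module K V]

omit [Finite G] in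
/-- Conjugation by an element of the big group. -/
theorem avg_conj [Fintype G] (H : Subgroup G) [hH : H.Normal] [Fintype H] {U : Type*}
    [AddCommGroup U] [Module K U] (σ : Representation K G U) (e : H → K)
    (he : ∀ (φ : H ≃* H) (h : H), e (φ h) = e h) (g : G) (a : Module.End K U) :
    σ g⁻¹ * avg (σ.comp H.subtype : Representation K H U) e a * σ g =
      avg (σ.comp H.subtype : Representation K H U) e (σ g⁻¹ * a * σ g) := by
  rw [avg, avg, Finset.mul_sum, Finset.sum_mul]
  refine (Fintype.sum_bijective (MulAut.conjNormal g : H ≃* H) (MulEquiv.bijective _) _ _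
    fun h => ?_).symm
  rw [he, mul_smul_comm, smul_mul_assoc]
  congr 1
  show σ h * (σ g⁻¹ * a * σ g) * σ ((h⁻¹ : H) : G) =
    σ g⁻¹ * (σ ((MulAut.conjNormal g h : H) : G) * a * σ ((((MulAut.conjNormal g h : H))⁻¹ : H) : G))
      * σ g
  rw [Subgroup.coe_inv, Subgroup.coe_inv, MulAut.conjNormal_apply]
  have h1 : σ (g * (h : G) * g⁻¹) = σ g * σ h * σ g⁻¹ := by rw [map_mul, map_mul]
  have h2 : σ (g * (h : G) * g⁻¹)⁻¹ = σ g * σ (h : G)⁻¹ * σ g⁻¹ := by
    rw [← map_mul, ← map_mul]
    congr 1
    group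
  have h3 : σ g⁻¹ * σ g = 1 := by rw [← map_mul, inv_mul_cancel, map_one]
  rw [h1, h2]
  calc σ (h : G) * (σ g⁻¹ * a * σ g) * σ (h : G)⁻¹
      = 1 * (σ (h : G) * σ g⁻¹ * a * (σ g * σ (h : G)⁻¹)) * 1 := by
        rw [one_mul, mul_one]; simp only [mul_assoc]
    _ = _ := by rw [← h3]; simp only [mul_assoc]

omit [CharP K p] in
/-- The `p`-part of the order drops. -/
theorem factorization_lt (H : Subgroup G) (hH : H = Subgroup.closure (pElts p G)) (K₀ : Subgroup H)
    [K₀.Normal] (h : K₀ ≠ ⊤) :
    (Nat.card (K₀.map H.subtype)).factorization p < (Nat.card G).factorization p := by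
  have hdvd : p ∣ K₀.index := by
    by_contra hnd
    apply h
    rw [eq_top_iff]
    have h1 : Subgroup.closure ((Subtype.val : H → G) ⁻¹' (pElts p G)) = ⊤ := by
      subst hH
      exact Subgroup.closure_closure_coe_preimage
    rw [← h1, Subgroup.closure_le]
    rintro x ⟨k, hk⟩
    have h2 : (QuotientGroup.mk x : H ⧸ K₀) ^ p ^ k = 1 := by
      rw [← QuotientGroup.mk_pow]
      have : x ^ p ^ k = 1 := Subtype.ext (by simpa using hk)
      rw [this]
      rfl
    have h3 : (QuotientGroup.mk x : H ⧸ K₀) ^ K₀.index = 1 := by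
      rw [Subgroup.index_eq_card, pow_card_eq_one']
    have h4 : (QuotientGroup.mk x : H ⧸ K₀) = 1 := by
      rw [← orderOf_eq_one_iff]
      have h5 := Nat.dvd_gcd (orderOf_dvd_of_pow_eq_one h2) (orderOf_dvd_of_pow_eq_one h3)
      rw [Nat.Coprime.gcd_eq_one (Nat.Coprime.pow_left k ((hp.out.coprime_iff_not_dvd).2 hnd))] at h5
      exact Nat.dvd_one.1 h5
    exact (QuotientGroup.eq_one_iff x).1 h4
  have hcard : Nat.card (K₀.map H.subtype) = Nat.card K₀ :=
    Nat.card_congr (K₀.equivMapOfInjective H.subtype H.subtype_injective).symm.toEquiv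
  have h1 := K₀.card_mul_index
  have hi0 : K₀.index ≠ 0 := Subgroup.index_ne_zero_of_finite
  have h2 : (Nat.card H).factorization p =
      (Nat.card K₀).factorization p + K₀.index.factorization p := by
    rw [← h1, Nat.factorization_mul Nat.card_pos.ne' hi0]
    rfl
  have h3 : 0 < K₀.index.factorization p := hp.out.factorization_pos_of_dvd hi0 hdvd
  have h4 := factorization_le_of_dvd Nat.card_pos.ne' (Subgroup.card_subgroup_dvd_card H) p
  rw [hcard]
  omega

omit [CharP K p] in
/-- The core of `exists_kernel`. -/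
theorem exists_kernel_core (hI : ImageBound.{u} K p) {m : ℕ} {U : Type}
    [AddCommGroup U] [Module K U] [FiniteDimensional K U] (σ : Representation K G U)
    (H : Subgroup G) [hHn : H.Normal] (hH : H = Subgroup.closure (pElts p G)) [Fintype H]
    (hm : (Nat.card G).factorization p ≤ m)
    (hnc : ∀ e : H → K, ∑ h, e h = 1 → ∃ (a : Module.End K U) (h : H),
      (σ.comp H.subtype : Representation K H U) h *
        avg (σ.comp H.subtype : Representation K H U) e a ≠
      avg (σ.comp H.subtype : Representation K H U) e a *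
        (σ.comp H.subtype : Representation K H U) h) :
    ∃ K₀ : Subgroup G, K₀.Normal ∧ K₀ ≤ H ∧
      K₀.relIndex H ≤ (p ^ m * p ^ (p ^ m) ^ 2) ^ (finrank K (Module.End K U) ^ 2) ∧
      (Nat.card K₀).factorization p < (Nat.card G).factorization p := by
  classical
  have := Fintype.ofFinite G
  set σH : Representation K H U := σ.comp H.subtype with hσH
  have hfd : FiniteDimensional K (MonoidAlgebra K H) := inferInstance
  obtain ⟨e, he⟩ := exists_isPrin (K := K) (aug K H)
  have hecoeff : ∀ (φ : H ≃* H) (h : H), e.coeff (φ h) = e.coeff h := fun φ h => coeff_aut he φ h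
  have hesum : ∑ h : H, e.coeff h = 1 := by rw [← aug_apply, he.aug]
  set K₀ : Subgroup H := MonoidHom.ker (sub (Ad σH) (prinPart σH e) (inv_prinPart σH he.comm))
    with hK₀
  have hmem : ∀ k : H, k ∈ K₀ ↔ ∀ a, σH k * avg σH (fun h => e.coeff h) a * σH k⁻¹ =
      avg σH (fun h => e.coeff h) a := fun k => mem_ker_prinPart σH he.comm k
  -- index
  have hKi : K₀.index ≤ (p ^ m * p ^ (p ^ m) ^ 2) ^ (finrank K (Module.End K U) ^ 2) := by
    have h1 := hI H e he (prinPart σH e) _ (asAlgebraHom_prinPart σH he.comm he.idem)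
    have h2 : finrank K (prinPart σH e) ≤ finrank K (Module.End K U) := Submodule.finrank_le _
    have h3 : (Nat.card H).factorization p ≤ m :=
      (factorization_le_of_dvd Nat.card_pos.ne' (Subgroup.card_subgroup_dvd_card H) p).trans hm
    have hp1 := hp.out.pos
    have h4 : p ^ (Nat.card H).factorization p ≤ p ^ m := Nat.pow_le_pow_right hp1 h3
    refine h1.trans ?_
    calc _ ≤ (p ^ m * p ^ (p ^ m) ^ 2) ^ (finrank K (prinPart σH e) ^ 2) := by
          apply Nat.pow_le_pow_left
          exact Nat.mul_le_mul h4 (Nat.pow_le_pow_right hp1 (Nat.pow_le_pow_left h4 2))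
      _ ≤ _ := by
          apply Nat.pow_le_pow_right
          · positivity
          · exact Nat.pow_le_pow_left h2 2
  -- properness
  have hKtop : K₀ ≠ ⊤ := by
    intro htop
    obtain ⟨a, h, hah⟩ := hnc (fun h => e.coeff h) hesum
    apply hah
    have h1 := (hmem h).1 (htop ▸ Subgroup.mem_top h) a
    have h2 : σH h⁻¹ * σH h = 1 := by rw [← map_mul, inv_mul_cancel, map_one]
    calc σH h * avg σH (fun h => e.coeff h) a
        = (σH h * avg σH (fun h => e.coeff h) a * σH h⁻¹) * σH h := by
          rw [mul_assoc _ (σH h⁻¹), h2, mul_one]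
      _ = _ := by rw [h1]
  refine ⟨K₀.map H.subtype, ?_, Subgroup.map_subtype_le K₀, ?_, factorization_lt H hH K₀ hKtop⟩
  · -- normality
    refine ⟨?_⟩
    rintro _ ⟨k, hk, rfl⟩ g
    refine ⟨MulAut.conjNormal g k, ?_, MulAut.conjNormal_apply g k⟩
    rw [SetLike.mem_coe, hmem] at hk ⊢
    intro a
    have h1 := avg_conj H σ (fun h => e.coeff h) hecoeff g a
    have h2 := hk (σ g⁻¹ * a * σ g)
    have hs : σ g * σ g⁻¹ = 1 := by rw [← map_mul, mul_inv_cancel, map_one]
    have h3 : σH (MulAut.conjNormal g k) = σ g * σH k * σ g⁻¹ := by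
      show σ ((MulAut.conjNormal g k : H) : G) = σ g * σ (k : G) * σ g⁻¹
      rw [MulAut.conjNormal_apply, map_mul, map_mul]
    have h4 : σH (MulAut.conjNormal g k)⁻¹ = σ g * σH k⁻¹ * σ g⁻¹ := by
      show σ (((MulAut.conjNormal g k : H)⁻¹ : H) : G) = σ g * σ ((k⁻¹ : H) : G) * σ g⁻¹
      rw [Subgroup.coe_inv, MulAut.conjNormal_apply, Subgroup.coe_inv, ← map_mul, ← map_mul]
      congr 1
      group
    rw [h3, h4]
    calc σ g * σH k * σ g⁻¹ * avg σH (fun h => e.coeff h) a * (σ g * σH k⁻¹ * σ g⁻¹)
        = σ g * (σH k * (σ g⁻¹ * avg σH (fun h => e.coeff h) a * σ g) * σH k⁻¹) * σ g⁻¹ := by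
          simp only [mul_assoc]
      _ = σ g * (σ g⁻¹ * avg σH (fun h => e.coeff h) a * σ g) * σ g⁻¹ := by
          rw [h1, h2]
      _ = (σ g * σ g⁻¹) * avg σH (fun h => e.coeff h) a * (σ g * σ g⁻¹) := by
          simp only [mul_assoc]
      _ = avg σH (fun h => e.coeff h) a := by rw [hs, one_mul, mul_one]
  · have h1 : (K₀.map H.subtype).relIndex H = K₀.index := by
      rw [Subgroup.relIndex, Subgroup.subgroupOf, Subgroup.comap_map_eq_self_of_injective
        H.subtype_injective]
    rw [h1]
    exact hKi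

end main

/-- A normal subgroup of bounded index in the group generated by the `p`-elements, with smaller
Sylow `p`-subgroups. -/
theorem exists_kernel {K : Type} [Field K] {p : ℕ} [hp : Fact p.Prime] [CharP K p]
    [IsAlgClosed K] (hI : ImageBound.{u} K p) (m d : ℕ) : ∃ b : ℕ,
    ∀ (G : Type u) [Group G] [Finite G] (V : Type) [AddCommGroup V] [Module K V]
    [FiniteDimensional K V] (ρ : Representation K G V), Function.Injective ρ → finrank K V = d →
    (Nat.card G).factorization p ≤ m → p ∣ Nat.card G →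
    ∃ K₀ : Subgroup G, K₀.Normal ∧ K₀ ≤ Subgroup.closure (pElts p G) ∧
      K₀.relIndex (Subgroup.closure (pElts p G)) ≤ b ∧
      (Nat.card K₀).factorization p < (Nat.card G).factorization p := by
  obtain ⟨i, hi⟩ := exists_not_commute.{0, u} K p d
  refine ⟨(p ^ m * p ^ (p ^ m) ^ 2) ^
    (finrank K (Module.End K ((Fin i → Fin (p - 1) → Fin d) → K)) ^ 2),
    fun G _ _ V _ _ _ ρ hρ hd hm hpG => ?_⟩
  classical
  set H := Subgroup.closure (pElts p G) with hH
  have hHn : H.Normal := closure_pElts_normal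
  have := Fintype.ofFinite H
  subst hd
  have hM : ∃ ρG : G →* Matrix (Fin (finrank K V)) (Fin (finrank K V)) K, ∀ g, ρG g = 1 → g = 1 := by
    refine ⟨((LinearMap.toMatrixAlgEquiv (finBasis K V) : Module.End K V ≃ₐ[K] _) : _ →* _).comp ρ,
      fun g hg => hρ ?_⟩
    rw [map_one]
    apply (LinearMap.toMatrixAlgEquiv (finBasis K V)).injective
    rw [map_one]
    exact hg
  obtain ⟨ρG, hρG⟩ := hM
  refine exists_kernel_core hI (big p (finrank K V) i ρG) H hH hm fun e he => ?_
  obtain ⟨x, hx⟩ := exists_prime_orderOf_dvd_card' p hpG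
  have hxp : x ^ p = 1 := by rw [← hx, pow_orderOf_eq_one]
  have hxH : x ∈ H := Subgroup.subset_closure ⟨1, by rw [pow_one, hxp]⟩
  exact hi H (ρG.comp H.subtype) ⟨x, hxH⟩ (Subtype.ext (by simpa using hxp)) (fun h1 => by
    have h4 : x = 1 := hρG x h1
    rw [h4, orderOf_one] at hx
    exact hp.out.one_lt.ne hx) e he

end Cfsg.Agent.H662.BF
end

-- part: H662/BFMain
section
/-!
# Abelian subgroups of bounded index: the induction

`exists_bd` : for all `m`, `n` there is `c` such that every finite group with `|G|_p ≤ p ^ m` and a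
faithful representation of dimension at most `n` over the residue field has an abelian subgroup of
index at most `c`.
-/

set_option autoImplicit false
open Module Cfsg

namespace Cfsg.Agent.H662.BF

open Cfsg.Agent.H662.KeyAbs Cfsg.Agent.H662.ChermakDelgado Cfsg.Agent.Blocks.Local

universe u

theorem bd_zero (K : Type) [Field K] (p m : ℕ) : Bd.{u} K p m 0 1 := by
  intro G _ _ V _ _ _ ρ hρ hn _
  have h0 : finrank K V = 0 := by omega
  have hV : Subsingleton V := Module.finrank_zero_iff.1 h0
  have hG : Subsingleton G := ⟨fun a b => hρ (Subsingleton.elim _ _)⟩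
  exact ⟨⊤, fun a _ b _ => Subsingleton.elim _ _, by rw [Subgroup.index_top]⟩

theorem bd_step {K : Type} [Field K] [IsAlgClosed K] {p : ℕ} [hp : Fact p.Prime] [CharP K p]
    (hI : ImageBound.{u} K p) {m n c₀ c₁ J : ℕ} (h₀ : Bd.{u} K p (m + 1) n c₀)
    (h₁ : Bd.{u} K p m (n + 1) c₁) (hJ : Bd.{u} K p 0 (n + 1) J) :
    ∃ c : ℕ, Bd.{u} K p (m + 1) (n + 1) c := by
  obtain ⟨b, hb⟩ := exists_kernel hI (m + 1) (n + 1)
  set r := c₁ ^ 2 * b with hr
  refine ⟨c₀ + p ^ (m + 1) * (c₀ * c₀) * (n + 1) + J + J * r ^ r, ?_⟩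
  intro G _ _ V _ _ _ ρ hρ hn hm
  rcases Nat.lt_or_ge (finrank K V) (n + 1) with hlt | hge
  · obtain ⟨A, hA, hAi⟩ := h₀ G V ρ hρ (by omega) hm
    exact ⟨A, hA, by omega⟩
  have hd : finrank K V = n + 1 := le_antisymm hn hge
  by_cases hns : ∃ A : Subgroup G, A.Normal ∧ (∀ a ∈ A, ∀ b ∈ A, a * b = b * a) ∧
      ¬ A ≤ scal ρ
  · obtain ⟨A, hAn, hA, hAs⟩ := hns
    obtain ⟨a, ha, has⟩ := SetLike.not_le_iff_exists.1 hAs
    obtain ⟨B, hB, hBi⟩ := of_nonscalar h₀ ρ hρ hn hm A hA
      ⟨a, ha, fun c hc => has ⟨c, hc⟩⟩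
    exact ⟨B, hB, by omega⟩
  push Not at hns
  by_cases hpG : p ∣ Nat.card G
  · obtain ⟨K₀, hK₀n, hK₀H, hK₀i, hK₀p⟩ := hb G V ρ hρ hd hm hpG
    obtain ⟨B, hB, hBi⟩ := h₁ K₀ V (ρ.comp K₀.subtype) (hρ.comp K₀.subtype_injective) hn (by omega)
    obtain ⟨L, hLc, hL, hLi⟩ := exists_characteristic B hB
    have hLn : (L.map K₀.subtype).Normal := ConjAct.normal_of_characteristic_of_normal
    have hLs : L.map K₀.subtype ≤ scal ρ := by
      apply hns _ hLn
      rintro _ ⟨a, ha, rfl⟩ _ ⟨b, hb, rfl⟩
      exact congrArg Subtype.val (hL a ha b hb)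
    have h2 : (L.map K₀.subtype).relIndex K₀ = L.index := by
      rw [Subgroup.relIndex, Subgroup.subgroupOf, Subgroup.comap_map_eq_self_of_injective
        K₀.subtype_injective]
    have h3 : (scal ρ).relIndex (Subgroup.closure (pElts p G)) ≤ r := by
      refine le_trans (Subgroup.relIndex_le_of_le_left hLs ?_) ?_
      · show ((L.map K₀.subtype).subgroupOf _).index ≠ 0
        exact Subgroup.index_ne_zero_of_finite
      · rw [← Subgroup.relIndex_mul_relIndex (L.map K₀.subtype) K₀ _ (Subgroup.map_subtype_le L)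
          hK₀H, h2, hr]
        exact Nat.mul_le_mul (hLi.trans (Nat.pow_le_pow_left hBi 2)) hK₀i
    obtain ⟨A, hA, hAi⟩ := of_scalar hJ ρ hρ hn hns h3
    exact ⟨A, hA, by omega⟩
  · obtain ⟨A, hA, hAi⟩ := hJ G V ρ hρ hn (le_of_eq (Nat.factorization_eq_zero_of_not_dvd hpG))
    exact ⟨A, hA, by omega⟩

theorem exists_bd_of {K : Type} [Field K] [IsAlgClosed K] {p : ℕ} [hp : Fact p.Prime] [CharP K p]
    (hI : ImageBound.{u} K p) (hJ : ∀ n, ∃ J, Bd.{u} K p 0 n J) (m n : ℕ) :
    ∃ c : ℕ, Bd.{u} K p m n c := by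
  induction m generalizing n with
  | zero => exact hJ n
  | succ m ihm =>
    induction n with
    | zero => exact ⟨1, bd_zero K p (m + 1)⟩
    | succ n ihn =>
      obtain ⟨c₀, h₀⟩ := ihn
      obtain ⟨c₁, h₁⟩ := ihm (n + 1)
      obtain ⟨J, hJ'⟩ := hJ (n + 1)
      exact bd_step hI h₀ h₁ hJ'

section res

variable {p : ℕ} [hp : Fact p.Prime] {M : Ideal AlgInt} [hP : M.IsPrime]

theorem exists_jordan (hM : IsPModular p M) (n : ℕ) : ∃ J, Bd.{u} (ResField M) p 0 n J := by
  choose N hN using fun d => Cfsg.Agent.H662.Jordan.jordan.{u, u} d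
  refine ⟨(Finset.range (n + 1)).sup N, ?_⟩
  intro G _ _ V _ _ _ ρ hρ hn hm
  have hG : ¬ p ∣ Nat.card G := by
    intro hdvd
    have := hp.out.factorization_pos_of_dvd Nat.card_pos.ne' hdvd
    omega
  obtain ⟨W, τ, hτ, hW⟩ := Cfsg.Agent.H662.LiftRep.exists_complex_rep hM hG ρ hρ
  obtain ⟨A, hA, hAi⟩ := hN (finrank ℂ W) G W τ hτ rfl
  refine ⟨A, hA, hAi.trans ?_⟩
  exact Finset.le_sup (f := N) (Finset.mem_range.2 (by omega))

theorem exists_bd (hM : IsPModular p M) (m n : ℕ) : ∃ c : ℕ, Bd.{u} (ResField M) p m n c := by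
  have hmax : M.IsMaximal := isMaximal_of_isPModular hM
  have halg : IsAlgClosed (ResField M) := Cfsg.Agent.Blocks.CyclicAssembly.isAlgClosed_resField
  have hchar : CharP (ResField M) p := charP_resField hM
  exact exists_bd_of (fun H _ _ e he V _ _ _ ρ h1 =>
    Cfsg.Agent.H662.TraceField.index_ker_le hM he ρ h1) (exists_jordan hM) m n

end res

end Cfsg.Agent.H662.BF
end

-- part: H662/Specialize
section
/-!
# Specialization of representations

A faithful matrix representation of a finite group over a field of characteristic `p` gives a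
faithful one of the same degree over every algebraically closed field of characteristic `p`.
-/

set_option autoImplicit false
open Module

namespace Cfsg.Agent.H662.Specialize

/-- A finitely generated domain over `ZMod p` maps to every algebraically closed field of
characteristic `p`. -/
theorem exists_hom (p : ℕ) [Fact p.Prime] (S : Type*) [CommRing S] [Nontrivial S]
    [Algebra (ZMod p) S] [Algebra.FiniteType (ZMod p) S] (K : Type*) [Field K] [IsAlgClosed K]
    [CharP K p] : Nonempty (S →+* K) := by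
  obtain ⟨m, hm⟩ := Ideal.exists_maximal S
  let _ : Field (S ⧸ m) := Ideal.Quotient.field m
  have h1 : Algebra.FiniteType (ZMod p) (S ⧸ m) :=
    Algebra.FiniteType.of_surjective (Ideal.Quotient.mkₐ (ZMod p) m)
      (Ideal.Quotient.mkₐ_surjective _ _)
  have h2 : Module.Finite (ZMod p) (S ⧸ m) := finite_of_finite_type_of_isJacobsonRing _ _
  let _ : Algebra (ZMod p) K := ZMod.algebra K p
  have h3 : Algebra.IsAlgebraic (ZMod p) (S ⧸ m) := Algebra.IsAlgebraic.of_finite _ _
  let f : (S ⧸ m) →ₐ[ZMod p] K := IsAlgClosed.lift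
  exact ⟨f.toRingHom.comp (Ideal.Quotient.mk m)⟩

theorem exists_matrix_rep (p : ℕ) [Fact p.Prime] {F : Type*} [Field F] [CharP F p] {G : Type*}
    [Group G] [Finite G] {n : ℕ} (μ : G →* Matrix (Fin n) (Fin n) F)
    (hμ : Function.Injective μ) (K : Type*) [Field K] [IsAlgClosed K] [CharP K p] :
    ∃ τ : G →* Matrix (Fin n) (Fin n) K, Function.Injective τ := by
  classical
  have := Fintype.ofFinite G
  let _ : Algebra (ZMod p) F := ZMod.algebra F p
  -- nonzero entries
  have hex : ∀ g : {g : G // g ≠ 1}, ∃ ij : Fin n × Fin n, (μ g - 1) ij.1 ij.2 ≠ 0 := by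
    intro g
    have h1 : μ g - 1 ≠ 0 := fun h => g.2 (hμ (by rw [sub_eq_zero.1 h, map_one]))
    by_contra hcon
    push Not at hcon
    apply h1
    ext i j
    exact hcon (i, j)
  choose ij hij using hex
  set d : F := ∏ g : {g : G // g ≠ 1}, (μ g - 1) (ij g).1 (ij g).2 with hd
  have hd0 : d ≠ 0 := Finset.prod_ne_zero_iff.2 fun g _ => hij g
  set T : Finset F := (Finset.univ.image fun x : G × Fin n × Fin n => μ x.1 x.2.1 x.2.2) ∪ {d⁻¹}
    with hT
  set S := Algebra.adjoin (ZMod p) (T : Set F) with hS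
  have hFT : Algebra.FiniteType (ZMod p) S :=
    (Subalgebra.fg_iff_finiteType S).1 (Subalgebra.fg_adjoin_finset T)
  obtain ⟨φ⟩ := exists_hom p S K
  have hmem : ∀ g i j, μ g i j ∈ S := fun g i j => Algebra.subset_adjoin (by
    rw [hT, Finset.mem_coe, Finset.mem_union]
    exact Or.inl (Finset.mem_image.2 ⟨(g, i, j), Finset.mem_univ _, rfl⟩))
  have hdinv : d⁻¹ ∈ S := Algebra.subset_adjoin (by
    rw [hT, Finset.mem_coe, Finset.mem_union]
    exact Or.inr (Finset.mem_singleton_self _))
  let μS : G →* Matrix (Fin n) (Fin n) S :=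
    { toFun := fun g => Matrix.of fun i j => ⟨μ g i j, hmem g i j⟩
      map_one' := by
        ext i j
        rw [Matrix.of_apply, Matrix.one_apply]
        simp only [map_one, Matrix.one_apply]
        split_ifs <;> rfl
      map_mul' := fun g h => by
        ext i j
        rw [Matrix.of_apply, Matrix.mul_apply]
        simp only [map_mul, Matrix.mul_apply, Matrix.of_apply, AddSubmonoidClass.coe_finsetSum,
          MulMemClass.coe_mul] }
  have hμS : ∀ g i j, ((μS g i j : S) : F) = μ g i j := fun g i j => rfl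
  refine ⟨(φ.mapMatrix : Matrix (Fin n) (Fin n) S →+* Matrix (Fin n) (Fin n) K).toMonoidHom.comp μS,
    ?_⟩
  rw [injective_iff_map_eq_one]
  intro g hg
  by_contra hg1
  set dS : S := ∏ g : {g : G // g ≠ 1}, (μS g - 1) (ij g).1 (ij g).2 with hdS
  have h1 : (dS : F) = d := by
    rw [hdS, hd, SubmonoidClass.coe_finsetProd]
    refine Finset.prod_congr rfl fun x _ => ?_
    rw [Matrix.sub_apply, Matrix.sub_apply, AddSubgroupClass.coe_sub, hμS, Matrix.one_apply,
      Matrix.one_apply]
    split_ifs <;> rfl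
  have h2 : dS * ⟨d⁻¹, hdinv⟩ = 1 := by
    apply Subtype.ext
    rw [MulMemClass.coe_mul, h1]
    exact mul_inv_cancel₀ hd0
  have h3 : φ dS ≠ 0 := by
    intro h0
    have := congrArg φ h2
    rw [map_mul, h0, zero_mul, map_one] at this
    exact zero_ne_one this
  apply h3
  rw [hdS, map_prod]
  refine Finset.prod_eq_zero (Finset.mem_univ (⟨g, hg1⟩ : {g : G // g ≠ 1})) ?_
  have h4 : φ.mapMatrix (μS g) = 1 := hg
  have h5 : φ.mapMatrix (μS g - 1) = 0 := by rw [map_sub, h4, map_one, sub_self]
  exact congrFun (congrFun h5 _) _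

end Cfsg.Agent.H662.Specialize
end

-- part: S4732
section
set_option autoImplicit false
universe u v
open Cfsg

namespace Cfsg.Agent.S4732

/-- Let p be a prime. There is a function f of two natural-number arguments such that every finite group G admitting a faithful representation of degree n over a field of characteristic p, with Sylow p-subgroups of order p^m, has a normal abelian subgroup A with [G : A] < f(m, n). -/
theorem result (p : ℕ) [Fact p.Prime] : ∃ f : ℕ → ℕ → ℕ, ∀ (G : Type u) [Group G] [Finite G] (F : Type v) [Field F] [CharP F p] (n : ℕ) (ρ : Representation F G (Fin n → F)), Function.Injective ρ → ∀ m : ℕ, (Nat.card G).factorization p = m → ∃ A : Subgroup G, A.Normal ∧ IsMulCommutative A ∧ A.index < f m n := by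
  obtain ⟨M, hM⟩ := Cfsg.Agent.Blocks.ExistsModular.exists_isPModular (p := p) Fact.out
  have hMp : M.IsPrime := Cfsg.Agent.Blocks.Local.isPrime_of_isPModular hM
  have hmax : M.IsMaximal := Cfsg.Agent.Blocks.Local.isMaximal_of_isPModular hM
  have halg : IsAlgClosed (Cfsg.Agent.Blocks.Local.ResField M) :=
    Cfsg.Agent.Blocks.CyclicAssembly.isAlgClosed_resField
  have hchar : CharP (Cfsg.Agent.Blocks.Local.ResField M) p :=
    Cfsg.Agent.Blocks.Local.charP_resField hM
  choose c hc using fun m n => Cfsg.Agent.H662.BF.exists_bd.{u} hM m n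
  refine ⟨fun m n => c m n ^ 2 + 1, ?_⟩
  intro G _ _ F _ _ n ρ hρ m hm
  let μ : G →* Matrix (Fin n) (Fin n) F :=
    { toFun := fun g => LinearMap.toMatrixAlgEquiv' (ρ g)
      map_one' := by rw [map_one, map_one]
      map_mul' := fun g h => by rw [map_mul, map_mul] }
  have hμ : Function.Injective μ := fun a b h =>
    hρ ((LinearMap.toMatrixAlgEquiv' : Module.End F (Fin n → F) ≃ₐ[F] _).injective h)
  obtain ⟨τ, hτ⟩ := Cfsg.Agent.H662.Specialize.exists_matrix_rep p μ hμ
    (Cfsg.Agent.Blocks.Local.ResField M)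
  let σ : Representation (Cfsg.Agent.Blocks.Local.ResField M) G
      (Fin n → Cfsg.Agent.Blocks.Local.ResField M) :=
    { toFun := fun g => Matrix.toLinAlgEquiv' (τ g)
      map_one' := by rw [map_one, map_one]
      map_mul' := fun g h => by rw [map_mul, map_mul] }
  have hσ : Function.Injective σ := fun a b h =>
    hτ ((Matrix.toLinAlgEquiv' : Matrix (Fin n) (Fin n) (Cfsg.Agent.Blocks.Local.ResField M)
      ≃ₐ[Cfsg.Agent.Blocks.Local.ResField M] _).injective h)
  obtain ⟨B, hB, hBi⟩ := hc m n G (Fin n → Cfsg.Agent.Blocks.Local.ResField M) σ hσ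
    (by rw [Module.finrank_fintype_fun_eq_card, Fintype.card_fin]) hm.le
  obtain ⟨L, hLc, hL, hLi⟩ := Cfsg.Agent.H662.ChermakDelgado.exists_characteristic B hB
  refine ⟨L, inferInstance, ⟨⟨fun a b => Subtype.ext (hL a a.2 b b.2)⟩⟩, ?_⟩
  exact Nat.lt_succ_of_le (hLi.trans (Nat.pow_le_pow_left hBi 2))

end Cfsg.Agent.S4732
end
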