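import Mathlib
import Cfsg.Agent.H717.FieldP
import Cfsg.Agent.H717.FT
import Cfsg.Agent.H717.Rep
import Cfsg.Agent.Solvable.FixedPointFree
import Cfsg.Agent.ClassicalGeometry.PSL2Basic
import Cfsg.Agent.ThreePrime.OrderThree
import Cfsg.Agent.H717.Dickson
import Cfsg.Agent.H717.SmallClass
import Cfsg.Agent.S4201
import Cfsg.Agent.S1161
import Cfsg.Agent.S0044
import Cfsg.Agent.S3430
import Cfsg.Agent.H540.ClassNum
import Cfsg.Agent.S0144
import Cfsg.Agent.Classification.LocalCore
import Cfsg.Agent.Lib.Cores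
import Cfsg.Agent.S4956
import Cfsg.Statements.S4957
set_option linter.all false

-- part: H717/Zsig
section
/-!
# Primitive prime divisors and coprime transitive linear groups
-/

set_option autoImplicit false
set_option linter.style.haveILetI false
set_option linter.unusedSectionVars false

namespace Cfsg.Agent.H717.Zsig

open Cfsg.Agent.H717.Semi Cfsg.Agent.H717.FieldP

universe u v

variable {D : Type v} {E : Type u} [Group D] [Finite D] [AddCommGroup E] [Finite E] [Nontrivial E]
  [DistribMulAction D E] [FaithfulSMul D E]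

theorem card_addSubgroup {p : ℕ} [hp : Fact p.Prime] {n : ℕ} (hn : Nat.card E = p ^ n) (F : AddSubgroup E) :
    ∃ i ≤ n, Nat.card F = p ^ i := by
  have h1 : Nat.card F ∣ p ^ n := by rw [← hn]; exact AddSubgroup.card_addSubgroup_dvd_card F
  exact (Nat.dvd_prime_pow hp.out).1 h1

/-- Elements of prime order `r`, `r` a primitive prime divisor of `p ^ n - 1`, act fixed point freely. -/
theorem fpf_of_orderOf {p : ℕ} [hp : Fact p.Prime] {n : ℕ} (hn : Nat.card E = p ^ n) {r : ℕ} [hr : Fact r.Prime]
    (hrn : r ∣ p ^ n - 1) (hz : ∀ i : ℕ, 1 ≤ i → i < n → ¬ r ∣ p ^ i - 1) {b : D} (hb : orderOf b = r)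
    {e : E} (he : b • e = e) : e = 0 := by
  by_contra he0
  have hpn : 2 ≤ p ^ n := by rw [← hn]; exact Finite.one_lt_card
  have hrp : r ≠ p := by
    rintro rfl
    have h1 : r ∣ r ^ n := by
      refine dvd_pow_self r ?_
      rintro rfl
      rw [pow_zero] at hpn
      omega
    have h2 : r ∣ 1 := by
      have h3 : 1 = r ^ n - (r ^ n - 1) := by omega
      rw [h3]
      exact Nat.dvd_sub h1 hrn
    exact hr.out.one_lt.ne' (Nat.dvd_one.1 h2)
  let Z : Subgroup D := Subgroup.zpowers b
  have hZ : IsPGroup r Z := IsPGroup.of_card (n := 1) (by rw [pow_one, Nat.card_zpowers, hb])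
  have h1 := hZ.card_modEq_card_fixedPoints E
  let F : AddSubgroup E :=
    { carrier := {x | b • x = x}
      zero_mem' := smul_zero b
      add_mem' := fun {x y} hx hy => by
        change b • (x + y) = x + y
        rw [smul_add, (show b • x = x from hx), (show b • y = y from hy)]
      neg_mem' := fun {x} hx => by
        change b • (-x) = -x
        rw [smul_neg, (show b • x = x from hx)] }
  have h2 : MulAction.fixedPoints Z E = (F : Set E) := by
    ext x
    rw [MulAction.mem_fixedPoints]
    constructor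
    · intro h
      exact h ⟨b, Subgroup.mem_zpowers b⟩
    · intro h z
      have h3 : Z ≤ MulAction.stabilizer D x := by
        rw [Subgroup.zpowers_le]
        exact h
      exact h3 z.2
  have h4 : Nat.card (MulAction.fixedPoints Z E) = Nat.card F := by rw [h2]; rfl
  obtain ⟨i, hin, hi⟩ := card_addSubgroup hn F
  rw [h4, hn, hi] at h1
  have h5 : r ∣ p ^ n - p ^ i := (Nat.modEq_iff_dvd' (Nat.pow_le_pow_right hp.out.pos hin)).1 h1.symm
  have h6 : p ^ n - p ^ i = p ^ i * (p ^ (n - i) - 1) := by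
    rw [Nat.mul_sub, mul_one, ← pow_add, Nat.add_sub_cancel' hin]
  rw [h6, hr.out.dvd_mul] at h5
  have h7 : r ∣ p ^ (n - i) - 1 := by
    rcases h5 with h5 | h5
    · exact absurd ((Nat.prime_dvd_prime_iff_eq hr.out hp.out).1 (hr.out.dvd_of_dvd_pow h5)) hrp
    · exact h5
  have h8 : ¬ (1 ≤ n - i ∧ n - i < n) := fun h => hz _ h.1 h.2 h7
  have h9 : i ≠ 0 := by
    rintro rfl
    rw [pow_zero, AddSubgroup.card_eq_one] at hi
    have : e ∈ F := he
    rw [hi] at this
    exact he0 this
  have h10 : i = n := by omega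
  have h11 : F = ⊤ := by
    rw [← AddSubgroup.card_eq_iff_eq_top, hi, h10, hn]
  have h12 : b = 1 := by
    apply FaithfulSMul.eq_of_smul_eq_smul (α := E)
    intro x
    rw [one_smul]
    have : x ∈ F := by rw [h11]; trivial
    exact this
  rw [h12, orderOf_one] at hb
  exact hr.out.one_lt.ne hb

theorem fpf_of_pow {p : ℕ} [hp : Fact p.Prime] {n : ℕ} (hn : Nat.card E = p ^ n) {r : ℕ} [hr : Fact r.Prime]
    (hrn : r ∣ p ^ n - 1) (hz : ∀ i : ℕ, 1 ≤ i → i < n → ¬ r ∣ p ^ i - 1) {a : D} (ha : a ≠ 1) {k : ℕ}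
    (hk : a ^ r ^ k = 1) {e : E} (he : a • e = e) : e = 0 := by
  have h1 : orderOf a ∣ r ^ k := orderOf_dvd_of_pow_eq_one hk
  obtain ⟨j, -, hj⟩ := (Nat.dvd_prime_pow hr.out).1 h1
  have hj0 : j ≠ 0 := by
    rintro rfl
    rw [pow_zero, orderOf_eq_one_iff] at hj
    exact ha hj
  obtain ⟨i, rfl⟩ : ∃ i, j = i + 1 := ⟨j - 1, by omega⟩
  have h2 : orderOf (a ^ r ^ i) = r := by
    rw [orderOf_pow' _ (pow_ne_zero _ hr.out.ne_zero), hj, Nat.gcd_eq_right (pow_dvd_pow r (Nat.le_succ i)), pow_succ,
      Nat.mul_div_cancel_left _ (pow_pos hr.out.pos i)]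
  refine fpf_of_orderOf hn hrn hz h2 ?_
  have h3 : a ∈ MulAction.stabilizer D e := he
  exact (MulAction.stabilizer D e).pow_mem h3 _

theorem exists_orderOf_sq {p : ℕ} [hp : Fact p.Prime] {n : ℕ} (hn : Nat.card E = p ^ n) {r : ℕ}
    [hr : Fact r.Prime]
    (hrn : r ∣ p ^ n - 1) (hz : ∀ i : ℕ, 1 ≤ i → i < n → ¬ r ∣ p ^ i - 1) (h2 : r ^ 2 ∣ Nat.card D) :
    ∃ x : D, orderOf x = r ^ 2 := by
  obtain ⟨A, hA⟩ := Sylow.exists_subgroup_card_pow_prime r h2
  have hcomm : ∀ a b : A, a * b = b * a := IsPGroup.commutative_of_card_eq_prime_sq hA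
  let φ : A →* MulAut (Multiplicative E) :=
    { toFun := fun a => AddEquiv.toMultiplicative (DistribMulAction.toAddEquiv E (a : D))
      map_one' := by
        ext e
        exact congrArg Multiplicative.ofAdd (one_smul D e.toAdd)
      map_mul' := fun a b => by
        ext e
        exact congrArg Multiplicative.ofAdd (mul_smul (a : D) (b : D) e.toAdd) }
  have hcyc : IsCyclic A := by
    refine Cfsg.Agent.Solvable.FixedPointFree.isCyclic_of_comm' hcomm φ ?_
    intro a ha e he
    have h3 : (a : D) • e.toAdd = e.toAdd := congrArg Multiplicative.toAdd he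
    have h4 : (a : D) ≠ 1 := fun h => ha (Subtype.ext h)
    have h5 : (a : D) ^ r ^ 2 = 1 := by
      have h6 : a ^ Nat.card A = 1 := pow_card_eq_one'
      rw [hA] at h6
      exact congrArg Subtype.val h6
    exact congrArg Multiplicative.ofAdd (fpf_of_pow hn hrn hz h4 h5 h3)
  obtain ⟨x, hx⟩ := hcyc.exists_ofOrder_eq_natCard
  exact ⟨x, by rw [Subgroup.orderOf_coe, hx, hA]⟩

/-- A primitive prime divisor whose square divides the group order. -/
theorem isSemi_of_sq (htr : ∀ x y : E, x ≠ 0 → y ≠ 0 → ∃ d : D, d • x = y)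
    {p : ℕ} [hp : Fact p.Prime] (hpE : ∀ e : E, p • e = 0) (hcop : ¬ p ∣ Nat.card D)
    {n : ℕ} (hn : Nat.card E = p ^ n) {r : ℕ} [hr : Fact r.Prime] (hnr : n ≤ r)
    (hrn : r ∣ p ^ n - 1) (hz : ∀ i : ℕ, 1 ≤ i → i < n → ¬ r ∣ p ^ i - 1) (h2 : r ^ 2 ∣ Nat.card D) :
    IsSemi D E := by
  obtain ⟨x, hx⟩ := exists_orderOf_sq hn hrn hz h2
  obtain ⟨ρ, hρ⟩ := Rep.exists_rep (D := D) hpE hcop hn
  obtain ⟨N, hN, hNp, hN1⟩ := FT.exists_normal_of_sq hnr ρ hρ hx
  haveI := hN
  exact isSemi_of_isPGroup htr hpE hn hz N hNp hN1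

/-! ### The numerical part -/

/-- The order of `p` modulo a primitive prime divisor. -/
theorem dvd_sub_one {p n r : ℕ} (hr : r.Prime) (hn : 1 ≤ n) (hrn : r ∣ p ^ n - 1) (hpn : 1 ≤ p ^ n)
    (hp0 : 1 ≤ p) (hz : ∀ i : ℕ, 1 ≤ i → i < n → ¬ r ∣ p ^ i - 1) : n ∣ r - 1 := by
  haveI : Fact r.Prime := ⟨hr⟩
  have key : ∀ i : ℕ, (p : ZMod r) ^ i = 1 ↔ r ∣ p ^ i - 1 := by
    intro i
    have h1 : 1 ≤ p ^ i := Nat.one_le_pow _ _ hp0
    rw [← Nat.modEq_iff_dvd' h1, ← ZMod.natCast_eq_natCast_iff, Nat.cast_one, Nat.cast_pow, eq_comm]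
  have hp : (p : ZMod r) ≠ 0 := by
    intro h
    have h2 := (key n).2 hrn
    rw [h, zero_pow (by omega)] at h2
    exact zero_ne_one h2
  have h3 : orderOf (p : ZMod r) = n := by
    refine (orderOf_eq_iff (by omega)).2 ⟨(key n).2 hrn, ?_⟩
    intro m hm hm0 h
    exact hz m hm0 hm ((key m).1 h)
  rw [← h3]
  exact ZMod.orderOf_dvd_card_sub_one hp

/-- No coprime irreducible `PSL(2, r)` of degree `(r - 1) / 2` is transitive. -/
theorem numeric {p n d j r : ℕ} (hp : p.Prime) (hr : r.Prime) (hn : 3 ≤ n) (hr1 : 2 * n + 1 = r) (hdj : d * j = n)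
    (hj : 2 ≤ j) (hp3 : 5 ≤ p) (hdiv : (p ^ n - 1) ∣ (p ^ d - 1) * (2 * n * (n + 1) * (2 * n + 1)))
    (hcop : ¬ p ∣ 2 * n * (n + 1) * (2 * n + 1)) : False := by
  have hd : 1 ≤ d := by
    rcases Nat.eq_zero_or_pos d with h | h
    · rw [h, zero_mul] at hdj; omega
    · exact h
  have hd2 : 2 * d ≤ n := by rw [← hdj, mul_comm]; exact Nat.mul_le_mul_left d hj
  set N := 2 * n * (n + 1) * (2 * n + 1) with hN
  have hN0 : 0 < N := by positivity
  have h1 : p ^ (n - d) ≤ N := by
    by_contra hlt
    push Not at hlt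
    have h2 : p ^ n - 1 ≤ (p ^ d - 1) * N := by
      refine Nat.le_of_dvd ?_ hdiv
      have : 2 ≤ p ^ d := hp.two_le.trans (Nat.le_self_pow (by omega) p)
      exact Nat.mul_pos (by omega) hN0
    have h3 : p ^ n = p ^ d * p ^ (n - d) := by rw [← pow_add]; congr 1; omega
    have h4 : (p ^ d - 1) * N + N = p ^ d * N := by
      have : 1 ≤ p ^ d := Nat.one_le_pow _ _ hp.pos
      obtain ⟨t, ht⟩ : ∃ t, p ^ d = t + 1 := ⟨p ^ d - 1, by omega⟩
      rw [ht, Nat.add_sub_cancel]; ring
    have h5 : p ^ d * (N + 1) ≤ p ^ n := by rw [h3]; exact Nat.mul_le_mul_left _ hlt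
    have h6 : 1 ≤ p ^ d := Nat.one_le_pow _ _ hp.pos
    have h7 : p ^ d * (N + 1) = p ^ d * N + p ^ d := by ring
    omega
  have hn10 : n ≤ 10 := by
    by_contra hlt
    push Not at hlt
    have h2 : 5 ^ ((n + 1) / 2) ≤ N := by
      refine le_trans ?_ h1
      refine (Nat.pow_le_pow_left hp3 _).trans (Nat.pow_le_pow_right hp.pos (by omega))
    have h3 : ∀ k : ℕ, 6 ≤ k → 2 * (2 * k) * (2 * k + 1) * (2 * (2 * k) + 1) < 5 ^ k := by
      intro k hk
      induction k, hk using Nat.le_induction with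
      | base => norm_num
      | succ k hk ih =>
        rw [pow_succ]
        nlinarith [Nat.mul_le_mul hk hk, Nat.mul_le_mul (Nat.mul_le_mul hk hk) hk]
    have h4 := h3 ((n + 1) / 2) (by omega)
    have h5 : n ≤ 2 * ((n + 1) / 2) := by omega
    have h6 : N ≤ 2 * (2 * ((n + 1) / 2)) * (2 * ((n + 1) / 2) + 1) * (2 * (2 * ((n + 1) / 2)) + 1) := by
      rw [hN]
      gcongr
    omega
  have hp16 : p < 17 := by
    by_contra hlt
    push Not at hlt
    rcases Nat.lt_or_ge n 5 with h5 | h5
    · have h2 : p ^ 2 ≤ N := le_trans (Nat.pow_le_pow_right hp.pos (by omega)) h1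
      have h3 : 17 ^ 2 ≤ N := (Nat.pow_le_pow_left hlt 2).trans h2
      have h4 : n = 3 ∨ n = 4 := by omega
      rcases h4 with h4 | h4
      · rw [hN, h4] at h3; norm_num at h3
      · rw [h4] at hr1
        rw [← hr1] at hr
        norm_num at hr
    · have h2 : p ^ 3 ≤ N := le_trans (Nat.pow_le_pow_right hp.pos (by omega)) h1
      have h3 : 17 ^ 3 ≤ N := (Nat.pow_le_pow_left hlt 3).trans h2
      have h4 : N ≤ 2 * 10 * (10 + 1) * (2 * 10 + 1) := by rw [hN]; gcongr
      omega
  have hd5 : d ≤ 5 := by omega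
  clear_value N
  have hrn : n ≠ 4 ∧ n ≠ 7 ∧ n ≠ 10 := by
    refine ⟨?_, ?_, ?_⟩ <;> rintro rfl <;> rw [← hr1] at hr <;> norm_num at hr
  have hpp : p = 5 ∨ p = 7 ∨ p = 11 ∨ p = 13 := by
    interval_cases p <;> first | omega | (exfalso; norm_num at hp)
  have hnn : n = 3 ∨ n = 5 ∨ n = 6 ∨ n = 8 ∨ n = 9 := by omega
  subst hN
  rcases hnn with rfl | rfl | rfl | rfl | rfl <;> interval_cases d <;>
    rcases hpp with rfl | rfl | rfl | rfl <;> first | omega | (revert hdiv hcop; norm_num)

end Cfsg.Agent.H717.Zsig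
end

-- part: H717/Plane
section
/-!
# Coprime transitive linear groups: abelian subgroups of index two, and the plane
-/

set_option autoImplicit false
set_option linter.style.haveILetI false
set_option linter.unusedSectionVars false

namespace Cfsg.Agent.H717.Plane

open Cfsg.Agent.H717.Semi Cfsg.Agent.H717.FieldP

universe u v

variable {D : Type v} {E : Type u} [Group D] [Finite D] [AddCommGroup E] [Finite E] [Nontrivial E]
  [DistribMulAction D E] [FaithfulSMul D E]

theorem card_conj_congr {G H : Type*} [Group G] [Group H] (e : G ≃* H) :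
    Nat.card (ConjClasses G) = Nat.card (ConjClasses H) := by
  refine Nat.card_congr (Quotient.congr e.toEquiv fun a b => ?_)
  change IsConj a b ↔ IsConj (e a) (e b)
  rw [isConj_iff, isConj_iff]
  constructor
  · rintro ⟨c, hc⟩
    exact ⟨e c, by rw [← hc, map_mul, map_mul, map_inv]⟩
  · rintro ⟨c, hc⟩
    refine ⟨e.symm c, e.injective ?_⟩
    rw [map_mul, map_mul, map_inv, MulEquiv.apply_symm_apply, hc]

/-- A commutative transitive linear group is semilinear. -/
theorem isSemi_of_comm (htr : ∀ x y : E, x ≠ 0 → y ≠ 0 → ∃ d : D, d • x = y)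
    {p : ℕ} [hp : Fact p.Prime] (hpE : ∀ e : E, p • e = 0) (h : ∀ a b : D, a * b = b * a) : IsSemi D E :=
  isSemi_of_centralizer_le htr hpE ⊤ (fun a _ b _ => h a b) le_top

/-- An abelian subgroup of index at most two makes a transitive linear group semilinear. -/
theorem isSemi_of_index_two (htr : ∀ x y : E, x ≠ 0 → y ≠ 0 → ∃ d : D, d • x = y)
    {p : ℕ} [hp : Fact p.Prime] (hpE : ∀ e : E, p • e = 0)
    (B : Subgroup D) [B.Normal] (hB : ∀ a ∈ B, ∀ b ∈ B, a * b = b * a) (hi : B.index ∣ 2) : IsSemi D E := by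
  set C := Subgroup.centralizer (B : Set D) with hC
  have hBC : B ≤ C := by
    intro b hb
    rw [hC, Subgroup.mem_centralizer_iff]
    intro a ha
    exact hB a ha b hb
  have h1 := Subgroup.relIndex_mul_index hBC
  by_cases hCB : C ≤ B
  · exact isSemi_of_centralizer_le htr hpE B hB hCB
  · have h2 : B.relIndex C ≠ 1 := by
      rw [Ne, Subgroup.relIndex_eq_one]
      exact hCB
    have h3 : B.relIndex C ∣ 2 := (Dvd.intro _ h1).trans hi
    have h4 : B.relIndex C = 2 := ((Nat.dvd_prime Nat.prime_two).1 h3).resolve_left h2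
    have h5 : C.index = 1 := by
      rw [h4] at h1
      have h6 : B.index ≤ 2 := Nat.le_of_dvd (by norm_num) hi
      have h7 : 0 < B.index := Nat.pos_of_ne_zero Subgroup.index_ne_zero_of_finite
      omega
    have hCt : C = ⊤ := Subgroup.index_eq_one.1 h5
    have hBi : B.index = 2 := by rw [← h1, h4, h5]
    refine isSemi_of_comm htr hpE ?_
    have hk : (QuotientGroup.mk' B).ker ≤ Subgroup.center D := by
      rw [QuotientGroup.ker_mk']
      intro b hb
      rw [Subgroup.mem_center_iff]
      intro g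
      have hg : g ∈ C := by rw [hCt]; trivial
      exact ((Subgroup.mem_centralizer_iff.1 hg) b hb).symm
    haveI : IsCyclic (D ⧸ B) := by
      have h8 : Nat.card (D ⧸ B) = 2 := by rw [← Subgroup.index_eq_card]; exact hBi
      haveI : Fact (Nat.Prime 2) := ⟨Nat.prime_two⟩
      exact isCyclic_of_prime_card h8
    exact fun a b => commutative_of_cyclic_center_quotient (QuotientGroup.mk' B) hk a b

/-- **The plane.** -/
theorem plane (htr : ∀ x y : E, x ≠ 0 → y ≠ 0 → ∃ d : D, d • x = y)
    {p : ℕ} [hp : Fact p.Prime] (hpE : ∀ e : E, p • e = 0) (hcop : ¬ p ∣ Nat.card D)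
    (hE : Nat.card E = p ^ 2) {v : E} (hv : v ≠ 0) :
    IsSemi D E ∨
    Nat.card (ConjClasses D) + Nat.card (ConjClasses (MulAction.stabilizer D v)) < Nat.card E := by
  letI : Module (ZMod p) E := AddCommGroup.zmodModule (n := p) hpE
  have hp2 := hp.out.two_le
  have hfr : Module.finrank (ZMod p) E = 2 := by
    have h1 := Module.natCard_eq_pow_finrank (K := ZMod p) (V := E)
    rw [hE, Nat.card_zmod] at h1
    exact (Nat.pow_right_injective hp2 h1).symm
  have hlin : ∀ (d : D) (c : ZMod p) (e : E), d • (c • e) = c • (d • e) := by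
    intro d c e
    exact ZMod.map_smul (DistribMulAction.toAddMonoidEnd D E d) c e
  obtain ⟨Z, hZn, hZ, hcases⟩ := Dickson.cases p hfr hlin hcop
  -- the order of `Z`
  have hZp : Nat.card Z ≤ p - 1 := by
    choose c hc using fun z : Z => (hZ z).1 z.2
    have hc0 : ∀ z : Z, c z ≠ 0 := by
      intro z h0
      have := hc z v
      rw [h0, zero_smul, smul_eq_zero_iff_eq] at this
      exact hv this
    have hinj : Function.Injective (fun z : Z => (⟨c z, hc0 z⟩ : ({0}ᶜ : Set (ZMod p)))) := by
      intro a b hab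
      have h1 : c a = c b := congrArg Subtype.val hab
      apply Subtype.ext
      apply FaithfulSMul.eq_of_smul_eq_smul (α := E)
      intro e
      rw [hc, hc, h1]
    have h2 := Nat.card_le_card_of_injective _ hinj
    rwa [Nat.card_coe_set_eq, Set.ncard_compl, Set.ncard_singleton, Nat.card_zmod] at h2
  have hkZ : Nat.card (ConjClasses Z) ≤ Nat.card Z :=
    Nat.card_le_card_of_surjective ConjClasses.mk ConjClasses.mk_surjective
  have hkD := Cfsg.Agent.S4201.result Z
  have hcD := card_eq htr hv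
  have hcZ : Nat.card Z * Nat.card (D ⧸ Z) = Nat.card D := by
    rw [← Subgroup.index_eq_card]; exact Z.card_mul_index
  set h := Nat.card (MulAction.stabilizer D v) with hh
  have hkH : Nat.card (ConjClasses (MulAction.stabilizer D v)) ≤ h :=
    Nat.card_le_card_of_surjective ConjClasses.mk ConjClasses.mk_surjective
  have hdvd : Nat.card (D ⧸ Z) ∣ Nat.card D := ⟨Nat.card Z, by rw [← hcZ, mul_comm]⟩
  -- numbers
  have key : ∀ g k : ℕ, Nat.card (D ⧸ Z) = g → Nat.card (ConjClasses (D ⧸ Z)) = k → k ≤ 5 →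
      (g = 12 ∨ g = 24 ∨ g = 60) →
      Nat.card (ConjClasses D) + Nat.card (ConjClasses (MulAction.stabilizer D v)) < Nat.card E := by
    intro g k hg hk hk5 hg3
    rw [hg] at hcZ hdvd
    have e2 : p ≠ 2 := by
      rintro rfl
      apply hcop
      refine Dvd.dvd.trans ?_ hdvd
      rcases hg3 with h | h | h <;> rw [h] <;> norm_num
    have e3 : p ≠ 3 := by
      rintro rfl
      apply hcop
      refine Dvd.dvd.trans ?_ hdvd
      rcases hg3 with h | h | h <;> rw [h] <;> norm_num
    have e4 : p ≠ 4 := by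
      rintro rfl
      exact absurd hp.out (by norm_num)
    have e5 : g = 60 → p ≠ 5 := by
      rintro h rfl
      apply hcop
      refine Dvd.dvd.trans ?_ hdvd
      rw [h]; norm_num
    have e6 : p ≠ 6 := by
      rintro rfl
      exact absurd hp.out (by norm_num)
    -- `h (p + 1) ≤ g`
    have e7 : h * (p + 1) ≤ g := by
      rw [hE] at hcD
      have h1 : Nat.card Z * g = (p ^ 2 - 1) * h := hcZ.trans hcD
      have h2 : p ^ 2 - 1 = (p - 1) * (p + 1) := by
        obtain ⟨t, rfl⟩ : ∃ t, p = t + 1 := ⟨p - 1, by omega⟩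
        rw [Nat.add_sub_cancel]
        have : (t + 1) ^ 2 = t * (t + 1 + 1) + 1 := by ring
        omega
      rw [h2] at h1
      have h3 : (p - 1) * (h * (p + 1)) ≤ (p - 1) * g := by
        calc (p - 1) * (h * (p + 1)) = (p - 1) * (p + 1) * h := by ring
          _ = Nat.card Z * g := h1.symm
          _ ≤ (p - 1) * g := Nat.mul_le_mul_right _ hZp
      exact Nat.le_of_mul_le_mul_left h3 (by omega)
    have e8 : Nat.card (ConjClasses D) ≤ (p - 1) * 5 := by
      rw [hk] at hkD
      exact hkD.trans (Nat.mul_le_mul (hkZ.trans hZp) hk5)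
    rw [hE]
    have e9 : 5 ≤ p := by omega
    have e10 : h ≤ 8 ∧ (p = 5 → h ≤ 4) := by
      constructor
      · by_contra hlt
        have : 9 * (p + 1) ≤ h * (p + 1) := Nat.mul_le_mul_right _ (by omega)
        rcases hg3 with h | h | h
        · omega
        · omega
        · have := e5 h
          omega
      · rintro rfl
        rcases hg3 with h | h | h
        · omega
        · omega
        · exact absurd rfl (e5 h)
    rcases Nat.lt_or_ge p 7 with h7 | h7
    · have hp5 : p = 5 := by omega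
      have := e10.2 hp5
      subst hp5
      omega
    · have h8 : 7 * p ≤ p ^ 2 := by rw [sq]; exact Nat.mul_le_mul_right _ h7
      have := e10.1
      omega
  rcases hcases with ⟨B, hB1, hB2, hB3, -⟩ | ⟨⟨e⟩⟩ | ⟨⟨e⟩⟩ | ⟨⟨e⟩⟩
  · left
    haveI := hB1
    exact isSemi_of_index_two htr hpE B hB2 hB3
  · right
    refine key 12 4 ?_ ?_ (by norm_num) (Or.inl rfl)
    · rw [Nat.card_congr e.toEquiv, nat_card_alternatingGroup, Nat.card_eq_fintype_card, Fintype.card_fin]; decide
    · rw [← SmallClass.conj_alt_four]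
      exact card_conj_congr e
  · right
    refine key 24 5 ?_ ?_ (by norm_num) (Or.inr (Or.inl rfl))
    · rw [Nat.card_congr e.toEquiv, Nat.card_perm, Nat.card_eq_fintype_card, Fintype.card_fin]; decide
    · rw [← SmallClass.conj_sym_four]
      exact card_conj_congr e
  · right
    refine key 60 5 ?_ ?_ (by norm_num) (Or.inr (Or.inr rfl))
    · rw [Nat.card_congr e.toEquiv, nat_card_alternatingGroup, Nat.card_eq_fintype_card, Fintype.card_fin]; decide
    · rw [← SmallClass.conj_alt_five]
      exact card_conj_congr e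

end Cfsg.Agent.H717.Plane
end

-- part: H717/Coprime
section
/-!
# Coprime transitive linear groups

`trichotomy` : a group of order prime to `p` acting faithfully on an elementary abelian group of order `p ^ n`,
transitively on the nonzero elements, is semilinear of dimension one, or `n = 2`, or `p ^ n = 81`.
-/

set_option autoImplicit false
set_option linter.style.haveILetI false
set_option linter.unusedSectionVars false

namespace Cfsg.Agent.H717.Coprime

open Cfsg.Agent.H717.Semi Cfsg.Agent.H717.FieldP Cfsg.Agent.H717.Zsig Cfsg.Agent.H717.Plane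
open scoped commutatorElement

universe u v

variable {D : Type v} {E : Type u} [Group D] [Finite D] [AddCommGroup E] [Finite E] [Nontrivial E]
  [DistribMulAction D E] [FaithfulSMul D E]

theorem dvd_card (htr : ∀ x y : E, x ≠ 0 → y ≠ 0 → ∃ d : D, d • x = y) : Nat.card E - 1 ∣ Nat.card D := by
  obtain ⟨v, hv⟩ := exists_ne (0 : E)
  exact ⟨_, card_eq htr hv⟩

theorem isSemi_of_prime (htr : ∀ x y : E, x ≠ 0 → y ≠ 0 → ∃ d : D, d • x = y)
    {p : ℕ} [hp : Fact p.Prime] (hpE : ∀ e : E, p • e = 0) (hcop : ¬ p ∣ Nat.card D)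
    {n : ℕ} (hn : Nat.card E = p ^ n) (hn3 : 3 ≤ n) {r : ℕ} [hr : Fact r.Prime]
    (hrn : r ∣ p ^ n - 1) (hz : ∀ i : ℕ, 1 ≤ i → i < n → ¬ r ∣ p ^ i - 1)
    (hl : n + 1 < r ∨ r ^ 2 ∣ p ^ n - 1) : IsSemi D E := by
  have hdvd := dvd_card htr
  rw [hn] at hdvd
  have hnr := dvd_sub_one hr.out (by omega) hrn (Nat.one_le_pow _ _ hp.out.pos) hp.out.pos hz
  have hr2 := hr.out.two_le
  have hnr1 : n ≤ r - 1 := Nat.le_of_dvd (by omega) hnr
  by_cases hsq : r ^ 2 ∣ Nat.card D
  · exact isSemi_of_sq htr hpE hcop hn (by omega) hrn hz hsq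
  have hl' : n + 1 < r := by
    rcases hl with h | h
    · exact h
    · exact absurd (h.trans hdvd) hsq
  have h2n : 2 * n < r := by
    obtain ⟨k, hk⟩ := hnr
    rcases k with _ | _ | k
    · omega
    · omega
    · have h1 : n * 2 ≤ n * (k + 1 + 1) := Nat.mul_le_mul_left n (by omega)
      omega
  obtain ⟨ρ, hρ⟩ := Rep.exists_rep (D := D) hpE hcop hn
  let P : Sylow r D := default
  have hrD : r ∣ Nat.card D := hrn.trans hdvd
  have hPr : Nat.card P = r := by
    obtain ⟨k, hk⟩ := IsPGroup.iff_card.1 P.isPGroup'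
    have h1 : Nat.card (P : Subgroup D) ∣ Nat.card D := Subgroup.card_subgroup_dvd_card _
    have h2 : r ∣ Nat.card (P : Subgroup D) := P.dvd_card_of_dvd_card hrD
    change Nat.card (P : Subgroup D) = r
    change Nat.card (P : Subgroup D) = r ^ k at hk
    rcases k with _ | _ | k
    · rw [hk, pow_zero] at h2
      exact absurd (Nat.dvd_one.1 h2) hr.out.one_lt.ne'
    · rw [hk, zero_add, pow_one]
    · rw [hk] at h1
      exact absurd ((pow_dvd_pow r (by omega : 2 ≤ k + 1 + 1)).trans h1) hsq
  by_cases hPn : (P : Subgroup D).Normal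
  · haveI := hPn
    refine isSemi_of_isPGroup htr hpE hn hz (P : Subgroup D) P.isPGroup' ?_
    intro h
    change Nat.card (P : Subgroup D) = r at hPr
    rw [h, Subgroup.card_bot] at hPr
    exact hr.out.one_lt.ne hPr
  obtain ⟨h5, ⟨e⟩⟩ := Cfsg.Agent.H607.Ordinary.main r ρ hρ hsq P hPr hPn h2n
  have hZc : ∀ a ∈ Subgroup.center D, ∀ b ∈ Subgroup.center D, a * b = b * a := fun a _ b hb =>
    Subgroup.mem_center_iff.1 hb a
  obtain ⟨K, _, _, _, _, φ, σ, d, j, g1, g2, g3, hinj, hd1, hj1, hK, hE, hfr, hdv, hidx⟩ :=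
    exists_field_p htr hpE (Subgroup.center D) hZc
  have hdj : d * j = n := by
    rw [hE] at hn
    exact Nat.pow_right_injective hp.out.two_le hn
  rcases Nat.lt_or_ge j 2 with hj | hj
  · refine ⟨K, inferInstance, inferInstance, inferInstance, σ, g2, ?_⟩
    have : j = 1 := by omega
    rw [hK, hE, this, mul_one]
  exfalso
  have hcardP : Nat.card (Matrix.ProjectiveSpecialLinearGroup (Fin 2) (ZMod r)) = 2 * n * (n + 1) * (2 * n + 1) := by
    have h6 := Cfsg.Agent.ClassicalGeometry.PSL2Basic.card_PSL2_odd (F := ZMod r) (by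
      rw [ZMod.card]
      exact ⟨n, h5.symm⟩)
    rw [ZMod.card] at h6
    have h7 : r ^ 2 - 1 = 4 * n * (n + 1) := by
      have : r ^ 2 = 4 * n * (n + 1) + 1 := by rw [← h5]; ring
      omega
    have h8 : r * (4 * n * (n + 1)) = (2 * n * (n + 1) * (2 * n + 1)) * 2 := by rw [← h5]; ring
    rw [h7, h8] at h6
    exact Nat.eq_of_mul_eq_mul_right (by norm_num : 0 < 2) h6
  have hcD : Nat.card (Subgroup.center D) * (2 * n * (n + 1) * (2 * n + 1)) = Nat.card D := by
    rw [← hcardP, ← Nat.card_congr e.toEquiv, ← Subgroup.index_eq_card]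
    exact (Subgroup.center D).card_mul_index
  have hNd : 2 * n * (n + 1) * (2 * n + 1) ∣ Nat.card D := ⟨_, by rw [← hcD, mul_comm]⟩
  have hp5 : 5 ≤ p := by
    have h2 : p ≠ 2 := by
      rintro rfl
      exact hcop (Dvd.dvd.trans ⟨n * (n + 1) * (2 * n + 1), by ring⟩ hNd)
    have h3 : p ≠ 3 := by
      rintro rfl
      have h4 := Cfsg.Agent.ThreePrime.OrderThree.three_dvd_card_psl (ZMod r)
      rw [hcardP] at h4
      exact hcop (h4.trans hNd)
    have h4 : p ≠ 4 := by
      rintro rfl
      exact absurd hp.out (by norm_num)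
    have := hp.out.two_le
    omega
  refine numeric hp.out hr.out hn3 h5 hdj hj hp5 ?_ (fun h => hcop (h.trans hNd))
  refine hdvd.trans ?_
  rw [← hcD]
  exact Nat.mul_dvd_mul_right hdv _

/-- Groups of odd order. -/
theorem isSemi_of_odd (htr : ∀ x y : E, x ≠ 0 → y ≠ 0 → ∃ d : D, d • x = y)
    {p : ℕ} [hp : Fact p.Prime] (hpE : ∀ e : E, p • e = 0) (hodd : Odd (Nat.card D)) : IsSemi D E := by
  obtain ⟨h1, h2, h3⟩ := Cfsg.Agent.S1161.result (D := D) (E := E) hodd hp.out hpE htr
  have hFn : (Cfsg.fittingSubgroup D).Normal := Cfsg.Agent.S0044.fittingSubgroup_normal D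
  have hFc : ∀ a ∈ Cfsg.fittingSubgroup D, ∀ b ∈ Cfsg.fittingSubgroup D, a * b = b * a := by
    intro a ha b hb
    haveI := h1
    letI := IsCyclic.commGroup (α := Cfsg.fittingSubgroup D)
    exact congrArg Subtype.val (mul_comm (⟨a, ha⟩ : Cfsg.fittingSubgroup D) ⟨b, hb⟩)
  haveI : Group.IsSolvable D := by
    haveI : Group.IsSolvable (Cfsg.fittingSubgroup D) :=
      Group.isSolvable_of_comm fun a b => Subtype.ext (hFc a a.2 b b.2)
    haveI : Group.IsSolvable (D ⧸ Cfsg.fittingSubgroup D) := by
      refine Group.isSolvable_of_comm fun a b => ?_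
      induction a using QuotientGroup.induction_on with
      | H a =>
        induction b using QuotientGroup.induction_on with
        | H b =>
          rw [← QuotientGroup.mk_mul, ← QuotientGroup.mk_mul, QuotientGroup.eq]
          have h4 : ⁅b⁻¹, a⁻¹⁆ ∈ Cfsg.fittingSubgroup D := h3 (Subgroup.commutator_mem_commutator (Subgroup.mem_top _) (Subgroup.mem_top _))
          rw [commutatorElement_def, inv_inv, inv_inv] at h4
          have h5 : (a * b)⁻¹ * (b * a) = b⁻¹ * a⁻¹ * b * a := by group
          rw [h5]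
          exact h4
    exact Group.isSolvable_of_ker_le_range (Cfsg.fittingSubgroup D).subtype
      (QuotientGroup.mk' (Cfsg.fittingSubgroup D)) (by rw [QuotientGroup.ker_mk', Subgroup.range_subtype])
  exact isSemi_of_centralizer_le htr hpE _ hFc Cfsg.Agent.S0044.result

/-- A nontrivial normal `r`-subgroup contains a nontrivial commutative normal subgroup. -/
theorem exists_comm {r : ℕ} [hr' : Fact r.Prime] (N : Subgroup D) [N.Normal] (hN : IsPGroup r N) (hN1 : N ≠ ⊥) :
    ∃ A : Subgroup D, A.Normal ∧ (∀ a ∈ A, ∀ b ∈ A, a * b = b * a) ∧ r ∣ Nat.card A := by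
  haveI : Nontrivial N := (Subgroup.nontrivial_iff_ne_bot N).2 hN1
  haveI : Nontrivial (Subgroup.center N) := hN.center_nontrivial
  refine ⟨(Subgroup.center N).map N.subtype, inferInstance, ?_, ?_⟩
  · rintro _ ⟨a, ha, rfl⟩ _ ⟨b, hb, rfl⟩
    have := (Subgroup.mem_center_iff.1 hb) a
    exact congrArg Subtype.val this
  · rw [Subgroup.card_map_of_injective N.subtype_injective]
    have h2 : IsPGroup r (Subgroup.center N) := hN.to_subgroup _
    obtain ⟨k, hk⟩ := IsPGroup.iff_card.1 h2
    have h3 : 1 < Nat.card (Subgroup.center N) := Finite.one_lt_card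
    rw [hk] at h3 ⊢
    have : k ≠ 0 := by
      rintro rfl
      simp at h3
    exact dvd_pow_self r this

theorem sylow_ne_bot {r : ℕ} [hr' : Fact r.Prime] (P : Sylow r D) (h : r ∣ Nat.card D) : (P : Subgroup D) ≠ ⊥ := by
  intro h1
  have h2 : r ∣ Nat.card (P : Subgroup D) := P.dvd_card_of_dvd_card h
  rw [h1, Subgroup.card_bot] at h2
  exact hr'.out.one_lt.ne' (Nat.dvd_one.1 h2)

theorem isSemi_three_six (htr : ∀ x y : E, x ≠ 0 → y ≠ 0 → ∃ d : D, d • x = y)
    (hpE : ∀ e : E, 3 • e = 0) (hcop : ¬ 3 ∣ Nat.card D) (hn : Nat.card E = 3 ^ 6) : IsSemi D E := by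
  haveI : Fact (Nat.Prime 3) := ⟨by norm_num⟩
  haveI : Fact (Nat.Prime 13) := ⟨by norm_num⟩
  have hdvd := dvd_card htr
  rw [hn] at hdvd
  have h13 : 13 ∣ Nat.card D := Dvd.dvd.trans (by norm_num) hdvd
  obtain ⟨ρ, hρ⟩ := Rep.exists_rep (D := D) hpE hcop hn
  rcases FT.normal_or_psl' (r := 13) (by norm_num) ρ hρ (by norm_num) with h | ⟨-, K, -, ⟨e⟩⟩
  · let P : Sylow 13 D := default
    haveI := h P
    obtain ⟨A, hAn, hAc, hA13⟩ := exists_comm (P : Subgroup D) P.isPGroup' (sylow_ne_bot P h13)
    obtain ⟨K, _, _, _, _, φ, σ, d, j, g1, g2, g3, hinj, hd1, hj1, hK, hE, hfr, hdv, hidx⟩ :=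
      exists_field_p htr hpE A hAc
    have hdj : d * j = 6 := by
      rw [hE] at hn
      exact Nat.pow_right_injective (by norm_num : 2 ≤ 3) hn
    have h1 : 13 ∣ 3 ^ d - 1 := hA13.trans hdv
    have hd6 : d ≤ 6 := Nat.le_of_dvd (by norm_num) ⟨j, hdj.symm⟩
    rcases Nat.lt_or_ge j 2 with hj | hj
    · refine ⟨K, inferInstance, inferInstance, inferInstance, σ, g2, ?_⟩
      have : j = 1 := by omega
      rw [hK, hE, this, mul_one]
    have hd3 : d = 3 := by
      interval_cases d
      · norm_num at h1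
      · norm_num at h1
      · rfl
      · omega
      · omega
      · omega
    subst hd3
    have hj2 : j = 2 := by omega
    subst hj2
    have hC : (Subgroup.centralizer (A : Set D)).index = 1 := by
      rcases (Nat.dvd_prime (by norm_num)).1 hidx with h2 | h2
      · exact h2
      · exfalso
        apply hcop
        rw [← h2]
        exact Subgroup.index_dvd_card _
    have hCt := Subgroup.index_eq_one.1 hC
    have hlin : ∀ (d : D) (c : K) (e : E), d • (c • e) = c • (d • e) := by
      intro d c e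
      have h3 : σ d = 1 := by
        rw [g3, hCt]
        trivial
      rw [g2, h3]
      rfl
    obtain ⟨Z, hZn, hZ, hcases⟩ := Dickson.cases 3 hfr hlin hcop
    have hdZ : Nat.card (D ⧸ Z) ∣ Nat.card D := by
      rw [← Subgroup.index_eq_card]; exact Subgroup.index_dvd_card _
    rcases hcases with ⟨B, hB1, hB2, hB3, -⟩ | ⟨⟨e⟩⟩ | ⟨⟨e⟩⟩ | ⟨⟨e⟩⟩
    · haveI := hB1
      exact isSemi_of_index_two htr hpE B hB2 hB3
    · exfalso
      apply hcop
      refine Dvd.dvd.trans ?_ hdZ
      rw [Nat.card_congr e.toEquiv, nat_card_alternatingGroup, Nat.card_eq_fintype_card, Fintype.card_fin]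
      decide
    · exfalso
      apply hcop
      refine Dvd.dvd.trans ?_ hdZ
      rw [Nat.card_congr e.toEquiv, Nat.card_perm, Nat.card_eq_fintype_card, Fintype.card_fin]
      decide
    · exfalso
      apply hcop
      refine Dvd.dvd.trans ?_ hdZ
      rw [Nat.card_congr e.toEquiv, nat_card_alternatingGroup, Nat.card_eq_fintype_card, Fintype.card_fin]
      decide
  · exfalso
    apply hcop
    have h4 := Cfsg.Agent.ThreePrime.OrderThree.three_dvd_card_psl (ZMod 13)
    rw [← Nat.card_congr e.toEquiv, ← Subgroup.index_eq_card] at h4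
    exact (h4.trans (Subgroup.index_dvd_card _)).trans (Subgroup.card_subgroup_dvd_card K)

/-- The subgroup generated by the elements of order seven. -/
theorem exists_seven {r : ℕ} [hr : Fact r.Prime] (C : Subgroup D) [C.Normal] (M : Subgroup C) [M.Normal]
    (hM : ∀ a ∈ M, ∀ b ∈ M, a * b = b * a) (hi : ¬ r ∣ M.index) (hC : r ∣ Nat.card C) :
    ∃ A : Subgroup D, A.Normal ∧ (∀ a ∈ A, ∀ b ∈ A, a * b = b * a) ∧ r ∣ Nat.card A := by
  let A : Subgroup D := Subgroup.closure {x : D | x ∈ C ∧ x ^ r = 1}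
  have hAn : A.Normal := by
    refine ⟨fun n hn g => ?_⟩
    induction hn using Subgroup.closure_induction with
    | mem x hx =>
      refine Subgroup.subset_closure ⟨Subgroup.Normal.conj_mem ‹_› x hx.1 g, ?_⟩
      rw [conj_pow, hx.2, mul_one, mul_inv_cancel]
    | one => rw [mul_one, mul_inv_cancel]; exact one_mem _
    | mul x y _ _ h1 h2 =>
      have : g * (x * y) * g⁻¹ = (g * x * g⁻¹) * (g * y * g⁻¹) := by group
      rw [this]
      exact mul_mem h1 h2
    | inv x _ h1 =>
      have : g * x⁻¹ * g⁻¹ = (g * x * g⁻¹)⁻¹ := by group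
      rw [this]
      exact inv_mem h1
  have hAM : A ≤ M.map C.subtype := by
    rw [Subgroup.closure_le]
    rintro x ⟨hxC, hx⟩
    refine ⟨⟨x, hxC⟩, ?_, rfl⟩
    have h1 : ((⟨x, hxC⟩ : C) : C ⧸ M) ^ r = 1 := by
      rw [← QuotientGroup.mk_pow, QuotientGroup.eq_one_iff]
      have : (⟨x, hxC⟩ : C) ^ r = 1 := Subtype.ext hx
      rw [this]
      exact one_mem _
    have h2 := orderOf_dvd_of_pow_eq_one h1
    rcases (Nat.dvd_prime hr.out).1 h2 with h3 | h3
    · rw [orderOf_eq_one_iff, QuotientGroup.eq_one_iff] at h3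
      exact h3
    · exfalso
      apply hi
      rw [Subgroup.index_eq_card, ← h3]
      exact orderOf_dvd_natCard _
  refine ⟨A, hAn, ?_, ?_⟩
  · intro a ha b hb
    obtain ⟨a, ha', rfl⟩ := hAM ha
    obtain ⟨b, hb', rfl⟩ := hAM hb
    exact congrArg Subtype.val (hM a ha' b hb')
  · obtain ⟨x, hx⟩ := exists_prime_orderOf_dvd_card' r hC
    have hxA : (x : D) ∈ A := Subgroup.subset_closure ⟨x.2, by
      have : x ^ r = 1 := by rw [← hx, pow_orderOf_eq_one]
      exact congrArg Subtype.val this⟩
    have h4 := orderOf_dvd_natCard (⟨(x : D), hxA⟩ : A)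
    rwa [Subgroup.orderOf_mk, Subgroup.orderOf_coe, hx] at h4

theorem isSemi_five_six (htr : ∀ x y : E, x ≠ 0 → y ≠ 0 → ∃ d : D, d • x = y)
    (hpE : ∀ e : E, 5 • e = 0) (hcop : ¬ 5 ∣ Nat.card D) (hn : Nat.card E = 5 ^ 6) : IsSemi D E := by
  haveI : Fact (Nat.Prime 5) := ⟨by norm_num⟩
  haveI : Fact (Nat.Prime 7) := ⟨by norm_num⟩
  haveI : Fact (Nat.Prime 31) := ⟨by norm_num⟩
  have hdvd := dvd_card htr
  rw [hn] at hdvd
  have h31 : 31 ∣ Nat.card D := Dvd.dvd.trans (by norm_num) hdvd
  have h7 : 7 ∣ Nat.card D := Dvd.dvd.trans (by norm_num) hdvd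
  obtain ⟨ρ, hρ⟩ := Rep.exists_rep (D := D) hpE hcop hn
  let P : Sylow 31 D := default
  haveI := FT.normal_of_lt (r := 31) (by norm_num) ρ hρ (by norm_num) P
  obtain ⟨A, hAn, hAc, hA31⟩ := exists_comm (P : Subgroup D) P.isPGroup' (sylow_ne_bot P h31)
  obtain ⟨K, _, _, _, _, φ, σ, d, j, g1, g2, g3, hinj, hd1, hj1, hK, hE, hfr, hdv, hidx⟩ :=
    exists_field_p htr hpE A hAc
  have hdj : d * j = 6 := by
    rw [hE] at hn
    exact Nat.pow_right_injective (by norm_num : 2 ≤ 5) hn
  have h1 : 31 ∣ 5 ^ d - 1 := hA31.trans hdv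
  have hd6 : d ≤ 6 := Nat.le_of_dvd (by norm_num) ⟨j, hdj.symm⟩
  rcases Nat.lt_or_ge j 2 with hj | hj
  · refine ⟨K, inferInstance, inferInstance, inferInstance, σ, g2, ?_⟩
    have : j = 1 := by omega
    rw [hK, hE, this, mul_one]
  have hd3 : d = 3 := by
    interval_cases d
    · norm_num at h1
    · norm_num at h1
    · rfl
    · omega
    · omega
    · omega
  subst hd3
  have hj2 : j = 2 := by omega
  subst hj2
  set C := Subgroup.centralizer (A : Set D) with hC
  have hlin : ∀ (d : C) (c : K) (e : E), d • (c • e) = c • (d • e) := by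
    intro d c e
    have h3 : σ (d : D) = 1 := by
      rw [g3]
      exact d.2
    change (d : D) • (c • e) = c • ((d : D) • e)
    rw [g2, h3]
    rfl
  have hcC : Nat.card C * C.index = Nat.card D := C.card_mul_index
  have hcopC : ¬ 5 ∣ Nat.card C := fun h => hcop (h.trans (Subgroup.card_subgroup_dvd_card C))
  have h7C : 7 ∣ Nat.card C := by
    rw [← hcC] at h7
    rcases (Nat.Prime.dvd_mul (by norm_num)).1 h7 with h8 | h8
    · exact h8
    · have := h8.trans hidx
      norm_num at this
  obtain ⟨Z, hZn, hZ, hcases⟩ := Dickson.cases (D := C) (E := E) 5 hfr hlin hcopC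
  have hfin : ∀ M : Subgroup C, M.Normal → (∀ a ∈ M, ∀ b ∈ M, a * b = b * a) → ¬ 7 ∣ M.index → IsSemi D E := by
    intro M hMn hM hMi
    haveI := hMn
    obtain ⟨A', hA'n, hA'c, hA'7⟩ := exists_seven C M hM hMi h7C
    haveI := hA'n
    refine isSemi_of_prime_dvd htr hpE hn A' hA'c (r := 7) ?_ hA'7
    intro i hi1 hi6
    interval_cases i <;> norm_num
  have hZc : ∀ a ∈ Z, ∀ b ∈ Z, a * b = b * a := by
    intro a ha b hb
    obtain ⟨c, hc⟩ := (hZ a).1 ha
    apply FaithfulSMul.eq_of_smul_eq_smul (α := E)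
    intro e
    rw [mul_smul, mul_smul, hc, hc, hlin]
  rcases hcases with ⟨B, hB1, hB2, hB3, -⟩ | ⟨⟨e⟩⟩ | ⟨⟨e⟩⟩ | ⟨⟨e⟩⟩
  · refine hfin B hB1 hB2 (fun h => ?_)
    have := h.trans hB3
    norm_num at this
  · refine hfin Z hZn hZc ?_
    rw [Subgroup.index_eq_card, Nat.card_congr e.toEquiv, nat_card_alternatingGroup, Nat.card_eq_fintype_card,
      Fintype.card_fin]
    decide
  · refine hfin Z hZn hZc ?_
    rw [Subgroup.index_eq_card, Nat.card_congr e.toEquiv, Nat.card_perm, Nat.card_eq_fintype_card, Fintype.card_fin]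
    decide
  · refine hfin Z hZn hZc ?_
    rw [Subgroup.index_eq_card, Nat.card_congr e.toEquiv, nat_card_alternatingGroup, Nat.card_eq_fintype_card,
      Fintype.card_fin]
    decide

/-- **Coprime transitive linear groups.** -/
theorem trichotomy (htr : ∀ x y : E, x ≠ 0 → y ≠ 0 → ∃ d : D, d • x = y)
    {p : ℕ} [hp : Fact p.Prime] (hpE : ∀ e : E, p • e = 0) (hcop : ¬ p ∣ Nat.card D)
    {n : ℕ} (hn : Nat.card E = p ^ n) : IsSemi D E ∨ n = 2 ∨ (p = 3 ∧ n = 4) := by
  have hp2 := hp.out.two_le
  have hE1 : 1 < Nat.card E := Finite.one_lt_card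
  rcases Nat.lt_or_ge n 3 with h3 | h3
  · have hn0 : n ≠ 0 := by
      rintro rfl
      rw [hn, pow_zero] at hE1
      omega
    rcases Nat.lt_or_ge n 2 with h2 | h2
    · left
      have hn1 : n = 1 := by omega
      subst hn1
      obtain ⟨K, _, _, _, _, φ, σ, d, j, g1, g2, g3, hinj, hd1, hj1, hK, hE, hfr, hdv, hidx⟩ :=
        exists_field_p htr hpE (⊥ : Subgroup D) (by
          intro a ha b hb
          rw [Subgroup.mem_bot] at ha hb
          rw [ha, hb])
      refine ⟨K, inferInstance, inferInstance, inferInstance, σ, g2, ?_⟩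
      have hdj : d * j = 1 := by
        rw [hE] at hn
        exact Nat.pow_right_injective hp2 hn
      have : j = 1 := Nat.eq_one_of_mul_eq_one_left hdj
      rw [hK, hE, this, mul_one]
    · right; left; omega
  by_cases hpp : p = 2
  · left
    subst hpp
    refine isSemi_of_odd htr hpE ?_
    rw [← Nat.not_even_iff_odd, even_iff_two_dvd]
    exact hcop
  by_cases h34 : p = 3 ∧ n = 4
  · exact Or.inr (Or.inr h34)
  by_cases h36 : p = 3 ∧ n = 6
  · left
    obtain ⟨rfl, rfl⟩ := h36
    exact isSemi_three_six htr hpE hcop hn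
  by_cases h56 : p = 5 ∧ n = 6
  · left
    obtain ⟨rfl, rfl⟩ := h56
    exact isSemi_five_six htr hpE hcop hn
  left
  obtain ⟨r, hr, hrn, hz, hl⟩ := Cfsg.Agent.S3430.result p n hp2 (by omega) (fun h => by omega)
    (fun h => hpp h.1) (fun h => by
      rcases h with ⟨h1, h2 | h2⟩
      · exact h34 ⟨h1, h2⟩
      · exact h36 ⟨h1, h2⟩) h56
  haveI : Fact r.Prime := ⟨hr⟩
  exact isSemi_of_prime htr hpE hcop hn h3 hrn hz hl

end Cfsg.Agent.H717.Coprime
end

-- part: H717/Eighty
section
/-!
# Coprime transitive linear groups on 81 vectors: first reductions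
-/

set_option autoImplicit false
set_option linter.style.haveILetI false
set_option linter.unusedSectionVars false

namespace Cfsg.Agent.H717.Eighty

open Cfsg.Agent.H717.Semi Cfsg.Agent.H717.FieldP Cfsg.Agent.H717.Zsig Cfsg.Agent.H717.Plane Cfsg.Agent.H717.Coprime

universe u v

variable {D : Type v} {E : Type u} [Group D] [Finite D] [AddCommGroup E] [Finite E] [Nontrivial E]
  [DistribMulAction D E] [FaithfulSMul D E]

theorem not_thirteen (htr : ∀ x y : E, x ≠ 0 → y ≠ 0 → ∃ d : D, d • x = y)
    (hpE : ∀ e : E, 3 • e = 0) (hcop : ¬ 3 ∣ Nat.card D) (hn : Nat.card E = 3 ^ 4) : ¬ 13 ∣ Nat.card D := by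
  intro h13
  haveI : Fact (Nat.Prime 3) := ⟨by norm_num⟩
  haveI : Fact (Nat.Prime 13) := ⟨by norm_num⟩
  obtain ⟨ρ, hρ⟩ := Rep.exists_rep (D := D) hpE hcop hn
  let P : Sylow 13 D := default
  haveI := FT.normal_of_lt (r := 13) (by norm_num) ρ hρ (by norm_num) P
  obtain ⟨A, hAn, hAc, hA13⟩ := exists_comm (P : Subgroup D) P.isPGroup' (sylow_ne_bot P h13)
  obtain ⟨K, _, _, _, _, φ, σ, d, j, g1, g2, g3, hinj, hd1, hj1, hK, hE, hfr, hdv, hidx⟩ :=
    exists_field_p htr hpE A hAc
  have hdj : d * j = 4 := by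
    rw [hE] at hn
    exact Nat.pow_right_injective (by norm_num : 2 ≤ 3) hn
  have h1 : 13 ∣ 3 ^ d - 1 := hA13.trans hdv
  have hd6 : d ≤ 4 := Nat.le_of_dvd (by norm_num) ⟨j, hdj.symm⟩
  interval_cases d
  · norm_num at h1
  · norm_num at h1
  · omega
  · norm_num at h1

theorem card_dvd_two (htr : ∀ x y : E, x ≠ 0 → y ≠ 0 → ∃ d : D, d • x = y)
    (hpE : ∀ e : E, 3 • e = 0) (hcop : ¬ 3 ∣ Nat.card D) (hn : Nat.card E = 3 ^ 4) (hns : ¬ IsSemi D E)
    (A : Subgroup D) (hAn : A.Normal) (hAc : ∀ a ∈ A, ∀ b ∈ A, a * b = b * a) : Nat.card A ∣ 2 := by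
  haveI : Fact (Nat.Prime 3) := ⟨by norm_num⟩
  haveI : Fact (Nat.Prime 5) := ⟨by norm_num⟩
  have hdvd := dvd_card htr
  rw [hn] at hdvd
  have h5 : 5 ∣ Nat.card D := Dvd.dvd.trans (by norm_num) hdvd
  obtain ⟨K, _, _, _, _, φ, σ, d, j, g1, g2, g3, hinj, hd1, hj1, hK, hE, hfr, hdv, hidx⟩ :=
    exists_field_p htr hpE A hAc
  have hdj : d * j = 4 := by
    rw [hE] at hn
    exact Nat.pow_right_injective (by norm_num : 2 ≤ 3) hn
  have hd4 : d ≤ 4 := Nat.le_of_dvd (by norm_num) ⟨j, hdj.symm⟩
  have hj2 : 2 ≤ j := by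
    by_contra hlt
    apply hns
    refine ⟨K, inferInstance, inferInstance, inferInstance, σ, g2, ?_⟩
    have : j = 1 := by omega
    rw [hK, hE, this, mul_one]
  have hd : d = 1 ∨ d = 2 := by
    have : d * 2 ≤ d * j := Nat.mul_le_mul_left d hj2
    omega
  rcases hd with rfl | rfl
  · simpa using hdv
  exfalso
  have hj2' : j = 2 := by omega
  subst hj2'
  set C := Subgroup.centralizer (A : Set D) with hC
  have hlin : ∀ (d : C) (c : K) (e : E), d • (c • e) = c • (d • e) := by
    intro d c e
    have h3 : σ (d : D) = 1 := by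
      rw [g3]
      exact d.2
    change (d : D) • (c • e) = c • ((d : D) • e)
    rw [g2, h3]
    rfl
  have hcC : Nat.card C * C.index = Nat.card D := C.card_mul_index
  have hcopC : ¬ 3 ∣ Nat.card C := fun h => hcop (h.trans (Subgroup.card_subgroup_dvd_card C))
  have h5C : 5 ∣ Nat.card C := by
    rw [← hcC] at h5
    rcases (Nat.Prime.dvd_mul (by norm_num)).1 h5 with h8 | h8
    · exact h8
    · have := h8.trans hidx
      norm_num at this
  obtain ⟨Z, hZn, hZ, hcases⟩ := Dickson.cases (D := C) (E := E) 3 hfr hlin hcopC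
  have hdZ : Nat.card (C ⧸ Z) ∣ Nat.card C := by
    rw [← Subgroup.index_eq_card]; exact Subgroup.index_dvd_card _
  rcases hcases with ⟨B, hB1, hB2, hB3, -⟩ | ⟨⟨e⟩⟩ | ⟨⟨e⟩⟩ | ⟨⟨e⟩⟩
  · haveI := hB1
    obtain ⟨A', hA'n, hA'c, hA'5⟩ := exists_seven (r := 5) C B hB2 (fun h => by
      have := h.trans hB3
      norm_num at this) h5C
    haveI := hA'n
    apply hns
    refine isSemi_of_prime_dvd htr hpE hn A' hA'c (r := 5) ?_ hA'5
    intro i hi1 hi6
    interval_cases i <;> norm_num
  · apply hcopC
    refine Dvd.dvd.trans ?_ hdZ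
    rw [Nat.card_congr e.toEquiv, nat_card_alternatingGroup, Nat.card_eq_fintype_card, Fintype.card_fin]
    decide
  · apply hcopC
    refine Dvd.dvd.trans ?_ hdZ
    rw [Nat.card_congr e.toEquiv, Nat.card_perm, Nat.card_eq_fintype_card, Fintype.card_fin]
    decide
  · apply hcopC
    refine Dvd.dvd.trans ?_ hdZ
    rw [Nat.card_congr e.toEquiv, nat_card_alternatingGroup, Nat.card_eq_fintype_card, Fintype.card_fin]
    decide

end Cfsg.Agent.H717.Eighty
end

-- part: H718/ExtraTwo
section
/-!
# Two lemmas for the case `|V| = 81` of the `k(GV)` problem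

* `commutator_le_center`, `sq_mem_center` : a nilpotent group all of whose commutative
  characteristic subgroups have order dividing two has class at most two and its squares are
  central;
* `card_conjClasses_le` : a group of order 160 with a normal subgroup of order 32 on which the
  elements of order five act with few fixed points has at most sixteen classes.
-/

set_option autoImplicit false
set_option linter.style.haveILetI false

namespace Cfsg.Agent.H718.ExtraTwo

open scoped commutatorElement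

section Char

variable {Q : Type*} [Group Q]

theorem le_center_of_card_dvd_two {A : Subgroup Q} [A.Normal] (h : Nat.card A ∣ 2) :
    A ≤ Subgroup.center Q := by
  intro a ha
  rw [Subgroup.mem_center_iff]
  intro g
  by_cases h1 : a = 1
  · rw [h1, mul_one, one_mul]
  have hA2 : Nat.card A = 2 := by
    rcases (Nat.dvd_prime Nat.prime_two).1 h with h2 | h2
    · exfalso
      rw [Subgroup.card_eq_one] at h2
      rw [h2] at ha
      exact h1 (Subgroup.mem_bot.1 ha)
    · exact h2
  have h3 : g * a * g⁻¹ ∈ A := Subgroup.Normal.conj_mem inferInstance a ha g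
  have h4 : g * a * g⁻¹ ≠ 1 := by
    intro h5
    apply h1
    have : g * a * g⁻¹ = g * 1 * g⁻¹ := by rw [h5]; group
    exact mul_left_cancel (mul_right_cancel this)
  obtain ⟨x, y, hxy, hun⟩ := Nat.card_eq_two_iff.1 hA2
  have key : ∀ b c : A, b ≠ 1 → c ≠ 1 → b = c := by
    intro b c hb hc
    have m1 : ∀ t : A, t = x ∨ t = y := by
      intro t
      have : t ∈ ({x, y} : Set A) := by rw [hun]; trivial
      simpa using this
    rcases m1 1 with h6 | h6 <;> rcases m1 b with h7 | h7 <;> rcases m1 c with h8 | h8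
    · exact absurd (h7.trans h6.symm) hb
    · exact absurd (h7.trans h6.symm) hb
    · exact absurd (h8.trans h6.symm) hc
    · rw [h7, h8]
    · rw [h7, h8]
    · exact absurd (h8.trans h6.symm) hc
    · exact absurd (h7.trans h6.symm) hb
    · exact absurd (h7.trans h6.symm) hb
  have h9 := key ⟨g * a * g⁻¹, h3⟩ ⟨a, ha⟩ (fun h => h4 (congrArg Subtype.val h))
    (fun h => h1 (congrArg Subtype.val h))
  have h10 : g * a * g⁻¹ = a := congrArg Subtype.val h9
  calc g * a = (g * a * g⁻¹) * g := by group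
    _ = a * g := by rw [h10]

theorem commutator_le_center [Group.IsNilpotent Q]
    (hch : ∀ A : Subgroup Q, A.Characteristic → (∀ a ∈ A, ∀ b ∈ A, a * b = b * a) →
      Nat.card A ∣ 2) :
    _root_.commutator Q ≤ Subgroup.center Q := by
  -- the intersection of the commutator subgroup and the second center
  have h3s : ⁅⁅(⊤ : Subgroup Q), (⊤ : Subgroup Q)⁆, Subgroup.upperCentralSeries Q 2⁆ = ⊥ := by
    have h1 : ⁅Subgroup.upperCentralSeries Q 2, (⊤ : Subgroup Q)⁆ ≤ Subgroup.center Q := by
      have := Subgroup.commutator_upperCentralSeries_top_le Q 1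
      rwa [Subgroup.upperCentralSeries_one] at this
    have h2 : ⁅Subgroup.center Q, (⊤ : Subgroup Q)⁆ = ⊥ := by
      rw [Subgroup.commutator_eq_bot_iff_le_centralizer]
      intro a ha
      rw [Subgroup.mem_centralizer_iff]
      intro b _
      exact Subgroup.mem_center_iff.1 ha b
    apply Subgroup.commutator_commutator_eq_bot_of_rotate
    · rw [Subgroup.commutator_comm ⊤ (Subgroup.upperCentralSeries Q 2)]
      exact le_bot_iff.1 ((Subgroup.commutator_mono h1 le_rfl).trans h2.le)
    · exact le_bot_iff.1 ((Subgroup.commutator_mono h1 le_rfl).trans h2.le)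
  let A : Subgroup Q := _root_.commutator Q ⊓ Subgroup.upperCentralSeries Q 2
  have hAchar : A.Characteristic := by
    rw [Subgroup.characteristic_iff_comap_eq]
    intro φ
    change (_root_.commutator Q ⊓ Subgroup.upperCentralSeries Q 2).comap φ.toMonoidHom = _
    rw [Subgroup.comap_inf,
      Subgroup.characteristic_iff_comap_eq.1 (inferInstance : (_root_.commutator Q).Characteristic) φ,
      Subgroup.characteristic_iff_comap_eq.1
        (inferInstance : (Subgroup.upperCentralSeries Q 2).Characteristic) φ]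
  have hAc : ∀ a ∈ A, ∀ b ∈ A, a * b = b * a := by
    intro a ha b hb
    rw [Subgroup.commutator_eq_bot_iff_le_centralizer] at h3s
    have := h3s ha.1
    rw [Subgroup.mem_centralizer_iff] at this
    exact (this b hb.2).symm
  have hA2 := hch A hAchar hAc
  haveI := hAchar
  haveI : A.Normal := inferInstance
  have hAZ : A ≤ Subgroup.center Q := le_center_of_card_dvd_two hA2
  obtain ⟨n, hn⟩ := Subgroup.nilpotent_iff_lowerCentralSeries.1 (inferInstance : Group.IsNilpotent Q)
  have key : ∀ m k : ℕ, 1 ≤ k → n ≤ k + m →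
      (⊤ : Subgroup Q).lowerCentralSeries k ≤ Subgroup.center Q := by
    intro m
    induction m with
    | zero =>
      intro k _ hk
      have h1 : (⊤ : Subgroup Q).lowerCentralSeries k ≤ (⊤ : Subgroup Q).lowerCentralSeries n :=
        Subgroup.lowerCentralSeries_antitone _ (by omega)
      rw [hn] at h1
      exact h1.trans bot_le
    | succ m ih =>
      intro k hk1 hk
      have h1 := ih (k + 1) (by omega) (by omega)
      refine le_trans ?_ hAZ
      refine le_inf ?_ ?_
      · have h2 : (⊤ : Subgroup Q).lowerCentralSeries k ≤ (⊤ : Subgroup Q).lowerCentralSeries 1 :=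
          Subgroup.lowerCentralSeries_antitone _ hk1
        rwa [Subgroup.top_lowerCentralSeries_one] at h2
      · intro x hx
        rw [Subgroup.mem_upperCentralSeries_succ_iff]
        intro y
        rw [Subgroup.upperCentralSeries_one]
        apply h1
        rw [Subgroup.lowerCentralSeries_succ]
        exact Subgroup.commutator_mem_commutator hx (Subgroup.mem_top y)
  have := key n 1 le_rfl (by omega)
  rwa [Subgroup.top_lowerCentralSeries_one] at this

/-- In a group of class two with center of exponent two, squares are central. -/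
theorem sq_mem_center (hQ : _root_.commutator Q ≤ Subgroup.center Q)
    (hZ : ∀ z ∈ Subgroup.center Q, z ^ 2 = 1) (x : Q) : x ^ 2 ∈ Subgroup.center Q := by
  rw [Subgroup.mem_center_iff]
  intro y
  have h1 : ⁅y, x⁆ ∈ Subgroup.center Q :=
    hQ (Subgroup.commutator_mem_commutator (Subgroup.mem_top y) (Subgroup.mem_top x))
  have h2 : ⁅y, x⁆ ^ 2 = 1 := hZ _ h1
  have h3 : y * x = ⁅y, x⁆ * (x * y) := by rw [commutatorElement_def]; group
  rw [Subgroup.mem_center_iff] at h1
  calc y * x ^ 2 = (y * x) * x := by rw [sq, mul_assoc]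
    _ = ⁅y, x⁆ * (x * y) * x := by rw [h3]
    _ = ⁅y, x⁆ * x * (y * x) := by group
    _ = ⁅y, x⁆ * x * (⁅y, x⁆ * (x * y)) := by rw [← h3]
    _ = ⁅y, x⁆ * (x * ⁅y, x⁆) * (x * y) := by simp only [mul_assoc]
    _ = ⁅y, x⁆ * (⁅y, x⁆ * x) * (x * y) := by rw [h1 x]
    _ = ⁅y, x⁆ ^ 2 * (x ^ 2 * y) := by simp only [sq, mul_assoc]
    _ = x ^ 2 * y := by rw [h2, one_mul]

end Char

section Count

open Classical in
/-- A group of order 160 with a normal subgroup of order 32 on which the elements of order five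
have at most two fixed points has at most sixteen classes. -/
theorem card_conjClasses_le {N : Type*} [Group N] [Finite N] (Q : Subgroup N) [Q.Normal]
    (hQ : Nat.card Q = 32) (hN : Nat.card N = 160)
    (h5 : ∀ x : N, orderOf x = 5 → Nat.card {q : Q // Commute (q : N) x} ≤ 2) :
    Nat.card (ConjClasses N) ≤ 16 := by
  haveI := Fintype.ofFinite N
  have hq : ∀ x : N, x ∉ Q → Nat.card {q : Q // Commute (q : N) x} ≤ 2 := by
    intro x hx
    have hidx : Nat.card (N ⧸ Q) = 5 := by
      have := Q.card_mul_index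
      rw [hQ, hN, Subgroup.index_eq_card] at this
      omega
    have h1 : orderOf (x : N ⧸ Q) = 5 := by
      have h2 : orderOf (x : N ⧸ Q) ∣ 5 := hidx ▸ orderOf_dvd_natCard _
      rcases (Nat.dvd_prime (by norm_num)).1 h2 with h3 | h3
      · exact absurd ((QuotientGroup.eq_one_iff x).1 (orderOf_eq_one_iff.1 h3)) hx
      · exact h3
    have h2 : 5 ∣ orderOf x := h1 ▸ orderOf_map_dvd (QuotientGroup.mk' Q) x
    have h3 : orderOf (x ^ (orderOf x / 5)) = 5 := by
      rw [orderOf_pow_of_dvd, Nat.div_div_self h2 (orderOf_pos x).ne']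
      · obtain ⟨t, ht⟩ := h2
        have := orderOf_pos x
        intro h0
        omega
      · exact Nat.div_dvd_of_dvd h2
    refine le_trans ?_ (h5 _ h3)
    refine Nat.card_le_card_of_injective
      (fun q : {q : Q // Commute (q : N) x} => (⟨q.1, q.2.pow_right _⟩ :
        {q : Q // Commute (q : N) (x ^ (orderOf x / 5))})) ?_
    intro a b hab
    exact Subtype.ext (congrArg (fun t => t.1) hab)
  have hc : ∀ x : N, x ∉ Q → Nat.card (Subgroup.centralizer ({x} : Set N)) ≤ 10 := by
    intro x hx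
    set C := Subgroup.centralizer ({x} : Set N) with hC
    have h1 := (Q.subgroupOf C).card_mul_index
    have h2 : (Q.subgroupOf C).index ∣ 5 := by
      have h3 : Q.relIndex C ∣ Q.index := Subgroup.relIndex_dvd_index_of_normal Q C
      have h4 : Q.index = 5 := by
        have := Q.card_mul_index
        rw [hQ, hN] at this
        omega
      rwa [h4] at h3
    have h3 : Nat.card (Q.subgroupOf C) ≤ 2 := by
      refine le_trans ?_ (hq x hx)
      refine Nat.card_le_card_of_injective
        (fun q : Q.subgroupOf C => (⟨⟨((q : C) : N), q.2⟩, ?_⟩ : {q : Q // Commute (q : N) x})) ?_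
      · have h5 := (q : C).2
        exact (Subgroup.mem_centralizer_singleton_iff.1 h5)
      · intro a b hab
        apply Subtype.ext
        apply Subtype.ext
        exact congrArg (fun t : {q : Q // Commute (q : N) x} => ((t : Q) : N)) hab
    rw [← h1]
    calc _ ≤ 2 * 5 := Nat.mul_le_mul h3 (Nat.le_of_dvd (by norm_num) h2)
      _ = 10 := by norm_num
  have hcardQ : (Finset.univ.filter (fun a : N => a ∈ Q)).card = 32 := by
    rw [← hQ, Nat.card_eq_fintype_card, Fintype.card_subtype]
  have hcardQ' : (Finset.univ.filter (fun a : N => a ∉ Q)).card = 128 := by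
    have h1 := Finset.card_filter_add_card_filter_not (s := (Finset.univ : Finset N)) (fun a : N => a ∈ Q)
    rw [hcardQ, Finset.card_univ, ← Nat.card_eq_fintype_card, hN] at h1
    omega
  have htot : Nat.card (ConjClasses N) * 160 = ∑ a : N, ∑ b : N, (if Commute a b then 1 else 0) := by
    rw [← hN, ← card_comm_eq_card_conjClasses_mul_card, Nat.card_eq_fintype_card,
      Fintype.card_subtype, Finset.card_filter, Fintype.sum_prod_type]
  have hA : ∑ a ∈ Finset.univ.filter (fun a : N => a ∈ Q), ∑ b ∈ Finset.univ.filter (fun a : N => a ∈ Q),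
      (if Commute a b then 1 else 0) ≤ 32 * 32 := by
    calc _ ≤ ∑ a ∈ Finset.univ.filter (fun a : N => a ∈ Q),
          ∑ b ∈ Finset.univ.filter (fun a : N => a ∈ Q), 1 := by
          refine Finset.sum_le_sum fun a _ => Finset.sum_le_sum fun b _ => ?_
          split_ifs <;> simp
      _ = 32 * 32 := by simp [hcardQ]
  have hB : ∑ a ∈ Finset.univ.filter (fun a : N => a ∈ Q), ∑ b ∈ Finset.univ.filter (fun a : N => a ∉ Q),
      (if Commute a b then 1 else 0) ≤ 128 * 2 := by
    rw [Finset.sum_comm]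
    have h1 : ∀ b ∈ Finset.univ.filter (fun a : N => a ∉ Q),
        ∑ a ∈ Finset.univ.filter (fun a : N => a ∈ Q), (if Commute a b then 1 else 0) ≤ 2 := by
      intro b hb
      refine le_trans (le_of_eq ?_) (hq b (Finset.mem_filter.1 hb).2)
      rw [← Finset.card_filter, Finset.filter_filter, Nat.card_eq_fintype_card]
      rw [← Fintype.card_subtype]
      refine Fintype.card_congr
        { toFun := fun t => ⟨⟨t.1, t.2.1⟩, t.2.2⟩
          invFun := fun t => ⟨t.1.1, t.1.2, t.2⟩
          left_inv := fun t => rfl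
          right_inv := fun t => rfl }
    refine (Finset.sum_le_sum h1).trans (le_of_eq ?_)
    simp [hcardQ']
  have hC : ∑ a ∈ Finset.univ.filter (fun a : N => a ∉ Q), ∑ b : N,
      (if Commute a b then 1 else 0) ≤ 128 * 10 := by
    have h1 : ∀ a ∈ Finset.univ.filter (fun a : N => a ∉ Q),
        ∑ b : N, (if Commute a b then 1 else 0) ≤ 10 := by
      intro a ha
      refine le_trans (le_of_eq ?_) (hc a (Finset.mem_filter.1 ha).2)
      rw [← Finset.card_filter, ← Fintype.card_subtype, Nat.card_eq_fintype_card]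
      refine Fintype.card_congr
        { toFun := fun t => ⟨t.1, Subgroup.mem_centralizer_singleton_iff.2 t.2.symm⟩
          invFun := fun t => ⟨t.1, Commute.symm (Subgroup.mem_centralizer_singleton_iff.1 t.2)⟩
          left_inv := fun t => rfl
          right_inv := fun t => rfl }
    refine (Finset.sum_le_sum h1).trans (le_of_eq ?_)
    simp [hcardQ']
  have hsum : ∑ a : N, ∑ b : N, (if Commute a b then 1 else 0) ≤ 32 * 32 + 128 * 2 + 128 * 10 := by
    rw [← Finset.sum_filter_add_sum_filter_not Finset.univ (fun a : N => a ∈ Q)]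
    refine Nat.add_le_add ?_ hC
    have h1 : ∑ a ∈ Finset.univ.filter (fun a : N => a ∈ Q), ∑ b : N, (if Commute a b then 1 else 0) =
        ∑ a ∈ Finset.univ.filter (fun a : N => a ∈ Q), ∑ b ∈ Finset.univ.filter (fun a : N => a ∈ Q),
          (if Commute a b then 1 else 0) +
        ∑ a ∈ Finset.univ.filter (fun a : N => a ∈ Q), ∑ b ∈ Finset.univ.filter (fun a : N => a ∉ Q),
          (if Commute a b then 1 else 0) := by
      rw [← Finset.sum_add_distrib]
      refine Finset.sum_congr rfl fun a _ => ?_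
      rw [Finset.sum_filter_add_sum_filter_not]
    rw [h1]
    exact Nat.add_le_add hA hB
  omega

end Count

end Cfsg.Agent.H718.ExtraTwo
end

-- part: H718/EightyOne
section
/-!
# The class number of a coprime transitive linear group on 81 vectors

`eightyone` : the remaining (extraspecial) case `|V| = 81` of the `k(GV)` problem for transitive
coprime groups.
-/

set_option autoImplicit false
set_option linter.style.haveILetI false
set_option linter.unusedSectionVars false

namespace Cfsg.Agent.H718.EightyOne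

open Cfsg
open scoped commutatorElement

universe u v

section Indep

theorem one_ne_neg : (1 : ZMod 3) ≠ -1 := by decide

/-- A group of endomorphisms with commutators `± 1` has at most `16` elements modulo its center, in
dimension four. -/
theorem card_quotient_center_le {Q : Type*} [Group Q] [Finite Q] {E : Type*} [AddCommGroup E] [Finite E]
    [Nontrivial E] [DistribMulAction Q E] (h3 : ∀ e : E, 3 • e = 0) (hE : Nat.card E = 81)
    (z : Q) (hz : ∀ e : E, z • e = - e) (hzc : z ∈ Subgroup.center Q)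
    (hcom : ∀ x y : Q, ⁅x, y⁆ = 1 ∨ ⁅x, y⁆ = z) :
    Nat.card (Q ⧸ Subgroup.center Q) ≤ 16 := by
  classical
  haveI : Fact (Nat.Prime 3) := ⟨by norm_num⟩
  letI : Module (ZMod 3) E := AddCommGroup.zmodModule (n := 3) h3
  haveI : Module.Finite (ZMod 3) E := Module.Finite.of_finite
  have hfr : Module.finrank (ZMod 3) E = 4 := by
    have h1 := Module.natCard_eq_pow_finrank (K := ZMod 3) (V := E)
    rw [hE, Nat.card_zmod] at h1
    exact (Nat.pow_right_injective (by norm_num : 2 ≤ 3) (h1.symm.trans (by norm_num : (81:ℕ) = 3 ^ 4)))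
  let ρ : Q →* Module.End (ZMod 3) E :=
    { toFun := fun g => AddMonoidHom.toZModLinearMap 3 (DistribMulAction.toAddMonoidEnd Q E g)
      map_one' := by
        refine LinearMap.ext fun v => ?_
        exact one_smul Q v
      map_mul' := fun g g' => by
        refine LinearMap.ext fun v => ?_
        exact mul_smul g g' v }
  have hρ : ∀ (g : Q) (e : E), ρ g e = g • e := fun _ _ => rfl
  have hρz : ρ z = -1 := by
    refine LinearMap.ext fun v => ?_
    rw [hρ, hz]
    rfl
  have hρ0 : ∀ g : Q, ρ g ≠ 0 := by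
    intro g h0
    obtain ⟨e, he⟩ := exists_ne (0 : E)
    have h1 : ρ g⁻¹ * ρ g = 1 := by rw [← map_mul, inv_mul_cancel, map_one]
    rw [h0, mul_zero] at h1
    have h2 := LinearMap.congr_fun h1 e
    exact he h2.symm
  let s : Q → Q → ZMod 3 := fun t q => if Commute q t then 1 else -1
  have hs : ∀ t q : Q, ρ q * ρ t = s t q • (ρ t * ρ q) := by
    intro t q
    by_cases h : Commute q t
    · have : s t q = 1 := if_pos h
      rw [this, one_smul, ← map_mul, ← map_mul, h.eq]
    · have h1 : s t q = -1 := if_neg h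
      have h2 : ⁅q, t⁆ = z := by
        rcases hcom q t with h3 | h3
        · exact absurd (commutatorElement_eq_one_iff_commute.1 h3) h
        · exact h3
      have h4 : q * t = z * (t * q) := by rw [← h2, commutatorElement_def]; group
      rw [h1, ← map_mul, h4, map_mul, hρz, map_mul, neg_smul, one_smul, neg_mul, one_mul]
  have hinj2 : ∀ (g : Q) (a b : ZMod 3), a • ρ g = b • ρ g → a = b := fun g a b h =>
    smul_left_injective _ (hρ0 g) h
  let χ : Q → (Q →* ZMod 3) := fun t =>
    { toFun := s t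
      map_one' := if_pos (Commute.one_left t)
      map_mul' := fun q q' => by
        apply hinj2 (t * (q * q'))
        rw [map_mul ρ t, ← hs, map_mul, mul_assoc, hs t q', mul_smul_comm, ← mul_assoc, hs t q,
          smul_mul_assoc, mul_assoc, smul_smul, mul_comm (s t q')] }
  have hχ : ∀ t q, χ t q = s t q := fun _ _ => rfl
  have h11 : (1 : ZMod 3) ≠ -1 := one_ne_neg
  have hdist : ∀ t t' : Q, χ t = χ t' → t⁻¹ * t' ∈ Subgroup.center Q := by
    intro t t' h
    rw [Subgroup.mem_center_iff]
    intro q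
    have h1 : s t q = s t' q := DFunLike.congr_fun h q
    have key : ∃ ε : Q, ε ∈ Subgroup.center Q ∧ q * t = ε * (t * q) ∧ q * t' = ε * (t' * q) := by
      by_cases hc : Commute q t
      · have h2 : s t q = 1 := if_pos hc
        have hc' : Commute q t' := by
          by_contra hn
          have h4 : s t' q = -1 := if_neg hn
          rw [h2, h4] at h1
          exact h11 h1
        exact ⟨1, one_mem _, by rw [one_mul]; exact hc, by rw [one_mul]; exact hc'⟩
      · have h2 : s t q = -1 := if_neg hc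
        have hc' : ¬ Commute q t' := by
          intro hn
          have h4 : s t' q = 1 := if_pos hn
          rw [h2, h4] at h1
          exact h11 h1.symm
        have e1 : ⁅q, t⁆ = z := by
          rcases hcom q t with h3 | h3
          · exact absurd (commutatorElement_eq_one_iff_commute.1 h3) hc
          · exact h3
        have e2 : ⁅q, t'⁆ = z := by
          rcases hcom q t' with h3 | h3
          · exact absurd (commutatorElement_eq_one_iff_commute.1 h3) hc'
          · exact h3
        refine ⟨z, hzc, ?_, ?_⟩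
        · rw [← e1, commutatorElement_def]; group
        · rw [← e2, commutatorElement_def]; group
    obtain ⟨ε, hε, k1, k2⟩ := key
    rw [Subgroup.mem_center_iff] at hε
    have k3 : q * t⁻¹ = ε⁻¹ * (t⁻¹ * q) := by
      have e1 : t⁻¹ * q * t = ε * q := by
        calc t⁻¹ * q * t = t⁻¹ * (q * t) := by rw [mul_assoc]
          _ = t⁻¹ * (ε * (t * q)) := by rw [k1]
          _ = (t⁻¹ * ε) * (t * q) := by rw [mul_assoc]
          _ = (ε * t⁻¹) * (t * q) := by rw [hε]
          _ = ε * q := by group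
      have e2 : t⁻¹ * q = ε * (q * t⁻¹) := by
        calc t⁻¹ * q = (t⁻¹ * q * t) * t⁻¹ := by group
          _ = ε * q * t⁻¹ := by rw [e1]
          _ = _ := by rw [mul_assoc]
      rw [e2]; group
    calc q * (t⁻¹ * t') = (q * t⁻¹) * t' := by rw [mul_assoc]
      _ = ε⁻¹ * (t⁻¹ * (q * t')) := by rw [k3]; simp only [mul_assoc]
      _ = ε⁻¹ * (t⁻¹ * ε) * (t' * q) := by rw [k2]; simp only [mul_assoc]
      _ = ε⁻¹ * (ε * t⁻¹) * (t' * q) := by rw [hε]
      _ = t⁻¹ * t' * q := by group
  haveI := Fintype.ofFinite (Q ⧸ Subgroup.center Q)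
  have hli : LinearIndependent (ZMod 3) (fun c : Q ⧸ Subgroup.center Q => ρ c.out) := by
    have hL : LinearIndependent (ZMod 3) (fun c : Q ⧸ Subgroup.center Q => (χ c.out : Q → ZMod 3)) := by
      refine (linearIndependent_monoidHom Q (ZMod 3)).comp (fun c : Q ⧸ Subgroup.center Q => χ c.out) ?_
      intro c d hcd
      have h1 := hdist _ _ hcd
      rw [← QuotientGroup.eq, QuotientGroup.out_eq', QuotientGroup.out_eq'] at h1
      exact h1
    rw [Fintype.linearIndependent_iff] at hL ⊢
    intro a ha c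
    -- conjugates of the relation
    have h1 : ∀ q : Q, ∑ c : Q ⧸ Subgroup.center Q, (a c * s c.out q) • ρ c.out = 0 := by
      intro q
      have h2 : ρ q * (∑ c : Q ⧸ Subgroup.center Q, a c • ρ c.out) =
          (∑ c : Q ⧸ Subgroup.center Q, (a c * s c.out q) • ρ c.out) * ρ q := by
        rw [Finset.mul_sum, Finset.sum_mul]
        refine Finset.sum_congr rfl fun c _ => ?_
        rw [mul_smul_comm, hs, smul_smul, smul_mul_assoc]
      rw [ha, mul_zero] at h2
      have h4 : ρ q * ρ q⁻¹ = 1 := by rw [← map_mul, mul_inv_cancel, map_one]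
      calc _ = (∑ c : Q ⧸ Subgroup.center Q, (a c * s c.out q) • ρ c.out) * (ρ q * ρ q⁻¹) := by
            rw [h4, mul_one]
        _ = 0 := by rw [← mul_assoc, ← h2, zero_mul]
    have h2 : ∀ φ : Module.Dual (ZMod 3) (Module.End (ZMod 3) E), a c * φ (ρ c.out) = 0 := by
      intro φ
      refine hL (fun c => a c * φ (ρ c.out)) ?_ c
      funext q
      have h4 := congrArg φ (h1 q)
      rw [map_sum, map_zero] at h4
      rw [Finset.sum_apply, Pi.zero_apply, ← h4]
      refine Finset.sum_congr rfl fun c _ => ?_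
      rw [Pi.smul_apply, map_smul, smul_eq_mul, smul_eq_mul, hχ]
      ring
    by_contra hne
    apply hρ0 c.out
    rw [← Module.forall_dual_apply_eq_zero_iff (ZMod 3)]
    intro φ
    exact (mul_eq_zero.1 (h2 φ)).resolve_left hne
  have h := hli.fintype_card_le_finrank
  rw [Module.finrank_linearMap, hfr, ← Nat.card_eq_fintype_card] at h
  exact h

end Indep

/-- A central involution of a transitive linear group acts as `-1`. -/
theorem smul_eq_neg {D : Type v} {E : Type u} [Group D] [AddCommGroup E]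
    [DistribMulAction D E] [FaithfulSMul D E]
    (htr : ∀ x y : E, x ≠ 0 → y ≠ 0 → ∃ d : D, d • x = y) {z : D} (hz : z ∈ Subgroup.center D)
    (hz2 : z * z = 1) (hz1 : z ≠ 1) (e : E) : z • e = - e := by
  rw [Subgroup.mem_center_iff] at hz
  have key : ∀ e₀ : E, e₀ + z • e₀ = 0 := by
    intro e₀
    by_contra hne
    apply hz1
    apply FaithfulSMul.eq_of_smul_eq_smul (α := E)
    intro x
    by_cases hx : x = 0
    · rw [hx, smul_zero, smul_zero]
    obtain ⟨d, hd⟩ := htr _ x hne hx
    have h1 : z • (e₀ + z • e₀) = e₀ + z • e₀ := by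
      rw [smul_add, smul_smul, hz2, one_smul, add_comm]
    rw [one_smul, ← hd, smul_smul, ← hz d, mul_smul, h1]
  exact (neg_eq_of_add_eq_zero_right (key e)).symm

theorem exists_normal_five {B : Type*} [Group B] [Finite B] [Group.IsSolvable B] {a : ℕ}
    (hB : Nat.card B = 2 ^ a * 5) (h2 : pCore 2 B = ⊥) :
    ∃ P : Subgroup B, P.Normal ∧ Nat.card P = 5 ∧ P.index ∣ 4 := by
  haveI : Fact (Nat.Prime 5) := ⟨by norm_num⟩
  haveI : Fact (Nat.Prime 2) := ⟨Nat.prime_two⟩
  have h1 : pPrimeCore 5 B = ⊥ := by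
    rw [← le_bot_iff, ← h2]
    refine Lib.Cores.le_pCore (Lib.Cores.pPrimeCore_normal 5) ?_
    have h3 := Lib.Cores.pPrimeCore_coprime (G := B) 5
    have h4 : Nat.card (pPrimeCore 5 B) ∣ 2 ^ a * 5 := hB ▸ Subgroup.card_subgroup_dvd_card _
    obtain ⟨k, -, hk⟩ := (Nat.dvd_prime_pow Nat.prime_two).1 (h3.dvd_of_dvd_mul_right h4)
    exact IsPGroup.of_card hk
  have h3 := Classification.LocalCore.centralizer_pCore_le 5 h1
  haveI := Lib.Cores.pCore_normal (G := B) 5
  have hP5 : Nat.card (pCore 5 B) = 5 := by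
    obtain ⟨k, hk⟩ := IsPGroup.iff_card.1 (Lib.Cores.pCore_isPGroup (G := B) 5)
    have h4 : Nat.card (pCore 5 B) ∣ 2 ^ a * 5 := hB ▸ Subgroup.card_subgroup_dvd_card _
    rw [hk] at h4 ⊢
    have h5 : (5 ^ k).Coprime (2 ^ a) := Nat.Coprime.pow _ _ (by norm_num)
    have h6 : 5 ^ k ∣ 5 ^ 1 := by
      rw [pow_one]; exact h5.dvd_of_dvd_mul_left h4
    have h7 : k ≤ 1 := (Nat.pow_dvd_pow_iff_le_right (by norm_num)).1 h6
    have h8 : k ≠ 0 := by
      rintro rfl
      rw [pow_zero, Subgroup.card_eq_one] at hk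
      rw [hk] at h3
      have h9 : (⊤ : Subgroup B) ≤ ⊥ := by
        refine le_trans ?_ h3
        intro x _
        rw [Subgroup.mem_centralizer_iff]
        intro y hy
        rw [Subgroup.mem_bot.1 hy, one_mul, mul_one]
      have h10 : Nat.card B = 1 := by
        rw [← Subgroup.card_top (G := B), le_bot_iff.1 h9, Subgroup.card_bot]
      rw [h10] at hB
      have : 5 ∣ 1 := hB ▸ Dvd.intro_left _ rfl
      omega
    have h9 : k = 1 := by omega
    rw [h9, pow_one]
  refine ⟨pCore 5 B, inferInstance, hP5, ?_⟩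
  refine (Subgroup.index_dvd_of_le h3).trans ?_
  have h4 : (MulAut.conjNormal (H := pCore 5 B) : B →* MulAut (pCore 5 B)).ker ≤
      Subgroup.centralizer (pCore 5 B : Set B) := by
    intro g hg
    rw [MonoidHom.mem_ker] at hg
    rw [Subgroup.mem_centralizer_iff]
    intro y hy
    have h5 : ((MulAut.conjNormal (H := pCore 5 B) g ⟨y, hy⟩ : pCore 5 B) : B) = y := by
      rw [hg]; rfl
    rw [MulAut.conjNormal_apply] at h5
    calc y * g = (g * y * g⁻¹) * g := by rw [h5]
      _ = g * y := by group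
  refine (Subgroup.index_dvd_of_le h4).trans ?_
  rw [Subgroup.index_ker]
  haveI : IsCyclic (pCore 5 B) := isCyclic_of_prime_card hP5
  haveI : Finite (MulAut (pCore 5 B)) := Finite.of_injective _ (DFunLike.coe_injective)
  have h5 : Nat.card (MulAut (pCore 5 B)) = 4 := by
    rw [IsCyclic.card_mulAut, hP5]
    rfl
  rw [← h5]
  exact Subgroup.card_subgroup_dvd_card _

theorem card_fixed_modEq {D : Type*} [Group D] [Finite D] (Q : Subgroup D) [Q.Normal] {x : D}
    (hx : orderOf x = 5) : Nat.card Q ≡ Nat.card {q : Q // Commute (q : D) x} [MOD 5] := by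
  haveI : Fact (Nat.Prime 5) := ⟨by norm_num⟩
  have hp : IsPGroup 5 (Subgroup.zpowers x) := by
    apply IsPGroup.of_card (n := 1)
    rw [Nat.card_zpowers, hx, pow_one]
  letI : MulAction (Subgroup.zpowers x) Q :=
    MulAction.compHom Q ((MulAut.conjNormal (H := Q)).comp (Subgroup.zpowers x).subtype)
  have hact : ∀ (g : Subgroup.zpowers x) (q : Q), ((g • q : Q) : D) = g * q * (g : D)⁻¹ :=
    fun g q => MulAut.conjNormal_apply (g : D) q
  have h1 := hp.card_modEq_card_fixedPoints Q
  refine h1.trans ?_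
  have heq : Nat.card (MulAction.fixedPoints (Subgroup.zpowers x) Q) =
      Nat.card {q : Q // Commute (q : D) x} := by
   refine Nat.card_congr
    { toFun := fun t => ⟨t.1, ?_⟩
      invFun := fun t => ⟨t.1, ?_⟩
      left_inv := fun t => rfl
      right_inv := fun t => rfl }
   · have h2 := congrArg (Subtype.val) (t.2 ⟨x, Subgroup.mem_zpowers x⟩)
     rw [hact] at h2
     have h3 : x * (t : Q) * x⁻¹ = ((t : Q) : D) := h2
     have h4 : x * (t : Q) = ((t : Q) : D) * x := by
       calc x * (t : Q) = (x * (t : Q) * x⁻¹) * x := by group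
         _ = _ := by rw [h3]
     exact h4.symm
   · rintro ⟨_, i, rfl⟩
     apply Subtype.ext
     rw [hact]
     have h2 : Commute ((t : Q) : D) (x ^ i) := t.2.zpow_right i
     change x ^ i * (t : Q) * (x ^ i)⁻¹ = _
     rw [← h2.eq]
     group
  rw [heq]

/-- **The class number of a coprime transitive linear group on 81 vectors**, extraspecial case. -/
theorem eightyone {D : Type v} {E : Type u} [Group D] [Finite D] [AddCommGroup E] [Finite E]
    [Nontrivial E] [DistribMulAction D E] [FaithfulSMul D E]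
    (htr : ∀ x y : E, x ≠ 0 → y ≠ 0 → ∃ d : D, d • x = y) (h3 : ∀ e : E, 3 • e = 0)
    (hcop : ¬ 3 ∣ Nat.card D) (hE : Nat.card E = 81) (h13 : ¬ 13 ∣ Nat.card D)
    (hns : ¬ Cfsg.Agent.H717.Semi.IsSemi D E)
    (hA : ∀ A : Subgroup D, A.Normal → (∀ a ∈ A, ∀ b ∈ A, a * b = b * a) → Nat.card A ∣ 2)
    {v : E} (hv : v ≠ 0) :
    Nat.card (ConjClasses D) + Nat.card (ConjClasses (MulAction.stabilizer D v)) < 81 := by
  haveI : Fact (Nat.Prime 3) := ⟨by norm_num⟩
  haveI : Fact (Nat.Prime 5) := ⟨by norm_num⟩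
  haveI : Fact (Nat.Prime 2) := ⟨Nat.prime_two⟩
  have hE4 : Nat.card E = 3 ^ 4 := hE.trans (by norm_num)
  -- the order of `D`
  have hD80 := H717.Semi.card_eq htr hv
  rw [hE] at hD80
  have hdvd : Nat.card D ∣ 2 ^ 9 * 5 := by
    obtain ⟨σ, hσ⟩ := H717.Rep.exists_gl (D := D) h3 hE4
    have h1 : Nat.card D ∣ Nat.card (GL (Fin 4) (ZMod 3)) := by
      rw [Nat.card_congr (MonoidHom.ofInjective hσ).toEquiv]
      exact Subgroup.card_subgroup_dvd_card _
    rw [Matrix.card_GL_field, ZMod.card] at h1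
    have h2 : (∏ i : Fin 4, (3 ^ 4 - 3 ^ (i : ℕ))) = (2 ^ 9 * 5) * (3 ^ 6 * 13) := by
      rw [Fin.prod_univ_four]
      rfl
    rw [h2] at h1
    refine Nat.Coprime.dvd_of_dvd_mul_right ?_ h1
    refine Nat.Coprime.mul_right ?_ ?_
    · exact Nat.Coprime.pow_right _ ((Nat.Prime.coprime_iff_not_dvd (by norm_num)).2 hcop).symm
    · exact ((Nat.Prime.coprime_iff_not_dvd (by norm_num)).2 h13).symm
  have hD : ∃ a, Nat.card D = 2 ^ a * 5 := by
    obtain ⟨t, ht⟩ : 5 ∣ Nat.card D := ⟨16 * Nat.card (MulAction.stabilizer D v), by omega⟩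
    have h1 : t ∣ 2 ^ 9 := by
      rw [ht, mul_comm (2 ^ 9)] at hdvd
      exact Nat.dvd_of_mul_dvd_mul_left (by norm_num) hdvd
    obtain ⟨a, -, ha⟩ := (Nat.dvd_prime_pow Nat.prime_two).1 h1
    exact ⟨a, by rw [ht, ha, mul_comm]⟩
  obtain ⟨a, ha⟩ := hD
  haveI : Group.IsSolvable D := S0144.result 2 5 a 1 Nat.prime_two (by norm_num) (by rw [ha, pow_one])
  -- the odd core is trivial
  have hcore : pPrimeCore 2 D = ⊥ := by
    by_contra hne
    apply hns
    haveI := Lib.Cores.pPrimeCore_normal (G := D) 2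
    refine H717.FieldP.isSemi_of_isPGroup htr h3 hE4 (r := 5) ?_ (pPrimeCore 2 D) ?_ hne
    · intro i hi1 hi4
      interval_cases i <;> norm_num
    · have h1 := Lib.Cores.pPrimeCore_coprime (G := D) 2
      have h2 : Nat.card (pPrimeCore 2 D) ∣ 5 ^ 1 := by
        have h3 : Nat.card (pPrimeCore 2 D) ∣ 2 ^ a * 5 := ha ▸ Subgroup.card_subgroup_dvd_card _
        rw [pow_one]
        exact (h1.pow_right a).dvd_of_dvd_mul_left h3
      obtain ⟨k, -, hk⟩ := (Nat.dvd_prime_pow (by norm_num)).1 h2
      exact IsPGroup.of_card hk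
  have hC := Classification.LocalCore.centralizer_pCore_le 2 hcore
  haveI hQn := Lib.Cores.pCore_normal (G := D) 2
  set Q : Subgroup D := pCore 2 D with hQdef
  have hQp : IsPGroup 2 Q := Lib.Cores.pCore_isPGroup 2
  have hQne : Q ≠ ⊥ := by
    intro h0
    rw [h0] at hC
    have h9 : (⊤ : Subgroup D) ≤ ⊥ := by
      refine le_trans ?_ hC
      intro x _
      rw [Subgroup.mem_centralizer_iff]
      intro y hy
      rw [Subgroup.mem_bot.1 hy, one_mul, mul_one]
    have h10 : Nat.card D = 1 := by
      rw [← Subgroup.card_top (G := D), le_bot_iff.1 h9, Subgroup.card_bot]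
    omega
  haveI : Nontrivial Q := (Subgroup.nontrivial_iff_ne_bot Q).2 hQne
  haveI : Nontrivial (Subgroup.center Q) := hQp.center_nontrivial
  haveI : Group.IsNilpotent Q := hQp.isNilpotent
  -- characteristic commutative subgroups of `Q`
  have hch : ∀ A : Subgroup Q, A.Characteristic → (∀ a ∈ A, ∀ b ∈ A, a * b = b * a) →
      Nat.card A ∣ 2 := by
    intro A hAc hcomm
    haveI := hAc
    have h1 := hA (A.map Q.subtype) inferInstance (by
      rintro _ ⟨a, ha, rfl⟩ _ ⟨b, hb, rfl⟩
      exact congrArg Subtype.val (hcomm a ha b hb))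
    rwa [Subgroup.card_map_of_injective Q.subtype_injective] at h1
  have hcl := ExtraTwo.commutator_le_center hch
  have hZ2 : Nat.card (Subgroup.center Q) = 2 := by
    have h1 := hch (Subgroup.center Q) inferInstance (fun a ha b _ => (Subgroup.mem_center_iff.1 ha b).symm)
    have h2 : 1 < Nat.card (Subgroup.center Q) := Finite.one_lt_card
    rcases (Nat.dvd_prime Nat.prime_two).1 h1 with h3 | h3
    · omega
    · exact h3
  obtain ⟨z, hz1⟩ := exists_ne (1 : Subgroup.center Q)
  have hzz : z * z = 1 := by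
    have := pow_card_eq_one' (x := z)
    rwa [hZ2, sq] at this
  have hzall : ∀ t : Subgroup.center Q, t = 1 ∨ t = z := by
    intro t
    obtain ⟨x, y, hxy, hun⟩ := Nat.card_eq_two_iff.1 hZ2
    have m1 : ∀ t : Subgroup.center Q, t = x ∨ t = y := by
      intro t
      have : t ∈ ({x, y} : Set (Subgroup.center Q)) := by rw [hun]; trivial
      simpa using this
    rcases m1 1 with h6 | h6 <;> rcases m1 z with h7 | h7 <;> rcases m1 t with h8 | h8
    · exact absurd (h7.trans h6.symm) hz1
    · exact absurd (h7.trans h6.symm) hz1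
    · exact Or.inl (h8.trans h6.symm)
    · exact Or.inr (h8.trans h7.symm)
    · exact Or.inr (h8.trans h7.symm)
    · exact Or.inl (h8.trans h6.symm)
    · exact absurd (h7.trans h6.symm) hz1
    · exact absurd (h7.trans h6.symm) hz1
  have hzD : ((z : Q) : D) ∈ Subgroup.center D := by
    have h1 : (Subgroup.center Q).map Q.subtype ≤ Subgroup.center D := by
      haveI : ((Subgroup.center Q).map Q.subtype).Normal := inferInstance
      apply ExtraTwo.le_center_of_card_dvd_two
      rw [Subgroup.card_map_of_injective Q.subtype_injective, hZ2]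
    exact h1 ⟨(z : Q), z.2, rfl⟩
  have hzD2 : ((z : Q) : D) * ((z : Q) : D) = 1 := by
    have := congrArg (fun t : Subgroup.center Q => ((t : Q) : D)) hzz
    simpa using this
  have hzD1 : ((z : Q) : D) ≠ 1 := by
    intro h
    apply hz1
    apply Subtype.ext
    apply Subtype.ext
    exact h
  have hneg := smul_eq_neg htr hzD hzD2 hzD1
  have h16 : Nat.card (Q ⧸ Subgroup.center Q) ≤ 16 := by
    refine card_quotient_center_le (E := E) h3 hE (z : Q) (fun e => hneg e) z.2 ?_
    intro x y
    have h1 : ⁅x, y⁆ ∈ Subgroup.center Q :=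
      hcl (Subgroup.commutator_mem_commutator (Subgroup.mem_top x) (Subgroup.mem_top y))
    rcases hzall ⟨_, h1⟩ with h2 | h2
    · exact Or.inl (congrArg Subtype.val h2)
    · exact Or.inr (congrArg Subtype.val h2)
  have hQ32 : Nat.card Q ≤ 32 := by
    rw [Subgroup.card_eq_card_quotient_mul_card_subgroup (Subgroup.center Q), hZ2]
    omega
  obtain ⟨s, hs⟩ := IsPGroup.iff_card.1 hQp
  have hs5 : s ≤ 5 := by
    rw [hs] at hQ32
    exact (Nat.pow_le_pow_iff_right (by norm_num : 1 < 2)).1 (hQ32.trans (by norm_num))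
  -- elements of order five
  have hfix : ∀ x : D, orderOf x = 5 → s = 5 ∧ Nat.card {q : Q // Commute (q : D) x} = 2 := by
    intro x hx
    have hcards : Nat.card {q : Q // Commute (q : D) x} =
        Nat.card ((Subgroup.centralizer ({x} : Set D)).subgroupOf Q) :=
      Nat.card_congr
        { toFun := fun t => ⟨t.1, Subgroup.mem_subgroupOf.2 (Subgroup.mem_centralizer_singleton_iff.2 t.2)⟩
          invFun := fun t => ⟨t.1, Subgroup.mem_centralizer_singleton_iff.1 (Subgroup.mem_subgroupOf.1 t.2)⟩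
          left_inv := fun t => rfl
          right_inv := fun t => rfl }
    have hmod := card_fixed_modEq Q hx
    have hdv : Nat.card {q : Q // Commute (q : D) x} ∣ 2 ^ s := by
      rw [hcards, ← hs]; exact Subgroup.card_subgroup_dvd_card _
    obtain ⟨c, hcs, hc⟩ := (Nat.dvd_prime_pow Nat.prime_two).1 hdv
    rw [hc, hs] at hmod
    have hcne : c ≠ s := by
      rintro rfl
      have h1 : (Subgroup.centralizer ({x} : Set D)).subgroupOf Q = ⊤ := by
        apply Subgroup.eq_top_of_card_eq
        rw [← hcards, hc, hs]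
      have h2 : x ∈ Q := by
        apply hC
        rw [Subgroup.mem_centralizer_iff]
        intro y hy
        have h3 : (⟨y, hy⟩ : Q) ∈ (Subgroup.centralizer ({x} : Set D)).subgroupOf Q := by
          rw [h1]; exact Subgroup.mem_top _
        exact Subgroup.mem_centralizer_singleton_iff.1 (Subgroup.mem_subgroupOf.1 h3)
      have h3 : orderOf (⟨x, h2⟩ : Q) = 5 := by
        rw [← hx]; exact Subgroup.orderOf_mk x h2
      have h4 : 5 ∣ 2 ^ c := by
        rw [← hs, ← h3]; exact orderOf_dvd_natCard _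
      have h5 := (Nat.Prime.dvd_of_dvd_pow (by norm_num) h4 : 5 ∣ 2)
      omega
    have hc0 : c ≠ 0 := by
      rintro rfl
      rw [pow_zero] at hc
      have h1 : (⟨1, Commute.one_left x⟩ : {q : Q // Commute (q : D) x}) =
          ⟨(z : Q), (Subgroup.mem_center_iff.1 hzD x).symm⟩ := by
        haveI : Subsingleton {q : Q // Commute (q : D) x} := (Nat.card_eq_one_iff_unique.1 hc).1
        exact Subsingleton.elim _ _
      apply hzD1
      exact (congrArg (fun t : {q : Q // Commute (q : D) x} => ((t : Q) : D)) h1).symm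
    have hcs' : c < s := lt_of_le_of_ne hcs hcne
    rw [hc]
    clear_value Q
    clear * - hmod hc0 hcs' hs5
    unfold Nat.ModEq at hmod
    interval_cases s <;> interval_cases c <;> simp_all
  -- a normal subgroup of order 160
  obtain ⟨x, hx⟩ : ∃ x : D, orderOf x = 5 := by
    apply exists_prime_orderOf_dvd_card'
    rw [ha]; exact Dvd.intro_left _ rfl
  have hs' := (hfix x hx).1
  rw [hs'] at hs
  have hQcard : Nat.card Q = 32 := by rw [hs]; norm_num
  have hQD : Nat.card D = Nat.card (D ⧸ Q) * 32 := by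
    rw [← hQcard]; exact Subgroup.card_eq_card_quotient_mul_card_subgroup Q
  obtain ⟨b, hb⟩ : ∃ b, Nat.card (D ⧸ Q) = 2 ^ b * 5 := by
    have h1 : Nat.card (D ⧸ Q) ∣ 2 ^ a * 5 := by
      rw [← ha, hQD]; exact Dvd.intro _ rfl
    have h2 : 5 ∣ Nat.card (D ⧸ Q) := by
      have h3 : 5 ∣ Nat.card (D ⧸ Q) * 32 := by rw [← hQD, ha]; exact Dvd.intro_left _ rfl
      exact Nat.Coprime.dvd_of_dvd_mul_right (by norm_num) h3
    obtain ⟨t, ht⟩ := h2
    rw [ht, mul_comm (2 ^ a)] at h1
    obtain ⟨b, -, hb⟩ := (Nat.dvd_prime_pow Nat.prime_two).1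
      (Nat.dvd_of_mul_dvd_mul_left (by norm_num) h1)
    exact ⟨b, by rw [ht, hb, mul_comm]⟩
  obtain ⟨P, hPn, hP5, hP4⟩ := exists_normal_five (B := D ⧸ Q) hb
    (Lib.Cores.pCore_quotient_pCore (G := D) 2)
  haveI := hPn
  let N : Subgroup D := P.comap (QuotientGroup.mk' Q)
  haveI hNn : N.Normal := inferInstance
  have hNi : N.index = P.index := Subgroup.index_comap_of_surjective P (QuotientGroup.mk'_surjective Q)
  have hNcard : Nat.card N = 160 := by
    have h1 := N.card_mul_index
    have h2 := P.card_mul_index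
    rw [hP5] at h2
    rw [hQD, ← h2, hNi] at h1
    have h3 : 0 < P.index := Nat.pos_of_ne_zero Subgroup.index_ne_zero_of_finite
    have h4 : Nat.card N * P.index = 160 * P.index := by rw [h1]; ring
    exact Nat.eq_of_mul_eq_mul_right h3 h4
  have hQN : Q ≤ N := by
    intro q hq
    change (QuotientGroup.mk' Q) q ∈ P
    have : (QuotientGroup.mk' Q) q = 1 := (QuotientGroup.eq_one_iff q).2 hq
    rw [this]
    exact one_mem P
  have hkN : Nat.card (ConjClasses N) ≤ 16 := by
    refine ExtraTwo.card_conjClasses_le (Q.subgroupOf N) ?_ hNcard ?_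
    · rw [Nat.card_congr (Subgroup.subgroupOfEquivOfLe hQN).toEquiv, hQcard]
    · intro y hy
      refine le_of_le_of_eq ?_ (hfix (y : D) (by rw [← hy]; exact Subgroup.orderOf_coe y)).2
      refine Nat.card_le_card_of_injective
        (fun t : {q : Q.subgroupOf N // Commute (q : N) y} =>
          (⟨⟨((t.1 : N) : D), Subgroup.mem_subgroupOf.1 t.1.2⟩, ?_⟩ :
            {q : Q // Commute (q : D) (y : D)})) ?_
      · exact congrArg (fun t : N => (t : D)) t.2.eq
      · intro t t' h
        apply Subtype.ext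
        apply Subtype.ext
        apply Subtype.ext
        exact congrArg (fun t : {q : Q // Commute (q : D) (y : D)} => ((t : Q) : D)) h
  have hidx : N.index ≤ 4 := by rw [hNi]; exact Nat.le_of_dvd (by norm_num) hP4
  have hkDN : Nat.card (ConjClasses (D ⧸ N)) ≤ 4 := by
    refine le_trans ?_ hidx
    rw [Subgroup.index_eq_card]
    exact Nat.card_le_card_of_surjective _ ConjClasses.mk_surjective
  have hkD := H540.ClassNum.le_normal_mul_quotient N
  have hkD' : Nat.card (ConjClasses D) ≤ 16 * 4 := hkD.trans (Nat.mul_le_mul hkN hkDN)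
  have hst : Nat.card (MulAction.stabilizer D v) ≤ 8 := by
    have h1 := N.card_mul_index
    rw [hNcard] at h1
    omega
  have hkS : Nat.card (ConjClasses (MulAction.stabilizer D v)) ≤ 8 :=
    (Nat.card_le_card_of_surjective _ ConjClasses.mk_surjective).trans hst
  omega

end Cfsg.Agent.H718.EightyOne
end

-- part: H717/Final
section
/-!
# The class number of coprime affine two-transitive groups
-/

set_option autoImplicit false
set_option linter.style.haveILetI false
set_option linter.unusedSectionVars false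

namespace Cfsg.Agent.H717.Final

open Cfsg.Agent.H717.Semi Cfsg.Agent.H717.FieldP Cfsg.Agent.H717.Zsig Cfsg.Agent.H717.Plane Cfsg.Agent.H717.Coprime

universe u v

theorem exists_card_eq {E : Type u} [AddCommGroup E] [Finite E] {p : ℕ} [hp : Fact p.Prime]
    (hpE : ∀ e : E, p • e = 0) : ∃ n, Nat.card E = p ^ n := by
  letI : Module (ZMod p) E := AddCommGroup.zmodModule (n := p) hpE
  haveI : Module.Finite (ZMod p) E := Module.Finite.of_finite
  exact ⟨_, by rw [Module.natCard_eq_pow_finrank (K := ZMod p) (V := E), Nat.card_zmod]⟩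

theorem class_number {D : Type v} {E : Type u} [Group D] [Finite D] [AddCommGroup E] [Finite E] [Nontrivial E]
    [DistribMulAction D E] [FaithfulSMul D E] (htr : ∀ x y : E, x ≠ 0 → y ≠ 0 → ∃ d : D, d • x = y)
    {p : ℕ} [hp : Fact p.Prime] (hpE : ∀ e : E, p • e = 0) (hcop : ¬ p ∣ Nat.card D) {v : E} (hv : v ≠ 0) :
    Nat.card (ConjClasses D) + Nat.card (ConjClasses (MulAction.stabilizer D v)) ≤ Nat.card E ∧
    (Nat.card (ConjClasses D) + Nat.card (ConjClasses (MulAction.stabilizer D v)) = Nat.card E →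
      IsCyclic D ∨ (Nat.card E = 8 ∧ Nat.card D = 21) ∨ (Nat.card E = 9 ∧ Nat.card D = 16)) := by
  obtain ⟨n, hn⟩ := exists_card_eq hpE
  by_cases hS : IsSemi D E
  · exact Semi.main hpE hcop hS hv
  have key : Nat.card (ConjClasses D) + Nat.card (ConjClasses (MulAction.stabilizer D v)) < Nat.card E := by
    rcases trichotomy htr hpE hcop hn with h | h | ⟨h1, h2⟩
    · exact absurd h hS
    · subst h
      exact (plane htr hpE hcop hn hv).resolve_left hS
    · subst h1
      subst h2
      have h3 := Cfsg.Agent.H718.EightyOne.eightyone htr hpE hcop (by rw [hn]; norm_num)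
        (Eighty.not_thirteen htr hpE hcop hn) hS (fun A hA hAc => Eighty.card_dvd_two htr hpE hcop hn hS A hA hAc) hv
      rw [hn]
      simpa using h3
  exact ⟨key.le, fun h => absurd h key.ne⟩

theorem main {X : Type u} [Group X] [Finite X] (p : ℕ) [hp : Fact p.Prime] (V : Subgroup X) [V.Normal]
    (hVexp : ∀ v ∈ V, v ^ p = 1) (hidx : ¬ p ∣ V.index) (hself : Subgroup.centralizer (V : Set X) = V)
    (G : Subgroup X) (hGV : Subgroup.IsComplement' V G)
    (htrans : ∀ v ∈ V, ∀ w ∈ V, v ≠ 1 → w ≠ 1 → ∃ g ∈ G, g * v * g⁻¹ = w) :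
    Nat.card (ConjClasses X) ≤ Nat.card V ∧ (Nat.card (ConjClasses X) = Nat.card V →
      (IsCyclic G ∨ (Nat.card V = 8 ∧ Nat.card G = 21) ∨ (Nat.card V = 9 ∧ Nat.card G = 16))) := by
  classical
  have hab : ∀ a ∈ V, ∀ b ∈ V, a * b = b * a := by
    intro a ha b hb
    have h1 : b ∈ Subgroup.centralizer (V : Set X) := by rw [hself]; exact hb
    exact Subgroup.mem_centralizer_iff.1 h1 a ha
  have hGidx : Nat.card G = V.index := by
    have h1 := hGV.card_mul_card
    have h2 := V.card_mul_index
    exact Nat.eq_of_mul_eq_mul_left Nat.card_pos (h1.trans h2.symm)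
  have hcopG : ¬ p ∣ Nat.card G := by rw [hGidx]; exact hidx
  rcases subsingleton_or_nontrivial V with hs | hnt
  · -- trivial case
    have hVbot : V = ⊥ := by
      rw [eq_bot_iff]
      intro x hx
      rw [Subgroup.mem_bot]
      exact congrArg Subtype.val (Subsingleton.elim (⟨x, hx⟩ : V) 1)
    have hX : Subsingleton X := by
      have h1 : (⊤ : Subgroup X) = ⊥ := by
        rw [eq_bot_iff]
        intro x _
        rw [← hVbot, ← hself, Subgroup.mem_centralizer_iff]
        intro h hh
        have : h = 1 := by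
          have h3 : h ∈ V := hh
          rw [hVbot, Subgroup.mem_bot] at h3
          exact h3
        rw [this, one_mul, mul_one]
      exact ⟨fun a b => by
        have ha : a ∈ (⊥ : Subgroup X) := by rw [← h1]; trivial
        have hb : b ∈ (⊥ : Subgroup X) := by rw [← h1]; trivial
        rw [Subgroup.mem_bot] at ha hb
        rw [ha, hb]⟩
    refine ⟨?_, fun _ => Or.inl ?_⟩
    · have h2 : Nat.card (ConjClasses X) ≤ Nat.card X :=
        Nat.card_le_card_of_surjective ConjClasses.mk ConjClasses.mk_surjective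
      have h3 : Nat.card X = 1 := Nat.card_of_subsingleton 1
      have h4 : 0 < Nat.card V := Nat.card_pos
      omega
    · haveI : Subsingleton G := ⟨fun a b => Subtype.ext (Subsingleton.elim _ _)⟩
      exact isCyclic_of_subsingleton
  letI : CommGroup V := { (inferInstance : Group V) with mul_comm := fun a b => Subtype.ext (hab a a.2 b b.2) }
  let E := Additive V
  let act : DistribMulAction G E :=
    { smul := fun g w => Additive.ofMul ⟨(g : X) * (w.toMul : V) * (g : X)⁻¹, Subgroup.Normal.conj_mem ‹_› _ w.toMul.2 _⟩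
      one_smul := fun w => by
        apply congrArg Additive.ofMul
        apply Subtype.ext
        change (1 : X) * (w.toMul : V) * (1 : X)⁻¹ = (w.toMul : V)
        rw [one_mul, inv_one, mul_one]
      mul_smul := fun a b w => by
        apply congrArg Additive.ofMul
        apply Subtype.ext
        change ((a : X) * b) * (w.toMul : V) * ((a : X) * b)⁻¹ = (a : X) * ((b : X) * (w.toMul : V) * (b : X)⁻¹) * (a : X)⁻¹
        group
      smul_zero := fun a => by
        apply congrArg Additive.ofMul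
        apply Subtype.ext
        change (a : X) * (1 : X) * (a : X)⁻¹ = 1
        group
      smul_add := fun a w z => by
        apply congrArg Additive.ofMul
        apply Subtype.ext
        change (a : X) * ((w.toMul : V) * (z.toMul : V)) * (a : X)⁻¹ =
          ((a : X) * (w.toMul : V) * (a : X)⁻¹) * ((a : X) * (z.toMul : V) * (a : X)⁻¹)
        group }
  letI := act
  have hact : ∀ (g : G) (w : E), (((g • w : E).toMul : V) : X) = (g : X) * (w.toMul : V) * (g : X)⁻¹ := fun _ _ => rfl
  have hext : ∀ a b : E, ((a.toMul : V) : X) = (b.toMul : V) → a = b := fun a b h =>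
    congrArg Additive.ofMul (Subtype.ext h : a.toMul = b.toMul)
  haveI : FaithfulSMul G E := ⟨by
    intro a b h
    have h1 : ((b : X)⁻¹ * a) ∈ Subgroup.centralizer (V : Set X) := by
      rw [Subgroup.mem_centralizer_iff]
      intro w hw
      have h2 := h (Additive.ofMul ⟨w, hw⟩)
      have h3 : (a : X) * w * (a : X)⁻¹ = (b : X) * w * (b : X)⁻¹ :=
        congrArg (fun z : E => ((z.toMul : V) : X)) h2
      calc w * ((b : X)⁻¹ * a) = (b : X)⁻¹ * ((b : X) * w * (b : X)⁻¹) * a := by group
        _ = (b : X)⁻¹ * ((a : X) * w * (a : X)⁻¹) * a := by rw [h3]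
        _ = (b : X)⁻¹ * a * w := by group
    rw [hself] at h1
    have h4 : (b : X)⁻¹ * a ∈ V ⊓ G := Subgroup.mem_inf.2 ⟨h1, G.mul_mem (G.inv_mem b.2) a.2⟩
    rw [hGV.disjoint.eq_bot, Subgroup.mem_bot] at h4
    exact Subtype.ext (inv_mul_eq_one.1 h4).symm⟩
  have hpE : ∀ e : E, p • e = 0 := by
    intro e
    apply hext
    change (((e.toMul : V) ^ p : V) : X) = 1
    rw [Subgroup.coe_pow]
    exact hVexp _ e.toMul.2
  have h0 : ∀ e : E, e ≠ 0 ↔ ((e.toMul : V) : X) ≠ 1 := by
    intro e
    constructor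
    · intro h1 h2
      exact h1 (hext _ _ h2)
    · rintro h1 rfl
      exact h1 rfl
  have htr : ∀ x y : E, x ≠ 0 → y ≠ 0 → ∃ d : G, d • x = y := by
    intro x y hx hy
    obtain ⟨g, hg, h⟩ := htrans _ x.toMul.2 _ y.toMul.2 ((h0 x).1 hx) ((h0 y).1 hy)
    exact ⟨⟨g, hg⟩, hext _ _ h⟩
  obtain ⟨e₀, he₀⟩ := exists_ne (0 : E)
  have hmain := class_number (D := G) (E := E) htr hpE hcopG he₀
  have hcE : Nat.card E = Nat.card V := rfl
  rw [hcE] at hmain
  -- the class number of `X`
  set v : X := ((e₀.toMul : V) : X) with hv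
  have hvV : v ∈ V := e₀.toMul.2
  have hv1 : v ≠ 1 := (h0 e₀).1 he₀
  have hcop : (Nat.card V).Coprime (Nat.card G) := by
    obtain ⟨n, hn⟩ := exists_card_eq hpE
    rw [← hcE, hn]
    exact Nat.Coprime.pow_left n ((Nat.Prime.coprime_iff_not_dvd hp.out).2 hcopG)
  have hkX := Cfsg.Agent.S4956.result V hab G hGV hcop {1, v} (by
    intro s hs
    rw [Finset.mem_insert, Finset.mem_singleton] at hs
    rcases hs with rfl | rfl
    · exact one_mem V
    · exact hvV) (by
    intro w hw
    by_cases hw1 : w = 1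
    · refine ⟨1, ⟨by simp, 1, one_mem G, by rw [hw1]; group⟩, ?_⟩
      rintro s ⟨hs, g, hg, h⟩
      rw [← h, hw1]
      group
    · refine ⟨v, ⟨by simp, htrans w hw v hvV hw1 hv1⟩, ?_⟩
      rintro s ⟨hs, g, hg, h⟩
      rw [Finset.mem_insert, Finset.mem_singleton] at hs
      rcases hs with rfl | hs
      · exfalso
        apply hw1
        have : w = g⁻¹ * (g * w * g⁻¹) * g := by group
        rw [this, h]
        group
      · exact hs)
  rw [Finset.sum_insert (by
    rw [Finset.mem_singleton]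
    exact fun h => hv1 h.symm), Finset.sum_singleton] at hkX
  have hk1 : Nat.card (ConjClasses ↥(G ⊓ Subgroup.centralizer ({1} : Set X))) = Nat.card (ConjClasses G) := by
    have h1 : G ⊓ Subgroup.centralizer ({1} : Set X) = G := by
      rw [inf_eq_left]
      intro g _
      rw [Subgroup.mem_centralizer_singleton_iff, one_mul, mul_one]
    rw [h1]
  have hk2 : Nat.card (ConjClasses ↥(G ⊓ Subgroup.centralizer ({v} : Set X))) =
      Nat.card (ConjClasses (MulAction.stabilizer G e₀)) := by
    refine card_conj_congr ?_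
    let f : MulAction.stabilizer G e₀ →* ↥(G ⊓ Subgroup.centralizer ({v} : Set X)) :=
      { toFun := fun g => ⟨((g : G) : X), by
          rw [Subgroup.mem_inf, Subgroup.mem_centralizer_singleton_iff]
          refine ⟨(g : G).2, ?_⟩
          have h1 : (g : G) • e₀ = e₀ := g.2
          have h2 : ((g : G) : X) * v * ((g : G) : X)⁻¹ = v := congrArg (fun z : E => ((z.toMul : V) : X)) h1
          exact mul_inv_eq_iff_eq_mul.1 h2⟩
        map_one' := rfl
        map_mul' := fun _ _ => rfl }
    refine (MulEquiv.ofBijective f ⟨?_, ?_⟩).symm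
    · intro a b h
      have h1 : ((a : G) : X) = ((b : G) : X) :=
        congrArg (fun z : ↥(G ⊓ Subgroup.centralizer ({v} : Set X)) => (z : X)) h
      exact Subtype.ext (Subtype.ext h1)
    · rintro ⟨g, hg⟩
      have hg' := hg
      rw [Subgroup.mem_inf, Subgroup.mem_centralizer_singleton_iff] at hg'
      refine ⟨⟨⟨g, hg'.1⟩, ?_⟩, rfl⟩
      refine hext _ _ ?_
      change g * v * g⁻¹ = v
      rw [hg'.2]
      group
  rw [hk1, hk2] at hkX
  rw [hkX]
  exact hmain

end Cfsg.Agent.H717.Final
end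

-- part: S4957
section
set_option autoImplicit false
open Cfsg

namespace Cfsg.Agent.S4957

/-- Let X be a finite group and V a normal subgroup of X in which every element has order dividing the prime p, whose index in X is prime to p and which is its own centralizer in X; so V is an elementary abelian normal Sylow p-subgroup, and any complement G to V in X is a group of order prime to p acting faithfully on the vector space V by conjugation (the coprime linear setting of the k(GV) problem). Suppose a complement G to V in X is transitive by conjugation on the nonidentity elements of V. Then X has at most (order of V) conjugacy classes, and if equality holds then G is cyclic (hence, being transitive, a Singer cycle), or V has order 8 and G has order 21 (the nonabelian group of order 21 inside the simple group of order 168), or V has order 9 and G has order 16 (a semidihedral Sylow 2-subgroup of the 2-dimensional general linear group over the field with 3 elements). -/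
theorem result {X : Type*} [Group X] [Finite X] (p : ℕ) [Fact p.Prime] (V : Subgroup X) [V.Normal] (hVexp : ∀ v ∈ V, v ^ p = 1) (hidx : ¬ p ∣ V.index) (hself : Subgroup.centralizer (V : Set X) = V) (G : Subgroup X) (hGV : Subgroup.IsComplement' V G) (htrans : ∀ v ∈ V, ∀ w ∈ V, v ≠ 1 → w ≠ 1 → ∃ g ∈ G, g * v * g⁻¹ = w) : Nat.card (ConjClasses X) ≤ Nat.card V ∧ (Nat.card (ConjClasses X) = Nat.card V → (IsCyclic G ∨ (Nat.card V = 8 ∧ Nat.card G = 21) ∨ (Nat.card V = 9 ∧ Nat.card G = 16))) := by
  exact Cfsg.Agent.H717.Final.main p V hVexp hidx hself G hGV htrans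

end Cfsg.Agent.S4957
end
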