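import Cfsg.Agent.H718.Delta
import Cfsg.Agent.Blocks.Twist
import Cfsg.Agent.CharDeep.LinearChar
import Cfsg.Statements.S4958
import Cfsg.Agent.H718.ConjRep
set_option linter.all false

-- part: H718/DeltaAb
section
/-!
# `δ` for abelian groups: products of Gauss sums

* `delta_field`: a group acting on a finite field by multiplications has a `δ` given by Gauss sums.
* `exists_delta_of_comm`: an abelian group of order prime to `p` acting linearly on a finite
  vector space over `ZMod p` has a `δ`.
-/

set_option autoImplicit false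
set_option linter.unusedSectionVars false

open scoped ComplexConjugate

namespace Cfsg.Agent.H718

open Cfsg Cfsg.Agent.Characters.Core Cfsg.Agent.Blocks.Local

section Field

variable {H : Type*} [Group H] [Fintype H] {p : ℕ} [Fact p.Prime] {M : Ideal AlgInt}

theorem map_gaussSum {K : Type*} [Field K] [Fintype K] (σ : ℂ →+* ℂ) (χ : MulChar K ℂ)
    (ψ : AddChar K ℂ) :
    σ (gaussSum χ ψ) = gaussSum (χ.ringHomComp σ) ((σ : ℂ →* ℂ).compAddChar ψ) := by
  unfold gaussSum
  rw [map_sum]
  refine Finset.sum_congr rfl (fun x _ => ?_)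
  rw [map_mul]
  rfl

theorem norm_sq_gaussSum {K : Type*} [Field K] [Fintype K] {χ : MulChar K ℂ} (hχ : χ ≠ 1)
    {ψ : AddChar K ℂ} (hψ : ψ ≠ 1) : ‖gaussSum χ ψ‖ ^ 2 = Nat.card K := by
  have h1 := gaussSum_mul_gaussSum_eq_card hχ (AddChar.IsPrimitive.of_ne_one hψ)
  rw [← star_gaussSum_eq] at h1
  have h2 : (gaussSum χ ψ) * star (gaussSum χ ψ) = ((‖gaussSum χ ψ‖ ^ 2 : ℝ) : ℂ) := by
    rw [← starRingEnd_apply, Complex.mul_conj, Complex.normSq_eq_norm_sq]
  rw [h2] at h1
  rw [Nat.card_eq_fintype_card]
  exact_mod_cast h1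

theorem delta_field (hM : IsPModular p M) {K : Type*} [Field K] [Fintype K] [CharP K p]
    (τ : H →* Kˣ) : ∃ δ : H → ℂ, Delta M (fun h (x : K) => (τ h : K) * x) δ := by
  classical
  have hprime := isPrime_of_isPModular hM
  obtain ⟨e⟩ := MulChar.mulEquiv_units K ℂ
  obtain ⟨ψ, hψ⟩ : ∃ ψ : AddChar K ℂ, ψ ≠ 1 := by
    obtain ⟨ψ, hψ⟩ := (AddChar.exists_apply_ne_zero (a := (1 : K))).2 one_ne_zero
    exact ⟨ψ, fun h => hψ (by rw [h]; rfl)⟩
  let θ : H →* MulChar K ℂ := e.symm.toMonoidHom.comp τ
  have hθ : ∀ h, θ h = 1 ↔ τ h = 1 := by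
    intro h
    show e.symm (τ h) = 1 ↔ _
    rw [MulEquiv.map_eq_one_iff]
  refine ⟨fun h => -gaussSum (θ h) ψ, ?_, ?_, ?_, ?_, ?_⟩
  · -- integral coefficients
    have h1 : (fun h => -gaussSum (θ h) ψ) = ∑ x : Kˣ, (-ψ (x : K)) • (fun h : H => (θ h) (x : K)) := by
      funext h
      rw [Finset.sum_apply]
      simp only [Pi.smul_apply, smul_eq_mul, neg_mul, Finset.sum_neg_distrib]
      congr 1
      unfold gaussSum
      rw [← Finset.sum_subset (Finset.subset_univ (Finset.univ.image (fun x : Kˣ => (x : K))))]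
      · rw [Finset.sum_image (fun a _ b _ hab => Units.ext hab)]
        exact Finset.sum_congr rfl (fun x _ => mul_comm _ _)
      · intro x _ hx
        have : ¬ IsUnit x := by
          rintro ⟨u, rfl⟩
          exact hx (Finset.mem_image_of_mem _ (Finset.mem_univ u))
        rw [MulChar.map_nonunit _ this, zero_mul]
    rw [h1]
    refine IntCl.sum _ (fun x _ => ?_)
    refine IntCl.smul ?_ ?_
    · have h2 : (fun h : H => (θ h) (x : K)) = fun h => (((MulChar.toUnitHom (θ h)) x : ℂˣ) : ℂ) := by
        funext h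
        rw [MulChar.coe_toUnitHom]
      let f : H →* ℂˣ :=
        { toFun := fun h => (MulChar.toUnitHom (θ h)) x
          map_one' := by
            apply Units.ext
            rw [MulChar.coe_toUnitHom, map_one, MulChar.one_apply_coe, Units.val_one]
          map_mul' := by
            intro a b
            apply Units.ext
            rw [MulChar.coe_toUnitHom, map_mul, MulChar.mul_apply, Units.val_mul,
              MulChar.coe_toUnitHom, MulChar.coe_toUnitHom] }
      rw [h2]
      exact IntCl.of_isCharacter (Cfsg.Agent.CharDeep.LinearChar.isCharacter_of_hom f)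
    · refine IsIntegral.neg ?_
      have h3 : (ψ (x : K)) ^ (Nat.card K) = 1 := by
        rw [← AddChar.map_nsmul_eq_pow, card_nsmul_eq_zero', AddChar.map_zero_eq_one]
      exact IsIntegral.of_pow Nat.card_pos (h3 ▸ isIntegral_one)
  · refine ⟨(Nat.card Kˣ) * (Nat.card K), mul_ne_zero Nat.card_pos.ne' Nat.card_pos.ne',
      fun h => ?_⟩
    refine neg_mem (sum_mem (fun x _ => ?_))
    by_cases hx : IsUnit x
    · obtain ⟨u, rfl⟩ := hx
      refine mul_mem ?_ ?_
      · apply mem_Cyc_of_pow
        rw [pow_mul, ← map_pow, ← Units.val_pow_eq_pow_val, pow_card_eq_one', Units.val_one,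
          map_one, one_pow]
      · apply mem_Cyc_of_pow
        rw [mul_comm, pow_mul, ← AddChar.map_nsmul_eq_pow, card_nsmul_eq_zero',
          AddChar.map_zero_eq_one, one_pow]
    · rw [MulChar.map_nonunit _ hx, zero_mul]
      exact zero_mem _
  · show -gaussSum (θ 1) ψ = 1
    rw [map_one, gaussSum_one_left hψ, neg_neg]
  · rintro h ⟨s, hs⟩
    have hτ : τ h ≠ 1 := by
      intro h1
      apply hs
      simp only [h1, Units.val_one, one_mul]
    have hθ1 : θ h ≠ 1 := fun h1 => hτ ((hθ h).1 h1)
    show MemLocalIdeal M (-gaussSum (θ h) ψ)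
    refine memLocalIdeal_neg ?_
    have h1 : gaussSum (θ h) ψ = ∑ x : K, (θ h) x * (ψ x - 1) := by
      unfold gaussSum
      simp_rw [mul_sub, mul_one, Finset.sum_sub_distrib]
      rw [MulChar.sum_eq_zero_of_ne_one hθ1, sub_zero]
    rw [h1]
    refine memLocalIdeal_sum (fun x _ => ?_)
    refine memLocalIdeal_mul_left ?_ ?_
    · by_cases hx : IsUnit x
      · obtain ⟨u, rfl⟩ := hx
        apply memLocalRing_of_isIntegral
        have h3 : ((θ h) (u : K)) ^ (Nat.card Kˣ) = 1 := by
          rw [← map_pow, ← Units.val_pow_eq_pow_val, pow_card_eq_one', Units.val_one, map_one]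
        exact IsIntegral.of_pow Nat.card_pos (h3 ▸ isIntegral_one)
      · rw [MulChar.map_nonunit _ hx]
        exact memLocalRing_zero
    · apply Cfsg.Agent.Blocks.Twist.memLocalIdeal_sub_one_of_pow_eq_one hM
      rw [← AddChar.map_nsmul_eq_pow]
      have : p • x = 0 := by rw [nsmul_eq_mul, CharP.cast_eq_zero, zero_mul]
      rw [this, AddChar.map_zero_eq_one]
  · intro σ h
    by_cases hτ : τ h = 1
    · have e1 : Nat.card {s : K // (τ h : K) * s = s} = Nat.card K :=
        Nat.card_congr (Equiv.subtypeUnivEquiv (fun s => by rw [hτ, Units.val_one, one_mul]))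
      show ‖σ (-gaussSum (θ h) ψ)‖ ^ 2 * Nat.card {s : K // (τ h : K) * s = s} = Nat.card K
      rw [e1, (hθ h).2 hτ, gaussSum_one_left hψ, neg_neg, map_one]
      simp
    · have e1 : Nat.card {s : K // (τ h : K) * s = s} = 1 := by
        rw [Nat.card_eq_one_iff_unique]
        refine ⟨⟨?_⟩, ⟨0, by simp⟩⟩
        have h0 : ∀ s : K, (τ h : K) * s = s → s = 0 := by
          intro s hs
          by_contra hs0
          apply hτ
          apply Units.ext
          have : ((τ h : K) - 1) * s = 0 := by rw [sub_mul, hs, one_mul, sub_self]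
          rcases mul_eq_zero.1 this with h1 | h1
          · rw [Units.val_one]
            exact sub_eq_zero.1 h1
          · exact absurd h1 hs0
        rintro ⟨a, ha⟩ ⟨b, hb⟩
        apply Subtype.ext
        show a = b
        rw [h0 a ha, h0 b hb]
      show ‖σ (-gaussSum (θ h) ψ)‖ ^ 2 * Nat.card {s : K // (τ h : K) * s = s} = Nat.card K
      rw [e1, map_neg, norm_neg]
      have h2 : (σ : ℂ →+* ℂ) (gaussSum (θ h) ψ) = _ := map_gaussSum (σ : ℂ →+* ℂ) (θ h) ψ
      have h3 : σ (gaussSum (θ h) ψ) = (σ : ℂ →+* ℂ) (gaussSum (θ h) ψ) := rfl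
      rw [h3, h2, norm_sq_gaussSum]
      · simp
      · intro h4
        apply hτ
        rw [← hθ h]
        apply MulChar.ext
        intro a
        have h5 := congrArg (fun χ : MulChar K ℂ => χ (a : K)) h4
        simp only [MulChar.ringHomComp_apply, MulChar.one_apply_coe] at h5
        rw [MulChar.one_apply_coe]
        apply σ.injective
        rw [map_one]
        exact h5
      · intro h4
        apply hψ
        apply DFunLike.ext
        intro x
        have h5 := congrArg (fun φ : AddChar K ℂ => φ x) h4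
        apply σ.injective
        have h6 : ((1 : AddChar K ℂ) x) = 1 := rfl
        rw [h6, map_one]
        exact h5

end Field

section Comm

open MonoidAlgebra

theorem neZero_card {p : ℕ} [Fact p.Prime] {H : Type*} [Finite H] (hp : ¬ p ∣ Nat.card H) :
    NeZero ((Nat.card H : ℕ) : ZMod p) :=
  ⟨fun h => hp ((ZMod.natCast_eq_zero_iff _ _).1 h)⟩

theorem exists_delta_module {p : ℕ} [Fact p.Prime] {M : Ideal AlgInt} (hM : IsPModular p M)
    {H : Type*} [CommGroup H] [Fintype H] (hp : ¬ p ∣ Nat.card H) :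
    ∀ (n : ℕ) (S : Type*) [AddCommGroup S] [Module (MonoidAlgebra (ZMod p) H) S] [Finite S],
      Nat.card S = n → ∃ δ : H → ℂ,
        Delta M (fun h (s : S) => MonoidAlgebra.of (ZMod p) H h • s) δ := by
  classical
  intro n
  induction n using Nat.strong_induction_on with
  | _ n ih =>
  intro S _ _ _ hn
  have hprime := isPrime_of_isPModular hM
  have := neZero_card hp
  by_cases hsub : Subsingleton S
  · exact ⟨1, Delta.of_trivial (fun g s => Subsingleton.elim _ _)⟩
  rw [not_subsingleton_iff_nontrivial] at hsub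
  by_cases hsimple : IsSimpleModule (MonoidAlgebra (ZMod p) H) S
  · obtain ⟨I, hI, ⟨e⟩⟩ := isSimpleModule_iff_quot_maximal.1 hsimple
    let : Field (MonoidAlgebra (ZMod p) H ⧸ I) := Ideal.Quotient.field I
    have : Finite (MonoidAlgebra (ZMod p) H ⧸ I) := Finite.of_equiv S e.toEquiv
    let : Fintype (MonoidAlgebra (ZMod p) H ⧸ I) := Fintype.ofFinite _
    have hchar : CharP (MonoidAlgebra (ZMod p) H ⧸ I) p :=
      charP_of_injective_algebraMap (algebraMap (ZMod p) (MonoidAlgebra (ZMod p) H ⧸ I)).injective p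
    let τ : H →* (MonoidAlgebra (ZMod p) H ⧸ I)ˣ :=
      (Units.map (Ideal.Quotient.mk I).toMonoidHom).comp (MonoidAlgebra.of (ZMod p) H).toHomUnits
    have hτ : ∀ h, ((τ h : (MonoidAlgebra (ZMod p) H ⧸ I)ˣ) : MonoidAlgebra (ZMod p) H ⧸ I) =
        Ideal.Quotient.mk I (MonoidAlgebra.of (ZMod p) H h) := fun h => rfl
    obtain ⟨δ, hδ⟩ := delta_field hM τ
    refine ⟨δ, hδ.congr e.symm.toEquiv (fun g s => ?_)⟩
    show e.symm ((τ g : (MonoidAlgebra (ZMod p) H ⧸ I)) * s) = _ • e.symm s
    rw [← map_smul, hτ]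
    congr 1
  · -- a proper nonzero submodule
    have h1 : ∃ N : Submodule (MonoidAlgebra (ZMod p) H) S, N ≠ ⊥ ∧ N ≠ ⊤ := by
      by_contra hcon
      push Not at hcon
      apply hsimple
      rw [isSimpleModule_iff, isSimpleOrder_iff_isAtom_top]
      refine ⟨?_, fun N hN => ?_⟩
      · intro h
        exact not_subsingleton S ((Submodule.subsingleton_iff _).1
          (subsingleton_of_bot_eq_top h.symm))
      · by_contra hN0
        exact hN.ne (hcon N hN0)
    obtain ⟨N, hN0, hN1⟩ := h1
    obtain ⟨N', hN'⟩ := exists_isCompl N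
    have e : (N × N') ≃ₗ[MonoidAlgebra (ZMod p) H] S := Submodule.prodEquivOfIsCompl N N' hN'
    have hcard : Nat.card N * Nat.card N' = Nat.card S := by
      rw [← Nat.card_prod, Nat.card_congr e.toEquiv]
    have hN'0 : N' ≠ ⊥ := by
      rintro rfl
      exact hN1 (by simpa using hN'.sup_eq_top)
    have hc1 : 1 < Nat.card N := by
      have := Submodule.nontrivial_iff_ne_bot.2 hN0
      exact Finite.one_lt_card
    have hc2 : 1 < Nat.card N' := by
      have := Submodule.nontrivial_iff_ne_bot.2 hN'0
      exact Finite.one_lt_card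
    obtain ⟨δ, hδ⟩ := ih (Nat.card N) (by rw [← hn, ← hcard]; nlinarith) N rfl
    obtain ⟨δ', hδ'⟩ := ih (Nat.card N') (by rw [← hn, ← hcard]; nlinarith) N' rfl
    refine ⟨δ * δ', (Delta.prod hprime hδ hδ').congr e.toEquiv (fun g s => ?_)⟩
    show e (_ • s.1, _ • s.2) = _ • e s
    rw [← map_smul]
    rfl

/-- An abelian group of order prime to `p` acting linearly on a finite space over `ZMod p` has a
`δ`. -/
theorem exists_delta_rep {p : ℕ} [Fact p.Prime] {M : Ideal AlgInt} (hM : IsPModular p M)
    {H : Type*} [Group H] [Fintype H] (hcomm : ∀ a b : H, a * b = b * a) (hp : ¬ p ∣ Nat.card H)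
    {S : Type*} [AddCommGroup S] [Module (ZMod p) S] [Finite S] (ρ : Representation (ZMod p) H S) :
    ∃ δ : H → ℂ, Delta M (fun h s => ρ h s) δ := by
  let : CommGroup H := { (inferInstance : Group H) with mul_comm := hcomm }
  have : Finite ρ.asModule := Finite.of_equiv S ρ.asModuleEquiv.symm.toEquiv
  obtain ⟨δ, hδ⟩ := exists_delta_module hM hp (Nat.card ρ.asModule) ρ.asModule rfl
  refine ⟨δ, hδ.congr ρ.asModuleEquiv.toEquiv (fun g s => ?_)⟩
  have h1 := ρ.asModuleEquiv_symm_map_rho g (ρ.asModuleEquiv s)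
  rw [LinearEquiv.symm_apply_apply] at h1
  show ρ.asModuleEquiv (MonoidAlgebra.of (ZMod p) H g • s) = ρ g (ρ.asModuleEquiv s)
  rw [← h1, LinearEquiv.apply_symm_apply]

end Comm

end Cfsg.Agent.H718
end

-- part: S4958
section
set_option autoImplicit false
open Cfsg

namespace Cfsg.Agent.S4958

open Cfsg.Agent.H718

/-- Let X be a finite group and V a normal subgroup of X in which every element has order dividing the prime p, whose index in X is prime to p and which is its own centralizer in X; so V is an elementary abelian normal Sylow p-subgroup, and any complement G to V in X is a group of order prime to p acting faithfully on the vector space V by conjugation (the coprime linear setting of the k(GV) problem). Let G be a complement to V in X and suppose that for some v in V the centralizer of v in G is abelian. Then the number of conjugacy classes of X is at most the order of V (the abelian-stabilizer criterion for the k(GV) problem). -/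
theorem result {X : Type*} [Group X] [Finite X] (p : ℕ) [Fact p.Prime] (V : Subgroup X) [V.Normal] (hVexp : ∀ v ∈ V, v ^ p = 1) (hidx : ¬ p ∣ V.index) (hself : Subgroup.centralizer (V : Set X) = V) (G : Subgroup X) (hGV : Subgroup.IsComplement' V G) (v : X) (hv : v ∈ V) (hab : ∀ a ∈ G ⊓ Subgroup.centralizer ({v} : Set X), ∀ b ∈ G ⊓ Subgroup.centralizer ({v} : Set X), a * b = b * a) : Nat.card (ConjClasses X) ≤ Nat.card V := by
  classical
  set H : Subgroup X := G ⊓ Subgroup.centralizer ({v} : Set X) with hH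
  have : Fintype H := Fintype.ofFinite _
  have hGidx : V.index = Nat.card G := hGV.symm.index_eq_card
  have hG : ¬ p ∣ Nat.card G := hGidx ▸ hidx
  have hHcard : ¬ p ∣ Nat.card H := fun h => hG (h.trans (Subgroup.card_dvd_of_le inf_le_left))
  have hVab : ∀ a ∈ V, ∀ b ∈ V, a * b = b * a := by
    intro a ha b hb
    have h1 : a ∈ Subgroup.centralizer (V : Set X) := by rw [hself]; exact ha
    exact (Subgroup.mem_centralizer_iff.1 h1 b hb).symm
  have hVp : IsPGroup p V := by
    intro x
    refine ⟨1, ?_⟩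
    rw [pow_one]
    exact Subtype.ext (hVexp x x.2)
  obtain ⟨M, hM⟩ := Cfsg.Agent.Blocks.ExistsModular.exists_isPModular (Fact.out : p.Prime)
  obtain ⟨E, _, _, _, e, ρ, he, hρ⟩ := exists_conjRep p H V hVab hVexp
    (fun h _ u hu => (inferInstance : V.Normal).conj_mem u hu h)
  obtain ⟨δ, hδ⟩ := exists_delta_rep hM (fun a b : H => Subtype.ext (hab a a.2 b b.2)) hHcard ρ
  have hδ' := hδ.congr (act' := fun h u => e (ρ h (e.symm u))) e
    (fun h s => by rw [e.symm_apply_apply])
  refine card_conjClasses_le_of_Delta hVp hidx hVab G hGV hv H hH hM V le_rfl _ ?_ ?_ hδ'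
  · intro h u
    rw [hρ, e.apply_symm_apply]
  · intro h hu
    have h1 : (h : X) ∈ Subgroup.centralizer (V : Set X) := by
      rw [Subgroup.mem_centralizer_iff]
      intro u hu'
      have h2 := congrArg (Subtype.val) (hu ⟨u, hu'⟩)
      rw [hρ, e.apply_symm_apply] at h2
      have h3 : (h : X) * u * (h : X)⁻¹ = u := h2
      calc u * (h : X) = ((h : X) * u * (h : X)⁻¹) * h := by rw [h3]
        _ = h * u := by group
    rw [hself] at h1
    have h2 : (h : X) ∈ G := (hH ▸ h.2 : (h : X) ∈ G ⊓ Subgroup.centralizer ({v} : Set X)).1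
    have h3 : (h : X) ∈ V ⊓ G := ⟨h1, h2⟩
    have h4 : V ⊓ G = ⊥ := hGV.disjoint.eq_bot
    rw [h4, Subgroup.mem_bot] at h3
    exact Subtype.ext h3

end Cfsg.Agent.S4958
end
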