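import Mathlib
import Cfsg.Agent.H644.KGV.Goals
import Cfsg.Agent.OddOrderCharacters.PF9.CliffGen
import Cfsg.Agent.S0894
import Cfsg.Statements.S4960
import Cfsg.Agent.H644.KGV.Final
set_option linter.all false

-- part: H591/KGV/Perm
section
/-!
# Permutation isomorphic coprime actions on an elementary abelian group and its dual
-/

set_option autoImplicit false

namespace Cfsg.Agent.H591.KGV.Perm

open MulAction

theorem card_fixed_split {Γ C : Type*} [Group Γ] [Finite Γ] [MulAction Γ C] [Finite C]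
    (K : Subgroup Γ) [Fintype {L : Subgroup Γ // K ≤ L}] :
    Nat.card {c : C // ∀ k ∈ K, k • c = c} =
      ∑ L : {L : Subgroup Γ // K ≤ L}, Nat.card {c : C // stabilizer Γ c = L} := by
  classical
  have e : {c : C // ∀ k ∈ K, k • c = c} ≃
      Σ L : {L : Subgroup Γ // K ≤ L}, {c : C // stabilizer Γ c = L} :=
    { toFun := fun c => ⟨⟨stabilizer Γ c.1, fun k hk => c.2 k hk⟩, ⟨c.1, rfl⟩⟩
      invFun := fun q => ⟨q.2.1, fun k hk => by
        have h1 : k ∈ stabilizer Γ q.2.1 := by
          rw [q.2.2]; exact q.1.2 hk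
        exact h1⟩
      left_inv := fun c => rfl
      right_inv := by
        rintro ⟨⟨L, hL⟩, ⟨c, hc⟩⟩
        simp only at hc
        subst hc
        rfl }
  rw [Nat.card_congr e, Nat.card_sigma]

/-- Two finite `Γ`-sets with the same number of fixed points for every subgroup have the same point
stabilizers. -/
theorem exists_stabilizer_eq {Γ A B : Type*} [Group Γ] [Finite Γ] [MulAction Γ A] [MulAction Γ B]
    [Finite A] [Finite B]
    (h : ∀ K : Subgroup Γ, Nat.card {a : A // ∀ k ∈ K, k • a = a} =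
      Nat.card {b : B // ∀ k ∈ K, k • b = b}) (a : A) :
    ∃ b : B, stabilizer Γ b = stabilizer Γ a := by
  classical
  have hfin : Finite (Subgroup Γ) := inferInstance
  have key : ∀ K : Subgroup Γ, Nat.card {c : A // stabilizer Γ c = K} =
      Nat.card {c : B // stabilizer Γ c = K} := by
    intro K
    induction K using WellFoundedGT.induction with
    | ind K ih =>
      have h1 := h K
      have : Fintype {L : Subgroup Γ // K ≤ L} := Fintype.ofFinite _
      rw [card_fixed_split K, card_fixed_split K] at h1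
      rw [← Finset.add_sum_erase _ _ (Finset.mem_univ (⟨K, le_rfl⟩ : {L : Subgroup Γ // K ≤ L})),
        ← Finset.add_sum_erase _ _ (Finset.mem_univ (⟨K, le_rfl⟩ : {L : Subgroup Γ // K ≤ L}))] at h1
      have h2 : ∀ L ∈ Finset.univ.erase (⟨K, le_rfl⟩ : {L : Subgroup Γ // K ≤ L}),
          Nat.card {c : A // stabilizer Γ c = (L : Subgroup Γ)} =
            Nat.card {c : B // stabilizer Γ c = (L : Subgroup Γ)} := by
        intro L hL
        apply ih
        exact lt_of_le_of_ne L.2 fun h3 => Finset.ne_of_mem_erase hL (Subtype.ext h3.symm)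
      rw [Finset.sum_congr rfl h2] at h1
      exact Nat.add_right_cancel h1
  have h1 := key (stabilizer Γ a)
  have h2 : 0 < Nat.card {c : A // stabilizer Γ c = stabilizer Γ a} :=
    Nat.card_pos_iff.2 ⟨⟨⟨a, rfl⟩⟩, inferInstance⟩
  rw [h1] at h2
  obtain ⟨⟨b, hb⟩⟩ := (Nat.card_pos_iff.1 h2).1
  exact ⟨b, hb⟩

/-- Coprime action on an elementary abelian group: as many fixed points on the dual. -/
theorem card_fixed_dual {A K : Type*} [CommGroup A] [Finite A] [Group K] [Finite K] {p : ℕ}
    (hexp : ∀ a : A, a ^ p = 1) (hK : (Nat.card K).Coprime p) (ρ : K →* MulAut A) :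
    Nat.card {a : A // ∀ k, ρ k a = a} =
      Nat.card {l : A →* ℂˣ // ∀ k a, l (ρ k a) = l a} := by
  classical
  have := Fintype.ofFinite K
  let C : Subgroup A :=
    { carrier := {a | ∀ k, ρ k a = a}
      mul_mem' := fun {a b} ha hb k => by rw [map_mul, ha k, hb k]
      one_mem' := fun k => map_one _
      inv_mem' := fun {a} ha k => by rw [map_inv, ha k] }
  have hmem : ∀ a, a ∈ C ↔ ∀ k, ρ k a = a := fun a => Iff.rfl
  have h1 : Nat.card {a : A // ∀ k, ρ k a = a} = Nat.card C := rfl
  have : NeZero (Monoid.exponent C) := ⟨Monoid.exponent_ne_zero_of_finite⟩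
  have h2 : Nat.card (C →* ℂˣ) = Nat.card C :=
    CommGroup.card_monoidHom_of_hasEnoughRootsOfUnity C ℂ
  rw [h1, ← h2]
  -- the norm map
  let e : A →* A := ∏ k : K, (ρ k).toMonoidHom
  have he : ∀ a, e a = ∏ k : K, ρ k a := fun a => by
    simp [e, MonoidHom.finset_prod_apply]
  have heC : ∀ a, e a ∈ C := by
    intro a
    rw [hmem]
    intro k
    rw [he, map_prod]
    refine Fintype.prod_equiv (Equiv.mulLeft k) _ _ fun x => ?_
    rw [Equiv.coe_mulLeft, map_mul]
    rfl
  have heq : ∀ c ∈ C, e c = c ^ Nat.card K := by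
    intro c hc
    rw [he, Finset.prod_congr rfl (fun k _ => hc k), Finset.prod_const, Finset.card_univ,
      Nat.card_eq_fintype_card]
  -- the inverse of `|K|` modulo `p`
  obtain ⟨m, hm⟩ : ∃ m : ℕ, ∀ a : A, a ^ (Nat.card K * m) = a := by
    rcases Nat.eq_zero_or_pos p with h0 | h0
    · subst h0
      rw [Nat.coprime_zero_right] at hK
      exact ⟨1, fun a => by rw [hK, mul_one, pow_one]⟩
    · rcases Nat.lt_or_ge 1 p with hp1 | hp1
      · obtain ⟨m, hm⟩ := Nat.exists_mul_mod_eq_one_of_coprime hK hp1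
        refine ⟨m, fun a => ?_⟩
        have h3 : Nat.card K * m = p * (Nat.card K * m / p) + 1 := by
          conv_lhs => rw [← Nat.div_add_mod (Nat.card K * m) p, hm.2]
        rw [h3, pow_succ, pow_mul, hexp, one_pow, one_mul]
      · have hp : p = 1 := le_antisymm hp1 h0
        refine ⟨1, fun a => ?_⟩
        have h3 : a = 1 := by
          have := hexp a
          rwa [hp, pow_one] at this
        rw [h3, one_pow]
  let e' : A →* C := e.codRestrict C heC
  have he' : ∀ a, ((e' a : C) : A) = e a := fun a => rfl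
  refine Nat.card_congr (Equiv.ofBijective
    (fun μ : C →* ℂˣ => (⟨μ.comp e', fun k a => ?_⟩ : {l : A →* ℂˣ // ∀ k a, l (ρ k a) = l a}))
    ⟨?_, ?_⟩)
  · show μ (e' (ρ k a)) = μ (e' a)
    congr 1
    apply Subtype.ext
    rw [he', he', he, he]
    refine Fintype.prod_equiv (Equiv.mulRight k) _ _ fun x => ?_
    rw [Equiv.coe_mulRight, map_mul]
    rfl
  · intro μ μ' h
    have h3 : μ.comp e' = μ'.comp e' := congrArg Subtype.val h
    ext c
    have h4 : e' ((c : A) ^ m) = c := by
      apply Subtype.ext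
      rw [he', heq _ (C.pow_mem c.2 m), ← pow_mul, mul_comm m, hm]
    have h5 := DFunLike.congr_fun h3 ((c : A) ^ m)
    rw [MonoidHom.comp_apply, MonoidHom.comp_apply, h4] at h5
    rw [h5]
  · rintro ⟨l, hl⟩
    refine ⟨(l.comp C.subtype) ^ m, Subtype.ext ?_⟩
    ext a
    show (((l (e a)) ^ m : ℂˣ) : ℂ) = l a
    have h3 : l (e a) = l a ^ Nat.card K := by
      rw [he, map_prod, Finset.prod_congr rfl (fun k _ => hl k a), Finset.prod_const,
        Finset.card_univ, Nat.card_eq_fintype_card]
    rw [h3, ← pow_mul, ← map_pow, hm]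

end Cfsg.Agent.H591.KGV.Perm
end

-- part: H591/KGV/Equality
section
/-!
# Equality in the `k(GV)` theorem (S4960)
-/

set_option autoImplicit false
set_option linter.unusedSectionVars false

open Cfsg

namespace Cfsg.Agent.H591.KGV

open Cfsg.Agent.Characters.Core Cfsg.Agent.OddOrderCharacters.IndRes
  Cfsg.Agent.OddOrderCharacters.NormalInduced Cfsg.Agent.OddOrderCharacters.PF9.CliffGen

universe u

/-- The degree of an irreducible character is a natural number. -/
theorem exists_degree {G : Type*} [Group G] [Finite G] {χ : G → ℂ} (h : IsIrrCharacter G χ) :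
    ∃ e : ℕ, χ 1 = e := by
  obtain ⟨n, ρ, -, rfl⟩ := h
  exact ⟨Module.finrank ℂ (Fin n → ℂ), by rw [Representation.char_one]⟩

section Degrees

variable {X : Type u} [Group X] [Finite X] {p : ℕ} [hp : Fact p.Prime] {V G : Subgroup X} [V.Normal]

/-- The number theory at the end. -/
theorem congruences {H : Type*} [Group H] [Finite H]
    (hH : ∀ ζ : H → ℂ, IsIrrCharacter H ζ → ∀ e : ℕ, ζ 1 = e →
      e ≡ Nat.card H [MOD p] ∨ e + Nat.card H ≡ 0 [MOD p]) :
    (Nat.ModEq p (Nat.card H) 1 ∨ Nat.ModEq p (Nat.card H + 1) 0) ∧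
      Nat.ModEq p (Nat.card (ConjClasses H)) (Nat.card H) := by
  classical
  have := Fintype.ofFinite H
  have hfin : Finite (IrrCharacter H) := finite_irr
  have := Fintype.ofFinite (IrrCharacter H)
  have h1 : Nat.ModEq p (Nat.card H) 1 ∨ Nat.ModEq p (Nat.card H + 1) 0 := by
    rcases hH (fun _ => 1) isIrr_one 1 (by simp) with h | h
    · exact Or.inl h.symm
    · right; rwa [add_comm] at h
  refine ⟨h1, ?_⟩
  have h2 : ((Nat.card H : ℕ) : ZMod p) ^ 2 = 1 := by
    rcases h1 with h | h
    · have h3 := (ZMod.natCast_eq_natCast_iff _ _ _).2 h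
      rw [h3, Nat.cast_one, one_pow]
    · have h3 := (ZMod.natCast_eq_natCast_iff _ _ _).2 h
      push_cast at h3
      have h4 : ((Nat.card H : ℕ) : ZMod p) = -1 := by linear_combination h3
      rw [h4]; ring
  choose d hd using fun χ : IrrCharacter H => exists_degree χ.2
  have h3 : ∀ χ : IrrCharacter H, ((d χ : ℕ) : ZMod p) ^ 2 = 1 := by
    intro χ
    rcases hH χ χ.2 (d χ) (hd χ) with h | h
    · have h4 := (ZMod.natCast_eq_natCast_iff _ _ _).2 h
      rw [h4, h2]
    · have h4 := (ZMod.natCast_eq_natCast_iff _ _ _).2 h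
      push_cast at h4
      have h5 : ((d χ : ℕ) : ZMod p) = -(Nat.card H : ℕ) := by linear_combination h4
      rw [h5, neg_sq, h2]
  have h4 : (∑ χ : IrrCharacter H, (d χ) ^ 2 : ℕ) = Nat.card H := by
    have h5 := S0894.sum_sq_degrees (G := H)
    have h6 : ((∑ χ : IrrCharacter H, (d χ) ^ 2 : ℕ) : ℂ) = (Nat.card H : ℂ) := by
      rw [← h5]
      push_cast
      exact Finset.sum_congr rfl fun χ _ => by rw [hd χ]
    exact_mod_cast h6
  rw [← ZMod.natCast_eq_natCast_iff]
  conv_rhs => rw [← h4]
  push_cast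
  rw [Finset.sum_congr rfl fun χ _ => h3 χ, Finset.sum_const, Finset.card_univ, nsmul_eq_mul,
    mul_one, ← card_irr (G := H), Nat.card_eq_fintype_card]

/-- The degrees of the characters of the stabilizer of a linear character of `V`. -/
theorem degrees (hidx : ¬ p ∣ V.index) (hGV : Subgroup.IsComplement' V G)
    (heq : ∀ χ : X → ℂ, IsIrrCharacter X χ → ∀ d : ℕ,
        χ 1 = (d : ℂ) → d ≡ V.index [MOD p] ∨ d + V.index ≡ 0 [MOD p])
    (lam : V →* ℂˣ) (U : Subgroup X)
    (hU : ∀ g : X, g ∈ U ↔ g ∈ G ∧ conjFn V (fun n => (lam n : ℂ)) g = fun n => (lam n : ℂ))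
    (ζ : U → ℂ) (hζ : IsIrrCharacter U ζ) (e : ℕ) (he : ζ 1 = e) :
    e ≡ Nat.card U [MOD p] ∨ e + Nat.card U ≡ 0 [MOD p] := by
  classical
  have := Fintype.ofFinite X
  have := Fintype.ofFinite V
  obtain ⟨T, hTdef⟩ : ∃ T : Subgroup X, T = inertia V (fun n => (lam n : ℂ)) := ⟨_, rfl⟩
  have hT : ∀ g, g ∈ T ↔ conjFn V (fun n => (lam n : ℂ)) g = fun n => (lam n : ℂ) := by
    intro g; rw [hTdef]; exact mem_inertia
  have := Fintype.ofFinite T
  have hVT : V ≤ T := by
    rw [hTdef]
    exact le_inertia (isIrr_isClassFunction (Characters.Linear.isIrrCharacter_hom lam))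
  have hUT : U = T ⊓ G := by
    ext g
    rw [hU, Subgroup.mem_inf, hT]
    exact and_comm
  have hVG : V ⊓ G = ⊥ := hGV.disjoint.eq_bot
  have hVG' : V ⊔ G = ⊤ := hGV.sup_eq_top
  obtain ⟨F, hF, -⟩ := exists_extension (N := V) (T := T) (U := G) hVG hVG' hVT
    (fun g hg => (hT g).1 hg) (1 : ↥(T ⊓ G) →* ℂˣ)
  -- the projection `T → U`
  let π : X →* G := (hGV.symm.QuotientMulEquiv.toMonoidHom).comp (QuotientGroup.mk' V)
  have hπ1 : ∀ g : G, π g = g := by
    intro g
    apply (hGV.symm.QuotientMulEquiv).symm.injective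
    show (hGV.symm.QuotientMulEquiv).symm (hGV.symm.QuotientMulEquiv (QuotientGroup.mk' V g)) = _
    rw [MulEquiv.symm_apply_apply]
    rfl
  have hπ2 : ∀ v ∈ V, π v = 1 := by
    intro v hv
    show hGV.symm.QuotientMulEquiv (QuotientGroup.mk' V v) = 1
    have : QuotientGroup.mk' V v = 1 := (QuotientGroup.eq_one_iff v).2 hv
    rw [this, map_one]
  have hdec : ∀ x : X, x * ((π x : G) : X)⁻¹ ∈ V := by
    intro x
    have h1 : x ∈ V ⊔ G := hVG' ▸ Subgroup.mem_top _
    obtain ⟨v, hv, g, hg, rfl⟩ := Subgroup.mem_sup_of_normal_left.1 h1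
    rw [map_mul, hπ2 v hv, one_mul, hπ1 ⟨g, hg⟩]
    simpa using hv
  have hπU : ∀ t : T, ((π t : G) : X) ∈ U := by
    intro t
    rw [hUT, Subgroup.mem_inf]
    refine ⟨?_, (π t).2⟩
    have h1 : ((π t : G) : X) = ((t : X) * ((π t : G) : X)⁻¹)⁻¹ * t := by group
    rw [h1]
    exact mul_mem (inv_mem (hVT (hdec t))) t.2
  let q : T →* U :=
    { toFun := fun t => ⟨((π t : G) : X), hπU t⟩
      map_one' := Subtype.ext (by
        show ((π (1 : X) : G) : X) = 1
        rw [map_one]; rfl)
      map_mul' := fun a b => Subtype.ext (by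
        show ((π ((a : X) * b) : G) : X) = ((π a : G) : X) * ((π b : G) : X)
        rw [map_mul]; rfl) }
  have hq : Function.Surjective q := by
    intro y
    have hy : (y : X) ∈ T ⊓ G := hUT ▸ y.2
    refine ⟨⟨y, hy.1⟩, Subtype.ext ?_⟩
    show ((π (y : X) : G) : X) = y
    rw [hπ1 ⟨y, hy.2⟩]
  have hψ : IsIrrCharacter T (ζ ∘ q) := isIrr_comp q hq hζ
  have hker : ∀ n : V, (ζ ∘ q) ⟨n, hVT n.2⟩ = (ζ ∘ q) 1 := by
    intro n
    show ζ (q ⟨n, hVT n.2⟩) = ζ (q 1)
    rw [map_one]
    congr 1
    apply Subtype.ext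
    show ((π (n : X) : G) : X) = 1
    rw [hπ2 n n.2]; rfl
  have hirr := irr_twist hT hVT hF hψ hker
  have hdeg : indFun T (fun t => (F t : ℂ) * (ζ ∘ q) t) 1 = ((T.index * e : ℕ) : ℂ) := by
    rw [indFun_apply_one]
    show (T.index : ℂ) * ((F 1 : ℂ) * ζ (q 1)) = _
    rw [map_one, map_one, he, Units.val_one, one_mul]
    push_cast; rfl
  have h1 := heq _ hirr _ hdeg
  -- the index
  have hVidx : V.index = Nat.card G := hGV.symm.index_eq_card
  have hidx' : V.index = T.index * Nat.card U := by
    have h2 : Nat.card T = Nat.card V * Nat.card U := by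
      have h3 : Nat.card q.ker * Nat.card q.range = Nat.card T := by
        have := Subgroup.card_eq_card_quotient_mul_card_subgroup q.ker
        rw [this, mul_comm, Nat.card_congr (QuotientGroup.quotientKerEquivRange q).toEquiv]
      have h4 : Nat.card q.range = Nat.card U := by
        rw [MonoidHom.range_eq_top.2 hq, Subgroup.card_top]
      have h5 : q.ker = V.subgroupOf T := by
        ext t
        rw [MonoidHom.mem_ker, Subgroup.mem_subgroupOf]
        constructor
        · intro h
          have h6 : ((π t : G) : X) = 1 := congrArg Subtype.val h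
          have h7 := hdec t
          rw [h6, inv_one, mul_one] at h7
          exact h7
        · intro h
          apply Subtype.ext
          show ((π (t : X) : G) : X) = 1
          rw [hπ2 t h]; rfl
      have h6 : Nat.card (V.subgroupOf T) = Nat.card V :=
        Nat.card_congr (Subgroup.subgroupOfEquivOfLe hVT).toEquiv
      rw [← h3, h4, h5, h6]
    have h3 := Subgroup.card_mul_index T
    have h4 := Subgroup.card_mul_index V
    rw [h2, ← h4, mul_assoc] at h3
    have h5 := Nat.eq_of_mul_eq_mul_left Nat.card_pos h3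
    rw [← h5, mul_comm]
  have hTp : T.index.Coprime p := by
    refine ((Nat.Prime.coprime_iff_not_dvd hp.out).2 fun h => hidx ?_).symm
    rw [hidx']
    exact h.mul_right _
  rw [hidx'] at h1
  rcases h1 with h | h
  · left
    exact Nat.ModEq.cancel_left_of_coprime (by rwa [Nat.coprime_comm] at hTp) h
  · right
    rw [← mul_add] at h
    have h' : T.index * (e + Nat.card U) ≡ T.index * 0 [MOD p] := by simpa using h
    exact Nat.ModEq.cancel_left_of_coprime (by rwa [Nat.coprime_comm] at hTp) h'

end Degrees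

/-- Every point stabilizer on `V` is a point stabilizer on the linear characters of `V`. -/
theorem exists_lam {X : Type u} [Group X] [Finite X] {p : ℕ} [hp : Fact p.Prime]
    {V G : Subgroup X} [hVn : V.Normal] (hVexp : ∀ v ∈ V, v ^ p = 1)
    (hVcomm : ∀ a b : V, a * b = b * a) (hG : (Nat.card G).Coprime p) (v : V) :
    ∃ lam : V →* ℂˣ, ∀ g : X, g ∈ G ⊓ Subgroup.centralizer {(v : X)} ↔
      g ∈ G ∧ conjFn V (fun n => (lam n : ℂ)) g = fun n => (lam n : ℂ) := by
  classical
  letI : CommGroup V := { (inferInstance : Group V) with mul_comm := hVcomm }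
  let f : G →* MulAut V := MulAut.conjNormal.comp G.subtype
  letI i1 : MulAction G V := MulAction.compHom V f
  letI i2 : MulAction G (V →* ℂˣ) :=
    { smul := fun g l => l.comp (f g⁻¹).toMonoidHom
      one_smul := fun l => by
        ext n
        show ((l ((f (1 : G)⁻¹) n) : ℂˣ) : ℂ) = l n
        rw [inv_one, map_one]; rfl
      mul_smul := fun a b l => by
        ext n
        show ((l ((f (a * b)⁻¹) n) : ℂˣ) : ℂ) = ((l ((f b⁻¹) ((f a⁻¹) n)) : ℂˣ) : ℂ)
        rw [mul_inv_rev, map_mul]; rfl }
  have hsmul1 : ∀ (g : G) (a : V), g • a = f g a := fun _ _ => rfl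
  have hsmul2 : ∀ (g : G) (l : V →* ℂˣ) (a : V), (g • l) a = l (f g⁻¹ a) := fun _ _ _ => rfl
  have hexp : ∀ a : V, a ^ p = 1 := fun a => Subtype.ext (hVexp a a.2)
  have : NeZero (Monoid.exponent V) := ⟨Monoid.exponent_ne_zero_of_finite⟩
  have hfin : Finite (V →* ℂˣ) := by
    have h1 : Nat.card (V →* ℂˣ) = Nat.card V :=
      CommGroup.card_monoidHom_of_hasEnoughRootsOfUnity V ℂ
    exact Nat.finite_of_card_ne_zero (h1 ▸ Nat.card_pos.ne')
  obtain ⟨lam, hlam⟩ := Perm.exists_stabilizer_eq (Γ := G) (A := V) (B := V →* ℂˣ) (fun K => by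
    have h1 : (Nat.card K).Coprime p :=
      Nat.Coprime.coprime_dvd_left (Subgroup.card_subgroup_dvd_card K) hG
    have h2 := Perm.card_fixed_dual hexp h1 (f.comp K.subtype)
    have e1 : {a : V // ∀ k ∈ K, k • a = a} ≃ {a : V // ∀ k : K, (f.comp K.subtype) k a = a} :=
      Equiv.subtypeEquivRight fun a =>
        ⟨fun h k => h k k.2, fun h k hk => h ⟨k, hk⟩⟩
    have e2 : {l : V →* ℂˣ // ∀ k ∈ K, k • l = l} ≃
        {l : V →* ℂˣ // ∀ (k : K) (a : V), l ((f.comp K.subtype) k a) = l a} :=
      Equiv.subtypeEquivRight fun l =>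
        ⟨fun h k a => by
          have h3 := h (k : G)⁻¹ (inv_mem k.2)
          have h4 := DFunLike.congr_fun h3 a
          rw [hsmul2, inv_inv] at h4
          exact h4, fun h k hk => by
          ext a
          rw [hsmul2]
          exact congrArg _ (h ⟨k⁻¹, inv_mem hk⟩ a)⟩
    rw [Nat.card_congr e1, Nat.card_congr e2, h2]) v
  refine ⟨lam, fun g => ?_⟩
  have key : ∀ g : G, g ∈ MulAction.stabilizer G v ↔ g ∈ MulAction.stabilizer G lam := by
    intro g; rw [hlam]
  rw [Subgroup.mem_inf]
  refine and_congr_right fun hg => ?_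
  have h1 := key ⟨g, hg⟩
  have h2 : g ∈ Subgroup.centralizer {(v : X)} ↔ (⟨g, hg⟩ : G) ∈ MulAction.stabilizer G v := by
    rw [MulAction.mem_stabilizer_iff, hsmul1, Subgroup.mem_centralizer_singleton_iff]
    constructor
    · intro h
      apply Subtype.ext
      show g * v * g⁻¹ = v
      rw [h, mul_inv_cancel_right]
    · intro h
      have h3 : g * v * g⁻¹ = v := congrArg Subtype.val h
      rwa [mul_inv_eq_iff_eq_mul] at h3
  rw [h2, h1, ← inv_mem_iff, MulAction.mem_stabilizer_iff]
  constructor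
  · intro h
    funext n
    have h3 := DFunLike.congr_fun h n
    rw [hsmul2, inv_inv] at h3
    exact congrArg (Units.val) h3
  · intro h
    ext n
    rw [hsmul2, inv_inv]
    exact congrFun h n

/-- The statement of S4960. -/
theorem s4960 (hmain : H644.KGV.MainKGV.{u}) {X : Type u} [Group X] [Finite X] (p : ℕ)
    [Fact p.Prime] (V : Subgroup X) [V.Normal] (hVexp : ∀ v ∈ V, v ^ p = 1) (hidx : ¬ p ∣ V.index)
    (hself : Subgroup.centralizer (V : Set X) = V) (G : Subgroup X)
    (hGV : Subgroup.IsComplement' V G)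
    (hk : Nat.card (ConjClasses X) = Nat.card V) (v : X) (hv : v ∈ V) :
    (Nat.ModEq p (Nat.card ↥(G ⊓ Subgroup.centralizer ({v} : Set X))) 1 ∨
      Nat.ModEq p (Nat.card ↥(G ⊓ Subgroup.centralizer ({v} : Set X)) + 1) 0) ∧
    Nat.ModEq p (Nat.card (ConjClasses ↥(G ⊓ Subgroup.centralizer ({v} : Set X))))
      (Nat.card ↥(G ⊓ Subgroup.centralizer ({v} : Set X))) := by
  have heq := (hmain p X V hVexp hidx hself).2 hk
  have hVcomm : ∀ a b : V, a * b = b * a := by
    intro a b
    have h1 : (b : X) ∈ Subgroup.centralizer (V : Set X) := hself.symm ▸ b.2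
    exact Subtype.ext (Subgroup.mem_centralizer_iff.1 h1 a a.2)
  have hG : (Nat.card G).Coprime p := by
    rw [← hGV.symm.index_eq_card]
    exact ((Nat.Prime.coprime_iff_not_dvd Fact.out).2 hidx).symm
  obtain ⟨lam, hlam⟩ := exists_lam hVexp hVcomm hG ⟨v, hv⟩
  exact congruences fun ζ hζ e he => degrees hidx hGV heq lam _ hlam ζ hζ e he

end Cfsg.Agent.H591.KGV
end

-- part: S4960
section
set_option autoImplicit false
open Cfsg

namespace Cfsg.Agent.S4960

/-- Let X be a finite group and V a normal subgroup of X in which every element has order dividing the prime p, whose index in X is prime to p and which is its own centralizer in X; so V is an elementary abelian normal Sylow p-subgroup, and any complement G to V in X is a group of order prime to p acting faithfully on the vector space V by conjugation (the coprime linear setting of the k(GV) problem). Let G be a complement to V in X acting irreducibly on V (the only normal subgroups of X contained in V are the trivial subgroup and V), and suppose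 X has exactly (order of V) conjugacy classes. Then for every v in V the centralizer H of v in G satisfies: the order of H is congruent to 1 or to −1 modulo p, and the number of conjugacy classes of H is congruent to the order of H modulo p. (With v = 1 this gives the congruences for G itself.) -/
theorem result {X : Type*} [Group X] [Finite X] (p : ℕ) [Fact p.Prime] (V : Subgroup X) [V.Normal] (hVexp : ∀ v ∈ V, v ^ p = 1) (hidx : ¬ p ∣ V.index) (hself : Subgroup.centralizer (V : Set X) = V) (G : Subgroup X) (hGV : Subgroup.IsComplement' V G) (hirr : ∀ N : Subgroup X, N.Normal → N ≤ V → N = ⊥ ∨ N = V) (hk : Nat.card (ConjClasses X) = Nat.card V) (v : X) (hv : v ∈ V) : (Nat.ModEq p (Nat.card ↥(G ⊓ Subgroup.centralizer ({v} : Set X))) 1 ∨ Nat.ModEq p (Nat.card ↥(G ⊓ Subgroup.centralizer ({v} : Set X)) + 1) 0) ∧ Nat.ModEq p (Nat.card (ConjClasses ↥(G ⊓ Subgroup.centralizer ({v} : Set X)))) (Nat.card ↥(G ⊓ Subgroup.centralizer ({v} : Set X))) := by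
  exact Cfsg.Agent.H591.KGV.s4960 Cfsg.Agent.H644.KGV.mainKGV p V hVexp hidx hself G hGV hk v hv

end Cfsg.Agent.S4960
end
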