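import Cfsg.Statements.S4961
import Cfsg.Agent.H644.KGV.Final
import Cfsg.Agent.H354.KGL.Main
import Cfsg.Agent.H591.KGV.Psolv
set_option linter.all false

set_option autoImplicit false
open Cfsg

namespace Cfsg.Agent.S4961

/-- Let X be a finite p-solvable group whose largest normal subgroup of order prime to p is trivial, and let P be a Sylow p-subgroup of X. Then the number of conjugacy classes of X is at most the order of P, and strictly less if P is nonabelian. (X has a single p-block with defect group P, so this is the k(B) bound in that case; it is derived from the k(GV) Theorem.) -/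
theorem result {X : Type*} [Group X] [Finite X] (p : ℕ) [Fact p.Prime] (hsolv : Cfsg.IsPSolvable p X) (hcore : Cfsg.pPrimeCore p X = ⊥) (P : Sylow p X) : Nat.card (ConjClasses X) ≤ Nat.card P ∧ ((∃ a ∈ P, ∃ b ∈ P, a * b ≠ b * a) → Nat.card (ConjClasses X) < Nat.card P) := by
  exact Cfsg.Agent.H591.KGV.s4961 (fun _ _ _ p _ V _ h1 h2 h3 => (Cfsg.Agent.H644.KGV.mainKGV p _ V h1 h2 h3).1) p hsolv hcore P

end Cfsg.Agent.S4961
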