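import Mathlib
import Cfsg.Agent.OddOrderCharacters.PF9.CliffGen
import Cfsg.Agent.H672.RM.Cliff
import Cfsg.Agent.H669.OverCount
import Cfsg.Agent.H595.Count
import Cfsg.Agent.S0856
import Cfsg.Agent.Blocks.Deflate
import Cfsg.Agent.H644.KGV.Goals
import Cfsg.Agent.H540.ClassNum
import Cfsg.Agent.S0012
import Cfsg.Agent.S0029
import Cfsg.Agent.S4714
import Cfsg.Agent.S0971
import Cfsg.Agent.S0973
import Cfsg.Agent.S4434
import Cfsg.Agent.S4437
import Cfsg.Agent.S0908
import Cfsg.Statements.S4963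
import Cfsg.Agent.H644.KGV.Final
set_option linter.all false

-- part: H716/KGV/Cliff
section
/-!
# Counting the irreducible characters over a set of characters of a normal subgroup

* `nOver N θ` : the number of the irreducible characters of `G` over `θ`;
* `nOver_clifford` : the Clifford correspondence as an equality of numbers;
* `nOver_le` : `nOver N θ ≤ k(S / N)`, `S` the stabilizer of `θ`; `nOver_eq` : equality if `N` is a
  Hall subgroup;
* `count_over` : the number of the irreducible characters over a set of characters.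
-/

set_option autoImplicit false
set_option linter.style.haveILetI false
set_option linter.unusedSectionVars false
open Cfsg

namespace Cfsg.Agent.H716.KGV

open Cfsg.Agent.Characters.Core Cfsg.Agent.Characters.Clifford
open Cfsg.Agent.H672 hiding inertia mem_inertia le_inertia
open Cfsg.Agent.H672.RM Cfsg.Agent.OddOrderCharacters Cfsg.Agent.OddOrderCharacters.NormalInduced
open Cfsg.Agent.OddOrderCharacters.PF9.CliffGen (inertia mem_inertia le_inertia)
open scoped ComplexConjugate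

universe u v

variable {G : Type u} [Group G] [Finite G]

/-- The number of the irreducible characters of `G` over the function `θ` on `N`. -/
noncomputable def nOver (N : Subgroup G) (θ : N → ℂ) : ℕ :=
  Nat.card {χ : IrrCharacter G // Over N.subtype (χ : G → ℂ) θ}

/-- The Clifford correspondence as an equality of numbers. -/
theorem nOver_clifford (N : Subgroup G) [hN : N.Normal]
    {θ : N → ℂ} (hθ : IsIrrCharacter N θ) (T : Subgroup G) (hT : T = inertia N θ) (hNT : N ≤ T) :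
    nOver N θ = Nat.card {ψ : IrrCharacter T // Over (Subgroup.inclusion hNT) (ψ : T → ℂ) θ} := by
  classical
  letI := Fintype.ofFinite G
  letI := Fintype.ofFinite N
  letI := Fintype.ofFinite T
  have hT' : ∀ g, g ∈ T ↔ conjFn N θ g = θ := fun g => by rw [hT]; exact mem_inertia
  have hirr : ∀ {ψ : T → ℂ}, IsIrrCharacter T ψ → Over (Subgroup.inclusion hNT) ψ θ →
      IsIrrCharacter G (indFun T ψ) := fun hψ h =>
    PF9.CliffGen.irr_ind hθ hT' hNT hψ ((over_resTo hNT _ _).1 h)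
  let F : {χ : IrrCharacter T // Over (Subgroup.inclusion hNT) (χ : T → ℂ) θ} →
      {χ : IrrCharacter G // Over N.subtype (χ : G → ℂ) θ} :=
    fun ψ => ⟨⟨indFun T (ψ.1 : T → ℂ), hirr ψ.1.2 ψ.2⟩,
      over_indFun N hθ T hNT ψ.1.2 (hirr ψ.1.2 ψ.2) ψ.2⟩
  have hF1 : Function.Injective F := by
    intro ψ ψ' h
    apply Subtype.ext
    apply Subtype.ext
    have h1 : indFun T (ψ.1 : T → ℂ) = indFun T (ψ'.1 : T → ℂ) :=
      congrArg (fun x => (x.1 : G → ℂ)) h
    exact PF9.CliffGen.ind_inj hθ hT' hNT ψ.1.2 ψ'.1.2 ((over_resTo hNT _ _).1 ψ.2)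
      ((over_resTo hNT _ _).1 ψ'.2) h1
  have hF2 : Function.Surjective F := by
    rintro ⟨⟨χ, hχ⟩, h2⟩
    obtain ⟨ψ, hψ, h3, h4⟩ := PF9.CliffGen.exists_ind hθ hT' hNT hχ ((over_res _ _).1 h2)
    exact ⟨⟨⟨ψ, hψ⟩, (over_resTo hNT _ _).2 h3⟩, Subtype.ext (Subtype.ext h4.symm)⟩
  exact (Nat.card_congr (Equiv.ofBijective F ⟨hF1, hF2⟩)).symm

theorem conjClasses_card_congr {A B : Type*} [Group A] [Group B] (e : A ≃* B) :
    Nat.card (ConjClasses A) = Nat.card (ConjClasses B) := by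
  refine Nat.card_congr (Equiv.ofBijective (ConjClasses.map (e : A →* B))
    ⟨?_, ConjClasses.map_surjective e.surjective⟩)
  intro x y h
  obtain ⟨a, rfl⟩ := ConjClasses.mk_surjective x
  obtain ⟨b, rfl⟩ := ConjClasses.mk_surjective y
  have h1 : IsConj (e a) (e b) := ConjClasses.mk_eq_mk_iff_isConj.1 h
  obtain ⟨c, hc⟩ := isConj_iff.1 h1
  refine ConjClasses.mk_eq_mk_iff_isConj.2 (isConj_iff.2 ⟨e.symm c, e.injective ?_⟩)
  rw [map_mul, map_mul, map_inv, e.apply_symm_apply]
  exact hc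

/-- `T / N ≃ R` for a surjection `T → R` with kernel `N`. -/
noncomputable def quotEquiv {Q : Type v} [Group Q] {T : Subgroup G} {N : Subgroup G} [hN : N.Normal]
    (f : T →* Q) (hf : Function.Surjective f) (hk : f.ker = N.subgroupOf T) :
    T ⧸ N.subgroupOf T ≃* Q :=
  (QuotientGroup.quotientMulEquivOfEq hk.symm).trans
    (QuotientGroup.quotientKerEquivOfSurjective f hf)

theorem over_sub_iff {N T : Subgroup G} (hNT : N ≤ T) (ψ : T → ℂ) (θ : N → ℂ) :
    letI := Fintype.ofFinite (N.subgroupOf T)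
    Over (Subgroup.inclusion hNT) ψ θ ↔
      classInner (fun n : N.subgroupOf T => ψ n) (PF9.CliffGen.down N T θ) ≠ 0 := by
  classical
  letI := Fintype.ofFinite (N.subgroupOf T)
  letI := Fintype.ofFinite N
  letI := Fintype.ofFinite T
  rw [over_resTo]
  have h1 : (fun n : N.subgroupOf T => ψ n) =
      PF9.CliffGen.down N T (PF9.CliffGen.resTo hNT ψ) := rfl
  rw [h1]
  letI := Fintype.ofFinite G
  rw [PF9.CliffGen.classInner_down hNT]

theorem isIrr_down {N T : Subgroup G} (hNT : N ≤ T) {θ : N → ℂ} (hθ : IsIrrCharacter N θ) :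
    IsIrrCharacter (N.subgroupOf T) (PF9.CliffGen.down N T θ) :=
  isIrr_comp (Subgroup.subgroupOfEquivOfLe hNT).toMonoidHom
    (Subgroup.subgroupOfEquivOfLe hNT).surjective hθ

theorem down_inv {N T : Subgroup G} [hN : N.Normal] {θ : N → ℂ} (hT : T = inertia N θ)
    (g : T) (n : N.subgroupOf T) :
    PF9.CliffGen.down N T θ ⟨g * n * g⁻¹, (inferInstance : (N.subgroupOf T).Normal).conj_mem
      (n : T) n.2 g⟩ = PF9.CliffGen.down N T θ n := by
  have hg : (g : G) ∈ inertia N θ := by rw [← hT]; exact g.2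
  rw [mem_inertia] at hg
  exact congrFun hg ⟨(n : T), Subgroup.mem_subgroupOf.mp n.2⟩

/-- At most `k(R)` irreducible characters lie over a character of `N` with stabilizer `S`,
`S / N ≃ R`. -/
theorem nOver_le {R : Type v} [Group R]
    (N : Subgroup G) [hN : N.Normal] {θ : N → ℂ} (hθ : IsIrrCharacter N θ)
    (T : Subgroup G) (hT : T = inertia N θ) (f : T →* R) (hf : Function.Surjective f)
    (hk : f.ker = N.subgroupOf T) :
    nOver N θ ≤ Nat.card (ConjClasses R) := by
  classical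
  have hNT : N ≤ T := by rw [hT]; exact le_inertia (isIrr_isClassFunction hθ)
  rw [nOver_clifford N hθ T hT hNT, ← conjClasses_card_congr (quotEquiv f hf hk)]
  letI := Fintype.ofFinite (N.subgroupOf T)
  have h1 := H669.OverCount.card_over_le (N.subgroupOf T) (isIrr_down hNT hθ) (down_inv hT)
  refine le_trans (le_of_eq (Nat.card_congr (Equiv.subtypeEquivRight fun ψ => ?_))) h1
  exact over_sub_iff hNT (ψ : T → ℂ) θ

/-- The order of the stabilizer. -/
theorem card_inertia {R : Type v} [Group R]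
    (N : Subgroup G) [hN : N.Normal] {θ : N → ℂ} (hθ : IsIrrCharacter N θ)
    (T : Subgroup G) (hT : T = inertia N θ) (f : T →* R) (hf : Function.Surjective f)
    (hk : f.ker = N.subgroupOf T) :
    Nat.card T = Nat.card N * Nat.card R := by
  have hNT : N ≤ T := by rw [hT]; exact le_inertia (isIrr_isClassFunction hθ)
  rw [← Nat.card_congr (quotEquiv f hf hk).toEquiv,
    ← Nat.card_congr (Subgroup.subgroupOfEquivOfLe hNT).toEquiv, mul_comm]
  exact Subgroup.card_eq_card_quotient_mul_card_subgroup _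

theorem over_one_iff (N : Subgroup G) [Fintype N] (χ : G → ℂ) :
    Over N.subtype χ (1 : N → ℂ) ↔ ∑ n : N, χ n ≠ 0 := by
  rw [over_iff, classInner_def]
  have h0 : (Nat.card N : ℂ)⁻¹ ≠ 0 := inv_ne_zero (by exact_mod_cast Nat.card_pos.ne')
  have h1 : ∀ n : N, (χ ∘ N.subtype) n * conj ((1 : N → ℂ) n) = χ n := fun n => by simp
  rw [Finset.sum_congr rfl fun n _ => h1 n]
  constructor
  · exact fun h => right_ne_zero_of_mul h
  · exact fun h => mul_ne_zero h0 h

/-- Irreducible characters over the trivial character. -/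
theorem card_over_one (N : Subgroup G) [N.Normal] :
    nOver N (1 : N → ℂ) = Nat.card (ConjClasses (G ⧸ N)) := by
  classical
  letI := Fintype.ofFinite N
  rw [← card_irr]
  symm
  refine Nat.card_congr (Equiv.ofBijective (fun χ : IrrCharacter (G ⧸ N) =>
    (⟨⟨(χ : G ⧸ N → ℂ) ∘ QuotientGroup.mk, isIrr_comp (QuotientGroup.mk' N)
      (QuotientGroup.mk'_surjective N) χ.2⟩, ?_⟩ :
      {χ : IrrCharacter G // Over N.subtype (χ : G → ℂ) (1 : N → ℂ)})) ⟨?_, ?_⟩)
  · rw [over_one_iff]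
    have h1 : ∀ n : N, ((χ : G ⧸ N → ℂ) ∘ QuotientGroup.mk) (n : G) = (χ : G ⧸ N → ℂ) 1 := by
      intro n
      rw [Function.comp_apply, (QuotientGroup.eq_one_iff (n : G)).2 n.2]
    change ∑ n : N, ((χ : G ⧸ N → ℂ) ∘ QuotientGroup.mk) (n : G) ≠ 0
    rw [Finset.sum_congr rfl fun n _ => h1 n, Finset.sum_const, Finset.card_univ, nsmul_eq_mul]
    refine mul_ne_zero ?_ (isIrr_apply_one_ne_zero χ.2)
    exact_mod_cast Fintype.card_ne_zero
  · intro χ χ' h
    apply Subtype.ext
    funext q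
    obtain ⟨g, rfl⟩ := QuotientGroup.mk_surjective q
    exact congrFun (congrArg (fun z : {χ : IrrCharacter G // Over N.subtype (χ : G → ℂ)
      (1 : N → ℂ)} => ((z : IrrCharacter G) : G → ℂ)) h) g
  · rintro ⟨χ, hχ⟩
    obtain ⟨χ', h⟩ := Blocks.Deflate.exists_deflation N (χ : G → ℂ) χ.2
      ((over_one_iff N (χ : G → ℂ)).1 hχ)
    exact ⟨χ', Subtype.ext (Subtype.ext h.symm)⟩

theorem over_iff_ind (N : Subgroup G) [Fintype G] {θ : N → ℂ} {ψ : G → ℂ}
    (hψ : IsIrrCharacter G ψ) : Over N.subtype ψ θ ↔ classInner (indFun N θ) ψ ≠ 0 := by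
  classical
  letI := Fintype.ofFinite N
  rw [over_iff, IndRes.classInner_indFun_left N θ (isIrr_isClassFunction hψ)]
  have h1 : classInner (ψ ∘ N.subtype) θ = conj (classInner θ (IndRes.res N ψ)) := by
    rw [classInner_conj_symm]
    rfl
  rw [h1]
  exact map_ne_zero _

theorem one_isIrr (N : Subgroup G) : IsIrrCharacter N (1 : N → ℂ) := isIrr_one

/-- If `θ` extends to its stabilizer then equality holds in `nOver_le`. -/
theorem nOver_eq {R : Type v} [Group R]
    (N : Subgroup G) [hN : N.Normal] (hcop : (Nat.card N).Coprime N.index)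
    {θ : N → ℂ} (hθ : IsIrrCharacter N θ)
    (T : Subgroup G) (hT : T = inertia N θ) (f : T →* R) (hf : Function.Surjective f)
    (hk : f.ker = N.subgroupOf T) :
    nOver N θ = Nat.card (ConjClasses R) := by
  classical
  have hNT : N ≤ T := by rw [hT]; exact le_inertia (isIrr_isClassFunction hθ)
  letI := Fintype.ofFinite T
  letI := Fintype.ofFinite (N.subgroupOf T)
  rw [nOver_clifford N hθ T hT hNT,
    ← conjClasses_card_congr (quotEquiv f hf hk), ← card_over_one]
  set K : Subgroup T := N.subgroupOf T with hK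
  set θ' : K → ℂ := PF9.CliffGen.down N T θ with hθ'
  have hθi : IsIrrCharacter K θ' := isIrr_down hNT hθ
  have hinv := down_inv hT
  have hcop' : (Nat.card K).Coprime K.index := by
    have h1 : Nat.card K = Nat.card N := Nat.card_congr (Subgroup.subgroupOfEquivOfLe hNT).toEquiv
    rw [h1]
    exact Nat.Coprime.coprime_dvd_right (Subgroup.relIndex_dvd_index_of_normal N T) hcop
  obtain ⟨χ, hχ, -⟩ := H595.Count.canon K hcop' ⟨θ', hθi⟩ hinv
  have hbij := S0856.result K (1 : K → ℂ) θ' (one_isIrr K) hθi (fun _ _ => rfl) hinv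
    (by rw [one_mul]; exact hθi) (χ : T → ℂ) χ.2 hχ
  rw [one_mul] at hbij
  symm
  have e1 : ∀ ψ : T → ℂ, Over (Subgroup.inclusion hNT) ψ θ ↔ Over K.subtype ψ θ' := fun ψ =>
    over_iff_sub hNT ψ θ
  refine Nat.card_congr (Equiv.ofBijective (fun β : {β : IrrCharacter T //
    Over K.subtype (β : T → ℂ) (1 : K → ℂ)} => (⟨⟨(β.1 : T → ℂ) * χ, ?_⟩, ?_⟩ :
      {ψ : IrrCharacter T // Over (Subgroup.inclusion hNT) (ψ : T → ℂ) θ})) ⟨?_, ?_⟩)
  · exact (hbij.mapsTo ⟨β.1.2, (over_iff_ind K β.1.2).1 β.2⟩).1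
  · have h1 := hbij.mapsTo ⟨β.1.2, (over_iff_ind K β.1.2).1 β.2⟩
    exact (e1 _).2 ((over_iff_ind K h1.1).2 h1.2)
  · intro β β' h
    have h1 : (β.1 : T → ℂ) * χ = (β'.1 : T → ℂ) * χ :=
      congrArg (fun z : {ψ : IrrCharacter T // Over (Subgroup.inclusion hNT) (ψ : T → ℂ) θ} =>
        ((z : IrrCharacter T) : T → ℂ)) h
    exact Subtype.ext (Subtype.ext (hbij.injOn ⟨β.1.2, (over_iff_ind K β.1.2).1 β.2⟩
      ⟨β'.1.2, (over_iff_ind K β'.1.2).1 β'.2⟩ h1))
  · rintro ⟨ψ, hψ⟩
    obtain ⟨β, ⟨hβ1, hβ2⟩, hβ3⟩ := hbij.surjOn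
      ⟨ψ.2, (over_iff_ind K ψ.2).1 ((e1 _).1 hψ)⟩
    exact ⟨⟨⟨β, hβ1⟩, (over_iff_ind K hβ1).2 hβ2⟩, Subtype.ext (Subtype.ext hβ3)⟩

theorem inertia_le_of {N : Subgroup G} [hN : N.Normal] {T : Subgroup G} {Ω : Set (IrrCharacter N)}
    (htr : ∀ (g : G), ∀ θ ∈ Ω, ∀ θ' ∈ Ω, (θ' : N → ℂ) = conjFn N (θ : N → ℂ) g → g ∈ T)
    {θ : IrrCharacter N} (hθ : θ ∈ Ω) : inertia N (θ : N → ℂ) ≤ T :=
  fun g hg => htr g θ hθ θ hθ (mem_inertia.1 hg).symm

theorem over_conj (N : Subgroup G) [hN : N.Normal] (χ : IrrCharacter G) {θ : N → ℂ}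
    (h : Over N.subtype (χ : G → ℂ) θ) (g : G) : Over N.subtype (χ : G → ℂ) (conjFn N θ g) := by
  classical
  letI := Fintype.ofFinite N
  letI := Fintype.ofFinite G
  rw [over_iff] at h ⊢
  have h1 : (χ : G → ℂ) ∘ N.subtype = conjFn N ((χ : G → ℂ) ∘ N.subtype) g := by
    funext n
    exact (isIrr_isClassFunction χ.2 (n : G) g).symm
  rw [h1, IndRes.classInner_conjFn]
  exact h

theorem exists_conjFn_of_over (N : Subgroup G) [hN : N.Normal] {χ : G → ℂ}
    (hχ : IsIrrCharacter G χ) {θ θ' : N → ℂ} (hθ : IsIrrCharacter N θ) (hθ' : IsIrrCharacter N θ')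
    (h : Over N.subtype χ θ) (h' : Over N.subtype χ θ') : ∃ g : G, θ' = conjFn N θ g := by
  classical
  letI := Fintype.ofFinite N
  letI := Fintype.ofFinite G
  have h1 : classInner (fun n : N => χ n) θ ≠ 0 := (over_iff N.subtype χ θ).1 h
  have h2 : classInner (fun n : N => χ n) θ' ≠ 0 := (over_iff N.subtype χ θ').1 h'
  obtain ⟨g, hg⟩ := exists_conj_of_constituents N hχ hθ hθ' h1 h2
  refine ⟨g, ?_⟩
  rw [hg]
  funext n
  rw [Function.comp_apply, conjFn_apply]
  congr 1

/-- The elements carrying `θ₀` to `θ`. -/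
theorem card_fiber (N : Subgroup G) [hN : N.Normal] (T : Subgroup G) {θ₀ θ : N → ℂ} {g₀ : G}
    (hg₀T : g₀ ∈ T) (hg₀ : θ = conjFn N θ₀ g₀) (hle : inertia N θ ≤ T) :
    Nat.card {g : T // conjFn N θ₀ (g : G) = θ} = Nat.card (inertia N θ) := by
  refine Nat.card_congr ⟨fun g => ⟨g₀⁻¹ * g.1, ?_⟩, fun s => ⟨⟨g₀ * s, T.mul_mem hg₀T (hle s.2)⟩, ?_⟩,
    fun g => ?_, fun s => ?_⟩
  · have h1 : conjFn N θ g₀⁻¹ = θ₀ := by
      rw [hg₀, ← conjFn_mul, mul_inv_cancel, conjFn_one]
    rw [mem_inertia, conjFn_mul, h1, g.2]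
  · change conjFn N θ₀ (g₀ * s) = θ
    rw [conjFn_mul, ← hg₀]
    exact mem_inertia.1 s.2
  · exact Subtype.ext (Subtype.ext (mul_inv_cancel_left g₀ (g.1 : G)))
  · exact Subtype.ext (inv_mul_cancel_left g₀ (s : G))

/-- The orbit count for one character. -/
theorem count_one (N : Subgroup G) [hN : N.Normal] (T : Subgroup G) (Ω : Set (IrrCharacter N))
    (hst : ∀ g ∈ T, ∀ θ ∈ Ω, ∀ θ' : IrrCharacter N, (θ' : N → ℂ) = conjFn N (θ : N → ℂ) g → θ' ∈ Ω)
    (htr : ∀ (g : G), ∀ θ ∈ Ω, ∀ θ' ∈ Ω, (θ' : N → ℂ) = conjFn N (θ : N → ℂ) g → g ∈ T)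
    (χ : IrrCharacter G) (h : ∃ θ ∈ Ω, Over N.subtype (χ : G → ℂ) (θ : N → ℂ))
    (S : Finset (IrrCharacter N))
    (hS : ∀ θ, θ ∈ S ↔ θ ∈ Ω ∧ Over N.subtype (χ : G → ℂ) (θ : N → ℂ)) :
    Nat.card T = ∑ θ ∈ S, Nat.card (inertia N (θ : N → ℂ)) := by
  classical
  letI := Fintype.ofFinite N
  letI := Fintype.ofFinite G
  letI := Fintype.ofFinite T
  obtain ⟨θ₀, hθ₀, h0⟩ := h
  let F : T → IrrCharacter N := fun g => ⟨conjFn N (θ₀ : N → ℂ) g, IndRes.isIrr_conjFn N θ₀.2 g⟩
  have hF : ∀ g ∈ (Finset.univ : Finset T), F g ∈ S := fun g _ =>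
    (hS _).2 ⟨hst g g.2 θ₀ hθ₀ _ rfl, over_conj N χ h0 g⟩
  rw [Nat.card_eq_fintype_card, ← Finset.card_univ, Finset.card_eq_sum_card_fiberwise hF]
  refine Finset.sum_congr rfl fun θ hθ => ?_
  obtain ⟨hθΩ, hθo⟩ := (hS θ).1 hθ
  obtain ⟨g₀, hg₀'⟩ := exists_conjFn_of_over N χ.2 θ₀.2 θ.2 h0 hθo
  rw [← card_fiber N T (htr g₀ θ₀ hθ₀ θ hθΩ hg₀') hg₀' (inertia_le_of htr hθΩ),
    Nat.card_eq_fintype_card, Fintype.card_subtype]
  congr 1
  ext g
  rw [Finset.mem_filter, Finset.mem_filter, Subtype.ext_iff]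

/-- **The number of the irreducible characters over a set of characters.** -/
theorem count_over (N : Subgroup G) [hN : N.Normal] (T : Subgroup G) (Ω : Set (IrrCharacter N))
    (hst : ∀ g ∈ T, ∀ θ ∈ Ω, ∀ θ' : IrrCharacter N, (θ' : N → ℂ) = conjFn N (θ : N → ℂ) g → θ' ∈ Ω)
    (htr : ∀ (g : G), ∀ θ ∈ Ω, ∀ θ' ∈ Ω, (θ' : N → ℂ) = conjFn N (θ : N → ℂ) g → g ∈ T)
    (Ωf : Finset (IrrCharacter N)) (hΩf : ∀ θ, θ ∈ Ωf ↔ θ ∈ Ω) :
    Nat.card {χ : IrrCharacter G // ∃ θ ∈ Ω, Over N.subtype (χ : G → ℂ) (θ : N → ℂ)} * Nat.card T =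
      ∑ θ ∈ Ωf, nOver N (θ : N → ℂ) * Nat.card (inertia N (θ : N → ℂ)) := by
  classical
  haveI := finite_irr (G := G)
  letI := Fintype.ofFinite (IrrCharacter G)
  have h1 : ∀ θ : IrrCharacter N, nOver N (θ : N → ℂ) = ∑ χ : IrrCharacter G,
      if Over N.subtype (χ : G → ℂ) (θ : N → ℂ) then 1 else 0 := by
    intro θ
    rw [nOver, Nat.card_eq_fintype_card, Fintype.card_subtype, Finset.card_filter]
  have h2 : ∀ θ ∈ Ωf, nOver N (θ : N → ℂ) * Nat.card (inertia N (θ : N → ℂ)) =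
      ∑ χ : IrrCharacter G, if Over N.subtype (χ : G → ℂ) (θ : N → ℂ) then
        Nat.card (inertia N (θ : N → ℂ)) else 0 := by
    intro θ _
    rw [h1 θ, Finset.sum_mul]
    exact Finset.sum_congr rfl fun χ _ => by rw [ite_mul, one_mul, zero_mul]
  rw [Finset.sum_congr rfl h2, Finset.sum_comm, Nat.card_eq_fintype_card, Fintype.card_subtype,
    Finset.card_filter, Finset.sum_mul]
  refine Finset.sum_congr rfl fun χ _ => ?_
  rw [← Finset.sum_filter]
  by_cases hχ : ∃ θ ∈ Ω, Over N.subtype (χ : G → ℂ) (θ : N → ℂ)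
  · rw [if_pos hχ, one_mul]
    exact count_one N T Ω hst htr χ hχ _ fun θ => by rw [Finset.mem_filter, hΩf]
  · rw [if_neg hχ, zero_mul]
    symm
    refine Finset.sum_eq_zero fun θ hθ => ?_
    rw [Finset.mem_filter, hΩf] at hθ
    exact absurd ⟨θ, hθ⟩ hχ

end Cfsg.Agent.H716.KGV
end

-- part: H716/KGV/Comp
section
/-!
# A group of automorphisms of a normal `p`-subgroup modulo inner automorphisms

`exists_comp` : if `D` is a normal `p`-subgroup of `G`, `D C_G(D) ≤ T` of index prime to `p` in `T`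
then `T / D C_G(D)` is isomorphic to a `p'`-group `H` of automorphisms of `D` with the same action
modulo inner automorphisms.
-/

set_option autoImplicit false

namespace Cfsg.Agent.H716.KGV

open Subgroup

universe u

theorem conj_range_normal {D : Type*} [Group D] : (MulAut.conj : D →* MulAut D).range.Normal := by
  constructor
  rintro _ ⟨d, rfl⟩ β
  refine ⟨β d, ?_⟩
  ext x
  simp [MulAut.conj_apply]

theorem exists_comp {G : Type u} [Group G] [Finite G] {p : ℕ} [hp : Fact p.Prime]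
    (D T : Subgroup G) [hDn : D.Normal] (hD : IsPGroup p D)
    (hNT : D ⊔ centralizer (D : Set G) ≤ T)
    (hidx : ¬ p ∣ (D ⊔ centralizer (D : Set G)).relIndex T) :
    ∃ (H : Type u) (_ : Group H) (_ : Finite H) (π : T →* H) (α : H →* MulAut D),
      Function.Surjective π ∧ π.ker = (D ⊔ centralizer (D : Set G)).subgroupOf T ∧
      ¬ p ∣ Nat.card H ∧ (∀ h, (∃ d : D, α h = MulAut.conj d) → h = 1) ∧
      ∀ t : T, ∃ d : D, (MulAut.conjNormal (t : G) : MulAut D) = MulAut.conj d * α (π t) := by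
  classical
  have hDT : D ≤ T := le_sup_left.trans hNT
  let φ : T →* MulAut D := (MulAut.conjNormal : G →* MulAut D).comp T.subtype
  set A : Subgroup (MulAut D) := φ.range with hA
  set J : Subgroup (MulAut D) := (MulAut.conj : D →* MulAut D).range with hJ
  have hJn : J.Normal := conj_range_normal
  set I : Subgroup A := J.subgroupOf A with hI
  have hIn : I.Normal := inferInstance
  have hφs : Function.Surjective φ.rangeRestrict := φ.rangeRestrict_surjective
  have hcomap : I.comap φ.rangeRestrict = (D ⊔ centralizer (D : Set G)).subgroupOf T := by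
    ext t
    rw [mem_comap, hI, mem_subgroupOf, mem_subgroupOf]
    constructor
    · rintro ⟨d, hd⟩
      have h1 : ∀ x : D, (d : G) * x * (d : G)⁻¹ = (t : G) * x * (t : G)⁻¹ := by
        intro x
        have h2 := congrArg (fun β : MulAut D => ((β x : D) : G)) hd
        simpa [MulAut.conj_apply, φ, MulAut.conjNormal_apply] using h2
      have h3 : (d : G)⁻¹ * t ∈ centralizer (D : Set G) := by
        rw [mem_centralizer_iff]
        intro x hx
        have h4 := h1 ⟨x, hx⟩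
        change (d : G) * x * (d : G)⁻¹ = (t : G) * x * (t : G)⁻¹ at h4
        have h5 : (d : G)⁻¹ * ((d : G) * x * (d : G)⁻¹) * t =
            (d : G)⁻¹ * ((t : G) * x * (t : G)⁻¹) * t := by rw [h4]
        have e1 : (d : G)⁻¹ * ((d : G) * x * (d : G)⁻¹) * t = x * ((d : G)⁻¹ * t) := by group
        have e2 : (d : G)⁻¹ * ((t : G) * x * (t : G)⁻¹) * t = (d : G)⁻¹ * t * x := by group
        rw [← e1, ← e2, h5]
      have h6 : (t : G) = d * ((d : G)⁻¹ * t) := by group
      rw [h6]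
      exact mul_mem_sup d.2 h3
    · intro ht
      obtain ⟨d, hd, c, hc, hdc⟩ := mem_sup_of_normal_left.1 ht
      refine ⟨⟨d, hd⟩, ?_⟩
      ext x
      have h7 := mem_centralizer_iff.1 hc x x.2
      have h8 : ((φ.rangeRestrict t : A) : MulAut D) x = MulAut.conjNormal (t : G) x := rfl
      rw [h8, MulAut.conjNormal_apply, MulAut.conj_apply, ← hdc]
      change d * x * d⁻¹ = d * c * x * (d * c)⁻¹
      have e3 : d * c * x * (d * c)⁻¹ = d * (c * x) * c⁻¹ * d⁻¹ := by group
      rw [e3, ← h7]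
      group
  have hIidx : ¬ p ∣ I.index := by
    have h1 := Subgroup.index_comap_of_surjective I hφs
    rw [hcomap] at h1
    rw [← h1]
    exact hidx
  have hIp : IsPGroup p I := by
    have h1 : IsPGroup p J := hD.of_surjective (MulAut.conj : D →* MulAut D).rangeRestrict
      (MulAut.conj : D →* MulAut D).rangeRestrict_surjective
    exact h1.comap_of_injective A.subtype A.subtype_injective
  have hcop : (Nat.card I).Coprime I.index := by
    obtain ⟨n, hn⟩ := (IsPGroup.iff_card (p := p)).1 hIp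
    rw [hn]
    exact Nat.Coprime.pow_left n ((Nat.Prime.coprime_iff_not_dvd hp.out).2 hIidx)
  obtain ⟨K, hK⟩ := Subgroup.exists_right_complement'_of_coprime hcop
  let e := (hK.symm).QuotientMulEquiv
  let π : T →* K := e.toMonoidHom.comp ((QuotientGroup.mk' I).comp φ.rangeRestrict)
  have hker : π.ker = I.comap φ.rangeRestrict := by
    ext t
    rw [MonoidHom.mem_ker, mem_comap]
    change e (QuotientGroup.mk' I (φ.rangeRestrict t)) = 1 ↔ _
    rw [map_eq_one_iff e e.injective]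
    exact QuotientGroup.eq_one_iff _
  have hesymm : ∀ k : K, e.symm k = QuotientGroup.mk (k : A) := fun k => rfl
  refine ⟨K, inferInstance, inferInstance, π, A.subtype.comp K.subtype, ?_, ?_, ?_, ?_, ?_⟩
  · exact e.surjective.comp ((QuotientGroup.mk'_surjective I).comp hφs)
  · rw [hker, hcomap]
  · rw [← Nat.card_congr e.toEquiv]
    exact hIidx
  · rintro k ⟨d, hd⟩
    have h1 : (k : A) ∈ I := ⟨d, hd.symm⟩
    have h2 := (hK.disjoint.le_bot ⟨h1, k.2⟩ : (k : A) ∈ (⊥ : Subgroup A))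
    exact Subtype.ext (Subgroup.mem_bot.1 h2)
  · intro t
    have h1 : (QuotientGroup.mk ((π t : K) : A) : A ⧸ I) = QuotientGroup.mk (φ.rangeRestrict t) := by
      rw [← hesymm]
      exact e.symm_apply_apply _
    have h2 := QuotientGroup.eq.1 h1
    have h3 : (φ.rangeRestrict t) * ((π t : K) : A)⁻¹ ∈ I := by
      have := hIn.conj_mem _ h2 ((π t : K) : A)
      have e1 : ((π t : K) : A) * (((π t : K) : A)⁻¹ * φ.rangeRestrict t) * ((π t : K) : A)⁻¹ =
          (φ.rangeRestrict t) * ((π t : K) : A)⁻¹ := by group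
      rwa [e1] at this
    obtain ⟨d, hd⟩ := h3
    refine ⟨d, ?_⟩
    rw [hd]
    change _ = ((φ.rangeRestrict t) * ((π t : K) : A)⁻¹ : MulAut D) * _
    simp [φ]

end Cfsg.Agent.H716.KGV
end

-- part: H716/KGV/Grp
section
/-!
# The k(GV) theorem for groups with a normal Sylow `p`-subgroup

`class_le` : if `D` is a normal Sylow `p`-subgroup of `X` with `C_X(D) ≤ D` and `K ≤ Φ(D)` is normal
in `X`, then `X / K` has at most `|D : K|` conjugacy classes.
-/

set_option autoImplicit false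

namespace Cfsg.Agent.H716.KGV

open Subgroup Cfsg.Agent.H644.KGV
open scoped commutatorElement

universe u

theorem conjClasses_congr {A B : Type*} [Group A] [Group B] (e : A ≃* B) :
    Nat.card (ConjClasses A) = Nat.card (ConjClasses B) := by
  refine Nat.card_congr (Equiv.ofBijective (ConjClasses.map (e : A →* B))
    ⟨?_, ConjClasses.map_surjective e.surjective⟩)
  intro x y h
  obtain ⟨a, rfl⟩ := ConjClasses.mk_surjective x
  obtain ⟨b, rfl⟩ := ConjClasses.mk_surjective y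
  have h1 : IsConj (e a) (e b) := ConjClasses.mk_eq_mk_iff_isConj.1 h
  obtain ⟨c, hc⟩ := isConj_iff.1 h1
  refine ConjClasses.mk_eq_mk_iff_isConj.2 (isConj_iff.2 ⟨e.symm c, e.injective ?_⟩)
  rw [map_mul, map_mul, map_inv, e.apply_symm_apply]
  exact hc

theorem conjClasses_le_card {A : Type*} [Group A] [Finite A] :
    Nat.card (ConjClasses A) ≤ Nat.card A :=
  Nat.card_le_card_of_surjective _ ConjClasses.mk_surjective

/-- The kernel of the action on the Frattini quotient. -/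
theorem mem_of_frattini {X : Type u} [Group X] [Finite X] {p : ℕ} [hp : Fact p.Prime]
    (D : Subgroup X) [D.Normal] (hD : IsPGroup p D) (hidx : ¬ p ∣ D.index)
    (hC : centralizer (D : Set X) ≤ D) {x : X}
    (hx : ∀ d ∈ D, x * d * x⁻¹ * d⁻¹ ∈ (frattini D).map D.subtype) : x ∈ D := by
  have hFn : ((frattini D).map D.subtype).Normal := inferInstance
  -- the set of these elements is a normal subgroup
  let C : Subgroup X :=
    { carrier := {x | ∀ d ∈ D, x * d * x⁻¹ * d⁻¹ ∈ (frattini D).map D.subtype}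
      one_mem' := by intro d _; simp
      mul_mem' := by
        intro a b ha hb d hd
        have h1 := ha (b * d * b⁻¹) (Subgroup.Normal.conj_mem ‹_› d hd b)
        have h2 := hb d hd
        have e : a * b * d * (a * b)⁻¹ * d⁻¹ =
            (a * (b * d * b⁻¹) * a⁻¹ * (b * d * b⁻¹)⁻¹) * (b * d * b⁻¹ * d⁻¹) := by group
        rw [e]
        exact mul_mem h1 h2
      inv_mem' := by
        intro a ha d hd
        have h1 := ha (a⁻¹ * d * a) (by
          have := Subgroup.Normal.conj_mem ‹D.Normal› d hd a⁻¹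
          rwa [inv_inv] at this)
        have e : a⁻¹ * d * a⁻¹⁻¹ * d⁻¹ =
            (a * (a⁻¹ * d * a) * a⁻¹ * (a⁻¹ * d * a)⁻¹)⁻¹ := by group
        rw [e]
        exact inv_mem h1 }
  have hmemC : ∀ y : X, y ∈ C ↔ ∀ d ∈ D, y * d * y⁻¹ * d⁻¹ ∈ (frattini D).map D.subtype :=
    fun y => Iff.rfl
  have hDn : ∀ y : X, y ∈ normalizer (D : Set X) := fun y => by
    rw [Subgroup.normalizer_eq_top_iff.2 ‹D.Normal›]
    exact mem_top y
  -- a `p'`-element of `C` is trivial
  have hp' : ∀ y ∈ C, ¬ p ∣ orderOf y → y = 1 := by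
    intro y hy hpy
    have h1 : zpowers y ≤ centralizer (D : Set X) := by
      refine S0029.result (zpowers y) D (fun z _ => hDn z) ?_ ?_
      · rw [Nat.card_zpowers]
        obtain ⟨n, hn⟩ := (IsPGroup.iff_card (p := p)).1 (hD.to_subgroup (frattini D))
        rw [hn]
        exact Nat.Coprime.pow_right n (Nat.Coprime.symm ((Nat.Prime.coprime_iff_not_dvd hp.out).2 hpy))
      · rintro z hz d hd
        exact (hmemC z).1 ((Subgroup.zpowers_le.2 hy) hz) d hd
    have h2 : y ∈ D := hC (h1 (mem_zpowers y))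
    obtain ⟨n, hn⟩ := (IsPGroup.iff_orderOf.1 hD) ⟨y, h2⟩
    rw [Subgroup.orderOf_mk] at hn
    rcases Nat.eq_zero_or_pos n with h0 | h0
    · rw [h0, pow_zero] at hn
      exact orderOf_eq_one_iff.1 hn
    · exact absurd (hn ▸ dvd_pow_self p h0.ne') hpy
  have hCp : IsPGroup p C := by
    intro y
    obtain ⟨k, m, hm, hkm⟩ := Nat.exists_eq_pow_mul_and_not_dvd (orderOf_pos (y : X)).ne' p
      hp.out.ne_one
    refine ⟨k, ?_⟩
    have h1 : orderOf ((y : X) ^ p ^ k) = m := by
      rw [orderOf_pow' _ (pow_ne_zero k hp.out.ne_zero), hkm,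
        Nat.gcd_eq_right (Dvd.intro _ rfl), Nat.mul_div_cancel_left _ (pow_pos hp.out.pos k)]
    have h2 := hp' ((y : X) ^ p ^ k) (pow_mem y.2 _) (by rw [h1]; exact hm)
    exact Subtype.ext h2
  have hfr := S0012.result p hD
  have hDC : D ≤ C := by
    intro d hd
    rw [hmemC]
    intro e he
    have h5 : (⁅(⟨d, hd⟩ : D), (⟨e, he⟩ : D)⁆ : D) ∈ frattini D :=
      hfr.1 (Subgroup.commutator_mem_commutator (Subgroup.mem_top _) (Subgroup.mem_top _))
    exact Subgroup.mem_map_of_mem D.subtype h5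
  have h3 : D.relIndex C = 1 := by
    have h4 : D.relIndex C ∣ D.index := Subgroup.relIndex_dvd_index_of_le hDC
    obtain ⟨n, hn⟩ := (IsPGroup.iff_card (p := p)).1 hCp
    have h5 : D.relIndex C ∣ p ^ n := by
      rw [← hn]
      exact Subgroup.relIndex_dvd_card D C
    obtain ⟨j, -, hj⟩ := (Nat.dvd_prime_pow hp.out).1 h5
    rcases Nat.eq_zero_or_pos j with h0 | h0
    · rw [hj, h0, pow_zero]
    · exact absurd ((hj ▸ dvd_pow_self p h0.ne' : p ∣ D.relIndex C).trans h4) hidx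
  exact (Subgroup.relIndex_eq_one.1 h3) hx

/-- **The k(GV) theorem for groups with a normal Sylow subgroup.** -/
theorem class_le (h : MainKGV.{u}) {X : Type u} [Group X] [Finite X] {p : ℕ} [hp : Fact p.Prime]
    (D K : Subgroup X) [D.Normal] [K.Normal] (hD : IsPGroup p D) (hidx : ¬ p ∣ D.index)
    (hC : centralizer (D : Set X) ≤ D) (hK : K ≤ (frattini D).map D.subtype) :
    Nat.card (ConjClasses (X ⧸ K)) ≤ K.relIndex D := by
  set F : Subgroup X := (frattini D).map D.subtype with hF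
  have hFn : F.Normal := inferInstance
  have hFD : F ≤ D := Subgroup.map_subtype_le _
  have hfr := S0012.result p hD
  -- the Frattini quotient
  set V : Subgroup (X ⧸ F) := D.map (QuotientGroup.mk' F) with hV
  have hVn : V.Normal := Subgroup.Normal.map ‹_› _ (QuotientGroup.mk'_surjective F)
  have h1 : Nat.card (ConjClasses (X ⧸ F)) ≤ F.relIndex D := by
    have hker : F.relIndex D = Nat.card V := by
      rw [hV, ← Subgroup.relIndex_ker, QuotientGroup.ker_mk']
    rw [hker]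
    refine (h p (X ⧸ F) V ?_ ?_ ?_).1
    · rintro v ⟨d, hd, rfl⟩
      rw [← map_pow]
      refine (QuotientGroup.eq_one_iff _).2 ?_
      exact ⟨(⟨d, hd⟩ : D) ^ p, hfr.2 _, rfl⟩
    · rw [hV, Subgroup.index_map, QuotientGroup.ker_mk', sup_eq_left.2 hFD]
      have h2 : (QuotientGroup.mk' F).range = ⊤ :=
        MonoidHom.range_eq_top.2 (QuotientGroup.mk'_surjective F)
      rw [h2, Subgroup.index_top, mul_one]
      exact hidx
    · apply le_antisymm
      · intro q hq
        obtain ⟨x, rfl⟩ := QuotientGroup.mk_surjective q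
        refine ⟨x, mem_of_frattini D hD hidx hC fun d hd => ?_, rfl⟩
        have h3 := mem_centralizer_iff.1 hq (QuotientGroup.mk' F d) ⟨d, hd, rfl⟩
        rw [← hF]
        refine (QuotientGroup.eq_one_iff _).1 ?_
        have h4 : (QuotientGroup.mk (x * d * x⁻¹ * d⁻¹) : X ⧸ F) =
            (QuotientGroup.mk x) * (QuotientGroup.mk' F d) * (QuotientGroup.mk x)⁻¹ *
              (QuotientGroup.mk' F d)⁻¹ := rfl
        rw [h4, ← h3]
        group
      · rintro v ⟨d, hd, rfl⟩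
        rw [mem_centralizer_iff]
        rintro w ⟨e, he, rfl⟩
        rw [← map_mul, ← map_mul]
        refine QuotientGroup.eq.2 ?_
        have h5 : (⁅(⟨d, hd⟩ : D)⁻¹, (⟨e, he⟩ : D)⁻¹⁆ : D) ∈ frattini D :=
          hfr.1 (Subgroup.commutator_mem_commutator (Subgroup.mem_top _) (Subgroup.mem_top _))
        have h6 := Subgroup.mem_map_of_mem D.subtype h5
        have e7 : (e * d)⁻¹ * (d * e) = D.subtype ⁅(⟨d, hd⟩ : D)⁻¹, (⟨e, he⟩ : D)⁻¹⁆ := by
          rw [map_commutatorElement, commutatorElement_def]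
          simp [mul_assoc]
        rw [e7]
        exact h6
  -- the rest
  set N : Subgroup (X ⧸ K) := F.map (QuotientGroup.mk' K) with hN
  have hNn : N.Normal := Subgroup.Normal.map hFn _ (QuotientGroup.mk'_surjective K)
  have h2 := Cfsg.Agent.H540.ClassNum.le_normal_mul_quotient N
  have h3 : Nat.card (ConjClasses N) ≤ K.relIndex F := by
    have h4 : K.relIndex F = Nat.card N := by
      rw [hN, ← Subgroup.relIndex_ker, QuotientGroup.ker_mk']
    rw [h4]
    exact conjClasses_le_card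
  have h5 : Nat.card (ConjClasses ((X ⧸ K) ⧸ N)) = Nat.card (ConjClasses (X ⧸ F)) :=
    conjClasses_congr (QuotientGroup.quotientQuotientEquivQuotient K F hK)
  rw [h5] at h2
  refine h2.trans ((Nat.mul_le_mul h3 h1).trans ?_)
  rw [Subgroup.relIndex_mul_relIndex K F D hK hFD]

end Cfsg.Agent.H716.KGV
end

-- part: H716/KGV/Sum
section
/-!
# The sum `∑ k(H_ζ) |H_ζ|` over the irreducible characters of `D`

`H` is a `p'`-group acting on the `p`-group `D`, faithfully modulo inner automorphisms. Then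
`∑_{ζ ∈ Irr(D)} k(H_ζ) |H_ζ| ≤ |D| |H|` and `∑_{ζ ∈ Lin(D)} k(H_ζ) |H_ζ| ≤ |D : D'| |H|`.
-/

set_option autoImplicit false
set_option linter.style.haveILetI false
set_option linter.unusedSectionVars false
open Cfsg

namespace Cfsg.Agent.H716.KGV

open Cfsg.Agent.Characters.Core Cfsg.Agent.H644.KGV
open Cfsg.Agent.H672 hiding inertia mem_inertia le_inertia
open Cfsg.Agent.OddOrderCharacters Cfsg.Agent.OddOrderCharacters.NormalInduced
open Cfsg.Agent.OddOrderCharacters.PF9.CliffGen (inertia mem_inertia le_inertia)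
open scoped ComplexConjugate

universe u

variable {D H : Type u} [Group D] [Group H]

/-- The stabilizer of a function on `D`. -/
def stabH (α : H →* MulAut D) (ζ : D → ℂ) : Subgroup H where
  carrier := {h | ∀ x, ζ (α h x) = ζ x}
  one_mem' := fun x => by rw [map_one]; rfl
  mul_mem' := by
    intro a b ha hb x
    rw [map_mul, MulAut.mul_apply, ha, hb]
  inv_mem' := by
    intro a ha x
    have h1 := ha ((α a)⁻¹ x)
    rw [MulAut.apply_inv_self] at h1
    rw [map_inv, h1]

theorem mem_stabH {α : H →* MulAut D} {ζ : D → ℂ} {h : H} :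
    h ∈ stabH α ζ ↔ ∀ x, ζ (α h x) = ζ x := Iff.rfl

section X

variable (α : H →* MulAut D)

/-- The normal subgroup `D` of the semidirect product. -/
abbrev DX : Subgroup (D ⋊[α] H) := (SemidirectProduct.inl : D →* D ⋊[α] H).range

theorem mem_DX (x : D ⋊[α] H) : x ∈ DX α ↔ x.right = 1 := by
  rw [DX, SemidirectProduct.range_inl_eq_ker_rightHom, MonoidHom.mem_ker]
  rfl

instance : (DX α).Normal := by
  rw [DX, SemidirectProduct.range_inl_eq_ker_rightHom]
  infer_instance

/-- `D` as a subgroup of the semidirect product. -/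
noncomputable def eX : D ≃* DX α := MonoidHom.ofInjective SemidirectProduct.inl_injective

theorem coe_eX (d : D) : ((eX α d : DX α) : D ⋊[α] H) = SemidirectProduct.inl d := rfl

theorem conj_eX (x : D ⋊[α] H) (d : D) (hx : x * (eX α d : D ⋊[α] H) * x⁻¹ ∈ DX α) :
    (⟨x * (eX α d : D ⋊[α] H) * x⁻¹, hx⟩ : DX α) =
      eX α (x.left * (α x.right d) * x.left⁻¹) := by
  apply Subtype.ext
  change x * (SemidirectProduct.inl d : D ⋊[α] H) * x⁻¹ =
    SemidirectProduct.inl (x.left * (α x.right d) * x.left⁻¹)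
  have h1 : x = SemidirectProduct.inl x.left * SemidirectProduct.inr x.right :=
    (SemidirectProduct.inl_left_mul_inr_right x).symm
  conv_lhs => rw [h1]
  rw [mul_inv_rev, map_mul, map_mul, SemidirectProduct.inl_aut]
  simp only [map_inv, mul_assoc]

/-- Irreducible characters of `D` as characters of the normal subgroup. -/
noncomputable def irrX : IrrCharacter D ≃ IrrCharacter (DX α) where
  toFun ζ := ⟨(ζ : D → ℂ) ∘ (eX α).symm, isIrr_comp (eX α).symm.toMonoidHom
    (eX α).symm.surjective ζ.2⟩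
  invFun θ := ⟨(θ : DX α → ℂ) ∘ (eX α), isIrr_comp (eX α).toMonoidHom (eX α).surjective θ.2⟩
  left_inv ζ := by
    apply Subtype.ext
    funext x
    change (ζ : D → ℂ) ((eX α).symm (eX α x)) = _
    rw [MulEquiv.symm_apply_apply]
  right_inv θ := by
    apply Subtype.ext
    funext x
    change (θ : DX α → ℂ) ((eX α) ((eX α).symm x)) = _
    rw [MulEquiv.apply_symm_apply]

theorem irrX_apply (ζ : IrrCharacter D) (d : D) :
    (irrX α ζ : DX α → ℂ) (eX α d) = (ζ : D → ℂ) d := by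
  change (ζ : D → ℂ) ((eX α).symm (eX α d)) = _
  rw [MulEquiv.symm_apply_apply]

/-- The stabilizer in the semidirect product. -/
theorem mem_inertiaX (ζ : IrrCharacter D) (x : D ⋊[α] H) :
    x ∈ inertia (DX α) (irrX α ζ : DX α → ℂ) ↔ x.right ∈ stabH α (ζ : D → ℂ) := by
  have h1 : ∀ d : D, conjFn (DX α) (irrX α ζ : DX α → ℂ) x (eX α d) =
      (ζ : D → ℂ) (α x.right d) := by
    intro d
    rw [conjFn_apply, conj_eX, irrX_apply]
    exact isIrr_isClassFunction ζ.2 _ _
  rw [mem_inertia, mem_stabH]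
  constructor
  · intro h d
    rw [← h1, h, irrX_apply]
  · intro h
    funext y
    obtain ⟨d, rfl⟩ := (eX α).surjective y
    rw [h1, h, irrX_apply]

variable [Finite D] [Finite H]

instance : Finite (DX α) := Finite.of_equiv D (eX α).toEquiv

/-- The number of the irreducible characters of the semidirect product over a set of characters
of `D` given by the degree. -/
theorem countX (P : ℂ → Prop) (hcop : (Nat.card D).Coprime (Nat.card H))
    (S : Finset (IrrCharacter D)) (hS : ∀ ζ, ζ ∈ S ↔ P ((ζ : D → ℂ) 1)) :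
    Nat.card {χ : IrrCharacter (D ⋊[α] H) // ∃ θ ∈ {θ : IrrCharacter (DX α) |
      P ((θ : DX α → ℂ) 1)}, Over (DX α).subtype (χ : (D ⋊[α] H) → ℂ) (θ : DX α → ℂ)} *
      Nat.card H =
      ∑ ζ ∈ S, Nat.card (ConjClasses (stabH α (ζ : D → ℂ))) *
        Nat.card (stabH α (ζ : D → ℂ)) := by
  classical
  have hfin : Finite (D ⋊[α] H) := Finite.of_equiv _ SemidirectProduct.equivProd.symm
  have hcardX : Nat.card (D ⋊[α] H) = Nat.card D * Nat.card H := SemidirectProduct.card
  have hDX : Nat.card (DX α) = Nat.card D := (Nat.card_congr (eX α).toEquiv).symm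
  have hidx : (DX α).index = Nat.card H := by
    have h1 := (DX α).card_mul_index
    rw [hcardX, hDX] at h1
    exact Nat.eq_of_mul_eq_mul_left Nat.card_pos h1
  have hcop' : (Nat.card (DX α)).Coprime (DX α).index := by rw [hDX, hidx]; exact hcop
  have h1 := count_over (G := D ⋊[α] H) (DX α) ⊤ {θ : IrrCharacter (DX α) | P ((θ : DX α → ℂ) 1)}
    (by
      intro g _ θ hθ θ' h
      change P ((θ' : DX α → ℂ) 1)
      rw [h, conjFn_apply]
      have e : (⟨g * ((1 : DX α) : D ⋊[α] H) * g⁻¹, Subgroup.Normal.conj_mem inferInstance _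
          (1 : DX α).2 g⟩ : DX α) = 1 := Subtype.ext (by simp)
      rw [e]
      exact hθ)
    (fun g _ _ _ _ _ => Subgroup.mem_top g) (S.map (irrX α).toEmbedding) (by
      intro θ
      obtain ⟨ζ, rfl⟩ := (irrX α).surjective θ
      rw [Finset.mem_map_equiv, Equiv.symm_apply_apply, hS]
      change _ ↔ P _
      have h2 := irrX_apply α ζ 1
      rw [map_one] at h2
      rw [h2])
  rw [Subgroup.card_top, hcardX, Finset.sum_map] at h1
  have h3 : ∀ ζ ∈ S, nOver (DX α) ((irrX α).toEmbedding ζ : DX α → ℂ) *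
      Nat.card (inertia (DX α) ((irrX α).toEmbedding ζ : DX α → ℂ)) =
      Nat.card D * (Nat.card (ConjClasses (stabH α (ζ : D → ℂ))) *
        Nat.card (stabH α (ζ : D → ℂ))) := by
    intro ζ _
    change nOver (DX α) (irrX α ζ : DX α → ℂ) *
      Nat.card (inertia (DX α) (irrX α ζ : DX α → ℂ)) = _
    let f : inertia (DX α) (irrX α ζ : DX α → ℂ) →* stabH α (ζ : D → ℂ) :=
      (SemidirectProduct.rightHom.comp (Subgroup.subtype _)).codRestrict _
        fun x => (mem_inertiaX α ζ x).1 x.2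
    have hf : Function.Surjective f := by
      rintro ⟨h, hh⟩
      exact ⟨⟨SemidirectProduct.inr h, (mem_inertiaX α ζ _).2 (by simpa using hh)⟩,
        Subtype.ext rfl⟩
    have hk : f.ker = (DX α).subgroupOf (inertia (DX α) (irrX α ζ : DX α → ℂ)) := by
      ext x
      rw [MonoidHom.mem_ker, Subgroup.mem_subgroupOf, mem_DX, Subtype.ext_iff]
      rfl
    rw [nOver_eq (DX α) hcop' (irrX α ζ).2 _ rfl f hf hk,
      card_inertia (DX α) (irrX α ζ).2 _ rfl f hf hk, hDX]
    ring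
  rw [Finset.sum_congr rfl h3, ← Finset.mul_sum] at h1
  have h4 : 0 < Nat.card D := Nat.card_pos
  have h5 : Nat.card D * (Nat.card {χ : IrrCharacter (D ⋊[α] H) // ∃ θ ∈ {θ : IrrCharacter (DX α) |
      P ((θ : DX α → ℂ) 1)}, Over (DX α).subtype (χ : (D ⋊[α] H) → ℂ) (θ : DX α → ℂ)} *
      Nat.card H) = Nat.card D * ∑ ζ ∈ S, Nat.card (ConjClasses (stabH α (ζ : D → ℂ))) *
        Nat.card (stabH α (ζ : D → ℂ)) := by
    rw [← h1]; ring
  exact Nat.eq_of_mul_eq_mul_left h4 h5

theorem centralizer_DX (hα : ∀ h, (∃ d : D, α h = MulAut.conj d) → h = 1) :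
    Subgroup.centralizer (DX α : Set (D ⋊[α] H)) ≤ DX α := by
  intro x hx
  rw [mem_DX]
  refine hα _ ⟨x.left⁻¹, ?_⟩
  ext d
  have h1 := Subgroup.mem_centralizer_iff.1 hx (eX α d : D ⋊[α] H) (eX α d).2
  have h2 : x * (eX α d : D ⋊[α] H) * x⁻¹ = (eX α d : D ⋊[α] H) := by
    rw [← h1, mul_inv_cancel_right]
  have h3 := conj_eX α x d (by rw [h2]; exact (eX α d).2)
  have h4 : eX α d = eX α (x.left * (α x.right d) * x.left⁻¹) := by
    rw [← h3]
    exact Subtype.ext h2.symm
  have h5 := (eX α).injective h4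
  rw [MulAut.conj_apply, inv_inv]
  conv_rhs => rw [h5]
  group

variable {α} {p : ℕ} [hp : Fact p.Prime]

theorem coprime_card (hD : IsPGroup p D) (hH : ¬ p ∣ Nat.card H) :
    (Nat.card D).Coprime (Nat.card H) := by
  obtain ⟨n, hn⟩ := (IsPGroup.iff_card (p := p)).1 hD
  rw [hn]
  exact Nat.Coprime.pow_left n ((Nat.Prime.coprime_iff_not_dvd hp.out).2 hH)

theorem index_DX : (DX α).index = Nat.card H := by
  have h1 := (DX α).card_mul_index
  have hDX : Nat.card (DX α) = Nat.card D := (Nat.card_congr (eX α).toEquiv).symm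
  rw [SemidirectProduct.card, hDX] at h1
  exact Nat.eq_of_mul_eq_mul_left Nat.card_pos h1

theorem finite_X : Finite (D ⋊[α] H) := Finite.of_equiv _ SemidirectProduct.equivProd.symm

/-- The k(GV) theorem for the semidirect product. -/
theorem class_le_X (h : MainKGV.{u}) (hD : IsPGroup p D) (hH : ¬ p ∣ Nat.card H)
    (hα : ∀ h, (∃ d : D, α h = MulAut.conj d) → h = 1) (K : Subgroup (D ⋊[α] H)) [K.Normal]
    (hK : K ≤ (frattini (DX α)).map (DX α).subtype) :
    Nat.card (ConjClasses ((D ⋊[α] H) ⧸ K)) ≤ K.relIndex (DX α) := by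
  have := finite_X (α := α)
  refine class_le h (p := p) (DX α) K (hD.of_equiv (eX α)) ?_ (centralizer_DX α hα) hK
  rw [index_DX]
  exact hH

theorem sum_le (h : MainKGV.{u}) (hD : IsPGroup p D) (hH : ¬ p ∣ Nat.card H)
    (hα : ∀ h, (∃ d : D, α h = MulAut.conj d) → h = 1) (S : Finset (IrrCharacter D))
    (hS : ∀ ζ, ζ ∈ S) :
    ∑ ζ ∈ S, Nat.card (ConjClasses (stabH α (ζ : D → ℂ))) *
      Nat.card (stabH α (ζ : D → ℂ)) ≤ Nat.card D * Nat.card H := by
  classical
  have := finite_X (α := α)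
  haveI := finite_irr (G := D ⋊[α] H)
  rw [← countX α (fun _ => True) (coprime_card hD hH) S fun ζ => by simp [hS]]
  refine Nat.mul_le_mul_right _ ?_
  refine (Nat.card_le_card_of_injective Subtype.val Subtype.val_injective).trans ?_
  rw [card_irr]
  have h1 := class_le_X h hD hH hα ⊥ bot_le
  rw [conjClasses_congr (QuotientGroup.quotientBot (G := D ⋊[α] H)), Subgroup.relIndex_bot_left]
    at h1
  rwa [Nat.card_congr (eX α).toEquiv]

theorem sum_lin_le (h : MainKGV.{u}) (hD : IsPGroup p D) (hH : ¬ p ∣ Nat.card H)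
    (hα : ∀ h, (∃ d : D, α h = MulAut.conj d) → h = 1) (S : Finset (IrrCharacter D))
    (hS : ∀ ζ, ζ ∈ S ↔ (ζ : D → ℂ) 1 = 1) :
    ∑ ζ ∈ S, Nat.card (ConjClasses (stabH α (ζ : D → ℂ))) *
      Nat.card (stabH α (ζ : D → ℂ)) ≤ (commutator D).index * Nat.card H := by
  classical
  have := finite_X (α := α)
  haveI := finite_irr (G := D ⋊[α] H)
  rw [← countX α (fun z => z = 1) (coprime_card hD hH) S hS]
  refine Nat.mul_le_mul_right _ ?_
  have hDX : IsPGroup p (DX α) := hD.of_equiv (eX α)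
  let K : Subgroup (D ⋊[α] H) := (commutator (DX α)).map (DX α).subtype
  have hKn : K.Normal := inferInstance
  have hKD : K ≤ DX α := Subgroup.map_subtype_le _
  have h1 := class_le_X h hD hH hα K (Subgroup.map_mono (S0012.result p hDX).1)
  have h2 : K.relIndex (DX α) = (commutator D).index := by
    have e1 : K.subgroupOf (DX α) = commutator (DX α) :=
      Subgroup.comap_map_eq_self_of_injective (DX α).subtype_injective _
    have e2 : (commutator D).map ((eX α : D ≃* DX α) : D →* DX α) = commutator (DX α) := by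
      have e3 : (⊤ : Subgroup D).map ((eX α : D ≃* DX α) : D →* DX α) = ⊤ :=
        Subgroup.map_top_of_surjective _ (eX α).surjective
      rw [commutator_def, Subgroup.map_commutator, commutator_def, e3]
    rw [Subgroup.relIndex, e1, ← e2, Subgroup.index_map_equiv]
  rw [← h2]
  refine le_trans ?_ h1
  rw [← card_over_one]
  have hover : ∀ χ : IrrCharacter (D ⋊[α] H), (∃ θ ∈ {θ : IrrCharacter (DX α) |
      (θ : DX α → ℂ) 1 = 1}, Over (DX α).subtype (χ : (D ⋊[α] H) → ℂ) (θ : DX α → ℂ)) →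
      Over K.subtype (χ : (D ⋊[α] H) → ℂ) (1 : K → ℂ) := by
    rintro χ ⟨θ, hθ, ho⟩
    letI := Fintype.ofFinite K
    have e1 : K.subtype = (DX α).subtype.comp (Subgroup.inclusion hKD) := rfl
    rw [e1, over_comp_iff _ _ (isIrr_isCharacter χ.2) (one_isIrr K)]
    refine ⟨θ, θ.2, ho, ?_⟩
    obtain ⟨f, hf⟩ := Characters.Linear.exists_hom_of_isIrrCharacter θ.2 hθ
    rw [over_iff]
    have e2 : (θ : DX α → ℂ) ∘ Subgroup.inclusion hKD = (1 : K → ℂ) := by
      funext k
      obtain ⟨y, hy, hyk⟩ := k.2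
      have e3 : Subgroup.inclusion hKD k = y := Subtype.ext hyk.symm
      rw [Function.comp_apply, e3, hf]
      have h4 : y ∈ f.ker := Abelianization.commutator_subset_ker f hy
      rw [MonoidHom.mem_ker] at h4
      change ((f y : ℂˣ) : ℂ) = 1
      rw [h4, Units.val_one]
    rw [e2, classInner_irr_self (one_isIrr K)]
    exact one_ne_zero
  refine Nat.card_le_card_of_injective (fun χ => ⟨χ.1, hover χ.1 χ.2⟩) fun χ χ' hχ => ?_
  have h3 : χ.1 = χ'.1 := congrArg (fun z : {χ : IrrCharacter (D ⋊[α] H) //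
    Over K.subtype (χ : (D ⋊[α] H) → ℂ) (1 : K → ℂ)} => z.1) hχ
  exact Subtype.ext h3

end X

end Cfsg.Agent.H716.KGV
end

-- part: H716/KGV/Count
section
/-!
# The number of the characters over a set of characters of `D C(D)`

`D` is a normal `p`-subgroup of `G`, `N = D C_G(D)`, `T ≥ N` with `|T : N|` prime to `p`, `Ω` a
set of irreducible characters of `N` which is stable under `T` and such that an element carrying
a member of `Ω` to a member of `Ω` lies in `T`; `z` is an injective map of `Ω` to the irreducible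
characters of `D` such that `z θ` is a constituent of the homogeneous restriction of `θ`.
-/

set_option autoImplicit false
set_option linter.style.haveILetI false
set_option linter.unusedSectionVars false
open Cfsg

namespace Cfsg.Agent.H716.KGV

open Cfsg.Agent.Characters.Core Cfsg.Agent.Characters.Clifford
open Cfsg.Agent.H672 hiding inertia mem_inertia le_inertia
open Cfsg.Agent.H672.RM Cfsg.Agent.OddOrderCharacters Cfsg.Agent.OddOrderCharacters.NormalInduced
open Cfsg.Agent.OddOrderCharacters.PF9.CliffGen (inertia mem_inertia le_inertia)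
open Cfsg.Agent.H644.KGV
open Subgroup
open scoped ComplexConjugate

universe u v

variable {G : Type u} [Group G] [Finite G]

/-- Proportional irreducible characters are equal. -/
theorem eq_of_prop {ζ ζ' : IrrCharacter G}
    (h : ∀ y, (ζ' : G → ℂ) y * (ζ : G → ℂ) 1 = (ζ : G → ℂ) y * (ζ' : G → ℂ) 1) : ζ = ζ' := by
  classical
  letI := Fintype.ofFinite G
  by_contra hne
  have hne' : (ζ' : G → ℂ) ≠ (ζ : G → ℂ) := fun e => hne (Subtype.ext e.symm)
  have h1 : (ζ : G → ℂ) 1 ≠ 0 := isIrr_apply_one_ne_zero ζ.2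
  have h2 : (ζ' : G → ℂ) 1 ≠ 0 := isIrr_apply_one_ne_zero ζ'.2
  have h3 : (ζ' : G → ℂ) = ((ζ' : G → ℂ) 1 / (ζ : G → ℂ) 1) • (ζ : G → ℂ) := by
    funext y
    rw [Pi.smul_apply, smul_eq_mul, div_mul_eq_mul_div, eq_div_iff h1, h y, mul_comm]
  have h4 : classInner (ζ' : G → ℂ) (ζ : G → ℂ) = 0 := by
    rw [classInner_irr ζ'.2 ζ.2, if_neg hne']
  rw [h3, classInner_smul_left, classInner_irr ζ.2 ζ.2, if_pos rfl, mul_one, div_eq_zero_iff] at h4
  exact h4.elim h2 h1

/-- The stabilizer of `θ` corresponds to the stabilizer of `z θ`. -/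
theorem mem_inertia_iff_stabH {N : Subgroup G} [hN : N.Normal] (D : Subgroup G) [hDn : D.Normal]
    (hDN : D ≤ N) {H : Type u} [Group H] (α : H →* MulAut D) {g : G} {h : H} {d : D}
    (hg : (MulAut.conjNormal g : MulAut D) = MulAut.conj d * α h)
    (Ω : Set (IrrCharacter N)) (z : IrrCharacter N → IrrCharacter D)
    (hinj : ∀ θ ∈ Ω, ∀ θ' ∈ Ω, z θ = z θ' → θ = θ')
    (hres : ∀ θ ∈ Ω, ∀ (y : D) (y' : N), (y' : G) = y →
      (θ : N → ℂ) y' * (z θ : D → ℂ) 1 = (θ : N → ℂ) 1 * (z θ : D → ℂ) y)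
    (hst : ∀ θ ∈ Ω, ∀ θ' : IrrCharacter N, (θ' : N → ℂ) = conjFn N (θ : N → ℂ) g → θ' ∈ Ω)
    {θ : IrrCharacter N} (hθ : θ ∈ Ω) :
    g ∈ inertia N (θ : N → ℂ) ↔ h ∈ stabH α (z θ : D → ℂ) := by
  have h1 : (θ : N → ℂ) 1 ≠ 0 := isIrr_apply_one_ne_zero θ.2
  have key : ∀ y : D, (z θ : D → ℂ) (α h y) * (θ : N → ℂ) 1 =
      conjFn N (θ : N → ℂ) g ⟨y, hDN y.2⟩ * (z θ : D → ℂ) 1 := by
    intro y
    have e1 : (z θ : D → ℂ) ((MulAut.conjNormal g : MulAut D) y) = (z θ : D → ℂ) (α h y) := by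
      rw [hg]
      exact isIrr_isClassFunction (z θ).2 _ _
    have e2 := hres θ hθ ((MulAut.conjNormal g : MulAut D) y)
      ⟨g * y * g⁻¹, hN.conj_mem _ (hDN y.2) g⟩ (MulAut.conjNormal_apply g y).symm
    rw [e1] at e2
    rw [conjFn_apply, mul_comm, ← e2]
  rw [mem_inertia, mem_stabH]
  constructor
  · intro h2 y
    have h3 := key y
    rw [h2, hres θ hθ y ⟨y, hDN y.2⟩ rfl, mul_comm] at h3
    exact mul_left_cancel₀ h1 h3
  · intro h2
    have hmem : (⟨conjFn N (θ : N → ℂ) g, IndRes.isIrr_conjFn N θ.2 g⟩ : IrrCharacter N) ∈ Ω :=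
      hst θ hθ _ rfl
    set θ' : IrrCharacter N := ⟨conjFn N (θ : N → ℂ) g, IndRes.isIrr_conjFn N θ.2 g⟩ with hθ'
    have hv : ∀ n, (θ' : N → ℂ) n = conjFn N (θ : N → ℂ) g n := fun n => rfl
    have hone : (θ' : N → ℂ) 1 = (θ : N → ℂ) 1 := by
      rw [hv, conjFn_apply]
      refine congrArg (θ : N → ℂ) (Subtype.ext ?_)
      change g * ((1 : N) : G) * g⁻¹ = 1
      rw [OneMemClass.coe_one, mul_one, mul_inv_cancel]
    have hz : z θ = z θ' := by
      refine eq_of_prop fun y => ?_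
      have e1 := hres θ' hmem y ⟨y, hDN y.2⟩ rfl
      have e2 := key y
      rw [h2 y, ← hv] at e2
      rw [hone] at e1
      apply mul_left_cancel₀ h1
      calc (θ : N → ℂ) 1 * ((z θ' : D → ℂ) y * (z θ : D → ℂ) 1)
          = ((θ : N → ℂ) 1 * (z θ' : D → ℂ) y) * (z θ : D → ℂ) 1 := by ring
        _ = ((θ' : N → ℂ) ⟨y, hDN y.2⟩ * (z θ : D → ℂ) 1) * (z θ' : D → ℂ) 1 := by
            rw [← e1]; ring
        _ = (θ : N → ℂ) 1 * ((z θ : D → ℂ) y * (z θ' : D → ℂ) 1) := by rw [← e2]; ring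
    exact congrArg Subtype.val (hinj θ hθ θ' hmem hz).symm

theorem card_eq_of_surj {N T : Subgroup G} (hNT : N ≤ T) {H : Type v} [Group H] (π : T →* H)
    (hπ : Function.Surjective π) (hk : π.ker = N.subgroupOf T) :
    Nat.card T = Nat.card N * Nat.card H := by
  rw [← Nat.card_congr (QuotientGroup.quotientKerEquivOfSurjective π hπ).toEquiv,
    ← Nat.card_congr (Subgroup.subgroupOfEquivOfLe hNT).toEquiv, mul_comm, ← hk]
  exact Subgroup.card_eq_card_quotient_mul_card_subgroup _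

theorem count_le {p : ℕ} [hp : Fact p.Prime] (D T N : Subgroup G) [hDn : D.Normal]
    [hN : N.Normal] (hD : IsPGroup p D) (hND : N = D ⊔ centralizer (D : Set G))
    (hNT : N ≤ T) (hidx : ¬ p ∣ N.relIndex T)
    (Ω : Set (IrrCharacter N))
    (hst : ∀ g ∈ T, ∀ θ ∈ Ω, ∀ θ' : IrrCharacter N, (θ' : N → ℂ) = conjFn N (θ : N → ℂ) g → θ' ∈ Ω)
    (htr : ∀ (g : G), ∀ θ ∈ Ω, ∀ θ' ∈ Ω, (θ' : N → ℂ) = conjFn N (θ : N → ℂ) g → g ∈ T)
    (z : IrrCharacter N → IrrCharacter D)
    (hinj : ∀ θ ∈ Ω, ∀ θ' ∈ Ω, z θ = z θ' → θ = θ')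
    (hres : ∀ θ ∈ Ω, ∀ (y : D) (y' : N), (y' : G) = y →
      (θ : N → ℂ) y' * (z θ : D → ℂ) 1 = (θ : N → ℂ) 1 * (z θ : D → ℂ) y) :
    ∃ (H : Type u) (_ : Group H) (_ : Finite H) (α : H →* MulAut D),
      ¬ p ∣ Nat.card H ∧ (∀ h : H, (∃ d : D, α h = MulAut.conj d) → h = 1) ∧
      ∀ S : Finset (IrrCharacter D), (∀ θ ∈ Ω, z θ ∈ S) →
        Nat.card {χ : IrrCharacter G // ∃ θ ∈ Ω, Over N.subtype (χ : G → ℂ) (θ : N → ℂ)} *
          Nat.card H ≤ ∑ ζ ∈ S, Nat.card (ConjClasses (stabH α (ζ : D → ℂ))) *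
            Nat.card (stabH α (ζ : D → ℂ)) := by
  classical
  have hDN : D ≤ N := by rw [hND]; exact le_sup_left
  obtain ⟨H, iH, fH, π, α, hπ, hk, hcard, hα, hdec⟩ :=
    exists_comp (p := p) D T hD (hND ▸ hNT) (hND ▸ hidx)
  rw [← hND] at hk
  refine ⟨H, iH, fH, α, hcard, hα, fun S hS => ?_⟩
  haveI := finite_irr (G := N)
  letI := Fintype.ofFinite (IrrCharacter N)
  let F : IrrCharacter D → ℕ := fun ζ => Nat.card (ConjClasses (stabH α (ζ : D → ℂ))) *
    Nat.card (stabH α (ζ : D → ℂ))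
  have h1 : ∀ θ ∈ Ω, nOver N (θ : N → ℂ) * Nat.card (inertia N (θ : N → ℂ)) ≤
      Nat.card N * F (z θ) := by
    intro θ hθ
    have hIT : inertia N (θ : N → ℂ) ≤ T := inertia_le_of htr hθ
    have hiff : ∀ t : T, (t : G) ∈ inertia N (θ : N → ℂ) ↔ π t ∈ stabH α (z θ : D → ℂ) := by
      intro t
      obtain ⟨d, hd⟩ := hdec t
      exact mem_inertia_iff_stabH D hDN α hd Ω z hinj hres (hst t t.2) hθ
    let f : inertia N (θ : N → ℂ) →* stabH α (z θ : D → ℂ) :=
      (π.comp (Subgroup.inclusion hIT)).codRestrict _ fun x => (hiff (Subgroup.inclusion hIT x)).1 x.2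
    have hf : Function.Surjective f := by
      rintro ⟨x, hx⟩
      obtain ⟨t, rfl⟩ := hπ x
      exact ⟨⟨t, (hiff t).2 hx⟩, Subtype.ext rfl⟩
    have hfk : f.ker = N.subgroupOf (inertia N (θ : N → ℂ)) := by
      ext x
      rw [MonoidHom.mem_ker, mem_subgroupOf, Subtype.ext_iff]
      change π (Subgroup.inclusion hIT x) = 1 ↔ _
      rw [← MonoidHom.mem_ker, hk, mem_subgroupOf]
      rfl
    have h2 := nOver_le N θ.2 _ rfl f hf hfk
    have h3 := card_inertia N θ.2 _ rfl f hf hfk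
    rw [h3]
    calc nOver N (θ : N → ℂ) * (Nat.card N * Nat.card (stabH α (z θ : D → ℂ)))
        ≤ Nat.card (ConjClasses (stabH α (z θ : D → ℂ))) *
          (Nat.card N * Nat.card (stabH α (z θ : D → ℂ))) := Nat.mul_le_mul_right _ h2
      _ = Nat.card N * F (z θ) := by ring
  have h2 := count_over N T Ω hst htr (Finset.univ.filter (· ∈ Ω)) fun θ => by simp
  rw [card_eq_of_surj hNT π hπ hk] at h2
  have h3 : ∑ θ ∈ Finset.univ.filter (· ∈ Ω), nOver N (θ : N → ℂ) *
      Nat.card (inertia N (θ : N → ℂ)) ≤ Nat.card N * ∑ ζ ∈ S, F ζ := by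
    calc _ ≤ ∑ θ ∈ Finset.univ.filter (· ∈ Ω), Nat.card N * F (z θ) :=
          Finset.sum_le_sum fun θ hθ => h1 θ (Finset.mem_filter.1 hθ).2
      _ = Nat.card N * ∑ ζ ∈ (Finset.univ.filter (· ∈ Ω)).image z, F ζ := by
          rw [← Finset.mul_sum, Finset.sum_image]
          intro θ hθ θ' hθ' e
          rw [Finset.mem_coe, Finset.mem_filter] at hθ hθ'
          exact hinj θ hθ.2 θ' hθ'.2 e
      _ ≤ Nat.card N * ∑ ζ ∈ S, F ζ := by
          refine Nat.mul_le_mul_left _ (Finset.sum_le_sum_of_subset ?_)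
          intro ζ hζ
          obtain ⟨θ, hθ, rfl⟩ := Finset.mem_image.1 hζ
          exact hS θ (Finset.mem_filter.1 hθ).2
  rw [← h2] at h3
  have h4 : Nat.card N * (Nat.card {χ : IrrCharacter G // ∃ θ ∈ Ω,
      Over N.subtype (χ : G → ℂ) (θ : N → ℂ)} * Nat.card H) ≤ Nat.card N * ∑ ζ ∈ S, F ζ := by
    rw [mul_left_comm]
    exact h3
  exact Nat.le_of_mul_le_mul_left h4 Nat.card_pos

/-- **At most `|D|` characters lie over `Ω`.** -/
theorem count_le_card (h : MainKGV.{u}) {p : ℕ} [hp : Fact p.Prime] (D T N : Subgroup G)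
    [hDn : D.Normal] [hN : N.Normal] (hD : IsPGroup p D)
    (hND : N = D ⊔ centralizer (D : Set G))
    (hNT : N ≤ T) (hidx : ¬ p ∣ N.relIndex T)
    (Ω : Set (IrrCharacter N))
    (hst : ∀ g ∈ T, ∀ θ ∈ Ω, ∀ θ' : IrrCharacter N, (θ' : N → ℂ) = conjFn N (θ : N → ℂ) g → θ' ∈ Ω)
    (htr : ∀ (g : G), ∀ θ ∈ Ω, ∀ θ' ∈ Ω, (θ' : N → ℂ) = conjFn N (θ : N → ℂ) g → g ∈ T)
    (z : IrrCharacter N → IrrCharacter D)
    (hinj : ∀ θ ∈ Ω, ∀ θ' ∈ Ω, z θ = z θ' → θ = θ')
    (hres : ∀ θ ∈ Ω, ∀ (y : D) (y' : N), (y' : G) = y →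
      (θ : N → ℂ) y' * (z θ : D → ℂ) 1 = (θ : N → ℂ) 1 * (z θ : D → ℂ) y) :
    Nat.card {χ : IrrCharacter G // ∃ θ ∈ Ω, Over N.subtype (χ : G → ℂ) (θ : N → ℂ)} ≤
      Nat.card D := by
  classical
  obtain ⟨H, iH, fH, α, hcard, hα, hS⟩ := count_le D T N hD hND hNT hidx Ω hst htr z hinj hres
  haveI := finite_irr (G := D)
  letI := Fintype.ofFinite (IrrCharacter D)
  have h1 := hS Finset.univ fun θ _ => Finset.mem_univ _
  have h2 := sum_le h hD hcard hα Finset.univ fun ζ => Finset.mem_univ ζ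
  exact Nat.le_of_mul_le_mul_right (h1.trans h2) Nat.card_pos

/-- **At most `|D : D'|` characters lie over `Ω` if all `z θ` are linear.** -/
theorem count_lin_le (h : MainKGV.{u}) {p : ℕ} [hp : Fact p.Prime] (D T N : Subgroup G)
    [hDn : D.Normal] [hN : N.Normal] (hD : IsPGroup p D)
    (hND : N = D ⊔ centralizer (D : Set G))
    (hNT : N ≤ T) (hidx : ¬ p ∣ N.relIndex T)
    (Ω : Set (IrrCharacter N))
    (hst : ∀ g ∈ T, ∀ θ ∈ Ω, ∀ θ' : IrrCharacter N, (θ' : N → ℂ) = conjFn N (θ : N → ℂ) g → θ' ∈ Ω)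
    (htr : ∀ (g : G), ∀ θ ∈ Ω, ∀ θ' ∈ Ω, (θ' : N → ℂ) = conjFn N (θ : N → ℂ) g → g ∈ T)
    (z : IrrCharacter N → IrrCharacter D)
    (hinj : ∀ θ ∈ Ω, ∀ θ' ∈ Ω, z θ = z θ' → θ = θ')
    (hres : ∀ θ ∈ Ω, ∀ (y : D) (y' : N), (y' : G) = y →
      (θ : N → ℂ) y' * (z θ : D → ℂ) 1 = (θ : N → ℂ) 1 * (z θ : D → ℂ) y)
    (hlin : ∀ θ ∈ Ω, (z θ : D → ℂ) 1 = 1) :
    Nat.card {χ : IrrCharacter G // ∃ θ ∈ Ω, Over N.subtype (χ : G → ℂ) (θ : N → ℂ)} ≤
      (commutator D).index := by
  classical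
  obtain ⟨H, iH, fH, α, hcard, hα, hS⟩ := count_le D T N hD hND hNT hidx Ω hst htr z hinj hres
  haveI := finite_irr (G := D)
  letI := Fintype.ofFinite (IrrCharacter D)
  have h1 := hS (Finset.univ.filter fun ζ : IrrCharacter D => (ζ : D → ℂ) 1 = 1) fun θ hθ =>
    Finset.mem_filter.2 ⟨Finset.mem_univ _, hlin θ hθ⟩
  have h2 := sum_lin_le h hD hcard hα
    (Finset.univ.filter fun ζ : IrrCharacter D => (ζ : D → ℂ) 1 = 1) fun ζ => by simp
  exact Nat.le_of_mul_le_mul_right (h1.trans h2) Nat.card_pos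

end Cfsg.Agent.H716.KGV
end

-- part: H716/KGV/Blk
section
/-!
# Blocks with a normal defect group

* `exists_z` : the members of a block of `K = D C_K(D)` with defect group `D` correspond to the
  irreducible characters of `D`;
* `exists_root` : every member of `B` lies over a root of `B`.
-/

set_option autoImplicit false
set_option linter.style.haveILetI false
set_option linter.unusedSectionVars false
open Cfsg

namespace Cfsg.Agent.H716.KGV

open Cfsg.Agent.Characters.Core Cfsg.Agent.Characters.Clifford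
open Cfsg.Agent.H672 hiding inertia mem_inertia le_inertia
open Cfsg.Agent.H672.RM Cfsg.Agent.OddOrderCharacters Cfsg.Agent.OddOrderCharacters.NormalInduced
open Cfsg.Agent.OddOrderCharacters.PF9.CliffGen (inertia mem_inertia le_inertia)
open Cfsg.Agent.Blocks.Covering
open Cfsg.Agent.Blocks.Basic (mem_blockOf_self isPBlock_blockOf
  isPGroup_of_isDefectGroup)
open Subgroup
open scoped ComplexConjugate

universe u v

/-- The members of a block have at least the exponent of the block. -/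
theorem defect_le {K : Type u} [Group K] [Finite K] (p : ℕ) [hp : Fact p.Prime]
    {M : Ideal Cfsg.AlgInt} (hM : Cfsg.IsPModular p M) {b : Set (IrrCharacter K)}
    (hb : IsPBlock M b) {D : Subgroup K} (hD : IsDefectGroup p M b D) {χ : IrrCharacter K}
    (hχ : χ ∈ b) : (Nat.card K).factorization p ≤
      (Nat.card D).factorization p + (charDegree (χ : K → ℂ)).factorization p := by
  have h1 := S0908.result p M hM b hb D hD
  have h2 : sInf ((fun ψ : IrrCharacter K => (charDegree (ψ : K → ℂ)).factorization p) '' b) ≤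
      (charDegree (χ : K → ℂ)).factorization p := Nat.sInf_le ⟨χ, hχ, rfl⟩
  have h3 : (Nat.card D).factorization p = blockDefect p b := by
    rw [h1, hp.out.factorization_pow, Finsupp.single_eq_same]
  rw [h3]
  unfold blockDefect
  omega

/-- The members of height zero. -/
theorem defect_of_height_zero {K : Type u} [Group K] [Finite K] (p : ℕ) [hp : Fact p.Prime]
    {M : Ideal Cfsg.AlgInt} (hM : Cfsg.IsPModular p M) {b : Set (IrrCharacter K)}
    (hb : IsPBlock M b) {D : Subgroup K} (hD : IsDefectGroup p M b D) {χ : IrrCharacter K}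
    (hχ : χ ∈ b) (h0 : blockHeight p b (χ : K → ℂ) = 0) : 
    (Nat.card D).factorization p + (charDegree (χ : K → ℂ)).factorization p =
      (Nat.card K).factorization p := by
  have h1 := S0908.result p M hM b hb D hD
  have h2 : sInf ((fun ψ : IrrCharacter K => (charDegree (ψ : K → ℂ)).factorization p) '' b) ≤
      (charDegree (χ : K → ℂ)).factorization p := Nat.sInf_le ⟨χ, hχ, rfl⟩
  have h3 : (Nat.card D).factorization p = blockDefect p b := by
    rw [h1, hp.out.factorization_pow, Finsupp.single_eq_same]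
  have h4 : (charDegree (χ : K → ℂ)).factorization p ≤ (Nat.card K).factorization p :=
    (Nat.factorization_le_iff_dvd (charDegree_pos χ.2).ne' Nat.card_pos.ne').2
      (Blocks.CentralProduct.degree_dvd_card χ.2 (coe_charDegree χ.2).symm) p
  unfold blockHeight at h0
  rw [h3]
  unfold blockDefect
  omega

/-- The members of a block of `K = D C_K(D)` with defect group `D`. -/
theorem exists_z {K : Type u} [Group K] [Finite K] (p : ℕ) [hp : Fact p.Prime]
    {M : Ideal Cfsg.AlgInt} (hM : Cfsg.IsPModular p M) {b : Set (IrrCharacter K)}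
    (hb : IsPBlock M b) {D : Subgroup K} [D.Normal] (hD : IsDefectGroup p M b D)
    (hK : D ⊔ centralizer (D : Set K) = ⊤) :
    ∃ (c : ℕ) (z : IrrCharacter K → IrrCharacter D), 0 < c ∧
      (Nat.card K).factorization p ≤ (Nat.card D).factorization p + c.factorization p ∧
      (∀ θ ∈ b, ∀ θ' ∈ b, z θ = z θ' → θ = θ') ∧
      (∀ θ ∈ b, charDegree (θ : K → ℂ) = charDegree (z θ : D → ℂ) * c) ∧
      ∀ θ ∈ b, ∀ y : D, (θ : K → ℂ) y * (z θ : D → ℂ) 1 =
        (θ : K → ℂ) 1 * (z θ : D → ℂ) y := by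
  classical
  have hprime : M.IsPrime := hM.2.1.isPrime
  have hDp : IsPGroup p D := isPGroup_of_isDefectGroup hD
  obtain ⟨bb, ⟨φ, rfl⟩, hbb, -⟩ := S4434.result p M hM D hDp b hb
  let χ : IrrCharacter K := ⟨(φ : K ⧸ D → ℂ) ∘ (QuotientGroup.mk' D),
    isIrr_comp (QuotientGroup.mk' D) (QuotientGroup.mk'_surjective D) φ.2⟩
  have hχv : ∀ x, (χ : K → ℂ) x = (φ : K ⧸ D → ℂ) (QuotientGroup.mk' D x) := fun x => rfl
  have hχ : χ ∈ b := hbb φ (mem_blockOf_self φ) χ rfl
  have hχD : ∀ y ∈ D, (χ : K → ℂ) y = (χ : K → ℂ) 1 := by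
    intro y hy
    rw [hχv, hχv, map_one]
    exact congrArg (φ : K ⧸ D → ℂ) ((QuotientGroup.eq_one_iff y).2 hy)
  have h1 := (S4714.result p M hM D hDp hK b hb hD χ hχ hχD).1
  have h2 : ∀ θ : IrrCharacter K, ∃ ζ : IrrCharacter D, θ ∈ b →
      (∀ (y : D) (x : K), ¬ p ∣ orderOf x → Commute (y : K) x →
        (θ : K → ℂ) ((y : K) * x) = (ζ : D → ℂ) y * (χ : K → ℂ) x) ∧
        (∀ z : K, (∀ y : K, Cfsg.IsPPart p z y → y ∉ D) → (θ : K → ℂ) z = 0) := by
    intro θ
    by_cases hθ : θ ∈ b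
    · obtain ⟨ζ, hζ⟩ := (h1 θ).1 hθ
      exact ⟨ζ, fun _ => hζ⟩
    · exact ⟨⟨1, isIrr_one⟩, fun h => absurd h hθ⟩
  choose z hz using h2
  have hz1 : ∀ θ ∈ b, ∀ y : D, (θ : K → ℂ) y = (z θ : D → ℂ) y * (χ : K → ℂ) 1 := by
    intro θ hθ y
    have h3 := (hz θ hθ).1 y 1 (by rw [orderOf_one]; exact hp.out.not_dvd_one)
      (Commute.one_right _)
    rwa [mul_one] at h3
  refine ⟨charDegree (χ : K → ℂ), z, charDegree_pos χ.2, defect_le p hM hb hD hχ, ?_, ?_, ?_⟩
  · intro θ hθ θ' hθ' e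
    have e1 := hz θ hθ
    have e2 := hz θ' hθ'
    rw [← e] at e2
    exact Subtype.ext (S4714.eq_of_formula p D e1 e2)
  · intro θ hθ
    apply charDegree_of_eq
    push_cast
    rw [coe_charDegree (z θ).2, coe_charDegree χ.2]
    exact hz1 θ hθ 1
  · intro θ hθ y
    have e1 := hz1 θ hθ y
    have e2 := hz1 θ hθ 1
    rw [OneMemClass.coe_one] at e2
    rw [e1, e2]
    ring

/-- **The root of `B`**: every member of `B` lies over a member of `b`. -/
theorem exists_root {G : Type u} [Group G] [Finite G] (p : ℕ) [hp : Fact p.Prime]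
    {M : Ideal Cfsg.AlgInt} (hM : Cfsg.IsPModular p M) {B : Set (IrrCharacter G)}
    (hB : IsPBlock M B) {D : Subgroup G} [hDn : D.Normal] (hD : IsDefectGroup p M B D)
    (N : Subgroup G) [hNn : N.Normal] (hN : N = D ⊔ centralizer (D : Set G)) :
    ∃ b : Set (IrrCharacter N), IsPBlock M b ∧ IsDefectGroup p M b (D.subgroupOf N) ∧
      IsInducedBlock M N b B ∧
      ∀ χ ∈ B, ∃ θ ∈ b, Over N.subtype (χ : G → ℂ) (θ : N → ℂ) := by
  classical
  subst hN
  letI := Fintype.ofFinite G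
  letI := Fintype.ofFinite ↥(D ⊔ centralizer (D : Set G))
  have hprime : M.IsPrime := hM.2.1.isPrime
  have hDp : IsPGroup p D := isPGroup_of_isDefectGroup hD
  obtain ⟨⟨b, hb1, hb2⟩, hconj⟩ := S0973.result p M hM B hB D hD
  refine ⟨b, hb2.1, hb1, hb2, fun χ hχ => ?_⟩
  obtain ⟨θ, hθ, ho⟩ := exists_under (f := (D ⊔ centralizer (D : Set G)).subtype) χ.2
  have h1 : IsPBlock M (blockOf M θ) := isPBlock_blockOf ⟨θ, hθ⟩
  have h2 := (S0971.result p M hM D hDp (blockOf M θ) h1).2 B hB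
    ⟨χ, hχ, ⟨θ, hθ⟩, mem_blockOf_self ⟨θ, hθ⟩,
      (over_iff (D ⊔ centralizer (D : Set G)).subtype (χ : G → ℂ) θ).1 ho⟩
  obtain ⟨n, -, hn⟩ := hconj (blockOf M θ) b h2 hb2
  obtain ⟨θ', hθ', h3⟩ := hn ⟨θ, hθ⟩ (mem_blockOf_self ⟨θ, hθ⟩)
  refine ⟨θ', hθ', ?_⟩
  have h4 : (θ' : ↥(D ⊔ centralizer (D : Set G)) → ℂ) =
      conjFn (D ⊔ centralizer (D : Set G)) θ n := by
    funext x
    rw [h3 x (hNn.conj_mem _ x.2 n), conjFn_apply]
  rw [h4]
  exact over_conj _ χ ho n

/-- The stabilizer of a set of characters of a normal subgroup which is a block. -/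
def stabB {G : Type u} [Group G] {M : Ideal Cfsg.AlgInt} (hM : M.IsPrime)
    (N : Subgroup G) [N.Normal] (b : Set (IrrCharacter N)) (hb : IsPBlock M b) : Subgroup G where
  carrier := {g | ∀ θ ∈ b, conjIrr N g θ ∈ b}
  one_mem' := fun θ hθ => by rw [conjIrr_one]; exact hθ
  mul_mem' := by
    intro g h hg hh θ hθ
    rw [← conjIrr_conjIrr]
    exact hh _ (hg θ hθ)
  inv_mem' := by
    intro g hg θ hθ
    refine mem_of_sameBlock hM hb hθ ?_
    have h1 := sameBlock_of_mem hM hb (hg θ hθ) hθ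
    have h2 := sameBlock_conjIrr N g⁻¹ h1
    rwa [conjIrr_conjIrr, mul_inv_cancel, conjIrr_one] at h2

theorem mem_stabB {G : Type u} [Group G] {M : Ideal Cfsg.AlgInt} {hM : M.IsPrime}
    {N : Subgroup G} [N.Normal] {b : Set (IrrCharacter N)} {hb : IsPBlock M b} {g : G} :
    g ∈ stabB hM N b hb ↔ ∀ θ ∈ b, conjIrr N g θ ∈ b := Iff.rfl

theorem mem_stabB_of {G : Type u} [Group G] {M : Ideal Cfsg.AlgInt} {hM : M.IsPrime}
    {N : Subgroup G} [N.Normal] {b : Set (IrrCharacter N)} {hb : IsPBlock M b} {g : G}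
    {θ : IrrCharacter N} (hθ : θ ∈ b) (h : conjIrr N g θ ∈ b) : g ∈ stabB hM N b hb := by
  intro θ' hθ'
  exact mem_of_sameBlock hM hb h (sameBlock_conjIrr N g (sameBlock_of_mem hM hb hθ hθ'))

theorem conjIrr_eq {G : Type u} [Group G] {N : Subgroup G} [hN : N.Normal] (g : G)
    (θ : IrrCharacter N) : (conjIrr N g θ : N → ℂ) = conjFn N (θ : N → ℂ) g := by
  funext n
  rw [conjIrr_apply, conjFn_apply]
  rfl

end Cfsg.Agent.H716.KGV
end

-- part: H716/KGV/Main
section
/-!
# `k(B) ≤ |D|` and `k₀(B) ≤ |D : D'|` for a normal defect group `D`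

`block_le : MainKGV → ...`.
-/

set_option autoImplicit false
set_option linter.style.haveILetI false
set_option linter.unusedSectionVars false
open Cfsg

namespace Cfsg.Agent.H716.KGV

open Cfsg.Agent.Characters.Core Cfsg.Agent.Characters.Clifford
open Cfsg.Agent.H672 hiding inertia mem_inertia le_inertia
open Cfsg.Agent.H672.RM Cfsg.Agent.OddOrderCharacters Cfsg.Agent.OddOrderCharacters.NormalInduced
open Cfsg.Agent.OddOrderCharacters.PF9.CliffGen (inertia mem_inertia le_inertia)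
open Cfsg.Agent.Blocks.Covering
open Cfsg.Agent.Blocks.Basic (mem_blockOf_self isPBlock_blockOf isPGroup_of_isDefectGroup)
open Cfsg.Agent.H644.KGV
open Subgroup
open scoped ComplexConjugate

universe u v

/-- In `N = D C(D)` the group `D` and its centralizer generate everything. -/
theorem sup_centralizer_top {G : Type u} [Group G] {D N : Subgroup G} [D.Normal]
    (hN : N = D ⊔ centralizer (D : Set G)) :
    D.subgroupOf N ⊔ centralizer ((D.subgroupOf N : Subgroup N) : Set N) = ⊤ := by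
  rw [eq_top_iff]
  rintro ⟨x, hx⟩ -
  have hx' : x ∈ D ⊔ centralizer (D : Set G) := hN ▸ hx
  obtain ⟨y, hy, z, hz, rfl⟩ := Subgroup.mem_sup_of_normal_left.1 hx'
  have hyL : y ∈ N := hN ▸ Subgroup.mem_sup_left hy
  have hzL : z ∈ N := hN ▸ Subgroup.mem_sup_right hz
  have h1 : (⟨y * z, hx⟩ : N) = ⟨y, hyL⟩ * ⟨z, hzL⟩ := rfl
  rw [h1]
  refine mul_mem (Subgroup.mem_sup_left ?_) (Subgroup.mem_sup_right ?_)
  · rw [Subgroup.mem_subgroupOf]
    exact hy
  · rw [Subgroup.mem_centralizer_iff]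
    intro u hu
    apply Subtype.ext
    exact Subgroup.mem_centralizer_iff.1 hz (u : G) (Subgroup.mem_subgroupOf.1 hu)

/-- Transport of irreducible characters. -/
def irrMap {A B : Type u} [Group A] [Group B] (e : B ≃* A) (ζ : IrrCharacter A) : IrrCharacter B :=
  ⟨(ζ : A → ℂ) ∘ e, isIrr_comp e.toMonoidHom e.surjective ζ.2⟩

theorem irrMap_apply {A B : Type u} [Group A] [Group B] (e : B ≃* A) (ζ : IrrCharacter A) (y : B) :
    (irrMap e ζ : B → ℂ) y = (ζ : A → ℂ) (e y) := rfl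

theorem irrMap_injective {A B : Type u} [Group A] [Group B] (e : B ≃* A) :
    Function.Injective (irrMap e) := by
  intro ζ ζ' h
  apply Subtype.ext
  funext x
  have h1 := congrArg (fun f : IrrCharacter B => (f : B → ℂ) (e.symm x)) h
  simp only [irrMap_apply, MulEquiv.apply_symm_apply] at h1
  exact h1

/-- **The count for a block with a normal defect group.** -/
theorem block_le (hkgv : MainKGV.{u}) {G : Type u} [Group G] [Finite G] (p : ℕ) [hp : Fact p.Prime]
    (M : Ideal Cfsg.AlgInt) (hM : Cfsg.IsPModular p M) (B : Set (Cfsg.IrrCharacter G))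
    (hB : Cfsg.IsPBlock M B) (D : Subgroup G) [hDn : D.Normal] (hD : Cfsg.IsDefectGroup p M B D) :
    Nat.card B ≤ Nat.card D ∧ Nat.card {χ : Cfsg.IrrCharacter G //
      χ ∈ B ∧ Cfsg.blockHeight p B (χ : G → ℂ) = 0} ≤ (commutator ↥D).index := by
  classical
  letI := Fintype.ofFinite G
  have hprime : M.IsPrime := hM.2.1.isPrime
  have hDp : IsPGroup p D := isPGroup_of_isDefectGroup hD
  obtain ⟨N, hN⟩ : ∃ N : Subgroup G, N = D ⊔ centralizer (D : Set G) := ⟨_, rfl⟩
  have hNn : N.Normal := by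
    rw [hN]
    infer_instance
  letI := Fintype.ofFinite N
  have hDN : D ≤ N := by rw [hN]; exact le_sup_left
  obtain ⟨b, hb, hbD, hind, hroot⟩ := exists_root p hM hB hD N hN
  -- the stabilizer
  let T := stabB hprime N b hb
  have hT : ∀ g : G, g ∈ T ↔ ∀ θ ∈ b, conjIrr N g θ ∈ b := fun g => mem_stabB
  have hidx : ¬ p ∣ N.relIndex T :=
    (H592.NormalCase.defect_iff p hM D hDp N hN b hb hbD B hind T hT).1 hD
  have hst : ∀ g ∈ T, ∀ θ ∈ b, ∀ θ' : IrrCharacter N,
      (θ' : N → ℂ) = conjFn N (θ : N → ℂ) g → θ' ∈ b := by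
    intro g hg θ hθ θ' h
    have h1 : θ' = conjIrr N g θ := Subtype.ext (by rw [h, conjIrr_eq])
    rw [h1]
    exact (hT g).1 hg θ hθ
  have htr : ∀ (g : G), ∀ θ ∈ b, ∀ θ' ∈ b, (θ' : N → ℂ) = conjFn N (θ : N → ℂ) g → g ∈ T := by
    intro g θ hθ θ' hθ' h
    have h1 : θ' = conjIrr N g θ := Subtype.ext (by rw [h, conjIrr_eq])
    rw [h1] at hθ'
    exact mem_stabB_of hθ hθ'
  have hNT : N ≤ T := by
    intro g hg
    obtain ⟨θ₀, hθ₀⟩ := hb
    have h0 : θ₀ ∈ b := by
      rw [hθ₀]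
      exact mem_blockOf_self θ₀
    refine mem_stabB_of h0 ?_
    have h1 : conjIrr N g θ₀ = θ₀ := by
      apply Subtype.ext
      rw [conjIrr_eq]
      exact mem_inertia.1 (le_inertia (isIrr_isClassFunction θ₀.2) hg)
    rw [h1]
    exact h0
  -- the characters of `D`
  obtain ⟨c, z', hc, hcν, hinj', hdeg', hres'⟩ := exists_z p hM hb hbD (sup_centralizer_top hN)
  let e : D ≃* D.subgroupOf N := (Subgroup.subgroupOfEquivOfLe hDN).symm
  have he : ∀ y : D, ((e y : N) : G) = y := fun y => rfl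
  let z : IrrCharacter N → IrrCharacter D := fun θ => irrMap e (z' θ)
  have hz : ∀ θ y, (z θ : D → ℂ) y = (z' θ : D.subgroupOf N → ℂ) (e y) := fun θ y => rfl
  have hz1 : ∀ θ, (z θ : D → ℂ) 1 = (z' θ : D.subgroupOf N → ℂ) 1 := fun θ => by
    rw [hz, map_one]
  have hinj : ∀ θ ∈ b, ∀ θ' ∈ b, z θ = z θ' → θ = θ' := fun θ hθ θ' hθ' h =>
    hinj' θ hθ θ' hθ' (irrMap_injective e h)
  have hres : ∀ θ ∈ b, ∀ (y : D) (y' : N), (y' : G) = y →
      (θ : N → ℂ) y' * (z θ : D → ℂ) 1 = (θ : N → ℂ) 1 * (z θ : D → ℂ) y := by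
    intro θ hθ y y' hy
    have h1 := hres' θ hθ (e y)
    have h2 : ((e y : D.subgroupOf N) : N) = y' := Subtype.ext (by rw [he, hy])
    rw [h2] at h1
    rw [hz1, hz, h1]
  have hcD : (Nat.card (D.subgroupOf N)) = Nat.card D := Nat.card_congr e.symm.toEquiv
  rw [hcD] at hcν
  constructor
  · refine le_trans ?_ (count_le_card hkgv (p := p) D T N hDp hN hNT hidx b hst htr z hinj hres)
    haveI := finite_irr (G := G)
    exact Nat.card_le_card_of_injective
      (fun χ : B => (⟨χ.1, hroot χ.1 χ.2⟩ : {χ : IrrCharacter G // ∃ θ ∈ b,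
        Over N.subtype (χ : G → ℂ) (θ : N → ℂ)}))
      fun χ χ' h => Subtype.ext (congrArg (fun x => x.1) h)
  · -- height zero
    let Ω : Set (IrrCharacter N) := {θ | θ ∈ b ∧ (z θ : D → ℂ) 1 = 1}
    have hstΩ : ∀ g ∈ T, ∀ θ ∈ Ω, ∀ θ' : IrrCharacter N,
        (θ' : N → ℂ) = conjFn N (θ : N → ℂ) g → θ' ∈ Ω := by
      intro g hg θ hθ θ' h
      have h1 := hst g hg θ hθ.1 θ' h
      refine ⟨h1, ?_⟩
      have h2 := hdeg' θ hθ.1
      have h3 := hdeg' θ' h1
      have h4 : charDegree (θ' : N → ℂ) = charDegree (θ : N → ℂ) := by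
        apply charDegree_of_eq
        rw [coe_charDegree θ.2, h, conjFn_apply]
        refine congrArg (θ : N → ℂ) (Subtype.ext ?_)
        change g * ((1 : N) : G) * g⁻¹ = 1
        rw [OneMemClass.coe_one, mul_one, mul_inv_cancel]
      rw [h4, h2] at h3
      have h5 := Nat.eq_of_mul_eq_mul_right hc h3
      have h6 := hθ.2
      rw [hz1, ← coe_charDegree (z' θ).2] at h6
      rw [hz1, ← coe_charDegree (z' θ').2, ← h5]
      exact h6
    have htrΩ : ∀ (g : G), ∀ θ ∈ Ω, ∀ θ' ∈ Ω,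
        (θ' : N → ℂ) = conjFn N (θ : N → ℂ) g → g ∈ T :=
      fun g θ hθ θ' hθ' h => htr g θ hθ.1 θ' hθ'.1 h
    have hrootΩ : ∀ χ : IrrCharacter G, χ ∈ B ∧ blockHeight p B (χ : G → ℂ) = 0 →
        ∃ θ ∈ Ω, Over N.subtype (χ : G → ℂ) (θ : N → ℂ) := by
      rintro χ ⟨hχ, h0⟩
      obtain ⟨θ, hθ, ho⟩ := hroot χ hχ
      refine ⟨θ, ⟨hθ, ?_⟩, ho⟩
      have e1 := defect_of_height_zero p hM hB hD hχ h0
      -- Clifford
      have e2 : (inertia N (θ : N → ℂ)).index * charDegree (θ : N → ℂ) ∣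
          charDegree (χ : G → ℂ) :=
        index_mul_charDegree_dvd N χ.2 θ.2 ho
      have e3 : T.index ∣ (inertia N (θ : N → ℂ)).index :=
        Subgroup.index_dvd_of_le (inertia_le_of htr hθ)
      have e4 : T.index * (charDegree (z' θ : D.subgroupOf N → ℂ) * c) ∣
          charDegree (χ : G → ℂ) := by
        rw [← hdeg' θ hθ]
        exact (Nat.mul_dvd_mul_right e3 _).trans e2
      have hz0 := charDegree_pos (z' θ).2
      have hT0 : T.index ≠ 0 := T.index_ne_zero_of_finite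
      have e5 := (Nat.factorization_le_iff_dvd
        (mul_ne_zero hT0 (mul_ne_zero hz0.ne' hc.ne')) (charDegree_pos χ.2).ne').2 e4 p
      rw [Nat.factorization_mul hT0 (mul_ne_zero hz0.ne' hc.ne'),
        Nat.factorization_mul hz0.ne' hc.ne', Finsupp.add_apply, Finsupp.add_apply] at e5
      have hr0 : N.relIndex T ≠ 0 := (N.subgroupOf T).index_ne_zero_of_finite
      have e6 : (Nat.card G).factorization p =
          (Nat.card N).factorization p + T.index.factorization p := by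
        rw [← Subgroup.card_mul_index N, ← Subgroup.relIndex_mul_index hNT,
          Nat.factorization_mul Nat.card_pos.ne' (mul_ne_zero hr0 hT0),
          Nat.factorization_mul hr0 hT0, Finsupp.add_apply,
          Finsupp.add_apply, Nat.factorization_eq_zero_of_not_dvd hidx, zero_add]
      have e7 : (charDegree (z' θ : D.subgroupOf N → ℂ)).factorization p = 0 := by omega
      have e8 : charDegree (z' θ : D.subgroupOf N → ℂ) ∣ Nat.card (D.subgroupOf N) :=
        Blocks.CentralProduct.degree_dvd_card (z' θ).2 (coe_charDegree (z' θ).2).symm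
      obtain ⟨k, hk⟩ := (IsPGroup.iff_card (p := p)).1 hDp
      rw [hcD, hk] at e8
      obtain ⟨j, -, hj⟩ := (Nat.dvd_prime_pow hp.out).1 e8
      rw [hj, hp.out.factorization_pow, Finsupp.single_eq_same] at e7
      rw [hz1, ← coe_charDegree (z' θ).2, hj, e7]
      simp
    refine le_trans ?_ (count_lin_le hkgv (p := p) D T N hDp hN hNT hidx Ω hstΩ htrΩ z
      (fun θ hθ θ' hθ' h => hinj θ hθ.1 θ' hθ'.1 h) (fun θ hθ => hres θ hθ.1) fun θ hθ => hθ.2)
    haveI := finite_irr (G := G)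
    exact Nat.card_le_card_of_injective
      (fun χ : {χ : Cfsg.IrrCharacter G // χ ∈ B ∧ Cfsg.blockHeight p B (χ : G → ℂ) = 0} =>
        (⟨χ.1, hrootΩ χ.1 χ.2⟩ : {χ : IrrCharacter G // ∃ θ ∈ Ω,
          Over N.subtype (χ : G → ℂ) (θ : N → ℂ)}))
      fun χ χ' h => Subtype.ext (congrArg (fun x => x.1) h)

end Cfsg.Agent.H716.KGV
end

-- part: S4963
section
set_option autoImplicit false
open Cfsg

namespace Cfsg.Agent.S4963

/-- Let p be a prime, M a maximal ideal of the algebraic integers containing p, and B a p-block of the finite group G whose defect group D is normal in G. Then B contains at most as many irreducible characters as D has elements, and at most as many irreducible characters of height zero as the index of the derived subgroup of D in D. (No solvability hypothesis on G; derived from the k(GV) Theorem.) -/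
theorem result {G : Type*} [Group G] [Finite G] (p : ℕ) [Fact p.Prime] (M : Ideal Cfsg.AlgInt) (hM : Cfsg.IsPModular p M) (B : Set (Cfsg.IrrCharacter G)) (hB : Cfsg.IsPBlock M B) (D : Subgroup G) [D.Normal] (hD : Cfsg.IsDefectGroup p M B D) : Nat.card B ≤ Nat.card D ∧ Nat.card {χ : Cfsg.IrrCharacter G // χ ∈ B ∧ Cfsg.blockHeight p B (χ : G → ℂ) = 0} ≤ (commutator ↥D).index := H716.KGV.block_le H644.KGV.mainKGV p M hM B hB D hD

end Cfsg.Agent.S4963
end
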