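import Mathlib
import Cfsg.Statements.S4965
set_option linter.all false

-- part: H710/SplitCount
section
/-!
# The class number of an extension with abelian kernel is at most that of the split extension
(helper710)
-/

set_option autoImplicit false

namespace Cfsg.Agent.H710.SplitCount

open Subgroup

universe u

theorem card_le {X : Type u} [Group X] [Finite X] (V : Subgroup X) [V.Normal]
    (_hab : ∀ a ∈ V, ∀ b ∈ V, a * b = b * a) (φ : X ⧸ V →* MulAut ↥V)
    (hφ : ∀ (x : X) (v : ↥V), ((φ (QuotientGroup.mk x) v : ↥V) : X) = x * v * x⁻¹) :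
    Nat.card (ConjClasses X) ≤ Nat.card (ConjClasses (SemidirectProduct ↥V (X ⧸ V) φ)) := by
  classical
  let Y := SemidirectProduct ↥V (X ⧸ V) φ
  let eY : Y ≃ V × (X ⧸ V) := SemidirectProduct.equivProd
  have hYfin : Finite Y := Finite.of_equiv _ eY.symm
  have hcard : Nat.card Y = Nat.card X := by
    rw [Nat.card_congr eY, Nat.card_prod, ← V.card_mul_index]
    rfl
  -- commuting lifts
  let P : (X ⧸ V) × (X ⧸ V) → X × X → Prop := fun a p =>
    QuotientGroup.mk p.1 = a.1 ∧ QuotientGroup.mk p.2 = a.2 ∧ Commute p.1 p.2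
  let L : (X ⧸ V) × (X ⧸ V) → X × X := fun a => if h : ∃ p, P a p then h.choose else (1, 1)
  have hL : ∀ a, (∃ p, P a p) → P a (L a) := by
    intro a h
    have h1 : L a = h.choose := dif_pos h
    rw [h1]
    exact h.choose_spec
  have hPP : ∀ q : {p : X × X // Commute p.1 p.2},
      P (QuotientGroup.mk q.1.1, QuotientGroup.mk q.1.2)
        (L (QuotientGroup.mk q.1.1, QuotientGroup.mk q.1.2)) := by
    rintro ⟨⟨x, y⟩, hc⟩
    exact hL _ ⟨(x, y), rfl, rfl, hc⟩
  have hmem : ∀ x x0 : X, (QuotientGroup.mk x0 : X ⧸ V) = QuotientGroup.mk x → x * x0⁻¹ ∈ V := by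
    intro x x0 h
    rw [← QuotientGroup.eq_one_iff]
    show (QuotientGroup.mk x : X ⧸ V) * (QuotientGroup.mk x0)⁻¹ = 1
    rw [h, mul_inv_cancel]
  let Ψ : {p : X × X // Commute p.1 p.2} → {p : Y × Y // Commute p.1 p.2} := fun q =>
    ⟨(⟨⟨q.1.1 * (L (QuotientGroup.mk q.1.1, QuotientGroup.mk q.1.2)).1⁻¹,
        hmem _ _ (hPP q).1⟩, QuotientGroup.mk q.1.1⟩,
      ⟨⟨q.1.2 * (L (QuotientGroup.mk q.1.1, QuotientGroup.mk q.1.2)).2⁻¹,
        hmem _ _ (hPP q).2.1⟩, QuotientGroup.mk q.1.2⟩), by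
      obtain ⟨⟨x, y⟩, hc⟩ := q
      obtain ⟨h1, h2, h3⟩ := hPP ⟨(x, y), hc⟩
      set x0 := (L (QuotientGroup.mk x, QuotientGroup.mk y)).1 with hx0
      set y0 := (L (QuotientGroup.mk x, QuotientGroup.mk y)).2 with hy0
      have hu : x * x0⁻¹ ∈ V := hmem x x0 h1
      have hw : y * y0⁻¹ ∈ V := hmem y y0 h2
      apply SemidirectProduct.ext
      · apply Subtype.ext
        show (x * x0⁻¹) * ((φ (QuotientGroup.mk x) ⟨y * y0⁻¹, hw⟩ : V) : X) =
          (y * y0⁻¹) * ((φ (QuotientGroup.mk y) ⟨x * x0⁻¹, hu⟩ : V) : X)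
        have h4 : (QuotientGroup.mk x : X ⧸ V) = QuotientGroup.mk x0 := h1.symm
        have h5 : (QuotientGroup.mk y : X ⧸ V) = QuotientGroup.mk y0 := h2.symm
        rw [h4, h5, hφ, hφ]
        show (x * x0⁻¹) * (x0 * (y * y0⁻¹) * x0⁻¹) = (y * y0⁻¹) * (y0 * (x * x0⁻¹) * y0⁻¹)
        have h6 : x0 * y0 = y0 * x0 := h3
        have h7 : x * y = y * x := hc
        have h8 : (x * x0⁻¹) * (x0 * (y * y0⁻¹) * x0⁻¹) = x * y * (x0 * y0)⁻¹ := by group
        have h9 : (y * y0⁻¹) * (y0 * (x * x0⁻¹) * y0⁻¹) = y * x * (y0 * x0)⁻¹ := by group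
        rw [h8, h9, h6, h7]
      · show (QuotientGroup.mk x : X ⧸ V) * QuotientGroup.mk y =
          QuotientGroup.mk y * QuotientGroup.mk x
        have h7 : x * y = y * x := hc
        rw [← QuotientGroup.mk_mul, ← QuotientGroup.mk_mul, h7]⟩
  have hinj : Function.Injective Ψ := by
    rintro ⟨⟨x, y⟩, hc⟩ ⟨⟨x', y'⟩, hc'⟩ h
    have h1 := congrArg (fun z : {p : Y × Y // Commute p.1 p.2} => z.1.1.right) h
    have h2 := congrArg (fun z : {p : Y × Y // Commute p.1 p.2} => z.1.2.right) h
    have h3 := congrArg (fun z : {p : Y × Y // Commute p.1 p.2} => (z.1.1.left : X)) h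
    have h4 := congrArg (fun z : {p : Y × Y // Commute p.1 p.2} => (z.1.2.left : X)) h
    have h1' : (QuotientGroup.mk x : X ⧸ V) = QuotientGroup.mk x' := h1
    have h2' : (QuotientGroup.mk y : X ⧸ V) = QuotientGroup.mk y' := h2
    have h3' : x * (L (QuotientGroup.mk x, QuotientGroup.mk y)).1⁻¹ =
      x' * (L (QuotientGroup.mk x', QuotientGroup.mk y')).1⁻¹ := h3
    have h4' : y * (L (QuotientGroup.mk x, QuotientGroup.mk y)).2⁻¹ =
      y' * (L (QuotientGroup.mk x', QuotientGroup.mk y')).2⁻¹ := h4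
    rw [h1', h2'] at h3' h4'
    have hx : x = x' := mul_right_cancel h3'
    have hy : y = y' := mul_right_cancel h4'
    subst hx hy
    rfl
  have hle := Nat.card_le_card_of_injective Ψ hinj
  rw [card_comm_eq_card_conjClasses_mul_card, card_comm_eq_card_conjClasses_mul_card, hcard] at hle
  exact Nat.le_of_mul_le_mul_right hle Nat.card_pos

end Cfsg.Agent.H710.SplitCount
end

-- part: S4965
section
set_option autoImplicit false
open Cfsg

namespace Cfsg.Agent.S4965

/-- Let X be a finite group with an abelian normal subgroup V (any two elements of V commute), and let φ be the action of X ⧸ V on V induced by conjugation (well defined because V is abelian; the hypothesis hφ says that the class of x acts as conjugation by x). Then X has at most as many conjugacy classes as the semidirect product of V by X ⧸ V formed with this action: the split extension has the largest class number among extensions with the given action. -/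
theorem result {X : Type*} [Group X] [Finite X] (V : Subgroup X) [V.Normal] (hab : ∀ a ∈ V, ∀ b ∈ V, a * b = b * a) (φ : X ⧸ V →* MulAut ↥V) (hφ : ∀ (x : X) (v : ↥V), ((φ (QuotientGroup.mk x) v : ↥V) : X) = x * v * x⁻¹) : Nat.card (ConjClasses X) ≤ Nat.card (ConjClasses (SemidirectProduct ↥V (X ⧸ V) φ)) := by
  exact Cfsg.Agent.H710.SplitCount.card_le V hab φ hφ

end Cfsg.Agent.S4965
end
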