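import Cfsg.Statements.S4968
import Cfsg.Agent.H644.KGV.Final
import Cfsg.Agent.H354.KGL.Main
set_option linter.all false

set_option autoImplicit false
open Cfsg

namespace Cfsg.Agent.S4968

/-- Let X be a finite group and V a normal subgroup of X in which every element has order dividing the prime p, whose index in X is prime to p and which is its own centralizer in X; so V is an elementary abelian normal Sylow p-subgroup, and any complement G to V in X is a group of order prime to p acting faithfully on the vector space V by conjugation (the coprime linear setting of the k(GV) problem). Suppose V is nontrivial and G is a complement to V in X. Then G has at most (order of V) − 1 conjugacy classes, and equality holds if and only if G is cyclic and transitive by conjugation on the nonidentity elements of V (that is, G is a Singer cycle: the multiplicative group of a field structure on V). -/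
theorem result {X : Type*} [Group X] [Finite X] (p : ℕ) [Fact p.Prime] (V : Subgroup X) [V.Normal] (hVexp : ∀ v ∈ V, v ^ p = 1) (hidx : ¬ p ∣ V.index) (hself : Subgroup.centralizer (V : Set X) = V) (hV : V ≠ ⊥) (G : Subgroup X) (hGV : Subgroup.IsComplement' V G) : Nat.card (ConjClasses G) ≤ Nat.card V - 1 ∧ (Nat.card (ConjClasses G) = Nat.card V - 1 ↔ (IsCyclic G ∧ ∀ v ∈ V, ∀ w ∈ V, v ≠ 1 → w ≠ 1 → ∃ g ∈ G, g * v * g⁻¹ = w)) := by
  exact Cfsg.Agent.H354.KGL.Main.s4968_of_main Cfsg.Agent.H644.KGV.mainKGV p V hVexp hidx hself hV G hGV

end Cfsg.Agent.S4968
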