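import Mathlib
import Cfsg.Agent.H675.Nd.Tools
import Cfsg.Agent.H675.Nd.Base
import Cfsg.Agent.H597.ThreeDegA
import Cfsg.Agent.SolvableStructure.AbelianSocle
import Cfsg.Agent.SolvableStructure.SystemNormalizer
import Cfsg.Agent.Lib.Cores
import Cfsg.Agent.S0584
import Cfsg.Agent.S0009
import Cfsg.Agent.S0044
import Cfsg.Statements.S5010
set_option linter.all false

-- part: R2/H1/Sqf/Coprime
section
/-!
# Coprime action of a `p`-group with all orbits of length at most `p`

If a finite `p`-group `S` acts on an abelian group `A` without `p`-torsion and all the orbits have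
length `1` or `p`, then the kernel of the action has index `1` or `p`.
-/

set_option autoImplicit false
set_option linter.style.haveILetI false

namespace Cfsg.Agent.R2.H1.Sqf

section

variable {S A : Type*} [Group S] [CommGroup A]

/-- the stabilizer -/
def stb (φ : S →* MulAut A) (a : A) : Subgroup S where
  carrier := {s | φ s a = a}
  one_mem' := by simp
  mul_mem' := by
    intro s t hs ht
    change φ (s * t) a = a
    rw [map_mul, MulAut.mul_apply, ht, hs]
  inv_mem' := by
    intro s hs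
    change φ s⁻¹ a = a
    have h : φ s a = a := hs
    conv_lhs => rw [← h]
    rw [map_inv, MulAut.inv_apply_self]

theorem mem_stb {φ : S →* MulAut A} {a : A} {s : S} : s ∈ stb φ a ↔ φ s a = a := Iff.rfl

variable [Finite S]

/-- the norm -/
noncomputable def nm (φ : S →* MulAut A) (K : Subgroup S) (a : A) : A :=
  letI := Fintype.ofFinite K
  ∏ k : K, φ (k : S) a

theorem nm_mul (φ : S →* MulAut A) (K : Subgroup S) (a b : A) :
    nm φ K (a * b) = nm φ K a * nm φ K b := by
  letI := Fintype.ofFinite K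
  change ∏ k : K, φ (k : S) (a * b) = (∏ k : K, φ (k : S) a) * ∏ k : K, φ (k : S) b
  rw [← Finset.prod_mul_distrib]
  exact Finset.prod_congr rfl fun k _ => map_mul _ _ _

theorem nm_inv (φ : S →* MulAut A) (K : Subgroup S) (a : A) :
    nm φ K a⁻¹ = (nm φ K a)⁻¹ := by
  letI := Fintype.ofFinite K
  change ∏ k : K, φ (k : S) a⁻¹ = (∏ k : K, φ (k : S) a)⁻¹
  rw [← Finset.prod_inv_distrib]
  exact Finset.prod_congr rfl fun k _ => map_inv _ _

theorem nm_pow (φ : S →* MulAut A) (K : Subgroup S) (a : A) (n : ℕ) :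
    nm φ K (a ^ n) = nm φ K a ^ n := by
  letI := Fintype.ofFinite K
  change ∏ k : K, φ (k : S) (a ^ n) = (∏ k : K, φ (k : S) a) ^ n
  rw [← Finset.prod_pow]
  exact Finset.prod_congr rfl fun k _ => map_pow _ _ _

theorem nm_fixed (φ : S →* MulAut A) (K : Subgroup S) (a : A) (h : ∀ k ∈ K, φ k a = a) :
    nm φ K a = a ^ Nat.card K := by
  letI := Fintype.ofFinite K
  change ∏ k : K, φ (k : S) a = a ^ Nat.card K
  rw [Finset.prod_congr rfl fun (k : K) _ => h k k.2, Finset.prod_const, Finset.card_univ,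
    Nat.card_eq_fintype_card]

theorem nm_inv_left (φ : S →* MulAut A) (K : Subgroup S) (a : A) {k : S} (hk : k ∈ K) :
    φ k (nm φ K a) = nm φ K a := by
  letI := Fintype.ofFinite K
  change φ k (∏ k : K, φ (k : S) a) = ∏ k : K, φ (k : S) a
  rw [map_prod]
  refine Fintype.prod_equiv (Equiv.mulLeft (⟨k, hk⟩ : K)) _ _ fun j => ?_
  rw [Equiv.coe_mulLeft, Subgroup.coe_mul, map_mul, MulAut.mul_apply]

theorem nm_conj (φ : S →* MulAut A) (K : Subgroup S) [hK : K.Normal] (a : A) (s : S) :
    φ s (nm φ K a) = nm φ K (φ s a) := by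
  letI := Fintype.ofFinite K
  change φ s (∏ k : K, φ (k : S) a) = ∏ k : K, φ (k : S) (φ s a)
  rw [map_prod]
  refine Fintype.prod_equiv (MulAut.conjNormal s : MulAut K).toEquiv _ _ fun j => ?_
  rw [MulEquiv.toEquiv_eq_coe, MulEquiv.coe_toEquiv, MulAut.conjNormal_apply, ← MulAut.mul_apply,
    ← MulAut.mul_apply, ← map_mul, ← map_mul]
  congr 2
  group

/-- **Coprime action with small orbits.** -/
theorem exists_kernel (φ : S →* MulAut A) {p : ℕ} (hp : p.Prime) (hS : IsPGroup p S)
    (hA : ∀ (a : A) (n : ℕ), a ^ p ^ n = 1 → a = 1) (hidx : ∀ a : A, (stb φ a).index ∣ p) :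
    ∃ K : Subgroup S, K.index ∣ p ∧ ∀ k ∈ K, ∀ a : A, φ k a = a := by
  classical
  haveI := Fact.mk hp
  by_cases h0 : ∀ a : A, stb φ a = ⊤
  · exact ⟨⊤, by simp, fun k _ a => by
      have : k ∈ stb φ a := by rw [h0 a]; exact Subgroup.mem_top k
      exact this⟩
  push Not at h0
  obtain ⟨a, ha⟩ := h0
  have hKp : (stb φ a).index = p := by
    rcases (Nat.dvd_prime hp).1 (hidx a) with h | h
    · exact absurd (Subgroup.index_eq_one.1 h) ha
    · exact h
  set K := stb φ a with hK
  obtain ⟨n, hn⟩ := IsPGroup.iff_card.1 hS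
  haveI hKn : K.Normal := by
    have h1 : K.index = (Nat.card S).minFac := by
      rw [hKp, hn]
      have hn0 : n ≠ 0 := by
        rintro rfl
        rw [pow_zero] at hn
        have h2 := K.index_dvd_card
        rw [hn, hKp] at h2
        exact hp.one_lt.ne' (Nat.dvd_one.1 h2)
      exact (Nat.Prime.pow_minFac hp hn0).symm
    exact Subgroup.normal_of_index_eq_minFac_card h1
  obtain ⟨m, hm⟩ : ∃ m, Nat.card K = p ^ m := by
    have h1 := Subgroup.card_subgroup_dvd_card K
    rw [hn] at h1
    obtain ⟨m, -, hm⟩ := (Nat.dvd_prime_pow hp).1 h1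
    exact ⟨m, hm⟩
  have hcop : ∀ b c : A, b ^ Nat.card K = c ^ Nat.card K → b = c := by
    intro b c h
    have h1 : (b * c⁻¹) ^ p ^ m = 1 := by
      rw [mul_pow, inv_pow, ← hm, h, mul_inv_cancel]
    exact mul_inv_eq_one.1 (hA _ _ h1)
  refine ⟨K, hKp.dvd, ?_⟩
  intro k hk b
  by_contra hkb
  -- the part of `b` with trivial norm
  set b' := b ^ Nat.card K * (nm φ K b)⁻¹ with hb'
  have hN1 : nm φ K b' = 1 := by
    rw [hb', nm_mul, nm_pow, nm_inv, nm_fixed φ K (nm φ K b) (fun j hj => nm_inv_left φ K b hj),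
      mul_inv_cancel]
  have hb1 : φ k b' ≠ b' := by
    intro h
    apply hkb
    rw [hb', map_mul, map_pow, map_inv, nm_inv_left φ K b hk] at h
    exact hcop _ _ (mul_right_cancel h)
  have hsub : stb φ (a * b') ≤ K ⊓ stb φ b' := by
    intro s hs
    have hs' : φ s (a * b') = a * b' := hs
    have h1 : φ s (nm φ K (a * b')) = nm φ K (a * b') := by rw [nm_conj, hs']
    rw [nm_mul, hN1, mul_one, nm_fixed φ K a (fun j hj => hj), map_pow] at h1
    have h2 : φ s a = a := hcop _ _ h1
    refine ⟨h2, ?_⟩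
    rw [map_mul, h2] at hs'
    exact mul_left_cancel hs'
  have hlt : K ⊓ stb φ b' < K := by
    refine lt_of_le_of_ne inf_le_left fun h => hb1 ?_
    have : k ∈ K ⊓ stb φ b' := by rw [h]; exact hk
    exact this.2
  have h1 : (K ⊓ stb φ b').index ∣ p := (Subgroup.index_dvd_of_le hsub).trans (hidx _)
  have h2 : (K ⊓ stb φ b').relIndex K * K.index = (K ⊓ stb φ b').index :=
    Subgroup.relIndex_mul_index hlt.le
  rw [← h2, hKp] at h1
  have h3 : (K ⊓ stb φ b').relIndex K = 1 := by
    obtain ⟨c, hc⟩ := h1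
    have h4 : (K ⊓ stb φ b').relIndex K * c = 1 := by
      apply Nat.eq_of_mul_eq_mul_right hp.pos
      rw [one_mul]
      conv_rhs => rw [hc]
      ring
    exact Nat.eq_one_of_mul_eq_one_right h4
  exact hlt.not_ge (Subgroup.relIndex_eq_one.1 h3)

end

end Cfsg.Agent.R2.H1.Sqf
end

-- part: R2/H1/Sqf/Main
section
/-!
# Solvable groups with squarefree character degrees have derived length at most four
(Huppert–Manz)

`O_p(G/F(G))` has order `1` or `p` for every prime `p`, since a `p`-group acting coprimely and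
faithfully on an abelian group with orbits of length at most `p` has order at most `p`.  Hence
`G/F(G)` is metabelian, and `F(G)` is metabelian as well.
-/

set_option autoImplicit false
set_option linter.style.haveILetI false
set_option linter.unusedSectionVars false

namespace Cfsg.Agent.R2.H1.Sqf

open Cfsg Subgroup
open Cfsg.Agent.Characters.Core Cfsg.Agent.Characters.Clifford Cfsg.Agent.H672 Cfsg.Agent.H672.RM
open Cfsg.Agent.H675.Nd
open Cfsg.Agent.Lib.Cores
open scoped commutatorElement

universe u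

/-- `|P : P ∩ H|` divides `|G : H|` for `P` normal. -/
theorem relIndex_dvd_index' {G : Type*} [Group G] [Finite G] (H P : Subgroup G) [P.Normal] :
    H.relIndex P ∣ H.index := by
  refine dvd_trans ?_ (relIndex_dvd_index_of_le (le_sup_left : H ≤ H ⊔ P))
  have h1 : P.relIndex (H ⊔ P) = P.relIndex H := relIndex_sup_right H P
  have h2 := relIndex_mul_relIndex (H ⊓ P) H (H ⊔ P) inf_le_left le_sup_left
  have h3 := relIndex_mul_relIndex (H ⊓ P) P (H ⊔ P) inf_le_right le_sup_right
  rw [inf_relIndex_left] at h2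
  rw [inf_relIndex_right, h1, ← h2] at h3
  have h4 : 0 < P.relIndex H := Nat.pos_of_ne_zero index_ne_zero_of_finite
  have h5 : H.relIndex P = H.relIndex (H ⊔ P) := by
    apply Nat.eq_of_mul_eq_mul_right h4
    rw [h3, mul_comm]
  rw [h5]

variable {G : Type u} [Group G] [Finite G]

/-- All degrees are squarefree. -/
def SQ (G : Type u) [Group G] : Prop :=
  ∀ χ : G → ℂ, IsIrrCharacter G χ → Squarefree (charDegree χ)

theorem SQ.normal (h : SQ G) (N : Subgroup G) [N.Normal] : SQ N := by
  intro θ hθ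
  obtain ⟨χ, hχ, ho⟩ := exists_over_subtype N hθ
  exact (h χ hχ).squarefree_of_dvd (charDegree_dvd_of_over N hχ hθ ho).1

theorem SQ.quot (h : SQ G) (N : Subgroup G) [N.Normal] : SQ (G ⧸ N) := by
  intro χ hχ
  have h1 := h _ (isIrr_comp (QuotientGroup.mk' N) (QuotientGroup.mk'_surjective N) hχ)
  rwa [charDegree_comp_one] at h1

/-- The index of the stabilizer of a linear character of a normal subgroup is squarefree. -/
theorem SQ.stab_index (h : SQ G) (Q : Subgroup G) [Q.Normal] (l : Q →* ℂˣ) :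
    Squarefree (stab (lf l : Q → ℂ)).index := by
  obtain ⟨ψ, hψ, ho⟩ := exists_over_subtype Q (isIrr_lf l)
  obtain ⟨η, -, -, -, hd⟩ := eta_top (isIrr_lf l) hψ ho
  exact (h ψ hψ).squarefree_of_dvd (hd ▸ Dvd.intro _ rfl)

/-- A squarefree prime power is `1` or the prime. -/
theorem dvd_of_squarefree {p k : ℕ} (hp : p.Prime) (h : Squarefree (p ^ k)) : p ^ k ∣ p := by
  have hk : k ≤ 1 := by
    by_contra hcon
    have h2 : p * p ∣ p ^ k := by
      rw [← sq]
      exact pow_dvd_pow p (by omega)
    exact hp.one_lt.ne' (Nat.isUnit_iff.1 (h p h2))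
  exact (pow_dvd_pow p hk).trans (by rw [pow_one])

/-- Characters of a `p`-group. -/
theorem SQ.pgroup (h : SQ G) {p k : ℕ} (hp : p.Prime) (hc : Nat.card G = p ^ k) :
    derivedSeries G 2 = ⊥ := by
  apply Cfsg.Agent.H597.ThreeDegA.derived_two p
  intro χ hχ
  have h1 := degree_dvd_card hχ
  rw [hc] at h1
  obtain ⟨j, -, hj⟩ := (Nat.dvd_prime_pow hp).1 h1
  have h2 := dvd_of_squarefree hp (hj ▸ h χ hχ)
  rw [hj]
  exact (Nat.dvd_prime hp).1 h2

/-- A nilpotent group with squarefree degrees is metabelian. -/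
theorem SQ.nilp (h : SQ G) [Group.IsNilpotent G] : derivedSeries G 2 = ⊥ := by
  have h1 : ∀ p : ℕ, p.Prime → derivedSeries G 2 ≤ pPrimeCore p G := by
    intro p hp
    obtain ⟨k, hk⟩ := Cfsg.Agent.SolvableStructure.SystemNormalizer.exists_index_pPrimeCore
      (G := G) hp
    rw [index_eq_card] at hk
    have h2 := (h.quot (pPrimeCore p G)).pgroup hp hk
    rw [← map_derivedSeries_eq (QuotientGroup.mk'_surjective (pPrimeCore p G)) 2,
      Subgroup.map_eq_bot_iff, QuotientGroup.ker_mk'] at h2
    exact h2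
  rw [← card_eq_one]
  by_contra hne
  obtain ⟨p, hp, hpd⟩ := Nat.exists_prime_and_dvd hne
  have h2 : (Nat.card (derivedSeries G 2)).Coprime p :=
    Nat.Coprime.coprime_dvd_left (card_dvd_of_le (h1 p hp)) (pPrimeCore_coprime p)
  exact (hp.coprime_iff_not_dvd.1 h2.symm) hpd

/-- the action on linear characters -/
def act (Q : Subgroup G) [Q.Normal] : G →* MulAut (Q →* ℂˣ) where
  toFun g :=
    { toFun := cl g⁻¹
      invFun := cl g
      left_inv := fun l => by rw [← cl_mul, inv_mul_cancel, cl_one]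
      right_inv := fun l => by rw [← cl_mul, mul_inv_cancel, cl_one]
      map_mul' := fun l m => cl_hmul g⁻¹ l m }
  map_one' := by
    apply MulEquiv.ext
    intro l
    change cl (1 : G)⁻¹ l = l
    rw [inv_one, cl_one]
  map_mul' a b := by
    apply MulEquiv.ext
    intro l
    change cl (a * b)⁻¹ l = cl a⁻¹ (cl b⁻¹ l)
    rw [mul_inv_rev, cl_mul]

theorem act_apply (Q : Subgroup G) [Q.Normal] (g : G) (l : Q →* ℂˣ) :
    act Q g l = cl g⁻¹ l := rfl

theorem act_eq_iff (Q : Subgroup G) [Q.Normal] (g : G) (l : Q →* ℂˣ) :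
    act Q g l = l ↔ g ∈ stab (lf l : Q → ℂ) := by
  rw [act_apply, ← mem_stab_iff, inv_mem_iff]

/-- The kernel of the action. -/
theorem mem_ker_act {Q : Subgroup G} [Q.Normal] {g : G} (hg : g ∈ (act Q).ker) {q : G}
    (hq : q ∈ Q) : g * q * g⁻¹ * q⁻¹ ∈ ⁅Q, Q⁆ := by
  by_contra hcon
  have hm : g * q * g⁻¹ * q⁻¹ ∈ Q :=
    Q.mul_mem (Normal.conj_mem inferInstance q hq g) (Q.inv_mem hq)
  obtain ⟨l, -, hl⟩ := exists_lin_ne (x := (⟨_, hm⟩ : Q)) (commutator_le_left Q Q) le_rfl hcon
  apply hl
  have h1 : act Q g⁻¹ l = l := by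
    rw [map_inv, (MonoidHom.mem_ker).1 hg]
    rfl
  rw [act_apply, inv_inv] at h1
  have h2 := DFunLike.congr_fun h1 ⟨q, hq⟩
  rw [cl_apply] at h2
  have e : (⟨g * q * g⁻¹ * q⁻¹, hm⟩ : Q) =
      ⟨g * q * g⁻¹, Normal.conj_mem inferInstance q hq g⟩ * ⟨q, hq⟩⁻¹ := rfl
  rw [e, map_mul, map_inv]
  change l ⟨g * q * g⁻¹, _⟩ = l ⟨q, hq⟩ at h2
  rw [h2, mul_inv_cancel]

/-- Two subgroups with the same image modulo `Q ≤ H`. -/
theorem relIndex_eq_of_map {Q H A B : Subgroup G} [Q.Normal] (hQ : Q ≤ H) (h : A ⊔ Q = B ⊔ Q) :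
    H.relIndex A = H.relIndex B := by
  have h1 : H = (H.map (QuotientGroup.mk' Q)).comap (QuotientGroup.mk' Q) := by
    rw [comap_map_eq, QuotientGroup.ker_mk', sup_eq_left.2 hQ]
  have h2 : A.map (QuotientGroup.mk' Q) = B.map (QuotientGroup.mk' Q) := by
    have h3 := congrArg (Subgroup.map (QuotientGroup.mk' Q)) h
    rwa [Subgroup.map_sup, Subgroup.map_sup, QuotientGroup.map_mk'_self, sup_bot_eq,
      sup_bot_eq] at h3
  rw [h1, relIndex_comap, relIndex_comap, h2]

/-- **The main step**: `O_p(G/F(G))` has order dividing `p`. -/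
theorem SQ.main (h : SQ G) {p : ℕ} (hp : p.Prime) (P : Subgroup G) [hPn : P.Normal]
    (hFP : fittingSubgroup G ≤ P) {k : ℕ} (hk : (fittingSubgroup G).relIndex P = p ^ k) :
    (fittingSubgroup G).relIndex P ∣ p := by
  classical
  haveI := Fact.mk hp
  set F := fittingSubgroup G with hF
  haveI hFn : Group.IsNilpotent F := fittingSubgroup_isNilpotent
  haveI : (pPrimeCore p F).Characteristic := pPrimeCore_characteristic p
  set Q : Subgroup G := (pPrimeCore p F).map F.subtype with hQ
  haveI hQn : Q.Normal := inferInstance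
  have hQF : Q ≤ F := map_subtype_le _
  have hQc : (Nat.card Q).Coprime p :=
    Cfsg.Agent.SolvableStructure.SystemNormalizer.ppart_coprime p F
  obtain ⟨j, hj⟩ := Cfsg.Agent.SolvableStructure.SystemNormalizer.exists_index_pPrimeCore
      (G := F) hp
  have hQj : Q.relIndex F = p ^ j := by
    rw [← hj, relIndex, hQ, subgroupOf, comap_map_eq_self_of_injective F.subtype_injective]
  have hQP : Q.relIndex P = p ^ (j + k) := by
    rw [← relIndex_mul_relIndex Q F P hQF hFP, hQj, hk, pow_add]
  -- a Sylow subgroup of `P`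
  obtain ⟨S0⟩ := (inferInstance : Nonempty (Sylow p P))
  set S : Subgroup G := (S0 : Subgroup P).map P.subtype with hS
  have hSP : S ≤ P := map_subtype_le _
  have hSQ : S ⊔ Q = P := by
    refine le_antisymm (sup_le hSP (hQF.trans hFP)) ?_
    rw [← relIndex_eq_one]
    have h1 : (S ⊔ Q).relIndex P ∣ p ^ (j + k) := hQP ▸ relIndex_dvd_of_le_left P le_sup_right
    have h2 : (S ⊔ Q).relIndex P ∣ (S0 : Subgroup P).index := by
      have h3 : S.relIndex P = (S0 : Subgroup P).index := by
        rw [relIndex, hS, subgroupOf, comap_map_eq_self_of_injective P.subtype_injective]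
      rw [← h3]
      exact relIndex_dvd_of_le_left P le_sup_left
    have h3 : (p ^ (j + k)).Coprime (S0 : Subgroup P).index :=
      Nat.Coprime.pow_left _ (hp.coprime_iff_not_dvd.2 S0.not_dvd_index)
    exact Nat.eq_one_of_dvd_coprimes h3 h1 h2
  have hSp : IsPGroup p S := S0.isPGroup'.map _
  have hPQ : P ⊔ Q = P := sup_eq_left.2 (hQF.trans hFP)
  have hSQ' : S ⊔ Q = P ⊔ Q := by rw [hSQ, hPQ]
  -- the action
  let φ : S →* MulAut (Q →* ℂˣ) := (act Q).comp S.subtype
  have hstb : ∀ l : Q →* ℂˣ, stb φ l = (stab (lf l : Q → ℂ)).subgroupOf S := by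
    intro l
    ext s
    rw [mem_stb, mem_subgroupOf]
    exact act_eq_iff Q (s : G) l
  obtain ⟨K, hKp, hK⟩ := exists_kernel (A := Q →* ℂˣ) φ hp hSp (fun l n hl => by
      -- no `p`-torsion
      apply MonoidHom.ext
      intro q
      have h1 : l q ^ p ^ n = 1 := by
        have := DFunLike.congr_fun hl q
        rwa [MonoidHom.pow_apply] at this
      have h2 : l q ^ Nat.card Q = 1 := by rw [← map_pow, pow_card_eq_one', map_one]
      have h3 := pow_gcd_eq_one.2 ⟨h1, h2⟩
      rw [(hQc.symm.pow_left n).gcd_eq_one, pow_one] at h3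
      rw [h3, MonoidHom.one_apply])
    (fun l => by
      rw [hstb]
      change (stab (lf l : Q → ℂ)).relIndex S ∣ p
      have hQs : Q ≤ stab (lf l : Q → ℂ) := le_stab' (isIrr_lf l)
      have h1 : (stab (lf l : Q → ℂ)).relIndex P ∣ p ^ (j + k) :=
        hQP ▸ relIndex_dvd_of_le_left P hQs
      rw [relIndex_eq_of_map hQs hSQ']
      obtain ⟨i, -, hi⟩ := (Nat.dvd_prime_pow hp).1 h1
      rw [hi]
      apply dvd_of_squarefree hp
      rw [← hi]
      exact (h.stab_index Q l).squarefree_of_dvd (relIndex_dvd_index' _ P))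
  -- the kernel
  set C : Subgroup G := P ⊓ (act Q).ker with hC
  haveI hCn : C.Normal := inferInstance
  have hQC : Q ≤ C := by
    refine le_inf (hQF.trans hFP) fun q hq => ?_
    rw [MonoidHom.mem_ker]
    apply MulEquiv.ext
    intro l
    change cl q⁻¹ l = l
    exact cl_of_mem (Q.inv_mem hq) l
  have hCp : C.relIndex P ∣ p := by
    rw [← relIndex_eq_of_map hQC hSQ']
    refine dvd_trans ?_ hKp
    refine index_dvd_of_le fun s hs => ?_
    rw [mem_subgroupOf, hC, mem_inf, MonoidHom.mem_ker]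
    refine ⟨hSP s.2, ?_⟩
    apply MulEquiv.ext
    intro l
    exact hK s hs l
  -- `C` is nilpotent
  have hCnil : Group.IsNilpotent C := by
    haveI hQnil : Group.IsNilpotent Q :=
      Group.isNilpotent_congr (subgroupOfEquivOfLe hQF) |>.mp inferInstance
    have hBC : ⁅Q, Q⁆ ≤ C := (commutator_le_left Q Q).trans hQC
    refine S0584.result C ⁅Q, Q⁆ hBC
      (Cfsg.Agent.SolvableStructure.AbelianSocle.commutator_le_frattini Q) ?_
    let f : C ⧸ (⁅Q, Q⁆).subgroupOf C →* C ⧸ Q.subgroupOf C :=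
      QuotientGroup.map _ _ (MonoidHom.id C) (fun x hx => by
        rw [mem_subgroupOf] at hx
        change x ∈ Q.subgroupOf C
        rw [mem_subgroupOf]
        exact commutator_le_left Q Q hx)
    have hpg : Group.IsNilpotent (C ⧸ Q.subgroupOf C) := by
      have h1 : Nat.card (C ⧸ Q.subgroupOf C) ∣ p ^ (j + k) := by
        rw [← index_eq_card]
        change Q.relIndex C ∣ _
        rw [← hQP, ← relIndex_mul_relIndex Q C P hQC inf_le_left]
        exact Dvd.intro _ rfl
      obtain ⟨i, -, hi⟩ := (Nat.dvd_prime_pow hp).1 h1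
      exact (IsPGroup.of_card hi).isNilpotent
    refine Subgroup.isNilpotent_of_ker_le_center f ?_ 
    intro x hx
    obtain ⟨c, rfl⟩ := QuotientGroup.mk_surjective x
    have hcQ : (c : G) ∈ Q := by
      have h1 : f (c : C ⧸ (⁅Q, Q⁆).subgroupOf C) = 1 := (MonoidHom.mem_ker).1 hx
      have h2 : ((c : C) : C ⧸ Q.subgroupOf C) = 1 := h1
      rw [QuotientGroup.eq_one_iff, mem_subgroupOf] at h2
      exact h2
    rw [mem_center_iff]
    intro y
    obtain ⟨d, rfl⟩ := QuotientGroup.mk_surjective y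
    have h3 : (d : G) * c * (d : G)⁻¹ * (c : G)⁻¹ ∈ ⁅Q, Q⁆ := mem_ker_act d.2.2 hcQ
    have h4 : ((d * c * d⁻¹ * c⁻¹ : C) : C ⧸ (⁅Q, Q⁆).subgroupOf C) = 1 := by
      rw [QuotientGroup.eq_one_iff, mem_subgroupOf]
      exact h3
    rw [← QuotientGroup.mk_mul, ← QuotientGroup.mk_mul]
    have e : d * c = (d * c * d⁻¹ * c⁻¹) * (c * d) := by group
    rw [e, QuotientGroup.mk_mul, h4, one_mul]
  have hCF : C ≤ F := le_fittingSubgroup hCn hCnil
  exact (relIndex_dvd_of_le_left P hCF).trans hCp

/-- `O_p(G/F(G))` has order dividing `p`. -/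
theorem SQ.card_pCore (h : SQ G) {p : ℕ} (hp : p.Prime) :
    Nat.card (pCore p (G ⧸ fittingSubgroup G)) ∣ p := by
  haveI := Fact.mk hp
  set N := pCore p (G ⧸ fittingSubgroup G) with hN
  haveI : N.Normal := Cfsg.Agent.Lib.Cores.pCore_normal p
  set P := N.comap (QuotientGroup.mk' (fittingSubgroup G)) with hP
  have hFP : fittingSubgroup G ≤ P := by
    intro x hx
    rw [hP, mem_comap, (QuotientGroup.eq_one_iff x).2 hx |> fun e =>
      (show QuotientGroup.mk' (fittingSubgroup G) x = 1 from e)]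
    exact N.one_mem
  have hidx : (fittingSubgroup G).relIndex P = Nat.card N := by
    have h1 := relIndex_ker P (QuotientGroup.mk' (fittingSubgroup G))
    rw [QuotientGroup.ker_mk'] at h1
    rw [h1, hP, map_comap_eq_self_of_surjective (QuotientGroup.mk'_surjective _)]
  obtain ⟨k, hk⟩ := IsPGroup.iff_card.1 (pCore_isPGroup (G := G ⧸ fittingSubgroup G) p)
  rw [← hidx]
  exact h.main hp P hFP (hidx.trans hk)

/-- If all `O_p(H)` have prime order, `H` solvable is metabelian. -/
theorem derived_two_of_card {H : Type*} [Group H] [Finite H] [Group.IsSolvable H]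
    (h : ∀ p : ℕ, p.Prime → Nat.card (pCore p H) ∣ p) : derivedSeries H 2 = ⊥ := by
  have h1 : ∀ p : ℕ, p.Prime → pCore p H ≤ centralizer (commutator H : Set H) := by
    intro p hp
    haveI : (pCore p H).Normal := Cfsg.Agent.Lib.Cores.pCore_normal p
    haveI : IsCyclic (pCore p H) := by
      rcases (Nat.dvd_prime hp).1 (h p hp) with h2 | h2
      · haveI : Subsingleton (pCore p H) := (Nat.card_eq_one_iff_unique.1 h2).1
        infer_instance
      · haveI := Fact.mk hp
        exact isCyclic_of_prime_card h2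
    have hcomm : ∀ a b : MulAut (pCore p H), a * b = b * a := by
      intro a b
      apply (IsCyclic.mulAutMulEquiv (pCore p H)).injective
      rw [map_mul, map_mul, mul_comm]
    have h2 : commutator H ≤ (MulAut.conjNormal (H := pCore p H)).ker := by
      rw [_root_.commutator_def, commutator_le]
      intro a _ b _
      rw [MonoidHom.mem_ker, map_commutatorElement, commutatorElement_eq_one_iff_mul_comm]
      exact hcomm _ _
    intro x hx
    rw [mem_centralizer_iff]
    intro y hy
    have h3 := (MonoidHom.mem_ker).1 (h2 hy)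
    have h4 : y * x * y⁻¹ = x := by
      have h5 := DFunLike.congr_fun h3 (⟨x, hx⟩ : pCore p H)
      have h6 := congrArg Subtype.val h5
      rwa [MulAut.conjNormal_apply] at h6
    calc y * x = y * x * y⁻¹ * y := by group
      _ = x * y := by rw [h4]
  have h2 : fittingSubgroup H ≤ centralizer (commutator H : Set H) := by
    rw [S0009.result]
    exact iSup_le fun p => h1 p p.2
  have h3 : commutator H ≤ centralizer (fittingSubgroup H : Set H) :=
    le_centralizer_iff.1 h2
  have h4 : commutator H ≤ fittingSubgroup H := h3.trans S0044.result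
  rw [eq_bot_iff, derivedSeries_succ, derivedSeries_one, commutator_le]
  intro a ha b hb
  rw [mem_bot, commutatorElement_eq_one_iff_mul_comm]
  exact (mem_centralizer_iff.1 (h2 (h4 hb)) a ha)

/-- **Huppert–Manz.** -/
theorem SQ.derived_four (h : SQ G) [Group.IsSolvable G] : derivedSeries G 4 = ⊥ := by
  haveI : Group.IsSolvable (G ⧸ fittingSubgroup G) := inferInstance
  have h1 : derivedSeries G 2 ≤ fittingSubgroup G := by
    have h2 := derived_two_of_card (H := G ⧸ fittingSubgroup G) fun p hp => h.card_pCore hp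
    rw [← map_derivedSeries_eq (QuotientGroup.mk'_surjective (fittingSubgroup G)) 2,
      Subgroup.map_eq_bot_iff, QuotientGroup.ker_mk'] at h2
    exact h2
  haveI : Group.IsNilpotent (fittingSubgroup G) := fittingSubgroup_isNilpotent
  have h2 : derivedSeries (fittingSubgroup G) 2 = ⊥ := (h.normal _).nilp
  have h3 : (derivedSeries (fittingSubgroup G) 2).map (fittingSubgroup G).subtype =
      ⁅⁅fittingSubgroup G, fittingSubgroup G⁆, ⁅fittingSubgroup G, fittingSubgroup G⁆⁆ := by
    rw [derivedSeries_succ, derivedSeries_one, map_commutator, _root_.commutator_def,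
      map_commutator, ← MonoidHom.range_eq_map, range_subtype]
  rw [h2, Subgroup.map_bot] at h3
  rw [eq_bot_iff, h3, derivedSeries_succ, derivedSeries_succ]
  exact commutator_mono (commutator_mono h1 h1) (commutator_mono h1 h1)

end Cfsg.Agent.R2.H1.Sqf
end

-- part: S5010
section
set_option autoImplicit false
open Cfsg

namespace Cfsg.Agent.S5010

/-- Let `G` be a finite solvable group. If every irreducible complex character degree of `G` is squarefree (1 included), then the derived length of `G` is at most 4. -/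
theorem result {G : Type*} [Group G] [Finite G] [Group.IsSolvable G]
    (h : ∀ χ : Cfsg.IrrCharacter G, Squarefree (Cfsg.charDegree (χ : G → ℂ))) : derivedSeries G 4 = ⊥ := by
  exact Cfsg.Agent.R2.H1.Sqf.SQ.derived_four (fun χ hχ => h ⟨χ, hχ⟩)

end Cfsg.Agent.S5010
end
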