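import Cfsg.Statements.S5014
import Cfsg.Agent.H731.RankOne
set_option linter.all false

set_option autoImplicit false
open Cfsg

namespace Cfsg.Agent.S5014

open H731 in
/-- Let X = ⟨A, B⟩ be a rank one group with unipotent subgroups A and B and let Ω be the set of conjugates of A under X. Then Ω has at least three members, X acts doubly transitively on Ω by conjugation (any two ordered pairs of distinct members are carried to one another by a single element of X), and A acts regularly on Ω with A removed: for C, D in Ω different from A there is exactly one element of A conjugating C to D. -/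
theorem result {G : Type*} [Group G] {A B : Subgroup G} (h : Cfsg.IsRankOnePair A B) :
    (∃ C₁ ∈ Cfsg.unipotentSubgroups A B, ∃ C₂ ∈ Cfsg.unipotentSubgroups A B, ∃ C₃ ∈ Cfsg.unipotentSubgroups A B,
      C₁ ≠ C₂ ∧ C₁ ≠ C₃ ∧ C₂ ≠ C₃) ∧
    (∀ C₁ ∈ Cfsg.unipotentSubgroups A B, ∀ C₂ ∈ Cfsg.unipotentSubgroups A B, ∀ D₁ ∈ Cfsg.unipotentSubgroups A B,
      ∀ D₂ ∈ Cfsg.unipotentSubgroups A B, C₁ ≠ C₂ → D₁ ≠ D₂ →
        ∃ x ∈ A ⊔ B, Cfsg.conjBy C₁ x = D₁ ∧ Cfsg.conjBy C₂ x = D₂) ∧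
    (∀ C ∈ Cfsg.unipotentSubgroups A B, ∀ D ∈ Cfsg.unipotentSubgroups A B, C ≠ A → D ≠ A →
      ∃! a : G, a ∈ A ∧ Cfsg.conjBy C a = D) := by
  have hA := left_mem_unipotentSubgroups A B
  have hB := right_mem_unipotentSubgroups h
  refine ⟨?_, ?_, ?_⟩
  · obtain ⟨C, hC, hCA, hCB⟩ := rankOne_three h
    exact ⟨A, hA, B, hB, C, hC, h.ne, hCA.symm, hCB.symm⟩
  · intro C₁ hC₁ C₂ hC₂ D₁ hD₁ D₂ hD₂ hC hD
    exact rankOne_two_transitive h hC₁ hC₂ hD₁ hD₂ hC hD
  · intro C hC D hD hCA hDA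
    rcases (rankOne_mem_unipotent_iff h).1 hC with h1 | ⟨a, ha, rfl⟩
    · exact absurd h1 hCA
    rcases (rankOne_mem_unipotent_iff h).1 hD with h1 | ⟨a', ha', rfl⟩
    · exact absurd h1 hDA
    refine ⟨a' * a⁻¹, ⟨A.mul_mem ha' (A.inv_mem ha), by rw [conjBy_conjBy, inv_mul_cancel_right]⟩, ?_⟩
    rintro y ⟨hy, hy2⟩
    rw [conjBy_conjBy] at hy2
    have := rankOne_conj_inj h (A.mul_mem hy ha) ha' hy2
    rw [← this, mul_inv_cancel_right]

end Cfsg.Agent.S5014
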