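import Cfsg.Statements.S5015
import Cfsg.Agent.H731.RankOne
set_option linter.all false

set_option autoImplicit false
open Cfsg

namespace Cfsg.Agent.S5015

open H731 in
/-- Let a group Y act doubly transitively on a set Ω with at least three points, and suppose that the stabilizer of a point α contains a nilpotent subgroup A, normalized by that stabilizer, which acts regularly on the points other than α. Then for any y in Y moving α, the subgroups A and y A y⁻¹ are the unipotent subgroups of a rank one group, and the normal closure of A in Y (the subgroup generated by all conjugates of A) is generated by A and y A y⁻¹ alone. -/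
theorem result {Y Ω : Type*} [Group Y] [MulAction Y Ω]
    (h2 : MulAction.IsMultiplyPretransitive Y Ω 2) (hΩ : 3 ≤ ENat.card Ω) (α : Ω) (A : Subgroup Y)
    (hA : A ≤ MulAction.stabilizer Y α) (hAn : ∀ y ∈ MulAction.stabilizer Y α, Cfsg.conjBy A y = A)
    (hnil : Group.IsNilpotent A) (hreg : ∀ β γ : Ω, β ≠ α → γ ≠ α → ∃! a : Y, a ∈ A ∧ a • β = γ)
    (y : Y) (hy : y ∉ MulAction.stabilizer Y α) :
    Cfsg.IsRankOnePair A (Cfsg.conjBy A y) ∧ Subgroup.normalClosure (A : Set Y) = A ⊔ Cfsg.conjBy A y := by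
  -- conjugates of `A` only depend on the image of `α`
  have hyα : y • α ≠ α := fun h => hy (MulAction.mem_stabilizer_iff.2 h)
  have hdep : ∀ g g' : Y, g • α = g' • α → conjBy A g = conjBy A g' := by
    intro g g' hgg
    have h1 : g'⁻¹ * g ∈ MulAction.stabilizer Y α := by
      rw [MulAction.mem_stabilizer_iff, mul_smul, hgg, inv_smul_smul]
    have h3 := hAn _ h1
    rw [← conjBy_inj (g := g'), conjBy_conjBy, mul_inv_cancel_left] at h3
    exact h3
  -- `conjBy A g` is regular on the points other than `g • α`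
  have hregg : ∀ g : Y, ∀ β γ : Ω, β ≠ g • α → γ ≠ g • α → ∃ a ∈ conjBy A g, a • β = γ := by
    intro g β γ hβ hγ
    obtain ⟨a, ⟨ha, hab⟩, -⟩ := hreg (g⁻¹ • β) (g⁻¹ • γ)
      (fun h => hβ (by rw [← h, smul_inv_smul])) (fun h => hγ (by rw [← h, smul_inv_smul]))
    refine ⟨g * a * g⁻¹, conj_mem_conjBy ha g, ?_⟩
    rw [mul_smul, mul_smul, hab, smul_inv_smul]
  have hfree : ∀ a ∈ A, ∀ β : Ω, β ≠ α → a • β = β → a = 1 := by
    intro a ha β hβ hab
    exact (hreg β β hβ hβ).unique ⟨ha, hab⟩ ⟨A.one_mem, one_smul _ _⟩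
  have hfix : ∀ a ∈ A, a • α = α := fun a ha => MulAction.mem_stabilizer_iff.1 (hA ha)
  -- a third point
  obtain ⟨δ, hδα, hδy⟩ : ∃ δ : Ω, δ ≠ α ∧ δ ≠ y • α := by
    by_contra hcon
    push Not at hcon
    have hsub : (Set.univ : Set Ω) ⊆ {α, y • α} := by
      intro δ _
      by_cases h : δ = α
      · left; exact h
      · right; exact hcon δ h
    have h1 : ENat.card Ω ≤ 2 := by
      rw [← Set.encard_univ]
      exact (Set.encard_le_encard hsub).trans (Set.encard_pair hyα.symm).le
    have h3 : (3 : ℕ∞) ≤ 2 := hΩ.trans h1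
    exact absurd h3 (by decide)
  obtain ⟨a₀, ⟨ha₀, ha₀y⟩, -⟩ := hreg (y • α) δ hyα hδα
  -- the rank one condition for two different points
  have hcond : ∀ g g' : Y, g • α ≠ g' • α → RankOneCondition (conjBy A g) (conjBy A g') := by
    intro g g' hgg a ha ha1
    have ha' : g⁻¹ * a * g ∈ A := mem_conjBy.1 ha
    have hag : a • g • α = g • α := by
      have := hfix _ ha'
      rw [mul_smul, mul_smul, inv_smul_eq_iff] at this
      exact this
    have hag' : a⁻¹ • g' • α ≠ g' • α := by
      intro h
      have h1 : a • g' • α = g' • α := by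
        rw [inv_smul_eq_iff] at h; exact h.symm
      have h3 : (g⁻¹ * a * g) • g⁻¹ • g' • α = g⁻¹ • g' • α := by
        rw [mul_smul, mul_smul, smul_inv_smul, h1]
      have h4 := hfree _ ha' _ (fun h5 => hgg (by rw [inv_smul_eq_iff] at h5; exact h5.symm)) h3
      apply ha1
      have : a = g * (g⁻¹ * a * g) * g⁻¹ := by simp [mul_assoc]
      rw [this, h4]; simp
    have hag'' : a⁻¹ • g' • α ≠ g • α := by
      intro h
      rw [inv_smul_eq_iff, hag] at h
      exact hgg h.symm
    obtain ⟨b, hb, hbb⟩ := hregg g' (g • α) (a⁻¹ • g' • α) hgg hag'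
    refine ⟨b⁻¹, Subgroup.inv_mem _ hb, ?_, ?_⟩
    · intro h
      rw [inv_eq_one] at h
      rw [h, one_smul] at hbb
      exact hag'' hbb.symm
    · rw [inv_inv, conjBy_conjBy, conjBy_conjBy]
      apply hdep
      rw [mul_smul, mul_smul, hbb]
  have hne : A ≠ conjBy A y := by
    intro h
    have h1 : a₀ ∈ conjBy A y := by rw [← h]; exact ha₀
    rw [mem_conjBy] at h1
    have h3 := hfix _ h1
    rw [mul_smul, mul_smul, inv_smul_eq_iff, ha₀y] at h3
    exact hδy h3
  have hnil' : Group.IsNilpotent (conjBy A y) := by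
    have := hnil
    exact Group.nilpotent_of_surjective (A.equivMapOfInjective (MulAut.conj y).toMonoidHom
      (MulAut.conj y).injective).toMonoidHom (MulEquiv.surjective _)
  have c1 : RankOneCondition A (conjBy A y) := by
    have := hcond 1 y (by rw [one_smul]; exact hyα.symm)
    rwa [conjBy_one] at this
  have c2 : RankOneCondition (conjBy A y) A := by
    have := hcond y 1 (by rw [one_smul]; exact hyα)
    rwa [conjBy_one] at this
  refine ⟨⟨hne, hnil, hnil', c1, c2⟩, ?_⟩
  apply le_antisymm
  · rw [Subgroup.normalClosure, Subgroup.closure_le]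
    intro x hx
    obtain ⟨a, ha, hax⟩ := Group.mem_conjugatesOfSet_iff.1 hx
    obtain ⟨g, rfl⟩ := isConj_iff.1 hax
    by_cases hg : g • α = α
    · have : g * a * g⁻¹ ∈ conjBy A g := conj_mem_conjBy ha g
      rw [hAn g (MulAction.mem_stabilizer_iff.2 hg)] at this
      exact Subgroup.mem_sup_left this
    · obtain ⟨c, ⟨hc, hcy⟩, -⟩ := hreg (y • α) (g • α) hyα hg
      have h1 : conjBy A g = conjBy (conjBy A y) c := by
        rw [conjBy_conjBy]
        exact hdep _ _ (by rw [mul_smul, hcy])
      have h3 : g * a * g⁻¹ ∈ conjBy A g := conj_mem_conjBy ha g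
      rw [h1, mem_conjBy] at h3
      have h4 : g * a * g⁻¹ = c * (c⁻¹ * (g * a * g⁻¹) * c) * c⁻¹ := by simp [mul_assoc]
      rw [h4]
      exact Subgroup.mul_mem _ (Subgroup.mul_mem _ (Subgroup.mem_sup_left hc) (Subgroup.mem_sup_right h3))
        (Subgroup.inv_mem _ (Subgroup.mem_sup_left hc))
  · refine sup_le Subgroup.subset_normalClosure ?_
    intro x hx
    rw [mem_conjBy] at hx
    have h1 : x = y * (y⁻¹ * x * y) * y⁻¹ := by simp [mul_assoc]
    rw [h1]
    exact Subgroup.normalClosure_normal.conj_mem _ (Subgroup.subset_normalClosure hx) y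

end Cfsg.Agent.S5015
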