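import Cfsg.Statements.S5017
import Cfsg.Agent.H731.RankOne
set_option linter.all false

set_option autoImplicit false
open Cfsg

namespace Cfsg.Agent.S5017

open H731 in
/-- Let X be a rank one group with unipotent subgroups A and B and N a normal subgroup of X. Then either X = N A or N lies in the centre of X. Consequently a perfect rank one group is quasisimple. -/
theorem result {X : Type*} [Group X] {A B : Subgroup X} (h : Cfsg.IsRankOneGroup X A B) :
    (∀ N : Subgroup X, N.Normal → N ⊔ A = ⊤ ∨ N ≤ Subgroup.center X) ∧
    (Group.IsPerfect X → Cfsg.IsQuasisimple X) := by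
  obtain ⟨htop, h⟩ := h
  have key : ∀ N : Subgroup X, N.Normal → N ⊔ A = ⊤ ∨ N ≤ Subgroup.center X := by
    intro N hN
    have := rankOne_dichotomy h (N := N) (by rw [htop]; exact le_top) (fun x _ => by
      rw [← mem_normalizer_iff_conjBy, Subgroup.normalizer_eq_top]; exact Subgroup.mem_top _)
    rw [htop] at this
    rcases this with h1 | h1
    · exact Or.inl h1
    · right
      intro n hn
      have := h1 hn
      rw [← htop, rankOneGroup_mem_centralizer_iff htop] at this
      exact this
  refine ⟨key, fun hperf => ⟨hperf, ?_⟩⟩
  have hnc : Subgroup.center X ≠ ⊤ := by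
    intro hc
    apply rankOne_not_commute h
    rw [commutator_eq_bot_iff_forall]
    intro a _ b _
    have : a ∈ Subgroup.center X := by rw [hc]; exact Subgroup.mem_top _
    exact ((Subgroup.mem_center_iff.1 this) b).symm
  haveI : Nontrivial (X ⧸ Subgroup.center X) := by
    rw [QuotientGroup.nontrivial_iff]
    exact hnc
  refine ⟨fun M hM => ?_⟩
  -- preimage of M
  have hNM : (M.comap (QuotientGroup.mk' (Subgroup.center X))).Normal := hM.comap _
  rcases key _ hNM with h1 | h1
  · right
    -- X / N is nilpotent and perfect
    set N := M.comap (QuotientGroup.mk' (Subgroup.center X)) with hNdef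
    have hNtop : N = ⊤ := by
      by_contra hN
      haveI : Nontrivial (X ⧸ N) := QuotientGroup.nontrivial_iff.2 hN
      have hnilA := h.nilpotent_left
      have hsurj : Function.Surjective ((QuotientGroup.mk' N).comp A.subtype) := by
        intro q
        obtain ⟨x, rfl⟩ := QuotientGroup.mk'_surjective N q
        have hx : x ∈ N ⊔ A := by rw [h1]; exact Subgroup.mem_top _
        rw [Subgroup.mem_sup_of_normal_left] at hx
        obtain ⟨n, hn, a, ha, rfl⟩ := hx
        refine ⟨⟨a, ha⟩, ?_⟩
        simp only [MonoidHom.comp_apply, Subgroup.subtype_apply, map_mul]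
        have : (QuotientGroup.mk' N) n = 1 := by
          rw [QuotientGroup.mk'_apply, QuotientGroup.eq_one_iff]; exact hn
        rw [this, one_mul]
      have hnil : Group.IsNilpotent (X ⧸ N) := Group.nilpotent_of_surjective _ hsurj
      have hsolv : Group.IsSolvable (X ⧸ N) := inferInstance
      have hlt := IsSolvable.commutator_lt_top_of_nontrivial (X ⧸ N)
      have hperf' : commutator (X ⧸ N) = ⊤ := by
        have h3 : (commutator X).map (QuotientGroup.mk' N) = commutator (X ⧸ N) := by
          rw [commutator_def, commutator_def, Subgroup.map_commutator,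
            Subgroup.map_top_of_surjective _ (QuotientGroup.mk'_surjective N)]
        rw [← h3, hperf.commutator_eq_top, Subgroup.map_top_of_surjective _ (QuotientGroup.mk'_surjective N)]
      rw [hperf'] at hlt
      exact lt_irrefl _ hlt
    rw [eq_top_iff]
    intro q _
    obtain ⟨x, rfl⟩ := QuotientGroup.mk'_surjective _ q
    have : x ∈ N := by rw [hNtop]; exact Subgroup.mem_top _
    exact this
  · left
    rw [eq_bot_iff]
    intro q hq
    obtain ⟨x, rfl⟩ := QuotientGroup.mk'_surjective _ q
    have hx : x ∈ M.comap (QuotientGroup.mk' (Subgroup.center X)) := hq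
    have hx' := h1 hx
    rw [Subgroup.mem_bot, QuotientGroup.mk'_apply, QuotientGroup.eq_one_iff]
    exact hx'

end Cfsg.Agent.S5017
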