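import Cfsg.Statements.S5020
import Cfsg.Agent.S5017
import Cfsg.Agent.H732.MinimalSL2
set_option linter.all false

set_option autoImplicit false
open Cfsg
open Cfsg.Agent.H731

namespace Cfsg.Agent.S5020

theorem isQuasisimple_top {X : Type*} [Group X] (h : Cfsg.IsQuasisimple X) : Cfsg.IsQuasisimple (⊤ : Subgroup X) := by
  obtain ⟨h1, h2⟩ := h
  have e : X ≃* (⊤ : Subgroup X) := Subgroup.topEquiv.symm
  constructor
  · rw [Group.isPerfect_def] at h1 ⊢
    rw [eq_top_iff]
    intro x _
    obtain ⟨y, rfl⟩ := e.surjective x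
    have hy : y ∈ commutator X := by rw [h1]; exact Subgroup.mem_top _
    have := Subgroup.mem_map_of_mem e.toMonoidHom hy
    rw [commutator_def, Subgroup.map_commutator] at this
    exact Subgroup.commutator_mono le_top le_top this
  · have hc : (Subgroup.center X).map e.toMonoidHom = Subgroup.center (⊤ : Subgroup X) := by
      ext x
      constructor
      · rintro ⟨y, hy, rfl⟩
        rw [Subgroup.mem_center_iff]
        intro g
        obtain ⟨z, rfl⟩ := e.surjective g
        have := (Subgroup.mem_center_iff.1 hy) z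
        change e z * e y = e y * e z
        rw [← map_mul, ← map_mul, this]
      · intro hx
        obtain ⟨y, rfl⟩ := e.surjective x
        refine ⟨y, ?_, rfl⟩
        rw [SetLike.mem_coe, Subgroup.mem_center_iff]
        intro g
        apply e.injective
        rw [map_mul, map_mul]
        exact Subgroup.mem_center_iff.1 hx _
    have e2 := QuotientGroup.congr (Subgroup.center X) (Subgroup.center (⊤ : Subgroup X)) e hc
    exact e2.symm.isSimpleGroup

theorem card_cases {α : Type*} {e : α} (h : ENat.card α ≤ 3) (hne : ∃ a : α, a ≠ e) :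
    Nat.card α = 2 ∨ Nat.card α = 3 := by
  have hfin : Finite α := by
    rw [← ENat.card_lt_top]
    exact lt_of_le_of_lt h (by exact_mod_cast ENat.natCast_lt_top 3)
  rw [ENat.card_eq_coe_natCard] at h
  have h1 : Nat.card α ≤ 3 := by exact_mod_cast h
  obtain ⟨a, ha⟩ := hne
  have h2 : 1 < Nat.card α := by
    rw [Finite.one_lt_card_iff_nontrivial]
    exact ⟨a, e, ha⟩
  omega

/-- Let X be a special rank one group with abelian unipotent subgroups A and B, and H = N(A) ∩ N(B) its diagonal subgroup. Then either A has at most three elements and X is isomorphic to SL₂(2), SL₂(3) or PSL₂(3); or X = X' A with the commutator subgroup X' quasisimple and the commutator subgroup ⁅A, H⁆ having more than three elements. -/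
theorem result {X : Type*} [Group X] {A B : Subgroup X} (h : Cfsg.IsRankOneGroup X A B)
    (hs : Cfsg.IsSpecialRankOnePair A B) (hab : Cfsg.HasAbelianUnipotents A B) :
    (ENat.card A ≤ 3 ∧ (Nonempty (X ≃* Matrix.SpecialLinearGroup (Fin 2) (ZMod 2)) ∨
        Nonempty (X ≃* Matrix.SpecialLinearGroup (Fin 2) (ZMod 3)) ∨
        Nonempty (X ≃* Matrix.ProjectiveSpecialLinearGroup (Fin 2) (ZMod 3)))) ∨
    (commutator X ⊔ A = ⊤ ∧ Cfsg.IsQuasisimple (commutator X) ∧
      3 < ENat.card ↥(⁅A, Cfsg.rankOneDiagonal A B⁆ : Subgroup X)) := by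
  rcases le_or_gt (ENat.card A) 3 with hcard | hcard
  · left
    refine ⟨hcard, ?_⟩
    obtain ⟨a, ha, ha1⟩ := rankOne_exists_left hs.1
    -- a general statement for a prime `p = |A|`
    have key : ∀ p : ℕ, ∀ _ : Fact p.Prime, Nat.card A = p →
        Nonempty (X ≃* Matrix.SpecialLinearGroup (Fin 2) (ZMod p)) ∨
        Nonempty (X ≃* Matrix.ProjectiveSpecialLinearGroup (Fin 2) (ZMod p)) := by
      intro p hp hAp
      have hexp : ∀ a ∈ A, a ^ p = 1 := by
        intro a ha
        have := pow_card_eq_one' (x := (⟨a, ha⟩ : A))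
        rw [hAp] at this
        exact congrArg Subtype.val this
      have hAz : A = Subgroup.zpowers a := by
        symm
        have hfin : Finite A := Nat.finite_of_card_ne_zero (by rw [hAp]; exact hp.out.ne_zero)
        apply Subgroup.eq_of_le_of_card_ge (Subgroup.zpowers_le.2 ha)
        rw [hAp, Nat.card_zpowers, orderOf_eq_prime (hexp a ha) ha1]
      have hfinA : Finite A := Nat.finite_of_card_ne_zero (by rw [hAp]; exact hp.out.ne_zero)
      have hcB : Nat.card B = p := by
        obtain ⟨x, -, hx⟩ := right_mem_unipotentSubgroups hs.1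
        rw [hx, ← hAp]
        exact (Nat.card_congr (A.equivMapOfInjective _ (MulAut.conj x).injective).toEquiv).symm
      have hfinB : Finite B := Nat.finite_of_card_ne_zero (by rw [hcB]; exact hp.out.ne_zero)
      have hBz : B = Subgroup.zpowers (H732.par A B a) := by
        symm
        apply Subgroup.eq_of_le_of_card_ge (Subgroup.zpowers_le.2 (H732.par_mem A B a))
        rw [hcB, Nat.card_zpowers, orderOf_eq_prime (H732.pow_eq_one_right hs.1 hexp _ (H732.par_mem A B a))
          (H732.par_ne_one hs.1 ha ha1)]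
      have htop : Subgroup.closure ({a, H732.par A B a} : Set X) = ⊤ := by
        rw [eq_top_iff, ← h.1]
        refine sup_le ?_ ?_
        · rw [hAz, Subgroup.zpowers_le]; exact Subgroup.subset_closure (by simp)
        · rw [hBz, Subgroup.zpowers_le]
          rw [← hBz]
          exact Subgroup.subset_closure (by simp)
      have e : X ≃* ↥(Subgroup.closure ({a, H732.par A B a} : Set X)) := by
        rw [htop]; exact Subgroup.topEquiv.symm
      rcases H732.closure_equiv hs hab.1 hab.2 hexp ha ha1 with ⟨⟨f⟩⟩ | ⟨⟨f⟩⟩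
      · exact Or.inl ⟨e.trans f⟩
      · exact Or.inr ⟨e.trans f⟩
    rcases card_cases (e := (1 : A)) hcard ⟨⟨a, ha⟩, fun h => ha1 (congrArg Subtype.val h)⟩ with hc | hc
    · rcases key 2 ⟨Nat.prime_two⟩ hc with ⟨⟨f⟩⟩ | ⟨⟨f⟩⟩
      · exact Or.inl ⟨f⟩
      · left
        -- the centre of SL₂(2) is trivial
        have hneg : (-1 : ZMod 2) = 1 := by decide
        have hfact : Fact (Nat.Prime 2) := ⟨Nat.prime_two⟩
        have hc2 : Subgroup.center (Matrix.SpecialLinearGroup (Fin 2) (ZMod 2)) = ⊥ := by
          rw [Subgroup.eq_bot_iff_forall]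
          intro z hz
          obtain ⟨z01, z10, z0011, z00⟩ := H732.sl2_center_entries hz
          have z00 : (z : Matrix (Fin 2) (Fin 2) (ZMod 2)) 0 0 = 1 := z00.elim id (fun h => h.trans hneg)
          apply sl2_ext
          · rw [z00, one_00]
          · rw [z01, one_01]
          · rw [z10, one_10]
          · rw [← z0011, z00, one_11]
        have e3 : Matrix.ProjectiveSpecialLinearGroup (Fin 2) (ZMod 2) ≃*
            Matrix.SpecialLinearGroup (Fin 2) (ZMod 2) :=
          (QuotientGroup.quotientMulEquivOfEq hc2).trans QuotientGroup.quotientBot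
        exact ⟨f.trans e3⟩
    · rcases key 3 ⟨Nat.prime_three⟩ hc with ⟨⟨f⟩⟩ | ⟨⟨f⟩⟩
      · exact Or.inr (Or.inl ⟨f⟩)
      · exact Or.inr (Or.inr ⟨f⟩)
  · right
    have hperf := H732.commutator_eq_top h hs hab.1 hcard
    refine ⟨?_, ?_, ?_⟩
    · rw [hperf]; exact top_sup_eq _
    · rw [hperf]
      exact isQuasisimple_top ((S5017.result h).2 (Group.isPerfect_def.2 hperf))
    · rw [H732.commDiag_eq hs hab.1 hcard]
      exact hcard

end Cfsg.Agent.S5020
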