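import Cfsg.Statements.S5023
import Cfsg.Agent.S5019
import Cfsg.Agent.H732.SpecialAb
set_option linter.all false

set_option autoImplicit false
open Cfsg
open Cfsg.Agent.H731

namespace Cfsg.Agent.S5023

/-- Let X be a rank one group with unipotent subgroups A and B that acts faithfully on an abelian group V (written additively) with A acting quadratically: a' • (a • v − v) = a • v − v for all a, a' in A and v in V. Then A is either torsion-free or an elementary abelian p-group for some prime p. -/
theorem result {X : Type*} [Group X] {A B : Subgroup X} (h : Cfsg.IsRankOneGroup X A B)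
    {V : Type*} [AddCommGroup V] [DistribMulAction X V] (hf : ∀ x : X, (∀ v : V, x • v = v) → x = 1)
    (hq : ∀ a ∈ A, ∀ a' ∈ A, ∀ v : V, a' • (a • v - v) = a • v - v) :
    (∀ a ∈ A, a ≠ 1 → ¬ IsOfFinOrder a) ∨ ∃ p : ℕ, p.Prime ∧ Cfsg.IsElementaryAbelian p A := by
  -- quadratic and faithful implies commuting
  have hcomm : ∀ a a' : X, (∀ v : V, a' • (a • v - v) = a • v - v) → (∀ v : V, a • (a' • v - v) = a' • v - v) →
      a * a' = a' * a := by
    intro a a' h1 h2
    have h3 : ∀ v : V, (a * a') • v = (a' * a) • v := by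
      intro v
      have e1 := h1 v
      have e2 := h2 v
      rw [smul_sub, sub_eq_iff_eq_add] at e1 e2
      rw [mul_smul, mul_smul, e1, e2]
      abel
    have h4 : (a' * a)⁻¹ * (a * a') = 1 := by
      apply hf
      intro v
      rw [mul_smul, h3, inv_smul_smul]
    exact (inv_mul_eq_one.1 h4).symm
  have hA : IsMulCommutative A := by
    refine ⟨⟨?_⟩⟩
    rintro ⟨a, ha⟩ ⟨a', ha'⟩
    exact Subtype.ext (hcomm a a' (hq a ha a' ha') (hq a' ha' a ha))
  have hB : IsMulCommutative B := by
    obtain ⟨x, -, hx⟩ := right_mem_unipotentSubgroups h.2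
    refine ⟨⟨?_⟩⟩
    rintro ⟨b, hb⟩ ⟨b', hb'⟩
    apply Subtype.ext
    rw [hx, mem_conjBy] at hb hb'
    have h1 := H732.comm_of_isMulCommutative hA hb hb'
    have h2 : b * b' = x * ((x⁻¹ * b * x) * (x⁻¹ * b' * x)) * x⁻¹ := by simp [mul_assoc]
    have h3 : b' * b = x * ((x⁻¹ * b' * x) * (x⁻¹ * b * x)) * x⁻¹ := by simp [mul_assoc]
    change b * b' = b' * b
    rw [h2, h3, h1]
  have hX : ∃ x y : X, ∃ n : V, y • (x • n - n) ≠ x • n - n := by
    by_contra hcon
    push Not at hcon
    apply rankOne_not_commute h.2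
    rw [commutator_eq_bot_iff_forall]
    intro a _ b _
    exact hcomm a b (hcon a b) (hcon b a)
  have hs := S5019.result h ⟨hA, hB⟩ hq hX
  rcases H732.elementary_or_divisible hs hA hB with h1 | h1
  · exact Or.inr h1
  · exact Or.inl h1.1

end Cfsg.Agent.S5023
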