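import Cfsg.Statements.S5024
import Cfsg.Agent.H731.RankOne
set_option linter.all false

set_option autoImplicit false
open Cfsg
open Cfsg.Agent.H731

namespace Cfsg.Agent.S5024

/-- If a member `A` of `S` lies in the rank one group `⟨C, D⟩` and does not centralize it, it is one of the unipotent subgroups. -/
theorem mem_unipotent_of_le {G : Type*} [Group G] {S : Set (Subgroup G)} (hS : Cfsg.IsRootSubgroupSet S)
    {A C D : Subgroup G} (hA : A ∈ S) (hC : C ∈ S) (hCD : IsRankOnePair C D) (hle : A ≤ C ⊔ D)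
    (hcent : ¬ A ≤ Subgroup.centralizer ((C ⊔ D : Subgroup G) : Set G)) : A ∈ unipotentSubgroups C D := by
  by_contra hAΩ
  apply hcent
  intro a ha
  refine rankOne_centralizes_of_fix hCD (hle ha) ?_
  intro E hE
  have hES : E ∈ S := by
    obtain ⟨x, -, rfl⟩ := hE
    exact hS.conj_mem C hC x
  rcases hS.pair A hA E hES with h1 | h1 | h1
  · -- commuting
    rw [commutator_eq_bot_iff_forall] at h1
    exact conjBy_of_commute (h1 a ha)
  · -- rank one pair: then A is a conjugate of E
    exfalso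
    apply hAΩ
    obtain ⟨x, hx, hx1⟩ := rankOne_exists_left h1
    obtain ⟨e, he, he1, hae⟩ := h1.cond_left x hx hx1
    rw [conjBy_inv_eq_iff, conjBy_conjBy] at hae
    rw [hae]
    exact conjBy_mem_unipotentSubgroups hE (Subgroup.mul_mem _ (rankOne_le_of_mem hCD hE he)
      (Subgroup.inv_mem _ (hle hx)))
  · -- commutator case
    by_contra hne
    obtain ⟨-, hF, -, -⟩ := h1
    -- E and E^a are different members of Ω
    have hE' : conjBy E a ∈ unipotentSubgroups C D := conjBy_mem_unipotentSubgroups hE (hle ha)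
    have hpair : IsRankOnePair E (conjBy E a) := rankOne_pair_of_mem hCD hE hE' (fun h => hne h.symm)
    apply rankOne_not_commute hpair
    rw [commutator_eq_bot_iff_forall]
    intro e he f hf
    rw [mem_conjBy] at hf
    -- f = a f' a⁻¹ = [a,f'] f'
    obtain ⟨f', hf'⟩ : ∃ f', f' = a⁻¹ * f * a := ⟨_, rfl⟩
    rw [← hf'] at hf
    have hff : f = (a * f' * a⁻¹ * f'⁻¹) * f' := by rw [hf']; simp [mul_assoc]
    have hcm : a * f' * a⁻¹ * f'⁻¹ ∈ ⁅A, E⁆ := Subgroup.commutator_mem_commutator ha hf
    have h2 := hF _ hcm e (Subgroup.mem_sup_right he)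
    have h3 : e * f' = f' * e := by
      have := (hS.commutative E hES).is_comm.comm ⟨e, he⟩ ⟨f', hf⟩
      exact congrArg Subtype.val this
    rw [hff, ← mul_assoc, ← h2, mul_assoc _ e f', h3, ← mul_assoc]

/-- Let S be a set of abstract root subgroups of G, A and C members of S, B a rank one partner of A in S and D a rank one partner of C in S. If the rank one group ⟨A, B⟩ is contained in ⟨C, D⟩ then the two coincide, and C and D are conjugates of A inside ⟨A, B⟩. -/
theorem result {G : Type*} [Group G] {S : Set (Subgroup G)} (hS : Cfsg.IsRootSubgroupSet S)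
    {A B C D : Subgroup G} (hA : A ∈ S) (hC : C ∈ S) (hB : B ∈ Cfsg.rankOnePartners S A) (hD : D ∈ Cfsg.rankOnePartners S C)
    (hle : A ⊔ B ≤ C ⊔ D) : A ⊔ B = C ⊔ D ∧ C ∈ Cfsg.unipotentSubgroups A B ∧ D ∈ Cfsg.unipotentSubgroups A B := by
  obtain ⟨hBS, hAB⟩ := hB
  obtain ⟨hDS, hCD⟩ := hD
  have hAle : A ≤ C ⊔ D := le_sup_left.trans hle
  have hBle : B ≤ C ⊔ D := le_sup_right.trans hle
  have hnc := rankOne_not_commute hAB
  have hA1 : ¬ A ≤ Subgroup.centralizer ((C ⊔ D : Subgroup G) : Set G) := by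
    intro h1
    apply hnc
    rw [Subgroup.commutator_eq_bot_iff_le_centralizer]
    exact h1.trans (Subgroup.centralizer_le hBle)
  have hB1 : ¬ B ≤ Subgroup.centralizer ((C ⊔ D : Subgroup G) : Set G) := by
    intro h1
    apply hnc
    rw [Subgroup.commutator_comm, Subgroup.commutator_eq_bot_iff_le_centralizer]
    exact h1.trans (Subgroup.centralizer_le hAle)
  have hAm := mem_unipotent_of_le hS hA hC hCD hAle hA1
  have hBm := mem_unipotent_of_le hS hBS hC hCD hBle hB1
  refine ⟨rankOne_sup_of_mem hCD hAm hBm hAB.ne, ?_, ?_⟩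
  · rw [rankOne_unipotentSubgroups_eq hCD hAm hBm hAB.ne]
    exact left_mem_unipotentSubgroups C D
  · rw [rankOne_unipotentSubgroups_eq hCD hAm hBm hAB.ne]
    exact right_mem_unipotentSubgroups hCD

end Cfsg.Agent.S5024
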