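import Cfsg.Statements.S5026
import Cfsg.Agent.H733.RootBasics
set_option linter.all false

set_option autoImplicit false
open Cfsg Cfsg.Agent.H731 Cfsg.Agent.H733

namespace Cfsg.Agent.S5026

/-- Let S be a degenerate set of abstract root subgroups of G (a set of abstract transvection groups) and let a, b be commuting non-identity elements of members of S with a b ≠ 1. Then the members of S centralizing a b are exactly those centralizing both a and b. -/
theorem result {G : Type*} [Group G] {S : Set (Subgroup G)} (hS : Cfsg.IsRootSubgroupSet S) (hdeg : Cfsg.IsDegenerateRootSet S)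
    {a b : G} (ha : a ∈ Cfsg.rootElements S) (hb : b ∈ Cfsg.rootElements S) (hab : a * b = b * a) (hab1 : a * b ≠ 1) :
    Cfsg.centralizingMembers S (Subgroup.zpowers (a * b)) =
      Cfsg.centralizingMembers S (Subgroup.zpowers a) ∩ Cfsg.centralizingMembers S (Subgroup.zpowers b) := by
  obtain ⟨ha1, A, hA, haA⟩ := ha
  obtain ⟨hb1, B, hB, hbB⟩ := hb
  have hiff : ∀ (C : Subgroup G) (x : G), C ≤ Subgroup.centralizer ((Subgroup.zpowers x : Subgroup G) : Set G) ↔
      ∀ c ∈ C, x * c = c * x := by
    intro C x
    constructor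
    · intro h c hc
      exact Subgroup.mem_centralizer_iff.1 (h hc) x (Subgroup.mem_zpowers x)
    · intro h c hc
      rw [Subgroup.mem_centralizer_iff]
      rintro _ ⟨n, rfl⟩
      exact ((show Commute x c from h c hc).zpow_left n)
  ext C
  constructor
  · rintro ⟨hC, hCab⟩
    rw [hiff] at hCab
    have hCa : ∀ c ∈ C, a * c = c * a := by
      by_contra hcon
      have hpair : IsRankOnePair A C := by
        rcases hS.pair A hA C hC with h1 | h1 | h1
        · exact absurd (fun c hc => commutator_eq_bot_iff_forall.1 h1 a haA c hc) hcon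
        · exact h1
        · exact absurd h1 (hdeg A hA C hC)
      have h1 : conjBy C b = conjBy C a⁻¹ := by
        rw [← conjBy_inj (g := a), conjBy_conjBy, conjBy_conjBy, mul_inv_cancel, conjBy_one]
        exact conjBy_of_commute hCab
      obtain ⟨-, h2⟩ := rankOne_key hS hC hB hpair (A.inv_mem haA) (inv_ne_one.2 ha1) hbB h1
      by_cases hBA : B = A
      · subst hBA
        exact hab1 (rankOne_eq_one hpair (B.mul_mem haA hbB) (conjBy_of_commute hCab))
      · rcases rankOne_commute_elem (rankOne_pair_of_mem hpair (left_mem_unipotentSubgroups A C) h2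
          (fun h => hBA h.symm)) haA hbB hab with h3 | h3
        · exact ha1 h3
        · exact hb1 h3
    refine ⟨⟨hC, (hiff C a).2 hCa⟩, ⟨hC, (hiff C b).2 ?_⟩⟩
    intro c hc
    have h1 := hCab c hc
    have h2 := hCa c hc
    have h3 : a * (b * c) = a * (c * b) := by
      rw [← mul_assoc, h1, ← mul_assoc, ← mul_assoc, h2]
    exact mul_left_cancel h3
  · rintro ⟨⟨hC, hCa⟩, ⟨-, hCb⟩⟩
    rw [hiff] at hCa hCb
    refine ⟨hC, (hiff C _).2 fun c hc => ?_⟩
    rw [mul_assoc, hCb c hc, ← mul_assoc, hCa c hc, mul_assoc]

end Cfsg.Agent.S5026
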