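import Cfsg.Statements.S5027
import Cfsg.Agent.H733.RootBasics
set_option linter.all false

set_option autoImplicit false
open Cfsg Cfsg.Agent.H731 Cfsg.Agent.H733

namespace Cfsg.Agent.S5027

/-- Let S be a set of abstract root subgroups of G such that every member of S has a rank one partner in S (the graph of rank one pairs on S has no isolated vertex). Then the second centre of G equals its centre. -/
theorem result {G : Type*} [Group G] {S : Set (Subgroup G)} (hS : Cfsg.IsRootSubgroupSet S)
    (hF : ∀ A ∈ S, ¬ Cfsg.IsIsolatedIn (Cfsg.FAdj S) S A) : Subgroup.upperCentralSeries G 2 = Subgroup.center G := by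
  apply le_antisymm
  · intro x hx
    rw [Subgroup.mem_upperCentralSeries_succ_iff] at hx
    refine mem_center_of_forall hS fun A hA a ha => ?_
    by_cases ha1 : a = 1
    · rw [ha1]; simp
    obtain ⟨B, hB, hAB⟩ := (not_isIsolatedIn_iff hA).1 (hF A hA)
    have hz : x * a * x⁻¹ * a⁻¹ ∈ Subgroup.center G := by
      rw [← Subgroup.upperCentralSeries_one]
      exact hx a
    by_cases hz1 : x * a * x⁻¹ * a⁻¹ = 1
    · rw [mul_inv_eq_one, mul_inv_eq_iff_eq_mul] at hz1
      exact hz1
    · exfalso
      refine central_translate (C := conjBy A x) hS hB hAB (z := x * a * x⁻¹ * a⁻¹) ?_ hz1 ha ha1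
        (hS.conj_mem A hA x) ?_
      · rw [Subgroup.mem_centralizer_iff]
        intro y _
        exact (Subgroup.mem_center_iff.1 hz y)
      · have h1 : x * a * x⁻¹ * a⁻¹ * a = x * a * x⁻¹ := by simp [mul_assoc]
        rw [h1]
        exact conj_mem_conjBy ha x
  · rw [← Subgroup.upperCentralSeries_one]
    exact Subgroup.upperCentralSeries_mono G (by norm_num)

end Cfsg.Agent.S5027
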