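import Cfsg.Statements.S5032
import Cfsg.Agent.H733.Connected
set_option linter.all false

set_option autoImplicit false
open Cfsg Cfsg.Agent.H731 Cfsg.Agent.H733

namespace Cfsg.Agent.S5032

/-- Let S be a set of abstract root subgroups of G with more than one member. Then the graph of rank one pairs on S is connected if and only if S is a single conjugacy class of G and some member of S has a rank one partner in S. -/
theorem result {G : Type*} [Group G] {S : Set (Subgroup G)} (hS : Cfsg.IsRootSubgroupSet S) (h2 : ∃ A ∈ S, ∃ B ∈ S, A ≠ B) :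
    Cfsg.IsConnectedFamily (Cfsg.FAdj S) S ↔
      (Cfsg.IsConjClassOfSubgroups S ∧ ∃ A ∈ S, ¬ Cfsg.IsIsolatedIn (Cfsg.FAdj S) S A) := by
  constructor
  · intro hc
    obtain ⟨h3, A, hA, B, hB, hAB⟩ := class_of_connected h2 hc
    exact ⟨h3, A, hA, (not_isIsolatedIn_iff hA).2 ⟨B, hB, hAB⟩⟩
  · rintro ⟨hcl, A, hA, h3⟩
    exact connected_of_class hS hcl ⟨A, hA, (not_isIsolatedIn_iff hA).1 h3⟩

end Cfsg.Agent.S5032
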