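import Cfsg.Statements.S5034
import Cfsg.Agent.H734.NatModule
set_option linter.all false
-- import your own Cfsg.Agent.* helpers here

set_option autoImplicit false
open Cfsg

namespace Cfsg.Agent.S5034

/-- Let S be a non-degenerate class of abstract root subgroups of G, A ∈ S and B a rank one partner of A. Then some line partner C of A has ⁅B, C⁆ ∈ S, and the rank one pair A, B is special. -/
theorem result {G : Type*} [Group G] {S : Set (Subgroup G)} (hS : Cfsg.IsRootSubgroupClass S) (hnd : Cfsg.IsNondegenerateRootSet S)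
    {A B : Subgroup G} (hA : A ∈ S) (hB : B ∈ Cfsg.rankOnePartners S A) :
    (∃ C ∈ Cfsg.linePartners S A, C ∈ Cfsg.commutatorPartners S B) ∧ Cfsg.IsSpecialRankOnePair A B := by
  obtain ⟨hS, hcl⟩ := hS
  obtain ⟨-, -, hR⟩ := hnd
  have hP : ∃ A ∈ S, ∃ B ∈ S, Cfsg.IsRankOnePair A B := ⟨A, hA, B, hB.1, hB.2⟩
  constructor
  · obtain ⟨C, hC, hCB⟩ := H734.exists_line_commutator hS hcl hP hR hA hB.1 hB.2
    refine ⟨C, hC, hC.1.1, ?_⟩
    rw [Subgroup.commutator_comm]
    exact hCB.1
  · obtain ⟨E, F, hN⟩ := H734.exists_natModule_of_class hS hcl hP hR hA hB.1 hB.2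
    exact H734.natModule_special hS hA hB.1 hB.2 hN

end Cfsg.Agent.S5034
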