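import Cfsg.Agent.H735.Line
import Cfsg.Agent.H736.Line
import Cfsg.Statements.S5037
set_option linter.all false

-- part: H735/Incomp
section
set_option autoImplicit false
open Cfsg Cfsg.Agent.H731 Cfsg.Agent.H733

namespace Cfsg.Agent.H735

variable {G : Type*} [Group G] {S : Set (Subgroup G)} {A B C D E P Q : Subgroup G}

/-- A transitive, conjugation invariant relation on subgroups which never holds for a rank one pair is symmetric on
triangles. -/
theorem rel_symm (R : Subgroup G → Subgroup G → Prop) (htrans : ∀ X Y Z, R X Y → R Y Z → R X Z)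
    (hconj : ∀ X Y, R X Y → ∀ g, R (conjBy X g) (conjBy Y g)) (hno : ∀ X Y, R X Y → ¬ IsRankOnePair X Y)
    (hA : ⁅A, A⁆ = ⊥) (hC : ⁅C, C⁆ = ⊥) (hAC : ⁅A, C⁆ = ⊥) (hAD : IsRankOnePair A D) (hCD : IsRankOnePair C D)
    (h : R A C) : R C A := by
  have cA := commutator_eq_bot_iff_forall.1 hA
  have cC := commutator_eq_bot_iff_forall.1 hC
  have cAC := commutator_eq_bot_iff_forall.1 hAC
  -- for each partner triple `D` is related to its conjugate under `a⁻¹ c`
  have key : ∀ a ∈ A, a ≠ 1 → ∃ d ∈ D, ∃ c ∈ C, c ≠ 1 ∧ conjBy A d = conjBy D a ∧ conjBy C d = conjBy D c ∧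
      R D (conjBy D (a⁻¹ * c)) := by
    intro a ha ha1
    obtain ⟨d, hd, hd1, had⟩ := partner_right hAD ha ha1
    obtain ⟨c, hc, hc1, hcd⟩ := partner_left hCD hd hd1
    refine ⟨d, hd, c, hc, hc1, had, hcd, ?_⟩
    have h1 := hconj _ _ (hconj _ _ h d) a⁻¹
    rwa [had, hcd, conjBy_conjBy, conjBy_conjBy, inv_mul_cancel, conjBy_one] at h1
  obtain ⟨a, ha, ha1⟩ := rankOne_exists_left hAD
  obtain ⟨d, hd, c, hc, hc1, had, hcd, h1⟩ := key a ha ha1
  obtain ⟨d', hd', c', hc', hc1', had', hcd', h2⟩ := key a⁻¹ (A.inv_mem ha) (inv_ne_one.2 ha1)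
  rw [inv_inv] at h2
  -- `c c' = 1`
  have e1 : (a⁻¹ * c) * (a * c') = c * c' := by
    have c1 := cAC a ha c hc
    calc (a⁻¹ * c) * (a * c') = a⁻¹ * (c * a) * c' := by simp only [mul_assoc]
      _ = a⁻¹ * (a * c) * c' := by rw [c1]
      _ = c * c' := by simp [mul_assoc]
  have h3 : R D (conjBy D (c * c')) := by
    have h4 := htrans _ _ _ h1 (hconj _ _ h2 (a⁻¹ * c))
    rwa [conjBy_conjBy, e1] at h4
  have hcc : c * c' = 1 := by
    by_contra hcc
    refine hno _ _ h3 ?_
    have hD := right_mem_unipotentSubgroups hCD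
    refine rankOne_pair_of_mem hCD hD
      (conjBy_mem_unipotentSubgroups hD (Subgroup.mem_sup_left (C.mul_mem hc hc'))) ?_
    intro h4
    exact hcc (rankOne_eq_one hCD (C.mul_mem hc hc') h4.symm)
  have hc' : c' = c⁻¹ := eq_inv_of_mul_eq_one_right hcc
  rw [hc'] at h2
  have h4 := hconj _ _ h2 c
  have e2 : c * (a * c⁻¹) = a := by rw [← mul_assoc, ← cAC a ha c hc, mul_inv_cancel_right]
  rw [conjBy_conjBy, e2, ← had, ← hcd] at h4
  have h5 := hconj _ _ h4 d⁻¹
  rwa [conjBy_conjBy, conjBy_conjBy, inv_mul_cancel, conjBy_one, conjBy_one] at h5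

section

variable (hS : IsRootSubgroupSet S)
include hS

theorem mem_centralizingMembers_iff (B : Subgroup G) : B ∈ centralizingMembers S A ↔ B ∈ S ∧ ⁅A, B⁆ = ⊥ := by
  unfold centralizingMembers
  simp only [Set.mem_ofPred_eq]
  rw [← Subgroup.commutator_eq_bot_iff_le_centralizer, Subgroup.commutator_comm]

theorem centralizingMembers_conj (h : centralizingMembers S A ⊆ centralizingMembers S C) (g : G) :
    centralizingMembers S (conjBy A g) ⊆ centralizingMembers S (conjBy C g) := by
  intro X hX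
  rw [mem_centralizingMembers_iff hS] at hX ⊢
  have h1 : conjBy X g⁻¹ ∈ centralizingMembers S A := by
    rw [mem_centralizingMembers_iff hS, ← commutator_conjBy_eq_bot_iff (g := g), conjBy_conjBy, mul_inv_cancel,
      conjBy_one]
    exact ⟨hS.conj_mem X hX.1 _, hX.2⟩
  have h2 := h h1
  rw [mem_centralizingMembers_iff hS, ← commutator_conjBy_eq_bot_iff (g := g), conjBy_conjBy, mul_inv_cancel,
      conjBy_one] at h2
  exact ⟨hX.1, h2.2⟩

theorem rankOnePartners_conj (h : rankOnePartners S A ⊆ rankOnePartners S C) (g : G) :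
    rankOnePartners S (conjBy A g) ⊆ rankOnePartners S (conjBy C g) := by
  intro X hX
  have h1 : X = conjBy (conjBy X g⁻¹) g := by rw [conjBy_conjBy, mul_inv_cancel, conjBy_one]
  rw [h1, rankOnePartners_conj_iff hS] at hX ⊢
  exact h hX

/-- S5037, first half. -/
theorem centralizingMembers_incomparable (hA : A ∈ S) (hC : C ∈ S) (hNI : NoIsolated S)
    (h : centralizingMembers S A ⊆ centralizingMembers S C) :
    centralizingMembers S A = centralizingMembers S C := by
  have hAA : ⁅A, A⁆ = ⊥ := member_commutator_self hS hA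
  have hCA : ⁅C, A⁆ = ⊥ := ((mem_centralizingMembers_iff hS A).1 (h ((mem_centralizingMembers_iff hS A).2 ⟨hA, hAA⟩))).2
  have hAC : ⁅A, C⁆ = ⊥ := by rw [Subgroup.commutator_comm]; exact hCA
  obtain ⟨D, hD, hCD⟩ := hNI C hC
  have hAD : IsRankOnePair A D := by
    rcases hS.pair A hA D hD with h1 | h1 | h1
    · exfalso
      have := (mem_centralizingMembers_iff hS D).1 (h ((mem_centralizingMembers_iff hS D).2 ⟨hD, h1⟩))
      exact rankOne_not_commute hCD this.2
    · exact h1
    · exfalso
      have h2 : ⁅C, ⁅A, D⁆⁆ = ⊥ := by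
        refine ((mem_centralizingMembers_iff hS _).1 (h ((mem_centralizingMembers_iff hS _).2 ⟨h1.1, ?_⟩))).2
        rw [commutator_eq_bot_iff_forall]
        exact fun a ha x hx => (rcc_comm_left h1 hx ha).symm
      rw [commutator_eq_bot_iff_forall] at h2 hAC
      obtain ⟨a, ha, ha1⟩ := member_exists_ne_one hS hA
      obtain ⟨x, hx, hx1⟩ := member_exists_ne_one hS h1.1
      obtain ⟨d, hd, hdx⟩ := rcc_exists_right h1 ha ha1 hx
      have hd1 : d ≠ 1 := by
        rintro rfl
        apply hx1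
        rw [← hdx]; simp
      refine central_translate hS hC (RankOnePair_symm hCD) (z := x) ?_ hx1 hd hd1 (hS.conj_mem D hD a) ?_
      · rw [mem_centralizer_sup]
        exact ⟨fun y hy => rcc_comm_right h1 hx hy, fun y hy => (h2 y hy x hx).symm⟩
      · have e : x * d = a * d * a⁻¹ := by rw [← hdx, inv_mul_cancel_right]
        rw [e]
        exact conj_mem_conjBy hd a
  apply Set.Subset.antisymm h
  refine rel_symm (fun X Y => centralizingMembers S X ⊆ centralizingMembers S Y ∧ X ∈ S) ?_ ?_ ?_ hAA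
    (member_commutator_self hS hC) hAC hAD hCD ⟨h, hA⟩ |>.1
  · exact fun X Y Z h1 h2 => ⟨h1.1.trans h2.1, h1.2⟩
  · exact fun X Y h1 g => ⟨centralizingMembers_conj hS h1.1 g, hS.conj_mem X h1.2 g⟩
  · rintro X Y ⟨h1, hX⟩ h2
    have := (mem_centralizingMembers_iff hS X).1 (h1 ((mem_centralizingMembers_iff hS X).2
      ⟨hX, member_commutator_self hS hX⟩))
    exact rankOne_not_commute (RankOnePair_symm h2) this.2

/-- S5037, second half. -/
theorem rankOnePartners_incomparable (hA : A ∈ S) (hC : C ∈ S) (hne : A ≠ C) (hNI : NoIsolated S)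
    (h : rankOnePartners S A ⊆ rankOnePartners S C) : ⁅A, C⁆ = ⊥ ∧ rankOnePartners S A = rankOnePartners S C := by
  have hAC : ⁅A, C⁆ = ⊥ := by
    rcases hS.pair A hA C hC with h1 | h1 | h1
    · exact h1
    · exfalso
      exact (h ⟨hC, h1⟩).2.ne rfl
    · exfalso
      have h1' := rootCommutatorCase_symm h1
      have hEeq : ⁅C, A⁆ = ⁅A, C⁆ := Subgroup.commutator_comm C A
      have hlA := rcc_linePartners hS hA (hNI A hA) h1
      have hlC := rcc_linePartners hS hC (hNI C hC) h1'
      rw [hEeq] at hlC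
      -- claim 1
      have claim1 : ∀ D ∈ S, IsRankOnePair ⁅A, C⁆ D → IsRankOnePair C D := by
        intro D hD hED
        obtain ⟨P, hP, hPne, hPD, hEF, hEFP, hsup⟩ := line_point hS hNI h1.1 hD hED hlA
        obtain ⟨c, hc, hcP⟩ : ∃ c ∈ C, conjBy A c ≠ P := by
          by_cases hAP : A = P
          · obtain ⟨c, hc, hc1⟩ := member_exists_ne_one hS hC
            refine ⟨c, hc, fun h2 => ?_⟩
            rw [← hAP] at h2
            exact H736.rcc_conjBy_ne hS hNI hA h1 hc hc1 h2
          · exact ⟨1, C.one_mem, by rwa [conjBy_one]⟩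
        have hcA : IsRankOnePair (conjBy A c) D := by
          refine (line_other hS hNI h1.1 hED hPD hEF hEFP ⟨hS.conj_mem A hA c, ?_⟩ hcP).2
          rw [← hsup, sup_comm]
          exact conjBy_le_sup_commutator hc
        have h2 : conjBy D c⁻¹ ∈ rankOnePartners S A := by
          refine ⟨hS.conj_mem D hD _, ?_⟩
          have := IsRankOnePair_conj hcA c⁻¹
          rwa [conjBy_conjBy, inv_mul_cancel, conjBy_one] at this
        have h3 := IsRankOnePair_conj (h h2).2 c
        rwa [conjBy_conjBy, mul_inv_cancel, conjBy_one, conjBy_of_mem hc] at h3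
      -- claim 2
      have claim2 : ∀ D ∈ S, IsRankOnePair ⁅A, C⁆ D → ∀ a ∈ A, IsRankOnePair (conjBy C a) D := by
        intro D hD hED a ha
        have hEa : conjBy ⁅A, C⁆ a⁻¹ = ⁅A, C⁆ :=
          conjBy_of_commute fun x hx => (rcc_comm_left h1 hx (A.inv_mem ha)).symm
        have h2 := IsRankOnePair_conj hED a⁻¹
        rw [hEa] at h2
        have h3 := IsRankOnePair_conj (claim1 _ (hS.conj_mem D hD _) h2) a
        rwa [conjBy_conjBy, mul_inv_cancel, conjBy_one] at h3
      obtain ⟨D, hD, hED⟩ := hNI _ h1.1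
      obtain ⟨Q, hQ, hQne, hQD, -, -, -⟩ := line_point hS hNI h1.1 hD hED hlC
      have h2 := rcc_membersIn hS hC (hNI C hC) h1'
      rw [hEeq] at h2
      rw [sup_comm, h2] at hQ
      rcases hQ with ⟨a, ha, rfl⟩ | hQ
      · exact rankOne_not_rcc hS hD (claim2 D hD hED a ha) hQD
      · exact hQne hQ
  refine ⟨hAC, Set.Subset.antisymm h ?_⟩
  obtain ⟨D, hD, hAD⟩ := hNI A hA
  have hCD := (h ⟨hD, hAD⟩).2
  refine rel_symm (fun X Y => rankOnePartners S X ⊆ rankOnePartners S Y ∧ Y ∈ S) ?_ ?_ ?_
    (member_commutator_self hS hA) (member_commutator_self hS hC) hAC hAD hCD ⟨h, hC⟩ |>.1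
  · exact fun X Y Z h1 h2 => ⟨h1.1.trans h2.1, h2.2⟩
  · exact fun X Y h1 g => ⟨rankOnePartners_conj hS h1.1 g, hS.conj_mem Y h1.2 g⟩
  · rintro X Y ⟨h1, hY⟩ h2
    exact (h1 ⟨hY, h2⟩).2.ne rfl

end

theorem noIsolated_of_class (hS : IsRootSubgroupClass S)
    (hdn : IsDegenerateRootSet S ∨ IsNondegenerateRootSet S) (hA : A ∈ S) (hC : C ∈ S) (hAC : A ≠ C) :
    NoIsolated S := by
  rcases hdn with hd | hn
  · by_cases hP : ∃ A ∈ S, ∃ B ∈ S, IsRankOnePair A B
    · exact fun X hX => class_exists_partner hS.1 hS.2 hP hX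
    · exfalso
      push Not at hP
      apply hAC
      obtain ⟨g, rfl⟩ := hS.2.2 A hA C hC
      refine (conjBy_of_commute fun a ha => ?_).symm
      have h1 : a ∈ Subgroup.center G := by
        refine mem_center_of_forall hS.1 fun X hX x hx => ?_
        rcases hS.1.pair A hA X hX with h2 | h2 | h2
        · exact commutator_eq_bot_iff_forall.1 h2 a ha x hx
        · exact absurd h2 (hP A hA X hX)
        · exact absurd h2 (hd A hA X hX)
      exact (Subgroup.mem_center_iff.1 h1 g)
  · exact H736.class_partner hS hn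

end Cfsg.Agent.H735
end

-- part: S5037
section
set_option autoImplicit false
open Cfsg

namespace Cfsg.Agent.S5037

/-- Let S be a class of abstract root subgroups of G that is either degenerate or non-degenerate (so either the commutator case never occurs, or all three cases occur), and A ≠ C members of S. If every member of S commuting with A commutes with C, then A and C have the same commuting members of S; and if every rank one partner of A is a rank one partner of C, then A and C commute and have the same rank one partners. -/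
theorem result {G : Type*} [Group G] {S : Set (Subgroup G)} (hS : Cfsg.IsRootSubgroupClass S)
    (hdn : Cfsg.IsDegenerateRootSet S ∨ Cfsg.IsNondegenerateRootSet S)
    {A C : Subgroup G} (hA : A ∈ S) (hC : C ∈ S) (hAC : A ≠ C) :
    (Cfsg.centralizingMembers S A ⊆ Cfsg.centralizingMembers S C →
      Cfsg.centralizingMembers S A = Cfsg.centralizingMembers S C) ∧
    (Cfsg.rankOnePartners S A ⊆ Cfsg.rankOnePartners S C →
      ⁅A, C⁆ = ⊥ ∧ Cfsg.rankOnePartners S A = Cfsg.rankOnePartners S C) := by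
  have hNI := Cfsg.Agent.H735.noIsolated_of_class hS hdn hA hC hAC
  exact ⟨Cfsg.Agent.H735.centralizingMembers_incomparable hS.1 hA hC hNI,
    Cfsg.Agent.H735.rankOnePartners_incomparable hS.1 hA hC hAC hNI⟩

end Cfsg.Agent.S5037
end
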