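import Cfsg.Agent.H735.Line
import Cfsg.Agent.H736.Line
import Cfsg.Agent.H731.SL2Pair
import Cfsg.Agent.PLocal.SL2Gen
import Cfsg.Statements.S5039
set_option linter.all false

-- part: H735/Special
section
set_option autoImplicit false
universe u
open Cfsg Cfsg.Agent.H731 Cfsg.Agent.H733

namespace Cfsg.Agent.H735

section field

variable {k : Type*} [Field k]

theorem exists_unit_sq_ne_one (hk : 3 < ENat.card k) : ∃ u : kˣ, (u : k) ^ 2 ≠ 1 := by
  by_contra hcon
  push Not at hcon
  have h1 : ∀ x : k, x = 0 ∨ x = 1 ∨ x = -1 := by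
    intro x
    by_cases hx : x = 0
    · exact Or.inl hx
    · right
      have h2 := hcon (Units.mk0 x hx)
      rw [Units.val_mk0] at h2
      exact sq_eq_one_iff.1 h2
  have h2 : (Set.univ : Set k) ⊆ {0, 1, -1} := by
    intro x _
    rcases h1 x with h | h | h <;> simp [h]
  have h3 : (Set.univ : Set k).encard ≤ 3 := by
    refine (Set.encard_le_encard h2).trans ?_
    refine (Set.encard_insert_le _ _).trans ?_
    have h4 : ({1, -1} : Set k).encard ≤ 2 := by
      refine (Set.encard_insert_le _ _).trans ?_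
      rw [Set.encard_singleton]
      norm_num
    calc ({1, -1} : Set k).encard + 1 ≤ 2 + 1 := by gcongr
      _ = 3 := by norm_num
  rw [Set.encard_univ] at h3
  exact absurd hk (not_lt.2 h3)

end field

variable {G : Type u} [Group G] {S : Set (Subgroup G)} {A B C D E P Q : Subgroup G}

/-- In an image of `SL₂(k)`, `#k ≥ 4`, the image of the upper unitriangular subgroup lies in the derived subgroup. -/
theorem psl2_le_commutator {k : Type*} [Field k] (hk : 3 < ENat.card k) (h : IsPSL2PairOver k A B) :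
    A ≤ ⁅A ⊔ B, A ⊔ B⁆ := by
  obtain ⟨φ, hr, -, hA, -⟩ := h
  obtain ⟨t, ht⟩ := exists_unit_sq_ne_one hk
  intro a ha
  rw [← hA] at ha
  obtain ⟨x, hx, rfl⟩ := ha
  obtain ⟨c, rfl⟩ := mem_upper_iff.1 hx
  have h1 : up k c ∈ commutator (Matrix.SpecialLinearGroup (Fin 2) k) :=
    Cfsg.Agent.PLocal.SL2Gen.up_mem_commutator t ht c
  have h2 : φ (up k c) ∈ (commutator (Matrix.SpecialLinearGroup (Fin 2) k)).map φ := Subgroup.mem_map_of_mem φ h1
  rw [commutator_def, Subgroup.map_commutator] at h2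
  have h3 : (⊤ : Subgroup (Matrix.SpecialLinearGroup (Fin 2) k)).map φ = A ⊔ B := by
    rw [← hr]; exact (MonoidHom.range_eq_map φ).symm
  rwa [h3] at h2

section

variable (hS : IsRootSubgroupSet S)
include hS

theorem commutingPartners_conj_congr (h : commutingPartners S A = commutingPartners S B) (g : G) :
    commutingPartners S (conjBy A g) = commutingPartners S (conjBy B g) := by
  ext X
  have h1 : X = conjBy (conjBy X g⁻¹) g := by rw [conjBy_conjBy, mul_inv_cancel, conjBy_one]
  rw [h1, commutingPartners_conj_iff hS, commutingPartners_conj_iff hS, h]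

/-- The non-degenerate case. -/
theorem special_of_line (hNI : NoIsolated S) (hA : A ∈ S) (hB : B ∈ S) (hAB : IsRankOnePair A B)
    (hC : C ∈ linePartners S A) : IsSpecialRankOnePair A B := by
  obtain ⟨P, hP, hPA, hPB, hAF, hAFP, hsup⟩ := line_point hS hNI hA hB hAB hC
  obtain ⟨f, hf, hf1⟩ := member_exists_ne_one hS hPB.1
  have hne : conjBy A f ≠ A := H736.rcc_conjBy_ne hS hNI hA hAF hf hf1
  have hle : conjBy A f ≤ A ⊔ P := by
    have := conjBy_le_sup_commutator (A := A) hf
    rwa [hAFP] at this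
  have hneP : conjBy A f ≠ P := by
    intro h1
    apply hPA
    rw [conjBy_eq_iff] at h1
    rw [h1]
    refine (conjBy_of_commute fun p hp => ?_).symm
    rw [← hAFP] at hp
    exact (rcc_comm_right hAF hp (Subgroup.inv_mem _ hf)).symm
  have hother := (line_other hS hNI hA hAB hPB hAF hAFP ⟨hS.conj_mem A hA f, hle⟩ hneP).2
  have hcomm : ⁅A, conjBy A f⁆ = ⊥ := by
    have h1 := rcc_sup_commutator_comm hS hA hAF
    rw [hAFP] at h1
    exact le_bot_iff.1 ((Subgroup.commutator_mono le_sup_left hle).trans h1.le)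
  exact triangle_special (member_commutator_self hS hA) (member_commutator_self hS hB) hAB hother hcomm hne.symm

/-- The exceptional pairs: the argument with elements of order at least four. -/
theorem weird_order (hA : A ∈ S) (hB : B ∈ S) (hD : D ∈ S) (hC : C ∈ commutingPartners S A) (hAB : IsRankOnePair A B)
    (hAD : IsRankOnePair A D) (hCD : IsRankOnePair C D) (hcl : commutingPartners S A = commutingPartners S B)
    {d : G} (hd : d ∈ D) (hd1 : d ≠ 1) (hd2 : d * d ≠ 1) (hd3 : d * d * d ≠ 1) : False := by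
  obtain ⟨a, ha, ha1, g₁, g₂, g₃, h₁, h₂, h₃, hmem⟩ := exists_mem_sup (member_commutator_self hS hA)
    (member_commutator_self hS hD) hAD hCD hC.2.2 hC.2.1.symm hd hd1 hd2 hd3
  have key : ∀ g : G, ⁅A, conjBy A g⁆ = ⊥ ∧ conjBy A g ≠ A → ⁅conjBy A g, B⁆ = ⊥ := by
    intro g hg
    have h4 : conjBy A g ∈ commutingPartners S A := ⟨hS.conj_mem A hA g, hg.2, hg.1⟩
    rw [hcl] at h4
    rw [Subgroup.commutator_comm]
    exact h4.2.2
  have h4 : ⁅conjBy A g₁ ⊔ conjBy A g₂ ⊔ conjBy A g₃, B⁆ = ⊥ :=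
    comm_sup' (comm_sup' (key g₁ h₁) (key g₂ h₂)) (key g₃ h₃)
  rw [commutator_eq_bot_iff_forall] at h4
  exact ha1 (rankOne_eq_one hAB ha (conjBy_of_commute fun b hb => h4 a hmem b hb))

/-- The exceptional pairs: `A` meets the derived subgroup of `⟨A, B⟩` trivially. -/
theorem weird_commutator (hA : A ∈ S) (hB : B ∈ S) (hD : D ∈ S) (hC : C ∈ commutingPartners S A)
    (hAD : IsRankOnePair A D) (hBD : IsRankOnePair B D) (hCD : IsRankOnePair C D)
    (hcl : commutingPartners S A = commutingPartners S B) {a : G} (ha : a ∈ A) (ha' : a ∈ ⁅A ⊔ B, A ⊔ B⁆) :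
    a = 1 := by
  have hC' : C ∈ commutingPartners S B := by rw [← hcl]; exact hC
  obtain ⟨v, hv, hvC⟩ := triangle_exists_conj (member_commutator_self hS hA) (member_commutator_self hS hD) hAD hCD
    hC.2.2
  obtain ⟨v', hv', hvC'⟩ := triangle_exists_conj (member_commutator_self hS hB) (member_commutator_self hS hD) hBD hCD
    hC'.2.2
  -- `w` centralizes `D` and conjugates `A` into `B`
  obtain ⟨w, hw, hwA⟩ : ∃ w : G, (∀ d ∈ D, w * d = d * w) ∧ conjBy A w = B := by
    refine ⟨v'⁻¹ * v, ?_, ?_⟩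
    · intro d hd
      have h1 : v'⁻¹ * d = d * v'⁻¹ := by
        rw [inv_mul_eq_iff_eq_mul, ← mul_assoc, hv' d hd, mul_inv_cancel_right]
      rw [mul_assoc, hv d hd, ← mul_assoc, h1, mul_assoc]
    · rw [← conjBy_conjBy, hvC, ← hvC', conjBy_conjBy, inv_mul_cancel, conjBy_one]
  have hcong := fun {X Y : Subgroup G} (h : commutingPartners S X = commutingPartners S Y) (g : G) =>
    commutingPartners_conj_congr hS h g
  -- `a` and `w a w⁻¹` act in the same way on the class of `D`
  have key : ∀ a ∈ A, commutingPartners S (conjBy D a) = commutingPartners S (conjBy D (w * a * w⁻¹)) := by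
    intro a ha
    by_cases ha1 : a = 1
    · subst ha1; simp
    obtain ⟨d, hd, hd1, hab⟩ := partner_right hAD ha ha1
    have h1 := partner_transport hw hd hab
    rw [hwA] at h1
    rw [← hab, ← h1]
    exact hcong hcl d
  -- the elements of `⟨A, B⟩` act like elements of `A`
  let K : Subgroup G :=
    { carrier := {x | ∃ a ∈ A, ∀ a' ∈ A,
        commutingPartners S (conjBy D (x * a')) = commutingPartners S (conjBy D (a * a'))}
      one_mem' := ⟨1, A.one_mem, fun a' _ => rfl⟩
      mul_mem' := by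
        rintro x y ⟨a, ha, hx⟩ ⟨b, hb, hy⟩
        refine ⟨a * b, A.mul_mem ha hb, fun a' ha' => ?_⟩
        have h1 := hcong (hy a' ha') x
        rw [conjBy_conjBy, conjBy_conjBy] at h1
        rw [mul_assoc, h1, hx _ (A.mul_mem hb ha'), mul_assoc]
      inv_mem' := by
        rintro x ⟨a, ha, hx⟩
        refine ⟨a⁻¹, A.inv_mem ha, fun a' ha' => ?_⟩
        have h1 := hcong (hx _ (A.mul_mem (A.inv_mem ha) ha')) x⁻¹
        rw [mul_inv_cancel_left, conjBy_conjBy, conjBy_conjBy, inv_mul_cancel_left] at h1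
        exact h1.symm }
  have hK : A ⊔ B ≤ K := by
    refine sup_le (fun a ha => ⟨a, ha, fun a' _ => rfl⟩) ?_
    rw [← hwA]
    rintro _ ⟨a, ha, rfl⟩
    refine ⟨a, ha, fun a' ha' => ?_⟩
    show commutingPartners S (conjBy D (w * a * w⁻¹ * a')) = _
    have h1 := hcong (key a' ha') (w * a * w⁻¹)
    rw [conjBy_conjBy, conjBy_conjBy] at h1
    have e : w * a * w⁻¹ * (w * a' * w⁻¹) = w * (a * a') * w⁻¹ := by simp [mul_assoc]
    rw [h1, e]
    exact (key _ (A.mul_mem ha ha')).symm
  let L : Subgroup G :=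
    { carrier := {x | ∀ a' ∈ A, commutingPartners S (conjBy D (x * a')) = commutingPartners S (conjBy D a')}
      one_mem' := fun a' _ => by rw [one_mul]
      mul_mem' := by
        intro x y hx hy a' ha'
        have h1 := hcong (hy a' ha') x
        rw [conjBy_conjBy, conjBy_conjBy] at h1
        rw [mul_assoc, h1, hx a' ha']
      inv_mem' := by
        intro x hx a' ha'
        have h1 := hcong (hx a' ha') x⁻¹
        rw [conjBy_conjBy, conjBy_conjBy, inv_mul_cancel_left] at h1
        exact h1.symm }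
  have cA := commutator_eq_bot_iff_forall.1 (member_commutator_self hS hA)
  have hL : ⁅A ⊔ B, A ⊔ B⁆ ≤ L := by
    rw [Subgroup.commutator_le]
    intro x hx y hy
    obtain ⟨a, ha, hxa⟩ := hK hx
    obtain ⟨b, hb, hyb⟩ := hK hy
    rw [commutatorElement_def]
    have hxi : ∀ a' ∈ A, commutingPartners S (conjBy D (x⁻¹ * a')) = commutingPartners S (conjBy D (a⁻¹ * a')) := by
      intro a' ha'
      have h1 := hcong (hxa _ (A.mul_mem (A.inv_mem ha) ha')) x⁻¹
      rw [mul_inv_cancel_left, conjBy_conjBy, conjBy_conjBy, inv_mul_cancel_left] at h1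
      exact h1.symm
    have hyi : ∀ a' ∈ A, commutingPartners S (conjBy D (y⁻¹ * a')) = commutingPartners S (conjBy D (b⁻¹ * a')) := by
      intro a' ha'
      have h1 := hcong (hyb _ (A.mul_mem (A.inv_mem hb) ha')) y⁻¹
      rw [mul_inv_cancel_left, conjBy_conjBy, conjBy_conjBy, inv_mul_cancel_left] at h1
      exact h1.symm
    intro a' ha'
    have e1 : x * y * x⁻¹ * y⁻¹ * a' = x * (y * (x⁻¹ * (y⁻¹ * a'))) := by simp only [mul_assoc]
    have m1 : b⁻¹ * a' ∈ A := A.mul_mem (A.inv_mem hb) ha'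
    have m2 : a⁻¹ * (b⁻¹ * a') ∈ A := A.mul_mem (A.inv_mem ha) m1
    have m3 : b * (a⁻¹ * (b⁻¹ * a')) ∈ A := A.mul_mem hb m2
    have s1 := hyi a' ha'
    have s2 := hcong s1 x⁻¹
    rw [conjBy_conjBy, conjBy_conjBy, hxi _ m1] at s2
    have s3 := hcong s2 y
    rw [conjBy_conjBy, conjBy_conjBy, hyb _ m2] at s3
    have s4 := hcong s3 x
    rw [conjBy_conjBy, conjBy_conjBy, hxa _ m3] at s4
    rw [e1, s4]
    congr 2
    have e2 : a * (b * (a⁻¹ * (b⁻¹ * a'))) = (a * b) * (a⁻¹ * b⁻¹) * a' := by simp only [mul_assoc]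
    rw [e2, cA a ha b hb]
    simp [mul_assoc]
  by_contra ha1
  obtain ⟨d, hd, hd1, had⟩ := partner_right hAD ha ha1
  have h1 := hL ha' 1 A.one_mem
  rw [mul_one, conjBy_one, ← had] at h1
  have h2 := hcong h1 d⁻¹
  rw [conjBy_conjBy, inv_mul_cancel, conjBy_one, conjBy_of_mem (D.inv_mem hd)] at h2
  have h3 : C ∈ commutingPartners S D := by rw [← h2]; exact hC
  refine rankOne_not_commute hCD ?_
  rw [Subgroup.commutator_comm]
  exact h3.2.2

end

/-- S5039. -/
theorem class_special (hS : IsRootSubgroupClass S) (hcomm : ∃ A ∈ S, ∃ C ∈ S, A ≠ C ∧ ⁅A, C⁆ = ⊥)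
    (hH : IsDegenerateRootSet S → (∀ A ∈ S, ∀ a ∈ A, 0 < orderOf a ∧ orderOf a ≤ 3) →
      ∀ A ∈ S, ∀ B ∈ rankOnePartners S A, ∃ A₀ B₀ : Subgroup G, A₀ ≤ A ∧ B₀ ≤ B ∧
        ∃ (k : Type u) (_ : Field k), 3 < ENat.card k ∧ IsPSL2PairOver k A₀ B₀)
    (hA : A ∈ S) (hB : B ∈ rankOnePartners S A) : IsSpecialRankOnePair A B := by
  obtain ⟨hBS, hAB⟩ := hB
  have hNI : NoIsolated S := fun X hX => class_exists_partner hS.1 hS.2 ⟨A, hA, B, hBS, hAB⟩ hX
  have hAA := member_commutator_self hS.1 hA
  have hBB := member_commutator_self hS.1 hBS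
  by_cases hdeg : IsDegenerateRootSet S
  swap
  · have hR : ∃ A ∈ S, ∃ B ∈ S, RootCommutatorCase S A B := by
      unfold IsDegenerateRootSet at hdeg
      push Not at hdeg
      exact hdeg
    obtain ⟨C, hC⟩ := H736.exists_linePartner hS.1 hS.2 hNI hR hA
    exact special_of_line hS.1 hNI hA hBS hAB hC
  by_cases h1 : ∃ C ∈ commutingPartners S A, IsRankOnePair C B
  · obtain ⟨C, hC, hCB⟩ := h1
    exact triangle_special hAA hBB hAB hCB hC.2.2 hC.2.1.symm
  by_cases h2 : ∃ C ∈ commutingPartners S B, IsRankOnePair C A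
  · obtain ⟨C, hC, hCA⟩ := h2
    exact IsSpecialRankOnePair_symm (triangle_special hBB hAA (RankOnePair_symm hAB) hCA hC.2.2 hC.2.1.symm)
  exfalso
  push Not at h1 h2
  -- dichotomy in the degenerate case
  have hdich : ∀ X ∈ S, ∀ Y ∈ S, ⁅X, Y⁆ = ⊥ ∨ IsRankOnePair X Y := by
    intro X hX Y hY
    rcases hS.1.pair X hX Y hY with h3 | h3 | h3
    · exact Or.inl h3
    · exact Or.inr h3
    · exact absurd h3 (hdeg X hX Y hY)
  have hcl : commutingPartners S A = commutingPartners S B := by
    ext C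
    constructor
    · intro hC
      refine ⟨hC.1, ?_, ?_⟩
      · rintro rfl
        exact rankOne_not_commute hAB hC.2.2
      · rcases hdich C hC.1 B hBS with h3 | h3
        · rw [Subgroup.commutator_comm]; exact h3
        · exact absurd h3 (h1 C hC)
    · intro hC
      refine ⟨hC.1, ?_, ?_⟩
      · rintro rfl
        refine rankOne_not_commute hAB ?_
        rw [Subgroup.commutator_comm]; exact hC.2.2
      · rcases hdich C hC.1 A hA with h3 | h3
        · rw [Subgroup.commutator_comm]; exact h3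
        · exact absurd h3 (h2 C hC)
  -- a triangle containing `A`
  obtain ⟨C, hC, D, hD, hAD, hCD⟩ : ∃ C ∈ commutingPartners S A, ∃ D ∈ S, IsRankOnePair A D ∧ IsRankOnePair C D := by
    by_contra hno
    push Not at hno
    have hno' : ∀ X ∈ S, ∀ D ∈ S, IsRankOnePair X D → commutingPartners S X ⊆ commutingPartners S D := by
      intro X hX D hD hXD C hC
      obtain ⟨g, rfl⟩ := hS.2.2 A hA X hX
      have hC' : conjBy C g⁻¹ ∈ commutingPartners S A := by
        rw [← commutingPartners_conj_iff hS.1 (g := g), conjBy_conjBy, mul_inv_cancel, conjBy_one]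
        exact hC
      have hAD' : IsRankOnePair A (conjBy D g⁻¹) := by
        rw [← IsRankOnePair_conj_iff (g := g), conjBy_conjBy, mul_inv_cancel, conjBy_one]
        exact hXD
      have h3 := hno _ hC' _ (hS.1.conj_mem D hD _) hAD'
      rw [IsRankOnePair_conj_iff] at h3
      refine ⟨hC.1, ?_, ?_⟩
      · rintro rfl
        exact rankOne_not_commute hXD hC.2.2
      · rcases hdich C hC.1 D hD with h4 | h4
        · rw [Subgroup.commutator_comm]; exact h4
        · exact absurd h4 h3
    have heq : ∀ X, Relation.ReflTransGen (FAdj S) A X → commutingPartners S A = commutingPartners S X := by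
      intro X hX
      induction hX with
      | refl => rfl
      | tail _ h3 ih =>
        rw [ih]
        exact Set.Subset.antisymm (hno' _ h3.1 _ h3.2.1 h3.2.2)
          (hno' _ h3.2.1 _ h3.1 (RankOnePair_symm h3.2.2))
    obtain ⟨A0, hA0, C0, hC0, hne0, h0⟩ := hcomm
    obtain ⟨g, hg⟩ := hS.2.2 A0 hA0 A hA
    have hC1 : conjBy C0 g ∈ commutingPartners S A := by
      rw [hg, commutingPartners_conj_iff hS.1]
      exact ⟨hC0, hne0.symm, h0⟩
    have hconn := connected_of_class hS.1 hS.2 ⟨A, hA, B, hBS, hAB⟩ A hA _ hC1.1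
    rw [heq _ hconn] at hC1
    exact hC1.2.1 rfl
  have hBC : ⁅B, C⁆ = ⊥ := by
    have : C ∈ commutingPartners S B := by rw [← hcl]; exact hC
    exact this.2.2
  have hBD : IsRankOnePair B D := by
    rcases hdich B hBS D hD with h3 | h3
    · exfalso
      by_cases hDB : D = B
      · subst hDB
        refine rankOne_not_commute hCD ?_
        rw [Subgroup.commutator_comm]; exact hBC
      · have h4 : D ∈ commutingPartners S A := by rw [hcl]; exact ⟨hD, hDB, h3⟩
        exact rankOne_not_commute hAD h4.2.2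
    · exact h3
  by_cases hord : ∀ A ∈ S, ∀ a ∈ A, 0 < orderOf a ∧ orderOf a ≤ 3
  · obtain ⟨A₀, B₀, hA₀, hB₀, k, hk, hk3, hpsl⟩ := hH hdeg hord A hA B ⟨hBS, hAB⟩
    have h3 := psl2_le_commutator hk3 hpsl
    have h4 := rankOne_left_ne_bot (isRankOnePair_of_isPSL2PairOver hpsl)
    apply h4
    rw [Subgroup.eq_bot_iff_forall]
    intro a ha
    exact weird_commutator hS.1 hA hBS hD hC hAD hBD hCD hcl (hA₀ ha)
      (Subgroup.commutator_mono (sup_le_sup hA₀ hB₀) (sup_le_sup hA₀ hB₀) (h3 ha))
  · push Not at hord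
    obtain ⟨X, hX, x, hx, hxo⟩ := hord
    obtain ⟨g, rfl⟩ := hS.2.2 X hX D hD
    have ho : ∀ n : ℕ, 0 < n → n ≤ 3 → (g * x * g⁻¹) ^ n ≠ 1 := by
      intro n hn hn3 h3
      rw [conj_pow, mul_inv_eq_one] at h3
      have h4 : x ^ n = 1 := by
        have : g * x ^ n = g * 1 := by rw [h3, mul_one]
        exact mul_left_cancel this
      have h5 := orderOf_le_of_pow_eq_one hn h4
      have h6 : 0 < orderOf x := orderOf_pos_iff.2 (isOfFinOrder_iff_pow_eq_one.2 ⟨n, hn, h4⟩)
      have := hxo h6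
      omega
    refine weird_order hS.1 hA hBS hD hC hAB hAD hCD hcl (conj_mem_conjBy hx g) ?_ ?_ ?_
    · have := ho 1 (by norm_num) (by norm_num)
      rwa [pow_one] at this
    · have := ho 2 (by norm_num) (by norm_num)
      rwa [pow_two] at this
    · have := ho 3 (by norm_num) (by norm_num)
      rwa [pow_succ, pow_two] at this

end Cfsg.Agent.H735
end

-- part: S5039
section
set_option autoImplicit false
universe u
open Cfsg

namespace Cfsg.Agent.S5039

/-- Let S be a class of abstract root subgroups of G containing two different commuting members. Suppose that, in case S is degenerate and every element of every member of S has order at most 3, the following holds: for every A ∈ S and every rank one partner B of A there are subgroups A₀ ≤ A and B₀ ≤ B generating an image of SL₂(k) with central kernel, k a field with at least four elements, A₀ and B₀ being the images of the unitriangular subgroups. Then every rank one pair A, B in S is special. -/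
theorem result {G : Type u} [Group G] {S : Set (Subgroup G)} (hS : Cfsg.IsRootSubgroupClass S)
    (hcomm : ∃ A ∈ S, ∃ C ∈ S, A ≠ C ∧ ⁅A, C⁆ = ⊥)
    (hH : Cfsg.IsDegenerateRootSet S → (∀ A ∈ S, ∀ a ∈ A, 0 < orderOf a ∧ orderOf a ≤ 3) →
      ∀ A ∈ S, ∀ B ∈ Cfsg.rankOnePartners S A, ∃ A₀ B₀ : Subgroup G, A₀ ≤ A ∧ B₀ ≤ B ∧
        ∃ (k : Type u) (_ : Field k), 3 < ENat.card k ∧ Cfsg.IsPSL2PairOver k A₀ B₀)
    {A B : Subgroup G} (hA : A ∈ S) (hB : B ∈ Cfsg.rankOnePartners S A) : Cfsg.IsSpecialRankOnePair A B := by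
  exact Cfsg.Agent.H735.class_special hS hcomm hH hA hB

end Cfsg.Agent.S5039
end
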