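import Cfsg.Agent.H735.NatModule
import Cfsg.Agent.H736.Line
import Cfsg.Statements.S5040
set_option linter.all false

-- part: H735/WeakTI
section
set_option autoImplicit false
open Cfsg Cfsg.Agent.H731 Cfsg.Agent.H733

namespace Cfsg.Agent.H735

variable {G : Type*} [Group G] {S : Set (Subgroup G)} {A B C D E P Q : Subgroup G}

/-- On a line, for any two different members `P`, `Q` there is a member `F` with `[P, F] = Q`. -/
theorem line_exists_commutator (hS : IsRootSubgroupSet S) (hF : ∀ A ∈ S, ∃ A' ∈ S, IsRankOnePair A A')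
    (hA : A ∈ S) (hB : B ∈ linePartners S A) (hP : P ∈ membersIn S (A ⊔ B)) (hQ : Q ∈ membersIn S (A ⊔ B))
    (hne : P ≠ Q) : ∃ F ∈ S, RootCommutatorCase S P F ∧ ⁅P, F⁆ = Q := by
  obtain ⟨O, hO, hAO⟩ := hF A hA
  obtain ⟨E, hE, D, hD, hEO, hAF, hAFE, hED, hEDA, hsup⟩ := H736.line_flip hS hF hA hO hAO hB
  have hAm : A ∈ membersIn S (A ⊔ B) := ⟨hA, le_sup_left⟩
  have hEm : E ∈ membersIn S (A ⊔ B) := ⟨hE, by rw [← hsup]; exact le_sup_right⟩
  have hAE : E ≠ A := by
    have := rcc_ne_commutator hS hED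
    rwa [hEDA] at this
  obtain ⟨x, -, hx1, hx2⟩ := H736.line_two_transitive hS hF hA hB E hEm A hAm P hP Q hQ hAE hne
  refine ⟨conjBy D x, hS.conj_mem D hD x, ?_, ?_⟩
  · rw [← hx1]; exact rootCommutatorCase_conj hS.conj_mem hED x
  · rw [← hx1, ← hx2, ← hEDA, conjBy_commutator]

/-- S5040. -/
theorem weakTI_abelian (hS : IsRootSubgroupClass S) (hnd : IsNondegenerateRootSet S)
    {Δ : Set (Subgroup G)} (hΔ : IsWeakTISubset S Δ) : IsAbelianFamily Δ := by
  obtain ⟨hsub, -, hneS, hTI⟩ := hΔ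
  have hF := H736.class_partner hS hnd
  -- the stabilizer of `Δ`
  let T : Subgroup G :=
    { carrier := {g | ∀ E, E ∈ Δ ↔ conjBy E g ∈ Δ}
      one_mem' := fun E => by rw [conjBy_one]
      mul_mem' := by
        intro g h hg hh E
        rw [hh E, hg, conjBy_conjBy]
      inv_mem' := by
        intro g hg E
        have := hg (conjBy E g⁻¹)
        rw [conjBy_conjBy, mul_inv_cancel, conjBy_one] at this
        exact this.symm }
  have hT : ∀ g, g ∈ T ↔ ∀ E, E ∈ Δ ↔ conjBy E g ∈ Δ := fun g => Iff.rfl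
  -- an element of a member moving some member of `Δ` into `Δ` stabilizes `Δ`
  have hstab : ∀ X ∈ S, ∀ x ∈ X, ∀ E ∈ Δ, conjBy E x ∈ Δ → x ∈ T := by
    intro X hX x hx E hE hEx
    by_cases hx1 : x = 1
    · rw [hx1]; exact T.one_mem
    · rcases hTI x ⟨hx1, X, hX, hx⟩ with h1 | h1
      · rw [hT]
        intro F
        constructor
        · intro hFΔ
          rw [← h1]; exact ⟨F, hFΔ, rfl⟩
        · intro hFΔ
          rw [← h1] at hFΔ
          obtain ⟨F', hF', hFF⟩ := hFΔ
          have : F' = F := conjBy_inj.1 hFF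
          rwa [← this]
      · exfalso
        exact Set.disjoint_left.1 h1 ⟨E, hE, rfl⟩ hEx
  have hcomm : ∀ E ∈ Δ, ∀ X ∈ S, ⁅E, X⁆ = ⊥ → X ≤ T := by
    intro E hE X hX h1 x hx
    rw [commutator_eq_bot_iff_forall] at h1
    refine hstab X hX x hx E hE ?_
    rw [conjBy_of_commute fun e he => (h1 e he x hx).symm]
    exact hE
  -- no rank one pairs in `Δ`
  have hno : ∀ A ∈ Δ, ∀ B ∈ Δ, ¬ IsRankOnePair A B := by
    intro A hA B hB hAB
    have hAS := hsub hA
    have hBS := hsub hB
    have hgen := H736.generated hS hnd hAS (B := B) ⟨hBS, hAB⟩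
    have h1 : (⨆ C ∈ linePartners S A, C) ⊔ B ≤ T := by
      refine sup_le (iSup₂_le fun C hC => hcomm A hA C hC.1.1 hC.1.2.2) ?_
      exact hcomm B hB B hBS (member_commutator_self hS.1 hBS)
    rw [hgen, top_le_iff] at h1
    apply hneS
    apply Set.Subset.antisymm hsub
    intro C hC
    obtain ⟨g, rfl⟩ := hS.2.2 A hAS C hC
    have hg : g ∈ T := by rw [h1]; exact Subgroup.mem_top g
    exact (hg A).1 hA
  intro A hA B hB
  have hAS := hsub hA
  have hBS := hsub hB
  rcases hS.1.pair A hAS B hBS with h1 | h1 | h1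
  · rwa [commutator_eq_bot_iff_forall] at h1
  · exact absurd h1 (hno A hA B hB)
  · exfalso
    have hline := rcc_linePartners hS.1 hAS (hF A hAS) h1
    obtain ⟨F, hFS, hCF, hCFA⟩ := line_exists_commutator hS.1 hF h1.1 hline (P := ⁅A, B⁆) (Q := A)
      ⟨h1.1, le_sup_left⟩ ⟨hAS, le_sup_right⟩ (rcc_ne_commutator hS.1 h1).symm
    have hFCA : ⁅F, ⁅A, B⁆⁆ = A := by rw [Subgroup.commutator_comm]; exact hCFA
    have hBF := nat_rankOne hS.1 hAS hBS h1 hFS hFCA
    obtain ⟨f, hf, hf1⟩ := rankOne_exists_right hBF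
    have hfT : f ∈ T := by
      refine hcomm A hA F hFS ?_ hf
      rw [commutator_eq_bot_iff_forall]
      intro a ha x hx
      rw [← hCFA] at ha
      exact rcc_comm_right hCF ha hx
    have hB' : conjBy B f ∈ Δ := (hfT B).1 hB
    refine hno _ hB' B hB ?_
    refine rankOne_pair_of_mem hBF ?_ (left_mem_unipotentSubgroups B F) ?_
    · exact conjBy_mem_unipotentSubgroups (left_mem_unipotentSubgroups B F) (Subgroup.mem_sup_right hf)
    · intro h2
      exact hf1 (rankOne_eq_one' hBF hf h2)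

end Cfsg.Agent.H735
end

-- part: S5040
section
set_option autoImplicit false
open Cfsg

namespace Cfsg.Agent.S5040

/-- Let S be a non-degenerate class of abstract root subgroups of G and Δ a weak TI-subset of S. Then the members of Δ commute with one another elementwise. -/
theorem result {G : Type*} [Group G] {S : Set (Subgroup G)} (hS : Cfsg.IsRootSubgroupClass S) (hnd : Cfsg.IsNondegenerateRootSet S)
    {Δ : Set (Subgroup G)} (hΔ : Cfsg.IsWeakTISubset S Δ) : Cfsg.IsAbelianFamily Δ := by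
  exact Cfsg.Agent.H735.weakTI_abelian hS hnd hΔ

end Cfsg.Agent.S5040
end
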