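import Cfsg.Agent.S2579
import Cfsg.Agent.LieClassical.SLGen
import Cfsg.Agent.ClassicalGeometry.AutPSL.Root
import Cfsg.Agent.H742.Transv
import Cfsg.Agent.H733.Connected
import Cfsg.Statements.S5043
set_option linter.all false

-- part: H736/SLn
section
set_option autoImplicit false
open Cfsg Matrix

namespace Cfsg.Agent.H736.SLn

open Cfsg.Agent.H731 Cfsg.Agent.H733 Cfsg.Agent.H742
open Cfsg.Agent.ClassicalGeometry.AutPSL.Root (tr coe_tr tr_mulVec sl_ext sl_mul_mulVec tr_mul_same_axis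
  transvection_eq_tr)

variable {k : Type*} [Field k] {n : ℕ}

theorem mat_ext {A B : Matrix.SpecialLinearGroup (Fin (n + 3)) k}
    (h : (A : Matrix (Fin (n + 3)) (Fin (n + 3)) k) = (B : Matrix (Fin (n + 3)) (Fin (n + 3)) k)) : A = B :=
  Subtype.ext h

theorem smul_orth {a φ : Fin (n + 3) → k} (h : φ ⬝ᵥ a = 0) (c : k) : φ ⬝ᵥ (c • a) = 0 := by
  rw [dotProduct_smul, h, smul_zero]

/-- The transvection subgroup with centre `a` and axis `φ`. -/
def T (a φ : Fin (n + 3) → k) (h : φ ⬝ᵥ a = 0) : Subgroup (Matrix.SpecialLinearGroup (Fin (n + 3)) k) where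
  carrier := {g | ∃ c : k, g = tr (c • a) φ (smul_orth h c)}
  one_mem' := ⟨0, by
    apply mat_ext
    rw [coe_tr, zero_smul, Matrix.SpecialLinearGroup.coe_one]
    simp⟩
  mul_mem' := by
    rintro _ _ ⟨c, rfl⟩ ⟨d, rfl⟩
    refine ⟨c + d, ?_⟩
    rw [tr_mul_same_axis]
    apply mat_ext
    rw [coe_tr, coe_tr, add_smul]
  inv_mem' := by
    rintro _ ⟨c, rfl⟩
    refine ⟨-c, ?_⟩
    rw [inv_eq_iff_mul_eq_one, tr_mul_same_axis]
    apply mat_ext
    rw [coe_tr, neg_smul, add_neg_cancel, Matrix.SpecialLinearGroup.coe_one]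
    simp

theorem mem_T {a φ : Fin (n + 3) → k} {h : φ ⬝ᵥ a = 0} {g : Matrix.SpecialLinearGroup (Fin (n + 3)) k} :
    g ∈ T a φ h ↔ ∃ c : k, g = tr (c • a) φ (smul_orth h c) := Iff.rfl

theorem tr_mem {a φ : Fin (n + 3) → k} {h : φ ⬝ᵥ a = 0} (c : k) : tr (c • a) φ (smul_orth h c) ∈ T a φ h := ⟨c, rfl⟩

theorem mem_T' {a φ : Fin (n + 3) → k} {h : φ ⬝ᵥ a = 0} {g : Matrix.SpecialLinearGroup (Fin (n + 3)) k} :
    g ∈ T a φ h ↔ ∃ c : k, (g : Matrix (Fin (n + 3)) (Fin (n + 3)) k) = 1 + c • vecMulVec a φ := by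
  rw [mem_T]
  constructor
  · rintro ⟨c, rfl⟩
    exact ⟨c, by rw [coe_tr, smul_vecMulVec]⟩
  · rintro ⟨c, hc⟩
    refine ⟨c, ?_⟩
    apply mat_ext
    rw [hc, coe_tr, smul_vecMulVec]

theorem tr_ne_one {a φ : Fin (n + 3) → k} (ha : a ≠ 0) (hφ : φ ≠ 0) (h : φ ⬝ᵥ a = 0) : tr a φ h ≠ 1 := by
  intro he
  obtain ⟨i, hi⟩ := Function.ne_iff.1 hφ
  have h1 : Pi.single i 1 + (φ ⬝ᵥ Pi.single i 1) • a = Pi.single i (1 : k) := by
    rw [← tr_mulVec a φ h, he, Matrix.SpecialLinearGroup.coe_one, one_mulVec]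
  rw [add_eq_left, dotProduct_single_one, smul_eq_zero] at h1
  rcases h1 with h1 | h1
  · exact hi h1
  · exact ha h1

theorem T_ne_bot {a φ : Fin (n + 3) → k} (ha : a ≠ 0) (hφ : φ ≠ 0) (h : φ ⬝ᵥ a = 0) : T a φ h ≠ ⊥ := by
  intro h1
  have h2 : tr ((1 : k) • a) φ (smul_orth h 1) ∈ T a φ h := tr_mem 1
  rw [h1, Subgroup.mem_bot] at h2
  exact tr_ne_one (by rwa [one_smul]) hφ _ h2

/-- Products of transvections with `ψ · a = 0`. -/
theorem tr_mul_tr {a φ b ψ : Fin (n + 3) → k} (h : φ ⬝ᵥ a = 0) (h' : ψ ⬝ᵥ b = 0) (h2 : ψ ⬝ᵥ a = 0) :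
    tr a φ h * tr b ψ h' = tr ((φ ⬝ᵥ b) • a) ψ (smul_orth h2 _) * (tr b ψ h' * tr a φ h) := by
  apply sl_ext
  intro x
  simp only [sl_mul_mulVec, tr_mulVec, dotProduct_add, dotProduct_smul, h', h2, smul_eq_mul, mul_zero, add_zero]
  module

theorem tr_comm {a φ b ψ : Fin (n + 3) → k} (h : φ ⬝ᵥ a = 0) (h' : ψ ⬝ᵥ b = 0)
    (h1 : φ ⬝ᵥ b = 0) (h2 : ψ ⬝ᵥ a = 0) : tr a φ h * tr b ψ h' = tr b ψ h' * tr a φ h := by
  apply sl_ext
  intro x
  simp only [sl_mul_mulVec, tr_mulVec, dotProduct_add, dotProduct_smul, h1, h2]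
  simp only [smul_zero, add_zero]
  abel

theorem T_comm {a φ b ψ : Fin (n + 3) → k} (h : φ ⬝ᵥ a = 0) (h' : ψ ⬝ᵥ b = 0)
    (h1 : φ ⬝ᵥ b = 0) (h2 : ψ ⬝ᵥ a = 0) : ∀ x ∈ T a φ h, ∀ y ∈ T b ψ h', x * y = y * x := by
  rintro _ ⟨c, rfl⟩ _ ⟨d, rfl⟩
  exact tr_comm _ _ (smul_orth h1 d) (smul_orth h2 c)

theorem T_isMulCommutative {a φ : Fin (n + 3) → k} (h : φ ⬝ᵥ a = 0) : IsMulCommutative (T a φ h) := by
  rw [← Subgroup.commutator_self_eq_bot_iff, commutator_eq_bot_iff_forall]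
  exact T_comm h h h h

theorem mulVec_ne_zero (g : Matrix.SpecialLinearGroup (Fin (n + 3)) k) {a : Fin (n + 3) → k} (ha : a ≠ 0) :
    (g : Matrix (Fin (n + 3)) (Fin (n + 3)) k) *ᵥ a ≠ 0 := by
  intro h
  apply ha
  have h1 : ((g⁻¹ * g : Matrix.SpecialLinearGroup (Fin (n + 3)) k) : Matrix (Fin (n + 3)) (Fin (n + 3)) k) *ᵥ a
      = 0 := by
    rw [sl_mul_mulVec, h, mulVec_zero]
  rwa [inv_mul_cancel, Matrix.SpecialLinearGroup.coe_one, one_mulVec] at h1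

theorem vecMul_ne_zero (g : Matrix.SpecialLinearGroup (Fin (n + 3)) k) {φ : Fin (n + 3) → k} (hφ : φ ≠ 0) :
    φ ᵥ* (g : Matrix (Fin (n + 3)) (Fin (n + 3)) k) ≠ 0 := by
  intro h
  apply hφ
  have h1 : φ ᵥ* ((g * g⁻¹ : Matrix.SpecialLinearGroup (Fin (n + 3)) k) : Matrix (Fin (n + 3)) (Fin (n + 3)) k)
      = 0 := by
    rw [Matrix.SpecialLinearGroup.coe_mul, ← Matrix.vecMul_vecMul, h, zero_vecMul]
  rwa [mul_inv_cancel, Matrix.SpecialLinearGroup.coe_one, vecMul_one] at h1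

theorem conj_orth (g : Matrix.SpecialLinearGroup (Fin (n + 3)) k) {a φ : Fin (n + 3) → k} (h : φ ⬝ᵥ a = 0) :
    (φ ᵥ* ((g⁻¹ : Matrix.SpecialLinearGroup (Fin (n + 3)) k) : Matrix (Fin (n + 3)) (Fin (n + 3)) k)) ⬝ᵥ
      ((g : Matrix (Fin (n + 3)) (Fin (n + 3)) k) *ᵥ a) = 0 := by
  rw [← Matrix.dotProduct_mulVec, ← sl_mul_mulVec, inv_mul_cancel, Matrix.SpecialLinearGroup.coe_one, one_mulVec, h]

theorem conj_tr (g : Matrix.SpecialLinearGroup (Fin (n + 3)) k) {a φ : Fin (n + 3) → k} (h : φ ⬝ᵥ a = 0) :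
    g * tr a φ h * g⁻¹ = tr _ _ (conj_orth g h) := by
  rw [mul_inv_eq_iff_eq_mul]
  apply sl_ext
  intro x
  rw [sl_mul_mulVec, sl_mul_mulVec, tr_mulVec, tr_mulVec, mulVec_add, mulVec_smul, ← Matrix.dotProduct_mulVec,
    ← sl_mul_mulVec g⁻¹ g, inv_mul_cancel, Matrix.SpecialLinearGroup.coe_one, one_mulVec]

theorem conjBy_T (g : Matrix.SpecialLinearGroup (Fin (n + 3)) k) {a φ : Fin (n + 3) → k} (h : φ ⬝ᵥ a = 0) :
    conjBy (T a φ h) g = T _ _ (conj_orth g h) := by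
  have key : ∀ c : k, g * tr (c • a) φ (smul_orth h c) * g⁻¹ =
      tr (c • ((g : Matrix (Fin (n + 3)) (Fin (n + 3)) k) *ᵥ a)) _ (smul_orth (conj_orth g h) c) := by
    intro c
    rw [conj_tr]
    apply mat_ext
    rw [coe_tr, coe_tr, mulVec_smul]
  ext x
  constructor
  · rintro ⟨_, ⟨c, rfl⟩, rfl⟩
    exact ⟨c, key c⟩
  · rintro ⟨c, rfl⟩
    exact ⟨_, ⟨c, rfl⟩, key c⟩

/-- the family of all transvection subgroups -/
def Fam (k : Type*) [Field k] (n : ℕ) : Set (Subgroup (Matrix.SpecialLinearGroup (Fin (n + 3)) k)) :=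
  {A | ∃ (a φ : Fin (n + 3) → k) (h : φ ⬝ᵥ a = 0), a ≠ 0 ∧ φ ≠ 0 ∧ A = T a φ h}

theorem T_congr {a φ a' φ' : Fin (n + 3) → k} (h : φ ⬝ᵥ a = 0) (h' : φ' ⬝ᵥ a' = 0) (ha : a = a') (hφ : φ = φ') :
    T a φ h = T a' φ' h' := by
  subst ha; subst hφ; rfl

theorem fam_conj {A : Subgroup (Matrix.SpecialLinearGroup (Fin (n + 3)) k)} (hA : A ∈ Fam k n)
    (g : Matrix.SpecialLinearGroup (Fin (n + 3)) k) : conjBy A g ∈ Fam k n := by
  obtain ⟨a, φ, h, ha, hφ, rfl⟩ := hA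
  exact ⟨_, _, conj_orth g h, mulVec_ne_zero g ha, vecMul_ne_zero g⁻¹ hφ, conjBy_T g h⟩

theorem fam_transitive {A B : Subgroup (Matrix.SpecialLinearGroup (Fin (n + 3)) k)} (hA : A ∈ Fam k n)
    (hB : B ∈ Fam k n) : ∃ g, B = conjBy A g := by
  have key : ∀ A ∈ Fam k n, ∃ g, A = conjBy (T (Pi.single 1 1) (Pi.single 0 1) (by simp)) g := by
    rintro _ ⟨a, φ, h, ha, hφ, rfl⟩
    obtain ⟨P, hP1, hP2⟩ := Cfsg.Agent.S2579.exists_sl ha hφ h
    refine ⟨P, ?_⟩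
    rw [conjBy_T]
    apply T_congr
    · exact hP1.symm
    · rw [← hP2, Matrix.vecMul_vecMul, ← Matrix.SpecialLinearGroup.coe_mul, mul_inv_cancel,
        Matrix.SpecialLinearGroup.coe_one, vecMul_one]
  obtain ⟨g, hg⟩ := key A hA
  obtain ⟨g', hg'⟩ := key B hB
  refine ⟨g' * g⁻¹, ?_⟩
  rw [hg', hg, conjBy_conjBy, inv_mul_cancel_right]

/-- The case of an `SL₂`-pair. -/
theorem psl2_case {a φ b ψ : Fin (n + 3) → k} (h : φ ⬝ᵥ a = 0) (h' : ψ ⬝ᵥ b = 0)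
    (h1 : φ ⬝ᵥ b ≠ 0) (h2 : ψ ⬝ᵥ a ≠ 0) : IsPSL2PairOver k (T a φ h) (T b ψ h') := by
  refine isPSL2PairOver_of_rep (RingHom.id k)
      ({ toFun := fun g => (g : Matrix (Fin (n + 3)) (Fin (n + 3)) k)
         map_one' := Matrix.SpecialLinearGroup.coe_one
         map_mul' := Matrix.SpecialLinearGroup.coe_mul } :
        Matrix.SpecialLinearGroup (Fin (n + 3)) k →* Matrix (Fin (n + 3)) (Fin (n + 3)) k)
    (fun x y hxy => mat_ext hxy) (p := a) (b := φ) (r := (φ ⬝ᵥ b)⁻¹ • b) (a := (ψ ⬝ᵥ a)⁻¹ • ψ) ?_ ?_ ?_ ?_ ?_ ?_ ?_ ?_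
  · rw [smul_dotProduct, smul_eq_mul, inv_mul_cancel₀ h2]
  · rw [smul_dotProduct, dotProduct_smul, h', smul_zero, smul_zero]
  · exact h
  · rw [dotProduct_smul, smul_eq_mul, inv_mul_cancel₀ h1]
  · intro x hx
    exact mem_T'.1 hx
  · intro c
    exact ⟨_, tr_mem (h := h) c, by
      show (tr (c • a) φ (smul_orth h c) : Matrix (Fin (n + 3)) (Fin (n + 3)) k) = _
      rw [coe_tr, smul_vecMulVec]; rfl⟩
  · intro x hx
    obtain ⟨c, hc⟩ := mem_T'.1 hx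
    refine ⟨c * (φ ⬝ᵥ b) * (ψ ⬝ᵥ a), ?_⟩
    show (x : Matrix (Fin (n + 3)) (Fin (n + 3)) k) = _
    rw [hc, vecMulVec_smul, smul_vecMulVec, smul_smul, smul_smul]
    congr 2
    show c = _
    rw [RingHom.id_apply]
    field_simp
  · intro c
    refine ⟨_, tr_mem (h := h') (c * (φ ⬝ᵥ b)⁻¹ * (ψ ⬝ᵥ a)⁻¹), ?_⟩
    show (tr ((c * (φ ⬝ᵥ b)⁻¹ * (ψ ⬝ᵥ a)⁻¹) • b) ψ (smul_orth h' _) : Matrix (Fin (n + 3)) (Fin (n + 3)) k) = _
    rw [coe_tr, smul_vecMulVec, vecMulVec_smul, smul_vecMulVec, smul_smul, smul_smul]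
    congr 2
    rw [RingHom.id_apply]
    ring

/-- The commutator case. -/
theorem rcc_case {a φ b ψ : Fin (n + 3) → k} (ha : a ≠ 0) (hψ : ψ ≠ 0) (h : φ ⬝ᵥ a = 0) (h' : ψ ⬝ᵥ b = 0)
    (h1 : φ ⬝ᵥ b ≠ 0) (h2 : ψ ⬝ᵥ a = 0) : RootCommutatorCase (Fam k n) (T a φ h) (T b ψ h') := by
  have hcomm : ∀ c d : k, tr (c • a) φ (smul_orth h c) * tr (d • b) ψ (smul_orth h' d) *
      (tr (c • a) φ (smul_orth h c))⁻¹ * (tr (d • b) ψ (smul_orth h' d))⁻¹ =
        tr ((c * d * (φ ⬝ᵥ b)) • a) ψ (smul_orth h2 _) := by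
    intro c d
    rw [tr_mul_tr (smul_orth h c) (smul_orth h' d) (smul_orth h2 c)]
    have e : tr ((φ ⬝ᵥ d • b) • c • a) ψ (smul_orth (smul_orth h2 c) _) =
        tr ((c * d * (φ ⬝ᵥ b)) • a) ψ (smul_orth h2 _) := by
      apply mat_ext
      rw [coe_tr, coe_tr, dotProduct_smul, smul_smul, smul_eq_mul]
      congr 3
      ring
    rw [e]
    group
  have hgen1 : ∀ x ∈ T a φ h, x ≠ 1 →
      Subgroup.closure ((fun y => x * y * x⁻¹ * y⁻¹) '' (T b ψ h' : Set _)) = T a ψ h2 := by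
    rintro _ ⟨c, rfl⟩ hx
    have hc : c ≠ 0 := by
      rintro rfl
      apply hx
      apply mat_ext
      rw [coe_tr, zero_smul, Matrix.SpecialLinearGroup.coe_one]
      simp
    apply le_antisymm
    · rw [Subgroup.closure_le]
      rintro _ ⟨_, ⟨d, rfl⟩, rfl⟩
      exact ⟨c * d * (φ ⬝ᵥ b), hcomm c d⟩
    · rintro _ ⟨d, rfl⟩
      refine Subgroup.subset_closure ⟨tr ((d * c⁻¹ * (φ ⬝ᵥ b)⁻¹) • b) ψ (smul_orth h' _), tr_mem _, ?_⟩
      show tr (c • a) φ _ * tr _ ψ _ * _ * _ = _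
      rw [hcomm]
      apply mat_ext
      rw [coe_tr, coe_tr]
      congr 3
      field_simp
  have hgen2 : ∀ y ∈ T b ψ h', y ≠ 1 →
      Subgroup.closure ((fun x => x * y * x⁻¹ * y⁻¹) '' (T a φ h : Set _)) = T a ψ h2 := by
    rintro _ ⟨d, rfl⟩ hx
    have hd : d ≠ 0 := by
      rintro rfl
      apply hx
      apply mat_ext
      rw [coe_tr, zero_smul, Matrix.SpecialLinearGroup.coe_one]
      simp
    apply le_antisymm
    · rw [Subgroup.closure_le]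
      rintro _ ⟨_, ⟨c, rfl⟩, rfl⟩
      exact ⟨c * d * (φ ⬝ᵥ b), hcomm c d⟩
    · rintro _ ⟨c, rfl⟩
      refine Subgroup.subset_closure ⟨tr ((c * d⁻¹ * (φ ⬝ᵥ b)⁻¹) • a) φ (smul_orth h _), tr_mem _, ?_⟩
      show tr _ φ _ * tr _ ψ _ * _ * _ = _
      rw [hcomm]
      apply mat_ext
      rw [coe_tr, coe_tr]
      congr 3
      field_simp
  have hC : ⁅T a φ h, T b ψ h'⁆ = T a ψ h2 := by
    apply le_antisymm
    · rw [Subgroup.commutator_le]
      rintro _ ⟨c, rfl⟩ _ ⟨d, rfl⟩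
      rw [commutatorElement_def, hcomm]
      exact tr_mem _
    · have hφ : φ ≠ 0 := by
        rintro rfl
        exact h1 (zero_dotProduct _)
      rw [← hgen1 (tr ((1 : k) • a) φ (smul_orth h 1)) (tr_mem 1) (tr_ne_one (by rwa [one_smul]) hφ _),
        Subgroup.closure_le]
      rintro _ ⟨y, hy, rfl⟩
      exact comm_mem (tr_mem 1) hy
  refine ⟨?_, ?_, ?_, ?_⟩
  · rw [hC]
    exact ⟨a, ψ, h2, ha, hψ, rfl⟩
  · rw [hC]
    intro z hz x hx
    have hz' : z ∈ Subgroup.centralizer ((T a φ h ⊔ T b ψ h' : Subgroup _) : Set _) :=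
      mem_centralizer_sup.2 ⟨fun y hy => T_comm h2 h h2 h z hz y hy, fun y hy => T_comm h2 h' h' h2 z hz y hy⟩
    exact (Subgroup.mem_centralizer_iff.1 hz' x hx).symm
  · rw [hC]; exact hgen1
  · rw [hC]; exact hgen2

theorem fam_cases {A B : Subgroup (Matrix.SpecialLinearGroup (Fin (n + 3)) k)} (hA : A ∈ Fam k n)
    (hB : B ∈ Fam k n) : ⁅A, B⁆ = ⊥ ∨ IsPSL2PairOver k A B ∨ RootCommutatorCase (Fam k n) A B := by
  obtain ⟨a, φ, h, ha, hφ, rfl⟩ := hA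
  obtain ⟨b, ψ, h', hb, hψ, rfl⟩ := hB
  by_cases h1 : φ ⬝ᵥ b = 0
  · by_cases h2 : ψ ⬝ᵥ a = 0
    · left
      rw [commutator_eq_bot_iff_forall]
      exact T_comm h h' h1 h2
    · right; right
      exact rootCommutatorCase_symm (rcc_case hb hφ h' h h2 h1)
  · by_cases h2 : ψ ⬝ᵥ a = 0
    · right; right
      exact rcc_case ha hψ h h' h1 h2
    · right; left
      exact psl2_case h h' h1 h2

theorem fam_generates : (⨆ A ∈ Fam k n, A) = ⊤ := by
  rw [eq_top_iff, ← Cfsg.Agent.LieClassical.SLGen.closure_transvections, Subgroup.closure_le]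
  rintro _ ⟨i, j, hij, c, rfl⟩
  have h0 : (Pi.single j (1 : k) : Fin (n + 3) → k) ⬝ᵥ Pi.single i 1 = 0 := by
    rw [single_dotProduct, Pi.single_eq_of_ne hij.symm]; simp
  have h1 : T (Pi.single i (1 : k)) (Pi.single j 1) h0 ≤ ⨆ A ∈ Fam k n, A := by
    refine le_iSup₂_of_le _ ⟨_, _, h0, ?_, ?_, rfl⟩ le_rfl
    · exact Pi.single_ne_zero_iff.2 one_ne_zero
    · exact Pi.single_ne_zero_iff.2 one_ne_zero
  apply h1
  rw [transvection_eq_tr]
  exact tr_mem c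

theorem fam_rootSet : IsRootSubgroupSet (Fam k n) where
  commutative := by
    rintro _ ⟨a, φ, h, -, -, rfl⟩
    exact T_isMulCommutative h
  ne_bot := by
    rintro _ ⟨a, φ, h, ha, hφ, rfl⟩
    exact T_ne_bot ha hφ h
  generates := fam_generates
  conj_mem := fun A hA g => fam_conj hA g
  pair := fun A hA B hB => by
    rcases fam_cases hA hB with h | h | h
    · exact Or.inl h
    · exact Or.inr (Or.inl (isRankOnePair_of_isPSL2PairOver h))
    · exact Or.inr (Or.inr h)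

/-- unit vectors -/
theorem orth {i j : Fin (n + 3)} (hij : i ≠ j) : (Pi.single j (1 : k) : Fin (n + 3) → k) ⬝ᵥ Pi.single i 1 = 0 := by
  rw [single_dotProduct, Pi.single_eq_of_ne hij.symm]; simp

theorem ne_zero' (i : Fin (n + 3)) : (Pi.single i (1 : k) : Fin (n + 3) → k) ≠ 0 :=
  Pi.single_ne_zero_iff.2 one_ne_zero

theorem mem_fam {i j : Fin (n + 3)} (hij : i ≠ j) : T (Pi.single i (1 : k)) (Pi.single j 1) (orth hij) ∈ Fam k n :=
  ⟨_, _, orth hij, ne_zero' i, ne_zero' j, rfl⟩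

theorem pair_ne {i : Fin (n + 3)} : (Pi.single i (1 : k) : Fin (n + 3) → k) ⬝ᵥ Pi.single i 1 ≠ 0 := by
  rw [single_dotProduct, Pi.single_eq_same]; simp

theorem h01 : (0 : Fin (n + 3)) ≠ 1 := by simp

theorem val_two' : ((2 : Fin (n + 3)) : ℕ) = 2 := by
  show 2 % (n + 3) = 2
  exact Nat.mod_eq_of_lt (by omega)

theorem h02 : (0 : Fin (n + 3)) ≠ 2 := by
  intro h
  have := congrArg Fin.val h
  rw [val_two'] at this
  simp at this

theorem h12 : (1 : Fin (n + 3)) ≠ 2 := by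
  intro h
  have := congrArg Fin.val h
  rw [val_two'] at this
  simp at this

theorem fam_conjClass : IsConjClassOfSubgroups (Fam k n) :=
  ⟨⟨_, mem_fam h01⟩, fun _ hA _ hB => fam_transitive hA hB⟩

theorem rankOne_ex : ∃ A ∈ Fam k n, ∃ B ∈ Fam k n, IsRankOnePair A B :=
  ⟨_, mem_fam h01, _, mem_fam h01.symm, isRankOnePair_of_isPSL2PairOver (k := k)
    (psl2_case _ _ pair_ne pair_ne)⟩

theorem fam_nondegenerate : IsNondegenerateRootSet (Fam k n) := by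
  refine ⟨⟨_, mem_fam h01, _, mem_fam h02, ?_, ?_⟩, rankOne_ex, ⟨_, mem_fam h01, _, mem_fam h12, ?_⟩⟩
  · intro h
    have h1 : tr ((1 : k) • Pi.single 0 1) (Pi.single 1 1) (smul_orth (orth h01) 1) ∈
        T (Pi.single (0 : Fin (n + 3)) (1 : k)) (Pi.single 2 1) (orth h02) := by
      rw [← h]; exact tr_mem 1
    obtain ⟨c, hc⟩ := mem_T'.1 h1
    rw [coe_tr, add_right_inj] at hc
    have h2 := congrFun (congrFun hc 0) 1
    simp [vecMulVec_apply, h12] at h2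
  · rw [commutator_eq_bot_iff_forall]
    exact T_comm _ _ (orth h01) (orth h02)
  · exact rcc_case (ne_zero' 0) (ne_zero' 2) _ _ pair_ne (orth h02)

theorem fam_kRoot : IsKRootSubgroupSet k (Fam k n) := by
  refine ⟨fam_rootSet, ?_⟩
  intro A hA B hB hAB
  rcases fam_cases hA hB with h | h | h
  · exact absurd h (rankOne_not_commute hAB)
  · exact h
  · exact absurd h (rankOne_not_rcc fam_rootSet hB hAB)

theorem fam_connected : IsConnectedFamily (FAdj (Fam k n)) (Fam k n) :=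
  connected_of_class fam_rootSet fam_conjClass rankOne_ex

/-- The base subgroup of the statement. -/
theorem base_eq : Subgroup.closure {t : Matrix.SpecialLinearGroup (Fin (n + 3)) k |
            ∃ c : k, (t : Matrix (Fin (n + 3)) (Fin (n + 3)) k) = Matrix.transvection 0 1 c} =
    T (Pi.single (0 : Fin (n + 3)) (1 : k)) (Pi.single 1 1) (orth h01) := by
  have key : ∀ c : k, Matrix.transvection (0 : Fin (n + 3)) 1 c =
      ((tr (c • Pi.single 0 1) (Pi.single 1 1) (smul_orth (orth h01) c) :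
        Matrix.SpecialLinearGroup (Fin (n + 3)) k) : Matrix (Fin (n + 3)) (Fin (n + 3)) k) := by
    intro c
    rw [← transvection_eq_tr h01]
    rfl
  apply le_antisymm
  · rw [Subgroup.closure_le]
    rintro t ⟨c, hc⟩
    refine ⟨c, ?_⟩
    apply mat_ext
    rw [hc, key]
  · rintro _ ⟨c, rfl⟩
    exact Subgroup.subset_closure ⟨c, (key c).symm⟩

theorem family_eq : {A : Subgroup (Matrix.SpecialLinearGroup (Fin (n + 3)) k) |
        ∃ g : Matrix.SpecialLinearGroup (Fin (n + 3)) k,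
          A = Cfsg.conjBy (Subgroup.closure {t : Matrix.SpecialLinearGroup (Fin (n + 3)) k |
            ∃ c : k, (t : Matrix (Fin (n + 3)) (Fin (n + 3)) k) = Matrix.transvection 0 1 c}) g} = Fam k n := by
  ext A
  rw [base_eq]
  constructor
  · rintro ⟨g, rfl⟩
    exact fam_conj (mem_fam h01) g
  · intro hA
    exact fam_transitive (mem_fam h01) hA

end Cfsg.Agent.H736.SLn
end

-- part: S5043
section
set_option autoImplicit false
open Matrix
open Cfsg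

namespace Cfsg.Agent.S5043

/-- Let k be a field and n a natural number. In SL_{n+3}(k) (so in every dimension at least 3) the conjugates of the root subgroup of elementary transvections 1 + c E₁₂ (c ∈ k) — that is, the groups of transvections attached to an incident point–hyperplane pair — form a non-degenerate class of abstract k-root subgroups of SL_{n+3}(k) whose graph of rank one pairs is connected. -/
theorem result (k : Type*) [Field k] (n : ℕ) :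
    Cfsg.IsRootSubgroupClass {A : Subgroup (Matrix.SpecialLinearGroup (Fin (n + 3)) k) |
        ∃ g : Matrix.SpecialLinearGroup (Fin (n + 3)) k,
          A = Cfsg.conjBy (Subgroup.closure {t : Matrix.SpecialLinearGroup (Fin (n + 3)) k |
            ∃ c : k, (t : Matrix (Fin (n + 3)) (Fin (n + 3)) k) = Matrix.transvection 0 1 c}) g} ∧
    Cfsg.IsNondegenerateRootSet {A : Subgroup (Matrix.SpecialLinearGroup (Fin (n + 3)) k) |
        ∃ g : Matrix.SpecialLinearGroup (Fin (n + 3)) k,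
          A = Cfsg.conjBy (Subgroup.closure {t : Matrix.SpecialLinearGroup (Fin (n + 3)) k |
            ∃ c : k, (t : Matrix (Fin (n + 3)) (Fin (n + 3)) k) = Matrix.transvection 0 1 c}) g} ∧
    Cfsg.IsKRootSubgroupSet k {A : Subgroup (Matrix.SpecialLinearGroup (Fin (n + 3)) k) |
        ∃ g : Matrix.SpecialLinearGroup (Fin (n + 3)) k,
          A = Cfsg.conjBy (Subgroup.closure {t : Matrix.SpecialLinearGroup (Fin (n + 3)) k |
            ∃ c : k, (t : Matrix (Fin (n + 3)) (Fin (n + 3)) k) = Matrix.transvection 0 1 c}) g} ∧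
    Cfsg.IsConnectedFamily (Cfsg.FAdj {A : Subgroup (Matrix.SpecialLinearGroup (Fin (n + 3)) k) |
        ∃ g : Matrix.SpecialLinearGroup (Fin (n + 3)) k,
          A = Cfsg.conjBy (Subgroup.closure {t : Matrix.SpecialLinearGroup (Fin (n + 3)) k |
            ∃ c : k, (t : Matrix (Fin (n + 3)) (Fin (n + 3)) k) = Matrix.transvection 0 1 c}) g})
      {A : Subgroup (Matrix.SpecialLinearGroup (Fin (n + 3)) k) |
        ∃ g : Matrix.SpecialLinearGroup (Fin (n + 3)) k,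
          A = Cfsg.conjBy (Subgroup.closure {t : Matrix.SpecialLinearGroup (Fin (n + 3)) k |
            ∃ c : k, (t : Matrix (Fin (n + 3)) (Fin (n + 3)) k) = Matrix.transvection 0 1 c}) g} := by
  rw [Cfsg.Agent.H736.SLn.family_eq]
  exact ⟨⟨Cfsg.Agent.H736.SLn.fam_rootSet, Cfsg.Agent.H736.SLn.fam_conjClass⟩, Cfsg.Agent.H736.SLn.fam_nondegenerate,
    Cfsg.Agent.H736.SLn.fam_kRoot, Cfsg.Agent.H736.SLn.fam_connected⟩

end Cfsg.Agent.S5043
end
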