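import Cfsg.Statements.S5055
import Cfsg.Agent.H737.RootStruct
import Cfsg.Agent.H733.RootNd2
set_option linter.all false

set_option autoImplicit false
open Cfsg

namespace Cfsg.Agent.S5055

open Cfsg.Agent.H737
open scoped commutatorElement

theorem isolated_eq_WSet {G : Type*} [Group G] {D : Set G} (hD : IsRootInvolutionSet D) (d : G) :
    {w | Cfsg.IsIsolatedElem (Cfsg.OddAdj (Cfsg.commutingMembers D d)) (Cfsg.commutingMembers D d) w} =
      WSet D d := by
  ext w
  constructor
  · rintro ⟨⟨h1, h2⟩, h3⟩
    refine ⟨h1, h2, fun c hc hcd ho => ?_⟩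
    exact (h3 c).2 ⟨⟨hc, hcd⟩, ⟨h1, h2⟩, ho.1, ho.2⟩
  · rintro ⟨h1, h2, h3⟩
    refine ⟨⟨h1, h2⟩, fun c => ⟨?_, ?_⟩⟩
    · rintro ⟨_, ⟨hc, hcd⟩, hne, hodd⟩
      exact h3 c hc hcd (Opp.symm' hD h1 hc ⟨hne, hodd⟩)
    · rintro ⟨⟨hc, hcd⟩, _, hne, hodd⟩
      exact h3 c hc hcd ⟨hne, hodd⟩

/-- The Root Structure Theorem for root involutions. Let G be a finite group with O₂(G) = 1 and trivial centre, generated by a non-degenerate class D of root involutions such that for every d ∈ D the members of D with the same commuting members as d, together with 1, form a subgroup E(d). For d ∈ D let M_d be the subgroup generated by d and the members e ≠ d of D commuting with d with ed ∈ D, let W_d be the set of members of D commuting with d that have no partner with product of odd order among the members commuting with d, and let N_d be the subgroup generated by W_d. Then N_d = M_d; the members of D in N_d are d and the e just described; the commutator subgroup of N_d is E(d); and the members of D central in N_d are exactly those with the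 same commuting members as d. -/
theorem result {G : Type*} [Group G] [Finite G] {D : Set G} (hD : Cfsg.IsNondegenerateRootInvolutionSet D)
    (hcl : Cfsg.IsRootInvolutionClass D) (hO : Cfsg.pCore 2 G = ⊥) (hZ : Subgroup.center G = ⊥)
    (hE : ∀ d ∈ D, (Cfsg.sameCommutingSubgroup D d : Set G) = Cfsg.sameCommutingClass D d ∪ {1}) {d : G} (hd : d ∈ D) :
    Subgroup.closure {w | Cfsg.IsIsolatedElem (Cfsg.OddAdj (Cfsg.commutingMembers D d)) (Cfsg.commutingMembers D d) w} =
      Subgroup.closure (Cfsg.productPartners D d ∪ {d}) ∧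
    D ∩ (Subgroup.closure (Cfsg.productPartners D d ∪ {d}) : Set G) = Cfsg.productPartners D d ∪ {d} ∧
    ⁅Subgroup.closure (Cfsg.productPartners D d ∪ {d}), Subgroup.closure (Cfsg.productPartners D d ∪ {d})⁆ =
      Cfsg.sameCommutingSubgroup D d ∧
    Cfsg.sameCommutingClass D d = {e | e ∈ D ∧ e ∈ Subgroup.closure (Cfsg.productPartners D d ∪ {d}) ∧
      ∀ y ∈ Subgroup.closure (Cfsg.productPartners D d ∪ {d}), e * y = y * e} := by
  classical
  obtain ⟨h, -, ⟨p, hp, q, hq, hpq, hpqo⟩, ⟨r, hr, s, hs, hrs⟩⟩ := hD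
  have hc : IsConnectedSet (OddAdj D) D :=
    Cfsg.Agent.H733.odd_connected hcl ⟨p, hp, q, hq, hpq, hpqo⟩
  -- the class
  have hclass : ∀ d ∈ D, ∀ e, e ∈ Cfsg.sameCommutingClass D d ↔ e ∈ D ∧ SimR D e d := by
    intro d hd e
    constructor
    · rintro ⟨h1, h2⟩
      exact ⟨h1, ((sim_iff_commutingMembers h hc hd h1).1 h2).symm⟩
    · rintro ⟨h1, h2⟩
      exact ⟨h1, (sim_iff_commutingMembers h hc hd h1).2 h2.symm⟩
  have hES' : ∀ d ∈ D, ∀ x, x ∈ Cfsg.sameCommutingSubgroup D d ↔ x = 1 ∨ (x ∈ D ∧ SimR D x d) := by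
    intro d hd x
    have h1 : x ∈ (Cfsg.sameCommutingSubgroup D d : Set G) ↔
        x ∈ Cfsg.sameCommutingClass D d ∪ {1} := by rw [hE d hd]
    rw [SetLike.mem_coe] at h1
    rw [h1, ← hclass d hd x]
    simp only [Set.mem_union, Set.mem_singleton_iff]
    tauto
  have hES : ∀ d ∈ D, ∃ ES : Subgroup G, ∀ x, x ∈ ES ↔ x = 1 ∨ (x ∈ D ∧ SimR D x d) :=
    fun d hd => ⟨_, hES' d hd⟩
  have hall := all_deep h hc hES hd
  have hdd := sq_of_mem h hd
  -- `W_d = X_d ∪ {d}`
  have hWX : WSet D d = Cfsg.productPartners D d ∪ {d} := by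
    ext w
    constructor
    · intro hw
      by_cases hwd : w = d
      · exact Or.inr hwd
      left
      refine ⟨⟨hw.1, hw.2.1, hwd⟩, ?_⟩
      by_cases hsim : SimR D w d
      · have h1 : w * d ∈ Cfsg.sameCommutingSubgroup D d :=
          mul_mem ((hES' d hd w).2 (Or.inr ⟨hw.1, hsim⟩)) ((hES' d hd d).2 (Or.inr ⟨hd, SimR.refl D d⟩))
        rcases (hES' d hd _).1 h1 with h2 | h2
        · exfalso
          apply hwd
          calc w = (w * d) * d := by rw [mul_assoc, hdd, mul_one]
            _ = d := by rw [h2, one_mul]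
        · exact h2.1
      · have hdeep : Deep D d w := ⟨hw, hsim, fun x hx hnx => hall w hw x hx hnx⟩
        obtain ⟨e, he, hew, hed⟩ := exists_opp_not_opp h hc hw.1 hd hsim
        obtain ⟨z, -, -, -, -, -, hP3⟩ := deep_pair h hc hd (hES' d hd) hdeep he hew hed
        obtain ⟨z', hz', -, hdz'⟩ := hP3 d hd (SimR.refl D d)
        have hww := sq_of_mem h hw.1
        have h3 : w * d = z' * w * z' := by
          rw [hw.2.1.eq]
          calc d * w = z' * (w * z' * w) * w := by rw [← hdz']
            _ = z' * w * z' * (w * w) := by group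
            _ = z' * w * z' := by rw [hww, mul_one]
        rw [h3]
        exact conj_mem' h hw.1 hz'
    · rintro (hw | hw)
      · exact partner_mem_WSet h hd hw.1.1 hw.1.2.1 hw.2
      · rw [Set.mem_singleton_iff] at hw
        rw [hw]; exact self_mem_WSet h hd
  rw [isolated_eq_WSet h d, ← hWX]
  set M : Subgroup G := Subgroup.closure (WSet D d) with hM
  -- `E(d)` is central in `M`
  have hcentral : ∀ y ∈ M, ∀ e ∈ Cfsg.sameCommutingSubgroup D d, Commute y e := by
    intro y hy e he
    rcases (hES' d hd e).1 he with h1 | h1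
    · rw [h1]; exact Commute.one_right y
    induction hy using Subgroup.closure_induction with
    | mem x hx => exact WSet_commute_sim h hc hd h1.1 h1.2 hx
    | one => exact Commute.one_left e
    | mul a b _ _ iha ihb => exact iha.mul_left ihb
    | inv a _ iha => exact iha.inv_left
  have hsimW : ∀ e ∈ D, SimR D e d → e ∈ WSet D d := fun e he hs => sim_mem_WSet h hc hd he hs
  refine ⟨rfl, ?_, ?_, ?_⟩
  · ext y
    constructor
    · rintro ⟨h1, h2⟩
      exact mem_WSet_of_mem_closure h h1 h2
    · intro hy
      exact ⟨hy.1, Subgroup.subset_closure hy⟩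
  · apply le_antisymm
    · -- commutators
      have hstep1 : ∀ w ∈ WSet D d, ∀ y ∈ M, ⁅w, y⁆ ∈ Cfsg.sameCommutingSubgroup D d := by
        intro w hw y hy
        induction hy using Subgroup.closure_induction with
        | mem x hx =>
          by_cases hwx : Commute w x
          · rw [commutatorElement_eq_one_iff_commute.2 hwx]; exact one_mem _
          · have hww := sq_of_mem h hw.1
            have hxx := sq_of_mem h hx.1
            have h4 := WSet_order_four h hw hx hwx
            have e1 : ⁅w, x⁆ = x * (w * x * w) := by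
              rw [commutatorElement_def, inv_of_sq hww, inv_of_sq hxx, ← comm_symm hww hxx h4]
              group
            rw [e1]
            exact (hES' d hd _).2 (Or.inr ⟨(WSet_comm h hx hw (fun hh => hwx hh.symm)).1,
              hall w hw x hx hwx⟩)
        | one => rw [commutatorElement_one_right]; exact one_mem _
        | mul a b ha hb iha ihb =>
          have e1 : ⁅w, a * b⁆ = ⁅w, a⁆ * (a * ⁅w, b⁆ * a⁻¹) := by
            simp only [commutatorElement_def]; group
          have e2 : a * ⁅w, b⁆ * a⁻¹ = ⁅w, b⁆ := by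
            rw [(hcentral a ha _ ihb).eq, mul_inv_cancel_right]
          rw [e1, e2]; exact mul_mem iha ihb
        | inv a ha iha =>
          have e1 : ⁅w, a⁻¹⁆ = a⁻¹ * ⁅w, a⁆⁻¹ * a := by
            simp only [commutatorElement_def]; group
          have e2 : a⁻¹ * ⁅w, a⁆⁻¹ * a = ⁅w, a⁆⁻¹ := by
            rw [(hcentral a⁻¹ (inv_mem ha) _ (inv_mem iha)).eq, inv_mul_cancel_right]
          rw [e1, e2]; exact inv_mem iha
      rw [Subgroup.commutator_le]
      intro x hx y hy
      induction hx using Subgroup.closure_induction with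
      | mem w hw => exact hstep1 w hw y hy
      | one => rw [commutatorElement_one_left]; exact one_mem _
      | mul a b ha hb iha ihb =>
        have e1 : ⁅a * b, y⁆ = (a * ⁅b, y⁆ * a⁻¹) * ⁅a, y⁆ := by
          simp only [commutatorElement_def]; group
        have e2 : a * ⁅b, y⁆ * a⁻¹ = ⁅b, y⁆ := by
          rw [(hcentral a ha _ ihb).eq, mul_inv_cancel_right]
        rw [e1, e2]; exact mul_mem ihb iha
      | inv a ha iha =>
        have e1 : ⁅a⁻¹, y⁆ = a⁻¹ * ⁅a, y⁆⁻¹ * a := by
          simp only [commutatorElement_def]; group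
        have e2 : a⁻¹ * ⁅a, y⁆⁻¹ * a = ⁅a, y⁆⁻¹ := by
          rw [(hcentral a⁻¹ (inv_mem ha) _ (inv_mem iha)).eq, inv_mul_cancel_right]
        rw [e1, e2]; exact inv_mem iha
    · -- a member of `W_d` outside the class of `d`
      obtain ⟨g, hg⟩ := hcl.2.2 r hr d hd
      set b : G := g * s * g⁻¹ with hb
      have hbD : b ∈ D := h.conj_mem s hs g
      have hdb4 : orderOf (d * b) = 4 := by
        have e1 : d * b = g * (r * s) * g⁻¹ := by rw [hg, hb]; group
        rw [e1, orderOf_conj', hrs]
      have hbb := sq_of_mem h hbD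
      have hvD : d * (b * d * b) ∈ D := mem_of_order_four h hd hbD hdb4
      have c1 : Commute d (b * d * b) := commute_of_order_four hdd hbb hdb4
      have hvb : Commute b (d * (b * d * b)) := by
        show b * (d * (b * d * b)) = d * (b * d * b) * b
        calc b * (d * (b * d * b)) = b * ((b * d * b) * d) := by rw [c1.eq]
          _ = (b * b) * d * b * d := by group
          _ = d * b * d * (b * b) := by rw [hbb, one_mul, mul_one]
          _ = d * (b * d * b) * b := by group
      have hvW : d * (b * d * b) ∈ WSet D d := by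
        refine partner_mem_WSet h hd hvD ((Commute.refl d).mul_left c1.symm) ?_
        rw [c1.eq, mul_assoc, hdd, mul_one]
        exact conj_mem' h hd hbD
      have hvs : ¬ SimR D (d * (b * d * b)) d := by
        intro hsim
        exact not_commute_of_order_four h hd hbD hdb4
          (sim_centralize h hc hbD hvD hd hsim hvb).symm
      have hdeep : Deep D d (d * (b * d * b)) := ⟨hvW, hvs, fun x hx hnx => hall _ hvW x hx hnx⟩
      obtain ⟨e, he, hev, hed⟩ := exists_opp_not_opp h hc hvD hd hvs
      obtain ⟨z, hzD, hzW, -, hP1, -, hP3⟩ := deep_pair h hc hd (hES' d hd) hdeep he hev hed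
      intro a ha
      rcases (hES' d hd a).1 ha with h1 | h1
      · rw [h1]; exact one_mem _
      obtain ⟨z', hz'D, hsz', haz'⟩ := hP3 a h1.1 h1.2
      have hz'W : z' ∈ WSet D d := by
        obtain ⟨a', ha', hsa', hza'⟩ := hP1 z' hz'D hsz'
        rw [hza']
        exact (comm_class h hc hd hvW he hev hed ha' hsa').2.2.2.1
      have e1 : a = ⁅z', d * (b * d * b)⁆ := by
        rw [commutatorElement_def, inv_of_mem h hz'D, inv_of_mem h hvD]
        rw [haz']; group
      rw [e1]
      exact Subgroup.commutator_mem_commutator (Subgroup.subset_closure hz'W)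
        (Subgroup.subset_closure hvW)
  · ext e
    rw [hclass d hd e]
    constructor
    · rintro ⟨h1, h2⟩
      exact ⟨h1, Subgroup.subset_closure (hsimW e h1 h2), fun y hy =>
        (hcentral y hy e ((hES' d hd e).2 (Or.inr ⟨h1, h2⟩))).symm.eq⟩
    · rintro ⟨h1, h2, h3⟩
      refine ⟨h1, ?_⟩
      by_contra hsim
      have heW := mem_WSet_of_mem_closure h h1 h2
      obtain ⟨c, hcD, hce, hcd⟩ := exists_opp_not_opp h hc h1 hd hsim
      have h4 := comm_class h hc hd heW hcD hce hcd hd (SimR.refl D d)
      exact h4.2.2.2.2.2 e h1 hce (h3 _ (Subgroup.subset_closure h4.2.2.2.1)).symm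

end Cfsg.Agent.S5055
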