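-- Proof of statement S5058 (row 5058).
import Cfsg.Statements.S5058
import Cfsg.Agent.S2579
import Cfsg.Agent.LieClassical.SLGen
import Cfsg.Agent.ClassicalGeometry.AutPSL.Root
set_option linter.all false

set_option autoImplicit false
open Matrix
open Cfsg

namespace Cfsg.Agent.S5058

open Cfsg.Agent.ClassicalGeometry.AutPSL.Root (tr coe_tr tr_mulVec sl_ext sl_mul_mulVec)

/-- The set of transvections, as in the statement. -/
def DD (F : Type*) [Field F] (n : ℕ) : Set (Matrix.SpecialLinearGroup (Fin (n + 3)) F) :=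
  {t | ∃ c : F, c ≠ 0 ∧
        ∃ g : Matrix.SpecialLinearGroup (Fin (n + 3)) F, ((g⁻¹ * t * g : Matrix.SpecialLinearGroup (Fin (n + 3)) F) :
          Matrix (Fin (n + 3)) (Fin (n + 3)) F) = Matrix.transvection 0 1 c}

section General

variable {F : Type*} [Field F] {n : ℕ}

theorem mat_ext {A B : Matrix.SpecialLinearGroup (Fin (n + 3)) F}
    (h : (A : Matrix (Fin (n + 3)) (Fin (n + 3)) F) = (B : Matrix (Fin (n + 3)) (Fin (n + 3)) F)) : A = B :=
  Subtype.ext h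

theorem one_mulVec' (x : Fin (n + 3) → F) :
    ((1 : Matrix.SpecialLinearGroup (Fin (n + 3)) F) : Matrix (Fin (n + 3)) (Fin (n + 3)) F) *ᵥ x = x := by
  rw [Matrix.SpecialLinearGroup.coe_one, one_mulVec]

theorem conj_mem {t : Matrix.SpecialLinearGroup (Fin (n + 3)) F} (ht : t ∈ DD F n)
    (h : Matrix.SpecialLinearGroup (Fin (n + 3)) F) : h * t * h⁻¹ ∈ DD F n := by
  obtain ⟨c, hc, g, hg⟩ := ht
  refine ⟨c, hc, h * g, ?_⟩
  rw [← hg, show (h * g)⁻¹ * (h * t * h⁻¹) * (h * g) = g⁻¹ * t * g by group]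

theorem tr_mul_eq {a φ : Fin (n + 3) → F} (h : φ ⬝ᵥ a = 0) {P : Matrix.SpecialLinearGroup (Fin (n + 3)) F}
    {a' φ' : Fin (n + 3) → F} (h' : φ' ⬝ᵥ a' = 0)
    (h1 : (P : Matrix (Fin (n + 3)) (Fin (n + 3)) F) *ᵥ a' = a)
    (h2 : φ ᵥ* (P : Matrix (Fin (n + 3)) (Fin (n + 3)) F) = φ') :
    tr a φ h * P = P * tr a' φ' h' := by
  apply mat_ext
  rw [Matrix.SpecialLinearGroup.coe_mul, Matrix.SpecialLinearGroup.coe_mul, coe_tr, coe_tr, add_mul, mul_add, one_mul, mul_one,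
    Matrix.vecMulVec_mul, Matrix.mul_vecMulVec, h1, h2]

/-- All the transvections `1 + a φᵀ` are conjugate. -/
theorem tr_conj {a φ a' φ' : Fin (n + 3) → F} (ha : a ≠ 0) (hφ : φ ≠ 0) (h : φ ⬝ᵥ a = 0)
    (ha' : a' ≠ 0) (hφ' : φ' ≠ 0) (h' : φ' ⬝ᵥ a' = 0) :
    ∃ g : Matrix.SpecialLinearGroup (Fin (n + 3)) F, tr a' φ' h' = g * tr a φ h * g⁻¹ := by
  have h01 : (Pi.single (0 : Fin (n + 3)) (1 : F) : Fin (n + 3) → F) ⬝ᵥ Pi.single 1 1 = 0 := by
    rw [single_dotProduct, Pi.single_eq_of_ne (by simp : (0 : Fin (n + 3)) ≠ 1)]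
    simp
  obtain ⟨P, hP1, hP2⟩ := Cfsg.Agent.S2579.exists_sl ha hφ h
  obtain ⟨Q, hQ1, hQ2⟩ := Cfsg.Agent.S2579.exists_sl ha' hφ' h'
  have e1 := tr_mul_eq h h01 hP1 hP2
  have e2 := tr_mul_eq h' h01 hQ1 hQ2
  have e3 : tr a φ h = P * tr _ _ h01 * P⁻¹ := by rw [← e1]; group
  have e4 : tr a' φ' h' = Q * tr _ _ h01 * Q⁻¹ := by rw [← e2]; group
  refine ⟨Q * P⁻¹, ?_⟩
  rw [e3, e4]
  group

/-- The first unit vector. -/
def e0 (F : Type*) [Field F] (n : ℕ) : Fin (n + 3) → F := Pi.single 0 1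

/-- The second unit vector. -/
def e1 (F : Type*) [Field F] (n : ℕ) : Fin (n + 3) → F := Pi.single 1 1

theorem coe_transvection_eq (c : F) :
    Matrix.transvection (0 : Fin (n + 3)) 1 c = 1 + vecMulVec (c • e0 F n) (e1 F n) := by
  ext r s
  simp only [Matrix.transvection, Matrix.add_apply, single_apply, vecMulVec_apply, Pi.smul_apply, e0, e1,
    Pi.single_apply, smul_eq_mul]
  rw [Matrix.one_apply]
  congr 1
  by_cases h1 : r = 0
  · by_cases h2 : s = 1
    · rw [if_pos ⟨h1.symm, h2.symm⟩, if_pos h1, if_pos h2]; ring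
    · rw [if_neg (fun h => h2 h.2.symm), if_neg h2]; ring
  · rw [if_neg (fun h => h1 h.1.symm), if_neg h1]; ring

theorem std_orth (c : F) : (e1 F n) ⬝ᵥ (c • e0 F n) = 0 := by
  rw [dotProduct_smul, e1, e0, single_dotProduct, Pi.single_eq_of_ne (by simp : (1 : Fin (n + 3)) ≠ 0)]
  simp

theorem std_ne {c : F} (hc : c ≠ 0) : c • e0 F n ≠ 0 := by
  intro h
  have := congrFun h 0
  simp [e0] at this
  exact hc this

theorem e1_ne : e1 F n ≠ 0 := by
  intro h
  have := congrFun h 1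
  simp [e1] at this

theorem coe_std (c : F) : ((tr (c • e0 F n) (e1 F n) (std_orth c) :
      Matrix.SpecialLinearGroup (Fin (n + 3)) F) :
      Matrix (Fin (n + 3)) (Fin (n + 3)) F) = Matrix.transvection 0 1 c := by
  rw [coe_tr, coe_transvection_eq]

theorem mem_iff {t : Matrix.SpecialLinearGroup (Fin (n + 3)) F} :
    t ∈ DD F n ↔ ∃ (a φ : Fin (n + 3) → F) (h : φ ⬝ᵥ a = 0), a ≠ 0 ∧ φ ≠ 0 ∧ t = tr a φ h := by
  constructor
  · rintro ⟨c, hc, g, hg⟩
    have h1 : g⁻¹ * t * g = tr (c • e0 F n) (e1 F n) (std_orth c) := by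
      apply mat_ext
      rw [hg, ← coe_std]
    have h2 : t = g * tr (c • e0 F n) (e1 F n) (std_orth c) * g⁻¹ := by
      rw [← h1]; group
    -- compute
    obtain ⟨a, ha⟩ : ∃ a : Fin (n + 3) → F, a =
      (g : Matrix (Fin (n + 3)) (Fin (n + 3)) F) *ᵥ (c • e0 F n) := ⟨_, rfl⟩
    obtain ⟨φ, hφ⟩ : ∃ φ : Fin (n + 3) → F, φ = (e1 F n) ᵥ*
      ((g⁻¹ : Matrix.SpecialLinearGroup (Fin (n + 3)) F) : Matrix (Fin (n + 3)) (Fin (n + 3)) F) := ⟨_, rfl⟩
    have hgg : ((g⁻¹ : Matrix.SpecialLinearGroup (Fin (n + 3)) F) : Matrix (Fin (n + 3)) (Fin (n + 3)) F) *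
        (g : Matrix (Fin (n + 3)) (Fin (n + 3)) F) = 1 := by
      rw [← Matrix.SpecialLinearGroup.coe_mul, inv_mul_cancel, Matrix.SpecialLinearGroup.coe_one]
    have h3 : φ ⬝ᵥ a = 0 := by
      rw [ha, hφ, ← Matrix.dotProduct_mulVec, Matrix.mulVec_mulVec, hgg, Matrix.one_mulVec]
      exact std_orth c
    have h4 : φ ᵥ* (g : Matrix (Fin (n + 3)) (Fin (n + 3)) F) = e1 F n := by
      rw [hφ, Matrix.vecMul_vecMul, hgg, Matrix.vecMul_one]
    have h5 := tr_mul_eq h3 (std_orth c) ha.symm h4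
    refine ⟨a, φ, h3, ?_, ?_, ?_⟩
    · intro ha0
      apply std_ne (n := n) hc
      have : ((g⁻¹ : Matrix.SpecialLinearGroup (Fin (n + 3)) F) : Matrix (Fin (n + 3)) (Fin (n + 3)) F) *ᵥ a = 0 := by
        rw [ha0, Matrix.mulVec_zero]
      rw [ha, Matrix.mulVec_mulVec, hgg, Matrix.one_mulVec] at this
      exact this
    · intro hφ0
      apply e1_ne (F := F) (n := n)
      rw [← h4, hφ0, Matrix.zero_vecMul]
    · rw [h2, ← h5]; group
  · rintro ⟨a, φ, h, ha, hφ, rfl⟩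
    obtain ⟨g, hg⟩ := tr_conj (std_ne one_ne_zero) e1_ne (std_orth 1) ha hφ h
    refine ⟨1, one_ne_zero, g, ?_⟩
    rw [hg, ← coe_std 1, show g⁻¹ * (g * tr ((1 : F) • e0 F n) (e1 F n) (std_orth 1) * g⁻¹) * g =
      tr ((1 : F) • e0 F n) (e1 F n) (std_orth 1) by group]

end General

section CharTwo

variable {F : Type*} [Field F] [CharP F 2] {n : ℕ}

theorem two_eq : (2 : F) = 0 := CharTwo.two_eq_zero

theorem tr_mul_self {a φ : Fin (n + 3) → F} (h : φ ⬝ᵥ a = 0) : tr a φ h * tr a φ h = 1 := by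
  apply sl_ext
  intro x
  rw [sl_mul_mulVec, tr_mulVec, tr_mulVec, dotProduct_add, dotProduct_smul, h, smul_zero, add_zero,
    one_mulVec']
  rw [add_assoc, ← add_smul, CharTwo.add_self_eq_zero, zero_smul, add_zero]

omit [CharP F 2] in
theorem tr_ne_one {a φ : Fin (n + 3) → F} (ha : a ≠ 0) (hφ : φ ≠ 0) (h : φ ⬝ᵥ a = 0) : tr a φ h ≠ 1 := by
  intro he
  obtain ⟨i, hi⟩ := Function.ne_iff.1 hφ
  have h1 : Pi.single i 1 + (φ ⬝ᵥ Pi.single i 1) • a = Pi.single i (1 : F) := by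
    rw [← tr_mulVec a φ h, he, one_mulVec']
  rw [add_eq_left, dotProduct_single_one, smul_eq_zero] at h1
  rcases h1 with h1 | h1
  · exact hi h1
  · exact ha h1

theorem orderOf_tr {a φ : Fin (n + 3) → F} (ha : a ≠ 0) (hφ : φ ≠ 0) (h : φ ⬝ᵥ a = 0) : orderOf (tr a φ h) = 2 := by
  rw [orderOf_eq_prime_iff]
  exact ⟨by rw [pow_two]; exact tr_mul_self h, tr_ne_one ha hφ h⟩

omit [CharP F 2] in
theorem comm_case {a φ b ψ : Fin (n + 3) → F} (h : φ ⬝ᵥ a = 0) (h' : ψ ⬝ᵥ b = 0)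
    (h1 : φ ⬝ᵥ b = 0) (h2 : ψ ⬝ᵥ a = 0) : tr a φ h * tr b ψ h' = tr b ψ h' * tr a φ h := by
  apply sl_ext
  intro x
  simp only [sl_mul_mulVec, tr_mulVec, dotProduct_add, dotProduct_smul, h1, h2]
  simp only [smul_zero, add_zero]
  abel

theorem four_case {a φ b ψ : Fin (n + 3) → F} (h : φ ⬝ᵥ a = 0) (h' : ψ ⬝ᵥ b = 0)
    (h2 : ψ ⬝ᵥ a = 0) : (tr a φ h * tr b ψ h') ^ 2 = tr ((φ ⬝ᵥ b) • a) ψ (by
      rw [dotProduct_smul, h2, smul_zero]) := by
  rw [pow_two]
  apply sl_ext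
  intro x
  simp only [sl_mul_mulVec, tr_mulVec, dotProduct_add, dotProduct_smul, h, h', h2, add_zero, smul_eq_mul,
    mul_zero]
  have e : (2 : F) = 0 := two_eq
  have e1 : (2 : F) • ((φ ⬝ᵥ x) • a) = 0 := by rw [e, zero_smul]
  have e2 : (2 : F) • ((ψ ⬝ᵥ x) • b) = 0 := by rw [e, zero_smul]
  have e3 : (2 : F) • (((ψ ⬝ᵥ x) * (φ ⬝ᵥ b)) • a) = 0 := by rw [e, zero_smul]
  have e4 : x + (ψ ⬝ᵥ x) • b + (φ ⬝ᵥ x + ψ ⬝ᵥ x * φ ⬝ᵥ b) • a + (ψ ⬝ᵥ x) • b +
      (φ ⬝ᵥ x + ψ ⬝ᵥ x * φ ⬝ᵥ b + ψ ⬝ᵥ x * φ ⬝ᵥ b) • a =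
      x + (ψ ⬝ᵥ x) • (φ ⬝ᵥ b) • a + ((2 : F) • ((φ ⬝ᵥ x) • a) + (2 : F) • ((ψ ⬝ᵥ x) • b) +
        (2 : F) • (((ψ ⬝ᵥ x) * (φ ⬝ᵥ b)) • a)) := by
    module
  rw [e4, e1, e2, e3]
  simp

open Polynomial in
/-- The polynomial killed by the product of two non-commuting "opposite" transvections is separable. -/
theorem poly_separable {l : F} (hl : l ≠ 0) :
    ((X ^ 2 + C l * X + 1) * (X + 1) : F[X]).Separable := by
  have e : (2 : F[X]) = 0 := by
    have : (2 : F[X]) = C (2 : F) := (map_ofNat C 2).symm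
    rw [this, two_eq, C_0]
  have hll : C l * C l⁻¹ = 1 := by rw [← C_mul, mul_inv_cancel₀ hl, C_1]
  refine Polynomial.Separable.mul ?_ ?_ ?_
  · rw [Polynomial.separable_def]
    have : derivative (X ^ 2 + C l * X + 1 : F[X]) = C l := by
      simp [derivative_pow]
      exact two_eq
    rw [this]
    exact ⟨0, C l⁻¹, by rw [zero_mul, zero_add, mul_comm, hll]⟩
  · rw [Polynomial.separable_def]
    have : derivative (X + 1 : F[X]) = 1 := by simp
    rw [this]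
    exact isCoprime_one_right
  · refine ⟨C l⁻¹, C l⁻¹ * (X + C l + 1), ?_⟩
    linear_combination hll + C l⁻¹ * (X ^ 2 + X * C l + X + 1) * e

/-- Elements of finite order killed by a separable polynomial in characteristic two have odd order. -/
theorem odd_order_of_aeval [Finite F] (g : Matrix.SpecialLinearGroup (Fin (n + 3)) F) (p : Polynomial F)
    (hp : p.Separable)
    (h : Polynomial.aeval (g : Matrix (Fin (n + 3)) (Fin (n + 3)) F) p = 0) : Odd (orderOf g) := by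
  by_contra hodd
  rw [Nat.not_odd_iff_even] at hodd
  obtain ⟨m, hm⟩ := hodd
  have hpos : 0 < orderOf g := orderOf_pos g
  have hy : g ^ m ≠ 1 := by
    intro h1
    have := orderOf_dvd_of_pow_eq_one h1
    have := Nat.le_of_dvd (by omega) this
    omega
  apply hy
  have hy2 : g ^ m * g ^ m = 1 := by rw [← pow_add, ← hm, pow_orderOf_eq_one]
  have hcoe : ((g ^ m : Matrix.SpecialLinearGroup (Fin (n + 3)) F) : Matrix (Fin (n + 3)) (Fin (n + 3)) F) =
      (g : Matrix (Fin (n + 3)) (Fin (n + 3)) F) ^ m := Matrix.SpecialLinearGroup.coe_pow g m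
  set A : Matrix (Fin (n + 3)) (Fin (n + 3)) F := (g : Matrix (Fin (n + 3)) (Fin (n + 3)) F) with hA
  have h2 : A ^ m * A ^ m = 1 := by
    rw [← hcoe, ← Matrix.SpecialLinearGroup.coe_mul, hy2, Matrix.SpecialLinearGroup.coe_one]
  have h3 : Polynomial.aeval A ((Polynomial.X ^ m - 1) ^ 2 : Polynomial F) = 0 := by
    have e : (2 : Matrix (Fin (n + 3)) (Fin (n + 3)) F) = 0 := by
      have : (2 : Matrix (Fin (n + 3)) (Fin (n + 3)) F) = (2 : F) • 1 := by
        rw [two_smul, one_add_one_eq_two]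
      rw [this, two_eq, zero_smul]
    rw [map_pow, map_sub, map_pow, Polynomial.aeval_X, map_one, pow_two, sub_mul, mul_sub, mul_one, one_mul, h2]
    have : (1 : Matrix (Fin (n + 3)) (Fin (n + 3)) F) - A ^ m - (A ^ m - 1) = 2 * (1 - A ^ m) := by noncomm_ring
    rw [this, e, zero_mul]
  have h4 : minpoly F A ∣ p := minpoly.dvd F A h
  have h5 : minpoly F A ∣ (Polynomial.X ^ m - 1) ^ 2 := minpoly.dvd F A h3
  have h6 : Squarefree (minpoly F A) := (hp.of_dvd h4).squarefree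
  have h7 : minpoly F A ∣ (Polynomial.X ^ m - 1) := (h6.dvd_pow_iff_dvd two_ne_zero).1 h5
  have h8 : Polynomial.aeval A (Polynomial.X ^ m - 1 : Polynomial F) = 0 := by
    obtain ⟨q, hq⟩ := h7
    rw [hq, map_mul, minpoly.aeval, zero_mul]
  rw [map_sub, map_pow, Polynomial.aeval_X, map_one, sub_eq_zero] at h8
  apply mat_ext
  rw [hcoe, h8, Matrix.SpecialLinearGroup.coe_one]

omit [CharP F 2] in
/-- The action of the product of two transvections. -/
theorem mul_mulVec_eq {a φ b ψ : Fin (n + 3) → F} (h : φ ⬝ᵥ a = 0) (h' : ψ ⬝ᵥ b = 0) (x : Fin (n + 3) → F) :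
    ((tr a φ h * tr b ψ h' : Matrix.SpecialLinearGroup (Fin (n + 3)) F) : Matrix (Fin (n + 3)) (Fin (n + 3)) F) *ᵥ x
      = x + ((φ ⬝ᵥ x) + (ψ ⬝ᵥ x) * (φ ⬝ᵥ b)) • a + (ψ ⬝ᵥ x) • b := by
  rw [sl_mul_mulVec, tr_mulVec, tr_mulVec, dotProduct_add, dotProduct_smul, smul_eq_mul]
  abel

/-- The minimal polynomial relation. -/
theorem cubic_rel {a φ b ψ : Fin (n + 3) → F} (h : φ ⬝ᵥ a = 0) (h' : ψ ⬝ᵥ b = 0) {l : F}
    (hl : l = (φ ⬝ᵥ b) * (ψ ⬝ᵥ a)) (x : Fin (n + 3) → F) :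
    let A : Matrix (Fin (n + 3)) (Fin (n + 3)) F :=
      ((tr a φ h * tr b ψ h' : Matrix.SpecialLinearGroup (Fin (n + 3)) F) : Matrix (Fin (n + 3)) (Fin (n + 3)) F)
    A *ᵥ (A *ᵥ (A *ᵥ x + x)) + l • (A *ᵥ (A *ᵥ x + x)) + (A *ᵥ x + x) = 0 := by
  intro A
  have e : (2 : F) = 0 := two_eq
  have hA : ∀ y, A *ᵥ y = y + ((φ ⬝ᵥ y) + (ψ ⬝ᵥ y) * (φ ⬝ᵥ b)) • a + (ψ ⬝ᵥ y) • b := mul_mulVec_eq h h'
  -- the action on the span of `a` and `b`
  have hB : ∀ u v : F, A *ᵥ (u • a + v • b) =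
      (u + v * (φ ⬝ᵥ b) + u * l) • a + (v + u * (ψ ⬝ᵥ a)) • b := by
    intro u v
    rw [hA]
    simp only [dotProduct_add, dotProduct_smul, h, h', smul_eq_mul, mul_zero, add_zero, zero_add]
    rw [hl]
    module
  have hx : A *ᵥ x + x = ((φ ⬝ᵥ x) + (ψ ⬝ᵥ x) * (φ ⬝ᵥ b)) • a + (ψ ⬝ᵥ x) • b := by
    rw [hA]
    have : x + (φ ⬝ᵥ x + ψ ⬝ᵥ x * φ ⬝ᵥ b) • a + (ψ ⬝ᵥ x) • b + x =
      (φ ⬝ᵥ x + ψ ⬝ᵥ x * φ ⬝ᵥ b) • a + (ψ ⬝ᵥ x) • b + (2 : F) • x := by module
    rw [this, e, zero_smul, add_zero]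
  rw [hx]
  generalize (φ ⬝ᵥ x) + (ψ ⬝ᵥ x) * (φ ⬝ᵥ b) = u
  generalize (ψ ⬝ᵥ x) = v
  rw [hB, hB]
  have : (u + v * φ ⬝ᵥ b + u * l + (v + u * ψ ⬝ᵥ a) * φ ⬝ᵥ b + (u + v * φ ⬝ᵥ b + u * l) * l) • a +
        (v + u * ψ ⬝ᵥ a + (u + v * φ ⬝ᵥ b + u * l) * ψ ⬝ᵥ a) • b +
      l • ((u + v * φ ⬝ᵥ b + u * l) • a + (v + u * ψ ⬝ᵥ a) • b) +
    (u • a + v • b) = (2 * (u + v * φ ⬝ᵥ b + u * l + u * l + v * φ ⬝ᵥ b * l + u * l * l) +
      u * ((φ ⬝ᵥ b) * (ψ ⬝ᵥ a) - l)) • a +
      (2 * (v + u * ψ ⬝ᵥ a + u * l * ψ ⬝ᵥ a + l * v) + v * ((φ ⬝ᵥ b) * (ψ ⬝ᵥ a) - l)) • b := by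
    module
  rw [this, e, hl]
  simp

/-- The product of two transvections with both pairings non-zero is killed by a separable polynomial. -/
theorem aeval_eq_zero {a φ b ψ : Fin (n + 3) → F} (h : φ ⬝ᵥ a = 0) (h' : ψ ⬝ᵥ b = 0) {l : F}
    (hl : l = (φ ⬝ᵥ b) * (ψ ⬝ᵥ a)) :
    Polynomial.aeval ((tr a φ h * tr b ψ h' : Matrix.SpecialLinearGroup (Fin (n + 3)) F) :
      Matrix (Fin (n + 3)) (Fin (n + 3)) F)
      ((Polynomial.X ^ 2 + Polynomial.C l * Polynomial.X + 1) * (Polynomial.X + 1) : Polynomial F) = 0 := by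
  have key := cubic_rel h h' hl
  simp only at key
  generalize ((tr a φ h * tr b ψ h' : Matrix.SpecialLinearGroup (Fin (n + 3)) F) :
      Matrix (Fin (n + 3)) (Fin (n + 3)) F) = A at key ⊢
  apply Matrix.mulVec_injective
  funext x
  rw [Matrix.zero_mulVec, ← key x]
  simp only [map_mul, map_add, Polynomial.aeval_X, Polynomial.aeval_C, map_one, ← Matrix.mulVec_mulVec,
    Matrix.add_mulVec, Matrix.one_mulVec, pow_two, Matrix.mulVec_add, Algebra.algebraMap_eq_smul_one,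
    Matrix.smul_mulVec, smul_mul_assoc, one_mul, smul_add]
  abel

/-- The product of two transvections with both pairings non-zero has odd order. -/
theorem odd_case [Finite F] {a φ b ψ : Fin (n + 3) → F} (h : φ ⬝ᵥ a = 0) (h' : ψ ⬝ᵥ b = 0)
    (h1 : φ ⬝ᵥ b ≠ 0) (h2 : ψ ⬝ᵥ a ≠ 0) : Odd (orderOf (tr a φ h * tr b ψ h')) :=
  odd_order_of_aeval _ _ (poly_separable (mul_ne_zero h1 h2)) (aeval_eq_zero h h' rfl)

/-- Over the field with two elements the odd orders are 1 and 3. -/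
theorem pow_three_case (hF : ∀ c : F, c ≠ 0 → c = 1) {a φ b ψ : Fin (n + 3) → F} (h : φ ⬝ᵥ a = 0)
    (h' : ψ ⬝ᵥ b = 0)
    (h1 : φ ⬝ᵥ b ≠ 0) (h2 : ψ ⬝ᵥ a ≠ 0) : (tr a φ h * tr b ψ h') ^ 3 = 1 := by
  have hl : (1 : F) = (φ ⬝ᵥ b) * (ψ ⬝ᵥ a) := by rw [hF _ h1, hF _ h2, mul_one]
  have key := cubic_rel h h' hl
  simp only at key
  apply sl_ext
  intro x
  rw [pow_succ, pow_two, sl_mul_mulVec, sl_mul_mulVec, one_mulVec']
  have hk := key x
  generalize ((tr a φ h * tr b ψ h' : Matrix.SpecialLinearGroup (Fin (n + 3)) F) :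
      Matrix (Fin (n + 3)) (Fin (n + 3)) F) = A at hk ⊢
  have e : (2 : F) = 0 := two_eq
  simp only [Matrix.mulVec_add, one_smul] at hk
  have e1 : A *ᵥ A *ᵥ A *ᵥ x + A *ᵥ A *ᵥ x + (A *ᵥ A *ᵥ x + A *ᵥ x) + (A *ᵥ x + x) =
    A *ᵥ A *ᵥ A *ᵥ x - x + (2 : F) • (A *ᵥ A *ᵥ x + A *ᵥ x + x) := by module
  rw [e1, e, zero_smul, add_zero, sub_eq_zero] at hk
  exact hk

end CharTwo

/-- The transvections generate `SL_{n+3}(F)`. -/
theorem closure_eq_top {F : Type*} [Field F] {n : ℕ} : Subgroup.closure (DD F n) = ⊤ := by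
  rw [eq_top_iff, ← Cfsg.Agent.LieClassical.SLGen.closure_transvections, Subgroup.closure_le]
  rintro t ⟨i, j, hij, c, rfl⟩
  by_cases hc : c = 0
  · subst hc
    have : (Matrix.SpecialLinearGroup.transvection hij (0 : F)) = 1 := by
      apply mat_ext
      rw [Matrix.SpecialLinearGroup.coe_one]
      exact Matrix.transvection_zero i j
    rw [this]
    exact one_mem _
  · apply Subgroup.subset_closure
    rw [mem_iff, Cfsg.Agent.ClassicalGeometry.AutPSL.Root.transvection_eq_tr]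
    refine ⟨_, _, _, ?_, ?_, rfl⟩
    · intro h
      have := congrFun h i
      simp at this
      exact hc this
    · intro h
      have := congrFun h j
      simp at this

/-- Let F be a finite field of characteristic 2 and n a natural number. Then the transvections of SL_{n+3}(F) (so in every dimension at least 3) (the conjugates of the elementary matrices 1 + c E₁₂, c ≠ 0) form a class of root involutions of SL_{n+3}(F); when F has two elements they form a class of {3,4}⁺-transpositions (every product of odd order has order 1 or 3). -/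
theorem result (F : Type*) [Field F] [Fintype F] [CharP F 2] (n : ℕ) :
    Cfsg.IsRootInvolutionClass {t : Matrix.SpecialLinearGroup (Fin (n + 3)) F | ∃ c : F, c ≠ 0 ∧
        ∃ g : Matrix.SpecialLinearGroup (Fin (n + 3)) F, ((g⁻¹ * t * g : Matrix.SpecialLinearGroup (Fin (n + 3)) F) :
          Matrix (Fin (n + 3)) (Fin (n + 3)) F) = Matrix.transvection 0 1 c} ∧
    (Fintype.card F = 2 → Cfsg.IsThreeFourPlusTranspositionSet {t : Matrix.SpecialLinearGroup (Fin (n + 3)) F | ∃ c : F, c ≠ 0 ∧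
        ∃ g : Matrix.SpecialLinearGroup (Fin (n + 3)) F, ((g⁻¹ * t * g : Matrix.SpecialLinearGroup (Fin (n + 3)) F) :
          Matrix (Fin (n + 3)) (Fin (n + 3)) F) = Matrix.transvection 0 1 c}) := by
  have hset : Cfsg.IsRootInvolutionSet (DD F n) := by
    refine ⟨?_, closure_eq_top, fun d hd g => conj_mem hd g, ?_⟩
    · intro d hd
      obtain ⟨a, φ, h, ha, hφ, rfl⟩ := mem_iff.1 hd
      exact orderOf_tr ha hφ h
    · intro s hs t ht
      obtain ⟨a, φ, h, ha, hφ, rfl⟩ := mem_iff.1 hs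
      obtain ⟨b, ψ, h', hb, hψ, rfl⟩ := mem_iff.1 ht
      by_cases h1 : φ ⬝ᵥ b = 0
      · by_cases h2 : ψ ⬝ᵥ a = 0
        · left; exact comm_case h h' h1 h2
        · right; right
          have hm : (tr b ψ h' * tr a φ h) ^ 2 ∈ DD F n := by
            rw [four_case h' h h1, mem_iff]
            exact ⟨_, _, _, smul_ne_zero h2 hb, hφ, rfl⟩
          have hinv : (tr a φ h * tr b ψ h')  = (tr b ψ h' * tr a φ h)⁻¹ := by
            rw [_root_.mul_inv_rev, eq_comm, inv_eq_of_mul_eq_one_right (tr_mul_self h),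
              inv_eq_of_mul_eq_one_right (tr_mul_self h')]
          have h4 : orderOf (tr b ψ h' * tr a φ h) = 4 := by
            have h5 : orderOf ((tr b ψ h' * tr a φ h) ^ 2) = 2 := by
              obtain ⟨a', φ', h'', ha', hφ', e⟩ := mem_iff.1 hm
              rw [e]
              exact orderOf_tr ha' hφ' h''
            have h6 := orderOf_eq_prime_pow (p := 2) (n := 1) (x := tr b ψ h' * tr a φ h)
              (by
                intro h7
                rw [pow_one] at h7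
                rw [h7, orderOf_one] at h5
                omega)
              (by
                have h8 := pow_orderOf_eq_one ((tr b ψ h' * tr a φ h) ^ 2)
                rw [h5, ← pow_mul] at h8
                exact h8)
            rw [h6]; norm_num
          refine ⟨by rw [hinv, orderOf_inv, h4], ?_⟩
          have : (tr a φ h * tr b ψ h') ^ 2 = (tr b ψ h' * tr a φ h) ^ 2 := by
            have h8 := pow_orderOf_eq_one (tr b ψ h' * tr a φ h)
            rw [h4] at h8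
            rw [hinv, inv_pow, inv_eq_iff_mul_eq_one, ← pow_add]
            exact h8
          rw [this]; exact hm
      · by_cases h2 : ψ ⬝ᵥ a = 0
        · right; right
          have hm : (tr a φ h * tr b ψ h') ^ 2 ∈ DD F n := by
            rw [four_case h h' h2, mem_iff]
            exact ⟨_, _, _, smul_ne_zero h1 ha, hψ, rfl⟩
          refine ⟨?_, hm⟩
          have h5 : orderOf ((tr a φ h * tr b ψ h') ^ 2) = 2 := by
            obtain ⟨a', φ', h'', ha', hφ', e⟩ := mem_iff.1 hm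
            rw [e]
            exact orderOf_tr ha' hφ' h''
          have h6 := orderOf_eq_prime_pow (p := 2) (n := 1) (x := tr a φ h * tr b ψ h')
            (by
              intro h7
              rw [pow_one] at h7
              rw [h7, orderOf_one] at h5
              omega)
            (by
              have h8 := pow_orderOf_eq_one ((tr a φ h * tr b ψ h') ^ 2)
              rw [h5, ← pow_mul] at h8
              exact h8)
          rw [h6]; norm_num
        · right; left; exact odd_case h h' h1 h2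
  refine ⟨⟨hset, ?_, ?_⟩, ?_⟩
  · exact ⟨_, mem_iff.2 ⟨_, _, std_orth 1, std_ne one_ne_zero, e1_ne, rfl⟩⟩
  · intro s hs t ht
    obtain ⟨a, φ, h, ha, hφ, rfl⟩ := mem_iff.1 hs
    obtain ⟨b, ψ, h', hb, hψ, rfl⟩ := mem_iff.1 ht
    exact tr_conj ha hφ h hb hψ h'
  · intro hF
    refine ⟨hset, ?_⟩
    have hF' : ∀ c : F, c ≠ 0 → c = 1 := by
      intro c hc
      classical
      have h1 : Fintype.card Fˣ = 1 := by
        rw [Fintype.card_units, hF]
      have h2 := Fintype.card_le_one_iff.1 h1.le (Units.mk0 c hc) 1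
      exact congrArg Units.val h2
    intro s hs t ht hodd
    have hs' := hs
    have ht' := ht
    obtain ⟨a, φ, h, ha, hφ, rfl⟩ := mem_iff.1 hs
    obtain ⟨b, ψ, h', hb, hψ, rfl⟩ := mem_iff.1 ht
    by_cases h1 : φ ⬝ᵥ b = 0
    · by_cases h2 : ψ ⬝ᵥ a = 0
      · left
        have hc := comm_case h h' h1 h2
        have h3 : (tr a φ h * tr b ψ h') ^ 2 = 1 := by
          rw [pow_two]
          nth_rewrite 2 [hc]
          rw [mul_assoc, ← mul_assoc (tr b ψ h') (tr b ψ h'), tr_mul_self, one_mul, tr_mul_self]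
        have h4 := orderOf_dvd_of_pow_eq_one h3
        rcases (Nat.dvd_prime Nat.prime_two).1 h4 with h5 | h5
        · exact h5
        · rw [h5] at hodd; exact absurd hodd (by decide)
      · exfalso
        have hinv : (tr a φ h * tr b ψ h')  = (tr b ψ h' * tr a φ h)⁻¹ := by
          rw [_root_.mul_inv_rev, eq_comm, inv_eq_of_mul_eq_one_right (tr_mul_self h),
              inv_eq_of_mul_eq_one_right (tr_mul_self h')]
        rw [hinv, orderOf_inv] at hodd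
        have h3 : orderOf ((tr b ψ h' * tr a φ h) ^ 2) = 2 := by
          rw [four_case h' h h1]
          exact orderOf_tr (smul_ne_zero h2 hb) hφ _
        rw [orderOf_pow] at h3
        have h4 : orderOf (tr b ψ h' * tr a φ h) = 2 * (orderOf (tr b ψ h' * tr a φ h)).gcd 2 :=
          (Nat.div_eq_iff_eq_mul_left (Nat.gcd_pos_of_pos_right _ (by norm_num)) (Nat.gcd_dvd_left _ _)).1 h3
        rw [h4] at hodd
        exact (Nat.not_even_iff_odd.2 hodd) ⟨_, two_mul _⟩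
    · by_cases h2 : ψ ⬝ᵥ a = 0
      · exfalso
        have h3 : orderOf ((tr a φ h * tr b ψ h') ^ 2) = 2 := by
          rw [four_case h h' h2]
          exact orderOf_tr (smul_ne_zero h1 ha) hψ _
        rw [orderOf_pow] at h3
        have h4 : orderOf (tr a φ h * tr b ψ h') = 2 * (orderOf (tr a φ h * tr b ψ h')).gcd 2 :=
          (Nat.div_eq_iff_eq_mul_left (Nat.gcd_pos_of_pos_right _ (by norm_num)) (Nat.gcd_dvd_left _ _)).1 h3
        rw [h4] at hodd
        exact (Nat.not_even_iff_odd.2 hodd) ⟨_, two_mul _⟩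
      · have h3 := pow_three_case hF' h h' h1 h2
        exact (Nat.dvd_prime Nat.prime_three).1 (orderOf_dvd_of_pow_eq_one h3)

end Cfsg.Agent.S5058
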