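import Cfsg.Statements.S5059
import Cfsg.Agent.H740.Quad
set_option linter.all false

set_option autoImplicit false
universe u
open Cfsg

namespace Cfsg.Agent.S5059

/-- Let k be a field of characteristic not 2 with k not of order 3, M a finite-dimensional k-vector space and G ≤ GL(M) such that (G, M) is a quadratic pair (M irreducible for G, and G generated by its quadratically acting elements σ whose scalar family 1 + c(σ − 1), c ∈ k, lies in G). Write 𝒬_d for the quadratic elements of G of minimal commutator rank, E(σ) for the subgroup generated by the members of 𝒬_d with the same fixed space and commutator space as σ, and Σ for the set of these subgroups. Then for σ ∈ 𝒬_d the subgroup E(σ) consists exactly of those members together with the identity, it is abelian, and if k has prime characteristic p every element of E(σ) has order dividing p. -/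
theorem result {k : Type u} [Field k] (hk2 : ringChar k ≠ 2) (hk3 : Nat.card k ≠ 3)
    {M : Type u} [AddCommGroup M] [Module k M] [FiniteDimensional k M]
    {G : Subgroup (LinearMap.GeneralLinearGroup k M)} (hG : Cfsg.IsQuadraticPair G)
    {σ : LinearMap.GeneralLinearGroup k M} (hσ : σ ∈ Cfsg.minimalQuadraticElements G) :
    (Cfsg.sameActionSubgroup G σ : Set (LinearMap.GeneralLinearGroup k M)) = Cfsg.sameActionClass G σ ∪ {1} ∧
    IsMulCommutative ↥(Cfsg.sameActionSubgroup G σ) ∧
    (∀ p : ℕ, p.Prime → ringChar k = p → ∀ x ∈ Cfsg.sameActionSubgroup G σ, x ^ p = 1) := by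
  have hrk : LinearMap.range ((σ : M →ₗ[k] M) - 1) ≤ LinearMap.ker ((σ : M →ₗ[k] M) - 1) := by
    rintro _ ⟨m, rfl⟩
    rw [LinearMap.mem_ker, ← Module.End.mul_apply, H740.sq_of_mem_minimal hσ,
      LinearMap.zero_apply]
  have key : ∀ x ∈ sameActionSubgroup G σ, ∀ y ∈ sameActionSubgroup G σ,
      ((x : M →ₗ[k] M) - 1) * ((y : M →ₗ[k] M) - 1) = 0 := by
    intro x hx y hy
    rw [H740.mem_sameActionSubgroup_iff hσ] at hx hy
    ext m
    have : ((y : M →ₗ[k] M) - 1) m ∈ LinearMap.ker ((x : M →ₗ[k] M) - 1) :=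
      hx.2.1 (hrk (hy.2.2 ⟨m, rfl⟩))
    rw [Module.End.mul_apply, LinearMap.mem_ker.1 this, LinearMap.zero_apply]
  refine ⟨?_, ⟨⟨?_⟩⟩, ?_⟩
  · ext τ
    rw [SetLike.mem_coe, H740.mem_sameActionSubgroup_iff' hσ, Set.mem_union,
      Set.mem_singleton_iff]
  · rintro ⟨x, hx⟩ ⟨y, hy⟩
    apply Subtype.ext
    apply Units.ext
    show (x : M →ₗ[k] M) * (y : M →ₗ[k] M) = (y : M →ₗ[k] M) * (x : M →ₗ[k] M)
    have h1 := key x hx y hy
    have h2 := key y hy x hx
    rw [sub_mul, mul_sub, mul_one, one_mul] at h1 h2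
    have h3 : (x : M →ₗ[k] M) * (y : M →ₗ[k] M) - (x : M →ₗ[k] M) - (y - 1) -
      ((y : M →ₗ[k] M) * (x : M →ₗ[k] M) - (y : M →ₗ[k] M) - (x - 1)) = 0 := by
      rw [h1, h2, sub_zero]
    have h4 : (x : M →ₗ[k] M) * (y : M →ₗ[k] M) - (y : M →ₗ[k] M) * (x : M →ₗ[k] M) = 0 := by
      rw [← h3]; abel
    exact sub_eq_zero.1 h4
  · intro p hp hkp x hx
    apply Units.ext
    have h1 := key x hx x hx
    have h2 : ∀ n : ℕ, ((x ^ n : LinearMap.GeneralLinearGroup k M) : M →ₗ[k] M) =
        1 + (n : k) • ((x : M →ₗ[k] M) - 1) := by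
      intro n
      induction n with
      | zero => simp
      | succ n ih =>
        rw [pow_succ, Units.val_mul, ih]
        have hx' : (x : M →ₗ[k] M) = 1 + ((x : M →ₗ[k] M) - 1) := by abel
        conv_lhs => rw [hx']
        rw [mul_add, mul_one, add_mul, one_mul, add_sub_cancel_left, smul_mul_assoc, h1,
          smul_zero, add_zero, Nat.cast_succ, add_smul, one_smul, add_assoc]
    rw [h2, Units.val_one]
    have h0 : (p : k) = 0 := by rw [← hkp]; exact ringChar.Nat.cast_ringChar
    rw [h0, zero_smul, add_zero]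

end Cfsg.Agent.S5059
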