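import Cfsg.Statements.S5071
import Cfsg.Agent.H742.SubOf
import Cfsg.Agent.ClassicalGeometry.UnitTransv
set_option linter.all false
-- import your own Cfsg.Agent.* helpers here

set_option autoImplicit false
open Matrix
open Cfsg

namespace Cfsg.Agent.S5071

section aux

open Cfsg.Agent.H731 Cfsg.Agent.H742 Cfsg.Agent.ClassicalGeometry.UnitTransv Cfsg.Agent.LieClassical.HermBasic

variable {F : Type*} [Field F] [Fintype F] {n q : ℕ}

/-- The fixed field of `x ↦ x ^ q`, as a field in `Type`. -/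
theorem exists_subfield (hF : Fintype.card F = q ^ 2) :
    ∃ (L : Type) (_ : Field L) (_ : Fintype L) (j : L →+* F), Fintype.card L = q ∧
      (∀ y, (j y) ^ q = j y) ∧ ∀ x : F, x ^ q = x → ∃ y, j y = x := by
  classical
  let K : Subfield F := RingHom.eqLocusField (Cfsg.Agent.LieClassical.HermBasic.conj hF).toRingHom (RingHom.id F)
  have hK : ∀ x : F, x ∈ K ↔ x ^ q = x := fun x => Iff.rfl
  have : Small.{0} K := Countable.toSmall K
  let e : Shrink.{0} K ≃+* K := Shrink.ringEquiv.{0} K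
  have : Fintype (Shrink.{0} K) := Fintype.ofEquiv K e.symm.toEquiv
  refine ⟨Shrink.{0} K, inferInstance, this, K.subtype.comp e.toRingHom, ?_, ?_, ?_⟩
  · rw [← Nat.card_eq_fintype_card, Nat.card_congr e.toEquiv, ← card_fixed hF]
    exact Nat.card_congr (Equiv.refl _)
  · intro y
    exact (hK _).1 (e y).2
  · intro x hx
    refine ⟨e.symm ⟨x, (hK x).2 hx⟩, ?_⟩
    simp

/-- The unitary transvection group with centre `p`. -/
def US (q : ℕ) (p : Fin n → F) : Subgroup ↥(Cfsg.SU n F q) :=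
  Subgroup.closure {g : ↥(Cfsg.SU n F q) |
    (∀ v : Fin n → F, ∃ c : F, ((g : Matrix.SpecialLinearGroup (Fin n) F) : Matrix (Fin n) (Fin n) F) *ᵥ v = v + c • p) ∧
    ∀ v : Fin n → F, Cfsg.hermForm n F q v p = 0 →
      ((g : Matrix.SpecialLinearGroup (Fin n) F) : Matrix (Fin n) (Fin n) F) *ᵥ v = v}

theorem utv_mul (hF : Fintype.card F = q ^ 2) {p : Fin n → F} (hp : hermForm n F q p p = 0) {c d : F}
    (hc : c + c ^ q = 0) (hd : d + d ^ q = 0) (hcd : (c + d) + (c + d) ^ q = 0) :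
    utv hF p c hp hc * utv hF p d hp hd = utv hF p (c + d) hp hcd := by
  apply ext_act
  intro x
  rw [act_mul, act_utv, act_utv, act_utv, herm_add_left, herm_smul_left, hp, mul_zero, add_zero, add_assoc,
    ← add_smul]
  congr 2
  ring

theorem utv_zero (hF : Fintype.card F = q ^ 2) {p : Fin n → F} (hp : hermForm n F q p p = 0)
    (h0 : (0 : F) + 0 ^ q = 0) : utv hF p 0 hp h0 = 1 := by
  apply ext_act
  intro x
  rw [act_utv, act_one, zero_mul, zero_smul, add_zero]

/-- the trace zero elements -/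
theorem tr_add (hF : Fintype.card F = q ^ 2) {c d : F} (hc : c + c ^ q = 0) (hd : d + d ^ q = 0) :
    (c + d) + (c + d) ^ q = 0 := by
  rw [add_pow_q hF]
  linear_combination hc + hd

theorem tr_zero (hF : Fintype.card F = q ^ 2) : (0 : F) + 0 ^ q = 0 := by
  rw [zero_pow_q hF, add_zero]

theorem tr_neg (hF : Fintype.card F = q ^ 2) {c : F} (hc : c + c ^ q = 0) : (-c) + (-c) ^ q = 0 := by
  rw [neg_pow_q hF]
  linear_combination -hc

theorem utv_congr (hF : Fintype.card F = q ^ 2) {p : Fin n → F} (hp : hermForm n F q p p = 0) {c d : F}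
    (hc : c + c ^ q = 0) (hd : d + d ^ q = 0) (h : c = d) : utv hF p c hp hc = utv hF p d hp hd := by
  subst h
  rfl

theorem mem_US (hF : Fintype.card F = q ^ 2) {p : Fin n → F} (hp : hermForm n F q p p = 0) (hp0 : p ≠ 0)
    {g : ↥(Cfsg.SU n F q)} : g ∈ US q p ↔ ∃ (c : F) (hc : c + c ^ q = 0), g = utv hF p c hp hc := by
  constructor
  · intro hg
    unfold US at hg
    induction hg using Subgroup.closure_induction with
    | mem x hx =>
      obtain ⟨h1, h2⟩ := hx
      obtain ⟨v, hv⟩ := exists_herm_ne_zero hF hp0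
      have hv' : hermForm n F q v p ≠ 0 := fun h => hv (herm_eq_zero_swap hF h)
      set v0 := (hermForm n F q v p)⁻¹ • v with hv0
      have hv01 : hermForm n F q v0 p = 1 := by
        rw [hv0, herm_smul_left, inv_mul_cancel₀ hv']
      obtain ⟨c, hc⟩ := h1 v0
      have hact : ∀ w, act x w = w + (c * hermForm n F q w p) • p := by
        intro w
        have h3 : w = (w - hermForm n F q w p • v0) + hermForm n F q w p • v0 := by abel
        have h4 : act x (w - hermForm n F q w p • v0) = w - hermForm n F q w p • v0 := by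
          apply h2
          rw [herm_sub_left, herm_smul_left, hv01, mul_one, sub_self]
        have h5 : act x v0 = v0 + c • p := hc
        conv_lhs => rw [h3]
        rw [act_add, act_smul, h4, h5, smul_add, smul_smul, smul_smul, mul_comm c, ← add_assoc, ← smul_smul,
          smul_smul, sub_add_cancel]
      have hcoe : ((x : Matrix.SpecialLinearGroup (Fin n) F) : Matrix (Fin n) (Fin n) F) =
          unitaryTransvection n q p c := by
        rw [← Matrix.mulVec_injective.eq_iff]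
        funext w
        rw [unitaryTransvection_mulVec]
        exact hact w
      have htr := trace_zero_of_coe hF hp hp0 hcoe
      refine ⟨c, htr, ?_⟩
      apply Subtype.ext
      apply Subtype.ext
      rw [hcoe, coe_utv]
    | one => exact ⟨0, tr_zero hF, (utv_zero hF hp _).symm⟩
    | mul x y _ _ hx hy =>
      obtain ⟨c, hc, rfl⟩ := hx
      obtain ⟨d, hd, rfl⟩ := hy
      exact ⟨c + d, tr_add hF hc hd, utv_mul hF hp hc hd _⟩
    | inv x _ hx =>
      obtain ⟨c, hc, rfl⟩ := hx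
      refine ⟨-c, tr_neg hF hc, ?_⟩
      rw [inv_eq_iff_mul_eq_one, utv_mul hF hp hc (tr_neg hF hc) (by rw [add_neg_cancel]; exact tr_zero hF),
        utv_congr hF hp _ (tr_zero hF) (add_neg_cancel c), utv_zero hF hp]
  · rintro ⟨c, hc, rfl⟩
    refine Subgroup.subset_closure ⟨fun v => ⟨c * hermForm n F q v p, act_utv hF hp hc v⟩, fun v hv => ?_⟩
    have := act_utv hF hp hc v
    rw [hv, mul_zero, zero_smul, add_zero] at this
    exact this

theorem conj_utv (hF : Fintype.card F = q ^ 2) {p : Fin n → F} (hp : hermForm n F q p p = 0)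
    (g : ↥(Cfsg.SU n F q)) (hgp : hermForm n F q (act g p) (act g p) = 0) {c : F} (hc : c + c ^ q = 0) :
    g * utv hF p c hp hc * g⁻¹ = utv hF (act g p) c hgp hc := by
  rw [mul_inv_eq_iff_eq_mul]
  apply ext_act
  intro x
  rw [act_mul, act_mul, act_utv, act_utv, act_add, act_smul, herm_act]

omit [Fintype F] in
theorem iso_act (g : ↥(Cfsg.SU n F q)) {p : Fin n → F} (hp : hermForm n F q p p = 0) :
    hermForm n F q (act g p) (act g p) = 0 := by
  rw [herm_act, hp]

omit [Fintype F] in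
theorem act_ne_zero (g : ↥(Cfsg.SU n F q)) {p : Fin n → F} (hp : p ≠ 0) : act g p ≠ 0 := by
  intro h
  apply hp
  rw [← act_inv_act g p, h, act_zero]

theorem conjBy_US (hF : Fintype.card F = q ^ 2) {p : Fin n → F} (hp : hermForm n F q p p = 0) (hp0 : p ≠ 0)
    (g : ↥(Cfsg.SU n F q)) : conjBy (US q p) g = US q (act g p) := by
  ext x
  rw [mem_conjBy, mem_US hF hp hp0, mem_US hF (iso_act g hp) (act_ne_zero g hp0)]
  constructor
  · rintro ⟨c, hc, h⟩
    refine ⟨c, hc, ?_⟩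
    rw [← conj_utv hF hp g (iso_act g hp), ← h]
    group
  · rintro ⟨c, hc, rfl⟩
    refine ⟨c, hc, ?_⟩
    rw [← conj_utv hF hp g (iso_act g hp)]
    group

theorem US_comm (hF : Fintype.card F = q ^ 2) {p : Fin n → F} (hp : hermForm n F q p p = 0) (hp0 : p ≠ 0) :
    IsMulCommutative ↥(US q p) := by
  refine ⟨⟨?_⟩⟩
  rintro ⟨x, hx⟩ ⟨y, hy⟩
  obtain ⟨c, hc, rfl⟩ := (mem_US hF hp hp0).1 hx
  obtain ⟨d, hd, rfl⟩ := (mem_US hF hp hp0).1 hy
  apply Subtype.ext
  change utv hF p c hp hc * utv hF p d hp hd = utv hF p d hp hd * utv hF p c hp hc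
  rw [utv_mul hF hp hc hd (tr_add hF hc hd), utv_mul hF hp hd hc (tr_add hF hd hc)]
  exact utv_congr hF hp _ _ (add_comm c d)

theorem US_ne_bot (hF : Fintype.card F = q ^ 2) {p : Fin n → F} (hp : hermForm n F q p p = 0) (hp0 : p ≠ 0) :
    US q p ≠ ⊥ := by
  intro h
  obtain ⟨c, hc0, hc⟩ := exists_trace_zero_ne hF
  obtain ⟨v, hv⟩ := exists_herm_ne_zero hF hp0
  have hv' : hermForm n F q v p ≠ 0 := fun h => hv (herm_eq_zero_swap hF h)
  have h1 : utv hF p c hp hc ∈ US q p := (mem_US hF hp hp0).2 ⟨c, hc, rfl⟩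
  rw [h, Subgroup.mem_bot] at h1
  have h2 := act_utv hF hp hc v
  rw [h1, act_one, left_eq_add, smul_eq_zero] at h2
  rcases h2 with h2 | h2
  · exact mul_ne_zero hc0 hv' h2
  · exact hp0 h2

theorem US_commutator (hF : Fintype.card F = q ^ 2) {p r : Fin n → F} (hp : hermForm n F q p p = 0)
    (hp0 : p ≠ 0) (hr : hermForm n F q r r = 0) (hr0 : r ≠ 0) (h : hermForm n F q p r = 0) :
    ⁅US q p, US q r⁆ = ⊥ := by
  rw [commutator_eq_bot_iff_forall]
  intro x hx y hy
  obtain ⟨c, hc, rfl⟩ := (mem_US hF hp hp0).1 hx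
  obtain ⟨d, hd, rfl⟩ := (mem_US hF hr hr0).1 hy
  apply ext_act
  intro x
  have h2 := herm_eq_zero_swap hF h
  rw [act_mul, act_mul, act_utv, act_utv, act_utv, act_utv, herm_add_left, herm_add_left, herm_smul_left,
    herm_smul_left, h, h2, mul_zero, mul_zero, add_zero, add_zero]
  abel

/-- scaling the centre does not change the transvection group -/
theorem US_smul (hF : Fintype.card F = q ^ 2) {p : Fin n → F} (hp : hermForm n F q p p = 0) (hp0 : p ≠ 0)
    {a : F} (ha : a ≠ 0) : US q (a • p) = US q p := by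
  have hap : hermForm n F q (a • p) (a • p) = 0 := by
    rw [herm_smul_left, herm_smul_right, hp, mul_zero, mul_zero]
  have hN : (a * a ^ q) ^ q = a * a ^ q := norm_pow_q hF a
  have hN0 : a * a ^ q ≠ 0 := fun h => ha ((norm_eq_zero hF).1 h)
  ext x
  rw [mem_US hF hap (smul_ne_zero ha hp0), mem_US hF hp hp0]
  constructor
  · rintro ⟨c, hc, rfl⟩
    refine ⟨c * (a * a ^ q), ?_, ?_⟩
    · rw [mul_pow, hN, ← add_mul, hc, zero_mul]
    · apply ext_act
      intro x
      rw [act_utv, act_utv, herm_smul_right, smul_smul]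
      congr 2
      ring
  · rintro ⟨c, hc, rfl⟩
    refine ⟨c * (a * a ^ q)⁻¹, ?_, ?_⟩
    · rw [mul_pow, inv_pow, hN, ← add_mul, hc, zero_mul]
    · apply ext_act
      intro x
      rw [act_utv, act_utv, herm_smul_right, smul_smul]
      congr 2
      field_simp

theorem US_pair {L : Type*} [Field L] (hF : Fintype.card F = q ^ 2) (j : L →+* F) (hj : ∀ y, (j y) ^ q = j y)
    (hj' : ∀ x : F, x ^ q = x → ∃ y, j y = x) {p r : Fin n → F} (hp : hermForm n F q p p = 0)
    (hp0 : p ≠ 0) (hr : hermForm n F q r r = 0) (hr0 : r ≠ 0) (h : hermForm n F q p r ≠ 0) :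
    IsPSL2PairOver L (US q p) (US q r) := by
  obtain ⟨e, he0, he⟩ := exists_trace_zero_ne hF
  have heq : e ^ q = -e := by linear_combination he
  -- rescale `p`
  obtain ⟨a, ha0, ha⟩ : ∃ a : F, a ≠ 0 ∧ hermForm n F q (a • p) r = e⁻¹ := by
    refine ⟨e⁻¹ / hermForm n F q p r, div_ne_zero (inv_ne_zero he0) h, ?_⟩
    rw [herm_smul_left, div_mul_cancel₀ _ h]
  rw [← US_smul hF hp hp0 ha0]
  have hap : hermForm n F q (a • p) (a • p) = 0 := by
    rw [herm_smul_left, herm_smul_right, hp, mul_zero, mul_zero]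
  have hap0 := smul_ne_zero ha0 hp0
  generalize a • p = P at ha hap hap0
  have hrP : hermForm n F q r P = -e⁻¹ := by
    rw [herm_swap hF P r, ha, inv_pow, heq, inv_neg]
  have hdot : ∀ u v : Fin n → F, (fun i => u i ^ q) ⬝ᵥ v = hermForm n F q v u := by
    intro u v
    rw [dotProduct_comm]
    rfl
  -- the trace zero elements are `e * L`
  have htr : ∀ c : F, c + c ^ q = 0 → ∃ y, j y = c * e⁻¹ := by
    intro c hc
    apply hj'
    have hcq : c ^ q = -c := by linear_combination hc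
    rw [mul_pow, hcq, inv_pow, heq, inv_neg]
    ring
  have htr' : ∀ y, (j y * e) + (j y * e) ^ q = 0 := by
    intro y
    rw [mul_pow, hj, heq]
    ring
  have hmat : ∀ (u : Fin n → F) (hu : hermForm n F q u u = 0) (c : F) (hc : c + c ^ q = 0) (s y : F),
      c = y * s → ((utv hF u c hu hc : Matrix.SpecialLinearGroup (Fin n) F) : Matrix (Fin n) (Fin n) F) =
        1 + y • vecMulVec u (s • fun i => u i ^ q) := by
    intro u hu c hc s y hcy
    rw [coe_utv, unitaryTransvection, hcy]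
    ext i k
    simp only [Matrix.add_apply, Matrix.smul_apply, vecMulVec_apply, Pi.smul_apply, smul_eq_mul]
    ring
  let ι : ↥(Cfsg.SU n F q) →* Matrix (Fin n) (Fin n) F :=
    (Cfsg.slToMat n F).comp (Cfsg.SU n F q).subtype
  have hι : ∀ x : ↥(Cfsg.SU n F q),
      ι x = ((x : Matrix.SpecialLinearGroup (Fin n) F) : Matrix (Fin n) (Fin n) F) := fun x => rfl
  have hinj : Function.Injective ι := by
    intro x y hxy
    apply Subtype.ext
    apply Subtype.ext
    exact hxy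
  refine isPSL2PairOver_of_rep j ι hinj (p := P) (r := r) (a := e • fun i => r i ^ q)
    (b := (-e) • fun i => P i ^ q) ?_ ?_ ?_ ?_ ?_ ?_ ?_ ?_
  · rw [smul_dotProduct, hdot, ha, smul_eq_mul, mul_inv_cancel₀ he0]
  · rw [smul_dotProduct, hdot, hr, smul_zero]
  · rw [smul_dotProduct, hdot, hap, smul_zero]
  · rw [smul_dotProduct, hdot, hrP, smul_eq_mul, neg_mul_neg, mul_inv_cancel₀ he0]
  · intro x hx
    obtain ⟨c, hc, rfl⟩ := (mem_US hF hap hap0).1 hx
    obtain ⟨y, hy⟩ := htr c hc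
    refine ⟨-y, ?_⟩
    rw [hι, hmat P hap c hc (-e) (j (-y))]
    rw [map_neg, hy, neg_mul_neg, mul_assoc, inv_mul_cancel₀ he0, mul_one]
  · intro y
    refine ⟨utv hF P (j (-y) * e) hap (htr' _), (mem_US hF hap hap0).2 ⟨_, _, rfl⟩, ?_⟩
    rw [hι, hmat P hap _ _ (-e) (j y)]
    rw [map_neg]
    ring
  · intro x hx
    obtain ⟨c, hc, rfl⟩ := (mem_US hF hr hr0).1 hx
    obtain ⟨y, hy⟩ := htr c hc
    refine ⟨y, ?_⟩
    rw [hι, hmat r hr c hc e (j y)]
    rw [hy, mul_assoc, inv_mul_cancel₀ he0, mul_one]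
  · intro y
    refine ⟨utv hF r (j y * e) hr (htr' _), (mem_US hF hr hr0).2 ⟨_, _, rfl⟩, ?_⟩
    rw [hι, hmat r hr _ _ e (j y) rfl]

/-- The set of unitary transvection groups. -/
def SU' (n : ℕ) (F : Type*) [Field F] [Fintype F] (q : ℕ) : Set (Subgroup ↥(Cfsg.SU n F q)) :=
  {A | ∃ p : Fin n → F, p ≠ 0 ∧ hermForm n F q p p = 0 ∧ A = US q p}

theorem exists_isotropic (hF : Fintype.card F = q ^ 2) (n : ℕ) :
    ∃ p : Fin (n + 2) → F, p ≠ 0 ∧ hermForm (n + 2) F q p p = 0 := by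
  obtain ⟨x, hx⟩ := exists_norm_eq hF (c := (-1 : F)) (by rw [neg_pow_q hF, one_pow])
  refine ⟨Pi.single 0 1 + Pi.single 1 x, ?_, ?_⟩
  · intro h
    have := congrFun h 0
    simp at this
  · rw [herm_add_left, herm_add_right hF, herm_add_right hF, herm_single_left, herm_single_left,
      herm_single_left, herm_single_left]
    simp [zero_pow_q hF]
    linear_combination hx

/-- There is an isotropic vector not perpendicular to two given isotropic vectors. -/
theorem exists_common (hF : Fintype.card F = q ^ 2) {p r : Fin n → F} (hp : hermForm n F q p p = 0)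
    (hp0 : p ≠ 0) (hr0 : r ≠ 0) (h : hermForm n F q p r = 0) :
    ∃ z : Fin n → F, hermForm n F q z z = 0 ∧ hermForm n F q z p ≠ 0 ∧ hermForm n F q z r ≠ 0 := by
  -- a vector not perpendicular to both
  obtain ⟨v, hv1, hv2⟩ : ∃ v, hermForm n F q v p ≠ 0 ∧ hermForm n F q v r ≠ 0 := by
    obtain ⟨x, hx⟩ := exists_herm_ne_zero hF hp0
    obtain ⟨y, hy⟩ := exists_herm_ne_zero hF hr0
    have hx' : hermForm n F q x p ≠ 0 := fun h => hx (herm_eq_zero_swap hF h)
    have hy' : hermForm n F q y r ≠ 0 := fun h => hy (herm_eq_zero_swap hF h)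
    by_cases h1 : hermForm n F q x r = 0
    · by_cases h2 : hermForm n F q y p = 0
      · refine ⟨x + y, ?_, ?_⟩
        · rwa [herm_add_left, h2, add_zero]
        · rwa [herm_add_left, h1, zero_add]
      · exact ⟨y, h2, hy'⟩
    · exact ⟨x, hx', h1⟩
  -- adjust by a multiple of `p`
  obtain ⟨t, ht⟩ := exists_trace_eq hF (c := -hermForm n F q v v) (by
    rw [neg_pow_q hF, herm_self_pow hF])
  have hv1' : hermForm n F q p v ≠ 0 := fun h => hv1 (herm_eq_zero_swap hF h)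
  refine ⟨v + (t / hermForm n F q p v) • p, ?_, ?_, ?_⟩
  · have h1 : t / hermForm n F q p v * hermForm n F q p v = t := div_mul_cancel₀ _ hv1'
    have h2 : (t / hermForm n F q p v) ^ q * hermForm n F q v p = t ^ q := by
      rw [herm_swap hF p v, ← mul_pow, h1]
    rw [herm_add_left, herm_add_right hF, herm_smul_left, herm_add_right hF, herm_smul_right,
      herm_smul_right, hp, h2, mul_zero, add_zero, h1]
    linear_combination ht
  · rwa [herm_add_left, herm_smul_left, hp, mul_zero, add_zero]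
  · rwa [herm_add_left, herm_smul_left, h, mul_zero, add_zero]

theorem SU'_main (hF : Fintype.card F = q ^ 2) (n : ℕ) :
    IsRootSubgroupClass ((fun A : Subgroup ↥(Cfsg.SU (n + 2) F q) => A.subgroupOf (⨆ B ∈ SU' (n + 2) F q, B)) '' SU' (n + 2) F q) ∧
    IsDegenerateRootSet ((fun A : Subgroup ↥(Cfsg.SU (n + 2) F q) => A.subgroupOf (⨆ B ∈ SU' (n + 2) F q, B)) '' SU' (n + 2) F q) ∧
    (∃ (L : Type) (_ : Field L) (_ : Fintype L), Fintype.card L = q ∧
      IsKRootSubgroupSet L ((fun A : Subgroup ↥(Cfsg.SU (n + 2) F q) => A.subgroupOf (⨆ B ∈ SU' (n + 2) F q, B)) '' SU' (n + 2) F q)) ∧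
    IsConnectedFamily (FAdj ((fun A : Subgroup ↥(Cfsg.SU (n + 2) F q) => A.subgroupOf (⨆ B ∈ SU' (n + 2) F q, B)) '' SU' (n + 2) F q))
      ((fun A : Subgroup ↥(Cfsg.SU (n + 2) F q) => A.subgroupOf (⨆ B ∈ SU' (n + 2) F q, B)) '' SU' (n + 2) F q) := by
  obtain ⟨L, _, _, j, hcard, hj, hj'⟩ := exists_subfield hF
  have main := degenerate_class_sub (k := L) (T := SU' (n + 2) F q) ?_ ?_ ?_ ?_ ?_ ?_
  · exact ⟨main.1, main.2.1, ⟨L, _, _, hcard, main.2.2.1⟩, main.2.2.2⟩
  · obtain ⟨p, hp0, hp⟩ := exists_isotropic hF n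
    exact ⟨_, p, hp0, hp, rfl⟩
  · rintro A ⟨p, hp0, hp, rfl⟩
    exact US_comm hF hp hp0
  · rintro A ⟨p, hp0, hp, rfl⟩
    exact US_ne_bot hF hp hp0
  · rintro A ⟨p, hp0, hp, rfl⟩ g -
    exact ⟨_, act_ne_zero g hp0, iso_act g hp, conjBy_US hF hp hp0 g⟩
  · rintro A ⟨p, hp0, hp, rfl⟩ B ⟨r, hr0, hr, rfl⟩
    by_cases h : hermForm (n + 2) F q p r = 0
    · exact Or.inl (US_commutator hF hp hp0 hr hr0 h)
    · exact Or.inr (US_pair hF j hj hj' hp hp0 hr hr0 h)
  · have key : ∀ p r : Fin (n + 2) → F, p ≠ 0 → hermForm (n + 2) F q p p = 0 → r ≠ 0 →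
        hermForm (n + 2) F q r r = 0 → hermForm (n + 2) F q p r ≠ 0 →
        FAdj (SU' (n + 2) F q) (US q p) (US q r) := fun p r hp0 hp hr0 hr h =>
      ⟨⟨p, hp0, hp, rfl⟩, ⟨r, hr0, hr, rfl⟩, isRankOnePair_of_isPSL2PairOver (US_pair hF j hj hj' hp hp0 hr hr0 h)⟩
    rintro A ⟨p, hp0, hp, rfl⟩ B ⟨r, hr0, hr, rfl⟩
    by_cases h : hermForm (n + 2) F q p r = 0
    · obtain ⟨z, hz, h1, h2⟩ := exists_common hF hp hp0 hr0 h
      have hz0 : z ≠ 0 := by
        rintro rfl
        exact h1 (herm_zero_left p)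
      refine (Relation.ReflTransGen.single (key p z hp0 hp hz0 hz ?_)).tail (key z r hz0 hz hr0 hr h2)
      exact fun h3 => h1 (herm_eq_zero_swap hF h3)
    · exact Relation.ReflTransGen.single (key p r hp0 hp hr0 hr h)

end aux

/-- Let F be a finite field with q² elements, n a natural number, and h the Hermitian form Σ uᵢ vᵢ^q on F^{n+2}. For a non-zero isotropic vector p let T(p) be the group of unitary transvections with centre ⟨p⟩: the elements of SU_{n+2}(q) moving every vector by a multiple of p and fixing every vector perpendicular to p. Let Σ be the set of these T(p) and G₀ the subgroup they generate. Then, viewed inside G₀, the members of Σ form a degenerate class of abstract k-root subgroups of G₀ for some field k with q elements (any two commute or are the unipotent subgroups of a rank one group that is an image of SL₂(k) with central kernel, never the commutator case), and their graph of rank one pairs is connected. -/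
theorem result (F : Type*) [Field F] [Fintype F] (q n : ℕ) (hF : Fintype.card F = q ^ 2) :
    Cfsg.IsRootSubgroupClass ((fun A : Subgroup ↥(Cfsg.SU (n + 2) F q) => A.subgroupOf (⨆ B ∈ {A : Subgroup ↥(Cfsg.SU (n + 2) F q) | ∃ p : Fin (n + 2) → F, p ≠ 0 ∧ Cfsg.hermForm (n + 2) F q p p = 0 ∧
          A = Subgroup.closure {g : ↥(Cfsg.SU (n + 2) F q) |
            (∀ v : Fin (n + 2) → F, ∃ c : F, ((g : Matrix.SpecialLinearGroup (Fin (n + 2)) F) : Matrix (Fin (n + 2)) (Fin (n + 2)) F) *ᵥ v = v + c • p) ∧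
            ∀ v : Fin (n + 2) → F, Cfsg.hermForm (n + 2) F q v p = 0 →
              ((g : Matrix.SpecialLinearGroup (Fin (n + 2)) F) : Matrix (Fin (n + 2)) (Fin (n + 2)) F) *ᵥ v = v}}, B)) ''
      {A : Subgroup ↥(Cfsg.SU (n + 2) F q) | ∃ p : Fin (n + 2) → F, p ≠ 0 ∧ Cfsg.hermForm (n + 2) F q p p = 0 ∧
          A = Subgroup.closure {g : ↥(Cfsg.SU (n + 2) F q) |
            (∀ v : Fin (n + 2) → F, ∃ c : F, ((g : Matrix.SpecialLinearGroup (Fin (n + 2)) F) : Matrix (Fin (n + 2)) (Fin (n + 2)) F) *ᵥ v = v + c • p) ∧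
            ∀ v : Fin (n + 2) → F, Cfsg.hermForm (n + 2) F q v p = 0 →
              ((g : Matrix.SpecialLinearGroup (Fin (n + 2)) F) : Matrix (Fin (n + 2)) (Fin (n + 2)) F) *ᵥ v = v}}) ∧
    Cfsg.IsDegenerateRootSet ((fun A : Subgroup ↥(Cfsg.SU (n + 2) F q) => A.subgroupOf (⨆ B ∈ {A : Subgroup ↥(Cfsg.SU (n + 2) F q) | ∃ p : Fin (n + 2) → F, p ≠ 0 ∧ Cfsg.hermForm (n + 2) F q p p = 0 ∧
          A = Subgroup.closure {g : ↥(Cfsg.SU (n + 2) F q) |
            (∀ v : Fin (n + 2) → F, ∃ c : F, ((g : Matrix.SpecialLinearGroup (Fin (n + 2)) F) : Matrix (Fin (n + 2)) (Fin (n + 2)) F) *ᵥ v = v + c • p) ∧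
            ∀ v : Fin (n + 2) → F, Cfsg.hermForm (n + 2) F q v p = 0 →
              ((g : Matrix.SpecialLinearGroup (Fin (n + 2)) F) : Matrix (Fin (n + 2)) (Fin (n + 2)) F) *ᵥ v = v}}, B)) ''
      {A : Subgroup ↥(Cfsg.SU (n + 2) F q) | ∃ p : Fin (n + 2) → F, p ≠ 0 ∧ Cfsg.hermForm (n + 2) F q p p = 0 ∧
          A = Subgroup.closure {g : ↥(Cfsg.SU (n + 2) F q) |
            (∀ v : Fin (n + 2) → F, ∃ c : F, ((g : Matrix.SpecialLinearGroup (Fin (n + 2)) F) : Matrix (Fin (n + 2)) (Fin (n + 2)) F) *ᵥ v = v + c • p) ∧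
            ∀ v : Fin (n + 2) → F, Cfsg.hermForm (n + 2) F q v p = 0 →
              ((g : Matrix.SpecialLinearGroup (Fin (n + 2)) F) : Matrix (Fin (n + 2)) (Fin (n + 2)) F) *ᵥ v = v}}) ∧
    (∃ (L : Type) (_ : Field L) (_ : Fintype L), Fintype.card L = q ∧ Cfsg.IsKRootSubgroupSet L ((fun A : Subgroup ↥(Cfsg.SU (n + 2) F q) => A.subgroupOf (⨆ B ∈ {A : Subgroup ↥(Cfsg.SU (n + 2) F q) | ∃ p : Fin (n + 2) → F, p ≠ 0 ∧ Cfsg.hermForm (n + 2) F q p p = 0 ∧
          A = Subgroup.closure {g : ↥(Cfsg.SU (n + 2) F q) |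
            (∀ v : Fin (n + 2) → F, ∃ c : F, ((g : Matrix.SpecialLinearGroup (Fin (n + 2)) F) : Matrix (Fin (n + 2)) (Fin (n + 2)) F) *ᵥ v = v + c • p) ∧
            ∀ v : Fin (n + 2) → F, Cfsg.hermForm (n + 2) F q v p = 0 →
              ((g : Matrix.SpecialLinearGroup (Fin (n + 2)) F) : Matrix (Fin (n + 2)) (Fin (n + 2)) F) *ᵥ v = v}}, B)) ''
      {A : Subgroup ↥(Cfsg.SU (n + 2) F q) | ∃ p : Fin (n + 2) → F, p ≠ 0 ∧ Cfsg.hermForm (n + 2) F q p p = 0 ∧
          A = Subgroup.closure {g : ↥(Cfsg.SU (n + 2) F q) |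
            (∀ v : Fin (n + 2) → F, ∃ c : F, ((g : Matrix.SpecialLinearGroup (Fin (n + 2)) F) : Matrix (Fin (n + 2)) (Fin (n + 2)) F) *ᵥ v = v + c • p) ∧
            ∀ v : Fin (n + 2) → F, Cfsg.hermForm (n + 2) F q v p = 0 →
              ((g : Matrix.SpecialLinearGroup (Fin (n + 2)) F) : Matrix (Fin (n + 2)) (Fin (n + 2)) F) *ᵥ v = v}})) ∧
    Cfsg.IsConnectedFamily (Cfsg.FAdj ((fun A : Subgroup ↥(Cfsg.SU (n + 2) F q) => A.subgroupOf (⨆ B ∈ {A : Subgroup ↥(Cfsg.SU (n + 2) F q) | ∃ p : Fin (n + 2) → F, p ≠ 0 ∧ Cfsg.hermForm (n + 2) F q p p = 0 ∧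
          A = Subgroup.closure {g : ↥(Cfsg.SU (n + 2) F q) |
            (∀ v : Fin (n + 2) → F, ∃ c : F, ((g : Matrix.SpecialLinearGroup (Fin (n + 2)) F) : Matrix (Fin (n + 2)) (Fin (n + 2)) F) *ᵥ v = v + c • p) ∧
            ∀ v : Fin (n + 2) → F, Cfsg.hermForm (n + 2) F q v p = 0 →
              ((g : Matrix.SpecialLinearGroup (Fin (n + 2)) F) : Matrix (Fin (n + 2)) (Fin (n + 2)) F) *ᵥ v = v}}, B)) ''
      {A : Subgroup ↥(Cfsg.SU (n + 2) F q) | ∃ p : Fin (n + 2) → F, p ≠ 0 ∧ Cfsg.hermForm (n + 2) F q p p = 0 ∧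
          A = Subgroup.closure {g : ↥(Cfsg.SU (n + 2) F q) |
            (∀ v : Fin (n + 2) → F, ∃ c : F, ((g : Matrix.SpecialLinearGroup (Fin (n + 2)) F) : Matrix (Fin (n + 2)) (Fin (n + 2)) F) *ᵥ v = v + c • p) ∧
            ∀ v : Fin (n + 2) → F, Cfsg.hermForm (n + 2) F q v p = 0 →
              ((g : Matrix.SpecialLinearGroup (Fin (n + 2)) F) : Matrix (Fin (n + 2)) (Fin (n + 2)) F) *ᵥ v = v}})) ((fun A : Subgroup ↥(Cfsg.SU (n + 2) F q) => A.subgroupOf (⨆ B ∈ {A : Subgroup ↥(Cfsg.SU (n + 2) F q) | ∃ p : Fin (n + 2) → F, p ≠ 0 ∧ Cfsg.hermForm (n + 2) F q p p = 0 ∧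
          A = Subgroup.closure {g : ↥(Cfsg.SU (n + 2) F q) |
            (∀ v : Fin (n + 2) → F, ∃ c : F, ((g : Matrix.SpecialLinearGroup (Fin (n + 2)) F) : Matrix (Fin (n + 2)) (Fin (n + 2)) F) *ᵥ v = v + c • p) ∧
            ∀ v : Fin (n + 2) → F, Cfsg.hermForm (n + 2) F q v p = 0 →
              ((g : Matrix.SpecialLinearGroup (Fin (n + 2)) F) : Matrix (Fin (n + 2)) (Fin (n + 2)) F) *ᵥ v = v}}, B)) ''
      {A : Subgroup ↥(Cfsg.SU (n + 2) F q) | ∃ p : Fin (n + 2) → F, p ≠ 0 ∧ Cfsg.hermForm (n + 2) F q p p = 0 ∧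
          A = Subgroup.closure {g : ↥(Cfsg.SU (n + 2) F q) |
            (∀ v : Fin (n + 2) → F, ∃ c : F, ((g : Matrix.SpecialLinearGroup (Fin (n + 2)) F) : Matrix (Fin (n + 2)) (Fin (n + 2)) F) *ᵥ v = v + c • p) ∧
            ∀ v : Fin (n + 2) → F, Cfsg.hermForm (n + 2) F q v p = 0 →
              ((g : Matrix.SpecialLinearGroup (Fin (n + 2)) F) : Matrix (Fin (n + 2)) (Fin (n + 2)) F) *ᵥ v = v}}) := by
  exact SU'_main hF n

end Cfsg.Agent.S5071
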