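import Cfsg.Agent.H742.SubOf
import Cfsg.Statements.S5072
set_option linter.all false

-- part: H743/RootAlg
section
set_option autoImplicit false
open Cfsg

namespace Cfsg.Agent.H743

open Cfsg.Agent.H731 Cfsg.Agent.H733 Cfsg.Agent.H742

section

variable {F R H : Type*} [Field F] [Ring R] [Algebra F R] [Group H]

/-- `A` is the full preimage of `{1 + c s | c ∈ F}`, all of which are in the image. -/
structure IsRS (F : Type*) {R H : Type*} [Field F] [Ring R] [Algebra F R] [Group H]
    (ι : H →* R) (s : R) (A : Subgroup H) : Prop where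
  mem_iff : ∀ x, x ∈ A ↔ ∃ c : F, ι x = 1 + c • s
  surj : ∀ c : F, ∃ x, ι x = 1 + c • s

variable {ι : H →* R} {s t u : R} {A B C : Subgroup H}

theorem IsRS.get (h : IsRS F ι s A) {x : H} (hx : x ∈ A) : ∃ c : F, ι x = 1 + c • s := (h.mem_iff x).1 hx

theorem IsRS.exists_mem (h : IsRS F ι s A) (c : F) : ∃ x ∈ A, ι x = 1 + c • s := by
  obtain ⟨x, hx⟩ := h.surj c
  exact ⟨x, (h.mem_iff x).2 ⟨c, hx⟩, hx⟩

theorem IsRS.unique (h : IsRS F ι s A) (h' : IsRS F ι s B) : A = B := by
  ext x
  rw [h.mem_iff, h'.mem_iff]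

theorem IsRS.smul (h : IsRS F ι s A) {a : F} (ha : a ≠ 0) : IsRS F ι (a • s) A where
  mem_iff x := by
    rw [h.mem_iff]
    constructor
    · rintro ⟨c, hc⟩
      refine ⟨c / a, ?_⟩
      rw [hc, smul_smul, div_mul_cancel₀ _ ha]
    · rintro ⟨c, hc⟩
      refine ⟨c * a, ?_⟩
      rw [hc, smul_smul]
  surj c := by
    obtain ⟨x, hx⟩ := h.surj (c * a)
    exact ⟨x, by rw [hx, smul_smul]⟩

theorem IsRS.comm (h : IsRS F ι s A) (hι : Function.Injective ι) : IsMulCommutative ↥A := by
  refine ⟨⟨?_⟩⟩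
  rintro ⟨x, hx⟩ ⟨y, hy⟩
  apply Subtype.ext
  apply hι
  change ι (x * y) = ι (y * x)
  obtain ⟨c, hc⟩ := h.get hx
  obtain ⟨d, hd⟩ := h.get hy
  rw [map_mul, map_mul, hc, hd]
  simp only [mul_add, add_mul, mul_one, one_mul, smul_mul_assoc, mul_smul_comm]
  module

theorem IsRS.ne_bot (h : IsRS F ι s A) (hs : s ≠ 0) : A ≠ ⊥ := by
  intro h0
  obtain ⟨x, hx, hx1⟩ := h.exists_mem 1
  rw [h0, Subgroup.mem_bot] at hx
  rw [hx, map_one, one_smul] at hx1
  exact hs (by simpa using hx1.symm)

theorem IsRS.conj (h : IsRS F ι s A) (g : H) : IsRS F ι (ι g * s * ι g⁻¹) (conjBy A g) where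
  mem_iff x := by
    rw [mem_conjBy, h.mem_iff]
    have hgg : ι g * ι g⁻¹ = 1 := by rw [← map_mul, mul_inv_cancel, map_one]
    have hgg' : ι g⁻¹ * ι g = 1 := by rw [← map_mul, inv_mul_cancel, map_one]
    apply exists_congr
    intro c
    rw [map_mul, map_mul]
    constructor
    · intro hc
      have h1 : ι g * (ι g⁻¹ * ι x * ι g) * ι g⁻¹ = ι x := by
        calc ι g * (ι g⁻¹ * ι x * ι g) * ι g⁻¹ = (ι g * ι g⁻¹) * ι x * (ι g * ι g⁻¹) := by
              simp only [mul_assoc]
          _ = ι x := by rw [hgg, one_mul, mul_one]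
      rw [← h1, hc, mul_add, add_mul, mul_one, hgg, mul_smul_comm, smul_mul_assoc]
    · intro hc
      rw [hc, mul_add, add_mul, mul_one, hgg', mul_smul_comm, smul_mul_assoc]
      have h1 : ι g⁻¹ * (ι g * s * ι g⁻¹) * ι g = s := by
        calc ι g⁻¹ * (ι g * s * ι g⁻¹) * ι g = (ι g⁻¹ * ι g) * s * (ι g⁻¹ * ι g) := by
              simp only [mul_assoc]
          _ = s := by rw [hgg', one_mul, mul_one]
      rw [h1]
  surj c := by
    obtain ⟨x, hx⟩ := h.surj c
    have hgg : ι g * ι g⁻¹ = 1 := by rw [← map_mul, mul_inv_cancel, map_one]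
    refine ⟨g * x * g⁻¹, ?_⟩
    rw [map_mul, map_mul, hx, mul_add, add_mul, mul_one, hgg, mul_smul_comm, smul_mul_assoc]

/-! ### Commuting pairs -/

theorem IsRS.commutator_eq_bot (hA : IsRS F ι s A) (hB : IsRS F ι t B) (hι : Function.Injective ι)
    (hst : s * t = t * s) : ⁅A, B⁆ = ⊥ := by
  rw [commutator_eq_bot_iff_forall]
  intro a ha b hb
  apply hι
  obtain ⟨c, hc⟩ := hA.get ha
  obtain ⟨d, hd⟩ := hB.get hb
  rw [map_mul, map_mul, hc, hd]
  simp only [mul_add, add_mul, mul_one, one_mul, smul_mul_assoc, mul_smul_comm]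
  rw [hst]
  module

/-! ### The commutator case -/

theorem inv_formula (ι : H →* R) {s : R} (hs : s * s = 0) {x : H} {c : F} (hx : ι x = 1 + c • s) :
    ι x⁻¹ = 1 - c • s := by
  have h1 : ι x * ι x⁻¹ = 1 := by rw [← map_mul, mul_inv_cancel, map_one]
  have h2 : (1 - c • s) * ι x = 1 := by
    rw [hx]
    simp only [mul_add, sub_mul, mul_one, one_mul, smul_mul_assoc, mul_smul_comm, hs, smul_zero]
    module
  calc ι x⁻¹ = ((1 - c • s) * ι x) * ι x⁻¹ := by rw [h2, one_mul]
    _ = 1 - c • s := by rw [mul_assoc, h1, mul_one]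

theorem commutator_formula (ι : H →* R) {s t : R} (hs : s * s = 0) (ht : t * t = 0)
    (hsts : s * t * s = 0) (htst : t * s * t = 0) {x y : H} {c d : F} (hx : ι x = 1 + c • s)
    (hy : ι y = 1 + d • t) : ι (x * y * x⁻¹ * y⁻¹) = 1 + (c * d) • (s * t - t * s) := by
  rw [map_mul, map_mul, map_mul, inv_formula ι hs hx, inv_formula ι ht hy, hx, hy]
  have hsts' : s * (t * s) = 0 := by rw [← mul_assoc]; exact hsts
  have htst' : t * (s * t) = 0 := by rw [← mul_assoc]; exact htst
  simp only [mul_add, add_mul, mul_sub, sub_mul, mul_one, one_mul, smul_mul_assoc, mul_smul_comm, smul_sub,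
    mul_assoc, hs, ht, hsts', htst', smul_zero, smul_smul, mul_zero, add_zero]
  module

theorem rootCommutatorCase_of (S : Set (Subgroup H)) (hA : IsRS F ι s A) (hB : IsRS F ι t B)
    (hC : IsRS F ι u C) (hι : Function.Injective ι) (hs : s * s = 0) (ht : t * t = 0)
    (hsts : s * t * s = 0) (htst : t * s * t = 0) {β : F} (hβ : β ≠ 0) (hu : s * t - t * s = β • u)
    (hCS : C ∈ S) : RootCommutatorCase S A B := by
  have hsts' : s * (t * s) = 0 := by rw [← mul_assoc]; exact hsts
  have htst' : t * (s * t) = 0 := by rw [← mul_assoc]; exact htst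
  have hform : ∀ {x y : H} {c d : F}, ι x = 1 + c • s → ι y = 1 + d • t →
      ι (x * y * x⁻¹ * y⁻¹) = 1 + (c * d * β) • u := by
    intro x y c d hx hy
    rw [commutator_formula ι hs ht hsts htst hx hy, hu, smul_smul]
  have hmem : ∀ x ∈ A, ∀ y ∈ B, x * y * x⁻¹ * y⁻¹ ∈ C := by
    intro x hx y hy
    obtain ⟨c, hc⟩ := hA.get hx
    obtain ⟨d, hd⟩ := hB.get hy
    exact (hC.mem_iff _).2 ⟨_, hform hc hd⟩
  have hle : ⁅A, B⁆ ≤ C := by
    rw [Subgroup.commutator_le]
    intro a ha b hb
    rw [commutatorElement_def]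
    exact hmem a ha b hb
  -- every element of C is a commutator with a prescribed non-identity element of A
  have hl : ∀ a ∈ A, a ≠ 1 → ∀ z ∈ C, ∃ b ∈ B, z = a * b * a⁻¹ * b⁻¹ := by
    intro a ha ha1 z hz
    obtain ⟨c, hc⟩ := hA.get ha
    have hc0 : c ≠ 0 := by
      rintro rfl
      apply ha1
      apply hι
      rw [hc, zero_smul, add_zero, map_one]
    obtain ⟨e, he⟩ := hC.get hz
    obtain ⟨b, hb, hbe⟩ := hB.exists_mem (e / (c * β))
    refine ⟨b, hb, ?_⟩
    apply hι
    rw [hform hc hbe, he]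
    congr 2
    field_simp
  have hr : ∀ b ∈ B, b ≠ 1 → ∀ z ∈ C, ∃ a ∈ A, z = a * b * a⁻¹ * b⁻¹ := by
    intro b hb hb1 z hz
    obtain ⟨d, hd⟩ := hB.get hb
    have hd0 : d ≠ 0 := by
      rintro rfl
      apply hb1
      apply hι
      rw [hd, zero_smul, add_zero, map_one]
    obtain ⟨e, he⟩ := hC.get hz
    obtain ⟨a, ha, hae⟩ := hA.exists_mem (e / (d * β))
    refine ⟨a, ha, ?_⟩
    apply hι
    rw [hform hae hd, he]
    congr 2
    field_simp
  have hcla : ∀ a ∈ A, a ≠ 1 → Subgroup.closure ((fun b : H => a * b * a⁻¹ * b⁻¹) '' (B : Set H)) = C := by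
    intro a ha ha1
    apply le_antisymm
    · rw [Subgroup.closure_le]
      rintro _ ⟨b, hb, rfl⟩
      exact hmem a ha b hb
    · intro z hz
      obtain ⟨b, hb, rfl⟩ := hl a ha ha1 z hz
      exact Subgroup.subset_closure ⟨b, hb, rfl⟩
  have hclb : ∀ b ∈ B, b ≠ 1 → Subgroup.closure ((fun a : H => a * b * a⁻¹ * b⁻¹) '' (A : Set H)) = C := by
    intro b hb hb1
    apply le_antisymm
    · rw [Subgroup.closure_le]
      rintro _ ⟨a, ha, rfl⟩
      exact hmem a ha b hb
    · intro z hz
      obtain ⟨a, ha, rfl⟩ := hr b hb hb1 z hz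
      exact Subgroup.subset_closure ⟨a, ha, rfl⟩
  have heq : ⁅A, B⁆ = C := by
    apply le_antisymm hle
    intro z hz
    by_cases hs0 : s = 0
    · -- then u = 0
      have hu0 : u = 0 := by
        have h1 : β • u = 0 := by rw [← hu, hs0]; simp
        exact (smul_eq_zero.1 h1).resolve_left hβ
      obtain ⟨e, he⟩ := hC.get hz
      have : z = 1 := by
        apply hι
        rw [he, hu0, smul_zero, add_zero, map_one]
      rw [this]
      exact one_mem _
    · obtain ⟨a, ha, ha1⟩ := hA.exists_mem 1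
      have ha1' : a ≠ 1 := by
        rintro rfl
        rw [map_one, one_smul] at ha1
        exact hs0 (by simpa using ha1.symm)
      obtain ⟨b, hb, rfl⟩ := hl a ha ha1' z hz
      have := Subgroup.commutator_mem_commutator ha hb
      rwa [commutatorElement_def] at this
  refine ⟨by rw [heq]; exact hCS, ?_, ?_, ?_⟩
  · rw [heq]
    intro z hz
    obtain ⟨e, he⟩ := hC.get hz
    -- z commutes with A and with B
    have hsu : s * u = u * s := by
      have h1 : β • (s * u) = β • (u * s) := by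
        rw [← mul_smul_comm, ← smul_mul_assoc, ← hu, mul_sub, sub_mul, ← mul_assoc, hs, hsts, mul_assoc t, hs,
          hsts']
        simp
      exact smul_right_injective R hβ h1
    have htu : t * u = u * t := by
      have h1 : β • (t * u) = β • (u * t) := by
        rw [← mul_smul_comm, ← smul_mul_assoc, ← hu, mul_sub, sub_mul, htst', ← mul_assoc, ht, mul_assoc s, ht,
          htst]
        simp
      exact smul_right_injective R hβ h1
    have hcA : A ≤ Subgroup.centralizer {z} := by
      intro a ha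
      rw [Subgroup.mem_centralizer_singleton_iff]
      obtain ⟨c, hc⟩ := hA.get ha
      apply hι
      rw [map_mul, map_mul, hc, he]
      simp only [mul_add, add_mul, mul_one, one_mul, smul_mul_assoc, mul_smul_comm]
      rw [hsu]
      module
    have hcB : B ≤ Subgroup.centralizer {z} := by
      intro a ha
      rw [Subgroup.mem_centralizer_singleton_iff]
      obtain ⟨c, hc⟩ := hB.get ha
      apply hι
      rw [map_mul, map_mul, hc, he]
      simp only [mul_add, add_mul, mul_one, one_mul, smul_mul_assoc, mul_smul_comm]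
      rw [htu]
      module
    intro x hx
    have := (sup_le hcA hcB) hx
    rw [Subgroup.mem_centralizer_singleton_iff] at this
    exact this.symm
  · intro a ha ha1
    rw [heq]
    exact hcla a ha ha1
  · intro b hb hb1
    rw [heq]
    exact hclb b hb hb1

end

end Cfsg.Agent.H743
end

-- part: H743/RootInv
section
set_option autoImplicit false
open Cfsg

namespace Cfsg.Agent.H743

open Cfsg.Agent.H731 Cfsg.Agent.H733 Cfsg.Agent.H742

section

variable {F R H : Type*} [Field F] [Ring R] [Algebra F R] [Group H]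

/-- The map `g ↦ 1 - (st + ts) + g₀₀ st + g₀₁ s + g₁₀ t + g₁₁ ts`. -/
def invM (s t : R) (g : Matrix.SpecialLinearGroup (Fin 2) F) : R :=
  1 + (((g : Matrix (Fin 2) (Fin 2) F) 0 0 - 1) • (s * t) + ((g : Matrix (Fin 2) (Fin 2) F) 0 1) • s +
    ((g : Matrix (Fin 2) (Fin 2) F) 1 0) • t + ((g : Matrix (Fin 2) (Fin 2) F) 1 1 - 1) • (t * s))

theorem invM_one (s t : R) : invM (F := F) s t 1 = 1 := by
  unfold invM
  rw [one_00, one_01, one_10, one_11]
  simp

theorem invM_mul {s t : R} (hs : s * s = 0) (ht : t * t = 0) (hsts : s * t * s = s) (htst : t * s * t = t)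
    (x y : Matrix.SpecialLinearGroup (Fin 2) F) : invM s t (x * y) = invM s t x * invM s t y := by
  have e1 : s * (t * s) = s := by rw [← mul_assoc]; exact hsts
  have e2 : t * (s * t) = t := by rw [← mul_assoc]; exact htst
  have e3 : s * (s * t) = 0 := by rw [← mul_assoc, hs, zero_mul]
  have e4 : t * (t * s) = 0 := by rw [← mul_assoc, ht, zero_mul]
  unfold invM
  simp only [sl2_mul]
  simp only [mul_add, add_mul, mul_one, one_mul, smul_mul_assoc, mul_smul_comm, mul_assoc, hs, ht, e1, e2, e3,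
    e4, smul_zero, mul_zero, add_zero, zero_add]
  module

/-- `invM` as a monoid homomorphism. -/
def invHom {s t : R} (hs : s * s = 0) (ht : t * t = 0) (hsts : s * t * s = s) (htst : t * s * t = t) :
    Matrix.SpecialLinearGroup (Fin 2) F →* R where
  toFun := invM s t
  map_one' := invM_one s t
  map_mul' := invM_mul hs ht hsts htst

theorem invM_up (s t : R) (c : F) : invM s t (up F c) = 1 + c • s := by
  unfold invM
  rw [up_00, up_01, up_10, up_11]
  simp

theorem invM_lo (s t : R) (c : F) : invM s t (lo F c) = 1 + c • t := by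
  unfold invM
  rw [lo_00, lo_01, lo_10, lo_11]
  simp

theorem invHom_injective {s t : R} (hs : s * s = 0) (ht : t * t = 0) (hsts : s * t * s = s)
    (htst : t * s * t = t) (hs0 : s ≠ 0) :
    Function.Injective (invHom (F := F) hs ht hsts htst) := by
  have e1 : s * (t * s) = s := by rw [← mul_assoc]; exact hsts
  have e2 : t * (s * t) = t := by rw [← mul_assoc]; exact htst
  have e3 : s * (s * t) = 0 := by rw [← mul_assoc, hs, zero_mul]
  have e4 : t * (t * s) = 0 := by rw [← mul_assoc, ht, zero_mul]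
  have key : ∀ g : Matrix.SpecialLinearGroup (Fin 2) F,
      s * t * invM s t g * s = ((g : Matrix (Fin 2) (Fin 2) F) 0 0) • s ∧
      s * t * invM s t g * (t * s) = ((g : Matrix (Fin 2) (Fin 2) F) 0 1) • s ∧
      s * invM s t g * s = ((g : Matrix (Fin 2) (Fin 2) F) 1 0) • s ∧
      s * invM s t g * (t * s) = ((g : Matrix (Fin 2) (Fin 2) F) 1 1) • s := by
    intro g
    unfold invM
    refine ⟨?_, ?_, ?_, ?_⟩ <;>
    · simp only [mul_add, add_mul, mul_one, smul_mul_assoc, mul_smul_comm, mul_assoc, hs, ht, e1, e2, e3,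
        e4, smul_zero, mul_zero, add_zero, zero_add]
      all_goals module
  intro x y hxy
  have h1 : invM s t x = invM s t y := hxy
  obtain ⟨a1, a2, a3, a4⟩ := key x
  obtain ⟨b1, b2, b3, b4⟩ := key y
  rw [h1] at a1 a2 a3 a4
  have hinj : Function.Injective (fun c : F => c • s) := smul_left_injective F hs0
  exact sl2_ext (hinj (a1.symm.trans b1)) (hinj (a2.symm.trans b2)) (hinj (a3.symm.trans b3))
    (hinj (a4.symm.trans b4))

variable {ι : H →* R} {s t : R} {A B : Subgroup H}

/-- **SL₂-pairs of root groups.** -/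
theorem isPSL2PairOver_of_inv (hA : IsRS F ι s A) (hB : IsRS F ι t B) (hι : Function.Injective ι)
    (hs : s * s = 0) (ht : t * t = 0) (hsts : s * t * s = s) (htst : t * s * t = t) (hs0 : s ≠ 0) :
    IsPSL2PairOver F A B := by
  set ψ : Matrix.SpecialLinearGroup (Fin 2) F →* Rˣ := (invHom hs ht hsts htst).toHomUnits with hψ
  set ι' : H →* Rˣ := ι.toHomUnits with hι'
  have hιinj : Function.Injective ι' := by
    intro x y hxy
    exact hι (congrArg Units.val hxy)
  have hψinj : Function.Injective ψ := by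
    intro x y hxy
    exact invHom_injective hs ht hsts htst hs0 (congrArg Units.val hxy)
  have hup : ∀ c : F, (ψ (up F c) : R) = 1 + c • s := fun c => invM_up s t c
  have hlo : ∀ c : F, (ψ (lo F c) : R) = 1 + c • t := fun c => invM_lo s t c
  have hUA : (upperUnipotentSL2 F).map ψ = A.map ι' := by
    ext x
    constructor
    · rintro ⟨u, hu, rfl⟩
      obtain ⟨c, rfl⟩ := mem_upper_iff.1 hu
      obtain ⟨y, hy, hyc⟩ := hA.exists_mem c
      exact ⟨y, hy, Units.ext (hyc.trans (hup c).symm)⟩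
    · rintro ⟨y, hy, rfl⟩
      obtain ⟨c, hc⟩ := hA.get hy
      exact ⟨up F c, up_mem c, Units.ext ((hup c).trans hc.symm)⟩
  have hLB : (lowerUnipotentSL2 F).map ψ = B.map ι' := by
    ext x
    constructor
    · rintro ⟨u, hu, rfl⟩
      obtain ⟨c, rfl⟩ := mem_lower_iff.1 hu
      obtain ⟨y, hy, hyc⟩ := hB.exists_mem c
      exact ⟨y, hy, Units.ext (hyc.trans (hlo c).symm)⟩
    · rintro ⟨y, hy, rfl⟩
      obtain ⟨c, hc⟩ := hB.get hy
      exact ⟨lo F c, lo_mem c, Units.ext ((hlo c).trans hc.symm)⟩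
  have hrange : ψ.range = (A ⊔ B).map ι' := by
    rw [MonoidHom.range_eq_map, ← lower_sup_upper, Subgroup.map_sup, Subgroup.map_sup, hUA, hLB, sup_comm]
  have hle : ψ.range ≤ ι'.range := by
    rw [hrange]
    exact Subgroup.map_le_range _ _
  let e : H ≃* ι'.range := MonoidHom.ofInjective hιinj
  let φ : Matrix.SpecialLinearGroup (Fin 2) F →* H :=
    e.symm.toMonoidHom.comp ((Subgroup.inclusion hle).comp ψ.rangeRestrict)
  have hφ : ∀ g, ι' (φ g) = ψ g := by
    intro g
    have : e (φ g) = Subgroup.inclusion hle (ψ.rangeRestrict g) := e.apply_symm_apply _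
    have h5 := congrArg Subtype.val this
    exact h5
  have hcomp : ι'.comp φ = ψ := MonoidHom.ext hφ
  refine ⟨φ, ?_, ?_, ?_, ?_⟩
  · apply Subgroup.map_injective hιinj
    rw [← hrange, ← hcomp]
    exact (MonoidHom.range_comp ι' φ).symm
  · have : φ.ker = ⊥ := by
      rw [MonoidHom.ker_eq_bot_iff]
      intro x y hxy
      apply hψinj
      rw [← hφ, ← hφ, hxy]
    rw [this]
    exact bot_le
  · apply Subgroup.map_injective hιinj
    rw [Subgroup.map_map, hcomp, hUA]
  · apply Subgroup.map_injective hιinj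
    rw [Subgroup.map_map, hcomp, hLB]

end

/-! ### k-root subgroup sets inside the subgroup generated by a family -/

section crit

variable {G : Type*} [Group G] {T : Set (Subgroup G)} {k : Type*} [Field k]

theorem rcc_subgroupOf {A B : Subgroup G} (hA : A ∈ T) (hB : B ∈ T) (h : RootCommutatorCase T A B) :
    RootCommutatorCase ((fun A : Subgroup G => A.subgroupOf (⨆ B ∈ T, B)) '' T)
      (A.subgroupOf (⨆ B ∈ T, B)) (B.subgroupOf (⨆ B ∈ T, B)) := by
  obtain ⟨h1, h2, h3, h4⟩ := h
  have hAK := le_gen hA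
  have hBK := le_gen hB
  set K := ⨆ B ∈ T, B with hK
  have hclos : ∀ (X : Set G) (hX : X ⊆ K), Subgroup.closure ((↑) ⁻¹' X : Set ↥K) =
      (Subgroup.closure X).subgroupOf K := by
    intro X hX
    apply Subgroup.map_injective K.subtype_injective
    rw [Subgroup.map_subgroupOf_eq_of_le ((Subgroup.closure_le _).2 hX), MonoidHom.map_closure]
    congr 1
    ext x
    constructor
    · rintro ⟨y, hy, rfl⟩
      exact hy
    · intro hx
      exact ⟨⟨x, hX hx⟩, hx, rfl⟩
  rw [RootCommutatorCase, commutator_subgroupOf hAK hBK, sup_subgroupOf' hAK hBK]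
  refine ⟨⟨_, h1, rfl⟩, ?_, ?_, ?_⟩
  · intro c hc x hx
    exact Subtype.ext (h2 c hc x hx)
  · intro a ha ha1
    have h5 := h3 a ha (fun h => ha1 (Subtype.ext h))
    rw [← h5, ← hclos]
    · congr 1
      ext x
      constructor
      · rintro ⟨b, hb, rfl⟩
        exact ⟨b, hb, rfl⟩
      · rintro ⟨b, hb, hbx⟩
        exact ⟨⟨b, hBK hb⟩, hb, Subtype.ext hbx⟩
    · rintro _ ⟨b, hb, rfl⟩
      exact K.mul_mem (K.mul_mem (K.mul_mem a.2 (hBK hb)) (K.inv_mem a.2)) (K.inv_mem (hBK hb))
  · intro b hb hb1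
    have h5 := h4 b hb (fun h => hb1 (Subtype.ext h))
    rw [← h5, ← hclos]
    · congr 1
      ext x
      constructor
      · rintro ⟨a, ha, rfl⟩
        exact ⟨a, ha, rfl⟩
      · rintro ⟨a, ha, hax⟩
        exact ⟨⟨a, hAK ha⟩, ha, Subtype.ext hax⟩
    · rintro _ ⟨a, ha, rfl⟩
      exact K.mul_mem (K.mul_mem (K.mul_mem (hAK ha) b.2) (K.inv_mem (hAK ha))) (K.inv_mem b.2)

/-- **Criterion for a set of `k`-root subgroups, inside the subgroup it generates.** -/
theorem kRootSet_sub (hc : ∀ A ∈ T, IsMulCommutative A) (hb : ∀ A ∈ T, A ≠ ⊥)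
    (hconj : ∀ A ∈ T, ∀ g : G, conjBy A g ∈ T)
    (hp : ∀ A ∈ T, ∀ B ∈ T, ⁅A, B⁆ = ⊥ ∨ IsPSL2PairOver k A B ∨ RootCommutatorCase T A B) :
    IsKRootSubgroupSet k ((fun A : Subgroup G => A.subgroupOf (⨆ B ∈ T, B)) '' T) := by
  have hp' : ∀ A ∈ T, ∀ B ∈ T,
      ⁅A.subgroupOf (⨆ B ∈ T, B), B.subgroupOf (⨆ B ∈ T, B)⁆ = ⊥ ∨
      IsPSL2PairOver k (A.subgroupOf (⨆ B ∈ T, B)) (B.subgroupOf (⨆ B ∈ T, B)) ∨
      RootCommutatorCase ((fun A : Subgroup G => A.subgroupOf (⨆ B ∈ T, B)) '' T)
        (A.subgroupOf (⨆ B ∈ T, B)) (B.subgroupOf (⨆ B ∈ T, B)) := by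
    intro A hA B hB
    rcases hp A hA B hB with h | h | h
    · exact Or.inl ((commutator_subgroupOf_eq_bot_iff (le_gen hA) (le_gen hB)).2 h)
    · exact Or.inr (Or.inl (isPSL2PairOver_subgroupOf (le_gen hA) (le_gen hB) h))
    · exact Or.inr (Or.inr (rcc_subgroupOf hA hB h))
  have hS : IsRootSubgroupSet ((fun A : Subgroup G => A.subgroupOf (⨆ B ∈ T, B)) '' T) := by
    constructor
    · rintro _ ⟨A, hA, rfl⟩
      exact subgroupOf_comm (hc A hA)
    · rintro _ ⟨A, hA, rfl⟩
      exact subgroupOf_ne_bot (le_gen hA) (hb A hA)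
    · exact subgroupOf_generates T
    · rintro _ ⟨A, hA, rfl⟩ g
      exact ⟨conjBy A (g : G), hconj A hA g, (conjBy_subgroupOf A g).symm⟩
    · rintro _ ⟨A, hA, rfl⟩ _ ⟨B, hB, rfl⟩
      rcases hp' A hA B hB with h | h | h
      · exact Or.inl h
      · exact Or.inr (Or.inl (isRankOnePair_of_isPSL2PairOver h))
      · exact Or.inr (Or.inr h)
  refine ⟨hS, ?_⟩
  rintro _ ⟨A, hA, rfl⟩ _ ⟨B, hB, rfl⟩ h
  rcases hp' A hA B hB with h0 | h0 | h0
  · exact absurd h0 (rankOne_commutator_ne_bot h)
  · exact h0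
  · exact absurd h0 (rankOne_not_rcc hS ⟨B, hB, rfl⟩ h)

end crit

end Cfsg.Agent.H743
end

-- part: H743/Siegel
section
set_option autoImplicit false
open Cfsg

namespace Cfsg.Agent.H743

open Cfsg.Agent.H731 Cfsg.Agent.H733 Cfsg.Agent.H742

section

variable {F V H : Type*} [Field F] [AddCommGroup V] [Module F V] [Group H]

/-- `q` is a quadratic form with polar form `B`, nondegenerate. -/
structure QS (q : V → F) (B : V →ₗ[F] V →ₗ[F] F) : Prop where
  add : ∀ u v, q (u + v) = q u + q v + B u v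
  smul : ∀ (c : F) v, q (c • v) = c ^ 2 * q v
  nondeg : ∀ u, (∀ v, B u v = 0) → u = 0

/-- `ι` identifies `H` with the isometry group of `q`. -/
structure IsoGrp (q : V → F) (ι : H →* Module.End F V) : Prop where
  inj : Function.Injective ι
  iso : ∀ h v, q (ι h v) = q v
  surj : ∀ f : Module.End F V, IsUnit f → (∀ v, q (f v) = q v) → ∃ h, ι h = f

/-- a basis of a totally singular line -/
structure IsLn (q : V → F) (B : V →ₗ[F] V →ₗ[F] F) (p r : V) : Prop where
  ind : LinearIndependent F ![p, r]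
  qp : q p = 0
  qr : q r = 0
  pr : B p r = 0

/-- The nilpotent map of a Siegel transvection. -/
def Nm (B : V →ₗ[F] V →ₗ[F] F) (p r : V) : Module.End F V :=
  (B p).smulRight r - (B r).smulRight p

theorem Nm_apply (B : V →ₗ[F] V →ₗ[F] F) (p r v : V) : Nm B p r v = B p v • r - B r v • p := rfl

variable {q : V → F} {B : V →ₗ[F] V →ₗ[F] F}

theorem QS.symm (hQ : QS q B) (u v : V) : B u v = B v u := by
  have h1 := hQ.add u v
  have h2 := hQ.add v u
  rw [add_comm v u, h1] at h2
  linear_combination h2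

theorem QS.self (hQ : QS q B) (v : V) : B v v = 2 * q v := by
  have h1 := hQ.add v v
  rw [← two_smul F v, hQ.smul] at h1
  linear_combination -h1

theorem QS.zero (hQ : QS q B) : q 0 = 0 := by
  have := hQ.smul 0 0
  simpa using this

theorem QS.self_eq_zero (hQ : QS q B) {v : V} (hv : q v = 0) : B v v = 0 := by
  rw [hQ.self, hv, mul_zero]

theorem QS.nondeg' (hQ : QS q B) {u : V} (hu : u ≠ 0) : ∃ v, B u v ≠ 0 := by
  by_contra hcon
  exact hu (hQ.nondeg u (fun v => by
    by_contra hv
    exact hcon ⟨v, hv⟩))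

theorem Nm_add_left (B : V →ₗ[F] V →ₗ[F] F) (p p' r : V) : Nm B (p + p') r = Nm B p r + Nm B p' r := by
  ext v
  simp only [Nm_apply, LinearMap.add_apply, map_add, smul_add, add_smul]
  abel

/-- Change of basis of the line. -/
theorem Nm_rebase (B : V →ₗ[F] V →ₗ[F] F) (p r : V) (a b c d : F) :
    Nm B (a • p + b • r) (c • p + d • r) = (a * d - b * c) • Nm B p r := by
  ext v
  simp only [Nm_apply, LinearMap.add_apply, map_add, map_smul, LinearMap.smul_apply, smul_eq_mul]
  module

theorem pair_ind_iff {p r : V} : LinearIndependent F ![p, r] ↔ ∀ a b : F, a • p + b • r = 0 → a = 0 ∧ b = 0 :=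
  LinearIndependent.pair_iff

theorem IsLn.rebase (hQ : QS q B) {p r : V} (h : IsLn q B p r) {a b c d : F} (hd : a * d - b * c ≠ 0) :
    IsLn q B (a • p + b • r) (c • p + d • r) := by
  have hpp := hQ.self_eq_zero h.qp
  have hrr := hQ.self_eq_zero h.qr
  have hrp : B r p = 0 := by rw [hQ.symm, h.pr]
  have hq : ∀ a b : F, q (a • p + b • r) = 0 := by
    intro a b
    rw [hQ.add, hQ.smul, hQ.smul, h.qp, h.qr]
    simp [h.pr]
  refine ⟨?_, hq a b, hq c d, ?_⟩
  · rw [pair_ind_iff]
    intro x y hxy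
    have h1 : (x * a + y * c) • p + (x * b + y * d) • r = 0 := by
      rw [← hxy]
      module
    obtain ⟨h2, h3⟩ := pair_ind_iff.1 h.ind _ _ h1
    constructor
    · have h4 : x * (a * d - b * c) = 0 := by linear_combination d * h2 - c * h3
      exact (mul_eq_zero.1 h4).resolve_right hd
    · have h4 : y * (a * d - b * c) = 0 := by linear_combination a * h3 - b * h2
      exact (mul_eq_zero.1 h4).resolve_right hd
  · simp [hpp, hrr, hrp, h.pr]

theorem IsLn.q_comb (hQ : QS q B) {p r : V} (h : IsLn q B p r) (a b : F) : q (a • p + b • r) = 0 := by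
  rw [hQ.add, hQ.smul, hQ.smul, h.qp, h.qr]
  simp [h.pr]

theorem IsLn.ne_zero_left {p r : V} (h : IsLn q B p r) : p ≠ 0 := by
  have := h.ind.ne_zero 0
  simpa using this

theorem IsLn.ne_zero_right {p r : V} (h : IsLn q B p r) : r ≠ 0 := by
  have := h.ind.ne_zero 1
  simpa using this

theorem Nm_sq (hQ : QS q B) {p r : V} (h : IsLn q B p r) : Nm B p r * Nm B p r = 0 := by
  have hpp := hQ.self_eq_zero h.qp
  have hrr := hQ.self_eq_zero h.qr
  have hrp : B r p = 0 := by rw [hQ.symm, h.pr]
  ext v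
  rw [Module.End.mul_apply, LinearMap.zero_apply]
  simp [Nm_apply, hpp, hrr, hrp, h.pr]

theorem Nm_iso (hQ : QS q B) {p r : V} (h : IsLn q B p r) (c : F) (v : V) :
    q ((1 + c • Nm B p r) v) = q v := by
  have h1 : (1 + c • Nm B p r) v = v + ((-(c * B r v)) • p + (c * B p v) • r) := by
    rw [LinearMap.add_apply, Module.End.one_apply, LinearMap.smul_apply, Nm_apply]
    module
  rw [h1, hQ.add, h.q_comb hQ]
  simp only [map_add, map_smul, smul_eq_mul]
  rw [hQ.symm v p, hQ.symm v r]
  ring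

theorem Nm_unit (hQ : QS q B) {p r : V} (h : IsLn q B p r) (c : F) : IsUnit (1 + c • Nm B p r) := by
  have hs := Nm_sq hQ h
  refine ⟨⟨1 + c • Nm B p r, 1 - c • Nm B p r, ?_, ?_⟩, rfl⟩
  · simp only [mul_sub, add_mul, mul_one, one_mul, smul_mul_assoc, mul_smul_comm, hs, smul_zero]
    module
  · simp only [mul_add, sub_mul, mul_one, one_mul, smul_mul_assoc, mul_smul_comm, hs, smul_zero]
    module

theorem Nm_ne_zero (hQ : QS q B) {p r : V} (h : IsLn q B p r) : Nm B p r ≠ 0 := by
  obtain ⟨v, hv⟩ := hQ.nondeg' h.ne_zero_left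
  intro h0
  have h1 := congrArg (fun f : Module.End F V => f v) h0
  simp only [Nm_apply, LinearMap.zero_apply] at h1
  have h2 : (-(B r v)) • p + (B p v) • r = 0 := by
    rw [← h1]
    module
  exact hv (pair_ind_iff.1 h.ind _ _ h2).2

end

/-! ### Vectors with prescribed products -/

section dual

variable {F V : Type*} [Field F] [AddCommGroup V] [Module F V] [FiniteDimensional F V]
variable {q : V → F} {B : V →ₗ[F] V →ₗ[F] F}

theorem QS.exists_vec (hQ : QS q B) {n : ℕ} {w : Fin n → V} (hw : LinearIndependent F w) (c : Fin n → F) :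
    ∃ x, ∀ i, B (w i) x = c i := by
  -- the map V → Dual V is injective, hence surjective
  have hinj : Function.Injective B := by
    rw [← LinearMap.ker_eq_bot, LinearMap.ker_eq_bot']
    intro u hu
    apply hQ.nondeg
    intro v
    rw [hu, LinearMap.zero_apply]
  have hsurj : Function.Surjective B := by
    have h1 : Module.finrank F V = Module.finrank F (V →ₗ[F] F) := (Subspace.dual_finrank_eq).symm
    exact (LinearMap.injective_iff_surjective_of_finrank_eq_finrank h1).1 hinj
  let f0 : (Submodule.span F (Set.range w)) →ₗ[F] F :=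
    (Module.Basis.span hw).constr F c
  obtain ⟨f, hf⟩ := LinearMap.exists_extend f0
  obtain ⟨x, hx⟩ := hsurj f
  refine ⟨x, fun i => ?_⟩
  rw [hQ.symm, hx]
  have h2 : f (w i) = f0 (Module.Basis.span hw i) := by
    rw [← hf, LinearMap.comp_apply, Submodule.subtype_apply, Module.Basis.span_apply]
  rw [h2]
  exact (Module.Basis.span hw).constr_basis F c i

end dual

end Cfsg.Agent.H743
end

-- part: H743/Siegel2
section
set_option autoImplicit false
open Cfsg

namespace Cfsg.Agent.H743

open Cfsg.Agent.H731 Cfsg.Agent.H733 Cfsg.Agent.H742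

variable {F V H : Type*} [Field F] [AddCommGroup V] [Module F V] [Group H]
variable {q : V → F} {B : V →ₗ[F] V →ₗ[F] F} {ι : H →* Module.End F V}

/-- `A` is the Siegel transvection group of the line `⟨p, r⟩`. -/
structure Tg (q : V → F) (B : V →ₗ[F] V →ₗ[F] F) (ι : H →* Module.End F V) (p r : V) (A : Subgroup H) : Prop where
  ln : IsLn q B p r
  rs : IsRS F ι (Nm B p r) A

/-- The family of Siegel transvection groups. -/
def Sg (q : V → F) (B : V →ₗ[F] V →ₗ[F] F) (ι : H →* Module.End F V) : Set (Subgroup H) :=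
  {A | ∃ p r, Tg q B ι p r A}

theorem Tg.mem {p r : V} {A : Subgroup H} (h : Tg q B ι p r A) : A ∈ Sg q B ι := ⟨p, r, h⟩

theorem Tg.rebase (hQ : QS q B) {p r : V} {A : Subgroup H} (h : Tg q B ι p r A) {a b c d : F}
    (hd : a * d - b * c ≠ 0) : Tg q B ι (a • p + b • r) (c • p + d • r) A where
  ln := h.ln.rebase hQ hd
  rs := by
    rw [Nm_rebase]
    exact h.rs.smul hd

theorem Tg.unique {p r : V} {A A' : Subgroup H} (h : Tg q B ι p r A) (h' : Tg q B ι p r A') : A = A' :=
  h.rs.unique h'.rs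

/-- The group of a line exists. -/
theorem exists_Tg (hQ : QS q B) (hι : IsoGrp q ι) {p r : V} (h : IsLn q B p r) : ∃ A, Tg q B ι p r A := by
  have hsurj : ∀ c : F, ∃ x, ι x = 1 + c • Nm B p r := fun c =>
    hι.surj _ (Nm_unit hQ h c) (Nm_iso hQ h c)
  let A : Subgroup H :=
    { carrier := {x | ∃ c : F, ι x = 1 + c • Nm B p r}
      mul_mem' := by
        rintro x y ⟨c, hc⟩ ⟨d, hd⟩
        refine ⟨c + d, ?_⟩
        rw [map_mul, hc, hd]
        simp only [mul_add, add_mul, mul_one, one_mul, smul_mul_assoc, mul_smul_comm, Nm_sq hQ h, smul_zero]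
        module
      one_mem' := ⟨0, by rw [map_one, zero_smul, add_zero]⟩
      inv_mem' := by
        rintro x ⟨c, hc⟩
        refine ⟨-c, ?_⟩
        rw [inv_formula ι (Nm_sq hQ h) hc]
        module }
  exact ⟨A, h, fun x => Iff.rfl, hsurj⟩

/-! ### Conjugation -/

theorem IsoGrp.form (hQ : QS q B) (hι : IsoGrp q ι) (h : H) (u v : V) : B (ι h u) (ι h v) = B u v := by
  have h1 := hQ.add u v
  have h2 := hQ.add (ι h u) (ι h v)
  rw [← map_add, hι.iso, hι.iso, hι.iso] at h2
  linear_combination h1 - h2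

theorem ι_mul_inv (ι : H →* Module.End F V) (h : H) (v : V) : ι h (ι h⁻¹ v) = v := by
  rw [← Module.End.mul_apply, ← map_mul, mul_inv_cancel, map_one, Module.End.one_apply]

theorem ι_inv_mul (ι : H →* Module.End F V) (h : H) (v : V) : ι h⁻¹ (ι h v) = v := by
  rw [← Module.End.mul_apply, ← map_mul, inv_mul_cancel, map_one, Module.End.one_apply]

theorem Tg.conj (hQ : QS q B) (hι : IsoGrp q ι) {p r : V} {A : Subgroup H} (h : Tg q B ι p r A) (g : H) :
    Tg q B ι (ι g p) (ι g r) (conjBy A g) where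
  ln := by
    refine ⟨?_, by rw [hι.iso, h.ln.qp], by rw [hι.iso, h.ln.qr], by rw [hι.form hQ, h.ln.pr]⟩
    rw [pair_ind_iff]
    intro a b hab
    apply pair_ind_iff.1 h.ln.ind
    rw [← map_smul, ← map_smul, ← map_add] at hab
    have := congrArg (ι g⁻¹) hab
    rwa [ι_inv_mul, map_zero] at this
  rs := by
    have h1 : ι g * Nm B p r * ι g⁻¹ = Nm B (ι g p) (ι g r) := by
      ext v
      rw [Module.End.mul_apply, Module.End.mul_apply, Nm_apply, Nm_apply, map_sub, map_smul, map_smul]
      have h2 : ∀ w, B w (ι g⁻¹ v) = B (ι g w) v := by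
        intro w
        rw [← hι.form hQ g w (ι g⁻¹ v), ι_mul_inv]
      rw [h2, h2]
    rw [← h1]
    exact h.rs.conj g

/-! ### Pairs of lines -/

/-- Dual bases: an SL₂-pair. -/
theorem Tg.psl2_of_dual (hQ : QS q B) (hι : IsoGrp q ι) {p r p' r' : V} {A A' : Subgroup H}
    (h : Tg q B ι p r A) (h' : Tg q B ι p' r' A') (h1 : B p p' = 1) (h2 : B p r' = 0) (h3 : B r p' = 0)
    (h4 : B r r' = 1) : IsPSL2PairOver F A A' := by
  have hpp := hQ.self_eq_zero h.ln.qp
  have hrr := hQ.self_eq_zero h.ln.qr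
  have hrp : B r p = 0 := by rw [hQ.symm, h.ln.pr]
  have hpp' := hQ.self_eq_zero h'.ln.qp
  have hrr' := hQ.self_eq_zero h'.ln.qr
  have hrp' : B r' p' = 0 := by rw [hQ.symm, h'.ln.pr]
  have h1' : B p' p = 1 := by rw [hQ.symm, h1]
  have h2' : B r' p = 0 := by rw [hQ.symm, h2]
  have h3' : B p' r = 0 := by rw [hQ.symm, h3]
  have h4' : B r' r = 1 := by rw [hQ.symm, h4]
  -- use t = - Nm p' r'
  have ht : IsRS F ι (-Nm B p' r') A' := by
    have := h'.rs.smul (a := (-1 : F)) (neg_ne_zero.2 one_ne_zero)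
    rwa [neg_one_smul] at this
  refine isPSL2PairOver_of_inv h.rs ht hι.inj (Nm_sq hQ h.ln) ?_ ?_ ?_ (Nm_ne_zero hQ h.ln)
  · rw [neg_mul_neg, Nm_sq hQ h'.ln]
  · ext v
    rw [Module.End.mul_apply, Module.End.mul_apply]
    simp only [Nm_apply, LinearMap.neg_apply, map_sub, map_smul, map_neg, h1, h2, h3, h4, h1', h2', h3',
      h4']
    module
  · ext v
    rw [Module.End.mul_apply, Module.End.mul_apply]
    simp only [Nm_apply, LinearMap.neg_apply, map_sub, map_smul, map_neg, h1, h2, h3, h4, h1', h2', h3',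
      h4']
    module

/-- Opposite lines: an SL₂-pair. -/
theorem Tg.psl2_of_det (hQ : QS q B) (hι : IsoGrp q ι) {p r p' r' : V} {A A' : Subgroup H}
    (h : Tg q B ι p r A) (h' : Tg q B ι p' r' A') (hd : B p p' * B r r' - B p r' * B r p' ≠ 0) :
    IsPSL2PairOver F A A' := by
  set D := B p p' * B r r' - B p r' * B r p' with hD
  -- inverse of the pairing matrix
  have h2 : Tg q B ι ((B r r' / D) • p' + (-(B r p') / D) • r') ((-(B p r') / D) • p' + (B p p' / D) • r') A' := by
    apply h'.rebase hQ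
    have : B r r' / D * (B p p' / D) - -(B r p') / D * (-(B p r') / D) = 1 / D := by
      field_simp
      rw [hD]
      ring
    rw [this]
    exact one_div_ne_zero hd
  apply h.psl2_of_dual hQ hι h2
  · simp only [map_add, map_smul, smul_eq_mul]
    field_simp
    rw [hD]
    ring
  · simp only [map_add, map_smul, smul_eq_mul]
    field_simp
    ring
  · simp only [map_add, map_smul, smul_eq_mul]
    field_simp
    ring
  · simp only [map_add, map_smul, smul_eq_mul]
    field_simp
    rw [hD]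
    ring

/-- A line with a point orthogonal to another line and conversely. -/
theorem Tg.pair_of_radical (hQ : QS q B) (hι : IsoGrp q ι) {p r p' r' : V} {A A' : Subgroup H}
    (h : Tg q B ι p r A) (h' : Tg q B ι p' r' A') (h1 : B p p' = 0) (h2 : B p r' = 0) (h3 : B r p' = 0) :
    ⁅A, A'⁆ = ⊥ ∨ RootCommutatorCase (Sg q B ι) A A' := by
  have hpp := hQ.self_eq_zero h.ln.qp
  have hrr := hQ.self_eq_zero h.ln.qr
  have hrp : B r p = 0 := by rw [hQ.symm, h.ln.pr]
  have hpp' := hQ.self_eq_zero h'.ln.qp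
  have hrr' := hQ.self_eq_zero h'.ln.qr
  have hrp' : B r' p' = 0 := by rw [hQ.symm, h'.ln.pr]
  have h1' : B p' p = 0 := by rw [hQ.symm, h1]
  have h2' : B r' p = 0 := by rw [hQ.symm, h2]
  have h3' : B p' r = 0 := by rw [hQ.symm, h3]
  have h4' : B r' r = B r r' := hQ.symm _ _
  have hc : Nm B p r * Nm B p' r' - Nm B p' r' * Nm B p r = (B r r') • Nm B p p' := by
    ext v
    rw [LinearMap.sub_apply, Module.End.mul_apply, Module.End.mul_apply, LinearMap.smul_apply]
    simp only [Nm_apply, map_sub, map_smul, h1, h2, h3, h1', h2', h3', h4']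
    module
  have hsts : Nm B p r * Nm B p' r' * Nm B p r = 0 := by
    ext v
    rw [Module.End.mul_apply, Module.End.mul_apply]
    simp only [Nm_apply, map_sub, map_smul, h1, h2, h3, h1', h2', h3', h4', LinearMap.zero_apply]
    module
  have htst : Nm B p' r' * Nm B p r * Nm B p' r' = 0 := by
    ext v
    rw [Module.End.mul_apply, Module.End.mul_apply]
    simp only [Nm_apply, map_sub, map_smul, h1, h2, h3, h1', h2', h3', h4', LinearMap.zero_apply]
    module
  by_cases hz : (B r r') • Nm B p p' = 0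
  · left
    apply h.rs.commutator_eq_bot h'.rs hι.inj
    rw [hz, sub_eq_zero] at hc
    exact hc
  · right
    have hβ : B r r' ≠ 0 := fun h0 => hz (by rw [h0, zero_smul])
    have hN : Nm B p p' ≠ 0 := fun h0 => hz (by rw [h0, smul_zero])
    have hln : IsLn q B p p' := by
      refine ⟨?_, h.ln.qp, h'.ln.qp, h1⟩
      by_contra hcon
      rw [LinearIndependent.pair_iff] at hcon
      push Not at hcon
      obtain ⟨a, b, hab, hne⟩ := hcon
      apply hN
      -- p and p' are proportional
      by_cases ha : a = 0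
      · exfalso
        have hb := hne ha
        rw [ha, zero_smul, zero_add] at hab
        exact h'.ln.ne_zero_left ((smul_eq_zero.1 hab).resolve_left hb)
      · have h5 : p = (-(b / a)) • p' := by
          have h6 : a • (p - (-(b / a)) • p') = 0 := by
            rw [← hab, smul_sub, smul_smul]
            have : a * -(b / a) = -b := by field_simp
            rw [this]
            module
          have := (smul_eq_zero.1 h6).resolve_left ha
          exact sub_eq_zero.1 this
        ext v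
        rw [Nm_apply, h5]
        simp only [map_smul, LinearMap.smul_apply, smul_eq_mul, LinearMap.zero_apply]
        module
    obtain ⟨C, hC⟩ := exists_Tg hQ hι hln
    exact rootCommutatorCase_of _ h.rs h'.rs hC.rs hι.inj (Nm_sq hQ h.ln) (Nm_sq hQ h'.ln) hsts htst hβ hc hC.mem

/-- a 2 × 2 matrix of determinant zero has a nonzero left null vector -/
theorem exists_null {a b c d : F} (h : a * d - b * c = 0) : ∃ x y : F, (x ≠ 0 ∨ y ≠ 0) ∧ x * a + y * c = 0 ∧ x * b + y * d = 0 := by
  by_cases hc : c = 0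
  · by_cases ha : a = 0
    · by_cases hd : d = 0
      · exact ⟨0, 1, Or.inr one_ne_zero, by rw [ha, hc]; ring, by rw [hd]; ring⟩
      · exact ⟨d, -b, Or.inl hd, by rw [ha, hc]; ring, by ring⟩
    · have hd : d = 0 := by
        rw [hc, mul_zero, sub_zero] at h
        exact (mul_eq_zero.1 h).resolve_left ha
      exact ⟨0, 1, Or.inr one_ne_zero, by rw [hc]; ring, by rw [hd]; ring⟩
  · exact ⟨c, -a, Or.inl hc, by ring, by linear_combination -h⟩

theorem Tg.exists_rebase (hQ : QS q B) {p r : V} {A : Subgroup H} (h : Tg q B ι p r A) {x y : F}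
    (hxy : x ≠ 0 ∨ y ≠ 0) : ∃ c d : F, Tg q B ι (x • p + y • r) (c • p + d • r) A := by
  by_cases hx : x = 0
  · have hy : y ≠ 0 := hxy.resolve_left (fun h => h hx)
    exact ⟨1, 0, h.rebase hQ (by
      rw [hx]
      simpa using hy)⟩
  · exact ⟨0, 1, h.rebase hQ (by simpa using hx)⟩

/-- **Pairs of Siegel transvection groups.** -/
theorem Tg.pair (hQ : QS q B) (hι : IsoGrp q ι) {p r p' r' : V} {A A' : Subgroup H}
    (h : Tg q B ι p r A) (h' : Tg q B ι p' r' A') :
    ⁅A, A'⁆ = ⊥ ∨ IsPSL2PairOver F A A' ∨ RootCommutatorCase (Sg q B ι) A A' := by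
  by_cases hd : B p p' * B r r' - B p r' * B r p' = 0
  · obtain ⟨x, y, hxy, hx1, hx2⟩ := exists_null hd
    obtain ⟨c, d, h1⟩ := h.exists_rebase hQ hxy
    have hd' : B p p' * B r r' - B r p' * B p r' = 0 := by linear_combination hd
    obtain ⟨z, w, hzw, hz1, hz2⟩ := exists_null hd'
    obtain ⟨c', d', h2⟩ := h'.exists_rebase hQ hzw
    -- orthogonality
    have e1 : B (x • p + y • r) p' = 0 := by
      simp only [map_add, map_smul, LinearMap.add_apply, LinearMap.smul_apply, smul_eq_mul]
      exact hx1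
    have e2 : B (x • p + y • r) r' = 0 := by
      simp only [map_add, map_smul, LinearMap.add_apply, LinearMap.smul_apply, smul_eq_mul]
      exact hx2
    have e3 : B p (z • p' + w • r') = 0 := by
      simp only [map_add, map_smul, smul_eq_mul]
      exact hz1
    have e4 : B r (z • p' + w • r') = 0 := by
      simp only [map_add, map_smul, smul_eq_mul]
      exact hz2
    rcases h1.pair_of_radical hQ hι h2 (by rw [map_add, map_smul, map_smul, e1, e2]; simp)
      (by rw [map_add, map_smul, map_smul, e1, e2]; simp)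
      (by rw [map_add B, map_smul B, map_smul B, LinearMap.add_apply, LinearMap.smul_apply, LinearMap.smul_apply,
            e3, e4]
          simp) with h3 | h3
    · exact Or.inl h3
    · exact Or.inr (Or.inr h3)
  · exact Or.inr (Or.inl (h.psl2_of_det hQ hι h' hd))

/-! ### Connectivity -/

theorem Tg.fAdj (hQ : QS q B) (hι : IsoGrp q ι) {p r p' r' : V} {A A' : Subgroup H}
    (h : Tg q B ι p r A) (h' : Tg q B ι p' r' A') (hd : B p p' * B r r' - B p r' * B r p' ≠ 0) :
    FAdj (Sg q B ι) A A' :=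
  ⟨h.mem, h'.mem, isRankOnePair_of_isPSL2PairOver (h.psl2_of_det hQ hι h' hd)⟩

variable [FiniteDimensional F V]

/-- A vector orthogonal to `p, x, r, r'` which is not singular. -/
theorem exists_nonsingular (hQ : QS q B) (hdim : 5 ≤ Module.finrank F V) {p x r r' : V} (hp : q p = 0)
    (hx : q x = 0) (hr : q r = 0) (hr' : q r' = 0) (hpx : B p x = 1) (hpr : B p r = 0) (hpr' : B p r' = 0)
    (hrx : B r x = 0) (hrx' : B r' x = 0) (hβ : B r r' ≠ 0) :
    ∃ u, B p u = 0 ∧ B x u = 0 ∧ B r u = 0 ∧ B r' u = 0 ∧ q u ≠ 0 := by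
  by_contra hcon
  push Not at hcon
  -- a nonzero vector orthogonal to all four
  let f : V →ₗ[F] (Fin 4 → F) := LinearMap.pi ![B p, B x, B r, B r']
  have hker : LinearMap.ker f ≠ ⊥ := by
    apply LinearMap.ker_ne_bot_of_finrank_lt
    rw [Module.finrank_fin_fun]
    omega
  obtain ⟨u, hu, hu0⟩ := (Submodule.ne_bot_iff _).1 hker
  rw [LinearMap.mem_ker] at hu
  have hup : B p u = 0 := congrFun hu 0
  have hux : B x u = 0 := congrFun hu 1
  have hur : B r u = 0 := congrFun hu 2
  have hur' : B r' u = 0 := congrFun hu 3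
  apply hu0
  apply hQ.nondeg
  intro v
  have hxp : B x p = 1 := by rw [hQ.symm, hpx]
  have hrp : B r p = 0 := by rw [hQ.symm, hpr]
  have hr'p : B r' p = 0 := by rw [hQ.symm, hpr']
  have hxr : B x r = 0 := by rw [hQ.symm, hrx]
  have hxr' : B x r' = 0 := by rw [hQ.symm, hrx']
  have hr'r : B r' r = B r r' := hQ.symm _ _
  set v' := v - (B x v) • p - (B p v) • x - (B r' v / B r r') • r - (B r v / B r r') • r' with hv'
  have h1 : B p v' = 0 := by
    rw [hv']
    simp only [map_sub, map_smul, smul_eq_mul, hQ.self_eq_zero hp, hpx, hpr, hpr']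
    ring
  have h2 : B x v' = 0 := by
    rw [hv']
    simp only [map_sub, map_smul, smul_eq_mul, hQ.self_eq_zero hx, hxp, hxr, hxr']
    ring
  have h3 : B r v' = 0 := by
    rw [hv']
    simp only [map_sub, map_smul, smul_eq_mul, hQ.self_eq_zero hr, hrp, hrx]
    field_simp
    ring
  have h4 : B r' v' = 0 := by
    rw [hv']
    simp only [map_sub, map_smul, smul_eq_mul, hQ.self_eq_zero hr', hr'p, hrx', hr'r]
    field_simp
    ring
  have q1 : q u = 0 := hcon u hup hux hur hur'
  have q2 : q v' = 0 := hcon v' h1 h2 h3 h4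
  have q3 : q (u + v') = 0 := hcon (u + v') (by rw [map_add, hup, h1, add_zero]) (by rw [map_add, hux, h2, add_zero])
    (by rw [map_add, hur, h3, add_zero]) (by rw [map_add, hur', h4, add_zero])
  rw [hQ.add, q1, q2] at q3
  have h5 : B u v' = 0 := by linear_combination q3
  rw [hv'] at h5
  simp only [map_sub, map_smul, smul_eq_mul, hQ.symm u p, hQ.symm u x, hQ.symm u r, hQ.symm u r', hup, hux, hur,
    hur'] at h5
  linear_combination h5

/-- Two lines through a point have a common opposite line. -/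
theorem exists_common_opp (hQ : QS q B) (hdim : 5 ≤ Module.finrank F V) {p r r' : V} (h : IsLn q B p r)
    (h' : IsLn q B p r') (hind : LinearIndependent F ![p, r, r']) :
    ∃ x y, IsLn q B x y ∧ B p x = 1 ∧ B r x = 0 ∧ B r' x = 0 ∧ B p y = 0 ∧ B r y ≠ 0 ∧ B r' y ≠ 0 := by
  have hp := h.qp
  have hr := h.qr
  have hr' := h'.qr
  have hpr := h.pr
  have hpr' := h'.pr
  have hrp : B r p = 0 := by rw [hQ.symm, hpr]
  have hr'p : B r' p = 0 := by rw [hQ.symm, hpr']
  -- the point x
  obtain ⟨x0, hx0⟩ := hQ.exists_vec hind ![1, 0, 0]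
  have a0 : B p x0 = 1 := hx0 0
  have a1 : B r x0 = 0 := hx0 1
  have a2 : B r' x0 = 0 := hx0 2
  obtain ⟨x, hqx, hpx, hrx, hrx'⟩ : ∃ x, q x = 0 ∧ B p x = 1 ∧ B r x = 0 ∧ B r' x = 0 := by
    refine ⟨x0 + (-(q x0)) • p, ?_, ?_, ?_, ?_⟩
    · rw [hQ.add, hQ.smul, hp, map_smul, hQ.symm, a0, smul_eq_mul]
      ring
    · rw [map_add, map_smul, hQ.self_eq_zero hp, a0]
      simp
    · rw [map_add, map_smul, hrp, a1]
      simp
    · rw [map_add, map_smul, hr'p, a2]
      simp
  have hxp : B x p = 1 := by rw [hQ.symm, hpx]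
  have hxr : B x r = 0 := by rw [hQ.symm, hrx]
  have hxr' : B x r' = 0 := by rw [hQ.symm, hrx']
  have hln : ∀ y, q y = 0 → B x y = 0 → B p y = 0 → B r y ≠ 0 → IsLn q B x y := by
    intro y hy hxy hpy hry
    refine ⟨?_, hqx, hy, hxy⟩
    rw [pair_ind_iff]
    intro a b hab
    have h1 := congrArg (B p) hab
    have h2 := congrArg (B r) hab
    rw [map_add, map_smul, map_smul, hpx, hpy, map_zero] at h1
    rw [map_add, map_smul, map_smul, hrx, map_zero] at h2
    simp only [smul_eq_mul, mul_one, mul_zero, add_zero, zero_add] at h1 h2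
    exact ⟨h1, (mul_eq_zero.1 h2).resolve_right hry⟩
  by_cases hβ : B r r' = 0
  · -- p, x, r, r' are independent
    have hind4 : LinearIndependent F ![x, p, r, r'] := by
      rw [Fintype.linearIndependent_iff] at hind ⊢
      intro g hg
      rw [Fin.sum_univ_four] at hg
      have hg' : g 0 • x + g 1 • p + g 2 • r + g 3 • r' = 0 := hg
      have h1 := congrArg (B p) hg'
      simp only [map_add, map_smul, smul_eq_mul, hpx, hQ.self_eq_zero hp, hpr, hpr', map_zero] at h1
      have hg0 : g 0 = 0 := by linear_combination h1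
      rw [hg0, zero_smul, zero_add] at hg'
      have h2 := hind ![g 1, g 2, g 3] (by
        rw [Fin.sum_univ_three]
        exact hg')
      intro i
      fin_cases i
      · exact hg0
      · exact h2 0
      · exact h2 1
      · exact h2 2
    obtain ⟨y0, hy0⟩ := hQ.exists_vec hind4 ![0, 0, 1, 1]
    have b0 : B x y0 = 0 := hy0 0
    have b1 : B p y0 = 0 := hy0 1
    have b2 : B r y0 = 1 := hy0 2
    have b3 : B r' y0 = 1 := hy0 3
    have c0 : q (y0 + (-(q y0)) • r) = 0 := by
      rw [hQ.add, hQ.smul, hr, map_smul, hQ.symm, b2, smul_eq_mul]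
      ring
    have c1 : B x (y0 + (-(q y0)) • r) = 0 := by
      rw [map_add, map_smul, hxr, b0]
      simp
    have c2 : B p (y0 + (-(q y0)) • r) = 0 := by
      rw [map_add, map_smul, hpr, b1]
      simp
    have c3 : B r (y0 + (-(q y0)) • r) = 1 := by
      rw [map_add, map_smul, hQ.self_eq_zero hr, b2]
      simp
    have c4 : B r' (y0 + (-(q y0)) • r) = 1 := by
      rw [map_add, map_smul, hQ.symm r' r, hβ, b3]
      simp
    exact ⟨x, _, hln _ c0 c1 c2 (by rw [c3]; exact one_ne_zero), hpx, hrx, hrx', c2, by rw [c3]; exact one_ne_zero,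
      by rw [c4]; exact one_ne_zero⟩
  · obtain ⟨u, hup, hux, hur, hur', hqu⟩ := exists_nonsingular hQ hdim hp hqx hr hr' hpx hpr hpr' hrx hrx' hβ
    set y := r + ((-(q u / B r r')) • r' + u) with hy
    have c0 : q y = 0 := by
      rw [hy, hQ.add, hQ.add, hQ.smul, hr, hr']
      simp only [map_add, map_smul, smul_eq_mul, LinearMap.smul_apply, hur, hur']
      field_simp
      ring
    have c1 : B x y = 0 := by
      rw [hy, map_add, map_add, map_smul, hxr, hxr', hux]
      simp
    have c2 : B p y = 0 := by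
      rw [hy, map_add, map_add, map_smul, hpr, hpr', hup]
      simp
    have c3 : B r y = -(q u) := by
      rw [hy, map_add, map_add, map_smul, hQ.self_eq_zero hr, hur, smul_eq_mul]
      field_simp
      ring
    have c4 : B r' y = B r r' := by
      rw [hy, map_add, map_add, map_smul, hQ.self_eq_zero hr', hur', hQ.symm r' r]
      simp
    have c3' : B r y ≠ 0 := by rw [c3]; exact neg_ne_zero.2 hqu
    exact ⟨x, y, hln y c0 c1 c2 c3', hpx, hrx, hrx', c2, c3', by rw [c4]; exact hβ⟩

theorem reach_share (hQ : QS q B) (hι : IsoGrp q ι) (hdim : 5 ≤ Module.finrank F V) {p r r' : V}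
    {A A' : Subgroup H} (h : Tg q B ι p r A) (h' : Tg q B ι p r' A') :
    Relation.ReflTransGen (FAdj (Sg q B ι)) A A' := by
  by_cases hind : LinearIndependent F ![p, r, r']
  · obtain ⟨x, y, hxy, hpx, hrx, hrx', hpy, hry, hry'⟩ := exists_common_opp hQ hdim h.ln h'.ln hind
    obtain ⟨C, hC⟩ := exists_Tg hQ hι hxy
    have h1 : FAdj (Sg q B ι) A C := h.fAdj hQ hι hC (by rw [hpx, hpy, hrx]; simpa using hry)
    have h2 : FAdj (Sg q B ι) A' C := h'.fAdj hQ hι hC (by rw [hpx, hpy, hrx']; simpa using hry')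
    exact (Relation.ReflTransGen.single h1).tail ⟨h2.2.1, h2.1, RankOnePair_symm h2.2.2⟩
  · -- r' ∈ ⟨p, r⟩
    have h1 : A = A' := by
      rw [Fintype.linearIndependent_iff] at hind
      push Not at hind
      obtain ⟨g, hg, i, hi⟩ := hind
      rw [Fin.sum_univ_three] at hg
      have hg' : g 0 • p + g 1 • r + g 2 • r' = 0 := hg
      have hg2 : g 2 ≠ 0 := by
        intro h0
        rw [h0, zero_smul, add_zero] at hg'
        obtain ⟨h1, h2⟩ := pair_ind_iff.1 h.ln.ind _ _ hg'
        fin_cases i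
        · exact hi h1
        · exact hi h2
        · exact hi h0
      have hg1 : g 1 ≠ 0 := by
        intro h0
        rw [h0, zero_smul, add_zero] at hg'
        obtain ⟨h1, h2⟩ := pair_ind_iff.1 h'.ln.ind _ _ hg'
        exact hg2 h2
      have hr' : r' = (-(g 0 / g 2)) • p + (-(g 1 / g 2)) • r := by
        have h5 : g 2 • (r' - ((-(g 0 / g 2)) • p + (-(g 1 / g 2)) • r)) = 0 := by
          rw [← hg', smul_sub, smul_add, smul_smul, smul_smul]
          have e1 : g 2 * -(g 0 / g 2) = - g 0 := by field_simp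
          have e2 : g 2 * -(g 1 / g 2) = - g 1 := by field_simp
          rw [e1, e2]
          module
        exact sub_eq_zero.1 ((smul_eq_zero.1 h5).resolve_left hg2)
      have h6 : Tg q B ι ((1 : F) • p + (0 : F) • r) ((-(g 0 / g 2)) • p + (-(g 1 / g 2)) • r) A := by
        apply h.rebase hQ
        rw [one_mul, zero_mul, sub_zero]
        exact neg_ne_zero.2 (div_ne_zero hg1 hg2)
      rw [one_smul, zero_smul, add_zero, ← hr'] at h6
      exact h6.unique h'
    rw [h1]

/-- **Connectivity.** -/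
theorem Sg_connected (hQ : QS q B) (hι : IsoGrp q ι) (hdim : 5 ≤ Module.finrank F V) :
    IsConnectedFamily (FAdj (Sg q B ι)) (Sg q B ι) := by
  rintro A ⟨p, r, h⟩ A' ⟨p', r', h'⟩
  -- a nonzero vector x p + y r orthogonal to p'
  obtain ⟨x, y, hxy, hx⟩ : ∃ x y : F, (x ≠ 0 ∨ y ≠ 0) ∧ B (x • p + y • r) p' = 0 := by
    by_cases h0 : B r p' = 0
    · exact ⟨0, 1, Or.inr one_ne_zero, by simp [h0]⟩
    · refine ⟨B r p', -(B p p'), Or.inl h0, ?_⟩
      simp only [map_add, map_smul, LinearMap.add_apply, LinearMap.smul_apply, smul_eq_mul]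
      ring
  obtain ⟨c, d, h1⟩ := h.exists_rebase hQ hxy
  set s := x • p + y • r with hs
  set s' := c • p + d • r with hs'
  by_cases hind : LinearIndependent F ![s, p']
  · have hln : IsLn q B s p' := ⟨hind, h1.ln.qp, h'.ln.qp, hx⟩
    obtain ⟨C, hC⟩ := exists_Tg hQ hι hln
    have hC' : Tg q B ι p' s C := by
      have := hC.rebase hQ (a := 0) (b := 1) (c := 1) (d := 0) (by simp)
      simpa using this
    exact (reach_share hQ hι hdim h1 hC).trans (reach_share hQ hι hdim hC' h')
  · -- s is proportional to p'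
    rw [LinearIndependent.pair_iff] at hind
    push Not at hind
    obtain ⟨a, b, hab, hne⟩ := hind
    have ha : a ≠ 0 := by
      intro ha
      have hb := hne ha
      rw [ha, zero_smul, zero_add] at hab
      exact h'.ln.ne_zero_left ((smul_eq_zero.1 hab).resolve_left hb)
    have hb : b ≠ 0 := by
      intro hb
      rw [hb, zero_smul, add_zero] at hab
      exact h1.ln.ne_zero_left ((smul_eq_zero.1 hab).resolve_left ha)
    have h5 : p' = (-(a / b)) • s := by
      have h6 : b • (p' - (-(a / b)) • s) = 0 := by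
        rw [← hab, smul_sub, smul_smul]
        have : b * -(a / b) = -a := by field_simp
        rw [this]
        module
      exact sub_eq_zero.1 ((smul_eq_zero.1 h6).resolve_left hb)
    have h7 : Tg q B ι ((-(a / b)) • s + (0 : F) • s') ((0 : F) • s + (1 : F) • s') A := by
      apply h1.rebase hQ
      rw [mul_one, mul_zero, sub_zero]
      exact neg_ne_zero.2 (div_ne_zero ha hb)
    rw [zero_smul, add_zero, zero_smul, zero_add, one_smul, ← h5] at h7
    exact reach_share hQ hι hdim h7 h'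

omit [FiniteDimensional F V] in
/-- **The Siegel transvection groups form a set of `F`-root subgroups of the group they generate.** -/
theorem Sg_kRootSet (hQ : QS q B) (hι : IsoGrp q ι) :
    IsKRootSubgroupSet F ((fun A : Subgroup H => A.subgroupOf (⨆ C ∈ Sg q B ι, C)) '' (Sg q B ι)) := by
  apply kRootSet_sub
  · rintro A ⟨p, r, h⟩
    exact h.rs.comm hι.inj
  · rintro A ⟨p, r, h⟩
    exact h.rs.ne_bot (Nm_ne_zero hQ h.ln)
  · rintro A ⟨p, r, h⟩ g
    exact (h.conj hQ hι g).mem
  · rintro A ⟨p, r, h⟩ A' ⟨p', r', h'⟩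
    exact h.pair hQ hι h'

end Cfsg.Agent.H743
end

-- part: H743/Siegel3
section
set_option autoImplicit false
open Cfsg

namespace Cfsg.Agent.H743

open Cfsg.Agent.H731 Cfsg.Agent.H733 Cfsg.Agent.H742

section

variable {F V H : Type*} [Field F] [AddCommGroup V] [Module F V] [FiniteDimensional F V] [Group H]
variable {q : V → F} {B : V →ₗ[F] V →ₗ[F] F} {ι : H →* Module.End F V}

theorem fix_perp_iff (hQ : QS q B) {p r : V} (h : IsLn q B p r) {f : Module.End F V}
    (hf : ∀ v, q (f v) = q v) :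
    (∀ v, B p v = 0 → B r v = 0 → f v = v) ↔ ∃ c : F, f = 1 + c • Nm B p r := by
  constructor
  · intro hfix
    have hpp := hQ.self_eq_zero h.qp
    have hrr := hQ.self_eq_zero h.qr
    have hpr := h.pr
    have hrp : B r p = 0 := by rw [hQ.symm, hpr]
    have hform : ∀ u v, B (f u) (f v) = B u v := by
      intro u v
      have h1 := hQ.add u v
      have h2 := hQ.add (f u) (f v)
      rw [← map_add, hf, hf, hf] at h2
      linear_combination h1 - h2
    obtain ⟨x0, hx0⟩ := hQ.exists_vec h.ind ![1, 0]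
    obtain ⟨y0, hy0⟩ := hQ.exists_vec h.ind ![0, 1]
    have hpx : B p x0 = 1 := hx0 0
    have hrx : B r x0 = 0 := hx0 1
    have hpy : B p y0 = 0 := hy0 0
    have hry : B r y0 = 1 := hy0 1
    -- f - 1 maps everything into the line
    have hdec : ∀ v, B p (v - (B p v) • x0 - (B r v) • y0) = 0 ∧ B r (v - (B p v) • x0 - (B r v) • y0) = 0 := by
      intro v
      constructor
      · simp [hpx, hpy]
      · simp [hrx, hry]
    have hline : ∀ v, f v - v = (B (f v - v) x0) • p + (B (f v - v) y0) • r := by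
      intro v
      have h0 : ∀ w, B p w = 0 → B r w = 0 → B (f v - v) w = 0 := by
        intro w h1 h2
        have h3 := hform v w
        rw [hfix w h1 h2] at h3
        rw [map_sub, LinearMap.sub_apply, h3, sub_self]
      have h4 : f v - v - ((B (f v - v) x0) • p + (B (f v - v) y0) • r) = 0 := by
        apply hQ.nondeg
        intro w
        obtain ⟨h5, h6⟩ := hdec w
        have h7 := h0 _ h5 h6
        rw [map_sub B, map_add B, map_smul B, map_smul B, LinearMap.sub_apply, LinearMap.add_apply,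
          LinearMap.smul_apply, LinearMap.smul_apply]
        rw [map_sub, map_sub, map_smul, map_smul] at h7
        simp only [smul_eq_mul] at h7 ⊢
        linear_combination h7
      exact sub_eq_zero.1 h4
    -- the formula for f - 1
    have hlin : ∀ v, f v - v = (B p v) • (f x0 - x0) + (B r v) • (f y0 - y0) := by
      intro v
      obtain ⟨h5, h6⟩ := hdec v
      have h7 := hfix _ h5 h6
      rw [map_sub, map_sub, map_smul, map_smul] at h7
      have h8 : f v = (v - (B p v) • x0 - (B r v) • y0) + (B p v) • f x0 + (B r v) • f y0 := by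
        rw [← h7]
        abel
      rw [h8]
      module
    -- isometry conditions
    have hself : ∀ v, B v (f v - v) = 0 := by
      intro v
      have h1 := hQ.add v (f v - v)
      rw [add_sub_cancel, hf, hline v, h.q_comb hQ, ← hline v] at h1
      linear_combination -h1
    set a := B (f x0 - x0) x0 with ha
    set b := B (f x0 - x0) y0 with hb
    set c := B (f y0 - y0) x0 with hc
    set d := B (f y0 - y0) y0 with hd
    have hx := hline x0
    have hy := hline y0
    rw [← ha, ← hb] at hx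
    rw [← hc, ← hd] at hy
    have hxp : B x0 p = 1 := by rw [hQ.symm, hpx]
    have hxr : B x0 r = 0 := by rw [hQ.symm, hrx]
    have hyp : B y0 p = 0 := by rw [hQ.symm, hpy]
    have hyr : B y0 r = 1 := by rw [hQ.symm, hry]
    have ha0 : a = 0 := by rw [ha, hQ.symm]; exact hself x0
    have hd0 : d = 0 := by rw [hd, hQ.symm]; exact hself y0
    have hbc : b + c = 0 := by
      have h1 := hself (x0 + y0)
      have h2 : f (x0 + y0) - (x0 + y0) = (f x0 - x0) + (f y0 - y0) := by
        rw [map_add]; abel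
      rw [h2, hx, hy, ha0, hd0] at h1
      simp only [map_add, map_smul, LinearMap.add_apply, smul_eq_mul, hxp, hxr, hyp, hyr] at h1
      linear_combination h1
    refine ⟨b, ?_⟩
    ext v
    rw [LinearMap.add_apply, Module.End.one_apply, LinearMap.smul_apply, Nm_apply]
    have h9 := hlin v
    rw [hx, hy, ha0, hd0] at h9
    have hc' : c = -b := by linear_combination hbc
    rw [hc'] at h9
    have h10 : f v = v + (f v - v) := by abel
    rw [h10, h9]
    module
  · rintro ⟨c, rfl⟩ v h1 h2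
    rw [LinearMap.add_apply, Module.End.one_apply, LinearMap.smul_apply, Nm_apply, h1, h2]
    simp

theorem Tg_closure (hQ : QS q B) (hι : IsoGrp q ι) {p r : V} (h : IsLn q B p r) :
    Tg q B ι p r (Subgroup.closure {σ : H | ∀ v, B p v = 0 → B r v = 0 → ι σ v = v}) := by
  obtain ⟨A, hA⟩ := exists_Tg hQ hι h
  have h1 : {σ : H | ∀ v, B p v = 0 → B r v = 0 → ι σ v = v} = (A : Set H) := by
    ext σ
    rw [SetLike.mem_coe, hA.rs.mem_iff]
    exact fix_perp_iff hQ h (hι.iso σ)
  rw [h1, Subgroup.closure_eq]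
  exact hA

theorem Sg_eq (hQ : QS q B) (hι : IsoGrp q ι) :
    {A : Subgroup H | ∃ p r : V, LinearIndependent F ![p, r] ∧ q p = 0 ∧ q r = 0 ∧ q (p + r) = 0 ∧
      A = Subgroup.closure {σ : H | ∀ v : V, q (v + p) - q v - q p = 0 → q (v + r) - q v - q r = 0 →
        ι σ v = v}} = Sg q B ι := by
  have hset : ∀ p r : V, {σ : H | ∀ v : V, q (v + p) - q v - q p = 0 → q (v + r) - q v - q r = 0 →
        ι σ v = v} = {σ : H | ∀ v, B p v = 0 → B r v = 0 → ι σ v = v} := by
    intro p r
    have h1 : ∀ v p, q (v + p) - q v - q p = B p v := by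
      intro v p
      rw [hQ.add, hQ.symm]
      ring
    simp only [h1]
  ext A
  constructor
  · rintro ⟨p, r, hind, hp, hr, hpr, rfl⟩
    have hln : IsLn q B p r := by
      refine ⟨hind, hp, hr, ?_⟩
      rw [hQ.add, hp, hr] at hpr
      simpa using hpr
    rw [hset]
    exact (Tg_closure hQ hι hln).mem
  · rintro ⟨p, r, h⟩
    refine ⟨p, r, h.ln.ind, h.ln.qp, h.ln.qr, ?_, ?_⟩
    · rw [hQ.add, h.ln.qp, h.ln.qr, h.ln.pr]
      simp
    · rw [hset]
      exact h.unique (Tg_closure hQ hι h.ln)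

end

/-! ### The plus form -/

section plus

variable (F : Type*) [Field F] (n : ℕ)

/-- The polar form of `quadFormPlus`. -/
def plusB : (Fin n ⊕ Fin n → F) →ₗ[F] (Fin n ⊕ Fin n → F) →ₗ[F] F :=
  LinearMap.mk₂ F (fun u v => ∑ i : Fin n, (u (.inl i) * v (.inr i) + u (.inr i) * v (.inl i)))
    (by
      intro u u' v
      rw [← Finset.sum_add_distrib]
      apply Finset.sum_congr rfl
      intro i _
      simp only [Pi.add_apply]
      ring)
    (by
      intro c u v
      rw [smul_eq_mul, Finset.mul_sum]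
      apply Finset.sum_congr rfl
      intro i _
      simp only [Pi.smul_apply, smul_eq_mul]
      ring)
    (by
      intro u v v'
      rw [← Finset.sum_add_distrib]
      apply Finset.sum_congr rfl
      intro i _
      simp only [Pi.add_apply]
      ring)
    (by
      intro c u v
      rw [smul_eq_mul, Finset.mul_sum]
      apply Finset.sum_congr rfl
      intro i _
      simp only [Pi.smul_apply, smul_eq_mul]
      ring)

theorem plusB_apply (u v : Fin n ⊕ Fin n → F) :
    plusB F n u v = ∑ i : Fin n, (u (.inl i) * v (.inr i) + u (.inr i) * v (.inl i)) := rfl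

theorem plus_QS : QS (quadFormPlus n F) (plusB F n) where
  add u v := by
    rw [plusB_apply]
    unfold quadFormPlus
    rw [← Finset.sum_add_distrib, ← Finset.sum_add_distrib]
    apply Finset.sum_congr rfl
    intro i _
    simp only [Pi.add_apply]
    ring
  smul c v := by
    unfold quadFormPlus
    rw [Finset.mul_sum]
    apply Finset.sum_congr rfl
    intro i _
    simp only [Pi.smul_apply, smul_eq_mul]
    ring
  nondeg u h := by
    ext j
    rcases j with j | j
    · have h1 := h (Pi.single (.inr j) 1)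
      rw [plusB_apply, Finset.sum_eq_single j] at h1
      · simpa using h1
      · intro i _ hij
        simp [hij]
      · intro hj
        exact absurd (Finset.mem_univ j) hj
    · have h1 := h (Pi.single (.inl j) 1)
      rw [plusB_apply, Finset.sum_eq_single j] at h1
      · simpa using h1
      · intro i _ hij
        simp [hij]
      · intro hj
        exact absurd (Finset.mem_univ j) hj

end plus

section iso

variable {I : Type} [Fintype I] [DecidableEq I] (F : Type*) [Field F] (q : (I → F) → F)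

/-- The natural action of the isometry group. -/
def isoι : ↥(isometryGroup F q) →* Module.End F (I → F) :=
  ((Matrix.toLinAlgEquiv' : Matrix I I F ≃ₐ[F] _) : Matrix I I F →* Module.End F (I → F)).comp
    ((Units.coeHom (Matrix I I F)).comp (isometryGroup F q).subtype)

theorem isoι_apply (σ : ↥(isometryGroup F q)) (v : I → F) :
    isoι F q σ v = ((σ : Matrix.GeneralLinearGroup I F) : Matrix I I F).mulVec v := by
  unfold isoι
  simp

theorem isoι_isoGrp : IsoGrp q (isoι F q) where
  inj := by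
    intro x y hxy
    apply Subtype.ext
    apply Units.ext
    exact (Matrix.toLinAlgEquiv' : Matrix I I F ≃ₐ[F] _).injective hxy
  iso h v := by
    rw [isoι_apply]
    exact h.2 v v
  surj f hf hq := by
    have hM : IsUnit ((Matrix.toLinAlgEquiv' : Matrix I I F ≃ₐ[F] _).symm f) := hf.map _
    obtain ⟨u, hu⟩ := hM
    have hmul : ∀ v, (u : Matrix I I F).mulVec v = f v := by
      intro v
      rw [hu, ← Matrix.toLinAlgEquiv'_apply, AlgEquiv.apply_symm_apply]
    refine ⟨⟨u, fun v w => ?_⟩, ?_⟩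
    · change q ((u : Matrix I I F).mulVec v) = q v
      rw [hmul, hq]
    · apply LinearMap.ext
      intro v
      rw [isoι_apply]
      exact hmul v

end iso

end Cfsg.Agent.H743
end

-- part: S5072
section
set_option autoImplicit false
open Matrix
open Cfsg

namespace Cfsg.Agent.S5072

/-- Let F be a field, m a natural number and V = F^{2(m+3)} with the hyperbolic quadratic form q(x, y) = Σ xᵢ yᵢ (non-degenerate, Witt index m + 3 ≥ 3). For a singular line ℓ (a 2-dimensional subspace on which q vanishes) let T(ℓ) be the group of isometries of q fixing every vector of ℓ^⊥ (the Siegel transvection group of ℓ), let Σ be the set of these groups and G₀ the subgroup they generate. Then, viewed inside G₀, the members of Σ form a set of abstract F-root subgroups of G₀ (any two commute, or are the unipotent subgroups of a rank one group that is an image of SL₂(F) with central kernel, or satisfy the commutator case), and their graph of rank one pairs is connected. -/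
theorem result (F : Type*) [Field F] (m : ℕ) :
    Cfsg.IsKRootSubgroupSet F ((fun A : Subgroup ↥(Cfsg.isometryGroup F (Cfsg.quadFormPlus (m + 3) F)) => A.subgroupOf (⨆ B ∈ {A : Subgroup ↥(Cfsg.isometryGroup F (Cfsg.quadFormPlus (m + 3) F)) | ∃ p r : Fin (m + 3) ⊕ Fin (m + 3) → F, LinearIndependent F ![p, r] ∧
          Cfsg.quadFormPlus (m + 3) F p = 0 ∧ Cfsg.quadFormPlus (m + 3) F r = 0 ∧
          Cfsg.quadFormPlus (m + 3) F (p + r) = 0 ∧
          A = Subgroup.closure {σ : ↥(Cfsg.isometryGroup F (Cfsg.quadFormPlus (m + 3) F)) | ∀ v : Fin (m + 3) ⊕ Fin (m + 3) → F,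
            Cfsg.quadFormPlus (m + 3) F (v + p) - Cfsg.quadFormPlus (m + 3) F v - Cfsg.quadFormPlus (m + 3) F p = 0 →
            Cfsg.quadFormPlus (m + 3) F (v + r) - Cfsg.quadFormPlus (m + 3) F v - Cfsg.quadFormPlus (m + 3) F r = 0 →
              ((σ : Matrix.GeneralLinearGroup (Fin (m + 3) ⊕ Fin (m + 3)) F) : Matrix (Fin (m + 3) ⊕ Fin (m + 3)) (Fin (m + 3) ⊕ Fin (m + 3)) F) *ᵥ v = v}}, B)) ''
      {A : Subgroup ↥(Cfsg.isometryGroup F (Cfsg.quadFormPlus (m + 3) F)) | ∃ p r : Fin (m + 3) ⊕ Fin (m + 3) → F, LinearIndependent F ![p, r] ∧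
          Cfsg.quadFormPlus (m + 3) F p = 0 ∧ Cfsg.quadFormPlus (m + 3) F r = 0 ∧
          Cfsg.quadFormPlus (m + 3) F (p + r) = 0 ∧
          A = Subgroup.closure {σ : ↥(Cfsg.isometryGroup F (Cfsg.quadFormPlus (m + 3) F)) | ∀ v : Fin (m + 3) ⊕ Fin (m + 3) → F,
            Cfsg.quadFormPlus (m + 3) F (v + p) - Cfsg.quadFormPlus (m + 3) F v - Cfsg.quadFormPlus (m + 3) F p = 0 →
            Cfsg.quadFormPlus (m + 3) F (v + r) - Cfsg.quadFormPlus (m + 3) F v - Cfsg.quadFormPlus (m + 3) F r = 0 →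
              ((σ : Matrix.GeneralLinearGroup (Fin (m + 3) ⊕ Fin (m + 3)) F) : Matrix (Fin (m + 3) ⊕ Fin (m + 3)) (Fin (m + 3) ⊕ Fin (m + 3)) F) *ᵥ v = v}}) ∧
    Cfsg.IsConnectedFamily (Cfsg.FAdj {A : Subgroup ↥(Cfsg.isometryGroup F (Cfsg.quadFormPlus (m + 3) F)) | ∃ p r : Fin (m + 3) ⊕ Fin (m + 3) → F, LinearIndependent F ![p, r] ∧
          Cfsg.quadFormPlus (m + 3) F p = 0 ∧ Cfsg.quadFormPlus (m + 3) F r = 0 ∧
          Cfsg.quadFormPlus (m + 3) F (p + r) = 0 ∧
          A = Subgroup.closure {σ : ↥(Cfsg.isometryGroup F (Cfsg.quadFormPlus (m + 3) F)) | ∀ v : Fin (m + 3) ⊕ Fin (m + 3) → F,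
            Cfsg.quadFormPlus (m + 3) F (v + p) - Cfsg.quadFormPlus (m + 3) F v - Cfsg.quadFormPlus (m + 3) F p = 0 →
            Cfsg.quadFormPlus (m + 3) F (v + r) - Cfsg.quadFormPlus (m + 3) F v - Cfsg.quadFormPlus (m + 3) F r = 0 →
              ((σ : Matrix.GeneralLinearGroup (Fin (m + 3) ⊕ Fin (m + 3)) F) : Matrix (Fin (m + 3) ⊕ Fin (m + 3)) (Fin (m + 3) ⊕ Fin (m + 3)) F) *ᵥ v = v}})
      {A : Subgroup ↥(Cfsg.isometryGroup F (Cfsg.quadFormPlus (m + 3) F)) | ∃ p r : Fin (m + 3) ⊕ Fin (m + 3) → F, LinearIndependent F ![p, r] ∧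
          Cfsg.quadFormPlus (m + 3) F p = 0 ∧ Cfsg.quadFormPlus (m + 3) F r = 0 ∧
          Cfsg.quadFormPlus (m + 3) F (p + r) = 0 ∧
          A = Subgroup.closure {σ : ↥(Cfsg.isometryGroup F (Cfsg.quadFormPlus (m + 3) F)) | ∀ v : Fin (m + 3) ⊕ Fin (m + 3) → F,
            Cfsg.quadFormPlus (m + 3) F (v + p) - Cfsg.quadFormPlus (m + 3) F v - Cfsg.quadFormPlus (m + 3) F p = 0 →
            Cfsg.quadFormPlus (m + 3) F (v + r) - Cfsg.quadFormPlus (m + 3) F v - Cfsg.quadFormPlus (m + 3) F r = 0 →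
              ((σ : Matrix.GeneralLinearGroup (Fin (m + 3) ⊕ Fin (m + 3)) F) : Matrix (Fin (m + 3) ⊕ Fin (m + 3)) (Fin (m + 3) ⊕ Fin (m + 3)) F) *ᵥ v = v}} := by
  have hQ := Cfsg.Agent.H743.plus_QS F (m + 3)
  have hι := Cfsg.Agent.H743.isoι_isoGrp F (Cfsg.quadFormPlus (m + 3) F)
  have hdim : 5 ≤ Module.finrank F (Fin (m + 3) ⊕ Fin (m + 3) → F) := by
    rw [Module.finrank_fintype_fun_eq_card, Fintype.card_sum, Fintype.card_fin]
    omega
  have hset := Cfsg.Agent.H743.Sg_eq hQ hι
  simp only [Cfsg.Agent.H743.isoι_apply] at hset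
  rw [hset]
  exact ⟨Cfsg.Agent.H743.Sg_kRootSet hQ hι, Cfsg.Agent.H743.Sg_connected hQ hι hdim⟩

end Cfsg.Agent.S5072
end
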