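import Cfsg.Agent.H742.HasOppOf
import Cfsg.Statements.S5073
import Cfsg.Agent.H742.CoreOf
set_option linter.all false

-- part: H743/CommCrit
section
/-!
# Quadratic pairs: the commutation criterion (S5073)

For members `E`, `F` of `Σ(G)`: `[E, F] = 1` as soon as one pair of non-identity elements commutes or a
non-identity element of `E` normalises `F`.
-/

set_option autoImplicit false
open Cfsg

namespace Cfsg.Agent.H743

open Cfsg.Agent.H740 Cfsg.Agent.H731 Cfsg.Agent.H742

variable {k : Type*} [Field k] {M : Type*} [AddCommGroup M] [Module k M] [FiniteDimensional k M]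
variable {G : Subgroup (LinearMap.GeneralLinearGroup k M)}

theorem comm_criterion (hC : Core G) (hO : HasOpp G) {E F : Subgroup (LinearMap.GeneralLinearGroup k M)}
    (hE : E ∈ quadraticRootSubgroups G) (hF : F ∈ quadraticRootSubgroups G)
    (h : (∃ e ∈ E, e ≠ 1 ∧ ∃ f ∈ F, f ≠ 1 ∧ e * f = f * e) ∨
      E ⊓ Subgroup.normalizer (F : Set (LinearMap.GeneralLinearGroup k M)) ≠ ⊥) :
    ⁅E, F⁆ = ⊥ := by
  by_cases hn : ∀ e ∈ E, ∀ f ∈ F, IsNilpotent (((e : M →ₗ[k] M) - 1) * ((f : M →ₗ[k] M) - 1))
  · by_contra hne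
    obtain ⟨⟨hL, h1, -, -, h2, -⟩, h3⟩ := unipotent_conclusion hC hO hE hF hn hne
    rcases h with ⟨e, he, he1, f, hf, hf1, hef⟩ | h
    · exact h3 e he f hf he1 hf1 hef
    · obtain ⟨y, hy⟩ := Subgroup.ne_bot_iff_exists_ne_one.1 h
      obtain ⟨x, ⟨hxE, hxN⟩⟩ := y
      have hx1 : x ≠ 1 := fun e => hy (Subtype.ext e)
      have hLF : ⁅E, F⁆ ≤ F := by
        rw [← h1 x hxE hx1, Subgroup.closure_le]
        rintro _ ⟨f, hf, rfl⟩
        have h4 : x * f * x⁻¹ ∈ F := (Subgroup.mem_normalizer_iff.1 hxN f).1 hf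
        exact F.mul_mem h4 (F.inv_mem hf)
      have hLne : ⁅E, F⁆ ≠ ⊥ := hne
      obtain ⟨z, hz1⟩ := Subgroup.ne_bot_iff_exists_ne_one.1 hLne
      have hz1' : (z : LinearMap.GeneralLinearGroup k M) ≠ 1 := fun e => hz1 (Subtype.ext e)
      have e1 := (eq_sameActionSubgroup hL hz1' z.2).2
      have e2 := (eq_sameActionSubgroup hF hz1' (hLF z.2)).2
      have e3 : ⁅E, F⁆ = F := by rw [e1]; exact e2.symm
      apply hne
      rw [eq_bot_iff, ← h2]
      have h5 : F ≤ ⁅E ⊔ F, E ⊔ F⁆ := by
        conv_lhs => rw [← e3]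
        exact Subgroup.commutator_mono le_sup_left le_sup_right
      rw [Subgroup.commutator_comm E F]
      exact Subgroup.commutator_mono h5 le_sup_left
  · exfalso
    push Not at hn
    obtain ⟨σ, hσE, τ, hτF, hστ⟩ := hn
    have hσ1 : σ ≠ 1 := by
      rintro rfl
      apply hστ
      simp
    have hτ1 : τ ≠ 1 := by
      rintro rfl
      apply hστ
      simp
    obtain ⟨hσ, rfl⟩ := eq_sameActionSubgroup hE hσ1 hσE
    obtain ⟨hτ, rfl⟩ := eq_sameActionSubgroup hF hτ1 hτF
    have hR := (rankOnePair_of_not_nilpotent hC hσ hτ hστ).1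
    rcases h with ⟨e, he, he1, f, hf, hf1, hef⟩ | h
    · rcases rankOne_commute_elem hR he hf hef with h1 | h1
      · exact he1 h1
      · exact hf1 h1
    · exact h (rankOne_inf_normalizer hR)

end Cfsg.Agent.H743
end

-- part: S5073
section
set_option autoImplicit false
universe u
open Cfsg

namespace Cfsg.Agent.S5073

/-- Let k be a field of characteristic not 2 with k not of order 3, M a finite-dimensional k-vector space and G ≤ GL(M) such that (G, M) is a quadratic pair (M irreducible for G, and G generated by its quadratically acting elements σ whose scalar family 1 + c(σ − 1), c ∈ k, lies in G). Write 𝒬_d for the quadratic elements of G of minimal commutator rank, E(σ) for the subgroup generated by the members of 𝒬_d with the same fixed space and commutator space as σ, and Σ for the set of these subgroups. Let E, F ∈ Σ. If some non-identity element of E commutes with some non-identity element of F, or some non-identity element of E normalizes F, then E and F commute elementwise. -/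
theorem result {k : Type u} [Field k] (hk2 : ringChar k ≠ 2) (hk3 : Nat.card k ≠ 3)
    {M : Type u} [AddCommGroup M] [Module k M] [FiniteDimensional k M]
    {G : Subgroup (LinearMap.GeneralLinearGroup k M)} (hG : Cfsg.IsQuadraticPair G)
    {E F : Subgroup (LinearMap.GeneralLinearGroup k M)} (hE : E ∈ Cfsg.quadraticRootSubgroups G) (hF : F ∈ Cfsg.quadraticRootSubgroups G)
    (h : (∃ e ∈ E, e ≠ 1 ∧ ∃ f ∈ F, f ≠ 1 ∧ e * f = f * e) ∨ E ⊓ Subgroup.normalizer (F : Set (LinearMap.GeneralLinearGroup k M)) ≠ ⊥) :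
    ⁅E, F⁆ = ⊥ := by
  exact Cfsg.Agent.H743.comm_criterion (Cfsg.Agent.H742.core hk2 hk3)
    (Cfsg.Agent.H742.hasOpp_of_noUnip (Cfsg.Agent.H742.core hk2 hk3)
      (Cfsg.Agent.H742.noUnip_of_irreducible hG.1)) hE hF h

end Cfsg.Agent.S5073
end
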