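import Cfsg.Statements.S5077
import Cfsg.Agent.H802.FusNorm
set_option linter.all false

set_option autoImplicit false
open Cfsg

namespace Cfsg.Agent.S5077

/-- A fusion system over a finite p-group S is saturated if and only if (Sylow axiom) every fully normalized subgroup is fully centralized and fully automized, and (extension axiom) every fully centralized subgroup is receptive. -/
theorem result {Ω : Type*} [Group Ω] {S : Subgroup Ω} [Finite S] (p : ℕ) [Fact p.Prime] (hS : IsPGroup p S) (F : Cfsg.FusionSystem S) : F.IsSaturated p ↔ ((∀ P : Subgroup Ω, F.IsFullyNormalized P → F.IsFullyCentralized P ∧ F.IsFullyAutomized p P) ∧ (∀ P : Subgroup Ω, F.IsFullyCentralized P → F.IsReceptive P)) := by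
  constructor
  · intro hF
    exact ⟨fun P hP => ⟨Cfsg.Agent.H802.isFullyCentralized_of_isFullyNormalized hS hF hP,
      Cfsg.Agent.H802.isFullyAutomized_of_isFullyNormalized hS hF hP⟩,
      fun P hP => Cfsg.Agent.H802.isReceptive_of_isFullyCentralized hS hF hP⟩
  · rintro ⟨h1, h2⟩ P hP
    have hbound : ∀ Q : Subgroup Ω, Nat.card (Cfsg.FusionSystem.normalizerIn S Q) ≤ Nat.card S :=
      fun Q => Subgroup.card_le_of_le inf_le_left
    obtain ⟨Q, hQ, hmax⟩ : ∃ Q : Subgroup Ω, F.IsConj P Q ∧ ∀ R : Subgroup Ω, F.IsConj P R →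
        Nat.card (Cfsg.FusionSystem.normalizerIn S R) ≤
          Nat.card (Cfsg.FusionSystem.normalizerIn S Q) := by
      classical
      by_contra hno
      push Not at hno
      have : ∀ n : ℕ, ∃ Q : Subgroup Ω, F.IsConj P Q ∧
          n ≤ Nat.card (Cfsg.FusionSystem.normalizerIn S Q) := by
        intro n
        induction n with
        | zero => exact ⟨P, Cfsg.Agent.H802.isConj_refl F hP, Nat.zero_le _⟩
        | succ n ih =>
          obtain ⟨Q, hQ, hn⟩ := ih
          obtain ⟨R, hR, hlt⟩ := hno Q hQ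
          exact ⟨R, hR, by omega⟩
      obtain ⟨Q, -, hn⟩ := this (Nat.card S + 1)
      have := hbound Q
      omega
    have hQn : F.IsFullyNormalized Q := ⟨Cfsg.Agent.H802.isConj_le_right hQ,
      fun R hR => hmax R (Cfsg.Agent.H802.isConj_trans hQ hR)⟩
    exact ⟨Q, hQ, (h1 Q hQn).2, h2 Q (h1 Q hQn).1⟩

end Cfsg.Agent.S5077
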