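import Cfsg.Statements.S5079
import Cfsg.Agent.H802.FusSat
set_option linter.all false

set_option autoImplicit false
open Cfsg

namespace Cfsg.Agent.S5079

/-- In any fusion system over a finite p-group S: if P is fully automized and receptive and Q is conjugate to P in the system, then there is a map of the system with source N_S(Q) and values in N_S(P) carrying Q onto P. -/
theorem result {Ω : Type*} [Group Ω] {S : Subgroup Ω} [Finite S] (p : ℕ) [Fact p.Prime] (hS : IsPGroup p S) (F : Cfsg.FusionSystem S) (P Q : Subgroup Ω) (h₁ : F.IsFullyAutomized p P) (h₂ : F.IsReceptive P) (hQ : F.IsConj Q P) : ∃ φ ∈ F.Hom (Cfsg.FusionSystem.normalizerIn S Q), (∀ x, φ x ∈ Cfsg.FusionSystem.normalizerIn S P) ∧ (Q.subgroupOf (Cfsg.FusionSystem.normalizerIn S Q)).map φ = P := by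
  obtain ⟨φ, hφ, hφP⟩ := hQ
  obtain ⟨β, hβ, ψ, hψ, he, hN⟩ := Cfsg.Agent.H802.exists_mod_extension hS hφ hφP h₁ h₂
  refine ⟨ψ, hψ, hN, ?_⟩
  have hQS : Q ≤ S := Cfsg.Agent.H802.hom_le hφ
  have hφmem : ∀ x : Q, φ x ∈ P := fun x => by
    rw [← hφP]
    exact ⟨x, rfl⟩
  ext z
  constructor
  · rintro ⟨⟨x, hx⟩, hxQ, rfl⟩
    have hxQ' : x ∈ Q := hxQ
    have := he ⟨x, hxQ'⟩ (hφmem _) hx
    rw [this]
    exact (β _).2
  · intro hz
    have hw : ((β.symm ⟨z, hz⟩ : P) : Ω) ∈ φ.range := by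
      rw [hφP]
      exact (β.symm ⟨z, hz⟩).2
    obtain ⟨x, hx⟩ := hw
    refine ⟨⟨x, Cfsg.Agent.H802.le_normalizerIn hQS x.2⟩, x.2, ?_⟩
    rw [he x (hφmem x)]
    have : (⟨φ x, hφmem x⟩ : P) = β.symm ⟨z, hz⟩ := Subtype.ext hx
    rw [this, MulEquiv.apply_symm_apply]

end Cfsg.Agent.S5079
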