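import Cfsg.Prelude.Def_FusionSystem
import Cfsg.Agent.H802.FusBasic
import Cfsg.Statements.S5094
import Cfsg.Agent.TwoFusion.IsolatedCenter
import Cfsg.Agent.S0215
set_option linter.all false

-- part: H747/GroupCenter
section
/-!
# The centre of the fusion system of a group (helper747)

`S` a Sylow `p`-subgroup of the finite group `G`, `F = F_S(G)`. An element `x` of `S` generates a central
subgroup of `F` if and only if it is isolated: the only conjugate of `x` in `S` is `x` itself.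

* `isCentral_zpowers_of_isolated`, `isolated_of_mem_isCentral`, `mem_center_iff`.
-/

set_option autoImplicit false

namespace Cfsg.Agent.H747

open Cfsg Cfsg.FusionSystem

variable {G : Type*} [Group G]

/-- An isolated element commutes with `S`. -/
theorem commute_of_isolated {S : Subgroup G} {x : G} (hx : x ∈ S)
    (hiso : ∀ g : G, g * x * g⁻¹ ∈ S → g * x * g⁻¹ = x) {s : G} (hs : s ∈ S) : s * x = x * s := by
  have := hiso s (S.mul_mem (S.mul_mem hs hx) (S.inv_mem hs))
  calc s * x = s * x * s⁻¹ * s := by group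
    _ = x * s := by rw [this]

/-- **Correction lemma.** `x ∈ S` isolated, `P ≤ S` and `g P g⁻¹ ≤ S`: some element `h` centralises `x` and
induces on `P` the same map as `g`. -/
theorem exists_correction [Finite G] {p : ℕ} [Fact p.Prime] (S : Sylow p G) {x : G} (hx : x ∈ S)
    (hiso : ∀ g : G, g * x * g⁻¹ ∈ S → g * x * g⁻¹ = x) {P : Subgroup G} (hP : P ≤ S)
    {g : G} (hg : ∀ y ∈ P, g * y * g⁻¹ ∈ S) :
    ∃ h : G, h * x * h⁻¹ = x ∧ ∀ y ∈ P, h * y * h⁻¹ = g * y * g⁻¹ := by
  classical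
  -- the centraliser of `g P g⁻¹`
  set C : Subgroup G := Subgroup.centralizer ((P.map (MulAut.conj g).toMonoidHom : Subgroup G) : Set G)
    with hC
  have hCmem : ∀ c : G, c ∈ C ↔ ∀ y ∈ P, g * y * g⁻¹ * c = c * (g * y * g⁻¹) := by
    intro c
    rw [hC, Subgroup.mem_centralizer_iff]
    constructor
    · intro h y hy
      exact h _ ⟨y, hy, by simp⟩
    · rintro h _ ⟨y, hy, rfl⟩
      simpa using h y hy
  have hxC : x ∈ C := by
    rw [hCmem]
    intro y hy
    exact commute_of_isolated hx hiso (hg y hy)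
  have hgxC : g * x * g⁻¹ ∈ C := by
    rw [hCmem]
    intro y hy
    have := commute_of_isolated hx hiso (hP hy)
    calc g * y * g⁻¹ * (g * x * g⁻¹) = g * (y * x) * g⁻¹ := by group
      _ = g * (x * y) * g⁻¹ := by rw [this]
      _ = g * x * g⁻¹ * (g * y * g⁻¹) := by group
  have hpx : ∃ k : ℕ, x ^ p ^ k = 1 := by
    obtain ⟨k, hk⟩ := S.2 ⟨x, hx⟩
    exact ⟨k, by simpa using congrArg Subtype.val hk⟩
  have hzp : ∀ y : C, (∃ k : ℕ, (y : G) ^ p ^ k = 1) → IsPGroup p (Subgroup.zpowers y) := by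
    rintro y ⟨k, hk⟩
    have h1 : orderOf y ∣ p ^ k := by
      apply orderOf_dvd_of_pow_eq_one
      ext
      simpa using hk
    rw [IsPGroup.iff_card]
    obtain ⟨m, -, hm⟩ := (Nat.dvd_prime_pow Fact.out).mp h1
    exact ⟨m, by rw [Nat.card_zpowers, hm]⟩
  obtain ⟨T, hT⟩ := (hzp ⟨x, hxC⟩ hpx).exists_le_sylow
  obtain ⟨T', hT'⟩ := (hzp ⟨g * x * g⁻¹, hgxC⟩ (by
    obtain ⟨k, hk⟩ := hpx
    exact ⟨k, by rw [conj_pow, hk]; simp⟩)).exists_le_sylow
  obtain ⟨c, hc⟩ := MulAction.exists_smul_eq C T' T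
  have h1 : (⟨x, hxC⟩ : C) ∈ (T : Subgroup C) := hT (Subgroup.mem_zpowers _)
  have h2 : c * ⟨g * x * g⁻¹, hgxC⟩ * c⁻¹ ∈ (T : Subgroup C) := by
    rw [← hc]
    exact Subgroup.smul_mem_pointwise_smul (⟨g * x * g⁻¹, hgxC⟩ : C) (MulAut.conj c)
      (T' : Subgroup C) (hT' (Subgroup.mem_zpowers _))
  -- `T` is conjugate into `S`
  have hTp : IsPGroup p ((T : Subgroup C).map C.subtype) := T.2.map _
  obtain ⟨S', hS'⟩ := hTp.exists_le_sylow
  obtain ⟨h, hh⟩ := MulAction.exists_smul_eq G S' S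
  have key : ∀ y : C, y ∈ (T : Subgroup C) → h * (y : G) * h⁻¹ ∈ S := by
    intro y hy
    have h3 : (y : G) ∈ (S' : Subgroup G) := hS' ⟨y, hy, rfl⟩
    rw [← hh]
    exact Subgroup.smul_mem_pointwise_smul (y : G) (MulAut.conj h) (S' : Subgroup G) h3
  have e1 : h * x * h⁻¹ = x := hiso h (key _ h1)
  have e2 : h * ((c : G) * (g * x * g⁻¹) * (c : G)⁻¹) * h⁻¹ ∈ S := key _ h2
  have e3 : (h * c * g) * x * (h * c * g)⁻¹ = x := by
    refine hiso _ ?_
    convert e2 using 1
    group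
  refine ⟨c * g, ?_, fun y hy => ?_⟩
  · calc (c : G) * g * x * ((c : G) * g)⁻¹ = h⁻¹ * ((h * c * g) * x * (h * c * g)⁻¹) * h := by group
      _ = h⁻¹ * x * h := by rw [e3]
      _ = h⁻¹ * (h * x * h⁻¹) * h := by rw [e1]
      _ = x := by group
  · have := (hCmem c).1 c.2 y hy
    calc (c : G) * g * y * ((c : G) * g)⁻¹ = (c * (g * y * g⁻¹)) * (c : G)⁻¹ := by group
      _ = g * y * g⁻¹ * c * (c : G)⁻¹ := by rw [← this]
      _ = g * y * g⁻¹ := by group

/-- The subgroup generated by an isolated element is central in the fusion system. -/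
theorem isCentral_zpowers_of_isolated [Finite G] {p : ℕ} [Fact p.Prime] (S : Sylow p G) {x : G}
    (hx : x ∈ S) (hiso : ∀ g : G, g * x * g⁻¹ ∈ S → g * x * g⁻¹ = x) :
    (groupFusionSystem (S : Subgroup G)).IsCentral (Subgroup.zpowers x) := by
  refine ⟨(Subgroup.zpowers_le).2 hx, ?_⟩
  rintro P φ ⟨hP, hφS, g, hg⟩
  obtain ⟨h, hh, hhP⟩ := exists_correction S hx hiso hP (g := g) (fun y hy => by
    have := hφS ⟨y, hy⟩
    rwa [hg] at this)
  have hz : ∀ z ∈ Subgroup.zpowers x, h * z * h⁻¹ = z := by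
    rintro _ ⟨k, rfl⟩
    show h * x ^ k * h⁻¹ = x ^ k
    rw [← conj_zpow, hh]
  refine ⟨conjHom (P ⊔ Subgroup.zpowers x) h, ⟨sup_le hP ((Subgroup.zpowers_le).2 hx), ?_, h,
    fun y => rfl⟩, fun y => ?_, fun y => hz y y.2⟩
  · have hle : P ⊔ Subgroup.zpowers x ≤ (S : Subgroup G).comap (MulAut.conj h).toMonoidHom := by
      refine sup_le (fun y hy => ?_) (fun y hy => ?_)
      · show h * y * h⁻¹ ∈ (S : Subgroup G)
        rw [hhP y hy, ← hg ⟨y, hy⟩]
        exact hφS ⟨y, hy⟩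
      · show h * y * h⁻¹ ∈ (S : Subgroup G)
        rw [hz y hy]
        exact (Subgroup.zpowers_le).2 hx hy
    exact fun y => hle y.2
  · rw [hg]
    exact hhP y y.2

/-- The elements of a central subgroup are isolated. -/
theorem isolated_of_mem_isCentral {S Q : Subgroup G} (hQ : (groupFusionSystem S).IsCentral Q) {x : G}
    (hx : x ∈ Q) (g : G) (hg : g * x * g⁻¹ ∈ S) : g * x * g⁻¹ = x := by
  obtain ⟨hQS, hQ⟩ := hQ
  have hxS : x ∈ S := hQS hx
  have hval : ∀ y ∈ Subgroup.zpowers x, g * y * g⁻¹ ∈ S := by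
    rintro _ ⟨k, rfl⟩
    show g * x ^ k * g⁻¹ ∈ S
    rw [← conj_zpow]
    exact S.zpow_mem hg k
  obtain ⟨ψ, hψ, h1, h2⟩ := hQ (Subgroup.zpowers x) (conjHom (Subgroup.zpowers x) g)
    ⟨(Subgroup.zpowers_le).2 hxS, fun y => hval y y.2, g, fun y => rfl⟩
  have e1 := h1 ⟨x, Subgroup.mem_zpowers x⟩
  have e2 := h2 ⟨x, hx⟩
  have e3 : (Subgroup.inclusion (le_sup_left : Subgroup.zpowers x ≤ Subgroup.zpowers x ⊔ Q)
      ⟨x, Subgroup.mem_zpowers x⟩) = Subgroup.inclusion le_sup_right ⟨x, hx⟩ := Subtype.ext rfl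
  rw [e3, e2] at e1
  exact e1.symm

end Cfsg.Agent.H747
end

-- part: S5094
section
set_option autoImplicit false
open Cfsg

namespace Cfsg.Agent.S5094

/-- Glauberman's Z*-Theorem in fusion language: for a finite group G with Sylow 2-subgroup S, the centre of the fusion system of G on S is the set of elements of S whose image in G/O(G) is central, O(G) being the largest normal subgroup of odd order. -/
theorem result {G : Type*} [Group G] [Finite G] (S : Sylow 2 G) : (Cfsg.groupFusionSystem (S : Subgroup G)).center = (S : Subgroup G) ⊓ (Subgroup.center (G ⧸ Cfsg.oddCore G)).comap (QuotientGroup.mk' (Cfsg.oddCore G)) := by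
  have hmem : ∀ x : G, (QuotientGroup.mk' (Cfsg.oddCore G)) x ∈ Subgroup.center (G ⧸ Cfsg.oddCore G) ↔
      ∀ g : G, x * g * x⁻¹ * g⁻¹ ∈ Cfsg.oddCore G := by
    intro x
    rw [Subgroup.mem_center_iff]
    constructor
    · intro h g
      rw [← QuotientGroup.ker_mk' (Cfsg.oddCore G), MonoidHom.mem_ker]
      have := h (QuotientGroup.mk' (Cfsg.oddCore G) g)
      rw [map_mul, map_mul, map_mul, map_inv, map_inv, ← this]
      group
    · intro h y
      obtain ⟨g, rfl⟩ := QuotientGroup.mk'_surjective (Cfsg.oddCore G) y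
      have := h g
      rw [← QuotientGroup.ker_mk' (Cfsg.oddCore G), MonoidHom.mem_ker] at this
      rw [map_mul, map_mul, map_mul, map_inv, map_inv] at this
      calc (QuotientGroup.mk' (Cfsg.oddCore G)) g * (QuotientGroup.mk' (Cfsg.oddCore G)) x
          = 1 * (QuotientGroup.mk' (Cfsg.oddCore G)) g * (QuotientGroup.mk' (Cfsg.oddCore G)) x := by
            group
        _ = (QuotientGroup.mk' (Cfsg.oddCore G)) x * (QuotientGroup.mk' (Cfsg.oddCore G)) g := by
            rw [← this]; group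
  apply le_antisymm
  · refine sSup_le ?_
    rintro Q (hQ : (Cfsg.groupFusionSystem (S : Subgroup G)).IsCentral Q)
    refine le_inf hQ.1 (fun x hx => ?_)
    rw [Subgroup.mem_comap, hmem]
    exact Cfsg.Agent.TwoFusion.IsolatedCenter.commutator_mem_oddCore
      (fun G _ _ P u h1 h2 h3 => Cfsg.Agent.S0215.result P u h1 h2 h3) (Nat.card G) G le_rfl S Q hQ.1
      (fun y hy g hg => Cfsg.Agent.H747.isolated_of_mem_isCentral hQ hy g hg) x hx
  · intro x hxx
    obtain ⟨hxS, hx⟩ := Subgroup.mem_inf.1 hxx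
    rw [Subgroup.mem_comap, hmem] at hx
    suffices hc : (Cfsg.groupFusionSystem (S : Subgroup G)).IsCentral (Subgroup.zpowers x) from
      (le_sSup (α := Subgroup G) (s := {Q : Subgroup G |
        (Cfsg.groupFusionSystem (S : Subgroup G)).IsCentral Q}) hc) (Subgroup.mem_zpowers x)
    refine Cfsg.Agent.H747.isCentral_zpowers_of_isolated S hxS (fun g hg => ?_)
    have h1 : x * g * x⁻¹ * g⁻¹ ∈ (S : Subgroup G) := by
      have h2 := (S : Subgroup G).mul_mem hxS ((S : Subgroup G).inv_mem hg)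
      have h3 : x * (g * x * g⁻¹)⁻¹ = x * g * x⁻¹ * g⁻¹ := by group
      rwa [h3] at h2
    have hdis : (S : Subgroup G) ⊓ Cfsg.oddCore G = ⊥ := by
      have hO : (Nat.card (Cfsg.oddCore G)).Coprime 2 := Cfsg.Agent.Lib.Cores.pPrimeCore_coprime 2
      obtain ⟨k, hk⟩ := S.2.exists_card_eq
      refine (Subgroup.disjoint_of_coprime_natCard ?_).eq_bot
      have hk' : Nat.card (S : Subgroup G) = 2 ^ k := hk
      rw [hk']
      exact Nat.Coprime.pow_left k hO.symm
    have h4 : x * g * x⁻¹ * g⁻¹ ∈ (S : Subgroup G) ⊓ Cfsg.oddCore G := ⟨h1, hx g⟩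
    rw [hdis, Subgroup.mem_bot] at h4
    calc g * x * g⁻¹ = (x * g * x⁻¹ * g⁻¹)⁻¹ * x := by group
      _ = x := by rw [h4]; group

end Cfsg.Agent.S5094
end
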