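import Cfsg.Prelude.Def_Solvable
import Cfsg.Statements.S5105
set_option linter.all false

-- part: H799/Rigid
section
/-!
# Automorphisms fixing a Sylow subgroup pointwise (helper799)

`rigid` : `Q` a normal `p`-subgroup of the finite group `G` with `C_G(Q) ≤ Q`, `T` a Sylow `p`-subgroup, `ψ` an
automorphism of `G` fixing `T` elementwise. Then `ψ` is conjugation by an element of `Z(T)` (in `C_G(Q)`).
-/

set_option autoImplicit false
set_option linter.style.haveILetI false

namespace Cfsg.Agent.H799.Rigid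

open Subgroup

variable {G : Type*} [Group G]

theorem normal_le_sylow {p : ℕ} [Fact p.Prime] (T : Sylow p G) {Q : Subgroup G} (hn : Q.Normal) (hQ : IsPGroup p Q) :
    Q ≤ (T : Subgroup G) := by
  have h1 : IsPGroup p (Q ⊔ (T : Subgroup G) : Subgroup G) := hQ.to_sup_of_normal_left T.2
  have h3 := T.3 h1 le_sup_right
  rw [← h3]; exact le_sup_left

theorem rigid [Finite G] {p : ℕ} [Fact p.Prime] (T : Sylow p G) {Q : Subgroup G} (hn : Q.Normal) (hQ : IsPGroup p Q)
    (hC : centralizer (Q : Set G) ≤ Q) (ψ : G ≃* G) (hψ : ∀ x ∈ (T : Subgroup G), ψ x = x) :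
    ∃ z ∈ centralizer (Q : Set G), z ∈ (T : Subgroup G) ∧ (∀ s ∈ (T : Subgroup G), z * s = s * z) ∧
      ∀ g : G, ψ g = z * g * z⁻¹ := by
  have hQT : Q ≤ (T : Subgroup G) := normal_le_sylow T hn hQ
  -- the action on `Q`
  have hact : ∀ (g : G) (x : G), x ∈ Q → ψ g * x * (ψ g)⁻¹ = g * x * g⁻¹ := by
    intro g x hx
    have h1 := hψ _ (hQT (hn.conj_mem x hx g))
    rw [map_mul, map_mul, map_inv, hψ x (hQT hx)] at h1
    exact h1
  let A : Subgroup G := centralizer (Q : Set G)
  have hAQ : A ≤ Q := hC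
  have hcA : ∀ g : G, ψ g * g⁻¹ ∈ A := by
    intro g
    rw [mem_centralizer_iff]
    intro x hx
    have h1 : g⁻¹ * x * g ∈ Q := by
      have := hn.conj_mem x hx g⁻¹
      rwa [inv_inv] at this
    have h2 := hact g _ h1
    have h3 : g * (g⁻¹ * x * g) * g⁻¹ = x := by group
    rw [h3] at h2
    calc x * (ψ g * g⁻¹) = (ψ g * (g⁻¹ * x * g) * (ψ g)⁻¹) * (ψ g * g⁻¹) := by rw [h2]
      _ = ψ g * g⁻¹ * x := by group
  have hAcomm : ∀ a b : A, a * b = b * a := by
    intro a b
    apply Subtype.ext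
    exact (mem_centralizer_iff.1 a.2 b (hAQ b.2)).symm
  letI : CommGroup A := { (inferInstance : Group A) with mul_comm := hAcomm }
  have hAconj : ∀ (g : G) (a : A), g * (a : G) * g⁻¹ ∈ A := by
    intro g a
    rw [mem_centralizer_iff]
    intro x hx
    have h1 : g⁻¹ * x * g ∈ Q := by
      have := hn.conj_mem x hx g⁻¹
      rwa [inv_inv] at this
    have h2 := mem_centralizer_iff.1 a.2 _ h1
    calc x * (g * (a : G) * g⁻¹) = g * ((g⁻¹ * x * g) * a) * g⁻¹ := by group
      _ = g * (a * (g⁻¹ * x * g)) * g⁻¹ := by rw [h2]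
      _ = g * (a : G) * g⁻¹ * x := by group
  -- conjugation on `A`
  let κ : G → A →* A := fun g =>
    { toFun := fun a => ⟨g * a * g⁻¹, hAconj g a⟩
      map_one' := Subtype.ext (by show g * 1 * g⁻¹ = 1; group)
      map_mul' := fun a b => Subtype.ext (by
        show g * ((a : G) * b) * g⁻¹ = g * a * g⁻¹ * (g * b * g⁻¹); group) }
  let c : G → A := fun g => ⟨ψ g * g⁻¹, hcA g⟩
  have hc1 : ∀ (g s : G), s ∈ (T : Subgroup G) → c (g * s) = c g := by
    intro g s hs
    apply Subtype.ext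
    show ψ (g * s) * (g * s)⁻¹ = ψ g * g⁻¹
    rw [map_mul, hψ s hs]
    group
  have hc2 : ∀ h g : G, c (h * g) = κ h (c g) * c h := by
    intro h g
    apply Subtype.ext
    show ψ (h * g) * (h * g)⁻¹ = h * (ψ g * g⁻¹) * h⁻¹ * (ψ h * h⁻¹)
    rw [← hact h _ (hAQ (hcA g)), map_mul]
    group
  let C : G ⧸ (T : Subgroup G) → A := fun q => Quotient.liftOn' q c (by
    intro a b hab
    rw [QuotientGroup.leftRel_apply] at hab
    have h1 := hc1 a _ hab
    rw [mul_inv_cancel_left] at h1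
    exact h1.symm)
  have hCmk : ∀ g : G, C (QuotientGroup.mk g) = c g := fun g => rfl
  haveI : Fintype (G ⧸ (T : Subgroup G)) := Fintype.ofFinite _
  let w : A := ∏ q : G ⧸ (T : Subgroup G), C q
  have hw : ∀ h : G, w = κ h w * (c h) ^ (T : Subgroup G).index := by
    intro h
    have h1 : w = ∏ q : G ⧸ (T : Subgroup G), C (h • q) :=
      (Equiv.prod_comp (MulAction.toPerm h : Equiv.Perm (G ⧸ (T : Subgroup G))) C).symm
    have h2 : ∀ q : G ⧸ (T : Subgroup G), C (h • q) = κ h (C q) * c h := by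
      intro q
      induction q using QuotientGroup.induction_on with
      | H g => exact hc2 h g
    calc w = ∏ q : G ⧸ (T : Subgroup G), C (h • q) := h1
      _ = ∏ q : G ⧸ (T : Subgroup G), (κ h (C q) * c h) := Finset.prod_congr rfl (fun q _ => h2 q)
      _ = κ h w * (c h) ^ (T : Subgroup G).index := by
        rw [Finset.prod_mul_distrib, Finset.prod_const, Finset.card_univ, ← map_prod, ← Nat.card_eq_fintype_card]
        rfl
  -- the exponent
  have hAp : IsPGroup p A := hQ.to_le hAQ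
  obtain ⟨n, hn'⟩ := hAp.exists_card_eq
  have hcop : Nat.Coprime (T : Subgroup G).index (Nat.card A) := by
    rw [hn']
    exact Nat.Coprime.pow_right n ((Nat.Prime.coprime_iff_not_dvd Fact.out).2 T.not_dvd_index).symm
  obtain ⟨k, hk⟩ : ∃ k : ℕ, ∀ a : A, (a ^ (T : Subgroup G).index) ^ k = a := by
    let e := powCoprime (G := A) hcop.symm
    have hfin : Finite A := inferInstance
    have hord := Nat.exists_mul_mod_eq_one_of_coprime hcop
    by_cases h1 : 1 < Nat.card A
    · obtain ⟨k, hk, hk'⟩ := hord h1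
      refine ⟨k, fun a => ?_⟩
      rw [← pow_mul, ← Nat.div_add_mod ((T : Subgroup G).index * k) (Nat.card A), pow_add, pow_mul, pow_card_eq_one',
        one_pow, one_mul, hk', pow_one]
    · have h2 : Nat.card A = 1 := by
        have := Nat.card_pos (α := A)
        omega
      have h3 : Subsingleton A := (Nat.card_eq_one_iff_unique.1 h2).1
      exact ⟨1, fun a => Subsingleton.elim _ _⟩
  refine ⟨(w ^ k : A), (w ^ k : A).2, hQT (hAQ (w ^ k : A).2), ?_, ?_⟩
  all_goals
    have hmain : ∀ g : G, ψ g = ((w ^ k : A) : G) * g * ((w ^ k : A) : G)⁻¹ := by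
      intro h
      have h1 : (c h) ^ (T : Subgroup G).index = w * (κ h w)⁻¹ := by
        have := hw h
        rw [mul_comm] at this
        exact eq_mul_inv_of_mul_eq this.symm
      have h2 : c h = w ^ k * (κ h (w ^ k))⁻¹ := by
        rw [← hk (c h), h1, mul_pow, map_pow, inv_pow]
      have h3 : ψ h * h⁻¹ = ((w ^ k : A) : G) * (h * ((w ^ k : A) : G) * h⁻¹)⁻¹ := congrArg Subtype.val h2
      calc ψ h = ψ h * h⁻¹ * h := by group
        _ = ((w ^ k : A) : G) * (h * ((w ^ k : A) : G) * h⁻¹)⁻¹ * h := by rw [h3]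
        _ = _ := by group
  · intro s hs
    have h1 := hmain s
    rw [hψ s hs] at h1
    rw [eq_mul_inv_iff_mul_eq] at h1
    exact h1.symm
  · exact hmain

theorem pCore_normal (G : Type*) [Group G] (p : ℕ) : (Cfsg.pCore p G).Normal := by
  unfold Cfsg.pCore
  refine ⟨fun n hn g => ?_⟩
  have hle : sSup {N : Subgroup G | N.Normal ∧ IsPGroup p N} ≤
      (sSup {N : Subgroup G | N.Normal ∧ IsPGroup p N}).comap (MulAut.conj g).toMonoidHom := by
    refine sSup_le ?_
    intro N hN x hx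
    exact (le_sSup hN : N ≤ _) (hN.1.conj_mem x hx g)
  exact hle hn

theorem isPGroup_pCore [Finite G] {p : ℕ} [Fact p.Prime] : IsPGroup p (Cfsg.pCore p G) := by
  obtain ⟨R⟩ : Nonempty (Sylow p G) := inferInstance
  refine R.2.to_le (sSup_le ?_)
  rintro N ⟨hN, hNp⟩
  exact normal_le_sylow R hN hNp

end Cfsg.Agent.H799.Rigid
end

-- part: S5105
section
set_option autoImplicit false
open Cfsg

namespace Cfsg.Agent.S5105

/-- Model Theorem, rigidity: if G is a model of a constrained fusion system over a finite p-group S (through ι : S → G), then every automorphism of G fixing ι(S) elementwise is conjugation by ι(z) for some z in the centre of S. -/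
theorem result {Ω : Type*} [Group Ω] {S : Subgroup Ω} [Finite S] (p : ℕ) [Fact p.Prime] (hS : IsPGroup p S) (F : Cfsg.FusionSystem S) (hF : F.IsConstrained p) {G : Type*} [Group G] (ι : S →* G) (hG : F.IsModel p G ι) (ψ : G ≃* G) (hψ : ∀ x : S, ψ (ι x) = ι x) : ∃ z : S, z ∈ Subgroup.center S ∧ ∀ g : G, ψ g = ι z * g * (ι z)⁻¹ := by
  obtain ⟨hfin, hreal, ⟨T, hT⟩, hC⟩ := hG
  obtain ⟨z, -, hzT, hzs, hz⟩ := Cfsg.Agent.H799.Rigid.rigid T (Cfsg.Agent.H799.Rigid.pCore_normal G p)
    Cfsg.Agent.H799.Rigid.isPGroup_pCore hC ψ (by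
      intro x hx
      rw [hT] at hx
      obtain ⟨y, rfl⟩ := hx
      exact hψ y)
  rw [hT] at hzT
  obtain ⟨y, rfl⟩ := hzT
  refine ⟨y, ?_, hz⟩
  rw [Subgroup.mem_center_iff]
  intro s
  apply hreal.1
  rw [map_mul, map_mul]
  exact (hzs (ι s) (by rw [hT]; exact ⟨s, rfl⟩)).symm

end Cfsg.Agent.S5105
end
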