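import Cfsg.Statements.S5107
import Cfsg.Agent.H973.FusGrpAux
set_option linter.all false

set_option autoImplicit false
open Cfsg

namespace Cfsg.Agent.S5107

/-- If a Sylow p-subgroup S of a finite group G has nilpotency class at most two and its centre is strongly closed in S with respect to G, then every map of the fusion system of G on S is conjugation by an element of N_G(S), and S is the largest subgroup normal in that fusion system. -/
theorem result {G : Type*} [Group G] [Finite G] (p : ℕ) [Fact p.Prime] (S : Sylow p G) (hcl : ⁅(S : Subgroup G), (S : Subgroup G)⁆ ≤ (S : Subgroup G) ⊓ Subgroup.centralizer ((S : Subgroup G) : Set G)) (hZ : Cfsg.IsStronglyClosed ((S : Subgroup G) ⊓ Subgroup.centralizer ((S : Subgroup G) : Set G)) (S : Subgroup G)) : (∀ (P : Subgroup G) (φ : P →* G), φ ∈ (Cfsg.groupFusionSystem (S : Subgroup G)).Hom P → ∃ g ∈ Subgroup.normalizer ((S : Subgroup G) : Set G), ∀ x : P, φ x = g * (x : G) * g⁻¹) ∧ (Cfsg.groupFusionSystem (S : Subgroup G)).core = S := by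
  classical
  set F := Cfsg.groupFusionSystem (S : Subgroup G) with hFdef
  have hSp : IsPGroup p (S : Subgroup G) := S.isPGroup'
  have hF : F.IsSaturated p := Cfsg.Agent.H802.groupFusionSystem_isSaturated S
  set Z : Subgroup G := (S : Subgroup G) ⊓ Subgroup.centralizer ((S : Subgroup G) : Set G) with hZdef
  have hZsc : F.StronglyClosed Z := by
    refine ⟨inf_le_left, ?_⟩
    rintro R hR φ ⟨-, hφ, g, hg⟩ x
    rw [hg]
    refine hZ.2 x (hR x.2) g ?_
    rw [← hg]
    exact hφ x
  have hn : F.IsNormal (S : Subgroup G) := by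
    refine Cfsg.Agent.H759.isNormal_of_chain hSp hF 2
      (fun i => if i = 0 then ⊥ else if i = 1 then Z else (S : Subgroup G)) (by simp) (by simp) ?_ ?_
    · intro i hi
      interval_cases i
      · exact Cfsg.Agent.H759.StronglyClosed.bot
      · exact hZsc
      · exact Cfsg.Agent.H759.StronglyClosed.top
    · intro i hi
      interval_cases i
      · show ⁅(S : Subgroup G), Z⁆ ≤ ⊥
        rw [le_bot_iff, Subgroup.commutator_eq_bot_iff_le_centralizer]
        intro x hx y hy
        exact (hy.2 x hx).symm
      · show ⁅(S : Subgroup G), (S : Subgroup G)⁆ ≤ Z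
        exact hcl
  refine ⟨?_, ?_⟩
  · intro P φ hφ
    obtain ⟨ψ, hψ, h1, h2⟩ := hn.2 P φ hφ
    obtain ⟨hle, hval, g, hg⟩ := hψ
    refine ⟨g, ?_, fun x => ?_⟩
    · have hmem : ∀ x ∈ (S : Subgroup G), g * x * g⁻¹ ∈ (S : Subgroup G) := by
        intro x hx
        have := hval ⟨x, (le_sup_right : (S : Subgroup G) ≤ P ⊔ S) hx⟩
        rw [hg] at this
        exact this
      have hle' : (S : Subgroup G).map (MulAut.conj g).toMonoidHom ≤ (S : Subgroup G) := by
        rintro _ ⟨x, hx, rfl⟩
        exact hmem x hx
      have heq : (S : Subgroup G).map (MulAut.conj g).toMonoidHom = (S : Subgroup G) := by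
        apply Subgroup.eq_of_le_of_card_ge hle'
        rw [Cfsg.Agent.H802.card_map_conj]
      rw [Subgroup.mem_normalizer_iff]
      intro x
      refine ⟨fun hx => hmem x hx, fun hx => ?_⟩
      have hx' : g * x * g⁻¹ ∈ (S : Subgroup G).map (MulAut.conj g).toMonoidHom := by
        rw [heq]; exact hx
      obtain ⟨y, hy, hyx⟩ := hx'
      have : g * y * g⁻¹ = g * x * g⁻¹ := hyx
      have : y = x := mul_left_cancel (mul_right_cancel this)
      rwa [← this]
    · rw [← h1 x, hg]
      rfl
  · apply le_antisymm
    · exact Cfsg.Agent.H759.isNormal_core.1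
    · exact Cfsg.Agent.H759.IsNormal.le_core hn

end Cfsg.Agent.S5107
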