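import Cfsg.Agent.H752.Ext
import Cfsg.Agent.H802.FusGroup
import Cfsg.Agent.Lib.Cores
import Cfsg.Agent.H802.FusNormalSub
import Mathlib.GroupTheory.Focal
import Cfsg.Statements.S5121
set_option linter.all false

-- part: H752/ConstrA
section
/-!
# Normal subsystems of the fusion system of a group with `C_G(O_p(G)) ≤ O_p(G)`: first part (helper752)

`CDat p S T Q E` collects what is used of `E ⊴ F_S(G)` over `T` with `Q = O_p(G)`.
-/

set_option autoImplicit false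
set_option linter.unusedSectionVars false

namespace Cfsg.Agent.H752

open Cfsg Cfsg.FusionSystem
open scoped commutatorElement

/-- A normal subsystem `E` over `T` of the fusion system of `G`, with `Q = O_p(G)` self-centralizing. -/
structure CDat {G : Type*} [Group G] (p : ℕ) (S T Q : Subgroup G) (E : FusionSystem T) : Prop where
  syl : H802.SylIn p S ⊤
  normal : Q.Normal
  pgroup : IsPGroup p Q
  max : ∀ N : Subgroup G, N.Normal → IsPGroup p N → N ≤ Q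
  cent : Subgroup.centralizer (Q : Set G) ≤ Q
  QS : Q ≤ S
  le : T ≤ S
  sat : E.IsSaturated p
  sub : ∀ (P : Subgroup G) (f : G → G), Mp E P f → ∃ g : G, ∀ x ∈ P, f x = g * x * g⁻¹
  closed : ∀ (g x : G), x ∈ T → g * x * g⁻¹ ∈ S → g * x * g⁻¹ ∈ T
  inv : ∀ (P : Subgroup G) (f : G → G) (g : G), Mp E P f → (∀ x ∈ P, f x ∈ P) →
    (∀ x ∈ P, g * x * g⁻¹ ∈ P) → Mp E P (fun y => g * f (g⁻¹ * y * g) * g⁻¹)
  ext : ∀ a, Mp E T a → ∃ g : G, (∀ x ∈ T, a x = g * x * g⁻¹) ∧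
    ∀ c ∈ centralizerIn S T, c⁻¹ * (g * c * g⁻¹) ∈ T ⊓ Subgroup.centralizer (T : Set G)

/-- `g` commutes with `Q` modulo `Q ∩ T`. -/
def InC {G : Type*} [Group G] (Q T : Subgroup G) (g : G) : Prop :=
  ∀ q ∈ Q, g * q * g⁻¹ * q⁻¹ ∈ Q ⊓ T

/-- The automorphism `α` of `P` is conjugation by `g`. -/
def Ind {G : Type*} [Group G] {P : Subgroup G} (g : G) (α : MulAut P) : Prop :=
  ∀ (x : G) (hx : x ∈ P), ((α ⟨x, hx⟩ : P) : G) = g * x * g⁻¹

section ind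

variable {G : Type*} [Group G] {P : Subgroup G}

theorem Ind.one : Ind (1 : G) (1 : MulAut P) := by
  intro x hx
  show x = _
  simp

theorem Ind.mul {g h : G} {α β : MulAut P} (h1 : Ind g α) (h2 : Ind h β) :
    Ind (g * h) (α * β) := by
  intro x hx
  rw [MulAut.mul_apply]
  have h3 := h1 _ (β ⟨x, hx⟩).2
  have h4 : (⟨((β ⟨x, hx⟩ : P) : G), (β ⟨x, hx⟩).2⟩ : P) = β ⟨x, hx⟩ := rfl
  rw [h4] at h3
  rw [h3, h2 x hx]
  group

theorem Ind.inv {g : G} {α : MulAut P} (h : Ind g α) : Ind g⁻¹ α⁻¹ := by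
  intro x hx
  have h1 := h _ (α⁻¹ ⟨x, hx⟩).2
  have h2 : (α ⟨((α⁻¹ ⟨x, hx⟩ : P) : G), (α⁻¹ ⟨x, hx⟩).2⟩ : P) = ⟨x, hx⟩ := by
    show α (α⁻¹ ⟨x, hx⟩) = _
    rw [MulAut.apply_inv_self]
  rw [h2] at h1
  have h3 : x = g * ((α⁻¹ ⟨x, hx⟩ : P) : G) * g⁻¹ := h1
  have h4 : g⁻¹ * x * g⁻¹⁻¹ = g⁻¹ * (g * ((α⁻¹ ⟨x, hx⟩ : P) : G) * g⁻¹) * g⁻¹⁻¹ := by rw [← h3]
  rw [h4]
  group

theorem Ind.pow {g : G} {α : MulAut P} (h : Ind g α) (n : ℕ) : Ind (g ^ n) (α ^ n) := by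
  induction n with
  | zero => rw [pow_zero, pow_zero]; exact Ind.one
  | succ n ih => rw [pow_succ, pow_succ]; exact ih.mul h

theorem Ind.zpow {g : G} {α : MulAut P} (h : Ind g α) (n : ℤ) : Ind (g ^ n) (α ^ n) := by
  cases n with
  | ofNat n => rw [Int.ofNat_eq_natCast, zpow_natCast, zpow_natCast]; exact h.pow n
  | negSucc n => rw [zpow_negSucc, zpow_negSucc]; exact (h.pow _).inv

theorem Ind.unique {g : G} {α β : MulAut P} (h : Ind g α) (h' : Ind g β) : α = β := by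
  apply MulEquiv.ext
  intro x
  exact Subtype.ext ((h x x.2).trans (h' x x.2).symm)

/-- An inducing element of order prime to `p`, for an automorphism of order prime to `p`. -/
theorem Ind.exists_coprime [Finite G] {p : ℕ} [Fact p.Prime] {g : G} {α : MulAut P}
    (h : Ind g α) (hα : Nat.Coprime (orderOf α) p) :
    ∃ j : ℤ, Ind (g ^ j) α ∧ Nat.Coprime (orderOf (g ^ j)) p := by
  obtain ⟨a, b, hab, ⟨k, hk⟩, hb⟩ := TwoFusion.PResidual.exists_pPart_mul_pPrimePart p g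
  refine ⟨b, ?_, hb⟩
  have h1 := h.zpow a
  have h2 := h.zpow b
  have h3 : α = α ^ a * α ^ b := by
    have h4 := h1.mul h2
    rw [← hab] at h4
    exact h.unique h4
  have h5 : α ^ a = 1 := by
    rw [← orderOf_eq_one_iff]
    have h6 : orderOf (α ^ a) ∣ p ^ k := by
      apply orderOf_dvd_of_pow_eq_one
      have h8 := h1.pow (p ^ k)
      rw [← hk, pow_orderOf_eq_one] at h8
      rw [← hk]
      exact h8.unique Ind.one
    have h7 : orderOf (α ^ a) ∣ orderOf α := orderOf_dvd_of_mem_zpowers ⟨a, rfl⟩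
    exact Nat.eq_one_of_dvd_coprimes (Nat.Coprime.pow_right k hα) h7 h6
  rw [h5, one_mul] at h3
  rw [← h3] at h2
  exact h2

end ind

namespace CDat

variable {G : Type*} [Group G] [Finite G] {p : ℕ} [Fact p.Prime] {S T Q : Subgroup G}
  {E : FusionSystem T}

theorem isPGroupT (D : CDat p S T Q E) : IsPGroup p T := D.syl.isPGroup.to_le D.le

theorem T_conj (D : CDat p S T Q E) {s t : G} (hs : s ∈ S) (ht : t ∈ T) : s * t * s⁻¹ ∈ T :=
  D.closed s t ht (mul_mem (mul_mem hs (D.le ht)) (S.inv_mem hs))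

theorem Q0_conj (D : CDat p S T Q E) (g : G) {x : G} (hx : x ∈ Q ⊓ T) : g * x * g⁻¹ ∈ Q ⊓ T :=
  ⟨D.normal.conj_mem x hx.1 g, D.closed g x hx.2 (D.QS (D.normal.conj_mem x hx.1 g))⟩

theorem Q0_normal (D : CDat p S T Q E) : (Q ⊓ T).Normal := ⟨fun _ hx g => D.Q0_conj g hx⟩

theorem Q0_conj' (D : CDat p S T Q E) (g : G) {x : G} (hx : x ∈ Q ⊓ T) : g⁻¹ * x * g ∈ Q ⊓ T := by
  have := D.Q0_conj g⁻¹ hx
  rwa [inv_inv] at this

/-! ### The group `C` -/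

theorem inC_one : InC Q T (1 : G) := by
  intro q _
  have : (1 : G) * q * 1⁻¹ * q⁻¹ = 1 := by group
  rw [this]
  exact one_mem _

theorem inC_mul (D : CDat p S T Q E) {a b : G} (ha : InC Q T a) (hb : InC Q T b) :
    InC Q T (a * b) := by
  intro q hq
  have h1 : a * b * q * (a * b)⁻¹ * q⁻¹ =
      (a * (b * q * b⁻¹ * q⁻¹) * a⁻¹) * (a * q * a⁻¹ * q⁻¹) := by group
  rw [h1]
  exact mul_mem (D.Q0_conj a (hb q hq)) (ha q hq)

theorem inC_inv (D : CDat p S T Q E) {a : G} (ha : InC Q T a) : InC Q T a⁻¹ := by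
  intro q hq
  have h1 : a⁻¹ * q * a⁻¹⁻¹ * q⁻¹ = a⁻¹ * (a * q * a⁻¹ * q⁻¹)⁻¹ * a := by group
  rw [h1]
  exact D.Q0_conj' a ((Q ⊓ T).inv_mem (ha q hq))

theorem inC_conj (D : CDat p S T Q E) {a : G} (ha : InC Q T a) (g : G) :
    InC Q T (g * a * g⁻¹) := by
  intro q hq
  have hq' : g⁻¹ * q * g ∈ Q := by
    have := D.normal.conj_mem q hq g⁻¹
    rwa [inv_inv] at this
  have h1 : g * a * g⁻¹ * q * (g * a * g⁻¹)⁻¹ * q⁻¹ =
      g * (a * (g⁻¹ * q * g) * a⁻¹ * (g⁻¹ * q * g)⁻¹) * g⁻¹ := by group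
  rw [h1]
  exact D.Q0_conj g (ha _ hq')

theorem inC_T (D : CDat p S T Q E) {t : G} (ht : t ∈ T) : InC Q T t := by
  intro q hq
  refine ⟨mul_mem (D.normal.conj_mem q hq t) (Q.inv_mem hq), ?_⟩
  have h1 : t * q * t⁻¹ * q⁻¹ = t * (q * t⁻¹ * q⁻¹) := by group
  rw [h1]
  exact mul_mem ht (D.T_conj (D.QS hq) (T.inv_mem ht))

/-- An element of `C` acting on `Q ∩ T` as an element of `Q` lies in `Q`. -/
theorem mem_Q (D : CDat p S T Q E) {x q : G} (hx : InC Q T x) (hq : q ∈ Q)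
    (h : ∀ z ∈ Q ⊓ T, x * z * x⁻¹ = q * z * q⁻¹) : x ∈ Q := by
  let N : Subgroup G :=
    { carrier := {x | InC Q T x ∧ ∃ q ∈ Q, ∀ z ∈ Q ⊓ T, x * z * x⁻¹ = q * z * q⁻¹}
      one_mem' := ⟨inC_one, 1, one_mem _, fun z _ => rfl⟩
      mul_mem' := by
        rintro a b ⟨ha, qa, hqa, h1⟩ ⟨hb, qb, hqb, h2⟩
        refine ⟨D.inC_mul ha hb, qa * qb, mul_mem hqa hqb, fun z hz => ?_⟩
        have h3 : a * b * z * (a * b)⁻¹ = a * (b * z * b⁻¹) * a⁻¹ := by group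
        rw [h3, h2 z hz, h1 _ (D.Q0_conj qb hz)]
        group
      inv_mem' := by
        rintro a ⟨ha, qa, hqa, h1⟩
        refine ⟨D.inC_inv ha, qa⁻¹, Q.inv_mem hqa, fun z hz => ?_⟩
        have h2 := h1 _ (D.Q0_conj' qa hz)
        have h3 : qa * (qa⁻¹ * z * qa) * qa⁻¹ = z := by group
        rw [h3] at h2
        calc a⁻¹ * z * a⁻¹⁻¹ = a⁻¹ * (a * (qa⁻¹ * z * qa) * a⁻¹) * a⁻¹⁻¹ := by rw [h2]
          _ = qa⁻¹ * z * qa⁻¹⁻¹ := by group }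
  have hN : N.Normal := by
    refine ⟨?_⟩
    rintro a ⟨ha, qa, hqa, h1⟩ g
    refine ⟨D.inC_conj ha g, g * qa * g⁻¹, D.normal.conj_mem qa hqa g, fun z hz => ?_⟩
    have h2 := h1 _ (D.Q0_conj' g hz)
    calc g * a * g⁻¹ * z * (g * a * g⁻¹)⁻¹ = g * (a * (g⁻¹ * z * g) * a⁻¹) * g⁻¹ := by group
      _ = g * (qa * (g⁻¹ * z * g) * qa⁻¹) * g⁻¹ := by rw [h2]
      _ = g * qa * g⁻¹ * z * (g * qa * g⁻¹)⁻¹ := by group
  obtain ⟨m, hm⟩ := IsPGroup.iff_card.1 D.pgroup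
  have hexp : ∀ q ∈ Q, q ^ p ^ m = 1 := by
    intro q hq
    have h1 : (⟨q, hq⟩ : Q) ^ Nat.card Q = 1 := pow_card_eq_one'
    rw [hm] at h1
    exact congrArg Subtype.val h1
  have hNp : IsPGroup p N := by
    rintro ⟨x, hx, q, hq, hxq⟩
    have hpow : ∀ n : ℕ, ∀ z ∈ Q ⊓ T, x ^ n * z * (x ^ n)⁻¹ = q ^ n * z * (q ^ n)⁻¹ := by
      intro n
      induction n with
      | zero => intro z _; simp
      | succ n ih =>
        intro z hz
        have h1 : x ^ (n + 1) * z * (x ^ (n + 1))⁻¹ = x ^ n * (x * z * x⁻¹) * (x ^ n)⁻¹ := by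
          rw [pow_succ]; group
        rw [h1, hxq z hz, ih _ (D.Q0_conj q hz), pow_succ]
        group
    have hCpow : ∀ n : ℕ, InC Q T (x ^ n) := by
      intro n
      induction n with
      | zero => rw [pow_zero]; exact inC_one
      | succ n ih => rw [pow_succ]; exact D.inC_mul ih hx
    set y := x ^ p ^ m with hy
    have hyc : ∀ z ∈ Q ⊓ T, y * z * y⁻¹ = z := by
      intro z hz
      rw [hpow _ z hz, hexp q hq]
      simp
    have hyC : InC Q T y := hCpow _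
    have hyQ : y ^ p ^ m ∈ Subgroup.centralizer (Q : Set G) := by
      refine Subgroup.mem_centralizer_iff.2 fun w hw => ?_
      have ha := hyC w hw
      set a := y * w * y⁻¹ * w⁻¹ with hadef
      have hya : y * a * y⁻¹ = a := hyc a ha
      have hywa : y * w * y⁻¹ = a * w := by rw [hadef]; group
      have hyw : ∀ n : ℕ, y ^ n * w * (y ^ n)⁻¹ = a ^ n * w := by
        intro n
        induction n with
        | zero => simp
        | succ n ih =>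
          have h1 : y ^ (n + 1) * w * (y ^ (n + 1))⁻¹ = y * (y ^ n * w * (y ^ n)⁻¹) * y⁻¹ := by
            rw [pow_succ']; group
          have h2 : y * (a ^ n * w) * y⁻¹ = (y * a * y⁻¹) ^ n * (y * w * y⁻¹) := by
            rw [conj_pow]; group
          rw [h1, ih, h2, hya, hywa, pow_succ]
          group
      have h3 := hyw (p ^ m)
      rw [hexp a ha.1, one_mul] at h3
      calc w * y ^ p ^ m = (y ^ p ^ m * w * (y ^ p ^ m)⁻¹) * y ^ p ^ m := by rw [h3]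
        _ = y ^ p ^ m * w := by group
    refine ⟨m + m + m, Subtype.ext ?_⟩
    show x ^ p ^ (m + m + m) = 1
    rw [pow_add, pow_add, pow_mul, pow_mul, ← hy]
    exact hexp _ (D.cent hyQ)
  exact D.max N hN hNp ⟨hx, q, hq, h⟩

theorem mem_Q_of_centralizes (D : CDat p S T Q E) {x : G} (hx : InC Q T x)
    (h : ∀ z ∈ Q ⊓ T, x * z * x⁻¹ = z) : x ∈ Q :=
  D.mem_Q hx (one_mem Q) fun z hz => by rw [h z hz]; simp

theorem mem_Q0_of_centralizes (D : CDat p S T Q E) {x : G} (hx : x ∈ T)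
    (h : ∀ z ∈ Q ⊓ T, x * z * x⁻¹ = z) : x ∈ Q ⊓ T :=
  ⟨D.mem_Q_of_centralizes (D.inC_T hx) h, hx⟩

/-! ### `Q ∩ T` is normal in `E` -/

theorem stronglyClosed_of_normal (D : CDat p S T Q E) {N : Subgroup G} (hN : N.Normal) :
    E.StronglyClosed (N ⊓ T) := by
  refine stronglyClosed_of_mp inf_le_right fun P f hf hP x hx => ⟨?_, hf.mem hx⟩
  obtain ⟨g, hg⟩ := D.sub P f hf
  rw [hg x hx]
  exact hN.conj_mem x (hP hx).1 g

theorem Q0_stronglyClosed (D : CDat p S T Q E) : E.StronglyClosed (Q ⊓ T) :=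
  D.stronglyClosed_of_normal D.normal

theorem Q0_isNormal (D : CDat p S T Q E) : E.IsNormal (Q ⊓ T) := by
  have := D.normal
  have hnil : Group.IsNilpotent Q := D.pgroup.isNilpotent
  obtain ⟨n, hn⟩ := hnil.nilpotent'
  refine H759.isNormal_of_chain D.isPGroupT D.sat n
    (fun i => (Subgroup.upperCentralSeries Q i).map Q.subtype ⊓ T) ?_ ?_ ?_ ?_
  · show (Subgroup.upperCentralSeries Q 0).map Q.subtype ⊓ T = ⊥
    rw [Subgroup.upperCentralSeries_zero, Subgroup.map_bot, bot_inf_eq]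
  · show (Subgroup.upperCentralSeries Q n).map Q.subtype ⊓ T = Q ⊓ T
    rw [hn, ← MonoidHom.range_eq_map, Subgroup.range_subtype]
  · intro i _
    exact D.stronglyClosed_of_normal inferInstance
  · intro i _
    rw [Subgroup.commutator_le]
    rintro a ha _ ⟨⟨b, hb, rfl⟩, hbT⟩
    refine ⟨?_, ?_⟩
    · have hb' : b ∈ Subgroup.upperCentralSeries Q (i + 1) := hb
      rw [Subgroup.mem_upperCentralSeries_succ_iff] at hb'
      refine ⟨⁅b, ⟨a, ha.1⟩⁆⁻¹, Subgroup.inv_mem _ (hb' ⟨a, ha.1⟩), ?_⟩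
      rw [commutatorElement_inv]
      rfl
    · exact T.mul_mem (T.mul_mem (T.mul_mem ha.2 hbT) (T.inv_mem ha.2)) (T.inv_mem hbT)

end CDat

end Cfsg.Agent.H752
end

-- part: H752/ConstrB
section
/-!
# Normal subsystems of the fusion system of a group with `C_G(O_p(G)) ≤ O_p(G)`: second part (helper752)

The normal subgroup `M` of elements of `C` that induce on `Q ∩ T` an automorphism of `E`; it induces all of them.
-/

set_option autoImplicit false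
set_option linter.unusedSectionVars false

namespace Cfsg.Agent.H752

open Cfsg Cfsg.FusionSystem

namespace CDat

variable {G : Type*} [Group G] [Finite G] {p : ℕ} [Fact p.Prime] {S T Q : Subgroup G}
  {E : FusionSystem T}

/-- The subgroup `M`. -/
def M (D : CDat p S T Q E) : Subgroup G where
  carrier := {g | InC Q T g ∧ Mp E (Q ⊓ T) (fun x => g * x * g⁻¹)}
  one_mem' := ⟨inC_one, (mp_id E inf_le_right).congr fun x _ => by simp⟩
  mul_mem' := by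
    rintro a b ⟨ha, ha'⟩ ⟨hb, hb'⟩
    refine ⟨D.inC_mul ha hb, (hb'.comp ha' fun x hx => D.Q0_conj b hx).congr fun x _ => ?_⟩
    group
  inv_mem' := by
    rintro a ⟨ha, ha'⟩
    refine ⟨D.inC_inv ha, ha'.symm fun y hy => ⟨a⁻¹ * y * a, D.Q0_conj' a hy, by group, ?_⟩⟩
    group

theorem mem_M (D : CDat p S T Q E) {g : G} :
    g ∈ D.M ↔ InC Q T g ∧ Mp E (Q ⊓ T) (fun x => g * x * g⁻¹) := Iff.rfl

theorem M_normal (D : CDat p S T Q E) : D.M.Normal := by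
  refine ⟨?_⟩
  rintro a ⟨ha, ha'⟩ g
  refine ⟨D.inC_conj ha g, (D.inv _ _ g ha' (fun x hx => D.Q0_conj a hx)
    (fun x hx => D.Q0_conj g hx)).congr fun x _ => ?_⟩
  group

theorem T_le_M (D : CDat p S T Q E) : T ≤ D.M := fun _ ht =>
  ⟨D.inC_T ht, mp_conj E inf_le_right ht⟩

/-- The induced automorphism, in the system `E`. -/
theorem exists_ind {P : Subgroup G} {g : G} (h : Mp E P (fun x => g * x * g⁻¹)) (hm : ∀ x ∈ P, g * x * g⁻¹ ∈ P) :
    ∃ α ∈ E.autGroup P, Ind g α := by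
  have hfT : Finite P := inferInstance
  obtain ⟨α, hα, h1⟩ := h.exists_aut hm
  exact ⟨α, hα, fun x hx => (h1 x hx).symm⟩

theorem exists_ind_of_aut (D : CDat p S T Q E) {P : Subgroup G} (hP : P ≤ T) {α : MulAut P}
    (hα : α ∈ E.autGroup P) : ∃ g : G, Ind g α := by
  obtain ⟨g, hg⟩ := D.sub P _ ((mp_iff_autGroup hP α).1 hα)
  refine ⟨g, fun x hx => ?_⟩
  rw [← hg x hx, ex_apply _ hx]

/-- Conjugates of automorphisms of `E` by elements of `G` normalizing their source. -/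
theorem aut_conj_mem (D : CDat p S T Q E) {P : Subgroup G} (hP : P ≤ T) {α κ : MulAut P}
    (hα : α ∈ E.autGroup P) {g : G} (hg : Ind g κ) : κ * α * κ⁻¹ ∈ E.autGroup P := by
  have h1 := D.inv P _ g ((mp_iff_autGroup hP α).1 hα)
    (fun x hx => by rw [ex_apply _ hx]; exact (α _).2)
    (fun x hx => by rw [← hg x hx]; exact (κ _).2)
  refine h1.mem_autGroup fun x hx => ?_
  have h2 : g⁻¹ * x * g = ((κ⁻¹ ⟨x, hx⟩ : P) : G) := by
    rw [hg.inv x hx, inv_inv]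
  show g * ex (fun x => ((α x : P) : G)) (g⁻¹ * x * g) * g⁻¹ = _
  rw [h2, ex_apply _ (κ⁻¹ ⟨x, hx⟩).2, ← hg _ (α _).2]
  rfl

/-- Commutators of elements of `T C_S(T)` with an element satisfying the extension condition. -/
theorem ext_comm {g t c : G} (hgT : g ∈ Subgroup.normalizer (T : Set G))
    (ht : t ∈ T) (hc : c ∈ centralizerIn S T)
    (hgc : c⁻¹ * (g * c * g⁻¹) ∈ T ⊓ Subgroup.centralizer (T : Set G)) :
    g * (t * c) * g⁻¹ * (t * c)⁻¹ ∈ T := by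
  have h1 : g * (t * c) * g⁻¹ * (t * c)⁻¹ =
      (g * t * g⁻¹) * (c * (c⁻¹ * (g * c * g⁻¹)) * c⁻¹) * t⁻¹ := by group
  have h2 : c * (c⁻¹ * (g * c * g⁻¹)) * c⁻¹ = c⁻¹ * (g * c * g⁻¹) := by
    have h3 := Subgroup.mem_centralizer_iff.1 hc.2 _ hgc.1
    rw [← h3]
    group
  rw [h1, h2]
  exact T.mul_mem (T.mul_mem ((Subgroup.mem_normalizer_iff.1 hgT t).1 ht) hgc.1) (T.inv_mem ht)

/-- **Automorphisms of `T` in `E` of order prime to `p` are induced by elements of `M`.** -/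
theorem exists_M_of_coprime (D : CDat p S T Q E) {α : MulAut T} (hα : α ∈ E.autGroup T)
    (hc : Nat.Coprime (orderOf α) p) : ∃ m ∈ D.M, Ind m α := by
  have hQn := D.normal
  have hQ0n := D.Q0_normal
  obtain ⟨g₀, hg₀, hg₀c⟩ := D.ext _ ((mp_iff_autGroup le_rfl α).1 hα)
  have hind₀ : Ind g₀ α := fun x hx => by rw [← hg₀ x hx, ex_apply _ hx]
  -- the elements satisfying the extension condition
  let Z : Subgroup G := T ⊓ Subgroup.centralizer (T : Set G)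
  have hZ : ∀ g ∈ Subgroup.normalizer (T : Set G), ∀ z ∈ Z, g * z * g⁻¹ ∈ Z := by
    intro g hg z hz
    refine ⟨(Subgroup.mem_normalizer_iff.1 hg z).1 hz.1, Subgroup.mem_centralizer_iff.2 fun y hy => ?_⟩
    have hy' : g⁻¹ * y * g ∈ T := by
      have := (Subgroup.mem_normalizer_iff.1
        ((Subgroup.normalizer (T : Set G)).inv_mem hg) y).1 hy
      simpa using this
    have h1 := Subgroup.mem_centralizer_iff.1 hz.2 _ hy'
    calc y * (g * z * g⁻¹) = g * ((g⁻¹ * y * g) * z) * g⁻¹ := by group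
      _ = g * (z * (g⁻¹ * y * g)) * g⁻¹ := by rw [h1]
      _ = g * z * g⁻¹ * y := by group
  let W : Subgroup G :=
    { carrier := {g | g ∈ Subgroup.normalizer (T : Set G) ∧
        ∀ c ∈ centralizerIn S T, c⁻¹ * (g * c * g⁻¹) ∈ Z}
      one_mem' := ⟨one_mem _, fun c _ => by
        have : c⁻¹ * (1 * c * 1⁻¹) = 1 := by group
        rw [this]
        exact Z.one_mem⟩
      mul_mem' := by
        rintro a b ⟨ha, ha'⟩ ⟨hb, hb'⟩
        refine ⟨Subgroup.mul_mem _ ha hb, fun c hc => ?_⟩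
        have h1 : c⁻¹ * (a * b * c * (a * b)⁻¹) =
            (c⁻¹ * (a * c * a⁻¹)) * (a * (c⁻¹ * (b * c * b⁻¹)) * a⁻¹) := by group
        rw [h1]
        exact Z.mul_mem (ha' c hc) (hZ a ha _ (hb' c hc))
      inv_mem' := by
        rintro a ⟨ha, ha'⟩
        refine ⟨Subgroup.inv_mem _ ha, fun c hc => ?_⟩
        have h2 : a⁻¹ * c * a⁻¹⁻¹ = c * (a⁻¹ * (c⁻¹ * (a * c * a⁻¹)) * a⁻¹⁻¹)⁻¹ := by group
        rw [h2]
        have h3 : c⁻¹ * (c * (a⁻¹ * (c⁻¹ * (a * c * a⁻¹)) * a⁻¹⁻¹)⁻¹) =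
            (a⁻¹ * (c⁻¹ * (a * c * a⁻¹)) * a⁻¹⁻¹)⁻¹ := by group
        rw [h3]
        exact Z.inv_mem (hZ a⁻¹ (Subgroup.inv_mem _ ha) _ (ha' c hc)) }
  have hg₀W : g₀ ∈ W := ⟨H802.mem_normalizer_of_aut (P := T) (fun x => hind₀ x x.2), hg₀c⟩
  obtain ⟨j, hind, hcop⟩ := hind₀.exists_coprime hc
  set g := g₀ ^ j with hg
  have hgW : g ∈ W := Subgroup.zpow_mem W hg₀W j
  obtain ⟨B, hB⟩ := (automized_receptive_of_stronglyClosed D.sat (T := T)
    H759.StronglyClosed.top).1.2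
  -- `[g, Q] ≤ T C_S(T)`
  have hQT : ∀ q ∈ Q, g * q * g⁻¹ * q⁻¹ ∈ Q ∧ ∃ t ∈ T, ∃ c ∈ centralizerIn S T,
      g * q * g⁻¹ * q⁻¹ = t * c := by
    intro q hq
    have hu : g * q * g⁻¹ * q⁻¹ ∈ Q := mul_mem (hQn.conj_mem q hq g) (Q.inv_mem hq)
    refine ⟨hu, ?_⟩
    let K : Subgroup (MulAut T) := autInducedBy Q T ⊓ E.autGroup T
    have hKn : ∀ a ∈ E.autGroup T, ∀ k ∈ K, a * k * a⁻¹ ∈ K := by
      rintro a ha k ⟨hk, hk'⟩
      refine ⟨?_, Subgroup.mul_mem _ (Subgroup.mul_mem _ ha hk') (Subgroup.inv_mem _ ha)⟩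
      obtain ⟨x, hx, hxk⟩ := (H802.mem_autInducedBy_iff _ _ _).1 hk
      obtain ⟨h, hh⟩ := D.exists_ind_of_aut le_rfl ha
      have h1 : Ind (h * x * h⁻¹) (a * k * a⁻¹) := (hh.mul (fun y hy => hxk ⟨y, hy⟩)).mul hh.inv
      exact (H802.mem_autInducedBy_iff _ _ _).2 ⟨h * x * h⁻¹, hQn.conj_mem x hx h,
        fun y => h1 y y.2⟩
    have hKp : IsPGroup p K := (H802.isPGroup_autInducedBy D.pgroup T).to_le inf_le_left
    have hKT := H759.le_autInducedBy_of_normal (automized_receptive_of_stronglyClosed D.sat (T := T)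
      H759.StronglyClosed.top).1 K inf_le_right hKn hKp
    -- the automorphism induced by `q`
    have hqN : q ∈ Subgroup.normalizer (T : Set G) := by
      refine H802.mem_normalizer_of_conj_mem (H := ⊤) le_top ?_
      exact fun t ht => D.T_conj (D.QS hq) ht
    obtain ⟨κ, hκ⟩ := H802.exists_conjAut hqN
    have hκ' : Ind q κ := fun x hx => hκ ⟨x, hx⟩
    have h1 : κ * α⁻¹ * κ⁻¹ ∈ E.autGroup T := D.aut_conj_mem le_rfl (inv_mem hα) hκ'
    have h2 : α * (κ * α⁻¹ * κ⁻¹) ∈ E.autGroup T := mul_mem hα h1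
    have h3 : Ind (g * (q * g⁻¹ * q⁻¹)) (α * (κ * α⁻¹ * κ⁻¹)) :=
      hind.mul ((hκ'.mul hind.inv).mul hκ'.inv)
    have h4 : g * (q * g⁻¹ * q⁻¹) = g * q * g⁻¹ * q⁻¹ := by group
    rw [h4] at h3
    have h5 : α * (κ * α⁻¹ * κ⁻¹) ∈ K :=
      ⟨(H802.mem_autInducedBy_iff _ _ _).2 ⟨_, hu, fun y => h3 y y.2⟩, h2⟩
    obtain ⟨t, ht, hte⟩ := (H802.mem_autInducedBy_iff _ _ _).1 (hKT h5)
    refine ⟨t, ht, t⁻¹ * (g * q * g⁻¹ * q⁻¹), ⟨mul_mem (S.inv_mem (D.le ht)) (D.QS hu), ?_⟩,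
      by group⟩
    refine Subgroup.mem_centralizer_iff.2 fun y hy => ?_
    have h6 := hte ⟨y, hy⟩
    have h7 := h3 y hy
    have h8 : (g * q * g⁻¹ * q⁻¹) * y * (g * q * g⁻¹ * q⁻¹)⁻¹ = t * y * t⁻¹ := h7.symm.trans h6
    calc y * (t⁻¹ * (g * q * g⁻¹ * q⁻¹)) = t⁻¹ * (t * y * t⁻¹) * (g * q * g⁻¹ * q⁻¹) := by group
      _ = t⁻¹ * ((g * q * g⁻¹ * q⁻¹) * y * (g * q * g⁻¹ * q⁻¹)⁻¹) * (g * q * g⁻¹ * q⁻¹) := by
          rw [h8]
      _ = t⁻¹ * (g * q * g⁻¹ * q⁻¹) * y := by group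
  -- `[g, Q] ≤ Q ∩ T` by coprime action
  have hInC : InC Q T g := by
    intro q hq
    obtain ⟨huQ, t, ht, c, hcC, huc⟩ := hQT q hq
    set u := g * q * g⁻¹ * q⁻¹ with hu
    have h1 : g * u * g⁻¹ * u⁻¹ ∈ Q ⊓ T := by
      refine ⟨mul_mem (hQn.conj_mem u huQ g) (Q.inv_mem huQ), ?_⟩
      rw [huc]
      exact ext_comm hgW.1 ht hcC (hgW.2 c hcC)
    let π := QuotientGroup.mk' (Q ⊓ T)
    have hπ1 : π g * π u * (π g)⁻¹ * (π u)⁻¹ = 1 := by
      rw [← map_inv, ← map_inv, ← map_mul, ← map_mul, ← map_mul]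
      exact (QuotientGroup.eq_one_iff _).2 h1
    have hπ2 : π g * π u * (π g)⁻¹ = π u := by
      have h2 : π g * π u * (π g)⁻¹ = (π g * π u * (π g)⁻¹ * (π u)⁻¹) * π u := by group
      rw [h2, hπ1, one_mul]
    have hπ3 : π g * π q * (π g)⁻¹ = π u * π q := by
      rw [← map_inv, ← map_mul, ← map_mul, ← map_mul]
      congr 1
      rw [hu]
      group
    have hπ4 : ∀ n : ℕ, (π g) ^ n * π q * ((π g) ^ n)⁻¹ = (π u) ^ n * π q := by
      intro n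
      induction n with
      | zero => simp
      | succ n ih =>
        have h2 : (π g) ^ (n + 1) * π q * ((π g) ^ (n + 1))⁻¹ =
            π g * ((π g) ^ n * π q * ((π g) ^ n)⁻¹) * (π g)⁻¹ := by
          rw [pow_succ']; group
        have h3 : π g * ((π u) ^ n * π q) * (π g)⁻¹ =
            (π g * π u * (π g)⁻¹) ^ n * (π g * π q * (π g)⁻¹) := by
          rw [conj_pow]; group
        rw [h2, ih, h3, hπ2, hπ3, pow_succ]
        group
    have hπ5 : (π u) ^ orderOf g = 1 := by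
      have h2 := hπ4 (orderOf g)
      rw [← map_pow, pow_orderOf_eq_one, map_one, one_mul, inv_one, mul_one] at h2
      have h3 : (π u) ^ orderOf g * π q = 1 * π q := by rw [one_mul]; exact h2.symm
      exact mul_right_cancel h3
    obtain ⟨k, hk⟩ := D.pgroup ⟨u, huQ⟩
    have hk' : u ^ p ^ k = 1 := congrArg Subtype.val hk
    have hπ6 : (π u) ^ p ^ k = 1 := by rw [← map_pow, hk', map_one]
    have h7 : orderOf (π u) = 1 :=
      Nat.eq_one_of_dvd_coprimes (Nat.Coprime.pow_right k hcop) (orderOf_dvd_of_pow_eq_one hπ5)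
        (orderOf_dvd_of_pow_eq_one hπ6)
    rw [orderOf_eq_one_iff] at h7
    exact (QuotientGroup.eq_one_iff _).1 h7
  refine ⟨g, ⟨hInC, ?_⟩, hind⟩
  refine (((mp_iff_autGroup le_rfl α).1 hα).res inf_le_right).congr fun x hx => ?_
  rw [ex_apply _ hx.2]
  exact (hind x hx.2).symm

end CDat

end Cfsg.Agent.H752
end

-- part: H752/ConstrC
section
/-!
# Normal subsystems of the fusion system of a group with `C_G(O_p(G)) ≤ O_p(G)`: third part (helper752)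

`M` induces all of `Aut_E(Q ∩ T)`; the normal subgroup `H = O^p(M) T` with `H ∩ S = T`.
-/

set_option autoImplicit false
set_option linter.unusedSectionVars false

namespace Cfsg.Agent.H752

open Cfsg Cfsg.FusionSystem
open scoped commutatorElement

namespace CDat

variable {G : Type*} [Group G] [Finite G] {p : ℕ} [Fact p.Prime] {S T Q : Subgroup G}
  {E : FusionSystem T}

theorem Q0_automized_receptive (D : CDat p S T Q E) :
    E.IsFullyAutomized p (Q ⊓ T) ∧ E.IsReceptive (Q ⊓ T) :=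
  automized_receptive_of_stronglyClosed D.sat D.Q0_stronglyClosed

/-- An automorphism of `Q ∩ T` in `E` that normalizes `Aut_T(Q ∩ T)` extends to `T`. -/
theorem exists_extension_T (D : CDat p S T Q E) {α : MulAut (Q ⊓ T : Subgroup G)}
    (hα : α ∈ E.autGroup (Q ⊓ T))
    (hn : ∀ b ∈ autInducedBy T (Q ⊓ T), α * b * α⁻¹ ∈ autInducedBy T (Q ⊓ T)) :
    ∃ β ∈ E.autGroup T, Restr (inf_le_right : Q ⊓ T ≤ T) α β := by
  have hle : Q ⊓ T ≤ T := inf_le_right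
  have hαm := (H802.mem_autGroup_iff E hle α).1 hα
  have hr : ((Q ⊓ T).subtype.comp α.toMonoidHom).range = Q ⊓ T :=
    H802.range_eq_of_mapsTo hαm fun x => (α x).2
  obtain ⟨ψ, hψ, hψe⟩ := D.Q0_automized_receptive.2.2 _ _ hαm hr
  have hT : T ≤ extender T (Q ⊓ T) ((Q ⊓ T).subtype.comp α.toMonoidHom) := by
    intro g hg
    have hgN : g ∈ Subgroup.normalizer ((Q ⊓ T : Subgroup G) : Set G) :=
      H802.mem_normalizer_of_conj_mem (H := ⊤) le_top fun x hx => D.Q0_conj g hx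
    rw [H802.mem_extender_iff]
    refine ⟨hg, hgN, ?_⟩
    obtain ⟨κ, hκ⟩ := H802.exists_conjAut hgN
    have hκm : κ ∈ autInducedBy T (Q ⊓ T) := (H802.mem_autInducedBy_iff _ _ _).2 ⟨g, hg, hκ⟩
    obtain ⟨h, hh, hhe⟩ := (H802.mem_autInducedBy_iff _ _ _).1 (hn κ hκm)
    refine ⟨h, hh, fun x hx => ?_⟩
    have h1 := hhe (α x)
    have h2 : (α * κ * α⁻¹) (α x) = α (κ x) := by
      rw [MulAut.mul_apply, MulAut.mul_apply, MulAut.inv_apply_self]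
    rw [h2] at h1
    show ((α ⟨g * x * g⁻¹, hx⟩ : (Q ⊓ T : Subgroup G)) : G) = h * (α x : (Q ⊓ T : Subgroup G)) * h⁻¹
    rw [← h1]
    congr 2
    exact Subtype.ext (hκ x).symm
  have h1 : Mp E T (ex ψ) := (mp_ex hψ).res hT
  obtain ⟨β, hβ, hβe⟩ := h1.exists_aut fun x hx => h1.mem hx
  refine ⟨β, hβ, fun x hx => ?_⟩
  rw [← hβe x (hle hx), ex_apply _ (hT (hle hx))]
  exact hψe x hx (hT (hle hx))

/-- **`M` induces all automorphisms of `Q ∩ T` in `E`.** -/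
theorem exists_M (D : CDat p S T Q E) {α : MulAut (Q ⊓ T : Subgroup G)}
    (hα : α ∈ E.autGroup (Q ⊓ T)) : ∃ m ∈ D.M, Ind m α := by
  have hle : Q ⊓ T ≤ T := inf_le_right
  obtain ⟨B, hB⟩ := D.Q0_automized_receptive.1.2
  let N : Subgroup (E.autGroup (Q ⊓ T)) :=
    { carrier := {β | ∃ m ∈ D.M, Ind m (β : MulAut (Q ⊓ T : Subgroup G))}
      one_mem' := ⟨1, one_mem _, Ind.one⟩
      mul_mem' := by
        rintro a b ⟨m, hm, h1⟩ ⟨k, hk, h2⟩
        exact ⟨m * k, mul_mem hm hk, h1.mul h2⟩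
      inv_mem' := by
        rintro a ⟨m, hm, h1⟩
        exact ⟨m⁻¹, inv_mem hm, h1.inv⟩ }
  have hNn : N.Normal := by
    refine ⟨?_⟩
    rintro a ⟨m, hm, h1⟩ b
    obtain ⟨g, hg⟩ := D.exists_ind_of_aut hle b.2
    exact ⟨g * m * g⁻¹, D.M_normal.conj_mem m hm g, (hg.mul h1).mul hg.inv⟩
  have hBN : (B : Subgroup (E.autGroup (Q ⊓ T))) ≤ N := by
    intro b hb
    rw [hB, Subgroup.mem_subgroupOf, H802.mem_autInducedBy_iff] at hb
    obtain ⟨t, ht, h1⟩ := hb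
    exact ⟨t, D.T_le_M ht, fun x hx => h1 ⟨x, hx⟩⟩
  suffices h : (⟨α, hα⟩ : E.autGroup (Q ⊓ T)) ∈ N from h
  have hfr := Sylow.normalizer_sup_eq_top' B hBN
  have hmem : (⟨α, hα⟩ : E.autGroup (Q ⊓ T)) ∈
      Subgroup.normalizer ((B : Subgroup (E.autGroup (Q ⊓ T))) : Set (E.autGroup (Q ⊓ T))) ⊔ N := by
    have h0 : (⟨α, hα⟩ : E.autGroup (Q ⊓ T)) ∈ (⊤ : Subgroup (E.autGroup (Q ⊓ T))) := trivial
    rw [← hfr] at h0
    exact h0
  obtain ⟨n, hn, d, hd, hnd⟩ := Subgroup.mem_sup_of_normal_right.1 hmem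
  rw [← hnd]
  refine N.mul_mem ?_ hd
  -- the two parts of `n`
  obtain ⟨a, b, hab, ⟨k, hk⟩, hb⟩ := TwoFusion.PResidual.exists_pPart_mul_pPrimePart p n
  rw [hab]
  have hna : n ^ a ∈ Subgroup.normalizer ((B : Subgroup (E.autGroup (Q ⊓ T))) :
      Set (E.autGroup (Q ⊓ T))) := Subgroup.zpow_mem _ hn a
  have hnb : n ^ b ∈ Subgroup.normalizer ((B : Subgroup (E.autGroup (Q ⊓ T))) :
      Set (E.autGroup (Q ⊓ T))) := Subgroup.zpow_mem _ hn b
  refine N.mul_mem (hBN ?_) ?_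
  · have hp1 : IsPGroup p (Subgroup.zpowers (n ^ a)) := by
      apply IsPGroup.of_card (n := k)
      rw [Nat.card_zpowers, hk]
    have h1 := hp1.inf_normalizer_sylow B
    have h2 : n ^ a ∈ Subgroup.zpowers (n ^ a) ⊓ Subgroup.normalizer
      ((B : Subgroup (E.autGroup (Q ⊓ T))) : Set (E.autGroup (Q ⊓ T))) :=
      ⟨Subgroup.mem_zpowers _, hna⟩
    have h3 : n ^ a ∈ Subgroup.zpowers (n ^ a) ⊓ (B : Subgroup (E.autGroup (Q ⊓ T))) := by
      rw [← h1]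
      exact h2
    exact h3.2
  · have hcop : Nat.Coprime (orderOf ((n ^ b : E.autGroup (Q ⊓ T)) :
        MulAut (Q ⊓ T : Subgroup G))) p := by
      rw [Subgroup.orderOf_coe]
      exact hb
    have hnorm : ∀ c ∈ autInducedBy T (Q ⊓ T),
        ((n ^ b : E.autGroup (Q ⊓ T)) : MulAut (Q ⊓ T : Subgroup G)) * c *
        ((n ^ b : E.autGroup (Q ⊓ T)) : MulAut (Q ⊓ T : Subgroup G))⁻¹ ∈
          autInducedBy T (Q ⊓ T) := by
      intro c hc
      have hcE := H802.autInducedBy_le_autGroup E hle hc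
      have h1 : (⟨c, hcE⟩ : E.autGroup (Q ⊓ T)) ∈ (B : Subgroup (E.autGroup (Q ⊓ T))) := by
        rw [hB]
        exact hc
      have h2 := (Subgroup.mem_normalizer_iff.1 hnb _).1 h1
      have h3 : n ^ b * ⟨c, hcE⟩ * (n ^ b)⁻¹ ∈
        (autInducedBy T (Q ⊓ T)).subgroupOf (E.autGroup (Q ⊓ T)) := by
        rw [← hB]
        exact h2
      exact h3
    obtain ⟨β, hβ, hr⟩ := D.exists_extension_T (n ^ b).2 hnorm
    obtain ⟨j, hr', hcj⟩ := hr.exists_coprime hcop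
    obtain ⟨m, hm, hmi⟩ := D.exists_M_of_coprime (Subgroup.zpow_mem _ hβ j) hcj
    refine ⟨m, hm, fun x hx => ?_⟩
    rw [← hr' x hx]
    exact hmi x (hle hx)

theorem mp_Q0_iff (D : CDat p S T Q E) {f : G → G} :
    Mp E (Q ⊓ T) f ↔ ∃ m ∈ D.M, ∀ x ∈ Q ⊓ T, f x = m * x * m⁻¹ := by
  constructor
  · intro h
    obtain ⟨α, hα, h1⟩ := h.exists_aut fun x hx =>
      mp_mem_of_stronglyClosed D.Q0_stronglyClosed h hx hx
    obtain ⟨m, hm, h2⟩ := D.exists_M hα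
    exact ⟨m, hm, fun x hx => by rw [h1 x hx, h2 x hx]⟩
  · rintro ⟨m, hm, h⟩
    exact hm.2.congr h

/-! ### The Sylow subgroup `S ∩ M` -/

theorem sylM (D : CDat p S T Q E) : H802.SylIn p (S ⊓ D.M) D.M :=
  D.syl.inf_normal le_top fun g _ m hm => D.M_normal.conj_mem m hm g

theorem mem_Q_of_M (D : CDat p S T Q E) {x : G} (hx : x ∈ D.M)
    (h : ∀ z ∈ Q ⊓ T, x * z * x⁻¹ = z) : x ∈ Q := D.mem_Q_of_centralizes hx.1 h

/-- `S ∩ M = T C_M(Q ∩ T)`. -/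
theorem exists_decomp (D : CDat p S T Q E) {s : G} (hs : s ∈ S ⊓ D.M) :
    ∃ t ∈ T, (t⁻¹ * s) ∈ D.M ∧ (t⁻¹ * s) ∈ Q ∧ ∀ z ∈ Q ⊓ T, (t⁻¹ * s) * z * (t⁻¹ * s)⁻¹ = z := by
  have hle : Q ⊓ T ≤ T := inf_le_right
  obtain ⟨B, hB⟩ := D.Q0_automized_receptive.1.2
  have hLE : autInducedBy (S ⊓ D.M) (Q ⊓ T) ≤ E.autGroup (Q ⊓ T) := by
    intro α hα
    obtain ⟨g, hg, h1⟩ := (H802.mem_autInducedBy_iff _ _ _).1 hα
    exact hg.2.2.mem_autGroup fun x hx => (h1 ⟨x, hx⟩).symm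
  have hLp : IsPGroup p ((autInducedBy (S ⊓ D.M) (Q ⊓ T)).subgroupOf (E.autGroup (Q ⊓ T))) :=
    (H802.isPGroup_autInducedBy (D.syl.isPGroup.to_le inf_le_left) _).comap_of_injective
      (E.autGroup (Q ⊓ T)).subtype (E.autGroup (Q ⊓ T)).subtype_injective
  have hBL : (B : Subgroup (E.autGroup (Q ⊓ T))) ≤
      (autInducedBy (S ⊓ D.M) (Q ⊓ T)).subgroupOf (E.autGroup (Q ⊓ T)) := by
    rw [hB]
    intro α hα
    rw [Subgroup.mem_subgroupOf, H802.mem_autInducedBy_iff] at hα ⊢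
    obtain ⟨t, ht, h1⟩ := hα
    exact ⟨t, ⟨D.le ht, D.T_le_M ht⟩, h1⟩
  have hLB := B.is_maximal' hLp hBL
  obtain ⟨α, hα, h1⟩ := exists_ind hs.2.2 fun x hx => D.Q0_conj s hx
  have h2 : (⟨α, hα⟩ : E.autGroup (Q ⊓ T)) ∈
      (autInducedBy (S ⊓ D.M) (Q ⊓ T)).subgroupOf (E.autGroup (Q ⊓ T)) := by
    rw [Subgroup.mem_subgroupOf, H802.mem_autInducedBy_iff]
    exact ⟨s, hs, fun x => h1 x x.2⟩
  rw [hLB, hB, Subgroup.mem_subgroupOf, H802.mem_autInducedBy_iff] at h2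
  obtain ⟨t, ht, h3⟩ := h2
  have h4 : ∀ z ∈ Q ⊓ T, (t⁻¹ * s) * z * (t⁻¹ * s)⁻¹ = z := by
    intro z hz
    have h5 : s * z * s⁻¹ = t * z * t⁻¹ := (h1 z hz).symm.trans (h3 ⟨z, hz⟩)
    calc (t⁻¹ * s) * z * (t⁻¹ * s)⁻¹ = t⁻¹ * (s * z * s⁻¹) * t := by group
      _ = t⁻¹ * (t * z * t⁻¹) * t := by rw [h5]
      _ = z := by group
  have h5 : t⁻¹ * s ∈ D.M := D.M.mul_mem (D.M.inv_mem (D.T_le_M ht)) hs.2
  exact ⟨t, ht, h5, D.mem_Q_of_M h5 h4, h4⟩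

/-- Commutators of elements of `S ∩ M` with elements of `M` that stay in `S` lie in `T`. -/
theorem comm_mem_T (D : CDat p S T Q E) {x u : G} (hx : x ∈ S ⊓ D.M) (hu : u ∈ D.M)
    (h : u * x * u⁻¹ ∈ S) : x * (u * x * u⁻¹)⁻¹ ∈ T := by
  have hQn := D.normal
  obtain ⟨t, ht, hzM, hzQ, -⟩ := D.exists_decomp hx
  set z := t⁻¹ * x with hz
  have hx' : x = t * z := by rw [hz]; group
  have huz : u * z * u⁻¹ ∈ Q := hQn.conj_mem z hzQ u
  have h1 : u * t * u⁻¹ ∈ S := by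
    have h2 : u * t * u⁻¹ = (u * x * u⁻¹) * (u * z * u⁻¹)⁻¹ := by rw [hx']; group
    rw [h2]
    exact S.mul_mem h (S.inv_mem (D.QS huz))
  have h2 : u * t * u⁻¹ ∈ T := D.closed u t ht h1
  have h3 := hu.1 z hzQ
  have h4 : x * (u * x * u⁻¹)⁻¹ = t * (u * z * u⁻¹ * z⁻¹)⁻¹ * (u * t * u⁻¹)⁻¹ := by
    rw [hx']; group
  rw [h4]
  exact T.mul_mem (T.mul_mem ht (T.inv_mem h3.2)) (T.inv_mem h2)

/-- `O^p(M)`, as a subgroup of `G`. -/
def R (D : CDat p S T Q E) : Subgroup G := (pResidual p D.M).map D.M.subtype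

theorem R_le_M (D : CDat p S T Q E) : D.R ≤ D.M := Subgroup.map_subtype_le _

theorem R_normal (D : CDat p S T Q E) : D.R.Normal := by
  have h1 := D.M_normal
  have h2 := TwoFusion.PResidual.pResidual_characteristic (G := D.M) p
  exact ConjAct.normal_of_characteristic_of_normal

theorem mem_R_of_coprime (D : CDat p S T Q E) {m : G} (hm : m ∈ D.M)
    (hc : Nat.Coprime (orderOf m) p) : m ∈ D.R := by
  refine ⟨⟨m, hm⟩, TwoFusion.PResidual.mem_pResidual_of_coprime p ?_, rfl⟩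
  rwa [← Subgroup.orderOf_coe]

/-- `M = O^p(M) (S ∩ M)`. -/
theorem exists_R_mul (D : CDat p S T Q E) {m : G} (hm : m ∈ D.M) :
    ∃ r ∈ D.R, ∃ s ∈ S ⊓ D.M, m = r * s := by
  obtain ⟨P, hP⟩ := D.sylM.exists_sylow
  obtain ⟨r, hr, s, hs, hrs⟩ := exists_residual_mul P (⟨m, hm⟩ : D.M)
  rw [hP, Subgroup.mem_subgroupOf] at hs
  exact ⟨r, ⟨r, hr, rfl⟩, s, hs, congrArg Subtype.val hrs⟩

/-- `S ∩ O^p(M) ≤ T`, by the focal subgroup theorem. -/
theorem R_inf_S (D : CDat p S T Q E) {x : G} (hxR : x ∈ D.R) (hxS : x ∈ S) : x ∈ T := by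
  obtain ⟨P, hP⟩ := D.sylM.exists_sylow
  obtain ⟨y, hy, rfl⟩ := hxR
  have hyP : y ∈ (P : Subgroup D.M) := by
    rw [hP, Subgroup.mem_subgroupOf]
    exact ⟨hxS, y.2⟩
  have hker : pResidual p D.M ≤ (P : Subgroup D.M).transferFocal.ker := by
    refine TwoFusion.PResidual.pResidual_le p fun g hg => ?_
    have hQp : IsPGroup p (P ⧸ (P : Subgroup D.M).focalSubgroupOf) :=
      P.isPGroup'.to_quotient (P : Subgroup D.M).focalSubgroupOf
    obtain ⟨k, hk⟩ := hQp ((P : Subgroup D.M).transferFocal g)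
    have h2 := orderOf_dvd_of_pow_eq_one hk
    have h1 : orderOf ((P : Subgroup D.M).transferFocal g) ∣ orderOf g := orderOf_map_dvd _ g
    have h3 := Nat.eq_one_of_dvd_coprimes (Nat.Coprime.pow_right k hg) h1 h2
    exact orderOf_eq_one_iff.1 h3
  have h1 : y ∈ (P : Subgroup D.M).transferFocal.ker ⊓ (P : Subgroup D.M) := ⟨hker hy, hyP⟩
  rw [Subgroup.ker_transferFocal_inf_eq_focalSubgroup P] at h1
  have h2 : (P : Subgroup D.M).focalSubgroup ≤ T.subgroupOf D.M := by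
    rw [Subgroup.focalSubgroup_def, Subgroup.closure_le]
    rintro g ⟨hg, x, hx, u, rfl⟩
    have hx' : (x : G) ∈ S ⊓ D.M := by
      have h3 : x ∈ (P : Subgroup D.M) := hx
      rw [hP, Subgroup.mem_subgroupOf] at h3
      exact h3
    have hg' : (x : G) * u * (x : G)⁻¹ * (u : G)⁻¹ ∈ S := by
      have h3 : ⁅x, u⁆ ∈ (P : Subgroup D.M) := hg
      rw [hP, Subgroup.mem_subgroupOf] at h3
      exact h3.1
    have h3 : (u : G) * x * (u : G)⁻¹ ∈ S := by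
      have h4 : (u : G) * x * (u : G)⁻¹ = ((x : G) * u * (x : G)⁻¹ * (u : G)⁻¹)⁻¹ * x := by group
      rw [h4]
      exact S.mul_mem (S.inv_mem hg') hx'.1
    have h5 := D.comm_mem_T hx' u.2 h3
    show (x : G) * u * (x : G)⁻¹ * (u : G)⁻¹ ∈ T
    have h6 : (x : G) * u * (x : G)⁻¹ * (u : G)⁻¹ = x * (u * x * (u : G)⁻¹)⁻¹ := by group
    rw [h6]
    exact h5
  exact h2 h1

/-- The normal subgroup `H = O^p(M) T`. -/
def H (D : CDat p S T Q E) : Subgroup G := D.R ⊔ T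

theorem T_le_H (D : CDat p S T Q E) : T ≤ D.H := le_sup_right

theorem R_le_H (D : CDat p S T Q E) : D.R ≤ D.H := le_sup_left

theorem H_le_M (D : CDat p S T Q E) : D.H ≤ D.M := sup_le D.R_le_M D.T_le_M

theorem mem_H (D : CDat p S T Q E) {x : G} : x ∈ D.H ↔ ∃ r ∈ D.R, ∃ t ∈ T, r * t = x := by
  have := D.R_normal
  exact Subgroup.mem_sup_of_normal_left

theorem H_inf_S (D : CDat p S T Q E) : S ⊓ D.H = T := by
  apply le_antisymm
  · rintro x ⟨hxS, hxH⟩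
    obtain ⟨r, hr, t, ht, rfl⟩ := D.mem_H.1 hxH
    have h1 : r ∈ S := by
      have h2 : r = r * t * t⁻¹ := by group
      rw [h2]
      exact S.mul_mem hxS (S.inv_mem (D.le ht))
    exact T.mul_mem (D.R_inf_S hr h1) ht
  · exact le_inf D.le D.T_le_H

theorem H_normal (D : CDat p S T Q E) : D.H.Normal := by
  have hRn := D.R_normal
  have hMn := D.M_normal
  have key : ∀ (g t : G), t ∈ T → g * t * g⁻¹ ∈ D.H := by
    intro g t ht
    -- an element `m ∈ M` with `m g` normalizing `S ∩ M`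
    obtain ⟨m, hm, h1⟩ := D.sylM.exists_conj (B := (S ⊓ D.M).map (MulAut.conj g).toMonoidHom)
      (by
        rintro _ ⟨x, hx, rfl⟩
        exact hMn.conj_mem x hx.2 g) ((D.syl.isPGroup.to_le inf_le_left).map _)
    have h2 := h1 (g * t * g⁻¹) ⟨t, ⟨D.le ht, D.T_le_M ht⟩, rfl⟩
    have h3 : m * (g * t * g⁻¹) * m⁻¹ = (m * g) * t * (m * g)⁻¹ := by group
    have h4 : (m * g) * t * (m * g)⁻¹ ∈ T := by
      rw [h3] at h2
      exact D.closed _ t ht h2.1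
    obtain ⟨r, hr, s, hs, hrs⟩ := D.exists_R_mul (D.M.inv_mem hm)
    have h5 : g * t * g⁻¹ = r * (s * ((m * g) * t * (m * g)⁻¹) * s⁻¹) * r⁻¹ := by
      have h6 : r * (s * ((m * g) * t * (m * g)⁻¹) * s⁻¹) * r⁻¹ =
        (r * s) * ((m * g) * t * (m * g)⁻¹) * (r * s)⁻¹ := by group
      rw [h6, ← hrs]
      group
    rw [h5]
    have h6 := D.T_conj hs.1 h4
    exact D.H.mul_mem (D.H.mul_mem (D.R_le_H hr) (D.T_le_H h6)) (D.H.inv_mem (D.R_le_H hr))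
  refine ⟨fun x hx g => ?_⟩
  obtain ⟨r, hr, t, ht, rfl⟩ := D.mem_H.1 hx
  have h1 : g * (r * t) * g⁻¹ = (g * r * g⁻¹) * (g * t * g⁻¹) := by group
  rw [h1]
  exact D.H.mul_mem (D.R_le_H (hRn.conj_mem r hr g)) (key g t ht)

theorem sylH (D : CDat p S T Q E) : H802.SylIn p T D.H := by
  have h1 := D.syl.inf_normal (M := D.H) le_top fun g _ m hm => D.H_normal.conj_mem m hm g
  rwa [D.H_inf_S] at h1

/-- `H` induces on `Q ∩ T` all that `M` induces. -/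
theorem exists_H (D : CDat p S T Q E) {m : G} (hm : m ∈ D.M) :
    ∃ h ∈ D.H, h⁻¹ * m ∈ D.M ∧ h⁻¹ * m ∈ Q ∧ ∀ z ∈ Q ⊓ T, h * z * h⁻¹ = m * z * m⁻¹ := by
  obtain ⟨r, hr, s, hs, rfl⟩ := D.exists_R_mul hm
  obtain ⟨t, ht, h1, h2, h3⟩ := D.exists_decomp hs
  refine ⟨r * t, D.mem_H.2 ⟨r, hr, t, ht, rfl⟩, ?_, ?_, fun z hz => ?_⟩
  · have h4 : (r * t)⁻¹ * (r * s) = t⁻¹ * s := by group
    rw [h4]; exact h1
  · have h4 : (r * t)⁻¹ * (r * s) = t⁻¹ * s := by group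
    rw [h4]; exact h2
  · have h4 := h3 z hz
    calc r * t * z * (r * t)⁻¹ = r * t * ((t⁻¹ * s) * z * (t⁻¹ * s)⁻¹) * (r * t)⁻¹ := by rw [h4]
      _ = r * s * z * (r * s)⁻¹ := by group

theorem H_centralizes (D : CDat p S T Q E) {x : G} (hx : x ∈ D.H)
    (h : ∀ z ∈ Q ⊓ T, x * z * x⁻¹ = z) : x ∈ Q ⊓ T := by
  have h1 := D.mem_Q_of_M (D.H_le_M hx) h
  have h2 : x ∈ S ⊓ D.H := ⟨D.QS h1, hx⟩
  rw [D.H_inf_S] at h2
  exact ⟨h1, h2⟩

end CDat

end Cfsg.Agent.H752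
end

-- part: H752/ConstrD
section
/-!
# Normal subsystems of the fusion system of a group with `C_G(O_p(G)) ≤ O_p(G)`: last part (helper752)

`E = F_T(H)` and the uniqueness of `H`.
-/

set_option autoImplicit false
set_option linter.unusedSectionVars false

namespace Cfsg.Agent.H752

open Cfsg Cfsg.FusionSystem

namespace CDat

variable {G : Type*} [Group G] [Finite G] {p : ℕ} [Fact p.Prime] {S T Q : Subgroup G}
  {E : FusionSystem T}

/-- An automorphism, in the fusion system of `G`, of `P` with `Q ∩ T ≤ P ≤ T`, centralizing `Q ∩ T`, has `p`-power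
order. -/
theorem pow_eq_one_of_centralizes (D : CDat p S T Q E) {P : Subgroup G} (hP : P ≤ T)
    (hQP : Q ⊓ T ≤ P) {χ : MulAut P} (h : ∀ (z : G) (hz : z ∈ Q ⊓ T), ((χ ⟨z, hQP hz⟩ : P) : G) = z) :
    ∃ k : ℕ, χ ^ p ^ k = 1 := by
  obtain ⟨m, hm⟩ := IsPGroup.iff_card.1 D.pgroup
  have hexp : ∀ q ∈ Q, q ^ p ^ m = 1 := by
    intro q hq
    have h1 : (⟨q, hq⟩ : Q) ^ Nat.card Q = 1 := pow_card_eq_one'
    rw [hm] at h1
    exact congrArg Subtype.val h1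
  refine ⟨m, MulEquiv.ext fun x => ?_⟩
  -- `y = x⁻¹ χ(x) ∈ Q ∩ T`
  have hy : (x : G)⁻¹ * ((χ x : P) : G) ∈ Q ⊓ T := by
    refine D.mem_Q0_of_centralizes (T.mul_mem (T.inv_mem (hP x.2)) (hP (χ x).2)) fun z hz => ?_
    have h1 : ((χ x : P) : G) * z * ((χ x : P) : G)⁻¹ ∈ Q ⊓ T := D.Q0_conj _ hz
    have h2 : (x : G) * z * (x : G)⁻¹ ∈ Q ⊓ T := D.Q0_conj _ hz
    have h3 := h _ h2
    have h4 : (⟨(x : G) * z * (x : G)⁻¹, hQP h2⟩ : P) = x * ⟨z, hQP hz⟩ * x⁻¹ := Subtype.ext rfl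
    rw [h4, map_mul, map_mul, map_inv] at h3
    have h5 : ((χ x : P) : G) * z * ((χ x : P) : G)⁻¹ = (x : G) * z * (x : G)⁻¹ := by
      have h6 : (((χ x * χ ⟨z, hQP hz⟩ * (χ x)⁻¹ : P)) : G) =
        ((χ x : P) : G) * ((χ ⟨z, hQP hz⟩ : P) : G) * ((χ x : P) : G)⁻¹ := rfl
      rw [h6, h z hz] at h3
      exact h3
    calc (x : G)⁻¹ * ((χ x : P) : G) * z * ((x : G)⁻¹ * ((χ x : P) : G))⁻¹
        = (x : G)⁻¹ * (((χ x : P) : G) * z * ((χ x : P) : G)⁻¹) * x := by group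
      _ = (x : G)⁻¹ * ((x : G) * z * (x : G)⁻¹) * x := by rw [h5]
      _ = z := by group
  set y : P := x⁻¹ * χ x with hyd
  have hyv : (y : G) = (x : G)⁻¹ * ((χ x : P) : G) := rfl
  rw [← hyv] at hy
  have hχy : χ y = y := Subtype.ext (h _ hy)
  have hχx : χ x = x * y := by rw [hyd]; group
  have hpow : ∀ n : ℕ, (χ ^ n) x = x * y ^ n := by
    intro n
    induction n with
    | zero => simp
    | succ n ih =>
      rw [pow_succ', MulAut.mul_apply, ih, map_mul, hχx, map_pow, hχy, mul_assoc, pow_succ']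
  rw [hpow]
  have h7 : y ^ p ^ m = 1 := Subtype.ext (hexp _ hy.1)
  rw [h7, mul_one]
  rfl

/-- An automorphism in `E` of `P` with `Q ∩ T ≤ P ≤ T` of order prime to `p` is induced by an element of `H`. -/
theorem exists_H_of_coprime (D : CDat p S T Q E) {P : Subgroup G} (hP : P ≤ T)
    (hQP : Q ⊓ T ≤ P) {α : MulAut P} (hα : α ∈ E.autGroup P) (hc : Nat.Coprime (orderOf α) p) :
    ∃ h ∈ D.H, Ind h α := by
  have hHn := D.H_normal
  have hα' := (mp_iff_autGroup hP α).1 hα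
  obtain ⟨m, hm, hmα⟩ := D.mp_Q0_iff.1 (hα'.res hQP)
  obtain ⟨h, hh, -, -, hhm⟩ := D.exists_H hm
  have hhα : ∀ (z : G) (hz : z ∈ Q ⊓ T), h * z * h⁻¹ = ((α ⟨z, hQP hz⟩ : P) : G) := by
    intro z hz
    rw [hhm z hz, ← hmα z hz, ex_apply _ (hQP hz)]
  -- `h` normalizes `P`
  have hhP : ∀ x ∈ P, h * x * h⁻¹ ∈ P := by
    intro x hx
    have h1 : h * x * h⁻¹ * ((α ⟨x, hx⟩ : P) : G)⁻¹ ∈ Q ⊓ T := by
      refine D.H_centralizes (D.H.mul_mem (hHn.conj_mem x (D.T_le_H (hP hx)) h)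
        (D.H.inv_mem (D.T_le_H (hP (α _).2)))) fun z hz => ?_
      -- `z = α(w)`
      have hw : ((α⁻¹ ⟨z, hQP hz⟩ : P) : G) ∈ Q ⊓ T := by
        have h2 := mp_mem_of_stronglyClosed D.Q0_stronglyClosed
          ((mp_iff_autGroup hP α⁻¹).1 (inv_mem hα)) (hQP hz) hz
        rwa [ex_apply _ (hQP hz)] at h2
      set w := ((α⁻¹ ⟨z, hQP hz⟩ : P) : G) with hwd
      have hαw : ((α ⟨w, hQP hw⟩ : P) : G) = z := by
        show ((α (α⁻¹ ⟨z, hQP hz⟩) : P) : G) = z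
        rw [MulAut.apply_inv_self]
      have h3 : h * w * h⁻¹ = z := (hhα w hw).trans hαw
      -- `α(x)⁻¹ z α(x) = α(x⁻¹ w x)`
      have hxw : x⁻¹ * w * x ∈ Q ⊓ T := D.Q0_conj' x hw
      have h4 : ((α ⟨x, hx⟩ : P) : G)⁻¹ * z * ((α ⟨x, hx⟩ : P) : G) = h * (x⁻¹ * w * x) * h⁻¹ := by
        rw [hhα _ hxw]
        have h5 : (⟨x⁻¹ * w * x, hQP hxw⟩ : P) = (⟨x, hx⟩ : P)⁻¹ * ⟨w, hQP hw⟩ * ⟨x, hx⟩ :=
          Subtype.ext rfl
        rw [h5, map_mul, map_mul, map_inv]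
        show _ = ((α ⟨x, hx⟩ : P) : G)⁻¹ * ((α ⟨w, hQP hw⟩ : P) : G) * ((α ⟨x, hx⟩ : P) : G)
        rw [hαw]
      calc h * x * h⁻¹ * ((α ⟨x, hx⟩ : P) : G)⁻¹ * z * (h * x * h⁻¹ * ((α ⟨x, hx⟩ : P) : G)⁻¹)⁻¹
          = h * x * h⁻¹ * (((α ⟨x, hx⟩ : P) : G)⁻¹ * z * ((α ⟨x, hx⟩ : P) : G)) *
            (h * x * h⁻¹)⁻¹ := by group
        _ = h * x * h⁻¹ * (h * (x⁻¹ * w * x) * h⁻¹) * (h * x * h⁻¹)⁻¹ := by rw [h4]
        _ = h * w * h⁻¹ := by group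
        _ = z := h3
    have h2 : h * x * h⁻¹ = (h * x * h⁻¹ * ((α ⟨x, hx⟩ : P) : G)⁻¹) * ((α ⟨x, hx⟩ : P) : G) := by
      group
    rw [h2]
    exact P.mul_mem (hQP h1) (α _).2
  have hhN : h ∈ Subgroup.normalizer (P : Set G) :=
    H802.mem_normalizer_of_conj_mem (H := ⊤) le_top hhP
  obtain ⟨κ, hκ⟩ := H802.exists_conjAut hhN
  -- `χ = κ⁻¹ α` centralizes `Q ∩ T`
  obtain ⟨k, hk⟩ := D.pow_eq_one_of_centralizes hP hQP (χ := κ⁻¹ * α) fun z hz => by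
    have h1 : α ⟨z, hQP hz⟩ = κ ⟨z, hQP hz⟩ := Subtype.ext (by
      rw [hκ, ← hhα z hz])
    rw [MulAut.mul_apply, h1, MulAut.inv_apply_self]
  -- the group of automorphisms induced by `G`
  let A : Subgroup (MulAut P) := autInducedBy ⊤ P
  obtain ⟨g, hg⟩ := D.exists_ind_of_aut hP hα
  have hαA : α ∈ A := (H802.mem_autInducedBy_iff _ _ _).2 ⟨g, trivial, fun x => hg x x.2⟩
  have hκA : κ ∈ A := (H802.mem_autInducedBy_iff _ _ _).2 ⟨h, trivial, hκ⟩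
  let B : Subgroup A := (autInducedBy D.H P).subgroupOf A
  have hBn : B.Normal := by
    refine ⟨?_⟩
    rintro ⟨b, hb⟩ hbB ⟨a, ha⟩
    obtain ⟨x, hx, hxb⟩ := (H802.mem_autInducedBy_iff _ _ _).1 hbB
    obtain ⟨y, -, hya⟩ := (H802.mem_autInducedBy_iff _ _ _).1 ha
    have h1 : Ind (y * x * y⁻¹) (a * b * a⁻¹) := by
      have ha' : Ind y a := fun z hz => hya ⟨z, hz⟩
      exact (ha'.mul (fun z hz => hxb ⟨z, hz⟩)).mul ha'.inv
    exact (H802.mem_autInducedBy_iff _ _ _).2 ⟨_, hHn.conj_mem x hx y, fun z => h1 z z.2⟩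
  have hκB : (⟨κ, hκA⟩ : A) ∈ B := (H802.mem_autInducedBy_iff _ _ _).2 ⟨h, hh, hκ⟩
  -- in `A / B`
  let π := QuotientGroup.mk' B
  have h1 : π (⟨κ, hκA⟩⁻¹ * ⟨α, hαA⟩) = π ⟨α, hαA⟩ := by
    rw [map_mul, map_inv]
    have h2 : π ⟨κ, hκA⟩ = 1 := (QuotientGroup.eq_one_iff _).2 hκB
    rw [h2, inv_one, one_mul]
  have h2 : (π ⟨α, hαA⟩) ^ p ^ k = 1 := by
    rw [← h1, ← map_pow]
    have h3 : ((⟨κ, hκA⟩ : A)⁻¹ * ⟨α, hαA⟩) ^ p ^ k = 1 := Subtype.ext hk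
    rw [h3, map_one]
  have h3 : (π ⟨α, hαA⟩) ^ orderOf α = 1 := by
    rw [← map_pow]
    have h4 : (⟨α, hαA⟩ : A) ^ orderOf α = 1 := Subtype.ext (pow_orderOf_eq_one α)
    rw [h4, map_one]
  have h4 : orderOf (π ⟨α, hαA⟩) = 1 :=
    Nat.eq_one_of_dvd_coprimes (Nat.Coprime.pow_right k hc) (orderOf_dvd_of_pow_eq_one h3)
      (orderOf_dvd_of_pow_eq_one h2)
  rw [orderOf_eq_one_iff] at h4
  have h5 : (⟨α, hαA⟩ : A) ∈ B := (QuotientGroup.eq_one_iff _).1 h4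
  obtain ⟨y, hy, hyα⟩ := (H802.mem_autInducedBy_iff _ _ _).1 h5
  exact ⟨y, hy, fun x hx => hyα ⟨x, hx⟩⟩

/-- Every map of `E` is induced by an element of `H`. -/
theorem exists_H_of_mp (D : CDat p S T Q E) (P : Subgroup G) (f : G → G) (hf : Mp E P f) :
    ∃ h ∈ D.H, ∀ x ∈ P, f x = h * x * h⁻¹ := by
  revert P f
  refine mp_generation E D.isPGroupT D.sat
    (fun P f => ∃ h ∈ D.H, ∀ x ∈ P, f x = h * x * h⁻¹) ?_ ?_ ?_ ?_ ?_ ?_
  · rintro P f g _ ⟨h, hh, h1⟩ he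
    exact ⟨h, hh, fun x hx => (he x hx).trans (h1 x hx)⟩
  · rintro P R f _ ⟨h, hh, h1⟩ hR
    exact ⟨h, hh, fun x hx => h1 x (hR hx)⟩
  · rintro P R f g _ _ ⟨h, hh, h1⟩ ⟨k, hk, h2⟩ hPR
    refine ⟨k * h, D.H.mul_mem hk hh, fun x hx => ?_⟩
    show g (f x) = _
    rw [h2 _ (hPR x hx), h1 x hx]
    group
  · rintro P R f g _ ⟨h, hh, h1⟩ _ hinv
    refine ⟨h⁻¹, D.H.inv_mem hh, fun y hy => ?_⟩
    obtain ⟨x, hx, hxy, hgy⟩ := hinv y hy
    rw [hgy, ← hxy, h1 x hx]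
    group
  · intro P _ s hs
    exact ⟨s, D.T_le_H hs, fun x _ => rfl⟩
  · intro R hRa _ α hα hc f hf
    have hRT : R ≤ T := hRa.1
    -- extend to `R (Q ∩ T)`
    obtain ⟨-, hnorm⟩ := D.Q0_isNormal
    obtain ⟨ψ, hψ, h1, h2⟩ := hnorm R _ ((H802.mem_autGroup_iff E hRT α).1 hα)
    have hle : R ⊔ (Q ⊓ T) ≤ T := sup_le hRT inf_le_right
    have hψm := mp_ex hψ
    have hψR : ∀ (x : G) (hx : x ∈ R), ex ψ x = ((α ⟨x, hx⟩ : R) : G) := by
      intro x hx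
      rw [ex_apply _ ((le_sup_left : R ≤ R ⊔ (Q ⊓ T)) hx)]
      exact h1 ⟨x, hx⟩
    obtain ⟨β, hβ, hβe⟩ := hψm.exists_aut (hψm.mem_sup
      (fun x hx => by rw [hψR x hx]; exact (le_sup_left : R ≤ R ⊔ (Q ⊓ T)) (α _).2)
      (fun x hx => (le_sup_right : Q ⊓ T ≤ R ⊔ (Q ⊓ T))
        (mp_mem_of_stronglyClosed D.Q0_stronglyClosed hψm
          ((le_sup_right : Q ⊓ T ≤ R ⊔ (Q ⊓ T)) hx) hx)))
    have hr : Restr (le_sup_left : R ≤ R ⊔ (Q ⊓ T)) α β := by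
      intro x hx
      rw [← hβe x ((le_sup_left : R ≤ R ⊔ (Q ⊓ T)) hx), hψR x hx]
    obtain ⟨j, hr', hcj⟩ := hr.exists_coprime hc
    obtain ⟨h, hh, hhi⟩ := D.exists_H_of_coprime hle le_sup_right (Subgroup.zpow_mem _ hβ j) hcj
    refine ⟨h, hh, fun x hx => ?_⟩
    rw [hf x hx, ← hr' x hx]
    exact hhi x ((le_sup_left : R ≤ R ⊔ (Q ⊓ T)) hx)

/-- Conjugations by elements of `H` are maps of `E`. -/
theorem mp_of_H (D : CDat p S T Q E) {P : Subgroup G} (hP : P ≤ T) {h : G} (hh : h ∈ D.H)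
    (hm : ∀ x ∈ P, h * x * h⁻¹ ∈ T) : Mp E P (fun x => h * x * h⁻¹) := by
  have hle : Q ⊓ T ≤ T := inf_le_right
  have hM := D.H_le_M hh
  obtain ⟨α, hα, hαi⟩ := exists_ind hM.2 fun x hx => D.Q0_conj h hx
  have hαm := (H802.mem_autGroup_iff E hle α).1 hα
  have hr : ((Q ⊓ T).subtype.comp α.toMonoidHom).range = Q ⊓ T :=
    H802.range_eq_of_mapsTo hαm fun x => (α x).2
  obtain ⟨ψ, hψ, hψe⟩ := D.Q0_automized_receptive.2.2 _ _ hαm hr
  have hQe : Q ⊓ T ≤ extender T (Q ⊓ T) ((Q ⊓ T).subtype.comp α.toMonoidHom) :=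
    H802.le_extender hle (H802.hom_apply_mem hαm)
  have hPe : P ≤ extender T (Q ⊓ T) ((Q ⊓ T).subtype.comp α.toMonoidHom) := by
    intro g hg
    have hgN : g ∈ Subgroup.normalizer ((Q ⊓ T : Subgroup G) : Set G) :=
      H802.mem_normalizer_of_conj_mem (H := ⊤) le_top fun x hx => D.Q0_conj g hx
    rw [H802.mem_extender_iff]
    refine ⟨hP hg, hgN, h * g * h⁻¹, hm g hg, fun x hx => ?_⟩
    show ((α ⟨g * x * g⁻¹, hx⟩ : (Q ⊓ T : Subgroup G)) : G) =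
      h * g * h⁻¹ * (α x : (Q ⊓ T : Subgroup G)) * (h * g * h⁻¹)⁻¹
    rw [hαi _ hx, hαi x x.2]
    group
  have hb : Mp E (P ⊔ (Q ⊓ T)) (ex ψ) := (mp_ex hψ).res (sup_le hPe hQe)
  obtain ⟨k, hk, hke⟩ := D.exists_H_of_mp _ _ hb
  -- `h⁻¹ k` centralizes `Q ∩ T`
  have hz : h⁻¹ * k ∈ Q ⊓ T := by
    refine D.H_centralizes (D.H.mul_mem (D.H.inv_mem hh) hk) fun z hz => ?_
    have h1 := hke z ((le_sup_right : Q ⊓ T ≤ P ⊔ (Q ⊓ T)) hz)
    rw [ex_apply _ (hQe hz)] at h1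
    have h2 : ψ ⟨z, hQe hz⟩ = h * z * h⁻¹ := (hψe z hz (hQe hz)).trans (hαi z hz)
    rw [h2] at h1
    calc h⁻¹ * k * z * (h⁻¹ * k)⁻¹ = h⁻¹ * (k * z * k⁻¹) * h := by group
      _ = h⁻¹ * (h * z * h⁻¹) * h := by rw [h1]
      _ = z := by group
  have hPQ : P ⊔ (Q ⊓ T) ≤ T := sup_le hP hle
  have hzi : (h⁻¹ * k)⁻¹ ∈ Q ⊓ T := (Q ⊓ T).inv_mem hz
  have h3 := (mp_conj E hP hzi.2).comp hb (fun x hx => by
    refine (P ⊔ (Q ⊓ T)).mul_mem ((P ⊔ (Q ⊓ T)).mul_mem ?_ ?_) ?_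
    · exact (le_sup_right : Q ⊓ T ≤ P ⊔ (Q ⊓ T)) hzi
    · exact (le_sup_left : P ≤ P ⊔ (Q ⊓ T)) hx
    · exact (P ⊔ (Q ⊓ T)).inv_mem ((le_sup_right : Q ⊓ T ≤ P ⊔ (Q ⊓ T)) hzi))
  refine h3.congr fun x hx => ?_
  show h * x * h⁻¹ = ex ψ ((h⁻¹ * k)⁻¹ * x * (h⁻¹ * k)⁻¹⁻¹)
  rw [hke _ ((P ⊔ (Q ⊓ T)).mul_mem ((P ⊔ (Q ⊓ T)).mul_mem
    ((le_sup_right : Q ⊓ T ≤ P ⊔ (Q ⊓ T)) hzi) ((le_sup_left : P ≤ P ⊔ (Q ⊓ T)) hx))
    ((P ⊔ (Q ⊓ T)).inv_mem ((le_sup_right : Q ⊓ T ≤ P ⊔ (Q ⊓ T)) hzi)))]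
  group

/-- `E` is the fusion system of `H`. -/
theorem hom_eq (D : CDat p S T Q E) (P : Subgroup G) :
    E.Hom P = (fusionSystemOfSubgroup D.H T D.T_le_H).Hom P := by
  ext φ
  constructor
  · intro hφ
    obtain ⟨h, hh, h1⟩ := D.exists_H_of_mp P _ (mp_ex hφ)
    exact ⟨(E.le_of_mem hφ).1, (E.le_of_mem hφ).2, h, hh, fun x => by
      rw [← h1 x x.2, ex_coe]⟩
  · rintro ⟨hP, hφ, h, hh, h1⟩
    refine (D.mp_of_H hP hh fun x hx => ?_).mem_hom fun x hx => h1 ⟨x, hx⟩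
    rw [← h1 ⟨x, hx⟩]
    exact hφ _

/-- Uniqueness of `H`. -/
theorem eq_H (D : CDat p S T Q E) {H' : Subgroup G} (hT : T ≤ H') (hn : H'.Normal)
    (hsyl : H802.SylIn p T H')
    (hE : ∀ P : Subgroup G, E.Hom P = (fusionSystemOfSubgroup H' T hT).Hom P) : H' = D.H := by
  have hQn := D.normal
  have hSH : S ⊓ H' = T := by
    exact hsyl.eq_of_le inf_le_right (D.syl.isPGroup.to_le inf_le_left) (le_inf D.le hT)
  have hQH : ∀ x ∈ Q, x ∈ H' → x ∈ Q ⊓ T := by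
    intro x hx hx'
    refine ⟨hx, ?_⟩
    rw [← hSH]
    exact ⟨D.QS hx, hx'⟩
  -- `H' ≤ M`
  have hM : H' ≤ D.M := by
    intro h hh
    refine ⟨fun q hq => ?_, ?_⟩
    · refine hQH _ (mul_mem (hQn.conj_mem q hq h) (Q.inv_mem hq)) ?_
      have h1 : h * q * h⁻¹ * q⁻¹ = h * (q * h⁻¹ * q⁻¹) := by group
      rw [h1]
      exact H'.mul_mem hh (hn.conj_mem _ (H'.inv_mem hh) q)
    · have h1 : conjHom (Q ⊓ T) h ∈ E.Hom (Q ⊓ T) := by
        rw [hE]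
        exact ⟨inf_le_right, fun x => (D.Q0_conj h x.2).2, h, hh, fun x => rfl⟩
      exact mp_of_mem h1 fun x hx => rfl
  have hR : D.R ≤ H' := by
    rw [show D.R = (pResidual p D.M).map D.M.subtype from rfl, Subgroup.map_le_iff_le_comap]
    refine TwoFusion.PResidual.pResidual_le p fun m hc => ?_
    show (m : G) ∈ H'
    obtain ⟨φ, hφ, h1⟩ := m.2.2
    rw [hE] at hφ
    obtain ⟨-, -, h, hh, h2⟩ := hφ
    -- `h⁻¹ m` centralizes `Q ∩ T`
    have h3 : h⁻¹ * (m : G) ∈ Q := by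
      refine D.mem_Q_of_M (D.M.mul_mem (D.M.inv_mem (hM hh)) m.2) fun z hz => ?_
      have h4 : (m : G) * z * (m : G)⁻¹ = h * z * h⁻¹ := (h1 z hz).symm.trans (h2 ⟨z, hz⟩)
      calc h⁻¹ * (m : G) * z * (h⁻¹ * (m : G))⁻¹ = h⁻¹ * ((m : G) * z * (m : G)⁻¹) * h := by group
        _ = h⁻¹ * (h * z * h⁻¹) * h := by rw [h4]
        _ = z := by group
    let π := QuotientGroup.mk' H'
    have h4 : π (h⁻¹ * m) = π m := by
      rw [map_mul, map_inv]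
      have h5 : π h = 1 := (QuotientGroup.eq_one_iff _).2 hh
      rw [h5, inv_one, one_mul]
    obtain ⟨k, hk⟩ := D.pgroup ⟨_, h3⟩
    have hk' : (h⁻¹ * (m : G)) ^ p ^ k = 1 := congrArg Subtype.val hk
    have h5 : (π m) ^ p ^ k = 1 := by rw [← h4, ← map_pow, hk', map_one]
    have h6 : (π m) ^ orderOf m = 1 := by
      rw [← map_pow, ← Subgroup.orderOf_coe, pow_orderOf_eq_one, map_one]
    have h7 : orderOf (π m) = 1 :=
      Nat.eq_one_of_dvd_coprimes (Nat.Coprime.pow_right k hc) (orderOf_dvd_of_pow_eq_one h6)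
        (orderOf_dvd_of_pow_eq_one h5)
    rw [orderOf_eq_one_iff] at h7
    exact (QuotientGroup.eq_one_iff _).1 h7
  have hHH : D.H ≤ H' := sup_le hR hT
  apply le_antisymm ?_ hHH
  intro x hx
  obtain ⟨h, hh, -, h1, -⟩ := D.exists_H (hM hx)
  have h2 : h⁻¹ * x ∈ Q ⊓ T := hQH _ h1 (H'.mul_mem (H'.inv_mem (hHH hh)) hx)
  have h3 : x = h * (h⁻¹ * x) := by group
  rw [h3]
  exact D.H.mul_mem hh (D.T_le_H h2.2)

end CDat

/-- The data of a normal subsystem. -/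
theorem cDat_of_isNormalIn {G : Type*} [Group G] [Finite G] {p : ℕ} [Fact p.Prime] (S : Sylow p G)
    (hG : Subgroup.centralizer ((pCore p G : Subgroup G) : Set G) ≤ pCore p G) {T : Subgroup G}
    (hTS : T ≤ S) {E : FusionSystem T}
    (hE : E.IsNormalIn (groupFusionSystem (S : Subgroup G)) p) :
    CDat p (S : Subgroup G) T (pCore p G) E := by
  obtain ⟨h1, h2, h3, h4⟩ := (isNormalIn_iff hTS).1 hE
  obtain ⟨hsub, hsc, hI, hFr⟩ := isInvariantIn_iff.1 h3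
  have hstr := strongInvC_of_invC hI hFr
  have hmpF : ∀ (P : Subgroup G) (f : G → G), Mp (groupFusionSystem (S : Subgroup G)) P f →
      ∃ g : G, ∀ x ∈ P, f x = g * x * g⁻¹ := by
    rintro P f ⟨φ, ⟨-, -, g, hg⟩, h⟩
    exact ⟨g, fun x hx => by rw [← h x hx, hg]⟩
  have hmpF' : ∀ (P : Subgroup G) (g : G), P ≤ S → (∀ x ∈ P, g * x * g⁻¹ ∈ (S : Subgroup G)) →
      Mp (groupFusionSystem (S : Subgroup G)) P (fun x => g * x * g⁻¹) := by
    intro P g hP hg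
    exact ⟨conjHom P g, ⟨hP, fun x => hg x x.2, g, fun x => rfl⟩, fun x hx => rfl⟩
  refine
    { syl := H802.sylIn_top_of_sylow S
      normal := Lib.Cores.pCore_normal p
      pgroup := Lib.Cores.pCore_isPGroup p
      max := fun N hN hNp => Lib.Cores.le_pCore hN hNp
      cent := hG
      QS := Lib.Cores.pCore_le_sylow S
      le := hTS
      sat := h1
      sub := fun P f hf => hmpF P f (mp_mono hsub hf)
      closed := ?_
      inv := ?_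
      ext := ?_ }
  · intro g x hx hgx
    have h5 : Mp (groupFusionSystem (S : Subgroup G)) (Subgroup.zpowers x)
        (fun x => g * x * g⁻¹) := by
      refine hmpF' _ g ((Subgroup.zpowers_le).2 (hTS hx)) ?_
      rintro _ ⟨n, rfl⟩
      show g * x ^ n * g⁻¹ ∈ (S : Subgroup G)
      rw [← conj_zpow]
      exact Subgroup.zpow_mem _ hgx n
    exact mp_mem_of_stronglyClosed hsc h5 (Subgroup.mem_zpowers x) hx
  · intro P f g hf hfm hg
    have hPT : P ≤ T := hf.le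
    have hsurj : ∀ y ∈ P, g⁻¹ * y * g ∈ P := by
      intro y hy
      have h5 := H802.mem_normalizer_of_conj_mem (H := ⊤) le_top hg
      have h6 := (Subgroup.mem_normalizer_iff.1
        ((Subgroup.normalizer (P : Set G)).inv_mem h5) y).1 hy
      rwa [inv_inv] at h6
    refine hstr P P P f _ _ le_rfl hPT hf hfm (hmpF' P g (hPT.trans hTS)
      (fun x hx => hTS (hPT (hg x hx)))) fun y hy => ⟨g⁻¹ * y * g, hsurj y hy, ?_, rfl⟩
    group
  · intro a ha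
    obtain ⟨b, hb, h5, h6⟩ := h4 a ha
    obtain ⟨g, hg⟩ := hmpF _ b hb
    refine ⟨g, fun x hx => ?_, fun c hc => ?_⟩
    · rw [← h5 x hx, hg x ((le_sup_left : T ≤ T ⊔ centralizerIn S T) hx)]
    · rw [← hg c ((le_sup_right : centralizerIn S T ≤ T ⊔ centralizerIn S T) hc)]
      exact h6 c hc

end Cfsg.Agent.H752
end

-- part: S5121
section
set_option autoImplicit false
open Cfsg

namespace Cfsg.Agent.S5121

/-- Let G be a finite group with Sylow p-subgroup S and C_G(O_p(G)) ≤ O_p(G). For every subgroup T ≤ S and every normal subsystem E over T of the fusion system of G on S there is exactly one normal subgroup H of G containing T as a Sylow p-subgroup whose fusion system on T is E. -/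
theorem result {G : Type*} [Group G] [Finite G] (p : ℕ) [Fact p.Prime] (S : Sylow p G) (hG : Subgroup.centralizer ((Cfsg.pCore p G : Subgroup G) : Set G) ≤ Cfsg.pCore p G) (T : Subgroup G) (hTS : T ≤ S) (E : Cfsg.FusionSystem T) (hE : E.IsNormalIn (Cfsg.groupFusionSystem (S : Subgroup G)) p) : ∃ H : Subgroup G, (∃ hTH : T ≤ H, H.Normal ∧ (∃ R : Sylow p H, (R : Subgroup H) = T.subgroupOf H) ∧ ∀ P : Subgroup G, E.Hom P = (Cfsg.fusionSystemOfSubgroup H T hTH).Hom P) ∧ ∀ H' : Subgroup G, (∃ hTH' : T ≤ H', H'.Normal ∧ (∃ R : Sylow p H', (R : Subgroup H') = T.subgroupOf H') ∧ ∀ P : Subgroup G, E.Hom P = (Cfsg.fusionSystemOfSubgroup H' T hTH').Hom P) → H' = H := by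
  have D := H752.cDat_of_isNormalIn S hG hTS hE
  refine ⟨D.H, ⟨D.T_le_H, D.H_normal, D.sylH.exists_sylow, D.hom_eq⟩, ?_⟩
  rintro H' ⟨hT, hn, ⟨R, hR⟩, hE'⟩
  refine D.eq_H hT hn ⟨hT, ?_⟩ hE'
  rw [← R.card_eq_multiplicity, hR]
  exact (H802.card_subgroupOf_of_le hT).symm

end Cfsg.Agent.S5121
end
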