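import Cfsg.Statements.S5122
import Cfsg.Agent.H802.FusGroup
set_option linter.all false

set_option autoImplicit false
open Cfsg

namespace Cfsg.Agent.S5122

/-- Let G be a finite group with Sylow p-subgroup S. Every subgroup P of S has a G-conjugate Q ≤ S such that N_S(Q) is a Sylow p-subgroup of N_G(Q); and for any Q ≤ S with that property, C_S(Q) is a Sylow p-subgroup of C_G(Q) and the automorphisms of Q induced by N_S(Q) form a Sylow p-subgroup of those induced by N_G(Q). -/
theorem result {G : Type*} [Group G] [Finite G] (p : ℕ) [Fact p.Prime] (S : Sylow p G) : (∀ P : Subgroup G, P ≤ S → ∃ g : G, P.map (MulAut.conj g).toMonoidHom ≤ S ∧ (∃ R : Sylow p ↥(Subgroup.normalizer ((P.map (MulAut.conj g).toMonoidHom : Subgroup G) : Set G)), (R : Subgroup ↥(Subgroup.normalizer ((P.map (MulAut.conj g).toMonoidHom : Subgroup G) : Set G))) = (Cfsg.FusionSystem.normalizerIn (S : Subgroup G) (P.map (MulAut.conj g).toMonoidHom)).subgroupOf (Subgroup.normalizer ((P.map (MulAut.conj g).toMonoidHom : Subgroup G) :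 Set G)))) ∧ ∀ Q : Subgroup G, Q ≤ S → (∃ R : Sylow p ↥(Subgroup.normalizer (Q : Set G)), (R : Subgroup ↥(Subgroup.normalizer (Q : Set G))) = (Cfsg.FusionSystem.normalizerIn (S : Subgroup G) Q).subgroupOf (Subgroup.normalizer (Q : Set G))) → (∃ R : Sylow p ↥(Subgroup.centralizer (Q : Set G)), (R : Subgroup ↥(Subgroup.centralizer (Q : Set G))) = (Cfsg.FusionSystem.centralizerIn (S : Subgroup G) Q).subgroupOf (Subgroup.centralizer (Q : Set G))) ∧ (∃ R : Sylow p ↥(Cfsg.autInducedBy ⊤ Q), (R : Subgroup ↥(Cfsg.autInducedBy ⊤ Q)) = (Cfsg.autInducedBy (S : Subgroup G) Q).subgroupOf (Cfsg.autInducedBy ⊤ Q)) := by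
  have hS : H802.SylIn p (S : Subgroup G) ⊤ := H802.sylIn_top_of_sylow S
  have hN : ∀ Q : Subgroup G, Cfsg.FusionSystem.normalizerIn ⊤ Q =
      Subgroup.normalizer (Q : Set G) := fun Q => top_inf_eq _
  refine ⟨fun P hP => ?_, fun Q hQ hR => ?_⟩
  · obtain ⟨g, -, h1, h2⟩ := H802.exists_conj_sylIn hS hP
    rw [hN] at h2
    exact ⟨g, h1, h2.exists_sylow⟩
  · obtain ⟨R, hR⟩ := hR
    have hSN : H802.SylIn p (Cfsg.FusionSystem.normalizerIn (S : Subgroup G) Q)
        (Subgroup.normalizer (Q : Set G)) := by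
      refine ⟨inf_le_right, ?_⟩
      rw [← R.card_eq_multiplicity, hR]
      exact (H802.card_subgroupOf_of_le inf_le_right).symm
    refine ⟨?_, ?_⟩
    · have h1 := hSN.inf_normal (M := Subgroup.centralizer (Q : Set G))
        (Subgroup.centralizer_le_normalizer _) (fun k hk m hm => by
          refine Subgroup.mem_centralizer_iff.2 fun z hz => ?_
          have hz' : k⁻¹ * z * k ∈ Q := by
            have := (Subgroup.mem_normalizer_iff.1
              ((Subgroup.normalizer (Q : Set G)).inv_mem hk) z).1 hz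
            simpa using this
          have h1 := Subgroup.mem_centralizer_iff.1 hm _ hz'
          calc z * (k * m * k⁻¹) = k * ((k⁻¹ * z * k) * m) * k⁻¹ := by group
            _ = k * (m * (k⁻¹ * z * k)) * k⁻¹ := by rw [h1]
            _ = k * m * k⁻¹ * z := by group)
      have h2 : Cfsg.FusionSystem.normalizerIn (S : Subgroup G) Q ⊓
          Subgroup.centralizer (Q : Set G) =
          Cfsg.FusionSystem.centralizerIn (S : Subgroup G) Q := by
        apply le_antisymm
        · exact fun x hx => ⟨hx.1.1, hx.2⟩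
        · exact fun x hx => ⟨⟨hx.1, Subgroup.centralizer_le_normalizer _ hx.2⟩, hx.2⟩
      rw [h2] at h1
      exact h1.exists_sylow
    · have h1 := H802.fs_isFullyAutomized (N := ⊤) (T := (S : Subgroup G)) le_top hS.isPGroup hQ
        (by rw [hN]; exact hSN)
      have h2 := h1.2
      rw [H802.fs_autGroup le_top hQ] at h2
      exact h2

end Cfsg.Agent.S5122
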