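import Cfsg.Statements.S5123
import Cfsg.Agent.H802.SylIn
import Cfsg.Agent.H759.FusLift
set_option linter.all false

set_option autoImplicit false
open Cfsg

namespace Cfsg.Agent.S5123

open Cfsg.Agent.H802

/-- Let G be a finite group with Sylow p-subgroup S, P, Q ≤ S and g ∈ G with gPg⁻¹ = Q, and suppose N_S(Q) is a Sylow p-subgroup of N_G(Q). Let N be the set of x ∈ N_S(P) with gxg⁻¹ ∈ N_S(Q)C_G(Q). Then some h ∈ C_G(Q) satisfies (hg)N(hg)⁻¹ ≤ S. -/
theorem result {G : Type*} [Group G] [Finite G] (p : ℕ) [Fact p.Prime] (S : Sylow p G) (P Q : Subgroup G) (hP : P ≤ S) (hQ : Q ≤ S) (g : G) (hg : P.map (MulAut.conj g).toMonoidHom = Q) (hN : (∃ R : Sylow p ↥(Subgroup.normalizer (Q : Set G)), (R : Subgroup ↥(Subgroup.normalizer (Q : Set G))) = (Cfsg.FusionSystem.normalizerIn (S : Subgroup G) Q).subgroupOf (Subgroup.normalizer (Q : Set G)))) : ∃ h ∈ Subgroup.centralizer (Q : Set G), ((Cfsg.FusionSystem.normalizerIn (S : Subgroup G) P) ⊓ (Cfsg.FusionSystem.normalizerIn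 (S : Subgroup G) Q ⊔ Subgroup.centralizer (Q : Set G)).comap (MulAut.conj g).toMonoidHom).map (MulAut.conj (h * g)).toMonoidHom ≤ S := by
  have h0 : SylIn p (Cfsg.FusionSystem.normalizerIn (S : Subgroup G) Q)
      (Subgroup.normalizer (Q : Set G)) := by
    obtain ⟨R, hR⟩ := hN
    have h01 := sylIn_of_sylow R
    rw [hR, Subgroup.map_subgroupOf_eq_of_le (show Cfsg.FusionSystem.normalizerIn (S : Subgroup G) Q ≤ Subgroup.normalizer (Q : Set G) from inf_le_right)] at h01
    exact h01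
  clear hN
  set NQ := Subgroup.normalizer (Q : Set G) with hNQ
  set NS := Cfsg.FusionSystem.normalizerIn (S : Subgroup G) Q with hNS
  have hNSle : NS ≤ NQ := inf_le_right
  have hCle : Subgroup.centralizer (Q : Set G) ≤ NQ := Subgroup.centralizer_le_normalizer _
  -- `NS` is Sylow in `NQ`
  have h1 : SylIn p NS NQ := h0
  -- hence in `NS ⊔ C`
  have h2 : SylIn p NS (NS ⊔ Subgroup.centralizer (Q : Set G)) :=
    h1.mono le_sup_left (sup_le hNSle hCle)
  set N := (Cfsg.FusionSystem.normalizerIn (S : Subgroup G) P) ⊓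
    (NS ⊔ Subgroup.centralizer (Q : Set G)).comap (MulAut.conj g).toMonoidHom with hNdef
  have h3 : N.map (MulAut.conj g).toMonoidHom ≤ NS ⊔ Subgroup.centralizer (Q : Set G) := by
    rintro _ ⟨x, hx, rfl⟩
    exact hx.2
  have h4 : IsPGroup p (N.map (MulAut.conj g).toMonoidHom) := by
    have h5 : IsPGroup p N := S.2.to_le (fun x hx => hx.1.1)
    exact h5.map _
  obtain ⟨k, hk, hkN⟩ := h2.exists_conj h3 h4
  -- decompose `k = s * h`
  have h6 : ∃ s ∈ NS, ∃ h ∈ Subgroup.centralizer (Q : Set G), s * h = k := by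
    have hnorm : NS ≤ Subgroup.normalizer ((Subgroup.centralizer (Q : Set G) : Subgroup G) : Set G) := by
      intro s hs
      have hs' : s ∈ NQ := hNSle hs
      rw [Subgroup.mem_normalizer_iff]
      intro c
      have key : ∀ (s : G), s ∈ NQ → ∀ c ∈ Subgroup.centralizer (Q : Set G),
          s * c * s⁻¹ ∈ Subgroup.centralizer (Q : Set G) := by
        intro s hs c hc
        rw [Subgroup.mem_centralizer_iff] at hc ⊢
        intro q hq
        have h7 : s⁻¹ * q * s ∈ Q := by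
          have := (Subgroup.mem_normalizer_iff.1 (NQ.inv_mem hs) q).1 hq
          simpa using this
        have h8 := hc _ h7
        have h9 : s * (s⁻¹ * q * s * c) * s⁻¹ = s * (c * (s⁻¹ * q * s)) * s⁻¹ := by rw [h8]
        calc q * (s * c * s⁻¹) = s * (s⁻¹ * q * s * c) * s⁻¹ := by group
          _ = s * (c * (s⁻¹ * q * s)) * s⁻¹ := h9
          _ = s * c * s⁻¹ * q := by group
      refine ⟨key s hs' c, fun hc => ?_⟩
      have := key s⁻¹ (NQ.inv_mem hs') _ hc
      simpa [mul_assoc] using this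
    exact (Cfsg.Agent.H759.mem_sup_of_normalizes hnorm).1 hk
  obtain ⟨s, hs, h, hh, rfl⟩ := h6
  refine ⟨h, hh, ?_⟩
  rintro _ ⟨x, hx, rfl⟩
  have h11 := hkN _ ⟨x, hx, rfl⟩
  have h12 : (s * h * ((MulAut.conj g).toMonoidHom x) * (s * h)⁻¹) ∈ (S : Subgroup G) := h11.1
  have h13 : s ∈ (S : Subgroup G) := hs.1
  have h14 := (S : Subgroup G).mul_mem ((S : Subgroup G).mul_mem ((S : Subgroup G).inv_mem h13) h12) h13
  have h15 : (MulAut.conj (h * g)).toMonoidHom x =
      s⁻¹ * (s * h * ((MulAut.conj g).toMonoidHom x) * (s * h)⁻¹) * s := by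
    simp [MulAut.conj_apply, mul_assoc]
  rw [h15]
  exact h14

end Cfsg.Agent.S5123
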