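import Cfsg.Agent.H759.FusSolvable
import Cfsg.Statements.S5159
set_option linter.all false

-- part: H760/SolvExt
section
/-!
Solvability of a fusion system and of a normal subsystem and the factor system.
-/

set_option autoImplicit false

namespace Cfsg.Agent.H760

open Cfsg Cfsg.FusionSystem Cfsg.Agent.H759
open scoped commutatorElement

variable {Ω : Type*} [Group Ω] {S T : Subgroup Ω} {F : FusionSystem S} {E : FusionSystem T}

/-- Prepend a step to a chain. -/
theorem hasChain_cons {R B : Subgroup Ω} (hR : F.StronglyClosed R) (hRB : R ≤ B)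
    (hc : ⁅B, B⁆ ≤ R) (h : HasChain F B) : HasChain F R := by
  obtain ⟨n, c, h0, hn, hsc, hmono, hcc⟩ := h
  refine ⟨n + 1, fun i => if i = 0 then R else c (i - 1), by simp, by simpa using hn, ?_, ?_, ?_⟩
  · intro i
    by_cases hi : i = 0
    · simp only [hi, if_true]; exact hR
    · simp only [if_neg hi]; exact hsc _
  · intro i
    by_cases hi : i = 0
    · subst hi
      simp only [if_true, zero_add, if_neg (show (1 : ℕ) ≠ 0 by omega), Nat.sub_self]
      rw [h0]; exact hRB
    · simp only [if_neg hi, if_neg (show i + 1 ≠ 0 by omega)]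
      have h1 : i + 1 - 1 = (i - 1) + 1 := by omega
      rw [h1]
      exact hmono _
  · intro i
    by_cases hi : i = 0
    · subst hi
      simp only [if_true, zero_add, if_neg (show (1 : ℕ) ≠ 0 by omega), Nat.sub_self]
      rw [h0]; exact hc
    · simp only [if_neg hi, if_neg (show i + 1 ≠ 0 by omega)]
      have h1 : i + 1 - 1 = (i - 1) + 1 := by omega
      rw [h1]
      exact hcc _

/-- The smallest strongly closed subgroup containing `X`. -/
def scl (E : FusionSystem T) (X : Subgroup Ω) : Subgroup Ω :=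
  sInf {R : Subgroup Ω | E.StronglyClosed R ∧ X ≤ R}

theorem scl_le {X R : Subgroup Ω} (hR : E.StronglyClosed R) (hX : X ≤ R) : scl E X ≤ R :=
  sInf_le ⟨hR, hX⟩

theorem le_scl {X : Subgroup Ω} : X ≤ scl E X := le_sInf fun _ h => h.2

theorem stronglyClosed_scl {X : Subgroup Ω} (hX : X ≤ T) : E.StronglyClosed (scl E X) := by
  refine ⟨scl_le StronglyClosed.top hX, fun R hR φ hφ x => ?_⟩
  rw [scl, Subgroup.mem_sInf]
  rintro U ⟨hU, hXU⟩
  exact hU.2 R (hR.trans (scl_le hU hXU)) φ hφ x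

/-- The image of a subgroup of `T` under an automorphism of `T`. -/
def img (α : MulAut T) (R : Subgroup Ω) : Subgroup Ω :=
  (R.subgroupOf T).map (T.subtype.comp α.toMonoidHom)

theorem mem_img {α : MulAut T} {R : Subgroup Ω} {y : Ω} :
    y ∈ img α R ↔ ∃ x : T, (x : Ω) ∈ R ∧ ((α x : T) : Ω) = y := Iff.rfl

theorem mem_img' {α : MulAut T} {R : Subgroup Ω} {y : T} :
    (y : Ω) ∈ img α R ↔ ((α⁻¹ y : T) : Ω) ∈ R := by
  rw [mem_img]
  constructor
  · rintro ⟨x, hx, h⟩
    have h1 : α x = y := Subtype.ext h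
    rw [← h1, MulAut.inv_apply_self]
    exact hx
  · intro h
    exact ⟨α⁻¹ y, h, by rw [MulAut.apply_inv_self]⟩

theorem img_le {α : MulAut T} {R : Subgroup Ω} : img α R ≤ T := by
  intro y hy
  obtain ⟨x, -, rfl⟩ := mem_img.1 hy
  exact (α x).2

/-- Automorphisms of `T` in `F` permute the subgroups strongly closed in an invariant subsystem. -/
theorem stronglyClosed_img (hE : E.IsInvariantIn F) {α : MulAut T} (hα : α ∈ F.autGroup T)
    {R : Subgroup Ω} (hR : E.StronglyClosed R) : E.StronglyClosed (img α R) := by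
  refine ⟨img_le, fun P hP φ hφ x => ?_⟩
  have hPT : P ≤ T := hP.trans img_le
  obtain ⟨χ, hχ, h⟩ := hE.2.2.1 P hPT φ hφ α⁻¹ (inv_mem hα)
  have hφx : φ x ∈ T := (E.le_of_mem hφ).2 x
  have hmem : ((α⁻¹ ⟨x, hPT x.2⟩ : T) : Ω) ∈
      (P.subgroupOf T).map (T.subtype.comp (α⁻¹ : MulAut T).toMonoidHom) :=
    ⟨⟨x, hPT x.2⟩, x.2, rfl⟩
  have h1 := h x hφx hmem
  have h2 : (P.subgroupOf T).map (T.subtype.comp (α⁻¹ : MulAut T).toMonoidHom) ≤ R := by
    rintro _ ⟨y, hy, rfl⟩
    exact mem_img'.1 (hP hy)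
  have h3 := hR.2 _ h2 χ hχ ⟨_, hmem⟩
  rw [h1] at h3
  exact (mem_img' (y := ⟨φ x, hφx⟩)).2 h3

theorem img_scl_le (hE : E.IsInvariantIn F) {α : MulAut T} (hα : α ∈ F.autGroup T)
    {X : Subgroup Ω} (hXT : X ≤ T) (hX : ∀ β ∈ F.autGroup T, img β X ≤ X) :
    img α (scl E X) ≤ scl E X := by
  have h1 : scl E X ≤ img α⁻¹ (scl E X) := by
    refine scl_le (stronglyClosed_img hE (inv_mem hα) (stronglyClosed_scl hXT)) ?_
    intro x hx
    have h2 := (mem_img' (α := α⁻¹) (R := scl E X) (y := ⟨x, hXT hx⟩)).2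
    apply h2
    rw [inv_inv]
    refine le_scl (hX α hα ?_)
    exact mem_img.2 ⟨⟨x, hXT hx⟩, hx, rfl⟩
  intro y hy
  obtain ⟨x, hx, rfl⟩ := mem_img.1 hy
  have h3 := (mem_img' (α := α⁻¹) (R := scl E X) (y := x)).1 (h1 hx)
  rwa [inv_inv] at h3

/-- A subgroup strongly closed in the invariant subsystem and invariant under `Aut_F(T)` is strongly closed. -/
theorem stronglyClosed_of_invariant (hE : E.IsInvariantIn F) {R : Subgroup Ω}
    (hR : E.StronglyClosed R) (hinv : ∀ β ∈ F.autGroup T, img β R ≤ R) : F.StronglyClosed R := by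
  have hTS : T ≤ S := hE.2.1.1
  refine ⟨hR.1.trans hTS, fun P hP φ hφ x => ?_⟩
  obtain ⟨α, hα, φ₀, hφ₀, h⟩ := hE.2.2.2 P (hP.trans hR.1) φ hφ
  have h1 : φ₀ x ∈ T := (E.le_of_mem hφ₀).2 x
  rw [h x h1]
  exact hinv α hα (mem_img.2 ⟨⟨φ₀ x, h1⟩, hR.2 P hP φ₀ hφ₀ x, rfl⟩)

/-- The canonical descending chain. -/
def dchain (E : FusionSystem T) : ℕ → Subgroup Ω
  | 0 => T
  | n + 1 => scl E ⁅dchain E n, dchain E n⁆

theorem dchain_zero : dchain E 0 = T := rfl

theorem dchain_succ (n : ℕ) : dchain E (n + 1) = scl E ⁅dchain E n, dchain E n⁆ := rfl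

theorem commutator_self_le (X : Subgroup Ω) : ⁅X, X⁆ ≤ X := by
  rw [Subgroup.commutator_le]
  intro a ha b hb
  rw [commutatorElement_def]
  exact mul_mem (mul_mem (mul_mem ha hb) (inv_mem ha)) (inv_mem hb)

theorem dchain_le (n : ℕ) : dchain E n ≤ T := by
  induction n with
  | zero => exact le_rfl
  | succ n ih =>
    rw [dchain_succ]
    exact scl_le StronglyClosed.top ((commutator_self_le _).trans ih)

theorem dchain_stronglyClosed (n : ℕ) : E.StronglyClosed (dchain E n) := by
  cases n with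
  | zero => exact StronglyClosed.top
  | succ n => exact stronglyClosed_scl ((commutator_self_le _).trans (dchain_le n))

theorem dchain_succ_le (n : ℕ) : dchain E (n + 1) ≤ dchain E n :=
  scl_le (dchain_stronglyClosed n) (commutator_self_le _)

theorem img_commutator_le {α : MulAut T} {X : Subgroup Ω} (hXT : X ≤ T) (hX : img α X ≤ X) :
    img α ⁅X, X⁆ ≤ ⁅X, X⁆ := by
  intro y hy
  obtain ⟨x, hx, rfl⟩ := mem_img.1 hy
  -- work in `T`
  have h1 : ⁅X, X⁆ = (⁅X.subgroupOf T, X.subgroupOf T⁆ : Subgroup T).map T.subtype := by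
    rw [Subgroup.map_commutator, Subgroup.map_subgroupOf_eq_of_le hXT]
  rw [h1] at hx ⊢
  obtain ⟨z, hz, hzx⟩ := hx
  have hzx' : z = x := Subtype.ext hzx
  subst hzx'
  refine ⟨α z, ?_, rfl⟩
  have h2 : (⁅X.subgroupOf T, X.subgroupOf T⁆ : Subgroup T).map α.toMonoidHom ≤
      ⁅X.subgroupOf T, X.subgroupOf T⁆ := by
    rw [Subgroup.map_commutator]
    refine Subgroup.commutator_mono ?_ ?_
    all_goals
      rintro _ ⟨u, hu, rfl⟩
      exact hX (mem_img.2 ⟨u, hu, rfl⟩)
  exact h2 ⟨z, hz, rfl⟩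

theorem dchain_img (hE : E.IsInvariantIn F) (n : ℕ) :
    ∀ β ∈ F.autGroup T, img β (dchain E n) ≤ dchain E n := by
  induction n with
  | zero =>
    intro β hβ
    exact img_le
  | succ n ih =>
    intro β hβ
    rw [dchain_succ]
    exact img_scl_le hE hβ ((commutator_self_le _).trans (dchain_le n))
      (fun γ hγ => img_commutator_le (dchain_le n) (ih γ hγ))

theorem exists_dchain_eq_bot (h : HasChain E ⊥) : ∃ n, dchain E n = ⊥ := by
  obtain ⟨m, c, h0, hm, hsc, hmono, hcc⟩ := h
  have key : ∀ i, i ≤ m → dchain E i ≤ c (m - i) := by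
    intro i
    induction i with
    | zero => intro _; rw [Nat.sub_zero, hm]; exact le_rfl
    | succ i ih =>
      intro hi
      rw [dchain_succ]
      refine scl_le (hsc _) ?_
      have h1 := ih (by omega)
      have h2 : m - i = (m - (i + 1)) + 1 := by omega
      rw [h2] at h1
      exact (Subgroup.commutator_mono h1 h1).trans (hcc _)
  refine ⟨m, ?_⟩
  have := key m le_rfl
  rw [Nat.sub_self, h0, le_bot_iff] at this
  exact this

/-- A chain for an invariant subsystem and a chain above `T` give a chain. -/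
theorem hasChain_of_invariant (hE : E.IsInvariantIn F) (h : HasChain E ⊥) (hT : HasChain F T) :
    HasChain F ⊥ := by
  obtain ⟨n, hn⟩ := exists_dchain_eq_bot h
  have key : ∀ i, HasChain F (dchain E i) := by
    intro i
    induction i with
    | zero => exact hT
    | succ i ih =>
      refine hasChain_cons ?_ (dchain_succ_le i) le_scl ih
      exact stronglyClosed_of_invariant hE (dchain_stronglyClosed _) (dchain_img hE _)
  have := key n
  rwa [hn] at this

/-- A chain of `F` restricts to a chain of a subsystem. -/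
theorem hasChain_sub (hE : E.IsSubsystemOf F) (hTS : T ≤ S) (h : HasChain F ⊥) : HasChain E ⊥ := by
  obtain ⟨m, c, h0, hm, hsc, hmono, hcc⟩ := h
  refine ⟨m, fun i => c i ⊓ T, by simp [h0], ?_, fun i => ⟨inf_le_right, fun R hR φ hφ x => ⟨?_, ?_⟩⟩,
    fun i => inf_le_inf_right T (hmono i), fun i => ?_⟩
  · show c m ⊓ T = T
    rw [hm]; exact inf_eq_right.2 hTS
  · exact (hsc i).2 R (hR.trans inf_le_left) φ (hE R hφ) x
  · exact (E.le_of_mem hφ).2 x
  · exact le_inf ((Subgroup.commutator_mono inf_le_left inf_le_left).trans (hcc i))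
      ((Subgroup.commutator_mono inf_le_right inf_le_right).trans (commutator_self_le T))

section factor

variable {Ω' : Type*} [Group Ω'] {S' : Subgroup Ω'} {θ : S →* Ω'} {D : FusionSystem S'}
  {S₀ : Subgroup Ω}

theorem imageAlong_mono {P Q : Subgroup Ω} (h : P ≤ Q) : imageAlong θ P ≤ imageAlong θ Q := by
  intro y hy
  obtain ⟨x, hx, hxP, rfl⟩ := mem_imageAlong.1 hy
  exact mem_imageAlong.2 ⟨x, hx, h hxP, rfl⟩

theorem hasChain_factor (hD : F.IsFactorSystem S₀ θ D) (h : HasChain F ⊥) : HasChain D ⊥ := by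
  obtain ⟨m, c, h0, hm, hsc, hmono, hcc⟩ := h
  refine ⟨m, fun i => imageAlong θ (c i), ?_, ?_, fun i => stronglyClosed_image hD (hsc i),
    fun i => imageAlong_mono (hmono i), fun i => ?_⟩
  · show imageAlong θ (c 0) = ⊥
    rw [h0, eq_bot_iff]
    intro y hy
    obtain ⟨x, hx, hx1, rfl⟩ := mem_imageAlong.1 hy
    rw [Subgroup.mem_bot] at hx1
    subst hx1
    exact (Subgroup.mem_bot).2 (map_one θ)
  · show imageAlong θ (c m) = S'
    rw [hm, ← hD.2.2.1]
    apply le_antisymm imageAlong_le_range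
    rintro _ ⟨x, rfl⟩
    exact mem_imageAlong.2 ⟨x, x.2, x.2, rfl⟩
  · show ⁅imageAlong θ (c (i + 1)), imageAlong θ (c (i + 1))⁆ ≤ imageAlong θ (c i)
    rw [Subgroup.commutator_le]
    intro a ha b hb
    obtain ⟨x, hx, hxP, rfl⟩ := mem_imageAlong.1 ha
    obtain ⟨y, hy, hyP, rfl⟩ := mem_imageAlong.1 hb
    rw [← map_commutatorElement]
    exact mem_imageAlong.2 ⟨_, (⁅(⟨x, hx⟩ : S), (⟨y, hy⟩ : S)⁆ : S).2,
      hcc i (Subgroup.commutator_mem_commutator hxP hyP), rfl⟩

theorem hasChain_of_factor [Finite S] {p : ℕ} [Fact p.Prime] (hS : IsPGroup p S)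
    (hF : F.IsSaturated p) (hS₀ : F.StronglyClosed S₀) (hD : F.IsFactorSystem S₀ θ D)
    (h : HasChain D ⊥) : HasChain F S₀ := by
  obtain ⟨m, c, h0, hm, hsc, hmono, hcc⟩ := h
  refine ⟨m, fun i => preimageAlong θ (c i), ?_, ?_,
    fun i => stronglyClosed_preimage hS hF hS₀ hD (hsc i),
    fun i => preimageAlong_mono (hmono i), fun i => ?_⟩
  · show preimageAlong θ (c 0) = S₀
    rw [h0]
    ext x
    rw [mem_preimageAlong]
    constructor
    · rintro ⟨hx, h1⟩
      exact (hD.2.1 ⟨x, hx⟩).1 (Subgroup.mem_bot.1 h1)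
    · intro hx
      exact ⟨hS₀.1 hx, Subgroup.mem_bot.2 ((hD.2.1 ⟨x, hS₀.1 hx⟩).2 hx)⟩
  · show preimageAlong θ (c m) = S
    rw [hm]
    apply le_antisymm preimageAlong_le
    intro x hx
    refine mem_preimageAlong.2 ⟨hx, ?_⟩
    rw [← hD.2.2.1]
    exact ⟨_, rfl⟩
  · show ⁅preimageAlong θ (c (i + 1)), preimageAlong θ (c (i + 1))⁆ ≤ preimageAlong θ (c i)
    rw [Subgroup.commutator_le]
    intro a ha b hb
    obtain ⟨haS, ha'⟩ := mem_preimageAlong.1 ha
    obtain ⟨hbS, hb'⟩ := mem_preimageAlong.1 hb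
    refine mem_preimageAlong.2 ⟨(⁅(⟨a, haS⟩ : S), (⟨b, hbS⟩ : S)⁆ : S).2, ?_⟩
    have h1 : θ ⁅(⟨a, haS⟩ : S), (⟨b, hbS⟩ : S)⁆ ∈ c i := by
      rw [map_commutatorElement]
      exact hcc i (Subgroup.commutator_mem_commutator ha' hb')
    exact h1

end factor

end Cfsg.Agent.H760
end

-- part: S5159
section
set_option autoImplicit false
open Cfsg

namespace Cfsg.Agent.S5159

open Cfsg.FusionSystem Cfsg.Agent.H759 Cfsg.Agent.H760 in
/-- Let F be a saturated fusion system over a finite p-group S, E a normal subsystem over T, and D the factor system of F modulo T (read through any homomorphism on S with kernel T). Then F is solvable if and only if E and D are solvable (solvable, for a system over a subgroup S: for every subgroup R other than S that is strongly closed in F, the factor system of F modulo R has a nontrivial subgroup normal in it). -/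
theorem result {Ω : Type*} [Group Ω] {S : Subgroup Ω} [Finite S] (p : ℕ) [Fact p.Prime] (hS : IsPGroup p S) (F : Cfsg.FusionSystem S) (hF : F.IsSaturated p) {T : Subgroup Ω} (E : Cfsg.FusionSystem T) (hE : E.IsNormalIn F p) {Ω' : Type*} [Group Ω'] {S' : Subgroup Ω'} (θ : S →* Ω') (D : Cfsg.FusionSystem S') (hD : F.IsFactorSystem T θ D) : F.IsSolvableSystem ↔ (E.IsSolvableSystem ∧ D.IsSolvableSystem) := by
  have hinv : E.IsInvariantIn F := hE.1.2.2
  have hT : F.StronglyClosed T := hinv.2.1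
  have hTS : T ≤ S := hT.1
  have : Finite T := Finite.of_injective _ (Subgroup.inclusion_injective hTS)
  have hTp : IsPGroup p T := hS.to_le hTS
  have hr : θ.range = S' := hD.2.2.1
  have : Finite S' := by
    rw [← hr]
    exact Finite.of_surjective θ.rangeRestrict θ.rangeRestrict_surjective
  have hS'p : IsPGroup p S' := by
    have h1 : IsPGroup p θ.range := hS.of_surjective θ.rangeRestrict θ.rangeRestrict_surjective
    rwa [hr] at h1
  have hEs : E.IsSaturated p := hE.1.1
  have hDs : D.IsSaturated p := isSaturated_factor hS hF hT hD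
  constructor
  · intro h
    have hc := hasChain_of_isSolvableSystem hS hF h ⊥ StronglyClosed.bot
    exact ⟨isSolvableSystem_of_hasChain hTp hEs (hasChain_sub hinv.1 hTS hc),
      isSolvableSystem_of_hasChain hS'p hDs (hasChain_factor hD hc)⟩
  · rintro ⟨h1, h2⟩
    have hc1 := hasChain_of_isSolvableSystem hTp hEs h1 ⊥ StronglyClosed.bot
    have hc2 := hasChain_of_isSolvableSystem hS'p hDs h2 ⊥ StronglyClosed.bot
    exact isSolvableSystem_of_hasChain hS hF
      (hasChain_of_invariant hinv hc1 (hasChain_of_factor hS hF hT hD hc2))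

end Cfsg.Agent.S5159
end
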