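import Cfsg.Agent.H761.Blocks
import Cfsg.Agent.ClosedTwo.Elem
import Cfsg.Statements.S5165
import Cfsg.Agent.H761.OddE
import Cfsg.Agent.H799.SymSyl
import Cfsg.Agent.H187.FusSelfNorm
import Cfsg.Agent.ClosedAlt.Alt
set_option linter.all false

-- part: H761/OddClosed
section
/-!
# Strongly closed `p`-subgroups of alternating groups, `p` odd (helper761)

`closed_odd` : `p` odd, `3 ≤ |α| / p`, `S` a Sylow `p`-subgroup of `alternatingGroup α`, `D` strongly closed in `S`:
`D = 1` or `D = S`.
-/

set_option autoImplicit false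

namespace Cfsg.Agent.H761

open Equiv Equiv.Perm Cfsg.Agent.H761.Frame Cfsg.Agent.H802 Cfsg.Agent.ClosedTwo.Elem

section cyc

variable {I α : Type*} {p : ℕ} [Fintype I] [DecidableEq I] [Fintype α] [DecidableEq α]

theorem card_support_tr [NeZero p] (f : I → ZMod p) :
    (tr f).support.card = (Finset.univ.filter (fun i => f i ≠ 0)).card * p := by
  have h : (tr f).support = (Finset.univ.filter (fun i => f i ≠ 0)) ×ˢ Finset.univ := by
    ext ⟨i, z⟩
    rw [mem_support, tr_apply, Finset.mem_product, Finset.mem_filter]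
    simp
  rw [h, Finset.card_product, Finset.card_univ, ZMod.card]

/-- two permutations of the same prime order with supports of equal size are conjugate -/
theorem isConj_of_orderOf [Fact p.Prime] {x y : Perm α} (hx : orderOf x = p) (hy : orderOf y = p)
    (h : x.support.card = y.support.card) : IsConj x y := by
  have hp : p.Prime := Fact.out
  rw [isConj_iff_cycleType_eq]
  obtain ⟨k, hk⟩ := cycleType_prime_order (σ := x) (by rw [hx]; exact hp)
  obtain ⟨l, hl⟩ := cycleType_prime_order (σ := y) (by rw [hy]; exact hp)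
  rw [← sum_cycleType, ← sum_cycleType, hk, hl, hx, hy, Multiset.sum_replicate, Multiset.sum_replicate,
    smul_eq_mul, smul_eq_mul] at h
  rw [hk, hl, hx, hy, Nat.eq_of_mul_eq_mul_right hp.pos h]

theorem orderOf_T_tr [Fact p.Prime] (ι : I × ZMod p ↪ α) {f : I → ZMod p} (hf : f ≠ 0) :
    orderOf (T ι (tr f)) = p := by
  apply orderOf_eq_prime
  · rw [← map_pow, tr_pow_q, map_one]
  · intro h
    apply hf
    apply tr_injective
    apply T_injective ι
    rw [h, tr_zero, map_one]

/-- a permutation of order `p` is conjugate to a translation of some blocks -/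
theorem exists_conj_tr [Fact p.Prime] {r : ℕ} (hr : r < p) (hα : Fintype.card α = p * Fintype.card I + r)
    (ι : I × ZMod p ↪ α) {x : Perm α} (hx : orderOf x = p) :
    ∃ K : Finset I, K.Nonempty ∧ IsConj x (T ι (tr (fun i => if i ∈ K then 1 else 0))) ∧
      x.support.card = K.card * p := by
  have hp : p.Prime := Fact.out
  obtain ⟨k, hk⟩ := cycleType_prime_order (σ := x) (by rw [hx]; exact hp)
  have h1 : x.support.card = (k + 1) * p := by
    rw [← sum_cycleType, hk, hx, Multiset.sum_replicate, smul_eq_mul]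
  have h2 : (k + 1) * p ≤ Fintype.card α := by
    rw [← h1]
    exact Finset.card_le_univ _
  have h3 : k + 1 ≤ Fintype.card I := by
    by_contra h4
    push Not at h4
    have h5 : p * (Fintype.card I + 1) ≤ p * (k + 1) := Nat.mul_le_mul_left _ h4
    rw [hα, mul_comm (k + 1) p] at h2
    have h6 : p * (Fintype.card I + 1) = p * Fintype.card I + p := by ring
    omega
  obtain ⟨K, -, hK⟩ := Finset.exists_subset_card_eq (s := (Finset.univ : Finset I)) (n := k + 1)
    (by rw [Finset.card_univ]; exact h3)
  have hKne : K.Nonempty := by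
    rw [← Finset.card_pos, hK]
    omega
  refine ⟨K, hKne, ?_, by rw [h1, hK]⟩
  have hf : (fun i => if i ∈ K then (1 : ZMod p) else 0) ≠ 0 := by
    obtain ⟨i, hi⟩ := hKne
    intro h
    have := congrFun h i
    simp [hi] at this
  refine isConj_of_orderOf hx (orderOf_T_tr ι hf) ?_
  rw [h1, card_support_T, card_support_tr]
  congr 1
  rw [← hK]
  congr 1
  ext i
  simp

/-- a permutation of order `p` commutes with an odd permutation -/
theorem exists_odd_comm [Fact p.Prime] (hp2 : p ≠ 2) {r : ℕ} (hr : r < p)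
    (hα : Fintype.card α = p * Fintype.card I + r) (h3 : 3 ≤ Fintype.card I)
    (ι : I × ZMod p ↪ α) {x : Perm α} (hx : orderOf x = p) :
    ∃ z : Perm α, sign z = -1 ∧ z * x = x * z := by
  have hp : p.Prime := Fact.out
  obtain ⟨K, -, hK, -⟩ := exists_conj_tr hr hα ι hx
  obtain ⟨i, j, hij, hijK⟩ : ∃ i j : I, i ≠ j ∧ (i ∈ K ↔ j ∈ K) := by
    obtain ⟨f, hf⟩ : ∃ f : I → Bool, ∀ i, f i = true ↔ i ∈ K := ⟨fun i => decide (i ∈ K), fun i => by simp⟩
    obtain ⟨i, j, hij, h⟩ := Fintype.exists_ne_map_eq_of_card_lt f (by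
      rw [Fintype.card_bool]
      omega)
    exact ⟨i, j, hij, by rw [← hf, ← hf, h]⟩
  obtain ⟨g, hg⟩ := isConj_iff.1 hK
  set f : I → ZMod p := fun i => if i ∈ K then 1 else 0 with hf
  have h1 : bl (swap i j) * tr f = tr f * bl (swap i j) := by
    rw [← mul_inv_eq_iff_eq_mul, bl_tr]
    congr 1
    funext k
    rw [Function.comp_apply, symm_swap, hf]
    by_cases hk : k = i
    · subst hk
      rw [swap_apply_left]
      simp only [hijK]
    · by_cases hk' : k = j
      · subst hk'
        rw [swap_apply_right]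
        simp only [hijK]
      · rw [swap_apply_of_ne_of_ne hk hk']
  refine ⟨g⁻¹ * T ι (bl (swap i j)) * g, ?_, ?_⟩
  · rw [map_mul, map_mul, map_inv, sign_T, sign_bl, sign_swap hij, (hp.odd_of_ne_two hp2).neg_one_pow]
    rcases Int.units_eq_one_or (sign g) with h | h <;> rw [h] <;> decide
  · have h2 : x = g⁻¹ * T ι (tr f) * g := by
      rw [← hg]
      group
    rw [h2]
    calc g⁻¹ * T ι (bl (swap i j)) * g * (g⁻¹ * T ι (tr f) * g) = g⁻¹ * (T ι (bl (swap i j)) * T ι (tr f)) * g := by
          group
      _ = g⁻¹ * (T ι (tr f) * T ι (bl (swap i j))) * g := by rw [← map_mul, h1, map_mul]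
      _ = _ := by group

end cyc

/-! ### a long cycle as a product -/

section long

variable {p q : ℕ} [Fact p.Prime] [NeZero q]

/-- the cyclic shift of the blocks -/
def cshift (p : ℕ) : Perm (ZMod p) := Equiv.addRight 1

theorem cshift_apply (x : ZMod p) : cshift p x = x + 1 := rfl

theorem cshift_pow (k : ℕ) (x : ZMod p) : (cshift p ^ k) x = x + k := by
  induction k with
  | zero => simp
  | succ k ih => rw [pow_succ', mul_apply, ih, cshift_apply]; push_cast; ring

theorem cshift_pow_p : cshift p ^ p = 1 := by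
  ext1 x
  rw [cshift_pow]
  simp

/-- the long cycle -/
def longc (p q : ℕ) [NeZero p] : Perm (ZMod p × ZMod q) := bl (cshift p) * tr (Pi.single 0 1)

theorem longc_apply (x : ZMod p) (z : ZMod q) :
    longc p q (x, z) = (x + 1, z + (Pi.single 0 1 : ZMod p → ZMod q) x) := rfl

theorem longc_walk (a : ZMod p × ZMod q) (z : ZMod q) (h : SameCycle (longc p q) a (0, z)) (j : ℕ) (hj : j < p) :
    SameCycle (longc p q) a (((j + 1 : ℕ) : ZMod p), z + 1) := by
  induction j with
  | zero =>
    have h1 : longc p q ((0 : ZMod p), z) = (((0 + 1 : ℕ) : ZMod p), z + 1) := by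
      rw [longc_apply]
      simp
    rw [← h1]
    exact sameCycle_apply_right.2 h
  | succ j ih =>
    have h1 := ih (by omega)
    have h2 : ((j + 1 : ℕ) : ZMod p) ≠ 0 := by
      intro h3
      rw [ZMod.natCast_eq_zero_iff] at h3
      have := Nat.le_of_dvd (by omega) h3
      omega
    have h4 : longc p q (((j + 1 : ℕ) : ZMod p), z + 1) = (((j + 1 + 1 : ℕ) : ZMod p), z + 1) := by
      rw [longc_apply, Pi.single_eq_of_ne h2]
      push_cast
      simp
    rw [← h4]
    exact sameCycle_apply_right.2 h1

theorem longc_zero (z : ℕ) : SameCycle (longc p q) ((0 : ZMod p), (0 : ZMod q)) (0, (z : ZMod q)) := by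
  have hp : p.Prime := Fact.out
  induction z with
  | zero => simp [SameCycle.refl]
  | succ z ih =>
    have h := longc_walk _ _ ih (p - 1) (by have := hp.pos; omega)
    have h1 : ((p - 1 + 1 : ℕ) : ZMod p) = 0 := by
      rw [Nat.sub_add_cancel hp.one_lt.le]
      simp
    rw [h1] at h
    rw [Nat.cast_succ]
    exact h

theorem longc_sameCycle (x : ZMod p) (z : ZMod q) :
    SameCycle (longc p q) ((0 : ZMod p), (0 : ZMod q)) (x, z) := by
  have hp : p.Prime := Fact.out
  have h1 := longc_zero (p := p) (q := q) (z - 1).val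
  rw [ZMod.natCast_zmod_val] at h1
  have h2 := longc_walk _ _ h1 (x - 1).val (ZMod.val_lt _)
  rw [Nat.cast_succ, ZMod.natCast_zmod_val, sub_add_cancel, sub_add_cancel] at h2
  exact h2

theorem longc_ne (a : ZMod p × ZMod q) : longc p q a ≠ a := by
  intro h
  have h1 : a.1 + 1 = a.1 := congrArg Prod.fst h
  simp at h1

theorem longc_isCycle : (longc p q).IsCycle :=
  ⟨(0, 0), longc_ne _, fun y _ => longc_sameCycle y.1 y.2⟩

theorem card_support_longc : (longc p q).support.card = p * q := by
  have h : (longc p q).support = Finset.univ := by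
    ext a
    rw [mem_support]
    simp [longc_ne]
  rw [h, Finset.card_univ, Fintype.card_prod, ZMod.card, ZMod.card]

end long

section extend

variable {α β : Type*} [Fintype α] [DecidableEq α] [Fintype β] [DecidableEq β]

theorem T_eq_extendDomain (ι : β ↪ α) (g : Perm β) :
    T ι g = g.extendDomain (ofInjective ι.1 ι.2) := by
  classical
  ext1 y
  by_cases hy : y ∈ Set.range ι
  · obtain ⟨x, rfl⟩ := hy
    rw [T_apply]
    exact (extendDomain_apply_image g (ofInjective ι.1 ι.2) x).symm
  · rw [T_out ι g hy]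
    exact (extendDomain_apply_not_subtype g (ofInjective ι.1 ι.2) hy).symm

theorem isCycle_T (ι : β ↪ α) {g : Perm β} (h : g.IsCycle) : (T ι g).IsCycle := by
  classical
  rw [T_eq_extendDomain]
  exact h.extendDomain (ofInjective ι.1 ι.2)

end extend

section main

variable {I α : Type*} {p : ℕ} [Fact p.Prime] [Fintype I] [DecidableEq I] [Fintype α] [DecidableEq α]
  {S : Sylow p (alternatingGroup α)} {D : Subgroup (alternatingGroup α)}

/-- conjugate into `D` -/
def CP (D : Subgroup (alternatingGroup α)) (x : Perm α) : Prop :=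
  ∃ h : x ∈ alternatingGroup α, Cl D ⟨x, h⟩

theorem CP.conj {x : Perm α} (h : CP D x) {g : Perm α} (hg : g ∈ alternatingGroup α) : CP D (g * x * g⁻¹) := by
  obtain ⟨h1, h2⟩ := h
  exact ⟨Subgroup.mul_mem _ (Subgroup.mul_mem _ hg h1) (Subgroup.inv_mem _ hg), h2.conj ⟨g, hg⟩⟩

theorem CP.inv {x : Perm α} (h : CP D x) : CP D x⁻¹ := by
  obtain ⟨h1, h2⟩ := h
  exact ⟨Subgroup.inv_mem _ h1, h2.inv⟩

theorem CP_one : CP D (1 : Perm α) := ⟨Subgroup.one_mem _, cl_one⟩

variable (hD : IsStronglyClosed D (S : Subgroup (alternatingGroup α)))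

include hD in
theorem CP.mul {x y : Perm α} {P : Subgroup (Perm α)} (hP : IsPGroup p P) (hxP : x ∈ P) (hyP : y ∈ P)
    (hx : CP D x) (hy : CP D y) : CP D (x * y) := by
  obtain ⟨hx1, hx2⟩ := hx
  obtain ⟨hy1, hy2⟩ := hy
  refine ⟨Subgroup.mul_mem _ hx1 hy1, ?_⟩
  have hP' : IsPGroup p (P.comap (alternatingGroup α).subtype) :=
    hP.comap_of_injective _ (Subgroup.subtype_injective _)
  exact Cl.mul hD hP' (x := ⟨x, hx1⟩) (y := ⟨y, hy1⟩) hxP hyP hx2 hy2

include hD in
/-- all elements of order `p` are conjugate into `D` -/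
theorem CP_order (hp2 : p ≠ 2) {r : ℕ} (hr : r < p)
    (hα : Fintype.card α = p * Fintype.card I + r) (h3 : 3 ≤ Fintype.card I)
    (ι : I × ZMod p ↪ α) (hD1 : D ≠ ⊥) {y : Perm α} (hy : orderOf y = p) : CP D y := by
  have hp : p.Prime := Fact.out
  have hodd := hp.odd_of_ne_two hp2
  -- fusion of elements with supports of the same size
  have hfus : ∀ {x y : Perm α}, orderOf x = p → orderOf y = p → x.support.card = y.support.card →
      CP D x → CP D y := by
    intro x y hx hy hxy hxD
    obtain ⟨g, hg⟩ := isConj_iff.1 (isConj_of_orderOf hx hy hxy)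
    rcases Int.units_eq_one_or (sign g) with h | h
    · rw [← hg]
      exact hxD.conj (mem_alternatingGroup.2 h)
    · obtain ⟨z, hz, hzx⟩ := exists_odd_comm hp2 hr hα h3 ι hx
      have h1 : y = (g * z) * x * (g * z)⁻¹ := by
        rw [← hg]
        calc g * x * g⁻¹ = g * (x * z) * z⁻¹ * g⁻¹ := by group
          _ = g * (z * x) * z⁻¹ * g⁻¹ := by rw [hzx]
          _ = _ := by group
      rw [h1]
      exact hxD.conj (mem_alternatingGroup.2 (by rw [map_mul, h, hz]; decide))
  -- an element of order `p` of `D`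
  have hDp : IsPGroup p D := S.isPGroup'.to_le hD.1
  have hDdvd : p ∣ Nat.card D := by
    obtain ⟨k, hk⟩ := IsPGroup.iff_card.1 hDp
    rcases Nat.eq_zero_or_pos k with h0 | h0
    · rw [h0, pow_zero] at hk
      exact absurd (Subgroup.card_eq_one.1 hk) hD1
    · rw [hk]
      exact dvd_pow_self p h0.ne'
  obtain ⟨⟨x, hxD⟩, hx⟩ := exists_prime_orderOf_dvd_card' p hDdvd
  have hx1 : orderOf (x : Perm α) = p := by
    rw [← hx, ← Subgroup.orderOf_coe, ← Subgroup.orderOf_coe]
  have hxCP : CP D (x : Perm α) := ⟨x.2, cl_of_mem hxD⟩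
  obtain ⟨K, hKne, -, hKs⟩ := exists_conj_tr hr hα ι hx1
  -- translations
  have htr : ∀ f : I → ZMod p, (Finset.univ.filter (fun i => f i ≠ 0)) = K → CP D (T ι (tr f)) := by
    intro f hf
    have hf0 : f ≠ 0 := by
      obtain ⟨i, hi⟩ := hKne
      rw [← hf, Finset.mem_filter] at hi
      intro h
      exact hi.2 (congrFun h i)
    refine hfus hx1 (orderOf_T_tr ι hf0) ?_ hxCP
    rw [hKs, card_support_T, card_support_tr, hf]
  have hbP : IsPGroup p (base ι) := by
    rintro ⟨g, hg⟩
    obtain ⟨f, rfl⟩ := mem_base.1 hg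
    refine ⟨1, Subtype.ext ?_⟩
    show T ι (tr f) ^ p ^ 1 = 1
    rw [pow_one, ← map_pow, tr_pow_q, map_one]
  have h20 : (2 : ZMod p) ≠ 0 := by
    intro h
    have h2 : ((2 : ℕ) : ZMod p) = 0 := by rw [Nat.cast_ofNat]; exact h
    rw [ZMod.natCast_eq_zero_iff] at h2
    exact hp2 ((Nat.prime_dvd_prime_iff_eq hp Nat.prime_two).1 h2)
  obtain ⟨i₀, hi₀⟩ := hKne
  have hsing : CP D (T ι (tr (Pi.single i₀ (1 : ZMod p)))) := by
    have h1 := htr (fun i => if i ∈ K then 1 else 0) (by ext i; simp)
    have h2 := htr ((fun i => if i ∈ K then 1 else 0) + Pi.single i₀ 1) (by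
      ext i
      rw [Finset.mem_filter, Pi.add_apply]
      by_cases hi : i = i₀
      · subst hi
        rw [Pi.single_eq_same, if_pos hi₀, one_add_one_eq_two]
        simp [hi₀, h20]
      · rw [Pi.single_eq_of_ne hi, add_zero]
        simp)
    have h3 := CP.mul hD hbP ((base ι).inv_mem (mem_base.2 ⟨_, rfl⟩)) (mem_base.2 ⟨_, rfl⟩) h1.inv h2
    rw [← map_inv, ← tr_neg, ← map_mul, ← tr_add, neg_add_cancel_left] at h3
    exact h3
  have hsing' : ∀ i, CP D (T ι (tr (Pi.single i (1 : ZMod p)))) := by
    intro i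
    have hne : ∀ i : I, (Pi.single i (1 : ZMod p) : I → ZMod p) ≠ 0 := by
      intro i h
      have := congrFun h i
      simp at this
    refine hfus (orderOf_T_tr ι (hne i₀)) (orderOf_T_tr ι (hne i)) ?_ hsing
    have hc : ∀ i : I, (Finset.univ.filter (fun j => (Pi.single i (1 : ZMod p) : I → ZMod p) j ≠ 0)) = {i} := by
      intro i
      ext j
      rw [Finset.mem_filter, Finset.mem_singleton]
      by_cases hj : j = i
      · subst hj; simp
      · rw [Pi.single_eq_of_ne hj]; simp [hj]
    rw [card_support_T, card_support_T, card_support_tr, card_support_tr, hc, hc]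
    rfl
  have hall : ∀ f : I → ZMod p, CP D (T ι (tr f)) := by
    let K' : AddSubgroup (I → ZMod p) :=
      { carrier := {f | CP D (T ι (tr f))}
        add_mem' := by
          intro a b ha hb
          have h1 := CP.mul hD hbP (mem_base.2 ⟨_, rfl⟩) (mem_base.2 ⟨_, rfl⟩) ha hb
          rw [← map_mul, ← tr_add] at h1
          exact h1
        zero_mem' := by
          show CP D (T ι (tr 0))
          rw [tr_zero, map_one]
          exact CP_one
        neg_mem' := by
          intro a ha
          have h1 := CP.inv ha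
          rw [← map_inv, ← tr_neg] at h1
          exact h1 }
    intro f
    have h1 : f ∈ K' := by
      rw [← Finset.univ_sum_single f]
      refine AddSubgroup.sum_mem K' (fun i _ => ?_)
      have h4 : (Pi.single i (f i) : I → ZMod p) = (f i).val • Pi.single i 1 := by
        rw [← Pi.single_smul]
        simp
      rw [h4]
      exact AddSubgroup.nsmul_mem K' (hsing' i) _
    exact h1
  obtain ⟨L, hLne, hL, hLs⟩ := exists_conj_tr hr hα ι hy
  have hf : (fun i => if i ∈ L then (1 : ZMod p) else 0) ≠ 0 := by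
    obtain ⟨i, hi⟩ := hLne
    intro h
    have := congrFun h i
    simp [hi] at this
  refine hfus (orderOf_T_tr ι hf) hy ?_ (hall _)
  rw [hLs, card_support_T, card_support_tr]
  congr 2
  ext i
  simp

include hD in
/-- cycles of `p`-power length are conjugate into `D` -/
theorem CP_cycle (hord : ∀ y : Perm α, orderOf y = p → CP D y) (k : ℕ) :
    ∀ c : Perm α, c.IsCycle → c.support.card = p ^ (k + 1) → CP D c := by
  have hp : p.Prime := Fact.out
  induction k with
  | zero =>
    intro c hc hcs
    apply hord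
    rw [hc.orderOf, hcs, zero_add, pow_one]
  | succ k ih =>
    intro c hc hcs
    have hq : NeZero (p ^ (k + 1)) := ⟨(pow_pos hp.pos _).ne'⟩
    obtain ⟨κ⟩ : Nonempty (ZMod p × ZMod (p ^ (k + 1)) ↪ α) := by
      apply Function.Embedding.nonempty_of_card_le
      rw [Fintype.card_prod, ZMod.card, ZMod.card, ← pow_succ', ← hcs]
      exact Finset.card_le_univ _
    have h1 : IsConj (T κ (longc p (p ^ (k + 1)))) c := by
      refine (isCycle_T κ longc_isCycle).isConj hc ?_
      rw [card_support_T, card_support_longc, hcs, ← pow_succ']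
    obtain ⟨g, hg⟩ := isConj_iff.1 h1
    have h2 : c = (g * T κ (bl (cshift p)) * g⁻¹) * (g * T κ (tr (Pi.single 0 1)) * g⁻¹) := by
      rw [← hg, longc, map_mul]
      group
    -- a `p`-group containing both
    have hPp : IsPGroup p (Subgroup.zpowers (cshift p)) := by
      rintro ⟨y, n, hn⟩
      refine ⟨1, Subtype.ext ?_⟩
      show y ^ p ^ 1 = 1
      rw [pow_one, ← hn]
      show (cshift p ^ n) ^ p = 1
      rw [← zpow_natCast, ← zpow_mul, mul_comm, zpow_mul, zpow_natCast, cshift_pow_p, one_zpow]
    have hW : IsPGroup p (wr κ (Subgroup.zpowers (cshift p))) := by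
      obtain ⟨m, hm⟩ := IsPGroup.iff_card.1 hPp
      apply IsPGroup.of_card (n := (k + 1) * Fintype.card (ZMod p) + m)
      rw [card_wr, hm, ← pow_mul, ← pow_add]
    have hWg : IsPGroup p ((wr κ (Subgroup.zpowers (cshift p))).map (MulAut.conj g).toMonoidHom) :=
      hW.map _
    rw [h2]
    refine CP.mul hD hWg ?_ ?_ ?_ ?_
    · exact ⟨_, bl_mem_wr κ (Subgroup.mem_zpowers _), rfl⟩
    · exact ⟨_, tr_mem_wr κ _ _, rfl⟩
    · apply hord
      apply orderOf_eq_prime
      · rw [conj_pow, ← map_pow, ← bl_pow, cshift_pow_p, bl_one, map_one, mul_one, mul_inv_cancel]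
      · intro h
        have h3 : T κ (bl (cshift p)) = 1 := by
          have := congrArg (fun e => g⁻¹ * e * g) h
          simpa [mul_assoc] using this
        have h4 := congrArg (fun e : Perm α => e (κ (0, 0))) h3
        simp only [T_apply, bl_apply, one_apply] at h4
        have h5 := congrArg Prod.fst (κ.injective h4)
        rw [cshift_apply] at h5
        simp at h5
    · have h3 : T κ (tr (Pi.single (0 : ZMod p) (1 : ZMod (p ^ (k + 1))))) ≠ 1 := by
        intro h
        have h4 := congrArg (fun e : Perm α => e (κ (0, 0))) h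
        simp only [T_apply, tr_apply, one_apply] at h4
        have h5 := congrArg Prod.snd (κ.injective h4)
        have h6 : Nontrivial (ZMod (p ^ (k + 1))) := by
          have : Fact (1 < p ^ (k + 1)) := ⟨Nat.one_lt_pow (by omega) hp.one_lt⟩
          infer_instance
        simp at h5
      have h6 : Nontrivial (ZMod (p ^ (k + 1))) := by
        have : Fact (1 < p ^ (k + 1)) := ⟨Nat.one_lt_pow (by omega) hp.one_lt⟩
        infer_instance
      have hcyc : (T κ (tr (Pi.single (0 : ZMod p) (1 : ZMod (p ^ (k + 1)))))).IsCycle := by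
        refine ⟨κ (0, 0), ?_, ?_⟩
        · rw [T_apply, tr_apply]
          intro h
          have h5 := congrArg Prod.snd (κ.injective h)
          simp at h5
        · intro y hy
          obtain ⟨z, rfl⟩ := moved_single hy
          refine ⟨(z.val : ℤ), ?_⟩
          rw [zpow_natCast, T_pow_apply, tr_pow_apply]
          simp
      apply ih
      · exact hcyc.conj
      · rw [card_support_conj, card_support_T, card_support_tr]
        have hc : (Finset.univ.filter (fun j => (Pi.single 0 1 : ZMod p → ZMod (p ^ (k + 1))) j ≠ 0)) = {0} := by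
          ext j
          rw [Finset.mem_filter, Finset.mem_singleton]
          by_cases hj : j = 0
          · subst hj; simp
          · rw [Pi.single_eq_of_ne hj]; simp [hj]
        rw [hc, Finset.card_singleton, one_mul]

theorem isPGroup_zpowers_of_pow {G : Type*} [Group G] {x : G} {k : ℕ} (h : x ^ p ^ k = 1) :
    IsPGroup p (Subgroup.zpowers x) := by
  rintro ⟨y, n, hn⟩
  refine ⟨k, Subtype.ext ?_⟩
  show y ^ p ^ k = 1
  rw [← hn]
  show (x ^ n) ^ p ^ k = 1
  rw [← zpow_natCast, ← zpow_mul, mul_comm, zpow_mul, zpow_natCast, h, one_zpow]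

include hD in
/-- **Strongly closed `p`-subgroups of alternating groups, `p` odd.** -/
theorem closed_odd (hp2 : p ≠ 2) {r : ℕ} (hr : r < p)
    (hα : Fintype.card α = p * Fintype.card I + r) (h3 : 3 ≤ Fintype.card I) :
    D = ⊥ ∨ D = (S : Subgroup (alternatingGroup α)) := by
  have hp : p.Prime := Fact.out
  by_cases hD1 : D = ⊥
  · exact Or.inl hD1
  right
  obtain ⟨ι⟩ : Nonempty (I × ZMod p ↪ α) := by
    apply Function.Embedding.nonempty_of_card_le
    rw [Fintype.card_prod, ZMod.card, hα]
    nlinarith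
  have hord : ∀ y : Perm α, orderOf y = p → CP D y := fun y hy => CP_order hD hp2 hr hα h3 ι hD1 hy
  have key : ∀ x : Perm α, (∃ k : ℕ, x ^ p ^ k = 1) → CP D x := by
    intro x
    induction x using cycle_induction_on with
    | base_one => exact fun _ => CP_one
    | base_cycles σ hσ =>
      rintro ⟨k, hk⟩
      obtain ⟨j, -, hj⟩ := (Nat.dvd_prime_pow hp).1 (orderOf_dvd_of_pow_eq_one hk)
      rw [hσ.orderOf] at hj
      have h2 := hσ.two_le_card_support
      rcases Nat.exists_eq_succ_of_ne_zero (n := j) (by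
        rintro rfl
        rw [hj, pow_zero] at h2
        omega) with ⟨i, rfl⟩
      exact CP_cycle hD hord i σ hσ hj
    | induction_disjoint σ τ hd hc h1 h2 =>
      rintro ⟨k, hk⟩
      have h4 : σ ^ p ^ k * τ ^ p ^ k = 1 := by rw [← hd.commute.mul_pow, hk]
      obtain ⟨h5, h6⟩ := (hd.pow_disjoint_pow _ _).mul_eq_one_iff.1 h4
      have hP : IsPGroup p (Subgroup.zpowers σ ⊔ Subgroup.zpowers τ : Subgroup (Perm α)) := by
        refine IsPGroup.to_sup_of_normal_right' (isPGroup_zpowers_of_pow h5) (isPGroup_zpowers_of_pow h6) ?_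
        rw [Subgroup.zpowers_le, Subgroup.mem_normalizer_iff]
        intro x
        have h7 : ∀ x ∈ Subgroup.zpowers τ, σ * x * σ⁻¹ = x := by
          rintro _ ⟨n, rfl⟩
          have := (hd.commute.zpow_right n).eq
          show σ * τ ^ n * σ⁻¹ = τ ^ n
          rw [this, mul_inv_cancel_right]
        constructor
        · intro hx
          rw [h7 x hx]
          exact hx
        · intro hx
          have h8 := h7 _ hx
          have h9 : σ * x * σ⁻¹ = x := mul_left_cancel (mul_right_cancel h8)
          rwa [h9] at hx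
      exact CP.mul hD hP (Subgroup.mem_sup_left (Subgroup.mem_zpowers σ))
        (Subgroup.mem_sup_right (Subgroup.mem_zpowers τ)) (h1 ⟨k, h5⟩) (h2 ⟨k, h6⟩)
  apply eq_of_cl hD
  intro x hx
  obtain ⟨k, hk⟩ := S.isPGroup' ⟨x, hx⟩
  have hk' : (x : Perm α) ^ p ^ k = 1 := by
    have h1 : x ^ p ^ k = 1 := congrArg Subtype.val hk
    exact congrArg Subtype.val h1
  obtain ⟨h1, h2⟩ := key x ⟨k, hk'⟩
  exact h2

end main

end Cfsg.Agent.H761
end

-- part: S5165
section
set_option autoImplicit false
open Cfsg

namespace Cfsg.Agent.S5165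

open Equiv Equiv.Perm Cfsg.Agent.H761 Cfsg.Agent.H761.Frame Cfsg.Agent.H802

theorem sylow_ne_bot (n p : ℕ) (hn : 6 ≤ n) [Fact p.Prime] (hnp : p ^ 2 ≤ n)
    (S : Sylow p (alternatingGroup (Fin n))) : (S : Subgroup (alternatingGroup (Fin n))) ≠ ⊥ := by
  have hp : p.Prime := Fact.out
  intro h
  have h1 : Nat.card S = 1 := by
    show Nat.card (S : Subgroup (alternatingGroup (Fin n))) = 1
    rw [h, Subgroup.card_bot]
  rw [S.card_eq_multiplicity] at h1
  have h2 : p ∣ Nat.card (alternatingGroup (Fin n)) := by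
    have h3 : 2 * Nat.card (alternatingGroup (Fin n)) = n.factorial := by
      have hnt : Nontrivial (Fin n) := Fin.nontrivial_iff_two_le.2 (by omega)
      rw [two_mul_nat_card_alternatingGroup, Nat.card_perm, Nat.card_eq_fintype_card, Fintype.card_fin]
    rcases hp.eq_two_or_odd' with h2 | h2
    · subst h2
      have h4 : 4 ∣ n.factorial := Nat.dvd_factorial (by norm_num) (by omega)
      omega
    · have h4 : p ∣ n.factorial := (Nat.Prime.dvd_factorial hp).2 (by nlinarith [hp.two_le])
      rw [← h3] at h4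
      rcases (Nat.Prime.dvd_mul hp).1 h4 with h5 | h5
      · have := (Nat.prime_dvd_prime_iff_eq hp Nat.prime_two).1 h5
        subst this
        exact absurd h2 (by decide)
      · exact h5
  have h3 := hp.factorization_pos_of_dvd Nat.card_pos.ne' h2
  have h4 := Nat.one_lt_pow h3.ne' hp.one_lt
  omega

/-- For n ≥ 6, a prime p with p² ≤ n, and n congruent to 0 or 1 modulo p, the p-fusion system of the alternating group of degree n on a Sylow p-subgroup is simple. -/
theorem result (n p : ℕ) (hn : 6 ≤ n) [Fact p.Prime] (hnp : p ^ 2 ≤ n) (hb : n % p ≤ 1) (S : Sylow p (alternatingGroup (Fin n))) : (Cfsg.groupFusionSystem (S : Subgroup (alternatingGroup (Fin n)))).IsSimple p := by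
  have hp : p.Prime := Fact.out
  have hne := sylow_ne_bot n p hn hnp S
  by_cases hp2 : p = 2
  · subst hp2
    refine Cfsg.Agent.H187.FusSelfNorm.isSimple S ?_ hne ?_
    · intro g hg
      have h1 := Cfsg.Agent.H799.SymSyl.normalizer_alt (α := Fin n) (by rw [Fintype.card_fin]; exact hn) S
      have h2 : g ∈ Subgroup.normalizer ((S : Subgroup (alternatingGroup (Fin n))) : Set (alternatingGroup (Fin n))) := by
        have h3 : (S : Subgroup (alternatingGroup (Fin n))).map (MulAut.conj g).toMonoidHom =
            (S : Subgroup (alternatingGroup (Fin n))) := by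
          apply Subgroup.eq_of_le_of_card_ge
          · rintro _ ⟨x, hx, rfl⟩
            exact hg x hx
          · rw [card_map_conj]
        rw [Subgroup.mem_normalizer_iff]
        intro x
        refine ⟨fun hx => hg x hx, fun hx => ?_⟩
        have hx' : g * x * g⁻¹ ∈ (S : Subgroup (alternatingGroup (Fin n))).map (MulAut.conj g).toMonoidHom := by
          rw [h3]
          exact hx
        obtain ⟨y, hy, hyx⟩ := hx'
        have h4 : g * y * g⁻¹ = g * x * g⁻¹ := hyx
        have h5 : y = x := mul_left_cancel (mul_right_cancel h4)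
        rw [← h5]
        exact hy
      rw [h1] at h2
      exact ⟨g, h2, fun _ _ => rfl⟩
    · intro T hT
      exact Cfsg.Agent.ClosedAlt.closed_alternating S T (Cfsg.Agent.H187.FusSelfNorm.stronglyClosed_iff.1 hT)
  · have hodd : Odd p := hp.odd_of_ne_two hp2
    have hp3 : 3 ≤ p := by
      have := hp.two_le
      omega
    have hm : p ≤ n / p := by
      rw [Nat.le_div_iff_mul_le hp.pos]
      nlinarith
    have hr : n % p < p := Nat.mod_lt _ hp.pos
    obtain ⟨j, hj⟩ : ∃ j, n / p = p + j := ⟨n / p - p, by omega⟩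
    have hI : Fintype.card (ZMod p ⊕ Fin j) = n / p := by
      rw [Fintype.card_sum, ZMod.card, Fintype.card_fin, hj]
    have hα : Fintype.card (Fin n) = p * Fintype.card (ZMod p ⊕ Fin j) + n % p := by
      rw [Fintype.card_fin, hI]
      exact (Nat.div_add_mod n p).symm
    obtain ⟨P, hP⟩ := (isPGroup_shQ (J := Fin j) (p := p)).exists_le_sylow
    obtain ⟨ι, hι⟩ := exists_frame hr hα P S
    have hSyl : SylIn p (S : Subgroup (alternatingGroup (Fin n))) ⊤ := sylIn_top_of_sylow S
    have hout : ∀ y z : Fin n, y ∉ Set.range ι → z ∉ Set.range ι → y = z := by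
      intro y z hy hz
      by_contra hyz
      have h1 : (Finset.univ.map ι).card = p * (n / p) := by
        rw [Finset.card_map, Finset.card_univ, Fintype.card_prod, hI, ZMod.card, mul_comm]
      have h2 : Disjoint (Finset.univ.map ι) {y, z} := by
        rw [Finset.disjoint_left]
        intro a ha ha'
        rw [Finset.mem_map] at ha
        obtain ⟨x, -, rfl⟩ := ha
        rw [Finset.mem_insert, Finset.mem_singleton] at ha'
        rcases ha' with h | h
        · exact hy ⟨x, h⟩
        · exact hz ⟨x, h⟩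
      have h3 : (Finset.univ.map ι ∪ {y, z}).card ≤ n := by
        have := Finset.card_le_univ (Finset.univ.map ι ∪ {y, z})
        rwa [Fintype.card_fin] at this
      rw [Finset.card_union_of_disjoint h2, h1, Finset.card_pair hyz] at h3
      have h4 := Nat.div_add_mod n p
      omega
    refine isSimple_of_normalizer_le (Cfsg.Agent.H802.groupFusionSystem_isSaturated S) hne ?_ ?_
    · intro D hD
      have hD' := Cfsg.Agent.H187.FusSelfNorm.stronglyClosed_iff.1 hD
      exact closed_odd (I := ZMod p ⊕ Fin j) (S := S) hD' hp2 hr hα (by rw [hI]; omega)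
    · intro E hE hEF
      exact normalizer_le_Nn hp2 hout hP P.isPGroup' hι hSyl hE hEF

end Cfsg.Agent.S5165
end
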