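-- Proof of statement S5344.
import Mathlib
import Cfsg.Agent.Lib.VonDyck
import Cfsg.Agent.H805.SymFour
import Cfsg.Statements.S5344
import Cfsg.Agent.SporadicB.ThreeTrans
set_option linter.all false

-- part: H805/SymFourHom
section
/-!
The homomorphism from `S₄` attached to three involutions `a - b - c`.
-/

set_option autoImplicit false

namespace Cfsg.Agent.H805.SymFourHom

open Cfsg Cfsg.Agent.Lib.VonDyck

variable {G : Type*} [Group G]

theorem decide1 : Equiv.swap (0 : Fin 4) 1 * (Equiv.swap 0 1) * (Equiv.swap 0 1)⁻¹ = s4 := by decide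
theorem decide2 : Equiv.swap (0 : Fin 4) 1 * (Equiv.swap 1 2 * Equiv.swap 2 3) * (Equiv.swap 0 1)⁻¹
    = t4 := by decide
theorem decide3 : Equiv.swap (1 : Fin 4) 2 = Equiv.swap 0 1 *
    ((Equiv.swap 1 2 * Equiv.swap 2 3) * Equiv.swap 0 1 * (Equiv.swap 1 2 * Equiv.swap 2 3)⁻¹) *
    Equiv.swap 0 1 := by decide
theorem decide4 : Equiv.swap (2 : Fin 4) 3 = Equiv.swap 1 2 * (Equiv.swap 1 2 * Equiv.swap 2 3) := by
  decide

theorem exists_hom {a b c : G} (ha : a * a = 1) (hb : b * b = 1) (hc : c * c = 1)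
    (hac : a * c = c * a) (hab : a * b * a = b * a * b) (hbc : c * b * c = b * c * b)
    (hne : a ≠ c) : ∃ φ : Equiv.Perm (Fin 4) →* G, Function.Injective φ ∧
      φ (Equiv.swap 0 1) = a ∧ φ (Equiv.swap 1 2) = b ∧ φ (Equiv.swap 2 3) = c := by
  have h1 : a ^ 2 = 1 := by rw [pow_two, ha]
  have h2 : (b * c) ^ 3 = 1 := by
    calc (b * c) ^ 3 = b * (c * b * c) * b * c := by
          simp only [pow_succ, pow_zero, one_mul, mul_assoc]
      _ = b * (b * c * b) * b * c := by rw [hbc]
      _ = (b * b) * c * (b * b) * c := by simp only [mul_assoc]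
      _ = 1 := by rw [hb, one_mul, mul_one, hc]
  have h3 : (a * (b * c)) ^ 2 ≠ 1 := by
    rw [SymFour.coxeter_sq hb hac hab hbc]
    intro h
    apply hne
    have h4 : a * c = 1 := by
      calc a * c = (b * b) * (a * c) * (b * b) := by rw [hb, one_mul, mul_one]
        _ = b * (b * (a * c) * b) * b := by simp only [mul_assoc]
        _ = 1 := by rw [h, mul_one, hb]
    calc a = a * (c * c) := by rw [hc, mul_one]
      _ = (a * c) * c := by rw [mul_assoc]
      _ = c := by rw [h4, one_mul]
  obtain ⟨φ, hφ1, hφ2⟩ := exists_hom_permFour h1 h2 (SymFour.coxeter_four ha hb hc hac hab hbc)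
  have hinj : Function.Injective φ := by
    rw [injective_iff_map_eq_one]
    intro x hx
    by_contra hx1
    obtain ⟨y, z, h⟩ := normal_s4 x hx1
    apply h3
    have := congrArg φ h
    rw [← hφ1, ← hφ2, ← map_mul, ← map_pow, ← this]
    simp [hx]
  set ψ : Equiv.Perm (Fin 4) →* G := φ.comp (MulAut.conj (Equiv.swap (0 : Fin 4) 1)).toMonoidHom
    with hψ
  have hψa : ∀ x, ψ x = φ (Equiv.swap (0 : Fin 4) 1 * x * (Equiv.swap 0 1)⁻¹) := fun x => rfl
  have e1 : ψ (Equiv.swap 0 1) = a := by rw [hψa, decide1, hφ1]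
  have e2 : ψ (Equiv.swap 1 2 * Equiv.swap 2 3) = b * c := by rw [hψa, decide2, hφ2]
  have hci : c⁻¹ = c := inv_eq_of_mul_eq_one_left hc
  have hbi : b⁻¹ = b := inv_eq_of_mul_eq_one_left hb
  have e3 : ψ (Equiv.swap 1 2) = b := by
    rw [decide3, map_mul, map_mul, map_mul, map_mul, map_inv, e1, e2, mul_inv_rev, hci, hbi]
    calc a * (b * c * a * (c * b)) * a = a * (b * (c * a) * c * b) * a := by
          simp only [mul_assoc]
      _ = a * (b * (a * c) * c * b) * a := by rw [hac]
      _ = a * (b * a * (c * c) * b) * a := by simp only [mul_assoc]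
      _ = a * (b * a * b) * a := by rw [hc, mul_one]
      _ = a * (a * b * a) * a := by rw [hab]
      _ = (a * a) * b * (a * a) := by simp only [mul_assoc]
      _ = b := by rw [ha, one_mul, mul_one]
  have e4 : ψ (Equiv.swap 2 3) = c := by
    rw [decide4, map_mul, e2, e3, ← mul_assoc, hb, one_mul]
  refine ⟨ψ, ?_, e1, e3, e4⟩
  rw [hψ]
  exact hinj.comp (MulAut.conj (Equiv.swap (0 : Fin 4) 1)).injective

end Cfsg.Agent.H805.SymFourHom
end

-- part: S5344
section
set_option autoImplicit false
open Cfsg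

namespace Cfsg.Agent.S5344

/-- In a set of 3-transpositions, let a, b, c be members with a and c different and commuting, while neither a nor c commutes with b (a 3-string). Then there is an injective homomorphism from the symmetric group of degree 4 into the ambient group sending the transpositions (0 1), (1 2), (2 3) to a, b, c; so a, b, c generate a copy of the symmetric group of degree 4 in which they are transpositions. -/
theorem result {G : Type*} [Group G] {D : Set G} (hD : Cfsg.IsThreeTranspositionSet D) {a b c : G} (ha : a ∈ D) (hb : b ∈ D) (hc : c ∈ D) (hac : a ≠ c) (hac' : Commute a c) (hab : ¬ Commute a b) (hbc : ¬ Commute b c) : ∃ φ : Equiv.Perm (Fin 4) →* G, Function.Injective φ ∧ φ (Equiv.swap 0 1) = a ∧ φ (Equiv.swap 1 2) = b ∧ φ (Equiv.swap 2 3) = c := by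
  have hbc' : ¬ Commute c b := fun h => hbc h.symm
  have ha2 := SporadicB.ThreeTrans.mul_self hD ha
  have hb2 := SporadicB.ThreeTrans.mul_self hD hb
  have hc2 := SporadicB.ThreeTrans.mul_self hD hc
  have hbr1 := SporadicB.ThreeTrans.braid hD ha hb hab
  have hbr2 := SporadicB.ThreeTrans.braid hD hc hb hbc'
  exact H805.SymFourHom.exists_hom ha2 hb2 hc2 hac'.eq hbr1 hbr2 hac

end Cfsg.Agent.S5344
end
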