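-- Proof of statement S5348.
import Cfsg.Statements.S5348
set_option linter.all false

set_option autoImplicit false
open Cfsg

namespace Cfsg.Agent.S5348

/-- Let D be a conjugation-invariant generating set of 3-transpositions of a finite group G and d a member of D. Let V be the set of members of D commuting with exactly the same members of D as d, and W the set of members w of D such that the members of D other than w commuting with w are precisely the members of D other than d commuting with d. Then V = {d} or W = {d}. -/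
theorem result {G : Type*} [Group G] [Finite G] {D : Set G} (hD : Cfsg.IsThreeTranspositionGroup D) {d : G} (hd : d ∈ D) : {v : G | v ∈ D ∧ ∀ e ∈ D, Commute v e ↔ Commute d e} = {d} ∨ {w : G | w ∈ D ∧ {y : G | y ∈ D ∧ y ≠ d ∧ Commute d y} = {y : G | y ∈ D ∧ y ≠ w ∧ Commute w y}} = {d} := by
  by_contra hcon
  rw [not_or] at hcon
  obtain ⟨hV, hW⟩ := hcon
  obtain ⟨v, hv, hvd⟩ : ∃ v, (v ∈ D ∧ ∀ e ∈ D, Commute v e ↔ Commute d e) ∧ v ≠ d := by
    by_contra h
    push Not at h
    apply hV
    ext v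
    exact ⟨fun hv => h v hv, by rintro rfl; exact ⟨hd, fun _ _ => Iff.rfl⟩⟩
  obtain ⟨w, hw, hwd⟩ : ∃ w, (w ∈ D ∧ {y : G | y ∈ D ∧ y ≠ d ∧ Commute d y} =
      {y : G | y ∈ D ∧ y ≠ w ∧ Commute w y}) ∧ w ≠ d := by
    by_contra h
    push Not at h
    apply hW
    ext w
    constructor
    · rintro ⟨hw1, hw2⟩
      exact h w ⟨hw1, hw2⟩
    · rintro rfl
      exact ⟨hd, rfl⟩
  have h1 : Commute d v := ((hv.2 d hd).2 (Commute.refl d)).symm
  have h2 : v ∈ {y : G | y ∈ D ∧ y ≠ d ∧ Commute d y} := ⟨hv.1, hvd, h1⟩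
  rw [hw.2] at h2
  have h3 : Commute d w := (hv.2 w hw.1).1 h2.2.2.symm
  have h4 : w ∈ {y : G | y ∈ D ∧ y ≠ d ∧ Commute d y} := ⟨hw.1, hwd, h3⟩
  rw [hw.2] at h4
  exact h4.2.1 rfl

end Cfsg.Agent.S5348
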