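-- Proof of statement S5360.
import Mathlib
import Cfsg.Agent.H806.Refl
import Cfsg.Agent.H805.Index
import Cfsg.Agent.LieClassical.OrthFinite
import Cfsg.Agent.LieClassical.OrthCenter
import Cfsg.Agent.ClassicalGeometry.OrthSemi
import Cfsg.Statements.S5360
set_option linter.all false

-- part: H806/ReflStruct
section
/-!
# Structure of the reflection groups over the field with three elements
-/

set_option autoImplicit false

namespace Cfsg.Agent.H806.ReflStruct

open QuadraticMap Matrix Module
open Cfsg.Agent.H806.Refl Cfsg.Agent.LieClassical.OrthFinite Cfsg.Agent.LieClassical.OrthCore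
  Cfsg.Agent.LieClassical.OrthTrans
open Cfsg
open scoped commutatorElement

variable {n : ℕ} (Q : QuadraticForm (ZMod 3) (Fin n → ZMod 3)) {c : ZMod 3}

theorem good (hn : 5 ≤ n) (hQ : (polarBilin Q).Nondegenerate) : Good Q :=
  good_of_finite (nondeg_of_nondegenerate hQ) (by
    rw [Module.finrank_fintype_fun_eq_card, Fintype.card_fin]; exact hn)

theorem omega_perfect (hn : 5 ≤ n) (hQ : (polarBilin Q).Nondegenerate) :
    Group.IsPerfect (Omega (ZMod 3) (⇑Q)) := by
  have hG := good Q hn hQ
  have h1 : commutator ↥(E Q) = ⊤ := ClassicalGeometry.OrthSemi.commutator_E hG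
  have h2 : Group.IsPerfect ↥(E Q) := ⟨h1⟩
  have e : ↥(E Q) ≃* Omega (ZMod 3) (⇑Q) :=
    ((omegaEquiv Q).trans (MulEquiv.subgroupCongr hG.commutator_eq_E)).symm
  exact Group.IsPerfect.ofSurjective (f := e.toMonoidHom) e.surjective

theorem omega_quasisimple (hn : 5 ≤ n) (hQ : (polarBilin Q).Nondegenerate) :
    IsQuasisimple (Omega (ZMod 3) (⇑Q)) :=
  ⟨omega_perfect Q hn hQ, isSimpleGroup_POmega (nondeg_of_nondegenerate hQ) (by
    rw [Fintype.card_fin]; exact hn)⟩

theorem exists_singular (hn : 5 ≤ n) : ∃ u : Fin n → ZMod 3, u ≠ 0 ∧ Q u = 0 := by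
  obtain ⟨w, hw0, hw, -⟩ := exists_sing_perp (Q := Q) (n := 0) ![] (by
    rw [Module.finrank_fintype_fun_eq_card, Fintype.card_fin]; omega)
  exact ⟨w, hw0, hw⟩

theorem omega_le (hn : 5 ≤ n) (hQ : (polarBilin Q).Nondegenerate) (hc : c ≠ 0) :
    Omega (ZMod 3) (⇑Q) ≤ reflectionSubgroup (⇑Q) c := by
  have h := index_two hn Q hQ c hc
  rw [Omega, commutator_def, Subgroup.commutator_le]
  intro a _ b _
  rw [commutatorElement_def, Subgroup.mul_mem_iff_of_index_two h,
    Subgroup.mul_mem_iff_of_index_two h, Subgroup.mul_mem_iff_of_index_two h,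
    Subgroup.inv_mem_iff, Subgroup.inv_mem_iff]
  tauto

theorem map_commutator_eq (hn : 5 ≤ n) (hQ : (polarBilin Q).Nondegenerate) (hc : c ≠ 0) :
    (commutator ↥(reflectionSubgroup (⇑Q) c)).map (reflectionSubgroup (⇑Q) c).subtype =
      Omega (ZMod 3) (⇑Q) := by
  rw [commutator_def, Subgroup.map_commutator, ← MonoidHom.range_eq_map, Subgroup.range_subtype]
  apply le_antisymm
  · rw [Omega, commutator_def]
    exact Subgroup.commutator_mono le_top le_top
  · have h1 : ⁅Omega (ZMod 3) (⇑Q), Omega (ZMod 3) (⇑Q)⁆ = Omega (ZMod 3) (⇑Q) := by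
      have := omega_perfect Q hn hQ
      exact Subgroup.commutator_eq_self (H := Omega (ZMod 3) (⇑Q))
    rw [← h1]
    exact Subgroup.commutator_mono (omega_le Q hn hQ hc) (omega_le Q hn hQ hc)

theorem commutator_quasisimple (hn : 5 ≤ n) (hQ : (polarBilin Q).Nondegenerate) (hc : c ≠ 0) :
    IsQuasisimple (commutator ↥(reflectionSubgroup (⇑Q) c)) := by
  have e : ↥(commutator ↥(reflectionSubgroup (⇑Q) c)) ≃* Omega (ZMod 3) (⇑Q) :=
    (Subgroup.equivMapOfInjective _ (reflectionSubgroup (⇑Q) c).subtype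
      (Subgroup.subtype_injective _)).trans
      (MulEquiv.subgroupCongr (map_commutator_eq Q hn hQ hc))
  exact SignalizersComponents.Components.isQuasisimple_of_mulEquiv e.symm
    (omega_quasisimple Q hn hQ)

/-- an element of the reflection group centralising its commutator subgroup is central -/
theorem mem_center (hn : 5 ≤ n) (hQ : (polarBilin Q).Nondegenerate) (hc : c ≠ 0)
    {z : ↥(reflectionSubgroup (⇑Q) c)}
    (hz : ∀ g ∈ commutator ↥(reflectionSubgroup (⇑Q) c), z * g = g * z) :
    z ∈ Subgroup.center ↥(reflectionSubgroup (⇑Q) c) := by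
  have h := LieClassical.OrthCenter.eq_one_or_neg_one_of_commute_omega hQ
    (by rw [Fintype.card_fin]; omega) (exists_singular Q hn)
    (z : isometryGroup (ZMod 3) (⇑Q)) (by
      intro g hg
      rw [← map_commutator_eq Q hn hQ hc] at hg
      obtain ⟨k, hk, rfl⟩ := hg
      exact congrArg Subtype.val (hz k hk))
  rw [Subgroup.mem_center_iff]
  intro g
  rcases h with h | h
  · have : z = 1 := by
      apply Subtype.ext; apply Subtype.ext; apply Units.ext; exact h
    rw [this, mul_one, one_mul]
  · apply Subtype.ext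
    exact (LieClassical.OrthCenter.commute_of_eq_neg_one _ _ h).symm

theorem pCore_le_center (hn : 5 ≤ n) (hQ : (polarBilin Q).Nondegenerate) (hc : c ≠ 0) (p : ℕ)
    [Fact p.Prime] :
    pCore p ↥(reflectionSubgroup (⇑Q) c) ≤ Subgroup.center ↥(reflectionSubgroup (⇑Q) c) := by
  intro z hz
  have hL := H805.Index.isComponent_of_normal
    (L := commutator ↥(reflectionSubgroup (⇑Q) c)) inferInstance
    (commutator_quasisimple Q hn hQ hc)
  have hp : IsPGroup p (pCore p ↥(reflectionSubgroup (⇑Q) c)) := Lib.Cores.pCore_isPGroup p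
  have hpn : (pCore p ↥(reflectionSubgroup (⇑Q) c)).Normal := Lib.Cores.pCore_normal p
  have hs : Group.IsSolvable (pCore p ↥(reflectionSubgroup (⇑Q) c)) := by
    have := hp.isNilpotent
    infer_instance
  have h1 := SignalizersComponents.Components.component_commutator_solvable hL
    (Subgroup.le_normalizer_of_normal) hs
  rw [Subgroup.commutator_eq_bot_iff_le_centralizer] at h1
  apply mem_center Q hn hQ hc
  intro g hg
  exact (Subgroup.mem_centralizer_iff.1 (h1 hg)) z hz

theorem exists_ne (hn : 5 ≤ n) (hQ : (polarBilin Q).Nondegenerate) (hc : c ≠ 0) :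
    ∃ a ∈ DD Q c, ∃ b ∈ DD Q c, a ≠ b := by
  obtain ⟨v, hv⟩ := ClassicalGeometry.ReflClass.exists_norm_eq two_ne Q hQ
    (by rw [Fintype.card_fin]; omega) c
  by_contra hcon
  push Not at hcon
  have hD := isClass Q (by omega) hQ hc
  have h0 := commutator_quasisimple Q hn hQ hc
  have h1 : Subgroup.closure (DD Q c) ≤ Subgroup.zpowers (rf Q hc v hv) := by
    rw [Subgroup.closure_le]
    intro x hx
    rw [hcon x hx _ (rf_mem Q hc v hv)]
    exact Subgroup.mem_zpowers _
  rw [hD.2.2, top_le_iff] at h1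
  have h2 : commutator ↥(reflectionSubgroup (⇑Q) c) = ⊥ := by
    rw [commutator_def, Subgroup.commutator_eq_bot_iff_le_centralizer]
    intro x _
    rw [Subgroup.mem_centralizer_iff]
    intro y _
    have hx : x ∈ Subgroup.zpowers (rf Q hc v hv) := by rw [h1]; trivial
    have hy : y ∈ Subgroup.zpowers (rf Q hc v hv) := by rw [h1]; trivial
    obtain ⟨i, rfl⟩ := hx
    obtain ⟨j, rfl⟩ := hy
    exact (Commute.refl _).zpow_zpow j i
  have h3 := SignalizersComponents.Components.quasisimple_nontrivial h0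
  rw [h2] at h3
  exact not_nontrivial _ h3

/-- **The structure of the reflection groups.** -/
theorem main (hn : 5 ≤ n) (hQ : (polarBilin Q).Nondegenerate) (hc : c ≠ 0) :
    IsQuasisimple (commutator ↥(reflectionSubgroup (⇑Q) c)) ∧
      (commutator ↥(reflectionSubgroup (⇑Q) c)).index ≤ 2 ∧
      generalizedFittingSubgroup ↥(reflectionSubgroup (⇑Q) c) =
        Subgroup.center ↥(reflectionSubgroup (⇑Q) c) ⊔ commutator ↥(reflectionSubgroup (⇑Q) c) ∧
      IsPrimitiveUnderConj (DD Q c) := by
  have hD := isClass Q (by omega) hQ hc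
  have hD2 := exists_ne Q hn hQ hc
  have hq := commutator_quasisimple Q hn hQ hc
  have hL := H805.Index.isComponent_of_normal
    (L := commutator ↥(reflectionSubgroup (⇑Q) c)) inferInstance hq
  have hp2 : Fact (Nat.Prime 2) := ⟨Nat.prime_two⟩
  have hp3 : Fact (Nat.Prime 3) := ⟨Nat.prime_three⟩
  have h2 := pCore_le_center Q hn hQ hc 2
  have h3 := pCore_le_center Q hn hQ hc 3
  have hi : (commutator ↥(reflectionSubgroup (⇑Q) c)).index ≤ 2 := by
    refine H805.Index.index_le_two hD inferInstance ?_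
    intro x hx y hy
    obtain ⟨g, hg⟩ := ThreeTrans375.Basic.exists_conj_of_class hD hx hy
    have e : x * y = ⁅x, g⁆ := by
      rw [commutatorElement_def, SporadicB.ThreeTrans.inv_eq hD.1 hx, ← hg]
      simp only [mul_assoc]
    rw [e]
    exact Subgroup.commutator_mem_commutator (Subgroup.mem_top _) (Subgroup.mem_top _)
  obtain ⟨L, _, hLc, hF⟩ := H805.Comp.structure_thm hD hD2 h2 h3
  have hLe := H805.Comp.component_unique hD hLc hL
  rw [hLe] at hF
  refine ⟨hq, hi, by rw [hF, sup_comm], H805.Prim.isPrimitive hD hD2 h2 h3 hL hF hi⟩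

end Cfsg.Agent.H806.ReflStruct
end

-- part: S5360
section
set_option autoImplicit false
open scoped MatrixGroups
open Cfsg

namespace Cfsg.Agent.S5360

/-- Let Q be a non-degenerate quadratic form on the n-dimensional coordinate space over the field with three elements, n ≥ 5, c a non-zero scalar, and R the subgroup of the isometry group generated by the reflections of norm c. Then the commutator subgroup of R is quasisimple of index at most 2, the generalized Fitting subgroup of R is the product of the centre and the commutator subgroup, and R acts primitively by conjugation on its reflections of norm c. -/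
theorem result (n : ℕ) (hn : 5 ≤ n) (Q : QuadraticForm (ZMod 3) (Fin n → ZMod 3)) (hQ : (QuadraticMap.polarBilin Q).Nondegenerate) (c : ZMod 3) (hc : c ≠ 0) : Cfsg.IsQuasisimple (commutator ↥(Cfsg.reflectionSubgroup (⇑Q) c)) ∧ (commutator ↥(Cfsg.reflectionSubgroup (⇑Q) c)).index ≤ 2 ∧ Cfsg.generalizedFittingSubgroup ↥(Cfsg.reflectionSubgroup (⇑Q) c) = Subgroup.center ↥(Cfsg.reflectionSubgroup (⇑Q) c) ⊔ commutator ↥(Cfsg.reflectionSubgroup (⇑Q) c) ∧ Cfsg.IsPrimitiveUnderConj {g : ↥(Cfsg.reflectionSubgroup (⇑Q) c) | (g : ↥(Cfsg.isometryGroup (ZMod 3) (⇑Q))) ∈ Cfsg.reflectionsOfNorm (⇑Q) c} :=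
  H806.ReflStruct.main Q hn hQ hc

end Cfsg.Agent.S5360
end
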