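import Mathlib
import Cfsg.Agent.S1265
import Cfsg.Agent.H805.PrimSimple
import Cfsg.Agent.H805.Width
import Cfsg.Agent.Fischer480.Defs
import Cfsg.Agent.Lib.HallTriple
import Cfsg.Agent.S0444
import Cfsg.Agent.Fischer919.CentralQuot
import Cfsg.Agent.H809.Width
import Cfsg.Agent.S0480U.UModel
import Cfsg.Agent.Fischer891.FinalO
import Cfsg.Agent.Fischer919.OmegaR
import Cfsg.Agent.ClassicalGeometry.DiagNormal
import Cfsg.Agent.SporadicStructure.OrthTwo
import Cfsg.Agent.LieClassical.OrthFinite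
import Cfsg.Agent.GenOrth.Normal
import Cfsg.Agent.LieClassical.OrthFourCommon
import Cfsg.Agent.LieClassical.OrthCenter
import Cfsg.Agent.Fischer919.OmegaIdent
import Cfsg.Agent.S0816
import Cfsg.Agent.S0817
import Cfsg.Agent.S0818
import Cfsg.Statements.S5362
import Cfsg.Agent.Fischer480.AllPieces
set_option linter.all false

-- part: H807/Tri
section
/-!
# Classes of 3-transpositions with disconnected commuting graph: the set-up

`D` is a class of 3-transpositions of `G`, `Z(G) = O₂(G) = O₃(G) = 1`, `L = F*(G)` is simple, and not all products of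
two members of `D` lie in `L`. For `d ∈ D` the group `H = L⟨d⟩` with `E = D ∩ H` satisfies the hypotheses of
Fischer's theorem.
-/

set_option autoImplicit false

namespace Cfsg.Agent.H807.Tri

open Cfsg Cfsg.Agent.SporadicB.ThreeTrans Cfsg.Agent.ThreeTrans375.Basic Cfsg.Agent.H805.Base
  Cfsg.Agent.H805.Comp Cfsg.Agent.H805.Index

open scoped commutatorElement

universe u

variable {G : Type u} [Group G] {D : Set G}

/-- the situation -/
structure Cfg (D : Set G) (L : Subgroup G) : Prop where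
  hD : IsThreeTranspositionClass D
  hL : IsComponent L
  hLn : L.Normal
  simple : IsSimpleGroup L
  na : ∃ x ∈ L, ∃ y ∈ L, x * y ≠ y * x
  cent : ∀ g : G, (∀ x ∈ L, g * x = x * g) → g = 1
  out : ∃ x ∈ D, ∃ y ∈ D, x * y ∉ L

/-- the set-up holds under the hypotheses of the theorem -/
theorem exists_cfg [Finite G] (hD : IsThreeTranspositionClass D) (hZ : Subgroup.center G = ⊥)
    (h2 : pCore 2 G = ⊥) (h3 : pCore 3 G = ⊥) (hdisc : ¬ (commutingGraph D).Connected) :
    Cfg D (generalizedFittingSubgroup G) := by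
  -- `D` has at least two members
  have hD2 : ∃ a ∈ D, ∃ b ∈ D, a ≠ b := by
    by_contra hcon
    push Not at hcon
    apply hdisc
    obtain ⟨d, hd, -⟩ := hD.2.1
    have hne : Nonempty D := ⟨⟨d, hd⟩⟩
    refine ⟨?_⟩
    intro x y
    have : x = y := Subtype.ext (hcon x x.2 y y.2)
    rw [this]
  have h2' : pCore 2 G ≤ Subgroup.center G := by rw [h2]; exact bot_le
  have h3' : pCore 3 G ≤ Subgroup.center G := by rw [h3]; exact bot_le
  obtain ⟨L, hLn, hL, hF⟩ := structure_thm hD hD2 h2' h3'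
  rw [hZ, sup_bot_eq] at hF
  rw [hF]
  have hZL : Subgroup.center L = ⊥ := by
    have h4 : (Subgroup.center L).map L.subtype ≤ Subgroup.center G := by
      have hn : ((Subgroup.center L).map L.subtype).Normal := inferInstance
      apply solvable_le_center hD h2' h3' hn
      have hs : Group.IsSolvable (Subgroup.center L) :=
        Group.isSolvable_of_comm fun a b => Subtype.ext ((Subgroup.mem_center_iff.1 b.2) a)
      exact SignalizersComponents.ComponentExists.isSolvable_map hs _
    rw [hZ, le_bot_iff, Subgroup.map_eq_bot_iff_of_injective _ L.subtype_injective] at h4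
    exact h4
  have hLs : IsSimpleGroup L := by
    have h5 := hL.2.2
    have e : L ⧸ Subgroup.center L ≃* L :=
      (QuotientGroup.quotientMulEquivOfEq hZL).trans (QuotientGroup.quotientBot (G := L))
    have hnt : Nontrivial L := SignalizersComponents.Components.quasisimple_nontrivial hL.2
    exact IsSimpleGroup.isSimpleGroup_of_surjective (f := e.toMonoidHom) e.surjective
  have hna : ∃ x ∈ L, ∃ y ∈ L, x * y ≠ y * x := by
    by_contra hcon
    push Not at hcon
    apply SignalizersComponents.Components.quasisimple_not_isSolvable hL.2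
    exact Group.isSolvable_of_comm fun a b => Subtype.ext (hcon a a.2 b b.2)
  refine ⟨hD, hL, hLn, hLs, hna, ?_, ?_⟩
  · intro g hg
    have hgL : g ∈ L := by
      have h5 := Cfsg.Agent.S1265.result (G := G)
      rw [hF] at h5
      apply h5
      rw [Subgroup.mem_centralizer_iff]
      intro x hx
      exact (hg x hx).symm
    have h6 : (⟨g, hgL⟩ : L) ∈ Subgroup.center L := by
      rw [Subgroup.mem_center_iff]
      intro x
      exact Subtype.ext (hg x x.2).symm
    rw [hZL, Subgroup.mem_bot] at h6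
    exact congrArg Subtype.val h6
  · by_contra hcon
    push Not at hcon
    -- then `G' = L` is simple and the commuting graph is connected
    have hi : L.index ≤ 2 := index_le_two hD hLn hcon
    have hw : ∃ a ∈ D, ∃ b ∈ D, a ≠ b ∧ Commute a b := by
      obtain ⟨d, hd, -⟩ := hD.2.1
      obtain ⟨x, hx, h7, h8⟩ := exists_two hD hL hd
      have hxd : x * d * x⁻¹ ∈ D := conjClosed_of_class hD x d hd
      refine ⟨d, hd, x * d * x⁻¹, hxd, ?_, ?_⟩
      · intro h9
        apply h8
        rw [← h9]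
        exact mul_self hD.1 hd
      · exact H805.Width.commute_of_sq hD.1 hd hxd h7
    have hle : commutator G ≤ L := by
      have hcomm : ∀ u v : G ⧸ L, u * v = v * u :=
        H805.Prim.comm_of_card_le (by rw [← Subgroup.index_eq_card]; exact hi)
      rw [commutator_def, Subgroup.commutator_le]
      intro g _ h _
      rw [← QuotientGroup.eq_one_iff]
      show QuotientGroup.mk' L ⁅g, h⁆ = 1
      rw [map_commutatorElement, commutatorElement_eq_one_iff_mul_comm]
      exact hcomm _ _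
    have hge : L ≤ commutator G := by
      rw [← SignalizersComponents.Components.component_commutator_self hL, commutator_def]
      exact Subgroup.commutator_mono le_top le_top
    have hsimp : IsSimpleGroup (commutator G) := by
      rw [le_antisymm hle hge]
      exact hLs
    have hmain := H805.PrimSimple.main hD hZ hw
    exact hdisc ((hmain.2.1 (hmain.1.1 hsimp)).2.2)


/-! ### The group `L⟨d⟩` -/

section Local

variable {L : Subgroup G}

/-- the subgroup `L⟨d⟩` -/
def HH (L : Subgroup G) (d : G) : Subgroup G := L ⊔ Subgroup.zpowers d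

/-- the members of `D` in `L⟨d⟩` -/
def EE (D : Set G) (L : Subgroup G) (d : G) : Set ↥(HH L d) := {x | (x : G) ∈ D}

theorem mem_EE {d : G} {x : ↥(HH L d)} : x ∈ EE D L d ↔ (x : G) ∈ D := Iff.rfl

theorem L_le_HH (L : Subgroup G) (d : G) : L ≤ HH L d := le_sup_left

theorem self_mem_HH (L : Subgroup G) (d : G) : d ∈ HH L d :=
  (le_sup_right : Subgroup.zpowers d ≤ HH L d) (Subgroup.mem_zpowers d)

variable (C : Cfg D L)
include C

theorem Cfg.hE : IsThreeTranspositionSet D := C.hD.1

theorem Cfg.hC : ConjClosed D := conjClosed_of_class C.hD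

/-- no member of `D` lies in `L` -/
theorem Cfg.not_mem {d : G} (hd : d ∈ D) : d ∉ L := by
  intro h
  obtain ⟨x, hx, y, hy, hxy⟩ := C.out
  have key : ∀ z ∈ D, z ∈ L := by
    intro z hz
    obtain ⟨g, rfl⟩ := exists_conj_of_class C.hD hd hz
    exact C.hLn.conj_mem d h g
  exact hxy (L.mul_mem (key x hx) (key y hy))

theorem Cfg.mem_HH {d : G} (hd : d ∈ D) {g : G} : g ∈ HH L d ↔ g ∈ L ∨ g * d ∈ L := by
  have hn := C.hLn
  constructor
  · intro h
    rw [HH, Subgroup.mem_sup_of_normal_left] at h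
    obtain ⟨x, hx, y, hy, rfl⟩ := h
    obtain ⟨k, rfl⟩ := Subgroup.mem_zpowers_iff.1 hy
    have hdd : d ^ (2 : ℤ) = 1 := by rw [zpow_ofNat, pow_two, mul_self C.hE hd]
    rcases Int.even_or_odd' k with ⟨m, rfl | rfl⟩
    · left
      rw [zpow_mul, hdd, one_zpow, mul_one]
      exact hx
    · right
      rw [zpow_add, zpow_mul, hdd, one_zpow, one_mul, zpow_one, mul_assoc, mul_self C.hE hd,
        mul_one]
      exact hx
  · rintro (h | h)
    · exact L_le_HH L d h
    · have h1 : g = (g * d) * d := by rw [mul_assoc, mul_self C.hE hd, mul_one]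
      rw [h1]
      exact (HH L d).mul_mem (L_le_HH L d h) (self_mem_HH L d)

/-- members of `D` in `L⟨d⟩` are congruent to `d` modulo `L` -/
theorem Cfg.mul_mem {d x : G} (hd : d ∈ D) (hx : x ∈ D) (h : x ∈ HH L d) : x * d ∈ L :=
  ((C.mem_HH hd).1 h).resolve_left (C.not_mem hx)

/-- two members of `D` which commute are congruent modulo `L` -/
theorem Cfg.mul_mem_of_commute [Finite G] {x y : G} (hx : x ∈ D) (hy : y ∈ D) (h : Commute x y) :
    x * y ∈ L := by
  apply H805.Comp.mul_mem_of_commute C.hD C.hL hx hy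
  rw [h.eq, mul_assoc y, mul_inv_cancel, mul_one, mul_inv_cancel]
  exact L.one_mem

theorem Cfg.perfect : ⁅L, L⁆ = L :=
  SignalizersComponents.Components.component_commutator_self C.hL

/-- a normal subgroup of `L` (as a subgroup of `G` normalised by `L`) is trivial or `L` -/
theorem Cfg.normal_cases {M : Subgroup G} (hM : ∀ x ∈ L, ∀ m ∈ M, x * m * x⁻¹ ∈ M) :
    M ⊓ L = ⊥ ∨ L ≤ M := by
  have h1 : ((M ⊓ L).subgroupOf L).Normal := by
    refine ⟨fun m hm g => ?_⟩
    rw [Subgroup.mem_subgroupOf] at hm ⊢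
    exact ⟨hM g g.2 m hm.1, L.mul_mem (L.mul_mem g.2 hm.2) (L.inv_mem g.2)⟩
  have := C.simple
  rcases IsSimpleGroup.eq_bot_or_eq_top_of_normal _ h1 with h2 | h2
  · left
    rw [Subgroup.subgroupOf_eq_bot] at h2
    rw [eq_bot_iff]
    intro x hx
    exact (disjoint_iff.1 h2).le ⟨hx, hx.2⟩
  · right
    rw [Subgroup.subgroupOf_eq_top] at h2
    exact h2.trans inf_le_left

/-- a subgroup normalised by `L` which is not centralised by `L` contains `L` -/
theorem Cfg.le_of_normalises {M : Subgroup G} (hM : ∀ x ∈ L, ∀ m ∈ M, x * m * x⁻¹ ∈ M)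
    {m : G} (hm : m ∈ M) (hm1 : m ≠ 1) : L ≤ M := by
  rcases C.normal_cases hM with h | h
  · exfalso
    apply hm1
    apply C.cent
    intro x hx
    have h1 : m * x * m⁻¹ * x⁻¹ ∈ M ⊓ L := by
      constructor
      · have h2 := M.mul_mem hm (hM x hx m⁻¹ (M.inv_mem hm))
        have e : m * (x * m⁻¹ * x⁻¹) = m * x * m⁻¹ * x⁻¹ := by group
        rwa [e] at h2
      · exact L.mul_mem (C.hLn.conj_mem x hx m) (L.inv_mem hx)
    rw [h, Subgroup.mem_bot] at h1
    have h3 : m * x * m⁻¹ = x := by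
      calc m * x * m⁻¹ = (m * x * m⁻¹ * x⁻¹) * x := by group
        _ = x := by rw [h1, one_mul]
    calc m * x = (m * x * m⁻¹) * m := by group
      _ = x * m := by rw [h3]
  · exact h

theorem Cfg.EE_set {d : G} : IsThreeTranspositionSet (EE D L d) := by
  refine ⟨fun x hx => ?_, fun x hx y hy => ?_⟩
  · rw [← C.hE.1 _ hx, Subgroup.orderOf_coe]
  · rcases C.hE.2 _ hx _ hy with h | h
    · exact Or.inl (Subtype.ext h)
    · exact Or.inr (Subtype.ext h)

theorem Cfg.EE_conj {d : G} (g : ↥(HH L d)) {x : ↥(HH L d)} (hx : x ∈ EE D L d) :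
    g * x * g⁻¹ ∈ EE D L d := C.hC (g : G) x hx

theorem Cfg.cls {d : G} (hd : d ∈ D) : IsThreeTranspositionClass (EE D L d) := by
  have hset := C.EE_set (d := d)
  set d' : ↥(HH L d) := ⟨d, self_mem_HH L d⟩ with hd'
  have hd'E : d' ∈ EE D L d := hd
  -- the group generated by the class of `d` contains `L`
  have hle : ∀ x ∈ L, x ∈ (Subgroup.closure (conjugatesOf d')).map (HH L d).subtype := by
    have h1 : L ≤ (Subgroup.closure (conjugatesOf d')).map (HH L d).subtype := by
      apply C.le_of_normalises (m := d)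
      · rintro x hx _ ⟨m, hm, rfl⟩
        have hn : (Subgroup.closure (conjugatesOf d')).Normal := by
          have h2 : Subgroup.closure (conjugatesOf d') = Subgroup.normalClosure {d'} := by
            rw [Subgroup.normalClosure, Group.conjugatesOfSet]
            simp
          rw [h2]
          infer_instance
        exact ⟨⟨x, L_le_HH L d hx⟩ * m * ⟨x, L_le_HH L d hx⟩⁻¹, hn.conj_mem m hm _, rfl⟩
      · exact ⟨d', Subgroup.subset_closure (mem_conjugatesOf_self), rfl⟩
      · intro h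
        have h2 := C.hE.1 d hd
        rw [h, orderOf_one] at h2
        exact absurd h2 (by norm_num)
    exact fun x hx => h1 hx
  have hclass : EE D L d = conjugatesOf d' := by
    apply Set.Subset.antisymm
    · intro e he
      by_contra hne
      -- `e` commutes with all the conjugates of `d`
      have hcomm : ∀ k ∈ conjugatesOf d', Commute e k := by
        intro k hk
        have hkE : k ∈ EE D L d := by
          have hk' : IsConj d' k := hk
          obtain ⟨g, rfl⟩ := isConj_iff.1 hk'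
          exact C.EE_conj g hd'E
        by_contra hc
        apply hne
        have h3 := conj_of_not_commute hset hkE he (fun h4 => hc h4.symm)
        have h4 : IsConj k e := isConj_iff.2 ⟨_, h3⟩
        have hk' : IsConj d' k := hk
        exact hk'.trans h4
      have h5 : (e : G) = 1 := by
        apply C.cent
        intro x hx
        obtain ⟨m, hm, rfl⟩ := hle x hx
        have h6 : Subgroup.closure (conjugatesOf d') ≤ Subgroup.centralizer ({e} : Set ↥(HH L d)) := by
          rw [Subgroup.closure_le]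
          intro k hk
          rw [SetLike.mem_coe, Subgroup.mem_centralizer_iff]
          rintro _ rfl
          exact hcomm k hk
        exact congrArg Subtype.val ((Subgroup.mem_centralizer_iff.1 (h6 hm)) e rfl)
      have h7 := C.hE.1 _ he
      rw [h5, orderOf_one] at h7
      exact absurd h7 (by norm_num)
    · intro k hk
      have hk' : IsConj d' k := hk
      obtain ⟨g, rfl⟩ := isConj_iff.1 hk'
      exact C.EE_conj g hd'E
  refine ⟨hset, ⟨d', hd'E, hclass⟩, ?_⟩
  rw [hclass, eq_top_iff]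
  rintro ⟨g, hg⟩ -
  have hLM : ∀ x (hx : x ∈ L), (⟨x, L_le_HH L d hx⟩ : ↥(HH L d)) ∈ Subgroup.closure (conjugatesOf d') := by
    intro x hx
    obtain ⟨m, hm, hmx⟩ := hle x hx
    have : m = ⟨x, L_le_HH L d hx⟩ := Subtype.ext hmx
    rwa [this] at hm
  rcases (C.mem_HH hd).1 hg with h | h
  · exact hLM g h
  · have h1 : (⟨g, hg⟩ : ↥(HH L d)) = ⟨g * d, L_le_HH L d h⟩ * d' := by
      apply Subtype.ext
      show g = g * d * d
      rw [mul_assoc, mul_self C.hE hd, mul_one]
    rw [h1]
    exact Subgroup.mul_mem _ (hLM _ h) (Subgroup.subset_closure mem_conjugatesOf_self)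

/-- the commutator subgroup of `L⟨d⟩` is `L` -/
theorem Cfg.commutator_eq {d : G} (hd : d ∈ D) : commutator ↥(HH L d) = L.subgroupOf (HH L d) := by
  apply le_antisymm
  · rw [commutator_def, Subgroup.commutator_le]
    intro g _ h _
    rw [Subgroup.mem_subgroupOf]
    show (g : G) * h * (g : G)⁻¹ * (h : G)⁻¹ ∈ L
    have hn := C.hLn
    have hq : ∀ x : G, x ∈ L ↔ (QuotientGroup.mk' L) x = 1 := by
      intro x; rw [← MonoidHom.mem_ker, QuotientGroup.ker_mk']
    have hcase : ∀ x : ↥(HH L d), QuotientGroup.mk' L (x : G) = 1 ∨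
        QuotientGroup.mk' L (x : G) = (QuotientGroup.mk' L d)⁻¹ := by
      intro x
      rcases (C.mem_HH hd).1 x.2 with h1 | h1
      · exact Or.inl ((hq _).1 h1)
      · right
        have h2 := (hq _).1 h1
        rw [map_mul] at h2
        exact eq_inv_of_mul_eq_one_left h2
    rw [hq]
    rw [map_mul, map_mul, map_mul, map_inv, map_inv]
    rcases hcase g with h1 | h1 <;> rcases hcase h with h2 | h2 <;> rw [h1, h2] <;> group
  · have h1 : L = (L.subgroupOf (HH L d)).map (HH L d).subtype := by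
      rw [Subgroup.subgroupOf_map_subtype, inf_eq_left.2 (L_le_HH L d)]
    have h2 : (⁅L.subgroupOf (HH L d), L.subgroupOf (HH L d)⁆).map (HH L d).subtype = L := by
      rw [Subgroup.map_commutator, ← h1, C.perfect]
    intro x hx
    have h3 : (x : G) ∈ (⁅L.subgroupOf (HH L d), L.subgroupOf (HH L d)⁆).map (HH L d).subtype := by
      rw [h2]; exact hx
    obtain ⟨y, hy, hyx⟩ := h3
    have h4 : y = x := Subtype.ext hyx
    rw [h4] at hy
    rw [commutator_def]
    exact Subgroup.commutator_mono le_top le_top hy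

theorem Cfg.fgroup [Finite G] {d : G} (hd : d ∈ D) : Fischer480.Defs.FGroup (EE D L d) := by
  refine ⟨C.cls hd, ?_, ?_⟩
  · intro N hN hs
    by_contra hne
    obtain ⟨m, hm, hm1⟩ : ∃ m : ↥(HH L d), m ∈ N ∧ m ≠ 1 := by
      by_contra hcon
      push Not at hcon
      apply hne
      rw [eq_bot_iff]
      intro x hx
      exact hcon x hx
    have hle : L ≤ N.map (HH L d).subtype := by
      apply C.le_of_normalises (m := (m : ↥(HH L d)))
      · rintro x hx _ ⟨y, hy, rfl⟩
        exact ⟨⟨x, L_le_HH L d hx⟩ * y * ⟨x, L_le_HH L d hx⟩⁻¹, hN.conj_mem y hy _, rfl⟩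
      · exact ⟨m, hm, rfl⟩
      · intro h
        exact hm1 (Subtype.ext h)
    have hs1 : Group.IsSolvable ↥(N.map (HH L d).subtype) :=
      SignalizersComponents.ComponentExists.isSolvable_map hs _
    have hs2 : Group.IsSolvable ↥L :=
      Group.isSolvable_of_isSolvable_injective (Subgroup.inclusion_injective hle)
    exact SignalizersComponents.Components.quasisimple_not_isSolvable C.hL.2 hs2
  · rw [C.commutator_eq hd]
    have h1 : L = (L.subgroupOf (HH L d)).map (HH L d).subtype := by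
      rw [Subgroup.subgroupOf_map_subtype, inf_eq_left.2 (L_le_HH L d)]
    have h2 : (⁅L.subgroupOf (HH L d), L.subgroupOf (HH L d)⁆).map (HH L d).subtype =
        (L.subgroupOf (HH L d)).map (HH L d).subtype := by
      rw [Subgroup.map_commutator, ← h1, C.perfect]
    exact Subgroup.map_injective (HH L d).subtype_injective h2

/-! ### Products of two members of another block -/

/-- `t` acts on `E` without fixed points and moves every member to a commuting one -/
structure Free {H : Type u} [Group H] (E : Set H) (t : H) : Prop where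
  sq : t * t = 1
  free : ∀ a ∈ E, ¬ Commute a t
  comm : ∀ a ∈ E, Commute a (t * a * t⁻¹)

theorem Cfg.exists_other {d : G} (hd : d ∈ D) : ∃ y ∈ D, y * d ∉ L := by
  by_contra hcon
  push Not at hcon
  obtain ⟨x, hx, y, hy, hxy⟩ := C.out
  apply hxy
  have h1 := L.mul_mem (hcon x hx) (L.inv_mem (hcon y hy))
  have e : x * d * (y * d)⁻¹ = x * y := by
    rw [mul_inv_rev, inv_eq C.hE hd, inv_eq C.hE hy]
    calc x * d * (d * y) = x * (d * d) * y := by simp only [mul_assoc]
      _ = x * y := by rw [mul_self C.hE hd, mul_one]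
  rwa [e] at h1

/-- the product of two distinct commuting members in another coset moves each member of `D ∩ L⟨d⟩` to
a different commuting one -/
theorem Cfg.free [Finite G] {d y z z' a : G} (hd : d ∈ D) (hy : y ∈ D) (hyd : y * d ∉ L)
    (hz : z ∈ D) (hz' : z' ∈ D) (hzy : z * y ∈ L) (hzy' : z' * y ∈ L) (hne : z ≠ z')
    (hcomm : Commute z z') (ha : a ∈ D) (had : a * d ∈ L) :
    ¬ Commute a (z * z') ∧ Commute a ((z * z') * a * (z * z')⁻¹) := by
  have hE := C.hE
  have hn := C.hLn
  have key : ∀ b ∈ D, b * d ∈ L → ¬ Commute b (z * z') := by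
    intro b hb hbd h
    have h1 := ((commute_mul_iff hE hz hz' hb hne hcomm).1 h).1
    have h2 := C.mul_mem_of_commute hb hz h1
    apply hyd
    -- `y d = (z y)⁻¹ (b z)⁻¹ (b d)` up to conjugation: work modulo `L`
    have hq : ∀ x : G, x ∈ L ↔ (QuotientGroup.mk' L) x = 1 := by
      intro x; rw [← MonoidHom.mem_ker, QuotientGroup.ker_mk']
    rw [hq, map_mul] at hbd h2 hzy ⊢
    have e1 := eq_inv_of_mul_eq_one_left hbd
    have e2 := eq_inv_of_mul_eq_one_left h2
    have e3 := eq_inv_of_mul_eq_one_right hzy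
    have hz2 : (QuotientGroup.mk' L) z * (QuotientGroup.mk' L) z = 1 := by
      rw [← map_mul, mul_self hE hz, map_one]
    have hd2 : (QuotientGroup.mk' L) d * (QuotientGroup.mk' L) d = 1 := by
      rw [← map_mul, mul_self hE hd, map_one]
    have e4 : (QuotientGroup.mk' L) d = (QuotientGroup.mk' L) z := by
      have := e1.symm.trans e2
      exact inv_injective this
    rw [e3, e4, inv_mul_cancel]
  refine ⟨key a ha had, ?_⟩
  by_contra hnc
  -- conjugation by `t` as an automorphism
  set t := z * z' with ht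
  have htt : t * t = 1 := by
    calc t * t = z * (z' * z) * z' := by simp only [ht, mul_assoc]
      _ = z * (z * z') * z' := by rw [hcomm.eq]
      _ = (z * z) * (z' * z') := by simp only [mul_assoc]
      _ = 1 := by rw [mul_self hE hz, mul_self hE hz', one_mul]
  have htD : t * a * t⁻¹ ∈ D := C.hC t a ha
  have hti : t⁻¹ = t := inv_eq_of_mul_eq_one_left htt
  have htL : t ∈ L := by
    have h1 := L.mul_mem hzy (L.inv_mem hzy')
    have e : z * y * (z' * y)⁻¹ = t := by
      rw [mul_inv_rev, inv_eq hE hy, inv_eq hE hz']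
      calc z * y * (y * z') = z * (y * y) * z' := by simp only [mul_assoc]
        _ = t := by rw [mul_self hE hy, mul_one]
    rwa [e] at h1
  have hb := braid hE ha htD hnc
  -- the third point is fixed
  set b := a * (t * a * t⁻¹) * a with hbdef
  have hbD : b ∈ D := third_mem hE C.hC ha htD
  have hbd : b * d ∈ L := by
    have e : b * d = a * (t * a * t⁻¹ * a) * a⁻¹ * (a * a * (a * d)) := by
      rw [hbdef, mul_self hE ha, one_mul, inv_eq hE ha]
      calc a * (t * a * t⁻¹) * a * d = a * (t * a * t⁻¹) * a * d := rfl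
        _ = a * (t * a * t⁻¹) * (a * a) * a * d := by rw [mul_self hE ha, mul_one]
        _ = a * (t * a * t⁻¹ * a) * a * (a * d) * 1 := by
            rw [mul_one]
            have : a * (t * a * t⁻¹ * a) * a * (a * d) = a * (t * a * t⁻¹) * (a * a) * a * d := by
              simp only [mul_assoc]
            rw [this]
        _ = _ := by rw [mul_one]
    rw [e]
    refine L.mul_mem (hn.conj_mem _ ?_ a) ?_
    · have e2 : t * a * t⁻¹ * a = t * (a * t⁻¹ * a⁻¹) := by
        rw [inv_eq hE ha]; simp only [mul_assoc]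
      rw [e2]
      exact L.mul_mem htL (hn.conj_mem _ (L.inv_mem htL) a)
    · rw [mul_self hE ha, one_mul]; exact had
  apply key b hbD hbd
  have h3 : t * b * t⁻¹ = b := by
    calc t * b * t⁻¹ = (t * a * t⁻¹) * (t * t) * a * (t⁻¹ * t⁻¹) * (t * a * t⁻¹) := by
          rw [hbdef]
          simp only [mul_assoc, inv_mul_cancel_left, mul_inv_cancel_left]
      _ = (t * a * t⁻¹) * a * (t * a * t⁻¹) := by
          rw [hti, htt, mul_one, mul_one]
      _ = b := by rw [← hb]
  exact (conj_eq_self_iff.1 h3).symm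

/-- a family of commuting members gives a family of elements with free quotients -/
theorem Cfg.exists_family [Finite G] {d : G} (hd : d ∈ D) {w : ℕ} (x : Fin w → ↥(HH L d))
    (hx : ∀ i, x i ∈ EE D L d) (hinj : Function.Injective x) (hcomm : ∀ i j, Commute (x i) (x j)) :
    ∃ τ : Fin w → ↥(HH L d), (∀ i j, i ≠ j → Free (EE D L d) ((τ i)⁻¹ * τ j)) ∧
      (∀ i j, Commute (τ i) (τ j)) ∧ (∀ i, τ i * τ i = 1) ∧ ∀ i, (τ i : G) ∈ L := by
  have hE := C.hE
  rcases Nat.eq_zero_or_pos w with rfl | hw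
  · exact ⟨fun i => i.elim0, fun i => i.elim0, fun i => i.elim0, fun i => i.elim0, fun i => i.elim0⟩
  obtain ⟨y, hy, hyd⟩ := C.exists_other hd
  obtain ⟨g, hg⟩ := exists_conj_of_class C.hD hd hy
  let z : Fin w → G := fun i => g * x i * g⁻¹
  have hzD : ∀ i, z i ∈ D := fun i => C.hC g _ (hx i)
  have hzy : ∀ i, z i * y ∈ L := by
    intro i
    have h1 := C.hLn.conj_mem _ (C.mul_mem hd (hx i) (x i).2) g
    have e : g * ((x i : G) * d) * g⁻¹ = z i * y := by
      rw [← hg]
      show _ = g * x i * g⁻¹ * (g * d * g⁻¹)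
      group
    rwa [e] at h1
  have hzc : ∀ i j, Commute (z i) (z j) := fun i j =>
    (commute_conj_iff g).2 (congrArg Subtype.val (hcomm i j))
  have hzne : ∀ i j, i ≠ j → z i ≠ z j := by
    intro i j hij h
    apply hij
    apply hinj
    exact Subtype.ext (mul_left_cancel (mul_right_cancel h))
  have hzL : ∀ i j, z i * z j ∈ L := by
    intro i j
    have h1 := L.mul_mem (hzy i) (L.inv_mem (hzy j))
    have e : z i * y * (z j * y)⁻¹ = z i * z j := by
      rw [mul_inv_rev, inv_eq hE hy, inv_eq hE (hzD j)]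
      calc z i * y * (y * z j) = z i * (y * y) * z j := by simp only [mul_assoc]
        _ = z i * z j := by rw [mul_self hE hy, mul_one]
    rwa [e] at h1
  let i0 : Fin w := ⟨0, hw⟩
  have hzz : ∀ i, z i * z i = 1 := fun i => mul_self hE (hzD i)
  refine ⟨fun i => ⟨z i0 * z i, L_le_HH L d (hzL i0 i)⟩, ?_, ?_, ?_, fun i => hzL i0 i⟩
  · intro i j hij
    have e : (⟨z i0 * z i, L_le_HH L d (hzL i0 i)⟩ : ↥(HH L d))⁻¹ *
        ⟨z i0 * z j, L_le_HH L d (hzL i0 j)⟩ = ⟨z i * z j, L_le_HH L d (hzL i j)⟩ := by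
      apply Subtype.ext
      show (z i0 * z i)⁻¹ * (z i0 * z j) = z i * z j
      rw [mul_inv_rev, inv_eq hE (hzD i), inv_eq hE (hzD i0)]
      calc z i * z i0 * (z i0 * z j) = z i * (z i0 * z i0) * z j := by simp only [mul_assoc]
        _ = z i * z j := by rw [hzz, mul_one]
    rw [e]
    refine ⟨?_, ?_, ?_⟩
    · apply Subtype.ext
      show z i * z j * (z i * z j) = 1
      calc z i * z j * (z i * z j) = z i * (z j * z i) * z j := by simp only [mul_assoc]
        _ = z i * (z i * z j) * z j := by rw [(hzc i j).eq]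
        _ = (z i * z i) * (z j * z j) := by simp only [mul_assoc]
        _ = 1 := by rw [hzz, hzz, one_mul]
    · intro a ha h
      exact (C.free hd hy hyd (hzD i) (hzD j) (hzy i) (hzy j) (hzne i j hij) (hzc i j) ha
        (C.mul_mem hd ha a.2)).1 (congrArg Subtype.val h)
    · intro a ha
      exact Subtype.ext (C.free hd hy hyd (hzD i) (hzD j) (hzy i) (hzy j) (hzne i j hij) (hzc i j) ha
        (C.mul_mem hd ha a.2)).2
  · intro i j
    apply Subtype.ext
    exact ((hzc i0 i0).mul_right (hzc i0 j)).mul_left ((hzc i i0).mul_right (hzc i j))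
  · intro i
    apply Subtype.ext
    show z i0 * z i * (z i0 * z i) = 1
    calc z i0 * z i * (z i0 * z i) = z i0 * (z i * z i0) * z i := by simp only [mul_assoc]
      _ = z i0 * (z i0 * z i) * z i := by rw [(hzc i i0).eq]
      _ = (z i0 * z i0) * (z i * z i) := by simp only [mul_assoc]
      _ = 1 := by rw [hzz, hzz, one_mul]

end Local

end Cfsg.Agent.H807.Tri
end

-- part: H807/Quot
section
/-!
# The quotient `G ⧸ L`
-/

set_option autoImplicit false

namespace Cfsg.Agent.H807.Quot

open Cfsg Cfsg.Agent.SporadicB.ThreeTrans Cfsg.Agent.ThreeTrans375.Basic Cfsg.Agent.H805.Base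
  Cfsg.Agent.H805.Comp Cfsg.Agent.H805.Index Cfsg.Agent.H807.Tri

universe u

variable {G : Type u} [Group G] {D : Set G} {L : Subgroup G}

theorem mem_iff [L.Normal] (x : G) : x ∈ L ↔ QuotientGroup.mk' L x = 1 := by
  rw [← MonoidHom.mem_ker, QuotientGroup.ker_mk']

/-- the images of the members of `D` -/
def T (D : Set G) (L : Subgroup G) [L.Normal] : Set (G ⧸ L) := QuotientGroup.mk' L '' D

theorem T_set (C : Cfg D L) [L.Normal] : IsThreeTranspositionSet (T D L) := by
  constructor
  · rintro _ ⟨x, hx, rfl⟩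
    apply orderOf_eq_prime
    · rw [pow_two, ← map_mul, mul_self C.hE hx, map_one]
    · intro h
      exact C.not_mem hx ((mem_iff x).2 h)
  · rintro _ ⟨x, hx, rfl⟩ _ ⟨y, hy, rfl⟩
    rw [← map_mul, ← map_pow, ← map_pow]
    rcases C.hE.2 x hx y hy with h | h
    · left; rw [h, map_one]
    · right; rw [h, map_one]

/-- products of order dividing three -/
theorem T_three [Finite G] (C : Cfg D L) [L.Normal] : ∀ a ∈ T D L, ∀ b ∈ T D L, (a * b) ^ 3 = 1 := by
  rintro _ ⟨x, hx, rfl⟩ _ ⟨y, hy, rfl⟩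
  rcases C.hE.2 x hx y hy with h | h
  · have h1 := C.mul_mem_of_commute hx hy (H805.Width.commute_of_sq C.hE hx hy h)
    rw [← map_mul, (mem_iff _).1 h1, one_pow]
  · rw [← map_mul, ← map_pow, h, map_one]

/-- the order of `G ⧸ L` divides `2 * 3 ^ k` -/
theorem card_dvd [Finite G] (C : Cfg D L) [L.Normal] : ∃ k, Nat.card (G ⧸ L) ∣ 2 * 3 ^ k := by
  have : Fact (Nat.Prime 3) := ⟨Nat.prime_three⟩
  have hconj : ∀ g : G ⧸ L, ∀ a ∈ T D L, g * a * g⁻¹ ∈ T D L := by
    rintro g _ ⟨x, hx, rfl⟩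
    obtain ⟨g, rfl⟩ := QuotientGroup.mk'_surjective L g
    exact ⟨g * x * g⁻¹, C.hC g x hx, by rw [map_mul, map_mul, map_inv]⟩
  have hp := Lib.HallTriple.isPGroup_closure_mul_of_normal (T := T D L)
    (fun a ha => mul_self (T_set C) ha) hconj (T_three C)
  set P : Subgroup (G ⧸ L) := Subgroup.closure {x : G ⧸ L | ∃ a ∈ T D L, ∃ b ∈ T D L, x = a * b} with hP
  have hn : P.Normal := by
    refine ⟨fun x hx g => ?_⟩
    induction hx using Subgroup.closure_induction with
    | mem x hx =>
      obtain ⟨a, ha, b, hb, rfl⟩ := hx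
      exact Subgroup.subset_closure ⟨g * a * g⁻¹, hconj g a ha, g * b * g⁻¹, hconj g b hb, by group⟩
    | one => rw [mul_one, mul_inv_cancel]; exact P.one_mem
    | mul x y _ _ hx hy =>
      have : g * (x * y) * g⁻¹ = (g * x * g⁻¹) * (g * y * g⁻¹) := by group
      rw [this]
      exact P.mul_mem hx hy
    | inv x _ hx =>
      have : g * x⁻¹ * g⁻¹ = (g * x * g⁻¹)⁻¹ := by group
      rw [this]
      exact P.inv_mem hx
  have hi : (P.comap (QuotientGroup.mk' L)).index ≤ 2 := by
    apply index_le_two C.hD inferInstance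
    intro x hx y hy
    rw [Subgroup.mem_comap, map_mul]
    exact Subgroup.subset_closure ⟨_, ⟨x, hx, rfl⟩, _, ⟨y, hy, rfl⟩, rfl⟩
  rw [Subgroup.index_comap_of_surjective _ (QuotientGroup.mk'_surjective L)] at hi
  obtain ⟨k, hk⟩ := (IsPGroup.iff_card).1 hp
  refine ⟨k, ?_⟩
  have h1 := P.index_mul_card
  rw [hk] at h1
  rw [← h1]
  have h2 : P.index ≠ 0 := Subgroup.index_ne_zero_of_finite
  rcases (by omega : P.index = 1 ∨ P.index = 2) with h3 | h3
  · rw [h3]; exact ⟨2, by ring⟩
  · rw [h3]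

/-- there is a symmetric group of degree three -/
theorem exists_sub [Finite G] (C : Cfg D L) [L.Normal] :
    ∃ A : Subgroup (G ⧸ L), Nonempty (↥A ≃* Equiv.Perm (Fin 3)) := by
  obtain ⟨x, hx, y, hy, hxy⟩ := C.out
  refine ⟨_, Cfsg.Agent.S0444.result (T_set C) ⟨x, hx, rfl⟩ ⟨y, hy, rfl⟩ ?_⟩
  intro hc
  have h1 := T_three C _ ⟨x, hx, rfl⟩ _ ⟨y, hy, rfl⟩
  have h2 : (QuotientGroup.mk' L x * QuotientGroup.mk' L y) ^ 2 = 1 := by
    rw [hc.mul_pow, pow_two, pow_two, mul_self (T_set C) ⟨x, hx, rfl⟩, mul_self (T_set C) ⟨y, hy, rfl⟩,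
      one_mul]
  apply hxy
  rw [mem_iff, map_mul]
  rw [pow_succ, h2, one_mul] at h1
  exact h1

theorem card_perm3 : Nat.card (Equiv.Perm (Fin 3)) = 6 := by
  rw [Nat.card_perm, Nat.card_fin]
  rfl

theorem six_dvd [Finite G] (C : Cfg D L) [L.Normal] : 6 ∣ Nat.card (G ⧸ L) := by
  obtain ⟨A, ⟨e⟩⟩ := exists_sub C
  have h1 := A.card_subgroup_dvd_card
  rw [Nat.card_congr e.toEquiv, card_perm3] at h1
  exact h1

theorem equiv_of_card [Finite G] (C : Cfg D L) [L.Normal] (h : Nat.card (G ⧸ L) = 6) :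
    Nonempty (G ⧸ L ≃* Equiv.Perm (Fin 3)) := by
  obtain ⟨A, ⟨e⟩⟩ := exists_sub C
  have hA : A = ⊤ := by
    apply Subgroup.eq_top_of_card_eq
    rw [Nat.card_congr e.toEquiv, card_perm3, h]
  subst hA
  exact ⟨Subgroup.topEquiv.symm.trans e⟩

/-- `G` embeds in the automorphism group of `L` -/
theorem card_dvd_aut [Finite G] (C : Cfg D L) : Nat.card G ∣ Nat.card (MulAut ↥L) := by
  have hn := C.hLn
  have hinj : Function.Injective (MulAut.conjNormal : G →* MulAut ↥L) := by
    rw [injective_iff_map_eq_one]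
    intro g hg
    apply C.cent
    intro x hx
    have h1 := congrArg (fun φ : MulAut ↥L => ((φ ⟨x, hx⟩ : ↥L) : G)) hg
    have h2 : g * x * g⁻¹ = x := h1
    rw [mul_inv_eq_iff_eq_mul] at h2
    exact h2
  exact Subgroup.card_dvd_of_injective _ hinj

/-- consequence for the quotient -/
theorem card_quot_dvd [Finite G] (C : Cfg D L) [L.Normal] {c : ℕ}
    (h : Nat.card (MulAut ↥L) = c * Nat.card ↥L) : Nat.card (G ⧸ L) ∣ c := by
  have h1 := card_dvd_aut C
  rw [h, Subgroup.card_eq_card_quotient_mul_card_subgroup L] at h1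
  exact Nat.dvd_of_mul_dvd_mul_right Nat.card_pos h1

end Cfsg.Agent.H807.Quot
end

-- part: H807/CommEquiv
section
/-!
# Groups which are central quotients of normal subgroups
-/

set_option autoImplicit false

namespace Cfsg.Agent.H807.CommEquiv

open Cfsg.Agent.Fischer919.CentralQuot

open scoped commutatorElement

universe u v

/-- If `H ≅ N ⧸ Z(N)` with `[H, H]` simple and not abelian, then `[H, H] ≅ [N, N] ⧸ Z([N, N])`. -/
theorem equiv_commutator_quot {N : Type u} [Group N] {H : Type v} [Group H]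
    (e : H ≃* N ⧸ Subgroup.center N) (hs : IsSimpleGroup (commutator H))
    (hna : ∃ x y : commutator H, x * y ≠ y * x) :
    Nonempty (↥(commutator H) ≃* (↥(commutator N) ⧸ Subgroup.center ↥(commutator N))) := by
  let π : N →* H := e.symm.toMonoidHom.comp (QuotientGroup.mk' (Subgroup.center N))
  have hπ : Function.Surjective π := e.symm.surjective.comp (QuotientGroup.mk'_surjective _)
  have hker : ∀ x, π x = 1 ↔ x ∈ Subgroup.center N := by
    intro x
    show e.symm (QuotientGroup.mk' (Subgroup.center N) x) = 1 ↔ _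
    rw [map_eq_one_iff e.symm e.symm.injective, QuotientGroup.mk'_apply, QuotientGroup.eq_one_iff]
  have hmap : (commutator N).map π = commutator H := by
    rw [_root_.commutator_def, _root_.commutator_def, Subgroup.map_commutator,
      Subgroup.map_top_of_surjective _ hπ]
  let ρ : ↥(commutator N) →* ↥(commutator H) := (π.comp (commutator N).subtype).codRestrict _ (by
    intro x
    rw [← hmap]
    exact ⟨x, x.2, rfl⟩)
  have hρ : Function.Surjective ρ := by
    rintro ⟨y, hy⟩
    rw [← hmap] at hy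
    obtain ⟨x, hx, hxy⟩ := hy
    exact ⟨⟨x, hx⟩, Subtype.ext hxy⟩
  have hzH : Subgroup.center ↥(commutator H) = ⊥ := by
    rcases IsSimpleGroup.eq_bot_or_eq_top_of_normal (Subgroup.center ↥(commutator H))
      inferInstance with h | h
    · exact h
    · exfalso
      obtain ⟨x, y, hxy⟩ := hna
      apply hxy
      have : y ∈ Subgroup.center ↥(commutator H) := by rw [h]; trivial
      exact (Subgroup.mem_center_iff.1 this) x
  have hk : ρ.ker = Subgroup.center ↥(commutator N) := by
    ext a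
    rw [MonoidHom.mem_ker]
    constructor
    · intro h
      have h1 : π (a : N) = 1 := congrArg Subtype.val h
      rw [hker, Subgroup.mem_center_iff] at h1
      rw [Subgroup.mem_center_iff]
      intro g
      exact Subtype.ext (h1 g)
    · intro h
      have h1 : ρ a ∈ Subgroup.center ↥(commutator H) := by
        rw [Subgroup.mem_center_iff] at h ⊢
        intro g
        obtain ⟨g, rfl⟩ := hρ g
        rw [← map_mul, ← map_mul, h]
      rw [hzH, Subgroup.mem_bot] at h1
      exact h1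
  exact ⟨((QuotientGroup.quotientMulEquivOfEq hk.symm).trans
    (QuotientGroup.quotientKerEquivOfSurjective ρ hρ)).symm⟩

/-- If `N` is a normal subgroup of `O`, `H ≅ N ⧸ Z(N)` with `[H, H]` simple and not abelian, and
`[O, O] ⧸ Z([O, O])` is simple, then `[H, H] ≅ [O, O] ⧸ Z([O, O])`. -/
theorem comm_equiv {O : Type u} [Group O] (N : Subgroup O) (hN : N.Normal) {H : Type v} [Group H]
    (e : H ≃* ↥N ⧸ Subgroup.center ↥N) (hs : IsSimpleGroup (commutator H))
    (hna : ∃ x y : commutator H, x * y ≠ y * x)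
    (hO : IsSimpleGroup (↥(commutator O) ⧸ Subgroup.center ↥(commutator O))) :
    Nonempty (↥(commutator H) ≃* (↥(commutator O) ⧸ Subgroup.center ↥(commutator O))) := by
  obtain ⟨e1⟩ := equiv_commutator_quot e hs hna
  let A : Subgroup O := (commutator ↥N).map N.subtype
  have hA : A.Normal := by
    have : A = ⁅N, N⁆ := by
      show (commutator ↥N).map N.subtype = _
      rw [_root_.commutator_def, Subgroup.map_commutator, ← MonoidHom.range_eq_map,
        Subgroup.range_subtype]
    rw [this]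
    exact Subgroup.commutator_normal N N
  let k : ↥(commutator ↥N) ≃* ↥A :=
    (commutator ↥N).equivMapOfInjective N.subtype N.subtype_injective
  obtain ⟨e2⟩ := equiv_quotient_center k
  have e3 : ↥(commutator H) ≃* ↥A ⧸ Subgroup.center ↥A := e1.trans e2
  have hs' : IsSimpleGroup (↥A ⧸ Subgroup.center ↥A) := e3.symm.isSimpleGroup
  have hna' : ∃ x y : ↥A ⧸ Subgroup.center ↥A, x * y ≠ y * x := by
    obtain ⟨x, y, hxy⟩ := hna
    refine ⟨e3 x, e3 y, fun h => hxy ?_⟩
    apply e3.injective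
    rw [map_mul, map_mul]
    exact h
  obtain ⟨e4⟩ := equiv_commutator A hA hs' hna' hO
  exact ⟨e3.trans e4⟩

end Cfsg.Agent.H807.CommEquiv
end

-- part: H807/Orb
section
/-!
# Orbits of an elementary abelian 2-group acting by conjugation
-/

set_option autoImplicit false

namespace Cfsg.Agent.H807.Orb

universe u

variable {H : Type u} [Group H]

/-- a subgroup acting by conjugation on a conjugation-invariant set -/
@[reducible] def conjAction {E : Set H} (hE : ∀ g : H, ∀ x ∈ E, g * x * g⁻¹ ∈ E) (T : Subgroup H) :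
    MulAction T E where
  smul t x := ⟨(t : H) * x * (t : H)⁻¹, hE t x x.2⟩
  one_smul x := Subtype.ext (show (1 : H) * x * (1 : H)⁻¹ = x by group)
  mul_smul s t x := Subtype.ext (show ((s : H) * t) * x * ((s : H) * t)⁻¹ =
    s * (t * x * (t : H)⁻¹) * (s : H)⁻¹ by group)

/-- **If the quotients of a family of `w > 2 ^ k` commuting elements of order two move every member of `E`, then
`2 ^ (k + 1)` divides `|E|`.** -/
theorem pow_dvd [Finite H] {E : Set H} (hE : ∀ g : H, ∀ x ∈ E, g * x * g⁻¹ ∈ E) {w k : ℕ}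
    (τ : Fin w → H) (hfree : ∀ i j, i ≠ j → ∀ a ∈ E, ¬ Commute a ((τ i)⁻¹ * τ j))
    (hcomm : ∀ i j, Commute (τ i) (τ j)) (hsq : ∀ i, τ i * τ i = 1) (hw : 2 ^ k < w) :
    2 ^ (k + 1) ∣ E.ncard := by
  have h2 : Fact (Nat.Prime 2) := ⟨Nat.prime_two⟩
  let T : Subgroup H := Subgroup.closure (Set.range τ)
  have hT : IsPGroup 2 T := H805.Width.isPGroup_closure
    (by rintro _ ⟨i, rfl⟩; exact hsq i) (by rintro _ ⟨i, rfl⟩ _ ⟨j, rfl⟩; exact hcomm i j)
  letI : MulAction T E := conjAction hE T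
  have hfin : Finite E := inferInstance
  have horb : ∀ a : E, 2 ^ (k + 1) ∣ Nat.card (MulAction.orbit T a) := by
    intro a
    obtain ⟨n, hn⟩ := hT.card_orbit a
    have hle : w ≤ Nat.card (MulAction.orbit T a) := by
      have hinj : Function.Injective (fun i : Fin w =>
          (⟨(⟨τ i, Subgroup.subset_closure ⟨i, rfl⟩⟩ : T) • a, ⟨_, rfl⟩⟩ : MulAction.orbit T a)) := by
        intro i j hij
        by_contra hne
        apply hfree i j hne a a.2
        have h3 : τ i * (a : H) * (τ i)⁻¹ = τ j * a * (τ j)⁻¹ :=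
          congrArg (fun z : MulAction.orbit T a => ((z : E) : H)) hij
        show (a : H) * ((τ i)⁻¹ * τ j) = (τ i)⁻¹ * τ j * a
        calc (a : H) * ((τ i)⁻¹ * τ j) = (τ i)⁻¹ * (τ i * a * (τ i)⁻¹) * τ j := by group
          _ = (τ i)⁻¹ * (τ j * a * (τ j)⁻¹) * τ j := by rw [h3]
          _ = (τ i)⁻¹ * τ j * a := by group
      have := Nat.card_le_card_of_injective _ hinj
      simpa using this
    rw [hn] at hle ⊢
    apply pow_dvd_pow
    by_contra hlt
    have h4 : n ≤ k := by omega
    have h5 : 2 ^ n ≤ 2 ^ k := Nat.pow_le_pow_right (by norm_num) h4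
    omega
  have hcard : E.ncard = Nat.card E := rfl
  have : Fintype (Quotient (MulAction.orbitRel T E)) := Fintype.ofFinite _
  rw [hcard, Nat.card_congr (MulAction.selfEquivSigmaOrbits T E), Nat.card_sigma]
  apply Finset.dvd_sum
  intro ω _
  exact horb _

end Cfsg.Agent.H807.Orb
end

-- part: H807/Excl
section
/-!
# Exclusion of the types `Sp`, `U`, `T6`, `T7`, `T8`, `Sym` for the blocks of a class with disconnected commuting graph
-/

set_option autoImplicit false

namespace Cfsg.Agent.H807.Excl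

open Cfsg Cfsg.Agent.SporadicB.ThreeTrans Cfsg.Agent.ThreeTrans375.Basic Cfsg.Agent.H805.Base
  Cfsg.Agent.H807.Tri Cfsg.Agent.Fischer480.Defs

universe u

variable {G : Type u} [Group G] {D : Set G} {L : Subgroup G}

theorem pow_dvd_ncard [Finite G] (C : Cfg D L) {d : G} (hd : d ∈ D) {A : Set ↥(HH L d)}
    (hA : A ⊆ EE D L d) (hc : ∀ a ∈ A, ∀ b ∈ A, Commute a b) {k : ℕ} (hk : 2 ^ k < A.ncard) :
    2 ^ (k + 1) ∣ (EE D L d).ncard := by
  have e : A ≃ Fin A.ncard := Finite.equivFin A
  obtain ⟨τ, h1, h2, h3, -⟩ := C.exists_family hd (fun i => ((e.symm i : A) : ↥(HH L d)))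
    (fun i => hA (e.symm i).2) (fun i j hij => e.symm.injective (Subtype.ext hij))
    (fun i j => hc _ (e.symm i).2 _ (e.symm j).2)
  exact Orb.pow_dvd (fun g x hx => C.EE_conj g hx) τ (fun i j hij => (h1 i j hij).free) h2 h3 hk

/-- there are two distinct commuting members -/
theorem exists_pair [Finite G] (C : Cfg D L) {d : G} (hd : d ∈ D) :
    ∃ a ∈ EE D L d, ∃ b ∈ EE D L d, a ≠ b ∧ Commute a b := by
  obtain ⟨x, hx, h7, h8⟩ := H805.Comp.exists_two C.hD C.hL hd
  have hxd : x * d * x⁻¹ ∈ D := C.hC x d hd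
  have hmem : x * d * x⁻¹ ∈ HH L d :=
    (HH L d).mul_mem ((HH L d).mul_mem (L_le_HH L d hx) (self_mem_HH L d))
      ((HH L d).inv_mem (L_le_HH L d hx))
  refine ⟨⟨d, self_mem_HH L d⟩, hd, ⟨x * d * x⁻¹, hmem⟩, hxd, ?_, ?_⟩
  · intro h9
    apply h8
    have h10 : d = x * d * x⁻¹ := congrArg Subtype.val h9
    rw [← h10]
    exact mul_self C.hE hd
  · exact Subtype.ext (H805.Width.commute_of_sq C.hE hd hxd h7)

theorem even_ncard [Finite G] (C : Cfg D L) {d : G} (hd : d ∈ D) : 2 ∣ (EE D L d).ncard := by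
  obtain ⟨a, ha, b, hb, hab, hc⟩ := exists_pair C hd
  have h := pow_dvd_ncard C hd (A := {a, b}) (k := 0)
    (by rintro x (rfl | rfl); exacts [ha, hb])
    (by
      rintro x (rfl | rfl) y (rfl | rfl)
      exacts [Commute.refl _, hc, hc.symm, Commute.refl _])
    (by rw [Set.ncard_pair hab]; norm_num)
  simpa using h

/-- an element acting freely -/
theorem exists_free [Finite G] (C : Cfg D L) {d : G} (hd : d ∈ D) :
    ∃ t : ↥(HH L d), Free (EE D L d) t ∧ (t : G) ∈ L := by
  obtain ⟨a, ha, b, hb, hab, hc⟩ := exists_pair C hd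
  obtain ⟨τ, h1, -, -, hL⟩ := C.exists_family hd ![a, b]
    (by intro i; fin_cases i; exacts [ha, hb])
    (by
      intro i j hij
      fin_cases i <;> fin_cases j
      · rfl
      · exact absurd hij hab
      · exact absurd hij.symm hab
      · rfl)
    (by
      intro i j
      fin_cases i <;> fin_cases j
      · exact Commute.refl _
      · exact hc
      · exact hc.symm
      · exact Commute.refl _)
  exact ⟨_, h1 0 1 (by decide), L.mul_mem (L.inv_mem (hL 0)) (hL 1)⟩

theorem not_isT6 [Finite G] (C : Cfg D L) {d : G} (hd : d ∈ D) : ¬ IsT6 (EE D L d) := by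
  intro h
  obtain ⟨A, hA, -, hc, hcard⟩ := (H809.Width.hasWidth_T6 h).ex
  have h1 := pow_dvd_ncard C hd (k := 1) hA hc (by rw [hcard]; norm_num)
  rw [h.1] at h1
  norm_num at h1

theorem not_isT7 [Finite G] (C : Cfg D L) {d : G} (hd : d ∈ D) : ¬ IsT7 (EE D L d) := by
  intro h
  have h1 := even_ncard C hd
  rw [h.1] at h1
  norm_num at h1

theorem not_isT8 [Finite G] (C : Cfg D L) {d : G} (hd : d ∈ D) : ¬ IsT8 (EE D L d) := by
  intro h
  obtain ⟨A, hA, -, hc, hcard⟩ := (H809.Width.hasWidth_T8 h).ex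
  have h1 := pow_dvd_ncard C hd (k := 3) hA hc (by rw [hcard]; norm_num)
  rw [h.1] at h1
  norm_num at h1

theorem not_isU [Finite G] (C : Cfg D L) {d : G} (hd : d ∈ D) {n : ℕ} (hn : 4 ≤ n) :
    ¬ IsU n (EE D L d) := by
  intro h
  obtain ⟨F, i1, i2, f, U⟩ := S0480U.UModel.exists_um h
  have h1 := S0480U.UModel.three_mul_ncard_eq U
  have h2 := even_ncard C hd
  obtain ⟨m, hm⟩ := h2
  rw [hm] at h1
  obtain ⟨k, rfl⟩ : ∃ k, n = k + 2 := ⟨n - 2, by omega⟩
  have e1 : 2 ^ (k + 2) = 2 * 2 ^ (k + 1) := by ring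
  have e2 : k + 2 - 1 = k + 1 := rfl
  have e3 : 2 ^ (k + 1) = 2 * 2 ^ k := by ring
  have hpos : 0 < 2 ^ k := by positivity
  rw [e2] at h1
  have key : Odd (3 * (2 * m)) := by
    rw [h1]
    split_ifs
    · apply Odd.mul
      · exact ⟨2 ^ (k + 1) - 1, by omega⟩
      · exact ⟨2 ^ k, by omega⟩
    · apply Odd.mul
      · exact ⟨2 ^ (k + 1), by omega⟩
      · exact ⟨2 ^ k - 1, by omega⟩
  have hev : Even (3 * (2 * m)) := ⟨3 * m, by ring⟩
  exact (Nat.not_even_iff_odd.2 key) hev

theorem ncard_isSp {H : Type u} [Group H] {E : Set H} {n : ℕ} (h : IsSp n E) :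
    E.ncard + 1 = 2 ^ (2 * n) := by
  obtain ⟨B, f, -, -, hne, -, hinj, hsurj⟩ := h
  have h1 : f '' E = {v | v ≠ 0} := by
    ext v
    constructor
    · rintro ⟨x, hx, rfl⟩; exact hne x hx
    · intro hv
      obtain ⟨x, hx, rfl⟩ := hsurj v hv
      exact ⟨x, hx, rfl⟩
  have h2 : E.ncard = ({v : Fin (2 * n) → ZMod 2 | v ≠ 0}).ncard := by
    rw [← h1, Set.InjOn.ncard_image (fun x hx y hy hxy => hinj x hx y hy hxy)]
  rw [h2]
  have h3 : ({v : Fin (2 * n) → ZMod 2 | v ≠ 0}) = ({0} : Set (Fin (2 * n) → ZMod 2))ᶜ := by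
    ext v; simp
  have h4 := Set.ncard_add_ncard_compl ({0} : Set (Fin (2 * n) → ZMod 2))
  rw [Set.ncard_singleton] at h4
  rw [h3, add_comm, h4]
  simp

theorem not_isSp [Finite G] (C : Cfg D L) {d : G} (hd : d ∈ D) {n : ℕ} (hn : 2 ≤ n) :
    ¬ IsSp n (EE D L d) := by
  intro h
  have h1 := ncard_isSp h
  obtain ⟨m, hm⟩ := even_ncard C hd
  obtain ⟨k, rfl⟩ : ∃ k, n = k + 1 := ⟨n - 1, by omega⟩
  have : 2 ^ (2 * (k + 1)) = 2 * 2 ^ (2 * k + 1) := by ring
  omega

/-! ### The symmetric groups -/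

/-- two different commuting pairs are disjoint -/
theorem not_isSym_aux {H : Type u} [Group H] {E : Set H} (hE : ∀ g : H, ∀ x ∈ E, g * x * g⁻¹ ∈ E)
    {t : H} (ht : Free E t) {n : ℕ} (hn : 5 ≤ n) : ¬ IsSym n E := by
  rintro ⟨f, hcard, hcomm, hinj, hsurj⟩
  -- the action
  set s : H → H := fun x => t * x * t⁻¹ with hs
  have hsE : ∀ x ∈ E, s x ∈ E := fun x hx => hE t x hx
  have htt : t⁻¹ = t := inv_eq_of_mul_eq_one_left ht.sq
  have hss : ∀ x, s (s x) = x := by
    intro x
    show t * (t * x * t⁻¹) * t⁻¹ = x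
    rw [htt]
    calc t * (t * x * t) * t = (t * t) * x * (t * t) := by simp only [mul_assoc]
      _ = x := by rw [ht.sq, one_mul, mul_one]
  have hsc : ∀ x y, Commute (s x) (s y) ↔ Commute x y := fun x y => commute_conj_iff t
  have hne : ∀ x ∈ E, f x ≠ f (s x) := by
    intro x hx h
    have h1 := hinj x hx _ (hsE x hx) h
    apply ht.free x hx
    exact (conj_eq_self_iff.1 h1.symm).symm
  have hdisj : ∀ x ∈ E, Disjoint (f x) (f (s x)) := by
    intro x hx
    exact ((hcomm x hx _ (hsE x hx)).1 (ht.comm x hx)).resolve_left (hne x hx)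
  -- membership descriptions
  have hmk : ∀ i j : Fin n, i ≠ j → ∃ x ∈ E, f x = {i, j} := fun i j hij =>
    hsurj _ (Finset.card_pair hij)
  -- noncommuting iff they meet in exactly one point
  have hnc : ∀ x ∈ E, ∀ y ∈ E, f x ≠ f y → (∃ i, i ∈ f x ∧ i ∈ f y) →
      f (s x) ≠ f (s y) ∧ ∃ i, i ∈ f (s x) ∧ i ∈ f (s y) := by
    intro x hx y hy hxy hi
    have h1 : ¬ Commute x y := by
      rw [hcomm x hx y hy]
      rintro (h2 | h2)
      · exact hxy h2
      · obtain ⟨i, hi1, hi2⟩ := hi
        exact Finset.disjoint_left.1 h2 hi1 hi2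
    have h2 : ¬ Commute (s x) (s y) := fun h3 => h1 ((hsc x y).1 h3)
    rw [hcomm _ (hsE x hx) _ (hsE y hy), not_or] at h2
    refine ⟨h2.1, ?_⟩
    exact Finset.not_disjoint_iff.1 h2.2
  have hcc : ∀ x ∈ E, ∀ y ∈ E, Disjoint (f x) (f y) → f (s x) = f (s y) ∨ Disjoint (f (s x)) (f (s y)) := by
    intro x hx y hy hxy
    rw [← hcomm _ (hsE x hx) _ (hsE y hy), hsc, hcomm x hx y hy]
    exact Or.inr hxy
  -- choose `a`
  have hn0 : 0 < n := by omega
  obtain ⟨a, ha, hfa⟩ := hmk ⟨0, by omega⟩ ⟨1, by omega⟩ (by simp [Fin.ext_iff])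
  obtain ⟨p, q, hpq, hfa⟩ : ∃ p q : Fin n, p ≠ q ∧ f a = {p, q} := Finset.card_eq_two.1 (hcard a ha)
  obtain ⟨r, v, hrv, hfb⟩ := Finset.card_eq_two.1 (hcard _ (hsE a ha))
  have hd := hdisj a ha
  rw [hfa, hfb, Finset.disjoint_left] at hd
  have hpr : p ≠ r := fun h => hd (a := p) (by simp) (by simp [h])
  have hpv : p ≠ v := fun h => hd (a := p) (by simp) (by simp [h])
  have hqr : q ≠ r := fun h => hd (a := q) (by simp) (by simp [h])
  have hqv : q ≠ v := fun h => hd (a := q) (by simp) (by simp [h])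
  -- a fifth point
  obtain ⟨x, hx⟩ : ∃ x : Fin n, x ∉ ({p, q, r, v} : Finset (Fin n)) := by
    by_contra hcon
    push Not at hcon
    have h1 : (Finset.univ : Finset (Fin n)) ⊆ {p, q, r, v} := fun x _ => hcon x
    have h2 := Finset.card_le_card h1
    rw [Finset.card_univ, Fintype.card_fin] at h2
    have h3 : ({p, q, r, v} : Finset (Fin n)).card ≤ 4 := Finset.card_le_four
    omega
  simp only [Finset.mem_insert, Finset.mem_singleton, not_or] at hx
  obtain ⟨hxp, hxq, hxr, hxv⟩ := hx
  -- the image of `{p, r}` is `{q, v}`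
  have himg : ∀ p q r v : Fin n, p ≠ q → p ≠ r → p ≠ v → q ≠ r → q ≠ v → r ≠ v →
      f a = {p, q} → f (s a) = {r, v} → ∀ c ∈ E, f c = {p, r} → f (s c) = {q, v} := by
    intro p q r v hpq hpr hpv hqr hqv hrv hfa hfb c hc hfc
    have h1 := hnc a ha c hc (by
      rw [hfa, hfc]; intro h
      have : q ∈ ({p, r} : Finset (Fin n)) := by rw [← h]; simp
      simp only [Finset.mem_insert, Finset.mem_singleton] at this
      rcases this with h | h
      · exact hpq h.symm
      · exact hqr h) ⟨p, by rw [hfa]; simp, by rw [hfc]; simp⟩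
    have h2 := hnc (s a) (hsE a ha) c hc (by
      rw [hfb, hfc]; intro h
      have : v ∈ ({p, r} : Finset (Fin n)) := by rw [← h]; simp
      simp only [Finset.mem_insert, Finset.mem_singleton] at this
      rcases this with h | h
      · exact hpv h.symm
      · exact hrv h.symm) ⟨r, by rw [hfb]; simp, by rw [hfc]; simp⟩
    rw [hss] at h2
    have h3 := hdisj c hc
    rw [hfc, Finset.disjoint_left] at h3
    have h4 : p ∉ f (s c) := h3 (by simp)
    have h5 : r ∉ f (s c) := h3 (by simp)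
    obtain ⟨i, hi1, hi2⟩ := h1.2
    obtain ⟨j, hj1, hj2⟩ := h2.2
    rw [hfb] at hi1
    rw [hfa] at hj1
    simp only [Finset.mem_insert, Finset.mem_singleton] at hi1 hj1
    have hv : v ∈ f (s c) := by
      rcases hi1 with rfl | rfl
      · exact absurd hi2 h5
      · exact hi2
    have hq : q ∈ f (s c) := by
      rcases hj1 with rfl | rfl
      · exact absurd hj2 h4
      · exact hj2
    symm
    apply Finset.eq_of_subset_of_card_le
    · intro i hi
      simp only [Finset.mem_insert, Finset.mem_singleton] at hi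
      rcases hi with rfl | rfl
      · exact hq
      · exact hv
    · rw [hcard _ (hsE c hc), Finset.card_pair hqv]
  obtain ⟨c, hc, hfc⟩ := hmk p r hpr
  obtain ⟨c', hc', hfc'⟩ := hmk p v hpv
  have hsc1 := himg p q r v hpq hpr hpv hqr hqv hrv hfa hfb c hc hfc
  have hsc2 := himg p q v r hpq hpv hpr hqv hqr (Ne.symm hrv) hfa
    (by rw [hfb, Finset.pair_comm]) c' hc' hfc'
  obtain ⟨e, he, hfe⟩ := hmk p x (Ne.symm hxp)
  -- `e` meets `a`, `c`, `c'`
  have hmeet : ∀ y : Fin n, x ≠ y → p ≠ y → ∀ b ∈ E, f b = {p, y} → ∃ i, i ∈ f (s b) ∧ i ∈ f (s e) := by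
    intro y hxy hpy b hb hfb'
    refine (hnc b hb e he ?_ ⟨p, by rw [hfb']; simp, by rw [hfe]; simp⟩).2
    rw [hfb', hfe]
    intro h
    have : y ∈ ({p, x} : Finset (Fin n)) := by rw [← h]; simp
    simp only [Finset.mem_insert, Finset.mem_singleton] at this
    rcases this with h | h
    · exact hpy h.symm
    · exact hxy h.symm
  obtain ⟨i1, hi1, hi1'⟩ := hmeet r hxr hpr c hc hfc
  obtain ⟨i2, hi2, hi2'⟩ := hmeet v hxv hpv c' hc' hfc'
  rw [hsc1] at hi1
  rw [hsc2] at hi2
  simp only [Finset.mem_insert, Finset.mem_singleton] at hi1 hi2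
  -- `s e` is disjoint from `{p, q}`
  have hbe : Disjoint (f (s a)) (f e) := by
    rw [hfb, hfe, Finset.disjoint_left]
    intro i hi
    simp only [Finset.mem_insert, Finset.mem_singleton] at hi ⊢
    rcases hi with rfl | rfl
    · rintro (h | h)
      · exact hpr h.symm
      · exact hxr h.symm
    · rintro (h | h)
      · exact hpv h.symm
      · exact hxv h.symm
  have hq : q ∉ f (s e) := by
    rcases hcc _ (hsE a ha) e he hbe with h | h
    · rw [hss] at h
      intro _
      -- `s e = a`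
      have h1 : a = s e := hinj a ha _ (hsE e he) h
      have h2 : s a = e := by rw [h1, hss]
      rw [h2, hfe] at hfb
      have h3 : p ∈ ({r, v} : Finset (Fin n)) := by rw [← hfb]; simp
      simp only [Finset.mem_insert, Finset.mem_singleton] at h3
      rcases h3 with h3 | h3
      · exact hpr h3
      · exact hpv h3
    · rw [hss, hfa, Finset.disjoint_left] at h
      exact h (by simp)
  have hv : v ∈ f (s e) := by
    rcases hi1 with rfl | rfl
    · exact absurd hi1' hq
    · exact hi1'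
  have hr : r ∈ f (s e) := by
    rcases hi2 with rfl | rfl
    · exact absurd hi2' hq
    · exact hi2'
  have hfin : f (s a) = f (s e) := by
    rw [hfb]
    apply Finset.eq_of_subset_of_card_le
    · intro i hi
      simp only [Finset.mem_insert, Finset.mem_singleton] at hi
      rcases hi with rfl | rfl
      · exact hr
      · exact hv
    · rw [hcard _ (hsE e he), Finset.card_pair hrv]
  have h1 : s a = s e := hinj _ (hsE a ha) _ (hsE e he) hfin
  have h2 : a = e := by rw [← hss a, h1, hss]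
  rw [h2, hfe] at hfa
  have h3 : x ∈ ({p, q} : Finset (Fin n)) := by rw [← hfa]; simp
  simp only [Finset.mem_insert, Finset.mem_singleton] at h3
  rcases h3 with h3 | h3
  · exact hxp h3
  · exact hxq h3

theorem not_isSym [Finite G] (C : Cfg D L) {d : G} (hd : d ∈ D) {n : ℕ} (hn : 5 ≤ n) :
    ¬ IsSym n (EE D L d) := by
  obtain ⟨t, ht, -⟩ := exists_free C hd
  exact not_isSym_aux (fun g x hx => C.EE_conj g hx) ht hn

end Cfsg.Agent.H807.Excl
end

-- part: H807/IdO
section
/-!
# Blocks of type `O^ε(2n, 2)`: `n` is even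
-/

set_option autoImplicit false

namespace Cfsg.Agent.H807.IdO

open Cfsg Cfsg.Agent.Fischer480.Defs Cfsg.Agent.SporadicStructure.FischerSpace
open Cfsg.Agent.ThreeTransPolar.Basic Cfsg.Agent.Fischer891.Lin Cfsg.Agent.Fischer891.OUp
open Cfsg.Agent.Fischer891.Parity Cfsg.Agent.Fischer891.KerParity Cfsg.Agent.Fischer891.FinalO Module
open Cfsg.Agent.H807.Tri Cfsg.Agent.H807.Excl

universe u

section General

variable {G : Type u} [Group G] {D : Set G} {n : ℕ}
  {Q : QuadraticForm (ZMod 2) (Fin (2 * n) → ZMod 2)} {f : G → Fin (2 * n) → ZMod 2}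

/-- conjugation by a member is the transvection -/
theorem f_conj (h : FData D) (C : OChart n D Q f) (hn : 3 ≤ n) {d y : G} (hd : d ∈ D) (hy : y ∈ D) :
    f (cj d y) = tv Q (f d) (f y) := by
  rw [tv_apply]
  by_cases hc : Commute d y
  · rw [cj_of_commute hc]
    have h1 : QuadraticMap.polar Q (f y) (f d) = 0 := (C.comm y hy d hd).1 hc.symm
    rw [h1, zero_smul, add_zero]
  · rw [third_eq h C hn hd hy hc]
    have h1 : QuadraticMap.polar Q (f y) (f d) = 1 := by
      apply z2_ne_zero
      intro h2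
      exact hc ((C.comm y hy d hd).2 h2).symm
    rw [h1, one_smul, add_comm]

/-- every signed word acts as an isometry, whose fixed space has the right parity -/
theorem exists_isometry (h : FData D) (C : OChart n D Q f) (hn : 3 ≤ n) :
    ∀ p ∈ words D, ∃ γ : (Fin (2 * n) → ZMod 2) ≃ₗ[ZMod 2] (Fin (2 * n) → ZMod 2),
      (∀ v, Q (γ v) = Q v) ∧ (∀ y ∈ D, f (cj p.1 y) = γ (f y)) ∧
      p.2 = (-1) ^ finrank (ZMod 2) (fix γ.toLinearMap) := by
  have step : ∀ d ∈ D, ∀ q : G × ℤˣ, (∃ γ : (Fin (2 * n) → ZMod 2) ≃ₗ[ZMod 2] (Fin (2 * n) → ZMod 2),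
      (∀ v, Q (γ v) = Q v) ∧ (∀ y ∈ D, f (cj q.1 y) = γ (f y)) ∧
      q.2 = (-1) ^ finrank (ZMod 2) (fix γ.toLinearMap)) →
      ∃ γ : (Fin (2 * n) → ZMod 2) ≃ₗ[ZMod 2] (Fin (2 * n) → ZMod 2),
      (∀ v, Q (γ v) = Q v) ∧ (∀ y ∈ D, f (cj (d * q.1) y) = γ (f y)) ∧
      - q.2 = (-1) ^ finrank (ZMod 2) (fix γ.toLinearMap) := by
    rintro d hd q ⟨γ, h1, h2, h3⟩
    let τ : (Fin (2 * n) → ZMod 2) ≃ₗ[ZMod 2] (Fin (2 * n) → ZMod 2) :=
      LinearEquiv.ofInvolutive (tv Q (f d)) (tv_tv (f d))
    have hτ : ∀ v, τ v = tv Q (f d) v := fun v => rfl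
    refine ⟨γ.trans τ, ?_, ?_, ?_⟩
    · intro v
      rw [LinearEquiv.trans_apply, hτ, q_tv (C.one d hd), h1]
    · intro y hy
      rw [cj_mul, f_conj h C hn hd (cj_mem h hy), h2 y hy]
      rfl
    · have h4 := finrank_fix Q C.nondeg γ h1 (C.one d hd) (tv Q (f d)) (fun v => tv_apply _ v)
      have h5 : (γ.trans τ).toLinearMap = tv Q (f d) ∘ₗ γ.toLinearMap := rfl
      rw [h5]
      rcases h4 with h4 | h4
      · rw [h3, ← h4, pow_succ]
        simp
      · rw [h3, h4, pow_succ]
        simp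
  intro p hp
  induction hp using Subgroup.closure_induction_left with
  | one =>
    refine ⟨LinearEquiv.refl _ _, fun v => rfl, fun y _ => ?_, ?_⟩
    · show f (cj 1 y) = f y
      rw [cj_one]
    · have h1 : fix (LinearEquiv.refl (ZMod 2) (Fin (2 * n) → ZMod 2)).toLinearMap = ⊤ := by
        rw [eq_top_iff]
        intro v _
        rw [mem_fix]
        rfl
      rw [h1, finrank_top, Module.finrank_fin_fun, pow_mul]
      simp
  | mul_left p hp q hq ih =>
    obtain ⟨γ, h1, h2, h3⟩ := step p.1 hp.1 q ih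
    refine ⟨γ, h1, h2, ?_⟩
    rw [← h3]
    show p.2 * q.2 = _
    rw [hp.2]
    simp
  | inv_mul_cancel p hp q hq ih =>
    obtain ⟨γ, h1, h2, h3⟩ := step p.1 hp.1 q ih
    refine ⟨γ, h1, ?_, ?_⟩
    · intro y hy
      rw [← h2 y hy]
      show f (cj (p.1⁻¹ * q.1) y) = _
      rw [h.inv_eq hp.1]
    · rw [← h3]
      show p.2⁻¹ * q.2 = _
      rw [hp.2]
      simp

/-- elements of the commutator subgroup are even words -/
theorem mem_words_of_commutator (hgen : Subgroup.closure D = ⊤) {t : G} (ht : t ∈ commutator G) :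
    (t, (1 : ℤˣ)) ∈ words D := by
  have hle : commutator G ≤ (words D).comap (MonoidHom.inl G ℤˣ) := by
    rw [commutator_def, Subgroup.commutator_le]
    intro g _ k _
    obtain ⟨ε, hε⟩ := exists_words hgen g
    obtain ⟨δ, hδ⟩ := exists_words hgen k
    have h1 := Subgroup.mul_mem _ (Subgroup.mul_mem _ (Subgroup.mul_mem _ hε hδ)
      (Subgroup.inv_mem _ hε)) (Subgroup.inv_mem _ hδ)
    have h2 : (g, ε) * (k, δ) * (g, ε)⁻¹ * (k, δ)⁻¹ = (g * k * g⁻¹ * k⁻¹, (1 : ℤˣ)) := by
      ext
      · rfl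
      · show (((ε * δ * ε⁻¹ * δ⁻¹ : ℤˣ)) : ℤ) = 1
        rw [mul_comm ε δ, mul_inv_cancel_right, mul_inv_cancel]
        rfl
    rw [h2] at h1
    exact h1
  exact hle ht

/-- the vectors with `Q = 1` span -/
theorem linear_ext {W : Type*} [AddCommGroup W] [Module (ZMod 2) W] (C : OChart n D Q f) {x a : G} (hx : x ∈ D) (ha : a ∈ D)
    (hxa : ¬ Commute x a) (φ : (Fin (2 * n) → ZMod 2) →ₗ[ZMod 2] W) (hφ : ∀ v, Q v = 1 → φ v = 0) (v : Fin (2 * n) → ZMod 2) : φ v = 0 := by
  rcases z2_cases (Q v) with hv | hv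
  swap
  · exact hφ v hv
  obtain ⟨w, hw, hvw⟩ : ∃ w, Q w = 1 ∧ QuadraticMap.polarBilin Q w v = 0 := by
    have e1 := C.one x hx
    have e2 := C.one a ha
    have e3 : QuadraticMap.polarBilin Q (f x) (f a) = 1 := by
      rw [C.polar_eq hx ha]; exact nc_eq_one.2 hxa
    rcases z2_cases (QuadraticMap.polarBilin Q (f x) v) with h6 | h6
    · exact ⟨_, e1, h6⟩
    rcases z2_cases (QuadraticMap.polarBilin Q (f a) v) with h7 | h7
    · exact ⟨_, e2, h7⟩
    refine ⟨f x + f a, ?_, ?_⟩
    · rw [q_add, e1, e2, e3]; decide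
    · rw [map_add, LinearMap.add_apply, h6, h7]; decide
  have h6 := hφ w hw
  have h7 := hφ (w + v) (by rw [q_add, hw, hv, hvw]; decide)
  rw [map_add, h6, zero_add] at h7
  exact h7

/-- **Parity**: if `t` in the commutator subgroup acts freely then `n` is even -/
theorem even_of_free (h : FData D) (C : OChart n D Q f) (hn : 3 ≤ n) {x a : G} (hx : x ∈ D) (ha : a ∈ D)
    (hxa : ¬ Commute x a) {t : G} (ht : Free D t) (htc : t ∈ commutator G) : Even n := by
  obtain ⟨γ, h1, h2, h3⟩ := exists_isometry h C hn _ (mem_words_of_commutator h.gen htc)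
  simp only at h2 h3
  -- `γ² = 1`
  have hγγ : ∀ v, γ (γ v) = v := by
    have h4 : ∀ v, ((γ.toLinearMap ∘ₗ γ.toLinearMap - LinearMap.id :
        (Fin (2 * n) → ZMod 2) →ₗ[ZMod 2] (Fin (2 * n) → ZMod 2))) v = 0 := by
      apply linear_ext C hx ha hxa
      intro v hv
      obtain ⟨y, hy, rfl⟩ := C.surj v hv
      show γ (γ (f y)) - f y = 0
      rw [← h2 y hy, ← h2 _ (cj_mem h hy), ← cj_mul, ht.sq, cj_one, sub_self]
    intro v
    exact sub_eq_zero.1 (h4 v)
  -- the fixed space is totally singular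
  have hsing : ∀ v ∈ fix γ.toLinearMap, Q v = 0 := by
    intro v hv
    rcases z2_cases (Q v) with hq | hq
    · exact hq
    · exfalso
      obtain ⟨y, hy, rfl⟩ := C.surj v hq
      rw [mem_fix] at hv
      have h5 : γ (f y) = f y := hv
      rw [← h2 y hy] at h5
      have h6 := C.inj _ (cj_mem h hy) _ hy h5
      exact ht.free y hy (cj_eq_self_iff.1 h6).symm
  have hnd : (QuadraticMap.polarBilin Q).Nondegenerate := by
    have hs : (QuadraticMap.polarBilin Q).IsSymm := ⟨fun x y => polar_symm x y⟩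
    rw [hs.isRefl.nondegenerate_iff_separatingLeft]
    intro v hv
    exact C.nondeg v fun v' => hv v'
  have hrefl : (QuadraticMap.polarBilin Q).IsRefl :=
    (show (QuadraticMap.polarBilin Q).IsSymm from ⟨fun x y => polar_symm x y⟩).isRefl
  have h5 := LinearMap.BilinForm.finrank_orthogonal hnd (fix γ.toLinearMap)
  have h6 : fix γ.toLinearMap ≤
      LinearMap.BilinForm.orthogonal (QuadraticMap.polarBilin Q) (fix γ.toLinearMap) := by
    intro v hv w hw
    have h7 := hsing _ ((fix γ.toLinearMap).add_mem hw hv)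
    rw [q_add, hsing w hw, hsing v hv, zero_add, zero_add] at h7
    exact h7
  have h7 := Submodule.finrank_mono h6
  rw [h5, Module.finrank_fin_fun] at h7
  have h8 : LinearMap.range (γ.toLinearMap - LinearMap.id) ≤ fix γ.toLinearMap := by
    rintro _ ⟨v, rfl⟩
    rw [mem_fix]
    show γ (γ v - v) = γ v - v
    rw [map_sub, hγγ]
    have : ∀ u w : Fin (2 * n) → ZMod 2, u - w = w - u := by
      intro u w
      ext i
      show u i - w i = w i - u i
      generalize u i = a
      generalize w i = b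
      revert a b
      decide
    exact this _ _
  have h9 := Submodule.finrank_mono h8
  have h10 := LinearMap.finrank_range_add_finrank_ker (γ.toLinearMap - LinearMap.id)
  rw [Module.finrank_fin_fun] at h10
  have h11 : LinearMap.ker (γ.toLinearMap - LinearMap.id) = fix γ.toLinearMap := rfl
  rw [h11] at h10
  have h12 : finrank (ZMod 2) (fix γ.toLinearMap) = n := by omega
  rw [h12] at h3
  by_contra hodd
  rw [Nat.not_even_iff_odd] at hodd
  rw [hodd.neg_one_pow] at h3
  exact absurd h3 (by decide)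

end General

variable {G : Type u} [Group G] {D : Set G} {L : Subgroup G}

theorem even_of_isO [Finite G] (C : Cfg D L) {d : G} (hd : d ∈ D) {n : ℕ} (hn : 3 ≤ n)
    (h : IsO n (EE D L d)) : Even n := by
  obtain ⟨Q, f, K⟩ := isO_iff.1 h
  obtain ⟨t, ht, htL⟩ := exists_free C hd
  have fd := fdata_of_class (C.cls hd)
  have htc : t ∈ commutator ↥(HH L d) := by
    rw [C.commutator_eq hd, Subgroup.mem_subgroupOf]
    exact htL
  -- two members which do not commute
  obtain ⟨x, hx, a, ha, hxa⟩ : ∃ x ∈ EE D L d, ∃ a ∈ EE D L d, ¬ Commute x a := by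
    by_contra hcon
    push Not at hcon
    set d' : ↥(HH L d) := ⟨d, self_mem_HH L d⟩
    have h1 := fd.mem_center_of_forall_commute (x := d') (fun y hy => hcon d' hd y hy)
    apply fd.ne_one d' hd
    apply Subtype.ext
    apply C.cent
    intro x hx
    exact (congrArg Subtype.val ((Subgroup.mem_center_iff.1 h1) ⟨x, L_le_HH L d hx⟩)).symm
  exact even_of_free fd K hn hx ha hxa ht htc

theorem not_isO_three [Finite G] (C : Cfg D L) {d : G} (hd : d ∈ D) : ¬ IsO 3 (EE D L d) := by
  intro h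
  exact absurd (even_of_isO C hd le_rfl h) (by decide)

end Cfsg.Agent.H807.IdO
end

-- part: H807/IdR
section
/-!
# Blocks of type `R n`: exclusion of `R 6`
-/

set_option autoImplicit false

namespace Cfsg.Agent.H807.IdR

open Cfsg Cfsg.Agent.Fischer480.Defs Cfsg.Agent.SporadicStructure.FischerSpace
open Cfsg.Agent.Fischer919.OmegaR Cfsg.Agent.Fischer3.Orth3Basic
open Cfsg.Agent.H807.Tri Cfsg.Agent.H807.Excl

universe u

/-- the number of vectors of norm one -/
theorem ncard_norm_one {H : Type u} [Group H] [Finite H] {E : Set H} {n : ℕ}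
    {B : LinearMap.BilinForm (ZMod 3) (Fin n → ZMod 3)} {f : H → Fin n → ZMod 3}
    (h1 : ∀ x ∈ E, B (f x) (f x) = 1)
    (h3 : ∀ x ∈ E, ∀ y ∈ E, (f x = f y ∨ f x = - f y) → x = y)
    (h4 : ∀ v, B v v = 1 → ∃ x ∈ E, v = f x ∨ v = - f x) :
    {v | B v v = 1}.ncard = 2 * E.ncard := by
  have hS : {v | B v v = 1} = f '' E ∪ (fun x => - f x) '' E := by
    ext v
    constructor
    · intro hv
      obtain ⟨x, hx, h | h⟩ := h4 v hv
      · exact Or.inl ⟨x, hx, h.symm⟩
      · exact Or.inr ⟨x, hx, h.symm⟩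
    · rintro (⟨x, hx, rfl⟩ | ⟨x, hx, rfl⟩)
      · exact h1 x hx
      · show B (- f x) (- f x) = 1
        rw [map_neg, map_neg, LinearMap.neg_apply, neg_neg]
        exact h1 x hx
  have hd : Disjoint (f '' E) ((fun x => - f x) '' E) := by
    rw [Set.disjoint_left]
    rintro _ ⟨x, hx, rfl⟩ ⟨y, hy, hxy⟩
    have h5 := h3 x hx y hy (Or.inr hxy.symm)
    subst h5
    have h6 : f x = 0 := by
      have h7 : - f x = f x := hxy
      ext i
      have h8 := congrFun h7 i
      rw [Pi.neg_apply] at h8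
      show f x i = 0
      revert h8
      generalize f x i = c
      revert c
      decide
    have h7 := h1 x hx
    rw [h6] at h7
    simp at h7
  rw [hS, Set.ncard_union_eq hd (Set.toFinite _) (Set.toFinite _),
    Set.InjOn.ncard_image (fun x hx y hy hxy => h3 x hx y hy (Or.inl hxy)),
    Set.InjOn.ncard_image (fun x hx y hy hxy => h3 x hx y hy (Or.inl (neg_injective hxy)))]
  ring

/-- the two standard forms -/
def qd (d : ZMod 3) (v : Fin 6 → ZMod 3) : ZMod 3 :=
  d * (v 0) ^ 2 + ∑ i : Fin 5, (v i.succ) ^ 2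

/-- number of solutions -/
def cnt (d : ZMod 3) : ℕ := (Finset.univ.filter fun v : Fin 6 → ZMod 3 => qd d v = 1).card

theorem cnt_one : cnt 1 = 252 := by decide +kernel

theorem cnt_two : cnt 2 = 234 := by decide +kernel

/-- the form of the norm, in the shape needed for the normal form -/
theorem exists_basis_form {n : ℕ} {B : LinearMap.BilinForm (ZMod 3) (Fin (n + 1) → ZMod 3)}
    (F : Form B) (hB : B.Nondegenerate) :
    ∃ (g : (Fin (n + 1) → ZMod 3) ≃ₗ[ZMod 3] (Fin (n + 1) → ZMod 3)) (d : ZMod 3), d ≠ 0 ∧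
      ∀ v, B (g v) (g v) = d * (v 0) ^ 2 + ∑ i : Fin n, (v i.succ) ^ 2 := by
  have hnd : (QuadraticMap.polarBilin (QB B)).Nondegenerate := by
    have h1 : QuadraticMap.polarBilin (QB B) = (2 : ZMod 3) • B := by
      ext v w
      simp only [QuadraticMap.polarBilin_apply_apply, LinearMap.smul_apply, LinearMap.comp_apply]
      exact polar_QB F _ _
    rw [h1]
    constructor
    · intro v hv
      apply hB.1
      intro w
      have h2 := hv w
      rw [LinearMap.smul_apply, LinearMap.smul_apply, smul_eq_mul] at h2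
      revert h2
      generalize B v w = c
      revert c
      decide
    · intro v hv
      apply hB.2
      intro w
      have h2 := hv w
      rw [LinearMap.smul_apply, LinearMap.smul_apply, smul_eq_mul] at h2
      revert h2
      generalize B w v = c
      revert c
      decide
  obtain ⟨g, d, hd, hg⟩ := Cfsg.Agent.ClassicalGeometry.DiagNormal.exists_normal_form
    (show (2 : ZMod 3) ≠ 0 by decide) (QB B) hnd
  exact ⟨g, d, hd, fun v => hg v⟩

variable {G : Type u} [Group G] {D : Set G} {L : Subgroup G}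

theorem sum_single (c : ZMod 3) (i : Fin 5) :
    c * (Pi.single i.succ 1 : Fin 6 → ZMod 3) 0 ^ 2 +
      ∑ k : Fin 5, (Pi.single i.succ 1 : Fin 6 → ZMod 3) k.succ ^ 2 = 1 := by
  revert c i
  decide

theorem sum_single_add (c : ZMod 3) (i j : Fin 5) (hij : i ≠ j) :
    c * (Pi.single i.succ 1 + Pi.single j.succ 1 : Fin 6 → ZMod 3) 0 ^ 2 +
      ∑ k : Fin 5, (Pi.single i.succ 1 + Pi.single j.succ 1 : Fin 6 → ZMod 3) k.succ ^ 2 = 2 := by
  revert hij
  revert c i j
  decide

theorem not_isR_six [Finite G] (C : Cfg D L) {d : G} (hd : d ∈ D) : ¬ IsR 6 (EE D L d) := by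
  rintro ⟨B, f, hs, hB, h1, h2, h3, h4⟩
  have F : Form B := ⟨fun v w => hs.eq v w, fun v hv => hB.1 v hv⟩
  obtain ⟨g, c, hc, hg⟩ := exists_basis_form F hB
  -- the number of members
  have hn := ncard_norm_one h1 h3 h4
  have hcard : {v | B v v = 1}.ncard = cnt c := by
    have h5 : {v | B v v = 1} = g '' {v | qd c v = 1} := by
      ext v
      constructor
      · intro hv
        refine ⟨g.symm v, ?_, by simp⟩
        show qd c (g.symm v) = 1
        rw [qd, ← hg, LinearEquiv.apply_symm_apply]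
        exact hv
      · rintro ⟨w, hw, rfl⟩
        show B (g w) (g w) = 1
        rw [hg]
        exact hw
    rw [h5, Set.ncard_image_of_injective _ g.injective, cnt, ← Set.ncard_coe_finset]
    congr 1
    ext v
    simp
  -- three mutually commuting members
  have hex : ∀ i : Fin 5, ∃ x ∈ EE D L d, g (Pi.single i.succ 1) = f x ∨ g (Pi.single i.succ 1) = - f x := by
    intro i
    apply h4
    rw [hg]
    exact sum_single c i
  choose x hx hfx using hex
  have hB0 : ∀ i j : Fin 5, i ≠ j → B (g (Pi.single i.succ 1)) (g (Pi.single j.succ 1)) = 0 := by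
    intro i j hij
    have h5 := F.norm_add (g (Pi.single i.succ 1)) (g (Pi.single j.succ 1))
    rw [← map_add g, hg, hg, hg, sum_single, sum_single, sum_single_add c i j hij] at h5
    revert h5
    generalize B (g (Pi.single i.succ 1)) (g (Pi.single j.succ 1)) = b
    revert b
    decide
  have hBf : ∀ i j : Fin 5, i ≠ j → B (f (x i)) (f (x j)) = 0 := by
    intro i j hij
    have h5 := hB0 i j hij
    rcases hfx i with h6 | h6 <;> rcases hfx j with h7 | h7 <;> rw [h6, h7] at h5
    · exact h5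
    · rw [map_neg] at h5; exact neg_eq_zero.1 h5
    · rw [map_neg, LinearMap.neg_apply] at h5; exact neg_eq_zero.1 h5
    · rw [map_neg, map_neg, LinearMap.neg_apply, neg_neg] at h5; exact h5
  have hne : Function.Injective x := by
    intro i j hij
    by_contra hne
    have h5 := hBf i j hne
    rw [hij, h1 _ (hx j)] at h5
    exact absurd h5 (by decide)
  have h5 := pow_dvd_ncard C hd (A := Set.range x) (k := 1)
    (by rintro _ ⟨i, rfl⟩; exact hx i)
    (by
      rintro _ ⟨i, rfl⟩ _ ⟨j, rfl⟩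
      by_cases hij : i = j
      · rw [hij]
      · exact (h2 _ (hx i) _ (hx j)).2 (Or.inr (hBf i j hij)))
    (by
      rw [← Set.image_univ, Set.ncard_image_of_injective _ hne, Set.ncard_univ]
      simp)
  rw [hcard] at hn
  have h6 : c = 1 ∨ c = 2 := by
    revert hc
    clear * -
    revert c
    decide
  rcases h6 with rfl | rfl
  · rw [cnt_one] at hn
    omega
  · rw [cnt_two] at hn
    omega

end Cfsg.Agent.H807.IdR
end

-- part: H807/Ident
section
/-!
# Identification of the simple group `L` for the blocks of types `O` and `R`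
-/

set_option autoImplicit false

namespace Cfsg.Agent.H807.Ident

open Cfsg Cfsg.Agent.Fischer480.Defs Cfsg.Agent.SporadicStructure.FischerSpace
open Cfsg.Agent.H807.Tri Cfsg.Agent.H807.Excl Cfsg.Agent.H807.CommEquiv
open Cfsg.Agent.LieClassical.OrthCore

universe u

variable {G : Type u} [Group G] {D : Set G} {L : Subgroup G}

theorem center_eq_bot (C : Cfg D L) {d : G} : Subgroup.center ↥(HH L d) = ⊥ := by
  rw [eq_bot_iff]
  intro z hz
  rw [Subgroup.mem_bot]
  apply Subtype.ext
  apply C.cent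
  intro x hx
  exact (congrArg Subtype.val ((Subgroup.mem_center_iff.1 hz) ⟨x, L_le_HH L d hx⟩)).symm

/-- `H = H ⧸ Z(H)` -/
noncomputable def quot (C : Cfg D L) (d : G) : ↥(HH L d) ≃* (↥(HH L d) ⧸ Subgroup.center ↥(HH L d)) :=
  ((QuotientGroup.quotientMulEquivOfEq (center_eq_bot C)).trans QuotientGroup.quotientBot).symm

theorem quot_apply (C : Cfg D L) (d : G) (x : ↥(HH L d)) : quot C d x = QuotientGroup.mk x := by
  rw [quot, MulEquiv.symm_apply_eq]
  rfl

/-- the commutator subgroup is `L` -/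
noncomputable def commEquiv (C : Cfg D L) {d : G} (hd : d ∈ D) : ↥(commutator ↥(HH L d)) ≃* ↥L :=
  (MulEquiv.subgroupCongr (C.commutator_eq hd)).trans (Subgroup.subgroupOfEquivOfLe (L_le_HH L d))

theorem isSimple_comm (C : Cfg D L) {d : G} (hd : d ∈ D) : IsSimpleGroup ↥(commutator ↥(HH L d)) := by
  have := C.simple
  exact (commEquiv C hd).isSimpleGroup

theorem na_comm (C : Cfg D L) {d : G} (hd : d ∈ D) :
    ∃ x y : ↥(commutator ↥(HH L d)), x * y ≠ y * x := by
  obtain ⟨x, hx, y, hy, hxy⟩ := C.na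
  refine ⟨(commEquiv C hd).symm ⟨x, hx⟩, (commEquiv C hd).symm ⟨y, hy⟩, fun h => hxy ?_⟩
  rw [← map_mul, ← map_mul] at h
  exact congrArg Subtype.val ((commEquiv C hd).symm.injective h)

/-- **type `R`** -/
theorem pomega_of_isR [Finite G] (C : Cfg D L) {d : G} (hd : d ∈ D) {n : ℕ} (hn : 6 ≤ n)
    (h : IsR n (EE D L d)) : ∃ Q : QuadraticForm (ZMod 3) (Fin n → ZMod 3), Nondeg Q ∧
      Nonempty (↥L ≃* POmega (ZMod 3) (⇑Q)) := by
  obtain ⟨B, f, hs, hB, h1, h2, h3, h4⟩ := h
  have F : Cfsg.Agent.Fischer3.Orth3Basic.Form B := ⟨fun v w => hs.eq v w, fun v hv => hB.1 v hv⟩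
  have fd := fdata_of_class (C.cls hd)
  obtain ⟨e, -⟩ := Cfsg.Agent.Fischer919.OmegaR.exists_equiv_Gam F fd hn h1 h2 h3 h4
  have hsep : Nondeg (Cfsg.Agent.Fischer919.OmegaR.QB B) := by
    intro x hx
    apply F.nondeg
    intro y
    have h5 := hx y
    rw [Cfsg.Agent.Fischer919.OmegaR.polar_QB F] at h5
    have h6 : ∀ a : ZMod 3, 2 * a = 0 → a = 0 := by decide
    exact h6 _ h5
  have hO : IsSimpleGroup (POmega (ZMod 3) (⇑(Cfsg.Agent.Fischer919.OmegaR.QB B))) := by
    apply Cfsg.Agent.LieClassical.OrthFinite.isSimpleGroup_POmega hsep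
    rw [Fintype.card_fin]
    omega
  obtain ⟨k⟩ := comm_equiv (Cfsg.Agent.Fischer919.OmegaR.Gam B) Cfsg.Agent.Fischer919.OmegaR.Gam_normal
    ((quot C d).trans e) (isSimple_comm C hd) (na_comm C hd) hO
  exact ⟨_, hsep, ⟨(commEquiv C hd).symm.trans k⟩⟩

open Cfsg.Agent.SporadicStructure.OrthTwo Cfsg.Agent.ClassicalGeometry.Reflection
  Cfsg.Agent.Fischer891.OUp in
theorem refl_injective {n : ℕ} {Q : QuadraticForm (ZMod 2) (Fin n → ZMod 2)} (hQ : Nondeg Q)
    {v w : Fin n → ZMod 2} (hv : Q v ≠ 0) (hw : Q w ≠ 0) (h : reflIso Q v hv = reflIso Q w hw) : v = w := by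
  have hv0 : v ≠ 0 := by rintro rfl; exact hv (QuadraticMap.map_zero Q)
  obtain ⟨x, hx⟩ : ∃ x, QuadraticMap.polar Q v x ≠ 0 := by
    by_contra hcon
    push Not at hcon
    exact hv0 (hQ v hcon)
  have h1 := act_refl Q v hv x
  rw [h, act_refl, eq_one_of_ne_zero hx, one_smul] at h1
  have h2 := add_left_cancel h1
  rcases zero_or_one (QuadraticMap.polar Q w x) with h3 | h3
  · rw [h3, zero_smul] at h2
    exact absurd h2.symm hv0
  · rw [h3, one_smul] at h2
    exact h2.symm

open Cfsg.Agent.SporadicStructure.OrthTwo Cfsg.Agent.ClassicalGeometry.Reflection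
  Cfsg.Agent.Fischer891.OUp Cfsg.Agent.ThreeTransPolar.Basic in
/-- **type `O`** -/
theorem pomega_of_isO [Finite G] (C : Cfg D L) {d : G} (hd : d ∈ D) {n : ℕ} (hn : 3 ≤ n)
    (h : IsO n (EE D L d)) : ∃ Q : QuadraticForm (ZMod 2) (Fin (2 * n) → ZMod 2), Nondeg Q ∧
      Nonempty (↥L ≃* POmega (ZMod 2) (⇑Q)) := by
  obtain ⟨Q, f, K⟩ := isO_iff.1 h
  have hsep : Nondeg Q := K.nondeg
  have hcard : 5 ≤ Fintype.card (Fin (2 * n)) := by rw [Fintype.card_fin]; omega
  have fd := fdata_of_class (C.cls hd)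
  have hcl := isThreeTranspositionClass (Q := Q) hsep hcard
  have fd2 := fdata_of_class hcl
  set D₂ : Set ↥(Cfsg.isometryGroup (ZMod 2) (⇑Q)) := {g : ↥(Cfsg.isometryGroup (ZMod 2) (⇑Q)) |
      (((g : Matrix.GeneralLinearGroup (Fin (2 * n)) (ZMod 2)) : Matrix (Fin (2 * n)) (Fin (2 * n)) (ZMod 2)) - 1).rank = 1}
    with hD₂
  have hne : ∀ a ∈ EE D L d, Q (f a) ≠ 0 := by
    intro a ha
    rw [K.one a ha]
    exact one_ne_zero
  let φ₀ : ↥(EE D L d) → ↥D₂ := fun a =>
    ⟨reflIso Q (f a) (hne a a.2), (rank_one_iff hsep _).2 ⟨_, hne a a.2, rfl⟩⟩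
  have hbij : Function.Bijective φ₀ := by
    constructor
    · intro a b hab
      have h5 : reflIso Q (f a) (hne a a.2) = reflIso Q (f b) (hne b b.2) := congrArg Subtype.val hab
      exact Subtype.ext (K.inj _ a.2 _ b.2 (refl_injective hsep _ _ h5))
    · rintro ⟨g, hg⟩
      obtain ⟨v, hv, rfl⟩ := (rank_one_iff hsep g).1 hg
      obtain ⟨a, ha, hav⟩ := K.surj v (eq_one_of_ne_zero hv)
      subst hav
      exact ⟨⟨a, ha⟩, rfl⟩
  obtain ⟨e, -⟩ := Cfsg.Agent.Fischer920.RackIso.exists_equiv_quotient (D₁ := EE D L d) (D₂ := D₂)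
    fd.conj fd2.conj fd.gen fd2.gen (Equiv.ofBijective φ₀ hbij) (by
      intro a b
      have h6 : f ((a : ↥(HH L d)) * b * (a : ↥(HH L d))⁻¹) =
          act Q (reflIso Q (f a) (hne a a.2)) (f b) := by
        rw [act_refl]
        have h7 := IdO.f_conj fd K hn a.2 b.2
        rw [cj_def] at h7
        rw [h7, Cfsg.Agent.Fischer891.FinalO.tv_apply, QuadraticMap.polar_comm]
      have h8 : Q (act Q (reflIso Q (f a) (hne a a.2)) (f b)) ≠ 0 := by
        rw [← h6]
        exact hne _ (fd.conj _ _ b.2)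
      show reflIso Q (f ((a : ↥(HH L d)) * b * (a : ↥(HH L d))⁻¹)) (hne _ (fd.conj _ _ b.2)) =
        reflIso Q (f a) (hne a a.2) * reflIso Q (f b) (hne b b.2) * (reflIso Q (f a) (hne a a.2))⁻¹
      rw [conj_refl _ _ (hne b b.2) h8]
      congr 1)
  have hO : IsSimpleGroup (POmega (ZMod 2) (⇑Q)) :=
    Cfsg.Agent.LieClassical.OrthFinite.isSimpleGroup_POmega hsep hcard
  obtain ⟨e'⟩ := Cfsg.Agent.Fischer919.CentralQuot.equiv_quotient_center
    (Subgroup.topEquiv (G := ↥(Cfsg.isometryGroup (ZMod 2) (⇑Q)))).symm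
  obtain ⟨k⟩ := comm_equiv (⊤ : Subgroup ↥(Cfsg.isometryGroup (ZMod 2) (⇑Q))) inferInstance
    (((quot C d).trans e).trans e') (isSimple_comm C hd) (na_comm C hd) hO
  exact ⟨_, hsep, ⟨(commEquiv C hd).symm.trans k⟩⟩

end Cfsg.Agent.H807.Ident
end

-- part: H807/AutCases
section
/-!
# The orders of the automorphism groups of `PΩ(Q)` over the fields with two and three elements
-/

set_option autoImplicit false

namespace Cfsg.Agent.H807.AutCases

open Cfsg Cfsg.Agent.GenOrth Cfsg.Agent.LieClassical.OrthFourCommon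
  Cfsg.Agent.ClassicalGeometry.OddInvolutions Cfsg.Agent.LieClassical.OrthCore

/-- similar forms have isomorphic `PΩ` -/
theorem sim_pomega {F : Type*} [Field F] {n : ℕ} {Q : QuadraticForm F (Fin n → F)} {ι : Type} [Fintype ι]
    [DecidableEq ι] {q : (ι → F) → F} (h : Sim Q q) : Nonempty (POmega F (⇑Q) ≃* POmega F q) := by
  obtain ⟨c, hc, j, hj⟩ := h
  obtain ⟨e1⟩ := exists_isometryGroup_equiv j (fun x => c * q x) (⇑Q) hj
  obtain ⟨e2⟩ := exists_isometryGroup_equiv (LinearEquiv.refl F (Fin n → F)) (⇑Q) (⇑Q) (fun _ => rfl)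
  have e3 : isometryGroup F (fun x => c * q x) ≃* isometryGroup F q :=
    MulEquiv.subgroupCongr (Cfsg.Agent.Fischer919.OmegaIdent.isometryGroup_smul q hc)
  exact commutator_quot_center_congr (e2.trans (e1.symm.trans e3))

theorem card_mulAut_congr {A B : Type*} [Group A] [Group B] (e : A ≃* B) :
    Nat.card (MulAut A) = Nat.card (MulAut B) := Nat.card_congr (MulAut.congr e).toEquiv

/-- only the hyperbolic form in dimension eight has outer automorphisms of order three -/
theorem aut_cases (p : ℕ) [Fact p.Prime] {N : ℕ} (hN : 7 ≤ N) (h2 : p = 2 → Even N)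
    (Q : QuadraticForm (ZMod p) (Fin N → ZMod p)) (hQ : Nondeg Q) :
    Nonempty (POmega (ZMod p) (⇑Q) ≃* POmega (ZMod p) (quadFormPlus 4 (ZMod p))) ∨
      ∃ k, Nat.card (MulAut (POmega (ZMod p) (⇑Q))) = 2 ^ k * Nat.card (POmega (ZMod p) (⇑Q)) := by
  have hF : Fintype.card (ZMod p) = p ^ 1 := by rw [ZMod.card, pow_one]
  rcases normal_form N hQ (by simp) with ⟨k, hk, hs⟩ | ⟨k, hk, hs⟩ | ⟨k, hk, a, b, hab, hs⟩
  · right
    obtain ⟨e⟩ := sim_pomega hs
    have hodd : Odd p := by
      rcases (Fact.out : p.Prime).eq_two_or_odd' with h | h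
      · exfalso
        have := h2 h
        rw [hk] at this
        exact absurd this (by simp [parity_simps])
      · exact h
    refine ⟨1, ?_⟩
    rw [card_mulAut_congr e, Nat.card_congr e.toEquiv,
      Cfsg.Agent.S0816.result p 1 le_rfl hF hodd k (by omega)]
    norm_num
  · obtain ⟨e⟩ := sim_pomega hs
    by_cases h4 : k = 4
    · subst h4
      exact Or.inl ⟨e⟩
    · right
      have h5 := Cfsg.Agent.S0817.result (F := ZMod p) p 1 le_rfl hF k (by omega)
      rw [if_neg h4, one_mul, mul_one] at h5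
      rw [card_mulAut_congr e, Nat.card_congr e.toEquiv, h5]
      split_ifs
      · exact ⟨1, rfl⟩
      · exact ⟨3, rfl⟩
      · exact ⟨2, rfl⟩
  · right
    obtain ⟨e⟩ := sim_pomega hs
    obtain ⟨m, rfl⟩ : ∃ m, k = m - 1 := ⟨k + 1, by omega⟩
    have h5 := Cfsg.Agent.S0818.result (F := ZMod p) p 1 le_rfl hF m (by omega) a b hab
    rw [mul_one] at h5
    rw [card_mulAut_congr e, Nat.card_congr e.toEquiv, h5]
    split_ifs
    · exact ⟨1, rfl⟩
    · exact ⟨2, rfl⟩
    · exact ⟨3, rfl⟩

/-- the automorphism group of `PΩ⁺(8, 2)` -/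
theorem card_aut_two : Nat.card (MulAut (POmega (ZMod 2) (quadFormPlus 4 (ZMod 2)))) =
    6 * Nat.card (POmega (ZMod 2) (quadFormPlus 4 (ZMod 2))) := by
  have h5 := Cfsg.Agent.S0817.result (F := ZMod 2) 2 1 le_rfl (by rw [ZMod.card, pow_one]) 4 le_rfl
  rw [h5]
  norm_num

/-- the automorphism group of `PΩ⁺(8, 3)` -/
theorem card_aut_three : Nat.card (MulAut (POmega (ZMod 3) (quadFormPlus 4 (ZMod 3)))) =
    24 * Nat.card (POmega (ZMod 3) (quadFormPlus 4 (ZMod 3))) := by
  have h5 := Cfsg.Agent.S0817.result (F := ZMod 3) 3 1 le_rfl (by rw [ZMod.card, pow_one]) 4 le_rfl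
  rw [h5]
  have : Even (4 * (3 ^ 1 - 1) / 2) := by decide
  rw [if_pos rfl, if_neg (by norm_num), if_pos this]

/-- `PΩ⁺(8, 2) = Ω⁺(8, 2)` -/
theorem omega_eight_two : Nonempty (POmega (ZMod 2) (quadFormPlus 4 (ZMod 2)) ≃*
    Omega (ZMod 2) (quadFormPlus 4 (ZMod 2))) := by
  have hc : Subgroup.center (Omega (ZMod 2) (⇑(Cfsg.Agent.LieClassical.OmegaReindex.quadPlus 4 (ZMod 2)))) = ⊥ :=
    Cfsg.Agent.LieClassical.OrthCenter.center_omega_eq_bot_char_two (by decide)
      (Cfsg.Agent.LieClassical.OmegaReindex.quadPlus_nondegenerate) (by simp)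
      (Cfsg.Agent.LieClassical.OmegaReindex.quadPlus_isotropic (by norm_num))
  rw [Cfsg.Agent.LieClassical.OmegaReindex.coe_quadPlus] at hc
  exact ⟨(QuotientGroup.quotientMulEquivOfEq hc).trans QuotientGroup.quotientBot⟩

end Cfsg.Agent.H807.AutCases
end

-- part: S5362
section
set_option autoImplicit false
open scoped MatrixGroups
open Cfsg

namespace Cfsg.Agent.S5362

open Cfsg.Agent.H807.Tri Cfsg.Agent.H807.Excl Cfsg.Agent.H807.Quot Cfsg.Agent.H807.AutCases

/-- the conclusion in terms of an isomorphism of `L` with a central quotient -/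
theorem finish {G : Type*} [Group G] [Finite G] {D : Set G} {L : Subgroup G} (C : Cfg D L) [L.Normal] {p : ℕ}
    (hp : p = 2 ∨ p = 3) [Fact p.Prime] {N : ℕ} (hN : 7 ≤ N) (h2 : p = 2 → Even N)
    (Q : QuadraticForm (ZMod p) (Fin N → ZMod p)) (hQ : Cfsg.Agent.LieClassical.OrthCore.Nondeg Q)
    (e : ↥L ≃* POmega (ZMod p) (⇑Q)) :
    Nonempty (G ⧸ L ≃* Equiv.Perm (Fin 3)) ∧ (Nonempty (L ≃* Cfsg.Omega (ZMod 2) (Cfsg.quadFormPlus 4 (ZMod 2))) ∨ Nonempty (L ≃* Cfsg.POmega (ZMod 3) (Cfsg.quadFormPlus 4 (ZMod 3)))) := by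
  have h6 := six_dvd C
  rcases aut_cases p hN h2 Q hQ with e' | ⟨k, hk⟩
  · obtain ⟨e'⟩ := e'
    have e1 := e.trans e'
    rcases hp with rfl | rfl
    · have h7 := card_quot_dvd C (c := 6) (by
        rw [card_mulAut_congr e1, Nat.card_congr e1.toEquiv]; exact card_aut_two)
      obtain ⟨e2⟩ := omega_eight_two
      exact ⟨equiv_of_card C (Nat.dvd_antisymm h7 h6), Or.inl ⟨e1.trans e2⟩⟩
    · have h7 := card_quot_dvd C (c := 24) (by
        rw [card_mulAut_congr e1, Nat.card_congr e1.toEquiv]; exact card_aut_three)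
      obtain ⟨k, hk⟩ := card_dvd C
      refine ⟨equiv_of_card C ?_, Or.inr ⟨e1⟩⟩
      obtain ⟨m, hm⟩ := h6
      rw [hm] at h7 hk ⊢
      have h8 : m ∣ 4 := by
        have : 6 * m ∣ 6 * 4 := h7
        exact Nat.dvd_of_mul_dvd_mul_left (by norm_num) this
      have h9 : m ∣ 3 ^ k := by
        have h10 : 2 * (3 * m) ∣ 2 * 3 ^ k := by
          have : 2 * (3 * m) = 6 * m := by ring
          rw [this]; exact hk
        have h11 := Nat.dvd_of_mul_dvd_mul_left (by norm_num) h10
        exact (Dvd.intro_left 3 rfl).trans h11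
      have h12 : Nat.Coprime 4 (3 ^ k) := Nat.Coprime.pow_right _ (by norm_num)
      have h13 := Nat.dvd_gcd h8 h9
      rw [h12] at h13
      have h14 := Nat.dvd_one.1 h13
      omega
  · exfalso
    have h7 := card_quot_dvd C (c := 2 ^ k) (by
        rw [card_mulAut_congr e, Nat.card_congr e.toEquiv]; exact hk)
    have h8 : 3 ∣ 2 ^ k := (by norm_num : 3 ∣ 6).trans (h6.trans h7)
    have h9 := Nat.prime_three.dvd_of_dvd_pow h8
    omega

/-- Let D be a conjugacy class of 3-transpositions generating the finite group G, with trivial centre and trivial largest normal 2- and 3-subgroups, and suppose the commuting graph of D is not connected. Let F be the generalized Fitting subgroup of G. Then G/F is isomorphic to the symmetric group of degree 3, and F is isomorphic either to the commutator subgroup of the isometry group of the hyperbolic quadratic form in dimension 8 over the field with two elements, or to the commutator subgroup of the isometry group of the hyperbolic quadratic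 form in dimension 8 over the field with three elements modulo its centre. -/
theorem result {G : Type*} [Group G] [Finite G] {D : Set G} (hD : Cfsg.IsThreeTranspositionClass D) (hZ : Subgroup.center G = ⊥) (h2 : Cfsg.pCore 2 G = ⊥) (h3 : Cfsg.pCore 3 G = ⊥) (hdisc : ¬ (Cfsg.commutingGraph D).Connected) (F : Subgroup G) [F.Normal] (hF : F = Cfsg.generalizedFittingSubgroup G) : Nonempty (G ⧸ F ≃* Equiv.Perm (Fin 3)) ∧ (Nonempty (F ≃* Cfsg.Omega (ZMod 2) (Cfsg.quadFormPlus 4 (ZMod 2))) ∨ Nonempty (F ≃* Cfsg.POmega (ZMod 3) (Cfsg.quadFormPlus 4 (ZMod 3)))) := by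
  have C := exists_cfg hD hZ h2 h3 hdisc
  rw [← hF] at C
  obtain ⟨d, hd, -⟩ := hD.2.1
  rcases Cfsg.Agent.Fischer480.AllPieces.inList (C.fgroup hd) with
    ⟨n, hn, h⟩ | ⟨n, hn, h⟩ | ⟨n, hn, h⟩ | ⟨n, hn, h⟩ | ⟨n, hn, h⟩ | h | h | h
  · exact (not_isSym C hd hn h).elim
  · exact (not_isSp C hd hn h).elim
  · rcases Nat.eq_or_lt_of_le hn with rfl | hn'
    · exact (Cfsg.Agent.H807.IdO.not_isO_three C hd h).elim
    · have : Fact (Nat.Prime 2) := ⟨Nat.prime_two⟩
      obtain ⟨Q, hQ, ⟨e⟩⟩ := Cfsg.Agent.H807.Ident.pomega_of_isO C hd hn h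
      exact finish C (Or.inl rfl) (by omega) (fun _ => even_two_mul n) Q hQ e
  · exact (not_isU C hd hn h).elim
  · rcases Nat.eq_or_lt_of_le hn with rfl | hn'
    · exact (Cfsg.Agent.H807.IdR.not_isR_six C hd h).elim
    · have : Fact (Nat.Prime 3) := ⟨Nat.prime_three⟩
      obtain ⟨Q, hQ, ⟨e⟩⟩ := Cfsg.Agent.H807.Ident.pomega_of_isR C hd hn h
      exact finish C (Or.inr rfl) (by omega) (fun h => absurd h (by norm_num)) Q hQ e
  · exact (not_isT6 C hd h).elim
  · exact (not_isT7 C hd h).elim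
  · exact (not_isT8 C hd h).elim

end Cfsg.Agent.S5362
end
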