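import Cfsg.Agent.SporadicStructure.PermFive
import Cfsg.Agent.H346.CoxA
import Mathlib
import Cfsg.Prelude.Def_SporadicB
import Cfsg.Agent.H805.VW
import Cfsg.Statements.S5365
set_option linter.all false

-- part: H807/SymFive
section
/-!
# Four involutions with the Coxeter relations of type `A₄` generate the symmetric group of degree five

`permFive`: if `x, y, b, a` satisfy the Coxeter relations of type `A₄` and `x y ≠ y x`, then the subgroup generated by
them is isomorphic to `S₅`.
-/

set_option autoImplicit false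

namespace Cfsg.Agent.H807.SymFive

open Equiv Cfsg.Agent.SporadicStructure.PermFive

/-- a group generated by four elements with the Coxeter relations of type `A₄`, not all commuting, is `S₅` -/
theorem permFive_top {G : Type*} [Group G] {x y b a : G} (h : Cox x y b a) (hne : x * y ≠ y * x)
    (hgen : Subgroup.closure {x, y, b, a} = (⊤ : Subgroup G)) : Nonempty (G ≃* Perm (Fin 5)) := by
  choose f hf using exists_perm h hgen
  let F : G →* Perm (Fin 5) :=
    { toFun := f
      map_one' := acts_unique h hne (hf 1) Acts.one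
      map_mul' := fun u v => acts_unique h hne (hf (u * v)) ((hf u).mul (hf v)) }
  have hsurj : Function.Surjective F := by
    intro σ
    obtain ⟨g, hg⟩ := exists_elt h σ
    exact ⟨g, acts_unique h hne (hf g) hg⟩
  let s : ℕ → G := fun i => if i = 0 then x else if i = 1 then y else if i = 2 then b else a
  have hs : H346.CoxA.Rel 4 s := by
    refine ⟨?_, ?_, ?_⟩
    · intro i hi
      interval_cases i
      · exact h.xx
      · exact h.yy
      · exact h.bb
      · exact h.aa
    · intro i hi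
      have hi' : i < 3 := by omega
      interval_cases i
      · exact h.yxy.symm
      · exact h.byb.symm
      · exact h.aba.symm
    · intro i j hij hj
      have : (i = 0 ∧ j = 2) ∨ (i = 0 ∧ j = 3) ∨ (i = 1 ∧ j = 3) := by omega
      rcases this with ⟨rfl, rfl⟩ | ⟨rfl, rfl⟩ | ⟨rfl, rfl⟩
      · exact h.bx.symm
      · exact h.ax.symm
      · exact h.ay.symm
  obtain ⟨hfin, hcard⟩ := H346.CoxA.Rel.card_H 4 s hs
  have htop : H346.CoxA.Rel.H 4 s = ⊤ := by
    rw [eq_top_iff, ← hgen, Subgroup.closure_le]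
    rintro z (rfl | rfl | rfl | rfl)
    · exact H346.CoxA.Rel.mem_H (s := s) (i := 0) (by norm_num)
    · exact H346.CoxA.Rel.mem_H (s := s) (i := 1) (by norm_num)
    · exact H346.CoxA.Rel.mem_H (s := s) (i := 2) (by norm_num)
    · exact H346.CoxA.Rel.mem_H (s := s) (i := 3) (by norm_num)
  rw [htop] at hfin hcard
  have hfinG : Finite G := Finite.of_equiv _ (Subgroup.topEquiv (G := G)).toEquiv
  have hc : Nat.card G ≤ Nat.card (Perm (Fin 5)) := by
    rw [Nat.card_perm, Nat.card_fin, ← Nat.card_congr (Subgroup.topEquiv (G := G)).toEquiv]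
    exact hcard
  have hbij : Function.Bijective F :=
    (Nat.bijective_iff_surjective_and_card F).2
      ⟨hsurj, le_antisymm hc (Nat.card_le_card_of_surjective F hsurj)⟩
  exact ⟨MulEquiv.ofBijective F hbij⟩

/-- **four involutions with the Coxeter relations of type `A₄`** -/
theorem permFive {G : Type*} [Group G] {x y b a : G} (h : Cox x y b a) (hne : x * y ≠ y * x) :
    Nonempty (Subgroup.closure {x, y, b, a} ≃* Perm (Fin 5)) := by
  set K := Subgroup.closure {x, y, b, a} with hK
  have hx : x ∈ K := Subgroup.subset_closure (by simp)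
  have hy : y ∈ K := Subgroup.subset_closure (by simp)
  have hb : b ∈ K := Subgroup.subset_closure (by simp)
  have ha : a ∈ K := Subgroup.subset_closure (by simp)
  have h' : Cox (⟨x, hx⟩ : K) ⟨y, hy⟩ ⟨b, hb⟩ ⟨a, ha⟩ :=
    { xx := Subtype.ext h.xx
      yy := Subtype.ext h.yy
      bb := Subtype.ext h.bb
      aa := Subtype.ext h.aa
      bx := Subtype.ext h.bx
      ax := Subtype.ext h.ax
      ay := Subtype.ext h.ay
      yxy := Subtype.ext h.yxy
      byb := Subtype.ext h.byb
      aba := Subtype.ext h.aba }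
  refine permFive_top h' (fun h0 => hne (congrArg Subtype.val h0)) ?_
  rw [eq_top_iff]
  intro z _
  have hz : (z : G) ∈ (Subgroup.closure {(⟨x, hx⟩ : K), ⟨y, hy⟩, ⟨b, hb⟩, ⟨a, ha⟩}).map K.subtype := by
    rw [MonoidHom.map_closure]
    have e : (K.subtype : K → G) '' {(⟨x, hx⟩ : K), ⟨y, hy⟩, ⟨b, hb⟩, ⟨a, ha⟩} = {x, y, b, a} := by
      simp [Set.image_insert_eq]
    rw [e]
    exact z.2
  obtain ⟨w, hw, hwz⟩ := hz
  have : w = z := Subtype.ext hwz
  rwa [← this]

end Cfsg.Agent.H807.SymFive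
end

-- part: H807/LocSThree
section
/-!
# Conjugation-invariant sets of 3-transpositions with `⟨D_d⟩ ≅ S₃`

`D` is a conjugation-invariant set of 3-transpositions such that `D_d` generates `S₃` for all `d ∈ D`. The commuting
graph on `D` has valency three. Either `D` is the union of two commuting sets `D_x`, `D_y`, or some `W_d ≠ {d}`, or
`⟨D⟩ ≅ S₅`.
-/

set_option autoImplicit false

namespace Cfsg.Agent.H807.LocSThree

open Cfsg Cfsg.Agent.SporadicB.ThreeTrans Cfsg.Agent.ThreeTrans375.Basic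

variable {G : Type*} [Group G] {D : Set G}

theorem perm_three : ∀ x y : Equiv.Perm (Fin 3), x * x = 1 → x ≠ 1 → y * y = 1 → y ≠ 1 → x ≠ y →
    x * y ≠ y * x ∧ ∀ z, z * z = 1 → z ≠ 1 → z = x ∨ z = y ∨ z = x * y * x := by decide

theorem perm_three_center : ∀ x : Equiv.Perm (Fin 3), (∀ y, x * y = y * x) → x = 1 := by decide

/-- the local structure: `D_d` consists of three mutually noncommuting members -/
structure Ctx (D : Set G) : Prop where
  hE : IsThreeTranspositionSet D
  hC : ConjClosed D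
  two : ∀ d ∈ D, ∃ a ∈ Dc D d, ∃ b ∈ Dc D d, a ≠ b
  nc : ∀ d ∈ D, ∀ a ∈ Dc D d, ∀ b ∈ Dc D d, a ≠ b → ¬ Commute a b
  line : ∀ d ∈ D, ∀ a ∈ Dc D d, ∀ b ∈ Dc D d, a ≠ b → ∀ z ∈ Dc D d, z = a ∨ z = b ∨ z = a * b * a

theorem ctx_of (hE : IsThreeTranspositionSet D) (hC : ConjClosed D)
    (hS : ∀ d ∈ D, Nonempty (↥(Subgroup.closure (Dc D d)) ≃* Equiv.Perm (Fin 3))) : Ctx D := by
  have key : ∀ d ∈ D, ∃ e : ↥(Subgroup.closure (Dc D d)) ≃* Equiv.Perm (Fin 3), ∀ (a : G) (ha : a ∈ Dc D d),
      e ⟨a, Subgroup.subset_closure ha⟩ * e ⟨a, Subgroup.subset_closure ha⟩ = 1 ∧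
      e ⟨a, Subgroup.subset_closure ha⟩ ≠ 1 := by
    intro d hd
    obtain ⟨e⟩ := hS d hd
    refine ⟨e, fun a ha => ⟨?_, ?_⟩⟩
    · rw [← map_mul]
      have : (⟨a, Subgroup.subset_closure ha⟩ : ↥(Subgroup.closure (Dc D d))) *
          ⟨a, Subgroup.subset_closure ha⟩ = 1 := Subtype.ext (mul_self hE ha.1)
      rw [this, map_one]
    · intro h
      rw [map_eq_one_iff e e.injective] at h
      have h1 : a = 1 := congrArg Subtype.val h
      have h2 := hE.1 a ha.1
      rw [h1, orderOf_one] at h2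
      exact absurd h2 (by norm_num)
  have key2 : ∀ d ∈ D, ∀ a ∈ Dc D d, ∀ b ∈ Dc D d, a ≠ b → ¬ Commute a b ∧
      ∀ z ∈ Dc D d, z = a ∨ z = b ∨ z = a * b * a := by
    intro d hd a ha b hb hab
    obtain ⟨e, he⟩ := key d hd
    have hne : e ⟨a, Subgroup.subset_closure ha⟩ ≠ e ⟨b, Subgroup.subset_closure hb⟩ := by
      intro h
      exact hab (congrArg Subtype.val (e.injective h))
    obtain ⟨h1, h2⟩ := perm_three _ _ (he a ha).1 (he a ha).2 (he b hb).1 (he b hb).2 hne
    refine ⟨?_, ?_⟩
    · intro h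
      apply h1
      rw [← map_mul, ← map_mul]
      congr 1
      exact Subtype.ext h
    · intro z hz
      rcases h2 _ (he z hz).1 (he z hz).2 with h | h | h
      · exact Or.inl (congrArg Subtype.val (e.injective h))
      · exact Or.inr (Or.inl (congrArg Subtype.val (e.injective h)))
      · right; right
        rw [← map_mul, ← map_mul] at h
        exact congrArg Subtype.val (e.injective h)
  refine ⟨hE, hC, ?_, fun d hd a ha b hb hab => (key2 d hd a ha b hb hab).1,
    fun d hd a ha b hb hab => (key2 d hd a ha b hb hab).2⟩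
  intro d hd
  by_contra hcon
  push Not at hcon
  obtain ⟨e, he⟩ := key d hd
  -- all elements of the closure commute
  have hcomm : ∀ u v : ↥(Subgroup.closure (Dc D d)), u * v = v * u := by
    intro u v
    apply Subtype.ext
    have hsub : ∀ x ∈ Dc D d, ∀ y ∈ Dc D d, Commute x y := by
      intro x hx y hy
      rw [hcon x hx y hy]
    have h1 : ∀ x ∈ Subgroup.closure (Dc D d), ∀ y ∈ Subgroup.closure (Dc D d), x * y = y * x := by
      intro x hx y hy
      have h2 : Subgroup.closure (Dc D d) ≤ Subgroup.centralizer (Dc D d) := by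
        rw [Subgroup.closure_le]
        intro p hp
        rw [SetLike.mem_coe, Subgroup.mem_centralizer_iff]
        intro q hq
        exact hsub q hq p hp
      have h3 : Subgroup.closure (Dc D d) ≤ Subgroup.centralizer (Subgroup.closure (Dc D d) : Set G) := by
        rw [Subgroup.closure_le]
        intro p hp
        rw [SetLike.mem_coe, Subgroup.mem_centralizer_iff]
        intro q hq
        exact ((Subgroup.mem_centralizer_iff.1 (h2 hq)) p hp).symm
      exact ((Subgroup.mem_centralizer_iff.1 (h3 hx)) y hy).symm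
    exact h1 u u.2 v v.2
  have h5 : ∀ x y : Equiv.Perm (Fin 3), x * y = y * x := by
    intro x y
    apply e.symm.injective
    rw [map_mul, map_mul, hcomm]
  exact absurd (h5 (Equiv.swap 0 1) (Equiv.swap 1 2)) (by decide)

theorem mem_symm {a d : G} (hd : d ∈ D) (ha : a ∈ Dc D d) : d ∈ Dc D a :=
  ⟨hd, fun h => ha.2.1 h.symm, ha.2.2.symm⟩

namespace Ctx

variable (h : Ctx D)
include h

theorem mm {a : G} (ha : a ∈ D) : a * a = 1 := mul_self h.hE ha

theorem third {d a b : G} (hd : d ∈ D) (ha : a ∈ Dc D d) (hb : b ∈ Dc D d) (hab : a ≠ b) :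
    a * b * a ∈ Dc D d := by
  have hnc := h.nc d hd a ha b hb hab
  refine ⟨third_mem h.hE h.hC ha.1 hb.1, ?_, commute_third ha.2.2 hb.2.2⟩
  intro h1
  apply not_commute_third h.hE ha.1 hnc
  rw [h1]
  exact ha.2.2.symm

theorem ext {d e a b : G} (hd : d ∈ D) (he : e ∈ D) (ha : a ∈ Dc D d) (hb : b ∈ Dc D d)
    (hab : a ≠ b) (ha' : a ∈ Dc D e) (hb' : b ∈ Dc D e) : Dc D d = Dc D e := by
  ext z
  constructor
  · intro hz
    rcases h.line d hd a ha b hb hab z hz with h1 | h1 | h1
    · rw [h1]; exact ha'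
    · rw [h1]; exact hb'
    · rw [h1]; exact h.third he ha' hb' hab
  · intro hz
    rcases h.line e he a ha' b hb' hab z hz with h1 | h1 | h1
    · rw [h1]; exact ha
    · rw [h1]; exact hb
    · rw [h1]; exact h.third hd ha hb hab

end Ctx

/-- conjugate under `⟨D⟩` -/
def R (D : Set G) (u v : G) : Prop := ∃ g ∈ Subgroup.closure D, g * u * g⁻¹ = v

theorem R.refl (u : G) : R D u u := ⟨1, Subgroup.one_mem _, by simp⟩

theorem R.symm {u v : G} (h : R D u v) : R D v u := by
  obtain ⟨g, hg, rfl⟩ := h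
  exact ⟨g⁻¹, Subgroup.inv_mem _ hg, by group⟩

theorem R.trans {u v w : G} (h : R D u v) (h' : R D v w) : R D u w := by
  obtain ⟨g, hg, rfl⟩ := h
  obtain ⟨k, hk, rfl⟩ := h'
  exact ⟨k * g, Subgroup.mul_mem _ hk hg, by group⟩

theorem R.of_not_commute (hE : IsThreeTranspositionSet D) {u v : G} (hu : u ∈ D) (hv : v ∈ D)
    (h : ¬ Commute u v) : R D u v :=
  ⟨u * v, Subgroup.mul_mem _ (Subgroup.subset_closure hu) (Subgroup.subset_closure hv),
    conj_of_not_commute hE hu hv h⟩

/-- a set closed under conjugation by the members of `D` is closed under `R` -/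
theorem R.mem_of_closed (hE : IsThreeTranspositionSet D) {S : Set G}
    (hS : ∀ x ∈ S, ∀ d ∈ D, d * x * d ∈ S) {x y : G} (hx : x ∈ S) (h : R D x y) : y ∈ S := by
  obtain ⟨g, hg, rfl⟩ := h
  have key : ∀ g ∈ Subgroup.closure D, ∀ x ∈ S, g * x * g⁻¹ ∈ S := by
    intro g hg
    induction hg using Subgroup.closure_induction'' with
    | mem d hd =>
      intro x hx
      have := hS x hx d hd
      rwa [inv_eq hE hd]
    | inv_mem d hd =>
      intro x hx
      have := hS x hx d hd
      rw [inv_eq hE hd, inv_eq hE hd]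
      exact this
    | one => intro x hx; simpa using hx
    | mul g h _ _ ihg ihh =>
      intro x hx
      have := ihg _ (ihh x hx)
      have e : g * (h * x * h⁻¹) * g⁻¹ = g * h * x * (g * h)⁻¹ := by group
      rwa [e] at this
  exact key g hg x hx

/-! ### The case of two classes -/

theorem sup_equiv_prod {A B : Subgroup G} (hcomm : ∀ a ∈ A, ∀ b ∈ B, Commute a b)
    (hZ : ∀ a ∈ A, (∀ b ∈ A, a * b = b * a) → a = 1) : Nonempty (↥(A ⊔ B) ≃* A × B) := by
  let f : A × B →* G := MonoidHom.noncommCoprod A.subtype B.subtype (fun a b => hcomm a a.2 b b.2)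
  have hinj : Function.Injective f := by
    rw [injective_iff_map_eq_one]
    rintro ⟨a, b⟩ hab
    have h1 : (a : G) * (b : G) = 1 := hab
    have h2 : (a : G) = (b : G)⁻¹ := eq_inv_of_mul_eq_one_left h1
    have h3 : (a : G) = 1 := by
      apply hZ a a.2
      intro c hc
      have h4 : (a : G) ∈ B := by rw [h2]; exact B.inv_mem b.2
      exact (hcomm c hc a h4).symm
    have h5 : (b : G) = 1 := by rw [h3, one_mul] at h1; exact h1
    exact Prod.ext (Subtype.ext h3) (Subtype.ext h5)
  have hrange : f.range = A ⊔ B := by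
    have h0 := MonoidHom.noncommCoprod_range A.subtype B.subtype (fun a b => hcomm a a.2 b b.2)
    rw [Subgroup.range_subtype, Subgroup.range_subtype] at h0
    exact h0
  exact ⟨((MonoidHom.ofInjective hinj).trans (MulEquiv.subgroupCongr hrange)).symm⟩

theorem two_classes (h : Ctx D)
    (hS : ∀ d ∈ D, Nonempty (↥(Subgroup.closure (Dc D d)) ≃* Equiv.Perm (Fin 3)))
    {x y : G} (hx : x ∈ D) (hy : y ∈ D) (hR : ¬ R D x y) :
    Nonempty (↥(Subgroup.closure D) ≃* Equiv.Perm (Fin 3) × Equiv.Perm (Fin 3)) := by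
  have hE := h.hE
  -- members of different classes commute
  have hcom : ∀ u ∈ D, ∀ v ∈ D, ¬ R D u v → Commute u v := by
    intro u hu v hv huv
    by_contra hc
    exact huv (R.of_not_commute hE hu hv hc)
  have hne : ∀ u v : G, ¬ R D u v → v ≠ u := by
    rintro u v huv rfl
    exact huv (R.refl _)
  -- members of `D_x` are conjugate
  have hloc : ∀ u ∈ D, ∀ v ∈ D, ¬ R D u v → ∀ z ∈ Dc D u, R D v z := by
    intro u hu v hv huv z hz
    by_cases hvz : v = z
    · rw [← hvz]; exact R.refl _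
    · have hvu : v ∈ Dc D u := ⟨hv, hne u v huv, hcom u hu v hv huv⟩
      exact R.of_not_commute hE hv hz.1 (h.nc u hu v hvu z hz hvz)
  have hRy : ¬ R D y x := fun h' => hR h'.symm
  have hD : D ⊆ Dc D x ∪ Dc D y := by
    intro z hz
    by_cases h1 : R D x z
    · right
      have h2 : ¬ R D y z := fun h' => hR (h1.trans h'.symm)
      exact ⟨hz, hne _ _ h2, hcom y hy z hz h2⟩
    · left
      exact ⟨hz, hne _ _ h1, hcom x hx z hz h1⟩
  have hcl : Subgroup.closure D = Subgroup.closure (Dc D x) ⊔ Subgroup.closure (Dc D y) := by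
    apply le_antisymm
    · rw [← Subgroup.closure_union]
      exact Subgroup.closure_mono hD
    · exact sup_le (Subgroup.closure_mono (fun z hz => hz.1)) (Subgroup.closure_mono (fun z hz => hz.1))
  have hcc : ∀ u ∈ Dc D x, ∀ v ∈ Dc D y, Commute u v := by
    intro u hu v hv
    apply hcom u hu.1 v hv.1
    intro h1
    have h2 := hloc x hx y hy hR u hu
    have h3 := hloc y hy x hx hRy v hv
    exact hR (h3.trans (h1.symm.trans h2.symm))
  have hcomm : ∀ a ∈ Subgroup.closure (Dc D x), ∀ b ∈ Subgroup.closure (Dc D y), Commute a b := by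
    have h1 : Subgroup.closure (Dc D y) ≤ Subgroup.centralizer (Dc D x) := by
      rw [Subgroup.closure_le]
      intro v hv
      rw [SetLike.mem_coe, Subgroup.mem_centralizer_iff]
      intro u hu
      exact hcc u hu v hv
    have h2 : Subgroup.closure (Dc D x) ≤ Subgroup.centralizer (Subgroup.closure (Dc D y) : Set G) := by
      rw [Subgroup.closure_le]
      intro u hu
      rw [SetLike.mem_coe, Subgroup.mem_centralizer_iff]
      intro v hv
      exact ((Subgroup.mem_centralizer_iff.1 (h1 hv)) u hu).symm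
    intro a ha b hb
    exact ((Subgroup.mem_centralizer_iff.1 (h2 ha)) b hb).symm
  obtain ⟨e1⟩ := hS x hx
  obtain ⟨e2⟩ := hS y hy
  have hZ : ∀ a ∈ Subgroup.closure (Dc D x), (∀ b ∈ Subgroup.closure (Dc D x), a * b = b * a) →
      a = 1 := by
    intro a ha hab
    have h1 : e1 ⟨a, ha⟩ = 1 := by
      apply perm_three_center
      intro z
      have h2 := hab (e1.symm z) (e1.symm z).2
      have h3 : (⟨a, ha⟩ : ↥(Subgroup.closure (Dc D x))) * e1.symm z = e1.symm z * ⟨a, ha⟩ :=
        Subtype.ext h2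
      have h4 := congrArg e1 h3
      rwa [map_mul, map_mul, e1.apply_symm_apply] at h4
    rw [map_eq_one_iff e1 e1.injective] at h1
    exact congrArg Subtype.val h1
  obtain ⟨e3⟩ := sup_equiv_prod hcomm hZ
  exact ⟨((MulEquiv.subgroupCongr hcl).trans e3).trans (MulEquiv.prodCongr e1 e2)⟩

/-! ### The case `W_d ≠ {d}` -/

theorem conj_iter {V : Subgroup G} (hV : V.Normal) {p q : G} (hpq : ∀ v ∈ V, p * v * p⁻¹ = q * v⁻¹ * q⁻¹)
    (hp : p ^ 3 = 1) (hq : q ^ 3 = 1) {v : G} (hv : v ∈ V) : v = v⁻¹ := by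
  have h1 : q * v⁻¹ * q⁻¹ ∈ V := hV.conj_mem _ (V.inv_mem hv) q
  have h2 : q * (q * v * q⁻¹) * q⁻¹ ∈ V := hV.conj_mem _ (hV.conj_mem _ hv q) q
  have e1 := hpq v hv
  have e2 := hpq _ h1
  have e3 := hpq _ h2
  have e0 : (q * v⁻¹ * q⁻¹)⁻¹ = q * v * q⁻¹ := by group
  have e4 : p ^ 3 * v * (p ^ 3)⁻¹ = q ^ 3 * v⁻¹ * (q ^ 3)⁻¹ := by
    calc p ^ 3 * v * (p ^ 3)⁻¹ = p * (p * (p * v * p⁻¹) * p⁻¹) * p⁻¹ := by
          simp only [pow_succ, pow_zero, one_mul, mul_inv_rev, mul_assoc]
      _ = p * (p * (q * v⁻¹ * q⁻¹) * p⁻¹) * p⁻¹ := by rw [e1]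
      _ = p * (q * (q * v⁻¹ * q⁻¹)⁻¹ * q⁻¹) * p⁻¹ := by rw [e2]
      _ = p * (q * (q * v * q⁻¹) * q⁻¹) * p⁻¹ := by rw [e0]
      _ = q * (q * (q * v * q⁻¹) * q⁻¹)⁻¹ * q⁻¹ := by rw [e3]
      _ = q ^ 3 * v⁻¹ * (q ^ 3)⁻¹ := by
          simp only [pow_succ, pow_zero, one_mul, mul_inv_rev, inv_inv, mul_assoc]
  rw [hp, hq] at e4
  simpa using e4

theorem no_W [Finite G] (h : Ctx D)
    (hP : ∀ d ∈ D, Nat.card (Cfsg.pCore 3 ↥(Subgroup.centralizer ({d} : Set G))) = 3)
    (hR : ∀ x ∈ D, ∀ y ∈ D, R D x y) {d w : G} (hd : d ∈ D) (hw : w ∈ D) (hdw : d ≠ w)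
    (hW : Dc D d = Dc D w) : False := by
  have hE := h.hE
  have hC := h.hC
  have : Fact (Nat.Prime 3) := ⟨Nat.prime_three⟩
  obtain ⟨a, ha, b, hb, hab⟩ := h.two d hd
  have haw : a ∈ Dc D w := by rw [← hW]; exact ha
  have hbw : b ∈ Dc D w := by rw [← hW]; exact hb
  have hda : d ∈ Dc D a := mem_symm hd ha
  have hwa : w ∈ Dc D a := mem_symm hw haw
  have hdb : d ∈ Dc D b := mem_symm hd hb
  have hwb : w ∈ Dc D b := mem_symm hw hbw
  have hWab : Dc D a = Dc D b := h.ext ha.1 hb.1 hda hwa hdw hdb hwb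
  have hncdw : ¬ Commute d w := h.nc a ha.1 d hda w hwa hdw
  have hncab : ¬ Commute a b := h.nc d hd a ha b hb hab
  -- a member outside
  obtain ⟨e, he, hea, hed⟩ : ∃ e ∈ D, e ∉ Dc D a ∧ e ∉ Dc D d := by
    by_contra hcon
    push Not at hcon
    have hS : ∀ x ∈ Dc D a, ∀ f ∈ D, f * x * f ∈ Dc D a := by
      intro x hx f hf
      by_cases hfa : f ∈ Dc D a
      · by_cases hfx : f = x
        · subst hfx
          rw [h.mm hf, one_mul]; exact hfa
        · exact h.third ha.1 hfa hx hfx
      · have hfd := hcon f hf hfa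
        have hfw : f ∈ Dc D w := by rw [← hW]; exact hfd
        have hfx : Commute f x := by
          rcases h.line a ha.1 d hda w hwa hdw x hx with h1 | h1 | h1
          · rw [h1]; exact hfd.2.2.symm
          · rw [h1]; exact hfw.2.2.symm
          · rw [h1]; exact commute_third hfd.2.2.symm hfw.2.2.symm
        rw [hfx.eq, mul_assoc, h.mm hf, mul_one]; exact hx
    have h1 : a ∈ Dc D a := R.mem_of_closed hE hS hda (hR d hd a ha.1)
    exact h1.2.1 rfl
  have hnde : ¬ Commute d e := by
    intro h1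
    by_cases h2 : e = d
    · exact hea (h2 ▸ hda)
    · exact hed ⟨he, h2, h1⟩
  have hnae : ¬ Commute a e := by
    intro h1
    by_cases h2 : e = a
    · exact hed (h2 ▸ ha)
    · exact hea ⟨he, h2, h1⟩
  -- the normal 3-subgroup
  set V := pCore 3 G with hVdef
  have hV : V.Normal := Lib.Cores.pCore_normal 3
  have hVp : IsPGroup 3 V := Lib.Cores.pCore_isPGroup 3
  set x := d * w with hx
  set y := a * b with hy
  have hxV : x ∈ V := H805.VW.mul_mem_three hE hC hd hw hW
  have hyV : y ∈ V := H805.VW.mul_mem_three hE hC ha.1 hb.1 hWab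
  have hdd := h.mm hd
  have haa := h.mm ha.1
  have hww := h.mm hw
  have hbb := h.mm hb.1
  have hdi := inv_eq hE hd
  have hai := inv_eq hE ha.1
  have hwi := inv_eq hE hw
  have hbi := inv_eq hE hb.1
  have hx3 : x ^ 3 = 1 := by
    rcases hE.2 d hd w hw with h1 | h1
    · exact absurd (H805.Width.commute_of_sq hE hd hw h1) hncdw
    · exact h1
  have hy3 : y ^ 3 = 1 := by
    rcases hE.2 a ha.1 b hb.1 with h1 | h1
    · exact absurd (H805.Width.commute_of_sq hE ha.1 hb.1 h1) hncab
    · exact h1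
  have hx1 : x ≠ 1 := by
    intro h1
    exact hdw (H805.Base.eq_of_mul_eq_one hE hd h1).symm
  have hy1 : y ≠ 1 := by
    intro h1
    exact hab (H805.Base.eq_of_mul_eq_one hE ha.1 h1).symm
  -- actions
  have hdx : d * x * d⁻¹ = x⁻¹ := by
    rw [hx, mul_inv_rev, hdi, hwi, ← mul_assoc, hdd, one_mul]
  have hay : a * y * a⁻¹ = y⁻¹ := by
    rw [hy, mul_inv_rev, hai, hbi, ← mul_assoc, haa, one_mul]
  have hcdy : Commute d y := ha.2.2.mul_right hb.2.2
  have hcwy : Commute w y := haw.2.2.mul_right hbw.2.2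
  have hcax : Commute a x := hda.2.2.mul_right hwa.2.2
  have hcxy : Commute x y := hcdy.mul_left hcwy
  -- the centralizer of `d` in `V`
  have hcent : ∀ v ∈ V, Commute d v → v ∈ Subgroup.zpowers y := by
    intro v hv hdv
    set C := Subgroup.centralizer ({d} : Set G) with hCdef
    have hmemC : ∀ g : G, g ∈ C ↔ Commute d g := by
      intro g
      rw [hCdef, Subgroup.mem_centralizer_iff]
      constructor
      · intro h1; exact h1 d rfl
      · rintro h1 _ rfl; exact h1
    have hle : (V ⊓ C).subgroupOf C ≤ pCore 3 ↥C := by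
      apply Lib.Cores.le_pCore
      · rw [Subgroup.inf_subgroupOf_right]
        exact hV.subgroupOf C
      · have h1 : IsPGroup 3 ↥(V ⊓ C) := hVp.to_le inf_le_left
        exact h1.of_equiv (Subgroup.subgroupOfEquivOfLe (inf_le_right : V ⊓ C ≤ C)).symm
    have hcard : Nat.card ↥(V ⊓ C) ≤ 3 := by
      have h1 : Nat.card ↥((V ⊓ C).subgroupOf C) = Nat.card ↥(V ⊓ C) :=
        Nat.card_congr (Subgroup.subgroupOfEquivOfLe inf_le_right).toEquiv
      rw [← h1, ← hP d hd]
      exact Nat.card_le_card_of_injective _ (Subgroup.inclusion_injective hle)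
    have hyU : Subgroup.zpowers y ≤ V ⊓ C := by
      rw [Subgroup.zpowers_le]
      exact ⟨hyV, (hmemC y).2 hcdy⟩
    have heq : Subgroup.zpowers y = V ⊓ C := by
      apply Subgroup.eq_of_le_of_card_ge hyU
      rw [Nat.card_zpowers, orderOf_eq_prime hy3 hy1]
      exact hcard
    rw [heq]
    exact ⟨hv, (hmemC v).2 hdv⟩
  -- the key property
  have hkey0 : ∀ v : G, (∃ k : ℕ, (x ^ k)⁻¹ * v ∈ Subgroup.zpowers y) →
      a * v * a⁻¹ = d * v⁻¹ * d⁻¹ := by
    rintro v ⟨k, hk⟩
    obtain ⟨j, hj⟩ := Subgroup.mem_zpowers_iff.1 hk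
    have hv : v = x ^ k * y ^ j := by rw [hj]; group
    have e1 : a * x ^ k * a⁻¹ = x ^ k := conj_eq_self_iff.2 (hcax.pow_right k)
    have e2 : a * y ^ j * a⁻¹ = (y ^ j)⁻¹ := by rw [← conj_zpow, hay, inv_zpow]
    have e3 : d * x ^ k * d⁻¹ = (x ^ k)⁻¹ := by rw [← conj_pow, hdx, inv_pow]
    have e4 : d * y ^ j * d⁻¹ = y ^ j := conj_eq_self_iff.2 (hcdy.zpow_right j)
    have e5 : a * v * a⁻¹ = x ^ k * (y ^ j)⁻¹ := by
      rw [hv]
      calc a * (x ^ k * y ^ j) * a⁻¹ = (a * x ^ k * a⁻¹) * (a * y ^ j * a⁻¹) := by group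
        _ = _ := by rw [e1, e2]
    have e6 : d * v⁻¹ * d⁻¹ = (y ^ j)⁻¹ * x ^ k := by
      rw [hv]
      calc d * (x ^ k * y ^ j)⁻¹ * d⁻¹ = (d * y ^ j * d⁻¹)⁻¹ * (d * x ^ k * d⁻¹)⁻¹ := by group
        _ = _ := by rw [e3, e4, inv_inv]
    rw [e5, e6]
    exact ((hcxy.pow_left k).zpow_right j).inv_right.eq
  have hkey : ∀ v ∈ V, a * v * a⁻¹ = d * v⁻¹ * d⁻¹ := by
    intro v hv
    apply hkey0
    set f := v * d * v⁻¹ with hf
    have hfD : f ∈ D := hC v d hd
    have hdf : d * f ∈ V := H805.Base.mul_conj_mem hE hV hd hv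
    have hcaf : Commute a f :=
      H805.Base.commute_three hE hV hVp hd hfD ha.1 hdf ha.2.1 hda.2.2
    have hfa : f ≠ a := by
      intro h1
      rw [h1] at hdf
      exact ha.2.1 (H805.Base.eq_of_three hE hVp hd ha.1 hdf ha.2.2)
    have hfa' : f ∈ Dc D a := ⟨hfD, hfa, hcaf⟩
    have hxdx : x * d * x⁻¹ = w := conj_of_not_commute hE hd hw hncdw
    rcases h.line a ha.1 d hda w hwa hdw f hfa' with h1 | h1 | h1
    · refine ⟨0, ?_⟩
      apply hcent
      · simpa using hv
      · simp only [pow_zero, inv_one, one_mul]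
        exact (conj_eq_self_iff.1 h1).symm
    · refine ⟨1, ?_⟩
      apply hcent
      · exact V.mul_mem (V.inv_mem (V.pow_mem hxV 1)) hv
      · apply Commute.symm
        apply conj_eq_self_iff.1
        calc (x ^ 1)⁻¹ * v * d * ((x ^ 1)⁻¹ * v)⁻¹ = x⁻¹ * (v * d * v⁻¹) * x := by group
          _ = x⁻¹ * w * x := by rw [← hf, h1]
          _ = x⁻¹ * (x * d * x⁻¹) * x := by rw [hxdx]
          _ = d := by group
    · refine ⟨2, ?_⟩
      apply hcent
      · exact V.mul_mem (V.inv_mem (V.pow_mem hxV 2)) hv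
      · apply Commute.symm
        apply conj_eq_self_iff.1
        have e1 : x ^ 2 * d * (x ^ 2)⁻¹ = d * w * d := by
          calc x ^ 2 * d * (x ^ 2)⁻¹ = x * (x * d * x⁻¹) * x⁻¹ := by
                simp only [pow_two, mul_inv_rev, mul_assoc]
            _ = x * w * x⁻¹ := by rw [hxdx]
            _ = d * w * w * (w * d) := by rw [hx, mul_inv_rev, hdi, hwi]
            _ = d * (w * w) * w * d := by simp only [mul_assoc]
            _ = d * w * d := by rw [hww, mul_one]
        calc (x ^ 2)⁻¹ * v * d * ((x ^ 2)⁻¹ * v)⁻¹ = (x ^ 2)⁻¹ * (v * d * v⁻¹) * x ^ 2 := by group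
          _ = (x ^ 2)⁻¹ * (d * w * d) * x ^ 2 := by rw [← hf, h1]
          _ = (x ^ 2)⁻¹ * (x ^ 2 * d * (x ^ 2)⁻¹) * x ^ 2 := by rw [e1]
          _ = d := by group
  -- conclusion
  have hfin : x = x⁻¹ := by
    apply conj_iter hV (p := a * e) (q := d * e) _ _ _ hxV
    · intro v hv
      have h1 := hV.conj_mem v hv e
      have h2 := hkey _ h1
      calc a * e * v * (a * e)⁻¹ = a * (e * v * e⁻¹) * a⁻¹ := by group
        _ = d * (e * v * e⁻¹)⁻¹ * d⁻¹ := h2
        _ = d * e * v⁻¹ * (d * e)⁻¹ := by group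
    · rcases hE.2 a ha.1 e he with h1 | h1
      · exact absurd (H805.Width.commute_of_sq hE ha.1 he h1) hnae
      · exact h1
    · rcases hE.2 d hd e he with h1 | h1
      · exact absurd (H805.Width.commute_of_sq hE hd he h1) hnde
      · exact h1
  apply hx1
  have h2 : x * x = 1 := by
    nth_rewrite 2 [hfin]
    exact mul_inv_cancel x
  rw [pow_succ, pow_two, h2, one_mul] at hx3
  exact hx3

/-! ### The case of `S₅` -/

theorem common [Finite G] (h : Ctx D) (hW : ∀ d ∈ D, ∀ w ∈ D, Dc D d = Dc D w → d = w) {d e : G}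
    (hd : d ∈ D) (he : e ∈ D) (hde : ¬ Commute d e) : ∃ a ∈ Dc D d, Commute a e := by
  by_contra hcon
  push Not at hcon
  have hE := h.hE
  have hC := h.hC
  obtain ⟨a, ha, b, hb, hab⟩ := h.two d hd
  have hnab := h.nc d hd a ha b hb hab
  set c := a * b * a with hc
  have hcD : c ∈ Dc D d := h.third hd ha hb hab
  have hcb : c = b * a * b := braid hE ha.1 hb.1 hnab
  have hae := hcon a ha
  have hbe := hcon b hb
  have hce := hcon c hcD
  have haa := h.mm ha.1
  have hbb := h.mm hb.1
  have hee := h.mm he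
  have hdd := h.mm hd
  have hcc := h.mm hcD.1
  -- `e₁ = a b e b a`
  set e₁ := a * (b * e * b) * a with he1
  have hebD : b * e * b ∈ D := third_mem hE hC hb.1 he
  have he1D : e₁ ∈ D := third_mem hE hC ha.1 hebD
  have hecD : c * e * c ∈ D := third_mem hE hC hcD.1 he
  -- `a` does not commute with `b e b`
  have hn1 : ¬ Commute a (b * e * b) := by
    intro h1
    apply hce
    have h2 := (commute_conj_iff b).2 h1
    rw [inv_eq hE hb.1] at h2
    have e2 : b * (b * e * b) * b = e := by
      calc b * (b * e * b) * b = (b * b) * e * (b * b) := by simp only [mul_assoc]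
        _ = e := by rw [hbb, one_mul, mul_one]
    rw [e2, ← hcb] at h2
    exact h2
  -- `b` does not commute with `c e c`
  have hn2 : ¬ Commute b (c * e * c) := by
    intro h1
    apply hae
    have h2 := (commute_conj_iff c).2 h1
    rw [inv_eq hE hcD.1] at h2
    have e2 : c * (c * e * c) * c = e := by
      calc c * (c * e * c) * c = (c * c) * e * (c * c) := by simp only [mul_assoc]
        _ = e := by rw [hcc, one_mul, mul_one]
    have e3 : c * b * c = a := by
      calc c * b * c = (a * b * a) * b * (a * b * a) := by rw [hc]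
        _ = a * b * (a * b * a) * b * a := by simp only [mul_assoc]
        _ = a * b * (b * a * b) * b * a := by rw [← hc, hcb]
        _ = a * (b * b) * a * (b * b) * a := by simp only [mul_assoc]
        _ = a := by rw [hbb, mul_one, mul_one, haa, one_mul]
    rw [e2, e3] at h2
    exact h2
  -- `e₁ = b (c e c) b`
  have he1' : e₁ = b * (c * e * c) * b := by
    have e1 : b * c = a * b := by
      rw [hcb]
      calc b * (b * a * b) = (b * b) * (a * b) := by simp only [mul_assoc]
        _ = a * b := by rw [hbb, one_mul]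
    have e2 : c * b = b * a := by
      rw [hcb]
      calc b * a * b * b = b * a * (b * b) := by simp only [mul_assoc]
        _ = b * a := by rw [hbb, mul_one]
    calc e₁ = (a * b) * e * (b * a) := by rw [he1]; simp only [mul_assoc]
      _ = (b * c) * e * (c * b) := by rw [e1, e2]
      _ = b * (c * e * c) * b := by simp only [mul_assoc]
  -- `e₁ a e₁ = b e b`
  have k1 : e₁ * a * e₁ = b * e * b := by
    have hb1 := braid hE ha.1 hebD hn1
    have : e₁ = (b * e * b) * a * (b * e * b) := by rw [he1]; exact hb1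
    calc e₁ * a * e₁ = a * (b * e * b) * a * a * (a * (b * e * b) * a) := by rw [he1]
      _ = a * (b * e * b) * (a * a) * (a * (b * e * b) * a) := by simp only [mul_assoc]
      _ = a * (b * e * b) * (a * (b * e * b) * a) := by rw [haa, mul_one]
      _ = a * (b * e * b) * ((b * e * b) * a * (b * e * b)) := by rw [← hb1]
      _ = a * ((b * e * b) * (b * e * b)) * a * (b * e * b) := by simp only [mul_assoc]
      _ = b * e * b := by rw [h.mm hebD, mul_one, haa, one_mul]
  -- `e₁ b e₁ = c e c`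
  have k2 : e₁ * b * e₁ = c * e * c := by
    have hb1 := braid hE hb.1 hecD hn2
    calc e₁ * b * e₁ = b * (c * e * c) * b * b * (b * (c * e * c) * b) := by rw [he1']
      _ = b * (c * e * c) * (b * b) * (b * (c * e * c) * b) := by simp only [mul_assoc]
      _ = b * (c * e * c) * (b * (c * e * c) * b) := by rw [hbb, mul_one]
      _ = b * (c * e * c) * ((c * e * c) * b * (c * e * c)) := by rw [← hb1]
      _ = b * ((c * e * c) * (c * e * c)) * b * (c * e * c) := by simp only [mul_assoc]
      _ = c * e * c := by rw [h.mm hecD, mul_one, hbb, one_mul]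
  set t := e * e₁ with ht
  have hti : t⁻¹ = e₁ * e := by rw [ht, mul_inv_rev, inv_eq hE he, inv_eq hE he1D]
  have m1 : t * a * t⁻¹ = b := by
    rw [hti, ht]
    calc e * e₁ * a * (e₁ * e) = e * (e₁ * a * e₁) * e := by simp only [mul_assoc]
      _ = e * (b * e * b) * e := by rw [k1]
      _ = e * (e * b * e) * e := by rw [braid hE hb.1 he hbe]
      _ = (e * e) * b * (e * e) := by simp only [mul_assoc]
      _ = b := by rw [hee, one_mul, mul_one]
  have m2 : t * b * t⁻¹ = c := by
    rw [hti, ht]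
    calc e * e₁ * b * (e₁ * e) = e * (e₁ * b * e₁) * e := by simp only [mul_assoc]
      _ = e * (c * e * c) * e := by rw [k2]
      _ = e * (e * c * e) * e := by rw [braid hE hcD.1 he hce]
      _ = (e * e) * c * (e * e) := by simp only [mul_assoc]
      _ = c := by rw [hee, one_mul, mul_one]
  -- `t` centralises `d`
  have hbc : b ≠ c := by
    intro h1
    apply not_commute_third' hE ha.1 hb.1 hnab
    rw [← hc, ← h1]
  have m3 : t * d * t⁻¹ = d := by
    symm
    apply hW d hd _ (hC t d hd)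
    rw [H805.VW.Dc_conj hC]
    rw [← H805.VW.Dc_conj hC]
    apply h.ext hd (hC t d hd) hb hcD hbc
    · rw [H805.VW.Dc_conj hC]
      exact ⟨a, ha, m1⟩
    · rw [H805.VW.Dc_conj hC]
      exact ⟨b, hb, m2⟩
  -- hence `e₁ d e₁ = e d e`
  have m4 : e₁ * d * e₁ = e * d * e := by
    rw [hti, ht] at m3
    calc e₁ * d * e₁ = (e * e) * (e₁ * d * e₁) * (e * e) := by rw [hee, one_mul, mul_one]
      _ = e * (e * e₁ * d * (e₁ * e)) * e := by simp only [mul_assoc]
      _ = e * d * e := by rw [m3]
  have hnde1 : ¬ Commute d e₁ := by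
    intro h1
    apply hde
    -- conjugate by `a` and `b`
    have h2 : e = b * (a * e₁ * a) * b := by
      rw [he1]
      calc e = (b * b) * e * (b * b) := by rw [hbb, one_mul, mul_one]
        _ = b * ((a * a) * (b * e * b) * (a * a)) * b := by
            rw [haa, one_mul, mul_one]; simp only [mul_assoc]
        _ = b * (a * (a * (b * e * b) * a) * a) * b := by simp only [mul_assoc]
    rw [h2]
    exact commute_third hb.2.2 (commute_third ha.2.2 h1)
  have m5 : e₁ = e := by
    have h1 : d * e₁ * d = d * e * d := by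
      rw [braid hE hd he1D hnde1, braid hE hd he hde]; exact m4
    exact mul_left_cancel (mul_right_cancel h1)
  -- contradiction
  apply hab
  rw [ht, m5, hee] at m1
  simpa using m1

theorem five [Finite G] (h : Ctx D) (hW : ∀ d ∈ D, ∀ w ∈ D, Dc D d = Dc D w → d = w)
    (hne : D.Nonempty) : Nonempty (↥(Subgroup.closure D) ≃* Equiv.Perm (Fin 5)) := by
  have hE := h.hE
  have hC := h.hC
  obtain ⟨d, hd⟩ := hne
  obtain ⟨a, ha, b, hb, hab⟩ := h.two d hd
  have hnab := h.nc d hd a ha b hb hab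
  have hda : d ∈ Dc D a := mem_symm hd ha
  obtain ⟨p, hp, hpd⟩ : ∃ p ∈ Dc D a, p ≠ d := by
    obtain ⟨u, hu, v, hv, huv⟩ := h.two a ha.1
    by_cases h1 : u = d
    · exact ⟨v, hv, fun h2 => huv (h1.trans h2.symm)⟩
    · exact ⟨u, hu, h1⟩
  have hnpd : ¬ Commute p d := h.nc a ha.1 p hp d hda hpd
  have hnbp : ¬ Commute b p := by
    intro h1
    apply hpd
    symm
    apply hW d hd p hp.1
    have hpb : p ≠ b := by
      intro h2
      exact hnab (h2 ▸ hp.2.2)
    exact h.ext hd hp.1 ha hb hab (mem_symm ha.1 hp) ⟨hb.1, fun h2 => hpb h2.symm, h1.symm⟩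
  have hcox : SporadicStructure.PermFive.Cox a b p d :=
    { xx := h.mm ha.1
      yy := h.mm hb.1
      bb := h.mm hp.1
      aa := h.mm hd
      bx := hp.2.2.eq.symm
      ax := ha.2.2.eq
      ay := hb.2.2.eq
      yxy := (braid hE ha.1 hb.1 hnab).symm
      byb := (braid hE hb.1 hp.1 hnbp).symm
      aba := (braid hE hp.1 hd hnpd).symm }
  obtain ⟨e⟩ := SymFive.permFive hcox hnab
  set K := Subgroup.closure {a, b, p, d} with hK
  have haK : a ∈ K := Subgroup.subset_closure (by simp)
  have hbK : b ∈ K := Subgroup.subset_closure (by simp)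
  have hpK : p ∈ K := Subgroup.subset_closure (by simp)
  have hdK : d ∈ K := Subgroup.subset_closure (by simp)
  have hDd : ∀ z ∈ Dc D d, z ∈ K := by
    intro z hz
    rcases h.line d hd a ha b hb hab z hz with h1 | h1 | h1
    · rw [h1]; exact haK
    · rw [h1]; exact hbK
    · rw [h1]; exact K.mul_mem (K.mul_mem haK hbK) haK
  have hDa : ∀ z ∈ Dc D a, z ∈ K := by
    intro z hz
    rcases h.line a ha.1 d hda p hp (fun h1 => hpd h1.symm) z hz with h1 | h1 | h1
    · rw [h1]; exact hdK
    · rw [h1]; exact hpK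
    · rw [h1]; exact K.mul_mem (K.mul_mem hdK hpK) hdK
  -- conjugates of `a` by elements of `K`
  have hDconj : ∀ g ∈ K, ∀ z ∈ Dc D (g * a * g⁻¹), z ∈ K := by
    intro g hg z hz
    rw [H805.VW.Dc_conj hC] at hz
    obtain ⟨u, hu, rfl⟩ := hz
    exact K.mul_mem (K.mul_mem hg (hDa u hu)) (K.inv_mem hg)
  have hDK : D ⊆ K := by
    intro z hz
    by_cases hzd : z = d
    · rw [hzd]; exact hdK
    by_cases hcz : Commute d z
    · exact hDd z ⟨hz, hzd, hcz⟩
    obtain ⟨u, hu, huz⟩ := common h hW hd hz hcz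
    have hzu : z ≠ u := by
      rintro rfl
      exact hcz hu.2.2
    have hz' : z ∈ Dc D u := ⟨hz, hzu, huz⟩
    rcases h.line d hd a ha b hb hab u hu with h1 | h1 | h1
    · rw [h1] at hz'; exact hDa z hz'
    · have e1 : (a * b) * a * (a * b)⁻¹ = b := conj_of_not_commute hE ha.1 hb.1 hnab
      rw [h1, ← e1] at hz'
      exact hDconj _ (K.mul_mem haK hbK) z hz'
    · have e1 : b * a * b⁻¹ = a * b * a := by
        rw [inv_eq hE hb.1, braid hE ha.1 hb.1 hnab]
      rw [h1, ← e1] at hz'
      exact hDconj _ hbK z hz'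
  have heq : Subgroup.closure D = K := by
    apply le_antisymm
    · rw [Subgroup.closure_le]; exact hDK
    · rw [hK, Subgroup.closure_le]
      rintro z (rfl | rfl | rfl | rfl)
      · exact Subgroup.subset_closure ha.1
      · exact Subgroup.subset_closure hb.1
      · exact Subgroup.subset_closure hp.1
      · exact Subgroup.subset_closure hd
  exact ⟨(MulEquiv.subgroupCongr heq).trans e⟩

/-- the theorem -/
theorem main [Finite G] (hE : IsThreeTranspositionSet D) (hC : ConjClosed D) (hne : D.Nonempty)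
    (hS : ∀ d ∈ D, Nonempty (↥(Subgroup.closure (Dc D d)) ≃* Equiv.Perm (Fin 3)))
    (hP : ∀ d ∈ D, Nat.card (Cfsg.pCore 3 ↥(Subgroup.centralizer ({d} : Set G))) = 3) :
    Nonempty (↥(Subgroup.closure D) ≃* Equiv.Perm (Fin 5)) ∨
      Nonempty (↥(Subgroup.closure D) ≃* Equiv.Perm (Fin 3) × Equiv.Perm (Fin 3)) := by
  have h := ctx_of hE hC hS
  by_cases hR : ∀ x ∈ D, ∀ y ∈ D, R D x y
  · left
    apply five h _ hne
    intro d hd w hw hdw
    by_contra hne'
    exact no_W h hP hR hd hw hne' hdw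
  · right
    push Not at hR
    obtain ⟨x, hx, y, hy, hxy⟩ := hR
    exact two_classes h hS hx hy hxy

end Cfsg.Agent.H807.LocSThree
end

-- part: S5365
section
set_option autoImplicit false
open Cfsg

namespace Cfsg.Agent.S5365

/-- Let D be a non-empty conjugation-invariant set of involutions of a finite group G satisfying the 3-transposition order conditions, and suppose that for every d in D the members of D other than d commuting with d generate a subgroup isomorphic to the symmetric group of degree 3, and the largest normal 3-subgroup of the centralizer of d has order 3. Then the subgroup generated by D is isomorphic to the symmetric group of degree 5 or to the direct product of two symmetric groups of degree 3. -/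
theorem result {G : Type*} [Group G] [Finite G] {D : Set G} (hD : Cfsg.IsThreeTranspositionSet D) (hconj : ∀ g : G, ∀ d ∈ D, g * d * g⁻¹ ∈ D) (hne : D.Nonempty) (hloc : ∀ d ∈ D, Nonempty (↥(Subgroup.closure {y : G | y ∈ D ∧ y ≠ d ∧ Commute d y}) ≃* Equiv.Perm (Fin 3)) ∧ Nat.card (Cfsg.pCore 3 ↥(Subgroup.centralizer ({d} : Set G))) = 3) : Nonempty (↥(Subgroup.closure D) ≃* Equiv.Perm (Fin 5)) ∨ Nonempty (↥(Subgroup.closure D) ≃* Equiv.Perm (Fin 3) × Equiv.Perm (Fin 3)) :=
  H807.LocSThree.main hD hconj hne (fun d hd => (hloc d hd).1) (fun d hd => (hloc d hd).2)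

end Cfsg.Agent.S5365
end
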