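import Cfsg.Statements.S5367
import Cfsg.Agent.SporadicB.ThreeTrans
set_option linter.all false

set_option autoImplicit false
open Cfsg

namespace Cfsg.Agent.S5367

open Cfsg.LineSystem
open Cfsg.Agent.SporadicB.ThreeTrans (mul_self inv_eq braid commute_or_braid)

section Base

variable {G : Type*} [Group G] {D : Set G}

theorem commute_iff_conj {x y : G} (hx : x * x = 1) : Commute x y ↔ x * y * x = y := by
  constructor
  · intro h
    rw [h.eq, mul_assoc, hx, mul_one]
  · intro h
    show x * y = y * x
    calc x * y = x * y * (x * x) := by rw [hx, mul_one]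
      _ = (x * y * x) * x := by simp only [mul_assoc]
      _ = y * x := by rw [h]

/-- a line is determined by two distinct points on it -/
theorem line_eq (hD : IsThreeTranspositionSet D) (_ : ∀ g : G, ∀ d ∈ D, g * d * g⁻¹ ∈ D) {l : Set D}
    (hl : l ∈ threeTranspositionLines D) {p q : D} (hpq : p ≠ q) (hp : p ∈ l) (hq : q ∈ l) :
    ¬ Commute (p : G) (q : G) ∧ l = {z : D | (z : G) = p ∨ (z : G) = q ∨ (z : G) = p * q * p} := by
  obtain ⟨x, y, hxy, rfl⟩ := hl
  have hx2 := mul_self hD x.2
  have hy2 := mul_self hD y.2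
  have hyi := inv_eq hD y.2
  have hb := braid hD x.2 y.2 hxy
  rw [hyi] at hp hq ⊢
  have e1 : (x : G) * (y * x * y) * x = y := by
    rw [← hb]
    calc (x : G) * (x * y * x) * x = (x * x) * y * (x * x) := by simp only [mul_assoc]
      _ = y := by rw [hx2, one_mul, mul_one]
  have e2 : (y : G) * (y * x * y) * y = x := by
    calc (y : G) * (y * x * y) * y = (y * y) * x * (y * y) := by simp only [mul_assoc]
      _ = x := by rw [hy2, one_mul, mul_one]
  have e3 : (y : G) * x * y * x * (y * x * y) = y := by
    calc (y : G) * x * y * x * (y * x * y) = y * x * y * (x * y * x) * y := by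
          simp only [mul_assoc]
      _ = y * x * y * (y * x * y) * y := by rw [hb]
      _ = y * x * (y * y) * x * (y * y) := by simp only [mul_assoc]
      _ = y := by rw [hy2, mul_one, mul_one, mul_assoc, hx2, mul_one]
  have e4 : (y : G) * x * y * y * (y * x * y) = x := by
    calc (y : G) * x * y * y * (y * x * y) = y * x * (y * y) * (y * x * y) := by
          simp only [mul_assoc]
      _ = y * (x * y * x) * y := by rw [hy2, mul_one]; simp only [mul_assoc]
      _ = (y * y) * x * (y * y) := by rw [hb]; simp only [mul_assoc]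
      _ = x := by rw [hy2, one_mul, mul_one]
  have hyx : (y : G) ≠ x := fun h => hxy (by rw [h])
  have hyx' : (y : G) * x * y ≠ x := by
    intro h
    exact hxy ((commute_iff_conj hy2).2 h).symm
  have hxy' : (y : G) * x * y ≠ y := by
    intro h
    apply hxy
    rw [commute_iff_conj hx2, hb, h]
  have hz2 : (y : G) * x * y * (y * x * y) = 1 := by
    calc (y : G) * x * y * (y * x * y) = y * (x * (y * y) * x) * y := by simp only [mul_assoc]
      _ = 1 := by rw [hy2, mul_one, hx2, mul_one, hy2]
  have main : ∀ p q : G, p ≠ q → (p = x ∨ p = y ∨ p = (y : G) * x * y) →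
      (q = x ∨ q = y ∨ q = (y : G) * x * y) →
      ¬ Commute p q ∧ ∀ z : G, (z = x ∨ z = y ∨ z = (y : G) * x * y) ↔ (z = p ∨ z = q ∨ z = p * q * p) := by
    intro p q hpq hp hq
    rcases hp with rfl | rfl | rfl <;> rcases hq with rfl | rfl | rfl
    · exact absurd rfl hpq
    · refine ⟨hxy, fun z => ?_⟩
      rw [← hb]
    · refine ⟨fun h => ?_, fun z => ?_⟩
      · rw [commute_iff_conj hx2, e1] at h
        exact hxy' h.symm
      · rw [e1]; tauto
    · refine ⟨fun h => hxy h.symm, fun z => ?_⟩
      tauto
    · exact absurd rfl hpq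
    · refine ⟨fun h => ?_, fun z => ?_⟩
      · rw [commute_iff_conj hy2, e2] at h
        exact hyx' h.symm
      · rw [e2]; tauto
    · refine ⟨fun h => ?_, fun z => ?_⟩
      · rw [commute_iff_conj hz2, e3] at h
        exact hyx h
      · rw [e3]; tauto
    · refine ⟨fun h => ?_, fun z => ?_⟩
      · rw [commute_iff_conj hz2, e4] at h
        exact hyx h.symm
      · rw [e4]; tauto
    · exact absurd rfl hpq
  obtain ⟨h1, h2⟩ := main p q (fun h => hpq (Subtype.ext h)) hp hq
  refine ⟨h1, ?_⟩
  ext z
  exact h2 z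

theorem isPartialLinear (hD : IsThreeTranspositionSet D) (hc : ∀ g : G, ∀ d ∈ D, g * d * g⁻¹ ∈ D) :
    IsPartialLinear (threeTranspositionLines D) := by
  intro l hl m hm x y hxy hxl hyl hxm hym
  rw [(line_eq hD hc hl hxy hxl hyl).2, (line_eq hD hc hm hxy hxm hym).2]

theorem line_mem (hD : IsThreeTranspositionSet D) {x y : D} (h : ¬ Commute (x : G) (y : G)) :
    {z : D | (z : G) = x ∨ (z : G) = y ∨ (z : G) = x * y * x} ∈ threeTranspositionLines D := by
  refine ⟨x, y, h, ?_⟩
  rw [inv_eq hD y.2, braid hD x.2 y.2 h]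

theorem line_ncard (hD : IsThreeTranspositionSet D) (hc : ∀ g : G, ∀ d ∈ D, g * d * g⁻¹ ∈ D)
    {l : Set D} (hl : l ∈ threeTranspositionLines D) : l.ncard = 3 := by
  obtain ⟨x, y, hxy, rfl⟩ := hl
  have hx2 := mul_self hD x.2
  have hy2 := mul_self hD y.2
  have hyi := inv_eq hD y.2
  have hb := braid hD x.2 y.2 hxy
  have hyx' : (y : G) * x * y ≠ x := by
    intro h
    exact hxy ((commute_iff_conj hy2).2 h).symm
  have hxy' : (y : G) * x * y ≠ y := by
    intro h
    apply hxy
    rw [commute_iff_conj hx2, hb, h]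
  have hzD : (y : G) * x * (y : G)⁻¹ ∈ D := hc y x x.2
  rw [Set.ncard_eq_three]
  refine ⟨x, y, ⟨_, hzD⟩, ?_, ?_, ?_, ?_⟩
  · rintro rfl; exact hxy (Commute.refl _)
  · intro h
    have := congrArg Subtype.val h
    simp only [hyi] at this
    exact hyx' this.symm
  · intro h
    have := congrArg Subtype.val h
    simp only [hyi] at this
    exact hxy' this.symm
  · ext z
    simp only [Set.mem_ofPred_eq, Set.mem_insert_iff, Set.mem_singleton_iff, Subtype.ext_iff]

end Base

section Plane

variable {G : Type*} [Group G] {D : Set G}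

/-- the general recognition of a plane -/
theorem plane_iso (hD : IsThreeTranspositionSet D) (hc : ∀ g : G, ∀ d ∈ D, g * d * g⁻¹ ∈ D)
    {Y : Type} (M : Set (Set Y)) (o : Y → Y → Y)
    (hM : ∀ s, s ∈ M ↔ ∃ y z, o y z ≠ z ∧ s = {y, z, o y z})
    (hoo : ∀ u v w, o (o u v) w = o u (o v (o u w))) (A B C : Y)
    (hgen : ∀ K : Set Y, A ∈ K → B ∈ K → C ∈ K → (∀ s ∈ K, ∀ t ∈ K, o s t ∈ K) → ∀ y, y ∈ K)
    (P : Y → G) (hPA : ∀ w, P A * P w * P A = P (o A w)) (hPB : ∀ w, P B * P w * P B = P (o B w))
    (hPC : ∀ w, P C * P w * P C = P (o C w)) (hA : P A ∈ D) (hB : P B ∈ D) (hC : P C ∈ D)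
    (base : Y → Y → Prop) (hbase : ∀ s t, base s t → P s ≠ P t)
    (hsep : ∀ s t, s ≠ t → ∃ u v, base (o u (o v s)) (o u (o v t)) ∨ base (o v s) (o v t) ∨ base s t)
    {l m : Set D} (hl : l = {z : D | (z : G) = P A ∨ (z : G) = P B ∨ (z : G) = P A * P B * P A})
    (hm : m = {z : D | (z : G) = P A ∨ (z : G) = P C ∨ (z : G) = P A * P C * P A}) :
    Isomorphic (restrict (threeTranspositionLines D) (span (threeTranspositionLines D) (l ∪ m))) M := by
  -- the conjugation action
  have hP : ∀ s t, P s * P t * P s = P (o s t) := by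
    intro s
    have := hgen {s | ∀ t, P s * P t * P s = P (o s t)} hPA hPB hPC ?_ s
    · exact this
    · intro u hu v hv w
      rw [← hu v]
      calc P u * P v * P u * P w * (P u * P v * P u)
          = P u * (P v * (P u * P w * P u) * P v) * P u := by simp only [mul_assoc]
        _ = P (o (o u v) w) := by rw [hu w, hv, hu, hoo]
  have hPD : ∀ s, P s ∈ D := by
    refine hgen {s | P s ∈ D} hA hB hC ?_
    intro u hu v hv
    show P (o u v) ∈ D
    rw [← hP]
    have := hc (P u) (P v) hv
    rw [inv_eq hD hu] at this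
    exact this
  have hinj : Function.Injective P := by
    intro s t hst
    by_contra hne
    obtain ⟨u, v, h⟩ := hsep s t hne
    have h1 : P (o v s) = P (o v t) := by rw [← hP, ← hP, hst]
    have h2 : P (o u (o v s)) = P (o u (o v t)) := by rw [← hP u, ← hP u, h1]
    rcases h with h | h | h
    · exact hbase _ _ h h2
    · exact hbase _ _ h h1
    · exact hbase _ _ h hst
  have hcomm : ∀ s t, Commute (P s) (P t) ↔ o s t = t := by
    intro s t
    rw [commute_iff_conj (mul_self hD (hPD s)), hP]
    exact hinj.eq_iff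
  set Q : Y → D := fun y => ⟨P y, hPD y⟩ with hQ
  have hQinj : Function.Injective Q := fun s t h => hinj (congrArg Subtype.val h)
  set L := threeTranspositionLines D with hLdef
  have hspan : span L (l ∪ m) = Set.range Q := by
    apply Set.Subset.antisymm
    · intro z hz
      rw [span, Set.mem_sInter] at hz
      apply hz
      constructor
      · rintro z (hz | hz)
        · rw [hl] at hz
          rcases hz with h | h | h
          · exact ⟨A, Subtype.ext h.symm⟩
          · exact ⟨B, Subtype.ext h.symm⟩
          · exact ⟨o A B, Subtype.ext (by rw [h, hP])⟩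
        · rw [hm] at hz
          rcases hz with h | h | h
          · exact ⟨A, Subtype.ext h.symm⟩
          · exact ⟨C, Subtype.ext h.symm⟩
          · exact ⟨o A C, Subtype.ext (by rw [h, hP])⟩
      · rintro k hk _ ⟨s, rfl⟩ _ ⟨t, rfl⟩ hne hs ht z hz
        obtain ⟨h1, h2⟩ := line_eq hD hc hk hne hs ht
        rw [h2] at hz
        rcases hz with h | h | h
        · exact ⟨s, Subtype.ext h.symm⟩
        · exact ⟨t, Subtype.ext h.symm⟩
        · exact ⟨o s t, Subtype.ext (by rw [h]; exact (hP s t).symm)⟩
    · rintro _ ⟨y, rfl⟩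
      rw [span, Set.mem_sInter]
      rintro T ⟨hT1, hT2⟩
      refine hgen {y | Q y ∈ T} ?_ ?_ ?_ ?_ y
      · exact hT1 (Or.inl (by rw [hl]; exact Or.inl rfl))
      · exact hT1 (Or.inl (by rw [hl]; exact Or.inr (Or.inl rfl)))
      · exact hT1 (Or.inr (by rw [hm]; exact Or.inr (Or.inl rfl)))
      · intro s hs t ht
        by_cases hst : Commute (P s) (P t)
        · rw [hcomm] at hst
          show Q (o s t) ∈ T
          rw [hst]
          exact ht
        · have hline := line_mem hD (x := Q s) (y := Q t) hst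
          have hne : Q s ≠ Q t := by
            intro h
            apply hst
            have := congrArg Subtype.val h
            show Commute (P s) (P t)
            rw [show P s = P t from this]
          refine hT2 _ hline (Q s) hs (Q t) ht hne (Or.inl rfl) (Or.inr (Or.inl rfl)) ?_
          exact Or.inr (Or.inr (hP s t).symm)
  rw [hspan]
  let e : Set.range Q ≃ Y := (Equiv.ofInjective Q hQinj).symm
  have he : ∀ y, e ⟨Q y, y, rfl⟩ = y := fun y => Equiv.ofInjective_symm_apply hQinj y
  have he' : ∀ y, e.symm y = ⟨Q y, y, rfl⟩ := fun y => rfl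
  refine ⟨e, ?_⟩
  intro k
  rw [hM]
  constructor
  · rintro ⟨k', hk', hsub, rfl⟩
    have hk'' := hk'
    obtain ⟨x, y, hxy, hk2⟩ := hk'
    have hx : x ∈ k' := by rw [hk2]; exact Or.inl rfl
    have hy : y ∈ k' := by rw [hk2]; exact Or.inr (Or.inl rfl)
    obtain ⟨s, rfl⟩ := hsub hx
    obtain ⟨t, rfl⟩ := hsub hy
    have hne : Q s ≠ Q t := by
      intro h; apply hxy; rw [h]
    obtain ⟨h1, h2⟩ := line_eq hD hc hk'' hne hx hy
    refine ⟨s, t, fun h => hxy ((hcomm s t).2 h), ?_⟩
    ext y
    simp only [Set.mem_image, Set.mem_insert_iff, Set.mem_singleton_iff]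
    constructor
    · rintro ⟨⟨_, z, rfl⟩, hz, rfl⟩
      rw [he]
      have hz' : Q z ∈ k' := hz
      rw [h2] at hz'
      rcases hz' with h | h | h
      · left; exact hinj h
      · right; left; exact hinj h
      · right; right; apply hinj; rw [← hP]; exact h
    · intro h
      refine ⟨⟨Q y, y, rfl⟩, ?_, he y⟩
      show Q y ∈ k'
      rw [h2]
      rcases h with rfl | rfl | rfl
      · exact Or.inl rfl
      · exact Or.inr (Or.inl rfl)
      · exact Or.inr (Or.inr (hP s t).symm)
  · rintro ⟨s, t, hst, hk⟩
    have hncomm : ¬ Commute (P s) (P t) := fun h => hst ((hcomm s t).1 h)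
    refine ⟨_, line_mem hD (x := Q s) (y := Q t) hncomm, ?_, ?_⟩
    · rintro z (h | h | h)
      · exact ⟨s, Subtype.ext h.symm⟩
      · exact ⟨t, Subtype.ext h.symm⟩
      · exact ⟨o s t, Subtype.ext (by rw [h]; exact (hP s t).symm)⟩
    · have hk' : k = e ⁻¹' {s, t, o s t} := by
        rw [← hk, Set.preimage_image_eq _ e.injective]
      rw [hk']
      ext ⟨_, z, rfl⟩
      simp only [Set.mem_preimage, Set.mem_insert_iff, Set.mem_singleton_iff, he, Set.mem_ofPred_eq]
      constructor
      · rintro (rfl | rfl | rfl)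
        · exact Or.inl rfl
        · exact Or.inr (Or.inl rfl)
        · exact Or.inr (Or.inr (hP s t).symm)
      · rintro (h | h | h)
        · left; exact hinj h
        · right; left; exact hinj h
        · right; right; apply hinj; rw [← hP]; exact h

end Plane

/-! ### the dual affine plane -/

/-- the transposition on the points of the dual affine plane -/
def dualMap (s : DualAffinePoint) (t : DualAffinePoint) : DualAffinePoint :=
  if h : (symmDiff s.1 t.1).card = 2 then ⟨symmDiff s.1 t.1, h⟩ else t

theorem dual_lines (s : Set DualAffinePoint) :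
    s ∈ dualAffinePlaneTwo ↔ ∃ y z, dualMap y z ≠ z ∧ s = {y, z, dualMap y z} := by
  constructor
  · rintro ⟨i, rfl⟩
    have key : ∀ i : Fin 4, ∃ y z, dualMap y z ≠ z ∧ ∀ s : DualAffinePoint, i ∉ s.1 ↔
      (s = y ∨ s = z ∨ s = dualMap y z) := by decide +kernel
    obtain ⟨y, z, h1, h2⟩ := key i
    refine ⟨y, z, h1, ?_⟩
    ext s
    exact h2 s
  · rintro ⟨y, z, h1, rfl⟩
    have key : ∀ y z, dualMap y z ≠ z → ∃ i : Fin 4, ∀ s : DualAffinePoint, i ∉ s.1 ↔
      (s = y ∨ s = z ∨ s = dualMap y z) := by decide +kernel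
    obtain ⟨i, hi⟩ := key y z h1
    refine ⟨i, ?_⟩
    ext s
    exact (hi s).symm

def p12 : DualAffinePoint := ⟨{1, 2}, by decide⟩
def p01 : DualAffinePoint := ⟨{0, 1}, by decide⟩
def p23 : DualAffinePoint := ⟨{2, 3}, by decide⟩
def p02 : DualAffinePoint := ⟨{0, 2}, by decide⟩
def p13 : DualAffinePoint := ⟨{1, 3}, by decide⟩
def p03 : DualAffinePoint := ⟨{0, 3}, by decide⟩

/-- base pairs -/
def dualBase (s t : DualAffinePoint) : Bool :=
  (decide (s = p12) && decide (t = p01)) || (decide (s = p01) && decide (t = p12)) ||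
  (decide (s = p12) && decide (t = p23)) || (decide (s = p23) && decide (t = p12)) ||
  (decide (s = p01) && decide (t = p23)) || (decide (s = p23) && decide (t = p01))

theorem dualBase_sep : ∀ s t, s ≠ t → ∃ u v, dualBase (dualMap u (dualMap v s))
    (dualMap u (dualMap v t)) = true ∨ dualBase (dualMap v s) (dualMap v t) = true ∨
      dualBase s t = true := by
  decide +kernel

theorem dualBase_cases : ∀ s t, dualBase s t = true → (s = p12 ∧ t = p01) ∨ (s = p01 ∧ t = p12) ∨
    (s = p12 ∧ t = p23) ∨ (s = p23 ∧ t = p12) ∨ (s = p01 ∧ t = p23) ∨ (s = p23 ∧ t = p01) := by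
  decide +kernel

theorem dual_cases : ∀ s : DualAffinePoint,
    s = p12 ∨ s = p01 ∨ s = p23 ∨ s = p02 ∨ s = p13 ∨ s = p03 := by decide +kernel

/-- the six transpositions -/
def dualP {G : Type*} [Group G] (a b c : G) (s : DualAffinePoint) : G :=
  if s = p12 then a else if s = p01 then b else if s = p23 then c else
    if s = p02 then a * b * a else if s = p13 then a * c * a else b * (a * c * a) * b

section DualP

variable {G : Type*} [Group G] (a b c : G)

theorem dualP12 : dualP a b c p12 = a := if_pos rfl
theorem dualP01 : dualP a b c p01 = b := by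
  unfold dualP; rw [if_neg (by decide), if_pos rfl]
theorem dualP23 : dualP a b c p23 = c := by
  unfold dualP; rw [if_neg (by decide), if_neg (by decide), if_pos rfl]
theorem dualP02 : dualP a b c p02 = a * b * a := by
  unfold dualP; rw [if_neg (by decide), if_neg (by decide), if_neg (by decide), if_pos rfl]
theorem dualP13 : dualP a b c p13 = a * c * a := by
  unfold dualP
  rw [if_neg (by decide), if_neg (by decide), if_neg (by decide), if_neg (by decide), if_pos rfl]
theorem dualP03 : dualP a b c p03 = b * (a * c * a) * b := by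
  unfold dualP
  rw [if_neg (by decide), if_neg (by decide), if_neg (by decide), if_neg (by decide),
    if_neg (by decide)]

end DualP

theorem isDual {G : Type*} [Group G] {D : Set G} (hD : IsThreeTranspositionSet D)
    (hc : ∀ g : G, ∀ d ∈ D, g * d * g⁻¹ ∈ D) {a b c : G} (haD : a ∈ D) (hbD : b ∈ D) (hcD : c ∈ D)
    (hab : ¬ Commute a b) (hac : ¬ Commute a c) (hbc : Commute b c) (hne : b ≠ c)
    {l m : Set D} (hl : l = {z : D | (z : G) = a ∨ (z : G) = b ∨ (z : G) = a * b * a})
    (hm : m = {z : D | (z : G) = a ∨ (z : G) = c ∨ (z : G) = a * c * a}) :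
    Isomorphic (restrict (threeTranspositionLines D) (span (threeTranspositionLines D) (l ∪ m)))
      dualAffinePlaneTwo := by
  have ha2 := mul_self hD haD
  have hb2 := mul_self hD hbD
  have hc2 := mul_self hD hcD
  have bab := braid hD haD hbD hab
  have bac := braid hD haD hcD hac
  have hbc' : b * c = c * b := hbc
  have cancel : ∀ g x : G, g * g = 1 → g * (g * x * g) * g = x := by
    intro g x hg
    calc g * (g * x * g) * g = (g * g) * x * (g * g) := by simp only [mul_assoc]
      _ = x := by rw [hg, one_mul, mul_one]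
  have fixself : ∀ g : G, g * g = 1 → g * g * g = g := fun g hg => by rw [hg, one_mul]
  -- the nontrivial identities
  have i1 : a * (b * (a * c * a) * b) * a = b * (a * c * a) * b := by
    calc a * (b * (a * c * a) * b) * a = (a * b * a) * c * (a * b * a) := by
          simp only [mul_assoc]
      _ = (b * a * b) * c * (b * a * b) := by rw [bab]
      _ = b * a * (b * c * b) * a * b := by simp only [mul_assoc]
      _ = b * a * c * a * b := by rw [hbc', mul_assoc c, hb2, mul_one]
      _ = b * (a * c * a) * b := by simp only [mul_assoc]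
  have i2 : c * (a * b * a) * c = b * (a * c * a) * b := by
    calc c * (a * b * a) * c = (c * b) * a * (b * c) := by rw [bab]; simp only [mul_assoc]
      _ = (b * c) * a * (c * b) := by rw [hbc']
      _ = b * (a * c * a) * b := by rw [bac]; simp only [mul_assoc]
  have i3 : b * c * b = c := by rw [hbc', mul_assoc, hb2, mul_one]
  have i4 : c * b * c = b := by rw [← hbc', mul_assoc, hc2, mul_one]
  refine plane_iso hD hc dualAffinePlaneTwo dualMap dual_lines (by decide +kernel) p12 p01 p23 ?_
    (dualP a b c) ?_ ?_ ?_ (by rw [dualP12]; exact haD) (by rw [dualP01]; exact hbD)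
    (by rw [dualP23]; exact hcD)
    (fun s t => dualBase s t = true) ?_ dualBase_sep
    (by rw [dualP12, dualP01]; exact hl) (by rw [dualP12, dualP23]; exact hm)
  · intro K h12 h01 h23 hK
    have h02 : p02 ∈ K := by
      have := hK _ h12 _ h01
      rwa [show dualMap p12 p01 = p02 by decide] at this
    have h13 : p13 ∈ K := by
      have := hK _ h12 _ h23
      rwa [show dualMap p12 p23 = p13 by decide] at this
    have h03 : p03 ∈ K := by
      have := hK _ h01 _ h13
      rwa [show dualMap p01 p13 = p03 by decide] at this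
    intro y
    rcases dual_cases y with rfl | rfl | rfl | rfl | rfl | rfl <;> assumption
  · rw [dualP12]
    intro w
    rcases dual_cases w with rfl | rfl | rfl | rfl | rfl | rfl
    · rw [show dualMap p12 p12 = p12 by decide, dualP12]; exact fixself a ha2
    · rw [show dualMap p12 p01 = p02 by decide, dualP01, dualP02]
    · rw [show dualMap p12 p23 = p13 by decide, dualP23, dualP13]
    · rw [show dualMap p12 p02 = p01 by decide, dualP01, dualP02]; exact cancel a b ha2
    · rw [show dualMap p12 p13 = p23 by decide, dualP23, dualP13]; exact cancel a c ha2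
    · rw [show dualMap p12 p03 = p03 by decide, dualP03]; exact i1
  · rw [dualP01]
    intro w
    rcases dual_cases w with rfl | rfl | rfl | rfl | rfl | rfl
    · rw [show dualMap p01 p12 = p02 by decide, dualP12, dualP02]; exact bab.symm
    · rw [show dualMap p01 p01 = p01 by decide, dualP01]; exact fixself b hb2
    · rw [show dualMap p01 p23 = p23 by decide, dualP23]; exact i3
    · rw [show dualMap p01 p02 = p12 by decide, dualP12, dualP02, bab]; exact cancel b a hb2
    · rw [show dualMap p01 p13 = p03 by decide, dualP03, dualP13]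
    · rw [show dualMap p01 p03 = p13 by decide, dualP03, dualP13]; exact cancel b _ hb2
  · rw [dualP23]
    intro w
    rcases dual_cases w with rfl | rfl | rfl | rfl | rfl | rfl
    · rw [show dualMap p23 p12 = p13 by decide, dualP12, dualP13]; exact bac.symm
    · rw [show dualMap p23 p01 = p01 by decide, dualP01]; exact i4
    · rw [show dualMap p23 p23 = p23 by decide, dualP23]; exact fixself c hc2
    · rw [show dualMap p23 p02 = p03 by decide, dualP03, dualP02]; exact i2
    · rw [show dualMap p23 p13 = p12 by decide, dualP12, dualP13, bac]; exact cancel c a hc2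
    · rw [show dualMap p23 p03 = p02 by decide, dualP03, dualP02, ← i2]; exact cancel c _ hc2
  · have n1 : a ≠ b := fun h => hab (by rw [h])
    have n2 : a ≠ c := fun h => hac (by rw [h])
    intro s t hst
    rcases dualBase_cases s t hst with
      ⟨rfl, rfl⟩ | ⟨rfl, rfl⟩ | ⟨rfl, rfl⟩ | ⟨rfl, rfl⟩ | ⟨rfl, rfl⟩ | ⟨rfl, rfl⟩ <;>
      simp only [dualP12, dualP01, dualP23]
    · exact n1
    · exact n1.symm
    · exact n2
    · exact n2.symm
    · exact hne
    · exact hne.symm

/-! ### the affine plane -/

theorem z3 (z : ZMod 3) : z + z + z = 0 := by revert z; decide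

theorem v3 (z : Fin 2 → ZMod 3) : z + z + z = 0 := by ext i; exact z3 _

theorem affine_lines (s : Set (Fin 2 → ZMod 3)) :
    s ∈ affinePlaneThree ↔ ∃ y z, (fun v w : Fin 2 → ZMod 3 => -v - w) y z ≠ z ∧
      s = {y, z, (fun v w : Fin 2 → ZMod 3 => -v - w) y z} := by
  have hline : ∀ v w : Fin 2 → ZMod 3, {x | ∃ c : ZMod 3, x = v + c • w} =
      ({v, v + w, -v - (v + w)} : Set (Fin 2 → ZMod 3)) := by
    intro v w
    ext x
    simp only [Set.mem_ofPred_eq, Set.mem_insert_iff, Set.mem_singleton_iff]
    have h2 : -v - (v + w) = v + (2 : ZMod 3) • w := by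
      have h3 := v3 v
      have h4 := v3 w
      have : (2 : ZMod 3) • w = w + w := two_smul _ _
      rw [this]
      rw [← sub_eq_zero]
      calc -v - (v + w) - (v + (w + w)) = -(v + v + v) - (w + w + w) := by abel
        _ = 0 := by rw [h3, h4]; simp
    rw [h2]
    constructor
    · rintro ⟨c, rfl⟩
      have : c = 0 ∨ c = 1 ∨ c = 2 := by revert c; decide
      rcases this with rfl | rfl | rfl
      · left; simp
      · right; left; simp
      · right; right; rfl
    · rintro (rfl | rfl | rfl)
      · exact ⟨0, by simp⟩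
      · exact ⟨1, by simp⟩
      · exact ⟨2, rfl⟩
  constructor
  · rintro ⟨v, w, hw, rfl⟩
    refine ⟨v, v + w, ?_, hline v w⟩
    intro h
    apply hw
    have h' : -v - (v + w) = v + w := h
    have h3 := v3 v
    have : w + w = 0 := by
      have : (v + w) - (-v - (v + w)) = 0 := by rw [h', sub_self]
      calc w + w = (v + w) - (-v - (v + w)) - (v + v + v) := by abel
        _ = 0 := by rw [this, h3, sub_zero]
    have h4 := v3 w
    rw [this, zero_add] at h4
    exact h4
  · rintro ⟨y, z, h, rfl⟩
    refine ⟨y, z - y, ?_, ?_⟩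
    · intro h0
      apply h
      have : z = y := sub_eq_zero.1 h0
      subst this
      show -z - z = z
      rw [← sub_eq_zero]
      calc -z - z - z = -(z + z + z) := by abel
        _ = 0 := by rw [v3, neg_zero]
    · rw [hline]
      have : y + (z - y) = z := by abel
      rw [this]

/-- the nine transpositions -/
def affQ {G : Type*} [Group G] (a b c : G) (i j : ZMod 3) : G :=
  (![![a, c, a * c * a],
    ![b, a * (b * c * b) * a, c * (a * b * a) * c],
    ![a * b * a, (a * c * a) * b * (a * c * a), b * c * b]] : Fin 3 → Fin 3 → G) i j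

def affP {G : Type*} [Group G] (a b c : G) (v : Fin 2 → ZMod 3) : G := affQ a b c (v 0) (v 1)

theorem isAffine {G : Type*} [Group G] {D : Set G} (hD : IsThreeTranspositionSet D)
    (hc : ∀ g : G, ∀ d ∈ D, g * d * g⁻¹ ∈ D) {a b c : G} (haD : a ∈ D) (hbD : b ∈ D) (hcD : c ∈ D)
    (hab : ¬ Commute a b) (hac : ¬ Commute a c) (hbc : ¬ Commute b c)
    (hb'c : ¬ Commute (a * b * a) c) (hne : a * b * a ≠ c)
    {l m : Set D} (hl : l = {z : D | (z : G) = a ∨ (z : G) = b ∨ (z : G) = a * b * a})
    (hm : m = {z : D | (z : G) = a ∨ (z : G) = c ∨ (z : G) = a * c * a}) :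
    Isomorphic (restrict (threeTranspositionLines D) (span (threeTranspositionLines D) (l ∪ m)))
      affinePlaneThree := by
  have ha2 := mul_self hD haD
  have hb2 := mul_self hD hbD
  have hc2 := mul_self hD hcD
  have bab := braid hD haD hbD hab
  have bac := braid hD haD hcD hac
  have bbc := braid hD hbD hcD hbc
  have hb'D : a * b * a ∈ D := by
    have := hc a b hbD
    rwa [inv_eq hD haD] at this
  have hc'D : a * c * a ∈ D := by
    have := hc a c hcD
    rwa [inv_eq hD haD] at this
  have bb'c := braid hD hb'D hcD hb'c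
  have cancel : ∀ g x : G, g * g = 1 → g * (g * x * g) * g = x := by
    intro g x hg
    calc g * (g * x * g) * g = (g * g) * x * (g * g) := by simp only [mul_assoc]
      _ = x := by rw [hg, one_mul, mul_one]
  have fixself : ∀ g : G, g * g = 1 → g * g * g = g := fun g hg => by rw [hg, one_mul]
  have conj3 : ∀ g x y z : G, g * g = 1 → g * (x * y * z) * g = (g * x * g) * (g * y * g) * (g * z * g) := by
    intro g x y z hg
    calc g * (x * y * z) * g = g * x * 1 * y * 1 * z * g := by simp only [mul_assoc, mul_one]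
      _ = g * x * (g * g) * y * (g * g) * z * g := by rw [hg]
      _ = _ := by simp only [mul_assoc]
  -- a : (c b' c) ↔ (c' b c')
  have j1 : a * (c * (a * b * a) * c) * a = (a * c * a) * b * (a * c * a) := by
    rw [conj3 a _ _ _ ha2, cancel a b ha2]
  have j1' : a * ((a * c * a) * b * (a * c * a)) * a = c * (a * b * a) * c := by
    rw [← j1]; exact cancel a _ ha2
  -- b : c' ↔ c' b c'
  have j2 : b * (a * c * a) * b = (a * c * a) * b * (a * c * a) := by
    have h : b * (a * c * a) * b = a * ((a * b * a) * c * (a * b * a)) * a := by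
      rw [conj3 a _ _ _ ha2, cancel a b ha2]
    rw [h, bb'c, j1]
  have j2' : b * ((a * c * a) * b * (a * c * a)) * b = a * c * a := by
    rw [← j2]; exact cancel b _ hb2
  -- b : a bcb a ↔ c b' c
  have j3 : b * (a * (b * c * b) * a) * b = c * (a * b * a) * c := by
    calc b * (a * (b * c * b) * a) * b = (b * a * b) * c * (b * a * b) := by simp only [mul_assoc]
      _ = c * (a * b * a) * c := by rw [← bab, bb'c]
  have j3' : b * (c * (a * b * a) * c) * b = a * (b * c * b) * a := by
    rw [← j3]; exact cancel b _ hb2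
  -- c : a bcb a ↔ c' b c'
  have j4 : c * (a * (b * c * b) * a) * c = (a * c * a) * b * (a * c * a) := by
    calc c * (a * (b * c * b) * a) * c = (c * a * c) * b * (c * a * c) := by
          rw [bbc]; simp only [mul_assoc]
      _ = (a * c * a) * b * (a * c * a) := by rw [← bac]
  have j4' : c * ((a * c * a) * b * (a * c * a)) * c = a * (b * c * b) * a := by
    rw [← j4]; exact cancel c _ hc2
  refine plane_iso hD hc affinePlaneThree (fun v w => -v - w) affine_lines ?_ ![0, 0] ![1, 0] ![0, 1] ?_
    (affP a b c) ?_ ?_ ?_ haD hbD hcD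
    (fun s t => s = ![0, 0] ∧ (t = ![1, 0] ∨ t = ![0, 1] ∨ t = ![2, 2] ∨ t = ![1, 2])) ?_ ?_
    hl hm
  · intro u v w
    show -(-u - v) - w = -u - (-v - (-u - w))
    rw [← sub_eq_zero]
    calc -(-u - v) - w - (-u - (-v - (-u - w))) = (u + u + u) := by abel
      _ = 0 := v3 u
  · intro K h00 h10 h01 hK
    have k : ∀ i j i' j' : ZMod 3, ![i, j] ∈ K → ![i', j'] ∈ K → ![-i - i', -j - j'] ∈ K := by
      intro i j i' j' h h'
      have := hK _ h _ h'
      have he : (![-i - i', -j - j'] : Fin 2 → ZMod 3) = -![i, j] - ![i', j'] := by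
        ext t; fin_cases t <;> rfl
      rw [he]; exact this
    have h20 : (![2, 0] : Fin 2 → ZMod 3) ∈ K := k 0 0 1 0 h00 h10
    have h02 : (![0, 2] : Fin 2 → ZMod 3) ∈ K := k 0 0 0 1 h00 h01
    have h22 : (![2, 2] : Fin 2 → ZMod 3) ∈ K := k 1 0 0 1 h10 h01
    have h11 : (![1, 1] : Fin 2 → ZMod 3) ∈ K := k 0 0 2 2 h00 h22
    have h12 : (![1, 2] : Fin 2 → ZMod 3) ∈ K := k 2 0 0 1 h20 h01
    have h21 : (![2, 1] : Fin 2 → ZMod 3) ∈ K := k 0 2 1 0 h02 h10
    intro y
    have hy : y = ![y 0, y 1] := by ext t; fin_cases t <;> rfl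
    rw [hy]
    generalize y 0 = i
    generalize y 1 = j
    have hi : i = 0 ∨ i = 1 ∨ i = 2 := by revert i; decide
    have hj : j = 0 ∨ j = 1 ∨ j = 2 := by revert j; decide
    rcases hi with rfl | rfl | rfl <;> rcases hj with rfl | rfl | rfl <;> assumption
  · intro w
    show a * affQ a b c (w 0) (w 1) * a = affQ a b c (-0 - w 0) (-0 - w 1)
    generalize w 0 = i
    generalize w 1 = j
    have hi : i = 0 ∨ i = 1 ∨ i = 2 := by revert i; decide
    have hj : j = 0 ∨ j = 1 ∨ j = 2 := by revert j; decide
    rcases hi with rfl | rfl | rfl <;> rcases hj with rfl | rfl | rfl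
    · exact fixself a ha2
    · rfl
    · exact cancel a c ha2
    · rfl
    · exact cancel a _ ha2
    · exact j1
    · exact cancel a _ ha2
    · exact j1'
    · rfl
  · intro w
    show b * affQ a b c (w 0) (w 1) * b = affQ a b c (-1 - w 0) (-0 - w 1)
    generalize w 0 = i
    generalize w 1 = j
    have hi : i = 0 ∨ i = 1 ∨ i = 2 := by revert i; decide
    have hj : j = 0 ∨ j = 1 ∨ j = 2 := by revert j; decide
    rcases hi with rfl | rfl | rfl <;> rcases hj with rfl | rfl | rfl
    · exact bab.symm
    · rfl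
    · exact j2
    · exact fixself b hb2
    · exact j3
    · exact j3'
    · show b * (a * b * a) * b = a
      rw [bab]; exact cancel b a hb2
    · exact j2'
    · exact cancel b c hb2
  · intro w
    show c * affQ a b c (w 0) (w 1) * c = affQ a b c (-0 - w 0) (-1 - w 1)
    generalize w 0 = i
    generalize w 1 = j
    have hi : i = 0 ∨ i = 1 ∨ i = 2 := by revert i; decide
    have hj : j = 0 ∨ j = 1 ∨ j = 2 := by revert j; decide
    rcases hi with rfl | rfl | rfl <;> rcases hj with rfl | rfl | rfl
    · exact bac.symm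
    · exact fixself c hc2
    · show c * (a * c * a) * c = a
      rw [bac]; exact cancel c a hc2
    · exact bbc.symm
    · exact j4
    · exact cancel c _ hc2
    · rfl
    · exact j4'
    · show c * (b * c * b) * c = b
      rw [bbc]; exact cancel c b hc2
  · rintro s t ⟨rfl, rfl | rfl | rfl | rfl⟩
    · show a ≠ b
      exact fun h => hab (by rw [h])
    · show a ≠ c
      exact fun h => hac (by rw [h])
    · show a ≠ b * c * b
      intro h
      apply hne
      rw [bab, h]
      exact cancel b c hb2
    · show a ≠ c * (a * b * a) * c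
      intro h
      apply hbc
      -- c a c = a b a, so a c a = a b a, so c = b
      have h1 : c * a * c = a * b * a := by
        have := cancel c (a * b * a) hc2
        rw [← h] at this
        exact this
      rw [← bac] at h1
      have h2 : c = b := by
        have := cancel a c ha2
        rw [h1, cancel a b ha2] at this
        exact this.symm
      rw [h2]
  · intro s t hst
    have hs : s = ![s 0, s 1] := by ext t; fin_cases t <;> rfl
    have ht : t = ![t 0, t 1] := by ext t; fin_cases t <;> rfl
    refine ⟨![0, 0], -s, ?_⟩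
    have e1 : (fun v w : Fin 2 → ZMod 3 => -v - w) (-s) s = ![0, 0] := by
      show -(-s) - s = ![0, 0]
      rw [neg_neg, sub_self]
      ext t; fin_cases t <;> rfl
    have e2 : (fun v w : Fin 2 → ZMod 3 => -v - w) (-s) t = s - t := by
      show -(-s) - t = s - t
      rw [neg_neg]
    have e3 : (fun v w : Fin 2 → ZMod 3 => -v - w) ![0, 0] ![0, 0] = ![0, 0] := by
      show -![0, 0] - ![0, 0] = ![0, 0]
      ext t; fin_cases t <;> rfl
    have e4 : (fun v w : Fin 2 → ZMod 3 => -v - w) ![0, 0] (s - t) = -(s - t) := by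
      show -![0, 0] - (s - t) = - (s - t)
      have : (![0, 0] : Fin 2 → ZMod 3) = 0 := by ext t; fin_cases t <;> rfl
      rw [this, neg_zero, zero_sub]
    have e1' : -(-s) - s = ![0, 0] := e1
    have e2' : -(-s) - t = s - t := e2
    have e3' : -![0, 0] - ![0, 0] = (![0, 0] : Fin 2 → ZMod 3) := e3
    have e4' : -![0, 0] - (s - t) = -(s - t) := e4
    show (-![0, 0] - (- -s - s) = ![0, 0] ∧
      (-![0, 0] - (- -s - t) = ![1, 0] ∨
        -![0, 0] - (- -s - t) = ![0, 1] ∨ -![0, 0] - (- -s - t) = ![2, 2] ∨
          -![0, 0] - (- -s - t) = ![1, 2])) ∨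
      (- -s - s = ![0, 0] ∧ (- -s - t = ![1, 0] ∨ - -s - t = ![0, 1] ∨ - -s - t = ![2, 2] ∨
        - -s - t = ![1, 2])) ∨
      _
    rw [e1', e2', e3', e4']
    have hd : s - t ≠ 0 := sub_ne_zero.2 hst
    have hdd : s - t = ![(s - t) 0, (s - t) 1] := by ext t; fin_cases t <;> rfl
    rw [hdd] at hd ⊢
    generalize (s - t) 0 = i at hd ⊢
    generalize (s - t) 1 = j at hd ⊢
    have hi : i = 0 ∨ i = 1 ∨ i = 2 := by clear hd; revert i; decide
    have hj : j = 0 ∨ j = 1 ∨ j = 2 := by clear hd; revert j; decide
    have hneg : ∀ i j : ZMod 3, -(![i, j] : Fin 2 → ZMod 3) = ![-i, -j] := by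
      intro i j; ext t; fin_cases t <;> rfl
    rw [hneg]
    have n1 : -(1 : ZMod 3) = 2 := by decide
    have n2 : -(2 : ZMod 3) = 1 := by decide
    rcases hi with rfl | rfl | rfl <;> rcases hj with rfl | rfl | rfl
    · exact absurd (by ext t; fin_cases t <;> rfl) hd
    · right; left; exact ⟨rfl, Or.inr (Or.inl rfl)⟩
    · left; refine ⟨rfl, Or.inr (Or.inl ?_)⟩; rw [neg_zero, n2]
    · right; left; exact ⟨rfl, Or.inl rfl⟩
    · left; refine ⟨rfl, Or.inr (Or.inr (Or.inl ?_))⟩; rw [n1]
    · right; left; exact ⟨rfl, Or.inr (Or.inr (Or.inr rfl))⟩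
    · left; refine ⟨rfl, Or.inl ?_⟩; rw [neg_zero, n2]
    · left; refine ⟨rfl, Or.inr (Or.inr (Or.inr ?_))⟩; rw [n1, n2]
    · right; left; exact ⟨rfl, Or.inr (Or.inr (Or.inl rfl))⟩

/-- Let D be a conjugation-invariant generating set of 3-transpositions of a finite group G. Then the line system on D whose lines are the triples {x, y, y x y⁻¹} for non-commuting members x, y of D is a Fischer space: two points lie on at most one line, lines have three points, and two different meeting lines generate a subspace isomorphic to the dual affine plane of order two or to the affine plane of order three. -/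
theorem result {G : Type*} [Group G] [Finite G] {D : Set G} (hD : Cfsg.IsThreeTranspositionGroup D) : Cfsg.IsFischerSpace (Cfsg.threeTranspositionLines D) := by
  obtain ⟨hD, hc, -⟩ := hD
  refine ⟨isPartialLinear hD hc, fun l hl => line_ncard hD hc hl, ?_⟩
  rintro l hl m hm hlm ⟨p, hpl, hpm⟩
  -- other points
  have ex : ∀ k ∈ threeTranspositionLines D, p ∈ k → ∃ q ∈ k, q ≠ p := by
    intro k hk hpk
    have h3 := line_ncard hD hc hk
    by_contra hcon
    push Not at hcon
    have : k ⊆ {p} := fun q hq => hcon q hq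
    have := Set.ncard_le_ncard this (Set.finite_singleton p)
    rw [h3, Set.ncard_singleton] at this
    omega
  have hunique : ∀ q : D, q ∈ l → q ∈ m → q = p := by
    intro q hql hqm
    by_contra hne
    exact hlm (isPartialLinear hD hc l hl m hm q p hne hql hpl hqm hpm)
  by_cases hcase : ∃ q ∈ l, ∃ r ∈ m, q ≠ p ∧ r ≠ p ∧ Commute (q : G) (r : G)
  · left
    obtain ⟨q, hq, r, hr, hqp, hrp, hqr⟩ := hcase
    obtain ⟨h1, h2⟩ := line_eq hD hc hl hqp.symm hpl hq
    obtain ⟨h3, h4⟩ := line_eq hD hc hm hrp.symm hpm hr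
    refine isDual hD hc p.2 q.2 r.2 h1 h3 hqr ?_ h2 h4
    intro h
    have : q = r := Subtype.ext h
    exact hqp (hunique q hq (this ▸ hr))
  · right
    push Not at hcase
    obtain ⟨q, hq, hqp⟩ := ex l hl hpl
    obtain ⟨r, hr, hrp⟩ := ex m hm hpm
    obtain ⟨h1, h2⟩ := line_eq hD hc hl hqp.symm hpl hq
    obtain ⟨h3, h4⟩ := line_eq hD hc hm hrp.symm hpm hr
    have hp2 := mul_self hD p.2
    have hq'D : (p : G) * q * p ∈ D := by
      have := hc p q q.2
      rwa [inv_eq hD p.2] at this
    have hq'l : (⟨(p : G) * q * p, hq'D⟩ : D) ∈ l := by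
      rw [h2]; exact Or.inr (Or.inr rfl)
    have hq'p : (⟨(p : G) * q * p, hq'D⟩ : D) ≠ p := by
      intro h
      have h' : (p : G) * q * p = p := congrArg Subtype.val h
      apply hqp
      apply Subtype.ext
      calc (q : G) = p * p * q * (p * p) := by rw [hp2, one_mul, mul_one]
        _ = p * (p * q * p) * p := by simp only [mul_assoc]
        _ = p := by rw [h', hp2, one_mul]
    refine isAffine hD hc p.2 q.2 r.2 h1 h3 (hcase q hq r hr hqp hrp)
      (hcase _ hq'l r hr hq'p hrp) ?_ h2 h4
    intro h
    have : (⟨(p : G) * q * p, hq'D⟩ : D) = r := Subtype.ext h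
    exact hrp (hunique r (this ▸ hq'l) hr)

end Cfsg.Agent.S5367
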