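import Mathlib
import Cfsg.Agent.R01.Assembly2
import Cfsg.Agent.R01.IdentMain
import Cfsg.Agent.S1713
import Cfsg.Agent.S1696
import Cfsg.Agent.H831.Types
import Cfsg.Agent.SignalizersComponents.LayerBasic
import Cfsg.Statements.S5377
import Cfsg.Agent.H830.TypeConv
set_option linter.all false

-- part: H810/Cen22
section
set_option autoImplicit false
set_option linter.style.haveILetI false

/-!
# The centralizer characterization of `Fi22` and 3-transpositions

If `C(d)` is quasisimple with quotient `PSU(6,2)` and `d` is not weakly closed, the conjugacy class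
of `d` is a class of 3-transpositions, a Fischer group of type `T6`, and `⟨D_d⟩ = C(d)`.
-/

namespace Cfsg.Agent.H810.Cen22

open Cfsg Cfsg.Agent.R01.Lifts Cfsg.Agent.R01.PSUSix Cfsg.Agent.R01.Label Cfsg.Agent.R01.Start
open Cfsg.Agent.R01.Loc Cfsg.Agent.R01.Closing Cfsg.Agent.R01.Assembly
open Cfsg.Agent.Fischer160.Inherit (HH KK Eb)

universe u

variable {G : Type u} [Group G] [Finite G] (d : G)
    (hd : orderOf d = 2) (hq : IsQuasisimple (Subgroup.centralizer ({d} : Set G)))
    [((Subgroup.zpowers d).subgroupOf (Subgroup.centralizer ({d} : Set G))).Normal]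
    (K : Type) [Field K] [Fintype K] (hK : Fintype.card K = 4)
    (e : (Subgroup.centralizer ({d} : Set G)) ⧸
      (Subgroup.zpowers d).subgroupOf (Subgroup.centralizer ({d} : Set G)) ≃* PSU 6 K 2)
    (hnwc : ∃ g : G, g * d * g⁻¹ ∈ Subgroup.centralizer ({d} : Set G) ∧ g * d * g⁻¹ ≠ d)
include hd hq hK e hnwc

theorem three : (∀ a ∈ conjugatesOf d, ∀ b ∈ conjugatesOf d, a * b = b * a ∨ (a * b) ^ 3 = 1) ∧
    (conjugatesOf d).ncard = 3510 ∧ Nat.card G = 64561751654400 := by
  have hF : Fintype.card K = 2 ^ 2 := hK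
  obtain ⟨lift, L⟩ := exists_lab d hd hq K hF e (ε := zel d) (Or.inr rfl)
  have hloc : LocAt hF (conjugatesOf d) d :=
    ⟨proj d e, lift, L, Cfsg.Agent.R01.Assembly2.fusionSt G d K hF (proj d e) lift L hnwc⟩
  have hLoc : Loc hF (conjugatesOf d) := loc_of_locAt hloc
  obtain ⟨h3, hcard⟩ := Cfsg.Agent.R01.Assembly2.componentSt G d K hF hLoc
  have hall := Cfsg.Agent.R01.Assembly2.bridgeSt G d K hF hLoc h3 hcard
  have hdD : d ∈ conjugatesOf d := mem_conjugatesOf_self
  have hconn : ∀ b : G, Conn (conjugatesOf d) d b ↔ b ∈ conjugatesOf d := fun b =>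
    ⟨fun h => h.mem hdD, fun h => hall.conn zstar hdD h⟩
  have hD : (conjugatesOf d).ncard = 3510 := by
    rw [← hcard d hdD]
    exact Nat.card_congr (Equiv.subtypeEquivRight fun b => (hconn b).symm)
  have hG : Nat.card G = 64561751654400 := by
    rw [hall.card_eq zstar hdD, card_centralizer hF L.ext, Nat.card_coe_set_eq, hD]
  exact ⟨fun a ha b hb => hall.isThreeTrans zstar ha hb, hD, hG⟩

theorem simple : IsSimpleGroup G := by
  obtain ⟨f⟩ := Cfsg.Agent.S1713.result d hd hq K hK e hnwc
  haveI : IsSimpleGroup Cfsg.Spor.Fi22 := Cfsg.Agent.S1696.result.1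
  exact f.isSimpleGroup

/-- **the conjugacy class of `d` is a class of 3-transpositions** -/
theorem isClass : IsThreeTranspositionClass (conjugatesOf d) := by
  obtain ⟨h3, -, -⟩ := three d hd hq K hK e hnwc
  haveI hs := simple d hd hq K hK e hnwc
  have hord : ∀ a ∈ conjugatesOf d, orderOf a = 2 := by
    intro a ha
    obtain ⟨g, rfl⟩ := isConj_iff.1 (show IsConj d a from ha)
    rw [← hd]
    exact (MulEquiv.orderOf_eq (MulAut.conj g) d)
  refine ⟨⟨hord, ?_⟩, ⟨d, mem_conjugatesOf_self, rfl⟩, ?_⟩
  · intro a ha b hb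
    rcases h3 a ha b hb with h | h
    · left
      have ha2 : a * a = 1 := by rw [← pow_two, ← hord a ha, pow_orderOf_eq_one]
      have hb2 : b * b = 1 := by rw [← pow_two, ← hord b hb, pow_orderOf_eq_one]
      rw [pow_two]
      calc a * b * (a * b) = a * (b * a) * b := by simp only [mul_assoc]
        _ = a * (a * b) * b := by rw [h]
        _ = (a * a) * (b * b) := by simp only [mul_assoc]
        _ = 1 := by rw [ha2, hb2, mul_one]
    · exact Or.inr h
  · have hN : (Subgroup.closure (conjugatesOf d)).Normal := by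
      constructor
      intro n hn g
      induction hn using Subgroup.closure_induction with
      | mem x hx =>
        apply Subgroup.subset_closure
        exact IsConj.trans (show IsConj d x from hx) (isConj_iff.2 ⟨g, rfl⟩)
      | one => simp
      | mul x y _ _ hx hy =>
        have : g * (x * y) * g⁻¹ = (g * x * g⁻¹) * (g * y * g⁻¹) := by group
        rw [this]; exact mul_mem hx hy
      | inv x _ hx =>
        have : g * x⁻¹ * g⁻¹ = (g * x * g⁻¹)⁻¹ := by group
        rw [this]; exact inv_mem hx
    rcases hs.eq_bot_or_eq_top_of_normal _ hN with h | h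
    · exfalso
      have h1 : d ∈ Subgroup.closure (conjugatesOf d) :=
        Subgroup.subset_closure mem_conjugatesOf_self
      rw [h, Subgroup.mem_bot] at h1
      rw [h1, orderOf_one] at hd
      omega
    · exact h

omit [Finite G] hq hd hnwc in
theorem center_eq : Subgroup.center (Subgroup.centralizer ({d} : Set G)) =
    (Subgroup.zpowers d).subgroupOf (Subgroup.centralizer ({d} : Set G)) := by
  set C := Subgroup.centralizer ({d} : Set G) with hC
  set Z := (Subgroup.zpowers d).subgroupOf C with hZ
  have hle : Z ≤ Subgroup.center C := by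
    intro z hz
    rw [Subgroup.mem_center_iff]
    intro g
    apply Subtype.ext
    obtain ⟨k, hk⟩ := Subgroup.mem_subgroupOf.1 hz
    have hk' : d ^ k = (z : G) := hk
    have h1 : Commute (g : G) d := Subgroup.mem_centralizer_singleton_iff.1 g.2
    show (g : G) * (z : G) = (z : G) * g
    rw [← hk']
    exact (h1.zpow_right k).eq
  refine le_antisymm ?_ hle
  obtain ⟨hs, a, b, hab⟩ := Cfsg.Agent.H831.USix.psu_simple hK
  have hsC : IsSimpleGroup (C ⧸ Z) := e.isSimpleGroup
  -- the image of the centre
  have h1 : ((Subgroup.center C).map (QuotientGroup.mk' Z)).Normal :=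
    Subgroup.Normal.map inferInstance _ (QuotientGroup.mk'_surjective _)
  rcases hsC.eq_bot_or_eq_top_of_normal _ h1 with h2 | h2
  · intro z hz
    have h3 : QuotientGroup.mk' Z z ∈ (Subgroup.center C).map (QuotientGroup.mk' Z) := ⟨z, hz, rfl⟩
    rw [h2, Subgroup.mem_bot] at h3
    exact (QuotientGroup.eq_one_iff z).1 h3
  · exfalso
    apply hab
    have h3 : ∀ u v : C ⧸ Z, u * v = v * u := by
      intro u v
      have hu : u ∈ (Subgroup.center C).map (QuotientGroup.mk' Z) := by rw [h2]; trivial
      obtain ⟨u', hu', rfl⟩ := hu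
      obtain ⟨v', rfl⟩ := QuotientGroup.mk'_surjective Z v
      rw [← map_mul, ← map_mul, Subgroup.mem_center_iff.1 hu' v']
    have h4 := congrArg e (h3 (e.symm a) (e.symm b))
    rwa [map_mul, map_mul, e.apply_symm_apply, e.apply_symm_apply] at h4

theorem HH_eq : HH (conjugatesOf d) d = Subgroup.centralizer ({d} : Set G) := by
  set C := Subgroup.centralizer ({d} : Set G) with hC
  set D := conjugatesOf d with hD
  have hcls := isClass d hd hq K hK e hnwc
  have fd := Cfsg.Agent.SporadicStructure.FischerSpace.fdata_of_class hcls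
  have hle : HH D d ≤ C := by
    intro g hg
    exact Subgroup.mem_centralizer_singleton_iff.2
      (Cfsg.Agent.Fischer160.Inherit.commute_of_mem_HH hg).eq
  have hN : ((HH D d).subgroupOf C).Normal := by
    constructor
    intro n hn g
    rw [Subgroup.mem_subgroupOf] at hn ⊢
    have key : ∀ m ∈ HH D d, (g : G) * m * (g : G)⁻¹ ∈ HH D d := by
      intro m hm
      induction hm using Subgroup.closure_induction with
      | mem x hx =>
        apply Subgroup.subset_closure
        exact Cfsg.Agent.Fischer160.Inherit.cj_mem_Dx fd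
          (show Commute (g : G) d from Subgroup.mem_centralizer_singleton_iff.1 g.2) hx
      | one => simp
      | mul x y _ _ hx hy =>
        have : (g : G) * (x * y) * (g : G)⁻¹ = (g * x * (g : G)⁻¹) * (g * y * (g : G)⁻¹) := by
          group
        rw [this]; exact mul_mem hx hy
      | inv x _ hx =>
        have : (g : G) * x⁻¹ * (g : G)⁻¹ = (g * x * (g : G)⁻¹)⁻¹ := by group
        rw [this]; exact inv_mem hx
    exact key _ hn
  rcases Cfsg.Agent.SignalizersComponents.LayerBasic.quasisimple_normal hq _ hN with h1 | h1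
  · apply le_antisymm hle
    intro g hg
    have h2 : (⟨g, hg⟩ : C) ∈ (HH D d).subgroupOf C := by rw [h1]; trivial
    exact h2
  · exfalso
    obtain ⟨g, hg, hgd⟩ := hnwc
    have hgD : g * d * g⁻¹ ∈ D := isConj_iff.2 ⟨g, rfl⟩
    have hc : Commute d (g * d * g⁻¹) :=
      (show Commute (g * d * g⁻¹) d from Subgroup.mem_centralizer_singleton_iff.1 hg).symm
    have h2 : (⟨g * d * g⁻¹, hg⟩ : C) ∈ (HH D d).subgroupOf C :=
      Cfsg.Agent.Fischer160.Inherit.mem_HH_of ⟨hgD, hgd, hc⟩
    have h3 := h1 h2
    rw [center_eq d K hK e, Subgroup.mem_subgroupOf] at h3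
    obtain ⟨k, hk⟩ := h3
    have hk' : d ^ k = g * d * g⁻¹ := hk
    have hdd : d * d = 1 := by rw [← pow_two, ← hd, pow_orderOf_eq_one]
    rcases Int.even_or_odd' k with ⟨m, rfl | rfl⟩
    · rw [zpow_mul, zpow_ofNat, pow_two, hdd, one_zpow] at hk'
      exact fd.ne_one _ hgD hk'.symm
    · rw [zpow_add, zpow_mul, zpow_ofNat, pow_two, hdd, one_zpow, one_mul, zpow_one] at hk'
      exact hgd hk'.symm

/-- the quotient of `⟨D_d⟩` by its centre -/
theorem iso_KK : Nonempty (KK (conjugatesOf d) d ≃* PSU 6 K 2) := by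
  have h1 := HH_eq d hd hq K hK e hnwc
  have h2 := center_eq d K hK e
  set C := Subgroup.centralizer ({d} : Set G) with hC
  have key : ∀ H : Subgroup G, H = C → Nonempty ((H ⧸ Subgroup.center H) ≃* PSU 6 K 2) := by
    rintro H rfl
    exact ⟨(QuotientGroup.quotientMulEquivOfEq h2).trans e⟩
  exact key _ h1

theorem fgroup : Cfsg.Agent.Fischer160.Inherit.FGroup (conjugatesOf d) := by
  have hcls := isClass d hd hq K hK e hnwc
  haveI hs := simple d hd hq K hK e hnwc
  have fd := Cfsg.Agent.SporadicStructure.FischerSpace.fdata_of_class hcls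
  obtain ⟨f⟩ := iso_KK d hd hq K hK e hnwc
  obtain ⟨-, a, b, hab⟩ := Cfsg.Agent.H831.USix.psu_simple hK
  have hns : ¬ Group.IsSolvable G := by
    intro hsol
    have hns2 : ¬ Group.IsSolvable (PSU 6 K 2) := by
      intro h
      obtain ⟨hs', -⟩ := Cfsg.Agent.H831.USix.psu_simple hK
      haveI := hs'
      apply hab
      exact IsSimpleGroup.comm_iff_isSolvable.2 h a b
    apply hns2
    haveI := hsol
    haveI : Group.IsSolvable (KK (conjugatesOf d) d) := inferInstance
    exact Group.isSolvable_of_surjective (f := f.toMonoidHom) f.surjective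
  have hperf : commutator G = ⊤ := by
    rcases hs.eq_bot_or_eq_top_of_normal (commutator G) inferInstance with h | h
    · exact absurd ⟨1, by rw [derivedSeries_one]; exact h⟩ hns
    · exact h
  refine ⟨fd, ?_, ?_⟩
  · intro N hN hsol
    rcases hs.eq_bot_or_eq_top_of_normal N hN with h | h
    · exact h
    · exfalso
      apply hns
      subst h
      haveI := hsol
      exact Group.isSolvable_of_surjective (f := (Subgroup.topEquiv (G := G)).toMonoidHom)
        Subgroup.topEquiv.surjective
  · rw [hperf, ← commutator_def, hperf]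

/-- **type `T6`** -/
theorem isT6 : Cfsg.Agent.Fischer480.Defs.IsT6 (conjugatesOf d) := by
  have F := fgroup d hd hq K hK e hnwc
  have hdD : d ∈ conjugatesOf d := mem_conjugatesOf_self
  obtain ⟨f⟩ := iso_KK d hd hq K hK e hnwc
  obtain ⟨-, -, hG⟩ := three d hd hq K hK e hnwc
  obtain ⟨hs', a, b, hab⟩ := Cfsg.Agent.H831.USix.psu_simple hK
  have h4 : ∀ N : Subgroup (KK (conjugatesOf d) d), N.Normal → Group.IsSolvable N → N = ⊥ := by
    haveI := hs'
    exact Cfsg.Agent.H831.NoSol.no_sol_equiv f (Cfsg.Agent.H831.NoSol.simple_no_sol ⟨a, b, hab⟩)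
  obtain ⟨ht, hI, hiso⟩ := Cfsg.Agent.H831.Types.step F hdD (by rw [hG]; norm_num) h4
  haveI hsK : IsSimpleGroup (KK (conjugatesOf d) d) := by
    haveI := hs'
    exact f.isSimpleGroup
  have hcardK : Nat.card (KK (conjugatesOf d) d) = 9196830720 := by
    rw [Nat.card_congr f.toEquiv, Cfsg.Agent.R01.Assembly.card_PSU (by rw [hK]; norm_num)]
  have hU : Cfsg.Agent.Fischer480.Defs.IsU 6 (Eb (conjugatesOf d) d) := by
    refine Cfsg.Agent.H831.USix.isU_six ⟨f.symm a, f.symm b, ?_⟩ hcardK
      (Cfsg.Agent.Fischer160.Inherit.isThree_of_fdata hI.fd)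
    intro h
    apply hab
    have := congrArg f h
    simpa using this
  have hall : ∀ x ∈ conjugatesOf d, Cfsg.Agent.Fischer480.Defs.IsU 6
      (Cfsg.Agent.Fischer480.Defs.Loc (conjugatesOf d) x) := fun x hx =>
    Cfsg.Agent.Fischer480.Transport.isU
      (Cfsg.Agent.Fischer480.Transport.CIso.trans (Cfsg.Agent.H831.Types.loc_all F hdD hx) hiso) hU
  obtain ⟨k1, k2⟩ := Cfsg.Agent.S0480U.CaseD.caseSix (Cfsg.Agent.H831.Types.defs_of_inh F) hall
  exact ⟨k1, hall, k2⟩

end Cfsg.Agent.H810.Cen22
end

-- part: S5377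
section
set_option autoImplicit false
open Cfsg

namespace Cfsg.Agent.S5377

/-- Let G be a finite group with an involution d whose centralizer C is quasisimple with C modulo the subgroup generated by d isomorphic to the projective special unitary group of dimension 6 over the field with four elements, and suppose some conjugate of d other than d commutes with d. Then the conjugacy class of d is a class of 3-transpositions generating G, and G with this class is of type M(22). -/
theorem result {G : Type*} [Group G] [Finite G] (d : G) (hd : orderOf d = 2) (hq : Cfsg.IsQuasisimple (Subgroup.centralizer ({d} : Set G))) [((Subgroup.zpowers d).subgroupOf (Subgroup.centralizer ({d} : Set G))).Normal] (K : Type) [Field K] [Fintype K] (hK : Fintype.card K = 4) (e : (Subgroup.centralizer ({d} : Set G)) ⧸ (Subgroup.zpowers d).subgroupOf (Subgroup.centralizer ({d} : Set G)) ≃* Cfsg.PSU 6 K 2) (hnwc : ∃ g : G, g * d * g⁻¹ ∈ Subgroup.centralizer ({d} : Set G) ∧ g * d * g⁻¹ ≠ d) : Cfsg.IsThreeTranspositionClass (conjugatesOf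 d) ∧ Cfsg.IsOfTypeM22 G (conjugatesOf d) := by
  exact ⟨Cfsg.Agent.H810.Cen22.isClass d hd hq K hK e hnwc,
    Cfsg.Agent.H830.TypeConv.isOfTypeM22
      (Cfsg.Agent.H831.Types.defs_of_inh (Cfsg.Agent.H810.Cen22.fgroup d hd hq K hK e hnwc))
      (Cfsg.Agent.H810.Cen22.isT6 d hd hq K hK e hnwc)⟩

end Cfsg.Agent.S5377
end
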