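import Cfsg.Agent.SporRec.SuzCl.Inv
import Cfsg.Agent.SporRec.ClosingZStar
import Cfsg.Statements.S5379
import Cfsg.Agent.S1719
import Cfsg.Agent.FastGrp
import Cfsg.Agent.Prune
set_option linter.all false
open scoped Cfsg.Agent.FastGrp

-- part: H811/SuzInv
section
/-!
# A group isomorphic to `Suz` has exactly two classes of involutions
-/

set_option autoImplicit false
open Cfsg

namespace Cfsg.Agent.H811.SuzInv

open Cfsg.Agent.SporRec

theorem isConj_equiv {G H : Type*} [Group G] [Group H] (e : G ≃* H) (x y : G) :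
    IsConj x y ↔ IsConj (e x) (e y) := by
  constructor
  · exact fun h => e.toMonoidHom.map_isConj h
  · intro h
    have := e.symm.toMonoidHom.map_isConj h
    simpa using this

/-- the isomorphism carries an involution `z` whose centralizer has order `3317760` to the class of `ia` -/
theorem isConj_ia {G : Type*} [Group G] [Finite G] (θ : G ≃* Cfsg.Spor.Suz) {z : G} (hz : orderOf z = 2)
    (hC : Nat.card (Subgroup.centralizer ({z} : Set G)) = 3317760) :
    IsConj SuzCl.ia (θ z) ∧ ¬ IsConj SuzCl.ie (θ z) := by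
  have hzz : θ z * θ z = 1 := by
    rw [← map_mul, ← pow_two, ← hz, pow_orderOf_eq_one, map_one]
  have hz1 : θ z ≠ 1 := by
    intro h
    rw [map_eq_one_iff θ θ.injective] at h
    rw [h, orderOf_one] at hz
    omega
  have hn : ¬ IsConj SuzCl.ie (θ z) := by
    intro h
    obtain ⟨g, hg⟩ := isConj_iff.1 h
    have h7 : (7 : ℕ) ∣ Nat.card (Subgroup.centralizer ({z} : Set G)) := by
      set u : G := θ.symm (g * SuzCl.u7 * g⁻¹) with hu
      have hθu : θ u = g * SuzCl.u7 * g⁻¹ := by rw [hu, MulEquiv.apply_symm_apply]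
      have hmem : u ∈ Subgroup.centralizer ({z} : Set G) := by
        rw [Subgroup.mem_centralizer_singleton_iff]
        apply θ.injective
        rw [map_mul, map_mul, hθu, ← hg]
        calc g * SuzCl.u7 * g⁻¹ * (g * SuzCl.ie * g⁻¹) = g * (SuzCl.u7 * SuzCl.ie) * g⁻¹ := by group
          _ = g * (SuzCl.ie * SuzCl.u7) * g⁻¹ := by rw [SuzCl.u7_comm]
          _ = g * SuzCl.ie * g⁻¹ * (g * SuzCl.u7 * g⁻¹) := by group
      have ho : orderOf u = 7 := by
        have h1 : orderOf (θ u) = orderOf u := orderOf_injective θ.toMonoidHom θ.injective u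
        have h2 : orderOf (MulAut.conj g SuzCl.u7) = orderOf SuzCl.u7 :=
          orderOf_injective (MulAut.conj g).toMonoidHom (MulAut.conj g).injective _
        rw [← h1, hθu, ← MulAut.conj_apply, h2, SuzCl.orderOf_u7]
      have h3 := orderOf_dvd_natCard (⟨u, hmem⟩ : Subgroup.centralizer ({z} : Set G))
      rwa [Subgroup.orderOf_mk, ho] at h3
    rw [hC] at h7
    revert h7
    decide
  refine ⟨?_, hn⟩
  rcases SuzCl.two (θ z) hzz hz1 with ⟨g, hg⟩ | ⟨g, hg⟩
  · exact isConj_iff.2 ⟨g, hg⟩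
  · exact absurd (isConj_iff.2 ⟨g, hg⟩) hn

theorem two_classes {G : Type*} [Group G] [Finite G] (h : Spor.IsoSuz G) {z : G} (hz : orderOf z = 2)
    (hC : Nat.card (Subgroup.centralizer ({z} : Set G)) = 3317760) :
    ∃ a b : G, orderOf a = 2 ∧ orderOf b = 2 ∧ ¬ IsConj a b ∧
      ∀ x : G, orderOf x = 2 → IsConj x a ∨ IsConj x b := by
  obtain ⟨θ⟩ := h
  obtain ⟨h1, h2⟩ := isConj_ia θ hz hC
  have hie : orderOf (θ.symm SuzCl.ie) = 2 := by
    have h3 : orderOf (θ.symm SuzCl.ie) = orderOf SuzCl.ie :=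
      orderOf_injective θ.symm.toMonoidHom θ.symm.injective _
    rw [h3]
    apply orderOf_eq_prime
    · rw [pow_two]; exact SuzCl.ee
    · exact SuzCl.e_ne
  refine ⟨z, θ.symm SuzCl.ie, hz, hie, ?_, ?_⟩
  · rw [isConj_equiv θ, MulEquiv.apply_symm_apply]
    exact fun h => h2 h.symm
  · intro x hx
    have hxx : θ x * θ x = 1 := by
      rw [← map_mul, ← pow_two, ← hx, pow_orderOf_eq_one, map_one]
    have hx1 : θ x ≠ 1 := by
      intro h
      rw [map_eq_one_iff θ θ.injective] at h
      rw [h, orderOf_one] at hx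
      omega
    rcases SuzCl.two (θ x) hxx hx1 with ⟨g, hg⟩ | ⟨g, hg⟩
    · left
      rw [isConj_equiv θ]
      exact (isConj_iff.2 ⟨g, hg⟩ : IsConj SuzCl.ia (θ x)).symm.trans h1
    · right
      rw [isConj_equiv θ, MulEquiv.apply_symm_apply]
      exact (isConj_iff.2 ⟨g, hg⟩ : IsConj SuzCl.ie (θ x)).symm

end Cfsg.Agent.H811.SuzInv
end

-- part: S5379
section
set_option autoImplicit false
open Cfsg

namespace Cfsg.Agent.S5379

/-- Let G be a finite group of Suzuki sporadic type: it has an involution z whose centralizer C has generalized Fitting subgroup Q extraspecial of order 2^7 with C/Q isomorphic to the commutator subgroup of the isometry group of the elliptic quadratic form in dimension 6 over the field with two elements, and some conjugate of z other than z lies in Q. Then G has exactly two conjugacy classes of involutions. -/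
theorem result {G : Type*} [Group G] [Finite G] (z : G) (hz : orderOf z = 2) (Q : Subgroup (Subgroup.centralizer ({z} : Set G))) [Q.Normal] (hF : Cfsg.generalizedFittingSubgroup (Subgroup.centralizer ({z} : Set G)) = Q) (hQ : Cfsg.IsExtraspecial 2 Q) (hcard : Nat.card Q = 2 ^ 7) (e : (Subgroup.centralizer ({z} : Set G)) ⧸ Q ≃* Cfsg.Omega (ZMod 2) (Cfsg.quadFormMinus 2 (ZMod 2) 1 1)) (hnwc : ∃ g : G, (∃ hq : g * z * g⁻¹ ∈ Subgroup.centralizer ({z} : Set G), (⟨g * z * g⁻¹, hq⟩ : Subgroup.centralizer ({z} : Set G)) ∈ Q) ∧ g * z * g⁻¹ ≠ z) : ∃ a b : G, orderOf a = 2 ∧ orderOf b = 2 ∧ ¬ IsConj a b ∧ ∀ x : G, orderOf x = 2 → IsConj x a ∨ IsConj x b := by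
  exact Cfsg.Agent.H811.SuzInv.two_classes (Cfsg.Agent.S1719.result z hz Q hF hQ hcard e hnwc) hz
    (Cfsg.Agent.LargeExtra.SuzHyp.of_statement z hz Q hF hQ hcard e).card

end Cfsg.Agent.S5379
end
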