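import Cfsg.Agent.J2Type.Setup
import Cfsg.Agent.J2Type.ThreeA
import Cfsg.Agent.TwoFusion.QuatSolvable
import Cfsg.Agent.Lib.Cores
import Cfsg.Statements.S5382
set_option linter.all false

-- part: H379/J2CentU
section
/-!
# The centralizer of a non-2-central involution in a group of Hall–Janko type

`Dec t d V H`: `C(t) = V × H` with `V` a four-group and `H ≅ A₅`, and `d` of order 3 normalizes `V` and
centralizes `H`.  Then `C(t) ≅ 2² × A₅` and `N(O₂(C(t))) ≅ A₄ × A₅`.
-/

set_option autoImplicit false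

namespace Cfsg.Agent.H379.J2CentU

open Subgroup Cfsg.Agent.J2Type.Base

/-- `C(t) = V × H`, `d` of order 3 normalizes `V` and centralizes `H`. -/
structure Dec {G : Type*} [Group G] (t d : G) (V H : Subgroup G) : Prop where
  tV : t ∈ V
  t1 : t ≠ 1
  cV : Nat.card V = 4
  sq : ∀ x ∈ V, x * x = 1
  eH : Nonempty (H ≃* alternatingGroup (Fin 5))
  comm : ∀ a ∈ V, ∀ b ∈ H, a * b = b * a
  disj : ∀ x ∈ V, x ∈ H → x = 1
  dec : ∀ x, x * t = t * x → ∃ a ∈ V, ∃ b ∈ H, x = a * b
  dV : ∀ v ∈ V, d * v * d⁻¹ ∈ V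
  dH : ∀ x ∈ H, d * x = x * d
  d3 : orderOf d = 3

theorem mem_map_conj {G : Type*} [Group G] {c x : G} {V : Subgroup G} :
    x ∈ V.map (MulAut.conj c).toMonoidHom ↔ c⁻¹ * x * c ∈ V := by
  constructor
  · rintro ⟨y, hy, rfl⟩
    have : c⁻¹ * (MulAut.conj c).toMonoidHom y * c = y := by
      show c⁻¹ * (c * y * c⁻¹) * c = y
      group
    rwa [this]
  · intro h
    refine ⟨c⁻¹ * x * c, h, ?_⟩
    show c * (c⁻¹ * x * c) * c⁻¹ = x
    group

/-- Transport by conjugation. -/
theorem Dec.conj {G : Type*} [Group G] {t d : G} {V H : Subgroup G} (D : Dec t d V H) (c : G) :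
    Dec (c * t * c⁻¹) (c * d * c⁻¹) (V.map (MulAut.conj c).toMonoidHom) (H.map (MulAut.conj c).toMonoidHom) where
  tV := mem_map_conj.2 (by
    have : c⁻¹ * (c * t * c⁻¹) * c = t := by group
    rw [this]; exact D.tV)
  t1 := by
    intro h
    apply D.t1
    have : t = c⁻¹ * (c * t * c⁻¹) * c := by group
    rw [this, h]; group
  cV := by
    rw [← D.cV]
    exact Nat.card_congr (V.equivMapOfInjective _ (MulAut.conj c).injective).toEquiv.symm
  sq := by
    intro x hx
    have h := D.sq _ (mem_map_conj.1 hx)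
    calc x * x = c * (c⁻¹ * x * c * (c⁻¹ * x * c)) * c⁻¹ := by group
      _ = 1 := by rw [h]; group
  eH := by
    obtain ⟨e⟩ := D.eH
    exact ⟨(H.equivMapOfInjective _ (MulAut.conj c).injective).symm.trans e⟩
  comm := by
    intro a ha b hb
    have h := D.comm _ (mem_map_conj.1 ha) _ (mem_map_conj.1 hb)
    calc a * b = c * (c⁻¹ * a * c * (c⁻¹ * b * c)) * c⁻¹ := by group
      _ = c * (c⁻¹ * b * c * (c⁻¹ * a * c)) * c⁻¹ := by rw [h]
      _ = b * a := by group
  disj := by
    intro x hx hx'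
    have h := D.disj _ (mem_map_conj.1 hx) (mem_map_conj.1 hx')
    calc x = c * (c⁻¹ * x * c) * c⁻¹ := by group
      _ = 1 := by rw [h]; group
  dec := by
    intro x hx
    have h1 : (c⁻¹ * x * c) * t = t * (c⁻¹ * x * c) := by
      calc (c⁻¹ * x * c) * t = c⁻¹ * (x * (c * t * c⁻¹)) * c := by group
        _ = c⁻¹ * ((c * t * c⁻¹) * x) * c := by rw [hx]
        _ = t * (c⁻¹ * x * c) := by group
    obtain ⟨a, ha, b, hb, h2⟩ := D.dec _ h1
    refine ⟨c * a * c⁻¹, mem_map_conj.2 ?_, c * b * c⁻¹, mem_map_conj.2 ?_, ?_⟩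
    · have : c⁻¹ * (c * a * c⁻¹) * c = a := by group
      rwa [this]
    · have : c⁻¹ * (c * b * c⁻¹) * c = b := by group
      rwa [this]
    · calc x = c * (c⁻¹ * x * c) * c⁻¹ := by group
        _ = c * (a * b) * c⁻¹ := by rw [h2]
        _ = _ := by group
  dV := by
    intro v hv
    have h := D.dV _ (mem_map_conj.1 hv)
    apply mem_map_conj.2
    have : c⁻¹ * (c * d * c⁻¹ * v * (c * d * c⁻¹)⁻¹) * c = d * (c⁻¹ * v * c) * d⁻¹ := by group
    rwa [this]
  dH := by
    intro x hx
    have h := D.dH _ (mem_map_conj.1 hx)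
    calc c * d * c⁻¹ * x = c * (d * (c⁻¹ * x * c)) * c⁻¹ := by group
      _ = c * ((c⁻¹ * x * c) * d) * c⁻¹ := by rw [h]
      _ = x * (c * d * c⁻¹) := by group
  d3 := by rw [← D.d3]; exact (MulAut.conj c).orderOf_eq d

/-- Internal direct products. -/
theorem prod_equiv {G : Type*} [Group G] {N A B : Subgroup G} (hA : A ≤ N) (hB : B ≤ N)
    (comm : ∀ a ∈ A, ∀ b ∈ B, a * b = b * a) (disj : ∀ x ∈ A, x ∈ B → x = 1)
    (dec : ∀ x ∈ N, ∃ a ∈ A, ∃ b ∈ B, x = a * b) : Nonempty (N ≃* A × B) := by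
  let f : A × B →* N := MonoidHom.noncommCoprod (inclusion hA) (inclusion hB)
    (fun a b => Subtype.ext (comm a a.2 b b.2))
  have hf : ∀ p : A × B, ((f p : N) : G) = p.1 * p.2 := fun p => rfl
  have hb : Function.Bijective f := by
    constructor
    · rw [injective_iff_map_eq_one]
      rintro ⟨a, b⟩ h
      have h1 : (a : G) * b = 1 := congrArg Subtype.val h
      have h2 : (a : G) = (b : G)⁻¹ := eq_inv_of_mul_eq_one_left h1
      have h3 : (a : G) = 1 := disj a a.2 (by rw [h2]; exact inv_mem b.2)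
      have h4 : (b : G) = 1 := by rw [h3, one_mul] at h1; exact h1
      exact Prod.ext (Subtype.ext h3) (Subtype.ext h4)
    · rintro ⟨x, hx⟩
      obtain ⟨a, ha, b, hb, h⟩ := dec x hx
      exact ⟨(⟨a, ha⟩, ⟨b, hb⟩), Subtype.ext h.symm⟩
  exact ⟨(MulEquiv.ofBijective f hb).symm⟩

section

variable {G : Type*} [Group G] [Finite G] {t d : G} {V H : Subgroup G} (D : Dec t d V H)

include D

omit [Finite G] in
theorem commV {x y : G} (hx : x ∈ V) (hy : y ∈ V) : x * y = y * x := by
  have h1 := D.sq _ (mul_mem hx hy)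
  have h2 := D.sq x hx
  have h3 := D.sq y hy
  calc x * y = (x * y) * ((x * y) * (x * y)) := by rw [h1, mul_one]
    _ = 1 * (x * y) := by rw [← mul_assoc, h1]
    _ = (y * y) * (x * y) * (x * x) := by rw [h2, h3]; group
    _ = y * ((y * x) * (y * x)) * x := by group
    _ = y * 1 * x := by rw [D.sq _ (mul_mem hy hx)]
    _ = y * x := by group

omit [Finite G] in
theorem V_le : V ≤ centralizer ({t} : Set G) :=
  fun _ hx => mem_centralizer_singleton_iff.2 (commV D hx D.tV)

omit [Finite G] in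
theorem H_le : H ≤ centralizer ({t} : Set G) :=
  fun _ hx => mem_centralizer_singleton_iff.2 (D.comm _ D.tV _ hx).symm

omit [Finite G] in
theorem equiv_cent : Nonempty (centralizer ({t} : Set G) ≃* V × H) :=
  prod_equiv (V_le D) (H_le D) D.comm D.disj fun x hx => D.dec x (mem_centralizer_singleton_iff.1 hx)

omit [Finite G] in
theorem V_klein : IsKleinFour V where
  card_four := D.cV
  exponent_two := by
    have h1 : ∀ x : V, x ^ 2 = 1 := fun x => Subtype.ext (by rw [pow_two]; exact D.sq x x.2)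
    have h2 : Monoid.exponent V ∣ 2 := Monoid.exponent_dvd_of_forall_pow_eq_one h1
    rcases (Nat.dvd_prime Nat.prime_two).1 h2 with h | h
    · exfalso
      rw [Monoid.exp_eq_one_iff] at h
      have := Nat.card_of_subsingleton (1 : V)
      rw [D.cV] at this
      omega
    · exact h

omit [Finite G] in
/-- The centre of `H` is trivial. -/
theorem center_H {x : G} (hx : x ∈ H) (h : ∀ y ∈ H, x * y = y * x) : x = 1 := by
  obtain ⟨e⟩ := D.eH
  have key : ∀ g : alternatingGroup (Fin 5), (∀ k : alternatingGroup (Fin 5), g * k = k * g) → g = 1 := by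
    decide +kernel
  have h1 := key (e ⟨x, hx⟩) (by
    intro k
    obtain ⟨y, rfl⟩ := e.surjective k
    rw [← map_mul, ← map_mul]
    congr 1
    exact Subtype.ext (h y y.2))
  have h2 : (⟨x, hx⟩ : H) = 1 := by rwa [map_eq_one_iff e e.injective] at h1
  exact congrArg Subtype.val h2

omit [Finite G] in
/-- `d` does not centralize `t`. -/
theorem d_not_comm : d * t ≠ t * d := by
  intro h
  obtain ⟨a, ha, b, hb, hab⟩ := D.dec d h
  have hb1 : b = 1 := by
    apply center_H D hb
    intro y hy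
    have h1 := D.dH y hy
    have h2 := D.comm a ha y hy
    have h3 : b = a⁻¹ * d := by rw [hab]; group
    calc b * y = a⁻¹ * (d * y) := by rw [h3]; group
      _ = a⁻¹ * (y * d) := by rw [h1]
      _ = a⁻¹ * (y * a) * b := by rw [hab]; group
      _ = y * b := by rw [← h2]; group
  rw [hb1, mul_one] at hab
  have h4 : d ^ 2 = 1 := by rw [pow_two, hab]; exact D.sq a ha
  have h5 := orderOf_dvd_of_pow_eq_one h4
  rw [D.d3] at h5
  revert h5; decide

omit [Finite G] in
theorem d_cube : d * d * d = 1 := by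
  have h := pow_orderOf_eq_one d
  rw [D.d3, pow_succ, pow_two] at h
  exact h

omit [Finite G] in
theorem conj_sq (v : G) : d * (d * v * d⁻¹) * d⁻¹ = d⁻¹ * v * d := by
  have h3 := d_cube D
  have h4 : d * d = d⁻¹ := eq_inv_of_mul_eq_one_left h3
  calc d * (d * v * d⁻¹) * d⁻¹ = (d * d) * v * (d * d)⁻¹ := by group
    _ = d⁻¹ * v * d := by rw [h4, inv_inv]

omit [Finite G] in
theorem d_inv_mem {v : G} (hv : v ∈ V) : d⁻¹ * v * d ∈ V := by
  rw [← conj_sq D]
  exact D.dV _ (D.dV v hv)

omit [Finite G] in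
/-- The involutions of `V` are `t`, `d t d⁻¹`, `d⁻¹ t d`. -/
theorem V_cases {x : G} (hx : x ∈ V) : x = 1 ∨ x = t ∨ x = d * t * d⁻¹ ∨ x = d⁻¹ * t * d := by
  have hne1 : t ≠ d * t * d⁻¹ := by
    intro h
    apply d_not_comm D
    calc d * t = (d * t * d⁻¹) * d := by group
      _ = t * d := by rw [← h]
  have hne2 : t ≠ d⁻¹ * t * d := by
    intro h
    apply d_not_comm D
    calc d * t = d * (d⁻¹ * t * d) := by rw [← h]
      _ = t * d := by group
  have hne3 : d * t * d⁻¹ ≠ d⁻¹ * t * d := by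
    intro h
    apply hne1
    have h5 := conj_sq D t
    have h4 : d * (d * t * d⁻¹) * d⁻¹ = t := by rw [h]; group
    rw [h5] at h4
    rw [h, h4]
  have hfin : Finite V := Nat.finite_of_card_ne_zero (by rw [D.cV]; norm_num)
  have hd1 : d * t * d⁻¹ ∈ V := D.dV t D.tV
  have hd2 : d⁻¹ * t * d ∈ V := d_inv_mem D D.tV
  have hone1 : d * t * d⁻¹ ≠ 1 := by
    intro h; apply D.t1
    calc t = d⁻¹ * (d * t * d⁻¹) * d := by group
      _ = 1 := by rw [h]; group
  have hone2 : d⁻¹ * t * d ≠ 1 := by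
    intro h; apply D.t1
    calc t = d * (d⁻¹ * t * d) * d⁻¹ := by group
      _ = 1 := by rw [h]; group
  have hS : ({1, t, d * t * d⁻¹, d⁻¹ * t * d} : Set G) = (V : Set G) := by
    apply Set.eq_of_subset_of_ncard_le
    · rintro y (rfl | rfl | rfl | rfl)
      exacts [one_mem _, D.tV, hd1, hd2]
    · have h1 : (V : Set G).ncard = 4 := D.cV
      have h2 : ({d * t * d⁻¹, d⁻¹ * t * d} : Set G).ncard = 2 := Set.ncard_pair hne3
      have h3 : ({t, d * t * d⁻¹, d⁻¹ * t * d} : Set G).ncard = 3 := by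
        rw [Set.ncard_insert_of_notMem _ (Set.toFinite _), h2]
        rintro (h | h)
        exacts [hne1 h, hne2 h]
      rw [h1, Set.ncard_insert_of_notMem _ (Set.toFinite _), h3]
      rintro (h | h | h)
      exacts [D.t1 h.symm, hone1 h.symm, hone2 h.symm]
    · exact Set.toFinite _
  have h : x ∈ ({1, t, d * t * d⁻¹, d⁻¹ * t * d} : Set G) := by rw [hS]; exact hx
  simpa using h

omit [Finite G] in
/-- Every element of `N(V)` is a power of `d` times an element of `V` times an element of `H`. -/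
theorem dec_N {x : G} (hx : x ∈ normalizer (V : Set G)) :
    ∃ y, (y = 1 ∨ y = d ∨ y = d⁻¹) ∧ ∃ a ∈ V, ∃ b ∈ H, x = y * a * b := by
  have h1 : x * t * x⁻¹ ∈ V := (mem_normalizer_iff.1 hx t).1 D.tV
  have key : ∀ y : G, x * t * x⁻¹ = y * t * y⁻¹ → ∃ a ∈ V, ∃ b ∈ H, x = y * a * b := by
    intro y h
    have h2 : (y⁻¹ * x) * t = t * (y⁻¹ * x) := by
      calc (y⁻¹ * x) * t = y⁻¹ * (x * t * x⁻¹) * x := by group
        _ = y⁻¹ * (y * t * y⁻¹) * x := by rw [h]
        _ = t * (y⁻¹ * x) := by group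
    obtain ⟨a, ha, b, hb, h3⟩ := D.dec _ h2
    refine ⟨a, ha, b, hb, ?_⟩
    calc x = y * (y⁻¹ * x) := by group
      _ = y * (a * b) := by rw [h3]
      _ = y * a * b := by group
  rcases V_cases D h1 with h | h | h | h
  · exfalso; apply D.t1
    calc t = x⁻¹ * (x * t * x⁻¹) * x := by group
      _ = 1 := by rw [h]; group
  · exact ⟨1, Or.inl rfl, key 1 (by rw [h]; group)⟩
  · exact ⟨d, Or.inr (Or.inl rfl), key d h⟩
  · exact ⟨d⁻¹, Or.inr (Or.inr rfl), key d⁻¹ (by rw [h]; group)⟩

/-- The subgroup `V⟨d⟩` as the elements of `N(V)` commuting with `H`. -/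
def W {G : Type*} [Group G] (V H : Subgroup G) : Subgroup G := normalizer (V : Set G) ⊓ centralizer (H : Set G)

omit [Finite G] in
omit D in
theorem W_le : W V H ≤ normalizer (V : Set G) := inf_le_left

omit [Finite G] in
theorem V_le_W : V ≤ W V H := by
  refine le_inf le_normalizer ?_
  intro a ha
  rw [mem_centralizer_iff]
  exact fun b hb => (D.comm a ha b hb).symm

omit [Finite G] in
theorem d_mem_N : d ∈ normalizer (V : Set G) := by
  rw [mem_normalizer_iff]
  intro v
  constructor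
  · exact D.dV v
  · intro h
    have := d_inv_mem D h
    have e : d⁻¹ * (d * v * d⁻¹) * d = v := by group
    rwa [e] at this

omit [Finite G] in
theorem d_mem_W : d ∈ W V H := by
  refine ⟨d_mem_N D, ?_⟩
  show d ∈ centralizer (H : Set G)
  rw [mem_centralizer_iff]
  exact fun b hb => (D.dH b hb).symm

omit [Finite G] in
theorem W_inf_H {x : G} (hx : x ∈ W V H) (hxH : x ∈ H) : x = 1 := by
  apply center_H D hxH
  intro y hy
  exact (mem_centralizer_iff.1 hx.2 y hy).symm

omit [Finite G] in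
theorem H_le_N : H ≤ normalizer (V : Set G) := by
  intro b hb
  rw [mem_normalizer_iff]
  have key : ∀ v ∈ V, ∀ b ∈ H, b * v * b⁻¹ = v := by
    intro v hv b hb
    rw [← D.comm v hv b hb]; group
  intro v
  constructor
  · intro hv; rw [key v hv b hb]; exact hv
  · intro h
    have h2 := key _ h _ (inv_mem hb)
    have e : b⁻¹ * (b * v * b⁻¹) * b⁻¹⁻¹ = v := by group
    rw [e] at h2
    rw [h2]; exact h

omit [Finite G] in
theorem equiv_N : Nonempty (normalizer (V : Set G) ≃* W V H × H) := by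
  apply prod_equiv W_le (H_le_N D)
  · intro a ha b hb
    exact (mem_centralizer_iff.1 ha.2 b hb).symm
  · exact fun x => W_inf_H D
  · intro x hx
    obtain ⟨y, hy, a, ha, b, hb, h⟩ := dec_N D hx
    refine ⟨y * a, mul_mem ?_ (V_le_W D ha), b, hb, h⟩
    rcases hy with rfl | rfl | rfl
    exacts [one_mem _, d_mem_W D, inv_mem (d_mem_W D)]

omit [Finite G] in
theorem dec_W {x : G} (hx : x ∈ W V H) : ∃ y, (y = 1 ∨ y = d ∨ y = d⁻¹) ∧ ∃ a ∈ V, x = y * a := by
  obtain ⟨y, hy, a, ha, b, hb, h⟩ := dec_N D (W_le hx)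
  have hyW : y ∈ W V H := by
    rcases hy with rfl | rfl | rfl
    exacts [one_mem _, d_mem_W D, inv_mem (d_mem_W D)]
  have h1 : b ∈ W V H := by
    have : b = (y * a)⁻¹ * x := by rw [h]; group
    rw [this]
    exact mul_mem (inv_mem (mul_mem hyW (V_le_W D ha))) hx
  have h2 := W_inf_H D h1 hb
  exact ⟨y, hy, a, ha, by rw [h, h2, mul_one]⟩

/-- `V⟨d⟩` is the alternating group of degree 4. -/
theorem equiv_W : Nonempty (W V H ≃* alternatingGroup (Fin 4)) := by
  have hn : (V.subgroupOf (W V H)).Normal := by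
    constructor
    intro n hn g
    exact (mem_normalizer_iff.1 (W_le g.2) n).1 hn
  have hV4 : Nat.card (V.subgroupOf (W V H)) = 4 := by
    rw [Nat.card_congr (subgroupOfEquivOfLe (V_le_W D)).toEquiv, D.cV]
  have hC : ∀ g : W V H, (∀ v ∈ V.subgroupOf (W V H), g * v = v * g) → g ∈ V.subgroupOf (W V H) := by
    intro g hg
    have h1 : (g : G) * t = t * g := congrArg Subtype.val (hg ⟨t, V_le_W D D.tV⟩ D.tV)
    obtain ⟨a, ha, b, hb, h⟩ := D.dec _ h1
    have h2 : b ∈ W V H := by
      have : b = a⁻¹ * g := by rw [h]; group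
      rw [this]
      exact mul_mem (inv_mem (V_le_W D ha)) g.2
    have h3 := W_inf_H D h2 hb
    rw [h3, mul_one] at h
    show (g : G) ∈ V
    rw [h]; exact ha
  have hcard : Nat.card (W V H) = 12 := by
    apply Nat.le_antisymm
    · let f : Fin 3 × V → W V H := fun p =>
        ⟨(![1, d, d⁻¹] p.1) * p.2, mul_mem (by
          have : ∀ i : Fin 3, (![1, d, d⁻¹] i) ∈ W V H := by
            intro i
            fin_cases i
            exacts [one_mem _, d_mem_W D, inv_mem (d_mem_W D)]
          exact this p.1) (V_le_W D p.2.2)⟩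
      have hf : Function.Surjective f := by
        rintro ⟨x, hx⟩
        obtain ⟨y, hy, a, ha, h⟩ := dec_W D hx
        rcases hy with rfl | rfl | rfl
        · exact ⟨(0, ⟨a, ha⟩), Subtype.ext h.symm⟩
        · exact ⟨(1, ⟨a, ha⟩), Subtype.ext h.symm⟩
        · exact ⟨(2, ⟨a, ha⟩), Subtype.ext h.symm⟩
      have h1 := Nat.card_le_card_of_surjective f hf
      have h3 : Nat.card (Fin 3) = 3 := by rw [Nat.card_eq_fintype_card, Fintype.card_fin]
      rw [Nat.card_prod, D.cV, h3] at h1
      exact h1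
    · have h1 : 4 ∣ Nat.card (W V H) := by rw [← hV4]; exact card_subgroup_dvd_card _
      have h2 : 3 ∣ Nat.card (W V H) := by
        rw [← D.d3]
        exact Subgroup.orderOf_dvd_natCard _ (d_mem_W D)
      have h3 : 4 * 3 ∣ Nat.card (W V H) := Nat.Coprime.mul_dvd_of_dvd_of_dvd (by decide) h1 h2
      exact Nat.le_of_dvd Nat.card_pos h3
  exact Cfsg.Agent.TwoFusion.QuatSolvable.equiv_A4 hcard (V.subgroupOf (W V H)) hV4
    (fun v hv => Subtype.ext (by rw [pow_two]; exact D.sq _ hv)) hC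

/-- `O₂(C(t)) = V`. -/
theorem pCore_eq : (Cfsg.pCore 2 (centralizer ({t} : Set G))).map (centralizer ({t} : Set G)).subtype = V := by
  have : Fact (Nat.Prime 2) := ⟨Nat.prime_two⟩
  set C := centralizer ({t} : Set G) with hC
  have hVn : (V.subgroupOf C).Normal := by
    constructor
    intro n hn g
    obtain ⟨a, ha, b, hb, h⟩ := D.dec g (mem_centralizer_singleton_iff.1 g.2)
    show (g : G) * n * (g : G)⁻¹ ∈ V
    rw [h]
    have h1 : (n : G) ∈ V := hn
    have h2 : a * b * n * (a * b)⁻¹ = n := by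
      calc a * b * n * (a * b)⁻¹ = a * (b * n) * b⁻¹ * a⁻¹ := by group
        _ = a * (n * b) * b⁻¹ * a⁻¹ := by rw [D.comm _ h1 b hb]
        _ = (a * n) * a⁻¹ := by group
        _ = (n * a) * a⁻¹ := by rw [commV D ha h1]
        _ = n := by group
    rw [h2]; exact h1
  have hV4 : Nat.card (V.subgroupOf C) = 2 ^ 2 := by
    rw [Nat.card_congr (subgroupOfEquivOfLe (V_le D)).toEquiv, D.cV]; norm_num
  have hVp : IsPGroup 2 (V.subgroupOf C) := IsPGroup.of_card hV4
  have hle : V.subgroupOf C ≤ Cfsg.pCore 2 C := by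
    rw [Cfsg.Agent.Lib.Cores.pCore_def]
    exact le_sSup ⟨hVn, hVp⟩
  have hn := Cfsg.Agent.Lib.Cores.pCore_normal (G := C) 2
  have hp := Cfsg.Agent.Lib.Cores.pCore_isPGroup (G := C) 2
  -- `O₂(C) ∩ H = 1`
  have hH : ∀ x : C, x ∈ Cfsg.pCore 2 C → (x : G) ∈ H → x = 1 := by
    obtain ⟨e⟩ := D.eH
    have hs : IsSimpleGroup H := e.isSimpleGroup
    let R : Subgroup H := (Cfsg.pCore 2 C).comap (inclusion (H_le D))
    have hR : R.Normal := hn.comap _
    have hRp : IsPGroup 2 R := hp.comap_of_injective _ (inclusion_injective (H_le D))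
    have hR1 : R = ⊥ := by
      rcases hs.eq_bot_or_eq_top_of_normal R hR with h | h
      · exact h
      · exfalso
        obtain ⟨n, h1⟩ := (IsPGroup.iff_card.1 hRp)
        rw [h, card_top, Nat.card_congr e.toEquiv] at h1
        have h60 : Nat.card (alternatingGroup (Fin 5)) = 60 := by
          have h5 := two_mul_nat_card_alternatingGroup (α := Fin 5)
          have h6 : Nat.card (Equiv.Perm (Fin 5)) = 120 := by
            rw [Nat.card_eq_fintype_card, Fintype.card_perm, Fintype.card_fin]; rfl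
          rw [h6] at h5
          omega
        rw [h60] at h1
        have h2 : 3 ∣ 2 ^ n := by rw [← h1]; norm_num
        have h3 := Nat.Prime.dvd_of_dvd_pow Nat.prime_three h2
        omega
    intro x hx hxH
    have h1 : (⟨x, hxH⟩ : H) ∈ R := hx
    rw [hR1, mem_bot] at h1
    have h2 : (x : G) = 1 := congrArg Subtype.val h1
    exact Subtype.ext h2
  apply le_antisymm
  · rintro _ ⟨x, hx, rfl⟩
    obtain ⟨a, ha, b, hb, h⟩ := D.dec x (mem_centralizer_singleton_iff.1 x.2)
    have h1 : (⟨a, V_le D ha⟩ : C)⁻¹ * x ∈ Cfsg.pCore 2 C := mul_mem (inv_mem (hle ha)) hx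
    have h2 : (((⟨a, V_le D ha⟩ : C)⁻¹ * x : C) : G) = b := by
      show a⁻¹ * (x : G) = b
      rw [h]; group
    have h3 := hH _ h1 (by rw [h2]; exact hb)
    have h4 : b = 1 := by rw [← h2, h3]; rfl
    show (x : G) ∈ V
    rw [h, h4, mul_one]; exact ha
  · intro v hv
    exact ⟨⟨v, V_le D hv⟩, hle hv, rfl⟩

end

end Cfsg.Agent.H379.J2CentU
end

-- part: S5382
section
set_option autoImplicit false
open Cfsg

namespace Cfsg.Agent.S5382

/-- Let G be a finite group of Hall–Janko type: it has more than one class of involutions and an involution z whose centralizer C has generalized Fitting subgroup Q extraspecial of order 32 with C/Q isomorphic to the commutator subgroup of the isometry group of the elliptic quadratic form in dimension 4 over the field with two elements (the alternating group of degree 5), with z not weakly closed in Q. Then for every involution t not conjugate to z, the centralizer of t is isomorphic to the direct product of an elementary abelian group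 of order 4 and the alternating group of degree 5, and the normalizer of the largest normal 2-subgroup of that centralizer is isomorphic to the direct product of the alternating groups of degrees 4 and 5. -/
theorem result {G : Type*} [Group G] [Finite G] (z : G) (hz : orderOf z = 2) (Q : Subgroup (Subgroup.centralizer ({z} : Set G))) [Q.Normal] (hF : Cfsg.generalizedFittingSubgroup (Subgroup.centralizer ({z} : Set G)) = Q) (hQ : Cfsg.IsExtraspecial 2 Q) (hcard : Nat.card Q = 2 ^ 5) (e : (Subgroup.centralizer ({z} : Set G)) ⧸ Q ≃* Cfsg.Omega (ZMod 2) (Cfsg.quadFormMinus 1 (ZMod 2) 1 1)) (hnwc : ∃ g : G, (∃ hq : g * z * g⁻¹ ∈ Subgroup.centralizer ({z} : Set G), (⟨g * z * g⁻¹, hq⟩ : Subgroup.centralizer ({z} : Set G)) ∈ Q) ∧ g * z * g⁻¹ ≠ z) (hcl : ∃ x y : G, orderOf x = 2 ∧ orderOf y = 2 ∧ ¬ IsConj x y) (t : G) (ht : orderOf t = 2) (htz : ¬ IsConj t z) : Nonempty (↥(Subgroup.centralizer ({t} : Set G)) ≃* (Multiplicative (ZMod 2) × Multiplicative (ZMod 2)) × alternatingGroup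 (Fin 5)) ∧ Nonempty (↥(Subgroup.normalizer (((Cfsg.pCore 2 ↥(Subgroup.centralizer ({t} : Set G))).map (Subgroup.subtype (Subgroup.centralizer ({t} : Set G))) : Subgroup G) : Set G)) ≃* alternatingGroup (Fin 4) × alternatingGroup (Fin 5)) := by
  obtain ⟨u, F⟩ := Cfsg.Agent.J2Type.Setup.fus_of_type z hz Q hF hQ hcard e hnwc hcl
  have htu : IsConj u t := (F.cover t ht).resolve_left fun h => htz h.symm
  obtain ⟨c, rfl⟩ := isConj_iff.1 htu
  obtain ⟨f, U, V, H0, Fu⟩ := Cfsg.Agent.J2Type.CentU.main F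
  obtain ⟨d, hd, hdV, hdH⟩ := Cfsg.Agent.J2Type.ThreeA.exists_d F Fu
  have h60 := Cfsg.Agent.J2Type.ThreeA.card_H0 F Fu
  have D : Cfsg.Agent.H379.J2CentU.Dec u d V H0 :=
    { tV := Fu.uV
      t1 := fun h => Fu.str.notMem (h ▸ one_mem _)
      cV := Fu.cardV
      sq := fun x hx => Cfsg.Agent.J2Type.Cent5.sq_V F Fu hx
      eH := Cfsg.Agent.J2Type.Cent5.exists_equiv F Fu h60
      comm := fun a ha b hb => Cfsg.Agent.J2Type.Cent5.V_comm F Fu h60 ha hb
      disj := fun x hx hx' => Cfsg.Agent.J2Type.Cent5.V_inf_H0 Fu hx hx'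
      dec := fun x hx => Cfsg.Agent.J2Type.Cent5.exists_mul Fu (Subgroup.mem_centralizer_singleton_iff.2 hx)
      dV := hdV
      dH := hdH
      d3 := hd }
  have D' := D.conj c
  constructor
  · obtain ⟨e1⟩ := Cfsg.Agent.H379.J2CentU.equiv_cent D'
    obtain ⟨e2⟩ := D'.eH
    have hk := Cfsg.Agent.H379.J2CentU.V_klein D'
    have hk2 : IsKleinFour (Multiplicative (ZMod 2) × Multiplicative (ZMod 2)) :=
      { card_four := by rw [Nat.card_prod]; simp
        exponent_two := by
          rw [Monoid.exponent_prod]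
          simp [Monoid.exponent_multiplicative] }
    obtain ⟨e3⟩ := IsKleinFour.nonempty_mulEquiv (G₁ := ↥(V.map (MulAut.conj c).toMonoidHom)) (G₂ := Multiplicative (ZMod 2) × Multiplicative (ZMod 2))
    exact ⟨e1.trans (e3.prodCongr e2)⟩
  · rw [Cfsg.Agent.H379.J2CentU.pCore_eq D']
    obtain ⟨e1⟩ := Cfsg.Agent.H379.J2CentU.equiv_N D'
    obtain ⟨e2⟩ := Cfsg.Agent.H379.J2CentU.equiv_W D'
    obtain ⟨e3⟩ := D'.eH
    exact ⟨e1.trans (e2.prodCongr e3)⟩

end Cfsg.Agent.S5382
end
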