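import Cfsg.Statements.S5387
import Cfsg.Agent.OddHalf.NI.Fibre
import Cfsg.Agent.OddHalf.D9.L34Mult.Mult
set_option linter.all false

set_option autoImplicit false
open Cfsg

namespace Cfsg.Agent.S5387

open Subgroup
open Cfsg.Agent.OddHalf.NI Cfsg.Agent.OddHalf.D9.L34Mult

/-- the centre of a simple quotient of a perfect group is trivial -/
theorem center_eq_bot {L X : Type*} [Group L] [Group X] [IsSimpleGroup X] (hL : commutator L = ⊤)
    (f : L →* X) (hf : Function.Surjective f) : center X = ⊥ := by
  rcases (inferInstance : (center X).Normal).eq_bot_or_eq_top with h | h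
  · exact h
  · exfalso
    have h1 : (⊤ : Subgroup X) ≤ ⊥ := by
      have h2 : (commutator L).map f = commutator X := by
        rw [commutator_def, commutator_def, Subgroup.map_commutator, ← MonoidHom.range_eq_map,
          MonoidHom.range_eq_top.mpr hf]
      have h3 : commutator X = ⊤ := by
        rw [← h2, hL, ← MonoidHom.range_eq_map, MonoidHom.range_eq_top.mpr hf]
      rw [← h3, commutator_def, Subgroup.commutator_le]
      intro a _ b _
      have ha : a ∈ center X := by rw [h]; trivial
      rw [Subgroup.mem_bot, commutatorElement_eq_one_iff_mul_comm]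
      exact (mem_center_iff.mp ha b).symm
    obtain ⟨x, hx⟩ := exists_ne (1 : X)
    exact hx (h1 (mem_top x))

/-- one half: the projection of the perfect residual of the fibre product is an isomorphism -/
theorem half {L₁ L₂ X : Type*} [Group L₁] [Finite L₁] [Group L₂] [Finite L₂] [Group X]
    (f : L₁ →* X) (g : L₂ →* X) (hf : Function.Surjective f)
    (hg : Function.Surjective g) (hN : commutator L₁ = ⊤)
    (kf : f.ker = center L₁)
    (hX : Nat.card (Fibre.toX f g).ker ≤ 4) (hc₁ : Nat.card (center L₁) = 4) :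
    Nonempty (Fibre.M f g ≃* L₁) := by
  have hs := Fibre.toN_surjective (f := f) (g := g) hg hN
  have hfin : Finite (Fibre.M f g) := inferInstance
  have h1 : Nat.card (Fibre.M f g) = Nat.card (Fibre.toX f g).ker * Nat.card X := by
    have := Subgroup.card_mul_index (Fibre.toX f g).ker
    rw [Subgroup.index_ker, Nat.card_congr (Subgroup.topEquiv (G := X)).symm.toEquiv] at *
    rw [← this, MonoidHom.range_eq_top.mpr (Fibre.toX_surjective hf hg hN)]
  have h2 : Nat.card L₁ = Nat.card f.ker * Nat.card X := by
    have := Subgroup.card_mul_index f.ker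
    rw [Subgroup.index_ker, Nat.card_congr (Subgroup.topEquiv (G := X)).symm.toEquiv] at *
    rw [← this, MonoidHom.range_eq_top.mpr hf]
  have h3 : Nat.card (Fibre.M f g) ≤ Nat.card L₁ := by
    rw [h1, h2, kf, hc₁]
    exact Nat.mul_le_mul_right _ hX
  have h4 : Nat.card (Fibre.M f g) = Nat.card L₁ :=
    le_antisymm h3 (Nat.card_le_card_of_surjective _ hs)
  exact ⟨MulEquiv.ofBijective (Fibre.toN f g) (hs.bijective_of_nat_card_le h3)⟩

/-- Up to isomorphism there is at most one quasisimple group whose centre is elementary abelian of order 4 and whose central quotient is isomorphic to the projective special linear group of dimension 3 over the field with four elements: any two such groups are isomorphic. -/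
theorem result {L₁ L₂ : Type*} [Group L₁] [Finite L₁] [Group L₂] [Finite L₂] (F : Type) [Field F] [Fintype F] (hF : Fintype.card F = 4) (h₁ : Cfsg.IsQuasisimple L₁) (h₂ : Cfsg.IsQuasisimple L₂) (hc₁ : Nat.card (Subgroup.center L₁) = 4) (hc₂ : Nat.card (Subgroup.center L₂) = 4) (he₁ : ∀ x ∈ Subgroup.center L₁, x * x = 1) (he₂ : ∀ x ∈ Subgroup.center L₂, x * x = 1) (e₁ : L₁ ⧸ Subgroup.center L₁ ≃* Matrix.ProjectiveSpecialLinearGroup (Fin 3) F) (e₂ : L₂ ⧸ Subgroup.center L₂ ≃* Matrix.ProjectiveSpecialLinearGroup (Fin 3) F) : Nonempty (L₁ ≃* L₂) := by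
  have hN := h₁.1.commutator_eq_top
  have hL := h₂.1.commutator_eq_top
  have hs1 : IsSimpleGroup (L₁ ⧸ center L₁) := h₁.2
  have hsX : IsSimpleGroup (Matrix.ProjectiveSpecialLinearGroup (Fin 3) F) := e₁.symm.isSimpleGroup
  let f : L₁ →* Matrix.ProjectiveSpecialLinearGroup (Fin 3) F :=
    e₁.toMonoidHom.comp (QuotientGroup.mk' (center L₁))
  let g : L₂ →* Matrix.ProjectiveSpecialLinearGroup (Fin 3) F :=
    e₂.toMonoidHom.comp (QuotientGroup.mk' (center L₂))
  have hf : Function.Surjective f := e₁.surjective.comp (QuotientGroup.mk'_surjective _)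
  have hg : Function.Surjective g := e₂.surjective.comp (QuotientGroup.mk'_surjective _)
  have kf : f.ker = center L₁ := by
    ext k
    rw [MonoidHom.mem_ker]
    show e₁ (QuotientGroup.mk k) = 1 ↔ _
    rw [map_eq_one_iff _ e₁.injective, QuotientGroup.eq_one_iff]
  have kg : g.ker = center L₂ := by
    ext k
    rw [MonoidHom.mem_ker]
    show e₂ (QuotientGroup.mk k) = 1 ↔ _
    rw [map_eq_one_iff _ e₂.injective, QuotientGroup.eq_one_iff]
  have hX := center_eq_bot hN f hf
  have hperf := Fibre.perfect hf hg kf.le kg.le hN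
  have hker := Fibre.ker_toX hf hg kf.le kg.le hN hX
  have hsq : ∀ m : Fibre.M f g, m ∈ center (Fibre.M f g) → m * m = 1 := by
    intro m hm
    rw [← hker] at hm
    have h1 : f (Fibre.toN f g m) = 1 := hm
    have h2 : g (Fibre.toL f g m) = 1 := by rw [← Fibre.comm, h1]
    have h3 : Fibre.toN f g m ∈ center L₁ := by rw [← kf]; exact h1
    have h4 : Fibre.toL f g m ∈ center L₂ := by rw [← kg]; exact h2
    exact Subtype.ext (Prod.ext (he₁ _ h3) (he₂ _ h4))
  have h2g : IsPGroup 2 (center (Fibre.M f g)) := by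
    rintro ⟨m, hm⟩
    refine ⟨1, Subtype.ext ?_⟩
    show m ^ 2 ^ 1 = 1
    rw [pow_one, pow_two]
    exact hsq m hm
  have e : Fibre.M f g ⧸ center (Fibre.M f g) ≃* Matrix.ProjectiveSpecialLinearGroup (Fin 3) F :=
    (QuotientGroup.quotientMulEquivOfEq hker.symm).trans
      (QuotientGroup.quotientKerEquivOfSurjective _ (Fibre.toX_surjective hf hg hN))
  have h4 := card_omega_le hperf h2g hF e
  have h5 : omega (Fibre.M f g) = center (Fibre.M f g) := by
    ext m
    exact ⟨fun h => h.1, fun h => ⟨h, hsq m h⟩⟩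
  rw [h5] at h4
  obtain ⟨a⟩ := half f g hf hg hN kf (by rw [hker]; exact h4) hc₁
  -- the other side by counting
  have hs := Fibre.toL_surjective (f := f) (g := g) hf hL
  have hcard : Nat.card (Fibre.M f g) ≤ Nat.card L₂ := by
    rw [Nat.card_congr a.toEquiv, Subgroup.card_eq_card_quotient_mul_card_subgroup (center L₁),
      Subgroup.card_eq_card_quotient_mul_card_subgroup (center L₂), hc₁, hc₂,
      Nat.card_congr e₁.toEquiv, Nat.card_congr e₂.toEquiv]
  exact ⟨a.symm.trans (MulEquiv.ofBijective (Fibre.toL f g) (hs.bijective_of_nat_card_le hcard))⟩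

end Cfsg.Agent.S5387
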