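import Cfsg.Agent.MonsterX.LeechIrr
import Cfsg.Agent.MonsterU.Lam2
import Cfsg.Statements.S5392
set_option linter.all false

-- part: H867/LeechIrrTwo
section
/-!
# The Leech lattice modulo two is faithful and irreducible for `Co1`
-/

set_option autoImplicit false

namespace Cfsg.Agent.H867.LeechIrrTwo

open Cfsg Cfsg.Agent.MonsterU.Lam2

theorem main : (∀ g : ↥Cfsg.Co0, (∀ v : ↥Cfsg.leechLattice, ∃ w : ↥Cfsg.leechLattice, ((g • v : ↥Cfsg.leechLattice) : Cfsg.GolayPt → ℤ) - (v : Cfsg.GolayPt → ℤ) = 2 • (w : Cfsg.GolayPt → ℤ)) → g ∈ Subgroup.center ↥Cfsg.Co0) ∧ ∀ M : AddSubgroup (Cfsg.GolayPt → ℤ), (∀ v ∈ Cfsg.leechLattice, (2 : ℤ) • v ∈ M) → M ≤ Cfsg.leechLattice → (∀ g : ↥Cfsg.Co0, ∀ v : ↥Cfsg.leechLattice, (v : Cfsg.GolayPt → ℤ) ∈ M → ((g • v : ↥Cfsg.leechLattice) : Cfsg.GolayPt → ℤ) ∈ M) → (∀ x ∈ M, ∃ w ∈ Cfsg.leechLattice, x = (2 : ℤ) • w) ∨ M = Cfsg.leechLattice := by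
  constructor
  · intro g hg
    apply mem_center_of_trivial
    intro x
    obtain ⟨v, rfl⟩ := cl_surjective x
    rw [smul_cl, cl_eq]
    obtain ⟨w, hw⟩ := hg v
    exact ⟨w, Subtype.ext hw⟩
  · intro M h2 hle hM
    rcases Cfsg.Agent.MonsterX.LeechIrr.irreducible (M.comap leechLattice.subtype)
      (fun z => by
        show (((2 : ℕ) • z : leechLattice) : GolayPt → ℤ) ∈ M
        have h := h2 z z.2
        have h3 : (((2 : ℕ) • z : leechLattice) : GolayPt → ℤ) = (2 : ℤ) • (z : GolayPt → ℤ) := by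
          rw [AddSubgroup.coe_nsmul, ← natCast_zsmul]
          rfl
        rw [h3]
        exact h) (fun g x hx => hM g x hx) with h | h
    · left
      intro x hx
      obtain ⟨z, hz⟩ := h ⟨x, hle hx⟩ hx
      refine ⟨z, z.2, ?_⟩
      have h3 := congrArg Subtype.val hz
      rw [AddSubgroup.coe_nsmul, ← natCast_zsmul] at h3
      exact h3
    · right
      apply le_antisymm hle
      intro x hx
      have h3 : (⟨x, hx⟩ : leechLattice) ∈ M.comap leechLattice.subtype := by
        rw [h]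
        trivial
      exact h3

end Cfsg.Agent.H867.LeechIrrTwo
end

-- part: S5392
section
set_option autoImplicit false
open Cfsg

namespace Cfsg.Agent.S5392

/-- The Leech lattice modulo twice itself is a faithful irreducible module for the first Conway group: an automorphism of the rank-24 lattice built from the length-24 code that moves every lattice vector only by twice a lattice vector lies in the centre of the automorphism group (the centre consists of ±1, which act trivially there, so the kernel is exactly the centre), and an additive subgroup lying between twice the lattice and the lattice that is invariant under all lattice automorphisms is one of the two. -/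
theorem result : (∀ g : ↥Cfsg.Co0, (∀ v : ↥Cfsg.leechLattice, ∃ w : ↥Cfsg.leechLattice, ((g • v : ↥Cfsg.leechLattice) : Cfsg.GolayPt → ℤ) - (v : Cfsg.GolayPt → ℤ) = 2 • (w : Cfsg.GolayPt → ℤ)) → g ∈ Subgroup.center ↥Cfsg.Co0) ∧ ∀ M : AddSubgroup (Cfsg.GolayPt → ℤ), (∀ v ∈ Cfsg.leechLattice, (2 : ℤ) • v ∈ M) → M ≤ Cfsg.leechLattice → (∀ g : ↥Cfsg.Co0, ∀ v : ↥Cfsg.leechLattice, (v : Cfsg.GolayPt → ℤ) ∈ M → ((g • v : ↥Cfsg.leechLattice) : Cfsg.GolayPt → ℤ) ∈ M) → (∀ x ∈ M, ∃ w ∈ Cfsg.leechLattice, x = (2 : ℤ) • w) ∨ M = Cfsg.leechLattice := by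
  exact Cfsg.Agent.H867.LeechIrrTwo.main

end Cfsg.Agent.S5392
end
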