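import Cfsg.Agent.SporadicA.GolayPerm
import Cfsg.Agent.S0367
import Cfsg.Agent.S0368
import Cfsg.Statements.S5393
set_option linter.all false

-- part: H867/CodeIrr
section
/-!
# The Golay code modulo the all-ones word is irreducible for `M24`
-/

set_option autoImplicit false
open scoped Pointwise

namespace Cfsg.Agent.H867.CodeIrr

open Cfsg Cfsg.Agent.SporadicA.GolayBase Cfsg.Agent.SporadicA.GolayPerm

/-- Invariance of a space of words under `M24`. -/
def Inv (W : Submodule (ZMod 2) (GolayPt → ZMod 2)) : Prop :=
  ∀ σ ∈ M24, ∀ w ∈ W, (fun p => w (σ.symm p)) ∈ W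

theorem mem_of_smul {W : Submodule (ZMod 2) (GolayPt → ZMod 2)} (hW : Inv W) {m m' : ℕ}
    {g : Equiv.Perm GolayPt} (hg : g ∈ M24) (h : g • fin m = fin m') (hm : word m ∈ W) :
    word m' ∈ W := by
  have h1 : word m' = fun p => word m (g.symm p) := by
    funext p
    have h2 : m'.testBit (idx p) = m.testBit (idx (g.symm p)) := by
      rw [Bool.eq_iff_iff, ← mem_fin, ← mem_fin, ← h]
      have h3 := mem_smul_iff g (fin m) (g.symm p)
      rwa [Equiv.apply_symm_apply] at h3
    rw [word_apply, word_apply, h2]
  rw [h1]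
  exact hW g hg _ hm

theorem octad_mem {W : Submodule (ZMod 2) (GolayPt → ZMod 2)} (hW : Inv W) {m m' : ℕ}
    (h : fin m ∈ octads) (h' : fin m' ∈ octads) (hm : word m ∈ W) : word m' ∈ W := by
  obtain ⟨g, hg⟩ := Cfsg.Agent.S0367.result _ _ h h'
  exact mem_of_smul hW g.2 hg hm

theorem dodecad_mem {W : Submodule (ZMod 2) (GolayPt → ZMod 2)} (hW : Inv W) {m m' : ℕ}
    (h : fin m ∈ dodecads) (h' : fin m' ∈ dodecads) (hm : word m ∈ W) : word m' ∈ W := by
  obtain ⟨g, hg⟩ := Cfsg.Agent.S0368.result _ _ h h'
  exact mem_of_smul hW g.2 hg hm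

theorem oct {m : ℕ} (hm : m < 2 ^ 24) (h : (isCode m && Nat.beq (popcount m) 8) = true) :
    fin m ∈ octads := by
  rw [Bool.and_eq_true, Nat.beq_eq] at h
  exact (fin_mem_octads_iff hm).2 h

theorem dod {m : ℕ} (hm : m < 2 ^ 24) (h : (isCode m && Nat.beq (popcount m) 12) = true) :
    fin m ∈ dodecads := by
  rw [Bool.and_eq_true, Nat.beq_eq] at h
  exact (fin_mem_dodecads_iff hm).2 h

theorem o1 : fin 13062145 ∈ octads := oct (by norm_num) (by decide +kernel)
theorem o2 : fin 12222476 ∈ octads := oct (by norm_num) (by decide +kernel)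
theorem o3 : fin 9347075 ∈ octads := oct (by norm_num) (by decide +kernel)
theorem d1 : fin 8245261 ∈ dodecads := dod (by norm_num) (by decide +kernel)
theorem d2 : fin 15953934 ∈ dodecads := dod (by norm_num) (by decide +kernel)

/-- An octad in `W` gives a dodecad in `W`. -/
theorem d1_of_o1 {W : Submodule (ZMod 2) (GolayPt → ZMod 2)} (hW : Inv W)
    (h : word 13062145 ∈ W) : word 8245261 ∈ W := by
  have h2 := octad_mem hW o1 o2 h
  have h3 : word 8245261 = word 13062145 + word 12222476 := by
    rw [← word_xor]
    congr 1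
  rw [h3]
  exact W.add_mem h h2

/-- A dodecad in `W` gives an octad in `W`. -/
theorem o3_of_d1 {W : Submodule (ZMod 2) (GolayPt → ZMod 2)} (hW : Inv W)
    (h : word 8245261 ∈ W) : word 9347075 ∈ W := by
  have h2 := dodecad_mem hW d1 d2 h
  have h3 : word 9347075 = word 8245261 + word 15953934 := by
    rw [← word_xor]
    congr 1
  rw [h3]
  exact W.add_mem h h2

theorem xor_all_mem {W : Submodule (ZMod 2) (GolayPt → ZMod 2)} (h1 : word 16777215 ∈ W) {m : ℕ} :
    word (m ^^^ 16777215) ∈ W ↔ word m ∈ W := by
  rw [word_xor]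
  constructor
  · intro h
    have h2 := W.sub_mem h h1
    rwa [add_sub_cancel_right] at h2
  · intro h
    exact W.add_mem h h1

theorem card_compl_fin {m : ℕ} (_hm : m < 2 ^ 24) :
    popcount (m ^^^ 16777215) + popcount m = 24 := by
  rw [← card_fin, ← card_fin]
  have h : fin (m ^^^ 16777215) = (fin m)ᶜ := by
    ext p
    rw [Finset.mem_compl, mem_fin, mem_fin, Nat.testBit_xor,
      show (16777215 : ℕ) = 2 ^ 24 - 1 by norm_num, Nat.testBit_two_pow_sub_one]
    simp [idx_lt p]
  rw [h, Finset.card_compl_add_card]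
  decide

/-- All octads in `W` and the all-ones word: everything is in `W`. -/
theorem eq_top {W : Submodule (ZMod 2) (GolayPt → ZMod 2)} (hW : Inv W)
    (h1 : word 16777215 ∈ W) (hle : W ≤ golayCode) (ho : word 13062145 ∈ W) : W = golayCode := by
  apply le_antisymm hle
  intro w hw
  have hc := (mem_golayCode_iff w).1 hw
  have hlt := maskW_lt w
  rw [← word_maskW w]
  have hO : ∀ m, isCode m = true → popcount m = 8 → word m ∈ W := fun m hm h8 =>
    octad_mem hW o1 ((fin_mem_octads_iff (isCode_lt hm)).2 ⟨hm, h8⟩) ho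
  have hall : isCode 16777215 = true := by decide +kernel
  rcases isCode_weight hc with h | h | h | h | h
  · have h2 : fin (maskW w) = fin 0 := by
      rw [← card_fin, Finset.card_eq_zero] at h
      rw [h]
      ext p
      rw [mem_fin]
      simp
    rw [fin_injective hlt (by norm_num) h2, word_zero]
    exact W.zero_mem
  · exact hO _ hc h
  · exact dodecad_mem hW d1 ((fin_mem_dodecads_iff hlt).2 ⟨hc, h⟩) (d1_of_o1 hW ho)
  · rw [← xor_all_mem h1]
    apply hO _ (isCode_xor hc hall)
    have := card_compl_fin hlt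
    omega
  · rw [← xor_all_mem h1]
    have h2 := card_compl_fin hlt
    have h3 : popcount (maskW w ^^^ 16777215) = 0 := by omega
    have h4 : fin (maskW w ^^^ 16777215) = fin 0 := by
      rw [← card_fin, Finset.card_eq_zero] at h3
      rw [h3]
      ext p
      rw [mem_fin]
      simp
    rw [fin_injective (Nat.xor_lt_two_pow hlt (by norm_num)) (by norm_num) h4, word_zero]
    exact W.zero_mem

theorem main : (fun _ : GolayPt => (1 : ZMod 2)) ∈ golayCode ∧
    ∀ W : Submodule (ZMod 2) (GolayPt → ZMod 2), (fun _ => (1 : ZMod 2)) ∈ W → W ≤ golayCode →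
      (∀ σ ∈ M24, ∀ w ∈ W, (fun p => w (σ.symm p)) ∈ W) →
      W = Submodule.span (ZMod 2) {fun _ => (1 : ZMod 2)} ∨ W = golayCode := by
  have hone : (fun _ : GolayPt => (1 : ZMod 2)) = word 16777215 := word_all.symm
  rw [hone]
  refine ⟨all_mem, ?_⟩
  intro W h1 hle hW
  by_cases hsp : W ≤ Submodule.span (ZMod 2) {word 16777215}
  · left
    apply le_antisymm hsp
    rw [Submodule.span_le]
    rintro x (rfl : x = _)
    exact h1
  · right
    obtain ⟨w, hw, hws⟩ := SetLike.not_le_iff_exists.1 hsp
    have hc := (mem_golayCode_iff w).1 (hle hw)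
    have hlt := maskW_lt w
    rw [← word_maskW w] at hw hws
    have hall : isCode 16777215 = true := by decide +kernel
    rcases isCode_weight hc with h | h | h | h | h
    · exfalso
      apply hws
      have h2 : fin (maskW w) = fin 0 := by
        rw [← card_fin, Finset.card_eq_zero] at h
        rw [h]
        ext p
        rw [mem_fin]
        simp
      rw [fin_injective hlt (by norm_num) h2, word_zero]
      exact Submodule.zero_mem _
    · exact eq_top hW h1 hle (octad_mem hW ((fin_mem_octads_iff hlt).2 ⟨hc, h⟩) o1 hw)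
    · have h2 := dodecad_mem hW ((fin_mem_dodecads_iff hlt).2 ⟨hc, h⟩) d1 hw
      exact eq_top hW h1 hle (octad_mem hW o3 o1 (o3_of_d1 hW h2))
    · have h2 := card_compl_fin hlt
      have h3 : fin (maskW w ^^^ 16777215) ∈ octads := by
        rw [fin_mem_octads_iff (Nat.xor_lt_two_pow hlt (by norm_num))]
        exact ⟨isCode_xor hc hall, by omega⟩
      exact eq_top hW h1 hle (octad_mem hW h3 o1 ((xor_all_mem h1).2 hw))
    · exfalso
      apply hws
      have h2 := card_compl_fin hlt
      have h3 : popcount (maskW w ^^^ 16777215) = 0 := by omega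
      have h4 : fin (maskW w ^^^ 16777215) = fin 0 := by
        rw [← card_fin, Finset.card_eq_zero] at h3
        rw [h3]
        ext p
        rw [mem_fin]
        simp
      have h5 := fin_injective (Nat.xor_lt_two_pow hlt (by norm_num)) (by norm_num) h4
      have h6 : maskW w = 16777215 := by
        calc maskW w = (maskW w ^^^ 16777215) ^^^ 16777215 := by
              rw [Nat.xor_assoc, Nat.xor_self, Nat.xor_zero]
          _ = 16777215 := by rw [h5, Nat.zero_xor]
      rw [h6]
      exact Submodule.mem_span_singleton_self _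

end Cfsg.Agent.H867.CodeIrr
end

-- part: S5393
section
set_option autoImplicit false
open Cfsg

namespace Cfsg.Agent.S5393

/-- The length-24 code built from the squares modulo 23 contains the all-ones word, and the code modulo the all-ones word is an irreducible module over the field with two elements for the code's automorphism group: a subspace of the code that contains the all-ones word and is invariant under every coordinate permutation preserving the code is either the span of the all-ones word or the whole code. -/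
theorem result : (fun _ : Cfsg.GolayPt => (1 : ZMod 2)) ∈ Cfsg.golayCode ∧ ∀ W : Submodule (ZMod 2) (Cfsg.GolayPt → ZMod 2), (fun _ => (1 : ZMod 2)) ∈ W → W ≤ Cfsg.golayCode → (∀ σ ∈ Cfsg.M24, ∀ w ∈ W, (fun p => w (σ.symm p)) ∈ W) → W = Submodule.span (ZMod 2) {fun _ => (1 : ZMod 2)} ∨ W = Cfsg.golayCode := by
  exact Cfsg.Agent.H867.CodeIrr.main

end Cfsg.Agent.S5393
end
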