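-- Statement S5396 (row 5396).
import Cfsg.Agent.H442.ExtraRank
import Cfsg.Agent.J2.ExtQuot
import Cfsg.Statements.S5396
set_option linter.all false

-- part: H866/ExtraModel
section
/-!
# Models of the extraspecial 2-groups of the two types

`exists_model n r` : for `n ≥ 1` and `r = n` or `n + 1` there is a group of order `2 ^ (2 n + 1)`, of class at most
two with centre of order two, whose elementary abelian subgroups have order at most `2 ^ r`, this being attained.
-/

set_option autoImplicit false

namespace Cfsg.Agent.H866.ExtraModel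

open Cfsg
open scoped commutatorElement
open Cfsg.Agent.Transfer.ExtraspecialTwo Cfsg.Agent.H442.ExtraRank

/-- `1` or `z` according to an element of `ZMod 2`. -/
def zp {E : Type*} [Group E] (z : E) (a : ZMod 2) : E := if a = 0 then 1 else z

section

variable {E : Type*} [Group E] {z : E}

theorem zp_zero : zp z 0 = 1 := rfl
theorem zp_one : zp z 1 = z := rfl

theorem zp_add (hz : z * z = 1) (a b : ZMod 2) : zp z (a + b) = zp z a * zp z b := by
  have ha : a = 0 ∨ a = 1 := by revert a; decide
  have hb : b = 0 ∨ b = 1 := by revert b; decide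
  rcases ha with rfl | rfl <;> rcases hb with rfl | rfl
  · rw [add_zero, zp_zero, one_mul]
  · rw [zero_add, zp_zero, one_mul]
  · rw [add_zero, zp_zero, mul_one]
  · rw [show (1 : ZMod 2) + 1 = 0 from rfl, zp_zero, zp_one, hz]

theorem zp_comm (hc : ∀ e : E, e * z = z * e) (a : ZMod 2) (e : E) : e * zp z a = zp z a * e := by
  unfold zp
  split_ifs
  · rw [mul_one, one_mul]
  · exact hc e

end

/-- The central product of `E` with a dihedral group of order 8. -/
structure XP (E : Type*) [Group E] (z : E) where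
  /-- the component in `E` -/
  e : E
  /-- first coordinate -/
  a : ZMod 2
  /-- second coordinate -/
  b : ZMod 2

section

variable {E : Type*} [Group E] {z : E}

theorem XP.ext' {x y : XP E z} (h1 : x.e = y.e) (h2 : x.a = y.a) (h3 : x.b = y.b) : x = y := by
  cases x; cases y; simp_all

/-- The underlying set is a product. -/
def XP.equiv : XP E z ≃ E × ZMod 2 × ZMod 2 where
  toFun x := (x.e, x.a, x.b)
  invFun t := ⟨t.1, t.2.1, t.2.2⟩
  left_inv _ := rfl
  right_inv _ := rfl

/-- Multiplication of the central product. -/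
def XP.mul (x y : XP E z) : XP E z := ⟨x.e * y.e * zp z (x.a * y.b), x.a + y.a, x.b + y.b⟩

/-- The group structure of the central product. -/
@[reducible] def XP.group (hz : z * z = 1) (hc : ∀ e : E, e * z = z * e) : Group (XP E z) where
  mul := XP.mul
  one := ⟨1, 0, 0⟩
  inv x := ⟨x.e⁻¹ * zp z (x.a * x.b), -x.a, -x.b⟩
  mul_assoc x y w := by
    apply XP.ext'
    · change (x.e * y.e * zp z (x.a * y.b)) * w.e * zp z ((x.a + y.a) * w.b) =
        x.e * (y.e * w.e * zp z (y.a * w.b)) * zp z (x.a * (y.b + w.b))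
      rw [add_mul, mul_add, zp_add hz, zp_add hz]
      have hu := zp_comm hc (x.a * y.b)
      have hv := zp_comm hc (x.a * w.b)
      generalize zp z (x.a * y.b) = u at *
      generalize zp z (x.a * w.b) = v at *
      generalize zp z (y.a * w.b) = t at *
      calc x.e * y.e * u * w.e * (v * t) = x.e * y.e * (u * w.e) * (v * t) := by group
        _ = x.e * y.e * (w.e * u) * (v * t) := by rw [hu]
        _ = x.e * y.e * w.e * u * (v * t) := by group
        _ = x.e * y.e * w.e * u * (t * v) := by rw [hv]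
        _ = x.e * y.e * w.e * (u * t) * v := by group
        _ = x.e * y.e * w.e * (t * u) * v := by rw [hu]
        _ = x.e * (y.e * w.e * t) * (u * v) := by group
    · exact add_assoc _ _ _
    · exact add_assoc _ _ _
  one_mul x := by
    apply XP.ext'
    · change 1 * x.e * zp z (0 * x.b) = x.e
      rw [zero_mul, zp_zero, one_mul, mul_one]
    · exact zero_add _
    · exact zero_add _
  mul_one x := by
    apply XP.ext'
    · change x.e * 1 * zp z (x.a * 0) = x.e
      rw [mul_zero, zp_zero, mul_one, mul_one]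
    · exact add_zero _
    · exact add_zero _
  inv_mul_cancel x := by
    apply XP.ext'
    · change x.e⁻¹ * zp z (x.a * x.b) * x.e * zp z (-x.a * x.b) = 1
      rw [mul_assoc x.e⁻¹, ← zp_comm hc _ x.e, ← mul_assoc, inv_mul_cancel, one_mul, ← zp_add hz]
      rw [neg_mul, add_neg_cancel]; rfl
    · exact neg_add_cancel _
    · exact neg_add_cancel _

theorem XP.mul_def (hz : z * z = 1) (hc : ∀ e : E, e * z = z * e) (x y : XP E z) :
    let _ := XP.group hz hc
    x * y = ⟨x.e * y.e * zp z (x.a * y.b), x.a + y.a, x.b + y.b⟩ := rfl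

end

/-- Rank is invariant under isomorphism. -/
theorem pRankLE_congr {E F : Type*} [Group E] [Group F] (φ : E ≃* F) (k : ℕ) (h : PRankLE 2 k F) :
    PRankLE 2 k E := by
  intro A hA hA2
  have h1 := h (A.map φ.toMonoidHom) inferInstance (by
    rintro _ ⟨x, hx, rfl⟩
    rw [← map_pow, hA2 x hx, map_one])
  rwa [Subgroup.card_map_of_injective φ.injective] at h1

/-- The property of the models. -/
def Model (n r : ℕ) : Prop := ∃ (E : Type) (_ : Group E) (_ : Finite E), CentralTwo E ∧
  Nat.card E = 2 ^ (2 * n + 1) ∧ ∀ k, PRankLE 2 k E ↔ r ≤ k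

theorem step {n r : ℕ} (hr : 1 ≤ r) (h : Model n r) : Model (n + 1) (r + 1) := by
  obtain ⟨E, gE, fE, hE, hcard, hrk⟩ := h
  -- the central involution
  obtain ⟨⟨z, hzc⟩, hz1⟩ : ∃ z : Subgroup.center E, z ≠ 1 := by
    have : Nontrivial (Subgroup.center E) := by
      rw [← Finite.one_lt_card_iff_nontrivial, hE.card_center]; norm_num
    exact exists_ne 1
  have hz1' : z ≠ 1 := fun h => hz1 (Subtype.ext h)
  have hz : z * z = 1 := by rw [← pow_two]; exact hE.sq_eq_one hzc
  have hc : ∀ e : E, e * z = z * e := fun e => Subgroup.mem_center_iff.1 hzc e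
  let gX : Group (XP E z) := XP.group hz hc
  have hmul : ∀ x y : XP E z, x * y = ⟨x.e * y.e * zp z (x.a * y.b), x.a + y.a, x.b + y.b⟩ :=
    fun x y => rfl
  have hone : (1 : XP E z) = ⟨1, 0, 0⟩ := rfl
  have fX : Finite (XP E z) := Finite.of_equiv _ XP.equiv.symm
  have h2 : ∀ a : ZMod 2, a = 0 ∨ a = 1 := by decide
  have hzz : ∀ u : E, u ∈ Subgroup.center E → u = 1 ∨ u = z := by
    intro u hu
    by_cases h : u = 1
    · exact Or.inl h
    · exact Or.inr (hE.eq_of_ne_one hu hzc h hz1')
  -- the centre
  have hcomm : ∀ x y : XP E z, x * y = y * x ↔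
      x.e * y.e * zp z (x.a * y.b) = y.e * x.e * zp z (y.a * x.b) := by
    intro x y
    rw [hmul, hmul]
    constructor
    · intro h; exact congrArg XP.e h
    · intro h; exact XP.ext' h (add_comm _ _) (add_comm _ _)
  have hcen : ∀ x : XP E z, x ∈ Subgroup.center (XP E z) ↔
      x.e ∈ Subgroup.center E ∧ x.a = 0 ∧ x.b = 0 := by
    intro x
    rw [Subgroup.mem_center_iff]
    constructor
    · intro h
      have e1 := (hcomm _ _).1 (h ⟨1, 1, 0⟩)
      have e2 := (hcomm _ _).1 (h ⟨1, 0, 1⟩)
      simp only [one_mul, mul_one, zero_mul, mul_zero, zp_zero] at e1 e2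
      have hb : x.b = 0 := by
        rcases h2 x.b with h3 | h3
        · exact h3
        · exfalso
          rw [h3, zp_one] at e1
          exact hz1' (mul_eq_left.1 e1)
      have ha : x.a = 0 := by
        rcases h2 x.a with h3 | h3
        · exact h3
        · exfalso
          rw [h3, zp_one] at e2
          exact hz1' (mul_eq_left.1 e2.symm)
      refine ⟨?_, ha, hb⟩
      rw [Subgroup.mem_center_iff]
      intro g
      have e3 := (hcomm _ _).1 (h ⟨g, 0, 0⟩)
      simpa only [ha, hb, zero_mul, mul_zero, zp_zero, mul_one] using e3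
    · rintro ⟨h1, h3, h4⟩ g
      rw [hcomm, h3, h4, zero_mul, mul_zero, zp_zero, mul_one, mul_one]
      exact Subgroup.mem_center_iff.1 h1 g.e
  have hinv : ∀ x : XP E z, x⁻¹ = ⟨x.e⁻¹ * zp z (x.a * x.b), -x.a, -x.b⟩ := fun x => rfl
  have hzpc : ∀ a : ZMod 2, zp z a ∈ Subgroup.center E := by
    intro a
    rw [Subgroup.mem_center_iff]
    exact fun g => zp_comm hc a g
  have hcc : ∀ a b : XP E z, ⁅a, b⁆ ∈ Subgroup.center (XP E z) := by
    intro x y
    have e1 : ∃ u ∈ Subgroup.center E, x.e * y.e = u * (y.e * x.e) :=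
      ⟨⁅x.e, y.e⁆, hE.comm_mem _ _, by rw [commutatorElement_def]; group⟩
    obtain ⟨u, hu, e1⟩ := e1
    have e2 : x * y = ⟨u * zp z (x.a * y.b) * zp z (y.a * x.b), 0, 0⟩ * (y * x) := by
      rw [hmul x y, hmul _ (y * x), hmul y x]
      refine XP.ext' ?_ ?_ ?_
      · change x.e * y.e * zp z (x.a * y.b) = (u * zp z (x.a * y.b) * zp z (y.a * x.b)) *
          (y.e * x.e * zp z (y.a * x.b)) * zp z (0 * (y.b + x.b))
        rw [zero_mul, zp_zero, mul_one, e1]
        have h3 : zp z (y.a * x.b) * zp z (y.a * x.b) = 1 := by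
          rw [← zp_add hz, CharTwo.add_self_eq_zero]; rfl
        have h4 := zp_comm hc (y.a * x.b)
        have h5 := zp_comm hc (x.a * y.b)
        generalize zp z (y.a * x.b) = v at *
        generalize zp z (x.a * y.b) = w at *
        generalize y.e * x.e = t at *
        calc u * t * w = u * (t * w) * 1 := by group
          _ = u * (w * t) * (v * v) := by rw [h5, h3]
          _ = u * w * (t * v) * v := by group
          _ = u * w * (v * t) * v := by rw [h4 t]
          _ = u * w * v * (t * v) := by group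
      · change x.a + y.a = 0 + (y.a + x.a)
        rw [zero_add, add_comm]
      · change x.b + y.b = 0 + (y.b + x.b)
        rw [zero_add, add_comm]
    have e3 : ⁅x, y⁆ = ⟨u * zp z (x.a * y.b) * zp z (y.a * x.b), 0, 0⟩ := by
      rw [commutatorElement_def, e2]
      group
    rw [e3, hcen]
    exact ⟨mul_mem (mul_mem hu (hzpc _)) (hzpc _), rfl, rfl⟩
  have hX : CentralTwo (XP E z) := by
    refine ⟨hcc, ?_⟩
    rw [← hE.card_center]
    refine Nat.card_congr ⟨fun x => ⟨x.1.e, ((hcen _).1 x.2).1⟩, fun u => ⟨⟨u.1, 0, 0⟩,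
      (hcen _).2 ⟨u.2, rfl, rfl⟩⟩, fun x => ?_, fun u => rfl⟩
    apply Subtype.ext
    exact XP.ext' rfl ((hcen _).1 x.2).2.1.symm ((hcen _).1 x.2).2.2.symm
  -- the pair
  let a : XP E z := ⟨1, 1, 0⟩
  let b : XP E z := ⟨1, 0, 1⟩
  have hab : ⁅a, b⁆ ≠ 1 := by
    intro h
    rw [commutatorElement_eq_one_iff_mul_comm, hcomm] at h
    change 1 * 1 * zp z (1 * 1) = 1 * 1 * zp z (0 * 0) at h
    simp only [one_mul, mul_one, zero_mul, zp_one, zp_zero] at h
    exact hz1' h
  have ha2 : a ^ 2 = 1 := by
    rw [pow_two, hmul]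
    refine XP.ext' ?_ ?_ ?_
    · change (1 : E) * 1 * zp z (1 * 0) = 1
      rw [mul_zero, zp_zero, one_mul, one_mul]
    · rfl
    · rfl
  have hcent : ∀ x : XP E z, x ∈ Subgroup.centralizer ({a, b} : Set (XP E z)) ↔
      x.a = 0 ∧ x.b = 0 := by
    intro x
    rw [Subgroup.mem_centralizer_iff]
    constructor
    · intro h
      have e1 := (hcomm _ _).1 (h a (by simp))
      have e2 := (hcomm _ _).1 (h b (by simp))
      change 1 * x.e * zp z (1 * x.b) = x.e * 1 * zp z (x.a * 0) at e1
      change 1 * x.e * zp z (0 * x.b) = x.e * 1 * zp z (x.a * 1) at e2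
      simp only [one_mul, mul_one, zero_mul, mul_zero, zp_zero] at e1 e2
      constructor
      · rcases h2 x.a with h3 | h3
        · exact h3
        · exfalso
          rw [h3, zp_one] at e2
          exact hz1' (mul_eq_left.1 e2.symm)
      · rcases h2 x.b with h3 | h3
        · exact h3
        · exfalso
          rw [h3, zp_one] at e1
          exact hz1' (mul_eq_left.1 e1)
    · rintro ⟨h3, h4⟩ y hy
      have hye : y.e = 1 := by
        rcases hy with rfl | hy
        · rfl
        · rw [Set.mem_singleton_iff] at hy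
          rw [hy]
      rw [hcomm, h3, h4, zero_mul, mul_zero, hye, one_mul, mul_one]
  let φ : Subgroup.centralizer ({a, b} : Set (XP E z)) ≃* E :=
    { toFun := fun x => x.1.e
      invFun := fun e => ⟨⟨e, 0, 0⟩, (hcent _).2 ⟨rfl, rfl⟩⟩
      left_inv := fun x => Subtype.ext (XP.ext' rfl ((hcent _).1 x.2).1.symm
        ((hcent _).1 x.2).2.symm)
      right_inv := fun e => rfl
      map_mul' := fun x y => by
        change (x.1 * y.1).e = x.1.e * y.1.e
        rw [hmul]
        change x.1.e * y.1.e * zp z (x.1.a * y.1.b) = x.1.e * y.1.e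
        rw [((hcent _).1 x.2).1, zero_mul, zp_zero, mul_one] }
  refine ⟨XP E z, gX, fX, hX, ?_, ?_⟩
  · rw [Nat.card_congr XP.equiv, Nat.card_prod, Nat.card_prod, hcard]
    have h4 : Nat.card (ZMod 2) = 2 := by
      rw [Nat.card_eq_fintype_card, ZMod.card]
    rw [h4]
    ring
  · refine rank_of_step hX hab ha2 hr ?_
    intro k
    rw [← hrk k]
    exact ⟨pRankLE_congr φ.symm k, pRankLE_congr φ k⟩

/-- The group of order two. -/
theorem model_zero : Model 0 1 := by
  refine ⟨Multiplicative (ZMod 2), inferInstance, inferInstance, ?_, ?_, ?_⟩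
  · refine ⟨fun a b => ?_, ?_⟩
    · rw [Subgroup.mem_center_iff]
      intro g
      exact mul_comm _ _
    · have h : Subgroup.center (Multiplicative (ZMod 2)) = ⊤ := CommGroup.center_eq_top
      rw [h, Subgroup.card_top, Nat.card_eq_fintype_card, Fintype.card_multiplicative, ZMod.card]
  · rw [Nat.card_eq_fintype_card, Fintype.card_multiplicative, ZMod.card]
    norm_num
  · have hc : CentralTwo (Multiplicative (ZMod 2)) := by
      refine ⟨fun a b => ?_, ?_⟩
      · rw [Subgroup.mem_center_iff]
        intro g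
        exact mul_comm _ _
      · have h : Subgroup.center (Multiplicative (ZMod 2)) = ⊤ := CommGroup.center_eq_top
        rw [h, Subgroup.card_top, Nat.card_eq_fintype_card, Fintype.card_multiplicative, ZMod.card]
    exact rank_of_card_two hc (by
      rw [Nat.card_eq_fintype_card, Fintype.card_multiplicative, ZMod.card])

theorem quaternion_central : CentralTwo (QuaternionGroup 2) := by
  have h1 : ∀ x : QuaternionGroup 2, x ∈ Subgroup.center (QuaternionGroup 2) ↔
      x = 1 ∨ x = QuaternionGroup.a 2 := by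
    intro x
    rw [Subgroup.mem_center_iff]
    revert x
    decide
  refine ⟨?_, ?_⟩
  · intro a b
    rw [h1]
    revert a b
    decide
  · have h2 : ((Subgroup.center (QuaternionGroup 2) : Subgroup (QuaternionGroup 2)) :
        Set (QuaternionGroup 2)) = (({1, QuaternionGroup.a 2} : Finset (QuaternionGroup 2)) :
          Set (QuaternionGroup 2)) := by
      ext x
      rw [SetLike.mem_coe, h1]
      simp
    rw [← SetLike.coe_sort_coe, h2, Nat.card_coe_set_eq, Set.ncard_coe_finset]
    decide

/-- The quaternion group. -/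
theorem model_one : Model 1 1 := by
  refine ⟨QuaternionGroup 2, inferInstance, inferInstance, quaternion_central, ?_, ?_⟩
  · rw [Nat.card_eq_fintype_card, QuaternionGroup.card]
    norm_num
  · apply rank_one_of_not quaternion_central
    rintro ⟨a, b, hab, ha, hb⟩
    apply hab
    rw [commutatorElement_eq_one_iff_mul_comm]
    revert a b
    decide

theorem model_plus (n : ℕ) : Model n (n + 1) := by
  induction n with
  | zero => exact model_zero
  | succ n ih => exact step (by omega) ih

theorem model_minus (n : ℕ) : Model (n + 1) (n + 1) := by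
  induction n with
  | zero => exact model_one
  | succ n ih => exact step (by omega) ih

/-- The supremum of the ranks of the elementary abelian subgroups. -/
theorem sSup_rank {E : Type*} [Group E] [Finite E] {n r : ℕ} (hcard : Nat.card E = 2 ^ n)
    (hr : 1 ≤ r) (hrk : ∀ k, PRankLE 2 k E ↔ r ≤ k) :
    sSup {k : ℕ | ∃ A : Subgroup E, IsElementaryAbelian 2 A ∧ Nat.card A = 2 ^ k} = r := by
  have hle : ∀ k ∈ {k : ℕ | ∃ A : Subgroup E, IsElementaryAbelian 2 A ∧ Nat.card A = 2 ^ k},
      k ≤ r := by
    rintro k ⟨A, hA, hk⟩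
    have h1 := (hrk r).2 le_rfl A hA.1 hA.2
    rw [hk] at h1
    exact (Nat.pow_le_pow_iff_right (by norm_num)).1 h1
  have hmem : r ∈ {k : ℕ | ∃ A : Subgroup E, IsElementaryAbelian 2 A ∧ Nat.card A = 2 ^ k} := by
    have h1 : ¬ PRankLE 2 (r - 1) E := by rw [hrk]; omega
    unfold PRankLE at h1
    push Not at h1
    obtain ⟨A, hA, hA2, hlt⟩ := h1
    have h2 := (hrk r).2 le_rfl A hA hA2
    have h3 : Nat.card A ∣ 2 ^ n := hcard ▸ Subgroup.card_subgroup_dvd_card A
    obtain ⟨j, -, hj⟩ := (Nat.dvd_prime_pow Nat.prime_two).1 h3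
    rw [hj] at hlt h2
    have h4 := (Nat.pow_lt_pow_iff_right (a := 2) (by norm_num)).1 hlt
    have h5 := (Nat.pow_le_pow_iff_right (a := 2) (by norm_num)).1 h2
    have h6 : j = r := by omega
    exact ⟨A, ⟨hA, hA2⟩, by rw [hj, h6]⟩
  apply le_antisymm
  · exact csSup_le ⟨r, hmem⟩ hle
  · exact le_csSup ⟨r, hle⟩ hmem

theorem extraspecial_of {E : Type*} [Group E] [Finite E] {n : ℕ} (hE : CentralTwo E)
    (hcard : Nat.card E = 2 ^ (2 * n + 1)) (hn : 1 ≤ n) : IsExtraspecial 2 E := by
  refine Cfsg.Agent.J2.ExtQuot.isExtraspecial_two (IsPGroup.of_card hcard) hE.card_center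
    (fun x => hE.sq_mem x) ?_
  obtain ⟨m, rfl⟩ : ∃ m, n = m + 1 := ⟨n - 1, by omega⟩
  obtain ⟨x, y, hxy⟩ := exists_comm_ne_one_of_pow hE hcard
  exact ⟨x, y, fun h => hxy (commutatorElement_eq_one_iff_mul_comm.2 h)⟩

end Cfsg.Agent.H866.ExtraModel
end

-- part: S5396
section
set_option autoImplicit false
open scoped Pointwise
open Cfsg

namespace Cfsg.Agent.S5396

open Cfsg.Agent.H866.ExtraModel

/-- For every n ≥ 1 there exist finite extraspecial 2-groups of order 2^(2n+1) whose 2-rank (the largest rank of an elementary abelian subgroup) is n, and ones whose 2-rank is n + 1 (so for each such order there are two non-isomorphic extraspecial 2-groups, told apart by their 2-rank). -/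
theorem result (n : ℕ) (hn : 1 ≤ n) : ∀ r ∈ ({n, n + 1} : Set ℕ), ∃ (E : Type) (_ : Group E) (_ : Finite E), Cfsg.IsExtraspecial 2 E ∧ Nat.card E = 2 ^ (2 * n + 1) ∧ sSup {k : ℕ | ∃ A : Subgroup E, Cfsg.IsElementaryAbelian 2 A ∧ Nat.card A = 2 ^ k} = r := by
  intro r hr
  have hM : Model n r := by
    rcases hr with rfl | hr
    · obtain ⟨m, rfl⟩ : ∃ m, r = m + 1 := ⟨r - 1, by omega⟩
      exact model_minus m
    · rw [Set.mem_singleton_iff] at hr
      subst hr
      exact model_plus n
  have hr1 : 1 ≤ r := by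
    rcases hr with rfl | hr
    · exact hn
    · rw [Set.mem_singleton_iff] at hr
      omega
  obtain ⟨E, gE, fE, hE, hcard, hrk⟩ := hM
  exact ⟨E, gE, fE, extraspecial_of hE hcard hn, hcard, sSup_rank hcard hr1 hrk⟩

end Cfsg.Agent.S5396
end
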