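import Cfsg.Statements.S5401
import Cfsg.Agent.H830.Con24
import Cfsg.Agent.H830.Type24
import Cfsg.Agent.H830.PrimF
set_option linter.all false

set_option autoImplicit false
open Cfsg

namespace Cfsg.Agent.S5401

open Cfsg.Agent.H830

/-- Existence of the Fischer 3-transposition groups: there exist finite groups generated by a conjugacy class of 3-transpositions on which they act primitively that are of type M(22), of type M(23), and of type M(24) respectively. -/
theorem result : (∃ (X : Type) (_ : Group X) (_ : Finite X) (E : Set X), Cfsg.IsThreeTranspositionClass E ∧ Cfsg.IsPrimitiveUnderConj E ∧ Cfsg.IsOfTypeM22 X E) ∧ (∃ (X : Type) (_ : Group X) (_ : Finite X) (E : Set X), Cfsg.IsThreeTranspositionClass E ∧ Cfsg.IsPrimitiveUnderConj E ∧ Cfsg.IsOfTypeM23 X E) ∧ (∃ (X : Type) (_ : Group X) (_ : Finite X) (E : Set X), Cfsg.IsThreeTranspositionClass E ∧ Cfsg.IsPrimitiveUnderConj E ∧ Cfsg.IsOfTypeM24 X E) := by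
  have h22 : Finite Spor.Fi22 := Cfsg.Agent.R01.Fi22Facts.finite
  have h23 : Finite Spor.Fi23 := Cfsg.Agent.R08.FiTwentyThree.finite_fi23
  have h24 : Finite Spor.Fi24 := Cfsg.Agent.R08.FiTwentyFour.finite_Fi24
  exact ⟨⟨Spor.Fi22, inferInstance, h22, Cfsg.Agent.R01.Fi22Facts.T, Con22.fgroup.cls,
      PrimF.isPrimitiveUnderConj Con22.fgroup, TypeConv.isOfTypeM22 Con22.fgroup Con22.isT6⟩,
    ⟨Spor.Fi23, inferInstance, h23, Cfsg.Agent.R08.FiTwentyThree.D, Con23.fgroup.cls,
      PrimF.isPrimitiveUnderConj Con23.fgroup, TypeConv.isOfTypeM23 Con23.fgroup Con23.isT7⟩,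
    ⟨Spor.Fi24, inferInstance, h24, Cfsg.Agent.R08.FiTwentyFour.L, Con24.fgroup.cls,
      PrimF.isPrimitiveUnderConj Con24.fgroup, Type24.isOfTypeM24 Con24.fgroup Con24.isT8⟩⟩

end Cfsg.Agent.S5401
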