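import Cfsg.Agent.S1629
import Cfsg.Statements.S5405
set_option linter.all false

-- part: H817/CrossedHom
section
/-!
# Crossed homomorphisms of `Ω` into the natural module over the field with two elements

If the isometry group of a non-degenerate quadratic form over `ZMod 2` in dimension at least 5
contains an element `x` with `x² + x + 1 = 0`, then every crossed homomorphism of its commutator
subgroup into the natural module is principal.
-/

set_option autoImplicit false

namespace Cfsg.Agent.H817.CrossedHom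

open Cfsg Matrix
open scoped commutatorElement
open Cfsg.Agent.SporadicStructure.OrthTransTwo

variable {ι : Type} [Fintype ι] [DecidableEq ι]
variable {Q : (ι → ZMod 2) → ZMod 2} {B : (ι → ZMod 2) → (ι → ZMod 2) → ZMod 2}

theorem add_left_cancel' {a b : ι → ZMod 2} (h : a + b = 0) : a = b := by
  calc a = a + (b + b) := by rw [vadd_self, add_zero]
    _ = b := by rw [← add_assoc, h, zero_add]

theorem sub_eq_add' (a b : ι → ZMod 2) : a - b = a + b := by
  rw [sub_eq_iff_eq_add, add_assoc, vadd_self, add_zero]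

/-- two distinct orthogonal non-singular vectors have a common non-orthogonal non-singular
vector -/
theorem exists_common (h : IsNdForm Q B) (hcard : 5 ≤ Fintype.card ι) {v w : ι → ZMod 2}
    (hv : Q v = 1) (hw : Q w = 1) :
    ∃ u, B v u = 1 ∧ B w u = 1 ∧ Q u = 1 := by
  have hu0 : ∃ u, B v u = 1 ∧ B w u = 1 := by
    obtain ⟨x, hx⟩ := exists_B_eq_one h (ne_zero_of_Q h hv)
    obtain ⟨y, hy⟩ := exists_B_eq_one h (ne_zero_of_Q h hw)
    rcases z_cases (B w x) with h0 | h0
    · rcases z_cases (B v y) with h1 | h1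
      · exact ⟨x + y, by rw [B_add_right h, hx, h1, add_zero],
          by rw [B_add_right h, h0, hy, zero_add]⟩
      · exact ⟨y, h1, hy⟩
    · exact ⟨x, hx, h0⟩
  obtain ⟨u, hu1, hu2⟩ := hu0
  rcases z_cases (Q u) with hq | hq
  swap
  · exact ⟨u, hu1, hu2, hq⟩
  obtain ⟨x, y, hax, hbx, hay, hby, hxy⟩ := exists_B_ne_zero h hcard v w
  by_contra hcon
  have key : ∀ z, B v z = 0 → B w z = 0 → Q z = B u z := by
    intro z hz1 hz2
    have h1 : Q (u + z) = 0 := by
      rcases z_cases (Q (u + z)) with h0 | h0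
      · exact h0
      · exact absurd ⟨u + z, by rw [B_add_right h, hu1, hz1, add_zero],
          by rw [B_add_right h, hu2, hz2, add_zero], h0⟩ hcon
    rw [h.hQ, hq] at h1
    exact zaux4 _ _ h1
  have h1 := key (x + y) (by rw [B_add_right h, hax, hay, add_zero])
    (by rw [B_add_right h, hbx, hby, add_zero])
  rw [h.hQ, B_add_right h, key x hax hbx, key y hay hby, hxy] at h1
  exact zaux5 _ h1

/-- products of two conjugate involutions lie in the commutator subgroup -/
theorem tau_mul_tau_mem (h : IsNdForm Q B) (hcard : 5 ≤ Fintype.card ι) {v w : ι → ZMod 2}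
    (hv : Q v = 1) (hw : Q w = 1) : tau h v hv * tau h w hw ∈ Omega (ZMod 2) Q := by
  obtain ⟨g, hg⟩ := transitive h hcard hv hw
  have h1 : tau h w hw = g * tau h v hv * g⁻¹ := by
    rw [conj_tau]
    exact tau_congr h _ _ hg.symm
  have h2 : tau h v hv * tau h w hw = ⁅tau h v hv, g⁆ := by
    rw [h1, commutatorElement_def, tau_inv]
    simp only [mul_assoc]
  rw [h2]
  exact Subgroup.commutator_mem_commutator (Subgroup.mem_top _) (Subgroup.mem_top _)

/-- The commutator subgroup is contained in every subgroup which contains all products of two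
transvections. -/
theorem omega_le (h : IsNdForm Q B) (hT : T h = ⊤) (K : Subgroup (isometryGroup (ZMod 2) Q))
    (hK : ∀ v w (hv : Q v = 1) (hw : Q w = 1), tau h v hv * tau h w hw ∈ K) :
    Omega (ZMod 2) Q ≤ K := by
  by_cases hex : ∃ u, Q u = 1
  swap
  · -- no transvections: the group is trivial
    have : T h = ⊥ := by
      rw [T, Subgroup.closure_eq_bot_iff]
      rintro g ⟨w, hw, -⟩
      exact absurd ⟨w, hw⟩ hex
    rw [Omega, _root_.commutator, ← hT, this, Subgroup.commutator_bot_left]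
    exact bot_le
  obtain ⟨u, hu⟩ := hex
  -- the subgroup generated by the products
  set E : Subgroup (isometryGroup (ZMod 2) Q) :=
    Subgroup.closure {g | ∃ v w, ∃ (hv : Q v = 1) (hw : Q w = 1), g = tau h v hv * tau h w hw}
    with hE
  have hEK : E ≤ K := by
    rw [hE, Subgroup.closure_le]
    rintro _ ⟨v, w, hv, hw, rfl⟩
    exact hK v w hv hw
  have hEn : E.Normal := by
    constructor
    intro n hn g
    rw [hE] at hn ⊢
    refine Subgroup.closure_induction (p := fun n _ => g * n * g⁻¹ ∈ _) ?_ ?_ ?_ ?_ hn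
    · rintro _ ⟨v, w, hv, hw, rfl⟩
      apply Subgroup.subset_closure
      refine ⟨act g v, act g w, (Q_act g v).trans hv, (Q_act g w).trans hw, ?_⟩
      rw [← conj_tau h g v hv, ← conj_tau h g w hw]
      group
    · simp
    · intro a b _ _ ha hb
      have : g * (a * b) * g⁻¹ = (g * a * g⁻¹) * (g * b * g⁻¹) := by group
      rw [this]
      exact mul_mem ha hb
    · intro a _ ha
      have : g * a⁻¹ * g⁻¹ = (g * a * g⁻¹)⁻¹ := by group
      rw [this]
      exact inv_mem ha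
  refine le_trans ?_ hEK
  -- every element is in `E` or `τ_u E`
  have hcov : ∀ g : isometryGroup (ZMod 2) Q, g ∈ E ∨ tau h u hu * g ∈ E := by
    intro g
    have hg : g ∈ T h := by rw [hT]; exact Subgroup.mem_top _
    rw [T] at hg
    refine Subgroup.closure_induction (p := fun g _ => g ∈ E ∨ tau h u hu * g ∈ E)
      ?_ ?_ ?_ ?_ hg
    · rintro _ ⟨w, hw, rfl⟩
      right
      exact Subgroup.subset_closure ⟨u, w, hu, hw, rfl⟩
    · left; exact one_mem _
    · intro a b _ _ ha hb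
      rcases ha with ha | ha <;> rcases hb with hb | hb
      · left; exact mul_mem ha hb
      · right
        have : tau h u hu * (a * b) = (tau h u hu * a * (tau h u hu)⁻¹) * (tau h u hu * b) := by
          group
        rw [this]
        exact mul_mem (hEn.conj_mem _ ha _) hb
      · right
        have : tau h u hu * (a * b) = (tau h u hu * a) * b := by group
        rw [this]
        exact mul_mem ha hb
      · left
        have : a * b = (tau h u hu)⁻¹ * (tau h u hu * a) * (tau h u hu)⁻¹⁻¹ *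
            ((tau h u hu)⁻¹ * (tau h u hu)⁻¹) * (tau h u hu * b) := by
          group
        rw [this]
        refine mul_mem (mul_mem (hEn.conj_mem _ ha _) ?_) hb
        rw [tau_inv, tau_mul_self]
        exact one_mem _
    · intro a _ ha
      rcases ha with ha | ha
      · left; exact inv_mem ha
      · right
        have : tau h u hu * a⁻¹ = tau h u hu * ((tau h u hu * a)⁻¹ ) * (tau h u hu)⁻¹ *
          (tau h u hu * tau h u hu) := by
          group
        rw [this, tau_mul_self, mul_one]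
        exact hEn.conj_mem _ (inv_mem ha) _
  -- hence the quotient is commutative
  rw [Omega, _root_.commutator, Subgroup.commutator_le]
  intro a _ b _
  have hcomm : ∀ a b : isometryGroup (ZMod 2) Q, a ∈ E → ⁅a, b⁆ ∈ E := by
    intro a b ha
    rw [commutatorElement_def]
    have : a * b * a⁻¹ * b⁻¹ = a * (b * a⁻¹ * b⁻¹) := by group
    rw [this]
    exact mul_mem ha (hEn.conj_mem _ (inv_mem ha) _)
  have hcomm' : ∀ a b : isometryGroup (ZMod 2) Q, b ∈ E → ⁅a, b⁆ ∈ E := by
    intro a b hb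
    rw [← commutatorElement_inv]
    exact inv_mem (hcomm b a hb)
  rcases hcov a with ha | ha
  · exact hcomm a b ha
  rcases hcov b with hb | hb
  · exact hcomm' a b hb
  -- both in the other coset: `a = τ e`, `b = τ e'`
  have e1 : a⁻¹ * b ∈ E := by
    have : a⁻¹ * b = (tau h u hu * a)⁻¹ * (tau h u hu * b) := by group
    rw [this]
    exact mul_mem (inv_mem ha) hb
  have e2 : ⁅a, b⁆ = ⁅a, b * a⁻¹⁆ := by
    rw [commutatorElement_def, commutatorElement_def]; group
  rw [e2]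
  apply hcomm'
  have : b * a⁻¹ = a * (a⁻¹ * b) * a⁻¹ := by group
  rw [this]
  exact hEn.conj_mem _ e1 _

section Main

variable (f : Omega (ZMod 2) Q → (ι → ZMod 2))
  (hf : ∀ g k : Omega (ZMod 2) Q, f (g * k) = f g + act g.1 (f k))

include hf

theorem f_one : f 1 = 0 := by
  have h1 := hf 1 1
  rw [one_mul] at h1
  have h2 : act (1 : Omega (ZMod 2) Q).1 (f 1) = f 1 := act_one _
  rw [h2, vadd_self] at h1
  exact h1

/-- The zero set of a crossed homomorphism, as a subgroup of the isometry group. -/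
def ker : Subgroup (isometryGroup (ZMod 2) Q) where
  carrier := {g | ∃ hg : g ∈ Omega (ZMod 2) Q, f ⟨g, hg⟩ = 0}
  mul_mem' := by
    rintro a b ⟨ha, ha'⟩ ⟨hb, hb'⟩
    refine ⟨mul_mem ha hb, ?_⟩
    have := hf ⟨a, ha⟩ ⟨b, hb⟩
    rw [ha', hb', act_zero, add_zero] at this
    exact this
  one_mem' := ⟨one_mem _, f_one f hf⟩
  inv_mem' := by
    rintro a ⟨ha, ha'⟩
    refine ⟨inv_mem ha, ?_⟩
    have h1 := hf (⟨a, ha⟩⁻¹) ⟨a, ha⟩
    rw [inv_mul_cancel, f_one f hf, ha', act_zero, add_zero] at h1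
    exact h1.symm

theorem mem_ker_iff {g : isometryGroup (ZMod 2) Q} :
    g ∈ ker f hf ↔ ∃ hg : g ∈ Omega (ZMod 2) Q, f ⟨g, hg⟩ = 0 := Iff.rfl

/-- An element of `Ω` commuting with a fixed-point-free element of the zero set is in the zero
set. -/
theorem mem_ker_of_commute {y g : isometryGroup (ZMod 2) Q} (hy : y ∈ ker f hf)
    (hyf : ∀ v, act y v = v → v = 0) (hg : g ∈ Omega (ZMod 2) Q) (hc : y * g = g * y) :
    g ∈ ker f hf := by
  obtain ⟨hyO, hy0⟩ := hy
  refine ⟨hg, ?_⟩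
  apply hyf
  have h1 := hf ⟨y, hyO⟩ ⟨g, hg⟩
  have h2 := hf ⟨g, hg⟩ ⟨y, hyO⟩
  have h3 : (⟨y, hyO⟩ * ⟨g, hg⟩ : Omega (ZMod 2) Q) = ⟨g, hg⟩ * ⟨y, hyO⟩ := Subtype.ext hc
  rw [h3, h2, hy0, act_zero, add_zero, zero_add] at h1
  exact h1.symm

end Main

/-- `x² + x + 1 = 0` implies no fixed points -/
theorem fpf_of {x : isometryGroup (ZMod 2) Q} (hx : ∀ v, act x (act x v) = act x v + v)
    (v : ι → ZMod 2) (hv : act x v = v) : v = 0 := by
  have := hx v
  rw [hv, hv, vadd_self] at this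
  exact this

theorem B_x (h : IsNdForm Q B) {x : isometryGroup (ZMod 2) Q}
    (hx : ∀ v, act x (act x v) = act x v + v) {u : ι → ZMod 2} (hu : Q u = 1) :
    B u (act x u) = 1 := by
  have h0 : Q (act x u) = 1 := (Q_act x u).trans hu
  have h1 : Q (act x (act x u)) = 1 := (Q_act x _).trans h0
  rw [hx u, h.hQ, h0, hu, B_symm h] at h1
  generalize B u (act x u) = c at h1 ⊢
  revert h1; revert c; decide

/-- `τ_u τ_{xu}` commutes with `x` -/
theorem comm_s (h : IsNdForm Q B) {x : isometryGroup (ZMod 2) Q}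
    (hx : ∀ v, act x (act x v) = act x v + v) {u : ι → ZMod 2} (hu : Q u = 1) :
    x * (tau h u hu * tau h (act x u) ((Q_act x u).trans hu)) =
      (tau h u hu * tau h (act x u) ((Q_act x u).trans hu)) * x := by
  have hxu : Q (act x u) = 1 := (Q_act x u).trans hu
  have hxxu : Q (act x (act x u)) = 1 := (Q_act x _).trans hxu
  have e1 : x * tau h u hu = tau h (act x u) hxu * x := by
    rw [← conj_tau h x u hu]; group
  have e2 : x * tau h (act x u) hxu = tau h (act x (act x u)) hxxu * x := by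
    rw [← conj_tau h x _ hxu]; group
  rw [← mul_assoc, e1, mul_assoc, e2, ← mul_assoc]
  congr 1
  -- `τ_{xu} τ_{xxu} = τ_u τ_{xu}`
  apply act_ext
  intro v
  have hB : B u (act x u) = 1 := B_x h hx hu
  have hB' : B (act x u) u = 1 := by rw [B_symm h]; exact hB
  simp only [act_mul, act_tau, hx u, h.hadd, B_add_right h, B_smul_right h, B_self h, hB, hB']
  rcases z_cases (B u v) with h1 | h1 <;> rcases z_cases (B (act x u) v) with h2 | h2 <;>
    rw [h1, h2] <;> ext i <;>
    simp only [Pi.add_apply, Pi.smul_apply, smul_eq_mul] <;>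
    generalize v i = p <;> generalize u i = q <;> generalize (act x u) i = r <;>
    revert p q r <;> decide

section Main2

variable (f : Omega (ZMod 2) Q → (ι → ZMod 2))
  (hf : ∀ g k : Omega (ZMod 2) Q, f (g * k) = f g + act g.1 (f k))

/-- step: `u` and `y u` -/
theorem pair_mem (h : IsNdForm Q B) (hcard : 5 ≤ Fintype.card ι)
    {y : isometryGroup (ZMod 2) Q} (hy : ∀ v, act y (act y v) = act y v + v)
    (hyK : y ∈ ker f hf) {u : ι → ZMod 2} (hu : Q u = 1) :
    tau h u hu * tau h (act y u) ((Q_act y u).trans hu) ∈ ker f hf :=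
  mem_ker_of_commute f hf hyK (fpf_of hy)
    (tau_mul_tau_mem h hcard hu ((Q_act y u).trans hu)) (comm_s h hy hu)

/-- the relation `τ_u τ_w ∈ ker` -/
def Rel (h : IsNdForm Q B) (u w : ι → ZMod 2) : Prop :=
  ∃ (hu : Q u = 1) (hw : Q w = 1), tau h u hu * tau h w hw ∈ ker f hf

theorem Rel.symm {h : IsNdForm Q B} {u w : ι → ZMod 2} (r : Rel f hf h u w) :
    Rel f hf h w u := by
  obtain ⟨hu, hw, r⟩ := r
  refine ⟨hw, hu, ?_⟩
  have := inv_mem r
  rwa [_root_.mul_inv_rev, tau_inv, tau_inv] at this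

theorem Rel.trans {h : IsNdForm Q B} {u v w : ι → ZMod 2} (r : Rel f hf h u v)
    (s : Rel f hf h v w) : Rel f hf h u w := by
  obtain ⟨hu, hv, r⟩ := r
  obtain ⟨_, hw, s⟩ := s
  refine ⟨hu, hw, ?_⟩
  have := mul_mem r s
  have e : tau h u hu * tau h v hv * (tau h v hv * tau h w hw) =
      tau h u hu * (tau h v hv * tau h v hv) * tau h w hw := by group
  rwa [e, tau_mul_self, mul_one] at this

/-- the element `x s_u` -/
theorem y_rel (h : IsNdForm Q B) {x : isometryGroup (ZMod 2) Q}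
    (hx : ∀ v, act x (act x v) = act x v + v) {u : ι → ZMod 2} (hu : Q u = 1)
    (v : ι → ZMod 2) :
    act (x * (tau h u hu * tau h (act x u) ((Q_act x u).trans hu)))
      (act (x * (tau h u hu * tau h (act x u) ((Q_act x u).trans hu))) v) =
    act (x * (tau h u hu * tau h (act x u) ((Q_act x u).trans hu))) v + v := by
  have hB : B u (act x u) = 1 := B_x h hx hu
  have hB' : B (act x u) u = 1 := by rw [B_symm h]; exact hB
  have hBx : ∀ w, B u (act x w) = B u w + B (act x u) w := by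
    intro w
    have h1 : B u (act x w) = B (act x u) (act x (act x w)) := (B_act h x _ _).symm
    rw [hx w, B_add_right h, B_act h] at h1
    have h2 : B (act x u) (act x w) = B u w := B_act h x _ _
    -- `B (xu) (xw) = B u w`, hence
    have h3 : B (act x (act x u)) (act x (act x w)) = B u w := by rw [B_act h, B_act h]
    exact h1
  have hBx' : ∀ w, B (act x u) (act x w) = B u w := fun w => B_act h x _ _
  have hxsm : ∀ (c : ZMod 2) w, act x (c • w) = c • act x w := by
    intro c w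
    rcases z_cases c with rfl | rfl
    · simp [act_zero]
    · simp
  simp only [act_mul, act_tau, hx, act_add, hxsm, B_add_right h, B_smul_right h,
    B_self h, hB, hB', hBx, hBx']
  rcases z_cases (B u v) with h1 | h1 <;> rcases z_cases (B (act x u) v) with h2 | h2 <;>
    rw [h1, h2] <;> ext i <;>
    simp only [Pi.add_apply, Pi.smul_apply, smul_eq_mul] <;>
    generalize v i = p <;> generalize u i = q <;> generalize (act x u) i = r <;>
    generalize (act x v) i = s <;>
    revert p q r s <;> decide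

theorem rel_of_pair (h : IsNdForm Q B) (hcard : 5 ≤ Fintype.card ι)
    {y : isometryGroup (ZMod 2) Q} (hy : ∀ v, act y (act y v) = act y v + v)
    (hyK : y ∈ ker f hf) {u : ι → ZMod 2} (hu : Q u = 1) : Rel f hf h u (act y u) :=
  ⟨hu, (Q_act y u).trans hu, pair_mem f hf h hcard hy hyK hu⟩

/-- `w` and `s_u w` are related -/
theorem rel_s (h : IsNdForm Q B) (hcard : 5 ≤ Fintype.card ι)
    {x : isometryGroup (ZMod 2) Q} (hx : ∀ v, act x (act x v) = act x v + v)
    (hxK : x ∈ ker f hf) {u w : ι → ZMod 2} (hu : Q u = 1) (hw : Q w = 1) :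
    Rel f hf h w (act (tau h u hu * tau h (act x u) ((Q_act x u).trans hu)) w) := by
  set s := tau h u hu * tau h (act x u) ((Q_act x u).trans hu) with hs
  have hsK : s ∈ ker f hf := pair_mem f hf h hcard hx hxK hu
  have hy := y_rel h hx hu
  rw [← hs] at hy
  have h1 := rel_of_pair f hf h hcard hy (mul_mem hxK hsK) hw
  have hsw : Q (act s w) = 1 := (Q_act s w).trans hw
  have h2 := rel_of_pair f hf h hcard hx hxK hsw
  rw [act_mul] at h1
  exact h1.trans f hf h2.symm

/-- `w` and `s_u⁻¹ w` are related -/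
theorem rel_s_inv (h : IsNdForm Q B) (hcard : 5 ≤ Fintype.card ι)
    {x : isometryGroup (ZMod 2) Q} (hx : ∀ v, act x (act x v) = act x v + v)
    (hxK : x ∈ ker f hf) {u w : ι → ZMod 2} (hu : Q u = 1) (hw : Q w = 1) :
    Rel f hf h w (act (tau h (act x u) ((Q_act x u).trans hu) * tau h u hu) w) := by
  have hxu : Q (act x u) = 1 := (Q_act x u).trans hu
  have hw' : Q (act (tau h (act x u) hxu * tau h u hu) w) = 1 := (Q_act _ w).trans hw
  have h1 := rel_s f hf h hcard hx hxK hu hw'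
  have e : act (tau h u hu * tau h (act x u) hxu)
      (act (tau h (act x u) hxu * tau h u hu) w) = w := by
    rw [← act_mul]
    have : tau h u hu * tau h (act x u) hxu * (tau h (act x u) hxu * tau h u hu) = 1 := by
      have e2 : tau h u hu * tau h (act x u) hxu * (tau h (act x u) hxu * tau h u hu) =
        tau h u hu * (tau h (act x u) hxu * tau h (act x u) hxu) * tau h u hu := by group
      rw [e2, tau_mul_self, mul_one, tau_mul_self]
    rw [this, act_one]
  rw [e] at h1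
  exact h1.symm

theorem rel_of_B (h : IsNdForm Q B) (hcard : 5 ≤ Fintype.card ι)
    {x : isometryGroup (ZMod 2) Q} (hx : ∀ v, act x (act x v) = act x v + v)
    (hxK : x ∈ ker f hf) {u w : ι → ZMod 2} (hu : Q u = 1) (hw : Q w = 1)
    (h1 : B u w = 1) (h0 : B (act x u) w = 0) : Rel f hf h u w := by
  have e1 := rel_s f hf h hcard hx hxK hu hw
  have e2 := rel_s_inv f hf h hcard hx hxK hw hu
  have f1 : act (tau h u hu * tau h (act x u) ((Q_act x u).trans hu)) w = w + u := by
    rw [act_mul, act_tau, act_tau, h0, zero_smul, add_zero, h1, one_smul]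
  have hxw : B (act x w) u = 1 := by
    have a1 : B (act x (act x u)) (act x w) = 0 := by rw [B_act h]; exact h0
    have a2 : B (act x u) (act x w) = 1 := by rw [B_act h]; exact h1
    rw [hx u, h.hadd, a2] at a1
    rw [B_symm h]
    generalize B u (act x w) = c at a1
    revert a1; revert c; decide
  have f2 : act (tau h (act x w) ((Q_act x w).trans hw) * tau h w hw) u = w + u := by
    have hwu : B w u = 1 := by rw [B_symm h]; exact h1
    have hxww : B (act x w) w = 1 := by rw [B_symm h]; exact B_x h hx hw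
    rw [act_mul, act_tau, act_tau, hwu, one_smul, B_add_right h, hxw, hxww, zadd_self,
      zero_smul, add_zero, add_comm]
  rw [f1] at e1
  rw [f2] at e2
  exact e2.trans f hf e1.symm

theorem rel_of_B' (h : IsNdForm Q B) (hcard : 5 ≤ Fintype.card ι)
    {x : isometryGroup (ZMod 2) Q} (hx : ∀ v, act x (act x v) = act x v + v)
    (hxK : x ∈ ker f hf) {u w : ι → ZMod 2} (hu : Q u = 1) (hw : Q w = 1)
    (h1 : B u w = 1) : Rel f hf h u w := by
  rcases z_cases (B (act x u) w) with h0 | h0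
  · exact rel_of_B f hf h hcard hx hxK hu hw h1 h0
  · have hxu : Q (act x u) = 1 := (Q_act x u).trans hu
    have h2 : B (act x (act x u)) w = 0 := by
      rw [hx u, h.hadd, h0, h1]; decide
    exact (rel_of_pair f hf h hcard hx hxK hu).trans f hf
      (rel_of_B f hf h hcard hx hxK hxu hw h0 h2)

theorem rel_all (h : IsNdForm Q B) (hcard : 5 ≤ Fintype.card ι)
    {x : isometryGroup (ZMod 2) Q} (hx : ∀ v, act x (act x v) = act x v + v)
    (hxK : x ∈ ker f hf) {u w : ι → ZMod 2} (hu : Q u = 1) (hw : Q w = 1) :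
    Rel f hf h u w := by
  obtain ⟨z, hz1, hz2, hz⟩ := exists_common h hcard hu hw
  refine (rel_of_B' f hf h hcard hx hxK hu hz hz1).trans f hf ?_
  exact rel_of_B' f hf h hcard hx hxK hz hw (by rw [B_symm h]; exact hz2)

/-- If a crossed homomorphism vanishes at `x`, it is zero. -/
theorem eq_zero (h : IsNdForm Q B) (hcard : 5 ≤ Fintype.card ι)
    {x : isometryGroup (ZMod 2) Q} (hx : ∀ v, act x (act x v) = act x v + v)
    (hxK : x ∈ ker f hf) (g : Omega (ZMod 2) Q) : f g = 0 := by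
  have hle : Omega (ZMod 2) Q ≤ ker f hf := by
    apply omega_le h (T_eq_top h hcard)
    intro v w hv hw
    obtain ⟨_, _, hr⟩ := rel_all f hf h hcard hx hxK hv hw
    exact hr
  obtain ⟨_, h0⟩ := hle g.2
  exact h0

end Main2

/-- subtracting a principal crossed homomorphism -/
theorem sub_principal (f : Omega (ZMod 2) Q → (ι → ZMod 2))
    (hf : ∀ g k : Omega (ZMod 2) Q, f (g * k) = f g + act g.1 (f k)) (v : ι → ZMod 2)
    (g k : Omega (ZMod 2) Q) :
    f (g * k) + (act (g * k).1 v + v) = (f g + (act g.1 v + v)) + act g.1 (f k + (act k.1 v + v)) := by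
  rw [hf, act_add, act_add]
  have e : act (g * k).1 v = act g.1 (act k.1 v) := act_mul _ _ _
  rw [e]
  have e2 : act g.1 v + act g.1 v = 0 := vadd_self _
  calc f g + act g.1 (f k) + (act g.1 (act k.1 v) + v)
      = f g + act g.1 (f k) + (act g.1 (act k.1 v) + v) + (act g.1 v + act g.1 v) := by
        rw [e2, add_zero]
    _ = _ := by abel

theorem x_mem (x : isometryGroup (ZMod 2) Q) (h : IsNdForm Q B) (hcard : 5 ≤ Fintype.card ι)
    (hx : ∀ v, act x (act x v) = act x v + v) : x ∈ Omega (ZMod 2) Q := by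
  have hsq : ∀ g : isometryGroup (ZMod 2) Q,
      Abelianization.of g * Abelianization.of g = 1 := by
    intro g
    have hg : g ∈ T h := by rw [T_eq_top h hcard]; exact Subgroup.mem_top _
    rw [T] at hg
    refine Subgroup.closure_induction
      (p := fun g _ => Abelianization.of g * Abelianization.of g = 1) ?_ ?_ ?_ ?_ hg
    · rintro _ ⟨w, hw, rfl⟩
      rw [← map_mul, tau_mul_self, map_one]
    · rw [map_one, one_mul]
    · intro a b _ _ ha hb
      rw [map_mul]
      calc Abelianization.of a * Abelianization.of b * (Abelianization.of a * Abelianization.of b)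
          = (Abelianization.of a * Abelianization.of a) *
            (Abelianization.of b * Abelianization.of b) := by
            simp only [mul_comm, mul_left_comm]
        _ = 1 := by rw [ha, hb, one_mul]
    · intro a _ ha
      rw [map_inv, ← _root_.mul_inv_rev, ha, inv_one]
  have hx3 : x * x * x * x = x := by
    apply act_ext
    intro v
    simp only [act_mul, hx, act_add]
    have : ∀ a b : ι → ZMod 2, a + b + a + (a + b) = a := by
      intro a b
      have : a + b + a + (a + b) = a + (a + a) + (b + b) := by abel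
      rw [this, vadd_self, vadd_self, add_zero, add_zero]
    exact this _ _
  have h1 : Abelianization.of x = 1 := by
    have h2 := hsq (x * x)
    rw [← map_mul, ← mul_assoc, hx3] at h2
    exact h2
  exact (QuotientGroup.eq_one_iff x).mp h1

/-- **Main lemma.** -/
theorem principal (h : IsNdForm Q B) (hcard : 5 ≤ Fintype.card ι)
    (x : isometryGroup (ZMod 2) Q) (hx : ∀ v, act x (act x v) = act x v + v)
    (f : Omega (ZMod 2) Q → (ι → ZMod 2))
    (hf : ∀ g k : Omega (ZMod 2) Q, f (g * k) = f g + act g.1 (f k)) :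
    ∃ v : ι → ZMod 2, ∀ g : Omega (ZMod 2) Q, f g = act g.1 v - v := by
  have hxO := x_mem x h hcard hx
  set v : ι → ZMod 2 := act x (f ⟨x, hxO⟩) with hv
  refine ⟨v, fun g => ?_⟩
  have h1 := eq_zero (fun g => f g + (act g.1 v + v)) (sub_principal f hf v) h hcard hx
    ⟨hxO, by
      show f ⟨x, hxO⟩ + (act x v + v) = 0
      rw [hv, hx]
      generalize f ⟨x, hxO⟩ = w
      have : w + (act x w + w + act x w) = (w + w) + (act x w + act x w) := by abel
      rw [this, vadd_self, vadd_self, add_zero]⟩ g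
  rw [sub_eq_add']
  exact add_left_cancel' h1

end Cfsg.Agent.H817.CrossedHom
end

-- part: H817/CrossedFour
section
/-!
# Crossed homomorphisms of `Ω⁻(4,2)` into the natural module

Every crossed homomorphism of the commutator subgroup of the isometry group of the elliptic
quadratic form in dimension 4 over `ZMod 2` into the natural module is principal.
-/

set_option autoImplicit false

namespace Cfsg.Agent.H817.CrossedFour

open Cfsg Matrix
open scoped commutatorElement
open Cfsg.Agent.SporadicStructure.OrthTransTwo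
open Cfsg.Agent.H817.CrossedHom

/-- The polar form of the minus-type form. -/
def polarMinus (m : ℕ) (x y : (Fin m ⊕ Fin m) ⊕ Fin 2 → ZMod 2) : ZMod 2 :=
  (∑ i : Fin m, (x (.inl (.inl i)) * y (.inl (.inr i)) + y (.inl (.inl i)) * x (.inl (.inr i)))) +
    (x (.inr 0) * y (.inr 1) + x (.inr 1) * y (.inr 0))

theorem aux1 : ∀ a b c d : ZMod 2, (a + b) ^ 2 + 1 * (a + b) * (c + d) + 1 * (c + d) ^ 2 =
    (a ^ 2 + 1 * a * c + 1 * c ^ 2) + (b ^ 2 + 1 * b * d + 1 * d ^ 2) + (a * d + c * b) := by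
  decide

theorem isNdForm_minus (m : ℕ) : IsNdForm (quadFormMinus m (ZMod 2) 1 1) (polarMinus m) := by
  refine ⟨?_, ?_, ?_⟩
  · intro x y
    unfold quadFormMinus polarMinus
    simp only [Pi.add_apply]
    rw [aux1]
    have : ∑ i : Fin m, (x (.inl (.inl i)) + y (.inl (.inl i))) *
        (x (.inl (.inr i)) + y (.inl (.inr i))) =
        ∑ i : Fin m, x (.inl (.inl i)) * x (.inl (.inr i)) +
        ∑ i : Fin m, y (.inl (.inl i)) * y (.inl (.inr i)) +
        ∑ i : Fin m, (x (.inl (.inl i)) * y (.inl (.inr i)) +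
          y (.inl (.inl i)) * x (.inl (.inr i))) := by
      rw [← Finset.sum_add_distrib, ← Finset.sum_add_distrib]
      apply Finset.sum_congr rfl
      intro i _
      ring
    rw [this]
    ring
  · intro x y z
    unfold polarMinus
    simp only [Pi.add_apply]
    have : ∑ i : Fin m, ((x (.inl (.inl i)) + y (.inl (.inl i))) * z (.inl (.inr i)) +
        z (.inl (.inl i)) * (x (.inl (.inr i)) + y (.inl (.inr i)))) =
        ∑ i : Fin m, (x (.inl (.inl i)) * z (.inl (.inr i)) +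
          z (.inl (.inl i)) * x (.inl (.inr i))) +
        ∑ i : Fin m, (y (.inl (.inl i)) * z (.inl (.inr i)) +
          z (.inl (.inl i)) * y (.inl (.inr i))) := by
      rw [← Finset.sum_add_distrib]
      apply Finset.sum_congr rfl
      intro i _
      ring
    rw [this]
    ring
  · intro x hx
    ext j
    rcases j with (i | i) | i
    · have := hx (Pi.single (.inl (.inr i)) 1)
      unfold polarMinus at this
      rw [Finset.sum_eq_single i] at this
      · simpa using this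
      · intro j _ hj
        simp [hj]
      · simp
    · have := hx (Pi.single (.inl (.inl i)) 1)
      unfold polarMinus at this
      rw [Finset.sum_eq_single i] at this
      · simpa using this
      · intro j _ hj
        simp [hj]
      · simp
    · fin_cases i
      · have := hx (Pi.single (.inr 1) 1)
        unfold polarMinus at this
        simpa using this
      · have := hx (Pi.single (.inr 0) 1)
        unfold polarMinus at this
        simpa using this

section Gen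

variable {ι : Type} [Fintype ι] [DecidableEq ι]
variable {Q : (ι → ZMod 2) → ZMod 2} {B : (ι → ZMod 2) → (ι → ZMod 2) → ZMod 2}

/-- generation step for forms of Witt index at most one -/
theorem step' (h : IsNdForm Q B)
    (hW : ∀ a b : ι → ZMod 2, Q a = 0 → Q b = 0 → B a b = 0 → a = 0 ∨ b = 0 ∨ a = b)
    (g : isometryGroup (ZMod 2) Q) (hg : g ≠ 1) :
    ∃ t ∈ T h, (∀ x, act g x = x → act (t * g) x = x) ∧ ∃ u, act g u ≠ u ∧ act (t * g) u = u := by
  by_cases hcase : ∃ u, Q (act g u + u) = 1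
  · obtain ⟨u, hu⟩ := hcase
    have hBu : B (act g u) u = 1 := by
      rw [h.hQ, Q_act g u] at hu
      exact zaux6 _ _ hu
    refine ⟨tau h _ hu, tau_mem h hu, ?_, u, ?_, ?_⟩
    · intro x hx
      rw [act_mul, hx, act_tau, h.hadd]
      have : B (act g u) x = B u x := by
        conv_lhs => rw [← hx]
        exact B_act h g u x
      rw [this, zadd_self, zero_smul, add_zero]
    · intro hcon
      rw [hcon, vadd_self, Q_zero h] at hu
      exact zero_ne_one hu
    · rw [act_mul, act_tau, h.hadd, B_self h, zero_add, B_symm h, hBu, one_smul, ← add_assoc,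
        vadd_self, zero_add]
  · exfalso
    have hQ0 : ∀ u, Q (act g u + u) = 0 := by
      intro u
      rcases z_cases (Q (act g u + u)) with h0 | h0
      · exact h0
      · exact absurd ⟨u, h0⟩ hcase
    have hB0 : ∀ u, B (act g u) u = 0 := by
      intro u
      have := hQ0 u
      rw [h.hQ, Q_act g u] at this
      exact zaux7 _ _ this
    have hsym : ∀ u v, B (act g u) v = B u (act g v) := by
      intro u v
      have := hB0 (u + v)
      rw [act_add, h.hadd, B_add_right h, B_add_right h, hB0, hB0, zero_add, add_zero,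
        B_symm h (act g v)] at this
      exact zaux8 _ _ this
    have hex : ∃ u, act g u ≠ u := by
      by_contra hcon
      push Not at hcon
      apply hg
      apply act_ext
      intro x
      rw [act_one, hcon]
    obtain ⟨u, hu⟩ := hex
    have hNu : act g u + u ≠ 0 := fun hcon => hu (add_left_cancel' hcon)
    obtain ⟨v, hv⟩ := exists_B_eq_one h hNu
    have hab : B (act g u + u) (act g v + v) = 0 := by
      rw [h.hadd, B_add_right h, B_add_right h, B_act h, hsym]
      generalize B u v = p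
      generalize B u (act g v) = q
      revert p q
      decide
    have hv' : B u (act g v + v) = 1 := by
      rw [h.hadd, hsym, ← B_add_right h] at hv
      exact hv
    rcases hW _ _ (hQ0 u) (hQ0 v) hab with h1 | h1 | h1
    · exact hNu h1
    · rw [h1, B_zero_right h] at hv'
      exact zero_ne_one hv'
    · rw [← h1, B_add_right h, B_self h, add_zero, ← hsym, hB0] at hv'
      exact zero_ne_one hv'

theorem T_eq_top' (h : IsNdForm Q B)
    (hW : ∀ a b : ι → ZMod 2, Q a = 0 → Q b = 0 → B a b = 0 → a = 0 ∨ b = 0 ∨ a = b) :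
    T h = ⊤ := by
  classical
  rw [Subgroup.eq_top_iff']
  intro g
  induction hn : (Finset.univ.filter (fun x => act g x ≠ x)).card using Nat.strong_induction_on
    generalizing g with
  | _ n ih =>
    by_cases hg : g = 1
    · rw [hg]; exact one_mem _
    obtain ⟨t, ht, hfix, u, hu1, hu2⟩ := step' h hW g hg
    have hlt : (Finset.univ.filter (fun x => act (t * g) x ≠ x)).card < n := by
      rw [← hn]
      apply Finset.card_lt_card
      rw [Finset.ssubset_iff_of_subset]
      · exact ⟨u, by simpa using hu1, by simpa using hu2⟩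
      · intro x hx
        simp only [Finset.mem_filter, Finset.mem_univ, true_and] at hx ⊢
        exact fun hx' => hx (hfix x hx')
    have h1 := ih _ hlt (t * g) rfl
    have h2 : g = t⁻¹ * (t * g) := by group
    rw [h2]
    exact mul_mem (inv_mem ht) h1

end Gen

abbrev I4 : Type := (Fin 1 ⊕ Fin 1) ⊕ Fin 2
abbrev Q4 : (I4 → ZMod 2) → ZMod 2 := quadFormMinus 1 (ZMod 2) 1 1
abbrev B4 : (I4 → ZMod 2) → (I4 → ZMod 2) → ZMod 2 := polarMinus 1
abbrev h4 : IsNdForm Q4 B4 := isNdForm_minus 1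

set_option synthInstance.maxSize 10000 in
theorem witt4 : ∀ a b : I4 → ZMod 2, Q4 a = 0 → Q4 b = 0 → B4 a b = 0 → a = 0 ∨ b = 0 ∨ a = b := by
  decide +kernel

set_option synthInstance.maxSize 10000 in
theorem common4 : ∀ a b : I4 → ZMod 2, Q4 a = 1 → Q4 b = 1 →
    ∃ u, Q4 u = 1 ∧ B4 a u = 1 ∧ B4 u b = 1 := by
  decide +kernel

theorem trans4 {v w : I4 → ZMod 2} (hv : Q4 v = 1) (hw : Q4 w = 1) :
    ∃ g : isometryGroup (ZMod 2) Q4, act g v = w := by
  obtain ⟨u, hu, h1, h2⟩ := common4 v w hv hw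
  obtain ⟨g, hg⟩ := tau_swap h4 hv hu h1
  obtain ⟨k, hk⟩ := tau_swap h4 hu hw h2
  exact ⟨k * g, by rw [act_mul, hg, hk]⟩

theorem mem4 {v w : I4 → ZMod 2} (hv : Q4 v = 1) (hw : Q4 w = 1) :
    tau h4 v hv * tau h4 w hw ∈ Omega (ZMod 2) Q4 := by
  obtain ⟨g, hg⟩ := trans4 hv hw
  have h1 : tau h4 w hw = g * tau h4 v hv * g⁻¹ := by
    rw [conj_tau]
    exact tau_congr h4 _ _ hg.symm
  have h2 : tau h4 v hv * tau h4 w hw = ⁅tau h4 v hv, g⁆ := by
    rw [h1, commutatorElement_def, tau_inv]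
    simp only [mul_assoc]
  rw [h2]
  exact Subgroup.commutator_mem_commutator (Subgroup.mem_top _) (Subgroup.mem_top _)

/-- the vector with coordinates -/
def vec (a b c d : ZMod 2) : I4 → ZMod 2 :=
  Sum.elim (Sum.elim (fun _ => a) (fun _ => b)) ![c, d]

/-- the five singular vectors -/
def e : Fin 5 → (I4 → ZMod 2) :=
  ![vec 1 0 0 0, vec 0 1 0 0, vec 1 1 1 0, vec 1 1 0 1, vec 1 1 1 1]

/-- the ten non-singular vectors -/
def u (i j : Fin 5) : I4 → ZMod 2 := e i + e j

/-- the transvection as a function -/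
def tf (w x : I4 → ZMod 2) : I4 → ZMod 2 := x + B4 w x • w

theorem u_one : ∀ i j : Fin 5, i ≠ j → Q4 (u i j) = 1 := by decide +kernel

/-- the transvection of `u i j` -/
def t (i j : Fin 5) (hij : i ≠ j) : isometryGroup (ZMod 2) Q4 := tau h4 (u i j) (u_one i j hij)

theorem act_t (i j : Fin 5) (hij : i ≠ j) (x : I4 → ZMod 2) : act (t i j hij) x = tf (u i j) x :=
  act_tau h4 _ _ x

/-- the 5-cycle -/
def x5 : isometryGroup (ZMod 2) Q4 :=
  (t 0 1 (by decide) * t 1 2 (by decide)) * (t 2 3 (by decide) * t 3 4 (by decide))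

def s1 : isometryGroup (ZMod 2) Q4 := t 1 4 (by decide) * t 2 3 (by decide)

def s2 : isometryGroup (ZMod 2) Q4 := t 1 2 (by decide) * t 3 4 (by decide)

def xf (x : I4 → ZMod 2) : I4 → ZMod 2 := tf (u 0 1) (tf (u 1 2) (tf (u 2 3) (tf (u 3 4) x)))
def f1 (x : I4 → ZMod 2) : I4 → ZMod 2 := tf (u 1 4) (tf (u 2 3) x)
def f2 (x : I4 → ZMod 2) : I4 → ZMod 2 := tf (u 1 2) (tf (u 3 4) x)

theorem act_x (v : I4 → ZMod 2) : act x5 v = xf v := by
  simp only [x5, act_mul, act_t]; rfl

theorem act_s1 (v : I4 → ZMod 2) : act s1 v = f1 v := by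
  simp only [s1, act_mul, act_t]; rfl

theorem act_s2 (v : I4 → ZMod 2) : act s2 v = f2 v := by
  simp only [s2, act_mul, act_t]; rfl

theorem x_fpf : ∀ v, xf v = v → v = 0 := by decide +kernel
theorem x_surj : ∀ w, ∃ v, xf v + v = w := by decide +kernel
theorem x_inv : ∀ v, xf (f1 (xf v)) = f1 v := by decide +kernel
theorem s_comm : ∀ v, f1 (f2 v) = f2 (f1 v) := by decide +kernel
theorem s_sq : ∀ v, f2 (f2 v) = v := by decide +kernel
theorem sx_cube : ∀ v, f2 (xf (f2 (xf (f2 (xf v))))) = v := by decide +kernel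
set_option synthInstance.maxSize 10000 in
theorem s_zero : ∀ w, f2 w = w → f1 w = w → w + (f2 (xf w) + f2 (xf (f2 (xf w)))) = 0 → w = 0 := by
  decide +kernel
theorem x_u : ∀ i j : Fin 5, xf (u i j) = u (i + 1) (j + 1) := by decide +kernel
theorem all_u : ∀ w : I4 → ZMod 2, Q4 w = 1 → ∃ i : Fin 5, w = u i (i + 1) ∨ w = u i (i + 2) := by
  decide +kernel

theorem x_mem : x5 ∈ Omega (ZMod 2) Q4 := mul_mem (mem4 _ _) (mem4 _ _)
theorem s1_mem : s1 ∈ Omega (ZMod 2) Q4 := mem4 _ _
theorem s2_mem : s2 ∈ Omega (ZMod 2) Q4 := mem4 _ _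

section Main

variable (f : Omega (ZMod 2) Q4 → (I4 → ZMod 2))
  (hf : ∀ g k : Omega (ZMod 2) Q4, f (g * k) = f g + act g.1 (f k))

theorem s1_ker (hx : x5 ∈ ker f hf) : s1 ∈ ker f hf := by
  obtain ⟨hxO, hx0⟩ := hx
  refine ⟨s1_mem, ?_⟩
  have h1 : (⟨x5, hxO⟩ * (⟨s1, s1_mem⟩ * ⟨x5, hxO⟩) : Omega (ZMod 2) Q4) = ⟨s1, s1_mem⟩ := by
    apply Subtype.ext
    apply act_ext
    intro v
    show act (x5 * (s1 * x5)) v = act s1 v
    rw [act_mul, act_mul, act_x, act_s1, act_x, act_s1, x_inv]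
  have h2 := hf ⟨x5, hxO⟩ (⟨s1, s1_mem⟩ * ⟨x5, hxO⟩)
  rw [h1, hf, hx0, act_zero, add_zero, zero_add] at h2
  apply x_fpf
  rw [← act_x]
  exact h2.symm

theorem s2_ker (hx : x5 ∈ ker f hf) : s2 ∈ ker f hf := by
  obtain ⟨_, h10⟩ := s1_ker f hf hx
  obtain ⟨hxO, hx0⟩ := hx
  refine ⟨s2_mem, ?_⟩
  apply s_zero
  · -- from `s2² = 1`
    have h1 : (⟨s2, s2_mem⟩ * ⟨s2, s2_mem⟩ : Omega (ZMod 2) Q4) = 1 := by
      apply Subtype.ext
      apply act_ext
      intro v
      show act (s2 * s2) v = act 1 v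
      rw [act_mul, act_s2, act_s2, s_sq, act_one]
    have h2 := hf ⟨s2, s2_mem⟩ ⟨s2, s2_mem⟩
    rw [h1, f_one f hf] at h2
    rw [← act_s2]
    exact (add_left_cancel' h2.symm).symm
  · have h1 : (⟨s1, s1_mem⟩ * ⟨s2, s2_mem⟩ : Omega (ZMod 2) Q4) =
        ⟨s2, s2_mem⟩ * ⟨s1, s1_mem⟩ := by
      apply Subtype.ext
      apply act_ext
      intro v
      show act (s1 * s2) v = act (s2 * s1) v
      rw [act_mul, act_mul, act_s2, act_s1, act_s1, act_s2, s_comm]
    have h2 := hf ⟨s1, s1_mem⟩ ⟨s2, s2_mem⟩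
    have h3 := hf ⟨s2, s2_mem⟩ ⟨s1, s1_mem⟩
    rw [h1, h3, h10, act_zero, add_zero, zero_add] at h2
    rw [← act_s1]
    exact h2.symm
  · set y : Omega (ZMod 2) Q4 := ⟨s2, s2_mem⟩ * ⟨x5, hxO⟩ with hy
    have hfy : f y = f ⟨s2, s2_mem⟩ := by rw [hy, hf, hx0, act_zero, add_zero]
    have hay : ∀ v, act y.1 v = f2 (xf v) := by
      intro v
      show act (s2 * x5) v = _
      rw [act_mul, act_x, act_s2]
    have h1 : y * (y * y) = 1 := by
      apply Subtype.ext
      apply act_ext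
      intro v
      show act (y.1 * (y.1 * y.1)) v = act 1 v
      rw [act_mul, act_mul, hay, hay, hay, sx_cube, act_one]
    have h2 := hf y (y * y)
    have h3 := hf y y
    rw [hfy] at h3
    rw [h1, f_one f hf, h3, hfy, act_add, hay, hay] at h2
    exact h2.symm

/-- the relation `τ_u τ_w ∈ ker` -/
theorem rel_x (hx : x5 ∈ ker f hf) {v w : I4 → ZMod 2} (r : Rel f hf h4 v w) :
    Rel f hf h4 (xf v) (xf w) := by
  obtain ⟨hv, hw, r⟩ := r
  rw [← act_x, ← act_x]
  refine ⟨(Q_act x5 v).trans hv, (Q_act x5 w).trans hw, ?_⟩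
  rw [← conj_tau h4 x5 v hv, ← conj_tau h4 x5 w hw]
  have : x5 * tau h4 v hv * x5⁻¹ * (x5 * tau h4 w hw * x5⁻¹) =
    x5 * (tau h4 v hv * tau h4 w hw) * x5⁻¹ := by group
  rw [this]
  exact mul_mem (mul_mem hx r) (inv_mem hx)

theorem rel_D (hx : x5 ∈ ker f hf) (i : Fin 5) :
    Rel f hf h4 (u (i + 1) (i + 2)) (u (i + 3) (i + 4)) := by
  have base : Rel f hf h4 (u 1 2) (u 3 4) := ⟨_, _, s2_ker f hf hx⟩
  have hs : ∀ i : Fin 5, Rel f hf h4 (u (i + 1) (i + 2)) (u (i + 3) (i + 4)) →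
      Rel f hf h4 (u (i + 1 + 1) (i + 1 + 2)) (u (i + 1 + 3) (i + 1 + 4)) := by
    intro i r
    have := rel_x f hf hx r
    rw [x_u, x_u] at this
    have e1 : ∀ i : Fin 5, i + 2 + 1 = i + 1 + 2 := by decide
    have e2 : ∀ i : Fin 5, i + 3 + 1 = i + 1 + 3 := by decide
    have e3 : ∀ i : Fin 5, i + 4 + 1 = i + 1 + 4 := by decide
    rw [e1, e2, e3] at this
    exact this
  have r0 : Rel f hf h4 (u (0 + 1) (0 + 2)) (u (0 + 3) (0 + 4)) := base
  fin_cases i
  · exact r0
  · exact hs 0 r0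
  · exact hs 1 (hs 0 r0)
  · exact hs 2 (hs 1 (hs 0 r0))
  · exact hs 3 (hs 2 (hs 1 (hs 0 r0)))

theorem rel_E (hx : x5 ∈ ker f hf) (i : Fin 5) :
    Rel f hf h4 (u (i + 1) (i + 4)) (u (i + 2) (i + 3)) := by
  have base : Rel f hf h4 (u 1 4) (u 2 3) := ⟨_, _, s1_ker f hf hx⟩
  have hs : ∀ i : Fin 5, Rel f hf h4 (u (i + 1) (i + 4)) (u (i + 2) (i + 3)) →
      Rel f hf h4 (u (i + 1 + 1) (i + 1 + 4)) (u (i + 1 + 2) (i + 1 + 3)) := by
    intro i r
    have := rel_x f hf hx r
    rw [x_u, x_u] at this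
    have e1 : ∀ i : Fin 5, i + 2 + 1 = i + 1 + 2 := by decide
    have e2 : ∀ i : Fin 5, i + 3 + 1 = i + 1 + 3 := by decide
    have e3 : ∀ i : Fin 5, i + 4 + 1 = i + 1 + 4 := by decide
    rw [e1, e2, e3] at this
    exact this
  have r0 : Rel f hf h4 (u (0 + 1) (0 + 4)) (u (0 + 2) (0 + 3)) := base
  fin_cases i
  · exact r0
  · exact hs 0 r0
  · exact hs 1 (hs 0 r0)
  · exact hs 2 (hs 1 (hs 0 r0))
  · exact hs 3 (hs 2 (hs 1 (hs 0 r0)))

theorem rel_refl {w : I4 → ZMod 2} (hw : Q4 w = 1) : Rel f hf h4 w w :=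
  ⟨hw, hw, by rw [tau_mul_self]; exact one_mem _⟩

theorem rel_D0 (hx : x5 ∈ ker f hf) (i : Fin 5) : Rel f hf h4 (u 0 1) (u i (i + 1)) := by
  -- `D i ~ D (i+2)`
  have hD : ∀ i : Fin 5, Rel f hf h4 (u i (i + 1)) (u (i + 2) (i + 3)) := by
    intro i
    have := rel_D f hf hx (i + 4)
    have e0 : ∀ i : Fin 5, i + 4 + 1 = i := by decide
    have e1 : ∀ i : Fin 5, i + 4 + 2 = i + 1 := by decide
    have e2 : ∀ i : Fin 5, i + 4 + 3 = i + 2 := by decide
    have e3 : ∀ i : Fin 5, i + 4 + 4 = i + 3 := by decide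
    rw [e0, e1, e2, e3] at this
    exact this
  have r0 : Rel f hf h4 (u 0 1) (u 0 1) := rel_refl f hf (u_one 0 1 (by decide))
  have r2 : Rel f hf h4 (u 0 1) (u 2 3) := hD 0
  have r4 : Rel f hf h4 (u 0 1) (u 4 0) := r2.trans f hf (hD 2)
  have r1 : Rel f hf h4 (u 0 1) (u 1 2) := r4.trans f hf (hD 4)
  have r3 : Rel f hf h4 (u 0 1) (u 3 4) := r1.trans f hf (hD 1)
  fin_cases i
  · exact r0
  · exact r1
  · exact r2
  · exact r3
  · exact r4

theorem u_symm (i j : Fin 5) : u i j = u j i := add_comm _ _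

theorem rel_all4 (hx : x5 ∈ ker f hf) {w : I4 → ZMod 2} (hw : Q4 w = 1) :
    Rel f hf h4 (u 0 1) w := by
  obtain ⟨i, rfl | rfl⟩ := all_u w hw
  · exact rel_D0 f hf hx i
  · -- `E`
    have h1 := rel_E f hf hx (i + 1)
    have e0 : ∀ i : Fin 5, i + 1 + 1 = i + 2 := by decide
    have e1 : ∀ i : Fin 5, i + 1 + 4 = i := by decide
    have e2 : ∀ i : Fin 5, i + 1 + 3 = i + 1 + 2 + 1 := by decide
    rw [e0, e1, e2, u_symm (i + 2) i] at h1
    exact (rel_D0 f hf hx (i + 1 + 2)).trans f hf h1.symm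

theorem eq_zero4 (hx : x5 ∈ ker f hf) (g : Omega (ZMod 2) Q4) : f g = 0 := by
  have hle : Omega (ZMod 2) Q4 ≤ ker f hf := by
    apply omega_le h4 (T_eq_top' h4 witt4)
    intro v w hv hw
    obtain ⟨_, _, hr⟩ := ((rel_all4 f hf hx hv).symm).trans f hf (rel_all4 f hf hx hw)
    exact hr
  obtain ⟨_, h0⟩ := hle g.2
  exact h0

end Main

/-- **`H¹(Ω⁻(4,2), F₂⁴) = 0`.** -/
theorem principal4 (f : Omega (ZMod 2) Q4 → (I4 → ZMod 2))
    (hf : ∀ g k : Omega (ZMod 2) Q4, f (g * k) = f g + act g.1 (f k)) :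
    ∃ v : I4 → ZMod 2, ∀ g : Omega (ZMod 2) Q4, f g = act g.1 v - v := by
  obtain ⟨v, hv⟩ := x_surj (f ⟨x5, x_mem⟩)
  refine ⟨v, fun g => ?_⟩
  have h1 := eq_zero4 (fun g => f g + (act g.1 v + v)) (sub_principal f hf v)
    ⟨x_mem, by
      show f ⟨x5, x_mem⟩ + (act x5 v + v) = 0
      rw [act_x, hv, vadd_self]⟩ g
  rw [sub_eq_add']
  exact add_left_cancel' h1

end Cfsg.Agent.H817.CrossedFour
end

-- part: S5405
section
set_option autoImplicit false
open scoped MatrixGroups
open Cfsg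

namespace Cfsg.Agent.S5405

open Cfsg.Agent.SporadicStructure.OrthTransTwo
open Cfsg.Agent.H817.CrossedHom Cfsg.Agent.H817.CrossedFour

/-- an isometry from a matrix with `M² = M + 1` -/
def mk {ι : Type} [Fintype ι] [DecidableEq ι] (Q : (ι → ZMod 2) → ZMod 2)
    (M : Matrix ι ι (ZMod 2)) (h1 : M * (M * M) = 1) (h2 : M * M * M = 1)
    (hQ : ∀ v, Q (Matrix.mulVec M v) = Q v) : isometryGroup (ZMod 2) Q :=
  ⟨⟨M, M * M, h1, h2⟩, fun u _ => hQ u⟩

theorem mk_rel {ι : Type} [Fintype ι] [DecidableEq ι] (Q : (ι → ZMod 2) → ZMod 2)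
    (M : Matrix ι ι (ZMod 2)) (h1 : M * (M * M) = 1) (h2 : M * M * M = 1)
    (hQ : ∀ v, Q (Matrix.mulVec M v) = Q v) (h3 : M * M = M + 1) (v : ι → ZMod 2) :
    act (mk Q M h1 h2 hQ) (act (mk Q M h1 h2 hQ) v) = act (mk Q M h1 h2 hQ) v + v := by
  show Matrix.mulVec M (Matrix.mulVec M v) = Matrix.mulVec M v + v
  rw [Matrix.mulVec_mulVec, h3, Matrix.add_mulVec, Matrix.one_mulVec]

/-- the matrix of order 3 on a plane -/
def A : Matrix (Fin 2) (Fin 2) (ZMod 2) := !![0, 1; 1, 1]

def M6 : Matrix ((Fin 2 ⊕ Fin 2) ⊕ Fin 2) ((Fin 2 ⊕ Fin 2) ⊕ Fin 2) (ZMod 2) :=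
  Matrix.fromBlocks (Matrix.fromBlocks A 0 0 !![1, 1; 1, 0]) 0 0 A

def A4 : Matrix (Fin 4) (Fin 4) (ZMod 2) := !![0, 1, 0, 0; 1, 1, 0, 0; 0, 0, 0, 1; 0, 0, 1, 1]
def A4' : Matrix (Fin 4) (Fin 4) (ZMod 2) := !![1, 1, 0, 0; 1, 0, 0, 0; 0, 0, 1, 1; 0, 0, 1, 0]

def M8 : Matrix (Fin 4 ⊕ Fin 4) (Fin 4 ⊕ Fin 4) (ZMod 2) := Matrix.fromBlocks A4 0 0 A4'

theorem M6_1 : M6 * (M6 * M6) = 1 := by decide +kernel
theorem M6_2 : M6 * M6 * M6 = 1 := by decide +kernel
theorem M6_3 : M6 * M6 = M6 + 1 := by decide +kernel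
theorem M6_Q : ∀ v, quadFormMinus 2 (ZMod 2) 1 1 (Matrix.mulVec M6 v) =
    quadFormMinus 2 (ZMod 2) 1 1 v := by decide +kernel
theorem M8_1 : M8 * (M8 * M8) = 1 := by decide +kernel
theorem M8_2 : M8 * M8 * M8 = 1 := by decide +kernel
theorem M8_3 : M8 * M8 = M8 + 1 := by decide +kernel
theorem M8_Q : ∀ v, quadFormPlus 4 (ZMod 2) (Matrix.mulVec M8 v) =
    quadFormPlus 4 (ZMod 2) v := by decide +kernel

/-- Vanishing of first cohomology on the natural module for three small orthogonal groups over the field with two elements: for the commutator subgroup of the isometry group of the elliptic quadratic form in dimension 4, of the elliptic form in dimension 6, and of the hyperbolic form in dimension 8, every crossed homomorphism into the natural module (a map f with f(gh) = f(g) + g·f(h)) is principal (of the form g ↦ g·v − v). -/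
theorem result : (∀ f : ↥(Cfsg.Omega (ZMod 2) (Cfsg.quadFormMinus 1 (ZMod 2) 1 1)) → ((Fin 1 ⊕ Fin 1) ⊕ Fin 2 → ZMod 2), (∀ g h : ↥(Cfsg.Omega (ZMod 2) (Cfsg.quadFormMinus 1 (ZMod 2) 1 1)), f (g * h) = f g + Matrix.mulVec (((g : ↥(Cfsg.isometryGroup (ZMod 2) (Cfsg.quadFormMinus 1 (ZMod 2) 1 1))) : GL ((Fin 1 ⊕ Fin 1) ⊕ Fin 2) (ZMod 2)) : Matrix ((Fin 1 ⊕ Fin 1) ⊕ Fin 2) ((Fin 1 ⊕ Fin 1) ⊕ Fin 2) (ZMod 2)) (f h)) → ∃ v : (Fin 1 ⊕ Fin 1) ⊕ Fin 2 → ZMod 2, ∀ g : ↥(Cfsg.Omega (ZMod 2) (Cfsg.quadFormMinus 1 (ZMod 2) 1 1)), f g = Matrix.mulVec (((g : ↥(Cfsg.isometryGroup (ZMod 2) (Cfsg.quadFormMinus 1 (ZMod 2) 1 1))) : GL ((Fin 1 ⊕ Fin 1) ⊕ Fin 2) (ZMod 2)) : Matrix ((Fin 1 ⊕ Fin 1) ⊕ Fin 2) ((Fin 1 ⊕ Fin 1) ⊕ Fin 2) (ZMod 2)) v - v) ∧ (∀ f : ↥(Cfsg.Omega (ZMod 2) (Cfsg.quadFormMinus 2 (ZMod 2) 1 1)) → ((Fin 2 ⊕ Fin 2) ⊕ Fin 2 → ZMod 2), (∀ g h : ↥(Cfsg.Omega (ZMod 2) (Cfsg.quadFormMinus 2 (ZMod 2) 1 1)), f (g * h) = f g + Matrix.mulVec (((g : ↥(Cfsg.isometryGroup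 (ZMod 2) (Cfsg.quadFormMinus 2 (ZMod 2) 1 1))) : GL ((Fin 2 ⊕ Fin 2) ⊕ Fin 2) (ZMod 2)) : Matrix ((Fin 2 ⊕ Fin 2) ⊕ Fin 2) ((Fin 2 ⊕ Fin 2) ⊕ Fin 2) (ZMod 2)) (f h)) → ∃ v : (Fin 2 ⊕ Fin 2) ⊕ Fin 2 → ZMod 2, ∀ g : ↥(Cfsg.Omega (ZMod 2) (Cfsg.quadFormMinus 2 (ZMod 2) 1 1)), f g = Matrix.mulVec (((g : ↥(Cfsg.isometryGroup (ZMod 2) (Cfsg.quadFormMinus 2 (ZMod 2) 1 1))) : GL ((Fin 2 ⊕ Fin 2) ⊕ Fin 2) (ZMod 2)) : Matrix ((Fin 2 ⊕ Fin 2) ⊕ Fin 2) ((Fin 2 ⊕ Fin 2) ⊕ Fin 2) (ZMod 2)) v - v) ∧ (∀ f : ↥(Cfsg.Omega (ZMod 2) (Cfsg.quadFormPlus 4 (ZMod 2))) → (Fin 4 ⊕ Fin 4 → ZMod 2), (∀ g h : ↥(Cfsg.Omega (ZMod 2) (Cfsg.quadFormPlus 4 (ZMod 2))), f (g * h) = f g + Matrix.mulVec (((g : ↥(Cfsg.isometryGroup (ZMod 2) (Cfsg.quadFormPlus 4 (ZMod 2)))) : GL (Fin 4 ⊕ Fin 4) (ZMod 2)) : Matrix (Fin 4 ⊕ Fin 4) (Fin 4 ⊕ Fin 4) (ZMod 2)) (f h)) → ∃ v : Fin 4 ⊕ Fin 4 → ZMod 2, ∀ g : ↥(Cfsg.Omega (ZMod 2) (Cfsg.quadFormPlus 4 (ZMod 2))), f g = Matrix.mulVec (((g : ↥(Cfsg.isometryGroup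 (ZMod 2) (Cfsg.quadFormPlus 4 (ZMod 2)))) : GL (Fin 4 ⊕ Fin 4) (ZMod 2)) : Matrix (Fin 4 ⊕ Fin 4) (Fin 4 ⊕ Fin 4) (ZMod 2)) v - v) := by
  refine ⟨fun f hf => principal4 f hf, fun f hf => ?_, fun f hf => ?_⟩
  · exact principal (isNdForm_minus 2) (by simp)
      (mk _ M6 M6_1 M6_2 M6_Q) (mk_rel _ M6 M6_1 M6_2 M6_Q M6_3) f hf
  · exact principal (Cfsg.Agent.S1629.isNdForm_plus 4) (by simp)
      (mk _ M8 M8_1 M8_2 M8_Q) (mk_rel _ M8 M8_1 M8_2 M8_Q M8_3) f hf

end Cfsg.Agent.S5405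
end
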