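import Cfsg.Statements.S5437
set_option linter.all false
-- import your own Cfsg.Agent.* helpers here

set_option autoImplicit false
open Cfsg

namespace Cfsg.Agent.S5437

/-- Let I be a set of involutions of the finite group G closed under conjugation, and H a subgroup of G. The following are equivalent: (1) for every member x of I lying in H, the conjugates of x lying in H form a single H-class and the centralizer of x lies in H; (2) for every g outside H, no member of I lies in both H and g H g⁻¹; (3) every member of I lying in H fixes exactly one coset in the action of G on the cosets of H. -/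
theorem result {G : Type*} [Group G] [Finite G] (I : Set G) (hI : ∀ x ∈ I, orderOf x = 2) (hIc : ∀ g : G, ∀ x ∈ I, g * x * g⁻¹ ∈ I) (H : Subgroup G) : ((∀ x ∈ I, x ∈ H → (∀ g : G, g * x * g⁻¹ ∈ H → ∃ h ∈ H, h * x * h⁻¹ = g * x * g⁻¹) ∧ Subgroup.centralizer ({x} : Set G) ≤ H) ↔ (∀ g : G, g ∉ H → ∀ x ∈ I, ¬ (x ∈ H ∧ x ∈ (H : Subgroup G).map (MulAut.conj g).toMonoidHom))) ∧ ((∀ g : G, g ∉ H → ∀ x ∈ I, ¬ (x ∈ H ∧ x ∈ (H : Subgroup G).map (MulAut.conj g).toMonoidHom)) ↔ ∀ x ∈ I, x ∈ H → ∃! c : G ⧸ H, x • c = c) := by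
  have fixiff : ∀ (x g : G), x • ((g : G) : G ⧸ H) = ((g : G) : G ⧸ H) ↔ g⁻¹ * x * g ∈ H := by
    intro x g
    rw [MulAction.Quotient.smul_coe, smul_eq_mul, eq_comm, QuotientGroup.eq, mul_assoc]
  have memiff : ∀ (x g : G), x ∈ (H : Subgroup G).map (MulAut.conj g).toMonoidHom ↔
      g⁻¹ * x * g ∈ H := by
    intro x g
    constructor
    · rintro ⟨h, hh, rfl⟩
      have : g⁻¹ * (MulAut.conj g).toMonoidHom h * g = h := by
        simp [MulAut.conj_apply, mul_assoc]
      rw [this]; exact hh
    · intro h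
      refine ⟨_, h, ?_⟩
      simp [MulAut.conj_apply, mul_assoc]
  refine ⟨⟨?_, ?_⟩, ⟨?_, ?_⟩⟩
  · intro h1 g hg x hx hxx
    obtain ⟨hxH, hxg⟩ := hxx
    rw [memiff] at hxg
    obtain ⟨hf, hc⟩ := h1 x hx hxH
    obtain ⟨h, hh, he⟩ := hf g⁻¹ (by simpa using hxg)
    apply hg
    have hgh : g * h ∈ Subgroup.centralizer ({x} : Set G) := by
      rw [Subgroup.mem_centralizer_singleton_iff]
      have he' : h * x = g⁻¹ * x * g * h := by
        rw [inv_inv] at he
        rw [← he]; group
      calc g * h * x = g * (h * x) := by group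
        _ = g * (g⁻¹ * x * g * h) := by rw [he']
        _ = x * (g * h) := by group
    have := hc hgh
    have h3 : g = (g * h) * h⁻¹ := by group
    rw [h3]
    exact H.mul_mem this (H.inv_mem hh)
  · intro h2 x hx hxH
    refine ⟨?_, ?_⟩
    · intro g hg
      by_contra hcon
      have hgH : g⁻¹ ∉ H := by
        intro hgi
        exact hcon ⟨g, by simpa using H.inv_mem hgi, rfl⟩
      refine h2 g⁻¹ hgH x hx ⟨hxH, ?_⟩
      rw [memiff]
      simpa using hg
    · intro c hc
      by_contra hcH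
      refine h2 c hcH x hx ⟨hxH, ?_⟩
      rw [memiff]
      rw [Subgroup.mem_centralizer_singleton_iff] at hc
      have : c⁻¹ * x * c = x := by
        rw [mul_assoc, ← hc]; group
      rw [this]; exact hxH
  · intro h2 x hx hxH
    refine ⟨((1 : G) : G ⧸ H), ?_, ?_⟩
    · show x • ((1 : G) : G ⧸ H) = ((1 : G) : G ⧸ H)
      rw [fixiff]; simpa using hxH
    · intro c hc
      obtain ⟨g, rfl⟩ := QuotientGroup.mk_surjective c
      have hc' : x • ((g : G) : G ⧸ H) = ((g : G) : G ⧸ H) := hc
      rw [fixiff] at hc'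
      by_contra hne
      have hg : g ∉ H := by
        intro hg
        apply hne
        show ((g : G) : G ⧸ H) = ((1 : G) : G ⧸ H)
        rw [eq_comm, QuotientGroup.eq]
        simpa using hg
      exact h2 g hg x hx ⟨hxH, (memiff x g).2 hc'⟩
  · intro h3 g hg x hx hxx
    obtain ⟨hxH, hxg⟩ := hxx
    rw [memiff] at hxg
    obtain ⟨c, hc, hu⟩ := h3 x hx hxH
    have e1 : ((1 : G) : G ⧸ H) = c := hu _ (by
      show x • ((1 : G) : G ⧸ H) = ((1 : G) : G ⧸ H)
      rw [fixiff]; simpa using hxH)
    have e2 : ((g : G) : G ⧸ H) = c := hu _ (by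
      show x • ((g : G) : G ⧸ H) = ((g : G) : G ⧸ H)
      rw [fixiff]; exact hxg)
    apply hg
    have := e1.trans e2.symm
    rw [QuotientGroup.eq] at this
    simpa using this

end Cfsg.Agent.S5437
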