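import Cfsg.Statements.S5438
set_option linter.all false
-- import your own Cfsg.Agent.* helpers here

set_option autoImplicit false
open Cfsg

namespace Cfsg.Agent.S5438

theorem orderOf_conj_eq {G : Type*} [Group G] (g x : G) : orderOf (g * x * g⁻¹) = orderOf x :=
  MulEquiv.orderOf_eq (MulAut.conj g) x

/-- A 2-element of `K` is `K`-conjugate into `L` when `L` meets `K` in a subgroup of odd index. -/
theorem exists_conj_mem {G : Type*} [Group G] [Finite G] (K L : Subgroup G)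
    (hodd : ¬ 2 ∣ L.relIndex K) (x : G) (hxK : x ∈ K) (hx : ∃ k : ℕ, orderOf x = 2 ^ k) :
    ∃ k ∈ K, k⁻¹ * x * k ∈ L := by
  classical
  have : Fact (Nat.Prime 2) := ⟨Nat.prime_two⟩
  let x' : K := ⟨x, hxK⟩
  have hpg : IsPGroup 2 (Subgroup.zpowers x') := by
    obtain ⟨k, hk⟩ := hx
    apply IsPGroup.of_card (n := k)
    rw [Nat.card_zpowers]
    rw [← hk]
    exact Subgroup.orderOf_mk x hxK
  have hcard : ¬ 2 ∣ Nat.card (K ⧸ L.subgroupOf K) := hodd
  obtain ⟨c, hc⟩ := hpg.nonempty_fixed_point_of_prime_not_dvd_card (K ⧸ L.subgroupOf K) hcard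
  obtain ⟨k, rfl⟩ := QuotientGroup.mk_surjective c
  refine ⟨k, k.2, ?_⟩
  have h1 := hc ⟨x', Subgroup.mem_zpowers x'⟩
  have h2 : ((x' * k : K) : K ⧸ L.subgroupOf K) = ((k : K) : K ⧸ L.subgroupOf K) := h1
  rw [eq_comm, QuotientGroup.eq, Subgroup.mem_subgroupOf] at h2
  simpa [mul_assoc] using h2

/-- If a 2-element `w` of `K` fixes only the coset `H`, then `H ∩ K` has odd index in `K`. -/
theorem odd_relIndex {G : Type*} [Group G] [Finite G] (K H : Subgroup G)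
    (w : G) (hwK : w ∈ K) (hwH : w ∈ H) (hw : ∃ k : ℕ, orderOf w = 2 ^ k)
    (hfix : ∀ g : G, g⁻¹ * w * g ∈ H → g ∈ H) : ¬ 2 ∣ H.relIndex K := by
  classical
  have : Fact (Nat.Prime 2) := ⟨Nat.prime_two⟩
  let w' : K := ⟨w, hwK⟩
  have hpg : IsPGroup 2 (Subgroup.zpowers w') := by
    obtain ⟨k, hk⟩ := hw
    apply IsPGroup.of_card (n := k)
    rw [Nat.card_zpowers]
    rw [← hk]
    exact Subgroup.orderOf_mk w hwK
  have hmod := hpg.card_modEq_card_fixedPoints (K ⧸ H.subgroupOf K)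
  have hone : Nat.card (MulAction.fixedPoints (Subgroup.zpowers w') (K ⧸ H.subgroupOf K)) = 1 := by
    rw [Nat.card_eq_one_iff_unique]
    refine ⟨⟨?_⟩, ⟨⟨((1 : K) : K ⧸ H.subgroupOf K), ?_⟩⟩⟩
    · have key : ∀ c ∈ MulAction.fixedPoints (Subgroup.zpowers w') (K ⧸ H.subgroupOf K),
          c = ((1 : K) : K ⧸ H.subgroupOf K) := by
        intro c hc
        obtain ⟨k, rfl⟩ := QuotientGroup.mk_surjective c
        have h1 := hc ⟨w', Subgroup.mem_zpowers w'⟩
        have h2 : ((w' * k : K) : K ⧸ H.subgroupOf K) = ((k : K) : K ⧸ H.subgroupOf K) := h1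
        rw [eq_comm, QuotientGroup.eq, Subgroup.mem_subgroupOf] at h2
        have h3 : (k : G) ∈ H := hfix k (by simpa [mul_assoc] using h2)
        show ((k : K) : K ⧸ H.subgroupOf K) = _
        rw [eq_comm, QuotientGroup.eq, Subgroup.mem_subgroupOf]
        simpa using h3
      rintro ⟨a, ha⟩ ⟨b, hb⟩
      rw [Subtype.mk.injEq, key a ha, key b hb]
    · rintro ⟨y, hy⟩
      show ((y * 1 : K) : K ⧸ H.subgroupOf K) = ((1 : K) : K ⧸ H.subgroupOf K)
      rw [eq_comm, QuotientGroup.eq, Subgroup.mem_subgroupOf]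
      have hyle : Subgroup.zpowers w' ≤ H.subgroupOf K := by
        rw [Subgroup.zpowers_le]; exact hwH
      have h4 : ((y : K) : G) ∈ H := hyle hy
      simpa using h4
  rw [hone] at hmod
  intro hdvd
  have h2 : Nat.card (K ⧸ H.subgroupOf K) ≡ 0 [MOD 2] := (Nat.modEq_zero_iff_dvd).2 hdvd
  have := h2.symm.trans hmod
  simp [Nat.ModEq] at this


/-- Let z be a 2-central involution of the finite group G (an involution central in some Sylow 2-subgroup) and H a subgroup containing z such that the coset H is the only coset of H fixed by z (in the action of G on the cosets of H). Then H has odd index in G, and for every 2-element x of H the conjugates of x lying in H form a single H-class. -/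
theorem result {G : Type*} [Group G] [Finite G] (z : G) (hz : Cfsg.IsTwoCentralInvolution z) (H : Subgroup G) (hzH : z ∈ H) (hfix : ∀ g : G, g⁻¹ * z * g ∈ H → g ∈ H) : Odd H.index ∧ ∀ x ∈ H, (∃ k : ℕ, orderOf x = 2 ^ k) → ∀ g : G, g * x * g⁻¹ ∈ H → ∃ h ∈ H, h * x * h⁻¹ = g * x * g⁻¹ := by
  classical
  have : Fact (Nat.Prime 2) := ⟨Nat.prime_two⟩
  obtain ⟨hz2, P, hzP, hPc⟩ := hz
  have hz2' : ∃ k : ℕ, orderOf z = 2 ^ k := ⟨1, by simpa using hz2⟩
  have hCH : Subgroup.centralizer ({z} : Set G) ≤ H := by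
    intro c hc
    rw [Subgroup.mem_centralizer_singleton_iff] at hc
    apply hfix
    have : c⁻¹ * z * c = z := by
      rw [mul_assoc, ← hc]; group
    rw [this]; exact hzH
  have hPH : (P : Subgroup G) ≤ H := by
    intro x hx
    apply hCH
    rw [Subgroup.mem_centralizer_singleton_iff]
    exact hPc x hx
  have hidx : Odd H.index := by
    rw [← Nat.not_even_iff_odd, even_iff_two_dvd]
    intro h2
    exact P.not_dvd_index (h2.trans (Subgroup.index_dvd_of_le hPH))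
  refine ⟨hidx, ?_⟩
  -- every 2-element of `H` commutes with an `H`-conjugate of `z`
  have hPrel : ¬ 2 ∣ (P : Subgroup G).relIndex H := by
    intro h2
    apply P.not_dvd_index
    rw [← Subgroup.relIndex_mul_index hPH]
    exact Dvd.dvd.mul_right h2 _
  have hcomm : ∀ x ∈ H, (∃ k : ℕ, orderOf x = 2 ^ k) →
      ∃ h ∈ H, (h * z * h⁻¹) * x = x * (h * z * h⁻¹) := by
    intro x hx hx2
    obtain ⟨h, hh, hhx⟩ := exists_conj_mem H (P : Subgroup G) hPrel x hx hx2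
    refine ⟨h, hh, ?_⟩
    have h1 := hPc _ hhx
    calc (h * z * h⁻¹) * x = h * (z * (h⁻¹ * x * h)) * h⁻¹ := by group
      _ = h * ((h⁻¹ * x * h) * z) * h⁻¹ := by rw [h1]
      _ = x * (h * z * h⁻¹) := by group
  intro x hx hx2 g hgx
  set y := g * x * g⁻¹ with hy
  have hy2 : ∃ k : ℕ, orderOf y = 2 ^ k := by
    obtain ⟨k, hk⟩ := hx2
    refine ⟨k, ?_⟩
    rw [← hk, hy]
    exact orderOf_conj_eq g x
  obtain ⟨h₁, hh₁, hc₁⟩ := hcomm x hx hx2
  obtain ⟨h₂, hh₂, hc₂⟩ := hcomm y hgx hy2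
  set K := Subgroup.centralizer ({y} : Set G) with hK
  set w := h₂ * z * h₂⁻¹ with hw
  have hwK : w ∈ K := by
    rw [hK, Subgroup.mem_centralizer_singleton_iff]
    exact hc₂
  have hwH : w ∈ H := H.mul_mem (H.mul_mem hh₂ hzH) (H.inv_mem hh₂)
  have hw2 : ∃ k : ℕ, orderOf w = 2 ^ k := by
    obtain ⟨k, hk⟩ := hz2'
    refine ⟨k, ?_⟩
    rw [← hk, hw]
    exact orderOf_conj_eq h₂ z
  have hwfix : ∀ g : G, g⁻¹ * w * g ∈ H → g ∈ H := by
    intro g hg
    have h1 : h₂⁻¹ * g ∈ H := by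
      apply hfix
      have : (h₂⁻¹ * g)⁻¹ * z * (h₂⁻¹ * g) = g⁻¹ * w * g := by
        rw [hw]; group
      rw [this]; exact hg
    have h2 : g = h₂ * (h₂⁻¹ * g) := by group
    rw [h2]
    exact H.mul_mem hh₂ h1
  have hodd := odd_relIndex K H w hwK hwH hw2 hwfix
  set v := g * (h₁ * z * h₁⁻¹) * g⁻¹ with hv
  have hvK : v ∈ K := by
    rw [hK, Subgroup.mem_centralizer_singleton_iff, hv, hy]
    calc g * (h₁ * z * h₁⁻¹) * g⁻¹ * (g * x * g⁻¹) = g * ((h₁ * z * h₁⁻¹) * x) * g⁻¹ := by group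
      _ = g * (x * (h₁ * z * h₁⁻¹)) * g⁻¹ := by rw [hc₁]
      _ = g * x * g⁻¹ * (g * (h₁ * z * h₁⁻¹) * g⁻¹) := by group
  have hv2 : ∃ k : ℕ, orderOf v = 2 ^ k := by
    obtain ⟨k, hk⟩ := hz2'
    refine ⟨k, ?_⟩
    rw [← hk, hv, orderOf_conj_eq, orderOf_conj_eq]
  obtain ⟨c, hcK, hcv⟩ := exists_conj_mem K H hodd v hvK hv2
  have h3 : h₁⁻¹ * g⁻¹ * c ∈ H := by
    apply hfix
    have : (h₁⁻¹ * g⁻¹ * c)⁻¹ * z * (h₁⁻¹ * g⁻¹ * c) = c⁻¹ * v * c := by
      rw [hv]; group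
    rw [this]; exact hcv
  have h4 : c⁻¹ * g ∈ H := by
    have h5 : h₁ * (h₁⁻¹ * g⁻¹ * c) ∈ H := H.mul_mem hh₁ h3
    have h6 : c⁻¹ * g = (h₁ * (h₁⁻¹ * g⁻¹ * c))⁻¹ := by group
    rw [h6]; exact H.inv_mem h5
  refine ⟨c⁻¹ * g, h4, ?_⟩
  rw [hK, Subgroup.mem_centralizer_singleton_iff] at hcK
  calc c⁻¹ * g * x * (c⁻¹ * g)⁻¹ = c⁻¹ * (y * c) := by rw [hy]; group
    _ = c⁻¹ * (c * y) := by rw [hcK]
    _ = y := by group

end Cfsg.Agent.S5438
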