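import Cfsg.Agent.S1713
import Cfsg.Agent.S1714
import Cfsg.Agent.KFacts.FiTTh.Has
import Cfsg.Agent.Fischer.Fi22Order
import Cfsg.Agent.H836.JIso
import Cfsg.Statements.S5455
import Cfsg.Agent.Prune
set_option linter.all false
open scoped Cfsg.Agent.FastGrp

-- part: H836/Rec23
section
/-!
# Recognition of `Fi23` with its transpositions (helper836)

`exists_iso` : in the situation of S1714 (with `C(d)/⟨d⟩` as in S1713) there is `f : G ≃* Fi23` with `f d` conjugate to `z0`.
-/

set_option autoImplicit false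

namespace Cfsg.Agent.H836.Rec23

open Subgroup Cfsg Cfsg.Spor
open Cfsg.Agent.KFacts.FiTTh Cfsg.Agent.R08.FiTwentyThree
open Cfsg.Agent.Fischer.Fi23Z (z0)

universe u

theorem mem_D_of_thirteen {t : Fi23} (h2 : t * t = 1) (h1 : t ≠ 1)
    (h13 : 13 ∣ Nat.card (centralizer ({t} : Set Fi23))) : t ∈ D := by
  rcases Has.inv t h2 h1 with h | h | h
  · exact h.symm
  · rw [Has.card_cent_of_isConj h] at h13
    exact absurd h13 Cent.c2
  · rw [Has.card_cent_of_isConj h] at h13
    exact absurd h13 Cent.c3

theorem card_cent_map {G H : Type*} [Group G] [Group H] (f : G ≃* H) (x : G) :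
    Nat.card (centralizer ({f x} : Set H)) = Nat.card (centralizer ({x} : Set G)) := by
  have h : (centralizer ({x} : Set G)).map f.toMonoidHom = centralizer ({f x} : Set H) := by
    ext y
    rw [mem_centralizer_singleton_iff]
    constructor
    · rintro ⟨z, hz, rfl⟩
      have hz' := mem_centralizer_singleton_iff.1 hz
      show f z * f x = f x * f z
      rw [← map_mul, hz', map_mul]
    · intro hy
      refine ⟨f.symm y, mem_centralizer_singleton_iff.2 ?_, f.apply_symm_apply y⟩
      apply f.injective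
      rw [map_mul, map_mul, f.apply_symm_apply, hy]
  rw [← h]
  exact (Nat.card_congr ((centralizer ({x} : Set G)).equivMapOfInjective _ f.injective).toEquiv).symm

/-- see the file docstring -/
theorem exists_iso {G : Type u} [Group G] [Finite G] (d : G) (hd : orderOf d = 2)
    (hq : Cfsg.IsQuasisimple ↥(Subgroup.centralizer ({d} : Set G)))
    [hzn : ((Subgroup.zpowers d).subgroupOf (Subgroup.centralizer ({d} : Set G))).Normal]
    (hinvol : ∃ d' : ↥(Subgroup.centralizer ({d} : Set G)) ⧸ (Subgroup.zpowers d).subgroupOf (Subgroup.centralizer ({d} : Set G)),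
      orderOf d' = 2 ∧ Cfsg.IsQuasisimple ↥(Subgroup.centralizer ({d'} : Set _)) ∧
      (∃ (K : Type) (_ : Field K) (_ : Fintype K), Fintype.card K = 4 ∧
        ∃ _ : ((Subgroup.zpowers d').subgroupOf (Subgroup.centralizer ({d'} : Set _))).Normal,
          Nonempty (↥(Subgroup.centralizer ({d'} : Set _)) ⧸ (Subgroup.zpowers d').subgroupOf (Subgroup.centralizer ({d'} : Set _)) ≃* Cfsg.PSU 6 K 2)) ∧
      ∃ g, g * d' * g⁻¹ ∈ Subgroup.centralizer ({d'} : Set _) ∧ g * d' * g⁻¹ ≠ d')
    (hnwc : ∃ g : G, g * d * g⁻¹ ∈ Subgroup.centralizer ({d} : Set G) ∧ g * d * g⁻¹ ≠ d) :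
    ∃ f : G ≃* Spor.Fi23, f d ∈ D := by
  obtain ⟨d', hd', hq', ⟨K, _, _, hK, hn', ⟨e⟩⟩, hnwc'⟩ := hinvol
  have h22 := Cfsg.Agent.S1713.result d' hd' hq' K hK e hnwc'
  obtain ⟨f⟩ := Cfsg.Agent.S1714.result d hd hq h22 hnwc
  refine ⟨f, ?_⟩
  have hdd : d * d = 1 := by rw [← pow_two, ← hd, pow_orderOf_eq_one]
  apply mem_D_of_thirteen
  · rw [← map_mul, hdd, map_one]
  · intro h
    have h1 : d = 1 := f.injective (by rw [h, map_one])
    rw [h1, orderOf_one] at hd
    exact absurd hd (by norm_num)
  · rw [card_cent_map]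
    obtain ⟨e'⟩ := h22
    have h1 : Nat.card (↥(Subgroup.centralizer ({d} : Set G)) ⧸ (Subgroup.zpowers d).subgroupOf (Subgroup.centralizer ({d} : Set G))) =
        64561751654400 := by
      rw [Nat.card_congr e'.toEquiv]
      exact Cfsg.Agent.Fischer.Fi22Order.card_fi22
    have h2 : Nat.card (↥(Subgroup.centralizer ({d} : Set G)) ⧸ (Subgroup.zpowers d).subgroupOf (Subgroup.centralizer ({d} : Set G))) ∣
        Nat.card ↥(Subgroup.centralizer ({d} : Set G)) := Subgroup.card_quotient_dvd_card _
    rw [h1] at h2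
    exact Dvd.dvd.trans (by norm_num) h2

end Cfsg.Agent.H836.Rec23
end

-- part: S5455
section
set_option autoImplicit false
open Cfsg

namespace Cfsg.Agent.S5455

/-- Let G be a finite group with an involution d whose centralizer C is quasisimple, such that C modulo the subgroup generated by d is of type M(22) with respect to some conjugacy class of 3-transpositions generating it and also has an involution whose own centralizer is quasisimple with quotient by it isomorphic to the projective special unitary group of dimension 6 over the field with four elements and which is not weakly closed in that centralizer; and suppose some conjugate of d other than d commutes with d. Let S be a Sylow 2-subgroup of C and A the Thompson subgroup of S, regarded as a subgroup of G. Then A is elementary abelian of order 2^11, exactly 23 conjugates of d lie in A, and the normalizer of A permutes them transitively. -/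
theorem result {G : Type*} [Group G] [Finite G] (d : G) (hd : orderOf d = 2) (hq : Cfsg.IsQuasisimple ↥(Subgroup.centralizer ({d} : Set G))) [hzn : ((Subgroup.zpowers d).subgroupOf (Subgroup.centralizer ({d} : Set G))).Normal] (htype : ∃ E : Set (↥(Subgroup.centralizer ({d} : Set G)) ⧸ (Subgroup.zpowers d).subgroupOf (Subgroup.centralizer ({d} : Set G))), Cfsg.IsThreeTranspositionClass E ∧ Cfsg.IsOfTypeM22 _ E) (hinvol : ∃ d' : ↥(Subgroup.centralizer ({d} : Set G)) ⧸ (Subgroup.zpowers d).subgroupOf (Subgroup.centralizer ({d} : Set G)), orderOf d' = 2 ∧ Cfsg.IsQuasisimple ↥(Subgroup.centralizer ({d'} : Set _)) ∧ (∃ (K : Type) (_ : Field K) (_ : Fintype K), Fintype.card K = 4 ∧ ∃ _ : ((Subgroup.zpowers d').subgroupOf (Subgroup.centralizer ({d'} : Set _))).Normal, Nonempty (↥(Subgroup.centralizer ({d'} : Set _)) ⧸ (Subgroup.zpowers d').subgroupOf (Subgroup.centralizer ({d'} : Set _)) ≃* Cfsg.PSU 6 K 2)) ∧ ∃ g, g * d' * g⁻¹ ∈ Subgroup.centralizer ({d'} : Set _) ∧ g * d' * g⁻¹ ≠ d') (hnwc : ∃ g : G, g * d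 * g⁻¹ ∈ Subgroup.centralizer ({d} : Set G) ∧ g * d * g⁻¹ ≠ d) (S : Sylow 2 ↥(Subgroup.centralizer ({d} : Set G))) (A : Subgroup G) (hA : A = (Cfsg.thompsonSubgroupOf 2 (S : Subgroup ↥(Subgroup.centralizer ({d} : Set G)))).map (Subgroup.centralizer ({d} : Set G)).subtype) : Cfsg.IsElementaryAbelian 2 A ∧ Nat.card A = 2 ^ 11 ∧ Set.ncard {x : G | x ∈ A ∧ IsConj d x} = 23 ∧ ∀ x ∈ A, ∀ y ∈ A, IsConj d x → IsConj d y → ∃ n ∈ Subgroup.normalizer (A : Set G), n * x * n⁻¹ = y := by
  obtain ⟨f, hf⟩ := Cfsg.Agent.H836.Rec23.exists_iso d hd hq hinvol hnwc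
  exact (Cfsg.Agent.H836.JIso.fi23 f hf).final (by rw [← pow_two, ← hd, pow_orderOf_eq_one]) S A hA

end Cfsg.Agent.S5455
end
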