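import Cfsg.Statements.S5459
set_option linter.all false

set_option autoImplicit false
open Cfsg

namespace Cfsg.Agent.S5459

/-- Conjugation action on the vertices of the commuting graph of `conjugatesOf d` preserves
reachability. -/
theorem reach_conj {G : Type*} [Group G] {d : G} {x y : conjugatesOf d}
    (h : (Cfsg.commutingGraph (conjugatesOf d)).Reachable x y) (g : G)
    {x' y' : conjugatesOf d} (hx : (x' : G) = g * x * g⁻¹) (hy : (y' : G) = g * y * g⁻¹) :
    (Cfsg.commutingGraph (conjugatesOf d)).Reachable x' y' := by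
  have key : ∀ a : conjugatesOf d, g * (a : G) * g⁻¹ ∈ conjugatesOf d := by
    intro a
    have ha : IsConj d (a : G) := a.2
    exact ha.trans (isConj_iff.2 ⟨g, rfl⟩)
  let f : (Cfsg.commutingGraph (conjugatesOf d)) →g (Cfsg.commutingGraph (conjugatesOf d)) :=
    { toFun := fun a => ⟨g * (a : G) * g⁻¹, key a⟩
      map_rel' := by
        intro a b hab
        simp only [Cfsg.commutingGraph, SimpleGraph.fromRel_adj] at hab ⊢
        refine ⟨?_, ?_⟩
        · intro hne
          apply hab.1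
          have := congrArg Subtype.val hne
          apply Subtype.ext
          simpa using this
        · rcases hab.2 with h | h
          · left
            exact (Commute.conj_iff g).2 h
          · right
            exact (Commute.conj_iff g).2 h }
  have h2 := h.map f
  have e1 : f x = x' := Subtype.ext hx.symm
  have e2 : f y = y' := Subtype.ext hy.symm
  rwa [e1, e2] at h2

theorem result {G : Type*} [Group G] [Finite G] (L : Subgroup G) [L.Normal] (hL : Cfsg.IsQuasisimple ↥L) (d : G) (hd : orderOf d = 2) (hgen : L ⊔ Subgroup.zpowers d = ⊤) (hodd : Odd (Nat.card ↥(Subgroup.center ↥L))) (hinv : ∀ c ∈ (Subgroup.center ↥L).map L.subtype, d * c * d⁻¹ = c⁻¹) [hn : ((Subgroup.center ↥L).map L.subtype).Normal] (hconn : (Cfsg.commutingGraph (conjugatesOf (QuotientGroup.mk d : G ⧸ (Subgroup.center ↥L).map L.subtype))).Connected) : (Cfsg.commutingGraph (conjugatesOf d)).Connected := by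
  classical
  set Z : Subgroup G := (Subgroup.center ↥L).map L.subtype with hZdef
  have hZcard : Odd (Nat.card Z) := by
    have : Nat.card Z = Nat.card ↥(Subgroup.center ↥L) := by
      rw [hZdef]
      exact (Nat.card_congr ((Subgroup.center ↥L).equivMapOfInjective _ L.subtype_injective).toEquiv).symm
    rw [this]; exact hodd
  have hZcomm : ∀ a ∈ Z, ∀ b ∈ Z, a * b = b * a := by
    rintro _ ⟨a, ha, rfl⟩ _ ⟨b, hb, rfl⟩
    have := (Subgroup.mem_center_iff.1 hb) a
    have h2 := congrArg Subtype.val this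
    simpa using h2
  have hZL : ∀ a ∈ Z, ∀ l ∈ L, a * l = l * a := by
    rintro _ ⟨a, ha, rfl⟩ l hl
    have := (Subgroup.mem_center_iff.1 ha) ⟨l, hl⟩
    have h2 := congrArg Subtype.val this
    simpa using h2.symm
  have hZleL : Z ≤ L := by
    rintro _ ⟨a, _, rfl⟩; exact a.2
  -- square roots in Z
  have hsqrt : ∀ c ∈ Z, ∃ b ∈ Z, b * b = c := by
    intro c hc
    obtain ⟨k, hk⟩ := hZcard
    refine ⟨c ^ (k + 1), Z.pow_mem hc _, ?_⟩
    have h1 : c ^ (Nat.card Z) = 1 := by
      have h0 : (⟨c, hc⟩ : Z) ^ (Nat.card Z) = 1 := pow_card_eq_one'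
      have h00 := congrArg Subtype.val h0
      rwa [Subgroup.coe_pow] at h00
    rw [← pow_add]
    have : k + 1 + (k + 1) = Nat.card Z + 1 := by omega
    rw [this, pow_add, h1]; simp
  -- conjugates of d invert Z
  have hinvD : ∀ x : G, IsConj d x → ∀ c ∈ Z, x * c * x⁻¹ = c⁻¹ := by
    intro x hx c hc
    obtain ⟨g, rfl⟩ := isConj_iff.1 hx
    have h1 : g⁻¹ * c * g ∈ Z := by
      have := hn.conj_mem c hc g⁻¹
      simpa using this
    have h2 := hinv _ h1
    have h3 : g * d * g⁻¹ * c * (g * d * g⁻¹)⁻¹ = g * (d * (g⁻¹ * c * g) * d⁻¹) * g⁻¹ := by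
      group
    rw [h3, h2]; group
  have hord : ∀ x : G, IsConj d x → x * x = 1 := by
    intro x hx
    obtain ⟨g, rfl⟩ := isConj_iff.1 hx
    have : d * d = 1 := by
      have := pow_orderOf_eq_one d
      rw [hd, pow_two] at this; exact this
    calc g * d * g⁻¹ * (g * d * g⁻¹) = g * (d * d) * g⁻¹ := by group
      _ = 1 := by rw [this]; group
  -- x c is conjugate to x under Z
  have hconjZ : ∀ x : G, IsConj d x → ∀ c ∈ Z, ∃ b ∈ Z, b * x * b⁻¹ = x * c := by
    intro x hx c hc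
    obtain ⟨b, hb, hbc⟩ := hsqrt c hc
    refine ⟨b⁻¹, Z.inv_mem hb, ?_⟩
    have h1 := hinvD x hx b hb
    -- x b x⁻¹ = b⁻¹  -> b⁻¹ x = x b
    have h2 : b⁻¹ * x = x * b := by rw [← h1]; group
    rw [h2, inv_inv, mul_assoc, hbc]
  -- lifting of adjacency
  have hlift : ∀ x y : G, IsConj d x → IsConj d y →
      Commute (QuotientGroup.mk x : G ⧸ Z) (QuotientGroup.mk y : G ⧸ Z) →
      ∃ c ∈ Z, Commute x (y * c) := by
    intro x y hx hy hxy
    have h1 : (x * y) * (x * y) ∈ Z := by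
      rw [← QuotientGroup.eq_one_iff]
      have hxx : (QuotientGroup.mk x : G ⧸ Z) * QuotientGroup.mk x = 1 := by
        rw [← QuotientGroup.mk_mul, hord x hx, QuotientGroup.mk_one]
      have hyy : (QuotientGroup.mk y : G ⧸ Z) * QuotientGroup.mk y = 1 := by
        rw [← QuotientGroup.mk_mul, hord y hy, QuotientGroup.mk_one]
      rw [QuotientGroup.mk_mul, QuotientGroup.mk_mul]
      calc (QuotientGroup.mk x : G ⧸ Z) * QuotientGroup.mk y * (QuotientGroup.mk x * QuotientGroup.mk y)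
          = QuotientGroup.mk x * (QuotientGroup.mk y * QuotientGroup.mk x) * QuotientGroup.mk y := by group
        _ = QuotientGroup.mk x * (QuotientGroup.mk x * QuotientGroup.mk y) * QuotientGroup.mk y := by
            rw [hxy.eq]
        _ = (QuotientGroup.mk x * QuotientGroup.mk x) * (QuotientGroup.mk y * QuotientGroup.mk y) := by group
        _ = 1 := by rw [hxx, hyy, mul_one]
    obtain ⟨b, hb, hbc⟩ := hsqrt _ (Z.inv_mem h1)
    refine ⟨b, hb, ?_⟩
    -- xy centralizes b
    have hb1 : x * b * x⁻¹ = b⁻¹ := hinvD x hx b hb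
    have hb2 : y * b * y⁻¹ = b⁻¹ := hinvD y hy b hb
    have hb3 : (x * y) * b = b * (x * y) := by
      have e1 : y * b = b⁻¹ * y := by rw [← hb2]; group
      have e2 : x * b⁻¹ = b * x := by
        have : x * b⁻¹ * x⁻¹ = b := by
          have := congrArg (·⁻¹) hb1
          simp only [mul_inv_rev, inv_inv] at this
          rw [← mul_assoc] at this
          exact this
        calc x * b⁻¹ = (x * b⁻¹ * x⁻¹) * x := by group
          _ = b * x := by rw [this]
      calc x * y * b = x * (y * b) := by group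
        _ = x * b⁻¹ * y := by rw [e1]; group
        _ = b * (x * y) := by rw [e2]; group
    have hsq : (x * (y * b)) * (x * (y * b)) = 1 := by
      calc (x * (y * b)) * (x * (y * b)) = (x * y) * (b * (x * y)) * b := by group
        _ = (x * y) * ((x * y) * b) * b := by rw [hb3]
        _ = ((x * y) * (x * y)) * (b * b) := by group
        _ = 1 := by rw [hbc]; group
    have hyb : (y * b) * (y * b) = 1 := by
      obtain ⟨u, hu, hub⟩ := hconjZ y hy b hb
      rw [← hub]
      apply hord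
      exact hy.trans (isConj_iff.2 ⟨u, rfl⟩)
    have hxx := hord x hx
    show x * (y * b) = (y * b) * x
    have e1 : x⁻¹ = x := inv_eq_of_mul_eq_one_left hxx
    have e2 : (y * b)⁻¹ = y * b := inv_eq_of_mul_eq_one_left hyb
    have e3 : (x * (y * b))⁻¹ = x * (y * b) := inv_eq_of_mul_eq_one_left hsq
    rw [← e3, mul_inv_rev, e1, e2]
  have hdD : d ∈ conjugatesOf d := mem_conjugatesOf_self
  set Γ := Cfsg.commutingGraph (conjugatesOf d) with hΓ
  let v0 : conjugatesOf d := ⟨d, hdD⟩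
  -- every vertex of the quotient graph reachable from d̄ is the image of one reachable from d
  have hreach : ∀ w : conjugatesOf (QuotientGroup.mk d : G ⧸ Z),
      ∃ y : conjugatesOf d, Γ.Reachable v0 y ∧ (QuotientGroup.mk (y : G) : G ⧸ Z) = w := by
    intro w
    have hw : (Cfsg.commutingGraph (conjugatesOf (QuotientGroup.mk d : G ⧸ Z))).Reachable
        ⟨QuotientGroup.mk d, mem_conjugatesOf_self⟩ w := hconn.preconnected _ _
    obtain ⟨p⟩ := hw
    suffices H : ∀ (a b : conjugatesOf (QuotientGroup.mk d : G ⧸ Z))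
        (_ : (Cfsg.commutingGraph (conjugatesOf (QuotientGroup.mk d : G ⧸ Z))).Walk a b),
        (∃ y : conjugatesOf d, Γ.Reachable v0 y ∧ (QuotientGroup.mk (y : G) : G ⧸ Z) = a) →
        (∃ y : conjugatesOf d, Γ.Reachable v0 y ∧ (QuotientGroup.mk (y : G) : G ⧸ Z) = b) by
      exact H _ _ p ⟨v0, SimpleGraph.Reachable.refl _, rfl⟩
    intro a b q
    induction q with
    | nil => exact id
    | @cons u v w hadj q ih =>
      rintro ⟨y, hy1, hy2⟩
      apply ih
      simp only [Cfsg.commutingGraph, SimpleGraph.fromRel_adj] at hadj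
      have hcomm : Commute (u : G ⧸ Z) (v : G ⧸ Z) := by
        rcases hadj.2 with h | h
        · exact h
        · exact h.symm
      obtain ⟨g', hg'⟩ := isConj_iff.1 (show IsConj (QuotientGroup.mk d : G ⧸ Z) (v : G ⧸ Z) from v.2)
      obtain ⟨g, rfl⟩ := QuotientGroup.mk_surjective g'
      have hv : (v : G ⧸ Z) = QuotientGroup.mk (g * d * g⁻¹) := by
        rw [← hg']; rfl
      have hgd : IsConj d (g * d * g⁻¹) := isConj_iff.2 ⟨g, rfl⟩
      rw [← hy2, hv] at hcomm
      obtain ⟨c, hc, hcc⟩ := hlift y (g * d * g⁻¹) y.2 hgd hcomm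
      obtain ⟨u', hu', hu''⟩ := hconjZ _ hgd c hc
      have hmem : g * d * g⁻¹ * c ∈ conjugatesOf d := by
        rw [← hu'']
        exact hgd.trans (isConj_iff.2 ⟨u', rfl⟩)
      have himg : (QuotientGroup.mk (g * d * g⁻¹ * c) : G ⧸ Z) = v := by
        rw [hv, QuotientGroup.mk_mul, (QuotientGroup.eq_one_iff c).2 hc, mul_one]
      refine ⟨⟨g * d * g⁻¹ * c, hmem⟩, ?_, himg⟩
      refine hy1.trans (SimpleGraph.Adj.reachable ?_)
      simp only [hΓ, Cfsg.commutingGraph, SimpleGraph.fromRel_adj]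
      refine ⟨?_, Or.inl hcc⟩
      intro heq
      apply hadj.1
      apply Subtype.ext
      rw [← hy2, ← himg, heq]
  -- stabilizer of the component of d
  let H : Subgroup G :=
    { carrier := {g | ∃ y : conjugatesOf d, (y : G) = g * d * g⁻¹ ∧ Γ.Reachable v0 y}
      one_mem' := ⟨v0, by simp [v0], SimpleGraph.Reachable.refl _⟩
      mul_mem' := by
        rintro a b ⟨x, hx1, hx2⟩ ⟨y, hy1, hy2⟩
        have hm : a * b * d * (a * b)⁻¹ ∈ conjugatesOf d := isConj_iff.2 ⟨a * b, rfl⟩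
        refine ⟨⟨_, hm⟩, rfl, ?_⟩
        refine hx2.trans (reach_conj hy2 a hx1 ?_)
        rw [hy1]; group
      inv_mem' := by
        rintro a ⟨x, hx1, hx2⟩
        have hm : a⁻¹ * d * (a⁻¹)⁻¹ ∈ conjugatesOf d := isConj_iff.2 ⟨a⁻¹, rfl⟩
        refine ⟨⟨_, hm⟩, rfl, ?_⟩
        refine reach_conj hx2.symm a⁻¹ ?_ rfl
        rw [hx1]; simp [v0]; group }
  have hHmem : ∀ g : G, g ∈ H ↔ ∃ y : conjugatesOf d, (y : G) = g * d * g⁻¹ ∧ Γ.Reachable v0 y :=
    fun g => Iff.rfl
  have hdH : d ∈ H := by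
    rw [hHmem]
    exact ⟨v0, by simp [v0], SimpleGraph.Reachable.refl _⟩
  have hZH : ∀ g : G, ∃ z ∈ Z, z * g ∈ H := by
    intro g
    have hgd : IsConj (QuotientGroup.mk d : G ⧸ Z) (QuotientGroup.mk (g * d * g⁻¹)) :=
      isConj_iff.2 ⟨QuotientGroup.mk g, rfl⟩
    obtain ⟨y, hy1, hy2⟩ := hreach ⟨QuotientGroup.mk (g * d * g⁻¹), hgd⟩
    have hy3 : (g * d * g⁻¹)⁻¹ * (y : G) ∈ Z := by
      rw [← QuotientGroup.eq]; exact hy2.symm
    obtain ⟨b, hb, hbb⟩ := hconjZ (g * d * g⁻¹) (isConj_iff.2 ⟨g, rfl⟩) _ hy3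
    refine ⟨b, hb, ?_⟩
    rw [hHmem]
    refine ⟨y, ?_, hy1⟩
    have : (y : G) = b * (g * d * g⁻¹) * b⁻¹ := by rw [hbb]; group
    rw [this]; group
  -- L ≤ H
  have hLH : L ≤ H := by
    have hperf : (⁅(⊤ : Subgroup ↥L), (⊤ : Subgroup ↥L)⁆ : Subgroup ↥L) = ⊤ := by
      have := hL.1
      exact Group.isPerfect_def.1 this
    have hcomm : ∀ a ∈ L, ∀ b ∈ L, a * b * a⁻¹ * b⁻¹ ∈ H := by
      intro a ha b hb
      obtain ⟨z, hz, hza⟩ := hZH a
      obtain ⟨w, hw, hwb⟩ := hZH b
      have e : a * b * a⁻¹ * b⁻¹ = (z * a) * (w * b) * (z * a)⁻¹ * (w * b)⁻¹ := by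
        have c1 := hZL z hz a ha
        have c2 := hZL z hz b hb
        have c3 := hZL w hw a ha
        have c4 := hZL w hw b hb
        have c5 := hZcomm z hz w hw
        have hzb : ∀ l ∈ L, z * l * z⁻¹ = l := fun l hl => by rw [hZL z hz l hl]; group
        have hwl : ∀ l ∈ L, w * l * w⁻¹ = l := fun l hl => by rw [hZL w hw l hl]; group
        calc a * b * a⁻¹ * b⁻¹ = (w * (a * b * a⁻¹) * w⁻¹) * b⁻¹ := by
              rw [hwl _ (L.mul_mem (L.mul_mem ha hb) (L.inv_mem ha))]
          _ = (z * (w * (a * b * a⁻¹)) * z⁻¹) * (w⁻¹ * b⁻¹) := by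
              rw [hzb _ (L.mul_mem (hZleL hw) (L.mul_mem (L.mul_mem ha hb) (L.inv_mem ha)))]; group
          _ = (z * (w * a) * b * a⁻¹ * z⁻¹) * (w⁻¹ * b⁻¹) := by group
          _ = (z * (a * w) * b * a⁻¹ * z⁻¹) * (w⁻¹ * b⁻¹) := by rw [c3]
          _ = (z * a) * (w * b) * (z * a)⁻¹ * (b * w)⁻¹ := by group
          _ = (z * a) * (w * b) * (z * a)⁻¹ * (w * b)⁻¹ := by rw [c4]
      rw [e]
      exact H.mul_mem (H.mul_mem (H.mul_mem hza hwb) (H.inv_mem hza)) (H.inv_mem hwb)
    have hle : (⁅(⊤ : Subgroup ↥L), (⊤ : Subgroup ↥L)⁆ : Subgroup ↥L) ≤ H.comap L.subtype := by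
      rw [Subgroup.commutator_le]
      intro a _ b _
      exact hcomm a a.2 b b.2
    rw [hperf] at hle
    intro l hl
    exact hle (Subgroup.mem_top (⟨l, hl⟩ : ↥L))
  have hHtop : H = ⊤ := by
    rw [eq_top_iff, ← hgen]
    refine sup_le hLH ?_
    rw [Subgroup.zpowers_le]
    exact hdH
  have hall : ∀ y : conjugatesOf d, Γ.Reachable v0 y := by
    intro y
    obtain ⟨g, hg⟩ := isConj_iff.1 (show IsConj d (y : G) from y.2)
    have : g ∈ H := by rw [hHtop]; trivial
    obtain ⟨y', hy', hr⟩ := (hHmem g).1 this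
    have : y' = y := Subtype.ext (by rw [hy', hg])
    rwa [this] at hr
  have : Nonempty (conjugatesOf d) := ⟨v0⟩
  exact ⟨fun a b => (hall a).symm.trans (hall b)⟩

end Cfsg.Agent.S5459
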