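import Cfsg.Agent.R08.TetBasic
import Cfsg.Agent.H831.Short
import Cfsg.Statements.S5471
set_option linter.all false

-- part: H833/Tri
section
/-!
# The centralizer of the product of three commuting transpositions (helper833)

`L` a normal set of 3-transpositions without short relations (`TetBasic.Tr`), `a`, `b`, `c` different commuting
members of `L`; if `a`, `b` and `b`, `c` can be interchanged (fixing the third one) then
`C(a b c) / C(a, b, c) ≅ S₃`.
-/

set_option autoImplicit false

namespace Cfsg.Agent.H833.Tri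

open Cfsg.Agent.R08.TetBasic

variable {G : Type*} [Group G] {L : Set G}

/-- `t` commutes neither with `a` nor with `b`: `t a b t` interchanges `a` and `b`. -/
theorem swap_of (h : Tr L) {a b c t : G} (ha : a ∈ L) (hb : b ∈ L) (ht : t ∈ L) (cab : Commute a b)
    (hta : ¬ Commute t a) (htb : ¬ Commute t b) (cac : Commute a c) (cbc : Commute b c) (htc : Commute t c) :
    ∃ g : G, g * a * g⁻¹ = b ∧ g * b * g⁻¹ = a ∧ g * c * g⁻¹ = c := by
  have h1 := h.braid ht ha hta
  have h2 := h.braid ht hb htb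
  have tt := h.sq t ht
  have aa := h.sq a ha
  have bb := h.sq b hb
  have key : ∀ a b : G, a ∈ L → b ∈ L → Commute a b → t * a * t = a * t * a → t * b * t = b * t * b →
      a * a = 1 → b * b = 1 → (t * (a * b) * t) * a * (t * (a * b) * t)⁻¹ = b := by
    intro a b ha hb cab h1 h2 aa bb
    have hi : (t * (a * b) * t)⁻¹ = t * (a * b) * t := by
      rw [mul_inv_rev, mul_inv_rev, mul_inv_rev, h.inv ht, h.inv ha, h.inv hb, ← cab.eq]
      simp only [mul_assoc]
    rw [hi]
    calc t * (a * b) * t * a * (t * (a * b) * t) = t * (b * a) * t * a * (t * (a * b) * t) := by rw [cab.eq]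
      _ = t * b * a * (t * a * t) * (a * b) * t := by simp only [mul_assoc]
      _ = t * b * a * (a * t * a) * (a * b) * t := by rw [h1]
      _ = t * b * (a * a) * t * (a * a) * b * t := by simp only [mul_assoc]
      _ = t * (b * t * b) * t := by rw [aa]; simp only [mul_assoc, one_mul, mul_one]
      _ = t * (t * b * t) * t := by rw [h2]
      _ = (t * t) * b * (t * t) := by simp only [mul_assoc]
      _ = b := by rw [tt, one_mul, mul_one]
  refine ⟨t * (a * b) * t, key a b ha hb cab h1 h2 aa bb, ?_, ?_⟩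
  · have := key b a hb ha cab.symm h2 h1 bb aa
    rwa [cab.symm.eq] at this
  · have h3 : Commute (t * (a * b) * t) c := (htc.mul_left (cac.mul_left cbc)).mul_left htc
    rw [h3.eq, mul_assoc, mul_inv_cancel, mul_one]

theorem main (h : Tr L) {a b c : G} (ha : a ∈ L) (hb : b ∈ L) (hc : c ∈ L) (nab : a ≠ b) (nac : a ≠ c)
    (nbc : b ≠ c) (cab : Commute a b) (cac : Commute a c) (cbc : Commute b c)
    (s1 : ∃ g : G, g * a * g⁻¹ = b ∧ g * b * g⁻¹ = a ∧ g * c * g⁻¹ = c)
    (s2 : ∃ g : G, g * b * g⁻¹ = c ∧ g * c * g⁻¹ = b ∧ g * a * g⁻¹ = a)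
    (K C : Subgroup G) (hK : K = Subgroup.centralizer ({a, b, c} : Set G))
    (hC : C = Subgroup.centralizer ({a * b * c} : Set G)) :
    K ≤ C ∧ ∃ _ : (K.subgroupOf C).Normal, Nonempty (↥C ⧸ K.subgroupOf C ≃* Equiv.Perm (Fin 3)) := by
  classical
  have mK : ∀ g, g ∈ K ↔ g * a = a * g ∧ g * b = b * g ∧ g * c = c * g := by
    intro g
    rw [hK, Subgroup.mem_centralizer_iff]
    constructor
    · intro h
      exact ⟨(h a (by simp)).symm, (h b (by simp)).symm, (h c (by simp)).symm⟩
    · rintro ⟨h1, h2, h3⟩ x hx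
      simp only [Set.mem_insert_iff, Set.mem_singleton_iff] at hx
      rcases hx with rfl | rfl | rfl
      · exact h1.symm
      · exact h2.symm
      · exact h3.symm
  have mC : ∀ g, g ∈ C ↔ g * (a * b * c) = a * b * c * g := by
    intro g
    rw [hC, Subgroup.mem_centralizer_singleton_iff]
  have hle : K ≤ C := by
    intro g hg
    obtain ⟨h1, h2, h3⟩ := (mK g).1 hg
    rw [mC]
    exact ((show Commute g a from h1).mul_right h2).mul_right h3
  let x : Fin 3 → G := ![a, b, c]
  have xinj : Function.Injective x := by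
    intro i j hij
    fin_cases i <;> fin_cases j <;> first | rfl | (exfalso; revert hij; simp [x, nab, nac, nbc, nab.symm, nac.symm, nbc.symm])
  have hxL : ∀ i, x i ∈ L := by
    intro i; fin_cases i
    exacts [ha, hb, hc]
  have hex : ∀ (g : C) (i : Fin 3), ∃ j : Fin 3, x j = g * x i * (g : G)⁻¹ := by
    intro g i
    have hg := (mC g).1 g.2
    have e0 : a * b * c = ((g : G) * a * (g : G)⁻¹) * ((g : G) * b * (g : G)⁻¹) * ((g : G) * c * (g : G)⁻¹) := by
      have : ((g : G) * a * (g : G)⁻¹) * ((g : G) * b * (g : G)⁻¹) * ((g : G) * c * (g : G)⁻¹) =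
          g * (a * b * c) * (g : G)⁻¹ := by group
      rw [this, hg, mul_inv_cancel_right]
    have cm : ∀ x y : G, Commute x y → Commute ((g : G) * x * (g : G)⁻¹) ((g : G) * y * (g : G)⁻¹) := by
      intro x y hxy
      show (g : G) * x * (g : G)⁻¹ * ((g : G) * y * (g : G)⁻¹) = (g : G) * y * (g : G)⁻¹ * ((g : G) * x * (g : G)⁻¹)
      calc _ = (g : G) * (x * y) * (g : G)⁻¹ := by group
        _ = (g : G) * (y * x) * (g : G)⁻¹ := by rw [hxy.eq]
        _ = _ := by group
    have cn : ∀ x y : G, x ≠ y → (g : G) * x * (g : G)⁻¹ ≠ (g : G) * y * (g : G)⁻¹ := by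
      intro x y hxy h1
      exact hxy (mul_left_cancel (mul_right_cancel h1))
    have key : ∀ y : G, (y = a ∨ y = b ∨ y = c) → ∃ j : Fin 3, x j = y := by
      rintro y (rfl | rfl | rfl)
      exacts [⟨0, rfl⟩, ⟨1, rfl⟩, ⟨2, rfl⟩]
    have key2 : ∀ y : G, (y = g * a * (g : G)⁻¹ ∨ y = g * b * (g : G)⁻¹ ∨ y = g * c * (g : G)⁻¹) →
        (y = a ∨ y = b ∨ y = c) := by
      rintro y (hy | hy | hy)
      · rw [hy]
        exact tri_mem h ha hb hc (h.conj g a ha) (h.conj g b hb) (h.conj g c hc) cab cac cbc nab nac nbc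
          (cm _ _ cab) (cm _ _ cac) (cm _ _ cbc) (cn _ _ nab) (cn _ _ nac) (cn _ _ nbc) e0
      · rw [hy]
        refine tri_mem h ha hb hc (h.conj g b hb) (h.conj g a ha) (h.conj g c hc) cab cac cbc nab nac nbc
          (cm _ _ cab.symm) (cm _ _ cbc) (cm _ _ cac) (cn _ _ nab.symm) (cn _ _ nbc) (cn _ _ nac) ?_
        rw [e0, (cm _ _ cab).eq]
      · rw [hy]
        refine tri_mem h ha hb hc (h.conj g c hc) (h.conj g a ha) (h.conj g b hb) cab cac cbc nab nac nbc
          (cm _ _ cac.symm) (cm _ _ cbc.symm) (cm _ _ cab) (cn _ _ nac.symm) (cn _ _ nbc.symm) (cn _ _ nab) ?_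
        rw [e0, mul_assoc (_ * _ * _), (cm _ _ cbc).eq, ← mul_assoc, (cm _ _ cac).eq]
    apply key
    apply key2
    have h3 : ∀ i : Fin 3, i = 0 ∨ i = 1 ∨ i = 2 := by decide
    rcases h3 i with rfl | rfl | rfl
    exacts [Or.inl rfl, Or.inr (Or.inl rfl), Or.inr (Or.inr rfl)]
  choose p hp using hex
  have pmul : ∀ (g k : C) (i : Fin 3), p (g * k) i = p g (p k i) := by
    intro g k i
    apply xinj
    rw [hp, hp, hp]
    push_cast
    group
  have pone : ∀ i, p 1 i = i := by
    intro i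
    apply xinj
    rw [hp]
    simp
  let ρ : C →* Equiv.Perm (Fin 3) :=
    { toFun := fun g => ⟨p g, p g⁻¹, fun i => by rw [← pmul, inv_mul_cancel, pone],
        fun i => by rw [← pmul, mul_inv_cancel, pone]⟩
      map_one' := Equiv.ext pone
      map_mul' := fun g k => Equiv.ext (pmul g k) }
  have hρ : ∀ (g : C) (i : Fin 3), x (ρ g i) = g * x i * (g : G)⁻¹ := hp
  have hker : ρ.ker = K.subgroupOf C := by
    ext g
    rw [MonoidHom.mem_ker, Subgroup.mem_subgroupOf, mK]
    have hi : ∀ i, ρ g i = i ↔ (g : G) * x i = x i * g := by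
      intro i
      rw [← xinj.eq_iff, hρ, mul_inv_eq_iff_eq_mul]
    constructor
    · intro h1
      have h2 : ∀ i, ρ g i = i := fun i => by rw [h1]; rfl
      exact ⟨(hi 0).1 (h2 0), (hi 1).1 (h2 1), (hi 2).1 (h2 2)⟩
    · rintro ⟨h1, h2, h3⟩
      apply Equiv.ext
      intro i
      apply (hi i).2
      fin_cases i
      exacts [h1, h2, h3]
  have hsurj : Function.Surjective ρ := by
    rw [← MonoidHom.range_eq_top]
    have hmem : ∀ (g : G), g * a * g⁻¹ ∈ ({a, b, c} : Set G) → True := fun _ _ => trivial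
    have m1 : Equiv.swap (0 : Fin 3) 1 ∈ ρ.range := by
      obtain ⟨g, g1, g2, g3⟩ := s1
      have hg : g ∈ C := by
        rw [mC]
        have : g * (a * b * c) * g⁻¹ = a * b * c := by
          calc g * (a * b * c) * g⁻¹ = (g * a * g⁻¹) * (g * b * g⁻¹) * (g * c * g⁻¹) := by group
            _ = a * b * c := by rw [g1, g2, g3, cab.eq]
        exact mul_inv_eq_iff_eq_mul.1 this
      refine ⟨⟨g, hg⟩, Equiv.ext fun i => xinj ?_⟩
      rw [hρ]
      fin_cases i
      · show g * a * g⁻¹ = x (Equiv.swap 0 1 0)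
        rw [Equiv.swap_apply_left]; exact g1
      · show g * b * g⁻¹ = x (Equiv.swap 0 1 1)
        rw [Equiv.swap_apply_right]; exact g2
      · show g * c * g⁻¹ = x (Equiv.swap 0 1 2)
        rw [Equiv.swap_apply_of_ne_of_ne (by decide) (by decide)]; exact g3
    have m2 : Equiv.swap (1 : Fin 3) 2 ∈ ρ.range := by
      obtain ⟨g, g1, g2, g3⟩ := s2
      have hg : g ∈ C := by
        rw [mC]
        have : g * (a * b * c) * g⁻¹ = a * b * c := by
          calc g * (a * b * c) * g⁻¹ = (g * a * g⁻¹) * ((g * b * g⁻¹) * (g * c * g⁻¹)) := by group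
            _ = a * b * c := by rw [g1, g2, g3, ← cbc.eq, mul_assoc]
        exact mul_inv_eq_iff_eq_mul.1 this
      refine ⟨⟨g, hg⟩, Equiv.ext fun i => xinj ?_⟩
      rw [hρ]
      fin_cases i
      · show g * a * g⁻¹ = x (Equiv.swap 1 2 0)
        rw [Equiv.swap_apply_of_ne_of_ne (by decide) (by decide)]; exact g3
      · show g * b * g⁻¹ = x (Equiv.swap 1 2 1)
        rw [Equiv.swap_apply_left]; exact g1
      · show g * c * g⁻¹ = x (Equiv.swap 1 2 2)
        rw [Equiv.swap_apply_right]; exact g2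
    rw [eq_top_iff]
    intro σ _
    have h3 : ∀ σ : Equiv.Perm (Fin 3), σ = 1 ∨ σ = Equiv.swap 0 1 ∨ σ = Equiv.swap 1 2 ∨
        σ = Equiv.swap 0 1 * Equiv.swap 1 2 ∨ σ = Equiv.swap 1 2 * Equiv.swap 0 1 ∨
        σ = Equiv.swap 0 1 * Equiv.swap 1 2 * Equiv.swap 0 1 := by decide
    rcases h3 σ with rfl | rfl | rfl | rfl | rfl | rfl
    · exact one_mem _
    · exact m1
    · exact m2
    · exact mul_mem m1 m2
    · exact mul_mem m2 m1
    · exact mul_mem (mul_mem m1 m2) m1
  have hn : (K.subgroupOf C).Normal := by rw [← hker]; infer_instance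
  refine ⟨hle, hn, ⟨?_⟩⟩
  · exact (QuotientGroup.quotientMulEquivOfEq hker.symm).trans
      (QuotientGroup.quotientKerEquivOfSurjective ρ hsurj)

end Cfsg.Agent.H833.Tri
end

-- part: H833/TrOf
section
/-!
# The types `T7`, `T8` satisfy `TetBasic.Tr` (helper833)

* `tr_of_noRel` : a normal set of 3-transpositions without relations of length at most six is a `Tr`;
* `tr_seven`, `tr_eight`;
* `exists_swap_seven` : in type `T7` two of three commuting members are interchanged by an element centralizing the third.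
-/

set_option autoImplicit false

namespace Cfsg.Agent.H833.TrOf

open Cfsg Cfsg.Agent.Fischer480.Defs
open Cfsg.Agent.R08.TetBasic
open Cfsg.Agent.H831.Short (NoRel noRel_six noRel_seven noRel_eight)

universe u

variable {G : Type u} [Group G] {D : Set G}

theorem tr_of_noRel (hT : IsThreeTranspositionSet D) (hc : ∀ g : G, ∀ a ∈ D, g * a * g⁻¹ ∈ D)
    (hN : NoRel D 6) : Tr D where
  sq a ha := Cfsg.Agent.SporadicB.ThreeTrans.mul_self hT ha
  conj := hc
  three a ha b hb := Cfsg.Agent.SporadicB.ThreeTrans.commute_or_braid hT ha hb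
  four a ha b hb c hc d hd nab nac nad nbc nbd ncd cab cac cad cbc cbd ccd h := by
    have h1 : [a, b, c, d] = [] := by
      apply hN
      · simp [nab, nac, nad, nbc, nbd, ncd]
      · simp [ha, hb, hc, hd]
      · simp [cab, cac, cad, cbc, cbd, ccd, cab.symm, cac.symm, cad.symm, cbc.symm, cbd.symm, ccd.symm]
      · simp only [List.prod_cons, List.prod_nil, mul_one]
        have h2 : c * c = 1 := Cfsg.Agent.SporadicB.ThreeTrans.mul_self hT hc
        have h3 : d * d = 1 := Cfsg.Agent.SporadicB.ThreeTrans.mul_self hT hd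
        calc a * (b * (c * d)) = (a * b) * (c * d) := by rw [mul_assoc]
          _ = (c * d) * (c * d) := by rw [h]
          _ = c * (d * c) * d := by simp only [mul_assoc]
          _ = c * (c * d) * d := by rw [ccd.eq]
          _ = (c * c) * (d * d) := by simp only [mul_assoc]
          _ = 1 := by rw [h2, h3, one_mul]
      · simp
    simp at h1
  six a ha b hb c hc d hd e he f hf nab nac nbc nde ndf nef nad nae naf nbd nbe nbf ncd nce ncf
      cab cac cbc cde cdf cef cad cae caf cbd cbe cbf ccd cce ccf h := by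
    have h1 : [a, b, c, d, e, f] = [] := by
      apply hN
      · simp [nab, nac, nbc, nde, ndf, nef, nad, nae, naf, nbd, nbe, nbf, ncd, nce, ncf]
      · simp [ha, hb, hc, hd, he, hf]
      · simp [cab, cac, cbc, cde, cdf, cef, cad, cae, caf, cbd, cbe, cbf, ccd, cce, ccf,
          cab.symm, cac.symm, cbc.symm, cde.symm, cdf.symm, cef.symm, cad.symm, cae.symm, caf.symm, cbd.symm,
          cbe.symm, cbf.symm, ccd.symm, cce.symm, ccf.symm]
      · simp only [List.prod_cons, List.prod_nil, mul_one]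
        have h2 : d * d = 1 := Cfsg.Agent.SporadicB.ThreeTrans.mul_self hT hd
        have h3 : e * e = 1 := Cfsg.Agent.SporadicB.ThreeTrans.mul_self hT he
        have h4 : f * f = 1 := Cfsg.Agent.SporadicB.ThreeTrans.mul_self hT hf
        calc a * (b * (c * (d * (e * f)))) = (a * b * c) * (d * (e * f)) := by simp only [mul_assoc]
          _ = d * e * (f * d) * e * f := by rw [h]; simp only [mul_assoc]
          _ = d * (e * d) * (f * e) * f := by rw [← cdf.eq]; simp only [mul_assoc]
          _ = (d * d) * (e * e) * (f * f) := by rw [← cde.eq, ← cef.eq]; simp only [mul_assoc]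
          _ = 1 := by rw [h2, h3, h4, one_mul, one_mul]
      · simp
    simp at h1

theorem conj_mem (F : FGroup D) (g : G) {a : G} (ha : a ∈ D) : g * a * g⁻¹ ∈ D := by
  obtain ⟨d, hd, hD⟩ := F.cls.2.1
  rw [hD] at ha ⊢
  exact (show IsConj d a from ha).trans (isConj_iff.2 ⟨g, rfl⟩)

theorem tr_seven (F : FGroup D) (h : IsT7 D) : Tr D :=
  tr_of_noRel F.cls.1 (fun g _ ha => conj_mem F g ha) (noRel_seven F.cls.1 h)

theorem tr_eight (F : FGroup D) (h : IsT8 D) : Tr D :=
  tr_of_noRel F.cls.1 (fun g _ ha => conj_mem F g ha) ((noRel_eight F.cls.1 h).mono (by norm_num))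

/-- In type `T6` two members never exhaust, with their neighbours, the whole set. -/
theorem exists_ncomm_six [Finite G] {E : Set G} (h : IsT6 E) {a b : G} (ha : a ∈ E) (hb : b ∈ E) :
    ∃ t ∈ E, ¬ Commute t a ∧ ¬ Commute t b := by
  by_contra hcon
  push Not at hcon
  have na : (Loc E a).ncard = 693 := (Cfsg.Agent.TSp.UCount.numbers_six (h.2.1 a ha)).1
  have nb : (Loc E b).ncard = 693 := (Cfsg.Agent.TSp.UCount.numbers_six (h.2.1 b hb)).1
  have hsub : E ⊆ (Loc E a ∪ {a}) ∪ (Loc E b ∪ {b}) := by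
    intro t ht
    by_cases h1 : Commute t a
    · left
      by_cases h2 : t = a
      · right; exact h2
      · left; exact ⟨ht, h2, h1.symm⟩
    · right
      have h3 := hcon t ht h1
      by_cases h2 : t = b
      · right; exact h2
      · left; exact ⟨ht, h2, h3.symm⟩
  have h1 := Set.ncard_le_ncard hsub (Set.toFinite _)
  have h2 := Set.ncard_union_le (Loc E a ∪ {a}) (Loc E b ∪ {b})
  have h3 := Set.ncard_union_le (Loc E a) {a}
  have h4 := Set.ncard_union_le (Loc E b) {b}
  rw [Set.ncard_singleton] at h3 h4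
  have h5 := h.1
  omega

/-- In type `T7` two of three commuting members are interchanged by an element centralizing the third. -/
theorem exists_swap_seven [Finite G] (F : FGroup D) (h : IsT7 D) {a b c : G} (ha : a ∈ D) (hb : b ∈ D)
    (hc : c ∈ D) (nac : a ≠ c) (nbc : b ≠ c) (cab : Commute a b) (cac : Commute a c) (cbc : Commute b c) :
    ∃ g : G, g * a * g⁻¹ = b ∧ g * b * g⁻¹ = a ∧ g * c * g⁻¹ = c := by
  obtain ⟨t, ht, h1, h2⟩ := exists_ncomm_six (h.2.1 c hc) (a := a) (b := b) ⟨ha, nac, cac.symm⟩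
    ⟨hb, nbc, cbc.symm⟩
  exact Cfsg.Agent.H833.Tri.swap_of (tr_seven F h) ha hb ht.1 cab h1 h2 cac cbc ht.2.2.symm

end Cfsg.Agent.H833.TrOf
end

-- part: S5471
section
set_option autoImplicit false
open Cfsg

namespace Cfsg.Agent.S5471

/-- Let G be a finite group with trivial centre generated by a conjugation-invariant set D of 3-transpositions on which it acts primitively, such that for some d in D the subgroup generated by the members of D other than d commuting with d has central largest normal 2- and 3-subgroups, and suppose G with D is of type M(23). Let d₁, d₂, d₃ be distinct pairwise commuting members of D and j their product. Then the joint centralizer of d₁, d₂, d₃ is normal in the centralizer of j with quotient isomorphic to the symmetric group of degree 3. -/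
theorem result {G : Type*} [Group G] [Finite G] {D : Set G} (hD : Cfsg.IsThreeTranspositionGroup D) (hprim : Cfsg.IsPrimitiveUnderConj D) (d₀ : G) (hd₀ : d₀ ∈ D) (h3 : Cfsg.pCore 3 ↥(Subgroup.closure {y : G | y ∈ D ∧ y ≠ d₀ ∧ Commute d₀ y}) ≤ Subgroup.center ↥(Subgroup.closure {y : G | y ∈ D ∧ y ≠ d₀ ∧ Commute d₀ y})) (h2 : Cfsg.pCore 2 ↥(Subgroup.closure {y : G | y ∈ D ∧ y ≠ d₀ ∧ Commute d₀ y}) ≤ Subgroup.center ↥(Subgroup.closure {y : G | y ∈ D ∧ y ≠ d₀ ∧ Commute d₀ y})) (h23 : Cfsg.IsOfTypeM23 G D) (d₁ d₂ d₃ : G) (h₁ : d₁ ∈ D) (h₂ : d₂ ∈ D) (h₃ : d₃ ∈ D) (h12 : d₁ ≠ d₂) (h13 : d₁ ≠ d₃) (h23 : d₂ ≠ d₃) (c12 : Commute d₁ d₂) (c13 : Commute d₁ d₃) (c23 : Commute d₂ d₃) (K C : Subgroup G) (hK : K = Subgroup.centralizer ({d₁, d₂, d₃} : Set G)) (hC : C = Subgroup.centralizer ({d₁ * d₂ * d₃} : Set G)) : K ≤ C ∧ ∃ _ : (K.subgroupOf C).Normal, Nonempty (↥C ⧸ K.subgroupOf C ≃* Equiv.Perm (Fin 3)) := by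
  rename_i i1 i2 hM
  have F := Cfsg.Agent.H831.Types.fgroup_m23 hD hprim hM
  have h7 := Cfsg.Agent.H831.Types.isT7 hD hprim hM
  refine Cfsg.Agent.H833.Tri.main (Cfsg.Agent.H833.TrOf.tr_seven F h7) h₁ h₂ h₃ h12 h13 h23 c12 c13 c23
    (Cfsg.Agent.H833.TrOf.exists_swap_seven F h7 h₁ h₂ h₃ h13 h23 c12 c13 c23) ?_ K C hK hC
  exact Cfsg.Agent.H833.TrOf.exists_swap_seven F h7 h₂ h₃ h₁ h12.symm h13.symm c23 c12.symm c13.symm

end Cfsg.Agent.S5471
end
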