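import Mathlib
import Cfsg.Agent.H844.UnipModel
import Cfsg.Agent.LieClassical.OrthForms
import Cfsg.Statements.S5514
set_option linter.all false

-- part: H844/Dim7
section
/-!
# `Ω₇(3)`: the classes of elements of order three (helper844)
-/

set_option autoImplicit false
set_option linter.unusedSectionVars false

namespace Cfsg.Agent.H844.Dim7

open QuadraticMap Cfsg.Agent.LieClassical.OrthCore Cfsg.Agent.LieClassical.OrthTrans
  Cfsg.Agent.LieClassical.OrthForms Cfsg.Agent.H844.Unip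

abbrev J : Type := Unit ⊕ (Fin 3 ⊕ Fin 3)
abbrev V : Type := J → ZMod 3
abbrev Q : QuadraticForm (ZMod 3) V := oddForm 3 (ZMod 3)

def z0 : V := Pi.single (Sum.inl ()) 1
def e (i : Fin 3) : V := Pi.single (Sum.inr (Sum.inl i)) 1
def f (i : Fin 3) : V := Pi.single (Sum.inr (Sum.inr i)) 1

def LA1 : V →ₗ[ZMod 3] V := dd Q (f 0) z0 + dd Q (f 1) (e 2 + f 2)
def LA2 : V →ₗ[ZMod 3] V := dd Q (f 0) z0 + dd Q (f 1) (e 2 - f 2)
def LB : V →ₗ[ZMod 3] V := dd Q (f 0) z0 + dd Q (f 1) (f 2)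
def LC1 : V →ₗ[ZMod 3] V := dd Q (f 0) z0
def LC2 : V →ₗ[ZMod 3] V := dd Q (f 0) (e 2 - f 2)
def LD : V →ₗ[ZMod 3] V := dd Q (f 0) (f 1)

theorem skd {L L' : V →ₗ[ZMod 3] V} (h : ∀ v w, polar Q (L v) w = - polar Q v (L w))
    (h' : ∀ v w, polar Q (L' v) w = - polar Q v (L' w)) (v w : V) :
    polar Q ((L + L') v) w = - polar Q v ((L + L') w) := by
  rw [LinearMap.add_apply, LinearMap.add_apply, pol_add_left, pol_add_right, h, h', neg_add]

theorem skA1 : Sk Q LA1 := sk_of (skd (dd_skew Q _ _) (dd_skew Q _ _)) (by decide +kernel)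
theorem skA2 : Sk Q LA2 := sk_of (skd (dd_skew Q _ _) (dd_skew Q _ _)) (by decide +kernel)
theorem skB : Sk Q LB := sk_of (skd (dd_skew Q _ _) (dd_skew Q _ _)) (by decide +kernel)
theorem skC1 : Sk Q LC1 := sk_of (dd_skew Q _ _) (by decide +kernel)
theorem skC2 : Sk Q LC2 := sk_of (dd_skew Q _ _) (by decide +kernel)
theorem skD : Sk Q LD := sk_of (dd_skew Q _ _) (by decide +kernel)

def pA1 : Fin shA.m → V := ![e 0, e 1, e 2 - f 2]
def pA2 : Fin shA.m → V := ![e 0, e 1, e 2 + f 2]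
def pB : Fin shB.m → V := ![e 0, e 2, e 1]
def pB' : Fin shB.m → V := ![e 0, - e 2, e 1]
def pC1 : Fin shC.m → V := ![e 0, e 1 - f 1, e 2 - f 2, e 1 + f 1 + (e 2 + f 2), e 1 + f 1 - (e 2 + f 2)]
def pC2 : Fin shC.m → V := ![e 0, z0 + (e 2 + f 2), z0 - (e 2 + f 2), e 1 - f 1, e 1 + f 1]
def pD : Fin shD.m → V := ![e 1, e 0, z0 + (e 2 + f 2), z0 - (e 2 + f 2), e 2 - f 2]
def pD' : Fin shD.m → V := ![- e 1, e 0, z0 + (e 2 + f 2), z0 - (e 2 + f 2), e 2 - f 2]

theorem okA : shA.Ok := ⟨by decide +kernel, by decide +kernel, by decide +kernel⟩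
theorem okB : shB.Ok := ⟨by decide +kernel, by decide +kernel, by decide +kernel⟩
theorem okC : shC.Ok := ⟨by decide +kernel, by decide +kernel, by decide +kernel⟩
theorem okD : shD.Ok := ⟨by decide +kernel, by decide +kernel, by decide +kernel⟩

theorem fin7 : Module.finrank (ZMod 3) V = 7 := by
  rw [Module.finrank_fintype_fun_eq_card]
  rfl

theorem frA1 : Fr Q LA1 shA (tA 1 1) pA1 :=
  Fr.of_table skA1 (by decide +kernel) (by decide +kernel) (by decide +kernel) (by decide +kernel)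
theorem frA1' : Fr Q (-LA1) shA (tA 1 1) pA1 :=
  Fr.of_table skA1.neg (by decide +kernel) (by decide +kernel) (by decide +kernel) (by decide +kernel)
theorem frA2 : Fr Q LA2 shA (tA 2 2) pA2 :=
  Fr.of_table skA2 (by decide +kernel) (by decide +kernel) (by decide +kernel) (by decide +kernel)
theorem frA2' : Fr Q (-LA2) shA (tA 2 2) pA2 :=
  Fr.of_table skA2.neg (by decide +kernel) (by decide +kernel) (by decide +kernel) (by decide +kernel)
theorem frB : Fr Q LB shB (tB 1) pB :=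
  Fr.of_table skB (by decide +kernel) (by decide +kernel) (by decide +kernel) (by decide +kernel)
theorem frB' : Fr Q (-LB) shB (tB 1) pB' :=
  Fr.of_table skB.neg (by decide +kernel) (by decide +kernel) (by decide +kernel) (by decide +kernel)
theorem frC1 : Fr Q LC1 shC (tC 1 1) pC1 :=
  Fr.of_table skC1 (by decide +kernel) (by decide +kernel) (by decide +kernel) (by decide +kernel)
theorem frC1' : Fr Q (-LC1) shC (tC 1 1) pC1 :=
  Fr.of_table skC1.neg (by decide +kernel) (by decide +kernel) (by decide +kernel) (by decide +kernel)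
theorem frC2 : Fr Q LC2 shC (tC 2 2) pC2 :=
  Fr.of_table skC2 (by decide +kernel) (by decide +kernel) (by decide +kernel) (by decide +kernel)
theorem frC2' : Fr Q (-LC2) shC (tC 2 2) pC2 :=
  Fr.of_table skC2.neg (by decide +kernel) (by decide +kernel) (by decide +kernel) (by decide +kernel)
theorem frD : Fr Q LD shD (tD 1) pD :=
  Fr.of_table skD (by decide +kernel) (by decide +kernel) (by decide +kernel) (by decide +kernel)
theorem frD' : Fr Q (-LD) shD (tD 1) pD' :=
  Fr.of_table skD.neg (by decide +kernel) (by decide +kernel) (by decide +kernel) (by decide +kernel)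

theorem dimA : shA.dim = Module.finrank (ZMod 3) V := by rw [fin7]; decide +kernel
theorem dimB : shB.dim = Module.finrank (ZMod 3) V := by rw [fin7]; decide +kernel
theorem dimC : shC.dim = Module.finrank (ZMod 3) V := by rw [fin7]; decide +kernel
theorem dimD : shD.dim = Module.finrank (ZMod 3) V := by rw [fin7]; decide +kernel

/-- the types -/
inductive Ty | A1 | A2 | B | C1 | C2 | D
  deriving DecidableEq

/-- the models -/
def M : Ty → Typ Q
  | .A1 => ⟨LA1, shA, tA 1 1, pA1, pA1, skA1, okA, dimA, frA1, frA1'⟩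
  | .A2 => ⟨LA2, shA, tA 2 2, pA2, pA2, skA2, okA, dimA, frA2, frA2'⟩
  | .B => ⟨LB, shB, tB 1, pB, pB', skB, okB, dimB, frB, frB'⟩
  | .C1 => ⟨LC1, shC, tC 1 1, pC1, pC1, skC1, okC, dimC, frC1, frC1'⟩
  | .C2 => ⟨LC2, shC, tC 2 2, pC2, pC2, skC2, okC, dimC, frC2, frC2'⟩
  | .D => ⟨LD, shD, tD 1, pD, pD', skD, okD, dimD, frD, frD'⟩

/-- the images of the centralizers -/
def C : Ty → AA → Prop
  | .B => fun a => a = 1 ∨ a = (-1, 1)
  | _ => fun _ => True

theorem cov (L : V →ₗ[ZMod 3] V) (hL : Sk Q L) (h0 : L ≠ 0) : ∃ t p, Fr Q L (M t).S (M t).τ p := by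
  have h0' : ∃ w, L w ≠ 0 := by
    by_contra h
    push Not at h
    exact h0 (LinearMap.ext h)
  have hN : Nd Q (⊤ : Submodule (ZMod 3) V) := nd_top (nondeg_oddForm 3 (ZMod 3) (by decide))
  rcases class7 hL hN fin7 h0' with ⟨c, d, p, h⟩ | ⟨c, p, h⟩ | ⟨c, d, p, h⟩ | ⟨d, p, h⟩
  · have h1 := disc hL skA1 okA h.fr frA1 dimA
    have key : ∀ c d : ZMod 3, (∀ i, tA c d i ≠ 0) → ∏ i, tA c d i ^ shA.l i = ∏ i, tA 1 1 i ^ shA.l i →
        (c = 1 ∧ d = 1) ∨ (c = 2 ∧ d = 2) := by decide +kernel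
    rcases key c d h.fr.ne h1 with ⟨rfl, rfl⟩ | ⟨rfl, rfl⟩
    · exact ⟨.A1, p, h.fr⟩
    · exact ⟨.A2, p, h.fr⟩
  · have h1 := disc hL skB okB h.fr frB dimB
    have key : ∀ c : ZMod 3, (∀ i, tB c i ≠ 0) → ∏ i, tB c i ^ shB.l i = ∏ i, tB 1 i ^ shB.l i → c = 1 := by
      decide +kernel
    obtain rfl := key c h.fr.ne h1
    exact ⟨.B, p, h.fr⟩
  · have h1 := disc hL skC1 okC h.fr frC1 dimC
    have key : ∀ c d : ZMod 3, (∀ i, tC c d i ≠ 0) → ∏ i, tC c d i ^ shC.l i = ∏ i, tC 1 1 i ^ shC.l i →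
        (c = 1 ∧ d = 1) ∨ (c = 2 ∧ d = 2) := by decide +kernel
    rcases key c d h.fr.ne h1 with ⟨rfl, rfl⟩ | ⟨rfl, rfl⟩
    · exact ⟨.C1, p, h.fr⟩
    · exact ⟨.C2, p, h.fr⟩
  · have h1 := disc hL skD okD h.fr frD dimD
    have key : ∀ d : ZMod 3, (∀ i, tD d i ≠ 0) → ∏ i, tD d i ^ shD.l i = ∏ i, tD 1 i ^ shD.l i → d = 1 := by
      decide +kernel
    obtain rfl := key d h.fr.ne h1
    exact ⟨.D, p, h.fr⟩

/-- the vectors of the sign change of a block of length three -/
def blk (L : V →ₗ[ZMod 3] V) (a : V) : List V := [L a, a + L (L a), a - L (L a)]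

theorem low (t : Ty) (a : AA) (h : C t a) : ∃ g, g * exO (M t).sk * g⁻¹ = exO (M t).sk ∧ dl Q g = a := by
  cases t
  · exact full _ [e 2 - f 2] (blk LA1 (e 0 + e 1)) (by decide +kernel) (by decide +kernel) (by decide +kernel)
      (by decide +kernel) a
  · exact full _ (blk LA2 (e 0)) [e 2 + f 2] (by decide +kernel) (by decide +kernel) (by decide +kernel)
      (by decide +kernel) a
  · exact half _ (blk LB (e 0)) (-1, 1) (by decide +kernel) (by decide +kernel) a h
  · exact full _ [e 1 - f 1] [e 1 + f 1] (by decide +kernel) (by decide +kernel) (by decide +kernel)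
      (by decide +kernel) a
  · exact full _ [e 1 - f 1] [e 1 + f 1] (by decide +kernel) (by decide +kernel) (by decide +kernel)
      (by decide +kernel) a
  · exact full _ [e 2 - f 2] [e 2 + f 2] (by decide +kernel) (by decide +kernel) (by decide +kernel)
      (by decide +kernel) a

/-- the rank of `L` -/
def R1 : Ty → ℕ
  | .A1 => 4 | .A2 => 4 | .B => 4 | .C1 => 2 | .C2 => 2 | .D => 2

/-- the rank of `L²` -/
def R2 : Ty → ℕ
  | .A1 => 2 | .A2 => 2 | .B => 1 | .C1 => 1 | .C2 => 1 | .D => 0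

theorem rk_one (t : Ty) : (M t).S.rk 1 = R1 t := by
  cases t
  · exact (by decide +kernel : shA.rk 1 = 4)
  · exact (by decide +kernel : shA.rk 1 = 4)
  · exact (by decide +kernel : shB.rk 1 = 4)
  · exact (by decide +kernel : shC.rk 1 = 2)
  · exact (by decide +kernel : shC.rk 1 = 2)
  · exact (by decide +kernel : shD.rk 1 = 2)

theorem rk_two (t : Ty) : (M t).S.rk 2 = R2 t := by
  cases t
  · exact (by decide +kernel : shA.rk 2 = 2)
  · exact (by decide +kernel : shA.rk 2 = 2)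
  · exact (by decide +kernel : shB.rk 2 = 1)
  · exact (by decide +kernel : shC.rk 2 = 1)
  · exact (by decide +kernel : shC.rk 2 = 1)
  · exact (by decide +kernel : shD.rk 2 = 0)

theorem P3_A1 : ¬ P3 Q LA1 := not_P3 skA1 okA frA1 dimA (by decide +kernel) (by decide +kernel) ⟨0, by decide +kernel⟩
      ⟨1, by decide +kernel⟩ (by decide +kernel) (by decide +kernel) (by decide +kernel) (by decide +kernel)
      (by decide +kernel) (by decide +kernel)

theorem P3_A2 : P3 Q LA2 := ⟨e 0 + e 1, by decide +kernel, by decide +kernel⟩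

theorem P2_C1 : ¬ P2 Q LC1 := not_P2 skC1 okC frC1 dimC (by decide +kernel) (by decide +kernel) ⟨0, by decide +kernel⟩
      (by decide +kernel) (by decide +kernel) (by decide +kernel)

theorem P2_C2 : P2 Q LC2 := ⟨e 0, by decide +kernel⟩

theorem key_sep (t t' : Ty) (h1 : R1 t = R1 t') (h2 : R2 t = R2 t') : t = t' ∨ (t = .A1 ∧ t' = .A2) ∨
    (t = .A2 ∧ t' = .A1) ∨ (t = .C1 ∧ t' = .C2) ∨ (t = .C2 ∧ t' = .C1) := by
  revert h1 h2
  cases t <;> cases t' <;> decide

theorem sep (t t' : Ty) (h1 : (M t).S.rk 1 = (M t').S.rk 1) (h2 : (M t).S.rk 2 = (M t').S.rk 2)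
    (h3 : P2 Q (M t).L ↔ P2 Q (M t').L) (h4 : P3 Q (M t).L ↔ P3 Q (M t').L) : t = t' := by
  rw [rk_one, rk_one] at h1
  rw [rk_two, rk_two] at h2
  rcases key_sep t t' h1 h2 with h | ⟨rfl, rfl⟩ | ⟨rfl, rfl⟩ | ⟨rfl, rfl⟩ | ⟨rfl, rfl⟩
  · exact h
  · exact absurd (h4.2 P3_A2) P3_A1
  · exact absurd (h4.1 P3_A2) P3_A1
  · exact absurd (h3.2 P2_C2) P2_C1
  · exact absurd (h3.1 P2_C2) P2_C1

/-! ### The split type -/

theorem genB : Gen3 Q LB (e 0) (e 2) (e 1) 0 where
  ca := by decide +kernel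
  LLu := by decide +kernel
  LLw := by decide +kernel
  Lz := by decide +kernel
  uw := by decide +kernel
  gen y := by
    obtain ⟨c, y', hy⟩ := Fr.gens skB okB frB dimB y
    refine ⟨c ⟨0, by decide +kernel⟩, c ⟨1, by decide +kernel⟩, c ⟨2, by decide +kernel⟩, 0, y', ?_⟩
    rw [hy]
    congr 1
    show ∑ i : Fin 3, (c : Fin 3 → ZMod 3) i • (pB : Fin 3 → V) i = _
    rw [Fin.sum_univ_three, smul_zero, add_zero]
    rfl
  hz := Or.inl rfl

theorem upB (g : O Q) (hg : Cm LB (g : V ≃ₗ[ZMod 3] V)) : dl Q g = 1 ∨ dl Q g = (-1, 1) := by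
  have hD : ∀ i, rfa Q (blk LB (e 0)) (LB (Pi.single i 1)) = LB (rfa Q (blk LB (e 0)) (Pi.single i 1)) := by
    decide +kernel
  obtain ⟨T, hT, i, j, h⟩ := genB.split skB (D := (rfs Q (blk LB (e 0)) : V ≃ₗ[ZMod 3] V)) (R := 1) (rfs_comm hD)
    (by rw [rfs_apply]; decide +kernel) (by rw [rfs_apply]; decide +kernel) (by rw [rfs_apply]; decide +kernel)
    (map_zero _) Cm.one rfl rfl rfl (by simp) g.2 hg
  have h1 := dl_of_nine (⟨T, E_le_O hT⟩ * g * rfs Q (blk LB (e 0)) ^ i) (by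
    rw [one_pow, mul_one] at h
    exact h)
  have hG : Good Q := LieClassical.OrthFinite.good_of_finite (nondeg_oddForm 3 (ZMod 3) (by decide)) (by
    rw [fin7]; omega)
  have h2 : dl Q ⟨T, E_le_O hT⟩ = 1 := (mem_E_iff_dl hG _).1 hT
  have h3 : dl Q (rfs Q (blk LB (e 0))) = (-1, 1) := by
    rw [dl_rfs]; decide +kernel
  rw [map_mul, map_mul, map_pow, h2, h3, one_mul] at h1
  rcases Nat.even_or_odd' i with ⟨k, rfl | rfl⟩
  · left
    rw [pow_mul, pow_two, AA_sq, one_pow, mul_one] at h1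
    exact h1
  · right
    rw [pow_succ, pow_mul, pow_two, AA_sq, one_pow, one_mul] at h1
    rw [← mul_one (dl Q g), ← AA_sq (-1, 1), ← mul_assoc, h1, one_mul]

theorem realB : ∃ g, g * exO (M .B).sk * g⁻¹ = (exO (M .B).sk)⁻¹ ∧ C .B (dl Q g) := by
  refine ⟨rfs Q [LB (e 0), e 2 + LB (e 1), e 2 - LB (e 1)], real_of skB _ (by decide +kernel), Or.inr ?_⟩
  rw [dl_rfs]
  decide +kernel

/-- **The data in dimension seven.** -/
theorem dat7 : Assem.Dat (dl Q) (fun t => exO (M t).sk) C := by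
  refine dat M C ?_ cov low ?_ ?_ sep
  · intro t
    rw [rk_one]
    cases t <;> decide
  · intro t g hg
    cases t
    case B => exact upB g hg
    all_goals trivial
  · intro t
    cases t
    case B => exact Or.inr realB
    all_goals exact Or.inl fun _ => trivial

/-! ### The indices -/

def ti : Fin 7 → Ty := ![.A1, .A2, .C1, .C2, .D, .B, .B]

noncomputable def ri : Fin 7 → O Q := fun i => if i = 6 then rfs Q [e 0 - f 0, e 0 + f 0] else 1

def di : Fin 7 → AA := fun i => if i = 6 then (1, -1) else 1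

theorem dl_ri (i : Fin 7) : dl Q (ri i) = di i := by
  rw [ri, di]
  split_ifs
  · rw [dl_rfs]; decide +kernel
  · exact map_one _

instance decC (t : Ty) (a : AA) : Decidable (C t a) := by
  cases t <;> (simp only [C]; infer_instance)

theorem idx7 : Assem.Idx (dl Q) C ti ri where
  inj i j h1 h2 := by
    rw [dl_ri, dl_ri] at h2
    revert i j
    decide +kernel
  surj s a := by
    have h : ∀ (a : AA) (s : Ty), ∃ i, ti i = s ∧ C s (a * di i) := by
      intro a s
      cases s <;> revert a <;> decide +kernel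
    obtain ⟨i, h1, h2⟩ := h a s
    exact ⟨i, h1, by rw [dl_ri]; exact h2⟩

theorem good7 : Good Q := LieClassical.OrthFinite.good_of_finite (nondeg_oddForm 3 (ZMod 3) (by decide)) (by
    rw [fin7]; omega)

/-- **The classes of subgroups of order three of `Ω₇(3)`.** -/
theorem classes : ∃ Y : Fin 7 → Subgroup (Cfsg.POmega (ZMod 3) (Cfsg.quadFormOdd 3 (ZMod 3))),
    (∀ i, Nat.card (Y i) = 3) ∧
    (∀ i j, (∃ g : Cfsg.POmega (ZMod 3) (Cfsg.quadFormOdd 3 (ZMod 3)),
      (Y i).map (MulAut.conj g).toMonoidHom = Y j) → i = j) ∧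
    (∀ X : Subgroup (Cfsg.POmega (ZMod 3) (Cfsg.quadFormOdd 3 (ZMod 3))), Nat.card X = 3 →
      ∃ i, ∃ g : Cfsg.POmega (ZMod 3) (Cfsg.quadFormOdd 3 (ZMod 3)),
        X.map (MulAut.conj g).toMonoidHom = Y i) := by
  rw [← coe_oddForm]
  have hz := ker_center good7
  exact Assem.transfer (ppEquiv good7) (Assem.YY dat7 ti ri) 3 (Assem.YY_card dat7 hz)
    (fun i j h => Assem.YY_sep dat7 idx7 hz i j h) (fun X hX => Assem.YY_cov dat7 idx7 X hX hz)

end Cfsg.Agent.H844.Dim7
end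

-- part: S5514
section
set_option autoImplicit false
open Cfsg

namespace Cfsg.Agent.S5514

/-- The commutator subgroup of the isometry group of a non-degenerate 7-dimensional quadratic form over the field with three elements, modulo its (trivial) centre — the simple group Ω(7, 3) — has exactly seven conjugacy classes of subgroups of order 3. -/
theorem result : ∃ Y : Fin 7 → Subgroup (Cfsg.POmega (ZMod 3) (Cfsg.quadFormOdd 3 (ZMod 3))), (∀ i, Nat.card (Y i) = 3) ∧ (∀ i j, (∃ g : Cfsg.POmega (ZMod 3) (Cfsg.quadFormOdd 3 (ZMod 3)), (Y i).map (MulAut.conj g).toMonoidHom = Y j) → i = j) ∧ (∀ X : Subgroup (Cfsg.POmega (ZMod 3) (Cfsg.quadFormOdd 3 (ZMod 3))), Nat.card X = 3 → ∃ i, ∃ g : Cfsg.POmega (ZMod 3) (Cfsg.quadFormOdd 3 (ZMod 3)), X.map (MulAut.conj g).toMonoidHom = Y i) := by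
  exact Cfsg.Agent.H844.Dim7.classes

end Cfsg.Agent.S5514
end
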