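import Cfsg.Statements.S5541
set_option linter.all false

set_option autoImplicit false
open Cfsg

namespace Cfsg.Agent.S5541

/-- The radical argument: an invariant symmetric nonzero form on an irreducible module is injective. -/
theorem form_injective {H : Type*} [Group H] {U : Type*} [AddCommGroup U] [Module ℝ U]
    (ρ : Representation ℝ H U)
    (hirr : ∀ W : Submodule ℝ U, (∀ g : H, W.map (ρ g) ≤ W) → W = ⊥ ∨ W = ⊤)
    (B : LinearMap.BilinForm ℝ U) (hB0 : B ≠ 0)
    (hBi : ∀ (g : H) (u v : U), B (ρ g u) (ρ g v) = B u v) :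
    Function.Injective (B : U →ₗ[ℝ] (U →ₗ[ℝ] ℝ)) := by
  have hinv : ∀ g : H, (LinearMap.ker B).map (ρ g) ≤ LinearMap.ker B := by
    intro g x hx
    obtain ⟨y, hy, rfl⟩ := hx
    have hy' : B y = 0 := hy
    change B (ρ g y) = 0
    ext v
    have : v = ρ g (ρ g⁻¹ v) := by
      rw [← Module.End.mul_apply, ← map_mul]
      simp
    rw [this, hBi, hy']
    simp
  rcases hirr _ hinv with h | h
  · exact LinearMap.ker_eq_bot.mp h
  · exact absurd (LinearMap.ker_eq_top.mp h) hB0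

/-- Let ρ be a representation of a group H on a finite-dimensional real vector space U whose only ρ-invariant subspaces are the zero subspace and U, and suppose U carries a non-zero ρ-invariant symmetric bilinear form. Then the following are equivalent: (1) there is a non-zero ρ-equivariant commutative bilinear product on U of which every ρ-equivariant bilinear product is a scalar multiple; (2) there is a non-zero ρ-invariant trilinear form on U that is symmetric under all permutations of its arguments and of which every ρ-invariant trilinear form is a scalar multiple. -/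
theorem result {H : Type*} [Group H] {U : Type*} [AddCommGroup U] [Module ℝ U] [FiniteDimensional ℝ U] (ρ : Representation ℝ H U) (hirr : ∀ W : Submodule ℝ U, (∀ g : H, W.map (ρ g) ≤ W) → W = ⊥ ∨ W = ⊤) (B : LinearMap.BilinForm ℝ U) (hB0 : B ≠ 0) (hBs : ∀ u v, B u v = B v u) (hBi : ∀ (g : H) (u v : U), B (ρ g u) (ρ g v) = B u v) : (∃ m : U →ₗ[ℝ] U →ₗ[ℝ] U, m ≠ 0 ∧ (∀ u v, m u v = m v u) ∧ (∀ (g : H) (u v : U), m (ρ g u) (ρ g v) = ρ g (m u v)) ∧ ∀ m' : U →ₗ[ℝ] U →ₗ[ℝ] U, (∀ (g : H) (u v : U), m' (ρ g u) (ρ g v) = ρ g (m' u v)) → ∃ c : ℝ, m' = c • m) ↔ (∃ t : U →ₗ[ℝ] U →ₗ[ℝ] U →ₗ[ℝ] ℝ, t ≠ 0 ∧ (∀ u v w, t u v w = t v u w ∧ t u v w = t u w v) ∧ (∀ (g : H) (u v w : U), t (ρ g u) (ρ g v) (ρ g w) = t u v w) ∧ ∀ t' : U →ₗ[ℝ] U →ₗ[ℝ] U →ₗ[ℝ] ℝ, (∀ (g : H) (u v w : U), t' (ρ g u) (ρ g v) (ρ g w) = t' u v w) → ∃ c : ℝ, t' = c • t) := by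
  have hinj := form_injective ρ hirr B hB0 hBi
  -- the linear equivalence `U ≃ Dual U`
  have hfr : Module.finrank ℝ U = Module.finrank ℝ (U →ₗ[ℝ] ℝ) :=
    (Subspace.dual_finrank_eq (K := ℝ) (V := U)).symm
  let e : U ≃ₗ[ℝ] (U →ₗ[ℝ] ℝ) := LinearEquiv.ofInjectiveOfFinrankEq B hinj hfr
  have he : ∀ u : U, e u = B u := fun u => rfl
  have hinj' : ∀ x y : U, (∀ w, B x w = B y w) → x = y := by
    intro x y h
    exact hinj (LinearMap.ext h)
  -- from trilinear forms to products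
  let P : (U →ₗ[ℝ] U →ₗ[ℝ] U →ₗ[ℝ] ℝ) → (U →ₗ[ℝ] U →ₗ[ℝ] U) := fun t =>
    t.compr₂ (e.symm : (U →ₗ[ℝ] ℝ) →ₗ[ℝ] U)
  have hP : ∀ t u v w, B (P t u v) w = t u v w := by
    intro t u v w
    have h1 : P t u v = e.symm (t u v) := rfl
    rw [h1, ← he, LinearEquiv.apply_symm_apply]
  -- from products to trilinear forms
  let Q : (U →ₗ[ℝ] U →ₗ[ℝ] U) → (U →ₗ[ℝ] U →ₗ[ℝ] U →ₗ[ℝ] ℝ) := fun m =>
    m.compr₂ B
  have hQ : ∀ m u v w, Q m u v w = B (m u v) w := fun m u v w => rfl
  have hPinv : ∀ t : U →ₗ[ℝ] U →ₗ[ℝ] U →ₗ[ℝ] ℝ,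
      (∀ (g : H) (u v w : U), t (ρ g u) (ρ g v) (ρ g w) = t u v w) →
      ∀ (g : H) (u v : U), P t (ρ g u) (ρ g v) = ρ g (P t u v) := by
    intro t ht g u v
    apply hinj'
    intro w
    have hw : w = ρ g (ρ g⁻¹ w) := by
      rw [← Module.End.mul_apply, ← map_mul]
      simp
    rw [hw, hP, ht, hBi, hP]
  have hQinv : ∀ m : U →ₗ[ℝ] U →ₗ[ℝ] U,
      (∀ (g : H) (u v : U), m (ρ g u) (ρ g v) = ρ g (m u v)) →
      ∀ (g : H) (u v w : U), Q m (ρ g u) (ρ g v) (ρ g w) = Q m u v w := by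
    intro m hm g u v w
    rw [hQ, hQ, hm, hBi]
  constructor
  · rintro ⟨m, hm0, hmc, hme, hmu⟩
    have hQe := hQinv m hme
    -- the form with the last two arguments exchanged
    let t' : U →ₗ[ℝ] U →ₗ[ℝ] U →ₗ[ℝ] ℝ :=
      LinearMap.mk₂ ℝ (fun u v => (Q m u).flip v)
        (by intro a b v; ext w; simp) (by intro c a v; ext w; simp)
        (by intro a b v; ext w; simp) (by intro c a v; ext w; simp)
    have ht' : ∀ u v w, t' u v w = Q m u w v := fun u v w => rfl
    have ht'e : ∀ (g : H) (u v w : U), t' (ρ g u) (ρ g v) (ρ g w) = t' u v w := by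
      intro g u v w
      rw [ht', ht', hQe]
    obtain ⟨c, hc⟩ := hmu (P t') (hPinv t' ht'e)
    have hc1 : ∀ u v w, Q m u w v = c * Q m u v w := by
      intro u v w
      rw [← ht', ← hP, hc]
      simp [hQ]
    have hQ0 : ∃ u v w, Q m u v w ≠ 0 := by
      by_contra hcon
      push Not at hcon
      apply hm0
      ext u v
      apply hinj'
      intro w
      rw [← hQ, hcon]
      simp
    obtain ⟨u0, v0, w0, h0⟩ := hQ0
    have hcc : c * c = 1 := by
      have h1 := hc1 u0 v0 w0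
      have h2 := hc1 u0 w0 v0
      rw [h1] at h2
      have h3 : (c * c - 1) * Q m u0 v0 w0 = 0 := by linarith
      rcases mul_eq_zero.mp h3 with h | h
      · linarith
      · exact absurd h h0
    have hs1 : ∀ u v w, Q m u v w = Q m v u w := by
      intro u v w
      rw [hQ, hQ, hmc]
    have hcne : c = 1 := by
      have h4 : (c - 1) * (c + 1) = 0 := by ring_nf; linarith
      rcases mul_eq_zero.mp h4 with h | h
      · linarith
      · exfalso
        have hcm : c = -1 := by linarith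
        apply h0
        have a1 := hs1 u0 v0 w0
        have a2 := hc1 v0 w0 u0
        have a3 := hs1 v0 w0 u0
        have a4 := hc1 w0 u0 v0
        have a5 := hs1 w0 u0 v0
        have a6 := hc1 u0 v0 w0
        rw [hcm] at a2 a4 a6
        linarith
    refine ⟨Q m, ?_, ?_, hQe, ?_⟩
    · intro h
      apply h0
      rw [h]
      simp
    · intro u v w
      refine ⟨hs1 u v w, ?_⟩
      rw [hc1 u v w, hcne, one_mul]
    · intro s hs
      obtain ⟨d, hd⟩ := hmu (P s) (hPinv s hs)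
      refine ⟨d, ?_⟩
      ext u v w
      rw [← hP s, hd]
      simp [hQ]
  · rintro ⟨t, ht0, hts, hte, htu⟩
    refine ⟨P t, ?_, ?_, hPinv t hte, ?_⟩
    · intro h
      apply ht0
      ext u v w
      rw [← hP, h]
      simp
    · intro u v
      apply hinj'
      intro w
      rw [hP, hP, (hts u v w).1]
    · intro m' hm'
      obtain ⟨c, hc⟩ := htu (Q m') (hQinv m' hm')
      refine ⟨c, ?_⟩
      ext u v
      apply hinj'
      intro w
      rw [← hQ, hc]
      simp [hP]

end Cfsg.Agent.S5541
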