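import Cfsg.Statements.S5543
import Cfsg.Agent.H851.Majorana
set_option linter.all false

set_option autoImplicit false
open Cfsg

namespace Cfsg.Agent.S5543

open Cfsg.Axial Cfsg.Agent.H851.Maj

/-- Let V be a finite-dimensional real vector space with a commutative bilinear product and a positive-definite symmetric bilinear form that associates with the product and satisfies the Norton inequality (the Majorana setting of the definitions). Let X be a group of linear automorphisms of V in which every element squares to the identity, and suppose every non-identity element x of X is a Majorana involution with an axial vector a(x) of squared length 1, such that for any two distinct non-identity x, y the product a(x) ∘ a(y) equals (1/8)(a(x) + a(y) − a(xy)) (the dihedral subalgebra of type 2A whose third axis belongs to the involution xy). Then X has order at most 4. -/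
theorem result {V : Type*} [AddCommGroup V] [Module ℝ V] [FiniteDimensional ℝ V] (mul : V →ₗ[ℝ] V →ₗ[ℝ] V) (B : LinearMap.BilinForm ℝ V) (hV : Cfsg.Axial.IsMajoranaAmbient mul B) (X : Subgroup (V ≃ₗ[ℝ] V)) (hX : ∀ x ∈ X, x * x = 1) (ax : (V ≃ₗ[ℝ] V) → V) (hax : ∀ x ∈ X, x ≠ 1 → Cfsg.Axial.IsMajoranaPair mul B x (ax x)) (h1 : ∀ x ∈ X, x ≠ 1 → B (ax x) (ax x) = 1) (h2A : ∀ x ∈ X, ∀ y ∈ X, x ≠ 1 → y ≠ 1 → x ≠ y → mul (ax x) (ax y) = (1 / 8 : ℝ) • (ax x + ax y - ax (x * y))) : Nat.card ↥X ≤ 4 := by
  classical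
  by_contra hcon
  push Not at hcon
  have hfin : Finite X := Nat.finite_of_card_ne_zero (by omega)
  -- elements commute
  have hinv : ∀ x ∈ X, x⁻¹ = x := fun x hx => inv_eq_of_mul_eq_one_right (hX x hx)
  have hcomm : ∀ x ∈ X, ∀ y ∈ X, x * y = y * x := by
    intro x hx y hy
    have h := hX (x * y) (X.mul_mem hx hy)
    have h' : x * y = (x * y)⁻¹ := (hinv _ (X.mul_mem hx hy)).symm
    rw [h', mul_inv_rev, hinv x hx, hinv y hy]
  -- pick an element outside any set of at most four elements
  have hpick : ∀ S : Finset (V ≃ₗ[ℝ] V), S.card ≤ 4 → ∃ x ∈ X, x ∉ S := by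
    intro S hS
    by_contra hno
    push Not at hno
    have hsub : (X : Set (V ≃ₗ[ℝ] V)) ⊆ (S : Set (V ≃ₗ[ℝ] V)) := fun x hx => hno x hx
    have hle : Nat.card X ≤ S.card := by
      have := Set.ncard_le_ncard hsub S.finite_toSet
      rw [Set.ncard_coe_finset] at this
      exact this
    omega
  obtain ⟨x, hx, hxS⟩ := hpick {1} (by simp)
  obtain ⟨y, hy, hyS⟩ := hpick {1, x} (le_trans Finset.card_le_two (by norm_num))
  obtain ⟨z, hz, hzS⟩ := hpick {1, x, y, x * y} Finset.card_le_four
  simp only [Finset.mem_insert, Finset.mem_singleton, not_or] at hxS hyS hzS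
  obtain ⟨hy1, hyx⟩ := hyS
  obtain ⟨hz1, hzx, hzy, hzxy⟩ := hzS
  have hx1 := hxS
  -- the various products are non-trivial
  have hxyX := X.mul_mem hx hy
  have hyzX := X.mul_mem hy hz
  have hxzX := X.mul_mem hx hz
  have hxyzX := X.mul_mem hx hyzX
  have key : ∀ u ∈ X, ∀ v ∈ X, u * v = 1 → u = v := by
    intro u hu v hv h
    have := eq_inv_of_mul_eq_one_left h
    rw [hinv v hv] at this
    exact this
  have hxy1 : x * y ≠ 1 := fun h => hyx (key x hx y hy h).symm
  have hyz1 : y * z ≠ 1 := fun h => hzy (key y hy z hz h).symm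
  have hxz1 : x * z ≠ 1 := fun h => hzx (key x hx z hz h).symm
  have hxyz1 : x * (y * z) ≠ 1 := by
    intro h
    rw [← mul_assoc] at h
    exact hzxy (key _ hxyX z hz h).symm
  have hxx := hX x hx
  have hyy := hX y hy
  have hzz := hX z hz
  -- products of axes
  have e1 : x * (x * y) = y := by rw [← mul_assoc, hxx, one_mul]
  have e2 : x * (x * z) = z := by rw [← mul_assoc, hxx, one_mul]
  have e3 : x * (x * (y * z)) = y * z := by rw [← mul_assoc, hxx, one_mul]
  have ne1 : x ≠ x * y := fun h => hy1 (by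
    have : x * 1 = x * y := by rw [mul_one]; exact h
    exact (mul_left_cancel this).symm)
  have ne2 : x ≠ x * z := fun h => hz1 (by
    have : x * 1 = x * z := by rw [mul_one]; exact h
    exact (mul_left_cancel this).symm)
  have ne3 : x ≠ x * (y * z) := fun h => hyz1 (by
    have : x * 1 = x * (y * z) := by rw [mul_one]; exact h
    exact (mul_left_cancel this).symm)
  have ne4 : x ≠ y * z := fun h => hxyz1 (by rw [← h]; exact hxx)
  have pxy := h2A x hx y hy hx1 hy1 (Ne.symm hyx)
  have pxxy := h2A x hx (x * y) hxyX hx1 hxy1 ne1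
  have pxz := h2A x hx z hz hx1 hz1 (Ne.symm hzx)
  have pxxz := h2A x hx (x * z) hxzX hx1 hxz1 ne2
  have pxyz := h2A x hx (y * z) hyzX hx1 hyz1 ne4
  have pxxyz := h2A x hx (x * (y * z)) hxyzX hx1 hxyz1 ne3
  rw [e1] at pxxy
  rw [e2] at pxxz
  rw [e3] at pxxyz
  -- the four cross products
  have hyxz : y ≠ x * z := fun h => hzxy (by
    have h' : x * y = x * (x * z) := by rw [h]
    rw [e2] at h'
    exact h'.symm)
  have hxyxz : x * y ≠ x * z := fun h => hzy (mul_left_cancel h).symm
  have p1 := h2A y hy z hz hy1 hz1 (Ne.symm hzy)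
  have p2 := h2A y hy (x * z) hxzX hy1 hxz1 hyxz
  have p3 := h2A (x * y) hxyX z hz hxy1 hz1 (Ne.symm hzxy)
  have p4 := h2A (x * y) hxyX (x * z) hxzX hxy1 hxz1 hxyxz
  have f2 : y * (x * z) = x * (y * z) := by
    rw [← mul_assoc, hcomm y hy x hx, mul_assoc]
  have f3 : x * y * z = x * (y * z) := mul_assoc _ _ _
  have f4 : x * y * (x * z) = y * z := by
    rw [hcomm x hx y hy, mul_assoc, e2]
  rw [f2] at p2
  rw [f3] at p3
  rw [f4] at p4
  -- quarter eigenvectors
  have hq1 : mul (ax x) (ax y - ax (x * y)) = (1 / 4 : ℝ) • (ax y - ax (x * y)) := by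
    rw [map_sub, pxy, pxxy]
    module
  have hq2 : mul (ax x) (ax z - ax (x * z)) = (1 / 4 : ℝ) • (ax z - ax (x * z)) := by
    rw [map_sub, pxz, pxxz]
    module
  have hq3 : mul (ax x) (ax (y * z) - ax (x * (y * z))) =
      (1 / 4 : ℝ) • (ax (y * z) - ax (x * (y * z))) := by
    rw [map_sub, pxyz, pxxyz]
    module
  have hprod : mul (ax y - ax (x * y)) (ax z - ax (x * z)) =
      (-1 / 4 : ℝ) • (ax (y * z) - ax (x * (y * z))) := by
    simp only [map_sub, LinearMap.sub_apply]
    rw [p1, p2, p3, p4]
    module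
  have hP := hax x hx hx1
  have hn := h1 x hx hx1
  have hfus := fus44 hV hP hn hq1 hq2
  rw [hprod, map_smul, hq3] at hfus
  -- the difference is a multiple of `ax x`, and orthogonal to it
  set w := ax (y * z) - ax (x * (y * z)) with hw
  have hxx' : mul (ax x) (ax x) = (1 : ℝ) • ax x := by rw [one_smul]; exact pair_idem hP
  have horth : B (ax x) w = 0 := form_orth hV (by norm_num) hxx' hq3
  have hw0 : w = 0 := by
    have h5 : w = (-16 * (1 / 4 * B (ax y - ax (x * y)) (ax z - ax (x * z)))) • ax x := by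
      have h6 := congrArg (fun t : V => (-16 : ℝ) • t) hfus
      simp only [smul_smul] at h6
      rw [← h6]
      module
    have h7 : B w w = 0 := by
      nth_rewrite 1 [h5]
      rw [map_smul, LinearMap.smul_apply, horth, smul_zero]
    exact form_zero hV h7
  have heq : ax (y * z) = ax (x * (y * z)) := sub_eq_zero.mp hw0
  have hPyz := hax (y * z) hyzX hyz1
  have hPxyz := hax (x * (y * z)) hxyzX hxyz1
  rw [← heq] at hPxyz
  have := pair_unique hPyz hPxyz
  apply hx1
  have h8 : 1 * (y * z) = x * (y * z) := by rw [one_mul]; exact this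
  exact (mul_right_cancel h8).symm

end Cfsg.Agent.S5543
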