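import Cfsg.Agent.H851.Majorana
import Cfsg.Statements.S5544
set_option linter.all false

-- part: H851/SakumaLocal
section
/-!
# Local computations for Sakuma's theorem

The product formulas around one axis `a` of a dihedral algebra generated by two Majorana axes.
-/

set_option autoImplicit false
open Cfsg Cfsg.Axial

namespace Cfsg.Agent.H851.Sak

open Cfsg.Agent.H851.Maj

variable {V : Type*} [AddCommGroup V] [Module ℝ V] {mul : V →ₗ[ℝ] V →ₗ[ℝ] V}
  {B : LinearMap.BilinForm ℝ V}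

/-- **First local lemma.** For an axis `a` and any vector `b`, with `s = ab - (a+b)/32`:
the vector `s` is fixed by the involution of `a`, and `a s` is known. -/
theorem local_one (hV : IsMajoranaAmbient mul B) {τ : V ≃ₗ[ℝ] V} {a b b' s : V} {x : ℝ}
    (h : IsMajoranaPair mul B τ a) (hn : B a a = 1) (hb' : b' = τ b) (hx : x = B a b)
    (hs : mul a b = s + (1 / 32 : ℝ) • (a + b)) :
    τ s = s ∧
      mul a s = (3 / 4 * x - 25 / 1024) • a + (7 / 2048 : ℝ) • (b + b') + (7 / 32 : ℝ) • s ∧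
      (∀ β : V, β = (1 / 8 - 4 * x) • a + (1 / 16 : ℝ) • (b + b') + (4 : ℝ) • s →
        B β β = B β b) := by
  obtain ⟨l, α, β, γ, hv, hα, hβ, hγ⟩ := pair_decomp h b
  have hl : x = l := by
    rw [hx, hv]
    exact decomp_coeff hV (pair_idem h) hn hα hβ hγ
  subst hl
  have hb2 : b' = x • a + α + β - γ := by
    rw [hb', hv]
    simp only [map_add, map_smul]
    rw [pair_self h, pair_zero h hα, pair_quarter h hβ, pair_neg h hγ]
    abel
  have haa := pair_idem h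
  have hse : s = (31 / 32 * x - 1 / 32) • a + (-1 / 32 : ℝ) • α + (7 / 32 : ℝ) • β := by
    have h1 : s = mul a b - (1 / 32 : ℝ) • (a + b) := by rw [hs]; module
    have h2 : mul a b = x • a + (1 / 4 : ℝ) • β + (1 / 32 : ℝ) • γ := by
      rw [hv]
      simp only [map_add, map_smul]
      rw [haa, hα, hβ, hγ]
      module
    rw [h1, h2, hv]
    module
  refine ⟨?_, ?_, ?_⟩
  · rw [hse]
    simp only [map_add, map_smul]
    rw [pair_self h, pair_zero h hα, pair_quarter h hβ]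
  · rw [hb2, hv, hse]
    simp only [map_add, map_smul]
    rw [haa, hα, hβ]
    module
  · intro β₂ hβ₂'
    have hβ₂ : β₂ = β := by
      rw [hβ₂', hb2, hv, hse]
      module
    rw [hβ₂]
    have ha1 : mul a a = (1 : ℝ) • a := by rw [one_smul]; exact haa
    have hα0 : mul a α = (0 : ℝ) • α := by rw [zero_smul]; exact hα
    have o1 : B β a = 0 := form_orth hV (by norm_num) hβ ha1
    have o2 : B β α = 0 := form_orth hV (by norm_num) hβ hα0
    have o3 : B β γ = 0 := form_orth hV (by norm_num) hβ hγ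
    rw [hv]
    simp only [map_add, map_smul, o1, o2, o3]
    simp

/-- **Second local lemma**: the products `a t` and `s s`, by the fusion rules. -/
theorem local_two (hV : IsMajoranaAmbient mul B) {τ : V ≃ₗ[ℝ] V} {a b b' c c' s t u : V} {x z : ℝ}
    (h : IsMajoranaPair mul B τ a) (hn : B a a = 1)
    (hbb : mul b b = b) (hbb' : mul b' b' = b')
    (hab : mul a b = s + (1 / 32 : ℝ) • (a + b)) (hab' : mul a b' = s + (1 / 32 : ℝ) • (a + b'))
    (has : mul a s = (3 / 4 * x - 25 / 1024) • a + (7 / 2048 : ℝ) • (b + b') + (7 / 32 : ℝ) • s)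
    (hbs : mul b s = (3 / 4 * x - 25 / 1024) • b + (7 / 2048 : ℝ) • (a + c) + (7 / 32 : ℝ) • s)
    (hbs' : mul b' s = (3 / 4 * x - 25 / 1024) • b' + (7 / 2048 : ℝ) • (a + c') + (7 / 32 : ℝ) • s)
    (ht : mul b b' = t + (1 / 32 : ℝ) • (b + b'))
    (hac : mul a c = u + (1 / 32 : ℝ) • (a + c)) (hac' : mul a c' = u + (1 / 32 : ℝ) • (a + c'))
    (hBβ : ∀ β : V, β = (1 / 8 - 4 * x) • a + (1 / 16 : ℝ) • (b + b') + (4 : ℝ) • s →
        B β β = 4 * x - 4 * x * x - (1 - z) / 16) :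
    mul a t = (-32 / 3 * x * x + 5 / 3 * x - 1 / 24 * z - 127 / 3072) • a +
        (1 / 6 * x - 19 / 3072) • (b + b') + (7 / 6144 : ℝ) • (c + c') +
        (32 / 3 * x - 19 / 48) • s + (7 / 96 : ℝ) • u ∧
      mul s s = (7 / 6 * x * x - 7 / 384 * x + 7 / 1536 * z - 7 / 98304) • a +
        (49 / 768 * x - 245 / 196608) • (b + b') + (49 / 196608 : ℝ) • (c + c') +
        (-5 / 12 * x - 13 / 1536) • s - (7 / 1536 : ℝ) • u + (7 / 2048 : ℝ) • t := by
  have haa := pair_idem h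
  have hcm := hV.1
  have hba : mul b a = s + (1 / 32 : ℝ) • (a + b) := by rw [hcm b a, hab]
  have hba' : mul b' a = s + (1 / 32 : ℝ) • (a + b') := by rw [hcm b' a, hab']
  have hsa : mul s a = (3 / 4 * x - 25 / 1024) • a + (7 / 2048 : ℝ) • (b + b') +
    (7 / 32 : ℝ) • s := by rw [hcm s a, has]
  have hsb : mul s b = (3 / 4 * x - 25 / 1024) • b + (7 / 2048 : ℝ) • (a + c) +
    (7 / 32 : ℝ) • s := by rw [hcm s b, hbs]
  have hsb' : mul s b' = (3 / 4 * x - 25 / 1024) • b' + (7 / 2048 : ℝ) • (a + c') +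
    (7 / 32 : ℝ) • s := by rw [hcm s b', hbs']
  have ht' : mul b' b = t + (1 / 32 : ℝ) • (b + b') := by rw [hcm b' b, ht]
  set β : V := (1 / 8 - 4 * x) • a + (1 / 16 : ℝ) • (b + b') + (4 : ℝ) • s with hβdef
  set α : V := (3 * x - 1 / 8) • a + (7 / 16 : ℝ) • (b + b') - (4 : ℝ) • s with hαdef
  have hα : mul a α = 0 := by
    rw [hαdef]
    simp only [map_add, map_sub, map_smul]
    rw [haa, hab, hab', has]
    module
  have hβ : mul a β = (1 / 4 : ℝ) • β := by
    rw [hβdef]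
    simp only [map_add, map_smul]
    rw [haa, hab, hab', has]
    module
  have hBβ' : B β β = 4 * x - 4 * x * x - (1 - z) / 16 := hBβ β hβdef
  have f00 := fus00 h hα hα
  have f01 := fus04 h hα hβ
  have f11 := fus44 hV h hn hβ hβ
  -- the product of `α` with `α + β`
  have hP : mul α (α + β) = (3 / 32 * x - 9 / 512) • a + (-93 / 64 * x + 143 / 512) • (b + b') +
      (-7 / 1024 : ℝ) • (c + c') + (3 * x - 1) • s + (7 / 16 : ℝ) • t := by
    have h1 : α + β = (1 / 2 : ℝ) • (b + b') - x • a := by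
      rw [hαdef, hβdef]; module
    have h2 : mul α a = 0 := by rw [hcm, hα]
    rw [h1, map_sub, map_smul, map_smul, h2, smul_zero, sub_zero, hαdef]
    simp only [map_add, map_sub, map_smul, LinearMap.add_apply, LinearMap.sub_apply,
      LinearMap.smul_apply]
    rw [hab, hab', hbb, hbb', ht, ht', hsb, hsb']
    module
  have hR : mul β (α + β) = (x * x - 5 / 32 * x + 9 / 512) • a +
      (91 / 64 * x - 7 / 512) • (b + b') + (7 / 1024 : ℝ) • (c + c') + (-5 * x + 1) • s +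
      (1 / 16 : ℝ) • t := by
    have h1 : α + β = (1 / 2 : ℝ) • (b + b') - x • a := by
      rw [hαdef, hβdef]; module
    have h2 : mul β a = (1 / 4 : ℝ) • β := by rw [hcm, hβ]
    rw [h1, map_sub, map_smul, map_smul, h2, hβdef]
    simp only [map_add, map_smul, LinearMap.add_apply, LinearMap.smul_apply]
    rw [hab, hab', hbb, hbb', ht, ht', hsb, hsb']
    module
  have hβα : mul β α = mul α β := hcm β α
  have hP1 : mul a (mul α (α + β)) = (1 / 4 : ℝ) • mul α β := by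
    rw [map_add (mul α), map_add (mul a), f00, f01, zero_add]
  have hR1 : mul a (mul β (α + β)) = (1 / 4 : ℝ) • mul α β + (1 / 4 * B β β) • a := by
    rw [map_add (mul β), map_add (mul a), hβα, f01, f11]
  have hPa : mul a (mul α (α + β)) = (3 / 32 * x - 9 / 512) • a +
      (-93 / 64 * x + 143 / 512) • ((2 : ℝ) • s + (1 / 32 : ℝ) • ((2 : ℝ) • a + b + b')) +
      (-7 / 1024 : ℝ) • ((2 : ℝ) • u + (1 / 32 : ℝ) • ((2 : ℝ) • a + c + c')) +
      (3 * x - 1) • ((3 / 4 * x - 25 / 1024) • a + (7 / 2048 : ℝ) • (b + b') +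
        (7 / 32 : ℝ) • s) + (7 / 16 : ℝ) • mul a t := by
    rw [hP]
    simp only [map_add, map_smul]
    rw [haa, hab, hab', hac, hac', has]
    module
  have hRa : mul a (mul β (α + β)) = (x * x - 5 / 32 * x + 9 / 512) • a +
      (91 / 64 * x - 7 / 512) • ((2 : ℝ) • s + (1 / 32 : ℝ) • ((2 : ℝ) • a + b + b')) +
      (7 / 1024 : ℝ) • ((2 : ℝ) • u + (1 / 32 : ℝ) • ((2 : ℝ) • a + c + c')) +
      (-5 * x + 1) • ((3 / 4 * x - 25 / 1024) • a + (7 / 2048 : ℝ) • (b + b') +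
        (7 / 32 : ℝ) • s) + (1 / 16 : ℝ) • mul a t := by
    rw [hR]
    simp only [map_add, map_smul]
    rw [haa, hab, hab', hac, hac', has]
    module
  have hat : mul a t = (-32 / 3 * x * x + 5 / 3 * x - 1 / 24 * z - 127 / 3072) • a +
        (1 / 6 * x - 19 / 3072) • (b + b') + (7 / 6144 : ℝ) • (c + c') +
        (32 / 3 * x - 19 / 48) • s + (7 / 96 : ℝ) • u := by
    rw [hBβ'] at hR1
    rw [hPa] at hP1
    rw [hRa] at hR1
    linear_combination (norm := module) (8 / 3 : ℝ) • hP1 - (8 / 3 : ℝ) • hR1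
  refine ⟨hat, ?_⟩
  have hαβ : mul α β = (4 : ℝ) • mul a (mul α (α + β)) := by
    rw [hP1]
    module
  have hαα : mul α α = mul α (α + β) - mul α β := by
    rw [map_add (mul α)]
    abel
  have hαα2 : mul α α = ((3 * x - 1 / 8) * (3 * x - 1 / 8)) • a +
      ((3 * x - 1 / 8) * (7 / 8)) • ((2 : ℝ) • s + (1 / 32 : ℝ) • ((2 : ℝ) • a + b + b')) +
      (49 / 256 : ℝ) • (b + b' + (2 : ℝ) • t + (1 / 16 : ℝ) • (b + b')) -
      (8 * (3 * x - 1 / 8)) • ((3 / 4 * x - 25 / 1024) • a + (7 / 2048 : ℝ) • (b + b') +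
        (7 / 32 : ℝ) • s) -
      (7 / 2 : ℝ) • ((3 / 4 * x - 25 / 1024) • (b + b') +
        (7 / 2048 : ℝ) • ((2 : ℝ) • a + c + c') + (7 / 16 : ℝ) • s) + (16 : ℝ) • mul s s := by
    rw [hαdef]
    simp only [map_add, map_sub, map_smul, LinearMap.add_apply, LinearMap.sub_apply,
      LinearMap.smul_apply]
    rw [haa, hab, hab', hba, hba', has, hsa, hbb, hbb', ht, ht', hsb, hsb', hbs, hbs']
    module
  rw [hαα, hαβ, hPa, hP, hat] at hαα2
  linear_combination (norm := module) (-1 / 16 : ℝ) • hαα2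

end Cfsg.Agent.H851.Sak
end

-- part: H851/SakumaSeq
section
/-!
# Sakuma's theorem: the sequence of axes

`Seq mul B a` : `a : ℤ → V` is the sequence of axes generated by two Majorana involutions.
The main result `Seq.final` lists the coincidences of axes.
-/

set_option autoImplicit false
open Cfsg Cfsg.Axial

namespace Cfsg.Agent.H851.Sak

open Cfsg.Agent.H851.Maj

variable {V : Type*} [AddCommGroup V] [Module ℝ V]

/-- A dihedral sequence of axes. -/
structure Seq (mul : V →ₗ[ℝ] V →ₗ[ℝ] V) (B : LinearMap.BilinForm ℝ V) (a : ℤ → V) : Prop where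
  amb : IsMajoranaAmbient mul B
  pair : ∀ i : ℤ, ∃ τ : V ≃ₗ[ℝ] V, IsMajoranaPair mul B τ (a i) ∧ ∀ j, τ (a j) = a (2 * i - j)
  norm : ∀ i, B (a i) (a i) = 1

/-- The invariant part of the product of two axes. -/
noncomputable def sd (mul : V →ₗ[ℝ] V →ₗ[ℝ] V) (a : ℤ → V) (i j : ℤ) : V :=
  mul (a i) (a j) - (1 / 32 : ℝ) • (a i + a j)

variable {mul : V →ₗ[ℝ] V →ₗ[ℝ] V} {B : LinearMap.BilinForm ℝ V} {a : ℤ → V}

theorem mul_sd (i j : ℤ) : mul (a i) (a j) = sd mul a i j + (1 / 32 : ℝ) • (a i + a j) := by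
  unfold sd
  abel

theorem Seq.sd_symm (S : Seq mul B a) (i j : ℤ) : sd mul a i j = sd mul a j i := by
  unfold sd
  rw [S.amb.1 (a i) (a j), add_comm (a i) (a j)]

theorem Seq.idem (S : Seq mul B a) (i : ℤ) : mul (a i) (a i) = a i := by
  obtain ⟨τ, h, -⟩ := S.pair i
  exact pair_idem h

/-- Reflection of inner products. -/
theorem Seq.form_refl (S : Seq mul B a) (k i j : ℤ) :
    B (a (2 * k - i)) (a (2 * k - j)) = B (a i) (a j) := by
  obtain ⟨τ, h, hτ⟩ := S.pair k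
  rw [← hτ, ← hτ, pair_form h]

/-- Reflection of the `s`-vectors at one of the two axes. -/
theorem Seq.sd_refl (S : Seq mul B a) (i j : ℤ) : sd mul a i j = sd mul a i (2 * i - j) := by
  obtain ⟨τ, h, hτ⟩ := S.pair i
  have h1 := (local_one S.amb (b' := τ (a j)) h (S.norm i) rfl rfl (mul_sd i j)).1
  rw [← h1]
  unfold sd
  rw [map_sub, map_smul, map_add, pair_mul h, pair_self h, hτ]

/-- The product of an axis with an `s`-vector. -/
theorem Seq.mul_s (S : Seq mul B a) (i j : ℤ) :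
    mul (a i) (sd mul a i j) = (3 / 4 * B (a i) (a j) - 25 / 1024) • a i +
      (7 / 2048 : ℝ) • (a j + a (2 * i - j)) + (7 / 32 : ℝ) • sd mul a i j := by
  obtain ⟨τ, h, hτ⟩ := S.pair i
  have h1 := (local_one S.amb (b' := τ (a j)) h (S.norm i) rfl rfl (mul_sd i j)).2.1
  rw [h1, hτ]

/-- The inner product of an `s`-vector with one of its axes. -/
theorem Seq.form_s (S : Seq mul B a) (i j : ℤ) :
    B (sd mul a i j) (a i) = 31 / 32 * B (a i) (a j) - 1 / 32 := by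
  unfold sd
  have h1 : B (mul (a i) (a j)) (a i) = B (a i) (a j) := by
    rw [S.amb.1 (a i) (a j), form_assoc S.amb, S.idem, S.amb.2.1]
  have h2 : B (a j) (a i) = B (a i) (a j) := S.amb.2.1 _ _
  simp only [map_sub, map_smul, map_add, LinearMap.sub_apply, LinearMap.smul_apply,
    LinearMap.add_apply, smul_eq_mul]
  rw [h1, h2, S.norm i]
  ring

/-- The length of the `1/4`-component. -/
theorem Seq.form_beta (S : Seq mul B a) (i j : ℤ) (β : V)
    (hβ : β = (1 / 8 - 4 * B (a i) (a j)) • a i + (1 / 16 : ℝ) • (a j + a (2 * i - j)) +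
      (4 : ℝ) • sd mul a i j) :
    B β β = 4 * B (a i) (a j) - 4 * B (a i) (a j) * B (a i) (a j) -
      (1 - B (a j) (a (2 * i - j))) / 16 := by
  obtain ⟨τ, h, hτ⟩ := S.pair i
  have h1 := (local_one S.amb (b' := τ (a j)) h (S.norm i) rfl rfl (mul_sd i j)).2.2
  rw [hτ] at h1
  rw [h1 β hβ, hβ]
  have h2 : B (a (2 * i - j)) (a j) = B (a j) (a (2 * i - j)) := S.amb.2.1 _ _
  have h3 : B (sd mul a i j) (a j) = 31 / 32 * B (a i) (a j) - 1 / 32 := by
    rw [S.sd_symm, S.form_s, S.amb.2.1 (a j) (a i)]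
  simp only [map_smul, map_add, LinearMap.smul_apply, LinearMap.add_apply, smul_eq_mul]
  rw [h2, h3, S.norm j]
  ring

end Cfsg.Agent.H851.Sak
end

-- part: H851/SakumaRel
section
/-!
# Sakuma's theorem: the linear relation and the two polynomial equations
-/

set_option autoImplicit false
open Cfsg Cfsg.Axial

namespace Cfsg.Agent.H851.Sak

open Cfsg.Agent.H851.Maj

variable {V : Type*} [AddCommGroup V] [Module ℝ V]
variable {mul : V →ₗ[ℝ] V →ₗ[ℝ] V} {B : LinearMap.BilinForm ℝ V} {a : ℤ → V}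

/-- The inner products of neighbours all agree. -/
theorem Seq.f_refl (S : Seq mul B a) (k i j i' j' : ℤ) (hi : i' = 2 * k - i)
    (hj : j' = 2 * k - j) : B (a i') (a j') = B (a i) (a j) := by
  subst hi hj
  exact S.form_refl k i j

theorem Seq.s_refl (S : Seq mul B a) (i j j' : ℤ) (hj : j' = 2 * i - j) :
    sd mul a i j' = sd mul a i j := by
  subst hj
  exact (S.sd_refl i j).symm

/-- Basic facts, part 1: invariance of the three vectors `s`, `u`, `t`. -/
theorem Seq.basic_s (S : Seq mul B a) :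
    sd mul a 0 (-1) = sd mul a 0 1 ∧ sd mul a 1 0 = sd mul a 0 1 ∧ sd mul a 1 2 = sd mul a 0 1 ∧
    sd mul a (-1) 0 = sd mul a 0 1 ∧ sd mul a (-1) (-2) = sd mul a 0 1 ∧
    sd mul a 2 1 = sd mul a 0 1 ∧ sd mul a 2 3 = sd mul a 0 1 ∧
    sd mul a (-2) (-1) = sd mul a 0 1 ∧ sd mul a 3 2 = sd mul a 0 1 := by
  have e1 : sd mul a 0 (-1) = sd mul a 0 1 := S.s_refl 0 1 (-1) (by norm_num)
  have e2 : sd mul a 1 0 = sd mul a 0 1 := S.sd_symm 1 0
  have e3 : sd mul a 1 2 = sd mul a 0 1 := by rw [S.s_refl 1 0 2 (by norm_num), e2]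
  have e4 : sd mul a (-1) 0 = sd mul a 0 1 := by rw [S.sd_symm, e1]
  have e5 : sd mul a (-1) (-2) = sd mul a 0 1 := by rw [S.s_refl (-1) 0 (-2) (by norm_num), e4]
  have e6 : sd mul a 2 1 = sd mul a 0 1 := by rw [S.sd_symm, e3]
  have e7 : sd mul a 2 3 = sd mul a 0 1 := by rw [S.s_refl 2 1 3 (by norm_num), e6]
  have e8 : sd mul a (-2) (-1) = sd mul a 0 1 := by rw [S.sd_symm, e5]
  have e9 : sd mul a 3 2 = sd mul a 0 1 := by rw [S.sd_symm, e7]
  exact ⟨e1, e2, e3, e4, e5, e6, e7, e8, e9⟩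

/-- The two parameters at distance two agree. -/
theorem Seq.y_eq_z (S : Seq mul B a) : B (a 1) (a (-1)) = B (a 0) (a 2) := by
  obtain ⟨e1, e2, e3, e4, e5, e6, e7, e8, e9⟩ := S.basic_s
  have h1 := S.mul_s 0 1
  have h2 := S.mul_s 1 0
  rw [e2] at h2
  norm_num at h1 h2
  have h3 : B (mul (a 0) (sd mul a 0 1)) (a 1) = B (mul (a 1) (sd mul a 0 1)) (a 0) := by
    rw [form_shift S.amb, form_shift S.amb]
    have h4 := form_assoc S.amb (sd mul a 0 1) (a 0) (a 1)
    have h5 := form_assoc S.amb (sd mul a 0 1) (a 1) (a 0)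
    rw [S.amb.1 (a 1) (a 0)] at h5
    rw [← form_shift S.amb, ← form_shift S.amb, S.amb.1 (a 0) (sd mul a 0 1),
      S.amb.1 (a 1) (sd mul a 0 1), h4, h5]
  rw [h1, h2] at h3
  have f1 : B (sd mul a 0 1) (a 0) = 31 / 32 * B (a 0) (a 1) - 1 / 32 := S.form_s 0 1
  have f2 : B (sd mul a 0 1) (a 1) = 31 / 32 * B (a 0) (a 1) - 1 / 32 := by
    rw [← e2, S.form_s, S.amb.2.1 (a 1) (a 0)]
  have f3 : B (a 1) (a 0) = B (a 0) (a 1) := S.amb.2.1 _ _
  have f4 : B (a 2) (a 0) = B (a 0) (a 2) := S.amb.2.1 _ _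
  have f5 : B (a (-1)) (a 1) = B (a 1) (a (-1)) := S.amb.2.1 _ _
  simp only [map_smul, map_add, LinearMap.smul_apply, LinearMap.add_apply, smul_eq_mul, f1, f2, f3,
    f4, f5, S.norm] at h3
  linarith

end Cfsg.Agent.H851.Sak
end

-- part: H851/SakumaPoly
section
/-!
# Sakuma's theorem: the linear relation and the two polynomial equations
-/

set_option autoImplicit false
open Cfsg Cfsg.Axial

namespace Cfsg.Agent.H851.Sak

open Cfsg.Agent.H851.Maj

variable {V : Type*} [AddCommGroup V] [Module ℝ V]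
variable {mul : V →ₗ[ℝ] V →ₗ[ℝ] V} {B : LinearMap.BilinForm ℝ V} {a : ℤ → V}

theorem Seq.mul_s' (S : Seq mul B a) (i j k : ℤ) (hk : k = 2 * i - j) {s : V}
    (hs : sd mul a i j = s) {x : ℝ} (hx : B (a i) (a j) = x) :
    mul (a i) s = (3 / 4 * x - 25 / 1024) • a i +
      (7 / 2048 : ℝ) • (a j + a k) + (7 / 32 : ℝ) • s := by
  subst hk hs hx
  exact S.mul_s i j

theorem Seq.form_beta' (S : Seq mul B a) (i j k : ℤ) (hk : k = 2 * i - j) {s : V}
    (hs : sd mul a i j = s) {x z : ℝ} (hx : B (a i) (a j) = x) (hz : B (a j) (a k) = z) (β : V)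
    (hβ : β = (1 / 8 - 4 * x) • a i + (1 / 16 : ℝ) • (a j + a k) + (4 : ℝ) • s) :
    B β β = 4 * x - 4 * x * x - (1 - z) / 16 := by
  subst hk hs hx hz
  exact S.form_beta i j β hβ

theorem mul_sd' (i j : ℤ) {s : V} (hs : sd mul a i j = s) :
    mul (a i) (a j) = s + (1 / 32 : ℝ) • (a i + a j) := by
  subst hs
  exact mul_sd i j

theorem Seq.form_s' (S : Seq mul B a) (i j : ℤ) {s : V} (hs : sd mul a i j = s) {x : ℝ}
    (hx : B (a i) (a j) = x) : B s (a i) = 31 / 32 * x - 1 / 32 := by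
  subst hs hx
  exact S.form_s i j

theorem Seq.form_sd_refl (S : Seq mul B a) (k i j l i' j' l' : ℤ) (hi : i' = 2 * k - i)
    (hj : j' = 2 * k - j) (hl : l' = 2 * k - l) :
    B (sd mul a i' j') (a l') = B (sd mul a i j) (a l) := by
  subst hi hj hl
  obtain ⟨τ, h, hτ⟩ := S.pair k
  have h1 : sd mul a (2 * k - i) (2 * k - j) = τ (sd mul a i j) := by
    unfold sd
    rw [map_sub, map_smul, map_add, pair_mul h, hτ, hτ]
  rw [h1, ← hτ, pair_form h]

/-- All the basic data of a dihedral sequence of axes. -/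
structure Data (mul : V →ₗ[ℝ] V →ₗ[ℝ] V) (B : LinearMap.BilinForm ℝ V)
    (a0 a1 am1 a2 am2 a3 s u t : V) (x y : ℝ) : Prop where
  amb : IsMajoranaAmbient mul B
  p0 : ∃ τ, IsMajoranaPair mul B τ a0
  p1 : ∃ τ, IsMajoranaPair mul B τ a1
  n0 : B a0 a0 = 1
  n1 : B a1 a1 = 1
  nm1 : B am1 am1 = 1
  n2 : B a2 a2 = 1
  nm2 : B am2 am2 = 1
  n3 : B a3 a3 = 1
  i0 : mul a0 a0 = a0
  i1 : mul a1 a1 = a1
  im1 : mul am1 am1 = am1
  i2 : mul a2 a2 = a2
  i3 : mul a3 a3 = a3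
  m01 : mul a0 a1 = s + (1 / 32 : ℝ) • (a0 + a1)
  m0m1 : mul a0 am1 = s + (1 / 32 : ℝ) • (a0 + am1)
  m10 : mul a1 a0 = s + (1 / 32 : ℝ) • (a1 + a0)
  m12 : mul a1 a2 = s + (1 / 32 : ℝ) • (a1 + a2)
  mm1m2 : mul am1 am2 = s + (1 / 32 : ℝ) • (am1 + am2)
  m23 : mul a2 a3 = s + (1 / 32 : ℝ) • (a2 + a3)
  m02 : mul a0 a2 = u + (1 / 32 : ℝ) • (a0 + a2)
  m0m2 : mul a0 am2 = u + (1 / 32 : ℝ) • (a0 + am2)
  m1m1 : mul a1 am1 = t + (1 / 32 : ℝ) • (a1 + am1)
  m13 : mul a1 a3 = t + (1 / 32 : ℝ) • (a1 + a3)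
  s0 : mul a0 s = (3 / 4 * x - 25 / 1024) • a0 + (7 / 2048 : ℝ) • (a1 + am1) + (7 / 32 : ℝ) • s
  s1 : mul a1 s = (3 / 4 * x - 25 / 1024) • a1 + (7 / 2048 : ℝ) • (a0 + a2) + (7 / 32 : ℝ) • s
  sm1 : mul am1 s = (3 / 4 * x - 25 / 1024) • am1 + (7 / 2048 : ℝ) • (a0 + am2) + (7 / 32 : ℝ) • s
  s2 : mul a2 s = (3 / 4 * x - 25 / 1024) • a2 + (7 / 2048 : ℝ) • (a1 + a3) + (7 / 32 : ℝ) • s
  u0 : mul a0 u = (3 / 4 * y - 25 / 1024) • a0 + (7 / 2048 : ℝ) • (a2 + am2) + (7 / 32 : ℝ) • u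
  fs0 : B s a0 = 31 / 32 * x - 1 / 32
  fs1 : B s a1 = 31 / 32 * x - 1 / 32
  fsm1 : B s am1 = 31 / 32 * x - 1 / 32
  fs2 : B s a2 = 31 / 32 * x - 1 / 32
  fsm2 : B s am2 = 31 / 32 * x - 1 / 32
  fs3 : B s a3 = 31 / 32 * x - 1 / 32
  fu0 : B u a0 = 31 / 32 * y - 1 / 32
  fu2 : B u a2 = 31 / 32 * y - 1 / 32
  fum2 : B u am2 = 31 / 32 * y - 1 / 32
  ft1 : B t a1 = 31 / 32 * y - 1 / 32
  ftm1 : B t am1 = 31 / 32 * y - 1 / 32
  ft3 : B t a3 = 31 / 32 * y - 1 / 32
  ftm2 : B t am2 = B t a2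
  g01 : B a0 a1 = x
  g0m1 : B a0 am1 = x
  g12 : B a1 a2 = x
  gm1m2 : B am1 am2 = x
  g23 : B a2 a3 = x
  g02 : B a0 a2 = y
  g0m2 : B a0 am2 = y
  g1m1 : B a1 am1 = y
  g13 : B a1 a3 = y
  g03 : B a0 a3 = B am1 a2
  g1m2 : B a1 am2 = B am1 a2
  b0 : ∀ β : V, β = (1 / 8 - 4 * x) • a0 + (1 / 16 : ℝ) • (a1 + am1) + (4 : ℝ) • s →
    B β β = 4 * x - 4 * x * x - (1 - y) / 16
  b1 : ∀ β : V, β = (1 / 8 - 4 * x) • a1 + (1 / 16 : ℝ) • (a0 + a2) + (4 : ℝ) • s →
    B β β = 4 * x - 4 * x * x - (1 - y) / 16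

theorem Seq.data (S : Seq mul B a) :
    Data mul B (a 0) (a 1) (a (-1)) (a 2) (a (-2)) (a 3) (sd mul a 0 1) (sd mul a 0 2)
      (sd mul a 1 (-1)) (B (a 0) (a 1)) (B (a 0) (a 2)) := by
  obtain ⟨e1, e2, e3, e4, e5, e6, e7, e8, e9⟩ := S.basic_s
  have hyz := S.y_eq_z
  set x : ℝ := B (a 0) (a 1) with hx
  set y : ℝ := B (a 0) (a 2) with hy
  have sy := S.amb.2.1
  -- inner products
  have g10 : B (a 1) (a 0) = x := sy _ _
  have g0m1 : B (a 0) (a (-1)) = x := S.f_refl 0 0 1 0 (-1) (by norm_num) (by norm_num)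
  have gm10 : B (a (-1)) (a 0) = x := by rw [sy, g0m1]
  have g12 : B (a 1) (a 2) = x := by
    rw [S.f_refl 1 1 0 1 2 (by norm_num) (by norm_num), g10]
  have g21 : B (a 2) (a 1) = x := by rw [sy, g12]
  have gm1m2 : B (a (-1)) (a (-2)) = x := by
    rw [S.f_refl (-1) (-1) 0 (-1) (-2) (by norm_num) (by norm_num), gm10]
  have gm2m1 : B (a (-2)) (a (-1)) = x := by rw [sy, gm1m2]
  have g23 : B (a 2) (a 3) = x := by
    rw [S.f_refl 2 2 1 2 3 (by norm_num) (by norm_num), g21]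
  have g32 : B (a 3) (a 2) = x := by rw [sy, g23]
  have g0m2 : B (a 0) (a (-2)) = y := S.f_refl 0 0 2 0 (-2) (by norm_num) (by norm_num)
  have g20 : B (a 2) (a 0) = y := sy _ _
  have gm20 : B (a (-2)) (a 0) = y := by rw [sy, g0m2]
  have gm11 : B (a (-1)) (a 1) = y := by rw [sy, hyz]
  have g13 : B (a 1) (a 3) = y := by
    rw [S.f_refl 1 1 (-1) 1 3 (by norm_num) (by norm_num), hyz]
  have g31 : B (a 3) (a 1) = y := by rw [sy, g13]
  have g03 : B (a 0) (a 3) = B (a (-1)) (a 2) := by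
    rw [sy (a 0) (a 3)]
    exact S.f_refl 1 (-1) 2 3 0 (by norm_num) (by norm_num)
  have g1m2 : B (a 1) (a (-2)) = B (a (-1)) (a 2) :=
    S.f_refl 0 (-1) 2 1 (-2) (by norm_num) (by norm_num)
  -- the vectors `u`, `t`
  have u1 : sd mul a 0 (-2) = sd mul a 0 2 := S.s_refl 0 2 (-2) (by norm_num)
  have u2 : sd mul a 2 0 = sd mul a 0 2 := S.sd_symm 2 0
  have u3 : sd mul a (-2) 0 = sd mul a 0 2 := by rw [S.sd_symm, u1]
  have t1 : sd mul a (-1) 1 = sd mul a 1 (-1) := S.sd_symm _ _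
  have t2 : sd mul a 1 3 = sd mul a 1 (-1) := S.s_refl 1 (-1) 3 (by norm_num)
  have t3 : sd mul a 3 1 = sd mul a 1 (-1) := by rw [S.sd_symm, t2]
  exact
    { amb := S.amb
      p0 := ⟨_, (S.pair 0).choose_spec.1⟩
      p1 := ⟨_, (S.pair 1).choose_spec.1⟩
      n0 := S.norm 0
      n1 := S.norm 1
      nm1 := S.norm (-1)
      n2 := S.norm 2
      nm2 := S.norm (-2)
      n3 := S.norm 3
      i0 := S.idem 0
      i1 := S.idem 1
      im1 := S.idem (-1)
      i2 := S.idem 2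
      i3 := S.idem 3
      m01 := mul_sd' 0 1 rfl
      m0m1 := mul_sd' 0 (-1) e1
      m10 := mul_sd' 1 0 e2
      m12 := mul_sd' 1 2 e3
      mm1m2 := mul_sd' (-1) (-2) e5
      m23 := mul_sd' 2 3 e7
      m02 := mul_sd' 0 2 rfl
      m0m2 := mul_sd' 0 (-2) u1
      m1m1 := mul_sd' 1 (-1) rfl
      m13 := mul_sd' 1 3 t2
      s0 := S.mul_s' 0 1 (-1) (by norm_num) rfl rfl
      s1 := S.mul_s' 1 0 2 (by norm_num) e2 g10
      sm1 := S.mul_s' (-1) 0 (-2) (by norm_num) e4 gm10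
      s2 := S.mul_s' 2 1 3 (by norm_num) e6 g21
      u0 := S.mul_s' 0 2 (-2) (by norm_num) rfl rfl
      fs0 := S.form_s' 0 1 rfl rfl
      fs1 := S.form_s' 1 0 e2 g10
      fsm1 := S.form_s' (-1) 0 e4 gm10
      fs2 := S.form_s' 2 1 e6 g21
      fsm2 := S.form_s' (-2) (-1) e8 gm2m1
      fs3 := S.form_s' 3 2 e9 g32
      fu0 := S.form_s' 0 2 rfl rfl
      fu2 := S.form_s' 2 0 u2 g20
      fum2 := S.form_s' (-2) 0 u3 gm20
      ft1 := S.form_s' 1 (-1) rfl hyz
      ftm1 := S.form_s' (-1) 1 t1 gm11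
      ft3 := S.form_s' 3 1 t3 g31
      ftm2 := by
        have h := S.form_sd_refl 0 (-1) 1 2 1 (-1) (-2) (by norm_num) (by norm_num) (by norm_num)
        rw [t1] at h
        exact h
      g01 := rfl
      g0m1 := g0m1
      g12 := g12
      gm1m2 := gm1m2
      g23 := g23
      g02 := rfl
      g0m2 := g0m2
      g1m1 := hyz
      g13 := g13
      g03 := g03
      g1m2 := g1m2
      b0 := S.form_beta' 0 1 (-1) (by norm_num) rfl rfl hyz
      b1 := S.form_beta' 1 0 2 (by norm_num) e2 g10 rfl }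

section

variable {a0 a1 am1 a2 am2 a3 s u t : V} {x y : ℝ}

/-- **The linear relation.** -/
theorem Data.rel (D : Data mul B a0 a1 am1 a2 am2 a3 s u t x y) :
    (am2 - a3) + (256 * x - 6) • (am1 - a2) +
      ((32768 * x * x - 2304 * x + 33 + 128 * y) / 7) • (a0 - a1) + (32 : ℝ) • (t - u) = 0 := by
  obtain ⟨τ0, h0⟩ := D.p0
  obtain ⟨τ1, h1⟩ := D.p1
  have c := D.amb.1
  have e0 := (local_two D.amb h0 D.n0 D.i1 D.im1 D.m01 D.m0m1 D.s0 D.s1 D.sm1 D.m1m1 D.m02 D.m0m2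
    D.b0).2
  have e1 := (local_two D.amb h1 D.n1 D.i0 D.i2 D.m10 D.m12 D.s1 D.s0 D.s2 D.m02 D.m1m1 D.m13
    D.b1).2
  rw [e0] at e1
  linear_combination (norm := module) (196608 / 49 : ℝ) • e1

/-- The product `a₀ t`. -/
theorem Data.t0 (D : Data mul B a0 a1 am1 a2 am2 a3 s u t x y) :
    mul a0 t = (-32 / 3 * x * x + 5 / 3 * x - 1 / 24 * y - 127 / 3072) • a0 +
        (1 / 6 * x - 19 / 3072) • (a1 + am1) + (7 / 6144 : ℝ) • (a2 + am2) +
        (32 / 3 * x - 19 / 48) • s + (7 / 96 : ℝ) • u := by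
  obtain ⟨τ0, h0⟩ := D.p0
  exact (local_two D.amb h0 D.n0 D.i1 D.im1 D.m01 D.m0m1 D.s0 D.s1 D.sm1 D.m1m1 D.m02 D.m0m2
    D.b0).1

theorem form_cyc (hV : IsMajoranaAmbient mul B) (p q r : V) :
    B (mul p q) r = B (mul p r) q := by
  rw [form_shift hV, hV.2.1]

/-- The remaining inner products of `t` and `u` with axes. -/
theorem Data.forms (D : Data mul B a0 a1 am1 a2 am2 a3 s u t x y) :
    B t a0 = 30 / 32 * x + 1 / 32 * y - 1 / 32 ∧ B t a2 = 30 / 32 * x + 1 / 32 * y - 1 / 32 ∧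
    B t am2 = 30 / 32 * x + 1 / 32 * y - 1 / 32 ∧
    B u a1 = 30 / 32 * x + 1 / 32 * y - 1 / 32 ∧ B u am1 = 30 / 32 * x + 1 / 32 * y - 1 / 32 ∧
    B u a3 = 30 / 32 * x + 1 / 32 * y - 1 / 32 := by
  have sy := D.amb.2.1
  have c := D.amb.1
  have cy := form_cyc D.amb
  have k1 : B t a0 = 30 / 32 * x + 1 / 32 * y - 1 / 32 := by
    have h1 := cy a1 am1 a0
    have f1 := sy a1 a0
    have f2 := sy am1 a0
    simp only [D.m1m1, D.m10, map_add, map_smul, LinearMap.add_apply, LinearMap.smul_apply,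
      smul_eq_mul, f1, f2, D.g01, D.g0m1, D.fsm1, D.g1m1] at h1
    linarith
  have k2 : B t a2 = 30 / 32 * x + 1 / 32 * y - 1 / 32 := by
    have h1 := cy a1 a3 a2
    have f2 := sy a3 a2
    simp only [D.m13, D.m12, map_add, map_smul, LinearMap.add_apply, LinearMap.smul_apply,
      smul_eq_mul, f2, D.g12, D.g23, D.fs3, D.g13] at h1
    linarith
  refine ⟨k1, k2, by rw [D.ftm2, k2], ?_, ?_, ?_⟩
  · have h1 := cy a0 a2 a1
    have f1 := sy a2 a1
    simp only [D.m02, D.m01, map_add, map_smul, LinearMap.add_apply, LinearMap.smul_apply,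
      smul_eq_mul, f1, D.g01, D.g02, D.fs2, D.g12] at h1
    linarith
  · have h1 := cy a0 am2 am1
    have f1 := sy am2 am1
    simp only [D.m0m2, D.m0m1, map_add, map_smul, LinearMap.add_apply, LinearMap.smul_apply,
      smul_eq_mul, f1, D.g0m1, D.g0m2, D.fsm2, D.gm1m2] at h1
    linarith
  · have h1 := cy a2 a0 a3
    have f0 : mul a2 a0 = u + (1 / 32 : ℝ) • (a0 + a2) := by rw [c a2 a0, D.m02]
    have f1 := sy a3 a0
    have f2 := sy a2 a0
    simp only [f0, D.m23, map_add, map_smul, LinearMap.add_apply, LinearMap.smul_apply,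
      smul_eq_mul, f1, f2, D.g02, D.g03, D.fs0, D.g23] at h1
    linarith

/-- The further inner products of axes. -/
theorem Data.lams (D : Data mul B a0 a1 am1 a2 am2 a3 s u t x y) {C : ℝ}
    (hC : C = (32768 * x * x - 2304 * x + 33 + 128 * y) / 7) :
    B a0 a3 = y + (256 * x - 6) * (x - y) + C * (1 - x) + 30 * (x - y) ∧
    B am2 a2 = x - (256 * x - 6) * (B a0 a3 - 1) - C * (y - x) - 30 * (x - y) ∧
    B am1 a3 = x - (256 * x - 6) * (B a0 a3 - 1) - C * (y - x) - 30 * (x - y) ∧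
    B am2 a3 = 1 + (256 * x - 6) * (x - B am2 a2) + C * (y - B a0 a3) + 30 * (x - y) := by
  obtain ⟨k1, k2, k3, k4, k5, k6⟩ := D.forms
  have sy := D.amb.2.1
  have hrel := D.rel
  rw [← hC] at hrel
  have r0 := congrArg (fun v => B v a0) hrel
  have r2 := congrArg (fun v => B v a2) hrel
  have rm1 := congrArg (fun v => B v am1) hrel
  have rm2 := congrArg (fun v => B v am2) hrel
  have f1 := sy a1 a0
  have f2 := sy am1 a0
  have f3 := sy a2 a0
  have f4 := sy am2 a0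
  have f5 := sy a3 a0
  have f6 := sy a3 a2
  have f7 := sy am2 am1
  have f8 := sy a2 am1
  have f9 := sy a3 am1
  have f10 := sy a2 am2
  have f11 := sy a3 am2
  have g03 := D.g03
  have g1m2 := D.g1m2
  simp only [map_add, map_sub, map_smul, LinearMap.add_apply, LinearMap.sub_apply, map_zero,
    LinearMap.zero_apply,
    LinearMap.smul_apply, smul_eq_mul, f1, f2, f3, f4, f5, f6, f7, f8, f9, f10, f11, D.g01, D.g0m1,
    D.g12, D.gm1m2, D.g23, D.g02, D.g0m2, D.g1m1, D.n0, D.n1, D.nm1, D.n2, D.nm2, k1, k2, k3, k4,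
    k5, k6, D.fu0, D.fu2, D.fum2, D.ftm1, D.g1m2] at r0 r2 rm1 rm2
  refine ⟨?_, ?_, ?_, ?_⟩
  · linear_combination (-1 : ℝ) * r0
  · rw [g03]
    linear_combination r2
  · rw [g03]
    linear_combination (-1 : ℝ) * rm1
  · rw [g03]
    linear_combination (-1 : ℝ) * rm2

/-- **The first polynomial equation.** -/
theorem Data.poly1 (D : Data mul B a0 a1 am1 a2 am2 a3 s u t x y) :
    2097152 * x ^ 4 - 2326528 * x ^ 3 + 40960 * x ^ 2 * y + 184320 * x ^ 2 + 8896 * x * y -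
      4800 * x + 128 * y ^ 2 - 167 * y + 39 = 0 := by
  obtain ⟨k1, k2, k3, k4, k5, k6⟩ := D.forms
  obtain ⟨l3, l4, -, -⟩ := D.lams rfl
  have sy := D.amb.2.1
  have c := D.amb.1
  have cy := form_cyc D.amb
  -- `B u u`
  have huu : B u u = (3 / 4 * y - 25 / 1024) * y + 7 / 2048 * (1 + B am2 a2) +
      7 / 32 * (31 / 32 * y - 1 / 32) - 1 / 16 * (31 / 32 * y - 1 / 32) := by
    have h1 := cy a0 a2 u
    simp only [D.m02, D.u0, map_add, map_smul, LinearMap.add_apply, LinearMap.smul_apply,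
      smul_eq_mul] at h1
    have f1 := sy a0 u
    have f2 := sy a2 u
    rw [f1, f2, D.fu0, D.fu2, D.g02, D.n2] at h1
    linarith
  have htu : B t u = (-32 / 3 * x * x + 5 / 3 * x - 1 / 24 * y - 127 / 3072) * y +
        (1 / 6 * x - 19 / 3072) * (x + B am1 a2) + 7 / 6144 * (1 + B am2 a2) +
        (32 / 3 * x - 19 / 48) * (31 / 32 * x - 1 / 32) + 7 / 96 * (31 / 32 * y - 1 / 32) -
        1 / 16 * (30 / 32 * x + 1 / 32 * y - 1 / 32) := by
    have h1 := cy a0 a2 t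
    simp only [D.m02, D.t0, map_add, map_smul, LinearMap.add_apply, LinearMap.smul_apply,
      smul_eq_mul] at h1
    have f1 := sy a0 t
    have f2 := sy a2 t
    have f3 := sy u t
    rw [f1, f2, f3, k1, k2, D.g02, D.g12, D.n2, D.fs2, D.fu2] at h1
    linarith
  have r := congrArg (fun v => B v u) D.rel
  have q0 := sy a0 u
  have q1 := sy a1 u
  have qm1 := sy am1 u
  have q2 := sy a2 u
  have qm2 := sy am2 u
  have q3 := sy a3 u
  simp only [map_add, map_sub, map_smul, LinearMap.add_apply, LinearMap.sub_apply, map_zero,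
    LinearMap.zero_apply, LinearMap.smul_apply, smul_eq_mul, q0, q1, qm1, q2, qm2, q3, D.fu0,
    D.fu2, D.fum2, k4, k5, k6, huu, htu] at r
  rw [l4, ← D.g03, l3] at r
  linear_combination (-56 / 3 : ℝ) * r

/-- **The second polynomial equation.** -/
theorem Data.poly2 (D : Data mul B a0 a1 am1 a2 am2 a3 s u t x y) :
    -536870912 * x ^ 5 + 605028352 * x ^ 4 - 26214400 * x ^ 3 * y - 44138496 * x ^ 3 +
      1593344 * x ^ 2 * y + 860160 * x ^ 2 - 94208 * x * y ^ 2 - 165856 * x * y + 2016 * x -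
      2784 * y ^ 2 + 2901 * y - 117 = 0 := by
  obtain ⟨k1, k2, k3, k4, k5, k6⟩ := D.forms
  obtain ⟨l3, l4, l4', l5⟩ := D.lams rfl
  have sy := D.amb.2.1
  have c := D.amb.1
  have cy := form_cyc D.amb
  have h33 : B (mul a0 a3) a3 = B a0 a3 := by
    rw [form_assoc D.amb, D.i3]
  have r := congrArg (fun v => B (mul a0 v) a3) D.rel
  simp only [map_add, map_sub, map_smul, map_zero, LinearMap.zero_apply, D.m0m2, D.m0m1, D.m02,
    D.m01, D.i0, D.t0, D.u0, LinearMap.add_apply, LinearMap.sub_apply, LinearMap.smul_apply,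
    smul_eq_mul, h33, D.fs3, k6, D.g23, D.g13, l5, l4', l4] at r
  rw [l3] at r
  linear_combination (-196 / 3 : ℝ) * r

end

end Cfsg.Agent.H851.Sak
end

-- part: H851/SakumaCases
section
/-!
# Sakuma's theorem: the nine cases
-/

set_option autoImplicit false
open Cfsg Cfsg.Axial

namespace Cfsg.Agent.H851.Sak

open Cfsg.Agent.H851.Maj

/-- The common zeros of the two polynomials. -/
theorem nine_points {x y : ℝ}
    (h1 : 2097152 * x ^ 4 - 2326528 * x ^ 3 + 40960 * x ^ 2 * y + 184320 * x ^ 2 + 8896 * x * y -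
      4800 * x + 128 * y ^ 2 - 167 * y + 39 = 0)
    (h2 : -536870912 * x ^ 5 + 605028352 * x ^ 4 - 26214400 * x ^ 3 * y - 44138496 * x ^ 3 +
      1593344 * x ^ 2 * y + 860160 * x ^ 2 - 94208 * x * y ^ 2 - 165856 * x * y + 2016 * x -
      2784 * y ^ 2 + 2901 * y - 117 = 0) :
    (x = 1) ∨ (x = 0 ∧ y = 1) ∨ (x = 1 / 8 ∧ y = 1) ∨ (x = 13 / 256 ∧ y = 13 / 256) ∨
    (x = 1 / 64 ∧ y = 1 / 64) ∨ (x = 1 / 64 ∧ y = 1 / 8) ∨ (x = 1 / 32 ∧ y = 0) ∨
    (x = 3 / 128 ∧ y = 3 / 128) ∨ (x = 5 / 256 ∧ y = 13 / 256) := by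
  have hT : x * (64 * x - 1) * (64 * x - 1) * (256 * x - 5) * (128 * x - 3) * (32 * x - 1) *
      (256 * x - 13) * (8 * x - 1) * (x - 1) = 0 := by
    linear_combination (134217728 / 735 * x ^ 6 + 5333843968 / 735 * x ^ 5 +
      6029312 / 735 * x ^ 4 * y - 92964864 / 245 * x ^ 4 + 4675584 / 245 * x ^ 3 * y +
      22450928 / 735 * x ^ 3 + 263152 / 735 * x ^ 2 * y - 979625 / 1176 * x ^ 2 -
      14503 / 1960 * x * y + 161867 / 25088 * x - 1131 / 25088 * y + 1521 / 802816) * h1 +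
      (524288 / 735 * x ^ 5 + 1257472 / 105 * x ^ 4 + 8192 / 735 * x ^ 3 * y +
      382752 / 245 * x ^ 3 + 128 / 5 * x ^ 2 * y - 33293 / 588 * x ^ 2 - 397 / 1470 * x * y +
      7849 / 18816 * x - 13 / 6272 * y + 507 / 802816) * h2
  have h64 : x = 1 / 64 → (x = 1 / 64 ∧ y = 1 / 64) ∨ (x = 1 / 64 ∧ y = 1 / 8) := by
    intro h
    subst h
    have h3 : (y - 1 / 64) * (y - 1 / 8) = 0 := by
      linear_combination (1 / 128 : ℝ) * h1
    rcases mul_eq_zero.mp h3 with h | h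
    · left; exact ⟨rfl, by linarith⟩
    · right; exact ⟨rfl, by linarith⟩
  simp only [mul_eq_zero] at hT
  rcases hT with (((((((h | h) | h) | h) | h) | h) | h) | h) | h
  · -- x = 0
    subst h
    right; left
    refine ⟨rfl, ?_⟩
    linear_combination (-29 / 975 : ℝ) * h1 + (-29 / 975 * (4 / 87) : ℝ) * h2
  · have hx : x = 1 / 64 := by linarith
    rcases h64 hx with h | h
    · tauto
    · tauto
  · have hx : x = 1 / 64 := by linarith
    rcases h64 hx with h | h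
    · tauto
    · tauto
  · have hx : x = 5 / 256 := by linarith
    subst hx
    right; right; right; right; right; right; right; right
    refine ⟨rfl, ?_⟩
    linear_combination (2312 / 56475 : ℝ) * h1 + (2312 / 56475 * (8 / 289) : ℝ) * h2
  · have hx : x = 3 / 128 := by linarith
    subst hx
    right; right; right; right; right; right; right; left
    refine ⟨rfl, ?_⟩
    linear_combination (2 / 105 : ℝ) * h1 + (2 / 105 * (1 / 39) : ℝ) * h2
  · have hx : x = 1 / 32 := by linarith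
    subst hx
    right; right; right; right; right; right; left
    refine ⟨rfl, ?_⟩
    linear_combination (179 / 20925 : ℝ) * h1 + (179 / 20925 * (4 / 179) : ℝ) * h2
  · have hx : x = 13 / 256 := by linarith
    subst hx
    right; right; right; left
    refine ⟨rfl, ?_⟩
    linear_combination (3784 / 1167075 : ℝ) * h1 + (3784 / 1167075 * (8 / 473) : ℝ) * h2
  · have hx : x = 1 / 8 := by linarith
    subst hx
    right; right; left
    refine ⟨rfl, ?_⟩
    linear_combination (1 / 1197 : ℝ) * h1 + (1 / 1197 * (4 / 455) : ℝ) * h2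
  · left; linarith

variable {V : Type*} [AddCommGroup V] [Module ℝ V]
variable {mul : V →ₗ[ℝ] V →ₗ[ℝ] V} {B : LinearMap.BilinForm ℝ V} {a : ℤ → V}

/-- Reversing the sequence. -/
theorem Seq.neg (S : Seq mul B a) : Seq mul B (fun i => a (-i)) where
  amb := S.amb
  pair := by
    intro i
    obtain ⟨τ, h, hτ⟩ := S.pair (-i)
    refine ⟨τ, h, ?_⟩
    intro j
    rw [hτ]
    congr 1
    ring
  norm := fun i => S.norm (-i)

/-- **Sakuma's theorem for a dihedral sequence of axes**: one of the listed coincidences holds. -/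
theorem Seq.final (S : Seq mul B a) :
    a 1 = a 0 ∨ a 2 = a 0 ∨ a 3 = a 0 ∨ a 2 = a (-2) ∨ a 3 = a (-2) ∨ a 3 = a (-3) := by
  have D := S.data
  have hV := S.amb
  have p1 := D.poly1
  have p2 := D.poly2
  obtain ⟨l3, l4, l4', l5⟩ := D.lams rfl
  have n := S.norm
  rcases nine_points p1 p2 with h | ⟨hx, hy⟩ | ⟨hx, hy⟩ | ⟨hx, hy⟩ | ⟨hx, hy⟩ | ⟨hx, hy⟩ |
    ⟨hx, hy⟩ | ⟨hx, hy⟩ | ⟨hx, hy⟩
  · left
    exact (eq_of_form_one hV (n 0) (n 1) h).symm
  · right; left
    exact (eq_of_form_one hV (n 0) (n 2) hy).symm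
  · right; left
    exact (eq_of_form_one hV (n 0) (n 2) hy).symm
  · right; right; left
    refine (eq_of_form_one hV (n 0) (n 3) ?_).symm
    rw [l3, hx, hy]; norm_num
  · right; right; left
    refine (eq_of_form_one hV (n 0) (n 3) ?_).symm
    rw [l3, hx, hy]; norm_num
  · right; right; right; left
    refine (eq_of_form_one hV (n (-2)) (n 2) ?_).symm
    rw [l4, l3, hx, hy]; norm_num
  · right; right; right; left
    refine (eq_of_form_one hV (n (-2)) (n 2) ?_).symm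
    rw [l4, l3, hx, hy]; norm_num
  · right; right; right; right; left
    refine (eq_of_form_one hV (n (-2)) (n 3) ?_).symm
    rw [l5, l4, l3, hx, hy]; norm_num
  · right; right; right; right; right
    have r1 := D.rel
    have D' := S.neg.data
    have r2 := D'.rel
    have e1 : B (a (-0)) (a (-1)) = B (a 0) (a 1) := D.g0m1
    have e2 : B (a (-0)) (a (-2)) = B (a 0) (a 2) := D.g0m2
    have e3 : sd mul (fun i => a (-i)) 1 (-1) = sd mul a 1 (-1) := S.sd_symm (-1) 1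
    have e4 : sd mul (fun i => a (-i)) 0 2 = sd mul a 0 2 := (S.sd_refl 0 2).symm
    have e5 : a (-0) = a 0 := by norm_num
    have e6 : a (- -1) = a 1 := by norm_num
    have e7 : a (- -2) = a 2 := by norm_num
    rw [hx, hy] at r1
    rw [e1, e2, e3, e4, e5, e6, e7, hx, hy] at r2
    linear_combination (norm := module) r2 - r1

end Cfsg.Agent.H851.Sak
end

-- part: H851/Conj
section
/-!
# Conjugating Majorana pairs
-/

set_option autoImplicit false
open Cfsg Cfsg.Axial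

namespace Cfsg.Agent.H851.Maj

/-- Conjugating a Majorana pair by an automorphism. -/
theorem pair_conj {V : Type*} [AddCommGroup V] [Module ℝ V] {mul : V →ₗ[ℝ] V →ₗ[ℝ] V}
    {B : LinearMap.BilinForm ℝ V} {μ g : V ≃ₗ[ℝ] V} {a : V} (h : IsMajoranaPair mul B μ a)
    (hg : ∀ u v : V, g (mul u v) = mul (g u) (g v)) (hgB : ∀ u v : V, B (g u) (g v) = B u v) :
    IsMajoranaPair mul B (g * μ * g⁻¹) (g a) := by
  have hgi : ∀ v : V, g (g⁻¹ v) = v := fun v => LinearEquiv.apply_symm_apply g v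
  have hig : ∀ v : V, g⁻¹ (g v) = v := fun v => LinearEquiv.symm_apply_apply g v
  have hi : ∀ u v : V, g⁻¹ (mul u v) = mul (g⁻¹ u) (g⁻¹ v) := by
    intro u v
    apply g.injective
    rw [hgi, hg, hgi, hgi]
  have hiB : ∀ u v : V, B (g⁻¹ u) (g⁻¹ v) = B u v := by
    intro u v
    rw [← hgB, hgi, hgi]
  -- eigenspaces
  have heig : ∀ (c : ℝ) (v : V), v ∈ eigen mul (g a) c ↔ g⁻¹ v ∈ eigen mul a c := by
    intro c v
    rw [mem_eigen, mem_eigen]
    constructor
    · intro h1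
      have h2 := congrArg (fun t : V => g⁻¹ t) h1
      simp only [hi, hig, map_smul] at h2
      exact h2
    · intro h1
      have h2 := congrArg (fun t : V => g t) h1
      simp only [hg, hgi, map_smul] at h2
      exact h2
  have hsum : ∀ (S : Set ℝ) (v : V), v ∈ eigenSum mul (g a) S ↔ g⁻¹ v ∈ eigenSum mul a S := by
    intro S v
    have hmap : eigenSum mul (g a) S = (eigenSum mul a S).map (g : V →ₗ[ℝ] V) := by
      unfold eigenSum
      simp only [Submodule.map_iSup]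
      congr 1
      funext c
      congr 1
      funext _
      ext w
      rw [heig, Submodule.mem_map]
      constructor
      · intro h1
        exact ⟨g⁻¹ w, h1, hgi w⟩
      · rintro ⟨t, ht, rfl⟩
        change g⁻¹ (g t) ∈ _
        rw [hig]
        exact ht
    rw [hmap, Submodule.mem_map]
    constructor
    · rintro ⟨t, ht, rfl⟩
      change g⁻¹ (g t) ∈ _
      rw [hig]
      exact ht
    · intro h1
      exact ⟨g⁻¹ v, h1, hgi v⟩
  refine ⟨?_, ?_, ⟨⟨?_, ?_, ?_, ?_⟩, ?_⟩, ?_, ?_⟩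
  · intro u v
    change g (μ (g⁻¹ (mul u v))) = mul (g (μ (g⁻¹ u))) (g (μ (g⁻¹ v)))
    rw [hi, h.1, hg]
  · intro u v
    change B (g (μ (g⁻¹ u))) (g (μ (g⁻¹ v))) = B u v
    rw [hgB, h.2.1, hiB]
  · intro h0
    apply pair_ne h
    have := congrArg (fun t : V => g⁻¹ t) h0
    simpa [hig] using this
  · rw [← hg, pair_idem h]
  · rw [eq_top_iff]
    intro v _
    rw [hsum, h.2.2.1.1.2.2.1]
    trivial
  · intro c hc d hd u hu v hv
    rw [hsum, hi]
    exact h.2.2.1.1.2.2.2 c hc d hd _ ((heig c u).mp hu) _ ((heig d v).mp hv)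
  · ext v
    rw [heig, h.2.2.1.2, Submodule.mem_span_singleton, Submodule.mem_span_singleton]
    constructor
    · rintro ⟨l, hl⟩
      refine ⟨l, ?_⟩
      rw [← map_smul, hl, hgi]
    · rintro ⟨l, rfl⟩
      exact ⟨l, by rw [map_smul, hig]⟩
  · intro v hv
    change g (μ (g⁻¹ v)) = v
    have h1 := h.2.2.2.1 _ ((hsum _ v).mp hv)
    have h2 : μ (g⁻¹ v) = g⁻¹ v := h1
    rw [h2, hgi]
  · intro v hv
    change g (μ (g⁻¹ v)) = -v
    have h1 := h.2.2.2.2 _ ((heig _ v).mp hv)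
    have h2 : μ (g⁻¹ v) = -g⁻¹ v := h1
    rw [h2, map_neg, hgi]

end Cfsg.Agent.H851.Maj
end

-- part: S5544
section
set_option autoImplicit false
open Cfsg

namespace Cfsg.Agent.S5544

open Cfsg.Axial Cfsg.Agent.H851.Maj Cfsg.Agent.H851.Sak

/-- Let V be a finite-dimensional real vector space with a commutative bilinear product and a positive-definite symmetric bilinear form that associates with the product and satisfies the Norton inequality (the Majorana setting of the definitions). Let μ₀ and μ₁ be Majorana involutions with axial vectors a₀ and a₁ of squared length 1, each involution having no other axial vector. Then the product μ₀μ₁ has order at most 6: some power (μ₀μ₁)^n with 1 ≤ n ≤ 6 is the identity (so the two involutions generate a dihedral group of order at most 12). This is the 6-transposition property in Sakuma's Theorem. -/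
theorem result {V : Type*} [AddCommGroup V] [Module ℝ V] [FiniteDimensional ℝ V] (mul : V →ₗ[ℝ] V →ₗ[ℝ] V) (B : LinearMap.BilinForm ℝ V) (hV : Cfsg.Axial.IsMajoranaAmbient mul B) (μ₀ μ₁ : V ≃ₗ[ℝ] V) (a₀ a₁ : V) (h₀ : Cfsg.Axial.IsMajoranaPair mul B μ₀ a₀) (h₁ : Cfsg.Axial.IsMajoranaPair mul B μ₁ a₁) (hu₀ : ∀ a : V, Cfsg.Axial.IsMajoranaPair mul B μ₀ a → a = a₀) (hu₁ : ∀ a : V, Cfsg.Axial.IsMajoranaPair mul B μ₁ a → a = a₁) (hn₀ : B a₀ a₀ = 1) (hn₁ : B a₁ a₁ = 1) : ∃ n : ℕ, 1 ≤ n ∧ n ≤ 6 ∧ (μ₀ * μ₁) ^ n = 1 := by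
  -- the rotation
  have hm0 : μ₀ * μ₀ = 1 := by
    ext v
    exact pair_invol h₀ v
  have hm1 : μ₁ * μ₁ = 1 := by
    ext v
    exact pair_invol h₁ v
  have hi0 : μ₀⁻¹ = μ₀ := inv_eq_of_mul_eq_one_right hm0
  have hi1 : μ₁⁻¹ = μ₁ := inv_eq_of_mul_eq_one_right hm1
  obtain ⟨ρ, hρ⟩ : ∃ ρ : V ≃ₗ[ℝ] V, ρ = μ₁ * μ₀ := ⟨_, rfl⟩
  have hρi : ρ⁻¹ = μ₀ * μ₁ := by rw [hρ, mul_inv_rev, hi0, hi1]
  have hμ1 : μ₁ = ρ * μ₀ := by rw [hρ, mul_assoc, hm0, mul_one]
  have hconj : μ₀ * ρ * μ₀⁻¹ = ρ⁻¹ := by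
    rw [hi0, hρi, hρ, ← mul_assoc, mul_assoc, hm0, mul_one]
  have hconjz : ∀ k : ℤ, μ₀ * ρ ^ k = ρ ^ (-k) * μ₀ := by
    intro k
    have h := conj_zpow (a := μ₀) (b := ρ) (i := k)
    rw [hconj, inv_zpow', eq_mul_inv_iff_mul_eq] at h
    exact h.symm
  -- `ρ` preserves the product and the form
  have hg : ∀ k : ℤ, (∀ u v : V, (ρ ^ k) (mul u v) = mul ((ρ ^ k) u) ((ρ ^ k) v)) ∧
      ∀ u v : V, B ((ρ ^ k) u) ((ρ ^ k) v) = B u v := by
    let H : Subgroup (V ≃ₗ[ℝ] V) :=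
      { carrier := {g | (∀ u v : V, g (mul u v) = mul (g u) (g v)) ∧
          ∀ u v : V, B (g u) (g v) = B u v}
        mul_mem' := by
          rintro g g' ⟨h1, h2⟩ ⟨h3, h4⟩
          refine ⟨fun u v => ?_, fun u v => ?_⟩
          · change g (g' (mul u v)) = mul (g (g' u)) (g (g' v))
            rw [h3, h1]
          · change B (g (g' u)) (g (g' v)) = B u v
            rw [h2, h4]
        one_mem' := ⟨fun _ _ => rfl, fun _ _ => rfl⟩
        inv_mem' := by
          rintro g ⟨h1, h2⟩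
          have hgi : ∀ v : V, g (g⁻¹ v) = v := fun v => LinearEquiv.apply_symm_apply g v
          refine ⟨fun u v => ?_, fun u v => ?_⟩
          · apply g.injective
            rw [hgi, h1, hgi, hgi]
          · rw [← h2, hgi, hgi] }
    have h1 : ρ ∈ H := by
      rw [hρ]
      exact H.mul_mem ⟨h₁.1, h₁.2.1⟩ ⟨h₀.1, h₀.2.1⟩
    intro k
    exact H.zpow_mem h1 k
  -- the sequence of axes
  obtain ⟨a, ha⟩ : ∃ a : ℤ → V, a = fun i => if Even i then (ρ ^ (i / 2)) a₀ else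
    (ρ ^ (i / 2)) a₁ := ⟨_, rfl⟩
  have hae : ∀ k : ℤ, a (2 * k) = (ρ ^ k) a₀ := by
    intro k
    rw [ha]
    simp
  have hao : ∀ k : ℤ, a (2 * k + 1) = (ρ ^ k) a₁ := by
    intro k
    have h1 : ¬ Even (2 * k + 1) := by simp [Int.even_add_one]
    have h2 : (2 * k + 1) / 2 = k := by omega
    rw [ha]
    simp only [h1, if_false, h2]
  have hsplit : ∀ i : ℤ, ∃ k : ℤ, i = 2 * k ∨ i = 2 * k + 1 := fun i => ⟨i / 2, by omega⟩
  have hmulapp : ∀ (g g' : V ≃ₗ[ℝ] V) (v : V), (g * g') v = g (g' v) := fun _ _ _ => rfl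
  have hshift : ∀ i j : ℤ, (ρ ^ i) (a j) = a (j + 2 * i) := by
    intro i j
    obtain ⟨k, rfl | rfl⟩ := hsplit j
    · rw [hae, ← hmulapp, ← zpow_add, show 2 * k + 2 * i = 2 * (i + k) by ring, hae]
    · rw [hao, ← hmulapp, ← zpow_add, show 2 * k + 1 + 2 * i = 2 * (i + k) + 1 by ring, hao]
  have hrefl : ∀ j : ℤ, μ₀ (a j) = a (-j) := by
    intro j
    obtain ⟨k, rfl | rfl⟩ := hsplit j
    · rw [hae, ← hmulapp, hconjz, hmulapp, pair_self h₀, show -(2 * k) = 2 * (-k) by ring, hae]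
    · have h1 : μ₀ a₁ = (ρ ^ (-1 : ℤ)) a₁ := by
        have h2 : μ₀ = ρ⁻¹ * μ₁ := by rw [hμ1, inv_mul_cancel_left]
        rw [zpow_neg_one]
        nth_rewrite 1 [h2]
        rw [hmulapp, pair_self h₁]
      rw [hao, ← hmulapp, hconjz, hmulapp, h1, ← hmulapp, ← zpow_add,
        show -(2 * k + 1) = 2 * (-k + -1) + 1 by ring, hao]
  have hpair : ∀ i : ℤ, IsMajoranaPair mul B (ρ ^ i * μ₀) (a i) := by
    intro i
    obtain ⟨k, rfl | rfl⟩ := hsplit i
    · have h1 := pair_conj h₀ (hg k).1 (hg k).2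
      rw [mul_assoc, ← zpow_neg, hconjz, neg_neg, ← mul_assoc, ← zpow_add, ← two_mul, ← hae] at h1
      exact h1
    · have h1 := pair_conj h₁ (hg k).1 (hg k).2
      have h2 : ρ ^ k * μ₁ * (ρ ^ k)⁻¹ = ρ ^ (2 * k + 1) * μ₀ := by
        rw [hμ1, ← zpow_neg, mul_assoc, mul_assoc, hconjz, neg_neg, ← mul_assoc, ← mul_assoc,
          ← zpow_add_one, ← zpow_add]
        congr 2
        ring
      rw [h2, ← hao] at h1
      exact h1
  have hnorm : ∀ i : ℤ, B (a i) (a i) = 1 := by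
    intro i
    obtain ⟨k, rfl | rfl⟩ := hsplit i
    · rw [hae, (hg k).2, hn₀]
    · rw [hao, (hg k).2, hn₁]
  have S : Seq mul B a :=
    { amb := hV
      pair := by
        intro i
        refine ⟨ρ ^ i * μ₀, hpair i, ?_⟩
        intro j
        rw [hmulapp, hrefl, hshift]
        congr 1
        ring
      norm := hnorm }
  -- coincidences of axes give relations
  have hcoin : ∀ i j : ℤ, a i = a j → ρ ^ (i - j) = 1 := by
    intro i j h
    have h1 := hpair i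
    rw [h] at h1
    have h2 := pair_unique h1 (hpair j)
    have h3 := mul_right_cancel h2
    rw [zpow_sub, h3, mul_inv_cancel]
  have hfin : ∀ n : ℕ, ρ ^ (n : ℤ) = 1 → (μ₀ * μ₁) ^ n = 1 := by
    intro n h
    rw [← hρi, inv_pow, ← zpow_natCast, h, inv_one]
  rcases S.final with h | h | h | h | h | h
  · exact ⟨1, by norm_num, by norm_num, hfin 1 (hcoin 1 0 h)⟩
  · exact ⟨2, by norm_num, by norm_num, hfin 2 (hcoin 2 0 h)⟩
  · exact ⟨3, by norm_num, by norm_num, hfin 3 (hcoin 3 0 h)⟩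
  · exact ⟨4, by norm_num, by norm_num, hfin 4 (hcoin 2 (-2) h)⟩
  · exact ⟨5, by norm_num, by norm_num, hfin 5 (hcoin 3 (-2) h)⟩
  · exact ⟨6, by norm_num, by norm_num, hfin 6 (hcoin 3 (-3) h)⟩

end Cfsg.Agent.S5544
end
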