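import Cfsg.Statements.S5545
import Cfsg.Agent.H851.Majorana
set_option linter.all false

set_option autoImplicit false
open Cfsg

namespace Cfsg.Agent.S5545

open Cfsg.Axial Cfsg.Agent.H851.Maj

/-- Conjugating a Majorana pair by an automorphism. -/
theorem pair_conj {V : Type*} [AddCommGroup V] [Module ℝ V] {mul : V →ₗ[ℝ] V →ₗ[ℝ] V}
    {B : LinearMap.BilinForm ℝ V} {μ g : V ≃ₗ[ℝ] V} {a : V} (h : IsMajoranaPair mul B μ a)
    (hg : ∀ u v : V, g (mul u v) = mul (g u) (g v)) (hgB : ∀ u v : V, B (g u) (g v) = B u v) :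
    IsMajoranaPair mul B (g * μ * g⁻¹) (g a) := by
  have hgi : ∀ v : V, g (g⁻¹ v) = v := fun v => LinearEquiv.apply_symm_apply g v
  have hig : ∀ v : V, g⁻¹ (g v) = v := fun v => LinearEquiv.symm_apply_apply g v
  have hi : ∀ u v : V, g⁻¹ (mul u v) = mul (g⁻¹ u) (g⁻¹ v) := by
    intro u v
    apply g.injective
    rw [hgi, hg, hgi, hgi]
  have hiB : ∀ u v : V, B (g⁻¹ u) (g⁻¹ v) = B u v := by
    intro u v
    rw [← hgB, hgi, hgi]
  -- eigenspaces
  have heig : ∀ (c : ℝ) (v : V), v ∈ eigen mul (g a) c ↔ g⁻¹ v ∈ eigen mul a c := by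
    intro c v
    rw [mem_eigen, mem_eigen]
    constructor
    · intro h1
      have h2 := congrArg (fun t : V => g⁻¹ t) h1
      simp only [hi, hig, map_smul] at h2
      exact h2
    · intro h1
      have h2 := congrArg (fun t : V => g t) h1
      simp only [hg, hgi, map_smul] at h2
      exact h2
  have hsum : ∀ (S : Set ℝ) (v : V), v ∈ eigenSum mul (g a) S ↔ g⁻¹ v ∈ eigenSum mul a S := by
    intro S v
    have hmap : eigenSum mul (g a) S = (eigenSum mul a S).map (g : V →ₗ[ℝ] V) := by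
      unfold eigenSum
      simp only [Submodule.map_iSup]
      congr 1
      funext c
      congr 1
      funext _
      ext w
      rw [heig, Submodule.mem_map]
      constructor
      · intro h1
        exact ⟨g⁻¹ w, h1, hgi w⟩
      · rintro ⟨t, ht, rfl⟩
        change g⁻¹ (g t) ∈ _
        rw [hig]
        exact ht
    rw [hmap, Submodule.mem_map]
    constructor
    · rintro ⟨t, ht, rfl⟩
      change g⁻¹ (g t) ∈ _
      rw [hig]
      exact ht
    · intro h1
      exact ⟨g⁻¹ v, h1, hgi v⟩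
  refine ⟨?_, ?_, ⟨⟨?_, ?_, ?_, ?_⟩, ?_⟩, ?_, ?_⟩
  · intro u v
    change g (μ (g⁻¹ (mul u v))) = mul (g (μ (g⁻¹ u))) (g (μ (g⁻¹ v)))
    rw [hi, h.1, hg]
  · intro u v
    change B (g (μ (g⁻¹ u))) (g (μ (g⁻¹ v))) = B u v
    rw [hgB, h.2.1, hiB]
  · intro h0
    apply pair_ne h
    have := congrArg (fun t : V => g⁻¹ t) h0
    simpa [hig] using this
  · rw [← hg, pair_idem h]
  · rw [eq_top_iff]
    intro v _
    rw [hsum, h.2.2.1.1.2.2.1]
    trivial
  · intro c hc d hd u hu v hv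
    rw [hsum, hi]
    exact h.2.2.1.1.2.2.2 c hc d hd _ ((heig c u).mp hu) _ ((heig d v).mp hv)
  · ext v
    rw [heig, h.2.2.1.2, Submodule.mem_span_singleton, Submodule.mem_span_singleton]
    constructor
    · rintro ⟨l, hl⟩
      refine ⟨l, ?_⟩
      rw [← map_smul, hl, hgi]
    · rintro ⟨l, rfl⟩
      exact ⟨l, by rw [map_smul, hig]⟩
  · intro v hv
    change g (μ (g⁻¹ v)) = v
    have h1 := h.2.2.2.1 _ ((hsum _ v).mp hv)
    have h2 : μ (g⁻¹ v) = g⁻¹ v := h1
    rw [h2, hgi]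
  · intro v hv
    change g (μ (g⁻¹ v)) = -v
    have h1 := h.2.2.2.2 _ ((heig _ v).mp hv)
    have h2 : μ (g⁻¹ v) = -g⁻¹ v := h1
    rw [h2, map_neg, hgi]

/-- Let V be a finite-dimensional real vector space with a commutative bilinear product and a positive-definite symmetric bilinear form that associates with the product and satisfies the Norton inequality (the Majorana setting of the definitions). Let μ₀, μ₁ be commuting Majorana involutions with distinct axial vectors a₀ ≠ a₁ of squared length 1, each involution having no other axial vector. Then either a₀ and a₁ are orthogonal with a₀ ∘ a₁ = 0 (type 2B), or their inner product is 1/8 and, with a₂ = a₀ + a₁ − 8 a₀ ∘ a₁, the vector a₂ is an idempotent and a₀ ∘ a₂ = (1/8)(a₀ + a₂ − a₁), a₁ ∘ a₂ = (1/8)(a₁ + a₂ − a₀) (type 2A: the three idempotents span a subalgebra with aᵢ ∘ aⱼ = (1/8)(aᵢ + aⱼ − aₖ)). -/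
theorem result {V : Type*} [AddCommGroup V] [Module ℝ V] [FiniteDimensional ℝ V] (mul : V →ₗ[ℝ] V →ₗ[ℝ] V) (B : LinearMap.BilinForm ℝ V) (hV : Cfsg.Axial.IsMajoranaAmbient mul B) (μ₀ μ₁ : V ≃ₗ[ℝ] V) (a₀ a₁ : V) (h₀ : Cfsg.Axial.IsMajoranaPair mul B μ₀ a₀) (h₁ : Cfsg.Axial.IsMajoranaPair mul B μ₁ a₁) (hu₀ : ∀ a : V, Cfsg.Axial.IsMajoranaPair mul B μ₀ a → a = a₀) (hu₁ : ∀ a : V, Cfsg.Axial.IsMajoranaPair mul B μ₁ a → a = a₁) (hn₀ : B a₀ a₀ = 1) (hn₁ : B a₁ a₁ = 1) (hc : μ₀ * μ₁ = μ₁ * μ₀) (hne : a₀ ≠ a₁) : (B a₀ a₁ = 0 ∧ mul a₀ a₁ = 0) ∨ (B a₀ a₁ = 1 / 8 ∧ mul (a₀ + a₁ - (8 : ℝ) • mul a₀ a₁) (a₀ + a₁ - (8 : ℝ) • mul a₀ a₁) = a₀ + a₁ - (8 : ℝ) • mul a₀ a₁ ∧ mul a₀ (a₀ + a₁ - (8 : ℝ) • mul a₀ a₁) = (1 / 8 : ℝ) • (a₀ + (a₀ + a₁ - (8 : ℝ) • mul a₀ a₁) - a₁) ∧ mul a₁ (a₀ + a₁ - (8 : ℝ) • mul a₀ a₁) = (1 / 8 : ℝ) • (a₁ + (a₀ + a₁ - (8 : ℝ) • mul a₀ a₁) - a₀)) := by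
  -- each involution fixes the other axis
  have hfix0 : μ₀ a₁ = a₁ := by
    apply hu₁
    have h := pair_conj h₁ h₀.1 h₀.2.1
    have h2 : μ₀ * μ₁ * μ₀⁻¹ = μ₁ := by rw [hc, mul_inv_cancel_right]
    rwa [h2] at h
  have hfix1 : μ₁ a₀ = a₀ := by
    apply hu₀
    have h := pair_conj h₀ h₁.1 h₁.2.1
    have h2 : μ₁ * μ₀ * μ₁⁻¹ = μ₀ := by rw [← hc, mul_inv_cancel_right]
    rwa [h2] at h
  -- general lemma: components
  have comp : ∀ (μ : V ≃ₗ[ℝ] V) (a b : V), IsMajoranaPair mul B μ a → B a a = 1 → μ b = b →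
      ∃ α β : V, b = B a b • a + α + β ∧ mul a α = 0 ∧ mul a β = (1 / 4 : ℝ) • β := by
    intro μ a b h hn hb
    obtain ⟨l, α, β, γ, hv, hα, hβ, hγ⟩ := pair_decomp h b
    have hl : B a b = l := by
      rw [hv]
      exact decomp_coeff hV (pair_idem h) hn hα hβ hγ
    have hμ : μ b = l • a + α + β - γ := by
      rw [hv]
      simp only [map_add, map_smul]
      rw [pair_self h, pair_zero h hα, pair_quarter h hβ, pair_neg h hγ]
      abel
    rw [hb, hv] at hμ
    have h2γ : (2 : ℝ) • γ = 0 := by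
      have h3 : l • a + α + β + γ - (l • a + α + β - γ) = 0 := sub_eq_zero.mpr hμ
      rw [← h3]
      module
    have hγ0 : γ = 0 := by
      rcases smul_eq_zero.mp h2γ with h4 | h4
      · norm_num at h4
      · exact h4
    refine ⟨α, β, ?_, hα, hβ⟩
    rw [hl, hv, hγ0, add_zero]
  obtain ⟨α, β, hb, hα, hβ⟩ := comp μ₀ a₀ a₁ h₀ hn₀ hfix0
  obtain ⟨α', β', hb', hα', hβ'⟩ := comp μ₁ a₁ a₀ h₁ hn₁ hfix1
  set x : ℝ := B a₀ a₁ with hx
  have hx' : B a₁ a₀ = x := hV.2.1 a₁ a₀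
  rw [hx'] at hb'
  have i0 : mul a₀ a₀ = a₀ := pair_idem h₀
  have i1 : mul a₁ a₁ = a₁ := pair_idem h₁
  set m : V := mul a₀ a₁ with hm
  have hm' : mul a₁ a₀ = m := hV.1 a₁ a₀
  have m0 : m = x • a₀ + (1 / 4 : ℝ) • β := by
    rw [hm, hb, map_add, map_add, map_smul, i0, hα, hβ, add_zero]
  have m1 : m = x • a₁ + (1 / 4 : ℝ) • β' := by
    rw [← hm', hb', map_add, map_add, map_smul, i1, hα', hβ', add_zero]
  have hβe : β = (4 : ℝ) • m - (4 * x) • a₀ := by
    rw [m0]
    module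
  have hβe' : β' = (4 : ℝ) • m - (4 * x) • a₁ := by
    rw [m1]
    module
  -- products of the axes with `m`
  have q0 : mul a₀ m = (3 / 4 * x) • a₀ + (1 / 4 : ℝ) • m := by
    have h2 := hβ
    rw [hβe] at h2
    simp only [map_sub, map_smul, i0] at h2
    linear_combination (norm := module) (1 / 4 : ℝ) • h2
  have q1 : mul a₁ m = (3 / 4 * x) • a₁ + (1 / 4 : ℝ) • m := by
    have h2 := hβ'
    rw [hβe'] at h2
    simp only [map_sub, map_smul, i1] at h2
    linear_combination (norm := module) (1 / 4 : ℝ) • h2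
  -- the idempotent equation for `a₁`
  have hαe : α = a₁ - x • a₀ - β := by
    rw [hb]
    module
  have hββ : mul a₀ (mul β β) = (1 / 4 * B β β) • a₀ := fus44 hV h₀ hn₀ hβ hβ
  have hαβ : mul a₀ (mul α β) = (1 / 4 : ℝ) • mul α β := fus04 h₀ hα hβ
  have hαα : mul a₀ (mul α α) = 0 := fus00 h₀ hα hα
  have e1 : mul a₁ a₁ = (x * x) • a₀ + mul α α + (2 : ℝ) • mul α β + mul β β +
      (x / 2) • β := by
    have hβ0 : mul β a₀ = (1 / 4 : ℝ) • β := by rw [hV.1 β a₀, hβ]
    have hα0 : mul α a₀ = 0 := by rw [hV.1 α a₀, hα]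
    have hβα : mul β α = mul α β := hV.1 β α
    have hb2 : mul a₁ a₁ = mul (x • a₀ + α + β) (x • a₀ + α + β) := by rw [← hb]
    rw [hb2]
    simp only [map_add, map_smul, LinearMap.add_apply, LinearMap.smul_apply]
    rw [i0, hα, hβ, hα0, hβ0, hβα]
    module
  -- apply `mul a₀` once and twice
  have e2 : m = (x * x) • a₀ + (1 / 2 : ℝ) • mul α β + (1 / 4 * B β β) • a₀ + (x / 8) • β := by
    have h2 := congrArg (fun t : V => mul a₀ t) e1
    simp only [map_add, map_smul, i1, i0, hαα, hαβ, hββ, hβ] at h2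
    rw [hm, h2]
    module
  have e3 : (3 / 4 * x) • a₀ + (1 / 4 : ℝ) • m = (x * x) • a₀ + (1 / 8 : ℝ) • mul α β +
      (1 / 4 * B β β) • a₀ + (x / 32) • β := by
    have h2 := congrArg (fun t : V => mul a₀ t) e2
    simp only [map_add, map_smul, i0, hαβ, hβ] at h2
    rw [← q0, h2]
    module
  -- the coefficient of `a₀`
  have hval : B a₀ m = x := by
    rw [hm, hV.2.2.2.1, i0]
  have c0 : B a₀ β = 0 := by
    rw [hβe, map_sub, map_smul, map_smul, hval, hn₀]
    simp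
  have hαβval : mul α β = (1 / 2 - x / 4) • β := by
    -- from `e2 - e3`
    have h3 : (1 - 1 / 4 : ℝ) • m - (3 / 4 * x) • a₀ = (3 / 8 : ℝ) • mul α β +
        (3 * x / 32) • β := by
      linear_combination (norm := module) e2 - e3
    have h4 : (3 / 8 : ℝ) • mul α β = (3 / 16 - 3 * x / 32) • β := by
      rw [m0] at h3
      linear_combination (norm := module) -h3
    have h5 := congrArg (fun t : V => (8 / 3 : ℝ) • t) h4
    simp only [smul_smul] at h5
    norm_num at h5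
    rw [h5]
    module
  have hBβ : B β β = 4 * x - 4 * x * x := by
    have h3 := congrArg (fun t : V => B a₀ t) e2
    simp only [map_add, map_smul, hval, hαβval, c0, hn₀, smul_eq_mul] at h3
    linarith
  -- `a₁ * β` in two ways
  have hβ0 : mul a₁ β = (1 / 2 : ℝ) • β + mul β β := by
    have hb2 : mul a₁ β = mul (x • a₀ + α + β) β := by rw [← hb]
    rw [hb2]
    simp only [map_add, map_smul, LinearMap.add_apply, LinearMap.smul_apply]
    rw [hβ, hαβval]
    module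
  have hβ1 : mul a₁ β = (3 * x) • a₁ + (1 - 4 * x) • m := by
    rw [hβe]
    simp only [map_sub, map_smul]
    rw [hm', q1]
    module
  have hββe : mul β β = (3 * x) • a₁ + (-1 - 4 * x) • m + (2 * x) • a₀ := by
    have h3 : mul β β = mul a₁ β - (1 / 2 : ℝ) • β := by rw [hβ0]; module
    rw [h3, hβ1, hβe]
    module
  -- the `1/4`-part of `mul β β` vanishes
  have hkey : (8 * x - 1) • β = 0 := by
    have h3 := hββ
    rw [hββe] at h3
    simp only [map_add, map_smul, i0] at h3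
    rw [← hm, q0, hBβ, m0] at h3
    -- coefficient comparison
    have h4 : ((8 * x - 1) / 16 : ℝ) • β = 0 := by
      linear_combination (norm := module) h3
    have h5 := congrArg (fun t : V => (16 : ℝ) • t) h4
    simp only [smul_smul, smul_zero] at h5
    rw [← h5]
    congr 1
    ring
  rcases smul_eq_zero.mp hkey with h8 | h8
  · -- type 2A
    right
    have hx8 : x = 1 / 8 := by linarith
    have hmm : mul m m = (3 / 128 : ℝ) • a₀ + (3 / 128 : ℝ) • a₁ - (1 / 32 : ℝ) • m := by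
      have hβ0' : mul β a₀ = (1 / 4 : ℝ) • β := by rw [hV.1 β a₀, hβ]
      have hm2 : mul m m = mul (x • a₀ + (1 / 4 : ℝ) • β) (x • a₀ + (1 / 4 : ℝ) • β) := by
        rw [← m0]
      rw [hm2]
      simp only [map_add, map_smul, LinearMap.add_apply, LinearMap.smul_apply]
      rw [i0, hβ, hβ0', hββe, hβe, hx8]
      module
    refine ⟨hx8, ?_, ?_, ?_⟩
    · have hma0 : mul m a₀ = (3 / 4 * x) • a₀ + (1 / 4 : ℝ) • m := by rw [hV.1 m a₀, q0]
      have hma1 : mul m a₁ = (3 / 4 * x) • a₁ + (1 / 4 : ℝ) • m := by rw [hV.1 m a₁, q1]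
      simp only [map_add, map_sub, map_smul, LinearMap.add_apply, LinearMap.sub_apply,
        LinearMap.smul_apply]
      rw [i0, i1, ← hm, hm', q0, q1, hma0, hma1, hmm, hx8]
      module
    · simp only [map_add, map_sub, map_smul]
      rw [i0, ← hm, q0, hx8]
      module
    · simp only [map_add, map_sub, map_smul]
      rw [i1, hm', q1, hx8]
      module
  · -- type 2B
    left
    rw [h8] at hBβ m0
    simp only [map_zero] at hBβ
    have h9 : x * (1 - x) = 0 := by linarith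
    rcases mul_eq_zero.mp h9 with h | h
    · refine ⟨h, ?_⟩
      rw [m0, h]
      simp
    · exfalso
      apply hne
      apply eq_of_form_one hV hn₀ hn₁
      linarith

end Cfsg.Agent.S5545
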