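import Cfsg.Statements.S5553
import Cfsg.Agent.Leech.Index
import Cfsg.Agent.Leech.Basic
import Cfsg.Agent.SporadicA.Co0Basic
import Cfsg.Agent.S0372
set_option linter.all false

set_option autoImplicit false
open Cfsg

namespace Cfsg.Agent.S5553

open Cfsg.Agent.SporadicA.Co0Basic

/-- The isometry `J` with `J² = -1`: the permutation `x ↦ -1/x` followed by the sign change on the dodecad of
squares. -/
def J : (GolayPt → ℤ) →+ (GolayPt → ℤ) := (signHom (qrWord 0)).comp (permHom projInv)

theorem J_apply (x : GolayPt → ℤ) (i : GolayPt) :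
    J x i = if qrWord 0 i = 0 then x (projInv i) else -x (projInv i) := rfl

theorem projInv_projInv (i : GolayPt) : projInv (projInv i) = i := by
  revert i; decide

theorem qr_swap (i : GolayPt) : (qrWord 0 (projInv i) = 0) ↔ ¬ (qrWord 0 i = 0) := by
  revert i; decide

theorem J_J (x : GolayPt → ℤ) : J (J x) = -x := by
  funext i
  rw [J_apply, J_apply, projInv_projInv, Pi.neg_apply]
  by_cases h : qrWord 0 i = 0
  · rw [if_pos h, if_neg (fun h' => (qr_swap i).1 h' h)]
  · rw [if_neg h, if_pos ((qr_swap i).2 h)]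

theorem J_mem {x : GolayPt → ℤ} (hx : x ∈ leechLattice) : J x ∈ leechLattice :=
  signFun_mem_leechLattice (qrWord_mem 0) (comp_mem_leechLattice Cfsg.Agent.S0372.result hx)

theorem sqNorm_J (x : GolayPt → ℤ) : sqNorm (J x) = sqNorm x :=
  (sqNorm_signFun (qrWord 0) _).trans (sqNorm_comp projInv x)

theorem dot_J (x : GolayPt → ℤ) : dotInt x (J x) = 0 := by
  have h1 : sqNorm (x + J x) = sqNorm (J (x + J x)) := (sqNorm_J _).symm
  rw [_root_.map_add, J_J, ← sub_eq_add_neg, Cfsg.Agent.Leech.Basic.sqNorm_add,
    Cfsg.Agent.Leech.Basic.sqNorm_sub, Cfsg.Agent.Leech.Basic.dotInt_comm (J x) x] at h1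
  linarith

/-- `1 + J`. -/
def K : (GolayPt → ℤ) →+ (GolayPt → ℤ) := AddMonoidHom.id _ + J

theorem K_apply (x : GolayPt → ℤ) : K x = x + J x := rfl

theorem K_K (x : GolayPt → ℤ) : K (K x) = J x + J x := by
  rw [K_apply, K_apply, _root_.map_add, J_J]
  abel

theorem two_eq (x : GolayPt → ℤ) : K (x - J x) = x + x := by
  rw [K_apply, _root_.map_sub, J_J]
  abel

theorem K_injective : Function.Injective K := by
  rw [injective_iff_map_eq_zero]
  intro x hx
  have h : K (K x) = 0 := by rw [hx, map_zero]
  rw [K_K] at h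
  have h2 : J (J x + J x) = 0 := by rw [h, map_zero]
  rw [_root_.map_add, J_J] at h2
  funext i
  have := congrFun h2 i
  simp only [Pi.add_apply, Pi.neg_apply, Pi.zero_apply] at this ⊢
  omega

theorem sqNorm_K (x : GolayPt → ℤ) : sqNorm (K x) = 2 * sqNorm x := by
  rw [K_apply, Cfsg.Agent.Leech.Basic.sqNorm_add, dot_J, sqNorm_J]
  ring

theorem map_J : AddSubgroup.map J leechLattice = leechLattice := by
  apply le_antisymm
  · rintro _ ⟨x, hx, rfl⟩
    exact J_mem hx
  · intro x hx
    refine ⟨-J x, leechLattice.neg_mem (J_mem hx), ?_⟩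
    rw [_root_.map_neg, J_J, neg_neg]

open Cfsg.Agent.Leech.Index in
theorem relIndex_dbl : (AddSubgroup.map dbl leechLattice).relIndex leechLattice = 2 ^ 24 := by
  have hle : AddSubgroup.map dbl leechLattice ≤ leechLattice := by
    rintro _ ⟨x, hx, rfl⟩
    have : dbl x = x + x := by
      funext i
      change 2 * x i = x i + x i
      ring
    rw [this]
    exact leechLattice.add_mem hx hx
  have h1 := AddSubgroup.relIndex_mul_index hle
  have h2 := AddSubgroup.relIndex_mul_index
    (AddSubgroup.map_mono (f := dbl) (le_top : leechLattice ≤ ⊤))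
  rw [AddSubgroup.relIndex_map_map_of_injective _ _ dbl_injective,
    AddSubgroup.relIndex_top_right, ← K1_eq_map, K1_index] at h2
  rw [leech_index] at h1 h2
  rw [← h2] at h1
  exact Nat.eq_of_mul_eq_mul_right (by norm_num : 0 < 2 ^ 36) (h1.trans (mul_comm _ _))

open Cfsg.Agent.Leech.Index in
theorem map_K_K : AddSubgroup.map K (AddSubgroup.map K leechLattice) = AddSubgroup.map dbl leechLattice := by
  conv_rhs => rw [← map_J]
  rw [AddSubgroup.map_map, AddSubgroup.map_map]
  congr 1
  refine AddMonoidHom.ext fun x => ?_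
  funext i
  change K (K x) i = 2 * (J x i)
  rw [K_K]
  change J x i + J x i = _
  ring

theorem K_le : AddSubgroup.map K leechLattice ≤ leechLattice := by
  rintro _ ⟨x, hx, rfl⟩
  exact leechLattice.add_mem hx (J_mem hx)

theorem relIndex_K : (AddSubgroup.map K leechLattice).relIndex leechLattice = 2 ^ 12 := by
  have h := AddSubgroup.relIndex_mul_relIndex
    (AddSubgroup.map K (AddSubgroup.map K leechLattice)) (AddSubgroup.map K leechLattice)
    leechLattice (AddSubgroup.map_mono K_le) K_le
  rw [AddSubgroup.relIndex_map_map_of_injective _ _ K_injective, map_K_K, relIndex_dbl] at h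
  have h' : (AddSubgroup.map K leechLattice).relIndex leechLattice ^ 2 = (2 ^ 12) ^ 2 := by
    rw [sq, h]; norm_num
  exact Nat.pow_left_injective (n := 2) (by norm_num) h'

/-- The Leech lattice of the definitions has an additive subgroup A containing twice the lattice, of index 2^12 in the lattice, all of whose vectors have squared length divisible by 32: the invariant quadratic form 'squared length over 16 modulo 2' on the lattice modulo twice the lattice (a 24-dimensional space over the field with two elements) vanishes on a 12-dimensional subspace, so it is of plus type. -/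
theorem result : ∃ A : AddSubgroup (Cfsg.GolayPt → ℤ), A ≤ Cfsg.leechLattice ∧ (∀ v ∈ Cfsg.leechLattice, (2 : ℤ) • v ∈ A) ∧ (A.addSubgroupOf Cfsg.leechLattice).index = 2 ^ 12 ∧ ∀ v ∈ A, (32 : ℤ) ∣ Cfsg.sqNorm v := by
  refine ⟨AddSubgroup.map K leechLattice, K_le, fun v hv => ?_, relIndex_K, ?_⟩
  · rw [two_smul]
    exact ⟨v - J v, leechLattice.sub_mem hv (J_mem hv), two_eq v⟩
  · rintro _ ⟨x, hx, rfl⟩
    rw [sqNorm_K]
    obtain ⟨k, hk⟩ := Cfsg.Agent.Leech.Basic.sixteen_dvd_sqNorm hx
    exact ⟨k, by rw [hk]; ring⟩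

end Cfsg.Agent.S5553
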