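import Cfsg.Statements.S5594
import Cfsg.Agent.Leech.FrameAux
import Cfsg.Agent.SporadicA.M24Gens
set_option linter.all false

set_option autoImplicit false
open Cfsg

namespace Cfsg.Agent.S5594

open Cfsg.Agent.Leech.FrameAux

theorem q_projInv : ∀ i : GolayPt, (qrWord 0 i = 0 ↔ qrWord 0 (projInv.symm i) ≠ 0) := by decide +kernel

theorem projInv_symm_symm : ∀ i : GolayPt, projInv.symm (projInv.symm i) = i := by decide +kernel

theorem qr_mem : qrWord 0 ∈ golayCode :=
  Submodule.subset_span (Set.mem_union_left _ ⟨0, rfl⟩)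

/-- The automorphism group of the Leech lattice contains the negation map, and the subgroup of order 2 it generates has no complement: the automorphism group is a non-split extension of its quotient by that subgroup (it is not the direct product of a group of order 2 with the first Conway group). -/
theorem result :
    ∃ n : ↥Cfsg.Co0, (∀ v : ↥Cfsg.leechLattice, ((n • v : ↥Cfsg.leechLattice) : Cfsg.GolayPt → ℤ) = -(v : Cfsg.GolayPt → ℤ)) ∧
    ∀ K : Subgroup ↥Cfsg.Co0, ¬ (Subgroup.zpowers n).IsComplement' K := by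
  obtain ⟨s, hs⟩ := exists_co0_of_sign (qrWord 0) qr_mem
  obtain ⟨t, ht⟩ := exists_co0_of_perm projInv Cfsg.Agent.SporadicA.M24Gens.projInv_mem
  have hn : ∀ v : leechLattice, (((s * t) * (s * t)) • v : leechLattice) = -v := by
    intro v
    apply Subtype.ext
    funext i
    rw [mul_smul, mul_smul, mul_smul, hs, ht, hs, ht, projInv_symm_symm]
    have h := q_projInv i
    by_cases h0 : qrWord 0 i = 0
    · rw [if_pos h0, if_neg (h.1 h0)]; rfl
    · rw [if_neg h0, if_pos (by by_contra h1; exact h0 (h.2 h1))]; rfl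
  refine ⟨(s * t) * (s * t), fun v => by rw [hn v]; rfl, fun K hK => ?_⟩
  obtain ⟨n, hndef⟩ : ∃ n, n = (s * t) * (s * t) := ⟨_, rfl⟩
  rw [← hndef] at hn hK
  have hn2 : n * n = 1 := by
    apply co0_ext
    intro v
    rw [mul_smul, hn, hn, neg_neg, one_smul]
  have hcomm : ∀ g : Co0, n * g = g * n := by
    intro g
    apply co0_ext
    intro v
    rw [mul_smul n g, mul_smul g n, hn, hn, co0_neg]
  have hn1 : n ≠ 1 := by
    intro h
    have h1 := congrArg (fun u : leechLattice => (u : GolayPt → ℤ) none) (hn (e8 none))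
    rw [h, one_smul] at h1
    simp only [AddSubgroup.coe_neg, Pi.neg_apply, coe_e8, Pi.single_eq_same] at h1
    exact absurd h1 (by norm_num)
  -- write `s * t = a * k`
  obtain ⟨⟨a, ha⟩, ⟨k, hk⟩, hak⟩ : ∃ (a : Subgroup.zpowers n) (k : K), (a : Co0) * k = s * t := by
    obtain ⟨x, hx⟩ := (hK : Function.Bijective _).2 (s * t)
    exact ⟨x.1, x.2, hx⟩
  have ha2 : a * a = 1 := by
    obtain ⟨m, rfl⟩ := Subgroup.mem_zpowers_iff.1 ha
    rw [← (Commute.refl n).mul_zpow, hn2, one_zpow]
  have hac : ∀ g : Co0, a * g = g * a := by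
    intro g
    obtain ⟨m, rfl⟩ := Subgroup.mem_zpowers_iff.1 ha
    exact (Commute.zpow_left (show Commute n g from hcomm g) m)
  have hnk : n = k * k := by
    rw [hndef, ← hak]
    show a * k * (a * k) = k * k
    rw [hac k, mul_assoc k a, ← mul_assoc a k a, hac k, mul_assoc k a a, ha2, mul_one]
  have hnK : n ∈ K := by rw [hnk]; exact K.mul_mem hk hk
  have := hK.disjoint
  rw [Subgroup.disjoint_def] at this
  exact hn1 (this (Subgroup.mem_zpowers n) hnK)

end Cfsg.Agent.S5594
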