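-- Statement S5606 (row 5606): the theorem
-- Cfsg.sg80_mathieu_twentyfour_fixed_point_free_involution_invariant_octads_trios_sextets.
import Cfsg.Statements.S5606
import Cfsg.Agent.H866.InvolType
set_option linter.all false

set_option autoImplicit false
open scoped Pointwise
open Cfsg

namespace Cfsg.Agent.S5606

open Cfsg.Agent.H866.InvCount Cfsg.Agent.H866.InvolType Cfsg.Agent.J4.M24InvolData

theorem oct_P2 : octInv P2 = 15 := by decide +kernel
theorem trio_P2 : trioInv P2 = 75 := by decide +kernel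
theorem sex_P2 : sexInv P2 = 51 := by decide +kernel

/-- A fixed-point-free involution of the group of the length-24 code maps to themselves exactly 15 octads, exactly 75 trios and exactly 51 sextets. -/
theorem result (g : Equiv.Perm Cfsg.GolayPt) (hg : g ∈ Cfsg.M24) (h₂ : orderOf g = 2) (h₀ : ∀ p, g p ≠ p) : {o : Finset Cfsg.GolayPt | o ∈ Cfsg.octads ∧ g • o = o}.ncard = 15 ∧ {T : Finset (Finset Cfsg.GolayPt) | T ∈ Cfsg.trios ∧ g • T = T}.ncard = 75 ∧ {S : Finset (Finset Cfsg.GolayPt) | S ∈ Cfsg.sextets ∧ g • S = S}.ncard = 51 := by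
  obtain ⟨h, hh, ⟨-, e0⟩ | ⟨e, -⟩⟩ := invol_type hg h₂
  · exfalso
    have h1 : fx g = 0 := by
      unfold fx
      rw [Finset.card_eq_zero, Finset.filter_eq_empty_iff]
      intro p _
      exact h₀ p
    omega
  · obtain ⟨c1, c2, c3⟩ := counts_of_conj isPerm_P2 t2_mem hh e
    rw [c1, c2, c3]
    exact ⟨oct_P2, trio_P2, sex_P2⟩

end Cfsg.Agent.S5606
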