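import Cfsg.Agent.H868.SextetTools
import Cfsg.Agent.S1557
import Cfsg.Agent.S0354
import Cfsg.Agent.S0381
import Cfsg.Statements.S5615
set_option linter.all false

-- part: H868/TrioTools
section
/-!
# Trios containing an octad
-/

set_option autoImplicit false

namespace Cfsg.Agent.H868.TrioTools

open Cfsg
open scoped Pointwise
open Cfsg.Agent.SporadicA.GolayPerm (smul_mem_octads)
open Cfsg.Agent.SporadicStructure.Sextet (sextetOf mem_sextetOf self_mem_sextetOf)
open Cfsg.Agent.SporadicStructure.SextetAction (eq_sextetOf sextetOf_mem smul_mem_sextets)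
open Cfsg.Agent.SporadicStructure
open Cfsg.Agent.H868.SextetTools

theorem card_golay : Fintype.card GolayPt = 24 := Sextet.card_golayPt

theorem octad_inter {o o' : Finset GolayPt} (ho : o ∈ octads) (ho' : o' ∈ octads) (h : o ≠ o') :
    (o ∩ o').card = 0 ∨ (o ∩ o').card = 2 ∨ (o ∩ o').card = 4 :=
  S0352.result card_golay S0363.result ho ho' h

theorem card_octad {o : Finset GolayPt} (ho : o ∈ octads) : o.card = 8 := ho.2

theorem card_compl_union {o m : Finset GolayPt} (ho : o ∈ octads) (hm : m ∈ octads)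
    (hd : Disjoint o m) : (o ∪ m)ᶜ.card = 8 := by
  rw [Finset.card_compl, card_golay, Finset.card_union_of_disjoint hd, card_octad ho,
    card_octad hm]

theorem third {o m : Finset GolayPt} (ho : o ∈ octads) (hm : m ∈ octads) (hd : Disjoint o m) :
    (o ∪ m)ᶜ ∈ octads := S1557.result.1 o m ho hm hd

theorem eq_third {o m n : Finset GolayPt} (ho : o ∈ octads) (hm : m ∈ octads) (hn : n ∈ octads)
    (hd : Disjoint o m) (h1 : Disjoint o n) (h2 : Disjoint m n) : n = (o ∪ m)ᶜ := by
  apply Finset.eq_of_subset_of_card_le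
  · intro x hx
    rw [Finset.mem_compl, Finset.mem_union]
    rintro (h | h)
    · exact Finset.disjoint_left.1 h1 h hx
    · exact Finset.disjoint_left.1 h2 h hx
  · rw [card_compl_union ho hm hd, card_octad hn]

theorem trio_eq {T : Finset (Finset GolayPt)} (hT : T ∈ trios) {o m : Finset GolayPt} (ho : o ∈ T)
    (hm : m ∈ T) (hne : o ≠ m) : T = {o, m, (o ∪ m)ᶜ} := by
  obtain ⟨h3, hoct, hdis⟩ := hT
  have hc : ((T.erase o).erase m).card = 1 := by
    rw [Finset.card_erase_of_mem (Finset.mem_erase.2 ⟨hne.symm, hm⟩),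
      Finset.card_erase_of_mem ho, h3]
  obtain ⟨n, hn⟩ := Finset.card_eq_one.1 hc
  have hnT : n ∈ (T.erase o).erase m := by rw [hn]; simp
  simp only [Finset.mem_erase] at hnT
  have h4 := eq_third (hoct o ho) (hoct m hm) (hoct n hnT.2.2) (hdis o ho m hm hne)
    (hdis o ho n hnT.2.2 hnT.2.1.symm) (hdis m hm n hnT.2.2 hnT.1.symm)
  rw [← h4, ← hn, Finset.insert_erase (Finset.mem_erase.2 ⟨hne.symm, hm⟩), Finset.insert_erase ho]

theorem octad_nonempty {o : Finset GolayPt} (ho : o ∈ octads) : o.Nonempty := by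
  rw [← Finset.card_pos, card_octad ho]; norm_num

theorem ne_of_disjoint {o m : Finset GolayPt} (ho : o ∈ octads) (hd : Disjoint o m) : o ≠ m := by
  rintro rfl
  rw [disjoint_self, Finset.bot_eq_empty] at hd
  exact (octad_nonempty ho).ne_empty hd

theorem mk_trio {o m n : Finset GolayPt} (ho : o ∈ octads) (hm : m ∈ octads) (hn : n ∈ octads)
    (h1 : Disjoint o m) (h2 : Disjoint o n) (h3 : Disjoint m n) :
    ({o, m, n} : Finset (Finset GolayPt)) ∈ trios := by
  refine ⟨Finset.card_eq_three.2 ⟨o, m, n, ne_of_disjoint ho h1, ne_of_disjoint ho h2,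
    ne_of_disjoint hm h3, rfl⟩, ?_, ?_⟩
  · intro x hx
    simp only [Finset.mem_insert, Finset.mem_singleton] at hx
    rcases hx with rfl | rfl | rfl <;> assumption
  · intro x hx y hy hxy
    simp only [Finset.mem_insert, Finset.mem_singleton] at hx hy
    rcases hx with rfl | rfl | rfl <;> rcases hy with rfl | rfl | rfl <;>
      first
        | exact absurd rfl hxy
        | assumption
        | exact h1.symm
        | exact h2.symm
        | exact h3.symm

theorem mk_trio' {o m : Finset GolayPt} (ho : o ∈ octads) (hm : m ∈ octads) (h : Disjoint o m) :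
    ({o, m, (o ∪ m)ᶜ} : Finset (Finset GolayPt)) ∈ trios := by
  refine mk_trio ho hm (third ho hm h) h ?_ ?_
  · rw [Finset.disjoint_left]
    intro x hx
    rw [Finset.mem_compl, Finset.mem_union]
    tauto
  · rw [Finset.disjoint_left]
    intro x hx
    rw [Finset.mem_compl, Finset.mem_union]
    tauto

theorem smul_mem_trios {g : Equiv.Perm GolayPt} (hg : g ∈ M24) {T : Finset (Finset GolayPt)}
    (hT : T ∈ trios) : g • T ∈ trios := by
  refine ⟨by rw [Finset.card_smul_finset]; exact hT.1, ?_, ?_⟩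
  · intro x hx
    obtain ⟨y, hy, rfl⟩ := Finset.mem_smul_finset.1 hx
    exact (smul_mem_octads hg).2 (hT.2.1 y hy)
  · intro x hx y hy hxy
    obtain ⟨x', hx', rfl⟩ := Finset.mem_smul_finset.1 hx
    obtain ⟨y', hy', rfl⟩ := Finset.mem_smul_finset.1 hy
    have h := hT.2.2 x' hx' y' hy' (fun h => hxy (by rw [h]))
    rw [Finset.disjoint_iff_inter_eq_empty] at h ⊢
    rw [← Finset.smul_finset_inter, h, Finset.smul_finset_empty]

/-- The trios containing `o`. -/
def triosOn (o : Finset GolayPt) : Set (Finset (Finset GolayPt)) := {T | T ∈ trios ∧ o ∈ T}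

theorem ncard_triosOn {o : Finset GolayPt} (ho : o ∈ octads) : (triosOn o).ncard = 15 := by
  classical
  have h30 := S0354.result card_golay S0363.result ho
  have hfin : (triosOn o).Finite := Set.toFinite _
  rw [Set.ncard_eq_toFinset_card _ hfin]
  have hfin2 : {c : Finset GolayPt | c ∈ octads ∧ Disjoint o c}.Finite := Set.toFinite _
  rw [Set.ncard_eq_toFinset_card _ hfin2] at h30
  have h1 : hfin.toFinset.biUnion (fun T => T.erase o) = hfin2.toFinset := by
    ext m
    simp only [Finset.mem_biUnion, Set.Finite.mem_toFinset, Finset.mem_erase, Set.mem_setOf_eq]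
    constructor
    · rintro ⟨T, ⟨hT, hoT⟩, hne, hm⟩
      exact ⟨hT.2.1 m hm, hT.2.2 o hoT m hm hne.symm⟩
    · rintro ⟨hm, hd⟩
      exact ⟨{o, m, (o ∪ m)ᶜ}, ⟨mk_trio' ho hm hd, by simp⟩, (ne_of_disjoint ho hd).symm, by simp⟩
  have h2 : (hfin.toFinset.biUnion (fun T => T.erase o)).card =
      ∑ T ∈ hfin.toFinset, (T.erase o).card := by
    apply Finset.card_biUnion
    intro T hT T' hT' hne
    show Disjoint (T.erase o) (T'.erase o)
    rw [Finset.disjoint_left]
    intro m hm hm'
    rw [Finset.mem_coe, Set.Finite.mem_toFinset] at hT hT'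
    rw [Finset.mem_erase] at hm hm'
    exact hne ((trio_eq hT.1 hT.2 hm.2 hm.1.symm).trans (trio_eq hT'.1 hT'.2 hm'.2 hm.1.symm).symm)
  have h3 : ∑ T ∈ hfin.toFinset, (T.erase o).card = ∑ T ∈ hfin.toFinset, 2 := by
    apply Finset.sum_congr rfl
    intro T hT
    rw [Set.Finite.mem_toFinset] at hT
    rw [Finset.card_erase_of_mem hT.2, hT.1.1]
  rw [h1, h30, h3, Finset.sum_const, smul_eq_mul] at h2
  omega

/-! ### Pairs of trios and sextets -/

/-- The trios made of four tetrads `a, b, c, e` of a sextet whose other tetrads unite to `o`. -/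
structure Quad (o : Finset GolayPt) (S : Finset (Finset GolayPt)) (a b c e : Finset GolayPt) :
    Prop where
  hS : S ∈ sextets
  ha : a ∈ S
  hb : b ∈ S
  hc : c ∈ S
  he : e ∈ S
  hab : a ≠ b
  hac : a ≠ c
  hae : a ≠ e
  hbc : b ≠ c
  hbe : b ≠ e
  hce : c ≠ e
  ho : o = (a ∪ b ∪ (c ∪ e))ᶜ

theorem disj_union {a b c e : Finset GolayPt} (h1 : Disjoint a c) (h2 : Disjoint a e)
    (h3 : Disjoint b c) (h4 : Disjoint b e) : Disjoint (a ∪ b) (c ∪ e) := by
  rw [Finset.disjoint_union_left, Finset.disjoint_union_right, Finset.disjoint_union_right]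
  exact ⟨⟨h1, h2⟩, h3, h4⟩

theorem Quad.swap {o : Finset GolayPt} {S : Finset (Finset GolayPt)} {a b c e : Finset GolayPt}
    (h : Quad o S a b c e) : Quad o S a c b e :=
  ⟨h.hS, h.ha, h.hc, h.hb, h.he, h.hac, h.hab, h.hae, h.hbc.symm, h.hce, h.hbe, by
    rw [h.ho]
    congr 1
    rw [Finset.union_assoc, Finset.union_assoc, ← Finset.union_assoc b, ← Finset.union_assoc c,
      Finset.union_comm b c]⟩

/-- The trio. -/
theorem Quad.trio {o : Finset GolayPt} {S : Finset (Finset GolayPt)} {a b c e : Finset GolayPt}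
    (h : Quad o S a b c e) (ho : o ∈ octads) :
    ({o, a ∪ b, c ∪ e} : Finset (Finset GolayPt)) ∈ trios := by
  have hdis := fun {t u : Finset GolayPt} => @Sextet.disjoint_of_mem S h.hS t u
  refine mk_trio ho (h.hS.2.2 a h.ha b h.hb h.hab) (h.hS.2.2 c h.hc e h.he h.hce) ?_ ?_
    (disj_union (hdis h.ha h.hc h.hac) (hdis h.ha h.he h.hae) (hdis h.hb h.hc h.hbc)
      (hdis h.hb h.he h.hbe))
  · rw [h.ho, Finset.disjoint_left]
    intro x hx hx'
    rw [Finset.mem_compl, Finset.mem_union] at hx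
    exact hx (Or.inl hx')
  · rw [h.ho, Finset.disjoint_left]
    intro x hx hx'
    rw [Finset.mem_compl, Finset.mem_union] at hx
    exact hx (Or.inr hx')

/-- Two distinct trios containing `o` come from four tetrads of a sextet. -/
theorem exists_quad {o : Finset GolayPt} (ho : o ∈ octads) {T₁ T₂ : Finset (Finset GolayPt)}
    (hT₁ : T₁ ∈ trios) (hT₂ : T₂ ∈ trios) (h1 : o ∈ T₁) (h2 : o ∈ T₂) (hne : T₁ ≠ T₂) :
    ∃ S a b c e, Quad o S a b c e ∧ T₁ = {o, a ∪ b, c ∪ e} ∧ T₂ = {o, a ∪ c, b ∪ e} := by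
  have hex : ∀ {T : Finset (Finset GolayPt)}, T ∈ trios → o ∈ T →
      ∃ m ∈ octads, Disjoint o m ∧ T = {o, m, (o ∪ m)ᶜ} := by
    intro T hT hoT
    obtain ⟨m, hm⟩ : (T.erase o).Nonempty := by
      rw [← Finset.card_pos, Finset.card_erase_of_mem hoT, hT.1]; norm_num
    rw [Finset.mem_erase] at hm
    exact ⟨m, hT.2.1 m hm.2, hT.2.2 o hoT m hm.2 hm.1.symm, trio_eq hT hoT hm.2 hm.1.symm⟩
  obtain ⟨m₁, hm₁, hd₁, e₁⟩ := hex hT₁ h1
  obtain ⟨m₂, hm₂, hd₂, e₂⟩ := hex hT₂ h2
  have hn₁ := third ho hm₁ hd₁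
  have hn₂ := third ho hm₂ hd₂
  have hmm : m₁ ≠ m₂ := by
    rintro rfl
    exact hne (e₁.trans e₂.symm)
  have hmn : m₁ ≠ (o ∪ m₂)ᶜ := by
    intro h
    apply hne
    have hmem : m₂ ∈ T₂ := by rw [e₂]; simp
    have hmem' : (o ∪ m₂)ᶜ ∈ T₂ := by rw [e₂]; simp
    rw [← h] at hmem'
    rw [e₁]
    exact (trio_eq hT₂ h2 hmem' (ne_of_disjoint ho hd₁)).symm
  -- the intersection has four points
  have hsum : (m₁ ∩ m₂).card + (m₁ ∩ (o ∪ m₂)ᶜ).card = 8 := by
    rw [← card_octad hm₁, ← Finset.card_union_of_disjoint]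
    · congr 1
      ext x
      rw [Finset.mem_union, Finset.mem_inter, Finset.mem_inter, Finset.mem_compl, Finset.mem_union]
      have := @Finset.disjoint_left _ o m₁
      constructor
      · rintro (h | h) <;> exact h.1
      · intro h
        have h3 : x ∉ o := fun h4 => (this.1 hd₁) h4 h
        tauto
    · rw [Finset.disjoint_left]
      intro x hx hx'
      rw [Finset.mem_inter] at hx hx'
      rw [Finset.mem_compl, Finset.mem_union] at hx'
      exact hx'.2 (Or.inr hx.2)
  have h4 : (m₁ ∩ m₂).card = 4 := by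
    rcases octad_inter hm₁ hm₂ hmm with h | h | h <;>
      rcases octad_inter hm₁ hn₂ hmn with h' | h' | h' <;> omega
  set a := m₁ ∩ m₂ with ha
  set b := m₁ \ m₂ with hb
  set c := m₂ \ m₁ with hc
  set e := (o ∪ m₁ ∪ m₂)ᶜ with he
  have hab : a ∪ b = m₁ := by rw [ha, hb, Finset.union_comm]; exact Finset.sdiff_union_inter _ _
  have hac : a ∪ c = m₂ := by
    rw [ha, hc, Finset.inter_comm, Finset.union_comm]; exact Finset.sdiff_union_inter _ _
  have hce : c ∪ e = (o ∪ m₁)ᶜ := by
    ext x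
    simp only [hc, he, Finset.mem_union, Finset.mem_sdiff, Finset.mem_compl]
    have h3 : x ∈ m₂ → x ∉ o := fun h4 h5 => Finset.disjoint_left.1 hd₂ h5 h4
    tauto
  have hbe : b ∪ e = (o ∪ m₂)ᶜ := by
    ext x
    simp only [hb, he, Finset.mem_union, Finset.mem_sdiff, Finset.mem_compl]
    have h3 : x ∈ m₁ → x ∉ o := fun h4 h5 => Finset.disjoint_left.1 hd₁ h5 h4
    tauto
  have dab : Disjoint a b := by
    rw [Finset.disjoint_left]
    intro x hx hx'
    exact (Finset.mem_sdiff.1 hx').2 (Finset.mem_inter.1 hx).2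
  have dac : Disjoint a c := by
    rw [Finset.disjoint_left]
    intro x hx hx'
    exact (Finset.mem_sdiff.1 hx').2 (Finset.mem_inter.1 hx).1
  have dae : Disjoint a e := by
    rw [Finset.disjoint_left]
    intro x hx hx'
    rw [he, Finset.mem_compl, Finset.mem_union, Finset.mem_union] at hx'
    exact hx' (Or.inr (Finset.mem_inter.1 hx).2)
  have dbc : Disjoint b c := by
    rw [Finset.disjoint_left]
    intro x hx hx'
    exact (Finset.mem_sdiff.1 hx').2 (Finset.mem_sdiff.1 hx).1
  have dbe : Disjoint b e := by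
    rw [Finset.disjoint_left]
    intro x hx hx'
    rw [he, Finset.mem_compl, Finset.mem_union, Finset.mem_union] at hx'
    exact hx' (Or.inl (Or.inr (Finset.mem_sdiff.1 hx).1))
  have dce : Disjoint c e := by
    rw [Finset.disjoint_left]
    intro x hx hx'
    rw [he, Finset.mem_compl, Finset.mem_union, Finset.mem_union] at hx'
    exact hx' (Or.inr (Finset.mem_sdiff.1 hx).1)
  have cb : b.card = 4 := by
    have := Finset.card_union_of_disjoint dab
    rw [hab, card_octad hm₁, h4] at this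
    omega
  have cc : c.card = 4 := by
    have := Finset.card_union_of_disjoint dac
    rw [hac, card_octad hm₂, h4] at this
    omega
  have ce : e.card = 4 := by
    have := Finset.card_union_of_disjoint dce
    rw [hce, card_octad hn₁, cc] at this
    omega
  have hS : sextetOf a ∈ sextets := sextetOf_mem h4
  have mb : b ∈ sextetOf a := mem_sextetOf.2 (Or.inr ⟨dab, by rw [hab]; exact hm₁⟩)
  have mc : c ∈ sextetOf a := mem_sextetOf.2 (Or.inr ⟨dac, by rw [hac]; exact hm₂⟩)
  have me : e ∈ sextetOf a := by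
    have hSb : sextetOf a = sextetOf b := eq_sextetOf hS mb
    rw [hSb]
    exact mem_sextetOf.2 (Or.inr ⟨dbe, by rw [hbe]; exact hn₂⟩)
  have hne' : ∀ {s t : Finset GolayPt}, s.card = 4 → Disjoint s t → s ≠ t := by
    rintro s t hs hd rfl
    rw [disjoint_self, Finset.bot_eq_empty] at hd
    rw [hd] at hs
    simp at hs
  refine ⟨sextetOf a, a, b, c, e, ⟨hS, self_mem_sextetOf a, mb, mc, me, hne' h4 dab, hne' h4 dac,
    hne' h4 dae, hne' cb dbc, hne' cb dbe, hne' cc dce, ?_⟩, ?_, ?_⟩
  · rw [hab, hce]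
    ext x
    rw [Finset.mem_compl, Finset.mem_union, Finset.mem_compl, Finset.mem_union]
    constructor
    · rintro h (h5 | h5)
      · exact Finset.disjoint_left.1 hd₁ h h5
      · exact h5 (Or.inl h)
    · intro h
      by_contra hx
      by_cases h5 : x ∈ m₁
      · exact h (Or.inl h5)
      · exact h (Or.inr fun h6 => h6.elim hx h5)
  · rw [hab, hce, e₁]
  · rw [hac, hbe, e₂]

/-! ### Double transitivity -/

theorem smul_compl (g : Equiv.Perm GolayPt) (s : Finset GolayPt) : g • sᶜ = (g • s)ᶜ := by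
  ext x
  rw [Finset.mem_compl, ← Finset.inv_smul_mem_iff, ← Finset.inv_smul_mem_iff, Finset.mem_compl]

theorem smul_three (g : Equiv.Perm GolayPt) (a b c : Finset GolayPt) :
    g • ({a, b, c} : Finset (Finset GolayPt)) = {g • a, g • b, g • c} := by
  rw [Finset.smul_finset_insert, Finset.smul_finset_insert, Finset.smul_finset_singleton]

theorem two_transitive {o : Finset GolayPt} (ho : o ∈ octads)
    {T₁ T₂ T₁' T₂' : Finset (Finset GolayPt)} (hT₁ : T₁ ∈ trios) (hT₂ : T₂ ∈ trios)
    (hT₁' : T₁' ∈ trios) (hT₂' : T₂' ∈ trios) (h1 : o ∈ T₁) (h2 : o ∈ T₂) (h1' : o ∈ T₁')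
    (h2' : o ∈ T₂') (hne : T₁ ≠ T₂) (hne' : T₁' ≠ T₂') :
    ∃ g ∈ M24, g • o = o ∧ g • T₁ = T₁' ∧ g • T₂ = T₂' := by
  obtain ⟨S, a, b, c, e, hq, e1, e2⟩ := exists_quad ho hT₁ hT₂ h1 h2 hne
  obtain ⟨S', a', b', c', e', hq', e1', e2'⟩ := exists_quad ho hT₁' hT₂' h1' h2' hne'
  have inj : ∀ {S : Finset (Finset GolayPt)} {a b c e : Finset GolayPt}, Quad o S a b c e →
      Function.Injective ![a, b, c, e] := by
    intro S a b c e h i j hij
    have k1 := h.hab
    have k2 := h.hac
    have k3 := h.hae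
    have k4 := h.hbc
    have k5 := h.hbe
    have k6 := h.hce
    fin_cases i <;> fin_cases j <;> first
      | rfl
      | exact absurd hij ‹_›
      | exact absurd hij.symm ‹_›
  have mem : ∀ {S : Finset (Finset GolayPt)} {a b c e : Finset GolayPt}, Quad o S a b c e →
      ∀ i, ![a, b, c, e] i ∈ S := by
    intro S a b c e h i
    have k1 := h.ha
    have k2 := h.hb
    have k3 := h.hc
    have k4 := h.he
    fin_cases i <;> assumption
  obtain ⟨g, hg, -, hgt⟩ := exists_map_tetrads hq.hS hq'.hS ![a, b, c, e] ![a', b', c', e']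
    (mem hq) (mem hq') (inj hq) (inj hq')
  have g1 : g • a = a' := hgt 0
  have g2 : g • b = b' := hgt 1
  have g3 : g • c = c' := hgt 2
  have g4 : g • e = e' := hgt 3
  have go : g • o = o := by
    conv_lhs => rw [hq.ho]
    rw [smul_compl, Finset.smul_finset_union, Finset.smul_finset_union, Finset.smul_finset_union,
      g1, g2, g3, g4, ← hq'.ho]
  refine ⟨g, hg, go, ?_, ?_⟩
  · rw [e1, e1', smul_three, go, Finset.smul_finset_union, Finset.smul_finset_union, g1, g2, g3, g4]
  · rw [e2, e2', smul_three, go, Finset.smul_finset_union, Finset.smul_finset_union, g1, g2, g3, g4]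

/-! ### The kernel -/

/-- A permutation of `o` respecting all partitions of `o` into two 4-sets is trivial on `o`. -/
theorem fix_of_splits {o : Finset GolayPt} (hc : o.card = 8) (g : Equiv.Perm GolayPt)
    (hgo : g • o = o) (h : ∀ t ⊆ o, t.card = 4 → g • t = t ∨ g • t = o \ t) :
    ∀ p ∈ o, g p = p := by
  intro p hp
  by_contra hne
  have hmem : ∀ {x : GolayPt} {t : Finset GolayPt}, x ∈ t → g x ∈ g • t := fun hx =>
    Finset.smul_mem_smul_finset (a := g) hx
  have hq : g p ∈ o := by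
    have := hmem hp
    rwa [hgo] at this
  obtain ⟨r, hr⟩ : ((o.erase p).erase (g p)).Nonempty := by
    rw [← Finset.card_pos, Finset.card_erase_of_mem (Finset.mem_erase.2 ⟨hne, hq⟩),
      Finset.card_erase_of_mem hp, hc]
    norm_num
  simp only [Finset.mem_erase] at hr
  obtain ⟨hrq, hrp, hro⟩ := hr
  have hs : g r ∈ o := by
    have := hmem hro
    rwa [hgo] at this
  have hsq : g r ≠ g p := fun h => hrp (g.injective h)
  by_cases hcase : g r = p ∨ g r = r
  · obtain ⟨t, ht1, ht2, ht3⟩ := Finset.exists_subsuperset_card_eq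
      (s := {p, r}) (t := o.erase (g p)) (n := 4) (by
        intro x hx
        simp only [Finset.mem_insert, Finset.mem_singleton] at hx
        rcases hx with rfl | rfl
        · exact Finset.mem_erase.2 ⟨fun h => hne h.symm, hp⟩
        · exact Finset.mem_erase.2 ⟨hrq, hro⟩) (Finset.card_le_two.trans (by norm_num)) (by
        rw [Finset.card_erase_of_mem hq, hc]; norm_num)
    have hpt : p ∈ t := ht1 (by simp)
    have hrt : r ∈ t := ht1 (by simp)
    have hto : t ⊆ o := ht2.trans (Finset.erase_subset _ _)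
    rcases h t hto ht3 with h1 | h1
    · have h2 := hmem hpt
      rw [h1] at h2
      exact (Finset.mem_erase.1 (ht2 h2)).1 rfl
    · have h2 := hmem hrt
      rw [h1] at h2
      apply (Finset.mem_sdiff.1 h2).2
      rcases hcase with h3 | h3
      · rw [h3]; exact hpt
      · rw [h3]; exact hrt
  · push Not at hcase
    obtain ⟨t, ht1, ht2, ht3⟩ := Finset.exists_subsuperset_card_eq
      (s := {p, r, g p}) (t := o.erase (g r)) (n := 4) (by
        intro x hx
        simp only [Finset.mem_insert, Finset.mem_singleton] at hx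
        rcases hx with rfl | rfl | rfl
        · exact Finset.mem_erase.2 ⟨fun h => hcase.1 h.symm, hp⟩
        · exact Finset.mem_erase.2 ⟨fun h => hcase.2 h.symm, hro⟩
        · exact Finset.mem_erase.2 ⟨hsq.symm, hq⟩) (Finset.card_le_three.trans (by norm_num)) (by
        rw [Finset.card_erase_of_mem hs, hc]; norm_num)
    have hpt : p ∈ t := ht1 (by simp)
    have hrt : r ∈ t := ht1 (by simp)
    have hqt : g p ∈ t := ht1 (by simp)
    have hto : t ⊆ o := ht2.trans (Finset.erase_subset _ _)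
    rcases h t hto ht3 with h1 | h1
    · have h2 := hmem hrt
      rw [h1] at h2
      exact (Finset.mem_erase.1 (ht2 h2)).1 rfl
    · have h2 := hmem hpt
      rw [h1] at h2
      exact (Finset.mem_sdiff.1 h2).2 hqt

theorem inter_union {a b c : Finset GolayPt} (h1 : Disjoint b c) :
    (a ∪ b) ∩ (a ∪ c) = a := by
  ext x
  rw [Finset.mem_inter, Finset.mem_union, Finset.mem_union]
  have h2 : x ∈ b → x ∉ c := fun h => Finset.disjoint_left.1 h1 h
  tauto

/-- The image of a tetrad is a tetrad, when two trios are fixed. -/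
theorem Quad.smul_mem {o : Finset GolayPt} {S : Finset (Finset GolayPt)} {a b c e : Finset GolayPt}
    (h : Quad o S a b c e) (ho : o ∈ octads) {g : Equiv.Perm GolayPt} (hgo : g • o = o)
    (h1 : g • ({o, a ∪ b, c ∪ e} : Finset (Finset GolayPt)) = {o, a ∪ b, c ∪ e})
    (h2 : g • ({o, a ∪ c, b ∪ e} : Finset (Finset GolayPt)) = {o, a ∪ c, b ∪ e}) : g • a ∈ S := by
  have hdis := fun {t u : Finset GolayPt} => @Sextet.disjoint_of_mem S h.hS t u
  have k1 : g • (a ∪ b) = a ∪ b ∨ g • (a ∪ b) = c ∪ e := by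
    have hm : g • (a ∪ b) ∈ g • ({o, a ∪ b, c ∪ e} : Finset (Finset GolayPt)) :=
      Finset.smul_mem_smul_finset (by simp)
    rw [h1] at hm
    simp only [Finset.mem_insert, Finset.mem_singleton] at hm
    rcases hm with hm | hm | hm
    · exfalso
      rw [← hgo] at hm
      have h3 := MulAction.injective g hm
      have h4 := h.ho
      rw [h3] at h4
      obtain ⟨x, hx⟩ := octad_nonempty ho
      have hx' := hx
      rw [h4, Finset.mem_compl, Finset.mem_union] at hx'
      exact hx' (Or.inl hx)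
    · exact Or.inl hm
    · exact Or.inr hm
  have k2 : g • (a ∪ c) = a ∪ c ∨ g • (a ∪ c) = b ∪ e := by
    have hm : g • (a ∪ c) ∈ g • ({o, a ∪ c, b ∪ e} : Finset (Finset GolayPt)) :=
      Finset.smul_mem_smul_finset (by simp)
    rw [h2] at hm
    simp only [Finset.mem_insert, Finset.mem_singleton] at hm
    rcases hm with hm | hm | hm
    · exfalso
      rw [← hgo] at hm
      have h3 := MulAction.injective g hm
      have h4 := h.swap.ho
      rw [h3] at h4
      obtain ⟨x, hx⟩ := octad_nonempty ho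
      have hx' := hx
      rw [h4, Finset.mem_compl, Finset.mem_union] at hx'
      exact hx' (Or.inl hx)
    · exact Or.inl hm
    · exact Or.inr hm
  have k3 : g • a = g • (a ∪ b) ∩ g • (a ∪ c) := by
    rw [← Finset.smul_finset_inter, inter_union (hdis h.hb h.hc h.hbc)]
  rw [k3]
  rcases k1 with k1 | k1 <;> rcases k2 with k2 | k2 <;> rw [k1, k2]
  · rw [inter_union (hdis h.hb h.hc h.hbc)]; exact h.ha
  · rw [Finset.union_comm a b, inter_union (hdis h.ha h.he h.hae)]; exact h.hb
  · rw [Finset.union_comm a c, inter_union (hdis h.he h.ha h.hae.symm)]; exact h.hc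
  · rw [Finset.union_comm c e, Finset.union_comm b e, inter_union (hdis h.hc h.hb h.hbc.symm)]
    exact h.he

/-- An element fixing `o` and all trios containing `o` respects the partitions of `o` into two
4-sets. -/
theorem splits_of_fix {o : Finset GolayPt} (ho : o ∈ octads) {g : Equiv.Perm GolayPt}
    (hg : g ∈ M24) (hgo : g • o = o) (h : ∀ T ∈ trios, o ∈ T → g • T = T) (t : Finset GolayPt)
    (ht : t ⊆ o) (h4 : t.card = 4) : g • t = t ∨ g • t = o \ t := by
  have hS := sextetOf_mem h4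
  have hu : o \ t ∈ sextetOf t := by
    refine mem_sextetOf.2 (Or.inr ⟨Finset.disjoint_sdiff, ?_⟩)
    rw [Finset.union_sdiff_of_subset ht]; exact ho
  have hcu : (o \ t).card = 4 := hS.2.1 _ hu
  have htu : t ≠ o \ t := by
    intro h5
    have h6 : Disjoint t (o \ t) := Finset.disjoint_sdiff
    rw [← h5, disjoint_self, Finset.bot_eq_empty] at h6
    rw [h6] at h4
    simp at h4
  have hc4 : (((sextetOf t).erase t).erase (o \ t)).card = 4 := by
    rw [Finset.card_erase_of_mem (Finset.mem_erase.2 ⟨htu.symm, hu⟩),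
      Finset.card_erase_of_mem (self_mem_sextetOf t), hS.1]
  obtain ⟨a, b, c, e, hab, hac, hae, hbc, hbe, hce, heq⟩ := Finset.card_eq_four.1 hc4
  have hm : ∀ x ∈ ({a, b, c, e} : Finset (Finset GolayPt)), x ≠ o \ t ∧ x ≠ t ∧ x ∈ sextetOf t := by
    intro x hx
    rw [← heq] at hx
    simpa only [Finset.mem_erase] using hx
  have ha := hm a (by simp)
  have hb := hm b (by simp)
  have hc := hm c (by simp)
  have he := hm e (by simp)
  have hdis := fun {t' u : Finset GolayPt} => @Sextet.disjoint_of_mem (sextetOf t) hS t' u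
  have dO : ∀ {x : Finset GolayPt}, x ≠ o \ t ∧ x ≠ t ∧ x ∈ sextetOf t → Disjoint o x := by
    intro x hx
    have h1 := hdis (self_mem_sextetOf t) hx.2.2 hx.2.1.symm
    have h2 := hdis hu hx.2.2 hx.1.symm
    rw [← Finset.union_sdiff_of_subset ht, Finset.disjoint_union_left]
    exact ⟨h1, h2⟩
  have hq : Quad o (sextetOf t) a b c e := by
    refine ⟨hS, ha.2.2, hb.2.2, hc.2.2, he.2.2, hab, hac, hae, hbc, hbe, hce, ?_⟩
    apply Finset.eq_of_subset_of_card_le
    · intro x hx
      simp only [Finset.mem_compl, Finset.mem_union, not_or]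
      exact ⟨⟨Finset.disjoint_left.1 (dO ha) hx, Finset.disjoint_left.1 (dO hb) hx⟩,
        Finset.disjoint_left.1 (dO hc) hx, Finset.disjoint_left.1 (dO he) hx⟩
    · rw [Finset.card_compl, card_golay, Finset.card_union_of_disjoint
        (disj_union (hdis ha.2.2 hc.2.2 hac) (hdis ha.2.2 he.2.2 hae) (hdis hb.2.2 hc.2.2 hbc)
          (hdis hb.2.2 he.2.2 hbe)), Finset.card_union_of_disjoint (hdis ha.2.2 hb.2.2 hab),
        Finset.card_union_of_disjoint (hdis hc.2.2 he.2.2 hce), hS.2.1 a ha.2.2, hS.2.1 b hb.2.2,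
        hS.2.1 c hc.2.2, hS.2.1 e he.2.2, card_octad ho]
  have h1 := h _ (hq.trio ho) (by simp)
  have h2 := h _ (hq.swap.trio ho) (by simp)
  have h3 := hq.smul_mem ho hgo h1 h2
  have h5 : g • sextetOf t = sextetOf t :=
    SextetStab.smul_eq_of_mem S0363.result hg hS hS ha.2.2 h3
  have h6 : g • t ∈ sextetOf t := by
    rw [← h5]
    exact Finset.smul_mem_smul_finset (self_mem_sextetOf t)
  by_contra hcon
  push Not at hcon
  have h7 := dO ⟨hcon.2, hcon.1, h6⟩
  have h8 : g • t ⊆ o := by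
    rw [← hgo]
    exact Finset.smul_finset_subset_smul_finset ht
  have h9 : g • t = ∅ := by
    rw [← Finset.subset_empty]
    intro x hx
    exact absurd hx (Finset.disjoint_left.1 h7 (h8 hx))
  have h10 : (g • t).card = 4 := by rw [Finset.card_smul_finset]; exact h4
  rw [h9] at h10
  simp at h10

/-- The pointwise stabiliser of the octad `o`. -/
abbrev E (o : Finset GolayPt) : Subgroup (Equiv.Perm GolayPt) :=
  M24 ⊓ fixingSubgroup (Equiv.Perm GolayPt) (o : Set GolayPt)

theorem mem_E {o : Finset GolayPt} {g : Equiv.Perm GolayPt} :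
    g ∈ E o ↔ g ∈ M24 ∧ ∀ p ∈ o, g p = p := by
  rw [Subgroup.mem_inf, mem_fixingSubgroup_iff]
  rfl

theorem smul_eq_of_mem_E {o : Finset GolayPt} {g : Equiv.Perm GolayPt} (hg : g ∈ E o) :
    g • o = o := by
  ext x
  rw [Finset.mem_smul_finset]
  constructor
  · rintro ⟨y, hy, rfl⟩
    rw [Equiv.Perm.smul_def, (mem_E.1 hg).2 y hy]
    exact hy
  · intro hx
    exact ⟨x, hx, (mem_E.1 hg).2 x hx⟩

/-- The action of the pointwise stabiliser on the trios containing `o`. -/
@[reducible] def actE (o : Finset GolayPt) : MulAction (E o) (triosOn o) where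
  smul g T := ⟨(g : Equiv.Perm GolayPt) • (T : Finset (Finset GolayPt)),
    smul_mem_trios g.2.1 T.2.1, by
      have := Finset.smul_mem_smul_finset (a := (g : Equiv.Perm GolayPt)) T.2.2
      rwa [smul_eq_of_mem_E g.2] at this⟩
  one_smul T := Subtype.ext (one_smul _ _)
  mul_smul g h T := Subtype.ext (mul_smul _ _ _)

theorem fix_trios {o : Finset GolayPt} (ho : o ∈ octads) {g : Equiv.Perm GolayPt}
    (hg : g ∈ E o) (T : Finset (Finset GolayPt)) (hT : T ∈ trios) (hoT : o ∈ T) : g • T = T := by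
  letI := actE o
  have hp : IsPGroup 2 (E o) := IsPGroup.of_card (n := 4) ((S0381.result o ho).1.trans (by norm_num))
  have hcard : Nat.card (triosOn o) = 15 := ncard_triosOn ho
  have f2 : Fact (Nat.Prime 2) := ⟨by norm_num⟩
  obtain ⟨T₀, hT₀⟩ := hp.nonempty_fixed_point_of_prime_not_dvd_card (triosOn o)
    (by rw [hcard]; norm_num)
  have hfix : ∀ k ∈ E o, k • (T₀ : Finset (Finset GolayPt)) = T₀ := by
    intro k hk
    have := hT₀ ⟨k, hk⟩
    exact congrArg Subtype.val this
  -- other trios containing `o`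
  have hother : ∀ T : Finset (Finset GolayPt), ∃ T' ∈ triosOn o, T ≠ T' := by
    intro T
    by_contra hcon
    push Not at hcon
    have h1 : (triosOn o) ⊆ {T} := fun T' hT' => (hcon T' hT').symm
    have h2 := Set.ncard_le_ncard h1
    rw [ncard_triosOn ho, Set.ncard_singleton] at h2
    omega
  obtain ⟨T₁, hT₁, hne₁⟩ := hother T₀
  obtain ⟨T₂, hT₂, hne₂⟩ := hother T
  obtain ⟨h, hh, hho, hhT, -⟩ := two_transitive ho T₀.2.1 hT₁.1 hT hT₂.1 T₀.2.2 hT₁.2 hoT hT₂.2
    hne₁ hne₂
  have hconj : h⁻¹ * g * h ∈ E o := by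
    rw [mem_E]
    refine ⟨M24.mul_mem (M24.mul_mem (M24.inv_mem hh) hg.1) hh, ?_⟩
    intro p hp
    have h1 : h p ∈ o := by
      have := Finset.smul_mem_smul_finset (a := h) hp
      rwa [hho] at this
    show h⁻¹ (g (h p)) = p
    rw [(mem_E.1 hg).2 _ h1]
    exact Equiv.symm_apply_apply h p
  have h2 := hfix _ hconj
  rw [mul_smul, mul_smul, inv_smul_eq_iff, hhT] at h2
  exact h2

theorem kernel {o : Finset GolayPt} (ho : o ∈ octads) {g : Equiv.Perm GolayPt} (hg : g ∈ M24)
    (hgo : g • o = o) : (∀ T ∈ trios, o ∈ T → g • T = T) ↔ ∀ p ∈ o, g p = p := by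
  constructor
  · intro h
    exact fix_of_splits (card_octad ho) g hgo (splits_of_fix ho hg hgo h)
  · intro h T hT hoT
    exact fix_trios ho (mem_E.2 ⟨hg, h⟩) T hT hoT

end Cfsg.Agent.H868.TrioTools
end

-- part: S5615
section
set_option autoImplicit false
open scoped Pointwise
open Cfsg

namespace Cfsg.Agent.S5615

open Cfsg.Agent.H868.TrioTools

/-- An octad of the length-24 code lies in exactly 15 trios; the stabiliser of the octad in the code's group acts doubly transitively on these 15 trios, and the kernel of this action is the pointwise stabiliser of the octad. -/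
theorem result (o : Finset Cfsg.GolayPt) (ho : o ∈ Cfsg.octads) : {T : Finset (Finset Cfsg.GolayPt) | T ∈ Cfsg.trios ∧ o ∈ T}.ncard = 15 ∧ (∀ T₁ T₂ T₁' T₂' : Finset (Finset Cfsg.GolayPt), T₁ ∈ Cfsg.trios → T₂ ∈ Cfsg.trios → T₁' ∈ Cfsg.trios → T₂' ∈ Cfsg.trios → o ∈ T₁ → o ∈ T₂ → o ∈ T₁' → o ∈ T₂' → T₁ ≠ T₂ → T₁' ≠ T₂' → ∃ g ∈ Cfsg.M24, g • o = o ∧ g • T₁ = T₁' ∧ g • T₂ = T₂') ∧ ∀ g ∈ Cfsg.M24, g • o = o → ((∀ T ∈ Cfsg.trios, o ∈ T → g • T = T) ↔ ∀ p ∈ o, g p = p) := by
  refine ⟨ncard_triosOn ho, ?_, fun g hg hgo => kernel ho hg hgo⟩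
  intro T₁ T₂ T₁' T₂' h1 h2 h1' h2' o1 o2 o1' o2' hne hne'
  exact two_transitive ho h1 h2 h1' h2' o1 o2 o1' o2' hne hne'

end Cfsg.Agent.S5615
end
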