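import Cfsg.Agent.S1600
import Cfsg.Agent.SporadicStructure.M24El
import Cfsg.Statements.S5619
set_option linter.all false

-- part: H868/M9Stab
section
/-!
# The pointwise stabiliser of three points of a dodecad in the dodecad stabiliser (M9 = 3^2:Q8)

The 72 elements are listed for a standard dodecad and three standard points.
-/

set_option autoImplicit false

namespace Cfsg.Agent.H868.M9Stab

open Cfsg Cfsg.Agent.SporadicA.GolayBase Cfsg.Agent.SporadicA.GolayPerm
open Cfsg.Agent.SporadicStructure.M24El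
open scoped Pointwise

/-! ### Abstract part -/

/-- What is shown for the standard subgroup. -/
structure Data (K : Type*) [Group K] : Prop where
  three : ∃ T : Finset K, T.card ≤ 9 ∧ (∀ x : K, x ^ 9 = 1 → x ∈ T) ∧ ∀ x ∈ T, x ^ 3 = 1
  quat : ∃ f : QuaternionGroup 2 →* K, Function.Injective f

theorem Data.congr {K K' : Type*} [Group K] [Group K'] (h : Data K) (e : K ≃* K') : Data K' := by
  classical
  obtain ⟨⟨T, h1, h2, h3⟩, f, hf⟩ := h
  refine ⟨⟨T.map e.toEquiv.toEmbedding, ?_, ?_, ?_⟩, e.toMonoidHom.comp f, ?_⟩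
  · rw [Finset.card_map]; exact h1
  · intro x hx
    rw [Finset.mem_map]
    refine ⟨e.symm x, h2 _ ?_, e.apply_symm_apply x⟩
    rw [← map_pow, hx, map_one]
  · intro x hx
    obtain ⟨y, hy, rfl⟩ := Finset.mem_map.1 hx
    have : (e y) ^ 3 = 1 := by rw [← map_pow, h3 y hy, map_one]
    exact this
  · exact e.injective.comp hf

theorem card_quat : Nat.card (QuaternionGroup 2) = 8 := by
  rw [Nat.card_eq_fintype_card, QuaternionGroup.card]

theorem Data.sylow {K : Type*} [Group K] (h : Data K) (h72 : Nat.card K = 72) :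
    (∀ Q : Sylow 3 K, (Q : Subgroup K).Normal ∧ Nat.card ↥Q = 9 ∧ ∀ x ∈ (Q : Subgroup K), x ^ 3 = 1) ∧
      ∀ P : Sylow 2 K, Nonempty (↥P ≃* QuaternionGroup 2) := by
  classical
  have hfin : Finite K := Nat.finite_of_card_ne_zero (by rw [h72]; norm_num)
  obtain ⟨⟨T, h1, h2, h3⟩, f, hf⟩ := h
  have f3 : Fact (Nat.Prime 3) := ⟨by norm_num⟩
  have f2 : Fact (Nat.Prime 2) := ⟨by norm_num⟩
  have hp3 : (72 : ℕ).factorization 3 = 2 := by
    rw [show (72 : ℕ) = 3 ^ 2 * 8 by norm_num,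
      Nat.factorization_mul (by norm_num) (by norm_num), Nat.Prime.factorization_pow (by norm_num)]
    simp [Nat.factorization_eq_zero_of_not_dvd (show ¬ 3 ∣ 8 by norm_num)]
  have hp2 : (72 : ℕ).factorization 2 = 3 := by
    rw [show (72 : ℕ) = 2 ^ 3 * 9 by norm_num,
      Nat.factorization_mul (by norm_num) (by norm_num), Nat.Prime.factorization_pow (by norm_num)]
    simp [Nat.factorization_eq_zero_of_not_dvd (show ¬ 2 ∣ 9 by norm_num)]
  constructor
  · intro Q
    have hc : Nat.card ↥Q = 9 := by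
      have h := Sylow.card_eq_multiplicity Q
      rw [h72, hp3] at h
      exact h.trans (by norm_num)
    have hmem : ∀ x ∈ (Q : Subgroup K), x ∈ T := by
      intro x hx
      apply h2
      have h4 : (⟨x, hx⟩ : ↥Q) ^ Nat.card ↥Q = 1 := pow_card_eq_one'
      rw [hc] at h4
      exact congrArg Subtype.val h4
    have hset : ∀ x, x ∈ (Q : Subgroup K) ↔ x ∈ T := by
      have h5 : ((Q : Subgroup K) : Set K).ncard = 9 := hc
      have h6 : ((Q : Subgroup K) : Set K) ⊆ (T : Set K) := fun x hx => hmem x hx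
      have h7 := Set.eq_of_subset_of_ncard_le h6 (by rw [h5, Set.ncard_coe_finset]; exact h1)
        (Finset.finite_toSet T)
      intro x
      have h8 := Set.ext_iff.1 h7 x
      exact h8
    refine ⟨⟨?_⟩, hc, fun x hx => h3 x (hmem x hx)⟩
    intro x hx g
    rw [hset]
    apply h2
    rw [conj_pow]
    have h4 : x ^ 9 = 1 := by
      rw [show 9 = 3 * 3 by norm_num, pow_mul, h3 x (hmem x hx), one_pow]
    rw [h4, mul_one, mul_inv_cancel]
  · intro P
    have hc : Nat.card f.range = 8 := by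
      rw [← card_quat]
      exact (Nat.card_congr (MonoidHom.ofInjective hf).toEquiv).symm
    let P0 : Sylow 2 K := Sylow.ofCard f.range (by rw [hc, h72, hp2]; norm_num)
    have e1 : P ≃* P0 := P.equiv P0
    have e2 : QuaternionGroup 2 ≃* f.range := MonoidHom.ofInjective hf
    exact ⟨e1.trans e2.symm⟩

/-! ### The standard subgroup -/

/-- The 72 elements (packed); the first nine are those of order dividing three. -/
def tab : List ℕ := [
  0xbdab49ca307b9ac5a928398a418820, 0xbd66db2e3238d468518f424a413820, 0xbd66ab48b033e825b46c4b8913a020,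
  0xbd674b408b131a7929e37222532420, 0xbdaad9c0ab62143951c93089179c20, 0xbcecdac890719485d0e21be254b020,
  0xbdaaa9ac921a68f8350e11e2561820, 0xbcecaac22b40a89934c77b0a470c20, 0xbced4aacb249dae8284660c9143c20,
  0xbda74ac88b73d4983583118b141c20, 0xb90ab8d2ad41a0f5498970e7638820, 0xbae458569643a22991e61a5aa61c20,
  0xbb553a460541ea6259cc13e4b1a420, 0xbaa966c6457a2692546671d7013020, 0xbc4902d2cd30e4952dc23a2b363c20,
  0xbd6ca9ca2b799a3850474388562420, 0xb94908aacd3b96fa48623327542420, 0xbae0494db67b226a950248e8a71c20,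
  0xbc1719555672486994676228d78820, 0xbd6cd9ac9019e8c928c2724b17a020, 0xb922b2d2ca3224c6c1e710e754b820,
  0xbae05955537208fb444c3a5b430c20, 0xbb693545643a2ce2d4c34be5060820, 0xba9b6a460443ea32cd2261d7233820,
  0xbc4b02526a1996e6c92c7a2b611c20, 0xb963022ab471e436ade84b27611820, 0xbae4484d5563ca8b44ce38e8d12420,
  0xbc2515d5b34b8a3b10cf1228a3b020, 0xbda6aaacb048da8951ec31e2470820, 0xba9b3a1651326c82544f7320b19c20,
  0xbc16495a9331cafac523409aa73020, 0xbceaab4092121a65d12e1b0b13bc20, 0xb90b08b66a7a647a2ccc18ad543820,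
  0xbaa956921110ecf2ccc863a4b49c20, 0xbc4b2236d41260352d863be7572020, 0xbc2455ce961bc87ac5c64314d48820,
  0xbaa936956449aa28d9033b2127b820, 0xbceadb48ab33a878290963e2410c20, 0xb92322aa6d61e09a2d0f1bab630820,
  0xbc2445d95539a29995ee609b41a020, 0xbd1536920513ac98d4ec40d7279820, 0xbc16594db578e2eb10e91315432020,
  0xbceb4b2e303a542935c878c8533020, 0xbc965859b511c889c46979a8a63820, 0xba9b5a116518a668d9e93ba5043020,
  0xbd6d49c0b26094f5b4e64a2241b820, 0xbae51859b31188ca95cf49d5440c20, 0xb90b28aad43b1686c12613ab378c20,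
  0xbb6965124570eac8cd0678a0b3a420, 0xbc964856934262cb14e33394d13c20, 0xbda6dac2324328e5a86f3888549820,
  0xbae1195a95308ae9918819d4d7a420, 0xbd1556c64479e622d98e3220b48c20, 0xbca055d95338a23a910c71a8d4bc20,
  0xbd1b5545653becc24c491a21271820, 0xb948b8b67478a48541c3626b639820, 0xbd156695714b2af24dc719a5012020,
  0xbc4ab22aad73242a40c941ed31bc20, 0xbc4922b6aa4896ca406e43e7631c20, 0xbb556a11711ba682d58748a1233c20,
  0xb92302b6b44bd66548e870ad360c20, 0xb94928d2aa40e076ac4e49ad37b020, 0xb962b236ca13e0ea4907326b31b020,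
  0xbd1b6516046266e8d5e241a4b38c20, 0xbca115ce951b089b144833daa3b820, 0xbd1b35125170aa72d92f30d7062020,
  0xbb555a1644332c38ccee7a57040820, 0xbc97184d5660ca2a912773db441820, 0xbca045d5b64a0a79c5827b95419820,
  0xbc48b2aa7463a066c84379ed54a020, 0xb96322526d1a162540ef61ad572420, 0xbb6955161161a67258681257273c20]

/-- The standard dodecad. -/
def dm : ℕ := 0x80d3cf

/-- The standard subgroup. -/
noncomputable abbrev K0 : Subgroup M24 :=
  MulAction.stabilizer M24 (fin dm) ⊓ MulAction.stabilizer M24 (pt 23) ⊓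
    MulAction.stabilizer M24 (pt 0) ⊓ MulAction.stabilizer M24 (pt 1)

def chk (P : ℕ) : Bool :=
  ok P && Nat.beq (pimg P dm) dm && Nat.beq (papp P 23) 23 && Nat.beq (papp P 0) 0 &&
    Nat.beq (papp P 1) 1

theorem tab_chk : ∀ P ∈ tab, chk P = true := by decide +kernel

theorem chk_spec {P : ℕ} (h : chk P = true) : ok P = true ∧ pimg P dm = dm ∧ papp P 23 = 23 ∧
    papp P 0 = 0 ∧ papp P 1 = 1 := by
  unfold chk at h
  simp only [Bool.and_eq_true] at h
  exact ⟨h.1.1.1.1, Nat.eq_of_beq_eq_true h.1.1.1.2, Nat.eq_of_beq_eq_true h.1.1.2,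
    Nat.eq_of_beq_eq_true h.1.2, Nat.eq_of_beq_eq_true h.2⟩

theorem el_mem_K0 {P : ℕ} (h : chk P = true) : el P ∈ K0 := by
  obtain ⟨h1, h2, h3, h4, h5⟩ := chk_spec h
  refine ⟨⟨⟨?_, ?_⟩, ?_⟩, ?_⟩
  · show el P • fin dm = fin dm
    rw [el_smul_fin h1, h2]
  · show el P • pt 23 = pt 23
    rw [el_smul_pt h1, idx_pt (by norm_num), h3]
  · show el P • pt 0 = pt 0
    rw [el_smul_pt h1, idx_pt (by norm_num), h4]
  · show el P • pt 1 = pt 1
    rw [el_smul_pt h1, idx_pt (by norm_num), h5]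

theorem tab_length : tab.length = 72 := by decide +kernel

/-- The element number `i`. -/
def tb (i : Fin 72) : ℕ := tab.getD i.val 0

theorem tb_chk (i : Fin 72) : chk (tb i) = true := by
  apply tab_chk
  unfold tb
  rw [List.getD_eq_getElem _ _ (by rw [tab_length]; exact i.2)]
  exact List.getElem_mem _

/-- The element number `i` of the standard subgroup. -/
noncomputable def elK (i : Fin 72) : K0 := ⟨el (tb i), el_mem_K0 (tb_chk i)⟩

theorem papp_eq_of_el_eq {P Q : ℕ} (hP : ok P = true) (hQ : ok Q = true) (h : el P = el Q)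
    {k : ℕ} (hk : k < 24) : papp P k = papp Q k := by
  have h1 := idx_el_smul hP (pt k)
  have h2 := idx_el_smul hQ (pt k)
  rw [h] at h1
  rw [idx_pt hk] at h1 h2
  exact h1.symm.trans h2

theorem tb_inj : ∀ i j : Fin 72, papp (tb i) 2 = papp (tb j) 2 → papp (tb i) 3 = papp (tb j) 3 →
    i = j := by decide +kernel

theorem elK_injective : Function.Injective elK := by
  intro i j h
  have h1 : el (tb i) = el (tb j) := congrArg Subtype.val h
  exact tb_inj i j (papp_eq_of_el_eq (chk_spec (tb_chk i)).1 (chk_spec (tb_chk j)).1 h1 (by norm_num))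
    (papp_eq_of_el_eq (chk_spec (tb_chk i)).1 (chk_spec (tb_chk j)).1 h1 (by norm_num))

theorem dm_mem : fin dm ∈ dodecads := by
  refine ⟨?_, ?_⟩
  · rw [mem_supports_iff, maskOf_fin (by decide +kernel)]
    decide +kernel
  · rw [card_fin]
    decide +kernel

theorem card_K0 : Nat.card K0 = 72 :=
  (S1600.result (fin dm) dm_mem (pt 23) (pt 0) (pt 1) (mem_fin.2 (by decide +kernel))
    (mem_fin.2 (by decide +kernel)) (mem_fin.2 (by decide +kernel)) (by decide) (by decide)
    (by decide)).1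

theorem elK_surjective : Function.Surjective elK := by
  have hfin : Finite K0 := Nat.finite_of_card_ne_zero (by rw [card_K0]; norm_num)
  have := Fintype.ofFinite K0
  have hb : Function.Bijective elK := by
    rw [Fintype.bijective_iff_injective_and_card]
    refine ⟨elK_injective, ?_⟩
    rw [Fintype.card_fin, ← Nat.card_eq_fintype_card, card_K0]
  exact hb.2

/-- The cube of a packed permutation. -/
def cube (P : ℕ) : ℕ := pcomp P (pcomp P P)

theorem ok_cube {P : ℕ} (h : ok P = true) : ok (cube P) = true := ok_pcomp h (ok_pcomp h h)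

theorem el_cube {P : ℕ} (h : ok P = true) : el (cube P) = el P ^ 3 := by
  unfold cube
  rw [el_pcomp h (ok_pcomp h h), el_pcomp h h, pow_succ, pow_two, mul_assoc]

theorem cube_chk : ∀ i : Fin 72, (i.val < 9 ∧ cube (tb i) = idP) ∨
    papp (cube (cube (tb i))) 2 ≠ 2 ∨ papp (cube (cube (tb i))) 3 ≠ 3 := by decide +kernel

theorem elK_pow_three (i : Fin 72) (h : i.val < 9) : elK i ^ 3 = 1 := by
  have hok := (chk_spec (tb_chk i)).1
  apply Subtype.ext
  show el (tb i) ^ 3 = 1
  rw [← el_cube hok]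
  have hc : ∀ i : Fin 72, i.val < 9 → cube (tb i) = idP := by decide +kernel
  rw [hc i h, el_idP]

theorem lt_of_pow_nine (i : Fin 72) (h : elK i ^ 9 = 1) : i.val < 9 := by
  have hok := (chk_spec (tb_chk i)).1
  have h1 : el (tb i) ^ 9 = 1 := congrArg Subtype.val h
  have h2 : el (cube (cube (tb i))) = el idP := by
    rw [el_cube (ok_cube hok), el_cube hok, ← pow_mul, h1, el_idP]
  rcases cube_chk i with h3 | h3 | h3
  · exact h3.1
  · exfalso
    apply h3
    rw [papp_eq_of_el_eq (ok_cube (ok_cube hok)) ok_idP h2 (by norm_num)]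
    decide +kernel
  · exfalso
    apply h3
    rw [papp_eq_of_el_eq (ok_cube (ok_cube hok)) ok_idP h2 (by norm_num)]
    decide +kernel

/-- Packed images of the elements of the quaternion group. -/
def qi : ℕ := 0xb90ab8d2ad41a0f5498970e7638820
def qj : ℕ := 0xbc1719555672486994676228d78820

/-- Packed power with a small exponent. -/
def ppow (P : ℕ) : ℕ → ℕ
  | 0 => idP
  | n + 1 => pcomp P (ppow P n)

def qf : QuaternionGroup 2 → ℕ
  | .a k => ppow qi k.val
  | .xa k => pcomp qj (ppow qi k.val)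

theorem qf_mul : ∀ x y : QuaternionGroup 2, qf (x * y) = pcomp (qf x) (qf y) := by decide +kernel

theorem qf_chk : ∀ x : QuaternionGroup 2, chk (qf x) = true := by decide +kernel

theorem qf_inj : ∀ x y : QuaternionGroup 2, papp (qf x) 2 = papp (qf y) 2 →
    papp (qf x) 3 = papp (qf y) 3 → x = y := by decide +kernel

/-- The quaternion subgroup. -/
noncomputable def qhom : QuaternionGroup 2 →* K0 :=
  MonoidHom.mk' (fun x => ⟨el (qf x), el_mem_K0 (qf_chk x)⟩) (by
    intro x y
    apply Subtype.ext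
    show el (qf (x * y)) = el (qf x) * el (qf y)
    rw [qf_mul, el_pcomp (chk_spec (qf_chk x)).1 (chk_spec (qf_chk y)).1])

theorem qhom_injective : Function.Injective qhom := by
  intro x y h
  have h1 : el (qf x) = el (qf y) := congrArg Subtype.val h
  exact qf_inj x y (papp_eq_of_el_eq (chk_spec (qf_chk x)).1 (chk_spec (qf_chk y)).1 h1 (by norm_num))
    (papp_eq_of_el_eq (chk_spec (qf_chk x)).1 (chk_spec (qf_chk y)).1 h1 (by norm_num))

theorem data_K0 : Data K0 := by
  classical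
  refine ⟨⟨(Finset.univ : Finset (Fin 9)).image fun i => elK (Fin.castLE (by norm_num) i), ?_, ?_,
    ?_⟩, qhom, qhom_injective⟩
  · exact Finset.card_image_le.trans (by rw [Finset.card_univ, Fintype.card_fin])
  · intro x hx
    obtain ⟨i, rfl⟩ := elK_surjective x
    have h := lt_of_pow_nine i hx
    exact Finset.mem_image.2 ⟨⟨i.val, h⟩, Finset.mem_univ _, rfl⟩
  · intro x hx
    obtain ⟨i, -, rfl⟩ := Finset.mem_image.1 hx
    exact elK_pow_three _ i.2

/-! ### Transport -/

theorem main (d : Finset Cfsg.GolayPt) (hd : d ∈ Cfsg.dodecads) (p q r : Cfsg.GolayPt) (hp : p ∈ d) (hq : q ∈ d) (hr : r ∈ d) (hpq : p ≠ q) (hpr : p ≠ r) (hqr : q ≠ r) : (∀ Q : Sylow 3 ↥(MulAction.stabilizer Cfsg.M24 d ⊓ MulAction.stabilizer Cfsg.M24 p ⊓ MulAction.stabilizer Cfsg.M24 q ⊓ MulAction.stabilizer Cfsg.M24 r), (Q : Subgroup ↥(MulAction.stabilizer Cfsg.M24 d ⊓ MulAction.stabilizer Cfsg.M24 p ⊓ MulAction.stabilizer Cfsg.M24 q ⊓ MulAction.stabilizer Cfsg.M24 r)).Normal ∧ Nat.card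 ↥Q = 9 ∧ ∀ x ∈ (Q : Subgroup ↥(MulAction.stabilizer Cfsg.M24 d ⊓ MulAction.stabilizer Cfsg.M24 p ⊓ MulAction.stabilizer Cfsg.M24 q ⊓ MulAction.stabilizer Cfsg.M24 r)), x ^ 3 = 1) ∧ ∀ P : Sylow 2 ↥(MulAction.stabilizer Cfsg.M24 d ⊓ MulAction.stabilizer Cfsg.M24 p ⊓ MulAction.stabilizer Cfsg.M24 q ⊓ MulAction.stabilizer Cfsg.M24 r), Nonempty (↥P ≃* QuaternionGroup 2) := by
  classical
  have h72 := (S1600.result d hd p q r hp hq hr hpq hpr hqr).1
  refine Data.sylow ?_ h72
  -- complete `p, q, r` to five points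
  have hcard : d.card = 12 := hd.2
  obtain ⟨s, hs⟩ : (((d.erase p).erase q).erase r).Nonempty := by
    rw [← Finset.card_pos]
    rw [Finset.card_erase_of_mem, Finset.card_erase_of_mem, Finset.card_erase_of_mem hp, hcard]
    · norm_num
    · exact Finset.mem_erase.2 ⟨hpq.symm, hq⟩
    · exact Finset.mem_erase.2 ⟨hqr.symm, Finset.mem_erase.2 ⟨hpr.symm, hr⟩⟩
  obtain ⟨t, ht⟩ : ((((d.erase p).erase q).erase r).erase s).Nonempty := by
    rw [← Finset.card_pos]
    rw [Finset.card_erase_of_mem hs, Finset.card_erase_of_mem, Finset.card_erase_of_mem,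
      Finset.card_erase_of_mem hp, hcard]
    · norm_num
    · exact Finset.mem_erase.2 ⟨hpq.symm, hq⟩
    · exact Finset.mem_erase.2 ⟨hqr.symm, Finset.mem_erase.2 ⟨hpr.symm, hr⟩⟩
  simp only [Finset.mem_erase, ne_eq] at hs ht
  obtain ⟨g, ⟨hg, hgd, hgx⟩, -⟩ :=
    Cfsg.Agent.SporadicStructure.DodecadM12.exists_unique_dodecad_map (fin dm) d dm_mem hd
      ![pt 23, pt 0, pt 1, pt 2, pt 3] ![p, q, r, s, t] (by decide) (by
        intro i j hij
        fin_cases i <;> fin_cases j <;> simp_all) (by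
        intro i
        fin_cases i <;> exact mem_fin.2 (by decide +kernel)) (by
        intro i
        fin_cases i <;> simp_all)
  have e0 : pt 23 = pt 23 := rfl
  have hp' : (⟨g, hg⟩ : M24) • pt 23 = p := hgx 0
  have hq' : (⟨g, hg⟩ : M24) • pt 0 = q := hgx 1
  have hr' : (⟨g, hg⟩ : M24) • pt 1 = r := hgx 2
  have hd' : (⟨g, hg⟩ : M24) • fin dm = d := hgd
  have hK : MulAction.stabilizer Cfsg.M24 d ⊓ MulAction.stabilizer Cfsg.M24 p ⊓
      MulAction.stabilizer Cfsg.M24 q ⊓ MulAction.stabilizer Cfsg.M24 r =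
      K0.map (MulAut.conj (⟨g, hg⟩ : M24)).toMonoidHom := by
    rw [← hp', ← hq', ← hr', ← hd', MulAction.stabilizer_smul_eq_stabilizer_map_conj,
      MulAction.stabilizer_smul_eq_stabilizer_map_conj,
      MulAction.stabilizer_smul_eq_stabilizer_map_conj,
      MulAction.stabilizer_smul_eq_stabilizer_map_conj,
      ← Subgroup.map_inf_eq _ _ _ (MulAut.conj (⟨g, hg⟩ : M24)).injective,
      ← Subgroup.map_inf_eq _ _ _ (MulAut.conj (⟨g, hg⟩ : M24)).injective,
      ← Subgroup.map_inf_eq _ _ _ (MulAut.conj (⟨g, hg⟩ : M24)).injective]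
  rw [hK]
  exact data_K0.congr ((MulAut.conj (⟨g, hg⟩ : M24)).subgroupMap K0)

end Cfsg.Agent.H868.M9Stab
end

-- part: S5619
section
set_option autoImplicit false
open scoped Pointwise
open Cfsg

namespace Cfsg.Agent.S5619

/-- In the group of the length-24 code, the subgroup fixing a dodecad setwise and three of its points individually (a group of order 72) has a normal Sylow 3-subgroup that is elementary abelian of order 9, and its Sylow 2-subgroups are quaternion of order 8. -/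
theorem result (d : Finset Cfsg.GolayPt) (hd : d ∈ Cfsg.dodecads) (p q r : Cfsg.GolayPt) (hp : p ∈ d) (hq : q ∈ d) (hr : r ∈ d) (hpq : p ≠ q) (hpr : p ≠ r) (hqr : q ≠ r) : (∀ Q : Sylow 3 ↥(MulAction.stabilizer Cfsg.M24 d ⊓ MulAction.stabilizer Cfsg.M24 p ⊓ MulAction.stabilizer Cfsg.M24 q ⊓ MulAction.stabilizer Cfsg.M24 r), (Q : Subgroup ↥(MulAction.stabilizer Cfsg.M24 d ⊓ MulAction.stabilizer Cfsg.M24 p ⊓ MulAction.stabilizer Cfsg.M24 q ⊓ MulAction.stabilizer Cfsg.M24 r)).Normal ∧ Nat.card ↥Q = 9 ∧ ∀ x ∈ (Q : Subgroup ↥(MulAction.stabilizer Cfsg.M24 d ⊓ MulAction.stabilizer Cfsg.M24 p ⊓ MulAction.stabilizer Cfsg.M24 q ⊓ MulAction.stabilizer Cfsg.M24 r)), x ^ 3 = 1) ∧ ∀ P : Sylow 2 ↥(MulAction.stabilizer Cfsg.M24 d ⊓ MulAction.stabilizer Cfsg.M24 p ⊓ MulAction.stabilizer Cfsg.M24 q ⊓ MulAction.stabilizer Cfsg.M24 r), Nonempty (↥P ≃* QuaternionGroup 2) := by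
  exact Cfsg.Agent.H868.M9Stab.main d hd p q r hp hq hr hpq hpr hqr

end Cfsg.Agent.S5619
end
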