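import Cfsg.Statements.S5622
import Cfsg.Agent.H869.SelfDual
set_option linter.all false

set_option autoImplicit false
open Cfsg

namespace Cfsg.Agent.S5622

/-- Let C be a self-dual binary code of length 24 with minimum weight at least 8 (a 12-dimensional subspace of the 24-dimensional space over the field with two elements, any two of whose words have dot product zero, with no non-zero word of weight below 8 — an abstract extended binary Golay code). Then the minimum weight of C is exactly 8, and the supports of the words of weight 8 (the octads) form a Steiner system S(5, 8, 24) on the 24 coordinates: every 5 coordinates lie in the support of exactly one word of weight 8. -/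
theorem result (C : Submodule (ZMod 2) (Fin 24 → ZMod 2)) (hdim : Module.finrank (ZMod 2) C = 12) (horth : ∀ v ∈ C, ∀ w ∈ C, ∑ i, v i * w i = 0) (hmin : ∀ w ∈ C, w ≠ 0 → 8 ≤ hammingNorm w) : (∃ w ∈ C, hammingNorm w = 8) ∧ Cfsg.IsSteinerSystem 5 8 (Cfsg.wordsOfWeight (C : Set (Fin 24 → ZMod 2)) 8) := by
  have h : Cfsg.Agent.H869.SelfDual.SD C := ⟨by simp, hdim, horth, hmin⟩
  have hmem : ∀ b : Finset (Fin 24), b ∈ Cfsg.wordsOfWeight (C : Set (Fin 24 → ZMod 2)) 8 ↔
      Cfsg.Agent.SporadicA.CodeUnique.ind b ∈ C ∧ b.card = 8 := by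
    intro b
    constructor
    · rintro ⟨⟨w, hw, rfl⟩, hb⟩
      refine ⟨?_, hb⟩
      have := Cfsg.Agent.SporadicA.CodeUnique.eq_ind w
      rw [Cfsg.support₂, ← this]
      exact hw
    · rintro ⟨h1, h2⟩
      refine ⟨⟨_, h1, ?_⟩, h2⟩
      ext i
      rw [Cfsg.support₂, Finset.mem_filter]
      have h3 := Cfsg.Agent.SporadicA.CodeUnique.ind_eq_one_iff b i
      rw [Cfsg.Agent.SporadicA.CodeUnique.ind_apply] at h3 ⊢
      by_cases hi : i ∈ b <;> simp [hi]
  have hst : Cfsg.IsSteinerSystem 5 8 (Cfsg.wordsOfWeight (C : Set (Fin 24 → ZMod 2)) 8) := by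
    refine ⟨fun b hb => hb.2, fun s hs => ?_⟩
    obtain ⟨O, hO, hOc, hsO⟩ := h.exists_octad hs
    refine ⟨O, ⟨(hmem O).2 ⟨hO, hOc⟩, hsO⟩, ?_⟩
    rintro O' ⟨hO', hsO'⟩
    obtain ⟨h1, h2⟩ := (hmem O').1 hO'
    exact h.octad_unique h1 h2 hO hOc hs hsO' hsO
  refine ⟨?_, hst⟩
  obtain ⟨s, -, hs⟩ := Finset.exists_subset_card_eq
    (show 5 ≤ (Finset.univ : Finset (Fin 24)).card by simp)
  obtain ⟨O, hO, hOc, -⟩ := h.exists_octad hs
  exact ⟨_, hO, by rw [Cfsg.Agent.SporadicA.CodeUnique.hammingNorm_ind, hOc]⟩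

end Cfsg.Agent.S5622
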