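import Cfsg.Statements.S5623
import Cfsg.Agent.H869.SelfDual
set_option linter.all false

set_option autoImplicit false
open Cfsg

namespace Cfsg.Agent.S5623

/-- Let C be a self-dual binary code of length 24 with minimum weight at least 8 (a 12-dimensional subspace of the 24-dimensional space over the field with two elements, any two of whose words have dot product zero, with no non-zero word of weight below 8 — an abstract extended binary Golay code). Then every coset w + C of C in the ambient space contains either exactly one word of weight at most 4, which then has weight at most 3, or exactly six words of weight at most 4, all of weight exactly 4 and with pairwise disjoint supports (a sextet). -/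
theorem result (C : Submodule (ZMod 2) (Fin 24 → ZMod 2)) (hdim : Module.finrank (ZMod 2) C = 12) (horth : ∀ v ∈ C, ∀ w ∈ C, ∑ i, v i * w i = 0) (hmin : ∀ w ∈ C, w ≠ 0 → 8 ≤ hammingNorm w) (w : Fin 24 → ZMod 2) : (∃ u : Fin 24 → ZMod 2, {u : Fin 24 → ZMod 2 | u - w ∈ C ∧ hammingNorm u ≤ 4} = {u} ∧ hammingNorm u ≤ 3) ∨ ({u : Fin 24 → ZMod 2 | u - w ∈ C ∧ hammingNorm u ≤ 4}.ncard = 6 ∧ ∀ u ∈ {u : Fin 24 → ZMod 2 | u - w ∈ C ∧ hammingNorm u ≤ 4}, hammingNorm u = 4 ∧ ∀ u' ∈ {u : Fin 24 → ZMod 2 | u - w ∈ C ∧ hammingNorm u ≤ 4}, u ≠ u' → Disjoint (Finset.univ.filter fun i => u i ≠ 0) (Finset.univ.filter fun i => u' i ≠ 0)) := by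
  have h : Cfsg.Agent.H869.SelfDual.SD C := ⟨by simp, hdim, horth, hmin⟩
  set X : Set (Fin 24 → ZMod 2) := {u : Fin 24 → ZMod 2 | u - w ∈ C ∧ hammingNorm u ≤ 4} with hX
  -- the words as sets
  have hmem : ∀ S : Finset (Fin 24), Cfsg.Agent.SporadicA.CodeUnique.ind S ∈ X ↔
      Cfsg.Agent.H869.SelfDual.q C S = Submodule.Quotient.mk w ∧ S.card ≤ 4 := by
    intro S
    rw [hX, Set.mem_setOf_eq, Cfsg.Agent.SporadicA.CodeUnique.hammingNorm_ind,
      Cfsg.Agent.H869.SelfDual.q, Submodule.Quotient.eq]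
  have hind : ∀ u : Fin 24 → ZMod 2, u = Cfsg.Agent.SporadicA.CodeUnique.ind
      (Finset.univ.filter fun i => u i ≠ 0) := Cfsg.Agent.SporadicA.CodeUnique.eq_ind
  rcases h.main (Submodule.Quotient.mk w) with ⟨S, hS, hSw⟩ | h6
  · left
    refine ⟨Cfsg.Agent.SporadicA.CodeUnique.ind S, ?_, by
      rw [Cfsg.Agent.SporadicA.CodeUnique.hammingNorm_ind]; exact hS⟩
    apply Set.Subset.antisymm
    · intro u hu
      rw [hind u] at hu ⊢
      obtain ⟨h1, h2⟩ := (hmem _).1 hu
      rw [Set.mem_singleton_iff]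
      congr 1
      rcases Nat.lt_or_ge (Finset.univ.filter fun i => u i ≠ 0).card 4 with h3 | h3
      · exact Cfsg.Agent.H869.SelfDual.q_injOn h
          (Cfsg.Agent.H869.SelfDual.mem_P3.2 (by omega))
          (Cfsg.Agent.H869.SelfDual.mem_P3.2 hS) (h1.trans hSw.symm)
      · exact absurd (hSw.trans h1.symm) (Cfsg.Agent.H869.SelfDual.q_ne h hS (by omega))
    · rintro u rfl
      exact (hmem S).2 ⟨hSw, by omega⟩
  · right
    -- all words have weight four
    have h4 : ∀ S : Finset (Fin 24), Cfsg.Agent.SporadicA.CodeUnique.ind S ∈ X ↔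
        S ∈ Cfsg.Agent.H869.SelfDual.fib C (Submodule.Quotient.mk w) := by
      intro S
      rw [hmem, Cfsg.Agent.H869.SelfDual.mem_fib]
      constructor
      · rintro ⟨h1, h2⟩
        refine ⟨?_, h1⟩
        by_contra hne
        obtain ⟨T, hT⟩ : (Cfsg.Agent.H869.SelfDual.fib C (Submodule.Quotient.mk w)).Nonempty := by
          rw [← Finset.card_pos]
          omega
        obtain ⟨h5, h7⟩ := Cfsg.Agent.H869.SelfDual.mem_fib.1 hT
        exact Cfsg.Agent.H869.SelfDual.q_ne h (show S.card ≤ 3 by omega) h5 (h1.trans h7.symm)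
      · rintro ⟨h1, h2⟩
        exact ⟨h2, by omega⟩
    have hXeq : X = Cfsg.Agent.SporadicA.CodeUnique.ind ''
        (Cfsg.Agent.H869.SelfDual.fib C (Submodule.Quotient.mk w) : Set (Finset (Fin 24))) := by
      ext u
      constructor
      · intro hu
        rw [hind u] at hu ⊢
        exact ⟨_, (h4 _).1 hu, rfl⟩
      · rintro ⟨S, hS, rfl⟩
        exact (h4 S).2 hS
    constructor
    · rw [hXeq, Set.ncard_image_of_injective _ fun S T hST =>
        Cfsg.Agent.H869.SelfDual.ind_inj hST, Set.ncard_coe_finset, h6]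
    · intro u hu
      have hu' := hu
      rw [hind u] at hu'
      obtain ⟨h1, h2⟩ := Cfsg.Agent.H869.SelfDual.mem_fib.1 ((h4 _).1 hu')
      refine ⟨?_, ?_⟩
      · rw [hind u, Cfsg.Agent.SporadicA.CodeUnique.hammingNorm_ind, h1]
      · intro v hv huv
        have hv' := hv
        rw [hind v] at hv'
        obtain ⟨h3, h5⟩ := Cfsg.Agent.H869.SelfDual.mem_fib.1 ((h4 _).1 hv')
        refine h.disjoint h1 h3 (h2.trans h5.symm) ?_
        intro heq
        apply huv
        rw [hind u, hind v, heq]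

end Cfsg.Agent.S5623
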