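import Cfsg.Statements.S5625
import Cfsg.Agent.SporadicA.SteinerCount
set_option linter.all false

set_option autoImplicit false
open Cfsg

namespace Cfsg.Agent.S5625

open Finset Cfsg.Agent.SporadicA.SteinerCount

/-- In any Steiner system S(5, 8, 24) and for any set Y of three points, the blocks meeting Y in exactly 3, 2, 1 and 0 points number 21, 168, 360 and 210 respectively (so there are 759 blocks in all). -/
theorem result (α : Type*) [Fintype α] [DecidableEq α] (hα : Fintype.card α = 24) (B : Set (Finset α)) (hB : Cfsg.IsSteinerSystem 5 8 B) (Y : Finset α) (hY : Y.card = 3) : {b : Finset α | b ∈ B ∧ (b ∩ Y).card = 3}.ncard = 21 ∧ {b : Finset α | b ∈ B ∧ (b ∩ Y).card = 2}.ncard = 168 ∧ {b : Finset α | b ∈ B ∧ (b ∩ Y).card = 1}.ncard = 360 ∧ {b : Finset α | b ∈ B ∧ (b ∩ Y).card = 0}.ncard = 210 := by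
  classical
  obtain ⟨F, hF⟩ : ∃ F : Finset (Finset α), ∀ b, b ∈ F ↔ b ∈ B :=
    ⟨(Set.toFinite B).toFinset, fun b => by simp⟩
  have hc : ∀ s : Finset α, s.card ≤ 5 →
      (F.filter (fun b => s ⊆ b)).card * (8 - s.card).choose (5 - s.card) =
        (24 - s.card).choose (5 - s.card) := by
    intro s hs
    have := card_blocks_containing hB F hF s hs
    rwa [hα] at this
  have h0 : F.card = 759 := by
    have := card_blocks hB F hF
    rw [hα, show Nat.choose 8 5 = 56 from by decide +kernel,
      show Nat.choose 24 5 = 42504 from by decide +kernel] at this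
    omega
  have h1 : ∀ x, (F.filter (fun b => x ∈ b)).card = 253 := by
    intro x
    have := hc {x} (by simp)
    rw [card_singleton, show Nat.choose (8 - 1) (5 - 1) = 35 from by decide +kernel,
      show Nat.choose (24 - 1) (5 - 1) = 8855 from by decide +kernel] at this
    simp only [singleton_subset_iff] at this
    omega
  have h2 : ∀ x y, x ≠ y → (F.filter (fun b => x ∈ b ∧ y ∈ b)).card = 77 := by
    intro x y hxy
    have := hc {x, y} (by rw [card_pair hxy]; norm_num)
    rw [card_pair hxy, show Nat.choose (8 - 2) (5 - 2) = 20 from by decide +kernel,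
      show Nat.choose (24 - 2) (5 - 2) = 1540 from by decide +kernel] at this
    simp only [insert_subset_iff, singleton_subset_iff] at this
    omega
  have h3 : (F.filter (fun b => (b ∩ Y).card = 3)).card = 21 := by
    have := hc Y (by omega)
    rw [hY, show Nat.choose (8 - 3) (5 - 3) = 10 from by decide +kernel,
      show Nat.choose (24 - 3) (5 - 3) = 210 from by decide +kernel] at this
    have e : F.filter (fun b => (b ∩ Y).card = 3) = F.filter (fun b => Y ⊆ b) := by
      apply filter_congr
      intro b _
      constructor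
      · intro h
        have := eq_of_subset_of_card_le (inter_subset_right : b ∩ Y ⊆ Y) (by omega)
        rw [← this]
        exact inter_subset_left
      · intro h
        rw [inter_eq_right.2 h, hY]
    rw [e]
    omega
  have hsum : ∀ g : ℕ → ℕ, ∑ b ∈ F, g (b ∩ Y).card =
      ∑ k ∈ range 4, (F.filter (fun b => (b ∩ Y).card = k)).card * g k := by
    intro g
    rw [← sum_fiberwise_of_maps_to (s := F) (t := range 4) (g := fun b => (b ∩ Y).card)
      (fun b _ => by
        rw [mem_range]
        have := card_le_card (inter_subset_right : b ∩ Y ⊆ Y)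
        show (b ∩ Y).card < 4
        omega)]
    refine sum_congr rfl fun k _ => ?_
    rw [sum_congr rfl (g := fun _ => g k)]
    · rw [sum_const, smul_eq_mul]
    · intro b hb
      rw [(mem_filter.1 hb).2]
  have m0 := hsum (fun _ => 1)
  have m1 := hsum (fun k => k)
  have m2 := hsum (fun k => k * k)
  rw [sum_inter F Y, sum_congr rfl (fun x _ => h1 x), sum_const, hY] at m1
  rw [sum_inter_mul F Y Y] at m2
  have m2' : ∑ x ∈ Y, ∑ y ∈ Y, (F.filter (fun d => x ∈ d ∧ y ∈ d)).card = 1221 := by
    have : ∀ x ∈ Y, ∑ y ∈ Y, (F.filter (fun d => x ∈ d ∧ y ∈ d)).card = 407 := by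
      intro x hx
      rw [← add_sum_erase Y _ hx]
      have e1 : (F.filter (fun d => x ∈ d ∧ x ∈ d)).card = 253 := by
        simp only [and_self]
        exact h1 x
      rw [e1, sum_congr rfl (g := fun _ => 77)
        (fun y hy => h2 x y (ne_of_mem_erase hy).symm), sum_const, card_erase_of_mem hx, hY]
      rfl
    rw [sum_congr rfl this, sum_const, hY]
    rfl
  rw [m2'] at m2
  rw [sum_const, h0] at m0
  simp only [sum_range_succ, sum_range_zero, smul_eq_mul] at m0 m1 m2
  have key : ∀ k, {b : Finset α | b ∈ B ∧ (b ∩ Y).card = k}.ncard =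
      (F.filter (fun b => (b ∩ Y).card = k)).card := by
    intro k
    rw [← Set.ncard_coe_finset]
    congr 1
    ext b
    simp [hF]
  rw [key, key, key, key]
  refine ⟨h3, ?_, ?_, ?_⟩ <;> omega

end Cfsg.Agent.S5625
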