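import Mathlib
import Cfsg.Agent.H870.Oval
import Cfsg.Statements.S5627
set_option linter.all false

-- part: H870/OvalCount
section
/-!
# The hyperovals of the standard projective plane of order 4

`Hs` : the words of the 168 hyperovals; two of them have at most three common points.
-/

set_option autoImplicit false
set_option linter.unusedSectionVars false

namespace Cfsg.Agent.H870.OvalCount

open Finset Cfsg.Agent.SporadicA.SteinerMask Cfsg.Agent.SporadicA.SteinerCount
  Cfsg.Agent.H870.Plane Cfsg.Agent.H870.Oval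

/-- the words of the hyperovals -/
def Hs : List ℕ := [63, 5004, 7242, 10056, 10382, 10417, 13508, 15106, 17678, 17713, 19144, 22146, 22852, 25158, 28032,
34132, 35474, 39201, 41500, 41507, 45456, 49242, 49253, 56336, 67472, 67670, 67689, 70684, 70691,
73944, 82593, 86290, 92688, 99012, 101634, 102728, 112128, 116748, 123010, 131862, 131881, 134352,
135322, 135333, 140385, 145428, 149016, 155984, 165442, 166276, 170504, 172298, 184512, 189444,
197766, 199488, 207880, 208962, 213384, 217604, 263970, 264420, 267409, 270421, 270442, 277536,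
279059, 279084, 283040, 295497, 304385, 313473, 319536, 327821, 327858, 332545, 337923, 363040,
394251, 394292, 399425, 409861, 426336, 462888, 525401, 525414, 527264, 530451, 530476, 533265,
536738, 541032, 550432, 557325, 557362, 561793, 574467, 592944, 593989, 599169, 608513, 643104,
657545, 663559, 663608, 672321, 688676, 721120, 787268, 789634, 790728, 795660, 809472, 811266,
820752, 864272, 885120, 917586, 966664, 985092, 1049241, 1049254, 1052000, 1052949, 1052970,
1059368, 1067089, 1070116, 1073376, 1083403, 1083444, 1086529, 1089669, 1115401, 1122881, 1130503,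
1130552, 1146978, 1180080, 1184259, 1190145, 1197185, 1224736, 1246752, 1312132, 1313346, 1316360,
1323328, 1327242, 1337348, 1343696, 1376788, 1417224, 1462288, 1477632, 1507586, 1574592, 1575174,
1581448, 1585668, 1592328, 1593410, 1609752, 1638736, 1672196, 1706512, 1736834, 1794048]

/-- the lines through each point, shifted -/
def tab : List (List ℕ) := [[451, 3589, 28681, 229393, 1835041],
  [225, 74769, 149507, 295173, 528905],
  [897, 18505, 74753, 135205, 294931],
  [3585, 4245, 33059, 73793, 147465],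
  [295, 14337, 16529, 33801, 66113],
  [147, 1061, 2313, 4673, 57345],
  [7, 73, 5393, 8865, 18433],
  [3, 265, 3141, 4225, 8753],
  [1, 289, 1033, 2581, 4291],
  [7, 9, 785, 1153, 2145],
  [3, 33, 337, 645, 1033],
  [1, 73, 129, 277, 547],
  [1, 7, 73, 161, 273],
  [3, 9, 49, 69, 129],
  [1, 9, 21, 33, 67],
  [1, 7, 9, 17, 33],
  [1, 3, 5, 9, 17],
  [1, 1, 3, 5, 9],
  [1, 1, 1, 1, 7],
  [1, 1, 1, 1, 3],
  [1, 1, 1, 1, 1]]

theorem tab_spec : ∀ j < 22, ∀ k ∈ tab.getD j [], ∃ l ∈ Ls, k = l >>> j := by decide +kernel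

/-- criterion for dropping a branch -/
def bad (j h : ℕ) : Bool := Nat.beq (h % 2) 1 &&
  ((tab.getD j []).any fun k => odd2 (h &&& k) false)

theorem bad_eq_false {c : ℕ} (hc : c < 2 ^ 21)
    (hk : ∀ k ∈ Ls, popc 21 (c &&& k) ≤ 2) (j : ℕ) :
    bad j (c >>> j) = false := by
  rw [bad, Bool.and_eq_false_iff]
  right
  rw [List.any_eq_false]
  intro k' hkK
  by_cases hj : j < 22
  swap
  · have : tab.getD j [] = [] := by
      rw [List.getD_eq_default]
      exact (by decide +kernel : tab.length ≤ 22).trans (not_lt.1 hj)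
    rw [this] at hkK
    exact absurd hkK List.not_mem_nil
  obtain ⟨k, hkL, rfl⟩ := tab_spec j hj k' hkK
  rw [Bool.not_eq_true]
  have hck : c &&& k < 2 ^ 21 := lt_of_le_of_lt Nat.and_le_left hc
  have e1 : (c >>> j) &&& (k >>> j) = (c &&& k) >>> j := by rw [Nat.shiftRight_and_distrib]
  have e2 := popc_add j 21 (c &&& k)
  have e3 : popc (j + 21) (c &&& k) = popc 21 (c &&& k) := popc_eq_of_le hck (by omega)
  rw [e3] at e2
  rw [e1]
  refine odd2_eq_false (f := 21) (lt_of_le_of_lt (Nat.shiftRight_le _ _) hck) ?_ (fun h => ?_)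
  · have := hk k hkL
    omega
  · exact absurd h (by decide)

theorem search_check : searchR bad Hs 21 0 6 = true := by decide +kernel

theorem mem_Hs {c : ℕ} (hc : c < 2 ^ 21) (hc6 : popc 21 c = 6)
    (hk : ∀ k ∈ Ls, popc 21 (c &&& k) ≤ 2) : c ∈ Hs :=
  searchR_sound (S := fun c => c < 2 ^ 21 ∧ ∀ k ∈ Ls, popc 21 (c &&& k) ≤ 2)
    (fun _ hc j => bad_eq_false hc.1 hc.2 j) 21 0 6 search_check c ⟨hc, hk⟩ hc6
    (Nat.shiftRight_eq_zero _ _ hc)

theorem Hs_length : Hs.length = 168 := by decide +kernel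

theorem Hs_nodup : Hs.Nodup := by decide +kernel

theorem Hs_check : (Hs.all fun c => Nat.blt c (2 ^ 21) && Nat.beq (popc 21 c) 6 &&
    Ls.all fun k => Nat.ble (popc 21 (c &&& k)) 2) = true := by decide +kernel

theorem Hs_spec {c : ℕ} (hc : c ∈ Hs) : c < 2 ^ 21 ∧ popc 21 c = 6 ∧
    ∀ k ∈ Ls, popc 21 (c &&& k) ≤ 2 := by
  have h := List.all_eq_true.1 Hs_check c hc
  rw [Bool.and_eq_true, Bool.and_eq_true, List.all_eq_true] at h
  obtain ⟨⟨h1, h2⟩, h3⟩ := h
  exact ⟨Nat.blt_eq ▸ h1, Nat.eq_of_beq_eq_true h2, fun k hk => Nat.le_of_ble_eq_true (h3 k hk)⟩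

/-- at most three ones -/
def le3 (x : ℕ) : Bool := !(odd2 (x &&& (x - 1)) false)

theorem popc_le_of_le3 {f x : ℕ} (hx : x < 2 ^ f) (h : le3 x = true) : popc f x ≤ 3 := by
  unfold le3 at h
  rw [Bool.not_eq_true'] at h
  by_cases h0 : x = 0
  · rw [h0, popc_of_zero]; omega
  have := popc_le_of_odd2 (lt_of_le_of_lt Nat.and_le_left hx : x &&& (x - 1) < 2 ^ f) h
  have := popc_drop f x h0 hx
  omega

theorem Hs_apart_check : (Hs.all fun a => Hs.all fun b => Nat.beq a b ||
    le3 (a &&& b)) = true := by decide +kernel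

theorem Hs_apart {a b : ℕ} (ha : a ∈ Hs) (hb : b ∈ Hs) (h : 4 ≤ popc 21 (a &&& b)) : a = b := by
  have h1 := List.all_eq_true.1 (List.all_eq_true.1 Hs_apart_check a ha) b hb
  rw [Bool.or_eq_true] at h1
  rcases h1 with h1 | h1
  · exact Nat.eq_of_beq_eq_true h1
  · have := popc_le_of_le3 (lt_of_le_of_lt Nat.and_le_left (Hs_spec ha).1) h1
    omega

variable {α : Type*} [Fintype α] [DecidableEq α] {L : Set (Finset α)}

/-- the hyperovals in a standard labelling -/
theorem oval_iff {e : Fin 21 ≃ α}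
    (he : ∀ s : Finset (Fin 21), s.map e.toEmbedding ∈ L ↔ mask s ∈ Ls) (s : Finset (Fin 21)) :
    ((s.map e.toEmbedding).card = 6 ∧ ∀ l ∈ L, (l ∩ s.map e.toEmbedding).card ≤ 2) ↔
      mask s ∈ Hs := by
  have key : ∀ k, k ∈ Ls → (ofMask 21 k).map e.toEmbedding ∈ L ∧ ∀ s : Finset (Fin 21),
      ((ofMask 21 k).map e.toEmbedding ∩ s.map e.toEmbedding).card = popc 21 (mask s &&& k) := by
    intro k hk
    have h1 := (Ls_spec k hk).1
    refine ⟨by rw [he, mask_ofMask h1]; exact hk, fun s => ?_⟩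
    rw [← Finset.map_inter, card_map, Finset.inter_comm, ← popc_mask_and, mask_ofMask h1]
  constructor
  · rintro ⟨h1, h2⟩
    refine mem_Hs (mask_lt s) (by rw [popc_mask, ← h1, card_map]) (fun k hk => ?_)
    obtain ⟨h3, h4⟩ := key k hk
    rw [← h4]
    exact h2 _ h3
  · intro h
    obtain ⟨h1, h2, h3⟩ := Hs_spec h
    refine ⟨by rw [card_map, ← popc_mask, h2], fun l hl => ?_⟩
    have e1 : (l.map e.symm.toEmbedding).map e.toEmbedding = l := by
      ext x
      simp
    rw [← e1] at hl ⊢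
    rw [he] at hl
    have h4 := (key _ hl).2 s
    rw [ofMask_mask] at h4
    rw [h4]
    exact h3 _ hl

theorem map_symm_map (e : Fin 21 ≃ α) (c : Finset α) :
    (c.map e.symm.toEmbedding).map e.toEmbedding = c := by
  ext x
  simp

/-- there are 168 hyperovals -/
theorem ncard_ovals (hα : Fintype.card α = 21) (hL : Cfsg.IsSteinerSystem 2 5 L) :
    {H : Finset α | (H.card = 6 ∧ ∀ l ∈ L, (l ∩ H).card ≤ 2)}.ncard = 168 := by
  obtain ⟨e, he⟩ := exists_standard hα hL
  have h1 : {H : Finset α | (H.card = 6 ∧ ∀ l ∈ L, (l ∩ H).card ≤ 2)} =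
      ((Hs.toFinset.image (fun c => (ofMask 21 c).map e.toEmbedding) : Finset (Finset α)) :
        Set (Finset α)) := by
    ext H
    rw [Set.mem_ofPred_eq, mem_coe, mem_image]
    constructor
    · intro hH
      rw [← map_symm_map e H, oval_iff he] at hH
      exact ⟨_, List.mem_toFinset.2 hH, by rw [ofMask_mask, map_symm_map]⟩
    · rintro ⟨c, hc, rfl⟩
      rw [List.mem_toFinset] at hc
      rw [oval_iff he, mask_ofMask (Hs_spec hc).1]
      exact hc
  rw [h1, Set.ncard_coe_finset, card_image_of_injOn, List.toFinset_card_of_nodup Hs_nodup,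
    Hs_length]
  intro a ha b hb hab
  rw [mem_coe, List.mem_toFinset] at ha hb
  have := Finset.map_injective _ hab
  rw [← mask_ofMask (Hs_spec ha).1, this, mask_ofMask (Hs_spec hb).1]

/-- two hyperovals with four common points are equal -/
theorem oval_eq (hα : Fintype.card α = 21) (hL : Cfsg.IsSteinerSystem 2 5 L) {H H' : Finset α}
    (hH : (H.card = 6 ∧ ∀ l ∈ L, (l ∩ H).card ≤ 2))
    (hH' : (H'.card = 6 ∧ ∀ l ∈ L, (l ∩ H').card ≤ 2)) (h : 4 ≤ (H ∩ H').card) : H = H' := by
  obtain ⟨e, he⟩ := exists_standard hα hL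
  rw [← map_symm_map e H, oval_iff he] at hH
  rw [← map_symm_map e H', oval_iff he] at hH'
  rw [← map_symm_map e H, ← map_symm_map e H', ← Finset.map_inter, card_map,
    ← popc_mask_and] at h
  rw [← map_symm_map e H, ← map_symm_map e H', mask_injective (Hs_apart hH hH' h)]

end Cfsg.Agent.H870.OvalCount
end

-- part: S5627
section
set_option autoImplicit false
open Cfsg

namespace Cfsg.Agent.S5627

open Finset Cfsg.Agent.H870.Oval Cfsg.Agent.H870.OvalCount

/-- In a projective plane of order 4 (a Steiner system S(2, 5, 21)), call a set of points independent when no line meets it in more than two points. There are exactly 2520 independent 4-sets and exactly 168 independent 6-sets (hyperovals), and every independent 4-set lies in exactly one hyperoval. -/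
theorem result {α : Type*} [Fintype α] [DecidableEq α] (hα : Fintype.card α = 21) (L : Set (Finset α)) (hL : Cfsg.IsSteinerSystem 2 5 L) : {S : Finset α | (S.card = 4 ∧ ∀ l ∈ L, (l ∩ S).card ≤ 2)}.ncard = 2520 ∧ {H : Finset α | (H.card = 6 ∧ ∀ l ∈ L, (l ∩ H).card ≤ 2)}.ncard = 168 ∧ ∀ S : Finset α, (S.card = 4 ∧ ∀ l ∈ L, (l ∩ S).card ≤ 2) → ∃! H : Finset α, (H.card = 6 ∧ ∀ l ∈ L, (l ∩ H).card ≤ 2) ∧ S ⊆ H := by
  classical
  have h3 : ∀ S : Finset α, (S.card = 4 ∧ ∀ l ∈ L, (l ∩ S).card ≤ 2) →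
      ∃! H : Finset α, (H.card = 6 ∧ ∀ l ∈ L, (l ∩ H).card ≤ 2) ∧ S ⊆ H := by
    rintro S ⟨hS, hi⟩
    obtain ⟨H, hH, hSH⟩ := exists_oval hα hL hS hi
    refine ⟨H, ⟨hH, hSH⟩, ?_⟩
    rintro H' ⟨hH', hSH'⟩
    refine oval_eq hα hL hH' hH ?_
    rw [← hS]
    exact card_le_card (subset_inter hSH' hSH)
  have h2 := ncard_ovals hα hL
  refine ⟨?_, h2, h3⟩
  have key := card_mul_eq_card_mul
    (s := (univ : Finset (Finset α)).filter (fun S => S.card = 4 ∧ ∀ l ∈ L, (l ∩ S).card ≤ 2))
    (t := (univ : Finset (Finset α)).filter (fun H => H.card = 6 ∧ ∀ l ∈ L, (l ∩ H).card ≤ 2))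
    (fun S H => S ⊆ H) (m := 1) (n := 15) ?_ ?_
  · rw [← Set.ncard_coe_finset, ← Set.ncard_coe_finset] at key
    have e1 : {S : Finset α | (S.card = 4 ∧ ∀ l ∈ L, (l ∩ S).card ≤ 2)} =
      ((univ : Finset (Finset α)).filter (fun S => S.card = 4 ∧ ∀ l ∈ L, (l ∩ S).card ≤ 2) :
        Finset (Finset α)) := by
      ext S; simp
    have e2 : {H : Finset α | (H.card = 6 ∧ ∀ l ∈ L, (l ∩ H).card ≤ 2)} =
      ((univ : Finset (Finset α)).filter (fun S => S.card = 6 ∧ ∀ l ∈ L, (l ∩ S).card ≤ 2) :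
        Finset (Finset α)) := by
      ext S; simp
    rw [e1]
    rw [e2] at h2
    rw [h2] at key
    omega
  · intro S hS
    rw [mem_filter] at hS
    obtain ⟨H, ⟨hH, hSH⟩, hu⟩ := h3 S hS.2
    rw [card_eq_one]
    refine ⟨H, ?_⟩
    ext H'
    rw [mem_bipartiteAbove, mem_filter, mem_singleton]
    constructor
    · rintro ⟨⟨-, h1⟩, h2⟩
      exact hu H' ⟨h1, h2⟩
    · rintro rfl
      exact ⟨⟨mem_univ _, hH⟩, hSH⟩
  · intro H hH
    rw [mem_filter] at hH
    obtain ⟨-, hH, hHi⟩ := hH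
    have : bipartiteBelow (fun S H => S ⊆ H)
        ((univ : Finset (Finset α)).filter (fun S => S.card = 4 ∧ ∀ l ∈ L, (l ∩ S).card ≤ 2)) H =
        H.powersetCard 4 := by
      ext S
      rw [mem_bipartiteBelow, mem_filter, mem_powersetCard]
      constructor
      · rintro ⟨⟨-, h1, -⟩, h2⟩
        exact ⟨h2, h1⟩
      · rintro ⟨h1, h2⟩
        refine ⟨⟨mem_univ _, h2, fun l hl => ?_⟩, h1⟩
        exact (card_le_card (inter_subset_inter_left h1)).trans (hHi l hl)
    rw [this, card_powersetCard, hH]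
    rfl

end Cfsg.Agent.S5627
end
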