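import Cfsg.Statements.S5634
import Cfsg.Agent.H871.DecompOne
set_option linter.all false

set_option autoImplicit false
open Cfsg

namespace Cfsg.Agent.S5634

/-- For a finite field F with q elements and n ≥ 13, let D be a decomposition of F^n into t ≥ 2 independent subspaces of equal dimension m ≥ 1 spanning F^n. Unless m = 1 and q ≤ 4, or m = 2 and q = 2, the elements of SL_n(F) permuting the members of D form a maximal subgroup of SL_n(F). -/
theorem result {F : Type*} [Field F] [Fintype F] (n : ℕ) (hn : 13 ≤ n) {t : ℕ} (m : ℕ) (D : Fin t → Submodule F (Fin n → F)) (hD : Cfsg.Geo.IsMDecomposition m D) (h1 : ¬ (m = 1 ∧ Fintype.card F ≤ 4)) (h2 : ¬ (m = 2 ∧ Fintype.card F = 2)) : Cfsg.Geo.IsMaximalIn (Cfsg.Geo.specialLinear (Fin n) F) (Cfsg.Geo.decompositionStabilizer D ⊓ Cfsg.Geo.specialLinear (Fin n) F) := by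
  have : Nontrivial (Fin n) := Fintype.one_lt_card_iff_nontrivial.1 (by
    rw [Fintype.card_fin]; omega)
  have hcard2 : 2 ≤ Fintype.card F := Fintype.one_lt_card
  by_cases hm1 : m = 1
  · subst hm1
    have hF : 5 ≤ Nat.card F := by
      rw [Nat.card_eq_fintype_card]
      by_contra hc
      exact h1 ⟨rfl, by omega⟩
    exact Cfsg.Agent.H871.decomp_maximal_one hD fun M hM hMS =>
      Cfsg.Agent.H871.sl_monomial hM hMS hF (by rw [Fintype.card_fin]; exact hn)
  · have hpos := hD.pos
    apply Cfsg.Agent.H871.decomp_maximal_two hD (by omega)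
    by_cases hm3 : 3 ≤ m
    · exact Or.inl hm3
    · right
      right
      have hm2 : m = 2 := by omega
      subst hm2
      have h3 := Cfsg.Agent.H871.card_decomp hD
      rw [Fintype.card_fin] at h3
      refine ⟨by omega, ?_⟩
      have hF3 : 3 ≤ Fintype.card F := by
        by_contra hc
        exact h2 ⟨rfl, by omega⟩
      have : Nontrivial Fˣ := by
        rw [← Finite.one_lt_card_iff_nontrivial, Nat.card_units, Nat.card_eq_fintype_card]
        omega
      exact exists_ne 1

end Cfsg.Agent.S5634
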