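import Cfsg.Prelude.Def_GeometricClasses
import Cfsg.Agent.H905.SLBasic
import Cfsg.Agent.H905.SLProper3
import Cfsg.Statements.S5635
set_option linter.all false

-- part: H872/Frame
section
/-!
Coordinates adapted to a decomposition `Geo.IsMDecomposition m D`, the elements of its stabiliser in
these coordinates, and dilatransvections `x ↦ x + f x • v` as elements of `GL`.
-/

set_option autoImplicit false
set_option linter.unusedSectionVars false

namespace Cfsg.Agent.H872

open Matrix Cfsg

variable {ι : Type} [Fintype ι] [DecidableEq ι] {F : Type*} [Field F]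

/-! ### Dilatransvections -/

/-- The element `x ↦ x + f x • v` of `GL`. -/
noncomputable def dil (f : (ι → F) →ₗ[F] F) (v : ι → F) (h : 1 + f v ≠ 0) : GL ι F :=
  H905.glOf (LinearEquiv.dilatransvection (f := f) (v := v) (isUnit_iff_ne_zero.2 h))

theorem dil_mulVec (f : (ι → F) →ₗ[F] F) (v : ι → F) (h : 1 + f v ≠ 0) (x : ι → F) :
    (dil f v h : Matrix ι ι F) *ᵥ x = x + f x • v := by
  rw [dil, H905.glOf_mulVec, LinearEquiv.dilatransvection.apply]

theorem det_dil (f : (ι → F) →ₗ[F] F) (v : ι → F) (h : 1 + f v ≠ 0) :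
    (dil f v h : Matrix ι ι F).det = 1 + f v := by
  rw [dil, H905.glOf_det, LinearEquiv.dilatransvection.coe_toLinearMap,
    LinearMap.transvection.det]

/-! ### Coordinates of a decomposition -/

/-- Coordinates adapted to a decomposition: `Ψ` carries `D i` onto the vectors supported at `i`. -/
theorem exists_coord {t m : ℕ} {D : Fin t → Submodule F (ι → F)} (hD : Geo.IsMDecomposition m D) :
    ∃ Ψ : (ι → F) ≃ₗ[F] (Fin t → Fin m → F),
      ∀ i v, v ∈ D i ↔ ∀ j, j ≠ i → Ψ v j = 0 := by
  classical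
  have hint : DirectSum.IsInternal D :=
    DirectSum.isInternal_submodule_of_iSupIndep_of_iSup_eq_top hD.indep hD.iSup_eq_top
  let E1 : (DirectSum (Fin t) fun i => D i) ≃ₗ[F] (ι → F) :=
    LinearEquiv.ofBijective (DirectSum.coeLinearMap D) hint
  let E2 : (DirectSum (Fin t) fun i => D i) ≃ₗ[F] (∀ i : Fin t, D i) :=
    DirectSum.linearEquivFunOnFintype F (Fin t) fun i => D i
  have hfin : ∀ i, Nonempty (D i ≃ₗ[F] (Fin m → F)) := by
    intro i
    refine ⟨LinearEquiv.ofFinrankEq _ _ ?_⟩
    rw [hD.finrank_eq i, Module.finrank_fintype_fun_eq_card, Fintype.card_fin]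
  let c : ∀ i, D i ≃ₗ[F] (Fin m → F) := fun i => (hfin i).some
  let E3 : (∀ i : Fin t, D i) ≃ₗ[F] (Fin t → Fin m → F) := LinearEquiv.piCongrRight c
  refine ⟨(E1.symm ≪≫ₗ E2) ≪≫ₗ E3, fun i v => ?_⟩
  have h3 : ∀ w j, ((E1.symm ≪≫ₗ E2) ≪≫ₗ E3) w j = c j (E2 (E1.symm w) j) := fun w j => rfl
  constructor
  · intro hv j hj
    have h1 : E1 (DirectSum.lof F (Fin t) (fun i => D i) i ⟨v, hv⟩) = v := by
      change DirectSum.coeLinearMap D _ = v
      exact DirectSum.coeLinearMap_lof D i ⟨v, hv⟩
    have h2 : E1.symm v = DirectSum.lof F (Fin t) (fun i => D i) i ⟨v, hv⟩ := by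
      rw [LinearEquiv.symm_apply_eq, h1]
    rw [h3, h2]
    have h4 : E2 (DirectSum.lof F (Fin t) (fun i => D i) i ⟨v, hv⟩) j = 0 := by
      change (DirectSum.lof F (Fin t) (fun i => D i) i ⟨v, hv⟩) j = 0
      rw [DirectSum.lof_eq_of, DirectSum.of_eq_of_ne _ _ _ hj]
    rw [h4, map_zero]
  · intro h
    have h4 : ∀ j, j ≠ i → E2 (E1.symm v) j = 0 := by
      intro j hj
      have := h j hj
      rw [h3] at this
      exact (c j).map_eq_zero_iff.1 this
    have h5 : E1.symm v = DirectSum.lof F (Fin t) (fun i => D i) i (E2 (E1.symm v) i) := by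
      apply E2.injective
      funext j
      by_cases hj : j = i
      · subst hj
        change _ = (DirectSum.lof F (Fin t) (fun i => D i) j (E2 (E1.symm v) j)) j
        rw [DirectSum.lof_eq_of, DirectSum.of_eq_same]
      · rw [h4 j hj]
        change _ = (DirectSum.lof F (Fin t) (fun i => D i) i (E2 (E1.symm v) i)) j
        rw [DirectSum.lof_eq_of, DirectSum.of_eq_of_ne _ _ _ hj]
    have h6 : v = E1 (E1.symm v) := (E1.apply_symm_apply v).symm
    rw [h6, h5]
    have h7 : E1 (DirectSum.lof F (Fin t) (fun i => D i) i (E2 (E1.symm v) i)) =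
        ((E2 (E1.symm v) i : D i) : ι → F) := by
      change DirectSum.coeLinearMap D _ = _
      exact DirectSum.coeLinearMap_lof D i _
    rw [h7]
    exact (E2 (E1.symm v) i).2

/-- Elements of the stabiliser are monomial in adapted coordinates. -/
theorem coord_of_mem {t m : ℕ} {D : Fin t → Submodule F (ι → F)}
    {Ψ : (ι → F) ≃ₗ[F] (Fin t → Fin m → F)}
    (hΨ : ∀ i v, v ∈ D i ↔ ∀ j, j ≠ i → Ψ v j = 0) {g : GL ι F}
    (hg : g ∈ Geo.decompositionStabilizer D) :
    ∃ (σ : Equiv.Perm (Fin t)) (A : Fin t → ((Fin m → F) →ₗ[F] (Fin m → F))),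
      (∀ i, Function.Injective (A i)) ∧
      ∀ i v, Ψ ((g : Matrix ι ι F) *ᵥ v) (σ i) = A i (Ψ v i) := by
  classical
  obtain ⟨σ, hσ⟩ := hg
  let s : ∀ i : Fin t, (Fin m → F) →ₗ[F] (ι → F) := fun i =>
    Ψ.symm.toLinearMap ∘ₗ LinearMap.single F (fun _ : Fin t => (Fin m → F)) i
  have hs : ∀ i z, Ψ (s i z) = Pi.single i z := by
    intro i z
    change Ψ (Ψ.symm (Pi.single i z)) = _
    rw [LinearEquiv.apply_symm_apply]
  have hsD : ∀ i z, s i z ∈ D i := by
    intro i z
    rw [hΨ]
    intro j hj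
    rw [hs, Pi.single_eq_of_ne hj]
  have hgD : ∀ i v, v ∈ D i → (g : Matrix ι ι F) *ᵥ v ∈ D (σ i) := by
    intro i v hv
    rw [← hσ i]
    exact ⟨v, hv, by rw [Matrix.toLin'_apply]⟩
  let A : Fin t → ((Fin m → F) →ₗ[F] (Fin m → F)) := fun i =>
    LinearMap.proj (σ i) ∘ₗ Ψ.toLinearMap ∘ₗ Matrix.toLin' (g : Matrix ι ι F) ∘ₗ s i
  have hA : ∀ i z, A i z = Ψ ((g : Matrix ι ι F) *ᵥ (s i z)) (σ i) := fun i z => rfl
  refine ⟨σ, A, fun i => ?_, fun i v => ?_⟩
  · rw [← LinearMap.ker_eq_bot, LinearMap.ker_eq_bot']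
    intro z hz
    rw [hA] at hz
    have h1 : Ψ ((g : Matrix ι ι F) *ᵥ (s i z)) = 0 := by
      funext j
      by_cases hj : j = σ i
      · rw [hj, hz]; rfl
      · exact (hΨ (σ i) _).1 (hgD i _ (hsD i z)) j hj
    have h2 : (g : Matrix ι ι F) *ᵥ (s i z) = 0 := Ψ.map_eq_zero_iff.1 h1
    have h3 : s i z = 0 := by
      have h4 : ((g⁻¹ : GL ι F) : Matrix ι ι F) *ᵥ ((g : Matrix ι ι F) *ᵥ (s i z)) = 0 := by
        rw [h2, mulVec_zero]
      rwa [mulVec_mulVec, ← Units.val_mul, inv_mul_cancel, Units.val_one, one_mulVec] at h4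
    have h5 := hs i z
    rw [h3, map_zero] at h5
    have h6 := congrFun h5 i
    rw [Pi.single_eq_same] at h6
    exact h6.symm
  · have h1 : v = ∑ j, s j (Ψ v j) := by
      apply Ψ.injective
      rw [map_sum]
      funext k
      rw [Finset.sum_apply]
      rw [Finset.sum_eq_single k]
      · rw [hs, Pi.single_eq_same]
      · intro j _ hj
        rw [hs, Pi.single_eq_of_ne (Ne.symm hj)]
      · intro h; exact absurd (Finset.mem_univ k) h
    have h2 : Ψ ((g : Matrix ι ι F) *ᵥ v) = ∑ j, Ψ ((g : Matrix ι ι F) *ᵥ s j (Ψ v j)) := by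
      conv_lhs => rw [h1]
      rw [← Matrix.toLin'_apply, map_sum, map_sum]
      simp only [Matrix.toLin'_apply]
    rw [h2, Finset.sum_apply, Finset.sum_eq_single i]
    · rw [hA]
    · intro j _ hj
      refine (hΨ (σ j) _).1 (hgD j _ (hsD j _)) (σ i) ?_
      exact fun h => hj (σ.injective h).symm
    · intro h; exact absurd (Finset.mem_univ i) h

end Cfsg.Agent.H872
end

-- part: H872/FrameForms
section
/-!
Stabilisers of frames over small fields preserve forms:
`m = 1, q = 3` and `m = 2, q = 2`: a quadratic form; `m = 1, q = 4`: a hermitian form;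
`m = 1, q = 2`: the sum of the basis vectors.
-/

set_option autoImplicit false
set_option linter.unusedSectionVars false

namespace Cfsg.Agent.H872

open Matrix Cfsg

variable {ι : Type} [Fintype ι] [DecidableEq ι] {F : Type*} [Field F]

/-- Sum of squares-like form attached to `N`. -/
def frameForm {t m : ℕ} (N : (Fin m → F) → F) (Ψ : (ι → F) ≃ₗ[F] (Fin t → Fin m → F)) (v : ι → F) : F :=
  ∑ i, N (Ψ v i)

theorem polar_frameForm {t m : ℕ} {N : (Fin m → F) → F}
    {B : (Fin m → F) →ₗ[F] (Fin m → F) →ₗ[F] F}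
    (hB : ∀ z w, N (z + w) = N z + N w + B z w)
    (Ψ : (ι → F) ≃ₗ[F] (Fin t → Fin m → F)) (v w : ι → F) :
    QuadraticMap.polar (frameForm N Ψ) v w = ∑ i, B (Ψ v i) (Ψ w i) := by
  unfold QuadraticMap.polar frameForm
  rw [← Finset.sum_sub_distrib, ← Finset.sum_sub_distrib]
  refine Finset.sum_congr rfl fun i _ => ?_
  rw [map_add, Pi.add_apply, hB]
  ring

theorem isNondegenerateQuadraticForm_frameForm {t m : ℕ} {N : (Fin m → F) → F}
    {B : (Fin m → F) →ₗ[F] (Fin m → F) →ₗ[F] F}
    (hN : ∀ (c : F) z, N (c • z) = c ^ 2 * N z)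
    (hB : ∀ z w, N (z + w) = N z + N w + B z w)
    (hsymm : ∀ z w, B z w = B w z)
    (hnd : ∀ z, z ≠ 0 → ∃ w, B z w ≠ 0)
    (Ψ : (ι → F) ≃ₗ[F] (Fin t → Fin m → F)) :
    Geo.IsNondegenerateQuadraticForm (frameForm N Ψ) where
  smul := by
    intro c v
    unfold frameForm
    rw [Finset.mul_sum]
    refine Finset.sum_congr rfl fun i _ => ?_
    rw [map_smul, Pi.smul_apply, hN]
  polar_bilinear := by
    constructor
    · intro x y v
      simp only [polar_frameForm hB, map_add, Pi.add_apply, LinearMap.add_apply, Finset.sum_add_distrib]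
    · intro c x v
      simp only [polar_frameForm hB, map_smul, Pi.smul_apply, LinearMap.smul_apply, smul_eq_mul, Finset.mul_sum]
    · intro v x y
      simp only [polar_frameForm hB, map_add, Pi.add_apply, Finset.sum_add_distrib]
    · intro c v x
      simp only [polar_frameForm hB, map_smul, Pi.smul_apply, smul_eq_mul, Finset.mul_sum]
  nondegenerate := by
    intro v hv
    have h1 : ∃ i, Ψ v i ≠ 0 := by
      by_contra hcon
      push Not at hcon
      exact hv (Ψ.map_eq_zero_iff.1 (funext hcon))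
    obtain ⟨i, hi⟩ := h1
    obtain ⟨w, hw⟩ := hnd _ hi
    have h2 : ∑ j, B (Ψ v j) (Ψ (Ψ.symm (Pi.single i w)) j) = B (Ψ v i) w := by
      rw [LinearEquiv.apply_symm_apply, Finset.sum_eq_single i]
      · rw [Pi.single_eq_same]
      · intro j _ hj
        rw [Pi.single_eq_of_ne hj, map_zero]
      · intro h; exact absurd (Finset.mem_univ i) h
    constructor
    · refine ⟨Ψ.symm (Pi.single i w), ?_⟩
      rw [polar_frameForm hB]
      simp only [fun j => hsymm (Ψ (Ψ.symm (Pi.single i w)) j) (Ψ v j)]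
      rwa [h2]
    · refine ⟨Ψ.symm (Pi.single i w), ?_⟩
      rwa [polar_frameForm hB, h2]

theorem frameForm_invariant {t m : ℕ} {D : Fin t → Submodule F (ι → F)}
    {Ψ : (ι → F) ≃ₗ[F] (Fin t → Fin m → F)}
    (hΨ : ∀ i v, v ∈ D i ↔ ∀ j, j ≠ i → Ψ v j = 0) {N : (Fin m → F) → F}
    (hN1 : ∀ z, z ≠ 0 → N z = 1) {g : GL ι F}
    (hg : g ∈ Geo.decompositionStabilizer D) (v : ι → F) :
    frameForm N Ψ ((g : Matrix ι ι F) *ᵥ v) = frameForm N Ψ v := by
  obtain ⟨σ, A, hA, hgA⟩ := coord_of_mem hΨ hg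
  unfold frameForm
  rw [← Equiv.sum_comp σ]
  refine Finset.sum_congr rfl fun i _ => ?_
  rw [hgA]
  by_cases h : Ψ v i = 0
  · rw [h, map_zero]
  · rw [hN1 _ h, hN1]
    intro h1
    exact h (hA i (by rw [h1, map_zero]))

/-- The reflection in a vector with `Q v = 1`. -/
theorem exists_reflection {Q : (ι → F) → F} (hQ : Geo.IsNondegenerateQuadraticForm Q) {v : ι → F}
    (hv : Q v = 1) : ∃ g : GL ι F, (g : Matrix ι ι F).det = -1 ∧
      (∀ x, (g : Matrix ι ι F) *ᵥ x = x - QuadraticMap.polar Q x v • v) ∧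
      ∀ x, Q ((g : Matrix ι ι F) *ᵥ x) = Q x := by
  let f : (ι → F) →ₗ[F] F :=
    { toFun := fun x => - QuadraticMap.polar Q x v
      map_add' := fun x y => by rw [hQ.polar_bilinear.add_left]; ring
      map_smul' := fun c x => by
        rw [hQ.polar_bilinear.smul_left, RingHom.id_apply, smul_eq_mul]; ring }
  have hf : ∀ x, f x = - QuadraticMap.polar Q x v := fun x => rfl
  have hvv : QuadraticMap.polar Q v v = 2 := by
    have h1 : Q (v + v) = 4 := by
      have : v + v = (2 : F) • v := by rw [two_smul]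
      rw [this, hQ.smul, hv]; norm_num
    unfold QuadraticMap.polar
    rw [h1, hv]; norm_num
  have h1 : 1 + f v = -1 := by rw [hf, hvv]; ring
  have h2 : 1 + f v ≠ 0 := by rw [h1]; exact neg_ne_zero.2 one_ne_zero
  refine ⟨dil f v h2, ?_, ?_, ?_⟩
  · rw [det_dil, h1]
  · intro x
    rw [dil_mulVec, hf, neg_smul, sub_eq_add_neg]
  · intro x
    rw [dil_mulVec]
    have h3 : Q (x + f x • v) = Q x + Q (f x • v) + QuadraticMap.polar Q x (f x • v) := by
      unfold QuadraticMap.polar; ring
    rw [h3, hQ.smul, hQ.polar_bilinear.smul_right, hv, hf]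
    ring

/-- Elements of the stabiliser keep the number of non-zero components; here: one component. -/
theorem not_mem_of_two {t m : ℕ} {D : Fin t → Submodule F (ι → F)}
    {Ψ : (ι → F) ≃ₗ[F] (Fin t → Fin m → F)}
    (hΨ : ∀ i v, v ∈ D i ↔ ∀ j, j ≠ i → Ψ v j = 0) {g : GL ι F} {i j k : Fin t} (hjk : j ≠ k)
    {x : ι → F} (hx : x ∈ D i) (hj : Ψ ((g : Matrix ι ι F) *ᵥ x) j ≠ 0)
    (hk : Ψ ((g : Matrix ι ι F) *ᵥ x) k ≠ 0) : g ∉ Geo.decompositionStabilizer D := by
  intro hg
  obtain ⟨σ, A, hA, hgA⟩ := coord_of_mem hΨ hg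
  have h : ∀ l, Ψ ((g : Matrix ι ι F) *ᵥ x) l ≠ 0 → l = σ i := by
    intro l hl
    obtain ⟨l', rfl⟩ := σ.surjective l
    rw [hgA] at hl
    by_contra hne
    have h1 : l' ≠ i := fun h => hne (by rw [h])
    rw [(hΨ i x).1 hx l' h1, map_zero] at hl
    exact hl rfl
  exact hjk ((h j hj).trans (h k hk).symm)

/-- Strict overgroup for the quadratic cases. -/
theorem exists_between_quad {t m : ℕ} {D : Fin t → Submodule F (ι → F)}
    (hD : Geo.IsMDecomposition m D) (hι : 3 ≤ Fintype.card ι) {N : (Fin m → F) → F}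
    {B : (Fin m → F) →ₗ[F] (Fin m → F) →ₗ[F] F}
    (hN : ∀ (c : F) z, N (c • z) = c ^ 2 * N z)
    (hB : ∀ z w, N (z + w) = N z + N w + B z w)
    (hsymm : ∀ z w, B z w = B w z)
    (hnd : ∀ z, z ≠ 0 → ∃ w, B z w ≠ 0) (hN1 : ∀ z, z ≠ 0 → N z = 1)
    {k : ℕ} (hk : 3 ≤ k) (hkt : k < t) (hkF : (k : F) = 1) :
    ∃ K : Subgroup (GL ι F), Geo.decompositionStabilizer D ⊓ Geo.specialLinear ι F < K ∧
      K < Geo.specialLinear ι F := by
  classical
  obtain ⟨Ψ, hΨ⟩ := exists_coord hD
  have hN0 : N 0 = 0 := by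
    have := hN 0 0
    rw [smul_zero] at this
    rw [this]; ring
  have hQ := isNondegenerateQuadraticForm_frameForm hN hB hsymm hnd Ψ
  set Q : (ι → F) → F := frameForm N Ψ with hQdef
  refine ⟨Geo.quadSimilarityGroup Q ⊓ Geo.specialLinear ι F, ?_, ?_⟩
  · refine lt_of_le_of_ne (inf_le_inf_right _ ?_) ?_
    · intro g hg
      exact ⟨1, fun v => by rw [Units.val_one, one_mul]; exact frameForm_invariant hΨ hN1 hg v⟩
    · intro heq
      have hpos := hD.pos
      let z0 : Fin m → F := Pi.single ⟨0, hpos⟩ 1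
      have hz0 : z0 ≠ 0 := by
        intro h
        have := congrFun h ⟨0, hpos⟩
        simp [z0] at this
      obtain ⟨w0, hw0⟩ := hnd z0 hz0
      have hw00 : w0 ≠ 0 := by rintro rfl; exact hw0 (map_zero _)
      -- the vector with k non-zero components
      let v : ι → F := Ψ.symm fun i => if (i : ℕ) < k then z0 else 0
      have hv : ∀ i, Ψ v i = if (i : ℕ) < k then z0 else 0 := fun i => by
        rw [LinearEquiv.apply_symm_apply]
      let ik : Fin t := ⟨k, hkt⟩
      let v' : ι → F := Ψ.symm (Pi.single ik z0)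
      have hv' : Ψ v' = Pi.single ik z0 := LinearEquiv.apply_symm_apply _ _
      have hQv : Q v = 1 := by
        rw [hQdef, frameForm]
        have h1 : ∀ i, N (Ψ v i) = if (i : ℕ) < k then (1 : F) else 0 := by
          intro i
          rw [hv]
          split_ifs
          · exact hN1 _ hz0
          · exact hN0
        simp only [h1]
        rw [Finset.sum_ite, Finset.sum_const_zero, add_zero, Finset.sum_const, nsmul_eq_mul, mul_one]
        have h2 : (Finset.univ.filter fun i : Fin t => (i : ℕ) < k).card = k := by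
          rw [Fin.card_filter_val_lt]; omega
        rw [h2, hkF]
      have hQv' : Q v' = 1 := by
        rw [hQdef, frameForm, Finset.sum_eq_single ik]
        · rw [hv', Pi.single_eq_same, hN1 _ hz0]
        · intro j _ hj
          rw [hv', Pi.single_eq_of_ne hj, hN0]
        · intro h; exact absurd (Finset.mem_univ _) h
      obtain ⟨r1, hr1, hr1x, hr1Q⟩ := exists_reflection hQ hQv
      obtain ⟨r2, hr2, hr2x, hr2Q⟩ := exists_reflection hQ hQv'
      have hmem : r1 * r2 ∈ Geo.quadSimilarityGroup Q ⊓ Geo.specialLinear ι F := by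
        refine ⟨⟨1, fun x => ?_⟩, ?_⟩
        · rw [Units.val_mul, ← mulVec_mulVec, hr1Q, hr2Q, Units.val_one, one_mul]
        · exact (H905.mem_sl_iff _).2 (by rw [Units.val_mul, det_mul, hr1, hr2]; ring)
      rw [← heq] at hmem
      let i0 : Fin t := ⟨0, by omega⟩
      let i1 : Fin t := ⟨1, by omega⟩
      let i2 : Fin t := ⟨2, by omega⟩
      let x : ι → F := Ψ.symm (Pi.single i0 w0)
      have hx : Ψ x = Pi.single i0 w0 := LinearEquiv.apply_symm_apply _ _
      have hxD : x ∈ D i0 := by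
        rw [hΨ]
        intro j hj
        rw [hx, Pi.single_eq_of_ne hj]
      have hpx : QuadraticMap.polar Q x v = B w0 z0 := by
        rw [hQdef, polar_frameForm hB, Finset.sum_eq_single i0]
        · rw [hx, hv, Pi.single_eq_same, if_pos (by simp [i0]; omega)]
        · intro j _ hj
          rw [hx, Pi.single_eq_of_ne hj, map_zero, LinearMap.zero_apply]
        · intro h; exact absurd (Finset.mem_univ _) h
      have hpx' : QuadraticMap.polar Q x v' = 0 := by
        rw [hQdef, polar_frameForm hB]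
        refine Finset.sum_eq_zero fun j _ => ?_
        by_cases hj : j = i0
        · have h1 : j ≠ ik := by
            rw [hj]; simp [i0, ik, Fin.ext_iff]; omega
          rw [hv', Pi.single_eq_of_ne h1, map_zero]
        · rw [hx, Pi.single_eq_of_ne hj, map_zero, LinearMap.zero_apply]
      have hgx : ((r1 * r2 : GL ι F) : Matrix ι ι F) *ᵥ x = x - B w0 z0 • v := by
        rw [Units.val_mul, ← mulVec_mulVec, hr2x, hpx', zero_smul, sub_zero, hr1x, hpx]
      have hBne : B w0 z0 ≠ 0 := by rwa [hsymm]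
      have hcomp : ∀ j : Fin t, j ≠ i0 → (j : ℕ) < k →
          Ψ (((r1 * r2 : GL ι F) : Matrix ι ι F) *ᵥ x) j ≠ 0 := by
        intro j hj hjk
        rw [hgx, map_sub, Pi.sub_apply, hx, Pi.single_eq_of_ne hj, map_smul, Pi.smul_apply, hv, if_pos hjk,
          zero_sub]
        exact neg_ne_zero.2 (smul_ne_zero hBne hz0)
      exact not_mem_of_two hΨ (j := i1) (k := i2) (by simp [i1, i2, Fin.ext_iff]) hxD
        (hcomp i1 (by simp [i0, i1, Fin.ext_iff]) (by simp [i1]; omega))
        (hcomp i2 (by simp [i0, i2, Fin.ext_iff]) (by simp [i2]; omega)) hmem.1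
  · refine lt_of_le_of_ne inf_le_right fun h => ?_
    exact H905.not_sl_le_quadSimilarityGroup hι hQ (by rw [← h]; exact inf_le_left)

end Cfsg.Agent.H872
end

-- part: S5635
section
set_option autoImplicit false
open Cfsg

namespace Cfsg.Agent.S5635

open Matrix Cfsg.Agent.H872

variable {F : Type*} [Field F]

/-- The unit form `z ↦ z₀²` in dimension one. -/
def sqB (F : Type*) [Field F] : (Fin 1 → F) →ₗ[F] (Fin 1 → F) →ₗ[F] F :=
  LinearMap.mk₂ F (fun z w => 2 * (z 0 * w 0))
    (fun a b c => by simp only [Pi.add_apply]; ring)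
    (fun a b c => by simp only [Pi.smul_apply, smul_eq_mul]; ring)
    (fun a b c => by simp only [Pi.add_apply]; ring)
    (fun a b c => by simp only [Pi.smul_apply, smul_eq_mul]; ring)

/-- The polar form of `z₀² + z₀ z₁ + z₁²`. -/
def nrB (F : Type*) [Field F] : (Fin 2 → F) →ₗ[F] (Fin 2 → F) →ₗ[F] F :=
  LinearMap.mk₂ F (fun z w => 2 * (z 0 * w 0) + z 0 * w 1 + z 1 * w 0 + 2 * (z 1 * w 1))
    (fun a b c => by simp only [Pi.add_apply]; ring)
    (fun a b c => by simp only [Pi.smul_apply, smul_eq_mul]; ring)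
    (fun a b c => by simp only [Pi.add_apply]; ring)
    (fun a b c => by simp only [Pi.smul_apply, smul_eq_mul]; ring)

theorem sqB_apply (z w : Fin 1 → F) : sqB F z w = 2 * (z 0 * w 0) := rfl

theorem nrB_apply (z w : Fin 2 → F) :
    nrB F z w = 2 * (z 0 * w 0) + z 0 * w 1 + z 1 * w 0 + 2 * (z 1 * w 1) := rfl

theorem card_eq {n m t : ℕ} {D : Fin t → Submodule F (Fin n → F)} (hD : Geo.IsMDecomposition m D) :
    n = t * m := by
  obtain ⟨Ψ, -⟩ := exists_coord hD
  have h := Ψ.finrank_eq
  rw [Module.finrank_fintype_fun_eq_card, Fintype.card_fin] at h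
  rw [h, Module.finrank_pi_fintype]
  simp

theorem one_three [Fintype F] {n t : ℕ} (hn : 13 ≤ n) {D : Fin t → Submodule F (Fin n → F)}
    (hD : Geo.IsMDecomposition 1 D) (hq : Fintype.card F = 3) :
    ∃ K : Subgroup (GL (Fin n) F), Geo.decompositionStabilizer D ⊓ Geo.specialLinear (Fin n) F < K ∧
      K < Geo.specialLinear (Fin n) F := by
  have h3 : (3 : F) = 0 := by
    have h := Nat.cast_card_eq_zero (R := F)
    rw [hq] at h
    exact_mod_cast h
  have h2 : (2 : F) ≠ 0 := by
    intro h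
    exact one_ne_zero (α := F) (by linear_combination h3 - h)
  have hc := card_eq hD
  refine exists_between_quad hD (by simp; omega) (N := fun z => z 0 ^ 2) (B := sqB F) ?_ ?_ ?_ ?_ ?_
    (k := 4) (by norm_num) (by omega) ?_
  · intro c z; simp only [Pi.smul_apply, smul_eq_mul]; ring
  · intro z w; simp only [Pi.add_apply, sqB_apply]; ring
  · intro z w; simp only [sqB_apply]; ring
  · intro z hz
    refine ⟨fun _ => 1, ?_⟩
    rw [sqB_apply]
    have : z 0 ≠ 0 := by
      intro h
      refine hz (funext fun i => ?_)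
      rw [Subsingleton.elim i 0, h]; rfl
    simp [this, h2]
  · intro z hz
    have : z 0 ≠ 0 := by
      intro h
      refine hz (funext fun i => ?_)
      rw [Subsingleton.elim i 0, h]; rfl
    have h4 := FiniteField.pow_card_sub_one_eq_one (z 0) this
    rw [hq] at h4
    exact h4
  · push_cast; linear_combination h3

theorem two_two [Fintype F] {n t : ℕ} (hn : 13 ≤ n) {D : Fin t → Submodule F (Fin n → F)}
    (hD : Geo.IsMDecomposition 2 D) (hq : Fintype.card F = 2) :
    ∃ K : Subgroup (GL (Fin n) F), Geo.decompositionStabilizer D ⊓ Geo.specialLinear (Fin n) F < K ∧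
      K < Geo.specialLinear (Fin n) F := by
  have h2 : (2 : F) = 0 := by
    have h := Nat.cast_card_eq_zero (R := F)
    rw [hq] at h
    exact_mod_cast h
  have h01 : ∀ a : F, a = 0 ∨ a = 1 := by
    intro a
    by_cases h : a = 0
    · exact Or.inl h
    · right
      have h4 := FiniteField.pow_card_sub_one_eq_one a h
      rw [hq] at h4
      simpa using h4
  have hc := card_eq hD
  refine exists_between_quad hD (by simp; omega) (N := fun z => z 0 ^ 2 + z 0 * z 1 + z 1 ^ 2) (B := nrB F)
    ?_ ?_ ?_ ?_ ?_ (k := 3) (by norm_num) (by omega) ?_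
  · intro c z; simp only [Pi.smul_apply, smul_eq_mul]; ring
  · intro z w; simp only [Pi.add_apply, nrB_apply]; ring
  · intro z w; simp only [nrB_apply]; ring
  · intro z hz
    by_cases h0 : z 0 = 0
    · refine ⟨![1, 0], ?_⟩
      have h1 : z 1 ≠ 0 := by
        intro h
        refine hz (funext fun i => ?_)
        fin_cases i
        · exact h0
        · exact h
      rw [nrB_apply]
      simp [h0, h1]
    · refine ⟨![0, 1], ?_⟩
      rw [nrB_apply, h2]
      simp [h0]
  · intro z hz
    rcases h01 (z 0) with h | h <;> rcases h01 (z 1) with h' | h'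
    · exfalso
      refine hz (funext fun i => ?_)
      fin_cases i
      · exact h
      · exact h'
    · simp [h, h']
    · simp [h, h']
    · simp only [h, h']; linear_combination h2
  · push_cast; linear_combination h2

theorem one_two [Fintype F] {n t : ℕ} (hn : 13 ≤ n) {D : Fin t → Submodule F (Fin n → F)}
    (hD : Geo.IsMDecomposition 1 D) (hq : Fintype.card F = 2) :
    ∃ K : Subgroup (GL (Fin n) F), Geo.decompositionStabilizer D ⊓ Geo.specialLinear (Fin n) F < K ∧
      K < Geo.specialLinear (Fin n) F := by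
  classical
  have h01 : ∀ a : F, a ≠ 0 → a = 1 := by
    intro a h
    have h4 := FiniteField.pow_card_sub_one_eq_one a h
    rw [hq] at h4
    simpa using h4
  have hc := card_eq hD
  obtain ⟨Ψ, hΨ⟩ := exists_coord hD
  let s : Fin n → F := Ψ.symm fun _ _ => 1
  have hs : ∀ i, Ψ s i = fun _ => 1 := fun i => by
    rw [LinearEquiv.apply_symm_apply]
  have hones : ∀ z : Fin 1 → F, z ≠ 0 → z = fun _ => 1 := by
    intro z hz
    funext i
    refine h01 _ fun h => hz (funext fun j => ?_)
    rw [Subsingleton.elim j i, h]; rfl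
  have hone0 : (fun _ => 1 : Fin 1 → F) ≠ 0 := fun h => one_ne_zero (congrFun h 0)
  have hfix : ∀ g ∈ Geo.decompositionStabilizer D, (g : Matrix (Fin n) (Fin n) F) *ᵥ s = s := by
    intro g hg
    obtain ⟨σ, A, hA, hgA⟩ := coord_of_mem hΨ hg
    apply Ψ.injective
    funext i
    obtain ⟨i, rfl⟩ := σ.surjective i
    rw [hgA, hs, hs]
    refine hones _ fun h => hone0 (hA i ?_)
    rw [h, map_zero]
  have hs0 : s ≠ 0 := by
    intro h
    have := hs ⟨0, by omega⟩
    rw [h, map_zero] at this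
    exact hone0 this.symm
  have h2 : (2 : F) = 0 := by
    have h := Nat.cast_card_eq_zero (R := F)
    rw [hq] at h
    exact_mod_cast h
  have hmem : ∀ g : GL (Fin n) F, (g : Matrix (Fin n) (Fin n) F) *ᵥ s = s →
      g ∈ Geo.subspaceStabilizer (Submodule.span F {s}) := by
    intro g hg
    have hg' : ((g⁻¹ : GL (Fin n) F) : Matrix (Fin n) (Fin n) F) *ᵥ s = s := by
      conv_lhs => rw [← hg]
      rw [mulVec_mulVec, ← Units.val_mul, inv_mul_cancel, Units.val_one, one_mulVec]
    intro v
    change v ∈ Submodule.span F {s} ↔ (g : Matrix (Fin n) (Fin n) F) *ᵥ v ∈ Submodule.span F {s}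
    rw [Submodule.mem_span_singleton, Submodule.mem_span_singleton]
    constructor
    · rintro ⟨c, rfl⟩
      exact ⟨c, by rw [mulVec_smul, hg]⟩
    · rintro ⟨c, hc⟩
      refine ⟨c, ?_⟩
      have h1 : v = ((g⁻¹ : GL (Fin n) F) : Matrix (Fin n) (Fin n) F) *ᵥ
          ((g : Matrix (Fin n) (Fin n) F) *ᵥ v) := by
        rw [mulVec_mulVec, ← Units.val_mul, inv_mul_cancel, Units.val_one, one_mulVec]
      rw [h1, ← hc, mulVec_smul, hg']
  refine ⟨Geo.subspaceStabilizer (Submodule.span F {s}) ⊓ Geo.specialLinear (Fin n) F, ?_, ?_⟩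
  · refine lt_of_le_of_ne (inf_le_inf_right _ fun g hg => hmem g (hfix g hg)) ?_
    intro heq
    let i0 : Fin t := ⟨0, by omega⟩
    let i1 : Fin t := ⟨1, by omega⟩
    let i2 : Fin t := ⟨2, by omega⟩
    have h02 : i0 ≠ i2 := by simp [i0, i2, Fin.ext_iff]
    have h12 : i1 ≠ i2 := by simp [i1, i2, Fin.ext_iff]
    have h01' : i0 ≠ i1 := by simp [i0, i1, Fin.ext_iff]
    let ψ : (Fin n → F) →ₗ[F] F :=
      (LinearMap.proj 0 ∘ₗ LinearMap.proj i0 ∘ₗ Ψ.toLinearMap) +
      (LinearMap.proj 0 ∘ₗ LinearMap.proj i1 ∘ₗ Ψ.toLinearMap)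
    have hψ : ∀ x, ψ x = Ψ x i0 0 + Ψ x i1 0 := fun x => rfl
    let e : Fin t → (Fin n → F) := fun i => Ψ.symm (Pi.single i fun _ => 1)
    have he : ∀ i, Ψ (e i) = Pi.single i fun _ => 1 := fun i => LinearEquiv.apply_symm_apply _ _
    have hψa : ψ (e i2) = 0 := by
      rw [hψ, he, Pi.single_eq_of_ne h02, Pi.single_eq_of_ne h12]
      simp
    have hψs : ψ s = 0 := by
      rw [hψ, hs, hs]
      linear_combination h2
    have h1 : 1 + ψ (e i2) ≠ 0 := by rw [hψa, add_zero]; exact one_ne_zero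
    have hg : dil ψ (e i2) h1 ∈ Geo.subspaceStabilizer (Submodule.span F {s}) ⊓
        Geo.specialLinear (Fin n) F := by
      refine ⟨hmem _ ?_, ?_⟩
      · rw [dil_mulVec, hψs, zero_smul, add_zero]
      · exact (H905.mem_sl_iff _).2 (by rw [det_dil, hψa, add_zero])
    rw [← heq] at hg
    have hx : (dil ψ (e i2) h1 : Matrix (Fin n) (Fin n) F) *ᵥ e i0 = e i0 + e i2 := by
      rw [dil_mulVec, hψ, he, Pi.single_eq_same, Pi.single_eq_of_ne h01'.symm]
      simp
    refine not_mem_of_two hΨ (i := i0) (j := i0) (k := i2) h02 (x := e i0) ?_ ?_ ?_ hg.1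
    · rw [hΨ]
      intro j hj
      rw [he, Pi.single_eq_of_ne hj]
    · rw [hx, map_add, Pi.add_apply, he, he, Pi.single_eq_same, Pi.single_eq_of_ne h02, add_zero]
      exact hone0
    · rw [hx, map_add, Pi.add_apply, he, he, Pi.single_eq_same, Pi.single_eq_of_ne h02.symm, zero_add]
      exact hone0
  · refine lt_of_le_of_ne inf_le_right fun h => ?_
    refine H905.not_sl_le_subspaceStabilizer (W := Submodule.span F {s}) ?_ ?_ (by rw [← h]; exact inf_le_left)
    · rwa [Ne, Submodule.span_singleton_eq_bot]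
    · intro htop
      have h3 : Module.finrank F (Submodule.span F {s}) ≤ 1 := by
        simpa using finrank_span_le_card (R := F) ({s} : Set (Fin n → F))
      rw [htop, finrank_top, Module.finrank_fintype_fun_eq_card, Fintype.card_fin] at h3
      omega

theorem one_four [Fintype F] {n t : ℕ} (hn : 13 ≤ n) {D : Fin t → Submodule F (Fin n → F)}
    (hD : Geo.IsMDecomposition 1 D) (hq : Fintype.card F = 4) :
    ∃ K : Subgroup (GL (Fin n) F), Geo.decompositionStabilizer D ⊓ Geo.specialLinear (Fin n) F < K ∧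
      K < Geo.specialLinear (Fin n) F := by
  classical
  have h4 : ∀ a : F, a ≠ 0 → a ^ 3 = 1 := by
    intro a h
    have h4 := FiniteField.pow_card_sub_one_eq_one a h
    rw [hq] at h4
    simpa using h4
  have h4' : ∀ a : F, a ^ 4 = a := by
    intro a
    have h := FiniteField.pow_card a
    rwa [hq] at h
  have h2 : (2 : F) = 0 := by
    have h := Nat.cast_card_eq_zero (R := F)
    rw [hq] at h
    have h5 : (2 : F) * 2 = 0 := by
      have : ((4 : ℕ) : F) = 2 * 2 := by norm_num
      rw [← this]; exact_mod_cast h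
    exact (mul_self_eq_zero.1 h5)
  have _hch : CharP F 2 := by
    have hr : ringChar F ∣ 2 := ringChar.dvd (by exact_mod_cast h2)
    have hr1 : ringChar F ≠ 1 := CharP.ringChar_ne_one
    have hr2 : ringChar F = 2 := by
      rcases (Nat.dvd_prime Nat.prime_two).1 hr with h | h
      · exact absurd h hr1
      · exact h
    rw [← hr2]; infer_instance
  let σ : F ≃+* F := frobeniusEquiv F 2
  have hσ : ∀ a, σ a = a ^ 2 := fun a => frobeniusEquiv_apply F 2 a
  have hc := card_eq hD
  obtain ⟨Ψ, hΨ⟩ := exists_coord hD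
  let f : (Fin n → F) → (Fin n → F) → F := fun v w => ∑ i, Ψ v i 0 * (Ψ w i 0) ^ 2
  have hf : ∀ v w, f v w = ∑ i, Ψ v i 0 * (Ψ w i 0) ^ 2 := fun v w => rfl
  have hfl : ∀ x y v, f (x + y) v = f x v + f y v := by
    intro x y v
    rw [hf, hf, hf, ← Finset.sum_add_distrib]
    refine Finset.sum_congr rfl fun i _ => ?_
    rw [map_add, Pi.add_apply, Pi.add_apply]; ring
  have hfs : ∀ (c : F) x v, f (c • x) v = c * f x v := by
    intro c x v
    rw [hf, hf, Finset.mul_sum]
    refine Finset.sum_congr rfl fun i _ => ?_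
    rw [map_smul, Pi.smul_apply, Pi.smul_apply, smul_eq_mul]; ring
  have hfh : ∀ v w, f v w = σ (f w v) := by
    intro v w
    rw [hf, hf, map_sum]
    refine Finset.sum_congr rfl fun i _ => ?_
    rw [hσ, mul_pow, ← pow_mul, h4']; ring
  have hone : ∀ z : Fin 1 → F, z ≠ 0 → z 0 ≠ 0 := by
    intro z hz h
    refine hz (funext fun j => ?_)
    rw [Subsingleton.elim j 0, h]; rfl
  let e : Fin t → (Fin n → F) := fun i => Ψ.symm (Pi.single i fun _ => 1)
  have he : ∀ i, Ψ (e i) = Pi.single i fun _ => 1 := fun i => LinearEquiv.apply_symm_apply _ _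
  have hfe : ∀ v i, f v (e i) = Ψ v i 0 := by
    intro v i
    rw [hf, Finset.sum_eq_single i]
    · rw [he, Pi.single_eq_same]; ring
    · intro j _ hj
      rw [he, Pi.single_eq_of_ne hj]; simp
    · intro h; exact absurd (Finset.mem_univ _) h
  have hF : Geo.IsUnitaryForm σ f := by
    refine ⟨?_, ?_, hfl, hfs, hfh, ?_⟩
    · intro h
      have h5 : ∀ a : F, a ^ 2 = a := by
        intro a; rw [← hσ, h]; rfl
      have h6 : Fintype.card F ≤ 2 := by
        rw [← Finset.card_univ]
        have : (Finset.univ : Finset F) ⊆ {0, 1} := by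
          intro a _
          have h7 : a * (a - 1) = 0 := by linear_combination h5 a
          rcases mul_eq_zero.1 h7 with h8 | h8
          · simp [h8]
          · simp [sub_eq_zero.1 h8]
        exact (Finset.card_le_card this).trans Finset.card_le_two
      omega
    · intro a; rw [hσ, hσ, ← pow_mul]; exact h4' a
    · intro v hv
      have h1 : ∃ i, Ψ v i ≠ 0 := by
        by_contra hcon
        push Not at hcon
        exact hv (Ψ.map_eq_zero_iff.1 (funext hcon))
      obtain ⟨i, hi⟩ := h1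
      have h5 : f v (e i) ≠ 0 := by rw [hfe]; exact hone _ hi
      refine ⟨⟨e i, ?_⟩, e i, h5⟩
      rw [hfh]
      exact fun h => h5 (σ.map_eq_zero_iff.1 h)
  refine ⟨Geo.similarityGroup f ⊓ Geo.specialLinear (Fin n) F, ?_, ?_⟩
  · refine lt_of_le_of_ne (inf_le_inf_right _ ?_) ?_
    · intro g hg
      obtain ⟨τ, A, hA, hgA⟩ := coord_of_mem hΨ hg
      refine ⟨1, fun u v => ?_⟩
      rw [Units.val_one, one_mul, hf, hf, ← Equiv.sum_comp τ]
      refine Finset.sum_congr rfl fun i _ => ?_
      rw [hgA, hgA]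
      have hA1 : ∀ z : Fin 1 → F, A i z 0 = z 0 * A i (fun _ => 1) 0 := by
        intro z
        have : z = z 0 • (fun _ => 1 : Fin 1 → F) := by
          funext j; rw [Subsingleton.elim j 0]; simp
        conv_lhs => rw [this]
        rw [map_smul]; rfl
      have hA2 : A i (fun _ => 1) 0 ≠ 0 := by
        refine hone _ fun h => ?_
        have : (fun _ => 1 : Fin 1 → F) = 0 := hA i (by rw [h, map_zero])
        exact one_ne_zero (congrFun this 0)
      rw [hA1, hA1 (Ψ v i), mul_pow]
      linear_combination (Ψ u i 0 * Ψ v i 0 ^ 2) * h4 _ hA2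
    · intro heq
      let i0 : Fin t := ⟨0, by omega⟩
      let i1 : Fin t := ⟨1, by omega⟩
      let i2 : Fin t := ⟨2, by omega⟩
      let i3 : Fin t := ⟨3, by omega⟩
      have h01' : i0 ≠ i1 := by simp [i0, i1, Fin.ext_iff]
      have h02 : i0 ≠ i2 := by simp [i0, i2, Fin.ext_iff]
      have h03 : i0 ≠ i3 := by simp [i0, i3, Fin.ext_iff]
      have h12 : i1 ≠ i2 := by simp [i1, i2, Fin.ext_iff]
      have h13 : i1 ≠ i3 := by simp [i1, i3, Fin.ext_iff]
      have h23 : i2 ≠ i3 := by simp [i2, i3, Fin.ext_iff]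
      let a : Fin n → F := e i0 + e i1 + e i2 + e i3
      have hfr : ∀ v x y, f v (x + y) = f v x + f v y := by
        intro v x y
        rw [hfh v (x + y), hfl, map_add, ← hfh, ← hfh]
      have hfrs : ∀ (c : F) v x, f v (c • x) = c ^ 2 * f v x := by
        intro c v x
        rw [hfh v (c • x), hfs, map_mul, ← hfh, hσ]
      have htv : ∀ b, f b b = 0 → ∀ u v, f (u + f u b • b) (v + f v b • b) = f u v := by
        intro b hb u v
        rw [hfl, hfr, hfr, hfs, hfs, hfrs, hfrs, hb]
        have h5 : f b v = (f v b) ^ 2 := by rw [hfh, hσ]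
        rw [h5]
        linear_combination (f u b * f v b ^ 2) * h2
      have hfa : ∀ v, f v a = Ψ v i0 0 + Ψ v i1 0 + Ψ v i2 0 + Ψ v i3 0 := by
        intro v
        rw [hfr, hfr, hfr, hfe, hfe, hfe, hfe]
      have hΨa : ∀ i, Ψ a i = (Pi.single i0 (fun _ => 1) : Fin t → Fin 1 → F) i +
          (Pi.single i1 (fun _ => 1) : Fin t → Fin 1 → F) i + (Pi.single i2 (fun _ => 1) : Fin t → Fin 1 → F) i +
          (Pi.single i3 (fun _ => 1) : Fin t → Fin 1 → F) i := by
        intro i
        change Ψ (e i0 + e i1 + e i2 + e i3) i = _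
        rw [map_add, map_add, map_add, he, he, he, he]
        rfl
      have hΨa0 : Ψ a i0 0 = 1 := by
        rw [hΨa, Pi.single_eq_same, Pi.single_eq_of_ne h01', Pi.single_eq_of_ne h02, Pi.single_eq_of_ne h03]; simp
      have hΨa1 : Ψ a i1 0 = 1 := by
        rw [hΨa, Pi.single_eq_same, Pi.single_eq_of_ne h01'.symm, Pi.single_eq_of_ne h12, Pi.single_eq_of_ne h13]
        simp
      have hΨa2 : Ψ a i2 0 = 1 := by
        rw [hΨa, Pi.single_eq_same, Pi.single_eq_of_ne h02.symm, Pi.single_eq_of_ne h12.symm,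
          Pi.single_eq_of_ne h23]
        simp
      have hΨa3 : Ψ a i3 0 = 1 := by
        rw [hΨa, Pi.single_eq_same, Pi.single_eq_of_ne h03.symm, Pi.single_eq_of_ne h13.symm,
          Pi.single_eq_of_ne h23.symm]
        simp
      let ψ : (Fin n → F) →ₗ[F] F :=
        { toFun := fun x => f x a
          map_add' := fun x y => hfl x y a
          map_smul' := fun c x => hfs c x a }
      have hψ : ∀ x, ψ x = f x a := fun x => rfl
      have hψa : ψ a = 0 := by
        rw [hψ, hfa, hΨa0, hΨa1, hΨa2, hΨa3]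
        linear_combination 2 * h2
      have h1 : 1 + ψ a ≠ 0 := by rw [hψa, add_zero]; exact one_ne_zero
      have hg : dil ψ a h1 ∈ Geo.similarityGroup f ⊓ Geo.specialLinear (Fin n) F := by
        refine ⟨⟨1, fun u v => ?_⟩, ?_⟩
        · rw [dil_mulVec, dil_mulVec, hψ, hψ, Units.val_one, one_mul]
          exact htv a hψa u v
        · exact (H905.mem_sl_iff _).2 (by rw [det_dil, hψa, add_zero])
      rw [← heq] at hg
      have hx : (dil ψ a h1 : Matrix (Fin n) (Fin n) F) *ᵥ e i0 = e i0 + a := by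
        rw [dil_mulVec, hψ, hfa, he, Pi.single_eq_same, Pi.single_eq_of_ne h01'.symm, Pi.single_eq_of_ne h02.symm,
          Pi.single_eq_of_ne h03.symm]
        simp
      refine not_mem_of_two hΨ (i := i0) (j := i1) (k := i2) h12 (x := e i0) ?_ ?_ ?_ hg.1
      · rw [hΨ]
        intro j hj
        rw [he, Pi.single_eq_of_ne hj]
      · rw [hx, map_add, Pi.add_apply, he, Pi.single_eq_of_ne h01'.symm, zero_add]
        intro h; rw [h] at hΨa1; exact zero_ne_one hΨa1
      · rw [hx, map_add, Pi.add_apply, he, Pi.single_eq_of_ne h02.symm, zero_add]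
        intro h; rw [h] at hΨa2; exact zero_ne_one hΨa2
  · refine lt_of_le_of_ne inf_le_right fun h => ?_
    exact H905.not_sl_le_similarityGroup_unitary (by simp; omega) hF (by rw [← h]; exact inf_le_left)

/-- For a finite field F with q elements and n ≥ 13, let D be a decomposition of F^n into t ≥ 2 independent subspaces of equal dimension m spanning F^n, where m = 1 and q ≤ 4, or m = 2 and q = 2. Then the elements of SL_n(F) permuting the members of D form a subgroup that is not maximal: some subgroup lies strictly between it and SL_n(F). -/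
theorem result {F : Type*} [Field F] [Fintype F] (n : ℕ) (hn : 13 ≤ n) {t : ℕ} (m : ℕ) (D : Fin t → Submodule F (Fin n → F)) (hD : Cfsg.Geo.IsMDecomposition m D) (h : (m = 1 ∧ Fintype.card F ≤ 4) ∨ (m = 2 ∧ Fintype.card F = 2)) : ∃ K : Subgroup (Matrix.GeneralLinearGroup (Fin n) F), Cfsg.Geo.decompositionStabilizer D ⊓ Cfsg.Geo.specialLinear (Fin n) F < K ∧ K < Cfsg.Geo.specialLinear (Fin n) F := by
  rcases h with ⟨rfl, hq⟩ | ⟨rfl, hq⟩
  · have h1 : 1 < Fintype.card F := Fintype.one_lt_card
    obtain h2 | h2 | h2 : Fintype.card F = 2 ∨ Fintype.card F = 3 ∨ Fintype.card F = 4 := by omega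
    · exact one_two hn hD h2
    · exact one_three hn hD h2
    · exact one_four hn hD h2
  · exact two_two hn hD hq

end Cfsg.Agent.S5635
end
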