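import Cfsg.Agent.H873.WrTwo1
import Cfsg.Agent.H880.TI
import Cfsg.Agent.H873.SubfieldMain
import Cfsg.Statements.S5641
set_option linter.all false

-- part: H873/WrTwo2
section
/-!
Two-element fields, `m = 3`: a swap is not a root of a good embedding.
-/

set_option autoImplicit false
set_option linter.unusedSectionVars false
set_option linter.unusedSimpArgs false
set_option linter.unusedVariables false

namespace Cfsg.Agent.H873.Wr

open Matrix Cfsg.Agent.H919 Cfsg.Geo

/-- group commutator -/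
def K {G : Type*} [Group G] (a b : G) : G := a * b * a⁻¹ * b⁻¹

theorem map_K {G G' : Type*} [Group G] [Group G'] (f : G →* G') (a b : G) : f (K a b) = K (f a) (f b) := by
  simp only [K, map_mul, map_inv]

theorem K_one_of_comm {G : Type*} [Group G] {a b : G} (h : a * b = b * a) : K a b = 1 := by
  rw [K, h, mul_inv_cancel_right, mul_inv_cancel]

section ClassTwo

variable {F : Type*} [Field F]

/-- decomposition of the plane `ker φ` in dimension three -/
theorem exists_plane {e φ : Fin 3 → F} (he : e ≠ 0) (hφ : φ ≠ 0) (h0 : φ ⬝ᵥ e = 0) :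
    ∃ k v : Fin 3 → F, φ ⬝ᵥ k = 0 ∧ φ ⬝ᵥ v = 1 ∧ (∀ c : F, k ≠ c • e) ∧
      ∀ u : Fin 3 → F, ∃ a b c : F, u = a • e + b • k + c • v := by
  obtain ⟨v, hv⟩ := exists_dot_one hφ
  obtain ⟨ψ, hψ, hψe, hψv⟩ := exists_two (a := e) (b := v) le_rfl
  obtain ⟨k0, hk0⟩ := exists_dot_one hψ
  -- k := k0 - (φ k0) v
  set k := k0 - (φ ⬝ᵥ k0) • v with hk
  have h1 : φ ⬝ᵥ k = 0 := by rw [hk, dotProduct_sub, dotProduct_smul, hv]; simp
  have h2 : ψ ⬝ᵥ k = 1 := by rw [hk, dotProduct_sub, dotProduct_smul, hψv, hk0]; simp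
  obtain ⟨ε, hε⟩ := exists_dot_one' he
  refine ⟨k, v, h1, hv, ?_, ?_⟩
  · rintro c hc
    rw [hc, dotProduct_smul, hψe, smul_zero] at h2
    exact zero_ne_one h2
  · have hli : LinearIndependent F ![e, k, v] := by
      rw [Fintype.linearIndependent_iff]
      intro g hg
      rw [Fin.sum_univ_three] at hg
      simp only [cons_val_zero, cons_val_one, cons_val_two, tail_cons, head_cons, cons_val] at hg
      have g2 : g 2 = 0 := by
        have := congrArg (fun z => φ ⬝ᵥ z) hg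
        simpa [dotProduct_add, dotProduct_smul, h0, h1, hv] using this
      have g1 : g 1 = 0 := by
        have := congrArg (fun z => ψ ⬝ᵥ z) hg
        simpa [dotProduct_add, dotProduct_smul, hψe, h2, hψv] using this
      have g0 : g 0 = 0 := by
        rw [g1, g2, zero_smul, zero_smul, add_zero, add_zero] at hg
        exact (smul_eq_zero.1 hg).resolve_right he
      intro i
      fin_cases i
      · exact g0
      · exact g1
      · exact g2
    have hspan := hli.span_eq_top_of_card_eq_finrank (by simp)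
    intro u
    have hu : u ∈ Submodule.span F (Set.range ![e, k, v]) := by rw [hspan]; trivial
    rw [Submodule.mem_span_range_iff_exists_fun] at hu
    obtain ⟨c, hc⟩ := hu
    rw [Fin.sum_univ_three] at hc
    simp only [cons_val_zero, cons_val_one, cons_val_two, tail_cons, head_cons, cons_val] at hc
    exact ⟨c 0, c 1, c 2, hc.symm⟩

/-- the stabiliser of a flag over the field of two elements -/
def Fl (e φ : Fin 3 → F) (a : GL (Fin 3) F) : Prop :=
  (a : Matrix (Fin 3) (Fin 3) F) *ᵥ e = e ∧ φ ᵥ* (a : Matrix (Fin 3) (Fin 3) F) = φ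

theorem Fl.prod (hT : Two F) {e φ : Fin 3 → F} (he : e ≠ 0) (hφ : φ ≠ 0) (h0 : φ ⬝ᵥ e = 0)
    {a b : GL (Fin 3) F} (ha : Fl e φ a) (hb : Fl e φ b) :
    ∃ c : F, ((a : Matrix (Fin 3) (Fin 3) F) - 1) * ((b : Matrix (Fin 3) (Fin 3) F) - 1) = c • vecMulVec e φ := by
  obtain ⟨k, v, hk, hv, hke, hspan⟩ := exists_plane he hφ h0
  -- images of vectors of `ker φ`
  have h1 : ∀ {g : GL (Fin 3) F}, Fl e φ g → ∀ u, φ ⬝ᵥ u = 0 → ∃ a b : F, u = a • e + b • k := by
    intro g hg u hu
    obtain ⟨a, b, c, rfl⟩ := hspan u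
    rw [dotProduct_add, dotProduct_add, dotProduct_smul, dotProduct_smul, dotProduct_smul, h0, hk, hv] at hu
    simp at hu
    exact ⟨a, b, by rw [hu, zero_smul, add_zero]⟩
  have h2 : ∀ {g : GL (Fin 3) F}, Fl e φ g → ∀ u, φ ⬝ᵥ (((g : Matrix (Fin 3) (Fin 3) F) - 1) *ᵥ u) = 0 := by
    intro g hg u
    rw [sub_mulVec, dotProduct_sub, dotProduct_mulVec, hg.2, one_mulVec, sub_self]
  have h3 : ∀ {g : GL (Fin 3) F}, Fl e φ g → ((g : Matrix (Fin 3) (Fin 3) F) - 1) *ᵥ e = 0 := by
    intro g hg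
    rw [sub_mulVec, hg.1, one_mulVec, sub_self]
  have h4 : ∀ {g : GL (Fin 3) F}, Fl e φ g → ∃ c : F, ((g : Matrix (Fin 3) (Fin 3) F) - 1) *ᵥ k = c • e := by
    intro g hg
    obtain ⟨a, b, hab⟩ := h1 hg _ (h2 hg k)
    rcases hT b with rfl | rfl
    · exact ⟨a, by rw [hab, zero_smul, add_zero]⟩
    · exfalso
      rw [sub_mulVec, one_mulVec, one_smul, sub_eq_iff_eq_add] at hab
      -- g k = a e
      have h5 : (g : Matrix (Fin 3) (Fin 3) F) *ᵥ k = a • e := by
        rw [hab, add_assoc, hT.add_self, add_zero]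
      have h6 : (g : Matrix (Fin 3) (Fin 3) F) *ᵥ (k - a • e) = 0 := by
        rw [mulVec_sub, mulVec_smul, hg.1, h5, sub_self]
      have h7 : k - a • e = 0 := by
        by_contra hne
        exact gl_mulVec_ne_zero g hne h6
      exact hke a (sub_eq_zero.1 h7)
  -- the product kills `e` and `k`
  obtain ⟨cb, hcb⟩ := h4 hb
  obtain ⟨p, q, hpq⟩ := h1 hb _ (h2 hb v)
  obtain ⟨ca, hca⟩ := h4 ha
  refine ⟨q * ca, ?_⟩
  have hprod : ∀ u, (((a : Matrix (Fin 3) (Fin 3) F) - 1) * ((b : Matrix (Fin 3) (Fin 3) F) - 1)) *ᵥ u =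
      ((q * ca) • vecMulVec e φ) *ᵥ u := by
    intro u
    obtain ⟨x, y, z, rfl⟩ := hspan u
    rw [← mulVec_mulVec]
    simp only [mulVec_add, mulVec_smul, h3 hb, hcb, hpq, smul_zero, zero_add, h3 ha, hca, smul_mulVec,
      vecMulVec_mulVec, h0, hk, hv, add_zero, smul_eq_mul, mul_one, op_smul_eq_smul, one_smul, zero_smul, smul_smul]
  exact Matrix.mulVec_injective (funext hprod)

/-- **class two** -/
theorem Fl.class_two (hT : Two F) {e φ : Fin 3 → F} (he : e ≠ 0) (hφ : φ ≠ 0) (h0 : φ ⬝ᵥ e = 0)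
    {a b c : GL (Fin 3) F} (ha : Fl e φ a) (hb : Fl e φ b) (hc : Fl e φ c) : K (K a b) c = 1 := by
  obtain ⟨s, hs⟩ := Fl.prod hT he hφ h0 ha hb
  obtain ⟨s', hs'⟩ := Fl.prod hT he hφ h0 hb ha
  set N := vecMulVec e φ with hN
  have hNl : ∀ {g : GL (Fin 3) F}, Fl e φ g → (g : Matrix (Fin 3) (Fin 3) F) * N = N := by
    intro g hg
    rw [hN, mul_vecMulVec, hg.1]
  have hNr : ∀ {g : GL (Fin 3) F}, Fl e φ g → N * (g : Matrix (Fin 3) (Fin 3) F) = N := by
    intro g hg
    rw [hN, vecMulVec_mul, hg.2]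
  -- a b = b a + (s - s') N
  have h1 : (a : Matrix (Fin 3) (Fin 3) F) * b = (b : Matrix (Fin 3) (Fin 3) F) * a + (s - s') • N := by
    have e1 : (a : Matrix (Fin 3) (Fin 3) F) * b - (b : Matrix (Fin 3) (Fin 3) F) * a =
        ((a : Matrix (Fin 3) (Fin 3) F) - 1) * ((b : Matrix (Fin 3) (Fin 3) F) - 1) -
        ((b : Matrix (Fin 3) (Fin 3) F) - 1) * ((a : Matrix (Fin 3) (Fin 3) F) - 1) := by noncomm_ring
    rw [hs, hs', ← sub_smul] at e1
    rw [← e1]
    abel
  have hNinv : ∀ {g : GL (Fin 3) F}, Fl e φ g → N * ((g⁻¹ : GL (Fin 3) F) : Matrix (Fin 3) (Fin 3) F) = N := by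
    intro g hg
    calc N * ((g⁻¹ : GL (Fin 3) F) : Matrix (Fin 3) (Fin 3) F) =
        N * (g : Matrix (Fin 3) (Fin 3) F) * ((g⁻¹ : GL (Fin 3) F) : Matrix (Fin 3) (Fin 3) F) := by rw [hNr hg]
      _ = N := by rw [mul_assoc, Units.mul_inv, mul_one]
  have h2 : ((K a b : GL (Fin 3) F) : Matrix (Fin 3) (Fin 3) F) = 1 + (s - s') • N := by
    rw [K, Units.val_mul, Units.val_mul, Units.val_mul, h1, add_mul, add_mul, mul_assoc ((b : Matrix (Fin 3) (Fin 3) F)),
      Units.mul_inv, mul_one, Units.mul_inv, smul_mul_assoc, hNinv ha, smul_mul_assoc, hNinv hb]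
  apply K_one_of_comm
  apply Units.ext
  rw [Units.val_mul, Units.val_mul, h2, add_mul, mul_add, one_mul, mul_one, smul_mul_assoc, mul_smul_comm, hNl hc,
    hNr hc]

end ClassTwo

section NoSwap

variable {κ : Type} [Fintype κ] [DecidableEq κ] [Nonempty κ] {F : Type*} [Field F]
  {ρ ρ' : Matrix (Fin 3) (Fin 3) F →ₐ[F] Matrix κ κ F} {M : Subgroup (GL κ F)}

/-- the centraliser of the image of `ρ` in the general linear group -/
def CenG {m : ℕ} (ρ : Matrix (Fin m) (Fin m) F →ₐ[F] Matrix κ κ F) : Subgroup (GL κ F) where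
  carrier := {r | Cen ρ (r : Matrix κ κ F)}
  one_mem' := cen_one ρ
  mul_mem' := fun {a b} ha hb => by
    change Cen ρ ((a * b : GL κ F) : Matrix κ κ F)
    rw [Units.val_mul]
    exact Cen.mul ha hb
  inv_mem' := fun {a} ha => by
    intro A
    exact (Commute.units_inv_right (ha A) : _)

/-- `ρ` on units -/
def UG {m : ℕ} (ρ : Matrix (Fin m) (Fin m) F →ₐ[F] Matrix κ κ F) : GL (Fin m) F →* GL κ F :=
  Units.map ρ.toRingHom.toMonoidHom

theorem UG_val {m : ℕ} (ρ : Matrix (Fin m) (Fin m) F →ₐ[F] Matrix κ κ F) (a : GL (Fin m) F) :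
    (UG ρ a : Matrix κ κ F) = ρ (a : Matrix (Fin m) (Fin m) F) := rfl

/-- pairs -/
def PG {m : ℕ} (ρ : Matrix (Fin m) (Fin m) F →ₐ[F] Matrix κ κ F) : GL (Fin m) F × CenG ρ →* GL κ F :=
  MonoidHom.noncommCoprod (UG ρ) (CenG ρ).subtype (by
    intro a r
    apply Units.ext
    rw [Units.val_mul, Units.val_mul]
    exact (r.2 _ : _))

theorem PG_apply {m : ℕ} (ρ : Matrix (Fin m) (Fin m) F →ₐ[F] Matrix κ κ F) (a : GL (Fin m) F) (r : CenG ρ) :
    PG ρ (a, r) = UG ρ a * r := rfl

/-- a commutator of commutators centralises `ρ'` -/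
theorem comm3_cen (hT : Two F) {e φ : Fin 3 → F} (he : e ≠ 0) (hφ : φ ≠ 0) (h0 : φ ⬝ᵥ e = 0) {g : Fin 3 → GL κ F}
    (hg : ∀ i, ∃ a : GL (Fin 3) F, Fl e φ a ∧ ∃ r : CenG ρ', g i = PG ρ' (a, r)) :
    K (K (g 0) (g 1)) (g 2) ∈ CenG ρ' := by
  choose a ha r hr using hg
  rw [hr 0, hr 1, hr 2, ← map_K, ← map_K]
  have h1 : K (K (a 0, r 0) (a 1, r 1)) (a 2, r 2) = (K (K (a 0) (a 1)) (a 2), K (K (r 0) (r 1)) (r 2)) := rfl
  rw [h1, Fl.class_two hT he hφ h0 (ha 0) (ha 1) (ha 2), PG_apply, map_one, one_mul]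
  exact Subtype.property _

/-- the diagonal of `ρ` and its conjugate by an involution -/
def diagG {m : ℕ} {ρ : Matrix (Fin m) (Fin m) F →ₐ[F] Matrix κ κ F} {x : GL κ F} (hc : Comm ρ (cj x ρ)) :
    GL (Fin m) F →* GL κ F :=
  MonoidHom.mk' (fun a => UG ρ a * (x * UG ρ a * x⁻¹)) (by
    intro a b
    have h1 : (x * UG ρ a * x⁻¹) * UG ρ b = UG ρ b * (x * UG ρ a * x⁻¹) := by
      apply Units.ext
      have h2 := hc (b : Matrix (Fin m) (Fin m) F) (a : Matrix (Fin m) (Fin m) F)
      rw [Units.val_mul, Units.val_mul]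
      exact h2.symm
    rw [map_mul]
    calc UG ρ a * UG ρ b * (x * (UG ρ a * UG ρ b) * x⁻¹)
        = UG ρ a * (UG ρ b * (x * UG ρ a * x⁻¹)) * (x * UG ρ b * x⁻¹) := by group
      _ = _ := by rw [← h1]; group)

theorem diagG_apply {m : ℕ} {ρ : Matrix (Fin m) (Fin m) F →ₐ[F] Matrix κ κ F} {x : GL κ F} (hc : Comm ρ (cj x ρ))
    (a : GL (Fin m) F) : diagG hc a = UG ρ a * (x * UG ρ a * x⁻¹) := rfl

theorem diagG_commute {m : ℕ} {ρ : Matrix (Fin m) (Fin m) F →ₐ[F] Matrix κ κ F} {x : GL κ F} (hc : Comm ρ (cj x ρ))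
    (hxx : x * x = 1) (a : GL (Fin m) F) : x * diagG hc a * x⁻¹ = diagG hc a := by
  have hxi : x⁻¹ = x := by rw [inv_eq_iff_mul_eq_one, hxx]
  have h1 : (x * UG ρ a * x) * UG ρ a = UG ρ a * (x * UG ρ a * x) := by
    apply Units.ext
    have h2 := hc (a : Matrix (Fin m) (Fin m) F) (a : Matrix (Fin m) (Fin m) F)
    rw [cj_apply, conjA_apply, hxi] at h2
    rw [Units.val_mul, Units.val_mul]
    exact h2.symm
  rw [diagG_apply, hxi]
  calc x * (UG ρ a * (x * UG ρ a * x)) * x = x * UG ρ a * x * UG ρ a * (x * x) := by group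
    _ = _ := by rw [hxx, mul_one, h1]

/-- transvections are double commutators -/
theorem tv_double (a α : Fin 3 → F) (h : α ⬝ᵥ a = 0) : ∃ A : Fin 3 → GL (Fin 3) F, tv a α h = K (K (A 0) (A 1)) (A 2) := by
  obtain ⟨b, β, h1, h2, h3⟩ := exists_bridge a α le_rfl
  obtain ⟨b', β', h1', h2', h3'⟩ := exists_bridge a β le_rfl
  refine ⟨![tv a β' h2', tv b' β h1', tv b α h1], ?_⟩
  change tv a α h = K (K (tv a β' h2') (tv b' β h1')) (tv b α h1)
  rw [K, K, tv_commutator h2 h1' h2' h3', tv_commutator h h1 h2 h3]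

/-- **A swap is not a root of a good embedding** (`m = 3`). -/
theorem no_swap (hT : Two F) (h : GE M ρ) (h' : GE M ρ') {e' φ' : Fin 3 → F} (he' : e' ≠ 0) (hφ' : φ' ≠ 0)
    (hφe' : φ' ⬝ᵥ e' = 0) {x : GL κ F} (hx : x ∈ M) (hxY : (x : Matrix κ κ F) = 1 + rk ρ' e' φ')
    (hc : Comm ρ (cj x ρ))
    (hP : rk ρ (Pi.single 0 1) (Pi.single 0 1) * rk (cj x ρ) (Pi.single 0 1) (Pi.single 0 1) * (x : Matrix κ κ F) =
      rk ρ (Pi.single 0 1) (Pi.single 0 1) * rk (cj x ρ) (Pi.single 0 1) (Pi.single 0 1)) : False := by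
  have hYY := rk_sq (ρ := ρ') hφe'
  have hxx' : (x : Matrix κ κ F) * (x : Matrix κ κ F) = 1 := by
    rw [hxY, mul_add, add_mul, add_mul, hYY, mul_one, one_mul, mul_one, add_zero, add_assoc, hT.add_self, add_zero]
  have hxx : x * x = 1 := Units.ext (by rw [Units.val_mul, hxx', Units.val_one])
  have hxi : x⁻¹ = x := by rw [inv_eq_iff_mul_eq_one, hxx]
  -- elements of the diagonal
  have hdiag : ∀ A : GL (Fin 3) F, ∃ a : GL (Fin 3) F, Fl e' φ' a ∧ ∃ r : CenG ρ', diagG hc A = PG ρ' (a, r) := by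
    intro A
    have hA : UG ρ A ∈ M := by
      obtain ⟨g, hg, he⟩ := h.sl (A : Matrix (Fin 3) (Fin 3) F) (hT.det A)
      have : UG ρ A = g := Units.ext (by rw [he, UG_val])
      rw [this]; exact hg
    have hdM : diagG hc A ∈ M := M.mul_mem hA (M.mul_mem (M.mul_mem hx hA) (M.inv_mem hx))
    have hcomm := diagG_commute hc hxx A
    have hcx : diagG hc A * x = x * diagG hc A := by
      have := congrArg (fun z => z * x) hcomm
      simp only [inv_mul_cancel_right] at this
      exact this.symm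
    have hcx' : Commute ((diagG hc A : GL κ F) : Matrix κ κ F) (x : Matrix κ κ F) := by
      have := congrArg (fun z : GL κ F => (z : Matrix κ κ F)) hcx
      rw [Units.val_mul, Units.val_mul] at this
      exact this
    have hcY : Commute ((diagG hc A : GL κ F) : Matrix κ κ F) (rk ρ' e' φ') := by
      have : rk ρ' e' φ' = (x : Matrix κ κ F) - 1 := by rw [hxY]; abel
      rw [this]
      exact hcx'.sub_right (Commute.one_right _)
    have hnorm := h'.normalises le_rfl hdM he' hφ' (c := 1) one_ne_zero (by rw [conjA_eq_self hcY, one_smul])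
    obtain ⟨a, r, hr, he⟩ := exists_factor (by norm_num) hnorm
    refine ⟨a, ?_, ⟨r, hr⟩, Units.ext he⟩
    -- the component commutes with the transvection
    have h1 : rk ρ' ((a : Matrix (Fin 3) (Fin 3) F) *ᵥ e') φ' = rk ρ' e' (φ' ᵥ* (a : Matrix (Fin 3) (Fin 3) F)) := by
      have h2 : ρ' (a : Matrix (Fin 3) (Fin 3) F) * rk ρ' e' φ' * (r : Matrix κ κ F) =
          rk ρ' e' φ' * ρ' (a : Matrix (Fin 3) (Fin 3) F) * (r : Matrix κ κ F) := by
        have h3 := hcY.eq
        rw [he, mul_assoc, ← hr.rk] at h3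
        rw [mul_assoc, h3, mul_assoc]
      have h3 := congrArg (fun z => z * ((r⁻¹ : GL κ F) : Matrix κ κ F)) h2
      simp only [mul_assoc, Units.mul_inv, mul_one] at h3
      rwa [map_mul_rk, rk_mul_map] at h3
    have h2 : vecMulVec ((a : Matrix (Fin 3) (Fin 3) F) *ᵥ e') φ' =
        vecMulVec e' (φ' ᵥ* (a : Matrix (Fin 3) (Fin 3) F)) := ρ_injective ρ' h1
    have h3 : (a : Matrix (Fin 3) (Fin 3) F) *ᵥ e' ≠ 0 := gl_mulVec_ne_zero a he'
    obtain ⟨v, hv⟩ := exists_dot_one hφ'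
    have h4 := congrArg (fun Z => Z *ᵥ v) h2
    simp only [vecMulVec_mulVec, hv, op_smul_eq_smul, one_smul] at h4
    have h5 : (φ' ᵥ* (a : Matrix (Fin 3) (Fin 3) F)) ⬝ᵥ v = 1 := by
      apply hT.eq_one
      intro h6
      rw [h6, zero_smul] at h4
      exact h3 h4
    rw [h5, one_smul] at h4
    refine ⟨h4, ?_⟩
    rw [h4] at h2
    obtain ⟨ε, hε⟩ := exists_dot_one' he'
    have h6 := congrArg (fun Z => ε ᵥ* Z) h2
    simp only [vecMul_vecMulVec, hε, one_smul] at h6
    exact h6.symm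
  -- diagonal transvections centralise `ρ'`
  have hcen : ∀ (a α : Fin 3 → F) (h0 : α ⬝ᵥ a = 0), Cen ρ' ((diagG hc (tv a α h0) : GL κ F) : Matrix κ κ F) := by
    intro a α h0
    obtain ⟨A, hA⟩ := tv_double a α h0
    rw [hA, map_K, map_K]
    exact comm3_cen hT he' hφ' hφe' (g := fun i => diagG hc (A i)) fun i => hdiag (A i)
  have h01 : (Pi.single 1 1 : Fin 3 → F) ⬝ᵥ Pi.single 0 1 = 0 := by simp
  have h02 : (Pi.single 2 1 : Fin 3 → F) ⬝ᵥ Pi.single 0 1 = 0 := by simp
  set e : Fin 3 → F := Pi.single 0 1 with he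
  set N1 := rk ρ e (Pi.single 1 1) with hN1
  set N2 := rk ρ e (Pi.single 2 1) with hN2
  set N1' := rk (cj x ρ) e (Pi.single 1 1) with hN1'
  set N2' := rk (cj x ρ) e (Pi.single 2 1) with hN2'
  have hee : (Pi.single 0 1 : Fin 3 → F) ⬝ᵥ Pi.single 0 1 = 1 := by simp
  have hz1 : Cen ρ' (N1 + N1' + N1 * N1') := by
    have h1 := hcen e (Pi.single 1 1) h01
    have h2 : ((diagG hc (tv e (Pi.single 1 1) h01) : GL κ F) : Matrix κ κ F) = 1 + (N1 + N1' + N1 * N1') := by
      change ρ (1 + vecMulVec e (Pi.single 1 1)) * (cj x ρ) (1 + vecMulVec e (Pi.single 1 1)) = _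
      rw [map_add, map_add, map_one, map_one]
      change (1 + N1) * (1 + N1') = _
      noncomm_ring
    rw [h2] at h1
    have h3 := h1.sub (cen_one ρ')
    rwa [add_sub_cancel_left] at h3
  have hz2 : Cen ρ' (N2 + N2' + N2 * N2') := by
    have h1 := hcen e (Pi.single 2 1) h02
    have h2 : ((diagG hc (tv e (Pi.single 2 1) h02) : GL κ F) : Matrix κ κ F) = 1 + (N2 + N2' + N2 * N2') := by
      change ρ (1 + vecMulVec e (Pi.single 2 1)) * (cj x ρ) (1 + vecMulVec e (Pi.single 2 1)) = _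
      rw [map_add, map_add, map_one, map_one]
      change (1 + N2) * (1 + N2') = _
      noncomm_ring
    rw [h2] at h1
    have h3 := h1.sub (cen_one ρ')
    rwa [add_sub_cancel_left] at h3
  have b1 : N1 * N2 = 0 := by rw [hN1, hN2, rk_mul_rk, h01, zero_smul]
  have b2 : N1' * N2' = 0 := by rw [hN1', hN2', rk_mul_rk, h01, zero_smul]
  have b3 : N1' * N2 = N2 * N1' := (hc _ _ : Commute N2 N1').eq.symm
  have b5 : N1' * N1 = N1 * N1' := (hc _ _ : Commute N1 N1').eq.symm
  have b6 : N2' * N2 = N2 * N2' := (hc _ _ : Commute N2 N2').eq.symm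
  have hz : (N1 + N1' + N1 * N1') * (N2 + N2' + N2 * N2') = N1 * N2' + N2 * N1' := by
    have e1 : N1 * (N2 * N2') = 0 := by rw [← mul_assoc, b1, zero_mul]
    have e2 : N1' * (N2 * N2') = 0 := by rw [← mul_assoc, b3, mul_assoc, b2, mul_zero]
    have e3 : N1 * N1' * N2 = 0 := by rw [mul_assoc, b3, ← mul_assoc, b1, zero_mul]
    have e4 : N1 * N1' * N2' = 0 := by rw [mul_assoc, b2, mul_zero]
    have e5 : N1 * N1' * (N2 * N2') = 0 := by rw [← mul_assoc, e3, zero_mul]
    rw [add_mul, add_mul, mul_add, mul_add, mul_add, mul_add, mul_add, mul_add, b1, e1, b2, e2, e3, e4, e5, b3]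
    simp
  have hzcen : Cen ρ' (N1 * N2' + N2 * N1') := by rw [← hz]; exact hz1.mul hz2
  -- right multiplication by x
  have hxcj : ∀ b β : Fin 3 → F, rk (cj x ρ) b β * (x : Matrix κ κ F) = (x : Matrix κ κ F) * rk ρ b β := by
    intro b β
    rw [rk_cj, conjA_apply, mul_assoc, Units.inv_mul, mul_one]
  have hxcj' : ∀ b β : Fin 3 → F, rk ρ b β * (x : Matrix κ κ F) = (x : Matrix κ κ F) * rk (cj x ρ) b β := by
    intro b β
    rw [rk_cj, conjA_apply, hxi, ← mul_assoc, ← mul_assoc, hxx', one_mul]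
  have hNx : ∀ β γ : Fin 3 → F, rk ρ e β * rk (cj x ρ) e γ * (x : Matrix κ κ F) = rk ρ e γ * rk (cj x ρ) e β := by
    intro β γ
    have e1 : rk ρ e β * rk (cj x ρ) e γ = (rk ρ e e * rk (cj x ρ) e e) * (rk ρ e β * rk (cj x ρ) e γ) := by
      have e2 : rk (cj x ρ) e e * rk ρ e β = rk ρ e β * rk (cj x ρ) e e := (hc _ _ : Commute (rk ρ e β) (rk (cj x ρ) e e)).eq.symm
      rw [mul_assoc, ← mul_assoc (rk (cj x ρ) e e), e2, mul_assoc (rk ρ e β), rk_mul_rk, ← mul_assoc, rk_mul_rk, hee,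
        one_smul, one_smul]
    have e3 : rk ρ e β * rk (cj x ρ) e γ * (x : Matrix κ κ F) = (x : Matrix κ κ F) * (rk ρ e γ * rk (cj x ρ) e β) := by
      have e5 : rk (cj x ρ) e β * rk ρ e γ = rk ρ e γ * rk (cj x ρ) e β :=
        (hc _ _ : Commute (rk ρ e γ) (rk (cj x ρ) e β)).eq.symm
      rw [mul_assoc, hxcj, ← mul_assoc, hxcj', mul_assoc, e5]
    have e4 : rk ρ e γ * rk (cj x ρ) e β = (rk ρ e e * rk (cj x ρ) e e) * (rk ρ e γ * rk (cj x ρ) e β) := by
      have e2 : rk (cj x ρ) e e * rk ρ e γ = rk ρ e γ * rk (cj x ρ) e e := (hc _ _ : Commute (rk ρ e γ) (rk (cj x ρ) e e)).eq.symm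
      rw [mul_assoc, ← mul_assoc (rk (cj x ρ) e e), e2, mul_assoc (rk ρ e γ), rk_mul_rk, ← mul_assoc, rk_mul_rk, hee,
        one_smul, one_smul]
    rw [e1, mul_assoc, e3, ← mul_assoc, hP, ← e4]
  have hzx : (N1 * N2' + N2 * N1') * (x : Matrix κ κ F) = N1 * N2' + N2 * N1' := by
    rw [add_mul, hN1, hN2', hNx, hN2, hN1', hNx, add_comm]
  have hzY : rk ρ' e' φ' * (N1 * N2' + N2 * N1') = 0 := by
    rw [hzcen.rk]
    have : rk ρ' e' φ' = (x : Matrix κ κ F) - 1 := by rw [hxY]; abel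
    rw [this, mul_sub, hzx, mul_one, sub_self]
  have hz0 := hzcen.eq_zero he' hφ' hzY
  -- but z is not zero
  have h1 : rk ρ e e * N2' = 0 := by
    have h2 : (N1 * N2' + N2 * N1') * rk ρ (Pi.single 1 1) e = 0 := by rw [hz0, zero_mul]
    have e1 : N2' * rk ρ (Pi.single 1 1) e = rk ρ (Pi.single 1 1) e * N2' := (hc _ _ : Commute (rk ρ (Pi.single 1 1) e) N2').eq.symm
    have e2 : N1' * rk ρ (Pi.single 1 1) e = rk ρ (Pi.single 1 1) e * N1' := (hc _ _ : Commute (rk ρ (Pi.single 1 1) e) N1').eq.symm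
    rw [add_mul, mul_assoc, e1, mul_assoc, e2, ← mul_assoc, ← mul_assoc, hN1, hN2, rk_mul_rk, rk_mul_rk] at h2
    have e3 : (Pi.single 1 1 : Fin 3 → F) ⬝ᵥ Pi.single 1 1 = 1 := by simp
    have e4 : (Pi.single 2 1 : Fin 3 → F) ⬝ᵥ Pi.single 1 1 = 0 := by simp
    rwa [e3, e4, one_smul, zero_smul, zero_mul, add_zero] at h2
  have he0 : e ≠ 0 := by rw [he]; simp
  exact pair_ne_zero hc he0 he0 he0 (by simp) h1

end NoSwap

end Cfsg.Agent.H873.Wr
end

-- part: H873/WrTwo3
section
/-!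
Two-element fields: an `M`-conjugate of a slot root lying in the wreath subgroup is a slot root.
-/

set_option autoImplicit false
set_option linter.unusedSectionVars false
set_option linter.unusedSimpArgs false
set_option linter.unusedVariables false

namespace Cfsg.Agent.H873.Wr

open Matrix Cfsg.Agent.H919 Cfsg.Geo

variable {F : Type*} [Field F] {t m : ℕ}

/-- conjugation by an element of the wreath subgroup permutes the slots -/
theorem conj_slot [Nonempty (Fin t → Fin m)] (g : Fin t → GL (Fin m) F) (σ : Equiv.Perm (Fin t)) (i : Fin t) (A : Matrix (Fin m) (Fin m) F) :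
    conjA (pureGL g * facPerm F m σ) (slotEmb i A) =
      slotEmb (σ i) ((g (σ i) : Matrix (Fin m) (Fin m) F) * A * (((g (σ i))⁻¹ : GL (Fin m) F) : Matrix (Fin m) (Fin m) F)) := by
  rw [conjA_mul, conjA_apply (facPerm F m σ), slotEmb_apply, slotMat_apply_facPerm, conjA_apply, pureGL_val,
    pureGL_inv_val, slotEmb_apply, slotMat, slotMat, pureMat_mul, pureMat_mul]
  congr 1
  funext j
  by_cases h : j = σ i
  · subst h; simp
  · simp [Function.update_of_ne h]

/-- an element of slot `i` conjugated into slot `σ i` -/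
theorem std_cj [Nonempty (Fin t → Fin m)] {x : GL (Fin t → Fin m) F} (hx : x ∈ tensorWreathStandard m t F) :
    ∃ σ : Equiv.Perm (Fin t), ∀ i, RLe (cj x (slotEmb (F := F) (m := m) i)) (slotEmb (σ i)) := by
  obtain ⟨g, σ, rfl⟩ := mem_std hx
  exact ⟨σ, fun i A => ⟨_, (conj_slot g σ i A).symm⟩⟩

/-- **Conjugates of roots inside the wreath subgroup are roots of slots.** -/
theorem root_of_conj {M : Subgroup (GL (Fin t → Fin m) F)} (hT : Two F) (hm : 3 ≤ m)
    (hHM : HS m t F ≤ M) (hM : ¬ specialLinear (Fin t → Fin m) F ≤ M) {i : Fin t} {a α : Fin m → F}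
    (ha : a ≠ 0) (hα : α ≠ 0) (h0 : α ⬝ᵥ a = 0) {g : GL (Fin t → Fin m) F} (hg : g ∈ M)
    (h : InM (tensorWreathStandard m t F) (conjA g (rk (slotEmb i) a α))) :
    ∃ (j : Fin t) (b β : Fin m → F), b ≠ 0 ∧ β ≠ 0 ∧ β ⬝ᵥ b = 0 ∧
      conjA g (rk (slotEmb i) a α) = rk (slotEmb j) b β := by
  have hne : Nonempty (Fin t → Fin m) := ⟨fun _ => ⟨0, by omega⟩⟩
  set Y := conjA g (rk (slotEmb i) a α) with hY
  have hYY : Y * Y = 0 := by
    rw [hY, ← map_mul, rk_sq h0, map_zero]
  have hY0 : Y ≠ 0 := by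
    intro h1
    apply rk_ne_zero (slotEmb (F := F) (m := m) i) ha hα
    apply (conjA g).injective
    rw [map_zero]
    exact h1
  set w := (rk (slotEmb i) a α).rank with hwdef
  have hw : ∀ (j : Fin t) (b β : Fin m → F), b ≠ 0 → β ≠ 0 → (rk (slotEmb j) b β).rank = w :=
    slot_rank_eq (i := i) fun b β hb hβ => rank_rk_eq hb hβ ha hα
  have hYr : Y.rank = w := rank_conjA _ _
  obtain ⟨x, hx, hxY⟩ := h
  -- the sum of the square-zero condition
  have fin : ∀ (j : Fin t) (A : Matrix (Fin m) (Fin m) F), slotEmb j A = Y → ∃ (j : Fin t) (b β : Fin m → F), b ≠ 0 ∧ β ≠ 0 ∧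
      β ⬝ᵥ b = 0 ∧ Y = rk (slotEmb j) b β := by
    intro j A hA
    obtain ⟨b, β, rfl⟩ := exists_vecMulVec_of_rank_le (ρ := slotEmb (F := F) (m := m) j) (w := w)
      (fun a α ha hα => (hw j a α ha hα).ge) (A := A) (by rw [hA, hYr])
    have hb : b ≠ 0 := by
      rintro rfl
      apply hY0
      rw [← hA, zero_vecMulVec, map_zero]
    have hβ : β ≠ 0 := by
      rintro rfl
      apply hY0
      rw [← hA, vecMulVec_zero, map_zero]
    refine ⟨j, b, β, hb, hβ, ?_, hA.symm⟩
    by_contra hne0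
    rw [← hA] at hYY
    change rk (slotEmb j) b β * rk (slotEmb j) b β = 0 at hYY
    rw [rk_mul_rk] at hYY
    exact rk_ne_zero _ hb hβ ((smul_eq_zero.1 hYY).resolve_left hne0)
  obtain ⟨x', σ, hxx'⟩ := mem_std hx
  by_cases hσ : σ = 1
  · subst hσ
    rw [facPerm_one, mul_one] at hxx'
    rw [hxx'] at hxY
    by_cases hs : ∃ j, ¬ ∃ c : F, (x' j : Matrix (Fin m) (Fin m) F) = c • (1 : Matrix (Fin m) (Fin m) F)
    · obtain ⟨j, hj⟩ := hs
      have h2 := pureGL_factor x' j
      obtain ⟨c, hc⟩ := scalar_of_rank_le (ρ := slotEmb j) hm (w := w) (fun a α ha hα => (hw j a α ha hα).ge)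
        (cen_pureGL x' j) (by rw [← h2, hxY, add_sub_cancel_left]; exact hYr.le) hj
      apply fin j (c • (x' j : Matrix (Fin m) (Fin m) F) - 1)
      have h3 : Y = (pureGL x' : Matrix (Fin t → Fin m) (Fin t → Fin m) F) - 1 := by rw [hxY, add_sub_cancel_left]
      rw [h3, h2, hc, mul_smul_comm, mul_one, map_sub, map_smul, map_one]
    · exfalso
      push Not at hs
      have hs' : ∀ j, x' j = 1 := by
        intro j
        obtain ⟨c, hc⟩ := hs j
        apply Units.ext
        rw [hc]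
        have hc0 : c ≠ 0 := by
          rintro rfl
          rw [zero_smul] at hc
          have : Nonempty (Fin m) := ⟨⟨0, by omega⟩⟩
          exact (x' j).ne_zero hc
        rw [hT.eq_one hc0, one_smul, Units.val_one]
      have h4 : pureGL x' = 1 := by
        rw [← pureGL_one]
        congr 1
        funext j
        exact hs' j
      rw [h4, Units.val_one] at hxY
      exact hY0 (by simpa using hxY.symm)
  · exfalso
    obtain ⟨k, hk⟩ : ∃ k, σ k ≠ k := by
      by_contra hcon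
      push Not at hcon
      exact hσ (Equiv.ext hcon)
    have hxM : x ∈ M := hHM (by rw [hT.HS_eq]; exact hx)
    have hxx2 : x * x = 1 := by
      apply Units.ext
      rw [Units.val_mul, hxY, mul_add, add_mul, add_mul, hYY, mul_one, one_mul, mul_one, add_zero, add_assoc,
        hT.add_self, add_zero, Units.val_one]
    have hc : Comm (slotEmb (F := F) (m := m) k) (cj x (slotEmb k)) := by
      intro A B
      rw [cj_apply, hxx', conj_slot]
      exact slotMat_commute (fun h => hk h.symm) _ _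
    have h1 := swap_rank (i0 := ⟨0, by omega⟩) (i1 := ⟨1, by omega⟩) (i2 := ⟨2, by omega⟩) hT hxx2 hc (hw k)
      (by rw [hxY, add_sub_cancel_left]; exact hYr.le) (by simp) (by simp) (by simp)
    obtain ⟨h1, h2⟩ := h1
    have hm3 : m = 3 := by
      by_contra hne3
      have := h1 ⟨3, by omega⟩
      simp at this
    subst hm3
    exact no_swap hT (ge_slot hHM hm hM k) ((ge_slot hHM hm hM i).cj hg) ha hα h0 hxM hxY hc h2

end Cfsg.Agent.H873.Wr
end

-- part: H873/WrTail
section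
/-!
The normaliser of a slot, by induction on the number of slots.
-/

set_option autoImplicit false
set_option linter.unusedSectionVars false
set_option linter.unusedSimpArgs false
set_option linter.unusedVariables false

namespace Cfsg.Agent.H873.Wr

open Matrix Cfsg.Agent.H919 Cfsg.Geo
open scoped Kronecker

variable {F : Type*} [Field F] {t m : ℕ}

theorem tail_consEquiv (b : Fin m) (u : Fin t → Fin m) :
    Fin.tail ((Fin.consEquiv (fun _ : Fin (t + 1) => Fin m)) (b, u)) = u := rfl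

theorem zero_consEquiv (b : Fin m) (u : Fin t → Fin m) :
    ((Fin.consEquiv (fun _ : Fin (t + 1) => Fin m)) (b, u)) 0 = b := rfl

/-- the tail slots -/
def tailE (F : Type*) [Field F] (t m : ℕ) :
    Matrix (Fin t → Fin m) (Fin t → Fin m) F →ₐ[F] Matrix (Fin (t + 1) → Fin m) (Fin (t + 1) → Fin m) F :=
  AlgHom.ofLinearMap
    { toFun := fun B => Matrix.of fun x y => if x 0 = y 0 then B (Fin.tail x) (Fin.tail y) else 0
      map_add' := fun B C => by
        ext x y
        simp only [Matrix.of_apply, Matrix.add_apply]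
        split_ifs <;> simp
      map_smul' := fun c B => by
        ext x y
        simp only [Matrix.of_apply, Matrix.smul_apply, RingHom.id_apply, smul_eq_mul]
        split_ifs <;> simp }
    (by
      ext x y
      simp only [LinearMap.coe_mk, AddHom.coe_mk, Matrix.of_apply, Matrix.one_apply]
      by_cases h : x = y
      · subst h; simp
      · rw [if_neg h]
        by_cases h0 : x 0 = y 0
        · rw [if_pos h0, if_neg]
          intro h1
          apply h
          rw [← Fin.cons_self_tail x, ← Fin.cons_self_tail y, h0, h1]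
        · rw [if_neg h0])
    (by
      intro B C
      ext x y
      simp only [LinearMap.coe_mk, AddHom.coe_mk, Matrix.of_apply, Matrix.mul_apply]
      rw [← (Fin.consEquiv (fun _ => Fin m)).sum_comp, Fintype.sum_prod_type]
      simp only [tail_consEquiv, zero_consEquiv]
      rw [Finset.sum_eq_single (x 0)]
      · simp only [if_true]
        by_cases h : x 0 = y 0
        · simp only [h, if_true]
        · simp only [h, if_false, mul_zero, Finset.sum_const_zero]
      · intro b _ hb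
        simp only [hb.symm, if_false, zero_mul, Finset.sum_const_zero]
      · intro h; exact absurd (Finset.mem_univ _) h)

theorem tailE_apply (B : Matrix (Fin t → Fin m) (Fin t → Fin m) F) (x y : Fin (t + 1) → Fin m) :
    tailE F t m B x y = if x 0 = y 0 then B (Fin.tail x) (Fin.tail y) else 0 := rfl

theorem tailE_slot (i : Fin t) (A : Matrix (Fin m) (Fin m) F) :
    tailE F t m (slotEmb i A) = slotEmb i.succ A := by
  ext x y
  rw [tailE_apply, slotEmb_apply, slotEmb_apply, slotMat, slotMat, pureMat_apply, pureMat_apply, Fin.prod_univ_succ]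
  rw [Function.update_of_ne (Fin.succ_ne_zero i).symm, Matrix.one_apply]
  by_cases h : x 0 = y 0
  · rw [if_pos h, if_pos h, one_mul]
    refine Finset.prod_congr rfl fun j _ => ?_
    by_cases hj : j = i
    · subst hj; simp [Fin.tail]
    · rw [Function.update_of_ne hj, Function.update_of_ne (fun h => hj (Fin.succ_injective _ h))]
      rfl
  · rw [if_neg h, if_neg h, zero_mul]

theorem tailE_commute (B : Matrix (Fin t → Fin m) (Fin t → Fin m) F) (A : Matrix (Fin m) (Fin m) F) :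
    Commute (slotEmb 0 A) (tailE F t m B) := by
  have h0 : ∀ x y, slotEmb (F := F) (m := m) (0 : Fin (t + 1)) A x y = if Fin.tail x = Fin.tail y then A (x 0) (y 0) else 0 := by
    intro x y
    rw [slotEmb_apply, slotMat, pureMat_apply, Fin.prod_univ_succ, Function.update_self]
    by_cases h : Fin.tail x = Fin.tail y
    · rw [if_pos h, Finset.prod_eq_one, mul_one]
      intro i _
      rw [Function.update_of_ne (Fin.succ_ne_zero i), show x i.succ = y i.succ from congrFun h i, Matrix.one_apply_eq]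
    · rw [if_neg h]
      obtain ⟨i, hi⟩ := Function.ne_iff.1 h
      rw [Finset.prod_eq_zero (Finset.mem_univ i), mul_zero]
      rw [Function.update_of_ne (Fin.succ_ne_zero i)]
      exact Matrix.one_apply_ne hi
  unfold Commute SemiconjBy
  ext x y
  rw [Matrix.mul_apply, Matrix.mul_apply, ← (Fin.consEquiv (fun _ => Fin m)).sum_comp,
    ← (Fin.consEquiv (fun _ => Fin m)).sum_comp, Fintype.sum_prod_type, Fintype.sum_prod_type]
  simp only [h0, tailE_apply, tail_consEquiv, zero_consEquiv]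
  have e1 : ∑ b : Fin m, ∑ u : Fin t → Fin m, (if Fin.tail x = u then A (x 0) b else 0) *
      (if b = y 0 then B u (Fin.tail y) else 0) = A (x 0) (y 0) * B (Fin.tail x) (Fin.tail y) := by
    rw [Finset.sum_eq_single (y 0)]
    · rw [Finset.sum_eq_single (Fin.tail x)]
      · simp
      · intro u _ hu
        rw [if_neg hu.symm, zero_mul]
      · intro h; exact absurd (Finset.mem_univ _) h
    · intro b _ hb
      simp [hb]
    · intro h; exact absurd (Finset.mem_univ _) h
  have e2 : ∑ b : Fin m, ∑ u : Fin t → Fin m, (if x 0 = b then B (Fin.tail x) u else 0) *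
      (if u = Fin.tail y then A b (y 0) else 0) = B (Fin.tail x) (Fin.tail y) * A (x 0) (y 0) := by
    rw [Finset.sum_eq_single (x 0)]
    · rw [Finset.sum_eq_single (Fin.tail y)]
      · simp
      · intro u _ hu
        rw [if_neg hu, mul_zero]
      · intro h; exact absurd (Finset.mem_univ _) h
    · intro b _ hb
      simp [hb.symm]
    · intro h; exact absurd (Finset.mem_univ _) h
  exact (e1.trans (mul_comm _ _)).trans e2.symm

/-- the centraliser of slot `0` -/
theorem exists_tailE (hm : 0 < m) {X : Matrix (Fin (t + 1) → Fin m) (Fin (t + 1) → Fin m) F}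
    (hX : Cen (slotEmb 0) X) : ∃ B, tailE F t m B = X := by
  let a0 : Fin m := ⟨0, hm⟩
  have h0 : ∀ (a b : Fin m) x y, slotEmb (F := F) (m := m) (0 : Fin (t + 1)) (Matrix.single a b 1) x y =
      if Fin.tail x = Fin.tail y ∧ a = x 0 ∧ b = y 0 then 1 else 0 := by
    intro a b x y
    rw [slotEmb_apply, slotMat, pureMat_apply, Fin.prod_univ_succ, Function.update_self, Matrix.single_apply]
    by_cases h : Fin.tail x = Fin.tail y
    · rw [Finset.prod_eq_one, mul_one]
      · simp only [h, true_and]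
      intro i _
      rw [Function.update_of_ne (Fin.succ_ne_zero i), show x i.succ = y i.succ from congrFun h i, Matrix.one_apply_eq]
    · obtain ⟨i, hi⟩ := Function.ne_iff.1 h
      rw [Finset.prod_eq_zero (Finset.mem_univ i), mul_zero, if_neg (fun h' => h h'.1)]
      rw [Function.update_of_ne (Fin.succ_ne_zero i)]
      exact Matrix.one_apply_ne hi
  have key : ∀ (a b : Fin m) (x y : Fin (t + 1) → Fin m),
      (if a = x 0 then X (Fin.cons b (Fin.tail x)) y else 0) = (if b = y 0 then X x (Fin.cons a (Fin.tail y)) else 0) := by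
    intro a b x y
    have h1 := congrFun (congrFun (hX (Matrix.single a b 1)).eq x) y
    rw [Matrix.mul_apply, Matrix.mul_apply] at h1
    have e1 : ∑ z, slotEmb (F := F) (m := m) (0 : Fin (t + 1)) (Matrix.single a b 1) x z * X z y =
        if a = x 0 then X (Fin.cons b (Fin.tail x)) y else 0 := by
      rw [Finset.sum_eq_single (Fin.cons b (Fin.tail x))]
      · rw [h0]
        simp only [Fin.tail_cons, Fin.cons_zero, true_and, and_true]
        split_ifs <;> simp
      · intro z _ hz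
        rw [h0, if_neg, zero_mul]
        rintro ⟨h2, h3, h4⟩
        apply hz
        rw [h2, h4, Fin.cons_self_tail]
      · intro h; exact absurd (Finset.mem_univ _) h
    have e2 : ∑ z, X x z * slotEmb (F := F) (m := m) (0 : Fin (t + 1)) (Matrix.single a b 1) z y =
        if b = y 0 then X x (Fin.cons a (Fin.tail y)) else 0 := by
      rw [Finset.sum_eq_single (Fin.cons a (Fin.tail y))]
      · rw [h0]
        simp only [Fin.tail_cons, Fin.cons_zero, true_and, and_true]
        split_ifs <;> simp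
      · intro z _ hz
        rw [h0, if_neg, mul_zero]
        rintro ⟨h2, h3, h4⟩
        apply hz
        rw [← h2, h3, Fin.cons_self_tail]
      · intro h; exact absurd (Finset.mem_univ _) h
    rwa [e1, e2] at h1
  refine ⟨Matrix.of fun u v => X (Fin.cons a0 u) (Fin.cons a0 v), ?_⟩
  ext x y
  rw [tailE_apply, Matrix.of_apply]
  by_cases h : x 0 = y 0
  · rw [if_pos h]
    have h1 := key a0 (y 0) (Fin.cons a0 (Fin.tail x)) y
    rw [Fin.cons_zero, if_pos rfl, if_pos rfl, Fin.tail_cons] at h1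
    rw [← h1, ← h, Fin.cons_self_tail]
  · rw [if_neg h]
    have h1 := key a0 (x 0) (Fin.cons a0 (Fin.tail x)) y
    rw [Fin.cons_zero, if_pos rfl, if_neg h, Fin.tail_cons, Fin.cons_self_tail] at h1
    exact h1.symm

/-- on units -/
def tailG (F : Type*) [Field F] (t m : ℕ) : GL (Fin t → Fin m) F →* GL (Fin (t + 1) → Fin m) F :=
  Units.map (tailE F t m).toRingHom.toMonoidHom

theorem tailG_val (b : GL (Fin t → Fin m) F) :
    (tailG F t m b : Matrix (Fin (t + 1) → Fin m) (Fin (t + 1) → Fin m) F) =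
      tailE F t m (b : Matrix (Fin t → Fin m) (Fin t → Fin m) F) := rfl

theorem conjA_tailG [Nonempty (Fin t → Fin m)] [Nonempty (Fin (t + 1) → Fin m)] (b : GL (Fin t → Fin m) F)
    (X : Matrix (Fin t → Fin m) (Fin t → Fin m) F) :
    conjA (tailG F t m b) (tailE F t m X) = tailE F t m (conjA b X) := by
  rw [conjA_apply, conjA_apply, map_mul, map_mul]
  rfl

theorem tailG_mem (hm : 3 ≤ m) {b : GL (Fin t → Fin m) F} (hb : b ∈ tensorWreathStandard m t F) :
    tailG F t m b ∈ tensorWreathStandard m (t + 1) F := by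
  have hne : Nonempty (Fin t → Fin m) := ⟨fun _ => ⟨0, by omega⟩⟩
  have hne' : Nonempty (Fin (t + 1) → Fin m) := ⟨fun _ => ⟨0, by omega⟩⟩
  obtain ⟨σ, hσ⟩ := std_cj hb
  apply mem_std_of_permutes hm (by omega)
  intro i
  refine Fin.cases ?_ (fun j => ?_) i
  · refine ⟨0, fun A => ⟨A, ?_⟩⟩
    rw [cj_apply, conjA_eq_self]
    rw [tailG_val]
    exact (tailE_commute _ _).symm
  · refine ⟨(σ j).succ, fun A => ?_⟩
    obtain ⟨B, hB⟩ := hσ j A
    refine ⟨B, ?_⟩
    rw [cj_apply, ← tailE_slot, ← tailE_slot, conjA_tailG, hB, cj_apply]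

/-- one slot is everything -/
theorem mem_std_one (hm : 3 ≤ m) (b : GL (Fin 1 → Fin m) F) : b ∈ tensorWreathStandard m 1 F := by
  have hne : Nonempty (Fin 1 → Fin m) := ⟨fun _ => ⟨0, by omega⟩⟩
  apply mem_std_of_permutes hm (by omega)
  intro i
  refine ⟨i, fun A => ?_⟩
  have hinj : Function.Injective (slotEmb (F := F) (m := m) i).toLinearMap := ρ_injective (slotEmb i)
  have hdim : Module.finrank F (Matrix (Fin m) (Fin m) F) =
      Module.finrank F (Matrix (Fin 1 → Fin m) (Fin 1 → Fin m) F) := by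
    rw [Module.finrank_matrix, Module.finrank_matrix]
    simp
  exact (LinearMap.injective_iff_surjective_of_finrank_eq_finrank hdim).1 hinj _

/-- **The normaliser of slot `0`** -/
theorem norm_slot_zero (hT : Two F) (hm : 3 ≤ m) (ht : 1 ≤ t)
    (IH : 2 ≤ t → ∀ M₁ : Subgroup (GL (Fin t → Fin m) F), HS m t F ≤ M₁ →
      ¬ specialLinear (Fin t → Fin m) F ≤ M₁ → M₁ ≤ tensorWreathStandard m t F)
    {M : Subgroup (GL (Fin (t + 1) → Fin m) F)} (hHM : HS m (t + 1) F ≤ M)
    (hM : ¬ specialLinear (Fin (t + 1) → Fin m) F ≤ M) {n : GL (Fin (t + 1) → Fin m) F} (hn : n ∈ M)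
    (h : RLe (cj n (slotEmb (F := F) (m := m) 0)) (slotEmb 0)) : n ∈ tensorWreathStandard m (t + 1) F := by
  have hne : Nonempty (Fin t → Fin m) := ⟨fun _ => ⟨0, by omega⟩⟩
  have hne' : Nonempty (Fin (t + 1) → Fin m) := ⟨fun _ => ⟨0, by omega⟩⟩
  obtain ⟨a, r, hr, he⟩ := exists_factor (by omega) h
  have hslot : UG (slotEmb (F := F) (m := m) (0 : Fin (t + 1))) a ∈ tensorWreathStandard m (t + 1) F := slotGL_mem 0 a
  have hn' : n = UG (slotEmb (F := F) (m := m) (0 : Fin (t + 1))) a * r := Units.ext he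
  have hrM : r ∈ M := by
    have : r = (UG (slotEmb (F := F) (m := m) (0 : Fin (t + 1))) a)⁻¹ * n := by rw [hn']; group
    rw [this]
    exact M.mul_mem (M.inv_mem (hHM (by rw [hT.HS_eq]; exact hslot))) hn
  obtain ⟨B, hB⟩ := exists_tailE (by omega) hr
  have hr' : Cen (slotEmb (F := F) (m := m) (0 : Fin (t + 1))) ((r⁻¹ : GL (Fin (t + 1) → Fin m) F) : Matrix _ _ F) :=
    (CenG (slotEmb (F := F) (m := m) (0 : Fin (t + 1)))).inv_mem hr
  obtain ⟨B', hB'⟩ := exists_tailE (by omega) hr'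
  have hinj : Function.Injective (tailE F t m) := (tailE F t m).toRingHom.injective
  let b : GL (Fin t → Fin m) F :=
    { val := B
      inv := B'
      val_inv := by
        apply hinj
        rw [map_mul, hB, hB', map_one, Units.mul_inv]
      inv_val := by
        apply hinj
        rw [map_mul, hB, hB', map_one, Units.inv_mul] }
  have hrb : r = tailG F t m b := Units.ext hB.symm
  rw [hn']
  refine Subgroup.mul_mem _ hslot ?_
  rw [hrb]
  apply tailG_mem hm
  by_cases ht2 : 2 ≤ t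
  · apply IH ht2 (M.comap (tailG F t m))
    · intro x hx
      rw [Subgroup.mem_comap]
      apply hHM
      rw [hT.HS_eq]
      exact tailG_mem hm hx.1
    · intro hSL
      -- contradiction with goodness of slot 1
      obtain ⟨e, he0⟩ := exists_ne_zero_vec (F := F) hm
      obtain ⟨φ, hφ, hφe, -⟩ := exists_two (a := e) (b := e) hm
      let i0 : Fin t := ⟨0, by omega⟩
      let i1 : Fin t := ⟨1, by omega⟩
      have hi : i0 ≠ i1 := by simp [i0, i1]
      set X := rk (slotEmb (F := F) (m := m) i0) e φ * rk (slotEmb i1) e φ with hX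
      have hXX : X * X = 0 := by
        have hc : Commute (rk (slotEmb (F := F) (m := m) i1) e φ) (rk (slotEmb i0) e φ) := slotMat_commute hi.symm _ _
        rw [hX, mul_assoc, ← mul_assoc (rk (slotEmb i1) e φ), hc.eq, mul_assoc, rk_sq hφe, mul_zero, mul_zero]
      have h1 : un X hXX ∈ M.comap (tailG F t m) := hSL (hT.mem_sl _)
      have h2 : InM M (rk (slotEmb i0.succ) e φ * rk (slotEmb i1.succ) e φ) := by
        refine ⟨_, h1, ?_⟩
        rw [tailG_val, coe_un, map_add, map_one, hX, map_mul]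
        rw [rk, rk, tailE_slot, tailE_slot]
        rfl
      obtain ⟨c, hc⟩ := (ge_slot hHM hm hM i0.succ).nt e φ (rk (slotEmb i1.succ) e φ) he0 hφ hφe
        (fun A => slotMat_commute (fun h => hi (Fin.succ_injective _ h)) A _) h2
      have h3 := rk_sq (ρ := slotEmb (F := F) (m := m) i1.succ) hφe
      rw [hc, smul_mul_smul_comm, mul_one] at h3
      have h4 : c = 0 := by
        have := congrFun (congrFun h3 hne'.some) hne'.some
        simpa using this
      rw [h4, zero_smul] at hc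
      exact rk_ne_zero _ he0 hφ hc
    · rw [Subgroup.mem_comap, ← hrb]
      exact hrM
  · have : t = 1 := by omega
    subst this
    exact mem_std_one hm b

/-- **The normaliser of a slot** -/
theorem norm_slot (hT : Two F) (hm : 3 ≤ m) (ht : 1 ≤ t)
    (IH : 2 ≤ t → ∀ M₁ : Subgroup (GL (Fin t → Fin m) F), HS m t F ≤ M₁ →
      ¬ specialLinear (Fin t → Fin m) F ≤ M₁ → M₁ ≤ tensorWreathStandard m t F)
    {M : Subgroup (GL (Fin (t + 1) → Fin m) F)} (hHM : HS m (t + 1) F ≤ M)
    (hM : ¬ specialLinear (Fin (t + 1) → Fin m) F ≤ M) {n : GL (Fin (t + 1) → Fin m) F} (hn : n ∈ M) {i j : Fin (t + 1)}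
    (h : RLe (cj n (slotEmb (F := F) (m := m) i)) (slotEmb j)) : n ∈ tensorWreathStandard m (t + 1) F := by
  have hne' : Nonempty (Fin (t + 1) → Fin m) := ⟨fun _ => ⟨0, by omega⟩⟩
  set p := facPerm F m (Equiv.swap i 0) with hp
  set q := facPerm F m (Equiv.swap j 0) with hq
  have hpH : p ∈ tensorWreathStandard m (t + 1) F := facPerm_mem _
  have hqH : q ∈ tensorWreathStandard m (t + 1) F := facPerm_mem _
  have hfac : ∀ (σ : Equiv.Perm (Fin (t + 1))) (k : Fin (t + 1)),
      cj (facPerm F m σ) (slotEmb (F := F) (m := m) k) = slotEmb (σ k) := by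
    intro σ k
    apply AlgHom.ext
    intro A
    rw [cj_apply, conjA_apply, slotEmb_apply, slotMat_apply_facPerm]
    rfl
  have h1 : RLe (cj (q * n * p) (slotEmb (F := F) (m := m) 0)) (slotEmb 0) := by
    rw [← cj_cj, hp, hfac, Equiv.swap_apply_right, ← cj_cj]
    have h2 := h.cj q
    rw [hq, hfac, Equiv.swap_apply_left] at h2
    exact h2
  have h2 : q * n * p ∈ tensorWreathStandard m (t + 1) F :=
    norm_slot_zero hT hm ht IH hHM hM
      (M.mul_mem (M.mul_mem (hHM (by rw [hT.HS_eq]; exact hqH)) hn) (hHM (by rw [hT.HS_eq]; exact hpH))) h1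
  have h3 : n = q⁻¹ * (q * n * p) * p⁻¹ := by group
  rw [h3]
  exact Subgroup.mul_mem _ (Subgroup.mul_mem _ (Subgroup.inv_mem _ hqH) h2) (Subgroup.inv_mem _ hpH)

end Cfsg.Agent.H873.Wr
end

-- part: H873/WrTI
section
/-!
Two-element fields: trivial intersection properties in a counterexample.
-/

set_option autoImplicit false
set_option linter.unusedSectionVars false
set_option linter.unusedSimpArgs false
set_option linter.unusedVariables false

namespace Cfsg.Agent.H873.Wr

open Matrix Cfsg.Agent.H919 Cfsg.Geo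

/-! ### Dihedral groups -/

section Dihedral

variable {G : Type*} [Group G] {x y : G}

theorem inv_of_zpowers (hx : x * x = 1) (hy : y * y = 1) {c : G} (hc : c ∈ Subgroup.zpowers (x * y)) :
    x * c * x = c⁻¹ ∧ y * c * y = c⁻¹ := by
  have hxi : x⁻¹ = x := by rw [inv_eq_iff_mul_eq_one, hx]
  have hyi : y⁻¹ = y := by rw [inv_eq_iff_mul_eq_one, hy]
  obtain ⟨k, rfl⟩ := hc
  have h1 : x * (x * y) * x⁻¹ = (x * y)⁻¹ := by
    rw [_root_.mul_inv_rev, ← mul_assoc, hx, one_mul, hxi, hyi]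
  have h2 : y * (x * y) * y⁻¹ = (x * y)⁻¹ := by
    rw [_root_.mul_inv_rev, hxi, hyi, mul_assoc, mul_assoc, hy, mul_one]
  have h3 : x * (x * y) ^ k * x⁻¹ = ((x * y) ^ k)⁻¹ := by
    rw [← conj_zpow, h1, _root_.inv_zpow]
  have h4 : y * (x * y) ^ k * y⁻¹ = ((x * y) ^ k)⁻¹ := by
    rw [← conj_zpow, h2, _root_.inv_zpow]
  rw [hxi] at h3
  rw [hyi] at h4
  exact ⟨h3, h4⟩

theorem mem_or (hx : x * x = 1) (hy : y * y = 1) {l : G} (hl : l ∈ Subgroup.closure {x, y}) :
    l ∈ Subgroup.zpowers (x * y) ∨ x * l ∈ Subgroup.zpowers (x * y) := by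
  have hxi : x⁻¹ = x := by rw [inv_eq_iff_mul_eq_one, hx]
  have hmem : ∀ {c : G}, c ∈ Subgroup.zpowers (x * y) → x * c * x ∈ Subgroup.zpowers (x * y) := by
    intro c hc
    rw [(inv_of_zpowers hx hy hc).1]
    exact Subgroup.inv_mem _ hc
  induction hl using Subgroup.closure_induction with
  | mem l hl =>
    rcases hl with rfl | hl
    · right; rw [hx]; exact Subgroup.one_mem _
    · rw [Set.mem_singleton_iff] at hl
      subst hl
      right; exact Subgroup.mem_zpowers _
  | one => left; exact Subgroup.one_mem _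
  | mul a b _ _ ha hb =>
    rcases ha with ha | ha <;> rcases hb with hb | hb
    · left; exact Subgroup.mul_mem _ ha hb
    · right
      have : x * (a * b) = (x * a * x) * (x * b) := by
        rw [mul_assoc (x * a), ← mul_assoc x x b, hx, one_mul, mul_assoc]
      rw [this]
      exact Subgroup.mul_mem _ (hmem ha) hb
    · right
      rw [← mul_assoc]
      exact Subgroup.mul_mem _ ha hb
    · left
      have : a * b = (x * (x * a) * x) * (x * b) := by
        rw [← mul_assoc x x a, hx, one_mul, mul_assoc a, ← mul_assoc x x b, hx, one_mul]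
      rw [this]
      exact Subgroup.mul_mem _ (hmem ha) hb
  | inv a _ ha =>
    rcases ha with ha | ha
    · left; exact Subgroup.inv_mem _ ha
    · right
      have : x * a⁻¹ = x * (x * a)⁻¹ * x := by
        rw [_root_.mul_inv_rev, hxi, mul_assoc, mul_assoc a⁻¹, hx, mul_one]
      rw [this]
      exact hmem (Subgroup.inv_mem _ ha)

theorem prod_mem (hx : x * x = 1) (hy : y * y = 1) {l : G} (hl : l ∈ Subgroup.closure {x, y}) :
    x * (l⁻¹ * y * l) ∈ Subgroup.zpowers (x * y) := by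
  have hxi : x⁻¹ = x := by rw [inv_eq_iff_mul_eq_one, hx]
  have hyi : y⁻¹ = y := by rw [inv_eq_iff_mul_eq_one, hy]
  rcases mem_or hx hy hl with h | h
  · have h1 := (inv_of_zpowers hx hy (Subgroup.inv_mem _ h)).1
    rw [inv_inv] at h1
    have : x * (l⁻¹ * y * l) = (x * l⁻¹ * x) * (x * y) * l := by
      calc x * (l⁻¹ * y * l) = x * l⁻¹ * y * l := by simp only [mul_assoc]
        _ = x * l⁻¹ * ((x * x) * y) * l := by rw [hx, one_mul]
        _ = _ := by simp only [mul_assoc]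
    rw [this, h1]
    exact Subgroup.mul_mem _ (Subgroup.mul_mem _ h (Subgroup.mem_zpowers _)) h
  · obtain ⟨c, hc⟩ : ∃ c, c = x * l := ⟨_, rfl⟩
    rw [← hc] at h
    have hl' : l = x * c := by rw [hc, ← mul_assoc, hx, one_mul]
    have h1 := (inv_of_zpowers hx hy (Subgroup.inv_mem _ h)).1
    rw [inv_inv] at h1
    have : x * (l⁻¹ * y * l) = (x * c⁻¹ * x) * (x * y)⁻¹ * c := by
      rw [hl', _root_.mul_inv_rev, _root_.mul_inv_rev, hxi, hyi]
      simp only [mul_assoc]
    rw [this, h1]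
    exact Subgroup.mul_mem _ (Subgroup.mul_mem _ h (Subgroup.inv_mem _ (Subgroup.mem_zpowers _))) h

/-- the key fact on dihedral groups -/
theorem dihedral (hx : x * x = 1) (hy : y * y = 1) {l y' : G} (hl : l ∈ Subgroup.closure {x, y}) (hy' : y' = l⁻¹ * y * l)
    {n : ℕ} {z : G} (hz : (x * y') ^ n = z) (hzz : z * z = 1) : y * z * y⁻¹ = z := by
  have hyi : y⁻¹ = y := by rw [inv_eq_iff_mul_eq_one, hy]
  have h1 : z ∈ Subgroup.zpowers (x * y) := by
    rw [← hz, hy']
    exact Subgroup.pow_mem _ (prod_mem hx hy hl) _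
  rw [hyi, (inv_of_zpowers hx hy h1).2, inv_eq_iff_mul_eq_one, hzz]

end Dihedral

variable {F : Type*} [Field F] {t m : ℕ}

/-- a root of slot `i` -/
def IsRt (i : Fin t) (s : GL (Fin t → Fin m) F) : Prop :=
  ∃ a α : Fin m → F, a ≠ 0 ∧ α ≠ 0 ∧ α ⬝ᵥ a = 0 ∧
    (s : Matrix (Fin t → Fin m) (Fin t → Fin m) F) = 1 + rk (slotEmb i) a α

/-- an element of slot `i` -/
def InL (i : Fin t) (s : GL (Fin t → Fin m) F) : Prop :=
  ∃ A, (s : Matrix (Fin t → Fin m) (Fin t → Fin m) F) = slotEmb i A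

theorem IsRt.inL {i : Fin t} {s : GL (Fin t → Fin m) F} (h : IsRt i s) : InL i s := by
  obtain ⟨a, α, -, -, -, he⟩ := h
  exact ⟨1 + vecMulVec a α, by rw [he, map_add, map_one]; rfl⟩

theorem IsRt.sq [Nonempty (Fin t → Fin m)] (hT : Two F) {i : Fin t} {s : GL (Fin t → Fin m) F} (h : IsRt i s) : s * s = 1 := by
  obtain ⟨a, α, -, -, h0, he⟩ := h
  apply Units.ext
  rw [Units.val_mul, he, mul_add, add_mul, add_mul, rk_sq h0, mul_one, one_mul, mul_one, add_zero, add_assoc,
    hT.add_self, add_zero, Units.val_one]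

theorem InL.mul {i : Fin t} {s r : GL (Fin t → Fin m) F} (hs : InL i s) (hr : InL i r) : InL i (s * r) := by
  obtain ⟨A, hA⟩ := hs
  obtain ⟨B, hB⟩ := hr
  exact ⟨A * B, by rw [Units.val_mul, hA, hB, map_mul]⟩

theorem InL.cen {i j : Fin t} (hij : i ≠ j) {s : GL (Fin t → Fin m) F} (hs : InL i s) :
    s ∈ CenG (slotEmb (F := F) (m := m) j) := by
  obtain ⟨A, hA⟩ := hs
  intro B
  rw [hA]
  exact slotMat_commute hij.symm _ _

theorem InL.inv [Nonempty (Fin t → Fin m)] [Nonempty (Fin m)] {i : Fin t} {s : GL (Fin t → Fin m) F} (hs : InL i s) : InL i s⁻¹ := by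
  obtain ⟨A, hA⟩ := hs
  have hinj : Function.Injective (slotEmb (F := F) (m := m) i) := (slotEmb (F := F) (m := m) i).toRingHom.injective
  have h1 : IsUnit A := by
    rw [isUnit_iff_isUnit_det]
    by_contra hcon
    rw [isUnit_iff_ne_zero, not_not] at hcon
    obtain ⟨v, hv, hv0⟩ := exists_mulVec_eq_zero_iff.2 hcon
    have h2 : (s : Matrix (Fin t → Fin m) (Fin t → Fin m) F) * rk (slotEmb i) v v = 0 := by
      rw [hA, map_mul_rk, hv0, rk_zero_left]
    have h3 := congrArg (fun Z => ((s⁻¹ : GL (Fin t → Fin m) F) : Matrix (Fin t → Fin m) (Fin t → Fin m) F) * Z) h2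
    simp only [← mul_assoc, Units.inv_mul, one_mul, mul_zero] at h3
    exact rk_ne_zero _ hv hv h3
  obtain ⟨u, rfl⟩ := h1
  refine ⟨((u⁻¹ : GL (Fin m) F) : Matrix (Fin m) (Fin m) F), ?_⟩
  have h2 : s = slotGL i u := Units.ext hA
  rw [h2]
  rfl

theorem comm_of_ne {i j : Fin t} (hij : i ≠ j) {s r : GL (Fin t → Fin m) F} (hs : InL i s) (hr : InL j r) :
    s * r = r * s := by
  obtain ⟨A, hA⟩ := hs
  obtain ⟨B, hB⟩ := hr
  apply Units.ext
  rw [Units.val_mul, Units.val_mul, hA, hB]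
  exact slotMat_commute hij _ _

/-- an element of slot `i` centralising slot `i` is trivial -/
theorem eq_one_of_cen (hT : Two F) (hm : 3 ≤ m) {i : Fin t} {s : GL (Fin t → Fin m) F} (hs : InL i s)
    (hc : s ∈ CenG (slotEmb (F := F) (m := m) i)) : s = 1 := by
  have hne : Nonempty (Fin t → Fin m) := ⟨fun _ => ⟨0, by omega⟩⟩
  obtain ⟨A, hA⟩ := hs
  obtain ⟨c, hc⟩ := scalar_of_commute_slots (M := (s : Matrix (Fin t → Fin m) (Fin t → Fin m) F)) (by
    intro j x
    by_cases h : i = j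
    · subst h
      exact (hc x).eq.symm
    · rw [hA]
      exact slotMat_commute h _ _)
  apply Units.ext
  have hc0 : c ≠ 0 := by
    rintro rfl
    rw [zero_smul] at hc
    exact s.ne_zero hc
  rw [hc, hT.eq_one hc0, one_smul, Units.val_one]

/-- the action of an element of the wreath subgroup on the slots -/
def Acts [Nonempty (Fin t → Fin m)] (x : GL (Fin t → Fin m) F) (σ : Equiv.Perm (Fin t)) : Prop :=
  ∀ i A, ∃ B, conjA x (slotEmb i A) = slotEmb (σ i) B

theorem exists_acts [Nonempty (Fin t → Fin m)] (hm : 3 ≤ m) {x : GL (Fin t → Fin m) F} (hx : x ∈ tensorWreathStandard m t F) :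
    ∃ σ, Acts (F := F) (m := m) x σ := by
  obtain ⟨σ, hσ⟩ := std_cj hx
  refine ⟨σ, fun i A => ?_⟩
  obtain ⟨B, hB⟩ := hσ i A
  exact ⟨B, hB.symm⟩

theorem Acts.mul [Nonempty (Fin t → Fin m)] {x y : GL (Fin t → Fin m) F} {σ τ : Equiv.Perm (Fin t)} (hx : Acts x σ) (hy : Acts y τ) :
    Acts (x * y) (σ * τ) := by
  intro i A
  obtain ⟨B, hB⟩ := hy i A
  obtain ⟨C, hC⟩ := hx (τ i) B
  refine ⟨C, ?_⟩
  rw [Equiv.Perm.mul_apply, ← hC, ← hB, conjA_mul]

theorem Acts.conj [Nonempty (Fin t → Fin m)] {x s : GL (Fin t → Fin m) F} {σ : Equiv.Perm (Fin t)} (hx : Acts x σ) {i : Fin t} (hs : InL i s) :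
    InL (σ i) (x * s * x⁻¹) := by
  obtain ⟨A, hA⟩ := hs
  obtain ⟨B, hB⟩ := hx i A
  refine ⟨B, ?_⟩
  rw [← hB, conjA_apply, Units.val_mul, Units.val_mul, hA]

/-- an element in two different slots is trivial -/
theorem slot_unique (hT : Two F) (hm : 3 ≤ m) {i j : Fin t} {s : GL (Fin t → Fin m) F} (hi : InL i s) (hj : InL j s)
    (hs : s ≠ 1) : i = j := by
  by_contra hij
  exact hs (eq_one_of_cen hT hm hi (hj.cen fun h => hij h.symm))

theorem IsRt.ne_one (hm : 3 ≤ m) {i : Fin t} {s : GL (Fin t → Fin m) F} (h : IsRt i s) : s ≠ 1 := by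
  have hne : Nonempty (Fin t → Fin m) := ⟨fun _ => ⟨0, by omega⟩⟩
  obtain ⟨a, α, ha, hα, -, he⟩ := h
  rintro rfl
  rw [Units.val_one, left_eq_add] at he
  exact rk_ne_zero _ ha hα he

theorem Acts.unique [Nonempty (Fin t → Fin m)] (hT : Two F) (hm : 3 ≤ m) {x : GL (Fin t → Fin m) F}
    {σ τ : Equiv.Perm (Fin t)} (h : Acts x σ) (h' : Acts x τ) : σ = τ := by
  obtain ⟨a, ha⟩ := exists_ne_zero_vec (F := F) hm
  obtain ⟨φ, hφ, hφa, -⟩ := exists_two (a := a) (b := a) hm
  apply Equiv.ext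
  intro i
  have hs : IsRt i (un (rk (slotEmb (F := F) (m := m) i) a φ) (rk_sq hφa)) := ⟨a, φ, ha, hφ, hφa, rfl⟩
  apply slot_unique hT hm (h.conj hs.inL) (h'.conj hs.inL)
  intro h1
  apply hs.ne_one hm
  rw [mul_inv_eq_one] at h1
  exact mul_eq_left.1 h1

/-- context: a counterexample over the field of two elements -/
structure Ctx (M : Subgroup (GL (Fin t → Fin m) F)) : Prop where
  two : Two F
  hm : 3 ≤ m
  ht : 2 ≤ t
  hHM : tensorWreathStandard m t F ≤ M
  hM : ¬ specialLinear (Fin t → Fin m) F ≤ M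
  norm : ∀ n ∈ M, ∀ i j, RLe (cj n (slotEmb (F := F) (m := m) i)) (slotEmb j) → n ∈ tensorWreathStandard m t F

variable {M : Subgroup (GL (Fin t → Fin m) F)}

theorem Ctx.hHS (h : Ctx M) : HS m t F ≤ M := by rw [h.two.HS_eq]; exact h.hHM

theorem Ctx.ne (h : Ctx M) : Nonempty (Fin t → Fin m) := ⟨fun _ => ⟨0, by have := h.hm; omega⟩⟩

theorem IsRt.mem (h : Ctx M) {i : Fin t} {s : GL (Fin t → Fin m) F} (hs : IsRt i s) :
    s ∈ tensorWreathStandard m t F := by
  obtain ⟨A, hA⟩ := hs.inL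
  obtain ⟨a, α, -, -, h0, he⟩ := hs
  have : s = slotGL i (tv a α h0) := by
    apply Units.ext
    rw [he, slotGL_val, coe_tv, map_add, map_one]
    rfl
  rw [this]
  exact slotGL_mem _ _

theorem InL.mem (h : Ctx M) {i : Fin t} {s : GL (Fin t → Fin m) F} (hs : InL i s) :
    s ∈ tensorWreathStandard m t F := by
  have hne := h.ne
  apply mem_std_of_permutes h.hm (by have := h.ht; omega)
  intro j
  obtain ⟨A, hA⟩ := hs
  obtain ⟨C, hC⟩ : InL i s⁻¹ := by
    have : Nonempty (Fin m) := ⟨⟨0, by have := h.hm; omega⟩⟩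
    exact InL.inv ⟨A, hA⟩
  by_cases hij : i = j
  · subst hij
    refine ⟨i, fun B => ⟨A * B * C, ?_⟩⟩
    rw [cj_apply, conjA_apply, map_mul, map_mul, ← hA, ← hC]
  · refine ⟨j, fun B => ⟨B, ?_⟩⟩
    rw [cj_apply, conjA_eq_self]
    rw [hA]
    exact slotMat_commute hij _ _

/-- **TI for roots.** -/
theorem Ctx.ti (h : Ctx M) {i : Fin t} {s g : GL (Fin t → Fin m) F} (hs : IsRt i s) (hg : g ∈ M)
    (hgs : g * s * g⁻¹ ∈ tensorWreathStandard m t F) :
    g ∈ tensorWreathStandard m t F ∧ ∃ j, IsRt j (g * s * g⁻¹) := by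
  have hne := h.ne
  obtain ⟨a, α, ha, hα, h0, he⟩ := hs
  have h1 : ((g * s * g⁻¹ : GL (Fin t → Fin m) F) : Matrix (Fin t → Fin m) (Fin t → Fin m) F) =
      1 + conjA g (rk (slotEmb i) a α) := by
    rw [Units.val_mul, Units.val_mul, he, mul_add, add_mul, mul_one, Units.mul_inv]
    rfl
  obtain ⟨j, b, β, hb, hβ, h0', he'⟩ := root_of_conj h.two h.hm h.hHS h.hM ha hα h0 hg ⟨_, hgs, h1⟩
  refine ⟨?_, j, b, β, hb, hβ, h0', by rw [h1, he']⟩
  exact h.norm g hg i j (((ge_slot h.hHS h.hm h.hM i).cj hg).range_le (ge_slot h.hHS h.hm h.hM j) h.hm ha hα hb hβ he')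

/-- the strong elements -/
def Str (M : Subgroup (GL (Fin t → Fin m) F)) : Set (GL (Fin t → Fin m) F) :=
  {s | s ∈ tensorWreathStandard m t F ∧ s * s = 1 ∧
    ∀ g ∈ M, g * s * g⁻¹ ∈ tensorWreathStandard m t F → g ∈ tensorWreathStandard m t F}

theorem IsRt.str (h : Ctx M) {i : Fin t} {s : GL (Fin t → Fin m) F} (hs : IsRt i s) : s ∈ Str M :=
  ⟨hs.mem h, (have := h.ne; hs.sq h.two), fun g hg hgs => (h.ti hs hg hgs).1⟩

theorem Ctx.transfer [Finite F] (h : Ctx M) (L : Subgroup (GL (Fin t → Fin m) F)) {s s' g : GL (Fin t → Fin m) F}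
    (hs : s ∈ Str M) (hs' : s' ∈ Str M) (hg : g ∈ M) (h1 : s ∈ L) (h2 : g * s' * g⁻¹ ∈ L) :
    ∃ l ∈ L, ∃ k ∈ tensorWreathStandard m t F, g = l * k := by
  have : Finite (Matrix (Fin t → Fin m) (Fin t → Fin m) F) := inferInstance
  have : Finite (GL (Fin t → Fin m) F) := inferInstance
  exact H880.ti_transfer_one (p := 2) Nat.prime_two M (tensorWreathStandard m t F) h.hHM (Str M)
    (fun s hs => ⟨hs.1, 1, by rw [pow_one, pow_two, hs.2.1]⟩) (fun s hs g hg hgs => hs.2.2 g hg hgs) L hs hs' hg h1 h2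

theorem str_cent {s g : GL (Fin t → Fin m) F} (hs : s ∈ Str M) (hg : g ∈ M) (hgs : g * s * g⁻¹ = s) :
    g ∈ tensorWreathStandard m t F := hs.2.2 g hg (by rw [hgs]; exact hs.1)

/-- support of a product of two slot elements -/
theorem Ctx.support [Nonempty (Fin t → Fin m)] (h : Ctx M) {i j : Fin t} (hij : i ≠ j) {u v k : GL (Fin t → Fin m) F} (hu : InL i u)
    (hv : InL j v) (hu1 : u ≠ 1) (hv1 : v ≠ 1) {σ : Equiv.Perm (Fin t)} (hσ : Acts k σ)
    (hk : k * (u * v) * k⁻¹ = u * v) :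
    (σ i = i ∧ k * u * k⁻¹ = u) ∨ (σ i = j ∧ k * u * k⁻¹ = v) := by
  have hnm : Nonempty (Fin m) := ⟨⟨0, by have := h.hm; omega⟩⟩
  set v1 := k * u * k⁻¹ with hv1d
  set v2 := k * v * k⁻¹ with hv2d
  have h1 : InL (σ i) v1 := hσ.conj hu
  have h2 : InL (σ j) v2 := hσ.conj hv
  have h12 : v1 * v2 = u * v := by rw [← hk, hv1d, hv2d]; group
  have hσij : σ i ≠ σ j := fun h => hij (σ.injective h)
  have hv1ne : v1 ≠ 1 := by
    intro h3
    apply hu1
    rw [hv1d, mul_inv_eq_one] at h3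
    exact mul_eq_left.1 h3
  by_cases hi : σ i = i
  · left
    refine ⟨hi, ?_⟩
    rw [hi] at h1 hσij
    have h3 : v1⁻¹ * u = v2 * v⁻¹ := by
      rw [inv_mul_eq_iff_eq_mul, ← mul_assoc, h12, mul_inv_cancel_right]
    have h4 : v1⁻¹ * u = 1 := by
      apply eq_one_of_cen h.two h.hm (h1.inv.mul hu)
      rw [h3]
      exact Subgroup.mul_mem _ (h2.cen hσij.symm) (hv.inv.cen hij.symm)
    exact (inv_mul_eq_one.1 h4)
  · by_cases hj : σ i = j
    · right
      refine ⟨hj, ?_⟩
      rw [hj] at h1 hσij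
      have h3 : v1⁻¹ * v = v2 * u⁻¹ := by
        rw [inv_mul_eq_iff_eq_mul, ← mul_assoc, h12, comm_of_ne hij hu hv, mul_inv_cancel_right]
      have h4 : v1⁻¹ * v = 1 := by
        apply eq_one_of_cen h.two h.hm (h1.inv.mul hv)
        rw [h3]
        exact Subgroup.mul_mem _ (h2.cen hσij.symm) (hu.inv.cen hij)
      exact (inv_mul_eq_one.1 h4)
    · exfalso
      apply hv1ne
      apply eq_one_of_cen h.two h.hm h1
      have h3 : v1 = u * v * v2⁻¹ := by rw [← h12, mul_inv_cancel_right]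
      rw [h3]
      exact Subgroup.mul_mem _ (Subgroup.mul_mem _ (hu.cen (Ne.symm hi)) (hv.cen (Ne.symm hj))) (h2.inv.cen hσij.symm)

/-- a further root with the same centre -/
theorem IsRt.partner [Nonempty (Fin t → Fin m)] (hT : Two F) (hm : 3 ≤ m) {i : Fin t} {u : GL (Fin t → Fin m) F} (hu : IsRt i u) :
    ∃ x, IsRt i x ∧ IsRt i (x * u) := by
  obtain ⟨a, α, ha, hα, h0, he⟩ := hu
  obtain ⟨b, β, h1, h2, h3⟩ := exists_bridge a α hm
  have hβ : β ≠ 0 := by rintro rfl; rw [zero_dotProduct] at h3; exact zero_ne_one h3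
  refine ⟨un (rk (slotEmb i) a β) (rk_sq h2), ⟨a, β, ha, hβ, h2, rfl⟩, a, β + α, ha, ?_, ?_, ?_⟩
  · intro h4
    have := congrArg (fun z => z ⬝ᵥ b) h4
    simp only [add_dotProduct, h3, h1, add_zero, zero_dotProduct] at this
    exact one_ne_zero this
  · rw [add_dotProduct, h2, h0, add_zero]
  · rw [Units.val_mul, he, coe_un, rk_add_right, mul_add, mul_one, add_mul, one_mul, rk_mul_rk, h2, zero_smul, add_zero,
      add_assoc]

/-- **The centraliser of a product of two roots in different slots.** -/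
theorem Ctx.cent_pair [Finite F] (h : Ctx M) {i j : Fin t} (hij : i ≠ j) {u v g : GL (Fin t → Fin m) F}
    (hu : IsRt i u) (hv : IsRt j v) (hg : g ∈ M) (hgc : g * (u * v) * g⁻¹ = u * v) :
    g ∈ tensorWreathStandard m t F := by
  have hne := h.ne
  by_contra hgH
  obtain ⟨x, hx, hxu⟩ := hu.partner h.two h.hm
  have hxx := hx.sq h.two
  have huu := hu.sq h.two
  have hvv := hv.sq h.two
  set x' := g * u * g⁻¹ with hx'
  have hx'x' : x' * x' = 1 := by
    rw [hx']
    calc g * u * g⁻¹ * (g * u * g⁻¹) = g * (u * u) * g⁻¹ := by group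
      _ = 1 := by rw [huu]; group
  obtain ⟨l, hl, k, hk, hgl⟩ := h.transfer (Subgroup.closure {x, x'}) (hx.str h) (hu.str h) hg
    (Subgroup.subset_closure (by simp)) (Subgroup.subset_closure (by simp [hx']))
  have huv := comm_of_ne hij hu.inL hv.inL
  have hxv := comm_of_ne hij hx.inL hv.inL
  -- x commutes with u
  have hxu' : x * u = u * x := by
    have h1 := hxu.sq h.two
    calc x * u = x * u * (x * u * (x * u)) := by rw [h1, mul_one]
      _ = x * (u * (x * u) * (x * u)) := by simp only [mul_assoc]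
      _ = _ := by
        have h2 : x * u * x * u = 1 := by rw [← h1]; simp only [mul_assoc]
        have h3 : x * u * x = u := by
          calc x * u * x = x * u * x * (u * u) := by rw [huu, mul_one]
            _ = (x * u * x * u) * u := by simp only [mul_assoc]
            _ = u := by rw [h2, one_mul]
        calc x * (u * (x * u) * (x * u)) = x * u * (x * (u * x)) * u := by simp only [mul_assoc]
          _ = x * u * (x * u * x) * u := by simp only [mul_assoc]
          _ = x * (u * u) * u := by rw [h3]; simp only [mul_assoc]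
          _ = x * u := by rw [huu, mul_one]
          _ = x * u * (x * x) := by rw [hxx, mul_one]
          _ = (x * u * x) * x := by simp only [mul_assoc]
          _ = u * x := by rw [h3]
  -- the elements of the dihedral group commute with `u v`
  have hL : Subgroup.closure {x, x'} ≤ Subgroup.centralizer {u * v} := by
    rw [Subgroup.closure_le]
    rintro y (rfl | hy)
    · rw [SetLike.mem_coe, Subgroup.mem_centralizer_singleton_iff]
      rw [← mul_assoc, hxu', mul_assoc, hxv, ← mul_assoc]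
    · rw [Set.mem_singleton_iff] at hy
      subst hy
      rw [SetLike.mem_coe, Subgroup.mem_centralizer_singleton_iff]
      have h1 : g * u * g⁻¹ * (g * (u * v) * g⁻¹) = (g * (u * v) * g⁻¹) * (g * u * g⁻¹) := by
        calc g * u * g⁻¹ * (g * (u * v) * g⁻¹) = g * (u * (u * v)) * g⁻¹ := by group
          _ = g * (u * v * u) * g⁻¹ := by rw [mul_assoc u v u, ← huv]
          _ = _ := by group
      rwa [hgc] at h1
  have hlc : l * (u * v) = (u * v) * l := Subgroup.mem_centralizer_singleton_iff.1 (hL hl)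
  have hkc : k * (u * v) * k⁻¹ = u * v := by
    have hk' : k = l⁻¹ * g := by rw [hgl]; group
    calc k * (u * v) * k⁻¹ = l⁻¹ * (g * (u * v) * g⁻¹) * l := by rw [hk']; group
      _ = l⁻¹ * ((u * v) * l) := by rw [hgc, mul_assoc]
      _ = u * v := by rw [← hlc]; group
  obtain ⟨σ, hσ⟩ := exists_acts h.hm hk
  have hy' : k * u * k⁻¹ = l⁻¹ * x' * l := by
    rw [hx', hgl]; group
  have hfin : x' * (x * u) * x'⁻¹ = x * u → False := by
    intro h1
    have h2 : x' ∈ tensorWreathStandard m t F := by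
      apply str_cent (hxu.str h) _ h1
      exact M.mul_mem (M.mul_mem hg (h.hHM (hu.mem h))) (M.inv_mem hg)
    exact hgH (h.ti hu hg h2).1
  rcases h.support hij hu.inL hv.inL (hu.ne_one h.hm) (hv.ne_one h.hm) hσ hkc with ⟨-, h1⟩ | ⟨-, h1⟩
  · rw [h1] at hy'
    apply hfin
    exact dihedral hxx hx'x' hl hy' (n := 1) (by rw [pow_one]) (hxu.sq h.two)
  · rw [h1] at hy'
    apply hfin
    have hzz : (x * v) * (x * v) = 1 := by
      rw [mul_assoc, ← mul_assoc v, ← hxv, mul_assoc x v v, hvv, mul_one, hxx]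
    have h2 := dihedral hxx hx'x' hl hy' (n := 1) (by rw [pow_one]) hzz
    have h3 : x' * (u * v) * x'⁻¹ = u * v := by
      have h4 := Subgroup.mem_centralizer_singleton_iff.1 (hL (Subgroup.subset_closure (show x' ∈ ({x, x'} : Set _) by simp)))
      rw [h4, mul_inv_cancel_right]
    have h5 : x * u = (x * v) * (u * v) := by
      rw [huv, mul_assoc x v, ← mul_assoc v v, hvv, one_mul]
    calc x' * (x * u) * x'⁻¹ = (x' * (x * v) * x'⁻¹) * (x' * (u * v) * x'⁻¹) := by rw [h5]; group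
      _ = x * u := by rw [h2, h3, ← h5]

/-- **Centralisers of involutions of a slot.** -/
theorem Ctx.cent_inv (h : Ctx M) {i : Fin t} {y g : GL (Fin t → Fin m) F} (hy : InL i y) (hyy : y * y = 1)
    (hy1 : y ≠ 1) (hg : g ∈ M) (hgy : g * y * g⁻¹ = y) : g ∈ tensorWreathStandard m t F := by
  have hne := h.ne
  obtain ⟨A0, hA0⟩ := hy
  set A := A0 - 1 with hA
  have hy' : (y : Matrix (Fin t → Fin m) (Fin t → Fin m) F) = 1 + slotEmb i A := by
    rw [hA0, hA, map_sub, map_one]; abel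
  have hinj := ρ_injective (slotEmb (F := F) (m := m) i)
  have hAA : A * A = 0 := by
    apply hinj
    have h1 : (y : Matrix (Fin t → Fin m) (Fin t → Fin m) F) * (y : Matrix (Fin t → Fin m) (Fin t → Fin m) F) = 1 := by
      rw [← Units.val_mul, hyy, Units.val_one]
    rw [hy', mul_add, add_mul, add_mul, mul_one, one_mul, mul_one, ← map_mul, add_assoc, ← add_assoc (slotEmb i A),
      h.two.add_self, zero_add, add_eq_left] at h1
    rw [h1, map_zero]
  have hA0' : A ≠ 0 := by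
    intro h1
    apply hy1
    apply Units.ext
    rw [hy', h1, map_zero, add_zero, Units.val_one]
  obtain ⟨u, hu⟩ : ∃ u, A *ᵥ u ≠ 0 := by
    by_contra hcon
    push Not at hcon
    apply hA0'
    exact Matrix.mulVec_injective (funext fun v => by rw [hcon, zero_mulVec])
  obtain ⟨ψ, hψ⟩ : ∃ ψ, ψ ᵥ* A ≠ 0 := by
    by_contra hcon
    push Not at hcon
    apply hA0'
    ext i' j'
    have := congrFun (hcon (Pi.single i' 1)) j'
    simpa using this
  have h0 : (ψ ᵥ* A) ⬝ᵥ (A *ᵥ u) = 0 := by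
    rw [← dotProduct_mulVec, mulVec_mulVec, hAA, zero_mulVec, dotProduct_zero]
  set X := rk (slotEmb i) (A *ᵥ u) (ψ ᵥ* A) with hX
  have hXe : X = slotEmb i A * rk (slotEmb i) u ψ * slotEmb i A := by
    rw [map_mul_rk, rk_mul_map]
  have hgA : conjA g (slotEmb i A) = slotEmb i A := by
    have h1 : slotEmb i A = (y : Matrix (Fin t → Fin m) (Fin t → Fin m) F) - 1 := by rw [hy']; abel
    rw [h1, map_sub, map_one, conjA_apply, ← Units.val_mul, ← Units.val_mul, hgy]
  have hgX : conjA g X = slotEmb i A * conjA g (rk (slotEmb i) u ψ) * slotEmb i A := by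
    rw [hXe, map_mul, map_mul, hgA]
  have hge := ge_slot h.hHS h.hm h.hM i
  obtain ⟨C, hC⟩ := hge.pz h.hm hAA ((hge.root h0).conjA hg) hgX
  have hw : ∀ b β, b ≠ 0 → β ≠ 0 → (rk (slotEmb i) b β).rank = X.rank := fun b β hb hβ => rank_rk_eq hb hβ hu hψ
  exact h.norm g hg i i ((hge.cj hg).rle_of_mem hge h.hm (w := X.rank) (fun b β hb hβ => by
    rw [rk_cj, rank_conjA, hw b β hb hβ]) hw hu hψ ⟨C, hC⟩)

/-- an involution fixing a slot commutes with a root of the slot -/
theorem Ctx.exists_root_comm [Nonempty (Fin t → Fin m)] (h : Ctx M) {c : GL (Fin t → Fin m) F} (hcc : c * c = 1) {σ : Equiv.Perm (Fin t)}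
    (hσ : Acts c σ) {k : Fin t} (hk : σ k = k) : ∃ r, IsRt k r ∧ c * r * c⁻¹ = r := by
  have hm := h.hm
  have hle : RLe (cj c (slotEmb (F := F) (m := m) k)) (slotEmb k) := by
    intro A
    obtain ⟨B, hB⟩ := hσ k A
    rw [hk] at hB
    exact ⟨B, hB.symm⟩
  obtain ⟨a, b, hb, he⟩ := exists_factor (by omega) hle
  have hcom : (UG (slotEmb (F := F) (m := m) k) a) * b = b * UG (slotEmb (F := F) (m := m) k) a := by
    apply Units.ext
    rw [Units.val_mul, Units.val_mul]
    exact hb _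
  have hc' : c = UG (slotEmb (F := F) (m := m) k) a * b := Units.ext he
  have haa : a * a = 1 := by
    have h1 : UG (slotEmb (F := F) (m := m) k) (a * a) = (b * b)⁻¹ := by
      rw [eq_inv_iff_mul_eq_one, map_mul, ← hcc, hc']
      calc UG (slotEmb (F := F) (m := m) k) a * UG (slotEmb k) a * (b * b) =
          UG (slotEmb (F := F) (m := m) k) a * (UG (slotEmb k) a * b) * b := by simp only [mul_assoc]
        _ = UG (slotEmb (F := F) (m := m) k) a * (b * UG (slotEmb k) a) * b := by rw [hcom]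
        _ = _ := by simp only [mul_assoc]
    have h2 : UG (slotEmb (F := F) (m := m) k) (a * a) = 1 := by
      apply eq_one_of_cen h.two h.hm (i := k) ⟨_, rfl⟩
      rw [h1]
      exact Subgroup.inv_mem _ (Subgroup.mul_mem _ hb hb)
    apply Units.ext
    apply ρ_injective (slotEmb (F := F) (m := m) k)
    have h3 := congrArg (fun z : GL (Fin t → Fin m) F => (z : Matrix (Fin t → Fin m) (Fin t → Fin m) F)) h2
    change slotEmb k ((a * a : GL (Fin m) F) : Matrix (Fin m) (Fin m) F) = 1 at h3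
    rw [h3, Units.val_one, map_one]
  set A := (a : Matrix (Fin m) (Fin m) F) - 1 with hA
  have ha' : (a : Matrix (Fin m) (Fin m) F) = 1 + A := by rw [hA]; abel
  have hAA : A * A = 0 := by
    have h1 : (a : Matrix (Fin m) (Fin m) F) * (a : Matrix (Fin m) (Fin m) F) = 1 := by
      rw [← Units.val_mul, haa, Units.val_one]
    rw [ha', mul_add, add_mul, add_mul, mul_one, one_mul, mul_one, add_assoc, ← add_assoc A, h.two.add_self, zero_add,
      add_eq_left] at h1
    exact h1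
  -- the root
  obtain ⟨e, φ, he0, hφ0, hφe, hAe, hφA⟩ : ∃ e φ : Fin m → F, e ≠ 0 ∧ φ ≠ 0 ∧ φ ⬝ᵥ e = 0 ∧ A *ᵥ e = 0 ∧ φ ᵥ* A = 0 := by
    by_cases hA0 : A = 0
    · obtain ⟨e, he0⟩ := exists_ne_zero_vec (F := F) hm
      obtain ⟨φ, hφ, hφe, -⟩ := exists_two (a := e) (b := e) hm
      exact ⟨e, φ, he0, hφ, hφe, by rw [hA0, zero_mulVec], by rw [hA0, vecMul_zero]⟩
    · obtain ⟨u, hu⟩ : ∃ u, A *ᵥ u ≠ 0 := by
        by_contra hcon
        push Not at hcon
        apply hA0
        exact Matrix.mulVec_injective (funext fun v => by rw [hcon, zero_mulVec])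
      obtain ⟨ψ, hψ⟩ : ∃ ψ, ψ ᵥ* A ≠ 0 := by
        by_contra hcon
        push Not at hcon
        apply hA0
        ext i' j'
        have := congrFun (hcon (Pi.single i' 1)) j'
        simpa using this
      refine ⟨A *ᵥ u, ψ ᵥ* A, hu, hψ, ?_, ?_, ?_⟩
      · rw [← dotProduct_mulVec, mulVec_mulVec, hAA, zero_mulVec, dotProduct_zero]
      · rw [mulVec_mulVec, hAA, zero_mulVec]
      · rw [vecMul_vecMul, hAA, vecMul_zero]
  refine ⟨un (rk (slotEmb k) e φ) (rk_sq hφe), ⟨e, φ, he0, hφ0, hφe, rfl⟩, ?_⟩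
  rw [mul_inv_eq_iff_eq_mul]
  apply Units.ext
  rw [Units.val_mul, Units.val_mul, coe_un, mul_add, add_mul, mul_one, one_mul, he, ha', map_add, map_one]
  congr 1
  rw [add_mul, add_mul, one_mul, mul_assoc, ← hb.rk, ← mul_assoc, map_mul_rk, hAe, rk_zero_left, zero_mul, add_zero,
    mul_add, ← mul_assoc (rk (slotEmb k) e φ), rk_mul_map, hφA, rk_zero_right, zero_mul, add_zero]

/-- **Strong involutions.** -/
theorem Ctx.strong [Nonempty (Fin t → Fin m)] [Finite F] (h : Ctx M) {y : GL (Fin t → Fin m) F} (hy : y ∈ tensorWreathStandard m t F)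
    (hyy : y * y = 1) (hcent : ∀ g ∈ M, g * y * g⁻¹ = y → g ∈ tensorWreathStandard m t F) {i0 j0 : Fin t}
    (hsup : ∀ s ∈ tensorWreathStandard m t F, s * y * s⁻¹ = y → ∀ σ, Acts (F := F) (m := m) s σ →
      (σ i0 = i0 ∨ σ i0 = j0) ∧ (σ j0 = i0 ∨ σ j0 = j0)) : y ∈ Str M := by
  have hm := h.hm
  have ht := h.ht
  refine ⟨hy, hyy, ?_⟩
  intro g hg hc
  by_contra hgH
  set c := g * y * g⁻¹ with hcd
  have hcc : c * c = 1 := by
    calc c * c = g * (y * y) * g⁻¹ := by rw [hcd]; group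
      _ = 1 := by rw [hyy]; group
  have hcM : c ∈ M := h.hHM hc
  obtain ⟨σ, hσ⟩ := exists_acts hm hc
  -- elements commuting with `c`
  have hback : ∀ s ∈ M, c * s * c⁻¹ = s → g⁻¹ * s * g ∈ tensorWreathStandard m t F ∧
      (g⁻¹ * s * g) * y * (g⁻¹ * s * g)⁻¹ = y := by
    intro s hs hcs
    have h1 : (g⁻¹ * s * g) * y * (g⁻¹ * s * g)⁻¹ = y := by
      have h2 : s * c * s⁻¹ = c := by
        have h3 : c * s = s * c := by rw [← mul_inv_eq_iff_eq_mul]; exact hcs
        rw [← h3, mul_inv_cancel_right]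
      have h3 : y = g⁻¹ * c * g := by rw [hcd]; group
      calc (g⁻¹ * s * g) * y * (g⁻¹ * s * g)⁻¹ = g⁻¹ * (s * (g * y * g⁻¹) * s⁻¹) * g := by group
        _ = y := by rw [← hcd, h2, ← h3]
    exact ⟨hcent _ (M.mul_mem (M.mul_mem (M.inv_mem hg) hs) hg) h1, h1⟩
  by_cases hfix : ∃ k, σ k = k
  · obtain ⟨k, hk⟩ := hfix
    obtain ⟨r, hr, hcr⟩ := h.exists_root_comm hcc hσ hk
    have h1 := (hback r (h.hHM (hr.mem h)) hcr).1
    have h2 := (h.ti hr (M.inv_mem hg) (by rwa [inv_inv])).1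
    exact hgH (by simpa using Subgroup.inv_mem _ h2)
  · push Not at hfix
    let k0 : Fin t := ⟨0, by omega⟩
    have hcinv : c⁻¹ = c := by rw [inv_eq_iff_mul_eq_one, hcc]
    -- the elements `s_r`
    have hsr : ∀ r, IsRt k0 r → c * (r * (c * r * c⁻¹)) * c⁻¹ = r * (c * r * c⁻¹) := by
      intro r hr
      have h1 : InL (σ k0) (c * r * c⁻¹) := hσ.conj hr.inL
      have h2 := comm_of_ne (hfix k0).symm hr.inL h1
      calc c * (r * (c * r * c⁻¹)) * c⁻¹ = (c * r * c⁻¹) * ((c * c) * r * (c * c)⁻¹) := by group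
        _ = r * (c * r * c⁻¹) := by rw [hcc, inv_one, mul_one, one_mul, h2]
    have hrt : ∀ r, IsRt k0 r → IsRt (σ k0) (c * r * c⁻¹) := by
      intro r hr
      obtain ⟨j, hj⟩ := (h.ti hr hcM (Subgroup.mul_mem _ (Subgroup.mul_mem _ hc (hr.mem h)) (Subgroup.inv_mem _ hc))).2
      have := slot_unique h.two hm hj.inL (hσ.conj hr.inL) (hj.ne_one hm)
      rwa [this] at hj
    have htau : ∀ r, IsRt k0 r → ∃ τ, Acts (F := F) (m := m) (g⁻¹ * (r * (c * r * c⁻¹)) * g) τ ∧ τ i0 = j0 ∧ τ j0 = i0 ∧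
        i0 ≠ j0 := by
      intro r hr
      have hrM : r * (c * r * c⁻¹) ∈ M := M.mul_mem (h.hHM (hr.mem h)) (h.hHM ((hrt r hr).mem h))
      obtain ⟨h1, h2⟩ := hback _ hrM (hsr r hr)
      obtain ⟨τ, hτ⟩ := exists_acts hm h1
      have hss : (g⁻¹ * (r * (c * r * c⁻¹)) * g) * (g⁻¹ * (r * (c * r * c⁻¹)) * g) = 1 := by
        have h3 := comm_of_ne (hfix k0).symm hr.inL (hrt r hr).inL
        calc (g⁻¹ * (r * (c * r * c⁻¹)) * g) * (g⁻¹ * (r * (c * r * c⁻¹)) * g)
            = g⁻¹ * (r * ((c * r * c⁻¹) * r) * (c * r * c⁻¹)) * g := by group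
          _ = g⁻¹ * ((r * r) * ((c * r * c⁻¹) * (c * r * c⁻¹))) * g := by rw [← h3]; group
          _ = 1 := by rw [hr.sq h.two, (hrt r hr).sq h.two]; group
      have hnofix : ∀ l, τ l ≠ l := by
        intro l hl
        obtain ⟨r', hr', hcr'⟩ := h.exists_root_comm hss hτ hl
        have h3 : (g * r' * g⁻¹) * (r * (c * r * c⁻¹)) * (g * r' * g⁻¹)⁻¹ = r * (c * r * c⁻¹) := by
          set s' := g⁻¹ * (r * (c * r * c⁻¹)) * g with hs'
          have h4 : r * (c * r * c⁻¹) = g * s' * g⁻¹ := by rw [hs']; group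
          have h5 : s' * r' = r' * s' := by rw [← mul_inv_eq_iff_eq_mul]; exact hcr'
          rw [h4]
          calc (g * r' * g⁻¹) * (g * s' * g⁻¹) * (g * r' * g⁻¹)⁻¹ = g * (r' * s') * r'⁻¹ * g⁻¹ := by group
            _ = g * s' * g⁻¹ := by rw [← h5]; group
        have h4 := h.cent_pair (hfix k0).symm hr (hrt r hr)
          (M.mul_mem (M.mul_mem hg (h.hHM (hr'.mem h))) (M.inv_mem hg)) h3
        exact hgH (h.ti hr' hg h4).1
      obtain ⟨h3, h4⟩ := hsup _ h1 h2 τ hτ
      have h5 : τ i0 = j0 := h3.resolve_left (hnofix _)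
      have h6 : τ j0 = i0 := h4.resolve_right (hnofix _)
      refine ⟨τ, hτ, h5, h6, ?_⟩
      intro h7
      apply hnofix i0
      rw [h5, h7]
    -- three roots
    obtain ⟨a, ha⟩ := exists_ne_zero_vec (F := F) hm
    obtain ⟨φ, hφ, hφa, -⟩ := exists_two (a := a) (b := a) hm
    have hr1 : IsRt k0 (un (rk (slotEmb (F := F) (m := m) k0) a φ) (rk_sq hφa)) := ⟨a, φ, ha, hφ, hφa, rfl⟩
    set r1 := un (rk (slotEmb (F := F) (m := m) k0) a φ) (rk_sq hφa) with hr1d
    obtain ⟨r2, hr2, hr3⟩ := hr1.partner h.two hm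
    obtain ⟨τ1, a1, b1, c1, hij0⟩ := htau r1 hr1
    obtain ⟨τ2, a2, b2, c2, -⟩ := htau r2 hr2
    obtain ⟨τ3, a3, b3, c3, -⟩ := htau (r2 * r1) hr3
    have h1 : g⁻¹ * ((r2 * r1) * (c * (r2 * r1) * c⁻¹)) * g =
        (g⁻¹ * (r2 * (c * r2 * c⁻¹)) * g) * (g⁻¹ * (r1 * (c * r1 * c⁻¹)) * g) := by
      have h2 := comm_of_ne (hfix k0).symm hr1.inL (hrt r2 hr2).inL
      calc g⁻¹ * ((r2 * r1) * (c * (r2 * r1) * c⁻¹)) * g
          = g⁻¹ * (r2 * (r1 * (c * r2 * c⁻¹)) * (c * r1 * c⁻¹)) * g := by group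
        _ = _ := by rw [h2]; group
    rw [h1] at a3
    have h2 := (a2.mul a1).unique h.two hm a3
    have h3 : (τ2 * τ1) i0 = τ3 i0 := by rw [h2]
    rw [Equiv.Perm.mul_apply, b1, c2, b3] at h3
    exact hij0 h3

/-- involutions of a slot are strong -/
theorem Ctx.str_inL [Finite F] (h : Ctx M) {i : Fin t} {y : GL (Fin t → Fin m) F} (hy : InL i y) (hyy : y * y = 1)
    (hy1 : y ≠ 1) : y ∈ Str M := by
  have hne := h.ne
  apply h.strong (hy.mem h) hyy (fun g hg hgy => h.cent_inv hy hyy hy1 hg hgy) (i0 := i) (j0 := i)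
  intro s hs hsy σ hσ
  have h1 := hσ.conj hy
  rw [hsy] at h1
  have h2 := slot_unique h.two h.hm h1 hy hy1
  exact ⟨Or.inl h2, Or.inl h2⟩

/-- products of two roots of different slots are strong -/
theorem Ctx.str_pair [Finite F] (h : Ctx M) {i j : Fin t} (hij : i ≠ j) {u v : GL (Fin t → Fin m) F}
    (hu : IsRt i u) (hv : IsRt j v) : u * v ∈ Str M := by
  have hne := h.ne
  have huv := comm_of_ne hij hu.inL hv.inL
  apply h.strong (Subgroup.mul_mem _ (hu.mem h) (hv.mem h)) ?_ (fun g hg hgy => h.cent_pair hij hu hv hg hgy)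
    (i0 := i) (j0 := j)
  · intro s hs hsy σ hσ
    have h1 := h.support hij hu.inL hv.inL (hu.ne_one h.hm) (hv.ne_one h.hm) hσ hsy
    rw [huv] at hsy
    have h2 := h.support hij.symm hv.inL hu.inL (hv.ne_one h.hm) (hu.ne_one h.hm) hσ hsy
    refine ⟨?_, ?_⟩
    · rcases h1 with ⟨h3, -⟩ | ⟨h3, -⟩
      · exact Or.inl h3
      · exact Or.inr h3
    · rcases h2 with ⟨h3, -⟩ | ⟨h3, -⟩
      · exact Or.inr h3
      · exact Or.inl h3
  · calc u * v * (u * v) = u * (v * u) * v := by simp only [mul_assoc]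
      _ = (u * u) * (v * v) := by rw [← huv]; simp only [mul_assoc]
      _ = 1 := by rw [hu.sq h.two, hv.sq h.two, one_mul]

end Cfsg.Agent.H873.Wr
end

-- part: H873/WrTwoMain
section
/-!
Two-element fields: the final contradiction.
-/

set_option autoImplicit false
set_option linter.unusedSectionVars false
set_option linter.unusedSimpArgs false
set_option linter.unusedVariables false

namespace Cfsg.Agent.H873.Wr

open Matrix Cfsg.Agent.H919 Cfsg.Geo

/-! ### Transvections -/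

section Tv

variable {F : Type*} [Field F] {m : ℕ}

/-- a transvection -/
def Rt (g : GL (Fin m) F) : Prop := ∃ (a α : Fin m → F), a ≠ 0 ∧ α ≠ 0 ∧ ∃ h : α ⬝ᵥ a = 0, g = tv a α h

theorem Rt.sq (hT : Two F) {g : GL (Fin m) F} (hg : Rt g) : g * g = 1 := by
  obtain ⟨a, α, -, -, h, rfl⟩ := hg
  apply Units.ext
  rw [Units.val_mul, coe_tv, mul_add, add_mul, add_mul, vecMulVec_mul_vecMulVec, h, zero_smul, vecMulVec_zero, mul_one,
    one_mul, mul_one, add_zero, add_assoc, hT.add_self, add_zero, Units.val_one]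

theorem Rt.inv (hT : Two F) {g : GL (Fin m) F} (hg : Rt g) : g⁻¹ = g := by
  rw [inv_eq_iff_mul_eq_one, hg.sq hT]

theorem Rt.eq_K (hm : 3 ≤ m) {g : GL (Fin m) F} (hg : Rt g) : ∃ g1 g2, Rt g1 ∧ Rt g2 ∧ K g1 g2 = g := by
  obtain ⟨a, α, ha, hα, h, rfl⟩ := hg
  obtain ⟨b, β, h1, h2, h3⟩ := exists_bridge a α hm
  have hβ : β ≠ 0 := by rintro rfl; rw [zero_dotProduct] at h3; exact zero_ne_one h3
  have hb : b ≠ 0 := by rintro rfl; rw [dotProduct_zero] at h3; exact zero_ne_one h3
  exact ⟨tv a β h2, tv b α h1, ⟨a, β, ha, hβ, h2, rfl⟩, ⟨b, α, hb, hα, h1, rfl⟩, tv_commutator h h1 h2 h3⟩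

/-- the product of two transvections -/
theorem Rt.cases (hT : Two F) {u v : GL (Fin m) F} (hu : Rt u) (hv : Rt v) :
    (u * v = v * u ∧ (m = 3 → u * v = 1 ∨ Rt (u * v))) ∨ (u * v) ^ 3 = 1 ∨ Rt ((u * v) ^ 2) := by
  have huu := hu.sq hT
  have hvv := hv.sq hT
  have hui := hu.inv hT
  have hvi := hv.inv hT
  obtain ⟨e, φ, he, hφ, h, hue⟩ := id hu
  obtain ⟨e', φ', he', hφ', h', hve⟩ := id hv
  rcases hT (φ ⬝ᵥ e') with ha | ha <;> rcases hT (φ' ⬝ᵥ e) with hb | hb
  · left
    have h1 : ((u * v : GL (Fin m) F) : Matrix (Fin m) (Fin m) F) = 1 + (vecMulVec e φ + vecMulVec e' φ') := by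
      rw [hue, hve, Units.val_mul, coe_tv, coe_tv, mul_add, add_mul, mul_one, mul_one, add_mul, one_mul,
        vecMulVec_mul_vecMulVec, ha, zero_smul, vecMulVec_zero, add_zero, add_assoc]
    have h2 : ((v * u : GL (Fin m) F) : Matrix (Fin m) (Fin m) F) = 1 + (vecMulVec e φ + vecMulVec e' φ') := by
      rw [hue, hve, Units.val_mul, coe_tv, coe_tv, mul_add, add_mul, mul_one, mul_one, add_mul, one_mul,
        vecMulVec_mul_vecMulVec, hb, zero_smul, vecMulVec_zero, add_zero, add_assoc,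
        add_comm (vecMulVec e φ) (vecMulVec e' φ')]
    refine ⟨Units.ext (h1.trans h2.symm), ?_⟩
    intro hm3
    subst hm3
    by_cases hφφ : φ' = φ
    · subst hφφ
      by_cases hee : e + e' = 0
      · left
        apply Units.ext
        rw [h1, ← add_vecMulVec, hee, zero_vecMulVec, add_zero, Units.val_one]
      · right
        refine ⟨e + e', φ', hee, hφ', by rw [dotProduct_add, h, h', add_zero], ?_⟩
        apply Units.ext
        rw [h1, ← add_vecMulVec, coe_tv]
    · have hee : e' = e := by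
        obtain ⟨k, v0, hk, hv0, hke, hspan⟩ := exists_plane he hφ h
        obtain ⟨x, y, z, hxyz⟩ := hspan e'
        have hz : z = 0 := by
          have := congrArg (fun w => φ ⬝ᵥ w) hxyz
          simp only [dotProduct_add, dotProduct_smul, h, hk, hv0, ha, smul_eq_mul, mul_one, mul_zero, zero_add] at this
          exact this.symm
        rw [hz, zero_smul, add_zero] at hxyz
        rcases hT y with hy | hy
        · rw [hy, zero_smul, add_zero] at hxyz
          have hx : x ≠ 0 := by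
            rintro rfl
            rw [zero_smul] at hxyz
            exact he' hxyz
          rw [hxyz, hT.eq_one hx, one_smul]
        · exfalso
          rw [hy, one_smul] at hxyz
          have hφk : φ' ⬝ᵥ k = 0 := by
            have := congrArg (fun w => φ' ⬝ᵥ w) hxyz
            simp only [dotProduct_add, dotProduct_smul, h', hb, smul_zero, zero_add] at this
            exact this.symm
          have h3 : ∀ w, φ' ⬝ᵥ w = (φ' ⬝ᵥ v0) * (φ ⬝ᵥ w) := by
            intro w
            obtain ⟨p, q, r, rfl⟩ := hspan w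
            simp only [dotProduct_add, dotProduct_smul, h, hk, hv0, hφk, hb, smul_zero, smul_eq_mul, mul_one, zero_add]
            ring
          have h4 : φ' ⬝ᵥ v0 = 1 := by
            apply hT.eq_one
            intro h5
            apply hφ'
            ext i
            have := h3 (Pi.single i 1)
            rw [h5, zero_mul] at this
            simpa using this
          apply hφφ
          ext i
          have := h3 (Pi.single i 1)
          rw [h4, one_mul] at this
          simpa using this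
      subst hee
      right
      refine ⟨e', φ + φ', he, ?_, by rw [add_dotProduct, h, h', add_zero], ?_⟩
      · intro h5
        apply hφφ
        have := add_eq_zero_iff_eq_neg.1 h5
        rw [this, hT.neg]
      · apply Units.ext
        rw [h1, ← vecMulVec_add, coe_tv]
  · -- φ e' = 0, φ' e = 1
    right; right
    have h1 := tv_commutator (a := e') (α := φ) (b := e) (β := φ') ha h h' hb
    rw [← hue, ← hve, hui, hvi] at h1
    have h2 : Rt (tv e' φ ha) := ⟨e', φ, he', hφ, ha, rfl⟩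
    have h3 : (u * v) ^ 2 = tv e' φ ha := by
      rw [← h2.inv hT, ← h1, pow_two]
      simp only [_root_.mul_inv_rev, hui, hvi, mul_assoc]
    rw [h3]
    exact h2
  · -- φ e' = 1, φ' e = 0
    right; right
    have h1 := tv_commutator (a := e) (α := φ') (b := e') (β := φ) hb h' h ha
    rw [← hue, ← hve, hui, hvi] at h1
    have h2 : Rt (tv e φ' hb) := ⟨e, φ', he, hφ', hb, rfl⟩
    have h3 : (u * v) ^ 2 = tv e φ' hb := by
      rw [← h1, pow_two]
      simp only [mul_assoc]
    rw [h3]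
    exact h2
  · right; left
    have key : u * v * u = v * u * v := by
      apply Units.ext
      rw [hue, hve]
      simp only [Units.val_mul, coe_tv]
      have e1 : vecMulVec e φ * vecMulVec e φ = 0 := by rw [vecMulVec_mul_vecMulVec, h, zero_smul, vecMulVec_zero]
      have e2 : vecMulVec e' φ' * vecMulVec e' φ' = 0 := by
        rw [vecMulVec_mul_vecMulVec, h', zero_smul, vecMulVec_zero]
      have e3 : vecMulVec e φ * vecMulVec e' φ' = vecMulVec e φ' := by
        rw [vecMulVec_mul_vecMulVec, ha, one_smul]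
      have e4 : vecMulVec e' φ' * vecMulVec e φ = vecMulVec e' φ := by
        rw [vecMulVec_mul_vecMulVec, hb, one_smul]
      have e5 : vecMulVec e φ' * vecMulVec e φ = vecMulVec e φ := by
        rw [vecMulVec_mul_vecMulVec, hb, one_smul]
      have e6 : vecMulVec e' φ * vecMulVec e' φ' = vecMulVec e' φ' := by
        rw [vecMulVec_mul_vecMulVec, ha, one_smul]
      simp only [add_mul, mul_add, one_mul, mul_one, e1, e2, e3, e4, e5, e6]
      have d1 := hT.add_self (vecMulVec e φ)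
      have d2 := hT.add_self (vecMulVec e' φ')
      have l1 : (1 + vecMulVec e φ + (vecMulVec e' φ' + vecMulVec e φ') + (vecMulVec e φ + 0 + (vecMulVec e' φ + vecMulVec e φ))) =
          1 + vecMulVec e φ + vecMulVec e' φ' + vecMulVec e φ' + vecMulVec e' φ + (vecMulVec e φ + vecMulVec e φ) := by
        abel
      have l2 : (1 + vecMulVec e' φ' + (vecMulVec e φ + vecMulVec e' φ) + (vecMulVec e' φ' + 0 + (vecMulVec e φ' + vecMulVec e' φ'))) =
          1 + vecMulVec e φ + vecMulVec e' φ' + vecMulVec e φ' + vecMulVec e' φ + (vecMulVec e' φ' + vecMulVec e' φ') := by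
        abel
      rw [l1, l2, d1, d2]
    calc (u * v) ^ 3 = (u * v * u) * (v * u * v) := by
          rw [pow_succ, pow_two]; simp only [mul_assoc]
      _ = (u * v * u) * (u * v * u) := by rw [← key]
      _ = u * (v * (u * u) * v) * u := by simp only [mul_assoc]
      _ = 1 := by rw [huu, mul_one, hvv, mul_one, huu]

theorem Rt.pow12 (hT : Two F) {u v : GL (Fin m) F} (hu : Rt u) (hv : Rt v) : (u * v) ^ 12 = 1 := by
  rcases hu.cases hT hv with ⟨h, -⟩ | h | h
  · have h1 : (u * v) ^ 2 = 1 := by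
      rw [pow_two]
      calc u * v * (u * v) = u * v * (v * u) := by rw [← h]
        _ = u * (v * v) * u := by simp only [mul_assoc]
        _ = 1 := by rw [hv.sq hT, mul_one, hu.sq hT]
    rw [show 12 = 2 * 6 from rfl, pow_mul, h1, one_pow]
  · rw [show 12 = 3 * 4 from rfl, pow_mul, h, one_pow]
  · have h1 : (u * v) ^ 4 = 1 := by
      rw [show 4 = 2 * 2 from rfl, pow_mul, pow_two, h.sq hT]
    rw [show 12 = 4 * 3 from rfl, pow_mul, h1, one_pow]

end Tv

variable {F : Type*} [Field F] {t m : ℕ}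

/-- the base group -/
def pureHom (F : Type*) [Field F] (t m : ℕ) : (Fin t → GL (Fin m) F) →* GL (Fin t → Fin m) F :=
  MonoidHom.mk' pureGL fun a b => (pureGL_mul a b).symm

theorem pureHom_single (i : Fin t) (g : GL (Fin m) F) : pureHom F t m (Pi.mulSingle i g) = slotGL i g := by
  apply Units.ext
  rw [slotGL_val, slotEmb_apply, slotMat]
  change pureMat _ = _
  congr 1
  funext j
  by_cases h : j = i
  · subst h; simp
  · simp [Function.update_of_ne h, Pi.mulSingle_eq_of_ne h]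

theorem isRt_slotGL {i : Fin t} {g : GL (Fin m) F} (hg : Rt g) : IsRt i (slotGL i g) := by
  obtain ⟨a, α, ha, hα, h, rfl⟩ := hg
  exact ⟨a, α, ha, hα, h, by rw [slotGL_val, coe_tv, map_add, map_one]; rfl⟩

theorem IsRt.exists_rt {i : Fin t} {s : GL (Fin t → Fin m) F} (hs : IsRt i s) : ∃ g, Rt g ∧ s = slotGL i g := by
  obtain ⟨a, α, ha, hα, h, he⟩ := hs
  refine ⟨tv a α h, ⟨a, α, ha, hα, h, rfl⟩, ?_⟩
  apply Units.ext
  rw [he, slotGL_val, coe_tv, map_add, map_one]
  rfl

theorem inL_slotGL (i : Fin t) (g : GL (Fin m) F) : InL i (slotGL i g) := ⟨_, slotGL_val i g⟩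

theorem slotGL_injective (hm : 0 < m) (i : Fin t) : Function.Injective (slotGL (F := F) (m := m) i) := by
  have hne : Nonempty (Fin t → Fin m) := ⟨fun _ => ⟨0, hm⟩⟩
  intro a b hab
  apply Units.ext
  apply ρ_injective (slotEmb (F := F) (m := m) i)
  rw [← slotGL_val, ← slotGL_val, hab]

variable {M : Subgroup (GL (Fin t → Fin m) F)}

/-- the basic move -/
theorem Ctx.pick [Finite F] (h : Ctx M) {i0 : Fin t} {g0 s : GL (Fin t → Fin m) F} (hg0 : g0 ∈ M) (hs : IsRt i0 s)
    {y : GL (Fin t → Fin m) F} (hy : y ∈ Str M) : ∃ j x'', IsRt j x'' ∧ ∀ (n : ℕ) z, (y * x'') ^ n = z → z * z = 1 →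
      (g0 * s * g0⁻¹) * z * (g0 * s * g0⁻¹)⁻¹ = z := by
  have hne := h.ne
  obtain ⟨l, hl, k, hk, hgl⟩ := h.transfer (Subgroup.closure {y, g0 * s * g0⁻¹}) hy (hs.str h) hg0
    (Subgroup.subset_closure (by simp)) (Subgroup.subset_closure (by simp))
  obtain ⟨j, hj⟩ := (h.ti hs (h.hHM hk) (Subgroup.mul_mem _ (Subgroup.mul_mem _ hk (hs.mem h)) (Subgroup.inv_mem _ hk))).2
  refine ⟨j, _, hj, ?_⟩
  intro n z hz hzz
  have hss := hs.sq h.two
  refine dihedral hy.2.1 ?_ hl ?_ hz hzz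
  · calc g0 * s * g0⁻¹ * (g0 * s * g0⁻¹) = g0 * (s * s) * g0⁻¹ := by group
      _ = 1 := by rw [hss]; group
  · rw [hgl]; group

theorem Ctx.noStr (h : Ctx M) {i0 : Fin t} {g0 s : GL (Fin t → Fin m) F} (hg0 : g0 ∈ M)
    (hg0H : g0 ∉ tensorWreathStandard m t F) (hs : IsRt i0 s) {z : GL (Fin t → Fin m) F} (hz : z ∈ Str M)
    (hzc : (g0 * s * g0⁻¹) * z * (g0 * s * g0⁻¹)⁻¹ = z) : False := by
  have h1 : g0 * s * g0⁻¹ ∈ tensorWreathStandard m t F :=
    str_cent hz (M.mul_mem (M.mul_mem hg0 (h.hHM (hs.mem h))) (M.inv_mem hg0)) hzc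
  exact hg0H (h.ti hs hg0 h1).1

/-- **Contradiction for `m = 3`.** -/
theorem Ctx.false_three {M : Subgroup (GL (Fin t → Fin 3) F)} [Finite F] (h : Ctx M) {g0 : GL (Fin t → Fin 3) F}
    (hg0 : g0 ∈ M) (hg0H : g0 ∉ tensorWreathStandard 3 t F) : False := by
  have hne := h.ne
  have ht := h.ht
  have hT := h.two
  let i0 : Fin t := ⟨0, by omega⟩
  obtain ⟨a, ha⟩ := exists_ne_zero_vec (F := F) (m := 3) le_rfl
  obtain ⟨φ, hφ, hφa, -⟩ := exists_two (a := a) (b := a) le_rfl
  set s := slotGL (F := F) (m := 3) i0 (tv a φ hφa) with hsd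
  have hr0 : Rt (tv a φ hφa) := ⟨a, φ, ha, hφ, hφa, rfl⟩
  have hs : IsRt i0 s := isRt_slotGL hr0
  set x' := g0 * s * g0⁻¹ with hx'
  let A : Subgroup (Fin t → GL (Fin 3) F) := (Subgroup.centralizer {x'}).comap (pureHom F t 3)
  have hA : ∀ f, f ∈ A ↔ x' * pureHom F t 3 f * x'⁻¹ = pureHom F t 3 f := by
    intro f
    rw [Subgroup.mem_comap, Subgroup.mem_centralizer_singleton_iff, mul_inv_eq_iff_eq_mul]
    exact ⟨fun h => h.symm, fun h => h.symm⟩
  -- no strong element in `A`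
  have hno : ∀ z : GL (Fin t → Fin 3) F, z ∈ Str M → x' * z * x'⁻¹ = z → False := fun z hz hzc =>
    h.noStr hg0 hg0H hs hz hzc
  -- half of the analysis
  have half : ∀ (i j : Fin t), i ≠ j → ∀ u v : GL (Fin 3) F, Rt u → Rt v → ∀ x'', IsRt i x'' →
      (∀ (n : ℕ) z, (slotGL i u * slotGL j v * x'') ^ n = z → z * z = 1 → x' * z * x'⁻¹ = z) → False := by
    intro i j hij u v hu hv x'' hx'' hn
    obtain ⟨w, hw, rfl⟩ := hx''.exists_rt
    have hcomm : slotGL j v * slotGL i w = slotGL i w * slotGL (F := F) (m := 3) j v :=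
      comm_of_ne hij.symm (inL_slotGL j v) (inL_slotGL i w)
    have h1 : slotGL i u * slotGL j v * slotGL i w = slotGL i (u * w) * slotGL (F := F) (m := 3) j v := by
      rw [mul_assoc, hcomm, ← mul_assoc, ← map_mul]
    have hpow : ∀ n : ℕ, (slotGL i u * slotGL j v * slotGL i w) ^ n = slotGL i ((u * w) ^ n) * slotGL (F := F) (m := 3) j (v ^ n) := by
      intro n
      rw [h1, Commute.mul_pow (comm_of_ne hij (inL_slotGL i (u * w)) (inL_slotGL j v)), map_pow, map_pow]
    have hvs := (isRt_slotGL (i := j) hv)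
    rcases hu.cases hT hw with ⟨hc, h3⟩ | h3 | h3
    · rcases h3 rfl with h4 | h4
      · have h5 := hn 1 _ (hpow 1) (by
          rw [pow_one, h4, map_one, one_mul, pow_one, ← map_mul, hv.sq hT, map_one])
        rw [pow_one, h4, map_one, one_mul, pow_one] at h5
        exact hno _ (hvs.str h) h5
      · have h6 := h.str_pair hij (isRt_slotGL (i := i) h4) hvs
        have h5 := hn 1 _ (hpow 1) (by rw [pow_one, pow_one]; exact h6.2.1)
        rw [pow_one, pow_one] at h5
        exact hno _ h6 h5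
    · have h7 : v ^ 3 = v := by rw [pow_succ, pow_two, hv.sq hT, one_mul]
      have h5 := hn 3 _ (hpow 3) (by
        rw [h3, map_one, one_mul, h7, ← map_mul, hv.sq hT, map_one])
      rw [h3, map_one, one_mul, h7] at h5
      exact hno _ (hvs.str h) h5
    · have h7 : v ^ 2 = 1 := by rw [pow_two, hv.sq hT]
      have h6 := isRt_slotGL (i := i) h3
      have h5 := hn 2 _ (hpow 2) (by
        rw [h7, map_one, mul_one]; exact h6.sq hT)
      rw [h7, map_one, mul_one] at h5
      exact hno _ (h6.str h) h5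
  -- triples
  have hT3 : ∀ (i j : Fin t), i ≠ j → ∀ u v : GL (Fin 3) F, Rt u → Rt v → ∃ k, k ≠ i ∧ k ≠ j ∧ ∃ w : GL (Fin 3) F, Rt w ∧
      Pi.mulSingle i u * Pi.mulSingle j v * Pi.mulSingle k w ∈ A := by
    intro i j hij u v hu hv
    obtain ⟨k, x'', hx'', hn⟩ := h.pick hg0 hs (h.str_pair hij (isRt_slotGL (i := i) hu) (isRt_slotGL (i := j) hv))
    by_cases hki : k = i
    · subst hki
      exact (half k j hij u v hu hv x'' hx'' hn).elim
    by_cases hkj : k = j
    · subst hkj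
      refine (half k i (Ne.symm hij) v u hv hu x'' hx'' ?_).elim
      rw [comm_of_ne (Ne.symm hij) (inL_slotGL k v) (inL_slotGL i u)]
      exact hn
    refine ⟨k, hki, hkj, ?_⟩
    obtain ⟨w, hw, rfl⟩ := hx''.exists_rt
    refine ⟨w, hw, ?_⟩
    rw [hA, map_mul, map_mul, pureHom_single, pureHom_single, pureHom_single]
    apply hn 1 _ (pow_one _)
    have c1 := comm_of_ne hki (inL_slotGL k w) (inL_slotGL i u)
    have c2 := comm_of_ne hkj (inL_slotGL k w) (inL_slotGL j v)
    have h6 := (h.str_pair hij (isRt_slotGL (i := i) hu) (isRt_slotGL (i := j) hv)).2.1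
    calc slotGL i u * slotGL j v * slotGL k w * (slotGL i u * slotGL j v * slotGL k w)
        = slotGL i u * slotGL j v * ((slotGL k w * slotGL i u) * slotGL j v) * slotGL k w := by simp only [mul_assoc]
      _ = slotGL i u * slotGL j v * (slotGL i u * (slotGL k w * slotGL j v)) * slotGL k w := by
          rw [c1]; simp only [mul_assoc]
      _ = (slotGL i u * slotGL j v * (slotGL i u * slotGL j v)) * (slotGL k w * slotGL k w) := by
          rw [c2]; simp only [mul_assoc]
      _ = 1 := by rw [h6, ← map_mul, hw.sq hT, map_one, one_mul]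
  -- trivial at one further slot
  have claim1 : ∀ j : Fin t, j ≠ i0 → ∀ τ : GL (Fin 3) F, Rt τ → ∃ f ∈ A, f i0 = τ ∧ f j = 1 := by
    intro j hj τ hτ
    obtain ⟨τ1, τ2, h1, h2, h12⟩ := hτ.eq_K le_rfl
    obtain ⟨k1, hk1, hk1', w1, hw1, hf1⟩ := hT3 i0 j (Ne.symm hj) τ1 _ h1 hr0
    obtain ⟨k2, hk2, hk2', w2, hw2, hf2⟩ := hT3 i0 j (Ne.symm hj) τ2 _ h2 hr0
    have e1 : ∀ (k : Fin t) (τ' w : GL (Fin 3) F), k ≠ i0 → k ≠ j →
        (Pi.mulSingle i0 τ' * Pi.mulSingle j (tv a φ hφa) * Pi.mulSingle k w : Fin t → GL (Fin 3) F) i0 = τ' ∧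
        (Pi.mulSingle i0 τ' * Pi.mulSingle j (tv a φ hφa) * Pi.mulSingle k w : Fin t → GL (Fin 3) F) j = tv a φ hφa := by
      intro k τ' w hk hk'
      refine ⟨?_, ?_⟩
      · rw [Pi.mul_apply, Pi.mul_apply, Pi.mulSingle_eq_same, Pi.mulSingle_eq_of_ne (Ne.symm hj),
          Pi.mulSingle_eq_of_ne (Ne.symm hk), mul_one, mul_one]
      · rw [Pi.mul_apply, Pi.mul_apply, Pi.mulSingle_eq_same, Pi.mulSingle_eq_of_ne hj,
          Pi.mulSingle_eq_of_ne (Ne.symm hk'), mul_one, one_mul]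
    obtain ⟨p1, p2⟩ := e1 k1 τ1 w1 hk1 hk1'
    obtain ⟨q1, q2⟩ := e1 k2 τ2 w2 hk2 hk2'
    refine ⟨_, A.mul_mem (A.mul_mem (A.mul_mem hf1 hf2) (A.inv_mem hf1)) (A.inv_mem hf2), ?_, ?_⟩
    · rw [Pi.mul_apply, Pi.mul_apply, Pi.mul_apply, Pi.inv_apply, Pi.inv_apply, p1, q1]
      exact h12
    · rw [Pi.mul_apply, Pi.mul_apply, Pi.mul_apply, Pi.inv_apply, Pi.inv_apply, p2, q2]
      group
  have claimJ : ∀ J : Finset (Fin t), i0 ∉ J → ∀ τ : GL (Fin 3) F, Rt τ → ∃ f ∈ A, f i0 = τ ∧ ∀ j ∈ J, f j = 1 := by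
    intro J
    induction J using Finset.induction_on with
    | empty =>
      intro _ τ hτ
      obtain ⟨f, hf, h1, -⟩ := claim1 ⟨1, by omega⟩ (by simp [i0]) τ hτ
      exact ⟨f, hf, h1, fun j hj => absurd hj (Finset.notMem_empty j)⟩
    | insert j J hj ih =>
      intro hi τ hτ
      rw [Finset.mem_insert, not_or] at hi
      obtain ⟨τ1, τ2, h1, h2, h12⟩ := hτ.eq_K le_rfl
      obtain ⟨f1, hf1, p1, p2⟩ := ih hi.2 τ1 h1
      obtain ⟨f2, hf2, q1, q2⟩ := claim1 j (Ne.symm hi.1) τ2 h2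
      refine ⟨_, A.mul_mem (A.mul_mem (A.mul_mem hf1 hf2) (A.inv_mem hf1)) (A.inv_mem hf2), ?_, ?_⟩
      · rw [Pi.mul_apply, Pi.mul_apply, Pi.mul_apply, Pi.inv_apply, Pi.inv_apply, p1, q1]
        exact h12
      · intro l hl
        rw [Finset.mem_insert] at hl
        rw [Pi.mul_apply, Pi.mul_apply, Pi.mul_apply, Pi.inv_apply, Pi.inv_apply]
        rcases hl with rfl | hl
        · rw [q2]; group
        · rw [p2 l hl]; group
  obtain ⟨f, hf, h1, h2⟩ := claimJ (Finset.univ.erase i0) (Finset.notMem_erase _ _) _ hr0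
  have h3 : f = Pi.mulSingle i0 (tv a φ hφa) := by
    funext j
    by_cases hj : j = i0
    · subst hj; rw [h1, Pi.mulSingle_eq_same]
    · rw [h2 j (Finset.mem_erase.2 ⟨hj, Finset.mem_univ _⟩), Pi.mulSingle_eq_of_ne hj]
  rw [h3, hA, pureHom_single] at hf
  exact hno _ (hs.str h) hf

/-! ### Explicit matrices -/

section Blk

theorem Two.charP (hT : Two F) : CharP F 2 := by
  apply CharTwo.of_one_ne_zero_of_two_eq_zero one_ne_zero
  rw [← one_add_one_eq_two, hT.one_add_one]

/-- the index equivalence -/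
def blkE (hm : 4 ≤ m) : Fin m ≃ Fin 4 ⊕ Fin (m - 4) :=
  (finCongr (by omega : m = 4 + (m - 4))).trans finSumFinEquiv.symm

/-- the block embedding -/
def blk (φ : ZMod 2 →+* F) (hm : 4 ≤ m) (A : Matrix (Fin 4) (Fin 4) (ZMod 2)) : Matrix (Fin m) (Fin m) F :=
  (fromBlocks (A.map φ) 0 0 1).submatrix (blkE hm) (blkE hm)

theorem blk_mul (φ : ZMod 2 →+* F) (hm : 4 ≤ m) (A B : Matrix (Fin 4) (Fin 4) (ZMod 2)) :
    blk φ hm (A * B) = blk φ hm A * blk φ hm B := by
  rw [blk, blk, blk, submatrix_mul_equiv, fromBlocks_multiply]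
  congr 1
  simp [Matrix.map_mul]

theorem blk_one (φ : ZMod 2 →+* F) (hm : 4 ≤ m) : blk φ hm 1 = 1 := by
  rw [blk, Matrix.map_one _ (map_zero φ) (map_one φ), fromBlocks_one, submatrix_one_equiv]

theorem blk_injective (φ : ZMod 2 →+* F) (hm : 4 ≤ m) : Function.Injective (blk φ hm) := by
  intro A B hAB
  ext i j
  have := congrFun (congrFun hAB ((blkE hm).symm (Sum.inl i))) ((blkE hm).symm (Sum.inl j))
  simp only [blk, submatrix_apply, Equiv.apply_symm_apply, fromBlocks_apply₁₁, map_apply] at this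
  exact φ.injective this

/-- block embedding of units -/
def blkG (φ : ZMod 2 →+* F) (hm : 4 ≤ m) : GL (Fin 4) (ZMod 2) →* GL (Fin m) F :=
  Units.map { toFun := blk φ hm, map_one' := blk_one φ hm, map_mul' := blk_mul φ hm }

theorem blkG_not_root (φ : ZMod 2 →+* F) (hm : 4 ≤ m) (A : GL (Fin 4) (ZMod 2)) {p q r s : Fin 4}
    (h1 : ((A : Matrix (Fin 4) (Fin 4) (ZMod 2)) - 1) p q = 1) (h2 : ((A : Matrix (Fin 4) (Fin 4) (ZMod 2)) - 1) r s = 1)
    (h3 : ((A : Matrix (Fin 4) (Fin 4) (ZMod 2)) - 1) p s = 0) :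
    ¬ ∃ a α, (blkG φ hm A : Matrix (Fin m) (Fin m) F) = 1 + vecMulVec a α := by
  rintro ⟨a, α, h⟩
  have key : ∀ i j : Fin 4, a ((blkE hm).symm (Sum.inl i)) * α ((blkE hm).symm (Sum.inl j)) =
      φ (((A : Matrix (Fin 4) (Fin 4) (ZMod 2)) - 1) i j) := by
    intro i j
    have h4 := congrFun (congrFun h ((blkE hm).symm (Sum.inl i))) ((blkE hm).symm (Sum.inl j))
    change blk φ hm (A : Matrix (Fin 4) (Fin 4) (ZMod 2)) _ _ = _ at h4
    simp only [blk, submatrix_apply, Equiv.apply_symm_apply, fromBlocks_apply₁₁, map_apply, Matrix.add_apply,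
      vecMulVec_apply, Matrix.one_apply, EmbeddingLike.apply_eq_iff_eq, Sum.inl.injEq] at h4
    rw [Matrix.sub_apply, map_sub, h4, Matrix.one_apply]
    split_ifs <;> simp
  have k1 := key p q
  have k2 := key r s
  have k3 := key p s
  rw [h1, map_one] at k1
  rw [h2, map_one] at k2
  rw [h3, map_zero] at k3
  rcases mul_eq_zero.1 k3 with h4 | h4
  · rw [h4, zero_mul] at k1; exact zero_ne_one k1
  · rw [h4, mul_zero] at k2; exact zero_ne_one k2

def Y1 : Matrix (Fin 4) (Fin 4) (ZMod 2) := !![1,0,1,0; 0,1,0,1; 0,0,1,0; 0,0,0,1]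
def Y2 : Matrix (Fin 4) (Fin 4) (ZMod 2) := !![1,0,0,0; 0,1,0,0; 0,1,1,0; 1,1,0,1]
def Y3 : Matrix (Fin 4) (Fin 4) (ZMod 2) := !![1,1,0,0; 0,1,0,0; 0,0,0,1; 0,0,1,0]
def Yf : Matrix (Fin 4) (Fin 4) (ZMod 2) := !![1,1,1,0; 1,0,0,1; 0,1,1,0; 1,1,0,1]
def Yg : Matrix (Fin 4) (Fin 4) (ZMod 2) := Yf * Yf
def Ys : Matrix (Fin 4) (Fin 4) (ZMod 2) := !![0,0,1,1; 0,0,1,0; 0,1,0,0; 1,1,0,0]

theorem Y1_sq : Y1 * Y1 = 1 := by decide
theorem Y2_sq : Y2 * Y2 = 1 := by decide
theorem Y3_sq : Y3 * Y3 = 1 := by decide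
theorem Y12 : Y1 * Y2 = Yf := by decide
theorem Yf5 : (Yf * Yf) * (Yf * Yf) * Yf = 1 := by decide
theorem Yfs : Yf * (Y3 * Yf * Y3) = Ys := by decide
theorem Ys_sq : Ys * Ys = 1 := by decide
theorem Ys_ne : Ys ≠ 1 := by decide

def y1 : GL (Fin 4) (ZMod 2) := ⟨Y1, Y1, Y1_sq, Y1_sq⟩
def y2 : GL (Fin 4) (ZMod 2) := ⟨Y2, Y2, Y2_sq, Y2_sq⟩
def y3 : GL (Fin 4) (ZMod 2) := ⟨Y3, Y3, Y3_sq, Y3_sq⟩

end Blk

/-- **Contradiction for `m ≥ 4`.** -/
theorem Ctx.false_four [Finite F] (h : Ctx M) (hm4 : 4 ≤ m) {g0 : GL (Fin t → Fin m) F}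
    (hg0 : g0 ∈ M) (hg0H : g0 ∉ tensorWreathStandard m t F) : False := by
  have hne := h.ne
  have ht := h.ht
  have hT := h.two
  have hm := h.hm
  let i0 : Fin t := ⟨0, by omega⟩
  obtain ⟨a, ha⟩ := exists_ne_zero_vec (F := F) hm
  obtain ⟨φ, hφ, hφa, -⟩ := exists_two (a := a) (b := a) hm
  set s := slotGL (F := F) (m := m) i0 (tv a φ hφa) with hsd
  have hr0 : Rt (tv a φ hφa) := ⟨a, φ, ha, hφ, hφa, rfl⟩
  have hs : IsRt i0 s := isRt_slotGL hr0
  set x' := g0 * s * g0⁻¹ with hx'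
  let A : Subgroup (Fin t → GL (Fin m) F) := (Subgroup.centralizer {x'}).comap (pureHom F t m)
  have hA : ∀ f, f ∈ A ↔ x' * pureHom F t m f * x'⁻¹ = pureHom F t m f := by
    intro f
    rw [Subgroup.mem_comap, Subgroup.mem_centralizer_singleton_iff, mul_inv_eq_iff_eq_mul]
    exact ⟨fun h => h.symm, fun h => h.symm⟩
  have hno : ∀ z : GL (Fin t → Fin m) F, z ∈ Str M → x' * z * x'⁻¹ = z → False := fun z hz hzc =>
    h.noStr hg0 hg0H hs hz hzc
  have hfinG : Finite (GL (Fin m) F) := inferInstance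
  -- pairs
  have hT2 : ∀ b : GL (Fin m) F, b * b = 1 → (¬ ∃ a α, (b : Matrix (Fin m) (Fin m) F) = 1 + vecMulVec a α) →
      ∃ k, k ≠ i0 ∧ ∃ w : GL (Fin m) F, Rt w ∧ Pi.mulSingle i0 b * Pi.mulSingle k w ∈ A := by
    intro b hbb hb
    have hb1 : b ≠ 1 := by
      rintro rfl
      exact hb ⟨0, 0, by simp⟩
    have hyy : slotGL (F := F) i0 b * slotGL i0 b = 1 := by rw [← map_mul, hbb, map_one]
    have hy1 : slotGL (F := F) i0 b ≠ 1 := by
      intro h1
      exact hb1 (slotGL_injective (by omega) i0 (by rw [h1, map_one]))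
    obtain ⟨k, x'', hx'', hn⟩ := h.pick hg0 hs (h.str_inL (inL_slotGL i0 b) hyy hy1)
    obtain ⟨w, hw, rfl⟩ := hx''.exists_rt
    by_cases hki : k = i0
    · exfalso
      subst hki
      have hNpos : 0 < orderOf (b * w) := orderOf_pos _
      rcases Nat.even_or_odd' (orderOf (b * w)) with ⟨l, hl | hl⟩
      · have hz1 : (b * w) ^ l ≠ 1 := by
          intro h1
          have := orderOf_dvd_of_pow_eq_one h1
          have := Nat.le_of_dvd (by omega) this
          omega
        have hzz : (b * w) ^ l * (b * w) ^ l = 1 := by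
          rw [← pow_add, ← two_mul, ← hl, pow_orderOf_eq_one]
        have hzz' : slotGL (F := F) i0 ((b * w) ^ l) * slotGL i0 ((b * w) ^ l) = 1 := by
          rw [← map_mul, hzz, map_one]
        have hz1' : slotGL (F := F) i0 ((b * w) ^ l) ≠ 1 := by
          intro h1
          exact hz1 (slotGL_injective (by omega) i0 (by rw [h1, map_one]))
        apply hno _ (h.str_inL (inL_slotGL i0 ((b * w) ^ l)) hzz' hz1')
        exact hn l _ (by rw [← map_mul, map_pow]) hzz'
      · apply hb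
        obtain ⟨e, ψ, -, -, h0, hwe⟩ := id hw
        have hpow : (b * w) ^ (2 * l + 1) = 1 := by rw [← hl, pow_orderOf_eq_one]
        have hww := hw.sq hT
        -- `g b g⁻¹ = w` for `g = (b w)^l`
        have hbi : b⁻¹ = b := by rw [inv_eq_iff_mul_eq_one, hbb]
        have hwi : w⁻¹ = w := hw.inv hT
        have hconj : b * (b * w) ^ l * b⁻¹ = ((b * w) ^ l)⁻¹ := by
          rw [← conj_pow, ← inv_pow]
          congr 1
          rw [_root_.mul_inv_rev, hbi, hwi, ← mul_assoc, hbb, one_mul]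
        have hg : (b * w) ^ l * b * ((b * w) ^ l)⁻¹ = w := by
          have h1 : b * ((b * w) ^ l)⁻¹ = (b * w) ^ l * b := by
            rw [← hconj]
            calc b * (b * (b * w) ^ l * b⁻¹) = (b * b) * (b * w) ^ l * b⁻¹ := by group
              _ = _ := by rw [hbb, one_mul, hbi]
          calc (b * w) ^ l * b * ((b * w) ^ l)⁻¹ = (b * w) ^ l * (b * ((b * w) ^ l)⁻¹) := by rw [mul_assoc]
            _ = (b * w) ^ (2 * l) * b := by rw [h1, ← mul_assoc, ← pow_add, two_mul]
            _ = (b * w) ^ (2 * l) * (b * w) * (w * (b * b)) := by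
                rw [hbb, mul_one]
                calc (b * w) ^ (2 * l) * b = (b * w) ^ (2 * l) * (b * (w * w)) := by rw [hww, mul_one]
                  _ = _ := by simp only [mul_assoc]
            _ = w := by rw [← pow_succ, hpow, one_mul, hbb, mul_one]
        set g := (b * w) ^ l with hgd
        have hbg : b = g⁻¹ * w * g := by rw [← hg]; group
        refine ⟨((g⁻¹ : GL (Fin m) F) : Matrix (Fin m) (Fin m) F) *ᵥ e, ψ ᵥ* (g : Matrix (Fin m) (Fin m) F), ?_⟩
        rw [hbg, Units.val_mul, Units.val_mul, hwe, coe_tv, mul_add, add_mul, mul_one, Units.inv_mul, mul_vecMulVec,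
          vecMulVec_mul]
    · refine ⟨k, hki, w, hw, ?_⟩
      rw [hA, map_mul, pureHom_single, pureHom_single]
      apply hn 1 _ (pow_one _)
      have c1 := comm_of_ne hki (inL_slotGL k w) (inL_slotGL i0 b)
      calc slotGL i0 b * slotGL k w * (slotGL i0 b * slotGL k w)
          = slotGL i0 b * (slotGL k w * slotGL i0 b) * slotGL k w := by simp only [mul_assoc]
        _ = (slotGL i0 b * slotGL i0 b) * (slotGL k w * slotGL k w) := by rw [c1]; simp only [mul_assoc]
        _ = 1 := by rw [hyy, ← map_mul, hw.sq hT, map_one, one_mul]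
  -- explicit elements
  have : CharP F 2 := hT.charP
  let θ : ZMod 2 →+* F := ZMod.castHom (dvd_refl 2) F
  have hb1 := hT2 (blkG θ hm4 y1) (by rw [← map_mul, show y1 * y1 = 1 from Units.ext Y1_sq, map_one])
    (blkG_not_root θ hm4 y1 (p := 0) (q := 2) (r := 1) (s := 3) (by decide) (by decide) (by decide))
  have hb2 := hT2 (blkG θ hm4 y2) (by rw [← map_mul, show y2 * y2 = 1 from Units.ext Y2_sq, map_one])
    (blkG_not_root θ hm4 y2 (p := 2) (q := 1) (r := 3) (s := 0) (by decide) (by decide) (by decide))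
  have hb3 := hT2 (blkG θ hm4 y3) (by rw [← map_mul, show y3 * y3 = 1 from Units.ext Y3_sq, map_one])
    (blkG_not_root θ hm4 y3 (p := 0) (q := 1) (r := 2) (s := 2) (by decide) (by decide) (by decide))
  obtain ⟨k1, hk1, w1, hw1, ha1⟩ := hb1
  obtain ⟨k2, hk2, w2, hw2, ha2⟩ := hb2
  obtain ⟨k3, hk3, w3, hw3, ha3⟩ := hb3
  set f := blkG θ hm4 (y1 * y2) with hf
  have hf5 : f ^ 5 = 1 := by
    have h1 : (y1 * y2) ^ 5 = 1 := by
      apply Units.ext
      have h2 : ((y1 * y2 : GL (Fin 4) (ZMod 2)) : Matrix (Fin 4) (Fin 4) (ZMod 2)) = Yf := Y12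
      rw [Units.val_pow_eq_pow_val, h2, Units.val_one, ← Yf5]
      simp only [pow_succ, pow_zero, one_mul, mul_assoc]
    rw [hf, ← map_pow, h1, map_one]
  -- `f` itself
  have hfA : Pi.mulSingle i0 f ∈ A := by
    have h1 : (Pi.mulSingle i0 (blkG θ hm4 y1) * Pi.mulSingle k1 w1 * (Pi.mulSingle i0 (blkG θ hm4 y2) * Pi.mulSingle k2 w2)) ^ 12 =
        (Pi.mulSingle i0 (f ^ 2) : Fin t → GL (Fin m) F) := by
      funext l
      rw [Pi.pow_apply]
      by_cases hl : l = i0
      · subst hl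
        rw [Pi.mul_apply, Pi.mul_apply, Pi.mul_apply, Pi.mulSingle_eq_same, Pi.mulSingle_eq_same, Pi.mulSingle_eq_same,
          Pi.mulSingle_eq_of_ne hk1.symm, Pi.mulSingle_eq_of_ne hk2.symm, mul_one, mul_one, ← map_mul, ← hf,
          show 12 = 5 * 2 + 2 from rfl, pow_add, pow_mul, hf5, one_pow, one_mul]
      · rw [Pi.mul_apply, Pi.mul_apply, Pi.mul_apply, Pi.mulSingle_eq_of_ne hl, Pi.mulSingle_eq_of_ne hl,
          Pi.mulSingle_eq_of_ne hl, one_mul, one_mul]
        by_cases h1 : l = k1 <;> by_cases h2 : l = k2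
        · subst h1; subst h2
          rw [Pi.mulSingle_eq_same, Pi.mulSingle_eq_same, hw1.pow12 hT hw2]
        · subst h1
          rw [Pi.mulSingle_eq_same, Pi.mulSingle_eq_of_ne h2, mul_one, show 12 = 2 * 6 from rfl, pow_mul, pow_two,
            hw1.sq hT, one_pow]
        · subst h2
          rw [Pi.mulSingle_eq_same, Pi.mulSingle_eq_of_ne h1, one_mul, show 12 = 2 * 6 from rfl, pow_mul, pow_two,
            hw2.sq hT, one_pow]
        · rw [Pi.mulSingle_eq_of_ne h1, Pi.mulSingle_eq_of_ne h2, mul_one, one_pow]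
    have h2 : (Pi.mulSingle i0 (f ^ 2) : Fin t → GL (Fin m) F) ∈ A := by
      rw [← h1]
      exact A.pow_mem (A.mul_mem ha1 ha2) 12
    have h3 : (Pi.mulSingle i0 f : Fin t → GL (Fin m) F) = (Pi.mulSingle i0 (f ^ 2)) ^ 3 := by
      rw [← Pi.mulSingle_pow, ← pow_mul, show 2 * 3 = 5 + 1 from rfl, pow_add, hf5, one_mul, pow_one]
    rw [h3]
    exact A.pow_mem h2 3
  -- the involution
  have hsA : Pi.mulSingle i0 (f * (blkG θ hm4 y3 * f * (blkG θ hm4 y3)⁻¹)) ∈ A := by
    have h1 : (Pi.mulSingle i0 (f * (blkG θ hm4 y3 * f * (blkG θ hm4 y3)⁻¹)) : Fin t → GL (Fin m) F) =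
        Pi.mulSingle i0 f * (Pi.mulSingle i0 (blkG θ hm4 y3) * Pi.mulSingle k3 w3 * Pi.mulSingle i0 f *
          (Pi.mulSingle i0 (blkG θ hm4 y3) * Pi.mulSingle k3 w3)⁻¹) := by
      funext l
      rw [Pi.mul_apply, Pi.mul_apply, Pi.mul_apply, Pi.inv_apply, Pi.mul_apply]
      by_cases hl : l = i0
      · subst hl
        rw [Pi.mulSingle_eq_same, Pi.mulSingle_eq_same, Pi.mulSingle_eq_same, Pi.mulSingle_eq_of_ne hk3.symm, mul_one]
      · rw [Pi.mulSingle_eq_of_ne hl, Pi.mulSingle_eq_of_ne hl, Pi.mulSingle_eq_of_ne hl]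
        group
    rw [h1]
    exact A.mul_mem hfA (A.mul_mem (A.mul_mem ha3 hfA) (A.inv_mem ha3))
  have hs1 : f * (blkG θ hm4 y3 * f * (blkG θ hm4 y3)⁻¹) = blkG θ hm4 ((y1 * y2) * (y3 * (y1 * y2) * y3⁻¹)) := by
    rw [hf]; simp only [map_mul, map_inv]
  set σ0 : GL (Fin 4) (ZMod 2) := (y1 * y2) * (y3 * (y1 * y2) * y3⁻¹) with hσ0
  have hσ0v : (σ0 : Matrix (Fin 4) (Fin 4) (ZMod 2)) = Ys := by
    have h2 : ((y1 * y2 : GL (Fin 4) (ZMod 2)) : Matrix (Fin 4) (Fin 4) (ZMod 2)) = Yf := Y12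
    have h3 : ((y3⁻¹ : GL (Fin 4) (ZMod 2)) : Matrix (Fin 4) (Fin 4) (ZMod 2)) = Y3 := rfl
    have h4 : ((y3 : GL (Fin 4) (ZMod 2)) : Matrix (Fin 4) (Fin 4) (ZMod 2)) = Y3 := rfl
    rw [hσ0, Units.val_mul (y1 * y2), Units.val_mul (y3 * (y1 * y2)), Units.val_mul y3 (y1 * y2), h2, h3, h4, Yfs]
  have hσ0σ0 : σ0 * σ0 = 1 := by
    apply Units.ext
    rw [Units.val_mul, hσ0v, Ys_sq, Units.val_one]
  have hσ0ne : σ0 ≠ 1 := by
    intro h1
    apply Ys_ne
    rw [← hσ0v, h1, Units.val_one]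
  rw [hs1, hA, pureHom_single] at hsA
  refine hno _ (h.str_inL (inL_slotGL i0 _) ?_ ?_) hsA
  · rw [← map_mul, ← map_mul, hσ0σ0, map_one, map_one]
  · intro h1
    apply hσ0ne
    have h2 : blkG θ hm4 σ0 = 1 := slotGL_injective (by omega) i0 (by rw [h1, map_one])
    apply Units.ext
    apply blk_injective θ hm4
    have h3 := congrArg (fun z : GL (Fin m) F => (z : Matrix (Fin m) (Fin m) F)) h2
    rw [Units.val_one, blk_one]
    exact h3

end Cfsg.Agent.H873.Wr
end

-- part: H873/WrMain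
section
/-!
**The tensor wreath subgroup is maximal in `SL`.**
-/

set_option autoImplicit false
set_option linter.unusedSectionVars false
set_option linter.unusedSimpArgs false
set_option linter.unusedVariables false

namespace Cfsg.Agent.H873.Wr

open Matrix Cfsg.Agent.H919 Cfsg.Geo

variable {F : Type*} [Field F] [Fintype F]

/-- two-element fields -/
theorem le_std_of_two (hT : Two F) {m : ℕ} (hm : 3 ≤ m) : ∀ t : ℕ, 2 ≤ t → ∀ M : Subgroup (GL (Fin t → Fin m) F),
    HS m t F ≤ M → ¬ specialLinear (Fin t → Fin m) F ≤ M → M ≤ tensorWreathStandard m t F := by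
  intro t
  induction t with
  | zero => intro h; omega
  | succ t ih =>
    intro ht M hHM hM
    have hctx : Ctx M := by
      refine ⟨hT, hm, ht, by rwa [← hT.HS_eq], hM, ?_⟩
      intro n hn i j hij
      exact norm_slot hT hm (by omega) ih hHM hM hn hij
    intro g hg
    by_contra hgH
    by_cases hm4 : 4 ≤ m
    · exact hctx.false_four hm4 hg hgH
    · have hm3 : m = 3 := by omega
      subst hm3
      exact hctx.false_three hg hgH

/-- **Overgroups of the tensor wreath subgroup** (all fields, all `m ≥ 3`, `t ≥ 2`). -/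
theorem le_std {m t : ℕ} (hm : 3 ≤ m) (ht : 2 ≤ t) {M : Subgroup (GL (Fin t → Fin m) F)} (hHM : HS m t F ≤ M)
    (hM : ¬ specialLinear (Fin t → Fin m) F ≤ M) : M ≤ tensorWreathStandard m t F := by
  by_cases hF : ∃ c : F, c ≠ 0 ∧ c ≠ 1
  · exact le_std_of_big hm ht hF hHM hM
  · push Not at hF
    have hT : Two F := by
      intro c
      by_cases hc : c = 0
      · exact Or.inl hc
      · exact Or.inr (hF c hc)
    exact le_std_of_two hT hm t ht M hHM hM

/-- **The standard tensor wreath subgroup is maximal in `SL`.** -/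
theorem maximal_std {m t : ℕ} (hm : 3 ≤ m) (ht : 2 ≤ t) :
    IsMaximalIn (specialLinear (Fin t → Fin m) F) (HS m t F) := by
  refine ⟨lt_of_le_of_ne inf_le_right ?_, ?_⟩
  · intro h
    exact not_sl_le (F := F) hm ht (by rw [← h]; exact inf_le_left)
  · intro M hHM hMS
    by_cases hM : specialLinear (Fin t → Fin m) F ≤ M
    · exact Or.inr (le_antisymm hMS hM)
    · exact Or.inl (le_antisymm (le_inf (le_std hm ht hHM hM) hMS) hHM)

/-- **The stabiliser of a tensor decomposition into equal factors is maximal in `SL`.** -/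
theorem maximal_general {ι : Type} [Fintype ι] [DecidableEq ι] {m t : ℕ} (hm : 3 ≤ m) (ht : 2 ≤ t)
    (e : ι ≃ (Fin t → Fin m)) (P : GL ι F) :
    IsMaximalIn (specialLinear ι F) (tensorWreathSubgroup m t e P ⊓ specialLinear ι F) := by
  obtain ⟨h1, h2⟩ := maximal_std (F := F) hm ht
  -- determinants
  have hdet : ∀ g : GL (Fin t → Fin m) F, frameGL e P g ∈ specialLinear ι F ↔ g ∈ specialLinear (Fin t → Fin m) F := by
    intro g
    rw [mem_specialLinear_iff, mem_specialLinear_iff, frameGL_val, frameMat, det_mul, det_mul]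
    have h3 : ((P : GL ι F) : Matrix ι ι F).det * (((P⁻¹ : GL ι F) : Matrix ι ι F)).det = 1 := by
      rw [← det_mul, Units.mul_inv, det_one]
    have h4 : (Matrix.reindexAlgEquiv F F e.symm (g : Matrix (Fin t → Fin m) (Fin t → Fin m) F)).det =
        (g : Matrix (Fin t → Fin m) (Fin t → Fin m) F).det := by
      rw [Matrix.coe_reindexAlgEquiv, Matrix.det_reindex_self]
    rw [h4]
    have h5 : ((P : GL ι F) : Matrix ι ι F).det * (g : Matrix (Fin t → Fin m) (Fin t → Fin m) F).det *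
        (((P⁻¹ : GL ι F) : Matrix ι ι F)).det = (g : Matrix (Fin t → Fin m) (Fin t → Fin m) F).det := by
      calc _ = (((P : GL ι F) : Matrix ι ι F).det * (((P⁻¹ : GL ι F) : Matrix ι ι F)).det) *
            (g : Matrix (Fin t → Fin m) (Fin t → Fin m) F).det := by ring
        _ = _ := by rw [h3, one_mul]
    rw [h5]
  have hmap1 : (specialLinear (Fin t → Fin m) F).map (frameGL e P).toMonoidHom = specialLinear ι F := by
    ext x
    constructor
    · rintro ⟨g, hg, rfl⟩
      exact (hdet g).2 hg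
    · intro hx
      refine ⟨(frameGL e P).symm x, ?_, by simp⟩
      apply (hdet _).1
      rwa [MulEquiv.apply_symm_apply]
  have hmap2 : (HS m t F).map (frameGL e P).toMonoidHom = tensorWreathSubgroup m t e P ⊓ specialLinear ι F := by
    ext x
    constructor
    · rintro ⟨g, ⟨hg, hg'⟩, rfl⟩
      exact ⟨(mem_tensorWreathSubgroup_iff e P _).2 ⟨g, hg, rfl⟩, (hdet g).2 hg'⟩
    · rintro ⟨hx, hx'⟩
      obtain ⟨g, hg, rfl⟩ := (mem_tensorWreathSubgroup_iff e P _).1 hx
      exact ⟨g, ⟨hg, (hdet g).1 hx'⟩, rfl⟩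
  refine ⟨?_, ?_⟩
  · have := (Subgroup.map_lt_map_iff_of_injective (f := (frameGL e P).toMonoidHom) (frameGL e P).injective).2 h1
    rwa [hmap1, hmap2] at this
  · intro M hM1 hM2
    have hmap : (M.comap (frameGL e P).toMonoidHom).map (frameGL e P).toMonoidHom = M :=
      Subgroup.map_comap_eq_self_of_surjective (frameGL e P).surjective M
    have h3 : HS m t F ≤ M.comap (frameGL e P).toMonoidHom := by
      rw [← Subgroup.map_le_iff_le_comap, hmap2]
      exact hM1
    have h4 : M.comap (frameGL e P).toMonoidHom ≤ specialLinear (Fin t → Fin m) F := by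
      rw [← Subgroup.map_le_map_iff_of_injective (f := (frameGL e P).toMonoidHom) (frameGL e P).injective, hmap, hmap1]
      exact hM2
    rcases h2 _ h3 h4 with h5 | h5
    · left
      rw [← hmap, h5, hmap2]
    · right
      rw [← hmap, h5, hmap1]

end Cfsg.Agent.H873.Wr
end

-- part: S5641
section
set_option autoImplicit false
open Cfsg

namespace Cfsg.Agent.S5641

/-- For a finite field F and n = m ^ t ≥ 13 with m ≥ 3 and t ≥ 2, the stabiliser in SL_n(F) of a tensor decomposition of F^n into t factors of dimension m (the conjugate by any P of the standard tensor-wreath subgroup transported along any bijection Fin n ≃ (Fin t → Fin m), intersected with SL_n(F)) is a maximal subgroup of SL_n(F). -/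
theorem result {F : Type*} [Field F] [Fintype F] (n : ℕ) (hn : 13 ≤ n) (m t : ℕ) (hm : 3 ≤ m) (ht : 2 ≤ t) (e : Fin n ≃ (Fin t → Fin m)) (P : Matrix.GeneralLinearGroup (Fin n) F) : Cfsg.Geo.IsMaximalIn (Cfsg.Geo.specialLinear (Fin n) F) (Cfsg.Geo.tensorWreathSubgroup m t e P ⊓ Cfsg.Geo.specialLinear (Fin n) F) := by
  exact Cfsg.Agent.H873.Wr.maximal_general hm ht e P

end Cfsg.Agent.S5641
end
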