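import Cfsg.Statements.S5653
import Cfsg.Agent.H876.UBasic
import Cfsg.Agent.H876.Stab
set_option linter.all false

set_option autoImplicit false
open Cfsg

namespace Cfsg.Agent.S5653

open Cfsg.Agent.LieClassical.HermBasic Cfsg.Agent.ClassicalGeometry.UnitTransv
open Cfsg.Agent.ClassicalGeometry.HermOrtho Cfsg.Agent.H876
open scoped Matrix MatrixGroups

variable {F : Type*} [Field F] [Fintype F] {n q : ℕ}

/-- an isotropic vector `x0 + μ w` for `w` isotropic and not orthogonal to `x0`. -/
theorem exists_iso_add (hF : Fintype.card F = q ^ 2) {x w : Fin n → F}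
    (hw : hermForm n F q w w = 0) (hxw : hermForm n F q x w ≠ 0) :
    ∃ μ : F, hermForm n F q (x + μ • w) (x + μ • w) = 0 := by
  obtain ⟨t, ht⟩ := exists_trace_eq hF (c := -hermForm n F q x x)
    (by rw [neg_pow_q hF, herm_self_pow hF])
  have hwx : hermForm n F q w x ≠ 0 := fun h => hxw (herm_eq_zero_swap hF h)
  refine ⟨t / hermForm n F q w x, ?_⟩
  have h1 : (t / hermForm n F q w x) * hermForm n F q w x = t := div_mul_cancel₀ _ hwx
  have h2 : (t / hermForm n F q w x) ^ q * hermForm n F q x w = t ^ q := by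
    rw [herm_swap hF w x, ← mul_pow, h1]
  rw [herm_add_left, herm_add_right hF, herm_add_right hF, herm_smul_left, herm_smul_left, herm_smul_right,
    herm_smul_right, hw]
  linear_combination h1 + h2 + ht

/-- Siegel elements: `y` to `y'` fixing the totally singular `W`. -/
theorem exists_siegel (hF : Fintype.card F = q ^ 2) {W : Submodule F (Fin n → F)}
    (hW : Cfsg.Geo.IsTotallySingularFor (Cfsg.hermForm n F q) W) {y y' v : Fin n → F}
    (hy : hermForm n F q y y = 0) (hy' : hermForm n F q y' y' = 0) (hv : v ∈ W)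
    (h1 : hermForm n F q y v = 1) (h1' : hermForm n F q y' v = 1) :
    ∃ g : GL (Fin n) F, g ∈ Geo.subspaceStabilizer W ⊓ (GU n F q ⊓ Geo.specialLinear (Fin n) F) ∧
      (g : Matrix (Fin n) (Fin n) F) *ᵥ y = y' := by
  have hvv : hermForm n F q v v = 0 := hW v hv v hv
  have hwv : hermForm n F q (y' - y) v = 0 := by rw [herm_sub_left, h1, h1', sub_self]
  have hμ : hermForm n F q y y' + hermForm n F q y y' ^ q + hermForm n F q (y' - y) (y' - y) = 0 := by
    rw [← herm_swap hF, herm_sub_left, herm_sub_right hF, herm_sub_right hF, hy, hy']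
    ring
  refine ⟨suGL n F q (siegel hF v (y' - y) (hermForm n F q y y') hvv hwv hμ), ⟨?_, suGL_mem _⟩, ?_⟩
  · apply mem_stab_of_le
    intro x hx
    rw [suGL_mulVec, act_siegel, hW x hx v hv, zero_smul, add_zero]
    exact W.add_mem hx (W.smul_mem _ hv)
  · rw [suGL_mulVec, act_siegel, h1, one_smul, herm_sub_right hF, hy, mul_one, sub_zero, sub_self,
      zero_smul, add_zero, add_sub_cancel]

/-- Let F be the field with q² elements and n ≥ 13, and let SU_n(q) be the group of matrices of determinant one preserving the standard unitary form Σ u_i v_i^q on F^n (the intersection of the unitary group GU_n with the kernel of the determinant). The elements of SU_n(q) stabilising a non-zero subspace on which the form vanishes identically form a maximal subgroup of SU_n(q). -/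
theorem result {F : Type*} [Field F] [Fintype F] (n q : ℕ) (hF : Fintype.card F = q ^ 2) (hn : 13 ≤ n) (W : Submodule F (Fin n → F)) (hW0 : W ≠ ⊥) (hW : Cfsg.Geo.IsTotallySingularFor (Cfsg.hermForm n F q) W) : Cfsg.Geo.IsMaximalIn (Cfsg.GU n F q ⊓ Cfsg.Geo.specialLinear (Fin n) F) (Cfsg.Geo.subspaceStabilizer W ⊓ (Cfsg.GU n F q ⊓ Cfsg.Geo.specialLinear (Fin n) F)) := by
  classical
  obtain ⟨w0, hw0, hw00⟩ := Submodule.exists_mem_ne_zero_of_ne_bot hW0
  apply isMaximalIn_of inf_le_right
  · intro hle
    obtain ⟨y0, hy0⟩ := exists_herm_ne_zero hF hw00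
    have hy0' : hermForm n F q y0 w0 ≠ 0 := fun h => hy0 (herm_eq_zero_swap hF h)
    obtain ⟨μ, hμ⟩ := exists_iso_add hF (hW w0 hw0 w0 hw0) hy0'
    set y := y0 + μ • w0 with hy
    have hyw : hermForm n F q w0 y ≠ 0 := by
      rw [hy, herm_add_right hF, herm_smul_right, hW w0 hw0 w0 hw0, mul_zero, add_zero]
      exact hy0
    obtain ⟨c, hc0, hc⟩ := exists_trace_zero_ne hF
    have h1 := (hle (uGL_mem hF hμ hc)).1
    have h2 := (mem_stab_iff.1 h1 w0).1 hw0
    rw [uGL_mulVec] at h2
    have h3 : (c * hermForm n F q w0 y) • y ∈ W := (Submodule.add_mem_iff_right W hw0).1 h2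
    have h4 : y ∈ W := (Submodule.smul_mem_iff W (mul_ne_zero hc0 hyw)).1 h3
    exact hyw (hW w0 hw0 y h4)
  · intro M hHM hMG ⟨g, hgM, hgn⟩
    have hgG := hMG hgM
    have hgs : g ∉ Geo.subspaceStabilizer W := fun h => hgn ⟨h, hgG⟩
    -- root vectors in `W^⊥`
    have hperp : ∀ v : Fin n → F, hermForm n F q v v = 0 → (∀ w ∈ W, hermForm n F q w v = 0) →
        InS q M v := by
      intro v hv hvW
      refine inS_of_forall hF hv fun c hc => hHM ⟨?_, uGL_mem hF hv hc⟩
      apply mem_stab_of_le
      intro x hx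
      rw [uGL_mulVec, hvW x hx, mul_zero, zero_smul, add_zero]
      exact hx
    -- a root vector outside `W^⊥`
    have hex : ∃ x : Fin n → F, InS q M x ∧ ∃ w ∈ W, hermForm n F q x w ≠ 0 := by
      by_cases h1 : ∃ w' ∈ W, ∃ w ∈ W, hermForm n F q ((g : Matrix (Fin n) (Fin n) F) *ᵥ w') w ≠ 0
      · obtain ⟨w', hw', w, hw, h1⟩ := h1
        exact ⟨_, InS.map hgM hgG.1 (hperp w' (hW _ hw' _ hw') fun w hw => hW _ hw _ hw'), w, hw, h1⟩
      · push Not at h1
        -- `gW ⊥ W`
        have hginv : g⁻¹ ∉ Geo.subspaceStabilizer W := fun h => hgs (by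
          have := Subgroup.inv_mem _ h
          rwa [inv_inv] at this)
        obtain ⟨w, hw, hgw⟩ := exists_not_mem_of_not_stab hginv
        obtain ⟨ℓ, hℓ, hℓW⟩ := Submodule.exists_le_ker_of_notMem hgw
        -- represent `ℓ`
        obtain ⟨x0, hx0⟩ : ∃ x0 : Fin n → F, ∀ x, hermForm n F q x x0 = ℓ x := by
          refine ⟨fun i => (ℓ (Pi.single i 1)) ^ q, fun x => ?_⟩
          rw [herm_def]
          simp only [pow_q_pow_q hF]
          conv_rhs => rw [← Finset.univ_sum_single x]
          rw [map_sum]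
          refine Finset.sum_congr rfl fun i _ => ?_
          have : (Pi.single i (x i) : Fin n → F) = x i • Pi.single i 1 := by
            rw [← Pi.single_smul, smul_eq_mul, mul_one]
          rw [this, map_smul, smul_eq_mul]
        -- `x1 = g x0` is orthogonal to `gW` and not to `w`
        set x1 := (g : Matrix (Fin n) (Fin n) F) *ᵥ x0 with hx1
        have hx1w : hermForm n F q w x1 ≠ 0 := by
          have h2 := hx0 (((g⁻¹ : GL (Fin n) F) : Matrix (Fin n) (Fin n) F) *ᵥ w)
          rw [herm_gl_inv hgG.1] at h2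
          rw [hx1, h2]
          exact hℓ
        have hx1w' : hermForm n F q x1 w ≠ 0 := fun h => hx1w (herm_eq_zero_swap hF h)
        obtain ⟨μ, hμ⟩ := exists_iso_add hF (hW w hw w hw) hx1w'
        refine ⟨x1 + μ • w, ?_, w, hw, ?_⟩
        · -- it is the image of a vector of `W^⊥`
          have h3 : x1 + μ • w = (g : Matrix (Fin n) (Fin n) F) *ᵥ (x0 + μ • (((g⁻¹ : GL (Fin n) F) : Matrix (Fin n) (Fin n) F) *ᵥ w)) := by
            rw [Matrix.mulVec_add, Matrix.mulVec_smul, mulVec_inv_cancel]
          rw [h3]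
          refine InS.map hgM hgG.1 (hperp _ ?_ ?_)
          · rw [h3, herm_gl hgG.1] at hμ
            exact hμ
          · intro w' hw'
            rw [herm_add_right hF, herm_smul_right, hx0]
            have h4 : ℓ w' = 0 := hℓW hw'
            have h5 : hermForm n F q w' (((g⁻¹ : GL (Fin n) F) : Matrix (Fin n) (Fin n) F) *ᵥ w) = 0 := by
              apply herm_eq_zero_swap hF
              rw [herm_gl_inv hgG.1]
              exact herm_eq_zero_swap hF (h1 w' hw' w hw)
            rw [h4, h5, mul_zero, add_zero]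
        · rw [herm_add_left, herm_smul_left, hW w hw w hw, mul_zero, add_zero]
          exact hx1w'
    obtain ⟨x, hxS, w, hw, hxw⟩ := hex
    refine su_le hF (by omega) (by omega) fun y hy => ?_
    by_cases hyW : ∀ w ∈ W, hermForm n F q w y = 0
    · exact hperp y hy hyW
    · push Not at hyW
      obtain ⟨w', hw', hyw'⟩ := hyW
      have hyw'' : hermForm n F q y w' ≠ 0 := fun h => hyw' (herm_eq_zero_swap hF h)
      -- a common vector
      obtain ⟨v, hv, hxv, hyv⟩ : ∃ v ∈ W, hermForm n F q x v ≠ 0 ∧ hermForm n F q y v ≠ 0 := by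
        by_cases h1 : hermForm n F q y w = 0
        · by_cases h2 : hermForm n F q x w' = 0
          · refine ⟨w + w', W.add_mem hw hw', ?_, ?_⟩
            · rw [herm_add_right hF, h2, add_zero]; exact hxw
            · rw [herm_add_right hF, h1, zero_add]; exact hyw''
          · exact ⟨w', hw', h2, hyw''⟩
        · exact ⟨w, hw, hxw, h1⟩
      -- normalise
      set a := hermForm n F q x v with ha
      set b := hermForm n F q y v with hb
      obtain ⟨k, hk, hkx⟩ := exists_siegel hF hW (y := a⁻¹ • x) (y' := b⁻¹ • y) (v := v)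
        (by rw [herm_smul_left, herm_smul_right, hxS.1, mul_zero, mul_zero])
        (by rw [herm_smul_left, herm_smul_right, hy, mul_zero, mul_zero]) hv
        (by rw [herm_smul_left, ← ha, inv_mul_cancel₀ hxv])
        (by rw [herm_smul_left, ← hb, inv_mul_cancel₀ hyv])
      have h3 := InS.map (hHM hk) hk.2.1 (InS.smul hF hxS a⁻¹)
      rw [hkx] at h3
      have h4 := InS.smul hF h3 b
      rwa [smul_smul, mul_inv_cancel₀ hyv, one_smul] at h4

end Cfsg.Agent.S5653
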