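import Cfsg.Statements.S5655
import Cfsg.Agent.H876.FrameMax
set_option linter.all false

set_option autoImplicit false
open Cfsg

namespace Cfsg.Agent.S5655

/-- Let F be the field with q² elements and n ≥ 13. Let D be a decomposition of F^n into t ≥ 2 pairwise orthogonal subspaces of equal dimension k, each non-degenerate for the standard unitary form, spanning F^n. Unless k = 2 and q = 2, the elements of SU_n(q) permuting the members of D form a maximal subgroup of SU_n(q). -/
theorem result {F : Type*} [Field F] [Fintype F] (n q : ℕ) (hF : Fintype.card F = q ^ 2) (hn : 13 ≤ n) {t : ℕ} (k : ℕ) (D : Fin t → Submodule F (Fin n → F)) (hD : Cfsg.Geo.IsNondegenerateMDecomposition (Cfsg.hermForm n F q) k D) (hex : ¬ (k = 2 ∧ q = 2)) : Cfsg.Geo.IsMaximalIn (Cfsg.GU n F q ⊓ Cfsg.Geo.specialLinear (Fin n) F) (Cfsg.Geo.decompositionStabilizer D ⊓ (Cfsg.GU n F q ⊓ Cfsg.Geo.specialLinear (Fin n) F)) := by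
  have hq1 : 2 ≤ q := by
    have hcard : 1 < Fintype.card F := Fintype.one_lt_card
    by_contra h
    interval_cases q <;> omega
  have hk0 := hD.decomp.pos
  have htk := Cfsg.Agent.H876.FrameMax.card_mul hD.decomp
  rcases Nat.lt_or_ge k 2 with hk | hk
  · obtain rfl : k = 1 := by omega
    exact Cfsg.Agent.H876.FrameMax.frame_maximal_eight hF (by omega) D hD
  · refine Cfsg.Agent.H876.odec_maximal n q hF (by omega) (by omega) k D hD hk ?_ ?_
    · by_contra hcon
      push Not at hcon
      exact hex ⟨by omega, by omega⟩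
    · by_contra hcon
      push Not at hcon
      obtain ⟨h1, h2⟩ := hcon
      have : t * k ≤ 2 * 2 := Nat.mul_le_mul (by omega) (by omega)
      omega

end Cfsg.Agent.S5655
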