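import Cfsg.Statements.S5664
import Cfsg.Agent.H879.ExtSymp
set_option linter.all false

set_option autoImplicit false
open Cfsg

namespace Cfsg.Agent.S5664

open Module Matrix Cfsg.Agent.ClassicalGeometry.SympBasic Cfsg.Agent.H879 Cfsg.Agent.H879.ExtField

/-- For a finite field F and m ≥ 7, let K be a subfield of the algebra of 2m × 2m matrices over F containing the scalars, of prime degree r over F, whose elements k are self-adjoint for the standard alternating form f on F^(2m) (f(k u, v) = f(u, k v)) and satisfy f(k v, v) = 0 for all v. Then the elements of Sp_2m(F) normalising K form a maximal subgroup of Sp_2m(F). -/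
theorem result {F : Type*} [Field F] [Fintype F] (m : ℕ) (hm : 7 ≤ m) (r : ℕ) (hr : r.Prime) (K : Subalgebra F (Matrix (Fin m ⊕ Fin m) (Fin m ⊕ Fin m) F)) (hK : Cfsg.Geo.IsFieldSubalgebra r K) (hsa : Cfsg.Geo.IsSelfAdjointFor (Cfsg.sympForm m F) K) (halt : ∀ k ∈ K, ∀ v : (Fin m ⊕ Fin m → F), Cfsg.sympForm m F (Matrix.mulVec k v) v = 0) : Cfsg.Geo.IsMaximalIn (Cfsg.spGL m F) (Cfsg.Geo.subalgebraNormalizer K ⊓ Cfsg.spGL m F) := by
  refine isMaximalIn_of hK hr.two_le (by omega) fun M hHM hMS => ?_
  have hfr : finrank F K = r := hK.finrank_eq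
  have hnt : Nontrivial K := by
    apply nontrivial_of_finrank_pos (R := F)
    rw [hfr]
    exact hr.pos
  have hfield : IsField K :=
    { exists_pair_ne := exists_pair_ne K
      mul_comm := fun x y => Subtype.ext (hK.comm x x.2 y y.2)
      mul_inv_cancel := fun {a} ha => by
        obtain ⟨y, hy, hay⟩ := hK.inv a a.2 (fun h => ha (Subtype.ext h))
        exact ⟨⟨y, hy⟩, Subtype.ext hay⟩ }
  have hfin : FiniteDimensional F K := Module.finite_of_finrank_pos (by rw [hfr]; exact hr.pos)
  have key := @overgroup F K _ hfield.toField K.algebra hfin (by rw [hfr]; exact hr) m (by omega)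
    K.val (fun k x y => hsa k k.2 x y) (fun k x => halt k k.2 x) M ?_ hMS
  · rcases key with h1 | h1
    · left
      intro g hg
      apply mem_subalgebraNormalizer_of_semilinear
      intro k hk
      obtain ⟨k', hk'⟩ := h1 g hg ⟨k, hk⟩
      exact ⟨k', k'.2, hk'⟩
    · exact Or.inr h1
  · intro g hg hcomm
    refine hHM ⟨?_, hg⟩
    apply mem_subalgebraNormalizer_of_semilinear
    intro k hk
    exact ⟨k, hk, fun x => hcomm ⟨k, hk⟩ x⟩

end Cfsg.Agent.S5664
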