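import Cfsg.Statements.S5666
import Cfsg.Agent.H879.TenWrap
set_option linter.all false

set_option autoImplicit false
open Cfsg

namespace Cfsg.Agent.S5666

/-- For a finite field F of odd order q and m ≥ 7, suppose the standard alternating form on F^(2m) is similar, through a change of basis P and a bijection of index sets e, to the tensor product of a non-degenerate symplectic form f₁ on F^(n₁) and a non-degenerate symmetric bilinear form f₂ on F^(n₂) with n₂ ≥ 3. Unless q = 3 and n₂ = 3, the elements of Sp_2m(F) in the stabiliser of this tensor decomposition (the conjugate by P of the Kronecker-product subgroup transported along e) form a maximal subgroup of Sp_2m(F). -/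
theorem result {F : Type*} [Field F] [Fintype F] (m : ℕ) (hm : 7 ≤ m) (hodd : Odd (Fintype.card F)) (n₁ n₂ : ℕ) (hn₂ : 3 ≤ n₂) (hex : ¬ (Fintype.card F = 3 ∧ n₂ = 3)) (e : (Fin m ⊕ Fin m) ≃ Fin n₁ × Fin n₂) (P : Matrix.GeneralLinearGroup (Fin m ⊕ Fin m) F) (f₁ : (Fin n₁ → F) → (Fin n₁ → F) → F) (f₂ : (Fin n₂ → F) → (Fin n₂ → F) → F) (hf₁ : Cfsg.Geo.IsSymplecticForm f₁) (hf₂ : Cfsg.Geo.IsSymmetricForm f₂) (hT : Cfsg.Geo.IsTensorFormStructure id (Cfsg.sympForm m F) f₁ f₂ e P) : Cfsg.Geo.IsMaximalIn (Cfsg.spGL m F) (Cfsg.Geo.tensorProductSubgroup n₁ n₂ e P ⊓ Cfsg.spGL m F) := by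
  have h1 := Fintype.card_congr e
  simp only [Fintype.card_sum, Fintype.card_fin, Fintype.card_prod] at h1
  rcases Nat.lt_or_ge n₁ 3 with h | h
  · interval_cases n₁
    · omega
    · -- a symplectic form on a line is zero
      exfalso
      have h0 : (fun _ => 1 : Fin 1 → F) ≠ 0 := fun h => one_ne_zero (congrFun h 0)
      obtain ⟨y, hy⟩ := (hf₁.nondegenerate _ h0).2
      apply hy
      have h2 : y = y 0 • (fun _ => 1 : Fin 1 → F) := by
        funext i
        rw [Subsingleton.elim i 0]
        simp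
      rw [h2, hf₁.bilinear.smul_right, hf₁.alternating, mul_zero]
    · exact Cfsg.Agent.H924.Ten.tensor_two_maximal (by omega) hodd e P f₁ f₂ hf₁ hf₂ hT
  · exact Cfsg.Agent.H879.TenS.tensor_maximal h hn₂ hodd hex e P f₁ f₂ hf₁ hf₂ hT

end Cfsg.Agent.S5666
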