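import Cfsg.Statements.S5671
import Cfsg.Agent.H918.UProper
import Cfsg.Agent.H930.UnitaryTensor
set_option linter.all false

set_option autoImplicit false
open Cfsg

namespace Cfsg.Agent.S5671

open Cfsg.Geo Cfsg.Agent.H918 Cfsg.Agent.H930
open scoped Matrix

/-- A non-degenerate subspace of dimension at least two over the field with four elements contains a non-zero
isotropic vector. -/
theorem exists_isotropic {ι : Type} [Fintype ι] [DecidableEq ι] {F : Type*} [Field F] [Fintype F]
    {f : (ι → F) → (ι → F) → F} (hF : Fintype.card F = 2 ^ 2)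
    (hf : IsUnitaryFormPow 2 f) {W : Submodule F (ι → F)} (hW : IsNondegenerateOn f W)
    (h2 : 2 ≤ Module.finrank F W) : ∃ v ∈ W, v ≠ 0 ∧ f v v = 0 := by
  have h0 : W ≠ ⊥ := by
    rintro rfl
    simp at h2
  have h20 := two_eq_zero hF
  obtain ⟨w₁, hw₁, hn₁⟩ := exists_nonisotropic hF hf hW h0
  have h11 := self_eq_one hf hn₁
  have hlt : Submodule.span F {w₁} < W := by
    refine lt_of_le_of_ne ?_ ?_
    · rw [Submodule.span_singleton_le_iff_mem]; exact hw₁
    · intro h
      have := finrank_span_le_card (R := F) ({w₁} : Set (ι → F))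
      rw [h] at this
      simp at this
      omega
  obtain ⟨x, hx, hxn⟩ := SetLike.exists_of_lt hlt
  set w₂ : ι → F := x - f x w₁ • w₁ with hw₂
  have hw₂W : w₂ ∈ W := W.sub_mem hx (W.smul_mem _ hw₁)
  have h21 : f w₂ w₁ = 0 := by
    rw [hw₂, UForm.sub_left hf, hf.smul_left, h11]
    ring
  have h12 : f w₁ w₂ = 0 := UForm.eq_zero_symm hf two_ne_zero h21
  have hw₂0 : w₂ ≠ 0 := by
    intro h
    apply hxn
    rw [hw₂, sub_eq_zero] at h
    rw [h]
    exact Submodule.smul_mem _ _ (Submodule.mem_span_singleton_self _)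
  by_cases h22 : f w₂ w₂ = 0
  · exact ⟨w₂, hw₂W, hw₂0, h22⟩
  · have h22' := self_eq_one hf h22
    refine ⟨w₁ + w₂, W.add_mem hw₁ hw₂W, ?_, ?_⟩
    · intro h
      have e : f (w₁ + w₂) w₁ = 1 := by rw [hf.add_left, h11, h21, add_zero]
      rw [h, UForm.zero_left hf] at e
      exact zero_ne_one e
    · rw [hf.add_left, UForm.add_right hF hf, UForm.add_right hF hf, h11, h12, h21, h22']
      linear_combination h20

/-- Let F be the field with 4 elements (q = 2) and n = 2 n₂ ≥ 13. Suppose the standard unitary form Σ u_i v_i² on F^n is similar, through P and e, to the tensor product of non-degenerate unitary forms f₁ on F^2 and f₂ on F^(n₂). Then the elements of SU_n(2) in the stabiliser of this tensor decomposition form a subgroup that is not maximal: some subgroup lies strictly between it and SU_n(2). -/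
theorem result {F : Type*} [Field F] [Fintype F] (n : ℕ) (hF : Fintype.card F = 4) (hn : 13 ≤ n) (n₂ : ℕ) (e : Fin n ≃ Fin 2 × Fin n₂) (P : Matrix.GeneralLinearGroup (Fin n) F) (f₁ : (Fin 2 → F) → (Fin 2 → F) → F) (f₂ : (Fin n₂ → F) → (Fin n₂ → F) → F) (hf₁ : Cfsg.Geo.IsUnitaryFormPow 2 f₁) (hf₂ : Cfsg.Geo.IsUnitaryFormPow 2 f₂) (hT : Cfsg.Geo.IsTensorFormStructure (fun x : F => x ^ 2) (Cfsg.hermForm n F 2) f₁ f₂ e P) : ∃ K : Subgroup (Matrix.GeneralLinearGroup (Fin n) F), Cfsg.Geo.tensorProductSubgroup 2 n₂ e P ⊓ (Cfsg.GU n F 2 ⊓ Cfsg.Geo.specialLinear (Fin n) F) < K ∧ K < (Cfsg.GU n F 2 ⊓ Cfsg.Geo.specialLinear (Fin n) F) := by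
  have hF' : Fintype.card F = 2 ^ 2 := by rw [hF]; norm_num
  have hf := hermForm_isUnitaryFormPow hF' n
  have hn2 : n = 2 * n₂ := by
    have := Fintype.card_congr e
    simpa using this
  obtain ⟨E, hE, hEs⟩ := exists_decomposition_of_tensor_two hF' (by omega) hf₁ hf₂ hT
  have h20 := Cfsg.Agent.H930.two_eq_zero hF'
  obtain ⟨v, hv, hv0, hvv⟩ := exists_isotropic hF' hf (hE.nondegenerate 0)
    (by rw [hE.decomp.finrank_eq]; omega)
  have hc : (1 : F) + 1 ^ 2 = 0 := by linear_combination h20
  set g := H918.tv hF' v 1 hvv hc with hg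
  have hgx : ∀ x, (g : Matrix (Fin n) (Fin n) F) *ᵥ x = x + hermForm n F 2 x v • v := by
    intro x
    rw [hg, tv_mulVec, one_mul]
  have hgS : g ∈ SUg n F 2 := tv_mem hF' hvv hc
  have hgE : g ∈ decompositionStabilizer E := by
    refine mem_decompositionStabilizer_of_fun hE.decomp.indep (fun j h => ?_) g id (fun j => ?_)
    · have := hE.decomp.finrank_eq j
      rw [h] at this
      simp at this
      omega
    · apply Submodule.eq_of_le_of_finrank_eq
      · rintro _ ⟨x, hx, rfl⟩
        rw [Matrix.toLin'_apply, hgx]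
        by_cases hj : j = 0
        · subst hj
          exact (E 0).add_mem hx ((E 0).smul_mem _ hv)
        · rw [hE.orthogonal j 0 hj x hx v hv, zero_smul, add_zero]
          exact hx
      · rw [← (Submodule.equivMapOfInjective _ (toLin'_injective g) (E j)).finrank_eq]
        rfl
  have hgT : ¬ (decompositionStabilizer E ⊓ SUg n F 2) ≤ tensorProductSubgroup 2 n₂ e P := by
    exact not_le_tensorProductSubgroup (G := decompositionStabilizer E ⊓ SUg n F 2) ⟨hgE, hgS⟩
      (tv_isRankOne hF' hvv hc hv0 one_ne_zero) le_rfl (by omega) e P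
  refine ⟨decompositionStabilizer E ⊓ SUg n F 2, ?_, ?_⟩
  · refine lt_of_le_of_ne ?_ ?_
    · intro x hx
      exact ⟨hEs x hx.2.1 hx.1, hx.2⟩
    · intro h
      exact hgT (h.ge.trans inf_le_left)
  · refine lt_of_le_of_ne inf_le_right ?_
    intro h
    exact SUg_not_le_decompositionStabilizer hF' (by omega) (by omega) hE.decomp (h.ge.trans inf_le_left)

end Cfsg.Agent.S5671
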