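import Cfsg.Statements.S5677
import Cfsg.Agent.H885.C2Main
set_option linter.all false

set_option autoImplicit false
open Cfsg

namespace Cfsg.Agent.S5677

/-- Let F be a finite field of odd order q, m ≥ 6, Q the standard quadratic form on F^(2m+1) and Ω the commutator subgroup of its isometry group. Let D be a decomposition of F^(2m+1) into t ≥ 2 pairwise orthogonal, pairwise Q-isometric subspaces of equal dimension k > 1 on which the polar form is non-degenerate. Unless q = 3 and k = 3, the elements of Ω permuting the members of D form a maximal subgroup of Ω. -/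
theorem result {F : Type*} [Field F] [Fintype F] (hodd : Odd (Fintype.card F)) (m : ℕ) (hm : 6 ≤ m) {t : ℕ} (k : ℕ) (hk : 1 < k) (D : Fin t → Submodule F (Unit ⊕ (Fin m ⊕ Fin m) → F)) (hD : Cfsg.Geo.IsOrthogonalMDecomposition (Cfsg.quadFormOdd m F) k D) (hex : ¬ (Fintype.card F = 3 ∧ k = 3)) : Cfsg.Geo.IsMaximalIn (Cfsg.Geo.omegaGL (Cfsg.quadFormOdd m F)) (Cfsg.Geo.decompositionStabilizer D ⊓ Cfsg.Geo.omegaGL (Cfsg.quadFormOdd m F)) := by
  have htk := Cfsg.Agent.H886.finrank_mdecomposition hD.decomp.decomp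
  have hcard : Fintype.card (Unit ⊕ (Fin m ⊕ Fin m)) = 2 * m + 1 := by
    simp only [Fintype.card_sum, Fintype.card_unit, Fintype.card_fin]
    omega
  rw [hcard] at htk
  have hprod : Odd (t * k) := ⟨m, htk⟩
  have hk2 : Odd k := (Nat.odd_mul.1 hprod).2
  have ht2 : Odd t := (Nat.odd_mul.1 hprod).1
  have ht := hD.decomp.decomp.two_le
  refine Cfsg.Agent.H885.C2Main.decomposition_maximal
    (Cfsg.Agent.H883.Bridge.isNondegenerateQuadraticForm_odd hodd m) (k := k) ?_ ?_ hD ?_ ?_ ?_
  · obtain ⟨r, hr⟩ := hk2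
    omega
  · rw [hcard]; omega
  · left
    obtain ⟨r, hr⟩ := ht2
    omega
  · intro hk3
    exact ⟨hodd, fun h => hex ⟨h, hk3⟩⟩
  · rintro ⟨hk4, -, -⟩
    obtain ⟨r, hr⟩ := hk2
    omega

end Cfsg.Agent.S5677
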