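import Cfsg.Statements.S5686
import Cfsg.Agent.H884.SingMaxPlus
set_option linter.all false

set_option autoImplicit false
open Cfsg

namespace Cfsg.Agent.S5686

/-- Let F be a finite field with q elements, n ≥ 13 even, Q a non-degenerate quadratic form on F^n of plus type (some subspace of dimension n/2 is totally singular), and Ω the commutator subgroup of the isometry group of Q, viewed inside GL_n(F). The elements of Ω stabilising a subspace of dimension n/2 − 1 on which Q vanishes form a subgroup that is not maximal: some subgroup lies strictly between it and Ω. -/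
theorem result {F : Type*} [Field F] [Fintype F] {n : ℕ} (hn : 13 ≤ n) (heven : Even n) (Q : (Fin n → F) → F) (hQ : Cfsg.Geo.IsNondegenerateQuadraticForm Q) (hplus : Cfsg.Geo.IsPlusTypeOn Q ⊤) (W : Submodule F (Fin n → F)) (hW : Cfsg.Geo.IsTotallySingularQuad Q W) (hdim : 2 * (Module.finrank F W + 1) = n) : ∃ K : Subgroup (Matrix.GeneralLinearGroup (Fin n) F), Cfsg.Geo.subspaceStabilizer W ⊓ Cfsg.Geo.omegaGL Q < K ∧ K < Cfsg.Geo.omegaGL Q := by
  have hn5 : 5 ≤ Fintype.card (Fin n) := by rw [Fintype.card_fin]; omega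
  have hnd := Cfsg.Agent.H884.OmegaGL.nondeg_bundle Q hQ
  obtain ⟨U, -, hU, hUd⟩ := hplus
  rw [finrank_top, Module.finrank_fintype_fun_eq_card, Fintype.card_fin] at hUd
  obtain ⟨z, hzU, hzW, hzn⟩ := Cfsg.Agent.H884.SingMaxPlus.exists_extend
    (Q := Cfsg.Agent.H884.OmegaGL.bundle Q hQ) hnd (W := W) (U := U) hU (by omega)
  have hz : Q z = 0 := hU z hzU
  have hW1 := Cfsg.Agent.H884.SingMaxPlus.sup_span_singular
    (Q := Cfsg.Agent.H884.OmegaGL.bundle Q hQ) hW hz hzW
  have hd1 := Cfsg.Agent.H884.SingMaxPlus.finrank_sup_span (F := F) hzn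
  set W1 := W ⊔ Submodule.span F {z} with hW1def
  have hle : W ≤ W1 := le_sup_left
  have hW0 : W ≠ ⊥ := by
    rintro rfl
    rw [finrank_bot] at hdim
    omega
  have hne : W ≠ W1 := by
    intro h
    rw [← h] at hd1
    omega
  have hW10 : W1 ≠ ⊥ := fun h => hW0 (le_bot_iff.1 (h ▸ hle))
  refine ⟨Cfsg.Geo.subspaceStabilizer W1 ⊓ Cfsg.Geo.omegaGL Q, lt_of_le_of_ne ?_ ?_,
    Cfsg.Agent.H884.OmegaGL.stabilizer_lt Q hQ hn5 hW10 hW1⟩
  · rintro g ⟨hg1, hg2⟩
    refine ⟨Cfsg.Agent.H884.OmegaGL.mem_subspaceStabilizer.2 ?_, hg2⟩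
    exact Cfsg.Agent.H884.SingMaxPlus.stabilizes_above hnd hW1 hle hd1
      (by rw [Module.finrank_fintype_fun_eq_card, Fintype.card_fin]; omega)
      ((Cfsg.Agent.H884.OmegaGL.mem_omegaGL_iff_commutator Q hQ g).1 hg2)
      (Cfsg.Agent.H884.OmegaGL.mem_subspaceStabilizer.1 hg1)
  · intro he
    obtain ⟨g, hg, hg1, w, hw, hgw⟩ := Cfsg.Agent.H884.SingMaxPlus.exists_stab_above hnd hW1 hle hne hW0
    have h1 : (Cfsg.Agent.LieClassical.OrthFinite.glEquiv (Fin n) F).symm g ∈
        Cfsg.Geo.subspaceStabilizer W1 ⊓ Cfsg.Geo.omegaGL Q := by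
      refine ⟨Cfsg.Agent.H884.OmegaGL.mem_subspaceStabilizer.2 ?_, ?_⟩
      · rw [MulEquiv.apply_symm_apply]
        exact hg1
      · refine (Cfsg.Agent.H884.OmegaGL.mem_omegaGL Q hQ hn5 _).2 ?_
        rw [MulEquiv.apply_symm_apply]
        exact hg
    rw [← he] at h1
    have h2 := Cfsg.Agent.H884.OmegaGL.mem_subspaceStabilizer.1 h1.1 w hw
    rw [MulEquiv.apply_symm_apply] at h2
    exact hgw h2

end Cfsg.Agent.S5686
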