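import Cfsg.Statements.S5691
import Cfsg.Agent.H885.NonsingVec
set_option linter.all false

set_option autoImplicit false
open Cfsg

namespace Cfsg.Agent.S5691

/-- Let F be a finite field with q elements, n ≥ 13 even, Q a non-degenerate quadratic form on F^n (of either type), and Ω the commutator subgroup of the isometry group of Q, viewed inside GL_n(F). Suppose q is even and v is a vector with Q(v) ≠ 0. Then the elements of Ω stabilising the line spanned by v form a maximal subgroup of Ω. -/
theorem result {F : Type*} [Field F] [Fintype F] {n : ℕ} (hn : 13 ≤ n) (heven : Even n) (Q : (Fin n → F) → F) (hQ : Cfsg.Geo.IsNondegenerateQuadraticForm Q) (hchar : ¬ Odd (Fintype.card F)) (v : (Fin n → F)) (hv : Q v ≠ 0) : Cfsg.Geo.IsMaximalIn (Cfsg.Geo.omegaGL Q) (Cfsg.Geo.subspaceStabilizer (Submodule.span F {v}) ⊓ Cfsg.Geo.omegaGL Q) := by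
  refine Cfsg.Agent.H883.Bridge.subspaceStabilizer_maximal hQ (by rw [Fintype.card_fin]; omega) _
    fun Q' hQ' hG => ?_
  refine Cfsg.Agent.H885.NonsingVec.maximal hG.nondeg (by rw [Module.finrank_fin_fun]; omega)
    (Cfsg.Agent.H885.NonsingVec.two_eq_zero_of_not_odd hchar) ?_
  rw [hQ']
  exact hv

end Cfsg.Agent.S5691
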