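import Cfsg.Statements.S5692
import Cfsg.Agent.H885.HypMain
import Cfsg.Agent.H886.PlaneMax
set_option linter.all false

set_option autoImplicit false
open Cfsg

namespace Cfsg.Agent.S5692

/-- Let F be a finite field with q elements, n ≥ 13 even, Q a non-degenerate quadratic form on F^n of plus type (some subspace of dimension n/2 is totally singular), and Ω the commutator subgroup of the isometry group of Q, viewed inside GL_n(F). Let D be a decomposition of F^n into t ≥ 2 pairwise orthogonal, pairwise Q-isometric subspaces of equal dimension k ≥ 2 on which the polar form is non-degenerate, such that: if k is even, either every member is of plus type or t is even; if k is odd, q is odd and the discriminant of Q is a square. Exclude the cases k = 2 with q = 3, k = 2 with plus-type members and q ∈ {2, 4, 5}, k = 3 with q = 3, and k = 4 with plus-type members and q = 2. Then the elements of Ω permuting the members of D form a maximal subgroup of Ω. -/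
theorem result {F : Type*} [Field F] [Fintype F] {n : ℕ} (hn : 13 ≤ n) (heven : Even n) (Q : (Fin n → F) → F) (hQ : Cfsg.Geo.IsNondegenerateQuadraticForm Q) (hplus : Cfsg.Geo.IsPlusTypeOn Q ⊤) {t : ℕ} (k : ℕ) (hk : 2 ≤ k) (D : Fin t → Submodule F (Fin n → F)) (hD : Cfsg.Geo.IsOrthogonalMDecomposition Q k D) (hke : Even k → ((∀ i, Cfsg.Geo.IsPlusTypeOn Q (D i)) ∨ Even t)) (hko : Odd k → (Odd (Fintype.card F) ∧ Cfsg.Geo.HasSquareDiscriminant Q)) (hex : ¬ ((k = 2 ∧ (Fintype.card F = 3 ∨ ((∀ i, Cfsg.Geo.IsPlusTypeOn Q (D i)) ∧ (Fintype.card F = 2 ∨ Fintype.card F = 4 ∨ Fintype.card F = 5)))) ∨ (k = 3 ∧ Fintype.card F = 3) ∨ (k = 4 ∧ Fintype.card F = 2 ∧ ∀ i, Cfsg.Geo.IsPlusTypeOn Q (D i)))) : Cfsg.Geo.IsMaximalIn (Cfsg.Geo.omegaGL Q) (Cfsg.Geo.decompositionStabilizer D ⊓ Cfsg.Geo.omegaGL Q) := by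
  have htk := Cfsg.Agent.H886.finrank_mdecomposition hD.decomp.decomp
  rw [Fintype.card_fin] at htk
  have ht := hD.decomp.decomp.two_le
  have hpp := FiniteField.isPrimePow_card F
  have h6 : Fintype.card F ≠ 6 := by
    intro h
    rw [h] at hpp
    revert hpp
    rw [isPrimePow_nat_iff]
    rintro ⟨p, r, hp, hr, hpr⟩
    have h2 : 2 ∣ p ^ r := by rw [hpr]; decide
    have h3 : 3 ∣ p ^ r := by rw [hpr]; decide
    have h2' := (Nat.prime_dvd_prime_iff_eq Nat.prime_two hp).1 (Nat.prime_two.dvd_of_dvd_pow h2)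
    have h3' := (Nat.prime_dvd_prime_iff_eq Nat.prime_three hp).1
      (Nat.prime_three.dvd_of_dvd_pow h3)
    omega
  have h1 := Fintype.one_lt_card (α := F)
  by_cases hk2 : k = 2
  · subst hk2
    have hq3 : Fintype.card F ≠ 3 := fun h => hex (Or.inl ⟨rfl, Or.inl h⟩)
    by_cases hall : ∀ i, Cfsg.Geo.IsPlusTypeOn Q (D i)
    · have hq : ¬ (Fintype.card F = 2 ∨ Fintype.card F = 4 ∨ Fintype.card F = 5) := fun h =>
        hex (Or.inl ⟨rfl, Or.inr ⟨hall, h⟩⟩)
      exact Cfsg.Agent.H885.HypMain.decomposition_maximal (by omega) hQ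
        (by rw [Fintype.card_fin]; omega) hD hall
    · refine Cfsg.Agent.H886.PlaneMax.decomposition_planes_maximal hq3 hQ
        (by rw [Fintype.card_fin]; omega) hD fun i hi => hall fun j => ?_
      exact Cfsg.Agent.H885.C2Main.plus_of_isometric (hD.isometric i j) hi
  · refine Cfsg.Agent.H885.C2Main.decomposition_maximal hQ (k := k) (by omega)
      (by rw [Fintype.card_fin]; omega) hD ?_ ?_ ?_
    · by_cases h5 : 5 ≤ k
      · exact Or.inr h5
      · left
        by_contra h3
        have h4 : t = 2 := by omega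
        rw [h4] at htk
        omega
    · intro hk3
      have ho : Odd k := by rw [hk3]; decide
      exact ⟨(hko ho).1, fun h => hex (Or.inr (Or.inl ⟨hk3, h⟩))⟩
    · rintro ⟨hk4, hq2, hall⟩
      exact hex (Or.inr (Or.inr ⟨hk4, hq2, hall⟩))

end Cfsg.Agent.S5692
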