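import Cfsg.Statements.S5698
import Cfsg.Agent.H887.TSMax
import Cfsg.Agent.H884.OmegaGL
set_option linter.all false

set_option autoImplicit false
open Cfsg

namespace Cfsg.Agent.S5698

open QuadraticMap Cfsg.Agent.LieClassical.OrthCore Cfsg.Agent.LieClassical.OrthTrans
  Cfsg.Agent.ClassicalGeometry.OrthAutBasic
  Cfsg.Agent.H887.SiegelMethod Cfsg.Agent.H887.OmegaBridge Cfsg.Agent.H887.TS

/-- The stabiliser of a subspace. -/
def stabSub {F V : Type*} [Field F] [AddCommGroup V] [Module F V] (U : Submodule F V) :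
    Subgroup (V ≃ₗ[F] V) where
  carrier := {g | U.map (g : V →ₗ[F] V) = U}
  mul_mem' {a b} ha hb := by
    show U.map ((a * b : V ≃ₗ[F] V) : V →ₗ[F] V) = U
    have h : ((a * b : V ≃ₗ[F] V) : V →ₗ[F] V) = (a : V →ₗ[F] V).comp (b : V →ₗ[F] V) := rfl
    have ha' : U.map (a : V →ₗ[F] V) = U := ha
    have hb' : U.map (b : V →ₗ[F] V) = U := hb
    rw [h, Submodule.map_comp, hb', ha']
  one_mem' := by
    show U.map ((1 : V ≃ₗ[F] V) : V →ₗ[F] V) = U
    have h : ((1 : V ≃ₗ[F] V) : V →ₗ[F] V) = LinearMap.id := rfl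
    rw [h, Submodule.map_id]
  inv_mem' {a} ha := by
    show U.map ((a⁻¹ : V ≃ₗ[F] V) : V →ₗ[F] V) = U
    have ha' : U.map (a : V →ₗ[F] V) = U := ha
    nth_rewrite 1 [← ha']
    rw [← Submodule.map_comp]
    have h : ((a⁻¹ : V ≃ₗ[F] V) : V →ₗ[F] V).comp (a : V →ₗ[F] V) = LinearMap.id := by
      ext v
      exact LinearEquiv.symm_apply_apply a v
    rw [h, Submodule.map_id]

theorem mem_stabSub {F V : Type*} [Field F] [AddCommGroup V] [Module F V] {U : Submodule F V}
    {g : V ≃ₗ[F] V} : g ∈ stabSub U ↔ U.map (g : V →ₗ[F] V) = U := Iff.rfl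

/-- Let F be a finite field with q elements, n ≥ 13 even, Q a non-degenerate quadratic form on F^n of plus type (some subspace of dimension n/2 is totally singular), and Ω the commutator subgroup of the isometry group of Q, viewed inside GL_n(F). Suppose n/2 is odd and let D be a decomposition of F^n into two complementary subspaces of dimension n/2 on each of which Q vanishes. Then the elements of Ω preserving or interchanging the two subspaces form a subgroup that is not maximal: some subgroup lies strictly between it and Ω. -/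
theorem result {F : Type*} [Field F] [Fintype F] {n : ℕ} (hn : 13 ≤ n) (heven : Even n) (Q : (Fin n → F) → F) (hQ : Cfsg.Geo.IsNondegenerateQuadraticForm Q) (hplus : Cfsg.Geo.IsPlusTypeOn Q ⊤) (k : ℕ) (hk : 2 * k = n) (hko : Odd k) (D : Fin 2 → Submodule F (Fin n → F)) (hD : Cfsg.Geo.IsMDecomposition k D) (hts : ∀ i, Cfsg.Geo.IsTotallySingularQuad Q (D i)) : ∃ K : Subgroup (Matrix.GeneralLinearGroup (Fin n) F), Cfsg.Geo.decompositionStabilizer D ⊓ Cfsg.Geo.omegaGL Q < K ∧ K < Cfsg.Geo.omegaGL Q := by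
  have hG : Good (qf Q hQ) := (big_qf Q hQ (by rw [Fintype.card_fin]; omega)).good
  have P := tsPair_of_decomp Q hQ hD hts
  have hf0 := hD.finrank_eq 0
  have hf1 := hD.finrank_eq 1
  have hne : D 0 ≠ D 1 := by
    intro h2
    have h3 := P.inf
    rw [← h2, inf_idem] at h3
    rw [h3, finrank_bot] at hf0
    omega
  refine exists_between_omegaGL Q hQ hG _ (decStab D) (mem_decompositionStabilizer_iff D)
    (stabSub (D 0)) ?_ ?_ ?_
  · intro g hg hgD
    rcases mem_decStab_two.1 hgD with h | h
    · exact h.1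
    · exfalso
      have h1 := Cfsg.Agent.H884.OmegaGL.even_finrank_inf_map (Q := qf Q hQ) hG.nondeg
        (W := D 0) P.tsU (by rw [hf0, Module.finrank_fintype_fun_eq_card, Fintype.card_fin, hk])
        (g := g) (by rw [hG.commutator_eq_E]; exact hg)
      have h2 : (D 0).map g.toLinearMap = D 1 := h.1
      rw [h2, P.inf, finrank_bot, zero_add, hf0] at h1
      exact (Nat.not_even_iff_odd.2 hko) h1
  · obtain ⟨g, hg, h0, h1⟩ := P.exists_move hG.nondeg (by omega)
    refine ⟨g, hg, h0, fun h => ?_⟩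
    rcases mem_decStab_two.1 h with h | h
    · exact h1 h.2
    · exact hne (h0.symm.trans h.1)
  · obtain ⟨g, hg, -, h1⟩ := P.symm.exists_move hG.nondeg (by omega)
    exact ⟨g, hg, h1⟩

end Cfsg.Agent.S5698
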