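import Mathlib
import Cfsg.Agent.H887.OmegaBridge
import Cfsg.Agent.H887.TSMax
import Cfsg.Statements.S5699
set_option linter.all false

-- part: H887/TwoHalves
section
/-!
Overgroups in the orthogonal group of the stabiliser of an orthogonal decomposition `V = U ⊥ W`
into two subspaces of dimension at least seven over a finite field: a subgroup `H` of `O Q` that
contains the Siegel transformations `T Q a b` with `a, b ∈ U` and with `a, b ∈ W` either permutes
`U, W` or contains `E Q`.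
-/

set_option autoImplicit false

namespace Cfsg.Agent.H887.Halves

open QuadraticMap Cfsg.Agent.LieClassical.OrthCore Cfsg.Agent.LieClassical.OrthTrans
  Cfsg.Agent.LieClassical.OrthSimple Cfsg.Agent.ClassicalGeometry.OrthAutBasic
  Cfsg.Agent.H887.SiegelMethod Cfsg.Agent.H887.TS

variable {F V : Type*} [Field F] [AddCommGroup V] [Module F V] {Q : QuadraticForm F V}

/-- A nonzero singular vector of `U` orthogonal to `n` given vectors, if `dim U ≥ n + 3`. -/
theorem exists_sing_perp_mem [Finite F] (U : Submodule F V) {n : ℕ} (u : Fin n → V)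
    (hn : n + 3 ≤ Module.finrank F U) :
    ∃ w ∈ U, w ≠ 0 ∧ Q w = 0 ∧ ∀ i, polar Q (u i) w = 0 := by
  have : Module.Finite F U := Module.finite_of_finrank_pos (by omega)
  let f : V →ₗ[F] (Fin n → F) := LinearMap.pi fun i => polarBilin Q (u i)
  let g : U →ₗ[F] (Fin n → F) := f.comp U.subtype
  have h1 := LinearMap.finrank_range_add_finrank_ker g
  have h2 : Module.finrank F (LinearMap.range g) ≤ n := by
    have := Submodule.finrank_le (LinearMap.range g)
    rwa [Module.finrank_fin_fun] at this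
  have h3 : Module.finrank F ((LinearMap.ker g).map U.subtype) =
      Module.finrank F (LinearMap.ker g) := Submodule.finrank_map_subtype_eq U _
  obtain ⟨w, hw, hw0, hwQ⟩ := exists_sing_of_three_le (Q := Q) ((LinearMap.ker g).map U.subtype)
    (by omega)
  obtain ⟨w', hw', rfl⟩ := hw
  refine ⟨_, w'.2, hw0, hwQ, fun i => ?_⟩
  have := congrFun (LinearMap.mem_ker.1 hw') i
  simpa [g, f] using this

/-- `V = U ⊥ W`. -/
structure Orth (Q : QuadraticForm F V) (U W : Submodule F V) : Prop where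
  orth : ∀ u ∈ U, ∀ w ∈ W, polar Q u w = 0
  sup : U ⊔ W = ⊤

variable {U W : Submodule F V}

theorem Orth.symm (P : Orth Q U W) : Orth Q W U :=
  ⟨fun u hu w hw => by rw [polar_comm]; exact P.orth w hw u hu, by rw [sup_comm]; exact P.sup⟩

theorem Orth.orth' (P : Orth Q U W) {u w : V} (hu : u ∈ U) (hw : w ∈ W) : polar Q w u = 0 := by
  rw [polar_comm]; exact P.orth u hu w hw

theorem Orth.decomp (P : Orth Q U W) (v : V) : ∃ a ∈ U, ∃ b ∈ W, v = a + b := by
  have h : v ∈ U ⊔ W := by rw [P.sup]; exact Submodule.mem_top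
  obtain ⟨a, ha, b, hb, h⟩ := Submodule.mem_sup.1 h
  exact ⟨a, ha, b, hb, h.symm⟩

theorem Orth.eq_zero (P : Orth Q U W) (hQ : Nondeg Q) {v : V} (h1 : v ∈ U) (h2 : v ∈ W) :
    v = 0 := by
  apply hQ
  intro y
  obtain ⟨a, ha, b, hb, rfl⟩ := P.decomp y
  rw [polar_add_right, P.orth' ha h2, P.orth v h1 b hb, add_zero]

theorem Orth.inf (P : Orth Q U W) (hQ : Nondeg Q) : U ⊓ W = ⊥ := by
  rw [eq_bot_iff]
  rintro v ⟨h1, h2⟩
  exact (Submodule.mem_bot F).2 (P.eq_zero hQ h1 h2)

/-- The restricted form. -/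
def rs (Q : QuadraticForm F V) (U : Submodule F V) : QuadraticForm F U := Q.comp U.subtype

theorem rs_apply (u : U) : rs Q U u = Q (u : V) := rfl

theorem polar_rs (u v : U) : polar (rs Q U) u v = polar Q (u : V) (v : V) := rfl

theorem Orth.nondeg_rs (P : Orth Q U W) (hQ : Nondeg Q) : Nondeg (rs Q U) := by
  rintro ⟨u, hu⟩ h
  apply Subtype.ext
  apply hQ
  intro y
  obtain ⟨a, ha, b, hb, rfl⟩ := P.decomp y
  rw [polar_add_right, P.orth u hu b hb, add_zero]
  exact h ⟨a, ha⟩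

theorem Orth.good_rs [Finite F] (P : Orth Q U W) (hQ : Nondeg Q)
    (hU : 7 ≤ Module.finrank F U) : Good (rs Q U) :=
  Big.good ⟨P.nondeg_rs hQ, hU⟩

/-- Separation inside `U`. -/
theorem Orth.exists_sep (P : Orth Q U W) (hQ : Nondeg Q) {x z : V} (hx : x ∈ U) (hz : z ∈ U)
    (h : ∀ c : F, x ≠ c • z) : ∃ y ∈ U, polar Q z y = 0 ∧ polar Q x y = 1 := by
  obtain ⟨y, hy1, hy2⟩ := Cfsg.Agent.LieClassical.OrthTrans.exists_sep hQ h
  obtain ⟨a, ha, b, hb, rfl⟩ := P.decomp y
  rw [polar_add_right, P.orth z hz b hb, add_zero] at hy1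
  rw [polar_add_right, P.orth x hx b hb, add_zero] at hy2
  exact ⟨a, ha, hy1, hy2⟩

theorem Orth.exists_dual (P : Orth Q U W) (hQ : Nondeg Q) {x : V} (hx : x ∈ U)
    (h : x ≠ 0) : ∃ b ∈ U, polar Q x b = 1 := by
  obtain ⟨b, hb, _, h2⟩ := P.exists_sep hQ hx U.zero_mem (by simpa using h)
  exact ⟨b, hb, h2⟩

/-- A hyperbolic partner inside `U`. -/
theorem Orth.exists_hyp (P : Orth Q U W) (hQ : Nondeg Q) {x : V} (hx : x ∈ U)
    (h : x ≠ 0) (hx0 : Q x = 0) : ∃ y ∈ U, Hyp Q x y := by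
  obtain ⟨y, hy⟩ := Cfsg.Agent.LieClassical.OrthTrans.exists_hyp (Q := rs Q U) (x := ⟨x, hx⟩) (P.nondeg_rs hQ) hx0
    (fun h0 => h (congrArg Subtype.val h0))
  exact ⟨y, y.2, hy.left, hy.right, hy.pair⟩

/-- Two vectors of `U` orthogonal to a hyperbolic pair with product one. -/
theorem Orth.exists_perp2 (P : Orth Q U W) (hQ : Nondeg Q) (hU : 7 ≤ Module.finrank F U)
    {x y : V} (hx : x ∈ U) (hy : y ∈ U) (h : Hyp Q x y) :
    ∃ a ∈ U, ∃ c ∈ U, polar Q x a = 0 ∧ polar Q y a = 0 ∧ polar Q x c = 0 ∧ polar Q y c = 0 ∧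
      polar Q a c = 1 := by
  obtain ⟨a, c, h1, h2, h3, h4, h5⟩ := Cfsg.Agent.LieClassical.OrthTrans.exists_perp2 (Q := rs Q U) (P.nondeg_rs hQ)
    (by omega) (x := ⟨x, hx⟩) (y := ⟨y, hy⟩) ⟨h.left, h.right, h.pair⟩
  exact ⟨a, a.2, c, c.2, h1, h2, h3, h4, h5⟩

/-- The hypothesis on the overgroup. -/
structure Over (Q : QuadraticForm F V) (U W : Submodule F V) (H : Subgroup (V ≃ₗ[F] V)) :
    Prop where
  le : H ≤ O Q
  rootU : ∀ a ∈ U, ∀ b ∈ U, Q a = 0 → polar Q a b = 0 → T Q a b ∈ H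
  rootW : ∀ a ∈ W, ∀ b ∈ W, Q a = 0 → polar Q a b = 0 → T Q a b ∈ H

variable {H : Subgroup (V ≃ₗ[F] V)}

theorem Over.symm (h : Over Q U W H) : Over Q W U H := ⟨h.le, h.rootW, h.rootU⟩

theorem Over.mem_Ts (h : Over Q U W H) {u x : V} (hu : u ∈ U) (hu0 : Q u = 0) (hx : x ∈ U)
    (hux : polar Q u x = 0) : x ∈ Ts Q H u := by
  refine ⟨hux, fun c => h.rootU u hu _ (U.smul_mem c hx) hu0 ?_⟩
  rw [polar_smul_right, hux, smul_zero]

/-- If `Ts u`, `u ∈ U`, is not contained in `U` then `Ts u = u^⊥`. -/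
theorem Over.full [Finite F] (P : Orth Q U W) (hQ : Nondeg Q) (h : Over Q U W H)
    (hW : 7 ≤ Module.finrank F W) {u x0 x1 : V} (hu : u ∈ U) (hu0 : Q u = 0)
    (hx0 : x0 ∈ U) (hx1 : x1 ∈ W) (hx : x0 + x1 ∈ Ts Q H u) (hx10 : x1 ≠ 0) :
    ∀ y, polar Q u y = 0 → y ∈ Ts Q H u := by
  have hux0 : polar Q u x0 = 0 := by
    have := hx.1
    rwa [polar_add_right, P.orth u hu x1 hx1, add_zero] at this
  have hx1T : x1 ∈ Ts Q H u := by
    have := (Ts Q H u).sub_mem hx (h.mem_Ts hu hu0 hx0 hux0)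
    rwa [add_sub_cancel_left] at this
  have hGW : Good (rs Q W) := P.symm.good_rs hQ hW
  -- the basic relation
  have key : ∀ {a b z : V}, a ∈ W → b ∈ W → Q a = 0 → polar Q a b = 0 → z ∈ Ts Q H u →
      polar Q a z • b - polar Q b z • a - (Q b * polar Q a z) • a ∈ Ts Q H u := by
    intro a b z ha hb ha0 hab hz
    have hfix : T Q a b u = u := T_apply_fix ha0 hab (P.orth' hu ha) (P.orth' hu hb)
    have h1 := fix_mem_Ts (h.rootW a ha b hb ha0 hab) (h.le (h.rootW a ha b hb ha0 hab)) hfix hz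
    rw [T_apply ha0 hab] at h1
    have h2 := (Ts Q H u).sub_mem h1 hz
    have e : z + polar Q a z • b - polar Q b z • a - (Q b * polar Q a z) • a - z =
        polar Q a z • b - polar Q b z • a - (Q b * polar Q a z) • a := by abel
    rwa [e] at h2
  -- choose `a`
  obtain ⟨e, f, hef⟩ := hGW.exists_hyp
  obtain ⟨⟨a, ha⟩, ha0, ha1⟩ := exists_sing_polar_one (Q := rs Q W) (P.symm.nondeg_rs hQ) hef
    (v := ⟨x1, hx1⟩) (fun h0 => hx10 (congrArg Subtype.val h0))
  change Q a = 0 at ha0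
  change polar Q a x1 = 1 at ha1
  have haz : a ≠ 0 := by
    rintro rfl
    rw [polar_zero_left] at ha1
    exact zero_ne_one ha1
  obtain ⟨a', ha', hyp⟩ := P.symm.exists_hyp hQ ha haz ha0
  obtain ⟨c, hc, c', hc', h1, h2, h3, h4, h5⟩ := P.symm.exists_perp2 hQ hW ha ha' hyp
  have haT : a ∈ Ts Q H u := by
    have k1 := key ha hc ha0 h1 hx1T
    have k2 := key ha hc' ha0 h3 hx1T
    have k3 := key ha (W.add_mem hc hc') ha0 (by rw [polar_add_right, h1, h3, add_zero]) hx1T
    rw [ha1] at k1 k2 k3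
    have k4 := (Ts Q H u).sub_mem ((Ts Q H u).add_mem k1 k2) k3
    have e1 : (1 : F) • c - polar Q c x1 • a - (Q c * 1) • a +
        ((1 : F) • c' - polar Q c' x1 • a - (Q c' * 1) • a) -
        ((1 : F) • (c + c') - polar Q (c + c') x1 • a - (Q (c + c') * 1) • a) = a := by
      rw [Q_add, polar_add_left, h5]
      module
    rwa [e1] at k4
  have hperp : ∀ b ∈ W, polar Q a b = 0 → b ∈ Ts Q H u := by
    intro b hb hab
    have k1 := key ha hb ha0 hab hx1T
    rw [ha1] at k1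
    have k2 := (Ts Q H u).add_mem k1 ((Ts Q H u).smul_mem (polar Q b x1 + Q b) haT)
    have e1 : (1 : F) • b - polar Q b x1 • a - (Q b * 1) • a + (polar Q b x1 + Q b) • a = b := by
      module
    rwa [e1] at k2
  -- a nonsingular vector orthogonal to `a, a'`
  have ha'T : a' ∈ Ts Q H u := by
    have main : ∀ b ∈ W, Q b ≠ 0 → polar Q a b = 0 → polar Q a' b = 0 → a' ∈ Ts Q H u := by
      intro b hb hb0 hab ha'b
      have k1 := key ha' hb hyp.right ha'b haT
      have hba : polar Q b a = 0 := by rw [polar_comm]; exact hab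
      rw [hyp.pair', hba] at k1
      have k2 := (Ts Q H u).sub_mem (hperp b hb hab) k1
      have e1 : b - ((1 : F) • b - (0 : F) • a' - (Q b * 1) • a') = Q b • a' := by module
      rw [e1] at k2
      have k3 := (Ts Q H u).smul_mem (Q b)⁻¹ k2
      rwa [smul_smul, inv_mul_cancel₀ hb0, one_smul] at k3
    rcases exists_nonsing h5 with h6 | h6 | h6
    · exact main c hc h6 h1 h2
    · exact main c' hc' h6 h3 h4
    · exact main (c + c') (W.add_mem hc hc') h6 (by rw [polar_add_right, h1, h3, add_zero])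
        (by rw [polar_add_right, h2, h4, add_zero])
  have hWT : ∀ b ∈ W, b ∈ Ts Q H u := by
    intro b hb
    have k1 : b - polar Q a b • a' ∈ Ts Q H u := by
      refine hperp _ (W.sub_mem hb (W.smul_mem _ ha')) ?_
      rw [polar_sub_right, polar_smul_right, hyp.pair, smul_eq_mul, mul_one, sub_self]
    have k2 := (Ts Q H u).add_mem k1 ((Ts Q H u).smul_mem (polar Q a b) ha'T)
    rwa [sub_add_cancel] at k2
  intro y hy
  obtain ⟨y0, hy0, y1, hy1, rfl⟩ := P.decomp y
  rw [polar_add_right, P.orth u hu y1 hy1, add_zero] at hy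
  exact (Ts Q H u).add_mem (h.mem_Ts hu hu0 hy0 hy) (hWT y1 hy1)

/-- If `Ts u` is full for one nonzero singular `u ∈ U` then `E Q ≤ H`. -/
theorem Over.E_le [Finite F] (P : Orth Q U W) (hG : Good Q) (h : Over Q U W H)
    (hU : 7 ≤ Module.finrank F U) (hW : 7 ≤ Module.finrank F W) {u : V} (hu : u ∈ U)
    (hu0 : Q u = 0) (huz : u ≠ 0) (hfull : ∀ y, polar Q u y = 0 → y ∈ Ts Q H u) : E Q ≤ H := by
  have hQ := hG.nondeg
  obtain ⟨u', hu', hyp⟩ := P.exists_hyp hQ hu huz hu0
  obtain ⟨x, hx, hxz, hx0, -⟩ := exists_sing_perp_mem (Q := Q) W ![] (by omega)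
  have h1 : u ∈ Ts Q H x := by
    rw [mem_Ts_comm hx0 hu0]
    exact hfull x (P.orth u hu x hx)
  have h2 : ∀ y, polar Q x y = 0 → y ∈ Ts Q H x :=
    h.symm.full P.symm hQ hU hx hx0 W.zero_mem hu (by rwa [zero_add]) huz
  have h3 : x ∈ Ts Q H u' := by
    rw [mem_Ts_comm hyp.right hx0]
    exact h2 u' (P.orth' hu' hx)
  have h4 := h.full P hQ hW hu' hyp.right U.zero_mem hx (by rwa [zero_add]) hxz
  exact E_le_of_Ts hG hu0 hyp.right (by rw [hyp.pair]; exact one_ne_zero) hfull h4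

/-- If `s ∈ Ts r` and some `y ∈ U ∩ r^⊥` is not orthogonal to `s`, then `Ts r` contains a nonzero
singular vector of `U`. -/
theorem Over.exists_mem_Ts [Finite F] (P : Orth Q U W) (hQ : Nondeg Q) (h : Over Q U W H)
    (hU : 7 ≤ Module.finrank F U) {x x1 s : V} (hx : x ∈ U) (hx1 : x1 ∈ W) (hxz : x ≠ 0)
    (hs : s ∈ Ts Q H (x + x1)) {y : V} (hy : y ∈ U) (hxy : polar Q y x = 0)
    (hys : polar Q y s ≠ 0) : ∃ b ∈ U, b ≠ 0 ∧ Q b = 0 ∧ b ∈ Ts Q H (x + x1) := by
  obtain ⟨t, ht, s1, hs1, rfl⟩ := P.decomp s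
  have hyt : polar Q y t ≠ 0 := by
    rwa [polar_add_right, P.orth y hy s1 hs1, add_zero] at hys
  -- `y2`
  obtain ⟨y2, hy2⟩ : ∃ z, z = (polar Q y t)⁻¹ • y := ⟨_, rfl⟩
  have hy2U : y2 ∈ U := by rw [hy2]; exact U.smul_mem _ hy
  have hty2 : polar Q t y2 = 1 := by
    rw [hy2, polar_smul_right, polar_comm Q t y, smul_eq_mul, inv_mul_cancel₀ hyt]
  have hxy2 : polar Q x y2 = 0 := by
    rw [hy2, polar_smul_right, polar_comm Q x y, hxy, smul_zero]
  have hxt : ∀ c : F, x ≠ c • t := by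
    intro c hc
    rw [hc, polar_smul_right, smul_eq_mul, mul_eq_zero] at hxy
    rcases hxy with h0 | h0
    · exact hxz (by rw [hc, h0, zero_smul])
    · exact hyt h0
  obtain ⟨y1, hy1, hty1, hxy1⟩ := P.exists_sep hQ hx ht hxt
  obtain ⟨w, hw, hwz, hw0, hwp⟩ := exists_sing_perp_mem (Q := Q) U ![x, t, y1, y2] (by omega)
  have hxw : polar Q x w = 0 := hwp 0
  have htw : polar Q t w = 0 := hwp 1
  have hy1w : polar Q y1 w = 0 := hwp 2
  have hy2w : polar Q y2 w = 0 := hwp 3
  obtain ⟨v0, hv0, hwv0⟩ := P.exists_dual hQ hw hwz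
  set v := v0 - polar Q x v0 • y1 - polar Q t v0 • y2 with hv
  have hvU : v ∈ U := U.sub_mem (U.sub_mem hv0 (U.smul_mem _ hy1)) (U.smul_mem _ hy2U)
  have hxv : polar Q x v = 0 := by
    rw [hv, polar_sub_right, polar_sub_right, polar_smul_right, polar_smul_right, hxy1, hxy2]
    simp
  have htv : polar Q t v = 0 := by
    rw [hv, polar_sub_right, polar_sub_right, polar_smul_right, polar_smul_right, hty1, hty2]
    simp
  have hwv : polar Q w v = 1 := by
    rw [hv, polar_sub_right, polar_sub_right, polar_smul_right, polar_smul_right,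
      polar_comm Q w y1, polar_comm Q w y2, hy1w, hy2w, hwv0]
    simp
  set w' := v + (-Q v) • w with hw'
  have hw'U : w' ∈ U := U.add_mem hvU (U.smul_mem _ hw)
  have hw'0 : Q w' = 0 := by
    rw [hw', Q_add, QuadraticMap.map_smul, hw0, polar_smul_right, polar_comm Q v w, hwv]
    simp
  have hww' : polar Q w w' = 1 := by
    rw [hw', polar_add_right, polar_smul_right, polar_self_of_sing hw0, hwv]
    simp
  have hxw' : polar Q x w' = 0 := by
    rw [hw', polar_add_right, polar_smul_right, hxv, hxw]; simp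
  have htw' : polar Q t w' = 0 := by
    rw [hw', polar_add_right, polar_smul_right, htv, htw]; simp
  set c := -Q y2 - polar Q y2 w' with hc
  set a := y2 + (w' + c • w) with ha
  have haU : a ∈ U := U.add_mem hy2U (U.add_mem hw'U (U.smul_mem _ hw))
  have ha0 : Q a = 0 := by
    rw [ha, Q_add, Q_add, QuadraticMap.map_smul, hw0, hw'0, polar_smul_right, polar_comm Q w' w,
      hww', polar_add_right, polar_smul_right, hy2w, hc]
    simp only [smul_eq_mul]
    ring
  have hxa : polar Q x a = 0 := by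
    rw [ha, polar_add_right, polar_add_right, polar_smul_right, hxy2, hxw', hxw]; simp
  have hta : polar Q t a = 1 := by
    rw [ha, polar_add_right, polar_add_right, polar_smul_right, hty2, htw', htw]; simp
  obtain ⟨b, hb, hbz, hb0, hbp⟩ := exists_sing_perp_mem (Q := Q) U ![x, a, t] (by omega)
  have hxb : polar Q x b = 0 := hbp 0
  have hab : polar Q a b = 0 := hbp 1
  have htb : polar Q t b = 0 := hbp 2
  refine ⟨b, hb, hbz, hb0, ?_⟩
  have hfix : T Q a b (x + x1) = x + x1 := by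
    refine T_apply_fix ha0 hab ?_ ?_
    · rw [polar_add_right, P.orth a haU x1 hx1, polar_comm, hxa, add_zero]
    · rw [polar_add_right, P.orth b hb x1 hx1, polar_comm, hxb, add_zero]
  have h2 := root_mem_Ts h.le ha0 hb0 hab (h.rootU a haU b hb ha0 hab) hfix hs
  have e1 : polar Q a (t + s1) = 1 := by
    rw [polar_add_right, P.orth a haU s1 hs1, polar_comm, hta, add_zero]
  have e2 : polar Q b (t + s1) = 0 := by
    rw [polar_add_right, P.orth b hb s1 hs1, polar_comm, htb, add_zero]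
  rw [e1, e2, one_smul, zero_smul, sub_zero] at h2
  exact h2

/-- The main step. -/
theorem Over.image [Finite F] (P : Orth Q U W) (hQ : Nondeg Q) (h : Over Q U W H)
    (hU : 7 ≤ Module.finrank F U) (hW : 7 ≤ Module.finrank F W)
    (hnU : ∀ u ∈ U, u ≠ 0 → Q u = 0 → Ts Q H u ≤ U)
    (hnW : ∀ u ∈ W, u ≠ 0 → Q u = 0 → Ts Q H u ≤ W)
    {g : V ≃ₗ[F] V} (hg : g ∈ H) {u : V} (hu : u ∈ U) (hu0 : Q u = 0) : g u ∈ U ∨ g u ∈ W := by
  by_cases huz : u = 0
  · left; rw [huz, map_zero]; exact U.zero_mem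
  have hgO := h.le hg
  obtain ⟨x0, hx0, x1, hx1, hr⟩ := P.decomp (g u)
  by_contra hcon
  push Not at hcon
  have hx00 : x0 ≠ 0 := by
    rintro rfl
    apply hcon.2
    rw [hr, zero_add]; exact hx1
  have hx10 : x1 ≠ 0 := by
    rintro rfl
    apply hcon.1
    rw [hr, add_zero]; exact hx0
  have hrQ : Q (x0 + x1) = 0 := by rw [← hr, mem_O.1 hgO]; exact hu0
  have hQ01 : Q x0 + Q x1 = 0 := by
    rwa [Q_add, P.orth x0 hx0 x1 hx1, add_zero] at hrQ
  -- elements of `Ts r`
  have k0 : ∀ s ∈ Ts Q H (x0 + x1), ∀ y ∈ U, polar Q y x0 = 0 → polar Q y s = 0 := by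
    intro s hs y hy hyx
    by_contra hys
    obtain ⟨b, hb, hbz, hb0, hbT⟩ := h.exists_mem_Ts P hQ hU hx0 hx1 hx00 hs hy hyx hys
    rw [mem_Ts_comm hrQ hb0] at hbT
    have h1 := hnU b hb hbz hb0 hbT
    have h2 : x1 ∈ U := by simpa using U.sub_mem h1 hx0
    exact hx10 (P.eq_zero hQ h2 hx1)
  have k1 : ∀ s ∈ Ts Q H (x0 + x1), ∀ y ∈ W, polar Q y x1 = 0 → polar Q y s = 0 := by
    intro s hs y hy hyx
    by_contra hys
    rw [add_comm] at hs
    obtain ⟨b, hb, hbz, hb0, hbT⟩ := h.symm.exists_mem_Ts P.symm hQ hW hx1 hx0 hx10 hs hy hyx hys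
    rw [add_comm] at hrQ
    rw [mem_Ts_comm hrQ hb0] at hbT
    have h1 := hnW b hb hbz hb0 hbT
    have h2 : x0 ∈ W := by simpa using W.sub_mem h1 hx1
    exact hx00 (P.eq_zero hQ hx0 h2)
  obtain ⟨y0, hy0, hxy0⟩ := P.exists_dual hQ hx0 hx00
  obtain ⟨y1, hy1, hxy1⟩ := P.symm.exists_dual hQ hx1 hx10
  have k2 : ∀ s ∈ Ts Q H (x0 + x1), s = polar Q y0 s • x0 + polar Q y1 s • x1 := by
    intro s hs
    rw [← sub_eq_zero]
    apply hQ
    intro v
    obtain ⟨v0, hv0, v1, hv1, rfl⟩ := P.decomp v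
    have e0 : polar Q (v0 - polar Q x0 v0 • y0) s = 0 := by
      refine k0 s hs _ (U.sub_mem hv0 (U.smul_mem _ hy0)) ?_
      rw [polar_sub_left, polar_smul_left, polar_comm Q y0 x0, hxy0, smul_eq_mul, mul_one,
        polar_comm, sub_self]
    have e1 : polar Q (v1 - polar Q x1 v1 • y1) s = 0 := by
      refine k1 s hs _ (W.sub_mem hv1 (W.smul_mem _ hy1)) ?_
      rw [polar_sub_left, polar_smul_left, polar_comm Q y1 x1, hxy1, smul_eq_mul, mul_one,
        polar_comm, sub_self]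
    rw [polar_sub_left, polar_smul_left, smul_eq_mul] at e0 e1
    rw [polar_sub_left, polar_add_left, polar_smul_left, polar_smul_left, polar_add_right,
      polar_add_right, polar_add_right, P.orth x0 hx0 v1 hv1, P.orth' hv0 hx1,
      polar_comm Q s v0, polar_comm Q s v1]
    simp only [smul_eq_mul]
    linear_combination e0 + e1
  -- choose a non-orthogonal pair in `U ∩ u^⊥`
  obtain ⟨u', hu', hyp⟩ := P.exists_hyp hQ hu huz hu0
  obtain ⟨c, hc, c', hc', h1, h2, h3, h4, h5⟩ := P.exists_perp2 hQ hU hu hu' hyp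
  have hs : g c ∈ Ts Q H (x0 + x1) := by
    rw [← hr]; exact map_mem_Ts hg hgO (h.mem_Ts hu hu0 hc h1)
  have hs' : g c' ∈ Ts Q H (x0 + x1) := by
    rw [← hr]; exact map_mem_Ts hg hgO (h.mem_Ts hu hu0 hc' h3)
  have hss : polar Q (g c) (g c') = 1 := by rw [polar_map hgO]; exact h5
  have hrs : polar Q (x0 + x1) (g c) = 0 := hs.1
  have hrs' : polar Q (x0 + x1) (g c') = 0 := hs'.1
  rw [k2 _ hs, k2 _ hs'] at hss
  rw [k2 _ hs] at hrs
  rw [k2 _ hs'] at hrs'
  generalize polar Q y0 (g c) = α at hss hrs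
  generalize polar Q y1 (g c) = β at hss hrs
  generalize polar Q y0 (g c') = α' at hss hrs'
  generalize polar Q y1 (g c') = β' at hss hrs'
  have o1 := P.orth x0 hx0 x1 hx1
  have o2 := P.orth' hx0 hx1
  simp only [polar_add_left, polar_add_right, polar_smul_left, polar_smul_right, o1, o2,
    polar_self', smul_eq_mul] at hss hrs hrs'
  apply one_ne_zero (α := F)
  linear_combination -hss + β' * hrs + α * hrs' +
    (-2 * β' * α) * hQ01

/-- If all singular vectors of `U` are mapped into `U ∪ W`, then `U` is mapped into `U` or into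
`W`. -/
theorem image_cases [Finite F] (P : Orth Q U W) (hQ : Nondeg Q) (hU : 7 ≤ Module.finrank F U)
    {g : V ≃ₗ[F] V} (hgO : g ∈ O Q) (h : ∀ u ∈ U, Q u = 0 → g u ∈ U ∨ g u ∈ W) :
    (∀ u ∈ U, g u ∈ U) ∨ (∀ u ∈ U, g u ∈ W) := by
  obtain ⟨e, f, hef⟩ := (P.good_rs hQ hU).exists_hyp
  -- generic argument
  have key : ∀ A B : Submodule F V, (∀ a ∈ A, ∀ b ∈ B, polar Q a b = 0) →
      (∀ u ∈ U, Q u = 0 → g u ∈ A ∨ g u ∈ B) → g (e : V) ∈ A → ∀ u ∈ U, g u ∈ A := by
    intro A B hAB h he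
    have h1 : ∀ {x y : V}, x ∈ U → y ∈ U → Q y = 0 → g x ∈ A → polar Q x y ≠ 0 → g y ∈ A := by
      intro x y hx hy hy0 hgx hxy
      rcases h y hy hy0 with h2 | h2
      · exact h2
      · exfalso
        apply hxy
        rw [← polar_map hgO]
        exact hAB _ hgx _ h2
    have hf : g (f : V) ∈ A := h1 e.2 f.2 hef.right he (by
      have : polar Q (e : V) (f : V) = 1 := hef.pair
      rw [this]; exact one_ne_zero)
    have hsing : ∀ x : U, rs Q U x = 0 → g (x : V) ∈ A := by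
      intro x hx
      by_cases h2 : polar Q (f : V) (x : V) = 0
      · have h3 : g ((e : V) + (x : V)) ∈ A := by
          by_cases h4 : polar Q (e : V) (x : V) = 0
          · refine h1 f.2 (U.add_mem e.2 x.2) ?_ hf ?_
            · rw [Q_add, h4]
              have a1 : Q (e : V) = 0 := hef.left
              have a2 : Q (x : V) = 0 := hx
              rw [a1, a2]; simp
            · have a3 : polar Q (f : V) (e : V) = 1 := hef.pair'
              rw [polar_add_right, h2, a3, add_zero]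
              exact one_ne_zero
          · rw [map_add]
            exact A.add_mem he (h1 e.2 x.2 hx he h4)
        rw [map_add] at h3
        simpa using A.sub_mem h3 he
      · exact h1 f.2 x.2 hx hf h2
    intro u hu
    exact sing_induction (Q := rs Q U) hef (P := fun x : U => g (x : V) ∈ A)
      (fun a c ha hc => by
        show g ((a + c : U) : V) ∈ A
        rw [Submodule.coe_add, map_add]
        exact A.add_mem ha hc) hsing ⟨u, hu⟩
  rcases h e e.2 hef.left with h1 | h1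
  · left
    exact key U W P.orth h h1
  · right
    exact key W U P.symm.orth (fun u hu hu0 => (h u hu hu0).symm) h1

/-- **Overgroups of the stabiliser of an orthogonal pair of subspaces.** -/
theorem Over.main [Finite F] (P : Orth Q U W) (hG : Good Q) (h : Over Q U W H)
    {k : ℕ} (hU : Module.finrank F U = k) (hW : Module.finrank F W = k) (hk : 7 ≤ k)
    {g : V ≃ₗ[F] V} (hg : g ∈ H)
    (hgn : ¬ ((U.map (g : V →ₗ[F] V) = U ∧ W.map (g : V →ₗ[F] V) = W) ∨
      (U.map (g : V →ₗ[F] V) = W ∧ W.map (g : V →ₗ[F] V) = U))) : E Q ≤ H := by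
  have hQ := hG.nondeg
  by_cases hnU : ∀ u ∈ U, u ≠ 0 → Q u = 0 → Ts Q H u ≤ U
  swap
  · push Not at hnU
    obtain ⟨u, hu, huz, hu0, hx⟩ := hnU
    obtain ⟨x, hx, hxU⟩ := Set.not_subset.1 hx
    obtain ⟨x0, hx0, x1, hx1, rfl⟩ := P.decomp x
    have hx10 : x1 ≠ 0 := by
      rintro rfl
      exact hxU (by simpa using hx0)
    exact h.E_le P hG (by omega) (by omega) hu hu0 huz
      (h.full P hQ (by omega) hu hu0 hx0 hx1 hx hx10)
  by_cases hnW : ∀ u ∈ W, u ≠ 0 → Q u = 0 → Ts Q H u ≤ W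
  swap
  · push Not at hnW
    obtain ⟨u, hu, huz, hu0, hx⟩ := hnW
    obtain ⟨x, hx, hxU⟩ := Set.not_subset.1 hx
    obtain ⟨x0, hx0, x1, hx1, rfl⟩ := P.symm.decomp x
    have hx10 : x1 ≠ 0 := by
      rintro rfl
      exact hxU (by simpa using hx0)
    exact h.symm.E_le P.symm hG (by omega) (by omega) hu hu0 huz
      (h.symm.full P.symm hQ (by omega) hu hu0 hx0 hx1 hx hx10)
  exfalso
  apply hgn
  have h1 := image_cases P hQ (by omega) (h.le hg) fun u hu hu0 =>
    h.image P hQ (by omega) (by omega) hnU hnW hg hu hu0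
  have h2 := image_cases P.symm hQ (by omega) (h.le hg) fun u hu hu0 =>
    h.symm.image P.symm hQ (by omega) (by omega) hnW hnU hg hu hu0
  have hVd : ∀ A : Submodule F V, (∀ u ∈ U, g u ∈ A) → (∀ u ∈ W, g u ∈ A) → A = ⊤ := by
    intro A hA hB
    rw [eq_top_iff]
    intro v _
    obtain ⟨v, rfl⟩ := g.surjective v
    obtain ⟨a, ha, b, hb, rfl⟩ := P.decomp v
    rw [map_add]
    exact A.add_mem (hA a ha) (hB b hb)
  rcases h1 with h1 | h1 <;> rcases h2 with h2 | h2
  · left
    exact ⟨map_eq_of_le (by omega) rfl h1, map_eq_of_le (by omega) rfl h2⟩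
  · exfalso
    have := hVd U h1 h2
    have h3 := P.inf hQ
    rw [this, top_inf_eq] at h3
    rw [h3, finrank_bot] at hW
    omega
  · exfalso
    have := hVd W h1 h2
    have h3 := P.inf hQ
    rw [this, inf_top_eq] at h3
    rw [h3, finrank_bot] at hU
    omega
  · right
    exact ⟨map_eq_of_le (by omega) (by omega) h1, map_eq_of_le (by omega) (by omega) h2⟩

end Cfsg.Agent.H887.Halves
end

-- part: S5699
section
set_option autoImplicit false
open Cfsg

namespace Cfsg.Agent.S5699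

open QuadraticMap Cfsg.Agent.LieClassical.OrthCore Cfsg.Agent.LieClassical.OrthTrans
  Cfsg.Agent.ClassicalGeometry.OrthAutBasic
  Cfsg.Agent.H887.SiegelMethod Cfsg.Agent.H887.OmegaBridge Cfsg.Agent.H887.TS
  Cfsg.Agent.H887.Halves

variable {F V : Type*} [Field F] [AddCommGroup V] [Module F V] {Q : QuadraticForm F V}
variable {U W : Submodule F V}

theorem root_map {a b : V} (ha : a ∈ U) (hb : b ∈ U) (ha0 : Q a = 0)
    (hab : polar Q a b = 0) : U.map (T Q a b : V →ₗ[F] V) = U := by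
  have key : ∀ {b : V}, b ∈ U → polar Q a b = 0 → ∀ u ∈ U, T Q a b u ∈ U := by
    intro b hb hab u hu
    rw [T_apply ha0 hab]
    exact U.sub_mem (U.sub_mem (U.add_mem hu (U.smul_mem _ hb)) (U.smul_mem _ ha))
      (U.smul_mem _ ha)
  refine map_eq_self_of_le (key hb hab) ?_
  rw [T_inv ha0 hab]
  exact key (U.neg_mem hb) (by rw [polar_neg_right, hab, neg_zero])

theorem root_map' (P : Orth Q U W) {a b : V} (ha : a ∈ U) (hb : b ∈ U) (ha0 : Q a = 0)
    (hab : polar Q a b = 0) : W.map (T Q a b : V →ₗ[F] V) = W := by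
  have key : ∀ {b : V}, b ∈ U → polar Q a b = 0 → ∀ u ∈ W, T Q a b u ∈ W := by
    intro b hb hab u hu
    rw [T_apply_fix ha0 hab (P.orth a ha u hu) (P.orth b hb u hu)]
    exact hu
  refine map_eq_self_of_le (key hb hab) ?_
  rw [T_inv ha0 hab]
  exact key (U.neg_mem hb) (by rw [polar_neg_right, hab, neg_zero])

theorem exists_move [Finite F] (P : Orth Q U W) (hQ : Nondeg Q) (hU : 7 ≤ Module.finrank F U)
    (hW : 7 ≤ Module.finrank F W) :
    ∃ g ∈ E Q, U.map (g : V →ₗ[F] V) ≠ U ∧ U.map (g : V →ₗ[F] V) ≠ W := by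
  obtain ⟨u, hu, huz, hu0, -⟩ := exists_sing_perp_mem (Q := Q) U ![] (by omega)
  obtain ⟨x, hx, hxz, hx0, -⟩ := exists_sing_perp_mem (Q := Q) W ![] (by omega)
  obtain ⟨u', hu', hyp⟩ := P.exists_hyp hQ hu huz hu0
  have hux : polar Q u x = 0 := P.orth u hu x hx
  have e : T Q u x u' = u' + x := by
    rw [T_apply_root hu0 hx0 hux, hyp.pair, P.orth' hu' hx]
    simp
  refine ⟨T Q u x, T_mem_E u x, ?_, ?_⟩
  · intro h
    have h1 : T Q u x u' ∈ U := by rw [← h]; exact ⟨u', hu', rfl⟩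
    rw [e] at h1
    have h2 : x ∈ U := by simpa using U.sub_mem h1 hu'
    exact hxz (P.eq_zero hQ h2 hx)
  · intro h
    have h1 : T Q u x u' ∈ W := by rw [← h]; exact ⟨u', hu', rfl⟩
    rw [e] at h1
    have h2 : u' ∈ W := by simpa using W.sub_mem h1 hx
    exact hyp.right_ne (P.eq_zero hQ hu' h2)

/-- Let F be a finite field with q elements, n ≥ 13 even, Q a non-degenerate quadratic form on F^n (of either type), and Ω the commutator subgroup of the isometry group of Q, viewed inside GL_n(F). Let D be a decomposition of F^n into two orthogonal subspaces of odd dimension n/2 on which the polar form is non-degenerate and which are not Q-isometric to each other. Then the elements of Ω permuting (necessarily fixing) the two subspaces form a maximal subgroup of Ω. -/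
theorem result {F : Type*} [Field F] [Fintype F] {n : ℕ} (hn : 13 ≤ n) (heven : Even n) (Q : (Fin n → F) → F) (hQ : Cfsg.Geo.IsNondegenerateQuadraticForm Q) (k : ℕ) (hk : 2 * k = n) (hko : Odd k) (D : Fin 2 → Submodule F (Fin n → F)) (hD : Cfsg.Geo.IsNondegenerateMDecomposition (QuadraticMap.polar Q) k D) (hni : ¬ Cfsg.Geo.AreIsometricFor Q (D 0) (D 1)) : Cfsg.Geo.IsMaximalIn (Cfsg.Geo.omegaGL Q) (Cfsg.Geo.decompositionStabilizer D ⊓ Cfsg.Geo.omegaGL Q) := by
  have hG : Good (qf Q hQ) := (big_qf Q hQ (by rw [Fintype.card_fin]; omega)).good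
  have P : Orth (qf Q hQ) (D 0) (D 1) :=
    ⟨hD.orthogonal 0 1 (by decide), (isCompl_of_decomp hD.decomp).1⟩
  have hf0 := hD.decomp.finrank_eq 0
  have hf1 := hD.decomp.finrank_eq 1
  have hk7 : 7 ≤ k := by omega
  refine isMaximalIn_omegaGL Q hQ hG _ (decStab D) (mem_decompositionStabilizer_iff D) ?_ ?_
  · obtain ⟨g, hg, h0, h1⟩ := exists_move P hG.nondeg (by omega) (by omega)
    refine ⟨g, hg, fun h => ?_⟩
    rcases mem_decStab_two.1 h with h | h
    · exact h0 h.1
    · exact h1 h.1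
  · intro H hHE hM hex
    obtain ⟨g, hg, hg'⟩ := hex
    have hO : Cfsg.Agent.H887.Halves.Over (qf Q hQ) (D 0) (D 1) H := by
      refine ⟨hHE.trans E_le_O, fun a ha b hb ha0 hab => ?_, fun a ha b hb ha0 hab => ?_⟩
      · exact hM _ (T_mem_E a b)
          (mem_decStab_two.2 (Or.inl ⟨root_map ha hb ha0 hab, root_map' P ha hb ha0 hab⟩))
      · exact hM _ (T_mem_E a b)
          (mem_decStab_two.2 (Or.inl ⟨root_map' P.symm ha hb ha0 hab, root_map ha hb ha0 hab⟩))
    exact hO.main P hG hf0 hf1 hk7 hg fun h => hg' (mem_decStab_two.2 h)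

end Cfsg.Agent.S5699
end
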