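import Cfsg.Statements.S5705
import Cfsg.Agent.H889.Tensor2
set_option linter.all false

set_option autoImplicit false
set_option linter.unusedSectionVars false
open Cfsg

namespace Cfsg.Agent.S5705

open Matrix Cfsg.Geo QuadraticMap Cfsg.Agent.H889
open scoped Kronecker

/-- The elements conjugating `C` to `C` or to its inverse. -/
def invNormalizer {G : Type*} [Group G] (C : G) : Subgroup G where
  carrier := {g | g * C = C * g ∨ g * C = C⁻¹ * g}
  mul_mem' := by
    rintro a b (ha | ha) (hb | hb)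
    · left; rw [mul_assoc, hb, ← mul_assoc, ha, mul_assoc]
    · right
      have ha' : a * C⁻¹ = C⁻¹ * a := by
        rw [eq_inv_mul_iff_mul_eq, ← mul_assoc, ← ha, mul_assoc, mul_inv_cancel, mul_one]
      rw [mul_assoc, hb, ← mul_assoc, ha', mul_assoc]
    · right; rw [mul_assoc, hb, ← mul_assoc, ha, mul_assoc]
    · left
      have ha' : a * C⁻¹ = C * a := by
        rw [mul_inv_eq_iff_eq_mul, mul_assoc, ha, ← mul_assoc, mul_inv_cancel, one_mul]
      rw [mul_assoc, hb, ← mul_assoc, ha', mul_assoc]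
  one_mem' := by left; rw [one_mul, mul_one]
  inv_mem' := by
    rintro a (ha | ha)
    · left
      rw [inv_mul_eq_iff_eq_mul, ← mul_assoc, ha, mul_assoc, mul_inv_cancel, mul_one]
    · right
      have ha' : a * C⁻¹ = C * a := by
        rw [mul_inv_eq_iff_eq_mul, mul_assoc, ha, ← mul_assoc, mul_inv_cancel, one_mul]
      rw [inv_mul_eq_iff_eq_mul, ← mul_assoc, ha', mul_assoc, mul_inv_cancel, mul_one]

variable {F : Type*} [Field F] [Fintype F]

theorem eq_zero_or_one (hq : Fintype.card F = 2) (a : F) : a = 0 ∨ a = 1 := by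
  by_cases h : a = 0
  · exact Or.inl h
  · right
    have := FiniteField.pow_card_sub_one_eq_one a h
    rw [hq] at this
    simpa using this

theorem one_add_one (hq : Fintype.card F = 2) : (1 : F) + 1 = 0 := by
  rcases eq_zero_or_one hq (1 + 1) with h | h
  · exact h
  · exfalso
    have : (1 : F) = 0 := by linear_combination h
    exact one_ne_zero this

theorem add_self (hq : Fintype.card F = 2) (a : F) : a + a = 0 := by
  linear_combination a * one_add_one hq

/-- The element of order three of `GL(2, F)`. -/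
noncomputable def om (hq : Fintype.card F = 2) : GL (Fin 2) F where
  val := !![0, 1; 1, 1]
  inv := !![1, 1; 1, 0]
  val_inv := by
    ext i j
    fin_cases i <;> fin_cases j <;> simp [Matrix.mul_apply, Fin.sum_univ_two, one_add_one hq]
  inv_val := by
    ext i j
    fin_cases i <;> fin_cases j <;> simp [Matrix.mul_apply, Fin.sum_univ_two, one_add_one hq]

theorem coe_om (hq : Fintype.card F = 2) :
    ((om hq : GL (Fin 2) F) : Matrix (Fin 2) (Fin 2) F) = !![0, 1; 1, 1] := rfl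

theorem coe_om_inv (hq : Fintype.card F = 2) :
    (((om hq)⁻¹ : GL (Fin 2) F) : Matrix (Fin 2) (Fin 2) F) = !![1, 1; 1, 0] := rfl

theorem gl_two_om (hq : Fintype.card F = 2) (a : GL (Fin 2) F) :
    a * om hq = om hq * a ∨ a * om hq = (om hq)⁻¹ * a := by
  have hdet : (a : Matrix (Fin 2) (Fin 2) F).det ≠ 0 := by
    have := (Matrix.isUnit_iff_isUnit_det _).1 a.isUnit
    exact this.ne_zero
  have h11 := one_add_one hq
  rw [Matrix.det_fin_two] at hdet
  have key : (a : Matrix (Fin 2) (Fin 2) F) * !![0, 1; 1, 1] = !![0, 1; 1, 1] * (a : Matrix (Fin 2) (Fin 2) F) ∨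
      (a : Matrix (Fin 2) (Fin 2) F) * !![0, 1; 1, 1] = !![1, 1; 1, 0] * (a : Matrix (Fin 2) (Fin 2) F) := by
    generalize (a : Matrix (Fin 2) (Fin 2) F) = A at hdet
    obtain ⟨p, hp⟩ : ∃ p, A 0 0 = p := ⟨_, rfl⟩
    obtain ⟨q, hq'⟩ : ∃ q, A 0 1 = q := ⟨_, rfl⟩
    obtain ⟨r, hr⟩ : ∃ r, A 1 0 = r := ⟨_, rfl⟩
    obtain ⟨s, hs⟩ : ∃ s, A 1 1 = s := ⟨_, rfl⟩
    rw [hp, hq', hr, hs] at hdet
    have hA : A = !![p, q; r, s] := by
      rw [← hp, ← hq', ← hr, ← hs]
      exact Matrix.eta_fin_two A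
    subst hA
    rcases eq_zero_or_one hq p with rfl | rfl <;> rcases eq_zero_or_one hq q with rfl | rfl <;>
      rcases eq_zero_or_one hq r with rfl | rfl <;> rcases eq_zero_or_one hq s with rfl | rfl <;>
      simp [h11] at hdet ⊢
  rcases key with h | h
  · left
    apply Units.ext
    rw [Units.val_mul, Units.val_mul]
    exact h
  · right
    apply Units.ext
    rw [Units.val_mul, Units.val_mul]
    exact h

/-- `ω ⊗ 1`. -/
noncomputable def cc (hq : Fintype.card F = 2) (n₂ : ℕ) : GL (Fin 2 × Fin n₂) F where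
  val := !![0, 1; 1, 1] ⊗ₖ (1 : Matrix (Fin n₂) (Fin n₂) F)
  inv := !![1, 1; 1, 0] ⊗ₖ (1 : Matrix (Fin n₂) (Fin n₂) F)
  val_inv := by
    rw [← Matrix.mul_kronecker_mul]
    have := (om hq).val_inv
    change !![0, 1; 1, 1] * !![1, 1; 1, 0] = (1 : Matrix (Fin 2) (Fin 2) F) at this
    rw [this, one_mul, Matrix.one_kronecker_one]
  inv_val := by
    rw [← Matrix.mul_kronecker_mul]
    have := (om hq).inv_val
    change !![1, 1; 1, 0] * !![0, 1; 1, 1] = (1 : Matrix (Fin 2) (Fin 2) F) at this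
    rw [this, one_mul, Matrix.one_kronecker_one]

theorem coe_cc (hq : Fintype.card F = 2) (n₂ : ℕ) :
    (cc hq n₂).val =
      !![0, 1; 1, 1] ⊗ₖ (1 : Matrix (Fin n₂) (Fin n₂) F) := rfl

theorem coe_cc_inv (hq : Fintype.card F = 2) (n₂ : ℕ) :
    ((cc hq n₂)⁻¹).val =
      !![1, 1; 1, 0] ⊗ₖ (1 : Matrix (Fin n₂) (Fin n₂) F) := rfl

theorem kronecker_le (hq : Fintype.card F = 2) (n₂ : ℕ) :
    kroneckerSubgroup 2 n₂ F ≤ invNormalizer (cc hq n₂) := by
  rintro g ⟨a, b, hg⟩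
  rcases gl_two_om hq a with h | h
  · left
    apply Units.ext
    rw [Units.val_mul, Units.val_mul, hg, coe_cc, ← Matrix.mul_kronecker_mul,
      ← Matrix.mul_kronecker_mul, mul_one, one_mul]
    have := congrArg (fun x : GL (Fin 2) F => (x : Matrix (Fin 2) (Fin 2) F)) h
    simp only [Units.val_mul, coe_om] at this
    rw [this]
  · right
    apply Units.ext
    rw [Units.val_mul, Units.val_mul, hg, coe_cc, coe_cc_inv, ← Matrix.mul_kronecker_mul,
      ← Matrix.mul_kronecker_mul, mul_one, one_mul]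
    have := congrArg (fun x : GL (Fin 2) F => (x : Matrix (Fin 2) (Fin 2) F)) h
    simp only [Units.val_mul, coe_om, coe_om_inv] at this
    rw [this]

/-- The action of `ω ⊗ 1` on pure tensors. -/
theorem cc_mulVec (hq : Fintype.card F = 2) (n₂ : ℕ) (x : Fin 2 → F) (y : Fin n₂ → F) :
    (cc hq n₂).val *ᵥ pt x y = pt ![x 1, x 0 + x 1] y := by
  rw [coe_cc, kronecker_mulVec_pt, Matrix.one_mulVec]
  congr 1
  funext i
  fin_cases i <;> simp [Matrix.mulVec, dotProduct, Fin.sum_univ_two]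

theorem cc_inv_mulVec (hq : Fintype.card F = 2) (n₂ : ℕ) (z : Fin 2 × Fin n₂ → F) :
    ((cc hq n₂)⁻¹).val *ᵥ z = (cc hq n₂).val *ᵥ z + z := by
  have h : ((cc hq n₂)⁻¹).val = (cc hq n₂).val + 1 := by
    rw [coe_cc, coe_cc_inv, ← Matrix.one_kronecker_one, ← Matrix.add_kronecker]
    congr 1
    ext i j
    fin_cases i <;> fin_cases j <;> simp [one_add_one hq]
  rw [h, Matrix.add_mulVec, Matrix.one_mulVec]

/-- A symplectic form on the plane. -/
theorem symp_two (f : (Fin 2 → F) → (Fin 2 → F) → F) (hf : IsSymplecticForm f) (x y : Fin 2 → F) :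
    f x y = (x 0 * y 1 - x 1 * y 0) * f ![1, 0] ![0, 1] := by
  have hx : x = x 0 • ![1, 0] + x 1 • ![0, 1] := by
    funext i; fin_cases i <;> simp
  have hy : y = y 0 • ![1, 0] + y 1 • ![0, 1] := by
    funext i; fin_cases i <;> simp
  conv_lhs => rw [hx, hy]
  rw [hf.bilinear.add_left, hf.bilinear.add_right, hf.bilinear.add_right, hf.bilinear.smul_left,
    hf.bilinear.smul_left, hf.bilinear.smul_left, hf.bilinear.smul_left, hf.bilinear.smul_right,
    hf.bilinear.smul_right, hf.bilinear.smul_right, hf.bilinear.smul_right, hf.alternating,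
    hf.alternating, hf.skew ![0, 1] ![1, 0]]
  ring

theorem symp_two_ne (f : (Fin 2 → F) → (Fin 2 → F) → F) (hf : IsSymplecticForm f) :
    f ![1, 0] ![0, 1] ≠ 0 := by
  intro h
  obtain ⟨⟨x, hx⟩, -⟩ := hf.nondegenerate ![1, 0] (by
    intro h0
    have := congrFun h0 0
    simp at this)
  apply hx
  rw [symp_two f hf, h, mul_zero]

section Main

variable {n₂ : ℕ}

theorem std (hq : Fintype.card F = 2) (h2 : 3 ≤ n₂) (Q : (Fin 2 × Fin n₂ → F) → F)
    (hQ : IsNondegenerateQuadraticForm Q)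
    (f₁ : (Fin 2 → F) → (Fin 2 → F) → F) (f₂ : (Fin n₂ → F) → (Fin n₂ → F) → F)
    (hf₁ : IsSymplecticForm f₁) (hf₂ : IsSymplecticForm f₂) (c : F) (hc : c ≠ 0)
    (hpol : ∀ (x₁ y₁ : Fin 2 → F) (x₂ y₂ : Fin n₂ → F),
      polar Q (pt x₁ x₂) (pt y₁ y₂) = c * (f₁ x₁ y₁ * f₂ x₂ y₂))
    (hpure : ∀ (x₁ : Fin 2 → F) (x₂ : Fin n₂ → F), Q (pt x₁ x₂) = 0) :
    ∃ K : Subgroup (GL (Fin 2 × Fin n₂) F),
      kroneckerSubgroup 2 n₂ F ⊓ omegaGL Q < K ∧ K < omegaGL Q := by
  classical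
  have h11 := one_add_one hq
  have hneg : ∀ a : F, -a = a := fun a => by linear_combination -(add_self hq a)
  have hcard : 5 ≤ Fintype.card (Fin 2 × Fin n₂) := by
    rw [Fintype.card_prod, Fintype.card_fin, Fintype.card_fin]; omega
  obtain ⟨d, hd0, hf₁'⟩ : ∃ d : F, d ≠ 0 ∧ ∀ x y, f₁ x y = (x 0 * y 1 - x 1 * y 0) * d :=
    ⟨_, symp_two_ne f₁ hf₁, symp_two f₁ hf₁⟩
  have hcomm : ∀ x y, polar Q x y = polar Q y x := fun x y => QuadraticMap.polar_comm Q x y
  have hal : ∀ x y z, polar Q (x + y) z = polar Q x z + polar Q y z := hQ.polar_bilinear.add_left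
  have har : ∀ x y z, polar Q x (y + z) = polar Q x y + polar Q x z := fun x y z =>
    hQ.polar_bilinear.add_right x y z
  have i0 : (0 : Fin n₂ → F) = 0 := rfl
  -- the index 0 of Fin n₂
  let z0 : Fin n₂ := ⟨0, by omega⟩
  let z1 : Fin n₂ := ⟨1, by omega⟩
  have hz01 : z0 ≠ z1 := by simp [z0, z1]
  let φ (f : (Fin n₂ → F) → (Fin n₂ → F) → F) (hf : IsSymplecticForm f) (v : Fin n₂ → F) :=
    rightFun f hf.bilinear.add_right hf.bilinear.smul_right v
  -- vectors x₂, y₂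
  let x₂ : Fin n₂ → F := Pi.single z0 1
  obtain ⟨y₂, hy₂0, hy₂a, hy₂b⟩ := exists_ne_zero_two h2 (φ f₂ hf₂ x₂) (LinearMap.proj z0)
  change f₂ x₂ y₂ = 0 at hy₂a
  change y₂ z0 = 0 at hy₂b
  have hy₂a' : f₂ y₂ x₂ = 0 := by rw [hf₂.skew, hy₂a, neg_zero]
  have hx₂0 : x₂ z0 = 1 := by simp [x₂]
  have hC := cc_mulVec hq n₂
  -- the singular vector u₀ = e₀ ⊗ x₂ + e₁ ⊗ y₂ and its image
  set u₀ : Fin 2 × Fin n₂ → F := pt ![1, 0] x₂ + pt ![0, 1] y₂ with hu₀
  set v₀ : Fin 2 × Fin n₂ → F := pt ![0, 1] x₂ + pt ![1, 1] y₂ with hv₀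
  have hCu : (cc hq n₂).val *ᵥ u₀ = v₀ := by
    rw [hu₀, hv₀, Matrix.mulVec_add, hC, hC]
    congr 2
    · funext i; fin_cases i <;> simp
    · funext i; fin_cases i <;> simp
  have hCv : (cc hq n₂).val *ᵥ v₀ = u₀ + v₀ := by
    rw [hu₀, hv₀, Matrix.mulVec_add, hC, hC]
    funext a
    obtain ⟨i, j⟩ := a
    have := add_self hq (y₂ j)
    fin_cases i
    · simp [pt]
    · simp only [pt, Pi.add_apply]
      simp [h11]
      linear_combination -this
  have hQu : Q u₀ = 0 := by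
    rw [hu₀, map_add_Q Q, hpure, hpure, hpol, hy₂a]; ring
  have hQv : Q v₀ = 0 := by
    rw [hv₀, map_add_Q Q, hpure, hpure, hpol, hy₂a]; ring
  have huv : polar Q u₀ v₀ = 0 := by
    rw [hu₀, hv₀, hal, har, har, hpol, hpol, hpol, hpol, hf₂.alternating, hf₂.alternating, hy₂a,
      hy₂a']
    ring
  obtain ⟨r, hrΩ, hr⟩ := exists_siegel_omegaGL Q hQ hcard u₀ v₀ hQu hQv huv
  -- r commutes with C
  have hrC : r * cc hq n₂ = cc hq n₂ * r := by
    apply Units.ext
    rw [Units.val_mul, Units.val_mul]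
    apply matrix_ext_pt
    intro x y
    rw [← Matrix.mulVec_mulVec, ← Matrix.mulVec_mulVec, hr, hr, Matrix.mulVec_add,
      Matrix.mulVec_sub, Matrix.mulVec_smul, Matrix.mulVec_smul, hCu, hCv, hC]
    have e1 : polar Q u₀ (pt ![x 1, x 0 + x 1] y) = polar Q v₀ (pt x y) + polar Q u₀ (pt x y) := by
      rw [hu₀, hv₀, hal, hal, hal, hpol, hpol, hpol, hpol, hpol, hpol]
      simp only [hf₁']
      simp only [Matrix.cons_val_zero, Matrix.cons_val_one]
      linear_combination (-c * d * f₂ x₂ y * x 1 ) * h11 - (c * d * f₂ x₂ y * x 0 + c * d * f₂ y₂ y * x 1) * h11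
        + (2 * c * x 0 * d * f₂ x₂ y + c * x 0 * d * f₂ y₂ y + c * x 1 * d * f₂ x₂ y) * h11
    have e2 : polar Q v₀ (pt ![x 1, x 0 + x 1] y) = polar Q u₀ (pt x y) := by
      rw [hu₀, hv₀, hal, hal, hpol, hpol, hpol, hpol]
      simp only [hf₁']
      simp only [Matrix.cons_val_zero, Matrix.cons_val_one]
      linear_combination (c * x 0 * d * f₂ y₂ y - c * x 1 * d * f₂ x₂ y) * h11
    rw [e1, e2]
    funext a
    simp only [Pi.add_apply, Pi.sub_apply, Pi.smul_apply, smul_eq_mul]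
    linear_combination (polar Q v₀ (pt x y) * v₀ a - polar Q u₀ (pt x y) * u₀ a) * h11
  refine ⟨omegaGL Q ⊓ invNormalizer (cc hq n₂), ⟨le_inf inf_le_right
    (inf_le_left.trans (kronecker_le hq n₂)), ?_⟩, ⟨inf_le_left, ?_⟩⟩
  · -- `r` does not preserve the tensor decomposition
    intro hle
    have hrK : r ∈ kroneckerSubgroup 2 n₂ F := (hle ⟨hrΩ, Or.inl hrC⟩).1
    obtain ⟨a, b, hab⟩ := hrK
    -- a vector orthogonal to both x₂ and y₂
    obtain ⟨w, hw0, hwx, hwy⟩ := exists_ne_zero_two h2 (φ f₂ hf₂ x₂) (φ f₂ hf₂ y₂)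
    change f₂ x₂ w = 0 at hwx
    change f₂ y₂ w = 0 at hwy
    have hfix : ∀ x : Fin 2 → F, pt (a.val *ᵥ x) (b.val *ᵥ w) = pt x w := by
      intro x
      have h := hr (pt x w)
      rw [hab, kronecker_mulVec_pt] at h
      rw [h, hu₀, hv₀, hal, hal, hpol, hpol, hpol, hpol, hwx, hwy]
      simp
    obtain ⟨j, hj⟩ : ∃ j, w j ≠ 0 := by
      by_contra hcon
      push Not at hcon
      exact hw0 (funext hcon)
    have hfx : ∀ (x : Fin 2 → F) (i : Fin 2), (a.val *ᵥ x) i * (b.val *ᵥ w) j = x i * w j := by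
      intro x i
      exact congrFun (hfix x) (i, j)
    have hbw : (b.val *ᵥ w) j ≠ 0 := by
      intro h0
      have := hfx ![1, 0] 0
      rw [h0, mul_zero] at this
      simp at this
      exact hj this.symm
    have ha1 : (a.val *ᵥ ![1, 0]) 1 = 0 := by
      have := hfx ![1, 0] 1
      simp at this
      simpa [hbw] using this
    have hw1 : ∀ w' : Fin n₂ → F, polar Q u₀ (pt ![1, 0] w') = c * ((-d) * f₂ y₂ w') := by
      intro w'
      rw [hu₀, hal, hpol, hpol]
      simp only [hf₁']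
      simp
    have hw2 : ∀ w' : Fin n₂ → F, polar Q v₀ (pt ![1, 0] w') =
        c * ((-d) * (f₂ x₂ w' + f₂ y₂ w')) := by
      intro w'
      rw [hv₀, hal, hpol, hpol]
      simp only [hf₁']
      simp
      ring
    obtain ⟨-, w', hw'⟩ := hf₂.nondegenerate y₂ hy₂0
    have h := congrFun (hr (pt ![1, 0] w')) (1, z0)
    rw [hab, kronecker_mulVec_pt, hw1, hw2] at h
    simp only [pt_apply, Pi.add_apply, Pi.sub_apply, Pi.smul_apply, smul_eq_mul, ha1, hu₀, hv₀] at h
    simp [hx₂0, hy₂b] at h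
    rcases h with h | h | h
    · exact hc h
    · exact hd0 h
    · exact hw' h
  · -- some element of `Ω` does not normalise `⟨ω ⊗ 1⟩`
    intro hle
    set u : Fin 2 × Fin n₂ → F := pt ![1, 0] x₂ with hu
    set v : Fin 2 × Fin n₂ → F := pt ![1, 0] y₂ with hv
    have huv' : polar Q u v = 0 := by
      rw [hu, hv, hpol, hf₁.alternating]; ring
    obtain ⟨g, hgΩ, hg⟩ := exists_siegel_omegaGL Q hQ hcard u v (hpure _ _) (hpure _ _) huv'
    have hCu' : (cc hq n₂).val *ᵥ u = pt ![0, 1] x₂ := by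
      rw [hu, hC]
      congr 1
      funext i; fin_cases i <;> simp
    have hCv' : (cc hq n₂).val *ᵥ v = pt ![0, 1] y₂ := by
      rw [hv, hC]
      congr 1
      funext i; fin_cases i <;> simp
    obtain ⟨-, hgN⟩ := hle hgΩ
    rcases hgN with hgC | hgC
    · have hgC' : ∀ z, g.val *ᵥ ((cc hq n₂).val *ᵥ z) = (cc hq n₂).val *ᵥ (g.val *ᵥ z) := by
        intro z
        rw [Matrix.mulVec_mulVec, Matrix.mulVec_mulVec, ← Units.val_mul, ← Units.val_mul, hgC]
      obtain ⟨-, z, hz⟩ := hQ.nondegenerate v (by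
        intro h0
        obtain ⟨j, hj⟩ : ∃ j, y₂ j ≠ 0 := by
          by_contra hcon
          push Not at hcon
          exact hy₂0 (funext hcon)
        have := congrFun h0 (0, j)
        simp [hv, pt_apply] at this
        exact hj this)
      have h := hgC' z
      rw [hg, hg, Matrix.mulVec_add, Matrix.mulVec_sub, Matrix.mulVec_smul, Matrix.mulVec_smul,
        hCu', hCv'] at h
      have h' := congrFun h (1, z0)
      simp [hu, hv, pt_apply, hx₂0, hy₂b] at h'
      exact hz h'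
    · have hgC' : ∀ z, g.val *ᵥ ((cc hq n₂).val *ᵥ z) =
          (cc hq n₂).val *ᵥ (g.val *ᵥ z) + g.val *ᵥ z := by
        intro z
        rw [← cc_inv_mulVec, Matrix.mulVec_mulVec, Matrix.mulVec_mulVec, ← Units.val_mul,
          ← Units.val_mul, hgC]
      obtain ⟨w, hw0, hwx, hwy⟩ := exists_ne_zero_two h2 (φ f₂ hf₂ x₂) (φ f₂ hf₂ y₂)
      change f₂ x₂ w = 0 at hwx
      change f₂ y₂ w = 0 at hwy
      have hfix : ∀ x : Fin 2 → F, g.val *ᵥ pt x w = pt x w := by
        intro x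
        rw [hg, hu, hv, hpol, hpol, hwx, hwy]
        simp
      have h := hgC' (pt ![1, 0] w)
      rw [hC, hfix, hfix, hC] at h
      obtain ⟨j, hj⟩ : ∃ j, w j ≠ 0 := by
        by_contra hcon
        push Not at hcon
        exact hw0 (funext hcon)
      have h' := congrFun h (0, j)
      simp [pt_apply] at h'
      exact hj h'.symm

end Main

theorem result {F : Type*} [Field F] [Fintype F] {n : ℕ} (hn : 13 ≤ n) (heven : Even n) (Q : (Fin n → F) → F) (hQ : Cfsg.Geo.IsNondegenerateQuadraticForm Q) (hplus : Cfsg.Geo.IsPlusTypeOn Q ⊤) (hq : Fintype.card F = 2) (n₂ : ℕ) (h2 : 2 < n₂) (e : (Fin n) ≃ Fin 2 × Fin n₂) (P : Matrix.GeneralLinearGroup (Fin n) F) (f₁ : (Fin 2 → F) → (Fin 2 → F) → F) (f₂ : (Fin n₂ → F) → (Fin n₂ → F) → F) (hf₁ : Cfsg.Geo.IsSymplecticForm f₁) (hf₂ : Cfsg.Geo.IsSymplecticForm f₂) (hT : Cfsg.Geo.IsTensorFormStructure id (QuadraticMap.polar Q) f₁ f₂ e P) (hpure : (∀ (x₁ : Fin 2 → F) (x₂ : Fin n₂ → F), Q (Matrix.mulVec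 (P : Matrix (Fin n) (Fin n) F) ((fun a : Fin 2 × Fin n₂ => x₁ a.1 * x₂ a.2) ∘ e)) = 0)) : ∃ K : Subgroup (Matrix.GeneralLinearGroup (Fin n) F), Cfsg.Geo.tensorProductSubgroup 2 n₂ e P ⊓ Cfsg.Geo.omegaGL Q < K ∧ K < Cfsg.Geo.omegaGL Q := by
  obtain ⟨c, hc, hpol⟩ := polar_pullForm_pt e P Q f₁ f₂ hf₁.bilinear hf₂.bilinear hT
  rw [tensorProductSubgroup_eq]
  exact exists_between_of_pull e P Q _
    (std hq h2 (pullForm e P Q) (pullForm_nondegenerate e P Q hQ) f₁ f₂ hf₁ hf₂ c hc hpol hpure)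

end Cfsg.Agent.S5705
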