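import Mathlib
import Cfsg.Agent.H889.C7.Contain
import Cfsg.Agent.H874.Recog
import Cfsg.Statements.S5706
import Cfsg.Agent.GpSp.Iso
set_option linter.all false

-- part: H889/C7/CaseOdd
section
/-!
Case II in odd characteristic, `k ≥ 4`: `M` contains a long root element of the orthogonal group.
-/

set_option autoImplicit false
set_option linter.unusedSectionVars false
set_option linter.unusedVariables false
set_option linter.unusedSimpArgs false

namespace Cfsg.Agent.H889.C7

open Module Cfsg.Agent.H889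

variable {F : Type*} [Field F] {k : ℕ} {ω : LinearMap.BilinForm F (Fin k → F)}

section J

variable (hω : Symp ω) {n : ℕ} {M : Subgroup (Module.End F (T F k (n + 1)))ˣ}

/-- The operators `s` with `1 + c_a ⊗ s ∈ M` for all `a`. -/
def J2 (hω : Symp ω) {n : ℕ} (M : Subgroup (Module.End F (T F k (n + 1)))ˣ) (hsq : ∀ c : F, ∃ d e, c = d * d + e * e)
    (i : Fin (n + 1)) : Submodule F (Module.End F (T F k n)) where
  carrier := {s | ∀ a, ∃ g ∈ M, g.1 = 1 + (DT hω i).map hω (rk ω a a) s}
  zero_mem' := fun a => ⟨1, M.one_mem, by rw [map_zero_right', add_zero]; rfl⟩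
  add_mem' := by
    intro s s' hs hs' a
    obtain ⟨g, hg, e⟩ := hs a
    obtain ⟨g', hg', e'⟩ := hs' a
    refine ⟨g * g', M.mul_mem hg hg', ?_⟩
    rw [Units.val_mul, e, e', TD.map_add_right]
    have : (DT hω i).map hω (rk ω a a) s * (DT hω i).map hω (rk ω a a) s' = 0 := by
      rw [TD.map_mul, rk_sq hω, map_zero_left']
    rw [add_mul, mul_add, mul_add, this, add_zero, one_mul, one_mul, mul_one]
    abel
  smul_mem' := by
    intro c s hs a
    obtain ⟨d, d', hd⟩ := hsq c
    obtain ⟨g, hg, e⟩ := hs (d • a)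
    obtain ⟨g', hg', e'⟩ := hs (d' • a)
    refine ⟨g * g', M.mul_mem hg hg', ?_⟩
    rw [Units.val_mul, e, e', rk_smul_smul, TD.map_smul_left, rk_smul_smul, TD.map_smul_left, TD.map_smul_right, hd]
    have : (d * d) • (DT hω i).map hω (rk ω a a) s * (d' * d') • (DT hω i).map hω (rk ω a a) s = 0 := by
      rw [smul_mul_assoc, mul_smul_comm, TD.map_mul, rk_sq hω, map_zero_left', smul_zero, smul_zero]
    rw [add_mul, mul_add, mul_add, this, add_zero, one_mul, one_mul, mul_one, add_smul]
    abel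

variable {hsq : ∀ c : F, ∃ d e, c = d * d + e * e}

theorem mem_J2 {i : Fin (n + 1)} {s : Module.End F (T F k n)} :
    s ∈ J2 hω M hsq i ↔ ∀ a, ∃ g ∈ M, g.1 = 1 + (DT hω i).map hω (rk ω a a) s := Iff.rfl

theorem mem_J2_of (hM : SlotsM ω M) {i : Fin (n + 1)} {s : Module.End F (T F k n)} {a : Fin k → F} (ha : a ≠ 0)
    {g : (Module.End F (T F k (n + 1)))ˣ} (hg : g ∈ M) (h : g.1 = 1 + (DT hω i).map hω (rk ω a a) s) :
    s ∈ J2 hω M hsq i := by
  intro a'
  by_cases ha' : a' = 0
  · exact ⟨1, M.one_mem, by rw [ha', rk_zero, map_zero_left', add_zero]; rfl⟩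
  obtain ⟨α, hα, hαa⟩ := exists_iso_of_ne hω ha ha'
  refine ⟨sU i α * g * (sU i α)⁻¹, M.mul_mem (M.mul_mem (hM.sp i α hα) hg) (M.inv_mem (hM.sp i α hα)), ?_⟩
  have e1 : (sU i α : (Module.End F (T F k (n + 1)))ˣ).1 = (DT hω i).map hω α.1 1 := (map_sE hω i _).symm
  have e2 : ((sU i α : (Module.End F (T F k (n + 1)))ˣ)⁻¹).1 = (DT hω i).map hω (α⁻¹).1 1 := (map_sE hω i _).symm
  rw [Units.val_mul, Units.val_mul, h, mul_add, add_mul, mul_one, ← Units.val_mul, mul_inv_cancel, Units.val_one,
    e1, e2, TD.map_mul, TD.map_mul, one_mul, mul_one, rk_conj hα, hαa]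

theorem J2_inv (hM : SlotsM ω M) (i : Fin (n + 1)) : SlotInv ω (J2 hω M hsq i) := by
  intro j α hα s hs a
  obtain ⟨g, hg, e⟩ := hs a
  have hU := hM.sp (i.succAbove j) α hα
  refine ⟨sU (i.succAbove j) α * g * (sU (i.succAbove j) α)⁻¹, M.mul_mem (M.mul_mem hU hg) (M.inv_mem hU), ?_⟩
  rw [Units.val_mul, Units.val_mul, e, mul_add, add_mul, mul_one, ← Units.val_mul, mul_inv_cancel, Units.val_one]
  congr 1
  exact map_slot_conj hω i j α _ _

/-- Closure under the Jordan product. -/
theorem J2_jordan (hM : SlotsM ω M) (hk : 4 ≤ k) (i : Fin (n + 1)) {s s' : Module.End F (T F k n)}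
    (hs : s ∈ J2 hω M hsq i) (hs' : s' ∈ J2 hω M hsq i) : s * s' + s' * s ∈ J2 hω M hsq i := by
  obtain ⟨w, hw⟩ := exists_ne_vec (F := F) (k := k) (by omega)
  obtain ⟨w', hww'⟩ := hω.exists_pair hw
  obtain ⟨x, x', hxx', hwx, hwx', _, _⟩ := exists_two_pairs hω hk hww'
  have hxw : ω x w = 0 := by rw [hω.skew, hwx, neg_zero]
  have hx'w : ω x' w = 0 := by rw [hω.skew, hwx', neg_zero]
  have hx'x : ω x' x = -1 := by rw [hω.skew, hxx']
  -- sums of two isotropic directions
  have key : ∀ (s : Module.End F (T F k n)), s ∈ J2 hω M hsq i → ∀ u v : Fin k → F, ω u v = 0 →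
      ∃ g ∈ M, g.1 = 1 + (DT hω i).map hω (rk ω u v + rk ω v u) s := by
    intro s hs u v huv
    have hvu : ω v u = 0 := by rw [hω.skew, huv, neg_zero]
    obtain ⟨g₁, hg₁, e₁⟩ := hs (u + v)
    obtain ⟨g₂, hg₂, e₂⟩ := hs u
    obtain ⟨g₃, hg₃, e₃⟩ := hs v
    refine ⟨g₁ * g₂⁻¹ * g₃⁻¹, M.mul_mem (M.mul_mem hg₁ (M.inv_mem hg₂)) (M.inv_mem hg₃), ?_⟩
    have z : ∀ a b : Fin k → F, ω a b = 0 → (DT hω i).map hω (rk ω a a) s * (DT hω i).map hω (rk ω b b) s = 0 := by
      intro a b hab
      rw [TD.map_mul, rk_mul_rk, hab, zero_smul, map_zero_left']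
    have e : rk ω (u + v) (u + v) = rk ω u u + rk ω v v + (rk ω u v + rk ω v u) := by
      refine LinearMap.ext fun y => ?_
      simp only [LinearMap.add_apply, rk_apply, map_add, add_smul, smul_add]
      abel
    rw [Units.val_mul, Units.val_mul, unit_inv_val e₂ (z u u (hω.alt u)), unit_inv_val e₃ (z v v (hω.alt v)), e₁]
    have z1 := z (u + v) u (by rw [map_add, LinearMap.add_apply, hω.alt, hvu, add_zero])
    have z2 := z (u + v) v (by rw [map_add, LinearMap.add_apply, hω.alt, huv, add_zero])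
    have z3 := z u v huv
    have e' : (DT hω i).map hω (rk ω (u + v) (u + v)) s = (DT hω i).map hω (rk ω u u) s +
        (DT hω i).map hω (rk ω v v) s + (DT hω i).map hω (rk ω u v + rk ω v u) s := by
      rw [e, TD.map_add_left, TD.map_add_left]
    generalize (DT hω i).map hω (rk ω (u + v) (u + v)) s = A at *
    generalize (DT hω i).map hω (rk ω u u) s = B at *
    generalize (DT hω i).map hω (rk ω v v) s = C at *
    generalize (DT hω i).map hω (rk ω u v + rk ω v u) s = D at *
    rw [ring_three A B C z1 z2 z3, e']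
    abel
  obtain ⟨g, hg, e⟩ := key s hs w x hwx
  obtain ⟨g', hg', e'⟩ := key s' hs' x' w hx'w
  refine mem_J2_of hω hM hw (M.mul_mem (M.mul_mem (M.mul_mem hg hg') (M.inv_mem hg)) (M.inv_mem hg')) ?_
  have m1 : (rk ω w x + rk ω x w) * (rk ω w x + rk ω x w) = 0 := by
    simp only [mul_add, add_mul, rk_mul_rk, hwx, hxw, hω.alt, zero_smul, add_zero]
  have m2 : (rk ω x' w + rk ω w x') * (rk ω x' w + rk ω w x') = 0 := by
    simp only [mul_add, add_mul, rk_mul_rk, hwx', hx'w, hω.alt, zero_smul, add_zero]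
  have m3 : (rk ω w x + rk ω x w) * (rk ω x' w + rk ω w x') = rk ω w w := by
    simp only [mul_add, add_mul, rk_mul_rk, hxx', hxw, hwx', hω.alt, zero_smul, add_zero, one_smul]
  have m4 : (rk ω x' w + rk ω w x') * (rk ω w x + rk ω x w) = (-1 : F) • rk ω w w := by
    simp only [mul_add, add_mul, rk_mul_rk, hx'x, hx'w, hwx, hω.alt, zero_smul, add_zero, zero_add]
  have m5 : rk ω w w * (rk ω w x + rk ω x w) = 0 := by
    simp only [mul_add, rk_mul_rk, hwx, hω.alt, zero_smul, add_zero]
  have m6 : rk ω w w * (rk ω x' w + rk ω w x') = 0 := by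
    simp only [mul_add, rk_mul_rk, hwx', hω.alt, zero_smul, add_zero]
  rw [unit_comm_val e e' (by rw [TD.map_mul, m1, map_zero_left']) (by rw [TD.map_mul, m2, map_zero_left'])
    (by rw [TD.map_mul, TD.map_mul, m3, m5, map_zero_left'])
    (by rw [TD.map_mul, TD.map_mul, m4, smul_mul_assoc, m6, smul_zero, map_zero_left']),
    TD.map_mul, TD.map_mul, m3, m4, TD.map_smul_left, neg_one_smul_end, TD.map_add_right]
  congr 1
  exact sub_neg_eq_add _ _

end J

section Enl

variable (hω : Symp ω) {n : ℕ} {M : Subgroup (Module.End F (T F k (n + 1)))ˣ} {hsq : ∀ c : F, ∃ d e, c = d * d + e * e}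
include hω

theorem enlarge2 (hM : SlotsM ω M) (hk : 4 ≤ k) (i : Fin (n + 1)) {x : Fin n → Module.End F (Fin k → F)}
    (hx : ∀ m, IsC ω (x m) ∨ IsN ω (x m) ∨ x m = 1) (hxJ : pm' x ∈ J2 hω M hsq i) {j l : Fin n}
    (hj : x j ≠ 1) (hl : x l = 1) :
    ∃ x' : Fin n → Module.End F (Fin k → F), (∀ m, IsC ω (x' m) ∨ IsN ω (x' m) ∨ x' m = 1) ∧
      pm' x' ∈ J2 hω M hsq i ∧ x' l ≠ 1 ∧ ∀ m, x m ≠ 1 → x' m ≠ 1 := by
  have hjl : j ≠ l := by
    rintro rfl
    exact hj hl
  have hxj : IsC ω (x j) ∨ IsN ω (x j) := by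
    rcases hx j with h | h | h
    · exact Or.inl h
    · exact Or.inr h
    · exact absurd h hj
  -- the special slot
  obtain ⟨b, hb, ⟨v, hv1, hv2⟩, yj, hyj, hyj1, hyj2⟩ := slot_j hω hk hxj
  -- the three-cycle
  set j' := i.succAbove j with hj'
  set l' := i.succAbove l with hl'
  have hij : i ≠ j' := (Fin.succAbove_ne i j).symm
  have hil : i ≠ l' := (Fin.succAbove_ne i l).symm
  have hjl' : j' ≠ l' := fun h => hjl (Fin.succAbove_right_injective h)
  set ρ : Equiv.Perm (Fin (n + 1)) := Equiv.swap i j' * Equiv.swap j' l' with hρ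
  have hsign : Equiv.Perm.sign ρ = 1 := by
    rw [hρ, Equiv.Perm.sign_mul, Equiv.Perm.sign_swap hij, Equiv.Perm.sign_swap hjl']
    decide
  have hρs : ρ.symm = Equiv.swap j' l' * Equiv.swap i j' := by
    have : ρ⁻¹ = Equiv.swap j' l' * Equiv.swap i j' := by
      rw [hρ, mul_inv_rev, Equiv.swap_inv, Equiv.swap_inv]
    exact this
  -- the conjugate of `g_b`
  set x₀ : Fin n → Module.End F (Fin k → F) := Function.update (Function.update x j (rk ω b b)) l (x j) with hx₀
  obtain ⟨g₀, hg₀, e₀⟩ := hxJ b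
  have hR0 : ∃ h ∈ M, h.1 = 1 + (DT hω i).map hω 1 (pm' x₀) := by
    refine ⟨pU ρ * g₀ * (pU ρ)⁻¹, M.mul_mem (M.mul_mem (hM.al ρ hsign) hg₀) (M.inv_mem (hM.al ρ hsign)), ?_⟩
    have e1 : (pU ρ * g₀ * (pU ρ)⁻¹).1 = cj (pU ρ) g₀.1 := rfl
    have e2 : cj (pU ρ) (1 : Module.End F (T F k (n + 1))) = 1 := by
      rw [cj_eq_iff, mul_one, one_mul]
    rw [e1, e₀, map_add, e2, map_pm' hω, map_pm' hω, pm'_perm]
    congr 2
    funext m
    rw [hρs, Equiv.Perm.mul_apply]
    rcases Fin.eq_self_or_eq_succAbove i m with rfl | ⟨m', rfl⟩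
    · rw [Equiv.swap_apply_left, Equiv.swap_apply_left, Fin.insertNth_apply_same, hl', Fin.insertNth_apply_succAbove, hl]
    · rw [Fin.insertNth_apply_succAbove]
      by_cases h1 : m' = j
      · subst h1
        rw [Equiv.swap_apply_right, Equiv.swap_apply_of_ne_of_ne hij hil, Fin.insertNth_apply_same, hx₀,
          Function.update_of_ne hjl, Function.update_self]
      · by_cases h2 : m' = l
        · subst h2
          rw [Equiv.swap_apply_of_ne_of_ne (Ne.symm hil) (Ne.symm hjl'), Equiv.swap_apply_right, hj',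
            Fin.insertNth_apply_succAbove, hx₀, Function.update_self]
        · have h3 : i.succAbove m' ≠ j' := fun h => h1 (Fin.succAbove_right_injective h)
          have h4 : i.succAbove m' ≠ l' := fun h => h2 (Fin.succAbove_right_injective h)
          rw [Equiv.swap_apply_of_ne_of_ne (Fin.succAbove_ne i m') h3, Equiv.swap_apply_of_ne_of_ne h3 h4,
            Fin.insertNth_apply_succAbove, hx₀, Function.update_of_ne h2, Function.update_of_ne h1]
  -- conjugate the other slots
  have hpair := fun m => slot_pair hω hk (hx m)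
  choose α hα hα1 hα2 using hpair
  set β : Fin n → (Module.End F (Fin k → F))ˣ := Function.update (Function.update α j 1) l 1 with hβ
  have hβiso : ∀ m, IsoW ω (β m) := by
    intro m
    rw [hβ]
    by_cases h2 : m = l
    · rw [h2, Function.update_self]; exact IsoW.one
    · rw [Function.update_of_ne h2]
      by_cases h1 : m = j
      · rw [h1, Function.update_self]; exact IsoW.one
      · rw [Function.update_of_ne h1]; exact hα m
  set y : Fin n → Module.End F (Fin k → F) := fun m => (β m).1 * x₀ m * ((β m)⁻¹).1 with hy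
  have hyR : ∃ h ∈ M, h.1 = 1 + (DT hω i).map hω 1 (pm' y) := by
    refine conj_all (ω := ω) {r | ∃ h ∈ M, h.1 = 1 + (DT hω i).map hω 1 r} ?_ x₀ hR0 β hβiso
    rintro m γ hγ s ⟨h, hh, e⟩
    have hU := hM.sp (i.succAbove m) γ hγ
    refine ⟨sU (i.succAbove m) γ * h * (sU (i.succAbove m) γ)⁻¹, M.mul_mem (M.mul_mem hU hh) (M.inv_mem hU), ?_⟩
    rw [Units.val_mul, Units.val_mul, e, mul_add, add_mul, mul_one, ← Units.val_mul, mul_inv_cancel, Units.val_one]
    congr 1
    exact map_slot_conj hω i m γ _ _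
  have hyj' : y j = rk ω b b := by
    rw [hy]
    simp only [hβ, hx₀, Function.update_of_ne hjl, Function.update_self, Units.val_one, inv_one, one_mul, mul_one]
  have hyl : y l = x j := by
    rw [hy]
    simp only [hβ, hx₀, Function.update_self, Units.val_one, inv_one, one_mul, mul_one]
  have hym : ∀ m, m ≠ j → m ≠ l → y m = (α m).1 * x m * ((α m)⁻¹).1 := by
    intro m h1 h2
    rw [hy]
    simp only [hβ, hx₀, Function.update_of_ne h2, Function.update_of_ne h1]
  obtain ⟨h, hh, eh⟩ := hyR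
  -- the commutator
  set s := pm' (fun m => x m * y m) - pm' (fun m => y m * x m) with hs
  have hxj2 := (slot_ne hω hxj)
  have hsJ : s ∈ J2 hω M hsq i := by
    intro a
    obtain ⟨g, hg, e⟩ := hxJ a
    refine ⟨g * h * g⁻¹ * h⁻¹, M.mul_mem (M.mul_mem (M.mul_mem hg hh) (M.inv_mem hg)) (M.inv_mem hh), ?_⟩
    have m1 : pm' y * pm' y = 0 := by
      rw [pm'_mul]
      exact pm'_eq_zero (j := j) (by rw [hyj', rk_sq hω])
    have m2 : pm' y * pm' x * pm' y = 0 := by
      rw [pm'_mul, pm'_mul]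
      exact pm'_eq_zero (j := l) (by rw [hyl, hl, mul_one, hxj2.2])
    rw [unit_comm_val e eh (by rw [TD.map_mul, rk_sq hω, map_zero_left'])
      (by rw [TD.map_mul, m1, map_zero_right'])
      (by rw [TD.map_mul, TD.map_mul, mul_one, rk_sq hω, map_zero_left'])
      (by rw [TD.map_mul, TD.map_mul, m2, map_zero_right']),
      TD.map_mul, TD.map_mul, mul_one, one_mul, pm'_mul, pm'_mul]
    congr 1
    have : s = pm' (fun m => x m * y m) + (-1 : F) • pm' (fun m => y m * x m) := by
      rw [neg_one_smul_end, hs, sub_eq_add_neg]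
    rw [this, TD.map_add_right, TD.map_smul_right, neg_one_smul_end, sub_eq_add_neg]
  -- it is non-zero
  have hs0 : s ≠ 0 := by
    intro h0
    have hz : ∀ m, m ≠ j → ∃ z, (x m * y m) z ≠ 0 := by
      intro m hm
      by_contra hcon
      push Not at hcon
      have hcon' : x m * y m = 0 := LinearMap.ext hcon
      by_cases h2 : m = l
      · rw [h2, hl, one_mul, hyl] at hcon'
        exact hxj2.1 hcon'
      · rw [hym m hm h2] at hcon'
        exact hα1 m hcon'
    have hz' : ∀ m, ∃ z, (x m * y m) z ≠ 0 ∧ (m = j → (y m * x m) z = 0) := by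
      intro m
      by_cases hm : m = j
      · subst hm
        rw [hyj']
        exact ⟨v, hv1, fun _ => hv2⟩
      · obtain ⟨z, hz⟩ := hz m hm
        exact ⟨z, hz, fun h => absurd h hm⟩
    choose z hz1 hz2 using hz'
    have h1 := LinearMap.congr_fun h0 (tp z)
    rw [hs, LinearMap.sub_apply, pm'_tp, pm'_tp, LinearMap.zero_apply,
      tp_eq_zero (xs := fun m => (y m * x m) (z m)) (i := j) (hz2 j rfl), sub_zero] at h1
    exact tp_ne_zero hz1 h1
  -- the images
  have hI : ∀ m, (x m ≠ 1 ∨ m = l) → ImP ω m s := by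
    intro m hm
    obtain ⟨u, hu, h1, h2⟩ : ∃ u : Fin k → F, u ≠ 0 ∧ rk ω u u * (x m * y m) = 0 ∧ rk ω u u * (y m * x m) = 0 := by
      by_cases h1 : m = j
      · subst h1
        rw [hyj']
        exact ⟨yj, hyj, hyj1, hyj2⟩
      · by_cases h2 : m = l
        · subst h2
          rw [hyl, hl, one_mul, mul_one]
          obtain ⟨u, hu, h⟩ := slot_im hω hxj
          exact ⟨u, hu, h, h⟩
        · rw [hym m h1 h2]
          exact hα2 m (hm.resolve_right h2)
    refine ⟨u, hu, ?_⟩
    rw [hs, mul_sub, sE_mul_pm', sE_mul_pm', pm'_eq_zero (j := m) (by rw [Function.update_self, h1]),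
      pm'_eq_zero (j := m) (by rw [Function.update_self, h2]), sub_zero]
  obtain ⟨x', h1, h2, h3⟩ := extract hω hk n (J2 hω M hsq i) (J2_inv hω hM i) s hsJ hs0
  exact ⟨x', h1, h3, h2 l (hI l (Or.inr rfl)), fun m hm => h2 m (hI m (Or.inl hm))⟩

/-- Full support. -/
theorem full_supp2 (hM : SlotsM ω M) (hk : 4 ≤ k) (i : Fin (n + 1)) {x : Fin n → Module.End F (Fin k → F)}
    (hx : ∀ m, IsC ω (x m) ∨ IsN ω (x m) ∨ x m = 1) (hxJ : pm' x ∈ J2 hω M hsq i) {j : Fin n}
    (hj : x j ≠ 1) :
    ∃ x' : Fin n → Module.End F (Fin k → F), (∀ m, IsC ω (x' m) ∨ IsN ω (x' m)) ∧ pm' x' ∈ J2 hω M hsq i := by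
  classical
  have key : ∀ d : ℕ, ∃ x' : Fin n → Module.End F (Fin k → F), (∀ m, IsC ω (x' m) ∨ IsN ω (x' m) ∨ x' m = 1) ∧
      pm' x' ∈ J2 hω M hsq i ∧ x' j ≠ 1 ∧ ((∀ m, x' m ≠ 1) ∨ d ≤ (Finset.univ.filter fun m => x' m ≠ 1).card) := by
    intro d
    induction d with
    | zero => exact ⟨x, hx, hxJ, hj, Or.inr (Nat.zero_le _)⟩
    | succ d ih =>
      obtain ⟨x', h1, h2, h3, h4⟩ := ih
      rcases h4 with h4 | h4
      · exact ⟨x', h1, h2, h3, Or.inl h4⟩
      by_cases h5 : ∀ m, x' m ≠ 1
      · exact ⟨x', h1, h2, h3, Or.inl h5⟩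
      push Not at h5
      obtain ⟨l, hl⟩ := h5
      obtain ⟨x'', g1, g2, g3, g4⟩ := enlarge2 hω hM hk i h1 h2 h3 hl
      refine ⟨x'', g1, g2, g4 j h3, Or.inr ?_⟩
      refine lt_of_le_of_lt h4 (Finset.card_lt_card ?_)
      rw [Finset.ssubset_iff_of_subset]
      · exact ⟨l, by simpa using g3, by simpa using hl⟩
      · intro m hm
        rw [Finset.mem_filter] at hm ⊢
        exact ⟨hm.1, g4 m hm.2⟩
  obtain ⟨x', h1, h2, h3, h4⟩ := key n
  refine ⟨x', fun m => ?_, h2⟩
  have h5 : x' m ≠ 1 := by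
    rcases h4 with h4 | h4
    · exact h4 m
    · have h6 : (Finset.univ.filter fun m => x' m ≠ 1) = Finset.univ := by
        apply Finset.eq_univ_of_card
        rw [Fintype.card_fin]
        refine le_antisymm ?_ h4
        calc _ ≤ (Finset.univ : Finset (Fin n)).card := Finset.card_le_card (Finset.filter_subset _ _)
          _ = n := by rw [Finset.card_univ, Fintype.card_fin]
      have h7 : m ∈ (Finset.univ.filter fun m => x' m ≠ 1) := by rw [h6]; exact Finset.mem_univ m
      exact (Finset.mem_filter.1 h7).2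
  rcases h1 m with h | h | h
  · exact Or.inl h
  · exact Or.inr h
  · exact absurd h h5

end Enl

end Cfsg.Agent.H889.C7
end

-- part: H889/C7/CaseOddB
section
/-!
Case II in odd characteristic, `k ≥ 4`: the long root element.
-/

set_option autoImplicit false
set_option linter.unusedSectionVars false
set_option linter.unusedVariables false
set_option linter.unusedSimpArgs false

namespace Cfsg.Agent.H889.C7

open Module Cfsg.Agent.H889

variable {F : Type*} [Field F] {k : ℕ} {ω : LinearMap.BilinForm F (Fin k → F)}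

theorem pm'_smul_all {n : ℕ} (c : Fin n → F) (x : Fin n → Module.End F (Fin k → F)) :
    pm' (fun m => c m • x m) = (∏ m, c m) • pm' x := by
  refine tp_ext fun xs => ?_
  rw [LinearMap.smul_apply, pm'_tp, pm'_tp]
  funext a
  rw [Pi.smul_apply, tp_apply, tp_apply, smul_eq_mul, ← Finset.prod_mul_distrib]
  exact Finset.prod_congr rfl fun i _ => rfl

/-- The difference of two rank one operators. -/
noncomputable def D2 (ω : LinearMap.BilinForm F (Fin k → F)) {n : ℕ} (p r : Fin n → (Fin k → F)) :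
    Module.End F (T F k n) :=
  pm' (fun m => rk ω (p m) (r m)) - pm' (fun m => rk ω (r m) (p m))

theorem slot_c (hω : Symp ω) {w : Fin k → F} (hw : w ≠ 0) :
    ∃ (α : (Module.End F (Fin k → F))ˣ) (w₂ : Fin k → F), IsoW ω α ∧ ω w w₂ = 1 ∧ (∀ c : F, w₂ ≠ c • w) ∧
      rk ω w w * (α.1 * rk ω w w * (α⁻¹).1) = rk ω w w₂ ∧
      (α.1 * rk ω w w * (α⁻¹).1) * rk ω w w = (-1 : F) • rk ω w₂ w := by
  obtain ⟨w₂, hw₂⟩ := hω.exists_pair hw
  have hw₂0 : w₂ ≠ 0 := by
    rintro rfl
    simp at hw₂
  have hw₂' : ω w₂ w = -1 := by rw [hω.skew, hw₂]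
  obtain ⟨α, hα, hαw⟩ := exists_iso_of_ne hω hw hw₂0
  refine ⟨α, w₂, hα, hw₂, ?_, ?_, ?_⟩
  · intro c hc
    rw [hc, map_smul, hω.alt, smul_zero] at hw₂
    exact zero_ne_one hw₂
  · rw [rk_conj hα, hαw, rk_mul_rk, hw₂, one_smul]
  · rw [rk_conj hα, hαw, rk_mul_rk, hw₂']

theorem slot_n (hω : Symp ω) {w w' : Fin k → F} (hww' : ω w w' = 0) (hw : w ≠ 0) (hw' : ∀ c : F, w' ≠ c • w) :
    ∃ (α : (Module.End F (Fin k → F))ˣ), IsoW ω α ∧
      (rk ω w w' - rk ω w' w) * (α.1 * (rk ω w w' - rk ω w' w) * (α⁻¹).1) = rk ω w w ∧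
      (α.1 * (rk ω w w' - rk ω w' w) * (α⁻¹).1) * (rk ω w w' - rk ω w' w) = (-1 : F) • rk ω w w := by
  obtain ⟨u', hu1, hu2⟩ := hω.exists_sep hw' trivial
  set u := -u' with hu
  have h1 : ω w' u = 1 := by rw [hu, map_neg, ← hω.skew, hu1]
  have h2 : ω w u = 0 := by rw [hu, map_neg, ← hω.skew, hu2]
  have h2' : ω u w = 0 := by rw [hω.skew, h2, neg_zero]
  have h3 : ω w' w = 0 := by rw [hω.skew, hww', neg_zero]
  have h4 : ω u w' = -1 := by rw [hω.skew, h1]
  have hu0 : u ≠ 0 := by
    intro h0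
    rw [h0, map_zero] at h1
    exact zero_ne_one h1
  obtain ⟨α, hα, hαw, hαw'⟩ := exists_iso_pair hω hww' hw hw' h2' hu0 (by
    intro c hc
    have h5 := h3
    rw [hc, map_smul, h1, smul_eq_mul, mul_one] at h5
    exact hw (by rw [hc, h5, zero_smul]))
  have e : α.1 * (rk ω w w' - rk ω w' w) * (α⁻¹).1 = rk ω u w - rk ω w u := by
    rw [mul_sub, sub_mul, rk_conj hα, rk_conj hα, hαw, hαw']
  refine ⟨α, hα, ?_, ?_⟩
  · rw [e]
    simp only [mul_sub, sub_mul, rk_mul_rk, h1, h2, h3, hω.alt, one_smul, zero_smul, sub_zero]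
  · rw [e]
    simp only [mul_sub, sub_mul, rk_mul_rk, hww', h2', h4, hω.alt, zero_smul, sub_zero, zero_sub, neg_zero]
    exact neg_neg _

/-- In dimension four the Jordan product of two opposite bivectors is `1`. -/
theorem slot_four (hω : Symp ω) (hk : k = 4) {w w' : Fin k → F} (hww' : ω w w' = 0) (hw : w ≠ 0)
    (hw' : ∀ c : F, w' ≠ c • w) :
    ∃ (α : (Module.End F (Fin k → F))ˣ), IsoW ω α ∧
      (rk ω w w' - rk ω w' w) * (α.1 * (rk ω w w' - rk ω w' w) * (α⁻¹).1) +
      (α.1 * (rk ω w w' - rk ω w' w) * (α⁻¹).1) * (rk ω w w' - rk ω w' w) = 1 := by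
  have hw'0 : w' ≠ 0 := by simpa using hw' 0
  have hw'' : ∀ c : F, w ≠ c • w' := by
    intro c hc
    have hc0 : c ≠ 0 := by
      rintro rfl
      rw [zero_smul] at hc
      exact hw hc
    exact hw' c⁻¹ (by rw [hc, smul_smul, inv_mul_cancel₀ hc0, one_smul])
  -- the dual basis
  obtain ⟨u₀, a1, a2⟩ := hω.exists_sep hw'' trivial
  obtain ⟨u₁, b1, b2⟩ := hω.exists_sep hw' trivial
  set u := -u₀ with hu
  have h1 : ω w u = 1 := by rw [hu, map_neg, ← hω.skew, a1]
  have h2 : ω w' u = 0 := by rw [hu, map_neg, ← hω.skew, a2]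
  have hu' : ω u w = -1 := by rw [hω.skew, h1]
  have h2' : ω u w' = 0 := by rw [hω.skew, h2, neg_zero]
  set v₁ := -u₁ with hv₁
  have h3 : ω w' v₁ = 1 := by rw [hv₁, map_neg, ← hω.skew, b1]
  have h4 : ω w v₁ = 0 := by rw [hv₁, map_neg, ← hω.skew, b2]
  -- make `u'` orthogonal to `u`
  set u' := v₁ + ω u v₁ • w with hu'd
  have h8 : ω w' w = 0 := by rw [hω.skew, hww', neg_zero]
  have h5 : ω w' u' = 1 := by
    rw [hu'd, map_add, h3, map_smul, h8, smul_zero, add_zero]
  have h6 : ω w u' = 0 := by rw [hu'd, map_add, h4, map_smul, hω.alt, smul_zero, add_zero]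
  have h7 : ω u u' = 0 := by
    rw [hu'd, map_add, map_smul, hu', smul_eq_mul, mul_neg, mul_one, add_neg_cancel]
  have h5' : ω u' w' = -1 := by rw [hω.skew, h5]
  have h6' : ω u' w = 0 := by rw [hω.skew, h6, neg_zero]
  have h7' : ω u' u = 0 := by rw [hω.skew, h7, neg_zero]
  have hu0 : u ≠ 0 := by
    intro h0
    rw [h0, map_zero] at h1
    exact zero_ne_one h1
  obtain ⟨α, hα, hαw, hαw'⟩ := exists_iso_pair hω hww' hw hw' h7 hu0 (by
    intro c hc
    have h9 := h5
    rw [hc, map_smul, h2, smul_zero] at h9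
    exact zero_ne_one h9)
  have e : α.1 * (rk ω w w' - rk ω w' w) * (α⁻¹).1 = rk ω u u' - rk ω u' u := by
    rw [mul_sub, sub_mul, rk_conj hα, rk_conj hα, hαw, hαw']
  refine ⟨α, hα, ?_⟩
  rw [e]
  -- the four functionals determine a vector
  let Φ : (Fin k → F) →ₗ[F] (Fin 4 → F) := LinearMap.pi ![ω w, ω w', ω u, ω u']
  have hΦ : ∀ v i, Φ v i = (![ω w, ω w', ω u, ω u'] i) v := fun v i => rfl
  have hsurj : Function.Surjective Φ := by
    intro c
    refine ⟨c 0 • u + c 1 • u' - c 2 • w - c 3 • w', ?_⟩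
    funext i
    rw [hΦ]
    fin_cases i
    · change ω w _ = c 0
      simp only [map_add, map_sub, map_smul, smul_eq_mul, h1, h6, hω.alt, hww']
      ring
    · change ω w' _ = c 1
      simp only [map_add, map_sub, map_smul, smul_eq_mul, h2, h5, hω.alt, h8]
      ring
    · change ω u _ = c 2
      simp only [map_add, map_sub, map_smul, smul_eq_mul, h7, hω.alt, hu', h2']
      ring
    · change ω u' _ = c 3
      simp only [map_add, map_sub, map_smul, smul_eq_mul, h7', hω.alt, h5', h6']
      ring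
  have hfin : finrank F (Fin k → F) = finrank F (Fin 4 → F) := by
    rw [Module.finrank_fin_fun, Module.finrank_fin_fun, hk]
  have hinj : Function.Injective Φ := (LinearMap.injective_iff_surjective_of_finrank_eq_finrank hfin).2 hsurj
  refine LinearMap.ext fun v => hinj ?_
  funext i
  rw [hΦ, hΦ, Module.End.one_apply, LinearMap.add_apply, Module.End.mul_apply, Module.End.mul_apply]
  simp only [LinearMap.sub_apply, rk_apply, map_sub, map_smul]
  simp only [h1, h2, h5, h6, h7, h5', h6', h7', h8, hu', h2', hww', hω.alt, smul_eq_mul, mul_zero, mul_one,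
    sub_zero, zero_sub, smul_zero, LinearMap.sub_apply, LinearMap.smul_apply, map_sub, map_smul, neg_smul, sub_self]
  fin_cases i
  · change _ = ω w v
    simp [h1, h2, h5, h6, h7, h5', h6', h7', h8, hu', h2', hww', hω.alt]
  · change _ = ω w' v
    simp [h1, h2, h5, h6, h7, h5', h6', h7', h8, hu', h2', hww', hω.alt]
  · change _ = ω u v
    simp [h1, h2, h5, h6, h7, h5', h6', h7', h8, hu', h2', hww', hω.alt]
  · change _ = ω u' v
    simp [h1, h2, h5, h6, h7, h5', h6', h7', h8, hu', h2', hww', hω.alt]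

section Fin

variable (hω : Symp ω) {n : ℕ} {M : Subgroup (Module.End F (T F k (n + 1)))ˣ}
  {hsq : ∀ c : F, ∃ d e, c = d * d + e * e}
include hω

theorem core2 (hM : SlotsM ω M) (i : Fin (n + 1)) {x : Fin n → Module.End F (Fin k → F)}
    (hxJ : pm' x ∈ J2 hω M hsq i) {j l : Fin n} (hjl : j ≠ l) (hl : x l = 1) (hxj : x j * x j = 0)
    (b : Fin k → F) (α : Fin n → (Module.End F (Fin k → F))ˣ) (hα : ∀ m, IsoW ω (α m)) :
    ∃ y : Fin n → Module.End F (Fin k → F), y j = rk ω b b ∧ y l = x j ∧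
      (∀ m, m ≠ j → m ≠ l → y m = (α m).1 * x m * ((α m)⁻¹).1) ∧
      pm' (fun m => x m * y m) - pm' (fun m => y m * x m) ∈ J2 hω M hsq i := by
  -- the three-cycle
  set j' := i.succAbove j with hj'
  set l' := i.succAbove l with hl'
  have hij : i ≠ j' := (Fin.succAbove_ne i j).symm
  have hil : i ≠ l' := (Fin.succAbove_ne i l).symm
  have hjl' : j' ≠ l' := fun h => hjl (Fin.succAbove_right_injective h)
  set ρ : Equiv.Perm (Fin (n + 1)) := Equiv.swap i j' * Equiv.swap j' l' with hρ
  have hsign : Equiv.Perm.sign ρ = 1 := by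
    rw [hρ, Equiv.Perm.sign_mul, Equiv.Perm.sign_swap hij, Equiv.Perm.sign_swap hjl']
    decide
  have hρs : ρ.symm = Equiv.swap j' l' * Equiv.swap i j' := by
    have : ρ⁻¹ = Equiv.swap j' l' * Equiv.swap i j' := by
      rw [hρ, mul_inv_rev, Equiv.swap_inv, Equiv.swap_inv]
    exact this
  -- the conjugate of `g_b`
  set x₀ : Fin n → Module.End F (Fin k → F) := Function.update (Function.update x j (rk ω b b)) l (x j) with hx₀
  obtain ⟨g₀, hg₀, e₀⟩ := hxJ b
  have hR0 : ∃ h ∈ M, h.1 = 1 + (DT hω i).map hω 1 (pm' x₀) := by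
    refine ⟨pU ρ * g₀ * (pU ρ)⁻¹, M.mul_mem (M.mul_mem (hM.al ρ hsign) hg₀) (M.inv_mem (hM.al ρ hsign)), ?_⟩
    have e1 : (pU ρ * g₀ * (pU ρ)⁻¹).1 = cj (pU ρ) g₀.1 := rfl
    have e2 : cj (pU ρ) (1 : Module.End F (T F k (n + 1))) = 1 := by
      rw [cj_eq_iff, mul_one, one_mul]
    rw [e1, e₀, map_add, e2, map_pm' hω, map_pm' hω, pm'_perm]
    congr 2
    funext m
    rw [hρs, Equiv.Perm.mul_apply]
    rcases Fin.eq_self_or_eq_succAbove i m with rfl | ⟨m', rfl⟩
    · rw [Equiv.swap_apply_left, Equiv.swap_apply_left, Fin.insertNth_apply_same, hl', Fin.insertNth_apply_succAbove, hl]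
    · rw [Fin.insertNth_apply_succAbove]
      by_cases h1 : m' = j
      · subst h1
        rw [Equiv.swap_apply_right, Equiv.swap_apply_of_ne_of_ne hij hil, Fin.insertNth_apply_same, hx₀,
          Function.update_of_ne hjl, Function.update_self]
      · by_cases h2 : m' = l
        · subst h2
          rw [Equiv.swap_apply_of_ne_of_ne (Ne.symm hil) (Ne.symm hjl'), Equiv.swap_apply_right, hj',
            Fin.insertNth_apply_succAbove, hx₀, Function.update_self]
        · have h3 : i.succAbove m' ≠ j' := fun h => h1 (Fin.succAbove_right_injective h)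
          have h4 : i.succAbove m' ≠ l' := fun h => h2 (Fin.succAbove_right_injective h)
          rw [Equiv.swap_apply_of_ne_of_ne (Fin.succAbove_ne i m') h3, Equiv.swap_apply_of_ne_of_ne h3 h4,
            Fin.insertNth_apply_succAbove, hx₀, Function.update_of_ne h2, Function.update_of_ne h1]
  -- conjugate the other slots
  set β : Fin n → (Module.End F (Fin k → F))ˣ := Function.update (Function.update α j 1) l 1 with hβ
  have hβiso : ∀ m, IsoW ω (β m) := by
    intro m
    rw [hβ]
    by_cases h2 : m = l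
    · rw [h2, Function.update_self]; exact IsoW.one
    · rw [Function.update_of_ne h2]
      by_cases h1 : m = j
      · rw [h1, Function.update_self]; exact IsoW.one
      · rw [Function.update_of_ne h1]; exact hα m
  set y : Fin n → Module.End F (Fin k → F) := fun m => (β m).1 * x₀ m * ((β m)⁻¹).1 with hy
  have hyR : ∃ h ∈ M, h.1 = 1 + (DT hω i).map hω 1 (pm' y) := by
    refine conj_all (ω := ω) {r | ∃ h ∈ M, h.1 = 1 + (DT hω i).map hω 1 r} ?_ x₀ hR0 β hβiso
    rintro m γ hγ s ⟨h, hh, e⟩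
    have hU := hM.sp (i.succAbove m) γ hγ
    refine ⟨sU (i.succAbove m) γ * h * (sU (i.succAbove m) γ)⁻¹, M.mul_mem (M.mul_mem hU hh) (M.inv_mem hU), ?_⟩
    rw [Units.val_mul, Units.val_mul, e, mul_add, add_mul, mul_one, ← Units.val_mul, mul_inv_cancel, Units.val_one]
    congr 1
    exact map_slot_conj hω i m γ _ _
  have hyj' : y j = rk ω b b := by
    rw [hy]
    simp only [hβ, hx₀, Function.update_of_ne hjl, Function.update_self, Units.val_one, inv_one, one_mul, mul_one]
  have hyl : y l = x j := by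
    rw [hy]
    simp only [hβ, hx₀, Function.update_self, Units.val_one, inv_one, one_mul, mul_one]
  have hym : ∀ m, m ≠ j → m ≠ l → y m = (α m).1 * x m * ((α m)⁻¹).1 := by
    intro m h1 h2
    rw [hy]
    simp only [hβ, hx₀, Function.update_of_ne h2, Function.update_of_ne h1]
  obtain ⟨h, hh, eh⟩ := hyR
  refine ⟨y, hyj', hyl, hym, ?_⟩
  -- the commutator
  set s := pm' (fun m => x m * y m) - pm' (fun m => y m * x m) with hs
  intro a
  obtain ⟨g, hg, e⟩ := hxJ a
  refine ⟨g * h * g⁻¹ * h⁻¹, M.mul_mem (M.mul_mem (M.mul_mem hg hh) (M.inv_mem hg)) (M.inv_mem hh), ?_⟩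
  have m1 : pm' y * pm' y = 0 := by
    rw [pm'_mul]
    exact pm'_eq_zero (j := j) (by rw [hyj', rk_sq hω])
  have m2 : pm' y * pm' x * pm' y = 0 := by
    rw [pm'_mul, pm'_mul]
    exact pm'_eq_zero (j := l) (by rw [hyl, hl, mul_one, hxj])
  rw [unit_comm_val e eh (by rw [TD.map_mul, rk_sq hω, map_zero_left'])
    (by rw [TD.map_mul, m1, map_zero_right'])
    (by rw [TD.map_mul, TD.map_mul, mul_one, rk_sq hω, map_zero_left'])
    (by rw [TD.map_mul, TD.map_mul, m2, map_zero_right']),
    TD.map_mul, TD.map_mul, mul_one, one_mul, pm'_mul, pm'_mul]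
  congr 1
  have : s = pm' (fun m => x m * y m) + (-1 : F) • pm' (fun m => y m * x m) := by
    rw [neg_one_smul_end, hs, sub_eq_add_neg]
  rw [this, TD.map_add_right, TD.map_smul_right, neg_one_smul_end, sub_eq_add_neg]

theorem D2_step (hM : SlotsM ω M) (i : Fin (n + 1)) {p r : Fin n → (Fin k → F)} (h : D2 ω p r ∈ J2 hω M hsq i)
    (m : Fin n) (hp : p m ≠ 0) (hr : ∀ c : F, r m ≠ c • p m) :
    D2 ω p (Function.update r m (p m)) ∈ J2 hω M hsq i := by
  obtain ⟨α, μ, hα, hμ, hαp, hαr⟩ := exists_shift hω hp hr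
  have h1 := J2_inv hω hM (hsq := hsq) i m α hα _ h
  have e1 : sE m α.1 * D2 ω p r * sE m (α⁻¹).1 =
      D2 ω p r + μ • D2 ω p (Function.update r m (p m)) := by
    rw [D2, mul_sub, sub_mul, pm'_conj, pm'_conj, rk_conj hα, rk_conj hα, hαp, hαr]
    have f1 : rk ω (p m) (r m + μ • p m) = rk ω (p m) (r m) + μ • rk ω (p m) (p m) := by
      refine LinearMap.ext fun v => ?_
      simp only [LinearMap.add_apply, LinearMap.smul_apply, rk_apply, map_add, map_smul, add_smul, smul_eq_mul,
        mul_smul]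
    have f2 : rk ω (r m + μ • p m) (p m) = rk ω (r m) (p m) + μ • rk ω (p m) (p m) := by
      refine LinearMap.ext fun v => ?_
      simp only [LinearMap.add_apply, LinearMap.smul_apply, rk_apply, smul_add]
      rw [smul_comm]
    rw [f1, f2, pm'_add, pm'_add, pm'_smul, pm'_smul]
    have g1 : Function.update (fun m => rk ω (p m) (r m)) m (rk ω (p m) (r m)) = fun m => rk ω (p m) (r m) :=
      Function.update_eq_self _ _
    have g2 : Function.update (fun m => rk ω (r m) (p m)) m (rk ω (r m) (p m)) = fun m => rk ω (r m) (p m) :=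
      Function.update_eq_self _ _
    have g3 : Function.update (fun m => rk ω (p m) (r m)) m (rk ω (p m) (p m)) =
        fun m' => rk ω (p m') (Function.update r m (p m) m') := by
      funext m'
      by_cases h' : m' = m
      · subst h'; rw [Function.update_self, Function.update_self]
      · rw [Function.update_of_ne h', Function.update_of_ne h']
    have g4 : Function.update (fun m => rk ω (r m) (p m)) m (rk ω (p m) (p m)) =
        fun m' => rk ω (Function.update r m (p m) m') (p m') := by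
      funext m'
      by_cases h' : m' = m
      · subst h'; rw [Function.update_self, Function.update_self]
      · rw [Function.update_of_ne h', Function.update_of_ne h']
    rw [g1, g2, g3, g4, D2, smul_sub]
    abel
  rw [e1] at h1
  have h3 := (J2 hω M hsq i).sub_mem h1 h
  rw [add_sub_cancel_left] at h3
  have h4 := (J2 hω M hsq i).smul_mem μ⁻¹ h3
  rwa [smul_smul, inv_mul_cancel₀ hμ, one_smul] at h4

theorem D2_one (hM : SlotsM ω M) (i : Fin (n + 1)) {p r : Fin n → (Fin k → F)} (h : D2 ω p r ∈ J2 hω M hsq i)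
    (hp : ∀ m, p m ≠ 0) (m₀ : Fin n) (hr : ∀ m, m ≠ m₀ → (∀ c : F, r m ≠ c • p m) ∨ r m = p m) :
    D2 ω p (Function.update p m₀ (r m₀)) ∈ J2 hω M hsq i := by
  classical
  have key : ∀ S : Finset (Fin n), m₀ ∉ S → D2 ω p (fun m => if m ∈ S then p m else r m) ∈ J2 hω M hsq i := by
    intro S
    induction S using Finset.induction_on with
    | empty => intro _; simpa using h
    | insert m S hm ih =>
      intro hS
      rw [Finset.mem_insert, not_or] at hS
      rcases hr m (Ne.symm hS.1) with h0 | h0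
      · have h1 := D2_step hω hM i (ih hS.2) m (hp m) (by rw [if_neg hm]; exact h0)
        convert h1 using 2
        funext m'
        by_cases h' : m' = m
        · subst h'
          rw [Function.update_self, if_pos (Finset.mem_insert_self _ _)]
        · rw [Function.update_of_ne h']
          simp only [Finset.mem_insert, h', false_or]
      · convert ih hS.2 using 2
        funext m'
        by_cases h' : m' = m
        · subst h'
          rw [if_pos (Finset.mem_insert_self _ _), if_neg hm, h0]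
        · simp only [Finset.mem_insert, h', false_or]
  have h1 := key (Finset.univ.erase m₀) (Finset.notMem_erase _ _)
  convert h1 using 2
  funext m
  by_cases h' : m = m₀
  · subst h'
    rw [Function.update_self, if_neg (Finset.notMem_erase _ _)]
  · rw [Function.update_of_ne h', if_pos (Finset.mem_erase.2 ⟨h', Finset.mem_univ _⟩)]

end Fin

theorem hasLong_of_D2 (hω : Symp ω) {n : ℕ} {M : Subgroup (Module.End F (T F k (n + 1)))ˣ}
    {hsq : ∀ c : F, ∃ d e, c = d * d + e * e} (hM : SlotsM ω M) (i : Fin (n + 1)) {p r : Fin n → (Fin k → F)}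
    (h : D2 ω p r ∈ J2 hω M hsq i)
    (hp : ∀ m, p m ≠ 0) (m₀ : Fin n) (hm₀ : ∀ c : F, r m₀ ≠ c • p m₀)
    (hr : ∀ m, m ≠ m₀ → (∀ c : F, r m ≠ c • p m) ∨ r m = p m) : HasLong ω M := by
  have h9 := D2_one hω hM i h hp m₀ hr
  obtain ⟨a, ha⟩ : ∃ a : Fin k → F, a ≠ 0 := ⟨p m₀, hp m₀⟩
  obtain ⟨g', hg', e'⟩ := h9 a
  refine ⟨i.insertNth a p, i.succAbove m₀, r m₀, ?_, ?_, g', hg', ?_⟩
  · intro m
    rcases Fin.eq_self_or_eq_succAbove i m with rfl | ⟨m', rfl⟩
    · rw [Fin.insertNth_apply_same]; exact ha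
    · rw [Fin.insertNth_apply_succAbove]; exact hp m'
  · intro c
    rw [Fin.insertNth_apply_succAbove]
    exact hm₀ c
  · have e1 : Function.update (i.insertNth a p : Fin (n + 1) → (Fin k → F)) (i.succAbove m₀) (r m₀) =
        (i.insertNth a (Function.update p m₀ (r m₀)) : Fin (n + 1) → (Fin k → F)) := update_insertNth_ne _ _ _ _ _
    have e2 : ∀ p q : Fin n → (Fin k → F), R1 ω (tp (i.insertNth a p : Fin (n + 1) → (Fin k → F)))
        (tp (i.insertNth a q : Fin (n + 1) → (Fin k → F))) =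
        (DT hω i).map hω (rk ω a a) (pm' fun m => rk ω (p m) (q m)) := by
      intro p q
      rw [map_pm' hω, ← pm'_rk]
      congr 1
      funext m
      rcases Fin.eq_self_or_eq_succAbove i m with rfl | ⟨m', rfl⟩
      · rw [Fin.insertNth_apply_same, Fin.insertNth_apply_same, Fin.insertNth_apply_same]
      · rw [Fin.insertNth_apply_succAbove, Fin.insertNth_apply_succAbove, Fin.insertNth_apply_succAbove]
    rw [e', e1, e2, e2, D2]
    congr 1
    have : pm' (fun m => rk ω (p m) (Function.update p m₀ (r m₀) m)) -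
        pm' (fun m => rk ω (Function.update p m₀ (r m₀) m) (p m)) =
        pm' (fun m => rk ω (p m) (Function.update p m₀ (r m₀) m)) +
        (-1 : F) • pm' (fun m => rk ω (Function.update p m₀ (r m₀) m) (p m)) := by
      rw [neg_one_smul_end, sub_eq_add_neg]
    rw [this, TD.map_add_right, TD.map_smul_right, neg_one_smul_end, sub_eq_add_neg]

/-- From a pure element of full support with a `c` slot, or in dimension at least six. -/
theorem hasLong_of_full (hω : Symp ω) {n : ℕ} (hn : Odd n) (hk : 4 ≤ k)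
    {M : Subgroup (Module.End F (T F k (n + 1)))ˣ}
    {hsq : ∀ c : F, ∃ d e, c = d * d + e * e} (hM : SlotsM ω M) (i : Fin (n + 1))
    {x : Fin n → Module.End F (Fin k → F)} (hx : ∀ m, IsC ω (x m) ∨ IsN ω (x m)) (hxJ : pm' x ∈ J2 hω M hsq i)
    (hc : (∃ m, IsC ω (x m)) ∨ 6 ≤ k) : HasLong ω M := by
  obtain ⟨α, p, r, hα, hp, h3, h4, m₀, hm₀, hr⟩ : ∃ (α : Fin n → (Module.End F (Fin k → F))ˣ)
      (p r : Fin n → (Fin k → F)), (∀ m, IsoW ω (α m)) ∧ (∀ m, p m ≠ 0) ∧
      (∀ m, x m * ((α m).1 * x m * ((α m)⁻¹).1) = rk ω (p m) (r m)) ∧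
      (∀ m, ((α m).1 * x m * ((α m)⁻¹).1) * x m = (-1 : F) • rk ω (r m) (p m)) ∧
      ∃ m₀, (∀ c : F, r m₀ ≠ c • p m₀) ∧ ∀ m, m ≠ m₀ → (∀ c : F, r m ≠ c • p m) ∨ r m = p m := by
    rcases hc with ⟨m₀, hm₀⟩ | hk6
    · have hpair : ∀ m, ∃ (α : (Module.End F (Fin k → F))ˣ) (p r : Fin k → F), IsoW ω α ∧ p ≠ 0 ∧
          x m * (α.1 * x m * (α⁻¹).1) = rk ω p r ∧ (α.1 * x m * (α⁻¹).1) * x m = (-1 : F) • rk ω r p ∧
          (IsC ω (x m) → ∀ c : F, r ≠ c • p) ∧ ((∀ c : F, r ≠ c • p) ∨ r = p) := by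
        intro m
        by_cases hcm : IsC ω (x m)
        · obtain ⟨w, hw, e⟩ := hcm
          obtain ⟨α, w₂, hα, h1, h2, h3, h4⟩ := slot_c hω hw
          exact ⟨α, w, w₂, hα, hw, by rw [e, h3], by rw [e, h4], fun _ => h2, Or.inl h2⟩
        · rcases hx m with h | ⟨w, w', hww', hw, hw', e⟩
          · exact absurd h hcm
          obtain ⟨α, hα, h3, h4⟩ := slot_n hω hww' hw hw'
          exact ⟨α, w, w, hα, hw, by rw [e, h3], by rw [e, h4], fun h => absurd h hcm, Or.inr rfl⟩
      choose α p r hα hp h3 h4 h5 h6 using hpair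
      exact ⟨α, p, r, hα, hp, h3, h4, m₀, h5 m₀ hm₀, fun m _ => h6 m⟩
    · have hpair := fun m => slot_jordan hω hk6 (hx m)
      choose α p r hα hp hr h3 h4 using hpair
      refine ⟨α, p, r, hα, hp, h3, fun m => by rw [neg_one_smul_end]; exact h4 m, ⟨0, hn.pos⟩, hr _,
        fun m _ => Or.inl (hr m)⟩
  refine hasLong_of_D2 (hsq := hsq) hω hM i (p := p) (r := r) ?_ hp m₀ hm₀ hr
  have hinv := J2_inv (hsq := hsq) hω hM i
  have h5 := conj_all (ω := ω) {s | s ∈ J2 hω M hsq i} (fun j α hα s hs => hinv j α hα s hs) x hxJ α hα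
  have h6 := J2_jordan hω hM hk i hxJ h5
  rw [pm'_mul, pm'_mul] at h6
  have e1 : (fun m => x m * ((α m).1 * x m * ((α m)⁻¹).1)) = fun m => rk ω (p m) (r m) := funext h3
  have e2 : (fun m => (α m).1 * x m * ((α m)⁻¹).1 * x m) = fun m => (-1 : F) • rk ω (r m) (p m) := funext h4
  rw [e1, e2, pm'_smul_all, Finset.prod_const, Finset.card_univ, Fintype.card_fin, hn.neg_one_pow,
    neg_one_smul_end, ← sub_eq_add_neg] at h6
  exact h6

/-- **Case II, odd characteristic, `k ≥ 4`.** -/
theorem hasLong_of_caseII_odd (hω : Symp ω) (hsq : ∀ c : F, ∃ d e, c = d * d + e * e) (hk : 4 ≤ k)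
    (hke : Even k) {n : ℕ} (hn : Even n)
    {M : Subgroup (Module.End F (T F k (n + 2)))ˣ} (hM : SlotsM ω M) {i : Fin (n + 2)} {a : Fin k → F}
    (ha : a ≠ 0) {s : Module.End F (T F k (n + 1))} {g : (Module.End F (T F k (n + 2)))ˣ} (hg : g ∈ M)
    (e : g.1 = 1 + (DT hω i).cs a s) (hs : ¬ ∃ τ : F, s = τ • 1) : HasLong ω M := by
  have hn1 : Odd (n + 1) := hn.add_one
  have hsJ : s ∈ J2 hω M hsq i := by
    refine mem_J2_of hω hM ha hg ?_
    rw [e, TD.cs_eq_el, TD.el_eq_map _ hω]
  obtain ⟨m, e₁, he₁, he₁0, hI⟩ := exists_ImP hω (by omega) (J2_inv hω hM i) hsJ hs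
  obtain ⟨x, h3, h4, h5⟩ := extract hω (by omega) (n + 1) (J2 hω M hsq i) (J2_inv hω hM i) e₁ he₁ he₁0
  obtain ⟨x', h6, h7⟩ := full_supp2 hω hM (by omega) i h3 h5 (h4 m hI)
  by_cases hc : (∃ m, IsC ω (x' m)) ∨ 6 ≤ k
  · exact hasLong_of_full hω hn1 hk hM i h6 h7 hc
  push Not at hc
  obtain ⟨hc, hk6⟩ := hc
  have hk4 : k = 4 := by
    obtain ⟨r, hr⟩ := hke
    omega
  have hN : ∀ m, IsN ω (x' m) := fun m => (h6 m).resolve_left (hc m)
  choose w w' hww' hw hw' hx' using hN
  rcases Nat.eq_zero_or_pos n with rfl | hn0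
  · -- one slot
    refine hasLong_of_D2 (hsq := hsq) hω hM i (p := w) (r := w') ?_ hw 0 (hw' 0) (fun m hm => absurd (Subsingleton.elim m 0) hm)
    convert h7 using 1
    rw [D2]
    refine tp_ext fun xs => ?_
    rw [LinearMap.sub_apply, pm'_tp, pm'_tp, pm'_tp]
    funext b
    rw [Pi.sub_apply, tp_apply, tp_apply, tp_apply, Fin.prod_univ_succ, Fin.prod_univ_succ, Fin.prod_univ_succ,
      Fin.prod_univ_zero, Fin.prod_univ_zero, Fin.prod_univ_zero, mul_one, mul_one, mul_one, hx', LinearMap.sub_apply,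
      Pi.sub_apply]
  · -- at least three slots
    have h01 : (0 : Fin (n + 1)) ≠ Fin.last n := by
      intro h
      have := congrArg Fin.val h
      simp at this
      omega
    -- step 1: `c, …, c, 1`
    have hpair := fun m => slot_n hω (hww' m) (hw m) (hw' m)
    choose α hα h8 h9 using hpair
    obtain ⟨α₀, hα₀, h10⟩ := slot_four hω hk4 (hww' (Fin.last n)) (hw (Fin.last n)) (hw' (Fin.last n))
    set β : Fin (n + 1) → (Module.End F (Fin k → F))ˣ := Function.update α (Fin.last n) α₀ with hβ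
    have hβiso : ∀ m, IsoW ω (β m) := by
      intro m
      rw [hβ]
      by_cases h : m = Fin.last n
      · rw [h, Function.update_self]; exact hα₀
      · rw [Function.update_of_ne h]; exact hα m
    have hinv := J2_inv (hsq := hsq) hω hM i
    have h11 := conj_all (ω := ω) {s | s ∈ J2 hω M hsq i} (fun j α hα s hs => hinv j α hα s hs) x' h7 β hβiso
    have h12 := J2_jordan hω hM hk i h7 h11
    rw [pm'_mul, pm'_mul] at h12
    set x₁ : Fin (n + 1) → Module.End F (Fin k → F) :=
      Function.update (fun m => rk ω (w m) (w m)) (Fin.last n) 1 with hx₁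
    have h13 : pm' x₁ ∈ J2 hω M hsq i := by
      convert h12 using 1
      set A := x' (Fin.last n) * (α₀.1 * x' (Fin.last n) * (α₀⁻¹).1) with hA
      set B := (α₀.1 * x' (Fin.last n) * (α₀⁻¹).1) * x' (Fin.last n) with hB
      have hAB : A + B = 1 := by rw [hA, hB, hx', h10]
      have f1 : (fun m => x' m * ((β m).1 * x' m * ((β m)⁻¹).1)) =
          Function.update (fun m => rk ω (w m) (w m)) (Fin.last n) A := by
        funext m
        by_cases h : m = Fin.last n
        · rw [h, hβ, Function.update_self, Function.update_self]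
        · rw [hβ, Function.update_of_ne h, Function.update_of_ne h, hx', h8]
      have f2 : (fun m => ((β m).1 * x' m * ((β m)⁻¹).1) * x' m) =
          fun m => (Function.update (fun _ => (-1 : F)) (Fin.last n) 1 m) •
            Function.update (fun m => rk ω (w m) (w m)) (Fin.last n) B m := by
        funext m
        by_cases h : m = Fin.last n
        · rw [h, hβ, Function.update_self, Function.update_self, Function.update_self, one_smul]
        · rw [hβ, Function.update_of_ne h, Function.update_of_ne h, Function.update_of_ne h, hx', h9]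
      have f3 : ∏ m, Function.update (fun _ : Fin (n + 1) => (-1 : F)) (Fin.last n) 1 m = 1 := by
        rw [Finset.prod_update_of_mem (Finset.mem_univ _), one_mul, Finset.prod_const,
          Finset.card_sdiff_of_subset (Finset.subset_univ _), Finset.card_univ, Fintype.card_fin,
          Finset.card_singleton, Nat.add_sub_cancel, hn.neg_one_pow]
      rw [f1, f2, pm'_smul_all, f3, one_smul, ← pm'_add, hAB]
    -- step 2
    have hx₁j : x₁ 0 = rk ω (w 0) (w 0) := by rw [hx₁, Function.update_of_ne h01]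
    have hx₁l : x₁ (Fin.last n) = 1 := by rw [hx₁, Function.update_self]
    obtain ⟨b, hb⟩ := hω.exists_pair (hw 0)
    have hb' : ω b (w 0) = -1 := by rw [hω.skew, hb]
    have hpair := fun m => slot_c hω (hw m)
    choose γ w₂ hγ g1 g2 g3 g4 using hpair
    obtain ⟨y, hy1, hy2, hy3, hy4⟩ := core2 hω hM i h13 h01 hx₁l (by rw [hx₁j, rk_sq hω]) b γ hγ
    -- the data
    set r : Fin (n + 1) → (Fin k → F) := Function.update (Function.update w₂ 0 b) (Fin.last n) (w 0) with hr
    set p : Fin (n + 1) → (Fin k → F) := Function.update w (Fin.last n) (w 0) with hp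
    have hp0 : p 0 = w 0 := by rw [hp, Function.update_of_ne h01]
    have hr0 : r 0 = b := by rw [hr, Function.update_of_ne h01, Function.update_self]
    have q1 : (fun m => x₁ m * y m) = fun m => rk ω (p m) (r m) := by
      funext m
      by_cases h : m = Fin.last n
      · rw [h, hx₁l, hy2, one_mul, hx₁j, hp, hr, Function.update_self, Function.update_self]
      · by_cases h' : m = 0
        · rw [h', hx₁j, hy1, hp0, hr0, rk_mul_rk, hb, one_smul]
        · rw [hy3 m h' h, hx₁, Function.update_of_ne h, g3, hp, hr, Function.update_of_ne h,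
            Function.update_of_ne h, Function.update_of_ne h']
    have q2 : (fun m => y m * x₁ m) = fun m => (Function.update (fun _ => (-1 : F)) (Fin.last n) 1 m) •
        rk ω (r m) (p m) := by
      funext m
      by_cases h : m = Fin.last n
      · rw [h, hx₁l, hy2, mul_one, hx₁j, hp, hr, Function.update_self, Function.update_self, Function.update_self,
          one_smul]
      · by_cases h' : m = 0
        · rw [h', hx₁j, hy1, hp0, hr0, rk_mul_rk, hb', Function.update_of_ne h01]
        · rw [hy3 m h' h, hx₁, Function.update_of_ne h, g4, hp, hr, Function.update_of_ne h,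
            Function.update_of_ne h, Function.update_of_ne h, Function.update_of_ne h']
    have f3 : ∏ m, Function.update (fun _ : Fin (n + 1) => (-1 : F)) (Fin.last n) 1 m = 1 := by
      rw [Finset.prod_update_of_mem (Finset.mem_univ _), one_mul, Finset.prod_const,
        Finset.card_sdiff_of_subset (Finset.subset_univ _), Finset.card_univ, Fintype.card_fin,
        Finset.card_singleton, Nat.add_sub_cancel, hn.neg_one_pow]
    rw [q1, q2, pm'_smul_all, f3, one_smul] at hy4
    refine hasLong_of_D2 (hsq := hsq) hω hM i (p := p) (r := r) hy4 ?_ 0 ?_ ?_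
    · intro m
      by_cases h : m = Fin.last n
      · rw [h, hp, Function.update_self]; exact hw 0
      · rw [hp, Function.update_of_ne h]; exact hw m
    · rw [hp0, hr0]
      intro c hc
      rw [hc, map_smul, hω.alt, smul_zero] at hb
      exact zero_ne_one hb
    · intro m hm
      by_cases h : m = Fin.last n
      · right
        rw [h, hp, hr, Function.update_self, Function.update_self]
      · left
        rw [hp, hr, Function.update_of_ne h, Function.update_of_ne h, Function.update_of_ne hm]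
        exact g2 m

end Cfsg.Agent.H889.C7
end

-- part: H889/C7/Final
section
/-!
Assembly: maximality of the tensor wreath subgroup in standard coordinates.
-/

set_option autoImplicit false
set_option linter.unusedSectionVars false
set_option linter.unusedVariables false
set_option linter.unusedSimpArgs false

namespace Cfsg.Agent.H889.C7

open Module Cfsg.Agent.H889 QuadraticMap Cfsg.Geo
open Cfsg.Agent.LieClassical.OrthCore Cfsg.Agent.LieClassical.OrthTrans Cfsg.Agent.LieClassical.OrthFinite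
open scoped MatrixGroups Matrix

variable {F : Type*} [Field F] {k : ℕ} {ω : LinearMap.BilinForm F (Fin k → F)}

/-- `GL` as units of the endomorphism ring. -/
noncomputable def Φ (F : Type*) [Field F] (k n : ℕ) :
    Matrix.GeneralLinearGroup (Fin n → Fin k) F ≃* (Module.End F (T F k n))ˣ :=
  (glEquiv (Fin n → Fin k) F).trans (Θ F (T F k n)).symm

theorem Φ_apply {n : ℕ} (g : Matrix.GeneralLinearGroup (Fin n → Fin k) F) (v : T F k n) :
    (Φ F k n g).1 v = g.val *ᵥ v := rfl

theorem Φ_symm_mulVec {n : ℕ} (u : (Module.End F (T F k n))ˣ) (v : T F k n) :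
    ((Φ F k n).symm u).val *ᵥ v = u.1 v := by
  rw [← Φ_apply, MulEquiv.apply_symm_apply]

theorem Θ_Φ {n : ℕ} (g : Matrix.GeneralLinearGroup (Fin n → Fin k) F) :
    Θ F (T F k n) (Φ F k n g) = glEquiv (Fin n → Fin k) F g := rfl

/-- Slot elements are in the tensor wreath group. -/
theorem sU_mem_wreath {n : ℕ} (i : Fin n) (α : (Module.End F (Fin k → F))ˣ) :
    (Φ F k n).symm (sU i α) ∈ tensorWreathStandard k n F := by
  classical
  let A : Matrix.GeneralLinearGroup (Fin k) F := (glEquiv (Fin k) F).symm (Θ F (Fin k → F) α)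
  have hA : ∀ v, A.val *ᵥ v = α.1 v := by
    intro v
    have h1 : glEquiv (Fin k) F A v = Θ F (Fin k → F) α v := by
      rw [show A = (glEquiv (Fin k) F).symm (Θ F (Fin k → F) α) from rfl, MulEquiv.apply_symm_apply]
    exact h1
  have e : (Φ F k n).symm (sU i α) = pmGL (Function.update (fun _ => 1) i A) := by
    apply Units.ext
    refine matrix_ext_tp fun xs => ?_
    rw [Φ_symm_mulVec, coe_pmGL, pm_mulVec]
    change sE i α.1 (tp xs) = _
    rw [sE_tp]
    congr 1
    funext j
    by_cases h : j = i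
    · subst h
      rw [Function.update_self, Function.update_self, hA]
    · rw [Function.update_of_ne h, Function.update_of_ne h, Units.val_one, Matrix.one_mulVec]
  rw [e]
  exact pmGL_mem _

theorem pU_mem_wreath {n : ℕ} (π : Equiv.Perm (Fin n)) :
    (Φ F k n).symm (pU π) ∈ tensorWreathStandard k n F := by
  obtain ⟨g, hg, h⟩ := H874.exists_perm_mem (F := F) (k := k) π.symm
  have e : (Φ F k n).symm (pU π) = g := by
    apply Units.ext
    refine matrix_ext_tp fun xs => ?_
    rw [Φ_symm_mulVec, h]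
    exact pE_tp π xs
  rw [e]; exact hg

theorem two_common (hω : Symp ω) (u v : Fin k → F) (hu : u ≠ 0) (hv : v ≠ 0) : ∃ x, ω u x ≠ 0 ∧ ω v x ≠ 0 := by
  obtain ⟨z, h1, h2⟩ := exists_mid hω hu hv
  exact ⟨z, h1, by rw [hω.skew]; exact neg_ne_zero.2 h2⟩

/-- Recognition in terms of `Φ`. -/
theorem mem_wreath_of_roots (hω : Symp ω) (hk : 0 < k) {n : ℕ} (hn : 0 < n)
    (g : Matrix.GeneralLinearGroup (Fin n → Fin k) F)
    (h : ∀ (i : Fin n) (w : Fin k → F), w ≠ 0 → ∃ (j : Fin n) (u : Fin k → F) (c : F),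
      cj (Φ F k n g) (sE i (rk ω w w)) = c • sE j (rk ω u u)) : g ∈ tensorWreathStandard k n F := by
  have : NeZero k := ⟨hk.ne'⟩
  refine H874.recog_mem (ω := ω) hω.alt hω.nd (fun u v hu hv => two_common hω u v hu hv) hn g fun i w hw => ?_
  obtain ⟨j, u, c, e⟩ := h i w hw
  refine ⟨j, u, c, matrix_ext_tp fun xs => ?_⟩
  have hs : ∀ (j : Fin n) (u : Fin k → F) (v : T F k n), slot j (H874.eM ω u u) *ᵥ v = sE j (rk ω u u) v := by
    intro j u v
    rw [sE, Matrix.toLin'_apply]
    congr 2
    apply H874.mat_ext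
    intro x
    rw [H874.eM_mulVec, ← Matrix.toLin'_apply, Matrix.toLin'_toMatrix', rk_apply]
  have h1 := LinearMap.congr_fun e (tp xs)
  rw [Matrix.smul_mulVec, hs, ← Matrix.mulVec_mulVec, ← Matrix.mulVec_mulVec, hs, ← LinearMap.smul_apply, ← h1]
  rw [cj_apply, Module.End.mul_apply, Module.End.mul_apply, Φ_apply, ← map_inv, Φ_apply]

/-- The tensor power structure forces a proper subgroup. -/
theorem proper_std (hω : Symp ω) {n : ℕ} {c₀ : F} {Q : QuadraticForm F (T F k (n + 2))} (hQ : QForm hω Q c₀)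
    (hG : Good Q) (hk4 : 4 ≤ k ∨ 1 ≤ n) (hk : 0 < k) :
    ∃ g : Matrix.GeneralLinearGroup (Fin (n + 2) → Fin k) F, g ∈ omegaGL (⇑Q) ∧
      g ∉ tensorWreathStandard k (n + 2) F := by
  classical
  -- vectors
  obtain ⟨a, ha⟩ := exists_ne_vec (F := F) (k := k) hk
  obtain ⟨b, hb0, hb, hab⟩ : ∃ b : Fin k → F, b ≠ 0 ∧ (∀ c : F, b ≠ c • a) ∧ (ω a b = 0 ∨ 1 ≤ n) := by
    rcases hk4 with hk4 | hn
    · obtain ⟨b, h1, h2⟩ := exists_perp_avoid hω ![a] a (by omega)
      have h3 := h1 0
      simp only [Matrix.cons_val_zero, Matrix.cons_val_fin_one] at h3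
      exact ⟨b, fun h => h2 0 (by rw [h, zero_smul]), h2, Or.inl h3⟩
    · obtain ⟨b, hb⟩ := hω.exists_pair ha
      refine ⟨b, ?_, ?_, Or.inr hn⟩
      · rintro rfl
        simp at hb
      · intro c hc
        rw [hc, map_smul, hω.alt, smul_zero] at hb
        exact zero_ne_one hb
  have ha' : ∀ c : F, a ≠ c • b := by
    intro c hc
    have hc0 : c ≠ 0 := by
      rintro rfl
      rw [zero_smul] at hc
      exact ha hc
    exact hb c⁻¹ (by rw [hc, smul_smul, inv_mul_cancel₀ hc0, one_smul])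
  obtain ⟨φa, h1, h2⟩ := hω.exists_sep ha' trivial
  obtain ⟨φb, h3, h4⟩ := hω.exists_sep hb trivial
  -- the slots `0`, `1`
  have h01 : (0 : Fin (n + 2)) ≠ 1 := by simp
  -- pure vectors
  set X : Fin (n + 2) → (Fin k → F) := fun _ => a with hX
  set Y : Fin (n + 2) → (Fin k → F) := fun m => if m = 0 ∨ m = 1 then b else a with hY
  set U : Fin (n + 2) → (Fin k → F) := fun _ => φa with hU
  have e1 : fT ω (n + 2) (tp U) (tp X) = 1 := by
    rw [fT_tp]
    exact Finset.prod_eq_one fun m _ => h1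
  have e2 : fT ω (n + 2) (tp U) (tp Y) = 0 := by
    rw [fT_tp]
    refine Finset.prod_eq_zero (Finset.mem_univ 0) ?_
    rw [hU, hY]
    simp only [true_or, if_true]
    exact h2
  have e3 : fT ω (n + 2) (tp X) (tp Y) = 0 := by
    rw [fT_tp]
    rcases hab with h | h
    · refine Finset.prod_eq_zero (Finset.mem_univ 0) ?_
      rw [hX, hY]
      simp only [true_or, if_true]
      exact h
    · refine Finset.prod_eq_zero (Finset.mem_univ (Fin.last (n + 1))) ?_
      have hl0 : Fin.last (n + 1) ≠ 0 := by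
        intro h'
        have := congrArg Fin.val h'
        simp at this
      have hl1 : Fin.last (n + 1) ≠ 1 := by
        intro h'
        have := congrArg Fin.val h'
        simp at this
        omega
      rw [hX, hY]
      simp only [hl0, hl1, or_false, if_false]
      exact hω.alt a
  -- the root element
  have hu : Q (tp U) = 0 := hQ.pure _
  have hv : Q (c₀⁻¹ • tp Y) = 0 := by rw [QuadraticMap.map_smul, hQ.pure, smul_zero]
  have huv : QuadraticMap.polar Q (tp U) (c₀⁻¹ • tp Y) = 0 := by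
    rw [hQ.polar, map_smul, e2, smul_zero, mul_zero]
  refine ⟨(glEquiv _ F).symm (siegel Q _ _ hu huv), ?_, ?_⟩
  · rw [Cfsg.Agent.H883.Bridge.mem_omegaGL_iff hG, MulEquiv.apply_symm_apply]
    exact siegel_mem_E hu huv
  · intro hmem
    obtain ⟨gs, σ, hmon⟩ := exists_isMonomialOn hmem
    have h5 := hmon X
    have h6 : ((glEquiv (Fin (n + 2) → Fin k) F).symm (siegel Q _ _ hu huv)).val *ᵥ tp X = tp X + tp Y := by
      have : ((glEquiv (Fin (n + 2) → Fin k) F).symm (siegel Q _ _ hu huv)).val *ᵥ tp X =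
          siegel Q _ _ hu huv (tp X) := by
        rw [← glEquiv_apply, MulEquiv.apply_symm_apply]
      rw [this, siegel_apply, hQ.polar, hQ.polar, e1, hv, zero_mul, zero_smul, sub_zero, mul_one, smul_smul,
        mul_inv_cancel₀ hQ.ne, one_smul]
      have e4 : fT ω (n + 2) (c₀⁻¹ • tp Y) (tp X) = 0 := by
        rw [map_smul, LinearMap.smul_apply, fT_symm hω, e3, mul_zero, smul_zero]
      rw [e4, mul_zero, zero_smul, sub_zero]
    rw [h6] at h5
    set ys := fun i => (gs i).val *ᵥ X (σ i) with hys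
    have h5' : ∃ zs : Fin (n + 2) → (Fin k → F), tp X + tp Y = tp zs := ⟨_, h5⟩
    obtain ⟨zs, hzs⟩ := h5'
    -- contractions
    let S : (Fin k → F) → (Fin k → F) → (Fin (n + 2) → (Fin k → F)) := fun s s' =>
      Function.update (Function.update (fun _ => φa) 0 s) 1 s'
    have hS0 : ∀ s s', S s s' 0 = s := fun s s' => by
      change Function.update (Function.update (fun _ => φa) 0 s) 1 s' 0 = s
      rw [Function.update_of_ne h01, Function.update_self]
    have hS1 : ∀ s s', S s s' 1 = s' := fun s s' => by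
      change Function.update (Function.update (fun _ => φa) 0 s) 1 s' 1 = s'
      rw [Function.update_self]
    have hSm : ∀ s s' m, m ≠ 0 → m ≠ 1 → S s s' m = φa := fun s s' m h h' => by
      change Function.update (Function.update (fun _ => φa) 0 s) 1 s' m = φa
      rw [Function.update_of_ne h', Function.update_of_ne h]
    have hprod : ∀ s s' (Z : Fin (n + 2) → (Fin k → F)), fT ω (n + 2) (tp (S s s')) (tp Z) =
        ω s (Z 0) * ω s' (Z 1) * ∏ m : Fin n, ω φa (Z m.succ.succ) := by
      intro s s' Z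
      rw [fT_tp, Fin.prod_univ_succ, Fin.prod_univ_succ]
      have g1 : (Fin.succ 0 : Fin (n + 2)) = 1 := rfl
      have g2 : ∏ m : Fin n, ω (S s s' m.succ.succ) (Z m.succ.succ) = ∏ m : Fin n, ω φa (Z m.succ.succ) := by
        refine Finset.prod_congr rfl fun m _ => ?_
        rw [hSm]
        · exact Fin.succ_ne_zero _
        · intro h
          have := congrArg Fin.val h
          simp at this
      rw [g1, hS0, hS1, g2, mul_assoc]
    have hXY : ∀ s s', fT ω (n + 2) (tp (S s s')) (tp X + tp Y) = ω s a * ω s' a + ω s b * ω s' b := by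
      intro s s'
      rw [map_add, hprod, hprod]
      have g2 : ∀ m : Fin n, Y m.succ.succ = a := by
        intro m
        rw [hY]
        have g3 : ¬ (m.succ.succ = 0 ∨ m.succ.succ = (1 : Fin (n + 2))) := by
          rintro (h | h)
          · exact Fin.succ_ne_zero _ h
          · have := congrArg Fin.val h
            simp at this
        simp only [if_neg g3]
      have g4 : Y 0 = b := by rw [hY]; simp
      have g5 : Y 1 = b := by rw [hY]; simp
      simp only [g2, g4, g5, hX, h1, Finset.prod_const_one, mul_one]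
    have k1 := hXY φa φa
    have k2 := hXY φb φb
    have k3 := hXY φa φb
    rw [hzs, hprod] at k1 k2 k3
    rw [h1, h2, mul_one, mul_zero, add_zero] at k1
    rw [h3, h4, mul_one, mul_zero, zero_add] at k2
    rw [h1, h2, h4, mul_zero, zero_mul, add_zero] at k3
    set p := ∏ m : Fin n, ω φa (zs m.succ.succ)
    have k4 : (ω φa (zs 0) * ω φb (zs 1) * p) * (ω φb (zs 0) * ω φa (zs 1) * p) =
        (ω φa (zs 0) * ω φa (zs 1) * p) * (ω φb (zs 0) * ω φb (zs 1) * p) := by ring
    rw [k3, k1, k2, zero_mul, mul_one] at k4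
    exact zero_ne_one k4

/-- **Maximality in standard coordinates**, given the generation lemma and the case `k = 2`. -/
theorem maximal_std [Fintype F] (hω : Symp ω) {n : ℕ} {c₀ : F} {Q : QuadraticForm F (T F k (n + 2))}
    (hQ : QForm hω Q c₀) (hG : Good Q) (hK : KOK F k) (hke : Even k) (hk4 : 4 ≤ k ∨ 2 ≤ n)
    (hodd : (2 : F) ≠ 0 → Even n)
    (hgen : ∀ M' : Subgroup (Module.End F (T F k (n + 2)))ˣ, SlotsM ω M' → HasLong ω M' →
      E Q ≤ M'.map (LinearMap.GeneralLinearGroup.generalLinearEquiv F (T F k (n + 2))).toMonoidHom)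
    (htwo : k = 2 → (2 : F) ≠ 0 → ∀ M' : Subgroup (Module.End F (T F k (n + 2)))ˣ, SlotsM ω M' →
      (∀ g ∈ M', ∀ v w, fT ω (n + 2) (g.1 v) (g.1 w) = fT ω (n + 2) v w) →
      (∀ i : Fin (n + 2), ∀ a, a ≠ 0 → ∀ s : Module.End F (T F k (n + 1)), ∀ g ∈ M',
        g.1 = 1 + (DT hω i).cs a s → ∃ τ : F, s = τ • 1) ∨ HasLong ω M') :
    IsMaximalIn (omegaGL (⇑Q)) (tensorWreathStandard k (n + 2) F ⊓ omegaGL (⇑Q)) := by
  have hk0 := hK.pos
  have hn1 : Odd (n + 1) ∨ (2 : F) = 0 ∧ 0 < n + 1 := by
    by_cases h2 : (2 : F) = 0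
    · exact Or.inr ⟨h2, Nat.succ_pos n⟩
    · exact Or.inl (hodd h2).add_one
  refine ⟨?_, ?_⟩
  · obtain ⟨g, hg, hgW⟩ := proper_std hω hQ hG (by omega) hk0
    refine lt_of_le_of_ne inf_le_right fun h => hgW ?_
    rw [← h] at hg
    exact hg.1
  intro M hM1 hM2
  set M' : Subgroup (Module.End F (T F k (n + 2)))ˣ := M.map (Φ F k (n + 2)).toMonoidHom with hM'
  have hmem : ∀ u : (Module.End F (T F k (n + 2)))ˣ, Θ F _ u ∈ E Q →
      (Φ F k (n + 2)).symm u ∈ tensorWreathStandard k (n + 2) F → u ∈ M' := by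
    intro u h1 h2
    refine ⟨(Φ F k (n + 2)).symm u, hM1 ⟨h2, ?_⟩, (Φ F k (n + 2)).apply_symm_apply u⟩
    change (Φ F k (n + 2)).symm u ∈ omegaGL (⇑Q)
    rw [Cfsg.Agent.H883.Bridge.mem_omegaGL_iff hG, ← Θ_Φ, MulEquiv.apply_symm_apply]
    exact h1
  have hS : SlotsM ω M' := by
    constructor
    · intro i α hα
      exact hmem _ (hQ.sU_mem_E hn1 i hα) (sU_mem_wreath i α)
    · intro π hπ
      exact hmem _ (hQ.pU_mem_E hG hπ) (pU_mem_wreath π)
  have hiso : ∀ g ∈ M', ∀ v w, fT ω (n + 2) (g.1 v) (g.1 w) = fT ω (n + 2) v w := by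
    rintro _ ⟨g, hg, rfl⟩ v w
    have h1 : glEquiv _ F g ∈ O Q := E_le_O ((Cfsg.Agent.H883.Bridge.mem_omegaGL_iff hG g).1 (hM2 hg))
    have h2 : QuadraticMap.polar Q (g.val *ᵥ v) (g.val *ᵥ w) = QuadraticMap.polar Q v w := polar_map h1 v w
    rw [hQ.polar, hQ.polar] at h2
    exact mul_left_cancel₀ hQ.ne h2
  have hdich : (∀ i : Fin (n + 2), ∀ a, a ≠ 0 → ∀ s : Module.End F (T F k (n + 1)), ∀ g ∈ M',
        g.1 = 1 + (DT hω i).cs a s → ∃ τ : F, s = τ • 1) ∨ HasLong ω M' := by
    by_cases hI : ∀ i : Fin (n + 2), ∀ a, a ≠ 0 → ∀ s : Module.End F (T F k (n + 1)), ∀ g ∈ M',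
        g.1 = 1 + (DT hω i).cs a s → ∃ τ : F, s = τ • 1
    · exact Or.inl hI
    push Not at hI
    obtain ⟨i, a, ha, s, g, hg, e, hs⟩ := hI
    have hs' : ¬ ∃ τ : F, s = τ • 1 := fun ⟨τ, hτ⟩ => hs τ hτ
    by_cases h2 : (2 : F) = 0
    · right
      have hk6 : 6 ≤ k := by
        rcases hK with ⟨_, h, _⟩ | ⟨_, h⟩ | h
        · exact absurd h2 h
        · exact absurd h2 h
        · exact h
      have hsq : ∀ c : F, ∃ d, c = d * d := by
        intro c
        have hchar : CharP F 2 := by
          have := CharTwo.of_one_ne_zero_of_two_eq_zero (one_ne_zero (α := F)) h2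
          exact this
        obtain ⟨d, hd⟩ := FiniteField.isSquare_of_char_two (F := F) (ringChar.eq F 2) c
        exact ⟨d, hd⟩
      exact hasLong_of_caseII hω h2 hsq hk6 hS ha hg e hs'
    · by_cases hk2 : k = 2
      · exact htwo hk2 h2 M' hS hiso
      · right
        have hk4' : 4 ≤ k := by
          obtain ⟨r, hr⟩ := hke
          omega
        have hsq : ∀ c : F, ∃ d e, c = d * d + e * e := by
          intro c
          obtain ⟨a, b, hab⟩ := FiniteField.exists_root_sum_quadratic (R := F) (f := Polynomial.X ^ 2)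
            (g := Polynomial.X ^ 2 - Polynomial.C c)
            (Polynomial.degree_X_pow 2) (by rw [Polynomial.degree_X_pow_sub_C (by norm_num)]; rfl) (by
              have h3 : ringChar F ≠ 2 := by
                intro h3
                apply h2
                have := ringChar.Nat.cast_ringChar (R := F)
                rw [h3] at this
                exact_mod_cast this
              exact FiniteField.odd_card_of_char_ne_two h3)
          refine ⟨a, b, ?_⟩
          rw [Polynomial.eval_pow, Polynomial.eval_X, Polynomial.eval_sub, Polynomial.eval_pow, Polynomial.eval_X,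
            Polynomial.eval_C] at hab
          linear_combination -hab
        exact hasLong_of_caseII_odd hω hsq hk4' hke (hodd h2) hS ha hg e hs'
  rcases hdich with hI | hL
  · left
    refine le_antisymm (fun g hg => ⟨?_, hM2 hg⟩) hM1
    have hGood : GoodT hω (n + 1) M' := ⟨hiso, hS.sp, hI⟩
    refine mem_wreath_of_roots hω hk0 (Nat.succ_pos _) g fun i w hw => ?_
    obtain ⟨j, u, c, _, _, h⟩ := norm_root hK hGood hS.al (g := Φ F k (n + 2) g) ⟨g, hg, rfl⟩ i hw
    exact ⟨j, u, c, h⟩
  · right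
    refine le_antisymm hM2 fun g hg => ?_
    have h1 : glEquiv _ F g ∈ E Q := (Cfsg.Agent.H883.Bridge.mem_omegaGL_iff hG g).1 hg
    obtain ⟨_, ⟨g', hg', rfl⟩, h⟩ := hgen M' hS hL h1
    have h2 : Θ F _ (Φ F k (n + 2) g') = Θ F _ (Φ F k (n + 2) g) := h
    have h3 : g' = g := (Φ F k (n + 2)).injective ((Θ F _).injective h2)
    rw [← h3]
    exact hg'

end Cfsg.Agent.H889.C7
end

-- part: H874/OddEnd
section
/-!
# The end argument for `k = 2`, `q` odd, even tensor powers (`S5706`)

Only even permutations of the slots are available; the level is raised up to `t - 1`.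
-/

set_option autoImplicit false
set_option linter.unusedSimpArgs false
set_option linter.unusedVariables false
set_option linter.unusedSectionVars false

namespace Cfsg.Agent.H874

open Matrix Cfsg.Agent.H889

variable {F : Type*} [Field F] {k t : ℕ}

section Slots

variable {ω : (Fin k → F) →ₗ[F] (Fin k → F) →ₗ[F] F} {M : Subgroup (Module.End F ((Fin t → Fin k) → F))ˣ}

/-- The symmetries of `M` used to raise the level, only even permutations. -/
structure LevelAlt (ω : (Fin k → F) →ₗ[F] (Fin k → F) →ₗ[F] F)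
    (M : Subgroup (Module.End F ((Fin t → Fin k) → F))ˣ) : Prop where
  pure_mem : ∀ g g' : Fin t → Matrix (Fin k) (Fin k) F, (∀ i, g i * g' i = 1) → (∀ i, g' i * g i = 1) →
    (∀ i x y, ω (g i *ᵥ x) (g i *ᵥ y) = ω x y) → ∃ u ∈ M, (u : Module.End F ((Fin t → Fin k) → F)) = PM g ∧
      ((u⁻¹ : (Module.End F ((Fin t → Fin k) → F))ˣ) : Module.End F ((Fin t → Fin k) → F)) = PM g'
  perm_mem : ∀ σ : Equiv.Perm (Fin t), Equiv.Perm.sign σ = 1 → ∃ u ∈ M, ∀ A : Fin t → Matrix (Fin k) (Fin k) F,
    (u : Module.End F ((Fin t → Fin k) → F)) * PM A = PM (fun i => A (σ i)) * u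

theorem In.conj_pureA (hM : LevelAlt ω M) {g g' : Fin t → Matrix (Fin k) (Fin k) F} (h1 : ∀ i, g i * g' i = 1)
    (h2 : ∀ i, g' i * g i = 1) (h3 : ∀ i x y, ω (g i *ᵥ x) (g i *ᵥ y) = ω x y) {A : Fin t → Matrix (Fin k) (Fin k) F}
    {c : F} (hA : In M (c • PM A)) : In M (c • PM fun i => g i * A i * g' i) := by
  obtain ⟨u, hu, hu1, hu2⟩ := hM.pure_mem g g' h1 h2 h3
  have h4 := hA.conj hu
  rwa [hu1, hu2, mul_smul_comm, smul_mul_assoc, PM_mul, PM_mul] at h4

theorem In.conj_permA (hM : LevelAlt ω M) (σ : Equiv.Perm (Fin t)) (hσ : Equiv.Perm.sign σ = 1)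
    {A : Fin t → Matrix (Fin k) (Fin k) F}
    {c : F} (hA : In M (c • PM A)) : In M (c • PM fun i => A (σ i)) := by
  obtain ⟨u, hu, hu1⟩ := hM.perm_mem σ hσ
  have h4 := hA.conj hu
  rwa [mul_smul_comm, smul_mul_assoc, hu1, mul_assoc, Units.mul_inv, mul_one] at h4

theorem hasD_ofA (hM : LevelAlt ω M) (hω : ∀ w, ω w w = 0)
    (hex : ∀ u v : Fin k → F, u ≠ 0 → v ≠ 0 → ∃ x, ω u x ≠ 0 ∧ ω v x ≠ 0) {c : F} {I : Finset (Fin t)}
    {u : Fin t → (Fin k → F)} (hu : ∀ i ∈ I, u i ≠ 0) (h : In M (c • PM (dI ω I u))) : HasD ω M c I := by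
  intro u' hu'
  have h1 : ∀ i, ∃ gg : Matrix (Fin k) (Fin k) F × Matrix (Fin k) (Fin k) F, gg.1 * gg.2 = 1 ∧ gg.2 * gg.1 = 1 ∧
      (∀ x y, ω (gg.1 *ᵥ x) (gg.1 *ᵥ y) = ω x y) ∧ (i ∈ I → gg.1 *ᵥ u i = u' i) := by
    intro i
    by_cases hi : i ∈ I
    · obtain ⟨g, g', h1, h2, h3, h4⟩ := exists_isom hω hex (hu i hi) (hu' i)
      exact ⟨(g, g'), h1, h2, h3, fun _ => h4⟩
    · exact ⟨(1, 1), mul_one _, mul_one _, fun x y => by rw [Matrix.one_mulVec, Matrix.one_mulVec], fun h => absurd h hi⟩
  choose gg h1 h2 h3 h4 using h1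
  have h5 := h.conj_pureA hM h1 h2 h3
  have h6 : (fun i => (gg i).1 * dI ω I u i * (gg i).2) = dI ω I u' := by
    funext i
    by_cases hi : i ∈ I
    · simp only [dI, if_pos hi]
      rw [conj_eM (h1 i) (h3 i), h4 i hi]
    · simp only [dI, if_neg hi, mul_one, h1]
  rwa [h6] at h5

/-- Moving `I` to `I'` by an even permutation. -/
theorem exists_even_perm {I I' : Finset (Fin t)} (hc : I.card = I'.card) (h2 : 2 ≤ I.card) :
    ∃ σ : Equiv.Perm (Fin t), Equiv.Perm.sign σ = 1 ∧ ∀ i, σ i ∈ I ↔ i ∈ I' := by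
  classical
  have e : {i // i ∈ I'} ≃ {i // i ∈ I} := Fintype.equivOfCardEq (by simp [hc])
  let σ : Equiv.Perm (Fin t) := e.extendSubtype
  have h3 : ∀ i, σ i ∈ I ↔ i ∈ I' := by
    intro i
    constructor
    · intro hi
      by_contra hi'
      exact (e.extendSubtype_not_mem i hi') hi
    · intro hi
      exact e.extendSubtype_mem i hi
  rcases Int.units_eq_one_or (Equiv.Perm.sign σ) with h | h
  · exact ⟨σ, h, h3⟩
  · obtain ⟨a, ha, b, hb, hab⟩ := Finset.one_lt_card.1 (show 1 < I.card by omega)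
    refine ⟨Equiv.swap a b * σ, ?_, fun i => ?_⟩
    · rw [Equiv.Perm.sign_mul, Equiv.Perm.sign_swap hab, h]
      decide
    · rw [← h3 i, Equiv.Perm.mul_apply]
      by_cases h4 : σ i = a
      · rw [h4, Equiv.swap_apply_left]
        exact ⟨fun _ => ha, fun _ => hb⟩
      by_cases h5 : σ i = b
      · rw [h5, Equiv.swap_apply_right]
        exact ⟨fun _ => hb, fun _ => ha⟩
      rw [Equiv.swap_apply_of_ne_of_ne h4 h5]

theorem hasD_permA (hM : LevelAlt ω M) {c : F} {I I' : Finset (Fin t)} (hc : I.card = I'.card) (h2 : 2 ≤ I.card)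
    (h : HasD ω M c I) : HasD ω M c I' := by
  intro u' hu'
  obtain ⟨σ, hσ, h3⟩ := exists_even_perm hc h2
  have h1 := (h (fun i => u' (σ.symm i)) fun i => hu' _).conj_permA hM σ hσ
  have h2 : (fun i => dI ω I (fun i => u' (σ.symm i)) (σ i)) = dI ω I' u' := by
    funext i
    simp only [dI, h3, Equiv.symm_apply_apply]
  rwa [h2] at h1

/-- Raising the level by two. -/
theorem hasD_stepA [NeZero k] {p : ℕ} [CharP F p] (hp : Odd p) (hω : ∀ w, ω w w = 0)
    (hn : ∀ w, (∀ x, ω w x = 0) → w = 0) (hroot : ∀ j v, In M (sl j (eM ω v v))) {c : F} {n : ℕ}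
    (hodd : Odd n) (h3 : 3 ≤ n) (h : ∀ I : Finset (Fin t), I.card = n → HasD ω M c I) {I' : Finset (Fin t)}
    (hI' : I'.card = n + 2) : HasD ω M (2 * c * c) I' := by
  classical
  have skew : ∀ a b, ω a b = - ω b a := by
    intro x y
    have h := hω (x + y)
    simp only [map_add, LinearMap.add_apply, hω, zero_add, add_zero] at h
    exact eq_neg_of_add_eq_zero_left (by rw [add_comm]; exact h)
  intro u hu
  -- four distinct members of `I'`
  obtain ⟨J, hJ, hJ4⟩ := Finset.exists_subset_card_eq (show 4 ≤ I'.card by omega)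
  obtain ⟨J1, hJ1, hJ12⟩ := Finset.exists_subset_card_eq (show 2 ≤ J.card by omega)
  have hJ2 : (J \ J1).card = 2 := by rw [Finset.card_sdiff_of_subset hJ1]; omega
  have hQc : (I' \ J).card = n - 2 := by rw [Finset.card_sdiff_of_subset hJ]; omega
  -- the vectors for the other slots
  have hf : ∀ i, ∃ f, ω (u i) f = 1 := by
    intro i
    by_contra hcon
    push Not at hcon
    refine hu i (hn _ fun x => ?_)
    by_contra hx
    refine hcon ((ω (u i) x)⁻¹ • x) ?_
    rw [map_smul, smul_eq_mul, inv_mul_cancel₀ hx]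
  choose f hf using hf
  have hf0 : ∀ i, f i ≠ 0 := by
    intro i h0
    have := hf i
    rw [h0, map_zero] at this
    exact zero_ne_one this
  have hf0' : ∀ i, -u i - f i ≠ 0 := by
    intro i h0
    have h1 : ω (-u i - f i) (f i) = 0 := by rw [h0, map_zero, LinearMap.zero_apply]
    rw [map_sub, map_neg, LinearMap.sub_apply, LinearMap.neg_apply, hf, hω, sub_zero] at h1
    exact one_ne_zero (neg_eq_zero.1 h1)
  have hx : In M (c • PM (dI ω ((I' \ J) ∪ J1) fun i => if i ∈ I' \ J then f i else u i)) := by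
    refine h _ ?_ _ fun i => ?_
    · rw [Finset.card_union_of_disjoint, hQc, hJ12]
      · omega
      · refine Finset.disjoint_left.2 fun i hi hi' => ?_
        exact (Finset.mem_sdiff.1 hi).2 (hJ1 hi')
    · split_ifs
      · exact hf0 i
      · exact hu i
  have hy : In M (c • PM (dI ω ((I' \ J) ∪ (J \ J1)) fun i => if i ∈ I' \ J then -u i - f i else u i)) := by
    refine h _ ?_ _ fun i => ?_
    · rw [Finset.card_union_of_disjoint, hQc, hJ2]
      · omega
      · refine Finset.disjoint_left.2 fun i hi hi' => ?_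
        exact (Finset.mem_sdiff.1 hi).2 (Finset.mem_sdiff.1 hi').1
    · split_ifs
      · exact hf0' i
      · exact hu i
  obtain ⟨a, ha⟩ : J1.Nonempty := by rw [← Finset.card_pos]; omega
  obtain ⟨b, hb⟩ : (J \ J1).Nonempty := by rw [← Finset.card_pos]; omega
  have haJ : a ∈ J := hJ1 ha
  have hbJ : b ∈ J := (Finset.mem_sdiff.1 hb).1
  have hb1 : b ∉ J1 := (Finset.mem_sdiff.1 hb).2
  have haI : a ∈ I' := hJ haJ
  have hbI : b ∈ I' := hJ hbJ
  refine key hp hω hroot (A := dI ω ((I' \ J) ∪ J1) fun i => if i ∈ I' \ J then f i else u i)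
    (B := dI ω ((I' \ J) ∪ (J \ J1)) fun i => if i ∈ I' \ J then -u i - f i else u i)
    (ε := fun i => if i ∈ I' \ J then -1 else 1) (Q := I' \ J) (w := u) (a0 := a) ?_ ?_ hx hy ?_ ?_ ?_ ?_ ?_ ?_ ?_
  · intro h; exact (Finset.mem_sdiff.1 h).2 haJ
  · simp only [dI, if_pos haI]
    exact eM_sq ω (hω _)
  · refine ⟨a, ?_⟩
    have h1 : a ∈ (I' \ J) ∪ J1 := Finset.mem_union_right _ ha
    simp only [dI, if_pos h1]
    exact eM_sq ω (hω _)
  · refine ⟨b, ?_⟩
    have h1 : b ∈ (I' \ J) ∪ (J \ J1) := Finset.mem_union_right _ hb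
    simp only [dI, if_pos h1]
    exact eM_sq ω (hω _)
  · refine ⟨a, ?_⟩
    have h1 : a ∈ (I' \ J) ∪ J1 := Finset.mem_union_right _ ha
    have h2 : a ∉ (I' \ J) ∪ (J \ J1) := by
      simp only [Finset.mem_union, Finset.mem_sdiff, haJ, ha, not_true, and_false, or_false, not_false_iff]
    simp only [dI, if_pos h1, if_neg h2, mul_one]
    exact eM_sq ω (hω _)
  · refine ⟨b, ?_⟩
    have h1 : b ∈ (I' \ J) ∪ (J \ J1) := Finset.mem_union_right _ hb
    have h2 : b ∉ (I' \ J) ∪ J1 := by
      simp only [Finset.mem_union, Finset.mem_sdiff, hbJ, hb1, not_true, and_false, or_false, not_false_iff]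
    simp only [dI, if_pos h1, if_neg h2, mul_one]
    exact eM_sq ω (hω _)
  · intro i hi
    simp only [if_neg hi, one_smul]
    by_cases hiI : i ∈ I'
    · have hiJ : i ∈ J := by
        by_contra h
        exact hi (Finset.mem_sdiff.2 ⟨hiI, h⟩)
      by_cases hi1 : i ∈ J1
      · have h1 : i ∈ (I' \ J) ∪ J1 := Finset.mem_union_right _ hi1
        have h2 : i ∉ (I' \ J) ∪ (J \ J1) := by
          simp only [Finset.mem_union, Finset.mem_sdiff, hiJ, hi1, not_true, and_false, or_false, not_false_iff]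
        simp only [dI, if_pos h1, if_neg h2, if_pos hiI, if_neg hi, mul_one, one_mul, and_self]
      · have h1 : i ∈ (I' \ J) ∪ (J \ J1) := Finset.mem_union_right _ (Finset.mem_sdiff.2 ⟨hiJ, hi1⟩)
        have h2 : i ∉ (I' \ J) ∪ J1 := by
          simp only [Finset.mem_union, Finset.mem_sdiff, hiJ, hi1, not_true, and_false, or_false, not_false_iff]
        simp only [dI, if_pos h1, if_neg h2, if_pos hiI, if_neg hi, mul_one, one_mul, and_self]
    · have h1 : i ∉ (I' \ J) ∪ (J \ J1) := by
        intro h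
        rcases Finset.mem_union.1 h with h | h
        · exact hi h
        · exact hiI (hJ (Finset.mem_sdiff.1 h).1)
      have h2 : i ∉ (I' \ J) ∪ J1 := by
        intro h
        rcases Finset.mem_union.1 h with h | h
        · exact hi h
        · exact hiI (hJ (hJ1 h))
      simp only [dI, if_neg h1, if_neg h2, if_neg hiI, mul_one, and_self]
  · intro i hi
    have hiI : i ∈ I' := (Finset.mem_sdiff.1 hi).1
    have h1 : i ∈ (I' \ J) ∪ (J \ J1) := Finset.mem_union_left _ hi
    have h2 : i ∈ (I' \ J) ∪ J1 := Finset.mem_union_left _ hi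
    have hfu : ω (f i) (u i) = -1 := by rw [skew, hf]
    simp only [dI, if_pos h1, if_pos h2, if_pos hiI, if_pos hi]
    simp only [eM_mul, smul_mul_assoc, mul_smul_comm, map_sub, map_neg, LinearMap.sub_apply, LinearMap.neg_apply, hf,
      hfu, hω, smul_smul]
    constructor
    · norm_num
    · norm_num
  · rw [Finset.prod_ite, Finset.prod_const, Finset.prod_const_one, mul_one]
    have h1 : (Finset.univ.filter fun i => i ∈ I' \ J) = I' \ J := by
      ext i
      simp only [Finset.mem_filter, Finset.mem_univ, true_and]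
    rw [h1, hQc]
    exact Odd.neg_one_pow (by obtain ⟨m, hm⟩ := hodd; exact ⟨m - 1, by omega⟩)

/-- Reaching level `m'`. -/
theorem hasD_upto [NeZero k] {p : ℕ} [CharP F p] (hp : Odd p) (hω : ∀ w, ω w w = 0)
    (hn : ∀ w, (∀ x, ω w x = 0) → w = 0) (hroot : ∀ j v, In M (sl j (eM ω v v))) (m' n : ℕ) :
    ∀ (c : F) (m : ℕ), c ≠ 0 → Odd m → 3 ≤ m → m + 2 * n = m' →
      (∀ I : Finset (Fin t), I.card = m → HasD ω M c I) →
      ∃ c' : F, c' ≠ 0 ∧ ∀ I : Finset (Fin t), I.card = m' → HasD ω M c' I := by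
  have h2 : (2 : F) ≠ 0 := by
    intro h
    have h3 : ((2 : ℕ) : F) = 0 := by exact_mod_cast h
    rw [CharP.cast_eq_zero_iff F p] at h3
    obtain ⟨m, hm⟩ := hp
    have h4 := Nat.le_of_dvd (by norm_num) h3
    have h5 : p ≠ 1 := CharP.char_ne_one F p
    omega
  induction n with
  | zero =>
    intro c m hc hm h3 hmt h
    refine ⟨c, hc, fun I hI => h I (by omega)⟩
  | succ n ih =>
    intro c m hc hm h3 hmt h
    refine ih (2 * c * c) (m + 2) (mul_ne_zero (mul_ne_zero h2 hc) hc) (hm.add_even even_two) (by omega) (by omega) ?_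
    intro I hI
    exact hasD_stepA hp hω hn hroot hm h3 h hI

/-- From a typed pure element to level `t - 1`. -/
theorem levelA_of_typ [NeZero k] {p : ℕ} [CharP F p] (hp : Odd p) (hM : LevelAlt ω M) (hω : ∀ w, ω w w = 0)
    (hn : ∀ w, (∀ x, ω w x = 0) → w = 0)
    (hex : ∀ u v : Fin k → F, u ≠ 0 → v ≠ 0 → ∃ x, ω u x ≠ 0 ∧ ω v x ≠ 0)
    (hbiv : ∀ u v : Fin k → F, ω u v = 0 → u ≠ 0 → ∃ a : F, v = a • u)
    (hroot : ∀ j v, In M (sl j (eM ω v v))) (ht : Even t)
    (β : ((Fin t → Fin k) → F) →ₗ[F] ((Fin t → Fin k) → F) →ₗ[F] F) {c0 : F} (hc0 : c0 ≠ 0)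
    (hβ : ∀ xs ys : Fin t → (Fin k → F), β (tp xs) (tp ys) = c0 * ∏ i, ω (xs i) (ys i))
    (hiso : ∀ g ∈ M, ∀ x y, β ((g : Module.End F ((Fin t → Fin k) → F)) x) ((g : Module.End F ((Fin t → Fin k) → F)) y)
      = β x y)
    {A : Fin t → Matrix (Fin k) (Fin k) F} {c : F} (hc : c ≠ 0) (hA : In M (c • PM A)) (hT : ∀ i, Typ ω (A i))
    (j : Fin t) (hj : A j ≠ 1 ∧ ∃ i, i ≠ j ∧ A i ≠ 1) :
    ∃ c' : F, c' ≠ 0 ∧ ∀ I : Finset (Fin t), I.card = t - 1 → HasD ω M c' I := by
  classical
  have skew := skew_of_alt hω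
  let I : Finset (Fin t) := Finset.univ.filter fun i => A i ≠ 1
  have hI : ∀ i ∈ I, ∃ v, v ≠ 0 ∧ A i = eM ω v v := by
    intro i hi
    have hi1 : A i ≠ 1 := (Finset.mem_filter.1 hi).2
    rcases hT i with h | ⟨u, v, huv, h1, h2, -⟩ | h
    · exact h
    · obtain ⟨a, ha⟩ := hbiv u v huv h2
      exact absurd ha (h1 a)
    · exact absurd h hi1
  have hK : ∀ i, i ∉ I → A i = 1 := by
    intro i hi
    by_contra h
    exact hi (Finset.mem_filter.2 ⟨Finset.mem_univ _, h⟩)
  have hsqI : ∀ i ∈ I, A i * A i = 0 := by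
    intro i hi
    obtain ⟨v, -, hv⟩ := hI i hi
    rw [hv]; exact eM_sq ω (hω v)
  obtain ⟨hj1, i, hij, hi1⟩ := hj
  have hjI : j ∈ I := Finset.mem_filter.2 ⟨Finset.mem_univ _, hj1⟩
  have hiI : i ∈ I := Finset.mem_filter.2 ⟨Finset.mem_univ _, hi1⟩
  have hodd : Odd I.card := by
    refine odd_card hp hω hn β hc0 hβ hiso hc hA ⟨j, hsqI j hjI⟩ (I := I) ?_ ?_ ?_
    · intro i
      by_cases h1 : i ∈ I
      · obtain ⟨v, hv0, hv⟩ := hI i h1
        rw [hv]; exact eM_ne_zero hn hv0
      · rw [hK i h1]; exact one_ne_zero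
    · intro i hi x y
      obtain ⟨v, -, hv⟩ := hI i hi
      rw [hv, eM_mulVec, eM_mulVec, map_smul, map_smul, LinearMap.smul_apply, smul_eq_mul, smul_eq_mul, skew x v]
      ring
    · intro i hi x y
      rw [hK i hi, Matrix.one_mulVec, Matrix.one_mulVec]
  have h2 : 2 ≤ I.card := by
    have h3 : ({i, j} : Finset (Fin t)) ⊆ I := by
      intro x hx
      rcases Finset.mem_insert.1 hx with rfl | hx
      · exact hiI
      · rw [Finset.mem_singleton.1 hx]; exact hjI
    have h4 := Finset.card_le_card h3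
    rwa [Finset.card_pair hij] at h4
  have h3 : 3 ≤ I.card := by
    obtain ⟨m, hm⟩ := hodd
    omega
  have hex' : ∀ i, ∃ v, i ∈ I → v ≠ 0 ∧ A i = eM ω v v := by
    intro i
    by_cases hi : i ∈ I
    · obtain ⟨v, hv⟩ := hI i hi
      exact ⟨v, fun _ => hv⟩
    · exact ⟨0, fun h => absurd h hi⟩
  choose v hv using hex'
  have hAd : A = dI ω I v := by
    funext i
    by_cases hi : i ∈ I
    · simp only [dI, if_pos hi]; exact (hv i hi).2
    · simp only [dI, if_neg hi]; exact hK i hi
  rw [hAd] at hA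
  have h5 := hasD_ofA hM hω hex (fun i hi => (hv i hi).1) hA
  have h6 : I.card ≤ t := (Finset.card_le_univ _).trans (by rw [Fintype.card_fin])
  obtain ⟨m, hm⟩ := hodd
  obtain ⟨m', hm'⟩ := ht
  exact hasD_upto hp hω hn hroot (t - 1) (m' - m - 1) c I.card hc ⟨m, hm⟩ h3 (by omega) fun I' hI' =>
    hasD_permA hM hI'.symm h2 h5

end Slots

section Bridge

open Cfsg.Agent.H889.C7

variable {ω : LinearMap.BilinForm F (Fin k → F)}

theorem sE_toLin' {n : ℕ} (j : Fin n) (B : Matrix (Fin k) (Fin k) F) :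
    C7.sE j (Matrix.toLin' B) = sl j B := by
  rw [C7.sE, LinearMap.toMatrix'_toLin', sl_eq]

theorem toLin'_eM (ω : LinearMap.BilinForm F (Fin k → F)) (a b : Fin k → F) :
    Matrix.toLin' (eM ω a b) = C7.rk ω a b := by
  refine LinearMap.ext fun x => ?_
  rw [Matrix.toLin'_apply, eM_mulVec, C7.rk_apply]

theorem sE_rk {n : ℕ} (j : Fin n) (a b : Fin k → F) : C7.sE j (C7.rk ω a b) = sl j (eM ω a b) := by
  rw [← toLin'_eM, sE_toLin']

theorem pm'_toLin' {n : ℕ} (A : Fin n → Matrix (Fin k) (Fin k) F) :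
    C7.pm' (fun i => Matrix.toLin' (A i)) = PM A := by
  refine C7.tp_ext fun xs => ?_
  rw [C7.pm'_tp, PM_tp]
  simp only [Matrix.toLin'_apply]

/-- Slot groups and even permutations give `LevelAlt`. -/
theorem levelAlt_of {n : ℕ} {M : Subgroup (Module.End F (T F k (n + 1)))ˣ} (hM : C7.SlotsM ω M) :
    LevelAlt ω M := by
  classical
  constructor
  · intro g g' h1 h2 h3
    let α : Fin (n + 1) → (Module.End F (Fin k → F))ˣ := fun i =>
      ⟨Matrix.toLin' (g i), Matrix.toLin' (g' i),
        by rw [Module.End.mul_eq_comp, ← Matrix.toLin'_mul, h1, Matrix.toLin'_one]; rfl,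
        by rw [Module.End.mul_eq_comp, ← Matrix.toLin'_mul, h2, Matrix.toLin'_one]; rfl⟩
    have hα : ∀ i, C7.IsoW ω (α i) := by
      intro i u v
      show ω (Matrix.toLin' (g i) u) (Matrix.toLin' (g i) v) = _
      rw [Matrix.toLin'_apply, Matrix.toLin'_apply, h3]
    have key : ∀ s : Finset (Fin (n + 1)), ∃ u ∈ M, (u : Module.End F (T F k (n + 1))) = PM (onS s g) := by
      intro s
      induction s using Finset.induction_on with
      | empty =>
        refine ⟨1, M.one_mem, ?_⟩
        have : onS (∅ : Finset (Fin (n + 1))) g = fun _ => 1 := by funext i; simp [onS]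
        rw [this, PM_one, Units.val_one]
      | insert j s hj ih =>
        obtain ⟨u, hu, hu1⟩ := ih
        refine ⟨u * C7.sU j (α j), M.mul_mem hu (hM.sp j (α j) (hα j)), ?_⟩
        have h4 := onS_insert hj g (g j)
        rw [Function.update_eq_self] at h4
        rw [h4, Units.val_mul, hu1]
        congr 1
        exact sE_toLin' j (g j)
    obtain ⟨u, hu, hu1⟩ := key Finset.univ
    have hon : onS Finset.univ g = g := by funext i; simp [onS]
    rw [hon] at hu1
    refine ⟨u, hu, hu1, ?_⟩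
    have h5 : (u : Module.End F (T F k (n + 1))) * PM g' = 1 := by
      rw [hu1, PM_mul, ← PM_one]
      congr 1
      funext i
      exact h1 i
    exact Units.inv_eq_of_mul_eq_one_right h5
  · intro σ hσ
    refine ⟨C7.pU σ.symm, hM.al _ (by rw [Equiv.Perm.sign_symm, hσ]), fun A => ?_⟩
    refine C7.tp_ext fun xs => ?_
    rw [Module.End.mul_apply, Module.End.mul_apply, PM_tp]
    show C7.pE σ.symm (tp _) = PM _ (C7.pE σ.symm (tp xs))
    rw [C7.pE_tp, C7.pE_tp, PM_tp]
    rfl

theorem hex_of (hω : C7.Symp ω) : ∀ u v : Fin k → F, u ≠ 0 → v ≠ 0 → ∃ x, ω u x ≠ 0 ∧ ω v x ≠ 0 := by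
  intro u v hu hv
  obtain ⟨x1, hx1⟩ := hω.exists_pair hu
  obtain ⟨x2, hx2⟩ := hω.exists_pair hv
  by_cases h1 : ω v x1 = 0
  · by_cases h3 : ω u x2 = 0
    · refine ⟨x1 + x2, ?_, ?_⟩
      · rw [map_add, hx1, h3, add_zero]; exact one_ne_zero
      · rw [map_add, hx2, h1, zero_add]; exact one_ne_zero
    · exact ⟨x2, h3, by rw [hx2]; exact one_ne_zero⟩
  · exact ⟨x1, by rw [hx1]; exact one_ne_zero, h1⟩

theorem hroot_of (hω : C7.Symp ω) {n : ℕ} {M : Subgroup (Module.End F (T F k (n + 1)))ˣ} (hM : C7.SlotsM ω M)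
    (j : Fin (n + 1)) (v : Fin k → F) : In M (sl j (eM ω v v)) := by
  refine ⟨C7.sU j (C7.tv hω 1 v), hM.sp j _ (C7.isoW_tv hω 1 v), ?_⟩
  rw [C7.sU_val, C7.tv, C7.oneAdd_val, C7.sE_add, C7.sE_one, one_smul, sE_rk]

/-- **The end argument, `k = 2`, `q` odd.** -/
theorem odd_end {F : Type*} [Field F] [Fintype F] {k n : ℕ} {ω : LinearMap.BilinForm F (Fin k → F)}
    (hω : C7.Symp ω) (hk : k = 2) (h2 : (2 : F) ≠ 0) (hn : Even n) {M : Subgroup (Module.End F (T F k (n + 2)))ˣ}
    (hM : C7.SlotsM ω M)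
    (hiso : ∀ g ∈ M, ∀ v w, C7.fT ω (n + 2) (g.1 v) (g.1 w) = C7.fT ω (n + 2) v w) :
    (∀ i : Fin (n + 2), ∀ a, a ≠ 0 → ∀ s : Module.End F (T F k (n + 1)), ∀ g ∈ M,
      g.1 = 1 + (C7.DT hω i).cs a s → ∃ τ : F, s = τ • 1) ∨ C7.HasLong ω M := by
  classical
  by_cases hall : ∀ i : Fin (n + 2), ∀ a, a ≠ 0 → ∀ s : Module.End F (T F k (n + 1)), ∀ g ∈ M,
      g.1 = 1 + (C7.DT hω i).cs a s → ∃ τ : F, s = τ • 1
  · exact Or.inl hall
  right
  push Not at hall
  obtain ⟨i, a, ha, s, g, hg, hgs, hns⟩ := hall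
  obtain ⟨p, hpF⟩ := CharP.exists F
  have hpp : p.Prime := CharP.char_is_prime F p
  have hp : Odd p := by
    rcases hpp.eq_two_or_odd' with h | h
    · exfalso
      apply h2
      have := CharP.cast_eq_zero F p
      rw [h] at this
      exact_mod_cast this
    · exact h
  have hk0 : NeZero k := ⟨by omega⟩
  have hLev := levelAlt_of hM
  have hroot := hroot_of hω hM
  have hplu := fun x y w => C7.plucker hω hk x y w
  have hbiv : ∀ u v : Fin k → F, ω u v = 0 → u ≠ 0 → ∃ a : F, v = a • u := by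
    intro u v huv hu
    obtain ⟨w, hw⟩ := hω.exists_pair hu
    refine ⟨ω v w, ?_⟩
    have h := hplu u v w
    rw [hw, huv, zero_smul, one_smul, sub_eq_zero] at h
    exact h
  have hpm : ∀ X : Matrix (Fin k) (Fin k) F, PM (onS {i} fun _ => X) = sl i X := by
    intro X
    rw [sl]
    congr 1
    funext j
    by_cases hi : j = i
    · subst hi; simp [onS]
    · simp [onS, hi]
  obtain ⟨y, hy⟩ : ∃ y, y = (C7.DT hω i).map hω 1 s := ⟨_, rfl⟩
  have hyB : ∀ B, y * sl i B = sl i B * y := by
    intro B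
    rw [← sE_toLin', ← C7.map_sE hω, hy, C7.TD.map_mul, C7.TD.map_mul, one_mul, one_mul, mul_one, mul_one]
  have hyn : ¬ ∃ c : F, y = c • 1 := by
    rintro ⟨c, hc⟩
    refine hns c (LinearMap.ext fun b => ?_)
    have h1 := LinearMap.congr_fun hc ((C7.DT hω i).ι a b)
    rw [hy, C7.TD.map_ι, Module.End.one_apply, LinearMap.smul_apply, Module.End.one_apply, ← map_smul,
      ← sub_eq_zero, ← map_sub] at h1
    exact sub_eq_zero.1 ((C7.DT hω i).ι_inj hω ha h1)
  have hIn : In M (PM (onS {i} fun _ => eM ω a a) * y) := by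
    refine ⟨g, hg, ?_⟩
    rw [hpm, ← sE_rk, ← C7.map_sE hω, hy, C7.TD.map_mul, mul_one, one_mul, hgs, C7.TD.cs_eq_el,
      C7.TD.el_eq_map _ hω]
  obtain ⟨A, c, hc, hA1, hA2, hA3, j, hj, hj1⟩ := purify' M hp (hex_of hω) hω.alt hω.nd hroot _ {i} rfl
    (fun _ => eM ω a a) i (Finset.mem_singleton_self i) (eM_sq ω (hω.alt a)) (fun _ _ => Or.inl ⟨a, ha, rfl⟩) y hyn
    (by
      intro j hj B
      rw [Finset.mem_singleton.1 hj]
      exact hyB B) hIn
  obtain ⟨c', hc', h⟩ := levelA_of_typ hp hLev hω.alt hω.nd (hex_of hω) hbiv hroot (hn.add even_two)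
    (C7.fT ω (n + 2)) one_ne_zero (fun xs ys => by rw [C7.fT_tp, one_mul]) hiso hc hA3 hA2 i
    ⟨by rw [hA1 i (Finset.mem_singleton_self i)]; exact sq_ne_one (eM_sq ω (hω.alt a)), j,
      fun h => hj (by rw [h]; exact Finset.mem_singleton_self i), hj1⟩
  -- the long root element
  obtain ⟨f, hf⟩ := hω.exists_pair ha
  have hfa : ω f a = -1 := by rw [hω.skew, hf]
  have hua : ω ((-c') • f) a = c' := by
    rw [map_smul, LinearMap.smul_apply, hfa, smul_eq_mul, neg_mul_neg, mul_one]
  refine ⟨fun _ => a, 0, (-c') • f, fun _ => ha, ?_, ?_⟩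
  · intro d hd
    rw [hd, map_smul, LinearMap.smul_apply, hω.alt, smul_zero] at hua
    exact hc' hua.symm
  · obtain ⟨g', hg', e⟩ := h (Finset.univ.erase 0)
      (by rw [Finset.card_erase_of_mem (Finset.mem_univ _), Finset.card_univ, Fintype.card_fin]) (fun _ => a)
      (fun _ => ha)
    refine ⟨g', hg', ?_⟩
    rw [e]
    congr 1
    rw [← C7.pm'_rk, ← C7.pm'_rk, ← pm'_toLin']
    have hX : ∀ Z : Module.End F (Fin k → F),
        Function.update (fun _ : Fin (n + 2) => C7.rk ω a a) 0 Z = fun m => if m = 0 then Z else C7.rk ω a a := by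
      intro Z
      funext m
      by_cases hm : m = 0
      · subst hm; rw [Function.update_self, if_pos rfl]
      · rw [Function.update_of_ne hm, if_neg hm]
    have e1 : (fun m : Fin (n + 2) => C7.rk ω ((fun _ => a) m) (Function.update (fun _ => a) 0 ((-c') • f) m)) =
        Function.update (fun _ => C7.rk ω a a) 0 (C7.rk ω a ((-c') • f)) := by
      rw [hX]
      funext m
      by_cases hm : m = 0
      · subst hm; rw [Function.update_self, if_pos rfl]
      · rw [Function.update_of_ne hm, if_neg hm]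
    have e2 : (fun m : Fin (n + 2) => C7.rk ω (Function.update (fun _ => a) 0 ((-c') • f) m) ((fun _ => a) m)) =
        Function.update (fun _ => C7.rk ω a a) 0 (C7.rk ω ((-c') • f) a) := by
      rw [hX]
      funext m
      by_cases hm : m = 0
      · subst hm; rw [Function.update_self, if_pos rfl]
      · rw [Function.update_of_ne hm, if_neg hm]
    have e3 : (fun m : Fin (n + 2) => Matrix.toLin' (dI ω (Finset.univ.erase 0) (fun _ => a) m)) =
        Function.update (fun _ => C7.rk ω a a) 0 1 := by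
      rw [hX]
      funext m
      by_cases hm : m = 0
      · subst hm
        rw [if_pos rfl]
        simp only [dI, Finset.notMem_erase, if_false, Matrix.toLin'_one]
        rfl
      · rw [if_neg hm]
        simp only [dI, Finset.mem_erase, ne_eq, hm, not_false_iff, Finset.mem_univ, and_self, if_true, toLin'_eM]
    have e4 : C7.rk ω a ((-c') • f) = C7.rk ω ((-c') • f) a + c' • 1 := by
      refine LinearMap.ext fun w => ?_
      rw [LinearMap.add_apply, C7.rk_apply, C7.rk_apply, LinearMap.smul_apply, Module.End.one_apply]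
      have h := hplu ((-c') • f) a w
      rw [hua, sub_eq_iff_eq_add] at h
      rw [h, add_comm]
    rw [e1, e2, e3, e4, C7.pm'_add, C7.pm'_smul, add_sub_cancel_left]

end Bridge

end Cfsg.Agent.H874
end

-- part: H889/C7/Gen
section
/-!
Generation of `E Q` by the slot groups, the even permutations and one long root element.
-/

set_option autoImplicit false
set_option linter.unusedSectionVars false
set_option linter.unusedVariables false
set_option linter.unusedSimpArgs false

namespace Cfsg.Agent.H889.C7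

open Module Cfsg.Agent.H889 QuadraticMap
open Cfsg.Agent.LieClassical.OrthCore Cfsg.Agent.LieClassical.OrthTrans Cfsg.Agent.LieClassical.OrthFinite
open Cfsg.Agent.H883.Root

variable {F : Type*} [Field F] {k : ℕ} {ω : LinearMap.BilinForm F (Fin k → F)}

section Abs

variable {V : Type*} [AddCommGroup V] [Module F V] {Q : QuadraticForm F V} {H : Subgroup (V ≃ₗ[F] V)}

/-- All multiples. -/
def HasS (Q : QuadraticForm F V) (H : Subgroup (V ≃ₗ[F] V)) (x y : V) : Prop := ∀ c : F, Has Q H x (c • y)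

/-- The submodule of second vectors. -/
def SS {x : V} (hx : Q x = 0) (H : Subgroup (V ≃ₗ[F] V)) : Submodule F V where
  carrier := {y | HasS Q H x y}
  zero_mem' := fun c => by rw [smul_zero]; exact has_zero hx
  add_mem' := fun h h' c => by rw [smul_add]; exact (h c).add (h' c)
  smul_mem' := fun c y h c' => by rw [smul_smul]; exact h _

theorem mem_SS {x y : V} (hx : Q x = 0) : y ∈ SS hx H ↔ HasS Q H x y := Iff.rfl

/-- The commutator step. -/
theorem HasS.comm {x y z z'' : V} (h : HasS Q H x z) (h' : Has Q H y z'') (hz'' : Q z'' = 0)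
    (hxz : QuadraticMap.polar Q z'' x = 0) (hxy : QuadraticMap.polar Q y x = 0)
    (hyz : QuadraticMap.polar Q y z = 0) (hne : QuadraticMap.polar Q z'' z ≠ 0) : HasS Q H x y := by
  intro c
  have h1 := h'.swap hz''
  have h2 := h (-(c * (QuadraticMap.polar Q z'' z)⁻¹))
  have h3 := h1.comm' h2 hxz (by rw [polar_neg_left, hxy, neg_zero]) (by rw [QuadraticMap.map_neg, h'.sing])
    (by rw [polar_neg_left, polar_smul_right, hyz, smul_zero, neg_zero])
  rw [polar_smul_right, smul_eq_mul, neg_mul, mul_assoc, inv_mul_cancel₀ hne, mul_one, smul_neg, neg_smul,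
    neg_neg] at h3
  exact h3

end Abs

section Iso

variable (hω : Symp ω)
include hω

/-- Transitivity on pairs of independent vectors with given product. -/
theorem exists_iso_pair' {w w' z z' : Fin k → F} (h : ω w w' = ω z z') (hw : w ≠ 0) (hw' : ∀ c : F, w' ≠ c • w)
    (hz : z ≠ 0) (hz' : ∀ c : F, z' ≠ c • z) :
    ∃ α, IsoW ω α ∧ α.1 w = z ∧ α.1 w' = z' := by
  by_cases h0 : ω z z' = 0
  · exact exists_iso_pair hω (h.trans h0) hw hw' h0 hz hz'
  obtain ⟨α, hα, hαw⟩ := exists_iso_of_ne hω hw hz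
  have e1 : ω z (α.1 w') = ω z z' := by rw [← hαw, hα, h, hαw]
  -- an isometry fixing `z` and mapping `α w'` to `z'`
  obtain ⟨β, hβ, hβz, hβw⟩ : ∃ β, IsoW ω β ∧ β.1 z = z ∧ β.1 (α.1 w') = z' := by
    by_cases h1 : ω (α.1 w') z' = 0
    · have h2 : ω (α.1 w') (α.1 w' + z) ≠ 0 := by
        rw [map_add, hω.alt, zero_add, hω.skew, e1]
        exact neg_ne_zero.2 h0
      have h3 : ω (α.1 w' + z) z' ≠ 0 := by
        rw [map_add, LinearMap.add_apply, h1, zero_add]
        exact h0
      obtain ⟨β₁, b1, b2, b3⟩ := exists_tv hω h2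
      obtain ⟨β₂, c1, c2, c3⟩ := exists_tv hω h3
      refine ⟨β₂ * β₁, c1.mul b1, ?_, ?_⟩
      · rw [mul_app, b3 z (by rw [map_add, hω.alt, add_zero]), c3 z (by rw [map_add, hω.alt, add_zero, e1])]
      · rw [mul_app, b2, c2]
    · obtain ⟨β, b1, b2, b3⟩ := exists_tv hω h1
      exact ⟨β, b1, b3 z e1, b2⟩
  exact ⟨β * α, hβ.mul hα, by rw [mul_app, hαw, hβz], by rw [mul_app, hβw]⟩

theorem span_nonperp {a : Fin k → F} (ha : a ≠ 0) : Submodule.span F {y | ω a y ≠ 0} = ⊤ := by
  rw [eq_top_iff]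
  intro y _
  obtain ⟨b, hb⟩ := hω.exists_pair ha
  have hb' : b ∈ {y | ω a y ≠ 0} := by
    change ω a b ≠ 0
    rw [hb]; exact one_ne_zero
  by_cases hy : ω a y = 0
  · have h1 : y + b ∈ {y | ω a y ≠ 0} := by
      change ω a (y + b) ≠ 0
      rw [map_add, hy, hb, zero_add]; exact one_ne_zero
    have h2 := Submodule.sub_mem _ (Submodule.subset_span (R := F) h1) (Submodule.subset_span (R := F) hb')
    rwa [add_sub_cancel_right] at h2
  · exact Submodule.subset_span hy

end Iso

/-- Spanning by pure tensors. -/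
theorem tp_span {n : ℕ} (N : Submodule F (T F k n)) (G : Fin n → Set (Fin k → F))
    (h : ∀ Y : Fin n → (Fin k → F), (∀ i, Y i ∈ G i) → tp Y ∈ N) (Y : Fin n → (Fin k → F))
    (hY : ∀ i, Y i ∈ Submodule.span F (G i)) : tp Y ∈ N := by
  classical
  have key : ∀ S : Finset (Fin n), ∀ Y : Fin n → (Fin k → F), (∀ i ∈ S, Y i ∈ Submodule.span F (G i)) →
      (∀ i, i ∉ S → Y i ∈ G i) → tp Y ∈ N := by
    intro S
    induction S using Finset.induction_on with
    | empty => exact fun Y _ h2 => h Y fun i => h2 i (Finset.notMem_empty i)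
    | insert i S hi ih =>
      intro Y h1 h2
      have h3 : ∀ y ∈ Submodule.span F (G i), tp (Function.update Y i y) ∈ N := by
        intro y hy
        induction hy using Submodule.span_induction with
        | mem y hy =>
          apply ih
          · intro i' hi'
            have hne : i' ≠ i := by
              rintro rfl
              exact hi hi'
            rw [Function.update_of_ne hne]
            exact h1 i' (Finset.mem_insert_of_mem hi')
          · intro i' hi'
            by_cases h' : i' = i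
            · subst h'; rw [Function.update_self]; exact hy
            · rw [Function.update_of_ne h']
              exact h2 i' (by rw [Finset.mem_insert, not_or]; exact ⟨h', hi'⟩)
        | zero =>
          have : tp (Function.update Y i (0 : Fin k → F)) = 0 := tp_eq_zero (i := i) (by rw [Function.update_self])
          rw [this]; exact N.zero_mem
        | add x y _ _ hx hy => rw [tp_update_add]; exact N.add_mem hx hy
        | smul c x _ hx => rw [tp_update_smul]; exact N.smul_mem c hx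
      have := h3 (Y i) (h1 i (Finset.mem_insert_self _ _))
      rwa [Function.update_eq_self] at this
  exact key Finset.univ Y (fun i _ => hY i) fun i hi => absurd (Finset.mem_univ i) hi

section Gen

variable {hω : Symp ω} {c₀ : F} {n : ℕ} {Q : QuadraticForm F (T F k n)} {H : Subgroup (T F k n ≃ₗ[F] T F k n)}

theorem QForm.polar_tp (hQ : QForm hω Q c₀) (X Y : Fin n → (Fin k → F)) :
    QuadraticMap.polar Q (tp X) (tp Y) = c₀ * ∏ i, ω (X i) (Y i) := by rw [hQ.polar, fT_tp]

theorem QForm.polar_zero (hQ : QForm hω Q c₀) {X Y : Fin n → (Fin k → F)} (i : Fin n) (h : ω (X i) (Y i) = 0) :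
    QuadraticMap.polar Q (tp X) (tp Y) = 0 := by
  rw [hQ.polar_tp, Finset.prod_eq_zero (Finset.mem_univ i) h, mul_zero]

theorem QForm.polar_ne (hQ : QForm hω Q c₀) {X Y : Fin n → (Fin k → F)} (h : ∀ i, ω (X i) (Y i) ≠ 0) :
    QuadraticMap.polar Q (tp X) (tp Y) ≠ 0 := by
  rw [hQ.polar_tp]
  exact mul_ne_zero hQ.ne (Finset.prod_ne_zero_iff.2 fun i _ => h i)

/-- Full at `tp X` once all `Y` with `Y m ⊥ X m` for some `m` are there. -/
theorem full_of_perp (hQ : QForm hω Q c₀) {X : Fin n → (Fin k → F)} (hX : ∀ i, X i ≠ 0)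
    (h : ∀ (m : Fin n) (Y : Fin n → (Fin k → F)), ω (X m) (Y m) = 0 → HasS Q H (tp X) (tp Y)) :
    Full Q H (tp X) := by
  classical
  have hx := hQ.pure X
  have hf : ∀ i, ∃ f, ω (X i) f = 1 := fun i => hω.exists_pair (hX i)
  choose f hf using hf
  set N := SS hx H with hN
  -- pure vectors
  have h1 : ∀ Y : Fin n → (Fin k → F), tp Y - (∏ i, ω (X i) (Y i)) • tp f ∈ N := by
    intro Y
    have key : ∀ S : Finset (Fin n), tp Y - (∏ i ∈ S, ω (X i) (Y i)) • tp (fun i => if i ∈ S then f i else Y i) ∈ N := by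
      intro S
      induction S using Finset.induction_on with
      | empty => simp
      | insert i S hi ih =>
        have h2 : ω (X i) (Y i - ω (X i) (Y i) • f i) = 0 := by
          rw [map_sub, map_smul, hf, smul_eq_mul, mul_one, sub_self]
        set Z : Fin n → (Fin k → F) := fun i => if i ∈ S then f i else Y i with hZ
        have hZi : Z i = Y i := by rw [hZ]; simp only [if_neg hi]
        have h3 : tp (Function.update Z i (Y i - ω (X i) (Y i) • f i)) ∈ N :=
          h i _ (by rw [Function.update_self]; exact h2)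
        have h4 : tp (Function.update Z i (Y i - ω (X i) (Y i) • f i)) =
            tp Z - ω (X i) (Y i) • tp (Function.update Z i (f i)) := by
          have e : Y i - ω (X i) (Y i) • f i = Y i + (-ω (X i) (Y i)) • f i := by rw [neg_smul, sub_eq_add_neg]
          rw [e, tp_update_add, tp_update_smul, neg_smul, ← sub_eq_add_neg]
          congr 2
          rw [← hZi, Function.update_eq_self]
        have h5 : Function.update Z i (f i) = fun i' => if i' ∈ insert i S then f i' else Y i' := by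
          funext i'
          by_cases h' : i' = i
          · subst h'
            rw [Function.update_self, if_pos (Finset.mem_insert_self _ _)]
          · rw [Function.update_of_ne h', hZ]
            simp only [Finset.mem_insert, h', false_or]
        rw [h4, h5] at h3
        rw [Finset.prod_insert hi]
        have h6 := N.add_mem ih (N.smul_mem (∏ i ∈ S, ω (X i) (Y i)) h3)
        have e : tp Y - (ω (X i) (Y i) * ∏ i ∈ S, ω (X i) (Y i)) • tp (fun i' => if i' ∈ insert i S then f i' else Y i') =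
            tp Y - (∏ i ∈ S, ω (X i) (Y i)) • tp Z + (∏ i ∈ S, ω (X i) (Y i)) •
              (tp Z - ω (X i) (Y i) • tp (fun i' => if i' ∈ insert i S then f i' else Y i')) := by
          rw [smul_sub, smul_smul, mul_comm (ω (X i) (Y i))]
          abel
        rw [e]
        exact h6
    have h2 := key Finset.univ
    simpa using h2
  have h2 : N.mkQ ∘ₗ (LinearMap.id - (fT ω n (tp X)).smulRight (tp f)) = 0 := by
    refine tp_ext fun Y => ?_
    rw [LinearMap.comp_apply, LinearMap.zero_apply, Submodule.mkQ_apply, Submodule.Quotient.mk_eq_zero]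
    have := h1 Y
    rw [← fT_tp] at this
    exact this
  refine ⟨hx, fun w hw => ?_⟩
  have h3 := LinearMap.congr_fun h2 w
  rw [LinearMap.comp_apply, LinearMap.zero_apply, Submodule.mkQ_apply, Submodule.Quotient.mk_eq_zero] at h3
  have h4 : fT ω n (tp X) w = 0 := by
    have := hQ.polar (tp X) w
    rw [hw] at this
    exact (mul_eq_zero.1 this.symm).resolve_left hQ.ne
  have h5 : (LinearMap.id - (fT ω n (tp X)).smulRight (tp f) : T F k n →ₗ[F] T F k n) w = w := by
    rw [LinearMap.sub_apply, LinearMap.smulRight_apply, h4, zero_smul, sub_zero]; rfl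
  rw [h5] at h3
  have h6 : Has Q H (tp X) ((1 : F) • w) := h3 1
  rwa [one_smul] at h6

end Gen

end Cfsg.Agent.H889.C7
end

-- part: H889/C7/Gen2
section
/-!
Generation of `E Q`: the main argument.
-/

set_option autoImplicit false
set_option linter.unusedSectionVars false
set_option linter.unusedVariables false
set_option linter.unusedSimpArgs false

namespace Cfsg.Agent.H889.C7

open Module Cfsg.Agent.H889 QuadraticMap
open Cfsg.Agent.LieClassical.OrthCore Cfsg.Agent.LieClassical.OrthTrans Cfsg.Agent.LieClassical.OrthFinite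
open Cfsg.Agent.H883.Root

variable {F : Type*} [Field F] {k : ℕ} {ω : LinearMap.BilinForm F (Fin k → F)}

section

variable {hω : Symp ω} {c₀ : F} {n : ℕ} {Q : QuadraticForm F (T F k (n + 1))}
  {M : Subgroup (Module.End F (T F k (n + 1)))ˣ}

/-- The image of `M`. -/
noncomputable abbrev Im (M : Subgroup (Module.End F (T F k (n + 1)))ˣ) : Subgroup (T F k (n + 1) ≃ₗ[F] T F k (n + 1)) :=
  M.map (LinearMap.GeneralLinearGroup.generalLinearEquiv F (T F k (n + 1))).toMonoidHom

theorem slot_map (hQ : QForm hω Q c₀) (hM : SlotsM ω M) {X Y : Fin (n + 1) → (Fin k → F)}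
    (h : Has Q (Im M) (tp X) (tp Y)) (i : Fin (n + 1)) {α : (Module.End F (Fin k → F))ˣ} (hα : IsoW ω α) :
    Has Q (Im M) (tp (Function.update X i (α.1 (X i)))) (tp (Function.update Y i (α.1 (Y i)))) := by
  have hO : Θ F (T F k (n + 1)) (sU i α) ∈ O Q := by
    refine fun v => hQ.preserve (g := sE i α.1) ?_ (fun xs => ⟨_, sE_tp i _ xs⟩) v
    intro xs ys
    rw [sE_tp, sE_tp, fT_tp, fT_tp]
    refine Finset.prod_congr rfl fun m _ => ?_
    by_cases h' : m = i
    · subst h'
      rw [Function.update_self, Function.update_self, hα]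
    · rw [Function.update_of_ne h', Function.update_of_ne h']
  have h1 := h.map hO ⟨sU i α, hM.sp i α hα, rfl⟩
  have e : ∀ Z : Fin (n + 1) → (Fin k → F), Θ F (T F k (n + 1)) (sU i α) (tp Z) =
      tp (Function.update Z i (α.1 (Z i))) := fun Z => sE_tp i _ Z
  rwa [e, e] at h1

theorem slots_map (hQ : QForm hω Q c₀) (hM : SlotsM ω M) {X Y : Fin (n + 1) → (Fin k → F)}
    (h : Has Q (Im M) (tp X) (tp Y)) {α : Fin (n + 1) → (Module.End F (Fin k → F))ˣ} (hα : ∀ i, IsoW ω (α i)) :
    Has Q (Im M) (tp fun i => (α i).1 (X i)) (tp fun i => (α i).1 (Y i)) := by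
  classical
  have key : ∀ S : Finset (Fin (n + 1)), Has Q (Im M) (tp fun i => if i ∈ S then (α i).1 (X i) else X i)
      (tp fun i => if i ∈ S then (α i).1 (Y i) else Y i) := by
    intro S
    induction S using Finset.induction_on with
    | empty => simpa using h
    | insert i S hi ih =>
      have h1 := slot_map hQ hM ih i (hα i)
      have e : ∀ Z : Fin (n + 1) → (Fin k → F), Function.update (fun i => if i ∈ S then (α i).1 (Z i) else Z i) i
          ((α i).1 ((fun i => if i ∈ S then (α i).1 (Z i) else Z i) i)) =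
          fun i' => if i' ∈ insert i S then (α i').1 (Z i') else Z i' := by
        intro Z
        funext i'
        by_cases h' : i' = i
        · subst h'
          rw [Function.update_self, if_pos (Finset.mem_insert_self _ _)]
          simp only [if_neg hi]
        · rw [Function.update_of_ne h']
          simp only [Finset.mem_insert, h', false_or]
      rw [e, e] at h1
      exact h1
  simpa using key Finset.univ

theorem perm_map (hQ : QForm hω Q c₀) (hM : SlotsM ω M) {X Y : Fin (n + 1) → (Fin k → F)} {c : F}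
    (h : Has Q (Im M) (tp X) (c • tp Y)) {π : Equiv.Perm (Fin (n + 1))} (hπ : Equiv.Perm.sign π = 1) :
    Has Q (Im M) (tp fun i => X (π.symm i)) (c • tp fun i => Y (π.symm i)) := by
  have h1 := h.map (hQ.pU_mem_O π) ⟨pU π, hM.al π hπ, rfl⟩
  have e : ∀ Z : Fin (n + 1) → (Fin k → F), Θ F (T F k (n + 1)) (pU π) (tp Z) = tp fun i => Z (π.symm i) :=
    fun Z => pE_tp π Z
  rwa [map_smul, e, e] at h1

/-- All adjacent pairs in slot `i`. -/
def Adj (ω : LinearMap.BilinForm F (Fin k → F)) (Q : QuadraticForm F (T F k (n + 1)))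
    (H : Subgroup (T F k (n + 1) ≃ₗ[F] T F k (n + 1))) (i : Fin (n + 1)) : Prop :=
  ∀ X : Fin (n + 1) → (Fin k → F), (∀ m, X m ≠ 0) → ∀ v, HasS Q H (tp X) (tp (Function.update X i v))

/-- All isotropic adjacent pairs in slot `i`. -/
def Adj0 (ω : LinearMap.BilinForm F (Fin k → F)) (Q : QuadraticForm F (T F k (n + 1)))
    (H : Subgroup (T F k (n + 1) ≃ₗ[F] T F k (n + 1))) (i : Fin (n + 1)) : Prop :=
  ∀ X : Fin (n + 1) → (Fin k → F), (∀ m, X m ≠ 0) → ∀ v, ω (X i) v = 0 → HasS Q H (tp X) (tp (Function.update X i v))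

/-- From the long root element. -/
theorem exists_adj (hQ : QForm hω Q c₀) (hn : 0 < n) (hsq : ∀ c : F, ∃ d e, c = d * d + e * e)
    (hM : SlotsM ω M) (hL : HasLong ω M) : ∃ j, Adj0 ω Q (Im M) j ∧ (k = 2 → Adj ω Q (Im M) j) := by
  classical
  obtain ⟨P, j, u₀, hP, hu₀, g, hg, e⟩ := hL
  refine ⟨j, ?_⟩
  set u := (-c₀⁻¹) • u₀ with hu
  have hc : -c₀⁻¹ ≠ 0 := neg_ne_zero.2 (inv_ne_zero hQ.ne)
  have hu' : ∀ c : F, u ≠ c • P j := by
    intro c hc'
    apply hu₀ ((-c₀⁻¹)⁻¹ * c)
    rw [mul_smul, ← hc', hu, inv_smul_smul₀ hc]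
  obtain ⟨l, hlj⟩ : ∃ l : Fin (n + 1), l ≠ j := by
    by_cases h : j = 0
    · refine ⟨Fin.last n, fun h' => ?_⟩
      rw [h] at h'
      have := congrArg Fin.val h'
      simp at this
      omega
    · exact ⟨0, Ne.symm h⟩
  have hpure := hQ.pure
  -- the first pair
  have h0 : Has Q (Im M) (tp P) (tp (Function.update P j u)) := by
    have hp : QuadraticMap.polar Q (tp P) (tp (Function.update P j u)) = 0 := by
      refine hQ.polar_zero l ?_
      rw [Function.update_of_ne hlj, hω.alt]
    refine ⟨hpure _, hp, ⟨g, hg, ?_⟩⟩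
    refine LinearEquiv.ext fun v => ?_
    rw [siegel_apply, hpure, zero_mul, zero_smul, sub_zero, hQ.polar, hQ.polar, hu, tp_update_smul]
    change g.1 v = _
    rw [e, LinearMap.add_apply, Module.End.one_apply, LinearMap.sub_apply, R1_apply, R1_apply, map_smul,
      LinearMap.smul_apply, smul_smul, smul_eq_mul]
    have e1 : ∀ f : F, c₀ * f * -c₀⁻¹ = -f := fun f => by
      have := hQ.ne
      field_simp
    have e2 : ∀ f : F, c₀ * (-c₀⁻¹ * f) = -f := fun f => by
      have := hQ.ne
      field_simp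
    rw [e1, e2, neg_smul, neg_smul]
    abel
  set d := ω (P j) u with hd
  -- all pairs with the same product
  have hA0 : ∀ X : Fin (n + 1) → (Fin k → F), (∀ m, X m ≠ 0) → ∀ v, ω (X j) v = d → (∀ c : F, v ≠ c • X j) →
      Has Q (Im M) (tp X) (tp (Function.update X j v)) := by
    intro X hX v hv hv'
    obtain ⟨β, hβ, hβP, hβu⟩ := exists_iso_pair' hω (hd.symm.trans hv.symm) (hP j) hu' (hX j) hv'
    have hm : ∀ m, ∃ α : (Module.End F (Fin k → F))ˣ, IsoW ω α ∧ α.1 (P m) = X m := fun m =>
      exists_iso_of_ne hω (hP m) (hX m)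
    choose α hα hαP using hm
    set γ : Fin (n + 1) → (Module.End F (Fin k → F))ˣ := Function.update α j β with hγ
    have hγi : ∀ m, IsoW ω (γ m) := by
      intro m
      by_cases h : m = j
      · rw [h, hγ, Function.update_self]; exact hβ
      · rw [hγ, Function.update_of_ne h]; exact hα m
    have h1 := slots_map hQ hM h0 hγi
    have e1 : (fun i => (γ i).1 (P i)) = X := by
      funext m
      by_cases h : m = j
      · rw [h, hγ, Function.update_self]; exact hβP
      · rw [hγ, Function.update_of_ne h]; exact hαP m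
    have e2 : (fun i => (γ i).1 (Function.update P j u i)) = Function.update X j v := by
      funext m
      by_cases h : m = j
      · rw [h, hγ, Function.update_self, Function.update_self, Function.update_self]; exact hβu
      · rw [hγ, Function.update_of_ne h, Function.update_of_ne h, Function.update_of_ne h]; exact hαP m
    rwa [e1, e2] at h1
  have hself : ∀ X : Fin (n + 1) → (Fin k → F), ∀ c : F, Has Q (Im M) (tp X) (tp (Function.update X j (c • X j))) := by
    intro X c
    rw [tp_update_smul, Function.update_eq_self]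
    exact has_self (hpure X) c
  -- isotropic pairs
  have hiso : ∀ X : Fin (n + 1) → (Fin k → F), (∀ m, X m ≠ 0) → ∀ v, ω (X j) v = 0 →
      Has Q (Im M) (tp X) (tp (Function.update X j v)) := by
    intro X hX v hv
    by_cases hv' : ∃ c : F, v = c • X j
    · obtain ⟨c, rfl⟩ := hv'
      exact hself X c
    push Not at hv'
    by_cases hd0 : d = 0
    · exact hA0 X hX v (hv.trans hd0.symm) hv'
    · obtain ⟨b, hb⟩ := hω.exists_pair (hX j)
      have hb1 : ω (X j) (d • b) = d := by rw [map_smul, hb, smul_eq_mul, mul_one]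
      have hne : ∀ y, ω (X j) y = d → ∀ c : F, y ≠ c • X j := by
        intro y hy c hc'
        rw [hc', map_smul, hω.alt, smul_zero] at hy
        exact hd0 hy.symm
      have h1 := hA0 X hX _ hb1 (hne _ hb1)
      have hb2 : ω (X j) (v + d • b) = d := by rw [map_add, hv, hb1, zero_add]
      have h2 := hA0 X hX _ hb2 (hne _ hb2)
      rw [tp_update_add] at h2
      exact h2.of_add_right h1
  have hisoS : Adj0 ω Q (Im M) j := by
    intro X hX v hv c
    rw [← tp_update_smul]
    exact hiso X hX _ (by rw [map_smul, hv, smul_zero])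
  refine ⟨hisoS, fun hk => ?_⟩
  have hd0 : d ≠ 0 := by
    intro h
    obtain ⟨c, hc'⟩ := perp_two hω hk (hP j) h
    exact hu' c hc'
  have hne : ∀ X : Fin (n + 1) → (Fin k → F), ∀ y, ω (X j) y = d → ∀ c : F, y ≠ c • X j := by
    intro X y hy c hc'
    rw [hc', map_smul, hω.alt, smul_zero] at hy
    exact hd0 hy.symm
  -- squares
  have hsqr : ∀ X : Fin (n + 1) → (Fin k → F), (∀ m, X m ≠ 0) → ∀ v, ω (X j) v = d → ∀ a : F,
      Has Q (Im M) (tp X) ((a * a) • tp (Function.update X j v)) := by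
    intro X hX v hv a
    by_cases ha : a = 0
    · rw [ha, mul_zero, zero_smul]
      exact has_zero (hpure X)
    have h1 := hA0 (Function.update X l (a • X l)) (fun m => by
      by_cases h : m = l
      · rw [h, Function.update_self]; exact smul_ne_zero ha (hX l)
      · rw [Function.update_of_ne h]; exact hX m) v (by rw [Function.update_of_ne (Ne.symm hlj)]; exact hv)
      (by rw [Function.update_of_ne (Ne.symm hlj)]; exact hne X v hv)
    rw [Function.update_comm hlj, tp_update_smul, tp_update_smul, Function.update_eq_self] at h1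
    have e2 : Function.update (Function.update X j v) l (X l) = Function.update X j v := by
      rw [← Function.update_of_ne hlj v X, Function.update_eq_self]
    rw [e2] at h1
    have hp : QuadraticMap.polar Q (tp X) (a • tp (Function.update X j v)) = 0 := by
      rw [polar_smul_right, hQ.polar_zero l (by rw [Function.update_of_ne hlj, hω.alt]), smul_zero]
    have h3 := h1.smul_right (hpure X) hp
    rwa [smul_smul] at h3
  intro X hX v c
  obtain ⟨b, hb⟩ := hω.exists_pair (hX j)
  have hb1 : ω (X j) (d • b) = d := by rw [map_smul, hb, smul_eq_mul, mul_one]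
  set f := ω (X j) v * d⁻¹ with hf
  have hy : ω (X j) (v - f • (d • b)) = 0 := by
    rw [map_sub, map_smul, hb1, smul_eq_mul, hf, inv_mul_cancel_right₀ hd0, sub_self]
  obtain ⟨s, t, hst⟩ := hsq (c * f)
  have h1 := (hsqr X hX _ hb1 s).add (hsqr X hX _ hb1 t)
  rw [← add_smul, ← hst] at h1
  have h2 := hisoS X hX _ hy c
  have h3 := h1.add h2
  have e3 : (c * f) • tp (Function.update X j (d • b)) + c • tp (Function.update X j (v - f • (d • b))) =
      c • tp (Function.update X j v) := by
    have e4 : v = (v - f • (d • b)) + f • (d • b) := by abel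
    conv_rhs => rw [e4, tp_update_add, tp_update_smul X j f (d • b)]
    rw [smul_add, mul_smul c f]
    exact add_comm _ _
  rwa [e3] at h3

/-- `Y j = X j` (`k ≥ 4`). -/
theorem stepA (hQ : QForm hω Q c₀) (hk : 4 ≤ k) (hn : 0 < n) {j : Fin (n + 1)} (hA : Adj0 ω Q (Im M) j)
    {X : Fin (n + 1) → (Fin k → F)} (hX : ∀ m, X m ≠ 0) {Y : Fin (n + 1) → (Fin k → F)} (hY : Y j = X j) :
    HasS Q (Im M) (tp X) (tp Y) := by
  classical
  have hpure := hQ.pure
  obtain ⟨l, hlj⟩ : ∃ l : Fin (n + 1), l ≠ j := by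
    by_cases h : j = 0
    · refine ⟨Fin.last n, fun h' => ?_⟩
      rw [h] at h'
      have := congrArg Fin.val h'
      simp at this
      omega
    · exact ⟨0, Ne.symm h⟩
  obtain ⟨z, hz, hz'⟩ := exists_perp_avoid hω ![X j] (X j) (by omega)
  have hz0 := hz 0
  simp only [Matrix.cons_val_zero, Matrix.cons_val_fin_one] at hz0
  obtain ⟨z', h1, h2⟩ := hω.exists_sep hz' trivial
  have h2' : ω (X j) z' = 0 := by rw [hω.skew, h2, neg_zero]
  have main : ∀ Y : Fin (n + 1) → (Fin k → F), (∀ i, Y i ∈ (Function.update (fun i => {y | ω (X i) y ≠ 0}) j {X j} : Fin (n + 1) → Set (Fin k → F)) i) →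
      tp Y ∈ SS (hpure X) (Im M) := by
    intro Y hY
    have hYj : Y j = X j := by
      have := hY j
      rw [Function.update_self] at this
      exact this
    have hYi : ∀ i, i ≠ j → ω (X i) (Y i) ≠ 0 := by
      intro i hi
      have := hY i
      rw [Function.update_of_ne hi] at this
      exact this
    have hYne : ∀ i, Y i ≠ 0 := by
      intro i h
      by_cases hi : i = j
      · rw [hi, hYj] at h; exact hX j h
      · exact hYi i hi (by rw [h, map_zero])
    rw [mem_SS]
    have b1 := hA X hX z hz0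
    have b2 := hA Y hYne z' (by rw [hYj]; exact h2') 1
    rw [one_smul] at b2
    refine HasS.comm b1 b2 (hpure _) ?_ ?_ ?_ ?_
    · refine hQ.polar_zero j ?_
      rw [Function.update_self]; exact h2
    · refine hQ.polar_zero j ?_
      rw [hYj, hω.alt]
    · refine hQ.polar_zero j ?_
      rw [hYj, Function.update_self, hz0]
    · refine hQ.polar_ne fun i => ?_
      by_cases hi : i = j
      · rw [hi, Function.update_self, Function.update_self, h1]; exact one_ne_zero
      · rw [Function.update_of_ne hi, Function.update_of_ne hi, hω.skew]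
        exact neg_ne_zero.2 (hYi i hi)
  refine tp_span (SS (hpure X) (Im M)) _ main Y fun i => ?_
  by_cases hi : i = j
  · rw [hi, Function.update_self, hY]
    exact Submodule.subset_span rfl
  · rw [Function.update_of_ne hi, span_nonperp hω (hX i)]
    trivial

theorem stepB (hQ : QForm hω Q c₀) (hk : 4 ≤ k) (hA : ∀ j, Adj ω Q (Im M) j)
    {X : Fin (n + 1) → (Fin k → F)} (hX : ∀ m, X m ≠ 0) (j : Fin (n + 1)) {Y : Fin (n + 1) → (Fin k → F)}
    (hY : ω (X j) (Y j) = 0) : HasS Q (Im M) (tp X) (tp Y) := by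
  classical
  have hpure := hQ.pure
  have main : ∀ Y : Fin (n + 1) → (Fin k → F), (∀ i, Y i ∈ (Function.update (fun i => {y | ω (X i) y ≠ 0}) j
      {y | ω (X j) y = 0} : Fin (n + 1) → Set (Fin k → F)) i) → tp Y ∈ SS (hpure X) (Im M) := by
    intro Y hY
    have hYj : ω (X j) (Y j) = 0 := by
      have := hY j
      rw [Function.update_self] at this
      exact this
    have hYi : ∀ i, i ≠ j → ω (X i) (Y i) ≠ 0 := by
      intro i hi
      have := hY i
      rw [Function.update_of_ne hi] at this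
      exact this
    by_cases hYj0 : Y j = 0
    · rw [tp_eq_zero hYj0]; exact Submodule.zero_mem _
    have hYne : ∀ i, Y i ≠ 0 := by
      intro i h
      by_cases hi : i = j
      · rw [hi] at h; exact hYj0 h
      · exact hYi i hi (by rw [h, map_zero])
    -- `z ⊥ Y j`, `z' ⊥ X j`, `ω z' z ≠ 0`
    obtain ⟨z, hz, hz'⟩ := exists_perp_avoid hω ![Y j] (X j) (by omega)
    have hz0 := hz 0
    simp only [Matrix.cons_val_zero, Matrix.cons_val_fin_one] at hz0
    obtain ⟨z', h1, h2⟩ := hω.exists_sep hz' trivial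
    rw [mem_SS]
    have b1 := hA j X hX z
    have b2 := hA j Y hYne z' 1
    rw [one_smul] at b2
    refine HasS.comm b1 b2 (hpure _) ?_ ?_ ?_ ?_
    · refine hQ.polar_zero j ?_
      rw [Function.update_self]; exact h2
    · refine hQ.polar_zero j ?_
      rw [hω.skew, hYj, neg_zero]
    · refine hQ.polar_zero j ?_
      rw [Function.update_self, hz0]
    · refine hQ.polar_ne fun i => ?_
      by_cases hi : i = j
      · rw [hi, Function.update_self, Function.update_self, h1]; exact one_ne_zero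
      · rw [Function.update_of_ne hi, Function.update_of_ne hi, hω.skew]
        exact neg_ne_zero.2 (hYi i hi)
  refine tp_span (SS (hpure X) (Im M)) _ main Y fun i => ?_
  by_cases hi : i = j
  · rw [hi, Function.update_self]
    exact Submodule.subset_span hY
  · rw [Function.update_of_ne hi, span_nonperp hω (hX i)]
    trivial

/-- `Y m = X m`, `Y b = X b`. -/
theorem stepA2 (hQ : QForm hω Q c₀) (hA : ∀ j, Adj ω Q (Im M) j)
    {X : Fin (n + 1) → (Fin k → F)} (hX : ∀ m, X m ≠ 0) {m b : Fin (n + 1)} (hmb : m ≠ b)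
    {Y : Fin (n + 1) → (Fin k → F)} (hYm : Y m = X m) (hYb : Y b = X b) :
    HasS Q (Im M) (tp X) (tp Y) := by
  classical
  have hpure := hQ.pure
  obtain ⟨z, hz⟩ := hω.exists_pair (hX m)
  obtain ⟨z', hz'⟩ := hω.exists_pair (hX b)
  have main : ∀ Y : Fin (n + 1) → (Fin k → F), (∀ i, Y i ∈ (Function.update (Function.update
      (fun i => {y | ω (X i) y ≠ 0}) m {X m}) b {X b} : Fin (n + 1) → Set (Fin k → F)) i) →
      tp Y ∈ SS (hpure X) (Im M) := by
    intro Y hY
    have hYb : Y b = X b := by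
      have := hY b
      rw [Function.update_self] at this
      exact this
    have hYm : Y m = X m := by
      have := hY m
      rw [Function.update_of_ne hmb, Function.update_self] at this
      exact this
    have hYi : ∀ i, i ≠ m → i ≠ b → ω (X i) (Y i) ≠ 0 := by
      intro i hi hi'
      have := hY i
      rw [Function.update_of_ne hi', Function.update_of_ne hi] at this
      exact this
    have hYne : ∀ i, Y i ≠ 0 := by
      intro i h
      by_cases hi : i = m
      · rw [hi, hYm] at h; exact hX m h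
      · by_cases hi' : i = b
        · rw [hi', hYb] at h; exact hX b h
        · exact hYi i hi hi' (by rw [h, map_zero])
    rw [mem_SS]
    have b1 := hA m X hX z
    have b2 := hA b Y hYne z' 1
    rw [one_smul] at b2
    refine HasS.comm b1 b2 (hpure _) ?_ ?_ ?_ ?_
    · refine hQ.polar_zero m ?_
      rw [Function.update_of_ne hmb, hYm, hω.alt]
    · refine hQ.polar_zero m ?_
      rw [hYm, hω.alt]
    · refine hQ.polar_zero b ?_
      rw [Function.update_of_ne (Ne.symm hmb), hYb, hω.alt]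
    · refine hQ.polar_ne fun i => ?_
      by_cases hi : i = m
      · rw [hi, Function.update_of_ne hmb, Function.update_self, hYm, hz]; exact one_ne_zero
      · by_cases hi' : i = b
        · rw [hi', Function.update_self, Function.update_of_ne (Ne.symm hmb), hω.skew, hz']
          exact neg_ne_zero.2 one_ne_zero
        · rw [Function.update_of_ne hi', Function.update_of_ne hi, hω.skew]
          exact neg_ne_zero.2 (hYi i hi hi')
  refine tp_span (SS (hpure X) (Im M)) _ main Y fun i => ?_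
  by_cases hi' : i = b
  · rw [hi', Function.update_self, hYb]
    exact Submodule.subset_span rfl
  · by_cases hi : i = m
    · rw [Function.update_of_ne hi', hi, Function.update_self, hYm]
      exact Submodule.subset_span rfl
    · rw [Function.update_of_ne hi', Function.update_of_ne hi, span_nonperp hω (hX i)]
      trivial

/-- `Y m = X m`, at least four slots. -/
theorem stepB2 (hQ : QForm hω Q c₀) (hn : 3 ≤ n) (hA : ∀ j, Adj ω Q (Im M) j)
    {X : Fin (n + 1) → (Fin k → F)} (hX : ∀ m, X m ≠ 0) (m : Fin (n + 1))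
    {Y : Fin (n + 1) → (Fin k → F)} (hYm : Y m = X m) :
    HasS Q (Im M) (tp X) (tp Y) := by
  classical
  have hpure := hQ.pure
  -- three more slots
  obtain ⟨b, hbm⟩ : ∃ b : Fin (n + 1), b ≠ m := by
    have : Nontrivial (Fin (n + 1)) := Fin.nontrivial_iff_two_le.2 (by omega)
    exact exists_ne m
  obtain ⟨c₁, c₂, hc₁m, hc₁b, hc₂m, hc₂b, hcc⟩ : ∃ c₁ c₂ : Fin (n + 1), c₁ ≠ m ∧ c₁ ≠ b ∧ c₂ ≠ m ∧ c₂ ≠ b ∧ c₁ ≠ c₂ := by
    have h1 : 2 ≤ (Finset.univ \ {m, b} : Finset (Fin (n + 1))).card := by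
      rw [Finset.card_sdiff_of_subset (Finset.subset_univ _), Finset.card_univ, Fintype.card_fin]
      have : ({m, b} : Finset (Fin (n + 1))).card ≤ 2 := Finset.card_le_two
      omega
    obtain ⟨c₁, hc₁, c₂, hc₂, hne⟩ := Finset.one_lt_card.1 (by omega : 1 < (Finset.univ \ {m, b} : Finset (Fin (n + 1))).card)
    simp only [Finset.mem_sdiff, Finset.mem_univ, true_and, Finset.mem_insert, Finset.mem_singleton, not_or] at hc₁ hc₂
    exact ⟨c₁, c₂, hc₁.1, hc₁.2, hc₂.1, hc₂.2, hne⟩
  obtain ⟨z, hz⟩ := hω.exists_pair (hX m)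
  have main : ∀ Y : Fin (n + 1) → (Fin k → F), (∀ i, Y i ∈ (Function.update
      (fun i => {y | ω (X i) y ≠ 0}) m {X m} : Fin (n + 1) → Set (Fin k → F)) i) →
      tp Y ∈ SS (hpure X) (Im M) := by
    intro Y hY
    have hYm : Y m = X m := by
      have := hY m
      rw [Function.update_self] at this
      exact this
    have hYi : ∀ i, i ≠ m → ω (X i) (Y i) ≠ 0 := by
      intro i hi
      have := hY i
      rw [Function.update_of_ne hi] at this
      exact this
    have hYne : ∀ i, Y i ≠ 0 := by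
      intro i h
      by_cases hi : i = m
      · rw [hi, hYm] at h; exact hX m h
      · exact hYi i hi (by rw [h, map_zero])
    obtain ⟨z', hz'⟩ := hω.exists_pair (hYne b)
    rw [mem_SS]
    have b1 : HasS Q (Im M) (tp X) (tp (Function.update (Function.update X m z) b (Y b))) :=
      stepA2 hQ hA hX hcc (by rw [Function.update_of_ne hc₁b, Function.update_of_ne hc₁m])
        (by rw [Function.update_of_ne hc₂b, Function.update_of_ne hc₂m])
    have b2 := hA b Y hYne z' 1
    rw [one_smul] at b2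
    refine HasS.comm b1 b2 (hpure _) ?_ ?_ ?_ ?_
    · refine hQ.polar_zero m ?_
      rw [Function.update_of_ne (Ne.symm hbm), hYm, hω.alt]
    · refine hQ.polar_zero m ?_
      rw [hYm, hω.alt]
    · refine hQ.polar_zero b ?_
      rw [Function.update_self, hω.alt]
    · refine hQ.polar_ne fun i => ?_
      by_cases hi : i = m
      · rw [hi, Function.update_of_ne (Ne.symm hbm), Function.update_of_ne (Ne.symm hbm), Function.update_self, hYm, hz]
        exact one_ne_zero
      · by_cases hi' : i = b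
        · rw [hi', Function.update_self, Function.update_self, hω.skew, hz']
          exact neg_ne_zero.2 one_ne_zero
        · rw [Function.update_of_ne hi', Function.update_of_ne hi', Function.update_of_ne hi, hω.skew]
          exact neg_ne_zero.2 (hYi i hi)
  refine tp_span (SS (hpure X) (Im M)) _ main Y fun i => ?_
  by_cases hi : i = m
  · rw [hi, Function.update_self, hYm]
    exact Submodule.subset_span rfl
  · rw [Function.update_of_ne hi, span_nonperp hω (hX i)]
    trivial

/-- Moving adjacency by even permutations. -/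
theorem adj_perm (hQ : QForm hω Q c₀) (hn : 2 ≤ n) (hM : SlotsM ω M) {j : Fin (n + 1)}
    (hA : Adj ω Q (Im M) j) (i : Fin (n + 1)) : Adj ω Q (Im M) i := by
  classical
  by_cases hij : i = j
  · rw [hij]; exact hA
  obtain ⟨l, hli, hlj⟩ : ∃ l : Fin (n + 1), l ≠ i ∧ l ≠ j := by
    by_contra hcon
    push Not at hcon
    have h1 : (Finset.univ : Finset (Fin (n + 1))) ⊆ {i, j} := by
      intro l _
      by_cases h2 : l = i
      · simp [h2]
      · simp [hcon l h2]
    have h2 := Finset.card_le_card h1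
    rw [Finset.card_univ, Fintype.card_fin] at h2
    have h3 : ({i, j} : Finset (Fin (n + 1))).card ≤ 2 := Finset.card_le_two
    omega
  set π : Equiv.Perm (Fin (n + 1)) := Equiv.swap j l * Equiv.swap j i with hπ
  have hsign : Equiv.Perm.sign π = 1 := by
    rw [hπ, Equiv.Perm.sign_mul, Equiv.Perm.sign_swap (Ne.symm hlj), Equiv.Perm.sign_swap (Ne.symm hij)]
    decide
  have hπj : π j = i := by
    rw [hπ, Equiv.Perm.mul_apply, Equiv.swap_apply_left, Equiv.swap_apply_of_ne_of_ne hij (Ne.symm hli)]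
  intro X hX v c
  have h1 := hA (fun m => X (π m)) (fun m => hX _) v c
  have h2 := perm_map hQ hM h1 hsign
  have e1 : (fun i => X (π (π.symm i))) = X := by
    funext m
    rw [Equiv.apply_symm_apply]
  have e2 : (fun i' => Function.update (fun m => X (π m)) j v (π.symm i')) = Function.update X i v := by
    funext m
    by_cases h : m = i
    · rw [h, Function.update_self]
      have : π.symm i = j := by rw [Equiv.symm_apply_eq, hπj]
      rw [this, Function.update_self]
    · rw [Function.update_of_ne h, Function.update_of_ne, Equiv.apply_symm_apply]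
      intro h'
      apply h
      rw [Equiv.symm_apply_eq, hπj] at h'
      exact h'
  rw [e2] at h2
  have e3 : tp (fun i => (fun m => X (π m)) (π.symm i)) = tp X := congrArg tp e1
  rwa [e3] at h2

/-- **Generation.** -/
theorem E_le_of_hasLong (hk : 4 ≤ k ∧ 1 ≤ n ∨ k = 2 ∧ 3 ≤ n) (hQ : QForm hω Q c₀) (hG : Good Q)
    (hsq : ∀ c : F, ∃ d e, c = d * d + e * e) (hM : SlotsM ω M) (hL : HasLong ω M) : E Q ≤ Im M := by
  have hperp : ∀ X : Fin (n + 1) → (Fin k → F), (∀ m, X m ≠ 0) → ∀ (m : Fin (n + 1)) (Y : Fin (n + 1) → (Fin k → F)),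
      ω (X m) (Y m) = 0 → HasS Q (Im M) (tp X) (tp Y) := by
    rcases hk with ⟨hk, hn⟩ | ⟨hk, hn⟩
    · obtain ⟨j, hA0, -⟩ := exists_adj hQ (by omega) hsq hM hL
      have hAdj : ∀ j, Adj0 ω Q (Im M) j → ∀ i, i ≠ j → Adj ω Q (Im M) i := by
        intro j hj i hij X hX v
        exact stepA hQ hk (by omega) hj hX (by rw [Function.update_of_ne (Ne.symm hij)])
      have hall : ∀ i, Adj ω Q (Im M) i := by
        intro i
        by_cases hij : i = j
        · obtain ⟨l, hlj⟩ : ∃ l : Fin (n + 1), l ≠ j := by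
            have : Nontrivial (Fin (n + 1)) := Fin.nontrivial_iff_two_le.2 (by omega)
            exact exists_ne j
          have h1 := hAdj j hA0 l hlj
          rw [hij]
          exact hAdj l (fun X hX v _ => h1 X hX v) j (Ne.symm hlj)
        · exact hAdj j hA0 i hij
      exact fun X hX m Y hY => stepB hQ hk hall hX m hY
    · obtain ⟨j, -, hA⟩ := exists_adj hQ (by omega) hsq hM hL
      have hall : ∀ i, Adj ω Q (Im M) i := adj_perm hQ (by omega) hM (hA hk)
      intro X hX m Y hY
      obtain ⟨c, hc⟩ := perp_two hω hk (hX m) hY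
      have h1 := stepB2 hQ hn hall hX m (Y := Function.update Y m (X m)) (by rw [Function.update_self])
      have e : tp Y = c • tp (Function.update Y m (X m)) := by
        rw [← tp_update_smul, ← hc, Function.update_eq_self]
      rw [e]
      intro c'
      rw [smul_smul]
      exact h1 _
  have hfull : ∀ X : Fin (n + 1) → (Fin k → F), (∀ m, X m ≠ 0) → Full Q (Im M) (tp X) :=
    fun X hX => full_of_perp hQ hX (hperp X hX)
  obtain ⟨P, -, -, hP, -⟩ := hL
  have hf : ∀ i, ∃ f, ω (P i) f = 1 := fun i => hω.exists_pair (hP i)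
  choose f hf using hf
  have hf0 : ∀ i, f i ≠ 0 := by
    intro i h
    have := hf i
    rw [h, map_zero] at this
    exact zero_ne_one this
  exact E_le_of_full_pair hG (hfull P hP) (hfull f hf0) (hQ.polar_ne fun i => by rw [hf]; exact one_ne_zero)

end

end Cfsg.Agent.H889.C7
end

-- part: S5706
section
set_option autoImplicit false
open Cfsg

namespace Cfsg.Agent.S5706

open Cfsg.Agent.H889 Cfsg.Agent.H889.C7 Cfsg.Geo

theorem two_ne_of_odd {F : Type*} [Field F] [Fintype F] (h2 : (2 : F) ≠ 0) : Odd (Fintype.card F) := by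
  have h3 : ringChar F ≠ 2 := by
    intro h3
    apply h2
    have := ringChar.Nat.cast_ringChar (R := F)
    rw [h3] at this
    exact_mod_cast this
  exact Nat.odd_iff.2 (FiniteField.odd_card_of_char_ne_two h3)

/-- Let F be a finite field with q elements, n ≥ 13 even, Q a non-degenerate quadratic form on F^n of plus type (some subspace of dimension n/2 is totally singular), and Ω the commutator subgroup of the isometry group of Q, viewed inside GL_n(F). Suppose that, through a change of basis P and a bijection of index sets e, the polar form of Q is similar to the t-fold tensor power (t ≥ 2) of a non-degenerate symplectic form f₁ on F^k, that Q vanishes on the images of all pure tensors, that t is even if q is odd, that (q, k) is neither (2, 2) nor (3, 2), and that k ≥ 6 if q is even. Then the elements of Ω in the stabiliser of this decomposition form a maximal subgroup of Ω. -/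
theorem result {F : Type*} [Field F] [Fintype F] {n : ℕ} (hn : 13 ≤ n) (heven : Even n) (Q : (Fin n → F) → F) (hQ : Cfsg.Geo.IsNondegenerateQuadraticForm Q) (hplus : Cfsg.Geo.IsPlusTypeOn Q ⊤) (k t : ℕ) (ht : 2 ≤ t) (hqt : Odd (Fintype.card F) → Even t) (hex1 : ¬ (Fintype.card F = 2 ∧ k = 2)) (hex2 : ¬ (Fintype.card F = 3 ∧ k = 2)) (hex3 : ¬ Odd (Fintype.card F) → 6 ≤ k) (e : (Fin n) ≃ (Fin t → Fin k)) (P : Matrix.GeneralLinearGroup (Fin n) F) (f₁ : (Fin k → F) → (Fin k → F) → F) (hf₁ : Cfsg.Geo.IsSymplecticForm f₁) (hT : Cfsg.Geo.IsTensorPowerFormStructure id (QuadraticMap.polar Q) f₁ e P) (hpure : (∀ xs : Fin t → (Fin k → F), Q (Matrix.mulVec (P : Matrix (Fin n) (Fin n) F) ((fun a : Fin t → Fin k => ∏ i, xs i (a i)) ∘ e)) = 0)) : Cfsg.Geo.IsMaximalIn (Cfsg.Geo.omegaGL Q) (Cfsg.Geo.tensorWreathSubgroup k t e P ⊓ Cfsg.Geo.omegaGL Q) := by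
  classical
  obtain ⟨N, rfl⟩ : ∃ N, t = N + 2 := ⟨t - 2, by omega⟩
  -- the form `ω`
  let ω : LinearMap.BilinForm F (Fin k → F) := LinearMap.mk₂ F f₁ hf₁.bilinear.add_left
    (fun c x y => by rw [hf₁.bilinear.smul_left, smul_eq_mul]) hf₁.bilinear.add_right
    (fun c x y => by rw [hf₁.bilinear.smul_right, smul_eq_mul])
  have hωf : ∀ x y, ω x y = f₁ x y := fun x y => rfl
  have hω : Symp ω := by
    refine ⟨hf₁.alternating, fun u hu => ?_⟩
    by_contra h0
    obtain ⟨-, x, hx⟩ := hf₁.nondegenerate u h0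
    exact hx (hu x)
  have hcard : Fintype.card (Fin (N + 2) → Fin k) = n := by
    rw [← Fintype.card_congr e, Fintype.card_fin]
  -- evenness of `k`
  have hke : Even k := by
    have h := Cfsg.Agent.GpSp.Symp.even_of_nondeg ω (fun v => hω.alt v) (fun u hu => hω.nd u hu)
    rw [Module.finrank_fintype_fun_eq_card, Fintype.card_fin] at h
    obtain ⟨m, hm⟩ := h
    exact ⟨m, by omega⟩
  have hk0 : k ≠ 0 := by
    rintro rfl
    rw [Fintype.card_fun, Fintype.card_fin, Fintype.card_fin, zero_pow (by omega)] at hcard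
    omega
  have hk2 : 2 ≤ k := by
    obtain ⟨r, hr⟩ := hke
    omega
  -- the quadratic form
  obtain ⟨Q₀, hQ₀, hnd⟩ := Cfsg.Agent.H883.Bridge.exists_quadraticForm (pullForm_nondegenerate e P Q hQ)
  obtain ⟨c₀, hc₀, hpol⟩ := polar_pullForm_tp e P Q f₁ hf₁.bilinear hT
  have hQF : QForm hω Q₀ c₀ := by
    refine ⟨hc₀, ?_, ?_⟩
    · have h1 : QuadraticMap.polarBilin Q₀ = c₀ • fT ω (N + 2) := by
        refine bilin_ext fun xs ys => ?_
        rw [QuadraticMap.polarBilin_apply_apply, hQ₀, hpol]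
        change _ = c₀ • fT ω (N + 2) (tp xs) (tp ys)
        rw [fT_tp, smul_eq_mul]
        rfl
      intro x y
      have h2 := LinearMap.congr_fun (LinearMap.congr_fun h1 x) y
      exact h2
    · intro xs
      rw [hQ₀]
      exact hpure xs
  have hG := Cfsg.Agent.H883.Bridge.good_of_card hnd (by rw [hcard]; omega)
  have hchar : (2 : F) ≠ 0 → Odd (Fintype.card F) := two_ne_of_odd
  have hodd : (2 : F) ≠ 0 → Even N := by
    intro h2
    obtain ⟨r, hr⟩ := hqt (hchar h2)
    exact ⟨r - 1, by omega⟩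
  have hchar' : (2 : F) = 0 → ¬ Odd (Fintype.card F) := by
    intro h2 hodd
    have hc : ((Fintype.card F : ℕ) : F) = 0 := Nat.cast_card_eq_zero F
    obtain ⟨r, hr⟩ := hodd
    rw [hr] at hc
    push_cast at hc
    rw [h2, zero_mul, zero_add] at hc
    exact one_ne_zero hc
  have hK : KOK F k := by
    by_cases h2 : (2 : F) = 0
    · exact Or.inr (Or.inr (hex3 (hchar' h2)))
    · by_cases hk : k = 2
      · refine Or.inl ⟨hk, h2, ?_⟩
        have h3 : Fintype.card F ≠ 3 := fun h => hex2 ⟨h, hk⟩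
        have h4 := Fintype.one_lt_card (α := F)
        obtain ⟨r, hr⟩ := hchar h2
        omega
      · refine Or.inr (Or.inl ⟨?_, h2⟩)
        obtain ⟨r, hr⟩ := hke
        omega
  have hk4 : 4 ≤ k ∨ 2 ≤ N := by
    by_contra hcon
    push Not at hcon
    have hk : k = 2 := by
      obtain ⟨r, hr⟩ := hke
      omega
    subst hk
    rw [Fintype.card_fun, Fintype.card_fin, Fintype.card_fin] at hcard
    have : (2 : ℕ) ^ (N + 2) ≤ 2 ^ 3 := Nat.pow_le_pow_right (by norm_num) (by omega)
    omega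
  rw [tensorWreathSubgroup_eq]
  apply isMaximalIn_of_pull
  rw [← hQ₀]
  have hsq : ∀ c : F, ∃ d e, c = d * d + e * e := by
    intro c
    by_cases h2 : (2 : F) = 0
    · have hchar : CharP F 2 := CharTwo.of_one_ne_zero_of_two_eq_zero (one_ne_zero (α := F)) h2
      obtain ⟨d, hd⟩ := FiniteField.isSquare_of_char_two (F := F) (ringChar.eq F 2) c
      exact ⟨d, 0, by rw [mul_zero, add_zero]; exact hd⟩
    · obtain ⟨a, b, hab⟩ := FiniteField.exists_root_sum_quadratic (R := F) (f := Polynomial.X ^ 2)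
        (g := Polynomial.X ^ 2 - Polynomial.C c)
        (Polynomial.degree_X_pow 2) (by rw [Polynomial.degree_X_pow_sub_C (by norm_num)]; rfl)
        (Nat.odd_iff.1 (hchar h2))
      refine ⟨a, b, ?_⟩
      rw [Polynomial.eval_pow, Polynomial.eval_X, Polynomial.eval_sub, Polynomial.eval_pow, Polynomial.eval_X,
        Polynomial.eval_C] at hab
      linear_combination -hab
  have hkn : 4 ≤ k ∧ 1 ≤ N + 1 ∨ k = 2 ∧ 3 ≤ N + 1 := by
    obtain ⟨r, hr⟩ := hke
    omega
  exact maximal_std hω hQF hG hK hke hk4 hodd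
    (fun M' hM' hL => E_le_of_hasLong hkn hQF hG hsq hM' hL)
    (fun hk h2 M' hM' hiso => Cfsg.Agent.H874.odd_end hω hk h2 (hodd h2) hM' hiso)

end Cfsg.Agent.S5706
end
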