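import Cfsg.Statements.S5708
import Cfsg.Agent.H883.C7.Final
set_option linter.all false

set_option autoImplicit false
open Cfsg

namespace Cfsg.Agent.S5708

/-- Let F be a finite field with q elements, n ≥ 13 even, Q a non-degenerate quadratic form on F^n of plus type (some subspace of dimension n/2 is totally singular), and Ω the commutator subgroup of the isometry group of Q, viewed inside GL_n(F). Suppose q is odd and that, through a change of basis P and a bijection of index sets e, the polar form of Q is similar to the t-fold tensor power (t ≥ 2) of a non-degenerate symmetric bilinear form f₁ on F^k with k even, where either k ≥ 6 and f₁ has a totally isotropic subspace of dimension k/2 (plus type), or k ≥ 4 and it has none (minus type). Then the elements of Ω in the stabiliser of this decomposition form a maximal subgroup of Ω. -/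
theorem result {F : Type*} [Field F] [Fintype F] {n : ℕ} (hn : 13 ≤ n) (heven : Even n) (Q : (Fin n → F) → F) (hQ : Cfsg.Geo.IsNondegenerateQuadraticForm Q) (hplus : Cfsg.Geo.IsPlusTypeOn Q ⊤) (hodd : Odd (Fintype.card F)) (k t : ℕ) (ht : 2 ≤ t) (hke : Even k) (e : (Fin n) ≃ (Fin t → Fin k)) (P : Matrix.GeneralLinearGroup (Fin n) F) (f₁ : (Fin k → F) → (Fin k → F) → F) (hf₁ : Cfsg.Geo.IsSymmetricForm f₁) (hsize : (6 ≤ k ∧ Cfsg.Geo.IsPlusTypeOn (fun v : Fin k → F => f₁ v v) ⊤) ∨ (4 ≤ k ∧ ¬ Cfsg.Geo.IsPlusTypeOn (fun v : Fin k → F => f₁ v v) ⊤)) (hT : Cfsg.Geo.IsTensorPowerFormStructure id (QuadraticMap.polar Q) f₁ e P) : Cfsg.Geo.IsMaximalIn (Cfsg.Geo.omegaGL Q) (Cfsg.Geo.tensorWreathSubgroup k t e P ⊓ Cfsg.Geo.omegaGL Q) := by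
  classical
  have hcard := Fintype.card_congr e
  have hF : Finite F := inferInstance
  refine Cfsg.Agent.H829.C7.s5708_of hn heven Q hQ hplus hodd k t ht hke e P f₁ hf₁ hsize hT (fun q H => ?_) (fun q H M hM => ?_)
  · exact Cfsg.Agent.H161.C7.exists_not_carries H (by simpa using ht) (by
      simp only [Fintype.card_fin, Fintype.card_fun, Fintype.card_sum, Fintype.card_unit] at hcard ⊢
      omega)
  · exact Cfsg.Agent.H883.C7.main H (by simpa using ht) M hM


end Cfsg.Agent.S5708
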