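import Cfsg.Statements.S5793
import Cfsg.Agent.H917.LinWrap
import Cfsg.Agent.H915.SLWrap
set_option linter.all false

set_option autoImplicit false
open Cfsg

namespace Cfsg.Agent.S5793

/-- The smallest odd-degree field of characteristic `p` with fifth roots of unity is `𝔽_p`. -/
private theorem minimal_five {F : Type*} [Field F] [Fintype F] {p e : ℕ} (he : Odd e)
    (h : Cfsg.Geo.IsMinimalFieldFor 5 p e F) :
    p.Prime ∧ Fintype.card F = p ∧ p % 5 = 1 := by
  obtain ⟨hp, -, hc, hd, hm⟩ := h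
  have hpos : ∀ d : ℕ, 1 ≤ p ^ d := fun d => Nat.one_le_pow _ _ hp.pos
  have hmod : ∀ d : ℕ, 5 ∣ p ^ d - 1 ↔ p ^ d % 5 = 1 := fun d => by
    have := hpos d
    omega
  simp only [hmod] at hd hm
  have he0 : 0 < e := he.pos
  have hp5 : p % 5 ≠ 0 := by
    intro h0
    have : p ^ e % 5 = 0 := by
      rw [Nat.pow_mod, h0, Nat.zero_pow he0]
    omega
  have h4 : p ^ 4 % 5 = 1 := by
    have hlt : p % 5 < 5 := Nat.mod_lt _ (by norm_num)
    rw [Nat.pow_mod]
    interval_cases hpp : p % 5 <;> simp_all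
  have hle : e ≤ 4 := by
    by_contra hlt
    exact hm 4 (by norm_num) (by omega) h4
  have hcases : e = 1 ∨ e = 3 := by
    obtain ⟨k, rfl⟩ := he
    omega
  rcases hcases with rfl | rfl
  · rw [pow_one] at hc hd
    exact ⟨hp, hc, hd⟩
  · exfalso
    have h1 := hm 1 (by norm_num) (by norm_num)
    rw [pow_one] at h1
    have h3 : p ^ 3 % 5 = 1 := hd
    have hlt : p % 5 < 5 := Nat.mod_lt _ (by norm_num)
    rw [Nat.pow_mod] at h3
    interval_cases hpp : p % 5 <;> simp_all

/-- Every maximal subgroup of SL_5(q) is of one of the listed geometric types or lies in the residual class. Let F be a finite field with q elements (p its characteristic) and H a maximal subgroup of SL_5(F) (inside GL_5(F)). Then H is the intersection with SL_5(F) of one of: the stabiliser of a proper non-zero subspace; for q ≥ 5, the stabiliser of a decomposition into 5 independent 1-spaces; the normaliser of a degree-5 subfield of the matrix algebra; a subfield group for a subfield F₀ with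 |F| = |F₀|^r, r prime; for q = p prime with p ≡ 1 mod 5, the normaliser of an absolutely irreducible 5-subgroup R of exponent 5 and order 5^(1+2m) with centre of order 5, all of whose characteristic abelian subgroups are cyclic, F being the smallest field of characteristic p containing the fifth roots of unity (here R is extraspecial of order 125); for q odd, the similarity group of a non-degenerate quadratic form; the similarity group of a non-degenerate unitary form — or else H lies in the residual class of the linear case (modulo scalars H is almost simple, with absolutely irreducible perfect socle preimage realisable over no proper subfield and fixing no non-degenerate quadratic, symplectic or unitary form). -/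
theorem result {F : Type*} [Field F] [Fintype F] (H : Subgroup (Matrix.GeneralLinearGroup (Fin 5) F)) (hH : Cfsg.Geo.IsMaximalIn (Cfsg.Geo.specialLinear (Fin 5) F) H) :
    (∃ W : Submodule F (Fin 5 → F), W ≠ ⊥ ∧ W ≠ ⊤ ∧ H = Cfsg.Geo.subspaceStabilizer W ⊓ Cfsg.Geo.specialLinear (Fin 5) F) ∨
    (5 ≤ Fintype.card F ∧ ∃ D : Fin 5 → Submodule F (Fin 5 → F), Cfsg.Geo.IsMDecomposition 1 D ∧ H = Cfsg.Geo.decompositionStabilizer D ⊓ Cfsg.Geo.specialLinear (Fin 5) F) ∨
    (∃ K : Subalgebra F (Matrix (Fin 5) (Fin 5) F), Cfsg.Geo.IsFieldSubalgebra 5 K ∧ H = Cfsg.Geo.subalgebraNormalizer K ⊓ Cfsg.Geo.specialLinear (Fin 5) F) ∨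
    (∃ (F₀ : Subfield F) (r : ℕ) (P : Matrix.GeneralLinearGroup (Fin 5) F), r.Prime ∧ Fintype.card F = Nat.card F₀ ^ r ∧ H = Cfsg.Geo.subfieldSubgroup F₀ P ⊓ Cfsg.Geo.specialLinear (Fin 5) F) ∨
    ((∃ p : ℕ, p.Prime ∧ Fintype.card F = p ∧ (p % 5 = 1)) ∧ ∃ R : Subgroup (Matrix.GeneralLinearGroup (Fin 5) F), Cfsg.Geo.IsLinearSymplecticTypeData 5 R ∧ H = Cfsg.Geo.subgroupNormalizer R ⊓ Cfsg.Geo.specialLinear (Fin 5) F) ∨
    (Odd (Fintype.card F) ∧ ∃ Q : (Fin 5 → F) → F, Cfsg.Geo.IsNondegenerateQuadraticForm Q ∧ H = Cfsg.Geo.quadSimilarityGroup Q ⊓ Cfsg.Geo.specialLinear (Fin 5) F) ∨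
    (∃ (σ : F ≃+* F) (f : (Fin 5 → F) → (Fin 5 → F) → F), Cfsg.Geo.IsUnitaryForm σ f ∧ H = Cfsg.Geo.similarityGroup f ⊓ Cfsg.Geo.specialLinear (Fin 5) F) ∨
    Cfsg.Geo.InLinearResidualClass H := by
  classical
  rcases H915.sl_cases_of (n := 5) (by norm_num) hH (H917.lin_class (by norm_num) H) with
    ⟨W, h0, h1, h⟩ | ⟨t, m, D, htm, hD, hm1, hm2, h⟩ | ⟨r, K, hr, hr5, hK, h⟩ |
    ⟨n₁, n₂, e, P, h1, h12, hc, hq, h⟩ | ⟨F₀, r, P, hr, hc, h⟩ |
    ⟨r, k, p, e, R, hR, hr, hro, heo, hk, hn, -, hmin, -, -, h⟩ |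
    ⟨k, R, hR, hn, hp, h4, -, -, h⟩ | ⟨m, t, e, P, hm, ht, hc, h⟩ |
    ⟨f, hf, hev, -, h⟩ | ⟨σ, f, hf, h⟩ | ⟨ho, Q, hQ, h⟩ | h
  · exact Or.inl ⟨W, h0, h1, h⟩
  · right; left
    have ht2 := hD.two_le
    have htd : t ∣ 5 := ⟨m, htm.symm⟩
    have ht5 : t ≤ 5 := Nat.le_of_dvd (by norm_num) htd
    have hcases : t = 5 ∧ m = 1 := by
      interval_cases t <;> omega
    obtain ⟨rfl, rfl⟩ := hcases
    exact ⟨hm1 rfl, D, hD, h⟩
  · have hr2 : r = 5 := (Nat.prime_dvd_prime_iff_eq hr Nat.prime_five).1 hr5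
    subst hr2
    iterate 2 right
    exact Or.inl ⟨K, hK, h⟩
  · exfalso
    have : n₁ ∣ 5 := ⟨n₂, hc.symm⟩
    have h8 : n₁ ≤ 5 := Nat.le_of_dvd (by norm_num) this
    interval_cases n₁ <;> omega
  · iterate 3 right
    exact Or.inl ⟨F₀, r, P, hr, hc, h⟩
  · have hr5 : r ∣ 5 := by
      rw [hn]
      exact dvd_pow_self r (by omega)
    have hr2 : r = 5 := (Nat.prime_dvd_prime_iff_eq hr Nat.prime_five).1 hr5
    subst hr2
    iterate 4 right
    exact Or.inl ⟨⟨p, minimal_five heo hmin⟩, R, hR, h⟩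
  · exfalso
    rcases k with _ | k
    · omega
    · rw [pow_succ] at hn
      omega
  · exfalso
    have hm8 : m ∣ 5 := by
      rw [← hc]; exact dvd_pow_self m (by omega)
    have hle : m ≤ 5 := Nat.le_of_dvd (by norm_num) hm8
    have hpow : m ^ 2 ≤ 5 := by
      rw [← hc]; exact Nat.pow_le_pow_right (by omega) ht
    nlinarith
  · exact absurd hev (by decide)
  · iterate 6 right
    exact Or.inl ⟨σ, f, hf, h⟩
  · iterate 5 right
    exact Or.inl ⟨ho, Q, hQ, h⟩
  · iterate 7 right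
    exact h

end Cfsg.Agent.S5793
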