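import Cfsg.Agent.H928.FrameN_mg
import Cfsg.Statements.S5813
import Cfsg.Agent.H884.SingMaxPlus
import Cfsg.Agent.H884.OddForm
import Cfsg.Agent.H888.SubfieldMax
import Cfsg.Agent.H916.LowNondegGeo
set_option linter.all false

-- part: H916/FrameSeven
section
/-!
# Orthogonal frames over prime fields in odd dimension `≥ 7`: the frame stabiliser is maximal in `Ω`
-/

set_option autoImplicit false

namespace Cfsg.Agent.H916.FrameSeven

open Matrix
open Cfsg.Agent.H928

variable {ι : Type*} [Fintype ι] [DecidableEq ι] {F : Type*} [Field F] [Fintype F]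
variable {X : Subgroup ((ι → F) ≃ₗ[F] (ι → F))}

/-- the dichotomy for roots, all odd primes, all dimensions `≥ 7` -/
theorem dichotomy_roots (B : Base X) (hp : (Fintype.card F).Prime) (hn : 7 ≤ Fintype.card ι) :
    (∀ u, Root X u → Supp2 u) ∨ (∀ u : ι → F, u ⬝ᵥ u = 1 → Root X u) := by
  have hcast : ((Fintype.card F : ℕ) : F) = 0 := FiniteField.cast_card_eq_zero F
  have key : ∀ r : ℕ, r.Prime → ((r : ℕ) : F) = 0 → Fintype.card F = r := by
    intro r hr h
    by_contra hne
    have hco : Nat.Coprime (Fintype.card F) r := (Nat.coprime_primes hp hr).2 hne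
    have h1 : ((1 : ℕ) : F) = 0 := by
      have h2 := Nat.gcd_eq_gcd_ab (Fintype.card F) r
      rw [hco] at h2
      have h3 := congrArg (Int.cast : ℤ → F) h2
      push_cast at h3
      rw [hcast, h, zero_mul, zero_mul, add_zero] at h3
      simpa using h3
    simp at h1
  by_cases h3 : (3 : F) = 0
  · exact FrameThree.three B (key 3 (by norm_num) (by exact_mod_cast h3)) (by omega)
  by_cases h5 : (5 : F) = 0
  · exact FrameFive.five B (key 5 (by norm_num) (by exact_mod_cast h5)) hn
  exact B.dich_seven hp rfl h3 h5 hn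

theorem dichotomy_odd (B : Base X) (hp : (Fintype.card F).Prime) (hn : 7 ≤ Fintype.card ι)
    (hodd : Odd (Fintype.card ι)) :
    (∀ g ∈ X, Mono g) ∨ (∀ u v : ι → F, u ⬝ᵥ u = 1 → v ⬝ᵥ v = 1 → rf u * rf v ∈ X) := by
  rcases dichotomy_roots B hp hn with h | h
  · left
    refine FrameOdd.mono_of_roots B (by omega) h hodd ?_
    by_cases h3 : (3 : F) = 0
    · right
      rintro ⟨a, ha⟩
      have hcard : Fintype.card F = 3 := by
        by_contra hne
        have hco : Nat.Coprime (Fintype.card F) 3 := (Nat.coprime_primes hp (by norm_num)).2 hne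
        have h1 : ((1 : ℕ) : F) = 0 := by
          have h2 := Nat.gcd_eq_gcd_ab (Fintype.card F) 3
          rw [hco] at h2
          have h3' := congrArg (Int.cast : ℤ → F) h2
          push_cast at h3'
          rw [FiniteField.cast_card_eq_zero F, h3, zero_mul, zero_mul, add_zero] at h3'
          simpa using h3'
        simp at h1
      obtain ⟨_, hc⟩ := FrameThree.three_cases hcard
      rcases hc a with h1 | h1 | h1
      · rw [h1, mul_zero] at ha; exact B.two ha
      · apply one_ne_zero (α := F)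
        rw [h1] at ha
        linear_combination ha
      · apply one_ne_zero (α := F)
        rw [h1] at ha
        linear_combination ha
    · exact Or.inl h3
  · right
    intro u v hu hv
    have hne : Nonempty ι := Fintype.card_pos_iff.1 (by omega)
    exact B.mul_mem_of_roots (h u hu) (h v hv)

/-- **Frames of 1-spaces over a prime field, odd dimension `≥ 7`.** -/
theorem frame_maximal_odd {ι : Type} [Fintype ι] [DecidableEq ι] {Q : (ι → F) → F}
    (hQ : Cfsg.Geo.IsNondegenerateQuadraticForm Q) (h2 : (2 : F) ≠ 0) (hp : (Fintype.card F).Prime)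
    (hn : 7 ≤ Fintype.card ι) (hodd : Odd (Fintype.card ι)) {t : ℕ}
    {D : Fin t → Submodule F (ι → F)} (hD : Cfsg.Geo.IsOrthogonalMDecomposition Q 1 D) :
    Cfsg.Geo.IsMaximalIn (Cfsg.Geo.omegaGL Q)
      (Cfsg.Geo.decompositionStabilizer D ⊓ Cfsg.Geo.omegaGL Q) := by
  refine FrameIV.frame_maximal hQ h2 (by omega) hD fun ht X B => ?_
  exact dichotomy_odd B hp (by rw [Fintype.card_fin, ht]; exact hn)
    (by rw [Fintype.card_fin, ht]; exact hodd)

end Cfsg.Agent.H916.FrameSeven
end

-- part: S5813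
section
set_option autoImplicit false
open Cfsg

namespace Cfsg.Agent.S5813

/-- Maximal subgroups of Ω_7(q) of geometric type, q odd. Let F be a finite field of odd order q, Q the standard quadratic form x₀² + Σ x_i y_i on F^7 (coordinates Unit ⊕ (Fin 3 ⊕ Fin 3)), and Ω = Ω_7(q) the commutator subgroup of its isometry group, inside GL_7(F). Each of the following, intersected with Ω, is a maximal subgroup of Ω: (1) the stabiliser of any non-zero subspace on which Q vanishes identically (totally singular 1-, 2- and 3-spaces); (2) the stabiliser of any non-zero even-dimensional subspace W on which the polar form of Q is non-degenerate (equivalently of its odd-dimensional orthogonal complement), except when q = 3 and W is a 2-space containing a non-zero singular vector (a plus-type plane); (3) for q = p prime, the stabiliser of any decomposition of F^7 into seven pairwise orthogonal, pairwise Q-isometric non-degenerate 1-spaces; (4) every subfield group for a subfield F₀ with |F|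 = |F₀|^r, r prime, whose F₀-structure carries Q. -/
theorem result {F : Type*} [Field F] [Fintype F] (hodd : Odd (Fintype.card F)) :
    (∀ W : Submodule F (Unit ⊕ (Fin 3 ⊕ Fin 3) → F), W ≠ ⊥ → Cfsg.Geo.IsTotallySingularQuad (Cfsg.quadFormOdd 3 F) W → Cfsg.Geo.IsMaximalIn (Cfsg.Geo.omegaGL (Cfsg.quadFormOdd 3 F)) (Cfsg.Geo.subspaceStabilizer W ⊓ Cfsg.Geo.omegaGL (Cfsg.quadFormOdd 3 F))) ∧
    (∀ W : Submodule F (Unit ⊕ (Fin 3 ⊕ Fin 3) → F), W ≠ ⊥ → Even (Module.finrank F W) → Cfsg.Geo.IsNondegenerateOn (QuadraticMap.polar (Cfsg.quadFormOdd 3 F)) W → ¬ (Fintype.card F = 3 ∧ Module.finrank F W = 2 ∧ Cfsg.Geo.IsPlusTypeOn (Cfsg.quadFormOdd 3 F) W) → Cfsg.Geo.IsMaximalIn (Cfsg.Geo.omegaGL (Cfsg.quadFormOdd 3 F)) (Cfsg.Geo.subspaceStabilizer W ⊓ Cfsg.Geo.omegaGL (Cfsg.quadFormOdd 3 F))) ∧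
    ((Fintype.card F).Prime → ∀ D : Fin 7 → Submodule F (Unit ⊕ (Fin 3 ⊕ Fin 3) → F), Cfsg.Geo.IsOrthogonalMDecomposition (Cfsg.quadFormOdd 3 F) 1 D → Cfsg.Geo.IsMaximalIn (Cfsg.Geo.omegaGL (Cfsg.quadFormOdd 3 F)) (Cfsg.Geo.decompositionStabilizer D ⊓ Cfsg.Geo.omegaGL (Cfsg.quadFormOdd 3 F))) ∧
    (∀ (F₀ : Subfield F) (r : ℕ) (P : Matrix.GeneralLinearGroup (Unit ⊕ (Fin 3 ⊕ Fin 3)) F), r.Prime → Fintype.card F = Nat.card F₀ ^ r → Cfsg.Geo.IsQuadFormRationalStructure (Cfsg.quadFormOdd 3 F) F₀ P → Cfsg.Geo.IsMaximalIn (Cfsg.Geo.omegaGL (Cfsg.quadFormOdd 3 F)) (Cfsg.Geo.subfieldSubgroup F₀ P ⊓ Cfsg.Geo.omegaGL (Cfsg.quadFormOdd 3 F))) := by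
  have hQ := Cfsg.Agent.H884.OddForm.isNondegenerate_quadFormOdd hodd 3
  have hcard : Fintype.card (Unit ⊕ (Fin 3 ⊕ Fin 3)) = 7 := by
    simp only [Fintype.card_sum, Fintype.card_unit, Fintype.card_fin]
  have hq3 : 3 ≤ Fintype.card F := by
    have h1 := Fintype.one_lt_card (α := F)
    rw [Nat.odd_iff] at hodd
    omega
  have h2 : (2 : F) ≠ 0 := by
    intro h2
    have : CharP F 2 := CharTwo.of_one_ne_zero_of_two_eq_zero one_ne_zero h2
    have h7 := FiniteField.even_card_of_char_two (ringChar.eq F 2)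
    rw [Nat.odd_iff] at hodd
    omega
  refine ⟨fun W hW0 hW => ?_, fun W hW0 hev hW hex => ?_, fun hp D hD => ?_, fun F₀ r P hr hc hP => ?_⟩
  · refine Cfsg.Agent.H884.OmegaGL.singular_stabilizer_isMaximalIn _ hQ (by omega) hW0 hW ?_
    rintro ⟨x, hx, hxW, hxn⟩
    have hnd := Cfsg.Agent.H884.OmegaGL.nondeg_bundle _ hQ
    have h1 := Cfsg.Agent.H884.SingMaxPlus.two_mul_finrank_le hnd
      (Cfsg.Agent.H884.SingMaxPlus.sup_span_singular (Q := Cfsg.Agent.H884.OmegaGL.bundle _ hQ) hW hx hxW)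
    rw [Cfsg.Agent.H884.SingMaxPlus.finrank_sup_span hxn, Module.finrank_fintype_fun_eq_card] at h1
    omega
  · exact Cfsg.Agent.H916.LowNondegGeo.subspaceStabilizer_even_maximal hQ (by omega)
      (by rw [hcard]; exact ⟨3, rfl⟩) hq3 W hW0 hev hW hex
  · exact Cfsg.Agent.H916.FrameSeven.frame_maximal_odd hQ h2 hp (by omega)
      (by rw [hcard]; exact ⟨3, rfl⟩) hD
  · refine Cfsg.Agent.H888.SubfieldMax.subfield_maximal (by omega) _ hQ F₀ r hr hc P 1 one_ne_zero ?_
    intro u hu
    show 1 * _ ∈ F₀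
    rw [one_mul]
    exact hP u hu

end Cfsg.Agent.S5813
end
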