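import Cfsg.Agent.H915.SLWrap
import Cfsg.Statements.S5829
import Cfsg.Agent.H905.SLBasic
import Cfsg.Agent.S5630
set_option linter.all false

-- part: H920/SLNine
section
/-!
# The maximal subgroups of `SL_9(q)` (S5829) from the general list `H915.sl_cases_of`
-/

set_option autoImplicit false

namespace Cfsg.Agent.H920

open Matrix Cfsg Cfsg.Geo

theorem sl9_cases_of {F : Type*} [Field F] [Fintype F] {H : Subgroup (GL (Fin 9) F)}
    (hH : IsMaximalIn (specialLinear (Fin 9) F) H)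
    (hgen : (∃ M : Subgroup (GL (Fin 9) F), InLinearClass 9 F M ∧ H ≤ M) ∨
      InLinearResidualClass H) :
    (∃ W : Submodule F (Fin 9 → F), W ≠ ⊥ ∧ W ≠ ⊤ ∧
      H = subspaceStabilizer W ⊓ specialLinear (Fin 9) F) ∨
    (5 ≤ Fintype.card F ∧ ∃ D : Fin 9 → Submodule F (Fin 9 → F), IsMDecomposition 1 D ∧
      H = decompositionStabilizer D ⊓ specialLinear (Fin 9) F) ∨
    (∃ D : Fin 3 → Submodule F (Fin 9 → F), IsMDecomposition 3 D ∧
      H = decompositionStabilizer D ⊓ specialLinear (Fin 9) F) ∨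
    (∃ K : Subalgebra F (Matrix (Fin 9) (Fin 9) F), IsFieldSubalgebra 3 K ∧
      H = subalgebraNormalizer K ⊓ specialLinear (Fin 9) F) ∨
    (∃ (F₀ : Subfield F) (r : ℕ) (P : GL (Fin 9) F), r.Prime ∧ Fintype.card F = Nat.card F₀ ^ r ∧
      H = subfieldSubgroup F₀ P ⊓ specialLinear (Fin 9) F) ∨
    ((∃ p : ℕ, p.Prime ∧ Fintype.card F = p ∧ (p % 3 = 1)) ∧ ∃ R : Subgroup (GL (Fin 9) F),
      IsLinearSymplecticTypeData 3 R ∧ H = subgroupNormalizer R ⊓ specialLinear (Fin 9) F) ∨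
    (∃ (e : Fin 9 ≃ (Fin 2 → Fin 3)) (P : GL (Fin 9) F),
      H = tensorWreathSubgroup 3 2 e P ⊓ specialLinear (Fin 9) F) ∨
    (Odd (Fintype.card F) ∧ ∃ Q : (Fin 9 → F) → F, IsNondegenerateQuadraticForm Q ∧
      H = quadSimilarityGroup Q ⊓ specialLinear (Fin 9) F) ∨
    (∃ (σ : F ≃+* F) (f : (Fin 9 → F) → (Fin 9 → F) → F), IsUnitaryForm σ f ∧
      H = similarityGroup f ⊓ specialLinear (Fin 9) F) ∨
    InLinearResidualClass H := by
  rcases H915.sl_cases_of (by norm_num) hH hgen with h | ⟨t, m, D, htm, hD, hm1, hm2, heq⟩ |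
    ⟨r, K, hr, hdvd, hK, heq⟩ | ⟨n₁, n₂, e, P, h2, h12, h9, -, heq⟩ | h |
    ⟨r, k, p, e, R, hR, hr, hro, heo, hk, h9, hrp, hmin, hZ, hc, heq⟩ |
    ⟨k, R, hR, h9, -⟩ | ⟨m, t, e, P, hm, ht, h9, heq⟩ | ⟨f, hf, hev, -⟩ | h | h | h
  · exact Or.inl h
  · have h1 : t ∣ 9 := ⟨m, htm.symm⟩
    have h2 := hD.two_le
    have h3 : t ≤ 9 := Nat.le_of_dvd (by norm_num) h1
    obtain ⟨rfl, rfl⟩ | ⟨rfl, rfl⟩ : (t = 9 ∧ m = 1) ∨ (t = 3 ∧ m = 3) := by
      interval_cases t <;> omega
    · exact Or.inr (Or.inl ⟨hm1 rfl, D, hD, heq⟩)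
    · exact Or.inr (Or.inr (Or.inl ⟨D, hD, heq⟩))
  · have h3 : r = 3 := by
      have : r ∣ 3 ^ 2 := by simpa using hdvd
      exact (Nat.prime_dvd_prime_iff_eq hr Nat.prime_three).1 (hr.dvd_of_dvd_pow this)
    subst h3
    exact Or.inr (Or.inr (Or.inr (Or.inl ⟨K, hK, heq⟩)))
  · exfalso
    have h1 : n₁ ∣ 9 := ⟨n₂, h9.symm⟩
    have h3 : n₁ ≤ 9 := Nat.le_of_dvd (by norm_num) h1
    interval_cases n₁ <;> omega
  · exact Or.inr (Or.inr (Or.inr (Or.inr (Or.inl h))))
  · have h3 : r = 3 := by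
      have h4 : r ∣ 3 ^ 2 := by
        have : r ∣ 9 := by rw [h9]; exact dvd_pow_self r (by omega)
        simpa using this
      exact (Nat.prime_dvd_prime_iff_eq hr Nat.prime_three).1 (hr.dvd_of_dvd_pow h4)
    subst h3
    refine Or.inr (Or.inr (Or.inr (Or.inr (Or.inr (Or.inl ⟨?_, R, hR, heq⟩)))))
    obtain ⟨hp, -, hcard, hdvd, hmin⟩ := hmin
    have hp3 : ¬ 3 ∣ p := fun h => hrp ((Nat.prime_dvd_prime_iff_eq Nat.prime_three hp).1 h)
    have hsq : 3 ∣ p ^ 2 - 1 := by
      have h1 : p % 3 = 1 ∨ p % 3 = 2 := by omega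
      have h2 : p ^ 2 % 3 = 1 := by
        rw [Nat.pow_mod]
        rcases h1 with h | h <;> rw [h]
      have h3 : 0 < p ^ 2 := pow_pos hp.pos 2
      omega
    have he : e = 1 := by
      by_contra hne
      obtain ⟨j, rfl⟩ := heo
      exact hmin 2 (by norm_num) (by omega) hsq
    subst he
    rw [pow_one] at hcard hdvd
    have := hp.two_le
    exact ⟨p, hp, hcard, by omega⟩
  · exfalso
    have h1 : k < 4 := by
      by_contra h
      have := Nat.pow_le_pow_right (n := 2) (by norm_num) (not_lt.1 h)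
      omega
    interval_cases k <;> omega
  · have h1 : t < 3 := by
      by_contra h
      have h3 := Nat.pow_le_pow_right (n := m) (by omega) (not_lt.1 h)
      have h4 : 3 ^ 3 ≤ m ^ 3 := Nat.pow_le_pow_left hm 3
      omega
    have h2 : t = 2 := by omega
    subst h2
    have h3 : m = 3 := by nlinarith
    subst h3
    exact Or.inr (Or.inr (Or.inr (Or.inr (Or.inr (Or.inr (Or.inl ⟨e, P, heq⟩))))))
  · exact absurd hev (by decide)
  · exact Or.inr (Or.inr (Or.inr (Or.inr (Or.inr (Or.inr (Or.inr (Or.inr (Or.inl h))))))))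
  · exact Or.inr (Or.inr (Or.inr (Or.inr (Or.inr (Or.inr (Or.inr (Or.inl h)))))))
  · exact Or.inr (Or.inr (Or.inr (Or.inr (Or.inr (Or.inr (Or.inr (Or.inr (Or.inr h))))))))

end Cfsg.Agent.H920
end

-- part: S5829
section
set_option autoImplicit false
open Cfsg

namespace Cfsg.Agent.S5829

/-- Every maximal subgroup of SL_9(q) is of one of the listed geometric types or lies in the residual class. Let F be a finite field with q elements (p its characteristic) and H a maximal subgroup of SL_9(F) (inside GL_9(F)). Then H is the intersection with SL_9(F) of one of: the stabiliser of a proper non-zero subspace; for q ≥ 5, the stabiliser of a decomposition into 9 independent 1-spaces; the stabiliser of a decomposition into 3 independent 3-spaces; the normaliser of a degree-3 subfield of the matrix algebra; a subfield group for a subfield F₀ with |F| = |F₀|^r, r prime; for q = p prime with p ≡ 1 mod 3, the normaliser of an absolutely irreducible 3-subgroup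 R of exponent 3 and order 3^(1+2m) with centre of order 3, all of whose characteristic abelian subgroups are cyclic, F being the smallest field of characteristic p containing the cube roots of unity (here R is extraspecial of order 3^5); the stabiliser of a tensor decomposition into 2 factors of dimension 3; for q odd, the similarity group of a non-degenerate quadratic form; the similarity group of a non-degenerate unitary form — or else H lies in the residual class of the linear case (modulo scalars H is almost simple, with absolutely irreducible perfect socle preimage realisable over no proper subfield and fixing no non-degenerate quadratic, symplectic or unitary form). -/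
theorem result {F : Type*} [Field F] [Fintype F] (H : Subgroup (Matrix.GeneralLinearGroup (Fin 9) F)) (hH : Cfsg.Geo.IsMaximalIn (Cfsg.Geo.specialLinear (Fin 9) F) H) :
    (∃ W : Submodule F (Fin 9 → F), W ≠ ⊥ ∧ W ≠ ⊤ ∧ H = Cfsg.Geo.subspaceStabilizer W ⊓ Cfsg.Geo.specialLinear (Fin 9) F) ∨
    (5 ≤ Fintype.card F ∧ ∃ D : Fin 9 → Submodule F (Fin 9 → F), Cfsg.Geo.IsMDecomposition 1 D ∧ H = Cfsg.Geo.decompositionStabilizer D ⊓ Cfsg.Geo.specialLinear (Fin 9) F) ∨
    (∃ D : Fin 3 → Submodule F (Fin 9 → F), Cfsg.Geo.IsMDecomposition 3 D ∧ H = Cfsg.Geo.decompositionStabilizer D ⊓ Cfsg.Geo.specialLinear (Fin 9) F) ∨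
    (∃ K : Subalgebra F (Matrix (Fin 9) (Fin 9) F), Cfsg.Geo.IsFieldSubalgebra 3 K ∧ H = Cfsg.Geo.subalgebraNormalizer K ⊓ Cfsg.Geo.specialLinear (Fin 9) F) ∨
    (∃ (F₀ : Subfield F) (r : ℕ) (P : Matrix.GeneralLinearGroup (Fin 9) F), r.Prime ∧ Fintype.card F = Nat.card F₀ ^ r ∧ H = Cfsg.Geo.subfieldSubgroup F₀ P ⊓ Cfsg.Geo.specialLinear (Fin 9) F) ∨
    ((∃ p : ℕ, p.Prime ∧ Fintype.card F = p ∧ (p % 3 = 1)) ∧ ∃ R : Subgroup (Matrix.GeneralLinearGroup (Fin 9) F), Cfsg.Geo.IsLinearSymplecticTypeData 3 R ∧ H = Cfsg.Geo.subgroupNormalizer R ⊓ Cfsg.Geo.specialLinear (Fin 9) F) ∨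
    (∃ (e : Fin 9 ≃ (Fin 2 → Fin 3)) (P : Matrix.GeneralLinearGroup (Fin 9) F), H = Cfsg.Geo.tensorWreathSubgroup 3 2 e P ⊓ Cfsg.Geo.specialLinear (Fin 9) F) ∨
    (Odd (Fintype.card F) ∧ ∃ Q : (Fin 9 → F) → F, Cfsg.Geo.IsNondegenerateQuadraticForm Q ∧ H = Cfsg.Geo.quadSimilarityGroup Q ⊓ Cfsg.Geo.specialLinear (Fin 9) F) ∨
    (∃ (σ : F ≃+* F) (f : (Fin 9 → F) → (Fin 9 → F) → F), Cfsg.Geo.IsUnitaryForm σ f ∧ H = Cfsg.Geo.similarityGroup f ⊓ Cfsg.Geo.specialLinear (Fin 9) F) ∨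
    Cfsg.Geo.InLinearResidualClass H :=
  Cfsg.Agent.H920.sl9_cases_of hH
    (Cfsg.Agent.S5630.result 9 (by norm_num) H hH.1.le (Cfsg.Agent.H905.sup_scalars_ne_of_isMaximalIn (by simp) hH))

end Cfsg.Agent.S5829
end
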