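import Cfsg.Statements.S5832
import Cfsg.Agent.S5663
import Cfsg.Agent.H918.UWrap
import Cfsg.Agent.H918.TransvWreath
set_option linter.all false

set_option autoImplicit false
open Cfsg

namespace Cfsg.Agent.S5832

/-- Every maximal subgroup of SU_9(q) is of one of the listed geometric types or lies in the residual class. Let F be the field with q² elements, f the standard unitary form Σ u_i v_i^q on F^9, and H a maximal subgroup of SU_9(q) (inside GL_9(F)). Then H is the intersection with SU_9(q) of one of: the stabiliser of a non-zero totally isotropic subspace; the stabiliser of a non-degenerate 1-, 2-, 3- or 4-space; the stabiliser of a decomposition into nine mutually orthogonal non-degenerate 1-spaces; of a decomposition into three mutually orthogonal non-degenerate 3-spaces; the normaliser of an adjoint-closed degree-3 subfield of the matrix algebra; a subfield group of odd prime index whose F₀-structure carries f; for q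 odd, a subfield group of index 2 whose F₀-structure carries f; for q = p ≡ 2 mod 3 prime, the normaliser of an absolutely irreducible extraspecial group 3_+^(1+4) of exponent 3 inside the similarity group of f; for q ≥ 3, the stabiliser of a tensor decomposition of f as a tensor square of a unitary form on F^3 — or else H lies in the residual class of the unitary case. -/
theorem result {F : Type*} [Field F] [Fintype F] (q : ℕ) (hF : Fintype.card F = q ^ 2) (H : Subgroup (Matrix.GeneralLinearGroup (Fin 9) F)) (hH : Cfsg.Geo.IsMaximalIn (Cfsg.GU 9 F q ⊓ Cfsg.Geo.specialLinear (Fin 9) F) H) :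
    (∃ W : Submodule F (Fin 9 → F), W ≠ ⊥ ∧ Cfsg.Geo.IsTotallySingularFor (Cfsg.hermForm 9 F q) W ∧ H = Cfsg.Geo.subspaceStabilizer W ⊓ (Cfsg.GU 9 F q ⊓ Cfsg.Geo.specialLinear (Fin 9) F)) ∨
    (∃ W : Submodule F (Fin 9 → F), W ≠ ⊥ ∧ Cfsg.Geo.IsNondegenerateOn (Cfsg.hermForm 9 F q) W ∧ 2 * Module.finrank F W < 9 ∧ H = Cfsg.Geo.subspaceStabilizer W ⊓ (Cfsg.GU 9 F q ⊓ Cfsg.Geo.specialLinear (Fin 9) F)) ∨
    (∃ D : Fin 9 → Submodule F (Fin 9 → F), Cfsg.Geo.IsNondegenerateMDecomposition (Cfsg.hermForm 9 F q) 1 D ∧ H = Cfsg.Geo.decompositionStabilizer D ⊓ (Cfsg.GU 9 F q ⊓ Cfsg.Geo.specialLinear (Fin 9) F)) ∨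
    (∃ D : Fin 3 → Submodule F (Fin 9 → F), Cfsg.Geo.IsNondegenerateMDecomposition (Cfsg.hermForm 9 F q) 3 D ∧ H = Cfsg.Geo.decompositionStabilizer D ⊓ (Cfsg.GU 9 F q ⊓ Cfsg.Geo.specialLinear (Fin 9) F)) ∨
    (∃ K : Subalgebra F (Matrix (Fin 9) (Fin 9) F), Cfsg.Geo.IsFieldSubalgebra 3 K ∧ Cfsg.Geo.IsAdjointClosedFor (Cfsg.hermForm 9 F q) K ∧ H = Cfsg.Geo.subalgebraNormalizer K ⊓ (Cfsg.GU 9 F q ⊓ Cfsg.Geo.specialLinear (Fin 9) F)) ∨
    (∃ (F₀ : Subfield F) (r : ℕ) (P : Matrix.GeneralLinearGroup (Fin 9) F), r.Prime ∧ Odd r ∧ Fintype.card F = Nat.card F₀ ^ r ∧ Cfsg.Geo.IsFormRationalStructure (Cfsg.hermForm 9 F q) F₀ 1 P ∧ H = Cfsg.Geo.subfieldSubgroup F₀ P ⊓ (Cfsg.GU 9 F q ⊓ Cfsg.Geo.specialLinear (Fin 9) F)) ∨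
    (Odd q ∧ ∃ (F₀ : Subfield F) (P : Matrix.GeneralLinearGroup (Fin 9) F), Fintype.card F = Nat.card F₀ ^ 2 ∧ Cfsg.Geo.IsFormRationalStructure (Cfsg.hermForm 9 F q) F₀ 1 P ∧ H = Cfsg.Geo.subfieldSubgroup F₀ P ⊓ (Cfsg.GU 9 F q ⊓ Cfsg.Geo.specialLinear (Fin 9) F)) ∨
    (∃ (p : ℕ) (R : Subgroup (Matrix.GeneralLinearGroup (Fin 9) F)), p.Prime ∧ q = p ∧ p % 3 = 2 ∧ Cfsg.Geo.IsSymplecticTypeGroup 3 R ∧ Cfsg.Geo.ActsAbsolutelyIrreducibly (Cfsg.Geo.matrixSet R) ∧ R ≤ Cfsg.Geo.similarityGroup (Cfsg.hermForm 9 F q) ∧ Nat.card R = 243 ∧ Nat.card (Subgroup.center R) = 3 ∧ H = Cfsg.Geo.subgroupNormalizer R ⊓ (Cfsg.GU 9 F q ⊓ Cfsg.Geo.specialLinear (Fin 9) F)) ∨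
    (3 ≤ q ∧ ∃ (e : Fin 9 ≃ (Fin 2 → Fin 3)) (P : Matrix.GeneralLinearGroup (Fin 9) F) (f₁ : (Fin 3 → F) → (Fin 3 → F) → F), Cfsg.Geo.IsUnitaryFormPow q f₁ ∧ Cfsg.Geo.IsTensorPowerFormStructure (fun x : F => x ^ q) (Cfsg.hermForm 9 F q) f₁ e P ∧ H = Cfsg.Geo.tensorWreathSubgroup 3 2 e P ⊓ (Cfsg.GU 9 F q ⊓ Cfsg.Geo.specialLinear (Fin 9) F)) ∨
    Cfsg.Geo.InUnitaryResidualClass H := by
  have hn : 3 ≤ 9 := by norm_num
  have h32 : ¬ ((9 : ℕ) = 3 ∧ q = 2) := by norm_num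
  have hq2 : 2 ≤ q := Cfsg.Agent.LieClassical.HermBasic.two_le hF
  rcases Cfsg.Agent.H918.unitary_maximal_cases hF hn h32 hH (by
      intro k t e P hk ht _
      obtain ⟨g, hg, hg'⟩ := Cfsg.Agent.H918.exists_rankOne_mem hF hn
      exact Cfsg.Agent.H918.not_le_tensorWreathSubgroup hg hg' hk ht e P)
      (Cfsg.Agent.S5663.result 9 q hF hn h32 H hH.1.le (Cfsg.Agent.H918.sup_scalars_ne hF hn h32 hH)) with
    h | h | ⟨t, k, D, htk, ht, hD, h⟩ | ⟨k, D, hk, hD, hs, h⟩ | h | ⟨F₀, P, hq, h⟩ | ⟨F₀, P, ζ, hev, h⟩ |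
    ⟨r, R, p, e, k, hR, habs, hRs, hrp, hmin, hro, hz, hk, hcR, hn9, h⟩ |
    ⟨R, p, k, hp, hqp, hp4, hR, habs, hRs, hz, hcR, hn8, h⟩ | ⟨r, K, hr, hro, hrn, hK, hadj, h⟩ |
    ⟨n₁, n₂, e, P, f₁, f₂, hnn, h2, hlt, hf₁, hf₂, hf, h⟩ | ⟨k, t, e, P, f₁, hkt, hk, ht, hq3, hf₁, hP, h⟩ | h
  · exact Or.inl h
  · exact Or.inr (Or.inl h)
  · -- non-degenerate decompositions
    have hkpos := hD.decomp.pos
    have hcase : (t = 9 ∧ k = 1) ∨ (t = 3 ∧ k = 3) := by
      have h1 : t ∣ 9 := ⟨k, htk.symm⟩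
      have h2 : t ≤ 9 := Nat.le_of_dvd (by norm_num) h1
      interval_cases t <;> omega
    rcases hcase with ⟨rfl, rfl⟩ | ⟨rfl, rfl⟩
    · exact Or.inr (Or.inr (Or.inl ⟨D, hD, h⟩))
    · exact Or.inr (Or.inr (Or.inr (Or.inl ⟨D, hD, h⟩)))
  · omega
  · iterate 5 right
    left
    exact h
  · iterate 6 right
    left
    exact ⟨hq, F₀, P, h⟩
  · exact absurd hev (by decide)
  · have hr3 : r = 3 := by
      have h1 : r ∣ 3 ^ 2 := by
        rw [show 3 ^ 2 = 9 by norm_num, hn9]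
        exact dvd_pow_self _ (by omega)
      exact (Nat.prime_dvd_prime_iff_eq hR.prime Nat.prime_three).1 (hR.prime.dvd_of_dvd_pow h1)
    subst hr3
    have hk2 : k = 2 := by
      have : 3 ^ k = 3 ^ 2 := by rw [← hn9]; norm_num
      exact Nat.pow_right_injective (by norm_num) this
    subst hk2
    obtain ⟨hpp, hchar, hpe, hdvd, hmin'⟩ := hmin
    rw [hz] at hdvd hmin'
    rw [hF] at hpe
    have hp3 : p % 3 ≠ 0 := by
      intro h0
      exact hrp ((Nat.prime_dvd_prime_iff_eq Nat.prime_three hpp).1 (Nat.dvd_of_mod_eq_zero h0))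
    have he0 : 0 < e := by
      rcases Nat.eq_zero_or_pos e with h0 | h0
      · rw [h0, pow_zero] at hpe
        have : 2 ^ 2 ≤ q ^ 2 := Nat.pow_le_pow_left hq2 2
        omega
      · exact h0
    obtain ⟨b, -, hb⟩ := (Nat.dvd_prime_pow hpp).1 (show q ∣ p ^ e by rw [← hpe]; exact dvd_pow_self _ two_ne_zero)
    have heb : e = 2 * b := by
      rw [hb, ← pow_mul] at hpe
      have := Nat.pow_right_injective hpp.two_le hpe
      omega
    have he2 : e ≤ 2 := by
      by_contra hcon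
      push Not at hcon
      apply hmin' 2 (by norm_num) hcon
      have h1 : p ^ 2 % 3 = 1 := by
        rw [Nat.pow_mod]
        have : p % 3 = 1 ∨ p % 3 = 2 := by omega
        rcases this with h | h <;> rw [h]
      omega
    have hb1 : b = 1 := by omega
    have hqp : q = p := by rw [hb, hb1, pow_one]
    have hp2 : p % 3 = 2 := by
      have h1 := hmin' 1 (by norm_num) (by omega)
      rw [pow_one] at h1
      have := hpp.two_le
      omega
    iterate 7 right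
    left
    exact ⟨p, R, hpp, hqp, hp2, hR, habs, hRs, by rw [hcR]; norm_num, hz, h⟩
  · exfalso
    have hk0 : k ≠ 0 := by
      rintro rfl
      norm_num at hn8
    have h1 : 2 ∣ 9 := by rw [hn8]; exact dvd_pow_self _ hk0
    omega
  · have hr3 : r = 3 := by
      have h1 : r ∣ 3 ^ 2 := by norm_num; exact hrn
      exact (Nat.prime_dvd_prime_iff_eq hr Nat.prime_three).1 (hr.dvd_of_dvd_pow h1)
    subst hr3
    iterate 4 right
    left
    exact ⟨K, hK, hadj, h⟩
  · exfalso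
    have h3 : n₁ < 3 := by
      by_contra hcon
      push Not at hcon
      have : 3 * 4 ≤ n₁ * n₂ := Nat.mul_le_mul hcon (by omega)
      omega
    have h4 : n₁ = 2 := by omega
    subst h4
    omega
  · have h1 : t < 3 := by
      by_contra hcon
      push Not at hcon
      have : 3 ^ 3 ≤ k ^ t := (Nat.pow_le_pow_left hk 3).trans (Nat.pow_le_pow_right (by omega) hcon)
      omega
    have h2 : t = 2 := by omega
    subst h2
    have hk3 : k = 3 := by
      have : k < 4 := by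
        by_contra hcon
        push Not at hcon
        have : 4 ^ 2 ≤ k ^ 2 := Nat.pow_le_pow_left hcon 2
        omega
      omega
    subst hk3
    have hq3' : 3 ≤ q := by
      rcases Nat.lt_or_ge q 3 with h | h
      · exact absurd ⟨by omega, rfl⟩ hq3
      · exact h
    iterate 8 right
    left
    exact ⟨hq3', e, P, f₁, hf₁, hP, h⟩
  · iterate 9 right
    exact h

end Cfsg.Agent.S5832
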