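import Cfsg.Statements.S5838
import Cfsg.Agent.H915.SLWrap
import Cfsg.Agent.H917.LinWrap
set_option linter.all false

set_option autoImplicit false
open Cfsg

namespace Cfsg.Agent.S5838

/-- Every maximal subgroup of SL_10(q) is of one of the listed geometric types or lies in the residual class. Let F be a finite field with q elements (p its characteristic) and H a maximal subgroup of SL_10(F) (inside GL_10(F)). Then H is the intersection with SL_10(F) of one of: the stabiliser of a proper non-zero subspace; for q ≥ 5, the stabiliser of a decomposition into 10 independent 1-spaces; for q ≥ 3, the stabiliser of a decomposition into 5 independent 2-spaces; the stabiliser of a decomposition into 2 independent 5-spaces; the normaliser of a degree-5 subfield of the matrix algebra; the normaliser of a degree-2 subfield of the matrix algebra; for q ≥ 3, the stabiliser of a tensor decomposition F^2 ⊗ F^5; a subfield group for a subfield F₀ with |F|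 = |F₀|^r, r prime; for q odd, the similarity group of a non-degenerate quadratic form; the similarity group of a non-degenerate symplectic form; the similarity group of a non-degenerate unitary form — or else H lies in the residual class of the linear case (modulo scalars H is almost simple, with absolutely irreducible perfect socle preimage realisable over no proper subfield and fixing no non-degenerate quadratic, symplectic or unitary form). -/
theorem result {F : Type*} [Field F] [Fintype F] (H : Subgroup (Matrix.GeneralLinearGroup (Fin 10) F)) (hH : Cfsg.Geo.IsMaximalIn (Cfsg.Geo.specialLinear (Fin 10) F) H) :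
    (∃ W : Submodule F (Fin 10 → F), W ≠ ⊥ ∧ W ≠ ⊤ ∧ H = Cfsg.Geo.subspaceStabilizer W ⊓ Cfsg.Geo.specialLinear (Fin 10) F) ∨
    (5 ≤ Fintype.card F ∧ ∃ D : Fin 10 → Submodule F (Fin 10 → F), Cfsg.Geo.IsMDecomposition 1 D ∧ H = Cfsg.Geo.decompositionStabilizer D ⊓ Cfsg.Geo.specialLinear (Fin 10) F) ∨
    (3 ≤ Fintype.card F ∧ ∃ D : Fin 5 → Submodule F (Fin 10 → F), Cfsg.Geo.IsMDecomposition 2 D ∧ H = Cfsg.Geo.decompositionStabilizer D ⊓ Cfsg.Geo.specialLinear (Fin 10) F) ∨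
    (∃ D : Fin 2 → Submodule F (Fin 10 → F), Cfsg.Geo.IsMDecomposition 5 D ∧ H = Cfsg.Geo.decompositionStabilizer D ⊓ Cfsg.Geo.specialLinear (Fin 10) F) ∨
    (∃ K : Subalgebra F (Matrix (Fin 10) (Fin 10) F), Cfsg.Geo.IsFieldSubalgebra 5 K ∧ H = Cfsg.Geo.subalgebraNormalizer K ⊓ Cfsg.Geo.specialLinear (Fin 10) F) ∨
    (∃ K : Subalgebra F (Matrix (Fin 10) (Fin 10) F), Cfsg.Geo.IsFieldSubalgebra 2 K ∧ H = Cfsg.Geo.subalgebraNormalizer K ⊓ Cfsg.Geo.specialLinear (Fin 10) F) ∨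
    (3 ≤ Fintype.card F ∧ ∃ (e : Fin 10 ≃ Fin 2 × Fin 5) (P : Matrix.GeneralLinearGroup (Fin 10) F), H = Cfsg.Geo.tensorProductSubgroup 2 5 e P ⊓ Cfsg.Geo.specialLinear (Fin 10) F) ∨
    (∃ (F₀ : Subfield F) (r : ℕ) (P : Matrix.GeneralLinearGroup (Fin 10) F), r.Prime ∧ Fintype.card F = Nat.card F₀ ^ r ∧ H = Cfsg.Geo.subfieldSubgroup F₀ P ⊓ Cfsg.Geo.specialLinear (Fin 10) F) ∨
    (Odd (Fintype.card F) ∧ ∃ Q : (Fin 10 → F) → F, Cfsg.Geo.IsNondegenerateQuadraticForm Q ∧ H = Cfsg.Geo.quadSimilarityGroup Q ⊓ Cfsg.Geo.specialLinear (Fin 10) F) ∨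
    (∃ f : (Fin 10 → F) → (Fin 10 → F) → F, Cfsg.Geo.IsSymplecticForm f ∧ H = Cfsg.Geo.similarityGroup f ⊓ Cfsg.Geo.specialLinear (Fin 10) F) ∨
    (∃ (σ : F ≃+* F) (f : (Fin 10 → F) → (Fin 10 → F) → F), Cfsg.Geo.IsUnitaryForm σ f ∧ H = Cfsg.Geo.similarityGroup f ⊓ Cfsg.Geo.specialLinear (Fin 10) F) ∨
    Cfsg.Geo.InLinearResidualClass H := by
  classical
  rcases H915.sl_cases_of (n := 10) (by norm_num) hH (H917.lin_class (by norm_num) H) with
    ⟨W, h0, h1, h⟩ | ⟨t, m, D, htm, hD, hm1, hm2, h⟩ | ⟨r, K, hr, hr10, hK, h⟩ |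
    ⟨n₁, n₂, e, P, h1, h12, hc, hq, h⟩ | ⟨F₀, r, P, hr, hc, h⟩ |
    ⟨r, k, p, e, R, hR, hr, hro, -, hk, hn, -, -, -, -, h⟩ |
    ⟨k, R, hR, hn, hp, h4, -, -, h⟩ | ⟨m, t, e, P, hm, ht, hc, h⟩ |
    ⟨f, hf, -, -, h⟩ | ⟨σ, f, hf, h⟩ | ⟨ho, Q, hQ, h⟩ | h
  · exact Or.inl ⟨W, h0, h1, h⟩
  · right
    have ht2 := hD.two_le
    have htd : t ∣ 10 := ⟨m, htm.symm⟩
    have ht8 : t ≤ 10 := Nat.le_of_dvd (by norm_num) htd
    have hF : 1 < Fintype.card F := Fintype.one_lt_card
    have hcases : (t = 10 ∧ m = 1) ∨ (t = 5 ∧ m = 2) ∨ (t = 2 ∧ m = 5) := by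
      interval_cases t <;> omega
    rcases hcases with ⟨rfl, rfl⟩ | ⟨rfl, rfl⟩ | ⟨rfl, rfl⟩
    · exact Or.inl ⟨hm1 rfl, D, hD, h⟩
    · exact Or.inr (Or.inl ⟨by have := hm2 rfl; omega, D, hD, h⟩)
    · exact Or.inr (Or.inr (Or.inl ⟨D, hD, h⟩))
  · have hr25 : r = 2 ∨ r = 5 := by
      have h8 : r ∣ 2 * 5 := by norm_num; exact hr10
      rcases (hr.dvd_mul).1 h8 with h9 | h9
      · exact Or.inl ((Nat.prime_dvd_prime_iff_eq hr Nat.prime_two).1 h9)
      · exact Or.inr ((Nat.prime_dvd_prime_iff_eq hr Nat.prime_five).1 h9)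
    rcases hr25 with rfl | rfl
    · iterate 5 right
      exact Or.inl ⟨K, hK, h⟩
    · iterate 4 right
      exact Or.inl ⟨K, hK, h⟩
  · have hF : 1 < Fintype.card F := Fintype.one_lt_card
    have hcases : n₁ = 2 ∧ n₂ = 5 := by
      have : n₁ ∣ 10 := ⟨n₂, hc.symm⟩
      have h8 : n₁ ≤ 10 := Nat.le_of_dvd (by norm_num) this
      interval_cases n₁ <;> omega
    obtain ⟨rfl, rfl⟩ := hcases
    iterate 6 right
    exact Or.inl ⟨by have := hq rfl; omega, e, P, h⟩
  · iterate 7 right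
    exact Or.inl ⟨F₀, r, P, hr, hc, h⟩
  · exfalso
    have h2 : 2 = r := by
      have h8 : 2 ∣ r ^ k := by rw [← hn]; norm_num
      exact (Nat.prime_dvd_prime_iff_eq Nat.prime_two hr).1 (Nat.prime_two.dvd_of_dvd_pow h8)
    subst h2
    exact absurd hro (by decide)
  · exfalso
    have h8 : 5 ∣ 2 ^ k := by rw [← hn]; norm_num
    have := (Nat.prime_dvd_prime_iff_eq Nat.prime_five Nat.prime_two).1
      (Nat.prime_five.dvd_of_dvd_pow h8)
    omega
  · exfalso
    have hm8 : m ∣ 10 := by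
      rw [← hc]; exact dvd_pow_self m (by omega)
    have hle : m ≤ 10 := Nat.le_of_dvd (by norm_num) hm8
    have hpow : m ^ 2 ≤ 10 := by
      rw [← hc]; exact Nat.pow_le_pow_right (by omega) ht
    have hm3 : m = 3 := by nlinarith
    subst hm3
    omega
  · iterate 9 right
    exact Or.inl ⟨f, hf, h⟩
  · iterate 10 right
    exact Or.inl ⟨σ, f, hf, h⟩
  · iterate 8 right
    exact Or.inl ⟨ho, Q, hQ, h⟩
  · iterate 11 right
    exact h

end Cfsg.Agent.S5838
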