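import Cfsg.Statements.S5853
import Cfsg.Agent.H915.SLWrap
import Cfsg.Agent.H917.LinWrap
set_option linter.all false

set_option autoImplicit false
open Cfsg

namespace Cfsg.Agent.S5853

/-- Which fields contain the eleventh roots of unity minimally, with odd degree. -/
theorem arith_eleven {p e : ℕ} (hp : p.Prime) (hrp : 11 ≠ p) (he : Odd e) (h1 : 11 ∣ p ^ e - 1)
    (hmin : ∀ d : ℕ, 0 < d → d < e → ¬ 11 ∣ p ^ d - 1) :
    (e = 1 ∧ p % 11 = 1) ∨ (e = 5 ∧ (p % 11 = 3 ∨ p % 11 = 4 ∨ p % 11 = 5 ∨ p % 11 = 9)) := by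
  have hp0 : 0 < p := hp.pos
  have hmod : ∀ d : ℕ, 11 ∣ p ^ d - 1 ↔ (p % 11) ^ d % 11 = 1 := by
    intro d
    have h2 : 1 ≤ p ^ d := Nat.one_le_pow _ _ hp0
    have h3 : (p % 11) ^ d % 11 = p ^ d % 11 := (Nat.pow_mod p d 11).symm
    omega
  have ha0 : p % 11 ≠ 0 := by
    intro h
    exact hrp ((Nat.prime_dvd_prime_iff_eq (by norm_num) hp).1 (Nat.dvd_of_mod_eq_zero h))
  have halt : p % 11 < 11 := Nat.mod_lt _ (by norm_num)
  simp only [hmod] at h1 hmin
  generalize p % 11 = a at *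
  have he10 : e ≤ 10 := by
    by_contra h
    have h4 := hmin 10 (by norm_num) (by omega)
    interval_cases a <;> simp_all
  obtain ⟨k, rfl⟩ := he
  have hk : k ≤ 4 := by omega
  have h5 := hmin 1 (by norm_num)
  have h6 := hmin 5 (by norm_num)
  interval_cases a <;> interval_cases k <;> simp_all

/-- Every maximal subgroup of SL_11(q) is of one of the listed geometric types or lies in the residual class. Let F be a finite field with q elements (p its characteristic) and H a maximal subgroup of SL_11(F) (inside GL_11(F)). Then H is the intersection with SL_11(F) of one of: the stabiliser of a proper non-zero subspace; for q ≥ 5, the stabiliser of a decomposition into 11 independent 1-spaces; the normaliser of a degree-11 subfield of the matrix algebra; a subfield group for a subfield F₀ with |F| = |F₀|^r, r prime; for q = p prime with p ≡ 1 mod 11, or q = p⁵ with p ≡ 3, 4, 5 or 9 mod 11, the normaliser of an absolutely irreducible 11-subgroup R of exponent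 11 and order 11^(1+2m) with centre of order 11, all of whose characteristic abelian subgroups are cyclic, F being the smallest field of characteristic p containing the eleventh roots of unity (here R is extraspecial of order 11³); for q odd, the similarity group of a non-degenerate quadratic form; the similarity group of a non-degenerate unitary form — or else H lies in the residual class of the linear case (modulo scalars H is almost simple, with absolutely irreducible perfect socle preimage realisable over no proper subfield and fixing no non-degenerate quadratic, symplectic or unitary form). -/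
theorem result {F : Type*} [Field F] [Fintype F] (H : Subgroup (Matrix.GeneralLinearGroup (Fin 11) F)) (hH : Cfsg.Geo.IsMaximalIn (Cfsg.Geo.specialLinear (Fin 11) F) H) :
    (∃ W : Submodule F (Fin 11 → F), W ≠ ⊥ ∧ W ≠ ⊤ ∧ H = Cfsg.Geo.subspaceStabilizer W ⊓ Cfsg.Geo.specialLinear (Fin 11) F) ∨
    (5 ≤ Fintype.card F ∧ ∃ D : Fin 11 → Submodule F (Fin 11 → F), Cfsg.Geo.IsMDecomposition 1 D ∧ H = Cfsg.Geo.decompositionStabilizer D ⊓ Cfsg.Geo.specialLinear (Fin 11) F) ∨
    (∃ K : Subalgebra F (Matrix (Fin 11) (Fin 11) F), Cfsg.Geo.IsFieldSubalgebra 11 K ∧ H = Cfsg.Geo.subalgebraNormalizer K ⊓ Cfsg.Geo.specialLinear (Fin 11) F) ∨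
    (∃ (F₀ : Subfield F) (r : ℕ) (P : Matrix.GeneralLinearGroup (Fin 11) F), r.Prime ∧ Fintype.card F = Nat.card F₀ ^ r ∧ H = Cfsg.Geo.subfieldSubgroup F₀ P ⊓ Cfsg.Geo.specialLinear (Fin 11) F) ∨
    ((∃ p : ℕ, p.Prime ∧ CharP F p ∧ ((Fintype.card F = p ∧ p % 11 = 1) ∨ (Fintype.card F = p ^ 5 ∧ (p % 11 = 3 ∨ p % 11 = 4 ∨ p % 11 = 5 ∨ p % 11 = 9)))) ∧ ∃ R : Subgroup (Matrix.GeneralLinearGroup (Fin 11) F), Cfsg.Geo.IsLinearSymplecticTypeData 11 R ∧ H = Cfsg.Geo.subgroupNormalizer R ⊓ Cfsg.Geo.specialLinear (Fin 11) F) ∨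
    (Odd (Fintype.card F) ∧ ∃ Q : (Fin 11 → F) → F, Cfsg.Geo.IsNondegenerateQuadraticForm Q ∧ H = Cfsg.Geo.quadSimilarityGroup Q ⊓ Cfsg.Geo.specialLinear (Fin 11) F) ∨
    (∃ (σ : F ≃+* F) (f : (Fin 11 → F) → (Fin 11 → F) → F), Cfsg.Geo.IsUnitaryForm σ f ∧ H = Cfsg.Geo.similarityGroup f ⊓ Cfsg.Geo.specialLinear (Fin 11) F) ∨
    Cfsg.Geo.InLinearResidualClass H := by
  classical
  have h11 : Nat.Prime 11 := by norm_num
  rcases H915.sl_cases_of (n := 11) (by norm_num) hH (H917.lin_class (by norm_num) H) with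
    ⟨W, h0, h1, h⟩ | ⟨t, m, D, htm, hD, hm1, hm2, h⟩ | ⟨r, K, hr, hr11, hK, h⟩ |
    ⟨n₁, n₂, e, P, h1, h12, hc, hq, h⟩ | ⟨F₀, r, P, hr, hc, h⟩ |
    ⟨r, k, p, e, R, hR, hr, hro, heo, hk, hn, hrp, hmin, -, -, h⟩ |
    ⟨k, R, hR, hn, hp, h4, -, -, h⟩ | ⟨m, t, e, P, hm, ht, hc, h⟩ |
    ⟨f, hf, hev, -, h⟩ | ⟨σ, f, hf, h⟩ | ⟨ho, Q, hQ, h⟩ | h
  · exact Or.inl ⟨W, h0, h1, h⟩
  · right
    have ht2 := hD.two_le
    have ht11 : t = 11 := by
      rcases (Nat.dvd_prime h11).1 ⟨m, htm.symm⟩ with h9 | h9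
      · omega
      · exact h9
    subst ht11
    have hm : m = 1 := by omega
    subst hm
    exact Or.inl ⟨hm1 rfl, D, hD, h⟩
  · have hr2 : r = 11 := (Nat.prime_dvd_prime_iff_eq hr h11).1 hr11
    subst hr2
    iterate 2 right
    exact Or.inl ⟨K, hK, h⟩
  · exfalso
    rcases (Nat.dvd_prime h11).1 (Dvd.intro _ hc) with h9 | h9
    · omega
    · subst h9
      omega
  · iterate 3 right
    exact Or.inl ⟨F₀, r, P, hr, hc, h⟩
  · have hr2 : r = 11 := by
      have h8 : r ∣ 11 := by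
        rw [hn]
        exact dvd_pow_self r (by omega)
      exact (Nat.prime_dvd_prime_iff_eq hr h11).1 h8
    subst hr2
    have hk1 : k = 1 := by
      have h8 : 11 ^ 1 = 11 ^ k := by rw [← hn, pow_one]
      exact (Nat.pow_right_injective (by norm_num) h8).symm
    subst hk1
    obtain ⟨hp, hchar, hcard, hdvd, hm⟩ := hmin
    iterate 4 right
    refine Or.inl ⟨⟨p, hp, hchar, ?_⟩, R, hR, h⟩
    rcases arith_eleven hp hrp heo hdvd hm with ⟨rfl, h9⟩ | ⟨rfl, h9⟩
    · exact Or.inl ⟨by rw [hcard, pow_one], h9⟩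
    · exact Or.inr ⟨hcard, h9⟩
  · exfalso
    have h8 : 11 ∣ 2 ^ k := by rw [← hn]
    have := (Nat.prime_dvd_prime_iff_eq h11 Nat.prime_two).1 (h11.dvd_of_dvd_pow h8)
    omega
  · exfalso
    have hm8 : m ∣ 11 := by
      rw [← hc]; exact dvd_pow_self m (by omega)
    rcases (Nat.dvd_prime h11).1 hm8 with h9 | h9
    · omega
    · subst h9
      have h10 : 11 ^ 1 = 11 ^ t := by rw [hc, pow_one]
      have := Nat.pow_right_injective (by norm_num : 2 ≤ 11) h10
      omega
  · exact absurd hev (by decide)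
  · iterate 6 right
    exact Or.inl ⟨σ, f, hf, h⟩
  · iterate 5 right
    exact Or.inl ⟨ho, Q, hQ, h⟩
  · iterate 7 right
    exact h

end Cfsg.Agent.S5853
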