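import Cfsg.Statements.S5858
import Cfsg.Agent.H928.FrameO
import Cfsg.Agent.H884.OddForm
import Cfsg.Agent.H884.SingMaxPlus
import Cfsg.Agent.H885.NondegGeo
import Cfsg.Agent.H888.SubfieldMax
set_option linter.all false

set_option autoImplicit false
open Cfsg

namespace Cfsg.Agent.S5858

/-- Maximal subgroups of Ω_11(q) of geometric type, q odd. Let F be a finite field of odd order q, Q the standard quadratic form x₀² + Σ x_i y_i on F^11 (coordinates Unit ⊕ (Fin 5 ⊕ Fin 5)), and Ω = Ω_11(q) the commutator subgroup of its isometry group, inside GL_11(F). Each of the following, intersected with Ω, is a maximal subgroup of Ω: (1) the stabiliser of any non-zero subspace on which Q vanishes identically (totally singular 1- to 5-spaces); (2) the stabiliser of any non-zero even-dimensional subspace W (dimension 2 to 10) on which the polar form of Q is non-degenerate (equivalently of its odd-dimensional orthogonal complement), except when q = 3 and W is a 2-space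 containing a non-zero singular vector (a plus-type plane); (3) for q = p prime, the stabiliser of any decomposition of F^11 into eleven pairwise orthogonal, pairwise Q-isometric non-degenerate 1-spaces; (4) every subfield group for a subfield F₀ with |F| = |F₀|^r, r prime, whose F₀-structure carries Q. -/
theorem result {F : Type*} [Field F] [Fintype F] (hodd : Odd (Fintype.card F)) :
    (∀ W : Submodule F (Unit ⊕ (Fin 5 ⊕ Fin 5) → F), W ≠ ⊥ → Cfsg.Geo.IsTotallySingularQuad (Cfsg.quadFormOdd 5 F) W → Cfsg.Geo.IsMaximalIn (Cfsg.Geo.omegaGL (Cfsg.quadFormOdd 5 F)) (Cfsg.Geo.subspaceStabilizer W ⊓ Cfsg.Geo.omegaGL (Cfsg.quadFormOdd 5 F))) ∧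
    (∀ W : Submodule F (Unit ⊕ (Fin 5 ⊕ Fin 5) → F), W ≠ ⊥ → Even (Module.finrank F W) → Cfsg.Geo.IsNondegenerateOn (QuadraticMap.polar (Cfsg.quadFormOdd 5 F)) W → ¬ (Fintype.card F = 3 ∧ Module.finrank F W = 2 ∧ Cfsg.Geo.IsPlusTypeOn (Cfsg.quadFormOdd 5 F) W) → Cfsg.Geo.IsMaximalIn (Cfsg.Geo.omegaGL (Cfsg.quadFormOdd 5 F)) (Cfsg.Geo.subspaceStabilizer W ⊓ Cfsg.Geo.omegaGL (Cfsg.quadFormOdd 5 F))) ∧
    ((Fintype.card F).Prime → ∀ D : Fin 11 → Submodule F (Unit ⊕ (Fin 5 ⊕ Fin 5) → F), Cfsg.Geo.IsOrthogonalMDecomposition (Cfsg.quadFormOdd 5 F) 1 D → Cfsg.Geo.IsMaximalIn (Cfsg.Geo.omegaGL (Cfsg.quadFormOdd 5 F)) (Cfsg.Geo.decompositionStabilizer D ⊓ Cfsg.Geo.omegaGL (Cfsg.quadFormOdd 5 F))) ∧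
    (∀ (F₀ : Subfield F) (r : ℕ) (P : Matrix.GeneralLinearGroup (Unit ⊕ (Fin 5 ⊕ Fin 5)) F), r.Prime → Fintype.card F = Nat.card F₀ ^ r → Cfsg.Geo.IsQuadFormRationalStructure (Cfsg.quadFormOdd 5 F) F₀ P → Cfsg.Geo.IsMaximalIn (Cfsg.Geo.omegaGL (Cfsg.quadFormOdd 5 F)) (Cfsg.Geo.subfieldSubgroup F₀ P ⊓ Cfsg.Geo.omegaGL (Cfsg.quadFormOdd 5 F))) := by
  have hQ := Cfsg.Agent.H884.OddForm.isNondegenerate_quadFormOdd hodd 5
  have hcard : Fintype.card (Unit ⊕ (Fin 5 ⊕ Fin 5)) = 11 := by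
    simp only [Fintype.card_sum, Fintype.card_unit, Fintype.card_fin]
  have hrk : Module.finrank F (Unit ⊕ (Fin 5 ⊕ Fin 5) → F) = 11 := by
    rw [Module.finrank_fintype_fun_eq_card, hcard]
  refine ⟨?_, ?_, ?_, ?_⟩
  · intro W hW0 hW
    refine Cfsg.Agent.H884.OmegaGL.singular_stabilizer_isMaximalIn _ hQ (by omega) hW0 hW ?_
    rintro ⟨x, hx, hxW, hxn⟩
    have hnd := Cfsg.Agent.H884.OmegaGL.nondeg_bundle _ hQ
    have h1 := Cfsg.Agent.H884.SingMaxPlus.two_mul_finrank_le hnd
      (Cfsg.Agent.H884.SingMaxPlus.sup_span_singular (Q := Cfsg.Agent.H884.OmegaGL.bundle _ hQ) hW hx hxW)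
    rw [Cfsg.Agent.H884.SingMaxPlus.finrank_sup_span hxn, Module.finrank_fintype_fun_eq_card] at h1
    omega
  · intro W hW0 hev hW hex
    refine Cfsg.Agent.H885.NondegGeo.subspaceStabilizer_nondegenerate_maximal hQ (by omega) W hW0
      ?_ hW ?_ ?_
    · rintro rfl
      rw [finrank_top, hrk] at hev
      exact absurd hev (by decide)
    · rintro ⟨h3, U, hU2, -, hUp, hUW | ⟨-, hUW⟩⟩
      · subst hUW
        refine hex ⟨?_, hU2, hUp⟩
        have h1 : 1 < Fintype.card F := Fintype.one_lt_card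
        obtain ⟨a, ha⟩ := hodd
        omega
      · obtain ⟨a, ha⟩ := hev
        omega
    · intro Q' _ hnd U hs g _ hgU
      have hfr := hs.finrank hnd
      rw [hrk] at hfr
      have h2 : Module.finrank F U = Module.finrank F W := by
        rw [← hgU]
        exact (LinearEquiv.finrank_map_eq g U).symm
      omega
  · intro hprime D hD
    exact Cfsg.Agent.H928.frame_stabilizer_maximal hprime hodd hQ (by omega) hD
  · intro F₀ r P hr hc hP
    refine Cfsg.Agent.H888.SubfieldMax.subfield_maximal (by omega) _ hQ F₀ r hr hc P 1 one_ne_zero ?_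
    simpa only [one_mul] using hP

end Cfsg.Agent.S5858
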