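import Cfsg.Statements.S5862
import Cfsg.Agent.H915.SLWrap
import Cfsg.Agent.H917.LinWrap
set_option linter.all false

set_option autoImplicit false
open Cfsg

namespace Cfsg.Agent.S5862

/-- Every maximal subgroup of SL_12(q) is of one of the listed geometric types or lies in the residual class. Let F be a finite field with q elements (p its characteristic) and H a maximal subgroup of SL_12(F) (inside GL_12(F)). Then H is the intersection with SL_12(F) of one of: the stabiliser of a proper non-zero subspace; for q ≥ 5, the stabiliser of a decomposition into 12 independent 1-spaces; for q ≥ 3, the stabiliser of a decomposition into 6 independent 2-spaces; the stabiliser of a decomposition into 4 independent 3-spaces; the stabiliser of a decomposition into 3 independent 4-spaces; the stabiliser of a decomposition into 2 independent 6-spaces; the normaliser of a degree-2 subfield of the matrix algebra; the normaliser of a degree-3 subfield of the matrix algebra;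 for q ≥ 3, the stabiliser of a tensor decomposition F^2 ⊗ F^6; the stabiliser of a tensor decomposition F^3 ⊗ F^4; a subfield group for a subfield F₀ with |F| = |F₀|^r, r prime; for q odd, the similarity group of a non-degenerate quadratic form; the similarity group of a non-degenerate symplectic form; the similarity group of a non-degenerate unitary form — or else H lies in the residual class of the linear case (modulo scalars H is almost simple, with absolutely irreducible perfect socle preimage realisable over no proper subfield and fixing no non-degenerate quadratic, symplectic or unitary form). -/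
theorem result {F : Type*} [Field F] [Fintype F] (H : Subgroup (Matrix.GeneralLinearGroup (Fin 12) F)) (hH : Cfsg.Geo.IsMaximalIn (Cfsg.Geo.specialLinear (Fin 12) F) H) :
    (∃ W : Submodule F (Fin 12 → F), W ≠ ⊥ ∧ W ≠ ⊤ ∧ H = Cfsg.Geo.subspaceStabilizer W ⊓ Cfsg.Geo.specialLinear (Fin 12) F) ∨
    (5 ≤ Fintype.card F ∧ ∃ D : Fin 12 → Submodule F (Fin 12 → F), Cfsg.Geo.IsMDecomposition 1 D ∧ H = Cfsg.Geo.decompositionStabilizer D ⊓ Cfsg.Geo.specialLinear (Fin 12) F) ∨
    (3 ≤ Fintype.card F ∧ ∃ D : Fin 6 → Submodule F (Fin 12 → F), Cfsg.Geo.IsMDecomposition 2 D ∧ H = Cfsg.Geo.decompositionStabilizer D ⊓ Cfsg.Geo.specialLinear (Fin 12) F) ∨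
    (∃ D : Fin 4 → Submodule F (Fin 12 → F), Cfsg.Geo.IsMDecomposition 3 D ∧ H = Cfsg.Geo.decompositionStabilizer D ⊓ Cfsg.Geo.specialLinear (Fin 12) F) ∨
    (∃ D : Fin 3 → Submodule F (Fin 12 → F), Cfsg.Geo.IsMDecomposition 4 D ∧ H = Cfsg.Geo.decompositionStabilizer D ⊓ Cfsg.Geo.specialLinear (Fin 12) F) ∨
    (∃ D : Fin 2 → Submodule F (Fin 12 → F), Cfsg.Geo.IsMDecomposition 6 D ∧ H = Cfsg.Geo.decompositionStabilizer D ⊓ Cfsg.Geo.specialLinear (Fin 12) F) ∨
    (∃ K : Subalgebra F (Matrix (Fin 12) (Fin 12) F), Cfsg.Geo.IsFieldSubalgebra 2 K ∧ H = Cfsg.Geo.subalgebraNormalizer K ⊓ Cfsg.Geo.specialLinear (Fin 12) F) ∨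
    (∃ K : Subalgebra F (Matrix (Fin 12) (Fin 12) F), Cfsg.Geo.IsFieldSubalgebra 3 K ∧ H = Cfsg.Geo.subalgebraNormalizer K ⊓ Cfsg.Geo.specialLinear (Fin 12) F) ∨
    (3 ≤ Fintype.card F ∧ ∃ (e : Fin 12 ≃ Fin 2 × Fin 6) (P : Matrix.GeneralLinearGroup (Fin 12) F), H = Cfsg.Geo.tensorProductSubgroup 2 6 e P ⊓ Cfsg.Geo.specialLinear (Fin 12) F) ∨
    (∃ (e : Fin 12 ≃ Fin 3 × Fin 4) (P : Matrix.GeneralLinearGroup (Fin 12) F), H = Cfsg.Geo.tensorProductSubgroup 3 4 e P ⊓ Cfsg.Geo.specialLinear (Fin 12) F) ∨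
    (∃ (F₀ : Subfield F) (r : ℕ) (P : Matrix.GeneralLinearGroup (Fin 12) F), r.Prime ∧ Fintype.card F = Nat.card F₀ ^ r ∧ H = Cfsg.Geo.subfieldSubgroup F₀ P ⊓ Cfsg.Geo.specialLinear (Fin 12) F) ∨
    (Odd (Fintype.card F) ∧ ∃ Q : (Fin 12 → F) → F, Cfsg.Geo.IsNondegenerateQuadraticForm Q ∧ H = Cfsg.Geo.quadSimilarityGroup Q ⊓ Cfsg.Geo.specialLinear (Fin 12) F) ∨
    (∃ f : (Fin 12 → F) → (Fin 12 → F) → F, Cfsg.Geo.IsSymplecticForm f ∧ H = Cfsg.Geo.similarityGroup f ⊓ Cfsg.Geo.specialLinear (Fin 12) F) ∨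
    (∃ (σ : F ≃+* F) (f : (Fin 12 → F) → (Fin 12 → F) → F), Cfsg.Geo.IsUnitaryForm σ f ∧ H = Cfsg.Geo.similarityGroup f ⊓ Cfsg.Geo.specialLinear (Fin 12) F) ∨
    Cfsg.Geo.InLinearResidualClass H := by
  classical
  have hcard : 2 ≤ Fintype.card F := Fintype.one_lt_card
  have hgen := Cfsg.Agent.H917.lin_class (show 3 ≤ 12 by norm_num) H
  rcases Cfsg.Agent.H915.sl_cases_of (by norm_num) hH hgen with
    ⟨W, h0, h1, h⟩ | ⟨t, m, D, htm, hD, h5, h2, h⟩ | ⟨r, K, hr, hd, hK, h⟩ |
    ⟨n₁, n₂, e, P, h2, h12, hn, hF, h⟩ | ⟨F₀, r, P, hr, hc, h⟩ |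
    ⟨r, k, p, e, R, hR, hr, hro, heo, hk, hnk, -⟩ | ⟨k, R, hR, hnk, -⟩ |
    ⟨m, t, e, P, hm, ht, hmt, -⟩ | ⟨f, hf, -, -, h⟩ | ⟨σ, f, hf, h⟩ | ⟨hodd, Q, hQ, h⟩ | h
  · exact Or.inl ⟨W, h0, h1, h⟩
  · -- decompositions
    have hm0 := hD.pos
    have ht2 := hD.two_le
    have hm12 : m ∣ 12 := ⟨t, by rw [← htm, mul_comm]⟩
    have hmle : m ≤ 12 := Nat.le_of_dvd (by norm_num) hm12
    interval_cases m
    · obtain rfl : t = 12 := by omega
      exact Or.inr (Or.inl ⟨h5 rfl, D, hD, h⟩)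
    · obtain rfl : t = 6 := by omega
      have := h2 rfl
      exact Or.inr (Or.inr (Or.inl ⟨by omega, D, hD, h⟩))
    · obtain rfl : t = 4 := by omega
      exact Or.inr (Or.inr (Or.inr (Or.inl ⟨D, hD, h⟩)))
    · obtain rfl : t = 3 := by omega
      iterate 4 right
      exact Or.inl ⟨D, hD, h⟩
    · omega
    · obtain rfl : t = 2 := by omega
      iterate 5 right
      exact Or.inl ⟨D, hD, h⟩
    all_goals omega
  · -- fields
    have hr' : r = 2 ∨ r = 3 := by
      have h12 : (12 : ℕ) = 2 ^ 2 * 3 := by norm_num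
      rw [h12] at hd
      rcases (Nat.Prime.dvd_mul hr).1 hd with h' | h'
      · left
        exact (Nat.prime_dvd_prime_iff_eq hr Nat.prime_two).1 (hr.dvd_of_dvd_pow h')
      · right
        exact (Nat.prime_dvd_prime_iff_eq hr Nat.prime_three).1 h'
    rcases hr' with rfl | rfl
    · iterate 6 right
      exact Or.inl ⟨K, hK, h⟩
    · iterate 7 right
      exact Or.inl ⟨K, hK, h⟩
  · -- tensor products
    have hn1 : n₁ < 4 := by
      by_contra hlt
      push Not at hlt
      have : 4 * 5 ≤ n₁ * n₂ := Nat.mul_le_mul hlt (by omega)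
      omega
    interval_cases n₁
    · obtain rfl : n₂ = 6 := by omega
      have := hF rfl
      iterate 8 right
      exact Or.inl ⟨by omega, e, P, h⟩
    · obtain rfl : n₂ = 4 := by omega
      iterate 9 right
      exact Or.inl ⟨e, P, h⟩
  · iterate 10 right
    exact Or.inl ⟨F₀, r, P, hr, hc, h⟩
  · -- 12 is not a prime power
    exfalso
    have h2 : 2 ∣ r ^ k := by rw [← hnk]; norm_num
    have h3 : 3 ∣ r ^ k := by rw [← hnk]; norm_num
    have h2' := (Nat.prime_dvd_prime_iff_eq Nat.prime_two hr).1 (Nat.prime_two.dvd_of_dvd_pow h2)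
    have h3' := (Nat.prime_dvd_prime_iff_eq Nat.prime_three hr).1 (Nat.prime_three.dvd_of_dvd_pow h3)
    omega
  · exfalso
    have h3 : 3 ∣ 2 ^ k := by rw [← hnk]; norm_num
    have h3' := (Nat.prime_dvd_prime_iff_eq Nat.prime_three Nat.prime_two).1
      (Nat.prime_three.dvd_of_dvd_pow h3)
    omega
  · -- 12 is not a proper power
    exfalso
    have hm12 : m ∣ 12 := by
      rw [← hmt]; exact dvd_pow_self m (by omega)
    have h1 : m ^ 2 ≤ 12 := by
      calc m ^ 2 ≤ m ^ t := Nat.pow_le_pow_right (by omega) ht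
        _ = 12 := hmt
    have hm3 : m = 3 := by nlinarith
    subst hm3
    have h2 : 2 ∣ 3 ^ t := by rw [hmt]; norm_num
    have h2' := (Nat.prime_dvd_prime_iff_eq Nat.prime_two Nat.prime_three).1
      (Nat.prime_two.dvd_of_dvd_pow h2)
    omega
  · iterate 12 right
    exact Or.inl ⟨f, hf, h⟩
  · iterate 13 right
    exact Or.inl ⟨σ, f, hf, h⟩
  · iterate 11 right
    exact Or.inl ⟨hodd, Q, hQ, h⟩
  · iterate 14 right
    exact h

end Cfsg.Agent.S5862
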