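import Cfsg.Statements.S5876
import Cfsg.Agent.H933.CommDim
set_option linter.all false

set_option autoImplicit false
open Cfsg

namespace Cfsg.Agent.S5876

open Cfsg.Agent.H933

/-- The natural module of a matrix group as a homomorphism to the endomorphisms. -/
def rep {F : Type*} [Field F] {n : ℕ} (G : Subgroup (Matrix.GeneralLinearGroup (Fin n) F)) :
    G →* Module.End F (Fin n → F) where
  toFun g := Matrix.toLin' ((g : Matrix.GeneralLinearGroup (Fin n) F) : Matrix (Fin n) (Fin n) F)
  map_one' := by simp [Module.End.one_eq_id]
  map_mul' a b := by simp [Matrix.toLin'_mul, Module.End.mul_eq_comp]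

/-- Fixed-point spaces in primitive soluble linear groups. Let F be a finite field and G a soluble subgroup of GL_n(F) that acts irreducibly on F^n and primitively (G preserves no decomposition of F^n into two or more independent subspaces of equal dimension). Then every non-identity element g of G has fixed-point space {v : g v = v} of dimension at most 3n/4. -/
theorem result {F : Type*} [Field F] [Fintype F] {n : ℕ} (G : Subgroup (Matrix.GeneralLinearGroup (Fin n) F)) (hsol : IsSolvable G) (hirr : Cfsg.Geo.ActsIrreducibly (Cfsg.Geo.matrixSet G)) (hprim : ∀ (m t : ℕ) (D : Fin t → Submodule F (Fin n → F)), 2 ≤ t → Cfsg.Geo.IsMDecomposition m D → ¬ G ≤ Cfsg.Geo.decompositionStabilizer D) (g : Matrix.GeneralLinearGroup (Fin n) F) (hg : g ∈ G) (hg1 : g ≠ 1) :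
    4 * Module.finrank F (Module.End.eigenspace (Matrix.toLin' (g : Matrix (Fin n) (Fin n) F)) 1) ≤ 3 * n := by
  classical
  have hGfin : Finite (Matrix.GeneralLinearGroup (Fin n) F) :=
    Finite.of_injective (fun g : Matrix.GeneralLinearGroup (Fin n) F => (g : Matrix (Fin n) (Fin n) F))
      (fun a b h => Units.ext h)
  have hinj : Function.Injective (rep G) := by
    intro a b h
    apply Subtype.ext
    apply Units.ext
    exact Matrix.toLin'.injective h
  have hI : Irred (rep G) := by
    intro W hW
    apply hirr W
    rintro _ ⟨x, hx, rfl⟩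
    exact hW ⟨x, hx⟩
  have hP : NoDecomp (rep G) := by
    intro m t D ht hm hD hind hsup hall
    apply hprim m t D ht ⟨ht, hm, hD, hind, hsup⟩
    intro x hx
    exact hall ⟨x, hx⟩
  have : Group.IsSolvable G := hsol
  have h := solvable_fix_bound (rep G) hinj hI hP ⟨g, hg⟩ (by
    intro h
    exact hg1 (congrArg Subtype.val h))
  rw [Module.finrank_fin_fun] at h
  exact h

end Cfsg.Agent.S5876
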