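import Cfsg.Agent.H933.ExtraEig
import Cfsg.Statements.S5877
set_option linter.all false

-- part: H933/ExtraCount
section
set_option autoImplicit false

/-!
The simultaneous eigenspace decomposition for a commuting set `X` of elements of `H`, and the
resulting bound for the eigenspaces of an element permuting it.
-/

namespace Cfsg.Agent.H933

open Module

variable {F : Type*} [Field F] {V : Type*} [AddCommGroup V] [Module F V]
variable {G : Type*} [Group G] {ρ : G →* Module.End F V}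

/-- Simultaneous eigenspaces of the elements of `X`. -/
def Vs (ρ : G →* Module.End F V) (X : Set G) (χ : X → F) : Submodule F V :=
  ⨅ u : X, Module.End.eigenspace (ρ u) (χ u)

theorem mem_Vs {X : Set G} {χ : X → F} {v : V} : v ∈ Vs ρ X χ ↔ ∀ u : X, ρ u v = χ u • v := by
  simp [Vs, Submodule.mem_iInf]

/-- The character of `X` defined by `y`. -/
noncomputable def chi (ρ : G →* Module.End F V) (X : Set G) (y : G) : X → F := fun u => zz ρ u y

section setup

variable {H : Subgroup G} {r : ℕ} (S : Setup ρ H r)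

include S

theorem Setup.map_Vs_le {X : Set G} (hX : X ⊆ H) {y : G} (hy : y ∈ H) (χ : X → F) :
    (Vs ρ X χ).map (ρ y) ≤ Vs ρ X (χ * chi ρ X y) := by
  rintro _ ⟨v, hv, rfl⟩
  rw [SetLike.mem_coe, mem_Vs] at hv
  rw [mem_Vs]
  intro u
  rw [(S.isZ (hX u.2) hy).apply, hv u, map_smul, smul_smul, Pi.mul_apply, chi, mul_comm]

theorem Setup.chi_mul {X : Set G} (hX : X ⊆ H) {y y' : G} (hy : y ∈ H) (hy' : y' ∈ H) :
    chi ρ X (y * y') = chi ρ X y * chi ρ X y' := by
  funext u
  exact S.zz_mul_right (hX u.2) hy hy'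

theorem Setup.chi_one (X : Set G) : chi ρ X (1 : G) = 1 := by
  funext u
  exact S.zz_one_right _

theorem Setup.finrank_Vs [FiniteDimensional F V] {X : Set G} (hX : X ⊆ H) {y : G} (hy : y ∈ H) :
    Module.finrank F (Vs ρ X (chi ρ X y)) = Module.finrank F (Vs ρ X 1) := by
  apply le_antisymm
  · rw [← finrank_map_rho ρ y⁻¹ (Vs ρ X (chi ρ X y))]
    apply Submodule.finrank_mono
    refine (S.map_Vs_le hX (H.inv_mem hy) _).trans ?_
    rw [← S.chi_mul hX hy (H.inv_mem hy), mul_inv_cancel, S.chi_one]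
  · rw [← finrank_map_rho ρ y (Vs ρ X 1)]
    apply Submodule.finrank_mono
    refine (S.map_Vs_le hX hy _).trans ?_
    rw [one_mul]

/-- Elements of `H` fixing a common non-zero vector commute. -/
theorem Setup.isZ_one_of_fix {u u' : G} (hu : u ∈ H) (hu' : u' ∈ H) {t : V} (ht : t ≠ 0)
    (h : ρ u t = t) (h' : ρ u' t = t) : IsZ ρ u u' 1 := by
  have h1 := S.isZ hu hu'
  have h2 := h1.apply t
  rw [h', h, h'] at h2
  have h3 : (zz ρ u u' - 1) • t = 0 := by rw [sub_smul, one_smul, ← h2, sub_self]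
  rcases smul_eq_zero.1 h3 with h4 | h4
  · rwa [sub_eq_zero.1 h4] at h1
  · exact absurd h4 ht

omit S in
theorem iSupIndep_Vs (X : Set G) (hc : ∀ u ∈ X, ∀ u' ∈ X, IsZ ρ u u' 1) :
    iSupIndep (fun χ : X → F => Vs ρ X χ) := by
  have h := Module.End.independent_iInf_maxGenEigenspace_of_forall_mapsTo (fun u : X => ρ (u : G))
    (by
      intro i j φ
      apply Module.End.mapsTo_maxGenEigenspace_of_comm
      have := hc j j.2 i i.2
      unfold IsZ at this
      rw [one_smul] at this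
      exact this)
  refine h.mono fun χ => ?_
  refine le_iInf fun u => (iInf_le _ u).trans ?_
  exact (Module.End.genEigenspace (ρ (u : G)) (χ u)).monotone le_top

/-- **The counting bound.** `X` is a set of elements of `H` fixing a common non-zero subspace,
normalised by `g`, where `g` normalises `H` and has `g ^ p = 1`, `p` prime. There are
numbers `N` (of characters), `s`, `f` (of fixed characters) and `d` with the properties stated. -/
theorem Setup.count [FiniteDimensional F V] [Finite G] {X : Set G} (hX : X ⊆ H) {t : V}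
    (ht : t ≠ 0) (hXt : ∀ u ∈ X, ρ u t = t) {g : G} (hgH : ∀ u ∈ H, g * u * g⁻¹ ∈ H)
    (hgH' : ∀ u ∈ H, g⁻¹ * u * g ∈ H)
    (hgX : ∀ u ∈ X, g * u * g⁻¹ ∈ X) (hgX' : ∀ u ∈ X, g⁻¹ * u * g ∈ X) {p : ℕ} (hp : p.Prime)
    (hgp : g ^ p = 1) {c : F} (hc : c ≠ 0) :
    ∃ s d : ℕ, Module.finrank F V = (Set.range (fun y : H => chi ρ X y)).ncard * d ∧
      Module.finrank F (Module.End.eigenspace (ρ g) c) ≤ s * d ∧
      p * s = (Set.range (fun y : H => chi ρ X y)).ncard +
        (p - 1) * {χ ∈ Set.range (fun y : H => chi ρ X y) |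
          ∀ u : G, ∀ hu : u ∈ X, χ ⟨g⁻¹ * u * g, hgX' u hu⟩ = χ ⟨u, hu⟩}.ncard := by
  classical
  have hnt := S.nontrivial
  set I : Set (X → F) := Set.range (fun y : H => chi ρ X y) with hI
  have hIfin : Finite I := Set.finite_range _
  have hIft : Fintype I := Fintype.ofFinite I
  let D : I → Submodule F V := fun χ => Vs ρ X χ.1
  have hcomm : ∀ u ∈ X, ∀ u' ∈ X, IsZ ρ u u' 1 := fun u hu u' hu' =>
    S.isZ_one_of_fix (hX hu) (hX hu') ht (hXt u hu) (hXt u' hu')
  have hind : iSupIndep D := (iSupIndep_Vs X hcomm).comp Subtype.val_injective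
  have hd : ∀ χ : I, Module.finrank F (D χ) = Module.finrank F (Vs ρ X 1) := by
    rintro ⟨_, ⟨y, rfl⟩⟩
    exact S.finrank_Vs hX y.2
  have htD : t ∈ D ⟨chi ρ X (1 : G), ⟨1, rfl⟩⟩ := by
    change t ∈ Vs ρ X (chi ρ X (1 : G))
    rw [S.chi_one, mem_Vs]
    intro u
    rw [hXt u u.2, Pi.one_apply, one_smul]
  have htop : iSup D = ⊤ := by
    have hinv : ∀ y ∈ H, (iSup D).map (ρ y) ≤ iSup D := by
      intro y hy
      rw [Submodule.map_iSup]
      refine iSup_le ?_
      rintro ⟨_, ⟨x, rfl⟩⟩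
      refine (S.map_Vs_le hX hy _).trans ?_
      rw [← S.chi_mul hX x.2 hy]
      exact le_iSup D ⟨chi ρ X (x * y), ⟨⟨x * y, H.mul_mem x.2 hy⟩, rfl⟩⟩
    rcases S.irred _ hinv with h | h
    · exfalso
      have : t ∈ iSup D := (le_iSup D _) htD
      rw [h] at this
      exact ht (by simpa using this)
    · exact h
  -- the permutation
  let τ : (X → F) → (X → F) := fun χ u => χ ⟨g⁻¹ * u * g, hgX' u u.2⟩
  let τ' : (X → F) → (X → F) := fun χ u => χ ⟨g * u * g⁻¹, hgX u u.2⟩
  have hτchi : ∀ y ∈ H, τ (chi ρ X y) = chi ρ X (g * y * g⁻¹) := by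
    intro y hy
    funext u
    change zz ρ (g⁻¹ * u * g) y = zz ρ u (g * y * g⁻¹)
    have := S.zz_conj (hgH' _ (hX u.2)) hy g
    rw [← this]
    congr 1
    group
  have hτ'chi : ∀ y ∈ H, τ' (chi ρ X y) = chi ρ X (g⁻¹ * y * g) := by
    intro y hy
    funext u
    change zz ρ (g * u * g⁻¹) y = zz ρ u (g⁻¹ * y * g)
    have := S.zz_conj (hX u.2) (hgH' _ hy) g
    rw [← this]
    congr 1
    group
  have hττ' : ∀ χ, τ (τ' χ) = χ := by
    intro χ
    funext u
    change χ ⟨g * (g⁻¹ * u * g) * g⁻¹, _⟩ = χ u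
    congr 1
    apply Subtype.ext
    change g * (g⁻¹ * u * g) * g⁻¹ = u
    group
  have hτ'τ : ∀ χ, τ' (τ χ) = χ := by
    intro χ
    funext u
    change χ ⟨g⁻¹ * (g * u * g⁻¹) * g, _⟩ = χ u
    congr 1
    apply Subtype.ext
    change g⁻¹ * (g * u * g⁻¹) * g = u
    group
  have hτI : ∀ χ ∈ I, τ χ ∈ I := by
    rintro _ ⟨y, rfl⟩
    exact ⟨⟨g * y * g⁻¹, hgH y y.2⟩, (hτchi y y.2).symm⟩
  have hτ'I : ∀ χ ∈ I, τ' χ ∈ I := by
    rintro _ ⟨y, rfl⟩
    exact ⟨⟨g⁻¹ * y * g, hgH' y y.2⟩, (hτ'chi y y.2).symm⟩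
  let σ : Equiv.Perm I :=
    ⟨fun χ => ⟨τ χ.1, hτI _ χ.2⟩, fun χ => ⟨τ' χ.1, hτ'I _ χ.2⟩,
      fun χ => Subtype.ext (hτ'τ _), fun χ => Subtype.ext (hττ' _)⟩
  have hσpow : ∀ (k : ℕ) (y : G) (hy : y ∈ H) (hy2 : g ^ k * y * (g ^ k)⁻¹ ∈ H),
      (σ ^ k) ⟨chi ρ X y, ⟨⟨y, hy⟩, rfl⟩⟩ =
        ⟨chi ρ X (g ^ k * y * (g ^ k)⁻¹), ⟨⟨_, hy2⟩, rfl⟩⟩ := by
    intro k
    induction k with
    | zero =>
      intro y hy hy2
      apply Subtype.ext
      simp
    | succ k ih =>
      intro y hy hy2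
      have h1 : g ^ k * y * (g ^ k)⁻¹ ∈ H := by
        have := hgH' _ hy2
        have e : g⁻¹ * (g ^ (k + 1) * y * (g ^ (k + 1))⁻¹) * g = g ^ k * y * (g ^ k)⁻¹ := by
          rw [pow_succ']; group
        rwa [e] at this
      rw [pow_succ', Equiv.Perm.mul_apply, ih y hy h1]
      apply Subtype.ext
      change τ (chi ρ X (g ^ k * y * (g ^ k)⁻¹)) = _
      rw [hτchi _ h1]
      congr 1
      rw [pow_succ']; group
  have hσp : σ ^ p = 1 := by
    ext1 χ
    obtain ⟨_, ⟨y, rfl⟩⟩ := χ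
    have h2 : g ^ p * y * (g ^ p)⁻¹ ∈ H := by rw [hgp]; simp
    rw [hσpow p y y.2 h2]
    apply Subtype.ext
    simp [hgp]
  have hσD : ∀ χ : I, (D χ).map (ρ g) ≤ D (σ χ) := by
    rintro χ _ ⟨v, hv, rfl⟩
    rw [SetLike.mem_coe] at hv
    have hv' := mem_Vs.1 hv
    change ρ g v ∈ Vs ρ X (τ χ.1)
    rw [mem_Vs]
    intro u
    have h1 := hv' ⟨g⁻¹ * u * g, hgX' u u.2⟩
    change ρ (g⁻¹ * u * g) v = _ at h1
    have h2 : ρ (u : G) (ρ g v) = ρ g (ρ (g⁻¹ * u * g) v) := by
      rw [← Module.End.mul_apply, ← Module.End.mul_apply, ← map_mul, ← map_mul]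
      congr 2
      group
    rw [h2, h1, map_smul]
  obtain ⟨T, hT, hTc⟩ := exists_orbit_reps σ hp hσp
  refine ⟨T.card, Module.finrank F (Vs ρ X 1), ?_, ?_, ?_⟩
  · rw [finrank_eq_sum_of_indep D hind htop]
    simp only [hd]
    rw [Finset.sum_const, Finset.card_univ, smul_eq_mul, ← Nat.card_eq_fintype_card, Nat.card_coe_set_eq]
  · have := mon_bound D hind htop (ρ g) σ σ.injective hσD c hc T hT
    simp only [hd] at this
    rwa [Finset.sum_const, smul_eq_mul] at this
  · rw [hTc, ← Nat.card_eq_fintype_card, Nat.card_coe_set_eq]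
    congr 2
    rw [← Set.ncard_coe_finset, ← Set.ncard_image_of_injective _ Subtype.val_injective]
    congr 1
    ext χ
    simp only [Set.mem_image, Set.mem_ofPred_eq, Finset.coe_filter, Finset.mem_univ, true_and,
      Subtype.exists, exists_and_right, exists_eq_right]
    constructor
    · rintro ⟨hχ, hfix⟩
      refine ⟨hχ, ?_⟩
      intro u hu
      have := congrFun (congrArg Subtype.val hfix) ⟨u, hu⟩
      exact this
    · rintro ⟨hχ, hfix⟩
      refine ⟨hχ, ?_⟩
      apply Subtype.ext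
      funext u
      exact hfix u u.2

end setup

end Cfsg.Agent.H933
end

-- part: H933/ExtraCases
section
set_option autoImplicit false

/-!
The eigenspaces of an element of prime order normalising a group of class two acting absolutely
irreducibly: the bounds `n/2`.
-/

namespace Cfsg.Agent.H933

open Module

variable {F : Type*} [Field F] {V : Type*} [AddCommGroup V] [Module F V]
variable {G : Type*} [Group G] {ρ : G →* Module.End F V}

theorem isZ_iff_comm {u v : G} {c : F} : IsZ ρ u v c ↔ ρ (u * v * u⁻¹ * v⁻¹) = c • 1 := by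
  unfold IsZ
  constructor
  · intro h
    have : ρ (u * v * u⁻¹ * v⁻¹) = ρ u * ρ v * ρ (v * u)⁻¹ := by
      rw [← map_mul, ← map_mul]; congr 1; group
    rw [this, h, smul_mul_assoc, ← map_mul, rho_mul_inv]
  · intro h
    have : ρ u * ρ v = ρ (u * v * u⁻¹ * v⁻¹) * (ρ v * ρ u) := by
      rw [← map_mul, ← map_mul, ← map_mul]; congr 1; group
    rw [this, h, smul_mul_assoc, one_mul]

theorem fix_inv {u : G} {t : V} (h : ρ u t = t) : ρ u⁻¹ t = t := by
  conv_lhs => rw [← h]
  rw [← Module.End.mul_apply, rho_inv_mul]; rfl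

theorem fix_mul {u v : G} {t : V} (h : ρ u t = t) (h' : ρ v t = t) : ρ (u * v) t = t := by
  rw [map_mul, Module.End.mul_apply, h', h]

theorem fix_conj {g u : G} {t : V} {c : F} (hc : c ≠ 0) (hg : ρ g t = c • t) (h : ρ u t = t) :
    ρ (g * u * g⁻¹) t = t := by
  have h1 : ρ g⁻¹ t = c⁻¹ • t := by
    have : ρ g⁻¹ (ρ g t) = c • ρ g⁻¹ t := by rw [hg, map_smul]
    rw [← Module.End.mul_apply, rho_inv_mul, Module.End.one_apply] at this
    rw [eq_inv_smul_iff₀ hc]
    exact this.symm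
  rw [map_mul, map_mul, Module.End.mul_apply, Module.End.mul_apply, h1, map_smul, h, map_smul, hg,
    smul_smul, inv_mul_cancel₀ hc, one_smul]

theorem fix_conj' {g u : G} {t : V} {c : F} (hc : c ≠ 0) (hg : ρ g t = c • t) (h : ρ u t = t) :
    ρ (g⁻¹ * u * g) t = t := by
  rw [map_mul, map_mul, Module.End.mul_apply, Module.End.mul_apply, hg, map_smul, h, ← hg,
    ← Module.End.mul_apply, rho_inv_mul]; rfl

section setup

variable {H : Subgroup G} {r : ℕ} (S : Setup ρ H r)

include S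

/-- Under `2 w > n`, scalar commutators with `g` are trivial. -/
theorem Setup.comm_eq_one_of_scalar [FiniteDimensional F V] {g : G} {c : F}
    (hw : Module.finrank F V < 2 * Module.finrank F (Module.End.eigenspace (ρ g) c))
    {v : G} (hv : v ∈ H) (h : ∃ b : F, ρ (g * v * g⁻¹ * v⁻¹) = b • 1) : IsZ ρ g v 1 := by
  obtain ⟨b, hb⟩ := h
  have h1 := isZ_iff_comm.2 hb
  by_cases hb1 : b = 1
  · rwa [hb1] at h1
  · exfalso
    have h2 := S.eig_le_of_isZ hv h1 hb1 c
    have h3 := S.prime.two_le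
    have h4 : 2 * Module.finrank F (Module.End.eigenspace (ρ g) c) ≤
      r * Module.finrank F (Module.End.eigenspace (ρ g) c) := Nat.mul_le_mul_right _ h3
    omega

/-- Under `2 w > n` and `g` not scalar, some commutator `[g, v]` is not scalar. -/
theorem Setup.exists_comm_not_scalar [FiniteDimensional F V] {g : G} {c : F}
    (hw : Module.finrank F V < 2 * Module.finrank F (Module.End.eigenspace (ρ g) c))
    (hg : ¬ ∃ b : F, ρ g = b • 1) :
    ∃ v ∈ H, ¬ ∃ b : F, ρ (g * v * g⁻¹ * v⁻¹) = b • 1 := by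
  by_contra hcon
  push Not at hcon
  apply hg
  apply S.abs
  intro v hv
  exact S.comm_eq_one_of_scalar hw hv (hcon v hv)

omit S in
theorem exists_common [FiniteDimensional F V] {g : G} {c : F}
    (hw : Module.finrank F V < 2 * Module.finrank F (Module.End.eigenspace (ρ g) c)) (v : G) :
    ∃ t : V, t ≠ 0 ∧ ρ g t = c • t ∧ ρ (g * v * g⁻¹ * v⁻¹) t = t := by
  set W := Module.End.eigenspace (ρ g) c with hW
  have h1 := Submodule.finrank_sup_add_finrank_inf_eq W (W.map (ρ v))
  have h2 := Submodule.finrank_le (W ⊔ W.map (ρ v))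
  rw [finrank_map_rho] at h1
  have h3 : W ⊓ W.map (ρ v) ≠ ⊥ := by
    intro h
    rw [h, finrank_bot] at h1
    omega
  obtain ⟨t, ht, ht0⟩ := Submodule.exists_mem_ne_zero_of_ne_bot h3
  refine ⟨t, ht0, ?_, ?_⟩
  · have := ht.1
    rwa [SetLike.mem_coe, hW, Module.End.mem_eigenspace_iff] at this
  · have := inf_le_eig_comm ρ g v c ht
    rwa [Module.End.mem_eigenspace_iff, one_smul] at this

omit S in
theorem c_ne_zero [FiniteDimensional F V] {g : G} {c : F}
    (hw : Module.finrank F V < 2 * Module.finrank F (Module.End.eigenspace (ρ g) c)) : c ≠ 0 := by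
  rintro rfl
  rw [eig_eq_bot_of_zero, finrank_bot] at hw
  omega

/-- **Coprime case.** -/
theorem Setup.coprime_case [FiniteDimensional F V] [Finite G] {g : G}
    (hgH : ∀ u ∈ H, g * u * g⁻¹ ∈ H) (hgH' : ∀ u ∈ H, g⁻¹ * u * g ∈ H)
    {p : ℕ} (hp : p.Prime) (hp3 : 3 ≤ p) (hpr : p ≠ r) (hgp : g ^ p = 1)
    (hg : ¬ ∃ b : F, ρ g = b • 1) (c : F) :
    2 * Module.finrank F (Module.End.eigenspace (ρ g) c) ≤ Module.finrank F V := by
  by_contra hcon
  push Not at hcon
  have hnt := S.nontrivial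
  have hc := c_ne_zero hcon
  obtain ⟨v, hv, hvs⟩ := S.exists_comm_not_scalar hcon hg
  obtain ⟨t, ht0, htg, htv⟩ := exists_common hcon v
  -- the inverse commutator
  set x := v * g * v⁻¹ * g⁻¹ with hx
  have hxinv : x = (g * v * g⁻¹ * v⁻¹)⁻¹ := by rw [hx]; group
  have hxH : x ∈ H := by
    have : x = v * (g * v⁻¹ * g⁻¹) := by rw [hx]; group
    rw [this]
    exact H.mul_mem hv (hgH _ (H.inv_mem hv))
  have hxt : ρ x t = t := by rw [hxinv]; exact fix_inv htv
  have hxs : ¬ ∃ b : F, ρ x = b • 1 := by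
    intro hb
    have h1 := eq_one_of_fix ht0 hxt hb
    apply hvs
    refine ⟨1, ?_⟩
    have h2 : g * v * g⁻¹ * v⁻¹ = x⁻¹ := by rw [hxinv, inv_inv]
    rw [h2, one_smul]
    calc ρ x⁻¹ = ρ x * ρ x⁻¹ := by rw [h1, one_mul]
      _ = 1 := rho_mul_inv ρ x
  let X : Set G := {u | u ∈ H ∧ ρ u t = t ∧ (u * g) ^ p = 1}
  have hxX : x ∈ X := by
    refine ⟨hxH, hxt, ?_⟩
    have : x * g = v * g * v⁻¹ := by rw [hx]; group
    rw [this, conj_pow, hgp]; group
  have hX : X ⊆ H := fun u hu => hu.1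
  have hgX : ∀ u ∈ X, g * u * g⁻¹ ∈ X := by
    rintro u ⟨h1, h2, h3⟩
    refine ⟨hgH u h1, fix_conj hc htg h2, ?_⟩
    have : g * u * g⁻¹ * g = g * (u * g) * g⁻¹ := by group
    rw [this, conj_pow, h3]; group
  have hgX' : ∀ u ∈ X, g⁻¹ * u * g ∈ X := by
    rintro u ⟨h1, h2, h3⟩
    refine ⟨hgH' u h1, fix_conj' hc htg h2, ?_⟩
    have : g⁻¹ * u * g * g = g⁻¹ * (u * g) * g⁻¹⁻¹ := by group
    rw [this, conj_pow, h3]; group
  obtain ⟨s, d, hN, hwd, hs⟩ := S.count hX ht0 (fun u hu => hu.2.1) hgH hgH' hgX hgX' hp hgp hc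
  set I : Set (X → F) := Set.range (fun y : H => chi ρ X y) with hI
  have hIfin : I.Finite := Set.finite_range _
  -- the fixed characters
  have hfix : {χ ∈ I | ∀ u : G, ∀ hu : u ∈ X, χ ⟨g⁻¹ * u * g, hgX' u hu⟩ = χ ⟨u, hu⟩} = {1} := by
    apply Set.eq_singleton_iff_unique_mem.2
    constructor
    · exact ⟨⟨1, by simpa using S.chi_one X⟩, fun u hu => rfl⟩
    · rintro _ ⟨⟨y, rfl⟩, hy⟩
      have hz : ∀ u ∈ X, zz ρ (g⁻¹ * u * g) y = zz ρ u y := fun u hu => hy u hu
      have hz2 : ∀ k : ℕ, ∀ u ∈ X, g ^ k * u * (g ^ k)⁻¹ ∈ X ∧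
          zz ρ (g ^ k * u * (g ^ k)⁻¹) y = zz ρ u y := by
        intro k
        induction k with
        | zero => intro u hu; simpa using hu
        | succ k ih =>
          intro u hu
          obtain ⟨h1, h2⟩ := ih u hu
          have e : g ^ (k + 1) * u * (g ^ (k + 1))⁻¹ = g * (g ^ k * u * (g ^ k)⁻¹) * g⁻¹ := by
            rw [pow_succ']; group
          rw [e]
          refine ⟨hgX _ h1, ?_⟩
          have h3 := hz _ (hgX _ h1)
          have e2 : g⁻¹ * (g * (g ^ k * u * (g ^ k)⁻¹) * g⁻¹) * g = g ^ k * u * (g ^ k)⁻¹ := by group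
          rw [e2] at h3
          rw [← h3, h2]
      funext u
      change zz ρ (u : G) y = 1
      have hu := u.2
      have hw : ∀ k : ℕ, ∃ w ∈ H, ((u : G) * g) ^ k = w * g ^ k ∧ zz ρ w y = zz ρ (u : G) y ^ k := by
        intro k
        induction k with
        | zero => exact ⟨1, H.one_mem, by simp, by rw [S.zz_one_left, pow_zero]⟩
        | succ k ih =>
          obtain ⟨w, hwH, hw1, hw2⟩ := ih
          obtain ⟨h1, h2⟩ := hz2 k u hu
          refine ⟨w * (g ^ k * u * (g ^ k)⁻¹), H.mul_mem hwH (hX h1), ?_, ?_⟩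
          · rw [pow_succ, hw1, pow_succ]; group
          · rw [S.zz_mul_left hwH (hX h1) y.2, hw2, h2, pow_succ]
      obtain ⟨w, hwH, hw1, hw2⟩ := hw p
      rw [hu.2.2, hgp, mul_one] at hw1
      rw [← hw1, S.zz_one_left] at hw2
      have h3 := S.zz_pow (hX hu) y.2
      have hcop : Nat.Coprime p r := (Nat.coprime_primes hp S.prime).2 hpr
      have h4 : zz ρ (u : G) y ^ (Nat.gcd p r) = 1 := by
        rw [pow_gcd_eq_one]
        exact ⟨hw2.symm, h3⟩
      rwa [Nat.Coprime.gcd_eq_one hcop, pow_one] at h4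
  rw [hfix, Set.ncard_singleton, mul_one] at hs
  have hN2 : 1 < I.ncard := by
    rw [Set.one_lt_ncard_iff hIfin]
    obtain ⟨y, hy, hne⟩ := S.exists_ne hxH hxs
    refine ⟨chi ρ X y, chi ρ X (1 : G), ⟨⟨y, hy⟩, rfl⟩, ⟨1, rfl⟩, ?_⟩
    intro h
    have h1 := congrFun h ⟨x, hxX⟩
    change zz ρ x y = zz ρ x 1 at h1
    rw [S.zz_one_right] at h1
    exact hne h1
  set N := I.ncard with hNdef
  -- arithmetic
  obtain ⟨k, hk⟩ : ∃ k, s = k + 1 := ⟨s - 1, by
    have : s ≠ 0 := by rintro rfl; omega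
    omega⟩
  subst hk
  have hp1 : p * (k + 1) = p * k + p := by ring
  have hNk : N = 1 + p * k := by omega
  have hk1 : 1 ≤ k := by
    by_contra h
    have : k = 0 := by omega
    subst this
    omega
  have h3k : 3 * k ≤ p * k := Nat.mul_le_mul_right k hp3
  have h5 : 2 * (k + 1) ≤ N := by omega
  have h6 : 2 * ((k + 1) * d) ≤ N * d := by
    calc 2 * ((k + 1) * d) = (2 * (k + 1)) * d := by ring
      _ ≤ N * d := Nat.mul_le_mul_right d h5
  omega

end setup

end Cfsg.Agent.H933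
end

-- part: H933/ExtraEqual
section
set_option autoImplicit false

/-!
The case of an element of order `r` normalising a group with commutators of order `r`.
-/

namespace Cfsg.Agent.H933

open Module

variable {F : Type*} [Field F] {V : Type*} [AddCommGroup V] [Module F V]
variable {G : Type*} [Group G] {ρ : G →* Module.End F V}

section setup

variable {H : Subgroup G} {r : ℕ} (S : Setup ρ H r)

include S

/-- Step 1: `g` commutes with every `[g, v]`. -/
theorem Setup.equal_step1 [FiniteDimensional F V] [Finite G] {g : G}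
    (hgH : ∀ u ∈ H, g * u * g⁻¹ ∈ H) (hgH' : ∀ u ∈ H, g⁻¹ * u * g ∈ H)
    (hr5 : 5 ≤ r) (hgp : g ^ r = 1) {c : F}
    (hw : Module.finrank F V < 2 * Module.finrank F (Module.End.eigenspace (ρ g) c))
    {v : G} (hv : v ∈ H) : IsZ ρ g (g * v * g⁻¹ * v⁻¹) 1 := by
  have hnt := S.nontrivial
  have hc := c_ne_zero hw
  obtain ⟨t, ht0, htg, htv⟩ := exists_common hw v
  set x := g * v * g⁻¹ * v⁻¹ with hx
  have hxH : x ∈ H := H.mul_mem (hgH v hv) (H.inv_mem hv)
  set u₀ := g * x * g⁻¹ * x⁻¹ with hu₀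
  have hu₀H : u₀ ∈ H := H.mul_mem (hgH x hxH) (H.inv_mem hxH)
  have hu₀t : ρ u₀ t = t := fix_mul (fix_conj hc htg htv) (fix_inv htv)
  by_cases hsc : ∃ b : F, ρ u₀ = b • 1
  · rw [isZ_iff_comm, one_smul]
    exact eq_one_of_fix ht0 hu₀t hsc
  exfalso
  obtain ⟨y₀, hy₀, hne⟩ := S.exists_ne hu₀H hsc
  let X : Set G := {u | u ∈ H ∧ ρ u t = t}
  have hX : X ⊆ H := fun u hu => hu.1
  have hxX : x ∈ X := ⟨hxH, htv⟩
  have hu₀X : u₀ ∈ X := ⟨hu₀H, hu₀t⟩
  have hgX : ∀ u ∈ X, g * u * g⁻¹ ∈ X := fun u hu => ⟨hgH u hu.1, fix_conj hc htg hu.2⟩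
  have hgX' : ∀ u ∈ X, g⁻¹ * u * g ∈ X := fun u hu => ⟨hgH' u hu.1, fix_conj' hc htg hu.2⟩
  obtain ⟨s, d, hN, hwd, hs⟩ := S.count hX ht0 (fun u hu => hu.2) hgH hgH' hgX hgX' S.prime hgp hc
  set I : Set (X → F) := Set.range (fun y : H => chi ρ X y) with hI
  have hIfin : I.Finite := Set.finite_range _
  set A : Set (X → F) := {χ ∈ I | ∀ u : G, ∀ hu : u ∈ X, χ ⟨g⁻¹ * u * g, hgX' u hu⟩ = χ ⟨u, hu⟩}
    with hA
  have hAI : A ⊆ I := fun χ hχ => hχ.1
  have hAfin : A.Finite := hIfin.subset hAI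
  have hζ : IsPrimitiveRoot (zz ρ u₀ y₀) r := by
    have : Fact r.Prime := ⟨S.prime⟩
    have ho : orderOf (zz ρ u₀ y₀) = r := orderOf_eq_prime (S.zz_pow hu₀H hy₀) hne
    exact ho ▸ IsPrimitiveRoot.orderOf _
  -- fixed characters are trivial on `u₀`
  have hAu : ∀ χ ∈ A, χ ⟨u₀, hu₀X⟩ = 1 := by
    rintro _ ⟨⟨y, rfl⟩, hy⟩
    change zz ρ u₀ y = 1
    have h1 : zz ρ (g⁻¹ * (g * x * g⁻¹) * g) y = zz ρ (g * x * g⁻¹) y := hy _ (hgX x hxX)
    have e : g⁻¹ * (g * x * g⁻¹) * g = x := by group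
    rw [e] at h1
    rw [hu₀, S.zz_mul_left (hgH x hxH) (H.inv_mem hxH) y.2, ← h1,
      ← S.zz_mul_left hxH (H.inv_mem hxH) y.2, mul_inv_cancel, S.zz_one_left]
  -- the injection
  have hcard : A.ncard * r ≤ I.ncard := by
    have hAf : Finite A := hAfin
    have hIf : Finite I := hIfin
    let φ : A × Fin r → I := fun q => ⟨q.1.1 * chi ρ X (y₀ ^ (q.2 : ℕ)), by
      obtain ⟨y, hy⟩ := hAI q.1.2
      refine ⟨⟨y * y₀ ^ (q.2 : ℕ), H.mul_mem y.2 (H.pow_mem hy₀ _)⟩, ?_⟩
      change chi ρ X _ = _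
      rw [S.chi_mul hX y.2 (H.pow_mem hy₀ _), ← hy]⟩
    have hφ : Function.Injective φ := by
      rintro ⟨χ, i⟩ ⟨χ', j⟩ h
      have h1 : χ.1 * chi ρ X (y₀ ^ (i : ℕ)) = χ'.1 * chi ρ X (y₀ ^ (j : ℕ)) :=
        congrArg Subtype.val h
      have h2 := congrFun h1 ⟨u₀, hu₀X⟩
      rw [Pi.mul_apply, Pi.mul_apply, hAu _ χ.2, hAu _ χ'.2, one_mul, one_mul] at h2
      change zz ρ u₀ (y₀ ^ (i : ℕ)) = zz ρ u₀ (y₀ ^ (j : ℕ)) at h2
      rw [S.zz_pow_right hu₀H hy₀, S.zz_pow_right hu₀H hy₀] at h2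
      have hij : i = j := Fin.ext (hζ.pow_inj i.2 j.2 h2)
      subst hij
      have h3 : χ = χ' := by
        apply Subtype.ext
        funext u
        have h4 := congrFun h1 u
        rw [Pi.mul_apply, Pi.mul_apply] at h4
        exact mul_right_cancel₀ (S.zz_ne_zero (hX u.2) (H.pow_mem hy₀ _)) h4
      rw [h3]
    have := Nat.card_le_card_of_injective φ hφ
    rwa [Nat.card_prod, Nat.card_coe_set_eq, Nat.card_coe_set_eq, Nat.card_eq_fintype_card,
      Fintype.card_fin] at this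
  set N := I.ncard
  set f := A.ncard
  -- arithmetic
  obtain ⟨q, rfl⟩ : ∃ q, r = q + 1 := ⟨r - 1, by omega⟩
  rw [Nat.add_sub_cancel] at hs
  have h1 : (q + 1) * ((q + 1) * s) ≤ (2 * q + 1) * N := by
    rw [hs]
    nlinarith
  have h2 : 2 * (2 * q + 1) ≤ (q + 1) * (q + 1) := by nlinarith
  have h3 : (q + 1) * (q + 1) * (2 * (s * d)) ≤ (q + 1) * (q + 1) * (N * d) := by
    calc (q + 1) * (q + 1) * (2 * (s * d)) = 2 * (((q + 1) * ((q + 1) * s)) * d) := by ring
      _ ≤ 2 * (((2 * q + 1) * N) * d) := by gcongr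
      _ = (2 * (2 * q + 1)) * (N * d) := by ring
      _ ≤ (q + 1) * (q + 1) * (N * d) := by gcongr
  have h4 : 2 * (s * d) ≤ N * d := Nat.le_of_mul_le_mul_left h3 (by positivity)
  omega

/-- Step 2: some `v` has `[[g, v], v] ≠ 1`. -/
theorem Setup.equal_step2 [FiniteDimensional F V] [Finite G] {g : G}
    (hgH : ∀ u ∈ H, g * u * g⁻¹ ∈ H) (hgH' : ∀ u ∈ H, g⁻¹ * u * g ∈ H)
    (hr5 : 5 ≤ r) (hgp : g ^ r = 1) (hg : ¬ ∃ b : F, ρ g = b • 1) {c : F}
    (hw : Module.finrank F V < 2 * Module.finrank F (Module.End.eigenspace (ρ g) c)) :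
    ∃ v ∈ H, zz ρ (g * v * g⁻¹ * v⁻¹) v ≠ 1 := by
  have hnt := S.nontrivial
  by_contra hcon
  push Not at hcon
  obtain ⟨v, hv, hvs⟩ := S.exists_comm_not_scalar hw hg
  set N : G → G := fun v => g * v * g⁻¹ * v⁻¹ with hN
  have hNH : ∀ v ∈ H, N v ∈ H := fun v hv => H.mul_mem (hgH v hv) (H.inv_mem hv)
  obtain ⟨y, hy, hne⟩ := S.exists_ne (hNH v hv) hvs
  have hgN : ∀ v, g * v * g⁻¹ = N v * v := fun v => by simp [hN]
  -- conjugating `N v` by `g` does nothing
  have hconj : ∀ v ∈ H, ρ (g * N v * g⁻¹) = ρ (N v) := by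
    intro v hv
    have h1 := S.equal_step1 hgH hgH' hr5 hgp hw hv
    unfold IsZ at h1
    rw [one_smul] at h1
    rw [map_mul, map_mul, h1, mul_assoc, rho_mul_inv, mul_one]
  have hzconj : ∀ v ∈ H, ∀ w ∈ H, zz ρ (g * N v * g⁻¹) w = zz ρ (N v) w := by
    intro v hv w hw
    apply zz_eq
    have h1 := S.isZ (hNH v hv) hw
    unfold IsZ at h1 ⊢
    rw [hconj v hv]
    exact h1
  have hNN : ∀ v ∈ H, ∀ w ∈ H, zz ρ (N v) (N w) = 1 := by
    intro v hv w hw
    have h1 := S.zz_conj (hNH v hv) hw g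
    rw [hzconj v hv _ (hgH w hw), hgN w, S.zz_mul_right (hNH v hv) (hNH w hw) hw] at h1
    have h2 := S.zz_ne_zero (hNH v hv) hw
    exact mul_right_cancel₀ h2 (by rw [h1, one_mul])
  have hsymm : ∀ v ∈ H, ∀ w ∈ H, zz ρ (N v) w = zz ρ (N w) v := by
    intro v hv w hw
    have h1 := S.zz_conj hv hw g
    rw [hgN v, hgN w, S.zz_mul_left (hNH v hv) hv (H.mul_mem (hNH w hw) hw),
      S.zz_mul_right (hNH v hv) (hNH w hw) hw, S.zz_mul_right hv (hNH w hw) hw, hNN v hv w hw,
      one_mul] at h1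
    have h2 := S.zz_ne_zero hv hw
    have h3 : zz ρ (N v) w * zz ρ v (N w) = 1 := by
      apply mul_right_cancel₀ h2
      rw [one_mul, mul_assoc]
      exact h1
    have h4 := S.zz_symm (hNH w hw) hv
    rw [h4] at h3
    exact (mul_inv_eq_one₀ (S.zz_ne_zero (hNH w hw) hv)).1 h3
  have h1 := hcon (v * y) (H.mul_mem hv hy)
  have e : g * (v * y) * g⁻¹ * (v * y)⁻¹ = N v * (v * N y * v⁻¹) := by simp only [hN]; group
  have hyN := hNH y hy
  have hvN := hNH v hv
  have hvi := H.inv_mem hv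
  have h2 : ∀ w ∈ H, zz ρ (v * N y * v⁻¹) w = zz ρ (N y) w := by
    intro w hw
    rw [S.zz_mul_left (H.mul_mem hv hyN) hvi hw, S.zz_mul_left hv hyN hw]
    have h3 : zz ρ v w * zz ρ v⁻¹ w = 1 := by
      rw [← S.zz_mul_left hv hvi hw, mul_inv_cancel, S.zz_one_left]
    calc zz ρ v w * zz ρ (N y) w * zz ρ v⁻¹ w = (zz ρ v w * zz ρ v⁻¹ w) * zz ρ (N y) w := by ring
      _ = _ := by rw [h3, one_mul]
  rw [e, S.zz_mul_left hvN (H.mul_mem (H.mul_mem hv hyN) hvi) (H.mul_mem hv hy),
    h2 _ (H.mul_mem hv hy), S.zz_mul_right hvN hv hy, S.zz_mul_right hyN hv hy, hcon v hv,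
    hcon y hy, one_mul, mul_one, ← hsymm v hv y hy] at h1
  -- `zz (N v) y` has odd order
  have h3 := S.zz_pow hvN hy
  have hodd : Nat.Coprime 2 r := by
    rw [Nat.coprime_primes Nat.prime_two S.prime]
    omega
  have h4 : zz ρ (N v) y ^ (Nat.gcd 2 r) = 1 := by
    rw [pow_gcd_eq_one]
    exact ⟨by rw [pow_two]; exact h1, h3⟩
  rw [Nat.Coprime.gcd_eq_one hodd, pow_one] at h4
  exact hne h4

end setup

end Cfsg.Agent.H933
end

-- part: H933/ExtraStepThree
section
set_option autoImplicit false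

/-!
The last step of the case of an element of order `r`, and the final bound.
-/

namespace Cfsg.Agent.H933

open Module DirectSum

variable {F : Type*} [Field F] {V : Type*} [AddCommGroup V] [Module F V]

theorem finrank_iSup_le_sum [FiniteDimensional F V] {I : Type*} [Fintype I] [DecidableEq I]
    (D : I → Submodule F V) :
    Module.finrank F (iSup D : Submodule F V) ≤ ∑ i, Module.finrank F (D i) := by
  rw [← Module.finrank_directSum, ← DirectSum.range_coeLinearMap]
  exact LinearMap.finrank_range_le _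

theorem sum_finrank_le_of_indep_of_le [FiniteDimensional F V] {I : Type*} [Fintype I]
    [DecidableEq I] (D : I → Submodule F V) (hi : iSupIndep D) (U : Submodule F V)
    (hU : ∀ i, D i ≤ U) : ∑ i, Module.finrank F (D i) ≤ Module.finrank F U := by
  have hinj := hi.dfinsupp_lsum_injective
  rw [← Module.finrank_directSum]
  have h1 : Module.finrank F (LinearMap.range (DirectSum.coeLinearMap D)) =
      Module.finrank F (⨁ i, D i) := LinearMap.finrank_range_of_inj hinj
  rw [← h1]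
  apply Submodule.finrank_mono
  rw [DirectSum.range_coeLinearMap]
  exact iSup_le hU

variable {G : Type*} [Group G] {ρ : G →* Module.End F V}

theorem modEq_of_pow_eq {a : F} {r m n : ℕ} (hr : r ≠ 0) (ha : IsPrimitiveRoot a r)
    (h : a ^ m = a ^ n) : m ≡ n [MOD r] := by
  have ha0 : a ≠ 0 := ha.ne_zero hr
  have h2 : ∀ {i j : ℕ}, i ≤ j → a ^ i = a ^ j → i ≡ j [MOD r] := by
    intro i j hij h
    obtain ⟨k, rfl⟩ := Nat.exists_eq_add_of_le hij
    rw [pow_add] at h
    have h3 : a ^ k = 1 := by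
      apply mul_left_cancel₀ (pow_ne_zero i ha0)
      rw [← h, mul_one]
    have h4 := ha.dvd_of_pow_eq_one k h3
    rw [Nat.modEq_iff_dvd' (Nat.le_add_right i k), Nat.add_sub_cancel_left]
    exact h4
  rcases le_total m n with hmn | hmn
  · exact h2 hmn h
  · exact (h2 hmn h.symm).symm

section setup

variable {H : Subgroup G} {r : ℕ} (S : Setup ρ H r)

/-- Triangular numbers modulo an odd prime: at most two to one. -/
theorem tri_inj {r : ℕ} (hr : r.Prime) {i j : ℕ} (hi : i < r) (hj : j < r)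
    (h : i * (i + 1) / 2 ≡ j * (j + 1) / 2 [MOD r]) : i = j ∨ i + j + 1 = r := by
  have hi2 : 2 * (i * (i + 1) / 2) = i * (i + 1) := Nat.mul_div_cancel' (Nat.even_mul_succ_self i).two_dvd
  have hj2 : 2 * (j * (j + 1) / 2) = j * (j + 1) := Nat.mul_div_cancel' (Nat.even_mul_succ_self j).two_dvd
  have h1 := h.mul_left 2
  rw [hi2, hj2] at h1
  have h2 : (r : ℤ) ∣ (j : ℤ) * (j + 1) - i * (i + 1) := by
    have := Nat.modEq_iff_dvd.1 h1
    push_cast at this
    exact this
  have e : (j : ℤ) * (j + 1) - i * (i + 1) = (j - i) * (i + j + 1) := by ring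
  rw [e] at h2
  have hp : Prime (r : ℤ) := Nat.prime_iff_prime_int.1 hr
  rcases hp.dvd_or_dvd h2 with h3 | h3
  · left
    have h4 : (j : ℤ) - i = 0 := by
      apply Int.eq_zero_of_abs_lt_dvd h3
      rw [abs_lt]
      constructor <;> omega
    omega
  · right
    have h5 : (r : ℤ) ∣ ((i + j + 1 : ℕ) : ℤ) := by exact_mod_cast h3
    rw [Int.natCast_dvd_natCast] at h5
    obtain ⟨k, hk⟩ := h5
    have hk1 : k < 2 := by
      by_contra hcon
      have : 2 ≤ k := by omega
      have := Nat.mul_le_mul_left r this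
      omega
    interval_cases k
    · omega
    · omega

include S

/-- Step 3. -/
theorem Setup.equal_step3 [FiniteDimensional F V] {g : G} (hr5 : 5 ≤ r) {c : F}
    (hw : Module.finrank F V < 2 * Module.finrank F (Module.End.eigenspace (ρ g) c))
    {v : G} (hv : v ∈ H) (hxH : g * v * g⁻¹ * v⁻¹ ∈ H)
    (hne : zz ρ (g * v * g⁻¹ * v⁻¹) v ≠ 1) (hgx : IsZ ρ g (g * v * g⁻¹ * v⁻¹) 1) : False := by
  classical
  have hnt := S.nontrivial
  have hc := c_ne_zero hw
  obtain ⟨t, ht0, htg, htv⟩ := exists_common hw v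
  set x := g * v * g⁻¹ * v⁻¹ with hx
  set ω := zz ρ x v with hω
  have hxv : IsZ ρ x v ω := S.isZ hxH hv
  have hωr : ω ^ r = 1 := S.zz_pow hxH hv
  have hω0 : ω ≠ 0 := S.zz_ne_zero hxH hv
  have hωp : IsPrimitiveRoot ω r := by
    have : Fact r.Prime := ⟨S.prime⟩
    have ho : orderOf ω = r := orderOf_eq_prime hωr hne
    exact ho ▸ IsPrimitiveRoot.orderOf _
  have hrpos : NeZero r := ⟨S.prime.ne_zero⟩
  set W := Module.End.eigenspace (ρ g) c with hW
  let D : Fin r → Submodule F V := fun j => Module.End.eigenspace (ρ x) (ω ^ (j : ℕ))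
  -- `⨆ D = ⊤`
  have htop : iSup D = ⊤ := by
    have hinv : ∀ y ∈ H, (iSup D).map (ρ y) ≤ iSup D := by
      intro y hy
      rw [Submodule.map_iSup]
      refine iSup_le fun j => ?_
      obtain ⟨i, hi, hi2⟩ := hωp.eq_pow_of_pow_eq_one (ξ := ω ^ (j : ℕ) * zz ρ x y) (by
        rw [mul_pow, S.zz_pow hxH hy, ← pow_mul, mul_comm (j : ℕ) r, pow_mul, hωr, one_pow, one_mul])
      refine le_trans ?_ (le_iSup D ⟨i, hi⟩)
      rintro _ ⟨w, hw, rfl⟩
      rw [SetLike.mem_coe, Module.End.mem_eigenspace_iff] at hw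
      change ρ y w ∈ Module.End.eigenspace (ρ x) (ω ^ i)
      rw [Module.End.mem_eigenspace_iff, (S.isZ hxH hy).apply, hw, map_smul, smul_smul, hi2,
        mul_comm]
    rcases S.irred _ hinv with h | h
    · exfalso
      have h1 : t ∈ D ⟨0, S.prime.pos⟩ := by
        change t ∈ Module.End.eigenspace (ρ x) (ω ^ 0)
        rw [Module.End.mem_eigenspace_iff, pow_zero, one_smul, htv]
      have h2 : t ∈ iSup D := (le_iSup D _) h1
      rw [h] at h2
      exact ht0 (by simpa using h2)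
    · exact h
  -- `W` is the sum of its intersections
  have hWinv : ∀ w ∈ W, ρ x w ∈ W := by
    intro w hw
    rw [hW, Module.End.mem_eigenspace_iff] at hw ⊢
    rw [hgx.apply, one_smul, hw, map_smul]
  have hωinj : Function.Injective (fun j : Fin r => ω ^ (j : ℕ)) := fun i j hij =>
    Fin.ext (hωp.pow_inj i.2 j.2 hij)
  have hWle : W ≤ ⨆ j, W ⊓ D j := by
    have h1 := Submodule.inf_iSup_genEigenspace (f := ρ x) hWinv 1
    have h2 : (⨆ μ, (ρ x).genEigenspace μ 1) = ⊤ := by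
      rw [eq_top_iff, ← htop]
      exact iSup_le fun j => le_iSup (fun μ => (ρ x).genEigenspace μ 1) (ω ^ (j : ℕ))
    rw [h2, inf_top_eq] at h1
    refine (le_of_eq h1).trans ?_
    refine iSup_le fun μ => ?_
    by_cases hμ : ∃ j : Fin r, ω ^ (j : ℕ) = μ
    · obtain ⟨j, rfl⟩ := hμ
      exact le_iSup (fun j => W ⊓ D j) j
    · -- no eigenvectors
      have h3 : (ρ x).genEigenspace μ 1 ≤ ⊥ := by
        intro w hw
        change w ∈ Module.End.eigenspace (ρ x) μ at hw
        rw [Module.End.mem_eigenspace_iff] at hw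
        rw [Submodule.mem_bot]
        by_contra hw0
        have h4 : ∀ k : ℕ, ρ (x ^ k) w = μ ^ k • w := by
          intro k
          induction k with
          | zero => simp
          | succ k ih => rw [pow_succ, map_mul, Module.End.mul_apply, hw, map_smul, ih, smul_smul,
              pow_succ, mul_comm]
        have h5 : ρ (x ^ r) = 1 := by
          apply eq_one_of_fix ht0 _ (S.pow_scalar hxH)
          have : ∀ k : ℕ, ρ (x ^ k) t = t := by
            intro k
            induction k with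
            | zero => simp
            | succ k ih => rw [pow_succ]; exact fix_mul ih htv
          exact this r
        have h6 := h4 r
        rw [h5, Module.End.one_apply] at h6
        have h7 : μ ^ r = 1 := by
          have h8 : (μ ^ r - 1) • w = 0 := by rw [sub_smul, one_smul, ← h6, sub_self]
          rcases smul_eq_zero.1 h8 with h9 | h9
          · exact sub_eq_zero.1 h9
          · exact absurd h9 hw0
        obtain ⟨i, hi, hi2⟩ := hωp.eq_pow_of_pow_eq_one h7
        exact hμ ⟨⟨i, hi⟩, hi2⟩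
      exact (inf_le_right.trans h3).trans bot_le
  have hwsum : Module.finrank F W ≤ ∑ j, Module.finrank F (W ⊓ D j : Submodule F V) :=
    (Submodule.finrank_mono hWle).trans (finrank_iSup_le_sum _)
  -- the joint eigenspaces
  let E : ℕ → F → Submodule F V := fun j γ =>
    Module.End.eigenspace (ρ x) (ω ^ j) ⊓ Module.End.eigenspace (ρ g) γ
  have hEstep : ∀ j γ, Module.finrank F (E (j + 1) γ) ≤ Module.finrank F (E j (γ * (ω⁻¹) ^ (j + 1))) := by
    intro j γ
    rw [← finrank_map_rho ρ v⁻¹ (E (j + 1) γ)]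
    apply Submodule.finrank_mono
    rintro _ ⟨w, ⟨hw1, hw2⟩, rfl⟩
    rw [SetLike.mem_coe, Module.End.mem_eigenspace_iff] at hw1 hw2
    set s := ρ v⁻¹ w with hs
    have hvs : ρ v s = w := by
      rw [hs, ← Module.End.mul_apply, rho_mul_inv]; rfl
    have hxs : ρ x s = ω ^ j • s := by
      have h1 := hxv.apply s
      rw [hvs, hw1] at h1
      -- ω ^ (j+1) • w = ω • ρ v (ρ x s)
      have h2 : ρ v (ρ x s) = ρ v (ω ^ j • s) := by
        rw [map_smul, hvs]
        have h3 : ω • (ω ^ j • w) = ω • ρ v (ρ x s) := by rw [smul_smul, ← pow_succ']; exact h1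
        exact (smul_right_injective V hω0 h3).symm
      exact rho_inj ρ v h2
    have hgs : ρ g s = (γ * (ω⁻¹) ^ (j + 1)) • s := by
      have h1 : ρ g w = ρ x (ρ v (ρ g s)) := by
        have e : x * v * g = g * v := by rw [hx]; group
        calc ρ g w = ρ g (ρ v s) := by rw [hvs]
          _ = ρ (g * v) s := by rw [map_mul]; rfl
          _ = ρ (x * v * g) s := by rw [e]
          _ = ρ x (ρ v (ρ g s)) := by rw [map_mul, map_mul]; rfl
      rw [hw2] at h1
      -- γ • w = ρ x (ρ v (ρ g s))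
      have h2 : ρ x (ρ v (ρ g s)) = ρ x (ρ v ((γ * (ω⁻¹) ^ (j + 1)) • s)) := by
        rw [← h1, map_smul, hvs, map_smul, hw1, smul_smul, mul_assoc, ← mul_pow,
          inv_mul_cancel₀ hω0, one_pow, mul_one]
      exact rho_inj ρ v (rho_inj ρ x h2)
    exact ⟨Module.End.mem_eigenspace_iff.2 hxs, Module.End.mem_eigenspace_iff.2 hgs⟩
  have htri : ∀ j : ℕ, (j + 1) * (j + 1 + 1) / 2 = j * (j + 1) / 2 + (j + 1) := by
    intro j
    have e : (j + 1) * (j + 1 + 1) = j * (j + 1) + (j + 1) * 2 := by ring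
    rw [e, Nat.add_mul_div_right _ _ (by norm_num)]
  have hE : ∀ j γ, Module.finrank F (E j γ) ≤
      Module.finrank F (E 0 (γ * (ω⁻¹) ^ (j * (j + 1) / 2))) := by
    intro j
    induction j with
    | zero => intro γ; rw [Nat.zero_mul, Nat.zero_div, pow_zero, mul_one]
    | succ j ih =>
      intro γ
      refine (hEstep j γ).trans ?_
      refine (ih _).trans ?_
      rw [htri, mul_assoc, ← pow_add, Nat.add_comm (j + 1)]
  let γ : Fin r → F := fun j => c * (ω⁻¹) ^ ((j : ℕ) * (j + 1) / 2)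
  have hγ : ∀ j : Fin r, Module.finrank F (W ⊓ D j : Submodule F V) ≤ Module.finrank F (E 0 (γ j)) := by
    intro j
    have := hE j c
    have e : (W ⊓ D j : Submodule F V) = E j c := inf_comm _ _
    rw [e]
    exact this
  have hγinj : ∀ i j : Fin r, γ i = γ j → i = j ∨ (i : ℕ) + j + 1 = r := by
    intro i j h
    have h1 := mul_left_cancel₀ hc h
    have h2 : (i : ℕ) * (i + 1) / 2 ≡ (j : ℕ) * (j + 1) / 2 [MOD r] :=
      modEq_of_pow_eq S.prime.ne_zero hωp.inv h1
    rcases tri_inj S.prime i.2 j.2 h2 with h3 | h3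
    · exact Or.inl (Fin.ext h3)
    · exact Or.inr h3
  -- the two halves
  have hhalf : ∀ J : Finset (Fin r), (∀ i ∈ J, ∀ j ∈ J, γ i = γ j → i = j) →
      ∑ j ∈ J, Module.finrank F (E 0 (γ j)) ≤ Module.finrank F (Module.End.eigenspace (ρ x) 1) := by
    intro J hJ
    rw [← Finset.sum_coe_sort J]
    have hind : iSupIndep (fun j : J => E 0 (γ j)) := by
      have h0 := Module.End.eigenspaces_iSupIndep (ρ g)
      have hinj : Function.Injective (fun j : J => γ j) := by
        intro i j hij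
        exact Subtype.ext (hJ i i.2 j j.2 hij)
      exact (h0.comp hinj).mono fun j => inf_le_right
    apply sum_finrank_le_of_indep_of_le _ hind
    intro j
    refine inf_le_left.trans ?_
    rw [pow_zero]
  have hd := mul_finrank_eig_le_of_isZ S.prime hωr hne hxv 1
  set d := Module.finrank F (Module.End.eigenspace (ρ x) 1) with hddef
  let J : Finset (Fin r) := Finset.univ.filter fun j => 2 * (j : ℕ) + 1 ≤ r
  have hsplit : ∑ j, Module.finrank F (E 0 (γ j)) =
      ∑ j ∈ J, Module.finrank F (E 0 (γ j)) + ∑ j ∈ Jᶜ, Module.finrank F (E 0 (γ j)) :=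
    (Finset.sum_add_sum_compl J _).symm
  have hJ1 := hhalf J (by
    intro i hi j hj hij
    rcases hγinj i j hij with h | h
    · exact h
    · apply Fin.ext
      rw [Finset.mem_filter] at hi hj
      omega)
  have hJ2 := hhalf Jᶜ (by
    intro i hi j hj hij
    rcases hγinj i j hij with h | h
    · exact h
    · exfalso
      rw [Finset.mem_compl, Finset.mem_filter] at hi hj
      have hi' : ¬ (2 * (i : ℕ) + 1 ≤ r) := fun h => hi ⟨Finset.mem_univ _, h⟩
      have hj' : ¬ (2 * (j : ℕ) + 1 ≤ r) := fun h => hj ⟨Finset.mem_univ _, h⟩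
      omega)
  have hfinal : Module.finrank F W ≤ 2 * d := by
    refine hwsum.trans ((Finset.sum_le_sum fun j _ => hγ j).trans ?_)
    rw [hsplit]
    omega
  have h5 : 5 * d ≤ r * d := Nat.mul_le_mul_right d hr5
  omega

/-- **Equal case.** -/
theorem Setup.equal_case [FiniteDimensional F V] [Finite G] {g : G}
    (hgH : ∀ u ∈ H, g * u * g⁻¹ ∈ H) (hgH' : ∀ u ∈ H, g⁻¹ * u * g ∈ H)
    (hr5 : 5 ≤ r) (hgp : g ^ r = 1) (hg : ¬ ∃ b : F, ρ g = b • 1) (c : F) :
    2 * Module.finrank F (Module.End.eigenspace (ρ g) c) ≤ Module.finrank F V := by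
  by_contra hcon
  push Not at hcon
  obtain ⟨v, hv, hne⟩ := S.equal_step2 hgH hgH' hr5 hgp hg hcon
  exact S.equal_step3 hr5 hcon hv (H.mul_mem (hgH v hv) (H.inv_mem hv)) hne
    (S.equal_step1 hgH hgH' hr5 hgp hcon hv)

/-- **General case**: `r (2 w - n) ≤ n`, that is `2 r w ≤ (r + 1) n`. -/
theorem Setup.general_case [FiniteDimensional F V] {g : G}
    (hgH : ∀ u ∈ H, g * u * g⁻¹ ∈ H) (hg : ¬ ∃ b : F, ρ g = b • 1) (c : F) :
    2 * r * Module.finrank F (Module.End.eigenspace (ρ g) c) ≤ (r + 1) * Module.finrank F V := by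
  by_cases hw : Module.finrank F V < 2 * Module.finrank F (Module.End.eigenspace (ρ g) c)
  · obtain ⟨v, hv, hvs⟩ := S.exists_comm_not_scalar hw hg
    have h1 := two_mul_finrank_eig_le ρ g v c
    have h2 := S.eig_le (H.mul_mem (hgH v hv) (H.inv_mem hv)) hvs 1
    calc 2 * r * Module.finrank F (Module.End.eigenspace (ρ g) c)
        = r * (2 * Module.finrank F (Module.End.eigenspace (ρ g) c)) := by ring
      _ ≤ r * (Module.finrank F V +
            Module.finrank F (Module.End.eigenspace (ρ (g * v * g⁻¹ * v⁻¹)) 1)) := by gcongr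
      _ = r * Module.finrank F V +
            r * Module.finrank F (Module.End.eigenspace (ρ (g * v * g⁻¹ * v⁻¹)) 1) := by ring
      _ ≤ r * Module.finrank F V + Module.finrank F V := by gcongr
      _ = _ := by ring
  · push Not at hw
    calc 2 * r * Module.finrank F (Module.End.eigenspace (ρ g) c)
        = r * (2 * Module.finrank F (Module.End.eigenspace (ρ g) c)) := by ring
      _ ≤ r * Module.finrank F V := by gcongr
      _ ≤ (r + 1) * Module.finrank F V := by gcongr; omega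

end setup

end Cfsg.Agent.H933
end

-- part: S5877
section
set_option autoImplicit false
open Cfsg

namespace Cfsg.Agent.S5877

open Cfsg.Agent.H933

/-- The natural module of the general linear group as a homomorphism to the endomorphisms. -/
def glRep (F : Type*) [Field F] (n : ℕ) :
    Matrix.GeneralLinearGroup (Fin n) F →* Module.End F (Fin n → F) where
  toFun g := Matrix.toLin' (g : Matrix (Fin n) (Fin n) F)
  map_one' := by simp [Module.End.one_eq_id]
  map_mul' a b := by simp [Matrix.toLin'_mul, Module.End.mul_eq_comp]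

theorem glRep_smul_iff {F : Type*} [Field F] {n : ℕ} (g : Matrix.GeneralLinearGroup (Fin n) F) (c : F) :
    glRep F n g = c • 1 ↔ (g : Matrix (Fin n) (Fin n) F) = c • (1 : Matrix (Fin n) (Fin n) F) := by
  have e : (c • (1 : Module.End F (Fin n → F))) = Matrix.toLin' (c • (1 : Matrix (Fin n) (Fin n) F)) := by
    rw [map_smul, Matrix.toLin'_one]; rfl
  rw [e]
  change Matrix.toLin' (g : Matrix (Fin n) (Fin n) F) = _ ↔ _
  exact Matrix.toLin'.injective.eq_iff

theorem setup {F : Type*} [Field F] [Fintype F] {n r : ℕ}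
    (R : Subgroup (Matrix.GeneralLinearGroup (Fin n) F)) (hr : r.Prime)
    (hZ : Nat.card (Subgroup.center R) = r) (hext : commutator R = Subgroup.center R)
    (hirr : Cfsg.Geo.ActsAbsolutelyIrreducibly (Cfsg.Geo.matrixSet R)) :
    Setup (glRep F n) (R ⊔ Cfsg.Geo.scalars (Fin n) F) r := by
  classical
  -- elements commuting with `R` are scalar
  have habs : ∀ g : Matrix.GeneralLinearGroup (Fin n) F, (∀ v ∈ R, g * v = v * g) →
      ∃ c : F, (g : Matrix (Fin n) (Fin n) F) = c • (1 : Matrix (Fin n) (Fin n) F) := by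
    intro g hg
    apply hirr.2
    rintro _ ⟨v, hv, rfl⟩
    have := hg v hv
    exact congrArg Units.val this
  have hcent : ∀ z : R, z ∈ Subgroup.center R → ∃ c : F, c ^ r = 1 ∧
      ((z : Matrix.GeneralLinearGroup (Fin n) F) : Matrix (Fin n) (Fin n) F) = c • 1 := by
    intro z hz
    obtain ⟨c, hc⟩ := habs z (fun v hv => by
      have := (Subgroup.mem_center_iff.1 hz) ⟨v, hv⟩
      exact (congrArg Subtype.val this).symm)
    by_cases hn : n = 0
    · subst hn
      exact ⟨1, one_pow r, Subsingleton.elim _ _⟩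
    · refine ⟨c, ?_, hc⟩
      have h1 : z ^ r = 1 := by
        have h2 : (⟨z, hz⟩ : Subgroup.center R) ^ Nat.card (Subgroup.center R) = 1 := pow_card_eq_one'
        rw [hZ] at h2
        exact congrArg Subtype.val h2
      have h2 : ((z : Matrix.GeneralLinearGroup (Fin n) F) : Matrix (Fin n) (Fin n) F) ^ r = 1 := by
        have h3 : (z : Matrix.GeneralLinearGroup (Fin n) F) ^ r = 1 := congrArg Subtype.val h1
        have h4 := congrArg Units.val h3
        rwa [Units.val_pow_eq_pow_val] at h4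
      rw [hc, smul_pow, one_pow] at h2
      have h3 := congrFun (congrFun h2 ⟨0, Nat.pos_of_ne_zero hn⟩) ⟨0, Nat.pos_of_ne_zero hn⟩
      simpa using h3
  refine ⟨hr, ?_, ?_, ?_, ?_⟩
  · -- non-trivial
    have hn : n ≠ 0 := by
      rintro rfl
      have hs : Subsingleton (Matrix.GeneralLinearGroup (Fin 0) F) :=
        ⟨fun a b => Units.ext (Subsingleton.elim _ _)⟩
      have hs2 : Subsingleton R := ⟨fun a b => Subtype.ext (hs.elim _ _)⟩
      have hs3 : Subsingleton (Subgroup.center R) := ⟨fun a b => Subtype.ext (hs2.elim _ _)⟩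
      have : Nat.card (Subgroup.center R) = 1 := Nat.card_unique
      rw [this] at hZ
      exact hr.one_lt.ne hZ
    have : Nonempty (Fin n) := ⟨⟨0, Nat.pos_of_ne_zero hn⟩⟩
    exact Function.nontrivial
  · -- commutators
    have hRR : ∀ x ∈ R, ∀ y ∈ R, ∃ c : F, c ^ r = 1 ∧ IsZ (glRep F n) x y c := by
      intro x hx y hy
      have h1 : (⟨x, hx⟩ * ⟨y, hy⟩ * (⟨x, hx⟩)⁻¹ * (⟨y, hy⟩)⁻¹ : R) ∈ Subgroup.center R := by
        rw [← hext, commutator_def]
        exact Subgroup.commutator_mem_commutator (Subgroup.mem_top _) (Subgroup.mem_top _)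
      obtain ⟨c, hc1, hc2⟩ := hcent _ h1
      refine ⟨c, hc1, ?_⟩
      rw [isZ_iff_comm, glRep_smul_iff]
      exact hc2
    have hs1 : ∀ s ∈ Cfsg.Geo.scalars (Fin n) F, ∀ v, IsZ (glRep F n) s v 1 := by
      intro s hs v
      rw [Cfsg.Geo.mem_scalars_iff] at hs
      obtain ⟨c, hc⟩ := hs
      have h1 := (glRep_smul_iff s (c : F)).2 hc
      unfold IsZ
      rw [h1]; simp
    have hs2 : ∀ s ∈ Cfsg.Geo.scalars (Fin n) F, ∀ v, IsZ (glRep F n) v s 1 := by
      intro s hs v
      have := (hs1 s hs v).symm one_ne_zero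
      rwa [inv_one] at this
    intro u hu v hv
    obtain ⟨x, hx, s, hs, rfl⟩ := Subgroup.mem_sup_of_normal_right.1 hu
    obtain ⟨y, hy, t, ht, rfl⟩ := Subgroup.mem_sup_of_normal_right.1 hv
    obtain ⟨c, hc1, hc2⟩ := hRR x hx y hy
    refine ⟨c, hc1, ?_⟩
    have h1 := (hc2.mul_right (hs2 t ht x)).mul_left (hs1 s hs (y * t))
    rwa [mul_one, mul_one] at h1
  · intro W hW
    apply hirr.1 W
    rintro _ ⟨x, hx, rfl⟩
    exact hW x (Subgroup.mem_sup_left hx)
  · intro g hg
    obtain ⟨c, hc⟩ := habs g (fun v hv => by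
      have := hg v (Subgroup.mem_sup_left hv)
      unfold IsZ at this
      rw [one_smul, ← map_mul, ← map_mul] at this
      apply Units.ext
      exact Matrix.toLin'.injective this)
    exact ⟨c, (glRep_smul_iff g c).2 hc⟩

theorem r_dvd {F : Type*} [Field F] [Fintype F] {n r : ℕ}
    (R : Subgroup (Matrix.GeneralLinearGroup (Fin n) F)) (hr : r.Prime)
    (hZ : Nat.card (Subgroup.center R) = r) (hext : commutator R = Subgroup.center R)
    (hirr : Cfsg.Geo.ActsAbsolutelyIrreducibly (Cfsg.Geo.matrixSet R)) : r ∣ n := by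
  classical
  have S := setup R hr hZ hext hirr
  have hnt := S.nontrivial
  obtain ⟨x, hx, y, hy, hxy⟩ : ∃ x ∈ R, ∃ y ∈ R, x * y ≠ y * x := by
    by_contra hcon
    push Not at hcon
    have h1 : commutator R = ⊥ := by
      rw [commutator_def, Subgroup.commutator_eq_bot_iff_le_centralizer]
      intro a _
      rw [Subgroup.mem_centralizer_iff]
      intro b _
      apply Subtype.ext
      exact hcon b b.2 a a.2
    rw [← hext, h1] at hZ
    have : Nat.card (⊥ : Subgroup R) = 1 := Subgroup.card_bot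
    rw [this] at hZ
    exact hr.one_lt.ne hZ
  have hxH : x ∈ R ⊔ Cfsg.Geo.scalars (Fin n) F := Subgroup.mem_sup_left hx
  have hyH : y ∈ R ⊔ Cfsg.Geo.scalars (Fin n) F := Subgroup.mem_sup_left hy
  obtain ⟨c, hc1, hc2⟩ := S.comm x hxH y hyH
  have hne : c ≠ 1 := by
    rintro rfl
    unfold IsZ at hc2
    rw [one_smul, ← map_mul, ← map_mul] at hc2
    apply hxy
    apply Units.ext
    exact Matrix.toLin'.injective hc2
  have h1 : (x : Matrix (Fin n) (Fin n) F) * y = c • ((y : Matrix (Fin n) (Fin n) F) * x) := by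
    unfold IsZ at hc2
    rw [← map_mul, ← map_mul] at hc2
    apply Matrix.toLin'.injective
    rw [map_smul]
    exact hc2
  have h2 := congrArg Matrix.det h1
  rw [Matrix.det_smul, Matrix.det_mul, Matrix.det_mul, Fintype.card_fin] at h2
  have hdx : (x : Matrix (Fin n) (Fin n) F).det ≠ 0 := by
    have := (Matrix.isUnit_iff_isUnit_det _).1 x.isUnit
    exact this.ne_zero
  have hdy : (y : Matrix (Fin n) (Fin n) F).det ≠ 0 := by
    have := (Matrix.isUnit_iff_isUnit_det _).1 y.isUnit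
    exact this.ne_zero
  have h3 : c ^ n = 1 := by
    have h4 : (c ^ n - 1) * ((y : Matrix (Fin n) (Fin n) F).det * (x : Matrix (Fin n) (Fin n) F).det) = 0 := by
      rw [sub_mul, ← h2]; ring
    rcases mul_eq_zero.1 h4 with h5 | h5
    · exact sub_eq_zero.1 h5
    · exact absurd h5 (mul_ne_zero hdy hdx)
  have hF : Fact r.Prime := ⟨hr⟩
  have ho : orderOf c = r := orderOf_eq_prime hc1 hne
  rw [← ho]
  exact orderOf_dvd_of_pow_eq_one h3

/-- Eigenspaces of elements normalising an absolutely irreducible extraspecial group. Let F be a finite field, r a prime, and R ≤ GL_n(F) an absolutely irreducible extraspecial r-group (an r-group whose centre equals its derived subgroup and has order r) of exponent r or 4. Let g ∈ GL_n(F) normalise the product of R with the scalar matrices, have prime order ϖ and not be scalar, and let W be the eigenspace of g for any c ∈ F (W may be the zero subspace). Then dim W ≤ 3n/4 if ϖ = 2, dim W ≤ 2n/3 if ϖ = 3, and dim W ≤ n/2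 if ϖ > 3; moreover if ϖ = 3 and 3 does not divide n then dim W ≤ n/2. -/
theorem result {F : Type*} [Field F] [Fintype F] {n r ϖ : ℕ} (R : Subgroup (Matrix.GeneralLinearGroup (Fin n) F)) (hr : r.Prime) (hR : IsPGroup r R) (hZ : Nat.card (Subgroup.center R) = r) (hext : commutator R = Subgroup.center R) (hexp : Monoid.exponent R = r ∨ Monoid.exponent R = 4) (hirr : Cfsg.Geo.ActsAbsolutelyIrreducibly (Cfsg.Geo.matrixSet R)) (g : Matrix.GeneralLinearGroup (Fin n) F) (hg : g ∈ Cfsg.Geo.subgroupNormalizer (R ⊔ Cfsg.Geo.scalars (Fin n) F)) (hϖ : ϖ.Prime) (hord : orderOf g = ϖ) (hns : g ∉ Cfsg.Geo.scalars (Fin n) F) (c : F) :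
    (ϖ = 2 → 4 * Module.finrank F (Module.End.eigenspace (Matrix.toLin' (g : Matrix (Fin n) (Fin n) F)) c) ≤ 3 * n) ∧
    (ϖ = 3 → 3 * Module.finrank F (Module.End.eigenspace (Matrix.toLin' (g : Matrix (Fin n) (Fin n) F)) c) ≤ 2 * n) ∧
    (3 < ϖ → 2 * Module.finrank F (Module.End.eigenspace (Matrix.toLin' (g : Matrix (Fin n) (Fin n) F)) c) ≤ n) ∧
    (ϖ = 3 → ¬ 3 ∣ n → 2 * Module.finrank F (Module.End.eigenspace (Matrix.toLin' (g : Matrix (Fin n) (Fin n) F)) c) ≤ n) := by
  classical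
  have S := setup R hr hZ hext hirr
  have hGfin : Finite (Matrix.GeneralLinearGroup (Fin n) F) :=
    Finite.of_injective (fun g : Matrix.GeneralLinearGroup (Fin n) F => (g : Matrix (Fin n) (Fin n) F))
      (fun a b h => Units.ext h)
  have hgH : ∀ u ∈ R ⊔ Cfsg.Geo.scalars (Fin n) F, g * u * g⁻¹ ∈ R ⊔ Cfsg.Geo.scalars (Fin n) F := by
    intro u hu
    exact (Subgroup.mem_normalizer_iff.1 hg u).1 hu
  have hgH' : ∀ u ∈ R ⊔ Cfsg.Geo.scalars (Fin n) F, g⁻¹ * u * g ∈ R ⊔ Cfsg.Geo.scalars (Fin n) F := by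
    intro u hu
    apply (Subgroup.mem_normalizer_iff.1 hg _).2
    have e : g * (g⁻¹ * u * g) * g⁻¹ = u := by group
    rw [e]
    exact hu
  have hgs : ¬ ∃ b : F, glRep F n g = b • 1 := by
    rintro ⟨b, hb⟩
    rw [glRep_smul_iff] at hb
    apply hns
    rw [Cfsg.Geo.mem_scalars_iff]
    have hb0 : b ≠ 0 := by
      rintro rfl
      rw [zero_smul] at hb
      have := S.nontrivial
      have hn : Nonempty (Fin n) := by
        by_contra h
        rw [not_nonempty_iff] at h
        exact not_subsingleton (Fin n → F) inferInstance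
      exact g.ne_zero hb
    exact ⟨Units.mk0 b hb0, hb⟩
  have hgp : g ^ ϖ = 1 := by rw [← hord]; exact pow_orderOf_eq_one g
  have hgen := S.general_case hgH hgs c
  have hcop := fun (h3 : 3 ≤ ϖ) (hne : ϖ ≠ r) => S.coprime_case hgH hgH' hϖ h3 hne hgp hgs c
  rw [Module.finrank_fin_fun] at hgen hcop
  change (ϖ = 2 → 4 * Module.finrank F (Module.End.eigenspace (glRep F n g) c) ≤ 3 * n) ∧
    (ϖ = 3 → 3 * Module.finrank F (Module.End.eigenspace (glRep F n g) c) ≤ 2 * n) ∧
    (3 < ϖ → 2 * Module.finrank F (Module.End.eigenspace (glRep F n g) c) ≤ n) ∧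
    (ϖ = 3 → ¬ 3 ∣ n → 2 * Module.finrank F (Module.End.eigenspace (glRep F n g) c) ≤ n)
  set w := Module.finrank F (Module.End.eigenspace (glRep F n g) c)
  refine ⟨?_, ?_, ?_, ?_⟩
  · intro _
    have h2 := hr.two_le
    have h3 : r * (4 * w) ≤ r * (3 * n) := by
      calc r * (4 * w) = 2 * (2 * r * w) := by ring
        _ ≤ 2 * ((r + 1) * n) := by gcongr
        _ = (2 * r + 2) * n := by ring
        _ ≤ (2 * r + r) * n := by gcongr
        _ = r * (3 * n) := by ring
    exact Nat.le_of_mul_le_mul_left h3 hr.pos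
  · intro h3
    by_cases hr3 : r = 3
    · subst hr3
      omega
    · have := hcop (by omega) (by omega)
      omega
  · intro h3
    by_cases hr3 : ϖ = r
    · subst hr3
      have h5 : 5 ≤ ϖ := by
        by_contra h
        have : ϖ = 4 := by omega
        subst this
        exact absurd hϖ (by decide)
      have := S.equal_case hgH hgH' h5 hgp hgs c
      rwa [Module.finrank_fin_fun] at this
    · exact hcop (by omega) hr3
  · intro h3 hn
    apply hcop (by omega)
    rintro rfl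
    apply hn
    rw [← h3]
    exact r_dvd R hr hZ hext hirr

end Cfsg.Agent.S5877
end
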