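import Cfsg.Agent.H951.Lin
import Cfsg.Agent.H952.JordanReal
import Cfsg.Agent.H950.LinMain
import Cfsg.Statements.S5950
import Cfsg.Agent.H950.Generic
set_option linter.all false

-- part: H950/Nilp
section
/-!
# Splitting off cyclic blocks of a nilpotent operator; which dimensions have complemented invariant subspaces
-/

set_option autoImplicit false

namespace Cfsg.Agent.H950

open Module Polynomial Cfsg.Agent.H951

variable {F V : Type*} [Field F] [AddCommGroup V] [Module F V] [FiniteDimensional F V]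

/-- A cyclic block of maximal length splits off. -/
lemma split_block {N : Module.End F V} {U : Submodule F V} (hU : Inv N U) {k : ℕ}
    (hk : ∀ u ∈ U, (N ^ (k + 1)) u = 0) {v : V} (hvU : v ∈ U) (hv : (N ^ k) v ≠ 0) :
    ∃ C W : Submodule F V, Inv N C ∧ Inv N W ∧ C ⊓ W = ⊥ ∧ C ⊔ W = U ∧ finrank F C = k + 1 := by
  classical
  obtain ⟨φ, hφ⟩ : ∃ φ : V →ₗ[F] F, φ ((N ^ k) v) ≠ 0 := by
    by_contra h
    push Not at h
    exact hv ((Module.forall_dual_apply_eq_zero_iff F _).1 h)
  -- large powers vanish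
  have hbig : ∀ j, k < j → ∀ u ∈ U, (N ^ j) u = 0 := by
    intro j hj u hu
    obtain ⟨t, rfl⟩ := Nat.exists_eq_add_of_lt hj
    rw [show k + t + 1 = t + (k + 1) by ring, pow_add, Module.End.mul_apply, hk u hu, map_zero]
  let Φ : V →ₗ[F] (Fin (k + 1) → F) := LinearMap.pi fun l => φ ∘ₗ (N ^ (l : ℕ))
  let Ψ : (Fin (k + 1) → F) →ₗ[F] V := (Fintype.linearCombination F (fun i : Fin (k + 1) => (N ^ (i : ℕ)) v))
  have hΨ : ∀ a, Ψ a = ∑ i, a i • (N ^ (i : ℕ)) v := fun a => Fintype.linearCombination_apply _ _ _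
  have hΨU : ∀ a, Ψ a ∈ U := fun a => by
    rw [hΨ]; exact Submodule.sum_mem _ fun i _ => U.smul_mem _ (hU.pow _ v hvU)
  have hinj : Function.Injective (Φ ∘ₗ Ψ) := by
    rw [injective_iff_map_eq_zero]
    intro a ha
    by_contra hne
    obtain ⟨i, hi⟩ : ∃ i, a i ≠ 0 := by
      by_contra h
      push Not at h
      exact hne (funext h)
    -- minimal index
    obtain ⟨i₀, hi₀, hmin⟩ : ∃ i₀ : Fin (k + 1), a i₀ ≠ 0 ∧ ∀ j : Fin (k + 1), j < i₀ → a j = 0 := by
      have hs : (Finset.univ.filter (fun i => a i ≠ 0)).Nonempty := ⟨i, by simpa using hi⟩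
      refine ⟨Finset.min' _ hs, ?_, ?_⟩
      · have := Finset.min'_mem _ hs
        simpa using this
      · intro j hj
        by_contra h
        exact absurd (Finset.min'_le _ j (by simpa using h)) (not_le.2 hj)
    have h1 := congrFun ha ⟨k - i₀, by omega⟩
    change φ ((N ^ (k - (i₀ : ℕ))) (Ψ a)) = 0 at h1
    rw [hΨ, map_sum, map_sum, Finset.sum_eq_single i₀] at h1
    · rw [map_smul, map_smul, ← Module.End.mul_apply, ← pow_add, Nat.sub_add_cancel (Nat.le_of_lt_succ i₀.2)] at h1
      exact (smul_ne_zero hi₀ hφ) h1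
    · intro j _ hj
      rcases lt_or_gt_of_ne hj with hlt | hlt
      · rw [hmin j hlt, zero_smul, map_zero, map_zero]
      · rw [map_smul, ← Module.End.mul_apply, ← pow_add, hbig _ (by
          have : (i₀ : ℕ) < j := hlt
          have := i₀.2
          omega) v hvU, smul_zero, map_zero]
    · intro h; exact absurd (Finset.mem_univ _) h
  have hsurj : Function.Surjective (Φ ∘ₗ Ψ) := LinearMap.injective_iff_surjective.1 hinj
  refine ⟨LinearMap.range Ψ, LinearMap.ker Φ ⊓ U, ?_, ?_, ?_, ?_, ?_⟩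
  · rintro _ ⟨a, rfl⟩
    rw [hΨ, map_sum]
    refine Submodule.sum_mem _ fun i _ => ?_
    rw [map_smul]
    refine Submodule.smul_mem _ _ ?_
    rw [← Module.End.mul_apply, ← pow_succ']
    rcases Nat.lt_or_ge ((i : ℕ) + 1) (k + 1) with h | h
    · refine ⟨Pi.single ⟨(i : ℕ) + 1, h⟩ 1, ?_⟩
      rw [hΨ, Finset.sum_eq_single ⟨(i : ℕ) + 1, h⟩]
      · simp
      · intro j _ hj; rw [Pi.single_eq_of_ne hj, zero_smul]
      · intro h; exact absurd (Finset.mem_univ _) h
    · rw [hbig _ (by omega) v hvU]; exact Submodule.zero_mem _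
  · rintro w ⟨hw, hwU⟩
    refine ⟨?_, hU w hwU⟩
    change N w ∈ LinearMap.ker Φ
    rw [LinearMap.mem_ker]
    funext l
    change φ ((N ^ (l : ℕ)) (N w)) = 0
    rw [← Module.End.mul_apply, ← pow_succ]
    rcases Nat.lt_or_ge ((l : ℕ) + 1) (k + 1) with h | h
    · exact congrFun (LinearMap.mem_ker.1 hw) ⟨(l : ℕ) + 1, h⟩
    · rw [hbig _ (by omega) w hwU, map_zero]
  · rw [eq_bot_iff]
    rintro _ ⟨⟨a, rfl⟩, hw, -⟩
    have : a = 0 := hinj (by rw [map_zero]; exact LinearMap.mem_ker.1 hw)
    rw [this, map_zero]; exact Submodule.zero_mem _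
  · apply le_antisymm
    · refine sup_le ?_ inf_le_right
      rintro _ ⟨a, rfl⟩; exact hΨU a
    · intro u hu
      obtain ⟨a, ha⟩ := hsurj (Φ u)
      rw [Submodule.mem_sup]
      refine ⟨Ψ a, ⟨a, rfl⟩, u - Ψ a, ⟨?_, U.sub_mem hu (hΨU a)⟩, by abel⟩
      change u - Ψ a ∈ LinearMap.ker Φ
      rw [LinearMap.mem_ker, map_sub, sub_eq_zero]
      exact ha.symm
  · rw [LinearMap.finrank_range_of_inj]
    · exact Module.finrank_fin_fun F
    · exact Function.Injective.of_comp (f := Φ) (by exact hinj)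

/-- A decomposition of an invariant subspace into cyclic blocks, in a form convenient for applications. -/
lemma exists_dec {N : Module.End F V} {p : ℕ} (hN : ∀ v, (N ^ p) v = 0) (U : Submodule F V) (hU : Inv N U) :
    ∃ μ : Multiset ℕ, (∀ a ∈ μ, 0 < a ∧ a ≤ p) ∧ μ.sum = finrank F U ∧
      ∀ ν ≤ μ, ∃ A B : Submodule F V, Inv N A ∧ Inv N B ∧ A ⊓ B = ⊥ ∧ A ⊔ B = U ∧ finrank F A = ν.sum := by
  classical
  induction hn : finrank F U using Nat.strong_induction_on generalizing U with
  | _ n ih =>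
    by_cases h0 : U = ⊥
    · subst h0
      refine ⟨0, by simp, by rw [← hn]; simp, ?_⟩
      intro ν hν
      rw [Multiset.le_zero] at hν
      subst hν
      exact ⟨⊥, ⊥, inv_bot, inv_bot, by simp, by simp, by simp⟩
    · -- the length of the longest block
      obtain ⟨u, hu, hu0⟩ := (Submodule.ne_bot_iff _).1 h0
      have hex : ∃ j, ∀ w ∈ U, (N ^ j) w = 0 := ⟨p, fun w _ => hN w⟩
      have hj0 : Nat.find hex ≠ 0 := by
        intro h
        have := Nat.find_spec hex u hu
        rw [h, pow_zero, Module.End.one_apply] at this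
        exact hu0 this
      obtain ⟨k, hk⟩ := Nat.exists_eq_succ_of_ne_zero hj0
      have hkp : k + 1 ≤ p := by
        rw [← Nat.succ_eq_add_one, ← hk]
        exact Nat.find_min' hex fun w _ => hN w
      have h1 : ∀ w ∈ U, (N ^ (k + 1)) w = 0 := by
        have := Nat.find_spec hex
        rwa [hk] at this
      obtain ⟨v, hvU, hv⟩ : ∃ v ∈ U, (N ^ k) v ≠ 0 := by
        have := Nat.find_min hex (show k < Nat.find hex by omega)
        push Not at this
        exact this
      obtain ⟨C, W, hC, hW, hCW, hCW', hCd⟩ := split_block hU h1 hvU hv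
      have hd := finrank_sup_of_disj hCW
      rw [hCW', hn, hCd] at hd
      obtain ⟨μ, hμ1, hμ2, hμ3⟩ := ih (finrank F W) (by omega) W hW rfl
      refine ⟨(k + 1) ::ₘ μ, ?_, ?_, ?_⟩
      · intro a ha
        rcases Multiset.mem_cons.1 ha with rfl | ha
        · exact ⟨Nat.succ_pos _, hkp⟩
        · exact hμ1 a ha
      · rw [Multiset.sum_cons, hμ2]; omega
      · intro ν hν
        by_cases hkν : (k + 1) ∈ ν
        · obtain ⟨ν', rfl⟩ := Multiset.exists_cons_of_mem hkν
          have hν' : ν' ≤ μ := (Multiset.cons_le_cons_iff _).1 hν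
          obtain ⟨A, B, hA, hB, hAB, hAB', hAd⟩ := hμ3 ν' hν'
          have hCA : C ⊓ A = ⊥ := by
            rw [eq_bot_iff, ← hCW]
            exact inf_le_inf_left _ (by rw [← hAB']; exact le_sup_left)
          have hd2 := finrank_sup_of_disj hAB
          have hd3 := finrank_sup_of_disj hCA
          rw [hAB'] at hd2
          have hsup : (C ⊔ A) ⊔ B = U := by rw [sup_assoc, hAB', hCW']
          have hd4 := Submodule.finrank_sup_add_finrank_inf_eq (C ⊔ A) B
          rw [hsup] at hd4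
          refine ⟨C ⊔ A, B, hC.sup hA, hB, ?_, hsup, ?_⟩
          · apply Submodule.finrank_eq_zero.1; omega
          · rw [hd3, hCd, hAd, Multiset.sum_cons]
        · have hν' : ν ≤ μ := (Multiset.le_cons_of_notMem hkν).1 hν
          obtain ⟨A, B, hA, hB, hAB, hAB', hAd⟩ := hμ3 ν hν'
          have hCB : C ⊓ B = ⊥ := by
            rw [eq_bot_iff, ← hCW]
            exact inf_le_inf_left _ (by rw [← hAB']; exact le_sup_right)
          have hd2 := finrank_sup_of_disj hAB
          have hd3 := finrank_sup_of_disj hCB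
          rw [hAB'] at hd2
          have hsup : A ⊔ (C ⊔ B) = U := by rw [sup_left_comm, hAB', hCW']
          have hd4 := Submodule.finrank_sup_add_finrank_inf_eq A (C ⊔ B)
          rw [hsup] at hd4
          refine ⟨A, C ⊔ B, hA, hC.sup hB, ?_, hsup, hAd⟩
          apply Submodule.finrank_eq_zero.1; omega

/-- The type of a direct sum: if `V = U ⊕ W` is an invariant decomposition for a nilpotent `N` whose powers have the
ranks of the multiset `μ`, then the type of `U` is a sub-multiset of `μ`. -/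
lemma exists_sub_type {N : Module.End F V} {p : ℕ} (hN : N ^ p = 0) {U W : Submodule F V} (hU : Inv N U)
    (hW : Inv N W) (hUW : IsCompl U W) (μ : Multiset ℕ) (hμ : ∀ a ∈ μ, 0 < a)
    (hr : ∀ k, finrank F (LinearMap.range (N ^ k)) = (μ.map (fun b => b - k)).sum) :
    ∃ ν ≤ μ, ν.sum = finrank F U := by
  obtain ⟨s, hs, hs'⟩ := H952.Jordan.exists_type N p hN U (inv_iff_map.1 hU)
  obtain ⟨t, ht, ht'⟩ := H952.Jordan.exists_type N p hN W (inv_iff_map.1 hW)
  have key : s + t = μ := by
    refine H952.Jordan.eq_of_sum_sub _ _ ?_ hμ fun k => ?_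
    · intro b hb
      rcases Multiset.mem_add.1 hb with h | h
      · exact hs b h
      · exact ht b h
    · rw [Multiset.map_add, Multiset.sum_add, hs', ht', ← hr]
      have hinf : U.map (N ^ k) ⊓ W.map (N ^ k) = ⊥ := by
        rw [eq_bot_iff, ← hUW.inf_eq_bot]
        exact inf_le_inf (inv_iff_map.1 (hU.pow k)) (inv_iff_map.1 (hW.pow k))
      rw [← finrank_sup_of_disj hinf, ← Submodule.map_sup, hUW.sup_eq_top, Submodule.map_top]
  refine ⟨s, ?_, ?_⟩
  · rw [← key]; exact Multiset.le_add_right _ _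
  · have h1 := hs' 0
    rw [pow_zero, Module.End.one_eq_id, Submodule.map_id] at h1
    rw [← h1]
    simp

end Cfsg.Agent.H950
end

-- part: H950/Unip
section
/-!
# Elements of order `p` of `PSL_n(q)` and complementary pairs of invariant subspaces
-/

set_option autoImplicit false

namespace Cfsg.Agent.H950

open Module Polynomial Cfsg.Agent.H951

lemma inv_sub_one_iff {F V : Type*} [Field F] [AddCommGroup V] [Module F V] {y : Module.End F V}
    {W : Submodule F V} : Inv (y - 1) W ↔ Inv y W := by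
  constructor
  · intro h w hw
    have := W.add_mem (h w hw) hw
    rwa [LinearMap.sub_apply, Module.End.one_apply, sub_add_cancel] at this
  · intro h w hw
    exact W.sub_mem (h w hw) hw

lemma sub_one_pow_char {F V : Type*} [Field F] [AddCommGroup V] [Module F V] {p : ℕ} [Fact p.Prime] [CharP F p]
    (y : Module.End F V) : (y - 1) ^ p = y ^ p - 1 := by
  have h : (X - 1 : F[X]) ^ p = X ^ p - 1 := by
    rw [sub_pow_char, one_pow]
  have h2 := congrArg (aeval y) h
  simpa using h2

/-- `p`-elements: the combinatorial condition is sufficient. -/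
theorem unip_backward {F : Type*} [Field F] [Fintype F] {p : ℕ} [Fact p.Prime] [CharP F p] {n m : ℕ} (hn : 0 < n)
    (hP : ∀ μ : Multiset ℕ, (∀ a ∈ μ, 0 < a ∧ a ≤ p) → μ.sum = n → ∃ ν : Multiset ℕ, ν ≤ μ ∧ ν.sum = m)
    (x : Matrix.SpecialLinearGroup (Fin n) F) {c : F}
    (hx : (x : Matrix (Fin n) (Fin n) F) ^ p = c • (1 : Matrix (Fin n) (Fin n) F)) :
    ∃ U W : Submodule F (Fin n → F), IsCompl U W ∧ Module.finrank F ↥U = m ∧
        U.map (Matrix.toLin' (x : Matrix (Fin n) (Fin n) F)) ≤ U ∧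
        W.map (Matrix.toLin' (x : Matrix (Fin n) (Fin n) F)) ≤ W := by
  have hc0 : c ≠ 0 := by
    rintro rfl
    have h1 : ((x : Matrix (Fin n) (Fin n) F) ^ p).det = 1 := by
      rw [Matrix.det_pow, x.det_coe, one_pow]
    have : Nonempty (Fin n) := ⟨⟨0, hn⟩⟩
    rw [hx, zero_smul, Matrix.det_zero] at h1
    exact zero_ne_one h1
  obtain ⟨w, hw⟩ : ∃ w : F, w ^ p = c := (PerfectRing.bijective_frobenius (R := F) (p := p)).2 c
  have hw0 : w ≠ 0 := by
    rintro rfl
    exact hc0 (by rw [← hw, zero_pow (Fact.out : p.Prime).ne_zero])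
  set y : Module.End F (Fin n → F) := w⁻¹ • Matrix.toLin' (x : Matrix (Fin n) (Fin n) F) with hy
  have hyp : y ^ p = 1 := rescale_pow (toLin'_pow_eq hx) hw hw0
  have hN : (y - 1) ^ p = 0 := by rw [sub_one_pow_char, hyp, sub_self]
  obtain ⟨μ, hμ1, hμ2, hμ3⟩ := exists_dec (N := y - 1) (p := p) (fun v => by rw [hN]; rfl) ⊤ inv_top
  rw [finrank_top, Module.finrank_fin_fun] at hμ2
  obtain ⟨ν, hν, hνm⟩ := hP μ hμ1 hμ2
  obtain ⟨A, B, hA, hB, hAB, hAB', hAd⟩ := hμ3 ν hν
  have hinv : ∀ {Z : Submodule F (Fin n → F)}, Inv (y - 1) Z →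
      Z.map (Matrix.toLin' (x : Matrix (Fin n) (Fin n) F)) ≤ Z := fun {Z} hZ => by
    rw [← inv_iff_map]
    exact (inv_smul_iff (inv_ne_zero hw0)).1 (inv_sub_one_iff.1 hZ)
  exact ⟨A, B, ⟨disjoint_iff.2 hAB, codisjoint_iff.2 hAB'⟩, hAd.trans hνm, hinv hA, hinv hB⟩

/-- `p`-elements: the combinatorial condition is necessary. -/
theorem unip_forward {F : Type*} [Field F] [Fintype F] {p : ℕ} [Fact p.Prime] [CharP F p] {n m : ℕ} (hn : 0 < n)
    (hmn : m ≤ n)
    (H : ∀ x : Matrix.SpecialLinearGroup (Fin n) F,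
      (∃ c : F, ((x ^ p : Matrix.SpecialLinearGroup (Fin n) F) : Matrix (Fin n) (Fin n) F) = c • (1 : Matrix (Fin n) (Fin n) F)) →
      (∀ c : F, (x : Matrix (Fin n) (Fin n) F) ≠ c • (1 : Matrix (Fin n) (Fin n) F)) →
      ∃ U W : Submodule F (Fin n → F), IsCompl U W ∧ Module.finrank F ↥U = m ∧
        U.map (Matrix.toLin' (x : Matrix (Fin n) (Fin n) F)) ≤ U ∧ W.map (Matrix.toLin' (x : Matrix (Fin n) (Fin n) F)) ≤ W)
    (μ : Multiset ℕ) (hμ : ∀ a ∈ μ, 0 < a ∧ a ≤ p) (hμn : μ.sum = n) : ∃ ν : Multiset ℕ, ν ≤ μ ∧ ν.sum = m := by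
  classical
  subst hμn
  have hpp : p.Prime := Fact.out
  obtain ⟨N, hN⟩ := H952.Jordan.exists_end (F := F) μ
  have hNp : N ^ p = 0 := by
    have h1 := hN p
    have h2 : (μ.map (fun b => b - p)).sum = 0 := by
      rw [Multiset.sum_eq_zero_iff]
      intro a ha
      obtain ⟨b, hb, rfl⟩ := Multiset.mem_map.1 ha
      have := (hμ b hb).2
      omega
    rw [h2] at h1
    exact LinearMap.range_eq_bot.1 (Submodule.finrank_eq_zero.1 h1)
  by_cases hN0 : N = 0
  · have h1 := hN 1
    rw [hN0, pow_one, LinearMap.range_zero, finrank_bot] at h1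
    have h2 : ∀ b ∈ μ, b = 1 := by
      intro b hb
      have h3 : b - 1 = 0 := by
        have h4 := (Multiset.sum_eq_zero_iff.1 h1.symm) (b - 1) (Multiset.mem_map.2 ⟨b, hb, rfl⟩)
        exact h4
      have := (hμ b hb).1
      omega
    have h3 : μ = Multiset.replicate (Multiset.card μ) 1 := Multiset.eq_replicate.2 ⟨rfl, h2⟩
    have h4 : μ.sum = Multiset.card μ := by
      conv_lhs => rw [h3]
      simp
    refine ⟨Multiset.replicate m 1, ?_, by simp⟩
    rw [h3]
    exact (Multiset.replicate_le_replicate 1).2 (by omega)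
  · set y : Module.End F (Fin μ.sum → F) := 1 + N with hy
    have hy1 : y - 1 = N := by rw [hy]; abel
    have hyp : y ^ p = 1 := by
      have := sub_one_pow_char (p := p) y
      rw [hy1, hNp] at this
      exact (sub_eq_zero.1 this.symm)
    set x : Matrix (Fin μ.sum) (Fin μ.sum) F := LinearMap.toMatrix' y with hx
    have hxr : x ^ p = 1 := by
      have h3 := congrArg (LinearMap.toMatrixAlgEquiv' (R := F) (n := Fin μ.sum)) hyp
      rw [map_pow, map_one] at h3
      exact h3
    have hdet : x.det = 1 := by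
      have h1 : x.det ^ p = 1 := by rw [← Matrix.det_pow, hxr, Matrix.det_one]
      have h2 : (frobenius F p) x.det = (frobenius F p) 1 := by rw [map_one]; exact h1
      exact frobenius_inj F p h2
    obtain ⟨U, W, hUW, hU, hUx, hWx⟩ := H ⟨x, hdet⟩ ⟨1, by rw [one_smul]; exact hxr⟩ (by
      intro c hc
      change x = c • 1 at hc
      apply hN0
      have h1 : y = c • 1 := by
        have := congrArg Matrix.toLin' hc
        rw [hx, Matrix.toLin'_toMatrix', map_smul, Matrix.toLin'_one] at this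
        exact this
      have h2 : N = (c - 1) • (1 : Module.End F (Fin μ.sum → F)) := by
        rw [← hy1, h1]
        refine LinearMap.ext fun v => ?_
        change c • v - v = (c - 1) • v
        rw [_root_.sub_smul, one_smul]
      have h3 : (c - 1) ^ p • (1 : Module.End F (Fin μ.sum → F)) = 0 := by
        rw [← hNp, h2, _root_.smul_pow, one_pow]
      have h4 : (1 : Module.End F (Fin μ.sum → F)) ≠ 0 := by
        intro h
        apply hN0
        rw [h2, h, smul_zero]
      have h5 : c - 1 = 0 := eq_zero_of_pow_eq_zero ((smul_eq_zero.1 h3).resolve_right h4)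
      rw [h2, h5, zero_smul])
    have hto : Matrix.toLin' ((⟨x, hdet⟩ : Matrix.SpecialLinearGroup (Fin μ.sum) F) :
        Matrix (Fin μ.sum) (Fin μ.sum) F) = y := by
      change Matrix.toLin' x = y
      rw [hx, Matrix.toLin'_toMatrix']
    rw [hto, ← inv_iff_map, ← inv_sub_one_iff, hy1] at hUx hWx
    obtain ⟨ν, hν, hνU⟩ := exists_sub_type hNp hUx hWx hUW μ (fun a ha => (hμ a ha).1) hN
    exact ⟨ν, hν, hνU.trans hU⟩

lemma sum_one_two (μ : Multiset ℕ) (h : ∀ a ∈ μ, 0 < a ∧ a ≤ 2) : μ.sum = μ.count 1 + 2 * μ.count 2 := by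
  induction μ using Multiset.induction with
  | empty => simp
  | cons a s ih =>
    have h1 := h a (Multiset.mem_cons_self a s)
    have h2 := ih fun b hb => h b (Multiset.mem_cons_of_mem hb)
    have h3 : a = 1 ∨ a = 2 := by omega
    rcases h3 with rfl | rfl
    · rw [Multiset.sum_cons, Multiset.count_cons_self, Multiset.count_cons_of_ne (by norm_num), h2]; ring
    · rw [Multiset.sum_cons, Multiset.count_cons_self, Multiset.count_cons_of_ne (by norm_num), h2]; ring

/-- The combinatorial condition for `p = 2`. -/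
lemma two_cond {n m : ℕ} (hmn : m ≤ n) :
    (∀ μ : Multiset ℕ, (∀ a ∈ μ, 0 < a ∧ a ≤ 2) → μ.sum = n → ∃ ν : Multiset ℕ, ν ≤ μ ∧ ν.sum = m) ↔
      (Odd n ∨ Even m) := by
  constructor
  · intro h
    by_contra hcon
    rw [not_or, Nat.not_odd_iff_even, Nat.not_even_iff_odd] at hcon
    obtain ⟨⟨k, hk⟩, hm⟩ := hcon
    obtain ⟨ν, hν, hνm⟩ := h (Multiset.replicate k 2) (by
      intro a ha; rw [Multiset.eq_of_mem_replicate ha]; omega) (by simp; omega)
    have h2 : ∀ b ∈ ν, b = 2 := fun b hb => Multiset.eq_of_mem_replicate (Multiset.mem_of_le hν hb)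
    have h3 : ν = Multiset.replicate (Multiset.card ν) 2 := Multiset.eq_replicate.2 ⟨rfl, h2⟩
    rw [h3, Multiset.sum_replicate, smul_eq_mul] at hνm
    rw [← hνm] at hm
    exact (Nat.not_odd_iff_even.2 (Even.mul_left even_two _)) hm
  · intro h μ hμ hμn
    rw [sum_one_two μ hμ] at hμn
    set a := μ.count 2 with ha
    set b := μ.count 1 with hb
    set t := min a (m / 2) with ht
    have hpar : m - 2 * t ≤ b ∧ 2 * t ≤ m := by
      rcases le_total a (m / 2) with h1 | h1
      · rw [ht, min_eq_left h1]; omega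
      · rw [ht, min_eq_right h1]
        rcases h with ⟨k, hk⟩ | ⟨k, hk⟩ <;> omega
    refine ⟨Multiset.replicate t 2 + Multiset.replicate (m - 2 * t) 1, ?_, ?_⟩
    · rw [Multiset.le_iff_count]
      intro j
      rw [Multiset.count_add, Multiset.count_replicate, Multiset.count_replicate]
      by_cases h1 : j = 2
      · subst h1
        simp only [if_true, ← ha]
        rw [if_neg (by norm_num)]
        have := min_le_left a (m / 2)
        omega
      · by_cases h2 : j = 1
        · subst h2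
          simp only [if_true, ← hb]
          rw [if_neg (by norm_num)]
          omega
        · rw [if_neg (Ne.symm h1), if_neg (Ne.symm h2)]
          exact Nat.zero_le _
    · rw [Multiset.sum_add, Multiset.sum_replicate, Multiset.sum_replicate, smul_eq_mul, smul_eq_mul]
      omega

end Cfsg.Agent.H950
end

-- part: S5950
section
set_option autoImplicit false
open scoped MatrixGroups
open Cfsg

namespace Cfsg.Agent.S5950

/-- Elements of prime order of PSL_n(q) fixing no decomposition `F^n = U ⊕ W` with `dim U = m`. Here `T = PSL_n(F)` for a field `F` with `q = p^f` elements (`n ≥ 2`, `(n, q) ≠ (2, 2), (2, 3)`); an element of `T` of prime order `r` is represented by a matrix `x` of determinant 1 with `x^r` scalar and `x` not scalar; `i` denotes the multiplicative order of `q` modulo `r` (when `r ≠ p`), and `(a)_r` the `r`-part of `a`. Let `n ≥ 3`, `1 ≤ m < n/2`, and let `r` be a prime dividing the number of such decompositions (unordered pairs `{U, W}` of complementary subspaces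 with `dim U = m`; since `m ≠ n − m` these are the ordered pairs with `dim U = m`). Then every element of `T` of order `r` fixes such a pair (fixes both `U` and `W` for some complementary `U, W` with `dim U = m`) if and only if one of: (i) `r = p > 2` and every partition of `n` into parts of size at most `p` contains, as a sub-multiset, a partition of `m`; (ii) `r = p = 2` and `n` is odd or `m` is even; (iii) `r ≠ p`, `i = 1`, and `r ∣ m` or `(q−1)_r ≥ (n)_r` (with `q ≡ 1 (mod 4)` required when `r = 2` and `n` is even); (iv) `r ≠ p`, `2 ≤ i ≤ m` and `n mod i ≥ m mod i`. -/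
theorem result {F : Type*} [Field F] [Fintype F] {p : ℕ} [Fact p.Prime] [CharP F p] {q : ℕ} (hq : Fintype.card F = q)
    (n m : ℕ) (hn : 3 ≤ n) (hm : 1 ≤ m) (hmn : 2 * m < n)
    (r : ℕ) [Fact r.Prime]
    (hrΩ : r ∣ Nat.card {P : Submodule F (Fin n → F) × Submodule F (Fin n → F) // IsCompl P.1 P.2 ∧ Module.finrank F ↥P.1 = m}) :
    (∀ x : Matrix.SpecialLinearGroup (Fin n) F,
      (∃ c : F, ((x ^ r : Matrix.SpecialLinearGroup (Fin n) F) : Matrix (Fin n) (Fin n) F) = c • (1 : Matrix (Fin n) (Fin n) F)) →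
      (∀ c : F, (x : Matrix (Fin n) (Fin n) F) ≠ c • (1 : Matrix (Fin n) (Fin n) F)) →
      ∃ U W : Submodule F (Fin n → F), IsCompl U W ∧ Module.finrank F ↥U = m ∧
        U.map (Matrix.toLin' (x : Matrix (Fin n) (Fin n) F)) ≤ U ∧ W.map (Matrix.toLin' (x : Matrix (Fin n) (Fin n) F)) ≤ W) ↔
    ((r = p ∧ 2 < p ∧ (∀ μ : Multiset ℕ, (∀ a ∈ μ, 0 < a ∧ a ≤ p) → μ.sum = n → ∃ ν : Multiset ℕ, ν ≤ μ ∧ ν.sum = m)) ∨
     (r = p ∧ p = 2 ∧ (Odd n ∨ Even m)) ∨
     (r ≠ p ∧
      ((orderOf (q : ZMod r) = 1 ∧ (r ∣ m ∨ (padicValNat r n ≤ padicValNat r (q - 1) ∧ (r = 2 → Even n → q % 4 = 1)))) ∨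
       (2 ≤ orderOf (q : ZMod r) ∧ orderOf (q : ZMod r) ≤ m ∧ m % orderOf (q : ZMod r) ≤ n % orderOf (q : ZMod r))))) := by
  classical
  subst hq
  have hrp : r.Prime := Fact.out
  have hq1 : 1 < Fintype.card F := Fintype.one_lt_card
  by_cases hrne : r = p
  · subst hrne
    have key : (∀ x : Matrix.SpecialLinearGroup (Fin n) F,
        (∃ c : F, ((x ^ r : Matrix.SpecialLinearGroup (Fin n) F) : Matrix (Fin n) (Fin n) F) = c • (1 : Matrix (Fin n) (Fin n) F)) →
        (∀ c : F, (x : Matrix (Fin n) (Fin n) F) ≠ c • (1 : Matrix (Fin n) (Fin n) F)) →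
        ∃ U W : Submodule F (Fin n → F), IsCompl U W ∧ Module.finrank F ↥U = m ∧
          U.map (Matrix.toLin' (x : Matrix (Fin n) (Fin n) F)) ≤ U ∧ W.map (Matrix.toLin' (x : Matrix (Fin n) (Fin n) F)) ≤ W) ↔
        (∀ μ : Multiset ℕ, (∀ a ∈ μ, 0 < a ∧ a ≤ r) → μ.sum = n → ∃ ν : Multiset ℕ, ν ≤ μ ∧ ν.sum = m) := by
      constructor
      · intro h μ hμ hμn
        exact H950.unip_forward (by omega) (by omega) h μ hμ hμn
      · rintro h x ⟨c, hx⟩ -
        exact H950.unip_backward (by omega) h x hx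
    rw [key]
    constructor
    · intro h
      rcases Nat.lt_or_ge 2 r with h2 | h2
      · exact Or.inl ⟨rfl, h2, h⟩
      · have h3 : r = 2 := le_antisymm h2 hrp.two_le
        subst h3
        exact Or.inr (Or.inl ⟨rfl, rfl, (H950.two_cond (by omega)).1 h⟩)
    · rintro (⟨-, -, h⟩ | ⟨-, h2, h⟩ | ⟨h, -⟩)
      · exact h
      · subst h2
        exact (H950.two_cond (by omega)).2 h
      · exact absurd rfl h
  · have hrq : ¬ r ∣ Fintype.card F := by
      obtain ⟨k, -, hk⟩ := FiniteField.card F p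
      rw [hk]
      intro h
      exact hrne ((Nat.prime_dvd_prime_iff_eq hrp Fact.out).1 (hrp.dvd_of_dvd_pow h))
    obtain ⟨j, hjm, hj⟩ := H950.exists_of_dvd_card_compl (Module.finrank_fin_fun F) (by omega) rfl hrp hrq hrΩ
    obtain ⟨hrF, -⟩ := H950.cast_ne_zero_of_not_dvd (p := p) hrp hrq
    have hi0 : 0 < orderOf (Fintype.card F : ZMod r) := H951.ord_pos hrF
    obtain ⟨hin, hmodj⟩ := H950.ord_bounds (show j < n by omega) hj
    set i := orderOf (Fintype.card F : ZMod r) with hi
    have hC : (i ≤ m ∧ m % i ≤ n % i) ↔ m % i ≤ n % i := by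
      refine ⟨fun h => h.2, fun h => ⟨?_, h⟩⟩
      by_contra hlt
      rw [Nat.mod_eq_of_lt (by omega)] at h
      omega
    rw [or_iff_right (fun h => hrne h.1), or_iff_right (fun h => hrne h.1), and_iff_right hrne, hC]
    have hinv : ∀ {x : Module.End F (Fin n → F)} {W : Submodule F (Fin n → F)}, H951.Inv x W → W.map x ≤ W :=
      fun h => H951.inv_iff_map.1 h
    refine H950.generic hrF (by omega) hin
      (fun x => ∃ U W : Submodule F (Fin n → F), IsCompl U W ∧ Module.finrank F ↥U = m ∧ U.map x ≤ U ∧ W.map x ≤ W)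
      (r ∣ m) (m % i ≤ n % i) ?_ ?_ ?_ ?_ ?_
    · rintro x d hd ⟨U, W, hUW, hU, hUx, hWx⟩
      exact ⟨U, W, hUW, hU, hinv ((H950.inv_smul_iff hd).1 (H951.inv_iff_map.2 hUx)),
        hinv ((H950.inv_smul_iff hd).1 (H951.inv_iff_map.2 hWx))⟩
    · intro x c hP hx
      have hae : Polynomial.aeval x (Polynomial.X ^ r - Polynomial.C c : Polynomial F) = 0 := by
        rw [map_sub, map_pow, Polynomial.aeval_X, Polynomial.aeval_C, hx, Algebra.algebraMap_eq_smul_one, sub_self]
      constructor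
      · rintro ⟨U, W, hUW, hU, hUx, hWx⟩
        have h1 := H950.natDegree_dvd_of_inv hP hae (H951.inv_iff_map.2 hUx)
        rwa [Polynomial.natDegree_X_pow_sub_C, hU] at h1
      · rintro ⟨k, hk⟩
        obtain ⟨U, -, hU, hUd⟩ := H950.exists_inv_natDegree hP hae (H951.inv_top (x := x)) (j := k) (by
          rw [Polynomial.natDegree_X_pow_sub_C, finrank_top, Module.finrank_fin_fun]; omega)
        rw [Polynomial.natDegree_X_pow_sub_C, ← hk] at hUd
        obtain ⟨W, hW, -, hUW, hUW'⟩ := H951.exists_rel_compl (H950.semisimple_of_irred hP hae) hU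
          (H951.inv_top (x := x)) le_top
        exact ⟨U, W, ⟨disjoint_iff.2 hUW, codisjoint_iff.2 hUW'⟩, hUd, hinv hU, hinv hW⟩
    · intro x hx h
      obtain ⟨U, -, hU, hUd⟩ := H950.exists_inv_of_mod hrF hx (H951.inv_top (x := x)) (m := m)
        (by rw [finrank_top, Module.finrank_fin_fun]; omega)
        (by rw [finrank_top, Module.finrank_fin_fun]; exact h)
      obtain ⟨W, hW, -, hUW, hUW'⟩ := H951.exists_rel_compl (H951.semisimple_of_pow hrF hx) hU
        (H951.inv_top (x := x)) le_top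
      exact ⟨U, W, ⟨disjoint_iff.2 hUW, codisjoint_iff.2 hUW'⟩, hUd, hinv hU, hinv hW⟩
    · rintro x hx hfx ⟨U, W, hUW, hU, hUx, hWx⟩
      have h1 := H950.mod_le_of_inv hrF hx (H951.inv_iff_map.2 hUx)
      rw [hU, ← hi] at h1
      refine h1.trans ?_
      rw [hi, ← hfx]
      exact Submodule.finrank_mono inf_le_right
    · intro h
      change i = 1 at h
      rw [h, Nat.mod_one, Nat.mod_one]

end Cfsg.Agent.S5950
end
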