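import Cfsg.Statements.S5951
import Cfsg.Agent.H950.Generic
set_option linter.all false

set_option autoImplicit false
open scoped MatrixGroups
open Cfsg

namespace Cfsg.Agent.S5951

/-- Elements of prime order of PSL_n(q) fixing no pair of subspaces `U < W` with `dim U = m`, `dim W = n − m`. Here `T = PSL_n(F)` for a field `F` with `q = p^f` elements (`n ≥ 2`, `(n, q) ≠ (2, 2), (2, 3)`); an element of `T` of prime order `r` is represented by a matrix `x` of determinant 1 with `x^r` scalar and `x` not scalar; `i` denotes the multiplicative order of `q` modulo `r` (when `r ≠ p`), and `(a)_r` the `r`-part of `a`. Let `1 ≤ m < n/2` and let `r` be a prime dividing the number of such pairs. Then every element of `T` of order `r` fixes such a pair (both `U` and `W`) if and only if `r ≠ p` and either (i) `i = 1` and (`r ∣ m`, or `(q−1)_r ≥ (n)_r` with `q ≡ 1 (mod 4)` required when `r = 2` and `n` is even), or (ii) `2 ≤ i ≤ m` and `n mod i ≥ 2 (m mod i)`. -/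
theorem result {F : Type*} [Field F] [Fintype F] {p : ℕ} [Fact p.Prime] [CharP F p] {q : ℕ} (hq : Fintype.card F = q)
    (n m : ℕ) (hn : 2 ≤ n) (hT : (n, q) ≠ (2, 2) ∧ (n, q) ≠ (2, 3)) (hm : 1 ≤ m) (hmn : 2 * m < n)
    (r : ℕ) [Fact r.Prime]
    (hrΩ : r ∣ Nat.card {P : Submodule F (Fin n → F) × Submodule F (Fin n → F) //
        P.1 ≤ P.2 ∧ Module.finrank F ↥P.1 = m ∧ Module.finrank F ↥P.2 = n - m}) :
    (∀ x : Matrix.SpecialLinearGroup (Fin n) F,
      (∃ c : F, ((x ^ r : Matrix.SpecialLinearGroup (Fin n) F) : Matrix (Fin n) (Fin n) F) = c • (1 : Matrix (Fin n) (Fin n) F)) →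
      (∀ c : F, (x : Matrix (Fin n) (Fin n) F) ≠ c • (1 : Matrix (Fin n) (Fin n) F)) →
      ∃ U W : Submodule F (Fin n → F), U ≤ W ∧ Module.finrank F ↥U = m ∧ Module.finrank F ↥W = n - m ∧
        U.map (Matrix.toLin' (x : Matrix (Fin n) (Fin n) F)) ≤ U ∧ W.map (Matrix.toLin' (x : Matrix (Fin n) (Fin n) F)) ≤ W) ↔
    (r ≠ p ∧
      ((orderOf (q : ZMod r) = 1 ∧ (r ∣ m ∨ (padicValNat r n ≤ padicValNat r (q - 1) ∧ (r = 2 → Even n → q % 4 = 1)))) ∨
       (2 ≤ orderOf (q : ZMod r) ∧ orderOf (q : ZMod r) ≤ m ∧ 2 * (m % orderOf (q : ZMod r)) ≤ n % orderOf (q : ZMod r)))) := by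
  classical
  subst hq
  have hrp : r.Prime := Fact.out
  have hq1 : 1 < Fintype.card F := Fintype.one_lt_card
  obtain ⟨j, hjm, hj⟩ := H950.exists_of_dvd_card_flags (Module.finrank_fin_fun F) (by omega) rfl hrp hrΩ
  have hrq := H950.not_dvd_of_dvd_pow_sub_one hrp hq1.le (show 0 < n - j by omega) hj
  obtain ⟨hrF, hrne⟩ := H950.cast_ne_zero_of_not_dvd (p := p) hrp hrq
  have hi0 : 0 < orderOf (Fintype.card F : ZMod r) := H951.ord_pos hrF
  obtain ⟨hin, hmodj⟩ := H950.ord_bounds (show j < n by omega) hj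
  set i := orderOf (Fintype.card F : ZMod r) with hi
  have hC : (i ≤ m ∧ 2 * (m % i) ≤ n % i) ↔ 2 * (m % i) ≤ n % i := by
    refine ⟨fun h => h.2, fun h => ⟨?_, h⟩⟩
    by_contra hlt
    rw [Nat.mod_eq_of_lt (by omega)] at h
    omega
  rw [and_iff_right hrne, hC]
  refine H950.generic hrF (by omega) hin
    (fun x => ∃ U W : Submodule F (Fin n → F), U ≤ W ∧ Module.finrank F ↥U = m ∧ Module.finrank F ↥W = n - m ∧
      U.map x ≤ U ∧ W.map x ≤ W) (r ∣ m) (2 * (m % i) ≤ n % i)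
    ?_ ?_ ?_ ?_ ?_
  · rintro x d hd ⟨U, W, hUW, hU, hW, hUx, hWx⟩
    exact ⟨U, W, hUW, hU, hW, H951.inv_iff_map.1 ((H950.inv_smul_iff hd).1 (H951.inv_iff_map.2 hUx)),
      H951.inv_iff_map.1 ((H950.inv_smul_iff hd).1 (H951.inv_iff_map.2 hWx))⟩
  · intro x c hP hx
    have hae : Polynomial.aeval x (Polynomial.X ^ r - Polynomial.C c : Polynomial F) = 0 := by
      rw [map_sub, map_pow, Polynomial.aeval_X, Polynomial.aeval_C, hx, Algebra.algebraMap_eq_smul_one, sub_self]
    have hrn : r ∣ n := by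
      have h1 := H950.natDegree_dvd_of_inv hP hae (H951.inv_top (x := x))
      rwa [Polynomial.natDegree_X_pow_sub_C, finrank_top, Module.finrank_fin_fun] at h1
    constructor
    · rintro ⟨U, W, hUW, hU, hW, hUx, hWx⟩
      have h1 := H950.natDegree_dvd_of_inv hP hae (H951.inv_iff_map.2 hUx)
      rwa [Polynomial.natDegree_X_pow_sub_C, hU] at h1
    · intro hrm
      obtain ⟨k, hk⟩ := Nat.dvd_sub hrn hrm
      obtain ⟨l, hl⟩ := hrm
      obtain ⟨W, -, hW, hWd⟩ := H950.exists_inv_natDegree hP hae (H951.inv_top (x := x)) (j := k) (by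
        rw [Polynomial.natDegree_X_pow_sub_C, finrank_top, Module.finrank_fin_fun]; omega)
      rw [Polynomial.natDegree_X_pow_sub_C, ← hk] at hWd
      obtain ⟨U, hUW, hU, hUd⟩ := H950.exists_inv_natDegree hP hae hW (j := l) (by
        rw [Polynomial.natDegree_X_pow_sub_C, hWd]; omega)
      rw [Polynomial.natDegree_X_pow_sub_C, ← hl] at hUd
      exact ⟨U, W, hUW, hUd, hWd, H951.inv_iff_map.1 hU, H951.inv_iff_map.1 hW⟩
  · intro x hx h
    have h1 : (n - m) % i = n % i - m % i := H950.sub_mod_of hi0 (by omega) (by omega)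
    have h2 : (n - 2 * m) % i = n % i - 2 * (m % i) := H950.sub_two_mod_of hi0 (by omega) h
    obtain ⟨U, -, hU, hUd⟩ := H950.exists_inv_of_mod hrF hx (H951.inv_top (x := x)) (m := m)
      (by rw [finrank_top, Module.finrank_fin_fun]; omega)
      (by rw [finrank_top, Module.finrank_fin_fun, ← hi]; omega)
    obtain ⟨Z, hZ, -, hUZ, hUZ'⟩ := H951.exists_rel_compl (H951.semisimple_of_pow hrF hx) hU (H951.inv_top (x := x))
      le_top
    have hZd : Module.finrank F Z = n - m := by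
      have := H951.finrank_sup_of_disj hUZ
      rw [hUZ', finrank_top, Module.finrank_fin_fun, hUd] at this
      omega
    obtain ⟨W, hWZ, hW, hWd⟩ := H950.exists_inv_of_mod hrF hx hZ (m := n - 2 * m)
      (by rw [hZd]; omega) (by rw [hZd, ← hi, h1, h2]; omega)
    refine ⟨U, U ⊔ W, le_sup_left, hUd, ?_, H951.inv_iff_map.1 hU, H951.inv_iff_map.1 (hU.sup hW)⟩
    rw [H951.finrank_sup_of_disj, hUd, hWd]
    · omega
    · rw [eq_bot_iff, ← hUZ]
      exact inf_le_inf_left _ hWZ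
  · rintro x hx hfx ⟨U, W, hUW, hU, hW, hUx, hWx⟩
    exact H950.two_mul_mod_le hrF hx (H951.inv_iff_map.2 hUx) (H951.inv_iff_map.2 hWx) hUW hU hW (by omega) hfx
  · intro h
    change i = 1 at h
    rw [h, Nat.mod_one, Nat.mod_one]

end Cfsg.Agent.S5951
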